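import Cfsg.Agent.Lib.Helper81KulDefs

set_option autoImplicit false

/-! PROJECT 83 (KUL), piece A-CUBE. -/

namespace Cfsg.Agent.Lib.Helper17KulCUBE

open Cfsg.Agent.Lib.Helper81KulDefs

variable {k : Type*} [Field k] {R : Type*} [Ring R] [Algebra k R]

theorem mul_mem_pow {J : Submodule k R} {m n l : ℕ} (hl : m + n = l) {a b : R} (ha : a ∈ J ^ m)
    (hb : b ∈ J ^ n) : a * b ∈ J ^ l := by
  rw [← hl, pow_add]
  exact Submodule.mul_mem_mul ha hb

theorem mem_pow_one {J : Submodule k R} {a : R} (ha : a ∈ J) : a ∈ J ^ 1 := by rwa [pow_one]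

theorem cube [Module.Finite k R] {J : Submodule k R} (hJ : NilAlg J) {x y : R} (hx : x ∈ J)
    (hy : y ∈ J)
    (h : J ≤ Submodule.span k {x, y} ⊔ J ^ 2)
    (h2 : J ^ 2 ≤ Submodule.span k {x * y - y * x} ⊔ J ^ 3) (hxx : x * x ∈ J ^ 3) :
    J ^ 3 ≤ J ^ 4 := by
  set c := x * y - y * x with hc
  have hx1 := mem_pow_one hx
  have hy1 := mem_pow_one hy
  have hxy2 : x * y ∈ J ^ 2 := mul_mem_pow rfl hx1 hy1
  have hyx2 : y * x ∈ J ^ 2 := mul_mem_pow rfl hy1 hx1
  have hyy2 : y * y ∈ J ^ 2 := mul_mem_pow rfl hy1 hy1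
  have hc2 : c ∈ J ^ 2 := Submodule.sub_mem _ hxy2 hyx2
  obtain ⟨_, h1, r, hr, e1⟩ := Submodule.mem_sup.1 (h2 hxy2)
  obtain ⟨β, rfl⟩ := Submodule.mem_span_singleton.1 h1
  obtain ⟨_, h1', r'', hr'', e3⟩ := Submodule.mem_sup.1 (h2 hyy2)
  obtain ⟨δ, rfl⟩ := Submodule.mem_span_singleton.1 h1'
  have e2 : (β - 1) • c + r = y * x := by
    have : y * x = x * y - c := by rw [hc]; abel
    rw [this, ← e1, sub_smul, one_smul]; abel
  -- the five relations
  have r1 : β • (x * c) ∈ J ^ 4 := by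
    have : β • (x * c) = (x * x) * y - x * r := by
      rw [mul_assoc, ← e1, mul_add, mul_smul_comm]; abel
    rw [this]
    exact Submodule.sub_mem _ (mul_mem_pow rfl hxx hy1) (mul_mem_pow rfl hx1 hr)
  have r2 : (β - 1) • (x * c) - β • (c * x) ∈ J ^ 4 := by
    have : (β - 1) • (x * c) - β • (c * x) = r * x - x * r := by
      have e : x * (y * x) = (x * y) * x := (mul_assoc _ _ _).symm
      rw [← e1, ← e2, mul_add, add_mul, mul_smul_comm, smul_mul_assoc] at e
      rw [sub_eq_sub_iff_add_eq_add, e, add_comm]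
    rw [this]
    exact Submodule.sub_mem _ (mul_mem_pow rfl hr hx1) (mul_mem_pow rfl hx1 hr)
  have r3 : (β - 1) • (c * x) ∈ J ^ 4 := by
    have : (β - 1) • (c * x) = y * (x * x) - r * x := by
      rw [← mul_assoc, ← e2, add_mul, smul_mul_assoc]; abel
    rw [this]
    exact Submodule.sub_mem _ (mul_mem_pow rfl hy1 hxx) (mul_mem_pow rfl hr hx1)
  have hxc : x * c ∈ J ^ 4 := by
    by_cases hβ : β = 0
    · rw [hβ, zero_smul, sub_zero, zero_sub, neg_smul, one_smul] at r2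
      exact (Submodule.neg_mem_iff _).1 r2
    · exact (Submodule.smul_mem_iff _ hβ).1 r1
  have hcx : c * x ∈ J ^ 4 := by
    by_cases hβ : β - 1 = 0
    · have hβ1 : β = 1 := sub_eq_zero.1 hβ
      rw [hβ, zero_smul, zero_sub, hβ1, one_smul] at r2
      exact (Submodule.neg_mem_iff _).1 r2
    · exact (Submodule.smul_mem_iff _ hβ).1 r3
  have r4 : β • (y * c) - (β - 1) • (c * y) ∈ J ^ 4 := by
    have : β • (y * c) - (β - 1) • (c * y) = r * y - y * r := by
      have e : y * (x * y) = (y * x) * y := (mul_assoc _ _ _).symm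
      rw [← e1, ← e2, mul_add, add_mul, mul_smul_comm, smul_mul_assoc] at e
      rw [sub_eq_sub_iff_add_eq_add, e, add_comm]
    rw [this]
    exact Submodule.sub_mem _ (mul_mem_pow rfl hr hy1) (mul_mem_pow rfl hy1 hr)
  have r5 : (β - 1) • (y * c) ∈ J ^ 4 := by
    have : (β - 1) • (y * c) = δ • (c * x) + r'' * x - y * r := by
      have e : y * (y * x) = (y * y) * x := (mul_assoc _ _ _).symm
      rw [← e3, ← e2, mul_add, add_mul, mul_smul_comm, smul_mul_assoc] at e
      rw [← e]; abel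
    rw [this]
    exact Submodule.sub_mem _ (Submodule.add_mem _ (Submodule.smul_mem _ _ hcx)
      (mul_mem_pow rfl hr'' hx1)) (mul_mem_pow rfl hy1 hr)
  have hyc : y * c ∈ J ^ 4 := by
    by_cases hβ : β - 1 = 0
    · have hβ1 : β = 1 := sub_eq_zero.1 hβ
      rw [hβ, zero_smul, sub_zero, hβ1, one_smul] at r4
      exact r4
    · exact (Submodule.smul_mem_iff _ hβ).1 r5
  -- conclusion
  rw [pow_succ' J 2, Submodule.mul_le]
  intro a ha b hb
  obtain ⟨_, h3, a', ha', rfl⟩ := Submodule.mem_sup.1 (h ha)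
  obtain ⟨s, t, rfl⟩ := Submodule.mem_span_pair.1 h3
  obtain ⟨_, h4, b', hb', rfl⟩ := Submodule.mem_sup.1 (h2 hb)
  obtain ⟨u, rfl⟩ := Submodule.mem_span_singleton.1 h4
  have e : (s • x + t • y + a') * (u • c + b')
      = (s * u) • (x * c) + (t * u) • (y * c) + u • (a' * c) + (s • x + t • y + a') * b' := by
    simp only [mul_add, add_mul, smul_mul_assoc, mul_smul_comm, smul_add, smul_smul]
    rw [mul_comm u s, mul_comm u t]
  rw [e]
  refine Submodule.add_mem _ (Submodule.add_mem _ (Submodule.add_mem _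
    (Submodule.smul_mem _ _ hxc) (Submodule.smul_mem _ _ hyc))
    (Submodule.smul_mem _ _ (mul_mem_pow rfl ha' hc2))) (mul_mem_pow rfl (mem_pow_one ha) hb')

end Cfsg.Agent.Lib.Helper17KulCUBE
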