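import Cfsg.Agent.Lib.Helper81KulDefs

set_option autoImplicit false
set_option linter.unusedVariables false
set_option linter.unusedSectionVars false

/-! PROJECT 83 (KUL), piece B-EXT. -/

namespace Cfsg.Agent.Lib.Helper17KulEXT

open Cfsg.Agent.Lib.Helper81KulDefs

variable {k : Type*} [Field k] {R : Type*} [Ring R] [Algebra k R] [Module.Finite k R]

theorem trace_ext {i e : R} (hi : i * i = i) (hec : ∀ a, e * a = a * e) (hei : e * i = i)
    {n : ℕ} (x y : Fin n → R) (he : e = ∑ s, x s * i * y s) (f : R →ₗ[k] k)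
    (hf : ∀ a ∈ Cor (k := k) i, ∀ b ∈ Cor (k := k) i, f (a * b) = f (b * a)) :
    ∃ F : R →ₗ[k] k, (∀ a b, F (a * b) = F (b * a)) ∧ (∀ a, F (e * a) = F a) ∧
      ∀ a ∈ Cor (k := k) i, F a = f a := by
  have hie : i * e = i := by rw [← hec, hei]
  let F : R →ₗ[k] k :=
    ∑ s, f ∘ₗ (LinearMap.mulRight k (x s * i)) ∘ₗ (LinearMap.mulLeft k (i * y s))
  have hF : ∀ a, F a = ∑ s, f (i * y s * a * (x s * i)) := by
    intro a
    simp only [F, LinearMap.sum_apply, LinearMap.comp_apply, LinearMap.mulRight_apply,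
      LinearMap.mulLeft_apply]
  have hP : ∀ (s t : Fin n) (a : R), i * y s * a * (x t * i) ∈ Cor (k := k) i := by
    intro s t a
    refine ⟨?_, ?_⟩
    · simp only [← mul_assoc, hi]
    · simp only [mul_assoc, hi]
  have hFab : ∀ a b, F (a * b)
      = ∑ s, ∑ t, f ((i * y s * a * (x t * i)) * (i * y t * b * (x s * i))) := by
    intro a b
    rw [hF]
    refine Finset.sum_congr rfl fun s _ => ?_
    rw [← map_sum]
    congr 1
    have h1 : i * y s * (a * b) * (x s * i) = i * y s * a * e * (b * (x s * i)) := by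
      have : i * y s * a * e = i * y s * a := by
        rw [← hec, ← mul_assoc, ← mul_assoc, hei]
      rw [this]
      simp only [mul_assoc]
    rw [h1, he, Finset.mul_sum, Finset.sum_mul]
    refine Finset.sum_congr rfl fun t _ => ?_
    have : x t * i * y t = x t * i * (i * y t) := by
      rw [mul_assoc (x t) i (i * y t), ← mul_assoc i i, hi, mul_assoc]
    rw [this]
    simp only [mul_assoc]
  refine ⟨F, ?_, ?_, ?_⟩
  · intro a b
    rw [hFab a b, hFab b a, Finset.sum_comm]
    refine Finset.sum_congr rfl fun s _ => Finset.sum_congr rfl fun t _ => ?_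
    exact hf _ (hP _ _ _) _ (hP _ _ _)
  · intro a
    rw [hF, hF]
    refine Finset.sum_congr rfl fun s _ => ?_
    congr 2
    rw [← mul_assoc, mul_assoc i (y s) e, ← hec, ← mul_assoc, hie]
  · intro a ha
    obtain ⟨h1, h2⟩ := ha
    rw [hF]
    have h3 : ∀ s, f (i * y s * a * (x s * i)) = f (a * (x s * i * y s) * i) := by
      intro s
      have m1 : i * y s * i ∈ Cor (k := k) i :=
        ⟨by simp only [← mul_assoc, hi], by simp only [mul_assoc, hi]⟩
      have m2 : a * (x s * i) ∈ Cor (k := k) i :=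
        ⟨by rw [← mul_assoc, h1], by simp only [mul_assoc, hi]⟩
      have e1 : i * y s * a * (x s * i) = (i * y s * i) * (a * (x s * i)) := by
        rw [mul_assoc (i * y s) i, ← mul_assoc i a, h1, mul_assoc]
      have e2 : a * (x s * i * y s) * i = (a * (x s * i)) * (i * y s * i) := by
        have : x s * i * y s = x s * i * (i * y s) := by
          rw [mul_assoc (x s) i (i * y s), ← mul_assoc i i, hi, mul_assoc]
        rw [this]
        simp only [mul_assoc]
      rw [e1, e2]
      exact hf _ m1 _ m2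
    rw [Finset.sum_congr rfl fun s _ => h3 s, ← map_sum, ← Finset.sum_mul, ← Finset.mul_sum, ← he,
      mul_assoc, hei, h2]

end Cfsg.Agent.Lib.Helper17KulEXT
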