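import Cfsg.Agent.Lib.Helper81KulDefs

set_option autoImplicit false
set_option linter.unusedVariables false
set_option linter.unusedSectionVars false

/-! PROJECT 83 (KUL), piece B-FR. -/

namespace Cfsg.Agent.Lib.Helper17KulFR

open Cfsg.Agent.Lib.Helper81KulDefs

variable {k : Type*} [Field k] {R : Type*} [Ring R] [Algebra k R] [Module.Finite k R]

theorem finrank_Cor {i : R} (hi : i * i = i) (hi0 : i ≠ 0) (hJ : NilAlg (Jc (k := k) i))
    (hJC : Jc (k := k) i ≤ Cor i) (hC : Cor (k := k) i ≤ Submodule.span k {i} ⊔ Jc i) :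
    Module.finrank k (Cor (k := k) i) = Module.finrank k (Jc (k := k) i) + 1 := by
  have hpow : ∀ m : ℕ, i ^ (m + 1) = i := by
    intro m
    induction m with
    | zero => simp
    | succ m ih => rw [pow_succ, ih, hi]
  have hinf : Submodule.span k {i} ⊓ Jc (k := k) i = ⊥ := by
    rw [eq_bot_iff]
    rintro a ⟨h1, h2⟩
    obtain ⟨c, rfl⟩ := Submodule.mem_span_singleton.1 h1
    obtain ⟨m, hm⟩ := hJ.nil _ h2
    have hm' : (c • i) ^ (m + 1) = 0 := by rw [pow_succ, hm, zero_mul]
    rw [smul_pow, hpow] at hm'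
    rcases smul_eq_zero.1 hm' with h | h
    · rw [pow_eq_zero_iff (Nat.succ_ne_zero m)] at h
      rw [h, zero_smul]
      exact Submodule.zero_mem _
    · exact absurd h hi0
  have hsup : Submodule.span k {i} ⊔ Jc (k := k) i = Cor i := by
    apply le_antisymm _ hC
    refine sup_le ?_ hJC
    rw [Submodule.span_le]
    rintro _ rfl
    exact ⟨hi, hi⟩
  have := Submodule.finrank_sup_add_finrank_inf_eq (Submodule.span k {i}) (Jc (k := k) i)
  rw [hinf, hsup, finrank_bot, add_zero, finrank_span_singleton hi0] at this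
  rw [this, add_comm]

end Cfsg.Agent.Lib.Helper17KulFR
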