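import Cfsg.Agent.Lib.Helper81KulDefs

set_option autoImplicit false
set_option linter.unusedVariables false

/-! PROJECT 83 (KUL), piece A-ISO. -/

namespace Cfsg.Agent.Lib.Helper17KulISO

open Cfsg.Agent.Lib.Helper81KulDefs

variable {k : Type*} [Field k] {R : Type*} [Ring R] [Algebra k R] [Module.Finite k R]

theorem isotropic [IsAlgClosed k] {J : Submodule k R} (hJ : NilAlg J) {x y c : R} (hx : x ∈ J)
    (hy : y ∈ J) (h : J ≤ Submodule.span k {x, y} ⊔ J ^ 2)
    (h2 : J ^ 2 ≤ Submodule.span k {c} ⊔ J ^ 3) :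
    ∃ x' ∈ J, ∃ y' ∈ J, J ≤ Submodule.span k {x', y'} ⊔ J ^ 2 ∧ x' * x' ∈ J ^ 3 := by
  have mm : ∀ a ∈ J, ∀ b ∈ J, a * b ∈ J ^ 2 := fun a ha b hb => by
    rw [sq]; exact Submodule.mul_mem_mul ha hb
  obtain ⟨_, h1, r1, hr1, e1⟩ := Submodule.mem_sup.1 (h2 (mm x hx x hx))
  obtain ⟨α, rfl⟩ := Submodule.mem_span_singleton.1 h1
  obtain ⟨_, h1', r2, hr2, e2⟩ := Submodule.mem_sup.1
    (h2 (Submodule.add_mem _ (mm x hx y hy) (mm y hy x hx)))
  obtain ⟨β, rfl⟩ := Submodule.mem_span_singleton.1 h1'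
  obtain ⟨_, h1'', r3, hr3, e3⟩ := Submodule.mem_sup.1 (h2 (mm y hy y hy))
  obtain ⟨γ, rfl⟩ := Submodule.mem_span_singleton.1 h1''
  by_cases hα : α = 0
  · refine ⟨x, hx, y, hy, h, ?_⟩
    rw [← e1, hα, zero_smul, zero_add]
    exact hr1
  · obtain ⟨s, hs⟩ := IsAlgClosed.exists_root
      (Polynomial.C α * Polynomial.X ^ 2 + Polynomial.C β * Polynomial.X + Polynomial.C γ)
      (by rw [Polynomial.degree_quadratic hα]; norm_num)
    have hs' : α * s ^ 2 + β * s + γ = 0 := by
      simpa [Polynomial.IsRoot.def] using hs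
    refine ⟨s • x + y, Submodule.add_mem _ (Submodule.smul_mem _ _ hx) hy, x, hx, ?_, ?_⟩
    · refine h.trans (sup_le_sup_right ?_ _)
      rw [Submodule.span_le]
      rintro z (rfl | rfl)
      · exact Submodule.subset_span (by simp)
      · have : (1 : k) • (s • x + z) + (-s) • x = z := by
          rw [one_smul, neg_smul]; abel
        exact Submodule.mem_span_pair.2 ⟨1, -s, this⟩
    · have e : (s • x + y) * (s • x + y)
          = (α * s ^ 2 + β * s + γ) • c + ((s ^ 2) • r1 + s • r2 + r3) := by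
        have : (s • x + y) * (s • x + y) = (s ^ 2) • (x * x) + s • (x * y + y * x) + y * y := by
          simp only [mul_add, add_mul, smul_mul_assoc, mul_smul_comm, smul_add, smul_smul, sq]
          abel
        rw [this, ← e1, ← e2, ← e3]
        simp only [smul_add, smul_smul, add_smul]
        rw [mul_comm (s ^ 2) α, mul_comm s β]
        abel
      rw [e, hs', zero_smul, zero_add]
      exact Submodule.add_mem _ (Submodule.add_mem _ (Submodule.smul_mem _ _ hr1)
        (Submodule.smul_mem _ _ hr2)) hr3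

end Cfsg.Agent.Lib.Helper17KulISO
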