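import Cfsg.Agent.Lib.Helper81KulDefs

set_option autoImplicit false
set_option linter.unusedVariables false
set_option linter.unusedSectionVars false

/-! PROJECT 83 (KUL), piece B-SYM. -/

namespace Cfsg.Agent.Lib.Helper17KulSYM

open Cfsg.Agent.Lib.Helper81KulDefs

variable {k : Type*} [Field k] {R : Type*} [Ring R] [Algebra k R] [Module.Finite k R]

theorem symF_Jc {i : R} (hi : i * i = i) (hJC : Jc (k := k) i ≤ Cor i)
    (hC : Cor (k := k) i ≤ Submodule.span k {i} ⊔ Jc i) (lam : R →ₗ[k] k)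
    (hsym : ∀ a b, lam (a * b) = lam (b * a)) (hnd : ∀ a, a ≠ 0 → ∃ b, lam (a * b) ≠ 0) :
    SymF (Jc (k := k) i) lam := by
  refine ⟨fun a _ b _ => hsym a b, fun a ha ha0 => ?_⟩
  obtain ⟨b, hb⟩ := hnd a ha0
  obtain ⟨h1, h2⟩ := hJC ha
  have hmem : i * b * i ∈ Cor (k := k) i :=
    ⟨by rw [← mul_assoc, ← mul_assoc, hi], by rw [mul_assoc, hi]⟩
  have e : lam (a * (i * b * i)) = lam (a * b) := by
    calc lam (a * (i * b * i)) = lam ((a * i * b) * i) := by simp only [mul_assoc]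
      _ = lam (i * (a * i * b)) := hsym _ _
      _ = lam ((i * a) * i * b) := by simp only [mul_assoc]
      _ = lam (a * b) := by rw [h1, h2]
  obtain ⟨_, h3, n, hn, e2⟩ := Submodule.mem_sup.1 (hC hmem)
  obtain ⟨c, rfl⟩ := Submodule.mem_span_singleton.1 h3
  rw [← e2, mul_add, mul_smul_comm, h2, map_add, map_smul, smul_eq_mul] at e
  by_cases hl : lam a = 0
  · right
    refine ⟨n, hn, fun h0 => hb ?_⟩
    rw [← e, hl, h0, mul_zero, add_zero]
  · exact Or.inl hl

end Cfsg.Agent.Lib.Helper17KulSYM
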