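import Cfsg.Agent.Lib.Helper96SpBasic

set_option autoImplicit false
set_option linter.unusedSectionVars false

/-! PROJECT 5 = ASCH-O, piece `saodd`: an adjoint-closed field of odd degree is self-adjoint.
Also: the adjoint map `st` on an adjoint-closed commutative subalgebra, as a linear map. -/

namespace Cfsg.Agent.Lib.Helper17OSaodd

open Cfsg Cfsg.Geo Matrix
open Cfsg.Agent.Lib.Helper96SpDefs

variable {ι : Type} [Fintype ι] [DecidableEq ι] {F : Type*} [Field F]
variable {f : (ι → F) → (ι → F) → F} {K : Subalgebra F (Matrix ι ι F)}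

/-- the adjoint of an element of an adjoint-closed subalgebra -/
noncomputable def st (hadj : IsAdjointClosedFor f K) (x : K) : K :=
  ⟨Classical.choose (hadj x x.2), (Classical.choose_spec (hadj x x.2)).1⟩

lemma st_adj (hadj : IsAdjointClosedFor f K) (x : K) :
    IsAdj f (x : Matrix ι ι F) (st hadj x : Matrix ι ι F) :=
  (Classical.choose_spec (hadj x x.2)).2

lemma st_unique (hf : IsSymmetricForm f) (hadj : IsAdjointClosedFor f K) {x y : K}
    (h : IsAdj f (x : Matrix ι ι F) (y : Matrix ι ι F)) : st hadj x = y :=
  Subtype.ext ((st_adj hadj x).unique hf.bilinear hf.nondegenerate h)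

lemma st_add (hf : IsSymmetricForm f) (hadj : IsAdjointClosedFor f K) (x y : K) :
    st hadj (x + y) = st hadj x + st hadj y :=
  st_unique hf hadj ((st_adj hadj x).add hf.bilinear (st_adj hadj y))

lemma st_smul (hf : IsSymmetricForm f) (hadj : IsAdjointClosedFor f K) (c : F) (x : K) :
    st hadj (c • x) = c • st hadj x :=
  st_unique hf hadj ((st_adj hadj x).smul hf.bilinear c)

lemma st_one (hf : IsSymmetricForm f) (hadj : IsAdjointClosedFor f K) : st hadj 1 = 1 :=
  st_unique hf hadj IsAdj.one

lemma st_st (hf : IsSymmetricForm f) (hadj : IsAdjointClosedFor f K) (x : K) :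
    st hadj (st hadj x) = x :=
  st_unique hf hadj ((st_adj hadj x).symm_of_symm hf.symm)

lemma st_mul (hf : IsSymmetricForm f) (hadj : IsAdjointClosedFor f K) (x y : K) :
    st hadj (x * y) = st hadj y * st hadj x :=
  st_unique hf hadj ((st_adj hadj x).mul (st_adj hadj y))

/-- the adjoint as a linear map -/
noncomputable def stL (hf : IsSymmetricForm f) (hadj : IsAdjointClosedFor f K) : K →ₗ[F] K where
  toFun := st hadj
  map_add' := st_add hf hadj
  map_smul' := st_smul hf hadj

@[simp] lemma stL_apply (hf : IsSymmetricForm f) (hadj : IsAdjointClosedFor f K) (x : K) :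
    stL hf hadj x = st hadj x := rfl

/-- the symmetric elements -/
noncomputable def fixS (hf : IsSymmetricForm f) (hadj : IsAdjointClosedFor f K) : Submodule F K :=
  LinearMap.ker (LinearMap.id - stL hf hadj)

lemma mem_fixS (hf : IsSymmetricForm f) (hadj : IsAdjointClosedFor f K) (x : K) :
    x ∈ fixS hf hadj ↔ st hadj x = x := by
  unfold fixS
  rw [LinearMap.mem_ker, LinearMap.sub_apply, LinearMap.id_apply, stL_apply, sub_eq_zero, eq_comm]

/-- key dimension count: a field with a non-trivial adjoint map has twice the dimension of its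
symmetric part. -/
theorem finrank_eq_two_mul (hf : IsSymmetricForm f) {r : ℕ} (hK : IsFieldSubalgebra r K)
    (hadj : IsAdjointClosedFor f K) (a : K) (ha : st hadj a ≠ a) :
    r = 2 * Module.finrank F (fixS hf hadj) := by
  have hcomm : ∀ x y : K, x * y = y * x := fun x y => Subtype.ext (hK.comm x x.2 y y.2)
  set T : K →ₗ[F] K := LinearMap.id - stL hf hadj with hT
  have hTapp : ∀ x, T x = x - st hadj x := fun x => rfl
  set b : K := a - st hadj a with hb
  have hb0 : b ≠ 0 := sub_ne_zero.mpr (Ne.symm ha)
  have hstsub : ∀ x y : K, st hadj (x - y) = st hadj x - st hadj y := by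
    intro x y
    exact (stL hf hadj).map_sub x y
  have hstneg : ∀ x : K, st hadj (-x) = - st hadj x := fun x => (stL hf hadj).map_neg x
  have hstb : st hadj b = -b := by
    rw [hb, hstsub, st_st hf]; abel
  obtain ⟨b', hb'K, hbb'⟩ := hK.inv b b.2 (fun h => hb0 (Subtype.ext h))
  set c : K := ⟨b', hb'K⟩ with hc
  have hbc : b * c = 1 := Subtype.ext hbb'
  have hstc : st hadj c = -c := by
    have h1 : st hadj c * st hadj b = 1 := by rw [← st_mul hf, hbc, st_one hf]
    rw [hstb] at h1
    have h2 : st hadj c = st hadj c * (b * c) := by rw [hbc, mul_one]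
    rw [h2, ← mul_assoc]
    have h3 : st hadj c * b = -1 := by
      have h4 : st hadj c * -b = -(st hadj c * b) := _root_.mul_neg (st hadj c) b
      rw [h4] at h1
      rw [← h1, neg_neg]
    rw [h3]
    exact neg_one_mul c
  have hrange : LinearMap.range T = (fixS hf hadj).map (LinearMap.mulLeft F b) := by
    apply le_antisymm
    · rintro _ ⟨x, rfl⟩
      rw [Submodule.mem_map]
      refine ⟨T x * c, ?_, ?_⟩
      · rw [mem_fixS, st_mul hf, hstc, hTapp, hstsub, st_st hf, hcomm]
        have h5 : (st hadj x - x) * -c = (x - st hadj x) * c := by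
          have h6 : (st hadj x - x) * -c = -((st hadj x - x) * c) := _root_.mul_neg (st hadj x - x) c
          have h7 : -((st hadj x - x) * c) = (-(st hadj x - x)) * c := (_root_.neg_mul (st hadj x - x) c).symm
          rw [h6, h7, neg_sub]
        exact h5
      · rw [LinearMap.mulLeft_apply, hcomm (T x), ← mul_assoc, hbc, one_mul]
    · rintro _ ⟨y, hy, rfl⟩
      have hy' : st hadj y = y := (mem_fixS hf hadj y).mp hy
      refine ⟨y * a, ?_⟩
      rw [hTapp, st_mul hf, hy', LinearMap.mulLeft_apply, hb, hcomm (st hadj a), ← mul_sub, hcomm]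
  have hinj : Function.Injective (LinearMap.mulLeft F b) := by
    intro x y hxy
    rw [LinearMap.mulLeft_apply, LinearMap.mulLeft_apply] at hxy
    have : c * (b * x) = c * (b * y) := by rw [hxy]
    rwa [← mul_assoc, ← mul_assoc, hcomm c, hbc, one_mul, one_mul] at this
  have hfr : Module.finrank F ((fixS hf hadj).map (LinearMap.mulLeft F b)) =
      Module.finrank F (fixS hf hadj) :=
    (Submodule.equivMapOfInjective _ hinj (fixS hf hadj)).finrank_eq.symm
  have hrn := LinearMap.finrank_range_add_finrank_ker T
  rw [hrange, hfr, hK.finrank_eq] at hrn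
  have hker : LinearMap.ker T = fixS hf hadj := rfl
  rw [hker] at hrn
  omega

/-- [saodd] an adjoint-closed field of odd degree is self-adjoint (all characteristics). -/
theorem selfAdjoint_of_odd_degree [Finite F] (hf : IsSymmetricForm f) {r : ℕ} (hr : Odd r)
    (K : Subalgebra F (Matrix ι ι F)) (hK : IsFieldSubalgebra r K) (hadj : IsAdjointClosedFor f K) :
    IsSelfAdjointFor f K := by
  intro k hk u v
  by_cases h : st hadj ⟨k, hk⟩ = ⟨k, hk⟩
  · have := st_adj hadj ⟨k, hk⟩ u v
    rw [h] at this
    exact this
  · exfalso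
    have := finrank_eq_two_mul hf hK hadj ⟨k, hk⟩ h
    rw [this] at hr
    exact (Nat.not_odd_iff_even.mpr (even_two_mul _)) hr

end Cfsg.Agent.Lib.Helper17OSaodd
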