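import Cfsg.Prelude.Def_GeometricClasses

set_option autoImplicit false

namespace Cfsg.Agent.Lib.Helper97GBase

open Cfsg Cfsg.Geo Matrix
open scoped MatrixGroups

variable {ι : Type} [Fintype ι] [DecidableEq ι] {F : Type*} [Field F]

/-- `H` normalizes `T`. -/
def Nz (H T : Subgroup (GL ι F)) : Prop := ∀ h ∈ H, ∀ x ∈ T, h * x * h⁻¹ ∈ T

/-- `W` is invariant under `T`. -/
def Inv (T : Subgroup (GL ι F)) (W : Submodule F (ι → F)) : Prop :=
  ∀ t ∈ T, ∀ w ∈ W, (t : Matrix ι ι F) *ᵥ w ∈ W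

lemma eq_inf_of_le {H X : Subgroup (GL ι F)}
    (hH : IsMaximalIn (specialLinear ι F) H) (hle : H ≤ X)
    (hX : ¬ specialLinear ι F ≤ X) : H = X ⊓ specialLinear ι F := by
  rcases hH.2 (X ⊓ specialLinear ι F) (le_inf hle hH.1.le) inf_le_right with h | h
  · exact h.symm
  · exact absurd (inf_eq_right.mp h) hX

lemma inv_iff {T : Subgroup (GL ι F)} {W : Submodule F (ι → F)} :
    (∀ s ∈ matrixSet T, W.map (Matrix.toLin' s) ≤ W) ↔ Inv T W := by
  constructor
  · intro h t ht w hw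
    have := h _ ⟨t, ht, rfl⟩ (Submodule.mem_map_of_mem hw)
    simpa [Matrix.toLin'_apply] using this
  · rintro h _ ⟨t, ht, rfl⟩ _ ⟨w, hw, rfl⟩
    simpa [Matrix.toLin'_apply] using h t ht w hw

lemma actsIrreducibly_iff {T : Subgroup (GL ι F)} :
    ActsIrreducibly (matrixSet T) ↔ ∀ W, Inv T W → W = ⊥ ∨ W = ⊤ := by
  unfold ActsIrreducibly
  simp only [inv_iff]

@[simp] lemma inv_mulVec_mulVec (g : GL ι F) (v : ι → F) :
    ((g⁻¹ : GL ι F) : Matrix ι ι F) *ᵥ ((g : Matrix ι ι F) *ᵥ v) = v := by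
  rw [Matrix.mulVec_mulVec, ← Units.val_mul, inv_mul_cancel, Units.val_one, Matrix.one_mulVec]

@[simp] lemma mulVec_inv_mulVec (g : GL ι F) (v : ι → F) :
    (g : Matrix ι ι F) *ᵥ (((g⁻¹ : GL ι F) : Matrix ι ι F) *ᵥ v) = v := by
  rw [Matrix.mulVec_mulVec, ← Units.val_mul, mul_inv_cancel, Units.val_one, Matrix.one_mulVec]

lemma mulVec_injective (g : GL ι F) :
    Function.Injective (fun v => (g : Matrix ι ι F) *ᵥ v) := by
  intro u v h
  have := congrArg (fun w => ((g⁻¹ : GL ι F) : Matrix ι ι F) *ᵥ w) h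
  simpa using this

lemma le_subspaceStabilizer_of_Inv {H : Subgroup (GL ι F)} {W : Submodule F (ι → F)}
    (h : Inv H W) : H ≤ subspaceStabilizer W := by
  intro g hg v
  constructor
  · intro hv
    exact h g hg v hv
  · intro hv
    have := h g⁻¹ (H.inv_mem hg) _ hv
    simpa using this

lemma le_subspaceStabilizer_of_inv {H : Subgroup (GL ι F)} {W : Submodule F (ι → F)}
    (h : ∀ s ∈ matrixSet H, W.map (Matrix.toLin' s) ≤ W) : H ≤ subspaceStabilizer W :=
  le_subspaceStabilizer_of_Inv (inv_iff.mp h)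

lemma mem_subspaceStabilizer_iff {g : GL ι F} {W : Submodule F (ι → F)} :
    g ∈ subspaceStabilizer W ↔ ∀ v, v ∈ W ↔ (g : Matrix ι ι F) *ᵥ v ∈ W := Iff.rfl

lemma mem_specialLinear_iff {g : GL ι F} :
    g ∈ specialLinear ι F ↔ (g : Matrix ι ι F).det = 1 := by
  unfold specialLinear
  rw [MonoidHom.mem_ker, Units.ext_iff]
  simp

lemma not_irred_of_le_scalars (hn : 2 ≤ Fintype.card ι) {H : Subgroup (GL ι F)}
    (h : H ≤ scalars ι F) : ¬ ActsIrreducibly (matrixSet H) := by
  rw [actsIrreducibly_iff]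
  intro hirr
  obtain ⟨i₀⟩ : Nonempty ι := Fintype.card_pos_iff.mp (by omega)
  let e : ι → F := Pi.single i₀ 1
  have he : e ≠ 0 := by
    intro h0
    have := congrFun h0 i₀
    simp [e] at this
  have hinv : Inv H (Submodule.span F {e}) := by
    intro t ht w hw
    obtain ⟨c, hc⟩ := (mem_scalars_iff t).mp (h ht)
    rw [hc, Matrix.smul_mulVec, Matrix.one_mulVec]
    exact Submodule.smul_mem _ _ hw
  rcases hirr _ hinv with h0 | h1
  · rw [Submodule.span_singleton_eq_bot] at h0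
    exact he h0
  · have h2 : Module.finrank F (Submodule.span F {e}) = 1 := finrank_span_singleton he
    rw [h1, finrank_top, Module.finrank_fintype_fun_eq_card] at h2
    omega

lemma not_absIrred_of_comm (hn : 2 ≤ Fintype.card ι) {A : Subgroup (GL ι F)}
    (h : ∀ a ∈ A, ∀ b ∈ A, a * b = b * a) : ¬ ActsAbsolutelyIrreducibly (matrixSet A) := by
  rintro ⟨hirr, hc⟩
  apply not_irred_of_le_scalars hn _ hirr
  intro a ha
  obtain ⟨c, hc'⟩ := hc (a : Matrix ι ι F) (by
    rintro _ ⟨b, hb, rfl⟩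
    have := h a ha b hb
    simpa using congrArg (fun g : GL ι F => (g : Matrix ι ι F)) this)
  rw [mem_scalars_iff]
  have hc0 : c ≠ 0 := by
    rintro rfl
    have h1 : (a : Matrix ι ι F) = 0 := by simpa using hc'
    have h2 : (a : Matrix ι ι F) * ((a⁻¹ : GL ι F) : Matrix ι ι F) = 1 := by
      rw [← Units.val_mul, mul_inv_cancel, Units.val_one]
    rw [h1, zero_mul] at h2
    obtain ⟨i₀⟩ : Nonempty ι := Fintype.card_pos_iff.mp (by omega)
    have h3 := congrFun (congrFun h2 i₀) i₀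
    simp at h3
  exact ⟨Units.mk0 c hc0, hc'⟩

lemma Nz.inv_mem {H T : Subgroup (GL ι F)} (h : Nz H T) {g x : GL ι F} (hg : g ∈ H)
    (hx : x ∈ T) : g⁻¹ * x * g ∈ T := by
  have := h g⁻¹ (H.inv_mem hg) x hx
  simpa using this

lemma le_normalizer_of_Nz {H T : Subgroup (GL ι F)} (h : Nz H T) :
    H ≤ subgroupNormalizer T := by
  intro g hg
  unfold subgroupNormalizer
  rw [Subgroup.mem_normalizer_iff]
  intro x
  constructor
  · intro hx
    exact h g hg x hx
  · intro hx
    have := h.inv_mem hg hx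
    simpa [mul_assoc] using this

lemma le_normalizer_centralizer {H T : Subgroup (GL ι F)} (h : Nz H T) :
    H ≤ subalgebraNormalizer (Subalgebra.centralizer F (matrixSet T)) := by
  have key : ∀ g ∈ H, ∀ k : Matrix ι ι F, k ∈ Subalgebra.centralizer F (matrixSet T) →
      (g : Matrix ι ι F) * k * ((g⁻¹ : GL ι F) : Matrix ι ι F) ∈
        Subalgebra.centralizer F (matrixSet T) := by
    intro g hg k hk
    rw [Subalgebra.mem_centralizer_iff] at hk ⊢
    rintro _ ⟨x, hx, rfl⟩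
    have h1 := hk _ ⟨g⁻¹ * x * g, h.inv_mem hg hx, rfl⟩
    simp only [Units.val_mul] at h1
    have e1 : (x : Matrix ι ι F) = (g : Matrix ι ι F) *
        (((g⁻¹ : GL ι F) : Matrix ι ι F) * x * g) *
        ((g⁻¹ : GL ι F) : Matrix ι ι F) := by
      simp only [← Units.val_mul]
      congr 1
      group
    have gi : ((g⁻¹ : GL ι F) : Matrix ι ι F) * (g : Matrix ι ι F) = 1 := by
      rw [← Units.val_mul, inv_mul_cancel, Units.val_one]
    calc (x : Matrix ι ι F) * ((g : Matrix ι ι F) * k * ((g⁻¹ : GL ι F) : Matrix ι ι F))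
        = (g : Matrix ι ι F) * ((((g⁻¹ : GL ι F) : Matrix ι ι F) * x * g) * k) *
            ((g⁻¹ : GL ι F) : Matrix ι ι F) := by
          conv_lhs => rw [e1]
          simp only [mul_assoc]
          rw [← mul_assoc ((g⁻¹ : GL ι F) : Matrix ι ι F) (g : Matrix ι ι F), gi, one_mul]
      _ = (g : Matrix ι ι F) * (k * (((g⁻¹ : GL ι F) : Matrix ι ι F) * x * g)) *
            ((g⁻¹ : GL ι F) : Matrix ι ι F) := by rw [h1]
      _ = ((g : Matrix ι ι F) * k * ((g⁻¹ : GL ι F) : Matrix ι ι F)) * x := by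
          conv_rhs => rw [e1]
          simp only [mul_assoc]
          rw [← mul_assoc ((g⁻¹ : GL ι F) : Matrix ι ι F) (g : Matrix ι ι F), gi, one_mul]
  intro g hg k
  constructor
  · exact key g hg k
  · intro hk
    have := key g⁻¹ (H.inv_mem hg) _ hk
    have gi : ((g⁻¹ : GL ι F) : Matrix ι ι F) * (g : Matrix ι ι F) = 1 := by
      rw [← Units.val_mul, inv_mul_cancel, Units.val_one]
    rw [inv_inv] at this
    have e : ((g⁻¹ : GL ι F) : Matrix ι ι F) *
        ((g : Matrix ι ι F) * k * ((g⁻¹ : GL ι F) : Matrix ι ι F)) * g = k := by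
      simp only [mul_assoc]
      rw [gi, mul_one, ← mul_assoc, gi, one_mul]
    rwa [e] at this

end Cfsg.Agent.Lib.Helper97GBase
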