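import Cfsg.Agent.Lib.Helper95Quad
import Cfsg.Agent.Lib.Helper95Form
import Cfsg.Agent.Lib.Helper97GBase
import Cfsg.Agent.Lib.Helper97GForms

set_option autoImplicit false
set_option linter.unusedSectionVars false

namespace Cfsg.Agent.Lib.Helper97OBase

open Cfsg Cfsg.Geo Matrix Cfsg.Agent.Lib.Helper97GBase Cfsg.Agent.Lib.Helper97GForms
  Cfsg.Agent.Lib.Helper95Quad Cfsg.Agent.Lib.Helper95Form Cfsg.Agent.Lib.Helper95Basic
open scoped MatrixGroups

variable {ι : Type} [Fintype ι] [DecidableEq ι] {F : Type*} [Field F] {Q : (ι → F) → F}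

lemma mem_iso {g : GL ι F} : g ∈ isometryGroup F Q ↔ ∀ v, Q ((g : Matrix ι ι F) *ᵥ v) = Q v :=
  ⟨fun h v => h v v, fun h u _ => h u⟩

lemma omegaGL_eq : omegaGL Q = ⁅isometryGroup F Q, isometryGroup F Q⁆ :=
  Subgroup.map_subtype_commutator _

lemma omega_le_iso : omegaGL Q ≤ isometryGroup F Q := by
  rw [omegaGL_eq, Subgroup.commutator_le]
  intro a ha b hb
  exact Subgroup.mul_mem _ (Subgroup.mul_mem _ (Subgroup.mul_mem _ ha hb) (Subgroup.inv_mem _ ha))
    (Subgroup.inv_mem _ hb)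

lemma omega_le_SL : omegaGL Q ≤ specialLinear ι F := by
  rw [omegaGL_eq, Subgroup.commutator_le]
  intro a _ b _
  unfold specialLinear
  rw [MonoidHom.mem_ker, commutatorElement_def, map_mul, map_mul, map_mul, map_inv, map_inv]
  rw [mul_comm (Matrix.GeneralLinearGroup.det a), mul_assoc, mul_assoc]
  simp

lemma comm_mem {a b : GL ι F} (ha : a ∈ isometryGroup F Q) (hb : b ∈ isometryGroup F Q) :
    a * b * a⁻¹ * b⁻¹ ∈ omegaGL Q := by
  rw [omegaGL_eq]
  exact Subgroup.commutator_mem_commutator ha hb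

/-- the polar form as a Mathlib bilinear form -/
def bil (hQ : IsNondegenerateQuadraticForm Q) : LinearMap.BilinForm F (ι → F) :=
  toBilin (QuadraticMap.polar Q) hQ.polar_bilinear

@[simp] lemma bil_apply (hQ : IsNondegenerateQuadraticForm Q) (x y : ι → F) :
    bil hQ x y = QuadraticMap.polar Q x y := rfl

lemma qf (hQ : IsNondegenerateQuadraticForm Q) : QF (bil hQ) Q where
  smul := hQ.smul
  add x y := by rw [bil_apply, QuadraticMap.polar]; ring

lemma bil_nondeg (hQ : IsNondegenerateQuadraticForm Q) : (bil hQ).Nondegenerate :=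
  toBilin_nondegenerate _ hQ.polar_bilinear hQ.nondegenerate

lemma polar_iso {g : GL ι F} (hg : g ∈ isometryGroup F Q) (x y : ι → F) :
    QuadraticMap.polar Q ((g : Matrix ι ι F) *ᵥ x) ((g : Matrix ι ι F) *ᵥ y) = QuadraticMap.polar Q x y := by
  rw [mem_iso] at hg
  unfold QuadraticMap.polar
  rw [← Matrix.mulVec_add, hg, hg, hg]

/-- reflections -/
noncomputable def rf (hQ : IsNondegenerateQuadraticForm Q) (c : ι → F) (hc : Q c ≠ 0) : GL ι F :=
  mkGL ((qf hQ).refl c hc)

lemma rf_mulVec (hQ : IsNondegenerateQuadraticForm Q) (c : ι → F) (hc : Q c ≠ 0) (x : ι → F) :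
    (rf hQ c hc : Matrix ι ι F) *ᵥ x = x - ((Q c)⁻¹ * QuadraticMap.polar Q c x) • c := by
  unfold rf
  rw [mkGL_mulVec, QF.refl_apply, bil_apply]

lemma rf_mem (hQ : IsNondegenerateQuadraticForm Q) (c : ι → F) (hc : Q c ≠ 0) :
    rf hQ c hc ∈ isometryGroup F Q := by
  rw [mem_iso]
  intro v
  unfold rf
  rw [mkGL_mulVec]
  exact (qf hQ).refl_Q c hc v

lemma rf_fix (hQ : IsNondegenerateQuadraticForm Q) (c : ι → F) (hc : Q c ≠ 0) {x : ι → F}
    (hx : QuadraticMap.polar Q c x = 0) : (rf hQ c hc : Matrix ι ι F) *ᵥ x = x := by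
  rw [rf_mulVec, hx]
  simp

lemma rf_inv (hQ : IsNondegenerateQuadraticForm Q) (c : ι → F) (hc : Q c ≠ 0) :
    (rf hQ c hc)⁻¹ = rf hQ c hc := by
  rw [inv_eq_iff_mul_eq_one]
  apply gl_ext
  intro x
  have hb := hQ.polar_bilinear
  have hs : QuadraticMap.polar Q c c = 2 * Q c := polar_self hQ c
  rw [mul_mulVec, Units.val_one, Matrix.one_mulVec, rf_mulVec hQ c hc x, rf_mulVec]
  have e : QuadraticMap.polar Q c (x - ((Q c)⁻¹ * QuadraticMap.polar Q c x) • c) =
      - QuadraticMap.polar Q c x := by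
    rw [sub_eq_add_neg, ← neg_smul, hb.add_right, hb.smul_right, hs]
    field_simp
    ring
  rw [e]
  module

lemma Q_neg (hQ : IsNondegenerateQuadraticForm Q) (v : ι → F) : Q (-v) = Q v := by
  have := hQ.smul (-1) v
  simpa using this

lemma conj_rf (hQ : IsNondegenerateQuadraticForm Q) {g : GL ι F} (hg : g ∈ isometryGroup F Q)
    (u v : ι → F) (hu : Q u ≠ 0) (hv : Q v ≠ 0)
    (huv : (g : Matrix ι ι F) *ᵥ u = v ∨ (g : Matrix ι ι F) *ᵥ u = -v) :
    g * rf hQ u hu * g⁻¹ = rf hQ v hv := by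
  apply gl_ext
  intro x
  have hb := hQ.polar_bilinear
  rw [mul_mulVec, mul_mulVec, rf_mulVec, rf_mulVec, Matrix.mulVec_sub, Matrix.mulVec_smul,
    Helper95Basic.mulVec_inv_mulVec]
  have e1 : QuadraticMap.polar Q u (((g⁻¹ : GL ι F) : Matrix ι ι F) *ᵥ x) =
      QuadraticMap.polar Q ((g : Matrix ι ι F) *ᵥ u) x := by
    rw [← polar_iso hg u, Helper95Basic.mulVec_inv_mulVec]
  have e2 : Q u = Q ((g : Matrix ι ι F) *ᵥ u) := ((mem_iso.mp hg) u).symm
  rw [e1, e2]
  rcases huv with h | h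
  · rw [h]
  · rw [h, Q_neg hQ]
    have e3 : QuadraticMap.polar Q (-v) x = - QuadraticMap.polar Q v x := by
      have := hb.smul_left (-1) v x
      simpa using this
    rw [e3]
    module

/-- a product of two reflections in vectors of the same norm lies in `Ω` -/
lemma rr_mem (hQ : IsNondegenerateQuadraticForm Q) (h2 : (2 : F) ≠ 0) (u v : ι → F) (hu : Q u ≠ 0)
    (hv : Q v ≠ 0) (huv : Q u = Q v) : rf hQ u hu * rf hQ v hv ∈ omegaGL Q := by
  have hb := hQ.polar_bilinear
  have h := qf hQ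
  have key : ∀ g ∈ isometryGroup F Q, ((g : Matrix ι ι F) *ᵥ u = v ∨ (g : Matrix ι ι F) *ᵥ u = -v) →
      rf hQ u hu * rf hQ v hv ∈ omegaGL Q := by
    intro g hg hguv
    have e := comm_mem (rf_mem hQ u hu) hg
    rw [rf_inv] at e
    rw [← conj_rf hQ hg u v hu hv hguv]
    simpa [mul_assoc] using e
  have hsub : Q (u - v) = Q u + Q v - QuadraticMap.polar Q u v := h.sub u v
  have hadd : Q (u + v) = Q u + Q v + QuadraticMap.polar Q u v := h.add u v
  by_cases hm : Q (u - v) = 0
  · have hp : Q (u + v) ≠ 0 := by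
      intro h0
      apply hu
      have e : 2 * (2 * Q u) = 0 := by
        rw [hsub] at hm
        rw [hadd] at h0
        linear_combination hm + h0 + 2 * huv
      exact (mul_eq_zero.mp ((mul_eq_zero.mp e).resolve_left h2)).resolve_left h2
    apply key _ (rf_mem hQ (u + v) hp)
    right
    rw [rf_mulVec]
    have e : QuadraticMap.polar Q (u + v) u = Q (u + v) := by
      rw [hb.add_left, polar_self hQ, hadd, QuadraticMap.polar_comm Q v u, ← huv]
      ring
    rw [e, inv_mul_cancel₀ hp, one_smul]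
    abel
  · apply key _ (rf_mem hQ (u - v) hm)
    left
    rw [rf_mulVec]
    have e : QuadraticMap.polar Q (u - v) u = Q (u - v) := by
      have e3 : QuadraticMap.polar Q (u - v) u = QuadraticMap.polar Q u u - QuadraticMap.polar Q v u := by
        have := hb.add_left (u - v) v u
        rw [sub_add_cancel] at this
        rw [this]; ring
      rw [e3, polar_self hQ, hsub, QuadraticMap.polar_comm Q v u, ← huv]
      ring
    rw [e, inv_mul_cancel₀ hm, one_smul]
    abel

lemma two_ne_zero_of_odd [Fintype F] (hodd : Odd (Fintype.card F)) : (2 : F) ≠ 0 := by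
  apply Ring.two_ne_zero
  intro hchar
  have := FiniteField.even_card_of_char_two hchar
  rw [Nat.odd_iff] at hodd
  omega

end Cfsg.Agent.Lib.Helper97OBase
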