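import Cfsg.Agent.Lib.Helper17OSaodd
import Cfsg.Agent.Lib.Helper97OBase

set_option autoImplicit false
set_option linter.unusedSectionVars false

/-! PROJECT 5 = ASCH-O, piece `utype`. -/

namespace Cfsg.Agent.Lib.Helper17OUtype

open Cfsg Cfsg.Geo Matrix
open Cfsg.Agent.Lib.Helper96SpDefs Cfsg.Agent.Lib.Helper97OBase Cfsg.Agent.Lib.Helper17OSaodd
open scoped MatrixGroups

variable {ι : Type} [Fintype ι] [DecidableEq ι] {F : Type*} [Field F]
variable {Q : (ι → F) → F} {H : Subgroup (GL ι F)}

lemma symmForm (hQ : IsNondegenerateQuadraticForm Q) : IsSymmetricForm (QuadraticMap.polar Q) :=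
  ⟨hQ.polar_bilinear, fun u v => QuadraticMap.polar_comm Q u v, hQ.nondegenerate⟩

lemma polar_self' (hQ : IsNondegenerateQuadraticForm Q) (v : ι → F) :
    QuadraticMap.polar Q v v = 2 * Q v := by
  unfold QuadraticMap.polar
  have : v + v = (2 : F) • v := (two_smul F v).symm
  rw [this, hQ.smul]
  ring

/-- the symmetric elements of a non-self-adjoint quadratic field are the scalars -/
lemma exists_scalar [Nonempty ι] {f : (ι → F) → (ι → F) → F} (hf : IsSymmetricForm f)
    {K : Subalgebra F (Matrix ι ι F)} (hK : IsFieldSubalgebra 2 K) (hadj : IsAdjointClosedFor f K)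
    (a : K) (ha : st hadj a ≠ a) (x : K) (hx : st hadj x = x) :
    ∃ c : F, (x : Matrix ι ι F) = c • (1 : Matrix ι ι F) := by
  have h1 := finrank_eq_two_mul hf hK hadj a ha
  have h2 : Module.finrank F (fixS hf hadj) = 1 := by omega
  have hone : (1 : K) ∈ fixS hf hadj := (mem_fixS hf hadj 1).mpr (st_one hf hadj)
  have hne : (⟨1, hone⟩ : fixS hf hadj) ≠ 0 := by
    intro h
    have h3 : (1 : K) = 0 := congrArg Subtype.val h
    have h4 : (1 : Matrix ι ι F) = 0 := congrArg Subtype.val h3
    exact one_ne_zero h4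
  obtain ⟨c, hc⟩ := (finrank_eq_one_iff_of_nonzero' (K := F) (V := fixS hf hadj) ⟨1, hone⟩ hne).mp h2
    ⟨x, (mem_fixS hf hadj x).mpr hx⟩
  refine ⟨c, ?_⟩
  have h5 : c • (1 : K) = x := congrArg Subtype.val hc
  have h6 := congrArg Subtype.val h5
  exact h6.symm

/-- [utype] a field of degree 2, adjoint-closed and not self-adjoint, normalised by an irreducible group
of isometries, consists of similarities of `Q`. -/
theorem unitary_similarity [Fintype F] (h2n : 2 ≤ Fintype.card ι) (hQ : IsNondegenerateQuadraticForm Q)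
    (hH : H ≤ isometryGroup F Q) (hirr : ActsIrreducibly (matrixSet H))
    (K : Subalgebra F (Matrix ι ι F)) (hK : IsFieldSubalgebra 2 K)
    (hadj : IsAdjointClosedFor (QuadraticMap.polar Q) K)
    (hnsa : ¬ IsSelfAdjointFor (QuadraticMap.polar Q) K) (hle : H ≤ subalgebraNormalizer K) :
    ∀ k ∈ K, ∃ c : F, ∀ v : ι → F, Q (k *ᵥ v) = c * Q v := by
  classical
  have : Nonempty ι := Fintype.card_pos_iff.mp (by omega)
  set f := QuadraticMap.polar Q with hfdef
  have hf : IsSymmetricForm f := symmForm hQ
  have hb := hf.bilinear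
  -- a non-symmetric element
  obtain ⟨a, ha⟩ : ∃ a : K, st hadj a ≠ a := by
    by_contra hcon
    push Not at hcon
    apply hnsa
    intro k hk u v
    have := st_adj hadj ⟨k, hk⟩ u v
    rw [hcon] at this
    exact this
  have hcomm : ∀ x y : K, x * y = y * x := fun x y => Subtype.ext (hK.comm x x.2 y y.2)
  -- norms
  have hnorm : ∀ k : K, ∃ c : F, (st hadj k : Matrix ι ι F) * (k : Matrix ι ι F) = c • 1 := by
    intro k
    obtain ⟨c, hc⟩ := exists_scalar hf hK hadj a ha (st hadj k * k)
      (by rw [st_mul hf, st_st hf, hcomm])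
    exact ⟨c, hc⟩
  intro k hk
  obtain ⟨c, hc⟩ := hnorm ⟨k, hk⟩
  refine ⟨c, fun v => ?_⟩
  have hkadj := st_adj hadj ⟨k, hk⟩
  by_cases h2 : (2 : F) = 0
  swap
  · -- odd characteristic
    have h3 : f (k *ᵥ v) (k *ᵥ v) = c * f v v := by
      have := hkadj v (k *ᵥ v)
      rw [Matrix.mulVec_mulVec, hc, Matrix.smul_mulVec, Matrix.one_mulVec, hb.smul_right] at this
      exact this
    rw [hfdef, polar_self' hQ, polar_self' hQ] at h3
    have h4 : 2 * (Q (k *ᵥ v) - c * Q v) = 0 := by linear_combination h3
    rcases mul_eq_zero.mp h4 with h5 | h5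
    · exact absurd h5 h2
    · exact sub_eq_zero.mp h5
  · -- characteristic 2
    have hneg : ∀ x : F, -x = x := by
      intro x
      have : x + x = 0 := by rw [← two_mul, h2, zero_mul]
      exact neg_eq_of_add_eq_zero_left this
    set A : Matrix ι ι F := (a : Matrix ι ι F) with hA
    set A' : Matrix ι ι F := (st hadj a : Matrix ι ι F) with hA'
    have hAadj : IsAdj f A A' := st_adj hadj a
    obtain ⟨τ, hτ⟩ := exists_scalar hf hK hadj a ha (a + st hadj a)
      (by rw [st_add hf, st_st hf, add_comm])
    have hτ' : A + A' = τ • 1 := hτ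
    obtain ⟨ν, hν⟩ := hnorm a
    have hν' : A' * A = ν • 1 := hν
    have hAA' : A * A' = A' * A := congrArg Subtype.val (hcomm a (st hadj a))
    have hτ0 : τ ≠ 0 := by
      intro h0
      rw [h0, zero_smul] at hτ'
      apply ha
      apply Subtype.ext
      have h3 : A' = -A := (neg_eq_of_add_eq_zero_right hτ').symm
      have h4 : -A = A := by
        ext i j
        rw [Matrix.neg_apply, hneg]
      change A' = A
      rw [h3, h4]
    set Q' : (ι → F) → F := fun v => f (A *ᵥ v) v with hQ'
    have hQ'add : ∀ u v, Q' (u + v) = Q' u + Q' v + τ * f u v := by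
      intro u v
      have h3 : f (A *ᵥ v) u = f (A' *ᵥ u) v := by
        rw [hAadj v u, hf.symm]
      have h4 : f (A *ᵥ u) v + f (A' *ᵥ u) v = τ * f u v := by
        rw [← hb.add_left, ← Matrix.add_mulVec, hτ', Matrix.smul_mulVec, Matrix.one_mulVec,
          hb.smul_left]
      simp only [hQ']
      rw [Matrix.mulVec_add, hb.add_left, hb.add_right, hb.add_right, h3, ← h4]
      ring
    have hQ'smul : ∀ (x : F) v, Q' (x • v) = x ^ 2 * Q' v := by
      intro x v
      simp only [hQ']
      rw [Matrix.mulVec_smul, hb.smul_left, hb.smul_right]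
      ring
    have hnozero : ∀ x y : K, x * y = 0 → x = 0 ∨ y = 0 := by
      intro x y hxy
      by_cases hx : x = 0
      · exact Or.inl hx
      · right
        obtain ⟨z, hzK, hz⟩ := hK.inv x x.2 (fun h => hx (Subtype.ext h))
        have hz' : x * (⟨z, hzK⟩ : K) = 1 := Subtype.ext hz
        have : y = (⟨z, hzK⟩ : K) * (x * y) := by
          rw [← mul_assoc, hcomm _ x, hz', one_mul]
        rw [this, hxy, mul_zero]
    have hQ'inv : ∀ h ∈ H, ∀ v, Q' ((h : Matrix ι ι F) *ᵥ v) = Q' v := by
      intro h hh v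
      -- B = h⁻¹ A h ∈ K
      have hmem : ((h⁻¹ : GL ι F) : Matrix ι ι F) * A * (h : Matrix ι ι F) ∈ K := by
        have := (hle (H.inv_mem hh) A).mp a.2
        rwa [inv_inv] at this
      set B : Matrix ι ι F := ((h⁻¹ : GL ι F) : Matrix ι ι F) * A * (h : Matrix ι ι F) with hB
      have hhi : (h : Matrix ι ι F) * ((h⁻¹ : GL ι F) : Matrix ι ι F) = 1 := by
        rw [← Units.val_mul, mul_inv_cancel, Units.val_one]
      have hih : ((h⁻¹ : GL ι F) : Matrix ι ι F) * (h : Matrix ι ι F) = 1 := by
        rw [← Units.val_mul, inv_mul_cancel, Units.val_one]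
      have hAh : A * (h : Matrix ι ι F) = (h : Matrix ι ι F) * B := by
        rw [hB, ← mul_assoc, ← mul_assoc, hhi, one_mul]
      -- quadratic equation for A
      have hAeq : A * A = τ • A - ν • 1 := by
        rw [← hν', ← hAA']
        have : τ • A = (A + A') * A := by rw [hτ', Matrix.smul_mul, one_mul]
        rw [this, add_mul, hAA']
        have h5 : A' * A = A * A' := hAA'.symm
        abel
      have hBeq : B * B = τ • B - ν • 1 := by
        have h3 : B * B = ((h⁻¹ : GL ι F) : Matrix ι ι F) * (A * A) * (h : Matrix ι ι F) := by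
          rw [hB]
          calc ((h⁻¹ : GL ι F) : Matrix ι ι F) * A * (h : Matrix ι ι F) *
                (((h⁻¹ : GL ι F) : Matrix ι ι F) * A * (h : Matrix ι ι F))
              = ((h⁻¹ : GL ι F) : Matrix ι ι F) * A * ((h : Matrix ι ι F) *
                ((h⁻¹ : GL ι F) : Matrix ι ι F)) * A * (h : Matrix ι ι F) := by
                  simp only [mul_assoc]
            _ = _ := by rw [hhi, mul_one]; simp only [mul_assoc]
        rw [h3, hAeq, mul_sub, sub_mul, Matrix.mul_smul, Matrix.smul_mul, Matrix.mul_smul,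
          Matrix.smul_mul, mul_one, hih, ← hB]
      have hBor : B = A ∨ B = A' := by
        have h3 : ((⟨B, hmem⟩ : K) - a) * ((⟨B, hmem⟩ : K) - st hadj a) = 0 := by
          apply Subtype.ext
          change (B - A) * (B - A') = 0
          have hBA : A * B = B * A := congrArg Subtype.val (hcomm a ⟨B, hmem⟩)
          have h4 : (B - A) * (B - A') = B * B - B * (A + A') + A * A' := by
            rw [sub_mul, mul_sub, mul_sub, mul_add, hBA]
            abel
          rw [h4, hBeq, hτ', Matrix.mul_smul, mul_one, hAA', hν']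
          abel
        rcases hnozero _ _ h3 with h4 | h4
        · left
          exact congrArg Subtype.val (sub_eq_zero.mp h4)
        · right
          exact congrArg Subtype.val (sub_eq_zero.mp h4)
      simp only [hQ']
      rw [Matrix.mulVec_mulVec, hAh, ← Matrix.mulVec_mulVec, hfdef, polar_iso (hH hh), ← hfdef]
      rcases hBor with h3 | h3
      · rw [h3]
      · rw [h3, hf.symm, ← hAadj]
    -- the difference
    set D : (ι → F) → F := fun v => Q' v - τ * Q v with hD
    have hQadd : ∀ u v, Q (u + v) = Q u + Q v + f u v := by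
      intro u v
      rw [hfdef]; unfold QuadraticMap.polar; ring
    have hDadd : ∀ u v, D (u + v) = D u + D v := by
      intro u v
      simp only [hD]
      rw [hQ'add, hQadd]; ring
    have hDsmul : ∀ (x : F) v, D (x • v) = x ^ 2 * D v := by
      intro x v
      simp only [hD]
      rw [hQ'smul, hQ.smul]; ring
    have hD0 : D 0 = 0 := by
      have := hDsmul 0 0
      rw [zero_smul] at this
      rw [this]; ring
    let Z : Submodule F (ι → F) :=
      { carrier := {v | D v = 0}
        add_mem' := by
          intro u v hu hv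
          change D (u + v) = 0
          rw [hDadd, hu, hv, add_zero]
        zero_mem' := hD0
        smul_mem' := by
          intro x v hv
          change D (x • v) = 0
          rw [hDsmul, hv, mul_zero] }
    have hZinv : ∀ s ∈ matrixSet H, Z.map (Matrix.toLin' s) ≤ Z := by
      rintro _ ⟨h, hh, rfl⟩ _ ⟨v, hv, rfl⟩
      change D _ = 0
      rw [Matrix.toLin'_apply]
      simp only [hD]
      rw [hQ'inv h hh, mem_iso.mp (hH hh)]
      exact hv
    have hZne : Z ≠ ⊥ := by
      have hcard : Fintype.card F < Fintype.card (ι → F) := by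
        rw [Fintype.card_fun]
        calc Fintype.card F = Fintype.card F ^ 1 := (pow_one _).symm
          _ < Fintype.card F ^ Fintype.card ι :=
            Nat.pow_lt_pow_right Fintype.one_lt_card (by omega)
      obtain ⟨x, y, hxy, hDxy⟩ := Fintype.exists_ne_map_eq_of_card_lt D hcard
      intro hbot
      have hmem : x + y ∈ Z := by
        change D (x + y) = 0
        rw [hDadd, hDxy, ← two_mul, h2, zero_mul]
      rw [hbot, Submodule.mem_bot] at hmem
      apply hxy
      have h3 : x = -y := eq_neg_of_add_eq_zero_left hmem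
      rw [h3]
      ext i
      rw [Pi.neg_apply, hneg]
    have hZtop : Z = ⊤ := (hirr Z hZinv).resolve_left hZne
    have hDall : ∀ v, Q' v = τ * Q v := by
      intro v
      have : v ∈ Z := by rw [hZtop]; trivial
      exact sub_eq_zero.mp this
    have hkA : A * k = k * A := congrArg Subtype.val (hcomm a ⟨k, hk⟩)
    have h3 : Q' (k *ᵥ v) = c * Q' v := by
      simp only [hQ']
      rw [Matrix.mulVec_mulVec, hkA, ← Matrix.mulVec_mulVec]
      have := hkadj (A *ᵥ v) (k *ᵥ v)
      have h6 : (st hadj ⟨k, hk⟩ : Matrix ι ι F) *ᵥ (k *ᵥ v) = c • v := by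
        rw [Matrix.mulVec_mulVec]
        have hc' : (st hadj ⟨k, hk⟩ : Matrix ι ι F) * k = c • 1 := hc
        rw [hc', Matrix.smul_mulVec, Matrix.one_mulVec]
      rw [h6, hb.smul_right] at this
      exact this
    rw [hDall, hDall] at h3
    have h4 : τ * (Q (k *ᵥ v) - c * Q v) = 0 := by linear_combination h3
    rcases mul_eq_zero.mp h4 with h5 | h5
    · exact absurd h5 hτ0
    · exact sub_eq_zero.mp h5

end Cfsg.Agent.Lib.Helper17OUtype
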