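import Mathlib
import Cfsg.Prelude.Def_ClassicalGeometry
import Cfsg.Agent.Lib.Helper17Orth2
import Cfsg.Agent.Lib.Helper17SymmForm

set_option autoImplicit false
open Cfsg

namespace Cfsg.Agent.Lib.Helper17Orth3

open Matrix QuadraticMap Cfsg.Agent.Lib.Helper17Orth Cfsg.Agent.Lib.Helper17Orth2
  Cfsg.Agent.Lib.Helper17SymmForm

variable {F : Type*} [Field F] {n : ℕ}

/-- The subgroup generated by reflections. -/
def RR (Q : QuadraticForm F (Fin n → F)) : Subgroup (isometryGroup F (⇑Q)) :=
  Subgroup.closure {g : ↥(Cfsg.isometryGroup F ⇑Q) | ∃ v : Fin n → F, Q v ≠ 0 ∧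
    ((g : Matrix.GeneralLinearGroup (Fin n) F) : Matrix (Fin n) (Fin n) F)
      = Cfsg.reflectionMatrix ⇑Q v}

/-- The action on vectors. -/
def act {Q : QuadraticForm F (Fin n → F)} (g : isometryGroup F (⇑Q)) (x : Fin n → F) :
    Fin n → F :=
  ((g : Matrix.GeneralLinearGroup (Fin n) F) : Matrix (Fin n) (Fin n) F) *ᵥ x

variable {Q : QuadraticForm F (Fin n → F)}

theorem act_mul (g h : isometryGroup F (⇑Q)) (x : Fin n → F) :
    act (g * h) x = act g (act h x) := by
  simp [act, mulVec_mulVec]

theorem act_one (x : Fin n → F) : act (1 : isometryGroup F (⇑Q)) x = x := by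
  simp [act]

theorem Q_act (g : isometryGroup F (⇑Q)) (x : Fin n → F) : Q (act g x) = Q x :=
  (mem_isometryGroup_iff _ _).1 g.2 x

theorem polar_act (g : isometryGroup F (⇑Q)) (x y : Fin n → F) :
    polar (⇑Q) (act g x) (act g y) = polar (⇑Q) x y :=
  isometry_polar Q _ ((mem_isometryGroup_iff _ _).1 g.2) x y

theorem act_reflIso (v : Fin n → F) (hv : Q v ≠ 0) (x : Fin n → F) :
    act (reflIso Q v hv) x = x - ((Q v)⁻¹ * polar (⇑Q) v x) • v :=
  reflectionMatrix_mulVec Q v x

theorem reflIso_mem (v : Fin n → F) (hv : Q v ≠ 0) : reflIso Q v hv ∈ RR Q :=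
  Subgroup.subset_closure ⟨v, hv, rfl⟩

theorem Q_sub (x y : Fin n → F) : Q (x - y) = Q x + Q y - polar (⇑Q) x y := by
  rw [sub_eq_add_neg, map_add', QuadraticMap.map_neg, polar_neg_right]
  ring

theorem eq_one_of_fix_basis (b : Module.Basis (Fin n) F (Fin n → F)) (g : isometryGroup F (⇑Q))
    (h : ∀ i, act g (b i) = b i) : g = 1 := by
  apply Subtype.ext
  apply Units.ext
  have h1 : Matrix.toLin' ((g : Matrix.GeneralLinearGroup (Fin n) F) : Matrix (Fin n) (Fin n) F)
      = LinearMap.id := by
    apply b.ext
    intro i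
    simpa [act] using h i
  have h2 := congrArg LinearMap.toMatrix' h1
  simpa using h2

theorem cd_aux (h2 : (2 : F) ≠ 0) (hQ : (polarBilin Q).Nondegenerate) :
    ∀ (d k : ℕ) (e : Fin k → (Fin n → F)), OG (polarBilin Q : LinearMap.BilinForm F (Fin n → F)) e →
      k + d = n → ∀ g : isometryGroup F (⇑Q), (∀ i, act g (e i) = e i) → g ∈ RR Q := by
  have hS : LinearMap.BilinForm.IsSymm (polarBilin Q : LinearMap.BilinForm F (Fin n → F)) :=
    ⟨fun x y => by simp [polar_comm]⟩
  intro d
  induction d with
  | zero =>
    intro k e he hk g hg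
    have hk' : k = n := by omega
    subst hk'
    let b : Module.Basis (Fin k) F (Fin k → F) := Module.Basis.mk he.linearIndependent
      (le_of_eq (he.linearIndependent.span_eq_top_of_card_eq_finrank' (by simp)).symm)
    have hb : ∀ i, b i = e i := by intro i; simp [b]
    rw [eq_one_of_fix_basis b g (fun i => by rw [hb, hg])]
    exact (RR Q).one_mem
  | succ d ih =>
    intro k e he hk g hg
    obtain ⟨v, hv, hvv⟩ := he.exists_perp h2 hS hQ (by simp; omega)
    simp only [polarBilin_apply_apply] at hv hvv
    have hQv : Q v ≠ 0 := by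
      intro h0
      apply hvv
      rw [polar_self, h0]; simp
    have hgv : ∀ i, polar (⇑Q) (e i) (act g v) = 0 := by
      intro i
      rw [← hg i, polar_act, hv]
    have hOG : OG (polarBilin Q : LinearMap.BilinForm F (Fin n → F))
        (Fin.snoc e v : Fin (k + 1) → (Fin n → F)) :=
      he.snoc hS v (by simpa using hv) (by simpa using hvv)
    have hsum : Q (act g v - v) + Q (act g v + v) = 4 * Q v := by
      rw [Q_sub, map_add', Q_act]; ring
    have h4 : (4 : F) * Q v ≠ 0 := by
      have : (4 : F) = 2 * 2 := by norm_num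
      rw [this]
      exact mul_ne_zero (mul_ne_zero h2 h2) hQv
    have hself : polar (⇑Q) (act g v) (act g v) = 2 * Q v := by
      rw [polar_self, Q_act]; simp
    by_cases hc : Q (act g v - v) ≠ 0
    · -- one reflection
      set w := act g v - v with hw
      have e1 : act (reflIso Q w hc) (act g v) = v := by
        rw [act_reflIso]
        have : polar (⇑Q) w (act g v) = Q w := by
          rw [hw, polar_sub_left, hself, Q_sub, Q_act, polar_comm (⇑Q) v]
          ring
        rw [this, inv_mul_cancel₀ hc, one_smul, hw]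
        abel
      have e2 : ∀ i, act (reflIso Q w hc) (e i) = e i := by
        intro i
        rw [act_reflIso]
        have : polar (⇑Q) w (e i) = 0 := by
          rw [hw, polar_sub_left, polar_comm, hgv, polar_comm, hv, sub_zero]
        rw [this]; simp
      have hmem : reflIso Q w hc * g ∈ RR Q := by
        apply ih (k + 1) _ hOG (by omega)
        intro i
        refine Fin.lastCases ?_ (fun i => ?_) i
        · simp only [Fin.snoc_last]
          rw [act_mul, e1]
        · simp only [Fin.snoc_castSucc]
          rw [act_mul, hg, e2]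
      have := (RR Q).mul_mem ((RR Q).inv_mem (reflIso_mem w hc)) hmem
      simpa using this
    · push Not at hc
      have hc' : Q (act g v + v) ≠ 0 := by
        intro h0
        rw [hc, h0, add_zero] at hsum
        exact h4 hsum.symm
      set w := act g v + v with hw
      have e1 : act (reflIso Q w hc') (act g v) = -v := by
        rw [act_reflIso]
        have : polar (⇑Q) w (act g v) = Q w := by
          rw [hw, polar_add_left, hself, map_add', Q_act, polar_comm (⇑Q) v]
          ring
        rw [this, inv_mul_cancel₀ hc', one_smul, hw]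
        abel
      have e2 : ∀ i, act (reflIso Q w hc') (e i) = e i := by
        intro i
        rw [act_reflIso]
        have : polar (⇑Q) w (e i) = 0 := by
          rw [hw, polar_add_left, polar_comm, hgv, polar_comm, hv, add_zero]
        rw [this]; simp
      have e3 : act (reflIso Q v hQv) (-v) = v := by
        rw [act_reflIso, polar_neg_right, polar_self]
        have : (Q v)⁻¹ * -(2 • Q v) = -2 := by
          rw [nsmul_eq_mul]; field_simp; norm_num
        rw [this]
        module
      have e4 : ∀ i, act (reflIso Q v hQv) (e i) = e i := by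
        intro i
        rw [act_reflIso, polar_comm, hv]; simp
      have hmem : reflIso Q v hQv * (reflIso Q w hc' * g) ∈ RR Q := by
        apply ih (k + 1) _ hOG (by omega)
        intro i
        refine Fin.lastCases ?_ (fun i => ?_) i
        · simp only [Fin.snoc_last]
          rw [act_mul, act_mul, e1, e3]
        · simp only [Fin.snoc_castSucc]
          rw [act_mul, act_mul, hg, e2, e4]
      have h5 := (RR Q).mul_mem ((RR Q).inv_mem (reflIso_mem w hc'))
        ((RR Q).mul_mem ((RR Q).inv_mem (reflIso_mem v hQv)) hmem)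
      simpa using h5

/-- Cartan-Dieudonne in odd characteristic. -/
theorem cd_odd (h2 : (2 : F) ≠ 0) (hQ : (polarBilin Q).Nondegenerate) : RR Q = ⊤ := by
  rw [eq_top_iff]
  intro g _
  exact cd_aux h2 hQ n 0 Fin.elim0 ⟨fun i => i.elim0, fun i => i.elim0⟩ (by omega) g
    (fun i => i.elim0)

end Cfsg.Agent.Lib.Helper17Orth3
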