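import Cfsg.Agent.Lib.LeadTwDefs3
import Cfsg.Agent.S0311

set_option autoImplicit false
set_option linter.unusedVariables false
set_option linter.unusedSectionVars false

/-! PROJECT 101 (TW-AUT), PART I, piece I1. -/

namespace Cfsg.Agent.Lib.Helper17TwI1

open Subgroup Cfsg.Agent.Lib.Helper23Grp Cfsg.Agent.Lib.Helper23RG Cfsg.Agent.Lib.Helper23TG
  Cfsg.Agent.Lib.Helper23Tw Cfsg.Agent.Lib.Helper23Weyl Cfsg.Agent.Lib.LeadTwDefs

variable {𝔾 R I : Type*} [Group 𝔾] {S : TG 𝔾 R I} {L : Subgroup 𝔾} {hn : ∀ i, S.nn i ∈ L}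

/-- I1a -/
theorem pull_B (hU : S.U ≤ L) (hH : S.H ≤ L) : (pull S L hn).B = S.B.subgroupOf L := by
  change S.U.subgroupOf L ⊔ S.H.subgroupOf L = (S.U ⊔ S.H).subgroupOf L
  exact (Subgroup.subgroupOf_sup hU hH).symm

theorem K_le (hn' : ∀ i, S.nn i ∈ L) : S.K ≤ L := by
  unfold TG.K
  rw [closure_le]
  rintro _ ⟨i, rfl⟩
  exact hn' i

theorem pull_K : (pull S L hn).K = S.K.subgroupOf L := by
  have h1 : ((pull S L hn).K).map L.subtype = S.K := by
    unfold TG.K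
    rw [MonoidHom.map_closure]
    congr 1
    ext g
    constructor
    · rintro ⟨_, ⟨i, rfl⟩, rfl⟩
      exact ⟨i, rfl⟩
    · rintro ⟨i, rfl⟩
      exact ⟨⟨S.nn i, hn i⟩, ⟨i, rfl⟩, rfl⟩
  rw [← h1]
  exact (Subgroup.comap_map_eq_self_of_injective L.subtype_injective _).symm

/-- I1b -/
theorem pull_N (hH : S.H ≤ L) : (pull S L hn).N = S.N.subgroupOf L := by
  change S.H.subgroupOf L ⊔ (pull S L hn).K = (S.H ⊔ S.K).subgroupOf L
  rw [pull_K, Subgroup.subgroupOf_sup hH (K_le hn)]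

/-- I1c -/
theorem pull_top (hU : S.U ≤ L) (hH : S.H ≤ L) (hG : S.G = L) : (pull S L hn).G = ⊤ := by
  change (pull S L hn).B ⊔ (pull S L hn).N = ⊤
  have hB : S.B ≤ L := sup_le hU hH
  have hN : S.N ≤ L := sup_le hH (K_le hn)
  rw [pull_B hU hH, pull_N hH, ← Subgroup.subgroupOf_sup hB hN]
  change S.G.subgroupOf L = ⊤
  rw [hG, Subgroup.subgroupOf_self]

end Cfsg.Agent.Lib.Helper17TwI1
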