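import Cfsg.Agent.Lib.LeadTwDefs3
import Cfsg.Agent.S0311

set_option autoImplicit false
set_option linter.unusedVariables false
set_option linter.unusedSectionVars false

/-! PROJECT 101 (TW-AUT), PART I, piece I3. -/

namespace Cfsg.Agent.Lib.Helper17TwI3

open Subgroup Cfsg.Agent.Lib.Helper23Grp Cfsg.Agent.Lib.Helper23RG Cfsg.Agent.Lib.Helper23TG
  Cfsg.Agent.Lib.Helper23Tw Cfsg.Agent.Lib.Helper23Weyl Cfsg.Agent.Lib.LeadTwDefs

variable {𝔾 R I : Type*} [Group 𝔾] {S : TG 𝔾 R I} {L : Subgroup 𝔾} {hn : ∀ i, S.nn i ∈ L}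

/-- I3 -/
theorem ovr (ok : S.Ok) (htop : S.G = ⊤) (M : Subgroup 𝔾) (hBM : S.B ≤ M) :
    M ≤ S.B ⊔ closure {g | ∃ i, g = S.nn i ∧ g ∈ M} := by
  obtain ⟨P, hB, -, hS⟩ := TG.exists_bn ok
  have hle : P.B ≤ M.subgroupOf S.G := by
    rw [hB]
    intro x hx
    exact mem_subgroupOf.2 (hBM (mem_subgroupOf.1 hx))
  obtain ⟨J, hJ, hM'⟩ := Cfsg.Agent.S0311.result P _ hle
  unfold Cfsg.BNPair.parabolic at hM'
  set T := S.B ⊔ closure {g | ∃ i, g = S.nn i ∧ g ∈ M} with hTdef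
  have key : P.B ⊔ closure J ≤ T.subgroupOf S.G := by
    apply sup_le
    · rw [hB]
      intro x hx
      exact mem_subgroupOf.2 (mem_sup_left (mem_subgroupOf.1 hx))
    · rw [closure_le]
      intro s hs
      have hsM : s ∈ M.subgroupOf S.G := by
        rw [hM']; exact mem_sup_right (subset_closure hs)
      have hsS := hJ hs
      rw [hS] at hsS
      obtain ⟨i, hsm⟩ := hsS
      apply mem_subgroupOf.2
      apply mem_sup_right
      apply Subgroup.subset_closure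
      exact ⟨i, hsm, mem_subgroupOf.1 hsM⟩
  intro m hm
  have hmG : m ∈ S.G := by rw [htop]; exact mem_top m
  have h1 : (⟨m, hmG⟩ : ↥S.G) ∈ M.subgroupOf S.G := mem_subgroupOf.2 hm
  rw [hM'] at h1
  exact mem_subgroupOf.1 (key h1)

end Cfsg.Agent.Lib.Helper17TwI3
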