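import Cfsg.Agent.Lib.LeadTwDefs3
import Cfsg.Agent.S0311

set_option autoImplicit false
set_option linter.unusedVariables false
set_option linter.unusedSectionVars false

/-! PROJECT 101 (TW-AUT), PART I, piece I4. -/

namespace Cfsg.Agent.Lib.Helper17TwI4

open Subgroup Cfsg.Agent.Lib.Helper23Grp Cfsg.Agent.Lib.Helper23RG Cfsg.Agent.Lib.Helper23TG
  Cfsg.Agent.Lib.Helper23Tw Cfsg.Agent.Lib.Helper23Weyl Cfsg.Agent.Lib.LeadTwDefs

variable {𝔾 R I : Type*} [Group 𝔾] {S : TG 𝔾 R I} {L : Subgroup 𝔾} {hn : ∀ i, S.nn i ∈ L}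

/-- I4 (pure Sylow theory) -/
theorem syl [Finite 𝔾] (U : Subgroup 𝔾) (p a m : ℕ) [Fact p.Prime] (hG : Nat.card 𝔾 = p ^ a * m) (hm : ¬ p ∣ m)
    (hU : Nat.card U = p ^ a) (Q : Subgroup 𝔾) (hQ : Nat.card Q = Nat.card U) :
    ∃ g : 𝔾, Q = U.map (MulAut.conj g).toMonoidHom := by
  have hp : p.Prime := Fact.out
  have hm0 : m ≠ 0 := fun h => hm (h ▸ dvd_zero p)
  have hfac : (Nat.card 𝔾).factorization p = a := by
    rw [hG, Nat.factorization_mul (pow_ne_zero _ hp.ne_zero) hm0, Finsupp.add_apply,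
      Nat.factorization_pow, Finsupp.smul_apply, hp.factorization_self,
      Nat.factorization_eq_zero_of_not_dvd hm]
    simp
  let PU : Sylow p 𝔾 := Sylow.ofCard U (by rw [hU, hfac])
  let PQ : Sylow p 𝔾 := Sylow.ofCard Q (by rw [hQ, hU, hfac])
  obtain ⟨g, hg⟩ := MulAction.exists_smul_eq 𝔾 PU PQ
  refine ⟨g, ?_⟩
  have h1 : ((g • PU : Sylow p 𝔾) : Subgroup 𝔾) = (PQ : Subgroup 𝔾) := by rw [hg]
  rw [Sylow.coe_subgroup_smul] at h1
  exact h1.symm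

end Cfsg.Agent.Lib.Helper17TwI4
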