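import Cfsg.Agent.Lib.LeadTwDefs3
import Cfsg.Agent.S0311

set_option autoImplicit false
set_option linter.unusedVariables false
set_option linter.unusedSectionVars false

/-! PROJECT 101 (TW-AUT), PART I, piece I5. -/

namespace Cfsg.Agent.Lib.Helper17TwI5

open Subgroup Cfsg.Agent.Lib.Helper23Grp Cfsg.Agent.Lib.Helper23RG Cfsg.Agent.Lib.Helper23TG
  Cfsg.Agent.Lib.Helper23Tw Cfsg.Agent.Lib.Helper23Weyl Cfsg.Agent.Lib.LeadTwDefs

variable {𝔾 R I : Type*} [Group 𝔾] {S : TG 𝔾 R I} {L : Subgroup 𝔾} {hn : ∀ i, S.nn i ∈ L}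

/-- I5 -/
theorem refl_of_Dc (ok : S.Ok) {J J' : I}
    (hnn : ∃ a ∈ S.X (S.simple J), ∃ b ∈ S.X (S.neg (S.simple J)), S.nn J = a * b * a) (h : Dc S J J') :
    S.refl J (S.simple J') = S.simple J' := by
  obtain ⟨a, ha, b, hb, e⟩ := hnn
  obtain ⟨g, hg, hg1⟩ := ok.X_ne J'
  have h1 : a * g = g * a := h a (Or.inl ha) g hg
  have h2 : b * g = g * b := h b (Or.inr hb) g hg
  have h3 : S.nn J * g * (S.nn J)⁻¹ = g := by
    rw [e, mul_inv_eq_iff_eq_mul]
    calc a * b * a * g = a * b * (a * g) := by group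
      _ = a * (b * g) * a := by rw [h1]; group
      _ = (a * g) * b * a := by rw [h2]; group
      _ = g * (a * b * a) := by rw [h1]; group
  have h4 := TG.n_conj ok J _ g hg
  rw [h3] at h4
  exact TG.X_disj ok _ _ g h4 hg hg1

end Cfsg.Agent.Lib.Helper17TwI5
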