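import Cfsg.Agent.Lib.Helper17Exc23E

set_option autoImplicit false

/-! ASCH-U, piece `exc23`: the exception `(q, k) = (2, 3)` of class 7. -/

namespace Cfsg.Agent.Lib.Helper17UExc23

open Cfsg Cfsg.Geo Matrix Cfsg.Agent.Lib.Helper17Exc23B Cfsg.Agent.Lib.Helper17Exc23E
  Cfsg.Agent.Lib.Helper97UBase Cfsg.Agent.Lib.Helper13UDefs
open scoped MatrixGroups commutatorElement

variable {n : ℕ} {F : Type*} [Field F] {σ : F ≃+* F} {f : (Fin n → F) → (Fin n → F) → F}

lemma card_scalars [Fintype F] [Nonempty (Fin n)] :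
    Nat.card (scalars (Fin n) F) = Fintype.card F - 1 := by
  classical
  unfold scalars
  have hinj : Function.Injective (Units.map (Matrix.scalar (Fin n) : F →+* Matrix (Fin n) (Fin n) F).toMonoidHom) := by
    apply Units.map_injective
    intro a b hab
    exact Matrix.scalar_inj.mp hab
  rw [← Nat.card_congr (MonoidHom.ofInjective hinj).toEquiv, Nat.card_eq_fintype_card, Fintype.card_units]

/-- [exc23] `GU_3(2)` normalises the extraspecial group `3^{1+2}`, so `GU_3(2) ≀ S_t` normalises `3^{1+2t}`. -/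
theorem exc23 [Fintype F] (hU : US σ f 2) {H : Subgroup (GL (Fin n) F)} (hH : H ≤ Iso f) {t : ℕ} (ht : 2 ≤ t)
    (e : Fin n ≃ (Fin t → Fin 3)) {P : GL (Fin n) F} (hP : IsON σ f P)
    (hle : H ≤ tensorWreathSubgroup 3 t e P) :
    ∃ R : Subgroup (GL (Fin n) F), IsSymplecticTypeGroup 3 R ∧
      ActsAbsolutelyIrreducibly (matrixSet R) ∧ R ≤ Iso f ∧ ⁅R, R⁆ ≤ scalars (Fin n) F ∧
      IsMinimalFieldFor (Nat.card (Subgroup.center R)) 2 2 F ∧
      Nat.card (Subgroup.center R) = 3 ∧ Nat.card R = 3 ^ (1 + 2 * t) ∧ n = 3 ^ t ∧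
      H ≤ subgroupNormalizer R := by
  have hF : Fintype.card F = 4 := by rw [hU.card]; norm_num
  have hσ : ∀ a, σ a = a ^ 2 := hU.pow
  have hσσ := hU.unitary.involutive
  obtain ⟨E, hE⟩ := exists_good hF hσ
  have hn : n = 3 ^ t := by
    have := Fintype.card_congr e
    simpa using this
  have hne : Nonempty (Fin n) := ⟨e.symm (fun _ => 0)⟩
  have hchar : CharP F 2 := Cfsg.Agent.Lib.Helper62F4.charP_of_card hF
  obtain ⟨R, hR⟩ : ∃ R, R = RR E e P := ⟨_, rfl⟩
  have habs : ActsAbsolutelyIrreducibly (matrixSet R) := by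
    rw [hR]
    exact Cfsg.Agent.Lib.Helper98AschStruct.absIrred_of_env (RR_env hE e)
  have hcomm : ⁅R, R⁆ ≤ scalars (Fin n) F := by rw [hR]; exact RR_comm hE e
  have hsc : scalars (Fin n) F ≤ R := by rw [hR]; exact scalars_le_RR hE (by omega) e
  have hcube : ∀ g : R, g ^ 3 = 1 := by
    intro g
    apply Subtype.ext
    have hg : (g : GL (Fin n) F) ∈ RR E e P := by rw [← hR]; exact g.2
    exact RR_cube hE hg
  have hcen : Nat.card (Subgroup.center R) = 3 := by
    rw [← Cfsg.Agent.Lib.Helper7C6Card.subgroupOf_eq_center habs,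
      Nat.card_congr (Subgroup.subgroupOfEquivOfLe hsc).toEquiv, card_scalars, hF]
  have hp : IsPGroup 3 R := fun g => ⟨1, by rw [pow_one]; exact hcube g⟩
  have hcard : Nat.card R = 3 ^ (1 + 2 * t) := by
    have hN : (Nat.card R : F) ≠ 0 := by
      have : Fact (Nat.Prime 3) := ⟨Nat.prime_three⟩
      obtain ⟨k, hk⟩ := IsPGroup.iff_card.mp hp
      rw [hk]
      have h3 : ((3 : ℕ) : F) = 1 := by
        have h2 : (2 : F) = 0 := CharTwo.two_eq_zero
        push_cast
        linear_combination h2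
      rw [Nat.cast_pow, h3, one_pow]
      exact one_ne_zero
    rw [Cfsg.Agent.Lib.Helper7C6Card.card_sq R habs hcomm hN, hcen, Fintype.card_fin, hn]
    ring
  refine ⟨R, ⟨Nat.prime_three, hp, ?_, ?_⟩, habs, ?_, hcomm, ?_, hcen, hcard, hn, ?_⟩
  · intro A hA hc
    have hle' : A ≤ Subgroup.center R := by
      intro a ha
      subst hR
      have h1 := RR_char hE hP hσ hσσ e A hA hc a ha
      rw [← Cfsg.Agent.Lib.Helper7C6Card.subgroupOf_eq_center habs]
      exact Subgroup.mem_subgroupOf.mpr h1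
    have : Fact (Nat.Prime 3) := ⟨Nat.prime_three⟩
    have : IsCyclic (Subgroup.center R) := isCyclic_of_prime_card hcen
    exact Subgroup.isCyclic_of_le hle'
  · have h1 : Monoid.exponent R ∣ 3 := Monoid.exponent_dvd_of_forall_pow_eq_one hcube
    have h2 : 3 * Nat.gcd 2 3 = 3 := by norm_num
    rw [h2]
    rcases (Nat.dvd_prime Nat.prime_three).mp h1 with h | h
    · exfalso
      have := Monoid.exp_eq_one_iff.mp h
      have h3 : Nat.card R = 1 := Nat.card_of_subsingleton 1
      rw [hcard] at h3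
      have : 1 < 3 ^ (1 + 2 * t) := Nat.one_lt_pow (by omega) (by norm_num)
      omega
    · exact h
  · rw [hR]; exact RR_le_Iso hE hP e
  · rw [hcen]
    refine ⟨Nat.prime_two, hchar, by rw [hF]; norm_num, by norm_num, ?_⟩
    intro d h1 h2
    interval_cases d
    norm_num
  · apply Cfsg.Agent.Lib.Helper97GBase.le_normalizer_of_Nz
    intro h hh x hx
    rw [hR] at hx ⊢
    exact RR_Nz hE hP hσ hσσ e h (Subgroup.mem_inf.mpr ⟨hH hh, hle hh⟩) x hx

end Cfsg.Agent.Lib.Helper17UExc23
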