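import Mathlib

set_option autoImplicit false

namespace Cfsg.Agent.Lib.Helper18Count

open Module Submodule Finset
open scoped Classical

variable {K V : Type*} [Field K] [Fintype K] [AddCommGroup V] [Module K V] [Fintype V]

/-- totally isotropic for an arbitrary two-argument function -/
def TI (f : V → V → K) (W : Submodule K V) : Prop := ∀ u ∈ W, ∀ v ∈ W, f u v = 0

theorem card_filter_mem (W : Submodule K V) :
    #{w : V | w ∈ W} = Fintype.card K ^ finrank K W := by
  have : Module.Finite K V := Module.Finite.of_finite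
  rw [← Fintype.card_subtype, ← Nat.card_eq_fintype_card, ← Nat.card_eq_fintype_card]
  exact Module.natCard_eq_pow_finrank (K := K) (V := W)

theorem card_filter_diff (W L : Submodule K V) (h : L ≤ W) :
    #{w : V | w ∈ W ∧ w ∉ L} = Fintype.card K ^ finrank K W - Fintype.card K ^ finrank K L := by
  have h1 := card_filter_add_card_filter_not (s := ({w : V | w ∈ W} : Finset V)) (fun w => w ∈ L)
  rw [filter_filter, filter_filter, card_filter_mem] at h1
  have h2 : (Finset.univ.filter (fun w : V => w ∈ W ∧ w ∈ L)) = Finset.univ.filter (fun w : V => w ∈ L) := by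
    ext w; simp only [mem_filter, mem_univ, true_and]
    exact ⟨fun h => h.2, fun hw => ⟨h hw, hw⟩⟩
  rw [h2, card_filter_mem] at h1
  omega

omit [Fintype K] in
theorem span_pair_eq {W : Submodule K V} (hW : finrank K W = 2) {v w : V} (hv : v ≠ 0) (hvW : v ∈ W)
    (hwW : w ∈ W) (hw : w ∉ span K {v}) : span K {v} ⊔ span K {w} = W := by
  have : Module.Finite K V := Module.Finite.of_finite
  apply Submodule.eq_of_le_of_finrank_eq
  · refine sup_le ?_ ?_ <;> rw [span_le] <;> simpa
  · rw [Submodule.finrank_sup_span_singleton hw, finrank_span_singleton hv, hW]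

noncomputable local instance : Fintype (Submodule K V) := Fintype.ofFinite _

theorem card_through (f : V → V → K)
    (hspan : ∀ v w, f v v = 0 → f v w = 0 → f w v = 0 → f w w = 0 →
      TI f (span K {v} ⊔ span K {w}))
    (v : V) (hv : v ≠ 0) (hvv : f v v = 0) :
    Nat.card {W : Submodule K V // finrank K W = 2 ∧ v ∈ W ∧ TI f W}
        * (Fintype.card K ^ 2 - Fintype.card K)
      = Nat.card {w : V // w ∉ span K {v} ∧ f v w = 0 ∧ f w v = 0 ∧ f w w = 0} := by
  have : Module.Finite K V := Module.Finite.of_finite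
  rw [Nat.card_eq_fintype_card, Nat.card_eq_fintype_card, Fintype.card_subtype, Fintype.card_subtype]
  set s : Finset (Submodule K V) := {W | finrank K W = 2 ∧ v ∈ W ∧ TI f W} with hs
  set t : Finset V := {w | w ∉ span K {v} ∧ f v w = 0 ∧ f w v = 0 ∧ f w w = 0} with ht
  have key := sum_card_bipartiteAbove_eq_sum_card_bipartiteBelow (s := s) (t := t)
    (fun (W : Submodule K V) (w : V) => w ∈ W)
  have h1 : ∀ W ∈ s, #(t.bipartiteAbove (fun (W : Submodule K V) (w : V) => w ∈ W) W)
      = Fintype.card K ^ 2 - Fintype.card K := by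
    intro W hW
    simp only [hs, mem_filter, mem_univ, true_and] at hW
    obtain ⟨hW2, hvW, hTI⟩ := hW
    have hle : span K {v} ≤ W := by rw [span_le]; simpa
    have := card_filter_diff W (span K {v}) hle
    rw [hW2, finrank_span_singleton hv, pow_one] at this
    rw [← this]
    congr 1
    ext w
    simp only [bipartiteAbove, ht, mem_filter, mem_univ, true_and]
    constructor
    · rintro ⟨⟨h1, -⟩, h2⟩
      exact ⟨h2, h1⟩
    · rintro ⟨h1, h2⟩
      exact ⟨⟨h2, hTI v hvW w h1, hTI w h1 v hvW, hTI w h1 w h1⟩, h1⟩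
  have h2 : ∀ w ∈ t, #(s.bipartiteBelow (fun (W : Submodule K V) (w : V) => w ∈ W) w) = 1 := by
    intro w hw
    simp only [ht, mem_filter, mem_univ, true_and] at hw
    obtain ⟨hw1, hw2, hw3, hw4⟩ := hw
    rw [card_eq_one]
    refine ⟨span K {v} ⊔ span K {w}, ?_⟩
    ext W
    simp only [bipartiteBelow, hs, mem_filter, mem_univ, true_and, mem_singleton]
    constructor
    · rintro ⟨⟨hW2, hvW, -⟩, hwW⟩
      exact (span_pair_eq hW2 hv hvW hwW hw1).symm
    · rintro rfl
      refine ⟨⟨?_, ?_, hspan v w hvv hw2 hw3 hw4⟩, ?_⟩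
      · rw [Submodule.finrank_sup_span_singleton hw1, finrank_span_singleton hv]
      · exact Submodule.mem_sup_left (mem_span_singleton_self v)
      · exact Submodule.mem_sup_right (mem_span_singleton_self w)
  rw [sum_congr rfl h1, sum_congr rfl h2, sum_const, sum_const, smul_eq_mul, smul_eq_mul, mul_one] at key
  exact key

theorem card_total (f : V → V → K) (N : ℕ)
    (hN : ∀ v : V, v ≠ 0 → f v v = 0 →
      Nat.card {W : Submodule K V // finrank K W = 2 ∧ v ∈ W ∧ TI f W} = N) :
    Nat.card {W : Submodule K V // finrank K W = 2 ∧ TI f W} * (Fintype.card K ^ 2 - 1)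
      = Nat.card {v : V // v ≠ 0 ∧ f v v = 0} * N := by
  have : Module.Finite K V := Module.Finite.of_finite
  rw [Nat.card_eq_fintype_card, Nat.card_eq_fintype_card, Fintype.card_subtype, Fintype.card_subtype]
  set s : Finset (Submodule K V) := {W | finrank K W = 2 ∧ TI f W} with hs
  set t : Finset V := {v | v ≠ 0 ∧ f v v = 0} with ht
  have key := sum_card_bipartiteAbove_eq_sum_card_bipartiteBelow (s := s) (t := t)
    (fun (W : Submodule K V) (w : V) => w ∈ W)
  have h1 : ∀ W ∈ s, #(t.bipartiteAbove (fun (W : Submodule K V) (w : V) => w ∈ W) W)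
      = Fintype.card K ^ 2 - 1 := by
    intro W hW
    simp only [hs, mem_filter, mem_univ, true_and] at hW
    obtain ⟨hW2, hTI⟩ := hW
    have := card_filter_diff W ⊥ bot_le
    rw [hW2, finrank_bot, pow_zero] at this
    rw [← this]
    congr 1
    ext w
    simp only [bipartiteAbove, ht, mem_filter, mem_univ, true_and, Submodule.mem_bot]
    constructor
    · rintro ⟨⟨h1, -⟩, h2⟩
      exact ⟨h2, h1⟩
    · rintro ⟨h1, h2⟩
      exact ⟨⟨h2, hTI w h1 w h1⟩, h1⟩
  have h2 : ∀ v ∈ t, #(s.bipartiteBelow (fun (W : Submodule K V) (w : V) => w ∈ W) v) = N := by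
    intro v hv
    simp only [ht, mem_filter, mem_univ, true_and] at hv
    rw [← hN v hv.1 hv.2, Nat.card_eq_fintype_card, Fintype.card_subtype]
    congr 1
    ext W
    simp only [bipartiteBelow, hs, mem_filter, mem_univ, true_and]
    tauto
  rw [sum_congr rfl h1, sum_congr rfl h2, sum_const, sum_const, smul_eq_mul, smul_eq_mul] at key
  exact key

omit [Fintype K] [Fintype V] in
/-- spans of pairs are totally isotropic for sesquilinear functions -/
theorem ti_span_pair (f : V → V → K) (σ : K → K)
    (hadd1 : ∀ u u' v, f (u + u') v = f u v + f u' v)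
    (hadd2 : ∀ u v v', f u (v + v') = f u v + f u v')
    (hsmul1 : ∀ (a : K) u v, f (a • u) v = a * f u v)
    (hsmul2 : ∀ (a : K) u v, f u (a • v) = σ a * f u v)
    (v w : V) (h1 : f v v = 0) (h2 : f v w = 0) (h3 : f w v = 0) (h4 : f w w = 0) :
    TI f (span K {v} ⊔ span K {w}) := by
  intro x hx y hy
  rw [Submodule.mem_sup] at hx hy
  obtain ⟨x1, hx1, x2, hx2, rfl⟩ := hx
  obtain ⟨y1, hy1, y2, hy2, rfl⟩ := hy
  rw [Submodule.mem_span_singleton] at hx1 hx2 hy1 hy2
  obtain ⟨a, rfl⟩ := hx1
  obtain ⟨b, rfl⟩ := hx2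
  obtain ⟨c, rfl⟩ := hy1
  obtain ⟨d, rfl⟩ := hy2
  simp only [hadd1, hadd2, hsmul1, hsmul2, h1, h2, h3, h4, mul_zero, add_zero]

end Cfsg.Agent.Lib.Helper18Count
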