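import Mathlib
import Cfsg.Agent.Lib.Helper18GfB

/-!
# Graph-field involutions of plus type groups: conjugacy, centraliser, class splitting (abstract)
-/

set_option autoImplicit false
set_option linter.unusedSectionVars false

namespace Cfsg.Agent.Lib.Helper18GfC

open Cfsg Matrix Module
open scoped MatrixGroups
open Cfsg.Agent.Lib.Helper49Orth Cfsg.Agent.Lib.Helper49Forms
  Cfsg.Agent.Lib.Helper51OrthAut Cfsg.Agent.Lib.Helper51OrthKer Cfsg.Agent.Lib.Helper51OrthIdx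
  Cfsg.Agent.Lib.Helper18GamA Cfsg.Agent.Lib.Helper18GamB Cfsg.Agent.Lib.Helper18GamC
  Cfsg.Agent.Lib.Helper18GamD Cfsg.Agent.Lib.Helper18GamE Cfsg.Agent.Lib.Helper18GamF
  Cfsg.Agent.Lib.Helper18GamI Cfsg.Agent.Lib.Helper18GamK
  Cfsg.Agent.Lib.Helper18LangA Cfsg.Agent.Lib.Helper18LangB Cfsg.Agent.Lib.Helper18RecA
  Cfsg.Agent.Lib.Helper18GfA Cfsg.Agent.Lib.Helper18GfB

section conj

variable {ι ι' : Type} [Fintype ι] [DecidableEq ι] [Fintype ι'] [DecidableEq ι']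
variable {F : Type*} [Field F] [Fintype F] {Q : QuadraticForm F (ι → F)} {q' : (ι' → F) → F}
  {σ : F ≃+* F}

theorem rel_left {B : Matrix ι ι' F} {B' : Matrix ι' ι F} (h1 : B * B' = 1) (h2 : B' * B = 1)
    {g : Matrix ι ι F} {c : F} (hc : c ≠ 0) (hB : (c • g) * B.map σ = B) :
    g * B.map σ = c⁻¹ • B ∧ B' * g = c⁻¹ • B'.map σ := by
  have e3 : g * B.map σ = c⁻¹ • B := by
    conv_rhs => rw [← hB]
    rw [Matrix.smul_mul, smul_smul, inv_mul_cancel₀ hc, one_smul]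
  refine ⟨e3, ?_⟩
  have h3 : B' * g * B.map σ = c⁻¹ • (1 : Matrix ι' ι' F) := by
    rw [Matrix.mul_assoc, e3, Matrix.mul_smul, h2]
  have e5 : B.map σ * B'.map σ = 1 := inv_pair_map (σ : F →+* F) B B' h1
  calc B' * g = B' * g * (B.map σ * B'.map σ) := by rw [e5, Matrix.mul_one]
    _ = (B' * g * B.map σ) * B'.map σ := by simp only [Matrix.mul_assoc]
    _ = _ := by rw [h3, Matrix.smul_mul, Matrix.one_mul]

/-- Two semisimilarities with the same normal form are conjugate under the conformal group. -/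
theorem conj_of_simR (hσ : Comm ⇑Q σ) {B₁ B₂ : Matrix ι ι' F} {B₁' B₂' : Matrix ι' ι F}
    {κ₁ κ₂ c₁ c₂ : F} (h₁ : SimR ⇑Q q' B₁ B₁' κ₁) (h₂ : SimR ⇑Q q' B₂ B₂' κ₂) (hc₁ : c₁ ≠ 0)
    (hc₂ : c₂ ≠ 0) (g₁ g₂ : ↥(GO Q))
    (hB₁ : (c₁ • ((g₁ : GL ι F) : Matrix ι ι F)) * B₁.map σ = B₁)
    (hB₂ : (c₂ • ((g₂ : GL ι F) : Matrix ι ι F)) * B₂.map σ = B₂) :
    ∃ h : ↥(GO Q), cAut ⇑Q h * (cAut ⇑Q g₁ * fA hσ) * (cAut ⇑Q h)⁻¹ = cAut ⇑Q g₂ * fA hσ := by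
  have hκ : κ₂ * κ₁⁻¹ ≠ 0 := mul_ne_zero h₂.ne (inv_ne_zero h₁.ne)
  have hcc : c₂ * c₁⁻¹ ≠ 0 := mul_ne_zero hc₂ (inv_ne_zero hc₁)
  let h : ↥(GO Q) := ⟨⟨B₂ * B₁', B₁ * B₂', inv_pair_mul _ _ _ _ h₂.mul h₁.mul',
    inv_pair_mul _ _ _ _ h₁.mul h₂.mul'⟩, Units.mk0 _ hκ, fun v => by
      change Q ((B₂ * B₁') *ᵥ v) = κ₂ * κ₁⁻¹ * Q v
      rw [← Matrix.mulVec_mulVec, h₂.sim, h₁.inv.sim, mul_assoc]⟩
  refine ⟨h, ?_⟩
  have key : inlO ⇑Q h * (inlO ⇑Q g₁ * fS hσ) * (inlO ⇑Q h)⁻¹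
      = inlO ⇑Q (scal Q (Units.mk0 _ hcc)) * (inlO ⇑Q g₂ * fS hσ) := by
    rw [mul_inv_eq_iff_eq_mul]
    apply Subtype.ext
    apply SemidirectProduct.ext
    · change (h : GL ι F) * mapAut (1 : F ≃+* F) ((g₁ : GL ι F) * mapAut (1 : F ≃+* F) (1 : GL ι F))
        = ((scal Q (Units.mk0 _ hcc) : ↥(GO Q)) : GL ι F) * mapAut (1 : F ≃+* F)
          ((g₂ : GL ι F) * mapAut (1 : F ≃+* F) (1 : GL ι F)) *
          mapAut ((1 : F ≃+* F) * ((1 : F ≃+* F) * σ)) (h : GL ι F)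
      rw [map_one, MulAut.one_apply, MulAut.one_apply, mul_one, MulAut.one_apply, mul_one, one_mul,
        one_mul]
      apply Units.ext
      rw [Units.val_mul, Units.val_mul, Units.val_mul, coe_mapAut, coe_scal]
      change (B₂ * B₁') * ((g₁ : GL ι F) : Matrix ι ι F) = (c₂ * c₁⁻¹) • (1 : Matrix ι ι F) *
        ((g₂ : GL ι F) : Matrix ι ι F) * (B₂ * B₁').map σ
      have e1 : (B₂ * B₁').map σ = B₂.map σ * B₁'.map σ := by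
        have := Matrix.map_mul (f := (σ : F →+* F)) (L := B₂) (M := B₁')
        simpa only [RingHom.coe_coe] using this
      rw [e1, Matrix.mul_assoc B₂, (rel_left h₁.mul h₁.mul' hc₁ hB₁).2, Matrix.smul_mul,
        Matrix.one_mul, Matrix.smul_mul, ← Matrix.mul_assoc,
        (rel_left h₂.mul h₂.mul' hc₂ hB₂).1, Matrix.mul_smul, Matrix.smul_mul, smul_smul]
      congr 1
      field_simp
    · change (1 : F ≃+* F) * ((1 : F ≃+* F) * σ) = 1 * (1 * σ) * 1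
      rw [mul_one]
  have := congrArg (sAut ⇑Q) key
  rw [map_mul, map_mul, map_inv, sAut_mul_fS, sAut_inlO, map_mul, sAut_mul_fS, sAut_inlO,
    cAut_eq_one_of_scalar Q _ (scal_mem Q _), one_mul] at this
  exact this

end conj

theorem conj_mul_of_comm {X : Type*} [Group X] (a z x : X) (h : z * x * z⁻¹ = x) :
    (a * z) * x * (a * z)⁻¹ = a * x * a⁻¹ := by
  calc (a * z) * x * (a * z)⁻¹ = a * (z * x * z⁻¹) * a⁻¹ := by group
    _ = _ := by rw [h]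

theorem comm_cgR_mapJ {ι ι' : Type} [Fintype ι] [DecidableEq ι] [Fintype ι'] [DecidableEq ι']
    {F : Type*} [Field F] [Fintype F] {F₀ : Type*} [Field F₀] {j : F₀ →+* F} {σ : F ≃+* F}
    {Q : QuadraticForm F (ι → F)} {Q' : QuadraticForm F (ι' → F)}
    {Q₀ : QuadraticForm F₀ (ι' → F₀)} {B : Matrix ι ι' F} {B' : Matrix ι' ι F} {κ : F}
    (hS : SimR ⇑Q ⇑Q' B B' κ) (hσ' : Comm ⇑Q' σ) (hE : Ext Q' Q₀ j)
    (hj : ∀ a, σ a = a ↔ a ∈ Set.range j) (X : MulAut (POmega F ⇑Q))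
    (hx' : MulAut.congr (psiR hS) (fA hσ') = X) (t : ↥(GO Q₀)) :
    cAut ⇑Q (cgR hS (mapJ hE t)) * X * (cAut ⇑Q (cgR hS (mapJ hE t)))⁻¹ = X := by
  have h3 : cAut ⇑Q' (mapJ hE t) * fA hσ' * (cAut ⇑Q' (mapJ hE t))⁻¹ = fA hσ' := by
    rw [mul_inv_eq_iff_eq_mul, ← sAut_inlO]
    unfold fA
    rw [← map_mul, ← map_mul, fS_comm_mapJ hσ' hE hj]
  have h4 := congrArg (MulAut.congr (psiR hS)) h3
  rw [map_mul, map_mul, map_inv, congr_cAutR, hx'] at h4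
  exact h4

section main

variable {F : Type*} [Field F] [Fintype F] {F₀ : Type*} [Field F₀] [Fintype F₀] {j : F₀ →+* F}
variable {σ : F ≃+* F}

theorem gf_main {m k : ℕ} (hmk : m = k + 1) (hm : 5 ≤ m) {a₀ b₀ : F₀} (hab : Aniso a₀ b₀)
    (D : Subgroup ↥(GO (QPlus m F))) (D' : Subgroup ↥(GO (QMinus k F (j a₀) (j b₀))))
    (D₀ : Subgroup ↥(GO (QMinus k F₀ a₀ b₀)))
    (hD : DFr D) (hcyc : IsCyclic (F ≃+* F)) (hj : ∀ a, σ a = a ↔ a ∈ Set.range j)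
    (hr : orderOf σ = 2)
    (hQ' : (QuadraticMap.polarBilin (QMinus k F (j a₀) (j b₀))).Nondegenerate)
    (hDD' : ∀ (B : Matrix (Fin m ⊕ Fin m) ((Fin k ⊕ Fin k) ⊕ Fin 2) F)
      (B' : Matrix ((Fin k ⊕ Fin k) ⊕ Fin 2) (Fin m ⊕ Fin m) F) (κ : F)
      (h : SimR ⇑(QPlus m F) ⇑(QMinus k F (j a₀) (j b₀)) B B' κ),
      D'.map (cgR h).toMonoidHom = D)
    (hZ' : ZZ _ ≤ D') (hO' : Om' _ ≤ D')
    (hD₀ : ∀ h, mapJ (ext_minus k j a₀ b₀) h ∈ D' ↔ h ∈ D₀) (hD₀top : D₀ ≠ ⊤)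
    (g : ↥(GO (QPlus m F))) (hg : g ∉ D)
    (hy : (cAut ⇑(QPlus m F) g * fA (comm_plus m σ)) ^ 2 = 1) :
    (∀ g₂ : ↥(GO (QPlus m F)), g₂ ∉ D → (cAut ⇑(QPlus m F) g₂ * fA (comm_plus m σ)) ^ 2 = 1 →
      IsConjUnder (D.map (cAut ⇑(QPlus m F))) (cAut ⇑(QPlus m F) g * fA (comm_plus m σ))
        (cAut ⇑(QPlus m F) g₂ * fA (comm_plus m σ))) ∧
    Nonempty (↥(D.map (cAut ⇑(QPlus m F)) ⊓
      Subgroup.centralizer {cAut ⇑(QPlus m F) g * fA (comm_plus m σ)}) ≃*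
        ↥(D₀.map (cAut ⇑(QMinus k F₀ a₀ b₀)))) ∧
    splitClassCount (D.map (cAut ⇑(QPlus m F))) (Inn (POmega F ⇑(QPlus m F)))
      (cAut ⇑(QPlus m F) g * fA (comm_plus m σ)) =
        ((Om' (QMinus k F (j a₀) (j b₀)) ⊔ ZZ (QMinus k F (j a₀) (j b₀))) ⊔
          D₀.map (mapJ (ext_minus k j a₀ b₀))).relIndex D' := by
  have hσ := comm_plus (F := F) m σ
  have hσ' : Comm ⇑(QMinus k F (j a₀) (j b₀)) σ :=
    comm_minus k ((hj _).2 ⟨_, rfl⟩) ((hj _).2 ⟨_, rfl⟩)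
  have hE := ext_minus k j a₀ b₀
  have hQ₀ := Cfsg.Agent.Lib.Helper49Rank.QMinus_nondegenerate k hab
  have hn' : 5 ≤ Fintype.card ((Fin k ⊕ Fin k) ⊕ Fin 2) := by
    simp
    omega
  obtain ⟨B, B', κ, c, hS, hc, hB⟩ := exists_simR hmk (by omega) hD hcyc hj hr g hg hy hab
  have hx' : MulAut.congr (psiR hS) (fA hσ') = cAut ⇑(QPlus m F) g * fA hσ := by
    rw [← sAut_mul_fS]
    exact congr_fAR hS hσ' _ (right_mul_fS hσ g) c hc (by rw [left_mul_fS]; exact hB)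
  have hx'' : MulAut.congr (psiR hS).symm (cAut ⇑(QPlus m F) g * fA hσ) = fA hσ' := by
    rw [← hx']
    ext y
    change (psiR hS).symm ((psiR hS) (fA hσ' ((psiR hS).symm ((psiR hS).symm.symm y)))) = _
    simp
  refine ⟨?_, finalR hQ' hQ₀ hn' hσ' hE hj (exists_one_minus k a₀ b₀) (psiR hS).symm _ hx''
    (D.map (cAut ⇑(QPlus m F))) D' D₀ (map_congrR hS D D' (hDD' B B' κ hS)) hZ' hO' hD₀⟩
  intro g₂ hg₂ hy₂
  obtain ⟨B₂, B₂', κ₂, c₂, hS₂, hc₂, hB₂⟩ := exists_simR hmk (by omega) hD hcyc hj hr g₂ hg₂ hy₂ hab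
  obtain ⟨h, hh⟩ := conj_of_simR hσ hS hS₂ hc hc₂ g g₂ hB hB₂
  by_cases hhD : h ∈ D
  · exact ⟨_, ⟨h, hhD, rfl⟩, hh.symm⟩
  · obtain ⟨t, ht⟩ : ∃ t, t ∉ D₀ := by
      by_contra hcon
      push Not at hcon
      exact hD₀top (eq_top_iff.2 fun t _ => hcon t)
    have hz : cgR hS (mapJ hE t) ∉ D := by
      rw [← hDD' B B' κ hS]
      rintro ⟨s, hs, hst⟩
      have : s = mapJ hE t := (cgR hS).injective hst
      rw [this] at hs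
      exact ht ((hD₀ t).1 hs)
    refine ⟨_, ⟨h * cgR hS (mapJ hE t), (Subgroup.mul_mem_iff_of_index_two hD.index).2
      ⟨fun h' => absurd h' hhD, fun h' => absurd h' hz⟩, rfl⟩, ?_⟩
    rw [← hh, map_mul]
    exact (conj_mul_of_comm _ _ _ (comm_cgR_mapJ hS hσ' hE hj _ hx' t)).symm

end main

end Cfsg.Agent.Lib.Helper18GfC
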