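import Mathlib
import Cfsg.Agent.Lib.Helper18GfC

/-!
# A spinor norm computation in `QMinus` coordinates
-/

set_option autoImplicit false
set_option linter.unusedSectionVars false

namespace Cfsg.Agent.Lib.Helper18GfD

open Cfsg Matrix Module
open scoped MatrixGroups
open Cfsg.Agent.Lib.Helper49Orth Cfsg.Agent.Lib.Helper49Forms Cfsg.Agent.Lib.Helper49Disc

variable {F : Type*} [Field F]

section Pair

variable {ι : Type} [Fintype ι] [DecidableEq ι] {Q : QuadraticForm F (ι → F)}

theorem refl_mul_refl_t {a b : ι} (hab : a ≠ b) (H : HypPair Q a b) {t : F} (ht : t ≠ 0) :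
    Cfsg.reflectionMatrix ⇑Q ((1 : F) • Pi.single a 1 + (-1 : F) • Pi.single b 1)
      * Cfsg.reflectionMatrix ⇑Q ((1 : F) • Pi.single a 1 + (-t : F) • Pi.single b 1)
      = Matrix.diagonal (fun k => if k = a then t else if k = b then t⁻¹ else 1) := by
  apply Matrix.mulVec_injective
  funext x
  rw [← Matrix.mulVec_mulVec, refl_mulVec, refl_mulVec, H.Q_st, H.Q_st, H.polar_st, H.polar_st]
  funext k
  rw [Matrix.mulVec_diagonal]
  simp only [Pi.sub_apply, Pi.smul_apply, Pi.add_apply, Pi.single_apply, smul_eq_mul]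
  by_cases hka : k = a
  · subst hka
    simp [hab, hab.symm]
    field_simp
    ring
  · by_cases hkb : k = b
    · subst hkb
      simp [hab, hab.symm]
      field_simp
      ring
    · simp [hka, hkb]

theorem exists_list_diag_pairs {m : ℕ} (a b : Fin m → ι) (key : ι → ℕ) (dv : ι → F) {t : F}
    (ht : t ≠ 0) (hab : ∀ j, a j ≠ b j)
    (hkey : ∀ (k : ι) (j : Fin m), key k = (j : ℕ) ↔ (k = a j ∨ k = b j))
    (hda : ∀ j, dv (a j) = t) (hdb : ∀ j, dv (b j) = t⁻¹)
    (H : ∀ j, HypPair Q (a j) (b j)) (i : ℕ) (hi : i ≤ m) :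
    ∃ vs : List (ι → F), (∀ v ∈ vs, Q v ≠ 0) ∧ vs.length = 2 * i ∧
      (vs.map (fun v => Q v)).prod = t ^ i ∧
      (vs.map (fun v => Cfsg.reflectionMatrix ⇑Q v)).prod
        = Matrix.diagonal (fun k => if key k < i then dv k else 1) := by
  induction i with
  | zero => exact ⟨[], by simp, by simp, by simp, by simp⟩
  | succ i ih =>
    obtain ⟨vs, h1, h2, h3, h4⟩ := ih (by omega)
    let j : Fin m := ⟨i, by omega⟩
    refine ⟨((1 : F) • Pi.single (a j) 1 + (-1 : F) • Pi.single (b j) 1) ::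
      ((1 : F) • Pi.single (a j) 1 + (-t : F) • Pi.single (b j) 1) :: vs, ?_, ?_, ?_, ?_⟩
    · intro v hv
      simp only [List.mem_cons] at hv
      rcases hv with rfl | rfl | hv
      · rw [(H j).Q_st]; simp
      · rw [(H j).Q_st]; simpa using ht
      · exact h1 v hv
    · simp [h2]; ring
    · simp only [List.map_cons, List.prod_cons]
      rw [(H j).Q_st, (H j).Q_st, h3, pow_succ]
      ring
    · simp only [List.map_cons, List.prod_cons]
      rw [h4, ← mul_assoc, refl_mul_refl_t (hab j) (H j) ht, Matrix.diagonal_mul_diagonal]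
      congr 1
      funext k
      have hk := hkey k j
      by_cases h5 : key k = i
      · have h6 : k = a j ∨ k = b j := hk.1 h5
        rw [if_neg (by omega : ¬ key k < i), if_pos (by omega : key k < i + 1), mul_one]
        rcases h6 with rfl | rfl
        · rw [if_pos rfl, hda]
        · rw [if_neg (hab j).symm, if_pos rfl, hdb]
      · have h6 : ¬ (k = a j ∨ k = b j) := fun h => h5 (hk.2 h)
        push Not at h6
        rw [if_neg h6.1, if_neg h6.2, one_mul]
        by_cases h7 : key k < i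
        · rw [if_pos h7, if_pos (by omega)]
        · rw [if_neg h7, if_neg (by omega)]

end Pair

section Plane

variable (k : ℕ) (a b : F)

/-- The vector `α e₀ + β e₁` of the binary part. -/
def pv (α β : F) : (Fin k ⊕ Fin k) ⊕ Fin 2 → F := Sum.elim (fun _ => 0) ![α, β]

theorem pv_eq (α β : F) :
    pv k α β = α • Pi.single (Sum.inr 0) 1 + β • Pi.single (Sum.inr 1) 1 := by
  funext i
  rcases i with (i | i) | i
  · simp [pv]
  · simp [pv]
  · fin_cases i <;> simp [pv]

theorem Q_pv (α β : F) : QMinus k F a b (pv k α β) = α ^ 2 + a * α * β + b * β ^ 2 := by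
  rw [coe_QMinus]
  simp [quadFormMinus, pv]

theorem polar_pv (α β : F) (x : (Fin k ⊕ Fin k) ⊕ Fin 2 → F) :
    QuadraticMap.polar ⇑(QMinus k F a b) (pv k α β) x =
      α * (2 * x (Sum.inr 0) + a * x (Sum.inr 1)) + β * (a * x (Sum.inr 0) + 2 * b * x (Sum.inr 1)) := by
  rw [pv_eq, QuadraticMap.polar_add_left, QuadraticMap.polar_smul_left,
    QuadraticMap.polar_smul_left, polar_QMinus_zero, polar_QMinus_one]
  simp

/-- The rotation of the binary part. -/
def rotMat (μ u w : F) : Matrix ((Fin k ⊕ Fin k) ⊕ Fin 2) ((Fin k ⊕ Fin k) ⊕ Fin 2) F :=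
  Matrix.fromBlocks 1 0 0 (μ⁻¹ • !![u, -(b * w); w, u + a * w])

theorem refl_mul_refl_plane {μ u w : F} (hμ : μ ≠ 0) (R : μ ^ 2 = u ^ 2 + a * u * w + b * w ^ 2)
    (hT : 2 * μ + 2 * u + a * w ≠ 0) :
    Cfsg.reflectionMatrix ⇑(QMinus k F a b) (pv k (μ + u) w)
      * Cfsg.reflectionMatrix ⇑(QMinus k F a b) (pv k 1 0) = rotMat k a b μ u w := by
  have hQz : QMinus k F a b (pv k (μ + u) w) = μ * (2 * μ + 2 * u + a * w) := by
    rw [Q_pv]
    linear_combination -R
  have hT' : 2 * (μ + u) + a * w ≠ 0 := by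
    intro h
    apply hT
    linear_combination h
  apply Matrix.mulVec_injective
  funext x
  rw [← Matrix.mulVec_mulVec, refl_mulVec, refl_mulVec, hQz, Q_pv, polar_pv, polar_pv, rotMat,
    Matrix.fromBlocks_mulVec]
  funext i
  rcases i with (i | i) | i
  · simp [pv]
  · simp [pv]
  · fin_cases i
    · simp [pv, Matrix.mulVec, dotProduct, Fin.sum_univ_two]
      field_simp
      linear_combination (-a * x (Sum.inr 1)) * R
    · simp [pv, Matrix.mulVec, dotProduct, Fin.sum_univ_two]
      field_simp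
      linear_combination (2 * x (Sum.inr 1)) * R

/-- The diagonal entries of the torus element. -/
def dvec (t : F) : (Fin k ⊕ Fin k) ⊕ Fin 2 → F :=
  Sum.elim (Sum.elim (fun _ => t) (fun _ => t⁻¹)) (fun _ => 1)

/-- Key function for the hyperbolic pairs. -/
def keyM : (Fin k ⊕ Fin k) ⊕ Fin 2 → ℕ :=
  Sum.elim (Sum.elim (fun j => (j : ℕ)) (fun j => (j : ℕ))) (fun _ => k)

theorem exists_list_dvec {t : F} (ht : t ≠ 0) :
    ∃ vs : List ((Fin k ⊕ Fin k) ⊕ Fin 2 → F), (∀ v ∈ vs, QMinus k F a b v ≠ 0) ∧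
      vs.length = 2 * k ∧ (vs.map (fun v => QMinus k F a b v)).prod = t ^ k ∧
      (vs.map (fun v => Cfsg.reflectionMatrix ⇑(QMinus k F a b) v)).prod
        = Matrix.diagonal (dvec k t) := by
  obtain ⟨vs, h1, h2, h3, h4⟩ := exists_list_diag_pairs (Q := QMinus k F a b)
    (fun j : Fin k => Sum.inl (Sum.inl j)) (fun j : Fin k => Sum.inl (Sum.inr j)) (keyM k)
    (dvec k t) ht (fun j => by simp)
    (fun κ j => by
      rcases κ with (i | i) | i
      · simp [keyM, Fin.ext_iff]
      · simp [keyM, Fin.ext_iff]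
      · simp only [keyM, Sum.elim_inr, reduceCtorEq, or_self, iff_false]
        have := j.2
        omega)
    (fun j => rfl) (fun j => rfl) (fun j => hypPair_QMinus k a b j) k le_rfl
  refine ⟨vs, h1, h2, h3, ?_⟩
  rw [h4]
  congr 1
  funext κ
  rcases κ with (i | i) | i
  · simp [keyM]
  · simp [keyM]
  · simp [keyM, dvec]

theorem spinor_special [Fintype F] (h2 : (2 : F) ≠ 0) {μ u w : F} (hμ : μ ≠ 0)
    (R : μ ^ 2 = u ^ 2 + a * u * w + b * w ^ 2) (hT : 2 * μ + 2 * u + a * w ≠ 0)
    (g : ↥(isometryGroup F ⇑(QMinus k F a b)))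
    (hg : ((g : GL ((Fin k ⊕ Fin k) ⊕ Fin 2) F) : Matrix _ _ F)
      = Matrix.diagonal (dvec k μ) * rotMat k a b μ u w) :
    g ∈ Omega F ⇑(QMinus k F a b) ↔ IsSquare (μ ^ (k + 1) * (2 * μ + 2 * u + a * w)) := by
  obtain ⟨vs, h1, h3, h4, h5⟩ := exists_list_dvec k a b hμ
  have hQz : QMinus k F a b (pv k (μ + u) w) = μ * (2 * μ + 2 * u + a * w) := by
    rw [Q_pv]
    linear_combination -R
  have hQ1 : QMinus k F a b (pv k 1 0) = 1 := by
    rw [Q_pv]
    ring
  rw [spinor_criterion (QMinus k F a b) h2 g (vs ++ [pv k (μ + u) w, pv k 1 0])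
    (by
      intro v hv
      rw [List.mem_append] at hv
      rcases hv with hv | hv
      · exact h1 v hv
      · simp only [List.mem_cons, List.not_mem_nil, or_false] at hv
        rcases hv with rfl | rfl
        · rw [hQz]
          exact mul_ne_zero hμ hT
        · rw [hQ1]
          exact one_ne_zero)
    (by
      rw [hg, List.map_append, List.prod_append, h5, ← refl_mul_refl_plane k a b hμ R hT]
      simp)]
  rw [List.length_append, h3, List.map_append, List.prod_append, h4]
  simp only [List.length_cons, List.length_nil, List.map_cons, List.map_nil, List.prod_cons,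
    List.prod_nil, hQz, hQ1, mul_one]
  have e : μ ^ k * (μ * (2 * μ + 2 * u + a * w)) = μ ^ (k + 1) * (2 * μ + 2 * u + a * w) := by ring
  rw [e]
  constructor
  · exact fun h => h.2
  · exact fun h => ⟨⟨k + 1, by ring⟩, h⟩

/-- A similarity with multiplier `l = u² + a u w + b w²`. -/
def simMat (l u w : F) : Matrix ((Fin k ⊕ Fin k) ⊕ Fin 2) ((Fin k ⊕ Fin k) ⊕ Fin 2) F :=
  Matrix.fromBlocks (Matrix.fromBlocks (l • 1) 0 0 1) 0 0 !![u, -(b * w); w, u + a * w]

theorem det_simMat (l u w : F) (hl : l = u ^ 2 + a * u * w + b * w ^ 2) :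
    (simMat k a b l u w).det = l ^ (k + 1) := by
  rw [simMat, Matrix.det_fromBlocks_zero₂₁, Matrix.det_fromBlocks_zero₂₁, Matrix.det_one,
    Matrix.det_fin_two_of, Matrix.det_smul, Matrix.det_one, Fintype.card_fin, pow_succ]
  rw [mul_one, mul_one]
  congr 1
  rw [hl]
  ring

theorem Q_simMat (l u w : F) (hl : l = u ^ 2 + a * u * w + b * w ^ 2)
    (v : (Fin k ⊕ Fin k) ⊕ Fin 2 → F) :
    quadFormMinus k F a b (simMat k a b l u w *ᵥ v) = l * quadFormMinus k F a b v := by
  unfold quadFormMinus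
  rw [simMat, Matrix.fromBlocks_mulVec, Matrix.fromBlocks_mulVec]
  simp only [Sum.elim_inl, Sum.elim_inr, Matrix.zero_mulVec, zero_add, add_zero, Matrix.one_mulVec,
    Function.comp, Matrix.smul_mulVec, Pi.smul_apply, smul_eq_mul, Pi.add_apply, Pi.zero_apply]
  simp only [Matrix.mulVec, dotProduct, Fin.sum_univ_two, Matrix.of_apply, Matrix.cons_val_zero,
    Matrix.cons_val_one, Function.comp, Matrix.cons_val', Matrix.cons_val_fin_one]
  rw [mul_add, mul_add, mul_add, Finset.mul_sum]
  simp only [mul_assoc]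
  rw [hl]
  ring

theorem map_simMat {K : Type*} [Field K] (f : F →+* K) (l u w : F) {μ : K} (hμ : μ ≠ 0)
    (hl : μ ^ 2 = f l) :
    (simMat k a b l u w).map f =
      μ • (Matrix.diagonal (dvec k μ) * rotMat k (f a) (f b) μ (f u) (f w)) := by
  ext i j
  rw [Matrix.smul_apply, Matrix.diagonal_mul, Matrix.map_apply, simMat, rotMat]
  rcases i with (i | i) | i <;> rcases j with (j | j) | j
  · by_cases hij : i = j
    · subst hij
      simp [dvec, ← hl, pow_two]
    · simp [dvec, hij]
  · simp [dvec]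
  · simp [dvec]
  · simp [dvec]
  · by_cases hij : i = j
    · subst hij
      simp [dvec, hμ]
    · simp [dvec, hij]
  · simp [dvec]
  · simp [dvec]
  · simp [dvec]
  · fin_cases i <;> fin_cases j <;> simp [dvec, hμ]

end Plane

end Cfsg.Agent.Lib.Helper18GfD
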