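import Mathlib
import Cfsg.Agent.Lib.Helper18GfD

/-!
# Class splitting of graph-field involutions: the index computation
-/

set_option autoImplicit false
set_option linter.unusedSectionVars false

namespace Cfsg.Agent.Lib.Helper18GfE

open Cfsg Matrix Module
open scoped MatrixGroups
open Cfsg.Agent.Lib.Helper49Orth Cfsg.Agent.Lib.Helper49Forms Cfsg.Agent.Lib.Helper49Disc
  Cfsg.Agent.Lib.Helper51OrthAut Cfsg.Agent.Lib.Helper51OrthKer Cfsg.Agent.Lib.Helper51OrthIdx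
  Cfsg.Agent.Lib.Helper51OrthIdx2 Cfsg.Agent.Lib.Helper51OrthIdx3 Cfsg.Agent.Lib.Helper51OrthIdx4
  Cfsg.Agent.Lib.Helper51OrthDiag
  Cfsg.Agent.Lib.Helper18GamA Cfsg.Agent.Lib.Helper18GamB Cfsg.Agent.Lib.Helper18GamC
  Cfsg.Agent.Lib.Helper18GamD Cfsg.Agent.Lib.Helper18GamE Cfsg.Agent.Lib.Helper18GamF
  Cfsg.Agent.Lib.Helper18GamG Cfsg.Agent.Lib.Helper18GamK
  Cfsg.Agent.Lib.Helper18GfD
open Cfsg.Agent.Lib.Helper50H90 (Nk hilbert90_scalar norm_surj)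

section NT

variable {F : Type*} [Field F] [Fintype F] {F₀ : Type*} [Field F₀] {j : F₀ →+* F} {σ : F ≃+* F}

theorem Nk_two (x : F) : Nk σ x 2 = x * σ x := by
  simp [Nk]

/-- In a quadratic extension of finite fields an element is a square iff its norm is. -/
theorem isSquare_iff_norm (hj : ∀ a, σ a = a ↔ a ∈ Set.range j) (hr : orderOf σ = 2)
    (hsq : ∀ c : F₀, IsSquare (j c)) {x : F} (hx : x ≠ 0) {n₀ : F₀} (hn : x * σ x = j n₀) :
    IsSquare x ↔ IsSquare n₀ := by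
  have hσσ : ∀ y, σ (σ y) = y := by
    intro y
    have : σ ^ 2 = 1 := by rw [← hr]; exact pow_orderOf_eq_one σ
    have h2 := congrArg (fun τ : F ≃+* F => τ y) this
    rw [pow_two] at h2
    exact h2
  constructor
  · rintro ⟨y, rfl⟩
    obtain ⟨d, hd⟩ := (hj (y * σ y)).1 (by rw [map_mul, hσσ, mul_comm])
    refine ⟨d, j.injective ?_⟩
    rw [← hn, map_mul j, hd, map_mul σ]
    ring
  · rintro ⟨s, rfl⟩
    have hs : s ≠ 0 := by
      rintro rfl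
      rw [mul_zero, map_zero] at hn
      rcases mul_eq_zero.1 hn with h | h
      · exact hx h
      · exact hx ((map_eq_zero σ).1 h)
    obtain ⟨w, hw, hNw⟩ := norm_surj σ 2 hr (by norm_num) (j s) ((map_ne_zero j).2 hs)
      ((hj _).2 ⟨s, rfl⟩)
    rw [Nk_two] at hNw
    have hσw : σ w ≠ 0 := (map_ne_zero σ).2 hw
    have h1 : Nk σ (x / (w * w)) 2 = 1 := by
      rw [Nk_two, map_div₀, map_mul]
      have : x * σ x = (w * σ w) * (w * σ w) := by rw [hn, map_mul, hNw]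
      field_simp
      linear_combination this
    obtain ⟨ν, hν, e⟩ := hilbert90_scalar σ 2 hr (by norm_num) _ h1
    have hσν : σ ν ≠ 0 := (map_ne_zero σ).2 hν
    obtain ⟨d, hd⟩ := (hj (ν * σ ν)).1 (by rw [map_mul, hσσ, mul_comm])
    obtain ⟨t, ht⟩ := hsq d
    have ht0 : t ≠ 0 := by
      rintro rfl
      rw [mul_zero, hd] at ht
      exact (mul_ne_zero hν hσν) ht
    refine ⟨w * ν / t, ?_⟩
    have e2 : x * σ ν = ν * (w * w) := by
      field_simp at e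
      linear_combination e
    have e3 : t * t = ν * σ ν := by rw [← ht, hd]
    field_simp
    have : x * (t * t) = (w * ν) * (w * ν) := by
      rw [e3]
      linear_combination ν * e2
    linear_combination this

end NT

section GT

variable {F : Type*} [Field F] [Fintype F] {F₀ : Type*} [Field F₀] [Fintype F₀] {j : F₀ →+* F}
variable {ι : Type} [Fintype ι] [DecidableEq ι]
variable {Q : QuadraticForm F (ι → F)} {Q₀ : QuadraticForm F₀ (ι → F₀)}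

theorem mem_K1_iff (G : Good Q) {n : ℕ} (hn : Fintype.card ι = 2 * n) (g : ↥(GO Q)) :
    g ∈ SO' Q ⊔ ZZ Q ↔ IsSquare ((mu Q G.exists_one g : Fˣ) : F) ∧ delta Q G.exists_one n g = 1 := by
  rw [← ker_psi Q G hn, MonoidHom.mem_ker, psi_eq_one_iff]

theorem relIndex_cases (G : Good Q) (G₀ : Good Q₀) {n : ℕ} (hn : Fintype.card ι = 2 * n)
    (hneg : NegIn Q) (hE : Ext Q Q₀ j) (hsq : ∀ c : F₀, IsSquare (j c)) (h₀ : ↥(GO Q₀))
    (hh₀ : h₀ ∈ DD Q₀ G₀ n) (hl : ¬ IsSquare ((mu Q₀ G₀.exists_one h₀ : F₀ˣ) : F₀)) :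
    (mapJ hE h₀ ∈ Om' Q ⊔ ZZ Q →
      ((Om' Q ⊔ ZZ Q) ⊔ (DD Q₀ G₀ n).map (mapJ hE)).relIndex (DD Q G n) = 4) ∧
    (mapJ hE h₀ ∉ Om' Q ⊔ ZZ Q →
      ((Om' Q ⊔ ZZ Q) ⊔ (DD Q₀ G₀ n).map (mapJ hE)).relIndex (DD Q G n) = 2) := by
  have hK01 : Om' Q ⊔ ZZ Q ≤ SO' Q ⊔ ZZ Q := sup_le_sup_right (Om'_le_SO' Q) _
  have hK1D : SO' Q ⊔ ZZ Q ≤ DD Q G n := by
    intro g hg
    exact ((mem_K1_iff G hn g).1 hg).2
  have hEK1 : (DD Q₀ G₀ n).map (mapJ hE) ≤ SO' Q ⊔ ZZ Q := by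
    rintro _ ⟨h, hh, rfl⟩
    rw [mem_K1_iff G hn, mu_mapJ hE G.exists_one G₀.exists_one, delta_mapJ hE _ G₀.exists_one]
    refine ⟨hsq _, ?_⟩
    have : delta Q₀ G₀.exists_one n h = 1 := hh
    rw [this, map_one]
  have hsqK0 : ∀ h : ↥(GO Q₀), h ∈ SO' Q₀ ⊔ ZZ Q₀ → mapJ hE h ∈ Om' Q ⊔ ZZ Q := by
    intro h hh
    obtain ⟨w, hw, c, rfl⟩ := mem_sup_ZZ Q₀ G₀ _ hh
    rw [map_mul, mapJ_scal]
    exact mul_mem (Subgroup.mem_sup_left (mapJ_SO_le hE G.two G₀.two G₀.nondeg hsq ⟨w, hw, rfl⟩))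
      (Subgroup.mem_sup_right (scal_mem Q _))
  have hidx1 : (SO' Q ⊔ ZZ Q).relIndex (DD Q G n) = 2 := by
    have h1 := Subgroup.relIndex_mul_index hK1D
    rw [index_DD Q G hn, index_K1 Q G hn] at h1
    omega
  have hidx0 : (Om' Q ⊔ ZZ Q).relIndex (DD Q G n) = 4 := by
    have h1 := Subgroup.relIndex_mul_index (K0_le_DD Q G hn)
    rw [index_DD Q G hn, index_K0_of_neg Q G hn hneg] at h1
    omega
  constructor
  · intro hmem
    have : (DD Q₀ G₀ n).map (mapJ hE) ≤ Om' Q ⊔ ZZ Q := by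
      rintro _ ⟨h, hh, rfl⟩
      have hh' : delta Q₀ G₀.exists_one n h = 1 := hh
      have hh₀' : delta Q₀ G₀.exists_one n h₀ = 1 := hh₀
      by_cases hs : IsSquare ((mu Q₀ G₀.exists_one h : F₀ˣ) : F₀)
      · exact hsqK0 h ((mem_K1_iff G₀ hn h).2 ⟨hs, hh'⟩)
      · have h1 : h * h₀ ∈ SO' Q₀ ⊔ ZZ Q₀ := by
          rw [mem_K1_iff G₀ hn, map_mul, map_mul, hh', hh₀', one_mul, Units.val_mul]
          refine ⟨?_, rfl⟩
          exact (isSquare_mul_nonsquare_iff (Units.ne_zero _) hl).2 hs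
        have h2 := hsqK0 _ h1
        rw [map_mul] at h2
        have h3 := mul_mem h2 (inv_mem hmem)
        rwa [mul_inv_cancel_right] at h3
    rw [sup_eq_left.2 this]
    exact hidx0
  · intro hmem
    have hle : (Om' Q ⊔ ZZ Q) ⊔ (DD Q₀ G₀ n).map (mapJ hE) ≤ SO' Q ⊔ ZZ Q := sup_le hK01 hEK1
    have h1 := Subgroup.relIndex_mul_relIndex _ _ _ (le_sup_left :
      Om' Q ⊔ ZZ Q ≤ (Om' Q ⊔ ZZ Q) ⊔ (DD Q₀ G₀ n).map (mapJ hE)) hle
    rw [relIndex_K0_K1 Q G hn hneg] at h1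
    have h2 : (Om' Q ⊔ ZZ Q).relIndex ((Om' Q ⊔ ZZ Q) ⊔ (DD Q₀ G₀ n).map (mapJ hE)) ≠ 1 := by
      intro h
      exact hmem (Subgroup.relIndex_eq_one.1 h (Subgroup.mem_sup_right ⟨h₀, hh₀, rfl⟩))
    have h3 : ((Om' Q ⊔ ZZ Q) ⊔ (DD Q₀ G₀ n).map (mapJ hE)).relIndex (SO' Q ⊔ ZZ Q) = 1 := by
      rcases (Nat.dvd_prime Nat.prime_two).1 ⟨_, h1.symm⟩ with h | h
      · exact absurd h h2
      · rw [h] at h1
        omega
    have h4 : (Om' Q ⊔ ZZ Q) ⊔ (DD Q₀ G₀ n).map (mapJ hE) = SO' Q ⊔ ZZ Q :=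
      le_antisymm hle (Subgroup.relIndex_eq_one.1 h3)
    rw [h4]
    exact hidx1

end GT

end Cfsg.Agent.Lib.Helper18GfE
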