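import Mathlib
import Cfsg.Agent.Lib.Helper18GfE
import Cfsg.Agent.Lib.Helper49Neg
import Cfsg.Agent.Lib.Helper51OrthInst

/-!
# Class splitting of graph-field involutions: the value of the index
-/

set_option autoImplicit false
set_option linter.unusedSectionVars false

namespace Cfsg.Agent.Lib.Helper18GfF

open Cfsg Matrix Module
open scoped MatrixGroups
open Cfsg.Agent.Lib.Helper49Orth Cfsg.Agent.Lib.Helper49Forms Cfsg.Agent.Lib.Helper49Disc
  Cfsg.Agent.Lib.Helper49Gram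
  Cfsg.Agent.Lib.Helper51OrthAut Cfsg.Agent.Lib.Helper51OrthKer Cfsg.Agent.Lib.Helper51OrthIdx
  Cfsg.Agent.Lib.Helper51OrthIdx2 Cfsg.Agent.Lib.Helper51OrthIdx3 Cfsg.Agent.Lib.Helper51OrthIdx4
  Cfsg.Agent.Lib.Helper51OrthDiag Cfsg.Agent.Lib.Helper51OrthInst
  Cfsg.Agent.Lib.Helper18GamA Cfsg.Agent.Lib.Helper18GamB Cfsg.Agent.Lib.Helper18GamC
  Cfsg.Agent.Lib.Helper18GamD Cfsg.Agent.Lib.Helper18GamE Cfsg.Agent.Lib.Helper18GamF
  Cfsg.Agent.Lib.Helper18GamG Cfsg.Agent.Lib.Helper18GamK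
  Cfsg.Agent.Lib.Helper18GfD Cfsg.Agent.Lib.Helper18GfE

section gen

variable {F : Type*} [Field F]

theorem nondeg_QMinus' (m : ℕ) {a b : F} (hne : 4 * b - a ^ 2 ≠ 0) :
    (QuadraticMap.polarBilin (QMinus m F a b)).Nondegenerate :=
  nondegenerate_of_det_gram_ne_zero _ (by
    rw [det_gram_QMinus]
    exact mul_ne_zero (pow_ne_zero _ (neg_ne_zero.2 one_ne_zero)) hne)

theorem good_QMinus' (h2 : (2 : F) ≠ 0) {m : ℕ} (hm : 2 ≤ m) {a b : F}
    (hne : 4 * b - a ^ 2 ≠ 0) : Good (QMinus m F a b) where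
  two := h2
  nondeg := nondeg_QMinus' m hne
  pairs := by
    have h01 : (⟨0, by omega⟩ : Fin m) ≠ ⟨1, by omega⟩ := by simp [Fin.ext_iff]
    refine ⟨Sum.inl (Sum.inl ⟨0, by omega⟩), Sum.inl (Sum.inr ⟨0, by omega⟩),
      Sum.inl (Sum.inl ⟨1, by omega⟩), Sum.inl (Sum.inr ⟨1, by omega⟩),
      by simp, by simp, ?_, by simp, by simp, ?_, hypPair_QMinus m a b _, hypPair_QMinus m a b _⟩
    · simpa using h01
    · simpa using h01

/-- The discriminant of an anisotropic binary form does not vanish (all characteristics). -/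
theorem disc_ne_zero [Fintype F] {a b : F} (hab : Aniso a b) : 4 * b - a ^ 2 ≠ 0 := by
  by_cases h2 : (2 : F) = 0
  · have : CharP F 2 := CharTwo.of_one_ne_zero_of_two_eq_zero one_ne_zero h2
    have ha := aniso_a_ne_zero hab
    have h4 : (4 : F) = 0 := by
      have : (4 : F) = 2 * 2 := by norm_num
      rw [this, h2, mul_zero]
    rw [h4, zero_mul, zero_sub]
    exact neg_ne_zero.2 (pow_ne_zero _ ha)
  · intro h
    apply not_isSquare_disc h2 hab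
    have : a ^ 2 - 4 * b = 0 := by linear_combination -h
    rw [this]
    exact IsSquare.zero

end gen

variable {F : Type*} [Field F] [Fintype F] {F₀ : Type*} [Field F₀] [Fintype F₀] {j : F₀ →+* F}
variable {σ : F ≃+* F}

theorem disc_ne_zero_map {a₀ b₀ : F₀} (hab : Aniso a₀ b₀) : 4 * j b₀ - j a₀ ^ 2 ≠ 0 := by
  have := disc_ne_zero hab
  intro h
  apply this
  apply j.injective
  rw [map_zero, ← h, map_sub, map_mul, map_pow, map_ofNat]

theorem negIn_ext (h2 : (2 : F) ≠ 0) (k : ℕ) {a₀ b₀ : F₀} (hab : Aniso a₀ b₀)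
    (hsq : ∀ c : F₀, IsSquare (j c)) : NegIn (QMinus k F (j a₀) (j b₀)) := by
  unfold NegIn
  rw [Cfsg.Agent.Lib.Helper49Neg.neg_one_mem_Omega_iff _ h2 (by
    rw [card_minus]
    exact ⟨k + 1, by ring⟩) (nondeg_QMinus' k (disc_ne_zero_map hab)), det_gram_QMinus]
  have := hsq ((-1) ^ k * (4 * b₀ - a₀ ^ 2))
  rw [map_mul, map_pow, map_neg, map_one, map_sub, map_mul, map_pow, map_ofNat] at this
  exact this

/-- The arithmetic criterion. -/
theorem isSquare_crit (h2 : (2 : F₀) ≠ 0) {l Δ w : F₀} (hl : ¬ IsSquare l) (hΔ : ¬ IsSquare Δ)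
    (hw : w ≠ 0) (m : ℕ) :
    IsSquare ((-l) ^ m * (Δ * w ^ 2)) ↔ (Odd m ∧ Fintype.card F₀ % 4 = 1) := by
  have hl0 : l ≠ 0 := by
    rintro rfl
    exact hl IsSquare.zero
  have hodd : Fintype.card F₀ % 2 = 1 := by
    rcases Nat.even_or_odd (Fintype.card F₀) with h | h
    · exfalso
      have := FiniteField.even_card_iff_char_two.2 (Nat.even_iff.1 h)
      exact Cfsg.Agent.Lib.Helper49Idx.ringChar_ne_two h2 this
    · exact Nat.odd_iff.1 h
  have e1 : (-l) ^ m * (Δ * w ^ 2) = (w * w * (-l) ^ m) * Δ := by ring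
  rw [e1, isSquare_mul_nonsquare_iff (mul_ne_zero (mul_ne_zero hw hw)
    (pow_ne_zero _ (neg_ne_zero.2 hl0))) hΔ, isSquare_mul_sq_iff hw]
  rcases Nat.even_or_odd' m with ⟨e, rfl | rfl⟩
  · constructor
    · intro h
      exact absurd ⟨(-l) ^ e, by ring⟩ h
    · rintro ⟨h, -⟩
      exact absurd h (by simp)
  · have e2 : (-l) ^ (2 * e + 1) = ((-l) ^ e * (-l) ^ e) * ((-1) * l) := by ring
    rw [e2, isSquare_mul_sq_iff (pow_ne_zero _ (neg_ne_zero.2 hl0)),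
      isSquare_mul_nonsquare_iff (neg_ne_zero.2 one_ne_zero) hl, not_not,
      FiniteField.isSquare_neg_one_iff]
    constructor
    · intro h
      exact ⟨by simp, by omega⟩
    · rintro ⟨-, h⟩
      omega

theorem exists_rep (h2 : (2 : F₀) ≠ 0) {a₀ b₀ : F₀} (hab : Aniso a₀ b₀) (l : F₀) :
    ∃ u w : F₀, l = u ^ 2 + a₀ * u * w + b₀ * w ^ 2 := by
  obtain ⟨v, hv⟩ := Cfsg.Agent.Lib.Helper49Idx.exists_Q_eq (QMinus 0 F₀ a₀ b₀) h2
    (Cfsg.Agent.Lib.Helper49Rank.QMinus_nondegenerate 0 hab) (by simp) l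
  refine ⟨v (Sum.inr 0), v (Sum.inr 1), ?_⟩
  rw [← hv, coe_QMinus]
  simp [quadFormMinus]

theorem split_value (h2 : (2 : F) ≠ 0) (h2' : (2 : F₀) ≠ 0) {k : ℕ} {a₀ b₀ : F₀}
    (hab : Aniso a₀ b₀) (hj : ∀ a, σ a = a ↔ a ∈ Set.range j) (hr : orderOf σ = 2)
    (hsq : ∀ c : F₀, IsSquare (j c)) (G : Good (QMinus k F (j a₀) (j b₀)))
    (G₀ : Good (QMinus k F₀ a₀ b₀)) :
    ((Odd (k + 1) ∧ Fintype.card F₀ % 4 = 1) →
      ((Om' (QMinus k F (j a₀) (j b₀)) ⊔ ZZ (QMinus k F (j a₀) (j b₀))) ⊔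
        (DD _ G₀ (k + 1)).map (mapJ (ext_minus k j a₀ b₀))).relIndex (DD _ G (k + 1)) = 4) ∧
    (¬ (Odd (k + 1) ∧ Fintype.card F₀ % 4 = 1) →
      ((Om' (QMinus k F (j a₀) (j b₀)) ⊔ ZZ (QMinus k F (j a₀) (j b₀))) ⊔
        (DD _ G₀ (k + 1)).map (mapJ (ext_minus k j a₀ b₀))).relIndex (DD _ G (k + 1)) = 2) := by
  have hE := ext_minus k j a₀ b₀
  have hcard := card_minus k
  have hneg := negIn_ext h2 k hab hsq
  obtain ⟨l, hl⟩ := FiniteField.exists_nonsquare (Cfsg.Agent.Lib.Helper49Idx.ringChar_ne_two h2')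
  have hl0 : l ≠ 0 := by
    rintro rfl
    exact hl IsSquare.zero
  obtain ⟨u, w, hluw⟩ := exists_rep h2' hab l
  have hw : w ≠ 0 := by
    rintro rfl
    apply hl
    exact ⟨u, by rw [hluw]; ring⟩
  obtain ⟨μ, hμ⟩ := hsq l
  have hμ2 : μ ^ 2 = j l := by rw [hμ, pow_two]
  have hμ0 : μ ≠ 0 := by
    rintro rfl
    rw [mul_zero] at hμ
    exact hl0 ((map_eq_zero j).1 hμ)
  have hμnot : μ ∉ Set.range j := by
    rintro ⟨d, rfl⟩
    apply hl
    exact ⟨d, j.injective (by rw [hμ, map_mul])⟩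
  have hσμ : σ μ = -μ := by
    have h1 : σ μ * σ μ = μ * μ := by
      rw [← map_mul, ← hμ]
      exact (hj _).2 ⟨l, rfl⟩
    rcases mul_self_eq_mul_self_iff.1 h1 with h | h
    · exact absurd ((hj _).1 h) hμnot
    · exact h
  have R : μ ^ 2 = j u ^ 2 + j a₀ * j u * j w + j b₀ * j w ^ 2 := by
    rw [hμ2, hluw]
    simp
  have hT : 2 * μ + 2 * j u + j a₀ * j w ≠ 0 := by
    intro h
    apply hμnot
    refine ⟨-(2 * u + a₀ * w) / 2, ?_⟩
    rw [map_div₀, map_neg, map_add, map_mul, map_mul, map_ofNat]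
    field_simp
    linear_combination -h
  -- the special similarity
  have hdet : (simMat k a₀ b₀ l u w).det ≠ 0 := by
    rw [det_simMat k a₀ b₀ l u w hluw]
    exact pow_ne_zero _ hl0
  let h₀ : ↥(GO (QMinus k F₀ a₀ b₀)) := ⟨Matrix.GeneralLinearGroup.mkOfDetNeZero _ hdet,
    Units.mk0 l hl0, fun v => by
      rw [coe_QMinus]
      exact Q_simMat k a₀ b₀ l u w hluw v⟩
  have hmu : mu _ G₀.exists_one h₀ = Units.mk0 l hl0 := mu_eq _ _ _ _ (fun v => by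
    rw [coe_QMinus]
    exact Q_simMat k a₀ b₀ l u w hluw v)
  have hdelta : delta _ G₀.exists_one (k + 1) h₀ = 1 := by
    rw [delta_apply, hmu]
    apply Units.ext
    rw [Units.val_mul, Matrix.GeneralLinearGroup.val_det_apply]
    change (simMat k a₀ b₀ l u w).det * _ = _
    rw [det_simMat k a₀ b₀ l u w hluw]
    simp [hl0]
  have hcases := relIndex_cases G G₀ hcard hneg hE hsq h₀ hdelta (by rw [hmu]; exact hl)
  -- the isometry
  have hmu1 : mu _ G.exists_one (scal _ (Units.mk0 μ hμ0)⁻¹ * mapJ hE h₀) = 1 := by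
    rw [map_mul, mu_scal, mu_mapJ hE G.exists_one G₀.exists_one, hmu]
    apply Units.ext
    simp only [Units.val_mul, Units.val_inv_eq_inv_val, Units.val_mk0, Units.coe_map,
      MonoidHom.coe_coe, Units.val_one]
    rw [hμ]
    field_simp
  obtain ⟨s, hs⟩ := exists_incO _ G.exists_one hmu1
  have hsmat : ((s : GL ((Fin k ⊕ Fin k) ⊕ Fin 2) F) : Matrix _ _ F)
      = Matrix.diagonal (dvec k μ) * rotMat k (j a₀) (j b₀) μ (j u) (j w) := by
    have h1 : ((s : GL ((Fin k ⊕ Fin k) ⊕ Fin 2) F) :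
        Matrix ((Fin k ⊕ Fin k) ⊕ Fin 2) ((Fin k ⊕ Fin k) ⊕ Fin 2) F) =
        (((scal _ (Units.mk0 μ hμ0)⁻¹ * mapJ hE h₀ : ↥(GO (QMinus k F (j a₀) (j b₀)))) :
          GL ((Fin k ⊕ Fin k) ⊕ Fin 2) F) :
            Matrix ((Fin k ⊕ Fin k) ⊕ Fin 2) ((Fin k ⊕ Fin k) ⊕ Fin 2) F) := by
      rw [← hs]
      rfl
    rw [h1, Subgroup.coe_mul, Units.val_mul, coe_scal, coe_mapJ]
    change _ * (simMat k a₀ b₀ l u w).map j = _
    rw [map_simMat k a₀ b₀ j l u w hμ0 hμ2, Matrix.smul_mul, Matrix.one_mul, smul_smul,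
      Units.val_inv_eq_inv_val, Units.val_mk0, inv_mul_cancel₀ hμ0, one_smul]
  have hiff : mapJ hE h₀ ∈ Om' (QMinus k F (j a₀) (j b₀)) ⊔ ZZ (QMinus k F (j a₀) (j b₀)) ↔
      s ∈ Omega F ⇑(QMinus k F (j a₀) (j b₀)) := by
    rw [← incO_mem_Om']
    constructor
    · intro h
      rw [← K0_inf_SO' _ G hcard hneg, Subgroup.mem_inf]
      refine ⟨?_, ?_⟩
      · rw [hs]
        exact mul_mem (Subgroup.mem_sup_right (scal_mem _ _)) h
      · rw [mem_SO'_iff _ G.exists_one (k + 1), hs]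
        refine ⟨hmu1, ?_⟩
        rw [map_mul, delta_scal _ _ hcard, one_mul, delta_mapJ hE _ G₀.exists_one, hdelta, map_one]
    · intro h
      have e : mapJ hE h₀ = scal _ (Units.mk0 μ hμ0) * incO _ s := by
        rw [hs, ← mul_assoc, ← scal_mul, mul_inv_cancel, scal_one, one_mul]
      rw [e]
      exact mul_mem (Subgroup.mem_sup_right (scal_mem _ _)) (Subgroup.mem_sup_left h)
  have hnorm : (μ ^ (k + 1) * (2 * μ + 2 * j u + j a₀ * j w)) *
      σ (μ ^ (k + 1) * (2 * μ + 2 * j u + j a₀ * j w)) =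
      j ((-l) ^ (k + 1) * ((a₀ ^ 2 - 4 * b₀) * w ^ 2)) := by
    have f1 : σ (j u) = j u := (hj _).2 ⟨_, rfl⟩
    have f2 : σ (j w) = j w := (hj _).2 ⟨_, rfl⟩
    have f3 : σ (j a₀) = j a₀ := (hj _).2 ⟨_, rfl⟩
    rw [map_mul σ, map_pow σ, map_add σ, map_add σ, map_mul σ, map_mul σ, map_mul σ, hσμ, f1, f2, f3,
      map_ofNat σ, map_mul j, map_pow j, map_neg j, ← hμ2, map_mul j, map_sub j, map_pow j,
      map_mul j, map_pow j, map_ofNat j]
    have e1 : μ ^ (k + 1) * (2 * μ + 2 * j u + j a₀ * j w) *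
        ((-μ) ^ (k + 1) * (2 * -μ + 2 * j u + j a₀ * j w)) =
        (-(μ ^ 2)) ^ (k + 1) * ((2 * j u + j a₀ * j w) ^ 2 - 4 * μ ^ 2) := by
      have : (-(μ ^ 2)) ^ (k + 1) = μ ^ (k + 1) * (-μ) ^ (k + 1) := by
        rw [← mul_pow]
        congr 1
        ring
      rw [this]
      ring
    rw [e1, R]
    ring
  have hx0 : μ ^ (k + 1) * (2 * μ + 2 * j u + j a₀ * j w) ≠ 0 := mul_ne_zero (pow_ne_zero _ hμ0) hT
  have hfinal : mapJ hE h₀ ∈ Om' (QMinus k F (j a₀) (j b₀)) ⊔ ZZ (QMinus k F (j a₀) (j b₀)) ↔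
      (Odd (k + 1) ∧ Fintype.card F₀ % 4 = 1) := by
    rw [hiff, spinor_special k (j a₀) (j b₀) h2 hμ0 R hT s hsmat,
      isSquare_iff_norm hj hr hsq hx0 hnorm,
      isSquare_crit h2' hl (not_isSquare_disc h2' hab) hw]
  exact ⟨fun h => hcases.1 (hfinal.2 h), fun h => hcases.2 (fun h' => h (hfinal.1 h'))⟩

end Cfsg.Agent.Lib.Helper18GfF
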