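import Mathlib
import Cfsg.Agent.Lib.Helper18GfF
import Cfsg.Agent.Lib.Helper51OrthPlus

/-!
# Graph-field involutions: remaining generic pieces
-/

set_option autoImplicit false
set_option linter.unusedSectionVars false

namespace Cfsg.Agent.Lib.Helper18GfG

open Cfsg Matrix Module
open scoped MatrixGroups
open Cfsg.Agent.Lib.Helper49Orth Cfsg.Agent.Lib.Helper49Forms Cfsg.Agent.Lib.Helper49Disc
  Cfsg.Agent.Lib.Helper51OrthAut Cfsg.Agent.Lib.Helper51OrthKer Cfsg.Agent.Lib.Helper51OrthIdx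
  Cfsg.Agent.Lib.Helper51OrthIdx2 Cfsg.Agent.Lib.Helper51OrthIdx3 Cfsg.Agent.Lib.Helper51OrthIdx4
  Cfsg.Agent.Lib.Helper51OrthDiag Cfsg.Agent.Lib.Helper51OrthInst Cfsg.Agent.Lib.Helper51OrthPar
  Cfsg.Agent.Lib.Helper18GamA Cfsg.Agent.Lib.Helper18GamB Cfsg.Agent.Lib.Helper18GamC
  Cfsg.Agent.Lib.Helper18GamD Cfsg.Agent.Lib.Helper18GamE Cfsg.Agent.Lib.Helper18GamF
  Cfsg.Agent.Lib.Helper18GamG Cfsg.Agent.Lib.Helper18GamI Cfsg.Agent.Lib.Helper18GamK
  Cfsg.Agent.Lib.Helper18GamL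
  Cfsg.Agent.Lib.Helper18LangA Cfsg.Agent.Lib.Helper18RecA Cfsg.Agent.Lib.Helper18GfB

section K0

variable {F : Type*} [Field F] [Fintype F] {ι ι' : Type} [Fintype ι] [DecidableEq ι] [Fintype ι']
  [DecidableEq ι']
variable {Q : QuadraticForm F (ι → F)} {Q' : QuadraticForm F (ι' → F)}

theorem mem_K0_iff (hQ : (QuadraticMap.polarBilin Q).Nondegenerate) (hn : 5 ≤ Fintype.card ι)
    (g : ↥(GO Q)) : g ∈ Om' Q ⊔ ZZ Q ↔ cAut ⇑Q g ∈ Inn (POmega F ⇑Q) := by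
  rw [← K0_map_eq_Inn]
  constructor
  · intro h
    exact ⟨g, h, rfl⟩
  · rintro ⟨g', hg', e⟩
    have h1 : g'⁻¹ * g ∈ (cAut ⇑Q).ker := by
      rw [MonoidHom.mem_ker, map_mul, map_inv, e, inv_mul_cancel]
    rw [ker_cAut_all Q hQ hn] at h1
    have h2 : g' * (g'⁻¹ * g) ∈ Om' Q ⊔ ZZ Q := mul_mem hg' (Subgroup.mem_sup_right h1)
    rwa [mul_inv_cancel_left] at h2

theorem normal_K0 (hQ : (QuadraticMap.polarBilin Q).Nondegenerate) (hn : 5 ≤ Fintype.card ι) :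
    ((Om' Q ⊔ ZZ Q).map (inlO ⇑Q)).Normal := by
  have e : (Om' Q ⊔ ZZ Q).map (inlO ⇑Q)
      = (Inn (POmega F ⇑Q)).comap (sAut ⇑Q) ⊓ (prO ⇑Q).ker := by
    ext y
    constructor
    · rintro ⟨g, hg, rfl⟩
      refine ⟨?_, ?_⟩
      · change sAut ⇑Q (inlO ⇑Q g) ∈ Inn (POmega F ⇑Q)
        rw [sAut_inlO]
        exact (mem_K0_iff hQ hn g).1 hg
      · rw [ker_prO]
        exact ⟨g, rfl⟩
    · rintro ⟨h1, h2⟩
      rw [SetLike.mem_coe, ker_prO] at h2
      obtain ⟨g, rfl⟩ := h2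
      refine ⟨g, ?_, rfl⟩
      have h1' : sAut ⇑Q (inlO ⇑Q g) ∈ Inn (POmega F ⇑Q) := h1
      rw [sAut_inlO] at h1'
      exact (mem_K0_iff hQ hn g).2 h1'
  rw [e]
  infer_instance

theorem map_cgR_K0 {B : Matrix ι ι' F} {B' : Matrix ι' ι F} {κ : F} (h : SimR ⇑Q ⇑Q' B B' κ)
    (hQ : (QuadraticMap.polarBilin Q).Nondegenerate) (hn : 5 ≤ Fintype.card ι)
    (hQ' : (QuadraticMap.polarBilin Q').Nondegenerate) (hn' : 5 ≤ Fintype.card ι') :
    (Om' Q' ⊔ ZZ Q').map (cgR h).toMonoidHom = Om' Q ⊔ ZZ Q := by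
  have key : ∀ s : ↥(GO Q'), cgR h s ∈ Om' Q ⊔ ZZ Q ↔ s ∈ Om' Q' ⊔ ZZ Q' := by
    intro s
    rw [mem_K0_iff hQ hn, mem_K0_iff hQ' hn', ← congr_cAutR, ← map_Inn (psiR h)]
    exact Subgroup.mem_map_iff_mem (MulAut.congr (psiR h)).injective
  ext g
  constructor
  · rintro ⟨s, hs, rfl⟩
    exact (key s).2 hs
  · intro hg
    obtain ⟨s, rfl⟩ := (cgR h).surjective g
    exact ⟨s, (key s).1 hg, rfl⟩

end K0

section uniq

/-- A cyclic group has at most one element of order two. -/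
theorem eq_of_orderOf_two {G : Type*} [Group G] [Finite G] (hc : IsCyclic G) {a b : G}
    (ha : orderOf a = 2) (hb : orderOf b = 2) : a = b := by
  classical
  have : Fintype G := Fintype.ofFinite G
  by_contra hab
  have h1 := IsCyclic.card_pow_eq_one_le (α := G) (n := 2) (by norm_num)
  have ha1 : a ≠ 1 := by
    rintro rfl
    rw [orderOf_one] at ha
    omega
  have hb1 : b ≠ 1 := by
    rintro rfl
    rw [orderOf_one] at hb
    omega
  have h2 : ({1, a, b} : Finset G) ⊆ Finset.univ.filter (fun x : G => x ^ 2 = 1) := by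
    intro x hx
    simp only [Finset.mem_insert, Finset.mem_singleton] at hx
    simp only [Finset.mem_filter, Finset.mem_univ, true_and]
    rcases hx with rfl | rfl | rfl
    · simp
    · rw [← ha]; exact pow_orderOf_eq_one _
    · rw [← hb]; exact pow_orderOf_eq_one _
  have h3 := Finset.card_le_card h2
  have h4 : ({1, a, b} : Finset G).card = 3 := by
    rw [Finset.card_insert_of_notMem, Finset.card_insert_of_notMem, Finset.card_singleton]
    · simpa using hab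
    · simp only [Finset.mem_insert, Finset.mem_singleton, not_or]
      exact ⟨ha1.symm, hb1.symm⟩
  omega

end uniq

section nf

variable {F : Type*} [Field F] [Fintype F]

/-- The defining property of graph-field automorphisms, for a raw form. -/
def GF {ι : Type} [Fintype ι] [DecidableEq ι] (q : (ι → F) → F) (β : MulAut (POmega F q)) : Prop :=
  ∃ (α γ φ : MulAut (POmega F q)) (σ : F ≃+* F) (v : ι → F) (r : GL ι F),
    σ ≠ RingEquiv.refl F ∧ q v ≠ 0 ∧ (∀ i, σ (v i) = v i) ∧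
    (r : Matrix ι ι F) = reflectionMatrix q v ∧
    IsInducedBySemilinearPOmega q r (RingEquiv.refl F) γ ∧
    IsFieldAutPOmegaOf q σ φ ∧ α * β * α⁻¹ = γ * φ

theorem gf_normal {m : ℕ} (hm : 3 ≤ m) {D : Subgroup ↥(GO (QPlus m F))} (hD : DFr D)
    (hrefl : ∀ (v : Fin m ⊕ Fin m → F) (hv : QPlus m F v ≠ 0), incO _ (reflO _ hv) ∉ D)
    (hcyc : IsCyclic (F ≃+* F)) (hsurj : Function.Surjective (sAut ⇑(QPlus m F)))
    (x : MulAut (POmega F ⇑(QPlus m F))) (hx : GF ⇑(QPlus m F) x) (hx2 : orderOf x = 2) :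
    ∃ σ : F ≃+* F, orderOf σ = 2 ∧ ∃ g, g ∉ D ∧ x = cAut ⇑(QPlus m F) g * fA (comm_plus m σ) := by
  obtain ⟨α, γ, φ, σ, v, r, hσ1, hv, -, hr, hγ, hφ, hα⟩ := hx
  have hQ := Cfsg.Agent.Lib.Helper49Rank.QPlus_nondegenerate (F := F) m
  have hn : 5 ≤ Fintype.card (Fin m ⊕ Fin m) := by
    rw [card_plus]
    omega
  have hre : r = ((incO _ (reflO (QPlus m F) hv) : ↥(GO (QPlus m F))) : GL (Fin m ⊕ Fin m) F) :=
    Units.ext hr
  rw [hre, Helper51OrthAut.induced_iff] at hγ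
  rw [isField_iff (comm_plus m σ)] at hφ
  rw [hγ, hφ] at hα
  obtain ⟨g, hg, hxg⟩ := hD.normal_form hcyc hsurj (comm_plus m σ) _ (hrefl v hv) x α hα
  refine ⟨σ, ?_, g, hg, hxg⟩
  have h1 : sAut ⇑(QPlus m F) ((inlO _ g * fS (comm_plus m σ)) ^ 2) = 1 := by
    rw [map_pow, sAut_mul_fS, ← hxg, ← hx2, pow_orderOf_eq_one]
  have h2 := right_eq_one _ hQ hn _ h1
  rw [Subgroup.coe_pow, (pow_left_right _ 2).2, right_mul_fS] at h2
  exact orderOf_eq_prime h2 hσ1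

end nf

end Cfsg.Agent.Lib.Helper18GfG
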