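import Mathlib
import Cfsg.Prelude.Def_Classical
import Cfsg.Agent.Lib.Helper18Count

set_option autoImplicit false

namespace Cfsg.Agent.Lib.Helper18Herm

open Finset Polynomial
open scoped Classical

theorem fibre_card_eq {α β : Type*} (A : Finset α) (S : Finset β) (g : α → β) (m k : ℕ)
    (hmaps : ∀ a ∈ A, g a ∈ S) (hfib : ∀ s ∈ S, #{a ∈ A | g a = s} ≤ m) (hS : #S ≤ k)
    (hA : k * m ≤ #A) : ∀ s ∈ S, #{a ∈ A | g a = s} = m := by
  intro s hs
  by_contra hne
  have hlt : #{a ∈ A | g a = s} < m := lt_of_le_of_ne (hfib s hs) hne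
  have h1 : #A = ∑ s ∈ S, #{a ∈ A | g a = s} := card_eq_sum_card_fiberwise hmaps
  have h2 : ∑ s ∈ S, #{a ∈ A | g a = s} < ∑ s ∈ S, m := sum_lt_sum hfib ⟨s, hs, hlt⟩
  rw [sum_const, smul_eq_mul] at h2
  have : #S * m ≤ k * m := Nat.mul_le_mul_right _ hS
  omega

theorem card_filter_prod {α β : Type*} [Fintype α] [Fintype β] (P : α → β → Prop) :
    #{p : α × β | P p.1 p.2} = ∑ a, #{b | P a b} := by
  rw [← Fintype.card_subtype, Fintype.card_congr (Equiv.subtypeProdEquivSigmaSubtype P),
    Fintype.card_sigma]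
  simp [Fintype.card_subtype]

theorem card_filter_prod' {α β : Type*} [Fintype α] [Fintype β] (P : α → β → Prop) :
    #{p : α × β | P p.1 p.2} = ∑ b, #{a | P a b} := by
  rw [← card_filter_prod (fun b a => P a b)]
  exact card_equiv (Equiv.prodComm α β) (by intro i; simp)

section field
variable {F : Type*} [Field F] [Fintype F] {q : ℕ}

theorem one_lt_q (hF : Fintype.card F = q ^ 2) : 1 < q := by
  have : 1 < Fintype.card F := Fintype.one_lt_card
  rw [hF] at this
  by_contra h
  interval_cases q <;> simp at this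

theorem exists_char (hF : Fintype.card F = q ^ 2) :
    ∃ p k : ℕ, p.Prime ∧ CharP F p ∧ q = p ^ k := by
  obtain ⟨p, hp⟩ := CharP.exists F
  obtain ⟨n, hpp, hn⟩ := FiniteField.card F p
  have : q ∣ p ^ (n : ℕ) := by rw [← hn, hF]; exact Dvd.intro_left q (by ring)
  obtain ⟨k, -, hk⟩ := (Nat.dvd_prime_pow hpp).1 this
  exact ⟨p, k, hpp, hp, hk⟩

theorem add_pow_q (hF : Fintype.card F = q ^ 2) (x y : F) : (x + y) ^ q = x ^ q + y ^ q := by
  obtain ⟨p, k, hpp, hp, rfl⟩ := exists_char hF
  have := Fact.mk hpp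
  exact add_pow_char_pow x y p k

/-- the involutory field automorphism -/
def sig (hF : Fintype.card F = q ^ 2) : F →+* F where
  toFun x := x ^ q
  map_one' := one_pow _
  map_mul' x y := mul_pow x y q
  map_zero' := zero_pow (by have := one_lt_q hF; omega)
  map_add' := add_pow_q hF

theorem sig_apply (hF : Fintype.card F = q ^ 2) (x : F) : sig hF x = x ^ q := rfl

theorem pow_q_q (hF : Fintype.card F = q ^ 2) (x : F) : (x ^ q) ^ q = x := by
  rw [← pow_mul, ← sq, ← hF, FiniteField.pow_card]

theorem neg_pow_q (hF : Fintype.card F = q ^ 2) (x : F) : (-x) ^ q = - x ^ q := by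
  have := map_neg (sig hF) x
  simpa [sig_apply] using this

theorem card_eval_zero_le (P : F[X]) (hP : P ≠ 0) : #{a : F | P.eval a = 0} ≤ P.natDegree := by
  calc #{a : F | P.eval a = 0} ≤ #P.roots.toFinset := card_le_card (by
        intro a ha
        simp only [mem_filter, mem_univ, true_and] at ha
        simp only [Multiset.mem_toFinset, mem_roots hP, IsRoot.def, ha])
   _ ≤ Multiset.card P.roots := Multiset.toFinset_card_le _
   _ ≤ _ := card_roots' P

theorem card_fixed_le (hF : Fintype.card F = q ^ 2) : #{s : F | s ^ q = s} ≤ q := by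
  have h1 := card_eval_zero_le (X ^ q - X : F[X]) (FiniteField.X_pow_card_sub_X_ne_zero F (one_lt_q hF))
  rw [FiniteField.X_pow_card_sub_X_natDegree_eq F (one_lt_q hF)] at h1
  simpa [sub_eq_zero] using h1

theorem card_trace_fibre (hF : Fintype.card F = q ^ 2) (s : F) (hs : s ^ q = s) :
    #{a : F | a + a ^ q = s} = q := by
  have hq := one_lt_q hF
  have := fibre_card_eq (univ : Finset F) ({s : F | s ^ q = s} : Finset F) (fun a => a + a ^ q) q q
    (by intro a _
        simp only [mem_filter, mem_univ, true_and]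
        rw [add_pow_q hF, pow_q_q hF, add_comm])
    (by intro s _
        have hdeg : (X ^ q + (X - C s) : F[X]).natDegree = q := by
          rw [natDegree_add_eq_left_of_natDegree_lt, natDegree_X_pow]
          rw [natDegree_X_pow, natDegree_X_sub_C]; exact hq
        have hne : (X ^ q + (X - C s) : F[X]) ≠ 0 := by
          intro h0; rw [h0] at hdeg; simp at hdeg; omega
        have h1 := card_eval_zero_le _ hne
        rw [hdeg] at h1
        refine le_trans (le_of_eq ?_) h1
        congr 1
        ext a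
        simp only [mem_filter, mem_univ, true_and, eval_add, eval_pow, eval_X, eval_sub, eval_C]
        constructor
        · intro h; rw [← h]; ring
        · intro h; linear_combination h)
    (card_fixed_le hF)
    (by rw [card_univ, hF]; exact le_of_eq (by ring))
    s (by simp [hs])
  exact this

theorem card_norm_fibre (hF : Fintype.card F = q ^ 2) (s : F) (hs : s ^ q = s) (hs0 : s ≠ 0) :
    #{a : F | a ^ (q + 1) = s} = q + 1 := by
  have hq := one_lt_q hF
  have := fibre_card_eq ({a : F | a ≠ 0} : Finset F) ({s : F | s ^ q = s ∧ s ≠ 0} : Finset F)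
    (fun a => a ^ (q + 1)) (q + 1) (q - 1)
    (by intro a ha
        simp only [mem_filter, mem_univ, true_and] at ha ⊢
        refine ⟨?_, pow_ne_zero _ ha⟩
        rw [← pow_mul, mul_comm, pow_mul, pow_succ, pow_q_q hF, pow_succ, mul_comm])
    (by intro s _
        have h1 := card_eval_zero_le _ (X_pow_sub_C_ne_zero (Nat.succ_pos q) s)
        rw [natDegree_X_pow_sub_C] at h1
        refine le_trans (card_le_card ?_) h1
        intro a
        simp only [mem_filter, mem_univ, true_and, eval_pow, eval_X, eval_sub, eval_C, sub_eq_zero]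
        exact fun h => h.2)
    (by have h1 := card_fixed_le hF
        have h2 : ({s : F | s ^ q = s} : Finset F) = insert 0 ({s : F | s ^ q = s ∧ s ≠ 0} : Finset F) := by
          ext a
          simp only [mem_filter, mem_univ, true_and, mem_insert]
          constructor
          · intro h
            by_cases ha : a = 0
            · exact Or.inl ha
            · exact Or.inr ⟨h, ha⟩
          · rintro (rfl | h)
            · exact zero_pow (by omega)
            · exact h.1
        rw [h2, card_insert_of_notMem (by simp)] at h1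
        omega)
    (by have : #({a : F | a ≠ 0} : Finset F) = q ^ 2 - 1 := by
          rw [filter_ne', card_erase_of_mem (mem_univ _), card_univ, hF]
        rw [this]
        obtain ⟨k, rfl⟩ : ∃ k, q = k + 1 := ⟨q - 1, by omega⟩
        have e : (k + 1) ^ 2 = (k + 1 - 1) * (k + 1 + 1) + 1 := by
          rw [Nat.add_sub_cancel]; ring
        rw [e, Nat.add_sub_cancel, Nat.add_sub_cancel])
    s (by simp [hs, hs0])
  refine Eq.trans ?_ this
  congr 1
  ext a
  simp only [mem_filter, mem_univ, true_and]
  constructor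
  · intro h
    refine ⟨?_, h⟩
    rintro rfl
    rw [zero_pow (Nat.succ_ne_zero q)] at h
    exact hs0 h.symm
  · exact fun h => h.2

end field

section herm
variable {F : Type*} [Field F] [Fintype F] {q : ℕ} {n : ℕ}

omit [Fintype F] in
theorem herm_add_left (u u' v : Fin n → F) :
    Cfsg.hermForm n F q (u + u') v = Cfsg.hermForm n F q u v + Cfsg.hermForm n F q u' v := by
  simp [Cfsg.hermForm, add_mul, sum_add_distrib]

theorem herm_add_right (hF : Fintype.card F = q ^ 2) (u v v' : Fin n → F) :
    Cfsg.hermForm n F q u (v + v') = Cfsg.hermForm n F q u v + Cfsg.hermForm n F q u v' := by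
  simp [Cfsg.hermForm, add_pow_q hF, mul_add, sum_add_distrib]

omit [Fintype F] in
theorem herm_smul_left (a : F) (u v : Fin n → F) :
    Cfsg.hermForm n F q (a • u) v = a * Cfsg.hermForm n F q u v := by
  simp [Cfsg.hermForm, mul_sum, mul_assoc]

omit [Fintype F] in
theorem herm_smul_right (a : F) (u v : Fin n → F) :
    Cfsg.hermForm n F q u (a • v) = a ^ q * Cfsg.hermForm n F q u v := by
  simp only [Cfsg.hermForm, mul_sum, Pi.smul_apply, smul_eq_mul, mul_pow]
  refine sum_congr rfl fun i _ => by ring

theorem herm_conj (hF : Fintype.card F = q ^ 2) (u v : Fin n → F) :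
    (Cfsg.hermForm n F q u v) ^ q = Cfsg.hermForm n F q v u := by
  have := map_sum (sig hF) (fun i => u i * v i ^ q) univ
  simp only [sig_apply] at this
  rw [Cfsg.hermForm, this]
  refine sum_congr rfl fun i _ => by rw [mul_pow, pow_q_q hF, mul_comm]

/-- number of isotropic vectors -/
noncomputable def I (F : Type*) [Field F] [Fintype F] (q n : ℕ) : ℕ :=
  #{x : Fin n → F | Cfsg.hermForm n F q x x = 0}

theorem I_zero : I F q 0 = 1 := by
  simp [I, Cfsg.hermForm]

omit [Field F] in
theorem card_vec (hF : Fintype.card F = q ^ 2) : Fintype.card (Fin n → F) = q ^ (2 * n) := by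
  rw [Fintype.card_fun, hF, Fintype.card_fin, pow_mul]

theorem I_le (hF : Fintype.card F = q ^ 2) : I F q n ≤ q ^ (2 * n) := by
  rw [← card_vec hF]
  exact card_le_univ _

theorem I_succ (hF : Fintype.card F = q ^ 2) (n : ℕ) :
    I F q (n + 1) = I F q n + (q + 1) * (q ^ (2 * n) - I F q n) := by
  have h1 : I F q (n + 1)
      = #{p : F × (Fin n → F) | p.1 ^ (q + 1) = - Cfsg.hermForm n F q p.2 p.2} := by
    unfold I
    refine (card_equiv (Fin.consEquiv (fun _ => F)) ?_).symm
    intro p
    simp only [mem_filter, mem_univ, true_and]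
    simp only [Cfsg.hermForm, Fin.consEquiv, Equiv.coe_fn_mk,
      Fin.sum_univ_succ, Fin.cons_zero, Fin.cons_succ]
    rw [pow_succ', eq_neg_iff_add_eq_zero]
  rw [h1, card_filter_prod' (fun (a : F) (b : Fin n → F) => a ^ (q + 1) = - Cfsg.hermForm n F q b b)]
  have h2 : ∀ y : Fin n → F, #{t : F | t ^ (q + 1) = - Cfsg.hermForm n F q y y}
      = if Cfsg.hermForm n F q y y = 0 then 1 else q + 1 := by
    intro y
    split_ifs with hy
    · rw [hy, neg_zero, card_eq_one]
      refine ⟨0, ?_⟩
      ext t
      simp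
    · apply card_norm_fibre hF
      · rw [neg_pow_q hF, herm_conj hF]
      · simpa using hy
  rw [sum_congr rfl (fun y _ => h2 y), sum_ite, sum_const, sum_const, smul_eq_mul, smul_eq_mul,
    mul_one]
  have h3 := card_filter_add_card_filter_not (s := (univ : Finset (Fin n → F)))
    (fun y => Cfsg.hermForm n F q y y = 0)
  rw [card_univ, card_vec hF] at h3
  unfold I
  rw [← h3, Nat.add_sub_cancel_left, mul_comm]

/-- the linear functional `w ↦ h(w, v)` -/
def ell (q : ℕ) (v : Fin n → F) : (Fin n → F) →ₗ[F] F where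
  toFun w := Cfsg.hermForm n F q w v
  map_add' u u' := herm_add_left u u' v
  map_smul' a u := herm_smul_left a u v

omit [Fintype F] in
theorem ell_apply (v w : Fin n → F) : ell q v w = Cfsg.hermForm n F q w v := rfl

omit [Fintype F] in
theorem ell_ne_zero (v : Fin n → F) (hv : v ≠ 0) : ell q v ≠ 0 := by
  intro h0
  apply hv
  funext i
  have := LinearMap.congr_fun h0 (Pi.single i 1)
  simp only [ell_apply, Cfsg.hermForm, LinearMap.zero_apply, Pi.single_apply, ite_mul, one_mul,
    zero_mul, sum_ite_eq', mem_univ, if_true] at this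
  exact eq_zero_of_pow_eq_zero this

theorem card_ell_fibre (hF : Fintype.card F = q ^ 2) (v : Fin (n + 1) → F) (hv : v ≠ 0) (t : F) :
    #{w : Fin (n + 1) → F | Cfsg.hermForm (n + 1) F q w v = t} = q ^ (2 * n) := by
  have hne := ell_ne_zero (q := q) v hv
  have hsurj : Function.Surjective (ell q v) := by
    rw [← LinearMap.range_eq_top]
    exact Module.Dual.range_eq_top_of_ne_zero hne
  have h1 := AddMonoidHom.card_fiber_eq_of_mem_range (ell q v).toAddMonoidHom
    (x := t) (y := 0) (hsurj t) (hsurj 0)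
  have h2 := Cfsg.Agent.Lib.Helper18Count.card_filter_mem (LinearMap.ker (ell q v))
  have h3 := Module.Dual.finrank_ker_add_one_of_ne_zero hne
  have h4 : Module.finrank F (Fin (n + 1) → F) = n + 1 := by simp
  rw [show Module.finrank F (LinearMap.ker (ell q v)) = n by omega, hF, ← pow_mul] at h2
  rw [← h2]
  refine Eq.trans ?_ (Eq.trans h1 ?_)
  · congr 1
  · congr 1

theorem herm_self_add_smul (hF : Fintype.card F = q ^ 2) (v w : Fin n → F) (a : F)
    (hvv : Cfsg.hermForm n F q v v = 0) (hwv : Cfsg.hermForm n F q w v = 1) :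
    Cfsg.hermForm n F q (w + a • v) (w + a • v) = Cfsg.hermForm n F q w w + (a + a ^ q) := by
  have hvw : Cfsg.hermForm n F q v w = 1 := by rw [← herm_conj hF, hwv, one_pow]
  rw [herm_add_left, herm_add_right hF, herm_add_right hF, herm_smul_left, herm_smul_left,
    herm_smul_right, herm_smul_right, hvv, hwv, hvw]
  ring

theorem card_K1 (hF : Fintype.card F = q ^ 2) (v : Fin (n + 1) → F) (hv : v ≠ 0)
    (hvv : Cfsg.hermForm (n + 1) F q v v = 0) :
    q * #{w : Fin (n + 1) → F | Cfsg.hermForm (n + 1) F q w w = 0 ∧ Cfsg.hermForm (n + 1) F q w v = 1}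
      = q ^ (2 * n) := by
  have hq := one_lt_q hF
  obtain ⟨P, hP⟩ : ∃ P : F → (Fin (n + 1) → F) → Prop, ∀ a w, P a w ↔
    (Cfsg.hermForm (n + 1) F q w v = 1 ∧ Cfsg.hermForm (n + 1) F q (w + a • v) (w + a • v) = 0) :=
    ⟨_, fun _ _ => Iff.rfl⟩
  have e1 := card_filter_prod P
  have e2 := card_filter_prod' P
  have h1 : ∀ a : F, #{w | P a w} = #{w : Fin (n + 1) → F | Cfsg.hermForm (n + 1) F q w w = 0
      ∧ Cfsg.hermForm (n + 1) F q w v = 1} := by
    intro a
    refine card_equiv (Equiv.addRight (a • v)) ?_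
    intro w
    simp only [hP, mem_filter, mem_univ, true_and, Equiv.coe_addRight]
    rw [herm_add_left w (a • v) v, herm_smul_left, hvv, mul_zero, add_zero]
    tauto
  have h2 : ∀ w : Fin (n + 1) → F, #{a | P a w}
      = if Cfsg.hermForm (n + 1) F q w v = 1 then q else 0 := by
    intro w
    split_ifs with hw
    · refine Eq.trans ?_ (card_trace_fibre hF (- Cfsg.hermForm (n + 1) F q w w)
        (by rw [neg_pow_q hF, herm_conj hF]))
      congr 1
      ext a
      simp only [hP, mem_filter, mem_univ, true_and]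
      rw [herm_self_add_smul hF v w a hvv hw]
      constructor
      · rintro ⟨-, h⟩; linear_combination h
      · intro h; exact ⟨hw, by linear_combination h⟩
    · rw [card_eq_zero]
      ext a
      simp [hP, hw]
  rw [e1, sum_congr rfl (fun a _ => h1 a), sum_const, card_univ, hF, smul_eq_mul,
    sum_congr rfl (fun w _ => h2 w), sum_ite, sum_const, sum_const, smul_eq_mul, smul_eq_mul,
    mul_zero, add_zero, card_ell_fibre hF v hv 1] at e2
  have : q * (q * #{w : Fin (n + 1) → F | Cfsg.hermForm (n + 1) F q w w = 0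
      ∧ Cfsg.hermForm (n + 1) F q w v = 1}) = q * q ^ (2 * n) := by
    rw [← mul_assoc, ← sq, e2, mul_comm]
  exact Nat.eq_of_mul_eq_mul_left (by omega) this

theorem card_Kt (v : Fin n → F) (t : F) (ht : t ≠ 0) :
    #{w : Fin n → F | Cfsg.hermForm n F q w w = 0 ∧ Cfsg.hermForm n F q w v = t}
    = #{w : Fin n → F | Cfsg.hermForm n F q w w = 0 ∧ Cfsg.hermForm n F q w v = 1} := by
  symm
  refine card_equiv (LinearEquiv.smulOfNeZero F (Fin n → F) t ht).toEquiv ?_
  intro w
  simp only [mem_filter, mem_univ, true_and, LinearEquiv.coe_toEquiv, LinearEquiv.smulOfNeZero_apply]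
  rw [herm_smul_left, herm_smul_left, herm_smul_right]
  constructor
  · rintro ⟨h1, h2⟩; rw [h1, h2]; simp
  · rintro ⟨h1, h2⟩
    refine ⟨?_, ?_⟩
    · have := mul_eq_zero.1 h1
      rcases this with h | h
      · exact absurd h ht
      · rcases mul_eq_zero.1 h with h | h
        · exact absurd (eq_zero_of_pow_eq_zero h) ht
        · exact h
    · exact mul_left_cancel₀ ht (by rw [h2, mul_one])

theorem card_K0 (hF : Fintype.card F = q ^ 2) (v : Fin (n + 1) → F) (hv : v ≠ 0)
    (hvv : Cfsg.hermForm (n + 1) F q v v = 0) :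
    q * #{w : Fin (n + 1) → F | Cfsg.hermForm (n + 1) F q w w = 0 ∧ Cfsg.hermForm (n + 1) F q w v = 0}
      + (q ^ 2 - 1) * q ^ (2 * n) = q * I F q (n + 1) := by
  have h1 : I F q (n + 1) = ∑ t : F, #{w : Fin (n + 1) → F | Cfsg.hermForm (n + 1) F q w w = 0
      ∧ Cfsg.hermForm (n + 1) F q w v = t} := by
    unfold I
    rw [card_eq_sum_card_fiberwise (f := fun w => Cfsg.hermForm (n + 1) F q w v) (t := univ)
      (fun _ _ => mem_univ _)]
    refine sum_congr rfl fun t _ => ?_
    rw [filter_filter]
  rw [h1, ← add_sum_erase univ _ (mem_univ (0 : F)),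
    sum_congr rfl (fun t ht => card_Kt v t (ne_of_mem_erase ht)), sum_const,
    card_erase_of_mem (mem_univ _), card_univ, hF, smul_eq_mul, mul_add, ← card_K1 hF v hv hvv]
  ring

theorem I_succ_int (hF : Fintype.card F = q ^ 2) (n : ℕ) :
    (I F q (n + 1) : ℤ) = I F q n + (q + 1) * (q ^ (2 * n) - I F q n) := by
  rw [I_succ hF]
  push_cast [Nat.cast_sub (I_le hF)]
  ring

open Cfsg.Agent.Lib.Helper18Count in
theorem herm_ti_span (hF : Fintype.card F = q ^ 2) (v w : Fin n → F) :
    Cfsg.hermForm n F q v v = 0 → Cfsg.hermForm n F q v w = 0 → Cfsg.hermForm n F q w v = 0 →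
    Cfsg.hermForm n F q w w = 0 → TI (Cfsg.hermForm n F q) (Submodule.span F {v} ⊔ Submodule.span F {w}) :=
  ti_span_pair _ (fun a => a ^ q) herm_add_left (herm_add_right hF) herm_smul_left herm_smul_right v w

open Cfsg.Agent.Lib.Helper18Count in
theorem card_through_herm (hF : Fintype.card F = q ^ 2) (v : Fin n → F) (hv : v ≠ 0)
    (hvv : Cfsg.hermForm n F q v v = 0) :
    Nat.card {W : Submodule F (Fin n → F) // Module.finrank F W = 2 ∧ v ∈ W ∧ TI (Cfsg.hermForm n F q) W}
      * ((q ^ 2) ^ 2 - q ^ 2) + q ^ 2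
    = #{w : Fin n → F | Cfsg.hermForm n F q w w = 0 ∧ Cfsg.hermForm n F q w v = 0} := by
  have key := card_through (Cfsg.hermForm n F q) (herm_ti_span hF) v hv hvv
  rw [hF] at key
  rw [key, Nat.card_eq_fintype_card, Fintype.card_subtype]
  have h1 := card_filter_add_card_filter_not
    (s := ({w : Fin n → F | Cfsg.hermForm n F q w w = 0 ∧ Cfsg.hermForm n F q w v = 0} : Finset _))
    (fun w => w ∈ Submodule.span F {v})
  rw [filter_filter, filter_filter] at h1
  rw [← h1, add_comm]
  congr 1
  · have := card_filter_mem (Submodule.span F {v})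
    rw [finrank_span_singleton hv, pow_one, hF] at this
    rw [← this]
    congr 1
    ext w
    simp only [mem_filter, mem_univ, true_and]
    constructor
    · intro hw
      refine ⟨?_, hw⟩
      obtain ⟨a, rfl⟩ := Submodule.mem_span_singleton.1 hw
      rw [herm_smul_left, herm_smul_left, herm_smul_right, hvv]
      simp
    · exact fun h => h.2
  · congr 1
    ext w
    simp only [mem_filter, mem_univ, true_and]
    constructor
    · rintro ⟨h1, h2, h3, h4⟩; exact ⟨⟨h4, h3⟩, h1⟩
    · rintro ⟨⟨h1, h2⟩, h3⟩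
      exact ⟨h3, by rw [← herm_conj hF, h2, zero_pow (by have := one_lt_q hF; omega)], h2, h1⟩

open Cfsg.Agent.Lib.Helper18Count in
theorem card_total_herm (hF : Fintype.card F = q ^ 2) (N : ℕ)
    (hN : ∀ v : Fin n → F, v ≠ 0 → Cfsg.hermForm n F q v v = 0 →
      Nat.card {W : Submodule F (Fin n → F) // Module.finrank F W = 2 ∧ v ∈ W ∧ TI (Cfsg.hermForm n F q) W} = N) :
    Nat.card {W : Submodule F (Fin n → F) // Module.finrank F W = 2 ∧ TI (Cfsg.hermForm n F q) W}
      * ((q ^ 2) ^ 2 - 1) + N = I F q n * N := by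
  have key := card_total (Cfsg.hermForm n F q) N hN
  rw [hF] at key
  rw [key, Nat.card_eq_fintype_card, Fintype.card_subtype]
  have h1 : I F q n = #{v : Fin n → F | v ≠ 0 ∧ Cfsg.hermForm n F q v v = 0} + 1 := by
    unfold I
    have : ({v : Fin n → F | v ≠ 0 ∧ Cfsg.hermForm n F q v v = 0} : Finset _)
        = ({x : Fin n → F | Cfsg.hermForm n F q x x = 0} : Finset _).erase 0 := by
      ext w
      simp only [mem_filter, mem_univ, true_and, mem_erase]
    have h0 : (0 : Fin n → F) ∈ ({x : Fin n → F | Cfsg.hermForm n F q x x = 0} : Finset _) := by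
      simp only [mem_filter, mem_univ, true_and]
      simp [Cfsg.hermForm]
    rw [this, card_erase_of_mem h0, Nat.sub_add_cancel]
    exact card_pos.2 ⟨0, h0⟩
  rw [h1]
  ring

end herm

end Cfsg.Agent.Lib.Helper18Herm
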