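import Mathlib
import Cfsg.Agent.Lib.Helper18Quad

set_option autoImplicit false

namespace Cfsg.Agent.Lib.Helper18Quad2

open Matrix

variable {F : Type*} [Field F]

theorem det_swap (m : ℕ) :
    (fromBlocks (0 : Matrix (Fin m) (Fin m) F) (1 : Matrix (Fin m) (Fin m) F) (1 : Matrix (Fin m) (Fin m) F) (0 : Matrix (Fin m) (Fin m) F)).det = (-1) ^ m := by
  have h1 : fromBlocks (1 : Matrix (Fin m) (Fin m) F) (1 : Matrix (Fin m) (Fin m) F) (0 : Matrix (Fin m) (Fin m) F) (1 : Matrix (Fin m) (Fin m) F) * fromBlocks (0 : Matrix (Fin m) (Fin m) F) (1 : Matrix (Fin m) (Fin m) F) (1 : Matrix (Fin m) (Fin m) F) (0 : Matrix (Fin m) (Fin m) F)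
      = fromBlocks (1 : Matrix (Fin m) (Fin m) F) (1 : Matrix (Fin m) (Fin m) F) (1 : Matrix (Fin m) (Fin m) F) (0 : Matrix (Fin m) (Fin m) F) := by
    rw [fromBlocks_multiply]; simp
  have h2 := congrArg det h1
  rw [det_mul, det_fromBlocks_zero₂₁, det_one, det_fromBlocks_one₁₁] at h2
  simp only [one_mul, mul_one, zero_sub] at h2
  rw [h2, det_neg, det_one, mul_one, Fintype.card_fin]

theorem det_zero_block (m : ℕ) (P Q R : Matrix (Fin m) (Fin m) F) :
    (fromBlocks 0 P Q R).det = (-1) ^ m * (P.det * Q.det) := by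
  have h1 : fromBlocks 0 P Q R * fromBlocks (0 : Matrix (Fin m) (Fin m) F) (1 : Matrix (Fin m) (Fin m) F) (1 : Matrix (Fin m) (Fin m) F) (0 : Matrix (Fin m) (Fin m) F)
      = fromBlocks P 0 R Q := by
    rw [fromBlocks_multiply]; simp
  have h2 := congrArg det h1
  rw [det_mul, det_swap, det_fromBlocks_zero₁₂] at h2
  have hsq1 : ((-1 : F) ^ m) * (-1) ^ m = 1 := by
    rw [← mul_pow]; simp
  calc (fromBlocks 0 P Q R).det = (fromBlocks 0 P Q R).det * ((-1 : F) ^ m * (-1) ^ m) := by
        rw [hsq1, mul_one]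
    _ = (-1) ^ m * (P.det * Q.det) := by rw [← mul_assoc, h2]; ring

variable {ι : Type*} [Fintype ι] [DecidableEq ι] {V : Type*} [AddCommGroup V] [Module F V]

omit [DecidableEq ι] in
theorem sq_of_ti (B : LinearMap.BilinForm F V) (hB : B.IsSymm)
    (b : Module.Basis ι F V) (hb : B.IsOrthoᵢ b) (m : ℕ)
    (hm : Fintype.card ι = 2 * m) (X : Submodule F V) (hX : Module.finrank F X = m)
    (hX0 : ∀ x ∈ X, ∀ y ∈ X, B x y = 0) :
    ∃ s : F, (-1) ^ m * ∏ i, B (b i) (b i) = s ^ 2 := by
  have hfd : FiniteDimensional F V := Module.Finite.of_basis b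
  have e : ι ≃ Fin m ⊕ Fin m := Fintype.equivOfCardEq (by simp [hm, two_mul])
  set b' := b.reindex e with hb'
  obtain ⟨Y, hXY⟩ := Submodule.exists_isCompl X
  have hY : Module.finrank F Y = m := by
    have h1 := Submodule.finrank_add_eq_of_isCompl hXY
    rw [Module.finrank_eq_card_basis b, hm, hX] at h1
    omega
  let bX : Module.Basis (Fin m) F X := Module.finBasisOfFinrankEq F X hX
  let bY : Module.Basis (Fin m) F Y := Module.finBasisOfFinrankEq F Y hY
  let c : Module.Basis (Fin m ⊕ Fin m) F V := (bX.prod bY).map (Submodule.prodEquivOfIsCompl X Y hXY)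
  have hcl : ∀ i, c (Sum.inl i) = (bX i : V) := by
    intro i
    simp [c, Submodule.coe_prodEquivOfIsCompl']
  have hcr : ∀ i, c (Sum.inr i) = (bY i : V) := by
    intro i
    simp [c, Submodule.coe_prodEquivOfIsCompl']
  set P : Matrix (Fin m) (Fin m) F := Matrix.of fun i j => B (bX i : V) (bY j : V) with hP
  set R : Matrix (Fin m) (Fin m) F := Matrix.of fun i j => B (bY i : V) (bY j : V) with hR
  have hGc : LinearMap.BilinForm.toMatrix c B = fromBlocks 0 P Pᵀ R := by
    ext i j
    rw [LinearMap.BilinForm.toMatrix_apply]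
    rcases i with i | i <;> rcases j with j | j
    · simp [hcl, hX0 _ (bX i).2 _ (bX j).2]
    · simp [hcl, hcr, hP]
    · simp [hcl, hcr, hP, hB.eq (bY i : V) (bX j : V)]
    · simp [hcr, hR]
  have hGb : LinearMap.BilinForm.toMatrix b' B = diagonal (fun k => B (b' k) (b' k)) := by
    ext i j
    rw [LinearMap.BilinForm.toMatrix_apply]
    by_cases hij : i = j
    · subst hij; simp
    · rw [diagonal_apply_ne _ hij]
      have : e.symm i ≠ e.symm j := fun h => hij (e.symm.injective h)
      simpa [hb'] using hb this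
  have key := LinearMap.BilinForm.toMatrix_mul_basis_toMatrix (b := b') c B
  have hdet := congrArg det key
  rw [det_mul, det_mul, det_transpose, hGb, hGc, det_diagonal, det_zero_block, det_transpose] at hdet
  have hprod : ∏ k, B (b' k) (b' k) = ∏ i, B (b i) (b i) := by
    rw [hb']
    exact (Fintype.prod_equiv e _ _ (fun i => by simp)).symm
  rw [hprod] at hdet
  have hinv : (b'.toMatrix c).det * (c.toMatrix b').det = 1 := by
    rw [← det_mul, Module.Basis.toMatrix_mul_toMatrix_flip, det_one]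
  set d := (b'.toMatrix c).det with hd
  set d' := (c.toMatrix b').det with hd'
  have hsq1 : ((-1 : F) ^ m) * (-1) ^ m = 1 := by
    rw [← mul_pow]; simp
  refine ⟨P.det * d', ?_⟩
  set π := ∏ i, B (b i) (b i) with hπ
  calc (-1) ^ m * π = (-1) ^ m * (d * π * d) * d' ^ 2 := by
        have : d * π * d * d' ^ 2 = π * (d * d') ^ 2 := by ring
        rw [mul_assoc, this, hinv]; ring
    _ = (P.det * d') ^ 2 := by
        rw [hdet, ← mul_assoc, hsq1]; ring

end Cfsg.Agent.Lib.Helper18Quad2
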