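import Mathlib

set_option autoImplicit false
set_option linter.unusedSectionVars false

/-! Abstract part of the bound for elementary abelian 2-subgroups of `PSp`: groups in which
squares and commutators lie in `{1, z}` for a central involution `z`. -/

namespace Cfsg.Agent.Lib.Helper18SpRankA

variable {G : Type*} [Group G]

/-- adjoin a commuting involution to a subgroup of exponent two -/
def adjoin (A : Subgroup G) (c : G) (hc : c * c = 1) (hcA : ∀ a ∈ A, c * a = a * c) :
    Subgroup G where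
  carrier := {x | x ∈ A ∨ x * c ∈ A}
  one_mem' := Or.inl A.one_mem
  mul_mem' := by
    rintro x y (hx | hx) (hy | hy)
    · exact Or.inl (A.mul_mem hx hy)
    · right
      rw [mul_assoc]
      exact A.mul_mem hx hy
    · right
      have : x * y * c = (x * c) * y := by rw [mul_assoc, mul_assoc, hcA y hy]
      rw [this]
      exact A.mul_mem hx hy
    · left
      have h1 : c * (y * c) = (y * c) * c := hcA _ hy
      have : x * y = (x * c) * (y * c) := by
        rw [mul_assoc x c, h1, mul_assoc y, hc, mul_one]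
      rw [this]
      exact A.mul_mem hx hy
  inv_mem' := by
    rintro x (hx | hx)
    · exact Or.inl (A.inv_mem hx)
    · right
      have h1 : c * (x * c)⁻¹ = (x * c)⁻¹ * c := hcA _ (A.inv_mem hx)
      have h3 : c⁻¹ = c := inv_eq_of_mul_eq_one_right hc
      have : x⁻¹ * c = (x * c)⁻¹ := by
        have e : (x * c)⁻¹ = c * x⁻¹ := by rw [mul_inv_rev, h3]
        rw [e] at h1
        rw [e]
        have e2 : c * (c * x⁻¹) = x⁻¹ := by rw [← mul_assoc, hc, one_mul]
        rw [e2] at h1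
        calc x⁻¹ * c = (c * x⁻¹ * c) * c := by rw [← h1]
          _ = c * x⁻¹ := by rw [mul_assoc, hc, mul_one]
      rw [this]
      exact A.inv_mem hx

theorem exists_maximal [Finite G] (E : Subgroup G) :
    ∃ A : Subgroup G, A ≤ E ∧ (∀ a ∈ A, a * a = 1) ∧
      ∀ c ∈ E, c * c = 1 → (∀ a ∈ A, c * a = a * c) → c ∈ A := by
  classical
  let 𝒮 := {A : Subgroup G // A ≤ E ∧ ∀ a ∈ A, a * a = 1}
  have : Nonempty 𝒮 := ⟨⟨⊥, bot_le, by
    intro a ha
    rw [Subgroup.mem_bot] at ha
    rw [ha, one_mul]⟩⟩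
  obtain ⟨A, hA⟩ := Finite.exists_max (fun A : 𝒮 => Nat.card A.1)
  refine ⟨A.1, A.2.1, A.2.2, ?_⟩
  intro c hcE hc hcA
  let B := adjoin A.1 c hc hcA
  have hAB : A.1 ≤ B := fun x hx => Or.inl hx
  have hB : B ≤ E ∧ ∀ a ∈ B, a * a = 1 := by
    constructor
    · rintro x (hx | hx)
      · exact A.2.1 hx
      · have h1 := E.mul_mem (A.2.1 hx) hcE
        rwa [mul_assoc, hc, mul_one] at h1
    · rintro x (hx | hx)
      · exact A.2.2 x hx
      · have h1 := A.2.2 _ hx
        have h3 : c * (x * c) = (x * c) * c := hcA _ hx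
        have h4 : c * x = x * c := by
          have : c * (x * c) * c = (x * c) * c * c := by rw [h3]
          rw [mul_assoc (x * c), hc, mul_one, mul_assoc c, mul_assoc x, hc, mul_one] at this
          exact this
        calc x * x = x * (c * c) * x := by rw [hc, mul_one]
          _ = (x * c) * (c * x) := by simp only [mul_assoc]
          _ = (x * c) * (x * c) := by rw [h4]
          _ = 1 := h1
  have hle := hA ⟨B, hB⟩
  have heq : A.1 = B := Subgroup.eq_of_le_of_card_ge hAB hle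
  rw [heq]
  right
  rw [hc]
  exact A.1.one_mem

section cover

variable (E A : Subgroup G) (z : G) (hz : ∀ g, z * g = g * z) (hzz : z * z = 1)
  (hsq : ∀ g ∈ E, g * g = 1 ∨ g * g = z)
  (hcm : ∀ g ∈ E, ∀ h ∈ E, g * h = h * g ∨ g * h = z * (h * g))
  (hmax : ∀ c ∈ E, c * c = 1 → (∀ a ∈ A, c * a = a * c) → c ∈ A)

/-- membership in `C_E(A)` -/
def InC (c : G) : Prop := c ∈ E ∧ ∀ a ∈ A, c * a = a * c

variable {E A z}

theorem InC.mul {x y : G} (hx : InC E A x) (hy : InC E A y) : InC E A (x * y) :=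
  ⟨E.mul_mem hx.1 hy.1, fun a ha => by rw [mul_assoc, hy.2 a ha, ← mul_assoc, hx.2 a ha, mul_assoc]⟩

include hsq hmax in
theorem sq_of_not_mem {x : G} (hx : InC E A x) (hxA : x ∉ A) : x * x = z := by
  rcases hsq x hx.1 with h | h
  · exact absurd (hmax x hx.1 h hx.2) hxA
  · exact h

include hzz hsq hcm hmax in
theorem anti {x y : G} (hx : InC E A x) (hy : InC E A y) (hxA : x ∉ A) (hyA : y ∉ A)
    (hxy : x * y ∉ A) : x * y = z * (y * x) := by
  rcases hcm x hx.1 y hy.1 with h | h
  · exfalso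
    apply hxy
    apply hmax _ (hx.mul hy).1 _ (hx.mul hy).2
    calc x * y * (x * y) = x * (y * x) * y := by simp only [mul_assoc]
      _ = x * (x * y) * y := by rw [h]
      _ = (x * x) * (y * y) := by simp only [mul_assoc]
      _ = 1 := by rw [sq_of_not_mem hsq hmax hx hxA, sq_of_not_mem hsq hmax hy hyA, hzz]
  · exact h

include hz hzz hsq hcm hmax in
theorem cover : ∃ c1 c2 : G, ∀ c, InC E A c →
    c ∈ A ∨ c1 * c ∈ A ∨ c2 * c ∈ A ∨ c1 * c2 * c ∈ A := by
  by_cases h1 : ∀ c, InC E A c → c ∈ A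
  · exact ⟨1, 1, fun c hc => Or.inl (h1 c hc)⟩
  push Not at h1
  obtain ⟨c1, hc1, hc1A⟩ := h1
  by_cases h2 : ∀ c, InC E A c → c ∈ A ∨ c1 * c ∈ A
  · refine ⟨c1, 1, fun c hc => ?_⟩
    rcases h2 c hc with h | h
    · exact Or.inl h
    · exact Or.inr (Or.inl h)
  push Not at h2
  obtain ⟨c2, hc2, hc2A, hc12A⟩ := h2
  refine ⟨c1, c2, fun c hc => ?_⟩
  by_cases hcA : c ∈ A
  · exact Or.inl hcA
  by_cases h1c : c1 * c ∈ A
  · exact Or.inr (Or.inl h1c)
  by_cases h2c : c2 * c ∈ A
  · exact Or.inr (Or.inr (Or.inl h2c))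
  right; right; right
  have hC := (hc1.mul hc2).mul hc
  apply hmax _ hC.1 _ hC.2
  have a1 := anti hzz hsq hcm hmax hc1 hc hc1A hcA h1c
  have a2 := anti hzz hsq hcm hmax hc2 hc hc2A hcA h2c
  have s12 := sq_of_not_mem hsq hmax (hc1.mul hc2) hc12A
  have sc := sq_of_not_mem hsq hmax hc hcA
  -- `c * c1 = z * (c1 * c)`
  have b1 : c * c1 = z * (c1 * c) := by rw [a1, ← mul_assoc, hzz, one_mul]
  have b2 : c * c2 = z * (c2 * c) := by rw [a2, ← mul_assoc, hzz, one_mul]
  calc c1 * c2 * c * (c1 * c2 * c) = c1 * c2 * (c * c1) * c2 * c := by simp only [mul_assoc]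
    _ = c1 * c2 * (z * (c1 * c)) * c2 * c := by rw [b1]
    _ = c1 * c2 * ((c1 * c) * z) * c2 * c := by rw [hz]
    _ = c1 * c2 * c1 * (c * (z * c2)) * c := by simp only [mul_assoc]
    _ = c1 * c2 * c1 * (c * (c2 * z)) * c := by rw [hz c2]
    _ = c1 * c2 * c1 * ((c * c2) * z) * c := by simp only [mul_assoc]
    _ = c1 * c2 * c1 * ((z * (c2 * c)) * z) * c := by rw [b2]
    _ = c1 * c2 * c1 * (((c2 * c) * z) * z) * c := by rw [hz (c2 * c)]
    _ = c1 * c2 * c1 * ((c2 * c) * (z * z)) * c := by simp only [mul_assoc]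
    _ = (c1 * c2 * (c1 * c2)) * (c * c) := by rw [hzz, mul_one]; simp only [mul_assoc]
    _ = 1 := by rw [s12, sc, hzz]

include hz hzz hsq hcm hmax in
theorem card_centralizer_le [Finite G] :
    Nat.card (E ⊓ Subgroup.centralizer (A : Set G) : Subgroup G) ≤ 4 * Nat.card A := by
  classical
  obtain ⟨c1, c2, hcov⟩ := cover hz hzz hsq hcm hmax
  let t : Fin 4 → G := ![1, c1, c2, c1 * c2]
  have hex : ∀ c : (E ⊓ Subgroup.centralizer (A : Set G) : Subgroup G), ∃ i : Fin 4, t i * c.1 ∈ A := by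
    intro c
    have hc : InC E A c.1 := ⟨c.2.1, fun a ha => ((Subgroup.mem_centralizer_iff.mp c.2.2) a ha).symm⟩
    rcases hcov c.1 hc with h | h | h | h
    · exact ⟨0, by simpa [t] using h⟩
    · exact ⟨1, by simpa [t] using h⟩
    · exact ⟨2, by simpa [t] using h⟩
    · exact ⟨3, by simpa [t] using h⟩
  choose idx hidx using hex
  let Φ : (E ⊓ Subgroup.centralizer (A : Set G) : Subgroup G) → Fin 4 × A :=
    fun c => (idx c, ⟨t (idx c) * c.1, hidx c⟩)
  have hΦ : Function.Injective Φ := by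
    intro c c' h
    have h1 : idx c = idx c' := congrArg Prod.fst h
    have h3 : t (idx c) * c.1 = t (idx c') * c'.1 := congrArg (fun p => (p.2 : G)) h
    rw [h1] at h3
    exact Subtype.ext (mul_left_cancel h3)
  have := Nat.card_le_card_of_injective Φ hΦ
  rw [Nat.card_prod] at this
  simpa using this

end cover

end Cfsg.Agent.Lib.Helper18SpRankA
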