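import Mathlib
import Cfsg.Agent.Lib.Helper18Herm

set_option autoImplicit false

namespace Cfsg.Agent.Lib.Helper18Unitary

open Finset Module Cfsg.Agent.Lib.Helper18Herm
open scoped Classical

variable {F : Type*} [Field F] [Fintype F] {q : ℕ} {n : ℕ}

/-- non-degeneracy of the restriction of the Hermitian form to a subspace -/
def Nondeg (q : ℕ) (W : Submodule F (Fin n → F)) : Prop :=
  ∀ u ∈ W, (∀ v ∈ W, Cfsg.hermForm n F q u v = 0) → u = 0

theorem herm_zero_of_zero (hF : Fintype.card F = q ^ 2) {u v : Fin n → F}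
    (h : Cfsg.hermForm n F q u v = 0) : Cfsg.hermForm n F q v u = 0 := by
  rw [← herm_conj hF, h, zero_pow (by have := one_lt_q hF; omega)]

theorem exists_anisotropic (hF : Fintype.card F = q ^ 2) (W : Submodule F (Fin n → F))
    (hW : Nondeg q W) (hne : W ≠ ⊥) : ∃ v ∈ W, Cfsg.hermForm n F q v v ≠ 0 := by
  by_contra hcon
  push Not at hcon
  obtain ⟨u, huW, hu0⟩ := Submodule.exists_mem_ne_zero_of_ne_bot hne
  have : ∃ v ∈ W, Cfsg.hermForm n F q u v ≠ 0 := by
    by_contra h
    push Not at h
    exact hu0 (hW u huW h)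
  obtain ⟨v, hvW, huv⟩ := this
  have hall : ∀ t : F, t + t ^ q = 0 := by
    intro t
    have h1 := hcon ((t / Cfsg.hermForm n F q u v) • u + v)
      (W.add_mem (W.smul_mem _ huW) hvW)
    rw [herm_add_left, herm_add_right hF, herm_add_right hF, herm_smul_left, herm_smul_left,
      herm_smul_right, hcon u huW, hcon v hvW, ← herm_conj hF ((t / Cfsg.hermForm n F q u v) • u) v,
      herm_smul_left, div_mul_cancel₀ _ huv] at h1
    simpa using h1
  have h2 := card_trace_fibre hF 0 (zero_pow (by have := one_lt_q hF; omega))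
  have h3 : (Finset.univ.filter (fun a : F => a + a ^ q = 0)) = Finset.univ := by
    ext a; simp [hall a]
  rw [h3, card_univ, hF] at h2
  have := one_lt_q hF
  nlinarith

theorem exists_unit_vector (hF : Fintype.card F = q ^ 2) (W : Submodule F (Fin n → F))
    (hW : Nondeg q W) (hne : W ≠ ⊥) : ∃ v ∈ W, Cfsg.hermForm n F q v v = 1 := by
  obtain ⟨v, hvW, hv⟩ := exists_anisotropic hF W hW hne
  have h1 := card_norm_fibre hF (Cfsg.hermForm n F q v v)⁻¹
    (by rw [inv_pow, herm_conj hF]) (inv_ne_zero hv)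
  have : (Finset.univ.filter (fun a : F => a ^ (q + 1) = (Cfsg.hermForm n F q v v)⁻¹)).Nonempty := by
    rw [← card_pos, h1]; omega
  obtain ⟨c, hc⟩ := this
  simp only [mem_filter, mem_univ, true_and] at hc
  refine ⟨c • v, W.smul_mem _ hvW, ?_⟩
  rw [herm_smul_left, herm_smul_right, ← mul_assoc, ← pow_succ', hc, inv_mul_cancel₀ hv]

/-- the part of `W` orthogonal to `v` -/
noncomputable def perpIn (q : ℕ) (W : Submodule F (Fin n → F)) (v : Fin n → F) :
    Submodule F (Fin n → F) :=
  (LinearMap.ker ((ell q v).domRestrict W)).map W.subtype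

omit [Fintype F] in
theorem mem_perpIn (W : Submodule F (Fin n → F)) (v u : Fin n → F) :
    u ∈ perpIn q W v ↔ u ∈ W ∧ Cfsg.hermForm n F q u v = 0 := by
  unfold perpIn
  simp only [Submodule.mem_map, LinearMap.mem_ker, LinearMap.domRestrict_apply, Submodule.subtype_apply,
    Subtype.exists, exists_and_right, exists_eq_right, ell_apply]
  constructor
  · rintro ⟨h1, h2⟩; exact ⟨h1, h2⟩
  · rintro ⟨h1, h2⟩; exact ⟨h1, h2⟩

omit [Fintype F] in
theorem finrank_perpIn (W : Submodule F (Fin n → F)) (v : Fin n → F) (hv : v ∈ W)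
    (hvv : Cfsg.hermForm n F q v v = 1) : finrank F (perpIn q W v) + 1 = finrank F W := by
  unfold perpIn
  rw [Submodule.finrank_map_subtype_eq]
  apply Module.Dual.finrank_ker_add_one_of_ne_zero
  intro h0
  have := LinearMap.congr_fun h0 ⟨v, hv⟩
  simp only [LinearMap.domRestrict_apply, ell_apply, hvv, LinearMap.zero_apply] at this
  exact one_ne_zero this

theorem nondeg_perpIn (hF : Fintype.card F = q ^ 2) (W : Submodule F (Fin n → F)) (hW : Nondeg q W)
    (v : Fin n → F) (hv : v ∈ W) (hvv : Cfsg.hermForm n F q v v = 1) : Nondeg q (perpIn q W v) := by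
  intro u hu hall
  rw [mem_perpIn] at hu
  apply hW u hu.1
  intro x hx
  have hx' : x - Cfsg.hermForm n F q x v • v ∈ perpIn q W v := by
    rw [mem_perpIn]
    refine ⟨W.sub_mem hx (W.smul_mem _ hv), ?_⟩
    rw [sub_eq_add_neg, herm_add_left, ← neg_smul, herm_smul_left, hvv]
    ring
  have h1 := hall _ hx'
  rw [sub_eq_add_neg, herm_add_right hF, ← neg_smul, herm_smul_right, hu.2, mul_zero, add_zero] at h1
  exact h1

theorem exists_orthonormal (hF : Fintype.card F = q ^ 2) : ∀ (k : ℕ) (W : Submodule F (Fin n → F)),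
    finrank F W = k → Nondeg q W → ∃ w : Fin k → (Fin n → F), (∀ i, w i ∈ W) ∧
      ∀ i j, Cfsg.hermForm n F q (w i) (w j) = if i = j then 1 else 0 := by
  intro k
  induction k with
  | zero =>
    intro W _ _
    exact ⟨fun i => i.elim0, fun i => i.elim0, fun i => i.elim0⟩
  | succ k ih =>
    intro W hk hW
    have hne : W ≠ ⊥ := by
      rintro rfl
      rw [finrank_bot] at hk
      omega
    obtain ⟨v, hvW, hvv⟩ := exists_unit_vector hF W hW hne
    have h1 := finrank_perpIn W v hvW hvv
    obtain ⟨w, hw1, hw2⟩ := ih (perpIn q W v) (by omega) (nondeg_perpIn hF W hW v hvW hvv)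
    refine ⟨Fin.cons v w, ?_, ?_⟩
    · intro i
      refine Fin.cases ?_ (fun j => ?_) i
      · simpa using hvW
      · simpa using ((mem_perpIn W v _).1 (hw1 j)).1
    · intro i j
      refine Fin.cases ?_ (fun i' => ?_) i <;> refine Fin.cases ?_ (fun j' => ?_) j
      · simpa using hvv
      · simp only [Fin.cons_zero, Fin.cons_succ]
        rw [herm_zero_of_zero hF ((mem_perpIn W v _).1 (hw1 j')).2, if_neg (Fin.succ_ne_zero j').symm]
      · simp only [Fin.cons_zero, Fin.cons_succ]
        rw [((mem_perpIn W v _).1 (hw1 i')).2, if_neg (Fin.succ_ne_zero i')]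
      · simp only [Fin.cons_succ]
        rw [hw2 i' j']
        simp only [Fin.succ_inj]

end Cfsg.Agent.Lib.Helper18Unitary
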