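import Mathlib
import Cfsg.Prelude.Def_ChevAutomorphisms
import Cfsg.Prelude.Def_ChevD4
import Cfsg.Prelude.Def_ChevE6
import Cfsg.Prelude.Def_ChevE7
import Cfsg.Prelude.Def_ChevE8

set_option autoImplicit false

namespace Cfsg.Agent.Lib.Helper19AutC7

open Cfsg Cfsg.Lie Cfsg.Lie.ChevalleyDatum

variable {F : Type*} [Field F] {D : ChevalleyDatum}

theorem eq_of_zpow_neg_one {a b : F} (h : a ^ (-1 : ℤ) = b ^ (-1 : ℤ)) : a = b := by
  rw [zpow_neg_one, zpow_neg_one] at h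
  exact inv_injective h

/-- the abstract statement -/
theorem sl_aux (i0 : Fin D.rank)
    (hl : ∀ i : Fin D.rank, D.isLong (D.simple i) = false)
    (hc : ∀ i j : Fin D.rank, i ≠ j → (D.cartan j (D.simple i) = 0 ∧ D.cartan i (D.simple j) = 0) ∨
      (D.cartan j (D.simple i) = -1 ∧ D.cartan i (D.simple j) = -1))
    (hconn : ∀ P : Fin D.rank → Prop, P i0 →
      (∀ i j : Fin D.rank, i ≠ j → D.cartan j (D.simple i) = -1 → P i → P j) → ∀ i, P i)
    (ρ : Equiv.Perm (Fin D.rank)) (hρ : D.IsDiagramSymmetry ρ) (σ : Fin D.rank → (F ≃+* F))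
    (hσ : ∀ (i j : Fin D.rank) (t : F), t ≠ 0 →
      σ i t ^ (D.cartan j (D.simple i)) = σ j t ^ (D.cartan (ρ j) (D.simple (ρ i)))) :
    ∃ σ0 : F ≃+* F, ∀ i t, σ i t = (σ0 t) ^ D.graphExp (ringChar F) i (ρ i) := by
  refine ⟨σ i0, fun i t => ?_⟩
  have hg : D.graphExp (ringChar F) i (ρ i) = 1 := by
    simp [graphExp, hl]
  rw [hg, pow_one]
  revert t
  refine hconn (fun i => ∀ t, σ i t = σ i0 t) (fun _ => rfl) ?_ i
  intro i j hij hc1 hi t
  rw [← hi]
  by_cases ht : t = 0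
  · subst ht; simp
  · have h1 := hσ i j t ht
    have hb := hρ i j hij
    have hc2 : D.cartan i (D.simple j) = -1 := by
      rcases hc i j hij with ⟨h, _⟩ | ⟨_, h⟩
      · rw [h] at hc1; exact absurd hc1 (by norm_num)
      · exact h
    have hc3 : D.cartan (ρ j) (D.simple (ρ i)) = -1 := by
      rcases hc (ρ i) (ρ j) (fun e => hij (ρ.injective e)) with ⟨h, h'⟩ | ⟨h, _⟩
      · unfold bonds at hb
        rw [h, h', hc1, hc2] at hb
        exact absurd hb (by norm_num)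
      · exact h
    rw [hc1, hc3] at h1
    exact (eq_of_zpow_neg_one h1).symm

theorem connD4 (P : Fin chevD4.rank → Prop) (h0 : P ⟨0, by decide⟩)
    (hs : ∀ i j : Fin chevD4.rank, i ≠ j → chevD4.cartan j (chevD4.simple i) = -1 → P i → P j) :
    ∀ i, P i := by
  have h1 := hs ⟨0, by decide⟩ ⟨1, by decide⟩ (by decide) (by decide +kernel) h0
  have h2 := hs ⟨1, by decide⟩ ⟨2, by decide⟩ (by decide) (by decide +kernel) h1
  have h3 := hs ⟨1, by decide⟩ ⟨3, by decide⟩ (by decide) (by decide +kernel) h1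
  have hall : ∀ i : Fin chevD4.rank, i = ⟨0, by decide⟩ ∨ i = ⟨1, by decide⟩ ∨ i = ⟨2, by decide⟩ ∨
    i = ⟨3, by decide⟩ := by decide
  intro i
  rcases hall i with rfl | rfl | rfl | rfl <;> assumption

theorem connE6 (P : Fin chevE6.rank → Prop) (h0 : P ⟨0, by decide⟩)
    (hs : ∀ i j : Fin chevE6.rank, i ≠ j → chevE6.cartan j (chevE6.simple i) = -1 → P i → P j) :
    ∀ i, P i := by
  have h2 := hs ⟨0, by decide⟩ ⟨2, by decide⟩ (by decide) (by decide +kernel) h0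
  have h3 := hs ⟨2, by decide⟩ ⟨3, by decide⟩ (by decide) (by decide +kernel) h2
  have h1 := hs ⟨3, by decide⟩ ⟨1, by decide⟩ (by decide) (by decide +kernel) h3
  have h4 := hs ⟨3, by decide⟩ ⟨4, by decide⟩ (by decide) (by decide +kernel) h3
  have h5 := hs ⟨4, by decide⟩ ⟨5, by decide⟩ (by decide) (by decide +kernel) h4
  have hall : ∀ i : Fin chevE6.rank, i = ⟨0, by decide⟩ ∨ i = ⟨1, by decide⟩ ∨ i = ⟨2, by decide⟩ ∨
    i = ⟨3, by decide⟩ ∨ i = ⟨4, by decide⟩ ∨ i = ⟨5, by decide⟩ := by decide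
  intro i
  rcases hall i with rfl | rfl | rfl | rfl | rfl | rfl <;> assumption

theorem connE7 (P : Fin chevE7.rank → Prop) (h0 : P ⟨0, by decide⟩)
    (hs : ∀ i j : Fin chevE7.rank, i ≠ j → chevE7.cartan j (chevE7.simple i) = -1 → P i → P j) :
    ∀ i, P i := by
  have h2 := hs ⟨0, by decide⟩ ⟨2, by decide⟩ (by decide) (by decide +kernel) h0
  have h3 := hs ⟨2, by decide⟩ ⟨3, by decide⟩ (by decide) (by decide +kernel) h2
  have h1 := hs ⟨3, by decide⟩ ⟨1, by decide⟩ (by decide) (by decide +kernel) h3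
  have h4 := hs ⟨3, by decide⟩ ⟨4, by decide⟩ (by decide) (by decide +kernel) h3
  have h5 := hs ⟨4, by decide⟩ ⟨5, by decide⟩ (by decide) (by decide +kernel) h4
  have h6 := hs ⟨5, by decide⟩ ⟨6, by decide⟩ (by decide) (by decide +kernel) h5
  have hall : ∀ i : Fin chevE7.rank, i = ⟨0, by decide⟩ ∨ i = ⟨1, by decide⟩ ∨ i = ⟨2, by decide⟩ ∨
    i = ⟨3, by decide⟩ ∨ i = ⟨4, by decide⟩ ∨ i = ⟨5, by decide⟩ ∨ i = ⟨6, by decide⟩ := by decide
  intro i
  rcases hall i with rfl | rfl | rfl | rfl | rfl | rfl | rfl <;> assumption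

theorem connE8 (P : Fin chevE8.rank → Prop) (h0 : P ⟨0, by decide⟩)
    (hs : ∀ i j : Fin chevE8.rank, i ≠ j → chevE8.cartan j (chevE8.simple i) = -1 → P i → P j) :
    ∀ i, P i := by
  have h2 := hs ⟨0, by decide⟩ ⟨2, by decide⟩ (by decide) (by decide +kernel) h0
  have h3 := hs ⟨2, by decide⟩ ⟨3, by decide⟩ (by decide) (by decide +kernel) h2
  have h1 := hs ⟨3, by decide⟩ ⟨1, by decide⟩ (by decide) (by decide +kernel) h3
  have h4 := hs ⟨3, by decide⟩ ⟨4, by decide⟩ (by decide) (by decide +kernel) h3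
  have h5 := hs ⟨4, by decide⟩ ⟨5, by decide⟩ (by decide) (by decide +kernel) h4
  have h6 := hs ⟨5, by decide⟩ ⟨6, by decide⟩ (by decide) (by decide +kernel) h5
  have h7 := hs ⟨6, by decide⟩ ⟨7, by decide⟩ (by decide) (by decide +kernel) h6
  have hall : ∀ i : Fin chevE8.rank, i = ⟨0, by decide⟩ ∨ i = ⟨1, by decide⟩ ∨ i = ⟨2, by decide⟩ ∨
    i = ⟨3, by decide⟩ ∨ i = ⟨4, by decide⟩ ∨ i = ⟨5, by decide⟩ ∨ i = ⟨6, by decide⟩ ∨
    i = ⟨7, by decide⟩ := by decide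
  intro i
  rcases hall i with rfl | rfl | rfl | rfl | rfl | rfl | rfl | rfl <;> assumption

/-- C7 : simply laced types -/
theorem common_sigma_sl (hD : D ∈ [chevD4, chevE6, chevE7, chevE8])
    (ρ : Equiv.Perm (Fin D.rank)) (hρ : D.IsDiagramSymmetry ρ) (σ : Fin D.rank → (F ≃+* F))
    (hσ : ∀ (i j : Fin D.rank) (t : F), t ≠ 0 →
      σ i t ^ (D.cartan j (D.simple i)) = σ j t ^ (D.cartan (ρ j) (D.simple (ρ i)))) :
    ∃ σ0 : F ≃+* F, ∀ i t, σ i t = (σ0 t) ^ D.graphExp (ringChar F) i (ρ i) := by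
  simp only [List.mem_cons, List.not_mem_nil, or_false] at hD
  rcases hD with rfl | rfl | rfl | rfl
  · exact sl_aux (D := chevD4) ⟨0, by decide⟩ (by decide +kernel) (by decide +kernel) connD4 ρ hρ σ hσ
  · exact sl_aux (D := chevE6) ⟨0, by decide⟩ (by decide +kernel) (by decide +kernel) connE6 ρ hρ σ hσ
  · exact sl_aux (D := chevE7) ⟨0, by decide⟩ (by decide +kernel) (by decide +kernel) connE7 ρ hρ σ hσ
  · exact sl_aux (D := chevE8) ⟨0, by decide⟩ (by decide +kernel) (by decide +kernel) connE8 ρ hρ σ hσ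

end Cfsg.Agent.Lib.Helper19AutC7
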