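import Mathlib
import Cfsg.Prelude.Def_ChevAutomorphisms
import Cfsg.Prelude.Def_ChevB2
import Cfsg.Prelude.Def_ChevG2

set_option autoImplicit false

namespace Cfsg.Agent.Lib.Helper19AutC8

open Cfsg Cfsg.Lie Cfsg.Lie.ChevalleyDatum

variable {F : Type*} [Field F] {D : ChevalleyDatum}

theorem ringChar_eq_of_prime {p : ℕ} (hp : p.Prime) (h : ((p : ℕ) : F) = 0) : ringChar F = p := by
  have h1 := (ringChar.spec F p).1 h
  rcases (Nat.dvd_prime hp).1 h1 with e | e
  · exact absurd e CharP.ringChar_ne_one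
  · exact e

theorem eq_of_zpow_neg_one {a b : F} (h : a ^ (-1 : ℤ) = b ^ (-1 : ℤ)) : a = b := by
  rw [zpow_neg_one, zpow_neg_one] at h
  exact inv_injective h

theorem eq_pow_of_zpow {a b : F} {k : ℕ} (h : a ^ (-1 : ℤ) = b ^ (-(k : ℤ))) : a = b ^ k := by
  rw [zpow_neg_one, zpow_neg, zpow_natCast] at h
  exact inv_injective h

theorem two_eq_zero_of_sq (σa σb : F ≃+* F) (h : ∀ t, σa t = (σb t) ^ 2) : ((2 : ℕ) : F) = 0 := by
  have h2 := h (1 + 1)
  rw [map_add, map_add, map_one, map_one] at h2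
  push_cast
  linear_combination (-1 : F) * h2

theorem r2_aux (i0 i1 : Fin D.rank) (hall : ∀ i : Fin D.rank, i = i0 ∨ i = i1) (hne : i0 ≠ i1)
    (k : ℕ) (hk : k.Prime)
    (c10 : D.cartan i1 (D.simple i0) = -1) (c01 : D.cartan i0 (D.simple i1) = -(k : ℤ))
    (l0 : D.isLong (D.simple i0) = false) (l1 : D.isLong (D.simple i1) = true)
    (ρ : Equiv.Perm (Fin D.rank)) (σ : Fin D.rank → (F ≃+* F))
    (hσ : ∀ (i j : Fin D.rank) (t : F), t ≠ 0 →
      σ i t ^ (D.cartan j (D.simple i)) = σ j t ^ (D.cartan (ρ j) (D.simple (ρ i))))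
    (hchar : ρ ≠ 1 → (∀ t, σ i0 t = (σ i1 t) ^ k) → ((k : ℕ) : F) = 0) :
    ∃ σ0 : F ≃+* F, ∀ i t, σ i t = (σ0 t) ^ D.graphExp (ringChar F) i (ρ i) := by
  refine ⟨σ i1, ?_⟩
  rcases hall (ρ i0) with h0 | h0
  · have h1 : ρ i1 = i1 := by
      rcases hall (ρ i1) with h1 | h1
      · exact absurd (ρ.injective (h0.trans h1.symm)) hne
      · exact h1
    have e : ∀ t, σ i0 t = σ i1 t := by
      intro t
      by_cases ht : t = 0
      · subst ht; simp
      · have := hσ i0 i1 t ht
        rw [h0, h1, c10] at this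
        exact eq_of_zpow_neg_one this
    intro i t
    rcases hall i with rfl | rfl
    · rw [h0, e]; simp [graphExp, l0]
    · rw [h1]; simp [graphExp, l1]
  · have h1 : ρ i1 = i0 := by
      rcases hall (ρ i1) with h1 | h1
      · exact h1
      · exact absurd (ρ.injective (h0.trans h1.symm)) hne
    have e : ∀ t, σ i0 t = (σ i1 t) ^ k := by
      intro t
      by_cases ht : t = 0
      · subst ht; simp [hk.ne_zero]
      · have := hσ i0 i1 t ht
        rw [h0, h1, c10, c01] at this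
        exact eq_pow_of_zpow this
    have hne1 : ρ ≠ 1 := by
      intro h
      rw [h] at h0
      exact hne h0
    have hc : ringChar F = k := ringChar_eq_of_prime hk (hchar hne1 e)
    intro i t
    rcases hall i with rfl | rfl
    · rw [h0, e, hc]; simp [graphExp, l0, l1]
    · rw [h1]; simp [graphExp, l0]

/-- C8 : types G2, B2 -/
theorem common_sigma_r2 (hD : D ∈ [chevG2, chevB2])
    (ρ : Equiv.Perm (Fin D.rank)) (σ : Fin D.rank → (F ≃+* F))
    (hσ : ∀ (i j : Fin D.rank) (t : F), t ≠ 0 →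
      σ i t ^ (D.cartan j (D.simple i)) = σ j t ^ (D.cartan (ρ j) (D.simple (ρ i))))
    (h3 : D = chevG2 → ρ ≠ 1 → (3 : F) = 0) :
    ∃ σ0 : F ≃+* F, ∀ i t, σ i t = (σ0 t) ^ D.graphExp (ringChar F) i (ρ i) := by
  simp only [List.mem_cons, List.not_mem_nil, or_false] at hD
  rcases hD with rfl | rfl
  · refine r2_aux (D := chevG2) ⟨0, by decide⟩ ⟨1, by decide⟩ (by decide) (by decide) 3 (by norm_num)
      (by decide +kernel) (by decide +kernel) (by decide +kernel) (by decide +kernel) ρ σ hσ ?_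
    intro hne _
    have := h3 rfl hne
    exact_mod_cast this
  · refine r2_aux (D := chevB2) ⟨0, by decide⟩ ⟨1, by decide⟩ (by decide) (by decide) 2 (by norm_num)
      (by decide +kernel) (by decide +kernel) (by decide +kernel) (by decide +kernel) ρ σ hσ ?_
    intro _ h
    exact two_eq_zero_of_sq _ _ h

end Cfsg.Agent.Lib.Helper19AutC8
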