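import Mathlib
import Cfsg.Prelude.Def_ChevAutomorphisms
import Cfsg.Prelude.Def_ChevF4

set_option autoImplicit false

namespace Cfsg.Agent.Lib.Helper19AutC9

open Cfsg Cfsg.Lie Cfsg.Lie.ChevalleyDatum

variable {F : Type*} [Field F]

theorem ringChar_eq_of_prime {p : ℕ} (hp : p.Prime) (h : ((p : ℕ) : F) = 0) : ringChar F = p := by
  have h1 := (ringChar.spec F p).1 h
  rcases (Nat.dvd_prime hp).1 h1 with e | e
  · exact absurd e CharP.ringChar_ne_one
  · exact e

theorem eq_of_zpow_neg_one {a b : F} (h : a ^ (-1 : ℤ) = b ^ (-1 : ℤ)) : a = b := by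
  rw [zpow_neg_one, zpow_neg_one] at h
  exact inv_injective h

theorem eq_pow_of_zpow {a b : F} (h : a ^ (-1 : ℤ) = b ^ (-2 : ℤ)) : a = b ^ 2 := by
  rw [zpow_neg_one, zpow_neg] at h
  have := inv_injective h
  rw [this]
  exact_mod_cast rfl

theorem two_eq_zero_of_sq (σa σb : F ≃+* F) (h : ∀ t, σa t = (σb t) ^ 2) : ((2 : ℕ) : F) = 0 := by
  have h2 := h (1 + 1)
  rw [map_add, map_add, map_one, map_one] at h2
  push_cast
  linear_combination (-1 : F) * h2

theorem sym_cases : ∀ ρ : Equiv.Perm (Fin chevF4.rank), chevF4.IsDiagramSymmetry ρ →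
    (ρ ⟨0, by decide⟩ = ⟨0, by decide⟩ ∧ ρ ⟨1, by decide⟩ = ⟨1, by decide⟩ ∧
      ρ ⟨2, by decide⟩ = ⟨2, by decide⟩ ∧ ρ ⟨3, by decide⟩ = ⟨3, by decide⟩) ∨
    (ρ ⟨0, by decide⟩ = ⟨3, by decide⟩ ∧ ρ ⟨1, by decide⟩ = ⟨2, by decide⟩ ∧
      ρ ⟨2, by decide⟩ = ⟨1, by decide⟩ ∧ ρ ⟨3, by decide⟩ = ⟨0, by decide⟩) := by
  unfold IsDiagramSymmetry
  decide +kernel

theorem all_cases : ∀ i : Fin chevF4.rank, i = ⟨0, by decide⟩ ∨ i = ⟨1, by decide⟩ ∨
    i = ⟨2, by decide⟩ ∨ i = ⟨3, by decide⟩ := by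
  decide

/-- C9 : type F4 -/
theorem common_sigma_f4
    (ρ : Equiv.Perm (Fin chevF4.rank)) (hρ : chevF4.IsDiagramSymmetry ρ) (σ : Fin chevF4.rank → (F ≃+* F))
    (hσ : ∀ (i j : Fin chevF4.rank) (t : F), t ≠ 0 →
      σ i t ^ (chevF4.cartan j (chevF4.simple i)) = σ j t ^ (chevF4.cartan (ρ j) (chevF4.simple (ρ i)))) :
    ∃ σ0 : F ≃+* F, ∀ i t, σ i t = (σ0 t) ^ chevF4.graphExp (ringChar F) i (ρ i) := by
  have l0 : chevF4.isLong (chevF4.simple 0) = false := by decide +kernel
  have l1 : chevF4.isLong (chevF4.simple 1) = false := by decide +kernel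
  have l2 : chevF4.isLong (chevF4.simple 2) = true := by decide +kernel
  have l3 : chevF4.isLong (chevF4.simple 3) = true := by decide +kernel
  have c10 : chevF4.cartan 1 (chevF4.simple 0) = -1 := by decide +kernel
  have c01 : chevF4.cartan 0 (chevF4.simple 1) = -1 := by decide +kernel
  have c21 : chevF4.cartan 2 (chevF4.simple 1) = -1 := by decide +kernel
  have c12 : chevF4.cartan 1 (chevF4.simple 2) = -2 := by decide +kernel
  have c32 : chevF4.cartan 3 (chevF4.simple 2) = -1 := by decide +kernel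
  have c23 : chevF4.cartan 2 (chevF4.simple 3) = -1 := by decide +kernel
  refine ⟨σ ⟨2, by decide⟩, ?_⟩
  rcases sym_cases ρ hρ with ⟨h0, h1, h2, h3⟩ | ⟨h0, h1, h2, h3⟩
  · have e01 : ∀ t, σ ⟨0, by decide⟩ t = σ ⟨1, by decide⟩ t := by
      intro t
      by_cases ht : t = 0
      · subst ht; simp
      · have := hσ ⟨0, by decide⟩ ⟨1, by decide⟩ t ht
        rw [h0, h1] at this
        simp only [c10] at this
        exact eq_of_zpow_neg_one this
    have e12 : ∀ t, σ ⟨1, by decide⟩ t = σ ⟨2, by decide⟩ t := by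
      intro t
      by_cases ht : t = 0
      · subst ht; simp
      · have := hσ ⟨1, by decide⟩ ⟨2, by decide⟩ t ht
        rw [h1, h2] at this
        simp only [c21] at this
        exact eq_of_zpow_neg_one this
    have e23 : ∀ t, σ ⟨2, by decide⟩ t = σ ⟨3, by decide⟩ t := by
      intro t
      by_cases ht : t = 0
      · subst ht; simp
      · have := hσ ⟨2, by decide⟩ ⟨3, by decide⟩ t ht
        rw [h2, h3] at this
        simp only [c32] at this
        exact eq_of_zpow_neg_one this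
    intro i t
    rcases all_cases i with rfl | rfl | rfl | rfl
    · rw [h0, e01, e12]; simp [graphExp, l0]
    · rw [h1, e12]; simp [graphExp, l1]
    · rw [h2]; simp [graphExp, l2]
    · rw [h3, ← e23]; simp [graphExp, l3]
  · have e01 : ∀ t, σ ⟨0, by decide⟩ t = σ ⟨1, by decide⟩ t := by
      intro t
      by_cases ht : t = 0
      · subst ht; simp
      · have := hσ ⟨0, by decide⟩ ⟨1, by decide⟩ t ht
        rw [h0, h1] at this
        simp only [c10, c23] at this
        exact eq_of_zpow_neg_one this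
    have e12 : ∀ t, σ ⟨1, by decide⟩ t = (σ ⟨2, by decide⟩ t) ^ 2 := by
      intro t
      by_cases ht : t = 0
      · subst ht; simp
      · have := hσ ⟨1, by decide⟩ ⟨2, by decide⟩ t ht
        rw [h1, h2] at this
        simp only [c21, c12] at this
        exact eq_pow_of_zpow this
    have e23 : ∀ t, σ ⟨2, by decide⟩ t = σ ⟨3, by decide⟩ t := by
      intro t
      by_cases ht : t = 0
      · subst ht; simp
      · have := hσ ⟨2, by decide⟩ ⟨3, by decide⟩ t ht
        rw [h2, h3] at this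
        simp only [c32, c01] at this
        exact eq_of_zpow_neg_one this
    have hc : ringChar F = 2 := ringChar_eq_of_prime (by norm_num) (two_eq_zero_of_sq _ _ e12)
    intro i t
    rcases all_cases i with rfl | rfl | rfl | rfl
    · rw [h0, e01, e12, hc]; simp [graphExp, l0, l3]
    · rw [h1, e12, hc]; simp [graphExp, l1, l2]
    · rw [h2]; simp [graphExp, l1]
    · rw [h3, ← e23]; simp [graphExp, l0]

end Cfsg.Agent.Lib.Helper19AutC9
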