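import Mathlib

set_option autoImplicit false

namespace Cfsg.Agent.Lib.Helper19BergerGrp

open scoped commutatorElement

variable {G : Type*} [Group G] (H K L : Subgroup G) [hKn : K.Normal] [hLn : L.Normal]

theorem card_mul_relIndex {A B : Subgroup G} (h : A ≤ B) : Nat.card A * A.relIndex B = Nat.card B := by
  have := Subgroup.relIndex_mul_relIndex ⊥ A B bot_le h
  rwa [Subgroup.relIndex_bot_left, Subgroup.relIndex_bot_left] at this

include hKn in
theorem exists_mul_of_sup (hsup : H ⊔ K = ⊤) (g : G) : ∃ h ∈ H, ∃ k ∈ K, g = h * k := by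
  have h1 : g ∈ H ⊔ K := by rw [hsup]; trivial
  rw [← SetLike.mem_coe, Subgroup.mul_normal] at h1
  obtain ⟨h, hh, k, hk, rfl⟩ := Set.mem_mul.1 h1
  exact ⟨h, hh, k, hk, rfl⟩

include hKn in
theorem sup_eq_top (hH : IsCoatom H) (hL : L = H.normalCore) (hLK : L < K) : H ⊔ K = ⊤ := by
  by_contra hne
  have h1 : H = H ⊔ K := by
    by_contra h2
    exact hne (hH.2 _ (lt_of_le_of_ne le_sup_left h2))
  have h3 : K ≤ H := by rw [h1]; exact le_sup_right
  have h4 : K ≤ L := by rw [hL]; exact Subgroup.normal_le_normalCore.2 h3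
  exact absurd hLK (not_lt_of_ge h4)

theorem mk_comm_of_mem (hab : ⁅K, K⁆ ≤ L) {a b : G} (ha : a ∈ K) (hb : b ∈ K) :
    (a : G ⧸ L) * (b : G ⧸ L) = (b : G ⧸ L) * (a : G ⧸ L) := by
  have h1 := (QuotientGroup.eq_one_iff _).2 (hab (Subgroup.commutator_mem_commutator ha hb))
  rw [commutatorElement_def] at h1
  simp only [QuotientGroup.mk_mul, QuotientGroup.mk_inv] at h1
  rw [mul_inv_eq_one, mul_inv_eq_iff_eq_mul] at h1
  exact h1

/-- a subgroup between `L` and `K` that is `H`-invariant is `G`-invariant -/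
theorem invariant_of_H (hsup : H ⊔ K = ⊤) (hab : ⁅K, K⁆ ≤ L) (F : Subgroup G) (hLF : L ≤ F)
    (hFK : F ≤ K) (hF : ∀ h ∈ H, ∀ f ∈ F, h * f * h⁻¹ ∈ F) :
    ∀ t ∈ (⊤ : Subgroup G), ∀ f ∈ F, t * f * t⁻¹ ∈ F := by
  intro t _ f hf
  obtain ⟨h, hh, k, hk, rfl⟩ := exists_mul_of_sup H K hsup t
  have h1 : k * f * k⁻¹ ∈ F := by
    have h2 : k * f * k⁻¹ = (k * f * k⁻¹ * f⁻¹) * f := by group
    rw [h2]
    exact F.mul_mem (hLF (hab (Subgroup.commutator_mem_commutator hk (hFK hf)))) hf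
  have h3 : h * k * f * (h * k)⁻¹ = h * (k * f * k⁻¹) * h⁻¹ := by group
  rw [h3]
  exact hF h hh _ h1

theorem inf_eq (hH : IsCoatom H) (hL : L = H.normalCore) (hLK : L < K) (hab : ⁅K, K⁆ ≤ L)
    (hchief : ∀ M' : Subgroup G, L ≤ M' → M' ≤ K →
      (∀ t ∈ (⊤ : Subgroup G), ∀ m ∈ M', t * m * t⁻¹ ∈ M') → M' = L ∨ M' = K) : K ⊓ H = L := by
  have hsup := sup_eq_top H K L hH hL hLK
  have hLH : L ≤ H := by rw [hL]; exact H.normalCore_le
  rcases hchief (K ⊓ H) (le_inf hLK.le hLH) inf_le_left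
    (invariant_of_H H K L hsup hab _ (le_inf hLK.le hLH) inf_le_left (by
      rintro h hh f ⟨hf1, hf2⟩
      exact ⟨hKn.conj_mem f hf1 h, H.mul_mem (H.mul_mem hh hf2) (H.inv_mem hh)⟩)) with h | h
  · exact h
  · exfalso
    have h3 : K ≤ H := by rw [← h]; exact inf_le_right
    have h4 : K ≤ L := by rw [hL]; exact Subgroup.normal_le_normalCore.2 h3
    exact absurd hLK (not_lt_of_ge h4)

include hKn in
theorem card_eq [Finite G] (hsup : H ⊔ K = ⊤) (hinf : K ⊓ H = L) :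
    Nat.card G * Nat.card L = Nat.card H * Nat.card K := by
  have h1 : K.relIndex (H ⊔ K) = K.relIndex H := Subgroup.relIndex_sup_right H K
  rw [hsup, Subgroup.relIndex_top_right, ← Subgroup.inf_relIndex_right, hinf] at h1
  have hLH : L ≤ H := by rw [← hinf]; exact inf_le_right
  have h2 := card_mul_relIndex hLH
  have h3 := K.card_mul_index
  rw [← h3, ← h2, h1]
  ring

/-- The centralizer in `H` of `K / L` is contained in the core `L`. -/
theorem le_of_centralizes (hL : L = H.normalCore) (hsup : H ⊔ K = ⊤) (Q : Subgroup G) (hQH : Q ≤ H)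
    (hQ : ∀ x ∈ Q, ∀ k ∈ K, x * k * x⁻¹ * k⁻¹ ∈ L) : Q ≤ L := by
  have hLH : L ≤ H := by rw [hL]; exact H.normalCore_le
  haveI : (K.map (QuotientGroup.mk' L)).Normal := hKn.map _ (QuotientGroup.mk'_surjective L)
  obtain ⟨CK, hCK⟩ : ∃ CK : Subgroup G, CK = (Subgroup.centralizer
    (K.map (QuotientGroup.mk' L) : Set (G ⧸ L))).comap (QuotientGroup.mk' L) := ⟨_, rfl⟩
  haveI hCKn : CK.Normal := by rw [hCK]; infer_instance
  have hmem : ∀ g : G, g ∈ CK ↔ ∀ k ∈ K, g * k * g⁻¹ * k⁻¹ ∈ L := by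
    intro g
    rw [hCK, Subgroup.mem_comap, Subgroup.mem_centralizer_iff]
    constructor
    · intro h k hk
      have h1 := h _ ⟨k, hk, rfl⟩
      rw [← QuotientGroup.eq_one_iff]
      simp only [QuotientGroup.mk_mul, QuotientGroup.mk_inv]
      rw [mul_inv_eq_one, mul_inv_eq_iff_eq_mul]
      exact h1.symm
    · rintro h _ ⟨k, hk, rfl⟩
      have h1 := (QuotientGroup.eq_one_iff _).2 (h k hk)
      simp only [QuotientGroup.mk_mul, QuotientGroup.mk_inv] at h1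
      rw [mul_inv_eq_one, mul_inv_eq_iff_eq_mul] at h1
      exact h1.symm
  haveI : (H ⊓ CK).Normal := by
    constructor
    rintro c ⟨hc1, hc2⟩ g
    refine ⟨?_, hCKn.conj_mem c hc2 g⟩
    obtain ⟨h, hh, k, hk, rfl⟩ := exists_mul_of_sup H K hsup g
    have h1 : k * c * k⁻¹ ∈ H := by
      have h2 : k * c * k⁻¹ = (c * k * c⁻¹ * k⁻¹)⁻¹ * c := by group
      rw [h2]
      exact H.mul_mem (H.inv_mem (hLH ((hmem c).1 hc2 k hk))) hc1
    have h3 : h * k * c * (h * k)⁻¹ = h * (k * c * k⁻¹) * h⁻¹ := by group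
    rw [h3]
    exact H.mul_mem (H.mul_mem hh h1) (H.inv_mem hh)
  have h5 : H ⊓ CK ≤ L := by rw [hL]; exact Subgroup.normal_le_normalCore.2 inf_le_left
  intro x hx
  exact h5 ⟨hQH hx, (hmem x).2 (hQ x hx)⟩

/-- `O_p(H / L)` centralizes the `p`-chief factor `K / L`. -/
theorem centralizes_of_pgroup [Finite G] (p : ℕ) [Fact p.Prime] (hsup : H ⊔ K = ⊤) (hLK : L < K)
    (hab : ⁅K, K⁆ ≤ L)
    (hchief : ∀ M' : Subgroup G, L ≤ M' → M' ≤ K →
      (∀ t ∈ (⊤ : Subgroup G), ∀ m ∈ M', t * m * t⁻¹ ∈ M') → M' = L ∨ M' = K)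
    (k : ℕ) (hk : L.relIndex K = p ^ k) (Q : Subgroup G)
    (hQinv : ∀ h ∈ H, ∀ x ∈ Q, h * x * h⁻¹ ∈ Q) (b : ℕ) (hb : L.relIndex Q = p ^ b) :
    ∀ x ∈ Q, ∀ k ∈ K, x * k * x⁻¹ * k⁻¹ ∈ L := by
  haveI hKbn : (K.map (QuotientGroup.mk' L)).Normal := hKn.map _ (QuotientGroup.mk'_surjective L)
  have hcardK : Nat.card (K.map (QuotientGroup.mk' L)) = p ^ k := by
    rw [← hk, ← Subgroup.relIndex_ker, QuotientGroup.ker_mk']
  have hcardQ : Nat.card (Q.map (QuotientGroup.mk' L)) = p ^ b := by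
    rw [← hb, ← Subgroup.relIndex_ker, QuotientGroup.ker_mk']
  have hQp : IsPGroup p (Q.map (QuotientGroup.mk' L)) := IsPGroup.of_card hcardQ
  have hk0 : k ≠ 0 := by
    rintro rfl
    rw [pow_zero, Subgroup.relIndex_eq_one] at hk
    exact absurd hLK (not_lt_of_ge hk)
  letI : MulAction (Q.map (QuotientGroup.mk' L)) (K.map (QuotientGroup.mk' L)) :=
    MulAction.compHom _ ((MulAut.conjNormal (H := K.map (QuotientGroup.mk' L))).comp
      (Q.map (QuotientGroup.mk' L)).subtype)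
  have hsmul : ∀ (x : Q.map (QuotientGroup.mk' L)) (y : K.map (QuotientGroup.mk' L)),
      ((x • y : K.map (QuotientGroup.mk' L)) : G ⧸ L) = (x : G ⧸ L) * y * (x : G ⧸ L)⁻¹ := by
    intro x y
    exact MulAut.conjNormal_apply (x : G ⧸ L) y
  obtain ⟨y, hy, hy1⟩ := hQp.exists_fixed_point_of_prime_dvd_card_of_fixed_point
    (K.map (QuotientGroup.mk' L)) (by rw [hcardK]; exact dvd_pow_self p hk0) (a := 1) (by
      intro x
      apply Subtype.ext
      rw [hsmul]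
      simp)
  obtain ⟨F, hF⟩ : ∃ F : Subgroup G, F = K ⊓ (Subgroup.centralizer
    (Q.map (QuotientGroup.mk' L) : Set (G ⧸ L))).comap (QuotientGroup.mk' L) := ⟨_, rfl⟩
  have hmem : ∀ f : G, f ∈ F ↔ f ∈ K ∧ ∀ x ∈ Q, (x : G ⧸ L) * (f : G ⧸ L) = (f : G ⧸ L) * (x : G ⧸ L) := by
    intro f
    rw [hF, Subgroup.mem_inf, Subgroup.mem_comap, Subgroup.mem_centralizer_iff]
    constructor
    · rintro ⟨h1, h2⟩
      exact ⟨h1, fun x hx => h2 _ ⟨x, hx, rfl⟩⟩
    · rintro ⟨h1, h2⟩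
      refine ⟨h1, ?_⟩
      rintro _ ⟨x, hx, rfl⟩
      exact h2 x hx
  have hLF : L ≤ F := by
    intro l hl
    rw [hmem]
    refine ⟨hLK.le hl, fun x _ => ?_⟩
    rw [(QuotientGroup.eq_one_iff l).2 hl, mul_one, one_mul]
  have hFK : F ≤ K := by rw [hF]; exact inf_le_left
  have hFH : ∀ h ∈ H, ∀ f ∈ F, h * f * h⁻¹ ∈ F := by
    intro h hh f hf
    rw [hmem] at hf ⊢
    refine ⟨hKn.conj_mem f hf.1 h, fun x hx => ?_⟩
    have h1 := hf.2 (h⁻¹ * x * h⁻¹⁻¹) (hQinv h⁻¹ (H.inv_mem hh) x hx)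
    simp only [QuotientGroup.mk_mul, QuotientGroup.mk_inv, inv_inv] at h1 ⊢
    calc (x : G ⧸ L) * ((h : G ⧸ L) * f * (h : G ⧸ L)⁻¹)
        = (h : G ⧸ L) * (((h : G ⧸ L)⁻¹ * x * h) * f) * (h : G ⧸ L)⁻¹ := by group
      _ = (h : G ⧸ L) * (f * ((h : G ⧸ L)⁻¹ * x * h)) * (h : G ⧸ L)⁻¹ := by rw [h1]
      _ = _ := by group
  have hFtop : F = K := by
    rcases hchief F hLF hFK (invariant_of_H H K L hsup hab F hLF hFK hFH) with h | h
    · exfalso
      obtain ⟨k₀, hk₀, hk₀y⟩ := y.2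
      have h1 : k₀ ∈ F := by
        rw [hmem]
        refine ⟨hk₀, fun x hx => ?_⟩
        have h2 := congrArg Subtype.val (hy ⟨QuotientGroup.mk' L x, ⟨x, hx, rfl⟩⟩)
        rw [hsmul, ← hk₀y, mul_inv_eq_iff_eq_mul] at h2
        exact h2
      rw [h] at h1
      apply hy1
      apply Subtype.ext
      rw [← hk₀y]
      exact ((QuotientGroup.eq_one_iff k₀).2 h1).symm
    · exact h
  intro x hx k' hk'
  have h1 : k' ∈ F := by rw [hFtop]; exact hk'
  have h2 := ((hmem k').1 h1).2 x hx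
  rw [← QuotientGroup.eq_one_iff]
  simp only [QuotientGroup.mk_mul, QuotientGroup.mk_inv]
  rw [h2]
  group

end Cfsg.Agent.Lib.Helper19BergerGrp
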