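import Mathlib
import Cfsg.Agent.Lib.Helper92HHDefs
import Cfsg.Agent.Lib.H92HHKey

set_option autoImplicit false

namespace Cfsg.Agent.Lib.Helper19ItoA

open Polynomial Cfsg.Agent.Lib.Helper92HHDefs

theorem le_finrank_of_minDegOn {V : Type*} [AddCommGroup V] [Module ℂ V] [FiniteDimensional ℂ V]
    (X : Module.End ℂ V) (s : ℕ) (h : minDegOn X ⊤ s) : s ≤ Module.finrank ℂ V := by
  have h1 := h X.charpoly (LinearMap.charpoly_monic X).ne_zero (by
    intro u _
    rw [LinearMap.aeval_self_charpoly]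
    rfl)
  rwa [LinearMap.charpoly_natDegree] at h1

theorem lemA0 {V : Type*} [AddCommGroup V] [Module ℂ V] [FiniteDimensional ℂ V] (p q : ℕ)
    [Fact p.Prime] [Fact q.Prime] (hpq : p ≠ q) (Q : Subgroup (Module.End ℂ V)ˣ) [Finite Q]
    (hQ : IsPGroup q Q) (Y : (Module.End ℂ V)ˣ) (hn : ∀ u ∈ Q, Y * u * Y⁻¹ ∈ Q) (l : ℂ)
    (hl : ((Y ^ p : (Module.End ℂ V)ˣ) : Module.End ℂ V) = l • 1)
    (hne : ∃ u ∈ Q, ¬ Commute Y u) :
    p - 1 ≤ Module.finrank ℂ V ∧
      (Module.finrank ℂ V ≤ p - 1 → ∃ m, 1 ≤ m ∧ p - 1 = q ^ m) := by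
  have hp : p.Prime := Fact.out
  have hq : q.Prime := Fact.out
  have hl0 : l ≠ 0 := by
    intro h0
    rw [h0, zero_smul] at hl
    have h1 : (1 : Module.End ℂ V) = 0 := by
      have := (Y ^ p).inv_mul
      rw [hl, mul_zero] at this
      exact this.symm
    obtain ⟨u, -, hu⟩ := hne
    apply hu
    apply Units.ext
    have hs : ∀ a b : Module.End ℂ V, a = b := by
      intro a b
      rw [← mul_one a, ← mul_one b, h1, mul_zero, mul_zero]
    exact hs _ _
  obtain ⟨μ, hμ⟩ := IsAlgClosed.exists_pow_nat_eq (l⁻¹) hp.pos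
  have hμ0 : μ ≠ 0 := by
    intro h0
    rw [h0, zero_pow hp.pos.ne'] at hμ
    exact inv_ne_zero hl0 hμ.symm
  set c : (Module.End ℂ V)ˣ :=
    Units.map (algebraMap ℂ (Module.End ℂ V)).toMonoidHom (Units.mk0 μ hμ0) with hc
  have hcc : ∀ g : (Module.End ℂ V)ˣ, Commute c g := by
    intro g
    apply Units.ext
    exact Algebra.commutes μ (g : Module.End ℂ V)
  set X := c * Y with hX
  have hXp : X ^ p ^ 1 = 1 := by
    rw [pow_one, hX, (hcc Y).mul_pow]
    apply Units.ext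
    rw [Units.val_mul, hl, Units.val_pow_eq_pow_val]
    change (algebraMap ℂ (Module.End ℂ V) μ) ^ p * _ = 1
    rw [← map_pow, hμ, Algebra.algebraMap_eq_smul_one, smul_mul_smul_comm, inv_mul_cancel₀ hl0,
      one_smul, one_mul]
  have hconj : ∀ u : (Module.End ℂ V)ˣ, X * u * X⁻¹ = Y * u * Y⁻¹ := by
    intro u
    rw [hX, mul_inv_rev]
    have h1 : c * Y * u * (Y⁻¹ * c⁻¹) = c * (Y * u * Y⁻¹) * c⁻¹ := by group
    rw [h1, (hcc _).eq, mul_assoc, mul_inv_cancel, mul_one]
  have hkey := H92HHKey.key p q 1 hpq (by exact_mod_cast hq.ne_zero) Q hQ X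
    (fun u hu => by rw [hconj]; exact hn u hu) hXp le_rfl (by
      obtain ⟨u, hu, hnc⟩ := hne
      refine ⟨u, hu, fun h => hnc ?_⟩
      rw [Nat.sub_self, pow_zero, pow_one] at h
      have h2 : X * u * X⁻¹ = u := by rw [h.eq, mul_assoc, mul_inv_cancel, mul_one]
      rw [hconj] at h2
      have : Y * u = u * Y := by
        calc Y * u = (Y * u * Y⁻¹) * Y := by group
          _ = u * Y := by rw [h2]
      exact this)
  have hp2 := hp.two_le
  rcases hkey with h | ⟨-, n₀, m, h1, h2, h3, h4, h5⟩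
  · have := le_finrank_of_minDegOn _ _ h
    rw [pow_one] at this
    exact ⟨by omega, fun h' => by omega⟩
  · have hn0 : n₀ = 1 := by omega
    subst hn0
    have := le_finrank_of_minDegOn _ _ h5
    rw [Nat.sub_self, pow_zero, one_mul, pow_one] at this
    rw [pow_one] at h4
    exact ⟨this, fun _ => ⟨m, h3, h4⟩⟩

theorem lemA1 {V : Type*} [AddCommGroup V] [Module ℂ V] [FiniteDimensional ℂ V] (p q : ℕ)
    [Fact p.Prime] [Fact q.Prime] (hpq : p ≠ q) (Q : Subgroup (Module.End ℂ V)ˣ) [Finite Q]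
    (hQ : IsPGroup q Q) (Y : (Module.End ℂ V)ˣ) (hn : ∀ u ∈ Q, Y * u * Y⁻¹ ∈ Q) (N : ℕ)
    (hN : 0 < N) (hYN : Y ^ N = 1) (hc : ∀ u ∈ Q, Commute (Y ^ p) u)
    (hne : ∃ u ∈ Q, ¬ Commute Y u) :
    p - 1 ≤ Module.finrank ℂ V ∧
      (Module.finrank ℂ V ≤ p - 1 → ∃ m, 1 ≤ m ∧ p - 1 = q ^ m) := by
  classical
  set Z : Module.End ℂ V := ((Y ^ p : (Module.End ℂ V)ˣ) : Module.End ℂ V) with hZ
  have hZN : Z ^ N = 1 := by
    rw [hZ, ← Units.val_pow_eq_pow_val, ← pow_mul, mul_comm, pow_mul, hYN, one_pow, Units.val_one]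
  have hss : Z.IsSemisimple := by
    apply Module.End.isSemisimple_of_squarefree_aeval_eq_zero (p := (X ^ N - 1 : ℂ[X]))
    · apply Separable.squarefree
      rw [X_pow_sub_one_separable_iff]
      exact_mod_cast hN.ne'
    · simp [hZN]
  have htop := hss.iSup_eigenspace_eq_top
  obtain ⟨u, hu, hnc⟩ := hne
  set D : Module.End ℂ V := (Y : Module.End ℂ V) * u - u * Y with hD
  have hD0 : D ≠ 0 := by
    intro h0
    apply hnc
    apply Units.ext
    rw [Units.val_mul, Units.val_mul]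
    exact sub_eq_zero.1 h0
  obtain ⟨μ, w0, hw0, hDw0⟩ : ∃ μ : ℂ, ∃ w ∈ Z.eigenspace μ, D w ≠ 0 := by
    by_contra hcon
    push Not at hcon
    apply hD0
    have h1 : (⨆ μ : ℂ, Z.eigenspace μ) ≤ LinearMap.ker D :=
      iSup_le (fun μ w hw => LinearMap.mem_ker.2 (hcon μ w hw))
    rw [htop] at h1
    ext v
    exact LinearMap.mem_ker.1 (h1 Submodule.mem_top)
  set W := Z.eigenspace μ with hW
  set C : Subgroup (Module.End ℂ V)ˣ := Subgroup.centralizer {Y ^ p} with hC
  have hinv : ∀ g : C, ∀ w ∈ W, ((g : (Module.End ℂ V)ˣ) : Module.End ℂ V) w ∈ W := by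
    intro g w hw
    rw [hW, Module.End.mem_eigenspace_iff] at hw ⊢
    have h1 := Subgroup.mem_centralizer_singleton_iff.1 g.2
    have h2 : Z * ((g : (Module.End ℂ V)ˣ) : Module.End ℂ V)
        = ((g : (Module.End ℂ V)ˣ) : Module.End ℂ V) * Z := by
      rw [hZ, ← Units.val_mul, ← Units.val_mul, h1]
    have h3 := LinearMap.congr_fun h2 w
    rw [Module.End.mul_apply, Module.End.mul_apply, hw, map_smul] at h3
    exact h3
  let r0 : C →* Module.End ℂ W :=
    { toFun := fun g => (((g : (Module.End ℂ V)ˣ) : Module.End ℂ V)).restrict (hinv g)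
      map_one' := by
        ext w
        simp
      map_mul' := by
        intro a b
        ext w
        simp }
  let r : C →* (Module.End ℂ W)ˣ := r0.toHomUnits
  have hr : ∀ (g : C) (w : W), (((r g : (Module.End ℂ W)ˣ) : Module.End ℂ W) w : V)
      = ((g : (Module.End ℂ V)ˣ) : Module.End ℂ V) w := fun g w => rfl
  have hYC : Y ∈ C := by
    rw [hC, Subgroup.mem_centralizer_singleton_iff]
    exact ((Commute.refl Y).pow_right p).eq
  have hQC : Q ≤ C := by
    intro v hv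
    rw [hC, Subgroup.mem_centralizer_singleton_iff]
    exact (hc v hv).eq.symm
  have hfin : Finite ↥((Q.subgroupOf C).map r) := by
    have : Finite ↥(Q.subgroupOf C) :=
      Finite.of_injective (fun x => (⟨x.1.1, x.2⟩ : Q)) (by
        intro a b h
        have := congrArg Subtype.val h
        exact Subtype.ext (Subtype.ext this))
    have hs : (r '' ((Q.subgroupOf C : Subgroup C) : Set C)).Finite :=
      (Set.toFinite _).image r
    exact hs.to_subtype
  have hA0 := lemA0 p q hpq ((Q.subgroupOf C).map r) ((hQ.comap_subtype).map r) (r ⟨Y, hYC⟩)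
    (by
      rintro _ ⟨a, ha, rfl⟩
      refine ⟨⟨Y, hYC⟩ * a * (⟨Y, hYC⟩ : C)⁻¹, ?_, by simp⟩
      rw [SetLike.mem_coe, Subgroup.mem_subgroupOf] at ha ⊢
      exact hn _ ha) μ
    (by
      ext w
      rw [← map_pow, hr]
      have := Module.End.mem_eigenspace_iff.1 w.2
      rw [hZ, Units.val_pow_eq_pow_val] at this
      simpa using this)
    ⟨r ⟨u, hQC hu⟩, ⟨⟨u, hQC hu⟩, by rw [SetLike.mem_coe, Subgroup.mem_subgroupOf]; exact hu, rfl⟩,
      fun hcom => hDw0 (by
        have h1 := congrArg (fun t : (Module.End ℂ W)ˣ => (((t : Module.End ℂ W) ⟨w0, hw0⟩ : W) : V))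
          hcom.eq
        simp only [Units.val_mul, Module.End.mul_apply, hr] at h1
        rw [hD, LinearMap.sub_apply, Module.End.mul_apply, Module.End.mul_apply, sub_eq_zero]
        exact h1)⟩
  have hle : Module.finrank ℂ W ≤ Module.finrank ℂ V := Submodule.finrank_le W
  exact ⟨hA0.1.trans hle, fun h => hA0.2 (hle.trans h)⟩

end Cfsg.Agent.Lib.Helper19ItoA
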