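import Mathlib
import Cfsg.Agent.Lib.H92HHPsol
import Cfsg.Agent.Lib.Helper14PSolvQ
import Cfsg.Agent.Lib.Helper40Cores

set_option autoImplicit false

namespace Cfsg.Agent.Lib.Helper19ItoG

open Cfsg.Agent.Lib

open scoped Pointwise in
/-- lifting a `q`-subgroup normalised by an element through a normal `p`-subgroup. -/
theorem lift_cfg {G : Type*} [Group G] [Finite G] (q : ℕ) [Fact q.Prime]
    (R : Subgroup G) [R.Normal] (Qb : Subgroup (G ⧸ R))
    (hQb : IsPGroup q Qb) (x : G)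
    (hx : ∀ u ∈ Qb, (x : G ⧸ R) * u * (x : G ⧸ R)⁻¹ ∈ Qb) :
    ∃ (Q : Subgroup G) (y : G), IsPGroup q Q ∧ (∀ u ∈ Q, y * u * y⁻¹ ∈ Q) ∧
      (y : G ⧸ R) = (x : G ⧸ R) ∧ (∀ u ∈ Q, (u : G ⧸ R) ∈ Qb) ∧
      (∀ v ∈ Qb, ∃ u ∈ Q, (u : G ⧸ R) = v) := by
  classical
  set π := QuotientGroup.mk' R with hπ
  set M := Qb.comap π with hM
  obtain ⟨S⟩ : Nonempty (Sylow q M) := inferInstance
  have hxM : ∀ m ∈ M, x * m * x⁻¹ ∈ M := by
    intro m hm
    rw [hM, Subgroup.mem_comap] at hm ⊢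
    rw [map_mul, map_mul, map_inv]
    exact hx _ hm
  have hxM' : ∀ m ∈ M, x⁻¹ * m * x ∈ M := by
    intro m hm
    -- conjugation by `x` is an injective self-map of the finite set `M`
    have hinj : Function.Injective (fun m : M => (⟨x * m * x⁻¹, hxM m m.2⟩ : M)) := by
      intro a b h
      have := congrArg Subtype.val h
      simp only [mul_left_inj, mul_right_inj] at this
      exact Subtype.ext this
    obtain ⟨a, ha⟩ := (Finite.injective_iff_surjective.1 hinj) ⟨m, hm⟩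
    have h1 : x * a * x⁻¹ = m := congrArg Subtype.val ha
    rw [← h1]
    have : x⁻¹ * (x * a * x⁻¹) * x = a := by group
    rw [this]
    exact a.2
  let φ : MulAut M :=
    { toFun := fun m => ⟨x * m * x⁻¹, hxM m m.2⟩
      invFun := fun m => ⟨x⁻¹ * m * x, hxM' m m.2⟩
      left_inv := by
        intro m
        apply Subtype.ext
        simp only
        group
      right_inv := by
        intro m
        apply Subtype.ext
        simp only
        group
      map_mul' := by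
        intro a b
        apply Subtype.ext
        simp only [Subgroup.coe_mul]
        group }
  obtain ⟨m, hm⟩ := MulAction.exists_smul_eq M S (φ • S)
  -- the restriction of `π`
  let f : M →* Qb := (π.comp M.subtype).codRestrict Qb (fun a => a.2)
  have hf : Function.Surjective f := by
    rintro ⟨v, hv⟩
    obtain ⟨g, rfl⟩ := QuotientGroup.mk'_surjective R v
    exact ⟨⟨g, hv⟩, rfl⟩
  have htop : ((S : Subgroup M).map f) = ⊤ := by
    have h1 := (S.mapSurjective hf).is_maximal' (hQb.to_subgroup ⊤) le_top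
    rw [Sylow.coe_mapSurjective] at h1
    exact h1.symm
  have hsurj : ∀ v ∈ Qb, ∃ s : M, s ∈ S ∧ π s = v := by
    intro v hv
    have h1 : (⟨v, hv⟩ : Qb) ∈ (S : Subgroup M).map f := by rw [htop]; trivial
    obtain ⟨s, hs, hs'⟩ := h1
    exact ⟨s, hs, congrArg Subtype.val hs'⟩
  obtain ⟨s, hs, hsm⟩ := hsurj (π m) m.2
  refine ⟨(S : Subgroup M).map M.subtype, (s : G) * (m : G)⁻¹ * x, S.2.map _, ?_, ?_, ?_, ?_⟩
  · rintro _ ⟨u, hu, rfl⟩
    have h1 : φ u ∈ φ • S := by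
      rw [← SetLike.mem_coe, ← Sylow.coe_coe, Sylow.pointwise_smul_def]
      exact Subgroup.smul_mem_pointwise_smul _ _ _ hu
    rw [← hm, ← SetLike.mem_coe, ← Sylow.coe_coe, Sylow.coe_subgroup_smul] at h1
    obtain ⟨v, hv, hv'⟩ := h1
    have h2 : (m : G) * v * (m : G)⁻¹ = x * u * x⁻¹ := congrArg Subtype.val hv'
    refine ⟨s * v * s⁻¹, (S : Subgroup M).mul_mem ((S : Subgroup M).mul_mem hs hv)
      ((S : Subgroup M).inv_mem hs), ?_⟩
    simp only [Subgroup.coe_subtype, Subgroup.coe_mul, Subgroup.coe_inv]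
    have h3 : (s : G) * (m : G)⁻¹ * x * u * ((s : G) * (m : G)⁻¹ * x)⁻¹
        = (s : G) * (m : G)⁻¹ * (x * u * x⁻¹) * (m : G) * (s : G)⁻¹ := by group
    rw [h3, ← h2]
    group
  · change π _ = π x
    rw [map_mul, map_mul, map_inv, hsm, mul_inv_cancel, one_mul]
  · rintro _ ⟨u, -, rfl⟩
    exact u.2
  · intro v hv
    obtain ⟨t, ht, ht'⟩ := hsurj v hv
    exact ⟨t, ⟨t, ht, rfl⟩, ht'⟩

theorem conj_pow_mem {G : Type*} [Group G] (Q : Subgroup G) (y : G)
    (h : ∀ u ∈ Q, y * u * y⁻¹ ∈ Q) (k : ℕ) : ∀ u ∈ Q, y ^ k * u * (y ^ k)⁻¹ ∈ Q := by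
  induction k with
  | zero => intro u hu; simpa using hu
  | succ k ih =>
    intro u hu
    have h1 := h _ (ih u hu)
    have h2 : y ^ (k + 1) * u * (y ^ (k + 1))⁻¹ = y * (y ^ k * u * (y ^ k)⁻¹) * y⁻¹ := by
      rw [pow_succ']
      group
    rw [h2]
    exact h1

/-- a `p`-solvable group whose Sylow `p`-subgroup is not normal contains a `q`-subgroup `Q`
(`q ≠ p`) normalised but not centralised by an element `y` with `y ^ p` centralising `Q`. -/
theorem exists_cfg {G : Type*} [Group G] [Finite G] (p : ℕ) [Fact p.Prime]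
    (hsolv : Cfsg.IsPSolvable p G) (P : Sylow p G) (hP : ¬ (P : Subgroup G).Normal) :
    ∃ (q : ℕ) (Q : Subgroup G) (y : G), q.Prime ∧ q ≠ p ∧ IsPGroup q Q ∧
      (∀ u ∈ Q, y * u * y⁻¹ ∈ Q) ∧ (∀ u ∈ Q, Commute (y ^ p) u) ∧ (∃ u ∈ Q, ¬ Commute y u) := by
  classical
  have hp : p.Prime := Fact.out
  set R := Cfsg.pCore p G with hR
  have hRn : R.Normal := Helper40Cores.pCore_normal
  have hRp : IsPGroup p R := Helper40Cores.pCore_isPGroup
  set π := QuotientGroup.mk' R with hπ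
  have hsolv' : Cfsg.IsPSolvable p (G ⧸ R) := Helper14PSolvQ.isPSolvable_quotient R hsolv
  have hker : IsPGroup p π.ker := by
    rw [hπ, QuotientGroup.ker_mk']
    exact hRp
  have hOp : Cfsg.pCore p (G ⧸ R) = ⊥ := by
    have h1 : (Cfsg.pCore p (G ⧸ R)).comap π ≤ R :=
      Helper40Cores.le_pCore ((Helper40Cores.pCore_normal).comap π)
        ((Helper40Cores.pCore_isPGroup).comap_of_ker_isPGroup π hker)
    rw [eq_bot_iff]
    intro v hv
    obtain ⟨g, rfl⟩ := QuotientGroup.mk'_surjective R v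
    have h2 : g ∈ R := h1 hv
    rw [Subgroup.mem_bot]
    exact (QuotientGroup.eq_one_iff g).2 h2
  obtain ⟨g, hgP, hgR⟩ : ∃ g ∈ (P : Subgroup G), g ∉ R := by
    by_contra hcon
    push Not at hcon
    apply hP
    have : (P : Subgroup G) = R := le_antisymm hcon (Helper40Cores.pCore_le_sylow P)
    rw [this]
    exact hRn
  obtain ⟨j, hj⟩ := P.2 ⟨g, hgP⟩
  have hj' : g ^ p ^ j = 1 := congrArg Subtype.val hj
  have hord : orderOf (π g) ∣ p ^ j := by
    apply orderOf_dvd_of_pow_eq_one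
    rw [← map_pow, hj', map_one]
  obtain ⟨k, -, hk⟩ := (Nat.dvd_prime_pow hp).1 hord
  have hk1 : 1 ≤ k := by
    rcases Nat.eq_zero_or_pos k with h0 | h0
    · exfalso
      rw [h0, pow_zero, orderOf_eq_one_iff] at hk
      exact hgR ((QuotientGroup.eq_one_iff g).1 hk)
    · exact h0
  obtain ⟨q, Qb, hq, hqp, hQb, hnorm, ub, hub, hnc⟩ :=
    H92HHPsol.exists_q p hsolv' hOp (π g) k hk1 hk
  have : Fact q.Prime := ⟨hq⟩
  obtain ⟨Q, y, hQ, hy, hyx, hQQb, hsurj⟩ := lift_cfg q R Qb hQb (g ^ p ^ (k - 1)) (by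
    intro u hu
    exact conj_pow_mem Qb (π g) hnorm (p ^ (k - 1)) u hu)
  have hyx' : π y = π g ^ p ^ (k - 1) := hyx
  have hypR : y ^ p ∈ R := by
    rw [← QuotientGroup.eq_one_iff]
    change π (y ^ p) = 1
    rw [map_pow, hyx', ← pow_mul, ← pow_succ, Nat.sub_add_cancel hk1, ← hk, pow_orderOf_eq_one]
  have hdisj : Disjoint R Q := IsPGroup.disjoint_of_ne p q hqp.symm R Q hRp hQ
  refine ⟨q, Q, y, hq, hqp, hQ, hy, ?_, ?_⟩
  · intro u hu
    have h1 : y ^ p * u * (y ^ p)⁻¹ * u⁻¹ ∈ Q := Q.mul_mem (conj_pow_mem Q y hy p u hu) (Q.inv_mem hu)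
    have h2 : y ^ p * u * (y ^ p)⁻¹ * u⁻¹ ∈ R := by
      have : y ^ p * u * (y ^ p)⁻¹ * u⁻¹ = y ^ p * (u * (y ^ p)⁻¹ * u⁻¹) := by group
      rw [this]
      exact R.mul_mem hypR (hRn.conj_mem _ (R.inv_mem hypR) u)
    have h3 := Subgroup.disjoint_def.1 hdisj h2 h1
    have : y ^ p * u = u * y ^ p := by
      calc y ^ p * u = (y ^ p * u * (y ^ p)⁻¹ * u⁻¹) * (u * y ^ p) := by group
        _ = u * y ^ p := by rw [h3, one_mul]
    exact this
  · obtain ⟨u, hu, huv⟩ := hsurj ub hub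
    refine ⟨u, hu, fun hc => hnc ?_⟩
    have := congrArg π hc.eq
    rw [map_mul, map_mul, hyx'] at this
    have huv' : π u = ub := huv
    rw [huv'] at this
    exact this

end Cfsg.Agent.Lib.Helper19ItoG
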