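import Cfsg.Agent.Lib.Helper81KulGDefs

set_option autoImplicit false

/-! Piece D-NZ of project 83 (KUL). -/

namespace Cfsg.Agent.Lib.Helper19KulNZ

open Cfsg
open Cfsg.Agent.Lib.Helper81Local Cfsg.Agent.Lib.Helper20GA Cfsg.Agent.Lib.Helper80IdemDefs
open Cfsg.Agent.Lib.Helper80StarDefs
open scoped ComplexConjugate

variable {p : ℕ} [Fact p.Prime] {M : Ideal AlgInt} [M.IsPrime] {G : Type*} [Group G] [Fintype G]

/-- the identity as a linear equivalence -/
noncomputable def idE (G : Type*) [Group G] [Fintype G] : GA G ≃ₗ[ℂ] (G → ℂ) where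
  toFun a := a
  invFun a := a
  left_inv _ := rfl
  right_inv _ := rfl
  map_add' _ _ := rfl
  map_smul' _ _ := rfl

/-- the basis of points of `GA G` -/
noncomputable def bas (G : Type*) [Group G] [Fintype G] : Module.Basis G ℂ (GA G) :=
  Module.Basis.ofEquivFun (idE G)

theorem bas_apply (g : G) : bas G g = pt g := by
  classical
  funext x
  unfold bas
  rw [Module.Basis.coe_ofEquivFun]
  change (Pi.single g (1 : ℂ) : G → ℂ) x = pt g x
  unfold pt
  rw [Pi.single_apply]

theorem bas_repr (a : GA G) (g : G) : (bas G).repr a g = a g := by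
  unfold bas
  rw [Module.Basis.ofEquivFun_repr_apply]
  rfl

theorem trace_mulLeft (a : GA G) :
    LinearMap.trace ℂ (GA G) (LinearMap.mulLeft ℂ a) = (Fintype.card G : ℂ) * a 1 := by
  classical
  rw [LinearMap.trace_eq_matrix_trace ℂ (bas G), Matrix.trace]
  have h1 : ∀ g : G, (LinearMap.toMatrix (bas G) (bas G) (LinearMap.mulLeft ℂ a)).diag g = a 1 := by
    intro g
    rw [Matrix.diag_apply, LinearMap.toMatrix_apply, bas_repr, bas_apply, LinearMap.mulLeft_apply,
      mul_pt_apply, mul_inv_cancel]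
  simp only [h1]
  rw [Finset.sum_const, Finset.card_univ, nsmul_eq_mul]

theorem fn_one_ne_zero {ι : OA M G} (hι : ι * ι = ι) (h0 : ι ≠ 0) : fn ι 1 ≠ 0 := by
  classical
  intro h
  set a : GA G := (ι : GA G) with ha
  have haa : a * a = a := by
    have := congrArg (fun x : OA M G => (x : GA G)) hι
    exact this
  have ha0 : a ≠ 0 := by
    intro h1
    exact h0 (Subtype.ext h1)
  have hid : IsIdempotentElem (LinearMap.mulLeft ℂ a) := by
    apply LinearMap.ext
    intro x
    change a * (a * x) = a * x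
    rw [← mul_assoc, haa]
  have : Module.Finite ℂ (GA G) := Module.Finite.of_basis (bas G)
  have hproj := LinearMap.IsIdempotentElem.isProj_range _ hid
  have htr := hproj.trace
  rw [trace_mulLeft] at htr
  have h1 : a 1 = 0 := h
  rw [h1, mul_zero] at htr
  have h2 : Module.finrank ℂ (LinearMap.range (LinearMap.mulLeft ℂ a)) = 0 := by
    exact_mod_cast htr.symm
  rw [Submodule.finrank_eq_zero] at h2
  have h3 : a ∈ LinearMap.range (LinearMap.mulLeft ℂ a) := ⟨a, haa⟩
  rw [h2] at h3
  exact ha0 ((Submodule.mem_bot ℂ).1 h3)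

end Cfsg.Agent.Lib.Helper19KulNZ
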