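import Cfsg.Agent.Lib.Helper81KulGDefs
import Cfsg.Agent.Lib.Helper77Glaub

set_option autoImplicit false

/-! Piece D-PHI of project 83 (KUL). -/

namespace Cfsg.Agent.Lib.Helper19KulPHI

open Cfsg
open Cfsg.Agent.Lib.Helper81Local Cfsg.Agent.Lib.Helper20GA Cfsg.Agent.Lib.Helper80IdemDefs
open Cfsg.Agent.Lib.Helper80StarDefs
open scoped ComplexConjugate

variable {p : ℕ} [Fact p.Prime] {M : Ideal AlgInt} [M.IsPrime] {G : Type*} [Group G] [Fintype G]

theorem sum_ev_conj (a : OA M G) (g : G) :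
    ∑ χ : IrrCharacter G, evA (χ : G → ℂ) a * conj ((χ : G → ℂ) g) = ∑ h : G, fn a (h⁻¹ * g * h) := by
  classical
  unfold evA
  simp only [Finset.sum_mul]
  rw [Finset.sum_comm]
  have h1 : ∀ x : G, ∑ χ : IrrCharacter G, fn a x * (χ : G → ℂ) x * conj ((χ : G → ℂ) g)
      = ∑ h : G, if h * x * h⁻¹ = g then fn a x else 0 := by
    intro x
    have := Cfsg.Agent.Lib.Helper77Glaub.col_orth_count x g
    have e1 : ∀ χ : IrrCharacter G, fn a x * (χ : G → ℂ) x * conj ((χ : G → ℂ) g)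
        = fn a x * ((χ : G → ℂ) x * conj ((χ : G → ℂ) g)) := fun χ => mul_assoc _ _ _
    simp only [e1]
    rw [← Finset.mul_sum, this, Finset.mul_sum]
    refine Finset.sum_congr rfl (fun h _ => ?_)
    split_ifs <;> simp
  simp only [h1]
  rw [Finset.sum_comm]
  refine Finset.sum_congr rfl (fun h _ => ?_)
  rw [Finset.sum_eq_single (h⁻¹ * g * h)]
  · rw [if_pos (by group)]
  · intro x _ hx
    rw [if_neg]
    intro hh
    apply hx
    rw [← hh]
    group
  · intro hh
    exact absurd (Finset.mem_univ _) hh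

end Cfsg.Agent.Lib.Helper19KulPHI
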