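import Cfsg.Agent.Lib.Helper19Rel
import Mathlib

set_option autoImplicit false

namespace Cfsg.Agent.Lib.Helper19Rel2

open Cfsg Cfsg.Agent.Lib.Helper19Rel
open scoped commutatorElement

variable {G : Type*} [Group G]

theorem commutator_sup_invariant (W : Subgroup G) [W.Normal] (T K : Subgroup G)
    (hK : ∀ t ∈ T, ∀ k ∈ K, t * k * t⁻¹ ∈ K) :
    ∀ t ∈ T, ∀ l ∈ ⁅K, K⁆ ⊔ W, t * l * t⁻¹ ∈ ⁅K, K⁆ ⊔ W := by
  intro t ht
  have h1 : ⁅K, K⁆ ⊔ W ≤ (⁅K, K⁆ ⊔ W).comap (MulAut.conj t).toMonoidHom := by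
    apply sup_le
    · rw [Subgroup.commutator_le]
      intro a ha b hb
      show t * ⁅a, b⁆ * t⁻¹ ∈ ⁅K, K⁆ ⊔ W
      apply Subgroup.mem_sup_left
      have h2 : t * ⁅a, b⁆ * t⁻¹ = ⁅t * a * t⁻¹, t * b * t⁻¹⁆ := by
        simp only [commutatorElement_def]; group
      rw [h2]
      exact Subgroup.commutator_mem_commutator (hK t ht a ha) (hK t ht b hb)
    · intro n hn
      show t * n * t⁻¹ ∈ ⁅K, K⁆ ⊔ W
      exact Subgroup.mem_sup_right (Subgroup.Normal.conj_mem inferInstance n hn t)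
  exact h1

/-- the elements of `M` whose `p`-th power lies in `W`, when `M / W` is abelian -/
def powSub (W : Subgroup G) [W.Normal] (M : Subgroup G) (hab : ⁅M, M⁆ ≤ W) (p : ℕ) :
    Subgroup G where
  carrier := {m | m ∈ M ∧ m ^ p ∈ W}
  one_mem' := ⟨M.one_mem, by rw [one_pow]; exact W.one_mem⟩
  mul_mem' := by
    rintro a b ⟨ha, ha'⟩ ⟨hb, hb'⟩
    refine ⟨M.mul_mem ha hb, ?_⟩
    rw [← QuotientGroup.eq_one_iff] at ha' hb' ⊢
    have hcomm : Commute (a : G ⧸ W) (b : G ⧸ W) := by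
      have h1 := (QuotientGroup.eq_one_iff _).2 (hab (Subgroup.commutator_mem_commutator ha hb))
      rw [commutatorElement_def] at h1
      simp only [QuotientGroup.mk_mul, QuotientGroup.mk_inv] at h1
      rw [mul_inv_eq_one, mul_inv_eq_iff_eq_mul] at h1
      exact h1
    rw [QuotientGroup.mk_pow] at ha' hb' ⊢
    rw [QuotientGroup.mk_mul, hcomm.mul_pow, ha', hb', one_mul]
  inv_mem' := by
    rintro a ⟨ha, ha'⟩
    exact ⟨M.inv_mem ha, by rw [inv_pow]; exact W.inv_mem ha'⟩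

theorem mem_powSub (W : Subgroup G) [W.Normal] (M : Subgroup G) (hab : ⁅M, M⁆ ≤ W) (p : ℕ) (m : G) :
    m ∈ powSub W M hab p ↔ m ∈ M ∧ m ^ p ∈ W := Iff.rfl

/-- Existence of an abelian `p`-"chief factor" of `T` above `W`, inside `N`. -/
theorem exists_chief_above [Finite G] (W : Subgroup G) [W.Normal]
    (hsolv : Group.IsSolvable (G ⧸ W)) (T N : Subgroup G) (hWN : W < N)
    (hN : ∀ t ∈ T, ∀ k ∈ N, t * k * t⁻¹ ∈ N) :
    ∃ M : Subgroup G, W < M ∧ M ≤ N ∧ ⁅M, M⁆ ≤ W ∧ (∀ t ∈ T, ∀ l ∈ M, t * l * t⁻¹ ∈ M) ∧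
      (∀ M' : Subgroup G, W ≤ M' → M' ≤ M → (∀ t ∈ T, ∀ m ∈ M', t * m * t⁻¹ ∈ M') →
        M' = W ∨ M' = M) ∧ ∃ (p k : ℕ), p.Prime ∧ W.relIndex M = p ^ k := by
  obtain ⟨M, ⟨hWM, hMN, hMinv⟩, hMmin⟩ := (wellFounded_lt : WellFounded
    ((· < ·) : Subgroup G → Subgroup G → Prop)).has_min
    {M : Subgroup G | W < M ∧ M ≤ N ∧ ∀ t ∈ T, ∀ l ∈ M, t * l * t⁻¹ ∈ M} ⟨N, hWN, le_rfl, hN⟩
  have hmin : ∀ M' : Subgroup G, W ≤ M' → M' ≤ M → (∀ t ∈ T, ∀ m ∈ M', t * m * t⁻¹ ∈ M') →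
      M' = W ∨ M' = M := by
    intro M' h1 h2 h3
    by_cases h : M' = W
    · left; exact h
    · right
      by_contra hne
      exact hMmin M' ⟨lt_of_le_of_ne h1 (Ne.symm h), h2.trans hMN, h3⟩ (lt_of_le_of_ne h2 hne)
  have hab : ⁅M, M⁆ ≤ W := by
    have h1 := commutator_sup_lt W hsolv M hWM
    rcases hmin _ le_sup_right h1.le (commutator_sup_invariant W T M hMinv) with h | h
    · rw [← h]; exact le_sup_left
    · exact absurd h h1.ne
  refine ⟨M, hWM, hMN, hab, hMinv, hmin, ?_⟩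
  have hne1 : W.relIndex M ≠ 1 := by
    intro h
    rw [Subgroup.relIndex_eq_one] at h
    exact absurd hWM (not_lt_of_ge h)
  obtain ⟨p, hp, hpd⟩ := Nat.exists_prime_and_dvd hne1
  haveI : Fact p.Prime := ⟨hp⟩
  haveI : (W.subgroupOf M).Normal := inferInstance
  have hcard : W.relIndex M = Nat.card (M ⧸ W.subgroupOf M) := by
    rw [Subgroup.relIndex, Subgroup.index_eq_card]
  rw [hcard] at hpd
  obtain ⟨q, hq⟩ := exists_prime_orderOf_dvd_card' p hpd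
  obtain ⟨m, rfl⟩ := QuotientGroup.mk_surjective q
  have hm1 : (m : G) ∉ W := by
    intro h
    have : (QuotientGroup.mk m : M ⧸ W.subgroupOf M) = 1 :=
      (QuotientGroup.eq_one_iff m).2 (Subgroup.mem_subgroupOf.2 h)
    rw [this, orderOf_one] at hq
    exact hp.one_lt.ne hq
  have hm2 : (m : G) ^ p ∈ W := by
    have h1 := pow_orderOf_eq_one (QuotientGroup.mk m : M ⧸ W.subgroupOf M)
    rw [hq, ← QuotientGroup.mk_pow, QuotientGroup.eq_one_iff, Subgroup.mem_subgroupOf] at h1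
    exact h1
  have hpow : powSub W M hab p = M := by
    rcases hmin (powSub W M hab p) (fun w hw => ⟨hWM.le hw, W.pow_mem hw p⟩) (fun x hx => hx.1) (by
      rintro t ht x ⟨hx1, hx2⟩
      refine ⟨hMinv t ht x hx1, ?_⟩
      rw [conj_pow]
      exact Subgroup.Normal.conj_mem inferInstance _ hx2 t) with h | h
    · exfalso
      apply hm1
      rw [← h]
      exact ⟨m.2, hm2⟩
    · exact h
  have hpg : IsPGroup p (M ⧸ W.subgroupOf M) := by
    intro q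
    obtain ⟨x, rfl⟩ := QuotientGroup.mk_surjective q
    refine ⟨1, ?_⟩
    rw [pow_one, ← QuotientGroup.mk_pow, QuotientGroup.eq_one_iff, Subgroup.mem_subgroupOf]
    have : (x : G) ∈ powSub W M hab p := by rw [hpow]; exact x.2
    exact this.2
  obtain ⟨k, hk⟩ := IsPGroup.iff_card.1 hpg
  exact ⟨p, k, hp, by rw [hcard, hk]⟩

end Cfsg.Agent.Lib.Helper19Rel2
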