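import Cfsg.Prelude.Def_Characters
import Mathlib

set_option autoImplicit false

namespace Cfsg.Agent.Lib.Helper19Section

open Cfsg
open scoped ComplexConjugate

theorem exists_exponents (m n : ℕ) (h : Nat.Coprime m n) :
    ∃ k k' : ℕ, k ≡ 0 [MOD m] ∧ k ≡ 1 [MOD n] ∧ k' ≡ 1 [MOD m] ∧ k' ≡ 0 [MOD n] := by
  obtain ⟨k, hk1, hk2⟩ := Nat.chineseRemainder h 0 1
  obtain ⟨k', hk1', hk2'⟩ := Nat.chineseRemainder h 1 0
  exact ⟨k, k', hk1, hk2, hk1', hk2'⟩

section

variable {G : Type*} [Group G] {m n k k' : ℕ} (hexp : ∀ x : G, x ^ (m * n) = 1)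
  (hcop : Nat.Coprime m n) (hk1 : k ≡ 0 [MOD m]) (hk2 : k ≡ 1 [MOD n]) (hk1' : k' ≡ 1 [MOD m])
  (hk2' : k' ≡ 0 [MOD n])

include hexp hcop hk1 hk2 hk1' hk2' in
theorem pow_mul_pow (x : G) : x ^ k' * x ^ k = x := by
  rw [← pow_add]
  conv_rhs => rw [← pow_one x]
  rw [pow_eq_pow_iff_modEq]
  apply Nat.ModEq.of_dvd (orderOf_dvd_of_pow_eq_one (hexp x))
  exact (Nat.modEq_and_modEq_iff_modEq_mul hcop).1 ⟨hk1'.add hk1, hk2'.add hk2⟩

include hexp hk1 in
theorem pow_pow_n (x : G) : (x ^ k) ^ n = 1 := by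
  obtain ⟨s, rfl⟩ := (Nat.modEq_zero_iff_dvd).1 hk1
  rw [← pow_mul, mul_right_comm, pow_mul, hexp, one_pow]

include hexp hk2' in
theorem pow_pow_m (x : G) : (x ^ k') ^ m = 1 := by
  obtain ⟨s, rfl⟩ := (Nat.modEq_zero_iff_dvd).1 hk2'
  rw [← pow_mul, mul_comm, ← mul_assoc, pow_mul, hexp, one_pow]

include hexp hk1 hk2 in
theorem pow_pow_k (x : G) : (x ^ k) ^ k = x ^ k := by
  conv_rhs => rw [← pow_one (x ^ k)]
  rw [pow_eq_pow_iff_modEq]
  exact Nat.ModEq.of_dvd (orderOf_dvd_of_pow_eq_one (pow_pow_n hexp hk1 x)) hk2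

include hexp hcop hk1 hk2 hk1' hk2' in
/-- The `π'`-part of `x` is `x ^ k`. -/
theorem section_iff (x g : G) :
    (∃ v : G, IsConj v g ∧ (∃ u : G, x = u * v ∧ Commute u v ∧ Nat.Coprime (orderOf u) n ∧
      Nat.Coprime (orderOf v) m)) ↔ IsConj (x ^ k) g := by
  constructor
  · rintro ⟨v, hv, u, rfl, hc, hu, hv'⟩
    have h1 : orderOf u ∣ m :=
      Nat.Coprime.dvd_of_dvd_mul_right hu (orderOf_dvd_of_pow_eq_one (hexp u))
    have h2 : orderOf v ∣ n :=
      Nat.Coprime.dvd_of_dvd_mul_left hv' (orderOf_dvd_of_pow_eq_one (hexp v))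
    have h3 : u ^ k = 1 :=
      orderOf_dvd_iff_pow_eq_one.1 (h1.trans ((Nat.modEq_zero_iff_dvd).1 hk1))
    have h4 : v ^ k = v := by
      conv_rhs => rw [← pow_one v]
      rw [pow_eq_pow_iff_modEq]
      exact Nat.ModEq.of_dvd h2 hk2
    rw [hc.mul_pow, h3, h4, one_mul]
    exact hv
  · intro h
    refine ⟨x ^ k, h, x ^ k', (pow_mul_pow hexp hcop hk1 hk2 hk1' hk2' x).symm,
      (Commute.refl x).pow_pow _ _, ?_, ?_⟩
    · exact Nat.Coprime.coprime_dvd_left (orderOf_dvd_of_pow_eq_one (pow_pow_m hexp hk2' x)) hcop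
    · exact Nat.Coprime.coprime_dvd_left (orderOf_dvd_of_pow_eq_one (pow_pow_n hexp hk1 x)) hcop.symm

end

theorem exists_pow_hom_central (E : Type*) [Group E] [Finite E] (t : ℕ)
    (ht : (Subgroup.center E).index ∣ t) :
    ∃ f : E →* E, (∀ x, f x = x ^ t) ∧ ∀ x, f x ∈ Subgroup.center E := by
  obtain ⟨s, rfl⟩ := ht
  have hc : ∀ x : E, x ^ (Subgroup.center E).index ∈ Subgroup.center E := by
    intro x
    rw [← MonoidHom.transferCenterPow_apply]
    exact Subtype.property _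
  have hmul : ∀ x y : E, (x * y) ^ (Subgroup.center E).index
      = x ^ (Subgroup.center E).index * y ^ (Subgroup.center E).index := by
    intro x y
    rw [← MonoidHom.transferCenterPow_apply, ← MonoidHom.transferCenterPow_apply,
      ← MonoidHom.transferCenterPow_apply, map_mul]
    rfl
  refine ⟨MonoidHom.mk' (fun x => x ^ ((Subgroup.center E).index * s)) ?_, fun _ => rfl, ?_⟩
  · intro x y
    rw [pow_mul, pow_mul, pow_mul, hmul]
    exact (show Commute _ _ from (Subgroup.mem_center_iff.1 (hc x) _).symm).mul_pow s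
  · intro x
    show x ^ ((Subgroup.center E).index * s) ∈ Subgroup.center E
    rw [pow_mul]
    exact Subgroup.pow_mem _ (hc x) s

/-- On an elementary group the projection onto the `π'`-part is a homomorphism. -/
theorem exists_pow_hom {E : Type*} [Group E] [Finite E] {p m n k k' : ℕ} (hp : p.Prime)
    (hE : IsElementary p E) (hcard : Nat.card E ∣ m * n)
    (hcop : Nat.Coprime m n) (hk1 : k ≡ 0 [MOD m]) (hk2 : k ≡ 1 [MOD n]) (hk1' : k' ≡ 1 [MOD m])
    (hk2' : k' ≡ 0 [MOD n]) : ∃ β : E →* E, ∀ x, β x = x ^ k := by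
  have hexp : ∀ x : E, x ^ (m * n) = 1 := by
    intro x
    obtain ⟨s, hs⟩ := hcard
    rw [hs, pow_mul, pow_card_eq_one', one_pow]
  obtain ⟨z, hz, _, a, ha⟩ := hE
  have h1 : (Subgroup.center E).index ∣ p ^ a := by
    rw [← ha]
    apply Subgroup.index_dvd_of_le
    rw [Subgroup.zpowers_le]; exact hz
  obtain ⟨b, _, hb⟩ := (Nat.dvd_prime_pow hp).1 h1
  have h2 : (Subgroup.center E).index ∣ m * n := (Subgroup.index_dvd_card _).trans hcard
  by_cases hpn : p ∣ n
  · have hpm : ¬ p ∣ m := by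
      intro h
      exact hp.one_lt.ne' (Nat.Coprime.eq_one_of_dvd (Nat.Coprime.coprime_dvd_right hpn
        (Nat.Coprime.coprime_dvd_left h hcop)) (dvd_refl p))
    have h3 : (Subgroup.center E).index ∣ n := by
      apply Nat.Coprime.dvd_of_dvd_mul_left _ h2
      rw [hb]
      exact Nat.Coprime.pow_left b ((Nat.Prime.coprime_iff_not_dvd hp).2 hpm)
    obtain ⟨α, hα, hαc⟩ := exists_pow_hom_central E k' (h3.trans ((Nat.modEq_zero_iff_dvd).1 hk2'))
    refine ⟨MonoidHom.mk' (fun x => x * (α x)⁻¹) ?_, ?_⟩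
    · intro x y
      have hc := Subgroup.mem_center_iff.1 (Subgroup.inv_mem _ (hαc x)) y
      rw [map_mul, mul_inv_rev, mul_assoc x, mul_assoc x, ← mul_assoc y, ← mul_assoc (α x)⁻¹, ← hc,
        mul_assoc y, mul_assoc y]
      congr 2
      have hc2 := Subgroup.mem_center_iff.1 (Subgroup.inv_mem _ (hαc x)) (α y)⁻¹
      exact hc2
    · intro x
      show x * (α x)⁻¹ = x ^ k
      rw [hα, mul_inv_eq_iff_eq_mul]
      have := pow_mul_pow hexp hcop hk1 hk2 hk1' hk2' x
      rw [← pow_add, add_comm, pow_add] at this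
      exact this.symm
  · have h3 : (Subgroup.center E).index ∣ m := by
      apply Nat.Coprime.dvd_of_dvd_mul_right _ h2
      rw [hb]
      exact Nat.Coprime.pow_left b ((Nat.Prime.coprime_iff_not_dvd hp).2 hpn)
    obtain ⟨β, hβ, _⟩ := exists_pow_hom_central E k (h3.trans ((Nat.modEq_zero_iff_dvd).1 hk1))
    exact ⟨β, hβ⟩

theorem card_dvd_of_exponent {H : Type*} [Group H] [Finite H] {m n : ℕ} (hexp : ∀ b : H, b ^ n = 1)
    (hcard : Nat.card H ∣ m * n) (hcop : Nat.Coprime m n) : Nat.card H ∣ n := by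
  apply Nat.Coprime.dvd_of_dvd_mul_left _ hcard
  apply Nat.coprime_of_dvd
  intro q hq hqH hqm
  haveI : Fact q.Prime := ⟨hq⟩
  obtain ⟨x, hx⟩ := exists_prime_orderOf_dvd_card' (G := H) q hqH
  have h1 : q ∣ n := hx ▸ orderOf_dvd_of_pow_eq_one (hexp x)
  exact hq.one_lt.ne' (Nat.Coprime.eq_one_of_dvd (Nat.Coprime.coprime_dvd_right h1
    (Nat.Coprime.coprime_dvd_left hqm hcop)) (dvd_refl q))

theorem sum_idempotent {E : Type*} [Group E] [Fintype E] [DecidableEq E] (β : E →* E)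
    (hβ : ∀ x, β (β x) = β x) (F : E → ℂ) (lam : E →* ℂˣ) :
    (∑ x : E, F (β x) * conj (lam x : ℂ) = 0) ∨
    (∑ x : E, F (β x) * conj (lam x : ℂ)
      = (Nat.card β.ker : ℂ) * ∑ b ∈ Finset.univ.image β, F b * conj (lam b : ℂ)) := by
  by_cases h : ∀ a ∈ β.ker, lam a = 1
  · right
    have h1 : ∀ x, lam x = lam (β x) := by
      intro x
      have h2 : x * (β x)⁻¹ ∈ β.ker := by
        rw [MonoidHom.mem_ker, map_mul, map_inv, hβ, mul_inv_cancel]
      have h3 := h _ h2
      rw [map_mul, map_inv, mul_inv_eq_one] at h3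
      exact h3
    have h4 : ∑ x : E, F (β x) * conj (lam x : ℂ)
        = ∑ x : E, (fun b => F b * conj (lam b : ℂ)) (β x) :=
      Finset.sum_congr rfl fun x _ => by rw [h1 x]
    rw [h4, Finset.sum_comp (fun b => F b * conj (lam b : ℂ)) β, Finset.mul_sum]
    refine Finset.sum_congr rfl fun b hb => ?_
    obtain ⟨x, _, rfl⟩ := Finset.mem_image.1 hb
    have hcard : (Finset.univ.filter fun a => β a = β x).card = Nat.card β.ker := by
      rw [MonoidHom.card_fiber_eq_of_mem_range β ⟨x, rfl⟩ ⟨1, map_one β⟩, Nat.card_eq_fintype_card,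
        Fintype.card_subtype]
      congr 1
      ext g
      simp [MonoidHom.mem_ker]
    rw [hcard, nsmul_eq_mul]
  · left
    push Not at h
    obtain ⟨a, ha, hne⟩ := h
    rw [MonoidHom.mem_ker] at ha
    have h1 : ∑ x : E, F (β x) * conj (lam x : ℂ)
        = conj (lam a : ℂ) * ∑ x : E, F (β x) * conj (lam x : ℂ) := by
      conv_lhs => rw [← Equiv.sum_comp (Equiv.mulLeft a)]
      rw [Finset.mul_sum]
      refine Finset.sum_congr rfl fun x _ => ?_
      rw [Equiv.coe_mulLeft, map_mul, ha, one_mul, map_mul, Units.val_mul, map_mul]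
      ring
    have hne' : conj (lam a : ℂ) ≠ 1 := by
      intro h2
      apply hne
      apply Units.ext
      have := congrArg conj h2
      rwa [Complex.conj_conj, map_one] at this
    have h2 : (1 - conj (lam a : ℂ)) * ∑ x : E, F (β x) * conj (lam x : ℂ) = 0 := by
      rw [sub_mul, one_mul, ← h1, sub_self]
    rcases mul_eq_zero.1 h2 with h3 | h3
    · exact absurd (sub_eq_zero.1 h3).symm hne'
    · exact h3

theorem isIntegral_conj_hom {E : Type*} [Group E] [Finite E] (lam : E →* ℂˣ) (b : E) :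
    IsIntegral ℤ (conj (lam b : ℂ)) := by
  apply IsIntegral.of_pow (n := Nat.card E) Nat.card_pos
  rw [← map_pow, ← Units.val_pow_eq_pow_val, ← map_pow, pow_card_eq_one', map_one, Units.val_one,
    map_one]
  exact isIntegral_one

/-- Integrality of the inner product of a section indicator with a linear character of an
elementary group. -/
theorem isIntegral_inner_section {E : Type*} [Group E] [Fintype E] {p m n k k' : ℕ} (hp : p.Prime)
    (hE : IsElementary p E) (hcard : Nat.card E ∣ m * n)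
    (hcop : Nat.Coprime m n) (hk1 : k ≡ 0 [MOD m]) (hk2 : k ≡ 1 [MOD n]) (hk1' : k' ≡ 1 [MOD m])
    (hk2' : k' ≡ 0 [MOD n]) (X : Set E) [DecidablePred (· ∈ X)] (lam : E →* ℂˣ) :
    IsIntegral ℤ (classInner (fun e : E => if e ^ k ∈ X then (n : ℂ) else 0)
      (fun e => (lam e : ℂ))) := by
  classical
  have hexp : ∀ x : E, x ^ (m * n) = 1 := by
    intro x
    obtain ⟨s, hs⟩ := hcard
    rw [hs, pow_mul, pow_card_eq_one', one_pow]
  obtain ⟨β, hβ⟩ := exists_pow_hom hp hE hcard hcop hk1 hk2 hk1' hk2'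
  have hββ : ∀ x, β (β x) = β x := by
    intro x
    rw [hβ, hβ, pow_pow_k hexp hk1 hk2]
  have hr : Nat.card β.range ∣ n := by
    apply card_dvd_of_exponent _ ((Subgroup.card_subgroup_dvd_card _).trans hcard) hcop
    rintro ⟨_, x, rfl⟩
    apply Subtype.ext
    show (β x) ^ n = 1
    rw [hβ, pow_pow_n hexp hk1]
  obtain ⟨n', hn'⟩ := hr
  have hcardE : (Nat.card E : ℂ) = (Nat.card β.ker : ℂ) * (Nat.card β.range : ℂ) := by
    rw [← Subgroup.card_mul_index β.ker, Subgroup.index_ker]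
    push_cast
    rfl
  unfold classInner
  have h1 : ∑ g : E, (if g ^ k ∈ X then (n : ℂ) else 0) * conj (lam g : ℂ)
      = ∑ g : E, (fun b => if b ∈ X then (n : ℂ) else 0) (β g) * conj (lam g : ℂ) :=
    Finset.sum_congr rfl fun g _ => by rw [hβ]
  rw [h1]
  rcases sum_idempotent β hββ (fun b => if b ∈ X then (n : ℂ) else 0) lam with h2 | h2
  · rw [h2, mul_zero]; exact isIntegral_zero
  · rw [h2]
    have h3 : ∑ b ∈ Finset.univ.image β, (if b ∈ X then (n : ℂ) else 0) * conj (lam b : ℂ)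
        = (Nat.card β.range : ℂ) *
          ∑ b ∈ Finset.univ.image β, (if b ∈ X then (n' : ℂ) else 0) * conj (lam b : ℂ) := by
      rw [Finset.mul_sum]
      refine Finset.sum_congr rfl fun b _ => ?_
      split_ifs
      · rw [hn']; push_cast; ring
      · simp
    rw [h3, hcardE]
    have hk0 : (Nat.card β.ker : ℂ) ≠ 0 := by exact_mod_cast Nat.card_pos.ne'
    have hr0 : (Nat.card β.range : ℂ) ≠ 0 := by exact_mod_cast Nat.card_pos.ne'
    have h4 : ((Nat.card β.ker : ℂ) * (Nat.card β.range : ℂ))⁻¹ * ((Nat.card β.ker : ℂ) *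
        ((Nat.card β.range : ℂ) *
          ∑ b ∈ Finset.univ.image β, (if b ∈ X then (n' : ℂ) else 0) * conj (lam b : ℂ)))
        = ∑ b ∈ Finset.univ.image β, (if b ∈ X then (n' : ℂ) else 0) * conj (lam b : ℂ) := by
      field_simp
    rw [h4]
    apply IsIntegral.sum
    intro b _
    apply IsIntegral.mul _ (isIntegral_conj_hom lam b)
    split_ifs
    · exact isIntegral_natCast n'
    · exact isIntegral_zero

end Cfsg.Agent.Lib.Helper19Section
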