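import Cfsg.Agent.Lib.LeadTwDefs2

set_option autoImplicit false

/-! Piece R4 of project TW-AUT. -/

namespace Cfsg.Agent.Lib.Helper19TwR4

open Subgroup Cfsg.Agent.Lib.LeadTwDefs

variable {Γ F J : Type*} [Group Γ] [Field F] {P : TA Γ F J}

/-- R4 (cf. `Helper15AutA16.exists_sigma`; uses R2, R3 as hypotheses).  `c j = f j 1`, `g a = f j a / c j`. -/
theorem exists_sigma [Finite F] (hP : P.Ok) {θ : Γ ≃* Γ} {f : J → F → F} (hA : P.Acts θ f)
    (h2 : ∀ (i j : J) (a : F), a ∈ P.A i → a ≠ 0 → ∀ u ∈ P.A j,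
      f j (P.χ i j a * u) = P.χ i j (f i a) * (P.χ i j (f i 1))⁻¹ * f j u)
    (h3 : ∀ (A : Subfield F) (g : F → F), (∀ a ∈ A, g a ∈ A) →
      (∀ a ∈ A, ∀ b ∈ A, g (a + b) = g a + g b) → (∀ a ∈ A, g a = 0 → a = 0) → g 1 = 1 →
      (∀ t ∈ A, ∀ u ∈ A, t ≠ 0 → g (t ^ 2 * u) = g t ^ 2 * g u) → ∃ σ : ↥A ≃+* ↥A, ∀ a : ↥A, g a = σ a) :
    ∃ (c : J → F) (σ : (j : J) → (↥(P.A j) ≃+* ↥(P.A j))), (∀ j, c j ∈ P.A j ∧ c j ≠ 0) ∧
      (∀ j (a : ↥(P.A j)), f j a = c j * (σ j a : F)) ∧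
      ∀ (i j : J) (a : ↥(P.A i)) (b : ↥(P.A j)), (a : F) ≠ 0 → (b : F) = P.χ i j a →
        ((σ j b : ↥(P.A j)) : F) = P.χ i j ((σ i a : ↥(P.A i)) : F) := by
  have c1 : ∀ j, f j 1 ∈ P.A j := fun j => hA.mem j 1 (one_mem _)
  have f1 : ∀ j, f j 1 ≠ 0 := fun j hh => one_ne_zero (hA.inj j 1 (one_mem _) hh)
  have key : ∀ j, ∃ σ : ↥(P.A j) ≃+* ↥(P.A j), ∀ a : ↥(P.A j), f j a / f j 1 = σ a := by
    intro j
    refine h3 (P.A j) (fun t => f j t / f j 1) ?_ ?_ ?_ ?_ ?_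
    · intro a ha
      exact div_mem (hA.mem j a ha) (c1 j)
    · intro a ha b hb
      simp only [hA.add j a ha b hb, add_div]
    · intro a ha h0
      have h0' : f j a / f j 1 = 0 := h0
      rcases div_eq_zero_iff.1 h0' with h | h
      · exact hA.inj j a ha h
      · exact absurd h (f1 j)
    · exact div_self (f1 j)
    · intro t ht u hu ht0
      have := h2 j j t ht ht0 u hu
      rw [hP.χ_self j t ht, hP.χ_self j _ (hA.mem j t ht), hP.χ_self j _ (c1 j)] at this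
      show f j (t ^ 2 * u) / f j 1 = (f j t / f j 1) ^ 2 * (f j u / f j 1)
      rw [this, div_pow, div_eq_mul_inv, div_eq_mul_inv, div_eq_mul_inv]
      ring
  choose σ hσ using key
  have hc : ∀ j (a : ↥(P.A j)), f j a = f j 1 * (σ j a : F) := by
    intro j a
    rw [← hσ j a, mul_div_assoc', mul_comm, mul_div_assoc, div_self (f1 j), mul_one]
  refine ⟨fun j => f j 1, σ, fun j => ⟨c1 j, f1 j⟩, hc, ?_⟩
  intro i j a b ha0 hb
  have := h2 i j a a.2 ha0 1 (one_mem _)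
  rw [mul_one, ← hb, hc j b, hc i a, hP.χ_mul i j _ (c1 i) _ (σ i a).2] at this
  have hχ : P.χ i j (f i 1) ≠ 0 := by
    intro h0
    have h5 := hP.χ_mul i j _ (c1 i) _ (inv_mem (c1 i))
    rw [mul_inv_cancel₀ (f1 i), hP.χ_one, h0, zero_mul] at h5
    exact one_ne_zero h5
  have e : P.χ i j (f i 1) * P.χ i j ((σ i a : ↥(P.A i)) : F) * (P.χ i j (f i 1))⁻¹ * f j 1
      = f j 1 * P.χ i j ((σ i a : ↥(P.A i)) : F) := by
    field_simp
  rw [e] at this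
  exact mul_left_cancel₀ (f1 j) this

end Cfsg.Agent.Lib.Helper19TwR4
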