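import Cfsg.Agent.Lib.LeadTwDefs2

set_option autoImplicit false

/-! Piece R5 of project TW-AUT. -/

namespace Cfsg.Agent.Lib.Helper19TwR5

open Subgroup Cfsg.Agent.Lib.LeadTwDefs

variable {Γ F J : Type*} [Group Γ] [Field F] {P : TA Γ F J}

/-- R5 : a common field automorphism. -/
theorem common_sigma (hP : P.Ok) (σ : (j : J) → (↥(P.A j) ≃+* ↥(P.A j)))
    (hσ : ∀ (i j : J) (a : ↥(P.A i)) (b : ↥(P.A j)), (a : F) ≠ 0 → (b : F) = P.χ i j a →
        ((σ j b : ↥(P.A j)) : F) = P.χ i j ((σ i a : ↥(P.A i)) : F))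
    (j0 : J) (hj0 : P.A j0 = ⊤) (hpath : ∀ j, Relation.ReflTransGen (Lk P) j j0) :
    ∃ σ0 : F ≃+* F, ∀ j (a : ↥(P.A j)), ((σ j a : ↥(P.A j)) : F) = σ0 a := by
  have hm : ∀ x : F, x ∈ P.A j0 := fun x => by rw [hj0]; exact Subfield.mem_top x
  let e : ↥(P.A j0) ≃+* F :=
    { toFun := fun x => x.1
      invFun := fun x => ⟨x, hm x⟩
      left_inv := fun x => rfl
      right_inv := fun x => rfl
      map_mul' := fun x y => rfl
      map_add' := fun x y => rfl }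
  refine ⟨e.symm.trans ((σ j0).trans e), ?_⟩
  have step : ∀ i j, Lk P i j → ∀ a : ↥(P.A i), ∃ ha : (a : F) ∈ P.A j,
      ((σ i a : ↥(P.A i)) : F) = ((σ j ⟨a, ha⟩ : ↥(P.A j)) : F) := by
    intro i j hL a
    by_cases ha0 : (a : F) = 0
    · have ha : (a : F) ∈ P.A j := by rw [ha0]; exact zero_mem _
      refine ⟨ha, ?_⟩
      have e1 : a = 0 := Subtype.ext ha0
      have e2 : (⟨a, ha⟩ : ↥(P.A j)) = 0 := Subtype.ext ha0
      rw [e2, e1, map_zero, map_zero]; rfl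
    · have h1 : P.χ i j a = (a : F)⁻¹ := hL a a.2 ha0
      have h2 : (a : F)⁻¹ ∈ P.A j := h1 ▸ hP.χ_mem i j a a.2
      have ha : (a : F) ∈ P.A j := by simpa using inv_mem h2
      refine ⟨ha, ?_⟩
      have h3 := hσ i j a ⟨(a : F)⁻¹, h2⟩ ha0 h1.symm
      have hs0 : ((σ i a : ↥(P.A i)) : F) ≠ 0 := by
        intro h0
        have : σ i a = 0 := Subtype.ext h0
        rw [map_eq_zero_iff _ (σ i).injective] at this
        exact ha0 (by rw [this]; rfl)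
      rw [hL _ (σ i a).2 hs0] at h3
      have e2 : (⟨(a : F)⁻¹, h2⟩ : ↥(P.A j)) = (⟨a, ha⟩ : ↥(P.A j))⁻¹ := Subtype.ext rfl
      rw [e2, map_inv₀] at h3
      have h4 : (((σ j ⟨a, ha⟩ : ↥(P.A j)) : F))⁻¹ = (((σ i a : ↥(P.A i)) : F))⁻¹ := h3
      exact (inv_injective h4).symm
  have main : ∀ j, Relation.ReflTransGen (Lk P) j j0 → ∀ a : ↥(P.A j),
      ((σ j a : ↥(P.A j)) : F) = ((σ j0 ⟨a, hm a⟩ : ↥(P.A j0)) : F) := by
    intro j hj
    induction hj using Relation.ReflTransGen.head_induction_on with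
    | refl => intro a; rfl
    | head hL _ ih =>
      intro a
      obtain ⟨ha, h1⟩ := step _ _ hL a
      rw [h1, ih ⟨a, ha⟩]
  intro j a
  exact main j (hpath j) a

end Cfsg.Agent.Lib.Helper19TwR5
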