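import Cfsg.Agent.Lib.Helper23CT9
import Cfsg.Agent.Lib.Helper23Un4

set_option autoImplicit false

/-! Curtis-Tits, part S (recognition form, S3712): piece S2 `exists_y`. -/

namespace Cfsg.Agent.Lib.Helper1CTS2

open Subgroup Cfsg.Lie Cfsg.Lie.ChevalleyDatum Cfsg.Agent.Lib.Helper22ChevBasic Cfsg.Agent.Lib.Helper23Grp
  Cfsg.Agent.Lib.Helper23St Cfsg.Agent.Lib.Helper23To Cfsg.Agent.Lib.Helper23RG Cfsg.Agent.Lib.Helper23All
  Cfsg.Agent.Lib.Helper22ChevTabs Cfsg.Agent.Lib.Helper23CT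

/-- two homomorphisms on `A ⊔ B` resp. `B ⊔ A` which agree on `A` and on `B` agree everywhere. -/
theorem hom_sup_swap {X G : Type*} [Group X] [Group G] (A B : Subgroup X)
    (Φ : ↥(A ⊔ B) →* G) (Ψ : ↥(B ⊔ A) →* G)
    (hA : ∀ (g : X) (hg : g ∈ A), Φ ⟨g, Subgroup.mem_sup_left hg⟩ = Ψ ⟨g, Subgroup.mem_sup_right hg⟩)
    (hB : ∀ (g : X) (hg : g ∈ B), Φ ⟨g, Subgroup.mem_sup_right hg⟩ = Ψ ⟨g, Subgroup.mem_sup_left hg⟩)
    (g : X) (hg : g ∈ A ⊔ B) (hg' : g ∈ B ⊔ A) : Φ ⟨g, hg⟩ = Ψ ⟨g, hg'⟩ := by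
  have hle : A ⊔ B ≤ B ⊔ A := le_of_eq (sup_comm A B)
  let Ψ' : ↥(A ⊔ B) →* G := Ψ.comp (Subgroup.inclusion hle)
  have hsup : A ⊔ B ≤ (Φ.eqLocus Ψ').map (A ⊔ B).subtype := by
    refine sup_le ?_ ?_
    · intro x hx
      exact ⟨⟨x, Subgroup.mem_sup_left hx⟩, hA x hx, rfl⟩
    · intro x hx
      exact ⟨⟨x, Subgroup.mem_sup_right hx⟩, hB x hx, rfl⟩
  obtain ⟨e, he, heg⟩ := hsup hg
  have h1 : e = ⟨g, hg⟩ := Subtype.ext heg
  subst h1
  exact he

variable {D : ChevalleyDatum} (hD : Std D) (F : Type*) [Field F] {G : Type*} [Group G]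

theorem exists_y (φ : ∀ i : ℕ, ↥(Li D F i) →* G)
    (hcoh : ∀ i < D.rank, ∀ j < D.rank, ∃ Φ : ↥(Li D F i ⊔ Li D F j) →* G,
      (∀ (g : GL D.Idx F) (hg : g ∈ Li D F i), Φ ⟨g, Subgroup.mem_sup_left hg⟩ = φ i ⟨g, hg⟩) ∧
      (∀ (g : GL D.Idx F) (hg : g ∈ Li D F j), Φ ⟨g, Subgroup.mem_sup_right hg⟩ = φ j ⟨g, hg⟩))
    (hmem : ∀ i j r, D.InRankTwoSub i j r → ∀ t : F, xG hD r t ∈ Li D F i ⊔ Li D F j)
    (hind : ∀ i j i' j' r, D.InRankTwoSub i j r → D.InRankTwoSub i' j' r → IndP D i j i' j' r)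
    (hF : R2Facts D) :
    ∃ y : ℕ → F → G,
      (∀ i j, i < D.rank → j < D.rank → ∃ Φ : ↥(Li D F i ⊔ Li D F j) →* G,
        ∀ r (h : D.InRankTwoSub i j r) t, y r t = Φ ⟨xG hD r t, hmem i j r h t⟩) ∧
      (∀ i, i < D.rank → ∀ r, r = D.simple i ∨ r = D.neg (D.simple i) → ∀ t, ∀ h : xG hD r t ∈ Li D F i,
        y r t = φ i ⟨xG hD r t, h⟩) := by
  classical
  -- the chosen homomorphisms
  obtain ⟨Φ, hΦl, hΦr⟩ : ∃ Φ : ∀ i j : ℕ, ↥(Li D F i ⊔ Li D F j) →* G,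
      (∀ i j, i < D.rank → j < D.rank → ∀ (g : GL D.Idx F) (hg : g ∈ Li D F i),
        Φ i j ⟨g, Subgroup.mem_sup_left hg⟩ = φ i ⟨g, hg⟩) ∧
      (∀ i j, i < D.rank → j < D.rank → ∀ (g : GL D.Idx F) (hg : g ∈ Li D F j),
        Φ i j ⟨g, Subgroup.mem_sup_right hg⟩ = φ j ⟨g, hg⟩) := by
    refine ⟨fun i j => if h : i < D.rank ∧ j < D.rank then Classical.choose (hcoh i h.1 j h.2)
      else 1, ?_, ?_⟩
    · intro i j hi hj g hg
      simp only [dif_pos (And.intro hi hj)]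
      exact (Classical.choose_spec (hcoh i hi j hj)).1 g hg
    · intro i j hi hj g hg
      simp only [dif_pos (And.intro hi hj)]
      exact (Classical.choose_spec (hcoh i hi j hj)).2 g hg
  -- membership of the fundamental root elements
  have hLi : ∀ p r, (r = D.simple p ∨ r = D.neg (D.simple p)) → ∀ t : F, xG hD r t ∈ Li D F p := by
    rintro p r (rfl | rfl) t
    · exact Subgroup.mem_sup_left (xG_mem_rootSubgroup hD _ t)
    · exact Subgroup.mem_sup_right (xG_mem_rootSubgroup hD _ t)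
  -- value on a fundamental root element
  have hval : ∀ i j p r, i < D.rank → j < D.rank → (p = i ∨ p = j) →
      ∀ (hr : r = D.simple p ∨ r = D.neg (D.simple p)) (t : F)
      (h : xG hD r t ∈ Li D F i ⊔ Li D F j), Φ i j ⟨xG hD r t, h⟩ = φ p ⟨xG hD r t, hLi p r hr t⟩ := by
    rintro i j p r hi hj (rfl | rfl) hr t h
    · exact hΦl p j hi hj _ (hLi p r hr t)
    · exact hΦr i p hi hj _ (hLi p r hr t)
  -- independence of the subsystem
  have hindep : ∀ i j i' j' r (h : D.InRankTwoSub i j r) (h' : D.InRankTwoSub i' j' r) (t : F),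
      Φ i j ⟨xG hD r t, hmem i j r h t⟩ = Φ i' j' ⟨xG hD r t, hmem i' j' r h' t⟩ := by
    intro i j i' j' r h h' t
    rcases hind i j i' j' r h h' with ⟨rfl, rfl⟩ | ⟨rfl, rfl⟩ | ⟨p, hp, hp1, hp2, hr⟩
    · rfl
    · refine hom_sup_swap _ _ (Φ j' i') (Φ i' j') ?_ ?_ _ _ _
      · intro g hg
        rw [hΦl j' i' h.2.1 h.2.2.1 g hg, hΦr i' j' h.2.2.1 h.2.1 g hg]
      · intro g hg
        rw [hΦr j' i' h.2.1 h.2.2.1 g hg, hΦl i' j' h.2.2.1 h.2.1 g hg]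
    · rw [hval i j p r h.2.1 h.2.2.1 hp1 hr t, hval i' j' p r h'.2.1 h'.2.2.1 hp2 hr t]
  -- the definition of `y`
  let y : ℕ → F → G := fun r t =>
    if h : ∃ i j, D.InRankTwoSub i j r then
      Φ (Classical.choose h) (Classical.choose (Classical.choose_spec h))
        ⟨xG hD r t, hmem _ _ r (Classical.choose_spec (Classical.choose_spec h)) t⟩
    else 1
  have hy : ∀ i j r (h : D.InRankTwoSub i j r) (t : F),
      y r t = Φ i j ⟨xG hD r t, hmem i j r h t⟩ := by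
    intro i j r h t
    have hex : ∃ i j, D.InRankTwoSub i j r := ⟨i, j, h⟩
    simp only [y, dif_pos hex]
    exact hindep _ _ i j r (Classical.choose_spec (Classical.choose_spec hex)) h t
  refine ⟨y, ?_, ?_⟩
  · intro i j hi hj
    exact ⟨Φ i j, fun r h t => hy i j r h t⟩
  · intro i hi r hr t h
    have hin : D.InRankTwoSub i i r := by
      rcases hr with rfl | rfl
      · exact hF.simple i hi
      · exact hF.neg i i _ (hF.simple i hi)
    rw [hy i i r hin t]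
    exact hΦl i i hi hi _ h

end Cfsg.Agent.Lib.Helper1CTS2
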