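import Cfsg.Agent.Lib.Helper23CT5
import Cfsg.Agent.Lib.Helper23Un4

set_option autoImplicit false
set_option linter.unusedSectionVars false

/-! Project 230 (Curtis-Tits), piece X1: distinct root subgroups of the Chevalley group meet trivially. -/

namespace Cfsg.Agent.Lib.Helper1CTX1

open Subgroup Cfsg.Lie Cfsg.Lie.ChevalleyDatum Cfsg.Agent.Lib.Helper22ChevBasic Cfsg.Agent.Lib.Helper23Grp
  Cfsg.Agent.Lib.Helper23St Cfsg.Agent.Lib.Helper23To Cfsg.Agent.Lib.Helper23RG Cfsg.Agent.Lib.Helper23All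
  Cfsg.Agent.Lib.Helper22ChevTabs Cfsg.Agent.Lib.Helper23CT

variable {D : ChevalleyDatum} {hD : Std D} {K : Type*} [Field K] {𝔾 : Type*} [Group 𝔾]

theorem aux (hD : Std D) (K : Type*) [Field K] :
    ∀ a b : Fin D.nroots, ∀ v w : K, a ≠ b → (S0 hD K).x a v = (S0 hD K).x b w → v = 0 := by
  set S := S0 hD K with hS
  have ok : S.Ok := ok0 hD K
  have hBV : ∀ g ∈ S.B, g ∈ S.V → g = 1 := Helper23Chev.hBV (tab hD) (rel hD)
  -- a positive and a negative root
  have key : ∀ (a b : Fin D.nroots) (v w : K), S.pos a → ¬ S.pos b → S.x a v = S.x b w →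
      v = 0 ∧ w = 0 := by
    intro a b v w ha hb h
    have h1 : S.x a v = 1 :=
      hBV _ (RG.U_le_B (RG.x_mem_U ha v)) (h ▸ RG.x_mem_V hb w)
    exact ⟨ok.x_inj _ _ h1, ok.x_inj _ _ (h ▸ h1)⟩
  have conj : ∀ (i : Fin D.rank) (a b : Fin D.nroots) (v w : K), S.x a v = S.x b w →
      S.x (S.refl i a) (S.η i a * v) = S.x (S.refl i b) (S.η i b * w) := by
    intro i a b v w h
    rw [← ok.n_conj, ← ok.n_conj, h]
  intro a
  refine ok.reach (fun a => ∀ b : Fin D.nroots, ∀ v w : K, a ≠ b → S.x a v = S.x b w → v = 0)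
    ?_ ?_ a
  · intro i b v w hab h
    by_cases hb : S.pos b
    · have h2 := conj i _ _ _ _ h
      rw [ok.refl_simple] at h2
      have hp : S.pos (S.refl i b) := ok.refl_pos i b hb (Ne.symm hab)
      have hn : ¬ S.pos (S.neg (S.simple i)) := by
        rw [ok.pos_neg]
        exact not_not.mpr (ok.pos_simple i)
      have := (key _ _ _ _ hp hn h2.symm).2
      exact (mul_eq_zero.mp this).resolve_left (RG.η_ne_zero ok _ _)
    · exact (key _ _ _ _ (ok.pos_simple i) hb h).1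
  · intro i a' ih b v w hab h
    have h2 := conj i _ _ _ _ h
    rw [ok.refl_refl] at h2
    have hne : a' ≠ S.refl i b := by
      intro e
      apply hab
      rw [e, ok.refl_refl]
    have := ih _ _ _ hne h2
    exact (mul_eq_zero.mp this).resolve_left (RG.η_ne_zero ok _ _)

/-- X1 -/
theorem xG_eq_xG (hD : Std D) {a b : ℕ} (ha : a < D.nroots) (hb : b < D.nroots) (hab : a ≠ b) {v w : K}
    (h : xG hD a v = xG hD b w) : v = 0 := by
  refine aux hD K ⟨a, ha⟩ ⟨b, hb⟩ v w (fun e => hab (congrArg Fin.val e)) ?_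
  rw [S0_x, S0_x]
  exact h

end Cfsg.Agent.Lib.Helper1CTX1
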