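import Mathlib
import Cfsg.Agent.Lib.Helper4DefOneDefs
import Cfsg.Agent.Lib.Helper1DefOneTw
import Cfsg.Agent.Lib.Helper80Transport
import Cfsg.Agent.Lib.Helper81Reg3
import Cfsg.Agent.Lib.Helper81Subsec
import Cfsg.Agent.Lib.Helper81Second2
import Cfsg.Agent.Lib.Helper81Second3
import Cfsg.Agent.Lib.Helper20Ext
import Cfsg.Agent.S0919
import Cfsg.Agent.Lib.Helper40DefOneBrange

/-!
# Project 7, part 2, piece `val`: values on `p`-singular elements
-/

set_option autoImplicit false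
set_option linter.unusedSectionVars false

namespace Cfsg.Agent.Lib.Helper1DefOneVal

open Cfsg Subgroup Cfsg.Agent.Lib.Helper59BLGram Cfsg.Agent.Lib.Helper59BLTw
  Cfsg.Agent.Lib.Helper4DefOneDefs Cfsg.Agent.Lib.Helper1DefOneTw
open scoped ComplexConjugate

section cjsec

variable {G : Type*} [Group G] {p : ℕ} [Fact p.Prime] {P : Sylow p G} {H : Subgroup G}

theorem conj_mem_iff (hH : H = centralizer ((P : Subgroup G) : Set G)) {n : G}
    (hn : n ∈ normalizer ((P : Subgroup G) : Set G)) (g : G) : g ∈ H ↔ n * g * n⁻¹ ∈ H := by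
  subst hH
  rw [mem_centralizer_iff, mem_centralizer_iff]
  constructor
  · intro h u hu
    have hu' : n⁻¹ * u * n ∈ (P : Subgroup G) := by
      have := (mem_normalizer_iff.mp (inv_mem hn) u).mp hu
      simpa using this
    have := h _ hu'
    calc u * (n * g * n⁻¹) = n * ((n⁻¹ * u * n) * g) * n⁻¹ := by group
      _ = n * (g * (n⁻¹ * u * n)) * n⁻¹ := by rw [this]
      _ = n * g * n⁻¹ * u := by group
  · intro h u hu
    have hu' : n * u * n⁻¹ ∈ (P : Subgroup G) := (mem_normalizer_iff.mp hn u).mp hu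
    have := h _ hu'
    calc u * g = n⁻¹ * ((n * u * n⁻¹) * (n * g * n⁻¹)) * n := by group
      _ = n⁻¹ * ((n * g * n⁻¹) * (n * u * n⁻¹)) * n := by rw [this]
      _ = g * u := by group

/-- conjugation by `n ∈ N_G(P)` on `H = C_G(P)`. -/
def cE (hH : H = centralizer ((P : Subgroup G) : Set G))
    (n : normalizer ((P : Subgroup G) : Set G)) : H ≃* H :=
  Helper80Transport.cjEquiv (n : G) H H (conj_mem_iff hH n.2)

theorem cE_coe (hH : H = centralizer ((P : Subgroup G) : Set G))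
    (n : normalizer ((P : Subgroup G) : Set G)) (c : H) :
    ((cE hH n c : H) : G) = (n : G) * c * (n : G)⁻¹ := rfl

/-- the conjugate character `c ↦ ψ (n c n⁻¹)`. -/
noncomputable def cjc (hH : H = centralizer ((P : Subgroup G) : Set G))
    (n : normalizer ((P : Subgroup G) : Set G)) (ψ : IrrCharacter H) : IrrCharacter H :=
  Helper82Quot.irrCongr (cE hH n).symm ψ

theorem cjc_apply (hH : H = centralizer ((P : Subgroup G) : Set G))
    (n : normalizer ((P : Subgroup G) : Set G)) (ψ : IrrCharacter H) (c : H) :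
    (cjc hH n ψ : H → ℂ) c = (ψ : H → ℂ) (cE hH n c) := rfl

theorem cjc_cjc (hH : H = centralizer ((P : Subgroup G) : Set G))
    (n m : normalizer ((P : Subgroup G) : Set G)) (ψ : IrrCharacter H) :
    cjc hH m (cjc hH n ψ) = cjc hH (n * m) ψ := by
  apply Subtype.ext
  funext c
  rw [cjc_apply, cjc_apply, cjc_apply]
  apply congrArg
  apply Subtype.ext
  simp only [cE_coe, Subgroup.coe_mul, mul_inv_rev, mul_assoc]

theorem cjc_one (hH : H = centralizer ((P : Subgroup G) : Set G)) (ψ : IrrCharacter H) :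
    cjc hH 1 ψ = ψ := by
  apply Subtype.ext
  funext c
  rw [cjc_apply]
  apply congrArg
  apply Subtype.ext
  simp [cE_coe]

theorem cjc_inv_cjc (hH : H = centralizer ((P : Subgroup G) : Set G))
    (n : normalizer ((P : Subgroup G) : Set G)) (ψ : IrrCharacter H) :
    cjc hH n⁻¹ (cjc hH n ψ) = ψ := by
  rw [cjc_cjc, mul_inv_cancel, cjc_one]

theorem cjc_cjc_inv (hH : H = centralizer ((P : Subgroup G) : Set G))
    (n : normalizer ((P : Subgroup G) : Set G)) (ψ : IrrCharacter H) :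
    cjc hH n (cjc hH n⁻¹ ψ) = ψ := by
  rw [cjc_cjc, inv_mul_cancel, cjc_one]

/-- `cjc` as a permutation of `Irr(H)`. -/
noncomputable def cjcEquiv (hH : H = centralizer ((P : Subgroup G) : Set G))
    (n : normalizer ((P : Subgroup G) : Set G)) : IrrCharacter H ≃ IrrCharacter H where
  toFun := cjc hH n
  invFun := cjc hH n⁻¹
  left_inv := cjc_inv_cjc hH n
  right_inv := cjc_cjc_inv hH n

theorem sameBlock_cjc {M : Ideal AlgInt} (hH : H = centralizer ((P : Subgroup G) : Set G))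
    (n : normalizer ((P : Subgroup G) : Set G)) {ψ φ : IrrCharacter H}
    (h : SameBlock M (ψ : H → ℂ) (φ : H → ℂ)) :
    SameBlock M (cjc hH n ψ : H → ℂ) (cjc hH n φ : H → ℂ) :=
  Helper80Transport.sameBlock_comp (cE hH n).symm h

theorem stab_iff (hH : H = centralizer ((P : Subgroup G) : Set G))
    (n : normalizer ((P : Subgroup G) : Set G)) (θ : IrrCharacter H) :
    Stab P (θ : H → ℂ) (n : G) ↔ cjc hH n θ = θ := by
  constructor
  · intro h
    apply Subtype.ext
    funext c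
    rw [cjc_apply]
    exact h.2 c _ (cE_coe hH n c)
  · intro h
    refine ⟨n.2, fun c c' hc => ?_⟩
    have : c' = cE hH n c := Subtype.ext hc
    rw [this, ← cjc_apply, h]

end cjsec

section chars

open Cfsg.Agent.Lib.Helper81Block Cfsg.Agent.Lib.Helper81Base

variable {G : Type*} [Group G] [Fintype G] {p : ℕ} [Fact p.Prime] {M : Ideal AlgInt}
  {P : Sylow p G} {H : Subgroup G} [Fintype H]
  [Fintype (normalizer ((P : Subgroup G) : Set G))]
  {B : Set (IrrCharacter G)} {b : Set (IrrCharacter H)} {θ : IrrCharacter H}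
  {tw : (↥(P : Subgroup G) →* ℂˣ) → IrrCharacter H}

theorem mH_cjc (hH : H = centralizer ((P : Subgroup G) : Set G))
    (n : normalizer ((P : Subgroup G) : Set G)) (χ : IrrCharacter G) (ψ : IrrCharacter H) :
    mH χ (cjc hH n ψ) = mH χ ψ := by
  unfold mH classInner
  congr 1
  apply Fintype.sum_equiv (cE hH n).toEquiv
  intro c
  rw [cjc_apply]
  have : (χ : G → ℂ) ((cE hH n c : H) : G) = (χ : G → ℂ) c := by
    rw [cE_coe, irr_conj]
  simp only [MulEquiv.toEquiv_eq_coe, EquivLike.coe_coe]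
  rw [this]

theorem cjc_tw_apply (h : Data p M P H B b θ tw) (n : normalizer ((P : Subgroup G) : Set G))
    (l : ↥(P : Subgroup G) →* ℂˣ) (x : ↥(P : Subgroup G)) (y c : H) (hy : ¬ p ∣ orderOf y)
    (hc : (c : G) = (x : G) * (y : G)) :
    (cjc h.hH n (tw l) : H → ℂ) c = ((l (actHom P n x) : ℂˣ) : ℂ)
      * extendByZero H (θ : H → ℂ) ((n : G) * (y : G) * (n : G)⁻¹) := by
  rw [cjc_apply]
  have h1 : ¬ p ∣ orderOf (cE h.hH n y) := by rwa [MulEquiv.orderOf_eq]
  rw [h.htw l (actHom P n x) (cE h.hH n y) (cE h.hH n c) h1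
    (by rw [cE_coe, cE_coe, actHom_apply, hc]; group)]
  rw [← cE_coe h.hH n y, Helper19Ind.extendByZero_coe]

theorem cjc_mem_iff (h : Data p M P H B b θ tw) (m : normalizer ((P : Subgroup G) : Set G))
    {ψ : IrrCharacter H} (hψ : ψ ∈ b) :
    cjc h.hH m ψ ∈ b ↔ Stab P (θ : H → ℂ) (m : G) := by
  have hPr := Helper81Local.IsPModular.isPrime h.hM
  have hb : IsPBlock M b := h.hind.1
  rw [stab_iff h.hH]
  constructor
  · intro hm
    have h1 : cjc h.hH m θ ∈ b := isPBlock_mem_of_sameBlock hb hm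
      (sameBlock_cjc h.hH m (isPBlock_sameBlock hb hψ h.hθ))
    refine Helper21DC.canonical_unique h.hM hb (P.2.comap_subtype) (sup_centralizer_eq_top h.hH)
      (isDefectGroup_subgroupOf h.hM h.hP h.hH hb h.hθ h.hθP) h.hθ (fun y hy => h.hθP y hy) h1 ?_
    intro y hy
    rw [cjc_apply, cjc_apply, map_one]
    apply h.hθP
    rw [cE_coe]
    exact (mem_normalizer_iff.mp m.2 y).mp hy
  · intro hm
    have := sameBlock_cjc h.hH m (isPBlock_sameBlock hb h.hθ hψ)
    rw [hm] at this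
    exact isPBlock_mem_of_sameBlock hb h.hθ this

open scoped Classical in
theorem card_filter_mem (h : Data p M P H B b θ tw) (T : Subgroup G)
    (hT : ∀ g, g ∈ T ↔ Stab P (θ : H → ℂ) g) (φ : IrrCharacter H)
    (hφ : ∃ n, cjc h.hH n⁻¹ φ ∈ b) :
    (Finset.univ.filter
      (fun n : normalizer ((P : Subgroup G) : Set G) => cjc h.hH n⁻¹ φ ∈ b)).card = Nat.card T := by
  obtain ⟨n0, hn0⟩ := hφ
  have key : ∀ n : normalizer ((P : Subgroup G) : Set G),
      cjc h.hH n⁻¹ φ ∈ b ↔ (n0 : G) * (n : G)⁻¹ ∈ T := by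
    intro n
    have h1 : cjc h.hH n⁻¹ φ = cjc h.hH (n0 * n⁻¹) (cjc h.hH n0⁻¹ φ) := by
      rw [cjc_cjc, ← mul_assoc, inv_mul_cancel, one_mul]
    rw [h1, cjc_mem_iff h _ hn0, hT]
    rfl
  rw [← Fintype.card_subtype, ← Nat.card_eq_fintype_card]
  apply Nat.card_congr
  refine Equiv.ofBijective (fun n => ⟨(n0 : G) * ((n : normalizer ((P : Subgroup G) : Set G)) : G)⁻¹,
    (key n.1).1 n.2⟩) ⟨?_, ?_⟩
  · intro n n' hnn
    have := congrArg Subtype.val hnn
    simp only [mul_right_inj, inv_inj] at this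
    exact Subtype.ext (Subtype.ext this)
  · intro t
    have ht : (t : G) ∈ normalizer ((P : Subgroup G) : Set G) := ((hT t).1 t.2).1
    refine ⟨⟨⟨(t : G)⁻¹ * n0, mul_mem (inv_mem ht) n0.2⟩, (key _).2 ?_⟩, ?_⟩
    · simp
    · apply Subtype.ext
      simp

theorem conj_of_induced (hM : IsPModular p M) (hBP : IsDefectGroup p M B P)
    (hH' : H = (P : Subgroup G) ⊔ centralizer ((P : Subgroup G) : Set G))
    {b b' : Set (IrrCharacter H)}
    (hb : IsInducedBlock M H b B) (hb' : IsInducedBlock M H b' B) :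
    ∃ n ∈ normalizer ((P : Subgroup G) : Set G), ∀ θ ∈ b, ∃ θ' ∈ b',
      ∀ x : H, ∀ hx : n * (x : G) * n⁻¹ ∈ H, (θ' : H → ℂ) x = (θ : H → ℂ) ⟨n * (x : G) * n⁻¹, hx⟩ := by
  subst hH'
  exact Helper20Ext.induced_conj hM hBP hb hb'

theorem centralizer_singleton_le (hP : Nat.card P = p)
    (hH : H = centralizer ((P : Subgroup G) : Set G)) (x : ↥(P : Subgroup G)) (hx : x ≠ 1) :
    centralizer ({(x : G)} : Set G) ≤ H := by
  intro g hg
  rw [mem_centralizer_singleton_iff] at hg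
  rw [hH, mem_centralizer_iff]
  intro u hu
  have h1 : (⟨u, hu⟩ : ↥(P : Subgroup G)) ∈ zpowers x := by
    rw [zpowers_eq_top_of_prime_card hP hx]
    exact mem_top _
  obtain ⟨k, hk⟩ := h1
  have h2 : u = (x : G) ^ k := by
    have := congrArg Subtype.val hk
    simpa using this.symm
  have h3 : Commute g (x : G) := hg
  rw [h2]
  exact ((h3.zpow_right k).eq).symm

open scoped Classical in
theorem blockSum_eq_zero (h : Data p M P H B b θ tw) (χ : IrrCharacter G) (hχ : χ ∈ B)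
    (x : ↥(P : Subgroup G)) (hx : x ≠ 1) (y c : H) (hy : ¬ p ∣ orderOf y)
    (hc : (c : G) = (x : G) * (y : G)) (b' : Set (IrrCharacter H)) (hb' : IsPBlock M b')
    (hdis : ∀ φ ∈ b', ¬ ∃ n, cjc h.hH n⁻¹ φ ∈ b) :
    ∑ φ : IrrCharacter H, (if φ ∈ b' then mH χ φ * (φ : H → ℂ) c else 0) = 0 := by
  have hPr := Helper81Local.IsPModular.isPrime h.hM
  have hp : p.Prime := Fact.out
  have hPH := le_centralizer_of_card h.hP h.hH
  have hHN : H ≤ normalizer ((P : Subgroup G) : Set G) := by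
    rw [h.hH]; exact centralizer_le_normalizer _
  obtain ⟨B'', hind'⟩ := Cfsg.Agent.S0919.result p M h.hM (P : Subgroup G) H P.2 hPH
    (by rw [h.hH]) hHN b' hb'
  have hne : ∀ χ' ∈ B'', χ' ∉ B := by
    intro χ' h1 h2
    have hBB : B'' = B := by
      rw [isPBlock_eq_blockOf hind'.2.1 h1, isPBlock_eq_blockOf h.hind.2.1 h2]
    rw [hBB] at hind'
    have hH' : H = (P : Subgroup G) ⊔ centralizer ((P : Subgroup G) : Set G) := by
      rw [← h.hH, sup_eq_right.2 hPH]
    obtain ⟨n, hn, hθ'⟩ := conj_of_induced h.hM h.hBP hH' h.hind hind'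
    obtain ⟨θ', hθ'b, hθ'e⟩ := hθ' θ h.hθ
    apply hdis θ' hθ'b
    refine ⟨⟨n, hn⟩, ?_⟩
    have : θ' = cjc h.hH ⟨n, hn⟩ θ := by
      apply Subtype.ext
      funext k
      rw [cjc_apply]
      exact hθ'e k _
    rw [this, cjc_inv_cjc]
    exact h.hθ
  have hyx : Commute (x : G) (y : G) := by
    have h1 : (y : G) ∈ centralizer ((P : Subgroup G) : Set G) := h.hH ▸ y.2
    exact (mem_centralizer_iff.1 h1) x x.2
  have hpp : IsPPart p ((c : G)⁻¹) ((x : G)⁻¹) := by
    refine ⟨(y : G)⁻¹, ?_, hyx.inv_inv, ⟨1, ?_⟩, ?_⟩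
    · rw [hc, hyx.eq, mul_inv_rev]
    · rw [orderOf_inv, pow_one, Subgroup.orderOf_coe]
      have hxp : x ^ p = 1 := by
        have := pow_card_eq_one' (x := x)
        rwa [h.hP] at this
      exact orderOf_eq_prime hxp hx
    · rw [orderOf_inv, Subgroup.orderOf_coe]; exact hy
  have hC : centralizer ({(x : G)⁻¹} : Set G) ≤ H := by
    have := centralizer_singleton_le h.hP h.hH x⁻¹ (inv_ne_one.2 hx)
    simpa using this
  have h1 := Helper81Second2.second_main_core h.hM H hind' h.hind.2.1 hne ((c : G)⁻¹) ((x : G)⁻¹)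
    (inv_mem c.2) hpp hC χ hχ
  have hcl : IsClassFunction H (fun k : H => (χ : G → ℂ) k) := by
    intro g k
    simp only [Subgroup.coe_mul, Subgroup.coe_inv]
    rw [irr_conj]
  have h2 := Helper81Part.blockPart_eq_sum b' hcl c
  rw [Helper81Part.blockPart_def] at h2
  refine Eq.trans ?_ (h2.trans (Eq.trans ?_ h1))
  · rfl
  · apply Finset.sum_congr rfl
    intro k _
    congr 1
    rw [inv_inv, Subgroup.coe_mul]
    have := irr_conj χ ((k : G) * c) (c : G)
    rw [← this]
    group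

open scoped Classical in
/-- `value_formula`, with `b = Set.range tw` (piece `brange`) as a hypothesis. -/
theorem value_formula_of_range (h : Data p M P H B b θ tw) (hbr : b = Set.range tw)
    [Fintype (↥(P : Subgroup G) →* ℂˣ)]
    (T : Subgroup G) (hT : ∀ g, g ∈ T ↔ Stab P (θ : H → ℂ) g)
    (χ : IrrCharacter G) (hχ : χ ∈ B) (x : ↥(P : Subgroup G)) (hx : x ≠ 1) (y : H)
    (hy : ¬ p ∣ orderOf y) :
    (Nat.card T : ℂ) * (χ : G → ℂ) ((x : G) * (y : G))
      = ∑ n : normalizer ((P : Subgroup G) : Set G), ∑ l : ↥(P : Subgroup G) →* ℂˣ,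
        mH χ (tw l) * ((l (actHom P n x) : ℂˣ) : ℂ)
          * extendByZero H (θ : H → ℂ) ((n : G) * (y : G) * (n : G)⁻¹) := by
  have hPr := Helper81Local.IsPModular.isPrime h.hM
  have hb : IsPBlock M b := h.hind.1
  have hPH := le_centralizer_of_card h.hP h.hH
  set c : H := ⟨x, hPH x.2⟩ * y with hcdef
  have hc : (c : G) = (x : G) * (y : G) := rfl
  set F : IrrCharacter H → ℂ := fun φ => mH χ φ * (φ : H → ℂ) c with hF
  set O : Set (IrrCharacter H) := {φ | ∃ n, cjc h.hH n⁻¹ φ ∈ b} with hO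
  have s1 : ∀ (n : normalizer ((P : Subgroup G) : Set G)) (l : ↥(P : Subgroup G) →* ℂˣ),
      mH χ (tw l) * ((l (actHom P n x) : ℂˣ) : ℂ)
          * extendByZero H (θ : H → ℂ) ((n : G) * (y : G) * (n : G)⁻¹)
        = F (cjc h.hH n (tw l)) := by
    intro n l
    simp only [hF]
    rw [mH_cjc, cjc_tw_apply h n l x y c hy hc, mul_assoc]
  have s2 : ∀ n : normalizer ((P : Subgroup G) : Set G),
      ∑ l : ↥(P : Subgroup G) →* ℂˣ, F (cjc h.hH n (tw l))
        = ∑ φ : IrrCharacter H, if cjc h.hH n⁻¹ φ ∈ b then F φ else 0 := by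
    intro n
    rw [← Equiv.sum_comp (cjcEquiv h.hH n) (fun φ => if cjc h.hH n⁻¹ φ ∈ b then F φ else 0)]
    simp only [cjcEquiv, Equiv.coe_fn_mk, cjc_inv_cjc]
    rw [← Finset.sum_filter]
    have : Finset.univ.filter (· ∈ b) = Finset.univ.image tw := by
      ext ψ
      simp only [Finset.mem_filter, Finset.mem_univ, true_and, Finset.mem_image]
      conv_lhs => rw [hbr]
      rfl
    rw [this, Finset.sum_image (fun a _ b _ hab => tw_injective h hab)]
  have s3 : ∀ φ : IrrCharacter H,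
      ∑ n : normalizer ((P : Subgroup G) : Set G), (if cjc h.hH n⁻¹ φ ∈ b then F φ else 0)
        = if φ ∈ O then (Nat.card T : ℂ) * F φ else 0 := by
    intro φ
    rw [← Finset.sum_filter, Finset.sum_const, nsmul_eq_mul]
    split_ifs with hφ
    · rw [card_filter_mem h T hT φ hφ]
    · have : Finset.univ.filter
          (fun n : normalizer ((P : Subgroup G) : Set G) => cjc h.hH n⁻¹ φ ∈ b) = ∅ := by
        apply Finset.filter_eq_empty_iff.2
        intro n _ hn
        exact hφ ⟨n, hn⟩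
      rw [this]; simp
  have hOu : Helper81Subsec.IsBlockUnion M O := by
    rintro ψ ψ' hs ⟨n, hn⟩
    exact ⟨n, isPBlock_mem_of_sameBlock hb hn (sameBlock_cjc h.hH n⁻¹ hs)⟩
  have s4 : ∑ φ : IrrCharacter H, (if φ ∈ Oᶜ then F φ else 0) = 0 := by
    apply Helper81Subsec.sum_union_eq_zero hOu.compl
    intro b' hb' hsub
    exact blockSum_eq_zero h χ hχ x hx y c hy hc b' hb' (fun φ hφ => hsub hφ)
  have hcl : IsClassFunction H (fun k : H => (χ : G → ℂ) k) := by
    intro g k
    simp only [Subgroup.coe_mul, Subgroup.coe_inv]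
    rw [irr_conj]
  have s5 : (χ : G → ℂ) ((x : G) * (y : G)) = ∑ φ : IrrCharacter H, F φ :=
    Helper81Reg3.classfn_expand hcl c
  rw [Finset.sum_congr rfl (fun n _ => Finset.sum_congr rfl (fun l _ => s1 n l)),
    Finset.sum_congr rfl (fun n _ => s2 n), Finset.sum_comm,
    Finset.sum_congr rfl (fun φ _ => s3 φ), s5]
  have s6 : ∑ φ : IrrCharacter H, F φ = ∑ φ : IrrCharacter H, (if φ ∈ O then F φ else 0) := by
    have : ∀ φ : IrrCharacter H, F φ = (if φ ∈ O then F φ else 0) + (if φ ∈ Oᶜ then F φ else 0) := by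
      intro φ
      by_cases hφ : φ ∈ O
      · rw [if_pos hφ, if_neg (fun hn => hn hφ), add_zero]
      · rw [if_neg hφ, if_pos (show φ ∈ Oᶜ from hφ), zero_add]
    rw [Finset.sum_congr rfl (fun φ _ => this φ), Finset.sum_add_distrib, s4, add_zero]
  rw [s6, Finset.mul_sum]
  apply Finset.sum_congr rfl
  intro φ _
  split_ifs <;> simp

theorem value_formula (h : Data p M P H B b θ tw) [Fintype (↥(P : Subgroup G) →* ℂˣ)]
    (T : Subgroup G) (hT : ∀ g, g ∈ T ↔ Stab P (θ : H → ℂ) g)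
    (χ : IrrCharacter G) (hχ : χ ∈ B) (x : ↥(P : Subgroup G)) (hx : x ≠ 1) (y : H)
    (hy : ¬ p ∣ orderOf y) :
    (Nat.card T : ℂ) * (χ : G → ℂ) ((x : G) * (y : G))
      = ∑ n : normalizer ((P : Subgroup G) : Set G), ∑ l : ↥(P : Subgroup G) →* ℂˣ,
        mH χ (tw l) * ((l (actHom P n x) : ℂˣ) : ℂ)
          * extendByZero H (θ : H → ℂ) ((n : G) * (y : G) * (n : G)⁻¹) :=
  value_formula_of_range h (Helper40DefOneBrange.b_eq_range h) T hT χ hχ x hx y hy

end chars

end Cfsg.Agent.Lib.Helper1DefOneVal
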