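import Mathlib
import Cfsg.Agent.Lib.Helper1DefOneVal
import Cfsg.Agent.Lib.Helper76DefOneGal2
import Cfsg.Agent.Lib.Helper59BLDual
import Cfsg.Agent.Lib.Helper20DefCard
import Cfsg.Agent.Lib.Helper81Orth2
import Cfsg.Agent.Lib.Helper81Defect

/-!
# Project 7, part 2, piece `inn`: characters inside `B`
-/

set_option autoImplicit false
set_option linter.unusedSectionVars false

namespace Cfsg.Agent.Lib.Helper1DefOneInn

open Cfsg Subgroup Cfsg.Agent.Lib.Helper59BLGram Cfsg.Agent.Lib.Helper59BLTw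
  Cfsg.Agent.Lib.Helper4DefOneDefs Cfsg.Agent.Lib.Helper1DefOneTw Cfsg.Agent.Lib.Helper1DefOneVal
  Cfsg.Agent.Lib.Helper81Block Cfsg.Agent.Lib.Helper81Base
open scoped ComplexConjugate

variable {G : Type*} [Group G] [Fintype G] {p : ℕ} [Fact p.Prime] {M : Ideal AlgInt}
  {P : Sylow p G} {H : Subgroup G} [Fintype H]
  [Fintype (normalizer ((P : Subgroup G) : Set G))]
  {B : Set (IrrCharacter G)} {b : Set (IrrCharacter H)} {θ : IrrCharacter H}
  {tw : (↥(P : Subgroup G) →* ℂˣ) → IrrCharacter H}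

theorem vanish_of_const (h : Data p M P H B b θ tw) (χ : IrrCharacter G) (hχ : χ ∈ B)
    (hconst : ∀ l, mH χ (tw l) = mH χ (tw 1)) (x : ↥(P : Subgroup G)) (hx : x ≠ 1) (y : H)
    (hy : ¬ p ∣ orderOf y) : (χ : G → ℂ) ((x : G) * (y : G)) = 0 := by
  classical
  have hcyc : IsCyclic ↥(P : Subgroup G) := isCyclic_of_prime_card h.hP
  have hA : IsMulCommutative ↥(P : Subgroup G) := hcyc.isMulCommutative
  have hfin : Finite (↥(P : Subgroup G) →* ℂˣ) := Helper59BLDual.finite_hom _ hA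
  let _ : Fintype (↥(P : Subgroup G) →* ℂˣ) := Fintype.ofFinite _
  obtain ⟨T, hT⟩ := Helper76DefOneGal2.exists_T h.hH (θ : H → ℂ)
  have hv := value_formula h T hT χ hχ x hx y hy
  have h0 : ∀ n : normalizer ((P : Subgroup G) : Set G), ∑ l : ↥(P : Subgroup G) →* ℂˣ,
        mH χ (tw l) * ((l (actHom P n x) : ℂˣ) : ℂ)
          * extendByZero H (θ : H → ℂ) ((n : G) * (y : G) * (n : G)⁻¹) = 0 := by
    intro n
    have hne : actHom P n x ≠ 1 := by
      intro h1
      exact hx ((map_eq_one_iff (actHom P n) (actHom P n).injective).1 h1)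
    have h1 := Helper59BLDual.sum_dual_eq_zero hA hne
    have h2 : ∀ l : ↥(P : Subgroup G) →* ℂˣ, mH χ (tw l) * ((l (actHom P n x) : ℂˣ) : ℂ)
          * extendByZero H (θ : H → ℂ) ((n : G) * (y : G) * (n : G)⁻¹)
        = (mH χ (tw 1) * extendByZero H (θ : H → ℂ) ((n : G) * (y : G) * (n : G)⁻¹))
          * ((l (actHom P n x) : ℂˣ) : ℂ) := by
      intro l
      rw [hconst l]; ring
    rw [Finset.sum_congr rfl (fun l _ => h2 l), ← Finset.mul_sum, h1, mul_zero]
  rw [Finset.sum_congr rfl (fun n _ => h0 n), Finset.sum_const_zero] at hv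
  have hT0 : (Nat.card T : ℂ) ≠ 0 := by exact_mod_cast Nat.card_pos.ne'
  exact (mul_eq_zero.1 hv).resolve_left hT0

theorem vanish_singular (h : Data p M P H B b θ tw) (χ : IrrCharacter G) (hχ : χ ∈ B)
    (hconst : ∀ l, mH χ (tw l) = mH χ (tw 1)) (g : G) (hg : p ∣ orderOf g) :
    (χ : G → ℂ) g = 0 := by
  have hp : p.Prime := Fact.out
  obtain ⟨z, w, hzw, hcomm, ⟨k, hk⟩, hw⟩ := Helper81Orth.exists_ppart (p := p) hp g
  have hz1 : z ≠ 1 := by
    rintro rfl
    rw [one_mul] at hzw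
    exact hw (hzw ▸ hg)
  have hzp : IsPGroup p (zpowers z) := IsPGroup.of_card (n := k) (by rw [Nat.card_zpowers, hk])
  obtain ⟨Q, hQ⟩ := hzp.exists_le_sylow
  obtain ⟨t, ht⟩ := MulAction.exists_smul_eq G Q P
  have hzP : t * z * t⁻¹ ∈ (P : Subgroup G) := by
    rw [← ht, Sylow.coe_subgroup_smul]
    exact Subgroup.smul_mem_pointwise_smul z (MulAut.conj t) Q (hQ (mem_zpowers z))
  set x : ↥(P : Subgroup G) := ⟨t * z * t⁻¹, hzP⟩ with hxdef
  have hx : x ≠ 1 := by
    intro h1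
    have := congrArg Subtype.val h1
    simp only [hxdef, OneMemClass.coe_one] at this
    apply hz1
    have h2 : z = t⁻¹ * (t * z * t⁻¹) * t := by group
    rw [h2, this]; group
  have hyH : t * w * t⁻¹ ∈ H := by
    apply centralizer_singleton_le h.hP h.hH x hx
    rw [mem_centralizer_singleton_iff]
    calc t * w * t⁻¹ * (t * z * t⁻¹) = t * (w * z) * t⁻¹ := by group
      _ = t * (z * w) * t⁻¹ := by rw [hcomm.eq]
      _ = t * z * t⁻¹ * (t * w * t⁻¹) := by group
  have hy : ¬ p ∣ orderOf (⟨t * w * t⁻¹, hyH⟩ : H) := by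
    rw [← Subgroup.orderOf_coe]
    have := MulEquiv.orderOf_eq (MulAut.conj t) w
    rw [MulAut.conj_apply] at this
    simp only
    rw [this]
    exact hw
  have h1 := vanish_of_const h χ hχ hconst x hx ⟨t * w * t⁻¹, hyH⟩ hy
  have h2 : (x : G) * ((⟨t * w * t⁻¹, hyH⟩ : H) : G) = t * g * t⁻¹ := by
    rw [← hzw]
    simp only [hxdef]
    group
  rw [h2, irr_conj] at h1
  exact h1

theorem exists_mH_ne_of_mem (h : Data p M P H B b θ tw) (χ : IrrCharacter G) (hχ : χ ∈ B) :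
    ∃ l : ↥(P : Subgroup G) →* ℂˣ, mH χ (tw l) ≠ mH χ (tw 1) := by
  by_contra hcon
  push Not at hcon
  have hp : p.Prime := Fact.out
  have hPr := Helper81Local.IsPModular.isPrime h.hM
  have hB : IsPBlock M B := h.hind.2.1
  have h1 := Helper81Orth2.not_dvd_card_div_of_vanish hp χ (vanish_singular h χ hχ hcon)
  have h2 := (Helper81Defect.not_dvd_div_iff hp χ).1 h1
  have h3 := (Helper81Orth2.defect_zero_iff h.hM χ).1 h1
  have h4 : B = {χ} := by rw [isPBlock_eq_blockOf hB hχ, h3]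
  have h5 := Helper20DefCard.card_defectGroup h.hM hB h.hBP
  have h6 : blockDefect p B = 0 := by
    unfold blockDefect
    rw [h4, Set.image_singleton, csInf_singleton, h2, Nat.sub_self]
  rw [h6, pow_zero] at h5
  have h7 : Nat.card (P : Subgroup G) = p := h.hP
  rw [h5] at h7
  exact hp.one_lt.ne h7

end Cfsg.Agent.Lib.Helper1DefOneInn
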