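import Cfsg.Agent.Lib.Helper81KulGDefs
import Cfsg.Agent.Lib.Helper91StarFIN

/-!
# Project 83 (KUL), piece C-NAK: Nakayama for the corner `ι (O G) ι`
-/

set_option autoImplicit false
set_option linter.unusedSectionVars false

namespace Cfsg.Agent.Lib.Helper1KulNAK

open Cfsg
open Cfsg.Agent.Lib.Helper81Local Cfsg.Agent.Lib.Helper20GA Cfsg.Agent.Lib.Helper80IdemDefs
open Cfsg.Agent.Lib.Helper80StarDefs Cfsg.Agent.Lib.Helper4ModRed
open Cfsg.Agent.Lib.Helper81KulDefs Cfsg.Agent.Lib.Helper81KulGDefs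
open Cfsg.Agent.Lib.Helper91StarBASIC

/-- a finite dimensional space of dimension `≤ m` is spanned by `m` vectors. -/
theorem exists_span_fin {k V : Type*} [Field k] [AddCommGroup V] [Module k V] [Module.Finite k V]
    (m : ℕ) (hm : Module.finrank k V ≤ m) :
    ∃ c : Fin m → V, ∀ v : V, ∃ r : Fin m → k, v = ∑ j, r j • c j := by
  classical
  let bs := Module.finBasis k V
  refine ⟨fun j => if h : j.1 < Module.finrank k V then bs ⟨j.1, h⟩ else 0, fun v => ?_⟩
  refine ⟨fun j => if h : j.1 < Module.finrank k V then bs.repr v ⟨j.1, h⟩ else 0, ?_⟩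
  set F : Fin m → V := fun j =>
    (if h : j.1 < Module.finrank k V then bs.repr v ⟨j.1, h⟩ else 0) •
        (if h : j.1 < Module.finrank k V then bs ⟨j.1, h⟩ else 0) with hF
  change v = ∑ j, F j
  have e : ∀ i : Fin (Module.finrank k V), bs.repr v i • bs i = F (Fin.castLEEmb hm i) := by
    intro i
    simp [hF, i.2]
  have h1 : ∑ i, F (Fin.castLEEmb hm i) = ∑ j ∈ Finset.univ.map (Fin.castLEEmb hm), F j :=
    (Finset.sum_map Finset.univ (Fin.castLEEmb hm) F).symm
  have h2 : ∑ j ∈ Finset.univ.map (Fin.castLEEmb hm), F j = ∑ j, F j := by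
    apply Finset.sum_subset (Finset.subset_univ _)
    intro j _ hj
    have : ¬ j.1 < Module.finrank k V := by
      intro h
      apply hj
      rw [Finset.mem_map]
      exact ⟨⟨j.1, h⟩, Finset.mem_univ _, by ext; rfl⟩
    simp [hF, this]
  rw [← h2, ← h1, ← Finset.sum_congr rfl (fun i _ => e i), bs.sum_repr v]

variable {p : ℕ} [Fact p.Prime] {M : Ideal AlgInt} [M.IsPrime] {G : Type*} [Group G] [Fintype G]

/-- `a ↦ ι a ι`. -/
noncomputable def cornerMap (ι : OA M G) : OA M G →ₗ[Rt M] OA M G where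
  toFun a := ι * a * ι
  map_add' a b := by rw [mul_add, add_mul]
  map_smul' r a := by
    rw [mul_smul_comm, smul_mul_assoc]
    rfl

theorem cornerMap_apply (ι a : OA M G) : cornerMap ι a = ι * a * ι := rfl

theorem nak_corner {φ : OA M G →+* MonoidAlgebra (kk M) G} (hφ : IsRed φ) {ι : OA M G}
    (hι : ι * ι = ι) (m : ℕ) (hm : Module.finrank (kk M) (Cor (k := kk M) (φ ι)) ≤ m) :
    ∃ b : Fin m → OA M G, ∀ a : OA M G, ∃ r : Fin m → Rt M, ι * a * ι = ∑ j, r j • b j := by
  classical
  obtain ⟨c, hc⟩ := exists_span_fin (k := kk M) (V := Cor (k := kk M) (φ ι)) m hm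
  choose b' hb' using fun j => hφ.surj (c j : MonoidAlgebra (kk M) G)
  have hφι : φ ι * φ ι = φ ι := by rw [← map_mul, hι]
  have hbφ : ∀ j, φ (ι * b' j * ι) = c j := by
    intro j
    rw [map_mul, map_mul, hb', (c j).2.1, (c j).2.2]
  have hfix : ∀ a, cornerMap ι (cornerMap ι a) = cornerMap ι a := by
    intro a
    simp only [cornerMap_apply]
    calc ι * (ι * a * ι) * ι = (ι * ι) * a * (ι * ι) := by simp only [mul_assoc]
      _ = ι * a * ι := by rw [hι]
  refine ⟨fun j => ι * b' j * ι, ?_⟩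
  set N : Submodule (Rt M) (OA M G) := LinearMap.range (cornerMap ι) with hN
  set N' : Submodule (Rt M) (OA M G) := Submodule.span (Rt M) (Set.range fun j => ι * b' j * ι)
    with hN'
  have hfg : N.FG := by
    have := Helper91StarFIN.finite_OA (M := M) (G := G)
    rw [hN, LinearMap.range_eq_map]
    exact Submodule.FG.map _ (Module.Finite.fg_top)
  have key : N ≤ N' ⊔ IsLocalRing.maximalIdeal (Rt M) • N := by
    rintro x ⟨a, rfl⟩
    have hxV : φ (cornerMap ι a) ∈ Cor (k := kk M) (φ ι) := by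
      rw [mem_Cor, cornerMap_apply]
      constructor
      · rw [← map_mul]
        congr 1
        calc ι * (ι * a * ι) = (ι * ι) * a * ι := by simp only [mul_assoc]
          _ = _ := by rw [hι]
      · rw [← map_mul]
        congr 1
        calc (ι * a * ι) * ι = ι * a * (ι * ι) := by simp only [mul_assoc]
          _ = _ := by rw [hι]
    obtain ⟨rb, hrb⟩ := hc ⟨_, hxV⟩
    choose r hr using fun j => IsLocalRing.residue_surjective (R := Rt M) (rb j)
    have hrb' : φ (cornerMap ι a) = ∑ j, rb j • (c j : MonoidAlgebra (kk M) G) := by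
      have := congrArg (Subtype.val) hrb
      simpa using this
    set y : OA M G := cornerMap ι a - ∑ j, r j • (ι * b' j * ι) with hy
    have hy0 : φ y = 0 := by
      rw [hy, map_sub, map_sum, hrb', sub_eq_zero]
      refine Finset.sum_congr rfl (fun j _ => ?_)
      rw [hφ.smul, hr, hbφ]
    have hym : y ∈ mA (Rt M) (OA M G) := (hφ.ker y).mp hy0
    have hyfix : cornerMap ι y = y := by
      rw [hy, map_sub, map_sum, hfix]
      congr 1
      refine Finset.sum_congr rfl (fun j _ => ?_)
      rw [map_smul]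
      congr 1
      exact hfix (b' j)
    have hyN : y ∈ IsLocalRing.maximalIdeal (Rt M) • N := by
      rw [hN, LinearMap.range_eq_map, ← Submodule.map_smul'', ← hyfix]
      exact Submodule.mem_map_of_mem hym
    have hx : cornerMap ι a = ∑ j, r j • (ι * b' j * ι) + y := by
      rw [hy]; abel
    rw [hx]
    refine Submodule.add_mem_sup ?_ hyN
    refine Submodule.sum_mem _ (fun j _ => Submodule.smul_mem _ _ ?_)
    exact Submodule.subset_span ⟨j, rfl⟩
  have hle : N ≤ N' := Submodule.le_of_le_smul_of_le_jacobson_bot hfg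
    (IsLocalRing.maximalIdeal_le_jacobson _) key
  intro a
  have : ι * a * ι ∈ N' := hle ⟨a, rfl⟩
  rw [hN', Submodule.mem_span_range_iff_exists_fun] at this
  obtain ⟨r, hr⟩ := this
  exact ⟨r, hr.symm⟩

end Cfsg.Agent.Lib.Helper1KulNAK
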