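import Cfsg.Agent.Lib.Helper81KulGDefs

/-!
# Project 83 (KUL), piece C-RED: the reduction `O G → k G` exists
-/

set_option autoImplicit false
set_option linter.unusedSectionVars false

namespace Cfsg.Agent.Lib.Helper1KulRED

open Cfsg
open Cfsg.Agent.Lib.Helper81Local Cfsg.Agent.Lib.Helper20GA Cfsg.Agent.Lib.Helper80IdemDefs
open Cfsg.Agent.Lib.Helper80StarDefs Cfsg.Agent.Lib.Helper4ModRed
open Cfsg.Agent.Lib.Helper81KulDefs Cfsg.Agent.Lib.Helper81KulGDefs
open Cfsg.Agent.Lib.Helper91StarBASIC

variable {M : Ideal AlgInt} [M.IsPrime] {G : Type*} [Group G] [Fintype G]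

/-- `g ↦ g` as a monoid homomorphism into `O G`. -/
noncomputable def ptHom (M : Ideal AlgInt) [M.IsPrime] (G : Type*) [Group G] [Fintype G] :
    G →* OA M G where
  toFun := ptA M
  map_one' := ptA_one
  map_mul' := ptA_mul

/-- Mathlib's group algebra maps onto `O G`. -/
noncomputable def eHom (M : Ideal AlgInt) [M.IsPrime] (G : Type*) [Group G] [Fintype G] :
    MonoidAlgebra (Rt M) G →ₐ[Rt M] OA M G :=
  MonoidAlgebra.lift (Rt M) (OA M G) G (ptHom M G)

theorem eHom_single (g : G) (r : Rt M) :
    eHom M G (MonoidAlgebra.single g r) = r • ptA M g := by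
  unfold eHom
  rw [MonoidAlgebra.lift_single]
  rfl

theorem fn_eHom (x : MonoidAlgebra (Rt M) G) (g : G) :
    fn (eHom M G x) g = (x.coeff g : ℂ) := by
  classical
  induction x using MonoidAlgebra.induction_linear with
  | zero => simp [fn_zero]
  | add x y hx hy =>
    rw [map_add, fn_add, Pi.add_apply, hx, hy]
    simp
  | single h r =>
    rw [eHom_single, fn_smul, fn_ptA]
    change (r : ℂ) * pt h g = _
    rw [MonoidAlgebra.coeff_single, Finsupp.single_apply]
    by_cases hg : h = g
    · subst hg
      simp [pt]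
    · have hg' : g ≠ h := fun e => hg e.symm
      simp [pt, hg, hg']

theorem eHom_injective : Function.Injective (eHom M G) := by
  intro x y h
  apply MonoidAlgebra.coeff_injective
  ext g
  have h1 := fn_eHom x g
  have h2 := fn_eHom y g
  rw [h] at h1
  exact_mod_cast (h1.symm.trans h2)

theorem eHom_surjective : Function.Surjective (eHom M G) := by
  intro a
  refine ⟨∑ g : G, MonoidAlgebra.single g (⟨fn a g, rv_fn a g⟩ : Rt M), ?_⟩
  rw [map_sum]
  conv_rhs => rw [eq_sum_smul_ptA a]
  exact Finset.sum_congr rfl (fun g _ => eHom_single g _)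

/-- Mathlib's group algebra is `O G`. -/
noncomputable def eEquiv (M : Ideal AlgInt) [M.IsPrime] (G : Type*) [Group G] [Fintype G] :
    MonoidAlgebra (Rt M) G ≃ₐ[Rt M] OA M G :=
  AlgEquiv.ofBijective (eHom M G) ⟨eHom_injective, eHom_surjective⟩

theorem eEquiv_apply (x : MonoidAlgebra (Rt M) G) : eEquiv M G x = eHom M G x := rfl

theorem coeff_symm (a : OA M G) (g : G) :
    (((eEquiv M G).symm a).coeff g : ℂ) = fn a g := by
  rw [← fn_eHom, ← eEquiv_apply, AlgEquiv.apply_symm_apply]

/-- the reduction. -/
noncomputable def red (M : Ideal AlgInt) [M.IsPrime] (G : Type*) [Group G] [Fintype G] :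
    OA M G →+* MonoidAlgebra (kk M) G :=
  (MonoidAlgebra.mapRingHom G (IsLocalRing.residue (Rt M))).comp
    ((eEquiv M G).symm : OA M G →+* MonoidAlgebra (Rt M) G)

theorem coeff_red (a : OA M G) (g : G) :
    (red M G a).coeff g = IsLocalRing.residue (Rt M) (((eEquiv M G).symm a).coeff g) := by
  unfold red
  simp

theorem symm_ptA (g : G) : (eEquiv M G).symm (ptA M g) = MonoidAlgebra.single g 1 := by
  rw [AlgEquiv.symm_apply_eq, eEquiv_apply, eHom_single, one_smul]

theorem isRed_red : IsRed (red M G) where
  surj := by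
    classical
    intro y
    choose r hr using fun g : G => IsLocalRing.residue_surjective (R := Rt M) (y.coeff g)
    refine ⟨eEquiv M G (∑ g : G, MonoidAlgebra.single g (r g)), ?_⟩
    apply MonoidAlgebra.coeff_injective
    ext g
    rw [coeff_red, AlgEquiv.symm_apply_apply, MonoidAlgebra.coeff_sum, Finsupp.finsetSum_apply,
      Finset.sum_eq_single g]
    · rw [MonoidAlgebra.coeff_single, Finsupp.single_eq_same, hr]
    · intro b _ hb
      rw [MonoidAlgebra.coeff_single, Finsupp.single_eq_of_ne (Ne.symm hb)]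
    · intro h
      exact absurd (Finset.mem_univ _) h
  smul := by
    intro r a
    apply MonoidAlgebra.coeff_injective
    ext g
    rw [coeff_red, map_smul]
    simp [coeff_red]
  ker := by
    intro a
    rw [mem_mA_iff, ← MonoidAlgebra.coeff_inj]
    constructor
    · intro h g
      have h1 : (red M G a).coeff g = 0 := by rw [h]; rfl
      rw [coeff_red, IsLocalRing.residue_eq_zero_iff, mem_maximalIdeal_Rt_iff, coeff_symm] at h1
      exact h1
    · intro h
      ext g
      rw [coeff_red]
      change _ = (0 : kk M)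
      rw [IsLocalRing.residue_eq_zero_iff, mem_maximalIdeal_Rt_iff, coeff_symm]
      exact h g
  pt := by
    intro g
    apply MonoidAlgebra.coeff_injective
    ext h
    rw [coeff_red, symm_ptA]
    classical
    rw [MonoidAlgebra.of_apply, MonoidAlgebra.coeff_single, MonoidAlgebra.coeff_single,
      Finsupp.single_apply, Finsupp.single_apply]
    split_ifs <;> simp

theorem exists_red : ∃ φ : OA M G →+* MonoidAlgebra (kk M) G, IsRed φ := ⟨red M G, isRed_red⟩

end Cfsg.Agent.Lib.Helper1KulRED
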