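import Mathlib
import Cfsg.Prelude.Def_Blocks
import Cfsg.Agent.Lib.Helper21Cover3
import Cfsg.Agent.Lib.Helper21Cover4
import Cfsg.Agent.Lib.Helper81Defect
import Cfsg.Agent.Lib.Helper4Burnside

set_option autoImplicit false
set_option linter.unusedSectionVars false
set_option linter.unusedVariables false
set_option linter.style.haveILetI false

/-! Blocks of `G / Z` for a central `p`-subgroup `Z`, and the deficiency class. -/

namespace Cfsg.Agent.Lib.Helper20Defic

open Cfsg
open Cfsg.Agent.Lib.Helper81Local Cfsg.Agent.Lib.Helper81Base Cfsg.Agent.Lib.Helper81BB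
  Cfsg.Agent.Lib.Helper81Block Cfsg.Agent.Lib.Helper81Orth
  Cfsg.Agent.Lib.Helper21Cover Cfsg.Agent.Lib.Helper21Cover2 Cfsg.Agent.Lib.Helper82Quot
  Cfsg.Agent.Lib.Helper21Cover3 Cfsg.Agent.Lib.Helper21Cover4 Cfsg.Agent.Lib.Helper81Defect

variable {G : Type*} [Group G] [Fintype G] {M : Ideal Cfsg.AlgInt} {p : ℕ} [Fact p.Prime]

theorem sameBlock_of_inflate_central (hM : IsPModular p M) (Z : Subgroup G) [hZn : Z.Normal]
    [Fintype (G ⧸ Z)] (hZ : IsPGroup p Z) (hZc : Z ≤ Subgroup.center G)
    {χ ψ : IrrCharacter (G ⧸ Z)}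
    (h : SameBlock M (inflate Z χ : G → ℂ) (inflate Z ψ : G → ℂ)) :
    SameBlock M (χ : G ⧸ Z → ℂ) (ψ : G ⧸ Z → ℂ) := by
  classical
  have := IsPModular.isPrime hM
  set e := blockCoeff (blockOf M (χ : G ⧸ Z → ℂ)) with he
  have hecf : IsClassFunction (G ⧸ Z) e := blockCoeff_classfn _
  have ord_conj : ∀ g k : G, orderOf (k * g * k⁻¹) = orderOf g := by
    intro g k
    have := (MulAut.conj k).orderOf_eq g
    simpa using this
  apply sameBlock_of_inflate_of_lift h
    (α := fun g => if p ∣ orderOf g then 0 else e (g : G ⧸ Z))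
  · intro g k
    dsimp only
    rw [ord_conj]
    have := hecf (g : G ⧸ Z) (k : G ⧸ Z)
    rw [QuotientGroup.mk_mul, QuotientGroup.mk_mul, QuotientGroup.mk_inv, this]
  · intro g
    split_ifs
    · simpa using memLocalRing_natCast (M := M) 0
    · exact osima (isPBlock_blockOf χ) _
  · funext y
    unfold push
    beta_reduce
    by_cases hy0 : e y = 0
    · rw [← he, hy0]
      apply Finset.sum_eq_zero
      intro g _
      split_ifs with h1 h2
      · rfl
      · rw [h1, hy0]
      · rfl
    · have hy : ¬ p ∣ orderOf y := fun hy =>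
        hy0 (blockCoeff_eq_zero_of_singular hM (isPBlock_blockOf χ) hy)
      obtain ⟨x, hx, hxr⟩ := exists_regular_lift hM.1 Z hy
      rw [Finset.sum_eq_single x]
      · rw [if_pos hx, if_neg hxr, hx]
      · intro g _ hgx
        split_ifs with h1 h2
        · rfl
        · exfalso
          apply hgx
          have hu : x⁻¹ * g ∈ Z := by
            rw [← QuotientGroup.eq, hx, h1]
          have hcomm : Commute x (x⁻¹ * g) :=
            (Subgroup.mem_center_iff.1 (hZc hu)) x
          have hpow : ∃ k : ℕ, (x⁻¹ * g) ^ p ^ k = 1 := by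
            obtain ⟨k, hk⟩ := hZ ⟨_, hu⟩
            refine ⟨k, ?_⟩
            have := congrArg Subtype.val hk
            simpa using this
          have h3 := eq_of_regular_of_commute hM.1 hcomm hpow hxr (by
            rw [mul_inv_cancel_left]; exact h2)
          exact (inv_mul_eq_one.1 h3).symm
        · rfl
      · intro hh
        exact absurd (Finset.mem_univ _) hh

/-- the deficiency class drops in the quotient by a central subgroup of order `p`. -/
theorem deficiency_quot (hM : IsPModular p M) (Z : Subgroup G) [hZn : Z.Normal]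
    (hZ : Nat.card Z = p) (hZc : Z ≤ Subgroup.center G) {r : ℕ}
    (h : ∀ B : Set (IrrCharacter G), IsPBlock M B → B ≠ principalBlock M G → blockDefect p B < r)
    (Bbar : Set (IrrCharacter (G ⧸ Z))) (hBbar : IsPBlock M Bbar)
    (hne : Bbar ≠ principalBlock M (G ⧸ Z)) : blockDefect p Bbar + 1 < r := by
  classical
  haveI : Fintype (G ⧸ Z) := Fintype.ofFinite _
  have hPr := IsPModular.isPrime hM
  have hp : p.Prime := Fact.out
  have hZp : IsPGroup p Z := IsPGroup.of_card (n := 1) (by rw [hZ, pow_one])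
  obtain ⟨χ₀, rfl⟩ := hBbar
  obtain ⟨χ, hχ, hmin⟩ := exists_minVal (p := p) (B := blockOf M (χ₀ : G ⧸ Z → ℂ))
    ⟨χ₀, self_mem_blockOf χ₀⟩
  have hBne : blockOf M (inflate Z χ : G → ℂ) ≠ principalBlock M G := by
    intro he
    apply hne
    have h1 : inflate Z χ ∈ principalBlock M G := he ▸ self_mem_blockOf (inflate Z χ)
    let one' : IrrCharacter (G ⧸ Z) := ⟨fun _ => 1, Cfsg.Agent.Lib.Helper4Burnside.isIrrCharacter_one⟩
    have h2 : SameBlock M (inflate Z one' : G → ℂ) (inflate Z χ : G → ℂ) := h1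
    have h3 := sameBlock_of_inflate_central hM Z hZp hZc h2
    have h4 : χ ∈ principalBlock M (G ⧸ Z) := h3
    rw [isPBlock_eq_blockOf (isPBlock_blockOf χ₀) hχ]
    exact (isPBlock_eq_blockOf (⟨one', rfl⟩ : IsPBlock M (principalBlock M (G ⧸ Z))) h4).symm
  have hlt := h _ (isPBlock_blockOf (inflate Z χ)) hBne
  have h5 := minVal_le (p := p) (self_mem_blockOf (M := M) (inflate Z χ))
  have h6 : charDegree (inflate Z χ : G → ℂ) = charDegree (χ : G ⧸ Z → ℂ) := rfl
  have h7 := minVal_le_card (p := p) (B := blockOf M (χ₀ : G ⧸ Z → ℂ)) ⟨χ₀, self_mem_blockOf χ₀⟩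
  have h8 : (Nat.card G).factorization p = (Nat.card (G ⧸ Z)).factorization p + 1 := by
    rw [Subgroup.card_eq_card_quotient_mul_card_subgroup Z, hZ,
      Nat.factorization_mul Nat.card_pos.ne' hp.ne_zero]
    simp [hp.factorization_self]
  rw [blockDefect_def] at hlt ⊢
  rw [h6, hmin] at h5
  omega

end Cfsg.Agent.Lib.Helper20Defic
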