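import Mathlib
import Cfsg.Prelude.Def_Blocks
import Cfsg.Agent.Lib.Helper20Down
import Cfsg.Agent.Lib.Helper20Ext

set_option autoImplicit false
set_option linter.unusedSectionVars false
set_option linter.unusedVariables false

/-! The extended first main theorem: the defect of the block induced from `P C(P)`. -/

namespace Cfsg.Agent.Lib.Helper20ExtFirst

open Cfsg
open Cfsg.Agent.Lib.Helper20Local Cfsg.Agent.Lib.Helper20Center Cfsg.Agent.Lib.Helper20Block
open Cfsg.Agent.Lib.Helper20Ideal Cfsg.Agent.Lib.Helper20Defect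
open Cfsg.Agent.Lib.Helper19Ind Cfsg.Agent.Lib.Helper20First Cfsg.Agent.Lib.Helper20Induced
open Cfsg.Agent.Lib.Helper4Char Cfsg.Agent.Lib.Helper4Char2
open Cfsg.Agent.Lib.Helper87Sylow Cfsg.Agent.Lib.Helper20Sub
open Cfsg.Agent.Lib.Helper20Conj Cfsg.Agent.Lib.Helper20DefCard Cfsg.Agent.Lib.Helper20Height
open Cfsg.Agent.Lib.Helper21Cover Cfsg.Agent.Lib.Helper21Cover4 Cfsg.Agent.Lib.Helper20Cov
open Cfsg.Agent.Lib.Helper20Fong Cfsg.Agent.Lib.Helper20Tower Cfsg.Agent.Lib.Helper80Transport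
open Cfsg.Agent.Lib.Helper82Quot Cfsg.Agent.Lib.Helper21FR Cfsg.Agent.Lib.Helper21FR2
open Cfsg.Agent.Lib.Helper20Down Cfsg.Agent.Lib.Helper20Ext Cfsg.Agent.Lib.Helper20Major
open Cfsg.Agent.Lib.Helper20Brauer

variable {G : Type*} [Group G] [Fintype G] {M : Ideal Cfsg.AlgInt} {p : ℕ} [Fact p.Prime]

/-- the stabilizer of a block of `H ≤ L`, `H` normal in `L`, computed inside `L`. -/
theorem isStab_down {H L T : Subgroup G} [Fintype L] [Fintype (H.subgroupOf L)]
    (hHL : H ≤ L) (hN₁ : (H.subgroupOf L).Normal)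
    {b : Set (IrrCharacter H)}
    (hT : ∀ g : G, g ∈ T ↔ (g ∈ L ∧ ∀ θ ∈ b, ∀ θ' : IrrCharacter H,
      (∀ h h' : H, (h' : G) = g * h * g⁻¹ → (θ' : H → ℂ) h' = (θ : H → ℂ) h) → θ' ∈ b)) :
    IsStab hN₁ (down hHL b) (T.subgroupOf L) := by
  intro g
  rw [Subgroup.mem_subgroupOf, ← T.inv_mem_iff, hT]
  have hσc : ∀ n : H.subgroupOf L,
      (((Subgroup.subgroupOfEquivOfLe hHL).symm.symm n : H) : G) = ((n : L) : G) := fun n => rfl
  have hσc' : ∀ x : H,
      ((((Subgroup.subgroupOfEquivOfLe hHL).symm x : H.subgroupOf L) : L) : G) = (x : G) :=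
    fun n => rfl
  constructor
  · rintro ⟨-, h⟩ _ ⟨θ, hθ, rfl⟩
    have h1 := h θ hθ (irrCongr (Subgroup.subgroupOfEquivOfLe hHL).symm.symm
      (cjI hN₁ (irrCongr (Subgroup.subgroupOfEquivOfLe hHL).symm θ) g)) (by
      intro x x' hx
      rw [irrCongr_apply, cjI_apply, irrCongr_apply]
      have e : ((Subgroup.subgroupOfEquivOfLe hHL).symm.symm
          ⟨g * (((Subgroup.subgroupOfEquivOfLe hHL).symm.symm.symm x' : H.subgroupOf L) : L) * g⁻¹,
            hN₁.conj_mem _ (Subtype.property _) g⟩ : H) = x := by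
        apply Subtype.ext
        rw [hσc]
        change (g : G) * ((((Subgroup.subgroupOfEquivOfLe hHL).symm x' : H.subgroupOf L) : L) : G)
          * (g : G)⁻¹ = x
        rw [hσc', hx]
        group
      rw [e])
    refine ⟨_, h1, ?_⟩
    apply Subtype.ext
    funext n
    rw [irrCongr_apply, irrCongr_apply]
    rw [MulEquiv.symm_symm, MulEquiv.symm_symm, MulEquiv.symm_apply_apply]
  · intro h
    refine ⟨L.inv_mem g.2, fun θ hθ θ' hc => ?_⟩
    have h1 := h (irrCongr (Subgroup.subgroupOfEquivOfLe hHL).symm θ) ⟨θ, hθ, rfl⟩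
    have h2 : irrCongr (Subgroup.subgroupOfEquivOfLe hHL).symm θ'
        = cjI hN₁ (irrCongr (Subgroup.subgroupOfEquivOfLe hHL).symm θ) g := by
      apply Subtype.ext
      funext n
      rw [irrCongr_apply, cjI_apply, irrCongr_apply]
      apply hc
      rw [hσc, hσc]
      change ((n : L) : G) = (g : G)⁻¹ * ((g : G) * ((n : L) : G) * (g : G)⁻¹) * (g : G)⁻¹⁻¹
      group
    rw [← h2] at h1
    exact (mem_mapBlk (Subgroup.subgroupOfEquivOfLe hHL).symm).1 h1

/-- **Extended first main theorem**, numerical form. -/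
theorem defect_induced (hM : IsPModular p M) {P : Subgroup G} (hP : IsPGroup p P)
    {b : Set (IrrCharacter ↥(P ⊔ Subgroup.centralizer (P : Set G)))}
    {B : Set (IrrCharacter G)}
    (hind : IsInducedBlock M (P ⊔ Subgroup.centralizer (P : Set G)) b B) {T : Subgroup G}
    (hT : ∀ g : G, g ∈ T ↔ (g ∈ Subgroup.normalizer (P : Set G) ∧ ∀ θ ∈ b,
      ∀ θ' : IrrCharacter ↥(P ⊔ Subgroup.centralizer (P : Set G)),
      (∀ h h' : ↥(P ⊔ Subgroup.centralizer (P : Set G)), (h' : G) = g * h * g⁻¹ →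
        (θ' : _ → ℂ) h' = (θ : _ → ℂ) h) → θ' ∈ b)) :
    ∃ β : Set (IrrCharacter (Subgroup.normalizer (P : Set G))),
      IsInducedBlock M (Subgroup.normalizer (P : Set G)) β B ∧
      blockDefect p β = blockDefect p b
        + ((P ⊔ Subgroup.centralizer (P : Set G)).relIndex T).factorization p := by
  classical
  have hPr := IsPModular.isPrime hM
  have := hPr
  obtain ⟨β, hβ1, hβ2⟩ := exists_middle hM hP hind
  refine ⟨β, hβ2, ?_⟩
  have hHL := sup_centralizer_le_normalizer P
  have hN₁ : ((P ⊔ Subgroup.centralizer (P : Set G)).subgroupOf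
      (Subgroup.normalizer (P : Set G))).Normal :=
    (Subgroup.normal_subgroupOf_iff_le_normalizer hHL).2 (normalizer_le_normalizer_sup P)
  have hP₁n : (P.subgroupOf (Subgroup.normalizer (P : Set G))).Normal :=
    Subgroup.normal_in_normalizer
  have hP₁ : IsPGroup p (P.subgroupOf (Subgroup.normalizer (P : Set G))) :=
    hP.of_equiv (Subgroup.subgroupOfEquivOfLe Subgroup.le_normalizer).symm
  have hC₁ : Subgroup.centralizer ((P.subgroupOf (Subgroup.normalizer (P : Set G)) :
      Subgroup (Subgroup.normalizer (P : Set G))) : Set (Subgroup.normalizer (P : Set G)))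
      ≤ (P ⊔ Subgroup.centralizer (P : Set G)).subgroupOf (Subgroup.normalizer (P : Set G)) := by
    intro x hx
    exact (le_sup_right : Subgroup.centralizer (P : Set G) ≤ P ⊔ Subgroup.centralizer (P : Set G))
      ((mem_centralizer_subgroupOf_iff Subgroup.le_normalizer x).mp hx)
  have hb₁ := hβ1.1
  have huniq : ∀ B' : Set (IrrCharacter (Subgroup.normalizer (P : Set G))), IsPBlock M B' →
      Cv B' (down hHL b) → B' = β := by
    intro B' hB' hcv
    exact induced_block_unique hPr (isInducedBlock_of_covers hM hP₁ hC₁ hB' hb₁ hcv) hβ1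
  have hcov : Cv β (down hHL b) := by
    obtain ⟨B', hB', hcv⟩ := exists_covering (G := Subgroup.normalizer (P : Set G)) hb₁
    rw [← huniq B' hB' hcv]
    exact hcv
  have hTL : T ≤ Subgroup.normalizer (P : Set G) := fun g hg => ((hT g).1 hg).1
  have hstab := isStab_down hHL hN₁ hT
  have hHT : (P ⊔ Subgroup.centralizer (P : Set G)).subgroupOf (Subgroup.normalizer (P : Set G))
      ≤ T.subgroupOf (Subgroup.normalizer (P : Set G)) := by
    intro x hx
    rw [hstab x]
    intro θ hθ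
    have : cjI hN₁ θ x = θ := by
      apply Subtype.ext
      funext n
      rw [cjI_apply]
      exact IsIrrCharacter.isClassFunction θ.2 n ⟨x, hx⟩
    rw [this]; exact hθ
  have h1 := defect_of_unique_covering hM hb₁ hHT hstab hβ1.2.1 hcov huniq
  rw [blockDefect_down, Subgroup.relIndex_subgroupOf hTL] at h1
  exact h1

end Cfsg.Agent.Lib.Helper20ExtFirst
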