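import Mathlib
import Cfsg.Agent.S0212

set_option autoImplicit false
set_option linter.unusedSectionVars false
set_option linter.unusedVariables false
set_option linter.style.haveILetI false
set_option linter.deprecated false

/-! A finite group with a four-group all of whose involutions have small centralizers, and with
small Sylow 2-subgroups, is small. -/

namespace Cfsg.Agent.Lib.Helper20Four

open Cfsg.Agent.S0212

section BF

variable {G : Type*} [Group G] [Finite G]

/-- Brauer–Fowler: some non-identity element has a centralizer of small index. -/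
theorem exists_small_index (t : G) (ht : orderOf t = 2) :
    ∃ x : G, x ≠ 1 ∧ (Subgroup.centralizer ({x} : Set G)).index
      ≤ 2 * (Nat.card (Subgroup.centralizer ({t} : Set G))) ^ 2 := by
  classical
  haveI : Fintype G := Fintype.ofFinite G
  set c := Nat.card (Subgroup.centralizer ({t} : Set G)) with hc
  have hcpos : 0 < c := Nat.card_pos
  have ht1 : t ≠ 1 := by
    intro h
    rw [h, orderOf_one] at ht
    omega
  by_cases htop : Subgroup.centralizer ({t} : Set G) = ⊤
  · refine ⟨t, ht1, ?_⟩
    rw [htop, Subgroup.index_top]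
    nlinarith
  by_contra hbig
  push Not at hbig
  have hidx : ∀ x : G, x ≠ 1 → 2 * c ^ 2 + 1 ≤ (Subgroup.centralizer ({x} : Set G)).index := by
    intro x hx
    exact hbig x hx
  set g := Nat.card G with hg
  have hCx : ∀ x : G, x ≠ 1 →
      Nat.card (Subgroup.centralizer ({x} : Set G)) * (2 * c ^ 2 + 1) ≤ g := by
    intro x hx
    rw [hg, ← (Subgroup.centralizer ({x} : Set G)).card_mul_index]
    exact Nat.mul_le_mul_left _ (hidx x hx)
  have h2c : 2 * c ≤ g := by
    have h1 := (Subgroup.centralizer ({t} : Set G)).card_mul_index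
    have h2 : (Subgroup.centralizer ({t} : Set G)).index ≠ 1 := by
      rw [Ne, Subgroup.index_eq_one]; exact htop
    have h3 : (Subgroup.centralizer ({t} : Set G)).index ≠ 0 := Subgroup.index_ne_zero_of_finite
    have h4 : 2 ≤ (Subgroup.centralizer ({t} : Set G)).index := by omega
    rw [hg, ← h1, mul_comm]
    exact Nat.mul_le_mul_left _ h4
  set I : Finset G := Finset.univ.filter (fun u => orderOf u = 2) with hI
  set m := I.card with hm
  have hsq : ∀ u ∈ I, u * u = 1 := by
    intro u hu
    rw [hI, Finset.mem_filter] at hu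
    have := pow_orderOf_eq_one u
    rwa [hu.2, pow_two] at this
  have hgm : g ≤ c * m := by
    have h1 := Finset.card_le_mul_card_image (f := fun a : G => a * t * a⁻¹) Finset.univ c
      (by
        intro y _
        exact card_conj_eq_le t y)
    have h2 : (Finset.univ.image (fun a : G => a * t * a⁻¹)).card ≤ m := by
      apply Finset.card_le_card
      intro y hy
      rw [Finset.mem_image] at hy
      obtain ⟨a, _, rfl⟩ := hy
      rw [hI, Finset.mem_filter]
      refine ⟨Finset.mem_univ _, ?_⟩
      have := orderOf_injective (MulAut.conj a).toMonoidHom (MulAut.conj a).injective t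
      rw [← ht, ← this]
      simp
    rw [Finset.card_univ, ← Nat.card_eq_fintype_card] at h1
    calc g ≤ c * _ := h1
      _ ≤ c * m := Nat.mul_le_mul_left _ h2
  have hfib : ∀ x : G, ((I ×ˢ I).filter (fun p => p.1 * p.2 = x)).card ≤
      (Finset.univ.filter (fun a : G => a * x * a⁻¹ = x⁻¹)).card := by
    intro x
    apply Finset.card_le_card_of_injOn (fun p => p.1)
    · intro p hp
      simp only [Finset.coe_filter, Finset.mem_product, Set.mem_setOf_eq] at hp
      obtain ⟨⟨hu, hv⟩, hx⟩ := hp
      simp only [Finset.coe_filter, Finset.mem_univ, true_and, Set.mem_setOf_eq]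
      have hu2 := hsq _ hu
      have hv2 := hsq _ hv
      have hui : p.1⁻¹ = p.1 := inv_eq_of_mul_eq_one_left hu2
      have hvi : p.2⁻¹ = p.2 := inv_eq_of_mul_eq_one_left hv2
      rw [← hx, mul_inv_rev, hui, hvi, ← mul_assoc, hu2, one_mul]
    · intro p hp q hq hpq
      simp only [Finset.coe_filter, Finset.mem_product, Set.mem_setOf_eq] at hp hq
      simp only at hpq
      apply Prod.ext hpq
      have := hp.2.trans hq.2.symm
      rw [hpq] at this
      exact mul_left_cancel this
  have hfib1 : ((I ×ˢ I).filter (fun p => p.1 * p.2 = 1)).card ≤ m := by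
    apply Finset.card_le_card_of_injOn (fun p => p.1)
    · intro p hp
      simp only [Finset.coe_filter, Finset.mem_product, Set.mem_setOf_eq] at hp
      exact hp.1.1
    · intro p hp q hq hpq
      simp only [Finset.coe_filter, Finset.mem_product, Set.mem_setOf_eq] at hp hq
      simp only at hpq
      apply Prod.ext hpq
      have := hp.2.trans hq.2.symm
      rw [hpq] at this
      exact mul_left_cancel this
  have hsum : m * m = ∑ x : G, ((I ×ˢ I).filter (fun p => p.1 * p.2 = x)).card := by
    rw [hm, ← Finset.card_product]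
    exact Finset.card_eq_sum_card_fiberwise (fun _ _ => Finset.mem_univ _)
  have hmain : (2 * c ^ 2 + 1) * (m * m) ≤ (2 * c ^ 2 + 1) * m + (g - 1) * g := by
    rw [hsum, Finset.mul_sum, ← Finset.add_sum_erase _ _ (Finset.mem_univ (1 : G))]
    apply Nat.add_le_add
    · exact Nat.mul_le_mul_left _ hfib1
    · calc ∑ x ∈ Finset.univ.erase (1 : G), (2 * c ^ 2 + 1) * ((I ×ˢ I).filter (fun p => p.1 * p.2 = x)).card
          ≤ ∑ x ∈ Finset.univ.erase (1 : G), g := by
            apply Finset.sum_le_sum
            intro x hx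
            have hx1 : x ≠ 1 := Finset.ne_of_mem_erase hx
            calc (2 * c ^ 2 + 1) * ((I ×ˢ I).filter (fun p => p.1 * p.2 = x)).card
                ≤ (2 * c ^ 2 + 1) * Nat.card (Subgroup.centralizer ({x} : Set G)) :=
                  Nat.mul_le_mul_left _ ((hfib x).trans (card_conj_eq_le x x⁻¹))
              _ ≤ g := by rw [mul_comm]; exact hCx x hx1
        _ = (g - 1) * g := by
            rw [Finset.sum_const, Finset.card_erase_of_mem (Finset.mem_univ _), Finset.card_univ,
              ← Nat.card_eq_fintype_card, smul_eq_mul]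
  have hgpos : 1 ≤ g := by omega
  zify [hgpos] at hmain hgm h2c
  have hcz : (1 : ℤ) ≤ c := by exact_mod_cast hcpos
  have hmz : (0 : ℤ) ≤ m := by positivity
  have hgz : (1 : ℤ) ≤ g := by exact_mod_cast hgpos
  set M : ℤ := (c : ℤ) * m with hM
  have e1 : (2 * (c : ℤ) ^ 2 + 1) * ((m : ℤ) * m) - (2 * (c : ℤ) ^ 2 + 1) * m
      = 2 * M * (M - c) + ((m : ℤ) * m - m) := by rw [hM]; ring
  have e2 : (g : ℤ) * g ≤ 2 * M * (M - c) := by nlinarith
  have e3 : (0 : ℤ) ≤ (m : ℤ) * m - m := by
    rcases Nat.eq_zero_or_pos m with h | h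
    · rw [h]; simp
    · have : (1 : ℤ) ≤ m := by exact_mod_cast h
      nlinarith
  nlinarith

theorem index_normalCore_le (H : Subgroup G) : H.normalCore.index ≤ H.index.factorial := by
  rw [Subgroup.normalCore_eq_ker, Subgroup.index_ker]
  have h := Nat.card_le_card_of_injective _
    (Subtype.val_injective (p := fun x => x ∈ (MulAction.toPermHom G (G ⧸ H)).range))
  rw [Nat.card_perm] at h
  exact h

end BF

section Quot

variable {G : Type*} [Group G] [Finite G]

theorem card_mul_relIndex' {H K : Subgroup G} (h : H ≤ K) :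
    Nat.card H * H.relIndex K = Nat.card K := by
  have := Subgroup.relIndex_mul_relIndex (⊥ : Subgroup G) H K bot_le h
  rwa [Subgroup.relIndex_bot_left, Subgroup.relIndex_bot_left] at this

theorem card_eq_filter [Fintype G] [DecidableEq G] (A : Subgroup G) [DecidablePred (· ∈ A)] :
    Nat.card A = (Finset.univ.filter (fun x : G => x ∈ A)).card := by
  rw [Nat.card_eq_fintype_card, Fintype.card_subtype]

/-- the class of an element of a normal subgroup lies in that subgroup. -/
theorem card_le_of_mem_normal (A : Subgroup G) [hA : A.Normal] {v : G} (hv : v ∈ A) :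
    Nat.card G ≤ Nat.card (Subgroup.centralizer ({v} : Set G)) * Nat.card A := by
  classical
  haveI : Fintype G := Fintype.ofFinite G
  have h1 := Finset.card_le_mul_card_image (f := fun a : G => a * v * a⁻¹) Finset.univ
    (Nat.card (Subgroup.centralizer ({v} : Set G))) (by intro y _; exact card_conj_eq_le v y)
  have h2 : (Finset.univ.image (fun a : G => a * v * a⁻¹)).card ≤ Nat.card A := by
    rw [card_eq_filter A]
    apply Finset.card_le_card
    intro y hy
    rw [Finset.mem_image] at hy
    obtain ⟨a, _, rfl⟩ := hy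
    rw [Finset.mem_filter]
    exact ⟨Finset.mem_univ _, hA.conj_mem v hv a⟩
  rw [Finset.card_univ, ← Nat.card_eq_fintype_card] at h1
  exact h1.trans (Nat.mul_le_mul_left _ h2)

theorem card_comap_mk (A : Subgroup G) [hA : A.Normal] (C : Subgroup (G ⧸ A)) :
    Nat.card (C.comap (QuotientGroup.mk' A)) = Nat.card A * Nat.card C := by
  have h1 := Subgroup.index_comap_of_surjective C (QuotientGroup.mk'_surjective A)
  have h2 := (C.comap (QuotientGroup.mk' A)).card_mul_index
  have h3 := C.card_mul_index
  have h4 := Subgroup.card_eq_card_quotient_mul_card_subgroup A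
  have h5 : C.index ≠ 0 := Subgroup.index_ne_zero_of_finite
  rw [h1] at h2
  have : Nat.card (C.comap (QuotientGroup.mk' A)) * C.index
      = Nat.card A * Nat.card C * C.index := by
    rw [h2, h4, ← h3]
    ring
  exact Nat.eq_of_mul_eq_mul_right (Nat.pos_of_ne_zero h5) this

theorem quot_centralizer [Fintype G] [DecidableEq G] (A : Subgroup G) [hA : A.Normal] (v : G)
    (T : Finset G) (hT : ∀ g : G, g * v * g⁻¹ * v⁻¹ ∈ A → g * v * g⁻¹ ∈ T) :
    Nat.card A * Nat.card (Subgroup.centralizer ({(v : G ⧸ A)} : Set (G ⧸ A)))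
      ≤ Nat.card (Subgroup.centralizer ({v} : Set G)) * T.card := by
  classical
  rw [← card_comap_mk, card_eq_filter]
  have h1 := Finset.card_le_mul_card_image (f := fun a : G => a * v * a⁻¹)
    (Finset.univ.filter (fun x : G => x ∈ (Subgroup.centralizer
      ({(v : G ⧸ A)} : Set (G ⧸ A))).comap (QuotientGroup.mk' A)))
    (Nat.card (Subgroup.centralizer ({v} : Set G))) (by
      intro y _
      refine le_trans (Finset.card_le_card ?_) (card_conj_eq_le v y)
      intro a ha
      rw [Finset.mem_filter] at ha ⊢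
      exact ⟨Finset.mem_univ _, ha.2⟩)
  refine h1.trans (Nat.mul_le_mul_left _ (Finset.card_le_card ?_))
  intro y hy
  rw [Finset.mem_image] at hy
  obtain ⟨a, ha, rfl⟩ := hy
  rw [Finset.mem_filter, Subgroup.mem_comap, Subgroup.mem_centralizer_singleton_iff] at ha
  apply hT
  rw [← QuotientGroup.eq_one_iff]
  have h := ha.2
  simp only [QuotientGroup.mk'_apply] at h
  rw [QuotientGroup.mk_mul, QuotientGroup.mk_mul, QuotientGroup.mk_mul, QuotientGroup.mk_inv,
    QuotientGroup.mk_inv, h]
  group

theorem card_coset [Fintype G] [DecidableEq G] (A : Subgroup G) [DecidablePred (· ∈ A)] (v : G) :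
    ((Finset.univ.filter (fun x : G => x ∈ A)).image (fun a => a * v)).card = Nat.card A := by
  rw [Finset.card_image_of_injective _ (mul_left_injective v), card_eq_filter]

theorem card_quot_centralizer_le (A : Subgroup G) [hA : A.Normal] (v : G) :
    Nat.card (Subgroup.centralizer ({(v : G ⧸ A)} : Set (G ⧸ A)))
      ≤ Nat.card (Subgroup.centralizer ({v} : Set G)) := by
  classical
  haveI : Fintype G := Fintype.ofFinite G
  have h := quot_centralizer A v ((Finset.univ.filter (fun x : G => x ∈ A)).image (fun a => a * v))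
    (by
      intro g hg
      rw [Finset.mem_image]
      refine ⟨g * v * g⁻¹ * v⁻¹, ?_, by group⟩
      rw [Finset.mem_filter]
      exact ⟨Finset.mem_univ _, hg⟩)
  rw [card_coset, mul_comm] at h
  exact Nat.le_of_mul_le_mul_right h Nat.card_pos

theorem card_quot_centralizer_lt (A : Subgroup G) [hA : A.Normal] {v : G} (hv : v * v = 1)
    {a₀ : G} (ha₀ : a₀ ∈ A) (h₀ : (a₀ * v) * (a₀ * v) ≠ 1) :
    Nat.card (Subgroup.centralizer ({(v : G ⧸ A)} : Set (G ⧸ A)))
      < Nat.card (Subgroup.centralizer ({v} : Set G)) := by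
  classical
  haveI : Fintype G := Fintype.ofFinite G
  have h := quot_centralizer A v
    (((Finset.univ.filter (fun x : G => x ∈ A)).image (fun a => a * v)).erase (a₀ * v))
    (by
      intro g hg
      rw [Finset.mem_erase, Finset.mem_image]
      refine ⟨?_, g * v * g⁻¹ * v⁻¹, ?_, by group⟩
      · intro he
        apply h₀
        rw [← he]
        calc g * v * g⁻¹ * (g * v * g⁻¹) = g * (v * v) * g⁻¹ := by group
          _ = 1 := by rw [hv]; group
      · rw [Finset.mem_filter]
        exact ⟨Finset.mem_univ _, hg⟩)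
  rw [Finset.card_erase_of_mem (by
    rw [Finset.mem_image]
    exact ⟨a₀, by rw [Finset.mem_filter]; exact ⟨Finset.mem_univ _, ha₀⟩, rfl⟩), card_coset] at h
  have hA1 : 0 < Nat.card A := Nat.card_pos
  have hC1 : 0 < Nat.card (Subgroup.centralizer ({v} : Set G)) := Nat.card_pos
  by_contra hcon
  push Not at hcon
  have h2 : Nat.card A * Nat.card (Subgroup.centralizer ({v} : Set G))
      ≤ Nat.card (Subgroup.centralizer ({v} : Set G)) * (Nat.card A - 1) :=
    le_trans (Nat.mul_le_mul_left _ hcon) h
  have h3 : Nat.card (Subgroup.centralizer ({v} : Set G)) * (Nat.card A - 1)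
      < Nat.card (Subgroup.centralizer ({v} : Set G)) * Nat.card A :=
    Nat.mul_lt_mul_of_pos_left (by omega) hC1
  rw [mul_comm (Nat.card A)] at h2
  omega

end Quot

section Abelian

variable {G : Type*} [Group G] [Finite G]

/-- the elements of square one of an abelian subgroup. -/
def sqOne (W : Subgroup G) (hab : ∀ x ∈ W, ∀ y ∈ W, x * y = y * x) : Subgroup G where
  carrier := {z | z ∈ W ∧ z * z = 1}
  one_mem' := ⟨W.one_mem, by simp⟩
  mul_mem' := by
    rintro a b ⟨ha, ha2⟩ ⟨hb, hb2⟩
    refine ⟨W.mul_mem ha hb, ?_⟩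
    calc a * b * (a * b) = a * (b * a) * b := by group
      _ = a * (a * b) * b := by rw [hab b hb a ha]
      _ = (a * a) * (b * b) := by group
      _ = 1 := by rw [ha2, hb2, one_mul]
  inv_mem' := by
    rintro a ⟨ha, ha2⟩
    refine ⟨W.inv_mem ha, ?_⟩
    calc a⁻¹ * a⁻¹ = (a * a)⁻¹ := by group
      _ = 1 := by rw [ha2, inv_one]

theorem card_sqOne_le (W : Subgroup G) (hab : ∀ x ∈ W, ∀ y ∈ W, x * y = y * x) :
    Nat.card (sqOne W hab) ≤ 2 ^ (Nat.card G).factorization 2 := by
  have hp : IsPGroup 2 (sqOne W hab) := by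
    intro z
    refine ⟨1, ?_⟩
    apply Subtype.ext
    have := z.2.2
    simpa [pow_two] using this
  haveI : Fact (Nat.Prime 2) := ⟨Nat.prime_two⟩
  obtain ⟨k, hk⟩ := IsPGroup.iff_card.mp hp
  rw [hk]
  apply Nat.pow_le_pow_right (by norm_num)
  have hdvd : 2 ^ k ∣ Nat.card G := hk ▸ Subgroup.card_subgroup_dvd_card _
  exact (Nat.Prime.pow_dvd_iff_le_factorization Nat.prime_two Nat.card_pos.ne').mp hdvd

theorem mem_centralizer_of_conj {v g : G} (h : MulAut.conj v g = g) :
    g ∈ Subgroup.centralizer ({v} : Set G) := by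
  rw [Subgroup.mem_centralizer_singleton_iff]
  rw [MulAut.conj_apply] at h
  calc g * v = v * g * v⁻¹ * v := by rw [h]
    _ = v * g := by group

theorem conj_conj_self {v : G} (hv : v * v = 1) (z : G) :
    MulAut.conj v (MulAut.conj v z) = z := by
  rw [← MulAut.mul_apply, ← map_mul, hv, map_one, MulAut.one_apply]

theorem card_abelian_le (W : Subgroup G) [hW : W.Normal]
    (hab : ∀ x ∈ W, ∀ y ∈ W, x * y = y * x) {u w : G} (hu : u * u = 1) (hw : w * w = 1)
    (huw : u * w = w * u) :
    Nat.card W ≤ 2 ^ (Nat.card G).factorization 2 *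
      (Nat.card (Subgroup.centralizer ({u} : Set G)) * Nat.card (Subgroup.centralizer ({w} : Set G))
        * Nat.card (Subgroup.centralizer ({u * w} : Set G))) := by
  classical
  haveI : Fintype G := Fintype.ofFinite G
  have hfib : ∀ y ∈ (Finset.univ.filter (fun x : G => x ∈ W)).image (fun z => z * z),
      ((Finset.univ.filter (fun x : G => x ∈ W)).filter (fun z => z * z = y)).card
        ≤ 2 ^ (Nat.card G).factorization 2 := by
    intro y hy
    refine le_trans ?_ (card_sqOne_le W hab)
    rw [Finset.mem_image] at hy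
    obtain ⟨z₀, hz₀, hz₀y⟩ := hy
    rw [Finset.mem_filter] at hz₀
    rw [card_eq_filter]
    apply Finset.card_le_card_of_injOn (fun z => z₀⁻¹ * z)
    · intro z hz
      simp only [Finset.coe_filter, Finset.mem_filter, Finset.mem_univ, true_and,
        Set.mem_setOf_eq] at hz ⊢
      refine ⟨W.mul_mem (W.inv_mem hz₀.2) hz.1, ?_⟩
      calc z₀⁻¹ * z * (z₀⁻¹ * z) = z₀⁻¹ * (z * z₀⁻¹) * z := by group
        _ = z₀⁻¹ * (z₀⁻¹ * z) * z := by rw [hab z hz.1 _ (W.inv_mem hz₀.2)]
        _ = (z₀ * z₀)⁻¹ * (z * z) := by group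
        _ = 1 := by rw [hz₀y, hz.2, inv_mul_cancel]
    · intro a _ b _ h
      exact mul_left_cancel h
  have h1 := Finset.card_le_mul_card_image (f := fun z : G => z * z)
    (Finset.univ.filter (fun x : G => x ∈ W)) _ hfib
  rw [← card_eq_filter] at h1
  refine h1.trans (Nat.mul_le_mul_left _ ?_)
  rw [card_eq_filter (Subgroup.centralizer ({u} : Set G)),
    card_eq_filter (Subgroup.centralizer ({w} : Set G)),
    card_eq_filter (Subgroup.centralizer ({u * w} : Set G)), ← Finset.card_product,
    ← Finset.card_product]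
  refine le_trans (Finset.card_le_card ?_)
    (Finset.card_image_le (f := fun q : (G × G) × G => q.1.1 * q.1.2 * q.2))
  intro y hy
  rw [Finset.mem_image] at hy
  obtain ⟨z, hz, rfl⟩ := hy
  rw [Finset.mem_filter] at hz
  have hzW := hz.2
  set z1 := MulAut.conj u z with hz1
  set z2 := MulAut.conj w z with hz2
  have hz1W : z1 ∈ W := by
    rw [hz1, MulAut.conj_apply]
    exact hW.conj_mem z hzW u
  have hz2W : z2 ∈ W := by
    rw [hz2, MulAut.conj_apply]
    exact hW.conj_mem z hzW w
  have ha : z * z1 ∈ Subgroup.centralizer ({u} : Set G) := by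
    apply mem_centralizer_of_conj
    rw [map_mul, hz1, conj_conj_self hu, ← hz1]
    exact hab _ hz1W _ hzW
  have hb : z * z2 ∈ Subgroup.centralizer ({w} : Set G) := by
    apply mem_centralizer_of_conj
    rw [map_mul, hz2, conj_conj_self hw, ← hz2]
    exact hab _ hz2W _ hzW
  have hc : z1 * z2 ∈ Subgroup.centralizer ({u * w} : Set G) := by
    apply mem_centralizer_of_conj
    have e1 : MulAut.conj (u * w) z1 = z2 := by
      rw [huw, map_mul, MulAut.mul_apply, hz1, conj_conj_self hu]
    have e2 : MulAut.conj (u * w) z2 = z1 := by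
      rw [map_mul, MulAut.mul_apply, hz2, conj_conj_self hw]
    rw [map_mul, e1, e2]
    exact hab _ hz2W _ hz1W
  rw [Finset.mem_image]
  refine ⟨((z * z1, z * z2), (z1 * z2)⁻¹), ?_, ?_⟩
  · simp only [Finset.mem_product, Finset.mem_filter, Finset.mem_univ, true_and]
    exact ⟨⟨ha, hb⟩, Subgroup.inv_mem _ hc⟩
  · show z * z1 * (z * z2) * (z1 * z2)⁻¹ = z * z
    calc z * z1 * (z * z2) * (z1 * z2)⁻¹ = z * (z1 * z) * z1⁻¹ := by group
      _ = z * (z * z1) * z1⁻¹ := by rw [hab _ hz1W _ hzW]
      _ = z * z := by group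

end Abelian

section Main

universe u

/-- a normal subgroup of bounded order. -/
theorem exists_small_normal {G : Type*} [Group G] [Finite G] {u w : G} (hu : u * u = 1)
    (hw : w * w = 1) (hu1 : u ≠ 1) (huw : u * w = w * u) {n : ℕ}
    (hmeas : (Nat.card G).factorization 2 + Nat.card (Subgroup.centralizer ({u} : Set G))
      * Nat.card (Subgroup.centralizer ({w} : Set G))
      * Nat.card (Subgroup.centralizer ({u * w} : Set G)) ≤ n) :
    ∃ A : Subgroup G, A.Normal ∧ A ≠ ⊥ ∧
      Nat.card A ≤ 2 ^ n * n * (2 * n ^ 2).factorial := by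
  classical
  set cu := Nat.card (Subgroup.centralizer ({u} : Set G)) with hcu
  set cw := Nat.card (Subgroup.centralizer ({w} : Set G)) with hcw
  set cuw := Nat.card (Subgroup.centralizer ({u * w} : Set G)) with hcuw
  have pu : 0 < cu := Nat.card_pos
  have pw : 0 < cw := Nat.card_pos
  have puw : 0 < cuw := Nat.card_pos
  have hcun : cu ≤ n := by
    have : cu * 1 ≤ cu * (cw * cuw) := Nat.mul_le_mul_left _ (Nat.mul_pos pw puw)
    rw [← mul_assoc] at this
    omega
  have hou : orderOf u = 2 := orderOf_eq_prime (by rw [pow_two]; exact hu) hu1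
  obtain ⟨x, hx1, hx⟩ := exists_small_index u hou
  set H := Subgroup.centralizer ({x} : Set G) with hH
  set K := H.normalCore with hK
  set A := Subgroup.normalClosure ({x} : Set G) with hA
  have hKidx : K.index ≤ (2 * n ^ 2).factorial := by
    refine (index_normalCore_le H).trans (Nat.factorial_le (hx.trans ?_))
    exact Nat.mul_le_mul_left _ (Nat.pow_le_pow_left hcun 2)
  have hKn : K.Normal := Subgroup.normalCore_normal H
  have hAK : A ≤ Subgroup.centralizer (K : Set G) := by
    apply Subgroup.normalClosure_le_normal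
    intro y hy
    rw [Set.mem_singleton_iff] at hy
    subst hy
    rw [SetLike.mem_coe, Subgroup.mem_centralizer_iff]
    intro k hk
    have : k ∈ H := Subgroup.normalCore_le H hk
    rw [hH, Subgroup.mem_centralizer_singleton_iff] at this
    exact this
  have hxA : x ∈ A := Subgroup.subset_normalClosure (Set.mem_singleton x)
  refine ⟨A, Subgroup.normalClosure_normal, ?_, ?_⟩
  · intro h
    rw [h, Subgroup.mem_bot] at hxA
    exact hx1 hxA
  · have hWn : (K ⊓ A).Normal := inferInstance
    have hab : ∀ a ∈ K ⊓ A, ∀ b ∈ K ⊓ A, a * b = b * a := by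
      intro a ha b hb
      exact (Subgroup.mem_centralizer_iff.mp (hAK hb.2)) a ha.1
    have h1 := card_abelian_le (K ⊓ A) hab hu hw huw
    have h2 := card_mul_relIndex' (inf_le_right : K ⊓ A ≤ A)
    rw [Subgroup.inf_relIndex_right] at h2
    have h3 : K.relIndex A ≤ K.index :=
      Nat.le_of_dvd (Nat.pos_of_ne_zero Subgroup.index_ne_zero_of_finite)
        (Subgroup.relIndex_dvd_index_of_normal K A)
    rw [← h2]
    apply Nat.mul_le_mul _ (h3.trans hKidx)
    have h4 : cu * cw * cuw ≤ n := by omega
    have h5 : (Nat.card G).factorization 2 ≤ n := by omega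
    exact h1.trans (Nat.mul_le_mul (Nat.pow_le_pow_right (by norm_num) h5) h4)

theorem sq_eq_one_of_inverted {G : Type*} [Group G] {A : Subgroup G} {u w : G} (hu : u * u = 1)
    (hw : w * w = 1) (huw : u * w = w * u)
    (h1 : ∀ a ∈ A, (a * u) * (a * u) = 1) (h2 : ∀ a ∈ A, (a * w) * (a * w) = 1)
    (h3 : ∀ a ∈ A, (a * (u * w)) * (a * (u * w)) = 1) : ∀ a ∈ A, a * a = 1 := by
  intro a ha
  have E1 : ∀ a ∈ A, u * a * u = a⁻¹ := by
    intro a ha
    apply eq_inv_of_mul_eq_one_right
    rw [← h1 a ha]
    group
  have E2 : w * a * w = a⁻¹ := by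
    apply eq_inv_of_mul_eq_one_right
    rw [← h2 a ha]
    group
  have E3 : (u * w) * a * (u * w) = a⁻¹ := by
    apply eq_inv_of_mul_eq_one_right
    rw [← h3 a ha]
    group
  have E4 : (u * w) * a * (u * w) = a := by
    calc (u * w) * a * (u * w) = (u * w) * a * (w * u) := by rw [huw]
      _ = u * (w * a * w) * u := by group
      _ = u * a⁻¹ * u := by rw [E2]
      _ = a := by rw [E1 _ (A.inv_mem ha), inv_inv]
  have : a = a⁻¹ := E4.symm.trans E3
  calc a * a = a * a⁻¹ := by rw [← this]
    _ = 1 := mul_inv_cancel a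

theorem four_bound (n : ℕ) : ∃ N : ℕ, ∀ (G : Type u) [Group G] [Finite G] (u w : G),
    u * u = 1 → w * w = 1 → u ≠ 1 → w ≠ 1 → u ≠ w → u * w = w * u →
    (Nat.card G).factorization 2 + Nat.card (Subgroup.centralizer ({u} : Set G))
      * Nat.card (Subgroup.centralizer ({w} : Set G))
      * Nat.card (Subgroup.centralizer ({u * w} : Set G)) ≤ n → Nat.card G ≤ N := by
  induction n with
  | zero =>
    refine ⟨0, ?_⟩
    intro G _ _ u w _ _ _ _ _ _ h
    exfalso
    have pu : 0 < Nat.card (Subgroup.centralizer ({u} : Set G)) := Nat.card_pos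
    have pw : 0 < Nat.card (Subgroup.centralizer ({w} : Set G)) := Nat.card_pos
    have puw : 0 < Nat.card (Subgroup.centralizer ({u * w} : Set G)) := Nat.card_pos
    have := Nat.mul_pos (Nat.mul_pos pu pw) puw
    omega
  | succ n ih =>
    obtain ⟨N, hN⟩ := ih
    refine ⟨(max (n + 1) N) * (2 ^ (n + 1) * (n + 1) * (2 * (n + 1) ^ 2).factorial), ?_⟩
    intro G _ _ u w hu hw hu1 hw1 hne huw hmeas
    obtain ⟨A, hAn, hA1, hAc⟩ := exists_small_normal hu hw hu1 huw hmeas
    set cu := Nat.card (Subgroup.centralizer ({u} : Set G)) with hcu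
    set cw := Nat.card (Subgroup.centralizer ({w} : Set G)) with hcw
    set cuw := Nat.card (Subgroup.centralizer ({u * w} : Set G)) with hcuw
    have pu : 0 < cu := Nat.card_pos
    have pw : 0 < cw := Nat.card_pos
    have puw : 0 < cuw := Nat.card_pos
    have hcun : cu ≤ n + 1 := by
      have : cu * 1 ≤ cu * (cw * cuw) := Nat.mul_le_mul_left _ (Nat.mul_pos pw puw)
      rw [← mul_assoc] at this
      omega
    have hcwn : cw ≤ n + 1 := by
      have : 1 * cw * 1 ≤ cu * cw * cuw := Nat.mul_le_mul (Nat.mul_le_mul pu le_rfl) puw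
      omega
    have hcuwn : cuw ≤ n + 1 := by
      have : 1 * cuw ≤ cu * cw * cuw := Nat.mul_le_mul (Nat.mul_pos pu pw) le_rfl
      omega
    have hin : ∀ v : G, v ∈ A → Nat.card (Subgroup.centralizer ({v} : Set G)) ≤ n + 1 →
        Nat.card G ≤ (max (n + 1) N) * (2 ^ (n + 1) * (n + 1) * (2 * (n + 1) ^ 2).factorial) := by
      intro v hv hc
      exact (card_le_of_mem_normal A hv).trans
        (Nat.mul_le_mul (hc.trans (le_max_left _ _)) hAc)
    by_cases huA : u ∈ A
    · exact hin u huA hcun
    by_cases hwA : w ∈ A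
    · exact hin w hwA hcwn
    by_cases huwA : u * w ∈ A
    · exact hin (u * w) huwA hcuwn
    -- pass to the quotient
    have hcard := Subgroup.card_eq_card_quotient_mul_card_subgroup A
    have hQ : Nat.card (G ⧸ A) ≤ N := by
      apply hN (G ⧸ A) (u : G ⧸ A) (w : G ⧸ A)
      · rw [← QuotientGroup.mk_mul, hu]; rfl
      · rw [← QuotientGroup.mk_mul, hw]; rfl
      · intro h
        exact huA ((QuotientGroup.eq_one_iff u).mp h)
      · intro h
        exact hwA ((QuotientGroup.eq_one_iff w).mp h)
      · intro h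
        apply huwA
        have h' := QuotientGroup.eq.mp h
        have hui : u⁻¹ = u := inv_eq_of_mul_eq_one_left hu
        rwa [hui] at h'
      · rw [← QuotientGroup.mk_mul, ← QuotientGroup.mk_mul, huw]
      · rw [← QuotientGroup.mk_mul]
        have lu := card_quot_centralizer_le A u
        have lw := card_quot_centralizer_le A w
        have luw := card_quot_centralizer_le A (u * w)
        set du := Nat.card (Subgroup.centralizer ({(u : G ⧸ A)} : Set (G ⧸ A))) with hdu
        set dw := Nat.card (Subgroup.centralizer ({(w : G ⧸ A)} : Set (G ⧸ A))) with hdw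
        set duw := Nat.card (Subgroup.centralizer ({((u * w : G) : G ⧸ A)} : Set (G ⧸ A))) with hduw
        have hfac : (Nat.card G).factorization 2
            = (Nat.card (G ⧸ A)).factorization 2 + (Nat.card A).factorization 2 := by
          rw [hcard, Nat.factorization_mul Nat.card_pos.ne' Nat.card_pos.ne']
          rfl
        have hle : du * dw * duw ≤ cu * cw * cuw := Nat.mul_le_mul (Nat.mul_le_mul lu lw) luw
        by_cases hex : (∃ a ∈ A, (a * u) * (a * u) ≠ 1) ∨ (∃ a ∈ A, (a * w) * (a * w) ≠ 1) ∨
            (∃ a ∈ A, (a * (u * w)) * (a * (u * w)) ≠ 1)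
        · have hlt : du * dw * duw < cu * cw * cuw := by
            rcases hex with ⟨a, ha, h⟩ | ⟨a, ha, h⟩ | ⟨a, ha, h⟩
            · have := card_quot_centralizer_lt A hu ha h
              calc du * dw * duw ≤ du * cw * cuw := Nat.mul_le_mul (Nat.mul_le_mul le_rfl lw) luw
                _ < cu * cw * cuw :=
                  Nat.mul_lt_mul_of_pos_right (Nat.mul_lt_mul_of_pos_right this pw) puw
            · have := card_quot_centralizer_lt A hw ha h
              calc du * dw * duw ≤ cu * dw * cuw := Nat.mul_le_mul (Nat.mul_le_mul lu le_rfl) luw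
                _ < cu * cw * cuw :=
                  Nat.mul_lt_mul_of_pos_right (Nat.mul_lt_mul_of_pos_left this pu) puw
            · have huw2 : (u * w) * (u * w) = 1 := by
                calc (u * w) * (u * w) = (u * w) * (w * u) := by rw [huw]
                  _ = u * (w * w) * u := by group
                  _ = 1 := by rw [hw, mul_one, hu]
              have := card_quot_centralizer_lt A huw2 ha h
              calc du * dw * duw ≤ cu * cw * duw := Nat.mul_le_mul (Nat.mul_le_mul lu lw) le_rfl
                _ < cu * cw * cuw := Nat.mul_lt_mul_of_pos_left this (Nat.mul_pos pu pw)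
          omega
        · push Not at hex
          have hsq := sq_eq_one_of_inverted hu hw huw hex.1 hex.2.1 hex.2.2
          obtain ⟨a, ha1⟩ := (Subgroup.ne_bot_iff_exists_ne_one).mp hA1
          have hoa : orderOf a = 2 := by
            apply orderOf_eq_prime
            · apply Subtype.ext
              simpa [pow_two] using hsq a a.2
            · exact ha1
          have h2 : 2 ∣ Nat.card A := hoa ▸ orderOf_dvd_natCard _
          have h3 : 1 ≤ (Nat.card A).factorization 2 :=
            (Nat.Prime.dvd_iff_one_le_factorization Nat.prime_two Nat.card_pos.ne').mp h2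
          omega
    rw [hcard]
    exact Nat.mul_le_mul (hQ.trans (le_max_right _ _)) hAc

end Main

end Cfsg.Agent.Lib.Helper20Four
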