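import Mathlib
import Cfsg.Prelude.Def_Blocks
import Cfsg.Prelude.Def_BrauerPairs
import Cfsg.Agent.Lib.Helper20Pair
import Cfsg.Agent.Lib.Helper80Nil
import Cfsg.Agent.S4687
import Cfsg.Agent.S0919

set_option autoImplicit false
set_option linter.unusedSectionVars false
set_option linter.unusedVariables false

/-! Blocks with abelian defect group: nilpotency of the local blocks `c ^ C_G(Q)`. -/

namespace Cfsg.Agent.Lib.Helper20Free

open Cfsg
open Cfsg.Agent.Lib.Helper20Local Cfsg.Agent.Lib.Helper20Center Cfsg.Agent.Lib.Helper20Block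
open Cfsg.Agent.Lib.Helper20Ideal Cfsg.Agent.Lib.Helper20Defect
open Cfsg.Agent.Lib.Helper19Ind Cfsg.Agent.Lib.Helper20First Cfsg.Agent.Lib.Helper20Induced
open Cfsg.Agent.Lib.Helper4Char Cfsg.Agent.Lib.Helper4Char2
open Cfsg.Agent.Lib.Helper87Sylow Cfsg.Agent.Lib.Helper20Sub
open Cfsg.Agent.Lib.Helper20Conj Cfsg.Agent.Lib.Helper20DefCard Cfsg.Agent.Lib.Helper20Height
open Cfsg.Agent.Lib.Helper21Cover Cfsg.Agent.Lib.Helper21Cover4 Cfsg.Agent.Lib.Helper20Cov
open Cfsg.Agent.Lib.Helper20Fong Cfsg.Agent.Lib.Helper20Tower Cfsg.Agent.Lib.Helper80Transport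
open Cfsg.Agent.Lib.Helper82Quot Cfsg.Agent.Lib.Helper21FR Cfsg.Agent.Lib.Helper21FR2
open Cfsg.Agent.Lib.Helper20Down Cfsg.Agent.Lib.Helper20FRK Cfsg.Agent.Lib.Helper20Mid
open Cfsg.Agent.Lib.Helper20Major Cfsg.Agent.Lib.Helper20Ext Cfsg.Agent.Lib.Helper20Brauer
open Cfsg.Agent.Lib.Helper20Rel Cfsg.Agent.Lib.Helper20HK Cfsg.Agent.Lib.Helper80Brauer
open Cfsg.Agent.Lib.Helper80Pairs Cfsg.Agent.Lib.Helper80Up

variable {G : Type*} [Group G] [Fintype G] {M : Ideal Cfsg.AlgInt} {p : ℕ} [Fact p.Prime]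

/-- a block of `C_G(Z)` inducing `f` gives a Brauer pair of `f`. -/
theorem isBrauerPairOf_of_induced (hM : IsPModular p M) {f : Set (IrrCharacter G)}
    {Z : Subgroup G} (hZ : IsPGroup p Z)
    {e : Set (IrrCharacter (Subgroup.centralizer (Z : Set G)))}
    (hind : IsInducedBlock M (Subgroup.centralizer (Z : Set G)) e f) :
    IsBrauerPairOf p M f Z e := by
  classical
  have hPr := IsPModular.isPrime hM
  rw [isBrauerPairOf_iff]
  refine ⟨⟨hZ, hind.1⟩, hind.2.1, ?_⟩
  intro ξ hξ
  obtain ⟨χ, hχ⟩ := IsPBlock.nonempty hPr hind.2.1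
  have h := isInducedBlock_om _ hPr hind hξ hχ (isSC_blockCoeff hPr hind.2.1)
  rw [om_blockCoeff, if_pos hχ] at h
  exact h

/-- S4687 for an induced block. -/
theorem nil_iff (hM : IsPModular p M) {f : Set (IrrCharacter G)} {Z K : Subgroup G}
    (hK : K = Subgroup.centralizer (Z : Set G)) {e : Set (IrrCharacter K)}
    (hind : IsInducedBlock M K e f) (hZ : IsDefectGroup p M f Z)
    (hab : ∀ x ∈ Z, ∀ y ∈ Z, x * y = y * x) :
    IsNilpotentBlock p M f ↔
      ∀ x ∈ Subgroup.normalizer (Z : Set G), StabilizesBlock K e x → x ∈ K := by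
  subst hK
  have hpair := isBrauerPairOf_of_induced hM (isPGroup_of_defectGroup hZ) hind
  exact Cfsg.Agent.S4687.result p M hM f Z e (isMaximal_of_defectGroup hM hpair hZ) hab

/-- transitivity of block induction, the other way. -/
theorem induced_of_induced (hM : M.IsPrime) {K H : Subgroup G} (hKH : K ≤ H)
    {e : Set (IrrCharacter K)} {f : Set (IrrCharacter H)} {B : Set (IrrCharacter G)}
    (h1 : IsInducedBlockIn M H K e f) (h2 : IsInducedBlock M K e B) :
    IsInducedBlock M H f B := by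
  classical
  refine ⟨h1.2.1, h2.2.1, ?_⟩
  intro ξ hξ χ hχ g
  obtain ⟨ξ0, hξ0⟩ := IsPBlock.nonempty hM h1.1
  have h1' := (isInducedBlockIn_iff hKH e f).mp h1
  have hmem : irrCongr (Subgroup.subgroupOfEquivOfLe hKH).symm ξ0 ∈ down hKH e :=
    (mem_mapBlk _).mpr hξ0
  have ha := isInducedBlock_om _ hM h1' hmem hξ (res_isSC H (isSC_classInd hM g))
  rw [om_down] at ha
  have hb := h2.2.2 ξ0 hξ0 χ hχ g
  rw [inducedCentralChar_eq] at hb ⊢
  have hc : resIn hKH (res H (classInd g)) = res K (classInd g) := rfl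
  rw [hc] at ha
  have := liSub hM hb ha
  convert this using 1
  ring

theorem centralizer_subgroupOf {P H : Subgroup G} (hPH : P ≤ H) :
    (Subgroup.centralizer (P : Set G)).subgroupOf H
      = Subgroup.centralizer ((P.subgroupOf H : Subgroup H) : Set H) := by
  ext x
  rw [Subgroup.mem_subgroupOf, mem_centralizer_subgroupOf_iff hPH]

/-- the defect group of the intermediate block `c ^ H`. -/
theorem isDefectGroup_mid (hM : IsPModular p M) {B : Set (IrrCharacter G)} {P : Subgroup G}
    (hPD : IsDefectGroup p M B P) (hab : ∀ x ∈ P, ∀ y ∈ P, x * y = y * x)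
    {c : Set (IrrCharacter (Subgroup.centralizer (P : Set G)))}
    (hc : IsInducedBlock M (Subgroup.centralizer (P : Set G)) c B) {H : Subgroup G}
    (hCH : Subgroup.centralizer (P : Set G) ≤ H) {f : Set (IrrCharacter H)}
    (hf : IsInducedBlockIn M H (Subgroup.centralizer (P : Set G)) c f) :
    IsDefectGroup p M f (P.subgroupOf H) := by
  classical
  have hPr := IsPModular.isPrime hM
  have hPp : IsPGroup p P := isPGroup_of_defectGroup hPD
  have hPC : P ≤ Subgroup.centralizer (P : Set G) := by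
    intro x hx
    rw [Subgroup.mem_centralizer_iff]
    intro y hy
    exact hab y hy x hx
  obtain ⟨Dc, hDc⟩ := exists_defectGroup hM hc.1
  have hn : (P.subgroupOf (Subgroup.centralizer (P : Set G))).Normal := by
    refine ⟨fun n hn g => ?_⟩
    rw [Subgroup.mem_subgroupOf] at hn ⊢
    have hg := (Subgroup.mem_centralizer_iff.mp g.2) (n : G) hn
    have : ((g * n * g⁻¹ : Subgroup.centralizer (P : Set G)) : G) = n := by
      push_cast
      rw [← hg]
      group
    rw [this]
    exact hn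
  have h1 : P.subgroupOf (Subgroup.centralizer (P : Set G)) ≤ Dc :=
    le_defectGroup_of_normal hM (P.subgroupOf (Subgroup.centralizer (P : Set G)))
      (hPp.comap_subtype) hc.1 hDc
  have hf' := (isInducedBlockIn_iff hCH c f).mp hf
  have hDd := Cfsg.Agent.Lib.Helper20Down.isDefectGroup_mapBlk
    (Subgroup.subgroupOfEquivOfLe hCH).symm hDc
  obtain ⟨E, hE, hDE⟩ := defectGroup_le_of_induced _ hM hf' hDd
  have hPE : P.subgroupOf H ≤ E := by
    intro x hx
    apply hDE
    rw [Subgroup.mem_subgroupOf] at hx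
    refine ⟨(Subgroup.subgroupOfEquivOfLe hCH).symm ⟨(x : G), hPC hx⟩, ?_, ?_⟩
    · refine ⟨⟨(x : G), hPC hx⟩, h1 ?_, rfl⟩
      rw [Subgroup.mem_subgroupOf]
      exact hx
    · rfl
  have hfB := induced_of_induced hPr hCH hf hc
  obtain ⟨E', hE', hEE'⟩ := defectGroup_le_of_induced _ hM hfB hE
  have hcard : Nat.card E' = Nat.card P := by
    rw [card_defectGroup hM hc.2.1 hE', card_defectGroup hM hc.2.1 hPD]
  have hc1 : Nat.card E ≤ Nat.card (P.subgroupOf H) := by
    have e1 : Nat.card (E.map H.subtype) = Nat.card E :=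
      Subgroup.card_map_of_injective H.subtype_injective
    have e2 : Nat.card (E.map H.subtype) ≤ Nat.card E' := Subgroup.card_le_of_le hEE'
    have e3 : Nat.card (P.subgroupOf H) = Nat.card P :=
      Nat.card_congr (Subgroup.subgroupOfEquivOfLe (hPC.trans hCH)).toEquiv
    omega
  have : P.subgroupOf H = E := Subgroup.eq_of_le_of_card_ge hPE hc1
  rw [this]
  exact hE

theorem ext_ext_down {K H : Subgroup G} (hKH : K ≤ H) (c : Set (IrrCharacter K)) :
    ext H (ext (K.subgroupOf H) (blockCoeff (down hKH c))) = ext K (blockCoeff c) := by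
  classical
  funext g
  by_cases hK : g ∈ K
  · have hH : g ∈ H := hKH hK
    have hK' : (⟨g, hH⟩ : H) ∈ K.subgroupOf H := by
      rw [Subgroup.mem_subgroupOf]
      exact hK
    rw [ext_mem _ hH, ext_mem _ hK', ext_mem _ hK]
    exact blockCoeff_mapBlk (Subgroup.subgroupOfEquivOfLe hKH).symm c ⟨g, hK⟩
  · rw [ext_not_mem _ hK]
    by_cases hH : g ∈ H
    · have hK' : (⟨g, hH⟩ : H) ∉ K.subgroupOf H := by
        rw [Subgroup.mem_subgroupOf]
        exact hK
      rw [ext_mem _ hH, ext_not_mem _ hK']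
    · rw [ext_not_mem _ hH]

theorem stabilizesBlock_down (hM : M.IsPrime) {K H : Subgroup G} (hKH : K ≤ H)
    {c : Set (IrrCharacter K)} (hc : IsPBlock M c) (x : H) :
    StabilizesBlock (K.subgroupOf H) (down hKH c) x ↔ StabilizesBlock K c (x : G) := by
  classical
  rw [stabilizesBlock_iff hM (isPBlock_down hKH hc), stabilizesBlock_iff hM hc,
    ← normalizer_subgroupOf hKH, Subgroup.mem_subgroupOf, ← ext_ext_down hKH c, cjf_ext]
  constructor
  · rintro ⟨h1, h2⟩
    exact ⟨h1, by rw [h2]⟩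
  · rintro ⟨h1, h2⟩
    exact ⟨h1, ext_injective h2⟩

/-- **the local criterion**: `c ^ C_G(Q)` is nilpotent iff the stabilizer of `c` in
`N_G(P) ∩ C_G(Q)` is `C_G(P)`. -/
theorem nil_local_iff (hM : IsPModular p M) {B : Set (IrrCharacter G)} {P : Subgroup G}
    (hPD : IsDefectGroup p M B P) (hab : ∀ x ∈ P, ∀ y ∈ P, x * y = y * x)
    {c : Set (IrrCharacter (Subgroup.centralizer (P : Set G)))}
    (hc : IsInducedBlock M (Subgroup.centralizer (P : Set G)) c B) {H : Subgroup G}
    (hCH : Subgroup.centralizer (P : Set G) ≤ H) {f : Set (IrrCharacter H)}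
    (hf : IsInducedBlockIn M H (Subgroup.centralizer (P : Set G)) c f) :
    IsNilpotentBlock p M f ↔ ∀ x ∈ H, x ∈ Subgroup.normalizer (P : Set G) →
      StabilizesBlock (Subgroup.centralizer (P : Set G)) c x →
        x ∈ Subgroup.centralizer (P : Set G) := by
  classical
  have hPr := IsPModular.isPrime hM
  have hPC : P ≤ Subgroup.centralizer (P : Set G) := by
    intro x hx
    rw [Subgroup.mem_centralizer_iff]
    intro y hy
    exact hab y hy x hx
  have hPH : P ≤ H := hPC.trans hCH
  have hD := isDefectGroup_mid hM hPD hab hc hCH hf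
  have hf' := (isInducedBlockIn_iff hCH c f).mp hf
  have hab' : ∀ x ∈ P.subgroupOf H, ∀ y ∈ P.subgroupOf H, x * y = y * x := by
    intro x hx y hy
    apply Subtype.ext
    exact hab _ hx _ hy
  rw [nil_iff hM (centralizer_subgroupOf hPH) hf' hD hab']
  constructor
  · intro h x hxH hxN hxS
    have := h ⟨x, hxH⟩ (by
      rw [← normalizer_subgroupOf hPH, Subgroup.mem_subgroupOf]
      exact hxN) ((stabilizesBlock_down hPr hCH hc.1 ⟨x, hxH⟩).mpr hxS)
    rw [Subgroup.mem_subgroupOf] at this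
    exact this
  · intro h x hxN hxS
    rw [Subgroup.mem_subgroupOf]
    refine h x x.2 ?_ ((stabilizesBlock_down hPr hCH hc.1 x).mp hxS)
    rw [← normalizer_subgroupOf hPH, Subgroup.mem_subgroupOf] at hxN
    exact hxN

/-- existence of the local block `c ^ H`. -/
theorem exists_local (hM : IsPModular p M) {P : Subgroup G} (hPp : IsPGroup p P)
    (hab : ∀ x ∈ P, ∀ y ∈ P, x * y = y * x)
    {c : Set (IrrCharacter (Subgroup.centralizer (P : Set G)))} (hc : IsPBlock M c)
    {H : Subgroup G} (hCH : Subgroup.centralizer (P : Set G) ≤ H) :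
    ∃ f : Set (IrrCharacter H), IsInducedBlockIn M H (Subgroup.centralizer (P : Set G)) c f := by
  classical
  have hPC : P ≤ Subgroup.centralizer (P : Set G) := by
    intro x hx
    rw [Subgroup.mem_centralizer_iff]
    intro y hy
    exact hab y hy x hx
  have hPH : P ≤ H := hPC.trans hCH
  obtain ⟨f, hf⟩ := Cfsg.Agent.S0919.result p M hM (P.subgroupOf H)
    ((Subgroup.centralizer (P : Set G)).subgroupOf H) hPp.comap_subtype
    (fun x hx => by
      rw [Subgroup.mem_subgroupOf] at hx ⊢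
      exact hPC hx)
    (by rw [centralizer_subgroupOf hPH])
    (by
      rw [centralizer_subgroupOf hPH]
      exact Subgroup.centralizer_le_normalizer _)
    (down hCH c) (isPBlock_down hCH hc)
  exact ⟨f, (isInducedBlockIn_iff hCH c f).mpr hf⟩

end Cfsg.Agent.Lib.Helper20Free
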