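import Mathlib
import Cfsg.Prelude.Def_Blocks
import Cfsg.Agent.Lib.Helper20ZS
import Cfsg.Agent.Lib.Helper20First
import Cfsg.Agent.Lib.Helper81Orth2
import Cfsg.Agent.Lib.Helper82Linear

set_option autoImplicit false
set_option linter.unusedSectionVars false
set_option linter.unusedVariables false

namespace Cfsg.Agent.Lib.Helper20Kuls

open Cfsg
open Cfsg.Agent.Lib.Helper4Char Cfsg.Agent.Lib.Helper4Char2
open Cfsg.Agent.Lib.Helper20Center Cfsg.Agent.Lib.Helper20GA Cfsg.Agent.Lib.Helper20Local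
open Cfsg.Agent.Lib.Helper20Block Cfsg.Agent.Lib.Helper20Ideal Cfsg.Agent.Lib.Helper20ModHom
open Cfsg.Agent.Lib.Helper20Frob Cfsg.Agent.Lib.Helper20ZS Cfsg.Agent.Lib.Helper82Linear

variable {G : Type*} [Group G] [Fintype G] {M : Ideal Cfsg.AlgInt} {p : ℕ} [Fact p.Prime]

open scoped Classical in
/-- the sum of the `p`-regular elements. -/
noncomputable def reg (p : ℕ) : GA G := fun g => if p ∣ orderOf g then 0 else 1

theorem orderOf_conj' (t x : G) : orderOf (t * x * t⁻¹) = orderOf x :=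
  orderOf_injective (MulAut.conj t).toMonoidHom (MulAut.conj t).injective x

theorem isSC_reg (hM : M.IsPrime) : IsSC M (reg p : GA G) := by
  refine ⟨fun g h => ?_, fun g => ?_⟩
  · simp only [reg, orderOf_conj']
  · simp only [reg]
    split_ifs
    · exact memLocalRing_zero hM
    · exact memLocalRing_one hM

theorem sum_reg : ∑ g : G, (reg p : GA G) g = (Nat.card {y : G // ¬ p ∣ orderOf y} : ℂ) := by
  classical
  simp only [reg]
  rw [Nat.card_eq_fintype_card, Fintype.card_subtype, Finset.card_filter]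
  push_cast
  apply Finset.sum_congr rfl
  intro g _
  by_cases h : p ∣ orderOf g <;> simp [h]

theorem om_reg_one :
    om (fun _ : G => (1 : ℂ)) (reg p : GA G) = (Nat.card {y : G // ¬ p ∣ orderOf y} : ℂ) := by
  simp only [om, mul_one, div_one]
  exact sum_reg

theorem om_reg_of_not_mem (hM : IsPModular p M) {χ : IrrCharacter G}
    (h : χ ∉ principalBlock M G) : om (χ : G → ℂ) (reg p : GA G) = 0 := by
  classical
  have h1 : ¬ SameBlock M (χ : G → ℂ) ((irrOne G : IrrCharacter G) : G → ℂ) := fun hs =>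
    h (sameBlock_symm hs)
  have h2 := Cfsg.Agent.Lib.Helper81Orth2.regular_orth hM h1
  have h3 : ∑ g, (reg p : GA G) g * (χ : G → ℂ) g = 0 := by
    rw [← h2]
    apply Finset.sum_congr rfl
    intro g _
    simp only [reg, irrOne]
    by_cases hg : p ∣ orderOf g <;> simp [hg]
  unfold om
  rw [h3, zero_div]

theorem om_reg_of_mem (hM : IsPModular p M) {χ : IrrCharacter G}
    (h : χ ∈ principalBlock M G) : MemLocalIdeal M (om (χ : G → ℂ) (reg p : GA G)
      - (Nat.card {y : G // ¬ p ∣ orderOf y} : ℂ)) := by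
  have hPr := IsPModular.isPrime hM
  rw [← om_reg_one]
  exact sameBlock_om hPr χ.2 isIrrCharacter_one (sameBlock_symm h) (isSC_reg hPr)

theorem delta_comm (a b : G) : (delta : G → ℂ) (a * b) = delta (b * a) := by
  classical
  simp only [delta]
  have : a * b = 1 ↔ b * a = 1 := by
    constructor
    · intro h; rw [mul_eq_one_iff_eq_inv] at h; rw [h]; simp
    · intro h; rw [mul_eq_one_iff_eq_inv] at h; rw [h]; simp
  rw [if_congr this rfl rfl]

theorem delta_mem (hM : M.IsPrime) (g : G) : MemLocalRing M ((delta : G → ℂ) g) :=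
  (isSC_delta hM).2 g

/-- the number of `p`-regular elements is prime to `p`. -/
theorem card_reg_not_mem (hM : IsPModular p M) :
    ¬ MemLocalIdeal M (Nat.card {y : G // ¬ p ∣ orderOf y} : ℂ) := by
  classical
  have hPr := IsPModular.isPrime hM
  have hp : p.Prime := Fact.out
  intro hcon
  have h1 : ∀ χ : IrrCharacter G, MemLocalIdeal M (om (χ : G → ℂ) (reg p : GA G)) := by
    intro χ
    by_cases hχ : χ ∈ principalBlock M G
    · have := liAdd hPr (om_reg_of_mem hM hχ) hcon
      rwa [sub_add_cancel] at this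
    · rw [om_reg_of_not_mem hM hχ]; exact memLocalIdeal_zero hPr
  obtain ⟨k₀, hk⟩ := exists_pow_mem hPr (isSC_reg hPr) h1
  have h2 := hk (p ^ k₀) (Nat.lt_pow_self hp.one_lt).le 1
  have h3 := ev_pow_prime_pow hM k₀ (reg p : GA G) (isSC_reg hPr).2 delta (delta_mem hPr)
    delta_comm
  rw [ev_delta] at h3
  have h4 : ∑ g : G, (reg p : GA G) g ^ (p ^ k₀) * (delta : G → ℂ) (g ^ (p ^ k₀)) = 1 := by
    rw [Finset.sum_eq_single 1]
    · have : ¬ p ∣ 1 := hp.one_lt.ne' ∘ Nat.dvd_one.mp
      simp [reg, delta, this]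
    · intro g _ hg
      simp only [reg, delta]
      by_cases h5 : p ∣ orderOf g
      · rw [if_pos h5, zero_pow (pow_ne_zero _ hp.ne_zero), zero_mul]
      · have h6 : g ^ (p ^ k₀) ≠ 1 := by
          intro h7
          apply hg
          obtain ⟨j, -, hj⟩ := (Nat.dvd_prime_pow hp).mp (orderOf_dvd_of_pow_eq_one h7)
          rcases j with _ | j
          · rwa [pow_zero, orderOf_eq_one_iff] at hj
          · exact absurd (hj ▸ dvd_pow_self p (Nat.succ_ne_zero j)) h5
        rw [if_neg h6, mul_zero]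
    · intro h; exact absurd (Finset.mem_univ _) h
  rw [h4] at h3
  have := liSub hPr h2 h3
  rw [sub_sub_cancel] at this
  exact not_memLocalIdeal_one hPr this

theorem isPBlock_principalBlock : IsPBlock M (principalBlock M G) := ⟨irrOne G, rfl⟩

/-- large `p`-power powers of the sum of the `p`-regular elements are multiples of the principal
block idempotent, modulo the ideal. -/
theorem reg_pow_sub_mem (hM : IsPModular p M) :
    ∃ k₀ : ℕ, ∀ n : ℕ, k₀ ≤ p ^ n → ∀ g : G, MemLocalIdeal M (((reg p : GA G) ^ (p ^ n) : GA G) g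
      - (Nat.card {y : G // ¬ p ∣ orderOf y} : ℂ) ^ (p ^ n)
        * blockCoeff (principalBlock M G) g) := by
  classical
  have hPr := IsPModular.isPrime hM
  have hp : p.Prime := Fact.out
  set c : ℂ := (Nat.card {y : G // ¬ p ∣ orderOf y} : ℂ) with hc
  have hcR : MemLocalRing M c := memLocalRing_natCast hPr _
  set f : GA G := blockCoeff (principalBlock M G) with hf
  have hfS : IsSC M f := isSC_blockCoeff hPr isPBlock_principalBlock
  have hcf : IsSC M (c • f : GA G) := IsSC.smul hPr hcR hfS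
  have hw : IsSC M ((reg p : GA G) - c • f : GA G) := IsSC.sub hPr (isSC_reg hPr) hcf
  have hom : ∀ χ : IrrCharacter G,
      MemLocalIdeal M (om (χ : G → ℂ) ((reg p : GA G) - c • f : GA G)) := by
    intro χ
    have e : om (χ : G → ℂ) ((reg p : GA G) - c • f : GA G)
        = om (χ : G → ℂ) (reg p : GA G) - c * om (χ : G → ℂ) f := by
      exact (om_sub (χ : G → ℂ) (reg p : GA G) (c • f : GA G)).trans
        (congrArg (fun t => om (χ : G → ℂ) (reg p : GA G) - t) (om_smul (χ : G → ℂ) c f))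
    rw [e, hf, om_blockCoeff]
    by_cases hχ : χ ∈ principalBlock M G
    · rw [if_pos hχ, mul_one]; exact om_reg_of_mem hM hχ
    · rw [if_neg hχ, mul_zero, sub_zero, om_reg_of_not_mem hM hχ]; exact memLocalIdeal_zero hPr
  obtain ⟨k₀, hk⟩ := exists_pow_mem hPr hw hom
  refine ⟨k₀, fun n hn g => ?_⟩
  have h1 := add_pow_sub_mem hM hw hcf n g
  rw [sub_add_cancel] at h1
  have hN : p ^ n = (p ^ n - 1) + 1 := by
    have : 0 < p ^ n := pow_pos hp.pos n
    omega
  have h2 : ((c • f) ^ (p ^ n) : GA G) = (c ^ (p ^ n)) • f := by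
    rw [hN]
    exact smul_idem_pow (Cfsg.Agent.Lib.Helper20First.conv_blockCoeff_self _) c _
  rw [h2, Helper20GA.smul_apply] at h1
  have := liAdd hPr h1 (hk _ hn g)
  convert this using 1
  ring

theorem reg_pow_apply (hM : IsPModular p M) (n : ℕ) {g : G} (hgN : g ^ (p ^ n) = g) :
    MemLocalIdeal M (((reg p : GA G) ^ (p ^ n) : GA G) g
      - ∑ x : G, (open scoped Classical in
          if x ^ (p ^ n) = 1 ∧ ¬ p ∣ orderOf (x * g) then (1 : ℂ) else 0)) := by
  classical
  have hPr := IsPModular.isPrime hM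
  have hp : p.Prime := Fact.out
  have hy : ∀ x, ((reg p : GA G) * pt g⁻¹) x = (reg p : GA G) (x * g) := by
    intro x
    rw [mul_pt_apply, inv_inv]
  have h1 := ev_pow_prime_pow hM n ((reg p : GA G) * pt g⁻¹)
    (fun x => by rw [hy]; exact (isSC_reg hPr).2 _) delta (delta_mem hPr) delta_comm
  have hc : Commute (reg p : GA G) (pt g⁻¹) := commute_of_class (isSC_reg (M := M) hPr).1 _
  rw [ev_delta, hc.mul_pow, pt_pow, mul_pt_apply, one_mul, inv_pow, inv_inv, hgN] at h1
  convert h1 using 2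
  apply Finset.sum_congr rfl
  intro x _
  rw [hy]
  simp only [reg, delta]
  by_cases h2 : x ^ (p ^ n) = 1
  · by_cases h3 : p ∣ orderOf (x * g)
    · simp [h2, h3, hp.ne_zero]
    · simp [h2, h3]
  · simp [h2]

theorem card_pairs (n : ℕ) (hn : (Nat.card G).factorization p ≤ n) (g : G) :
    (Nat.card {xy : G × G // (∃ k : ℕ, orderOf xy.1 = p ^ k) ∧ ¬ p ∣ orderOf xy.2 ∧
      xy.1 * xy.2 = g} : ℂ)
      = ∑ x : G, (open scoped Classical in
          if x ^ (p ^ n) = 1 ∧ ¬ p ∣ orderOf (x * g) then (1 : ℂ) else 0) := by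
  classical
  have hp : p.Prime := Fact.out
  rw [Finset.sum_boole, ← Fintype.card_subtype, ← Nat.card_eq_fintype_card]
  congr 1
  apply Nat.card_congr
  refine ⟨fun z => ⟨z.1.1⁻¹, ?_, ?_⟩, fun x => ⟨(x.1⁻¹, x.1 * g), ?_, x.2.2, by group⟩, ?_, ?_⟩
  · obtain ⟨k, hk⟩ := z.2.1
    have h1 : p ^ k ∣ Nat.card G := hk ▸ orderOf_dvd_natCard _
    have h2 : k ≤ n := ((hp.pow_dvd_iff_le_factorization Nat.card_pos.ne').mp h1).trans hn
    rw [inv_pow, inv_eq_one]
    apply orderOf_dvd_iff_pow_eq_one.mp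
    rw [hk]
    exact pow_dvd_pow p h2
  · have : z.1.1⁻¹ * g = z.1.2 := inv_mul_eq_iff_eq_mul.mpr z.2.2.2.symm
    rw [this]; exact z.2.2.1
  · obtain ⟨k, -, hk⟩ := (Nat.dvd_prime_pow hp).mp (orderOf_dvd_of_pow_eq_one x.2.1)
    exact ⟨k, by rw [orderOf_inv]; exact hk⟩
  · intro z
    apply Subtype.ext
    apply Prod.ext
    · simp
    · exact inv_mul_eq_iff_eq_mul.mpr z.2.2.2.symm
  · intro x
    apply Subtype.ext
    simp

theorem natCast_pow_sub_mem (hM : IsPModular p M) (c n : ℕ) :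
    MemLocalIdeal M ((c : ℂ) ^ (p ^ n) - (c : ℂ)) := by
  have h1 : ((c ^ (p ^ n) : ℕ) : ZMod p) = (c : ZMod p) := by
    push_cast
    exact ZMod.pow_card_pow (p := p) _
  have h2 := (ZMod.natCast_eq_natCast_iff _ _ _).mp h1
  have h3 := (Nat.modEq_iff_dvd.mp h2.symm)
  have h4 := (memLocalIdeal_intCast_iff hM _).mpr h3
  push_cast at h4
  exact h4

/-- Külshammer's formula for the principal block idempotent. -/
theorem kulshammer (hM : IsPModular p M) {g : G} (hg : ¬ p ∣ orderOf g) :
    MemLocalIdeal M (blockCoeff (principalBlock M G) g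
      - (Nat.card {xy : G × G // (∃ k : ℕ, orderOf xy.1 = p ^ k) ∧ ¬ p ∣ orderOf xy.2 ∧
          xy.1 * xy.2 = g} : ℂ) / (Nat.card {y : G // ¬ p ∣ orderOf y} : ℂ)) := by
  classical
  have hPr := IsPModular.isPrime hM
  have hp : p.Prime := Fact.out
  obtain ⟨k₀, hk⟩ := reg_pow_sub_mem (G := G) hM
  have hcop : Nat.Coprime p (orderOf g) := (Nat.Prime.coprime_iff_not_dvd hp).mpr hg
  set φ := Nat.totient (orderOf g) with hφ
  have hφpos : 0 < φ := Nat.totient_pos.mpr (orderOf_pos g)
  set t := max k₀ ((Nat.card G).factorization p) with ht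
  set n := φ * t with hn
  have hnt : t ≤ n := Nat.le_mul_of_pos_left t hφpos
  have h1 : k₀ ≤ p ^ n := (le_max_left _ _).trans (hnt.trans (Nat.lt_pow_self hp.one_lt).le)
  have h2 : (Nat.card G).factorization p ≤ n := (le_max_right _ _).trans hnt
  have h3 : g ^ (p ^ n) = g := by
    have h4 : p ^ n ≡ 1 [MOD orderOf g] := by
      rw [hn, pow_mul]
      have := (Nat.ModEq.pow_totient hcop).pow t
      rwa [one_pow] at this
    have := pow_eq_pow_iff_modEq.mpr h4
    rwa [pow_one] at this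
  have a1 := hk n h1 g
  have a2 := reg_pow_apply hM n h3
  rw [← card_pairs n h2 g] at a2
  have a3 := liMulRight hPr (natCast_pow_sub_mem hM (Nat.card {y : G // ¬ p ∣ orderOf y}) n)
    ((isSC_blockCoeff hPr (isPBlock_principalBlock (G := G) (M := M))).2 g)
  have hc := card_reg_not_mem (G := G) hM
  have hcR : MemLocalRing M (Nat.card {y : G // ¬ p ∣ orderOf y} : ℂ) :=
    memLocalRing_natCast hPr _
  have hc0 : (Nat.card {y : G // ¬ p ∣ orderOf y} : ℂ) ≠ 0 := by
    intro h0; apply hc; rw [h0]; exact memLocalIdeal_zero hPr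
  have a4 := liMulLeft hPr (lrInv hcR hc) (liSub hPr (liSub hPr a2 a1) a3)
  convert a4 using 1
  field_simp
  ring

end Cfsg.Agent.Lib.Helper20Kuls
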