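import Mathlib

set_option autoImplicit false

/-! Generating sets of elementary abelian groups (for Burnside's basis theorem). -/

namespace Cfsg.Agent.Lib.Helper21Basis

theorem span_eq {p : ℕ} {V : Type*} [AddCommGroup V] [Module (ZMod p) V] (X : Set V) :
    Submodule.span (ZMod p) X = AddSubgroup.toZModSubmodule p (AddSubgroup.closure X) := by
  apply le_antisymm
  · rw [Submodule.span_le]
    exact AddSubgroup.subset_closure
  · intro x hx
    have hx' : x ∈ AddSubgroup.closure X := hx
    have hle : AddSubgroup.closure X ≤ (Submodule.span (ZMod p) X).toAddSubgroup := by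
      rw [AddSubgroup.closure_le]
      exact Submodule.subset_span
    exact hle hx'

theorem span_top_iff {p : ℕ} {V : Type*} [AddCommGroup V] [Module (ZMod p) V] (X : Set V) :
    AddSubgroup.closure X = ⊤ ↔ Submodule.span (ZMod p) X = ⊤ := by
  rw [span_eq]
  constructor
  · intro h
    rw [h]
    exact map_top _
  · intro h
    rw [eq_top_iff]
    intro x _
    have h1 : x ∈ AddSubgroup.toZModSubmodule p (AddSubgroup.closure X) := by
      rw [h]; exact Submodule.mem_top
    exact h1

theorem vec {V : Type*} [AddCommGroup V] [Finite V] (p n : ℕ) [Fact p.Prime] [Module (ZMod p) V]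
    (hcard : Nat.card V = p ^ n) :
    (∀ S : Finset V, AddSubgroup.closure (S : Set V) = ⊤ →
      ∃ T : Finset V, T ⊆ S ∧ T.card = n ∧ AddSubgroup.closure (T : Set V) = ⊤) ∧
    (∀ T : Finset V, AddSubgroup.closure (T : Set V) = ⊤ → n ≤ T.card) := by
  classical
  have hp : p.Prime := Fact.out
  have hfr : Module.finrank (ZMod p) V = n := by
    have h1 := Module.natCard_eq_pow_finrank (K := ZMod p) (V := V)
    rw [hcard, Nat.card_zmod] at h1
    exact (Nat.pow_right_injective hp.two_le h1).symm
  refine ⟨?_, ?_⟩
  · intro S hS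
    rw [span_top_iff (p := p)] at hS
    obtain ⟨b, hbS, hbspan, hbli⟩ := exists_linearIndependent (ZMod p) (S : Set V)
    have hbfin : Fintype b := Fintype.ofFinite _
    have hcardb : b.toFinset.card = n := by
      rw [← hfr, ← finrank_top (ZMod p) V, ← hS, ← hbspan]
      exact (finrank_span_set_eq_card hbli).symm
    refine ⟨b.toFinset, ?_, hcardb, ?_⟩
    · intro x hx
      exact hbS (Set.mem_toFinset.mp hx)
    · rw [span_top_iff (p := p), Set.coe_toFinset, hbspan, hS]
  · intro T hT
    rw [span_top_iff (p := p)] at hT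
    have h1 := finrank_span_finset_le_card (R := ZMod p) T
    rw [Set.finrank, hT, finrank_top, hfr] at h1
    exact h1

open Subgroup in
theorem elem_ab {Q : Type*} [CommGroup Q] [Finite Q] (p n : ℕ) [Fact p.Prime]
    (hexp : ∀ x : Q, x ^ p = 1) (hcard : Nat.card Q = p ^ n) :
    (∀ S : Finset Q, closure (S : Set Q) = ⊤ →
      ∃ T : Finset Q, T ⊆ S ∧ T.card = n ∧ closure (T : Set Q) = ⊤) ∧
    (∀ T : Finset Q, closure (T : Set Q) = ⊤ → n ≤ T.card) := by
  classical
  let M : Module (ZMod p) (Additive Q) := AddCommGroup.zmodModule (n := p) (fun x => by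
    exact congrArg Additive.ofMul (hexp x.toMul))
  have hc : ∀ X : Set Q, closure X = ⊤ ↔ AddSubgroup.closure (Additive.toMul ⁻¹' X) = ⊤ := by
    intro X
    rw [← Subgroup.toAddSubgroup_closure]
    constructor
    · intro h; rw [h]; exact map_top _
    · intro h
      rw [eq_top_iff]
      intro x _
      have h1 : Additive.ofMul x ∈ Subgroup.toAddSubgroup (closure X) := by
        rw [h]; exact AddSubgroup.mem_top _
      exact h1
  obtain ⟨hA, hB⟩ := vec (V := Additive Q) p n hcard
  have himg : ∀ T : Finset Q, ((T.image Additive.ofMul : Finset (Additive Q)) : Set (Additive Q)) =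
      Additive.toMul ⁻¹' (T : Set Q) := by
    intro T
    ext x
    simp only [Finset.coe_image, Set.mem_image, Finset.mem_coe, Set.mem_preimage]
    constructor
    · rintro ⟨y, hy, rfl⟩; exact hy
    · intro h; exact ⟨_, h, rfl⟩
  refine ⟨?_, ?_⟩
  · intro S hS
    rw [hc, ← himg] at hS
    obtain ⟨T, hTS, hTc, hT⟩ := hA _ hS
    refine ⟨T.image Additive.toMul, ?_, ?_, ?_⟩
    · intro x hx
      rw [Finset.mem_image] at hx
      obtain ⟨y, hy, rfl⟩ := hx
      have := hTS hy
      rw [Finset.mem_image] at this
      obtain ⟨z, hz, rfl⟩ := this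
      exact hz
    · rw [Finset.card_image_of_injective _ Additive.toMul.injective, hTc]
    · rw [hc]
      have : Additive.toMul ⁻¹' ((T.image Additive.toMul : Finset Q) : Set Q) = (T : Set (Additive Q)) := by
        ext x
        simp
      rw [this, hT]
  · intro T hT
    rw [hc, ← himg] at hT
    exact (hB _ hT).trans Finset.card_image_le

end Cfsg.Agent.Lib.Helper21Basis
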