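import Mathlib
import Cfsg.Agent.Lib.Helper80Nil

set_option autoImplicit false

namespace Cfsg.Agent.Lib.Helper21Cyc

variable {G : Type*} [Group G]

theorem conj_pow_gen {g x : G} {k : ℤ} (h : g * x * g⁻¹ = x ^ k) (j : ℕ) :
    g ^ j * x * (g ^ j)⁻¹ = x ^ (k ^ j) := by
  induction j with
  | zero => simp
  | succ j ih =>
    have : g ^ (j + 1) * x * (g ^ (j + 1))⁻¹ = g * (g ^ j * x * (g ^ j)⁻¹) * g⁻¹ := by
      rw [pow_succ']
      group
    rw [this, ih, ← conj_zpow, h, ← zpow_mul, pow_succ']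

theorem free_of_cyclic [Finite G] {p : ℕ} [Fact p.Prime] {P : Subgroup G} (hPp : IsPGroup p P)
    (hcyc : IsCyclic P) {T : Subgroup G} (hTN : T ≤ Subgroup.normalizer (P : Set G))
    [hn : ((Subgroup.centralizer (P : Set G)).subgroupOf T).Normal]
    (hidx : ¬ p ∣ (Subgroup.centralizer (P : Set G)).relIndex T)
    {g : G} (hg : g ∈ T) {x : G} (hx : x ∈ P) (hx1 : x ≠ 1) (hgx : g * x * g⁻¹ = x) :
    g ∈ Subgroup.centralizer (P : Set G) := by
  have hp : p.Prime := Fact.out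
  obtain ⟨⟨x0, hx0P⟩, hgen⟩ := hcyc.exists_generator
  have hgen' : ∀ y ∈ P, ∃ m : ℤ, x0 ^ m = y := by
    intro y hy
    obtain ⟨m, hm⟩ := Subgroup.mem_zpowers_iff.1 (hgen ⟨y, hy⟩)
    exact ⟨m, by simpa using congrArg Subtype.val hm⟩
  obtain ⟨a, ha⟩ := (IsPGroup.iff_orderOf.mp hPp) ⟨x0, hx0P⟩
  rw [Subgroup.orderOf_mk] at ha
  have hgx0 : g * x0 * g⁻¹ ∈ P := (Subgroup.mem_normalizer_iff.1 (hTN hg) x0).1 hx0P
  obtain ⟨k, hk⟩ := hgen' _ hgx0
  obtain ⟨m, hm⟩ := hgen' _ hx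
  have h1 : x0 ^ (m * (k - 1)) = 1 := by
    have : g * x * g⁻¹ = x0 ^ (k * m) := by
      rw [← hm, ← conj_zpow, ← hk, ← zpow_mul]
    rw [hgx, ← hm] at this
    rw [mul_sub, mul_one, zpow_sub, mul_comm m k, ← this, mul_inv_cancel]
  have h2 : ((p ^ a : ℕ) : ℤ) ∣ m * (k - 1) := by
    rw [← ha]; exact (orderOf_dvd_iff_zpow_eq_one).2 h1
  have h3 : ¬ ((p ^ a : ℕ) : ℤ) ∣ m := by
    rw [← ha]
    intro h
    exact hx1 (by rw [← hm]; exact (orderOf_dvd_iff_zpow_eq_one).1 h)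
  have h4 : (p : ℤ) ∣ k - 1 := by
    by_contra hnd
    apply h3
    have hc : IsCoprime ((p ^ a : ℕ) : ℤ) (k - 1) := by
      rw [Nat.cast_pow]
      exact IsCoprime.pow_left (((Nat.prime_iff_prime_int.1 hp).coprime_iff_not_dvd).2 hnd)
    exact hc.dvd_of_dvd_mul_right h2
  have h5 : ((p : ℤ)) ^ (a + 1) ∣ k ^ (p ^ a) - 1 ^ (p ^ a) := dvd_sub_pow_of_dvd_sub h4 a
  have h6 : ((p ^ a : ℕ) : ℤ) ∣ k ^ (p ^ a) - 1 := by
    rw [one_pow] at h5
    rw [Nat.cast_pow]
    exact (pow_dvd_pow _ (Nat.le_succ a)).trans h5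
  have h7 : g ^ (p ^ a) * x0 * (g ^ (p ^ a))⁻¹ = x0 := by
    rw [conj_pow_gen hk.symm]
    have : x0 ^ (k ^ (p ^ a) - 1) = 1 := by
      apply (orderOf_dvd_iff_zpow_eq_one).1
      rw [ha]
      exact h6
    rw [zpow_sub, zpow_one, mul_inv_eq_one] at this
    exact this
  have h8 : g ^ (p ^ a) ∈ Subgroup.centralizer (P : Set G) := by
    rw [Subgroup.mem_centralizer_iff]
    intro y hy
    obtain ⟨n, hn⟩ := hgen' y hy
    have hc : Commute (g ^ (p ^ a)) x0 := by
      show _ * _ = _ * _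
      rw [← mul_inv_eq_iff_eq_mul]
      exact h7
    rw [← hn]
    exact (hc.zpow_right n).eq.symm
  have h9 : (⟨g, hg⟩ : T) ∈ (Subgroup.centralizer (P : Set G)).subgroupOf T := by
    apply Cfsg.Agent.Lib.Helper80Nil.mem_of_pow_mem_of_not_dvd_index (p := p) _ hidx (k := a)
    rw [Subgroup.mem_subgroupOf]
    exact h8
  exact Subgroup.mem_subgroupOf.1 h9

theorem cyclic_quot [Finite G] {p : ℕ} [Fact p.Prime] {P : Subgroup G} (hPp : IsPGroup p P)
    (hP1 : P ≠ ⊥) (hcyc : IsCyclic P) {T : Subgroup G}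
    (hTN : T ≤ Subgroup.normalizer (P : Set G))
    [hn : ((Subgroup.centralizer (P : Set G)).subgroupOf T).Normal]
    (hidx : ¬ p ∣ (Subgroup.centralizer (P : Set G)).relIndex T) :
    IsCyclic (T ⧸ (Subgroup.centralizer (P : Set G)).subgroupOf T) ∧
      (Subgroup.centralizer (P : Set G)).relIndex T ∣ p - 1 := by
  have hp : p.Prime := Fact.out
  let f : T →* MulAut P := P.normalizerMonoidHom.comp (Subgroup.inclusion hTN)
  have hker : f.ker = (Subgroup.centralizer (P : Set G)).subgroupOf T := by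
    ext t
    have h1 : t ∈ f.ker ↔ Subgroup.inclusion hTN t ∈ P.normalizerMonoidHom.ker := Iff.rfl
    rw [h1, Subgroup.normalizerMonoidHom_ker, Subgroup.mem_subgroupOf, Subgroup.mem_subgroupOf]
    rfl
  let F : T ⧸ (Subgroup.centralizer (P : Set G)).subgroupOf T →* MulAut P :=
    QuotientGroup.lift _ f (by rw [hker])
  have hF : Function.Injective F := by
    rw [injective_iff_map_eq_one]
    intro q
    induction q using QuotientGroup.induction_on with
    | H t =>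
      intro ht
      have : t ∈ f.ker := ht
      rw [hker] at this
      exact (QuotientGroup.eq_one_iff t).2 this
  obtain ⟨a, ha⟩ := IsPGroup.iff_card.1 hPp
  have ha0 : 0 < a := by
    rcases Nat.eq_zero_or_pos a with rfl | h
    · rw [pow_zero] at ha
      exact absurd (Subgroup.card_eq_one.1 ha) hP1
    · exact h
  have hcard : Nat.card (MulAut P) = p ^ (a - 1) * (p - 1) := by
    rw [IsCyclic.card_mulAut, ha, Nat.totient_prime_pow hp ha0]
  have hdvd : Nat.card (T ⧸ (Subgroup.centralizer (P : Set G)).subgroupOf T)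
      ∣ p ^ (a - 1) * (p - 1) := hcard ▸ Subgroup.card_dvd_of_injective F hF
  have h2 : (Subgroup.centralizer (P : Set G)).relIndex T ∣ p - 1 := by
    have hc : Nat.Coprime ((Subgroup.centralizer (P : Set G)).relIndex T) (p ^ (a - 1)) :=
      Nat.Coprime.pow_right _ (((Nat.Prime.coprime_iff_not_dvd hp).2 hidx).symm)
    apply hc.dvd_of_dvd_mul_left
    rw [Subgroup.relIndex, Subgroup.index_eq_card]
    exact hdvd
  refine ⟨?_, h2⟩
  by_cases hp2 : p = 2
  · have h3 : Nat.card (T ⧸ (Subgroup.centralizer (P : Set G)).subgroupOf T) = 1 := by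
      rw [← Subgroup.index_eq_card]
      rw [hp2] at h2
      exact Nat.dvd_one.1 h2
    have := (Nat.card_eq_one_iff_unique.1 h3).1
    exact isCyclic_of_subsingleton
  · have : IsCyclic (MulAut P) := by
      have h1 : IsCyclic (ZMod (Nat.card P))ˣ := by
        rw [ha]; exact ZMod.isCyclic_units_of_prime_pow p hp hp2 a
      exact isCyclic_of_injective (IsCyclic.mulAutMulEquiv P).toMonoidHom (MulEquiv.injective _)
    exact isCyclic_of_injective F hF

end Cfsg.Agent.Lib.Helper21Cyc
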