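import Mathlib
import Cfsg.Agent.Lib.Helper48Chain4

set_option autoImplicit false

namespace Cfsg.Agent.Lib.Helper48JordanClass

open Module Matrix Cfsg.Agent.Lib.Helper48Chain Cfsg.Agent.Lib.Helper48Chain2
  Cfsg.Agent.Lib.Helper48Chain3 Cfsg.Agent.Lib.Helper48Chain4

/-- abstract class counting -/
theorem card_classes {G α : Type*} [Group G] (T : G → α → Prop) (Pred : G → Prop) (Q : α → Prop)
    (h1 : ∀ g, Pred g → ∃ a, T g a)
    (h2 : ∀ g g' a, T g a → T g' a → IsConj g g')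
    (h3 : ∀ g g' a a', T g a → T g' a' → IsConj g g' → a = a')
    (h4 : ∀ a, Q a → ∃ g, T g a)
    (h5 : ∀ g a, T g a → (Pred g ↔ Q a)) :
    Nat.card {C : ConjClasses G // ∃ g, ConjClasses.mk g = C ∧ Pred g} = Nat.card {a // Q a} := by
  symm
  choose! γ hγ using h4
  apply Nat.card_congr
  refine Equiv.ofBijective
    (fun a => ⟨ConjClasses.mk (γ a.1), γ a.1, rfl, (h5 _ _ (hγ a.1 a.2)).2 a.2⟩) ⟨?_, ?_⟩
  · intro a a' h
    have h6 := congrArg Subtype.val h
    exact Subtype.ext (h3 _ _ _ _ (hγ a.1 a.2) (hγ a'.1 a'.2) (ConjClasses.mk_eq_mk_iff_isConj.1 h6))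
  · rintro ⟨C, g, rfl, hg⟩
    obtain ⟨a, ha⟩ := h1 g hg
    have hQ := (h5 g a ha).1 hg
    refine ⟨⟨a, hQ⟩, ?_⟩
    apply Subtype.ext
    exact ConjClasses.mk_eq_mk_iff_isConj.2 (h2 _ _ _ (hγ a hQ) ha)

universe u

variable {F : Type u} [Field F] {n : ℕ}

/-- Jordan type of a unipotent element of `GL_n` -/
def GType (g : GL (Fin n) F) (μ : Nat.Partition n) : Prop :=
  HasType (Matrix.toLin' (g.1 - 1)) μ.parts

theorem exists_gtype (g : GL (Fin n) F) (hg : IsNilpotent (g.1 - 1)) : ∃ μ, GType g μ := by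
  obtain ⟨s, hs⟩ := exists_type (Matrix.toLin' (g.1 - 1)) (hg.map (Matrix.toLinAlgEquiv' (R := F)))
  refine ⟨⟨s, ?_, ?_⟩, hs⟩
  · intro i hi
    rcases Nat.eq_zero_or_pos i with rfl | h
    · exact absurd hi hs.zero_notMem
    · exact h
  · rw [hs.sum]; simp

theorem toLin'_pow' (X : Matrix (Fin n) (Fin n) F) (k : ℕ) :
    (Matrix.toLin' X) ^ k = Matrix.toLin' (X ^ k) := (Matrix.toLin'_pow X k).symm

theorem finrank_range_pow (X : Matrix (Fin n) (Fin n) F) (k : ℕ) :
    finrank F (LinearMap.range ((Matrix.toLin' X) ^ k)) = (X ^ k).rank := by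
  rw [toLin'_pow']; rfl

theorem gtype_conj (g g' : GL (Fin n) F) (μ : Nat.Partition n) (h : GType g μ) (h' : GType g' μ) :
    IsConj g g' := by
  obtain ⟨T, hT⟩ := HasType.conj h h'
  set P := LinearMap.toMatrix' T.toLinearMap with hP
  set P' := LinearMap.toMatrix' T.symm.toLinearMap with hP'
  have hPP' : P * P' = 1 := by
    rw [hP, hP', ← LinearMap.toMatrix'_comp, LinearEquiv.comp_symm, LinearMap.toMatrix'_id]
  have hP'P : P' * P = 1 := by
    rw [hP, hP', ← LinearMap.toMatrix'_comp, LinearEquiv.symm_comp, LinearMap.toMatrix'_id]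
  have h1 : P * (g.1 - 1) = (g'.1 - 1) * P := by
    apply (Matrix.toLin' (R := F)).injective
    rw [Matrix.toLin'_mul, Matrix.toLin'_mul, hP, Matrix.toLin'_toMatrix']
    exact LinearMap.ext (fun v => hT v)
  rw [isConj_iff]
  refine ⟨⟨P, P', hPP', hP'P⟩, ?_⟩
  rw [mul_inv_eq_iff_eq_mul]
  apply Units.ext
  rw [mul_sub, sub_mul, mul_one, one_mul, sub_left_inj] at h1
  exact h1

theorem rank_conj (g g' : GL (Fin n) F) (h : IsConj g g') (k : ℕ) :
    ((g.1 - 1) ^ k).rank = ((g'.1 - 1) ^ k).rank := by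
  rw [isConj_iff] at h
  obtain ⟨c, rfl⟩ := h
  have h1 : c.1 * (c⁻¹ : GL (Fin n) F).1 = 1 := by
    rw [← Units.val_mul, mul_inv_cancel]; rfl
  have h2 : (c * g * c⁻¹ : GL (Fin n) F).1 - 1 = c.1 * (g.1 - 1) * (c⁻¹ : GL (Fin n) F).1 := by
    rw [mul_sub, sub_mul, mul_one, h1]; rfl
  rw [h2, Units.conj_pow, Matrix.rank_mul_eq_left_of_isUnit_det,
    Matrix.rank_mul_eq_right_of_isUnit_det]
  · exact (Matrix.isUnit_iff_isUnit_det _).mp c.isUnit
  · exact (Matrix.isUnit_iff_isUnit_det _).mp c⁻¹.isUnit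

theorem gtype_unique_of_rank (g g' : GL (Fin n) F) (μ μ' : Nat.Partition n) (h : GType g μ)
    (h' : GType g' μ') (hr : ∀ k, ((g.1 - 1) ^ k).rank = ((g'.1 - 1) ^ k).rank) : μ = μ' := by
  apply Nat.Partition.ext
  apply HasType.unique h h'
  intro k
  rw [finrank_range_pow, finrank_range_pow, hr]

theorem gtype_unique (g g' : GL (Fin n) F) (μ μ' : Nat.Partition n) (h : GType g μ)
    (h' : GType g' μ') (hc : IsConj g g') : μ = μ' :=
  gtype_unique_of_rank g g' μ μ' h h' (rank_conj g g' hc)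

theorem gtype_pow_eq_zero_iff (g : GL (Fin n) F) (μ : Nat.Partition n) (h : GType g μ) (k : ℕ) :
    (g.1 - 1) ^ k = 0 ↔ ∀ a ∈ μ.parts, a ≤ k := by
  rw [← HasType.pow_eq_zero_iff h, toLin'_pow']
  constructor
  · intro h0; rw [h0, map_zero]
  · intro h0
    apply (Matrix.toLin' (R := F)).injective
    rw [h0, map_zero]

theorem gtype_nilpotent (g : GL (Fin n) F) (μ : Nat.Partition n) (h : GType g μ) :
    IsNilpotent (g.1 - 1) := by
  refine ⟨n, (gtype_pow_eq_zero_iff g μ h n).2 ?_⟩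
  intro a ha
  rw [← μ.parts_sum]
  exact Multiset.le_sum_of_mem ha

/-- existence, with entries fixed by all endomorphisms of the field -/
theorem exists_of_partition (μ : Nat.Partition n) :
    ∃ g : GL (Fin n) F, GType g μ ∧ ∀ φ : F →+* F, g.1.map φ = g.1 := by
  obtain ⟨M, hM, hφ⟩ := exists_matrix (F := F) μ.parts
    (fun h => absurd (μ.parts_pos h) (lt_irrefl 0)) n μ.parts_sum
  have hnil : M ^ n = 0 := by
    have h1 := (HasType.pow_eq_zero_iff hM n).2 (by
      intro a ha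
      rw [← μ.parts_sum]
      exact Multiset.le_sum_of_mem ha)
    rw [toLin'_pow'] at h1
    apply (Matrix.toLin' (R := F)).injective
    rw [h1, map_zero]
  have hu : IsUnit (1 + M) := IsNilpotent.isUnit_one_add ⟨n, hnil⟩
  refine ⟨hu.unit, ?_, ?_⟩
  · unfold GType
    have : hu.unit.1 - 1 = M := by
      rw [show hu.unit.1 = 1 + M from hu.unit_spec]; abel
    rw [this]; exact hM
  · intro φ
    rw [show hu.unit.1 = 1 + M from hu.unit_spec]
    rw [Matrix.map_add φ (map_add φ), hφ, Matrix.map_one φ (map_zero φ) (map_one φ)]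

end Cfsg.Agent.Lib.Helper48JordanClass
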