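import Mathlib
import Cfsg.Prelude.Def_GeometricClasses
import Cfsg.Agent.Lib.Helper48JordanClass
import Cfsg.Agent.Lib.Helper25Rank
import Cfsg.Agent.Lib.Helper99Subfield

/-!
# Unipotent classes of `GL_n(F)` and a subfield `F₀`; determinants of centralisers
(toolkit for S5966)
-/

set_option autoImplicit false

namespace Cfsg.Agent.Lib.Helper21Elu66a

open Matrix Module
open Cfsg.Agent.Lib.Helper48Chain Cfsg.Agent.Lib.Helper48Chain2 Cfsg.Agent.Lib.Helper48Chain3
  Cfsg.Agent.Lib.Helper48JordanClass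
open scoped MatrixGroups

universe u

variable {F : Type u} [Field F] {n : ℕ}

/-- `GL_n(F₀) → GL_n(F)`. -/
noncomputable abbrev mp (F₀ : Subfield F) : GL (Fin n) F₀ →* GL (Fin n) F :=
  Matrix.GeneralLinearGroup.map (F₀.subtype : F₀ →+* F)

theorem mp_val (F₀ : Subfield F) (a : GL (Fin n) F₀) :
    (mp F₀ a).1 = (F₀.subtype : F₀ →+* F).mapMatrix a.1 := rfl

theorem map_sub_one_pow (F₀ : Subfield F) (a : GL (Fin n) F₀) (k : ℕ) :
    ((mp F₀ a).1 - 1) ^ k = ((a.1 - 1) ^ k).map (F₀.subtype : F₀ →+* F) := by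
  rw [mp_val, ← RingHom.mapMatrix_apply, map_pow, map_sub, map_one]

theorem rank_mp (F₀ : Subfield F) (a : GL (Fin n) F₀) (k : ℕ) :
    (((mp F₀ a).1 - 1) ^ k).rank = ((a.1 - 1) ^ k).rank := by
  rw [map_sub_one_pow, Cfsg.Agent.Lib.Helper25Rank.rank_map_field]

theorem eq_zero_of_rank' {K : Type*} [Field K] (M : Matrix (Fin n) (Fin n) K) (h : M.rank = 0) :
    M = 0 := by
  have h1 : LinearMap.range M.mulVecLin = ⊥ := Submodule.finrank_eq_zero.1 h
  rw [LinearMap.range_eq_bot] at h1
  apply (Matrix.toLin' (R := K)).injective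
  rw [map_zero]
  exact h1

/-- nilpotency only depends on the ranks of the powers. -/
theorem nilp_of_rank {K L : Type*} [Field K] [Field L] {A : Matrix (Fin n) (Fin n) K}
    {B : Matrix (Fin n) (Fin n) L} (hA : IsNilpotent A) (h : ∀ k, (A ^ k).rank = (B ^ k).rank) :
    IsNilpotent B := by
  obtain ⟨k, hk⟩ := hA
  refine ⟨k, eq_zero_of_rank' _ ?_⟩
  rw [← h k, hk, Matrix.rank_zero]

/-- two unipotent elements of `GL_n(F₀)` which are conjugate in `GL_n(F)` are conjugate in
`GL_n(F₀)`. -/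
theorem conj_descend (F₀ : Subfield F) (a b : GL (Fin n) F₀) (ha : IsNilpotent (a.1 - 1))
    (h : IsConj (mp F₀ a) (mp F₀ b)) : IsConj a b := by
  have hr : ∀ k, ((a.1 - 1) ^ k).rank = ((b.1 - 1) ^ k).rank := by
    intro k
    rw [← rank_mp, ← rank_mp, rank_conj _ _ h]
  have hb : IsNilpotent (b.1 - 1) := nilp_of_rank ha hr
  obtain ⟨μ, hμ⟩ := exists_gtype a ha
  obtain ⟨μ', hμ'⟩ := exists_gtype b hb
  have := gtype_unique_of_rank a b μ μ' hμ hμ' hr
  subst this
  exact gtype_conj a b μ hμ hμ'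

/-- every unipotent element of `GL_n(F)` is conjugate to an element of `GL_n(F₀)`. -/
theorem exists_rational (F₀ : Subfield F) (u : GL (Fin n) F) (hu : IsNilpotent (u.1 - 1)) :
    ∃ y : GL (Fin n) F₀, IsConj u (mp F₀ y) := by
  obtain ⟨μ, hμ⟩ := exists_gtype u hu
  obtain ⟨y, hy, -⟩ := exists_of_partition (F := F₀) μ
  refine ⟨y, ?_⟩
  have hr : ∀ k, ((u.1 - 1) ^ k).rank = (((mp F₀ y).1 - 1) ^ k).rank := by
    intro k
    rw [rank_mp, ← finrank_range_pow, ← finrank_range_pow, HasType.rank hμ, HasType.rank hy]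
  have hy' : IsNilpotent ((mp F₀ y).1 - 1) := nilp_of_rank hu hr
  obtain ⟨μ', hμ'⟩ := exists_gtype (mp F₀ y) hy'
  have := gtype_unique_of_rank u (mp F₀ y) μ μ' hμ hμ' hr
  subst this
  exact gtype_conj _ _ μ hμ hμ'

/-- rescaling one chain. -/
theorem exists_commute_det {V : Type*} [AddCommGroup V] [Module F V] {ι : Type*} [Fintype ι]
    [DecidableEq ι] {e : ι → ℕ} {N : End F V} {b : Basis (Σ i, Fin (e i)) F V}
    (h : IsChainBasis e N b) (i₀ : ι) (a : F) :
    ∃ T : End F V, T * N = N * T ∧ LinearMap.det T = a ^ (e i₀) := by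
  classical
  let c : ι → F := fun i => if i = i₀ then a else 1
  let T : End F V := b.constr F (fun x => c x.1 • b x)
  have hT : ∀ x, T (b x) = c x.1 • b x := fun x => by
    simp only [T, Basis.constr_basis]
  refine ⟨T, ?_, ?_⟩
  · apply b.ext
    rintro ⟨i, j⟩
    rw [Module.End.mul_apply, Module.End.mul_apply, hT, map_smul, h i j]
    split_ifs with hj
    · rw [hT]
    · rw [map_zero, smul_zero]
  · rw [← LinearMap.det_toMatrix b]
    have hm : LinearMap.toMatrix b b T = Matrix.diagonal (fun x => c x.1) := by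
      ext x y
      rw [LinearMap.toMatrix_apply, hT, map_smul, Basis.repr_self, Finsupp.smul_apply,
        Finsupp.single_apply, Matrix.diagonal_apply]
      by_cases hxy : x = y
      · subst hxy; simp
      · rw [if_neg (fun h => hxy h.symm), if_neg hxy]; simp
    rw [hm, Matrix.det_diagonal, Fintype.prod_sigma]
    simp only [Finset.prod_const, Finset.card_univ, Fintype.card_fin]
    rw [Finset.prod_eq_single i₀]
    · simp [c]
    · intro i _ hi
      simp [c, hi]
    · intro hi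
      exact absurd (Finset.mem_univ _) hi

/-- the centraliser of a unipotent element having a Jordan block of size `l` contains elements
of determinant `a ^ l`. -/
theorem exists_centralizer_det (u : GL (Fin n) F) (μ : Nat.Partition n) (h : GType u μ) (l : ℕ)
    (hl : l ∈ μ.parts) (a : Fˣ) :
    ∃ c : GL (Fin n) F, c * u = u * c ∧ c.1.det = (a : F) ^ l := by
  obtain ⟨t, e, b, hb, -, hs⟩ := h
  rw [hs] at hl
  obtain ⟨i₀, -, rfl⟩ := Multiset.mem_map.1 hl
  obtain ⟨T, hT, hdet⟩ := exists_commute_det hb i₀ (a : F)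
  set C := LinearMap.toMatrix' T with hC
  have hCdet : C.det = (a : F) ^ e i₀ := by
    rw [hC, LinearMap.det_toMatrix', hdet]
  have hne : C.det ≠ 0 := by
    rw [hCdet]; exact pow_ne_zero _ a.ne_zero
  refine ⟨Matrix.GeneralLinearGroup.mkOfDetNeZero C hne, ?_, hCdet⟩
  apply Units.ext
  show C * u.1 = u.1 * C
  have h1 : C * (u.1 - 1) = (u.1 - 1) * C := by
    apply (Matrix.toLin' (R := F)).injective
    rw [Matrix.toLin'_mul, Matrix.toLin'_mul, hC, Matrix.toLin'_toMatrix']
    exact hT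
  rw [mul_sub, sub_mul, mul_one, one_mul, sub_left_inj] at h1
  exact h1

end Cfsg.Agent.Lib.Helper21Elu66a
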