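import Mathlib

/-!
# Squares of a finite field and a subfield (toolkit for S5966)
-/

set_option autoImplicit false

namespace Cfsg.Agent.Lib.Helper21Elu66b

variable {F : Type*} [Field F]

theorem pow_half (a ε : F) (t : ℕ) (h : a ^ t = ε) (hε : ε ^ 2 = 1) (j : ℕ) :
    a ^ ((2 * t + 1) ^ j / 2) = ε ^ j := by
  induction j with
  | zero => simp
  | succ j ih =>
    obtain ⟨s, hs⟩ : Odd ((2 * t + 1) ^ j) := Odd.pow ⟨t, rfl⟩
    have h1 : (2 * t + 1) ^ (j + 1) / 2 = t * (2 * s + 1) + s := by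
      rw [pow_succ, hs]
      have : (2 * s + 1) * (2 * t + 1) = 2 * (t * (2 * s + 1) + s) + 1 := by ring
      rw [this]
      omega
    have h2 : (2 * t + 1) ^ j / 2 = s := by rw [hs]; omega
    rw [h2] at ih
    rw [h1, pow_add, pow_mul, h, ih, pow_succ ε (2 * s), pow_mul, hε, one_pow, one_mul, pow_succ,
      mul_comm]

variable [Fintype F]

theorem exists_cube_root [CharP F 3] (z : F) : ∃ w, w ^ 3 = z := by
  haveI : Fact (Nat.Prime 3) := ⟨Nat.prime_three⟩
  have hinj : Function.Injective (frobenius F 3) := frobenius_inj F 3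
  obtain ⟨w, hw⟩ := (Finite.injective_iff_surjective.1 hinj) z
  exact ⟨w, hw⟩

/-- the Euler character of an element of the subfield. -/
theorem euler_subfield (h2 : ringChar F ≠ 2) (F₀ : Subfield F) (k : ℕ)
    (hc : Fintype.card F = Nat.card F₀ ^ k) (hk : k ≠ 0) (a : F₀) (ha : a ≠ 0) :
    ∃ ε : F, ε ^ 2 = 1 ∧ (ε = 1 ↔ IsSquare a) ∧ (a : F) ^ (Fintype.card F / 2) = ε ^ k := by
  classical
  letI : Fintype F₀ := Fintype.ofFinite _
  have hq : Fintype.card F % 2 = 1 := FiniteField.odd_card_of_char_ne_two h2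
  have hq0 : Odd (Fintype.card F₀) := by
    rw [Nat.card_eq_fintype_card] at hc
    rw [hc, ← Nat.odd_iff] at hq
    exact (Nat.odd_pow_iff hk).1 hq
  have h20 : ringChar F₀ ≠ 2 := by
    intro h
    rw [FiniteField.even_card_iff_char_two] at h
    rw [Nat.odd_iff] at hq0
    omega
  obtain ⟨t, ht⟩ := hq0
  have hdiv : Fintype.card F₀ / 2 = t := by omega
  have hdich := FiniteField.pow_dichotomy h20 ha
  have hsq := FiniteField.isSquare_iff h20 ha
  rw [hdiv] at hdich hsq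
  refine ⟨((a ^ t : F₀) : F), ?_, ?_, ?_⟩
  · rcases hdich with h | h <;> rw [h] <;> simp
  · rw [hsq]
    constructor
    · intro h
      exact Subtype.ext h
    · intro h
      rw [h]; rfl
  · rw [hc, Nat.card_eq_fintype_card, ht]
    apply pow_half
    · simp
    · rcases hdich with h | h <;> rw [h] <;> simp

theorem isSquare_of_mem_subfield (h2 : ringChar F ≠ 2) (F₀ : Subfield F)
    (hc : Fintype.card F = Nat.card F₀ ^ 2) (a : F) (ha : a ∈ F₀) : IsSquare a := by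
  by_cases h0 : a = 0
  · subst h0; exact ⟨0, by simp⟩
  obtain ⟨ε, hε, -, h⟩ := euler_subfield h2 F₀ 2 hc two_ne_zero ⟨a, ha⟩
    (fun h => h0 (congrArg Subtype.val h))
  rw [FiniteField.isSquare_iff h2 h0]
  rw [hε] at h
  exact h

theorem exists_nonsquare_mem_subfield (h2 : ringChar F ≠ 2) (F₀ : Subfield F) (k : ℕ) (hk : Odd k)
    (hc : Fintype.card F = Nat.card F₀ ^ k) : ∃ β ∈ F₀, β ≠ 0 ∧ ¬ IsSquare β := by
  classical
  letI : Fintype F₀ := Fintype.ofFinite _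
  have hk0 : k ≠ 0 := by rintro rfl; simp at hk
  have hq : Fintype.card F % 2 = 1 := FiniteField.odd_card_of_char_ne_two h2
  have hq0 : Odd (Fintype.card F₀) := by
    rw [Nat.card_eq_fintype_card] at hc
    rw [hc, ← Nat.odd_iff] at hq
    exact (Nat.odd_pow_iff hk0).1 hq
  have h20 : ringChar F₀ ≠ 2 := by
    intro h
    rw [FiniteField.even_card_iff_char_two] at h
    rw [Nat.odd_iff] at hq0
    omega
  obtain ⟨b, hb⟩ := FiniteField.exists_nonsquare h20
  have hb0 : b ≠ 0 := by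
    rintro rfl
    exact hb ⟨0, by simp⟩
  have hb0' : (b : F) ≠ 0 := fun h => hb0 (Subtype.ext h)
  obtain ⟨ε, hε, hiff, h⟩ := euler_subfield h2 F₀ k hc hk0 b hb0
  refine ⟨b, b.2, hb0', ?_⟩
  rw [FiniteField.isSquare_iff h2 hb0', h]
  obtain ⟨s, rfl⟩ := hk
  rw [pow_succ, pow_mul, hε, one_pow, one_mul]
  intro h1
  exact hb (hiff.1 h1)

theorem isSquare_mul_of_not (h2 : ringChar F ≠ 2) {a b : F} (ha : ¬ IsSquare a)
    (hb : ¬ IsSquare b) : IsSquare (a * b) := by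
  have ha0 : a ≠ 0 := by rintro rfl; exact ha ⟨0, by simp⟩
  have hb0 : b ≠ 0 := by rintro rfl; exact hb ⟨0, by simp⟩
  rw [FiniteField.isSquare_iff h2 ha0] at ha
  rw [FiniteField.isSquare_iff h2 hb0] at hb
  rw [FiniteField.isSquare_iff h2 (mul_ne_zero ha0 hb0), mul_pow]
  rcases FiniteField.pow_dichotomy h2 ha0 with h | h
  · exact absurd h ha
  rcases FiniteField.pow_dichotomy h2 hb0 with h' | h'
  · exact absurd h' hb
  rw [h, h']; simp

/-- `Fˣ = (Fˣ)² F₀ˣ` if `|F : F₀|` is odd. -/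
theorem exists_sq_mul_subfield (h2 : ringChar F ≠ 2) (F₀ : Subfield F) (k : ℕ) (hk : Odd k)
    (hc : Fintype.card F = Nat.card F₀ ^ k) (d : F) (hd : d ≠ 0) :
    ∃ a β : F, a ≠ 0 ∧ β ≠ 0 ∧ β ∈ F₀ ∧ d = a ^ 2 * β := by
  by_cases hsq : IsSquare d
  · obtain ⟨a, ha⟩ := hsq
    refine ⟨a, 1, ?_, one_ne_zero, F₀.one_mem, by rw [ha]; ring⟩
    rintro rfl
    exact hd (by rw [ha]; simp)
  · obtain ⟨β, hβ, hβ0, hβs⟩ := exists_nonsquare_mem_subfield h2 F₀ k hk hc
    obtain ⟨a, ha⟩ := isSquare_mul_of_not h2 hsq hβs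
    refine ⟨a, β⁻¹, ?_, inv_ne_zero hβ0, F₀.inv_mem hβ, ?_⟩
    · rintro rfl
      exact (mul_ne_zero hd hβ0) (by rw [ha]; simp)
    · rw [pow_two, ← ha]; field_simp

end Cfsg.Agent.Lib.Helper21Elu66b
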