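import Mathlib
import Cfsg.Agent.Lib.Helper21Elu66a
import Cfsg.Agent.Lib.Helper21Elu66b

/-!
# The unipotent element with all Jordan blocks of size 2 (toolkit for S5966)
-/

set_option autoImplicit false

namespace Cfsg.Agent.Lib.Helper21Elu66c

open Matrix
open scoped MatrixGroups

variable {K : Type*} [Field K] {m n : ℕ}

/-- `[[1,0],[1,1]]` in blocks. -/
def J0 (K : Type*) [Field K] (m : ℕ) : Matrix (Fin m ⊕ Fin m) (Fin m ⊕ Fin m) K :=
  fromBlocks 1 0 1 1

/-- its inverse. -/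
def J0i (K : Type*) [Field K] (m : ℕ) : Matrix (Fin m ⊕ Fin m) (Fin m ⊕ Fin m) K :=
  fromBlocks 1 0 (-1) 1

theorem J0_mul : J0 K m * J0i K m = 1 := by
  rw [J0, J0i, fromBlocks_multiply]
  simp

theorem J0i_mul : J0i K m * J0 K m = 1 := by
  rw [J0, J0i, fromBlocks_multiply]
  simp

theorem J0_sub_one_sq : (J0 K m - 1) ^ 2 = 0 := by
  have h : J0 K m - 1 = fromBlocks 0 0 1 0 := by
    rw [J0]
    ext (i | i) (j | j) <;> simp [Matrix.one_apply]
  rw [h, pow_two, fromBlocks_multiply]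
  simp

theorem J0_det : (J0 K m).det = 1 := by
  rw [J0, det_fromBlocks_zero₁₂]
  simp

theorem det_of_commute (c : Matrix (Fin m ⊕ Fin m) (Fin m ⊕ Fin m) K)
    (h : c * J0 K m = J0 K m * c) : c.det = c.toBlocks₁₁.det ^ 2 := by
  have hc := (fromBlocks_toBlocks c).symm
  set A := c.toBlocks₁₁
  set B := c.toBlocks₁₂
  set C := c.toBlocks₂₁
  set D := c.toBlocks₂₂
  rw [hc, J0, fromBlocks_multiply, fromBlocks_multiply] at h
  simp only [mul_one, mul_zero, one_mul, zero_mul, add_zero, zero_add] at h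
  rw [fromBlocks_inj] at h
  obtain ⟨h1, -, h3, -⟩ := h
  have hB : B = 0 := by
    have := h1
    rwa [add_eq_left] at this
  have hD : D = A := by
    have := h3
    rw [add_comm A C] at this
    exact add_left_cancel this
  rw [hc, hB, hD, det_fromBlocks_zero₁₂, pow_two]

/-- `J` on `Fin n`. -/
noncomputable def JG (K : Type*) [Field K] (e : Fin m ⊕ Fin m ≃ Fin n) : GL (Fin n) K where
  val := reindexAlgEquiv K K e (J0 K m)
  inv := reindexAlgEquiv K K e (J0i K m)
  val_inv := by rw [← map_mul, J0_mul, map_one]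
  inv_val := by rw [← map_mul, J0i_mul, map_one]

theorem JG_val (e : Fin m ⊕ Fin m ≃ Fin n) : (JG K e).1 = reindexAlgEquiv K K e (J0 K m) := rfl

theorem JG_sub_one_sq (e : Fin m ⊕ Fin m ≃ Fin n) : ((JG K e).1 - 1) ^ 2 = 0 := by
  rw [JG_val, ← map_one (reindexAlgEquiv K K e), ← map_sub, ← map_pow, J0_sub_one_sq, map_zero]

theorem JG_det (e : Fin m ⊕ Fin m ≃ Fin n) : (JG K e).1.det = 1 := by
  rw [JG_val, det_reindexAlgEquiv, J0_det]

theorem JG_not_scalar (hm : 0 < m) (e : Fin m ⊕ Fin m ≃ Fin n) (z : K) :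
    (JG K e).1 ≠ z • (1 : Matrix (Fin n) (Fin n) K) := by
  intro h
  have h1 : J0 K m = z • 1 := by
    apply (reindexAlgEquiv K K e).injective
    rw [← JG_val, h, map_smul, map_one]
  have h2 := congrFun (congrFun h1 (Sum.inr ⟨0, hm⟩)) (Sum.inl ⟨0, hm⟩)
  simp [J0] at h2

theorem isSquare_det_of_commute (e : Fin m ⊕ Fin m ≃ Fin n) (c : GL (Fin n) K)
    (h : c * JG K e = JG K e * c) : IsSquare c.1.det := by
  have h1 : c.1 * (JG K e).1 = (JG K e).1 * c.1 := congrArg Units.val h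
  set c' := (reindexAlgEquiv K K e).symm c.1 with hc'
  have hcc : c.1 = reindexAlgEquiv K K e c' := by rw [hc', AlgEquiv.apply_symm_apply]
  have h2 : c' * J0 K m = J0 K m * c' := by
    apply (reindexAlgEquiv K K e).injective
    rw [map_mul, map_mul, ← hcc, ← JG_val]
    exact h1
  rw [hcc, det_reindexAlgEquiv, det_of_commute c' h2, pow_two]
  exact ⟨_, rfl⟩

theorem mp_JG {F : Type*} [Field F] (F₀ : Subfield F) (e : Fin m ⊕ Fin m ≃ Fin n) :
    Helper21Elu66a.mp F₀ (JG F₀ e) = JG F e := by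
  apply Units.ext
  rw [Helper21Elu66a.mp_val, JG_val, JG_val]
  ext i j
  simp only [RingHom.mapMatrix_apply, map_apply, coe_reindexAlgEquiv, reindex_apply,
    submatrix_apply, J0]
  rcases e.symm i with a | a <;> rcases e.symm j with b | b <;>
    simp [Matrix.one_apply, apply_ite]

theorem pow_three_of_sq [CharP K 3] {ι : Type*} [Fintype ι] [DecidableEq ι] (A : Matrix ι ι K)
    (h : (A - 1) ^ 2 = 0) : A ^ 3 = 1 := by
  have h1 : A ^ 3 = 1 + (A - 1) ^ 2 * (A + 2) + (3 : ℕ) • (A - 1) := by noncomm_ring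
  have h3 : (3 : ℕ) • (A - 1) = 0 := by
    rw [← Nat.cast_smul_eq_nsmul K, CharP.cast_eq_zero, zero_smul]
  rw [h1, h, h3]
  simp

theorem sub_one_pow_three [CharP K 3] {ι : Type*} [Fintype ι] [DecidableEq ι] (A : Matrix ι ι K)
    (h : A ^ 3 = 1) : (A - 1) ^ 3 = 0 := by
  have h1 : (A - 1) ^ 3 = A ^ 3 - 1 - (3 : ℕ) • (A ^ 2 - A) := by noncomm_ring
  have h3 : (3 : ℕ) • (A ^ 2 - A) = 0 := by
    rw [← Nat.cast_smul_eq_nsmul K, CharP.cast_eq_zero, zero_smul]
  rw [h1, h, h3]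
  simp

/-- if a multiple `c u` of a matrix with `(u - 1)² = 0` is rational then `c` is rational. -/
theorem mem_of_rat {F : Type*} [Field F] (h2 : (2 : F) ≠ 0) (F₀ : Subfield F)
    (u : Matrix (Fin n) (Fin n) F) (hu : (u - 1) ^ 2 = 0) (c : F)
    (hrat : ∀ i j, c * u i j ∈ F₀) (i₀ : Fin n) : c ∈ F₀ := by
  set h : Matrix (Fin n) (Fin n) F := c • u with hh
  have hent : ∀ i j, h i j ∈ F₀ := fun i j => hrat i j
  have huu : u * u = (2 : F) • u - 1 := by
    have h1 : u * u = (u - 1) ^ 2 + ((2 : ℕ) • u - 1) := by noncomm_ring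
    rw [h1, hu, zero_add, ← Nat.cast_smul_eq_nsmul F]
    simp
  have hsq : h * h = (2 * c) • h - (c ^ 2) • (1 : Matrix (Fin n) (Fin n) F) := by
    rw [hh, Matrix.smul_mul, Matrix.mul_smul, huu, smul_smul, smul_smul, smul_sub, smul_smul]
    congr 1
    · congr 1; ring
    · congr 1; ring
  have hmul : ∀ i j, (h * h) i j ∈ F₀ := by
    intro i j
    rw [Matrix.mul_apply]
    exact F₀.sum_mem fun k _ => F₀.mul_mem (hent i k) (hent k j)
  have h2mem : (2 : F) ∈ F₀ := by
    have : (2 : F) = 1 + 1 := by norm_num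
    rw [this]; exact F₀.add_mem F₀.one_mem F₀.one_mem
  by_cases hoff : ∃ i j, i ≠ j ∧ h i j ≠ 0
  · obtain ⟨i, j, hij, hne⟩ := hoff
    have h1 := congrFun (congrFun hsq i) j
    rw [Matrix.sub_apply, Matrix.smul_apply, Matrix.smul_apply, Matrix.one_apply_ne hij] at h1
    simp only [smul_eq_mul, mul_zero, sub_zero] at h1
    have h3 : c = (h * h) i j * (h i j)⁻¹ * 2⁻¹ := by
      rw [h1]; field_simp
    rw [h3]
    exact F₀.mul_mem (F₀.mul_mem (hmul i j) (F₀.inv_mem (hent i j))) (F₀.inv_mem h2mem)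
  · push Not at hoff
    have h1 := congrFun (congrFun hsq i₀) i₀
    rw [Matrix.sub_apply, Matrix.smul_apply, Matrix.smul_apply, Matrix.one_apply_eq,
      Matrix.mul_apply, Finset.sum_eq_single i₀] at h1
    · simp only [smul_eq_mul, mul_one] at h1
      have h3 : (h i₀ i₀ - c) ^ 2 = 0 := by linear_combination h1
      have h4 : c = h i₀ i₀ := by
        have := pow_eq_zero_iff (two_ne_zero) |>.1 h3
        exact (sub_eq_zero.1 this).symm
      rw [h4]; exact hent i₀ i₀
    · intro k _ hk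
      rw [hoff i₀ k (Ne.symm hk), zero_mul]
    · intro hi
      exact absurd (Finset.mem_univ _) hi

end Cfsg.Agent.Lib.Helper21Elu66c
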