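import Mathlib
import Cfsg.Agent.Lib.Helper21Elu66c

/-!
# S5966: the two directions
-/

set_option autoImplicit false
set_option linter.unusedSectionVars false
set_option linter.style.haveILetI false

namespace Cfsg.Agent.Lib.Helper21Elu66d

open Matrix
open scoped MatrixGroups
open Cfsg.Agent.Lib.Helper21Elu66a Cfsg.Agent.Lib.Helper21Elu66b Cfsg.Agent.Lib.Helper21Elu66c
open Cfsg.Agent.Lib.Helper48JordanClass Cfsg.Agent.Lib.Helper99Subfield

universe u

variable {F : Type u} [Field F] [Fintype F] {m n : ℕ}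

theorem ringChar_ne_two [CharP F 3] : ringChar F ≠ 2 := by
  rw [ringChar.eq F 3]; norm_num

/-- an element of `GL` of determinant one comes from `SL`. -/
theorem exists_SL (Q : GL (Fin n) F) (h : Q.1.det = 1) :
    ∃ P : Matrix.SpecialLinearGroup (Fin n) F, Matrix.SpecialLinearGroup.toGL P = Q :=
  ⟨⟨Q.1, h⟩, Units.ext rfl⟩

theorem val_det_mul (a b : GL (Fin n) F) : (a * b).1.det = a.1.det * b.1.det := by
  rw [Units.val_mul, Matrix.det_mul]

theorem val_det_inv (a : GL (Fin n) F) : (a⁻¹).1.det = (a.1.det)⁻¹ := by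
  have h : (a * a⁻¹).1.det = 1 := by rw [mul_inv_cancel]; simp
  rw [val_det_mul] at h
  exact eq_inv_of_mul_eq_one_right h

theorem det_mp_mem (F₀ : Subfield F) (h : GL (Fin n) F₀) : (mp F₀ h).1.det ∈ F₀ := by
  rw [mp_val, ← RingHom.map_det]
  exact (h.1.det).2

theorem derangement [CharP F 3] (F₀ : Subfield F) (hc : Fintype.card F = Nat.card F₀ ^ 2)
    (hm : 0 < m) (e : Fin m ⊕ Fin m ≃ Fin n) :
    ∃ x : Matrix.SpecialLinearGroup (Fin n) F, x ^ 3 = 1 ∧
      (∀ z : F, (x : Matrix (Fin n) (Fin n) F) ≠ z • (1 : Matrix (Fin n) (Fin n) F)) ∧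
      ∀ P : Matrix.SpecialLinearGroup (Fin n) F,
        (Matrix.SpecialLinearGroup.toGL (P⁻¹ * x * P) : GL (Fin n) F) ∉
          Cfsg.Geo.subfieldSubgroup F₀ (1 : GL (Fin n) F) := by
  have h2 : ringChar F ≠ 2 := ringChar_ne_two
  have h2' : (2 : F) ≠ 0 := Ring.two_ne_zero h2
  have i₀ : Fin n := e (Sum.inl ⟨0, hm⟩)
  haveI : Nonempty (Fin n) := ⟨i₀⟩
  obtain ⟨δ, hδ⟩ := FiniteField.exists_nonsquare h2
  have hδ0 : δ ≠ 0 := by rintro rfl; exact hδ ⟨0, by simp⟩
  obtain ⟨g, hg⟩ := Matrix.GeneralLinearGroup.det_surjective (n := Fin n) (Units.mk0 δ hδ0)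
  have hgdet : g.1.det = δ := by
    have := congrArg Units.val hg
    simpa using this
  set J := JG F e with hJ
  set xG : GL (Fin n) F := g * J * g⁻¹ with hxG
  have hxdet : xG.1.det = 1 := by
    rw [hxG, val_det_mul, val_det_mul, val_det_inv, hJ, JG_det, hgdet]
    field_simp
  obtain ⟨x, hx⟩ := exists_SL xG hxdet
  have hxval : (x : Matrix (Fin n) (Fin n) F) = xG.1 := by rw [← hx]; rfl
  have hJ3 : J ^ 3 = 1 := by
    apply Units.ext
    rw [Units.val_pow_eq_pow_val]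
    exact pow_three_of_sq _ (JG_sub_one_sq e)
  refine ⟨x, ?_, ?_, ?_⟩
  · apply Matrix.SpecialLinearGroup.toGL_injective
    rw [map_pow, hx, hxG, conj_pow, hJ3, map_one]
    group
  · intro z hz
    rw [hxval] at hz
    apply JG_not_scalar (K := F) hm e z
    have h1 : J = g⁻¹ * xG * g := by rw [hxG]; group
    rw [← hJ, h1, Units.val_mul, Units.val_mul, hz, Matrix.mul_smul, Matrix.smul_mul, mul_one,
      ← Units.val_mul, inv_mul_cancel, Units.val_one]
  · intro P hP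
    rw [map_mul, map_mul, map_inv, hx] at hP
    set PG : GL (Fin n) F := Matrix.SpecialLinearGroup.toGL P with hPG
    have hPdet : PG.1.det = 1 := P.2
    set u' : GL (Fin n) F := PG⁻¹ * xG * PG with hu'
    have hconj : IsConj J u' := by
      rw [isConj_iff]
      exact ⟨PG⁻¹ * g, by rw [hu', hxG]; group⟩
    have hsq : (u'.1 - 1) ^ 2 = 0 := by
      apply eq_zero_of_rank'
      rw [← rank_conj _ _ hconj, hJ, JG_sub_one_sq, Matrix.rank_zero]
    obtain ⟨c, hc0, hrat⟩ := (mem_subfieldSubgroup_one_iff u').1 hP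
    have hcmem : c ∈ F₀ := mem_of_rat h2' F₀ u'.1 hsq c (fun i j => hrat i j) i₀
    have hrat' : IsRatM F₀ u'.1 := by
      intro i j
      have : u'.1 i j = c⁻¹ * (c * u'.1 i j) := by field_simp
      rw [this]
      exact F₀.mul_mem (F₀.inv_mem hcmem) (hrat i j)
    obtain ⟨u₀, hu₀⟩ := (mem_range_map_iff u').2 hrat'
    have hu₀' : mp F₀ u₀ = u' := hu₀
    have hconj0 : IsConj (JG F₀ e) u₀ := by
      apply conj_descend F₀
      · exact ⟨2, JG_sub_one_sq e⟩
      · rw [mp_JG, hu₀']; exact hconj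
    rw [isConj_iff] at hconj0
    obtain ⟨h₀, hh₀⟩ := hconj0
    have hH : mp F₀ h₀ * J * (mp F₀ h₀)⁻¹ = u' := by
      rw [← hu₀', ← hh₀, map_mul, map_mul, map_inv, mp_JG]
    set H := mp F₀ h₀ with hHdef
    have hcomm : (g⁻¹ * PG * H) * J = J * (g⁻¹ * PG * H) := by
      have h1 : H * J = u' * H := by rw [← hH]; group
      calc g⁻¹ * PG * H * J = g⁻¹ * PG * (H * J) := by group
        _ = g⁻¹ * PG * (u' * H) := by rw [h1]
        _ = J * (g⁻¹ * PG * H) := by rw [hu', hxG]; group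
    obtain ⟨s, hs⟩ := isSquare_det_of_commute e _ hcomm
    rw [val_det_mul, val_det_mul, val_det_inv, hgdet, hPdet, mul_one] at hs
    obtain ⟨r, hr⟩ := isSquare_of_mem_subfield h2 F₀ hc _ (det_mp_mem F₀ h₀)
    have hHne : H.1.det ≠ 0 := by
      have : IsUnit H.1.det := (Matrix.isUnit_iff_isUnit_det _).1 H.isUnit
      exact this.ne_zero
    have hr0 : r ≠ 0 := by
      rintro rfl
      apply hHne
      rw [hHdef, hr]; simp
    have hs0 : s ≠ 0 := by
      rintro rfl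
      have : δ⁻¹ * H.1.det ≠ 0 := mul_ne_zero (inv_ne_zero hδ0) hHne
      apply this
      rw [hs]; simp
    apply hδ
    refine ⟨r / s, ?_⟩
    rw [← hHdef] at hr
    rw [hr] at hs
    field_simp
    field_simp at hs
    linear_combination -hs

/-- the determinant correction. -/
theorem exists_correction [CharP F 3] (F₀ : Subfield F) (k : ℕ)
    (hc : Fintype.card F = Nat.card F₀ ^ k) (hn : 0 < n) (hk : Odd n ∨ Odd k)
    (u : GL (Fin n) F) (hu : (u.1 - 1) ^ 3 = 0) (d : F) (hd : d ≠ 0) :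
    ∃ (c : GL (Fin n) F) (h : GL (Fin n) F₀), c * u = u * c ∧ (mp F₀ h).1.det * c.1.det = d := by
  have h2 : ringChar F ≠ 2 := ringChar_ne_two
  haveI : Nonempty (Fin n) := ⟨⟨0, hn⟩⟩
  obtain ⟨μ, hμ⟩ := exists_gtype u ⟨3, hu⟩
  have hle : ∀ a ∈ μ.parts, a ≤ 3 := (gtype_pow_eq_zero_iff u μ hμ 3).1 hu
  by_cases hex : ∃ l ∈ μ.parts, l = 1 ∨ l = 3
  · obtain ⟨l, hl, hl13⟩ := hex
    obtain ⟨a, ha⟩ : ∃ a : F, a ^ l = d := by
      rcases hl13 with rfl | rfl
      · exact ⟨d, pow_one d⟩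
      · exact exists_cube_root d
    have ha0 : a ≠ 0 := by
      rintro rfl
      apply hd
      rw [← ha]
      rcases hl13 with rfl | rfl <;> simp
    obtain ⟨c, hcu, hcd⟩ := exists_centralizer_det u μ hμ l hl (Units.mk0 a ha0)
    refine ⟨c, 1, hcu, ?_⟩
    rw [map_one, hcd]
    simpa using ha
  · push Not at hex
    have hall : ∀ a ∈ μ.parts, a = 2 := by
      intro a ha
      have h1 := hle a ha
      have h3 := μ.parts_pos ha
      have h4 := hex a ha
      omega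
    have hrep : μ.parts = Multiset.replicate (Multiset.card μ.parts) 2 :=
      Multiset.eq_replicate_card.2 hall
    have hsum : n = Multiset.card μ.parts * 2 := by
      have := μ.parts_sum
      rw [hrep, Multiset.sum_replicate] at this
      simpa using this.symm
    have hkodd : Odd k := by
      rcases hk with h | h
      · exfalso
        rw [hsum] at h
        exact (Nat.not_odd_iff_even.2 ⟨Multiset.card μ.parts, by ring⟩) h
      · exact h
    have h2mem : 2 ∈ μ.parts := by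
      have hpos : 0 < Multiset.card μ.parts := by omega
      obtain ⟨a, ha⟩ := Multiset.card_pos_iff_exists_mem.1 hpos
      rw [← hall a ha]; exact ha
    obtain ⟨a, β, ha0, hβ0, hβ, hdab⟩ := exists_sq_mul_subfield h2 F₀ k hkodd hc d hd
    obtain ⟨c, hcu, hcd⟩ := exists_centralizer_det u μ hμ 2 h2mem (Units.mk0 a ha0)
    have hβ0' : (⟨β, hβ⟩ : F₀) ≠ 0 := fun h => hβ0 (congrArg Subtype.val h)
    obtain ⟨h, hh⟩ := Matrix.GeneralLinearGroup.det_surjective (n := Fin n)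
      (Units.mk0 (⟨β, hβ⟩ : F₀) hβ0')
    have hhdet : h.1.det = ⟨β, hβ⟩ := by
      have := congrArg Units.val hh
      simpa using this
    refine ⟨c, h, hcu, ?_⟩
    rw [mp_val, ← RingHom.map_det, hhdet, hcd, hdab]
    simp [mul_comm]

theorem conj_into [CharP F 3] (F₀ : Subfield F) (k : ℕ)
    (hc : Fintype.card F = Nat.card F₀ ^ k) (hn : 0 < n) (hk : Odd n ∨ Odd k)
    (x : Matrix.SpecialLinearGroup (Fin n) F) (z : F)
    (hx : ((x ^ 3 : Matrix.SpecialLinearGroup (Fin n) F) : Matrix (Fin n) (Fin n) F)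
      = z • (1 : Matrix (Fin n) (Fin n) F)) :
    ∃ P : Matrix.SpecialLinearGroup (Fin n) F,
      (Matrix.SpecialLinearGroup.toGL (P⁻¹ * x * P) : GL (Fin n) F) ∈
        Cfsg.Geo.subfieldSubgroup F₀ (1 : GL (Fin n) F) := by
  haveI : Nonempty (Fin n) := ⟨⟨0, hn⟩⟩
  obtain ⟨w, hw⟩ := exists_cube_root z
  set X : Matrix (Fin n) (Fin n) F := x.1 with hX
  have hX3 : X ^ 3 = z • (1 : Matrix (Fin n) (Fin n) F) := by
    rw [← hx]; simp [hX]
  have hz0 : z ≠ 0 := by
    rintro rfl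
    have h1 : (X ^ 3).det = 1 := by
      rw [Matrix.det_pow, hX, x.2, one_pow]
    rw [hX3, zero_smul, Matrix.det_zero] at h1
    exact zero_ne_one h1
  have hw0 : w ≠ 0 := by
    rintro rfl
    apply hz0
    rw [← hw]; simp
  set xG : GL (Fin n) F := Matrix.SpecialLinearGroup.toGL x with hxG
  -- the unipotent part
  have hUdet : (w⁻¹ • X).det ≠ 0 := by
    rw [Matrix.det_smul, hX, x.2, mul_one]
    exact pow_ne_zero _ (inv_ne_zero hw0)
  set u : GL (Fin n) F := Matrix.GeneralLinearGroup.mkOfDetNeZero (w⁻¹ • X) hUdet with hu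
  have huval : u.1 = w⁻¹ • X := rfl
  have hu3 : (u.1 - 1) ^ 3 = 0 := by
    apply sub_one_pow_three
    rw [huval, smul_pow, hX3, smul_smul, ← hw]
    rw [inv_pow, inv_mul_cancel₀ (pow_ne_zero _ hw0), one_smul]
  obtain ⟨y, hy⟩ := exists_rational F₀ u ⟨3, hu3⟩
  rw [isConj_iff] at hy
  obtain ⟨g, hg⟩ := hy
  have hgne : g.1.det ≠ 0 := by
    have : IsUnit g.1.det := (Matrix.isUnit_iff_isUnit_det _).1 g.isUnit
    exact this.ne_zero
  obtain ⟨c, h, hcu, hdet⟩ := exists_correction F₀ k hc hn hk u hu3 (g.1.det)⁻¹ (inv_ne_zero hgne)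
  set Q : GL (Fin n) F := mp F₀ h * g * c with hQ
  have hQdet : (Q⁻¹).1.det = 1 := by
    rw [val_det_inv, hQ, val_det_mul, val_det_mul]
    have : (mp F₀ h).1.det * g.1.det * c.1.det = ((mp F₀ h).1.det * c.1.det) * g.1.det := by ring
    rw [this, hdet, inv_mul_cancel₀ hgne, inv_one]
  obtain ⟨P, hP⟩ := exists_SL Q⁻¹ hQdet
  refine ⟨P, ?_⟩
  rw [map_mul, map_mul, map_inv, hP, inv_inv, mem_subfieldSubgroup_one_iff]
  refine ⟨w⁻¹, inv_ne_zero hw0, ?_⟩
  have hQu : Q * u * Q⁻¹ = mp F₀ (h * y * h⁻¹) := by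
    rw [map_mul, map_mul, map_inv, ← hg, hQ]
    have : c * u * c⁻¹ = u := by rw [hcu]; group
    calc mp F₀ h * g * c * u * (mp F₀ h * g * c)⁻¹
        = mp F₀ h * (g * (c * u * c⁻¹) * g⁻¹) * (mp F₀ h)⁻¹ := by group
      _ = _ := by rw [this]
  have hval : w⁻¹ • ((Q * xG * Q⁻¹ : GL (Fin n) F) : Matrix (Fin n) (Fin n) F)
      = (Q * u * Q⁻¹ : GL (Fin n) F).1 := by
    have e1 : (Q * xG * Q⁻¹ : GL (Fin n) F).1 = Q.1 * xG.1 * (Q⁻¹).1 := rfl
    have e2 : (Q * u * Q⁻¹ : GL (Fin n) F).1 = Q.1 * u.1 * (Q⁻¹).1 := rfl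
    have : xG.1 = X := rfl
    rw [e1, e2, huval, this, Matrix.mul_smul, Matrix.smul_mul]
  rw [hval, hQu]
  intro i j
  exact ((h * y * h⁻¹ : GL (Fin n) F₀).1 i j).2

end Cfsg.Agent.Lib.Helper21Elu66d
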