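import Mathlib

set_option autoImplicit false

/-! Four-subgroups of groups with a cyclic subgroup of index 2 (dihedral, quasi-dihedral) are self-centralizing. -/

namespace Cfsg.Agent.Lib.Helper21FourSC

open Subgroup

variable {Q : Type*} [Group Q] [Finite Q]

theorem card_le_two (C : Subgroup Q) (hC : IsCyclic C) (H : Subgroup Q)
    (h : ∀ x ∈ H, x ∈ C ∧ x ^ 2 = 1) : Nat.card H ≤ 2 := by
  classical
  have := Fintype.ofFinite C
  have h1 := IsCyclic.card_pow_eq_one_le (α := C) (n := 2) (by norm_num)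
  have h2 : Nat.card {a : C // a ^ 2 = 1} ≤ 2 := by
    rw [Nat.card_eq_fintype_card, Fintype.card_subtype]
    exact h1
  refine le_trans ?_ h2
  apply Nat.card_le_card_of_injective
    (fun x : H => (⟨⟨x.1, (h x.1 x.2).1⟩, Subtype.ext (h x.1 x.2).2⟩ : {a : C // a ^ 2 = 1}))
  intro a b hab
  apply Subtype.ext
  exact congrArg (fun z : {a : C // a ^ 2 = 1} => (z.1.1 : Q)) hab

theorem self_centralizing (C : Subgroup Q) (hC : IsCyclic C) (hidx : C.index = 2)
    (h3 : ∀ v : Q, v ∉ C → ∀ c ∈ C, v * c = c * v → c ^ 2 = 1)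
    (V : Subgroup Q) (hV4 : Nat.card V = 4) (hVc : IsMulCommutative V) (hV2 : ∀ v ∈ V, v ^ 2 = 1) :
    centralizer (V : Set Q) = V := by
  have hCn : C.Normal := normal_of_index_eq_two hidx
  obtain ⟨v, hvV, hvC⟩ : ∃ v ∈ V, v ∉ C := by
    by_contra hcon
    push Not at hcon
    have := card_le_two C hC V (fun x hx => ⟨hcon x hx, hV2 x hx⟩)
    omega
  set K := centralizer ({v} : Set Q) with hK
  have hKC : Nat.card (K ⊓ C : Subgroup Q) ≤ 2 := by
    apply card_le_two C hC
    intro c hc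
    refine ⟨hc.2, h3 v hvC c hc.2 ?_⟩
    exact (mem_centralizer_singleton_iff.mp hc.1).symm
  have hrel : (K ⊓ C).relIndex K ≤ 2 := by
    rw [inf_relIndex_left]
    have := relIndex_dvd_index_of_normal C K
    rw [hidx] at this
    exact Nat.le_of_dvd (by norm_num) this
  have hcardK : Nat.card K ≤ 4 := by
    have h1 : Nat.card (K ⊓ C : Subgroup Q) * (K ⊓ C).relIndex K = Nat.card K := by
      rw [← relIndex_bot_left, ← relIndex_bot_left]
      exact relIndex_mul_relIndex ⊥ (K ⊓ C) K bot_le inf_le_left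
    rw [← h1]
    calc Nat.card (K ⊓ C : Subgroup Q) * (K ⊓ C).relIndex K ≤ 2 * 2 := Nat.mul_le_mul hKC hrel
      _ = 4 := by norm_num
  have h1 : V ≤ centralizer (V : Set Q) := V.le_centralizer
  have h2 : centralizer (V : Set Q) ≤ K := centralizer_le (by simpa using hvV)
  have h4 : V = K := eq_of_le_of_card_ge (h1.trans h2) (by rw [hV4]; exact hcardK)
  apply le_antisymm
  · rw [h4] at h2 ⊢
    exact h2
  · exact h1

theorem of_pres (x y : Q) (k : ℕ) (hcard : Nat.card Q = 2 * orderOf x) (hy : y ∉ zpowers x)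
    (hyx : y * x * y⁻¹ = x ^ k) (hk : ∀ c ∈ zpowers x, c ^ k = c → c ^ 2 = 1)
    (V : Subgroup Q) (hV4 : Nat.card V = 4) (hVc : IsMulCommutative V) (hV2 : ∀ v ∈ V, v ^ 2 = 1) :
    centralizer (V : Set Q) = V := by
  have hidx : (zpowers x).index = 2 := by
    have h1 := (zpowers x).card_mul_index
    rw [Nat.card_zpowers, hcard] at h1
    have hpos : 0 < orderOf x := orderOf_pos x
    have h2 : orderOf x * (zpowers x).index = orderOf x * 2 := by rw [h1]; ring
    exact Nat.eq_of_mul_eq_mul_left hpos h2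
  apply self_centralizing (zpowers x) inferInstance hidx _ V hV4 hVc hV2
  intro v hv c hc hvc
  apply hk c hc
  have hc' : y⁻¹ * v ∈ zpowers x := by
    rw [mul_mem_iff_of_index_two hidx]
    constructor
    · intro h; exact absurd ((zpowers x).inv_mem_iff.mp h) hy
    · intro h; exact absurd h hv
  obtain ⟨j, rfl⟩ := hc
  obtain ⟨i, hi⟩ := hc'
  have hv' : v = y * x ^ i := by
    have : x ^ i = y⁻¹ * v := hi
    rw [this]; group
  have e1 : y * x ^ j * y⁻¹ = (x ^ j) ^ k := by
    have : y * x ^ j * y⁻¹ = (y * x * y⁻¹) ^ j := by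
      rw [conj_zpow]
    rw [this, hyx, ← zpow_natCast, ← zpow_natCast, ← zpow_mul, ← zpow_mul, mul_comm]
  rw [← e1]
  have e2 : x ^ i * x ^ j = x ^ j * x ^ i := by rw [← zpow_add, ← zpow_add, add_comm]
  have e3 : y * x ^ j = x ^ j * y := by
    have h5 : y * x ^ i * x ^ j = x ^ j * (y * x ^ i) := by rw [← hv']; exact hvc
    have h6 : y * x ^ j * x ^ i = x ^ j * y * x ^ i := by
      calc y * x ^ j * x ^ i = y * (x ^ i * x ^ j) := by rw [e2]; group
        _ = y * x ^ i * x ^ j := by group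
        _ = x ^ j * (y * x ^ i) := h5
        _ = x ^ j * y * x ^ i := by group
    exact mul_right_cancel h6
  rw [e3]; group

end Cfsg.Agent.Lib.Helper21FourSC
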