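import Mathlib
import Cfsg.Prelude.Def_Transfer
import Cfsg.Prelude.Def_PLocal
import Cfsg.Prelude.Def_CaseTheorems
import Cfsg.Agent.Lib.Helper3Class2
import Cfsg.Agent.Lib.Helper53Crit

/-!
Vocabulary of PROJECT 3762 (row S3762: P. Hall's theorem on p-groups of symplectic type).
Everything is written elementwise inside one ambient finite p-group `G`.
`Sy p C Z T`: `C` a critical subgroup, `Z = C_G(C) = Z(C)` cyclic, `T = Ω₁(Z)` of order `p`, central in `G`.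
`ESin p E T`: `T ≤ E`, `[E,E] ≤ T`, `E^p ≤ T`, `Z(E) ≤ T`  (so `E = T` or `E` is extraspecial with centre `T`).
`ex p = 4` if `p = 2`, `= p` otherwise (`Helper53Crit.ex`).
-/

set_option autoImplicit false
set_option linter.unusedSectionVars false

namespace Cfsg.Agent.Helper93SYDefs

open scoped commutatorElement
open Cfsg.Agent.Lib

variable {G : Type*} [Group G]

/-- `4` for `p = 2`, `p` otherwise. -/
abbrev ex (p : ℕ) : ℕ := Helper53Crit.ex p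

structure Sy (p : ℕ) (C Z T : Subgroup G) : Prop where
  Cchar : C.Characteristic
  Zchar : Z.Characteristic
  ZC : Z ≤ C
  Zcen : ∀ g : G, g ∈ Z ↔ ∀ x ∈ C, g * x = x * g
  Zcyc : IsCyclic Z
  pow : ∀ x ∈ C, x ^ p ∈ Z
  comm : ∀ x ∈ C, ∀ g : G, ⁅x, g⁆ ∈ Z
  T_iff : ∀ x : G, x ∈ T ↔ x ∈ Z ∧ x ^ p = 1
  Tcard : Nat.card T = p
  Tcen : ∀ t ∈ T, ∀ g : G, t * g = g * t

structure ESin (p : ℕ) (E T : Subgroup G) : Prop where
  le : T ≤ E
  comm : ∀ x ∈ E, ∀ y ∈ E, ⁅x, y⁆ ∈ T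
  pow : ∀ x ∈ E, x ^ p ∈ T
  cen : ∀ x ∈ E, (∀ y ∈ E, x * y = y * x) → x ∈ T

/-- the subgroup generated by the elements of `X` of order dividing `e`. -/
def powKer (X : Subgroup G) (e : ℕ) : Subgroup G := Subgroup.closure {x | x ∈ X ∧ x ^ e = 1}

/-- the family used to build `E`. -/
def InS (p : ℕ) (C Z T E : Subgroup G) : Prop :=
  T ≤ E ∧ (∀ a ∈ E, a ∈ C ∧ a ^ ex p = 1) ∧ ∀ a ∈ E, a ∈ Z → a ∈ T

/-! ### general commutator calculus (`⁅x, g⁆ = x * g * x⁻¹ * g⁻¹`) -/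

theorem comm_mul_left_of {x y g : G} (h1 : Commute x ⁅y, g⁆) (h2 : Commute ⁅x, g⁆ ⁅y, g⁆) :
    ⁅x * y, g⁆ = ⁅x, g⁆ * ⁅y, g⁆ := by
  have e1 : ⁅x * y, g⁆ = (x * ⁅y, g⁆) * x⁻¹ * ⁅x, g⁆ := by
    simp only [commutatorElement_def]; group
  rw [e1, h1.eq, h2.eq]; group

theorem comm_mul_right_of {x g k : G} (h1 : Commute g ⁅x, k⁆) :
    ⁅x, g * k⁆ = ⁅x, g⁆ * ⁅x, k⁆ := by
  have e1 : ⁅x, g * k⁆ = ⁅x, g⁆ * ((g * ⁅x, k⁆) * g⁻¹) := by
    simp only [commutatorElement_def]; group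
  rw [e1, h1.eq]; group

theorem ex_dvd_sq (p : ℕ) : ex p ∣ p ^ 2 := by
  unfold ex Helper53Crit.ex
  split_ifs with h
  · subst h; norm_num
  · exact Dvd.intro_left _ (by ring)

theorem p_dvd_ex (p : ℕ) : p ∣ ex p := by
  unfold ex Helper53Crit.ex
  split_ifs with h
  · subst h; norm_num
  · exact dvd_rfl

theorem ex_pos {p : ℕ} (hp : p.Prime) : 0 < ex p := by
  unfold ex Helper53Crit.ex
  split_ifs with h
  · norm_num
  · exact hp.pos

/-- the `ex p`-th power map is multiplicative on two elements whose commutator is central of order `p`. -/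
theorem mul_pow_ex_of {p : ℕ} [Fact p.Prime] {x y : G} (hx : Commute ⁅y, x⁆ x) (hy : Commute ⁅y, x⁆ y)
    (hc : ⁅y, x⁆ ^ p = 1) : (x * y) ^ ex p = x ^ ex p * y ^ ex p := by
  rw [Helper3Class2.mul_pow_class2 x y hx hy, Helper53Crit.pow_choose_ex hc, mul_one]

namespace Sy
variable {p : ℕ} [Fact p.Prime] {C Z T : Subgroup G} (h : Sy p C Z T)
include h

theorem TZ : T ≤ Z := fun x hx => ((h.T_iff x).mp hx).1

theorem T_pow {t : G} (ht : t ∈ T) : t ^ p = 1 := ((h.T_iff t).mp ht).2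

theorem Z_comm {z x : G} (hz : z ∈ Z) (hx : x ∈ C) : Commute z x := (h.Zcen z).mp hz x hx

theorem comm_pow {x : G} (hx : x ∈ C) (g : G) (m : ℕ) : ⁅x ^ m, g⁆ = ⁅x, g⁆ ^ m :=
  Helper3Class2.commutator_pow_left x g (h.Z_comm (h.comm x hx g) hx) m

theorem comm_T {x y : G} (hx : x ∈ C) (hy : y ∈ C) : ⁅x, y⁆ ∈ T := by
  rw [h.T_iff]
  refine ⟨h.comm x hx y, ?_⟩
  rw [← h.comm_pow hx, commutatorElement_eq_one_iff_commute]
  exact h.Z_comm (h.pow x hx) hy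

theorem comm_mul {x y : G} (hx : x ∈ C) (hy : y ∈ C) (g : G) : ⁅x * y, g⁆ = ⁅x, g⁆ * ⁅y, g⁆ :=
  comm_mul_left_of (h.Z_comm (h.comm y hy g) hx).symm (h.Z_comm (h.comm x hx g) (h.ZC (h.comm y hy g)))

theorem mul_pow_ex {x y : G} (hx : x ∈ C) (hy : y ∈ C) : (x * y) ^ ex p = x ^ ex p * y ^ ex p :=
  mul_pow_ex_of (h.Z_comm (h.comm y hy x) hx) (h.Z_comm (h.comm y hy x) hy) (h.T_pow (h.comm_T hy hx))

theorem pow_ex_mem {x : G} (hx : x ∈ C) : x ^ ex p ∈ Z := Helper53Crit.pow_ex_mem (h.pow x hx)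

end Sy

end Cfsg.Agent.Helper93SYDefs
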