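import Mathlib
import Cfsg.Agent.Lib.Helper93SYDefs
import Cfsg.Agent.Lib.Helper3PGroup

set_option autoImplicit false

/-! The Heisenberg group of degree `n` over a commutative ring and its natural representation of degree `n + 2`. -/

namespace Cfsg.Agent.Lib.Helper21Heis

open Cfsg Cfsg.Agent.Helper93SYDefs
open scoped commutatorElement

/-- recognition of extraspecial subgroups (ambient group arbitrary). -/
theorem isExtraspecial' {G : Type*} [Group G] {p : ℕ} [Fact p.Prime]
    (E T : Subgroup G) [Finite E] (hEp : IsPGroup p E) (hTc : Nat.card T = p)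
    (hTcen : ∀ t ∈ T, ∀ g ∈ E, t * g = g * t)
    (hE : ESin p E T) (hne : E ≠ T) : Cfsg.IsExtraspecial p ↥E := by
  have hp : p.Prime := Fact.out
  set T' : Subgroup E := T.subgroupOf E with hT'
  have hT'c : Nat.card T' = p := by
    rw [← hTc]; exact Nat.card_congr (Subgroup.subgroupOfEquivOfLe hE.le).toEquiv
  have hcen : Subgroup.center E = T' := by
    ext ⟨x, hx⟩
    rw [Subgroup.mem_center_iff, hT', Subgroup.mem_subgroupOf]
    constructor
    · intro h
      apply hE.cen x hx
      intro y hy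
      exact (congrArg Subtype.val (h ⟨y, hy⟩)).symm
    · intro h g
      exact Subtype.ext (hTcen x h g g.2).symm
  have hcomle : commutator E ≤ T' := by
    rw [commutator_def, Subgroup.commutator_le]
    rintro ⟨x, hx⟩ _ ⟨y, hy⟩ _
    rw [hT', Subgroup.mem_subgroupOf]
    exact hE.comm x hx y hy
  have hcomne : commutator E ≠ ⊥ := by
    intro hbot
    apply hne
    apply le_antisymm _ hE.le
    intro x hx
    apply hE.cen x hx
    intro y hy
    have h1 : ⁅(⟨x, hx⟩ : E), ⟨y, hy⟩⁆ ∈ commutator E :=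
      Subgroup.commutator_mem_commutator (Subgroup.mem_top _) (Subgroup.mem_top _)
    rw [hbot, Subgroup.mem_bot, commutatorElement_eq_one_iff_mul_comm] at h1
    exact congrArg Subtype.val h1
  have hcom : commutator E = T' := by
    have hd : Nat.card (commutator E) ∣ p := hT'c ▸ Subgroup.card_dvd_of_le hcomle
    rcases (Nat.dvd_prime hp).mp hd with h | h
    · exact absurd (Subgroup.card_eq_one.mp h) hcomne
    · exact Subgroup.eq_of_le_of_card_ge hcomle (by rw [h, hT'c])
  have hfr : frattini E = T' := by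
    apply le_antisymm
    · apply Cfsg.Agent.Lib.Helper3PGroup.frattini_le_of_elementary (p := p) T' hcomle
      rintro ⟨x, hx⟩
      rw [hT', Subgroup.mem_subgroupOf]
      exact hE.pow x hx
    · rw [← hcom]
      exact Cfsg.Agent.Lib.Helper3PGroup.commutator_le_frattini hEp
  refine ⟨⟨hEp, ?_, ?_⟩, ?_⟩
  · rw [hfr, hcen]
  · rw [hcom, hcen]
  · rw [hcen, hT'c]

/-- the Heisenberg group. -/
@[ext] structure Heis (n : ℕ) (F : Type*) where
  a : Fin n → F
  b : Fin n → F
  c : F

variable {n : ℕ} {F : Type*} [CommRing F]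

open Matrix in
instance : Mul (Heis n F) := ⟨fun h k => ⟨h.a + k.a, h.b + k.b, h.c + k.c + h.a ⬝ᵥ k.b⟩⟩
instance : One (Heis n F) := ⟨⟨0, 0, 0⟩⟩
open Matrix in
instance : Inv (Heis n F) := ⟨fun h => ⟨-h.a, -h.b, -h.c + h.a ⬝ᵥ h.b⟩⟩

@[simp] theorem mul_a (h k : Heis n F) : (h * k).a = h.a + k.a := rfl
@[simp] theorem mul_b (h k : Heis n F) : (h * k).b = h.b + k.b := rfl
open Matrix in
@[simp] theorem mul_c (h k : Heis n F) : (h * k).c = h.c + k.c + h.a ⬝ᵥ k.b := rfl
@[simp] theorem one_a : (1 : Heis n F).a = 0 := rfl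
@[simp] theorem one_b : (1 : Heis n F).b = 0 := rfl
@[simp] theorem one_c : (1 : Heis n F).c = 0 := rfl
@[simp] theorem inv_a (h : Heis n F) : (h⁻¹).a = -h.a := rfl
@[simp] theorem inv_b (h : Heis n F) : (h⁻¹).b = -h.b := rfl
open Matrix in
@[simp] theorem inv_c (h : Heis n F) : (h⁻¹).c = -h.c + h.a ⬝ᵥ h.b := rfl

instance : Group (Heis n F) :=
  Group.ofLeftAxioms
    (by
      intro x y z
      ext
      · simp [add_assoc]
      · simp [add_assoc]
      · simp only [mul_c, mul_a, mul_b, add_dotProduct, dotProduct_add]; ring)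
    (by
      intro x
      ext <;> simp)
    (by
      intro x
      ext <;> simp)

theorem pow_a (h : Heis n F) (k : ℕ) : (h ^ k).a = k • h.a := by
  induction k with
  | zero => simp
  | succ k ih => rw [pow_succ, mul_a, ih, succ_nsmul]

theorem pow_b (h : Heis n F) (k : ℕ) : (h ^ k).b = k • h.b := by
  induction k with
  | zero => simp
  | succ k ih => rw [pow_succ, mul_b, ih, succ_nsmul]

theorem pow_c (h : Heis n F) (k : ℕ) :
    (h ^ k).c = k * h.c + (k.choose 2 : F) * (h.a ⬝ᵥ h.b) := by
  induction k with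
  | zero => simp
  | succ k ih =>
    rw [pow_succ, mul_c, ih, pow_a, smul_dotProduct, nsmul_eq_mul]
    have h1 : (k + 1).choose 2 = k + k.choose 2 := by
      rw [Nat.choose_succ_succ' k 1, Nat.choose_one_right]
    rw [h1]
    push_cast
    ring

theorem pow_char (p : ℕ) [Fact p.Prime] [CharP F p] (hp2 : p ≠ 2) (h : Heis n F) : h ^ p = 1 := by
  have hp : p.Prime := Fact.out
  have h0 : (p : F) = 0 := CharP.cast_eq_zero F p
  have h1 : (p.choose 2 : F) = 0 := by
    rw [CharP.cast_eq_zero_iff F p]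
    exact hp.dvd_choose_self (by norm_num) (lt_of_le_of_ne hp.two_le (Ne.symm hp2))
  ext i
  · rw [pow_a]; simp
  · rw [pow_b]; simp
  · rw [pow_c, h0, h1]; simp

/-- the centre. -/
def Zc (n : ℕ) (F : Type*) [CommRing F] : Subgroup (Heis n F) where
  carrier := {h | h.a = 0 ∧ h.b = 0}
  one_mem' := ⟨rfl, rfl⟩
  mul_mem' := by
    rintro x y ⟨h1, h2⟩ ⟨h3, h4⟩
    exact ⟨by rw [mul_a, h1, h3, add_zero], by rw [mul_b, h2, h4, add_zero]⟩
  inv_mem' := by
    rintro x ⟨h1, h2⟩
    exact ⟨by rw [inv_a, h1, neg_zero], by rw [inv_b, h2, neg_zero]⟩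

theorem mem_Zc {h : Heis n F} : h ∈ Zc n F ↔ h.a = 0 ∧ h.b = 0 := Iff.rfl

theorem comm_mem (h k : Heis n F) : ⁅h, k⁆ ∈ Zc n F := by
  rw [commutatorElement_def, mem_Zc]
  constructor
  · simp
  · simp

theorem Zc_central (t : Heis n F) (ht : t ∈ Zc n F) (g : Heis n F) : t * g = g * t := by
  obtain ⟨h1, h2⟩ := ht
  ext i
  · simp [h1]
  · simp [h2]
  · simp [h1, h2]; ring

theorem mem_Zc_of_central (x : Heis n F) (hx : ∀ y : Heis n F, x * y = y * x) : x ∈ Zc n F := by
  classical
  constructor
  · funext i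
    have h1 := congrArg Heis.c (hx ⟨0, Pi.single i 1, 0⟩)
    simpa using h1
  · funext i
    have h1 := congrArg Heis.c (hx ⟨Pi.single i 1, 0, 0⟩)
    simpa using h1.symm

/-- coordinates. -/
def equivProd (n : ℕ) (F : Type*) : Heis n F ≃ (Fin n → F) × (Fin n → F) × F where
  toFun h := (h.a, h.b, h.c)
  invFun w := ⟨w.1, w.2.1, w.2.2⟩
  left_inv _ := rfl
  right_inv _ := rfl

theorem card_heis (p : ℕ) [Fact p.Prime] : Nat.card (Heis n (ZMod p)) = p ^ (1 + 2 * n) := by
  rw [Nat.card_congr (equivProd n (ZMod p)), Nat.card_prod, Nat.card_prod, Nat.card_fun,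
    Nat.card_zmod, Nat.card_fin]
  ring

theorem card_Zc (p : ℕ) [Fact p.Prime] : Nat.card (Zc n (ZMod p)) = p := by
  have e : Zc n (ZMod p) ≃ ZMod p :=
    { toFun := fun h => h.1.c
      invFun := fun c => ⟨⟨0, 0, c⟩, rfl, rfl⟩
      left_inv := by
        rintro ⟨h, h1, h2⟩
        apply Subtype.ext
        ext i
        · simp [h1]
        · simp [h2]
        · rfl
      right_inv := fun c => rfl }
  rw [Nat.card_congr e, Nat.card_zmod]

/-- the natural module. -/
abbrev W (n : ℕ) (F : Type*) := F × (Fin n → F) × F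

/-- the action of one element. -/
def act (h : Heis n F) : W n F →ₗ[F] W n F where
  toFun w := (w.1 + h.a ⬝ᵥ w.2.1 + h.c * w.2.2, w.2.1 + w.2.2 • h.b, w.2.2)
  map_add' := by
    intro u v
    refine Prod.ext ?_ (Prod.ext ?_ ?_)
    · simp only [Prod.fst_add, Prod.snd_add, dotProduct_add, mul_add]; ring
    · simp only [Prod.fst_add, Prod.snd_add, add_smul]; abel
    · rfl
  map_smul' := by
    intro r u
    refine Prod.ext ?_ (Prod.ext ?_ ?_)
    · simp only [Prod.smul_fst, Prod.smul_snd, dotProduct_smul, smul_eq_mul, RingHom.id_apply]; ring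
    · simp only [Prod.smul_fst, Prod.smul_snd, smul_eq_mul, RingHom.id_apply, smul_add, mul_smul]
    · rfl

theorem act_apply (h : Heis n F) (w : W n F) :
    act h w = (w.1 + h.a ⬝ᵥ w.2.1 + h.c * w.2.2, w.2.1 + w.2.2 • h.b, w.2.2) := rfl

/-- the natural representation. -/
def rho (n : ℕ) (F : Type*) [CommRing F] : Heis n F →* Module.End F (W n F) where
  toFun := act
  map_one' := by
    apply LinearMap.ext
    intro w
    rw [act_apply]
    simp
  map_mul' := by
    intro h k
    apply LinearMap.ext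
    intro w
    rw [Module.End.mul_apply, act_apply, act_apply, act_apply]
    refine Prod.ext ?_ (Prod.ext ?_ ?_)
    · simp only [mul_a, mul_c, add_dotProduct, dotProduct_add, dotProduct_smul, smul_eq_mul]; ring
    · simp only [mul_b, smul_add]; abel
    · rfl

theorem rho_injective : Function.Injective (rho n F) := by
  classical
  intro h k hhk
  have key : ∀ w, act h w = act k w := fun w => congrArg (fun f : Module.End F (W n F) => f w) hhk
  ext i
  · have := congrArg Prod.fst (key (0, Pi.single i 1, 0))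
    simpa [act_apply] using this
  · have := congrFun (congrArg (fun w : W n F => w.2.1) (key (0, 0, 1))) i
    simpa [act_apply] using this
  · have := congrArg Prod.fst (key (0, 0, 1))
    simpa [act_apply] using this

end Cfsg.Agent.Lib.Helper21Heis
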