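import Mathlib
import Cfsg.Prelude.Def_Blocks
import Cfsg.Agent.Lib.Helper21DC
import Cfsg.Agent.Lib.Helper20Brauer
import Cfsg.Agent.Lib.Helper20Height
import Cfsg.Agent.Lib.Helper4Char4

set_option autoImplicit false
set_option linter.unusedSectionVars false

/-! Blocks with a normal defect group. -/

namespace Cfsg.Agent.Lib.Helper21ND

open Cfsg
open Cfsg.Agent.Lib.Helper81Local Cfsg.Agent.Lib.Helper81Base Cfsg.Agent.Lib.Helper81BB
  Cfsg.Agent.Lib.Helper81Block Cfsg.Agent.Lib.Helper81Orth Cfsg.Agent.Lib.Helper5Clifford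
  Cfsg.Agent.Lib.Helper19Ind Cfsg.Agent.Lib.Helper32Ind Cfsg.Agent.Lib.Helper21Cover
  Cfsg.Agent.Lib.Helper21CoverQ Cfsg.Agent.Lib.Helper21Cover2 Cfsg.Agent.Lib.Helper82Quot
  Cfsg.Agent.Lib.Helper21Cover3 Cfsg.Agent.Lib.Helper21Cover4 Cfsg.Agent.Lib.Helper21DC
open scoped ComplexConjugate

section grp

variable {G : Type*} [Group G] (P : Subgroup G)

/-- `P C_G(P)` -/
abbrev PC : Subgroup G := P ⊔ Subgroup.centralizer (P : Set G)

theorem le_PC : P ≤ PC P := le_sup_left

theorem centralizer_le_PC : Subgroup.centralizer (P : Set G) ≤ PC P := le_sup_right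

instance PC_normal [P.Normal] : (PC P).Normal := inferInstance

theorem sup_subgroupOf [hn : P.Normal] :
    P.subgroupOf (PC P) ⊔ Subgroup.centralizer ((P.subgroupOf (PC P) : Subgroup (PC P)) : Set (PC P))
      = ⊤ := by
  rw [eq_top_iff]
  rintro ⟨h, hh⟩ _
  have hh' := hh
  rw [Subgroup.mem_sup_of_normal_left] at hh'
  obtain ⟨y, hy, c, hc, e⟩ := hh'
  have e' : (⟨h, hh⟩ : PC P) = ⟨y, le_PC P hy⟩ * ⟨c, centralizer_le_PC P hc⟩ := by
    apply Subtype.ext
    exact e.symm
  rw [e']
  apply Subgroup.mul_mem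
  · apply Subgroup.mem_sup_left
    exact Subgroup.mem_subgroupOf.2 hy
  · apply Subgroup.mem_sup_right
    rw [Subgroup.mem_centralizer_iff]
    rintro ⟨u, hu⟩ hu'
    have hu'' : u ∈ P := Subgroup.mem_subgroupOf.1 hu'
    apply Subtype.ext
    exact (Subgroup.mem_centralizer_iff.1 hc) u hu''

end grp

section blocks

variable {G : Type*} [Group G] [Fintype G] {P : Subgroup G} {M : Ideal AlgInt} {p : ℕ}
  {B : Set (IrrCharacter G)}

theorem isPGroup_of_defect [Fact p.Prime] (hM : IsPModular p M) (hB : IsPBlock M B)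
    (hP : IsDefectGroup p M B P) : IsPGroup p P :=
  IsPGroup.of_card (S0908.result p M hM B hB P hP)

/-- a block of `P C_G(P)` covered by a block with normal defect group `P` has defect group `P`. -/
theorem isDefectGroup_covered [Fact p.Prime] (hM : IsPModular p M) (hB : IsPBlock M B)
    [hn : P.Normal] (hP : IsDefectGroup p M B P) [Fintype (PC P)]
    {b : Set (IrrCharacter (PC P))} (hb : IsPBlock M b)
    (hcov : ∃ χ ∈ B, ∃ θ ∈ b, classInner (fun n : PC P => (χ : G → ℂ) n) (θ : PC P → ℂ) ≠ 0) :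
    IsDefectGroup p M b (P.subgroupOf (PC P)) := by
  have hPp := isPGroup_of_defect hM hB hP
  have hind := isInducedBlock_of_covers hM hPp (centralizer_le_PC P) hB hb hcov
  obtain ⟨D', hD'⟩ := Helper20Induced.exists_defectGroup hM hb
  have hDp : IsPGroup p (P.subgroupOf (PC P)) :=
    hPp.of_equiv (Subgroup.subgroupOfEquivOfLe (le_PC P)).symm
  have hDn : (P.subgroupOf (PC P)).Normal := inferInstance
  have h1 := Helper20Brauer.le_defectGroup_of_normal hM (P.subgroupOf (PC P)) hDp hb hD'
  obtain ⟨E, hE, hle⟩ := Helper20Induced.defectGroup_le_of_induced (PC P) hM hind hD'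
  have h2 : Nat.card D' ≤ Nat.card (P.subgroupOf (PC P)) := by
    rw [Nat.card_congr (Subgroup.subgroupOfEquivOfLe (le_PC P)).toEquiv,
      S0908.result p M hM B hB P hP, ← S0908.result p M hM B hB E hE]
    have := Subgroup.card_le_of_le hle
    rwa [Subgroup.card_map_of_injective (Subgroup.subtype_injective _)] at this
  rw [Subgroup.eq_of_le_of_card_ge h1 h2]
  exact hD'

/-- characters of `G` over `θ ∈ b` belong to `B`. -/
theorem mem_of_over [Fact p.Prime] (hM : IsPModular p M) (hB : IsPBlock M B)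
    [hn : P.Normal] (hP : IsDefectGroup p M B P) [Fintype (PC P)]
    {b : Set (IrrCharacter (PC P))} (hb : IsPBlock M b)
    (hcov : ∃ χ ∈ B, ∃ θ ∈ b, classInner (fun n : PC P => (χ : G → ℂ) n) (θ : PC P → ℂ) ≠ 0)
    {χ : IrrCharacter G} {θ : IrrCharacter (PC P)} (hθ : θ ∈ b) (ho : Over χ θ) : χ ∈ B := by
  have := IsPModular.isPrime hM
  have hPp := isPGroup_of_defect hM hB hP
  have h1 := unique_of_centralizer_le hM hPp (centralizer_le_PC P) hB
    (isPBlock_blockOf (M := M) χ) hb hcov ⟨χ, self_mem_blockOf χ, θ, hθ, ho⟩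
  rw [← h1]
  exact self_mem_blockOf χ

/-- the degree of a character of `B` over `ζ`. -/
theorem factorization_ge [Fact p.Prime] (hM : IsPModular p M) (hB : IsPBlock M B)
    [hn : P.Normal] (hP : IsDefectGroup p M B P) [Fintype (PC P)] [Fintype (P.subgroupOf (PC P))]
    {b : Set (IrrCharacter (PC P))} (hb : IsPBlock M b)
    (hcov : ∃ χ ∈ B, ∃ θ ∈ b, classInner (fun n : PC P => (χ : G → ℂ) n) (θ : PC P → ℂ) ≠ 0)
    {χ : IrrCharacter G} {θ : IrrCharacter (PC P)} (hθ : θ ∈ b) (ho : Over χ θ)
    {ζ : IrrCharacter (P.subgroupOf (PC P))} (hζ : Over θ ζ) :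
    P.index.factorization p + (charDegree (ζ : P.subgroupOf (PC P) → ℂ)).factorization p
      ≤ (charDegree (χ : G → ℂ)).factorization p := by
  classical
  have := IsPModular.isPrime hM
  have hp : p.Prime := hM.1
  have hPp := isPGroup_of_defect hM hB hP
  have hχ := mem_of_over hM hB hP hb hcov hθ ho
  have hbD := isDefectGroup_covered hM hB hP hb hcov
  have hDp : IsPGroup p (P.subgroupOf (PC P)) :=
    hPp.of_equiv (Subgroup.subgroupOfEquivOfLe (le_PC P)).symm
  have hDn : (P.subgroupOf (PC P)).Normal := inferInstance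
  have hsup := sup_subgroupOf P
  have hHn : (PC P).Normal := inferInstance
  obtain ⟨χ₀, hχ₀, hχ₀D⟩ := exists_mem_ker hM hb hDp
  obtain ⟨g₀, hg₀, hS⟩ := Helper20Defect.isDefectGroup_iff.mp hP
  have hg₀C : g₀ ∈ Subgroup.centralizer (P : Set G) :=
    Helper20Defect.le_centralizer_singleton_iff.mp hS.1
  have hg₀H : g₀ ∈ PC P := centralizer_le_PC P hg₀C
  have hg₀r : ¬ p ∣ orderOf g₀ := by
    apply Helper20DefCard.not_dvd_orderOf_of_blockCoeff hM hB
    intro h0
    apply hg₀.2.1
    rw [h0]
    exact memLocalIdeal_zero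
  have hζ1 := irr_one_ne_zero ζ
  -- values of the conjugates of `θ`
  have hval : ∀ x : G, (cjI hHn θ x : PC P → ℂ) ⟨g₀, hg₀H⟩
      = (ζ : P.subgroupOf (PC P) → ℂ) 1 * (χ₀ : PC P → ℂ) ⟨x * g₀ * x⁻¹, hHn.conj_mem _ hg₀H x⟩ := by
    intro x
    rw [cjI_apply]
    have hr : ¬ p ∣ orderOf (⟨x * g₀ * x⁻¹, hHn.conj_mem _ hg₀H x⟩ : PC P) := by
      rw [Subgroup.orderOf_mk]
      have := (MulAut.conj x).orderOf_eq g₀
      simp only [MulAut.conj_apply] at this
      rwa [this]
    have := formula hM hb hDp hsup hbD hχ₀ hχ₀D hθ hζ 1 hr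
    simpa using this
  have hcf : IsClassFunction (PC P) (fun n : PC P => (χ : G → ℂ) n) := by
    intro n m
    have := irr_conj χ (n : G) (m : G)
    simpa using this
  have hchar : IsCharacter (PC P) (fun n : PC P => (χ : G → ℂ) n) :=
    isCharacter_comp (Helper4Char.IsIrrCharacter.isCharacter χ.2) (PC P).subtype
  have h1 := congrFun (Helper4Char.classFunction_eq_sum _ hcf) ⟨g₀, hg₀H⟩
  rw [Finset.sum_apply] at h1
  have h2 : ∃ A : ℂ, MemLocalRing M A ∧
      (χ : G → ℂ) g₀ = (ζ : P.subgroupOf (PC P) → ℂ) 1 * A := by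
    refine ⟨∑ ψ : IrrCharacter (PC P), classInner (fun n : PC P => (χ : G → ℂ) n) (ψ : PC P → ℂ)
      * ((ψ : PC P → ℂ) ⟨g₀, hg₀H⟩ / (ζ : P.subgroupOf (PC P) → ℂ) 1), ?_, ?_⟩
    · apply memLocalRing_sum
      intro ψ _
      by_cases h0 : classInner (fun n : PC P => (χ : G → ℂ) n) (ψ : PC P → ℂ) = 0
      · rw [h0, zero_mul]
        simpa using memLocalRing_natCast (M := M) 0
      · obtain ⟨x, rfl⟩ := over_conj hHn ho (show Over χ ψ from h0)
        obtain ⟨m, hm⟩ := Helper4Char4.IsCharacter.classInner_nat hchar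
          (Helper4Char.IsIrrCharacter.isCharacter (cjI hHn θ x).2)
        rw [hm, hval x, mul_div_cancel_left₀ _ hζ1]
        exact memLocalRing_mul (memLocalRing_natCast m)
          (memLocalRing_of_isIntegral (irr_integral χ₀ _))
    · rw [Finset.mul_sum]
      refine h1.trans ?_
      apply Finset.sum_congr rfl
      intro ψ _
      rw [Pi.smul_apply, smul_eq_mul]
      field_simp
  obtain ⟨A, hA, hAe⟩ := h2
  -- the central character
  have hω := hg₀.2.2 χ hχ
  have hωR : MemLocalRing M (centralChar (χ : G → ℂ) g₀) :=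
    memLocalRing_of_isIntegral (irr_omega_integral χ g₀)
  have hωi := memLocalRing_inv hωR hω
  have hω0 : centralChar (χ : G → ℂ) g₀ ≠ 0 := by
    intro h0
    apply hω
    rw [h0]
    exact memLocalIdeal_zero
  have hχ1 := irr_one_ne_zero χ
  have h3 : ((charDegree (χ : G → ℂ) : ℕ) : ℂ)
      = (((Subgroup.centralizer ({g₀} : Set G)).index
          * charDegree (ζ : P.subgroupOf (PC P) → ℂ) : ℕ) : ℂ)
        * (A * (centralChar (χ : G → ℂ) g₀)⁻¹) := by
    rw [Nat.cast_mul, charDegree_eq, charDegree_eq]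
    have e : centralChar (χ : G → ℂ) g₀
        = ((Subgroup.centralizer ({g₀} : Set G)).index : ℂ)
          * ((ζ : P.subgroupOf (PC P) → ℂ) 1 * A) / (χ : G → ℂ) 1 := by
      rw [← hAe]
      rfl
    have e2 : centralChar (χ : G → ℂ) g₀ * (χ : G → ℂ) 1
        = ((Subgroup.centralizer ({g₀} : Set G)).index : ℂ)
          * ((ζ : P.subgroupOf (PC P) → ℂ) 1 * A) := by
      rw [e]; field_simp
    field_simp
    rw [mul_comm, e2]
    ring
  have h4 := factorization_le_of_eq_mul hM (charDegree_pos χ).ne' (memLocalRing_mul hA hωi) h3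
  rw [Nat.factorization_mul (Helper20Height.index_ne_zero g₀) (charDegree_pos ζ).ne'] at h4
  have h5 := Helper20Height.index_factorization (p := p) g₀
  have h6 : (Nat.card P).factorization p
      = (Nat.card (Subgroup.centralizer ({g₀} : Set G))).factorization p := by
    rw [hS.2, hp.factorization_pow]
    simp
  have h7 : (Nat.card G).factorization p
      = (Nat.card P).factorization p + P.index.factorization p := by
    rw [← P.card_mul_index, Nat.factorization_mul Nat.card_pos.ne' P.index_ne_zero_of_finite]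
    rfl
  have h8 : (((Subgroup.centralizer ({g₀} : Set G)).index).factorization
      + (charDegree (ζ : P.subgroupOf (PC P) → ℂ)).factorization) p
      = ((Subgroup.centralizer ({g₀} : Set G)).index).factorization p
        + (charDegree (ζ : P.subgroupOf (PC P) → ℂ)).factorization p := rfl
  rw [h8] at h4
  omega

theorem minVal_eq_index [Fact p.Prime] (hM : IsPModular p M) (hB : IsPBlock M B)
    (hP : IsDefectGroup p M B P) : Helper81Defect.minVal p B = P.index.factorization p := by
  have := IsPModular.isPrime hM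
  have hp : p.Prime := hM.1
  have h1 := S0908.result p M hM B hB P hP
  have h2 := Helper81Defect.blockDefect_def (p := p) B
  have h4 := Helper81Defect.minVal_le_card (p := p) (B := B) (isPBlock_nonempty hB)
  have h5 : (Nat.card G).factorization p
      = (Nat.card P).factorization p + P.index.factorization p := by
    rw [← P.card_mul_index, Nat.factorization_mul Nat.card_pos.ne' P.index_ne_zero_of_finite]
    rfl
  have h6 : (Nat.card P).factorization p = blockDefect p B := by
    rw [h1, hp.factorization_pow]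
    simp
  omega

/-- lower bound for heights in a block with normal defect group -/
theorem exists_height_ge [Fact p.Prime] (hM : IsPModular p M) (hB : IsPBlock M B)
    [hn : P.Normal] (hP : IsDefectGroup p M B P) [Fintype (PC P)] [Fintype (P.subgroupOf (PC P))]
    (ζ : IrrCharacter (P.subgroupOf (PC P))) :
    ∃ χ ∈ B, (charDegree (ζ : P.subgroupOf (PC P) → ℂ)).factorization p
      ≤ blockHeight p B (χ : G → ℂ) := by
  have := IsPModular.isPrime hM
  have hPp := isPGroup_of_defect hM hB hP
  have hDp : IsPGroup p (P.subgroupOf (PC P)) :=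
    hPp.of_equiv (Subgroup.subgroupOfEquivOfLe (le_PC P)).symm
  obtain ⟨b, hb, hcov⟩ := exists_covered (N := PC P) hB
  obtain ⟨θ, hθ, hζ⟩ := exists_over_of_pgroup hM hb hDp ζ
  obtain ⟨χ, ho⟩ := exists_over (G := G) θ
  refine ⟨χ, mem_of_over hM hB hP hb hcov hθ ho, ?_⟩
  have h1 := factorization_ge hM hB hP hb hcov hθ ho hζ
  rw [Helper81Defect.blockHeight_def, minVal_eq_index hM hB hP]
  omega

end blocks

end Cfsg.Agent.Lib.Helper21ND
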