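import Mathlib
import Cfsg.Prelude.Def_BrauerPairs
import Cfsg.Agent.Lib.Helper80Corr
import Cfsg.Agent.Lib.Helper80BFus
import Cfsg.Agent.Lib.Helper20Major

/-!
# Induction of a block `b` of `H` whose defect group `D₀` satisfies `C_G(D₀) ≤ H`.
-/

set_option autoImplicit false
set_option linter.unusedSectionVars false
set_option linter.unusedVariables false
set_option linter.unusedSimpArgs false

namespace Cfsg.Agent.Lib.Helper21Nest

open Cfsg Module Representation
open Cfsg.Agent.Lib.Helper4Char Cfsg.Agent.Lib.Helper4Char2 Cfsg.Agent.Lib.Helper20Local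
open Cfsg.Agent.Lib.Helper20Center Cfsg.Agent.Lib.Helper20Block Cfsg.Agent.Lib.Helper20Orbit
open Cfsg.Agent.Lib.Helper20Ideal Cfsg.Agent.Lib.Helper20Defect Cfsg.Agent.Lib.Helper20Brauer
open Cfsg.Agent.Lib.Helper20Induced Cfsg.Agent.Lib.Helper20ModHom Cfsg.Agent.Lib.Helper20BrMap
open Cfsg.Agent.Lib.Helper80Brauer Cfsg.Agent.Lib.Helper82Quot Cfsg.Agent.Lib.Helper80Transport
open Cfsg.Agent.Lib.Helper80Pairs Cfsg.Agent.Lib.Helper80Supp Cfsg.Agent.Lib.Helper87Sylow
open Cfsg.Agent.Lib.Helper80Stab Cfsg.Agent.Lib.Helper80Trace Cfsg.Agent.Lib.Helper80Incl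
open Cfsg.Agent.Lib.Helper80Conj Cfsg.Agent.Lib.Helper80Full Cfsg.Agent.Lib.Helper80Full2
open Cfsg.Agent.Lib.Helper80Up Cfsg.Agent.Lib.Helper80Abel Cfsg.Agent.Lib.Helper80Corr
open Cfsg.Agent.Lib.Helper80BFus
open scoped ComplexConjugate

variable {M : Ideal Cfsg.AlgInt} {p : ℕ} [Fact p.Prime]

section One

variable {G : Type*} [Group G] [Fintype G]

/-- for a maximal pair `(P, e)`, the defect groups of `e` have the order of `Z(P)`. -/
theorem card_defect_of_maximal (hM : IsPModular p M) {B : Set (IrrCharacter G)} {P : Subgroup G}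
    {e : Set (IrrCharacter (Subgroup.centralizer (P : Set G)))}
    (hmax : IsMaximalBrauerPair p M B P e) {D : Subgroup (Subgroup.centralizer (P : Set G))}
    (hD : IsDefectGroup p M e D) :
    Nat.card D = Nat.card (P ⊓ Subgroup.centralizer (P : Set G) : Subgroup G) := by
  classical
  obtain ⟨x, hx, hDx⟩ := exists_conj_centralizer_defectGroup hM hmax
    (Relation.ReflTransGen.refl : PLE p M ⟨P, e⟩ ⟨P, e⟩)
  have hle : cj x P ≤ P := hx.le
  have hxP : cj x P = P := Subgroup.eq_of_le_of_card_ge hle (by rw [card_cj])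
  have h2 := card_defectGroup_conjBlock hM hmax.1.1.2 x hD hDx
  rw [Helper80BFus.card_subgroupOf_of_le inf_le_right] at h2
  rw [hxP] at h2
  exact h2.symm

end One

variable {G : Type*} [Group G] [Fintype G] {H : Subgroup G} [Fintype H]

/-- a pair of `c` in `H` whose image is a pair of `B`: then `c` induces `B`. -/
theorem induced_up (hM : IsPModular p M) {Z : Subgroup H}
    (hC : Subgroup.centralizer ((upS Z : Subgroup G) : Set G) ≤ H)
    {e₀ : Set (IrrCharacter (Subgroup.centralizer (Z : Set H)))}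
    {c : Set (IrrCharacter H)} (hc : IsBrauerPairOf p M c Z e₀) {B : Set (IrrCharacter G)}
    (hB : IsBrauerPairOf p M B (upS Z) (upBlk Z e₀)) : IsInducedBlock M H c B := by
  classical
  have hPr := IsPModular.isPrime hM
  refine ⟨hc.2.1, hB.2.1, fun θ hθ χ hχ g => ?_⟩
  obtain ⟨ξ, hξ⟩ := IsPBlock.nonempty hPr hc.1.2
  have hmem : irrCongr (cenUp Z hC) ξ ∈ upBlk Z e₀ := by
    rw [upBlk_eq _ _ hC]
    exact (mem_mapBlk _).2 hξ
  have h1 := lam_congr_of_pairOf hM hc hξ hθ (res_isSC H (isSC_classInd hPr g))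
  have h2 := lam_congr_of_pairOf hM hB hmem hχ (isSC_classInd hPr g)
  have h3 : lam (Subgroup.centralizer ((upS Z : Subgroup G) : Set G))
      ((irrCongr (cenUp Z hC) ξ : IrrCharacter _) : _ → ℂ) (classInd g)
      = lam (Subgroup.centralizer ((upS Z : Subgroup G) : Set G))
      ((irrCongr (cenUp Z hC) ξ : IrrCharacter _) : _ → ℂ) (ext H (res H (classInd g))) := by
    apply lam_congr_on
    intro x hx
    rw [ext_mem _ (hC hx)]
    rfl
  rw [h3, lam_up] at h2
  rw [inducedCentralChar_eq, ← om_classInd (IsIrrCharacter.isClassFunction χ.2)]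
  have := liSub hPr h2 h1
  rwa [sub_sub_sub_cancel_left] at this

theorem upS_center (Z : Subgroup H) :
    upS (Z ⊓ Subgroup.centralizer (Z : Set H)) =
      upS Z ⊓ Subgroup.centralizer ((upS Z : Subgroup G) : Set G) := by
  ext g
  constructor
  · rintro ⟨z, hz, rfl⟩
    exact ⟨coe_mem_upS.2 hz.1, coe_mem_centralizer_upS.2 hz.2⟩
  · rintro ⟨⟨z, hz, rfl⟩, h2⟩
    exact ⟨z, ⟨hz, coe_mem_centralizer_upS.1 h2⟩, rfl⟩

/-- **the nested defect groups.** -/
theorem nested (hM : IsPModular p M) {b : Set (IrrCharacter H)} (hb : IsPBlock M b)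
    {D₀ : Subgroup H} (hD₀ : IsDefectGroup p M b D₀)
    (hC : Subgroup.centralizer ((upS D₀ : Subgroup G) : Set G) ≤ H) :
    ∃ B : Set (IrrCharacter G), IsInducedBlock M H b B ∧ ∃ D : Subgroup G,
      IsDefectGroup p M B D ∧ upS D₀ ≤ D ∧
        D ⊓ Subgroup.centralizer ((upS D₀ : Subgroup G) : Set G) ≤ upS D₀ := by
  classical
  have hPr := IsPModular.isPrime hM
  obtain ⟨e₀, hmax₀⟩ := exists_maximal_of_defectGroup hM hb hD₀
  obtain ⟨B, hB, -⟩ := existsUnique_block hM ((isBrauerPair_up hC).2 hmax₀.1.1)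
  refine ⟨B, induced_up hM hC hmax₀.1 hB, ?_⟩
  obtain ⟨a, ha1, ha2⟩ := exists_maximal_above (p := p) (M := M) _
    (⟨upS D₀, upBlk D₀ e₀⟩ : BrauerPairIdx G) rfl hB
  obtain ⟨D, e⟩ := a
  have hle : upS D₀ ≤ D := ha1.le
  refine ⟨D, isDefectGroup_of_maximal hM ha2, hle, ?_⟩
  obtain ⟨D', hD', hle'⟩ := centralizer_le_defectGroup hM ha2.1.1 ha1
  obtain ⟨E, hE⟩ := exists_defectGroup hM hmax₀.1.1.2
  have hE' := isDefectGroup_mapBlk (cenUp D₀ hC) hE
  rw [← upBlk_eq D₀ e₀ hC] at hE'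
  have hc1 := card_defectGroup_eq hM hB.1.2 hD' hE'
  rw [Subgroup.card_map_of_injective (cenUp D₀ hC).injective, card_defect_of_maximal hM hmax₀ hE]
    at hc1
  have hc2 : Nat.card (upS (D₀ ⊓ Subgroup.centralizer (D₀ : Set H)) : Subgroup G)
      = Nat.card (D₀ ⊓ Subgroup.centralizer (D₀ : Set H) : Subgroup H) :=
    Subgroup.card_map_of_injective H.subtype_injective
  rw [upS_center] at hc2
  have hc3 := Subgroup.card_le_of_le hle'
  rw [Helper80BFus.card_subgroupOf_of_le inf_le_right, hc1, ← hc2] at hc3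
  have heq : upS D₀ ⊓ Subgroup.centralizer ((upS D₀ : Subgroup G) : Set G)
      = D ⊓ Subgroup.centralizer ((upS D₀ : Subgroup G) : Set G) :=
    Subgroup.eq_of_le_of_card_ge (inf_le_inf_right _ hle) hc3
  rw [← heq]
  exact inf_le_left

end Cfsg.Agent.Lib.Helper21Nest
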