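import Mathlib
import Cfsg.Agent.Lib.Helper44ODefs
import Cfsg.Agent.Lib.Helper44SLMain
import Cfsg.Agent.Lib.Helper6SL
import Cfsg.Agent.Lib.Helper82Linear

set_option autoImplicit false
set_option linter.unusedSectionVars false

namespace Cfsg.Agent.Lib.Helper21Oslchar

open Matrix Cfsg Cfsg.Agent.Lib.Helper4Char Cfsg.Agent.Lib.Helper4Char4

variable {F : Type*} [Field F] [Fintype F] [DecidableEq F]

theorem sl_char_bound (n : ℕ) (hn : 4 ≤ n) (hq : 3 < Fintype.card F)
    (θ : Matrix.SpecialLinearGroup (Fin n) F → ℂ)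
    (hθ : IsCharacter (Matrix.SpecialLinearGroup (Fin n) F) θ)
    (x : Matrix.SpecialLinearGroup (Fin n) F) (hx : θ x ≠ θ 1) (d : ℕ) (hd : θ 1 = d) :
    (Fintype.card F ^ n - Fintype.card F) / (Fintype.card F - 1) ≤ d := by
  classical
  obtain ⟨m, hm, -⟩ := IsCharacter.eq_sum_nat hθ
  have hperf : commutator (Matrix.SpecialLinearGroup (Fin n) F) = ⊤ :=
    Cfsg.Agent.Lib.Helper6SL.commutator_SL_eq_top (by rw [Fintype.card_fin]; omega)
  have hdeg : ∀ χ : IrrCharacter (Matrix.SpecialLinearGroup (Fin n) F),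
      ∃ e : ℕ, (χ : Matrix.SpecialLinearGroup (Fin n) F → ℂ) 1 = e := fun χ =>
    Cfsg.Agent.Lib.Helper4Char2.IsCharacter.exists_degree (IsIrrCharacter.isCharacter χ.2)
  choose e he using hdeg
  -- some constituent is not linear
  have hex : ∃ χ : IrrCharacter (Matrix.SpecialLinearGroup (Fin n) F),
      m χ ≠ 0 ∧ (χ : Matrix.SpecialLinearGroup (Fin n) F → ℂ) 1 ≠ 1 := by
    by_contra hcon
    push Not at hcon
    apply hx
    rw [hm]
    simp only [Finset.sum_apply, Pi.smul_apply, smul_eq_mul]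
    apply Finset.sum_congr rfl
    intro χ _
    by_cases hχ : m χ = 0
    · rw [hχ]; simp
    · have h1 := hcon χ hχ
      rw [h1, Cfsg.Agent.Lib.Helper82Linear.irr_linear_eq_one_of_mem_commutator χ h1
        (g := x) (by rw [hperf]; trivial)]
  obtain ⟨χ, hmχ, hχ1⟩ := hex
  have hb := Cfsg.Agent.Lib.Helper44SLMain.sl_bound (F := F) n (by omega)
    ⟨by intro h; have h' := Prod.mk.inj h; omega,
     by intro h; have h' := Prod.mk.inj h; omega,
     by intro h; have h' := Prod.mk.inj h; omega,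
     by intro h; have h' := Prod.mk.inj h; omega⟩ χ χ.2 hχ1 (e χ) (he χ)
  refine hb.trans ?_
  have hsum : (d : ℂ) = ((∑ ψ, m ψ * e ψ : ℕ) : ℂ) := by
    rw [← hd, hm]
    simp only [Finset.sum_apply, Pi.smul_apply, smul_eq_mul]
    push_cast
    exact Finset.sum_congr rfl (fun ψ _ => by rw [he])
  have hsum' : d = ∑ ψ, m ψ * e ψ := by exact_mod_cast hsum
  rw [hsum']
  calc e χ ≤ m χ * e χ := Nat.le_mul_of_pos_left _ (Nat.pos_of_ne_zero hmχ)
    _ ≤ ∑ ψ, m ψ * e ψ :=
      Finset.single_le_sum (f := fun ψ => m ψ * e ψ) (fun _ _ => Nat.zero_le _) (Finset.mem_univ χ)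

end Cfsg.Agent.Lib.Helper21Oslchar
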