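import Mathlib
import Cfsg.Prelude.Def_Blocks
import Cfsg.Agent.Lib.Helper21Cover3
import Cfsg.Agent.Lib.Helper21Cover4
import Cfsg.Agent.Lib.Helper3PGroup
import Cfsg.Agent.S0029

set_option autoImplicit false
set_option linter.unusedSectionVars false
set_option linter.unusedVariables false

/-! Blocks of `G / D'` for a normal `p`-subgroup `D`. -/

namespace Cfsg.Agent.Lib.Helper21Quot3

open Cfsg
open Cfsg.Agent.Lib.Helper81Local Cfsg.Agent.Lib.Helper81Base Cfsg.Agent.Lib.Helper81BB
  Cfsg.Agent.Lib.Helper81Block Cfsg.Agent.Lib.Helper81Orth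
  Cfsg.Agent.Lib.Helper21Cover Cfsg.Agent.Lib.Helper21Cover2 Cfsg.Agent.Lib.Helper82Quot
  Cfsg.Agent.Lib.Helper21Cover3 Cfsg.Agent.Lib.Helper21Cover4

section grp

variable {G : Type*} [Group G] [Finite G] {p : ℕ} [Fact p.Prime]

/-- a `p`-regular element acting trivially on `D / D'` centralizes the `p`-group `D`. -/
theorem mem_centralizer_of_commutator (D : Subgroup G) [hDn : D.Normal] (hD : IsPGroup p D) {x : G}
    (hx : ¬ p ∣ orderOf x)
    (h : (x : G ⧸ ⁅D, D⁆) ∈ Subgroup.centralizer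
      ((D.map (QuotientGroup.mk' ⁅D, D⁆) : Subgroup (G ⧸ ⁅D, D⁆)) : Set (G ⧸ ⁅D, D⁆))) :
    x ∈ Subgroup.centralizer (D : Set G) := by
  have hp : p.Prime := Fact.out
  have hle : ⁅D, D⁆ ≤ (frattini D).map D.subtype := by
    rw [← Subgroup.map_subtype_commutator]
    exact Subgroup.map_mono (Helper3PGroup.commutator_le_frattini hD)
  have key := S0029.result (Subgroup.zpowers x) D
    (by
      rw [Subgroup.zpowers_le]
      exact (Subgroup.normalizer_eq_top_iff.2 hDn) ▸ Subgroup.mem_top x)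
    (by
      rw [Nat.card_zpowers]
      obtain ⟨k, hk⟩ := IsPGroup.iff_card.1 (hD.to_subgroup (frattini D))
      rw [hk]
      exact Nat.Coprime.pow_right k ((Nat.coprime_comm.1 ((Nat.Prime.coprime_iff_not_dvd hp).2 hx))))
    (by
      intro a ha k hk
      apply hle
      have ha' : (a : G ⧸ ⁅D, D⁆) ∈ Subgroup.centralizer
          ((D.map (QuotientGroup.mk' ⁅D, D⁆) : Subgroup (G ⧸ ⁅D, D⁆)) : Set (G ⧸ ⁅D, D⁆)) := by
        obtain ⟨i, rfl⟩ := Subgroup.mem_zpowers_iff.1 ha
        rw [QuotientGroup.mk_zpow]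
        exact Subgroup.zpow_mem _ h i
      have h1 := Subgroup.mem_centralizer_iff.1 ha' (k : G ⧸ ⁅D, D⁆) ⟨k, hk, rfl⟩
      rw [← QuotientGroup.eq_one_iff]
      rw [QuotientGroup.mk_mul, QuotientGroup.mk_mul, QuotientGroup.mk_mul, QuotientGroup.mk_inv,
        QuotientGroup.mk_inv, ← h1]
      group)
  exact key (Subgroup.mem_zpowers x)

end grp

variable {G : Type*} [Group G] [Fintype G] {M : Ideal Cfsg.AlgInt} {p : ℕ} [Fact p.Prime]

theorem sameBlock_of_inflate_commutator (hM : IsPModular p M) (D : Subgroup G) [hDn : D.Normal]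
    [Fintype (G ⧸ ⁅D, D⁆)]
    (hD : IsPGroup p D) {χ ψ : IrrCharacter (G ⧸ ⁅D, D⁆)}
    (h : SameBlock M (inflate ⁅D, D⁆ χ : G → ℂ) (inflate ⁅D, D⁆ ψ : G → ℂ)) :
    SameBlock M (χ : G ⧸ ⁅D, D⁆ → ℂ) (ψ : G ⧸ ⁅D, D⁆ → ℂ) := by
  classical
  have := IsPModular.isPrime hM
  have hND : ⁅D, D⁆ ≤ D := Subgroup.commutator_le_right D D
  have hP : IsPGroup p (⁅D, D⁆ : Subgroup G) := hD.to_le hND
  set e := blockCoeff (blockOf M (χ : G ⧸ ⁅D, D⁆ → ℂ)) with he
  have hecf : IsClassFunction (G ⧸ ⁅D, D⁆) e := blockCoeff_classfn _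
  have ord_conj : ∀ g k : G, orderOf (k * g * k⁻¹) = orderOf g := by
    intro g k
    have := (MulAut.conj k).orderOf_eq g
    simpa using this
  have hDbar : (D.map (QuotientGroup.mk' ⁅D, D⁆)).Normal :=
    hDn.map _ (QuotientGroup.mk'_surjective _)
  apply sameBlock_of_inflate_of_lift h
    (α := fun g => if p ∣ orderOf g then 0 else e (g : G ⧸ ⁅D, D⁆))
  · intro g k
    dsimp only
    rw [ord_conj]
    have := hecf (g : G ⧸ ⁅D, D⁆) (k : G ⧸ ⁅D, D⁆)
    rw [QuotientGroup.mk_mul, QuotientGroup.mk_mul, QuotientGroup.mk_inv, this]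
  · intro g
    split_ifs
    · simpa using memLocalRing_natCast (M := M) 0
    · exact osima (isPBlock_blockOf χ) _
  · funext y
    unfold push
    beta_reduce
    by_cases hy0 : e y = 0
    · rw [← he, hy0]
      apply Finset.sum_eq_zero
      intro g _
      split_ifs with h1 h2
      · rfl
      · rw [h1, hy0]
      · rfl
    · have hy : ¬ p ∣ orderOf y := fun hy =>
        hy0 (blockCoeff_eq_zero_of_singular hM (isPBlock_blockOf χ) hy)
      have hyC : y ∈ Subgroup.centralizer
          ((D.map (QuotientGroup.mk' ⁅D, D⁆) : Subgroup (G ⧸ ⁅D, D⁆)) : Set (G ⧸ ⁅D, D⁆)) := by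
        by_contra hne
        exact hy0 (blockCoeff_eq_zero_of_not_mem_centralizer hM (hD.map _) (isPBlock_blockOf χ) hne)
      obtain ⟨x, hx, hxr⟩ := exists_regular_lift hM.1 ⁅D, D⁆ hy
      rw [Finset.sum_eq_single x]
      · rw [if_pos hx, if_neg hxr, hx]
      · intro g _ hgx
        split_ifs with h1 h2
        · rfl
        · exfalso
          apply hgx
          have hxC : x ∈ Subgroup.centralizer (D : Set G) :=
            mem_centralizer_of_commutator D hD hxr (by rw [hx]; exact hyC)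
          have hu : x⁻¹ * g ∈ ⁅D, D⁆ := by
            rw [← QuotientGroup.eq, hx, h1]
          have hcomm : Commute x (x⁻¹ * g) :=
            ((Subgroup.mem_centralizer_iff.1 hxC) _ (hND hu)).symm
          have hpow : ∃ k : ℕ, (x⁻¹ * g) ^ p ^ k = 1 := by
            obtain ⟨k, hk⟩ := hP ⟨_, hu⟩
            refine ⟨k, ?_⟩
            have := congrArg Subtype.val hk
            simpa using this
          have h3 := eq_of_regular_of_commute hM.1 hcomm hpow hxr (by
            rw [mul_inv_cancel_left]; exact h2)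
          exact (inv_mul_eq_one.1 h3).symm
        · rfl
      · intro hh
        exact absurd (Finset.mem_univ _) hh

end Cfsg.Agent.Lib.Helper21Quot3
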