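import Cfsg.Agent.Lib.H22AsAlt
import Cfsg.Agent.Lib.H22AsSylS
import Cfsg.Agent.Lib.H22AsSylN
import Cfsg.Agent.Lib.H22AsFus
import Cfsg.Agent.Lib.H22AsPow
import Cfsg.Agent.Lib.H22AsAr
import Cfsg.Agent.Lib.H22AsZeta
import Cfsg.Agent.Lib.H22AsHab
import Cfsg.Agent.Lib.H22AsTor
import Cfsg.Agent.Lib.H22AsNA
import Cfsg.Agent.Lib.H22AsExp

set_option autoImplicit false
set_option linter.unusedSectionVars false
set_option linter.unusedVariables false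

/-! PROJECT 2661 (S2661: an alternating section of `²F₄(q)` has degree at most `6`): the assembly.

`A_r`, `r ≥ 7`, contains a Frobenius group `7 : 3`.  The index of the torus `H` (order `(q - 1) ^ 2`) in `²F₄(q)` is prime to `7`; a `7`-subgroup is conjugate into `H`,
fusion in `H` is controlled by `N` (because the elements of order `7` of `H` form a regular subgroup), and `N / H` is a `2`-group. -/

namespace Cfsg.Agent.Lib.Helper22AsMain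

open Subgroup Cfsg.Agent.Lib.Helper23Grp Cfsg.Agent.Lib.Helper23TG Cfsg.Agent.Lib.Helper23TG.TG Cfsg.Agent.Lib.LeadTwDefs
  Cfsg.Agent.Lib.Helper22RoDefs Cfsg.Agent.Lib.H22AsDefs
  Cfsg.Agent.Lib.H22AsAlt Cfsg.Agent.Lib.H22AsSylS Cfsg.Agent.Lib.H22AsSylN Cfsg.Agent.Lib.H22AsFix Cfsg.Agent.Lib.H22AsFus
  Cfsg.Agent.Lib.H22AsPow Cfsg.Agent.Lib.H22AsAr Cfsg.Agent.Lib.H22AsZeta Cfsg.Agent.Lib.H22AsHab Cfsg.Agent.Lib.H22AsTor
  Cfsg.Agent.Lib.H22AsNA Cfsg.Agent.Lib.H22AsExp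

theorem cent_pow {G : Type*} [Group G] [Finite G] (p : ℕ) [Fact p.Prime] (T A Nn : Subgroup G)
    (hTab : ∀ a ∈ T, ∀ b ∈ T, a * b = b * a) (hT : ¬ p ∣ T.index) (hA : A ≤ T) (hAp : IsPGroup p A)
    (hNA : ∀ g : G, (∀ s ∈ A, g * s * g⁻¹ ∈ T) → g ∈ Nn) (e : ℕ) (hexp : ∀ g ∈ Nn, g ^ e ∈ T)
    (P₀ : Subgroup G) (hP : IsPGroup p P₀) (y : G) (hy : ∀ z ∈ P₀, y * z * y⁻¹ ∈ P₀) :
    ∀ z ∈ P₀, y ^ e * z * (y ^ e)⁻¹ = z := by
  obtain ⟨g₀, hg₀⟩ := conj_into p T P₀ hT hP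
  have hmem : ∀ z ∈ P₀, g₀ * z * g₀⁻¹ ∈ P₀.map (MulAut.conj g₀).toMonoidHom := fun z hz => ⟨z, hz, rfl⟩
  have hP₁T : P₀.map (MulAut.conj g₀).toMonoidHom ≤ T := by
    rintro _ ⟨z, hz, rfl⟩
    exact hg₀ z hz
  have hy₁ : ∀ z ∈ P₀.map (MulAut.conj g₀).toMonoidHom,
      (g₀ * y * g₀⁻¹) * z * (g₀ * y * g₀⁻¹)⁻¹ ∈ P₀.map (MulAut.conj g₀).toMonoidHom := by
    rintro _ ⟨z, hz, rfl⟩
    have := hmem _ (hy z hz)
    have e1 : (g₀ * y * g₀⁻¹) * ((MulAut.conj g₀).toMonoidHom z) * (g₀ * y * g₀⁻¹)⁻¹ = g₀ * (y * z * y⁻¹) * g₀⁻¹ := by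
      show (g₀ * y * g₀⁻¹) * (g₀ * z * g₀⁻¹) * (g₀ * y * g₀⁻¹)⁻¹ = _
      group
    rw [e1]; exact this
  obtain ⟨g, hgA, hgP⟩ := fusion p T A _ hTab hT hA hAp hP₁T _ hy₁
  have hge := hexp g (hNA g hgA)
  intro z hz
  have h1 := pow_conj_eq _ g _ hy₁ hgP e _ (hmem z hz)
  have h2 : g ^ e * (g₀ * z * g₀⁻¹) * (g ^ e)⁻¹ = g₀ * z * g₀⁻¹ := by
    rw [hTab _ hge _ (hP₁T (hmem z hz))]; group
  have h3 : (g₀ * y * g₀⁻¹) ^ e = g₀ * y ^ e * g₀⁻¹ := conj_pow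
  rw [h2, h3] at h1
  have h4 : y ^ e * z * (y ^ e)⁻¹ = g₀⁻¹ * (g₀ * y ^ e * g₀⁻¹ * (g₀ * z * g₀⁻¹) * (g₀ * y ^ e * g₀⁻¹)⁻¹) * g₀ := by group
  rw [h4, ← h1]; group

theorem no_section {G Q : Type*} [Group G] [Finite G] [Group Q] (p : ℕ) [Fact p.Prime] (e k : ℕ)
    (hcp : ∀ (P₀ : Subgroup G), IsPGroup p P₀ → ∀ y : G, (∀ z ∈ P₀, y * z * y⁻¹ ∈ P₀) →
      ∀ z ∈ P₀, y ^ e * z * (y ^ e)⁻¹ = z)
    (L : Subgroup G) (φ : L →* Q) (hφ : Function.Surjective φ) (x y : Q) (hx : x ^ p = 1) (hyx : y * x * y⁻¹ = x ^ k)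
    (hk : x ^ (k ^ e) ≠ x) : False := by
  obtain ⟨y₀, rfl⟩ := hφ y
  obtain ⟨P⟩ : Nonempty (Sylow p ↥((zpowers x).comap φ)) := inferInstance
  obtain ⟨x', hx'P, hx'⟩ := sylow_surj p φ x hx (hφ x) P
  obtain ⟨m, hm⟩ := sylow_norm p φ x k y₀ hyx P
  have hpg : IsPGroup p ↥(((P : Subgroup _).map ((zpowers x).comap φ).subtype).map L.subtype) :=
    (P.2.map _).map _
  have hmem : ∀ z : ↥((zpowers x).comap φ), z ∈ P →
      (z.1.1 : G) ∈ ((P : Subgroup _).map ((zpowers x).comap φ).subtype).map L.subtype :=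
    fun z hz => ⟨z.1, ⟨z, hz, rfl⟩, rfl⟩
  have h1 := hcp _ hpg ((m.1 * y₀ : L) : G) (by
    rintro _ ⟨_, ⟨z, hz, rfl⟩, rfl⟩
    obtain ⟨z', hz', e'⟩ := hm z hz
    have := hmem z' hz'
    rw [e'] at this
    exact this) _ (hmem x' hx'P)
  have h2 : (m.1 * y₀) ^ e * x'.1 * ((m.1 * y₀) ^ e)⁻¹ = x'.1 := Subtype.ext h1
  have h3 := congrArg φ h2
  rw [map_mul, map_mul, map_inv, map_pow, hx'] at h3
  obtain ⟨j, hj⟩ : ∃ j : ℤ, x ^ j = φ m.1 := m.2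
  have h4 : φ (m.1 * y₀) * x * (φ (m.1 * y₀))⁻¹ = x ^ k := by
    rw [map_mul, ← hj]
    have : x ^ j * φ y₀ * x * (x ^ j * φ y₀)⁻¹ = x ^ j * (φ y₀ * x * (φ y₀)⁻¹) * (x ^ j)⁻¹ := by group
    rw [this, hyx, ← zpow_natCast, ← zpow_add, ← zpow_neg, ← zpow_add]
    congr 1
    ring
  rw [conj_pow_pow _ x k h4 e] at h3
  exact hk h3

section main

variable {Γ K R : Type*} [Group Γ] [Finite Γ] [Field K] [Finite K] [Fintype R] [DecidableEq R]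

theorem main (S : TG Γ R (Fin 2)) (hTD : TData S) (P : RD Γ K) (hP : P.Ok)
    (hXa : ∀ g, g ∈ S.X (S.simple 0) ↔ g ∈ P.Xa) (hXb : ∀ g, g ∈ S.X (S.simple 1) ↔ g ∈ P.Xb) (hH : P.H = S.H)
    (hrot : ∀ r, (fun r => S.refl 0 (S.refl 1 r))^[8] r = r)
    (n : ℕ) (hn : 1 ≤ n) (hK : Nat.card K = 2 ^ n) (cH : Nat.card S.H = (2 ^ n - 1) ^ 2)
    (cG : Nat.card Γ = 2 ^ (n * 12) *
      ((2 ^ n - 1) ^ 2 * ((1 + 2 ^ n) * (1 + (2 ^ n) ^ 2) * (1 + (2 ^ n) ^ 3) * (1 + (2 ^ n) ^ 6))))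
    (r : ℕ) (L : Subgroup Γ) (M : Subgroup L) [M.Normal] (h : Nonempty (L ⧸ M ≃* alternatingGroup (Fin r))) :
    r ≤ 6 := by
  by_contra hr
  obtain ⟨x, y, hx1, hx7, hyx⟩ := exists_xy r (by omega)
  obtain ⟨ε⟩ := h
  haveI : Fact (Nat.Prime 7) := ⟨by norm_num⟩
  have ok := hTD.ok
  refine no_section 7 8 2 ?_ L (ε.toMonoidHom.comp (QuotientGroup.mk' M))
    (ε.surjective.comp (QuotientGroup.mk'_surjective M)) x y hx7 hyx (pow_ne x hx1 hx7)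
  have hpos : 0 < (2 ^ n - 1) ^ 2 := by
    have : 2 ≤ 2 ^ n := by
      calc 2 = 2 ^ 1 := by norm_num
        _ ≤ 2 ^ n := Nat.pow_le_pow_right (by norm_num) hn
    have : 0 < 2 ^ n - 1 := by omega
    positivity
  by_cases h7 : 7 ∣ 2 ^ n - 1
  · -- the main case
    obtain ⟨ζ, hζ1, hζ7⟩ := exists_zeta n hK h7
    obtain ⟨t, htH, ht7, hta, htb⟩ := exists_tor hP ζ hζ1 hζ7
    have hab : ∀ a ∈ S.H, ∀ b ∈ S.H, a * b = b * a := by rw [← hH]; exact H_comm hP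
    rw [hH] at htH
    let A : Subgroup Γ :=
      { carrier := {g | g ∈ S.H ∧ g ^ 7 = 1}
        mul_mem' := by
          rintro a b ⟨ha, ha7⟩ ⟨hb, hb7⟩
          exact ⟨mul_mem ha hb, by rw [(show Commute a b from hab a ha b hb).mul_pow, ha7, hb7, one_mul]⟩
        one_mem' := ⟨one_mem _, one_pow _⟩
        inv_mem' := by
          rintro a ⟨ha, ha7⟩
          exact ⟨inv_mem ha, by rw [inv_pow, ha7, inv_one]⟩ }
    have htA : t ∈ A := ⟨htH, ht7⟩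
    have hReg : Reg S A :=
      { le := fun g hg => hg.1
        nrm := fun ν hν s hs => ⟨N_conj_H ok ν hν s hs.1, by rw [conj_pow, hs.2]; group⟩
        cen := by
          intro i x hx hc
          fin_cases i
          · exact hta x ((hXa x).1 hx) (hc t htA)
          · exact htb x ((hXb x).1 hx) (hc t htA) }
    have hidx : ¬ 7 ∣ S.H.index := by
      have h1 := S.H.index_mul_card
      rw [cH, cG] at h1
      have h2 : S.H.index = 2 ^ (n * 12) * ((1 + 2 ^ n) * (1 + (2 ^ n) ^ 2) * (1 + (2 ^ n) ^ 3) * (1 + (2 ^ n) ^ 6)) := by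
        apply Nat.eq_of_mul_eq_mul_right hpos
        rw [h1]; ring
      rw [h2]
      exact not_dvd n
    have hAp : IsPGroup 7 A := by
      intro a
      refine ⟨1, ?_⟩
      rw [pow_one]
      exact Subtype.ext a.2.2
    exact cent_pow 7 S.H A S.N hab hidx hReg.le hAp (fun g hg => mem_N hTD hReg g hg) 8 (N_pow ok hrot)
  · -- `7` does not divide the order
    intro P₀ hP₀ y _ z hz
    have hidx : ¬ 7 ∣ (⊥ : Subgroup Γ).index := by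
      rw [index_bot, cG]
      intro hd
      have e1 : 2 ^ (n * 12) * ((2 ^ n - 1) ^ 2 * ((1 + 2 ^ n) * (1 + (2 ^ n) ^ 2) * (1 + (2 ^ n) ^ 3) * (1 + (2 ^ n) ^ 6))) =
          (2 ^ n - 1) ^ 2 * (2 ^ (n * 12) * ((1 + 2 ^ n) * (1 + (2 ^ n) ^ 2) * (1 + (2 ^ n) ^ 3) * (1 + (2 ^ n) ^ 6))) := by ring
      rw [e1] at hd
      rcases (Nat.Prime.dvd_mul (by norm_num)).1 hd with hd | hd
      · exact h7 (Nat.Prime.dvd_of_dvd_pow (by norm_num) hd)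
      · exact not_dvd n hd
    obtain ⟨g, hg⟩ := conj_into 7 ⊥ P₀ hidx hP₀
    have h1 := hg z hz
    rw [mem_bot] at h1
    have h2 : z = 1 := by
      have : z = g⁻¹ * (g * z * g⁻¹) * g := by group
      rw [this, h1]; group
    rw [h2]; group

end main

end Cfsg.Agent.Lib.Helper22AsMain
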