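import Cfsg.Agent.Lib.H22AsDefs

set_option autoImplicit false

/-! PROJECT 2407: a variant of H22TgN.exists_n (helper72) for any pair of nodes and any exponent. -/

namespace Cfsg.Agent.Lib.Helper22DgN

open Subgroup Cfsg.Agent.Lib.Helper23Grp Cfsg.Agent.Lib.Helper23TG Cfsg.Agent.Lib.Helper23TG.TG Cfsg.Agent.Lib.LeadTwDefs

variable {𝔾 R : Type*} [Group 𝔾] {I : Type*} {S : TG 𝔾 R I}

theorem Mon_pow (ok : S.Ok) {w : 𝔾} {π : Equiv.Perm R} (h : S.Mon w π) (k : ℕ) :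
    S.Mon (w ^ k) (π ^ k) := by
  induction k with
  | zero => simpa using Mon.one ok
  | succ k ih =>
    rw [pow_succ, pow_succ]
    exact ih.mul h

/-- N. -/
theorem exists_n (ok : S.Ok) (i j : I) (k : ℕ) (hneg : ∀ r, (fun r => S.refl i (S.refl j r))^[k] r = S.neg r) :
    ∃ n ∈ S.N, ∀ r, ∀ g ∈ S.X r, n * g * n⁻¹ ∈ S.X (S.neg r) ∧ n⁻¹ * g * n ∈ S.X (S.neg r) := by
  set w := S.nn i * S.nn j with hw
  set π := reflPerm ok i * reflPerm ok j with hπ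
  have hM : S.Mon w π := (Mon_nn ok i).mul (Mon_nn ok j)
  have hM' : S.Mon w⁻¹ π⁻¹ := by
    rw [hw, hπ, mul_inv_rev, mul_inv_rev, reflPerm_inv, reflPerm_inv]
    exact (Mon_nn_inv ok j).mul (Mon_nn_inv ok i)
  have h4 : ∀ r, (π ^ k) r = S.neg r := by
    intro r
    rw [← hneg r, ← Equiv.Perm.iterate_eq_pow]
    rfl
  have h4' : ∀ r, (π⁻¹ ^ k) r = S.neg r := by
    intro r
    rw [inv_pow, Equiv.Perm.inv_eq_iff_eq, h4, ok.neg_neg]
  refine ⟨w ^ k, S.N.pow_mem (S.N.mul_mem (nn_mem_N i) (nn_mem_N j)) k, ?_⟩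
  intro r g hg
  constructor
  · have := (Mon_pow ok hM k).conj_X r g hg
    rwa [h4] at this
  · have := (Mon_pow ok hM' k).conj_X r g hg
    rwa [h4', inv_pow, inv_inv] at this

end Cfsg.Agent.Lib.Helper22DgN
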