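import Cfsg.Agent.Lib.H22DgAbs
import Cfsg.Agent.Lib.H22DgTor
import Cfsg.Agent.Lib.H22DgLnk
import Cfsg.Agent.Lib.Helper22DgC
import Cfsg.Agent.Lib.Helper22DgN

set_option autoImplicit false
set_option linter.unusedSectionVars false
set_option linter.unusedVariables false

/-! PROJECT 2407: two-generation in the TA / TG vocabulary (rank 2, `w₀ = -1`). -/

namespace Cfsg.Agent.Lib.Helper22DgTA

open Subgroup Cfsg.Agent.Lib.Helper23Grp Cfsg.Agent.Lib.Helper23TG Cfsg.Agent.Lib.Helper23TG.TG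
  Cfsg.Agent.Lib.LeadTwDefs

variable {Γ F R J : Type*} [Group Γ] [Field F] {S : TG Γ R J} {P : TA Γ F J}

theorem x_zero (hP : P.Ok) (j : J) : P.x j 0 = 1 := by
  have := hP.x_add j 0 (zero_mem _) 0 (zero_mem _)
  rw [add_zero] at this
  exact (mul_eq_left.1 this.symm)

theorem x_neg (hP : P.Ok) (j : J) {a : F} (ha : a ∈ P.A j) : P.x j (-a) = (P.x j a)⁻¹ := by
  rw [eq_inv_iff_mul_eq_one, ← hP.x_add j _ (neg_mem ha) _ ha, neg_add_cancel, x_zero hP]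

theorem x_inj' (hP : P.Ok) (j : J) {a b : F} (ha : a ∈ P.A j) (hb : b ∈ P.A j) (h : P.x j a = P.x j b) : a = b := by
  have : P.x j (a + -b) = 1 := by
    rw [hP.x_add j _ ha _ (neg_mem hb), x_neg hP j hb, h, mul_inv_cancel]
  have := hP.x_inj j _ (add_mem ha (neg_mem hb)) this
  exact add_neg_eq_zero.1 this

theorem x_nat (hP : P.Ok) (j : J) (k : ℕ) : P.x j (k : F) = (P.x j 1) ^ k := by
  induction k with
  | zero => simp [x_zero hP]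
  | succ k ih =>
    rw [Nat.cast_succ, hP.x_add j _ (natCast_mem _ k) _ (one_mem _), ih, pow_succ]

theorem two_gen_TA [Finite Γ] (ok : S.Ok) (hP : P.Ok) (j0 j1 : J) (hJ : ∀ j, j = j0 ∨ j = j1)
    (hX : ∀ j g, g ∈ P.X j ↔ g ∈ S.X (S.simple j)) (hY : ∀ j g, g ∈ P.Y j ↔ g ∈ S.X (S.neg (S.simple j)))
    (hA0 : P.A j0 = ⊤) (hLk : Lk P j1 j0)
    (hhH : ∀ j a, a ∈ P.A j → a ≠ 0 → P.h j a ∈ S.H) (hHc : ∀ a ∈ S.H, ∀ b ∈ S.H, a * b = b * a)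
    (p : ℕ) (hp : (p : F) = 0) (hcard : Nat.Coprime (Nat.card S.H) p)
    (k : ℕ) (hneg : ∀ r, (fun r => S.refl j0 (S.refl j1 r))^[k] r = S.neg r)
    (s : F) (hs : s ≠ 0) (hζ : ∀ t : F, t ≠ 0 → ∃ i : ℕ, t = (s ^ 4 * P.χ j0 j1 s) ^ i)
    (hζ1 : s ^ 4 * P.χ j0 j1 s ≠ 1)
    (hsurj : ∀ u ∈ P.A j1, u ≠ 0 → ∃ a ∈ P.A j0, a ≠ 0 ∧ P.χ j0 j1 a = u) :
    ∃ a b : Γ, closure ({a, b} : Set Γ) = ⊤ := by
  obtain ⟨n, hnN, hn⟩ := Helper22DgN.exists_n ok j0 j1 k hneg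
  have mem0 : ∀ t, t ∈ P.A j0 := fun t => by rw [hA0]; trivial
  obtain ⟨hA, hB, hu, hu0⟩ := H22DgTor.tor_act hP j0 j1 hLk hs (mem0 s)
  set h := P.h j0 (s ^ 2) * P.h j1 (P.χ j0 j1 s)⁻¹ with hh_def
  have hh : h ∈ S.H := S.H.mul_mem (hhH j0 _ (mem0 _) (pow_ne_zero 2 hs)) (hhH j1 _ hu hu0)
  have hh₁ : n * h * n⁻¹ ∈ S.H := N_conj_H ok n hnN h hh
  have hc : h * P.x j1 1 = P.x j1 1 * h := mul_inv_eq_iff_eq_mul.mp (hB 1 (one_mem _))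
  have hx : (P.x j1 1) ^ p = 1 := by rw [← x_nat hP, hp, x_zero hP]
  have hN : h ^ (Nat.card S.H) = 1 := by
    have := pow_card_eq_one' (G := ↥S.H) (x := ⟨h, hh⟩)
    exact congrArg Subtype.val this
  -- the element `z₀`
  have hx1m : P.x j0 (-1) ∈ S.X (S.simple j0) := (hX j0 _).1 ⟨-1, mem0 _, rfl⟩
  obtain ⟨t₁, -, e₁⟩ := (hX j0 _).2 (H_X ok _ _ hh₁ _ hx1m)
  have hconj : P.x j0 1 * (n * h * n⁻¹) * (P.x j0 1)⁻¹ = P.x j0 (1 + t₁) * (n * h * n⁻¹) := by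
    rw [hP.x_add j0 _ (mem0 _) _ (mem0 _), ← e₁, x_neg hP j0 (mem0 1)]
    group
  have hz₀ : (1 : F) + t₁ ≠ 0 := by
    intro h0
    have ht₁ : t₁ = -1 := by
      have := eq_neg_of_add_eq_zero_right h0
      exact this
    rw [ht₁] at e₁
    have hy := (hn _ _ hx1m).2
    have hy1 : n⁻¹ * P.x j0 (-1) * n ≠ 1 := by
      intro h1
      have h2 : P.x j0 (-1) = 1 := by
        have : P.x j0 (-1) = n * (n⁻¹ * P.x j0 (-1) * n) * n⁻¹ := by group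
        rw [this, h1]; group
      have := hP.x_inj j0 _ (mem0 _) h2
      exact one_ne_zero (neg_eq_zero.1 this)
    have hcy : h * (n⁻¹ * P.x j0 (-1) * n) * h⁻¹ = n⁻¹ * P.x j0 (-1) * n := by
      have : h * (n⁻¹ * P.x j0 (-1) * n) * h⁻¹ = n⁻¹ * ((n * h * n⁻¹) * P.x j0 (-1) * (n * h * n⁻¹)⁻¹) * n := by group
      rw [this, e₁]
    obtain ⟨x, hxX, hx1, hxf⟩ := Helper22DgC.cent_pos' ok j0 hh hy hy1 hcy
    obtain ⟨t, -, rfl⟩ := (hX j0 _).2 hxX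
    rw [hA t (mem0 t)] at hxf
    have h4 := x_inj' hP j0 (mem0 _) (mem0 _) hxf
    have ht0 : t ≠ 0 := by
      rintro rfl
      exact hx1 (x_zero hP j0)
    exact hζ1 (mul_right_cancel₀ ht0 (h4.trans (one_mul t).symm))
  refine ⟨h * P.x j1 1, P.x j0 1 * n, ?_⟩
  refine H22DgAbs.two_gen_abs (P.x j0) (fun a b => hP.x_add j0 a (mem0 a) b (mem0 b)) (S.X (S.simple j1))
    (S.X (S.neg (S.simple j0))) (S.X (S.neg (S.simple j1))) (P.x j1 1) h n (n * h * n⁻¹) _ (1 + t₁) hζ hζ1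
    (fun t => hA t (mem0 t)) hc (Nat.card S.H) p hcard hN hx hz₀ rfl (hHc _ hh _ hh₁) hconj ?_ ?_ ?_ ?_
  · intro y hy
    have h1 := (hn _ y hy).2
    rw [ok.neg_neg] at h1
    obtain ⟨t, -, e⟩ := (hX j0 _).2 h1
    exact ⟨t, e⟩
  · intro M hxa hYa h1 g hg
    refine H22DgLnk.Xb_le hP j0 j1 hsurj M ?_ ?_ h1 g ((hX j1 g).2 hg)
    · rintro _ ⟨a, -, rfl⟩
      exact hxa a
    · intro y hy
      exact hYa ((hY j0 y).1 hy)
  · intro y hy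
    have h1 := (hn _ y hy).2
    rwa [ok.neg_neg] at h1
  · rw [eq_top_iff, ← hP.gen, closure_le]
    rintro g ⟨j, hg | hg⟩
    · rcases hJ j with rfl | rfl
      · obtain ⟨a, -, rfl⟩ := hg
        exact subset_closure (Or.inl (Or.inl (Or.inl ⟨a, rfl⟩)))
      · exact subset_closure (Or.inl (Or.inl (Or.inr ((hX _ g).1 hg))))
    · rcases hJ j with rfl | rfl
      · exact subset_closure (Or.inl (Or.inr ((hY _ g).1 hg)))
      · exact subset_closure (Or.inr ((hY _ g).1 hg))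

end Cfsg.Agent.Lib.Helper22DgTA
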