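import Cfsg.Agent.Lib.LeadTwD
import Cfsg.Agent.Lib.Helper22DgTA
import Cfsg.Agent.Lib.H22DgAr
import Cfsg.Agent.Lib.H22DgNm
import Cfsg.Agent.Lib.Helper23Diag

set_option autoImplicit false
set_option linter.unusedVariables false
set_option linter.unusedSectionVars false
set_option maxRecDepth 100000

/-! PROJECT 2407 : `³D₄(q)` is generated by two elements; concretization. -/

namespace Cfsg.Agent.Lib.Helper22DgConc

open Cfsg Cfsg.Lie Cfsg.Lie.ChevalleyDatum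
open Subgroup Cfsg.Agent.Lib.Helper23Grp Cfsg.Agent.Lib.Helper23RG Cfsg.Agent.Lib.Helper23TG
  Cfsg.Agent.Lib.Helper23Tw Cfsg.Agent.Lib.Helper23Weyl Cfsg.Agent.Lib.LeadTwDefs
  Cfsg.Agent.Lib.Helper23Table Cfsg.Agent.Lib.Helper23Chev Cfsg.Agent.Lib.Helper23Fast
  Cfsg.Agent.Lib.Helper23TwC Cfsg.Agent.Lib.LeadAutConc Cfsg.Agent.Lib.LeadTwI Cfsg.Agent.Lib.LeadTwC Cfsg.Agent.Lib.Helper15TwC1 Cfsg.Agent.Lib.LeadTwX Cfsg.Agent.Lib.Helper15TwC3 Cfsg.Agent.Lib.Helper37TwC4 Cfsg.Agent.Lib.Helper17TwI5 Cfsg.Agent.Lib.Helper17TwI6 Cfsg.Agent.Lib.Helper36TwI20 Cfsg.Agent.Lib.Helper36TwI21 Cfsg.Agent.Lib.Helper36TwI22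
  Cfsg.Agent.Lib.Helper23Tw3D4 Cfsg.Agent.Lib.Helper23TwT3D4 Cfsg.Agent.Lib.Helper23FastT3D4 Cfsg.Agent.Lib.Helper23FF
  Cfsg.Agent.Lib.LeadTwD Cfsg.Agent.Lib.Helper36TwI8 Cfsg.Agent.Lib.Helper67TwE

variable {K : Type*} [Field K] [Fintype K]

theorem T0_comm (sg : GL X.D.Idx K → GL X.D.Idx K) (φ : K ≃+* K) :
    ∀ a ∈ (TT sg φ).T0, ∀ b ∈ (TT sg φ).T0, a * b = b * a := by
  have hle : (TT sg φ).T0 ≤ (Helper23Diag.δ : (Fin X.D.nroots → Kˣ) →* GL X.D.Idx K).range := by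
    unfold Tw.T0
    rw [closure_le]
    rintro _ ⟨J, c, hc, -, rfl⟩
    unfold Tw.hJ
    apply Subgroup.list_prod_mem
    intro g hg
    rw [List.mem_map] at hg
    obtain ⟨i, hi, rfl⟩ := hg
    have := Helper23Diag.hE_eq hT (hR (K := K)) i (Units.mk0 (c i) (hc i hi))
    exact ⟨_, this.symm⟩
  intro a ha b hb
  obtain ⟨x, rfl⟩ := hle ha
  obtain ⟨y, rfl⟩ := hle hb
  rw [← map_mul, ← map_mul, mul_comm]

theorem neg3 (sg : GL X.D.Idx K → GL X.D.Idx K) (φ : K ≃+* K) (r : Fin X.P.n) :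
    (fun r => (TT sg φ).refl1 ⟨0, by decide⟩ ((TT sg φ).refl1 ⟨1, by decide⟩ r))^[3] r = (TT sg φ).neg1 r := by
  apply Fin.ext
  show X.P.refl 0 (X.P.refl 1 (X.P.refl 0 (X.P.refl 1 (X.P.refl 0 (X.P.refl 1 r.val))))) = X.P.n - 1 - r.val
  exact (by decide +kernel : ∀ r < X.P.n, X.P.refl 0 (X.P.refl 1 (X.P.refl 0 (X.P.refl 1 (X.P.refl 0 (X.P.refl 1 r))))) = X.P.n - 1 - r) r.val r.2

theorem chi01 {q : ℕ} (hK : Fintype.card K = q ^ 3) (sg : GL X.D.Idx K → GL X.D.Idx K) (φ : K ≃+* K)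
    (hφ : ∀ t, φ t = t ^ q) (hE : EvOk (TT sg φ) rep) (a : K) :
    (ta (TT sg φ) rep).χ ⟨0, by decide⟩ ⟨1, by decide⟩ a = (a * a ^ q * a ^ (q ^ 2))⁻¹ := by
  have hc0 : (TT sg φ).Cmp ⟨0, by decide⟩
      (fun i => if i.val = 0 then a else if i.val = 2 then a ^ q else a ^ (q ^ 2)) := by
    intro i hi
    have hi' : i ∈ [(⟨0, by decide⟩ : Fin X.D.rank), ⟨2, by decide⟩, ⟨3, by decide⟩] := hi
    simp only [List.mem_cons, List.not_mem_nil, or_false] at hi'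
    rcases hi' with rfl | rfl | rfl
    · exact (hφ a).symm
    · show a ^ (q ^ 2) = φ (a ^ q)
      rw [hφ, ← pow_mul, ← sq]
    · show a = φ (a ^ (q ^ 2))
      rw [hφ, ← pow_mul, ← pow_succ, pow_card' hK]
  have h := hE.eq ⟨0, by decide⟩ _ hc0
  have horb : (TT sg φ).orb ⟨0, by decide⟩ = [(⟨0, by decide⟩ : Fin X.D.rank), ⟨2, by decide⟩, ⟨3, by decide⟩] := rfl
  have e0 : ev (TT sg φ) ⟨0, by decide⟩ (rep ⟨0, by decide⟩) a ⟨0, by decide⟩ = a :=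
    h ⟨0, by decide⟩ (by rw [horb]; simp)
  have e2 : ev (TT sg φ) ⟨0, by decide⟩ (rep ⟨0, by decide⟩) a ⟨2, by decide⟩ = a ^ q :=
    h ⟨2, by decide⟩ (by rw [horb]; simp)
  have e3 : ev (TT sg φ) ⟨0, by decide⟩ (rep ⟨0, by decide⟩) a ⟨3, by decide⟩ = a ^ (q ^ 2) :=
    h ⟨3, by decide⟩ (by rw [horb]; simp)
  show (((TT sg φ).orb ⟨0, by decide⟩).map (fun i => (ev (TT sg φ) ⟨0, by decide⟩ (rep ⟨0, by decide⟩) a i) ^
    (X.D.cartan i (X.D.simple 1)))).prod = _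
  rw [horb]
  simp only [List.map_cons, List.map_nil, List.prod_cons, List.prod_nil, mul_one]
  rw [e0, e2, e3, (by decide +kernel : X.D.cartan 0 (X.D.simple 1) = -1),
    (by decide +kernel : X.D.cartan 2 (X.D.simple 1) = -1), (by decide +kernel : X.D.cartan 3 (X.D.simple 1) = -1)]
  simp only [zpow_neg_one, mul_inv, mul_assoc]

theorem main {q : ℕ} (hq : IsPrimePow q) (hK' : Fintype.card K = q ^ 3) :
    ∃ a b : ↥(tws K q), closure ({a, b} : Set ↥(tws K q)) = ⊤ := by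
  obtain ⟨p, f, hp0, hf, rfl⟩ := id hq
  have hp : p.Prime := hp0.nat_prime
  haveI : Fact p.Prime := ⟨hp⟩
  have hord := s1067 hq hK'
  have hU := s1088 hq hK'
  obtain ⟨sg, φ, hs, hφ, e⟩ := exists_ctx hq hK'
  rw [← e] at hord hU ⊢
  have ok := rg_ok hT (hR (K := K))
  have tok := tw_ok chk hT hR Helper23FastG2.valid hs rchk hCF
  have hTD := tdataC chk hT hR Helper23FastG2.valid hs rchk hCF Helper23FastG2.exists_w0 rep (hrep sg φ) p (12 * f)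
    (((p ^ f) ^ 2 - 1) * ((p ^ f) ^ 6 - 1) * ((p ^ f) ^ 8 + (p ^ f) ^ 4 + 1))
    (by rw [hord, ← pow_mul, mul_comm f 12]; ring) (arith_3D4 p f hp hf) (by rw [hU, ← pow_mul, mul_comm f 12])
  obtain ⟨a0, a1, a2⟩ := cardAdm hq.two_le hK' sg φ hφ
  have hP : (ta (TT sg φ) rep).Ok := LeadTwI.ta_ok ok tok (hBV hT hR) (hUN hT hR) rep (hrep sg φ) hTD
    (fun i => Cfsg.Agent.Lib.Helper38AutC2.cartan_self hD i i.2)
    (fun J i hi j hj hij => hA0 i i.2 j j.2 (fun e => hij (Fin.ext e))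
      (((mem_orb chk hT hR Helper23FastG2.valid sg φ).1 hi).trans ((mem_orb chk hT hR Helper23FastG2.valid sg φ).1 hj).symm))
  have hE := evOk ok tok (hBV hT hR) (hUN hT hR) rep (hrep sg φ)
  have hχ := chi01 hK' sg φ hφ hE
  obtain ⟨s, hs0, hs1, hs2⟩ := H22DgAr.exists_s hq.two_le hK'
  have hnm := H22DgNm.norm_surj hq.two_le hK'
  have h9 := fun J => coe_nh ok tok (hBV hT hR) (hUN hT hR) rep (hrep sg φ) J (hE.neg_inv J) (hE.one J)
  refine Helper22DgTA.two_gen_TA (S := S1 ok tok) (P := ta (TT sg φ) rep) hTD.ok hP ⟨0, by decide⟩ ⟨1, by decide⟩ ?_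
    (mem_X_iff ok tok (hBV hT hR) (hUN hT hR) rep (hrep sg φ) hE.eq)
    (mem_Y_iff ok tok (hBV hT hR) (hUN hT hR) rep (hrep sg φ) hE.eq) ?_ ?_ ?_ ?_ p ?_ ?_ 3 ?_ s hs0 ?_ ?_ ?_
  · intro j
    obtain ⟨j, hj⟩ := j
    have hj' : j < 2 := hj
    interval_cases j
    · exact Or.inl rfl
    · exact Or.inr rfl
  · apply SetLike.coe_injective
    exact a0.trans Subfield.coe_top.symm
  · apply lk_of ok tok (hBV hT hR) (hUN hT hR) rep (hrep sg φ)
    · exact (by decide +kernel : X.D.cartan 1 (X.D.simple 0) = -1)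
    · intro i hi hne
      have hi' := (mem_orb chk hT hR Helper23FastG2.valid sg φ).1 hi
      exact absurd ((by decide +kernel : ∀ i : Fin X.D.rank, X.oi i.val = 1 → i = rep ⟨1, by decide⟩) i hi') hne
  · intro j a ha ha0
    show (((ta (TT sg φ) rep).h j a : ↥(TT sg φ).G1) : GL X.D.Idx K) ∈ (TT sg φ).T0
    rw [(h9 j).2.2 a ha]
    exact subset_closure ⟨j, _, hE.ne j a ha ha0, ev_cmp _ _ _ _, rfl⟩
  · intro a ha b hb
    apply Subtype.ext
    exact T0_comm sg φ a.1 ha b.1 hb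
  · have h := Nat.cast_card_eq_zero K
    rw [hK'] at h
    push_cast at h
    exact (pow_eq_zero_iff hf.ne').1 ((pow_eq_zero_iff (by norm_num)).1 h)
  · have h1 : Nat.card (S1 ok tok).H = Nat.card (TT sg φ).T0 :=
      Nat.card_congr (subgroupOfEquivOfLe (Tw.T0_le_G1 ok tok)).toEquiv
    rw [h1, card_T0E hq.two_le hK' hs hφ]
    apply Nat.Coprime.symm
    rw [Nat.Prime.coprime_iff_not_dvd hp, Nat.Prime.dvd_mul hp]
    rintro (h | h)
    · exact nd_sub hp (dvd_pow_self p hf.ne') (Nat.one_le_pow _ _ hp.pos) 3 (by norm_num) h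
    · have := nd_sub hp (dvd_pow_self p hf.ne') (Nat.one_le_pow _ _ hp.pos) 1 (by norm_num)
      rw [pow_one] at this
      exact this h
  · intro r
    exact neg3 sg φ r
  · intro t ht
    rw [hχ]
    exact hs1 t ht
  · rw [hχ]
    exact hs2
  · intro u hu hu0
    have hu' : u ^ (p ^ f) = u := by
      have h1 : u ∈ (TT sg φ).Adm (rep ⟨1, by decide⟩) := hu
      rw [Adm_fixedC chk hT hR Helper23FastG2.valid sg φ _ (by decide +kernel)] at h1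
      rw [← hφ]
      exact h1
    obtain ⟨a, ha0, ha⟩ := hnm u hu' hu0
    refine ⟨a, ?_, ha0, ?_⟩
    · show a ∈ (TT sg φ).Adm (rep ⟨0, by decide⟩)
      rw [a0]
      trivial
    · rw [hχ]
      exact ha

end Cfsg.Agent.Lib.Helper22DgConc
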