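import Cfsg.Agent.Lib.Helper22TwInst2
import Cfsg.Prelude.Def_LieTwisted

set_option autoImplicit false
set_option linter.unusedSectionVars false
set_option linter.unusedVariables false

/-! The twisted group of type `³D₄`: tables. -/

namespace Cfsg.Agent.Lib.Helper22TwD4

open Cfsg.Lie Cfsg.Lie.ChevalleyDatum Cfsg.Agent.Lib.Helper22ChevGr Cfsg.Agent.Lib.Helper22TwInst

def sz : Fin 2 → ℕ := ![1, 3]
def ia : Fin 2 → ℕ := ![1, 0]
def ib : Fin 2 → ℕ := ![1, 2]
def ic : Fin 2 → ℕ := ![1, 3]
def idx (j : Fin 2) (k : ℕ) : ℕ := if k % 3 = 0 then ia j else if k % 3 = 1 then ib j else ic j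

set_option maxRecDepth 100000 in
set_option synthInstance.maxSize 2000 in
set_option synthInstance.maxHeartbeats 400000 in
theorem tf : TF chevD4 gD4a gD4b sz idx where
  idx_lt j k := by
    unfold idx
    split_ifs
    · revert j; decide
    · revert j; decide
    · revert j; decide
  eta_s := by decide +kernel
  inv := by decide +kernel
  rho_p := by decide +kernel
  rho_pos := by decide +kernel
  idx_sz := by decide +kernel
  sz_pos := by decide +kernel
  p_inj := by decide +kernel
  cover := by decide +kernel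
  orth := by decide +kernel
  sub := by decide +kernel

def w0 : List (Fin 2) := [0, 1, 0, 1, 0, 1]

set_option maxRecDepth 100000 in
theorem w0_spec : ∀ r < chevD4.nroots, chevD4.nroots / 2 ≤ r → gvw chevD4 sz idx w0 r < chevD4.nroots / 2 := by
  decide +kernel

variable {K : Type*} [Field K]

theorem words_eq (φ : K ≃+* K) {q : ℕ} (hφ : ∀ t, φ t = t ^ q) (h3 : ∀ t, φ (φ (φ t)) = t) :
    words chevD4 sz idx φ = d4Words K q := by
  have h2 : ∀ t, t ^ (q ^ 2) = φ (φ t) := by
    intro t; rw [hφ, hφ, ← pow_mul, sq]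
  ext w
  constructor
  · rintro ⟨j, t, ht, h⟩
    fin_cases j
    · left
      refine ⟨t, by rw [← hφ]; exact ht, ?_⟩
      rcases h with rfl | rfl
      · exact ⟨d4p2, by simp, rfl⟩
      · exact ⟨d4m2, by simp, rfl⟩
    · right
      refine ⟨t, ?_⟩
      rcases h with rfl | rfl
      · exact ⟨(d4p1, d4p3, d4p4), by simp, by rw [h2, ← hφ]; rfl⟩
      · exact ⟨(d4m1, d4m3, d4m4), by simp, by rw [h2, ← hφ]; rfl⟩
  · rintro (⟨t, ht, r, hr, rfl⟩ | ⟨t, rs, hrs, rfl⟩)
    · simp only [List.mem_cons, List.not_mem_nil, or_false] at hr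
      have ht' : φ^[1] t = t := by rw [Function.iterate_one, hφ, ht]
      rcases hr with rfl | rfl
      · exact ⟨0, t, ht', Or.inl rfl⟩
      · exact ⟨0, t, ht', Or.inr rfl⟩
    · simp only [List.mem_cons, List.not_mem_nil, or_false] at hrs
      have ht' : φ^[3] t = t := h3 t
      rcases hrs with rfl | rfl
      · exact ⟨1, t, ht', Or.inl (by rw [h2, ← hφ]; rfl)⟩
      · exact ⟨1, t, ht', Or.inr (by rw [h2, ← hφ]; rfl)⟩

end Cfsg.Agent.Lib.Helper22TwD4
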