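import Cfsg.Agent.Lib.Helper22FxD
import Cfsg.Agent.Lib.Helper22TwD4
import Cfsg.Agent.Lib.Helper23All

set_option autoImplicit false
set_option linter.unusedSectionVars false
set_option linter.unusedVariables false
set_option maxHeartbeats 400000

/-! Fixed points of triality in `D₄(F)`. -/

namespace Cfsg.Agent.Lib.Helper22FxD4

open Cfsg.Lie Cfsg.Lie.ChevalleyDatum Cfsg.Agent.Lib.Helper22ChevGr Cfsg.Agent.Lib.Helper22TwInst
  Cfsg.Agent.Lib.Helper22Fx Cfsg.Agent.Lib.Helper22TwD4 Cfsg.Agent.Lib.Helper22ChevEngine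
  Cfsg.Agent.Lib.Helper22ChevWord Cfsg.Agent.Lib.Helper22ChevN Cfsg.Agent.Lib.Helper23Chev
  Cfsg.Agent.Lib.Helper22ChevBasic

def c : Fin 2 → ℕ := ![1, 0]
def M : Fin 2 → Fin 2 → ℤ := ![![2, 3], ![1, 2]]

set_option maxRecDepth 100000 in
theorem fo : Fold chevD4 chevG2 Helper22ChevTabD4.fd Helper22ChevTabG2.fd sz idx c iD4 lD4 where
  c0 := c0D4
  c_lt := by decide +kernel
  c_surj := by decide +kernel
  cx := by decide +kernel
  cy := by decide +kernel

set_option maxRecDepth 100000 in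
theorem uni : Uni chevD4 sz idx M := by
  unfold Uni
  decide +kernel

set_option maxRecDepth 100000 in
theorem nc : ∀ j j' : Fin 2, j ≠ j' →
    gv chevD4 sz idx j (gv chevD4 sz idx j' 14) ≠ gv chevD4 sz idx j' (gv chevD4 sz idx j 14) := by
  decide +kernel

set_option maxRecDepth 100000 in
theorem c1 : eqv (iOp iD4 11) [Tm.mk (chevD4.nroots - 1) 1 0 1] = true := by decide +kernel

set_option maxRecDepth 100000 in
theorem c2 : eqv (applyOp (iOp iD4) (wordOp Helper22ChevTabG2.fd nf (nWordV Helper22ChevTabG2.fd (c 0)) 11))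
    [Tm.mk 22 1 (1 - 0) 0] = true := by decide +kernel

theorem stdD4 : Std chevD4 := by simp
theorem stdG2 : Std chevG2 := by simp

variable {K : Type*} [Field K]

theorem conn : Conn (rg_ok (Helper23All.tab stdD4) (Helper23All.rel (F := K) stdD4))
    (td Helper22ChevTabD4.agree gTabD4a (Helper23All.tab stdD4) (Helper23All.rel (F := K) stdD4) (RingEquiv.refl K) tf) := by
  rintro J ⟨j, hj⟩ ⟨j', hj'⟩
  refine ⟨j, hj, j', hj', fun h => ?_⟩
  have hjj : j ≠ j' := by rintro rfl; exact hj' hj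
  have h1 := congrArg (fun π : Equiv.Perm (Fin chevD4.nroots) => (π ⟨14, by decide⟩).val) h
  simp only [Equiv.Perm.mul_apply, wJ_val] at h1
  exact nc j j' hjj h1

theorem main (Hs : Subgroup ↥(chevD4.group K))
    (hHs : ∀ g : ↥(chevD4.group K), g ∈ Hs ↔
      gU K Helper22ChevTabD4.agree gTabD4a * (g : GL chevD4.Idx K) * (gU K Helper22ChevTabD4.agree gTabD4a)⁻¹ = g) :
    Nonempty (↥Hs ≃* ↥(chevG2.group K)) :=
  fix_iso stdD4 Helper22ChevTabD4.agree gTabD4a (Helper23All.tab stdD4) (Helper23All.rel stdD4) tf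
    (Helper23All.cartanRefl stdD4) Helper22ChevTabG2.agree (Helper23All.tab stdG2) (Helper23All.rel stdG2) fo
    uni conn w0 w0_spec 0 11 22 0 1 0 (by decide) (by decide) (by decide) (by decide) c1 c2 (by decide) Hs hHs

end Cfsg.Agent.Lib.Helper22FxD4
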