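import Cfsg.Agent.Lib.Helper22GrMain

set_option autoImplicit false
set_option maxHeartbeats 4000000

/-! PROJECT 1098: the table of `B₂` and the two graph automorphisms. -/

namespace Cfsg.Agent.Lib.Helper22GrB2

open Cfsg.Lie Cfsg.Lie.ChevalleyDatum Cfsg.Agent.Lib.Helper22ChevGr Cfsg.Agent.Lib.Helper22Iso

set_option maxRecDepth 100000 in
theorem ptabB2 : PTab chevB2 Helper22ChevTabB2.fd pB2 where
  c1 := c1B2
  c2 := c2B2
  inv := by decide +kernel
  flip := by decide +kernel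
  pos := by decide +kernel
  neg := by decide +kernel
  wit := by decide +kernel

variable {K : Type*} [Field K]

theorem graphB2 (h2 : (2 : K) = 0) (hperf : ∀ x : K, ∃ y : K, y ^ 2 = x) :
    ∃ α : ↥(chevB2.group K) ≃* ↥(chevB2.group K), ∀ (g : ↥(chevB2.group K)) (s : ℕ) (t : K), s < chevB2.nroots →
      ((g : GL chevB2.Idx K) : Matrix chevB2.Idx chevB2.Idx K) = chevB2.x K s t →
        ((α g : GL chevB2.Idx K) : Matrix chevB2.Idx chevB2.Idx K) = chevB2.x K (gW pB2 s) (t ^ lam pB2 s) := by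
  have hD : chevB2 ∈ [chevG2, chevB2, chevD4, chevF4, chevE6, chevE7, chevE8] := by simp
  by_cases hK : ∃ a : K, a ≠ 0 ∧ a ≠ 1
  · exact LeadF4Graph.exists_graph' Helper22ChevTabB2.agree ptabB2 (Helper23All.tab hD) (Helper23All.rel hD) h2 hperf
      (Helper23All.simple hD (fun _ => hK)).1
  · have hK' : ∀ x : K, x = 0 ∨ x = 1 := by
      intro x
      by_contra h
      push_neg at h
      exact hK ⟨x, h.1, h.2⟩
    obtain ⟨n2, n1⟩ := Helper22GrMain.N_bot Helper22ChevTabB2.agree ptabB2 (Helper23All.tab hD) (Helper23All.rel hD) h2 hD hK'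
      hperf
    exact Helper22GrMain.exists_graph2 Helper22ChevTabB2.agree ptabB2 (Helper23All.tab hD) (Helper23All.rel hD) h2 hperf n2 n1

set_option maxRecDepth 100000 in
theorem mapB2 : ∀ i < chevB2.rank, gW pB2 (chevB2.simple i) = chevB2.simple (([(1, 2), (0, 1)] : List (ℕ × ℕ)).getD i (0, 1)).1 ∧ lam pB2 (chevB2.simple i) = (([(1, 2), (0, 1)] : List (ℕ × ℕ)).getD i (0, 1)).2 ∧ gW pB2 (chevB2.neg (chevB2.simple i)) = chevB2.neg (chevB2.simple (([(1, 2), (0, 1)] : List (ℕ × ℕ)).getD i (0, 1)).1) ∧ lam pB2 (chevB2.neg (chevB2.simple i)) = (([(1, 2), (0, 1)] : List (ℕ × ℕ)).getD i (0, 1)).2 ∧ chevB2.simple i < chevB2.nroots ∧ chevB2.neg (chevB2.simple i) < chevB2.nroots := by decide +kernel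

set_option maxRecDepth 100000 in
theorem mapF4 : ∀ i < chevF4.rank, gW pF4 (chevF4.simple i) = chevF4.simple (([(3, 2), (2, 2), (1, 1), (0, 1)] : List (ℕ × ℕ)).getD i (0, 1)).1 ∧ lam pF4 (chevF4.simple i) = (([(3, 2), (2, 2), (1, 1), (0, 1)] : List (ℕ × ℕ)).getD i (0, 1)).2 ∧ gW pF4 (chevF4.neg (chevF4.simple i)) = chevF4.neg (chevF4.simple (([(3, 2), (2, 2), (1, 1), (0, 1)] : List (ℕ × ℕ)).getD i (0, 1)).1) ∧ lam pF4 (chevF4.neg (chevF4.simple i)) = (([(3, 2), (2, 2), (1, 1), (0, 1)] : List (ℕ × ℕ)).getD i (0, 1)).2 ∧ chevF4.simple i < chevF4.nroots ∧ chevF4.neg (chevF4.simple i) < chevF4.nroots := by decide +kernel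

end Cfsg.Agent.Lib.Helper22GrB2
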