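import Cfsg.Agent.Lib.Helper22SlHom
import Cfsg.Agent.Lib.H22SlBase
import Cfsg.Agent.Lib.H22SlStep
import Cfsg.Agent.Lib.H22SlConcA
import Cfsg.Agent.Lib.H22SlConcH
import Cfsg.Agent.Lib.H22SlConcE

set_option autoImplicit false

/-! PROJECT 1030: assembly. -/

namespace Cfsg.Agent.Lib.Helper22SlMain

open Matrix Subgroup Cfsg.Lie Cfsg.Lie.ChevalleyDatum Cfsg.Agent.Lib.Helper43R1 Cfsg.Agent.Lib.H22SlDefs
  Cfsg.Agent.Lib.Helper23RG Cfsg.Agent.Lib.Helper23Chev Cfsg.Agent.Lib.Helper23Table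

section abstract

variable {𝔾 F R I : Type*} [Group 𝔾] [Field F] {S : RG 𝔾 F R I}

/-- the rank one data of a good root -/
def r1 (ok : S.Ok) (r : R) (h : Good S r) : R1 F 𝔾 where
  x := S.x r
  y := S.x (S.neg r)
  xadd := ok.x_add r
  yadd := ok.x_add (S.neg r)
  bx := h.1

theorem r1_hmul (ok : S.Ok) (r : R) (h : Good S r) : HMul (r1 ok r h) := h.2

theorem good_all (ok : S.Ok) (hη : ∀ i, S.η i (S.simple i) = -1) (hA : ∀ i, S.A i (S.simple i) = 2)
    (hh : ∀ i, ∀ t u : F, t ≠ 0 → u ≠ 0 → S.hE (S.simple i) (t * u) = S.hE (S.simple i) t * S.hE (S.simple i) u) :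
    ∀ r, Good S r :=
  ok.reach _ (fun i => H22SlBase.good_simple ok i (hη i) (hA i) (hh i)) (fun i r h => H22SlStep.good_refl ok i r h)

end abstract

variable {F : Type*} [Field F] {D : ChevalleyDatum}

theorem main (hD : D ∈ [chevG2, chevB2, chevD4, chevF4, chevE6, chevE7, chevE8]) (r : ℕ) (hr : r < D.nroots) :
    ∃ φ : Matrix.SpecialLinearGroup (Fin 2) F →* GL D.Idx F,
      φ.range = D.rootSubgroup F r ⊔ D.rootSubgroup F (D.neg r) ∧
      ∀ (g : Matrix.SpecialLinearGroup (Fin 2) F) (t : F),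
        ((g : Matrix (Fin 2) (Fin 2) F) = !![1, t; 0, 1] → ((φ g : GL D.Idx F) : Matrix D.Idx D.Idx F) = D.x F r t) ∧
        ((g : Matrix (Fin 2) (Fin 2) F) = !![1, 0; t, 1] → ((φ g : GL D.Idx F) : Matrix D.Idx D.Idx F) = D.x F (D.neg r) t) := by
  have hT : TableOK D := Helper23All.tab hD
  have hR : Rel D F := Helper23All.rel hD
  have ok := rg_ok hT hR
  have hgood := good_all ok (fun i => H22SlConcE.η_simple hD hT hR i) (fun i => H22SlConcA.A_simple hD hT hR i)
    (fun i t u ht hu => H22SlConcH.hE_mul hT hR i t u ht hu) ⟨r, hr⟩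
  obtain ⟨f, hx, hy, hrange⟩ := Helper22SlHom.r1_hom_gen (r1 ok ⟨r, hr⟩ hgood) (r1_hmul ok ⟨r, hr⟩ hgood)
  refine ⟨f, ?_, ?_⟩
  · rw [hrange, Subgroup.closure_union]
    have e1 : D.rootSubgroup F r = closure (Set.range (r1 ok ⟨r, hr⟩ hgood).x) := by
      unfold rootSubgroup
      congr 1
      ext g
      constructor
      · rintro ⟨t, ht⟩
        exact ⟨t, Units.ext ((coe_xg hR r t).trans ht.symm)⟩
      · rintro ⟨t, rfl⟩
        exact ⟨t, coe_xg hR r t⟩
    have e2 : D.rootSubgroup F (D.neg r) = closure (Set.range (r1 ok ⟨r, hr⟩ hgood).y) := by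
      unfold rootSubgroup
      congr 1
      ext g
      constructor
      · rintro ⟨t, ht⟩
        exact ⟨t, Units.ext ((coe_xg hR (D.neg r) t).trans ht.symm)⟩
      · rintro ⟨t, rfl⟩
        exact ⟨t, coe_xg hR (D.neg r) t⟩
    rw [e1, e2]
  · intro g t
    constructor
    · intro hg
      rw [hx t g hg]
      exact coe_xg hR r t
    · intro hg
      rw [hy t g hg]
      exact coe_xg hR (D.neg r) t

end Cfsg.Agent.Lib.Helper22SlMain
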