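import Cfsg.Agent.Lib.LeadF4Graph
import Cfsg.Agent.Lib.Helper22GrBN
import Cfsg.Agent.Lib.H22GrP2
import Cfsg.Agent.Lib.H22GrOrd
import Cfsg.Agent.Lib.H22GrWit
import Cfsg.Agent.Lib.Helper22SlMain

set_option autoImplicit false
set_option linter.unusedSectionVars false
set_option linter.unusedVariables false

/-! PROJECT 1098: the exceptional graph automorphisms in characteristic 2, also for `B₂(F₂)`. -/

namespace Cfsg.Agent.Lib.Helper22GrMain

open Subgroup Cfsg.Lie Cfsg.Lie.ChevalleyDatum Cfsg.Agent.Lib.Helper22ChevEngine Cfsg.Agent.Lib.Helper22ChevFast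
  Cfsg.Agent.Lib.Helper22ChevBasic Cfsg.Agent.Lib.Helper22ChevGr Cfsg.Agent.Lib.Helper23Chev
  Cfsg.Agent.Lib.Helper23Table Cfsg.Agent.Lib.Helper23RG Cfsg.Agent.Lib.Helper23RG.RG Cfsg.Agent.Lib.Helper22Iso
  Cfsg.Agent.Lib.LeadF4Graph

variable {K : Type*} [Field K] {D : ChevalleyDatum} {P : FD} {pT : ℕ}

/-- over the field with two elements a normal subgroup missing an element of order 3 is trivial -/
theorem normal_bot (hD : D ∈ [chevG2, chevB2, chevD4, chevF4, chevE6, chevE7, chevE8]) (hK : ∀ x : K, x = 0 ∨ x = 1)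
    (N : Subgroup ↥(D.group K)) (hN : N.Normal) (g : ↥(D.group K)) (hg3 : g ^ 3 = 1) (hgN : g ∉ N) : N = ⊥ := by
  have hT := Helper23All.tab hD
  have hR := Helper23All.rel (F := K) hD
  obtain ⟨B, hB, hNN, hS⟩ := Helper23Chev.exists_bn hT hR
  by_cases hNB : N ≤ B.B
  · have := (Subgroup.normal_le_normalCore (H := B.B) (N := N)).2 hNB
    rw [hB, Helper23Simp2.s1051 hT hR (Helper23All.cartanRefl hD) (Helper23All.hasN0 hD hT hR)] at this
    exact le_bot_iff.1 this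
  · exfalso
    have htop := Helper22GrBN.sup_eq_top B (Helper23Simp2.irreducible hT hR B hB hS (Helper23All.connected hD)) N hN hNB
    have hg : g ∈ B.B ⊔ N := by rw [htop]; trivial
    obtain ⟨b, hb, n, hn, e⟩ := Subgroup.mem_sup_of_normal_right.1 hg
    rw [hB] at hb
    obtain ⟨k, hk⟩ := H22GrP2.B_pow hD hK b.1 hb
    have hk' : b ^ (2 ^ k) = 1 := Subtype.ext hk
    have e1 : (QuotientGroup.mk' N) g = (QuotientGroup.mk' N) b := by
      have hn1 : (QuotientGroup.mk' N) n = 1 := (QuotientGroup.eq_one_iff n).2 hn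
      rw [← e, map_mul, hn1, mul_one]
    have h1 : orderOf ((QuotientGroup.mk' N) g) ∣ 3 := orderOf_dvd_of_pow_eq_one (by rw [← map_pow, hg3, map_one])
    have h2 : orderOf ((QuotientGroup.mk' N) g) ∣ 2 ^ k :=
      orderOf_dvd_of_pow_eq_one (by rw [e1, ← map_pow, hk', map_one])
    have hc : Nat.gcd 3 (2 ^ k) = 1 := Nat.Coprime.pow_right k (by norm_num)
    have h3 := Nat.dvd_gcd h1 h2
    rw [hc, Nat.dvd_one, orderOf_eq_one_iff] at h3
    exact hgN ((QuotientGroup.eq_one_iff g).1 h3)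

variable (hA : Agree D P) (hP : PTab D P pT) (hT : TableOK D) (hR : Rel D K) (h2 : (2 : K) = 0)

/-- the elements acting trivially modulo the kernel of `Π` -/
def N1 (G : Subgroup (GL D.Idx K)) (pT : ℕ) : Subgroup ↥G where
  carrier := {g | pMat K D pT * g.1.val = pMat K D pT}
  one_mem' := by simp
  mul_mem' {a b} ha hb := by
    show _ * (a.1 * b.1 : GL D.Idx K).val = _
    rw [Units.val_mul, ← mul_assoc, ha, hb]
  inv_mem' {a} ha := by
    show _ * (a.1⁻¹ : GL D.Idx K).val = _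
    have h : pMat K D pT * a.1.val = pMat K D pT := ha
    conv_lhs => rw [← h]
    rw [mul_assoc, ← Units.val_mul, mul_inv_cancel, Units.val_one, mul_one]

include hA hP hR h2 in
theorem N1_normal : (N1 (K := K) (rg hT hR).G pT).Normal := by
  constructor
  intro n hn g
  obtain ⟨g0, _, h0⟩ := ex_right hA hP hT hR h2 g.1 g.2
  have h0' := R0_inv h0
  unfold R0 at h0 h0'
  have hn' : pMat K D pT * n.1.val = pMat K D pT := hn
  show _ * (g.1 * n.1 * g.1⁻¹ : GL D.Idx K).val = _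
  rw [Units.val_mul, Units.val_mul, ← mul_assoc, ← mul_assoc, h0, mul_assoc g0.val, hn', mul_assoc, h0', ← mul_assoc,
    ← Units.val_mul, mul_inv_cancel, Units.val_one, one_mul]

theorem func' (hN2 : N2 (K := K) (rg hT hR).G pT = ⊥) {g a b : GL D.Idx K}
    (ha : R0 K D pT g a) (hb : R0 K D pT g b) (haG : a ∈ (rg hT hR).G) (hbG : b ∈ (rg hT hR).G) : a = b := by
  have h1 : a.val * pMat K D pT = b.val * pMat K D pT := by
    have ha' : pMat K D pT * _ = a.val * pMat K D pT := ha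
    have hb' : pMat K D pT * _ = b.val * pMat K D pT := hb
    rw [← ha', hb']
  have h3 : (⟨b⁻¹ * a, mul_mem (inv_mem hbG) haG⟩ : ↥(rg hT hR).G) ∈ N2 (K := K) (rg hT hR).G pT := by
    show (b⁻¹ * a : GL D.Idx K).val * _ = _
    rw [Units.val_mul, mul_assoc, h1, ← mul_assoc, ← Units.val_mul, inv_mul_cancel, Units.val_one, one_mul]
  rw [hN2, mem_bot] at h3
  have h4 : b⁻¹ * a = 1 := congrArg Subtype.val h3
  exact (inv_mul_eq_one.1 h4).symm

include hA hP hR h2 in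
theorem exists_graph1 (hperf : ∀ x : K, ∃ y : K, y ^ 2 = x) (hN2 : N2 (K := K) (rg hT hR).G pT = ⊥)
    (hN1 : N1 (K := K) (rg hT hR).G pT = ⊥) :
    ∃ α : ↥(rg hT hR).G ≃* ↥(rg hT hR).G, ∀ g, R0 K D pT g.1 (α g).1 := by
  choose f hf1 hf2 using ex_right hA hP hT hR h2
  let φ : ↥(rg hT hR).G →* ↥(rg hT hR).G :=
    { toFun := fun g => ⟨f g.1 g.2, hf1 g.1 g.2⟩
      map_one' := by
        apply Subtype.ext
        exact func' hT hR hN2 (hf2 _ _) R0_one (hf1 _ _) (one_mem _)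
      map_mul' := by
        intro a b
        apply Subtype.ext
        exact func' hT hR hN2 (hf2 _ _) (R0_mul (hf2 a.1 a.2) (hf2 b.1 b.2)) (hf1 _ _)
          (mul_mem (hf1 _ _) (hf1 _ _)) }
  have hφ : ∀ g, R0 K D pT g.1 (φ g).1 := fun g => hf2 g.1 g.2
  have hsurj : Function.Surjective φ := by
    intro g'
    obtain ⟨g, hg, h⟩ := ex_left hA hP hT hR h2 hperf g'.1 g'.2
    refine ⟨⟨g, hg⟩, Subtype.ext ?_⟩
    exact func' hT hR hN2 (hφ ⟨g, hg⟩) h (φ ⟨g, hg⟩).2 g'.2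
  have hinj : Function.Injective φ := by
    rw [injective_iff_map_eq_one]
    intro g hg
    have h := hφ g
    rw [hg] at h
    have h' : g ∈ N1 (K := K) (rg hT hR).G pT := by
      show pMat K D pT * g.1.val = pMat K D pT
      have : pMat K D pT * g.1.val = (1 : GL D.Idx K).val * pMat K D pT := h
      rw [this, Units.val_one, one_mul]
    rw [hN1, mem_bot] at h'
    exact h'
  exact ⟨MulEquiv.ofBijective φ ⟨hinj, hsurj⟩, hφ⟩

include hA hP hT hR h2 in
theorem exists_graph2 (hperf : ∀ x : K, ∃ y : K, y ^ 2 = x) (hN2 : N2 (K := K) (rg hT hR).G pT = ⊥)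
    (hN1 : N1 (K := K) (rg hT hR).G pT = ⊥) :
    ∃ α : ↥(D.group K) ≃* ↥(D.group K), ∀ (g : ↥(D.group K)) (s : ℕ) (t : K), s < D.nroots →
      ((g : GL D.Idx K) : Matrix D.Idx D.Idx K) = D.x K s t →
        ((α g : GL D.Idx K) : Matrix D.Idx D.Idx K) = D.x K (gW pT s) (t ^ lam pT s) := by
  have hG : (rg hT hR).G = D.group K := G_eq hT hR
  obtain ⟨G', hG'⟩ : ∃ G', G' = D.group K := ⟨_, rfl⟩
  rw [← hG'] at hG ⊢
  subst hG
  obtain ⟨α, hα⟩ := exists_graph1 hA hP hT hR h2 hperf hN2 hN1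
  refine ⟨α, fun g s t hs' hg => ?_⟩
  have e : (g : GL D.Idx K) = (rg hT hR).x ⟨s, hs'⟩ t := by
    apply Units.ext
    rw [hg]
    exact (coe_xg hR s t).symm
  have h1 := hα g
  rw [e] at h1
  have h3 := func' hT hR hN2 h1 (piso' hA hP hT hR h2 ⟨s, hs'⟩ t) (α g).2 (x_mem_G _ _)
  rw [h3]
  exact coe_xg hR _ _

/-- the element of order 3 -/
noncomputable def g3 (hT : TableOK D) (hR : Rel D K) (r : Fin D.nroots) : GL D.Idx K :=
  (rg hT hR).x r 1 * (rg hT hR).x ((rg hT hR).neg r) (-1)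

theorem g3_mem (r : Fin D.nroots) : g3 hT hR r ∈ (rg hT hR).G := mul_mem (x_mem_G _ _) (x_mem_G _ _)

include h2 in
theorem g3_cube (hD : D ∈ [chevG2, chevB2, chevD4, chevF4, chevE6, chevE7, chevE8]) (r : Fin D.nroots) :
    g3 hT hR r ^ 3 = 1 := by
  have ok := rg_ok hT hR
  have hgood := Helper22SlMain.good_all ok (fun i => H22SlConcE.η_simple hD hT hR i)
    (fun i => H22SlConcA.A_simple hD hT hR i) (fun i t u ht hu => H22SlConcH.hE_mul hT hR i t u ht hu) r
  exact H22GrOrd.r1_cube (Helper22SlMain.r1 ok r hgood) (Helper22SlMain.r1_hmul ok r hgood) h2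

theorem normal_bot' (hD : D ∈ [chevG2, chevB2, chevD4, chevF4, chevE6, chevE7, chevE8]) (hK : ∀ x : K, x = 0 ∨ x = 1)
    (N : Subgroup ↥(rg hT hR).G) (hN : N.Normal) (g : ↥(rg hT hR).G) (hg3 : g ^ 3 = 1) (hgN : g ∉ N) : N = ⊥ := by
  have hG : (rg hT hR).G = D.group K := G_eq hT hR
  have key := normal_bot (K := K) hD hK
  rw [← hG] at key
  exact key N hN g hg3 hgN

include hA hP h2 in
theorem N_bot (hD : D ∈ [chevG2, chevB2, chevD4, chevF4, chevE6, chevE7, chevE8]) (hK : ∀ x : K, x = 0 ∨ x = 1)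
    (hperf : ∀ x : K, ∃ y : K, y ^ 2 = x) :
    N2 (K := K) (rg hT hR).G pT = ⊥ ∧ N1 (K := K) (rg hT hR).G pT = ⊥ := by
  obtain ⟨i, hi, h0, i', hi', h1, h3⟩ := hP.wit
  have hw := H22GrWit.wit (K := K) (pT := pT) hT hR i i' hi hi' h0 h1 h3
  constructor
  · refine normal_bot' hT hR hD hK _ (N2_normal hA hP hT hR h2 hperf)
      ⟨g3 hT hR ((rg hT hR).simple ⟨i', hi'⟩), g3_mem hT hR _⟩ (Subtype.ext (g3_cube hT hR h2 hD _)) ?_
    intro hm
    exact hw hm
  · refine normal_bot' hT hR hD hK _ (N1_normal hA hP hT hR h2)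
      ⟨g3 hT hR ((rg hT hR).simple ⟨i, hi⟩), g3_mem hT hR _⟩ (Subtype.ext (g3_cube hT hR h2 hD _)) ?_
    intro hm
    apply hw
    have hm' : pMat K D pT * (g3 hT hR ((rg hT hR).simple ⟨i, hi⟩)).val = pMat K D pT := hm
    have a1 := piso' hA hP hT hR h2 ((rg hT hR).simple ⟨i, hi⟩) 1
    have a2 := piso' hA hP hT hR h2 ((rg hT hR).neg ((rg hT hR).simple ⟨i, hi⟩)) (-1)
    have l1 : lam pT ((rg hT hR).simple ⟨i, hi⟩).val = 1 := by
      show lam pT (D.simple i) = 1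
      unfold lam; rw [h0]
    have l2 : lam pT ((rg hT hR).neg ((rg hT hR).simple ⟨i, hi⟩)).val = 1 := by
      show lam pT (D.neg (D.simple i)) = 1
      unfold lam; rw [(hP.neg _ (hT.simple_lt i hi)).2, h0]
    simp only [l1, l2, pow_one] at a1 a2
    have f1 : (⟨gW pT ((rg hT hR).simple ⟨i, hi⟩).val,
        (piso (F := K) hA hP.c1 hP.c2 h2 ((rg hT hR).simple ⟨i, hi⟩).val ((rg hT hR).simple ⟨i, hi⟩).2 0).1⟩ :
        Fin D.nroots) = (rg hT hR).simple ⟨i', hi'⟩ := Fin.ext h1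
    have f2 : (⟨gW pT ((rg hT hR).neg ((rg hT hR).simple ⟨i, hi⟩)).val,
        (piso (F := K) hA hP.c1 hP.c2 h2 ((rg hT hR).neg ((rg hT hR).simple ⟨i, hi⟩)).val
          ((rg hT hR).neg ((rg hT hR).simple ⟨i, hi⟩)).2 0).1⟩ :
        Fin D.nroots) = (rg hT hR).neg ((rg hT hR).simple ⟨i', hi'⟩) := by
      apply Fin.ext
      show gW pT (D.neg (D.simple i)) = D.neg (D.simple i')
      rw [(hP.neg _ (hT.simple_lt i hi)).1, h1]
    rw [f1] at a1
    rw [f2] at a2
    rw [Units.val_mul, mul_assoc, ← a2, ← mul_assoc, ← a1, mul_assoc, ← Units.val_mul]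
    exact hm'

end Cfsg.Agent.Lib.Helper22GrMain
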