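import Cfsg.Agent.Lib.Helper22TqC
import Cfsg.Agent.Lib.LeadTwDefs

set_option autoImplicit false
set_option linter.unusedSectionVars false
set_option linter.unusedVariables false

/-! From a twisted datum `TQ` with a labelling of the classes of roots to helper23's subgroup-level root group datum `TG`. -/

namespace Cfsg.Agent.Lib.Helper22RoA

open Subgroup Cfsg.Agent.Lib.Helper23Grp Cfsg.Agent.Lib.Helper23Weyl Cfsg.Agent.Lib.Helper23RG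
  Cfsg.Agent.Lib.Helper23RG.RG Cfsg.Agent.Lib.Helper22TwSB Cfsg.Agent.Lib.Helper22ChevBruhat
  Cfsg.Agent.Lib.Helper22Tq Cfsg.Agent.Lib.Helper23TG

variable {𝔾 F R I I1 R1 : Type*} [Group 𝔾] [Field F]

/-- a labelling of the classes of roots -/
structure CL (R R1 I1 : Type*) where
  cls : R → R1
  neg1 : R1 → R1
  pos1 : R1 → Prop
  simple1 : I1 → R1
  refl1 : I1 → R1 → R1

structure CL.Ok (C : CL R R1 I1) (S : RG 𝔾 F R I) (T : TQ S I1) : Prop where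
  cls_neg : ∀ r, C.cls (S.neg r) = C.neg1 (C.cls r)
  cls_pos : ∀ r, C.pos1 (C.cls r) ↔ S.pos r
  cls_simple : ∀ j r, C.cls r = C.simple1 j ↔ T.ΦJ j r
  cls_refl : ∀ j r, C.cls (T.wJ j r) = C.refl1 j (C.cls r)
  neg_neg : ∀ r, C.neg1 (C.neg1 r) = r
  pos_neg : ∀ r, C.pos1 (C.neg1 r) ↔ ¬ C.pos1 r
  pos_simple : ∀ i, C.pos1 (C.simple1 i)
  simple_inj : ∀ i j, C.simple1 i = C.simple1 j → i = j
  refl_refl : ∀ i r, C.refl1 i (C.refl1 i r) = r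
  refl_simple : ∀ i, C.refl1 i (C.simple1 i) = C.neg1 (C.simple1 i)
  refl_neg : ∀ i r, C.refl1 i (C.neg1 r) = C.neg1 (C.refl1 i r)
  refl_pos : ∀ i r, C.pos1 r → r ≠ C.simple1 i → C.pos1 (C.refl1 i r)
  reach : ∀ (P : R1 → Prop), (∀ i, P (C.simple1 i)) → (∀ i r, P r → P (C.refl1 i r)) → ∀ r, P r

variable {S : RG 𝔾 F R I} {T : TQ S I1} (ok : S.Ok) (hBV : ∀ g ∈ S.B, g ∈ S.V → g = 1)
  (hUN : ∀ g ∈ S.U, g ∈ S.N → g = 1)
  {rf : R → R → R} {pr : R → R → ℤ} (hW : (ws ok rf pr).Ok) (tk : T.Ok ((ws ok rf pr).WJ Set.univ))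
  [Fintype R] [DecidableEq R] (C : CL R R1 I1)

/-- the subgroup-level datum -/
noncomputable def tg : TG 𝔾 R1 I1 where
  neg := C.neg1
  pos := C.pos1
  simple := C.simple1
  refl := C.refl1
  XS Ψ := S.XS (fun r => Ψ (C.cls r)) ⊓ T.G1
  H := S.H ⊓ T.G1
  nn := TQ.nJ ok hBV hUN hW tk

variable {C} (hC : C.Ok S T)

include hC in
theorem U_eq : (tg ok hBV hUN hW tk C).U = S.U ⊓ T.G1 := by
  show S.XS (fun r => C.pos1 (C.cls r)) ⊓ T.G1 = S.XS S.pos ⊓ T.G1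
  congr 2
  funext r
  exact propext (hC.cls_pos r)

include hC in
theorem V_eq : (tg ok hBV hUN hW tk C).V = S.V ⊓ T.G1 := by
  show S.XS (fun r => ¬ C.pos1 (C.cls r)) ⊓ T.G1 = S.XS (fun r => ¬ S.pos r) ⊓ T.G1
  congr 2
  funext r
  rw [hC.cls_pos r]

include hC in
theorem Ui_eq (j : I1) : (tg ok hBV hUN hW tk C).Ui j = S.XS (T.ΨJ j) ⊓ T.G1 := by
  show S.XS (fun r => C.pos1 (C.cls r) ∧ C.cls r ≠ C.simple1 j) ⊓ T.G1 = S.XS (T.ΨJ j) ⊓ T.G1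
  congr 2
  funext r
  unfold TQ.ΨJ
  rw [hC.cls_pos r, ne_eq, hC.cls_simple j r]

include hC in
theorem X_eq (j : I1) : (tg ok hBV hUN hW tk C).X (C.simple1 j) = S.XS (T.ΦJ j) ⊓ T.G1 := by
  show S.XS (fun r => C.cls r = C.simple1 j) ⊓ T.G1 = S.XS (T.ΦJ j) ⊓ T.G1
  congr 2
  funext r
  exact propext (hC.cls_simple j r)

include hC in
theorem Y_eq (j : I1) : (tg ok hBV hUN hW tk C).X (C.neg1 (C.simple1 j)) = S.XS (T.ΦN j) ⊓ T.G1 := by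
  show S.XS (fun r => C.cls r = C.neg1 (C.simple1 j)) ⊓ T.G1 = S.XS (T.ΦN j) ⊓ T.G1
  congr 2
  funext r
  apply propext
  unfold TQ.ΦN
  rw [← hC.cls_simple j, hC.cls_neg]
  constructor
  · intro h; rw [h, hC.neg_neg]
  · intro h; rw [← h, hC.neg_neg]

theorem H_eq : (tg ok hBV hUN hW tk C).H = S.H ⊓ T.G1 := rfl

theorem K_le : (tg ok hBV hUN hW tk C).K ≤ S.N ⊓ T.G1 := by
  unfold TG.K
  rw [closure_le]
  rintro _ ⟨i, rfl⟩
  exact TQ.nJ_mem ok hBV hUN hW tk i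

theorem N_le : (tg ok hBV hUN hW tk C).N ≤ S.N ⊓ T.G1 :=
  sup_le (inf_le_inf_right _ H_le_N) (K_le ok hBV hUN hW tk)

include hC in
theorem B_le : (tg ok hBV hUN hW tk C).B ≤ S.B ⊓ T.G1 := by
  unfold TG.B
  rw [U_eq ok hBV hUN hW tk hC]
  exact sup_le (inf_le_inf_right _ U_le_B) (inf_le_inf_right _ H_le_B)

include hC in
theorem tg_ok : (tg ok hBV hUN hW tk C).Ok where
  neg_neg := hC.neg_neg
  pos_neg := hC.pos_neg
  pos_simple := hC.pos_simple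
  simple_inj := hC.simple_inj
  refl_refl := hC.refl_refl
  refl_simple := hC.refl_simple
  refl_neg := hC.refl_neg
  refl_pos := hC.refl_pos
  reach := hC.reach
  XS_mono Ψ Ψ' h := inf_le_inf_right _ (XS_mono (fun r hr => h _ hr))
  U_eq j u hu := by
    rw [U_eq ok hBV hUN hW tk hC] at hu
    obtain ⟨a, ha, x, hx, e⟩ := TQ.split ok tk j hu
    refine ⟨a, ?_, x, ?_, e⟩
    · rw [Ui_eq ok hBV hUN hW tk hC]; exact ha
    · exact (X_eq ok hBV hUN hW tk hC j).symm ▸ hx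
  H_XS Ψ h hh u hu :=
    ⟨conj_mem_of_mem_normalizer (H_le_normalizer_XS ok _ hh.1) hu.1, TQ.cG hh.2 hu.2⟩
  n_XS j Ψ Ψ' h g hg := by
    refine ⟨(TQ.nJ_mon ok hBV hUN hW tk j).conj_XS ?_ g hg.1, TQ.cG (TQ.nJ_mem ok hBV hUN hW tk j).2 hg.2⟩
    intro r hr
    rw [hC.cls_refl]
    exact h _ hr
  nn_sq j := (TQ.sb_ok ok hBV hUN hW tk).n_sq j
  nn_H j := (TQ.sb_ok ok hBV hUN hW tk).n_H j
  rank_one j g hg hne := by
    have hg' : g ∈ S.XS (T.ΦN j) ⊓ T.G1 := (Y_eq ok hBV hUN hW tk hC j) ▸ hg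
    obtain ⟨x₁, h1, m, hm, hMm, x₂, h2, e⟩ := TQ.rank1 ok hBV hUN hW tk j hg'.1 hg'.2 hne
    have hn := TQ.nJ_mem ok hBV hUN hW tk j
    have hM := TQ.nJ_mon ok hBV hUN hW tk j
    refine ⟨x₁, (X_eq ok hBV hUN hW tk hC j).symm ▸ h1, m * (TQ.nJ ok hBV hUN hW tk j)⁻¹,
      ⟨?_, T.G1.mul_mem hm.2 (T.G1.inv_mem hn.2)⟩, x₂, (X_eq ok hBV hUN hW tk hC j).symm ▸ h2, ?_⟩
    · apply mem_H_of_Mon_one ok hBV hUN (mul_mem hm.1 (inv_mem hn.1))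
      have := hMm.mul hM.inv
      rwa [mul_inv_cancel] at this
    · show g = x₁ * (m * (TQ.nJ ok hBV hUN hW tk j)⁻¹ * TQ.nJ ok hBV hUN hW tk j) * x₂
      rw [e]; group
  X_ne j := by
    obtain ⟨x, hx, hne⟩ := (TQ.sb_ok ok hBV hUN hW tk).XJ_ne j
    exact ⟨x, (X_eq ok hBV hUN hW tk hC j).symm ▸ hx, hne⟩
  hBV g hg hv := by
    rw [V_eq ok hBV hUN hW tk hC] at hv
    exact hBV g (B_le ok hBV hUN hW tk hC hg).1 hv.1
  hUN g hg hn := by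
    rw [U_eq ok hBV hUN hW tk hC] at hg
    exact hUN g hg.1 (N_le ok hBV hUN hW tk hn).1

include hC in
theorem G_eq : (tg ok hBV hUN hW tk C).G = T.G1 := by
  rw [← TQ.L_eq ok hBV hUN hW tk]
  unfold TG.G SB.L TG.B SB.B0 TG.N SB.N0
  rw [U_eq ok hBV hUN hW tk hC]
  have : (tg ok hBV hUN hW tk C).K = (TQ.sb ok hBV hUN hW tk).K0 := by
    unfold TG.K SB.K0
    congr 1
    ext g
    constructor
    · rintro ⟨i, rfl⟩; exact ⟨i, rfl⟩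
    · rintro ⟨i, rfl⟩; exact ⟨i, rfl⟩
  rw [this]
  rfl

include hC in
theorem nUi (j : I1) : (tg ok hBV hUN hW tk C).X ((tg ok hBV hUN hW tk C).simple j) ≤
    normalizer ((tg ok hBV hUN hW tk C).Ui j : Set 𝔾) := by
  intro x hx
  have hx' : x ∈ S.XS (T.ΦJ j) ⊓ T.G1 := (X_eq ok hBV hUN hW tk hC j) ▸ hx
  rw [Ui_eq ok hBV hUN hW tk hC]
  have sk := TQ.sb_ok ok hBV hUN hW tk
  apply mem_normalizer_of_conj (sk.X_UJ j x hx')
  intro a ha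
  have := sk.X_UJ j x⁻¹ (inv_mem hx') a ha
  rwa [inv_inv] at this

end Cfsg.Agent.Lib.Helper22RoA
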