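import Cfsg.Agent.Lib.LeadTwDefs3
import Cfsg.Agent.S0311

set_option autoImplicit false
set_option linter.unusedVariables false
set_option linter.unusedSectionVars false

/-! PROJECT 101 (TW-AUT), PART I : pieces I2, I16. -/

namespace Cfsg.Agent.Lib.Helper67TwI

open Subgroup Cfsg.Agent.Lib.Helper23Grp Cfsg.Agent.Lib.Helper23RG Cfsg.Agent.Lib.Helper23TG
  Cfsg.Agent.Lib.Helper23Tw Cfsg.Agent.Lib.Helper23Weyl Cfsg.Agent.Lib.LeadTwDefs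

section generic

variable {𝔾 R I : Type*} [Group 𝔾] {S : TG 𝔾 R I} {L : Subgroup 𝔾} {hn : ∀ i, S.nn i ∈ L}

/-- I2 -/
theorem pull_ok (ok : S.Ok) (hU : S.U ≤ L) (hH : S.H ≤ L)
    (hB : (pull S L hn).B = S.B.subgroupOf L) (hN : (pull S L hn).N = S.N.subgroupOf L) : (pull S L hn).Ok where
  neg_neg := ok.neg_neg
  pos_neg := ok.pos_neg
  pos_simple := ok.pos_simple
  simple_inj := ok.simple_inj
  refl_refl := ok.refl_refl
  refl_simple := ok.refl_simple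
  refl_neg := ok.refl_neg
  refl_pos := ok.refl_pos
  reach := ok.reach
  XS_mono := fun Ψ Ψ' h g hg => ok.XS_mono Ψ Ψ' h hg
  U_eq := by
    intro i u hu
    obtain ⟨u', hu', a, ha, e⟩ := ok.U_eq i u.1 hu
    refine ⟨⟨u', hU (TG.Ui_le_U ok i hu')⟩, hu', ⟨a, hU (TG.X_le_U ok _ (ok.pos_simple i) ha)⟩, ha, ?_⟩
    exact Subtype.ext e
  H_XS := fun Ψ h hh u hu => ok.H_XS Ψ h.1 hh u.1 hu
  n_XS := fun i Ψ Ψ' h g hg => ok.n_XS i Ψ Ψ' h g.1 hg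
  nn_sq := fun i => ok.nn_sq i
  nn_H := fun i h hh => ok.nn_H i h.1 hh
  rank_one := by
    intro i g hg hg1
    obtain ⟨a, ha, h, hh, b, hb, e⟩ := ok.rank_one i g.1 hg (fun h => hg1 (Subtype.ext h))
    refine ⟨⟨a, hU (TG.X_le_U ok _ (ok.pos_simple i) ha)⟩, ha, ⟨h, hH hh⟩, hh,
      ⟨b, hU (TG.X_le_U ok _ (ok.pos_simple i) hb)⟩, hb, ?_⟩
    exact Subtype.ext e
  X_ne := by
    intro i
    obtain ⟨g, hg, hg1⟩ := ok.X_ne i
    exact ⟨⟨g, hU (TG.X_le_U ok _ (ok.pos_simple i) hg)⟩, hg, fun h => hg1 (congrArg Subtype.val h)⟩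
  hBV := by
    intro g hg hgV
    rw [hB] at hg
    exact Subtype.ext (ok.hBV g.1 hg hgV)
  hUN := by
    intro g hg hgN
    rw [hN] at hgN
    exact Subtype.ext (ok.hUN g.1 hg hgN)

end generic

variable {𝔾 F R I R1 I1 : Type*} [Group 𝔾] [Field F] {S : RG 𝔾 F R I} {T : Tw S R1 I1}
  (ok : S.Ok) (hT : T.Ok) (hBV : ∀ g ∈ S.B, g ∈ S.V → g = 1) (hUN : ∀ g ∈ S.U, g ∈ S.N → g = 1)
  (rep : I1 → I) (hrep : ∀ J, rep J ∈ T.orb J)

include ok hT hBV hUN hrep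

/-- I16 -/
theorem ta_swap (hE : EvOk T rep) (hS1 : (S1 ok hT).Ok)
    (h8a : ∀ J (g : ↥T.G1), g ∈ (ta T rep).X J ↔ g ∈ (S1 ok hT).X ((S1 ok hT).simple J))
    (h8b : ∀ J (g : ↥T.G1), g ∈ (ta T rep).Y J ↔ g ∈ (S1 ok hT).X ((S1 ok hT).neg ((S1 ok hT).simple J)))
    (h9a : ∀ J, (((ta T rep).n J 1 : ↥T.G1) : 𝔾) = T.nJ J)
    (h9 : ∀ J, ∀ a ∈ T.Adm (rep J), (((ta T rep).h J a : ↥T.G1) : 𝔾) = T.hJ J (ev T J (rep J) a)) :
    ∀ j, ∀ a ∈ (ta T rep).A j, a ≠ 0 → ∀ g ∈ (ta T rep).X j, (ta T rep).n j a * g * ((ta T rep).n j a)⁻¹ ∈ (ta T rep).Y j := by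
  intro j a ha h0 g hg
  have e1 : (ta T rep).n j a = (ta T rep).h j a * (ta T rep).n j 1 := by
    unfold TA.h
    rw [inv_mul_cancel_right]
  have e2 : (ta T rep).n j 1 = (S1 ok hT).nn j := Subtype.ext (h9a j)
  have hH : (ta T rep).h j a ∈ (S1 ok hT).H := by
    change (((ta T rep).h j a : ↥T.G1) : 𝔾) ∈ T.T0
    rw [h9 j a ha]
    exact subset_closure ⟨j, _, hE.ne j a ha h0, ev_cmp T j (rep j) a, rfl⟩
  rw [h8b]
  have h1 := TG.n_conj hS1 j _ g ((h8a j g).1 hg)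
  rw [hS1.refl_simple] at h1
  have h2 := TG.H_X hS1 _ _ hH _ h1
  have e3 : (ta T rep).n j a * g * ((ta T rep).n j a)⁻¹ =
      (ta T rep).h j a * ((S1 ok hT).nn j * g * ((S1 ok hT).nn j)⁻¹) * ((ta T rep).h j a)⁻¹ := by
    rw [e1, e2]; group
  rw [e3]
  exact h2

end Cfsg.Agent.Lib.Helper67TwI
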