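import Cfsg.Agent.Lib.Helper22RoA
import Cfsg.Agent.Lib.Helper17TwI1
import Cfsg.Agent.Lib.Helper17TwI3
import Cfsg.Agent.Lib.Helper17TwI4
import Cfsg.Agent.Lib.Helper67TwI

set_option autoImplicit false
set_option linter.unusedSectionVars false
set_option linter.unusedVariables false

/-! `TData` for the twisted group of a `TQ` with a labelling of the classes of roots. -/

namespace Cfsg.Agent.Lib.Helper22RoB

open Subgroup Cfsg.Agent.Lib.Helper23Grp Cfsg.Agent.Lib.Helper23Weyl Cfsg.Agent.Lib.Helper23RG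
  Cfsg.Agent.Lib.Helper23RG.RG Cfsg.Agent.Lib.Helper22TwSB Cfsg.Agent.Lib.Helper22ChevBruhat
  Cfsg.Agent.Lib.Helper22Tq Cfsg.Agent.Lib.Helper23TG Cfsg.Agent.Lib.Helper22RoA Cfsg.Agent.Lib.LeadTwDefs

section gen

variable {𝔾 R I : Type*} [Group 𝔾] {S : TG 𝔾 R I} (ok : S.Ok)

theorem mon_word (w : List I) : S.Mon (w.map S.nn).prod (w.map (TG.reflPerm ok)).prod := by
  induction w with
  | nil => exact TG.Mon.one ok
  | cons i l ih =>
    simp only [List.map_cons, List.prod_cons]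
    exact (TG.Mon_nn ok i).mul ih

theorem word_mem_N (w : List I) : (w.map S.nn).prod ∈ S.N := by
  apply list_prod_mem
  intro x hx
  obtain ⟨i, _, rfl⟩ := List.mem_map.1 hx
  exact TG.nn_mem_N i

theorem word_apply (w : List I) (r : R) : (w.map (TG.reflPerm ok)).prod r = w.foldr S.refl r := by
  induction w with
  | nil => rfl
  | cons i l ih =>
    simp only [List.map_cons, List.prod_cons, List.foldr_cons, Equiv.Perm.mul_apply, ih]
    rfl

end gen

variable {𝔾 F R I I1 R1 : Type*} [Group 𝔾] [Field F]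
variable {S : RG 𝔾 F R I} {T : TQ S I1} (ok : S.Ok) (hBV : ∀ g ∈ S.B, g ∈ S.V → g = 1)
  (hUN : ∀ g ∈ S.U, g ∈ S.N → g = 1)
  {rf : R → R → R} {pr : R → R → ℤ} (hW : (ws ok rf pr).Ok) (tk : T.Ok ((ws ok rf pr).WJ Set.univ))
  [Fintype R] [DecidableEq R] (C : CL R R1 I1)

/-- the datum on the twisted group itself -/
noncomputable def tg1 : TG ↥T.G1 R1 I1 :=
  pull (tg ok hBV hUN hW tk C) T.G1 (fun i => (TQ.nJ_mem ok hBV hUN hW tk i).2)

variable {C} (hC : C.Ok S T)

include hC in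
theorem tg1_ok : (tg1 ok hBV hUN hW tk C).Ok := by
  have hU : (tg ok hBV hUN hW tk C).U ≤ T.G1 := by rw [U_eq ok hBV hUN hW tk hC]; exact inf_le_right
  have hH : (tg ok hBV hUN hW tk C).H ≤ T.G1 := inf_le_right
  exact Helper67TwI.pull_ok (tg_ok ok hBV hUN hW tk hC) hU hH (Helper17TwI1.pull_B hU hH) (Helper17TwI1.pull_N hH)

include hC in
theorem tdata (rf1 : R1 → R1 → R1) (hrf : ∀ i r, rf1 (C.simple1 i) r = C.refl1 i r)
    (hrfe : ∀ i x r, C.refl1 i (rf1 x r) = rf1 (C.refl1 i x) (C.refl1 i r))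
    (w0 : List I1) (hw0 : ∀ r, C.pos1 r → ¬ C.pos1 (w0.foldr C.refl1 r))
    [Finite ↥T.G1] (p a m : ℕ) [Fact p.Prime] (hG : Nat.card ↥T.G1 = p ^ a * m) (hm : ¬ p ∣ m)
    (hcU : Nat.card ↥(S.U ⊓ T.G1) = p ^ a) : TData (tg1 ok hBV hUN hW tk C) := by
  have hU : (tg ok hBV hUN hW tk C).U ≤ T.G1 := by rw [U_eq ok hBV hUN hW tk hC]; exact inf_le_right
  have hH : (tg ok hBV hUN hW tk C).H ≤ T.G1 := inf_le_right
  have ok1 := tg1_ok ok hBV hUN hW tk hC
  have htop : (tg1 ok hBV hUN hW tk C).G = ⊤ := Helper17TwI1.pull_top hU hH (G_eq ok hBV hUN hW tk hC)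
  refine ⟨ok1, htop, ⟨rf1, fun _ _ => 0, ?_⟩, ?_, ?_, ?_, ?_⟩
  · exact
      { s_sq := ok1.refl_refl
        s_neg := ok1.refl_neg
        s_simple := ok1.refl_simple
        s_pos := ok1.refl_pos
        pos_neg := ok1.pos_neg
        pos_simple := ok1.pos_simple
        rf_simple := hrf
        rf_equiv := hrfe
        pr_inv := fun _ _ _ => rfl
        pr_neg := fun _ _ => by simp [TG.ws] }
  · refine ⟨_, word_mem_N w0, _, mon_word ok1 w0, fun r hr => ?_⟩
    rw [word_apply ok1]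
    exact hw0 r hr
  · exact fun M hM => Helper17TwI3.ovr ok1 htop M hM
  · have hc : Nat.card (tg1 ok hBV hUN hW tk C).U = p ^ a := by
      rw [← hcU, ← U_eq ok hBV hUN hW tk hC]
      exact Nat.card_congr (subgroupOfEquivOfLe hU).toEquiv
    exact fun Q hQ => Helper17TwI4.syl _ p a m hG hm hc Q hQ
  · intro i x hx
    have h1 := nUi ok hBV hUN hW tk hC i (show (x : 𝔾) ∈ _ from hx)
    rw [mem_normalizer_iff] at h1 ⊢
    intro g
    exact h1 g

end Cfsg.Agent.Lib.Helper22RoB
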