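import Cfsg.Agent.Lib.Helper22RoB
import Cfsg.Agent.Lib.Helper22F4D

set_option autoImplicit false
set_option linter.unusedSectionVars false
set_option linter.unusedVariables false
set_option maxHeartbeats 400000

/-! The labelling of the 16 classes of roots of `²F₄` by the rays of the 16-gon. -/

namespace Cfsg.Agent.Lib.Helper22RoC

open Subgroup Cfsg.Lie Cfsg.Lie.ChevalleyDatum
open Cfsg.Agent.Lib.Helper23Grp Cfsg.Agent.Lib.Helper23RG Cfsg.Agent.Lib.Helper23RG.RG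
  Cfsg.Agent.Lib.Helper23Table Cfsg.Agent.Lib.Helper23Weyl Cfsg.Agent.Lib.Helper23Chev
  Cfsg.Agent.Lib.Helper22ChevRC Cfsg.Agent.Lib.Helper22ChevBasic Cfsg.Agent.Lib.Helper22ChevFast
  Cfsg.Agent.Lib.Helper22ChevGr Cfsg.Agent.Lib.Helper22ChevPar Cfsg.Agent.Lib.Helper22Tq
  Cfsg.Agent.Lib.Helper22Iso Cfsg.Agent.Lib.Helper22TwInst Cfsg.Agent.Lib.Helper22TwEnum
  Cfsg.Agent.Lib.Helper22TwSB Cfsg.Agent.Lib.Helper22F4 Cfsg.Agent.Lib.Helper22RoA

def clsT : List ℕ := [11, 13, 12, 11, 10, 9, 11, 13, 12, 10, 14, 9, 13, 9, 8, 14, 13, 15, 11, 15, 15, 9, 15, 8, 0, 7, 1, 7,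
  7, 3, 7, 5, 6, 0, 1, 5, 1, 6, 2, 4, 5, 3, 1, 2, 3, 4, 5, 3]

def cN (r : ℕ) : ℕ := clsT.getD r 0

def cj (j : Fin 2) : ℕ := if j = 0 then 24 else 22

/-- table facts -/
structure QC (D : ChevalleyDatum) : Prop where
  lt : ∀ r < D.nroots, cN r < 16
  neg : ∀ r < D.nroots, cN (D.neg r) = (cN r + 8) % 16
  pos : ∀ r < D.nroots, (cN r < 8 ↔ D.nroots / 2 ≤ r)
  s0 : ∀ r < D.nroots, (cN r = 0 ↔ r ∈ cl 0)
  s1 : ∀ r < D.nroots, (cN r = 7 ↔ r ∈ cl 1)
  w : ∀ j : Fin 2, ∀ r < D.nroots, cN (rfw D (wd j) r) = (cj j - cN r) % 16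

def neg1 (r : Fin 16) : Fin 16 := ⟨(r.val + 8) % 16, Nat.mod_lt _ (by norm_num)⟩
def simple1 (j : Fin 2) : Fin 16 := if j = 0 then 0 else 7
def refl1 (j : Fin 2) (r : Fin 16) : Fin 16 := ⟨(cj j - r.val) % 16, Nat.mod_lt _ (by norm_num)⟩
def rf1 (x r : Fin 16) : Fin 16 := ⟨(2 * x.val + 24 - r.val) % 16, Nat.mod_lt _ (by norm_num)⟩
def w0 : List (Fin 2) := [0, 1, 0, 1, 0, 1, 0, 1]

/-- the labelling -/
def clF (n : ℕ) : CL (Fin n) (Fin 16) (Fin 2) where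
  cls r := ⟨cN r.val % 16, Nat.mod_lt _ (by norm_num)⟩
  neg1 := neg1
  pos1 r := r.val < 8
  simple1 := simple1
  refl1 := refl1

theorem hrf : ∀ i r, rf1 (simple1 i) r = refl1 i r := by decide
theorem hrfe : ∀ i x r, refl1 i (rf1 x r) = rf1 (refl1 i x) (refl1 i r) := by decide
theorem hw0 : ∀ r : Fin 16, r.val < 8 → ¬ (w0.foldr refl1 r).val < 8 := by decide

theorem c1 : ∀ r, neg1 (neg1 r) = r := by decide
theorem c2 : ∀ r : Fin 16, (neg1 r).val < 8 ↔ ¬ r.val < 8 := by decide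
theorem c3 : ∀ i, (simple1 i).val < 8 := by decide
theorem c4 : ∀ i j, simple1 i = simple1 j → i = j := by decide
theorem c5 : ∀ i r, refl1 i (refl1 i r) = r := by decide
theorem c6 : ∀ i, refl1 i (simple1 i) = neg1 (simple1 i) := by decide
theorem c7 : ∀ i r, refl1 i (neg1 r) = neg1 (refl1 i r) := by decide
theorem c8 : ∀ i (r : Fin 16), r.val < 8 → r ≠ simple1 i → (refl1 i r).val < 8 := by decide

theorem reach (P : Fin 16 → Prop) (h0 : ∀ i, P (simple1 i)) (h1 : ∀ i r, P r → P (refl1 i r)) : ∀ r, P r := by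
  have p0 : P 0 := h0 0
  have p7 : P 7 := h0 1
  have p8 : P 8 := h1 0 0 p0
  have p14 : P 14 := h1 1 8 p8
  have p10 : P 10 := h1 0 14 p14
  have p12 : P 12 := h1 1 10 p10
  have p6 : P 6 := h1 1 0 p0
  have p2 : P 2 := h1 0 6 p6
  have p4 : P 4 := h1 1 2 p2
  have p15 : P 15 := h1 1 7 p7
  have p9 : P 9 := h1 0 15 p15
  have p13 : P 13 := h1 1 9 p9
  have p11 : P 11 := h1 0 13 p13
  have p1 : P 1 := h1 0 7 p7
  have p5 : P 5 := h1 1 1 p1
  have p3 : P 3 := h1 0 5 p5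
  intro r
  fin_cases r <;> assumption

variable {K : Type*} [Field K] {D : ChevalleyDatum} {P : FD} {pT : ℕ} {TT : List ℕ} {GV NX PG : ℕ} {fl : List ℕ}
variable (hD : Std D) (hA : Agree D P) (hP : PTab D P pT) (hT : TableOK D) (hR : Rel D K) (h2 : (2 : K) = 0)
  (θ : ℕ → K ≃+* K) (qf : QF D pT TT GV) (qc : QC D)

include qf qc in
theorem clF_ok : (clF D.nroots).Ok (rg hT hR) (tq hA hP hT hR h2 θ) where
  cls_neg r := by
    apply Fin.ext
    show cN (D.neg r.val) % 16 = (cN r.val % 16 + 8) % 16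
    rw [qc.neg r.val r.2]
    omega
  cls_pos r := by
    show cN r.val % 16 < 8 ↔ D.nroots / 2 ≤ r.val
    rw [Nat.mod_eq_of_lt (qc.lt r.val r.2)]
    exact qc.pos r.val r.2
  cls_simple j r := by
    have hl := qc.lt r.val r.2
    show (⟨cN r.val % 16, _⟩ : Fin 16) = simple1 j ↔ r.val ∈ cl j
    rw [Fin.ext_iff]
    show cN r.val % 16 = (simple1 j).val ↔ _
    rw [Nat.mod_eq_of_lt hl]
    fin_cases j
    · exact qc.s0 r.val r.2
    · exact qc.s1 r.val r.2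
  cls_refl j r := by
    apply Fin.ext
    show cN (pw hR hT (wd j) r).val % 16 = (cj j - cN r.val % 16) % 16
    rw [wJ_val hT hR qf, qc.w j r.val r.2, Nat.mod_eq_of_lt (qc.lt r.val r.2), Nat.mod_mod]
  neg_neg := c1
  pos_neg := c2
  pos_simple := c3
  simple_inj := c4
  refl_refl := c5
  refl_simple := c6
  refl_neg := c7
  refl_pos := c8
  reach := reach

end Cfsg.Agent.Lib.Helper22RoC
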