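import Cfsg.Agent.Lib.Helper22RoC

set_option autoImplicit false
set_option maxHeartbeats 4000000

/-! The labelling of the classes of roots of `²F₄`: the table facts. -/

namespace Cfsg.Agent.Lib.Helper22RoC

open Cfsg.Lie Cfsg.Lie.ChevalleyDatum Cfsg.Agent.Lib.Helper22F4

set_option maxRecDepth 100000 in
set_option synthInstance.maxSize 2000 in
set_option synthInstance.maxHeartbeats 400000 in
theorem qcF4 : QC chevF4 where
  lt := by decide +kernel
  neg := by decide +kernel
  pos := by decide +kernel
  s0 := by decide +kernel
  s1 := by decide +kernel
  w := by decide +kernel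

end Cfsg.Agent.Lib.Helper22RoC
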