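import Cfsg.Agent.Lib.Helper22RoC
import Cfsg.Agent.Lib.Helper22RoD
import Cfsg.Agent.Lib.Helper22F4M

set_option autoImplicit false
set_option linter.unusedSectionVars false
set_option linter.unusedVariables false
set_option linter.style.haveILetI false
set_option maxHeartbeats 400000

/-! The Ree datum of `²F₄(q)`. -/

namespace Cfsg.Agent.Lib.Helper22RoE

open Subgroup Cfsg.Lie Cfsg.Lie.ChevalleyDatum
open Cfsg.Agent.Lib.Helper23Grp Cfsg.Agent.Lib.Helper23RG Cfsg.Agent.Lib.Helper23RG.RG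
  Cfsg.Agent.Lib.Helper23Table Cfsg.Agent.Lib.Helper23Weyl Cfsg.Agent.Lib.Helper23Chev
  Cfsg.Agent.Lib.Helper22ChevRC Cfsg.Agent.Lib.Helper22ChevBasic Cfsg.Agent.Lib.Helper22ChevFast
  Cfsg.Agent.Lib.Helper22ChevGr Cfsg.Agent.Lib.Helper22ChevPar Cfsg.Agent.Lib.Helper22Tq
  Cfsg.Agent.Lib.Helper22Iso Cfsg.Agent.Lib.Helper22TwInst Cfsg.Agent.Lib.Helper22TwEnum
  Cfsg.Agent.Lib.Helper22TwSB Cfsg.Agent.Lib.Helper23Diag Cfsg.Agent.Lib.Helper22F4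
  Cfsg.Agent.Lib.Helper22RoA Cfsg.Agent.Lib.Helper22RoB Cfsg.Agent.Lib.Helper22RoC Cfsg.Agent.Lib.Helper22RoD

variable {K : Type*} [Field K] {D : ChevalleyDatum} {P : FD} {pT : ℕ} {TT : List ℕ} {GV NX PG : ℕ} {fl : List ℕ}
variable (hD : Std D) (hA : Agree D P) (hP : PTab D P pT) (hT : TableOK D) (hR : Rel D K) (h2 : (2 : K) = 0)
  (θ : ℕ → K ≃+* K) (qf : QF D pT TT GV)
variable (hθ : ∀ t, θ 1 t = (θ 0 t) ^ 2) (h10 : ∀ t, θ 1 (θ 0 t) = t) (h01 : ∀ t, θ 0 (θ 1 t) = t)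
  (tk : (sg hA hP hT hR h2 θ).Ok) (hc : chk D.nroots 16 2 9 GV TT NX PG fl = true) (ql : QL D TT NX PG)
  (hC : CartanRefl D) (qh : QH D) (qw : QW D) (qc : QC D)

include hD hθ h10 h01 tk qh in
theorem act_of (c : Fin D.rank → Kˣ) (m : δ (X c) ∈ G1 D θ) :
    (∀ t, δ (X c) * g2 D θ 33 24 t * (δ (X c))⁻¹ = g2 D θ 33 24 ((X c ⟨24, qf.q1.lb⟩ : K) * t)) ∧
    (∀ t u, δ (X c) * g4 D θ 27 25 28 30 t u * (δ (X c))⁻¹ =
      g4 D θ 27 25 28 30 ((X c ⟨25, qf.q2.lb⟩ : K) * t)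
        (θ 0 (X c ⟨25, qf.q2.lb⟩ : K) * (X c ⟨25, qf.q2.lb⟩ : K) * u)) := by
  have f := G1_fix hD hA hP hT hR h2 θ qf hθ h10 h01 tk _ m
  have x33 : (X c ⟨33, qf.q1.la⟩ : K) = θ 0 (X c ⟨24, qf.q1.lb⟩ : K) := by
    rw [fix_char hA hP hT hR h2 θ tk c f qf.q1.lb qf.q1.la qf.q1.rho.2 qf.q1.sh.2]
  have x27 : (X c ⟨27, qf.q2.la⟩ : K) = θ 0 (X c ⟨25, qf.q2.lb⟩ : K) := by
    rw [fix_char hA hP hT hR h2 θ tk c f qf.q2.lb qf.q2.la qf.q2.rho.2.1 qf.q2.sh.2.1]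
  have x28 : (X c ⟨28, qf.q2.lc⟩ : K) = θ 0 (X c ⟨25, qf.q2.lb⟩ : K) * (X c ⟨25, qf.q2.lb⟩ : K) := by
    rw [X28 qf qh, Units.val_mul, x27]
  have x30 : (X c ⟨30, qf.q2.ld⟩ : K) = θ 1 (θ 0 (X c ⟨25, qf.q2.lb⟩ : K) * (X c ⟨25, qf.q2.lb⟩ : K)) := by
    rw [fix_char hA hP hT hR h2 θ tk c f qf.q2.lc qf.q2.ld qf.q2.rho.2.2.1 qf.q2.sh.2.2.1, x28]
  exact ⟨fun t => conj_g2' hT hR θ c qf.q1.la qf.q1.lb x33 rfl t,
    fun t u => conj_g4' hT hR θ c qf.q2.la qf.q2.lb qf.q2.lc qf.q2.ld x27 rfl x28 x30 t u⟩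

include hD hT hR qf qh in
theorem c0_eq (h0 : 0 < D.rank) (h3 : 3 < D.rank) (t : Kˣ) :
    (δ (X (c0 θ h0 h3 t)) : GL D.Idx K) =
      (g2 D θ 33 24 t * g2 D θ 14 23 (-(t : K)⁻¹) * g2 D θ 33 24 t) *
        (g2 D θ 33 24 (-1) * g2 D θ 14 23 (-(-1 : K)⁻¹) * g2 D θ 33 24 (-1)) := by
  have e : (δ (X (c0 θ h0 h3 t)) : GL D.Idx K) =
      (rg hT hR).hE ⟨33, qf.q1.la⟩ (θ 0 t) * (rg hT hR).hE ⟨24, qf.q1.lb⟩ t := by
    unfold c0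
    rw [map_mul, map_mul, ← hE_eq hT hR, ← hE_eq hT hR]
    have e0 : (rg hT hR).simple ⟨0, h0⟩ = ⟨33, qf.q1.la⟩ := Fin.ext qf.simple.1
    have e3 : (rg hT hR).simple ⟨3, h3⟩ = ⟨24, qf.q1.lb⟩ := Fin.ext qf.simple.2.2.2
    rw [e0, e3]
    rfl
  have e' : (rg hT hR).hE ⟨33, qf.q1.la⟩ (θ 0 (t : K)) * (rg hT hR).hE ⟨24, qf.q1.lb⟩ (t : K) =
      ((rg hT hR).nE ⟨33, qf.q1.la⟩ (θ 0 (t : K)) * (rg hT hR).nE ⟨24, qf.q1.lb⟩ (t : K)) *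
        ((rg hT hR).nE ⟨33, qf.q1.la⟩ (θ 0 (-1)) * (rg hT hR).nE ⟨24, qf.q1.lb⟩ (-1)) := by
    unfold RG.hE
    rw [map_neg, map_one]
    have := (comm_nE hD hT hR qf qh (-1) (t : K)).eq
    calc _ = (rg hT hR).nE ⟨33, qf.q1.la⟩ (θ 0 (t : K)) * ((rg hT hR).nE ⟨33, qf.q1.la⟩ (-1) *
          (rg hT hR).nE ⟨24, qf.q1.lb⟩ (t : K)) * (rg hT hR).nE ⟨24, qf.q1.lb⟩ (-1) := by group
      _ = _ := by rw [this]; group
  rw [e, e', nJ0_eq hD hT hR θ qf qh, nJ0_eq hD hT hR θ qf qh]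

variable {rf : Fin D.nroots → Fin D.nroots → Fin D.nroots} {pr : Fin D.nroots → Fin D.nroots → ℤ}
  (hW : (RG.ws (rg_ok hT hR) rf pr).Ok)
  (tko : (tq hA hP hT hR h2 θ).Ok ((RG.ws (rg_ok hT hR) rf pr).WJ Set.univ))

/-- the subgroup-level datum in the ambient group -/
noncomputable abbrev tgF := tg (rg_ok hT hR) (hBV hT hR) (hUN hT hR) hW tko (clF D.nroots)

/-- the ambient data -/
noncomputable def ad : AD (GL D.Idx K) K where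
  L := (tq hA hP hT hR h2 θ).G1
  θ := θ 0
  xa := g2 D θ 33 24
  xb := g4 D θ 27 25 28 30
  Ya := (tgF hA hP hT hR h2 θ hW tko).X (neg1 (simple1 0))
  Yb := (tgF hA hP hT hR h2 θ hW tko).X (neg1 (simple1 1))
  H := (tgF hA hP hT hR h2 θ hW tko).H

include qf qc in
theorem y2_mem (t : K) : g2 D θ 14 23 t ∈ (tgF hA hP hT hR h2 θ hW tko).X (neg1 (simple1 0)) ⊓ G1 D θ := by
  have hm : g2 D θ 14 23 t ∈ G1 D θ := subset_closure (Or.inl ⟨t, Or.inr rfl⟩)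
  refine ⟨?_, hm⟩
  have e := Y_eq (rg_ok hT hR) (hBV hT hR) (hUN hT hR) hW tko (clF_ok hA hP hT hR h2 θ qf qc) 0
  refine e.symm ▸ ⟨?_, hm⟩
  exact g2_mem hT hR θ qf.q1'.la qf.q1'.lb (qf.cln_neg 0 14 (by simp [cln])) (qf.cln_neg 0 23 (by simp [cln])) t

include qf qc in
theorem y4_mem (t u : K) :
    g4 D θ 20 22 19 17 t u ∈ (tgF hA hP hT hR h2 θ hW tko).X (neg1 (simple1 1)) ⊓ G1 D θ := by
  have hm : g4 D θ 20 22 19 17 t u ∈ G1 D θ := subset_closure (Or.inr ⟨t, u, Or.inr rfl⟩)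
  refine ⟨?_, hm⟩
  have e := Y_eq (rg_ok hT hR) (hBV hT hR) (hUN hT hR) hW tko (clF_ok hA hP hT hR h2 θ qf qc) 1
  refine e.symm ▸ ⟨?_, hm⟩
  exact g4_mem hT hR θ qf.q2'.la qf.q2'.lb qf.q2'.lc qf.q2'.ld (qf.cln_neg 1 20 (by simp [cln]))
    (qf.cln_neg 1 22 (by simp [cln])) (qf.cln_neg 1 19 (by simp [cln])) (qf.cln_neg 1 17 (by simp [cln])) t u

include hD hθ h10 h01 tk hc hC qf qh qc in
theorem ad_ok {e : ℕ} (hpow : ∀ t, θ 0 t = t ^ e) (ζ : Kˣ) (hζ : ζ ≠ 1) : (ad hA hP hT hR h2 θ hW tko).Ok where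
  ha t := subset_closure (Or.inl ⟨t, Or.inl rfl⟩)
  hb t u := subset_closure (Or.inr ⟨t, u, Or.inl rfl⟩)
  two := h2
  θ_pow := ⟨e, hpow⟩
  θ_sq t := by
    show θ 0 (θ 0 t) ^ 2 = t
    rw [← hθ, h10]
  θ_ne := by
    by_contra hcon
    push Not at hcon
    have h1 : θ 0 (θ 0 (ζ : K)) ^ 2 = ζ := by rw [← hθ, h10]
    have h3 : θ 0 (ζ : K) = ζ := hcon ζ
    rw [h3, h3] at h1
    apply hζ
    apply Units.ext
    have h4 : (ζ : K) * ((ζ : K) - 1) = 0 := by linear_combination h1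
    rcases mul_eq_zero.1 h4 with h5 | h5
    · exact absurd h5 ζ.ne_zero
    · show (ζ : K) = 1
      linear_combination h5
  xa_add s t := g2_add hD hT hR θ qf.q1 s t
  xa_inj s t h := g2_inj hT hR θ qf.q1 h
  xb_mul t u t' u' := g4_mul hD hT hR h2 θ hθ h10 qf.q2 t u t' u'
  xb_inj t u t' u' h := g4_inj hT hR θ qf h
  tor h hh hL := by
    have h1 : h ∈ (rg hT hR).H := hh.1
    rw [H_eq_range hT hR hC] at h1
    obtain ⟨c, rfl⟩ := h1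
    rw [MonoidHom.comp_apply] at hL ⊢
    obtain ⟨e1, e2⟩ := act_of hD hA hP hT hR h2 θ qf hθ h10 h01 tk qh c hL
    exact ⟨_, _, (X c ⟨24, qf.q1.lb⟩).ne_zero, (X c ⟨25, qf.q2.lb⟩).ne_zero, e1, e2⟩
  surj a b ha hb := by
    obtain ⟨c, m, e1, e2⟩ := torus_surj hD hA hP hT hR h2 θ qf hθ h10 h01 tk hc hC qh (Units.mk0 a ha) (Units.mk0 b hb)
    obtain ⟨k1, k2⟩ := act_of hD hA hP hT hR h2 θ qf hθ h10 h01 tk qh c m.2
    rw [e1] at k1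
    rw [e2] at k2
    exact ⟨_, m, m.2, k1, k2⟩
  inj h hh hL k1 k2 := by
    have h1 : h ∈ (rg hT hR).H := hh.1
    rw [H_eq_range hT hR hC] at h1
    obtain ⟨c, rfl⟩ := h1
    rw [MonoidHom.comp_apply] at hL k1 k2 ⊢
    obtain ⟨e1, e2⟩ := act_of hD hA hP hT hR h2 θ qf hθ h10 h01 tk qh c hL
    have a1 : (X c ⟨24, qf.q1.lb⟩ : K) = 1 := by
      have := g2_inj hT hR θ qf.q1 ((e1 1).symm.trans (k1 1))
      simpa using this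
    have b1 : (X c ⟨25, qf.q2.lb⟩ : K) = 1 := by
      have := (g4_inj hT hR θ qf ((e2 1 0).symm.trans (k2 1 0))).1
      simpa using this
    have m1 : (δ (X (1 : Fin D.rank → Kˣ)) : GL D.Idx K) ∈ G1 D θ := by
      rw [map_one, map_one]; exact one_mem _
    have := torus_inj hD hA hP hT hR h2 θ qf hθ h10 h01 tk hC hL m1
      (by rw [map_one]; exact Units.ext a1) (by rw [map_one]; exact Units.ext b1)
    rw [this, map_one, map_one]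
  H_Ya := Helper23TG.TG.H_X (tg_ok (rg_ok hT hR) (hBV hT hR) (hUN hT hR) hW tko (clF_ok hA hP hT hR h2 θ qf qc)) _
  H_Yb := Helper23TG.TG.H_X (tg_ok (rg_ok hT hR) (hBV hT hR) (hUN hT hR) hW tko (clF_ok hA hP hT hR h2 θ qf qc)) _
  link b hb := by
    have h0 : 0 < D.rank := by rw [qf.rank]; norm_num
    have h3 : 3 < D.rank := by rw [qf.rank]; norm_num
    have m := A_mem hD hT hR θ qf qh h0 h3 (Units.mk0 b hb)⁻¹
    obtain ⟨_, k2⟩ := act_of hD hA hP hT hR h2 θ qf hθ h10 h01 tk qh _ m.2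
    have e25 : X (c0 θ h0 h3 (Units.mk0 b hb)⁻¹) ⟨25, qf.q2.lb⟩ = Units.mk0 b hb := by
      rw [X_c0]
      show _ ^ D.cartan 0 25 * _ ^ D.cartan 3 25 = _
      rw [qh.k25.1, qh.k25.2, zpow_zero, one_mul]
      simp
    rw [e25] at k2
    refine ⟨_, ?_, k2⟩
    rw [c0_eq hD hT hR θ qf qh h0 h3]
    have x : ∀ t, g2 D θ 33 24 t ∈ closure (Set.range (g2 D θ 33 24) ∪
        (((tgF hA hP hT hR h2 θ hW tko).X (neg1 (simple1 0)) ⊓ G1 D θ : Subgroup (GL D.Idx K)) : Set (GL D.Idx K))) :=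
      fun t => subset_closure (Or.inl ⟨t, rfl⟩)
    have y : ∀ t, g2 D θ 14 23 t ∈ closure (Set.range (g2 D θ 33 24) ∪
        (((tgF hA hP hT hR h2 θ hW tko).X (neg1 (simple1 0)) ⊓ G1 D θ : Subgroup (GL D.Idx K)) : Set (GL D.Idx K))) :=
      fun t => subset_closure (Or.inr (y2_mem hA hP hT hR h2 θ qf qc hW tko t))
    exact mul_mem (mul_mem (mul_mem (x _) (y _)) (x _)) (mul_mem (mul_mem (x _) (y _)) (x _))
  gen := by
    show closure (gens D θ) ≤ _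
    apply Subgroup.closure_mono
    rintro g (⟨t, rfl | rfl⟩ | ⟨t, u, rfl | rfl⟩)
    · exact Or.inl (Or.inl (Or.inl ⟨t, rfl⟩))
    · exact Or.inl (Or.inr (y2_mem hA hP hT hR h2 θ qf qc hW tko t))
    · exact Or.inl (Or.inl (Or.inr ⟨t, u, rfl⟩))
    · exact Or.inr (y4_mem hA hP hT hR h2 θ qf qc hW tko t u)

end Cfsg.Agent.Lib.Helper22RoE
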