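import Cfsg.Agent.Lib.Helper22RoDefs
import Cfsg.Agent.Lib.Helper22RoT
import Cfsg.Agent.Lib.H22RoA1
import Cfsg.Agent.Lib.H22RoA2
import Cfsg.Agent.Lib.H22RoB1
import Cfsg.Agent.Lib.H22RoB2
import Cfsg.Agent.Lib.H22RoC1
import Cfsg.Agent.Lib.H22RoC2
import Cfsg.Agent.Lib.H22RoC3
import Cfsg.Agent.Lib.H22RoD1
import Cfsg.Agent.Lib.H22RoS1
import Cfsg.Agent.Lib.H22RoT1
import Cfsg.Agent.Lib.H22RoT2
import Cfsg.Agent.Lib.H22RoT3
import Cfsg.Agent.Lib.H22RoT4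

set_option autoImplicit false

/-! PROJECT 2128 (S2128, |Out(²F₄(q))| = 2m+1): assembly of the abstract pieces. -/

namespace Cfsg.Agent.Lib.Helper22RoMain

open Subgroup Cfsg.Agent.Lib.Helper22RoDefs
open Cfsg.Agent.Lib.H22RoA1 Cfsg.Agent.Lib.H22RoA2 Cfsg.Agent.Lib.H22RoB1 Cfsg.Agent.Lib.H22RoB2
  Cfsg.Agent.Lib.H22RoC1 Cfsg.Agent.Lib.H22RoC2 Cfsg.Agent.Lib.H22RoC3 Cfsg.Agent.Lib.H22RoD1
  Cfsg.Agent.Lib.H22RoS1 Cfsg.Agent.Lib.H22RoT1 Cfsg.Agent.Lib.H22RoT2 Cfsg.Agent.Lib.H22RoT3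
  Cfsg.Agent.Lib.H22RoT4

variable {Γ K : Type*} [Group Γ] [Field K] {P : RD Γ K}

/-! ## assembly -/

theorem fb [Finite K] (hP : P.Ok) {Θ : Γ ≃* Γ} (hΘ : P.Stab Θ) :
    ∃ (d : K) (σ : K ≃+* K), d ≠ 0 ∧ ∀ t u, Θ (P.xb t u) = P.xb (d * σ t) (P.θ d * d * σ u) := by
  obtain ⟨φ, γ, g, h0, h1, h2, h3, h4, h5⟩ := fb_shape hP hΘ
  obtain ⟨d, σ, hd, e1, e2, e3⟩ := fb_alg P.θ hP.two hP.θ_pow hP.θ_sq hP.θ_ne φ γ g h1 h2 h3 h4 h5
    (fun f a b c => semilin f a b c)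
  refine ⟨d, σ, hd, fun t u => ?_⟩
  rw [h0, e1, e2, e3, zero_add]

theorem classify [Finite K] (hP : P.Ok) (hRa : RD.Rk P.Xa P.Ya) {Θ : Γ ≃* Γ} (hΘ : P.Stab Θ)
    (hex : ∀ σ : K ≃+* K, ∃ Φ, P.Stab Φ ∧ P.Fld Φ σ) :
    ∃ h ∈ P.H, ∃ σ : K ≃+* K, P.Fld (Θ.trans (MulAut.conj h)) σ := by
  obtain ⟨c, σa, hc, ea⟩ := fa hP hΘ (fun f a b c => semilin f a b c)
  obtain ⟨d, σb, hd, eb⟩ := fb hP hΘ
  obtain ⟨h, hh, A, B⟩ := hP.surj c⁻¹ d⁻¹ (inv_ne_zero hc) (inv_ne_zero hd)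
  obtain ⟨Φ, hΦ, fA, fB⟩ := hex σa
  have e1 : ∀ t, (Θ.trans (MulAut.conj h)) (P.xa t) = P.xa (σa t) := by
    intro t
    rw [MulEquiv.trans_apply, ea, MulAut.conj_apply, A, inv_mul_cancel_left₀ hc]
  have e2 : ∀ t u, (Θ.trans (MulAut.conj h)) (P.xb t u) = P.xb (σb t) (σb u) := by
    intro t u
    rw [MulEquiv.trans_apply, eb, MulAut.conj_apply, B, inv_mul_cancel_left₀ hd]
    congr 1
    rw [map_inv₀]
    have : P.θ d ≠ 0 := by simpa using hd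
    field_simp
  set Ψ := (Θ.trans (MulAut.conj h)).trans Φ.symm with hΨ
  have sΨ : P.Stab Ψ := stab_trans (stab_trans hΘ (stab_conj hP hh)) (stab_symm hΦ)
  have k1 : ∀ t, Ψ (P.xa t) = P.xa t := by
    intro t
    rw [hΨ, MulEquiv.trans_apply, e1, ← fA, MulEquiv.symm_apply_apply]
  have k2 : ∀ t u, Ψ (P.xb t u) = P.xb ((σb.trans σa.symm) t) ((σb.trans σa.symm) u) := by
    intro t u
    rw [hΨ, MulEquiv.trans_apply, e2, MulEquiv.symm_apply_eq, fB]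
    simp
  have k3 := tau_one hP k1 (fix_Y hRa (by rintro _ ⟨t, rfl⟩; exact k1 t) sΨ.ya) k2
  have k4 : ∀ t, σb t = σa t := by
    intro t
    have := k3 t
    rw [RingEquiv.trans_apply, RingEquiv.symm_apply_eq] at this
    exact this
  refine ⟨h, hh, σa, e1, fun t u => ?_⟩
  rw [e2, k4, k4]

theorem unique (hP : P.Ok) (hRa : RD.Rk P.Xa P.Ya) (hRb : RD.Rk P.Xb P.Yb) {Θ Θ' : Γ ≃* Γ} (hΘ : P.Stab Θ)
    (hΘ' : P.Stab Θ') (ha : ∀ t, Θ (P.xa t) = Θ' (P.xa t)) (hb : ∀ t u, Θ (P.xb t u) = Θ' (P.xb t u)) : Θ = Θ' := by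
  have s := stab_trans hΘ (stab_symm hΘ')
  have k1 : ∀ t, (Θ.trans Θ'.symm) (P.xa t) = P.xa t := by
    intro t; rw [MulEquiv.trans_apply, ha, MulEquiv.symm_apply_apply]
  have k2 : ∀ t u, (Θ.trans Θ'.symm) (P.xb t u) = P.xb t u := by
    intro t u; rw [MulEquiv.trans_apply, hb, MulEquiv.symm_apply_apply]
  have k := fix_all hP k1 k2 (fix_Y hRa (by rintro _ ⟨t, rfl⟩; exact k1 t) s.ya)
    (fix_Y hRb (by rintro _ ⟨t, u, rfl⟩; exact k2 t u) s.yb)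
  ext g
  have := k g
  rw [MulEquiv.trans_apply, MulEquiv.symm_apply_eq] at this
  exact this

section final

open Cfsg.Agent.Lib.Helper23Grp Cfsg.Agent.Lib.Helper23TG Cfsg.Agent.Lib.Helper23TG.TG
  Cfsg.Agent.Lib.Helper23Weyl Cfsg.Agent.Lib.LeadTwDefs Cfsg.Agent.Lib.Helper22RoT

variable {R : Type*} [Fintype R] [DecidableEq R] {S : TG Γ R (Fin 2)}

/-- THEOREM : the number of automorphisms stabilizing `U` and `V` -/
theorem card_nrm [Finite K] [Finite Γ] (h : TData S) (hP : P.Ok)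
    (hXa : ∀ g, g ∈ S.X (S.simple 0) ↔ g ∈ P.Xa) (hXb : ∀ g, g ∈ S.X (S.simple 1) ↔ g ∈ P.Xb)
    (hYa : P.Ya = S.X (S.neg (S.simple 0))) (hYb : P.Yb = S.X (S.neg (S.simple 1))) (hH : P.H = S.H)
    (hcard : Nat.card (S.X (S.simple 0)) ≠ Nat.card (S.X (S.simple 1)))
    (hex : ∀ σ : K ≃+* K, ∃ Φ, Nrm S Φ ∧ P.Fld Φ σ) :
    Nat.card {Θ : Γ ≃* Γ // Nrm S Θ} = Nat.card S.H * Nat.card (K ≃+* K) := by
  have hRa : RD.Rk P.Xa P.Ya := by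
    constructor
    · intro y hy hne
      rw [hYa] at hy
      obtain ⟨a, ha, b, hb, H⟩ := rk_ex h 0 hy hne
      refine ⟨a, (hXa a).1 ha, b, (hXa b).1 hb, fun g hg => ?_⟩
      rw [hYa]; exact H g ((hXa g).2 hg)
    · intro a ha b hb y hy y' hy' H H'
      rw [hYa] at hy hy' H H'
      exact rank_one_unique2 h 0 ((hXa a).2 ha) ((hXa b).2 hb) hy hy' (fun g hg => H g ((hXa g).1 hg))
        (fun g hg => H' g ((hXa g).1 hg))
  have hRb : RD.Rk P.Xb P.Yb := by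
    constructor
    · intro y hy hne
      rw [hYb] at hy
      obtain ⟨a, ha, b, hb, H⟩ := rk_ex h 1 hy hne
      refine ⟨a, (hXb a).1 ha, b, (hXb b).1 hb, fun g hg => ?_⟩
      rw [hYb]; exact H g ((hXb g).2 hg)
    · intro a ha b hb y hy y' hy' H H'
      rw [hYb] at hy hy' H H'
      exact rank_one_unique2 h 1 ((hXb a).2 ha) ((hXb b).2 hb) hy hy' (fun g hg => H g ((hXb g).1 hg))
        (fun g hg => H' g ((hXb g).1 hg))
  have hst : ∀ Θ, Nrm S Θ → P.Stab Θ := by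
    intro Θ hΘ
    obtain ⟨ρ, hρ⟩ := exists_perms h hΘ
    have h1 := perms_one hcard hρ
    exact
      { xa := fun g => by rw [← hXa, ← hXa]; exact (h1 0 g).1
        xb := fun g => by rw [← hXb, ← hXb]; exact (h1 1 g).1
        ya := fun g => by rw [hYa]; exact (h1 0 g).2
        yb := fun g => by rw [hYb]; exact (h1 1 g).2
        h := fun g => by rw [hH]; exact nrm_H (conj_nrm_iff' h) hΘ g }
  rw [← hH]
  apply count hP (Nrm S)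
  · intro Θ hΘ
    exact classify hP hRa (hst Θ hΘ) (fun σ => by
      obtain ⟨Φ, h1, h2⟩ := hex σ
      exact ⟨Φ, hst Φ h1, h2⟩)
  · exact hex
  · intro Θ hΘ y hy
    rw [hH] at hy
    exact nrm_trans hΘ ((conj_nrm_iff' h y).2 hy)
  · intro Θ Θ' hΘ hΘ' ha hb
    exact unique hP hRa hRb (hst Θ hΘ) (hst Θ' hΘ') ha hb

end final

end Cfsg.Agent.Lib.Helper22RoMain
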