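import Cfsg.Agent.Lib.Helper22RoE
import Cfsg.Agent.Lib.Helper22RoF
import Cfsg.Agent.Lib.Helper22RoMain
import Cfsg.Agent.Lib.Helper22F4T4

set_option autoImplicit false
set_option linter.unusedSectionVars false
set_option linter.unusedVariables false
set_option linter.style.haveILetI false
set_option maxHeartbeats 400000

/-! The outer automorphism group of `²F₄(q)`. -/

namespace Cfsg.Agent.Lib.Helper22RoG

open Subgroup Cfsg.Lie Cfsg.Lie.ChevalleyDatum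
open Cfsg.Agent.Lib.Helper23Grp Cfsg.Agent.Lib.Helper23RG Cfsg.Agent.Lib.Helper23RG.RG
  Cfsg.Agent.Lib.Helper23Table Cfsg.Agent.Lib.Helper23Weyl Cfsg.Agent.Lib.Helper23Chev
  Cfsg.Agent.Lib.Helper22ChevRC Cfsg.Agent.Lib.Helper22ChevBasic Cfsg.Agent.Lib.Helper22ChevFast
  Cfsg.Agent.Lib.Helper22ChevGr Cfsg.Agent.Lib.Helper22ChevPar Cfsg.Agent.Lib.Helper22Tq
  Cfsg.Agent.Lib.Helper22Iso Cfsg.Agent.Lib.Helper22TwInst Cfsg.Agent.Lib.Helper22TwEnum
  Cfsg.Agent.Lib.Helper22TwSB Cfsg.Agent.Lib.Helper23Diag Cfsg.Agent.Lib.Helper22F4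
  Cfsg.Agent.Lib.Helper22RoA Cfsg.Agent.Lib.Helper22RoB Cfsg.Agent.Lib.Helper22RoC Cfsg.Agent.Lib.Helper22RoD
  Cfsg.Agent.Lib.Helper22RoE Cfsg.Agent.Lib.Helper22RoF Cfsg.Agent.Lib.LeadTwDefs Cfsg.Agent.Lib.Helper22RoDefs
  Cfsg.Agent.Lib.Helper22ChevEngine

theorem center_trivial {G : Type*} [Group G] (h : IsSimpleGroup G ∧ ¬ IsMulCommutative G) :
    ∀ z : G, (∀ g, z * g = g * z) → z = 1 := by
  intro z hz
  obtain ⟨h1, h2⟩ := h
  have hm : z ∈ center G := mem_center_iff.2 (fun g => (hz g).symm)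
  rcases h1.eq_bot_or_eq_top_of_normal (center G) inferInstance with h3 | h3
  · rw [h3] at hm
    exact mem_bot.1 hm
  · exfalso
    apply h2
    refine ⟨⟨fun a b => ?_⟩⟩
    have : a ∈ center G := by rw [h3]; exact mem_top a
    exact (mem_center_iff.1 this b).symm

theorem odd_part (n : ℕ) (hn : 1 ≤ n) :
    ¬ 2 ∣ (2 ^ n - 1) ^ 2 * ((1 + 2 ^ n) * (1 + (2 ^ n) ^ 2) * (1 + (2 ^ n) ^ 3) * (1 + (2 ^ n) ^ 6)) := by
  obtain ⟨k, rfl⟩ : ∃ k, n = k + 1 := ⟨n - 1, by omega⟩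
  have hq : Even (2 ^ (k + 1)) := by rw [pow_succ]; exact even_two.mul_left _
  have h1 : Odd (2 ^ (k + 1) - 1) := Nat.Even.sub_odd (Nat.one_le_two_pow) hq odd_one
  have h2 : ∀ j, 1 ≤ j → Odd (1 + (2 ^ (k + 1)) ^ j) := fun j hj => odd_one.add_even (hq.pow_of_ne_zero (by omega))
  have h3 : Odd (1 + 2 ^ (k + 1)) := odd_one.add_even hq
  have := (h1.pow (n := 2)).mul (((h3.mul (h2 2 (by norm_num))).mul (h2 3 (by norm_num))).mul (h2 6 (by norm_num)))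
  rw [← even_iff_two_dvd, Nat.not_even_iff_odd]
  exact this

variable {K : Type*} [Field K] {D : ChevalleyDatum} {P : FD} {pT : ℕ} {TT : List ℕ} {GV NX PG : ℕ} {fl : List ℕ}
variable (hD : Std D) (hA : Agree D P) (hP : PTab D P pT) (hT : TableOK D) (hR : Rel D K) (h2 : (2 : K) = 0)
  (θ : ℕ → K ≃+* K) (qf : QF D pT TT GV)
variable (hθ : ∀ t, θ 1 t = (θ 0 t) ^ 2) (h10 : ∀ t, θ 1 (θ 0 t) = t) (h01 : ∀ t, θ 0 (θ 1 t) = t)
  (tk : (sg hA hP hT hR h2 θ).Ok) (hc : chk D.nroots 16 2 9 GV TT NX PG fl = true) (ql : QL D TT NX PG)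
  (hC : CartanRefl D) (qh : QH D) (qw : QW D) (qc : QC D)

include hD hA hP hT hR h2 hθ h10 h01 tk qf hc ql hC qh qw qc in
theorem card_out [Finite K] (hn48 : 48 ≤ D.nroots) {e : ℕ} (hpow : ∀ t, θ 0 t = t ^ e) (ζ : Kˣ) (hζ : ζ ≠ 1)
    (n : ℕ) (hn : 1 ≤ n) (hK : Nat.card K = 2 ^ n) (hKu : Nat.card Kˣ = 2 ^ n - 1)
    (hM : ∀ k < 16, depT PG k / 2 < 13)
    (hcs : allLt 13 (fun d => Nat.beq (cntLt 16 (fun k => Nat.beq (depT PG k / 2) d)) (csF4.getD d 0)) = true) :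
    Nat.card (Cfsg.Out ↥(G1 D θ)) = Nat.card (K ≃+* K) := by
  classical
  obtain ⟨rf, pr, hW⟩ := Helper22ChevInst.exists_hW hD hT hR
  haveI : Finite (GL D.Idx K) := by
    haveI : Finite (Matrix D.Idx D.Idx K) := by unfold Matrix; infer_instance
    exact Finite.of_injective (fun g : GL D.Idx K => (g : Matrix D.Idx D.Idx K)) Units.val_injective
  have ok := rg_ok hT hR
  have tko := tq_ok (rf := rf) (pr := pr) hD hA hP hT hR h2 θ qf hθ h10 h01 tk hc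
  have hCl := clF_ok hA hP hT hR h2 θ qf qc
  have hG : Nat.card ↥(tq hA hP hT hR h2 θ).G1 = 2 ^ (n * 12) *
      ((2 ^ n - 1) ^ 2 * ((1 + 2 ^ n) * (1 + (2 ^ n) ^ 2) * (1 + (2 ^ n) ^ 3) * (1 + (2 ^ n) ^ 6))) := by
    have := card_G hD hA hP hT hR h2 θ qf hθ h10 h01 tk hc ql hC qh csF4 hM hcs
    rw [sumF4, hK, hKu, ← pow_mul, mul_assoc] at this
    exact this
  have hU : Nat.card ↥((rg hT hR).U ⊓ (tq hA hP hT hR h2 θ).G1) = 2 ^ (n * 12) := by
    have := card_U hD hA hP hT hR h2 θ qf hθ h10 h01 tk hc ql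
    rw [← Helper23Chev.U_eq hT hR, hK, ← pow_mul] at this
    exact this
  haveI : Fact (Nat.Prime 2) := ⟨Nat.prime_two⟩
  haveI : Finite ↥(tq hA hP hT hR h2 θ).G1 := inferInstance
  have hTD := tdata (rg_ok hT hR) (hBV hT hR) (hUN hT hR) hW tko hCl rf1 hrf hrfe w0 hw0 2 (n * 12) _ hG
    (odd_part n hn) hU
  have hAd := ad_ok hD hA hP hT hR h2 θ qf hθ h10 h01 tk hc hC qh qc hW tko hpow ζ hζ
  have hZ := center_trivial (simple hD hA hP hT hR h2 θ qf hθ h10 h01 tk hc ql hC qh qw ζ hζ)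
  have h1 := Helper22RoT.card_out' hTD hZ
  have X0 : (tgF hA hP hT hR h2 θ hW tko).X (simple1 0) = (rg hT hR).XS (fun r => r.val ∈ cl 0) ⊓ G1 D θ :=
    X_eq (rg_ok hT hR) (hBV hT hR) (hUN hT hR) hW tko hCl 0
  have X1 : (tgF hA hP hT hR h2 θ hW tko).X (simple1 1) = (rg hT hR).XS (fun r => r.val ∈ cl 1) ⊓ G1 D θ :=
    X_eq (rg_ok hT hR) (hBV hT hR) (hUN hT hR) hW tko hCl 1
  have h3 := Helper22RoMain.card_nrm (P := rd hAd) hTD (rd_ok hAd)
    (by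
      intro g
      constructor
      · intro hg
        have hg' : g.1 ∈ (tgF hA hP hT hR h2 θ hW tko).X (simple1 0) := hg
        rw [X0] at hg'
        obtain ⟨t, ht⟩ := fixΦ0' hD hA hP hT hR h2 θ qf tk g.1 hg'.1
          (G1_fix hD hA hP hT hR h2 θ qf hθ h10 h01 tk g.1 hg'.2)
        exact ⟨t, Subtype.ext ht⟩
      · rintro ⟨t, rfl⟩
        have : g2 D θ 33 24 t ∈ (rg hT hR).XS (fun r => r.val ∈ cl 0) ⊓ G1 D θ :=
          ⟨g2_mem hT hR θ qf.q1.la qf.q1.lb (by simp [cl]) (by simp [cl]) t, subset_closure (Or.inl ⟨t, Or.inl rfl⟩)⟩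
        show g2 D θ 33 24 t ∈ (tgF hA hP hT hR h2 θ hW tko).X (simple1 0)
        rw [X0]; exact this)
    (by
      intro g
      constructor
      · intro hg
        have hg' : g.1 ∈ (tgF hA hP hT hR h2 θ hW tko).X (simple1 1) := hg
        rw [X1] at hg'
        obtain ⟨t, u, ht⟩ := fixΦ1' hD hA hP hT hR h2 θ qf h10 tk g.1 hg'.1
          (G1_fix hD hA hP hT hR h2 θ qf hθ h10 h01 tk g.1 hg'.2)
        exact ⟨t, u, Subtype.ext ht⟩
      · rintro ⟨t, u, rfl⟩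
        have : g4 D θ 27 25 28 30 t u ∈ (rg hT hR).XS (fun r => r.val ∈ cl 1) ⊓ G1 D θ :=
          ⟨g4_mem hT hR θ qf.q2.la qf.q2.lb qf.q2.lc qf.q2.ld (by simp [cl]) (by simp [cl]) (by simp [cl])
            (by simp [cl]) _ _, subset_closure (Or.inr ⟨t, u, Or.inl rfl⟩)⟩
        show g4 D θ 27 25 28 30 t u ∈ (tgF hA hP hT hR h2 θ hW tko).X (simple1 1)
        rw [X1]; exact this)
    rfl rfl rfl
    (by
      have c0 : Nat.card ((tg1 (rg_ok hT hR) (hBV hT hR) (hUN hT hR) hW tko (clF D.nroots)).X (simple1 0)) =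
          Nat.card K := by
        rw [← card_X0 hD hA hP hT hR h2 θ qf hθ h10 h01 tk]
        have hle : (tgF hA hP hT hR h2 θ hW tko).X (simple1 0) ≤ (tq hA hP hT hR h2 θ).G1 := by
          rw [X0]; exact inf_le_right
        refine (Nat.card_congr (subgroupOfEquivOfLe hle).toEquiv).trans ?_
        rw [X0]
      have c1 : Nat.card ((tg1 (rg_ok hT hR) (hBV hT hR) (hUN hT hR) hW tko (clF D.nroots)).X (simple1 1)) =
          Nat.card K ^ 2 := by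
        rw [← card_X1 hD hA hP hT hR h2 θ qf hθ h10 h01 tk]
        have hle : (tgF hA hP hT hR h2 θ hW tko).X (simple1 1) ≤ (tq hA hP hT hR h2 θ).G1 := by
          rw [X1]; exact inf_le_right
        refine (Nat.card_congr (subgroupOfEquivOfLe hle).toEquiv).trans ?_
        rw [X1]
      intro hcon
      have hcon' : Nat.card K = Nat.card K ^ 2 := c0.symm.trans (hcon.trans c1)
      rw [hK] at hcon'
      have h4 : 2 ≤ 2 ^ n := by
        calc 2 = 2 ^ 1 := by norm_num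
          _ ≤ 2 ^ n := Nat.pow_le_pow_right (by norm_num) hn
      nlinarith)
    (by
      intro σ
      have k0 : ∀ t, σ (θ 0 t) = θ 0 (σ t) := fun t => by rw [hpow, hpow, map_pow]
      have k1 : ∀ t, σ (θ 1 t) = θ 1 (σ t) := fun t => by rw [hθ, hθ, map_pow, k0]
      obtain ⟨Φ, a1, a2, a3⟩ := exists_field hT hR θ hn48 σ k0 k1
      refine ⟨Φ, ⟨fun g => ?_, fun g => ?_⟩, fun t => Subtype.ext (a2 t _), fun t u => Subtype.ext (a3 t u _)⟩
      · exact and_congr (a1 _ g) ⟨fun _ => g.2, fun _ => (Φ g).2⟩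
      · exact and_congr (a1 _ g) ⟨fun _ => g.2, fun _ => (Φ g).2⟩)
  have h1 := h1.trans h3
  rw [mul_comm] at h1
  have hpos : 0 < Nat.card (tg1 (rg_ok hT hR) (hBV hT hR) (hUN hT hR) hW tko (clF D.nroots)).H := Nat.card_pos
  exact Nat.eq_of_mul_eq_mul_left hpos h1

end Cfsg.Agent.Lib.Helper22RoG
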