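import Cfsg.Agent.Lib.Helper22RoG

set_option autoImplicit false
set_option linter.unusedSectionVars false
set_option linter.unusedVariables false
set_option linter.style.haveILetI false
set_option maxHeartbeats 400000

/-! `²F₄(q)` as a group with a subgroup-level root group datum: a package. -/

namespace Cfsg.Agent.Lib.Helper22RoH

open Subgroup Cfsg.Lie Cfsg.Lie.ChevalleyDatum
open Cfsg.Agent.Lib.Helper23Grp Cfsg.Agent.Lib.Helper23RG Cfsg.Agent.Lib.Helper23RG.RG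
  Cfsg.Agent.Lib.Helper23Table Cfsg.Agent.Lib.Helper23Weyl Cfsg.Agent.Lib.Helper23Chev
  Cfsg.Agent.Lib.Helper22ChevRC Cfsg.Agent.Lib.Helper22ChevBasic Cfsg.Agent.Lib.Helper22ChevFast
  Cfsg.Agent.Lib.Helper22ChevGr Cfsg.Agent.Lib.Helper22ChevPar Cfsg.Agent.Lib.Helper22Tq
  Cfsg.Agent.Lib.Helper22Iso Cfsg.Agent.Lib.Helper22TwInst Cfsg.Agent.Lib.Helper22TwEnum
  Cfsg.Agent.Lib.Helper22TwSB Cfsg.Agent.Lib.Helper23Diag Cfsg.Agent.Lib.Helper22F4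
  Cfsg.Agent.Lib.Helper22RoA Cfsg.Agent.Lib.Helper22RoB Cfsg.Agent.Lib.Helper22RoC Cfsg.Agent.Lib.Helper22RoD
  Cfsg.Agent.Lib.Helper22RoE Cfsg.Agent.Lib.Helper22RoF Cfsg.Agent.Lib.LeadTwDefs Cfsg.Agent.Lib.Helper22RoDefs
  Cfsg.Agent.Lib.Helper22ChevEngine Cfsg.Agent.Lib.Helper22RoG Cfsg.Agent.Lib.Helper23TG

variable {K : Type*} [Field K] {D : ChevalleyDatum} {P : FD} {pT : ℕ} {TT : List ℕ} {GV NX PG : ℕ} {fl : List ℕ}
variable (hD : Std D) (hA : Agree D P) (hP : PTab D P pT) (hT : TableOK D) (hR : Rel D K) (h2 : (2 : K) = 0)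
  (θ : ℕ → K ≃+* K) (qf : QF D pT TT GV)
variable (hθ : ∀ t, θ 1 t = (θ 0 t) ^ 2) (h10 : ∀ t, θ 1 (θ 0 t) = t) (h01 : ∀ t, θ 0 (θ 1 t) = t)
  (tk : (sg hA hP hT hR h2 θ).Ok) (hc : chk D.nroots 16 2 9 GV TT NX PG fl = true) (ql : QL D TT NX PG)
  (hC : CartanRefl D) (qh : QH D) (qw : QW D) (qc : QC D)

include hD hA hP hT hR h2 hθ h10 h01 tk qf hc ql hC qh qc in
theorem exists_tg [Finite K] (n : ℕ) (hn : 1 ≤ n) (hK : Nat.card K = 2 ^ n) (hKu : Nat.card Kˣ = 2 ^ n - 1)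
    (hM : ∀ k < 16, depT PG k / 2 < 13)
    (hcs : allLt 13 (fun d => Nat.beq (cntLt 16 (fun k => Nat.beq (depT PG k / 2) d)) (csF4.getD d 0)) = true) :
    ∃ S : TG ↥(G1 D θ) (Fin 16) (Fin 2), TData S ∧ Nat.card S.U = 2 ^ (n * 12) ∧ Nat.card S.H = (2 ^ n - 1) ^ 2 ∧
      Nat.card (S.X (S.simple 0)) = 2 ^ n ∧ Nat.card (S.X (S.simple 1)) = (2 ^ n) ^ 2 ∧
      (∃ B : Cfsg.BNPair ↥(G1 D θ), B.B = S.B ∧ B.N = S.N ∧ B.S = {S.nn 0, S.nn 1}) ∧
      Nat.card ↥(G1 D θ) = 2 ^ (n * 12) *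
        ((2 ^ n - 1) ^ 2 * ((1 + 2 ^ n) * (1 + (2 ^ n) ^ 2) * (1 + (2 ^ n) ^ 3) * (1 + (2 ^ n) ^ 6))) := by
  classical
  obtain ⟨rf, pr, hW⟩ := Helper22ChevInst.exists_hW hD hT hR
  haveI : Finite (GL D.Idx K) := by
    haveI : Finite (Matrix D.Idx D.Idx K) := by unfold Matrix; infer_instance
    exact Finite.of_injective (fun g : GL D.Idx K => (g : Matrix D.Idx D.Idx K)) Units.val_injective
  have ok := rg_ok hT hR
  have tko := tq_ok (rf := rf) (pr := pr) hD hA hP hT hR h2 θ qf hθ h10 h01 tk hc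
  have hCl := clF_ok hA hP hT hR h2 θ qf qc
  have hG : Nat.card ↥(tq hA hP hT hR h2 θ).G1 = 2 ^ (n * 12) *
      ((2 ^ n - 1) ^ 2 * ((1 + 2 ^ n) * (1 + (2 ^ n) ^ 2) * (1 + (2 ^ n) ^ 3) * (1 + (2 ^ n) ^ 6))) := by
    have := card_G hD hA hP hT hR h2 θ qf hθ h10 h01 tk hc ql hC qh csF4 hM hcs
    rw [sumF4, hK, hKu, ← pow_mul, mul_assoc] at this
    exact this
  have hU : Nat.card ↥((rg hT hR).U ⊓ (tq hA hP hT hR h2 θ).G1) = 2 ^ (n * 12) := by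
    have := card_U hD hA hP hT hR h2 θ qf hθ h10 h01 tk hc ql
    rw [← Helper23Chev.U_eq hT hR, hK, ← pow_mul] at this
    exact this
  haveI : Fact (Nat.Prime 2) := ⟨Nat.prime_two⟩
  haveI : Finite ↥(tq hA hP hT hR h2 θ).G1 := inferInstance
  have hTD := tdata (rg_ok hT hR) (hBV hT hR) (hUN hT hR) hW tko hCl rf1 hrf hrfe w0 hw0 2 (n * 12) _ hG
    (odd_part n hn) hU
  have X0 : (tgF hA hP hT hR h2 θ hW tko).X (simple1 0) = (rg hT hR).XS (fun r => r.val ∈ cl 0) ⊓ G1 D θ :=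
    X_eq (rg_ok hT hR) (hBV hT hR) (hUN hT hR) hW tko hCl 0
  have X1 : (tgF hA hP hT hR h2 θ hW tko).X (simple1 1) = (rg hT hR).XS (fun r => r.val ∈ cl 1) ⊓ G1 D θ :=
    X_eq (rg_ok hT hR) (hBV hT hR) (hUN hT hR) hW tko hCl 1
  have eU := U_eq (rg_ok hT hR) (hBV hT hR) (hUN hT hR) hW tko hCl
  have hUle : (tgF hA hP hT hR h2 θ hW tko).U ≤ (tq hA hP hT hR h2 θ).G1 := by rw [eU]; exact inf_le_right
  have hHle : (tgF hA hP hT hR h2 θ hW tko).H ≤ (tq hA hP hT hR h2 θ).G1 := inf_le_right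
  refine ⟨tg1 (rg_ok hT hR) (hBV hT hR) (hUN hT hR) hW tko (clF D.nroots), hTD, ?_, ?_, ?_, ?_, ?_, hG⟩
  · rw [← hU, ← eU]
    exact Nat.card_congr (subgroupOfEquivOfLe hUle).toEquiv
  · rw [← hKu, ← card_H1 hD hA hP hT hR h2 θ qf hθ h10 h01 tk hc hC qh]
    exact Nat.card_congr (subgroupOfEquivOfLe hHle).toEquiv
  · rw [← hK, ← card_X0 hD hA hP hT hR h2 θ qf hθ h10 h01 tk]
    have hle : (tgF hA hP hT hR h2 θ hW tko).X (simple1 0) ≤ (tq hA hP hT hR h2 θ).G1 := by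
      rw [X0]; exact inf_le_right
    refine (Nat.card_congr (subgroupOfEquivOfLe hle).toEquiv).trans ?_
    rw [X0]
  · rw [← hK, ← card_X1 hD hA hP hT hR h2 θ qf hθ h10 h01 tk]
    have hle : (tgF hA hP hT hR h2 θ hW tko).X (simple1 1) ≤ (tq hA hP hT hR h2 θ).G1 := by
      rw [X1]; exact inf_le_right
    refine (Nat.card_congr (subgroupOfEquivOfLe hle).toEquiv).trans ?_
    rw [X1]
  · obtain ⟨B, pB, pN, pS⟩ := TQ.exists_bn1 (rg_ok hT hR) (hBV hT hR) (hUN hT hR) hW tko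
    refine ⟨B, ?_, ?_, ?_⟩
    · have kB : (tg1 (rg_ok hT hR) (hBV hT hR) (hUN hT hR) hW tko (clF D.nroots)).B =
          ((rg hT hR).B ⊓ (tq hA hP hT hR h2 θ).G1).subgroupOf (tq hA hP hT hR h2 θ).G1 := by
        have e : (tg1 (rg_ok hT hR) (hBV hT hR) (hUN hT hR) hW tko (clF D.nroots)).B =
            (tgF hA hP hT hR h2 θ hW tko).B.subgroupOf (tq hA hP hT hR h2 θ).G1 := Helper17TwI1.pull_B hUle hHle
        rw [e, ← TQ.B0_eq (rg_ok hT hR) (hBV hT hR) (hUN hT hR) hW tko]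
        congr 1
        unfold TG.B SB.B0
        rw [eU]
        rfl
      exact pB.trans kB.symm
    · have kN : (tg1 (rg_ok hT hR) (hBV hT hR) (hUN hT hR) hW tko (clF D.nroots)).N =
          ((rg hT hR).N ⊓ (tq hA hP hT hR h2 θ).G1).subgroupOf (tq hA hP hT hR h2 θ).G1 := by
        have e : (tg1 (rg_ok hT hR) (hBV hT hR) (hUN hT hR) hW tko (clF D.nroots)).N =
            (tgF hA hP hT hR h2 θ hW tko).N.subgroupOf (tq hA hP hT hR h2 θ).G1 := Helper17TwI1.pull_N hHle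
        rw [e, ← TQ.N0_eq (rg_ok hT hR) (hBV hT hR) (hUN hT hR) hW tko]
        congr 1
        unfold TG.N SB.N0
        have : (tgF hA hP hT hR h2 θ hW tko).K = (TQ.sb (rg_ok hT hR) (hBV hT hR) (hUN hT hR) hW tko).K0 := by
          unfold TG.K SB.K0
          congr 1
          ext g
          constructor
          · rintro ⟨i, rfl⟩; exact ⟨i, rfl⟩
          · rintro ⟨i, rfl⟩; exact ⟨i, rfl⟩
        rw [this]
        rfl
      exact pN.trans kN.symm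
    · rw [pS]
      ext g
      constructor
      · rintro ⟨j, hj⟩
        fin_cases j
        · exact Or.inl (Subtype.ext hj.symm)
        · exact Or.inr (Subtype.ext hj.symm)
      · rintro (rfl | rfl)
        · exact ⟨0, rfl⟩
        · exact ⟨1, rfl⟩

end Cfsg.Agent.Lib.Helper22RoH
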