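import Cfsg.Agent.Lib.Helper22RoI

set_option autoImplicit false
set_option linter.unusedSectionVars false
set_option linter.unusedVariables false
set_option linter.style.haveILetI false
set_option maxHeartbeats 400000

/-! `²F₄(q)` as a group with a subgroup-level root group datum and coordinates on the fundamental root groups: a package (second version, with the opposite root groups). -/

namespace Cfsg.Agent.Lib.Helper22RoJ

open Subgroup Cfsg.Lie Cfsg.Lie.ChevalleyDatum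
open Cfsg.Agent.Lib.Helper23Grp Cfsg.Agent.Lib.Helper23RG Cfsg.Agent.Lib.Helper23RG.RG
  Cfsg.Agent.Lib.Helper23Table Cfsg.Agent.Lib.Helper23Weyl Cfsg.Agent.Lib.Helper23Chev
  Cfsg.Agent.Lib.Helper22ChevRC Cfsg.Agent.Lib.Helper22ChevBasic Cfsg.Agent.Lib.Helper22ChevFast
  Cfsg.Agent.Lib.Helper22ChevGr Cfsg.Agent.Lib.Helper22ChevPar Cfsg.Agent.Lib.Helper22Tq
  Cfsg.Agent.Lib.Helper22Iso Cfsg.Agent.Lib.Helper22TwInst Cfsg.Agent.Lib.Helper22TwEnum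
  Cfsg.Agent.Lib.Helper22TwSB Cfsg.Agent.Lib.Helper23Diag Cfsg.Agent.Lib.Helper22F4
  Cfsg.Agent.Lib.Helper22RoA Cfsg.Agent.Lib.Helper22RoB Cfsg.Agent.Lib.Helper22RoC Cfsg.Agent.Lib.Helper22RoD
  Cfsg.Agent.Lib.Helper22RoE Cfsg.Agent.Lib.Helper22RoF Cfsg.Agent.Lib.LeadTwDefs Cfsg.Agent.Lib.Helper22RoDefs
  Cfsg.Agent.Lib.Helper22ChevEngine Cfsg.Agent.Lib.Helper22RoG Cfsg.Agent.Lib.Helper23TG

theorem neg4 : ∀ r : Fin 16, (fun r => refl1 0 (refl1 1 r))^[4] r = neg1 r := by decide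

variable {K : Type*} [Field K] {D : ChevalleyDatum} {P : FD} {pT : ℕ} {TT : List ℕ} {GV NX PG : ℕ} {fl : List ℕ}
variable (hD : Std D) (hA : Agree D P) (hP : PTab D P pT) (hT : TableOK D) (hR : Rel D K) (h2 : (2 : K) = 0)
  (θ : ℕ → K ≃+* K) (qf : QF D pT TT GV)
variable (hθ : ∀ t, θ 1 t = (θ 0 t) ^ 2) (h10 : ∀ t, θ 1 (θ 0 t) = t) (h01 : ∀ t, θ 0 (θ 1 t) = t)
  (tk : (sg hA hP hT hR h2 θ).Ok) (hc : chk D.nroots 16 2 9 GV TT NX PG fl = true) (ql : QL D TT NX PG)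
  (hC : CartanRefl D) (qh : QH D) (qw : QW D) (qc : QC D)

include hD hA hP hT hR h2 hθ h10 h01 tk qf hc ql hC qh qc in
theorem exists_tg3 [Finite K] {e : ℕ} (hpow : ∀ t, θ 0 t = t ^ e) (ζ : Kˣ) (hζ : ζ ≠ 1)
    (n : ℕ) (hn : 1 ≤ n) (hK : Nat.card K = 2 ^ n) (hKu : Nat.card Kˣ = 2 ^ n - 1)
    (hM : ∀ k < 16, depT PG k / 2 < 13)
    (hcs : allLt 13 (fun d => Nat.beq (cntLt 16 (fun k => Nat.beq (depT PG k / 2) d)) (csF4.getD d 0)) = true) :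
    ∃ S : TG ↥(G1 D θ) (Fin 16) (Fin 2), TData S ∧ Nat.card S.H = (2 ^ n - 1) ^ 2 ∧
      (∀ r, (fun r => S.refl 0 (S.refl 1 r))^[4] r = S.neg r) ∧
      (∃ P : RD ↥(G1 D θ) K, P.Ok ∧ (∀ g, g ∈ S.X (S.simple 0) ↔ g ∈ P.Xa) ∧ (∀ g, g ∈ S.X (S.simple 1) ↔ g ∈ P.Xb) ∧
        P.Ya = S.X (S.neg (S.simple 0)) ∧ P.Yb = S.X (S.neg (S.simple 1)) ∧ P.H = S.H) ∧
      Nat.card ↥(G1 D θ) = 2 ^ (n * 12) *
        ((2 ^ n - 1) ^ 2 * ((1 + 2 ^ n) * (1 + (2 ^ n) ^ 2) * (1 + (2 ^ n) ^ 3) * (1 + (2 ^ n) ^ 6))) := by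
  classical
  obtain ⟨rf, pr, hW⟩ := Helper22ChevInst.exists_hW hD hT hR
  haveI : Finite (GL D.Idx K) := by
    haveI : Finite (Matrix D.Idx D.Idx K) := by unfold Matrix; infer_instance
    exact Finite.of_injective (fun g : GL D.Idx K => (g : Matrix D.Idx D.Idx K)) Units.val_injective
  have ok := rg_ok hT hR
  have tko := tq_ok (rf := rf) (pr := pr) hD hA hP hT hR h2 θ qf hθ h10 h01 tk hc
  have hCl := clF_ok hA hP hT hR h2 θ qf qc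
  have hG : Nat.card ↥(tq hA hP hT hR h2 θ).G1 = 2 ^ (n * 12) *
      ((2 ^ n - 1) ^ 2 * ((1 + 2 ^ n) * (1 + (2 ^ n) ^ 2) * (1 + (2 ^ n) ^ 3) * (1 + (2 ^ n) ^ 6))) := by
    have := card_G hD hA hP hT hR h2 θ qf hθ h10 h01 tk hc ql hC qh csF4 hM hcs
    rw [sumF4, hK, hKu, ← pow_mul, mul_assoc] at this
    exact this
  have hU : Nat.card ↥((rg hT hR).U ⊓ (tq hA hP hT hR h2 θ).G1) = 2 ^ (n * 12) := by
    have := card_U hD hA hP hT hR h2 θ qf hθ h10 h01 tk hc ql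
    rw [← Helper23Chev.U_eq hT hR, hK, ← pow_mul] at this
    exact this
  haveI : Fact (Nat.Prime 2) := ⟨Nat.prime_two⟩
  haveI : Finite ↥(tq hA hP hT hR h2 θ).G1 := inferInstance
  have hTD := tdata (rg_ok hT hR) (hBV hT hR) (hUN hT hR) hW tko hCl rf1 hrf hrfe w0 hw0 2 (n * 12) _ hG
    (odd_part n hn) hU
  have X0 : (tgF hA hP hT hR h2 θ hW tko).X (simple1 0) = (rg hT hR).XS (fun r => r.val ∈ cl 0) ⊓ G1 D θ :=
    X_eq (rg_ok hT hR) (hBV hT hR) (hUN hT hR) hW tko hCl 0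
  have X1 : (tgF hA hP hT hR h2 θ hW tko).X (simple1 1) = (rg hT hR).XS (fun r => r.val ∈ cl 1) ⊓ G1 D θ :=
    X_eq (rg_ok hT hR) (hBV hT hR) (hUN hT hR) hW tko hCl 1
  have eU := U_eq (rg_ok hT hR) (hBV hT hR) (hUN hT hR) hW tko hCl
  have hUle : (tgF hA hP hT hR h2 θ hW tko).U ≤ (tq hA hP hT hR h2 θ).G1 := by rw [eU]; exact inf_le_right
  have hHle : (tgF hA hP hT hR h2 θ hW tko).H ≤ (tq hA hP hT hR h2 θ).G1 := inf_le_right
  have hAd := ad_ok hD hA hP hT hR h2 θ qf hθ h10 h01 tk hc hC qh qc hW tko hpow ζ hζ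
  refine ⟨tg1 (rg_ok hT hR) (hBV hT hR) (hUN hT hR) hW tko (clF D.nroots), hTD, ?_, neg4, ⟨rd hAd, rd_ok hAd, ?_, ?_, rfl, rfl, rfl⟩, hG⟩
  · rw [← hKu, ← card_H1 hD hA hP hT hR h2 θ qf hθ h10 h01 tk hc hC qh]
    exact Nat.card_congr (subgroupOfEquivOfLe hHle).toEquiv
  · intro g
    constructor
    · intro hg
      have hg' : g.1 ∈ (tgF hA hP hT hR h2 θ hW tko).X (simple1 0) := hg
      rw [X0] at hg'
      obtain ⟨t, ht⟩ := fixΦ0' hD hA hP hT hR h2 θ qf tk g.1 hg'.1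
        (G1_fix hD hA hP hT hR h2 θ qf hθ h10 h01 tk g.1 hg'.2)
      exact ⟨t, Subtype.ext ht⟩
    · rintro ⟨t, rfl⟩
      have : g2 D θ 33 24 t ∈ (rg hT hR).XS (fun r => r.val ∈ cl 0) ⊓ G1 D θ :=
        ⟨g2_mem hT hR θ qf.q1.la qf.q1.lb (by simp [cl]) (by simp [cl]) t, subset_closure (Or.inl ⟨t, Or.inl rfl⟩)⟩
      show g2 D θ 33 24 t ∈ (tgF hA hP hT hR h2 θ hW tko).X (simple1 0)
      rw [X0]; exact this
  · intro g
    constructor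
    · intro hg
      have hg' : g.1 ∈ (tgF hA hP hT hR h2 θ hW tko).X (simple1 1) := hg
      rw [X1] at hg'
      obtain ⟨t, u, ht⟩ := fixΦ1' hD hA hP hT hR h2 θ qf h10 tk g.1 hg'.1
        (G1_fix hD hA hP hT hR h2 θ qf hθ h10 h01 tk g.1 hg'.2)
      exact ⟨t, u, Subtype.ext ht⟩
    · rintro ⟨t, u, rfl⟩
      have : g4 D θ 27 25 28 30 t u ∈ (rg hT hR).XS (fun r => r.val ∈ cl 1) ⊓ G1 D θ :=
        ⟨g4_mem hT hR θ qf.q2.la qf.q2.lb qf.q2.lc qf.q2.ld (by simp [cl]) (by simp [cl]) (by simp [cl])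
          (by simp [cl]) _ _, subset_closure (Or.inr ⟨t, u, Or.inl rfl⟩)⟩
      show g4 D θ 27 25 28 30 t u ∈ (tgF hA hP hT hR h2 θ hW tko).X (simple1 1)
      rw [X1]; exact this

end Cfsg.Agent.Lib.Helper22RoJ
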