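import Cfsg.Agent.Lib.H22SlStd
import Cfsg.Agent.Lib.H22SlProd
import Cfsg.Agent.Lib.Helper22R1xw
import Cfsg.Agent.Lib.Helper22R1br
import Cfsg.Agent.Lib.Helper22R1inj
import Cfsg.Agent.Lib.Helper9StR1h

set_option autoImplicit false

/-! PROJECT 1030: rank one Steinberg data with relation (C) over any field give a homomorphism from `SL₂`. -/

namespace Cfsg.Agent.Lib.Helper22SlHom

open Matrix Subgroup Cfsg.Agent.Lib.Helper43R1 Cfsg.Agent.Lib.H22SlDefs

variable {K : Type*} [Field K] {P : Type*} [Group P]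

theorem r1_injective' (R : R1 K P) (hg : R.Gen) (hmul : HMul R) (π : P →* SpecialLinearGroup (Fin 2) K)
    (hx : ∀ t, ((π (R.x t) : SpecialLinearGroup (Fin 2) K) : Matrix (Fin 2) (Fin 2) K) = !![1, t; 0, 1])
    (hy : ∀ t, ((π (R.y t) : SpecialLinearGroup (Fin 2) K) : Matrix (Fin 2) (Fin 2) K) = !![1, 0; t, 1]) :
    Function.Injective π :=
  Helper22R1inj.r1_injective R hg π hx hy hmul
    (fun g => Helper22R1br.inC_all R hg g (fun a ha => Helper22R1xw.x_mul_w R hg a ha hmul (Helper9StR1h.w1_h R)))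

theorem r1_hom_gen (R : R1 K P) (hmul : HMul R) :
    ∃ f : SpecialLinearGroup (Fin 2) K →* P,
      (∀ t (g : SpecialLinearGroup (Fin 2) K), (g : Matrix (Fin 2) (Fin 2) K) = !![1, t; 0, 1] → f g = R.x t) ∧
      (∀ t (g : SpecialLinearGroup (Fin 2) K), (g : Matrix (Fin 2) (Fin 2) K) = !![1, 0; t, 1] → f g = R.y t) ∧
      f.range = closure (Set.range R.x ∪ Set.range R.y) := by
  obtain ⟨R₀, h0x, h0y, h0m, h0g⟩ := H22SlStd.exists_std K
  obtain ⟨Δ, R', hg', hm', hx', hy'⟩ := H22SlProd.exists_prod R R₀ hmul h0m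
  let π : ↥Δ →* SpecialLinearGroup (Fin 2) K := (MonoidHom.snd P _).comp Δ.subtype
  have hπx : ∀ t, π (R'.x t) = R₀.x t := fun t => by
    show ((R'.x t : ↥Δ) : P × SpecialLinearGroup (Fin 2) K).2 = _
    rw [hx']
  have hπy : ∀ t, π (R'.y t) = R₀.y t := fun t => by
    show ((R'.y t : ↥Δ) : P × SpecialLinearGroup (Fin 2) K).2 = _
    rw [hy']
  have hinj : Function.Injective π := r1_injective' R' hg' hm' π (fun t => by rw [hπx, h0x]) (fun t => by rw [hπy, h0y])
  have hsurj : Function.Surjective π := by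
    rw [← MonoidHom.range_eq_top, eq_top_iff, ← h0g, closure_le]
    rintro _ (⟨t, rfl⟩ | ⟨t, rfl⟩)
    · exact ⟨R'.x t, hπx t⟩
    · exact ⟨R'.y t, hπy t⟩
  let e : ↥Δ ≃* SpecialLinearGroup (Fin 2) K := MulEquiv.ofBijective π ⟨hinj, hsurj⟩
  let ψ : ↥Δ →* P := (MonoidHom.fst P _).comp Δ.subtype
  have hψx : ∀ t, ψ (R'.x t) = R.x t := fun t => by
    show ((R'.x t : ↥Δ) : P × SpecialLinearGroup (Fin 2) K).1 = _
    rw [hx']
  have hψy : ∀ t, ψ (R'.y t) = R.y t := fun t => by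
    show ((R'.y t : ↥Δ) : P × SpecialLinearGroup (Fin 2) K).1 = _
    rw [hy']
  have hex : ∀ t, e.symm (R₀.x t) = R'.x t := fun t => by
    rw [MulEquiv.symm_apply_eq]; exact (hπx t).symm
  have hey : ∀ t, e.symm (R₀.y t) = R'.y t := fun t => by
    rw [MulEquiv.symm_apply_eq]; exact (hπy t).symm
  refine ⟨ψ.comp e.symm.toMonoidHom, ?_, ?_, ?_⟩
  · intro t g hgm
    have : g = R₀.x t := Subtype.ext (hgm.trans (h0x t).symm)
    subst this
    show ψ (e.symm (R₀.x t)) = _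
    rw [hex, hψx]
  · intro t g hgm
    have : g = R₀.y t := Subtype.ext (hgm.trans (h0y t).symm)
    subst this
    show ψ (e.symm (R₀.y t)) = _
    rw [hey, hψy]
  · rw [MonoidHom.range_eq_map, ← h0g, MonoidHom.map_closure]
    congr 1
    rw [Set.image_union, ← Set.range_comp, ← Set.range_comp]
    congr 1
    · ext g
      constructor
      · rintro ⟨t, rfl⟩
        exact ⟨t, by show _ = ψ (e.symm (R₀.x t)); rw [hex, hψx]⟩
      · rintro ⟨t, rfl⟩
        exact ⟨t, by show ψ (e.symm (R₀.x t)) = _; rw [hex, hψx]⟩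
    · ext g
      constructor
      · rintro ⟨t, rfl⟩
        exact ⟨t, by show _ = ψ (e.symm (R₀.y t)); rw [hey, hψy]⟩
      · rintro ⟨t, rfl⟩
        exact ⟨t, by show ψ (e.symm (R₀.y t)) = _; rw [hey, hψy]⟩

end Cfsg.Agent.Lib.Helper22SlHom
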