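import Cfsg.Agent.Lib.Helper22StMain
import Cfsg.Agent.Lib.Helper22RoT

set_option autoImplicit false
set_option linter.unusedSectionVars false
set_option linter.unusedVariables false

/-! S2369: the criterion on a `TG` of rank two. -/

namespace Cfsg.Agent.Lib.Helper22StA

open Cfsg Subgroup Cfsg.Agent.Lib.Helper23Grp Cfsg.Agent.Lib.Helper23TG Cfsg.Agent.Lib.Helper23TG.TG
  Cfsg.Agent.Lib.LeadTwDefs Cfsg.Agent.Lib.Helper22StMain Cfsg.Agent.Lib.H22StE1 Cfsg.Agent.Lib.H22StE2 Cfsg.Agent.Lib.H22StE3 Cfsg.Agent.Lib.H22StE4 Cfsg.Agent.Lib.H22StE5 Cfsg.Agent.Lib.H22StE6 Cfsg.Agent.Lib.H22StE7 Cfsg.Agent.Lib.H22StE8 Cfsg.Agent.Lib.H22StE9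

variable {𝔾 R : Type*} [Group 𝔾] [Fintype R] [DecidableEq R] {S : TG 𝔾 R (Fin 2)}

theorem tg_no_commute [Finite 𝔾] (h : TData S) (P : Cfsg.BNPair 𝔾) (hB : P.B = S.B) (hN : P.N = S.N)
    (hS : P.S = {S.nn 0, S.nn 1}) (r : ℕ) (hr : r.Prime) (hrB : ¬ r ∣ Nat.card S.B)
    (h0 : ¬ r ∣ Nat.card S.B * (Nat.card (S.X (S.simple 0)) + 1))
    (h1 : ¬ r ∣ Nat.card S.B * (Nat.card (S.X (S.simple 1)) + 1))
    {u c : 𝔾} (hu : u ∈ S.U) (hne : u ≠ 1) (hc : orderOf c = r) (hcomm : Commute u c) : False := by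
  obtain ⟨n0, hn0, π0, hM, hp⟩ := h.n0
  have ok := h.ok
  have hpar : ∀ i, P.parabolic {S.nn i} = Par S i := by
    intro i
    unfold Cfsg.BNPair.parabolic Par
    rw [hB, zpowers_eq_closure]
  refine no_commute P (m0 := n0⁻¹) (by rw [hN]; exact inv_mem hn0) ?_ S.U (by rw [hB]; exact U_le_B) ?_ ?_ r hr
    (rank_two P hS r (by rw [hB]; exact hrB) (by rw [hpar, card_par ok]; exact h0)
      (by rw [hpar, card_par ok]; exact h1)) hu hne hc hcomm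
  · intro β hβ hβ'
    rw [hB] at hβ hβ'
    rw [hN]
    rw [inv_inv] at hβ'
    obtain ⟨v, hv, t, ht, rfl⟩ := (mem_B_iff ok).1 hβ
    have e : n0 * (v * t) * n0⁻¹ = (n0 * v * n0⁻¹) * (n0 * t * n0⁻¹) := by group
    have ht' := N_conj_H ok n0 hn0 t ht
    have h2 : n0 * v * n0⁻¹ ∈ S.B := by
      have : n0 * v * n0⁻¹ = (n0 * (v * t) * n0⁻¹) * (n0 * t * n0⁻¹)⁻¹ := by rw [e]; group
      rw [this]
      exact mul_mem hβ' (inv_mem (H_le_B ht'))
    have h3 : n0 * v * n0⁻¹ ∈ S.V := (Helper36TwT3.conj_V_iff h hn0 hM hp v).2 hv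
    have h4 := ok.hBV _ h2 h3
    have h5 : v = 1 := by
      have : v = n0⁻¹ * (n0 * v * n0⁻¹) * n0 := by group
      rw [this, h4]; group
    rw [h5, one_mul]
    exact H_le_N ht
  · intro β hβ v hv
    rw [hB] at hβ
    have := (Helper36TwT4.B_conj_U ok (inv_mem hβ) v).2 hv
    rwa [inv_inv] at this
  · intro v hv hvN
    rw [hN] at hvN
    exact ok.hUN v hv hvN

end Cfsg.Agent.Lib.Helper22StA
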