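import Cfsg.Agent.Lib.Helper22StA

set_option autoImplicit false
set_option linter.unusedSectionVars false
set_option linter.unusedVariables false

/-! S2369: the abstract form of the statement. -/

namespace Cfsg.Agent.Lib.Helper22StB

open Cfsg Subgroup Cfsg.Agent.Lib.Helper23Grp Cfsg.Agent.Lib.Helper23TG Cfsg.Agent.Lib.Helper23TG.TG
  Cfsg.Agent.Lib.LeadTwDefs Cfsg.Agent.Lib.Helper22StMain Cfsg.Agent.Lib.H22StE1 Cfsg.Agent.Lib.H22StE2 Cfsg.Agent.Lib.H22StE3 Cfsg.Agent.Lib.H22StE4 Cfsg.Agent.Lib.H22StE5 Cfsg.Agent.Lib.H22StE6 Cfsg.Agent.Lib.H22StE7 Cfsg.Agent.Lib.H22StE8 Cfsg.Agent.Lib.H22StE9 Cfsg.Agent.Lib.Helper22StA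

theorem main {Γ R : Type*} [Group Γ] [Finite Γ] [Fintype R] [DecidableEq R] (S : TG Γ R (Fin 2)) (hTD : TData S)
    (n : ℕ) (hn : 1 ≤ n) (cU : Nat.card S.U = 2 ^ (n * 12)) (cH : Nat.card S.H = (2 ^ n - 1) ^ 2)
    (c0 : Nat.card (S.X (S.simple 0)) = 2 ^ n) (c1 : Nat.card (S.X (S.simple 1)) = (2 ^ n) ^ 2)
    (hBN : ∃ B : Cfsg.BNPair Γ, B.B = S.B ∧ B.N = S.N ∧ B.S = {S.nn 0, S.nn 1})
    (m : ℕ) (cG : Nat.card Γ = 2 ^ (n * 12) * m) (hm : ¬ 2 ∣ m)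
    (a b : Γ) (ha : orderOf a = 2) (hab : Commute a b) :
    (orderOf b).primeFactors ⊆ (2 ^ n * ((2 ^ n) ^ 4 - 1)).primeFactors := by
  intro r hr
  rw [Nat.mem_primeFactors] at hr ⊢
  obtain ⟨hrp, hrb, _⟩ := hr
  have h2n : 2 ≤ 2 ^ n := by
    calc 2 = 2 ^ 1 := by norm_num
      _ ≤ 2 ^ n := Nat.pow_le_pow_right (by norm_num) hn
  have hne0 : 2 ^ n * ((2 ^ n) ^ 4 - 1) ≠ 0 := by
    have h16 : 2 ^ 4 ≤ (2 ^ n) ^ 4 := Nat.pow_le_pow_left h2n 4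
    have : 0 < (2 ^ n) ^ 4 - 1 := by omega
    positivity
  refine ⟨hrp, ?_, hne0⟩
  by_contra hcon
  obtain ⟨k1, k2, k3⟩ := arith (2 ^ n) r (by omega) hrp hcon
  obtain ⟨B, eB, eN, eS⟩ := hBN
  haveI : Fact (Nat.Prime 2) := ⟨Nat.prime_two⟩
  obtain ⟨g, hg⟩ := conj_into S.U 2 (n * 12) m cG hm cU ha
  obtain ⟨c, hc, hac⟩ := exists_prime_pow hab hrp hrb
  have cB : Nat.card S.B = (2 ^ n) ^ 12 * (2 ^ n - 1) ^ 2 := by rw [TG.card_B hTD.ok, cU, cH, pow_mul]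
  refine tg_no_commute hTD B eB eN eS r hrp (by rw [cB]; exact k1) (by rw [cB, c0]; exact k2)
    (by rw [cB, c1]; exact k3) hg ?_ (c := g * c * g⁻¹) ?_ ?_
  · intro h
    have : a = 1 := by
      have e : a = g⁻¹ * (g * a * g⁻¹) * g := by group
      rw [e, h]; group
    rw [this, orderOf_one] at ha
    norm_num at ha
  · have := orderOf_injective (MulAut.conj g).toMonoidHom (MulAut.conj g).injective c
    rw [← hc, ← this]
    rfl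
  · show g * a * g⁻¹ * (g * c * g⁻¹) = g * c * g⁻¹ * (g * a * g⁻¹)
    have e1 : g * a * g⁻¹ * (g * c * g⁻¹) = g * (a * c) * g⁻¹ := by group
    have e2 : g * c * g⁻¹ * (g * a * g⁻¹) = g * (c * a) * g⁻¹ := by group
    rw [e1, e2, hac.eq]

end Cfsg.Agent.Lib.Helper22StB
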