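import Cfsg.Agent.Lib.H22StE1
import Cfsg.Agent.Lib.H22StE2
import Cfsg.Agent.Lib.H22StE3
import Cfsg.Agent.Lib.H22StE4
import Cfsg.Agent.Lib.H22StE5
import Cfsg.Agent.Lib.H22StE6
import Cfsg.Agent.Lib.H22StE7
import Cfsg.Agent.Lib.H22StE8
import Cfsg.Agent.Lib.H22StE9

set_option autoImplicit false

/-! In a finite group with a split BN-pair of characteristic `p`, an element of prime order `r` commuting with a non-trivial
`p`-element lies in a proper parabolic subgroup, numerically: `r` divides the order of a proper parabolic subgroup.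
Method: the Steinberg character `St = ∑_J (-1)^|J| 1_{P_J}^G` (helper46: `Helper46BNSt.St`, `St_restrict`) vanishes at `u ∈ U`, `u ≠ 1`;
if `r` divides no `|P_J|`, `J` proper, then `c` (of order `r`, commuting with `u`) acts without fixed points on the fixed points of `u` on `G/P_J`, so all terms
but the last one (`J = S`, which is `± 1`) are divisible by `r`. -/

namespace Cfsg.Agent.Lib.Helper22StMain

open Cfsg Subgroup Cfsg.Agent.Lib.Helper8BN Cfsg.Agent.Lib.Helper46Len Cfsg.Agent.Lib.Helper46BN Cfsg.Agent.Lib.Helper46BNSt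
open Cfsg.Agent.Lib.H22StE1 Cfsg.Agent.Lib.H22StE2 Cfsg.Agent.Lib.H22StE3 Cfsg.Agent.Lib.H22StE4

variable {G : Type*} [Group G] (P : Cfsg.BNPair G)

/-- THEOREM -/
theorem no_commute [Finite G] {m0 : G} (hm0 : m0 ∈ P.N)
    (hQT : ∀ β ∈ P.B, m0⁻¹ * β * m0 ∈ P.B → β ∈ P.N) (U : Subgroup G) (hUB : U ≤ P.B)
    (hUn : ∀ β ∈ P.B, ∀ u ∈ U, β⁻¹ * u * β ∈ U) (hUN : ∀ u ∈ U, u ∈ P.N → u = 1)
    (r : ℕ) (hr : r.Prime) (hpar : ∀ J : Set G, J ⊆ P.S → J ≠ P.S → ¬ r ∣ Nat.card (P.parabolic J))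
    {u c : G} (hu : u ∈ U) (hne : u ≠ 1) (hc : orderOf c = r) (hcomm : Commute u c) : False := by
  classical
  have hfin : (SW P).Finite := Set.toFinite _
  set Sf : Finset (Wg P) := hfin.toFinset with hSfd
  have hSf : (Sf : Set (Wg P)) = SW P := hfin.coe_toFinset
  have h0 := St_zero P Sf hSf hm0 hQT U hUB hUn hUN hu hne
  refine alt_sum Sf (fun J => Nat.card (MulAction.fixedBy (G ⧸ P.parabolic (pre P (J : Set (Wg P)))) u)) r hr h0 ?_ ?_
  · show Nat.card (MulAction.fixedBy (G ⧸ P.parabolic (pre P (Sf : Set (Wg P)))) u) = 1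
    rw [hSf, par_top]
    exact fix_top u
  · intro J hJ hne'
    rw [Finset.mem_powerset] at hJ
    have hJ' : (J : Set (Wg P)) ⊆ SW P := by rw [← hSf]; exact_mod_cast hJ
    have hJn : (J : Set (Wg P)) ≠ SW P := by
      rw [← hSf]
      intro h
      exact hne' (Finset.coe_injective h)
    exact fix_mod _ r hr (hpar _ (pre_subset P _) (pre_ne P hJ' hJn)) hc hcomm

end Cfsg.Agent.Lib.Helper22StMain
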