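import Cfsg.Agent.Lib.H22TgN
import Cfsg.Agent.Lib.H22TgC
import Cfsg.Agent.Lib.H22TgA
import Cfsg.Agent.Lib.H22TgB
import Cfsg.Agent.Lib.H22TgH
import Cfsg.Agent.Lib.H22TgS

set_option autoImplicit false
set_option linter.unusedSectionVars false
set_option linter.style.haveILetI false

/-! PROJECT 2408: the large Ree groups are generated by two elements (assembly). -/

namespace Cfsg.Agent.Lib.Helper22TgMain

open Subgroup Cfsg.Agent.Lib.Helper23Grp Cfsg.Agent.Lib.Helper23TG Cfsg.Agent.Lib.Helper23TG.TG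
  Cfsg.Agent.Lib.LeadTwDefs Cfsg.Agent.Lib.Helper22RoDefs

variable {Γ R K : Type*} [Group Γ] [Field K] [Finite K]

theorem xb00 {P : RD Γ K} (hP : P.Ok) : P.xb 0 0 = 1 := by
  have := hP.xb_mul 0 0 0 0
  simp only [add_zero, mul_zero] at this
  exact mul_eq_left.mp this

theorem xa0 {P : RD Γ K} (hP : P.Ok) : P.xa 0 = 1 := by
  have := hP.xa_add 0 0
  simp only [add_zero] at this
  exact (mul_eq_left.mp this.symm)

theorem xb4 {P : RD Γ K} (hP : P.Ok) : (P.xb 1 0) ^ 4 = 1 := by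
  have h11 : (1 : K) + 1 = 0 := by rw [one_add_one_eq_two]; exact hP.two
  have e2 : P.xb 1 0 * P.xb 1 0 = P.xb 0 1 := by
    rw [hP.xb_mul, h11]; simp
  have e4 : P.xb 0 1 * P.xb 0 1 = 1 := by
    rw [hP.xb_mul, h11]; simp [xb00 hP]
  calc (P.xb 1 0) ^ 4 = (P.xb 1 0 * P.xb 1 0) * (P.xb 1 0 * P.xb 1 0) := by
        simp only [pow_succ, pow_zero, one_mul, mul_assoc]
    _ = 1 := by rw [e2, e4]

theorem two_dvd {P : RD Γ K} (hP : P.Ok) : 2 ∣ Nat.card K := by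
  have h1 : addOrderOf (1 : K) = 2 := by
    haveI : Fact (Nat.Prime 2) := ⟨Nat.prime_two⟩
    apply addOrderOf_eq_prime
    · rw [nsmul_eq_mul, mul_one]; exact_mod_cast hP.two
    · exact one_ne_zero
  rw [← h1]
  exact addOrderOf_dvd_natCard 1

theorem two_gen (S : TG Γ R (Fin 2)) (ok : S.Ok) (P : RD Γ K) (hP : P.Ok)
    (hXa : ∀ g, g ∈ S.X (S.simple 0) ↔ g ∈ P.Xa) (hXb : ∀ g, g ∈ S.X (S.simple 1) ↔ g ∈ P.Xb)
    (hYa : P.Ya = S.X (S.neg (S.simple 0))) (hYb : P.Yb = S.X (S.neg (S.simple 1))) (hH : P.H = S.H)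
    (hneg : ∀ r, (fun r => S.refl 0 (S.refl 1 r))^[4] r = S.neg r) :
    ∃ a b : Γ, closure ({a, b} : Set Γ) = ⊤ := by
  obtain ⟨n, hnN, hn⟩ := H22TgN.exists_n ok hneg
  obtain ⟨h, hh, ζ, hζ, hζ1, hA, hB, hpow⟩ := H22TgH.exists_h hP
  refine ⟨h * P.xb 1 0, P.xa 1 * n, ?_⟩
  set M := closure ({h * P.xb 1 0, P.xa 1 * n} : Set Γ) with hM
  have ha : h * P.xb 1 0 ∈ M := subset_closure (by simp)
  have hb : P.xa 1 * n ∈ M := subset_closure (by simp)
  have hcomm : h * P.xb 1 0 = P.xb 1 0 * h := by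
    have := hB 1 0
    simp only [mul_one, mul_zero] at this
    exact mul_inv_eq_iff_eq_mul.mp this
  have hcard : 1 ≤ Nat.card K := Nat.one_le_iff_ne_zero.mpr Nat.card_pos.ne'
  obtain ⟨hhM, hxM⟩ := H22TgS.split M hcomm (Nat.card K) hcard (two_dvd hP) hpow (xb4 hP) ha
  -- the conjugate torus element
  have hh₁ : n * h * n⁻¹ ∈ P.H := by
    rw [hH]; exact N_conj_H ok n hnN h (hH ▸ hh)
  obtain ⟨c, c', hc0, -, hAc, -⟩ := hP.tor _ hh₁
  have hc1 : c ≠ 1 := by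
    rintro rfl
    -- `h` centralizes `Y_a`
    have hcen : ∀ y ∈ S.X (S.neg (S.simple 0)), h * y * h⁻¹ = y := by
      intro y hy
      have h1 := (hn _ y hy).1
      rw [ok.neg_neg] at h1
      obtain ⟨t, ht⟩ := (hXa _).1 h1
      have h2 := hAc t
      rw [one_mul, ← ht] at h2
      have h3 : n * (h * y * h⁻¹) * n⁻¹ = n * y * n⁻¹ := by
        rw [← h2]; group
      exact mul_left_cancel (mul_right_cancel h3)
    obtain ⟨x, hx, hx1, hxf⟩ := H22TgC.cent_pos ok 0 (hH ▸ hh) hcen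
    obtain ⟨t, rfl⟩ := (hXa _).1 hx
    rw [hA t] at hxf
    have h4 := hP.xa_inj _ _ hxf
    have ht0 : t ≠ 0 := by
      rintro rfl
      exact hx1 (xa0 hP)
    exact hζ1 (mul_right_cancel₀ ht0 (h4.trans (one_mul t).symm))
  have hd : P.xa (1 - c) * (n * h * n⁻¹) ∈ M := by
    have e : P.xa (1 - c) * (n * h * n⁻¹) = (P.xa 1 * n) * h * (P.xa 1 * n)⁻¹ := by
      have h5 := hAc (-1)
      have h6 : P.xa (-1) = (P.xa 1)⁻¹ := by
        apply eq_inv_of_mul_eq_one_left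
        rw [← hP.xa_add]; simp [xa0 hP]
      rw [h6] at h5
      have h7 : P.xa (1 - c) = P.xa 1 * P.xa (c * -1) := by
        rw [← hP.xa_add]; congr 1; ring
      rw [h7, ← h5]; group
    rw [e]
    exact M.mul_mem (M.mul_mem hb hhM) (M.inv_mem hb)
  have hXaM := H22TgA.Xa_le hP M hh hh₁ hζ hζ1 hA (sub_ne_zero.mpr hc1.symm) hhM hd
  have hnM : n ∈ M := by
    have : n = (P.xa 1)⁻¹ * (P.xa 1 * n) := by group
    rw [this]
    exact M.mul_mem (M.inv_mem (hXaM 1)) hb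
  have hYaM : P.Ya ≤ M := by
    intro y hy
    rw [hYa] at hy
    have h1 := (hn _ y hy).2
    rw [ok.neg_neg] at h1
    obtain ⟨t, ht⟩ := (hXa _).1 h1
    have : y = n * (n⁻¹ * y * n) * n⁻¹ := by group
    rw [this, ht]
    exact M.mul_mem (M.mul_mem hnM (hXaM t)) (M.inv_mem hnM)
  have hXbM := H22TgB.Xb_le hP M hXaM hYaM hxM
  have hYbM : P.Yb ≤ M := by
    intro y hy
    rw [hYb] at hy
    have h1 := (hn _ y hy).2
    rw [ok.neg_neg] at h1
    obtain ⟨t, u, ht⟩ := (hXb _).1 h1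
    have : y = n * (n⁻¹ * y * n) * n⁻¹ := by group
    rw [this, ht]
    exact M.mul_mem (M.mul_mem hnM (hXbM t u)) (M.inv_mem hnM)
  rw [eq_top_iff, ← hP.gen, closure_le]
  rintro g (((⟨t, rfl⟩ | ⟨t, u, rfl⟩) | hg) | hg)
  · exact hXaM t
  · exact hXbM t u
  · exact hYaM hg
  · exact hYbM hg

end Cfsg.Agent.Lib.Helper22TgMain
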