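import Cfsg.Agent.Lib.Helper22TwInst2
import Cfsg.Agent.Lib.Helper22TwAbs4
import Cfsg.Agent.Lib.Helper22TwEnum2

set_option autoImplicit false
set_option linter.unusedSectionVars false
set_option linter.unusedVariables false
set_option linter.style.haveILetI false

/-! Twisted groups: the twisted Weyl group from its enumeration. -/

namespace Cfsg.Agent.Lib.Helper22TwInst

open Subgroup Cfsg.Lie Cfsg.Lie.ChevalleyDatum
open Cfsg.Agent.Lib.Helper23Grp Cfsg.Agent.Lib.Helper23RG Cfsg.Agent.Lib.Helper23RG.RG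
  Cfsg.Agent.Lib.Helper23Table Cfsg.Agent.Lib.Helper23Weyl Cfsg.Agent.Lib.Helper23Chev
  Cfsg.Agent.Lib.Helper22ChevRC Cfsg.Agent.Lib.Helper22ChevBasic Cfsg.Agent.Lib.Helper22ChevFast
  Cfsg.Agent.Lib.Helper22ChevGr Cfsg.Agent.Lib.Helper22ChevPar Cfsg.Agent.Lib.Helper22TwAbs
  Cfsg.Agent.Lib.Helper22TwP Cfsg.Agent.Lib.Helper22TwSB Cfsg.Agent.Lib.Helper22TwEnum
  Cfsg.Agent.Lib.Helper22ChevEngine

variable {K : Type*} [Field K] {D : ChevalleyDatum} {P : FD} {gT gT' : ℕ} {m : ℕ}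
  {sz : Fin m → ℕ} {idx : Fin m → ℕ → ℕ}
variable (hD : Std D) (hA : Agree D P) (hG : GTab P gT gT') (hT : TableOK D) (hR : Rel D K) (φ : K ≃+* K)
    (tf : TF D gT gT' sz idx)
variable {N k0 GV : ℕ} {TT : List ℕ} {NX PG : ℕ} {fl : List ℕ} (hc : chk D.nroots N m k0 GV TT NX PG fl = true)
  (hgv : ∀ j : Fin m, ∀ r < D.nroots, gv D sz idx j r = lookT D.nroots GV j r)

include hD hc hgv in
theorem card_W1 : Nat.card (TD.sb (rg_ok hT hR) (td hA hG hT hR φ tf)).W1 = N :=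
  card_closure (cert_of_chk hc).1 (TD.sb (rg_ok hT hR) (td hA hG hT hR φ tf)).wJ
    (fun j r => by rw [wJ_val, hgv j r.val r.2])
    (fun j => SB.wJ_inv (rg_ok hT hR) (hBV hT hR)
      (TD.sb_ok (rg_ok hT hR) (hBV hT hR) (hUN hT hR) (td_ok hD hA hG hT hR φ tf)) j)

include hD hc hgv in
open Classical in
theorem sum_W1 {rf : Fin D.nroots → Fin D.nroots → Fin D.nroots} {pr : Fin D.nroots → Fin D.nroots → ℤ}
    (M : ℕ) (hM : ∀ k < N, depT PG k < M) (q : ℕ) :
    ∑ π ∈ Finset.univ.filter (fun w => w ∈ (TD.sb (rg_ok hT hR) (td hA hG hT hR φ tf)).W1),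
      q ^ (RG.ws (rg_ok hT hR) rf pr).len π =
    ∑ d ∈ Finset.range M, cntLt N (fun k => Nat.beq (depT PG k) d) * q ^ d := by
  rw [← sum_pow_eq N M _ hM q]
  apply sum_eq (cert_of_chk hc).1 (TD.sb (rg_ok hT hR) (td hA hG hT hR φ tf)).wJ
    (fun j r => by rw [wJ_val, hgv j r.val r.2])
    (fun j => SB.wJ_inv (rg_ok hT hR) (hBV hT hR)
      (TD.sb_ok (rg_ok hT hR) (hBV hT hR) (hUN hT hR) (td_ok hD hA hG hT hR φ tf)) j)
  intro π k hk hl
  congr 1
  rw [← (cert_of_chk hc).2 k hk, WS.len]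
  have e : (RG.ws (rg_ok hT hR) rf pr).inv π = Finset.univ.filter (fun r : Fin D.nroots =>
      (fun x => (Nat.ble (Nat.div D.nroots 2) x && Nat.blt (lookL TT k x) (Nat.div D.nroots 2)) = true) r.val) := by
    ext r
    rw [WS.mem_inv]
    simp only [Finset.mem_filter, Finset.mem_univ, true_and, Bool.and_eq_true, Helper22TwEnum.blt_iff, Nat.ble_eq]
    rw [← hl r]
    exact and_congr Iff.rfl not_le
  rw [e, lenT, cntLt_eq]
  exact card_filter_fin D.nroots
    (fun x => (Nat.ble (Nat.div D.nroots 2) x && Nat.blt (lookL TT k x) (Nat.div D.nroots 2)) = true)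

/-! ### Coxeter relations -/

def itv (D : ChevalleyDatum) (sz : Fin m → ℕ) (idx : Fin m → ℕ → ℕ) (a b : Fin m) : ℕ → ℕ → ℕ
  | 0, y => y
  | k + 1, y => gv D sz idx a (gv D sz idx b (itv D sz idx a b k y))

theorem pow_val (a b : Fin m) (k : ℕ) (r : Fin D.nroots) :
    ((((TD.sb (rg_ok hT hR) (td hA hG hT hR φ tf)).wJ a * (TD.sb (rg_ok hT hR) (td hA hG hT hR φ tf)).wJ b) ^ k) r).val =
      itv D sz idx a b k r.val := by
  induction k with
  | zero => rfl
  | succ k ih =>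
    rw [pow_succ', Equiv.Perm.mul_apply, Equiv.Perm.mul_apply, wJ_val, wJ_val, ih]
    rfl

include hD hA hG hT hR tf hc hgv in
theorem cox {B : Type*} (M : CoxeterMatrix B) (f : B → Fin m) (hf : Function.Surjective f)
    (hl : ∀ i j, ∀ r < D.nroots, itv D sz idx (f i) (f j) (M i j) r = r)
    (hcard : Nat.card M.Group = N) (hN : N ≠ 0) :
    ∃ θ : ↥(D.monomialSubgroup K ⊓ D.genSubgroup K (words D sz idx φ)) →* M.Group, Function.Surjective θ ∧
      θ.ker = (D.diagonalSubgroup K ⊓ D.genSubgroup K (words D sz idx φ)).subgroupOf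
        (D.monomialSubgroup K ⊓ D.genSubgroup K (words D sz idx φ)) := by
  have h := TD.cox (rg_ok hT hR) (hBV hT hR) (hUN hT hR) (td_ok hD hA hG hT hR φ tf) M f hf
    (by
      intro i j
      ext r
      rw [pow_val, hl i j r.val r.2]
      rfl)
    (by rw [hcard, card_W1 hD hA hG hT hR φ tf hc hgv]) (by rw [hcard]; exact hN)
  rw [G1_eq, Helper23Chev.N_eq, Helper23Chev.H_eq] at h
  exact h

end Cfsg.Agent.Lib.Helper22TwInst
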