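import Cfsg.Agent.Lib.Helper22TwD4
import Cfsg.Agent.Lib.Helper22TwInst4
import Cfsg.Agent.Lib.Helper22TwEnumD4

set_option autoImplicit false

/-! The twisted Weyl group of `³D₄`. -/

namespace Cfsg.Agent.Lib.Helper22TwD4

open Cfsg.Lie Cfsg.Lie.ChevalleyDatum Cfsg.Agent.Lib.Helper22ChevGr Cfsg.Agent.Lib.Helper22TwInst
  Cfsg.Agent.Lib.Helper22TwEnum Cfsg.Agent.Lib.Helper22ChevEngine

set_option maxRecDepth 100000 in
theorem gv_eq : ∀ j : Fin 2, ∀ r < chevD4.nroots, gv chevD4 sz idx j r = lookT chevD4.nroots Helper22TwEnumD4.GV j r := by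
  decide +kernel

set_option maxRecDepth 100000 in
theorem dep_lt_aux : allLt 12 (fun k => Nat.blt (depT Helper22TwEnumD4.PG k) 13) = true := by decide +kernel

theorem dep_lt : ∀ k < 12, depT Helper22TwEnumD4.PG k < 13 := by
  have := (allLt_iff _ _).1 dep_lt_aux
  intro k hk
  exact (Helper22TwEnum.blt_iff _ _).1 (this k hk)

def fC : Fin 2 → Fin 2 := ![0, 1]

theorem fC_surj : Function.Surjective fC := by decide

set_option maxRecDepth 100000 in
theorem cox_chk : ∀ i j : Fin 2, ∀ r < chevD4.nroots, itv chevD4 sz idx (fC i) (fC j) (CoxeterMatrix.G₂ i j) r = r := by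
  decide +kernel

end Cfsg.Agent.Lib.Helper22TwD4
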