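import Cfsg.Agent.Lib.Helper22TwE6
import Cfsg.Agent.Lib.Helper22TwInst4
import Cfsg.Agent.Lib.Helper22TwEnumE6

set_option autoImplicit false

/-! The twisted Weyl group of `²E₆`. -/

namespace Cfsg.Agent.Lib.Helper22TwE6

open Cfsg.Lie Cfsg.Lie.ChevalleyDatum Cfsg.Agent.Lib.Helper22ChevGr Cfsg.Agent.Lib.Helper22TwInst
  Cfsg.Agent.Lib.Helper22TwEnum Cfsg.Agent.Lib.Helper22ChevEngine

set_option maxRecDepth 100000 in
theorem gv_eq : ∀ j : Fin 4, ∀ r < chevE6.nroots, gv chevE6 sz idx j r = lookT chevE6.nroots Helper22TwEnumE6.GV j r := by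
  decide +kernel

set_option maxRecDepth 100000 in
theorem dep_lt_aux : allLt 1152 (fun k => Nat.blt (depT Helper22TwEnumE6.PG k) 37) = true := by decide +kernel

theorem dep_lt : ∀ k < 1152, depT Helper22TwEnumE6.PG k < 37 := by
  have := (allLt_iff _ _).1 dep_lt_aux
  intro k hk
  exact (Helper22TwEnum.blt_iff _ _).1 (this k hk)

def fC : Fin 4 → Fin 4 := ![0, 1, 3, 2]

theorem fC_surj : Function.Surjective fC := by decide

set_option maxRecDepth 100000 in
theorem cox_chk : ∀ i j : Fin 4, ∀ r < chevE6.nroots, itv chevE6 sz idx (fC i) (fC j) (CoxeterMatrix.F₄ i j) r = r := by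
  decide +kernel

end Cfsg.Agent.Lib.Helper22TwE6
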