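import Cfsg.Agent.Lib.Helper22TwInst2
import Cfsg.Agent.Lib.Helper23Simp2

set_option autoImplicit false
set_option linter.unusedSectionVars false
set_option linter.unusedVariables false
set_option linter.style.haveILetI false

/-! Twisted groups: the core of the Borel subgroup. -/

namespace Cfsg.Agent.Lib.Helper22TwInst

open Subgroup Cfsg.Lie Cfsg.Lie.ChevalleyDatum
open Cfsg.Agent.Lib.Helper23Grp Cfsg.Agent.Lib.Helper23RG Cfsg.Agent.Lib.Helper23RG.RG
  Cfsg.Agent.Lib.Helper23Table Cfsg.Agent.Lib.Helper23Weyl Cfsg.Agent.Lib.Helper23Chev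
  Cfsg.Agent.Lib.Helper22ChevRC Cfsg.Agent.Lib.Helper22ChevBasic Cfsg.Agent.Lib.Helper22ChevFast
  Cfsg.Agent.Lib.Helper22ChevGr Cfsg.Agent.Lib.Helper22ChevPar Cfsg.Agent.Lib.Helper22TwAbs
  Cfsg.Agent.Lib.Helper22TwP Cfsg.Agent.Lib.Helper22TwSB Cfsg.Agent.Lib.Helper23Diag

variable {K : Type*} [Field K] {D : ChevalleyDatum} {P : FD} {gT gT' : ℕ} {I1 : Type*}
  {sz : I1 → ℕ} {idx : I1 → ℕ → ℕ}
variable (hD : Std D) (hA : Agree D P) (hG : GTab P gT gT') (hT : TableOK D) (hR : Rel D K) (φ : K ≃+* K)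
    (tf : TF D gT gT' sz idx)

include hD hA hG hT hR tf in
theorem core (hC : CartanRefl D) (w : List I1)
    (hw : ∀ r < D.nroots, D.nroots / 2 ≤ r → gvw D sz idx w r < D.nroots / 2) :
    ((D.borelSubgroup K ⊓ D.genSubgroup K (words D sz idx φ)).subgroupOf
      (D.genSubgroup K (words D sz idx φ))).normalCore = ⊥ := by
  obtain ⟨π0, hπ0, h0⟩ := exists_π0 hA hG hT hR φ tf w hw
  have ok := rg_ok hT hR
  rw [eq_bot_iff]
  intro k hk
  have hc : ∀ g ∈ (td hA hG hT hR φ tf).G1, g * k.1 * g⁻¹ ∈ (rg hT hR).B ⊓ (td hA hG hT hR φ tf).G1 := by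
    rw [G1_eq, Helper23Chev.B_eq]
    intro g hg
    have := hk ⟨g, hg⟩
    rw [Subgroup.mem_subgroupOf] at this
    exact this
  obtain ⟨h1, h2⟩ := TD.core_central ok (hBV hT hR) (hUN hT hR) (td_ok hD hA hG hT hR φ tf) hπ0 h0 hc
  rw [H_eq_range hT hR hC] at h1
  obtain ⟨c, hc⟩ := h1
  rw [MonoidHom.comp_apply] at hc
  have h3 : X c = 1 := by
    ext r
    have h4 := h2 r 1
    rw [← hc, Helper23Simp2.δX_conj hT hR, RG.x_eq_iff ok, mul_one] at h4
    simpa using h4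
  rw [h3, map_one] at hc
  rw [Subgroup.mem_bot]
  exact Subtype.ext hc.symm

end Cfsg.Agent.Lib.Helper22TwInst
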