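import Cfsg.Agent.Lib.Helper22TwE6
import Cfsg.Agent.Lib.Helper22TwD4
import Cfsg.Agent.Lib.Helper23All

set_option autoImplicit false
set_option linter.unusedSectionVars false
set_option linter.unusedVariables false

/-! The twisted groups `²E₆`, `³D₄`: set-up from the hypotheses of the statements. -/

namespace Cfsg.Agent.Lib.Helper22TwSet

open Cfsg.Lie Cfsg.Lie.ChevalleyDatum Cfsg.Agent.Lib.Helper22ChevGr Cfsg.Agent.Lib.Helper22TwInst
  Cfsg.Agent.Lib.Helper22TwField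

variable {K : Type*} [Field K] [Fintype K] {q : ℕ}

theorem setupE6 (hq : IsPrimePow q) (hK : Fintype.card K = q ^ 2) :
    ∃ φ : K ≃+* K, (∀ t, φ t = t ^ q) ∧ (∀ t, φ (φ t) = t) ∧
      (∀ j, Nat.card {t : K // φ^[Helper22TwE6.sz j] t = t} = q ^ Helper22TwE6.sz j) ∧
      twistedE6 K q = chevE6.genSubgroup K (words chevE6 Helper22TwE6.sz Helper22TwE6.idx φ) := by
  obtain ⟨φ, hφ⟩ := exists_frob hq (by norm_num) hK
  have h2 : ∀ t, φ (φ t) = t := by
    intro t
    have := iter_pow φ hφ 2 t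
    rw [← hK, FiniteField.pow_card] at this
    exact this
  refine ⟨φ, hφ, h2, ?_, ?_⟩
  · intro j
    apply card_fix hq.two_le (by norm_num) hK φ hφ
    fin_cases j <;> simp [Helper22TwE6.sz]
  · rw [Helper22TwE6.words_eq φ hφ h2]; rfl

theorem setupD4 (hq : IsPrimePow q) (hK : Fintype.card K = q ^ 3) :
    ∃ φ : K ≃+* K, (∀ t, φ t = t ^ q) ∧ (∀ t, φ (φ (φ t)) = t) ∧
      (∀ j, Nat.card {t : K // φ^[Helper22TwD4.sz j] t = t} = q ^ Helper22TwD4.sz j) ∧
      twistedD4 K q = chevD4.genSubgroup K (words chevD4 Helper22TwD4.sz Helper22TwD4.idx φ) := by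
  obtain ⟨φ, hφ⟩ := exists_frob hq (by norm_num) hK
  have h3 : ∀ t, φ (φ (φ t)) = t := by
    intro t
    have := iter_pow φ hφ 3 t
    rw [← hK, FiniteField.pow_card] at this
    exact this
  refine ⟨φ, hφ, h3, ?_, ?_⟩
  · intro j
    apply card_fix hq.two_le (by norm_num) hK φ hφ
    fin_cases j <;> simp [Helper22TwD4.sz]
  · rw [Helper22TwD4.words_eq φ hφ h3]; rfl

theorem stdE6 : Cfsg.Agent.Lib.Helper22ChevBasic.Std chevE6 := by simp
theorem stdD4 : Cfsg.Agent.Lib.Helper22ChevBasic.Std chevD4 := by simp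

end Cfsg.Agent.Lib.Helper22TwSet
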