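import Cfsg.Agent.Lib.Helper23B2T
import Cfsg.Agent.Lib.Helper23All
import Cfsg.Agent.S2395

set_option autoImplicit false
set_option linter.unusedSectionVars false
set_option linter.unusedVariables false

/-! `B₂(F) ≅ PΩ₅(F)` for `|F| > 2`. -/

namespace Cfsg.Agent.Lib.Helper23B2O

open scoped Matrix
open Subgroup Cfsg.Lie Cfsg.Lie.ChevalleyDatum Cfsg.Agent.Lib.Helper49Orth Cfsg.Agent.Lib.Helper49Eich
  Cfsg.Agent.Lib.Helper49Forms Cfsg.Agent.Lib.Helper23Or Cfsg.Agent.Lib.Helper23B2T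

variable (F : Type*) [Field F]

local notation "𝐐" => QOdd 2 F
local notation "𝐁" => QuadraticMap.polar (DFunLike.coe (QOdd 2 F))

/-- the orthogonal group -/
abbrev O5 (F : Type*) [Field F] := ↥(Cfsg.isometryGroup F (DFunLike.coe (QOdd 2 F)))

theorem tab_ne : ∀ r : ℕ, tc r ≠ p5 (ta r) := by
  intro r
  by_cases hr : r < 8
  · have : ∀ r : Fin 8, tc r.val ≠ p5 (ta r.val) := by decide
    exact this ⟨r, hr⟩
  · unfold tc ta
    rw [List.getD_eq_default _ _ (by simpa using hr), List.getD_eq_default _ _ (by simpa using hr)]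
    decide

theorem tab_H : ∀ r : ℕ, H5 (ta r) := by
  intro r
  by_cases hr : r < 8
  · have : ∀ r : Fin 8, H5 (ta r.val) := by decide
    exact this ⟨r, hr⟩
  · unfold ta
    rw [List.getD_eq_default _ _ (by simpa using hr)]
    decide

theorem te_out {r : ℕ} (hr : ¬ r < 8) : te r = 0 := by
  unfold te
  rw [List.getD_eq_default _ _ (by simpa using hr)]

theorem te_sq : ∀ r : Fin 8, te r.val * te r.val = 1 := by decide

theorem tab_all : ∀ a c : I5, H5 a → c ≠ a → c ≠ p5 a →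
    ∃ r : Fin 8, (ta r.val = a ∧ tc r.val = c) ∨ (ta r.val = c ∧ tc r.val = a ∧ H5 c) := by
  decide

theorem Y_out (r : ℕ) (t : F) (hr : ¬ r < chevB2.nroots) : Y F r t = 1 := by
  unfold Y
  rw [te_out hr, Int.cast_zero, zero_mul, zero_smul, E_zero]

theorem Y_add (r : ℕ) (t u : F) : Y F r t * Y F r u = Y F r (t + u) := by
  unfold Y
  rw [E_mul _ ((hs5 F).Qb _ (tab_H r)) ((hs5 F).B_bs (tab_H r) (tab_ne r) _) ((hs5 F).B_bs (tab_H r) (tab_ne r) _),
    ← add_smul, mul_add]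

theorem Y_mem (r : ℕ) (t : F) : Y F r t ∈ TT0 𝐐 H5 :=
  subset_closure ⟨_, _, tab_H r, (hs5 F).B_bs (tab_H r) (tab_ne r) _, rfl⟩

theorem closure_Y : closure {g | ∃ r t, g = Y F r t} = TT0 𝐐 H5 := by
  apply le_antisymm
  · rw [closure_le]
    rintro _ ⟨r, t, rfl⟩
    exact Y_mem F r t
  · apply TT0_le (hs5 F)
    intro a c t ha h1 h2
    obtain ⟨r, ⟨rfl, rfl⟩ | ⟨e1, e2, e3⟩⟩ := tab_all a c ha h1 h2
    · apply Subgroup.subset_closure
      refine ⟨r.val, ((te r.val : ℤ) : F) * t, ?_⟩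
      unfold Y
      rw [← mul_assoc, ← Int.cast_mul, te_sq, Int.cast_one, one_mul]
    · apply Subgroup.subset_closure
      refine ⟨r.val, ((te r.val : ℤ) : F) * (-t), ?_⟩
      unfold Y
      rw [← mul_assoc, ← Int.cast_mul, te_sq, Int.cast_one, one_mul, e1, e2, E_swap (hs5 F) ha e3 h2]

def J1 : I5 → Prop := fun c => True ∧ c ≠ .inr (.inl 0) ∧ c ≠ p5 (.inr (.inl 0))

instance : DecidablePred J1 := fun c => by unfold J1; infer_instance

theorem hJ1 : ∀ c, ¬ J1 c → H5 c ∧ ¬ J1 (p5 c) := by decide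

abbrev e1 : I5 := .inr (.inl 1)
abbrev f1 : I5 := .inr (.inr 1)
abbrev z0 : I5 := .inl ()

theorem red1 (g : O5 F) : ∃ t ∈ TT0 𝐐 H5, FixOut J1 (t * g) :=
  reduce (hs5 F) (hN5 F) (J := fun _ => True) (fun c hc => absurd trivial hc)
    (a0 := .inr (.inl 0)) (a1 := .inr (.inl 1)) (by decide) (by decide) trivial trivial trivial trivial (by decide) (by decide)
    (g := g) (fun c hc => absurd trivial hc)

theorem Q_supp {u : I5 → F} (hu : Supp J1 u) : 𝐐 u = u z0 ^ 2 + u e1 * u f1 := by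
  rw [Q5_apply, hu (.inr (.inl 0)) (by decide)]
  ring

theorem stepA1 {u : I5 → F} (hu : Supp J1 u) (hQ : 𝐐 u = 0) (h : u e1 ≠ 0) :
    ∃ t ∈ TT0 𝐐 H5, FixOut J1 t ∧ ap t u = u e1 • b F e1 :=
  moveJ (hs5 F) hJ1 (a := f1) (by decide) (by decide) hu ((Supp_b (by decide)).smul _)
    (by rw [hQ, QuadraticMap.map_smul, (hs5 F).Qb e1 (by decide), smul_zero])
    (by
      show (u e1 • b F e1) e1 = u e1
      rw [Pi.smul_apply, b_self, smul_eq_mul, mul_one]) h

theorem stepA {u : I5 → F} (hu : Supp J1 u) (hQ : 𝐐 u = 0) (h : u ≠ 0) :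
    ∃ t ∈ TT0 𝐐 H5, FixOut J1 t ∧ ∃ α : F, α ≠ 0 ∧ ap t u = α • b F e1 := by
  by_cases h1 : u e1 = 0
  · have hz : u z0 = 0 := by
      have := hQ
      rw [Q_supp F hu, h1, zero_mul, add_zero] at this
      exact pow_eq_zero_iff (two_ne_zero) |>.1 this
    have hf : u f1 ≠ 0 := by
      intro hf
      apply h
      apply ext5
      · exact hz
      · exact hu _ (by decide)
      · exact h1
      · exact hu _ (by decide)
      · exact hf
    set β := u f1 with hβ
    have hu' : Supp J1 (β • b F f1 + β • b F z0 + (-β) • b F e1) :=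
      (((Supp_b (by decide)).smul _).add ((Supp_b (by decide)).smul _)).add ((Supp_b (by decide)).smul _)
    have hQ' : 𝐐 (β • b F f1 + β • b F z0 + (-β) • b F e1) = 0 := by
      rw [Q_supp F hu']
      simp [b_apply]
      ring
    obtain ⟨t1, m1, k1, g1⟩ := moveJ (hs5 F) hJ1 (a := e1) (by decide) (by decide) hu hu'
      (by rw [hQ, hQ'])
      (by
        show (β • b F f1 + β • b F z0 + (-β) • b F e1) f1 = u f1
        simp [b_apply, hβ]) hf
    obtain ⟨t2, m2, k2, g2⟩ := stepA1 F hu' hQ' (by simpa [b_apply] using hf)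
    refine ⟨t2 * t1, mul_mem m2 m1, k2.mul k1, _, ?_, by rw [ap_mul, g1, g2]⟩
    simpa [b_apply] using hf
  · obtain ⟨t, m, k, g⟩ := stepA1 F hu hQ h1
    exact ⟨t, m, k, _, h1, g⟩

/-- diagonal isometries -/
def Diag (m : O5 F) : Prop := ∀ c, ∃ l : F, ap m (b F c) = l • b F c

theorem Diag.comm {m m' : O5 F} (h : Diag F m) (h' : Diag F m') : m * m' = m' * m := by
  apply ap_ext_b
  intro c
  obtain ⟨l, hl⟩ := h c
  obtain ⟨l', hl'⟩ := h' c
  rw [ap_mul, ap_mul, hl, hl', ap_smul, ap_smul, hl, hl', smul_smul, smul_smul, mul_comm]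

theorem red (g : O5 F) : ∃ t ∈ TT0 𝐐 H5, Diag F (t * g) := by
  obtain ⟨t1, m1, k1⟩ := red1 F g
  set g1 := t1 * g with hg1
  have hu : Supp J1 (ap g1 (b F e1)) := Supp.ap (hs5 F) hJ1 k1 (Supp_b (by decide))
  have hne : ap g1 (b F e1) ≠ 0 := by
    intro h
    rw [ap_eq_iff, ap_zero] at h
    have := congrFun h e1
    rw [b_self] at this
    exact one_ne_zero this
  obtain ⟨t2, m2, k2, α, hα, e2⟩ := stepA F hu (by rw [Q_ap, (hs5 F).Qb e1 (by decide)]) hne
  set g2 := t2 * g1 with hg2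
  have kg2 : FixOut J1 g2 := k2.mul k1
  have eg2 : ap g2 (b F e1) = α • b F e1 := by rw [hg2, ap_mul, e2]
  set v := ap g2 (b F f1) with hv
  have hvS : Supp J1 v := Supp.ap (hs5 F) hJ1 kg2 (Supp_b (by decide))
  have hvf : v f1 = α⁻¹ := by
    have h1 : 𝐁 (ap g2 (b F e1)) v = 1 := by
      rw [hv, B_ap, (hs5 F).Bb' (by decide)]
      exact b_self _
    rw [eg2, QuadraticMap.polar_smul_left, (hs5 F).Bb' (by decide), smul_eq_mul] at h1
    exact eq_inv_of_mul_eq_one_right h1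
  have hS' : Supp J1 (α⁻¹ • b F f1) := (Supp_b (by decide)).smul _
  obtain ⟨t3, m3, e3, k3⟩ := move (hs5 F) (a := e1) (by decide) (u := v) (u' := α⁻¹ • b F f1)
    (by rw [hv, Q_ap, QuadraticMap.map_smul, (hs5 F).Qb f1 (by decide), smul_zero])
    (by
      show (α⁻¹ • b F f1) f1 = v f1
      rw [hvf, Pi.smul_apply, b_self, smul_eq_mul, mul_one])
    (by
      show v f1 ≠ 0
      rw [hvf]; exact inv_ne_zero hα)
  have kt3 : FixOut J1 t3 := by
    intro c hc
    apply k3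
    · apply b_ne
      intro h
      exact hc (h ▸ (by decide : J1 f1))
    · rw [B_b_of_supp (hs5 F) hJ1 hS' hc, B_b_of_supp (hs5 F) hJ1 hvS hc]
  have et3 : ap t3 (b F e1) = b F e1 := by
    apply k3
    · exact b_ne (by decide)
    · rw [(hs5 F).Bb' (by decide), (hs5 F).Bb' (by decide)]
      show (α⁻¹ • b F f1) f1 = v f1
      rw [hvf, Pi.smul_apply, b_self, smul_eq_mul, mul_one]
  set g3 := t3 * g2 with hg3
  have kg3 : FixOut J1 g3 := kt3.mul kg2
  have c1 : ap g3 (b F e1) = α • b F e1 := by rw [hg3, ap_mul, eg2, ap_smul, et3]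
  have c2 : ap g3 (b F f1) = α⁻¹ • b F f1 := by rw [hg3, ap_mul, ← hv, e3]
  have hyp : ∀ c, H5 c → ∃ l : F, l ≠ 0 ∧ ap g3 (b F c) = l • b F c := by
    intro c hc
    by_cases hJ : J1 c
    · have : c = e1 ∨ c = f1 := by
        revert c; decide
      rcases this with rfl | rfl
      · exact ⟨α, hα, c1⟩
      · exact ⟨α⁻¹, inv_ne_zero hα, c2⟩
    · exact ⟨1, one_ne_zero, by rw [kg3 c hJ, one_smul]⟩
  refine ⟨t3 * (t2 * t1), mul_mem m3 (mul_mem m2 m1), ?_⟩
  have : t3 * (t2 * t1) * g = g3 := by rw [hg3, hg2, hg1]; group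
  rw [this]
  intro c
  by_cases hc : H5 c
  · obtain ⟨l, -, h⟩ := hyp c hc
    exact ⟨l, h⟩
  · have hcz : c = z0 := by
      unfold H5 at hc
      push Not at hc
      exact hc
    subst hcz
    refine ⟨ap g3 (b F z0) z0, ?_⟩
    have hz : ∀ d, H5 d → ap g3 (b F z0) d = 0 := by
      intro d hd
      have hd' : H5 (p5 d) := (hs5 F).pH d hd
      obtain ⟨l, hl, h⟩ := hyp (p5 d) hd'
      have h1 : 𝐁 (ap g3 (b F z0)) (ap g3 (b F (p5 d))) = 0 := by
        rw [B_ap, (hs5 F).Bb _ hd', (hs5 F).pp d hd]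
        exact b_ne hd
      rw [h, QuadraticMap.polar_smul_right, (hs5 F).Bb _ hd', (hs5 F).pp d hd, smul_eq_mul] at h1
      exact (mul_eq_zero.1 h1).resolve_left hl
    funext d
    by_cases hd : H5 d
    · rw [hz d hd, Pi.smul_apply, b_ne hd, smul_zero]
    · have hdz : d = z0 := by
        unfold H5 at hd
        push Not at hd
        exact hd
      subst hdz
      rw [Pi.smul_apply, b_self, smul_eq_mul, mul_one]

theorem comm_le : commutator (O5 F) ≤ TT0 𝐐 H5 := by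
  have : (TT0 𝐐 H5).Normal :=
    TT0_normal (hs5 F) (hN5 F) (a0 := .inr (.inl 0)) (a1 := .inr (.inl 1)) (by decide) (by decide) (by decide) (by decide)
  exact comm_le_of _ (Diag F) (Diag F) (red F) (red F) (fun m m' hm hm' => Diag.comm F hm hm')

theorem Y_ne : Y F 0 1 ≠ 1 := by
  intro h
  have h1 := congrArg (fun g : O5 F => ap g (b F (.inr (.inl 0))) (.inr (.inr 1))) h
  simp only [ap_one, apY0, vec_f1] at h1
  simp [b_apply] at h1

theorem main (hF : ∃ a : F, a ≠ 0 ∧ a ≠ 1) : Nonempty (↥(chevB2.group F) ≃* Cfsg.POmega F (Cfsg.quadFormOdd 2 F)) := by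
  rw [← coe_QOdd]
  have hD : chevB2 ∈ [chevG2, chevB2, chevD4, chevF4, chevE6, chevE7, chevE8] := by simp
  have hperf : commutator (chevB2.SteinbergCover F) = ⊤ := Cfsg.Agent.S2395.result chevB2 hD (fun _ => hF)
  obtain ⟨π, hπ⟩ := exists_pi chevB2 F (Y F) (fun r t hr => Y_out F r t hr) (fun r t u _ => Y_add F r t u)
    (fun r s t u hr hs h1 h2 => Y_comm r s t u hr hs h1 h2)
  rw [closure_Y] at hπ
  have hr : π.range = commutator (O5 F) :=
    le_antisymm (range_le_commutator hperf π) (by rw [hπ]; exact comm_le F)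
  have hne : ∃ x, π x ≠ 1 := by
    have : Y F 0 1 ∈ π.range := by rw [hπ]; exact Y_mem F 0 1
    obtain ⟨x, hx⟩ := this
    exact ⟨x, by rw [hx]; exact Y_ne F⟩
  exact final hD (Cfsg.Agent.Lib.Helper23All.simple hD (fun _ => hF)).1 hperf _ π hr hne

end Cfsg.Agent.Lib.Helper23B2O
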