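import Cfsg.Agent.Lib.Helper23OrFin
import Cfsg.Prelude.Def_ChevB2

set_option autoImplicit false
set_option linter.unusedSectionVars false
set_option linter.unusedVariables false
set_option linter.unusedSimpArgs false

/-! The root elements of `B₂` as Eichler transformations of the form `x₀² + x₁y₁ + x₂y₂`; relations (R1), (R2). -/

namespace Cfsg.Agent.Lib.Helper23B2T

open scoped Matrix
open Subgroup Cfsg.Lie Cfsg.Lie.ChevalleyDatum Cfsg.Agent.Lib.Helper49Orth Cfsg.Agent.Lib.Helper49Eich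
  Cfsg.Agent.Lib.Helper49Forms Cfsg.Agent.Lib.Helper23Or

abbrev I5 := Unit ⊕ (Fin 2 ⊕ Fin 2)

def p5 : I5 → I5 := Sum.map id Sum.swap
def H5 : I5 → Prop := fun c => c ≠ .inl ()

instance : DecidablePred H5 := fun c => by unfold H5; infer_instance

def ta (r : ℕ) : I5 := ([.inr (.inr 0), .inr (.inr 0), .inr (.inr 1), .inr (.inl 1), .inr (.inl 0), .inr (.inl 1), .inr (.inl 0), .inr (.inl 0)] : List I5).getD r (.inr (.inl 0))
def tc (r : ℕ) : I5 := ([.inr (.inr 1), .inl (), .inl (), .inr (.inr 0), .inr (.inr 1), .inl (), .inl (), .inr (.inl 1)] : List I5).getD r (.inr (.inl 1))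
def te (r : ℕ) : ℤ := ([-1, -1, -1, 1, 1, 1, 1, 1] : List ℤ).getD r 0

variable (F : Type*) [Field F]

theorem Q5_apply (x : I5 → F) : QOdd 2 F x = x (.inl ()) ^ 2 + (x (.inr (.inl 0)) * x (.inr (.inr 0)) + x (.inr (.inl 1)) * x (.inr (.inr 1))) := by
  have := congrFun (coe_QOdd (F := F) 2) x
  rw [this]
  unfold Cfsg.quadFormOdd
  rw [Fin.sum_univ_two]

theorem hs5 : HS (QOdd 2 F) p5 H5 where
  pp a _ := by
    rcases a with _ | j | j <;> rfl
  pH a h := by
    rcases a with _ | j | j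
    · exact absurd rfl h
    · intro h; cases h
    · intro h; cases h
  Qb a h := by
    rcases a with _ | j | j
    · exact absurd rfl h
    · have := (hypPair_QOdd (F := F) 2 j).Q_st 1 0
      simpa [b] using this
    · have := (hypPair_QOdd (F := F) 2 j).Q_st 0 1
      simpa [b] using this
  Bb a h x := by
    rw [QuadraticMap.polar_comm]
    rcases a with _ | j | j
    · exact absurd rfl h
    · have := (hypPair_QOdd (F := F) 2 j).polar_st 1 0 x
      simpa [b, p5] using this
    · have := (hypPair_QOdd (F := F) 2 j).polar_st 0 1 x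
      simpa [b, p5] using this

theorem hN5 : ∀ u : I5 → F, QOdd 2 F u = 0 → (∀ c, H5 c → u c = 0) → u = 0 := by
  intro u hu h
  rw [Q5_apply, h (.inr (.inl 0)) (by decide), h (.inr (.inl 1)) (by decide)] at hu
  have h0 : u (.inl ()) = 0 := by
    simpa using hu
  funext c
  by_cases hc : H5 c
  · exact h c hc
  · unfold H5 at hc
    push Not at hc
    rw [hc, h0]; rfl

theorem Q_z : QOdd 2 F (b F (.inl ())) = 1 := by
  rw [Q5_apply]
  simp [b_apply]

theorem B_z (x : I5 → F) : QuadraticMap.polar ⇑(QOdd 2 F) x (b F (.inl ())) = 2 * x (.inl ()) := by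
  unfold QuadraticMap.polar
  rw [Q5_apply, Q5_apply, Q5_apply]
  simp [b_apply]
  ring

theorem ap_short {a : I5} (ha : H5 a) (t : F) (x : I5 → F) :
    ap (E (QOdd 2 F) (b F a) (t • b F (.inl ()))) x =
      x + (2 * t * x (.inl ()) - t ^ 2 * x (p5 a)) • b F a - (t * x (p5 a)) • b F (.inl ()) := by
  have h : (.inl () : I5) ≠ p5 a := by
    rcases a with _ | j | j
    · exact absurd rfl ha
    · intro h; cases h
    · intro h; cases h
  rw [ap_E ((hs5 F).Qb a ha) ((hs5 F).B_bs ha h t), QuadraticMap.map_smul, Q_z, QuadraticMap.polar_smul_right,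
    B_z, (hs5 F).Bb a ha, smul_smul]
  congr 2
  · simp only [smul_eq_mul]; ring
  · rw [mul_comm]

/-- the root elements -/
noncomputable def Y (r : ℕ) (t : F) : ↥(Cfsg.isometryGroup F ⇑(QOdd 2 F)) :=
  E (QOdd 2 F) (b F (ta r)) ((((te r : ℤ) : F) * t) • b F (tc r))

variable {F}

/-- a vector given by its five coordinates -/
def vec (z e0 e1 f0 f1 : F) : I5 → F
  | .inl () => z
  | .inr (.inl 0) => e0
  | .inr (.inl 1) => e1
  | .inr (.inr 0) => f0
  | .inr (.inr 1) => f1

theorem vec_z (z e0 e1 f0 f1 : F) : vec z e0 e1 f0 f1 (.inl ()) = z := rfl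
theorem vec_e0 (z e0 e1 f0 f1 : F) : vec z e0 e1 f0 f1 (.inr (.inl 0)) = e0 := rfl
theorem vec_e1 (z e0 e1 f0 f1 : F) : vec z e0 e1 f0 f1 (.inr (.inl 1)) = e1 := rfl
theorem vec_f0 (z e0 e1 f0 f1 : F) : vec z e0 e1 f0 f1 (.inr (.inr 0)) = f0 := rfl
theorem vec_f1 (z e0 e1 f0 f1 : F) : vec z e0 e1 f0 f1 (.inr (.inr 1)) = f1 := rfl

theorem ext5 {x y : I5 → F} (h0 : x (.inl ()) = y (.inl ())) (h1 : x (.inr (.inl 0)) = y (.inr (.inl 0)))
    (h2 : x (.inr (.inl 1)) = y (.inr (.inl 1))) (h3 : x (.inr (.inr 0)) = y (.inr (.inr 0)))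
    (h4 : x (.inr (.inr 1)) = y (.inr (.inr 1))) : x = y := by
  funext i
  rcases i with _ | j | j
  · exact h0
  · fin_cases j
    · exact h1
    · exact h2
  · fin_cases j
    · exact h3
    · exact h4


theorem apY0 (t : F) (x : I5 → F) : ap (Y F 0 t) x =
    vec (x (.inl ())) (x (.inr (.inl 0))) (x (.inr (.inl 1))) (x (.inr (.inr 0)) + (-t) * x (.inr (.inl 1))) (x (.inr (.inr 1)) - (-t) * x (.inr (.inl 0))) := by
  have e1 : ta 0 = .inr (.inr 0) := rfl
  have e2 : tc 0 = .inr (.inr 1) := rfl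
  have e3 : te 0 = -1 := rfl
  unfold Y
  rw [e1, e2, e3]
  rw [ap_long (hs5 F) (by decide) (by decide) (by decide)]
  apply ext5 <;> simp [vec_z, vec_e0, vec_e1, vec_f0, vec_f1, b_apply, p5] <;> ring


theorem apY1 (t : F) (x : I5 → F) : ap (Y F 1 t) x =
    vec (x (.inl ()) - (-t) * x (.inr (.inl 0))) (x (.inr (.inl 0))) (x (.inr (.inl 1))) (x (.inr (.inr 0)) + (2 * (-t) * x (.inl ()) - t ^ 2 * x (.inr (.inl 0)))) (x (.inr (.inr 1))) := by
  have e1 : ta 1 = .inr (.inr 0) := rfl
  have e2 : tc 1 = .inl () := rfl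
  have e3 : te 1 = -1 := rfl
  unfold Y
  rw [e1, e2, e3]
  rw [ap_short F (by decide)]
  apply ext5 <;> simp [vec_z, vec_e0, vec_e1, vec_f0, vec_f1, b_apply, p5] <;> ring


theorem apY2 (t : F) (x : I5 → F) : ap (Y F 2 t) x =
    vec (x (.inl ()) - (-t) * x (.inr (.inl 1))) (x (.inr (.inl 0))) (x (.inr (.inl 1))) (x (.inr (.inr 0))) (x (.inr (.inr 1)) + (2 * (-t) * x (.inl ()) - t ^ 2 * x (.inr (.inl 1)))) := by
  have e1 : ta 2 = .inr (.inr 1) := rfl
  have e2 : tc 2 = .inl () := rfl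
  have e3 : te 2 = -1 := rfl
  unfold Y
  rw [e1, e2, e3]
  rw [ap_short F (by decide)]
  apply ext5 <;> simp [vec_z, vec_e0, vec_e1, vec_f0, vec_f1, b_apply, p5] <;> ring


theorem apY3 (t : F) (x : I5 → F) : ap (Y F 3 t) x =
    vec (x (.inl ())) (x (.inr (.inl 0))) (x (.inr (.inl 1)) + t * x (.inr (.inl 0))) (x (.inr (.inr 0)) - t * x (.inr (.inr 1))) (x (.inr (.inr 1))) := by
  have e1 : ta 3 = .inr (.inl 1) := rfl
  have e2 : tc 3 = .inr (.inr 0) := rfl
  have e3 : te 3 = 1 := rfl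
  unfold Y
  rw [e1, e2, e3]
  rw [ap_long (hs5 F) (by decide) (by decide) (by decide)]
  apply ext5 <;> simp [vec_z, vec_e0, vec_e1, vec_f0, vec_f1, b_apply, p5] <;> ring


theorem apY4 (t : F) (x : I5 → F) : ap (Y F 4 t) x =
    vec (x (.inl ())) (x (.inr (.inl 0)) + t * x (.inr (.inl 1))) (x (.inr (.inl 1))) (x (.inr (.inr 0))) (x (.inr (.inr 1)) - t * x (.inr (.inr 0))) := by
  have e1 : ta 4 = .inr (.inl 0) := rfl
  have e2 : tc 4 = .inr (.inr 1) := rfl
  have e3 : te 4 = 1 := rfl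
  unfold Y
  rw [e1, e2, e3]
  rw [ap_long (hs5 F) (by decide) (by decide) (by decide)]
  apply ext5 <;> simp [vec_z, vec_e0, vec_e1, vec_f0, vec_f1, b_apply, p5] <;> ring


theorem apY5 (t : F) (x : I5 → F) : ap (Y F 5 t) x =
    vec (x (.inl ()) - t * x (.inr (.inr 1))) (x (.inr (.inl 0))) (x (.inr (.inl 1)) + (2 * t * x (.inl ()) - t ^ 2 * x (.inr (.inr 1)))) (x (.inr (.inr 0))) (x (.inr (.inr 1))) := by
  have e1 : ta 5 = .inr (.inl 1) := rfl
  have e2 : tc 5 = .inl () := rfl
  have e3 : te 5 = 1 := rfl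
  unfold Y
  rw [e1, e2, e3]
  rw [ap_short F (by decide)]
  apply ext5 <;> simp [vec_z, vec_e0, vec_e1, vec_f0, vec_f1, b_apply, p5] <;> ring


theorem apY6 (t : F) (x : I5 → F) : ap (Y F 6 t) x =
    vec (x (.inl ()) - t * x (.inr (.inr 0))) (x (.inr (.inl 0)) + (2 * t * x (.inl ()) - t ^ 2 * x (.inr (.inr 0)))) (x (.inr (.inl 1))) (x (.inr (.inr 0))) (x (.inr (.inr 1))) := by
  have e1 : ta 6 = .inr (.inl 0) := rfl
  have e2 : tc 6 = .inl () := rfl
  have e3 : te 6 = 1 := rfl
  unfold Y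
  rw [e1, e2, e3]
  rw [ap_short F (by decide)]
  apply ext5 <;> simp [vec_z, vec_e0, vec_e1, vec_f0, vec_f1, b_apply, p5] <;> ring


theorem apY7 (t : F) (x : I5 → F) : ap (Y F 7 t) x =
    vec (x (.inl ())) (x (.inr (.inl 0)) + t * x (.inr (.inr 1))) (x (.inr (.inl 1)) - t * x (.inr (.inr 0))) (x (.inr (.inr 0))) (x (.inr (.inr 1))) := by
  have e1 : ta 7 = .inr (.inl 0) := rfl
  have e2 : tc 7 = .inr (.inl 1) := rfl
  have e3 : te 7 = 1 := rfl
  unfold Y
  rw [e1, e2, e3]
  rw [ap_long (hs5 F) (by decide) (by decide) (by decide)]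
  apply ext5 <;> simp [vec_z, vec_e0, vec_e1, vec_f0, vec_f1, b_apply, p5] <;> ring


theorem cm_0_1 (t u : F) : Y F 1 u * Y F 0 t =
    Y F 0 t * Y F 1 u * ((chevB2.commWord F 0 1 t u).map fun q => Y F q.1 q.2).prod := by
  have e : chevB2.commTerms 0 1 = [] := by decide +kernel
  unfold commWord
  rw [e]
  simp only [List.map_cons, List.map_nil, List.prod_cons, List.prod_nil, mul_one]
  apply ap_ext
  intro x
  simp only [ap_mul, apY0, apY1, apY2, apY3, apY4, apY5, apY6, apY7, vec_z, vec_e0, vec_e1, vec_f0, vec_f1]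
  congr 1 <;> push_cast <;> ring


theorem cm_0_2 (t u : F) : Y F 2 u * Y F 0 t =
    Y F 0 t * Y F 2 u * ((chevB2.commWord F 0 2 t u).map fun q => Y F q.1 q.2).prod := by
  have e : chevB2.commTerms 0 2 = [] := by decide +kernel
  unfold commWord
  rw [e]
  simp only [List.map_cons, List.map_nil, List.prod_cons, List.prod_nil, mul_one]
  apply ap_ext
  intro x
  simp only [ap_mul, apY0, apY1, apY2, apY3, apY4, apY5, apY6, apY7, vec_z, vec_e0, vec_e1, vec_f0, vec_f1]
  congr 1 <;> push_cast <;> ring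


theorem cm_0_3 (t u : F) : Y F 3 u * Y F 0 t =
    Y F 0 t * Y F 3 u * ((chevB2.commWord F 0 3 t u).map fun q => Y F q.1 q.2).prod := by
  have e : chevB2.commTerms 0 3 = [] := by decide +kernel
  unfold commWord
  rw [e]
  simp only [List.map_cons, List.map_nil, List.prod_cons, List.prod_nil, mul_one]
  apply ap_ext
  intro x
  simp only [ap_mul, apY0, apY1, apY2, apY3, apY4, apY5, apY6, apY7, vec_z, vec_e0, vec_e1, vec_f0, vec_f1]
  congr 1 <;> push_cast <;> ring


theorem cm_0_4 (t u : F) : Y F 4 u * Y F 0 t =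
    Y F 0 t * Y F 4 u * ((chevB2.commWord F 0 4 t u).map fun q => Y F q.1 q.2).prod := by
  have e : chevB2.commTerms 0 4 = [] := by decide +kernel
  unfold commWord
  rw [e]
  simp only [List.map_cons, List.map_nil, List.prod_cons, List.prod_nil, mul_one]
  apply ap_ext
  intro x
  simp only [ap_mul, apY0, apY1, apY2, apY3, apY4, apY5, apY6, apY7, vec_z, vec_e0, vec_e1, vec_f0, vec_f1]
  congr 1 <;> push_cast <;> ring


theorem cm_0_5 (t u : F) : Y F 5 u * Y F 0 t =
    Y F 0 t * Y F 5 u * ((chevB2.commWord F 0 5 t u).map fun q => Y F q.1 q.2).prod := by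
  have e : chevB2.commTerms 0 5 = [(1, 1, 1, 1), (3, -1, 1, 2)] := by decide +kernel
  unfold commWord
  rw [e]
  simp only [List.map_cons, List.map_nil, List.prod_cons, List.prod_nil, mul_one]
  apply ap_ext
  intro x
  simp only [ap_mul, apY0, apY1, apY2, apY3, apY4, apY5, apY6, apY7, vec_z, vec_e0, vec_e1, vec_f0, vec_f1]
  congr 1 <;> push_cast <;> ring


theorem cm_0_6 (t u : F) : Y F 6 u * Y F 0 t =
    Y F 0 t * Y F 6 u * ((chevB2.commWord F 0 6 t u).map fun q => Y F q.1 q.2).prod := by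
  have e : chevB2.commTerms 0 6 = [(2, -1, 1, 1), (4, 1, 1, 2)] := by decide +kernel
  unfold commWord
  rw [e]
  simp only [List.map_cons, List.map_nil, List.prod_cons, List.prod_nil, mul_one]
  apply ap_ext
  intro x
  simp only [ap_mul, apY0, apY1, apY2, apY3, apY4, apY5, apY6, apY7, vec_z, vec_e0, vec_e1, vec_f0, vec_f1]
  congr 1 <;> push_cast <;> ring


theorem cm_1_0 (t u : F) : Y F 0 u * Y F 1 t =
    Y F 1 t * Y F 0 u * ((chevB2.commWord F 1 0 t u).map fun q => Y F q.1 q.2).prod := by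
  have e : chevB2.commTerms 1 0 = [] := by decide +kernel
  unfold commWord
  rw [e]
  simp only [List.map_cons, List.map_nil, List.prod_cons, List.prod_nil, mul_one]
  apply ap_ext
  intro x
  simp only [ap_mul, apY0, apY1, apY2, apY3, apY4, apY5, apY6, apY7, vec_z, vec_e0, vec_e1, vec_f0, vec_f1]
  congr 1 <;> push_cast <;> ring


theorem cm_1_2 (t u : F) : Y F 2 u * Y F 1 t =
    Y F 1 t * Y F 2 u * ((chevB2.commWord F 1 2 t u).map fun q => Y F q.1 q.2).prod := by
  have e : chevB2.commTerms 1 2 = [(0, 2, 1, 1)] := by decide +kernel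
  unfold commWord
  rw [e]
  simp only [List.map_cons, List.map_nil, List.prod_cons, List.prod_nil, mul_one]
  apply ap_ext
  intro x
  simp only [ap_mul, apY0, apY1, apY2, apY3, apY4, apY5, apY6, apY7, vec_z, vec_e0, vec_e1, vec_f0, vec_f1]
  congr 1 <;> push_cast <;> ring


theorem cm_1_3 (t u : F) : Y F 3 u * Y F 1 t =
    Y F 1 t * Y F 3 u * ((chevB2.commWord F 1 3 t u).map fun q => Y F q.1 q.2).prod := by
  have e : chevB2.commTerms 1 3 = [] := by decide +kernel
  unfold commWord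
  rw [e]
  simp only [List.map_cons, List.map_nil, List.prod_cons, List.prod_nil, mul_one]
  apply ap_ext
  intro x
  simp only [ap_mul, apY0, apY1, apY2, apY3, apY4, apY5, apY6, apY7, vec_z, vec_e0, vec_e1, vec_f0, vec_f1]
  congr 1 <;> push_cast <;> ring


theorem cm_1_4 (t u : F) : Y F 4 u * Y F 1 t =
    Y F 1 t * Y F 4 u * ((chevB2.commWord F 1 4 t u).map fun q => Y F q.1 q.2).prod := by
  have e : chevB2.commTerms 1 4 = [(2, 1, 1, 1), (0, 1, 2, 1)] := by decide +kernel
  unfold commWord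
  rw [e]
  simp only [List.map_cons, List.map_nil, List.prod_cons, List.prod_nil, mul_one]
  apply ap_ext
  intro x
  simp only [ap_mul, apY0, apY1, apY2, apY3, apY4, apY5, apY6, apY7, vec_z, vec_e0, vec_e1, vec_f0, vec_f1]
  congr 1 <;> push_cast <;> ring


theorem cm_1_5 (t u : F) : Y F 5 u * Y F 1 t =
    Y F 1 t * Y F 5 u * ((chevB2.commWord F 1 5 t u).map fun q => Y F q.1 q.2).prod := by
  have e : chevB2.commTerms 1 5 = [(3, -2, 1, 1)] := by decide +kernel
  unfold commWord
  rw [e]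
  simp only [List.map_cons, List.map_nil, List.prod_cons, List.prod_nil, mul_one]
  apply ap_ext
  intro x
  simp only [ap_mul, apY0, apY1, apY2, apY3, apY4, apY5, apY6, apY7, vec_z, vec_e0, vec_e1, vec_f0, vec_f1]
  congr 1 <;> push_cast <;> ring


theorem cm_1_7 (t u : F) : Y F 7 u * Y F 1 t =
    Y F 1 t * Y F 7 u * ((chevB2.commWord F 1 7 t u).map fun q => Y F q.1 q.2).prod := by
  have e : chevB2.commTerms 1 7 = [(5, -1, 1, 1), (3, 1, 2, 1)] := by decide +kernel
  unfold commWord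
  rw [e]
  simp only [List.map_cons, List.map_nil, List.prod_cons, List.prod_nil, mul_one]
  apply ap_ext
  intro x
  simp only [ap_mul, apY0, apY1, apY2, apY3, apY4, apY5, apY6, apY7, vec_z, vec_e0, vec_e1, vec_f0, vec_f1]
  congr 1 <;> push_cast <;> ring


theorem cm_2_0 (t u : F) : Y F 0 u * Y F 2 t =
    Y F 2 t * Y F 0 u * ((chevB2.commWord F 2 0 t u).map fun q => Y F q.1 q.2).prod := by
  have e : chevB2.commTerms 2 0 = [] := by decide +kernel
  unfold commWord
  rw [e]
  simp only [List.map_cons, List.map_nil, List.prod_cons, List.prod_nil, mul_one]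
  apply ap_ext
  intro x
  simp only [ap_mul, apY0, apY1, apY2, apY3, apY4, apY5, apY6, apY7, vec_z, vec_e0, vec_e1, vec_f0, vec_f1]
  congr 1 <;> push_cast <;> ring


theorem cm_2_1 (t u : F) : Y F 1 u * Y F 2 t =
    Y F 2 t * Y F 1 u * ((chevB2.commWord F 2 1 t u).map fun q => Y F q.1 q.2).prod := by
  have e : chevB2.commTerms 2 1 = [(0, -2, 1, 1)] := by decide +kernel
  unfold commWord
  rw [e]
  simp only [List.map_cons, List.map_nil, List.prod_cons, List.prod_nil, mul_one]
  apply ap_ext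
  intro x
  simp only [ap_mul, apY0, apY1, apY2, apY3, apY4, apY5, apY6, apY7, vec_z, vec_e0, vec_e1, vec_f0, vec_f1]
  congr 1 <;> push_cast <;> ring


theorem cm_2_3 (t u : F) : Y F 3 u * Y F 2 t =
    Y F 2 t * Y F 3 u * ((chevB2.commWord F 2 3 t u).map fun q => Y F q.1 q.2).prod := by
  have e : chevB2.commTerms 2 3 = [(1, 1, 1, 1), (0, -1, 2, 1)] := by decide +kernel
  unfold commWord
  rw [e]
  simp only [List.map_cons, List.map_nil, List.prod_cons, List.prod_nil, mul_one]
  apply ap_ext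
  intro x
  simp only [ap_mul, apY0, apY1, apY2, apY3, apY4, apY5, apY6, apY7, vec_z, vec_e0, vec_e1, vec_f0, vec_f1]
  congr 1 <;> push_cast <;> ring


theorem cm_2_4 (t u : F) : Y F 4 u * Y F 2 t =
    Y F 2 t * Y F 4 u * ((chevB2.commWord F 2 4 t u).map fun q => Y F q.1 q.2).prod := by
  have e : chevB2.commTerms 2 4 = [] := by decide +kernel
  unfold commWord
  rw [e]
  simp only [List.map_cons, List.map_nil, List.prod_cons, List.prod_nil, mul_one]
  apply ap_ext
  intro x
  simp only [ap_mul, apY0, apY1, apY2, apY3, apY4, apY5, apY6, apY7, vec_z, vec_e0, vec_e1, vec_f0, vec_f1]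
  congr 1 <;> push_cast <;> ring


theorem cm_2_6 (t u : F) : Y F 6 u * Y F 2 t =
    Y F 2 t * Y F 6 u * ((chevB2.commWord F 2 6 t u).map fun q => Y F q.1 q.2).prod := by
  have e : chevB2.commTerms 2 6 = [(4, -2, 1, 1)] := by decide +kernel
  unfold commWord
  rw [e]
  simp only [List.map_cons, List.map_nil, List.prod_cons, List.prod_nil, mul_one]
  apply ap_ext
  intro x
  simp only [ap_mul, apY0, apY1, apY2, apY3, apY4, apY5, apY6, apY7, vec_z, vec_e0, vec_e1, vec_f0, vec_f1]
  congr 1 <;> push_cast <;> ring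


theorem cm_2_7 (t u : F) : Y F 7 u * Y F 2 t =
    Y F 2 t * Y F 7 u * ((chevB2.commWord F 2 7 t u).map fun q => Y F q.1 q.2).prod := by
  have e : chevB2.commTerms 2 7 = [(6, 1, 1, 1), (4, -1, 2, 1)] := by decide +kernel
  unfold commWord
  rw [e]
  simp only [List.map_cons, List.map_nil, List.prod_cons, List.prod_nil, mul_one]
  apply ap_ext
  intro x
  simp only [ap_mul, apY0, apY1, apY2, apY3, apY4, apY5, apY6, apY7, vec_z, vec_e0, vec_e1, vec_f0, vec_f1]
  congr 1 <;> push_cast <;> ring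


theorem cm_3_0 (t u : F) : Y F 0 u * Y F 3 t =
    Y F 3 t * Y F 0 u * ((chevB2.commWord F 3 0 t u).map fun q => Y F q.1 q.2).prod := by
  have e : chevB2.commTerms 3 0 = [] := by decide +kernel
  unfold commWord
  rw [e]
  simp only [List.map_cons, List.map_nil, List.prod_cons, List.prod_nil, mul_one]
  apply ap_ext
  intro x
  simp only [ap_mul, apY0, apY1, apY2, apY3, apY4, apY5, apY6, apY7, vec_z, vec_e0, vec_e1, vec_f0, vec_f1]
  congr 1 <;> push_cast <;> ring


theorem cm_3_1 (t u : F) : Y F 1 u * Y F 3 t =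
    Y F 3 t * Y F 1 u * ((chevB2.commWord F 3 1 t u).map fun q => Y F q.1 q.2).prod := by
  have e : chevB2.commTerms 3 1 = [] := by decide +kernel
  unfold commWord
  rw [e]
  simp only [List.map_cons, List.map_nil, List.prod_cons, List.prod_nil, mul_one]
  apply ap_ext
  intro x
  simp only [ap_mul, apY0, apY1, apY2, apY3, apY4, apY5, apY6, apY7, vec_z, vec_e0, vec_e1, vec_f0, vec_f1]
  congr 1 <;> push_cast <;> ring


theorem cm_3_2 (t u : F) : Y F 2 u * Y F 3 t =
    Y F 3 t * Y F 2 u * ((chevB2.commWord F 3 2 t u).map fun q => Y F q.1 q.2).prod := by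
  have e : chevB2.commTerms 3 2 = [(1, -1, 1, 1), (0, -1, 1, 2)] := by decide +kernel
  unfold commWord
  rw [e]
  simp only [List.map_cons, List.map_nil, List.prod_cons, List.prod_nil, mul_one]
  apply ap_ext
  intro x
  simp only [ap_mul, apY0, apY1, apY2, apY3, apY4, apY5, apY6, apY7, vec_z, vec_e0, vec_e1, vec_f0, vec_f1]
  congr 1 <;> push_cast <;> ring


theorem cm_3_5 (t u : F) : Y F 5 u * Y F 3 t =
    Y F 3 t * Y F 5 u * ((chevB2.commWord F 3 5 t u).map fun q => Y F q.1 q.2).prod := by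
  have e : chevB2.commTerms 3 5 = [] := by decide +kernel
  unfold commWord
  rw [e]
  simp only [List.map_cons, List.map_nil, List.prod_cons, List.prod_nil, mul_one]
  apply ap_ext
  intro x
  simp only [ap_mul, apY0, apY1, apY2, apY3, apY4, apY5, apY6, apY7, vec_z, vec_e0, vec_e1, vec_f0, vec_f1]
  congr 1 <;> push_cast <;> ring


theorem cm_3_6 (t u : F) : Y F 6 u * Y F 3 t =
    Y F 3 t * Y F 6 u * ((chevB2.commWord F 3 6 t u).map fun q => Y F q.1 q.2).prod := by
  have e : chevB2.commTerms 3 6 = [(5, 1, 1, 1), (7, 1, 1, 2)] := by decide +kernel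
  unfold commWord
  rw [e]
  simp only [List.map_cons, List.map_nil, List.prod_cons, List.prod_nil, mul_one]
  apply ap_ext
  intro x
  simp only [ap_mul, apY0, apY1, apY2, apY3, apY4, apY5, apY6, apY7, vec_z, vec_e0, vec_e1, vec_f0, vec_f1]
  congr 1 <;> push_cast <;> ring


theorem cm_3_7 (t u : F) : Y F 7 u * Y F 3 t =
    Y F 3 t * Y F 7 u * ((chevB2.commWord F 3 7 t u).map fun q => Y F q.1 q.2).prod := by
  have e : chevB2.commTerms 3 7 = [] := by decide +kernel
  unfold commWord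
  rw [e]
  simp only [List.map_cons, List.map_nil, List.prod_cons, List.prod_nil, mul_one]
  apply ap_ext
  intro x
  simp only [ap_mul, apY0, apY1, apY2, apY3, apY4, apY5, apY6, apY7, vec_z, vec_e0, vec_e1, vec_f0, vec_f1]
  congr 1 <;> push_cast <;> ring


theorem cm_4_0 (t u : F) : Y F 0 u * Y F 4 t =
    Y F 4 t * Y F 0 u * ((chevB2.commWord F 4 0 t u).map fun q => Y F q.1 q.2).prod := by
  have e : chevB2.commTerms 4 0 = [] := by decide +kernel
  unfold commWord
  rw [e]
  simp only [List.map_cons, List.map_nil, List.prod_cons, List.prod_nil, mul_one]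
  apply ap_ext
  intro x
  simp only [ap_mul, apY0, apY1, apY2, apY3, apY4, apY5, apY6, apY7, vec_z, vec_e0, vec_e1, vec_f0, vec_f1]
  congr 1 <;> push_cast <;> ring


theorem cm_4_1 (t u : F) : Y F 1 u * Y F 4 t =
    Y F 4 t * Y F 1 u * ((chevB2.commWord F 4 1 t u).map fun q => Y F q.1 q.2).prod := by
  have e : chevB2.commTerms 4 1 = [(2, -1, 1, 1), (0, 1, 1, 2)] := by decide +kernel
  unfold commWord
  rw [e]
  simp only [List.map_cons, List.map_nil, List.prod_cons, List.prod_nil, mul_one]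
  apply ap_ext
  intro x
  simp only [ap_mul, apY0, apY1, apY2, apY3, apY4, apY5, apY6, apY7, vec_z, vec_e0, vec_e1, vec_f0, vec_f1]
  congr 1 <;> push_cast <;> ring


theorem cm_4_2 (t u : F) : Y F 2 u * Y F 4 t =
    Y F 4 t * Y F 2 u * ((chevB2.commWord F 4 2 t u).map fun q => Y F q.1 q.2).prod := by
  have e : chevB2.commTerms 4 2 = [] := by decide +kernel
  unfold commWord
  rw [e]
  simp only [List.map_cons, List.map_nil, List.prod_cons, List.prod_nil, mul_one]
  apply ap_ext
  intro x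
  simp only [ap_mul, apY0, apY1, apY2, apY3, apY4, apY5, apY6, apY7, vec_z, vec_e0, vec_e1, vec_f0, vec_f1]
  congr 1 <;> push_cast <;> ring


theorem cm_4_5 (t u : F) : Y F 5 u * Y F 4 t =
    Y F 4 t * Y F 5 u * ((chevB2.commWord F 4 5 t u).map fun q => Y F q.1 q.2).prod := by
  have e : chevB2.commTerms 4 5 = [(6, 1, 1, 1), (7, -1, 1, 2)] := by decide +kernel
  unfold commWord
  rw [e]
  simp only [List.map_cons, List.map_nil, List.prod_cons, List.prod_nil, mul_one]
  apply ap_ext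
  intro x
  simp only [ap_mul, apY0, apY1, apY2, apY3, apY4, apY5, apY6, apY7, vec_z, vec_e0, vec_e1, vec_f0, vec_f1]
  congr 1 <;> push_cast <;> ring


theorem cm_4_6 (t u : F) : Y F 6 u * Y F 4 t =
    Y F 4 t * Y F 6 u * ((chevB2.commWord F 4 6 t u).map fun q => Y F q.1 q.2).prod := by
  have e : chevB2.commTerms 4 6 = [] := by decide +kernel
  unfold commWord
  rw [e]
  simp only [List.map_cons, List.map_nil, List.prod_cons, List.prod_nil, mul_one]
  apply ap_ext
  intro x
  simp only [ap_mul, apY0, apY1, apY2, apY3, apY4, apY5, apY6, apY7, vec_z, vec_e0, vec_e1, vec_f0, vec_f1]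
  congr 1 <;> push_cast <;> ring


theorem cm_4_7 (t u : F) : Y F 7 u * Y F 4 t =
    Y F 4 t * Y F 7 u * ((chevB2.commWord F 4 7 t u).map fun q => Y F q.1 q.2).prod := by
  have e : chevB2.commTerms 4 7 = [] := by decide +kernel
  unfold commWord
  rw [e]
  simp only [List.map_cons, List.map_nil, List.prod_cons, List.prod_nil, mul_one]
  apply ap_ext
  intro x
  simp only [ap_mul, apY0, apY1, apY2, apY3, apY4, apY5, apY6, apY7, vec_z, vec_e0, vec_e1, vec_f0, vec_f1]
  congr 1 <;> push_cast <;> ring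


theorem cm_5_0 (t u : F) : Y F 0 u * Y F 5 t =
    Y F 5 t * Y F 0 u * ((chevB2.commWord F 5 0 t u).map fun q => Y F q.1 q.2).prod := by
  have e : chevB2.commTerms 5 0 = [(1, -1, 1, 1), (3, -1, 2, 1)] := by decide +kernel
  unfold commWord
  rw [e]
  simp only [List.map_cons, List.map_nil, List.prod_cons, List.prod_nil, mul_one]
  apply ap_ext
  intro x
  simp only [ap_mul, apY0, apY1, apY2, apY3, apY4, apY5, apY6, apY7, vec_z, vec_e0, vec_e1, vec_f0, vec_f1]
  congr 1 <;> push_cast <;> ring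


theorem cm_5_1 (t u : F) : Y F 1 u * Y F 5 t =
    Y F 5 t * Y F 1 u * ((chevB2.commWord F 5 1 t u).map fun q => Y F q.1 q.2).prod := by
  have e : chevB2.commTerms 5 1 = [(3, 2, 1, 1)] := by decide +kernel
  unfold commWord
  rw [e]
  simp only [List.map_cons, List.map_nil, List.prod_cons, List.prod_nil, mul_one]
  apply ap_ext
  intro x
  simp only [ap_mul, apY0, apY1, apY2, apY3, apY4, apY5, apY6, apY7, vec_z, vec_e0, vec_e1, vec_f0, vec_f1]
  congr 1 <;> push_cast <;> ring


theorem cm_5_3 (t u : F) : Y F 3 u * Y F 5 t =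
    Y F 5 t * Y F 3 u * ((chevB2.commWord F 5 3 t u).map fun q => Y F q.1 q.2).prod := by
  have e : chevB2.commTerms 5 3 = [] := by decide +kernel
  unfold commWord
  rw [e]
  simp only [List.map_cons, List.map_nil, List.prod_cons, List.prod_nil, mul_one]
  apply ap_ext
  intro x
  simp only [ap_mul, apY0, apY1, apY2, apY3, apY4, apY5, apY6, apY7, vec_z, vec_e0, vec_e1, vec_f0, vec_f1]
  congr 1 <;> push_cast <;> ring


theorem cm_5_4 (t u : F) : Y F 4 u * Y F 5 t =
    Y F 5 t * Y F 4 u * ((chevB2.commWord F 5 4 t u).map fun q => Y F q.1 q.2).prod := by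
  have e : chevB2.commTerms 5 4 = [(6, -1, 1, 1), (7, -1, 2, 1)] := by decide +kernel
  unfold commWord
  rw [e]
  simp only [List.map_cons, List.map_nil, List.prod_cons, List.prod_nil, mul_one]
  apply ap_ext
  intro x
  simp only [ap_mul, apY0, apY1, apY2, apY3, apY4, apY5, apY6, apY7, vec_z, vec_e0, vec_e1, vec_f0, vec_f1]
  congr 1 <;> push_cast <;> ring


theorem cm_5_6 (t u : F) : Y F 6 u * Y F 5 t =
    Y F 5 t * Y F 6 u * ((chevB2.commWord F 5 6 t u).map fun q => Y F q.1 q.2).prod := by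
  have e : chevB2.commTerms 5 6 = [(7, 2, 1, 1)] := by decide +kernel
  unfold commWord
  rw [e]
  simp only [List.map_cons, List.map_nil, List.prod_cons, List.prod_nil, mul_one]
  apply ap_ext
  intro x
  simp only [ap_mul, apY0, apY1, apY2, apY3, apY4, apY5, apY6, apY7, vec_z, vec_e0, vec_e1, vec_f0, vec_f1]
  congr 1 <;> push_cast <;> ring


theorem cm_5_7 (t u : F) : Y F 7 u * Y F 5 t =
    Y F 5 t * Y F 7 u * ((chevB2.commWord F 5 7 t u).map fun q => Y F q.1 q.2).prod := by
  have e : chevB2.commTerms 5 7 = [] := by decide +kernel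
  unfold commWord
  rw [e]
  simp only [List.map_cons, List.map_nil, List.prod_cons, List.prod_nil, mul_one]
  apply ap_ext
  intro x
  simp only [ap_mul, apY0, apY1, apY2, apY3, apY4, apY5, apY6, apY7, vec_z, vec_e0, vec_e1, vec_f0, vec_f1]
  congr 1 <;> push_cast <;> ring


theorem cm_6_0 (t u : F) : Y F 0 u * Y F 6 t =
    Y F 6 t * Y F 0 u * ((chevB2.commWord F 6 0 t u).map fun q => Y F q.1 q.2).prod := by
  have e : chevB2.commTerms 6 0 = [(2, 1, 1, 1), (4, 1, 2, 1)] := by decide +kernel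
  unfold commWord
  rw [e]
  simp only [List.map_cons, List.map_nil, List.prod_cons, List.prod_nil, mul_one]
  apply ap_ext
  intro x
  simp only [ap_mul, apY0, apY1, apY2, apY3, apY4, apY5, apY6, apY7, vec_z, vec_e0, vec_e1, vec_f0, vec_f1]
  congr 1 <;> push_cast <;> ring


theorem cm_6_2 (t u : F) : Y F 2 u * Y F 6 t =
    Y F 6 t * Y F 2 u * ((chevB2.commWord F 6 2 t u).map fun q => Y F q.1 q.2).prod := by
  have e : chevB2.commTerms 6 2 = [(4, 2, 1, 1)] := by decide +kernel
  unfold commWord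
  rw [e]
  simp only [List.map_cons, List.map_nil, List.prod_cons, List.prod_nil, mul_one]
  apply ap_ext
  intro x
  simp only [ap_mul, apY0, apY1, apY2, apY3, apY4, apY5, apY6, apY7, vec_z, vec_e0, vec_e1, vec_f0, vec_f1]
  congr 1 <;> push_cast <;> ring


theorem cm_6_3 (t u : F) : Y F 3 u * Y F 6 t =
    Y F 6 t * Y F 3 u * ((chevB2.commWord F 6 3 t u).map fun q => Y F q.1 q.2).prod := by
  have e : chevB2.commTerms 6 3 = [(5, -1, 1, 1), (7, 1, 2, 1)] := by decide +kernel
  unfold commWord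
  rw [e]
  simp only [List.map_cons, List.map_nil, List.prod_cons, List.prod_nil, mul_one]
  apply ap_ext
  intro x
  simp only [ap_mul, apY0, apY1, apY2, apY3, apY4, apY5, apY6, apY7, vec_z, vec_e0, vec_e1, vec_f0, vec_f1]
  congr 1 <;> push_cast <;> ring


theorem cm_6_4 (t u : F) : Y F 4 u * Y F 6 t =
    Y F 6 t * Y F 4 u * ((chevB2.commWord F 6 4 t u).map fun q => Y F q.1 q.2).prod := by
  have e : chevB2.commTerms 6 4 = [] := by decide +kernel
  unfold commWord
  rw [e]
  simp only [List.map_cons, List.map_nil, List.prod_cons, List.prod_nil, mul_one]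
  apply ap_ext
  intro x
  simp only [ap_mul, apY0, apY1, apY2, apY3, apY4, apY5, apY6, apY7, vec_z, vec_e0, vec_e1, vec_f0, vec_f1]
  congr 1 <;> push_cast <;> ring


theorem cm_6_5 (t u : F) : Y F 5 u * Y F 6 t =
    Y F 6 t * Y F 5 u * ((chevB2.commWord F 6 5 t u).map fun q => Y F q.1 q.2).prod := by
  have e : chevB2.commTerms 6 5 = [(7, -2, 1, 1)] := by decide +kernel
  unfold commWord
  rw [e]
  simp only [List.map_cons, List.map_nil, List.prod_cons, List.prod_nil, mul_one]
  apply ap_ext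
  intro x
  simp only [ap_mul, apY0, apY1, apY2, apY3, apY4, apY5, apY6, apY7, vec_z, vec_e0, vec_e1, vec_f0, vec_f1]
  congr 1 <;> push_cast <;> ring


theorem cm_6_7 (t u : F) : Y F 7 u * Y F 6 t =
    Y F 6 t * Y F 7 u * ((chevB2.commWord F 6 7 t u).map fun q => Y F q.1 q.2).prod := by
  have e : chevB2.commTerms 6 7 = [] := by decide +kernel
  unfold commWord
  rw [e]
  simp only [List.map_cons, List.map_nil, List.prod_cons, List.prod_nil, mul_one]
  apply ap_ext
  intro x
  simp only [ap_mul, apY0, apY1, apY2, apY3, apY4, apY5, apY6, apY7, vec_z, vec_e0, vec_e1, vec_f0, vec_f1]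
  congr 1 <;> push_cast <;> ring


theorem cm_7_1 (t u : F) : Y F 1 u * Y F 7 t =
    Y F 7 t * Y F 1 u * ((chevB2.commWord F 7 1 t u).map fun q => Y F q.1 q.2).prod := by
  have e : chevB2.commTerms 7 1 = [(5, 1, 1, 1), (3, 1, 1, 2)] := by decide +kernel
  unfold commWord
  rw [e]
  simp only [List.map_cons, List.map_nil, List.prod_cons, List.prod_nil, mul_one]
  apply ap_ext
  intro x
  simp only [ap_mul, apY0, apY1, apY2, apY3, apY4, apY5, apY6, apY7, vec_z, vec_e0, vec_e1, vec_f0, vec_f1]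
  congr 1 <;> push_cast <;> ring


theorem cm_7_2 (t u : F) : Y F 2 u * Y F 7 t =
    Y F 7 t * Y F 2 u * ((chevB2.commWord F 7 2 t u).map fun q => Y F q.1 q.2).prod := by
  have e : chevB2.commTerms 7 2 = [(6, -1, 1, 1), (4, -1, 1, 2)] := by decide +kernel
  unfold commWord
  rw [e]
  simp only [List.map_cons, List.map_nil, List.prod_cons, List.prod_nil, mul_one]
  apply ap_ext
  intro x
  simp only [ap_mul, apY0, apY1, apY2, apY3, apY4, apY5, apY6, apY7, vec_z, vec_e0, vec_e1, vec_f0, vec_f1]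
  congr 1 <;> push_cast <;> ring


theorem cm_7_3 (t u : F) : Y F 3 u * Y F 7 t =
    Y F 7 t * Y F 3 u * ((chevB2.commWord F 7 3 t u).map fun q => Y F q.1 q.2).prod := by
  have e : chevB2.commTerms 7 3 = [] := by decide +kernel
  unfold commWord
  rw [e]
  simp only [List.map_cons, List.map_nil, List.prod_cons, List.prod_nil, mul_one]
  apply ap_ext
  intro x
  simp only [ap_mul, apY0, apY1, apY2, apY3, apY4, apY5, apY6, apY7, vec_z, vec_e0, vec_e1, vec_f0, vec_f1]
  congr 1 <;> push_cast <;> ring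


theorem cm_7_4 (t u : F) : Y F 4 u * Y F 7 t =
    Y F 7 t * Y F 4 u * ((chevB2.commWord F 7 4 t u).map fun q => Y F q.1 q.2).prod := by
  have e : chevB2.commTerms 7 4 = [] := by decide +kernel
  unfold commWord
  rw [e]
  simp only [List.map_cons, List.map_nil, List.prod_cons, List.prod_nil, mul_one]
  apply ap_ext
  intro x
  simp only [ap_mul, apY0, apY1, apY2, apY3, apY4, apY5, apY6, apY7, vec_z, vec_e0, vec_e1, vec_f0, vec_f1]
  congr 1 <;> push_cast <;> ring


theorem cm_7_5 (t u : F) : Y F 5 u * Y F 7 t =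
    Y F 7 t * Y F 5 u * ((chevB2.commWord F 7 5 t u).map fun q => Y F q.1 q.2).prod := by
  have e : chevB2.commTerms 7 5 = [] := by decide +kernel
  unfold commWord
  rw [e]
  simp only [List.map_cons, List.map_nil, List.prod_cons, List.prod_nil, mul_one]
  apply ap_ext
  intro x
  simp only [ap_mul, apY0, apY1, apY2, apY3, apY4, apY5, apY6, apY7, vec_z, vec_e0, vec_e1, vec_f0, vec_f1]
  congr 1 <;> push_cast <;> ring


theorem cm_7_6 (t u : F) : Y F 6 u * Y F 7 t =
    Y F 7 t * Y F 6 u * ((chevB2.commWord F 7 6 t u).map fun q => Y F q.1 q.2).prod := by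
  have e : chevB2.commTerms 7 6 = [] := by decide +kernel
  unfold commWord
  rw [e]
  simp only [List.map_cons, List.map_nil, List.prod_cons, List.prod_nil, mul_one]
  apply ap_ext
  intro x
  simp only [ap_mul, apY0, apY1, apY2, apY3, apY4, apY5, apY6, apY7, vec_z, vec_e0, vec_e1, vec_f0, vec_f1]
  congr 1 <;> push_cast <;> ring


theorem Y_comm (r s : ℕ) (t u : F) (hr : r < chevB2.nroots) (hs : s < chevB2.nroots) (h1 : s ≠ r) (h2 : s ≠ chevB2.neg r) :
    Y F s u * Y F r t = Y F r t * Y F s u * ((chevB2.commWord F r s t u).map fun q => Y F q.1 q.2).prod := by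
  have hr' : r < 8 := hr
  have hs' : s < 8 := hs
  have hneg : ∀ k : Fin 8, chevB2.neg k.val = 7 - k.val := by decide +kernel
  have h2' : s ≠ 7 - r := by rw [← hneg ⟨r, hr'⟩]; exact h2
  clear h2 hneg hr hs
  interval_cases r <;> interval_cases s <;> first
    | exact absurd rfl h1
    | exact absurd rfl h2'
    | exact cm_0_1 t u
    | exact cm_0_2 t u
    | exact cm_0_3 t u
    | exact cm_0_4 t u
    | exact cm_0_5 t u
    | exact cm_0_6 t u
    | exact cm_1_0 t u
    | exact cm_1_2 t u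
    | exact cm_1_3 t u
    | exact cm_1_4 t u
    | exact cm_1_5 t u
    | exact cm_1_7 t u
    | exact cm_2_0 t u
    | exact cm_2_1 t u
    | exact cm_2_3 t u
    | exact cm_2_4 t u
    | exact cm_2_6 t u
    | exact cm_2_7 t u
    | exact cm_3_0 t u
    | exact cm_3_1 t u
    | exact cm_3_2 t u
    | exact cm_3_5 t u
    | exact cm_3_6 t u
    | exact cm_3_7 t u
    | exact cm_4_0 t u
    | exact cm_4_1 t u
    | exact cm_4_2 t u
    | exact cm_4_5 t u
    | exact cm_4_6 t u
    | exact cm_4_7 t u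
    | exact cm_5_0 t u
    | exact cm_5_1 t u
    | exact cm_5_3 t u
    | exact cm_5_4 t u
    | exact cm_5_6 t u
    | exact cm_5_7 t u
    | exact cm_6_0 t u
    | exact cm_6_2 t u
    | exact cm_6_3 t u
    | exact cm_6_4 t u
    | exact cm_6_5 t u
    | exact cm_6_7 t u
    | exact cm_7_1 t u
    | exact cm_7_2 t u
    | exact cm_7_3 t u
    | exact cm_7_4 t u
    | exact cm_7_5 t u
    | exact cm_7_6 t u

end Cfsg.Agent.Lib.Helper23B2T
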