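import Cfsg.Agent.Lib.Helper23CAX

set_option autoImplicit false

/-! Curtis-Tits recognition, type A: identities in `SL₃` (2). -/

namespace Cfsg.Agent.Lib.Helper23CAX2

open Subgroup Matrix Cfsg.Agent.Lib.Helper23CE Cfsg.Agent.Lib.Helper23CA Cfsg.Agent.Lib.Helper39CETools
  Cfsg.Agent.Lib.Helper1CAXA1 Cfsg.Agent.Lib.Helper23CAX

variable {F : Type*} [Field F]

theorem conj_of' (x a b : SL 3 F) (h : a.1 * x.1 = x.1 * b.1) : x⁻¹ * a * x = b := by
  rw [mul_assoc, inv_mul_eq_iff_eq_mul]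
  exact Subtype.ext h

theorem x_dw2 (d : SL 2 F) (hd : IsD d) : iota2 w0 * iota1 d * (iota2 w0)⁻¹ = iota1 d * iota2 d ∧
    (iota2 w0)⁻¹ * iota1 d * iota2 w0 = iota1 d * iota2 d := by
  have hdet : d.1 0 0 * d.1 1 1 = 1 := by
    have := d.det_coe
    rw [Matrix.det_fin_two, hd.1, hd.2] at this
    simpa using this
  constructor
  · apply conj_of
    simp only [Matrix.SpecialLinearGroup.coe_mul]
    rw [i2w, i2v, i1v, hd.1, hd.2]
    ext i j
    fin_cases i <;> fin_cases j <;>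
      simp [Matrix.mul_apply, Fin.sum_univ_succ]
    all_goals first | linear_combination hdet | linear_combination (-1 : F) * hdet
  · apply conj_of'
    simp only [Matrix.SpecialLinearGroup.coe_mul]
    rw [i2w, i2v, i1v, hd.1, hd.2]
    ext i j
    fin_cases i <;> fin_cases j <;>
      simp [Matrix.mul_apply, Fin.sum_univ_succ]
    all_goals first | linear_combination hdet | linear_combination (-1 : F) * hdet

theorem x_dnorm (d : SL 2 F) (hd : IsD d) (g : SL 2 F) : ∃ g' : SL 2 F, iota2 d * iota1 g * (iota2 d)⁻¹ = iota1 g' := by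
  have hdet : d.1 0 0 * d.1 1 1 = 1 := by
    have := d.det_coe
    rw [Matrix.det_fin_two, hd.1, hd.2] at this
    simpa using this
  have hg : g.1 0 0 * g.1 1 1 - g.1 0 1 * g.1 1 0 = 1 := by
    have := g.det_coe
    rwa [Matrix.det_fin_two] at this
  refine ⟨⟨!![g.1 0 0, g.1 0 1 * d.1 1 1; d.1 0 0 * g.1 1 0, g.1 1 1], ?_⟩, ?_⟩
  · rw [Matrix.det_fin_two_of]
    linear_combination hg - g.1 0 1 * g.1 1 0 * hdet
  · apply conj_of
    rw [i2v, i1v, hd.1, hd.2]
    show _ = !![g.1 0 0, g.1 0 1 * d.1 1 1, 0; d.1 0 0 * g.1 1 0, g.1 1 1, 0; 0, 0, 1] * _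
    ext i j
    fin_cases i <;> fin_cases j <;>
      simp [Matrix.mul_apply, Fin.sum_univ_succ]
    all_goals first | linear_combination (g.1 0 1) * hdet | linear_combination (-g.1 0 1) * hdet | ring

end Cfsg.Agent.Lib.Helper23CAX2
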