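import Cfsg.Agent.Lib.Helper36CEI1
import Cfsg.Agent.Lib.Helper6SL2Hom

set_option autoImplicit false

/-! Curtis-Tits recognition, type E: pieces I7 (`gen_p`), I8 (`no_central_invol`). -/

namespace Cfsg.Agent.Lib.Helper23CEI8

open Subgroup Matrix Cfsg.Lie Cfsg.Lie.ChevalleyDatum Cfsg.Agent.Lib.Helper23CE

variable {F : Type*} [Field F] {G : Type*} [Group G] {Q : Type*} [Group Q]

theorem no_central_invol (π : SL 3 F →* Q) (hπ : Function.Surjective π) (hk : π.ker ≤ center (SL 3 F)) (a : Q)
    (ha : a * a = 1) (ha1 : a ≠ 1) (hc : ∀ x : Q, x * a = a * x) : False := by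
  obtain ⟨x, hx, hxx⟩ := Helper36CEI1.lift_invol π hπ hk a ha
  have hcen : x ∈ center (SL 3 F) := by
    rw [Subgroup.mem_center_iff]
    intro g
    exact Helper36CEI1.comm_lift π hk x g hxx (by rw [hx]; exact hc _)
  have h3 := Helper36CEI1.center_cube x hcen
  have : x = 1 := by
    have : x ^ 3 = x * x * x := by rw [pow_succ, pow_two]
    rw [this, hxx, one_mul] at h3
    exact h3
  apply ha1
  rw [← hx, this, map_one]

theorem transv_coe {n : ℕ} {i j : Fin n} (hij : i ≠ j) (t : F) :
    (Matrix.SpecialLinearGroup.transvection hij t).1 = Matrix.transvection i j t := rfl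

theorem transv_pow {n : ℕ} {i j : Fin n} (hij : i ≠ j) (t : F) (k : ℕ) :
    (Matrix.SpecialLinearGroup.transvection hij t) ^ k = Matrix.SpecialLinearGroup.transvection hij (k * t) := by
  induction k with
  | zero =>
    rw [pow_zero]
    apply Subtype.ext
    rw [transv_coe]
    simp
  | succ k ih =>
    rw [pow_succ, ih]
    apply Subtype.ext
    rw [Matrix.SpecialLinearGroup.coe_mul, transv_coe, transv_coe, transv_coe,
      Matrix.transvection_mul_transvection_same _ _ hij]
    congr 1
    push_cast
    ring

theorem gen_p (p : ℕ) [Fact p.Prime] [CharP F p] (L : Subgroup G) (e : SL 2 F ≃* L) :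
    L = closure {x | x ∈ L ∧ x ^ p = 1} := by
  apply le_antisymm
  · intro x hx
    have hall : ∀ g : SL 2 F, ((e g : L) : G) ∈ closure {x | x ∈ L ∧ x ^ p = 1} := by
      intro g
      have hg : g ∈ closure ({A : SL 2 F | (∃ t, A = Matrix.SpecialLinearGroup.transvection (zero_ne_one : (0 : Fin 2) ≠ 1) t) ∨
          (∃ t, A = Matrix.SpecialLinearGroup.transvection (one_ne_zero : (1 : Fin 2) ≠ 0) t)}) := by
        rw [Cfsg.Agent.Lib.Helper6SL2Hom.closure_transvections]
        exact Subgroup.mem_top g
      induction hg using Subgroup.closure_induction with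
      | mem y hy =>
        apply Subgroup.subset_closure
        refine ⟨(e y).2, ?_⟩
        have : y ^ p = 1 := by
          rcases hy with ⟨t, rfl⟩ | ⟨t, rfl⟩
          · rw [transv_pow, CharP.cast_eq_zero, zero_mul]
            apply Subtype.ext
            rw [transv_coe]
            simp
          · rw [transv_pow, CharP.cast_eq_zero, zero_mul]
            apply Subtype.ext
            rw [transv_coe]
            simp
        have h2 : (e y) ^ p = 1 := by rw [← map_pow, this, map_one]
        exact congrArg Subtype.val h2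
      | one => rw [map_one]; exact one_mem _
      | mul a b _ _ iha ihb => rw [map_mul]; exact mul_mem iha ihb
      | inv a _ iha => rw [map_inv]; exact inv_mem iha
    have := hall (e.symm ⟨x, hx⟩)
    rwa [MulEquiv.apply_symm_apply] at this
  · rw [closure_le]
    intro x hx
    exact hx.1

end Cfsg.Agent.Lib.Helper23CEI8
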