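import Mathlib

set_option autoImplicit false

/-! A perfect group covering a simple group with central kernel: all its nontrivial images have the same central quotient. -/

namespace Cfsg.Agent.Lib.Helper23Cov

open Subgroup
open scoped commutatorElement

theorem map_center_le {A B : Type*} [Group A] [Group B] (f : A →* B) (hf : Function.Surjective f) {x : A}
    (hx : x ∈ center A) : f x ∈ center B := by
  rw [mem_center_iff] at hx ⊢
  intro y
  obtain ⟨a, rfl⟩ := hf y
  rw [← map_mul, ← map_mul, hx a]

theorem iso_of_cover {Δ G E : Type*} [Group Δ] [Group G] [Group E] (hp : commutator Δ = ⊤)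
    (θ : Δ →* G) (hθ : Function.Surjective θ) (hk : θ.ker = center Δ) (hG : IsSimpleGroup G)
    (π : Δ →* E) (hπ : Function.Surjective π) (hne : ∃ x : E, x ≠ 1) : Nonempty (G ≃* E ⧸ center E) := by
  set ρ : Δ →* E ⧸ center E := (QuotientGroup.mk' (center E)).comp π with hρ
  have hρs : Function.Surjective ρ := (QuotientGroup.mk'_surjective _).comp hπ
  have mem_ker : ∀ x, x ∈ ρ.ker ↔ π x ∈ center E := by
    intro x
    rw [MonoidHom.mem_ker, hρ, MonoidHom.comp_apply, QuotientGroup.mk'_apply, QuotientGroup.eq_one_iff]
  have h1 : θ.ker ≤ ρ.ker := by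
    intro x hx
    rw [hk] at hx
    rw [mem_ker]
    exact map_center_le π hπ hx
  have h2 : ρ.ker ≤ θ.ker := by
    have hn : (ρ.ker.map θ).Normal := Subgroup.Normal.map inferInstance θ hθ
    rcases hn.eq_bot_or_eq_top with hb | ht
    · exact (Subgroup.map_eq_bot_iff _).1 hb
    · exfalso
      have hc : ∀ y : E, y ∈ center E := by
        intro y
        obtain ⟨x, rfl⟩ := hπ y
        have : θ x ∈ ρ.ker.map θ := by rw [ht]; exact mem_top _
        obtain ⟨n, hn, hnx⟩ := this
        have h3 : n⁻¹ * x ∈ θ.ker := by
          rw [MonoidHom.mem_ker, map_mul, map_inv, hnx, inv_mul_cancel]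
        rw [hk] at h3
        have h4 := map_center_le π hπ h3
        have h5 : π x = π n * π (n⁻¹ * x) := by rw [← map_mul, mul_inv_cancel_left]
        rw [h5]
        exact mul_mem ((mem_ker n).1 hn) h4
      have hE : commutator E = ⊤ := by
        have := congrArg (Subgroup.map π) hp
        rw [commutator_def, Subgroup.map_commutator, ← MonoidHom.range_eq_map, MonoidHom.range_eq_top.2 hπ] at this
        rw [commutator_def]; exact this
      have hE' : commutator E = ⊥ := by
        rw [commutator_def, eq_bot_iff, Subgroup.commutator_le]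
        intro g _ h _
        rw [mem_bot, commutatorElement_eq_one_iff_mul_comm]
        exact ((mem_center_iff.1 (hc g)) h).symm
      obtain ⟨x, hx⟩ := hne
      have : x ∈ (⊥ : Subgroup E) := by rw [← hE', hE]; exact mem_top _
      exact hx (mem_bot.1 this)
  have h3 : θ.ker = ρ.ker := le_antisymm h1 h2
  exact ⟨(QuotientGroup.quotientKerEquivOfSurjective θ hθ).symm.trans
    ((QuotientGroup.quotientMulEquivOfEq h3).trans (QuotientGroup.quotientKerEquivOfSurjective ρ hρs))⟩

end Cfsg.Agent.Lib.Helper23Cov
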