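import Cfsg.Agent.Lib.Helper23Cox
import Cfsg.Agent.Lib.Helper23FastB2

set_option autoImplicit false
set_option maxRecDepth 1000000

/-! The Coxeter group of type B2: coset enumeration certificate and consequences. -/

namespace Cfsg.Agent.Lib.Helper23CoxB2

open Cfsg.Agent.Lib.Helper23Fast Cfsg.Agent.Lib.Helper23TC Cfsg.Agent.Lib.Helper23Cox
open Cfsg.Agent.Lib.Helper23FastB2 Cfsg.Agent.Lib.Helper23Weyl

def mT : ℕ := 0x1040401

def G : List ℕ := [0x10000000100, 0x0]

theorem tc : tcChain P mT L G = true := by decide +kernel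

theorem br : brChk P mT = true := by decide +kernel

/-- the Coxeter matrix, indexed by `Fin P.l` -/
def M : CoxeterMatrix (Fin P.l) := show CoxeterMatrix (Fin 2) from CoxeterMatrix.B 2

theorem hM : ∀ i j : Fin P.l, M i j = byte mT (P.l * i.val + j.val) := by
  have h : ∀ i : Fin P.l, ∀ j : Fin P.l, Nat.beq (M.M i j) (byte mT (P.l * i.val + j.val)) = true := by
    decide +kernel
  intro i j
  exact Nat.eq_of_beq_eq_true (h i j)

theorem val : P.chainVal 1 L = 8 := by decide +kernel

theorem cox : coxChk P (List.range P.l) 4 = true := by decide +kernel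

theorem main : ∃ φ : (CoxeterMatrix.B 2).Group →* Equiv.Perm (Fin P.n), Function.Injective φ ∧
    φ.range = (FT.W valid).WJ Set.univ ∧ (∀ i : Fin 2, φ ((CoxeterMatrix.B 2).simple i) = (FT.W valid).s i) ∧
    Nat.card (CoxeterMatrix.B 2).Group = 8 := by
  have h := cox_main valid M mT hM L G _ chain top tc br
  rw [val] at h
  exact h

theorem card : Nat.card (CoxeterMatrix.B 2).Group = 8 := by
  obtain ⟨_, _, _, _, h⟩ := main
  exact h

theorem order : orderOf ((List.finRange 2).map (CoxeterMatrix.B 2).simple).prod = 4 := by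
  obtain ⟨φ, h1, _, h2, _⟩ := main
  exact cox_order valid M φ h1 h2 4 cox

end Cfsg.Agent.Lib.Helper23CoxB2
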