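import Cfsg.Agent.Lib.Helper23Cox
import Cfsg.Agent.Lib.Helper23FastE7

set_option autoImplicit false
set_option maxRecDepth 1000000

/-! The Coxeter group of type E7: coset enumeration certificate and consequences. -/

namespace Cfsg.Agent.Lib.Helper23CoxE7

open Cfsg.Agent.Lib.Helper23Fast Cfsg.Agent.Lib.Helper23TC Cfsg.Agent.Lib.Helper23Cox
open Cfsg.Agent.Lib.Helper23FastE7 Cfsg.Agent.Lib.Helper23Weyl

def mT : ℕ := 0x1030202020202030103020202020203010302020202020301030302020202030102030202020302010202020202030201

def G : List ℕ := [0x2030405060101010103030304040502020202020203030304010101010302000000000000000000000202020203000000000001010101030303040405060505040404030303030202020202010101010101010101030303040405000000000000000000000000000000000202020202020303030401010101030200, 0x203040506010101010303030404050202020202020303030401010101030200, 0x5060404050303030401010101030000, 0x60000000000000000000000000000000000000000000000000000000000000000000000000000000000000000000000000000000000000000000000000000, 0x4000003000000010000000000, 0x1030000, 0x30000]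

theorem tc : tcChain P mT L G = true := by decide +kernel

theorem br : brChk P mT = true := by decide +kernel

/-- the Coxeter matrix, indexed by `Fin P.l` -/
def M : CoxeterMatrix (Fin P.l) := show CoxeterMatrix (Fin 7) from CoxeterMatrix.E₇

theorem hM : ∀ i j : Fin P.l, M i j = byte mT (P.l * i.val + j.val) := by
  have h : ∀ i : Fin P.l, ∀ j : Fin P.l, Nat.beq (M.M i j) (byte mT (P.l * i.val + j.val)) = true := by
    decide +kernel
  intro i j
  exact Nat.eq_of_beq_eq_true (h i j)

theorem val : P.chainVal 1 L = 2903040 := by decide +kernel

theorem cox : coxChk P (List.range P.l) 18 = true := by decide +kernel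

theorem main : ∃ φ : (CoxeterMatrix.E₇).Group →* Equiv.Perm (Fin P.n), Function.Injective φ ∧
    φ.range = (FT.W valid).WJ Set.univ ∧ (∀ i : Fin 7, φ ((CoxeterMatrix.E₇).simple i) = (FT.W valid).s i) ∧
    Nat.card (CoxeterMatrix.E₇).Group = 2903040 := by
  have h := cox_main valid M mT hM L G _ chain top tc br
  rw [val] at h
  exact h

theorem card : Nat.card (CoxeterMatrix.E₇).Group = 2903040 := by
  obtain ⟨_, _, _, _, h⟩ := main
  exact h

theorem order : orderOf ((List.finRange 7).map (CoxeterMatrix.E₇).simple).prod = 18 := by
  obtain ⟨φ, h1, _, h2, _⟩ := main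
  exact cox_order valid M φ h1 h2 18 cox

end Cfsg.Agent.Lib.Helper23CoxE7
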