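import Cfsg.Agent.Lib.Helper23OrFin
import Cfsg.Agent.Lib.Helper23D4T
import Cfsg.Agent.Lib.Helper23All
import Cfsg.Agent.S2395

set_option autoImplicit false
set_option linter.unusedSectionVars false
set_option linter.unusedVariables false

/-! `D₄(F) ≅ PΩ₈⁺(F)`. -/

namespace Cfsg.Agent.Lib.Helper23D4O

open scoped Matrix
open Subgroup Cfsg.Lie Cfsg.Lie.ChevalleyDatum Cfsg.Agent.Lib.Helper49Orth Cfsg.Agent.Lib.Helper49Eich
  Cfsg.Agent.Lib.Helper49Forms Cfsg.Agent.Lib.Helper23Or Cfsg.Agent.Lib.Helper23D4T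

variable (F : Type*) [Field F]

theorem hs8 : HS (QPlus 4 F) Sum.swap (fun _ => True) where
  pp a _ := Sum.swap_swap a
  pH _ _ := trivial
  Qb a _ := by
    rcases a with j | j
    · have := (hypPair_QPlus (F := F) 4 j).Q_st 1 0
      simpa [b] using this
    · have := (hypPair_QPlus (F := F) 4 j).Q_st 0 1
      simpa [b] using this
  Bb a _ x := by
    rw [QuadraticMap.polar_comm]
    rcases a with j | j
    · have := (hypPair_QPlus (F := F) 4 j).polar_st 1 0 x
      simpa [b] using this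
    · have := (hypPair_QPlus (F := F) 4 j).polar_st 0 1 x
      simpa [b] using this

theorem hN8 : ∀ u : I8 → F, QPlus 4 F u = 0 → (∀ c, True → u c = 0) → u = 0 :=
  fun u _ h => funext fun c => h c trivial

/-- the root elements -/
noncomputable def Y (r : ℕ) (t : F) : ↥(Cfsg.isometryGroup F ⇑(QPlus 4 F)) :=
  E (QPlus 4 F) (b F (ta r)) ((((te r : ℤ) : F) * t) • b F (tc r))

theorem tab_ne : ∀ r : ℕ, tc r ≠ (ta r).swap := by
  intro r
  by_cases hr : r < 24
  · have : ∀ r : Fin 24, tc r.val ≠ (ta r.val).swap := by decide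
    exact this ⟨r, hr⟩
  · unfold tc ta
    rw [List.getD_eq_default _ _ (by simpa using hr), List.getD_eq_default _ _ (by simpa using hr)]
    decide

theorem te_out {r : ℕ} (hr : ¬ r < 24) : te r = 0 := by
  unfold te
  rw [List.getD_eq_default _ _ (by simpa using hr)]

theorem te_sq : ∀ r : Fin 24, te r.val * te r.val = 1 := by decide

theorem tab_all : ∀ a c : I8, c ≠ a → c ≠ a.swap → ∃ r : Fin 24, (ta r.val = a ∧ tc r.val = c) ∨ (ta r.val = c ∧ tc r.val = a) := by
  decide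

/-- the root vectors over `F` -/
def MF (r : ℕ) : Matrix I8 I8 F := (Int.castRingHom F).mapMatrix (Mz r)

theorem MF_eq (r : ℕ) : MF F r = ((te r : ℤ) : F) • (Matrix.single (ta r) (tc r).swap 1 - Matrix.single (tc r) (ta r).swap 1) := by
  unfold MF Mz
  rw [map_zsmul, map_sub, RingHom.mapMatrix_apply, RingHom.mapMatrix_apply, Matrix.map_single,
    Matrix.map_single, Int.cast_smul_eq_zsmul]
  simp

theorem coe_Y (r : ℕ) (t : F) :
    (((Y F r t : ↥(Cfsg.isometryGroup F ⇑(QPlus 4 F))) : Matrix.GeneralLinearGroup I8 F) : Matrix I8 I8 F) = 1 + t • MF F r := by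
  unfold Y
  rw [coe_long (hs8 F) trivial trivial (tab_ne r), MF_eq, smul_smul, mul_comm]

theorem Y_out (r : ℕ) (t : F) (hr : ¬ r < chevD4.nroots) : Y F r t = 1 := by
  unfold Y
  rw [te_out hr, Int.cast_zero, zero_mul, zero_smul, E_zero]

theorem Y_add (r : ℕ) (t u : F) : Y F r t * Y F r u = Y F r (t + u) := by
  unfold Y
  rw [E_mul _ ((hs8 F).Qb _ trivial) ((hs8 F).B_bs trivial (tab_ne r) _) ((hs8 F).B_bs trivial (tab_ne r) _), ← add_smul,
    mul_add]

theorem Y_comm (r s : ℕ) (t u : F) (hr : r < chevD4.nroots) (hs : s < chevD4.nroots) (h1 : s ≠ r) (h2 : s ≠ chevD4.neg r) :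
    Y F s u * Y F r t = Y F r t * Y F s u * ((chevD4.commWord F r s t u).map fun q => Y F q.1 q.2).prod := by
  have h := chk ⟨r, hr⟩ ⟨s, hs⟩ (fun e => h1 (congrArg Fin.val e)) h2
  simp only at h
  apply Subtype.ext
  apply Units.ext
  rcases h with ⟨e1, e2⟩ | ⟨e1, e2, e3, e4, e5⟩
  · unfold commWord
    rw [e1]
    simp only [List.map_nil, List.prod_nil, mul_one, Subgroup.coe_mul, Units.val_mul, coe_Y]
    apply alg_comm0
    unfold MF
    rw [← map_mul, e2, map_mul]
  · unfold commWord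
    rw [e1]
    simp only [List.map_nil, List.map_cons, List.prod_cons, List.prod_nil, mul_one, Subgroup.coe_mul, Units.val_mul, coe_Y]
    apply alg_comm
    · unfold MF
      rw [← map_mul, e3, map_sub, map_mul, map_zsmul, Int.cast_smul_eq_zsmul]
    · unfold MF
      rw [← map_mul, e4, map_zero]
    · unfold MF
      rw [← map_mul, e5, map_zero]

theorem Y_mem (r : ℕ) (t : F) : Y F r t ∈ TT0 (QPlus 4 F) (fun _ => True) :=
  subset_closure ⟨_, _, trivial, (hs8 F).B_bs trivial (tab_ne r) _, rfl⟩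

theorem closure_Y : closure {g | ∃ r t, g = Y F r t} = TT0 (QPlus 4 F) (fun _ => True) := by
  apply le_antisymm
  · rw [closure_le]
    rintro _ ⟨r, t, rfl⟩
    exact Y_mem F r t
  · apply TT0_le (hs8 F)
    intro a c t _ h1 h2
    obtain ⟨r, ⟨rfl, rfl⟩ | ⟨e1, e2⟩⟩ := tab_all a c h1 h2
    · apply Subgroup.subset_closure
      refine ⟨r.val, ((te r.val : ℤ) : F) * t, ?_⟩
      unfold Y
      rw [← mul_assoc, ← Int.cast_mul, te_sq, Int.cast_one, one_mul]
    · apply Subgroup.subset_closure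
      refine ⟨r.val, ((te r.val : ℤ) : F) * (-t), ?_⟩
      unfold Y
      rw [← mul_assoc, ← Int.cast_mul, te_sq, Int.cast_one, one_mul, e1, e2, E_swap (hs8 F) trivial trivial h2]

def J1 : I8 → Prop := fun c => True ∧ c ≠ .inl 0 ∧ c ≠ (Sum.inl 0 : I8).swap
def J2 : I8 → Prop := fun c => J1 c ∧ c ≠ .inl 1 ∧ c ≠ (Sum.inl 1 : I8).swap
def J3 : I8 → Prop := fun c => J2 c ∧ c ≠ .inl 2 ∧ c ≠ (Sum.inl 2 : I8).swap
def J3' : I8 → Prop := fun c => J2 c ∧ c ≠ .inl 3 ∧ c ≠ (Sum.inl 3 : I8).swap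

instance : DecidablePred J1 := fun c => by unfold J1; infer_instance
instance : DecidablePred J2 := fun c => by unfold J2; infer_instance
instance : DecidablePred J3 := fun c => by unfold J3; infer_instance
instance : DecidablePred J3' := fun c => by unfold J3'; infer_instance

theorem hJ1 : ∀ c, ¬ J1 c → True ∧ ¬ J1 c.swap := by decide
theorem hJ2 : ∀ c, ¬ J2 c → True ∧ ¬ J2 c.swap := by decide
theorem hJ3 : ∀ c, ¬ J3 c → True ∧ ¬ J3 c.swap := by decide
theorem hJ3' : ∀ c, ¬ J3' c → True ∧ ¬ J3' c.swap := by decide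
theorem hdisj : ∀ c, J3 c → ¬ J3' c := by decide

theorem red2 (g : ↥(Cfsg.isometryGroup F ⇑(QPlus 4 F))) : ∃ t ∈ TT0 (QPlus 4 F) (fun _ => True), FixOut J2 (t * g) := by
  obtain ⟨t1, m1, f1⟩ := reduce (hs8 F) (hN8 F) (J := fun _ => True) (fun c hc => absurd trivial hc)
    (a0 := .inl 0) (a1 := .inl 1) trivial trivial trivial trivial trivial trivial (by decide) (by decide) (g := g)
    (fun c hc => absurd trivial hc)
  obtain ⟨t2, m2, f2⟩ := reduce (hs8 F) (hN8 F) (J := J1) hJ1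
    (a0 := .inl 1) (a1 := .inl 2) trivial trivial (by decide) (by decide) (by decide) (by decide) (by decide) (by decide) f1
  exact ⟨t2 * t1, mul_mem m2 m1, by rw [mul_assoc]; exact f2⟩

theorem red3 (g : ↥(Cfsg.isometryGroup F ⇑(QPlus 4 F))) : ∃ t ∈ TT0 (QPlus 4 F) (fun _ => True), FixOut J3 (t * g) := by
  obtain ⟨t1, m1, f1⟩ := red2 F g
  obtain ⟨t2, m2, f2⟩ := reduce (hs8 F) (hN8 F) (J := J2) hJ2
    (a0 := .inl 2) (a1 := .inl 3) trivial trivial (by decide) (by decide) (by decide) (by decide) (by decide) (by decide) f1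
  exact ⟨t2 * t1, mul_mem m2 m1, by rw [mul_assoc]; exact f2⟩

theorem red3' (g : ↥(Cfsg.isometryGroup F ⇑(QPlus 4 F))) : ∃ t ∈ TT0 (QPlus 4 F) (fun _ => True), FixOut J3' (t * g) := by
  obtain ⟨t1, m1, f1⟩ := red2 F g
  obtain ⟨t2, m2, f2⟩ := reduce (hs8 F) (hN8 F) (J := J2) hJ2
    (a0 := .inl 3) (a1 := .inl 2) trivial trivial (by decide) (by decide) (by decide) (by decide) (by decide) (by decide) f1
  exact ⟨t2 * t1, mul_mem m2 m1, by rw [mul_assoc]; exact f2⟩

theorem comm_le : commutator ↥(Cfsg.isometryGroup F ⇑(QPlus 4 F)) ≤ TT0 (QPlus 4 F) (fun _ => True) := by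
  have : (TT0 (QPlus 4 F) (fun _ => True)).Normal :=
    TT0_normal (hs8 F) (hN8 F) (a0 := .inl 0) (a1 := .inl 1) trivial trivial (by decide) (by decide)
  exact comm_le_of _ (FixOut J3) (FixOut J3') (red3 F) (red3' F)
    (fun m m' hm hm' => FixOut.comm (hs8 F) hJ3 hJ3' hdisj hm hm')

theorem Y_ne : Y F 0 1 ≠ 1 := by
  intro h
  have h1 := congrArg (fun g : ↥(Cfsg.isometryGroup F ⇑(QPlus 4 F)) => ap g (b F (.inl 0)) (.inr 1)) h
  simp only [ap_one] at h1
  unfold Y at h1
  rw [ap_long (hs8 F) trivial trivial (tab_ne 0)] at h1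
  simp [ta, tc, te, b_apply] at h1

theorem main : Nonempty (↥(chevD4.group F) ≃* Cfsg.POmega F (Cfsg.quadFormPlus 4 F)) := by
  rw [← coe_QPlus]
  have hD : chevD4 ∈ [chevG2, chevB2, chevD4, chevF4, chevE6, chevE7, chevE8] := by simp
  have hperf : commutator (chevD4.SteinbergCover F) = ⊤ :=
    Cfsg.Agent.S2395.result chevD4 hD (fun h => by
      exfalso
      simp only [List.mem_cons, List.not_mem_nil, or_false] at h
      rcases h with h | h
      · exact absurd (congrArg ChevalleyDatum.nroots h) (by decide +kernel)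
      · exact absurd (congrArg ChevalleyDatum.nroots h) (by decide +kernel))
  obtain ⟨π, hπ⟩ := exists_pi chevD4 F (Y F) (fun r t hr => Y_out F r t hr) (fun r t u _ => Y_add F r t u)
    (fun r s t u hr hs h1 h2 => Y_comm F r s t u hr hs h1 h2)
  rw [closure_Y] at hπ
  have hr : π.range = commutator ↥(Cfsg.isometryGroup F ⇑(QPlus 4 F)) :=
    le_antisymm (range_le_commutator hperf π) (by rw [hπ]; exact comm_le F)
  have hne : ∃ x, π x ≠ 1 := by
    have : Y F 0 1 ∈ π.range := by rw [hπ]; exact Y_mem F 0 1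
    obtain ⟨x, hx⟩ := this
    exact ⟨x, by rw [hx]; exact Y_ne F⟩
  exact final hD (Cfsg.Agent.Lib.Helper23All.simple5 (by simp)).1 hperf _ π hr hne

end Cfsg.Agent.Lib.Helper23D4O
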