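import Cfsg.Agent.Lib.Helper23Un4

set_option autoImplicit false
set_option linter.unusedSectionVars false
set_option linter.unusedVariables false

/-! Embedding a simply laced Steinberg group in the Chevalley group of a larger simply laced type whose Cartan matrix is
unimodular: the torus elements `h_i(t)` of the small group are independent. -/

namespace Cfsg.Agent.Lib.Helper23Em

open Subgroup Cfsg.Lie Cfsg.Lie.ChevalleyDatum Cfsg.Agent.Lib.Helper22ChevEngine Cfsg.Agent.Lib.Helper22ChevFast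
  Cfsg.Agent.Lib.Helper22ChevBasic Cfsg.Agent.Lib.Helper23St Cfsg.Agent.Lib.Helper23Un Cfsg.Agent.Lib.Helper23RG
  Cfsg.Agent.Lib.Helper23Chev Cfsg.Agent.Lib.Helper23Diag Cfsg.Agent.Lib.Helper23All Cfsg.Agent.Lib.Helper23Smith
  Cfsg.Agent.Lib.Helper22ChevCF

noncomputable def chkEm (P P8 : FD) (I : ℕ) : Bool :=
  allLt P.n fun r => Nat.blt (get8 I r) P8.n && allLt P.n fun s =>
    Nat.beq s r || Nat.beq s (P.negD r) ||
      (!(Nat.beq (get8 I s) (get8 I r)) && !(Nat.beq (get8 I s) (P8.negD (get8 I r))) &&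
        ((Nat.beq (P.code r s) 0 && Nat.beq (P8.code (get8 I r) (get8 I s)) 0) ||
          (!(Nat.beq (P.code r s) 0) &&
            Nat.beq (Nat.mod (P8.code (get8 I r) (get8 I s)) 256) (Nat.succ (get8 I (idx (P.code r s)))) &&
            Nat.beq (dg (P8.code (get8 I r) (get8 I s))) (dg (P.code r s)))))

theorem nbeq_iff (a b : ℕ) : (!(Nat.beq a b)) = true ↔ a ≠ b := by
  rw [Bool.not_eq_true', ne_eq, ← beq_iff' a b]
  cases Nat.beq a b <;> simp

variable {D D8 : ChevalleyDatum} {P P8 : FD} (hA : Agree D P) {T : Tb} (h : chkAll P T = true)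
  (hA8 : Agree D8 P8) {T8 : Tb} (h8 : chkAll P8 T8 = true) {I : ℕ} (hI : chkEm P P8 I = true)

include hA hA8 hI in
theorem em_lt {r : ℕ} (hr : r < D.nroots) : get8 I r < D8.nroots := by
  have hr' : r < P.n := hA.n_eq ▸ hr
  have := (allLt_iff _ _).mp hI r hr'
  simp only [Bool.and_eq_true, blt_iff] at this
  exact hA8.n_eq ▸ this.1

include hA h hA8 h8 hI in
theorem em_terms {r s : ℕ} (hr : r < D.nroots) (hs : s < D.nroots) (h1 : s ≠ r) (h2 : s ≠ D.neg r) :
    get8 I s ≠ get8 I r ∧ get8 I s ≠ D8.neg (get8 I r) ∧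
      D8.commTerms (get8 I r) (get8 I s) = (D.commTerms r s).map fun q => (get8 I q.1, q.2) := by
  have hr' : r < P.n := hA.n_eq ▸ hr
  have hs' : s < P.n := hA.n_eq ▸ hs
  have h2' : s ≠ P.negD r := by rw [← (hA.neg r hr').1]; exact h2
  have hr8 : get8 I r < P8.n := hA8.n_eq ▸ em_lt hA hA8 hI hr
  have hs8 : get8 I s < P8.n := hA8.n_eq ▸ em_lt hA hA8 hI hs
  have := (allLt_iff _ _).mp hI r hr'
  simp only [Bool.and_eq_true] at this
  have := (allLt_iff _ _).mp this.2 s hs'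
  simp only [Bool.and_eq_true, Bool.or_eq_true, nbeq_iff, beq_iff'] at this
  rcases this with (e | e) | ⟨⟨e1, e2⟩, e3⟩
  · exact absurd e h1
  · exact absurd e h2'
  · refine ⟨e1, by rw [(hA8.neg _ hr8).1]; exact e2, ?_⟩
    rw [commTerms_eq hA h hr' hs', commTerms_eq hA8 h8 hr8 hs8]
    rcases e3 with ⟨a, b⟩ | ⟨⟨a, b⟩, c⟩
    · rw [if_pos a, if_pos b]; rfl
    · have b' : P8.code (get8 I r) (get8 I s) % 256 = get8 I (idx (P.code r s)) + 1 := b
      have c' : P8.code (get8 I r) (get8 I s) / 256 = P.code r s / 256 := c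
      rw [if_neg a, if_neg (by intro e0; rw [e0] at b'; simp at b'), b', c']
      rfl

include hA h hA8 h8 hI in
theorem exists_em (hD8 : Std D8) (K : Type*) [Field K] :
    ∃ τ : D.SteinbergCover K →* GL D8.Idx K, ∀ r t, r < D.nroots → τ (D.scGen K r t) = xG hD8 (get8 I r) t := by
  classical
  set Y : ℕ → K → GL D8.Idx K := fun r t => if r < D.nroots then xG hD8 (get8 I r) t else 1 with hY
  have Yin : ∀ r, r < D.nroots → ∀ t, Y r t = xG hD8 (get8 I r) t := fun r hr t => if_pos hr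
  obtain ⟨τ, hτ⟩ := exists_hom_of_rel D K Y (fun r t hr => if_neg hr)
    (fun r t u hr => by rw [Yin r hr, Yin r hr, Yin r hr, xG_add])
    (by
      intro r s t u hr hs h1 h2
      obtain ⟨n1, n2, e⟩ := em_terms hA h hA8 h8 hI hr hs h1 h2
      have k := Helper22ChevCFAll.cf (F := K) hD8 _ _ (em_lt hA hA8 hI hr) (em_lt hA hA8 hI hs) n1 n2 t u
      have k' : xG hD8 (get8 I s) u * xG hD8 (get8 I r) t = xG hD8 (get8 I r) t * xG hD8 (get8 I s) u *
          Helper22ChevBasic.wordG hD8 (D8.commWord K (get8 I r) (get8 I s) t u) := by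
        apply Units.ext
        simpa using k
      rw [Yin r hr, Yin s hs, k']
      congr 1
      unfold commWord Helper22ChevBasic.wordG
      rw [e]
      rcases tot_spec hA h hr hs h1 h2 with hab | ⟨c, e', hab⟩
      · obtain ⟨_, _, e0 | ⟨_, _, e3⟩⟩ := Cm_spec hA h hab
        · exact absurd e0 h1
        · rw [e3]; rfl
      · obtain ⟨_, _, hcn, _, _, e3⟩ := Sm_spec hA h hab
        rw [e3]
        simp only [List.map_cons, List.map_nil, List.prod_cons, List.prod_nil, mul_one]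
        rw [Yin c hcn])
  exact ⟨τ, fun r t hr => by rw [hτ, Yin r hr]⟩

/-- extension of a torus parameter by ones -/
def ext {m n : ℕ} (G : Type*) [CommGroup G] : (Fin m → G) →* (Fin n → G) where
  toFun c k := if hk : k.val < m then c ⟨k.val, hk⟩ else 1
  map_one' := by funext k; simp
  map_mul' a b := by
    funext k
    by_cases hk : k.val < m <;> simp [hk]

theorem ext_mulSingle {m n : ℕ} (hmn : m ≤ n) (G : Type*) [CommGroup G] (i : Fin m) (c : G) :
    ext (n := n) G (Pi.mulSingle i c) = Pi.mulSingle ⟨i.val, lt_of_lt_of_le i.2 hmn⟩ c := by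
  funext k
  show (if hk : k.val < m then (Pi.mulSingle i c : Fin m → G) ⟨k.val, hk⟩ else 1) = _
  by_cases e : k.val = i.val
  · have hk : k.val < m := e ▸ i.2
    have e1 : (⟨k.val, hk⟩ : Fin m) = i := Fin.ext e
    have e2 : k = ⟨i.val, lt_of_lt_of_le i.2 hmn⟩ := Fin.ext e
    rw [dif_pos hk, e1, Pi.mulSingle_eq_same, e2, Pi.mulSingle_eq_same]
  · have e2 : k ≠ ⟨i.val, lt_of_lt_of_le i.2 hmn⟩ := fun e' => e (congrArg Fin.val e')
    rw [Pi.mulSingle_eq_of_ne e2]
    split_ifs with hk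
    · exact Pi.mulSingle_eq_of_ne (fun e' => e (congrArg Fin.val e')) _
    · rfl

theorem ext_injective {m n : ℕ} (hmn : m ≤ n) (G : Type*) [CommGroup G] :
    Function.Injective (ext (m := m) (n := n) G) := by
  intro a b hab
  funext i
  have := congrFun hab ⟨i.val, lt_of_lt_of_le i.2 hmn⟩
  simpa [ext] using this

theorem Φ_injective_of {D D8 : ChevalleyDatum} {I : ℕ} {hD : Std D} (hD8 : Std D8) {K : Type*} [Field K]
    {𝔾 : Type*} [Group 𝔾] {T : St hD K 𝔾} (h3 : T.R3) (τ : 𝔾 →* GL D8.Idx K)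
    (hτ : ∀ r t, r < D.nroots → τ (T.X r t) = xG hD8 (get8 I r) t) (hrk : D.rank ≤ D8.rank)
    (hsim : ∀ i < D.rank, get8 I (D.simple i) = D8.simple i ∧ get8 I (D.neg (D.simple i)) = D8.neg (D8.simple i))
    (B : Matrix (Fin D8.rank) (Fin D8.rank) ℤ) (hB : cartanMat D8 * B = 1) :
    Function.Injective (St.Φ h3) := by
  have key : τ.comp (St.Φ h3) = ((δ : _ →* GL D8.Idx K).comp Helper23Diag.X).comp (ext Kˣ) := by
    apply MonoidHom.noncommPiCoprodEquiv.symm.injective
    apply Subtype.ext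
    funext i
    ext1 c
    show τ (St.Φ h3 (Pi.mulSingle i c)) = δ (Helper23Diag.X (ext Kˣ (Pi.mulSingle i c)))
    rw [St.Φ_mulSingle, ext_mulSingle hrk, ← hE_eq (tab hD8) (rel hD8)]
    have hs := hsim i.val i.2
    have a1 : ∀ t, τ (T.rg.x (T.rg.simple i) t) =
        (S0 hD8 K).x ((S0 hD8 K).simple ⟨i.val, lt_of_lt_of_le i.2 hrk⟩) t := by
      intro t
      have : τ (T.X (D.simple i.val) t) = _ := hτ _ t ((tab hD).simple_lt i i.2)
      rw [hs.1] at this
      exact this.trans (xg_eq hD8 _ t).symm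
    have a2 : ∀ t, τ (T.rg.x (T.rg.neg (T.rg.simple i)) t) =
        (S0 hD8 K).x ((S0 hD8 K).neg ((S0 hD8 K).simple ⟨i.val, lt_of_lt_of_le i.2 hrk⟩)) t := by
      intro t
      have : τ (T.X (D.neg (D.simple i.val)) t) = _ := hτ _ t ((tab hD).neg_lt _ ((tab hD).simple_lt i i.2))
      rw [hs.2] at this
      exact this.trans (xg_eq hD8 _ t).symm
    unfold RG.hE RG.nE
    simp only [map_mul, a1, a2]
  rw [injective_iff_map_eq_one]
  intro c hc
  have h1 : (τ.comp (St.Φ h3)) c = 1 := by rw [MonoidHom.comp_apply, hc, map_one]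
  rw [key] at h1
  have h2 : Helper23Diag.X (D := D8) (ext Kˣ c) = 1 := by
    apply δ_injective
    rw [map_one]
    exact h1
  have h4 : ext Kˣ c ∈ (phi (G := Kˣ) (cartanMat D8)).ker := by
    rw [← ker_X (tab hD8) (rel hD8 (F := K)) (cartanRefl hD8)]
    exact h2
  rw [MonoidHom.mem_ker] at h4
  have h5 := phi_mul (cartanMat D8) B (ext Kˣ c)
  rw [hB, phi_one, h4, map_one] at h5
  apply ext_injective hrk Kˣ
  rw [h5, map_one]

/-- the order of the kernel of the map to the adjoint group -/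
theorem card_ker_of {D : ChevalleyDatum} {hD : Std D} {K : Type*} [Field K] [Fintype K]
    {𝔾 : Type*} [Group 𝔾] {T : St hD K 𝔾} (h3 : T.R3) (hG : T.rg.G = ⊤) (hinj : Function.Injective (St.Φ h3))
    (U U' V V' : Matrix (Fin D.rank) (Fin D.rank) ℤ) (d : Fin D.rank → ℕ)
    (hU : U * U' = 1) (hV : V * V' = 1) (hS : U * cartanMat D * V = Matrix.diagonal (fun j => (d j : ℤ))) :
    Nat.card T.θ.ker = ∏ j, (Fintype.card K - 1).gcd (d j) := by
  classical
  have hq : Nat.card Kˣ = Fintype.card K - 1 := by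
    rw [Nat.card_eq_fintype_card, Fintype.card_units]
  rw [St.ker_eq h3 hG, ← hq, ← card_ker (G := Kˣ) (cartanMat D) U U' V V' d hU hV hS]
  exact Nat.card_congr (Subgroup.equivMapOfInjective _ _ hinj).toEquiv.symm

theorem equiv_zmod {G : Type*} [Group G] {p n : ℕ} (hp : p.Prime) (hn : n ∣ p) (hc : Nat.card G = n) :
    Nonempty (G ≃* Multiplicative (ZMod n)) := by
  subst hc
  haveI := Fact.mk hp
  have : IsCyclic G := isCyclic_of_card_dvd_prime hn
  exact ⟨(zmodCyclicMulEquiv this).symm⟩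

include hA h hA8 h8 hI in
theorem card_ker_sc (hD : Std D) (hD8 : Std D8) {K : Type*} [Field K] [Fintype K] (hrk : D.rank ≤ D8.rank)
    (hsim : ∀ i < D.rank, get8 I (D.simple i) = D8.simple i ∧ get8 I (D.neg (D.simple i)) = D8.neg (D8.simple i))
    (B : Matrix (Fin D8.rank) (Fin D8.rank) ℤ) (hB : cartanMat D8 * B = 1)
    (U U' V V' : Matrix (Fin D.rank) (Fin D.rank) ℤ) (d : Fin D.rank → ℕ)
    (hU : U * U' = 1) (hV : V * V' = 1) (hS : U * cartanMat D * V = Matrix.diagonal (fun j => (d j : ℤ))) :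
    Nat.card (scG hD K).θ.ker = ∏ j, (Fintype.card K - 1).gcd (d j) := by
  obtain ⟨τ, hτ⟩ := exists_em hA h hA8 h8 hI hD8 K
  have hG := scG_G hD K
  exact card_ker_of ((scG hD K).R3_of_finite hG) hG
    (Φ_injective_of hD8 _ τ hτ hrk hsim B hB) U U' V V' d hU hV hS

include hA h hA8 h8 hI in
theorem card_center_st (hD : Std D) (hD8 : Std D8) {K : Type*} [Field K] [Fintype K] (hrk : D.rank ≤ D8.rank)
    (hsim : ∀ i < D.rank, get8 I (D.simple i) = D8.simple i ∧ get8 I (D.neg (D.simple i)) = D8.neg (D8.simple i))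
    (B : Matrix (Fin D8.rank) (Fin D8.rank) ℤ) (hB : cartanMat D8 * B = 1)
    (U U' V V' : Matrix (Fin D.rank) (Fin D.rank) ℤ) (d : Fin D.rank → ℕ)
    (hU : U * U' = 1) (hV : V * V' = 1) (hS : U * cartanMat D * V = Matrix.diagonal (fun j => (d j : ℤ))) :
    Nat.card (center (D.SteinbergGroup K)) = ∏ j, (Fintype.card K - 1).gcd (d j) := by
  obtain ⟨τ, hτ⟩ := exists_em hA h hA8 h8 hI hD8 K
  obtain ⟨e, he⟩ := cover_equiv hD K
  rw [center_eq_ker hD K]
  refine card_ker_of (stG_R3 hD K) (stG_G hD K)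
    (Φ_injective_of hD8 _ (τ.comp e.symm.toMonoidHom) ?_ hrk hsim B hB) U U' V V' d hU hV hS
  intro r t hr
  have : e.symm ((stG hD K).X r t) = D.scGen K r t := by
    rw [MulEquiv.symm_apply_eq]
    exact (he _).symm
  rw [MonoidHom.comp_apply]
  show τ (e.symm _) = _
  rw [this, hτ r t hr]

end Cfsg.Agent.Lib.Helper23Em
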