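import Cfsg.Agent.Lib.Helper23Em
import Cfsg.Agent.Lib.Helper23UnE6
import Cfsg.Agent.Lib.Helper23UnE8

set_option autoImplicit false
set_option maxRecDepth 1000000

/-! The root system of type E6 inside that of type E8, with matching structure constants. -/

namespace Cfsg.Agent.Lib.Helper23EmE6

open Cfsg.Lie Cfsg.Agent.Lib.Helper23Un Cfsg.Agent.Lib.Helper23Em

def I : ℕ := 197826344582926165870947970743180924148311991970668180805546008227381352219946377108106560900955329900548830782003492134775948981394880634343157650874801381242681034812894499

theorem chk : chkEm Helper22ChevTabE6.fd Helper22ChevTabE8.fd I = true := by decide +kernel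

theorem hsim : ∀ i < chevE6.rank, get8 I (chevE6.simple i) = chevE8.simple i ∧
    get8 I (chevE6.neg (chevE6.simple i)) = chevE8.neg (chevE8.simple i) := by decide +kernel

end Cfsg.Agent.Lib.Helper23EmE6
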