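import Cfsg.Agent.Lib.Helper23Em
import Cfsg.Agent.Lib.Helper23UnE7
import Cfsg.Agent.Lib.Helper23UnE8

set_option autoImplicit false
set_option maxRecDepth 1000000

/-! The root system of type E7 inside that of type E8, with matching structure constants. -/

namespace Cfsg.Agent.Lib.Helper23EmE7

open Cfsg.Lie Cfsg.Agent.Lib.Helper23Un Cfsg.Agent.Lib.Helper23Em

def I : ℕ := 2430810997004866598444401240238742686892022899567541319682954425287167460260763023210395046641608905787741593400045937092517025071470630088513929100882265937055017271469174884988986077504446333275414838194854552575824525579080592657593264928194488327118387149962421491912665312065144265886464730302321677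

theorem chk : chkEm Helper22ChevTabE7.fd Helper22ChevTabE8.fd I = true := by decide +kernel

theorem hsim : ∀ i < chevE7.rank, get8 I (chevE7.simple i) = chevE8.simple i ∧
    get8 I (chevE7.neg (chevE7.simple i)) = chevE8.neg (chevE8.simple i) := by decide +kernel

end Cfsg.Agent.Lib.Helper23EmE7
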