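import Cfsg.Agent.Lib.Helper23All
import Cfsg.Agent.Lib.Helper22ChevCFAll
import Cfsg.Prelude.Def_ChevAutomorphisms

set_option autoImplicit false
set_option linter.unusedSectionVars false
set_option linter.unusedVariables false

/-! Generation of the Chevalley groups by `N` and one or two fundamental root subgroups. -/

namespace Cfsg.Agent.Lib.Helper23Gen

open Subgroup Cfsg.Lie Cfsg.Lie.ChevalleyDatum Cfsg.Agent.Lib.Helper23RG Cfsg.Agent.Lib.Helper23Chev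
  Cfsg.Agent.Lib.Helper23All Cfsg.Agent.Lib.Helper22ChevBasic

def hc (D : ChevalleyDatum) (r s : ℕ) : ℕ := ((D.commTerms r s).headD (0, 0, 0, 0)).1
def hN (D : ChevalleyDatum) (r s : ℕ) : ℤ := ((D.commTerms r s).headD (0, 0, 0, 0)).2.1

/-- one derivation step -/
def step (D : ChevalleyDatum) (m : ℕ) (L : List ℕ) (st : ℕ × ℕ × ℕ) : List ℕ :=
  if st.1 = 0 then
    (if st.2.1 < D.rank ∧ st.2.2 < D.nroots ∧ st.2.2 ∈ L then D.reflectRoot st.2.1 st.2.2 :: L else L)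
  else
    (if st.2.1 < D.nroots ∧ st.2.2 < D.nroots ∧ st.2.1 ∈ L ∧ st.2.2 ∈ L ∧ st.2.2 ≠ st.2.1 ∧ st.2.2 ≠ D.neg st.2.1 ∧
      D.commTerms st.2.1 st.2.2 = [(hc D st.2.1 st.2.2, hN D st.2.1 st.2.2, 1, 1)] ∧ (hN D st.2.1 st.2.2).natAbs = m
      then hc D st.2.1 st.2.2 :: L else L)

def run (D : ChevalleyDatum) (m : ℕ) (sts : List (ℕ × ℕ × ℕ)) (L : List ℕ) : List ℕ := sts.foldl (step D m) L

theorem run_sound (D : ChevalleyDatum) (m : ℕ) (P : ℕ → Prop)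
    (hrefl : ∀ i < D.rank, ∀ r < D.nroots, P r → P (D.reflectRoot i r))
    (hcomm : ∀ r s c N, r < D.nroots → s < D.nroots → s ≠ r → s ≠ D.neg r → D.commTerms r s = [(c, N, 1, 1)] →
      N.natAbs = m → P r → P s → P c) :
    ∀ (sts : List (ℕ × ℕ × ℕ)) (L : List ℕ), (∀ r ∈ L, P r) → ∀ r ∈ run D m sts L, P r := by
  intro sts
  induction sts with
  | nil => intro L hL; exact hL
  | cons st sts ih =>
    intro L hL
    unfold run
    rw [List.foldl_cons]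
    apply ih
    unfold step
    split_ifs with h0 h1 h2
    · intro r hr
      rcases List.mem_cons.1 hr with rfl | hr
      · exact hrefl _ h1.1 _ h1.2.1 (hL _ h1.2.2)
      · exact hL r hr
    · exact hL
    · intro r hr
      rcases List.mem_cons.1 hr with rfl | hr
      · obtain ⟨a1, a2, a3, a4, a5, a6, a7, a8⟩ := h2
        exact hcomm _ _ _ _ a1 a2 a5 a6 a7 a8 (hL _ a3) (hL _ a4)
      · exact hL r hr
    · exact hL

variable {D : ChevalleyDatum} {K : Type*} [Field K]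

theorem gen_of_cert (hD : Std D) (H : Subgroup (GL D.Idx K)) (hNH : D.monomialSubgroup K ≤ H) (m : ℕ) (hm : (m : K) ≠ 0)
    (sts : List (ℕ × ℕ × ℕ)) (L0 : List ℕ) (h0 : ∀ r ∈ L0, D.rootSubgroup K r ≤ H)
    (hall : ∀ j < D.rank, D.simple j ∈ run D m sts L0) : D.group K ≤ H := by
  have hT := tab hD
  have hR := rel (F := K) hD
  have ok := rg_ok hT hR
  set S := rg hT hR with hS
  have hN' : S.N ≤ H := by rw [hS, Helper23Chev.N_eq]; exact hNH
  have hrefl : ∀ i < D.rank, ∀ r < D.nroots, (∀ t : K, xg D K r t ∈ H) → ∀ t : K, xg D K (D.reflectRoot i r) t ∈ H := by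
    intro i hi r hr h t
    have h1 := ok.n_conj ⟨i, hi⟩ ⟨r, hr⟩ (S.η ⟨i, hi⟩ ⟨r, hr⟩ * t)
    rw [← mul_assoc, RG.η_mul_self ok, one_mul] at h1
    have h2 : S.nn ⟨i, hi⟩ ∈ H := hN' (RG.nn_mem_N _)
    have h3 : S.x (S.refl ⟨i, hi⟩ ⟨r, hr⟩) t ∈ H := by
      rw [← h1]
      exact mul_mem (mul_mem h2 (h _)) (inv_mem h2)
    exact h3
  have hcomm : ∀ r s c N, r < D.nroots → s < D.nroots → s ≠ r → s ≠ D.neg r → D.commTerms r s = [(c, N, 1, 1)] →
      N.natAbs = m → (∀ t : K, xg D K r t ∈ H) → (∀ t : K, xg D K s t ∈ H) → ∀ t : K, xg D K c t ∈ H := by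
    intro r s c N hr hs h1 h2 hc hNm hPr hPs v
    have hN0 : ((N : ℤ) : K) ≠ 0 := by
      intro h
      apply hm
      rw [← hNm]
      rcases Int.natAbs_eq N with e | e
      · rw [e] at h; simpa using h
      · rw [e] at h; simpa using h
    have h := Helper22ChevCFAll.cf (F := K) hD r s hr hs h1 h2 (-(v / (N : K))) 1
    unfold commWord wordMat at h
    rw [hc] at h
    simp only [List.map_cons, List.map_nil, List.prod_cons, List.prod_nil, mul_one, neg_neg, pow_one] at h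
    rw [mul_div_cancel₀ _ hN0] at h
    have h' : xg D K s 1 * xg D K r (-(v / (N : K))) = xg D K r (-(v / (N : K))) * xg D K s 1 * xg D K c v := by
      apply Units.ext
      simp only [Units.val_mul, coe_xg hR]
      exact h
    have h'' : xg D K c v = (xg D K r (-(v / (N : K))) * xg D K s 1)⁻¹ * (xg D K s 1 * xg D K r (-(v / (N : K)))) := by
      rw [h']; group
    rw [h'']
    exact mul_mem (inv_mem (mul_mem (hPr _) (hPs _))) (mul_mem (hPs _) (hPr _))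
  have hsound := run_sound D m (fun r => ∀ t : K, xg D K r t ∈ H) hrefl hcomm sts L0 (by
    intro r hr t
    apply h0 r hr
    exact subset_closure ⟨t, coe_xg hR r t⟩)
  have hall' : ∀ r : Fin D.nroots, ∀ t : K, S.x r t ∈ H := by
    apply ok.reach
    · intro i t
      exact hsound _ (hall i i.2) t
    · intro i r h t
      exact hrefl i i.2 r r.2 h t
  rw [← Helper23Chev.G_eq hT hR]
  unfold RG.G RG.XS
  rw [closure_le]
  rintro _ ⟨r, t, -, rfl⟩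
  exact hall' r t

theorem cast_ne_zero_of_ringChar {p : ℕ} (hp : p.Prime) (h : ringChar K ≠ p) : ((p : ℕ) : K) ≠ 0 := by
  intro h0
  have h1 := (ringChar.spec K p).1 h0
  rcases (Nat.dvd_prime hp).1 h1 with e | e
  · exact CharP.ringChar_ne_one e
  · exact h e


def certG2 (i : ℕ) : List (ℕ × ℕ × ℕ) :=
  ([[(0, 0, 7), (0, 1, 4), (1, 7, 3), (0, 1, 5)], []] : List (List (ℕ × ℕ × ℕ))).getD i []

theorem chkG2 : ∀ i : Fin chevG2.rank, chevG2.isLong (chevG2.simple i.val) = false →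
    ∀ j : Fin chevG2.rank, chevG2.simple j.val ∈ run chevG2 3 (certG2 i.val) [chevG2.simple i.val] := by
  decide +kernel


def certB2 (i : ℕ) : List (ℕ × ℕ × ℕ) :=
  ([[(0, 1, 5), (1, 5, 6), (0, 0, 7)], []] : List (List (ℕ × ℕ × ℕ))).getD i []

theorem chkB2 : ∀ i : Fin chevB2.rank, chevB2.isLong (chevB2.simple i.val) = false →
    ∀ j : Fin chevB2.rank, chevB2.simple j.val ∈ run chevB2 2 (certB2 i.val) [chevB2.simple i.val] := by
  decide +kernel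


def certD4 (i : ℕ) : List (ℕ × ℕ × ℕ) :=
  ([[(0, 1, 18), (0, 0, 19), (0, 2, 14), (0, 1, 16), (0, 3, 14), (0, 1, 15)], [(0, 0, 14), (0, 1, 19), (0, 2, 14), (0, 1, 16), (0, 3, 14), (0, 1, 15)], [(0, 1, 13), (0, 0, 16), (0, 2, 21), (0, 1, 19), (0, 2, 16), (0, 3, 14), (0, 1, 15)], [(0, 1, 12), (0, 0, 15), (0, 3, 20), (0, 1, 19), (0, 3, 15), (0, 2, 15), (0, 3, 17), (0, 1, 16)]] : List (List (ℕ × ℕ × ℕ))).getD i []

theorem chkD4 : ∀ i : Fin chevD4.rank, chevD4.isLong (chevD4.simple i.val) = false →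
    ∀ j : Fin chevD4.rank, chevD4.simple j.val ∈ run chevD4 1 (certD4 i.val) [chevD4.simple i.val] := by
  decide +kernel


def certF4 (i : ℕ) : List (ℕ × ℕ × ℕ) :=
  ([[(0, 1, 33), (0, 0, 34), (0, 2, 34), (0, 1, 35), (1, 33, 37), (0, 0, 41), (0, 1, 30), (0, 3, 25), (0, 2, 26)], [(0, 0, 27), (0, 1, 34), (0, 2, 27), (1, 27, 28), (0, 1, 30), (0, 3, 25), (0, 2, 26)], [], []] : List (List (ℕ × ℕ × ℕ))).getD i []

theorem chkF4 : ∀ i : Fin chevF4.rank, chevF4.isLong (chevF4.simple i.val) = false →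
    ∀ j : Fin chevF4.rank, chevF4.simple j.val ∈ run chevF4 2 (certF4 i.val) [chevF4.simple i.val] := by
  decide +kernel


def certE6 (i : ℕ) : List (ℕ × ℕ × ℕ) :=
  ([[(0, 2, 56), (0, 0, 57), (0, 3, 42), (0, 1, 43), (0, 2, 50), (0, 3, 47), (0, 2, 43), (0, 4, 39), (0, 3, 40), (0, 5, 37), (0, 4, 38)], [(0, 3, 46), (0, 1, 47), (0, 2, 39), (0, 0, 43), (0, 3, 58), (0, 2, 57), (0, 3, 43), (0, 4, 39), (0, 3, 40), (0, 5, 37), (0, 4, 38)], [(0, 0, 42), (0, 2, 57), (0, 3, 42), (0, 1, 43), (0, 2, 50), (0, 3, 47), (0, 2, 43), (0, 4, 39), (0, 3, 40), (0, 5, 37), (0, 4, 38)], [(0, 2, 39), (0, 0, 43), (0, 3, 58), (0, 2, 57), (0, 1, 39), (0, 3, 47), (0, 3, 43), (0, 4, 39), (0, 3, 40), (0, 5, 37), (0, 4, 38)], [(0, 3, 37), (0, 2, 40), (0, 0, 44), (0, 4, 59), (0, 3, 58), (0, 2, 57), (0, 1, 40), (0, 4, 48), (0, 3, 47), (0, 4, 44), (0, 3, 43), (0, 4, 40), (0, 5, 37), (0, 4, 38)], [(0, 4, 36), (0, 3, 38), (0,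 2, 41), (0, 0, 45), (0, 5, 60), (0, 4, 59), (0, 3, 58), (0, 2, 57), (0, 1, 41), (0, 5, 49), (0, 4, 48), (0, 3, 47), (0, 5, 45), (0, 4, 44), (0, 3, 43), (0, 5, 41), (0, 4, 40), (0, 5, 38)]] : List (List (ℕ × ℕ × ℕ))).getD i []

theorem chkE6 : ∀ i : Fin chevE6.rank, chevE6.isLong (chevE6.simple i.val) = false →
    ∀ j : Fin chevE6.rank, chevE6.simple j.val ∈ run chevE6 1 (certE6 i.val) [chevE6.simple i.val] := by
  decide +kernel


def certE7 (i : ℕ) : List (ℕ × ℕ × ℕ) :=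
  ([[(0, 2, 93), (0, 0, 94), (0, 3, 73), (0, 1, 74), (0, 2, 83), (0, 3, 79), (0, 2, 74), (0, 4, 69), (0, 3, 70), (0, 5, 66), (0, 4, 67), (0, 6, 64), (0, 5, 65)], [(0, 3, 78), (0, 1, 79), (0, 2, 69), (0, 0, 74), (0, 3, 95), (0, 2, 94), (0, 3, 74), (0, 4, 69), (0, 3, 70), (0, 5, 66), (0, 4, 67), (0, 6, 64), (0, 5, 65)], [(0, 0, 73), (0, 2, 94), (0, 3, 73), (0, 1, 74), (0, 2, 83), (0, 3, 79), (0, 2, 74), (0, 4, 69), (0, 3, 70), (0, 5, 66), (0, 4, 67), (0, 6, 64), (0, 5, 65)], [(0, 2, 69), (0, 0, 74), (0, 3, 95), (0, 2, 94), (0, 1, 69), (0, 3, 79), (0, 3, 74), (0, 4, 69), (0, 3, 70), (0, 5, 66), (0, 4, 67), (0, 6, 64), (0, 5, 65)], [(0, 3, 66), (0, 2, 70), (0, 0, 75), (0, 4, 96), (0, 3, 95), (0, 2, 94), (0, 1, 70), (0, 4, 80), (0, 3, 79), (0, 4, 75), (0, 3, 74), (0, 4, 70), (0, 5, 66), (0, 4, 67), (0, 6, 64), (0, 5, 65)], [(0, 4, 64), (0, 3, 67), (0, 2, 71), (0, 0, 76), (0, 5, 97), (0, 4, 96),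 (0, 3, 95), (0, 2, 94), (0, 1, 71), (0, 5, 81), (0, 4, 80), (0, 3, 79), (0, 5, 76), (0, 4, 75), (0, 3, 74), (0, 5, 71), (0, 4, 70), (0, 5, 67), (0, 6, 64), (0, 5, 65)], [(0, 5, 63), (0, 4, 65), (0, 3, 68), (0, 2, 72), (0, 0, 77), (0, 6, 98), (0, 5, 97), (0, 4, 96), (0, 3, 95), (0, 2, 94), (0, 1, 72), (0, 6, 82), (0, 5, 81), (0, 4, 80), (0, 3, 79), (0, 6, 77), (0, 5, 76), (0, 4, 75), (0, 3, 74), (0, 6, 72), (0, 5, 71), (0, 4, 70), (0, 6, 68), (0, 5, 67), (0, 6, 65)]] : List (List (ℕ × ℕ × ℕ))).getD i []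

theorem chkE7 : ∀ i : Fin chevE7.rank, chevE7.isLong (chevE7.simple i.val) = false →
    ∀ j : Fin chevE7.rank, chevE7.simple j.val ∈ run chevE7 1 (certE7 i.val) [chevE7.simple i.val] := by
  decide +kernel


def certE8 (i : ℕ) : List (ℕ × ℕ × ℕ) :=
  ([[(0, 2, 162), (0, 0, 163), (0, 3, 135), (0, 1, 136), (0, 2, 147), (0, 3, 142), (0, 2, 136), (0, 4, 130), (0, 3, 131), (0, 5, 126), (0, 4, 127), (0, 6, 123), (0, 5, 124), (0, 7, 121), (0, 6, 122)], [(0, 3, 141), (0, 1, 142), (0, 2, 130), (0, 0, 136), (0, 3, 164), (0, 2, 163), (0, 3, 136), (0, 4, 130), (0, 3, 131), (0, 5, 126), (0, 4, 127), (0, 6, 123), (0, 5, 124), (0, 7, 121), (0, 6, 122)], [(0, 0, 135), (0, 2, 163), (0, 3, 135), (0, 1, 136), (0, 2, 147), (0, 3, 142), (0, 2, 136), (0, 4, 130), (0, 3, 131), (0, 5, 126), (0, 4, 127), (0, 6, 123), (0, 5, 124), (0, 7, 121), (0, 6, 122)], [(0, 2, 130), (0, 0, 136), (0, 3, 164), (0, 2, 163), (0,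 1, 130), (0, 3, 142), (0, 3, 136), (0, 4, 130), (0, 3, 131), (0, 5, 126), (0, 4, 127), (0, 6, 123), (0, 5, 124), (0, 7, 121), (0, 6, 122)], [(0, 3, 126), (0, 2, 131), (0, 0, 137), (0, 4, 165), (0, 3, 164), (0, 2, 163), (0, 1, 131), (0, 4, 143), (0, 3, 142), (0, 4, 137), (0, 3, 136), (0, 4, 131), (0, 5, 126), (0, 4, 127), (0, 6, 123), (0, 5, 124), (0, 7, 121), (0, 6, 122)], [(0, 4, 123), (0, 3, 127), (0, 2, 132), (0, 0, 138), (0, 5, 166), (0, 4, 165), (0, 3, 164), (0, 2, 163), (0, 1, 132), (0, 5, 144), (0, 4, 143), (0, 3, 142), (0, 5, 138), (0, 4, 137), (0, 3, 136), (0, 5, 132), (0, 4, 131), (0, 5, 127), (0, 6, 123), (0, 5, 124), (0, 7, 121), (0, 6, 122)], [(0, 5, 121), (0, 4, 124), (0, 3, 128), (0, 2, 133), (0, 0, 139), (0, 6, 167), (0, 5, 166), (0, 4, 165), (0, 3, 164), (0, 2, 163), (0, 1, 133), (0, 6, 145), (0, 5, 144), (0, 4, 143), (0, 3, 142), (0, 6, 139), (0, 5, 138), (0, 4, 137), (0,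 3, 136), (0, 6, 133), (0, 5, 132), (0, 4, 131), (0, 6, 128), (0, 5, 127), (0, 6, 124), (0, 7, 121), (0, 6, 122)], [(0, 6, 120), (0, 5, 122), (0, 4, 125), (0, 3, 129), (0, 2, 134), (0, 0, 140), (0, 7, 168), (0, 6, 167), (0, 5, 166), (0, 4, 165), (0, 3, 164), (0, 2, 163), (0, 1, 134), (0, 7, 146), (0, 6, 145), (0, 5, 144), (0, 4, 143), (0, 3, 142), (0, 7, 140), (0, 6, 139), (0, 5, 138), (0, 4, 137), (0, 3, 136), (0, 7, 134), (0, 6, 133), (0, 5, 132), (0, 4, 131), (0, 7, 129), (0, 6, 128), (0, 5, 127), (0, 7, 125), (0, 6, 124), (0, 7, 122)]] : List (List (ℕ × ℕ × ℕ))).getD i []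

theorem chkE8 : ∀ i : Fin chevE8.rank, chevE8.isLong (chevE8.simple i.val) = false →
    ∀ j : Fin chevE8.rank, chevE8.simple j.val ∈ run chevE8 1 (certE8 i.val) [chevE8.simple i.val] := by
  decide +kernel


theorem chk2B2 : ∀ i j : Fin chevB2.rank, chevB2.isLong (chevB2.simple i.val) = false →
    chevB2.isLong (chevB2.simple j.val) = true → chevB2.bonds i.val j.val ≠ 0 →
    ∀ k : Fin chevB2.rank, chevB2.simple k.val ∈ run chevB2 1 [] [chevB2.simple i.val, chevB2.simple j.val] := by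
  decide +kernel


theorem chk2F4 : ∀ i j : Fin chevF4.rank, chevF4.isLong (chevF4.simple i.val) = false →
    chevF4.isLong (chevF4.simple j.val) = true → chevF4.bonds i.val j.val ≠ 0 →
    ∀ k : Fin chevF4.rank, chevF4.simple k.val ∈ run chevF4 1 [(0, 0, 27), (0, 1, 34), (0, 3, 25), (0, 2, 26)] [chevF4.simple i.val, chevF4.simple j.val] := by
  decide +kernel


theorem chk2G2 : ∀ i j : Fin chevG2.rank, chevG2.isLong (chevG2.simple i.val) = false →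
    chevG2.isLong (chevG2.simple j.val) = true → chevG2.bonds i.val j.val ≠ 0 →
    ∀ k : Fin chevG2.rank, chevG2.simple k.val ∈ run chevG2 1 [] [chevG2.simple i.val, chevG2.simple j.val] := by
  decide +kernel


end Cfsg.Agent.Lib.Helper23Gen
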