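import Mathlib
import Cfsg.Agent.Lib.Helper23Agr

set_option autoImplicit false
set_option linter.unusedSectionVars false
set_option linter.unusedVariables false

/-! The quotient `N / H` as the reflection group, and as a Coxeter group. -/

namespace Cfsg.Agent.Lib.Helper23RG

open Subgroup Cfsg.Agent.Lib.Helper23Grp Cfsg.Agent.Lib.Helper23Weyl

namespace RG

variable {𝔾 F R I : Type*} [Group 𝔾] [Field F] {S : RG 𝔾 F R I} (ok : S.Ok)
  (hBV : ∀ g ∈ S.B, g ∈ S.V → g = 1) (hUN : ∀ g ∈ S.U, g ∈ S.N → g = 1)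

include hBV hUN in
theorem exists_permHom (rf : R → R → R) (pr : R → R → ℤ) :
    ∃ ψ : ↥S.N →* Equiv.Perm R, (∀ n : ↥S.N, S.Mon n.1 (ψ n)) ∧ ψ.ker = S.H.subgroupOf S.N ∧
      ψ.range = (ws ok rf pr).WJ Set.univ := by
  classical
  have hex : ∀ n : ↥S.N, ∃ π, S.Mon n.1 π := fun n => Mon_N ok n.1 n.2
  choose f hf using hex
  let ψ : ↥S.N →* Equiv.Perm R :=
    { toFun := f
      map_one' := Mon_unique ok hBV (hf 1) Mon.one
      map_mul' := fun a b => Mon_unique ok hBV (hf (a * b)) ((hf a).mul (hf b)) }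
  refine ⟨ψ, hf, ?_, ?_⟩
  · ext n
    rw [MonoidHom.mem_ker, mem_subgroupOf]
    constructor
    · intro h
      have h1 := hf n
      have h2 : f n = 1 := h
      rw [h2] at h1
      exact mem_H_of_Mon_one ok hBV hUN n.2 h1
    · intro h
      exact Mon_unique ok hBV (hf n) (Mon_H ok _ h)
  · ext π
    constructor
    · rintro ⟨n, rfl⟩
      obtain ⟨π', h1, h2⟩ := Mon_N' ok (rf := rf) (pr := pr) n.1 n.2
      have : f n = π' := Mon_unique ok hBV (hf n) h2
      show f n ∈ _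
      rw [this]; exact h1
    · intro hπ
      obtain ⟨n, hn, hM⟩ := exists_Mon_of_mem ok hπ
      exact ⟨⟨n, hn⟩, Mon_unique ok hBV (hf ⟨n, hn⟩) hM⟩

end RG

end Cfsg.Agent.Lib.Helper23RG

namespace Cfsg.Agent.Lib.Helper23NW

open Cfsg.Lie Cfsg.Lie.ChevalleyDatum
open Cfsg.Agent.Lib.Helper23RG Cfsg.Agent.Lib.Helper23Table Cfsg.Agent.Lib.Helper23Weyl
open Cfsg.Agent.Lib.Helper23Chev Cfsg.Agent.Lib.Helper23Fast Cfsg.Agent.Lib.Helper23Agr

variable {D : ChevalleyDatum} {F : Type*} [Field F]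

theorem s1039 {P : FT} (hT : TableOK D) (hR : Rel D F) (hv : P.Valid) (ha : Agr D P)
    (M : CoxeterMatrix (Fin P.l)) (φ : M.Group →* Equiv.Perm (Fin P.n)) (hinj : Function.Injective φ)
    (hrange : φ.range = (FT.W hv).WJ Set.univ) (hφs : ∀ i, φ (M.simple i) = (FT.W hv).s i) :
    ∃ θ : ↥(D.monomialSubgroup F) →* M.Group, Function.Surjective θ ∧
      θ.ker = (D.diagonalSubgroup F).subgroupOf (D.monomialSubgroup F) ∧
      ∀ (i : Fin P.l) (g : ↥(D.monomialSubgroup F)),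
        ((g : GL D.Idx F) : Matrix D.Idx D.Idx F) = D.nMat F (D.simple i) 1 → θ g = M.simple i := by
  obtain ⟨n, l, a, b, c, d⟩ := P
  obtain rfl : D.nroots = n := ha.n_eq
  obtain rfl : D.rank = l := ha.l_eq
  set ok := rg_ok hT hR
  have e : RG.ws ok (FT.W hv).rf (FT.W hv).pr = FT.W hv := by
    unfold RG.ws FT.W
    congr 1
    · funext i
      apply Equiv.ext
      intro r
      exact Fin.ext (ha.refl i i.2 r r.2)
    · funext r
      exact Fin.ext (ha.neg r r.2)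
    · funext i
      exact Fin.ext (ha.simple i i.2)
  obtain ⟨ψ, hψM, hψk, hψr⟩ := RG.exists_permHom ok (hBV hT hR) (hUN hT hR) (FT.W hv).rf (FT.W hv).pr
  rw [e, ← hrange] at hψr
  rw [← Helper23Chev.N_eq hT hR, ← Helper23Chev.H_eq hT hR]
  have hmem : ∀ x, ψ x ∈ φ.range := fun x => by rw [← hψr]; exact ⟨x, rfl⟩
  let φ' := MonoidHom.ofInjective hinj
  let θ : ↥(rg hT hR).N →* M.Group := φ'.symm.toMonoidHom.comp (ψ.codRestrict φ.range hmem)
  have hθ : ∀ x, φ (θ x) = ψ x := by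
    intro x
    have h1 : φ' (θ x) = ψ.codRestrict φ.range hmem x := φ'.apply_symm_apply _
    have h2 := congrArg Subtype.val h1
    exact h2
  refine ⟨θ, ?_, ?_, ?_⟩
  · intro x
    have : φ x ∈ ψ.range := by rw [hψr]; exact ⟨x, rfl⟩
    obtain ⟨y, hy⟩ := this
    exact ⟨y, hinj ((hθ y).trans hy)⟩
  · rw [← hψk]
    ext x
    rw [MonoidHom.mem_ker, MonoidHom.mem_ker, ← hθ x]
    constructor
    · intro h; rw [h, map_one]
    · intro h; exact hinj (h.trans (map_one φ).symm)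
  · intro i g hg
    apply hinj
    rw [hθ, hφs]
    have hg' : g.1 = (rg hT hR).nn i := by
      apply Units.ext
      rw [hg, coe_nn]
    have h1 := hψM g
    rw [hg'] at h1
    have h2 := RG.Mon_unique ok (hBV hT hR) h1 (RG.Mon_nn ok i)
    rw [h2]
    have h3 : (RG.ws ok (FT.W hv).rf (FT.W hv).pr).s i = (FT.W hv).s i := by rw [e]
    exact h3

end Cfsg.Agent.Lib.Helper23NW
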