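import Cfsg.Agent.Lib.Helper49Eich
import Cfsg.Agent.Lib.Helper49Forms

set_option autoImplicit false
set_option linter.unusedSectionVars false
set_option linter.unusedVariables false

/-! Eichler transformations attached to the coordinate vectors of a quadratic form in "hyperbolic coordinates":
transitivity on hyperbolic pairs, over an arbitrary field. -/

namespace Cfsg.Agent.Lib.Helper23Or

open scoped Matrix
open Subgroup Cfsg.Agent.Lib.Helper49Orth Cfsg.Agent.Lib.Helper49Eich Cfsg.Agent.Lib.Helper49Hyp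

variable {F : Type*} [Field F] {ι : Type} [Fintype ι] [DecidableEq ι] (Q : QuadraticForm F (ι → F))

local notation "𝐁" => QuadraticMap.polar (DFunLike.coe Q)

/-- the action on vectors -/
def ap {Q : QuadraticForm F (ι → F)} (g : ↥(Cfsg.isometryGroup F ⇑Q)) (x : ι → F) : ι → F :=
  ((g : Matrix.GeneralLinearGroup ι F) : Matrix ι ι F) *ᵥ x

/-- coordinate vectors -/
def b (F : Type*) [Field F] {ι : Type} [DecidableEq ι] (a : ι) : ι → F := Pi.single a 1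

theorem b_apply (a c : ι) : b F a c = if c = a then 1 else 0 := by
  unfold b; rw [Pi.single_apply]

theorem b_self (a : ι) : b F a a = 1 := by rw [b_apply, if_pos rfl]

theorem b_ne {a c : ι} (h : c ≠ a) : b F a c = 0 := by rw [b_apply, if_neg h]

section ap

variable {Q}

theorem ap_mul (g h : ↥(Cfsg.isometryGroup F ⇑Q)) (x : ι → F) : ap (g * h) x = ap g (ap h x) := mul_mulVec Q g h x
theorem ap_one (x : ι → F) : ap (1 : ↥(Cfsg.isometryGroup F ⇑Q)) x = x := one_mulVec' Q x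
theorem ap_inv_ap (g : ↥(Cfsg.isometryGroup F ⇑Q)) (x : ι → F) : ap g⁻¹ (ap g x) = x := inv_mulVec_mulVec Q g x
theorem ap_ap_inv (g : ↥(Cfsg.isometryGroup F ⇑Q)) (x : ι → F) : ap g (ap g⁻¹ x) = x := mulVec_inv_mulVec Q g x
theorem ap_add (g : ↥(Cfsg.isometryGroup F ⇑Q)) (x y : ι → F) : ap g (x + y) = ap g x + ap g y :=
  Matrix.mulVec_add _ _ _
theorem ap_smul (g : ↥(Cfsg.isometryGroup F ⇑Q)) (c : F) (x : ι → F) : ap g (c • x) = c • ap g x :=
  Matrix.mulVec_smul _ _ _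
theorem Q_ap (g : ↥(Cfsg.isometryGroup F ⇑Q)) (x : ι → F) : Q (ap g x) = Q x := iso_apply (Q := ⇑Q) g x
theorem B_ap (g : ↥(Cfsg.isometryGroup F ⇑Q)) (x y : ι → F) :
    QuadraticMap.polar ⇑Q (ap g x) (ap g y) = QuadraticMap.polar ⇑Q x y := polar_iso Q g x y
theorem ap_ext {g h : ↥(Cfsg.isometryGroup F ⇑Q)} (H : ∀ x, ap g x = ap h x) : g = h := ext_mulVec Q H

theorem ap_eq_iff (g : ↥(Cfsg.isometryGroup F ⇑Q)) (x y : ι → F) : ap g x = y ↔ x = ap g⁻¹ y := by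
  constructor
  · rintro rfl; rw [ap_inv_ap]
  · rintro rfl; rw [ap_ap_inv]

theorem eq_sum_b (x : ι → F) : x = ∑ c, x c • b F c := by
  funext d
  rw [Finset.sum_apply]
  simp only [Pi.smul_apply, b_apply, smul_eq_mul, mul_ite, mul_one, mul_zero]
  rw [Finset.sum_ite_eq]
  simp

theorem ap_sum (g : ↥(Cfsg.isometryGroup F ⇑Q)) (s : Finset ι) (f : ι → ι → F) :
    ap g (∑ c ∈ s, f c) = ∑ c ∈ s, ap g (f c) := by
  unfold ap
  exact map_sum (Matrix.mulVecLin _) f s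

/-- two isometries agreeing on the coordinate vectors are equal -/
theorem ap_ext_b {g h : ↥(Cfsg.isometryGroup F ⇑Q)} (H : ∀ c, ap g (b F c) = ap h (b F c)) : g = h := by
  apply ap_ext
  intro x
  rw [eq_sum_b x, ap_sum, ap_sum]
  apply Finset.sum_congr rfl
  intro c _
  rw [ap_smul, ap_smul, H]

end ap

/-- hyperbolic coordinates: `Hy a` says that `b a` is singular with partner `b (p a)` -/
structure HS (p : ι → ι) (Hy : ι → Prop) : Prop where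
  pp : ∀ a, Hy a → p (p a) = a
  pH : ∀ a, Hy a → Hy (p a)
  Qb : ∀ a, Hy a → Q (b F a) = 0
  Bb : ∀ a, Hy a → ∀ x, 𝐁 x (b F a) = x (p a)

/-- generated by the Eichler transformations `E(b a, w)` -/
def TT0 (Hy : ι → Prop) : Subgroup ↥(Cfsg.isometryGroup F ⇑Q) :=
  closure {g | ∃ a w, Hy a ∧ 𝐁 (b F a) w = 0 ∧ g = E Q (b F a) w}

variable {Q} {p : ι → ι} {Hy : ι → Prop} (hs : HS Q p Hy)
include hs

theorem HS.pne {a : ι} (ha : Hy a) : p a ≠ a := by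
  intro h
  have h1 := hs.Bb a ha (b F a)
  rw [polar_self_of_singular Q (hs.Qb a ha), h, b_self] at h1
  exact zero_ne_one h1

theorem HS.Qpair {a a' : ι} (ha : Hy a) (ha' : Hy a') (h : p a' ≠ a) (c d : F) :
    Q (c • b F a + d • b F a') = 0 := by
  rw [Q_add, QuadraticMap.map_smul, QuadraticMap.map_smul, hs.Qb a ha, hs.Qb a' ha',
    QuadraticMap.polar_smul_left, QuadraticMap.polar_smul_right, hs.Bb a' ha', b_ne h]
  simp

theorem move {a : ι} (ha : Hy a) {u u' : ι → F} (hQ : Q u = Q u') (hc : u' (p a) = u (p a)) (hne : u (p a) ≠ 0) :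
    ∃ t ∈ TT0 Q Hy, ap t u = u' ∧ ∀ x : ι → F, x (p a) = 0 → 𝐁 x u' = 𝐁 x u → ap t x = x := by
  have hd : 𝐁 (b F a) (u' - u) = 0 := by
    rw [QuadraticMap.polar_comm, hs.Bb a ha, Pi.sub_apply, hc, sub_self]
  have hw : 𝐁 (b F a) (-(𝐁 u (b F a))⁻¹ • (u' - u)) = 0 := by
    rw [QuadraticMap.polar_smul_right, hd, smul_zero]
  refine ⟨E Q (b F a) (-(𝐁 u (b F a))⁻¹ • (u' - u)), subset_closure ⟨a, _, ha, hw, rfl⟩, ?_, ?_⟩
  · exact E_move Q (hs.Qb a ha) hQ hd (by rw [hs.Bb a ha]; exact hne)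
  · intro x hx hxu
    show _ *ᵥ x = x
    rw [E_apply Q (hs.Qb a ha) hw, hs.Bb a ha x, hx, QuadraticMap.polar_smul_right, QuadraticMap.polar_sub_right,
      hxu, sub_self]
    simp

/-- `t` fixes the coordinate vectors outside `J` -/
def FixOut (J : ι → Prop) (t : ↥(Cfsg.isometryGroup F ⇑Q)) : Prop := ∀ c, ¬ J c → ap t (b F c) = b F c

/-- `u` is supported in `J` -/
def Supp (J : ι → Prop) (u : ι → F) : Prop := ∀ c, ¬ J c → u c = 0

omit hs in
theorem FixOut.mul {J : ι → Prop} {t t' : ↥(Cfsg.isometryGroup F ⇑Q)} (h : FixOut J t) (h' : FixOut J t') :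
    FixOut J (t * t') := by
  intro c hc
  rw [ap_mul, h' c hc, h c hc]

omit hs in
theorem FixOut.inv {J : ι → Prop} {t : ↥(Cfsg.isometryGroup F ⇑Q)} (h : FixOut J t) : FixOut J t⁻¹ := by
  intro c hc
  rw [← (ap_eq_iff t _ _).1 (h c hc)]

omit hs in
theorem Supp.add {J : ι → Prop} {u v : ι → F} (hu : Supp J u) (hv : Supp J v) : Supp J (u + v) := by
  intro c hc; rw [Pi.add_apply, hu c hc, hv c hc, add_zero]

omit hs in
theorem Supp.smul {J : ι → Prop} {u : ι → F} (hu : Supp J u) (c : F) : Supp J (c • u) := by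
  intro d hd; rw [Pi.smul_apply, hu d hd, smul_zero]

omit hs in
theorem Supp_b {J : ι → Prop} {a : ι} (ha : J a) : Supp J (b F a) := by
  intro c hc
  apply b_ne
  rintro rfl
  exact hc ha

variable {J : ι → Prop} (hJ : ∀ c, ¬ J c → Hy c ∧ ¬ J (p c))
include hJ

theorem B_b_of_supp {u : ι → F} (hu : Supp J u) {c : ι} (hc : ¬ J c) : 𝐁 (b F c) u = 0 := by
  rw [QuadraticMap.polar_comm, hs.Bb c (hJ c hc).1, hu _ (hJ c hc).2]

/-- an isometry fixing the coordinate vectors outside `J` preserves the vectors supported in `J` -/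
theorem Supp.ap {t : ↥(Cfsg.isometryGroup F ⇑Q)} (ht : FixOut J t) {u : ι → F} (hu : Supp J u) :
    Supp J (ap t u) := by
  intro c hc
  have h1 := hJ c hc
  have h2 := hJ _ h1.2
  have h3 : p (p c) = c := hs.pp c h1.1
  have := hs.Bb (p c) h2.1 (Helper23Or.ap t u)
  rw [h3] at this
  rw [← this, ← ht _ h1.2, B_ap, hs.Bb (p c) h2.1, h3, hu c hc]

theorem moveJ {a : ι} (ha : Hy a) (haJ : J (p a)) {u u' : ι → F} (hu : Supp J u) (hu' : Supp J u')
    (hQ : Q u = Q u') (hc : u' (p a) = u (p a)) (hne : u (p a) ≠ 0) :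
    ∃ t ∈ TT0 Q Hy, FixOut J t ∧ ap t u = u' := by
  obtain ⟨t, ht, h1, h2⟩ := move hs ha hQ hc hne
  refine ⟨t, ht, ?_, h1⟩
  intro c hc
  apply h2
  · apply b_ne
    rintro h
    exact hc (h ▸ haJ)
  · rw [B_b_of_supp hs hJ hu hc, B_b_of_supp hs hJ hu' hc]

variable {a0 a1 : ι} (h0 : Hy a0) (h1 : Hy a1) (j0 : J a0) (j0' : J (p a0)) (j1 : J a1) (j1' : J (p a1))
  (n1 : a1 ≠ a0) (n2 : a1 ≠ p a0)
include h0 h1 j0 j0' j1 j1' n1 n2

theorem sing_a {u : ι → F} (hu : Supp J u) (hQ : Q u = 0) (hne : u a0 ≠ 0) :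
    ∃ t ∈ TT0 Q Hy, FixOut J t ∧ ap t u = b F a0 := by
  have e0 : p (p a0) = a0 := hs.pp a0 h0
  have e1 : p (p a1) = a1 := hs.pp a1 h1
  have n3 : p a1 ≠ a0 := by
    intro h; apply n2; rw [← h, e1]
  -- first move
  obtain ⟨t1, m1, f1, g1⟩ := moveJ hs hJ (hs.pH a0 h0) (by rw [e0]; exact j0) hu
    (u' := u a0 • b F a0 + (1 : F) • b F a1) (((Supp_b j0).smul _).add ((Supp_b j1).smul _))
    (by rw [hQ, hs.Qpair h0 h1 n3]) (by rw [e0]; simp [b_self, b_ne n1.symm]) (by rw [e0]; exact hne)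
  obtain ⟨t2, m2, f2, g2⟩ := moveJ hs hJ (hs.pH a1 h1) (by rw [e1]; exact j1)
    (u := u a0 • b F a0 + (1 : F) • b F a1) (u' := (1 : F) • b F a0 + (1 : F) • b F a1)
    (((Supp_b j0).smul _).add ((Supp_b j1).smul _)) (((Supp_b j0).smul _).add ((Supp_b j1).smul _))
    (by rw [hs.Qpair h0 h1 n3, hs.Qpair h0 h1 n3]) (by rw [e1]; simp [b_self, b_ne n1])
    (by rw [e1]; simp [b_self, b_ne n1])
  obtain ⟨t3, m3, f3, g3⟩ := moveJ hs hJ (hs.pH a0 h0) (by rw [e0]; exact j0)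
    (u := (1 : F) • b F a0 + (1 : F) • b F a1) (u' := b F a0)
    (((Supp_b j0).smul _).add ((Supp_b j1).smul _)) (Supp_b j0)
    (by rw [hs.Qpair h0 h1 n3, hs.Qb a0 h0]) (by rw [e0]; simp [b_self, b_ne n1.symm])
    (by rw [e0]; simp [b_self, b_ne n1.symm])
  exact ⟨t3 * (t2 * t1), mul_mem m3 (mul_mem m2 m1), f3.mul (f2.mul f1), by rw [ap_mul, ap_mul, g1, g2, g3]⟩

theorem sing_b {u : ι → F} (hu : Supp J u) (hQ : Q u = 0) {c : ι} (hc : Hy c) (jc : J c) (c0 : c ≠ a0) (c1 : c ≠ p a0)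
    (hne : u c ≠ 0) : ∃ t ∈ TT0 Q Hy, FixOut J t ∧ ap t u = b F a0 := by
  have ec : p (p c) = c := hs.pp c hc
  obtain ⟨t1, m1, f1, g1⟩ := moveJ hs hJ (hs.pH c hc) (by rw [ec]; exact jc) hu
    (u' := u c • b F c + (1 : F) • b F a0) (((Supp_b jc).smul _).add ((Supp_b j0).smul _))
    (by rw [hQ, hs.Qpair hc h0 c1.symm]) (by rw [ec]; simp [b_self, b_ne c0]) (by rw [ec]; exact hne)
  obtain ⟨t2, m2, f2, g2⟩ := sing_a hs hJ h0 h1 j0 j0' j1 j1' n1 n2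
    (u := u c • b F c + (1 : F) • b F a0) (((Supp_b jc).smul _).add ((Supp_b j0).smul _))
    (hs.Qpair hc h0 c1.symm _ _) (by simp [b_self, b_ne c0.symm])
  exact ⟨t2 * t1, mul_mem m2 m1, f2.mul f1, by rw [ap_mul, g1, g2]⟩

theorem sing_c {u : ι → F} (hu : Supp J u) (hQ : Q u = 0) (hne : u (p a0) ≠ 0) :
    ∃ t ∈ TT0 Q Hy, FixOut J t ∧ ap t u = b F a0 := by
  have e0 : p (p a0) = a0 := hs.pp a0 h0
  have e1 : p (p a1) = a1 := hs.pp a1 h1
  have n4 : p a1 ≠ p a0 := by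
    intro h; apply n1; rw [← e1, h, e0]
  obtain ⟨t1, m1, f1, g1⟩ := moveJ hs hJ h0 j0' hu
    (u' := u (p a0) • b F (p a0) + (1 : F) • b F a1) (((Supp_b j0').smul _).add ((Supp_b j1).smul _))
    (by rw [hQ, hs.Qpair (hs.pH a0 h0) h1 n4]) (by simp [b_self, b_ne n2.symm]) hne
  obtain ⟨t2, m2, f2, g2⟩ := sing_b hs hJ h0 h1 j0 j0' j1 j1' n1 n2
    (u := u (p a0) • b F (p a0) + (1 : F) • b F a1) (((Supp_b j0').smul _).add ((Supp_b j1).smul _))
    (hs.Qpair (hs.pH a0 h0) h1 n4 _ _) h1 j1 n1 n2 (by simp [b_self, b_ne n2])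
  exact ⟨t2 * t1, mul_mem m2 m1, f2.mul f1, by rw [ap_mul, g1, g2]⟩

/-- transitivity on singular vectors -/
theorem sing {u : ι → F} (hu : Supp J u) (hQ : Q u = 0) (hne : ∃ c, Hy c ∧ u c ≠ 0) :
    ∃ t ∈ TT0 Q Hy, FixOut J t ∧ ap t u = b F a0 := by
  obtain ⟨c, hc, hne⟩ := hne
  have jc : J c := by
    by_contra h
    exact hne (hu c h)
  by_cases c0 : c = a0
  · subst c0
    exact sing_a hs hJ h0 h1 j0 j0' j1 j1' n1 n2 hu hQ hne
  by_cases c1 : c = p a0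
  · subst c1
    exact sing_c hs hJ h0 h1 j0 j0' j1 j1' n1 n2 hu hQ hne
  exact sing_b hs hJ h0 h1 j0 j0' j1 j1' n1 n2 hu hQ hc jc c0 c1 hne

/-- transitivity on hyperbolic pairs -/
theorem pair {u v : ι → F} (hu : Supp J u) (hv : Supp J v) (hQu : Q u = 0) (hQv : Q v = 0) (huv : 𝐁 u v = 1)
    (hne : ∃ c, Hy c ∧ u c ≠ 0) :
    ∃ t ∈ TT0 Q Hy, FixOut J t ∧ ap t u = b F a0 ∧ ap t v = b F (p a0) := by
  have e0 : p (p a0) = a0 := hs.pp a0 h0
  obtain ⟨t1, m1, f1, g1⟩ := sing hs hJ h0 h1 j0 j0' j1 j1' n1 n2 hu hQu hne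
  have hv1 : Supp J (ap t1 v) := Supp.ap hs hJ f1 hv
  have hc : ap t1 v (p a0) = 1 := by
    have := hs.Bb a0 h0 (ap t1 v)
    rw [← this, ← g1, B_ap, QuadraticMap.polar_comm, huv]
  obtain ⟨t2, m2, g2, k2⟩ := move hs h0 (u := ap t1 v) (u' := b F (p a0))
    (by rw [Q_ap, hQv, hs.Qb _ (hs.pH a0 h0)]) (by rw [hc, b_self]) (by rw [hc]; exact one_ne_zero)
  have f2 : FixOut J t2 := by
    intro c hc'
    apply k2
    · apply b_ne
      rintro h
      exact hc' (h ▸ j0')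
    · rw [B_b_of_supp hs hJ hv1 hc', B_b_of_supp hs hJ (Supp_b j0') hc']
  refine ⟨t2 * t1, mul_mem m2 m1, f2.mul f1, ?_, by rw [ap_mul, g2]⟩
  rw [ap_mul, g1]
  apply k2
  · exact b_ne (hs.pne h0)
  · rw [hs.Bb _ (hs.pH a0 h0), e0, b_self, QuadraticMap.polar_comm, hs.Bb a0 h0, hc]

end Cfsg.Agent.Lib.Helper23Or
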