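import Cfsg.Agent.Lib.Helper23Or1

set_option autoImplicit false
set_option linter.unusedSectionVars false
set_option linter.unusedVariables false

/-! The subgroup generated by the Eichler transformations is normal, with abelian quotient. -/

namespace Cfsg.Agent.Lib.Helper23Or

open scoped Matrix commutatorElement
open Subgroup Cfsg.Agent.Lib.Helper49Orth Cfsg.Agent.Lib.Helper49Eich Cfsg.Agent.Lib.Helper49Hyp

variable {F : Type*} [Field F] {ι : Type} [Fintype ι] [DecidableEq ι] {Q : QuadraticForm F (ι → F)}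

local notation "𝐁" => QuadraticMap.polar (DFunLike.coe Q)

theorem ap_E {e w : ι → F} (he : Q e = 0) (hw : 𝐁 e w = 0) (x : ι → F) :
    ap (E Q e w) x = x + (𝐁 x w - Q w * 𝐁 x e) • e - 𝐁 x e • w := E_apply Q he hw x

theorem ap_zero (g : ↥(Cfsg.isometryGroup F ⇑Q)) : ap g (0 : ι → F) = 0 := Matrix.mulVec_zero _

theorem E_conj' (g : ↥(Cfsg.isometryGroup F ⇑Q)) {e w : ι → F} (he : Q e = 0) (hw : 𝐁 e w = 0) :
    g * E Q e w * g⁻¹ = E Q (ap g e) (ap g w) := E_conj Q g he hw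

theorem E_zero_left (w : ι → F) : E Q 0 w = 1 := by
  apply ap_ext
  intro x
  rw [ap_E (by simp) (by simp), ap_one]
  simp

/-- a general criterion for the commutator subgroup to lie in a normal subgroup -/
theorem comm_le_of {G : Type*} [Group G] (N : Subgroup G) [N.Normal] (P P' : G → Prop)
    (h : ∀ g, ∃ t ∈ N, P (t * g)) (h' : ∀ g, ∃ t ∈ N, P' (t * g))
    (hc : ∀ m m', P m → P' m' → m * m' = m' * m) : commutator G ≤ N := by
  rw [commutator_def, Subgroup.commutator_le]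
  intro g _ g' _
  obtain ⟨t, ht, hm⟩ := h g
  obtain ⟨t', ht', hm'⟩ := h' g'
  rw [← QuotientGroup.eq_one_iff]
  have e1 : QuotientGroup.mk' N g = QuotientGroup.mk' N (t * g) := by
    rw [map_mul, QuotientGroup.mk'_apply, QuotientGroup.mk'_apply, (QuotientGroup.eq_one_iff t).2 ht, one_mul]
  have e2 : QuotientGroup.mk' N g' = QuotientGroup.mk' N (t' * g') := by
    rw [map_mul, QuotientGroup.mk'_apply, QuotientGroup.mk'_apply, (QuotientGroup.eq_one_iff t').2 ht', one_mul]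
  have e3 : QuotientGroup.mk' N ⁅g, g'⁆ = ⁅QuotientGroup.mk' N g, QuotientGroup.mk' N g'⁆ :=
    map_commutatorElement _ _ _
  rw [← QuotientGroup.mk'_apply, e3, e1, e2, commutatorElement_eq_one_iff_mul_comm, ← map_mul, ← map_mul,
    hc _ _ hm hm']

variable {p : ι → ι} {Hy : ι → Prop} (hs : HS Q p Hy)
include hs

theorem HS.Bb' {a : ι} (ha : Hy a) (x : ι → F) : 𝐁 (b F a) x = x (p a) := by
  rw [QuadraticMap.polar_comm, hs.Bb a ha]

/-- a subgroup containing the root elements contains all `E(b a, w)` -/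
theorem TT0_le (S : Subgroup ↥(Cfsg.isometryGroup F ⇑Q))
    (hS : ∀ a c (t : F), Hy a → c ≠ a → c ≠ p a → E Q (b F a) (t • b F c) ∈ S) : TT0 Q Hy ≤ S := by
  unfold TT0
  rw [closure_le]
  rintro g ⟨a, w, ha, hw, rfl⟩
  rw [hs.Bb' ha] at hw
  have key : ∀ s : Finset ι, p a ∉ s → E Q (b F a) (∑ c ∈ s, w c • b F c) ∈ S ∧
      𝐁 (b F a) (∑ c ∈ s, w c • b F c) = 0 := by
    intro s
    induction s using Finset.induction_on with
    | empty =>
      intro _
      rw [Finset.sum_empty, E_zero]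
      exact ⟨one_mem _, by simp⟩
    | insert c s hc ih =>
      intro hp
      rw [Finset.mem_insert, not_or] at hp
      obtain ⟨i1, i2⟩ := ih hp.2
      have h0 : 𝐁 (b F a) (w c • b F c) = 0 := by
        rw [hs.Bb' ha, Pi.smul_apply, b_ne hp.1, smul_zero]
      rw [Finset.sum_insert hc]
      refine ⟨?_, by rw [QuadraticMap.polar_add_right, h0, i2, add_zero]⟩
      rw [← E_mul Q (hs.Qb a ha) h0 i2]
      refine mul_mem ?_ i1
      by_cases hca : c = a
      · subst hca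
        rw [E_smul_self Q (hs.Qb c ha)]
        exact one_mem _
      · exact hS a c _ ha hca (Ne.symm hp.1)
  have hw' : w = ∑ c ∈ Finset.univ.erase (p a), w c • b F c := by
    conv_lhs => rw [eq_sum_b w]
    rw [← Finset.add_sum_erase Finset.univ _ (Finset.mem_univ (p a)), hw, zero_smul, zero_add]
  have := (key (Finset.univ.erase (p a)) (Finset.notMem_erase _ _)).1
  rw [← hw'] at this
  exact this

omit hs in
/-- an isometry fixing the coordinate vectors outside `J` fixes every vector supported outside `J` -/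
theorem FixOut.ap_eq {J : ι → Prop} {t : ↥(Cfsg.isometryGroup F ⇑Q)} (ht : FixOut J t) {x : ι → F}
    (hx : ∀ c, J c → x c = 0) : ap t x = x := by
  conv_lhs => rw [eq_sum_b x]
  conv_rhs => rw [eq_sum_b x]
  rw [ap_sum]
  apply Finset.sum_congr rfl
  intro c _
  rw [ap_smul]
  by_cases hc : J c
  · rw [hx c hc, zero_smul, zero_smul]
  · rw [ht c hc]

/-- isometries with disjoint supports commute -/
theorem FixOut.comm {J J' : ι → Prop} (hJ : ∀ c, ¬ J c → Hy c ∧ ¬ J (p c)) (hJ' : ∀ c, ¬ J' c → Hy c ∧ ¬ J' (p c))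
    (hd : ∀ c, J c → ¬ J' c) {m m' : ↥(Cfsg.isometryGroup F ⇑Q)} (hm : FixOut J m) (hm' : FixOut J' m') :
    m * m' = m' * m := by
  apply ap_ext_b
  intro c
  rw [ap_mul, ap_mul]
  by_cases hc : J c
  · rw [hm' c (hd c hc)]
    have h1 : Supp J (ap m (b F c)) := Supp.ap hs hJ hm (Supp_b hc)
    rw [hm'.ap_eq]
    intro d hd'
    apply h1
    intro h
    exact hd d h hd'
  · rw [hm c hc]
    by_cases hc' : J' c
    · have h1 : Supp J' (ap m' (b F c)) := Supp.ap hs hJ' hm' (Supp_b hc')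
      rw [hm.ap_eq]
      intro d hd'
      exact h1 d (hd d hd')
    · rw [hm' c hc', hm c hc]

variable (hN : ∀ u : ι → F, Q u = 0 → (∀ c, Hy c → u c = 0) → u = 0)
include hN

theorem reduce {J : ι → Prop} (hJ : ∀ c, ¬ J c → Hy c ∧ ¬ J (p c))
    {a0 a1 : ι} (h0 : Hy a0) (h1 : Hy a1) (j0 : J a0) (j0' : J (p a0)) (j1 : J a1) (j1' : J (p a1))
    (n1 : a1 ≠ a0) (n2 : a1 ≠ p a0) {g : ↥(Cfsg.isometryGroup F ⇑Q)} (hg : FixOut J g) :
    ∃ t ∈ TT0 Q Hy, FixOut (fun c => J c ∧ c ≠ a0 ∧ c ≠ p a0) (t * g) := by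
  have hne : ∃ c, Hy c ∧ ap g (b F a0) c ≠ 0 := by
    by_contra hcon
    push Not at hcon
    have h2 := hN _ (by rw [Q_ap, hs.Qb a0 h0]) hcon
    rw [ap_eq_iff, ap_zero] at h2
    have := congrFun h2 a0
    rw [b_self] at this
    exact one_ne_zero this
  obtain ⟨t, ht, f, g1, g2⟩ := pair hs hJ h0 h1 j0 j0' j1 j1' n1 n2 (u := ap g (b F a0)) (v := ap g (b F (p a0)))
    (Supp.ap hs hJ hg (Supp_b j0)) (Supp.ap hs hJ hg (Supp_b j0')) (by rw [Q_ap, hs.Qb a0 h0])
    (by rw [Q_ap, hs.Qb _ (hs.pH a0 h0)]) (by rw [B_ap, hs.Bb' h0, b_self]) hne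
  refine ⟨t, ht, ?_⟩
  intro c hc
  by_cases c0 : c = a0
  · subst c0; rw [ap_mul, g1]
  by_cases c1 : c = p a0
  · subst c1; rw [ap_mul, g2]
  · exact (f.mul hg) c (fun h => hc ⟨h, c0, c1⟩)

variable {a0 a1 : ι} (h0 : Hy a0) (h1 : Hy a1) (n1 : a1 ≠ a0) (n2 : a1 ≠ p a0)
include h0 h1 n1 n2

theorem E_mem {u w : ι → F} (hu : Q u = 0) (hw : 𝐁 u w = 0) : E Q u w ∈ TT0 Q Hy := by
  by_cases hu0 : u = 0
  · subst hu0; rw [E_zero_left]; exact one_mem _
  have hne : ∃ c, Hy c ∧ u c ≠ 0 := by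
    by_contra hcon
    push Not at hcon
    exact hu0 (hN u hu hcon)
  obtain ⟨t, ht, -, g1⟩ := sing hs (J := fun _ => True) (fun c hc => absurd trivial hc) h0 h1 trivial trivial trivial trivial
    n1 n2 (u := u) (fun c hc => absurd trivial hc) hu hne
  have h2 : t * E Q u w * t⁻¹ ∈ TT0 Q Hy := by
    rw [E_conj' t hu hw, g1]
    exact subset_closure ⟨a0, _, h0, by rw [← g1, B_ap, hw], rfl⟩
  have h3 : E Q u w = t⁻¹ * (t * E Q u w * t⁻¹) * t := by group
  rw [h3]
  exact mul_mem (mul_mem (inv_mem ht) h2) ht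

theorem TT0_normal : (TT0 Q Hy).Normal := by
  constructor
  intro n hn g
  unfold TT0 at hn
  induction hn using closure_induction with
  | mem x hx =>
    obtain ⟨a, w, ha, hw, rfl⟩ := hx
    rw [E_conj' g (hs.Qb a ha) hw]
    exact E_mem hs hN h0 h1 n1 n2 (by rw [Q_ap, hs.Qb a ha]) (by rw [B_ap, hw])
  | one => rw [mul_one, mul_inv_cancel]; exact one_mem _
  | mul x y _ _ hx hy =>
    have : g * (x * y) * g⁻¹ = (g * x * g⁻¹) * (g * y * g⁻¹) := by group
    rw [this]; exact mul_mem hx hy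
  | inv x _ hx =>
    have : g * x⁻¹ * g⁻¹ = (g * x * g⁻¹)⁻¹ := by group
    rw [this]; exact inv_mem hx

end Cfsg.Agent.Lib.Helper23Or
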