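import Cfsg.Agent.Lib.Helper23Or2
import Cfsg.Prelude.Def_SteinbergCover

set_option autoImplicit false
set_option linter.unusedSectionVars false
set_option linter.unusedVariables false

/-! Matrices of the long root elements; homomorphisms from the group presented by (R1), (R2). -/

namespace Cfsg.Agent.Lib.Helper23Or

open scoped Matrix
open Subgroup Cfsg.Agent.Lib.Helper49Orth Cfsg.Agent.Lib.Helper49Eich Cfsg.Agent.Lib.Helper49Hyp

section pres

open Cfsg.Lie Cfsg.Lie.ChevalleyDatum

variable (D : ChevalleyDatum) (K : Type*) [Field K] {𝔾 : Type*} [Group 𝔾] (Y : ℕ → K → 𝔾)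

theorem lift_stX' (hout : ∀ r t, ¬ r < D.nroots → Y r t = 1) (r : ℕ) (t : K) :
    FreeGroup.lift (fun q : Fin D.nroots × K => Y q.1.val q.2) (D.stX r t) = Y r t := by
  unfold stX
  split_ifs with h
  · rw [FreeGroup.lift_apply_of]
  · rw [map_one, hout r t h]

theorem lift_stWord' (hout : ∀ r t, ¬ r < D.nroots → Y r t = 1) (w : List (ℕ × K)) :
    FreeGroup.lift (fun q : Fin D.nroots × K => Y q.1.val q.2) (D.stWord w) = (w.map fun q => Y q.1 q.2).prod := by
  unfold stWord
  rw [map_list_prod, List.map_map]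
  congr 1
  apply List.map_congr_left
  intro q _
  exact lift_stX' D K Y hout q.1 q.2

theorem exists_pi (hout : ∀ r t, ¬ r < D.nroots → Y r t = 1)
    (hadd : ∀ r t u, r < D.nroots → Y r t * Y r u = Y r (t + u))
    (hcomm : ∀ r s t u, r < D.nroots → s < D.nroots → s ≠ r → s ≠ D.neg r →
      Y s u * Y r t = Y r t * Y s u * ((D.commWord K r s t u).map fun q => Y q.1 q.2).prod) :
    ∃ π : D.SteinbergCover K →* 𝔾, π.range = closure {g | ∃ r t, g = Y r t} := by
  have hrel : ∀ g ∈ D.steinbergRelsAB K, FreeGroup.lift (fun q : Fin D.nroots × K => Y q.1.val q.2) g = 1 := by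
    rintro g (⟨r, t₁, t₂, hr, rfl⟩ | ⟨r, s, t, u, hr, hs, h1, h2, rfl⟩)
    · rw [map_mul, map_mul, map_inv, lift_stX' D K Y hout, lift_stX' D K Y hout, lift_stX' D K Y hout, hadd r _ _ hr,
        mul_inv_cancel]
    · simp only [map_mul, map_inv, lift_stX' D K Y hout, lift_stWord' D K Y hout]
      rw [mul_assoc ((Y s u)⁻¹ * (Y r t)⁻¹), hcomm r s t u hr hs h1 h2]
      group
  refine ⟨PresentedGroup.toGroup hrel, ?_⟩
  rw [MonoidHom.range_eq_map, ← PresentedGroup.closure_range_of, MonoidHom.map_closure]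
  apply le_antisymm
  · rw [closure_le]
    rintro _ ⟨_, ⟨q, rfl⟩, rfl⟩
    rw [PresentedGroup.toGroup.of]
    exact subset_closure ⟨_, _, rfl⟩
  · rw [closure_le]
    rintro _ ⟨r, t, rfl⟩
    by_cases hr : r < D.nroots
    · apply Subgroup.subset_closure
      refine ⟨_, ⟨(⟨r, hr⟩, t), rfl⟩, ?_⟩
      rw [PresentedGroup.toGroup.of]
    · rw [hout r t hr]; exact one_mem _

end pres

variable {F : Type*} [Field F] {ι : Type} [Fintype ι] [DecidableEq ι] {Q : QuadraticForm F (ι → F)}

local notation "𝐁" => QuadraticMap.polar (DFunLike.coe Q)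

/-- an algebra computation: the commutator formula for two "exponentials" with square zero -/
theorem alg_comm {R S C : Matrix ι ι F} {N : F} (h1 : S * R = R * S - N • C) (h2 : R * C = 0) (h3 : S * C = 0) (t u : F) :
    (1 + u • S) * (1 + t • R) = (1 + t • R) * (1 + u • S) * (1 + (N * (-t) ^ 1 * u ^ 1) • C) := by
  simp only [mul_add, add_mul, one_mul, mul_one, smul_mul_assoc, mul_smul_comm, mul_assoc, h1, h2, h3,
    smul_zero, add_zero, mul_zero, pow_one]
  module

theorem alg_comm0 {R S : Matrix ι ι F} (h1 : S * R = R * S) (t u : F) :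
    (1 + u • S) * (1 + t • R) = (1 + t • R) * (1 + u • S) := by
  simp only [mul_add, add_mul, one_mul, mul_one, smul_mul_assoc, mul_smul_comm, h1]
  module

variable {p : ι → ι} {Hy : ι → Prop} (hs : HS Q p Hy)
include hs

theorem HS.B_bb {a c : ι} (ha : Hy a) (h : c ≠ p a) : 𝐁 (b F a) (b F c) = 0 := by
  rw [hs.Bb' ha, b_ne h.symm]

theorem HS.B_bs {a c : ι} (ha : Hy a) (h : c ≠ p a) (t : F) : 𝐁 (b F a) (t • b F c) = 0 := by
  rw [QuadraticMap.polar_smul_right, hs.B_bb ha h, smul_zero]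

theorem ap_long {a c : ι} (ha : Hy a) (hc : Hy c) (h : c ≠ p a) (t : F) (x : ι → F) :
    ap (E Q (b F a) (t • b F c)) x = x + (t * x (p c)) • b F a - (t * x (p a)) • b F c := by
  rw [ap_E (hs.Qb a ha) (hs.B_bs ha h t), QuadraticMap.map_smul, hs.Qb c hc, QuadraticMap.polar_smul_right,
    hs.Bb c hc, hs.Bb a ha, smul_smul]
  simp [mul_comm]

theorem E_swap {a c : ι} (ha : Hy a) (hc : Hy c) (h : c ≠ p a) (t : F) :
    E Q (b F a) (t • b F c) = E Q (b F c) ((-t) • b F a) := by
  have h' : a ≠ p c := by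
    intro e; apply h; rw [e, hs.pp c hc]
  apply ap_ext
  intro x
  rw [ap_long hs ha hc h, ap_long hs hc ha h']
  simp only [neg_mul, neg_smul]
  abel

theorem coe_long {a c : ι} (ha : Hy a) (hc : Hy c) (h : c ≠ p a) (t : F) :
    (((E Q (b F a) (t • b F c) : ↥(Cfsg.isometryGroup F ⇑Q)) : Matrix.GeneralLinearGroup ι F) : Matrix ι ι F) =
      1 + t • (Matrix.single a (p c) 1 - Matrix.single c (p a) 1) := by
  apply Matrix.mulVec_injective
  funext x
  have := ap_long hs ha hc h t x
  unfold ap at this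
  rw [this, Matrix.add_mulVec, Matrix.one_mulVec, Matrix.smul_mulVec, Matrix.sub_mulVec, Matrix.single_mulVec_eq,
    Matrix.single_mulVec_eq, one_mul, one_mul, smul_sub, smul_smul, smul_smul, add_sub_assoc]
  rfl

end Cfsg.Agent.Lib.Helper23Or
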