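import Cfsg.Agent.Lib.Helper23Or3
import Cfsg.Agent.Lib.Helper23Cov
import Cfsg.Agent.Lib.Helper23St5

set_option autoImplicit false
set_option linter.unusedSectionVars false
set_option linter.unusedVariables false

/-! From a homomorphism of the group presented by (R1), (R2) onto `Ω(Q)` to the isomorphism with `PΩ(Q)`. -/

namespace Cfsg.Agent.Lib.Helper23Or

open Subgroup Cfsg.Lie Cfsg.Lie.ChevalleyDatum Cfsg.Agent.Lib.Helper22ChevBasic

variable {F : Type*} [Field F] {ι : Type} [Fintype ι] [DecidableEq ι]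

theorem range_le_commutator {A B : Type*} [Group A] [Group B] (hA : commutator A = ⊤) (f : A →* B) :
    f.range ≤ commutator B := by
  rw [MonoidHom.range_eq_map, ← hA, commutator_def, Subgroup.map_commutator, commutator_def]
  exact Subgroup.commutator_mono le_top le_top

theorem final {D : ChevalleyDatum} (hD : Std D) (hsimple : IsSimpleGroup ↥(D.group F))
    (hperf : commutator (D.SteinbergCover F) = ⊤) (Q : (ι → F) → F)
    (π : D.SteinbergCover F →* ↥(Cfsg.isometryGroup F Q)) (hr : π.range = commutator ↥(Cfsg.isometryGroup F Q))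
    (hne : ∃ x, π x ≠ 1) : Nonempty (↥(D.group F) ≃* Cfsg.POmega F Q) := by
  obtain ⟨θ, hθ, hk, -⟩ := Cfsg.Agent.Lib.Helper23St.exists_hom (hD := hD) (K := F) (rels := D.steinbergRelsAB F)
    subset_rfl (Cfsg.Agent.Lib.Helper23St.relsAB_ok hD F)
  let π' : D.SteinbergCover F →* ↥(Cfsg.Omega F Q) :=
    π.codRestrict (Cfsg.Omega F Q) (fun x => by
      show π x ∈ commutator ↥(Cfsg.isometryGroup F Q)
      rw [← hr]; exact ⟨x, rfl⟩)
  have hs : Function.Surjective π' := by
    intro y
    have : (y : ↥(Cfsg.isometryGroup F Q)) ∈ π.range := by rw [hr]; exact y.2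
    obtain ⟨x, hx⟩ := this
    exact ⟨x, Subtype.ext hx⟩
  obtain ⟨x, hx⟩ := hne
  exact Cfsg.Agent.Lib.Helper23Cov.iso_of_cover hperf θ hθ hk hsimple π' hs
    ⟨π' x, fun h => hx (congrArg Subtype.val h)⟩

end Cfsg.Agent.Lib.Helper23Or
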