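import Cfsg.Agent.Lib.Helper23To9

set_option autoImplicit false
set_option linter.unusedSectionVars false
set_option linter.unusedVariables false

/-! Orthogonal pairs of roots in type D4, in characteristic different from two. -/

namespace Cfsg.Agent.Lib.Helper23To

open Subgroup Cfsg.Lie Cfsg.Lie.ChevalleyDatum Cfsg.Agent.Lib.Helper22ChevBasic Cfsg.Agent.Lib.Helper23Grp
  Cfsg.Agent.Lib.Helper23St Cfsg.Agent.Lib.Helper23Un
open scoped commutatorElement

variable {D : ChevalleyDatum} (hD : Std D) {K : Type*} [Field K] {E : Type*} [Group E]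
  {π : E →* ↥(D.group K)} (hπ : Function.Surjective π) (hc : π.ker ≤ center E)

theorem comm_xq {a b c : ℕ} {M : ℤ} (ha : a < D.nroots) (hb : b < D.nroots) (h1 : b ≠ a) (h2 : b ≠ D.neg a)
    (h0 : D.commTerms a b = [(c, M, 1, 1)]) (t u : K) : ⁅xq hD b u, xq hD a t⁆ = xq hD c (-(M : K) * t * u) := by
  have h := xq_comm hD ha hb h1 h2 (-t) (-u)
  unfold commWord at h
  rw [h0] at h
  simp only [List.map_cons, List.map_nil, List.prod_cons, List.prod_nil, mul_one, pow_one, neg_neg] at h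
  have e : (M : K) * t * -u = -(M : K) * t * u := by ring
  rw [e] at h
  rw [commutatorElement_def, xq_inv, xq_inv, mul_assoc _ (xq hD b (-u)), h, ← xq_inv, ← xq_inv]
  group

include hc in
theorem star {r s a b ρ : ℕ} {M1 M2 : ℤ} (hr : r < D.nroots) (ha : a < D.nroots) (hb : b < D.nroots)
    (h1 : b ≠ a) (h2 : b ≠ D.neg a) (h0 : D.commTerms a b = [(s, M1, 1, 1)])
    (k1 : r ≠ b) (k2 : r ≠ D.neg b) (k0 : D.commTerms b r = [(ρ, M2, 1, 1)])
    (cra : ∀ t u : K, xq hD r t * xq hD a u = xq hD a u * xq hD r t)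
    (cρa : ∀ t u : K, xq hD ρ t * xq hD a u = xq hD a u * xq hD ρ t)
    (hsρ : ∀ t u : K, br hπ (xq hD s t) (xq hD ρ u) = 1) (w t u : K) :
    br hπ (xq hD r w) (xq hD s (-(M1 : K) * t * u)) = br hπ (xq hD ρ (-(M2 : K) * u * w)) (xq hD a t) := by
  obtain ⟨g, hg⟩ := hπ (xq hD r w)
  set Z := br hπ (xq hD b u) (xq hD a t) with hZ
  have pZ : π Z = xq hD s (-(M1 : K) * t * u) := by rw [hZ, π_br, comm_xq hD ha hb h1 h2 h0]
  have e1 : g * Z * g⁻¹ = br hπ (xq hD ρ (-(M2 : K) * u * w) * xq hD b u) (xq hD a t) := by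
    rw [hZ, br_conj hπ hc, hg]
    congr 1
    · rw [← comm_xq hD hb hr k1 k2 k0, commutatorElement_def]; group
    · rw [cra, mul_inv_cancel_right]
  rw [br_mul_left hπ hc (by rw [comm_xq hD ha hb h1 h2 h0]; exact hsρ _ _), ← hZ] at e1
  rw [← br_eq hπ hc hg pZ, commutatorElement_def, e1,
    (mem_center_iff.1 (br_mem_center hπ hc (cρa (-(M2 : K) * u * w) t))) Z, mul_inv_cancel_right]

include hc in
theorem br_orth (h20 : (2 : K) ≠ 0) {r s a b ρ b' : ℕ} {M1 M2 M1' M2' : ℤ} (hr : r < D.nroots) (ha : a < D.nroots)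
    (hb : b < D.nroots) (hρ : ρ < D.nroots) (hb' : b' < D.nroots)
    (h1 : b ≠ a) (h2 : b ≠ D.neg a) (h0 : D.commTerms a b = [(s, M1, 1, 1)])
    (k1 : r ≠ b) (k2 : r ≠ D.neg b) (k0 : D.commTerms b r = [(ρ, M2, 1, 1)])
    (h1' : b' ≠ ρ) (h2' : b' ≠ D.neg ρ) (h0' : D.commTerms ρ b' = [(s, M1', 1, 1)])
    (k1' : r ≠ b') (k2' : r ≠ D.neg b') (k0' : D.commTerms b' r = [(a, M2', 1, 1)])
    (n1 : M1.natAbs = 1) (n2 : M2.natAbs = 1) (n1' : M1'.natAbs = 1) (n2' : M2'.natAbs = 1)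
    (hsgn : M1 * M2 = M1' * M2')
    (crs : ∀ t u : K, xq hD r t * xq hD s u = xq hD s u * xq hD r t)
    (cra : ∀ t u : K, xq hD r t * xq hD a u = xq hD a u * xq hD r t)
    (crρ : ∀ t u : K, xq hD r t * xq hD ρ u = xq hD ρ u * xq hD r t)
    (cρa : ∀ t u : K, xq hD ρ t * xq hD a u = xq hD a u * xq hD ρ t)
    (hsρ : ∀ t u : K, br hπ (xq hD s t) (xq hD ρ u) = 1)
    (hsa : ∀ t u : K, br hπ (xq hD s t) (xq hD a u) = 1) :
    ∀ t u : K, br hπ (xq hD r t) (xq hD s u) = 1 := by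
  have sq : ∀ M : ℤ, M.natAbs = 1 → (M : K) * (M : K) = 1 := by
    intro M hM
    rcases Int.natAbs_eq M with e | e <;> rw [e, hM] <;> simp
  set m1 : K := (M1 : K) with hm1
  set m2 : K := (M2 : K) with hm2
  set m1' : K := (M1' : K) with hm1'
  set m2' : K := (M2' : K) with hm2'
  have q1 : m1 * m1 = 1 := sq M1 n1
  have q2 : m2 * m2 = 1 := sq M2 n2
  have q1' : m1' * m1' = 1 := sq M1' n1'
  have q2' : m2' * m2' = 1 := sq M2' n2'
  have hs : m1 * m2 = m1' * m2' := by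
    rw [hm1, hm2, hm1', hm2']; exact_mod_cast congrArg (fun z : ℤ => (z : K)) hsgn
  set F : K → K → E := fun w y => br hπ (xq hD r w) (xq hD s y) with hF
  set Gf : K → K → E := fun x t => br hπ (xq hD ρ x) (xq hD a t) with hGf
  have S1 : ∀ w t u, F w (-m1 * t * u) = Gf (-m2 * u * w) t :=
    fun w t u => star hD hπ hc hr ha hb h1 h2 h0 k1 k2 k0 cra cρa hsρ w t u
  have S2 : ∀ w t u, F w (-m1' * t * u) = (Gf t (-m2' * u * w))⁻¹ := by
    intro w t u
    have := star hD hπ hc hr hρ hb' h1' h2' h0' k1' k2' k0' crρ (fun t u => (cρa u t).symm) hsa w t u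
    rw [br_symm hπ (xq hD ρ t)] at this
    exact this
  have hadd : ∀ w y y', F w (y + y') = F w y * F w y' := by
    intro w y y'
    show br hπ (xq hD r w) (xq hD s (y + y')) = _
    rw [← xq_add, br_mul_right hπ hc (by
      rw [commutatorElement_eq_one_iff_mul_comm.2 (crs _ _)]; exact br_one hπ hc _)]
  have G_eq : ∀ x t, Gf x t = F (-m2 * x) (-m1 * t) := by
    intro x t
    have := S1 (-m2 * x) t 1
    rw [mul_one, mul_one] at this
    rw [this]
    congr 1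
    linear_combination (-x) * q2
  have bal : ∀ w y u, F w (y * u) = F (u * w) y := by
    intro w y u
    have := S1 w (-m1 * y) u
    rw [G_eq] at this
    have e1 : -m1 * (-m1 * y) * u = y * u := by linear_combination (y * u) * q1
    have e2 : -m2 * (-m2 * u * w) = u * w := by linear_combination (u * w) * q2
    have e3 : -m1 * (-m1 * y) = y := by linear_combination y * q1
    rw [e1, e2, e3] at this
    exact this
  have key : ∀ w t, F w (-m1' * t) = (F (-m2 * t) (m1 * m2' * w))⁻¹ := by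
    intro w t
    have := S2 w t 1
    rw [mul_one, mul_one, G_eq] at this
    rw [this]
    congr 2
    ring
  have Fφ : ∀ w y, F w y = F 1 (y * w) := by
    intro w y
    rw [bal 1 y w, mul_one]
  have inv : ∀ z, F 1 z = (F 1 z)⁻¹ := by
    intro z
    have := key 1 (-m1' * z)
    rw [Fφ (-m2 * (-m1' * z))] at this
    have e1 : -m1' * (-m1' * z) = z := by linear_combination z * q1'
    have e2 : m1 * m2' * 1 * (-m2 * (-m1' * z)) = z := by
      have : m1 * m2' * 1 * (-m2 * (-m1' * z)) = (m1 * m2) * m2' * m1' * z := by ring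
      rw [this, hs]
      linear_combination (m1' * m1' * z) * q2' + z * q1'
    rw [e1, e2] at this
    exact this
  have two : ∀ z, F 1 (2 * z) = 1 := by
    intro z
    rw [two_mul, hadd]
    nth_rewrite 1 [inv z]
    exact inv_mul_cancel _
  intro t u
  show F t u = 1
  rw [Fφ, show u * t = 2 * (u * t / 2) by field_simp]
  exact two _

structure OrthD where
  a : ℕ
  b : ℕ
  ρ : ℕ
  b' : ℕ
  M1 : ℤ
  M2 : ℤ
  M1' : ℤ
  M2' : ℤ
  mu1 : List ℤ
  mu2 : List ℤ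

def OrthOK (D : ChevalleyDatum) (r s : ℕ) (d : OrthD) : Prop :=
  CommNil D r s ∧ CommNil D r d.a ∧ CommNil D r d.ρ ∧ CommNil D d.ρ d.a ∧ CommNil D s d.ρ ∧ CommNil D s d.a ∧
  d.b < D.nroots ∧ d.b ≠ d.a ∧ d.b ≠ D.neg d.a ∧ D.commTerms d.a d.b = [(s, d.M1, 1, 1)] ∧
  r ≠ d.b ∧ r ≠ D.neg d.b ∧ D.commTerms d.b r = [(d.ρ, d.M2, 1, 1)] ∧
  d.b' < D.nroots ∧ d.b' ≠ d.ρ ∧ d.b' ≠ D.neg d.ρ ∧ D.commTerms d.ρ d.b' = [(s, d.M1', 1, 1)] ∧
  r ≠ d.b' ∧ r ≠ D.neg d.b' ∧ D.commTerms d.b' r = [(d.a, d.M2', 1, 1)] ∧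
  d.M1.natAbs = 1 ∧ d.M2.natAbs = 1 ∧ d.M1'.natAbs = 1 ∧ d.M2'.natAbs = 1 ∧ d.M1 * d.M2 = d.M1' * d.M2' ∧
  pairL D d.mu1 s = 0 ∧ (pairL D d.mu1 d.ρ).natAbs ∈ [1] ∧ pairL D d.mu2 s = 0 ∧ (pairL D d.mu2 d.a).natAbs ∈ [1]

set_option synthInstance.maxSize 4000 in
set_option synthInstance.maxHeartbeats 400000 in
instance (D : ChevalleyDatum) (r s : ℕ) (d : OrthD) : Decidable (OrthOK D r s d) := by
  unfold OrthOK; infer_instance

include hc in
theorem br_of_OrthOK (h20 : (2 : K) ≠ 0) (hM : ∀ m : ℤ, m.natAbs ∈ [1] → ∃ v : Kˣ, v ^ m ≠ 1) {r s : ℕ}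
    (hr : r < D.nroots) {d : OrthD} (h : OrthOK D r s d) : ∀ t u : K, br hπ (xq hD r t) (xq hD s u) = 1 := by
  obtain ⟨c1, c2, c3, c4, c5, c6, b1, b2, b3, b4, b5, b6, b7, b8, b9, b10, b11, b12, b13, b14, n1, n2, n3, n4, sg,
    t1, t2, t3, t4⟩ := h
  exact br_orth hD hπ hc h20 hr c2.1 b1 c3.1 b8 b2 b3 b4 b5 b6 b7 b9 b10 b11 b12 b13 b14 n1 n2 n3 n4 sg
    (c1.comm hD hr) (c2.comm hD hr) (c3.comm hD hr) (c4.comm hD c3.1)
    (br_of_mu hD hπ hc hM c1.1 c3.1 (c5.comm hD c1.1) d.mu1 t1 t2)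
    (br_of_mu hD hπ hc hM c1.1 c2.1 (c6.comm hD c1.1) d.mu2 t3 t4)

omit hD in
theorem hM_char_two (h2 : (2 : K) = 0) (hK : ∃ s : Finset K, 2 < s.card) :
    ∀ m : ℤ, m.natAbs ∈ [1, 2] → ∃ v : Kˣ, v ^ m ≠ 1 := by
  intro m hm
  obtain ⟨v, hv⟩ := exists_unit_pow_ne (N := 1) hK 1 one_ne_zero (by decide)
  rw [zpow_one] at hv
  have hv2 : v ^ 2 ≠ 1 := by
    intro e
    apply hv
    have e' : (v : K) ^ 2 = 1 := by
      have := congrArg Units.val e
      simpa using this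
    have : ((v : K) - 1) ^ 2 = 0 := by
      have : ((v : K) - 1) ^ 2 = (v : K) ^ 2 - 2 * v + 1 := by ring
      rw [this, e', h2]
      have h11 : (1 : K) + 1 = 0 := by rw [one_add_one_eq_two, h2]
      linear_combination h11
    have := pow_eq_zero_iff (two_ne_zero) |>.1 this
    exact Units.ext (sub_eq_zero.1 this)
  refine ⟨v, ?_⟩
  simp only [List.mem_cons, List.not_mem_nil, or_false] at hm
  rcases hm with hm | hm <;> rcases Int.natAbs_eq m with e | e <;> rw [e, hm]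
  · simpa using hv
  · simpa using hv
  · exact_mod_cast hv2
  · rw [zpow_neg, ne_eq, inv_eq_one]; exact_mod_cast hv2

end Cfsg.Agent.Lib.Helper23To
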