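import Cfsg.Agent.Lib.Helper23To11
import Cfsg.Agent.Lib.Helper23To10

set_option autoImplicit false
set_option linter.unusedSectionVars false
set_option linter.unusedVariables false

/-! The lifting steps for an arbitrary family of lifts of the root elements. -/

namespace Cfsg.Agent.Lib.Helper23To

open Subgroup Cfsg.Lie Cfsg.Lie.ChevalleyDatum Cfsg.Agent.Lib.Helper22ChevBasic Cfsg.Agent.Lib.Helper23Grp
  Cfsg.Agent.Lib.Helper23St Cfsg.Agent.Lib.Helper23Un
open scoped commutatorElement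

variable {D : ChevalleyDatum} {hD : Std D} {K : Type*} [Field K] {E : Type*} [Group E]
  {π : E →* ↥(D.group K)} (hπ : Function.Surjective π) (hc : π.ker ≤ center E)
  (T : PS hD K E) (hθ : ∀ x, T.θ x = (π x : GL D.Idx K))

include hθ in
theorem πX' {a : ℕ} (ha : a < D.nroots) (v : K) : π (T.X a v) = xq hD a v := by
  apply Subtype.ext
  rw [← hθ, T.θX a ha]
  rfl

include hθ in
theorem π_word' (w : List (ℕ × K)) (hw : ∀ p ∈ w, p.1 < D.nroots) :
    π ((w.map fun p => T.X p.1 p.2).prod) = (w.map fun p => xq hD p.1 p.2).prod := by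
  rw [map_list_prod, List.map_map]
  congr 1
  apply List.map_congr_left
  intro p hp
  exact πX' T hθ (hw p hp) p.2

include hc hθ in
theorem rel_step' {g : E} {χ : ℕ → K} (hg : ∀ a, a < D.nroots → ∀ v, g * T.X a v * g⁻¹ = T.X a (χ a * v))
    {r s : ℕ} (hr : r < D.nroots) (hs : s < D.nroots) (h1 : s ≠ r) (h2 : s ≠ D.neg r)
    (hc1 : χ r = 1) (hc2 : χ s ≠ 1) (L : List ℕ) (hL1 : nilB D (s :: L) = true)
    (hL2 : ∀ a ∈ s :: L, a < D.nroots) (hL3 : IndL hD K (s :: L))
    (hL4 : (s :: L).Pairwise (fun a b => T.Rel a b))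
    (hL5 : ∀ e ∈ D.commTerms r s, e.1 ∈ L) : T.Rel r s := by
  have hI := T.Inj_list (s :: L) hL1 hL2 hL3 hL4
  have πX : ∀ a, a < D.nroots → ∀ v, π (T.X a v) = xq hD a v := fun a ha v => πX' T hθ ha v
  have hwm : ∀ t u : K, ∀ p ∈ D.commWord K r s t u, p.1 ∈ L := by
    intro t u p hp
    unfold commWord at hp
    obtain ⟨e, he, rfl⟩ := List.mem_map.1 hp
    exact hL5 e he
  have πW : ∀ t u : K, π (((D.commWord K r s t u).map fun p => T.X p.1 p.2).prod) =
      ((D.commWord K r s t u).map fun p => xq hD p.1 p.2).prod := fun t u =>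
    π_word' T hθ _ (fun p hp => hL2 _ (List.mem_cons_of_mem _ (hwm t u p hp)))
  have Wmem : ∀ t u : K, ((D.commWord K r s t u).map fun p => T.X p.1 p.2).prod ∈ T.XP (· ∈ s :: L) := fun t u =>
    T.word_mem _ (fun p hp => List.mem_cons_of_mem _ (hwm t u p hp))
  have key : ∀ t u : K, π ((T.X r t)⁻¹ * T.X s u * (T.X r t)⁻¹⁻¹) =
      π (T.X s u * ((D.commWord K r s t u).map fun p => T.X p.1 p.2).prod) := by
    intro t u
    rw [inv_inv, map_mul, map_mul, map_inv, map_mul, πW, πX r hr, πX s hs, mul_assoc, xq_comm hD hr hs h1 h2]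
    group
  intro t u
  set lam := χ s with hlam
  have hl : lam - 1 ≠ 0 := sub_ne_zero.2 hc2
  set u' := u / (lam - 1) with hu'
  set a := (T.X r t)⁻¹ with ha
  set b := T.X s u' with hb
  have e1 : g * a * g⁻¹ = a := by
    rw [ha, T.X_inv hr, hg r hr, hc1, one_mul]
  have e1' : a * g * a⁻¹ = g := by
    have : g * a = a * g := by
      conv_rhs => rw [← e1]
      group
    rw [← this, mul_inv_cancel_right]
  have e2 : ⁅g, b⁆ = T.X s u := by
    rw [commutatorElement_def, hb, hg s hs, T.X_inv hs, T.add s hs]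
    congr 1
    rw [hu', ← hlam]
    field_simp
    ring
  set B := b * ((D.commWord K r s t u').map fun p => T.X p.1 p.2).prod with hB
  have Bmem : B ∈ T.XP (· ∈ s :: L) := mul_mem (T.X_mem List.mem_cons_self _) (Wmem t u')
  have e4 : a * T.X s u * a⁻¹ = ⁅g, B⁆ := by
    rw [← e2, conjugate_commutatorElement, e1']
    exact comm_congr hc rfl (key t u')
  have e5 : ⁅g, B⁆ ∈ T.XP (· ∈ s :: L) := by
    rw [commutatorElement_def]
    refine mul_mem ?_ (inv_mem Bmem)
    refine conj_closure_mem ?_ B Bmem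
    rintro _ ⟨q, v, hq, rfl⟩
    rw [hg q (hL2 q hq)]
    exact T.X_mem hq _
  have e6 : a * T.X s u * a⁻¹ = T.X s u * ((D.commWord K r s t u).map fun p => T.X p.1 p.2).prod := by
    apply hI.eq (e4 ▸ e5) (mul_mem (T.X_mem List.mem_cons_self _) (Wmem t u))
    rw [hθ, hθ, key t u]
  rw [mul_assoc, ← e6, ha]
  group

include hc hθ in
theorem rel_of_br' {r s : ℕ} (hr : r < D.nroots) (hs : s < D.nroots) (h0 : D.commTerms r s = [])
    (h : ∀ t u : K, br hπ (xq hD r t) (xq hD s u) = 1) : T.Rel r s := by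
  intro t u
  unfold commWord
  rw [h0]
  simp only [List.map_nil, List.prod_nil, mul_one]
  exact (commute_of_br hπ hc (h t u) (πX' T hθ hr t) (πX' T hθ hs u)).symm

include hθ in
/-- the relation for `(s, r)` gives that for `(r, s)` -/
theorem rel_symm {r s : ℕ} (hr : r < D.nroots) (hs : s < D.nroots) (h1 : s ≠ r) (h2 : s ≠ D.neg r)
    (h2' : r ≠ D.neg s) (hR : T.Rel s r) (L : List ℕ) (hL : ∀ a ∈ L, a < D.nroots) (hI : T.Inj (· ∈ L))
    (hL5 : ∀ e ∈ D.commTerms r s, e.1 ∈ L) (hL6 : ∀ e ∈ D.commTerms s r, e.1 ∈ L) : T.Rel r s := by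
  intro t u
  have hwm : ∀ p ∈ D.commWord K r s t u, p.1 ∈ L := by
    intro p hp
    unfold commWord at hp
    obtain ⟨e, he, rfl⟩ := List.mem_map.1 hp
    exact hL5 e he
  have hwm' : ∀ p ∈ D.commWord K s r u t, p.1 ∈ L := by
    intro p hp
    unfold commWord at hp
    obtain ⟨e, he, rfl⟩ := List.mem_map.1 hp
    exact hL6 e he
  have k := hR u t
  have e : ((D.commWord K r s t u).map fun p => T.X p.1 p.2).prod =
      (((D.commWord K s r u t).map fun p => T.X p.1 p.2).prod)⁻¹ := by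
    apply hI.eq (T.word_mem _ hwm) (inv_mem (T.word_mem _ hwm'))
    rw [hθ, hθ, map_inv, π_word' T hθ _ (fun p hp => hL _ (hwm p hp)), π_word' T hθ _ (fun p hp => hL _ (hwm' p hp))]
    congr 1
    have a1 := xq_comm hD hr hs h1 h2 t u
    have a2 := xq_comm hD hs hr (Ne.symm h1) h2' u t
    rw [a1] at a2
    have : ((D.commWord K r s t u).map fun p => xq hD p.1 p.2).prod *
        ((D.commWord K s r u t).map fun p => xq hD p.1 p.2).prod = 1 := by
      have a3 : xq hD r t * xq hD s u * 1 = xq hD r t * xq hD s u *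
          (((D.commWord K r s t u).map fun p => xq hD p.1 p.2).prod *
            ((D.commWord K s r u t).map fun p => xq hD p.1 p.2).prod) := by
        rw [mul_one, ← mul_assoc]; exact a2
      exact (mul_left_cancel a3).symm
    exact eq_inv_of_mul_eq_one_left this
  rw [e, k]
  group

/-- the homomorphism from all the relations -/
theorem exists_lift_of_rel' (hθ : ∀ x, T.θ x = (π x : GL D.Idx K))
    (H : ∀ r s, r < D.nroots → s < D.nroots → s ≠ r → s ≠ D.neg r → T.Rel r s) :
    ∃ τ : D.SteinbergCover K →* E, ∀ r t, r < D.nroots → π (τ (D.scGen K r t)) = xq hD r t := by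
  classical
  set Y1 : ℕ → K → E := fun r t => if r < D.nroots then T.X r t else 1 with hY1
  have Y1in : ∀ r, r < D.nroots → ∀ t, Y1 r t = T.X r t := fun r hr t => if_pos hr
  obtain ⟨τ, hτ⟩ := exists_hom_of_rel D K Y1 (fun r t hr => if_neg hr)
    (fun r t u hr => by rw [Y1in r hr, Y1in r hr, Y1in r hr]; exact T.add r hr t u)
    (by
      intro r s t u hr hs h1 h2
      rw [Y1in r hr, Y1in s hs, H r s hr hs h1 h2 t u]
      congr 2
      apply List.map_congr_left
      intro p hp
      symm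
      apply Y1in
      unfold commWord at hp
      obtain ⟨e, he, rfl⟩ := List.mem_map.1 hp
      exact Cfsg.Agent.Lib.Helper23StV.commTerms_lt_nroots hD r s e he)
  exact ⟨τ, fun r t hr => by rw [hτ, Y1in r hr]; exact πX' T hθ hr t⟩

end Cfsg.Agent.Lib.Helper23To
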