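import Cfsg.Agent.Lib.Helper23To12

set_option autoImplicit false
set_option linter.unusedSectionVars false
set_option linter.unusedVariables false

/-! Lifts of root elements defined as commutators; the field with three elements. -/

namespace Cfsg.Agent.Lib.Helper23To

open Subgroup Cfsg.Lie Cfsg.Lie.ChevalleyDatum Cfsg.Agent.Lib.Helper22ChevBasic Cfsg.Agent.Lib.Helper23Grp
  Cfsg.Agent.Lib.Helper23St Cfsg.Agent.Lib.Helper23Un
open scoped commutatorElement

variable {D : ChevalleyDatum} (hD : Std D) {K : Type*} [Field K] {E : Type*} [Group E]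
  {π : E →* ↥(D.group K)} (hπ : Function.Surjective π) (hc : π.ker ≤ center E)

include hc in
theorem br_one_right (g : ↥(D.group K)) : br hπ g 1 = 1 := by
  rw [br_symm, br_one hπ hc, inv_one]

include hc in
theorem self_of_three (h3 : ∀ t : K, t = 0 ∨ t = 1 ∨ t = -1) (r : ℕ) (t u : K) :
    br hπ (xq hD r t) (xq hD r u) = 1 := by
  have a1 : ∀ g : ↥(D.group K), br hπ g g = 1 := fun g => by unfold br; exact commutatorElement_self _
  have a2 : ∀ g : ↥(D.group K), br hπ g g⁻¹ = 1 := by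
    intro g
    rw [← br_eq hπ hc (a := Function.surjInv hπ g) (b := (Function.surjInv hπ g)⁻¹) (Function.surjInv_eq hπ g)
      (by rw [map_inv, Function.surjInv_eq hπ g])]
    simp [commutatorElement_def]
  have a3 : ∀ g : ↥(D.group K), br hπ g⁻¹ g = 1 := by
    intro g; rw [br_symm, a2, inv_one]
  rcases h3 t with rfl | rfl | rfl
  · rw [xq_zero]; exact br_one hπ hc _
  · rcases h3 u with rfl | rfl | rfl
    · rw [xq_zero]; exact br_one_right hπ hc _
    · exact a1 _
    · rw [← xq_inv]; exact a2 _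
  · rcases h3 u with rfl | rfl | rfl
    · rw [xq_zero]; exact br_one_right hπ hc _
    · rw [← xq_inv]; exact a3 _
    · exact a1 _

section beta

variable {a b s : ℕ} {M : ℤ} (ha : a < D.nroots) (hb : b < D.nroots) (h1 : b ≠ a) (h2 : b ≠ D.neg a)
  (h0 : D.commTerms a b = [(s, M, 1, 1)])
  (hsa : ∀ t u : K, br hπ (xq hD s t) (xq hD a u) = 1) (hsb : ∀ t u : K, br hπ (xq hD s t) (xq hD b u) = 1)

include hc ha hb h1 h2 h0 hsa in
theorem beta_add_right (u t t' : K) : br hπ (xq hD b u) (xq hD a (t + t')) =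
    br hπ (xq hD b u) (xq hD a t) * br hπ (xq hD b u) (xq hD a t') := by
  rw [← xq_add, br_mul_right hπ hc (by rw [comm_xq hD ha hb h1 h2 h0]; exact hsa _ _)]

include hc ha hb h1 h2 h0 hsb in
theorem beta_add_left (u u' t : K) : br hπ (xq hD b (u + u')) (xq hD a t) =
    br hπ (xq hD b u') (xq hD a t) * br hπ (xq hD b u) (xq hD a t) := by
  rw [← xq_add, br_mul_left hπ hc (by rw [comm_xq hD ha hb h1 h2 h0]; exact hsb _ _)]

include hc ha hb h1 h2 h0 hsa in
theorem beta_neg_right (u t : K) : br hπ (xq hD b u) (xq hD a (-t)) = (br hπ (xq hD b u) (xq hD a t))⁻¹ := by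
  rw [eq_inv_iff_mul_eq_one, ← beta_add_right hD hπ hc ha hb h1 h2 h0 hsa, neg_add_cancel, xq_zero]
  exact br_one_right hπ hc _

include hc ha hb h1 h2 h0 hsb in
theorem beta_neg_left (u t : K) : br hπ (xq hD b (-u)) (xq hD a t) = (br hπ (xq hD b u) (xq hD a t))⁻¹ := by
  rw [eq_inv_iff_mul_eq_one, ← beta_add_left hD hπ hc ha hb h1 h2 h0 hsb, add_neg_cancel, xq_zero]
  exact br_one hπ hc _

include hc ha hb h1 h2 h0 hsa hsb in
theorem beta_bal (h3 : ∀ t : K, t = 0 ∨ t = 1 ∨ t = -1) (u t : K) :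
    br hπ (xq hD b u) (xq hD a t) = br hπ (xq hD b 1) (xq hD a (u * t)) := by
  rcases h3 u with rfl | rfl | rfl
  · rw [zero_mul, xq_zero, xq_zero, br_one hπ hc, br_one_right hπ hc]
  · rw [one_mul]
  · rw [beta_neg_left hD hπ hc ha hb h1 h2 h0 hsb, neg_one_mul, beta_neg_right hD hπ hc ha hb h1 h2 h0 hsa]

end beta

include hc in
/-- orthogonal long roots in type B2, characteristic not two -/
theorem br_of_G1 {r s a b : ℕ} {M M2 M3 : ℤ} (hr : r < D.nroots) (ha : a < D.nroots) (hb : b < D.nroots)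
    (h1 : b ≠ a) (h2 : b ≠ D.neg a) (h0 : D.commTerms a b = [(s, M, 1, 1)]) (hM : (M : K) ≠ 0)
    (k1 : r ≠ b) (k2 : r ≠ D.neg b) (k0 : D.commTerms b r = [(a, M2, 1, 1), (s, M3, 2, 1)])
    (cra : ∀ t u : K, xq hD r t * xq hD a u = xq hD a u * xq hD r t)
    (crs : ∀ t u : K, xq hD r t * xq hD s u = xq hD s u * xq hD r t)
    (csa : ∀ t u : K, xq hD s t * xq hD a u = xq hD a u * xq hD s t)
    (hsa : ∀ t u : K, br hπ (xq hD s t) (xq hD a u) = 1)
    (haa : ∀ t u : K, br hπ (xq hD a t) (xq hD a u) = 1) :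
    ∀ w y : K, br hπ (xq hD r w) (xq hD s y) = 1 := by
  intro w y
  obtain ⟨g, hg⟩ := hπ (xq hD r w)
  set t : K := -(y / (M : K)) with ht
  set Z := br hπ (xq hD b 1) (xq hD a t) with hZ
  have pZ : π Z = xq hD s y := by
    rw [hZ, π_br, comm_xq hD ha hb h1 h2 h0, ht]
    congr 1
    field_simp
  have caa : ∀ t u : K, xq hD a t * xq hD a u = xq hD a u * xq hD a t := by
    intro t u; rw [xq_add, xq_add, add_comm]
  have h := xq_comm hD hb hr k1 k2 (1 : K) w
  unfold commWord at h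
  rw [k0] at h
  simp only [List.map_cons, List.map_nil, List.prod_cons, List.prod_nil, mul_one, pow_one] at h
  set α : K := (M2 : K) * -1 * w with hα
  set β : K := (M3 : K) * (-1) ^ 2 * w with hβ
  have e0 : xq hD r w * xq hD b 1 * (xq hD r w)⁻¹ = xq hD b 1 * (xq hD a α * xq hD s β) := by
    rw [h]
    have : xq hD r w * (xq hD a α * xq hD s β) = (xq hD a α * xq hD s β) * xq hD r w := by
      rw [← mul_assoc, cra, mul_assoc, crs, ← mul_assoc]
    rw [mul_assoc (xq hD b 1), this]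
    group
  have e1 : g * Z * g⁻¹ = Z := by
    rw [hZ, br_conj hπ hc, hg, e0, cra, mul_inv_cancel_right]
    have c1 : ⁅xq hD a α * xq hD s β, xq hD a t⁆ = 1 := by
      rw [commutatorElement_eq_one_iff_mul_comm, mul_assoc, csa, ← mul_assoc, caa, mul_assoc]
    rw [br_mul_left hπ hc (by rw [c1]; exact br_one hπ hc _),
      br_mul_left hπ hc (by rw [commutatorElement_eq_one_iff_mul_comm.2 (csa _ _)]; exact br_one hπ hc _),
      hsa, haa, one_mul, one_mul]
  rw [← br_eq hπ hc hg pZ, commutatorElement_def, e1, mul_inv_cancel]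

end Cfsg.Agent.Lib.Helper23To
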