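import Cfsg.Agent.Lib.Helper23To13

set_option autoImplicit false
set_option linter.unusedSectionVars false
set_option linter.unusedVariables false

/-! Central extensions of a Chevalley group in characteristic `p` whose kernel has no element of order `p`. -/

namespace Cfsg.Agent.Lib.Helper23To

open Subgroup Cfsg.Lie Cfsg.Lie.ChevalleyDatum Cfsg.Agent.Lib.Helper22ChevBasic Cfsg.Agent.Lib.Helper23Grp
  Cfsg.Agent.Lib.Helper23St Cfsg.Agent.Lib.Helper23Un
open scoped commutatorElement

variable {D : ChevalleyDatum} (hD : Std D) {K : Type*} [Field K] {E : Type*} [Group E]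
  {π : E →* ↥(D.group K)} (hπ : Function.Surjective π) (hc : π.ker ≤ center E)
  {p : ℕ} (hp : (p : K) = 0) (hA : ∀ z ∈ π.ker, z ^ p = 1 → z = 1)

theorem xq_pow (r : ℕ) (t : K) (n : ℕ) : xq hD r t ^ n = xq hD r (n * t) := by
  induction n with
  | zero => rw [pow_zero, Nat.cast_zero, zero_mul, xq_zero]
  | succ n ih => rw [pow_succ, ih, xq_add]; congr 1; push_cast; ring

include hp in
theorem xq_pow_p (r : ℕ) (t : K) : xq hD r t ^ p = 1 := by
  rw [xq_pow, hp, zero_mul, xq_zero]

include hc hA in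
theorem br_of_pow {g h : ↥(D.group K)} (hgh : g * h = h * g) (hg : g ^ p = 1) : br hπ g h = 1 := by
  set a := Function.surjInv hπ g with ha
  set b := Function.surjInv hπ h with hb
  have pa : π a = g := Function.surjInv_eq hπ g
  have pb : π b = h := Function.surjInv_eq hπ h
  have hk : ⁅a, b⁆ ∈ π.ker := by
    rw [MonoidHom.mem_ker, map_commutatorElement, pa, pb, commutatorElement_eq_one_iff_mul_comm, hgh]
  have hz := mem_center_iff.1 (hc hk)
  have key : ∀ n : ℕ, ⁅a ^ n, b⁆ = ⁅a, b⁆ ^ n := by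
    intro n
    induction n with
    | zero => simp
    | succ n ih =>
      have e : ⁅a ^ (n + 1), b⁆ = a * ⁅a ^ n, b⁆ * a⁻¹ * ⁅a, b⁆ := by
        rw [pow_succ']
        simp only [commutatorElement_def]
        group
      rw [e, ih, pow_succ]
      have : a * ⁅a, b⁆ ^ n = ⁅a, b⁆ ^ n * a := by
        have := mem_center_iff.1 (pow_mem (hc hk) n) a
        exact this
      rw [this, mul_inv_cancel_right]
  have hap : a ^ p ∈ center E := by
    apply hc
    rw [MonoidHom.mem_ker, map_pow, pa, hg]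
  have e1 : ⁅a ^ p, b⁆ = 1 := by
    rw [commutatorElement_eq_one_iff_mul_comm]
    exact (mem_center_iff.1 hap b).symm
  show ⁅a, b⁆ = 1
  exact hA _ hk (by rw [← key, e1])

include hc hA hp in
theorem brP {r s : ℕ} (hcm : ∀ t u : K, xq hD r t * xq hD s u = xq hD s u * xq hD r t) :
    ∀ t u : K, br hπ (xq hD r t) (xq hD s u) = 1 :=
  fun t u => br_of_pow hπ hc hA (hcm t u) (xq_pow_p hD hp r t)

include hc hA hp in
theorem selfP (r : ℕ) : ∀ t u : K, br hπ (xq hD r t) (xq hD r u) = 1 :=
  brP hD hπ hc hp hA (fun t u => by rw [xq_add, xq_add, add_comm])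

include hc hA in
theorem uniqP {a b : E} (h : π a = π b) (ha : a ^ p = 1) (hb : b ^ p = 1) : a = b := by
  have hk : a⁻¹ * b ∈ π.ker := by
    rw [MonoidHom.mem_ker, map_mul, map_inv, h, inv_mul_cancel]
  have hz := mem_center_iff.1 (hc hk)
  have e : b = a * (a⁻¹ * b) := by group
  have cm : Commute a (a⁻¹ * b) := hz a
  have : (a⁻¹ * b) ^ p = 1 := by
    have h1 := cm.mul_pow p
    rw [← e, hb, ha, one_mul] at h1
    exact h1.symm
  have := hA _ hk this
  rw [e, this, mul_one]

variable (T : PS hD K E) (hθ : ∀ x, T.θ x = (π x : GL D.Idx K))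

theorem PS.X_pow {r : ℕ} (hr : r < D.nroots) (t : K) (n : ℕ) : T.X r t ^ n = T.X r (n * t) := by
  induction n with
  | zero => rw [pow_zero, Nat.cast_zero, zero_mul, T.X_zero hr]
  | succ n ih => rw [pow_succ, ih, T.add r hr]; congr 1; push_cast; ring

include hp in
theorem PS.X_pow_p {r : ℕ} (hr : r < D.nroots) (t : K) : T.X r t ^ p = 1 := by
  rw [PS.X_pow hD T hr, hp, zero_mul, T.X_zero hr]

/-- the root elements of the two roots commute -/
def CK (hD : Std D) (K : Type*) [Field K] (a b : ℕ) : Prop := ∀ t u : K, xq hD a t * xq hD b u = xq hD b u * xq hD a t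

include hπ hc hA hp hθ in
theorem X_commute {a b : ℕ} (ha : a < D.nroots) (hb : b < D.nroots) (h : CK hD K a b) (t u : K) :
    Commute (T.X a t) (T.X b u) :=
  commute_of_br hπ hc (brP hD hπ hc hp hA h t u) (πX' T hθ ha t) (πX' T hθ hb u)

include hπ hc hA hp hθ in
theorem word_pow_p (w : List (ℕ × K)) (hw : ∀ q ∈ w, q.1 < D.nroots)
    (hcm : ∀ q ∈ w, ∀ q' ∈ w, CK hD K q.1 q'.1) : ((w.map fun q => T.X q.1 q.2).prod) ^ p = 1 := by
  induction w with
  | nil => simp
  | cons a w ih =>
    rw [List.map_cons, List.prod_cons]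
    have cm : Commute (T.X a.1 a.2) ((w.map fun q => T.X q.1 q.2).prod) := by
      apply Commute.list_prod_right
      intro x hx
      obtain ⟨q, hq, rfl⟩ := List.mem_map.1 hx
      exact X_commute hD hπ hc hp hA T hθ (hw a List.mem_cons_self) (hw q (List.mem_cons_of_mem _ hq))
        (hcm a List.mem_cons_self q (List.mem_cons_of_mem _ hq)) _ _
    rw [cm.mul_pow, PS.X_pow_p hD hp T (hw a List.mem_cons_self), one_mul]
    exact ih (fun q hq => hw q (List.mem_cons_of_mem _ hq))
      (fun q hq q' hq' => hcm q (List.mem_cons_of_mem _ hq) q' (List.mem_cons_of_mem _ hq'))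

theorem xq_word_commute {a : ℕ} (t : K) (w : List (ℕ × K)) (h : ∀ q ∈ w, CK hD K a q.1) :
    Commute (xq hD a t) ((w.map fun q => xq hD q.1 q.2).prod) := by
  apply Commute.list_prod_right
  intro x hx
  obtain ⟨q, hq, rfl⟩ := List.mem_map.1 hx
  exact h q hq _ _

include hπ hc hA hp hθ in
/-- the commutator relation, both sides being the lift of order `p` of the same element -/
theorem rel_of_uniq {r s : ℕ} (hr : r < D.nroots) (hs : s < D.nroots) (h1 : s ≠ r) (h2 : s ≠ D.neg r)
    (hW : ∀ e ∈ D.commTerms r s, ∀ e' ∈ D.commTerms r s, CK hD K e.1 e'.1)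
    (hR : (∀ e ∈ D.commTerms r s, CK hD K r e.1) ∨ (∀ e ∈ D.commTerms r s, CK hD K s e.1)) : T.Rel r s := by
  intro t u
  have hwm : ∀ q ∈ D.commWord K r s t u, ∃ e ∈ D.commTerms r s, q.1 = e.1 := by
    intro q hq
    unfold commWord at hq
    obtain ⟨e, he, rfl⟩ := List.mem_map.1 hq
    exact ⟨e, he, rfl⟩
  have hlt : ∀ q ∈ D.commWord K r s t u, q.1 < D.nroots := by
    intro q hq
    obtain ⟨e, he, h⟩ := hwm q hq
    rw [h]
    exact Cfsg.Agent.Lib.Helper23StV.commTerms_lt_nroots hD r s e he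
  set W := ((D.commWord K r s t u).map fun q => T.X q.1 q.2).prod with hWd
  set w := ((D.commWord K r s t u).map fun q => xq hD q.1 q.2).prod with hwd
  have πW : π W = w := π_word' T hθ _ hlt
  have Wp : W ^ p = 1 := by
    apply word_pow_p hD hπ hc hp hA T hθ _ hlt
    intro q hq q' hq'
    obtain ⟨e, he, h⟩ := hwm q hq
    obtain ⟨e', he', h'⟩ := hwm q' hq'
    rw [h, h']
    exact hW e he e' he'
  set R := T.X r t with hRd
  set S := T.X s u with hSd
  have πR : π R = xq hD r t := πX' T hθ hr t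
  have πS : π S = xq hD s u := πX' T hθ hs u
  have Rp : R ^ p = 1 := PS.X_pow_p hD hp T hr t
  have Sp : S ^ p = 1 := PS.X_pow_p hD hp T hs u
  have hG := xq_comm hD hr hs h1 h2 t u
  rw [← hwd] at hG
  have πC : π (S⁻¹ * R⁻¹ * S * R) = w := by
    rw [map_mul, map_mul, map_mul, map_inv, map_inv, πR, πS, mul_assoc, hG]
    group
  have Cp : (S⁻¹ * R⁻¹ * S * R) ^ p = 1 := by
    rcases hR with hR | hR
    · have cw : Commute (xq hD r t) w := by
        apply xq_word_commute
        intro q hq
        obtain ⟨e, he, h⟩ := hwm q hq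
        rw [h]
        exact hR e he
      have cm : Commute R (S⁻¹ * R⁻¹ * S) := by
        apply commute_of_br hπ hc (g := xq hD r t) (h := w * (xq hD r t)⁻¹) _ πR
        · rw [← πC, ← πR, ← map_inv, ← map_mul]
          congr 1
          group
        · apply br_of_pow hπ hc hA _ (xq_pow_p hD hp r t)
          exact (cw.mul_right (Commute.refl _).inv_right).eq
      rw [cm.symm.mul_pow, Rp, mul_one]
      have : S⁻¹ * R⁻¹ * S = S⁻¹ * R⁻¹ * S⁻¹⁻¹ := by rw [inv_inv]
      rw [this, conj_pow, inv_pow, Rp]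
      group
    · have cw : Commute (xq hD s u) w := by
        apply xq_word_commute
        intro q hq
        obtain ⟨e, he, h⟩ := hwm q hq
        rw [h]
        exact hR e he
      have cm : Commute S (R⁻¹ * S * R) := by
        apply commute_of_br hπ hc (g := xq hD s u) (h := xq hD s u * w) _ πS
        · rw [← πC, ← πS, ← map_mul]
          congr 1
          group
        · apply br_of_pow hπ hc hA _ (xq_pow_p hD hp s u)
          exact ((Commute.refl _).mul_right cw).eq
      have e : S⁻¹ * R⁻¹ * S * R = S⁻¹ * (R⁻¹ * S * R) := by group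
      rw [e, cm.inv_left.mul_pow, inv_pow, Sp, inv_one, one_mul]
      have : R⁻¹ * S * R = R⁻¹ * S * R⁻¹⁻¹ := by rw [inv_inv]
      rw [this, conj_pow, Sp]
      group
  have := uniqP hc hA (πC.trans πW.symm) Cp Wp
  rw [← this]
  group

end Cfsg.Agent.Lib.Helper23To
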