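import Cfsg.Agent.Lib.Helper23To15

set_option autoImplicit false
set_option linter.unusedSectionVars false
set_option linter.unusedVariables false

/-! Lifting Steinberg's relations to central extensions whose kernel has no element of order `p`: certificates. -/

namespace Cfsg.Agent.Lib.Helper23To

open Subgroup Cfsg.Lie Cfsg.Lie.ChevalleyDatum Cfsg.Agent.Lib.Helper22ChevBasic Cfsg.Agent.Lib.Helper23Grp
  Cfsg.Agent.Lib.Helper23St Cfsg.Agent.Lib.Helper23Un
open scoped commutatorElement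

/-- the terms of the commutator formula commute with each other and with one of the two roots -/
def UniqOK (D : ChevalleyDatum) (r s : ℕ) : Prop :=
  (∀ e ∈ D.commTerms r s, ∀ e' ∈ D.commTerms r s, e.1 = e'.1 ∨ CommNil D e.1 e'.1) ∧
  ((∀ e ∈ D.commTerms r s, CommNil D r e.1) ∨ (∀ e ∈ D.commTerms r s, CommNil D s e.1))

instance (D : ChevalleyDatum) (r s : ℕ) : Decidable (UniqOK D r s) := by unfold UniqOK; infer_instance

/-- the root `r` is the sum of two roots, with a commutator formula with one term -/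
def DecP (D : ChevalleyDatum) (r : ℕ) (d : ℕ × ℕ × ℤ) : Prop :=
  d.1 < D.nroots ∧ d.2.1 < D.nroots ∧ d.2.1 ≠ d.1 ∧ d.2.1 ≠ D.neg d.1 ∧ D.commTerms d.1 d.2.1 = [(r, d.2.2, 1, 1)] ∧
  d.2.2.natAbs ∈ [1] ∧ CommNil D r d.1

instance (D : ChevalleyDatum) (r : ℕ) (d : ℕ × ℕ × ℤ) : Decidable (DecP D r d) := by unfold DecP; infer_instance

variable {D : ChevalleyDatum} (hD : Std D) {K : Type*} [Field K] {E : Type*} [Group E]
  {π : E →* ↥(D.group K)} (hπ : Function.Surjective π) (hc : π.ker ≤ center E)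
  {p : ℕ} (hp : (p : K) = 0) (hA : ∀ z ∈ π.ker, z ^ p = 1 → z = 1)

theorem CK_self (a : ℕ) : CK hD K a a := fun t u => by rw [xq_add, xq_add, add_comm]

include hπ hc hp hA in
theorem rel_of_UniqOK (T : PS hD K E) (hθ : ∀ x, T.θ x = (π x : GL D.Idx K)) {r s : ℕ} (hr : r < D.nroots)
    (hs : s < D.nroots) (h1 : s ≠ r) (h2 : s ≠ D.neg r) (h : UniqOK D r s) : T.Rel r s := by
  have hlt : ∀ e ∈ D.commTerms r s, e.1 < D.nroots := fun e he =>
    Cfsg.Agent.Lib.Helper23StV.commTerms_lt_nroots hD r s e he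
  refine rel_of_uniq hD hπ hc hp hA T hθ hr hs h1 h2 ?_ ?_
  · intro e he e' he'
    rcases h.1 e he e' he' with h | h
    · rw [h]; exact CK_self hD _
    · exact h.comm hD (hlt e he)
  · rcases h.2 with h | h
    · exact Or.inl (fun e he => (h e he).comm hD hr)
    · exact Or.inr (fun e he => (h e he).comm hD hs)

include hπ hc hp hA in
/-- lifts by means of the torus -/
theorem lift_mainP (M : List ℕ) (hM : ∀ m : ℤ, m.natAbs ∈ M → ∃ v : Kˣ, v ^ m ≠ 1)
    (mu1 : ℕ → List ℤ) (h1 : ∀ r, r < D.nroots → (pairL D (mu1 r) r).natAbs ∈ M)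
    (tbl : ℕ → ℕ → Cert)
    (H : ∀ r s, r < D.nroots → s < D.nroots → s ≠ r → s ≠ D.neg r → UniqOK D r s ∨ CertOK D M r s (tbl r s)) :
    ∃ τ : D.SteinbergCover K →* E, ∀ r t, r < D.nroots → π (τ (D.scGen K r t)) = xq hD r t := by
  classical
  have hself : ∀ r, r < D.nroots → ∀ t u : K, br hπ (xq hD r t) (xq hD r u) = 1 := fun r _ =>
    selfP hD hπ hc hp hA r
  have hex : ∀ r, ∃ c : Fin D.rank → Kˣ, r < D.nroots → chi c r ≠ 1 := by
    intro r
    by_cases hr : r < D.nroots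
    · obtain ⟨v, hv⟩ := hM _ (h1 r hr)
      refine ⟨cpow (D := D) v (fun i => (mu1 r).getD i.val 0), fun _ => ?_⟩
      rw [chi_mu _ _ hr]
      intro e
      exact hv (Units.ext e)
    · exact ⟨1, fun h => absurd h hr⟩
  choose cr hcr using hex
  apply exists_lift_of_rel hD hπ hc hcr hself
  apply all_rel
  intro r s hr hs n1 n2
  rcases H r s hr hs n1 n2 with h | ⟨c1, c2, c3, c4, c5, c6, c7, c8, c9⟩
  · left
    exact rel_of_UniqOK hD hπ hc hp hA _ (fun _ => rfl) hr hs n1 n2 h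
  · right
    refine ⟨?_, (tbl r s).L, c3, c4, ?_, c5, c6⟩
    · obtain ⟨v, hv⟩ := hM _ c2
      refine ⟨cpow (D := D) v (fun i => (tbl r s).mu.getD i.val 0), ?_, ?_⟩
      · rw [chi_mu _ _ hr, c1, zpow_zero, Units.val_one]
      · rw [chi_mu _ _ hs]
        intro e
        exact hv (Units.ext e)
    · exact IndL_word (tbl r s).w c7 _ c4 (IndL_pos _ c8 c9)

/-- lifts defined as commutators -/
noncomputable def psC (dec : ℕ → ℕ × ℕ × ℤ) (hdec : ∀ r, r < D.nroots → DecP D r (dec r)) : PS hD K E where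
  X r t := br hπ (xq hD (dec r).2.1 1) (xq hD (dec r).1 (-(t / ((dec r).2.2 : K))))
  θ := (D.group K).subtype.comp π
  θX r hr t := by
    obtain ⟨a1, a2, a3, a4, a5, a6, a7⟩ := hdec r hr
    rw [MonoidHom.comp_apply, π_br, comm_xq hD a1 a2 a3 a4 a5]
    have := one_ne (K := K) a6
    have e : -((dec r).2.2 : K) * -(t / ((dec r).2.2 : K)) * 1 = t := by field_simp
    rw [e]
    rfl
  add r hr t u := by
    obtain ⟨a1, a2, a3, a4, a5, a6, a7⟩ := hdec r hr
    rw [← beta_add_right hD hπ hc a1 a2 a3 a4 a5 (brP hD hπ hc hp hA (a7.comm hD hr))]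
    congr 2
    ring

include hπ hc hp hA in
theorem lift_commP (dec : ℕ → ℕ × ℕ × ℤ) (hdec : ∀ r, r < D.nroots → DecP D r (dec r))
    (H : ∀ r s, r < D.nroots → s < D.nroots → s ≠ r → s ≠ D.neg r → UniqOK D r s) :
    ∃ τ : D.SteinbergCover K →* E, ∀ r t, r < D.nroots → π (τ (D.scGen K r t)) = xq hD r t :=
  exists_lift_of_rel' (psC hD hπ hc hp hA dec hdec) (fun _ => rfl)
    (fun r s hr hs n1 n2 => rel_of_UniqOK hD hπ hc hp hA _ (fun _ => rfl) hr hs n1 n2 (H r s hr hs n1 n2))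

end Cfsg.Agent.Lib.Helper23To
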