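import Cfsg.Agent.Lib.Helper23To16

set_option autoImplicit false
set_option linter.unusedSectionVars false
set_option linter.unusedVariables false

/-! Lifting projective representations in the natural characteristic. -/

namespace Cfsg.Agent.Lib.Helper23To

open Subgroup Cfsg.Lie Cfsg.Lie.ChevalleyDatum Cfsg.Agent.Lib.Helper22ChevBasic Cfsg.Agent.Lib.Helper23Grp
  Cfsg.Agent.Lib.Helper23St Cfsg.Agent.Lib.Helper23Un

theorem proj_lift {D : ChevalleyDatum} (hD : Std D) {K : Type*} [Field K]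
    (θ : D.SteinbergCover K →* ↥(D.group K)) (hθ : ∀ r t, r < D.nroots → θ (D.scGen K r t) = xq hD r t)
    {Γ Q : Type*} [Group Γ] [Group Q] (π₁ : Γ →* Q) (hπ₁ : Function.Surjective π₁) (hc₁ : π₁.ker ≤ center Γ)
    (φ : ↥(D.group K) →* Q) {p : ℕ} (hA₁ : ∀ z ∈ π₁.ker, z ^ p = 1 → z = 1)
    (hL : ∀ π : ↥(pb π₁ φ) →* ↥(D.group K), Function.Surjective π → π.ker ≤ center ↥(pb π₁ φ) →
      (∀ z ∈ π.ker, z ^ p = 1 → z = 1) →
      ∃ τ : D.SteinbergCover K →* ↥(pb π₁ φ), ∀ r t, r < D.nroots → π (τ (D.scGen K r t)) = xq hD r t) :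
    ∃ ψ : D.SteinbergCover K →* Γ, π₁.comp ψ = φ.comp θ := by
  set P := pb π₁ φ with hP
  set p2 : ↥P →* ↥(D.group K) := (MonoidHom.snd Γ ↥(D.group K)).comp P.subtype with hp2
  set p1 : ↥P →* Γ := (MonoidHom.fst Γ ↥(D.group K)).comp P.subtype with hp1
  have hrel : ∀ x : ↥P, π₁ (p1 x) = φ (p2 x) := fun x => x.2
  have s2 : Function.Surjective p2 := by
    intro g
    obtain ⟨e, he⟩ := hπ₁ (φ g)
    exact ⟨⟨(e, g), he⟩, rfl⟩
  have hk1 : ∀ x ∈ p2.ker, p1 x ∈ π₁.ker := by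
    intro x hx
    rw [MonoidHom.mem_ker] at hx ⊢
    rw [hrel, hx, map_one]
  have ext2 : ∀ x y : ↥P, p1 x = p1 y → p2 x = p2 y → x = y := by
    intro x y h1 h2
    apply Subtype.ext
    exact Prod.ext h1 h2
  have c2 : p2.ker ≤ center ↥P := by
    intro x hx
    rw [mem_center_iff]
    intro y
    apply ext2
    · rw [map_mul, map_mul]
      exact mem_center_iff.1 (hc₁ (hk1 x hx)) _
    · rw [map_mul, map_mul, MonoidHom.mem_ker.1 hx, mul_one, one_mul]
  have a2 : ∀ z ∈ p2.ker, z ^ p = 1 → z = 1 := by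
    intro z hz hzp
    apply ext2
    · rw [map_one]
      apply hA₁ _ (hk1 z hz)
      rw [← map_pow, hzp, map_one]
    · rw [map_one]; exact hz
  obtain ⟨τ, hτ⟩ := hL p2 s2 c2 a2
  refine ⟨p1.comp τ, ?_⟩
  have e : p2.comp τ = θ := by
    apply hom_ext_gen
    intro r t hr
    rw [MonoidHom.comp_apply, hτ r t hr, hθ r t hr]
  apply MonoidHom.ext
  intro d
  rw [MonoidHom.comp_apply, MonoidHom.comp_apply, hrel, MonoidHom.comp_apply, ← e]
  rfl

/-- scalar matrices in characteristic `p` have no `p`-torsion -/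
theorem center_GL_torsion {L : Type*} [Field L] {p : ℕ} [Fact p.Prime] [CharP L p] {n : ℕ} (z : GL (Fin n) L)
    (hz : z ∈ center (GL (Fin n) L)) (hzp : z ^ p = 1) : z = 1 := by
  obtain ⟨a, ha⟩ := Matrix.GeneralLinearGroup.mem_center_iff_val_mem_range_scalar.1 hz
  apply Units.ext
  rw [← ha, Units.val_one]
  have h1 : (z ^ p : GL (Fin n) L).val = 1 := by rw [hzp]; rfl
  rw [Units.val_pow_eq_pow_val, ← ha, ← map_pow] at h1
  rcases isEmpty_or_nonempty (Fin n) with h | h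
  · exact Subsingleton.elim _ _
  · have h2 : a ^ p = 1 := by
      have := congrFun (congrFun h1 (Classical.arbitrary _)) (Classical.arbitrary _)
      simpa using this
    have h3 : (a - 1) ^ p = 0 := by
      rw [sub_pow_char, h2, one_pow, sub_self]
    have h4 : a = 1 := sub_eq_zero.1 (pow_eq_zero_iff (Fact.out : p.Prime).ne_zero |>.1 h3)
    rw [h4, map_one]

end Cfsg.Agent.Lib.Helper23To
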