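import Cfsg.Agent.Lib.Helper23To6

set_option autoImplicit false
set_option linter.unusedSectionVars false
set_option linter.unusedVariables false

/-! Certificates for decompositions of a root element as a commutator. -/

namespace Cfsg.Agent.Lib.Helper23To

open Subgroup Cfsg.Lie Cfsg.Lie.ChevalleyDatum Cfsg.Agent.Lib.Helper22ChevBasic Cfsg.Agent.Lib.Helper23Grp
  Cfsg.Agent.Lib.Helper23St Cfsg.Agent.Lib.Helper23Un

/-- `x_s` is the commutator of `x_a`, `x_b` (up to the constant `e`), and `x_r` commutes with both -/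
def DecOK (D : ChevalleyDatum) (M : List ℕ) (r s : ℕ) (d : ℕ × ℕ × ℤ) : Prop :=
  d.1 < D.nroots ∧ d.2.1 < D.nroots ∧ d.2.1 ≠ d.1 ∧ d.2.1 ≠ D.neg d.1 ∧ D.commTerms d.1 d.2.1 = [(s, d.2.2, 1, 1)] ∧
  d.2.2.natAbs ∈ M ∧ d.1 ≠ r ∧ d.1 ≠ D.neg r ∧ D.commTerms r d.1 = [] ∧
  d.2.1 ≠ r ∧ d.2.1 ≠ D.neg r ∧ D.commTerms r d.2.1 = []

instance (D : ChevalleyDatum) (M : List ℕ) (r s : ℕ) (d : ℕ × ℕ × ℤ) : Decidable (DecOK D M r s d) := by
  unfold DecOK; infer_instance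

/-- either the torus separates the two roots with exponent one, or there is a decomposition -/
def AltOK (D : ChevalleyDatum) (M : List ℕ) (r s : ℕ) (c : Cert) (d : ℕ × ℕ × ℤ) : Prop :=
  (pairL D c.mu s).natAbs ∈ [1] ∨ (D.commTerms r s = [] ∧ DecOK D M r s d)

instance (D : ChevalleyDatum) (M : List ℕ) (r s : ℕ) (c : Cert) (d : ℕ × ℕ × ℤ) : Decidable (AltOK D M r s c d) := by
  unfold AltOK; infer_instance

variable {D : ChevalleyDatum} (hD : Std D) {K : Type*} [Field K] {E : Type*} [Group E]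
  {π : E →* ↥(D.group K)} (hπ : Function.Surjective π) (hc : π.ker ≤ center E)

include hc in
theorem br_of_DecOK {M : List ℕ} (hM : ∀ e : ℤ, e.natAbs ∈ M → (e : K) ≠ 0) {r s : ℕ} (hr : r < D.nroots)
    {d : ℕ × ℕ × ℤ} (h : DecOK D M r s d) : ∀ t u : K, br hπ (xq hD r t) (xq hD s u) = 1 := by
  obtain ⟨h1, h2, h3, h4, h5, h6, h7, h8, h9, h10, h11, h12⟩ := h
  exact br_of_dec hD hπ hc h1 h2 h3 h4 h5 (hM _ h6) (xq_commute_of_nil hD hr h1 h7 h8 h9)
    (xq_commute_of_nil hD hr h2 h10 h11 h12)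

theorem CertOK.mono {M M' : List ℕ} {r s : ℕ} {c : Cert} (h : CertOK D M r s c)
    (h' : (pairL D c.mu s).natAbs ∈ M') : CertOK D M' r s c :=
  ⟨h.1, h', h.2.2⟩

theorem one_ne {e : ℤ} (h : e.natAbs ∈ [1]) : (e : K) ≠ 0 := by
  simp only [List.mem_cons, List.not_mem_nil, or_false] at h
  rcases Int.natAbs_eq e with h' | h' <;> rw [h', h] <;> simp

theorem two_ne (h2 : (2 : K) ≠ 0) {e : ℤ} (h : e.natAbs ∈ [1, 2]) : (e : K) ≠ 0 := by
  simp only [List.mem_cons, List.not_mem_nil, or_false] at h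
  rcases h with h | h <;> rcases Int.natAbs_eq e with h' | h' <;> rw [h', h] <;> simp [h2]

end Cfsg.Agent.Lib.Helper23To
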