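import Cfsg.Agent.Lib.Helper23To7

set_option autoImplicit false
set_option linter.unusedSectionVars false
set_option linter.unusedVariables false

/-! More rules for the vanishing of commutators of lifts of commuting root elements. -/

namespace Cfsg.Agent.Lib.Helper23To

open Subgroup Cfsg.Lie Cfsg.Lie.ChevalleyDatum Cfsg.Agent.Lib.Helper22ChevBasic Cfsg.Agent.Lib.Helper23Grp
  Cfsg.Agent.Lib.Helper23St Cfsg.Agent.Lib.Helper23Un
open scoped commutatorElement

variable {D : ChevalleyDatum} (hD : Std D) {K : Type*} [Field K] {E : Type*} [Group E]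
  {π : E →* ↥(D.group K)} (hπ : Function.Surjective π) (hc : π.ker ≤ center E)

include hc in
/-- a torus element centralising `X_r` and acting non-trivially on `X_s` -/
theorem br_of_torus {r s : ℕ} (hr : r < D.nroots) (hs : s < D.nroots)
    (hcm : ∀ t u : K, xq hD r t * xq hD s u = xq hD s u * xq hD r t)
    (c : Fin D.rank → Kˣ) (h1 : chi c r = 1) (h2 : chi c s ≠ 1) : ∀ t u : K, br hπ (xq hD r t) (xq hD s u) = 1 := by
  have cm1 : ∀ t u : K, ⁅xq hD r t, xq hD s u⁆ = 1 := fun t u => commutatorElement_eq_one_iff_mul_comm.2 (hcm t u)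
  have hadd : ∀ t u u' : K, br hπ (xq hD r t) (xq hD s (u + u')) =
      br hπ (xq hD r t) (xq hD s u) * br hπ (xq hD r t) (xq hD s u') := by
    intro t u u'
    rw [← xq_add, br_mul_right hπ hc (by rw [cm1]; exact br_one hπ hc _)]
  have hinv : ∀ t u : K, br hπ (xq hD r t) (xq hD s (chi c s * u)) = br hπ (xq hD r t) (xq hD s u) := by
    intro t u
    obtain ⟨g, hg⟩ := hπ (tq hD c)
    have k := br_conj hπ hc g (xq hD r t) (xq hD s u)
    rw [hg, tq_conj hD _ hr, tq_conj hD _ hs, h1, one_mul] at k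
    rw [← k, (mem_center_iff.1 (br_mem_center hπ hc (hcm t u))) g, mul_inv_cancel_right]
  intro t u
  have hl : chi c s - 1 ≠ 0 := sub_ne_zero.2 h2
  have k := hinv t (u / (chi c s - 1))
  have e : chi c s * (u / (chi c s - 1)) = u + u / (chi c s - 1) := by field_simp; ring
  rw [e, hadd] at k
  exact mul_eq_right.1 k

theorem xq_commute_of_zero {r s c : ℕ} {e : ℤ} {i j : ℕ} (hr : r < D.nroots) (hs : s < D.nroots) (h1 : s ≠ r)
    (h2 : s ≠ D.neg r) (h0 : D.commTerms r s = [(c, e, i, j)]) (he : (e : K) = 0) (t u : K) :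
    xq hD r t * xq hD s u = xq hD s u * xq hD r t := by
  have := xq_comm hD hr hs h1 h2 t u
  unfold commWord at this
  rw [h0] at this
  simp only [List.map_cons, List.map_nil, List.prod_cons, List.prod_nil, mul_one, he, zero_mul, xq_zero] at this
  exact this.symm

include hc in
/-- two-term commutator formula, the second term being the target -/
theorem br_of_dec2 {r s p a b : ℕ} {e1 e2 : ℤ} {j : ℕ} (ha : a < D.nroots) (hb : b < D.nroots) (h1 : b ≠ a)
    (h2 : b ≠ D.neg a) (h0 : D.commTerms a b = [(p, e1, 1, 1), (s, e2, 1, j)]) (he : (e2 : K) ≠ 0)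
    (ca : ∀ t u : K, xq hD r t * xq hD a u = xq hD a u * xq hD r t)
    (cb : ∀ t u : K, xq hD r t * xq hD b u = xq hD b u * xq hD r t)
    (cs : ∀ t u : K, xq hD r t * xq hD s u = xq hD s u * xq hD r t)
    (hp : ∀ t u : K, br hπ (xq hD r t) (xq hD p u) = 1) :
    ∀ t u : K, br hπ (xq hD r t) (xq hD s u) = 1 := by
  intro t u
  have h := xq_comm hD ha hb h1 h2 (-(u / (e2 : K))) 1
  unfold commWord at h
  rw [h0] at h
  simp only [List.map_cons, List.map_nil, List.prod_cons, List.prod_nil, mul_one, pow_one, neg_neg, one_pow] at h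
  rw [mul_div_cancel₀ _ he] at h
  have e1' : xq hD p ((e1 : K) * (u / (e2 : K))) * xq hD s u =
      ⁅(xq hD b (1 : K))⁻¹, (xq hD a (-(u / (e2 : K))))⁻¹⁆ := by
    rw [commutatorElement_def, inv_inv, inv_inv, mul_assoc _ (xq hD b 1), h]
    group
  have k : br hπ (xq hD r t) (xq hD p ((e1 : K) * (u / (e2 : K))) * xq hD s u) = 1 := by
    rw [e1', xq_inv, xq_inv]
    exact br_comm_eq_one hπ hc (cb _ _) (ca _ _)
  rw [br_mul_right hπ hc (by
    rw [commutatorElement_eq_one_iff_mul_comm.2 (cs _ _)]; exact br_one hπ hc _), hp, one_mul] at k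
  exact k

include hc in
/-- two-term commutator formula, the first term being the target -/
theorem br_of_dec2' {r s p a b : ℕ} {e1 e2 : ℤ} {j : ℕ} (ha : a < D.nroots) (hb : b < D.nroots) (h1 : b ≠ a)
    (h2 : b ≠ D.neg a) (h0 : D.commTerms a b = [(s, e1, 1, 1), (p, e2, 1, j)]) (he : (e1 : K) ≠ 0)
    (ca : ∀ t u : K, xq hD r t * xq hD a u = xq hD a u * xq hD r t)
    (cb : ∀ t u : K, xq hD r t * xq hD b u = xq hD b u * xq hD r t)
    (cp : ∀ t u : K, xq hD r t * xq hD p u = xq hD p u * xq hD r t)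
    (hp : ∀ t u : K, br hπ (xq hD r t) (xq hD p u) = 1) :
    ∀ t u : K, br hπ (xq hD r t) (xq hD s u) = 1 := by
  intro t u
  have h := xq_comm hD ha hb h1 h2 (-(u / (e1 : K))) 1
  unfold commWord at h
  rw [h0] at h
  simp only [List.map_cons, List.map_nil, List.prod_cons, List.prod_nil, mul_one, pow_one, neg_neg, one_pow] at h
  rw [mul_div_cancel₀ _ he] at h
  have e1' : xq hD s u * xq hD p ((e2 : K) * (u / (e1 : K))) =
      ⁅(xq hD b (1 : K))⁻¹, (xq hD a (-(u / (e1 : K))))⁻¹⁆ := by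
    rw [commutatorElement_def, inv_inv, inv_inv, mul_assoc _ (xq hD b 1), h]
    group
  have k : br hπ (xq hD r t) (xq hD s u * xq hD p ((e2 : K) * (u / (e1 : K)))) = 1 := by
    rw [e1', xq_inv, xq_inv]
    exact br_comm_eq_one hπ hc (cb _ _) (ca _ _)
  rw [br_mul_right hπ hc (by
    rw [commutatorElement_eq_one_iff_mul_comm.2 (cp _ _)]; exact br_one hπ hc _), hp, mul_one] at k
  exact k

end Cfsg.Agent.Lib.Helper23To
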