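import Cfsg.Agent.Lib.Helper23To8

set_option autoImplicit false
set_option linter.unusedSectionVars false
set_option linter.unusedVariables false

/-! Certificates for the rules with two-term commutator formulas (type B2). -/

namespace Cfsg.Agent.Lib.Helper23To

open Subgroup Cfsg.Lie Cfsg.Lie.ChevalleyDatum Cfsg.Agent.Lib.Helper22ChevBasic Cfsg.Agent.Lib.Helper23Grp
  Cfsg.Agent.Lib.Helper23St Cfsg.Agent.Lib.Helper23Un
open scoped commutatorElement

def CommNil (D : ChevalleyDatum) (r a : ℕ) : Prop := a < D.nroots ∧ a ≠ r ∧ a ≠ D.neg r ∧ D.commTerms r a = []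

instance (D : ChevalleyDatum) (r a : ℕ) : Decidable (CommNil D r a) := by unfold CommNil; infer_instance

structure Dec2 where
  a : ℕ
  b : ℕ
  p : ℕ
  e1 : ℤ
  e2 : ℤ
  c : ℕ
  e : ℤ
  mu : List ℤ

/-- the root `r` is the second term of the commutator formula of `a`, `b` -/
def LongOK (D : ChevalleyDatum) (M : List ℕ) (r : ℕ) (d : Dec2) : Prop :=
  CommNil D r d.a ∧ CommNil D r d.b ∧ CommNil D r d.p ∧ d.b ≠ d.a ∧ d.b ≠ D.neg d.a ∧
  D.commTerms d.a d.b = [(d.p, d.e1, 1, 1), (r, d.e2, 1, 2)] ∧ d.e2.natAbs ∈ [1] ∧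
  pairL D d.mu r = 0 ∧ (pairL D d.mu d.p).natAbs ∈ M

instance (D : ChevalleyDatum) (M : List ℕ) (r : ℕ) (d : Dec2) : Decidable (LongOK D M r d) := by
  unfold LongOK; infer_instance

/-- the root `r` is the first term of the commutator formula of `a`, `b`; it commutes with `b` in characteristic two -/
def ShortOK (D : ChevalleyDatum) (M : List ℕ) (r : ℕ) (d : Dec2) : Prop :=
  CommNil D r d.a ∧ d.b < D.nroots ∧ d.b ≠ r ∧ d.b ≠ D.neg r ∧ D.commTerms r d.b = [(d.c, d.e, 1, 1)] ∧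
  d.e.natAbs = 2 ∧ CommNil D r d.p ∧ d.b ≠ d.a ∧ d.b ≠ D.neg d.a ∧
  D.commTerms d.a d.b = [(r, d.e1, 1, 1), (d.p, d.e2, 1, 2)] ∧ d.e1.natAbs ∈ [1] ∧
  pairL D d.mu r = 0 ∧ (pairL D d.mu d.p).natAbs ∈ M

instance (D : ChevalleyDatum) (M : List ℕ) (r : ℕ) (d : Dec2) : Decidable (ShortOK D M r d) := by
  unfold ShortOK; infer_instance

variable {D : ChevalleyDatum} (hD : Std D) {K : Type*} [Field K] {E : Type*} [Group E]
  {π : E →* ↥(D.group K)} (hπ : Function.Surjective π) (hc : π.ker ≤ center E)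

theorem CommNil.comm {r a : ℕ} (hr : r < D.nroots) (h : CommNil D r a) (t u : K) :
    xq hD r t * xq hD a u = xq hD a u * xq hD r t :=
  xq_commute_of_nil hD hr h.1 h.2.1 h.2.2.1 h.2.2.2 t u

include hc in
theorem br_of_mu {M : List ℕ} (hM : ∀ m : ℤ, m.natAbs ∈ M → ∃ v : Kˣ, v ^ m ≠ 1) {r s : ℕ} (hr : r < D.nroots)
    (hs : s < D.nroots) (hcm : ∀ t u : K, xq hD r t * xq hD s u = xq hD s u * xq hD r t) (mu : List ℤ)
    (h1 : pairL D mu r = 0) (h2 : (pairL D mu s).natAbs ∈ M) : ∀ t u : K, br hπ (xq hD r t) (xq hD s u) = 1 := by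
  obtain ⟨v, hv⟩ := hM _ h2
  refine br_of_torus hD hπ hc hr hs hcm (cpow (D := D) v (fun i => mu.getD i.val 0)) ?_ ?_
  · rw [chi_mu _ _ hr, h1, zpow_zero, Units.val_one]
  · rw [chi_mu _ _ hs]
    intro e
    exact hv (Units.ext e)

include hc in
theorem self_of_LongOK {M : List ℕ} (hM : ∀ m : ℤ, m.natAbs ∈ M → ∃ v : Kˣ, v ^ m ≠ 1) {r : ℕ} (hr : r < D.nroots)
    {d : Dec2} (h : LongOK D M r d) : ∀ t u : K, br hπ (xq hD r t) (xq hD r u) = 1 := by
  obtain ⟨h1, h2, h3, h4, h5, h6, h7, h8, h9⟩ := h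
  exact br_of_dec2 hD hπ hc h1.1 h2.1 h4 h5 h6 (one_ne h7) (h1.comm hD hr) (h2.comm hD hr)
    (fun t u => by rw [xq_add, xq_add, add_comm])
    (br_of_mu hD hπ hc hM hr h3.1 (h3.comm hD hr) d.mu h8 h9)

include hc in
theorem self_of_ShortOK (h20 : (2 : K) = 0) {M : List ℕ} (hM : ∀ m : ℤ, m.natAbs ∈ M → ∃ v : Kˣ, v ^ m ≠ 1) {r : ℕ}
    (hr : r < D.nroots) {d : Dec2} (h : ShortOK D M r d) : ∀ t u : K, br hπ (xq hD r t) (xq hD r u) = 1 := by
  obtain ⟨h1, h2, h3, h4, h5, h6, h7, h8, h9, h10, h11, h12, h13⟩ := h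
  have he : (d.e : K) = 0 := by
    rcases Int.natAbs_eq d.e with e | e <;> rw [e, h6] <;> simp [h20]
  exact br_of_dec2' hD hπ hc h1.1 h2 h8 h9 h10 (one_ne h11) (h1.comm hD hr)
    (xq_commute_of_zero hD hr h2 h3 h4 h5 he) (h7.comm hD hr)
    (br_of_mu hD hπ hc hM hr h7.1 (h7.comm hD hr) d.mu h12 h13)

/-- a field of characteristic not two with more than three elements has more than four -/
theorem card_gt_four (h2 : (2 : K) ≠ 0) (hK : ∃ s : Finset K, 3 < s.card) : ∃ s : Finset K, 4 < s.card := by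
  classical
  obtain ⟨s, hs⟩ := hK
  have : ({0, 1, -1} : Finset K).card < s.card := lt_of_le_of_lt Finset.card_le_three hs
  obtain ⟨x, _, hx⟩ := Finset.exists_mem_notMem_of_card_lt_card this
  simp only [Finset.mem_insert, Finset.mem_singleton, not_or] at hx
  obtain ⟨x0, x1, x2⟩ := hx
  have n1 : (1 : K) ≠ -1 := by
    intro e
    apply h2
    linear_combination e
  have n2 : x ≠ -x := by
    intro e
    have : 2 * x = 0 := by linear_combination e
    rcases mul_eq_zero.1 this with h | h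
    · exact h2 h
    · exact x0 h
  refine ⟨{0, 1, -1, x, -x}, ?_⟩
  have a4 : x ∉ ({-x} : Finset K) := by simpa using n2
  have a3 : (-1 : K) ∉ ({x, -x} : Finset K) := by
    simp only [Finset.mem_insert, Finset.mem_singleton, not_or]
    exact ⟨fun e => x2 e.symm, fun e => x1 (by linear_combination e)⟩
  have a2 : (1 : K) ∉ ({-1, x, -x} : Finset K) := by
    simp only [Finset.mem_insert, Finset.mem_singleton, not_or]
    exact ⟨n1, fun e => x1 e.symm, fun e => x2 (by linear_combination e)⟩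
  have a1 : (0 : K) ∉ ({1, -1, x, -x} : Finset K) := by
    simp only [Finset.mem_insert, Finset.mem_singleton, not_or]
    exact ⟨zero_ne_one, fun e => one_ne_zero (by linear_combination e), fun e => x0 e.symm,
      fun e => x0 (by linear_combination e)⟩
  rw [Finset.card_insert_of_notMem a1, Finset.card_insert_of_notMem a2, Finset.card_insert_of_notMem a3,
    Finset.card_insert_of_notMem a4, Finset.card_singleton]
  norm_num

end Cfsg.Agent.Lib.Helper23To
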