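import Cfsg.Agent.Lib.Helper23To9

set_option autoImplicit false
set_option maxRecDepth 1000000

/-! Certificates for type B2 (fields with more than three elements). -/

namespace Cfsg.Agent.Lib.Helper23ToB2

open Subgroup Cfsg.Lie Cfsg.Agent.Lib.Helper23To Cfsg.Agent.Lib.Helper22ChevBasic

def tblL : List (List Cert) := [
  [⟨[], [], []⟩, ⟨[0, -1], [], [0, 1]⟩, ⟨[0, -1], [], [0]⟩, ⟨[0, -1], [], [1]⟩, ⟨[0, -1], [], []⟩, ⟨[0, -1], [1, 3], [1, 0, 1]⟩, ⟨[0, -1], [2, 4], [1, 0]⟩, ⟨[], [], []⟩],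
  [⟨[-1, 0], [], [1, 0]⟩, ⟨[], [], []⟩, ⟨[-1, 0], [0], [0, 1, 0]⟩, ⟨[-1, 0], [], [1]⟩, ⟨[-1, 0], [2, 0], [0, 1, 0]⟩, ⟨[-1, 0], [3], [0, 1]⟩, ⟨[], [], []⟩, ⟨[-1, 0], [5, 3], [0, 1]⟩],
  [⟨[-1, -2], [], [1, 0]⟩, ⟨[-1, -2], [0], [0, 1, 0]⟩, ⟨[], [], []⟩, ⟨[-1, -2], [1, 0], [1, 0, 1, 0]⟩, ⟨[-1, -2], [], []⟩, ⟨[], [], []⟩, ⟨[-1, -2], [4], [0]⟩, ⟨[-1, -2], [6, 4], [0]⟩],
  [⟨[-1, -1], [], [1, 0]⟩, ⟨[-1, -1], [], [0, 1]⟩, ⟨[-1, -1], [1, 0], [1, 0, 1, 0]⟩, ⟨[], [], []⟩, ⟨[], [], []⟩, ⟨[-1, -1], [], []⟩, ⟨[-1, -1], [5, 7], [1]⟩, ⟨[-1, -1], [], []⟩],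
  [⟨[-1, -1], [], [1, 0]⟩, ⟨[-1, -1], [2, 0], [0, 1, 0]⟩, ⟨[-1, -1], [], [0]⟩, ⟨[], [], []⟩, ⟨[], [], []⟩, ⟨[-1, -1], [6, 7], []⟩, ⟨[-1, -1], [], []⟩, ⟨[-1, -1], [], []⟩],
  [⟨[-1, -2], [1, 3], [1, 0, 1]⟩, ⟨[-1, -2], [3], [0, 1]⟩, ⟨[], [], []⟩, ⟨[-1, -2], [], [1]⟩, ⟨[-1, -2], [6, 7], []⟩, ⟨[], [], []⟩, ⟨[-1, -2], [7], []⟩, ⟨[-1, -2], [], []⟩],
  [⟨[-1, 0], [2, 4], [1, 0]⟩, ⟨[], [], []⟩, ⟨[-1, 0], [4], [0]⟩, ⟨[-1, 0], [5, 7], [1]⟩, ⟨[-1, 0], [], []⟩, ⟨[-1, 0], [7], []⟩, ⟨[], [], []⟩, ⟨[-1, 0], [], []⟩],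
  [⟨[], [], []⟩, ⟨[0, -1], [5, 3], [0, 1]⟩, ⟨[0, -1], [6, 4], [0]⟩, ⟨[0, -1], [], [1]⟩, ⟨[0, -1], [], []⟩, ⟨[0, -1], [], []⟩, ⟨[0, -1], [], []⟩, ⟨[], [], []⟩]]

def tbl (r s : ℕ) : Cert := (tblL.getD r []).getD s ⟨[], [], []⟩

def mu1L : List (List ℤ) := [[-1, 0], [0, -1], [0, 1], [0, -1], [-1, 0], [0, -1], [0, 1], [1, 0]]

def mu1 (r : ℕ) : List ℤ := mu1L.getD r []

def decL : List Dec2 := [⟨3, 2, 1, -1, -1, 0, 0, [0, -1]⟩, ⟨0, 5, 3, 1, -1, 3, -2, [-1, 0]⟩, ⟨0, 6, 4, -1, 1, 4, -2, [-1, -2]⟩, ⟨0, 5, 1, 1, -1, 0, 0, [-1, -1]⟩, ⟨0, 6, 2, -1, 1, 0, 0, [-1, -1]⟩, ⟨3, 6, 7, 1, 1, 7, 2, [-1, -2]⟩, ⟨4, 5, 7, 1, -1, 7, -2, [-1, 0]⟩, ⟨3, 6, 5, 1, 1, 0, 0, [0, -1]⟩]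

def dec (r : ℕ) : Dec2 := decL.getD r ⟨0, 0, 0, 0, 0, 0, 0, []⟩

theorem ok : ∀ r < chevB2.nroots, ∀ s < chevB2.nroots, s ≠ r → s ≠ chevB2.neg r →
    CertOK chevB2 [1, 2] r s (tbl r s) := by decide +kernel

theorem ok1 : ∀ r < chevB2.nroots, (pairL chevB2 (mu1 r) r).natAbs ∈ [1, 2] := by decide +kernel

def SelfOK (r : ℕ) : Prop :=
  LongOK chevB2 [1, 2] r (dec r) ∨ (ShortOK chevB2 [1, 2] r (dec r) ∧ pairL chevB2 (mu1 r) r = 1)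

instance (r : ℕ) : Decidable (SelfOK r) := by unfold SelfOK; infer_instance

theorem oks : ∀ r < chevB2.nroots, SelfOK r := by decide +kernel

theorem hD : Std chevB2 := by simp [Std]

theorem lift {K : Type*} [Field K] (hK : ∃ s : Finset K, 3 < s.card) {E : Type*} [Group E]
    {π : E →* ↥(chevB2.group K)} (hπ : Function.Surjective π) (hc : π.ker ≤ center E) :
    ∃ τ : chevB2.SteinbergCover K →* E, ∀ r t, r < chevB2.nroots → π (τ (chevB2.scGen K r t)) = xq hD r t := by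
  have hM : ∀ m : ℤ, m.natAbs ∈ [1, 2] → ∃ v : Kˣ, v ^ m ≠ 1 := by
    intro m hm
    apply exists_unit_pow_ne (N := 2) hK m
    · rintro rfl; simp at hm
    · simp only [List.mem_cons, List.not_mem_nil, or_false] at hm
      omega
  refine lift_main hD hπ hc [1, 2] hM mu1 ok1 ?_ tbl (fun r s hr hs h1 h2 => Or.inr (ok r hr s hs h1 h2))
  intro r hr
  rcases oks r hr with h | ⟨h, h'⟩
  · exact self_of_LongOK hD hπ hc hM hr h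
  · by_cases h2 : (2 : K) = 0
    · exact self_of_ShortOK hD hπ hc h2 hM hr h
    · exact self_of_torus hD hπ hc (card_gt_four h2 hK) hr (mu1 r) h'

end Cfsg.Agent.Lib.Helper23ToB2
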