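import Cfsg.Agent.Lib.Helper23To16
import Cfsg.Agent.Lib.Helper23ToG2

set_option autoImplicit false
set_option maxRecDepth 1000000

/-! Certificates for central extensions whose kernel has no element of order `p` (types D4, F4, G2). -/

namespace Cfsg.Agent.Lib.Helper23ToP

open Subgroup Cfsg.Lie Cfsg.Agent.Lib.Helper23To Cfsg.Agent.Lib.Helper22ChevBasic

def decD4L : List (ℕ × ℕ × ℤ) := [(1, 9, 1), (0, 14, 1), (0, 15, -1), (0, 16, -1), (0, 17, 1), (1, 17, 1), (0, 19, -1), (0, 20, 1), (0, 21, 1), (0, 22, -1), (1, 20, -1), (1, 21, -1), (2, 22, -1), (3, 22, -1), (1, 23, -1), (2, 23, 1), (3, 23, 1), (4, 23, -1), (6, 22, 1), (6, 23, 1), (7, 23, -1), (8, 23, -1), (9, 23, 1), (14, 22, 1)]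

def decD4 (r : ℕ) : ℕ × ℕ × ℤ := decD4L.getD r (0, 0, 0)

def decF4L : List (ℕ × ℕ × ℤ) := [(1, 23, 1), (0, 24, 1), (0, 26, 1), (7, 14, 1), (0, 31, -1), (0, 32, 1), (1, 32, 1), (3, 33, 1), (3, 34, 1), (3, 35, -1), (3, 36, 1), (3, 37, -1), (3, 38, 1), (3, 39, -1), (3, 40, -1), (0, 42, -1), (0, 43, 1), (1, 43, 1), (7, 37, -1), (7, 38, 1), (7, 39, -1), (0, 45, -1), (1, 45, -1), (0, 46, -1), (1, 47, -1), (2, 46, -1), (2, 47, -1), (8, 40, -1), (9, 40, 1), (10, 40, -1), (4, 46, 1), (4, 47, 1), (5, 47, -1), (7, 44, -1), (8, 44, -1), (9, 44, 1), (10, 44, -1), (11, 44, 1), (12, 44, -1), (13, 44, 1), (14, 44, 1), (15, 46, 1), (15, 47, 1), (16, 47, -1), (33, 40, 1), (21, 47, 1), (23, 47, 1), (24, 46, 1)]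

def decF4 (r : ℕ) : ℕ × ℕ × ℤ := decF4L.getD r (0, 0, 0)

theorem decD4_ok : ∀ r, r < chevD4.nroots → DecP chevD4 r (decD4 r) := by decide +kernel

theorem decF4_ok : ∀ r, r < chevF4.nroots → DecP chevF4 r (decF4 r) := by decide +kernel

theorem uniqD4 : ∀ r < chevD4.nroots, ∀ s < chevD4.nroots, s ≠ r → s ≠ chevD4.neg r → UniqOK chevD4 r s := by
  decide +kernel

theorem uniqF4 : ∀ r < chevF4.nroots, ∀ s < chevF4.nroots, s ≠ r → s ≠ chevF4.neg r → UniqOK chevF4 r s := by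
  decide +kernel

theorem g2_odd : ∀ r < chevG2.nroots, ∀ s < chevG2.nroots, s ≠ r → s ≠ chevG2.neg r →
    UniqOK chevG2 r s ∨ CertOK chevG2 [1, 3] r s (Helper23ToG2.tbl r s) := by decide +kernel

theorem g2_four : ∀ r < chevG2.nroots, ∀ s < chevG2.nroots, s ≠ r → s ≠ chevG2.neg r →
    UniqOK chevG2 r s ∨ CertOK chevG2 [1, 2] r s (Helper23ToG2.tbl r s) := by decide +kernel

theorem hD4 : Std chevD4 := by simp [Std]
theorem hF4 : Std chevF4 := by simp [Std]

variable {K : Type*} [Field K] {E : Type*} [Group E] {p : ℕ} (hp : (p : K) = 0)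

include hp

theorem liftD4 {π : E →* ↥(chevD4.group K)} (hπ : Function.Surjective π) (hc : π.ker ≤ center E)
    (hA : ∀ z ∈ π.ker, z ^ p = 1 → z = 1) :
    ∃ τ : chevD4.SteinbergCover K →* E, ∀ r t, r < chevD4.nroots → π (τ (chevD4.scGen K r t)) = xq hD4 r t :=
  lift_commP hD4 hπ hc hp hA decD4 decD4_ok (fun r s hr hs h1 h2 => uniqD4 r hr s hs h1 h2)

theorem liftF4 {π : E →* ↥(chevF4.group K)} (hπ : Function.Surjective π) (hc : π.ker ≤ center E)
    (hA : ∀ z ∈ π.ker, z ^ p = 1 → z = 1) :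
    ∃ τ : chevF4.SteinbergCover K →* E, ∀ r t, r < chevF4.nroots → π (τ (chevF4.scGen K r t)) = xq hF4 r t :=
  lift_commP hF4 hπ hc hp hA decF4 decF4_ok (fun r s hr hs h1 h2 => uniqF4 r hr s hs h1 h2)

theorem liftG2_odd (h2 : (2 : K) ≠ 0) {π : E →* ↥(chevG2.group K)} (hπ : Function.Surjective π)
    (hc : π.ker ≤ center E) (hA : ∀ z ∈ π.ker, z ^ p = 1 → z = 1) :
    ∃ τ : chevG2.SteinbergCover K →* E,
      ∀ r t, r < chevG2.nroots → π (τ (chevG2.scGen K r t)) = xq Helper23ToG2.hD r t := by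
  refine lift_mainP Helper23ToG2.hD hπ hc hp hA [1, 3] ?_ Helper23ToG2.mu1
    (fun r hr => by rw [Helper23ToG2.ok1 r hr]; decide) Helper23ToG2.tbl
    (fun r s hr hs h1 h2 => g2_odd r hr s hs h1 h2)
  intro m hm
  have n1 : (-1 : Kˣ) ≠ 1 := by
    intro e
    have := congrArg Units.val e
    simp only [Units.val_neg, Units.val_one] at this
    apply h2
    linear_combination -this
  refine ⟨-1, ?_⟩
  have hodd : Odd m := by
    simp only [List.mem_cons, List.not_mem_nil, or_false] at hm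
    rw [← Int.natAbs_odd]
    rcases hm with h | h <;> rw [h] <;> decide
  rw [hodd.neg_one_zpow]
  exact n1

theorem liftG2_four (hK : ∃ s : Finset K, 3 < s.card) {π : E →* ↥(chevG2.group K)} (hπ : Function.Surjective π)
    (hc : π.ker ≤ center E) (hA : ∀ z ∈ π.ker, z ^ p = 1 → z = 1) :
    ∃ τ : chevG2.SteinbergCover K →* E,
      ∀ r t, r < chevG2.nroots → π (τ (chevG2.scGen K r t)) = xq Helper23ToG2.hD r t := by
  refine lift_mainP Helper23ToG2.hD hπ hc hp hA [1, 2] ?_ Helper23ToG2.mu1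
    (fun r hr => by rw [Helper23ToG2.ok1 r hr]; decide) Helper23ToG2.tbl
    (fun r s hr hs h1 h2 => g2_four r hr s hs h1 h2)
  intro m hm
  apply exists_unit_pow_ne (N := 2) hK m
  · rintro rfl; simp at hm
  · simp only [List.mem_cons, List.not_mem_nil, or_false] at hm
    omega

end Cfsg.Agent.Lib.Helper23ToP
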