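import Mathlib
import Cfsg.Agent.Lib.Helper30Trans
import Cfsg.Prelude.Def_OddOrderLocal

/-!
PROJECT 1436 (B-G 14.13(a), 14.4(d)): vocabulary.  `Sup M x N p A`: the configuration of B-G Theorem 14.4:
`x ∈ M_σ#`, `C(x) ≤ N`, `C(x) ⊄ M`, `p ∈ σ(M) ∩ τ₂(N)`, `M ∩ N` a complement of `N_σ` in `N`,
`A ≤ M ∩ N` elementary abelian of order `p ^ 2`.
-/

set_option autoImplicit false

namespace Cfsg.Agent.Lib.Helper24BG1436Defs

open Cfsg Subgroup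
open Cfsg.Agent.Lib.Helper30Trans

structure Sup {G : Type*} [Group G] (M : Subgroup G) (x : G) (N : Subgroup G) (p : ℕ)
    (A : Subgroup G) : Prop where
  hM : IsCoatom M
  hN : IsCoatom N
  hx : x ∈ sigmaCore M
  hx1 : x ≠ 1
  hC : centralizer ({x} : Set G) ≤ N
  hnot : ¬ centralizer ({x} : Set G) ≤ M
  pσ : p ∈ sigma M
  pτ : p ∈ tau2 N
  compl : IsComplIn (M ⊓ N) (sigmaCore N) N
  inf : sigmaCore N ⊓ M = ⊥
  nconj : ∀ g : G, N ≠ cj g M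
  disj : ∀ r : ℕ, r ∈ sigma M → r ∉ sigma N
  hA : A ≤ M ⊓ N
  hAe : IsElementaryAbelian p A
  hA2 : Nat.card A = p ^ 2

end Cfsg.Agent.Lib.Helper24BG1436Defs
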