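import Mathlib
import Cfsg.Prelude.Def_LieRecognition
import Cfsg.Agent.Lib.Helper24Invert

set_option autoImplicit false

namespace Cfsg.Agent.Lib.Helper24FourGroup

open Cfsg.Agent.Lib.Helper24Invert

/-- A four-group `⟨x, y⟩` acting on a subgroup `N` of odd order: `N` is generated by the
centralisers of the three involutions (stated as: any subgroup containing them contains `N`). -/
theorem four_group_le {M : Type*} [Group M] {N H : Subgroup M} {x y : M}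
    (hx : x * x = 1) (hy : y * y = 1) (hxy : x * y = y * x)
    (hodd : ∀ n ∈ N, Odd (orderOf n))
    (hNx : ∀ n ∈ N, x * n * x⁻¹ ∈ N) (hNy : ∀ n ∈ N, y * n * y⁻¹ ∈ N)
    (h1 : ∀ n ∈ N, x * n * x⁻¹ = n → n ∈ H)
    (h2 : ∀ n ∈ N, y * n * y⁻¹ = n → n ∈ H)
    (h3 : ∀ n ∈ N, (x * y) * n * (x * y)⁻¹ = n → n ∈ H) : N ≤ H := by
  intro n hn
  obtain ⟨c₁, i₁, hc₁N, hc₁, hi₁, rfl⟩ := factor_exists hx hodd hNx hn
  refine H.mul_mem (h1 c₁ hc₁N hc₁) ?_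
  obtain ⟨c, i, hcN, hc, hi, hci⟩ := factor_exists hy hodd hNy hi₁.1
  have hswap : ∀ w : M, y * (x * w * x⁻¹) * y⁻¹ = x * (y * w * y⁻¹) * x⁻¹ := by
    intro w
    have e1 : y * (x * w * x⁻¹) * y⁻¹ = (y * x) * w * (y * x)⁻¹ := by group
    have e2 : x * (y * w * y⁻¹) * x⁻¹ = (x * y) * w * (x * y)⁻¹ := by group
    rw [e1, e2, hxy]
  have key := factor_unique (X := N) (t := y) hodd (y := x * c * x⁻¹) (z := x * i * x⁻¹)
    (y' := c⁻¹) (z' := c * i⁻¹ * c⁻¹)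
    (by rw [hswap, hc])
    ⟨hNx i hi.1, by rw [hswap, hi.2]; group⟩
    (by rw [← conj_inv, hc])
    ⟨N.mul_mem (N.mul_mem hcN (N.inv_mem hi.1)) (N.inv_mem hcN), by
      have : y * (c * i⁻¹ * c⁻¹) * y⁻¹ = (y * c * y⁻¹) * (y * i * y⁻¹)⁻¹ * (y * c * y⁻¹)⁻¹ := by
        group
      rw [this, hc, hi.2]; group⟩
    (by
      have : x * c * x⁻¹ * (x * i * x⁻¹) = x * (c * i) * x⁻¹ := by group
      rw [this, ← hci, hi₁.2, hci]; group)
  obtain ⟨hxc, hxi⟩ := key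
  obtain ⟨m, hm⟩ := sqrt_exists (hodd c hcN)
  set d := c ^ m with hd
  have hdN : d ∈ N := N.pow_mem hcN m
  have hyd : y * d * y⁻¹ = d := by rw [hd, ← conj_pow, hc]
  have hxd : x * d * x⁻¹ = d⁻¹ := by rw [hd, ← conj_pow, hxc, inv_pow]
  have hj : (x * y) * (d * i * d⁻¹) * (x * y)⁻¹ = d * i * d⁻¹ := by
    have e1 : (x * y) * (d * i * d⁻¹) * (x * y)⁻¹ =
        x * ((y * d * y⁻¹) * (y * i * y⁻¹) * (y * d * y⁻¹)⁻¹) * x⁻¹ := by group
    rw [e1, hyd, hi.2]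
    have e2 : x * (d * i⁻¹ * d⁻¹) * x⁻¹ = (x * d * x⁻¹) * (x * i * x⁻¹)⁻¹ * (x * d * x⁻¹)⁻¹ := by
      group
    rw [e2, hxd, hxi, ← hm]; group
  have hjH : d * i * d⁻¹ ∈ H :=
    h3 _ (N.mul_mem (N.mul_mem hdN hi.1) (N.inv_mem hdN)) hj
  have hdH : d ∈ H := h2 d hdN hyd
  have hiH : i ∈ H := by
    have : i = d⁻¹ * (d * i * d⁻¹) * d := by group
    rw [this]
    exact H.mul_mem (H.mul_mem (H.inv_mem hdH) hjH) hdH
  rw [hci]
  exact H.mul_mem (h2 c hcN hc) hiH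

end Cfsg.Agent.Lib.Helper24FourGroup
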