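import Mathlib
import Cfsg.Agent.Lib.Helper84BGFrobact

/-!
A variant of the Frobenius action lemma (`Helper84BGFrobact.frob_act`): `R` of prime order acts
fixed-point-freely on `K`; `K R` acts on the solvable group `V` of coprime order; if every fixed point
of `R` on `V` is centralized by `K`, then `K` centralizes `V`.
-/

set_option autoImplicit false

namespace Cfsg.Agent.Lib.Helper24Frob

open Subgroup
open Cfsg.Agent.Lib.Helper84BGFrobact

variable {X : Type*} [Group X] [Finite X]

theorem frob_fix_aux {K R : Subgroup X} (hRK : R ≤ normalizer (K : Set X))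
    (hR : (Nat.card R).Prime) (hregK : K ⊓ centralizer (R : Set X) = ⊥) :
    ∀ (n : ℕ) (V : Subgroup X), Nat.card V ≤ n → Group.IsSolvable V →
      K ≤ normalizer (V : Set X) → R ≤ normalizer (V : Set X) →
      (Nat.card K).Coprime (Nat.card V) → (Nat.card R).Coprime (Nat.card V) →
      V ⊓ centralizer (R : Set X) ≤ centralizer (K : Set X) → K ≤ centralizer (V : Set X) := by
  intro n
  induction n with
  | zero =>
    intro V hn
    exact absurd hn (by have := Nat.card_pos (α := V); omega)
  | succ n ih =>
    intro V hn hV hKV hRV hcopK hcopR hregV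
    by_cases hV1 : V = ⊥
    · subst hV1
      intro k _
      rw [mem_centralizer_iff]
      intro v hv
      rw [SetLike.mem_coe, mem_bot] at hv
      subst hv
      simp
    set V' : Subgroup X := ⁅V, V⁆ with hV'
    have hlt : V' < V := by
      have : Nontrivial V := (nontrivial_iff_ne_bot V).2 hV1
      have h1 := Group.IsSolvable.commutator_lt_top_of_nontrivial V
      rw [hV', ← map_subtype_commutator]
      have h2 := (map_subtype_lt_map_subtype (G' := V)).2 h1
      rwa [← MonoidHom.range_eq_map, range_subtype] at h2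
    have hle : V' ≤ V := hlt.le
    have hcard : Nat.card V' ≤ n := by
      have := Set.ncard_lt_ncard (s := (V' : Set X)) (t := (V : Set X)) hlt (Set.toFinite _)
      rw [← Nat.card_coe_set_eq, ← Nat.card_coe_set_eq] at this
      have h2 : Nat.card V' < Nat.card V := this
      omega
    have hnorm : normalizer (V : Set X) ≤ normalizer (V' : Set X) := by
      intro g hg
      have hgV : ∀ v, v ∈ V → g * v * g⁻¹ ∈ V := fun v hv => (mem_normalizer_iff.1 hg v).1 hv
      have hgV' : ∀ v, v ∈ V → g⁻¹ * v * g ∈ V := by
        intro v hv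
        have := (mem_normalizer_iff.1 (inv_mem hg) v).1 hv
        simpa using this
      have key : ∀ g : X, (∀ v, v ∈ V → g * v * g⁻¹ ∈ V) → ∀ x ∈ V', g * x * g⁻¹ ∈ V' := by
        intro g hgV x hx
        have h1 : V'.map (MulAut.conj g).toMonoidHom ≤ V' := by
          rw [hV', map_commutator]
          apply commutator_mono <;>
          · rintro _ ⟨v, hv, rfl⟩
            exact hgV v hv
        exact h1 ⟨x, hx, rfl⟩
      rw [mem_normalizer_iff]
      intro x
      constructor
      · exact key g hgV x
      · intro hx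
        have := key g⁻¹ (by intro v hv; simpa using hgV' v hv) _ hx
        simpa [mul_assoc] using this
    have hdvd : Nat.card V' ∣ Nat.card V := card_dvd_of_le hle
    have hsolV' : Group.IsSolvable V' := by
      have : Group.IsSolvable (V'.subgroupOf V) := inferInstance
      exact Group.isSolvable_of_surjective (f := (subgroupOfEquivOfLe hle).toMonoidHom)
        (subgroupOfEquivOfLe hle).surjective
    have hKV' : K ≤ centralizer (V' : Set X) :=
      ih V' hcard hsolV' (hKV.trans hnorm) (hRV.trans hnorm) (hcopK.coprime_dvd_right hdvd)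
        (hcopR.coprime_dvd_right hdvd)
        ((inf_le_inf_right _ hle).trans hregV)
    -- the action on the abelianization
    set N : Subgroup X := normalizer (V : Set X) with hN
    let act : MulDistribMulAction N (Abelianization V) :=
      MulDistribMulAction.compHom _ (abHom.comp V.normalizerMonoidHom)
    have hsmul : ∀ (g : N) (v : V), g • (Abelianization.of v : Abelianization V)
        = Abelianization.of (⟨g * v * g⁻¹, (mem_normalizer_iff.1 g.2 v).1 v.2⟩ : V) := fun g v => rfl
    -- a generator of `R`
    have : Fact (Nat.card R).Prime := ⟨hR⟩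
    have : Nontrivial R := Finite.one_lt_card_iff_nontrivial.1 hR.one_lt
    obtain ⟨s₀, hs₀⟩ := exists_ne (1 : R)
    have hpow : ∀ r ∈ R, ∃ i : ℕ, (s₀ : X) ^ i = r := by
      intro r hr
      obtain ⟨i, hi⟩ := mem_powers_of_prime_card (G := R) rfl hs₀ (g' := ⟨r, hr⟩)
      exact ⟨i, congrArg Subtype.val hi⟩
    have hcent : ∀ x : X, (s₀ : X) * x * (s₀ : X)⁻¹ = x → x ∈ centralizer (R : Set X) := by
      intro x hx
      have hc : Commute (s₀ : X) x := mul_inv_eq_iff_eq_mul.1 hx
      rw [mem_centralizer_iff]
      intro r hr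
      obtain ⟨i, rfl⟩ := hpow r hr
      exact (hc.pow_left i).eq
    set s : N := ⟨s₀, hRV s₀.2⟩ with hs
    have hsp : s ^ Nat.card R = 1 := by
      apply Subtype.ext
      exact Cfsg.Agent.Lib.Helper30Coprime.pow_card_of_mem s₀.2
    have hcopA : (Nat.card (Abelianization V)).Coprime (Nat.card (K.subgroupOf N)) := by
      have h1 : Nat.card (Abelianization V) ∣ Nat.card V := card_quotient_dvd_card _
      have h2 : Nat.card (K.subgroupOf N) = Nat.card K :=
        Nat.card_congr (subgroupOfEquivOfLe hKV).toEquiv
      rw [h2]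
      exact (hcopK.coprime_dvd_right h1).symm
    have hsK : ∀ x ∈ K.subgroupOf N, s * x * s⁻¹ ∈ K.subgroupOf N := by
      intro x hx
      rw [mem_subgroupOf] at hx ⊢
      exact (mem_normalizer_iff.1 (hRK s₀.2) x).1 hx
    have hfix0 := Cfsg.Agent.Lib.Helper66Fpf2.frobP (V := Abelianization V) hR s hsp
      (K.subgroupOf N) hcopA hsK
      (by
        intro x hx hfx
        rw [mem_subgroupOf] at hx
        have h1 : (x : X) ∈ K ⊓ centralizer (R : Set X) :=
          ⟨hx, hcent x (congrArg Subtype.val hfx)⟩
        rw [hregK, mem_bot] at h1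
        exact Subtype.ext h1)
      (Cfsg.Agent.Lib.Helper66Fpf2.commV (Abelianization V) (K.subgroupOf N))
      (fun x hx v hv => Cfsg.Agent.Lib.Helper66Fpf2.smul_mem_commV
        (fun y hy => (K.subgroupOf N).mul_mem ((K.subgroupOf N).mul_mem hx hy)
          ((K.subgroupOf N).inv_mem hx)) v hv)
      (fun v hv => Cfsg.Agent.Lib.Helper66Fpf2.smul_mem_commV hsK v hv)
      (by
        intro vb hvb0 hvb
        obtain ⟨v, rfl⟩ := QuotientGroup.mk_surjective vb
        change s • (Abelianization.of v : Abelianization V) = Abelianization.of v at hvb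
        change (Abelianization.of v : Abelianization V) ∈ _ at hvb0
        change (Abelianization.of v : Abelianization V) = 1
        rw [hsmul] at hvb
        have h0 : (v : X)⁻¹ * ((s₀ : X) * v * (s₀ : X)⁻¹) ∈ V' := (of_eq_of_iff _ _).1 hvb.symm
        have hsN : (s₀ : X) ∈ normalizer (V' : Set X) := hnorm (hRV s₀.2)
        have hall : ∀ i : ℕ, (v : X)⁻¹ * (s₀ : X) ^ i * v * ((s₀ : X) ^ i)⁻¹ ∈ V' := by
          intro i
          induction i with
          | zero => simp
          | succ i ihi =>
            have h1 := (mem_normalizer_iff.1 hsN _).1 ihi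
            have h2 := V'.mul_mem h0 h1
            have e : (v : X)⁻¹ * ((s₀ : X) * v * (s₀ : X)⁻¹) *
                ((s₀ : X) * ((v : X)⁻¹ * (s₀ : X) ^ i * v * ((s₀ : X) ^ i)⁻¹) * (s₀ : X)⁻¹)
                = (v : X)⁻¹ * (s₀ : X) ^ (i + 1) * v * ((s₀ : X) ^ (i + 1))⁻¹ := by
              rw [pow_succ']
              group
            rwa [e] at h2
        obtain ⟨n', hn', hc⟩ := Cfsg.Agent.Lib.Helper30SZ.exists_mul_mem_centralizer
          (N := V') (A := R) (hRV.trans hnorm) (hcopR.coprime_dvd_right hdvd) (Or.inr hsolV')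
          (k := (v : X)) (by
            intro a ha
            obtain ⟨i, rfl⟩ := hpow a ha
            exact hall i)
        have h3 : (v : X) * n' ∈ centralizer (K : Set X) :=
          hregV ⟨V.mul_mem v.2 (hle hn'), hc⟩
        -- `of v = of (v n')` is fixed by `K`
        have h4 : (Abelianization.of v : Abelianization V)
            = Abelianization.of (⟨(v : X) * n', V.mul_mem v.2 (hle hn')⟩ : V) := by
          rw [of_eq_of_iff]
          simpa using hn'
        apply Cfsg.Agent.Lib.Helper66Fpf2.eq_one_of_mem_commV_of_fixed hcopA hvb0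
        intro x hx
        rw [h4, hsmul]
        congr 1
        apply Subtype.ext
        have h5 := (mem_centralizer_iff.1 h3) (x : X) (mem_subgroupOf.1 hx)
        show (x : X) * ((v : X) * n') * (x : X)⁻¹ = (v : X) * n'
        rw [h5, mul_inv_cancel_right])
    have hfix := Cfsg.Agent.Lib.Helper66Fpf2.trivial_of_trivial_on_commV hcopA hfix0
    have hchain := Cfsg.Agent.Lib.Helper30Coprime.centralizes_of_chain (A := K) (P := V) (N := V')
      (hcopK.coprime_dvd_right hdvd)
      (Cfsg.Agent.Lib.Helper30Coprime.le_centralizer_iff_conj.1 hKV')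
      (by
        intro a ha x hx
        have h1 := hfix ⟨a, hKV ha⟩ (mem_subgroupOf.2 ha) (Abelianization.of ⟨x, hx⟩)
        rw [hsmul] at h1
        exact (of_eq_of_iff _ _).1 h1.symm)
    exact Cfsg.Agent.Lib.Helper30Coprime.le_centralizer_iff_conj.2 hchain

/-- `R` of prime order acts fixed-point-freely on `K`; `K R` acts on the solvable group `V`, orders
coprime; every fixed point of `R` on `V` is centralized by `K`.  Then `K` centralizes `V`. -/
theorem frob_fix {V K R : Subgroup X}
    (hV : Group.IsSolvable V) (hKV : K ≤ normalizer (V : Set X)) (hRV : R ≤ normalizer (V : Set X))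
    (hRK : R ≤ normalizer (K : Set X)) (hR : (Nat.card R).Prime)
    (hcopK : (Nat.card K).Coprime (Nat.card V)) (hcopR : (Nat.card R).Coprime (Nat.card V))
    (hregK : K ⊓ centralizer (R : Set X) = ⊥)
    (hfixV : V ⊓ centralizer (R : Set X) ≤ centralizer (K : Set X)) :
    K ≤ centralizer (V : Set X) :=
  frob_fix_aux hRK hR hregK (Nat.card V) V le_rfl hV hKV hRV hcopK hcopR hfixV

end Cfsg.Agent.Lib.Helper24Frob
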