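import Mathlib
import Cfsg.Prelude.Def_LieRecognition
import Cfsg.Agent.Lib.Helper24Invert

set_option autoImplicit false
set_option linter.unusedSectionVars false
set_option linter.style.haveILetI false

namespace Cfsg.Agent.Lib.Helper24RankOne

open MulAction

variable {G Ω : Type*} [Group G] [MulAction G Ω] {a : Ω} {t : G} {Q : Subgroup G}

/-- the two-point stabiliser -/
abbrev DD (G : Type*) {Ω : Type*} [Group G] [MulAction G Ω] (a : Ω) (t : G) : Subgroup G :=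
  stabilizer G a ⊓ stabilizer G (t • a)

theorem t_inv (hS : IsRankOneSetup G Ω a t Q) : t⁻¹ = t :=
  inv_eq_of_mul_eq_one_left hS.mul_self

theorem tt_smul (hS : IsRankOneSetup G Ω a t Q) (c : Ω) : t • t • c = c := by
  rw [smul_smul, hS.mul_self, one_smul]

theorem ta_ne (hS : IsRankOneSetup G Ω a t Q) : t • a ≠ a := fun h => hS.not_mem h

theorem mem_DD {d : G} : d ∈ DD G a t ↔ d • a = a ∧ d • t • a = t • a := by
  simp [DD, Subgroup.mem_inf, mem_stabilizer_iff]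

theorem t_conj_DD (hS : IsRankOneSetup G Ω a t Q) {d : G} (hd : d ∈ DD G a t) :
    t * d * t ∈ DD G a t := by
  rw [mem_DD] at hd ⊢
  constructor
  · rw [mul_smul, mul_smul, hd.2, tt_smul hS]
  · rw [mul_smul, mul_smul, tt_smul hS, hd.1]

theorem exists_Ga_smul (hS : IsRankOneSetup G Ω a t Q) {c d : Ω} (hc : c ≠ a) (hd : d ≠ a) :
    ∃ g ∈ stabilizer G a, g • c = d := by
  obtain ⟨g, h1, h2⟩ := (is_two_pretransitive_iff.mp hS.two_transitive) hc.symm hd.symm
  exact ⟨g, h1, h2⟩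

theorem DD_le_normalizer (hS : IsRankOneSetup G Ω a t Q) :
    DD G a t ≤ Subgroup.normalizer (Q : Set G) := by
  rw [Subgroup.le_normalizer_iff]
  intro h hh k hk
  exact hS.conj_mem h hh.1 k hk

theorem Ga_eq_mul (hS : IsRankOneSetup G Ω a t Q) {g : G} (hg : g ∈ stabilizer G a) :
    ∃ x ∈ Q, ∃ d ∈ DD G a t, g = x * d := by
  have h := Subgroup.coe_mul_of_right_le_normalizer_left Q (DD G a t) (DD_le_normalizer hS)
  have hg' : g ∈ ((Q ⊔ DD G a t : Subgroup G) : Set G) := by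
    rw [SetLike.mem_coe, hS.sup_eq]; exact hg
  rw [h] at hg'
  obtain ⟨x, hx, d, hd, rfl⟩ := Set.mem_mul.mp hg'
  exact ⟨x, hx, d, hd, rfl⟩

theorem semireg (hS : IsRankOneSetup G Ω a t Q) {x : G} (hx : x ∈ Q) {c : Ω} (hc : c ≠ a)
    (h : x • c = c) : x = 1 := by
  obtain ⟨g, hg, hgc⟩ := exists_Ga_smul hS hc (ta_ne hS)
  have h1 : g * x * g⁻¹ ∈ Q ⊓ stabilizer G (t • a) := by
    refine Subgroup.mem_inf.mpr ⟨hS.conj_mem g hg x hx, ?_⟩
    rw [mem_stabilizer_iff, ← hgc, mul_smul, mul_smul, inv_smul_smul, h]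
  rw [hS.inf_eq_bot, Subgroup.mem_bot] at h1
  have : g * x = g := by
    have := congrArg (· * g) h1
    simpa using this
  simpa using this

theorem exists_Q_smul_b (hS : IsRankOneSetup G Ω a t Q) {c : Ω} (hc : c ≠ a) :
    ∃ x ∈ Q, x • t • a = c := by
  obtain ⟨g, hg, hgc⟩ := exists_Ga_smul hS (ta_ne hS) hc
  obtain ⟨x, hx, d, hd, rfl⟩ := Ga_eq_mul hS hg
  refine ⟨x, hx, ?_⟩
  rw [← hgc, mul_smul, (mem_DD.mp hd).2]

theorem Q_smul_a (hS : IsRankOneSetup G Ω a t Q) {x : G} (hx : x ∈ Q) : x • a = a := hS.le hx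

theorem exists_Q_smul (hS : IsRankOneSetup G Ω a t Q) {c d : Ω} (hc : c ≠ a) (hd : d ≠ a) :
    ∃ x ∈ Q, x • c = d := by
  obtain ⟨x, hx, hxc⟩ := exists_Q_smul_b hS hc
  obtain ⟨y, hy, hyd⟩ := exists_Q_smul_b hS hd
  refine ⟨y * x⁻¹, Q.mul_mem hy (Q.inv_mem hx), ?_⟩
  rw [← hxc, mul_smul, inv_smul_smul, hyd]

theorem Q_smul_inj (hS : IsRankOneSetup G Ω a t Q) {x y : G} (hx : x ∈ Q) (hy : y ∈ Q) {c : Ω}
    (hc : c ≠ a) (h : x • c = y • c) : x = y := by
  have : y⁻¹ * x = 1 := by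
    apply semireg hS (Q.mul_mem (Q.inv_mem hy) hx) hc
    rw [mul_smul, h, inv_smul_smul]
  exact (inv_mul_eq_one.mp this).symm

theorem smul_ne_a {g : G} (hg : g ∈ stabilizer G a) {c : Ω} (hc : c ≠ a) : g • c ≠ a := by
  intro h
  apply hc
  have : g • c = g • a := by rw [h, hg]
  exact smul_left_cancel g this

theorem pretrans (hS : IsRankOneSetup G Ω a t Q) : IsPretransitive G Ω :=
  @isPretransitive_of_is_two_pretransitive G Ω _ _ hS.two_transitive

theorem exists_smul_a (hS : IsRankOneSetup G Ω a t Q) (c : Ω) : ∃ g : G, g • a = c :=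
  (pretrans hS).exists_smul_eq a c

/-- `Option Q ≃ Ω`. -/
noncomputable def optionEquiv (hS : IsRankOneSetup G Ω a t Q) : Option Q ≃ Ω :=
  Equiv.ofBijective (fun o => o.elim a (fun x => (x : G) • t • a)) (by
    constructor
    · rintro (_ | x) (_ | y) h
      · rfl
      · exact absurd h.symm (smul_ne_a (hS.le y.2) (ta_ne hS))
      · exact absurd h (smul_ne_a (hS.le x.2) (ta_ne hS))
      · exact congrArg some (Subtype.ext (Q_smul_inj hS x.2 y.2 (ta_ne hS) h))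
    · intro c
      by_cases hc : c = a
      · exact ⟨none, hc.symm⟩
      · obtain ⟨x, hx, hxc⟩ := exists_Q_smul_b hS hc
        exact ⟨some ⟨x, hx⟩, hxc⟩)

/-- `Q × D ≃ G_a`. -/
noncomputable def prodEquiv (hS : IsRankOneSetup G Ω a t Q) :
    Q × DD G a t ≃ stabilizer G a :=
  Equiv.ofBijective (fun p => ⟨(p.1 : G) * (p.2 : G),
      (stabilizer G a).mul_mem (hS.le p.1.2) p.2.2.1⟩) (by
    constructor
    · rintro ⟨x, d⟩ ⟨y, e⟩ h
      have h' : (x : G) * d = y * e := congrArg Subtype.val h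
      have h1 : (y : G)⁻¹ * x = e * (d : G)⁻¹ := by
        rw [inv_mul_eq_iff_eq_mul, ← mul_assoc, ← h', mul_inv_cancel_right]
      have h2 : (y : G)⁻¹ * x ∈ Q ⊓ stabilizer G (t • a) := by
        refine Subgroup.mem_inf.mpr ⟨Q.mul_mem (Q.inv_mem y.2) x.2, ?_⟩
        rw [h1]
        exact (stabilizer G (t • a)).mul_mem e.2.2 ((stabilizer G (t • a)).inv_mem d.2.2)
      rw [hS.inf_eq_bot, Subgroup.mem_bot] at h2
      have hxy : (x : G) = y := (inv_mul_eq_one.mp h2).symm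
      have hde : (d : G) = e := by
        rw [hxy] at h'
        exact mul_left_cancel h'
      exact Prod.ext (Subtype.ext hxy) (Subtype.ext hde)
    · rintro ⟨g, hg⟩
      obtain ⟨x, hx, d, hd, rfl⟩ := Ga_eq_mul hS hg
      exact ⟨(⟨x, hx⟩, ⟨d, hd⟩), rfl⟩)

theorem exists_ne_one_Q (hS : IsRankOneSetup G Ω a t Q) : ∃ x ∈ Q, x ≠ 1 := by
  by_contra h
  push Not at h
  have : Q = ⊥ := (Subgroup.eq_bot_iff_forall Q).mpr h
  have h2 := hS.even_card
  rw [this, Subgroup.card_bot] at h2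
  exact absurd h2 (by decide)

theorem eq_a_of_fixed (hS : IsRankOneSetup G Ω a t Q) {x : G} (hx : x ∈ Q) (hx1 : x ≠ 1) {c : Ω}
    (h : x • c = c) : c = a := by
  by_contra hc
  exact hx1 (semireg hS hx hc h)

section Fin

variable [Finite G]

theorem card_Omega (hS : IsRankOneSetup G Ω a t Q) : Nat.card Ω = Nat.card Q + 1 := by
  rw [← Nat.card_congr (optionEquiv hS), Finite.card_option]

theorem finite_Omega (hS : IsRankOneSetup G Ω a t Q) : Finite Ω :=
  Finite.of_equiv _ (optionEquiv hS)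

theorem card_Ga (hS : IsRankOneSetup G Ω a t Q) :
    Nat.card (stabilizer G a) = Nat.card Q * Nat.card (DD G a t) := by
  rw [← Nat.card_congr (prodEquiv hS), Nat.card_prod]

theorem card_G (hS : IsRankOneSetup G Ω a t Q) :
    Nat.card G = Nat.card Q * Nat.card (DD G a t) * (Nat.card Q + 1) := by
  haveI := pretrans hS
  rw [← (stabilizer G a).index_mul_card, index_stabilizer_of_transitive, card_Omega hS,
    card_Ga hS, mul_comm]

theorem odd_orderOf_DD (hS : IsRankOneSetup G Ω a t Q) {d : G} (hd : d ∈ DD G a t) :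
    Odd (orderOf d) :=
  Odd.of_dvd_nat hS.odd_card (Subgroup.orderOf_dvd_natCard _ hd)

theorem eq_one_of_sq_of_odd {M : Type*} [Monoid M] {d : M} (ho : Odd (orderOf d))
    (h : d * d = 1) : d = 1 := by
  have h2 : orderOf d ∣ 2 := orderOf_dvd_of_pow_eq_one (by rw [pow_two, h])
  have h1 : orderOf d = 1 := by
    rcases (Nat.dvd_prime Nat.prime_two).mp h2 with h | h
    · exact h
    · rw [h] at ho; exact absurd ho (by decide)
  exact orderOf_eq_one_iff.mp h1

theorem invol_mem_Q (hS : IsRankOneSetup G Ω a t Q) {s : G} (hs : s ∈ stabilizer G a)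
    (h2 : s * s = 1) : s ∈ Q := by
  obtain ⟨x, hx, d, hd, rfl⟩ := Ga_eq_mul hS hs
  have h3 : d * d = (x * (d * x * d⁻¹))⁻¹ := by
    rw [eq_inv_iff_mul_eq_one]
    have : d * d * (x * (d * x * d⁻¹)) = d * (d * x * (d * x)) * d⁻¹ := by group
    rw [this]
    have h4 : d * x * (d * x) = 1 := by
      have : x * d * (x * d) = x * (d * x * (d * x)) * x⁻¹ := by group
      rw [this] at h2
      have := congrArg (fun z => x⁻¹ * z * x) h2
      simpa [mul_assoc] using this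
    rw [h4]; group
  have h5 : d * d ∈ Q ⊓ stabilizer G (t • a) := by
    refine Subgroup.mem_inf.mpr ⟨?_, (stabilizer G (t • a)).mul_mem hd.2 hd.2⟩
    rw [h3]
    exact Q.inv_mem (Q.mul_mem hx (hS.conj_mem d hd.1 x hx))
  rw [hS.inf_eq_bot, Subgroup.mem_bot] at h5
  rw [eq_one_of_sq_of_odd (odd_orderOf_DD hS hd) h5, mul_one]
  exact hx

theorem exists_fixed (hS : IsRankOneSetup G Ω a t Q) {u : G} (hu : u * u = 1) :
    ∃ c : Ω, u • c = c := by
  have hp : IsPGroup 2 (Subgroup.zpowers u) := by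
    rintro ⟨g, hg⟩
    obtain ⟨n, rfl⟩ := Subgroup.mem_zpowers_iff.mp hg
    refine ⟨1, Subtype.ext ?_⟩
    simp only [pow_one, Subgroup.coe_pow, Subgroup.coe_one]
    rw [← zpow_natCast, ← zpow_mul, mul_comm, zpow_mul]
    simp [pow_two, hu]
  haveI : Fact (Nat.Prime 2) := ⟨Nat.prime_two⟩
  have hodd : ¬ 2 ∣ Nat.card Ω := by
    rw [card_Omega hS]
    obtain ⟨k, hk⟩ := hS.even_card
    omega
  obtain ⟨c, hc⟩ := hp.nonempty_fixed_point_of_prime_not_dvd_card Ω hodd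
  exact ⟨c, hc ⟨u, Subgroup.mem_zpowers u⟩⟩

theorem invol_fixed_unique (hS : IsRankOneSetup G Ω a t Q) {u : G} (hu1 : u ≠ 1) (hu : u * u = 1)
    {c d : Ω} (hc : u • c = c) (hd : u • d = d) : c = d := by
  obtain ⟨g, rfl⟩ := exists_smul_a hS c
  have hs : g⁻¹ * u * g ∈ stabilizer G a := by
    rw [mem_stabilizer_iff, mul_smul, mul_smul, hc, inv_smul_smul]
  have hs2 : g⁻¹ * u * g * (g⁻¹ * u * g) = 1 := by
    have : g⁻¹ * u * g * (g⁻¹ * u * g) = g⁻¹ * (u * u) * g := by group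
    rw [this, hu]; group
  have hsQ := invol_mem_Q hS hs hs2
  by_contra hne
  have h1 : g⁻¹ • d ≠ a := by
    intro h
    apply hne
    rw [← h, smul_inv_smul]
  have h2 : g⁻¹ * u * g = 1 := by
    apply semireg hS hsQ h1
    rw [mul_smul, mul_smul, smul_inv_smul, hd]
  apply hu1
  have := congrArg (fun z => g * z * g⁻¹) h2
  simpa [mul_assoc] using this

theorem exists_sylow_le (hS : IsRankOneSetup G Ω a t Q) : ∃ P : Sylow 2 G, (P : Subgroup G) ≤ Q := by
  haveI : Fact (Nat.Prime 2) := ⟨Nat.prime_two⟩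
  let P₀ : Sylow 2 Q := Sylow.nonempty.some
  have hp : IsPGroup 2 (P₀.1.map Q.subtype) := P₀.2.map Q.subtype
  have hQi : ¬ 2 ∣ Q.index := by
    have h1 : Q.index * Nat.card Q = Nat.card Q * Nat.card (DD G a t) * (Nat.card Q + 1) := by
      rw [Q.index_mul_card, card_G hS]
    have h2 : Q.index = Nat.card (DD G a t) * (Nat.card Q + 1) := by
      have hpos : 0 < Nat.card Q := Nat.card_pos
      apply Nat.eq_of_mul_eq_mul_right hpos
      rw [h1]; ring
    rw [h2]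
    have h3 : Odd (Nat.card (DD G a t) * (Nat.card Q + 1)) :=
      hS.odd_card.mul (hS.even_card.add_one)
    exact fun h => (Nat.not_even_iff_odd.mpr h3) (even_iff_two_dvd.mpr h)
  have hi : ¬ 2 ∣ (P₀.1.map Q.subtype).index := by
    rw [Subgroup.index_map_subtype]
    exact Nat.Prime.not_dvd_mul Nat.prime_two P₀.not_dvd_index hQi
  refine ⟨hp.toSylow hi, ?_⟩
  rw [IsPGroup.toSylow_coe]
  exact Subgroup.map_subtype_le _

/-- an element commuting with an involution fixes its fixed point -/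
theorem commute_fixed (hS : IsRankOneSetup G Ω a t Q) {u g : G} (hu1 : u ≠ 1) (hu : u * u = 1)
    {c : Ω} (hc : u • c = c) (hg : g * u = u * g) : g • c = c := by
  apply invol_fixed_unique hS hu1 hu _ hc
  rw [← mul_smul, ← hg, mul_smul, hc]

theorem odd_orderOf_mul (hS : IsRankOneSetup G Ω a t Q) {u v : G} (hu1 : u ≠ 1) (hu : u * u = 1)
    (hv1 : v ≠ 1) (hv : v * v = 1) {c d : Ω} (hc : u • c = c) (hd : v • d = d) (hne : c ≠ d) :
    Odd (orderOf (u * v)) := by
  rcases Nat.even_or_odd (orderOf (u * v)) with he | ho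
  swap
  · exact ho
  exfalso
  obtain ⟨m, hm⟩ := he
  have hpos : 0 < orderOf (u * v) := orderOf_pos _
  have hui : u⁻¹ = u := inv_eq_of_mul_eq_one_left hu
  have hvi : v⁻¹ = v := inv_eq_of_mul_eq_one_left hv
  set z := (u * v) ^ m with hz
  have hz1 : z ≠ 1 := pow_ne_one_of_lt_orderOf (by omega) (by omega)
  have hz2 : z * z = 1 := by rw [hz, ← pow_add, ← hm, pow_orderOf_eq_one]
  have hzi : z⁻¹ = z := inv_eq_of_mul_eq_one_left hz2
  have h1 : u * z * u⁻¹ = z := by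
    rw [hz, ← conj_pow]
    have : u * (u * v) * u⁻¹ = (u * v)⁻¹ := by
      rw [mul_inv_rev, hui, hvi, ← mul_assoc, hu, one_mul]
    rw [this, inv_pow, ← hz, hzi]
  have h2 : v * z * v⁻¹ = z := by
    rw [hz, ← conj_pow]
    have : v * (u * v) * v⁻¹ = (u * v)⁻¹ := by
      rw [mul_inv_rev, hui, hvi, mul_assoc, mul_assoc, hv, mul_one]
    rw [this, inv_pow, ← hz, hzi]
  obtain ⟨e, he⟩ := exists_fixed hS hz2
  have h3 : u • e = e := commute_fixed hS hz1 hz2 he (mul_inv_eq_iff_eq_mul.mp h1)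
  have h4 : v • e = e := commute_fixed hS hz1 hz2 he (mul_inv_eq_iff_eq_mul.mp h2)
  exact hne ((invol_fixed_unique hS hu1 hu hc h3).trans (invol_fixed_unique hS hv1 hv h4 hd))

theorem conj_invol {M : Type*} [Group M] {u g : M} (hu1 : u ≠ 1) (hu : u * u = 1) :
    g * u * g⁻¹ ≠ 1 ∧ (g * u * g⁻¹) * (g * u * g⁻¹) = 1 := by
  constructor
  · intro h
    apply hu1
    have := congrArg (fun z => g⁻¹ * z * g) h
    simpa [mul_assoc] using this
  · have : g * u * g⁻¹ * (g * u * g⁻¹) = g * (u * u) * g⁻¹ := by group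
    rw [this, hu]; group

theorem invol_conj_of_ne (hS : IsRankOneSetup G Ω a t Q) {u v : G} (hu1 : u ≠ 1) (hu : u * u = 1)
    (hv1 : v ≠ 1) (hv : v * v = 1) {c d : Ω} (hc : u • c = c) (hd : v • d = d) (hne : c ≠ d) :
    ∃ g : G, g * u * g⁻¹ = v := by
  obtain ⟨n, h1, h2⟩ := Cfsg.Agent.Lib.Helper24Invert.dihedral_conj hu hv
    (odd_orderOf_mul hS hu1 hu hv1 hv hc hd hne)
  refine ⟨u * (u * v) ^ n, ?_⟩
  rw [inv_eq_of_mul_eq_one_left h1, h2]

theorem invol_conj (hS : IsRankOneSetup G Ω a t Q) {u v : G} (hu1 : u ≠ 1) (hu : u * u = 1)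
    (hv1 : v ≠ 1) (hv : v * v = 1) : ∃ g : G, g * u * g⁻¹ = v := by
  obtain ⟨c, hc⟩ := exists_fixed hS hu
  obtain ⟨d, hd⟩ := exists_fixed hS hv
  by_cases hne : c = d
  swap
  · exact invol_conj_of_ne hS hu1 hu hv1 hv hc hd hne
  subst hne
  obtain ⟨e, he⟩ : ∃ e : Ω, e ≠ c := by
    by_cases h : a = c
    · exact ⟨t • a, fun h' => ta_ne hS (h'.trans h.symm)⟩
    · exact ⟨a, h⟩
  obtain ⟨g, hg⟩ := (pretrans hS).exists_smul_eq c e
  obtain ⟨h1, h2⟩ := conj_invol (g := g) hu1 hu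
  have h3 : (g * u * g⁻¹) • e = e := by
    rw [← hg, mul_smul, mul_smul, inv_smul_smul, hc]
  obtain ⟨h, hh⟩ := invol_conj_of_ne hS h1 h2 hv1 hv h3 hd he
  refine ⟨h * g, ?_⟩
  rw [← hh]; group

end Fin

end Cfsg.Agent.Lib.Helper24RankOne
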