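import Mathlib
import Cfsg.Prelude.Def_LieRecognition
import Cfsg.Agent.Lib.Helper24Invert
import Cfsg.Agent.Lib.Helper24RankOne

set_option autoImplicit false
set_option linter.unusedSectionVars false
set_option linter.style.haveILetI false

namespace Cfsg.Agent.Lib.Helper24RankOneB

open MulAction Cfsg.Agent.Lib.Helper24RankOne Cfsg.Agent.Lib.Helper24Invert

variable {G Ω : Type*} [Group G] [MulAction G Ω] {a : Ω} {t : G} {Q : Subgroup G}

/-- involutions swapping `a` and `t • a` -/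
def Jab (G : Type*) {Ω : Type*} [Group G] [MulAction G Ω] (a : Ω) (t : G) : Set G :=
  {u | u * u = 1 ∧ u • a = t • a}

theorem Jab_ne_one (hS : IsRankOneSetup G Ω a t Q) {u : G} (hu : u ∈ Jab G a t) : u ≠ 1 := by
  rintro rfl
  exact ta_ne hS (by simpa using hu.2.symm)

theorem Jab_smul_b {u : G} (hu : u ∈ Jab G a t) : u • t • a = a := by
  rw [← hu.2, smul_smul, hu.1, one_smul]

theorem Jab_inv {u : G} (hu : u ∈ Jab G a t) : u⁻¹ = u := inv_eq_of_mul_eq_one_left hu.1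

theorem t_mem_Jab (hS : IsRankOneSetup G Ω a t Q) : t ∈ Jab G a t := ⟨hS.mul_self, rfl⟩

theorem Jab_mul_Jab {u v : G} (hu : u ∈ Jab G a t) (hv : v ∈ Jab G a t) : u * v ∈ DD G a t := by
  rw [mem_DD]
  constructor
  · rw [mul_smul, hv.2, Jab_smul_b hu]
  · rw [mul_smul, Jab_smul_b hv, hu.2]

theorem t_mul_Jab (hS : IsRankOneSetup G Ω a t Q) {u : G} (hu : u ∈ Jab G a t) :
    t * u ∈ invertedBy (DD G a t) t := by
  refine ⟨Jab_mul_Jab (t_mem_Jab hS) hu, ?_⟩
  rw [mul_inv_rev, Jab_inv hu, t_inv hS, ← mul_assoc, hS.mul_self, one_mul]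

theorem t_mul_inverted (hS : IsRankOneSetup G Ω a t Q) {k : G}
    (hk : k ∈ invertedBy (DD G a t) t) : t * k ∈ Jab G a t := by
  constructor
  · have h := hk.2
    rw [t_inv hS] at h
    rw [← mul_assoc, h, inv_mul_cancel]
  · rw [mul_smul, (mem_DD.mp hk.1).1]

theorem Jab_mul_DD {u d : G} (hu : u ∈ Jab G a t) (hd : d ∈ DD G a t)
    (h : (u * d) * (u * d) = 1) : u * d ∈ Jab G a t :=
  ⟨h, by rw [mul_smul, (mem_DD.mp hd).1, hu.2]⟩

theorem Jab_conj_DD {u d : G} (hu : u ∈ Jab G a t) (hd : d ∈ DD G a t) :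
    d * u * d⁻¹ ∈ Jab G a t := by
  constructor
  · have : d * u * d⁻¹ * (d * u * d⁻¹) = d * (u * u) * d⁻¹ := by group
    rw [this, hu.1]; group
  · have h1 : d⁻¹ • a = a := inv_smul_eq_iff.mpr (mem_DD.mp hd).1.symm
    rw [mul_smul, mul_smul, h1, hu.2, (mem_DD.mp hd).2]

theorem Jab_conj_t (hS : IsRankOneSetup G Ω a t Q) {u : G} (hu : u ∈ Jab G a t) :
    t * u * t ∈ Jab G a t := by
  constructor
  · have : t * u * t * (t * u * t) = t * u * (t * t) * u * t := by group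
    rw [this, hS.mul_self, mul_one, mul_assoc t u u, hu.1, mul_one, hS.mul_self]
  · rw [mul_smul, mul_smul, Jab_smul_b hu]

/-- the correspondence between involutions of `G_a` and involutions swapping `a`, `t • a` -/
def Rel (Q : Subgroup G) (t s u : G) : Prop := ∃ r ∈ Q, t * s * t = r⁻¹ * u * r

theorem mem_Ia {s : G} : s ∈ involutionsIn (stabilizer G a : Set G) ↔
    s • a = a ∧ s ≠ 1 ∧ s * s = 1 := Iff.rfl

theorem rel_conj (hS : IsRankOneSetup G Ω a t Q) {s u d : G} (hd : d ∈ DD G a t)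
    (h : Rel Q t s u) : Rel Q t (d * s * d⁻¹) ((t * d * t) * u * (t * d * t)⁻¹) := by
  obtain ⟨r, hr, h⟩ := h
  refine ⟨(t * d * t) * r * (t * d * t)⁻¹, hS.conj_mem _ (t_conj_DD hS hd).1 r hr, ?_⟩
  have h1 : t * (d * s * d⁻¹) * t = (t * d * t) * (t * s * t) * (t * d * t)⁻¹ := by
    have e : (t * d * t)⁻¹ = t * d⁻¹ * t := by
      simp only [mul_inv_rev, t_inv hS, mul_assoc]
    rw [e]
    have : t * d * t * (t * s * t) * (t * d⁻¹ * t) =
        t * d * (t * t) * s * (t * t) * d⁻¹ * t := by group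
    rw [this, hS.mul_self]; group
  rw [h1, h]; group

theorem rel_right_unique (hS : IsRankOneSetup G Ω a t Q) {s u u' : G} (hu : u ∈ Jab G a t)
    (hu' : u' ∈ Jab G a t) (h : Rel Q t s u) (h' : Rel Q t s u') : u = u' := by
  obtain ⟨r, hr, h⟩ := h
  obtain ⟨r', hr', h'⟩ := h'
  have e : r⁻¹ * u * r = r'⁻¹ * u' * r' := h.symm.trans h'
  have h1 : r⁻¹ • t • a = r'⁻¹ • t • a := by
    have := congrArg (fun z : G => z • a) e
    simpa [mul_smul, Q_smul_a hS hr, Q_smul_a hS hr', hu.2, hu'.2] using this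
  have h2 : r⁻¹ = r'⁻¹ := Q_smul_inj hS (Q.inv_mem hr) (Q.inv_mem hr') (ta_ne hS) h1
  have h3 : r = r' := inv_injective h2
  subst h3
  exact mul_left_cancel (mul_right_cancel e)

section Fin

variable [Finite G]

theorem rel_left_unique (hS : IsRankOneSetup G Ω a t Q) {s s' u : G}
    (hs : s • a = a) (hs' : s' • a = a) (hu : u ∈ Jab G a t)
    (h : Rel Q t s u) (h' : Rel Q t s' u) : s = s' := by
  obtain ⟨r, hr, h⟩ := h
  obtain ⟨r', hr', h'⟩ := h'
  have key : ∀ (s r : G), s • a = a → t * s * t = r⁻¹ * u * r → u • r • t • a = r • t • a := by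
    intro s r hs h
    have e : u = r * (t * s * t) * r⁻¹ := by rw [h]; group
    nth_rewrite 1 [e]
    simp only [mul_smul, inv_smul_smul, tt_smul hS, hs]
  have h1 : r • t • a = r' • t • a :=
    invol_fixed_unique hS (Jab_ne_one hS hu) hu.1 (key s r hs h) (key s' r' hs' h')
  have h2 : r = r' := Q_smul_inj hS hr hr' (ta_ne hS) h1
  subst h2
  exact mul_left_cancel (mul_right_cancel (h.trans h'.symm))

theorem rel_exists_right (hS : IsRankOneSetup G Ω a t Q) {s : G}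
    (hs : s ∈ involutionsIn (stabilizer G a : Set G)) : ∃ u ∈ Jab G a t, Rel Q t s u := by
  obtain ⟨hsa, hs1, hs2⟩ := mem_Ia.mp hs
  have hsQ : s ∈ Q := invol_mem_Q hS hsa hs2
  have h1 : (t * s * t) • a ≠ a := by
    intro h
    rw [mul_smul, mul_smul] at h
    have h2 : s • t • a = t • a := by
      have := congrArg (fun z => t • z) h
      simpa [tt_smul hS] using this
    exact ta_ne hS (eq_a_of_fixed hS hsQ hs1 h2)
  obtain ⟨r, hr, hrb⟩ := exists_Q_smul hS h1 (ta_ne hS)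
  refine ⟨r * (t * s * t) * r⁻¹, ⟨?_, ?_⟩, r, hr, by group⟩
  · have : r * (t * s * t) * r⁻¹ * (r * (t * s * t) * r⁻¹) =
        r * t * s * (t * t) * s * t * r⁻¹ := by group
    rw [this, hS.mul_self, mul_one, mul_assoc (r * t) s s, hs2, mul_one, mul_assoc r t t,
      hS.mul_self, mul_one, mul_inv_cancel]
  · rw [mul_smul, mul_smul, inv_smul_eq_iff.mpr (Q_smul_a hS hr).symm, hrb]

theorem rel_exists_left (hS : IsRankOneSetup G Ω a t Q) {u : G} (hu : u ∈ Jab G a t) :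
    ∃ s ∈ involutionsIn (stabilizer G a : Set G), Rel Q t s u := by
  obtain ⟨c, hc⟩ := exists_fixed hS hu.1
  have hca : c ≠ a := by
    rintro rfl
    exact ta_ne hS (hu.2.symm.trans hc)
  obtain ⟨r, hr, hrb⟩ := exists_Q_smul_b hS hca
  have e : t * r⁻¹ * u * r * t = (t * r⁻¹) * u * (t * r⁻¹)⁻¹ := by
    simp only [mul_inv_rev, inv_inv, t_inv hS, mul_assoc]
  obtain ⟨h1, h2⟩ := conj_invol (g := t * r⁻¹) (Jab_ne_one hS hu) hu.1
  refine ⟨t * r⁻¹ * u * r * t, ⟨?_, ?_, ?_⟩, r, hr, ?_⟩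
  · show (t * r⁻¹ * u * r * t) • a = a
    simp only [mul_smul]
    rw [hrb, hc, ← hrb, inv_smul_smul, tt_smul hS]
  · rw [e]; exact h1
  · rw [e]; exact h2
  · have : t * (t * r⁻¹ * u * r * t) * t = (t * t) * r⁻¹ * u * r * (t * t) := by group
    rw [this, hS.mul_self]; group

theorem card_eq_of_rel {α β : Type*} (R : α → β → Prop) (h1 : ∀ x, ∃ y, R x y)
    (h2 : ∀ y, ∃ x, R x y) (h3 : ∀ x x' y, R x y → R x' y → x = x')
    (h4 : ∀ x y y', R x y → R x y' → y = y') : Nat.card α = Nat.card β := by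
  choose f hf using h1
  refine Nat.card_congr (Equiv.ofBijective f ⟨?_, ?_⟩)
  · intro x x' h
    exact h3 x x' (f x) (hf x) (h ▸ hf x')
  · intro y
    obtain ⟨x, hx⟩ := h2 y
    exact ⟨x, h4 x _ _ (hf x) hx⟩

theorem card_inverted_eq (hS : IsRankOneSetup G Ω a t Q) :
    Nat.card (invertedBy (DD G a t) t) = Nat.card (involutionsIn (stabilizer G a : Set G)) := by
  apply card_eq_of_rel (fun (k : invertedBy (DD G a t) t)
    (s : involutionsIn (stabilizer G a : Set G)) => Rel Q t (s : G) (t * (k : G)))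
  · intro k
    obtain ⟨s, hs, h⟩ := rel_exists_left hS (t_mul_inverted hS k.2)
    exact ⟨⟨s, hs⟩, h⟩
  · intro s
    obtain ⟨u, hu, h⟩ := rel_exists_right hS s.2
    refine ⟨⟨t * u, t_mul_Jab hS hu⟩, ?_⟩
    simpa [← mul_assoc, hS.mul_self] using h
  · intro k k' s h h'
    have := rel_right_unique hS (t_mul_inverted hS k.2) (t_mul_inverted hS k'.2) h h'
    exact Subtype.ext (mul_left_cancel this)
  · intro k s s' h h'
    exact Subtype.ext (rel_left_unique hS s.2.1 s'.2.1 (t_mul_inverted hS k.2) h h')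

theorem inverted_trans (hS : IsRankOneSetup G Ω a t Q) {s s' : G}
    (hs : s ∈ involutionsIn (stabilizer G a : Set G))
    (hs' : s' ∈ involutionsIn (stabilizer G a : Set G)) :
    ∃ k ∈ invertedBy (DD G a t) t, k⁻¹ * s * k = s' := by
  obtain ⟨u, hu, hR⟩ := rel_exists_right hS hs
  obtain ⟨u', hu', hR'⟩ := rel_exists_right hS hs'
  have hv := Jab_conj_t hS hu
  obtain ⟨n, h1, h2⟩ := dihedral_conj hv.1 hu'.1 (odd_orderOf_DD hS (Jab_mul_Jab hv hu'))
  set w := t * u * t * (t * u * t * u') ^ n with hw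
  have hwJ : w ∈ Jab G a t := Jab_mul_DD hv ((DD G a t).pow_mem (Jab_mul_Jab hv hu') n) h1
  have hk : (t * w)⁻¹ ∈ invertedBy (DD G a t) t := inverted_inv (t_mul_Jab hS hwJ)
  have hke : (t * w)⁻¹ = w * t := by rw [mul_inv_rev, Jab_inv hwJ, t_inv hS]
  rw [hke] at hk
  refine ⟨w * t, hk, ?_⟩
  have hR2 := rel_conj hS ((DD G a t).inv_mem hk.1) hR
  have e1 : t * (w * t)⁻¹ * t = w * t := by
    rw [mul_inv_rev, Jab_inv hwJ, t_inv hS, ← mul_assoc, hS.mul_self, one_mul]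
  rw [e1, inv_inv] at hR2
  have e2 : w * t * u * (w * t)⁻¹ = u' := by
    rw [mul_inv_rev, Jab_inv hwJ, t_inv hS, ← h2]; group
  rw [e2] at hR2
  refine rel_left_unique hS ?_ hs'.1 hu' hR2 hR'
  have hka : (w * t) • a = a := (mem_DD.mp hk.1).1
  rw [mul_smul, mul_smul, hka, (mem_Ia.mp hs).1, inv_smul_eq_iff, hka]

end Fin

end Cfsg.Agent.Lib.Helper24RankOneB
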