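import Mathlib
import Cfsg.Prelude.Def_LieRecognition
import Cfsg.Agent.Lib.Helper24Invert
import Cfsg.Agent.Lib.Helper24RankOne
import Cfsg.Agent.Lib.Helper24RankOneB

set_option autoImplicit false
set_option linter.unusedSectionVars false
set_option linter.style.haveILetI false

namespace Cfsg.Agent.Lib.Helper24RankOneC

open MulAction Cfsg.Agent.Lib.Helper24RankOne Cfsg.Agent.Lib.Helper24Invert
  Cfsg.Agent.Lib.Helper24RankOneB

variable {G Ω : Type*} [Group G] [MulAction G Ω] {a : Ω} {t : G} {Q : Subgroup G}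

theorem cent_Q_trans (hS : IsRankOneSetup G Ω a t Q) {X : Set G}
    (hX : X ⊆ (DD G a t : Set G)) {c d : Ω} (hc : c ≠ a) (hd : d ≠ a)
    (hXc : ∀ x ∈ X, x • c = c) (hXd : ∀ x ∈ X, x • d = d) :
    ∃ q ∈ Subgroup.centralizer X ⊓ Q, q • c = d := by
  obtain ⟨q, hq, hqc⟩ := exists_Q_smul hS hc hd
  refine ⟨q, Subgroup.mem_inf.mpr ⟨?_, hq⟩, hqc⟩
  rw [Subgroup.mem_centralizer_iff]
  intro x hx
  have h1 : x * q * x⁻¹ = q := by
    apply Q_smul_inj hS (hS.conj_mem x (hX hx).1 q hq) hq hc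
    rw [mul_smul, mul_smul, inv_smul_eq_iff.mpr (hXc x hx).symm, hqc, hXd x hx]
  exact mul_inv_eq_iff_eq_mul.mp h1

theorem cent_trans_b (hS : IsRankOneSetup G Ω a t Q) {X : Set G}
    (hX : X ⊆ (DD G a t : Set G)) {c d : Ω} (hc : c ≠ t • a) (hd : d ≠ t • a)
    (hXc : ∀ x ∈ X, x • c = c) (hXd : ∀ x ∈ X, x • d = d) :
    ∃ q ∈ Subgroup.centralizer X, q • t • a = t • a ∧ q • c = d := by
  have hne : ∀ e : Ω, e ≠ t • a → t • e ≠ a := by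
    intro e he h
    apply he
    rw [← h, tt_smul hS]
  have hX' : (fun x => t * x * t) '' X ⊆ (DD G a t : Set G) := by
    rintro _ ⟨x, hx, rfl⟩
    exact t_conj_DD hS (hX hx)
  have hfix : ∀ e : Ω, (∀ x ∈ X, x • e = e) → ∀ x ∈ (fun x => t * x * t) '' X, x • t • e = t • e := by
    rintro e he _ ⟨x, hx, rfl⟩
    rw [mul_smul, mul_smul, tt_smul hS, he x hx]
  obtain ⟨q, hq, hqc⟩ := cent_Q_trans hS hX' (hne c hc) (hne d hd) (hfix c hXc) (hfix d hXd)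
  obtain ⟨hq1, hq2⟩ := Subgroup.mem_inf.mp hq
  refine ⟨t * q * t, ?_, ?_, ?_⟩
  · rw [Subgroup.mem_centralizer_iff] at hq1 ⊢
    intro x hx
    have h1 := hq1 (t * x * t) ⟨x, hx, rfl⟩
    have e1 : x * (t * q * t) = t * ((t * x * t) * q) * t := by
      have : t * ((t * x * t) * q) * t = (t * t) * x * (t * q * t) := by group
      rw [this, hS.mul_self, one_mul]
    have e2 : t * q * t * x = t * (q * (t * x * t)) * t := by
      have : t * (q * (t * x * t)) * t = t * q * t * x * (t * t) := by group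
      rw [this, hS.mul_self, mul_one]
    rw [e1, e2, h1]
  · rw [mul_smul, mul_smul, tt_smul hS, Q_smul_a hS hq2]
  · rw [mul_smul, mul_smul, hqc, tt_smul hS]

theorem cent_smul_fixed {X : Set G} {g : G} (hg : g ∈ Subgroup.centralizer X) {e : Ω}
    (he : ∀ x ∈ X, x • e = e) : ∀ x ∈ X, x • g • e = g • e := by
  intro x hx
  rw [← mul_smul, (Subgroup.mem_centralizer_iff.mp hg) x hx, mul_smul, he x hx]

theorem X_fix_a {X : Set G} (hX : X ⊆ (DD G a t : Set G)) : ∀ x ∈ X, x • a = a :=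
  fun x hx => (mem_DD.mp (hX hx)).1

theorem X_fix_b {X : Set G} (hX : X ⊆ (DD G a t : Set G)) : ∀ x ∈ X, x • t • a = t • a :=
  fun x hx => (mem_DD.mp (hX hx)).2

theorem third_point {X : Set G}
    (h3 : ∃ b c d : Ω, b ≠ c ∧ b ≠ d ∧ c ≠ d ∧ ∀ x ∈ X, x • b = b ∧ x • c = c ∧ x • d = d) :
    ∃ f : Ω, f ≠ a ∧ f ≠ t • a ∧ ∀ x ∈ X, x • f = f := by
  obtain ⟨b, c, d, hbc, hbd, hcd, h⟩ := h3
  by_cases h1 : b ≠ a ∧ b ≠ t • a
  · exact ⟨b, h1.1, h1.2, fun x hx => (h x hx).1⟩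
  by_cases h2 : c ≠ a ∧ c ≠ t • a
  · exact ⟨c, h2.1, h2.2, fun x hx => (h x hx).2.1⟩
  refine ⟨d, ?_, ?_, fun x hx => (h x hx).2.2⟩
  · rintro rfl
    have hb : b = t • d := by
      by_contra hb
      exact h1 ⟨hbd, hb⟩
    have hc : c = t • d := by
      by_contra hc
      exact h2 ⟨hcd, hc⟩
    exact hbc (hb.trans hc.symm)
  · intro hd
    have hb : b = a := by
      by_contra hb
      exact h1 ⟨hb, hd ▸ hbd⟩
    have hc : c = a := by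
      by_contra hc
      exact h2 ⟨hc, hd ▸ hcd⟩
    exact hbc (hb.trans hc.symm)

theorem cent_to_a (hS : IsRankOneSetup G Ω a t Q) {X : Set G}
    (hX : X ⊆ (DD G a t : Set G))
    (h3 : ∃ f : Ω, f ≠ a ∧ f ≠ t • a ∧ ∀ x ∈ X, x • f = f) {e : Ω}
    (he : ∀ x ∈ X, x • e = e) : ∃ g ∈ Subgroup.centralizer X, g • e = a := by
  obtain ⟨f, hfa, hfb, hf⟩ := h3
  by_cases h1 : e = t • a
  · subst h1
    obtain ⟨q1, hq1, h1⟩ := cent_Q_trans hS hX (ta_ne hS) hfa he hf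
    obtain ⟨q2, hq2, -, h2⟩ := cent_trans_b hS hX hfb (ta_ne hS).symm hf (X_fix_a hX)
    refine ⟨q2 * q1, Subgroup.mul_mem _ hq2 (Subgroup.mem_inf.mp hq1).1, ?_⟩
    rw [mul_smul, h1, h2]
  · obtain ⟨q2, hq2, -, h2⟩ := cent_trans_b hS hX h1 (ta_ne hS).symm he (X_fix_a hX)
    exact ⟨q2, hq2, h2⟩

theorem cent_two_trans (hS : IsRankOneSetup G Ω a t Q) {X : Set G}
    (hX : X ⊆ (DD G a t : Set G))
    (h3 : ∃ f : Ω, f ≠ a ∧ f ≠ t • a ∧ ∀ x ∈ X, x • f = f) {b₁ b₂ c₁ c₂ : Ω}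
    (hb₁ : ∀ x ∈ X, x • b₁ = b₁) (hb₂ : ∀ x ∈ X, x • b₂ = b₂)
    (hc₁ : ∀ x ∈ X, x • c₁ = c₁) (hc₂ : ∀ x ∈ X, x • c₂ = c₂) (hb : b₁ ≠ b₂) (hc : c₁ ≠ c₂) :
    ∃ g ∈ Subgroup.centralizer X, g • b₁ = c₁ ∧ g • b₂ = c₂ := by
  obtain ⟨g₁, hg₁, h1⟩ := cent_to_a hS hX h3 hb₁
  obtain ⟨g₂, hg₂, h2⟩ := cent_to_a hS hX h3 hc₁
  have n1 : g₁ • b₂ ≠ a := by
    rw [← h1]
    exact fun h => hb (smul_left_cancel g₁ h).symm
  have n2 : g₂ • c₂ ≠ a := by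
    rw [← h2]
    exact fun h => hc (smul_left_cancel g₂ h).symm
  obtain ⟨q, hq, hq2⟩ := cent_Q_trans hS hX n1 n2 (cent_smul_fixed hg₁ hb₂) (cent_smul_fixed hg₂ hc₂)
  obtain ⟨hqc, hqQ⟩ := Subgroup.mem_inf.mp hq
  refine ⟨g₂⁻¹ * q * g₁, Subgroup.mul_mem _ (Subgroup.mul_mem _ (Subgroup.inv_mem _ hg₂) hqc) hg₁,
    ?_, ?_⟩
  · rw [mul_smul, mul_smul, h1, Q_smul_a hS hqQ, inv_smul_eq_iff, h2]
  · rw [mul_smul, mul_smul, hq2, inv_smul_smul]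

section Fin

variable [Finite G]

theorem exists_cent_Jab (hS : IsRankOneSetup G Ω a t Q) {X : Set G}
    (hX : X ⊆ (DD G a t : Set G))
    (h3 : ∃ f : Ω, f ≠ a ∧ f ≠ t • a ∧ ∀ x ∈ X, x • f = f) :
    ∃ u ∈ Jab G a t, u ∈ Subgroup.centralizer X := by
  obtain ⟨g, hg, h1, h2⟩ := cent_two_trans hS hX h3 (X_fix_a hX) (X_fix_b hX) (X_fix_b hX)
    (X_fix_a hX) (ta_ne hS).symm (ta_ne hS)
  have hgg : g * g ∈ DD G a t := by
    rw [mem_DD]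
    exact ⟨by rw [mul_smul, h1, h2], by rw [mul_smul, h2, h1]⟩
  obtain ⟨j, hj⟩ := odd_orderOf_DD hS hgg
  refine ⟨g ^ (orderOf (g * g)), ⟨?_, ?_⟩, Subgroup.pow_mem _ hg _⟩
  · rw [← pow_add, ← two_mul, pow_mul, pow_two, pow_orderOf_eq_one]
  · rw [hj, pow_succ, pow_mul, pow_two, mul_smul, h1]
    exact (mem_DD.mp ((DD G a t).pow_mem hgg j)).2

theorem Jab_conj_to_t (hS : IsRankOneSetup G Ω a t Q) {u : G} (hu : u ∈ Jab G a t) :
    ∃ h ∈ invertedBy (DD G a t) t, h * u * h⁻¹ = t := by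
  have hk := t_mul_Jab hS hu
  obtain ⟨n, hn⟩ := sqrt_exists (odd_orderOf_DD hS hk.1)
  have hh := inverted_pow hk n
  refine ⟨(t * u) ^ n, hh, ?_⟩
  set h := (t * u) ^ n with hdef
  have e1 : t * h = h⁻¹ * t := mul_inv_eq_iff_eq_mul.mp hh.2
  have e2 : u = t * (h * h) := by rw [hn, ← mul_assoc, hS.mul_self, one_mul]
  rw [e2, ← mul_assoc t, e1]; group

theorem conj_into_cent (hS : IsRankOneSetup G Ω a t Q) {X : Set G}
    (hX : X ⊆ (DD G a t : Set G))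
    (h3 : ∃ f : Ω, f ≠ a ∧ f ≠ t • a ∧ ∀ x ∈ X, x • f = f) :
    ∃ k ∈ DD G a t, ∀ x ∈ X, (k * x * k⁻¹) * t = t * (k * x * k⁻¹) := by
  obtain ⟨u, hu, huX⟩ := exists_cent_Jab hS hX h3
  obtain ⟨h, hh, e⟩ := Jab_conj_to_t hS hu
  refine ⟨h, hh.1, ?_⟩
  intro x hx
  have c := (Subgroup.mem_centralizer_iff.mp huX) x hx
  rw [← e]
  have e1 : h * x * h⁻¹ * (h * u * h⁻¹) = h * (x * u) * h⁻¹ := by group
  have e2 : h * u * h⁻¹ * (h * x * h⁻¹) = h * (u * x) * h⁻¹ := by group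
  rw [e1, e2, c]

theorem even_card_cent_Q (hS : IsRankOneSetup G Ω a t Q) {X : Set G}
    (hX : X ⊆ (DD G a t : Set G))
    (h3 : ∃ f : Ω, f ≠ a ∧ f ≠ t • a ∧ ∀ x ∈ X, x • f = f) :
    Even (Nat.card ↥(Subgroup.centralizer X ⊓ Q)) := by
  obtain ⟨u, hu, huX⟩ := exists_cent_Jab hS hX h3
  obtain ⟨e, he⟩ := exists_fixed hS hu.1
  have hXe : ∀ x ∈ X, x • e = e := fun x hx =>
    commute_fixed hS (Jab_ne_one hS hu) hu.1 he ((Subgroup.mem_centralizer_iff.mp huX) x hx)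
  obtain ⟨g, hg, hge⟩ := cent_to_a hS hX h3 hXe
  obtain ⟨z1, z2⟩ := conj_invol (g := g) (Jab_ne_one hS hu) hu.1
  have hza : (g * u * g⁻¹) • a = a := by
    rw [← hge, mul_smul, mul_smul, inv_smul_smul, he]
  have hz : g * u * g⁻¹ ∈ Subgroup.centralizer X ⊓ Q :=
    Subgroup.mem_inf.mpr ⟨Subgroup.mul_mem _ (Subgroup.mul_mem _ hg huX) (Subgroup.inv_mem _ hg),
      invol_mem_Q hS hza z2⟩
  have ho : orderOf (g * u * g⁻¹) = 2 := orderOf_eq_prime (by rw [pow_two, z2]) z1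
  rw [even_iff_two_dvd, ← ho]
  exact Subgroup.orderOf_dvd_natCard _ hz

end Fin

end Cfsg.Agent.Lib.Helper24RankOneC
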