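import Mathlib
import Cfsg.Prelude.Def_LieRecognition
import Cfsg.Agent.Lib.Helper24Invert
import Cfsg.Agent.Lib.Helper24RankOne
import Cfsg.Agent.Lib.Helper24RankOneB
import Cfsg.Agent.Lib.Helper24RankOneC
import Cfsg.Agent.S1128

set_option autoImplicit false
set_option linter.unusedSectionVars false
set_option linter.style.haveILetI false

namespace Cfsg.Agent.Lib.Helper24RankOneD

open MulAction Cfsg.Agent.Lib.Helper24RankOne Cfsg.Agent.Lib.Helper24Invert
  Cfsg.Agent.Lib.Helper24RankOneB Cfsg.Agent.Lib.Helper24RankOneC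

variable {G Ω : Type*} [Group G] [MulAction G Ω] {a : Ω} {t : G} {Q : Subgroup G}

/-- If `k` normalises the finite subgroup `Q` and centralises no non-identity element of `Q`, then
`k` fixes no non-trivial `Q`-class: `k⁻¹ c k = u c u⁻¹` with `c, u ∈ Q` forces `c = 1`. -/
theorem fpf_no_class {M : Type*} [Group M] {Q : Subgroup M} [Finite Q] {k : M}
    (hk : ∀ x ∈ Q, k⁻¹ * x * k ∈ Q) (hfpf : ∀ x ∈ Q, k⁻¹ * x * k = x → x = 1) {c u : M}
    (hc : c ∈ Q) (hu : u ∈ Q) (h : k⁻¹ * c * k = u * c * u⁻¹) : c = 1 := by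
  -- the map `h ↦ (k⁻¹ h k)⁻¹ * h` is injective hence surjective on `Q`
  let f : Q → Q := fun x => ⟨(k⁻¹ * x * k)⁻¹ * x, Q.mul_mem (Q.inv_mem (hk x x.2)) x.2⟩
  have hinj : Function.Injective f := by
    intro x y hxy
    have e : (k⁻¹ * (x : M) * k)⁻¹ * x = (k⁻¹ * (y : M) * k)⁻¹ * y := congrArg Subtype.val hxy
    have e2 : k⁻¹ * ((y : M) * (x : M)⁻¹) * k = (y : M) * (x : M)⁻¹ := by
      have e3 : k⁻¹ * ((y : M) * (x : M)⁻¹) * k = (k⁻¹ * (y : M) * k) * (k⁻¹ * (x : M) * k)⁻¹ := by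
        group
      rw [e3]
      have := congrArg (fun z => (k⁻¹ * (y : M) * k) * z * (x : M)⁻¹) e
      simpa only [mul_assoc, mul_inv_cancel, mul_one, mul_inv_cancel_left] using this
    have := hfpf _ (Q.mul_mem y.2 (Q.inv_mem x.2)) e2
    exact Subtype.ext (mul_inv_eq_one.mp this).symm
  obtain ⟨g, hg⟩ := (Finite.surjective_of_injective hinj) ⟨u, hu⟩
  have hg' : (k⁻¹ * (g : M) * k)⁻¹ * g = u := congrArg Subtype.val hg
  have h1 : k⁻¹ * ((g : M) * c * (g : M)⁻¹) * k = (g : M) * c * (g : M)⁻¹ := by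
    have e3 : k⁻¹ * ((g : M) * c * (g : M)⁻¹) * k =
        (k⁻¹ * (g : M) * k) * (k⁻¹ * c * k) * (k⁻¹ * (g : M) * k)⁻¹ := by group
    rw [e3, h, ← hg']; group
  have h2 := hfpf _ (Q.mul_mem (Q.mul_mem g.2 hc) (Q.inv_mem g.2)) h1
  have := congrArg (fun z => (g : M)⁻¹ * z * g) h2
  simpa [mul_assoc] using this

section Fin

variable [Finite G]

/-- involutions of `G_a` are central in `Q` -/
theorem invol_central (hS : IsRankOneSetup G Ω a t Q) {s : G}
    (hs : s ∈ involutionsIn (stabilizer G a : Set G)) {x : G} (hx : x ∈ Q) : s * x = x * s := by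
  have hsQ : s ∈ Q := invol_mem_Q hS hs.1 hs.2.2
  obtain ⟨e1, e2⟩ := conj_invol (g := x) hs.2.1 hs.2.2
  have hs' : x * s * x⁻¹ ∈ involutionsIn (stabilizer G a : Set G) :=
    ⟨(stabilizer G a).mul_mem ((stabilizer G a).mul_mem (hS.le hx) hs.1)
      ((stabilizer G a).inv_mem (hS.le hx)), e1, e2⟩
  obtain ⟨k, hk, hks⟩ := inverted_trans hS hs hs'
  by_cases hk1 : k = 1
  · subst hk1
    simp only [inv_one, one_mul, mul_one] at hks
    exact (mul_inv_eq_iff_eq_mul.mp hks.symm).symm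
  · exfalso
    have hfp := Cfsg.Agent.S1128.fpf hS k hk hk1
    have hkQ : ∀ y ∈ Q, k⁻¹ * y * k ∈ Q := by
      intro y hy
      have := hS.conj_mem k⁻¹ ((stabilizer G a).inv_mem hk.1.1) y hy
      rwa [inv_inv] at this
    have hfpf : ∀ y ∈ Q, k⁻¹ * y * k = y → y = 1 := by
      intro y hy h
      have : y ∈ Q ⊓ Subgroup.centralizer {k} := by
        refine Subgroup.mem_inf.mpr ⟨hy, ?_⟩
        rw [Subgroup.mem_centralizer_singleton_iff]
        have h2 := congrArg (fun z => k * z) h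
        simpa [mul_assoc] using h2
      rw [hfp] at this
      exact this
    exact hs.2.1 (fpf_no_class hkQ hfpf hsQ hx hks)

end Fin

end Cfsg.Agent.Lib.Helper24RankOneD
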