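import Mathlib
import Cfsg.Prelude.Def_Blocks
import Cfsg.Agent.Lib.Helper81ClassMul
import Cfsg.Agent.Lib.Helper81Part
import Cfsg.Agent.Lib.Helper4Char4
import Cfsg.Agent.S0925

set_option autoImplicit false

/-! Toolbox for the Brauer-Suzuki theorem: class multiplication inside a block. -/

namespace Cfsg.Agent.Lib.Helper25BS

open Cfsg
open Cfsg.Agent.Lib.Helper81Local Cfsg.Agent.Lib.Helper81Base Cfsg.Agent.Lib.Helper81BB
  Cfsg.Agent.Lib.Helper81Block Cfsg.Agent.Lib.Helper81ClassMul Cfsg.Agent.Lib.Helper81Part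
open scoped ComplexConjugate

variable {G : Type*} [Group G] [Fintype G]

/-- the conjugate of the class multiplication function, as a combination of irreducibles -/
noncomputable def thetaBar (x z : G) : G → ℂ :=
  ∑ χ : IrrCharacter G, conj ((χ : G → ℂ) x * (χ : G → ℂ) z / (χ : G → ℂ) 1) • (χ : G → ℂ)

theorem thetaBar_apply (x z w : G) : thetaBar x z w = conj (theta x z w) := by
  unfold thetaBar theta
  rw [Finset.sum_apply, map_sum]
  apply Finset.sum_congr rfl
  intro χ _
  simp only [Pi.smul_apply, smul_eq_mul, map_mul, map_div₀, Complex.conj_conj]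
  ring

theorem thetaBar_classfn (x z : G) : IsClassFunction G (thetaBar x z) := by
  unfold thetaBar
  apply Cfsg.Agent.Lib.Helper4Char.IsClassFunction.sum
  intro χ _
  exact Cfsg.Agent.Lib.Helper4Char.IsClassFunction.smul _
    (Cfsg.Agent.Lib.Helper4Char.IsIrrCharacter.isClassFunction χ.2)

theorem classInner_thetaBar (x z : G) (ψ : IrrCharacter G) :
    classInner (thetaBar x z) (ψ : G → ℂ)
      = conj ((ψ : G → ℂ) x * (ψ : G → ℂ) z / (ψ : G → ℂ) 1) := by
  classical
  unfold thetaBar
  rw [Cfsg.Agent.Lib.Helper4Char.classInner_sum_left]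
  simp only [Cfsg.Agent.Lib.Helper4Char.classInner_smul_left]
  rw [Finset.sum_eq_single ψ]
  · rw [Cfsg.Agent.Lib.Helper4Char.classInner_irr_self ψ.2, mul_one]
  · intro χ _ hne
    rw [Cfsg.Agent.Lib.Helper4Char.classInner_irr_ne χ.2 ψ.2 (fun h => hne (Subtype.ext h)),
      mul_zero]
  · intro h; exact absurd (Finset.mem_univ _) h

/-- Class multiplication inside a block: if no product of a conjugate of `x` with a conjugate of
`z` lies in the `p`-section of `x₀`, then the block part of the class multiplication function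
vanishes on that section. -/
theorem block_theta {p : ℕ} [Fact p.Prime] {M : Ideal AlgInt} (hM : IsPModular p M)
    {B : Set (IrrCharacter G)} (hB : IsPBlock M B) [DecidablePred (· ∈ B)] (x z w x₀ : G)
    (hx₀ : ∃ k : ℕ, orderOf x₀ = p ^ k) (hw : IsPPart p w x₀)
    (hvan : ∀ u z' : G, IsPPart p u z' → IsConj x₀ z' →
      ∀ s t : G, ¬ IsConj (s * x * s⁻¹ * (t * z * t⁻¹)) u) :
    ∑ χ : IrrCharacter G, (if χ ∈ B then
      conj ((χ : G → ℂ) x * (χ : G → ℂ) z / (χ : G → ℂ) 1) * (χ : G → ℂ) w else 0) = 0 := by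
  have h1 := (Cfsg.Agent.S0925.result p M hM).1 (thetaBar x z) (thetaBar_classfn x z) x₀ hx₀
    (by
      intro u z' hu hc
      rw [thetaBar_apply, theta_eq_zero (hvan u z' hu hc), map_zero])
    B hB w x₀ hw (IsConj.refl _)
  rw [blockPart_def] at h1
  refine Eq.trans ?_ h1
  apply Finset.sum_congr rfl
  intro χ _
  split_ifs
  · have := classInner_thetaBar x z χ
    unfold classInner at this
    rw [this]
  · rfl

end Cfsg.Agent.Lib.Helper25BS
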