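import Mathlib
import Cfsg.Agent.Lib.Helper29ZStarC
import Cfsg.Agent.Lib.Helper59BSGrp
import Cfsg.Agent.Lib.Helper41Dic

set_option autoImplicit false

/-! Group-theoretic end game of the Brauer-Suzuki theorem: from the `Z*`-theorem for the unique
involution of a generalized quaternion Sylow 2-subgroup to the statements about the centre and
about the subgroup generated by the involutions. -/

namespace Cfsg.Agent.Lib.Helper25BSFinal

open Cfsg QuaternionGroup
open Cfsg.Agent.Lib.Helper29ZStarC Cfsg.Agent.Lib.Helper59BSGrp Cfsg.Agent.Lib.Helper41Dic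

universe u

theorem quat_invol (m : ℕ) [NeZero m] (q : QuaternionGroup m) (hq : orderOf q = 2) :
    q = a (m : ZMod (2 * m)) := by
  cases q with
  | a i =>
    have h : (a i : QuaternionGroup m) ^ 2 = 1 := by rw [← hq]; exact pow_orderOf_eq_one _
    rw [sq, a_mul_a, one_def, a.injEq] at h
    have h2 : 2 * i = 0 := by rw [two_mul i]; exact h
    rcases (two_mul_eq_zero_iff m i).1 h2 with rfl | rfl
    · exfalso
      rw [← one_def, orderOf_one] at hq
      omega
    · rfl
  | xa i =>
    rw [orderOf_xa] at hq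
    omega

theorem orderOf_a_m (m : ℕ) [NeZero m] : orderOf (a (m : ZMod (2 * m)) : QuaternionGroup m) = 2 := by
  apply orderOf_eq_prime
  · rw [sq, a_mul_a, one_def, a.injEq, ← two_mul]
    exact (two_mul_eq_zero_iff m _).2 (Or.inr rfl)
  · rw [one_def]
    intro h
    rw [a.injEq] at h
    exact natCast_ne_zero' m h

theorem quat_center (m : ℕ) [NeZero m] (hm : 2 ≤ m) (q : QuaternionGroup m)
    (hq : ∀ r : QuaternionGroup m, Commute q r) : q = 1 ∨ q = a (m : ZMod (2 * m)) := by
  cases q with
  | a i =>
    have h2 := (commute_a_xa m i 0).1 (hq _)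
    rcases (two_mul_eq_zero_iff m i).1 h2 with rfl | rfl
    · left; rfl
    · right; rfl
  | xa i =>
    exfalso
    have h2 := (commute_xa_a m i 1).1 (hq _)
    have h3 : ((2 : ℕ) : ZMod (2 * m)) = 0 := by
      rw [mul_one] at h2
      exact_mod_cast h2
    rw [ZMod.natCast_eq_zero_iff] at h3
    have := Nat.le_of_dvd (by norm_num) h3
    omega

section

variable {G : Type u} [Group G] [Finite G]

omit [Finite G] in
/-- the involution of a generalized quaternion Sylow 2-subgroup -/
theorem exists_invol (S : Sylow 2 G) (m : ℕ) [NeZero m] (e : (S : Subgroup G) ≃* QuaternionGroup m) :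
    ∃ t : G, t ∈ (S : Subgroup G) ∧ orderOf t = 2 ∧
      (∀ u ∈ (S : Subgroup G), orderOf u = 2 → u = t) ∧
      (2 ≤ m → ∀ z ∈ (S : Subgroup G), (∀ s ∈ (S : Subgroup G), Commute z s) → z = 1 ∨ z = t) := by
  refine ⟨(e.symm (a (m : ZMod (2 * m))) : G), (e.symm _).2, ?_, ?_, ?_⟩
  · rw [Subgroup.orderOf_coe, MulEquiv.orderOf_eq, orderOf_a_m]
  · intro u hu ho
    have h1 : orderOf (e ⟨u, hu⟩) = 2 := by
      rw [MulEquiv.orderOf_eq, ← Subgroup.orderOf_coe]; exact ho
    have h2 := quat_invol m _ h1
    rw [← h2, MulEquiv.symm_apply_apply]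
  · intro hm z hz hc
    have h1 : ∀ r : QuaternionGroup m, Commute (e ⟨z, hz⟩) r := by
      intro r
      have h2 : Commute (⟨z, hz⟩ : (S : Subgroup G)) (e.symm r) := by
        apply Subtype.ext
        exact hc _ (e.symm r).2
      have h3 := h2.map e
      rwa [MulEquiv.apply_symm_apply] at h3
    rcases quat_center m hm _ h1 with h | h
    · left
      have : (⟨z, hz⟩ : (S : Subgroup G)) = 1 := by
        rw [← e.map_eq_one_iff]; exact h
      exact congrArg Subtype.val this
    · right
      rw [← h, MulEquiv.symm_apply_apply]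

omit [Finite G] in
theorem normal_of_le_center' (N : Subgroup G) (h : N ≤ Subgroup.center G) : N.Normal := by
  constructor
  intro x hx g
  have h1 := Subgroup.mem_center_iff.mp (h hx) g
  have : g * x * g⁻¹ = x := by rw [h1, mul_inv_cancel_right]
  rw [this]; exact hx

/-- **Brauer-Suzuki**, from the hypothesis `RHyp`. -/
theorem center_card (hR : RHyp.{u}) (S : Sylow 2 G) (m : ℕ) [NeZero m] (hm : 2 ≤ m)
    (e : (S : Subgroup G) ≃* QuaternionGroup m)
    (hO : ∀ N : Subgroup G, N.Normal → Odd (Nat.card N) → N = ⊥) :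
    Nat.card (Subgroup.center G) = 2 := by
  have : Fact (Nat.Prime 2) := ⟨Nat.prime_two⟩
  obtain ⟨t, htS, ht, huniq, hcen⟩ := exists_invol S m e
  have hiso := isolated_of_unique S t ht huniq
  have hcore : oddCore G = ⊥ := by
    apply hO _ inferInstance
    exact Nat.Coprime.odd_of_right (Cfsg.Agent.Lib.Helper1Fitting.card_pPrimeCore_coprime 2)
  have htc : t ∈ Subgroup.center G := by
    rw [Subgroup.mem_center_iff]
    intro g
    have h1 := zstar_of_R hR hiso g
    rw [hcore, Subgroup.mem_bot] at h1
    have h2 : t * g = g * t := by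
      have : t * g * t⁻¹ * g⁻¹ * g * t = g * t := by rw [h1, one_mul]
      simpa [mul_assoc] using this
    exact h2.symm
  have hz : ∀ z ∈ Subgroup.center G, z = 1 ∨ z = t := by
    intro z hz
    -- z is a 2-element
    obtain ⟨k, r, hr, hkr⟩ := Nat.exists_eq_two_pow_mul_odd (orderOf_pos z).ne'
    have hN : Subgroup.zpowers (z ^ (2 ^ k)) = ⊥ := by
      apply hO
      · apply normal_of_le_center'
        rw [Subgroup.zpowers_le]
        exact Subgroup.pow_mem _ hz _
      · rw [Nat.card_zpowers, orderOf_pow_of_dvd (pow_ne_zero _ (by norm_num)) ⟨r, hkr⟩, hkr,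
          Nat.mul_div_cancel_left _ (pow_pos (by norm_num) _)]
        exact hr
    rw [Subgroup.zpowers_eq_bot] at hN
    have hp : IsPGroup 2 (Subgroup.zpowers z) := by
      obtain ⟨j, _, hj⟩ := (Nat.dvd_prime_pow Nat.prime_two).1 (orderOf_dvd_of_pow_eq_one hN)
      exact IsPGroup.of_card (n := j) (by rw [Nat.card_zpowers, hj])
    obtain ⟨h, hh⟩ := exists_conj_le S _ hp
    have hzS : z ∈ (S : Subgroup G) := by
      have h1 := hh z (Subgroup.mem_zpowers z)
      have h2 := Subgroup.mem_center_iff.mp hz h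
      rwa [h2, mul_inv_cancel_right] at h1
    exact hcen hm z hzS (fun s _ => (Subgroup.mem_center_iff.mp hz s).symm)
  have heq : Subgroup.center G = Subgroup.zpowers t := by
    apply le_antisymm
    · intro z hz'
      rcases hz z hz' with rfl | rfl
      · exact Subgroup.one_mem _
      · exact Subgroup.mem_zpowers _
    · rw [Subgroup.zpowers_le]; exact htc
  rw [heq, Nat.card_zpowers, ht]

/-- the Sylow 2-subgroups of the subgroup generated by the involutions are cyclic -/
theorem cyclic_sylow_closure (hR : RHyp.{u}) (S : Sylow 2 G) (m : ℕ) [NeZero m]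
    (e : (S : Subgroup G) ≃* QuaternionGroup m)
    (Q : Sylow 2 ↥(Subgroup.closure {g : G | orderOf g = 2})) : IsCyclic Q := by
  have : Fact (Nat.Prime 2) := ⟨Nat.prime_two⟩
  obtain ⟨t, htS, ht, huniq, -⟩ := exists_invol S m e
  have hiso := isolated_of_unique S t ht huniq
  have hn : (oddCore G).Normal := inferInstance
  let π := QuotientGroup.mk' (oddCore G)
  have hconj : ∀ g : G, π (g * t * g⁻¹) = π t := by
    intro g
    have h1 := zstar_of_R hR hiso g
    have h2 : π (t * g * t⁻¹ * g⁻¹) = 1 := (QuotientGroup.eq_one_iff _).2 h1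
    simp only [map_mul, map_inv] at h2 ⊢
    have h3 : π t * π g = π g * π t := by
      have : π t * π g * (π t)⁻¹ * (π g)⁻¹ * π g * π t = π g * π t := by rw [h2, one_mul]
      simpa [mul_assoc] using this
    rw [← h3, mul_inv_cancel_right]
  have hle : Subgroup.closure {g : G | orderOf g = 2} ≤ (Subgroup.zpowers (π t)).comap π := by
    rw [Subgroup.closure_le]
    intro u hu
    have hu2 : orderOf u = 2 := hu
    have hp : IsPGroup 2 (Subgroup.zpowers u) :=
      IsPGroup.of_card (n := 1) (by rw [Nat.card_zpowers, hu2, pow_one])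
    obtain ⟨h, hh⟩ := exists_conj_le S _ hp
    have h1 := huniq _ (hh u (Subgroup.mem_zpowers u)) (by rw [orderOf_conj', hu2])
    have h2 : u = h⁻¹ * t * h⁻¹⁻¹ := by rw [← h1]; group
    show π u ∈ Subgroup.zpowers (π t)
    rw [h2, hconj]
    exact Subgroup.mem_zpowers _
  let f : Q →* Subgroup.zpowers (π t) :=
    (π.comp ((Subgroup.closure {g : G | orderOf g = 2}).subtype.comp
      (Q : Subgroup ↥(Subgroup.closure {g : G | orderOf g = 2})).subtype)).codRestrict _
      (fun q => hle q.1.2)
  have hf : Function.Injective f := by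
    rw [injective_iff_map_eq_one]
    intro q hq
    have h1 : π ((q : ↥(Subgroup.closure {g : G | orderOf g = 2})) : G) = 1 :=
      congrArg Subtype.val hq
    have h2 : ((q : ↥(Subgroup.closure {g : G | orderOf g = 2})) : G) ∈ oddCore G :=
      (QuotientGroup.eq_one_iff _).1 h1
    -- order of q is both a power of 2 and odd
    obtain ⟨k, hk⟩ := Q.2 q
    have h3 : orderOf q ∣ 2 ^ k := orderOf_dvd_of_pow_eq_one hk
    have h4 : orderOf q ∣ Nat.card (oddCore G) := by
      have : orderOf q = orderOf (⟨_, h2⟩ : oddCore G) := by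
        rw [← Subgroup.orderOf_coe, ← Subgroup.orderOf_coe, ← Subgroup.orderOf_coe]
      rw [this]
      exact orderOf_dvd_natCard _
    have h5 : (Nat.card (oddCore G)).Coprime 2 :=
      Cfsg.Agent.Lib.Helper1Fitting.card_pPrimeCore_coprime 2
    have h6 : orderOf q = 1 :=
      Nat.eq_one_of_dvd_coprimes (Nat.Coprime.pow_right k h5) h4 h3
    exact orderOf_eq_one_iff.mp h6
  exact isCyclic_of_injective f hf

end

end Cfsg.Agent.Lib.Helper25BSFinal
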