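import Cfsg.Agent.Lib.Helper25StarCDefs
import Cfsg.Agent.Lib.Helper80Trace

/-!
# Project 4634 (PI): the perfect isometry between a block with cyclic defect group and `Q ⋊ E`.
Vocabulary.  `F` is the group of order `|P| e` with the self-centralizing cyclic subgroup `Q`,
`σ : Q ≃* P`, `K = {η ∈ Irr F | Q ≤ ker η}` (`InK`), `L` the other irreducible characters of `F`.
`X`, `Y`, `δ`, `δ₀`: the non-exceptional / exceptional characters of `B` and their signs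
(helper81's `main_G`).  `Xi η = (η|_Q - e) * χ₁` (Broué–Puig star), `χ₁ ∈ X` fixed.
-/

set_option autoImplicit false
set_option linter.unusedSectionVars false

namespace Cfsg.Agent.Lib.Helper25PIDefs

open Cfsg
open Cfsg.Agent.Lib.Helper80StarDefs Cfsg.Agent.Lib.Helper80StarProps
open Cfsg.Agent.Lib.Helper25StarCDefs Cfsg.Agent.Lib.Helper78MajP
open scoped ComplexConjugate

universe u v

/-- the structure of `F = Q ⋊ E`. -/
structure FR (p : ℕ) {F : Type v} [Group F] (Q : Subgroup F) (e : ℕ) : Prop where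
  nor : ∀ y : F, ∀ v ∈ Q, y * v * y⁻¹ ∈ Q
  card : Nat.card F = Nat.card Q * e
  cyc : IsCyclic Q
  pg : IsPGroup p Q
  ne : Q ≠ ⊥
  dvd : e ∣ p - 1
  cen : ∀ v ∈ Q, v ≠ 1 → ∀ y : F, y * v = v * y → y ∈ Q
  comm : ∀ a b : F, a * b * a⁻¹ * b⁻¹ ∈ Q

/-- `Q ≤ ker η`. -/
def InK {F : Type v} [Group F] (Q : Subgroup F) (η : IrrCharacter F) : Prop :=
  ∀ x ∈ Q, (η : F → ℂ) x = (η : F → ℂ) 1

open Classical in
/-- transport of (the restriction to `Q` of) a function on `F` to a function on `G`, zero off `P`. -/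
noncomputable def tr {F : Type v} [Group F] {G : Type u} [Group G] {Q : Subgroup F}
    {P : Subgroup G} (σ : Q ≃* P) (φ : F → ℂ) : G → ℂ :=
  fun u => if h : u ∈ P then φ ((σ.symm ⟨u, h⟩ : Q) : F) else 0

open Classical in
/-- `∑_{χ ∈ X} δ_χ χ`. -/
noncomputable def AX {G : Type u} [Group G] [Fintype G] (X : Set (IrrCharacter G))
    (δ : IrrCharacter G → ℤ) : G → ℂ :=
  fun g => ∑ χ : IrrCharacter G, if χ ∈ X then (δ χ : ℂ) * (χ : G → ℂ) g else 0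

open Classical in
/-- the output of helper81's `main_G`. -/
structure XY (p : ℕ) {G : Type u} [Group G] [Fintype G] (B X Y : Set (IrrCharacter G))
    (δ : IrrCharacter G → ℤ) (δ₀ : ℤ) (e q : ℕ) : Prop where
  un : B = X ∪ Y
  dis : Disjoint X Y
  cX : Nat.card X = e
  cY : e * Nat.card Y + 1 = q
  sX : ∀ χ ∈ X, δ χ = 1 ∨ δ χ = -1
  s0 : δ₀ = 1 ∨ δ₀ = -1
  reg : ∀ ψ ∈ Y, ∀ g : G, ¬ p ∣ orderOf g → (δ₀ : ℂ) * (ψ : G → ℂ) g
    + ∑ χ : IrrCharacter G, (if χ ∈ X then (δ χ : ℂ) * (χ : G → ℂ) g else 0) = 0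
  sing : ∀ χ ∈ X, ∀ χ' ∈ X, ∀ g : G, p ∣ orderOf g →
    (δ χ : ℂ) * (χ : G → ℂ) g = (δ χ' : ℂ) * (χ' : G → ℂ) g

/-- the whole context. -/
structure Ctx (p : ℕ) (M : Ideal AlgInt) {G : Type u} [Group G] [Fintype G] {F : Type v} [Group F]
    (B : Set (IrrCharacter G)) (P : Subgroup G)
    (c : Set (IrrCharacter (Subgroup.centralizer (P : Set G)))) (Q : Subgroup F) (e : ℕ)
    (X Y : Set (IrrCharacter G)) (δ : IrrCharacter G → ℤ) (δ₀ : ℤ) (σ : Q ≃* P)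
    (χ₁ : IrrCharacter G) : Prop where
  hM : IsPModular p M
  hmax : IsMaximalBrauerPair p M B P c
  fr : FR p Q e
  xy : XY p B X Y δ δ₀ e (Nat.card P)
  fc : ∀ v v' : Q, FC p M P c ((σ v : P) : G) ((σ v' : P) : G) ↔
    ∃ y : F, y * (v : F) * y⁻¹ = (v' : F)
  hχ₁ : χ₁ ∈ X

/-- `(η|_Q - e) * χ₁`. -/
noncomputable def Xi (p : ℕ) (M : Ideal AlgInt) {G : Type u} [Group G] [Fintype G] {F : Type v}
    [Group F] (P : Subgroup G) (c : Set (IrrCharacter (Subgroup.centralizer (P : Set G))))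
    {Q : Subgroup F} (e : ℕ) (σ : Q ≃* P) (χ₁ : IrrCharacter G) (η : IrrCharacter F) : G → ℂ :=
  star p M P c (tr σ (fun y => (η : F → ℂ) y - (e : ℂ))) (χ₁ : G → ℂ)

/-- the properties of the isometry. -/
structure IsI (p : ℕ) (M : Ideal AlgInt) {G : Type u} [Group G] [Fintype G] {F : Type v} [Group F]
    (B : Set (IrrCharacter G)) (P : Subgroup G)
    (c : Set (IrrCharacter (Subgroup.centralizer (P : Set G)))) (Q : Subgroup F) (e : ℕ)
    (X Y : Set (IrrCharacter G)) (δ : IrrCharacter G → ℤ) (δ₀ : ℤ) (σ : Q ≃* P)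
    (χ₁ : IrrCharacter G) (I : IrrCharacter F → IrrCharacter G) (ε : IrrCharacter F → ℤ) :
    Prop where
  bij : Set.BijOn I Set.univ B
  bK : Set.BijOn I {η | InK Q η} X
  bL : Set.BijOn I {η | ¬ InK Q η} Y
  eK : ∀ η, InK Q η → ε η = δ (I η)
  eL : ∀ η, ¬ InK Q η → ε η = -δ₀
  xi : ∀ η, ¬ InK Q η → ∀ g : G, Xi p M P c e σ χ₁ η g
    = -(δ χ₁ : ℂ) * (AX X δ g + (δ₀ : ℂ) * (I η : G → ℂ) g)

end Cfsg.Agent.Lib.Helper25PIDefs
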