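import Mathlib
import Cfsg.Prelude.Def_Blocks
import Cfsg.Agent.Lib.Helper81Orth
import Cfsg.Agent.Lib.Helper81Subsec
import Cfsg.Agent.Lib.Helper81Subsec2
import Cfsg.Agent.Lib.Helper82Linear
import Cfsg.Agent.Lib.Helper25Isolated

set_option autoImplicit false

/-! Counting the characters of the principal 2-block by norms over 2-sections, for a group with a
central involution `t`, all of whose elements of order divisible by 4 behave like one element
`y` of order 4. -/

namespace Cfsg.Agent.Lib.Helper25Q8Count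

open Cfsg
open Cfsg.Agent.Lib.Helper81Base Cfsg.Agent.Lib.Helper81BB Cfsg.Agent.Lib.Helper81Block
  Cfsg.Agent.Lib.Helper81Orth Cfsg.Agent.Lib.Helper81Subsec Cfsg.Agent.Lib.Helper81Subsec2
  Cfsg.Agent.Lib.Helper82Linear
open scoped ComplexConjugate

variable {G : Type*} [Group G] [Fintype G]

/-- norm function of a finite set of irreducible characters -/
noncomputable def FF (𝓑 : Finset (IrrCharacter G)) (g : G) : ℂ :=
  ∑ ζ ∈ 𝓑, (ζ : G → ℂ) g * conj ((ζ : G → ℂ) g)

theorem sum_FF (𝓑 : Finset (IrrCharacter G)) : ∑ g, FF 𝓑 g = (Nat.card G : ℂ) * 𝓑.card := by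
  unfold FF
  rw [Finset.sum_comm]
  simp only [irr_orth, if_true]
  rw [Finset.sum_const, nsmul_eq_mul, mul_comm]

omit [Fintype G] in
theorem mid_iff (t : G) (htc : ∀ g, g * t = t * g) (ht : orderOf t = 2)
    (h2 : ∀ g, 2 ∣ orderOf g → ¬ 4 ∣ orderOf g → ¬ 2 ∣ orderOf (t * g)) (g : G) :
    (2 ∣ orderOf (t * g) ∧ ¬ 4 ∣ orderOf (t * g)) ↔ ¬ 2 ∣ orderOf g := by
  have htt : t * t = 1 := by rw [← sq, ← ht]; exact pow_orderOf_eq_one t
  constructor
  · rintro ⟨h, h'⟩
    have := h2 _ h h'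
    rwa [← mul_assoc, htt, one_mul] at this
  · intro h
    have hc : Commute t g := (htc g).symm
    have ho : orderOf (t * g) = 2 * orderOf g := by
      rw [hc.orderOf_mul_eq_mul_orderOf_of_coprime, ht]
      rw [ht]
      exact (Nat.Prime.coprime_iff_not_dvd Nat.prime_two).2 h
    rw [ho]
    refine ⟨Dvd.intro _ rfl, ?_⟩
    intro h4
    apply h
    have : 2 * 2 ∣ 2 * orderOf g := h4
    exact Nat.dvd_of_mul_dvd_mul_left (by norm_num) this

theorem sum_split (t : G) (htc : ∀ g, g * t = t * g) (ht : orderOf t = 2)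
    (h2 : ∀ g, 2 ∣ orderOf g → ¬ 4 ∣ orderOf g → ¬ 2 ∣ orderOf (t * g)) (f : G → ℂ) :
    ∑ g, f g = ∑ g, (if ¬ 2 ∣ orderOf g then f g + f (t * g) else 0)
      + ∑ g, (if 4 ∣ orderOf g then f g else 0) := by
  classical
  have h1 : ∑ g, f g = ∑ g, (if ¬ 2 ∣ orderOf g then f g else 0)
      + ∑ g, (if (2 ∣ orderOf g ∧ ¬ 4 ∣ orderOf g) then f g else 0)
      + ∑ g, (if 4 ∣ orderOf g then f g else 0) := by
    rw [← Finset.sum_add_distrib, ← Finset.sum_add_distrib]
    apply Finset.sum_congr rfl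
    intro g _
    by_cases ha : 2 ∣ orderOf g
    · by_cases hb : 4 ∣ orderOf g
      · simp [ha, hb]
      · simp [ha, hb]
    · have hb : ¬ 4 ∣ orderOf g := fun h => ha (Dvd.dvd.trans (by norm_num) h)
      simp [ha, hb]
  have h3 : ∑ g, (if (2 ∣ orderOf g ∧ ¬ 4 ∣ orderOf g) then f g else 0)
      = ∑ g, (if ¬ 2 ∣ orderOf g then f (t * g) else 0) := by
    rw [← Equiv.sum_comp (Equiv.mulLeft t)]
    apply Finset.sum_congr rfl
    intro g _
    show (if (2 ∣ orderOf (t * g) ∧ ¬ 4 ∣ orderOf (t * g)) then f (t * g) else 0) = _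
    by_cases h : ¬ 2 ∣ orderOf g
    · rw [if_pos h, if_pos ((mid_iff t htc ht h2 g).2 h)]
    · rw [if_neg h, if_neg (fun h' => h ((mid_iff t htc ht h2 g).1 h'))]
  rw [h1, h3, ← Finset.sum_add_distrib]
  congr 1
  apply Finset.sum_congr rfl
  intro g _
  by_cases h : ¬ 2 ∣ orderOf g
  · simp only [if_pos h]
  · simp only [if_neg h, add_zero]

theorem count7 {M : Ideal AlgInt} (hM : IsPModular 2 M) (t y : G)
    (htc : ∀ g, g * t = t * g) (ht : orderOf t = 2) (hy : orderOf y = 4)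
    (hyt : IsConj y (t * y))
    (h4 : ∀ g, 4 ∣ orderOf g → ∀ ζ ∈ principalBlock M G, (ζ : G → ℂ) g = (ζ : G → ℂ) y)
    (h2 : ∀ g, 2 ∣ orderOf g → ¬ 4 ∣ orderOf g → ¬ 2 ∣ orderOf (t * g))
    (hplus : Nat.card {ζ : IrrCharacter G // ζ ∈ principalBlock M G ∧
      (ζ : G → ℂ) t = (ζ : G → ℂ) 1} = 4) :
    Nat.card (principalBlock M G) = 7 := by
  classical
  have : Fact (Nat.Prime 2) := ⟨Nat.prime_two⟩
  have hMp := hM.2.1.isPrime
  set B := principalBlock M G with hBdef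
  have hB : IsPBlock M B := isPBlock_principalBlock
  have htt : t * t = 1 := by rw [← sq, ← ht]; exact pow_orderOf_eq_one t
  have ht1 : t ≠ 1 := by
    intro h; rw [h, orderOf_one] at ht; omega
  set Bp : Finset (IrrCharacter G) :=
    Finset.univ.filter (fun ζ => ζ ∈ B ∧ (ζ : G → ℂ) t = (ζ : G → ℂ) 1) with hBp
  set Bm : Finset (IrrCharacter G) :=
    Finset.univ.filter (fun ζ => ζ ∈ B ∧ ¬ (ζ : G → ℂ) t = (ζ : G → ℂ) 1) with hBm
  have hsq : ∀ ζ : IrrCharacter G, (ζ : G → ℂ) t = (ζ : G → ℂ) 1 ∨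
      (ζ : G → ℂ) t = - (ζ : G → ℂ) 1 := by
    intro ζ
    have h := irr_central_mul ζ htc t
    rw [htt] at h
    have h1 := irr_one_ne_zero ζ
    have h3 : ((ζ : G → ℂ) t - (ζ : G → ℂ) 1) * ((ζ : G → ℂ) t + (ζ : G → ℂ) 1) = 0 := by
      field_simp at h
      linear_combination -h
    rcases mul_eq_zero.1 h3 with h4 | h4
    · left; linear_combination h4
    · right; linear_combination h4
  have hp : ∀ ζ ∈ Bp, ∀ g, (ζ : G → ℂ) (t * g) = (ζ : G → ℂ) g := by
    intro ζ hζ g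
    rw [hBp, Finset.mem_filter] at hζ
    rw [irr_central_mul ζ htc g, hζ.2.2]
    have h1 := irr_one_ne_zero ζ
    field_simp
  have hm : ∀ ζ ∈ Bm, ∀ g, (ζ : G → ℂ) (t * g) = - (ζ : G → ℂ) g := by
    intro ζ hζ g
    rw [hBm, Finset.mem_filter] at hζ
    have h3 : (ζ : G → ℂ) t = - (ζ : G → ℂ) 1 := (hsq ζ).resolve_left hζ.2.2
    rw [irr_central_mul ζ htc g, h3]
    have h1 := irr_one_ne_zero ζ
    field_simp
  have hFp : ∀ g, FF Bp (t * g) = FF Bp g := by
    intro g
    unfold FF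
    apply Finset.sum_congr rfl
    intro ζ hζ
    rw [hp ζ hζ]
  have hFm : ∀ g, FF Bm (t * g) = FF Bm g := by
    intro g
    unfold FF
    apply Finset.sum_congr rfl
    intro ζ hζ
    rw [hm ζ hζ, map_neg, neg_mul_neg]
  have hsplit : ∀ f : IrrCharacter G → ℂ,
      ∑ ζ, (if ζ ∈ B then f ζ else 0) = ∑ ζ ∈ Bp, f ζ + ∑ ζ ∈ Bm, f ζ := by
    intro f
    rw [hBp, hBm, Finset.sum_filter, Finset.sum_filter, ← Finset.sum_add_distrib]
    apply Finset.sum_congr rfl
    intro ζ _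
    by_cases ha : ζ ∈ B
    · by_cases hb : (ζ : G → ℂ) t = (ζ : G → ℂ) 1
      · simp [ha, hb]
      · simp [ha, hb]
    · simp [ha]
  -- odd elements
  have hodd : ∀ g, ¬ 2 ∣ orderOf g → FF Bp g = FF Bm g := by
    intro g hg
    have h := block_orth hM hB (g := t * g) (h := g) (x := t) (y := 1)
      ⟨g, rfl, (htc g).symm, ⟨1, by rw [ht, pow_one]⟩, hg⟩
      ⟨g, one_mul g, Commute.one_left g, ⟨0, by simp⟩, hg⟩
      (by rw [isConj_one_left]; exact ht1)
    rw [hsplit] at h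
    have e1 : ∑ ζ ∈ Bp, (ζ : G → ℂ) (t * g) * conj ((ζ : G → ℂ) g) = FF Bp g := by
      unfold FF
      apply Finset.sum_congr rfl
      intro ζ hζ
      rw [hp ζ hζ]
    have e2 : ∑ ζ ∈ Bm, (ζ : G → ℂ) (t * g) * conj ((ζ : G → ℂ) g) = - FF Bm g := by
      unfold FF
      rw [← Finset.sum_neg_distrib]
      apply Finset.sum_congr rfl
      intro ζ hζ
      rw [hm ζ hζ, neg_mul]
    rw [e1, e2] at h
    linear_combination h
  -- faithful characters vanish at y
  have hmy : ∀ ζ ∈ Bm, (ζ : G → ℂ) y = 0 := by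
    intro ζ hζ
    obtain ⟨c, hc⟩ := isConj_iff.1 hyt
    have h1 := irr_conj ζ y c
    rw [hc, hm ζ hζ] at h1
    have : (2 : ℂ) * (ζ : G → ℂ) y = 0 := by linear_combination -h1
    simpa using this
  have hFm4 : ∀ g, 4 ∣ orderOf g → FF Bm g = 0 := by
    intro g hg
    unfold FF
    apply Finset.sum_eq_zero
    intro ζ hζ
    have hζB : ζ ∈ B := by
      rw [hBm, Finset.mem_filter] at hζ; exact hζ.2.1
    rw [h4 g hg ζ hζB, hmy ζ hζ, zero_mul]
  -- the class function Θ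
  have hΘ4 : ∀ g, 4 ∣ orderOf g →
      ∑ ζ, (if ζ ∈ B then (ζ : G → ℂ) g * conj ((ζ : G → ℂ) y) else 0) = FF Bp g := by
    intro g hg
    rw [hsplit]
    have e1 : ∑ ζ ∈ Bp, (ζ : G → ℂ) g * conj ((ζ : G → ℂ) y) = FF Bp g := by
      unfold FF
      apply Finset.sum_congr rfl
      intro ζ hζ
      have hζB : ζ ∈ B := by
        rw [hBp, Finset.mem_filter] at hζ; exact hζ.2.1
      rw [h4 g hg ζ hζB]
    have e2 : ∑ ζ ∈ Bm, (ζ : G → ℂ) g * conj ((ζ : G → ℂ) y) = 0 := by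
      apply Finset.sum_eq_zero
      intro ζ hζ
      rw [hmy ζ hζ, map_zero, mul_zero]
    rw [e1, e2, add_zero]
  have hΘ0 : ∀ g, ¬ 4 ∣ orderOf g →
      ∑ ζ, (if ζ ∈ B then (ζ : G → ℂ) g * conj ((ζ : G → ℂ) y) else 0) = 0 := by
    intro g hg
    obtain ⟨x, hx⟩ := exists_ppart (p := 2) Nat.prime_two g
    apply block_orth hM hB hx (y := y)
      ⟨1, mul_one y, Commute.one_right y, ⟨2, by rw [hy]; norm_num⟩, by simp⟩
    intro hc
    apply hg
    obtain ⟨v, hv, hcomm, -, hvo⟩ := hx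
    have hxo : orderOf x = 4 := by
      obtain ⟨c, hc'⟩ := isConj_iff.1 hc
      rw [← hy, ← hc']
      exact (Cfsg.Agent.Lib.Helper25Isolated.orderOf_conj c x).symm
    rw [← hv, hcomm.orderOf_mul_eq_mul_orderOf_of_coprime, hxo]
    · exact Dvd.intro _ rfl
    · rw [hxo]
      exact Nat.Coprime.pow_left 2 ((Nat.Prime.coprime_iff_not_dvd Nat.prime_two).2 hvo)
  have hone : irrOne G ∈ B := self_mem_blockOf (irrOne G)
  have hΘsum : ∑ g, ∑ ζ, (if ζ ∈ B then (ζ : G → ℂ) g * conj ((ζ : G → ℂ) y) else 0)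
      = (Nat.card G : ℂ) := by
    rw [Finset.sum_comm]
    have e1 : ∀ ζ : IrrCharacter G,
        ∑ g, (if ζ ∈ B then (ζ : G → ℂ) g * conj ((ζ : G → ℂ) y) else 0)
        = if ζ = irrOne G then (Nat.card G : ℂ) else 0 := by
      intro ζ
      have h1 := irr_orth ζ (irrOne G)
      have h2 : ∑ g, (ζ : G → ℂ) g = if ζ = irrOne G then (Nat.card G : ℂ) else 0 := by
        rw [← h1]
        apply Finset.sum_congr rfl
        intro g _
        show _ = (ζ : G → ℂ) g * conj (1 : ℂ)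
        rw [map_one, mul_one]
      by_cases hζ : ζ ∈ B
      · simp only [if_pos hζ]
        rw [← Finset.sum_mul, h2]
        by_cases h3 : ζ = irrOne G
        · rw [if_pos h3, h3]
          show (Nat.card G : ℂ) * conj (1 : ℂ) = _
          rw [map_one, mul_one]
        · rw [if_neg h3, zero_mul]
      · simp only [if_neg hζ, Finset.sum_const_zero]
        rw [if_neg]
        intro h3
        exact hζ (h3 ▸ hone)
    simp only [e1]
    simp
  have hsum4 : ∑ g, (if 4 ∣ orderOf g then FF Bp g else 0) = (Nat.card G : ℂ) := by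
    rw [← hΘsum]
    apply Finset.sum_congr rfl
    intro g _
    by_cases hg : 4 ∣ orderOf g
    · rw [if_pos hg, hΘ4 g hg]
    · rw [if_neg hg, hΘ0 g hg]
  have hsum4m : ∑ g, (if 4 ∣ orderOf g then FF Bm g else 0) = 0 := by
    apply Finset.sum_eq_zero
    intro g _
    by_cases hg : 4 ∣ orderOf g
    · rw [if_pos hg, hFm4 g hg]
    · rw [if_neg hg]
  have hA : ∑ g, (if ¬ 2 ∣ orderOf g then FF Bp g + FF Bp (t * g) else 0)
      = ∑ g, (if ¬ 2 ∣ orderOf g then FF Bm g + FF Bm (t * g) else 0) := by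
    apply Finset.sum_congr rfl
    intro g _
    by_cases hg : ¬ 2 ∣ orderOf g
    · rw [if_pos hg, if_pos hg, hFp, hFm, hodd g hg]
    · rw [if_neg hg, if_neg hg]
  have h1 := sum_split t htc ht h2 (FF Bp)
  have h3 := sum_split t htc ht h2 (FF Bm)
  rw [sum_FF, hsum4] at h1
  rw [sum_FF, hsum4m, ← hA] at h3
  have hcardp : Bp.card = 4 := by
    rw [← hplus, Nat.card_eq_fintype_card, Fintype.card_subtype]
  have hG0 : (Nat.card G : ℂ) ≠ 0 := card_ne_zero
  have hcardm : Bm.card = 3 := by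
    rw [hcardp] at h1
    have h5 : (Nat.card G : ℂ) * ((Bm.card : ℂ) - 3) = 0 := by
      push_cast at h1
      linear_combination h3 - h1
    have h6 := (mul_eq_zero.1 h5).resolve_left hG0
    have h7 : (Bm.card : ℂ) = 3 := by linear_combination h6
    exact_mod_cast h7
  have hcard : Nat.card B = Bp.card + Bm.card := by
    rw [Nat.card_eq_fintype_card, ← Finset.card_union_of_disjoint]
    · rw [Fintype.card_subtype]
      congr 1
      ext ζ
      simp only [hBp, hBm, Finset.mem_filter, Finset.mem_univ, true_and, Finset.mem_union]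
      constructor
      · intro h
        by_cases hb : (ζ : G → ℂ) t = (ζ : G → ℂ) 1
        · exact Or.inl ⟨h, hb⟩
        · exact Or.inr ⟨h, hb⟩
      · rintro (h | h) <;> exact h.1
    · rw [Finset.disjoint_left]
      intro ζ h h'
      rw [hBp, Finset.mem_filter] at h
      rw [hBm, Finset.mem_filter] at h'
      exact h'.2.2 h.2.2
  rw [hcard, hcardp, hcardm]

end Cfsg.Agent.Lib.Helper25Q8Count
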