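import Mathlib
import Cfsg.Prelude.Def_LieRecognition

set_option autoImplicit false

namespace Cfsg.Agent.Lib.Helper25RankOne

variable {G Ω : Type*} [Group G] [MulAction G Ω] {a : Ω} {t : G} {Q : Subgroup G}

theorem t_inv (hS : Cfsg.IsRankOneSetup G Ω a t Q) : t⁻¹ = t :=
  inv_eq_of_mul_eq_one_left hS.mul_self

theorem tta (hS : Cfsg.IsRankOneSetup G Ω a t Q) : t • t • a = a := by
  rw [← mul_smul, hS.mul_self, one_smul]

/-- `t` normalizes the two-point stabilizer. -/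
theorem conj_mem_D (hS : Cfsg.IsRankOneSetup G Ω a t Q) {h : G}
    (hh : h ∈ (MulAction.stabilizer G a ⊓ MulAction.stabilizer G (t • a))) :
    t * h * t ∈ (MulAction.stabilizer G a ⊓ MulAction.stabilizer G (t • a)) := by
  obtain ⟨h1, h2⟩ := Subgroup.mem_inf.mp hh
  rw [MulAction.mem_stabilizer_iff] at h1 h2
  refine Subgroup.mem_inf.mpr ⟨?_, ?_⟩
  · rw [MulAction.mem_stabilizer_iff, mul_smul, mul_smul, h2, tta hS]
  · rw [MulAction.mem_stabilizer_iff, mul_smul, mul_smul, tta hS, h1]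

theorem D_le (hS : Cfsg.IsRankOneSetup G Ω a t Q) {h : G}
    (hh : h ∈ (MulAction.stabilizer G a ⊓ MulAction.stabilizer G (t • a))) :
    h ∈ MulAction.stabilizer G a := (Subgroup.mem_inf.mp hh).1

theorem conj_mem_Q (hS : Cfsg.IsRankOneSetup G Ω a t Q) {h x : G}
    (hh : h ∈ (MulAction.stabilizer G a ⊓ MulAction.stabilizer G (t • a))) (hx : x ∈ Q) :
    h * x * h⁻¹ ∈ Q := hS.conj_mem h (D_le hS hh) x hx

theorem conj_mem_Q' (hS : Cfsg.IsRankOneSetup G Ω a t Q) {h x : G}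
    (hh : h ∈ (MulAction.stabilizer G a ⊓ MulAction.stabilizer G (t • a))) (hx : x ∈ Q) :
    h⁻¹ * x * h ∈ Q := by
  have := conj_mem_Q hS (Subgroup.inv_mem _ hh) hx
  rwa [inv_inv] at this

/-- Uniqueness of the canonical form `g h t f`. -/
theorem canonical_unique (hS : Cfsg.IsRankOneSetup G Ω a t Q) {g h f g' h' f' : G}
    (hg : g ∈ Q) (hh : h ∈ (MulAction.stabilizer G a ⊓ MulAction.stabilizer G (t • a))) (hf : f ∈ Q)
    (hg' : g' ∈ Q) (hh' : h' ∈ (MulAction.stabilizer G a ⊓ MulAction.stabilizer G (t • a)))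
    (hf' : f' ∈ Q) (e : g * h * t * f = g' * h' * t * f') : g = g' ∧ h = h' ∧ f = f' := by
  have stab : ∀ {g h : G}, g ∈ Q → h ∈ (MulAction.stabilizer G a ⊓ MulAction.stabilizer G (t • a)) →
      (g * h)⁻¹ • a = a := by
    intro g h hg hh
    have h1 : g * h ∈ MulAction.stabilizer G a := Subgroup.mul_mem _ (hS.le hg) (D_le hS hh)
    exact MulAction.mem_stabilizer_iff.mp (Subgroup.inv_mem _ h1)
  have e1 : (g * h * t * f)⁻¹ • a = f⁻¹ • t • a := by
    have : (g * h * t * f)⁻¹ = f⁻¹ * t⁻¹ * (g * h)⁻¹ := by group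
    rw [this, mul_smul, mul_smul, stab hg hh, t_inv hS]
  have e2 : (g' * h' * t * f')⁻¹ • a = f'⁻¹ • t • a := by
    have : (g' * h' * t * f')⁻¹ = f'⁻¹ * t⁻¹ * (g' * h')⁻¹ := by group
    rw [this, mul_smul, mul_smul, stab hg' hh', t_inv hS]
  rw [e, e2] at e1
  have hff : f * f'⁻¹ ∈ Q ⊓ MulAction.stabilizer G (t • a) := by
    refine Subgroup.mem_inf.mpr ⟨Q.mul_mem hf (Q.inv_mem hf'), ?_⟩
    rw [MulAction.mem_stabilizer_iff, mul_smul, e1, smul_inv_smul]
  rw [hS.inf_eq_bot, Subgroup.mem_bot] at hff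
  have hf_eq : f = f' := by
    calc f = (f * f'⁻¹) * f' := by group
      _ = f' := by rw [hff, one_mul]
  subst hf_eq
  have e3 : g * h = g' * h' := by
    have := mul_right_cancel (mul_right_cancel e)
    exact this
  have hgg : g'⁻¹ * g ∈ Q ⊓ MulAction.stabilizer G (t • a) := by
    refine Subgroup.mem_inf.mpr ⟨Q.mul_mem (Q.inv_mem hg') hg, ?_⟩
    have : g'⁻¹ * g = h' * h⁻¹ := by
      calc g'⁻¹ * g = g'⁻¹ * (g * h) * h⁻¹ := by group
        _ = g'⁻¹ * (g' * h') * h⁻¹ := by rw [e3]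
        _ = _ := by group
    rw [this]
    exact Subgroup.mul_mem _ (Subgroup.mem_inf.mp hh').2 (Subgroup.inv_mem _ (Subgroup.mem_inf.mp hh).2)
  rw [hS.inf_eq_bot, Subgroup.mem_bot] at hgg
  have hg_eq : g = g' := by
    calc g = g' * (g'⁻¹ * g) := by group
      _ = g' := by rw [hgg, mul_one]
  subst hg_eq
  exact ⟨rfl, mul_left_cancel e3, rfl⟩

end Cfsg.Agent.Lib.Helper25RankOne
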