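import Mathlib
import Cfsg.Prelude.Def_Blocks
import Cfsg.Agent.Lib.Helper81Orth

set_option autoImplicit false

/-! Brauer--Tuan: double block orthogonality for two primes `p`, `q` such that `G` has no element of
order divisible by `p * q`. -/

namespace Cfsg.Agent.Lib.Helper25Tuan

open Cfsg
open Cfsg.Agent.Lib.Helper81Base Cfsg.Agent.Lib.Helper81BB Cfsg.Agent.Lib.Helper81Orth
open scoped ComplexConjugate

variable {G : Type*} [Group G] [Fintype G]

theorem double_orth {p q : ℕ} {M M' : Ideal AlgInt} (hM : IsPModular p M) (hM' : IsPModular q M')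
    {B B' : Set (IrrCharacter G)} (hB : IsPBlock M B) (hB' : IsPBlock M' B')
    [DecidablePred (· ∈ B)] [DecidablePred (· ∈ B')] {x z : G}
    (hx : p ∣ orderOf x) (hz : q ∣ orderOf z)
    (hno : ∀ g : G, p ∣ orderOf g → ¬ q ∣ orderOf g) :
    ∑ χ : IrrCharacter G, (if χ ∈ B then (if χ ∈ B' then
      conj ((χ : G → ℂ) x) * conj ((χ : G → ℂ) z) else 0) else 0) = 0 := by
  classical
  have key : ∀ g : G,
      (∑ χ : IrrCharacter G, (if χ ∈ B then (χ : G → ℂ) g * conj ((χ : G → ℂ) x) else 0)) *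
      (∑ ψ : IrrCharacter G, (if ψ ∈ B' then (ψ : G → ℂ) g⁻¹ * conj ((ψ : G → ℂ) z) else 0)) = 0 := by
    intro g
    by_cases hg : p ∣ orderOf g
    · rw [weak_block_orth hM' hB' (x := g⁻¹) (by rw [orderOf_inv]; exact hno g hg) hz, mul_zero]
    · rw [weak_block_orth hM hB hg hx, zero_mul]
  have h1 : ∑ g : G,
      (∑ χ : IrrCharacter G, (if χ ∈ B then (χ : G → ℂ) g * conj ((χ : G → ℂ) x) else 0)) *
      (∑ ψ : IrrCharacter G, (if ψ ∈ B' then (ψ : G → ℂ) g⁻¹ * conj ((ψ : G → ℂ) z) else 0)) = 0 :=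
    Finset.sum_eq_zero fun g _ => key g
  have h2 : ∑ g : G,
      (∑ χ : IrrCharacter G, (if χ ∈ B then (χ : G → ℂ) g * conj ((χ : G → ℂ) x) else 0)) *
      (∑ ψ : IrrCharacter G, (if ψ ∈ B' then (ψ : G → ℂ) g⁻¹ * conj ((ψ : G → ℂ) z) else 0))
      = (Nat.card G : ℂ) * ∑ χ : IrrCharacter G, (if χ ∈ B then (if χ ∈ B' then
      conj ((χ : G → ℂ) x) * conj ((χ : G → ℂ) z) else 0) else 0) := by
    simp_rw [Finset.sum_mul_sum]
    rw [Finset.sum_comm, Finset.mul_sum]
    apply Finset.sum_congr rfl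
    intro χ _
    rw [Finset.sum_comm]
    have h3 : ∀ ψ : IrrCharacter G, ∑ g : G,
        (if χ ∈ B then (χ : G → ℂ) g * conj ((χ : G → ℂ) x) else 0) *
        (if ψ ∈ B' then (ψ : G → ℂ) g⁻¹ * conj ((ψ : G → ℂ) z) else 0)
        = if χ = ψ then (Nat.card G : ℂ) * (if χ ∈ B then (if χ ∈ B' then
      conj ((χ : G → ℂ) x) * conj ((χ : G → ℂ) z) else 0) else 0) else 0 := by
      intro ψ
      by_cases hχ : χ ∈ B
      · by_cases hψ : ψ ∈ B'
        · simp only [if_pos hχ, if_pos hψ]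
          have h4 := irr_orth' χ ψ
          have h5 : ∑ g : G, (χ : G → ℂ) g * conj ((χ : G → ℂ) x) *
              ((ψ : G → ℂ) g⁻¹ * conj ((ψ : G → ℂ) z))
              = (∑ g : G, (χ : G → ℂ) g * (ψ : G → ℂ) g⁻¹) *
                (conj ((χ : G → ℂ) x) * conj ((ψ : G → ℂ) z)) := by
            rw [Finset.sum_mul]
            apply Finset.sum_congr rfl
            intro g _
            ring
          rw [h5, h4]
          by_cases hχψ : χ = ψ
          · subst hχψ
            simp [hψ]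
          · simp [hχψ]
        · simp only [if_neg hψ, mul_zero, Finset.sum_const_zero]
          by_cases hχψ : χ = ψ
          · subst hχψ
            simp [hψ]
          · simp [hχψ]
      · simp [hχ]
    rw [Finset.sum_congr rfl fun ψ _ => h3 ψ]
    simp
  rw [h2] at h1
  exact (mul_eq_zero.mp h1).resolve_left card_ne_zero

end Cfsg.Agent.Lib.Helper25Tuan
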