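import Mathlib

/-!
B-G Theorem 3.4 project (S3769), piece A: lower bound for the commutant of an operator of order `r`
without eigenvalue `1`.
-/

set_option autoImplicit false

namespace Cfsg.Agent.Lib.Helper27BG34A

variable {F V : Type*} [Field F] [AddCommGroup V] [Module F V]

/-- counting lemma: a function with at most `n` values. -/
theorem sq_card_le {I K : Type*} [Fintype I] [DecidableEq I] [DecidableEq K] (μ : I → K) (n : ℕ)
    (hn : (Finset.univ.image μ).card ≤ n) :
    (Fintype.card I) ^ 2 ≤ n * Fintype.card {ij : I × I // μ ij.1 = μ ij.2} := by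
  set S := Finset.univ.image μ with hS
  let m : K → ℕ := fun c => (Finset.univ.filter (fun i => μ i = c)).card
  have h1 : Fintype.card I = ∑ c ∈ S, m c := by
    rw [← Finset.card_univ]
    exact Finset.card_eq_sum_card_fiberwise (fun i _ => Finset.mem_image_of_mem μ (Finset.mem_univ i))
  have h2 : Fintype.card {ij : I × I // μ ij.1 = μ ij.2} = ∑ c ∈ S, m c ^ 2 := by
    rw [Fintype.card_subtype]
    rw [Finset.card_eq_sum_card_fiberwise (f := fun ij : I × I => μ ij.1) (t := S)
      (fun i _ => Finset.mem_image_of_mem μ (Finset.mem_univ i.1))]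
    apply Finset.sum_congr rfl
    intro c _
    have : (Finset.univ.filter (fun ij : I × I => μ ij.1 = μ ij.2)).filter (fun ij => μ ij.1 = c)
        = (Finset.univ.filter (fun i => μ i = c)) ×ˢ (Finset.univ.filter (fun i => μ i = c)) := by
      ext ⟨i, j⟩
      simp only [Finset.mem_filter, Finset.mem_univ, true_and, Finset.mem_product]
      constructor
      · rintro ⟨h, h'⟩
        exact ⟨h', by rw [← h, h']⟩
      · rintro ⟨h, h'⟩
        exact ⟨by rw [h, h'], h⟩
    rw [this, Finset.card_product, sq]
  rw [h1, h2]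
  calc (∑ c ∈ S, m c) ^ 2 ≤ S.card * ∑ c ∈ S, m c ^ 2 := sq_sum_le_card_mul_sum_sq
    _ ≤ n * ∑ c ∈ S, m c ^ 2 := Nat.mul_le_mul_right _ hn

/-- `X ^ r = 1`, `r` invertible, no eigenvalue `1`: then `X` is diagonalisable with at most `r - 1`
eigenvalues `μ` of multiplicities `m μ`, `dim V = ∑ m μ`, `dim C(X) = ∑ (m μ)^2`; Cauchy-Schwarz. -/
theorem sq_finrank_le [IsAlgClosed F] [FiniteDimensional F V] (X : Module.End F V) (r : ℕ)
    (hr : 0 < r) (hrF : (r : F) ≠ 0) (hX : X ^ r = 1) (hfix : ∀ w, X w = w → w = 0) :
    (Module.finrank F V) ^ 2 ≤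
      (r - 1) * Module.finrank F (Subalgebra.centralizer F ({X} : Set (Module.End F V))) := by
  classical
  have hsep : (Polynomial.X ^ r - Polynomial.C (1 : F)).Separable :=
    Polynomial.separable_X_pow_sub_C 1 hrF one_ne_zero
  have hss : X.IsSemisimple := by
    apply Module.End.isSemisimple_of_squarefree_aeval_eq_zero hsep.squarefree
    simp [hX]
  let eigenDecomp := DirectSum.isInternal_submodule_of_iSupIndep_of_iSup_eq_top
    X.eigenspaces_iSupIndep hss.iSup_eigenspace_eq_top
  let I := (ν : F) × Fin (Module.finrank F (X.eigenspace ν))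
  let v : Module.Basis I F V :=
    eigenDecomp.collectedBasis fun μ ↦ Module.finBasis F (X.eigenspace μ)
  have : Fintype I := FiniteDimensional.fintypeBasisIndex v
  let μ : I → F := Sigma.fst
  have hXv (i : I) : X (v i) = μ i • v i :=
    Module.End.mem_eigenspace_iff.mp (eigenDecomp.collectedBasis_mem _ i)
  have hμr : ∀ i, μ i ^ r = 1 := by
    intro i
    have h1 : ∀ n : ℕ, (X ^ n) (v i) = μ i ^ n • v i := by
      intro n
      induction n with
      | zero => simp
      | succ n ih => rw [pow_succ', Module.End.mul_apply, ih, map_smul, hXv, smul_smul, pow_succ]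
    have h2 := h1 r
    rw [hX, Module.End.one_apply] at h2
    have h3 : (μ i ^ r - 1) • v i = 0 := by rw [sub_smul, one_smul, ← h2, sub_self]
    rcases smul_eq_zero.mp h3 with h | h
    · exact sub_eq_zero.mp h
    · exact absurd h (v.ne_zero i)
  have hμ1 : ∀ i, μ i ≠ 1 := by
    intro i h
    exact v.ne_zero i (hfix (v i) (by rw [hXv, h, one_smul]))
  have hcard : (Finset.univ.image μ).card ≤ r - 1 := by
    have hsub : Finset.univ.image μ ⊆ (Polynomial.nthRootsFinset r (1 : F)).erase 1 := by
      intro c hc
      obtain ⟨i, _, rfl⟩ := Finset.mem_image.mp hc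
      rw [Finset.mem_erase, Polynomial.mem_nthRootsFinset hr]
      exact ⟨hμ1 i, hμr i⟩
    refine (Finset.card_le_card hsub).trans ?_
    rw [Finset.card_erase_of_mem (by rw [Polynomial.mem_nthRootsFinset hr]; exact one_pow r)]
    apply Nat.sub_le_sub_right
    exact (Multiset.toFinset_card_le _).trans (Polynomial.card_nthRoots r 1)
  let J := {ij : I × I // μ ij.1 = μ ij.2}
  have hmem : ∀ ij : J, v.end ij.1 ∈ Subalgebra.centralizer F ({X} : Set (Module.End F V)) := by
    rintro ⟨⟨i, j⟩, hij⟩
    rw [Subalgebra.mem_centralizer_iff]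
    intro g hg
    rw [Set.mem_singleton_iff] at hg
    subst hg
    apply v.ext
    intro k
    simp only [Module.End.mul_apply, hXv, map_smul, Module.Basis.end_apply_apply]
    simp only at hij
    by_cases hjk : j = k
    · subst hjk
      simp [hXv, hij]
    · simp [hjk]
  let E : J → Subalgebra.centralizer F ({X} : Set (Module.End F V)) :=
    fun ij => ⟨v.end ij.1, hmem ij⟩
  have hE : LinearIndependent F E := by
    apply LinearIndependent.of_comp
      (Subalgebra.centralizer F ({X} : Set (Module.End F V))).val.toLinearMap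
    exact v.end.linearIndependent.comp (fun ij : J => ij.1) Subtype.val_injective
  have h1 : Fintype.card J ≤
      Module.finrank F (Subalgebra.centralizer F ({X} : Set (Module.End F V))) :=
    hE.fintype_card_le_finrank
  rw [Module.finrank_eq_card_basis v]
  exact (sq_card_le μ (r - 1) hcard).trans (Nat.mul_le_mul_left _ h1)

end Cfsg.Agent.Lib.Helper27BG34A
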