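import Cfsg.Agent.Lib.Helper27BG34A
import Cfsg.Agent.Lib.Helper27BG34B
import Cfsg.Agent.Lib.Helper27BG34C

/-!
B-G Theorem 3.4 project (S3769), piece D: the extraspecial case.
-/

set_option autoImplicit false

namespace Cfsg.Agent.Lib.Helper27BG34D

open scoped commutatorElement
open Cfsg.Agent.Lib.Helper27BG34A Cfsg.Agent.Lib.Helper27BG34B Cfsg.Agent.Lib.Helper27BG34C

variable {F V : Type*} [Field F] [AddCommGroup V] [Module F V]

/-- the arithmetic core of the extraspecial case -/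
theorem arith_core (N s β γ r k : ℕ) (hN : 0 < N) (hs : 0 < s) (hr : r.Prime) (hr2 : Odd r)
    (h1 : N ^ 2 = s * β) (h2 : N ^ 2 ≤ (r - 1) * γ) (h3 : r * γ ≤ (s + r - 1) * β)
    (h4 : r ∣ s - 1) (hk : s = k ^ 2) (hsodd : Odd s) : s = 1 := by
  have hr1 : 1 ≤ r := hr.one_le
  obtain ⟨m, rfl⟩ : ∃ m, r = m + 1 := ⟨r - 1, by omega⟩
  have hβ : 0 < β := by
    rcases Nat.eq_zero_or_pos β with h | h
    · subst h
      have : N ^ 2 = 0 := by simpa using h1
      have : 0 < N ^ 2 := by positivity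
      omega
    · exact h
  simp only [Nat.add_sub_cancel] at h2
  have h3' : (m + 1) * γ ≤ (s + m) * β := by
    have : s + (m + 1) - 1 = s + m := by omega
    rwa [this] at h3
  -- (m+1) s β ≤ m (s+m) β
  have h5 : (m + 1) * s * β ≤ m * (s + m) * β := by
    calc (m + 1) * s * β = (m + 1) * (s * β) := by ring
      _ = (m + 1) * N ^ 2 := by rw [h1]
      _ ≤ (m + 1) * (m * γ) := Nat.mul_le_mul_left _ h2
      _ = m * ((m + 1) * γ) := by ring
      _ ≤ m * ((s + m) * β) := Nat.mul_le_mul_left _ h3'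
      _ = m * (s + m) * β := by ring
  have h6 : (m + 1) * s ≤ m * (s + m) := Nat.le_of_mul_le_mul_right h5 hβ
  have h7 : s ≤ m ^ 2 := by nlinarith
  subst hk
  have hkm : k ≤ m := by
    by_contra hcon
    push Not at hcon
    have : m ^ 2 < k ^ 2 := Nat.pow_lt_pow_left hcon (by norm_num)
    omega
  have hk0 : 0 < k := by
    rcases Nat.eq_zero_or_pos k with h | h
    · subst h; simp at hs
    · exact h
  by_contra hne
  have hk1 : 1 < k := by
    rcases Nat.lt_or_ge 1 k with h | h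
    · exact h
    · exfalso; apply hne
      have : k = 1 := by omega
      subst this; norm_num
  have hfac : k ^ 2 - 1 = (k - 1) * (k + 1) := by
    obtain ⟨j, rfl⟩ : ∃ j, k = j + 1 := ⟨k - 1, by omega⟩
    simp only [Nat.add_sub_cancel]
    have : (j + 1) ^ 2 = j * (j + 1 + 1) + 1 := by ring
    omega
  rw [hfac] at h4
  rcases (Nat.Prime.dvd_mul hr).1 h4 with h | h
  · have := Nat.le_of_dvd (by omega) h
    omega
  · have := Nat.le_of_dvd (by omega) h
    have hmk : m = k := by omega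
    subst hmk
    have hkodd : Odd m := by
      rcases Nat.even_or_odd m with he | ho
      · exfalso
        have : Even (m ^ 2) := he.pow_of_ne_zero (by norm_num)
        exact (Nat.not_even_iff_odd.2 hsodd) this
      · exact ho
    have : Even (m + 1) := hkodd.add_one
    exact (Nat.not_even_iff_odd.2 hr2) this

theorem extraspecial_case [IsAlgClosed F] [FiniteDimensional F V] [Nontrivial V]
    {Q : Type*} [Group Q] [Finite Q] (Z : Subgroup Q)
    (ρ : Q →* Module.End F V) (hQF : (Nat.card Q : F) ≠ 0) (hodd : Odd (Nat.card Q))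
    (hZ : ∀ z ∈ Z, ∃ c : F, ρ z = c • 1) (hcomm : ∀ u t : Q, ⁅u, t⁆ ∈ Z)
    (hnd : ∀ t : Q, t ∉ Z → ∃ u : Q, ρ ⁅u, t⁆ ≠ 1)
    (σ : Q ≃* Q) (X : Module.End F V) (r : ℕ) (hr : r.Prime) (hr2 : Odd r) (hrF : (r : F) ≠ 0)
    (hX : X ^ r = 1)
    (hσ : ∀ t, X * ρ t = ρ (σ t) * X) (hfree : ∀ t, σ t * t⁻¹ ∈ Z → t ∈ Z)
    (hfix : ∀ w, X w = w → w = 0) : Z = ⊤ := by
  obtain ⟨k, hk⟩ := index_eq_sq Z ρ hQF hZ hcomm hnd
  have h1 := sq_finrank_eq Z ρ hQF hZ hcomm hnd
  have h2 := sq_finrank_le X r hr.pos hrF hX hfix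
  obtain ⟨h4, h3⟩ := finrank_centralizer_le Z ρ hQF hZ hcomm hnd σ X r hr hX hσ hfree
  have hs : 0 < Z.index := Nat.pos_of_ne_zero Z.index_ne_zero_of_finite
  have hsodd : Odd Z.index := Odd.of_dvd_nat hodd Z.index_dvd_card
  have hN : 0 < Module.finrank F V := Module.finrank_pos
  exact Subgroup.index_eq_one.1 (arith_core _ _ _ _ r k hN hs hr hr2 h1 h2 h3 h4 hk hsodd)

end Cfsg.Agent.Lib.Helper27BG34D
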