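import Cfsg.Agent.Lib.Helper27BG34T
import Cfsg.Agent.Lib.Helper27BG34D

/-!
B-G Theorem 3.4 project (S3769), piece E3: the nonabelian case.
-/

set_option autoImplicit false

namespace Cfsg.Agent.Lib.Helper27BG34E3

open scoped commutatorElement
open Cfsg.Agent.Lib.Helper27BG34T Cfsg.Agent.Lib.Helper27BG34D

variable {F V : Type*} [Field F] [AddCommGroup V] [Module F V]

/-- the elements whose image commutes with the whole image -/
def cen {Q M : Type*} [Group Q] [Monoid M] (φ : Q →* M) : Subgroup Q where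
  carrier := {t | ∀ u, φ t * φ u = φ u * φ t}
  one_mem' := by intro u; simp
  mul_mem' := by
    intro a b ha hb u
    rw [map_mul, mul_assoc, hb u, ← mul_assoc, ha u, mul_assoc]
  inv_mem' := by
    intro a ha u
    have h1 : φ a⁻¹ * φ a = 1 := by rw [← map_mul, inv_mul_cancel, map_one]
    have h2 : φ a * φ a⁻¹ = 1 := by rw [← map_mul, mul_inv_cancel, map_one]
    calc φ a⁻¹ * φ u = φ a⁻¹ * φ u * (φ a * φ a⁻¹) := by rw [h2, mul_one]
      _ = φ a⁻¹ * (φ u * φ a) * φ a⁻¹ := by simp only [mul_assoc]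
      _ = φ a⁻¹ * (φ a * φ u) * φ a⁻¹ := by rw [ha u]
      _ = (φ a⁻¹ * φ a) * φ u * φ a⁻¹ := by simp only [mul_assoc]
      _ = φ u * φ a⁻¹ := by rw [h1, one_mul]

theorem mem_cen {Q M : Type*} [Group Q] [Monoid M] (φ : Q →* M) (t : Q) :
    t ∈ cen φ ↔ ∀ u, φ t * φ u = φ u * φ t := Iff.rfl

theorem cen_normal {Q M : Type*} [Group Q] [Monoid M] (φ : Q →* M) : (cen φ).Normal := by
  constructor
  intro t ht g
  have h1 : φ (g * t * g⁻¹) = φ t := by
    rw [map_mul, map_mul, ← ht g, mul_assoc, ← map_mul, mul_inv_cancel, map_one, mul_one]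
  intro u
  rw [h1]
  exact ht u

theorem map_comm_eq_one_iff {Q M : Type*} [Group Q] [Monoid M] (φ : Q →* M) (u t : Q) :
    φ ⁅u, t⁆ = 1 ↔ φ t * φ u = φ u * φ t := by
  constructor
  · intro h
    have h1 : u * t = ⁅u, t⁆ * (t * u) := by
      rw [commutatorElement_def]; group
    calc φ t * φ u = 1 * φ (t * u) := by rw [one_mul, map_mul]
      _ = φ (⁅u, t⁆ * (t * u)) := by rw [← h, ← map_mul]
      _ = φ u * φ t := by rw [← h1, map_mul]
  · intro h
    have h1 : φ (u * t) = φ (t * u) := by rw [map_mul, map_mul, h]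
    have h2 : ⁅u, t⁆ = (u * t) * (t * u)⁻¹ := by
      rw [commutatorElement_def]; group
    rw [h2, map_mul, h1, ← map_mul, mul_inv_cancel, map_one]

theorem nonabelian_case [IsAlgClosed F] [FiniteDimensional F V]
    {Q : Type*} [Group Q] [Finite Q] (σ : Q ≃* Q)
    (ρ : Q →* Module.End F V) (hρ : Function.Injective ρ) (hQF : (Nat.card Q : F) ≠ 0)
    (hodd : Odd (Nat.card Q))
    (X : Module.End F V) (r : ℕ) (hr : r.Prime) (hr2 : Odd r) (hrF : (r : F) ≠ 0) (hX : X ^ r = 1)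
    (hσ : ∀ t, X * ρ t = ρ (σ t) * X) (hfix : ∀ w, X w = w → w = 0)
    (Z : Subgroup Q) (hZfix : ∀ z ∈ Z, σ z = z) (hZc : ∀ z ∈ Z, ∀ t, z * t = t * z)
    (hcomm : ∀ u t : Q, ⁅u, t⁆ ∈ Z)
    (hN : ∀ N : Subgroup Q, N.Normal → N ≠ ⊤ → (∀ t ∈ N, σ t ∈ N) → N ≤ Z)
    (hfree : ∀ t, σ t * t⁻¹ ∈ Z → t ∈ Z)
    (hnab : ∃ u t : Q, u * t ≠ t * u) : False := by
  obtain ⟨u₀, t₀, hut⟩ := hnab
  set c : Q := ⁅u₀, t₀⁆ with hc
  have hcZ : c ∈ Z := hcomm u₀ t₀
  have hc1 : c ≠ 1 := by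
    intro h
    apply hut
    rw [hc, commutatorElement_eq_one_iff_mul_comm] at h
    exact h
  have hρc : ρ c ≠ 1 := fun h => hc1 (hρ (by rw [h, map_one]))
  -- commutation of `ρ z`, `z ∈ Z`, with everything
  have hzρ : ∀ z ∈ Z, ∀ t, ρ z * ρ t = ρ t * ρ z := by
    intro z hz t
    rw [← map_mul, ← map_mul, hZc z hz t]
  have hzX : ∀ z ∈ Z, ρ z * X = X * ρ z := by
    intro z hz
    rw [hσ z, hZfix z hz]
  set S : Set (Module.End F V) := Set.range ρ ∪ {X} with hS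
  set V₁ : Submodule F V := LinearMap.range (ρ c - 1) with hV₁
  have hV₁0 : V₁ ≠ ⊥ := by
    intro h
    apply hρc
    rw [hV₁, LinearMap.range_eq_bot, sub_eq_zero] at h
    exact h
  have hV₁inv : ∀ s ∈ S, ∀ v ∈ V₁, s v ∈ V₁ := by
    intro s hs v hv
    obtain ⟨x, rfl⟩ := hv
    have hcs : s * (ρ c - 1) = (ρ c - 1) * s := by
      rcases hs with ⟨t, rfl⟩ | hs
      · rw [mul_sub, sub_mul, hzρ c hcZ t, mul_one, one_mul]
      · rw [Set.mem_singleton_iff] at hs
        rw [hs, mul_sub, sub_mul, hzX c hcZ, mul_one, one_mul]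
    exact ⟨s x, (LinearMap.congr_fun hcs x).symm⟩
  obtain ⟨W, hWV, hW0, hWinv, hWmin⟩ := exists_min_invariant S V₁ hV₁0 hV₁inv
  have hinv : ∀ t, ∀ w ∈ W, ρ t w ∈ W := fun t w hw => hWinv (ρ t) (Or.inl ⟨t, rfl⟩) w hw
  have hXinv : ∀ w ∈ W, X w ∈ W := fun w hw => hWinv X (Or.inr rfl) w hw
  have hWnt : Nontrivial W := Submodule.nontrivial_iff_ne_bot.2 hW0
  obtain ⟨w₀, hw₀⟩ := exists_ne (0 : W)
  -- scalars
  have hsc : ∀ z ∈ Z, ∃ a : F, ∀ w ∈ W, ρ z w = a • w := by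
    intro z hz
    apply schur_on S W hW0 hWinv hWmin (ρ z) (hinv z)
    intro s hs w _
    rcases hs with ⟨t, rfl⟩ | hs
    · exact LinearMap.congr_fun (hzρ z hz t) w
    · rw [Set.mem_singleton_iff] at hs
      rw [hs]
      exact LinearMap.congr_fun (hzX z hz) w
  set ρW := resRep ρ W hinv with hρW
  set XW : Module.End F W := X.restrict hXinv with hXW
  have hZ' : ∀ z ∈ Z, ∃ a : F, ρW z = a • 1 := by
    intro z hz
    obtain ⟨a, ha⟩ := hsc z hz
    refine ⟨a, ?_⟩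
    ext w
    rw [hρW, resRep_apply, ha w w.2]
    simp
  have hρWc : ρW c ≠ 1 := by
    intro h
    have h1 : ρ c (w₀ : V) = (w₀ : V) := by
      have : ((ρW c w₀ : W) : V) = (w₀ : V) := by rw [h]; rfl
      rwa [hρW, resRep_apply] at this
    have h2 : (ρ c) ^ (Nat.card Q) = 1 := by
      rw [← map_pow, pow_card_eq_one', map_one]
    exact hw₀ (Subtype.ext (eq_zero_of_mem_range_sub_one (ρ c) (Nat.card Q) hQF h2 (w₀ : V)
      (hWV w₀.2) h1))
  have hXW_pow : ∀ n : ℕ, ∀ w : W, (((XW ^ n) w : W) : V) = (X ^ n) (w : V) := by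
    intro n
    induction n with
    | zero => intro w; simp
    | succ n ih =>
      intro w
      rw [pow_succ, pow_succ, Module.End.mul_apply, Module.End.mul_apply, ih]
      rfl
  have hX' : XW ^ r = 1 := by
    ext w
    rw [hXW_pow, hX]
    rfl
  have hσ' : ∀ t, XW * ρW t = ρW (σ t) * XW := by
    intro t
    ext w
    exact LinearMap.congr_fun (hσ t) (w : V)
  have hfix' : ∀ w : W, XW w = w → w = 0 := by
    intro w hw
    apply Subtype.ext
    apply hfix
    exact congrArg Subtype.val hw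
  have hXcancel : ∀ A B : Module.End F W, A * XW = B * XW → A = B := by
    intro A B h
    have hr0 : r ≠ 0 := hr.ne_zero
    have h1 : XW * XW ^ (r - 1) = 1 := by
      rw [← pow_succ', Nat.sub_add_cancel hr.one_le, hX']
    calc A = A * XW * XW ^ (r - 1) := by rw [mul_assoc, h1, mul_one]
      _ = B * XW * XW ^ (r - 1) := by rw [h]
      _ = B := by rw [mul_assoc, h1, mul_one]
  have hNle : cen ρW ≤ Z := by
    apply hN _ (cen_normal ρW)
    · intro h
      have h1 : t₀ ∈ cen ρW := by rw [h]; exact Subgroup.mem_top _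
      exact hρWc ((map_comm_eq_one_iff ρW u₀ t₀).2 (h1 u₀))
    · intro t ht u
      obtain ⟨u', rfl⟩ := σ.surjective u
      apply hXcancel
      calc ρW (σ t) * ρW (σ u') * XW = ρW (σ t) * (XW * ρW u') := by rw [mul_assoc, hσ']
        _ = XW * (ρW t * ρW u') := by rw [← mul_assoc, ← hσ', mul_assoc]
        _ = XW * (ρW u' * ρW t) := by rw [ht u']
        _ = ρW (σ u') * (XW * ρW t) := by rw [← mul_assoc, hσ', mul_assoc]
        _ = ρW (σ u') * ρW (σ t) * XW := by rw [hσ', mul_assoc]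
  have hnd' : ∀ t : Q, t ∉ Z → ∃ u : Q, ρW ⁅u, t⁆ ≠ 1 := by
    intro t ht
    by_contra hcon
    push Not at hcon
    exact ht (hNle fun u => (map_comm_eq_one_iff ρW u t).1 (hcon u))
  have htop := extraspecial_case Z ρW hQF hodd hZ' hcomm hnd' σ XW r hr hr2 hrF hX' hσ' hfree hfix'
  exact hut (hZc u₀ (by rw [htop]; exact Subgroup.mem_top _) t₀)

end Cfsg.Agent.Lib.Helper27BG34E3
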