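import Cfsg.Agent.Lib.Helper27BG34G
import Cfsg.Agent.Lib.Helper27BG34E2
import Cfsg.Agent.Lib.Helper27BG34E3

/-!
B-G Theorem 3.4 project (S3769), piece M: the linear form of the theorem.
-/

set_option autoImplicit false

namespace Cfsg.Agent.Lib.Helper27BG34M

open Cfsg.Agent.Lib.Helper27BG34G Cfsg.Agent.Lib.Helper27BG34E2 Cfsg.Agent.Lib.Helper27BG34E3

universe u

variable {F V : Type*} [Field F] [AddCommGroup V] [Module F V]

theorem pow_intertwine {Q : Type*} [Group Q] (X : Module.End F V) (σ : Q ≃* Q)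
    (ρ : Q →* Module.End F V) (hσ : ∀ t, X * ρ t = ρ (σ t) * X) (k : ℕ) (t : Q) :
    X ^ k * ρ t = ρ ((⇑σ)^[k] t) * X ^ k := by
  induction k generalizing t with
  | zero => simp
  | succ k ih =>
    rw [pow_succ, mul_assoc, hσ, ← mul_assoc, ih, Function.iterate_succ_apply, mul_assoc]

theorem main_aux [IsAlgClosed F] [FiniteDimensional F V]
    (X : Module.End F V) (r : ℕ) (hr : r.Prime) (hr2 : Odd r) (hrF : (r : F) ≠ 0) (hX : X ^ r = 1)
    (hfix : ∀ w, X w = w → w = 0) (n : ℕ) :
    ∀ (Q : Type u) [Group Q] [Finite Q] (σ : Q ≃* Q)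
    (ρ : Q →* Module.End F V), Nat.card Q = n → Function.Injective ρ → (Nat.card Q : F) ≠ 0 →
    Odd (Nat.card Q) → (Nat.card Q).Coprime r →
    (∀ t, X * ρ t = ρ (σ t) * X) → ∀ t, σ t = t := by
  induction n using Nat.strong_induction_on with
  | _ n ih =>
    intro Q _ _ σ ρ hn hρ hQF hodd hcop hσ
    have hpow : ∀ t, (⇑σ)^[r] t = t := by
      intro t
      have h := pow_intertwine X σ ρ hσ r t
      rw [hX, one_mul, mul_one] at h
      exact (hρ h).symm
    have hmin : ∀ N : Subgroup Q, N ≠ ⊤ → (∀ t ∈ N, σ t ∈ N) → ∀ t ∈ N, σ t = t := by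
      intro N hN hinv t ht
      let f : N →* N := (σ.toMonoidHom.comp N.subtype).codRestrict N (fun t => hinv t t.2)
      have hfinj : Function.Injective f := by
        intro a b hab
        have h1 : σ (a : Q) = σ (b : Q) := congrArg Subtype.val hab
        exact Subtype.ext (σ.injective h1)
      have hfbij : Function.Bijective f := Finite.injective_iff_bijective.mp hfinj
      let σN : N ≃* N := MulEquiv.ofBijective f hfbij
      have hdvd : Nat.card N ∣ Nat.card Q := Subgroup.card_subgroup_dvd_card N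
      have hlt : Nat.card N < n := by
        rw [← hn]
        refine lt_of_le_of_ne (Subgroup.card_le_card_group N) ?_
        intro h
        exact hN (Subgroup.eq_top_of_card_eq N h)
      have hNF : (Nat.card N : F) ≠ 0 := by
        intro h0
        obtain ⟨c, hc⟩ := hdvd
        apply hQF
        rw [hc, Nat.cast_mul, h0, zero_mul]
      have key := ih (Nat.card N) hlt N σN (ρ.comp N.subtype) rfl
        (hρ.comp Subtype.val_injective) hNF (Odd.of_dvd_nat hodd hdvd)
        (Nat.Coprime.coprime_dvd_left hdvd hcop) (fun t => hσ t) ⟨t, ht⟩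
      exact congrArg Subtype.val key
    by_contra hne
    push Not at hne
    obtain ⟨Z, hZfix, hZc, hcomm, hN, hfree⟩ := min_structure σ r hr hpow hcop hmin hne
    by_cases hab : ∀ u t : Q, u * t = t * u
    · obtain ⟨t, ht⟩ := hne
      exact ht (abelian_case σ ρ hρ hQF X r hr hX hσ hfix hab t)
    · push Not at hab
      exact nonabelian_case σ ρ hρ hQF hodd X r hr hr2 hrF hX hσ hfix Z hZfix hZc hcomm hN hfree hab

theorem main [IsAlgClosed F] [FiniteDimensional F V]
    (X : Module.End F V) (r : ℕ) (hr : r.Prime) (hr2 : Odd r) (hrF : (r : F) ≠ 0) (hX : X ^ r = 1)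
    (hfix : ∀ w, X w = w → w = 0)
    (Q : Type u) [Group Q] [Finite Q] (σ : Q ≃* Q)
    (ρ : Q →* Module.End F V) (hρ : Function.Injective ρ) (hQF : (Nat.card Q : F) ≠ 0)
    (hodd : Odd (Nat.card Q)) (hcop : (Nat.card Q).Coprime r)
    (hσ : ∀ t, X * ρ t = ρ (σ t) * X) : ∀ t, σ t = t :=
  main_aux X r hr hr2 hrF hX hfix (Nat.card Q) Q σ ρ rfl hρ hQF hodd hcop hσ

end Cfsg.Agent.Lib.Helper27BG34M
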