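import Mathlib

/-!
B-G Theorem 3.4 project (S3769), piece P: orbit representatives of a permutation of prime order
with exactly one fixed point.
-/

set_option autoImplicit false

namespace Cfsg.Agent.Lib.Helper27BG34P

theorem exists_reps {T : Type*} [Finite T] (π : Equiv.Perm T) (r : ℕ) (hr : r.Prime)
    (hπ : π ^ r = 1) (q₀ : T) (hfix : ∀ q, π q = q ↔ q = q₀) :
    ∃ S : Finset T, (∀ q, ∃ k : ℕ, ∃ s ∈ S, (π ^ k) s = q) ∧
      S.card * r = Nat.card T + r - 1 := by
  classical
  have := Fintype.ofFinite T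
  have : Fact r.Prime := ⟨hr⟩
  by_cases h1 : π = 1
  · have hall : ∀ q, q = q₀ := fun q => (hfix q).1 (by rw [h1]; rfl)
    refine ⟨{q₀}, fun q => ⟨0, q₀, Finset.mem_singleton_self _, by rw [hall q]; rfl⟩, ?_⟩
    have hc : Nat.card T = 1 := by
      rw [Nat.card_eq_one_iff_unique]
      exact ⟨⟨fun a b => by rw [hall a, hall b]⟩, ⟨q₀⟩⟩
    rw [hc, Finset.card_singleton]
    omega
  have hord : orderOf π = r := orderOf_eq_prime hπ h1
  let Gp := Subgroup.zpowers π
  have hcardG : Fintype.card Gp = r := by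
    rw [← Nat.card_eq_fintype_card, Nat.card_zpowers, hord]
  let Ω := Quotient (MulAction.orbitRel Gp T)
  have hB := MulAction.sum_card_fixedBy_eq_card_orbits_mul_card_group Gp T
  have hfixone : Fintype.card (MulAction.fixedBy T (1 : Gp)) = Fintype.card T := by
    apply Fintype.card_congr
    exact ⟨fun x => x.1, fun x => ⟨x, by simp⟩, fun _ => rfl, fun _ => rfl⟩
  have hfixne : ∀ g : Gp, g ≠ 1 → Fintype.card (MulAction.fixedBy T g) = 1 := by
    intro g hg
    rw [Fintype.card_eq_one_iff]
    obtain ⟨z, hz⟩ := Subgroup.mem_zpowers_iff.1 g.2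
    have hq₀ : q₀ ∈ MulAction.fixedBy T g := by
      rw [MulAction.mem_fixedBy]
      change (g : Equiv.Perm T) q₀ = q₀
      rw [← hz]
      exact Equiv.Perm.zpow_apply_eq_self_of_apply_eq_self ((hfix q₀).2 rfl) z
    refine ⟨⟨q₀, hq₀⟩, ?_⟩
    rintro ⟨q, hq⟩
    apply Subtype.ext
    change q = q₀
    rw [← hfix q]
    have htop : Subgroup.zpowers g = ⊤ :=
      zpowers_eq_top_of_prime_card (p := r) (by rw [Nat.card_eq_fintype_card, hcardG]) hg
    have hmem : (⟨π, Subgroup.mem_zpowers π⟩ : Gp) ∈ Subgroup.zpowers g := by rw [htop]; exact Subgroup.mem_top _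
    obtain ⟨j, hj⟩ := Subgroup.mem_zpowers_iff.1 hmem
    have hj' : (g : Equiv.Perm T) ^ j = π := by
      have := congrArg (fun x : Gp => (x : Equiv.Perm T)) hj
      simpa using this
    rw [← hj']
    exact Equiv.Perm.zpow_apply_eq_self_of_apply_eq_self hq j
  have hsum : ∑ a : Gp, Fintype.card (MulAction.fixedBy T a) = Fintype.card T + (r - 1) := by
    rw [Fintype.sum_eq_add_sum_compl (1 : Gp), hfixone]
    congr 1
    rw [Finset.sum_congr rfl (fun a ha => hfixne a (by simpa using ha))]
    rw [Finset.sum_const, smul_eq_mul, mul_one, Finset.card_compl, Finset.card_singleton, hcardG]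
  rw [hsum, hcardG] at hB
  refine ⟨Finset.univ.image (Quotient.out : Ω → T), ?_, ?_⟩
  · intro q
    have hrel : (MulAction.orbitRel Gp T) (Quotient.out (Quotient.mk (MulAction.orbitRel Gp T) q)) q :=
      Quotient.exact (Quotient.out_eq _)
    rw [MulAction.orbitRel_apply] at hrel
    have hrel' : q ∈ MulAction.orbit Gp (Quotient.out (Quotient.mk (MulAction.orbitRel Gp T) q)) :=
      MulAction.mem_orbit_symm.1 hrel
    obtain ⟨g, hg⟩ := hrel'
    have hfin : IsOfFinOrder π := isOfFinOrder_of_finite π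
    obtain ⟨k, hk⟩ := (hfin.mem_powers_iff_mem_zpowers).2 g.2
    refine ⟨k, _, Finset.mem_image_of_mem _ (Finset.mem_univ (Quotient.mk (MulAction.orbitRel Gp T) q)), ?_⟩
    have hk' : π ^ k = (g : Equiv.Perm T) := hk
    rw [hk']
    exact hg
  · rw [Finset.card_image_of_injective _ Quotient.out_injective, Finset.card_univ, Nat.card_eq_fintype_card]
    have hr1 := hr.one_lt
    have : Fintype.card Ω * r = Fintype.card T + (r - 1) := by
      rw [hB]
    omega

end Cfsg.Agent.Lib.Helper27BG34P
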