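import Cfsg.Prelude
import Cfsg.Agent.Lib.Helper27Term2

set_option autoImplicit false
open Cfsg Subgroup

namespace Cfsg.Agent.Lib.Helper27BG36faithful

/-- piece `faithful` -/
theorem faithful {G : Type*} [Group G] [Finite G] (p : ℕ) [Fact p.Prime]
    (H V W X U S : Subgroup G) [V.Normal] [W.Normal] [X.Normal] (hXH : X ≤ H)
    (hV : IsPGroup p V) (hVc : IsMulCommutative V) (hV1 : V ≠ ⊥)
    (hmin : ∀ M : Subgroup G, M.Normal → M ≤ V → M = ⊥ ∨ M = V)
    (huniq : ∀ N₁ N₂ : Subgroup G, N₁.Normal → N₂.Normal → N₁ ≤ H → N₂ ≤ H → N₁ ⊓ N₂ = ⊥ →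
      N₁ = ⊥ ∨ N₂ = ⊥)
    (hVU : V ⊓ U = ⊥) (hVUW : V ⊔ U = W) (hU : (Nat.card U).Coprime p)
    (hVN : V ⊔ normalizer (U : Set G) = ⊤) (hCVU : V ⊓ centralizer (U : Set G) = ⊥)
    (hSU : S ≤ normalizer (U : Set G)) (hS : IsPGroup p S) (hWS : W ⊔ S = X) :
    S ⊓ centralizer (U : Set G) = ⊥ := by
  have hpp : p.Prime := Fact.out
  set T := V ⊔ S with hT
  have hTp : IsPGroup p T := hV.to_sup_of_normal_left hS
  have hTX : T ≤ X := by
    rw [← hWS, ← hVUW]
    exact sup_le (le_sup_left.trans le_sup_left) le_sup_right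
  have hdec : ∀ x ∈ X, ∃ u ∈ U, ∃ t ∈ T, x = u * t := by
    intro x hx
    rw [← hWS, ← SetLike.mem_coe, normal_mul, Set.mem_mul] at hx
    obtain ⟨w, hw, s, hs, rfl⟩ := hx
    rw [SetLike.mem_coe, ← hVUW, sup_comm, ← SetLike.mem_coe, mul_normal, Set.mem_mul] at hw
    obtain ⟨u, hu, v, hv, rfl⟩ := hw
    exact ⟨u, hu, v * s, mul_mem_sup hv hs, by rw [mul_assoc]⟩
  have key : ∀ d ∈ X, (∃ k : ℕ, d ^ p ^ k = 1) → d ∈ centralizer (U : Set G) → d ∈ T := by
    intro d hd ⟨k, hk⟩ hdc
    obtain ⟨u, hu, t, ht, rfl⟩ := hdec d hd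
    have hc : u * (u * t) = (u * t) * u := (mem_centralizer_iff.mp hdc) u hu
    have hcomm : Commute u t := by
      have : u * (u * t) = u * (t * u) := by rw [hc, mul_assoc]
      exact mul_left_cancel this
    obtain ⟨a, ha⟩ := hTp ⟨t, ht⟩
    have ha' : t ^ p ^ a = 1 := congrArg Subtype.val ha
    have h1 : (u * t) ^ p ^ (a + k) = 1 := by rw [pow_add, mul_comm, pow_mul, hk, one_pow]
    have h2 : t ^ p ^ (a + k) = 1 := by rw [pow_add, pow_mul, ha', one_pow]
    have h3 : u ^ p ^ (a + k) = 1 := by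
      rw [hcomm.mul_pow, h2, mul_one] at h1
      exact h1
    have h4 : orderOf u ∣ p ^ (a + k) := orderOf_dvd_of_pow_eq_one h3
    have h5 : orderOf u ∣ Nat.card U := by
      have := orderOf_dvd_natCard (⟨u, hu⟩ : U)
      rwa [Subgroup.orderOf_mk] at this
    have h6 : orderOf u = 1 :=
      Nat.eq_one_of_dvd_coprimes (hU.pow_right (a + k)) h5 h4
    rw [orderOf_eq_one_iff] at h6
    rw [h6, one_mul]
    exact ht
  set C₀ := T ⊓ centralizer (U : Set G) with hC₀
  have hC₀p : IsPGroup p C₀ := hTp.to_le inf_le_left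
  have hC₀N : normalizer (U : Set G) ≤ normalizer (C₀ : Set G) := by
    rw [le_normalizer_iff]
    intro n hn d hd
    have hdc : n * d * n⁻¹ ∈ centralizer (U : Set G) := by
      rw [mem_centralizer_iff]
      intro u hu
      have hu' : n⁻¹ * u * n ∈ U := by
        have := (mem_normalizer_iff.mp (inv_mem hn) u).mp hu
        simpa using this
      have h1 := (mem_centralizer_iff.mp hd.2) _ hu'
      calc u * (n * d * n⁻¹) = n * ((n⁻¹ * u * n) * d) * n⁻¹ := by group
        _ = n * (d * (n⁻¹ * u * n)) * n⁻¹ := by rw [h1]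
        _ = n * d * n⁻¹ * u := by group
    refine ⟨key _ ?_ ?_ hdc, hdc⟩
    · exact (inferInstance : X.Normal).conj_mem d (hTX hd.1) n
    · obtain ⟨k, hk⟩ := hTp ⟨d, hd.1⟩
      have hk' : d ^ p ^ k = 1 := congrArg Subtype.val hk
      exact ⟨k, by rw [conj_pow, hk']; simp⟩
  -- `V` centralizes `C₀`
  have hVC : V ≤ centralizer (C₀ : Set G) := by
    have hne : V ⊓ centralizer (C₀ : Set G) ≠ ⊥ :=
      Cfsg.Agent.Lib.Helper27Term2.inf_centralizer_ne_bot hC₀p hV hV1
        (by rw [normalizer_eq_top]; exact le_top)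
    have hnorm : (V ⊓ centralizer (C₀ : Set G)).Normal := by
      rw [← normalizer_eq_top_iff, eq_top_iff, ← hVN, sup_le_iff]
      constructor
      · rw [le_normalizer_iff]
        intro v hv d hd
        have : v * d * v⁻¹ = d := by
          have h1 : v * d = d * v := by
            have := mul_comm' (⟨v, hv⟩ : V) ⟨d, hd.1⟩
            exact congrArg Subtype.val this
          rw [h1]; group
        rw [this]; exact hd
      · rw [le_normalizer_iff]
        intro n hn d hd
        refine ⟨(inferInstance : V.Normal).conj_mem d hd.1 n, ?_⟩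
        show n * d * n⁻¹ ∈ centralizer (C₀ : Set G)
        rw [mem_centralizer_iff]
        intro c hc
        have hc' : n⁻¹ * c * n ∈ C₀ := by
          have := (mem_normalizer_iff.mp (inv_mem (hC₀N hn)) c).mp hc
          simpa using this
        have h1 := (mem_centralizer_iff.mp hd.2) _ hc'
        calc c * (n * d * n⁻¹) = n * ((n⁻¹ * c * n) * d) * n⁻¹ := by group
          _ = n * (d * (n⁻¹ * c * n)) * n⁻¹ := by rw [h1]
          _ = n * d * n⁻¹ * c := by group
    rcases hmin _ hnorm inf_le_left with h | h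
    · exact absurd h hne
    · exact h ▸ inf_le_right
  have hC₀n : C₀.Normal := by
    rw [← normalizer_eq_top_iff, eq_top_iff, ← hVN, sup_le_iff]
    refine ⟨?_, hC₀N⟩
    rw [le_normalizer_iff]
    intro v hv d hd
    have h1 := (mem_centralizer_iff.mp (hVC hv)) d hd
    have : v * d * v⁻¹ = d := by rw [← h1]; group
    rw [this]; exact hd
  have hC₀V : C₀ ⊓ V = ⊥ := by
    rw [eq_bot_iff, ← hCVU]
    exact le_inf inf_le_right (inf_le_left.trans inf_le_right)
  have hVH : V ≤ H := (le_sup_left.trans hTX).trans hXH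
  have hC₀bot : C₀ = ⊥ := by
    rcases huniq C₀ V hC₀n inferInstance ((inf_le_left.trans hTX).trans hXH) hVH hC₀V with h | h
    · exact h
    · exact absurd h hV1
  rw [eq_bot_iff, ← hC₀bot]
  exact inf_le_inf_right _ le_sup_right

end Cfsg.Agent.Lib.Helper27BG36faithful
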