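import Mathlib
import Cfsg.Prelude.Def_OddOrderLocal
import Cfsg.Prelude.Def_Solvable

/-! PROJECT 76, piece `frobc` (pure group theory). -/

set_option autoImplicit false

namespace Cfsg.Agent.Lib.Helper27BG76frobc

open Cfsg Subgroup
open scoped Pointwise

variable {G : Type*} [Group G] [Finite G]

theorem frobc {M D S : Subgroup G} (hc : IsComplIn D S M) (hn : M ≤ normalizer (S : Set G))
    (hD : D ≠ ⊥) (hS : S ≠ ⊥) (hreg : ∀ d ∈ D, d ≠ 1 → S ⊓ centralizer ({d} : Set G) = ⊥) :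
    IsFrobeniusComplement (D.subgroupOf M) := by
  obtain ⟨hDM, hSM, hDS, hfac⟩ := hc
  refine ⟨?_, ?_, ?_⟩
  · intro h
    apply hD
    rw [subgroupOf_eq_bot] at h
    rw [eq_bot_iff]
    intro d hd
    exact h.le_bot ⟨hd, hDM hd⟩
  · intro h
    rw [subgroupOf_eq_top] at h
    apply hS
    rw [eq_bot_iff, ← hDS]
    exact le_inf (hSM.trans h) le_rfl
  · intro g hg
    rw [eq_bot_iff]
    intro w hw12
    have hw1 : w ∈ D.subgroupOf M := (mem_inf.mp hw12).1
    have hw2 : w ∈ MulAut.conj g • D.subgroupOf M := (mem_inf.mp hw12).2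
    rw [Subgroup.mem_pointwise_smul_iff_inv_smul_mem] at hw2
    rw [mem_bot]
    by_contra hw
    apply hg
    -- `e = g⁻¹ w g ∈ D`
    have he : ((g : G)⁻¹ * (w : G) * (g : G)) ∈ D := by
      have := mem_subgroupOf.mp hw2
      simpa [MulAut.smul_def, MulAut.conj_apply, mul_assoc] using this
    have hwD : (w : G) ∈ D := mem_subgroupOf.mp hw1
    obtain ⟨a, ha, b, hb, hgab⟩ := hfac g g.2
    set e : G := (g : G)⁻¹ * (w : G) * (g : G) with hedef
    have he1 : e ≠ 1 := by
      intro h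
      apply hw
      apply Subtype.ext
      have : (w : G) = (g : G) * e * (g : G)⁻¹ := by rw [hedef]; group
      rw [this, h]
      simp
    -- `b e b⁻¹ = a⁻¹ w a ∈ D`
    have h1 : b * e * b⁻¹ ∈ D := by
      have : b * e * b⁻¹ = a⁻¹ * (w : G) * a := by
        rw [hedef, hgab]; group
      rw [this]
      exact D.mul_mem (D.mul_mem (D.inv_mem ha) hwD) ha
    have h2 : b * e * b⁻¹ * e⁻¹ ∈ D := D.mul_mem h1 (D.inv_mem he)
    have h3 : b * e * b⁻¹ * e⁻¹ ∈ S := by
      have h4 : e * b⁻¹ * e⁻¹ ∈ S :=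
        (mem_normalizer_iff.mp (hn (hDM he)) b⁻¹).mp (S.inv_mem hb)
      have : b * e * b⁻¹ * e⁻¹ = b * (e * b⁻¹ * e⁻¹) := by group
      rw [this]
      exact S.mul_mem hb h4
    have h5 : b * e * b⁻¹ * e⁻¹ = 1 := by
      have : b * e * b⁻¹ * e⁻¹ ∈ D ⊓ S := ⟨h2, h3⟩
      rw [hDS] at this
      exact this
    have h6 : b ∈ S ⊓ centralizer ({e} : Set G) := by
      refine mem_inf.mpr ⟨hb, ?_⟩
      rw [mem_centralizer_singleton_iff]
      have : b * e = e * b := by
        have h7 : b * e * b⁻¹ = e := by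
          rw [mul_inv_eq_one] at h5
          exact h5
        rw [mul_inv_eq_iff_eq_mul] at h7
        exact h7
      exact this
    rw [hreg e he he1] at h6
    have hb1 : b = 1 := h6
    rw [mem_subgroupOf, hgab, hb1, mul_one]
    exact ha

end Cfsg.Agent.Lib.Helper27BG76frobc
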