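import Mathlib

/-! Vocabulary for S4284 (class sizes `{1, m, mn}`, `gcd(m,n)=1`).  Only definitions. -/

set_option autoImplicit false

namespace Cfsg.Agent.Lib.Helper65CSDefs

variable {G : Type*} [Group G]

/-- centraliser of one element -/
abbrev Cen (x : G) : Subgroup G := Subgroup.centralizer ({x} : Set G)

/-- the class sizes of `G` are exactly `1, m, mn` with `m, n > 1` coprime -/
structure Hyp (G : Type*) [Group G] (m n : ℕ) : Prop where
  hm : 1 < m
  hn : 1 < n
  cop : m.Coprime n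
  all : ∀ x : G, (Cen x).index = 1 ∨ (Cen x).index = m ∨ (Cen x).index = m * n
  exI : ∃ x : G, (Cen x).index = m
  exII : ∃ x : G, (Cen x).index = m * n

/-- `p`-element -/
def IsP (p : ℕ) (g : G) : Prop := ∃ k : ℕ, orderOf g = p ^ k
/-- `p`-regular element -/
def IsReg (p : ℕ) (g : G) : Prop := (orderOf g).Coprime p
/-- noncentral `p`-element -/
def NP (p : ℕ) (g : G) : Prop := IsP p g ∧ g ∉ Subgroup.center G
/-- noncentral `p`-regular element -/
def NR (p : ℕ) (g : G) : Prop := IsReg p g ∧ g ∉ Subgroup.center G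

/-- generated by the `p`-elements of `C(u)` -/
def RR (p : ℕ) (u : G) : Subgroup G := Subgroup.closure {g | g ∈ Cen u ∧ IsP p g}
/-- generated by the `p`-regular elements of `C(u)` -/
def HH (p : ℕ) (u : G) : Subgroup G := Subgroup.closure {g | g ∈ Cen u ∧ IsReg p g}

/-- the order of a Sylow `p`-subgroup of the centraliser of a noncentral element (`p ∣ m`) -/
noncomputable def rho (G : Type*) [Group G] (p m : ℕ) : ℕ :=
  p ^ ((Nat.card G).factorization p - m.factorization p)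

/-- every `p`-regular `y ∈ C(e)` is centralised by a full Sylow `p`-subgroup of `C(e)` -/
def Good (p m : ℕ) (e : G) : Prop :=
  ∀ y : G, Commute e y → IsReg p y →
    ∃ T : Subgroup G, T ≤ Cen e ⊓ Cen y ∧ IsPGroup p T ∧ Nat.card T = rho G p m

/-- B1: a noncentral normal subgroup of a `p`-group contains an element of the second centre
whose `p`-th power is central -/
def B1Stmt (G : Type*) [Group G] (p : ℕ) : Prop :=
  ∀ P N : Subgroup G, IsPGroup p P → N ≤ P → (∀ s ∈ P, ∀ x ∈ N, s * x * s⁻¹ ∈ N) →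
    (∃ x ∈ N, ∃ s ∈ P, ¬ Commute s x) →
    ∃ u ∈ N, (∃ s ∈ P, ¬ Commute s u) ∧
      (∀ s ∈ P, ∀ s' ∈ P, Commute (s * u * s⁻¹ * u⁻¹) s') ∧ (∀ s ∈ P, Commute (u ^ p) s)

/-- B2: `P / C_P(u)` is elementary abelian and acts semiregularly on `V` modulo `D`, so it has
order at most `p` -/
def B2Stmt (G : Type*) [Group G] (p : ℕ) : Prop :=
  ∀ (P V D : Subgroup G) (u : G), IsPGroup p P → u ∈ P →
    (∀ s ∈ P, ∀ s' ∈ P, Commute (s * u * s⁻¹ * u⁻¹) s') → (∀ s ∈ P, Commute (u ^ p) s) →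
    (∀ a ∈ V, ∀ b ∈ V, Commute a b) → (Nat.card V).Coprime p →
    (∀ s ∈ P, ∀ a ∈ V, s * a * s⁻¹ ∈ V) →
    (∀ s ∈ P, Commute s u → ∀ a ∈ V, Commute s a) →
    (∀ s ∈ P, ¬ Commute s u → ∀ a ∈ V, Commute s a → a ∈ D) →
    ¬ V ≤ D → (Cen u).relIndex P ∣ p

/-- B3: commuting `p`-element `t` and `p'`-element `w` on an abelian `p`-group `U` with
`C_U(t) ≤ C_U(w)`: then `w` centralises `U` -/
def B3Stmt (G : Type*) [Group G] (p : ℕ) : Prop :=
  ∀ (U : Subgroup G) (t w : G), IsPGroup p U → (∀ a ∈ U, ∀ b ∈ U, Commute a b) →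
    IsP p t → IsReg p w → Commute t w →
    (∀ a ∈ U, t * a * t⁻¹ ∈ U) → (∀ a ∈ U, w * a * w⁻¹ ∈ U) →
    (∀ a ∈ U, Commute t a → Commute w a) → ∀ a ∈ U, Commute w a

/-- B4: a `p`-group with an abelian subgroup `A` of index `p` and `|A : A ∩ Z(P)| = p` has
`|P'| = p` -/
def B4Stmt (G : Type*) [Group G] (p : ℕ) : Prop :=
  ∀ (P A : Subgroup G), IsPGroup p P → A ≤ P → (∀ a ∈ A, ∀ b ∈ A, Commute a b) →
    A.relIndex P = p →
    Nat.card A = p * Nat.card (A ⊓ Subgroup.centralizer (P : Set G) : Subgroup G) →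
    Nat.card (commutator P) = p

/-- B5: fixed point congruence for a `p`-element normalising `K` -/
def B5Stmt (G : Type*) [Group G] (p : ℕ) : Prop :=
  ∀ (K : Subgroup G) (t : G), IsP p t → (∀ a ∈ K, t * a * t⁻¹ ∈ K) →
    Nat.card K ≡ Nat.card (K ⊓ Cen t : Subgroup G) [MOD p]

/-- all conjugates of a `p`-regular element `x` of index `m` commuting with the noncentral
`p`-element `u` commute with `u` -/
def ConjStmt (G : Type*) [Group G] (m p : ℕ) : Prop :=
  ∀ u x : G, NP p u → (Cen x).index = m → Commute u x → IsReg p x →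
    ∀ g : G, Commute (g * x * g⁻¹) u

/-- commuting noncentral elements of prime power order for two different primes dividing `m`
have the same centraliser -/
def OmegaStmt (G : Type*) [Group G] (m : ℕ) : Prop :=
  ∀ p q : ℕ, p.Prime → q.Prime → p ≠ q → p ∣ m → q ∣ m →
    ∀ u v : G, NP p u → NP q v → Commute u v → Cen u = Cen v

/-- first consequences of case X -/
structure XA (G : Type*) [Group G] (p m : ℕ) : Prop where
  pow : ∃ a : ℕ, m = p ^ a
  typeI : ∀ e w : G, e ∉ Subgroup.center G → NR p w → Commute e w → (Cen e).index = m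
  ex : ∃ w : G, NR p w

/-- the structure obtained in case X -/
structure XStr (G : Type*) [Group G] (p m : ℕ) (K M : Subgroup G) : Prop where
  Kn : K.Normal
  Kcop : (Nat.card K).Coprime p
  Kidx : ∃ a : ℕ, K.index = p ^ a
  Mn : M.Normal
  KM : K ≤ M
  Mcomm : ∀ a ∈ M, ∀ b ∈ M, Commute a b
  Midx : M.index = m
  Mset : ∀ x : G, x ∈ M ↔ ((Cen x).index = 1 ∨ (Cen x).index = m)
  semi : ∀ g : G, g ∉ M → ∀ k ∈ K, Commute g k → k ∈ Subgroup.center G
  KZ : ¬ K ≤ Subgroup.center G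

end Cfsg.Agent.Lib.Helper65CSDefs
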