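import Mathlib
import Cfsg.Agent.Lib.Helper65CSDefs
import Cfsg.Agent.Lib.Helper72Pi
import Cfsg.Agent.Lib.Helper72Class
import Cfsg.Agent.Lib.Helper72Idx
import Cfsg.Agent.Lib.Helper73Class

set_option autoImplicit false
set_option linter.unusedSectionVars false
set_option linter.style.haveILetI false

namespace Cfsg.Agent.Lib.Helper65CSBasic

open Cfsg.Agent.Lib.Helper65CSDefs

variable {G : Type*} [Group G]

/-! ### elementary -/

theorem mem_Cen {x g : G} : g ∈ Cen x ↔ Commute g x := Subgroup.mem_centralizer_singleton_iff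

theorem mem_Cen' {x g : G} : g ∈ Cen x ↔ Commute x g := by
  rw [mem_Cen]; exact ⟨Commute.symm, Commute.symm⟩

theorem index_eq_one_iff {x : G} : (Cen x).index = 1 ↔ x ∈ Subgroup.center G :=
  Cfsg.Agent.Lib.Helper73Class.index_centralizer_eq_one_iff x

theorem center_le_Cen (x : G) : Subgroup.center G ≤ Cen x := Subgroup.center_le_centralizer _

theorem commute_of_mem_center {z : G} (hz : z ∈ Subgroup.center G) (g : G) : Commute z g :=
  (Subgroup.mem_center_iff.mp hz g).symm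

theorem Cen_le_of_mem_zpowers {x a : G} (ha : a ∈ Subgroup.zpowers x) : Cen x ≤ Cen a := by
  intro g hg
  obtain ⟨i, rfl⟩ := ha
  exact mem_Cen.mpr ((mem_Cen.mp hg).zpow_right i)

theorem commute_conj_iff (g x y : G) : Commute (g * x * g⁻¹) (g * y * g⁻¹) ↔ Commute x y := by
  constructor
  · intro h
    have h1 : g * x * g⁻¹ * (g * y * g⁻¹) = g * y * g⁻¹ * (g * x * g⁻¹) := h
    have h2 : g * (x * y) * g⁻¹ = g * (y * x) * g⁻¹ := by
      calc g * (x * y) * g⁻¹ = g * x * g⁻¹ * (g * y * g⁻¹) := by group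
        _ = g * y * g⁻¹ * (g * x * g⁻¹) := h1
        _ = g * (y * x) * g⁻¹ := by group
    exact mul_left_cancel (mul_right_cancel h2)
  · intro h
    have h1 : x * y = y * x := h
    show g * x * g⁻¹ * (g * y * g⁻¹) = g * y * g⁻¹ * (g * x * g⁻¹)
    calc g * x * g⁻¹ * (g * y * g⁻¹) = g * (x * y) * g⁻¹ := by group
      _ = g * (y * x) * g⁻¹ := by rw [h1]
      _ = g * y * g⁻¹ * (g * x * g⁻¹) := by group

theorem conj_mem_center_iff (g x : G) : g * x * g⁻¹ ∈ Subgroup.center G ↔ x ∈ Subgroup.center G := by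
  constructor
  · intro h
    have := (Subgroup.center G).normal_of_characteristic.conj_mem _ h g⁻¹
    have e : g⁻¹ * (g * x * g⁻¹) * g⁻¹⁻¹ = x := by group
    rwa [e] at this
  · intro h
    exact (Subgroup.center G).normal_of_characteristic.conj_mem _ h g

theorem index_Cen_conj (g x : G) : (Cen (g * x * g⁻¹)).index = (Cen x).index := by
  have e : Cen (g * x * g⁻¹) = (Cen x).map (MulAut.conj g).toMonoidHom := by
    ext y
    rw [Subgroup.mem_map]
    constructor
    · intro hy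
      refine ⟨g⁻¹ * y * g, ?_, ?_⟩
      · rw [mem_Cen]
        have h1 : Commute y (g * x * g⁻¹) := mem_Cen.mp hy
        have h2 := (commute_conj_iff g⁻¹ y (g * x * g⁻¹)).mpr h1
        have e1 : g⁻¹ * (g * x * g⁻¹) * g⁻¹⁻¹ = x := by group
        have e2 : g⁻¹ * y * g⁻¹⁻¹ = g⁻¹ * y * g := by group
        rwa [e1, e2] at h2
      · simp [MulAut.conj_apply]; group
    · rintro ⟨z, hz, rfl⟩
      rw [mem_Cen]
      simp only [MulEquiv.coe_toMonoidHom, MulAut.conj_apply]
      exact (commute_conj_iff g z x).mpr (mem_Cen.mp hz)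
  rw [e]
  exact Subgroup.index_map_of_bijective (MulAut.conj g).bijective _

theorem IsP.conj {p : ℕ} {x : G} (h : IsP p x) (g : G) : IsP p (g * x * g⁻¹) := by
  obtain ⟨k, hk⟩ := h
  exact ⟨k, by rw [Cfsg.Agent.Lib.Helper72Pi.orderOf_conj, hk]⟩

theorem IsReg.conj {p : ℕ} {x : G} (h : IsReg p x) (g : G) : IsReg p (g * x * g⁻¹) := by
  unfold IsReg at *
  rwa [Cfsg.Agent.Lib.Helper72Pi.orderOf_conj]

theorem NP.conj {p : ℕ} {x : G} (h : NP p x) (g : G) : NP p (g * x * g⁻¹) :=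
  ⟨IsP.conj h.1 g, fun hc => h.2 ((conj_mem_center_iff g x).mp hc)⟩

theorem NR.conj {p : ℕ} {x : G} (h : NR p x) (g : G) : NR p (g * x * g⁻¹) :=
  ⟨IsReg.conj h.1 g, fun hc => h.2 ((conj_mem_center_iff g x).mp hc)⟩

theorem IsP.coprime {p : ℕ} {x y : G} (hx : IsP p x) (hy : IsReg p y) :
    (orderOf x).Coprime (orderOf y) := by
  obtain ⟨k, hk⟩ := hx
  rw [hk]
  exact (Nat.Coprime.pow_right k hy).symm

theorem IsP.isReg {p q : ℕ} (hp : p.Prime) (hq : q.Prime) (hpq : p ≠ q) {x : G} (hx : IsP p x) :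
    IsReg q x := by
  obtain ⟨k, hk⟩ := hx
  unfold IsReg
  rw [hk]
  exact Nat.Coprime.pow_left k ((Nat.coprime_primes hp hq).mpr hpq)

theorem eq_one_of_IsP_of_IsReg {p : ℕ} {x : G} (hx : IsP p x) (hy : IsReg p x) : x = 1 := by
  have h := IsP.coprime hx hy
  rw [Nat.coprime_self] at h
  exact orderOf_eq_one_iff.mp h

theorem IsP.of_mem_zpowers {p : ℕ} (hp : p.Prime) {x a : G} (hx : IsP p x)
    (ha : a ∈ Subgroup.zpowers x) : IsP p a := by
  obtain ⟨k, hk⟩ := hx
  have h1 : orderOf a ∣ p ^ k := hk ▸ orderOf_dvd_of_mem_zpowers ha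
  obtain ⟨j, -, hj⟩ := (Nat.dvd_prime_pow hp).mp h1
  exact ⟨j, hj⟩

theorem IsReg.of_mem_zpowers {p : ℕ} {x a : G} (hx : IsReg p x)
    (ha : a ∈ Subgroup.zpowers x) : IsReg p a :=
  Nat.Coprime.coprime_dvd_left (orderOf_dvd_of_mem_zpowers ha) hx

theorem isP_of_mem {p : ℕ} [Fact p.Prime] {T : Subgroup G} (hT : IsPGroup p T) {x : G} (hx : x ∈ T) : IsP p x := by
  obtain ⟨k, hk⟩ := (IsPGroup.iff_orderOf.mp hT) ⟨x, hx⟩
  exact ⟨k, by rwa [Subgroup.orderOf_mk] at hk⟩

theorem isPGroup_zpowers {p : ℕ} {x : G} (hx : IsP p x) : IsPGroup p (Subgroup.zpowers x) := by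
  obtain ⟨k, hk⟩ := hx
  apply IsPGroup.of_card (n := k)
  rw [Nat.card_zpowers, hk]

/-- `g = a b` with `a` the `p`-part and `b` the `p'`-part, both powers of `g` -/
theorem exists_split [Finite G] (p : ℕ) [Fact p.Prime] (g : G) :
    ∃ a b : G, a ∈ Subgroup.zpowers g ∧ b ∈ Subgroup.zpowers g ∧ g = a * b ∧ Commute a b ∧
      IsP p a ∧ IsReg p b := by
  have hp : p.Prime := Fact.out
  obtain ⟨a, b, ha, hb, hab, hap, hbp⟩ :=
    Cfsg.Agent.Lib.Helper72Pi.exists_pi_split ({p} : Set ℕ) g (orderOf_pos g).ne'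
  refine ⟨a, b, ha, hb, hab.symm, ?_, ?_, ?_⟩
  · obtain ⟨i, rfl⟩ := ha
    obtain ⟨j, rfl⟩ := hb
    exact ((Commute.refl g).zpow_left i).zpow_right j
  · exact (Cfsg.Agent.Lib.Helper72Class.isPiElt_singleton_iff hp a (orderOf_pos a).ne').mp hap
  · exact (Cfsg.Agent.Lib.Helper72Class.isPiElt_compl_singleton_iff hp b).mp hbp

/-- if `x ^ k` lies in a subgroup and `k` is prime to the order of `x`, so does `x` -/
theorem mem_of_pow_mem {x : G} {k : ℕ} (H : Subgroup G) (hk : (orderOf x).Coprime k)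
    (h : x ^ k ∈ H) : x ∈ H := by
  obtain ⟨j, hj⟩ := exists_pow_eq_self_of_coprime (x := x) (n := k) hk.symm
  rw [← hj]
  exact Subgroup.pow_mem _ h _

theorem Cen_mul_of_coprime {x y : G} (hc : Commute x y) (hcop : (orderOf x).Coprime (orderOf y)) :
    Cen (x * y) = Cen x ⊓ Cen y :=
  Cfsg.Agent.Lib.Helper72Class.centralizer_mul_of_coprime hc hcop

theorem eq_of_le_of_index_eq [Finite G] {H K : Subgroup G} (hle : H ≤ K) (h : H.index = K.index) :
    H = K := by
  have h1 := Subgroup.relIndex_mul_index hle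
  have hpos : 0 < K.index := Nat.pos_of_ne_zero Subgroup.index_ne_zero_of_finite
  have h2 : H.relIndex K = 1 := by
    rw [h] at h1
    exact Nat.eq_of_mul_eq_mul_right hpos (by rw [h1, one_mul])
  exact le_antisymm hle (Subgroup.relIndex_eq_one.mp h2)

/-- a `p`-element lies in a conjugate of a given Sylow subgroup -/
theorem exists_conj_mem_sylow [Finite G] {p : ℕ} [Fact p.Prime] (P : Sylow p G) {x : G}
    (hx : IsP p x) : ∃ g : G, g * x * g⁻¹ ∈ P := by
  obtain ⟨Q, hQ⟩ := (isPGroup_zpowers hx).exists_le_sylow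
  obtain ⟨g, hg⟩ := MulAction.exists_smul_eq G Q P
  refine ⟨g, ?_⟩
  rw [← hg]
  have : x ∈ Q := hQ (Subgroup.mem_zpowers x)
  rw [← SetLike.mem_coe, Sylow.coe_smul] 
  exact ⟨x, this, by simp [MulAut.conj_apply]⟩

/-! ### the hypothesis -/

variable [Finite G] {m n p : ℕ}

theorem index_of_not_mem (h : Hyp G m n) {x : G} (hx : x ∉ Subgroup.center G) :
    (Cen x).index = m ∨ (Cen x).index = m * n := by
  rcases h.all x with h1 | h1
  · exact absurd (index_eq_one_iff.mp h1) hx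
  · exact h1

theorem not_dvd_n (h : Hyp G m n) (hp : p.Prime) (hpm : p ∣ m) : ¬ p ∣ n := by
  intro hn
  have h1 := Nat.dvd_gcd hpm hn
  rw [h.cop] at h1
  exact hp.one_lt.ne' (Nat.dvd_one.mp h1)

theorem fact_pos (h : Hyp G m n) (hp : p.Prime) (hpm : p ∣ m) : 1 ≤ m.factorization p :=
  hp.factorization_pos_of_dvd (by have := h.hm; omega) hpm

/-- an index dividing `m` is `1` or `m` -/
theorem index_of_dvd (h : Hyp G m n) {x : G} (hx : (Cen x).index ∣ m) :
    (Cen x).index = 1 ∨ (Cen x).index = m := by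
  rcases h.all x with h1 | h1 | h1
  · exact Or.inl h1
  · exact Or.inr h1
  · exfalso
    rw [h1] at hx
    have hm := h.hm
    have hn := h.hn
    have h2 := Nat.le_of_dvd (by omega) hx
    nlinarith

theorem fact_cen (h : Hyp G m n) (hp : p.Prime) (hpm : p ∣ m) {x : G}
    (hx : x ∉ Subgroup.center G) :
    (Nat.card (Cen x)).factorization p + m.factorization p = (Nat.card G).factorization p := by
  have h1 := Subgroup.card_mul_index (Cen x)
  have hm0 : m ≠ 0 := by have := h.hm; omega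
  have hn0 : n ≠ 0 := by have := h.hn; omega
  have hc0 : Nat.card (Cen x) ≠ 0 := Nat.card_pos.ne'
  rcases index_of_not_mem h hx with h2 | h2
  · rw [h2] at h1
    rw [← h1, Nat.factorization_mul hc0 hm0]
    rfl
  · rw [h2] at h1
    rw [← h1, Nat.factorization_mul hc0 (mul_ne_zero hm0 hn0), Nat.factorization_mul hm0 hn0]
    have h3 : n.factorization p = 0 := Nat.factorization_eq_zero_of_not_dvd (not_dvd_n h hp hpm)
    simp [h3]

theorem rho_eq (h : Hyp G m n) (hp : p.Prime) (hpm : p ∣ m) {x : G}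
    (hx : x ∉ Subgroup.center G) : rho G p m = p ^ (Nat.card (Cen x)).factorization p := by
  have := fact_cen h hp hpm hx
  unfold rho
  congr 1
  omega

theorem exists_not_mem_center (h : Hyp G m n) : ∃ x : G, x ∉ Subgroup.center G := by
  obtain ⟨x, hx⟩ := h.exI
  refine ⟨x, fun hc => ?_⟩
  have := index_eq_one_iff.mpr hc
  have hm := h.hm
  omega

theorem card_sylow (h : Hyp G m n) [Fact p.Prime] (hpm : p ∣ m) (P : Sylow p G) :
    Nat.card P = rho G p m * p ^ (m.factorization p) := by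
  have hp : p.Prime := Fact.out
  obtain ⟨x, hx⟩ := exists_not_mem_center h
  rw [rho_eq h hp hpm hx, ← pow_add, fact_cen h hp hpm hx]
  exact P.card_eq_multiplicity

theorem card_dvd_rho (h : Hyp G m n) [Fact p.Prime] (hpm : p ∣ m) {x : G}
    (hx : x ∉ Subgroup.center G) (T : Subgroup G) (hT : IsPGroup p T) (hTx : T ≤ Cen x) :
    Nat.card T ∣ rho G p m := by
  have hp : p.Prime := Fact.out
  obtain ⟨k, hk⟩ := IsPGroup.iff_card.mp hT
  have h1 : Nat.card T ∣ Nat.card (Cen x) := Subgroup.card_dvd_of_le hTx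
  rw [rho_eq h hp hpm hx, hk]
  rw [hk] at h1
  exact pow_dvd_pow p ((hp.pow_dvd_iff_le_factorization Nat.card_pos.ne').mp h1)

theorem exists_sylow_cen (h : Hyp G m n) [Fact p.Prime] (hpm : p ∣ m) {x : G}
    (hx : x ∉ Subgroup.center G) (T₀ : Subgroup G) (hT₀ : IsPGroup p T₀) (hle : T₀ ≤ Cen x) :
    ∃ T : Subgroup G, T₀ ≤ T ∧ T ≤ Cen x ∧ IsPGroup p T ∧ Nat.card T = rho G p m := by
  have hp : p.Prime := Fact.out
  have h0 : IsPGroup p (T₀.subgroupOf (Cen x)) :=
    hT₀.comap_of_injective (Cen x).subtype Subtype.coe_injective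
  obtain ⟨S, hS⟩ := h0.exists_le_sylow
  refine ⟨(S : Subgroup (Cen x)).map (Cen x).subtype, ?_, ?_, S.isPGroup'.map _, ?_⟩
  · intro t ht
    exact ⟨⟨t, hle ht⟩, hS (Subgroup.mem_subgroupOf.mpr ht), rfl⟩
  · rintro _ ⟨w, -, rfl⟩
    exact w.2
  · rw [Subgroup.card_map_of_injective Subtype.coe_injective, rho_eq h hp hpm hx]
    exact S.card_eq_multiplicity

/-- L1 : every noncentral element commutes with a noncentral `p`-element (`p ∣ m`) -/
theorem exists_NP_commute (h : Hyp G m n) [Fact p.Prime] (hpm : p ∣ m) {g : G}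
    (hg : g ∉ Subgroup.center G) : ∃ u : G, NP p u ∧ Commute u g := by
  have hp : p.Prime := Fact.out
  by_contra hno
  obtain ⟨T, -, hTg, hTp, hTc⟩ := exists_sylow_cen h hpm hg ⊥ IsPGroup.of_bot bot_le
  have hTZ : T ≤ Subgroup.center G := by
    intro t ht
    by_contra htz
    exact hno ⟨t, ⟨isP_of_mem hTp ht, htz⟩, mem_Cen.mp (hTg ht)⟩
  -- a noncentral p-element
  have hex : ∃ u : G, NP p u := by
    by_contra hnone
    let P : Sylow p G := default
    obtain ⟨x, hx⟩ := h.exI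
    have hPx : (P : Subgroup G) ≤ Cen x := by
      intro t ht
      by_contra htx
      apply hnone
      refine ⟨t, isP_of_mem P.isPGroup' ht, fun hc => htx (center_le_Cen x hc)⟩
    have h1 : (Cen x).index ∣ (P : Subgroup G).index := Subgroup.index_dvd_of_le hPx
    rw [hx] at h1
    exact P.not_dvd_index (hpm.trans h1)
  obtain ⟨u, hu⟩ := hex
  haveI : T.Normal := by
    constructor
    intro t ht c
    have : c * t * c⁻¹ = t := by
      have := (commute_of_mem_center (hTZ ht) c).eq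
      rw [← this]; group
    rw [this]; exact ht
  have hsup : IsPGroup p (T ⊔ Subgroup.zpowers u : Subgroup G) :=
    IsPGroup.to_sup_of_normal_left hTp (isPGroup_zpowers hu.1)
  have hle : (T ⊔ Subgroup.zpowers u : Subgroup G) ≤ Cen u := by
    rw [sup_le_iff]
    refine ⟨hTZ.trans (center_le_Cen u), ?_⟩
    rw [Subgroup.zpowers_le]
    exact mem_Cen.mpr (Commute.refl u)
  have h1 := card_dvd_rho h hpm hu.2 _ hsup hle
  rw [← hTc] at h1
  have h2 : (T ⊔ Subgroup.zpowers u : Subgroup G) = T := by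
    symm
    apply Subgroup.eq_of_le_of_card_ge le_sup_left
    exact Nat.le_of_dvd Nat.card_pos h1
  have h3 : u ∈ T := by
    rw [← h2]
    exact (le_sup_right : Subgroup.zpowers u ≤ T ⊔ Subgroup.zpowers u) (Subgroup.mem_zpowers u)
  exact hu.2 (hTZ h3)

/-- L2 -/
theorem cen_le_of_typeII (h : Hyp G m n) {y z : G} (hy : (Cen y).index = m * n)
    (hc : Commute y z) (hcop : (orderOf y).Coprime (orderOf z)) : Cen y ≤ Cen z := by
  have e := Cen_mul_of_coprime hc hcop
  have hle : Cen (y * z) ≤ Cen y := by rw [e]; exact inf_le_left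
  have hd : (Cen y).index ∣ (Cen (y * z)).index := Subgroup.index_dvd_of_le hle
  have hm := h.hm
  have hn := h.hn
  have hidx : (Cen (y * z)).index = (Cen y).index := by
    rw [hy] at hd ⊢
    rcases h.all (y * z) with h1 | h1 | h1
    · rw [h1] at hd
      have := Nat.le_of_dvd (by omega) hd
      nlinarith
    · rw [h1] at hd
      have := Nat.le_of_dvd (by omega) hd
      nlinarith
    · exact h1
  have h2 := eq_of_le_of_index_eq hle hidx
  rw [← h2, e]
  exact inf_le_right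

/-! ### the decomposition `C(e) = R × H` -/

omit [Finite G] in
theorem card_inf_mul_relIndex (H K : Subgroup G) :
    Nat.card (H ⊓ K : Subgroup G) * H.relIndex K = Nat.card K := by
  have h1 := Subgroup.relIndex_mul_relIndex ⊥ (H ⊓ K) K bot_le inf_le_right
  rwa [Subgroup.relIndex_bot_left, Subgroup.relIndex_bot_left, Subgroup.inf_relIndex_right] at h1

omit [Finite G] in
theorem not_mem_center_mul {x y : G} (hc : Commute x y) (hcop : (orderOf x).Coprime (orderOf y))
    (hx : x ∉ Subgroup.center G) : x * y ∉ Subgroup.center G := by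
  intro hz
  apply hx
  rw [Subgroup.mem_center_iff]
  intro g
  have h1 : g ∈ Cen (x * y) := mem_Cen'.mpr (commute_of_mem_center hz g)
  rw [Cen_mul_of_coprime hc hcop] at h1
  exact mem_Cen.mp h1.1

theorem good_of_NP (h : Hyp G m n) [Fact p.Prime] (hpm : p ∣ m) {u : G} (hu : NP p u) :
    Good p m u := by
  intro y huy hy
  have hcop := IsP.coprime hu.1 hy
  obtain ⟨T, -, hT, hTp, hTc⟩ := exists_sylow_cen h hpm (not_mem_center_mul huy hcop hu.2) ⊥
    IsPGroup.of_bot bot_le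
  rw [Cen_mul_of_coprime huy hcop] at hT
  exact ⟨T, hT, hTp, hTc⟩

theorem good_core (h : Hyp G m n) [Fact p.Prime] (hpm : p ∣ m) {e : G}
    (he : e ∉ Subgroup.center G) (hg : Good p m e) :
    ∃ R H : Subgroup G, (∀ g, g ∈ R ↔ Commute e g ∧ IsP p g) ∧
      (∀ g, g ∈ H ↔ Commute e g ∧ IsReg p g) ∧ IsPGroup p R ∧ Nat.card R = rho G p m ∧
      (∀ r ∈ R, ∀ s ∈ H, Commute r s) := by
  have hp : p.Prime := Fact.out
  have hL : ∀ y : Cen e, (orderOf y).Coprime p →
      ¬ p ∣ (Subgroup.centralizer ({y} : Set (Cen e))).index := by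
    intro y hy hd
    rw [Cfsg.Agent.Lib.Helper72Idx.idx_subtype] at hd
    have hy' : IsReg p (y : G) := by
      unfold IsReg
      rwa [Subgroup.orderOf_coe]
    obtain ⟨T, hT, hTp, hTc⟩ := hg (y : G) (mem_Cen'.mp y.2) hy'
    have h1 : rho G p m ∣ Nat.card (Cen (y : G) ⊓ Cen e : Subgroup G) := by
      rw [← hTc, inf_comm]
      exact Subgroup.card_dvd_of_le hT
    have h2 := card_inf_mul_relIndex (Cen (y : G)) (Cen e)
    have h3 : rho G p m * p ∣ Nat.card (Cen e) := by
      rw [← h2]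
      exact mul_dvd_mul h1 hd
    rw [rho_eq h hp hpm he, ← pow_succ] at h3
    have := (hp.pow_dvd_iff_le_factorization Nat.card_pos.ne').mp h3
    omega
  obtain ⟨K, hKmem, -, -, hKc⟩ := Cfsg.Agent.Lib.Helper72Class.exists_pPrime_subgroup p hL
  let P : Sylow p (Cen e) := default
  obtain ⟨hPn, -⟩ := Cfsg.Agent.Lib.Helper72Class.sylow_normal_of_pPrime_index p hL P
  have hRmem : ∀ g, g ∈ (P : Subgroup (Cen e)).map (Cen e).subtype ↔ Commute e g ∧ IsP p g := by
    intro g
    constructor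
    · rintro ⟨w, hw, rfl⟩
      refine ⟨mem_Cen'.mp w.2, ?_⟩
      obtain ⟨k, hk⟩ := isP_of_mem P.isPGroup' hw
      exact ⟨k, by rw [← hk]; exact Subgroup.orderOf_coe w⟩
    · rintro ⟨hc, k, hk⟩
      have hw : IsP p (⟨g, mem_Cen'.mpr hc⟩ : Cen e) := ⟨k, by rw [Subgroup.orderOf_mk, hk]⟩
      obtain ⟨Q, hQ⟩ := (isPGroup_zpowers hw).exists_le_sylow
      have hQP : Q = P := by
        haveI := Sylow.unique_of_normal P hPn
        exact Subsingleton.elim _ _
      exact ⟨⟨g, mem_Cen'.mpr hc⟩, hQP ▸ hQ (Subgroup.mem_zpowers _), rfl⟩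
  have hHmem : ∀ g, g ∈ K.map (Cen e).subtype ↔ Commute e g ∧ IsReg p g := by
    intro g
    constructor
    · rintro ⟨w, hw, rfl⟩
      refine ⟨mem_Cen'.mp w.2, ?_⟩
      have := (hKmem w).mp hw
      unfold IsReg
      rwa [Subgroup.subtype_apply, Subgroup.orderOf_coe]
    · rintro ⟨hc, hr⟩
      refine ⟨⟨g, mem_Cen'.mpr hc⟩, (hKmem _).mpr ?_, rfl⟩
      rw [Subgroup.orderOf_mk]; exact hr
  refine ⟨_, _, hRmem, hHmem, P.isPGroup'.map _, ?_, ?_⟩
  · rw [Subgroup.card_map_of_injective Subtype.coe_injective, rho_eq h hp hpm he]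
    exact P.card_eq_multiplicity
  · rintro _ ⟨r, hr, rfl⟩ _ ⟨s, hs, rfl⟩
    have h1 : Commute r s := hKc s hs r (isP_of_mem P.isPGroup' hr)
    exact congrArg Subtype.val h1

theorem commute_of_good (h : Hyp G m n) [Fact p.Prime] (hpm : p ∣ m) {e : G}
    (he : e ∉ Subgroup.center G) (hg : Good p m e) {r s : G} (hr : Commute e r) (hrp : IsP p r)
    (hs : Commute e s) (hsp : IsReg p s) : Commute r s := by
  obtain ⟨R, H, hR, hH, -, -, hc⟩ := good_core h hpm he hg
  exact hc r ((hR r).mpr ⟨hr, hrp⟩) s ((hH s).mpr ⟨hs, hsp⟩)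

theorem RR_eq_of_good (h : Hyp G m n) [Fact p.Prime] (hpm : p ∣ m) {e : G}
    (he : e ∉ Subgroup.center G) (hg : Good p m e) :
    (∀ g, g ∈ RR p e ↔ Commute e g ∧ IsP p g) ∧ IsPGroup p (RR p e) ∧
      Nat.card (RR p e) = rho G p m := by
  obtain ⟨R, H, hR, hH, hRp, hRc, -⟩ := good_core h hpm he hg
  have e1 : RR p e = R := by
    have : {g | g ∈ Cen e ∧ IsP p g} = (R : Set G) := by
      ext g
      rw [Set.mem_setOf_eq, SetLike.mem_coe, hR, mem_Cen']
    unfold RR
    rw [this, Subgroup.closure_eq]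
  rw [e1]
  exact ⟨hR, hRp, hRc⟩

theorem mem_RR_of_good (h : Hyp G m n) [Fact p.Prime] (hpm : p ∣ m) {e : G}
    (he : e ∉ Subgroup.center G) (hg : Good p m e) {g : G} :
    g ∈ RR p e ↔ Commute e g ∧ IsP p g :=
  (RR_eq_of_good h hpm he hg).1 g

theorem mem_HH_of_good (h : Hyp G m n) [Fact p.Prime] (hpm : p ∣ m) {e : G}
    (he : e ∉ Subgroup.center G) (hg : Good p m e) {g : G} :
    g ∈ HH p e ↔ Commute e g ∧ IsReg p g := by
  obtain ⟨R, H, hR, hH, -, -, -⟩ := good_core h hpm he hg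
  have e1 : HH p e = H := by
    have : {g | g ∈ Cen e ∧ IsReg p g} = (H : Set G) := by
      ext g
      rw [Set.mem_setOf_eq, SetLike.mem_coe, hH, mem_Cen']
    unfold HH
    rw [this, Subgroup.closure_eq]
  rw [e1]
  exact hH g

theorem card_RR_of_good (h : Hyp G m n) [Fact p.Prime] (hpm : p ∣ m) {e : G}
    (he : e ∉ Subgroup.center G) (hg : Good p m e) : Nat.card (RR p e) = rho G p m :=
  (RR_eq_of_good h hpm he hg).2.2

theorem isPGroup_RR_of_good (h : Hyp G m n) [Fact p.Prime] (hpm : p ∣ m) {e : G}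
    (he : e ∉ Subgroup.center G) (hg : Good p m e) : IsPGroup p (RR p e) :=
  (RR_eq_of_good h hpm he hg).2.1

/-- D1 : in the centraliser of a noncentral `p`-element, `p`-elements commute with
`p`-regular elements -/
theorem commute_of_NP (h : Hyp G m n) [Fact p.Prime] (hpm : p ∣ m) {u : G} (hu : NP p u)
    {r s : G} (hr : Commute u r) (hrp : IsP p r) (hs : Commute u s) (hsp : IsReg p s) :
    Commute r s :=
  commute_of_good h hpm hu.2 (good_of_NP h hpm hu) hr hrp hs hsp

theorem mem_RR (h : Hyp G m n) [Fact p.Prime] (hpm : p ∣ m) {u : G} (hu : NP p u) {g : G} :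
    g ∈ RR p u ↔ Commute u g ∧ IsP p g :=
  mem_RR_of_good h hpm hu.2 (good_of_NP h hpm hu)

theorem mem_HH (h : Hyp G m n) [Fact p.Prime] (hpm : p ∣ m) {u : G} (hu : NP p u) {g : G} :
    g ∈ HH p u ↔ Commute u g ∧ IsReg p g :=
  mem_HH_of_good h hpm hu.2 (good_of_NP h hpm hu)

theorem card_RR (h : Hyp G m n) [Fact p.Prime] (hpm : p ∣ m) {u : G} (hu : NP p u) :
    Nat.card (RR p u) = rho G p m :=
  card_RR_of_good h hpm hu.2 (good_of_NP h hpm hu)

theorem isPGroup_RR (h : Hyp G m n) [Fact p.Prime] (hpm : p ∣ m) {u : G} (hu : NP p u) :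
    IsPGroup p (RR p u) :=
  isPGroup_RR_of_good h hpm hu.2 (good_of_NP h hpm hu)

/-- there is a Sylow `p`-subgroup of `G` containing `RR p u` -/
theorem exists_sylow_ge_RR (h : Hyp G m n) [Fact p.Prime] (hpm : p ∣ m) {u : G} (hu : NP p u) :
    ∃ P : Sylow p G, RR p u ≤ P :=
  (isPGroup_RR h hpm hu).exists_le_sylow

/-- ... and it contains an element outside `RR p u`; such an element is a noncentral `p`-element
not commuting with `u` -/
theorem exists_not_mem_RR (h : Hyp G m n) [Fact p.Prime] (hpm : p ∣ m) {u : G} (hu : NP p u)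
    (P : Sylow p G) : ∃ t ∈ P, t ∉ RR p u := by
  have hp : p.Prime := Fact.out
  by_contra hno
  have hle : (P : Subgroup G) ≤ RR p u := by
    intro t ht
    by_contra htR
    exact hno ⟨t, ht, htR⟩
  have h1 := Subgroup.card_le_of_le hle
  rw [card_RR h hpm hu] at h1
  have h1' : Nat.card P ≤ rho G p m := h1
  rw [card_sylow h hpm P] at h1'
  have h2 : 0 < rho G p m := by unfold rho; exact pow_pos hp.pos _
  have h3 : 1 < p ^ m.factorization p :=
    Nat.one_lt_pow (by have := fact_pos h hp hpm; omega) hp.one_lt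
  nlinarith

theorem NP_of_not_mem_RR (h : Hyp G m n) [Fact p.Prime] (hpm : p ∣ m) {u : G} (hu : NP p u)
    {T : Subgroup G} (hT : IsPGroup p T) {t : G} (ht : t ∈ T) (htR : t ∉ RR p u) :
    NP p t ∧ ¬ Commute u t := by
  have h1 : IsP p t := isP_of_mem hT ht
  have h2 : ¬ Commute u t := fun hc => htR ((mem_RR h hpm hu).mpr ⟨hc, h1⟩)
  exact ⟨⟨h1, fun hz => h2 (commute_of_mem_center hz u).symm⟩, h2⟩

/-- F2 : if `w` is a noncentral `p`-regular element commuting with the noncentral `p`-element `u`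
then `RR p u` is a Sylow `p`-subgroup of `C(w)`: in a `p`-subgroup `T ≥ RR p u` only the elements
of `RR p u` commute with `w` -/
theorem mem_RR_of_commute (h : Hyp G m n) [Fact p.Prime] (hpm : p ∣ m) {u : G} (hu : NP p u)
    {w : G} (hw : NR p w) (huw : Commute u w) (T : Subgroup G) (hT : IsPGroup p T)
    (hRT : RR p u ≤ T) {s : G} (hs : s ∈ T) (hsw : Commute s w) : s ∈ RR p u := by
  have h1 : IsPGroup p (T ⊓ Cen w : Subgroup G) := hT.to_le inf_le_left
  have h2 := card_dvd_rho h hpm hw.2 _ h1 inf_le_right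
  have h3 : RR p u ≤ T ⊓ Cen w := by
    refine le_inf hRT ?_
    intro r hr
    obtain ⟨hr1, hr2⟩ := (mem_RR h hpm hu).mp hr
    exact mem_Cen.mpr (commute_of_NP h hpm hu hr1 hr2 huw hw.1)
  have h4 : RR p u = T ⊓ Cen w := by
    apply Subgroup.eq_of_le_of_card_ge h3
    rw [card_RR h hpm hu]
    exact Nat.le_of_dvd (by unfold rho; exact pow_pos (Fact.out : p.Prime).pos _) h2
  rw [h4]
  exact ⟨hs, mem_Cen.mpr hsw⟩

end Cfsg.Agent.Lib.Helper65CSBasic
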