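import Mathlib
import Cfsg.Agent.Lib.Helper65CSDefs
import Cfsg.Agent.Lib.Helper65CSBasic

/-! PROJECT 65 (architect helper65), piece `y2`. -/

set_option autoImplicit false

namespace Cfsg.Agent.Lib.Helper27CSY2

open Cfsg.Agent.Lib.Helper65CSDefs Cfsg.Agent.Lib.Helper65CSBasic

variable {G : Type*} [Group G] [Finite G] {m n : ℕ}

theorem good_of_NPq (h : Hyp G m n) {p q : ℕ} (hp : p.Prime) (hq : q.Prime) (hpq : p ≠ q)
    (hpm : p ∣ m) (hqm : q ∣ m) {v : G} (hv : NP q v) : Good p m v := by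
  have := Fact.mk hp
  have := Fact.mk hq
  intro y hvy hy
  obtain ⟨a, b, ha, hb, hab, hcab, haq, hbq⟩ := exists_split q y
  have hva : Commute v a := mem_Cen'.mp (Cen_le_of_mem_zpowers ha (mem_Cen'.mpr hvy.symm)) |>.symm
  have hvb : Commute v b := mem_Cen'.mp (Cen_le_of_mem_zpowers hb (mem_Cen'.mpr hvy.symm)) |>.symm
  have hcen : Cen (v * b) = Cen v ⊓ Cen b := Cen_mul_of_coprime hvb (IsP.coprime hv.1 hbq)
  have hnc : v * b ∉ Subgroup.center G := by
    intro hc
    apply hv.2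
    rw [← index_eq_one_iff, Subgroup.index_eq_one] at hc ⊢
    rw [hcen] at hc
    exact top_le_iff.mp (hc ▸ inf_le_left)
  obtain ⟨T, -, hT, hTp, hTc⟩ := exists_sylow_cen h hpm hnc ⊥ IsPGroup.of_bot bot_le
  rw [hcen] at hT
  refine ⟨T, le_inf (hT.trans inf_le_left) ?_, hTp, hTc⟩
  intro t ht
  have htv : Commute v t := mem_Cen'.mp ((hT ht).1)
  have htb : Commute b t := mem_Cen'.mp ((hT ht).2)
  have hta : Commute a t :=
    commute_of_NP h hqm hv hva haq htv (IsP.isReg hp hq hpq (isP_of_mem hTp ht))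
  rw [mem_Cen', hab]
  exact hta.mul_left htb

theorem cen_le (h : Hyp G m n) {p q : ℕ} (hp : p.Prime) (hq : q.Prime) (hpq : p ≠ q)
    (hpm : p ∣ m) (hqm : q ∣ m) {u v : G} (hu : NP p u) (hv : NP q v) (huv : Commute u v) :
    Cen v ≤ Cen u := by
  have := Fact.mk hp
  have := Fact.mk hq
  have hgood := good_of_NPq h hp hq hpq hpm hqm hv
  have hle : RR p u ≤ RR p v := by
    intro g hg
    rw [mem_RR h hpm hu] at hg
    rw [mem_RR_of_good h hpm hv.2 hgood]
    exact ⟨(commute_of_NP h hpm hu hg.1 hg.2 huv (IsP.isReg hq hp hpq.symm hv.1)).symm, hg.2⟩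
  have heq : RR p u = RR p v := by
    apply Subgroup.eq_of_le_of_card_ge hle
    rw [card_RR h hpm hu, card_RR_of_good h hpm hv.2 hgood]
  intro g hg
  have hvg : Commute v g := mem_Cen'.mp hg
  obtain ⟨a, b, ha, hb, hab, -, hap, hbp⟩ := exists_split p g
  have hva : Commute v a := mem_Cen'.mp (Cen_le_of_mem_zpowers ha (mem_Cen'.mpr hvg.symm)) |>.symm
  have hvb : Commute v b := mem_Cen'.mp (Cen_le_of_mem_zpowers hb (mem_Cen'.mpr hvg.symm)) |>.symm
  have h1 : a ∈ RR p u := by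
    rw [heq, mem_RR_of_good h hpm hv.2 hgood]
    exact ⟨hva, hap⟩
  have hua : Commute u a := ((mem_RR h hpm hu).mp h1).1
  have hub : Commute u b := commute_of_good h hpm hv.2 hgood huv.symm hu.1 hvb hbp
  rw [mem_Cen', hab]
  exact hua.mul_right hub

theorem y2 (h : Hyp G m n) : OmegaStmt G m := by
  intro p q hp hq hpq hpm hqm u v hu hv huv
  exact le_antisymm (cen_le h hq hp hpq.symm hqm hpm hv hu huv.symm)
    (cen_le h hp hq hpq hpm hqm hu hv huv)

end Cfsg.Agent.Lib.Helper27CSY2
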