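import Mathlib
import Cfsg.Agent.Lib.Helper65CSDefs
import Cfsg.Agent.Lib.Helper65CSBasic
import Cfsg.Agent.Lib.Helper12Coprime

/-! PROJECT 65 (architect helper65), piece `y4`. -/

set_option autoImplicit false

namespace Cfsg.Agent.Lib.Helper27CSY4

open Cfsg.Agent.Lib.Helper65CSDefs Cfsg.Agent.Lib.Helper65CSBasic

variable {G : Type*} [Group G] [Finite G] {m n : ℕ}

/-- `RR q v` has index `q` in a Sylow subgroup containing it, so it is normal there. -/
theorem conj_mem_RR (h : Hyp G m n) {q : ℕ} [hq : Fact q.Prime] (hqm : q ∣ m)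
    (ha : m.factorization q = 1) {v : G} (hv : NP q v) (P : Sylow q G) (hle : RR q v ≤ P)
    {s : G} (hs : s ∈ P) {x : G} (hx : x ∈ RR q v) : s * x * s⁻¹ ∈ RR q v := by
  have hc : Nat.card P = rho G q m * q := by
    have := card_sylow h hqm P
    rwa [ha, pow_one] at this
  have hidx : ((RR q v).subgroupOf (P : Subgroup G)).index = q := by
    have h1 := ((RR q v).subgroupOf (P : Subgroup G)).card_mul_index
    rw [Nat.card_congr (Subgroup.subgroupOfEquivOfLe hle).toEquiv, card_RR h hqm hv] at h1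
    have h2 : Nat.card (P : Subgroup G) = rho G q m * q := hc
    rw [h2] at h1
    have hpos : 0 < rho G q m := by
      unfold rho
      exact pow_pos hq.out.pos _
    exact Nat.eq_of_mul_eq_mul_left hpos h1
  have hmin : (Nat.card (P : Subgroup G)).minFac = q := by
    obtain ⟨k, hk⟩ := IsPGroup.iff_card.mp P.2
    have hk' : Nat.card (P : Subgroup G) = q ^ k := hk
    rw [hk']
    have hk0 : k ≠ 0 := by
      rintro rfl
      have h2 : Nat.card (P : Subgroup G) = rho G q m * q := hc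
      rw [hk', pow_zero] at h2
      have : q ∣ 1 := h2 ▸ Dvd.intro_left _ rfl
      exact hq.out.one_lt.ne' (Nat.dvd_one.mp this)
    exact hq.out.pow_minFac hk0
  have hn : ((RR q v).subgroupOf (P : Subgroup G)).Normal :=
    Subgroup.normal_of_index_eq_minFac_card (by rw [hidx, hmin])
  have := hn.conj_mem ⟨x, hle hx⟩ (Subgroup.mem_subgroupOf.mpr hx) ⟨s, hs⟩
  exact Subgroup.mem_subgroupOf.mp this

theorem sylow_le_normalizer (h : Hyp G m n)
    (ha : ∀ q : ℕ, q.Prime → q ∣ m → m.factorization q = 1)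
    (hΩ : OmegaStmt G m) {p : ℕ} [hp : Fact p.Prime] (hpm : p ∣ m) {u : G} (hu : NP p u)
    (q : ℕ) [hq : Fact q.Prime] (hqm : q ∣ m) :
    ∃ P : Sylow q G, (P : Subgroup G) ≤ Subgroup.normalizer (HH p u : Set G) := by
  by_cases hpq : p = q
  · subst hpq
    obtain ⟨P, hP⟩ := exists_sylow_ge_RR h hpm hu
    refine ⟨P, ?_⟩
    rw [Subgroup.le_normalizer_iff]
    intro s hs g hg
    rw [mem_HH h hpm hu] at hg ⊢
    have huR : u ∈ RR p u := (mem_RR h hpm hu).mpr ⟨Commute.refl u, hu.1⟩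
    have h1 : s⁻¹ * u * s⁻¹⁻¹ ∈ RR p u :=
      conj_mem_RR h hpm (ha p hp.out hpm) hu P hP (inv_mem hs) huR
    rw [mem_RR h hpm hu] at h1
    -- `u' = s⁻¹ u s` commutes with `g`
    have h2 : Commute (s⁻¹ * u * s⁻¹⁻¹) g := commute_of_NP h hpm hu h1.1 h1.2 hg.1 hg.2
    refine ⟨?_, IsReg.conj hg.2 s⟩
    have h3 := (commute_conj_iff s (s⁻¹ * u * s⁻¹⁻¹) g).mpr h2
    have e : s * (s⁻¹ * u * s⁻¹⁻¹) * s⁻¹ = u := by group
    rwa [e] at h3
  · obtain ⟨v, hv, hvu⟩ := exists_NP_commute h hqm hu.2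
    have hcen : Cen u = Cen v := hΩ p q hp.out hq.out hpq hpm hqm u v hu hv hvu.symm
    obtain ⟨P, hP⟩ := exists_sylow_ge_RR h hqm hv
    refine ⟨P, ?_⟩
    rw [Subgroup.le_normalizer_iff]
    intro s hs g hg
    rw [mem_HH h hpm hu] at hg ⊢
    have hvR : v ∈ RR q v := (mem_RR h hqm hv).mpr ⟨Commute.refl v, hv.1⟩
    have h1 : s * v * s⁻¹ ∈ RR q v := conj_mem_RR h hqm (ha q hq.out hqm) hv P hP hs hvR
    rw [mem_RR h hqm hv] at h1
    have h2 : Commute u (s * v * s⁻¹) := by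
      rw [← mem_Cen', hcen, mem_Cen']
      exact h1.1
    have hcen' : Cen u = Cen (s * v * s⁻¹) :=
      hΩ p q hp.out hq.out hpq hpm hqm u _ hu (NP.conj hv s) h2
    refine ⟨?_, IsReg.conj hg.2 s⟩
    rw [← mem_Cen', hcen', mem_Cen', commute_conj_iff, ← mem_Cen', ← hcen, mem_Cen']
    exact hg.1

theorem y4 (h : Hyp G m n) (ha : ∀ q : ℕ, q.Prime → q ∣ m → m.factorization q = 1)
    (hΩ : OmegaStmt G m) {p : ℕ} [Fact p.Prime] (hpm : p ∣ m) : ConjStmt G m p := by
  intro u x hu hx hux hxr g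
  set N := Subgroup.normalizer (HH p u : Set G) with hN
  have hcop : N.index.Coprime (Cen x).index := by
    rw [hx]
    apply Nat.coprime_of_dvd
    intro q hq h1 h2
    have := Fact.mk hq
    obtain ⟨P, hP⟩ := sylow_le_normalizer h ha hΩ hpm hu q h2
    exact P.not_dvd_index (h1.trans (Subgroup.index_dvd_of_le hP))
  obtain ⟨ν, hν, c, hc, rfl⟩ := Cfsg.Agent.Lib.Helper12Coprime.exists_mul_of_coprime_index N (Cen x) hcop g
  have hcx : Commute c x := mem_Cen.mp hc
  have e : ν * c * x * (ν * c)⁻¹ = ν * x * ν⁻¹ := by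
    have : c * x * c⁻¹ = x := by rw [hcx.eq, mul_inv_cancel_right]
    calc ν * c * x * (ν * c)⁻¹ = ν * (c * x * c⁻¹) * ν⁻¹ := by group
      _ = ν * x * ν⁻¹ := by rw [this]
  rw [e]
  have hxH : x ∈ HH p u := (mem_HH h hpm hu).mpr ⟨hux, hxr⟩
  have h1 : ν * x * ν⁻¹ ∈ HH p u := (Subgroup.le_normalizer_iff.mp le_rfl) ν hν x hxH
  exact ((mem_HH h hpm hu).mp h1).1.symm

end Cfsg.Agent.Lib.Helper27CSY4
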