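import Cfsg.Prelude
import Cfsg.Agent.Lib.Helper27Core

set_option autoImplicit false

/-! `O_2(C_G(z))` in a group of characteristic 2 type, ambient form. -/

namespace Cfsg.Agent.Lib.Helper27NGa

open Subgroup Cfsg

variable {G : Type*} [Group G]

/-- `C_G(z)` as the normalizer of `⟨z⟩`. -/
abbrev NN (z : G) : Subgroup G := normalizer ((zpowers z : Subgroup G) : Set G)

/-- `O_2(C_G(z))` as a subgroup of `G`. -/
def O2C (z : G) : Subgroup G := (pCore 2 ↥(NN z)).map (NN z).subtype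

theorem mem_zpowers_iff {z : G} (hz2 : z * z = 1) {x : G} : x ∈ zpowers z ↔ x = 1 ∨ x = z := by
  constructor
  · rintro ⟨k, rfl⟩
    rcases Int.even_or_odd' k with ⟨m, rfl | rfl⟩
    · left
      change z ^ (2 * m) = 1
      rw [zpow_mul, zpow_two, hz2, one_zpow]
    · right
      change z ^ (2 * m + 1) = z
      rw [zpow_add, zpow_mul, zpow_two, hz2, one_zpow, one_mul, zpow_one]
  · rintro (rfl | rfl)
    · exact one_mem _
    · exact mem_zpowers _

theorem mem_NN {z : G} (hz2 : z * z = 1) {c : G} : c ∈ NN z ↔ c * z = z * c := by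
  constructor
  · intro h
    have h1 := (mem_normalizer_iff.mp h z).mp (mem_zpowers z)
    rcases (mem_zpowers_iff hz2).mp h1 with h2 | h2
    · have : z = 1 := by
        have := congrArg (fun t => c⁻¹ * t * c) h2
        simpa [mul_assoc] using this
      rw [this]; simp
    · exact mul_inv_eq_iff_eq_mul.mp h2
  · intro h
    rw [mem_normalizer_iff]
    have hc : ∀ k : ℤ, c * z ^ k * c⁻¹ = z ^ k := by
      intro k
      have : Commute c (z ^ k) := (show Commute c z from h).zpow_right k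
      rw [this.eq, mul_inv_cancel_right]
    intro x
    constructor
    · rintro ⟨k, rfl⟩
      exact ⟨k, (hc k).symm⟩
    · rintro ⟨k, hk⟩
      refine ⟨k, ?_⟩
      have hk' : z ^ k = c * x * c⁻¹ := hk
      have := hc k
      rw [hk'] at this
      have h3 : c * x * c⁻¹ = x := by
        have h4 := congrArg (fun t => c⁻¹ * t * c) this
        simpa [mul_assoc] using h4
      change z ^ k = x
      rw [hk', h3]

theorem O2C_le (z : G) : O2C z ≤ NN z := by
  rintro _ ⟨x, -, rfl⟩; exact x.2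

theorem O2C_isPGroup (z : G) : IsPGroup 2 ↥(O2C z) :=
  (Helper27Core.pCore_isPGroup 2).map _

theorem mem_O2C {z x : G} (hx : x ∈ NN z) : x ∈ O2C z ↔ (⟨x, hx⟩ : ↥(NN z)) ∈ pCore 2 ↥(NN z) := by
  constructor
  · rintro ⟨y, hy, hyx⟩
    have : y = ⟨x, hx⟩ := Subtype.ext hyx
    rwa [← this]
  · intro h
    exact ⟨_, h, rfl⟩

theorem pCore_normal' (H : Type*) [Group H] : (pCore 2 H).Normal := by
  unfold pCore
  exact Subgroup.sSup_normal _ (fun N hN => hN.1)

theorem conj_mem_O2C {z c r : G} (hc : c ∈ NN z) (hr : r ∈ O2C z) : c * r * c⁻¹ ∈ O2C z := by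
  have hrN := O2C_le z hr
  have h1 := (mem_O2C hrN).mp hr
  have h2 := (pCore_normal' ↥(NN z)).conj_mem _ h1 ⟨c, hc⟩
  exact ⟨_, h2, rfl⟩

/-- a `2`-subgroup of `C_G(z)` normalized by `C_G(z)` lies in `O_2(C_G(z))`. -/
theorem le_O2C {z : G} {Q : Subgroup G} (hQ : IsPGroup 2 ↥Q) (hQN : Q ≤ NN z)
    (hn : ∀ c ∈ NN z, ∀ q ∈ Q, c * q * c⁻¹ ∈ Q) : Q ≤ O2C z := by
  have h1 : (Q.subgroupOf (NN z)).Normal := ⟨fun q hq c => by
    rw [mem_subgroupOf] at hq ⊢
    exact hn c c.2 q hq⟩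
  have h2 : IsPGroup 2 ↥(Q.subgroupOf (NN z)) := hQ.comap_subtype
  have h3 := Helper27Core.le_pCore h1 h2
  intro q hq
  exact ⟨⟨q, hQN hq⟩, h3 (mem_subgroupOf.mpr hq), rfl⟩

/-- self-centralizing property in a group of characteristic 2 type. -/
theorem mem_O2C_of_centralizes (h2 : IsCharacteristicTwoType G) {z : G} (hz2 : z * z = 1)
    (hz1 : z ≠ 1) {c : G} (hc : c ∈ NN z) (h : ∀ r ∈ O2C z, c * r = r * c) : c ∈ O2C z := by
  have hp : IsPGroup 2 ↥(zpowers z) := by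
    rintro ⟨x, hx⟩
    refine ⟨1, Subtype.ext ?_⟩
    rcases (mem_zpowers_iff hz2).mp hx with rfl | rfl
    · simp
    · simp [pow_two, hz2]
  have hne : zpowers z ≠ ⊥ := by
    rw [Ne, zpowers_eq_bot]; exact hz1
  have h3 := h2.2 (zpowers z) hp hne
  rw [mem_O2C hc]
  apply h3
  rw [mem_centralizer_iff]
  intro r hr
  apply Subtype.ext
  exact (h r ⟨r, hr, rfl⟩).symm

/-- stability group argument. -/
theorem mem_O2C_of_stab (h2 : IsCharacteristicTwoType G) {z : G} (hz2 : z * z = 1)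
    (hz1 : z ≠ 1) {w : G} (hw : w ∈ NN z) (h : ∀ r ∈ O2C z, w * r * w⁻¹ * r⁻¹ ∈ zpowers z) :
    w ∈ O2C z := by
  have hzc : ∀ c ∈ NN z, ∀ ζ ∈ zpowers z, c * ζ * c⁻¹ = ζ := by
    intro c hc ζ hζ
    have hcz := (mem_NN hz2).mp hc
    rcases (mem_zpowers_iff hz2).mp hζ with rfl | rfl
    · simp
    · rw [hcz, mul_inv_cancel_right]
  let W : Subgroup G :=
    { carrier := {c | c ∈ NN z ∧ ∀ r ∈ O2C z, c * r * c⁻¹ * r⁻¹ ∈ zpowers z}
      one_mem' := ⟨one_mem _, fun r _ => by simp⟩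
      mul_mem' := by
        rintro a b ⟨ha, ha'⟩ ⟨hb, hb'⟩
        refine ⟨mul_mem ha hb, fun r hr => ?_⟩
        have e : a * b * r * (a * b)⁻¹ * r⁻¹ =
            (a * (b * r * b⁻¹ * r⁻¹) * a⁻¹) * (a * r * a⁻¹ * r⁻¹) := by group
        rw [e, hzc a ha _ (hb' r hr)]
        exact mul_mem (hb' r hr) (ha' r hr)
      inv_mem' := by
        rintro a ⟨ha, ha'⟩
        refine ⟨inv_mem ha, fun r hr => ?_⟩
        have hr' : a⁻¹ * r * a ∈ O2C z := by
          have := conj_mem_O2C (inv_mem ha) hr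
          simpa using this
        have h1 := inv_mem (ha' _ hr')
        have e : (a * (a⁻¹ * r * a) * a⁻¹ * (a⁻¹ * r * a)⁻¹)⁻¹ = a⁻¹ * r * a⁻¹⁻¹ * r⁻¹ := by group
        rwa [e] at h1 }
  have hWmem : ∀ c, c ∈ W ↔ c ∈ NN z ∧ ∀ r ∈ O2C z, c * r * c⁻¹ * r⁻¹ ∈ zpowers z :=
    fun c => Iff.rfl
  have hWp : IsPGroup 2 ↥W := by
    rintro ⟨c, hc⟩
    obtain ⟨hcN, hc'⟩ := (hWmem c).mp hc
    have hsq : c * c ∈ O2C z := by
      apply mem_O2C_of_centralizes h2 hz2 hz1 (mul_mem hcN hcN)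
      intro r hr
      obtain ⟨ζ, hζ⟩ : ∃ ζ, ζ = c * r * c⁻¹ * r⁻¹ := ⟨_, rfl⟩
      have hζz : ζ ∈ zpowers z := hζ ▸ hc' r hr
      have e1 : c * r = ζ * r * c := by rw [hζ]; group
      have hζ2 : ζ * ζ = 1 := by
        rcases (mem_zpowers_iff hz2).mp hζz with h | h
        · rw [h]; simp
        · rw [h]; exact hz2
      have hcζ : c * ζ = ζ * c := by
        have := hzc c hcN ζ hζz
        exact mul_inv_eq_iff_eq_mul.mp this
      calc c * c * r = c * (c * r) := by group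
        _ = c * (ζ * r * c) := by rw [e1]
        _ = (c * ζ) * r * c := by group
        _ = ζ * (c * r) * c := by rw [hcζ]; group
        _ = ζ * (ζ * r * c) * c := by rw [e1]
        _ = (ζ * ζ) * r * c * c := by group
        _ = r * (c * c) := by rw [hζ2]; group
    obtain ⟨k, hk⟩ := (O2C_isPGroup z) ⟨c * c, hsq⟩
    refine ⟨k + 1, Subtype.ext ?_⟩
    have hk' : (c * c) ^ 2 ^ k = 1 := congrArg Subtype.val hk
    change c ^ 2 ^ (k + 1) = 1
    rw [pow_succ, mul_comm, pow_mul, pow_two, hk']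
  have hWle := le_O2C hWp (fun c hc => hc.1) (by
    intro g hg c hc
    obtain ⟨hcN, hc'⟩ := (hWmem c).mp hc
    refine (hWmem _).mpr ⟨mul_mem (mul_mem hg hcN) (inv_mem hg), fun r hr => ?_⟩
    have hr' : g⁻¹ * r * g ∈ O2C z := by
      have := conj_mem_O2C (inv_mem hg) hr
      simpa using this
    have h1 := hc' _ hr'
    have e : g * c * g⁻¹ * r * (g * c * g⁻¹)⁻¹ * r⁻¹ =
        g * (c * (g⁻¹ * r * g) * c⁻¹ * (g⁻¹ * r * g)⁻¹) * g⁻¹ := by group
    rw [e, hzc g hg _ h1]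
    exact h1)
  exact hWle ((hWmem w).mpr ⟨hw, h⟩)

end Cfsg.Agent.Lib.Helper27NGa
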