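import Cfsg.Agent.Lib.Helper27NGa

set_option autoImplicit false

namespace Cfsg.Agent.Lib.Helper27NGb

open Subgroup Cfsg Cfsg.Agent.Lib.Helper27NGa

variable {G : Type*} [Group G]

section four
variable {U : Subgroup G} [hU4 : IsKleinFour ↥U]

theorem sq_eq_one {x : G} (hx : x ∈ U) : x * x = 1 :=
  congrArg Subtype.val (IsKleinFour.mul_self (⟨x, hx⟩ : ↥U))

theorem comm_of_mem {x y : G} (hx : x ∈ U) (hy : y ∈ U) : x * y = y * x :=
  congrArg Subtype.val ((IsKleinFour.isMulCommutative (G := ↥U)).is_comm.comm ⟨x, hx⟩ ⟨y, hy⟩)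

theorem mul_mem_zpowers {z x y : G} (hz : z ∈ U) (hz1 : z ≠ 1) (hx : x ∈ U) (hy : y ∈ U)
    (hxz : x ∉ zpowers z) (hyz : y ∉ zpowers z) : x * y ∈ zpowers z := by
  have hz2 := sq_eq_one hz
  rw [mem_zpowers_iff hz2] at hxz hyz ⊢
  push Not at hxz hyz
  by_cases hxy : x = y
  · left; rw [hxy]; exact sq_eq_one hy
  · right
    have := IsKleinFour.eq_mul_of_ne_all (G := ↥U) (x := ⟨x, hx⟩) (y := ⟨y, hy⟩) (z := ⟨z, hz⟩)
      (fun h => hxz.1 (congrArg Subtype.val h)) (fun h => hyz.1 (congrArg Subtype.val h))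
      (fun h => hxy (congrArg Subtype.val h)) (fun h => hz1 (congrArg Subtype.val h))
      (fun h => hxz.2 (congrArg Subtype.val h).symm) (fun h => hyz.2 (congrArg Subtype.val h).symm)
    exact (congrArg Subtype.val this).symm

end four

theorem le_normalizer_of_conj {A R : Subgroup G} (h : ∀ a ∈ A, ∀ r ∈ R, a * r * a⁻¹ ∈ R) :
    A ≤ normalizer (R : Set G) := by
  intro a ha
  rw [mem_normalizer_iff]
  intro r
  refine ⟨h a ha r, fun hr => ?_⟩
  have := h a⁻¹ (inv_mem ha) _ hr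
  simpa [mul_assoc] using this

theorem O2C_le_sylow [Finite G] {z : G} (T : Sylow 2 G) (hT : (T : Subgroup G) ≤ NN z) :
    O2C z ≤ (T : Subgroup G) := by
  have h1 : IsPGroup 2 ↥(O2C z ⊔ (T : Subgroup G)) :=
    (O2C_isPGroup z).to_sup_of_normal_left' T.isPGroup'
      (le_normalizer_of_conj fun a ha r hr => conj_mem_O2C (hT ha) hr)
  have h2 := T.is_maximal' h1 le_sup_right
  rw [← h2]; exact le_sup_left

theorem claimA [Finite G] (h2 : IsCharacteristicTwoType G) (T : Sylow 2 G) (U : Subgroup G)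
    [IsKleinFour ↥U] (hUn : (T : Subgroup G) ≤ normalizer (U : Set G))
    {z : G} (hzU : z ∈ U) (hz1 : z ≠ 1) (hzT : ∀ x ∈ (T : Subgroup G), x * z = z * x) :
    U ≤ O2C z := by
  have hz2 := sq_eq_one hzU
  have hTN : (T : Subgroup G) ≤ NN z := fun x hx => (mem_NN hz2).mpr (hzT x hx)
  have hRT := O2C_le_sylow T hTN
  intro w hw
  apply mem_O2C_of_stab h2 hz2 hz1 ((mem_NN hz2).mpr (comm_of_mem hw hzU))
  intro r hr
  have hrT := hRT hr
  have hw2 : r * w⁻¹ * r⁻¹ ∈ U := (mem_normalizer_iff.mp (hUn hrT) _).mp (inv_mem hw)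
  have e : w * r * w⁻¹ * r⁻¹ = w * (r * w⁻¹ * r⁻¹) := by group
  rw [e]
  have hrz := hzT r hrT
  by_cases hwz : w ∈ zpowers z
  · rcases (mem_zpowers_iff hz2).mp hwz with rfl | rfl
    · simp
    · have : r * w⁻¹ * r⁻¹ = w⁻¹ := by
        have h3 : r * w⁻¹ = w⁻¹ * r := by
          rw [eq_inv_mul_iff_mul_eq, ← mul_assoc, ← hrz, mul_inv_cancel_right]
        rw [h3, mul_inv_cancel_right]
      rw [this, mul_inv_cancel]; exact one_mem _
  · apply mul_mem_zpowers hzU hz1 hw hw2 hwz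
    intro h
    apply hwz
    rcases (mem_zpowers_iff hz2).mp h with h | h
    · have : w⁻¹ = 1 := by
        have := congrArg (fun t => r⁻¹ * t * r) h
        simpa [mul_assoc] using this
      rw [inv_eq_one.mp this]; exact one_mem _
    · have : w⁻¹ = z := by
        have h4 := congrArg (fun t => r⁻¹ * t * r) h
        have h5 : r⁻¹ * z * r = z := by rw [mul_assoc, ← hrz, inv_mul_cancel_left]
        simp only [h5] at h4
        simpa [mul_assoc] using h4
      have : w = z⁻¹ := by rw [← this, inv_inv]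
      rw [this]; exact inv_mem (mem_zpowers z)

theorem eq_one_of_odd_of_two [Finite G] {K R : Subgroup G} (hK : Odd (Nat.card ↥K))
    (hR : IsPGroup 2 ↥R) {c : G} (hcK : c ∈ K) (hcR : c ∈ R) : c = 1 := by
  obtain ⟨k, hk⟩ := hR ⟨c, hcR⟩
  have hk' : c ^ 2 ^ k = 1 := congrArg Subtype.val hk
  have h1 : c ^ Nat.card ↥K = 1 := congrArg Subtype.val (pow_card_eq_one' (G := ↥K) (x := ⟨c, hcK⟩))
  have hc : Nat.Coprime (2 ^ k) (Nat.card ↥K) :=
    Nat.Coprime.pow_left k (Nat.coprime_two_left.mpr hK)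
  have := Nat.eq_one_of_dvd_coprimes hc (orderOf_dvd_of_pow_eq_one hk')
    (orderOf_dvd_of_pow_eq_one h1)
  exact orderOf_eq_one_iff.mp this

theorem claimB [Finite G] {U K : Subgroup G} (hK : Odd (Nat.card ↥K))
    (hUK : U ≤ normalizer (K : Set G)) {z : G} (hz2 : z * z = 1) (hU : U ≤ O2C z) :
    K ⊓ centralizer {z} ≤ centralizer (U : Set G) := by
  rintro l ⟨hlK, hlz⟩
  have hlz' : l * z = z * l := mem_centralizer_singleton_iff.mp hlz
  have hlN : l ∈ NN z := (mem_NN hz2).mpr hlz'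
  rw [mem_centralizer_iff]
  intro w hw
  have h1 : l * w * l⁻¹ * w⁻¹ ∈ K := by
    have e : l * w * l⁻¹ * w⁻¹ = l * (w * l⁻¹ * w⁻¹) := by group
    rw [e]
    exact mul_mem hlK ((mem_normalizer_iff.mp (hUK hw) _).mp (inv_mem hlK))
  have h2 : l * w * l⁻¹ * w⁻¹ ∈ O2C z := mul_mem (conj_mem_O2C hlN (hU hw)) (inv_mem (hU hw))
  have h3 := eq_one_of_odd_of_two hK (O2C_isPGroup z) h1 h2
  have h4 : l * w = w * l := by
    have := congrArg (fun t => t * w * l) h3
    simpa [mul_assoc] using this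
  exact h4.symm

end Cfsg.Agent.Lib.Helper27NGb
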