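import Cfsg.Agent.Lib.Helper27NGb
import Cfsg.Agent.Lib.Helper27E8Cyc

set_option autoImplicit false

namespace Cfsg.Agent.Lib.Helper27NGc

open Subgroup Cfsg Cfsg.Agent.Lib.Helper27NGa Cfsg.Agent.Lib.Helper27NGb

variable {G : Type*} [Group G]

/-- in a cyclic centre there is only one involution -/
theorem cyc2 [Finite G] {P : Subgroup G} (hcyc : IsCyclic ↥(P ⊓ centralizer (P : Set G)))
    {u : G} (huP : u ∈ P) (hu1 : u ≠ 1) (hu2 : u * u = 1) (huc : ∀ x ∈ P, x * u = u * x)
    {m : G} (hmP : m ∈ P) (hmc : ∀ x ∈ P, x * m = m * x) (hm2 : m * m = 1) : m ∈ zpowers u := by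
  have hu' : u ∈ P ⊓ centralizer (P : Set G) := ⟨huP, mem_centralizer_iff.mpr fun x hx => huc x hx⟩
  have hm' : m ∈ P ⊓ centralizer (P : Set G) := ⟨hmP, mem_centralizer_iff.mpr fun x hx => hmc x hx⟩
  have hcard : Nat.card ↥(zpowers (⟨u, hu'⟩ : ↥(P ⊓ centralizer (P : Set G)))) = 2 := by
    rw [Nat.card_zpowers]
    apply orderOf_eq_prime
    · rw [pow_two]; exact Subtype.ext hu2
    · intro h; exact hu1 (congrArg Subtype.val h)
  have := Helper27E8Cyc.mem_of_pow_card_eq_one
    (zpowers (⟨u, hu'⟩ : ↥(P ⊓ centralizer (P : Set G))))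
    (x := ⟨m, hm'⟩) (by rw [hcard, pow_two]; exact Subtype.ext hm2)
  obtain ⟨k, hk⟩ := this
  exact ⟨k, by
    have := congrArg Subtype.val hk
    simpa using this⟩

theorem conj_eq_iff {x y : G} : x * y * x⁻¹ = y ↔ x * y = y * x := mul_inv_eq_iff_eq_mul

variable [Finite G]

theorem caseW (h2 : IsCharacteristicTwoType G) (P : Sylow 2 G) (U : Subgroup G) [IsKleinFour ↥U]
    (hUP : U ≤ (P : Subgroup G)) (hUn : (P : Subgroup G) ≤ normalizer (U : Set G))
    (hcyc : IsCyclic ↥((P : Subgroup G) ⊓ centralizer ((P : Subgroup G) : Set G)))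
    {u w : G} (huU : u ∈ U) (hu1 : u ≠ 1) (huP : ∀ x ∈ (P : Subgroup G), x * u = u * x)
    (hwU : w ∈ U) (hwu : w ∉ zpowers u) : U ≤ O2C w := by
  have hu2 := sq_eq_one huU
  have hw2 := sq_eq_one hwU
  have hw1 : w ≠ 1 := by rintro rfl; exact hwu (one_mem _)
  have huw : u * w = w * u := comm_of_mem huU hwU
  have hwinv : w⁻¹ = w := inv_eq_of_mul_eq_one_left hw2
  have hcyc2 : ∀ m ∈ (P : Subgroup G), (∀ x ∈ (P : Subgroup G), x * m = m * x) → m * m = 1 →
      m ∈ zpowers u := fun m hm hc h => cyc2 hcyc (hUP huU) hu1 hu2 huP hm hc h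
  set P₀ : Subgroup G := (P : Subgroup G) ⊓ centralizer {w} with hP₀
  have hP₀w : ∀ g ∈ P₀, g * w = w * g := fun g hg => mem_centralizer_singleton_iff.mp hg.2
  have hP₀P : P₀ ≤ (P : Subgroup G) := inf_le_left
  have memP₀ : ∀ g, g ∈ (P : Subgroup G) → g * w = w * g → g ∈ P₀ := fun g hg h =>
    mem_inf.mpr ⟨hg, mem_centralizer_singleton_iff.mpr h⟩
  have hzu : ∀ ζ ∈ zpowers u, ∀ g ∈ (P : Subgroup G), g * ζ = ζ * g := by
    intro ζ hζ g hg
    rcases (mem_zpowers_iff hu2).mp hζ with rfl | rfl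
    · simp
    · exact huP g hg
  -- decomposition of the elements of U
  have hUdec : ∀ y ∈ U, y ∈ zpowers u ∨ ∃ ζ ∈ zpowers u, y = ζ * w := by
    intro y hy
    by_cases h : y ∈ zpowers u
    · exact Or.inl h
    · right
      refine ⟨y * w, mul_mem_zpowers huU hu1 hy hwU h hwu, ?_⟩
      rw [mul_assoc, hw2, mul_one]
  -- (a)
  have hP₀U : ∀ g ∈ P₀, ∀ y ∈ U, g * y = y * g := by
    intro g hg y hy
    rcases hUdec y hy with h | ⟨ζ, hζ, rfl⟩
    · exact hzu y h g (hP₀P hg)
    · rw [← mul_assoc, hzu ζ hζ g (hP₀P hg), mul_assoc, hP₀w g hg, mul_assoc]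
  have hUP₀ : U ≤ P₀ := fun y hy => memP₀ y (hUP hy) (comm_of_mem hy hwU)
  -- (b)
  obtain ⟨x, hxP, hxw⟩ : ∃ x ∈ (P : Subgroup G), x * w ≠ w * x := by
    by_contra hcon
    push Not at hcon
    exact hwu (hcyc2 w (hUP hwU) hcon hw2)
  -- (c)
  have hconj : ∀ g ∈ (P : Subgroup G), g * w * g⁻¹ = w ∨ g * w * g⁻¹ = w * u := by
    intro g hg
    have h1 : g * w * g⁻¹ ∈ U := (mem_normalizer_iff.mp (hUn hg) w).mp hwU
    have h3 : g * w * g⁻¹ ∉ zpowers u := by
      intro h
      apply hwu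
      have h4 := hzu _ h g⁻¹ (inv_mem hg)
      have h5 : g⁻¹ * (g * w * g⁻¹) = w * g⁻¹ := by group
      rw [h5] at h4
      have h6 : w = g * w * g⁻¹ := mul_right_cancel h4
      rw [h6]; exact h
    have h4 := mul_mem_zpowers huU hu1 h1 hwU h3 hwu
    rcases (mem_zpowers_iff hu2).mp h4 with h | h
    · left
      exact (eq_inv_of_mul_eq_one_left h).trans hwinv
    · right
      have : g * w * g⁻¹ = u * w⁻¹ := eq_mul_inv_of_mul_eq h
      rw [this, hwinv, huw]
  have hxconj : x * w * x⁻¹ = w * u := by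
    rcases hconj x hxP with h | h
    · exact absurd (conj_eq_iff.mp h) hxw
    · exact h
  have hxP₀ : x ∉ P₀ := fun h => hxw (hP₀w x h)
  -- index two
  have hidx : (P₀.subgroupOf (P : Subgroup G)).index = 2 := by
    rw [index_eq_two_iff]
    refine ⟨⟨x, hxP⟩, fun b => ?_⟩
    simp only [mem_subgroupOf, Subgroup.coe_mul]
    by_cases hb : (b : G) ∈ P₀
    · refine Or.inr ⟨hb, fun h => hxP₀ ?_⟩
      have := mul_mem (inv_mem hb) h
      simpa using this
    · refine Or.inl ⟨?_, hb⟩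
      apply memP₀ _ (mul_mem b.2 hxP)
      rw [← conj_eq_iff]
      have hbw : (b : G) * w * (b : G)⁻¹ = w * u := by
        rcases hconj b b.2 with h | h
        · exact absurd (memP₀ b b.2 (conj_eq_iff.mp h)) hb
        · exact h
      have hbu : (b : G) * u * (b : G)⁻¹ = u := conj_eq_iff.mpr (huP b b.2)
      calc (b : G) * x * w * ((b : G) * x)⁻¹ = b * (x * w * x⁻¹) * (b : G)⁻¹ := by group
        _ = (b * w * (b : G)⁻¹) * (b * u * (b : G)⁻¹) := by rw [hxconj]; group
        _ = w := by rw [hbw, hbu, mul_assoc, hu2, mul_one]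
  have hcardP : Nat.card ↥(P : Subgroup G) = 2 * Nat.card ↥P₀ := by
    have := (P₀.subgroupOf (P : Subgroup G)).card_mul_index
    rw [hidx, Nat.card_congr (subgroupOfEquivOfLe hP₀P).toEquiv] at this
    omega
  have hP₀n : (P₀.subgroupOf (P : Subgroup G)).Normal := normal_of_index_eq_two hidx
  have hxx : x * x ∈ P₀ := by
    have := (mul_mem_iff_of_index_two hidx (a := (⟨x, hxP⟩ : ↥(P : Subgroup G)))
      (b := ⟨x, hxP⟩)).mpr Iff.rfl
    exact mem_subgroupOf.mp this
  have hdec : ∀ g ∈ (P : Subgroup G), g ∈ P₀ ∨ x⁻¹ * g ∈ P₀ := by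
    intro g hg
    by_cases h : g ∈ P₀
    · exact Or.inl h
    · right
      have := (mul_mem_iff_of_index_two hidx (a := (⟨x, hxP⟩ : ↥(P : Subgroup G))⁻¹)
        (b := ⟨g, hg⟩)).mpr (by
          simp only [mem_subgroupOf, inv_mem_iff]
          exact iff_of_false hxP₀ h)
      exact mem_subgroupOf.mp this
  -- an element commuting with P₀ and x is central in P
  have hcen : ∀ m, (∀ g ∈ P₀, g * m = m * g) → x * m = m * x →
      ∀ g ∈ (P : Subgroup G), g * m = m * g := by
    intro m h1 h3 g hg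
    rcases hdec g hg with h | h
    · exact h1 g h
    · have h4 := h1 _ h
      calc g * m = x * ((x⁻¹ * g) * m) := by group
        _ = x * (m * (x⁻¹ * g)) := by rw [h4]
        _ = (x * m) * (x⁻¹ * g) := by group
        _ = m * g := by rw [h3]; group
  -- conjugation by an element normalizing P₀ preserves Z(P₀)
  have hconjZ : ∀ s : G, (∀ g ∈ P₀, s⁻¹ * g * s ∈ P₀) → ∀ y, (∀ g ∈ P₀, g * y = y * g) →
      ∀ g ∈ P₀, g * (s * y * s⁻¹) = (s * y * s⁻¹) * g := by
    intro s hs y hy g hg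
    have h4 := hy _ (hs g hg)
    calc g * (s * y * s⁻¹) = s * ((s⁻¹ * g * s) * y) * s⁻¹ := by group
      _ = s * (y * (s⁻¹ * g * s)) * s⁻¹ := by rw [h4]
      _ = (s * y * s⁻¹) * g := by group
  have hxn : ∀ g ∈ P₀, x * g * x⁻¹ ∈ P₀ := by
    intro g hg
    have := hP₀n.conj_mem ⟨g, hP₀P hg⟩ (mem_subgroupOf.mpr hg) ⟨x, hxP⟩
    exact mem_subgroupOf.mp this
  have hxn' : ∀ g ∈ P₀, x⁻¹ * g * x ∈ P₀ := by
    intro g hg
    have := hP₀n.conj_mem ⟨g, hP₀P hg⟩ (mem_subgroupOf.mpr hg) (⟨x, hxP⟩ : ↥(P : Subgroup G))⁻¹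
    have h4 := mem_subgroupOf.mp this
    simpa using h4
  -- (f)
  have lemY : ∀ y ∈ P₀, (∀ g ∈ P₀, g * y = y * g) → y * y = 1 → y ∈ U := by
    intro y hy hyc hy2
    have hyinv : y⁻¹ = y := inv_eq_of_mul_eq_one_left hy2
    obtain ⟨y', hy'⟩ : ∃ y', y' = x * y * x⁻¹ := ⟨_, rfl⟩
    have hy'P₀ : y' ∈ P₀ := hy' ▸ hxn y hy
    have hy'c : ∀ g ∈ P₀, g * y' = y' * g := hy' ▸ hconjZ x hxn' y hyc
    have hyy' : y' * y = y * y' := hyc y' hy'P₀
    have hy'2 : y' * y' = 1 := by
      rw [hy']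
      calc x * y * x⁻¹ * (x * y * x⁻¹) = x * (y * y) * x⁻¹ := by group
        _ = 1 := by rw [hy2]; group
    have hxy' : x * y' * x⁻¹ = y := by
      have h4 := hyc _ hxx
      rw [hy']
      calc x * (x * y * x⁻¹) * x⁻¹ = ((x * x) * y) * (x * x)⁻¹ := by group
        _ = y := by rw [h4]; group
    have hm_x : x * (y * y') = (y * y') * x := by
      rw [← conj_eq_iff]
      calc x * (y * y') * x⁻¹ = (x * y * x⁻¹) * (x * y' * x⁻¹) := by group
        _ = y' * y := by rw [← hy', hxy']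
        _ = y * y' := hyy'
    have hm_c : ∀ g ∈ P₀, g * (y * y') = (y * y') * g := by
      intro g hg
      rw [← mul_assoc, hyc g hg, mul_assoc, hy'c g hg, mul_assoc]
    have hm2 : (y * y') * (y * y') = 1 := by
      calc (y * y') * (y * y') = y * (y' * y) * y' := by group
        _ = (y * y) * (y' * y') := by rw [hyy']; group
        _ = 1 := by rw [hy2, hy'2, one_mul]
    have hm := hcyc2 _ (mul_mem (hP₀P hy) (hP₀P hy'P₀)) (hcen _ hm_c hm_x) hm2
    rcases (mem_zpowers_iff hu2).mp hm with h | h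
    · -- y' = y
      have h5 : y' = y := by
        rw [← hyinv]; exact eq_inv_of_mul_eq_one_right h
      have h6 : x * y = y * x := by
        rw [← conj_eq_iff, ← hy', h5]
      have := hcyc2 y (hP₀P hy) (hcen y hyc h6) hy2
      exact (zpowers_le.mpr huU) this
    · -- y' = y * u
      have h5 : y' = y * u := by
        have : y' = y⁻¹ * u := eq_inv_mul_of_mul_eq h
        rw [this, hyinv]
      have hyw : w * y = y * w := hyc w (hUP₀ hwU)
      have hyu : u * y = y * u := hyc u (hUP₀ huU)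
      have hn_x : x * (y * w) = (y * w) * x := by
        rw [← conj_eq_iff]
        calc x * (y * w) * x⁻¹ = (x * y * x⁻¹) * (x * w * x⁻¹) := by group
          _ = (y * u) * (w * u) := by rw [← hy', h5, hxconj]
          _ = y * (u * w) * u := by group
          _ = y * w * (u * u) := by rw [huw]; group
          _ = y * w := by rw [hu2, mul_one]
      have hn_c : ∀ g ∈ P₀, g * (y * w) = (y * w) * g := by
        intro g hg
        rw [← mul_assoc, hyc g hg, mul_assoc, hP₀w g hg, mul_assoc]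
      have hn2 : (y * w) * (y * w) = 1 := by
        calc (y * w) * (y * w) = y * (w * y) * w := by group
          _ = (y * y) * (w * w) := by rw [hyw]; group
          _ = 1 := by rw [hy2, hw2, one_mul]
      have hn := hcyc2 _ (mul_mem (hP₀P hy) (hUP hwU)) (hcen _ hn_c hn_x) hn2
      have : y = (y * w) * w⁻¹ := by group
      rw [this]
      exact mul_mem ((zpowers_le.mpr huU) hn) (inv_mem hwU)
  -- the two cases
  have hP₀N : P₀ ≤ NN w := fun g hg => (mem_NN hw2).mpr (hP₀w g hg)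
  have hwR : w ∈ O2C w := by
    apply mem_O2C_of_centralizes h2 hw2 hw1 ((mem_NN hw2).mpr rfl)
    intro r hr
    exact ((mem_NN hw2).mp (O2C_le w hr)).symm
  by_cases hcase : O2C w ≤ P₀
  · have huR : u ∈ O2C w := by
      apply mem_O2C_of_centralizes h2 hw2 hw1 ((mem_NN hw2).mpr huw)
      intro r hr
      exact (huP r (hP₀P (hcase hr))).symm
    intro y hy
    rcases hUdec y hy with h | ⟨ζ, hζ, rfl⟩
    · exact (zpowers_le.mpr huR) h
    · exact mul_mem ((zpowers_le.mpr huR) hζ) hwR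
  · set Q : Subgroup G := O2C w ⊔ P₀ with hQ
    have hQp : IsPGroup 2 ↥Q :=
      (O2C_isPGroup w).to_sup_of_normal_left' (P.isPGroup'.to_le hP₀P)
        (le_normalizer_of_conj fun a ha r hr => conj_mem_O2C (hP₀N ha) hr)
    have hQN : Q ≤ NN w := sup_le (O2C_le w) hP₀N
    obtain ⟨T, hT⟩ := hQp.exists_le_sylow
    have hcardT : Nat.card ↥(T : Subgroup G) = Nat.card ↥(P : Subgroup G) := by
      rw [T.card_eq_multiplicity, P.card_eq_multiplicity]
    have hP₀Q : P₀ ≤ Q := le_sup_right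
    have hne : P₀ ≠ Q := by
      intro h
      apply hcase
      rw [h]; exact le_sup_left
    have hQcard : 2 * Nat.card ↥P₀ ≤ Nat.card ↥Q := by
      obtain ⟨k, hk⟩ := card_dvd_of_le hP₀Q
      have hpos : 0 < Nat.card ↥Q := Nat.card_pos
      have hk1 : k ≠ 1 := by
        rintro rfl
        exact hne (eq_of_le_of_card_ge hP₀Q (by omega))
      have hk0 : k ≠ 0 := by
        rintro rfl
        omega
      rw [hk]
      have : 2 ≤ k := by omega
      nlinarith
    have hQT : Q = (T : Subgroup G) := eq_of_le_of_card_ge hT (by omega)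
    have hTw : ∀ s ∈ (T : Subgroup G), s * w = w * s := by
      intro s hs
      exact (mem_NN hw2).mp (hQN (hQT ▸ hs))
    have hP₀T : P₀ ≤ (T : Subgroup G) := hQT ▸ hP₀Q
    have hidxT : (P₀.subgroupOf (T : Subgroup G)).index = 2 := by
      have := (P₀.subgroupOf (T : Subgroup G)).card_mul_index
      rw [Nat.card_congr (subgroupOfEquivOfLe hP₀T).toEquiv, hcardT, hcardP] at this
      have hpos : 0 < Nat.card ↥P₀ := Nat.card_pos
      nlinarith
    have hP₀nT : (P₀.subgroupOf (T : Subgroup G)).Normal := normal_of_index_eq_two hidxT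
    have hTn : ∀ s ∈ (T : Subgroup G), ∀ g ∈ P₀, s * g * s⁻¹ ∈ P₀ := by
      intro s hs g hg
      have := hP₀nT.conj_mem ⟨g, hP₀T hg⟩ (mem_subgroupOf.mpr hg) ⟨s, hs⟩
      exact mem_subgroupOf.mp this
    have hTU : (T : Subgroup G) ≤ normalizer (U : Set G) := by
      apply le_normalizer_of_conj
      intro s hs y hy
      apply lemY _ (hTn s hs y (hUP₀ hy))
      · apply hconjZ s _ y (fun g hg => hP₀U g hg y hy)
        intro g hg
        have := hTn s⁻¹ (inv_mem hs) g hg
        simpa using this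
      · calc s * y * s⁻¹ * (s * y * s⁻¹) = s * (y * y) * s⁻¹ := by group
          _ = 1 := by rw [sq_eq_one hy]; group
    exact claimA h2 T U hTU hwU hw1 hTw

end Cfsg.Agent.Lib.Helper27NGc
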