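import Cfsg.Agent.Lib.Helper66PLen

/-! `p`-length at most one passes to subgroups. -/

set_option autoImplicit false

namespace Cfsg.Agent.Lib.Helper27PLenA

open Cfsg.Agent.Lib.Helper66PLen

theorem relIndex_comap_dvd {G H : Type*} [Group G] [Group H] (f : H →* G)
    {A B : Subgroup G} (hA : A.Normal) :
    (A.comap f).relIndex (B.comap f) ∣ A.relIndex B := by
  rw [Subgroup.relIndex_comap, Subgroup.map_comap_eq]
  exact relIndex_dvd_of_le_right inf_le_right

theorem PP_comap {G H : Type*} [Group G] [Group H] (f : H →* G) {p : ℕ}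
    {A B : Subgroup G} (h : PP p A B) : PP p (A.comap f) (B.comap f) := by
  obtain ⟨hA, hB, hAB, hc⟩ := h
  exact ⟨hA.comap f, hB.comap f, Subgroup.comap_mono hAB,
    Nat.Coprime.coprime_dvd_left (relIndex_comap_dvd f hA) hc⟩

theorem PS_comap {G H : Type*} [Group G] [Group H] (f : H →* G) {p : ℕ} (hp : p.Prime)
    {A B : Subgroup G} (h : PS p A B) : PS p (A.comap f) (B.comap f) := by
  obtain ⟨hA, hB, hAB, m, hm⟩ := h
  refine ⟨hA.comap f, hB.comap f, Subgroup.comap_mono hAB, ?_⟩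
  have h2 := relIndex_comap_dvd f (B := B) hA
  rw [hm] at h2
  obtain ⟨j, -, hj⟩ := (Nat.dvd_prime_pow hp).mp h2
  exact ⟨j, hj⟩

theorem Len_comap {G H : Type*} [Group G] [Group H] (f : H →* G) {p : ℕ} (hp : p.Prime) :
    ∀ {k : ℕ} {A B : Subgroup G}, Len p k A B → Len p k (A.comap f) (B.comap f)
  | 0, _, _, h => PP_comap f h
  | _ + 1, _, _, ⟨C, D, h1, h2, h3⟩ =>
    ⟨C.comap f, D.comap f, Len_comap f hp h1, PS_comap f hp h2, PP_comap f h3⟩

theorem plen_of_injective {G H : Type*} [Group G] [Group H] [Finite G] [Finite H] (p : ℕ)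
    [Fact p.Prime] {k : ℕ} (f : H →* G) (hf : Function.Injective f)
    (h : Cfsg.PLengthLE p k G) : Cfsg.PLengthLE p k H := by
  have h1 := Len_comap f (Fact.out : p.Prime) (len_of_pLengthLE h)
  have h2 : (⊥ : Subgroup G).comap f = ⊥ := (MonoidHom.ker_eq_bot_iff f).mpr hf
  rw [Subgroup.comap_top, h2] at h1
  exact pLengthLE_of_len h1

theorem plen_subgroup {G : Type*} [Group G] [Finite G] (p : ℕ) [Fact p.Prime]
    (h : Cfsg.PLengthLE p 1 G) (H : Subgroup G) : Cfsg.PLengthLE p 1 H :=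
  plen_of_injective p H.subtype H.subtype_injective h

end Cfsg.Agent.Lib.Helper27PLenA
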