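import Cfsg.Agent.Lib.Helper66PLen
import Cfsg.Agent.Lib.Helper27PLenA

/-! `p`-length at most one passes up from a normal subgroup of index prime to `p`. -/

set_option autoImplicit false

namespace Cfsg.Agent.Lib.Helper27PLenB

open Cfsg.Agent.Lib.Helper66PLen Cfsg.Agent.Lib.Helper27PLenA

theorem comap_bot_equiv {N : Type*} [Group N] (β : N ≃* N) :
    (⊥ : Subgroup N).comap β.toMonoidHom = ⊥ :=
  (MonoidHom.ker_eq_bot_iff β.toMonoidHom).mpr β.injective

theorem ups_one_char {N : Type*} [Group N] [Finite N] (p : ℕ) :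
    (Cfsg.upperPSeries p N 1).1.Characteristic := by
  rw [Subgroup.characteristic_iff_comap_le]
  intro β
  have h1 := PP_comap β.toMonoidHom (ups_PP (G := N) p 0 (by simp))
  exact PP.le_ups h1 (n := 0) (by simp) (by
    have : (Cfsg.upperPSeries p N 0).1 = ⊥ := rfl
    rw [this, comap_bot_equiv])

theorem ups_two_char {N : Type*} [Group N] [Finite N] (p : ℕ) [Fact p.Prime] :
    (Cfsg.upperPSeries p N 2).1.Characteristic := by
  rw [Subgroup.characteristic_iff_comap_le]
  intro β
  have h1 := PS_comap β.toMonoidHom (Fact.out : p.Prime) (ups_PS (G := N) p 1 (by simp))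
  exact PS.le_ups h1 (n := 1) (by simp)
    (Subgroup.characteristic_iff_comap_le.mp (ups_one_char p) β)

theorem plen_of_normal {G : Type*} [Group G] [Finite G] (p : ℕ) [Fact p.Prime]
    (N : Subgroup G) [N.Normal] (hidx : N.index.Coprime p) (h : Cfsg.PLengthLE p 1 N) :
    Cfsg.PLengthLE p 1 G := by
  have a1 := ups_PP (G := N) p 0 (by simp)
  have a2 := ups_PS (G := N) p 1 (by simp)
  have a3 := ups_PP (G := N) p 2 (by simp)
  have h3 : (Cfsg.upperPSeries p N (2 + 1)).1 = ⊤ := h
  have h0 : (Cfsg.upperPSeries p N 0).1 = ⊥ := rfl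
  rw [h3] at a3
  rw [h0] at a1
  haveI c1 := ups_one_char (N := N) p
  haveI c2 := ups_two_char (N := N) p
  have n1 : ((Cfsg.upperPSeries p N 1).1.map N.subtype).Normal :=
    ConjAct.normal_of_characteristic_of_normal
  have n2 : ((Cfsg.upperPSeries p N 2).1.map N.subtype).Normal :=
    ConjAct.normal_of_characteristic_of_normal
  apply pLengthLE_of_len
  refine ⟨(Cfsg.upperPSeries p N 1).1.map N.subtype, (Cfsg.upperPSeries p N 2).1.map N.subtype,
    ⟨inferInstance, n1, bot_le, ?_⟩, ⟨n1, n2, Subgroup.map_mono a2.2.2.1, ?_⟩,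
    ⟨n2, inferInstance, le_top, ?_⟩⟩
  · have := a1.2.2.2
    rwa [← Subgroup.relIndex_map_map_of_injective (f := N.subtype) _ _ N.subtype_injective,
      Subgroup.map_bot] at this
  · obtain ⟨m, hm⟩ := a2.2.2.2
    exact ⟨m, by rw [Subgroup.relIndex_map_map_of_injective _ _ N.subtype_injective]; exact hm⟩
  · rw [Subgroup.relIndex_top_right, Subgroup.index_map_subtype]
    have := a3.2.2.2
    rw [Subgroup.relIndex_top_right] at this
    exact Nat.Coprime.mul_left this hidx

end Cfsg.Agent.Lib.Helper27PLenB
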