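import Cfsg.Agent.Lib.Helper66PLen
import Cfsg.Agent.Lib.Helper27PLenA

/-! `p`-length at most one is invariant under isomorphism. -/

set_option autoImplicit false

namespace Cfsg.Agent.Lib.Helper27PLenC

theorem plen_congr {G G' : Type*} [Group G] [Group G'] [Finite G] (e : G ≃* G') (p : ℕ)
    [Fact p.Prime] (h : Cfsg.PLengthLE p 1 G) : Cfsg.PLengthLE p 1 G' := by
  haveI : Finite G' := Finite.of_equiv G e.toEquiv
  exact Helper27PLenA.plen_of_injective p e.symm.toMonoidHom e.symm.injective h

end Cfsg.Agent.Lib.Helper27PLenC
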