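import Mathlib
import Cfsg.Agent.Lib.Helper65CSDefs
import Cfsg.Agent.Lib.Helper65CSBasic

set_option autoImplicit false

namespace Cfsg.Agent.Lib.Helper28CSXa

open Cfsg.Agent.Lib.Helper65CSDefs Cfsg.Agent.Lib.Helper65CSBasic

variable {G : Type*} [Group G] [Finite G] {m n p : ℕ}

theorem pow_relIndex_mem (y w : G) (hw : w ∈ Cen y) :
    w ^ (Subgroup.center G).relIndex (Cen y) ∈ Subgroup.center G := by
  have h1 := Subgroup.pow_index_mem ((Subgroup.center G).subgroupOf (Cen y)) (⟨w, hw⟩ : Cen y)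
  rw [Subgroup.mem_subgroupOf] at h1
  exact h1

theorem xa (h : Hyp G m n) [Fact p.Prime] (hpm : p ∣ m) (u : G) (hu : NP p u)
    (hX : ∀ w : G, Commute u w → IsReg p w → w ∈ Subgroup.center G) : XA G p m := by
  have hp : p.Prime := Fact.out
  have hm0 : 0 < m := by have := h.hm; omega
  have hn0 : 0 < n := by have := h.hn; omega
  -- `|C(u) : Z|` is a power of `p`
  have hpg : IsPGroup p (Cen u ⧸ (Subgroup.center G).subgroupOf (Cen u)) := by
    intro x
    obtain ⟨g, rfl⟩ := QuotientGroup.mk_surjective x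
    obtain ⟨a, b, ha, hb, hab, hc, ⟨j, hj⟩, hbr⟩ := exists_split p (g : G)
    refine ⟨j, ?_⟩
    rw [← QuotientGroup.mk_pow, QuotientGroup.eq_one_iff, Subgroup.mem_subgroupOf]
    have hbu : Commute u b := by
      have h1 : b ∈ Cen u := (Subgroup.zpowers_le.mpr g.2) hb
      exact (mem_Cen'.mp h1)
    have hbz := hX b hbu hbr
    show (g : G) ^ p ^ j ∈ Subgroup.center G
    rw [hab, hc.mul_pow, ← hj, pow_orderOf_eq_one, one_mul]
    exact Subgroup.pow_mem _ hbz _
  obtain ⟨j, hj⟩ := IsPGroup.iff_card.mp hpg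
  have hk : (Subgroup.center G).relIndex (Cen u) = p ^ j := hj
  have hZu : (Subgroup.center G).relIndex (Cen u) * (Cen u).index = (Subgroup.center G).index :=
    Subgroup.relIndex_mul_index (center_le_Cen u)
  have hpn : ¬ p ∣ n := not_dvd_n h hp hpm
  have hcopn : n.Coprime (p ^ j) :=
    Nat.Coprime.pow_right j ((Nat.Prime.coprime_iff_not_dvd hp).mpr hpn).symm
  obtain ⟨y₀, hy₀⟩ := h.exII
  have huII : (Cen u).index = m * n := by
    rcases index_of_not_mem h hu.2 with h1 | h1
    · exfalso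
      have h2 : (Cen y₀).index ∣ (Subgroup.center G).index :=
        Subgroup.index_dvd_of_le (center_le_Cen y₀)
      rw [hy₀, ← hZu, hk, h1, mul_comm (p ^ j) m] at h2
      have h3 : n ∣ p ^ j := Nat.dvd_of_mul_dvd_mul_left hm0 h2
      have h4 := Nat.Coprime.eq_one_of_dvd hcopn h3
      have := h.hn
      omega
    · exact h1
  have hII : ∀ y : G, (Cen y).index = m * n → ∀ w : G, Commute y w → IsReg p w →
      w ∈ Subgroup.center G := by
    intro y hy w hyw hw
    have h1 : (Subgroup.center G).relIndex (Cen y) * (Cen y).index = (Subgroup.center G).index :=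
      Subgroup.relIndex_mul_index (center_le_Cen y)
    rw [← hZu, hy, huII, hk] at h1
    have h2 : (Subgroup.center G).relIndex (Cen y) = p ^ j :=
      Nat.eq_of_mul_eq_mul_right (Nat.mul_pos hm0 hn0) h1
    have h3 := pow_relIndex_mem y w (mem_Cen'.mpr hyw)
    rw [h2] at h3
    exact mem_of_pow_mem _ (Nat.Coprime.pow_right j hw) h3
  refine ⟨?_, ?_, ?_⟩
  · refine ⟨_, Nat.eq_prime_pow_of_unique_prime_dvd hm0.ne' ?_⟩
    intro r hr hrm
    by_contra hne
    have : Fact r.Prime := ⟨hr⟩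
    obtain ⟨v, hv, hvu⟩ := exists_NP_commute h hrm hu.2
    exact hv.2 (hX v hvu.symm (IsP.isReg hr hp hne hv.1))
  · intro e w he hw hew
    rcases index_of_not_mem h he with h1 | h1
    · exact h1
    · exact absurd (hII e h1 w hew hw.1) hw.2
  · by_contra hcon
    have hall : ∀ w : G, IsReg p w → w ∈ Subgroup.center G := by
      intro w hw
      by_contra hwz
      exact hcon ⟨w, hw, hwz⟩
    obtain ⟨q, hq, hqn⟩ := Nat.exists_prime_and_dvd (by have := h.hn; omega : n ≠ 1)
    have : Fact q.Prime := ⟨hq⟩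
    have hqp : q ≠ p := fun e => hpn (e ▸ hqn)
    obtain ⟨Q⟩ : Nonempty (Sylow q G) := inferInstance
    have hQZ : (Q : Subgroup G) ≤ Cen y₀ := by
      intro x hx
      exact center_le_Cen y₀ (hall x (IsP.isReg hq hp hqp (isP_of_mem Q.isPGroup' hx)))
    have h1 : (Cen y₀).index ∣ (Q : Subgroup G).index := Subgroup.index_dvd_of_le hQZ
    rw [hy₀] at h1
    exact Q.not_dvd_index ((hqn.mul_left m).trans h1)

end Cfsg.Agent.Lib.Helper28CSXa
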