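import Mathlib
import Cfsg.Agent.Lib.Helper65CSDefs
import Cfsg.Agent.Lib.Helper65CSBasic

set_option autoImplicit false

namespace Cfsg.Agent.Lib.Helper28CSXd

open Cfsg.Agent.Lib.Helper65CSDefs Cfsg.Agent.Lib.Helper65CSBasic

variable {G : Type*} [Group G] [Finite G] {n p : ℕ}

theorem center_le_M (K M : Subgroup G) (hS : XStr G p p K M) : Subgroup.center G ≤ M := by
  intro z hz
  exact (hS.Mset z).mpr (Or.inl (index_eq_one_iff.mpr hz))

/-- an element of `M` commuting with an element outside `M` is central -/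
theorem key1 (K M : Subgroup G) (hS : XStr G p p K M) {y g : G} (hy : y ∉ M) (hg : g ∈ M)
    (hc : Commute y g) : g ∈ Subgroup.center G := by
  by_contra hgZ
  have h1 : (Cen g).index = p := by
    rcases (hS.Mset g).mp hg with h1 | h1
    · exact absurd (index_eq_one_iff.mp h1) hgZ
    · exact h1
  have h2 : M ≤ Cen g := fun a ha => mem_Cen.mpr (hS.Mcomm a ha g hg)
  have h3 : M = Cen g := eq_of_le_of_index_eq h2 (by rw [hS.Midx, h1])
  apply hy
  rw [h3]
  exact mem_Cen.mpr hc

theorem relIndex_M_eq [Fact p.Prime] (K M : Subgroup G) (hS : XStr G p p K M) (H : Subgroup G)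
    {t : G} (ht : t ∈ H) (htM : t ∉ M) : M.relIndex H = p := by
  have hp : p.Prime := Fact.out
  haveI := hS.Mn
  have h1 : M.relIndex H ∣ p := by
    have := Subgroup.relIndex_dvd_index_of_normal M H
    rwa [hS.Midx] at this
  rcases (Nat.dvd_prime hp).mp h1 with h2 | h2
  · exact absurd (Subgroup.relIndex_eq_one.mp h2 ht) htM
  · exact h2

theorem index_center (h : Hyp G p n) [Fact p.Prime] (K M : Subgroup G) (hS : XStr G p p K M)
    {t : G} (htM : t ∉ M) : (Subgroup.center G).index = p * (p * n) := by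
  have h1 : (Cen t).index = p * n := by
    rcases h.all t with h1 | h1 | h1
    · exact absurd ((hS.Mset t).mpr (Or.inl h1)) htM
    · exact absurd ((hS.Mset t).mpr (Or.inr h1)) htM
    · exact h1
  have h2 : M.relIndex (Cen t) = p :=
    relIndex_M_eq K M hS (Cen t) (mem_Cen.mpr (Commute.refl t)) htM
  have h3 : M ⊓ Cen t = Subgroup.center G ⊓ Cen t := by
    ext g
    simp only [Subgroup.mem_inf]
    constructor
    · rintro ⟨hg, hgt⟩
      exact ⟨key1 K M hS htM hg (mem_Cen'.mp hgt), hgt⟩
    · rintro ⟨hg, hgt⟩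
      exact ⟨center_le_M K M hS hg, hgt⟩
  have h4 : (Subgroup.center G).relIndex (Cen t) = p := by
    rw [← Subgroup.inf_relIndex_right, ← h3, Subgroup.inf_relIndex_right, h2]
  have h5 := Subgroup.relIndex_mul_index (center_le_Cen t)
  rw [h4, h1] at h5
  exact h5.symm

theorem exists_not_mem [Fact p.Prime] (K M : Subgroup G) (hS : XStr G p p K M) (P : Sylow p G) :
    ∃ t ∈ P, t ∉ M := by
  by_contra hcon
  push Not at hcon
  have h1 : (P : Subgroup G) ≤ M := fun t ht => hcon t ht
  have h2 := Subgroup.index_dvd_of_le h1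
  rw [hS.Midx] at h2
  exact P.not_dvd_index h2

theorem relIndex_center_K (h : Hyp G p n) [Fact p.Prime] (K M : Subgroup G)
    (hS : XStr G p p K M) {t : G} (htM : t ∉ M) : (Subgroup.center G).relIndex K = n := by
  have hp : p.Prime := Fact.out
  have hZ := index_center h K M hS htM
  have hZM := center_le_M K M hS
  have h1 : (Subgroup.center G).relIndex M = p * n := by
    have h1 := Subgroup.relIndex_mul_index hZM
    rw [hS.Midx, hZ] at h1
    have : (Subgroup.center G).relIndex M * p = (p * n) * p := by rw [h1]; ring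
    exact Nat.eq_of_mul_eq_mul_right hp.pos this
  have h2 := Subgroup.relIndex_mul_relIndex (Subgroup.center G) (K ⊔ Subgroup.center G) M
    le_sup_right (sup_le hS.KM hZM)
  rw [Subgroup.relIndex_sup_right, h1] at h2
  have h3 : (K ⊔ Subgroup.center G).relIndex M ∣ K.index := by
    haveI := hS.Kn
    exact (Subgroup.relIndex_dvd_of_le_left M le_sup_left).trans
      (Subgroup.relIndex_dvd_index_of_normal K M)
  obtain ⟨a, ha⟩ := hS.Kidx
  rw [ha] at h3
  obtain ⟨b, -, hb⟩ := (Nat.dvd_prime_pow hp).mp h3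
  rw [hb] at h2
  have h4 : ((Subgroup.center G).relIndex K).Coprime p :=
    Nat.Coprime.coprime_dvd_left (Subgroup.relIndex_dvd_card _ _) hS.Kcop
  have h5 : n.Coprime p := h.cop.symm
  apply Nat.dvd_antisymm
  · exact h4.dvd_of_dvd_mul_left (Dvd.intro _ h2)
  · exact (Nat.Coprime.pow_right b h5).dvd_of_dvd_mul_right (Dvd.intro_left _ h2.symm)

theorem dvd_pred (h : Hyp G p n) [Fact p.Prime] (K M : Subgroup G) (hS : XStr G p p K M)
    (hB5 : B5Stmt G p) {t : G} (htp : IsP p t) (htM : t ∉ M) : p ∣ n - 1 := by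
  have hc := relIndex_center_K h K M hS htM
  haveI := hS.Kn
  have h1 := hB5 K t htp (fun a ha => hS.Kn.conj_mem a ha t)
  have h2 : K ⊓ Cen t = Subgroup.center G ⊓ K := by
    ext k
    simp only [Subgroup.mem_inf]
    constructor
    · rintro ⟨hk, hkt⟩
      exact ⟨hS.semi t htM k hk (mem_Cen'.mp hkt), hk⟩
    · rintro ⟨hk, hkK⟩
      exact ⟨hkK, center_le_Cen t hk⟩
  have h3 := card_inf_mul_relIndex (Subgroup.center G) K
  rw [hc] at h3
  rw [h2, ← h3] at h1
  have h4 : (Nat.card (Subgroup.center G ⊓ K : Subgroup G)).Coprime p :=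
    Nat.Coprime.coprime_dvd_left (Dvd.intro _ h3) hS.Kcop
  have h5 : n ≡ 1 [MOD p] := by
    apply Nat.ModEq.cancel_left_of_coprime (c := Nat.card (Subgroup.center G ⊓ K : Subgroup G))
    · exact h4.symm
    · rwa [mul_one]
  exact (Nat.modEq_iff_dvd' h.hn.le).mp h5.symm

theorem relIndex_center_sylow (h : Hyp G p n) [Fact p.Prime] (K M : Subgroup G)
    (hS : XStr G p p K M) (P : Sylow p G) {t : G} (htM : t ∉ M) :
    (Subgroup.center G).relIndex (P : Subgroup G) = p * p := by
  have hp : p.Prime := Fact.out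
  have hZ := index_center h K M hS htM
  have h1 := Subgroup.relIndex_mul_index
    (le_sup_right : Subgroup.center G ≤ (P : Subgroup G) ⊔ Subgroup.center G)
  rw [Subgroup.relIndex_sup_right, hZ] at h1
  have h2 : ¬ p ∣ ((P : Subgroup G) ⊔ Subgroup.center G).index := fun hd =>
    P.not_dvd_index (hd.trans (Subgroup.index_dvd_of_le le_sup_left))
  have h2' : p.Coprime ((P : Subgroup G) ⊔ Subgroup.center G).index :=
    (Nat.Prime.coprime_iff_not_dvd hp).mpr h2
  obtain ⟨k, hk⟩ := IsPGroup.iff_card.mp P.2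
  have h3 : (Subgroup.center G).relIndex (P : Subgroup G) ∣ p ^ k := by
    rw [← hk]; exact Subgroup.relIndex_dvd_card _ _
  obtain ⟨j, -, hj⟩ := (Nat.dvd_prime_pow hp).mp h3
  rw [hj] at h1 ⊢
  have h5 : p.Coprime n := h.cop
  apply Nat.dvd_antisymm
  · have : p ^ j ∣ (p * p) * n := ⟨_, by rw [← mul_assoc] at h1; exact h1.symm⟩
    exact (Nat.Coprime.pow_left j h5).dvd_of_dvd_mul_right this
  · have : p * p ∣ p ^ j * ((P : Subgroup G) ⊔ Subgroup.center G).index :=
      ⟨n, by rw [h1]; ring⟩
    exact (Nat.Coprime.mul_left h2' h2').dvd_of_dvd_mul_right this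

theorem xd (h : Hyp G p n) [Fact p.Prime] (K M : Subgroup G) (hS : XStr G p p K M)
    (hB4 : B4Stmt G p) (hB5 : B5Stmt G p) :
    p ∣ n - 1 ∧ ∀ P : Sylow p G, Nat.card (commutator (P : Subgroup G)) = p := by
  have hp : p.Prime := Fact.out
  constructor
  · obtain ⟨P⟩ : Nonempty (Sylow p G) := inferInstance
    obtain ⟨t, ht, htM⟩ := exists_not_mem K M hS P
    exact dvd_pred h K M hS hB5 (isP_of_mem P.2 ht) htM
  · intro P
    obtain ⟨t, ht, htM⟩ := exists_not_mem K M hS P
    have hZM := center_le_M K M hS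
    have hM : M.relIndex (P : Subgroup G) = p := relIndex_M_eq K M hS P ht htM
    have hZ := relIndex_center_sylow h K M hS P htM
    refine hB4 P ((P : Subgroup G) ⊓ M) P.2 inf_le_left
      (fun a ha b hb => hS.Mcomm a ha.2 b hb.2) ?_ ?_
    · rw [Subgroup.inf_relIndex_left, hM]
    · have h1 : ((P : Subgroup G) ⊓ M) ⊓ Subgroup.centralizer ((P : Subgroup G) : Set G)
          = Subgroup.center G ⊓ (P : Subgroup G) := by
        ext g
        simp only [Subgroup.mem_inf]
        constructor
        · rintro ⟨⟨hgP, hgM⟩, hgc⟩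
          refine ⟨key1 K M hS htM hgM ?_, hgP⟩
          exact Subgroup.mem_centralizer_iff.mp hgc t ht
        · rintro ⟨hgZ, hgP⟩
          exact ⟨⟨hgP, hZM hgZ⟩, Subgroup.center_le_centralizer _ hgZ⟩
      rw [h1]
      have h2 := card_inf_mul_relIndex (Subgroup.center G) (P : Subgroup G)
      have h3 := card_inf_mul_relIndex M (P : Subgroup G)
      rw [hZ] at h2
      rw [hM, ← h2, inf_comm] at h3
      have : Nat.card ((P : Subgroup G) ⊓ M : Subgroup G) * p
          = (p * Nat.card (Subgroup.center G ⊓ (P : Subgroup G) : Subgroup G)) * p := by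
        rw [h3]; ring
      exact Nat.eq_of_mul_eq_mul_right hp.pos this

end Cfsg.Agent.Lib.Helper28CSXd
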