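import Mathlib
import Cfsg.Agent.Lib.Helper71ZaDefs
import Cfsg.Agent.Lib.Helper36ZaLIN1

set_option autoImplicit false
set_option linter.unusedSectionVars false

namespace Cfsg.Agent.Lib.Helper28RgR0

open Cfsg.Agent.Lib.Helper71ZaDefs Subgroup

variable {p : ℕ} [Fact p.Prime] {V : Type*} [AddCommGroup V] [Module (ZMod p) V] [Finite V]
  (H : Subgroup (V ≃ₗ[ZMod p] V))

theorem finite_H : Finite H := by
  have hfin : Finite (V ≃ₗ[ZMod p] V) :=
    Finite.of_injective (fun e => (e : V → V)) DFunLike.coe_injective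
  infer_instance

theorem fpf_of_reg (hreg : ∀ v w : V, v ≠ 0 → w ≠ 0 → ∃! h : H, (h : V ≃ₗ[ZMod p] V) v = w)
    (h : H) (hh : h ≠ 1) (v : V) (hv : (h : V ≃ₗ[ZMod p] V) v = v) : v = 0 := by
  by_contra hv0
  obtain ⟨g, -, hu⟩ := hreg v v hv0 hv0
  exact hh ((hu h hv).trans (hu 1 rfl).symm)

theorem card_ne'' {α : Type*} [Finite α] (a : α) :
    Nat.card {x : α // x ≠ a} + 1 = Nat.card α := by
  have := Fintype.ofFinite α
  classical
  rw [Nat.card_eq_fintype_card, Nat.card_eq_fintype_card, Fintype.card_subtype_compl]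
  simp only [Fintype.card_unique]
  have : 0 < Fintype.card α := Fintype.card_pos_iff.mpr ⟨a⟩
  omega

theorem card_of_reg [Nontrivial V]
    (hreg : ∀ v w : V, v ≠ 0 → w ≠ 0 → ∃! h : H, (h : V ≃ₗ[ZMod p] V) v = w) :
    Nat.card V = Nat.card H + 1 := by
  obtain ⟨v₀, hv₀⟩ := exists_ne (0 : V)
  rw [← card_ne'' (0 : V)]
  congr 1
  symm
  apply Nat.card_congr
  refine Equiv.ofBijective (fun h : H => (⟨(h : V ≃ₗ[ZMod p] V) v₀, fun h0 => hv₀ (by
    simpa using h0)⟩ : {x : V // x ≠ 0})) ⟨?_, ?_⟩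
  · intro a b hab
    have h1 : (a : V ≃ₗ[ZMod p] V) v₀ = (b : V ≃ₗ[ZMod p] V) v₀ := congrArg Subtype.val hab
    obtain ⟨g, -, hu⟩ := hreg v₀ ((b : V ≃ₗ[ZMod p] V) v₀) hv₀ (fun h0 => hv₀ (by simpa using h0))
    exact (hu a h1).trans (hu b rfl).symm
  · rintro ⟨w, hw⟩
    obtain ⟨g, hg, -⟩ := hreg v₀ w hv₀ hw
    exact ⟨g, Subtype.ext hg⟩

theorem fc_of_reg [Nontrivial V]
    (hreg : ∀ v w : V, v ≠ 0 → w ≠ 0 → ∃! h : H, (h : V ≃ₗ[ZMod p] V) v = w) : FC H := by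
  let ρ₀ : Representation (ZMod p) H V :=
    { toFun := fun h => ((h : V ≃ₗ[ZMod p] V) : V →ₗ[ZMod p] V)
      map_one' := rfl
      map_mul' := fun a b => rfl }
  have h₀ : Fpf ρ₀ := fun h hh v hv => fpf_of_reg H hreg h hh v hv
  have : Module.Finite (ZMod p) V := Module.Finite.of_finite
  obtain ⟨d, ρ, hd, hρ⟩ := Helper36ZaLIN1.exists_rep_fpf (algebraMap (ZMod p) (KK p)) V H ρ₀ h₀
  exact ⟨p, inferInstance, d, ρ, hd, hρ⟩

end Cfsg.Agent.Lib.Helper28RgR0
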