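import Mathlib

set_option autoImplicit false

namespace Cfsg.Agent.Lib.Helper28RgR4

def chk (d k a t : ℕ) : Bool :=
  !(decide (2 ≤ d) && decide (2 ≤ k) && decide ((d - 1) % a = 0) && decide (24 % t = 0) &&
    decide (d ^ k = a * t + 1) && decide ((a * t) % 8 = 0)) ||
  (decide (d ^ k = 9) || decide (d ^ k = 25) || decide (d ^ k = 49) || decide (d ^ k = 121) ||
    decide (d ^ k = 529))

theorem all_chk : ((List.range 24).all fun d => (List.range 6).all fun k =>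
    (List.range 23).all fun a => (List.range 25).all fun t => chk d k a t) = true := by
  decide +kernel

theorem aux (d : ℕ) (hd : d < 24) (k : ℕ) (hk : k < 6) (a : ℕ) (ha : a < 23) (t : ℕ) (ht : t < 25)
    (h : 2 ≤ d ∧ 2 ≤ k ∧ a ∣ d - 1 ∧ t ∣ 24 ∧ d ^ k = a * t + 1 ∧ 8 ∣ a * t) :
    (d ^ k = 9 ∨ d ^ k = 25 ∨ d ^ k = 49 ∨ d ^ k = 121 ∨ d ^ k = 529) := by
  have h1 := all_chk
  rw [List.all_eq_true] at h1
  have h2 := h1 d (List.mem_range.mpr hd)
  rw [List.all_eq_true] at h2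
  have h3 := h2 k (List.mem_range.mpr hk)
  rw [List.all_eq_true] at h3
  have h4 := h3 a (List.mem_range.mpr ha)
  rw [List.all_eq_true] at h4
  have h5 := h4 t (List.mem_range.mpr ht)
  obtain ⟨e1, e2, e3, e4, e5, e6⟩ := h
  have e3' := Nat.mod_eq_zero_of_dvd e3
  have e4' := Nat.mod_eq_zero_of_dvd e4
  have e6' := Nat.mod_eq_zero_of_dvd e6
  simp only [chk, e1, e2, e3', e4', e5, e6', decide_true, Bool.and_self, Bool.not_true,
    Bool.false_or, Bool.or_eq_true, decide_eq_true_eq] at h5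
  rw [e5]
  tauto

theorem num_solv {p e k a t : ℕ} (hp : p.Prime) (he : 0 < e) (hk : 2 ≤ k) (ha : a ∣ p ^ e - 1)
    (ht : t ∣ 24) (h : (p ^ e) ^ k = a * t + 1) (h8 : 8 ∣ a * t) :
    (p ^ e) ^ k = 9 ∨ (p ^ e) ^ k = 25 ∨ (p ^ e) ^ k = 49 ∨ (p ^ e) ^ k = 121 ∨
      (p ^ e) ^ k = 529 := by
  have hd : 2 ≤ p ^ e := by
    calc 2 ≤ p := hp.two_le
      _ = p ^ 1 := (pow_one p).symm
      _ ≤ p ^ e := Nat.pow_le_pow_right hp.pos he
  generalize p ^ e = d at *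
  have ha' : a ≤ d - 1 := Nat.le_of_dvd (by omega) ha
  have ht' : t ≤ 24 := Nat.le_of_dvd (by norm_num) ht
  have hub : d ^ k ≤ (d - 1) * 24 + 1 := by
    rw [h]
    exact Nat.succ_le_succ (Nat.mul_le_mul ha' ht')
  have hd23 : d < 24 := by
    by_contra hcon
    have h1 : d ^ 2 ≤ d ^ k := Nat.pow_le_pow_right (by omega) hk
    have h2 : 24 * d ≤ d ^ 2 := by rw [pow_two]; exact Nat.mul_le_mul_right d (by omega)
    omega
  have hk6 : k < 6 := by
    by_contra hcon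
    have h1 : d ^ 6 ≤ d ^ k := Nat.pow_le_pow_right (by omega) (by omega)
    have h2 : 2 ^ 5 ≤ d ^ 5 := Nat.pow_le_pow_left hd 5
    have h3 : d ^ 6 = d ^ 5 * d := pow_succ d 5
    have h4 : 2 ^ 5 * d ≤ d ^ 5 * d := Nat.mul_le_mul_right d h2
    omega
  exact aux d hd23 k hk6 a (by omega) t (by omega) ⟨hd, hk, ha, ht, h, h8⟩

end Cfsg.Agent.Lib.Helper28RgR4
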