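import Mathlib
import Cfsg.Prelude.Def_LieRecognition

set_option autoImplicit false

/-! Vocabulary for Higman's theory of Suzuki 2-groups (S1137, S1138, S1139). -/

namespace Cfsg.Agent.Lib.Helper28SzDefs

/-- `ξ` is an automorphism of the finite `2`-group `P` (abelian allowed) with more than one
involution, and the powers of `ξ` permute the involutions of `P` regularly. -/
structure SzAct (P : Type*) [Group P] (ξ : MulAut P) : Prop where
  fin : Finite P
  pgrp : IsPGroup 2 P
  two : ∃ x y : P, x ≠ y ∧ x ≠ 1 ∧ x * x = 1 ∧ y ≠ 1 ∧ y * y = 1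
  trans : ∀ x y : P, x ≠ 1 → x * x = 1 → y ≠ 1 → y * y = 1 → ∃ k : ℕ, (ξ ^ k) x = y
  free : ∀ (k : ℕ) (x : P), x ≠ 1 → x * x = 1 → (ξ ^ k) x = x → ξ ^ k = 1

/-- the central elements of order at most two -/
def Z0 (P : Type*) [Group P] : Subgroup P where
  carrier := {x | x ∈ Subgroup.center P ∧ x * x = 1}
  one_mem' := ⟨Subgroup.one_mem _, by simp⟩
  mul_mem' := by
    rintro a b ⟨ha, ha2⟩ ⟨hb, hb2⟩
    refine ⟨Subgroup.mul_mem _ ha hb, ?_⟩
    have hc : b * a = a * b := Subgroup.mem_center_iff.mp ha b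
    calc a * b * (a * b) = a * (b * a) * b := by group
      _ = a * (a * b) * b := by rw [hc]
      _ = (a * a) * (b * b) := by group
      _ = 1 := by rw [ha2, hb2, one_mul]
  inv_mem' := by
    rintro a ⟨ha, ha2⟩
    refine ⟨Subgroup.inv_mem _ ha, ?_⟩
    calc a⁻¹ * a⁻¹ = (a * a)⁻¹ := by group
      _ = 1 := by rw [ha2, inv_one]

variable {P : Type*} [Group P]

theorem mem_Z0_iff {x : P} : x ∈ Z0 P ↔ x ∈ Subgroup.center P ∧ x * x = 1 := Iff.rfl

theorem Z0_le_center : Z0 P ≤ Subgroup.center P := fun _ h => h.1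

instance Z0_normal : (Z0 P).Normal :=
  ⟨fun n hn g => by
    have h : g * n = n * g := Subgroup.mem_center_iff.mp hn.1 g
    have : g * n * g⁻¹ = n := by rw [h]; group
    rw [this]; exact hn⟩

theorem aut_mem_center (α : MulAut P) {x : P} (hx : x ∈ Subgroup.center P) :
    α x ∈ Subgroup.center P := by
  rw [Subgroup.mem_center_iff] at hx ⊢
  intro g
  have h := congrArg α (hx (α⁻¹ g))
  simpa using h

theorem aut_mem_Z0 (α : MulAut P) {x : P} (hx : x ∈ Z0 P) : α x ∈ Z0 P :=
  ⟨aut_mem_center α hx.1, by rw [← map_mul, hx.2, map_one]⟩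

theorem map_Z0 (α : MulAut P) : (Z0 P).map (α : P ≃* P).toMonoidHom = Z0 P := by
  ext y
  constructor
  · rintro ⟨x, hx, rfl⟩
    exact aut_mem_Z0 α hx
  · intro hy
    exact ⟨α⁻¹ y, aut_mem_Z0 α⁻¹ hy, by simp⟩

/-- the automorphism induced on `P / Z0` -/
noncomputable def quotAut (α : MulAut P) : MulAut (P ⧸ Z0 P) :=
  QuotientGroup.congr (Z0 P) (Z0 P) α (map_Z0 α)

@[simp] theorem quotAut_mk (α : MulAut P) (x : P) :
    quotAut α (QuotientGroup.mk x : P ⧸ Z0 P) = QuotientGroup.mk (α x) := rfl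

theorem quotAut_pow_mk (α : MulAut P) (k : ℕ) (x : P) :
    (quotAut α ^ k) (QuotientGroup.mk x : P ⧸ Z0 P) = QuotientGroup.mk ((α ^ k) x) := by
  induction k generalizing x with
  | zero => simp
  | succ n ih =>
    rw [pow_succ, pow_succ, MulAut.mul_apply, MulAut.mul_apply, quotAut_mk, ih]

/-- the automorphism induced on `Z0` -/
def resAut (α : MulAut P) : MulAut (Z0 P) where
  toFun x := ⟨α x, aut_mem_Z0 α x.2⟩
  invFun x := ⟨α⁻¹ x, aut_mem_Z0 α⁻¹ x.2⟩
  left_inv x := by ext; simp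
  right_inv x := by ext; simp
  map_mul' x y := by ext; simp

@[simp] theorem resAut_coe (α : MulAut P) (x : Z0 P) : ((resAut α x : Z0 P) : P) = α x := rfl

theorem resAut_pow_coe (α : MulAut P) (k : ℕ) (x : Z0 P) :
    (((resAut α ^ k) x : Z0 P) : P) = (α ^ k) x := by
  induction k generalizing x with
  | zero => simp
  | succ n ih =>
    rw [pow_succ, pow_succ, MulAut.mul_apply, MulAut.mul_apply, ih, resAut_coe]

/-- every nonzero element is a power of `l` -/
def Gen {F : Type*} [Field F] (l : F) : Prop := ∀ x : F, x ≠ 0 → ∃ k : ℕ, x = l ^ k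

end Cfsg.Agent.Lib.Helper28SzDefs
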