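import Mathlib
import Cfsg.Agent.Lib.Helper28SzDefs

set_option autoImplicit false

namespace Cfsg.Agent.Lib.Helper28SzBasic

open Cfsg.Agent.Lib.Helper28SzDefs

variable {P : Type*} [Group P] {ξ : MulAut P}

theorem finite_mulAut [Finite P] : Finite (MulAut P) :=
  Finite.of_injective (fun e : MulAut P => (e : P → P)) DFunLike.coe_injective

theorem of_suzuki (hP : Cfsg.IsSuzukiTwoGroup P) : ∃ ξ : MulAut P, SzAct P ξ := by
  obtain ⟨hfin, hp, -, htwo, K, hK, hreg⟩ := hP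
  have := finite_mulAut (P := P)
  obtain ⟨ξ0, hgen⟩ := hK.exists_generator
  refine ⟨(ξ0 : MulAut P), hfin, hp, htwo, ?_, ?_⟩
  · intro x y hx1 hx2 hy1 hy2
    obtain ⟨k, hk, -⟩ := hreg x y hx1 hx2 hy1 hy2
    obtain ⟨n, hn⟩ := (mem_powers_iff_mem_zpowers).mpr (hgen k)
    refine ⟨n, ?_⟩
    have hn' : ξ0 ^ n = k := hn
    rw [← hk, ← hn']
    rfl
  · intro k x hx1 hx2 hk
    have h1 : ((ξ0 ^ k : K) : MulAut P) x = x := hk
    have h2 : ((1 : K) : MulAut P) x = x := rfl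
    have h3 := (hreg x x hx1 hx2 hx1 hx2).unique h1 h2
    have h4 := congrArg (fun k : K => (k : MulAut P)) h3
    exact h4

/-- a nontrivial element of a 2-group has a power which is an involution -/
theorem exists_pow_invol (h : SzAct P ξ) {x : P} (hx : x ≠ 1) :
    ∃ k : ℕ, x ^ k ≠ 1 ∧ x ^ k * x ^ k = 1 := by
  have : Fact (Nat.Prime 2) := ⟨Nat.prime_two⟩
  obtain ⟨m, hm⟩ := IsPGroup.iff_orderOf.mp h.pgrp x
  cases m with
  | zero =>
    rw [pow_zero, orderOf_eq_one_iff] at hm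
    exact absurd hm hx
  | succ m =>
    refine ⟨2 ^ m, ?_, ?_⟩
    · intro h1
      have h2 := orderOf_dvd_of_pow_eq_one h1
      rw [hm] at h2
      have h3 := Nat.le_of_dvd (by positivity) h2
      rw [pow_succ] at h3
      have : 0 < 2 ^ m := by positivity
      omega
    · rw [← pow_add, ← two_mul, mul_comm, ← pow_succ, ← hm, pow_orderOf_eq_one]

theorem invol_central (h : SzAct P ξ) {x : P} (hx : x * x = 1) : x ∈ Subgroup.center P := by
  by_cases hx1 : x = 1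
  · rw [hx1]; exact Subgroup.one_mem _
  have := h.fin
  have : Nontrivial P := ⟨⟨x, 1, hx1⟩⟩
  have : Fact (Nat.Prime 2) := ⟨Nat.prime_two⟩
  have hc := h.pgrp.center_nontrivial
  obtain ⟨⟨c, hc⟩, hc1⟩ := exists_ne (1 : Subgroup.center P)
  have hc1' : c ≠ 1 := fun h0 => hc1 (Subtype.ext h0)
  obtain ⟨k, hk1, hk2⟩ := exists_pow_invol h hc1'
  have hkc : c ^ k ∈ Subgroup.center P := (Subgroup.center P).pow_mem hc k
  obtain ⟨n, hn⟩ := h.trans (c ^ k) x hk1 hk2 hx1 hx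
  rw [← hn]
  exact aut_mem_center _ hkc

theorem mem_Z0 (h : SzAct P ξ) {x : P} : x ∈ Z0 P ↔ x * x = 1 :=
  ⟨fun hx => hx.2, fun hx => ⟨invol_central h hx, hx⟩⟩

theorem fpf (h : SzAct P ξ) (k : ℕ) {x : P} (hx : x ≠ 1) (hk : (ξ ^ k) x = x) : ξ ^ k = 1 := by
  obtain ⟨m, hm1, hm2⟩ := exists_pow_invol h hx
  exact h.free k (x ^ m) hm1 hm2 (by rw [map_pow, hk])

theorem fpf_quot (h : SzAct P ξ) (k : ℕ) {x : P} (hx : x ∉ Z0 P) (hk : x⁻¹ * (ξ ^ k) x ∈ Z0 P) :
    ξ ^ k = 1 := by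
  by_contra hne
  have := h.fin
  let φ : Z0 P → Z0 P := fun c =>
    ⟨(c : P) * ((ξ ^ k) (c : P))⁻¹, (Z0 P).mul_mem c.2 ((Z0 P).inv_mem (aut_mem_Z0 _ c.2))⟩
  have hinj : Function.Injective φ := by
    intro c d hcd
    have h1 : (c : P) * ((ξ ^ k) (c : P))⁻¹ = (d : P) * ((ξ ^ k) (d : P))⁻¹ :=
      congrArg Subtype.val hcd
    have h2 : (ξ ^ k) ((d : P)⁻¹ * c) = (d : P)⁻¹ * c := by
      rw [map_mul, map_inv]
      calc ((ξ ^ k) (d : P))⁻¹ * (ξ ^ k) (c : P)
          = (d : P)⁻¹ * ((d : P) * ((ξ ^ k) (d : P))⁻¹) * (ξ ^ k) (c : P) := by group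
        _ = (d : P)⁻¹ * ((c : P) * ((ξ ^ k) (c : P))⁻¹) * (ξ ^ k) (c : P) := by rw [h1]
        _ = (d : P)⁻¹ * c := by group
    by_contra hcd'
    apply hne
    apply fpf h k _ h2
    intro h3
    apply hcd'
    apply Subtype.ext
    exact (inv_mul_eq_one.mp h3).symm
  obtain ⟨c, hc⟩ := Finite.surjective_of_injective hinj ⟨_, hk⟩
  have hc' : (c : P) * ((ξ ^ k) (c : P))⁻¹ = x⁻¹ * (ξ ^ k) x := congrArg Subtype.val hc
  apply hne
  apply fpf h k (x := x * c)
  · intro h1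
    apply hx
    rw [eq_inv_of_mul_eq_one_left h1]
    exact (Z0 P).inv_mem c.2
  · rw [map_mul]
    calc (ξ ^ k) x * (ξ ^ k) (c : P) = x * (x⁻¹ * (ξ ^ k) x) * (ξ ^ k) (c : P) := by group
      _ = x * ((c : P) * ((ξ ^ k) (c : P))⁻¹) * (ξ ^ k) (c : P) := by rw [hc']
      _ = x * c := by group

theorem orderOf_pos' (h : SzAct P ξ) : 0 < orderOf ξ := by
  have := h.fin
  have := finite_mulAut (P := P)
  exact orderOf_pos ξ

/-- if `ξ ^ (n - i + j) = 1` with `i, j < n = orderOf ξ` then `i = j`. -/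
theorem eq_of_pow_eq_one {i j : ℕ} (hi : i < orderOf ξ) (hj : j < orderOf ξ)
    (h1 : ξ ^ (orderOf ξ - i + j) = 1) : i = j := by
  obtain ⟨t, ht⟩ := orderOf_dvd_of_pow_eq_one h1
  have h2 : t = 1 := by
    rcases t with _ | _ | t
    · omega
    · rfl
    · have : orderOf ξ * (t + 1 + 1) = orderOf ξ * t + orderOf ξ + orderOf ξ := by ring
      omega
  subst h2
  omega

theorem card_Z0 (h : SzAct P ξ) : Nat.card (Z0 P) = orderOf ξ + 1 := by
  obtain ⟨z0, -, -, hz1, hz2, -, -⟩ := h.two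
  have hz0 : z0 ∈ Z0 P := (mem_Z0 h).mpr hz2
  have hpos := orderOf_pos' h
  let g : Option (Fin (orderOf ξ)) → Z0 P := fun o =>
    match o with
    | none => 1
    | some i => ⟨(ξ ^ (i : ℕ)) z0, aut_mem_Z0 _ hz0⟩
  have hne : ∀ k : ℕ, (ξ ^ k) z0 ≠ 1 := by
    intro k hk
    apply hz1
    have := congrArg ((ξ ^ k)⁻¹) hk
    simpa using this
  have hbij : Function.Bijective g := by
    constructor
    · intro a b hab
      match a, b with
      | none, none => rfl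
      | none, some j =>
        exact absurd (congrArg Subtype.val hab).symm (hne j)
      | some i, none =>
        exact absurd (congrArg Subtype.val hab) (hne i)
      | some i, some j =>
        have h1 : (ξ ^ (i : ℕ)) z0 = (ξ ^ (j : ℕ)) z0 := congrArg Subtype.val hab
        have h2 : (ξ ^ (orderOf ξ - i + j)) z0 = z0 := by
          rw [pow_add, MulAut.mul_apply, ← h1, ← MulAut.mul_apply, ← pow_add,
            Nat.sub_add_cancel i.2.le, pow_orderOf_eq_one, MulAut.one_apply]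
        have h3 := h.free _ z0 hz1 hz2 h2
        have h4 := eq_of_pow_eq_one i.2 j.2 h3
        rw [Fin.ext h4]
    · intro z
      by_cases hz : (z : P) = 1
      · exact ⟨none, Subtype.ext hz.symm⟩
      · obtain ⟨k, hk⟩ := h.trans z0 z hz1 hz2 hz z.2.2
        refine ⟨some ⟨k % orderOf ξ, Nat.mod_lt _ hpos⟩, Subtype.ext ?_⟩
        show (ξ ^ (k % orderOf ξ)) z0 = z
        rw [pow_mod_orderOf, hk]
  rw [← Nat.card_eq_of_bijective g hbij, Finite.card_option, Nat.card_fin]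

end Cfsg.Agent.Lib.Helper28SzBasic
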