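import Mathlib
import Cfsg.Agent.Lib.Helper28SzDefs
import Cfsg.Agent.Lib.Helper40HigIL

set_option autoImplicit false

namespace Cfsg.Agent.Lib.Helper28SzCoord

open Cfsg.Agent.Lib.Helper28SzDefs

theorem coord_comm {A : Type*} [CommGroup A] [Finite A] (hA : ∀ a : A, a * a = 1) (t : A ≃* A)
    (hne : ∃ a : A, a ≠ 1)
    (htr : ∀ a b : A, a ≠ 1 → b ≠ 1 → ∃ k : ℕ, (⇑t)^[k] a = b) :
    ∃ (F : Type) (_ : Field F) (_ : Fintype F) (_ : CharP F 2) (e : A ≃ F) (l : F),
      (∀ a b, e (a * b) = e a + e b) ∧ (∀ a, e (t a) = l * e a) ∧ Gen l := by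
  have : Nontrivial (Additive A) := by
    obtain ⟨a, ha⟩ := hne
    exact ⟨⟨Additive.ofMul a, 0, ha⟩⟩
  have hiter : ∀ (k : ℕ) (z : Additive A),
      (⇑(MulEquiv.toAdditive t))^[k] z = Additive.ofMul ((⇑t)^[k] z.toMul) := by
    intro k
    induction k with
    | zero => intro z; rfl
    | succ k ih =>
      intro z
      rw [Function.iterate_succ_apply, ih, Function.iterate_succ_apply]
      rfl
  obtain ⟨F, iF, iFin, iCh, i, l, hi⟩ := Cfsg.Agent.Lib.Helper40HigIL.IL (Z := Additive A)
    (MulEquiv.toAdditive t) (fun z => hA z.toMul) (by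
      intro z w hz hw
      obtain ⟨k, hk⟩ := htr z.toMul w.toMul hz hw
      refine ⟨k, ?_⟩
      rw [hiter, hk]
      rfl)
  refine ⟨F, iF, iFin, iCh, Additive.ofMul.trans i.toEquiv, l, ?_, ?_, ?_⟩
  · intro a b
    exact map_add i (Additive.ofMul a) (Additive.ofMul b)
  · intro a
    exact hi (Additive.ofMul a)
  · intro x hx
    have h1 : i.symm 1 ≠ 0 := by
      intro h
      have := congrArg i h
      rw [AddEquiv.apply_symm_apply, map_zero] at this
      exact one_ne_zero this
    have h2 : i.symm x ≠ 0 := by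
      intro h
      have := congrArg i h
      rw [AddEquiv.apply_symm_apply, map_zero] at this
      exact hx this
    obtain ⟨k, hk⟩ := htr (i.symm 1).toMul (i.symm x).toMul h1 h2
    refine ⟨k, ?_⟩
    have hpow : ∀ (k : ℕ) (z : Additive A), i ((⇑(MulEquiv.toAdditive t))^[k] z) = l ^ k * i z := by
      intro k
      induction k with
      | zero => intro z; simp
      | succ k ih =>
        intro z
        rw [Function.iterate_succ_apply', hi, ih, pow_succ']
        ring
    have h3 := hpow k (i.symm 1)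
    rw [hiter, hk] at h3
    change i (i.symm x) = _ at h3
    rw [AddEquiv.apply_symm_apply, AddEquiv.apply_symm_apply, mul_one] at h3
    exact h3

theorem coord {A : Type*} [Group A] [Finite A] (hA : ∀ a : A, a * a = 1) (t : MulAut A)
    (hne : ∃ a : A, a ≠ 1)
    (htr : ∀ a b : A, a ≠ 1 → b ≠ 1 → ∃ k : ℕ, (t ^ k) a = b) :
    ∃ (F : Type) (_ : Field F) (_ : Fintype F) (_ : CharP F 2) (e : A ≃ F) (l : F),
      (∀ a b, e (a * b) = e a + e b) ∧ (∀ a, e (t a) = l * e a) ∧ Gen l := by
  have hcomm : ∀ a b : A, a * b = b * a := by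
    intro a b
    have h1 := hA (a * b)
    have ha : a⁻¹ = a := inv_eq_of_mul_eq_one_left (hA a)
    have hb : b⁻¹ = b := inv_eq_of_mul_eq_one_left (hA b)
    have h2 : a * b = (a * b)⁻¹ := (inv_eq_of_mul_eq_one_left h1).symm
    rw [h2, mul_inv_rev, ha, hb]
  letI : CommGroup A := { (inferInstance : Group A) with mul_comm := hcomm }
  have hpow : ∀ (k : ℕ) (a : A), (t ^ k) a = (⇑t)^[k] a := by
    intro k
    induction k with
    | zero => intro a; rfl
    | succ k ih =>
      intro a
      rw [pow_succ, MulAut.mul_apply, ih, Function.iterate_succ_apply]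
  exact coord_comm hA t hne (fun a b ha hb => by
    obtain ⟨k, hk⟩ := htr a b ha hb
    exact ⟨k, by rw [← hpow, hk]⟩)

theorem coord_in {A : Type*} [Group A] [Finite A] (hA : ∀ a : A, a * a = 1) (t : MulAut A)
    (htr : ∀ a b : A, a ≠ 1 → b ≠ 1 → ∃ k : ℕ, (t ^ k) a = b)
    (F : Type) [Field F] [Fintype F] [CharP F 2] (hcard : Nat.card A = Fintype.card F) :
    ∃ (e : A ≃ F) (l : F),
      (∀ a b, e (a * b) = e a + e b) ∧ (∀ a, e (t a) = l * e a) ∧ Gen l := by
  have hne : ∃ a : A, a ≠ 1 := by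
    have h1 : 1 < Nat.card A := by
      rw [hcard]
      exact Fintype.one_lt_card
    have : Nontrivial A := (Finite.one_lt_card_iff_nontrivial).mp h1
    exact exists_ne 1
  obtain ⟨F', iF, iFin, iCh, e', l', h1, h2, h3⟩ := coord hA t hne htr
  have hc : Fintype.card F' = Fintype.card F := by
    rw [← hcard, ← Nat.card_eq_fintype_card]
    exact (Nat.card_congr e').symm
  let ρ : F' ≃+* F := FiniteField.ringEquivOfCardEq hc
  refine ⟨e'.trans ρ.toEquiv, ρ l', ?_, ?_, ?_⟩
  · intro a b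
    change ρ (e' (a * b)) = ρ (e' a) + ρ (e' b)
    rw [h1, map_add]
  · intro a
    change ρ (e' (t a)) = ρ l' * ρ (e' a)
    rw [h2, map_mul]
  · intro x hx
    have hx' : ρ.symm x ≠ 0 := by
      intro h
      apply hx
      have := congrArg ρ h
      rwa [RingEquiv.apply_symm_apply, map_zero] at this
    obtain ⟨k, hk⟩ := h3 (ρ.symm x) hx'
    refine ⟨k, ?_⟩
    rw [← map_pow, ← hk, RingEquiv.apply_symm_apply]

end Cfsg.Agent.Lib.Helper28SzCoord
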