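import Mathlib

set_option autoImplicit false

/-! Two central extensions of `V` with identified kernels and the same squaring map are
isomorphic (fibre product + complement in a group of exponent two). -/

namespace Cfsg.Agent.Lib.Helper28SzExtIso

/-- every subgroup of a group of exponent two has a complement -/
theorem exists_compl {E : Type*} [Group E] (h : ∀ x : E, x * x = 1) (Z : Subgroup E) :
    ∃ C : Subgroup E, (∀ x, x ∈ Z → x ∈ C → x = 1) ∧ ∀ x : E, ∃ z ∈ Z, ∃ c ∈ C, x = z * c := by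
  have hcomm : ∀ a b : E, a * b = b * a := by
    intro a b
    have h1 := h (a * b)
    have ha : a⁻¹ = a := inv_eq_of_mul_eq_one_left (h a)
    have hb : b⁻¹ = b := inv_eq_of_mul_eq_one_left (h b)
    have h2 : a * b = (a * b)⁻¹ := (inv_eq_of_mul_eq_one_left h1).symm
    rw [h2, mul_inv_rev, ha, hb]
  let _ : CommGroup E := { (inferInstance : Group E) with mul_comm := hcomm }
  let _ : Module (ZMod 2) (Additive E) := AddCommGroup.zmodModule (n := 2) (by
    intro x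
    rw [two_nsmul]
    exact h (Additive.toMul x))
  obtain ⟨C, hC⟩ := Submodule.exists_isCompl
    (AddSubgroup.toZModSubmodule 2 (Subgroup.toAddSubgroup Z))
  refine ⟨AddSubgroup.toSubgroup' C.toAddSubgroup, ?_, ?_⟩
  · intro x hxZ hxC
    have h1 : Additive.ofMul x ∈ (AddSubgroup.toZModSubmodule 2 (Subgroup.toAddSubgroup Z)) ⊓ C :=
      ⟨hxZ, hxC⟩
    rw [hC.inf_eq_bot] at h1
    exact h1
  · intro x
    have h1 : Additive.ofMul x ∈ (AddSubgroup.toZModSubmodule 2 (Subgroup.toAddSubgroup Z)) ⊔ C := by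
      rw [hC.sup_eq_top]; trivial
    obtain ⟨z, hz, c, hc, hzc⟩ := Submodule.mem_sup.mp h1
    exact ⟨Additive.toMul z, hz, Additive.toMul c, hc, hzc.symm⟩

/-- a multiplicative relation which is the graph of a bijection gives an isomorphism -/
theorem equiv_of_rel {P H : Type*} [Group P] [Group H] (R : P → H → Prop)
    (hmul : ∀ x y x' y', R x y → R x' y' → R (x * x') (y * y'))
    (h1 : ∀ x, ∃ y, R x y) (h2 : ∀ y, ∃ x, R x y)
    (h3 : ∀ x y y', R x y → R x y' → y = y') (h4 : ∀ x x' y, R x y → R x' y → x = x') :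
    Nonempty (P ≃* H) := by
  choose f hf using h1
  refine ⟨MulEquiv.ofBijective (MonoidHom.mk' f (fun a b =>
    h3 _ _ _ (hf (a * b)) (hmul _ _ _ _ (hf a) (hf b)))) ⟨?_, ?_⟩⟩
  · intro a b hab
    have hab' : f a = f b := hab
    exact h4 a b (f a) (hf a) (hab' ▸ hf b)
  · intro y
    obtain ⟨x, hx⟩ := h2 y
    exact ⟨x, h3 _ _ _ (hf x) hx⟩

theorem ext_iso {P H V : Type*} [Group P] [Group H] [Group V] (p : P →* V) (q : H →* V)
    (hp : Function.Surjective p) (hq : Function.Surjective q)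
    (hpc : p.ker ≤ Subgroup.center P) (hqc : q.ker ≤ Subgroup.center H) (θ : p.ker ≃* q.ker)
    (hsq : ∀ (x : P) (y : H), p x = q y → ∃ hx : x * x ∈ p.ker, ((θ ⟨x * x, hx⟩ : q.ker) : H) = y * y) :
    Nonempty (P ≃* H) := by
  classical
  let D : Subgroup (P × H) := (p.comp (MonoidHom.fst P H)).eqLocus (q.comp (MonoidHom.snd P H))
  let ν : p.ker →* D := MonoidHom.codRestrict
    ((p.ker.subtype).prod (q.ker.subtype.comp θ.toMonoidHom)) D (fun z => by
      show p (z : P) = q ((θ z : q.ker) : H)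
      rw [MonoidHom.mem_ker.mp z.2, MonoidHom.mem_ker.mp (θ z).2])
  have hν : ∀ z : p.ker, ((ν z : D) : P × H) = ((z : P), ((θ z : q.ker) : H)) := fun z => rfl
  let N : Subgroup D := ν.range
  have hNn : N.Normal := ⟨by
    rintro n ⟨z, rfl⟩ g
    have h1 : g * ν z * g⁻¹ = ν z := by
      apply Subtype.ext
      apply Prod.ext
      · show (g : P × H).1 * (z : P) * ((g : P × H).1)⁻¹ = z
        rw [Subgroup.mem_center_iff.mp (hpc z.2) (g : P × H).1]; group
      · show (g : P × H).2 * ((θ z : q.ker) : H) * ((g : P × H).2)⁻¹ = ((θ z : q.ker) : H)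
        rw [Subgroup.mem_center_iff.mp (hqc (θ z).2) (g : P × H).2]; group
    rw [h1]
    exact ⟨z, rfl⟩⟩
  have hexp : ∀ a : D ⧸ N, a * a = 1 := by
    intro a
    obtain ⟨g, rfl⟩ := QuotientGroup.mk_surjective a
    rw [← QuotientGroup.mk_mul, QuotientGroup.eq_one_iff]
    obtain ⟨hx, hxy⟩ := hsq (g : P × H).1 (g : P × H).2 g.2
    refine ⟨⟨_, hx⟩, ?_⟩
    apply Subtype.ext
    rw [hν]
    exact Prod.ext rfl hxy
  -- the image of `ker p × 1`
  let ι : p.ker →* D := MonoidHom.codRestrict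
    ((p.ker.subtype).prod (1 : p.ker →* H)) D (fun z => by
      show p (z : P) = q 1
      rw [MonoidHom.mem_ker.mp z.2, map_one])
  have hι : ∀ z : p.ker, ((ι z : D) : P × H) = ((z : P), 1) := fun z => rfl
  obtain ⟨C, hC1, hC2⟩ := exists_compl hexp (((QuotientGroup.mk' N).comp ι).range)
  have hmkD : ∀ (x : P) (y : H), p x = q y → (x, y) ∈ D := fun x y h => h
  -- elements of `N` with a trivial coordinate are trivial
  have hN1 : ∀ (w : H) (hw : ((1 : P), w) ∈ D), (⟨(1, w), hw⟩ : D) ∈ N → w = 1 := by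
    rintro w hw ⟨z, hz⟩
    have h1 := congrArg Subtype.val hz
    rw [hν] at h1
    have h2 : (z : P) = 1 := congrArg Prod.fst h1
    have h3 : z = 1 := Subtype.ext h2
    have h4 : ((θ z : q.ker) : H) = w := congrArg Prod.snd h1
    rw [← h4, h3, map_one]; rfl
  have hN2 : ∀ (u : P) (hu : (u, (1 : H)) ∈ D), (⟨(u, 1), hu⟩ : D) ∈ N → u = 1 := by
    rintro u hu ⟨z, hz⟩
    have h1 := congrArg Subtype.val hz
    rw [hν] at h1
    have h2 : (z : P) = u := congrArg Prod.fst h1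
    have h4 : ((θ z : q.ker) : H) = 1 := congrArg Prod.snd h1
    have h5 : θ z = 1 := Subtype.ext h4
    have h6 : z = 1 := by
      have := congrArg θ.symm h5
      simpa using this
    rw [← h2, h6]; rfl
  apply equiv_of_rel (fun x y => ∃ h : (x, y) ∈ D, (QuotientGroup.mk (⟨(x, y), h⟩ : D) : D ⧸ N) ∈ C)
  · rintro x y x' y' ⟨h, hc⟩ ⟨h', hc'⟩
    exact ⟨D.mul_mem h h', C.mul_mem hc hc'⟩
  · intro x
    obtain ⟨y₀, hy₀⟩ := hq (p x)
    obtain ⟨ζ, ⟨z, rfl⟩, c, hc, hzc⟩ := hC2 (QuotientGroup.mk (⟨(x, y₀), hmkD x y₀ hy₀.symm⟩ : D))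
    have hmem : (x, ((θ z : q.ker) : H) * y₀) ∈ D := by
      show p x = q (((θ z : q.ker) : H) * y₀)
      rw [map_mul, MonoidHom.mem_ker.mp (θ z).2, one_mul, hy₀]
    refine ⟨((θ z : q.ker) : H) * y₀, hmem, ?_⟩
    have h1 : c = QuotientGroup.mk ((ι z)⁻¹ * (⟨(x, y₀), hmkD x y₀ hy₀.symm⟩ : D)) := by
      rw [QuotientGroup.mk_mul, hzc]
      simp
    have h2 : (QuotientGroup.mk (⟨(x, ((θ z : q.ker) : H) * y₀), hmem⟩ : D) : D ⧸ N) = c := by
      rw [h1, QuotientGroup.eq]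
      refine ⟨z⁻¹, ?_⟩
      apply Subtype.ext
      rw [hν]
      apply Prod.ext
      · show ((z⁻¹ : p.ker) : P) = x⁻¹ * ((z : P)⁻¹ * x)
        have hz := Subgroup.mem_center_iff.mp (hpc (p.ker.inv_mem z.2)) x
        rw [← hz]
        simp
      · show ((θ z⁻¹ : q.ker) : H) = (((θ z : q.ker) : H) * y₀)⁻¹ * ((1 : H)⁻¹ * y₀)
        have hz := Subgroup.mem_center_iff.mp (hqc (θ z).2) y₀
        rw [map_inv, ← hz]
        simp
    rw [h2]; exact hc
  · intro y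
    obtain ⟨x₀, hx₀⟩ := hp (q y)
    obtain ⟨ζ, ⟨z, rfl⟩, c, hc, hzc⟩ := hC2 (QuotientGroup.mk (⟨(x₀, y), hmkD x₀ y hx₀⟩ : D))
    have hmem : ((z : P)⁻¹ * x₀, y) ∈ D := by
      show p ((z : P)⁻¹ * x₀) = q y
      rw [map_mul, map_inv, MonoidHom.mem_ker.mp z.2, inv_one, one_mul, hx₀]
    refine ⟨(z : P)⁻¹ * x₀, hmem, ?_⟩
    have h1 : c = QuotientGroup.mk ((ι z)⁻¹ * (⟨(x₀, y), hmkD x₀ y hx₀⟩ : D)) := by
      rw [QuotientGroup.mk_mul, hzc]
      simp
    have h2 : (⟨((z : P)⁻¹ * x₀, y), hmem⟩ : D) = (ι z)⁻¹ * (⟨(x₀, y), hmkD x₀ y hx₀⟩ : D) := by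
      apply Subtype.ext
      apply Prod.ext
      · rfl
      · show y = (1 : H)⁻¹ * y
        simp
    rw [h2, ← h1]; exact hc
  · rintro x y y' ⟨h, hc⟩ ⟨h', hc'⟩
    have hw : y⁻¹ * y' ∈ q.ker := by
      have e1 : p x = q y := h
      have e2 : p x = q y' := h'
      rw [MonoidHom.mem_ker, map_mul, map_inv, ← e1, ← e2, inv_mul_cancel]
    have hmem : ((1 : P), y⁻¹ * y') ∈ D := by
      show p 1 = q (y⁻¹ * y')
      rw [map_one, MonoidHom.mem_ker.mp hw]
    have h1 : (QuotientGroup.mk (⟨(1, y⁻¹ * y'), hmem⟩ : D) : D ⧸ N) ∈ C := by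
      have := C.mul_mem (C.inv_mem hc) hc'
      rw [← QuotientGroup.mk_inv, ← QuotientGroup.mk_mul] at this
      have e : (⟨(x, y), h⟩ : D)⁻¹ * ⟨(x, y'), h'⟩ = ⟨(1, y⁻¹ * y'), hmem⟩ := by
        apply Subtype.ext
        apply Prod.ext
        · show x⁻¹ * x = 1
          simp
        · rfl
      rwa [e] at this
    have h2 : (QuotientGroup.mk (⟨(1, y⁻¹ * y'), hmem⟩ : D) : D ⧸ N)
        ∈ ((QuotientGroup.mk' N).comp ι).range := by
      refine ⟨(θ.symm ⟨_, hw⟩)⁻¹, ?_⟩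
      show (QuotientGroup.mk (ι (θ.symm ⟨_, hw⟩)⁻¹) : D ⧸ N) = _
      rw [QuotientGroup.eq]
      refine ⟨θ.symm ⟨_, hw⟩, ?_⟩
      apply Subtype.ext
      rw [hν]
      apply Prod.ext
      · show ((θ.symm ⟨_, hw⟩ : p.ker) : P) = ((((θ.symm ⟨_, hw⟩)⁻¹ : p.ker) : P))⁻¹ * 1
        simp
      · show ((θ (θ.symm ⟨_, hw⟩) : q.ker) : H) = (1 : H)⁻¹ * (y⁻¹ * y')
        simp
    have h3 := hC1 _ h2 h1
    rw [QuotientGroup.eq_one_iff] at h3
    have h4 := hN1 _ hmem h3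
    exact (inv_mul_eq_one.mp h4)
  · rintro x x' y ⟨h, hc⟩ ⟨h', hc'⟩
    have hu : x⁻¹ * x' ∈ p.ker := by
      have e1 : p x = q y := h
      have e2 : p x' = q y := h'
      rw [MonoidHom.mem_ker, map_mul, map_inv, e1, e2, inv_mul_cancel]
    have hmem : (x⁻¹ * x', (1 : H)) ∈ D := by
      show p (x⁻¹ * x') = q 1
      rw [map_one, MonoidHom.mem_ker.mp hu]
    have h1 : (QuotientGroup.mk (⟨(x⁻¹ * x', 1), hmem⟩ : D) : D ⧸ N) ∈ C := by
      have := C.mul_mem (C.inv_mem hc) hc'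
      rw [← QuotientGroup.mk_inv, ← QuotientGroup.mk_mul] at this
      have e : (⟨(x, y), h⟩ : D)⁻¹ * ⟨(x', y), h'⟩ = ⟨(x⁻¹ * x', 1), hmem⟩ := by
        apply Subtype.ext
        apply Prod.ext
        · rfl
        · show y⁻¹ * y = 1
          simp
      rwa [e] at this
    have h2 : (QuotientGroup.mk (⟨(x⁻¹ * x', 1), hmem⟩ : D) : D ⧸ N)
        ∈ ((QuotientGroup.mk' N).comp ι).range := ⟨⟨_, hu⟩, rfl⟩
    have h3 := hC1 _ h2 h1
    rw [QuotientGroup.eq_one_iff] at h3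
    have h4 := hN2 _ hmem h3
    exact (inv_mul_eq_one.mp h4)

end Cfsg.Agent.Lib.Helper28SzExtIso
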