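import Mathlib
import Cfsg.Agent.S1140

set_option autoImplicit false

namespace Cfsg.Agent.Lib.Helper28SzExtract

theorem extract {F : Type*} [Field F] [Fintype F] [CharP F 2] (g : F → F)
    (hg : ∀ x y, g (x + y) = g x + g y) (hg0 : ∃ x, g x ≠ 0) (χ κ : F → F)
    (hadd : ∀ x x' y, χ (x + x') * g (κ (x + x') * y) = χ x * g (κ x * y) + χ x' * g (κ x' * y)) :
    ∃ σ : F ≃+* F, ∀ x x', χ (x + x') * σ (κ (x + x')) = χ x * σ (κ x) + χ x' * σ (κ x') := by
  classical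
  obtain ⟨hli, hspan, -⟩ := Cfsg.Agent.S1140.result (F := F)
  obtain ⟨s, c, hc⟩ := hspan (AddMonoidHom.mk' g hg)
  have hc' : ∀ x, g x = ∑ σ ∈ s, c σ * σ x := hc
  obtain ⟨x0, hx0⟩ := hg0
  obtain ⟨σ0, hσ0, hcσ0⟩ : ∃ σ ∈ s, c σ ≠ 0 := by
    by_contra hcon
    push Not at hcon
    apply hx0
    rw [hc']
    exact Finset.sum_eq_zero fun σ hσ => by rw [hcon σ hσ, zero_mul]
  refine ⟨σ0, fun x x' => ?_⟩
  rw [linearIndependent_iff'] at hli
  have key := hli s (fun σ => c σ * (χ (x + x') * σ (κ (x + x')) - χ x * σ (κ x)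
    - χ x' * σ (κ x'))) (by
    funext y
    have h := hadd x x' y
    rw [hc', hc', hc'] at h
    simp only [Finset.sum_apply, Pi.smul_apply, smul_eq_mul, Pi.zero_apply]
    have h2 : ∑ σ ∈ s, c σ * (χ (x + x') * σ (κ (x + x')) - χ x * σ (κ x) - χ x' * σ (κ x'))
          * ((σ : F →+* F) : F → F) y
        = χ (x + x') * ∑ σ ∈ s, c σ * σ (κ (x + x') * y) - χ x * ∑ σ ∈ s, c σ * σ (κ x * y)
          - χ x' * ∑ σ ∈ s, c σ * σ (κ x' * y) := by
      rw [Finset.mul_sum, Finset.mul_sum, Finset.mul_sum, ← Finset.sum_sub_distrib,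
        ← Finset.sum_sub_distrib]
      refine Finset.sum_congr rfl fun σ _ => ?_
      simp only [map_mul, RingEquiv.coe_toRingHom]
      ring
    rw [h2, h]
    ring) σ0 hσ0
  have := (mul_eq_zero.mp key).resolve_left hcσ0
  linear_combination this

end Cfsg.Agent.Lib.Helper28SzExtract
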