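import Mathlib
import Cfsg.Prelude.Def_LieRecognition

set_option autoImplicit false

/-! Structure of the matrix group `Cfsg.suzukiTypeA F φ`. -/

namespace Cfsg.Agent.Lib.Helper28SzTypeA

open Matrix

variable {F : Type*} [Field F]

/-- the defining matrices -/
def Mx (φ : F →+* F) (x y : F) : Matrix (Fin 3) (Fin 3) F := !![1, 0, 0; x, 1, 0; y, φ x, 1]

theorem Mx_mul (φ : F →+* F) (x y x' y' : F) :
    Mx φ x y * Mx φ x' y' = Mx φ (x + x') (y + y' + φ x * x') := by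
  ext i j
  fin_cases i <;> fin_cases j <;> simp [Mx, Matrix.mul_apply, Fin.sum_univ_three] <;> ring

theorem Mx_zero (φ : F →+* F) : Mx φ 0 0 = 1 := by
  ext i j
  fin_cases i <;> fin_cases j <;> simp [Mx]

theorem Mx_mul_inv [CharP F 2] (φ : F →+* F) (x y : F) :
    Mx φ x y * Mx φ x (y + φ x * x) = 1 := by
  rw [Mx_mul, CharTwo.add_self_eq_zero, ← Mx_zero φ]
  congr 1
  have h1 : y + (y + φ x * x) + φ x * x = (y + y) + (φ x * x + φ x * x) := by ring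
  rw [h1, CharTwo.add_self_eq_zero, CharTwo.add_self_eq_zero, add_zero]

theorem Mx_inv_mul [CharP F 2] (φ : F →+* F) (x y : F) :
    Mx φ x (y + φ x * x) * Mx φ x y = 1 := by
  rw [Mx_mul, CharTwo.add_self_eq_zero, ← Mx_zero φ]
  congr 1
  have h1 : y + φ x * x + y + φ x * x = (y + y) + (φ x * x + φ x * x) := by ring
  rw [h1, CharTwo.add_self_eq_zero, CharTwo.add_self_eq_zero, add_zero]

/-- the defining matrices as elements of `GL₃` -/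
def Gx [CharP F 2] (φ : F →+* F) (x y : F) : GL (Fin 3) F :=
  ⟨Mx φ x y, Mx φ x (y + φ x * x), Mx_mul_inv φ x y, Mx_inv_mul φ x y⟩

theorem Gx_coe [CharP F 2] (φ : F →+* F) (x y : F) :
    ((Gx φ x y : GL (Fin 3) F) : Matrix (Fin 3) (Fin 3) F) = Mx φ x y := rfl

theorem Gx_mul [CharP F 2] (φ : F →+* F) (x y x' y' : F) :
    Gx φ x y * Gx φ x' y' = Gx φ (x + x') (y + y' + φ x * x') := by
  apply Units.ext
  rw [Units.val_mul, Gx_coe, Gx_coe, Gx_coe, Mx_mul]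

theorem Gx_zero [CharP F 2] (φ : F →+* F) : Gx φ 0 0 = 1 := by
  apply Units.ext
  rw [Gx_coe, Mx_zero]; rfl

theorem Gx_inv [CharP F 2] (φ : F →+* F) (x y : F) : (Gx φ x y)⁻¹ = Gx φ x (y + φ x * x) := by
  apply Units.ext
  rfl

theorem Gx_mem [CharP F 2] (φ : F →+* F) (x y : F) : Gx φ x y ∈ Cfsg.suzukiTypeA F φ :=
  Subgroup.subset_closure ⟨x, y, rfl⟩

theorem exists_Gx [CharP F 2] (φ : F →+* F) {g : GL (Fin 3) F} (hg : g ∈ Cfsg.suzukiTypeA F φ) :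
    ∃ x y, g = Gx φ x y := by
  induction hg using Subgroup.closure_induction with
  | mem g hg =>
    obtain ⟨x, y, hxy⟩ := hg
    exact ⟨x, y, Units.ext hxy⟩
  | one => exact ⟨0, 0, (Gx_zero φ).symm⟩
  | mul a b _ _ ha hb =>
    obtain ⟨x, y, rfl⟩ := ha
    obtain ⟨x', y', rfl⟩ := hb
    exact ⟨_, _, Gx_mul φ x y x' y'⟩
  | inv a _ ha =>
    obtain ⟨x, y, rfl⟩ := ha
    exact ⟨_, _, Gx_inv φ x y⟩

theorem Gx_entry10 [CharP F 2] (φ : F →+* F) (x y : F) :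
    ((Gx φ x y : GL (Fin 3) F) : Matrix (Fin 3) (Fin 3) F) 1 0 = x := by
  simp [Gx_coe, Mx]

theorem Gx_entry20 [CharP F 2] (φ : F →+* F) (x y : F) :
    ((Gx φ x y : GL (Fin 3) F) : Matrix (Fin 3) (Fin 3) F) 2 0 = y := by
  simp [Gx_coe, Mx]

/-- the projection to the `(1,0)` entry -/
def qHom [CharP F 2] (φ : F →+* F) : Cfsg.suzukiTypeA F φ →* Multiplicative F :=
  MonoidHom.mk' (fun g => Multiplicative.ofAdd (((g : GL (Fin 3) F) : Matrix (Fin 3) (Fin 3) F) 1 0))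
    (by
      rintro ⟨a, ha⟩ ⟨b, hb⟩
      obtain ⟨x, y, rfl⟩ := exists_Gx φ ha
      obtain ⟨x', y', rfl⟩ := exists_Gx φ hb
      show Multiplicative.ofAdd (((Gx φ x y * Gx φ x' y' : GL (Fin 3) F) :
        Matrix (Fin 3) (Fin 3) F) 1 0) = _
      rw [Gx_mul, Gx_entry10, ofAdd_add]
      show _ = Multiplicative.ofAdd (((Gx φ x y : GL (Fin 3) F) : Matrix (Fin 3) (Fin 3) F) 1 0) *
        Multiplicative.ofAdd (((Gx φ x' y' : GL (Fin 3) F) : Matrix (Fin 3) (Fin 3) F) 1 0)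
      rw [Gx_entry10, Gx_entry10])

theorem qHom_Gx [CharP F 2] (φ : F →+* F) (x y : F) :
    qHom φ ⟨Gx φ x y, Gx_mem φ x y⟩ = Multiplicative.ofAdd x := by
  show Multiplicative.ofAdd (((Gx φ x y : GL (Fin 3) F) : Matrix (Fin 3) (Fin 3) F) 1 0) = _
  rw [Gx_entry10]

theorem mem_ker_Gx [CharP F 2] (φ : F →+* F) (x y : F) :
    (⟨Gx φ x y, Gx_mem φ x y⟩ : Cfsg.suzukiTypeA F φ) ∈ (qHom φ).ker ↔ x = 0 := by
  rw [MonoidHom.mem_ker, qHom_Gx]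
  exact ofAdd_eq_one

theorem typeA_data [CharP F 2] (φ : F →+* F) :
    ∃ (q : Cfsg.suzukiTypeA F φ →* Multiplicative F) (ε : q.ker ≃ F),
      Function.Surjective q ∧ q.ker ≤ Subgroup.center _ ∧ (∀ a b, ε (a * b) = ε a + ε b) ∧
      ∀ (y : Cfsg.suzukiTypeA F φ) (hy : y * y ∈ q.ker),
        ε ⟨y * y, hy⟩ = Multiplicative.toAdd (q y) * φ (Multiplicative.toAdd (q y)) := by
  refine ⟨qHom φ,
    { toFun := fun g => (((g : Cfsg.suzukiTypeA F φ) : GL (Fin 3) F) : Matrix (Fin 3) (Fin 3) F) 2 0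
      invFun := fun y => ⟨⟨Gx φ 0 y, Gx_mem φ 0 y⟩, (mem_ker_Gx φ 0 y).mpr rfl⟩
      left_inv := ?_
      right_inv := ?_ }, ?_, ?_, ?_, ?_⟩
  · rintro ⟨⟨g, hg⟩, hk⟩
    obtain ⟨x, y, rfl⟩ := exists_Gx φ hg
    have hx : x = 0 := (mem_ker_Gx φ x y).mp hk
    subst hx
    apply Subtype.ext
    apply Subtype.ext
    show Gx φ 0 (((Gx φ 0 y : GL (Fin 3) F) : Matrix (Fin 3) (Fin 3) F) 2 0) = Gx φ 0 y
    rw [Gx_entry20]
  · intro y
    exact Gx_entry20 φ 0 y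
  · intro a
    exact ⟨⟨Gx φ (Multiplicative.toAdd a) 0, Gx_mem φ _ _⟩, qHom_Gx φ _ _⟩
  · rintro ⟨g, hg⟩ hk
    obtain ⟨x, y, rfl⟩ := exists_Gx φ hg
    have hx : x = 0 := (mem_ker_Gx φ x y).mp hk
    subst hx
    rw [Subgroup.mem_center_iff]
    rintro ⟨b, hb⟩
    obtain ⟨x', y', rfl⟩ := exists_Gx φ hb
    apply Subtype.ext
    show Gx φ x' y' * Gx φ 0 y = Gx φ 0 y * Gx φ x' y'
    rw [Gx_mul, Gx_mul]
    congr 1
    · ring
    · simp; ring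
  · rintro ⟨⟨a, ha⟩, hka⟩ ⟨⟨b, hb⟩, hkb⟩
    obtain ⟨x, y, rfl⟩ := exists_Gx φ ha
    obtain ⟨x', y', rfl⟩ := exists_Gx φ hb
    have hx : x = 0 := (mem_ker_Gx φ x y).mp hka
    subst hx
    show ((Gx φ 0 y * Gx φ x' y' : GL (Fin 3) F) : Matrix (Fin 3) (Fin 3) F) 2 0
      = ((Gx φ 0 y : GL (Fin 3) F) : Matrix (Fin 3) (Fin 3) F) 2 0
        + ((Gx φ x' y' : GL (Fin 3) F) : Matrix (Fin 3) (Fin 3) F) 2 0
    rw [Gx_mul, Gx_entry20, Gx_entry20, Gx_entry20]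
    simp
  · rintro ⟨g, hg⟩ hy
    obtain ⟨x, y, rfl⟩ := exists_Gx φ hg
    rw [qHom_Gx]
    show ((Gx φ x y * Gx φ x y : GL (Fin 3) F) : Matrix (Fin 3) (Fin 3) F) 2 0 = x * φ x
    rw [Gx_mul, Gx_entry20, CharTwo.add_self_eq_zero, zero_add, mul_comm]

end Cfsg.Agent.Lib.Helper28SzTypeA
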