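import Mathlib
import Cfsg.Agent.Lib.Helper28SzExtIso
import Cfsg.Agent.Lib.Helper28SzTypeA

set_option autoImplicit false

namespace Cfsg.Agent.Lib.Helper28SzIsoA

open Cfsg.Agent.Lib.Helper28SzExtIso Cfsg.Agent.Lib.Helper28SzTypeA

theorem iso_typeA {P : Type*} [Group P] {F : Type*} [Field F] [CharP F 2] (φ : F →+* F)
    (Z : Subgroup P) (hZ : Z ≤ Subgroup.center P)
    (π : P → F) (hπ : ∀ x y, π (x * y) = π x + π y) (hπs : Function.Surjective π)
    (hπk : ∀ x, π x = 0 ↔ x ∈ Z)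
    (e : Z ≃ F) (he : ∀ a b, e (a * b) = e a + e b)
    (hsq : ∀ (x : P) (hx : x * x ∈ Z), e ⟨x * x, hx⟩ = π x * φ (π x)) :
    Nonempty (P ≃* Cfsg.suzukiTypeA F φ) := by
  obtain ⟨q, ε, hqs, hqc, hε, hεsq⟩ := typeA_data φ
  let p : P →* Multiplicative F := MonoidHom.mk' (fun x => Multiplicative.ofAdd (π x))
    (fun a b => by rw [hπ, ofAdd_add])
  have hp : ∀ x, p x = Multiplicative.ofAdd (π x) := fun x => rfl
  have hker : ∀ x, x ∈ p.ker ↔ x ∈ Z := by
    intro x
    rw [MonoidHom.mem_ker, hp, ofAdd_eq_one, hπk]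
  let θ : p.ker ≃* q.ker :=
    { toFun := fun z => ε.symm (e ⟨z, (hker z).mp z.2⟩)
      invFun := fun w => ⟨e.symm (ε w), (hker _).mpr (e.symm (ε w)).2⟩
      left_inv := fun z => by
        apply Subtype.ext
        simp
      right_inv := fun w => by simp
      map_mul' := fun a b => by
        apply ε.injective
        rw [hε, Equiv.apply_symm_apply, Equiv.apply_symm_apply, Equiv.apply_symm_apply, ← he]
        rfl }
  have hθ : ∀ z : p.ker, ε (θ z) = e ⟨z, (hker z).mp z.2⟩ := fun z => Equiv.apply_symm_apply _ _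
  apply ext_iso p q ?_ hqs ?_ hqc θ ?_
  · intro a
    obtain ⟨x, hx⟩ := hπs (Multiplicative.toAdd a)
    exact ⟨x, by rw [hp, hx]; rfl⟩
  · intro x hx
    exact hZ ((hker x).mp hx)
  · intro x y hxy
    have hx : x * x ∈ p.ker := by
      rw [hker, ← hπk, hπ, CharTwo.add_self_eq_zero]
    have hy : y * y ∈ q.ker := by
      rw [MonoidHom.mem_ker, map_mul, ← hxy, ← map_mul]
      exact hx
    refine ⟨hx, ?_⟩
    have h1 : θ ⟨x * x, hx⟩ = ⟨y * y, hy⟩ := by
      apply ε.injective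
      rw [hθ, hεsq, ← hxy, hp]
      exact hsq x _
    rw [h1]

end Cfsg.Agent.Lib.Helper28SzIsoA
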