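import Mathlib

set_option autoImplicit false

namespace Cfsg.Agent.Lib.Helper28SzOddOrder

theorem finrank_congr_subfield {F : Type*} [Field F] (S T : Subfield F) (h : S = T) :
    Module.finrank S F = Module.finrank T F := by
  subst h
  rfl

theorem exists_moved {F : Type*} [Field F] [Fintype F] (φ : F ≃+* F)
    (hev : Even (orderOf φ)) : ∃ w : F, φ (φ w) = w ∧ φ w ≠ w := by
  classical
  by_contra hcon
  push Not at hcon
  have hfin : Finite (F ≃+* F) := Finite.of_injective (fun f : F ≃+* F => (f : F → F))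
    (fun f g h => RingEquiv.ext (congrFun h))
  have hpos : 0 < orderOf φ := orderOf_pos φ
  let G₁ : Subgroup (RingAut F) := Subgroup.zpowers φ
  let G₂ : Subgroup (RingAut F) := Subgroup.zpowers (φ ^ 2)
  have hfix : FixedPoints.subfield G₁ F = FixedPoints.subfield G₂ F := by
    ext w
    constructor
    · intro hw g
      obtain ⟨k, hk⟩ := Subgroup.mem_zpowers_iff.mp g.2
      have hg : (g : RingAut F) ∈ G₁ := by
        rw [← hk, ← zpow_natCast, ← zpow_mul]
        exact Subgroup.zpow_mem_zpowers φ _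
      exact hw ⟨g, hg⟩
    · intro hw g
      have h2 : φ (φ w) = w := hw ⟨φ ^ 2, Subgroup.mem_zpowers _⟩
      have h1 : φ w = w := hcon w h2
      have h1' : (φ : RingAut F) ∈ MulAction.stabilizer (RingAut F) w := h1
      have hle : G₁ ≤ MulAction.stabilizer (RingAut F) w := by
        rw [Subgroup.zpowers_le]
        exact h1'
      exact hle g.2
  have hfin' : Finite (RingAut F) := hfin
  letI : Fintype G₁ := Fintype.ofFinite _
  letI : Fintype G₂ := Fintype.ofFinite _
  have hc1 := FixedPoints.finrank_eq_card G₁ F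
  have hc2 := FixedPoints.finrank_eq_card G₂ F
  rw [finrank_congr_subfield _ _ hfix, hc2] at hc1
  have e1 : Fintype.card G₁ = orderOf φ := by
    rw [← Nat.card_eq_fintype_card]; exact Nat.card_zpowers φ
  have e2 : Fintype.card G₂ = orderOf (φ ^ 2) := by
    rw [← Nat.card_eq_fintype_card]; exact Nat.card_zpowers (φ ^ 2)
  rw [e1, e2, orderOf_pow] at hc1
  obtain ⟨m, hm⟩ := hev
  have hg : Nat.gcd (orderOf φ) 2 = 2 := by
    rw [hm, ← two_mul]
    simp
  rw [hg] at hc1
  omega

theorem odd_order {F : Type*} [Field F] [Fintype F] [CharP F 2] (φ : F ≃+* F)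
    (hinj : ∀ x y : F, x * φ x = y * φ y → x = y) : Odd (orderOf φ) := by
  by_contra hodd
  rw [Nat.not_odd_iff_even] at hodd
  obtain ⟨w, hw2, hw1⟩ := exists_moved φ hodd
  have hw0 : w ≠ 0 := by
    rintro rfl
    exact hw1 (map_zero φ)
  have hφw0 : φ w ≠ 0 := by
    intro h
    exact hw0 ((map_eq_zero_iff φ φ.injective).mp h)
  have h1 : (w / φ w) * φ (w / φ w) = 1 * φ 1 := by
    rw [map_div₀, hw2, map_one]
    field_simp
  have h2 := hinj _ _ h1
  apply hw1
  rw [div_eq_one_iff_eq hφw0] at h2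
  exact h2.symm

end Cfsg.Agent.Lib.Helper28SzOddOrder
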