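import Mathlib
import Cfsg.Agent.Lib.Helper28SzDefs
import Cfsg.Agent.Lib.Helper28SzExtract

set_option autoImplicit false

namespace Cfsg.Agent.Lib.Helper28SzQuadForm

open Cfsg.Agent.Lib.Helper28SzDefs Cfsg.Agent.Lib.Helper28SzExtract

theorem gen_ne_zero {F : Type*} [Field F] {l : F} (hl : Gen l) (hF : ∃ x : F, x ≠ 0 ∧ x ≠ 1) :
    l ≠ 0 := by
  rintro rfl
  obtain ⟨x, hx0, hx1⟩ := hF
  obtain ⟨k, hk⟩ := hl x hx0
  rcases Nat.eq_zero_or_pos k with rfl | hk0
  · exact hx1 (by simpa using hk)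
  · exact hx0 (by rw [hk, zero_pow hk0.ne'])

theorem gen_pow_iff {F : Type*} [Field F] [Fintype F] {l : F} (hl : Gen l) (hl0 : l ≠ 0)
    (i j : ℕ) : l ^ i = l ^ j ↔ i ≡ j [MOD Nat.card Fˣ] := by
  have h1 : orderOf (Units.mk0 l hl0) = Nat.card Fˣ := by
    apply orderOf_eq_card_of_forall_mem_zpowers
    intro u
    obtain ⟨k, hk⟩ := hl (u : F) u.ne_zero
    refine ⟨(k : ℤ), ?_⟩
    apply Units.ext
    simp [hk]
  rw [← h1, ← pow_eq_pow_iff_modEq]
  constructor
  · intro h
    apply Units.ext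
    simpa using h
  · intro h
    have := congrArg (fun u : Fˣ => (u : F)) h
    simpa using this

theorem quad_form {F : Type*} [Field F] [Fintype F] [CharP F 2] (S : F → F) (l m : F)
    (hl : Gen l) (hm : Gen m) (hS : ∀ v, S (m * v) = l * S v)
    (hbi : ∀ u v w, S (u + v + w) + S (u + v) + S (u + w) + S (v + w) + S u + S v + S w = 0)
    (hna : ∃ v w, S (v + w) ≠ S v + S w) :
    ∃ (c : F) (σ τ : F ≃+* F), c ≠ 0 ∧ σ ≠ τ ∧ (∀ v, S v = c * (σ v * τ v)) ∧
      Function.Injective S := by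
  classical
  have h2 : (2 : F) = 0 := CharTwo.two_eq_zero
  have hS0 : S 0 = 0 := by
    have := hbi 0 0 0
    simp only [add_zero] at this
    linear_combination this - 3 * S 0 * h2
  have hF : ∃ x : F, x ≠ 0 ∧ x ≠ 1 := by
    by_contra hcon
    push Not at hcon
    obtain ⟨v, w, hvw⟩ := hna
    apply hvw
    by_cases hv : v = 0
    · rw [hv, zero_add, hS0, zero_add]
    · by_cases hw : w = 0
      · rw [hw, add_zero, hS0, add_zero]
      · rw [hcon v hv, hcon w hw]
        have : (1 : F) + 1 = 0 := by linear_combination h2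
        rw [this, hS0]
        linear_combination -S 1 * h2
  have hl0 := gen_ne_zero hl hF
  have hm0 := gen_ne_zero hm hF
  have hpow : ∀ i j : ℕ, l ^ i = l ^ j ↔ m ^ i = m ^ j := by
    intro i j
    rw [gen_pow_iff hl hl0, gen_pow_iff hm hm0]
  set c := S 1 with hc
  have hSm : ∀ k : ℕ, S (m ^ k) = l ^ k * c := by
    intro k
    induction k with
    | zero => simp [hc]
    | succ k ih => rw [pow_succ', hS, ih, pow_succ']; ring
  have hc0 : c ≠ 0 := by
    intro h0
    obtain ⟨v, w, hvw⟩ := hna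
    have hall : ∀ x, S x = 0 := by
      intro x
      by_cases hx : x = 0
      · rw [hx, hS0]
      · obtain ⟨k, rfl⟩ := hm x hx
        rw [hSm, h0, mul_zero]
    apply hvw
    rw [hall, hall, hall, add_zero]
  have hinj : Function.Injective S := by
    intro x y hxy
    by_cases hx : x = 0
    · by_cases hy : y = 0
      · rw [hx, hy]
      · obtain ⟨k, rfl⟩ := hm y hy
        rw [hx, hS0, hSm] at hxy
        exact absurd hxy.symm (mul_ne_zero (pow_ne_zero _ hl0) hc0)
    · by_cases hy : y = 0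
      · obtain ⟨k, rfl⟩ := hm x hx
        rw [hy, hS0, hSm] at hxy
        exact absurd hxy (mul_ne_zero (pow_ne_zero _ hl0) hc0)
      · obtain ⟨i, rfl⟩ := hm x hx
        obtain ⟨j, rfl⟩ := hm y hy
        rw [hSm, hSm] at hxy
        exact (hpow i j).mp (mul_right_cancel₀ hc0 hxy)
  set ψ : F → F := fun v => S v / c with hψ
  have hSψ : ∀ v, S v = c * ψ v := by
    intro v
    simp only [hψ]
    field_simp
  have hψm : ∀ k : ℕ, ψ (m ^ k) = l ^ k := by
    intro k
    simp only [hψ]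
    rw [hSm]
    field_simp
  have hψ0 : ψ 0 = 0 := by simp only [hψ]; rw [hS0, zero_div]
  have hψ1 : ψ 1 = 1 := by simpa using hψm 0
  have hψmul : ∀ x y, ψ (x * y) = ψ x * ψ y := by
    intro x y
    by_cases hx : x = 0
    · rw [hx, zero_mul, hψ0, zero_mul]
    · by_cases hy : y = 0
      · rw [hy, mul_zero, hψ0, mul_zero]
      · obtain ⟨i, rfl⟩ := hm x hx
        obtain ⟨j, rfl⟩ := hm y hy
        rw [← pow_add, hψm, hψm, hψm, pow_add]
  have hbiψ : ∀ u v w, ψ (u + v + w) + ψ (u + v) + ψ (u + w) + ψ (v + w) + ψ u + ψ v + ψ w = 0 := by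
    intro u v w
    have := hbi u v w
    simp only [hSψ] at this
    have h3 : c * (ψ (u + v + w) + ψ (u + v) + ψ (u + w) + ψ (v + w) + ψ u + ψ v + ψ w) = 0 := by
      linear_combination this
    exact (mul_eq_zero.mp h3).resolve_left hc0
  set γ : F → F → F := fun v w => ψ (v + w) + ψ v + ψ w with hγ
  have hγadd : ∀ u v w, γ (u + v) w = γ u w + γ v w := by
    intro u v w
    simp only [hγ]
    linear_combination hbiψ u v w - (ψ (u + w) + ψ (v + w) + ψ u + ψ v + ψ w) * h2
  have hγsymm : ∀ v w, γ v w = γ w v := by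
    intro v w
    simp only [hγ]
    rw [add_comm v w]
    ring
  have hγscale : ∀ t v w, γ (t * v) (t * w) = ψ t * γ v w := by
    intro t v w
    simp only [hγ]
    rw [← mul_add, hψmul, hψmul, hψmul]
    ring
  have hγ0 : ∀ y, γ 0 y = 0 := by
    intro y
    simp only [hγ]
    rw [zero_add, hψ0]
    linear_combination ψ y * h2
  set g : F → F := fun w => γ 1 w with hgdef
  have hg : ∀ x y, g (x + y) = g x + g y := by
    intro x y
    simp only [hgdef]
    rw [hγsymm, hγadd, hγsymm x, hγsymm y]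
  have hγg : ∀ v y, ψ v * g (v⁻¹ * y) = γ v y := by
    intro v y
    by_cases hv : v = 0
    · rw [hv, hψ0, zero_mul, hγ0]
    · simp only [hgdef]
      rw [← hγscale, mul_one, mul_inv_cancel_left₀ hv]
  have hnaψ : ∃ v w, γ v w ≠ 0 := by
    obtain ⟨v, w, hvw⟩ := hna
    refine ⟨v, w, fun h0 => hvw ?_⟩
    simp only [hγ] at h0
    rw [hSψ, hSψ v, hSψ w]
    linear_combination c * h0 - c * (ψ v + ψ w) * h2
  have hg0 : ∃ x, g x ≠ 0 := by
    by_contra hcon
    push Not at hcon
    obtain ⟨v, w, hvw⟩ := hnaψ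
    apply hvw
    rw [← hγg, hcon, mul_zero]
  obtain ⟨σ, hσ⟩ := extract g hg hg0 ψ (fun x => x⁻¹) (by
    intro x x' y
    rw [hγg, hγg, hγg, hγadd])
  let τ0 : F →+* F :=
    { toFun := fun v => ψ v * σ v⁻¹
      map_one' := by simp [hψ1]
      map_mul' := by
        intro x y
        rw [hψmul, mul_inv, map_mul]
        ring
      map_zero' := by simp [hψ0]
      map_add' := fun x y => hσ x y }
  let τ : F ≃+* F := RingEquiv.ofBijective τ0
    ⟨τ0.injective, Finite.injective_iff_surjective.mp τ0.injective⟩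
  have hτ : ∀ v, τ v = ψ v * σ v⁻¹ := fun v => rfl
  have hψστ : ∀ v, ψ v = σ v * τ v := by
    intro v
    by_cases hv : v = 0
    · rw [hv, hψ0, map_zero, zero_mul]
    · rw [hτ, map_inv₀]
      have : σ v ≠ 0 := fun h => hv ((map_eq_zero_iff σ σ.injective).mp h)
      field_simp
  refine ⟨c, σ, τ, hc0, ?_, fun v => by rw [hSψ, hψστ], hinj⟩
  intro hστ
  obtain ⟨v, w, hvw⟩ := hnaψ
  apply hvw
  simp only [hγ]
  rw [hψστ, hψστ v, hψστ w, ← hστ, map_add]
  linear_combination (σ v * σ v + σ w * σ w + σ v * σ w) * h2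

end Cfsg.Agent.Lib.Helper28SzQuadForm
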