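import Mathlib
import Cfsg.Agent.Lib.Helper28SzDefs
import Cfsg.Agent.Lib.Helper28SzBasic

set_option autoImplicit false

namespace Cfsg.Agent.Lib.Helper28SzSqMap

open Cfsg.Agent.Lib.Helper28SzDefs Cfsg.Agent.Lib.Helper28SzBasic

variable {P : Type*} [Group P] {ξ : MulAut P}

theorem sq_mul_of_central {x y : P} (hc : y⁻¹ * x⁻¹ * y * x ∈ Subgroup.center P) :
    (x * y) * (x * y) = (x * x) * (y * y) * (y⁻¹ * x⁻¹ * y * x) := by
  have h1 : y * (y⁻¹ * x⁻¹ * y * x) = (y⁻¹ * x⁻¹ * y * x) * y := Subgroup.mem_center_iff.mp hc y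
  calc (x * y) * (x * y) = x * x * y * ((y⁻¹ * x⁻¹ * y * x) * y) := by group
    _ = x * x * y * (y * (y⁻¹ * x⁻¹ * y * x)) := by rw [h1]
    _ = (x * x) * (y * y) * (y⁻¹ * x⁻¹ * y * x) := by group

theorem comm_mul_of_central {x y z : P} (hc : z⁻¹ * x⁻¹ * z * x ∈ Subgroup.center P) :
    z⁻¹ * (x * y)⁻¹ * z * (x * y) = (z⁻¹ * y⁻¹ * z * y) * (z⁻¹ * x⁻¹ * z * x) := by
  have h1 : y * (z⁻¹ * x⁻¹ * z * x) = (z⁻¹ * x⁻¹ * z * x) * y := Subgroup.mem_center_iff.mp hc y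
  calc z⁻¹ * (x * y)⁻¹ * z * (x * y) = z⁻¹ * y⁻¹ * z * ((z⁻¹ * x⁻¹ * z * x) * y) := by group
    _ = z⁻¹ * y⁻¹ * z * (y * (z⁻¹ * x⁻¹ * z * x)) := by rw [h1]
    _ = (z⁻¹ * y⁻¹ * z * y) * (z⁻¹ * x⁻¹ * z * x) := by group

theorem sq_map (h : SzAct P ξ) (hV : ∀ a : P ⧸ Z0 P, a * a = 1) (hna : ∃ x y : P, x * y ≠ y * x)
    {F : Type*} [Field F] [CharP F 2] (l m : F)
    (e : Z0 P ≃ F) (he : ∀ a b, e (a * b) = e a + e b) (hel : ∀ a, e (resAut ξ a) = l * e a)
    (eV : P ⧸ Z0 P ≃ F) (heV : ∀ a b, eV (a * b) = eV a + eV b)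
    (hem : ∀ a, eV (quotAut ξ a) = m * eV a) :
    ∃ S : F → F, (∀ (x : P) (hx : x * x ∈ Z0 P), e ⟨x * x, hx⟩ = S (eV (QuotientGroup.mk x))) ∧
      (∀ v, S (m * v) = l * S v) ∧
      (∀ u v w, S (u + v + w) + S (u + v) + S (u + w) + S (v + w) + S u + S v + S w = 0) ∧
      (∃ v w, S (v + w) ≠ S v + S w) := by
  have h2 : (2 : F) = 0 := CharTwo.two_eq_zero
  have hsq : ∀ x : P, x * x ∈ Z0 P := by
    intro x
    rw [← QuotientGroup.eq_one_iff]
    exact hV (QuotientGroup.mk x)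
  have hcomm : ∀ a b : P ⧸ Z0 P, a * b = b * a := by
    intro a b
    have h1 := hV (a * b)
    have ha := hV a
    have hb := hV b
    calc a * b = (b * b) * (a * b) * (a * a) := by rw [ha, hb]; group
      _ = b * ((b * a) * (b * a)) * a := by group
      _ = b * a := by rw [hV (b * a)]; group
  have hk : ∀ x y : P, x⁻¹ * y⁻¹ * x * y ∈ Z0 P := by
    intro x y
    rw [← QuotientGroup.eq_one_iff]
    simp only [QuotientGroup.mk_mul, QuotientGroup.mk_inv]
    rw [mul_assoc, hcomm (QuotientGroup.mk x) (QuotientGroup.mk y)]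
    group
  have e1 : e 1 = 0 := by
    have := he 1 1
    rw [mul_one] at this
    exact left_eq_add.mp this
  obtain ⟨T, hT⟩ : ∃ T : P → F, ∀ x, T x = e ⟨x * x, hsq x⟩ := ⟨_, fun _ => rfl⟩
  obtain ⟨K, hK⟩ : ∃ K : P → P → F, ∀ x y, K x y = e ⟨x⁻¹ * y⁻¹ * x * y, hk x y⟩ :=
    ⟨_, fun _ _ => rfl⟩
  have hTmul : ∀ x y, T (x * y) = T x + T y + K y x := by
    intro x y
    rw [hT, hT, hT, hK, ← he, ← he]
    congr 1
    exact Subtype.ext (sq_mul_of_central (hk y x).1)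
  have hKmul : ∀ z x y, K z (x * y) = K z y + K z x := by
    intro z x y
    rw [hK, hK, hK, ← he]
    congr 1
    exact Subtype.ext (comm_mul_of_central (hk z x).1)
  have hTcongr : ∀ x x' : P, (QuotientGroup.mk x : P ⧸ Z0 P) = QuotientGroup.mk x' → T x = T x' := by
    intro x x' hxx
    rw [QuotientGroup.eq] at hxx
    obtain ⟨z, hz⟩ : ∃ z, z = x⁻¹ * x' := ⟨_, rfl⟩
    rw [← hz] at hxx
    have hx' : x' = x * z := by rw [hz]; group
    rw [hT, hT]
    congr 1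
    apply Subtype.ext
    show x * x = x' * x'
    have hzc : x * z = z * x := Subgroup.mem_center_iff.mp hxx.1 x
    rw [hx']
    calc x * x = x * x * (z * z) := by rw [hxx.2, mul_one]
      _ = x * (x * z) * z := by group
      _ = x * (z * x) * z := by rw [hzc]
      _ = x * z * (x * z) := by group
  let S : F → F := fun v => T (Quotient.out (eV.symm v))
  have hS : ∀ x : P, S (eV (QuotientGroup.mk x)) = T x := by
    intro x
    show T (Quotient.out (eV.symm (eV (QuotientGroup.mk x)))) = T x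
    apply hTcongr
    rw [Equiv.symm_apply_apply]
    exact Quotient.out_eq' _
  have hsurj : ∀ v : F, ∃ x : P, v = eV (QuotientGroup.mk x) := by
    intro v
    obtain ⟨x, hx⟩ := QuotientGroup.mk_surjective (eV.symm v)
    exact ⟨x, by rw [hx]; simp⟩
  refine ⟨S, ?_, ?_, ?_, ?_⟩
  · intro x hx
    rw [hS, hT]
  · intro v
    obtain ⟨x, rfl⟩ := hsurj v
    rw [← hem, quotAut_mk, hS, hS, hT, hT, ← hel]
    congr 1
    apply Subtype.ext
    simp
  · intro u v w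
    obtain ⟨x, rfl⟩ := hsurj u
    obtain ⟨y, rfl⟩ := hsurj v
    obtain ⟨z, rfl⟩ := hsurj w
    simp only [← heV, ← QuotientGroup.mk_mul, hS]
    rw [hTmul (x * y) z, hKmul, hTmul x y, hTmul x z, hTmul y z]
    linear_combination (2 * T x + 2 * T y + 2 * T z + K y x + K z y + K z x) * h2
  · obtain ⟨x, y, hxy⟩ := hna
    refine ⟨eV (QuotientGroup.mk x), eV (QuotientGroup.mk y), ?_⟩
    simp only [← heV, ← QuotientGroup.mk_mul, hS]
    rw [hTmul]
    intro hcon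
    have h0 : K y x = 0 := by linear_combination hcon
    rw [hK, ← e1] at h0
    have h3 := congrArg Subtype.val (e.injective h0)
    apply hxy
    have h4 : y⁻¹ * x⁻¹ * y * x = 1 := h3
    calc x * y = x * y * (y⁻¹ * x⁻¹ * y * x) := by rw [h4, mul_one]
      _ = y * x := by group

end Cfsg.Agent.Lib.Helper28SzSqMap
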