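import Mathlib
import Cfsg.Agent.Lib.Helper28SzDefs
import Cfsg.Agent.Lib.Helper28SzBasic

set_option autoImplicit false

namespace Cfsg.Agent.Lib.Helper28SzVTrans

open Cfsg.Agent.Lib.Helper28SzDefs Cfsg.Agent.Lib.Helper28SzBasic

variable {P : Type*} [Group P] {ξ : MulAut P}

theorem card_quot (h : SzAct P ξ) (hcard : Nat.card P = Nat.card (Z0 P) ^ 2) :
    Nat.card (P ⧸ Z0 P) = orderOf ξ + 1 := by
  have := h.fin
  have h1 := Subgroup.card_eq_card_quotient_mul_card_subgroup (Z0 P)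
  rw [hcard, sq] at h1
  have hpos : 0 < Nat.card (Z0 P) := Nat.card_pos
  have h2 := Nat.eq_of_mul_eq_mul_right hpos h1
  rw [← h2, card_Z0 h]

theorem quot_trans (h : SzAct P ξ) (hcard : Nat.card P = Nat.card (Z0 P) ^ 2) :
    ∀ a b : P ⧸ Z0 P, a ≠ 1 → b ≠ 1 → ∃ k : ℕ, (quotAut ξ ^ k) a = b := by
  intro a b ha hb
  have := h.fin
  obtain ⟨x, rfl⟩ := QuotientGroup.mk_surjective a
  have hx : x ∉ Z0 P := fun hx => ha ((QuotientGroup.eq_one_iff x).mpr hx)
  let g : Option (Fin (orderOf ξ)) → P ⧸ Z0 P := fun o =>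
    match o with
    | none => 1
    | some i => (quotAut ξ ^ (i : ℕ)) (QuotientGroup.mk x)
  have hne : ∀ k : ℕ, (quotAut ξ ^ k) (QuotientGroup.mk x : P ⧸ Z0 P) ≠ 1 := by
    intro k hk
    apply ha
    have := congrArg ((quotAut ξ ^ k)⁻¹) hk
    simpa using this
  have hinj : Function.Injective g := by
    intro a b hab
    match a, b with
    | none, none => rfl
    | none, some j => exact absurd hab.symm (hne j)
    | some i, none => exact absurd hab (hne i)
    | some i, some j =>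
      have h1 : (quotAut ξ ^ (i : ℕ)) (QuotientGroup.mk x : P ⧸ Z0 P) =
          (quotAut ξ ^ (j : ℕ)) (QuotientGroup.mk x) := hab
      have h2 : (quotAut ξ ^ (orderOf ξ - i + j)) (QuotientGroup.mk x : P ⧸ Z0 P) =
          QuotientGroup.mk x := by
        rw [pow_add, MulAut.mul_apply, ← h1, ← MulAut.mul_apply, ← pow_add,
          Nat.sub_add_cancel i.2.le, quotAut_pow_mk, pow_orderOf_eq_one, MulAut.one_apply]
      rw [quotAut_pow_mk] at h2
      have h3 : x⁻¹ * (ξ ^ (orderOf ξ - i + j)) x ∈ Z0 P := QuotientGroup.eq.mp h2.symm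
      have h4 := eq_of_pow_eq_one i.2 j.2 (fpf_quot h _ hx h3)
      rw [Fin.ext h4]
  have hbij : Function.Bijective g := by
    apply hinj.bijective_of_nat_card_le
    rw [card_quot h hcard, Finite.card_option, Nat.card_fin]
  obtain ⟨o, ho⟩ := hbij.2 b
  match o, ho with
  | none, ho => exact absurd ho.symm hb
  | some i, ho => exact ⟨i, ho⟩

theorem quot_exp_two (h : SzAct P ξ) (hcard : Nat.card P = Nat.card (Z0 P) ^ 2) :
    ∀ a : P ⧸ Z0 P, a * a = 1 := by
  intro a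
  by_cases ha : a = 1
  · rw [ha, one_mul]
  have := h.fin
  have : Fact (Nat.Prime 2) := ⟨Nat.prime_two⟩
  have hq : IsPGroup 2 (P ⧸ Z0 P) := h.pgrp.to_quotient (Z0 P)
  obtain ⟨m, hm⟩ := IsPGroup.iff_orderOf.mp hq a
  have hm0 : m ≠ 0 := by
    rintro rfl
    rw [pow_zero, orderOf_eq_one_iff] at hm
    exact ha hm
  obtain ⟨m, rfl⟩ := Nat.exists_eq_succ_of_ne_zero hm0
  have hb1 : a ^ (2 ^ m) ≠ 1 := by
    intro h1
    have h2 := orderOf_dvd_of_pow_eq_one h1
    rw [hm] at h2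
    have h3 := Nat.le_of_dvd (by positivity) h2
    rw [Nat.succ_eq_add_one, pow_succ] at h3
    have : 0 < 2 ^ m := by positivity
    omega
  have hb2 : a ^ (2 ^ m) * a ^ (2 ^ m) = 1 := by
    rw [← pow_add, ← two_mul, mul_comm, ← pow_succ, ← Nat.succ_eq_add_one, ← hm,
      pow_orderOf_eq_one]
  obtain ⟨k, hk⟩ := quot_trans h hcard _ a hb1 ha
  rw [← hk, ← map_mul, hb2, map_one]

end Cfsg.Agent.Lib.Helper28SzVTrans
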