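import Mathlib
import Cfsg.Agent.Lib.Helper73Frattini
import Cfsg.Agent.Lib.Helper7SL

set_option autoImplicit false
set_option linter.unusedSectionVars false

/-! Zassenhaus: the insoluble sharply doubly transitive groups (from the structure theorem). -/

namespace Cfsg.Agent.Lib.Helper28Za689

open Subgroup

section lin

variable {p : ℕ} [Fact p.Prime] {V : Type*} [AddCommGroup V] [Module (ZMod p) V] [Finite V]

/-- a quaternion pair splits the space in two halves -/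
theorem exists_half (h2 : (2 : ZMod p) ≠ 0) (i j : V →ₗ[ZMod p] V) (hi : ∀ v, i (i v) = -v)
    (hj : ∀ v, j (j v) = -v) (hij : ∀ v, i (j v) = -(j (i v))) :
    ∃ W : Submodule (ZMod p) V, Nat.card V = Nat.card W ^ 2 ∧
      ∀ m : V →ₗ[ZMod p] V, (∀ v, m (i v) = i (m v)) → (∀ v, m (j v) = j (m v)) →
        ∀ w ∈ W, m w ∈ W := by
  obtain ⟨a, b, hab⟩ := ZMod.sq_add_sq p (-1 : ZMod p)
  obtain ⟨t, ht⟩ : ∃ t : V →ₗ[ZMod p] V, ∀ v, t v = a • i v + b • j v :=
    ⟨a • i + b • j, fun v => rfl⟩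
  have hji : ∀ v, j (i v) = -(i (j v)) := fun v => by rw [hij, neg_neg]
  have htt : ∀ v, t (t v) = v := by
    intro v
    rw [ht (t v), ht v]
    simp only [map_add, map_smul, hi, hj, hji]
    have : a • (a • -v + b • i (j v)) + b • (a • -i (j v) + b • -v) = (-(a ^ 2 + b ^ 2)) • v := by
      module
    rw [this, hab, neg_neg, one_smul]
  have htk : ∀ v, t (i (j v)) = -(i (j (t v))) := by
    intro v
    rw [ht (i (j v)), ht v]
    simp only [map_add, map_smul, hi, hj, hji, map_neg]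
    module
  have hkk : ∀ v, i (j (i (j v))) = -v := by
    intro v
    rw [hji, map_neg, hi, neg_neg, hj]
  refine ⟨LinearMap.ker (t - LinearMap.id), ?_, ?_⟩
  · have hmem : ∀ w, w ∈ LinearMap.ker (t - LinearMap.id) ↔ t w = w := by
      intro w
      rw [LinearMap.mem_ker, LinearMap.sub_apply, LinearMap.id_apply, sub_eq_zero]
    have hbij : Function.Bijective (fun x : LinearMap.ker (t - LinearMap.id) ×
        LinearMap.ker (t - LinearMap.id) => (x.1 : V) + i (j (x.2 : V))) := by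
      constructor
      · rintro ⟨⟨w₁, h₁⟩, ⟨w₂, h₂⟩⟩ ⟨⟨w₁', h₁'⟩, ⟨w₂', h₂'⟩⟩ he
        simp only at he
        rw [hmem] at h₁ h₂ h₁' h₂'
        have he2 := congrArg t he
        rw [map_add, map_add, htk, htk, h₁, h₂, h₁', h₂'] at he2
        have h3 : (2 : ZMod p) • w₁ = (2 : ZMod p) • w₁' := by
          have e1 : (2 : ZMod p) • w₁ = (w₁ + i (j w₂)) + (w₁ + -i (j w₂)) := by module
          have e2 : (2 : ZMod p) • w₁' = (w₁' + i (j w₂')) + (w₁' + -i (j w₂')) := by module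
          rw [e1, e2, he, he2]
        have h4 : w₁ = w₁' := by
          have := congrArg (fun x => (2 : ZMod p)⁻¹ • x) h3
          simpa [smul_smul, inv_mul_cancel₀ h2] using this
        subst h4
        have h5 : i (j w₂) = i (j w₂') := add_left_cancel he
        have h6 := congrArg (fun x => i (j x)) h5
        simp only [hkk] at h6
        have h7 : w₂ = w₂' := neg_injective h6
        subst h7
        rfl
      · intro v
        have hw1 : (2 : ZMod p)⁻¹ • (v + t v) ∈ LinearMap.ker (t - LinearMap.id) := by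
          rw [hmem, map_smul, map_add, htt, add_comm]
        have hw2 : -(i (j ((2 : ZMod p)⁻¹ • (v - t v)))) ∈ LinearMap.ker (t - LinearMap.id) := by
          rw [hmem, map_neg, htk, map_smul t, map_sub, htt]
          simp only [map_smul, map_sub]
          module
        refine ⟨(⟨_, hw1⟩, ⟨_, hw2⟩), ?_⟩
        simp only
        rw [map_neg, map_neg, hkk, neg_neg]
        have : (2 : ZMod p)⁻¹ • (v + t v) + (2 : ZMod p)⁻¹ • (v - t v)
            = ((2 : ZMod p)⁻¹ * 2) • v := by module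
        rw [this, inv_mul_cancel₀ h2, one_smul]
    rw [← Nat.card_congr (Equiv.ofBijective _ hbij), Nat.card_prod, pow_two]
  · intro m hmi hmj w hw
    rw [LinearMap.mem_ker, LinearMap.sub_apply, LinearMap.id_apply, sub_eq_zero] at hw ⊢
    have h1 : m (t w) = t (m w) := by
      rw [ht, ht, map_add, map_smul, map_smul, hmi, hmj]
    rw [← h1, hw]

end lin

theorem arith {x m idx : ℕ} (hm : m ∣ x - 1) (hx : 2 ≤ x) (hidx : idx = 1 ∨ idx = 2)
    (hcop : m.Coprime 30) (h : x ^ 2 - 1 = idx * (120 * m)) (h119 : x ≠ 119) :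
    idx = 1 ∧ ((x = 11 ∧ m = 1) ∨ (x = 29 ∧ m = 7) ∨ (x = 59 ∧ m = 29)) := by
  obtain ⟨r, hr⟩ := hm
  have hm0 : 0 < m := by
    rcases Nat.eq_zero_or_pos m with h0 | h0
    · subst h0; simp at hcop
    · exact h0
  have h2 : ¬ 2 ∣ m := fun hd => by
    have := Nat.dvd_gcd hd (by norm_num : 2 ∣ 30)
    rw [hcop] at this; omega
  have h3 : ¬ 3 ∣ m := fun hd => by
    have := Nat.dvd_gcd hd (by norm_num : 3 ∣ 30)
    rw [hcop] at this; omega
  have h5 : ¬ 5 ∣ m := fun hd => by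
    have := Nat.dvd_gcd hd (by norm_num : 5 ∣ 30)
    rw [hcop] at this; omega
  have hfac : x ^ 2 - 1 = (x - 1) * (x + 1) := by
    obtain ⟨y, rfl⟩ : ∃ y, x = y + 1 := ⟨x - 1, by omega⟩
    have : (y + 1) ^ 2 = (y + 1 - 1) * (y + 1 + 1) + 1 := by
      simp only [Nat.add_sub_cancel]; ring
    omega
  have h6 : r * (x + 1) = idx * 120 := by
    rw [hfac, hr] at h
    have : m * (r * (x + 1)) = m * (idx * 120) := by
      rw [← mul_assoc, h]; ring
    exact Nat.eq_of_mul_eq_mul_left hm0 this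
  have hr0 : 0 < r := by
    rcases Nat.eq_zero_or_pos r with h0 | h0
    · subst h0; omega
    · exact h0
  have hr240 : r ≤ 80 := by
    have : r * 3 ≤ r * (x + 1) := Nat.mul_le_mul_left r (by omega)
    rcases hidx with rfl | rfl <;> omega
  rw [mul_comm] at hr
  rcases hidx with rfl | rfl <;> interval_cases r <;> omega

theorem card_ne' {α : Type*} [Finite α] (a : α) : Nat.card {x : α // x ≠ a} + 1 = Nat.card α := by
  have := Fintype.ofFinite α
  classical
  rw [Nat.card_eq_fintype_card, Nat.card_eq_fintype_card, Fintype.card_subtype_compl]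
  simp only [Fintype.card_unique]
  have : 0 < Fintype.card α := Fintype.card_pos_iff.mpr ⟨a⟩
  omega

abbrev SL25 := Matrix.SpecialLinearGroup (Fin 2) (ZMod 5)

def I5 : SL25 := ⟨!![2, 0; 0, 3], by rw [Matrix.det_fin_two_of]; decide⟩
def J5 : SL25 := ⟨!![0, 1; 4, 0], by rw [Matrix.det_fin_two_of]; decide⟩
def Z5 : SL25 := ⟨!![4, 0; 0, 4], by rw [Matrix.det_fin_two_of]; decide⟩

theorem I5_sq : I5 * I5 = Z5 := by decide
theorem J5_sq : J5 * J5 = Z5 := by decide
theorem I5_J5 : I5 * J5 = Z5 * (J5 * I5) := by decide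
theorem Z5_sq : Z5 * Z5 = 1 := by decide
theorem Z5_ne : Z5 ≠ 1 := by decide

theorem card_SL25 : Nat.card SL25 = 120 := by
  have : Fact (Nat.Prime 5) := ⟨by norm_num⟩
  rw [Helper7SL.card_SL_two, ZMod.card]
  norm_num

section main

variable {p : ℕ} [Fact p.Prime] {V : Type*} [AddCommGroup V] [Module (ZMod p) V] [Finite V]

theorem main_of_structure (H : Subgroup (V ≃ₗ[ZMod p] V))
    (hreg : ∀ v w : V, v ≠ 0 → w ≠ 0 → ∃! h : H, (h : V ≃ₗ[ZMod p] V) v = w)
    (hstr : ∃ S M : Subgroup H, S.Normal ∧ M.Normal ∧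
      ((S ⊔ M).index = 1 ∨ (S ⊔ M).index = 2) ∧
      S ⊓ M = ⊥ ∧ (∀ s ∈ S, ∀ x ∈ M, s * x = x * s) ∧
      Nonempty (S ≃* Matrix.SpecialLinearGroup (Fin 2) (ZMod 5)) ∧
      (∀ (p : ℕ) [Fact p.Prime] (P : Sylow p M), IsCyclic P) ∧ (Nat.card M).Coprime 30) :
    (Nat.card V = 121 ∧ Nonempty (H ≃* Matrix.SpecialLinearGroup (Fin 2) (ZMod 5))) ∨
    (Nat.card V = 841 ∧ Nonempty (H ≃* Matrix.SpecialLinearGroup (Fin 2) (ZMod 5) ×
      Multiplicative (ZMod 7))) ∨
    (Nat.card V = 3481 ∧ Nonempty (H ≃* Matrix.SpecialLinearGroup (Fin 2) (ZMod 5) ×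
      Multiplicative (ZMod 29))) := by
  obtain ⟨S, M, -, -, hidx, hSM, hcomm, ⟨e⟩, -, hcop⟩ := hstr
  have hfin : Finite (V ≃ₗ[ZMod p] V) :=
    Finite.of_injective (fun e => (e : V → V)) DFunLike.coe_injective
  have hfpf : ∀ h : H, h ≠ 1 → ∀ v : V, (h : V ≃ₗ[ZMod p] V) v = v → v = 0 := by
    intro h hh v hv
    by_contra hv0
    obtain ⟨g, -, hu⟩ := hreg v v hv0 hv0
    exact hh ((hu h hv).trans (hu 1 rfl).symm)
  have happ : ∀ (a b : H) (v : V), ((a * b : H) : V ≃ₗ[ZMod p] V) v =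
      (a : V ≃ₗ[ZMod p] V) ((b : V ≃ₗ[ZMod p] V) v) := fun a b v => rfl
  obtain ⟨z, hz⟩ : ∃ z : H, z = ((e.symm Z5 : S) : H) := ⟨_, rfl⟩
  obtain ⟨i, hi⟩ : ∃ i : H, i = ((e.symm I5 : S) : H) := ⟨_, rfl⟩
  obtain ⟨j, hj⟩ : ∃ j : H, j = ((e.symm J5 : S) : H) := ⟨_, rfl⟩
  have hiS : i ∈ S := hi ▸ (e.symm I5).2
  have hjS : j ∈ S := hj ▸ (e.symm J5).2
  have hz1 : z ≠ 1 := by
    intro h
    rw [hz] at h
    have h1 : e.symm Z5 = 1 := Subtype.ext h
    rw [MulEquiv.map_eq_one_iff] at h1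
    exact Z5_ne h1
  have hzz : z * z = 1 := by
    rw [hz, ← Subgroup.coe_mul, ← map_mul, Z5_sq, map_one]; rfl
  have hii : i * i = z := by
    rw [hz, hi, ← Subgroup.coe_mul, ← map_mul, I5_sq]
  have hjj : j * j = z := by
    rw [hz, hj, ← Subgroup.coe_mul, ← map_mul, J5_sq]
  have hij : i * j = z * (j * i) := by
    rw [hz, hi, hj, ← Subgroup.coe_mul, ← Subgroup.coe_mul, ← Subgroup.coe_mul, ← map_mul,
      ← map_mul, ← map_mul, I5_J5]
  have hzneg : ∀ v, (z : V ≃ₗ[ZMod p] V) v = -v := by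
    intro v
    have h0 : (z : V ≃ₗ[ZMod p] V) ((z : V ≃ₗ[ZMod p] V) v) = v := by
      rw [← happ, hzz]; rfl
    have h1 : (z : V ≃ₗ[ZMod p] V) (v + (z : V ≃ₗ[ZMod p] V) v) =
        v + (z : V ≃ₗ[ZMod p] V) v := by
      rw [map_add, h0, add_comm]
    exact eq_neg_of_add_eq_zero_right (hfpf z hz1 _ h1)
  obtain ⟨v₀, hv₀⟩ : ∃ v : V, v ≠ 0 := by
    by_contra hcon
    push Not at hcon
    apply hz1
    apply Subtype.ext
    ext v
    rw [hcon v]
    simp
  have hcardH : Nat.card H + 1 = Nat.card V := by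
    rw [← card_ne' (0 : V)]
    congr 1
    apply Nat.card_congr
    refine Equiv.ofBijective (fun h : H => (⟨(h : V ≃ₗ[ZMod p] V) v₀, fun h0 => hv₀ (by
      simpa using h0)⟩ : {x : V // x ≠ 0})) ⟨?_, ?_⟩
    · intro a b hab
      have h1 : (a : V ≃ₗ[ZMod p] V) v₀ = (b : V ≃ₗ[ZMod p] V) v₀ := congrArg Subtype.val hab
      obtain ⟨g, -, hu⟩ := hreg v₀ ((b : V ≃ₗ[ZMod p] V) v₀) hv₀ (fun h0 => hv₀ (by simpa using h0))
      exact (hu a h1).trans (hu b rfl).symm
    · rintro ⟨w, hw⟩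
      obtain ⟨g, hg, -⟩ := hreg v₀ w hv₀ hw
      exact ⟨g, Subtype.ext hg⟩
  have h2 : (2 : ZMod p) ≠ 0 := by
    intro h20
    have h1 : v₀ + v₀ = 0 := by rw [← two_smul (ZMod p), h20, zero_smul]
    have h3 : (z : V ≃ₗ[ZMod p] V) v₀ = v₀ := by
      rw [hzneg]; exact (eq_neg_of_add_eq_zero_left h1).symm
    exact hv₀ (hfpf z hz1 v₀ h3)
  obtain ⟨W, hVW, hWinv⟩ := exists_half h2 ((i : V ≃ₗ[ZMod p] V) : V →ₗ[ZMod p] V)
    ((j : V ≃ₗ[ZMod p] V) : V →ₗ[ZMod p] V)
    (fun v => by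
      show (i : V ≃ₗ[ZMod p] V) ((i : V ≃ₗ[ZMod p] V) v) = -v
      rw [← happ, hii, hzneg])
    (fun v => by
      show (j : V ≃ₗ[ZMod p] V) ((j : V ≃ₗ[ZMod p] V) v) = -v
      rw [← happ, hjj, hzneg])
    (fun v => by
      show (i : V ≃ₗ[ZMod p] V) ((j : V ≃ₗ[ZMod p] V) v) =
        -((j : V ≃ₗ[ZMod p] V) ((i : V ≃ₗ[ZMod p] V) v))
      rw [← happ, hij, happ, hzneg, happ])
  have hMW : ∀ m : M, ∀ w ∈ W, ((m : H) : V ≃ₗ[ZMod p] V) w ∈ W := by
    intro m w hw
    refine hWinv (((m : H) : V ≃ₗ[ZMod p] V) : V →ₗ[ZMod p] V) ?_ ?_ w hw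
    · intro v
      show ((m : H) : V ≃ₗ[ZMod p] V) ((i : V ≃ₗ[ZMod p] V) v) =
        (i : V ≃ₗ[ZMod p] V) (((m : H) : V ≃ₗ[ZMod p] V) v)
      rw [← happ, ← happ, hcomm i hiS m m.2]
    · intro v
      show ((m : H) : V ≃ₗ[ZMod p] V) ((j : V ≃ₗ[ZMod p] V) v) =
        (j : V ≃ₗ[ZMod p] V) (((m : H) : V ≃ₗ[ZMod p] V) v)
      rw [← happ, ← happ, hcomm j hjS m m.2]
  let act : MulAction M {w : W // w ≠ 0} :=
    { smul := fun m w => ⟨⟨((m : H) : V ≃ₗ[ZMod p] V) (w : W), hMW m _ (w : W).2⟩, fun h0 => w.2 (by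
        have h1 : ((m : H) : V ≃ₗ[ZMod p] V) ((w : W) : V) = 0 := congrArg Subtype.val h0
        apply Subtype.ext
        simpa using h1)⟩
      one_smul := fun w => rfl
      mul_smul := fun a b w => rfl }
  have hMdvd : Nat.card M ∣ Nat.card W - 1 := by
    have h1 : Nat.card M ∣ Nat.card {w : W // w ≠ 0} := by
      apply Helper73Frattini.card_dvd_of_free
      intro m w hmw
      have h3 : ((m : H) : V ≃ₗ[ZMod p] V) ((w : W) : V) = ((w : W) : V) :=
        congrArg (fun y : {w : W // w ≠ 0} => ((y : W) : V)) hmw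
      by_contra hm1
      have h4 := hfpf (m : H) (fun h => hm1 (Subtype.ext h)) _ h3
      exact w.2 (Subtype.ext h4)
    have h3 := card_ne' (0 : W)
    have h4 : Nat.card W - 1 = Nat.card {w : W // w ≠ 0} := by omega
    rw [h4]; exact h1
  have hcomm' : ∀ (s : S) (m : M), Commute (S.subtype s) (M.subtype m) :=
    fun s m => hcomm s s.2 m m.2
  let φ : S × M →* H := MonoidHom.noncommCoprod S.subtype M.subtype hcomm'
  have hφinj : Function.Injective φ := by
    rw [injective_iff_map_eq_one]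
    rintro ⟨s, m⟩ hsm
    have h1 : (s : H) * (m : H) = 1 := hsm
    have h3 : (s : H) = (m : H)⁻¹ := eq_inv_of_mul_eq_one_left h1
    have h4 : (s : H) ∈ S ⊓ M := ⟨s.2, by rw [h3]; exact M.inv_mem m.2⟩
    rw [hSM, mem_bot] at h4
    have h5 : (m : H) = 1 := by rw [h4, one_mul] at h1; exact h1
    exact Prod.ext (Subtype.ext h4) (Subtype.ext h5)
  have hφrange : φ.range = S ⊔ M := by
    show (MonoidHom.noncommCoprod S.subtype M.subtype hcomm').range = _
    rw [MonoidHom.noncommCoprod_range, Subgroup.range_subtype, Subgroup.range_subtype]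
  have hcardSM : Nat.card (S ⊔ M : Subgroup H) = 120 * Nat.card M := by
    rw [← hφrange, ← Nat.card_congr (MonoidHom.ofInjective hφinj).toEquiv, Nat.card_prod,
      Nat.card_congr e.toEquiv, card_SL25]
  have hcardH2 : Nat.card H = (S ⊔ M).index * (120 * Nat.card M) := by
    rw [← hcardSM, mul_comm, Subgroup.card_mul_index]
  have hVgt : 1 < Nat.card V := by
    have : Nontrivial V := ⟨⟨v₀, 0, hv₀⟩⟩
    exact Finite.one_lt_card
  have hx2 : 2 ≤ Nat.card W := by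
    by_contra hlt
    have h1 : Nat.card W ≤ 1 := by omega
    have h3 : Nat.card W ^ 2 ≤ 1 ^ 2 := Nat.pow_le_pow_left h1 2
    omega
  have h119 : Nat.card W ≠ 119 := by
    intro h
    have h1 : Nat.card W = p ^ Module.finrank (ZMod p) W := by
      rw [Module.natCard_eq_pow_finrank (K := ZMod p) (V := W), Nat.card_zmod]
    rw [h] at h1
    have hp : p.Prime := Fact.out
    have h7 : 7 ∣ p := Nat.Prime.dvd_of_dvd_pow (by norm_num) (h1 ▸ (by norm_num : 7 ∣ 119))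
    have h17 : 17 ∣ p := Nat.Prime.dvd_of_dvd_pow (by norm_num) (h1 ▸ (by norm_num : 17 ∣ 119))
    have e7 := (Nat.prime_dvd_prime_iff_eq (by norm_num) hp).mp h7
    have e17 := (Nat.prime_dvd_prime_iff_eq (by norm_num) hp).mp h17
    omega
  obtain ⟨hidx1, hcases⟩ := arith hMdvd hx2 hidx hcop (by rw [← hVW, ← hcardH2]; omega) h119
  have htop : S ⊔ M = ⊤ := Subgroup.index_eq_one.mp hidx1
  have hφsurj : Function.Surjective φ := by
    rw [← MonoidHom.range_eq_top, hφrange, htop]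
  let E : H ≃* SL25 × M :=
    (MulEquiv.ofBijective φ ⟨hφinj, hφsurj⟩).symm.trans (MulEquiv.prodCongr e (MulEquiv.refl M))
  rcases hcases with ⟨hx, hm⟩ | ⟨hx, hm⟩ | ⟨hx, hm⟩
  · left
    refine ⟨by rw [hVW, hx]; norm_num, ?_⟩
    obtain ⟨hsub, ⟨m0⟩⟩ := Nat.card_eq_one_iff_unique.mp hm
    have : Unique M := ⟨⟨m0⟩, fun a => Subsingleton.elim _ _⟩
    exact ⟨E.trans MulEquiv.prodUnique⟩
  · right; left
    refine ⟨by rw [hVW, hx]; norm_num, ?_⟩
    have : Fact (Nat.Prime 7) := ⟨by norm_num⟩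
    exact ⟨E.trans (MulEquiv.prodCongr (MulEquiv.refl _) (mulEquivOfPrimeCardEq (p := 7) hm
      ((Nat.card_congr Multiplicative.toAdd).trans (Nat.card_zmod 7))))⟩
  · right; right
    refine ⟨by rw [hVW, hx]; norm_num, ?_⟩
    have : Fact (Nat.Prime 29) := ⟨by norm_num⟩
    exact ⟨E.trans (MulEquiv.prodCongr (MulEquiv.refl _) (mulEquivOfPrimeCardEq (p := 29) hm
      ((Nat.card_congr Multiplicative.toAdd).trans (Nat.card_zmod 29))))⟩

end main

end Cfsg.Agent.Lib.Helper28Za689
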