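import Mathlib
import Cfsg.Prelude.Def_GeometricClasses

set_option autoImplicit false
set_option linter.unusedSectionVars false

/-! Row S5958 (project 94, wave 3), piece I-L0. -/

namespace Cfsg.Agent.Lib.Helper29ImpL0

open Module Polynomial Cfsg.Geo

variable {F : Type*} [Field F] {n : ℕ}

section L
variable {a t : ℕ} (r : ℕ) [Fact r.Prime] (f : Module.End F (Fin n → F)) (hf : f ^ r = 1)
  (D : Fin t → Submodule F (Fin n → F)) (hD : IsMDecomposition a D) (σ : Equiv.Perm (Fin t))
  (hσ : ∀ j, (D j).map f = D (σ j))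

include hD in
theorem dec_injective : Function.Injective D := by
  apply hD.indep.injective
  intro i hi
  have h1 := hD.finrank_eq i
  rw [hi, finrank_bot] at h1
  have h2 := hD.pos
  omega

include hσ in
theorem map_pow (k : ℕ) (j : Fin t) : (D j).map (f ^ k) = D ((σ ^ k) j) := by
  induction k with
  | zero =>
    rw [pow_zero, pow_zero, Module.End.one_eq_id, Submodule.map_id]
    rfl
  | succ k ih =>
    rw [pow_succ', Module.End.mul_eq_comp, Submodule.map_comp, ih, hσ, pow_succ',
      Equiv.Perm.mul_apply]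

include hf hD hσ in
theorem sigma_pow : σ ^ r = 1 := by
  ext j
  have h1 := map_pow f D σ hσ r j
  rw [hf, Module.End.one_eq_id, Submodule.map_id] at h1
  rw [← dec_injective D hD h1]
  rfl

include hf hD hσ in
theorem pow_inj_aux (j : Fin t) (hj : σ j ≠ j) (k m : ℕ) (hk' : k + m < r)
    (h : (σ ^ k) j = (σ ^ (k + m)) j) : m = 0 := by
  by_contra hm
  have hr : r.Prime := Fact.out
  have h1 : (σ ^ m) j = j := by
    rw [pow_add, Equiv.Perm.mul_apply] at h
    exact ((σ ^ k).injective h).symm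
  have hcop : Nat.Coprime m r := by
    rw [Nat.coprime_comm, hr.coprime_iff_not_dvd]
    intro hdvd
    have := Nat.le_of_dvd (Nat.pos_of_ne_zero hm) hdvd
    omega
  obtain ⟨u, -, hu⟩ := Nat.exists_mul_mod_eq_one_of_coprime hcop hr.one_lt
  have h2 : σ ^ (m * u) = σ := by
    rw [pow_eq_pow_mod (m * u) (sigma_pow r f hf D hD σ hσ), hu, pow_one]
  apply hj
  have h3 := Equiv.Perm.pow_apply_eq_self_of_apply_eq_self h1 u
  rw [← pow_mul, h2] at h3
  exact h3

include hf hD hσ in
theorem pow_inj (j : Fin t) (hj : σ j ≠ j) (k k' : ℕ) (hk : k < r) (hk' : k' < r)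
    (h : (σ ^ k) j = (σ ^ k') j) : k = k' := by
  rcases le_total k k' with hle | hle
  · obtain ⟨m, rfl⟩ := Nat.exists_eq_add_of_le hle
    have := pow_inj_aux r f hf D hD σ hσ j hj k m hk' h
    omega
  · obtain ⟨m, rfl⟩ := Nat.exists_eq_add_of_le hle
    have := pow_inj_aux r f hf D hD σ hσ j hj k' m hk h.symm
    omega

include hf hD hσ in
/-- the vectors `f ^ k v`, `k < r`, are linearly independent for `0 ≠ v ∈ D j`, `σ j ≠ j` -/
theorem li_orbit (j : Fin t) (hj : σ j ≠ j) (v : Fin n → F) (hv : v ∈ D j) (hv0 : v ≠ 0) :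
    LinearIndependent F (fun k : Fin r => (f ^ (k : ℕ)) v) := by
  have hinj : Function.Injective (fun k : Fin r => (σ ^ (k : ℕ)) j) := by
    intro k k' h
    exact Fin.ext (pow_inj r f hf D hD σ hσ j hj k k' k.2 k'.2 h)
  have hind : iSupIndep (D ∘ fun k : Fin r => (σ ^ (k : ℕ)) j) := hD.indep.comp hinj
  apply hind.linearIndependent
  · intro k
    show (f ^ (k : ℕ)) v ∈ D ((σ ^ (k : ℕ)) j)
    rw [← map_pow f D σ hσ]
    exact Submodule.mem_map_of_mem hv
  · intro k h0
    apply hv0
    have h1 : (f ^ (r - (k : ℕ))) ((f ^ (k : ℕ)) v) = v := by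
      rw [← Module.End.mul_apply, ← pow_add, Nat.sub_add_cancel k.2.le, hf]
      rfl
    rw [← h1, h0, map_zero]

end L

end Cfsg.Agent.Lib.Helper29ImpL0
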