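import Mathlib
import Cfsg.Prelude.Def_GeometricClasses
import Cfsg.Agent.Lib.Helper29ImpL0

set_option autoImplicit false
set_option linter.unusedSectionVars false

/-! Row S5958 (project 94, wave 3), piece I-C2. -/

namespace Cfsg.Agent.Lib.Helper29ImpC2

open Module Polynomial Cfsg.Geo Cfsg.Agent.Lib.Helper29ImpL0

variable {F : Type*} [Field F] {n : ℕ}

theorem dec_comp {a t : ℕ} {D : Fin t → Submodule F (Fin n → F)} (hD : IsMDecomposition a D)
    (σ : Equiv.Perm (Fin t)) : IsMDecomposition a (fun j => D (σ j)) where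
  two_le := hD.two_le
  pos := hD.pos
  finrank_eq := fun i => hD.finrank_eq _
  indep := hD.indep.comp σ.injective
  iSup_eq_top := by
    rw [← hD.iSup_eq_top]
    exact Equiv.iSup_comp (g := D) σ

theorem factorial_dvd_card_dec [Fintype F] (a t : ℕ) :
    t.factorial ∣ Nat.card {D : Fin t → Submodule F (Fin n → F) // IsMDecomposition a D} := by
  classical
  let _ : MulAction (Equiv.Perm (Fin t))
      {D : Fin t → Submodule F (Fin n → F) // IsMDecomposition a D} :=
    { smul := fun σ D => ⟨fun j => D.1 (σ⁻¹ j), dec_comp D.2 σ⁻¹⟩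
      one_smul := fun D => Subtype.ext (funext fun j => rfl)
      mul_smul := fun σ τ D => Subtype.ext (funext fun j => by
        show D.1 ((σ * τ)⁻¹ j) = D.1 (τ⁻¹ (σ⁻¹ j))
        rw [mul_inv_rev, Equiv.Perm.mul_apply]) }
  have hfree : ∀ D : {D : Fin t → Submodule F (Fin n → F) // IsMDecomposition a D},
      MulAction.stabilizer (Equiv.Perm (Fin t)) D = ⊥ := by
    intro D
    rw [eq_bot_iff]
    intro σ hσ
    rw [MulAction.mem_stabilizer_iff] at hσ
    rw [Subgroup.mem_bot]
    have h1 : ∀ j, D.1 (σ⁻¹ j) = D.1 j := fun j => congrFun (congrArg Subtype.val hσ) j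
    have h2 : σ⁻¹ = 1 := by
      ext j
      rw [dec_injective D.1 D.2 (h1 j)]
      rfl
    exact inv_eq_one.1 h2
  have h := Nat.card_congr (MulAction.selfEquivOrbitsQuotientProd hfree)
  rw [Nat.card_prod, Nat.card_perm, Nat.card_fin] at h
  rw [h]
  exact Dvd.intro_left _ rfl

end Cfsg.Agent.Lib.Helper29ImpC2
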