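import Mathlib
import Cfsg.Prelude.Def_GeometricClasses
import Cfsg.Agent.Lib.Helper29ImpL0

set_option autoImplicit false
set_option linter.unusedSectionVars false

/-! Row S5958 (project 94, wave 3), piece I-L2. -/

namespace Cfsg.Agent.Lib.Helper29ImpL2

open Module Polynomial Cfsg.Geo Cfsg.Agent.Lib.Helper29ImpL0

variable {F : Type*} [Field F] {n : ℕ}

section L
variable {a t : ℕ} (r : ℕ) [Fact r.Prime] (f : Module.End F (Fin n → F)) (hf : f ^ r = 1)
  (D : Fin t → Submodule F (Fin n → F)) (hD : IsMDecomposition a D) (σ : Equiv.Perm (Fin t))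
  (hσ : ∀ j, (D j).map f = D (σ j))

include hf hD hσ in
theorem l2 (j : Fin t) (hj : σ j ≠ j) : a ≤ finrank F ↥(Module.End.eigenspace f 1) := by
  have hr : r.Prime := Fact.out
  have hfN : f * (∑ k ∈ Finset.range r, f ^ k) = ∑ k ∈ Finset.range r, f ^ k := by
    rw [Finset.mul_sum]
    have h1 : ∑ k ∈ Finset.range r, f * f ^ k = ∑ k ∈ Finset.range r, f ^ (k + 1) :=
      Finset.sum_congr rfl (fun k _ => (pow_succ' f k).symm)
    have h2 := Finset.sum_range_succ' (fun k => f ^ k) r
    have h3 := Finset.sum_range_succ (fun k => f ^ k) r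
    rw [h1]
    rw [h3, hf, pow_zero] at h2
    exact (add_right_cancel h2).symm
  have hmem : ∀ v : D j, (∑ k ∈ Finset.range r, f ^ k) (v : Fin n → F) ∈
      Module.End.eigenspace f 1 := by
    intro v
    rw [Module.End.mem_eigenspace_iff, one_smul, ← Module.End.mul_apply, hfN]
  let N : D j →ₗ[F] Module.End.eigenspace f 1 :=
    LinearMap.codRestrict _ ((∑ k ∈ Finset.range r, f ^ k).comp (D j).subtype) hmem
  have hinj : Function.Injective N := by
    rw [← LinearMap.ker_eq_bot, LinearMap.ker_eq_bot']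
    intro v hv
    by_contra hv0
    have hv0' : (v : Fin n → F) ≠ 0 := fun h => hv0 (Subtype.ext h)
    have hli := li_orbit r f hf D hD σ hσ j hj v v.2 hv0'
    rw [Fintype.linearIndependent_iff] at hli
    have h1 : (∑ k ∈ Finset.range r, f ^ k) (v : Fin n → F) = 0 := congrArg Subtype.val hv
    have h2 := hli (fun _ => 1) (by
      simp only [one_smul]
      rw [← Finset.sum_range (fun k => (f ^ k) (v : Fin n → F)), ← h1, LinearMap.sum_apply])
      ⟨0, hr.pos⟩
    exact one_ne_zero h2
  have h := LinearMap.finrank_le_finrank_of_injective hinj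
  rwa [hD.finrank_eq j] at h

end L

end Cfsg.Agent.Lib.Helper29ImpL2
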