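import Mathlib
import Cfsg.Prelude.Def_GeometricClasses
import Cfsg.Agent.Lib.Helper29ImpL0

set_option autoImplicit false
set_option linter.unusedSectionVars false

/-! Row S5958 (project 94, wave 3), piece I-L3. -/

namespace Cfsg.Agent.Lib.Helper29ImpL3

open Module Polynomial Cfsg.Geo Cfsg.Agent.Lib.Helper29ImpL0

variable {F : Type*} [Field F] {n : ℕ}

section L
variable {a t : ℕ} (r : ℕ) [Fact r.Prime] (f : Module.End F (Fin n → F)) (hf : f ^ r = 1)
  (D : Fin t → Submodule F (Fin n → F)) (hD : IsMDecomposition a D) (σ : Equiv.Perm (Fin t))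
  (hσ : ∀ j, (D j).map f = D (σ j))

include hf hD hσ in
theorem l3 (j : Fin t) (hj : σ j ≠ j) (P : F[X]) (hP : P ≠ 0) (hPf : aeval f P = 0) :
    r ≤ P.natDegree := by
  by_contra hlt
  push Not at hlt
  have hne : D j ≠ ⊥ := by
    intro hi
    have h1 := hD.finrank_eq j
    rw [hi, finrank_bot] at h1
    have h2 := hD.pos
    omega
  obtain ⟨v, hv, hv0⟩ := Submodule.exists_mem_ne_zero_of_ne_bot hne
  have hli := li_orbit r f hf D hD σ hσ j hj v hv hv0
  rw [Fintype.linearIndependent_iff] at hli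
  have h1 : (∑ k ∈ Finset.range r, P.coeff k • f ^ k) v = 0 := by
    rw [← Polynomial.aeval_eq_sum_range' hlt, hPf]
    rfl
  have h2 := hli (fun k => P.coeff (k : ℕ)) (by
    rw [← Finset.sum_range (fun k => P.coeff k • (f ^ k) v), ← h1, LinearMap.sum_apply]
    rfl)
  apply hP
  ext k
  rw [Polynomial.coeff_zero]
  by_cases hk : k < r
  · exact h2 ⟨k, hk⟩
  · exact Polynomial.coeff_eq_zero_of_natDegree_lt (by omega)

end L

end Cfsg.Agent.Lib.Helper29ImpL3
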