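import Mathlib
import Cfsg.Prelude.Def_OddOrderLocal
import Cfsg.Agent.Lib.Helper30Trans

/-!
Vocabulary for Bender-Glauberman, Sections 10-12 (project 9).
-/

set_option autoImplicit false

namespace Cfsg.Agent.Lib.Helper2BGDefs

open Cfsg Subgroup

variable {G : Type*} [Group G]

/-- `K` is a `σ(M)'`-group. -/
def SigmaFree (M K : Subgroup G) : Prop :=
  ∀ r : ℕ, r.Prime → r ∣ Nat.card K → r ∉ sigma M

/-- `A ∈ E_p^2(G) ∩ E*_p(G)`: elementary abelian of order `p ^ 2`, maximal among the elementary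
abelian `p`-subgroups of `G`. -/
structure MaxSq (p : ℕ) (A : Subgroup G) : Prop where
  elem : IsElementaryAbelian p A
  card : Nat.card A = p ^ 2
  max : ∀ B : Subgroup G, IsElementaryAbelian p B → A ≤ B → B = A

/-- Hypothesis 11.1 of Bender-Glauberman (`M` is an "exceptional" maximal subgroup):
`p ∉ σ(M)`, `A ∈ E_p^2(M)`, `A₀ ≤ A` of order `p`, `N_G(A₀) ≤ M`. -/
structure Exc (M : Subgroup G) (p : ℕ) (A₀ A : Subgroup G) : Prop where
  notσ : p ∉ sigma M
  le : A ≤ M
  elem : IsElementaryAbelian p A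
  card : Nat.card A = p ^ 2
  le₀ : A₀ ≤ A
  card₀ : Nat.card A₀ = p
  norm : normalizer (A₀ : Set G) ≤ M

end Cfsg.Agent.Lib.Helper2BGDefs
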