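import Mathlib
import Cfsg.Agent.Lib.Helper31Nilpotent
import Cfsg.Agent.Lib.Helper2Conj
import Cfsg.Agent.Lib.Helper2Parts

set_option autoImplicit false

/-! Primary parts of nilpotent subgroups of an ambient finite group, and small general lemmas. -/

namespace Cfsg.Agent.Lib.Helper2KWa

open Subgroup
open scoped Pointwise
open Cfsg.Agent.Lib.Helper31Nilpotent Cfsg.Agent.Lib.Helper2Conj

variable {G : Type*} [Group G]

theorem orderOf_conj (g z : G) : orderOf (g * z * g⁻¹) = orderOf z :=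
  (MulAut.conj g).orderOf_eq z

theorem mem_normalizer_of_forall [Finite G] {H : Subgroup G} {g : G}
    (h : ∀ x ∈ H, g * x * g⁻¹ ∈ H) : g ∈ normalizer (H : Set G) := by
  rw [← conj_smul_eq_iff_mem_normalizer]
  apply Subgroup.eq_of_le_of_card_ge
  · intro x hx
    rw [mem_conj_smul] at hx
    have := h _ hx
    simpa [mul_assoc] using this
  · rw [card_conj_smul]

theorem isNilpotent_of_le {A A' : Subgroup G} (hA : Group.IsNilpotent A) (h : A' ≤ A) :
    Group.IsNilpotent A' :=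
  (Group.isNilpotent_congr (subgroupOfEquivOfLe h)).mp inferInstance

theorem isNilpotent_conj {A : Subgroup G} (hA : Group.IsNilpotent A) (g : G) :
    Group.IsNilpotent (MulAut.conj g • A : Subgroup G) :=
  (Group.isNilpotent_congr (Subgroup.equivSMul (MulAut.conj g) A)).mp hA

/-- the `r`-part of a (nilpotent) subgroup -/
noncomputable def pt (A : Subgroup G) (r : ℕ) : Subgroup G :=
  ((default : Sylow r A) : Subgroup A).map A.subtype

theorem pt_le (A : Subgroup G) (r : ℕ) : pt A r ≤ A := map_subtype_le _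

theorem isPGroup_pt (A : Subgroup G) (r : ℕ) : IsPGroup r (pt A r) :=
  (default : Sylow r A).isPGroup'.map _

theorem mem_pt [Finite G] {A : Subgroup G} (hA : Group.IsNilpotent A) {r : ℕ} [Fact r.Prime]
    {x : G} : x ∈ pt A r ↔ x ∈ A ∧ ∃ k : ℕ, orderOf x = r ^ k := by
  constructor
  · rintro ⟨y, hy, rfl⟩
    refine ⟨y.2, ?_⟩
    obtain ⟨k, hk⟩ := (IsPGroup.iff_orderOf.mp (default : Sylow r A).isPGroup') ⟨y, hy⟩
    refine ⟨k, ?_⟩
    rw [← hk, Subgroup.orderOf_mk]
    simp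
  · rintro ⟨hx, k, hk⟩
    refine ⟨⟨x, hx⟩, ?_, rfl⟩
    exact mem_sylow_of_orderOf _ _ (k := k) (by rw [← hk]; exact Subgroup.orderOf_mk x hx)

theorem card_pt [Finite G] (A : Subgroup G) (r : ℕ) [Fact r.Prime] :
    Nat.card (pt A r) = r ^ (Nat.card A).factorization r := by
  unfold pt
  rw [card_map_of_injective A.subtype_injective]
  exact Sylow.card_eq_multiplicity _

theorem pt_ne_bot [Finite G] {A : Subgroup G} {r : ℕ} [Fact r.Prime] (h : r ∣ Nat.card A) :
    pt A r ≠ ⊥ := by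
  unfold pt
  rw [Ne, Subgroup.map_eq_bot_iff_of_injective _ A.subtype_injective]
  exact Sylow.ne_bot_of_dvd_card _ h

theorem normalizer_le_normalizer_pt [Finite G] {A : Subgroup G} (hA : Group.IsNilpotent A)
    (r : ℕ) [Fact r.Prime] : normalizer (A : Set G) ≤ normalizer (pt A r : Set G) := by
  rw [le_normalizer_iff]
  intro g hg x hx
  rw [mem_pt hA] at hx ⊢
  refine ⟨(le_normalizer_iff.mp le_rfl) g hg x hx.1, ?_⟩
  rw [orderOf_conj]
  exact hx.2

theorem le_normalizer_pt [Finite G] {A : Subgroup G} (hA : Group.IsNilpotent A)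
    (r : ℕ) [Fact r.Prime] : A ≤ normalizer (pt A r : Set G) :=
  le_normalizer.trans (normalizer_le_normalizer_pt hA r)

theorem commute_of_mem_pt [Finite G] {A : Subgroup G} (hA : Group.IsNilpotent A) {r : ℕ}
    [Fact r.Prime] {x y : G} (hx : x ∈ pt A r) (hy : y ∈ A) (hc : (orderOf y).Coprime r) :
    x * y = y * x := by
  obtain ⟨hxA, k, hk⟩ := (mem_pt hA).mp hx
  have := coprime_commute A ⟨x, hxA⟩ ⟨y, hy⟩ (by
    rw [Subgroup.orderOf_mk, Subgroup.orderOf_mk, hk]
    exact (Nat.Coprime.pow_right k hc).symm)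
  exact congrArg Subtype.val this

theorem commute_pt_pt [Finite G] {A : Subgroup G} (hA : Group.IsNilpotent A) {r t : ℕ}
    [hr : Fact r.Prime] [ht : Fact t.Prime] (hrt : r ≠ t) {x y : G} (hx : x ∈ pt A r)
    (hy : y ∈ pt A t) : x * y = y * x := by
  obtain ⟨hyA, k, hk⟩ := (mem_pt hA).mp hy
  apply commute_of_mem_pt hA hx hyA
  rw [hk]
  exact Nat.Coprime.pow_left k ((Nat.coprime_primes ht.out hr.out).mpr hrt.symm)

theorem pt_conj [Finite G] {A : Subgroup G} (hA : Group.IsNilpotent A) (r : ℕ) [Fact r.Prime]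
    (g : G) : pt (MulAut.conj g • A) r = MulAut.conj g • pt A r := by
  ext z
  rw [mem_pt (isNilpotent_conj hA g), mem_conj_smul, mem_conj_smul, mem_pt hA]
  have : orderOf (g⁻¹ * z * g) = orderOf z := by
    have := orderOf_conj g⁻¹ z
    rwa [inv_inv] at this
  rw [this]

theorem pt_mono [Finite G] {A A' : Subgroup G} (hA : Group.IsNilpotent A) (h : A' ≤ A)
    (r : ℕ) [Fact r.Prime] : pt A' r ≤ pt A r := by
  intro x hx
  rw [mem_pt (isNilpotent_of_le hA h)] at hx
  exact (mem_pt hA).mpr ⟨h hx.1, hx.2⟩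

theorem mul_pow_mem {D : Subgroup G} {d β : G} (hd : d ∈ D) (hβ : β ∈ normalizer (D : Set G))
    (n : ℕ) : (d * β) ^ n * (β ^ n)⁻¹ ∈ D := by
  induction n with
  | zero => simp
  | succ n ih =>
    have h1 : β ^ n * d * (β ^ n)⁻¹ ∈ D :=
      (le_normalizer_iff.mp le_rfl) _ (pow_mem hβ n) d hd
    have : (d * β) ^ (n + 1) * (β ^ (n + 1))⁻¹
        = ((d * β) ^ n * (β ^ n)⁻¹) * (β ^ n * d * (β ^ n)⁻¹) := by
      rw [pow_succ, pow_succ]
      group
    rw [this]
    exact D.mul_mem ih h1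

theorem exists_pow_prime_order [Finite G] {x : G} (hx : x ≠ 1) :
    ∃ p : ℕ, p.Prime ∧ p ∣ orderOf x ∧ ∃ k : ℕ, orderOf (x ^ k) = p := by
  have h1 : orderOf x ≠ 1 := by rwa [Ne, orderOf_eq_one_iff]
  obtain ⟨p, hp, hpd⟩ := Nat.exists_prime_and_dvd h1
  exact ⟨p, hp, hpd, _, orderOf_pow_orderOf_div (orderOf_pos x).ne' hpd⟩

theorem exists_central_prime [Finite G] {A : Subgroup G} (hA : Group.IsNilpotent A) {p : ℕ}
    [hp : Fact p.Prime] (h : p ∣ Nat.card A) :
    ∃ a ∈ A, orderOf a = p ∧ ∀ x ∈ A, x * a = a * x := by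
  obtain ⟨z, hz1, ⟨k, hk⟩, hzc⟩ := exists_central_p_element (N := A) h
  have hpd : p ∣ orderOf z := by
    rw [hk]
    apply dvd_pow_self
    rintro rfl
    rw [pow_zero, orderOf_eq_one_iff] at hk
    exact hz1 hk
  refine ⟨((z ^ (orderOf z / p) : A) : G), (z ^ (orderOf z / p)).2, ?_, ?_⟩
  · rw [Subgroup.orderOf_coe]
    exact orderOf_pow_orderOf_div (orderOf_pos z).ne' hpd
  · intro x hx
    have : (⟨x, hx⟩ : A) * z ^ (orderOf z / p) = z ^ (orderOf z / p) * ⟨x, hx⟩ :=
      ((Commute.pow_right (hzc ⟨x, hx⟩) _ : Commute _ _)).eq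
    exact congrArg Subtype.val this

theorem le_sylow_of_le_normalizer [Finite G] {p : ℕ} [Fact p.Prime] (S : Sylow p G)
    {X : Subgroup G} (hX : IsPGroup p X) (h : (S : Subgroup G) ≤ normalizer (X : Set G)) :
    X ≤ S := by
  have h1 : IsPGroup p ((S : Subgroup G) ⊔ X : Subgroup G) :=
    IsPGroup.to_sup_of_normal_right' S.isPGroup' hX h
  have h2 := S.is_maximal' h1 le_sup_left
  rw [← h2]
  exact le_sup_right

end Cfsg.Agent.Lib.Helper2KWa
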