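import Mathlib
import Cfsg.Prelude.Def_OddOrderLocal

/-!
Vocabulary for Bender-Glauberman Lemma 14.12 (project 1412, row S1435).
-/

set_option autoImplicit false

namespace Cfsg.Agent.Lib.Helper30BG1412Defs

open Cfsg Subgroup

variable {G : Type*} [Group G]

/-- `M = K U M_σ` is "of type P₂" (`K ≠ 1`, `U ≠ 1`) and `Ms = M*` is its partner
(the hypotheses of the rows S1369, S1434, S1435). -/
structure P2 (M K U Ms : Subgroup G) : Prop where
  hM : IsCoatom M
  hKU : IsSigmaDecomposition M K U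
  hK1 : K ≠ ⊥
  hU1 : U ≠ ⊥
  hMs : IsCoatom Ms
  hKst : K = sigmaCore Ms ⊓
    centralizer ((sigmaCore M ⊓ centralizer (K : Set G) : Subgroup G) : Set G)
  hKstH : IsPiHallOf (kappa Ms) (sigmaCore M ⊓ centralizer (K : Set G)) Ms

/-- the configuration produced by `t1_setup` and killed by `t1_final`. -/
structure T1 (H F K : Subgroup G) (s : ℕ) (A Y₁ Y₂ : Subgroup G) : Prop where
  hs : s.Prime
  hs2 : s ∈ tau2 H
  hAF : A ≤ F
  hAe : IsElementaryAbelian s A
  hA2 : Nat.card A = s ^ 2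
  hY₁A : Y₁ ≤ A
  hY₂A : Y₂ ≤ A
  hY₁ : Nat.card Y₁ = s
  hY₂ : Nat.card Y₂ = s
  hcent : sigmaCore H ≤ centralizer (Y₁ : Set G)
  hKn : K ≤ normalizer (Y₁ : Set G)
  hKnc : ¬ K ≤ centralizer (Y₁ : Set G)
  hKc : K ≤ centralizer (Y₂ : Set G)
  hN : normalizer (A : Set G) ≤ normalizer (Y₂ : Set G)

end Cfsg.Agent.Lib.Helper30BG1412Defs
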