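import Cfsg.Agent.Lib.Helper30Sig

/-! Consequences of transitivity for solvable signalizer functors. -/

set_option autoImplicit false

namespace Cfsg.Agent.Lib.Helper30Sig2

open Subgroup Cfsg
open Cfsg.Agent.Lib.Helper30SZ Cfsg.Agent.Lib.Helper30Coprime Cfsg.Agent.Lib.Helper30Trans
open Cfsg.Agent.Lib.Helper30Thompson Cfsg.Agent.Lib.Helper30Sig

variable {G : Type*} [Group G] {p : ℕ} {A : Subgroup G} {θ : G → Subgroup G}

theorem sylow_of_card_eq [Finite G] {q : ℕ} [Fact q.Prime] {H T : Subgroup G} (S : Sylow q H)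
    (hT : T ≤ H) (hcard : Nat.card T = Nat.card ((S : Subgroup H).map H.subtype : Subgroup G)) :
    ∃ S' : Sylow q H, (S' : Subgroup H).map H.subtype = T := by
  refine ⟨Sylow.ofCard (T.subgroupOf H) ?_, ?_⟩
  · rw [card_subgroupOf_of_le hT, hcard, card_map_of_injective H.subtype_injective,
      S.card_eq_multiplicity]
  · rw [Sylow.coe_ofCard, subgroupOf_map_subtype, inf_eq_left.mpr hT]

theorem bot_mem_fam [Finite G] [hp : Fact p.Prime] : (⊥ : Subgroup G) ∈ signalizerFamily p A θ := by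
  refine ⟨inferInstance, ?_, ?_, ?_⟩
  · rw [card_bot]; exact hp.out.one_lt.ne' ∘ Nat.dvd_one.mp
  · intro b _ u hu
    rw [mem_bot.mp hu]; simp
  · intro a _ _
    exact le_trans inf_le_left bot_le

theorem signalizerInf_normalizer (hθ : IsSignalizerFunctor p A θ) {B : Subgroup G} (hB : B ≤ A) :
    A ≤ normalizer ((signalizerInf B θ : Subgroup G) : Set G) := by
  rw [le_normalizer_iff]
  intro a ha x hx
  unfold signalizerInf at hx ⊢
  rw [mem_iInf] at hx ⊢
  intro b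
  exact hθ.2.2.1 b.1 (hB b.2.1) b.2.2 a ha x (hx b)

theorem signalizerInf_mem_fam (hθ : IsSolvableSignalizerFunctor p A θ) {B : Subgroup G}
    (hB : B ≤ A) (hB1 : B ≠ ⊥) : signalizerInf B θ ∈ signalizerFamily p A θ := by
  obtain ⟨b, hb, hb1⟩ := exists_ne_one_of_ne_bot' hB1
  exact fam_of_le (theta_mem_fam hθ (hB hb) hb1) (signalizerInf_le hb hb1)
    (signalizerInf_normalizer hθ.1 hB)

theorem signalizerInf_anti {B C : Subgroup G} (h : B ≤ C) :
    signalizerInf C θ ≤ signalizerInf B θ :=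
  le_signalizerInf (fun _ ha ha1 => signalizerInf_le (h ha) ha1)

section
variable [Finite G] [Fact p.Prime] (hA : IsElementaryAbelian p A) (hA3 : p ^ 3 ≤ Nat.card A)
  (hθ : IsSolvableSignalizerFunctor p A θ) (q : ℕ) [Fact q.Prime]
include hA hA3 hθ

/-- every `q`-member lies in a conjugate of a given maximal one -/
theorem exists_le_cj {Q : Subgroup G} (hQ : IsMaxIn (qFam p A θ q) Q) {Y : Subgroup G}
    (hY : Y ∈ qFam p A θ q) : ∃ c ∈ signalizerInf A θ, Y ≤ cj c Q := by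
  obtain ⟨Q', hQ', hYQ'⟩ := exists_isMaxIn_ge hY
  obtain ⟨c, hc, h⟩ := sig_transitivity hA hA3 hθ q Q Q' hQ hQ'
  exact ⟨c, hc, h ▸ hYQ'⟩

theorem exists_sylow_eq_cj_inf {Q : Subgroup G} (hQ : IsMaxIn (qFam p A θ q) Q) {H : Subgroup G}
    (hH : H ∈ signalizerFamily p A θ) :
    ∃ c ∈ signalizerInf A θ, ∃ S : Sylow q H, (S : Subgroup H).map H.subtype = cj c Q ⊓ H := by
  obtain ⟨S, _, hSA⟩ := Cfsg.Agent.S0025.result A H (fam_normalizer hH)
    (coprime_of_not_dvd hA hH.2.1) (Or.inr hH.1) q ⊥ bot_le IsPGroup.of_bot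
    (by rw [le_normalizer_iff]; intro a _ x hx; rw [mem_bot.mp hx]; simp)
  have hSfam : (S : Subgroup H).map H.subtype ∈ qFam p A θ q :=
    ⟨fam_of_le hH (map_subtype_le _) hSA, S.2.map _⟩
  obtain ⟨c, hc, hle⟩ := exists_le_cj hA hA3 hθ q hQ hSfam
  refine ⟨c, hc, S, ?_⟩
  have h1 : IsPGroup q ((cj c Q ⊓ H).subgroupOf H) :=
    ((hQ.1.2.map _).to_le inf_le_left).comap_subtype
  have h2 : (S : Subgroup H) ≤ (cj c Q ⊓ H).subgroupOf H := by
    intro x hx
    rw [mem_subgroupOf]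
    exact Subgroup.mem_inf.mpr ⟨hle ⟨x, hx, rfl⟩, x.2⟩
  have h3 := S.3 h1 h2
  rw [← h3, subgroupOf_map_subtype, inf_eq_left.mpr inf_le_right]

theorem exists_sylow_eq_inf_centralizer {Q : Subgroup G} (hQ : IsMaxIn (qFam p A θ q) Q)
    {B : Subgroup G} (hB : B ≤ A) (hB1 : B ≠ ⊥) :
    ∃ S : Sylow q (signalizerInf B θ),
      (S : Subgroup (signalizerInf B θ)).map (signalizerInf B θ).subtype =
        Q ⊓ centralizer (B : Set G) := by
  set H := signalizerInf B θ with hH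
  obtain ⟨c, hc, S, hS⟩ := exists_sylow_eq_cj_inf hA hA3 hθ q hQ (signalizerInf_mem_fam hθ hB hB1)
  have hcH : c ∈ H := signalizerInf_anti hB hc
  have heq : Q ⊓ centralizer (B : Set G) = Q ⊓ H :=
    le_antisymm (le_inf inf_le_left (fam_inf_centralizer_le hQ.1.1 hB))
      (inf_le_inf_left _ (signalizerInf_le_centralizer hθ.1 hB))
  rw [heq]
  apply sylow_of_card_eq S inf_le_right
  rw [hS]
  have h1 : cj c (Q ⊓ H) = cj c Q ⊓ H := by
    rw [cj, Subgroup.map_inf _ _ _ (MulAut.conj c).injective]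
    congr 1
    exact cj_eq_self_of_mem_normalizer (le_normalizer hcH)
  rw [← h1, card_cj]

theorem theta_le_of_isPGroup {Q : Subgroup G} (hQ : IsMaxIn (qFam p A θ q) Q) {a : G} (ha : a ∈ A)
    (ha1 : a ≠ 1) (hq : IsPGroup q (θ a)) : Q ⊓ centralizer {a} = θ a := by
  apply le_antisymm (hQ.1.1.2.2.2 a ha ha1)
  obtain ⟨c, hc, hle⟩ := exists_le_cj hA hA3 hθ q hQ ⟨theta_mem_fam hθ ha ha1, hq⟩
  refine le_inf ?_ (hθ.1.1 a ha ha1)
  have hca : c ∈ θ a := signalizerInf_le ha ha1 hc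
  have h1 : cj c⁻¹ (θ a) ≤ Q := by rw [cj_le_iff, inv_inv]; exact hle
  rwa [cj_eq_self_of_mem_normalizer (le_normalizer (inv_mem hca))] at h1

end

end Cfsg.Agent.Lib.Helper30Sig2
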