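import Mathlib
import Cfsg.Prelude.Def_OddOrderLocal

/-!
Vocabulary for B-G 12.8 - 12.11 (row S1421, project 21).
-/

set_option autoImplicit false

namespace Cfsg.Agent.Lib.Helper31BG21Defs

open Cfsg Subgroup

variable {G : Type*} [Group G]

/-- `L` lies in a cyclic subgroup of `S` generated by an element of maximal order (an element whose
order is the exponent of `S`). -/
def Liftable (S L : Subgroup G) : Prop :=
  ∃ y ∈ S, (∀ s ∈ S, s ^ orderOf y = 1) ∧ L ≤ zpowers y

/-- the hypothesis of S1421, restricted to a subgroup `K`: the non-identity elements of `K` act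
regularly on `M_σ`. -/
def Reg (M K : Subgroup G) : Prop :=
  ∀ e ∈ K, e ≠ 1 → sigmaCore M ⊓ centralizer ({e} : Set G) = ⊥

end Cfsg.Agent.Lib.Helper31BG21Defs
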