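import Mathlib
import Cfsg.Agent.Lib.Helper31Pair2
import Cfsg.Agent.Lib.Helper41SL2Norm

set_option autoImplicit false

namespace Cfsg.Agent.Lib.Helper31Nat
open Cfsg.Agent.Lib.Helper31Pair Cfsg.Agent.Lib.Helper31Pair2 Cfsg.Agent.Lib.Helper46SL2
  Cfsg.Agent.Lib.Helper57SL2U

local notation "SL2" => Matrix.SpecialLinearGroup (Fin 2)

section traces
variable {F : Type*} [Field F]

theorem tr_mul_inv (x t : SL2 F) : tr (x * t⁻¹) = tr x * tr t - tr (x * t) := by
  simp only [tr, mul_00, mul_11, inv_00, inv_01, inv_10, inv_11]; ring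

theorem tr_sandwich (x t : SL2 F) : tr (x * t⁻¹ * x) = tr x * tr (x * t⁻¹) - tr t := by
  have hd := det2 x
  simp only [tr, mul_00, mul_01, mul_10, mul_11, inv_00, inv_01, inv_10, inv_11]
  linear_combination (-(t 0 0 + t 1 1)) * hd

theorem tr_eq_zero_of_order_four (h2 : (2 : F) ≠ 0) {W : SL2 F} (h4 : (W * W) * (W * W) = 1)
    (hne : W * W ≠ 1) : tr W = 0 := by
  rcases (Cfsg.Agent.Lib.Helper41SL2.sq_eq_one_iff' h2).1 h4 with h | h
  · exact absurd h hne
  · have e00 := sq_eq W 0 0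
    have e01 := sq_eq W 0 1
    rw [h] at e00 e01
    simp only [Cfsg.Agent.Lib.Helper46SL2.neg_apply, one_00, one_01] at e00 e01
    by_contra ht
    have h00 : W 0 0 = 0 := by
      have : tr W * W 0 0 = 0 := by linear_combination -e00
      exact (mul_eq_zero.1 this).resolve_left ht
    have h01 : W 0 1 = 0 := by
      have : tr W * W 0 1 = 0 := by linear_combination -e01
      exact (mul_eq_zero.1 this).resolve_left ht
    have hd := det2 W
    rw [h00, h01] at hd
    simp at hd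

/-- Two unipotent elements `x, t` such that `x t⁻¹ x` has order four: `tr (x t) = 3`. -/
theorem tr_eq_three (h2 : (2 : F) ≠ 0) {x t : SL2 F} (hx : tr x = 2) (ht : tr t = 2)
    (h4 : ((x * t⁻¹ * x) * (x * t⁻¹ * x)) * ((x * t⁻¹ * x) * (x * t⁻¹ * x)) = 1)
    (hne : (x * t⁻¹ * x) * (x * t⁻¹ * x) ≠ 1) : tr (x * t) = 3 := by
  have h0 := tr_eq_zero_of_order_four h2 h4 hne
  rw [tr_sandwich, tr_mul_inv, hx, ht] at h0
  have : 2 * (tr (x * t) - 3) = 0 := by linear_combination -h0
  have := (mul_eq_zero.1 this).resolve_left h2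
  linear_combination this

/-- standard position -/
theorem exists_std {x t : SL2 F} (hx : tr x = 2) (ht : tr t = 2) (h : tr (x * t) = 3) :
    ∃ (w : SL2 F) (a b : F), a * b = 1 ∧ w * x * w⁻¹ = u a ∧ w * t * w⁻¹ = l b := by
  have hx1 : x ≠ 1 := by
    rintro rfl
    rw [one_mul, ht] at h
    have : (1 : F) = 0 := by linear_combination -h
    exact one_ne_zero this
  obtain ⟨w, a, ha, hw⟩ := exists_conj_eq_u hx hx1
  set t' := w * t * w⁻¹ with ht'
  have htr' : tr t' = 2 := by rw [ht', tr_conj, ht]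
  have h1 : tr (u a * t') = 3 := by
    rw [← hw, ht', ← h, ← tr_conj (x * t) w]
    congr 1
    group
  have h2 : a * t' 1 0 = 1 := by
    have h3 : t' 0 0 + t' 1 1 = 2 := htr'
    simp only [tr, mul_00, mul_11, u_00, u_01, u_10, u_11] at h1
    linear_combination h1 - h3
  have h10 : t' 1 0 ≠ 0 := by
    intro h0
    rw [h0, mul_zero] at h2
    exact zero_ne_one h2
  set s := (t' 1 1 - 1) / t' 1 0 with hs
  refine ⟨u s * w, a, t' 1 0, h2, ?_, ?_⟩
  · have : (u s * w) * x * (u s * w)⁻¹ = u s * (w * x * w⁻¹) * (u s)⁻¹ := by group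
    rw [this, hw, u_inv, u_mul, u_mul]
    congr 1
    ring
  · have : (u s * w) * t * (u s * w)⁻¹ = u s * t' * (u s)⁻¹ := by rw [ht']; group
    rw [this]
    exact conj_u_eq_l htr' h10

end traces

/-- natural pair: `a, b` act on a section of `P` of order `p²` as `(1 1; 0 1)`, `(1 0; 1 1)`;
the section is given by the graph `R` of an epimorphism from a subgroup of `P` onto `𝔽_p²`. -/
def NPair (p : ℕ) {G : Type*} [Group G] (P : Subgroup G) (a b : G) : Prop :=
  ∃ R : Subgroup (G × Multiplicative (Fin 2 → ZMod p)),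
    (∀ v c, (v, c) ∈ R → v ∈ P) ∧ (∀ c, ((1 : G), c) ∈ R → c = 1) ∧
    (∀ c, ∃ v, (v, c) ∈ R) ∧
    (∀ v c, (v, Multiplicative.ofAdd c) ∈ R ↔
      (a * v * a⁻¹, Multiplicative.ofAdd ![c 0 + c 1, c 1]) ∈ R) ∧
    (∀ v c, (v, Multiplicative.ofAdd c) ∈ R ↔
      (b * v * b⁻¹, Multiplicative.ofAdd ![c 0, c 0 + c 1]) ∈ R)

theorem QPair.exists_nPair {p : ℕ} [Fact p.Prime] (hp : p ≠ 2) {G : Type*} [Group G]
    {P : Subgroup G} {x y : G} (h : QPair p P x y) :
    ∃ a ∈ Subgroup.closure ({x, y} : Set G), ∃ b ∈ Subgroup.closure ({x, y} : Set G),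
      NPair p P a b := by
  obtain ⟨F, i1, i2, i3, l₀, R, φ, hl, h1, h2, h3, h4, hx, hy⟩ := QPair.exists_hom h
  obtain ⟨K₀, hK₀, ⟨e⟩⟩ := Cfsg.Agent.Lib.Helper57Dickson.good_of_noncomm (p := p) hp φ.range
    (x := u l₀) (y := l 1) ⟨_, hx⟩ ⟨_, hy⟩ (by simp [tr]; norm_num) (by simp [tr]; norm_num)
    (u_l_noncomm hl)
  have h2F : (2 : F) ≠ 0 := Cfsg.Agent.Lib.Helper57Dickson.two_ne_zero_of_char (p := p) hp
  have h2p : (2 : ZMod p) ≠ 0 := Cfsg.Agent.Lib.Helper57Dickson.two_ne_zero_of_char (p := p) hp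
  set X : K₀ := e.symm (u 1) with hX
  set T : K₀ := e.symm (l 1) with hT
  have hXp : (X : SL2 F) ^ p ^ 1 = 1 := by
    have : X ^ p = 1 := by
      rw [hX, ← map_pow, u_pow, CharP.cast_eq_zero, zero_mul, u_zero, map_one]
    rw [pow_one]
    exact congrArg Subtype.val this
  have hTp : (T : SL2 F) ^ p ^ 1 = 1 := by
    have : T ^ p = 1 := by
      rw [hT, ← map_pow, l_pow, CharP.cast_eq_zero, zero_mul, l_zero, map_one]
    rw [pow_one]
    exact congrArg Subtype.val this
  have htX : tr (X : SL2 F) = 2 := tr_eq_two_of_pow (p := p) hXp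
  have htT : tr (T : SL2 F) = 2 := tr_eq_two_of_pow (p := p) hTp
  have hW : X * T⁻¹ * X = e.symm (u 1 * (l 1)⁻¹ * u 1) := by
    rw [map_mul, map_mul, map_inv]
  have hw2 : ((u 1 * (l 1)⁻¹ * u 1) * (u 1 * (l 1)⁻¹ * u 1) : SL2 (ZMod p)) = -1 := by
    rw [l_inv]
    apply ext2 <;> simp [mul_00, mul_01, mul_10, mul_11, Cfsg.Agent.Lib.Helper46SL2.neg_apply]
  have htr3 : tr ((X : SL2 F) * (T : SL2 F)) = 3 := by
    apply tr_eq_three h2F htX htT
    · have : ((X * T⁻¹ * X) * (X * T⁻¹ * X)) * ((X * T⁻¹ * X) * (X * T⁻¹ * X)) = 1 := by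
        rw [hW, ← map_mul, ← map_mul, hw2]
        simp
      exact congrArg Subtype.val this
    · intro hcon
      have : (X * T⁻¹ * X) * (X * T⁻¹ * X) = 1 := Subtype.ext hcon
      rw [hW, ← map_mul, hw2, MulEquiv.map_eq_one_iff] at this
      have h00 := congrArg (fun M : SL2 (ZMod p) => M 0 0) this
      simp only [Cfsg.Agent.Lib.Helper46SL2.neg_apply, one_00] at h00
      apply h2p
      linear_combination -h00
  obtain ⟨w, a, b, hab, hwX, hwT⟩ := exists_std htX htT htr3
  obtain ⟨x₁, hx₁⟩ := hK₀ X.2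
  obtain ⟨t₁, ht₁⟩ := hK₀ T.2
  -- the embedding of `𝔽_p²`
  let cst : ZMod p →+* F := ZMod.castHom (dvd_refl p) F
  have hcst : Function.Injective cst := RingHom.injective _
  let j : (Fin 2 → ZMod p) → (Fin 2 → F) := fun c => act w⁻¹ ![a * cst (c 0), cst (c 1)]
  have hjadd : ∀ c d, j (c + d) = j c + j d := by
    intro c d
    show act w⁻¹ _ = act w⁻¹ _ + act w⁻¹ _
    rw [← act_add]
    congr 1
    ext i
    fin_cases i <;> simp [mul_add]
  have ha0 : a ≠ 0 := by
    rintro rfl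
    rw [zero_mul] at hab
    exact zero_ne_one hab
  have hjinj : ∀ c, j c = 0 → c = 0 := by
    intro c hc
    have h5 : act w (j c) = ![a * cst (c 0), cst (c 1)] := by
      show act w (act w⁻¹ _) = _
      rw [← act_mul, mul_inv_cancel, act_one]
    rw [hc] at h5
    have h6 : act w (0 : Fin 2 → F) = 0 := by
      ext i
      fin_cases i <;> simp [act]
    rw [h6] at h5
    have e0 := congrFun h5 0
    have e1 := congrFun h5 1
    simp only [Pi.zero_apply, Matrix.cons_val_zero, Matrix.cons_val_one] at e0 e1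
    have c0 : c 0 = 0 := by
      apply hcst
      rw [map_zero]
      exact (mul_eq_zero.1 e0.symm).resolve_left ha0
    have c1 : c 1 = 0 := by
      apply hcst
      rw [map_zero]
      exact e1.symm
    ext i
    fin_cases i
    · exact c0
    · exact c1
  have hjX : ∀ c, act (X : SL2 F) (j c) = j ![c 0 + c 1, c 1] := by
    intro c
    show act (X : SL2 F) (act w⁻¹ _) = act w⁻¹ _
    have e1 : (X : SL2 F) * w⁻¹ = w⁻¹ * u a := by rw [← hwX]; group
    rw [← act_mul, e1, act_mul]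
    congr 1
    ext i
    fin_cases i <;> simp [act, mul_add]
  have hjT : ∀ c, act (T : SL2 F) (j c) = j ![c 0, c 0 + c 1] := by
    intro c
    show act (T : SL2 F) (act w⁻¹ _) = act w⁻¹ _
    have e1 : (T : SL2 F) * w⁻¹ = w⁻¹ * l b := by rw [← hwT]; group
    rw [← act_mul, e1, act_mul]
    congr 1
    ext i
    fin_cases i
    · simp [act]
    · simp [act]
      linear_combination (cst (c 0)) * hab
  let j' : Multiplicative (Fin 2 → ZMod p) →* Multiplicative (Fin 2 → F) :=
    { toFun := fun c => Multiplicative.ofAdd (j c.toAdd)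
      map_one' := by
        show Multiplicative.ofAdd (j 0) = 1
        have : j 0 = 0 := by
          have := hjadd 0 0
          rw [add_zero] at this
          exact left_eq_add.1 this
        rw [this]
        rfl
      map_mul' := fun c d => by
        show Multiplicative.ofAdd (j (c.toAdd + d.toAdd)) = _
        rw [hjadd]
        rfl }
  refine ⟨x₁, x₁.2, t₁, t₁.2, R.comap ((MonoidHom.id G).prodMap j'), ?_, ?_, ?_, ?_, ?_⟩
  · intro v c hv
    exact h1 v _ hv
  · intro c hc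
    have h5 := h2 _ hc
    have h6 : j c.toAdd = 0 := Multiplicative.ofAdd.injective h5
    exact Multiplicative.toAdd.injective (hjinj _ h6)
  · intro c
    obtain ⟨v, hv⟩ := h3 (j' c)
    exact ⟨v, hv⟩
  · intro v c
    show (v, Multiplicative.ofAdd (j c)) ∈ R ↔ (_, Multiplicative.ofAdd (j _)) ∈ R
    rw [h4 x₁ v (j c), hx₁, hjX]
    exact Iff.rfl
  · intro v c
    show (v, Multiplicative.ofAdd (j c)) ∈ R ↔ (_, Multiplicative.ofAdd (j _)) ∈ R
    rw [h4 t₁ v (j c), ht₁, hjT]
    exact Iff.rfl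

end Cfsg.Agent.Lib.Helper31Nat
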