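import Mathlib
import Cfsg.Agent.Lib.Helper31Nat
import Cfsg.Agent.Lib.Helper51Qd
import Cfsg.Agent.Lib.Helper40Sylow
import Cfsg.Agent.Lib.Helper24Section
import Cfsg.Agent.Lib.Helper31Pair3

set_option autoImplicit false

namespace Cfsg.Agent.Lib.Helper31Nat2
open Cfsg Cfsg.Agent.Lib.Helper31Pair Cfsg.Agent.Lib.Helper31Pair2 Cfsg.Agent.Lib.Helper46SL2
  Cfsg.Agent.Lib.Helper57SL2U Cfsg.Agent.Lib.Helper31Nat Cfsg.Agent.Lib.Helper40Sylow

local notation "SL2" => Matrix.SpecialLinearGroup (Fin 2)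

/-- A subgroup of `M × Q` which is the graph of a partial epimorphism shows that `Q` is involved
in `M`. -/
theorem involves_of_graph {M Q : Type*} [Group M] [Group Q] (Γ : Subgroup (M × Q))
    (hfun : ∀ q, ((1 : M), q) ∈ Γ → q = 1) (hsurj : ∀ q, ∃ m, (m, q) ∈ Γ) : Involves Q M := by
  let π₁ : Γ →* M := (MonoidHom.fst M Q).comp Γ.subtype
  let π₂ : Γ →* Q := (MonoidHom.snd M Q).comp Γ.subtype
  have hπ₁ : Function.Injective π₁ := by
    rw [injective_iff_map_eq_one]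
    rintro ⟨⟨k, q⟩, hq⟩ hk
    have hk : k = 1 := hk
    subst hk
    have := hfun q hq
    subst this
    rfl
  rw [Cfsg.Agent.Lib.Helper24Section.involves_iff]
  refine ⟨π₁.range, π₂.comp (MonoidHom.ofInjective hπ₁).symm.toMonoidHom, ?_⟩
  intro q
  obtain ⟨m, hm⟩ := hsurj q
  refine ⟨MonoidHom.ofInjective hπ₁ ⟨(m, q), hm⟩, ?_⟩
  show π₂ ((MonoidHom.ofInjective hπ₁).symm (MonoidHom.ofInjective hπ₁ ⟨(m, q), hm⟩)) = q
  rw [MulEquiv.symm_apply_apply]
  rfl

section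
variable {F : Type*} [Field F]

theorem act_eq_mulVec (M : SL2 F) (c : Fin 2 → F) :
    act M c = (M : Matrix (Fin 2) (Fin 2) F).mulVec c := by
  ext i
  fin_cases i <;> simp [act, Matrix.mulVec, dotProduct, Fin.sum_univ_two]

theorem act_neg (M : SL2 F) (c : Fin 2 → F) : act M (-c) = - act M c := by
  ext i
  fin_cases i <;> simp [act] <;> ring

theorem act_neg_one (c : Fin 2 → F) : act (-1 : SL2 F) c = - c := by
  ext i
  fin_cases i <;> simp [act, Cfsg.Agent.Lib.Helper46SL2.neg_apply]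

/-- the stabiliser of the structure `R` -/
def stab {G : Type*} [Group G] (R : Subgroup (G × Multiplicative (Fin 2 → F))) :
    Subgroup (G × SL2 F) where
  carrier := {gM | ∀ v c, (v, Multiplicative.ofAdd c) ∈ R ↔
        (gM.1 * v * gM.1⁻¹, Multiplicative.ofAdd (act gM.2 c)) ∈ R}
  one_mem' := by
    intro v c
    simp [act_one]
  mul_mem' := by
    intro a b ha hb v c
    rw [hb v c, ha]
    have e1 : a.1 * (b.1 * v * b.1⁻¹) * a.1⁻¹ = (a * b).1 * v * (a * b).1⁻¹ := by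
      rw [Prod.fst_mul]; group
    rw [e1, ← act_mul, Prod.snd_mul]
  inv_mem' := by
    intro a ha v c
    rw [ha (a⁻¹.1 * v * a⁻¹.1⁻¹)]
    have e1 : a.1 * (a⁻¹.1 * v * a⁻¹.1⁻¹) * a.1⁻¹ = v := by
      rw [Prod.fst_inv]; group
    rw [e1, ← act_mul, Prod.snd_inv, mul_inv_cancel, act_one]

theorem mem_stab {G : Type*} [Group G] {R : Subgroup (G × Multiplicative (Fin 2 → F))}
    {g : G} {M : SL2 F} : (g, M) ∈ stab R ↔ ∀ v c, (v, Multiplicative.ofAdd c) ∈ R ↔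
        (g * v * g⁻¹, Multiplicative.ofAdd (act M c)) ∈ R := Iff.rfl

/-- an element of the structure group acting trivially -/
theorem eq_one_of_mem {G : Type*} [Group G] {R : Subgroup (G × Multiplicative (Fin 2 → F))}
    (hfun : ∀ c, ((1 : G), c) ∈ R → c = 1) (hsurj : ∀ c, ∃ v, (v, c) ∈ R)
    {g : G} {M : SL2 F} (hg : (g, M) ∈ stab R) (hgR : (g, 1) ∈ R) : M = 1 := by
  apply eq_one_of_act
  intro c
  obtain ⟨v, hv⟩ := hsurj (Multiplicative.ofAdd c)
  have h6 := (mem_stab.1 hg v c).1 hv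
  have h7 : (g * v * g⁻¹, Multiplicative.ofAdd c) ∈ R := by
    have := R.mul_mem (R.mul_mem hgR hv) (R.inv_mem hgR)
    simpa using this
  have h8 := R.mul_mem h6 (R.inv_mem h7)
  simp only [Prod.inv_mk, Prod.mk_mul_mk, mul_inv_cancel] at h8
  have h9 := hfun _ h8
  rw [mul_inv_eq_one] at h9
  exact Multiplicative.ofAdd.injective h9

end


open Cfsg.Agent.Lib.Helper51Qd in
theorem mk_inv {F : Type*} [Field F] (A : SL2 F) (c : Fin 2 → F) :
    (mk A c)⁻¹ = mk A⁻¹ (act A⁻¹ (-c)) := by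
  apply inv_eq_of_mul_eq_one_right
  rw [mk_mul_mk, ← act_eq_mulVec, ← act_mul, mul_inv_cancel, act_one, neg_add_cancel, mk_one_zero]

theorem stab_surj {p : ℕ} [Fact p.Prime] {G : Type*} [Group G]
    {R : Subgroup (G × Multiplicative (Fin 2 → ZMod p))} {a b : G}
    (ha : (a, u 1) ∈ stab R) (hb : (b, l 1) ∈ stab R) (A : SL2 (ZMod p)) :
    ∃ g, (g, A) ∈ stab R := by
  have h1 : (stab R).map (MonoidHom.snd G (SL2 (ZMod p))) = ⊤ := by
    rw [eq_top_iff, ← Cfsg.Agent.Lib.Helper6Transport.closure_SL2_zmod p, Subgroup.closure_le]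
    rintro t (rfl | rfl)
    · refine ⟨(a, u 1), ha, ?_⟩
      apply ext2 <;> simp [Matrix.SpecialLinearGroup.transvection, Matrix.transvection]
    · refine ⟨(b, l 1), hb, ?_⟩
      apply ext2 <;> simp [Matrix.SpecialLinearGroup.transvection, Matrix.transvection]
  have h2 : A ∈ (stab R).map (MonoidHom.snd G (SL2 (ZMod p))) := by rw [h1]; exact Subgroup.mem_top _
  obtain ⟨⟨g, A'⟩, hg, rfl⟩ := h2
  exact ⟨g, hg⟩

open Cfsg.Agent.Lib.Helper51Qd in
/-- A natural pair gives a section isomorphic to `Qd(p)`. -/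
theorem NPair.involves_qd {p : ℕ} [Fact p.Prime] (hp : p ≠ 2) {G : Type*} [Group G] [Finite G]
    {P : Subgroup G} {a b : G} (h : NPair p P a b) : Involves ↥(Cfsg.qd p) G := by
  obtain ⟨R, -, hfun, hsurj, ha, hb⟩ := h
  have h2p : (2 : ZMod p) ≠ 0 := Cfsg.Agent.Lib.Helper57Dickson.two_ne_zero_of_char (p := p) hp
  have haS : (a, u 1) ∈ stab R := by
    rw [mem_stab]; intro v c
    rw [ha]
    simp [act]
  have hbS : (b, l 1) ∈ stab R := by
    rw [mem_stab]; intro v c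
    rw [hb]
    simp [act]
  have hS := stab_surj haS hbS
  -- the preimage of the centre
  let N : Subgroup G := ((stab R) ⊓ (⊤ : Subgroup G).prod (Subgroup.center (SL2 (ZMod p)))).map
    (MonoidHom.fst G (SL2 (ZMod p)))
  have hN : ∀ g, g ∈ N ↔ ∃ ε ∈ Subgroup.center (SL2 (ZMod p)), (g, ε) ∈ stab R := by
    intro g
    constructor
    · rintro ⟨⟨g', ε⟩, ⟨h1, h2⟩, rfl⟩
      exact ⟨ε, (Subgroup.mem_prod.1 h2).2, h1⟩
    · rintro ⟨ε, h1, h2⟩
      exact ⟨(g, ε), ⟨h2, Subgroup.mem_prod.2 ⟨Subgroup.mem_top _, h1⟩⟩, rfl⟩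
  -- a 2-element acting as -1
  obtain ⟨n₀, hn₀⟩ := hS (-1)
  obtain ⟨k, m, hm, hkm⟩ := Nat.exists_eq_pow_mul_and_not_dvd (orderOf_pos n₀).ne' 2 (by norm_num)
  have hmodd : Odd m := Nat.odd_iff.2 (Nat.two_dvd_ne_zero.1 hm)
  set τ := n₀ ^ m with hτ
  have hτS : (τ, (-1 : SL2 (ZMod p))) ∈ stab R := by
    have := (stab R).pow_mem hn₀ m
    rwa [Prod.pow_mk, hmodd.neg_one_pow] at this
  have hτ2 : τ ^ 2 ^ k = 1 := by
    rw [hτ, ← pow_mul, mul_comm, ← hkm, pow_orderOf_eq_one]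
  have hneg1 : (-1 : SL2 (ZMod p)) ∈ Subgroup.center (SL2 (ZMod p)) :=
    mem_center_iff_eq.2 (Or.inr rfl)
  have hτN : Subgroup.zpowers τ ≤ N := by
    rw [Subgroup.zpowers_le]
    exact (hN τ).2 ⟨-1, hneg1, hτS⟩
  have hτp : IsPGroup 2 (Subgroup.zpowers τ) := by
    rintro ⟨g, hg⟩
    obtain ⟨i, rfl⟩ := Subgroup.mem_zpowers_iff.1 hg
    refine ⟨k, Subtype.ext ?_⟩
    show (τ ^ i) ^ 2 ^ k = 1
    rw [← zpow_natCast, ← zpow_mul, mul_comm, zpow_mul, zpow_natCast, hτ2, one_zpow]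
  obtain ⟨T, hT, hτT'⟩ := exists_isSylowIn_ge hτp hτN
  have hτT : τ ∈ T := hτT' (Subgroup.mem_zpowers τ)
  -- (i)
  have hi : ∀ A : SL2 (ZMod p), ∃ g, (g, A) ∈ stab R ∧ g ∈ Subgroup.normalizer (T : Set G) := by
    intro A
    obtain ⟨g, hg⟩ := hS A
    have hgN : cj g N = N := by
      rw [← mem_normalizer_iff_cj, Subgroup.mem_normalizer_iff]
      intro n
      rw [hN, hN]
      constructor
      · rintro ⟨ε, h1, h2⟩
        refine ⟨ε, h1, ?_⟩
        have h3 := (stab R).mul_mem ((stab R).mul_mem hg h2) ((stab R).inv_mem hg)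
        simp only [Prod.inv_mk, Prod.mk_mul_mk] at h3
        rwa [Subgroup.mem_center_iff.1 h1 A, mul_inv_cancel_right] at h3
      · rintro ⟨ε, h1, h2⟩
        refine ⟨ε, h1, ?_⟩
        have h3 := (stab R).mul_mem ((stab R).mul_mem ((stab R).inv_mem hg) h2) hg
        simp only [Prod.inv_mk, Prod.mk_mul_mk] at h3
        have e1 : g⁻¹ * (g * n * g⁻¹) * g = n := by group
        rwa [e1, Subgroup.mem_center_iff.1 h1 A⁻¹, inv_mul_cancel_right] at h3
    have h2 := hT.cj g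
    rw [hgN] at h2
    obtain ⟨n, hn, hnc⟩ := hT.exists_conj_eq h2
    have hng : n * g ∈ Subgroup.normalizer (T : Set G) := by
      rw [mem_normalizer_iff_cj, cj_mul]
      exact hnc
    obtain ⟨ε, h1, h3⟩ := (hN n).1 hn
    have h4 := (stab R).mul_mem h3 hg
    simp only [Prod.mk_mul_mk] at h4
    rcases mem_center_iff_eq.1 h1 with rfl | rfl
    · rw [one_mul] at h4
      exact ⟨n * g, h4, hng⟩
    · refine ⟨τ * (n * g), ?_, Subgroup.mul_mem _ (Subgroup.le_normalizer hτT) hng⟩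
      have h5 := (stab R).mul_mem hτS h4
      simp only [Prod.mk_mul_mk] at h5
      have e : (-1 : SL2 (ZMod p)) * (-1 * A) = A := by
        rw [← mul_assoc, neg_mul_neg, one_mul, one_mul]
      rwa [e] at h5
  -- (ii)
  have hii : ∀ (g : G) (A : SL2 (ZMod p)) (c : Fin 2 → ZMod p), (g, A) ∈ stab R →
      g ∈ Subgroup.normalizer (T : Set G) → (g, Multiplicative.ofAdd c) ∈ R → c = 0 ∧ A = 1 := by
    intro g A c hgA hgT hgc
    have hc0 : c = 0 := by
      have h1 : g * τ * g⁻¹ * τ⁻¹ ∈ T :=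
        T.mul_mem ((Subgroup.mem_normalizer_iff.1 hgT τ).1 hτT) (T.inv_mem hτT)
      have h2 : (g⁻¹, Multiplicative.ofAdd (-c)) ∈ R := R.inv_mem hgc
      have h3 := (mem_stab.1 hτS _ _).1 h2
      rw [act_neg_one, neg_neg] at h3
      have h4 := R.mul_mem hgc h3
      simp only [Prod.mk_mul_mk] at h4
      obtain ⟨r, hr⟩ := hT.2.1 ⟨_, h1⟩
      have hr' : (g * τ * g⁻¹ * τ⁻¹) ^ 2 ^ r = 1 := congrArg Subtype.val hr
      have h5 := R.pow_mem h4 (2 ^ r)
      have e1 : g * (τ * g⁻¹ * τ⁻¹) = g * τ * g⁻¹ * τ⁻¹ := by group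
      rw [Prod.pow_mk, e1, hr'] at h5
      have h6 := hfun _ h5
      rw [← ofAdd_add, ← ofAdd_nsmul] at h6
      have h7 : (2 ^ r) • (c + c) = 0 := Multiplicative.ofAdd.injective h6
      ext i
      have h8 := congrFun h7 i
      simp only [Pi.smul_apply, Pi.add_apply, Pi.zero_apply, nsmul_eq_mul, Nat.cast_pow,
        Nat.cast_ofNat] at h8
      have h9 : (2 : ZMod p) ^ (r + 1) * c i = 0 := by rw [pow_succ]; linear_combination h8
      exact (mul_eq_zero.1 h9).resolve_left (pow_ne_zero _ h2p)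
    refine ⟨hc0, ?_⟩
    subst hc0
    exact eq_one_of_mem hfun hsurj hgA hgc
  -- the graph
  let Γ : Subgroup (G × ↥(Cfsg.qdOver (ZMod p))) :=
    { carrier := {mq | ∃ (e l₁ : G) (c : Fin 2 → ZMod p) (A : SL2 (ZMod p)), mq.1 = e * l₁ ∧
        mq.2 = mk A c ∧ (e, Multiplicative.ofAdd c) ∈ R ∧ (l₁, A) ∈ stab R ∧
        l₁ ∈ Subgroup.normalizer (T : Set G)}
      one_mem' := ⟨1, 1, 0, 1, by simp, mk_one_zero.symm, R.one_mem, (stab R).one_mem,
        Subgroup.one_mem _⟩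
      mul_mem' := by
        rintro ⟨_, _⟩ ⟨_, _⟩ ⟨e, l₁, c, A, rfl, rfl, h1, h2, h3⟩ ⟨e', l₁', c', A', rfl, rfl, h1', h2', h3'⟩
        refine ⟨e * (l₁ * e' * l₁⁻¹), l₁ * l₁', act A c' + c, A * A', ?_, ?_, ?_,
          (stab R).mul_mem h2 h2', Subgroup.mul_mem _ h3 h3'⟩
        · show e * l₁ * (e' * l₁') = _
          group
        · show mk A c * mk A' c' = _
          rw [mk_mul_mk, act_eq_mulVec]
        · have h4 := R.mul_mem h1 ((mem_stab.1 h2 _ _).1 h1')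
          simp only [Prod.mk_mul_mk] at h4
          rwa [← ofAdd_add, add_comm] at h4
      inv_mem' := by
        rintro ⟨_, _⟩ ⟨e, l₁, c, A, rfl, rfl, h1, h2, h3⟩
        refine ⟨l₁⁻¹ * e⁻¹ * l₁, l₁⁻¹, act A⁻¹ (-c), A⁻¹, ?_, ?_, ?_, (stab R).inv_mem h2,
          Subgroup.inv_mem _ h3⟩
        · show (e * l₁)⁻¹ = _
          group
        · show (mk A c)⁻¹ = _
          exact mk_inv A c
        · have h4 : (e⁻¹, Multiplicative.ofAdd (-c)) ∈ R := R.inv_mem h1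
          have h5 : (l₁⁻¹, A⁻¹) ∈ stab R := (stab R).inv_mem h2
          have h6 := (mem_stab.1 h5 _ _).1 h4
          rwa [inv_inv] at h6 }
  show Involves ↥(Cfsg.qdOver (ZMod p)) G
  apply involves_of_graph Γ
  · rintro q ⟨e, l₁, c, A, h0, rfl, h1, h2, h3⟩
    have h0' : (1 : G) = e * l₁ := h0
    have hl : l₁ = e⁻¹ := (inv_eq_of_mul_eq_one_right h0'.symm).symm
    have h4 : (l₁, Multiplicative.ofAdd (-c)) ∈ R := by
      rw [hl]
      exact R.inv_mem h1
    obtain ⟨h5, h6⟩ := hii l₁ A (-c) h2 h3 h4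
    rw [neg_eq_zero] at h5
    show mk A c = 1
    rw [h5, h6, mk_one_zero]
  · intro q
    obtain ⟨e, he⟩ := hsurj (Multiplicative.ofAdd (trFun q))
    obtain ⟨l₁, hl1, hl2⟩ := hi (blkFun q)
    exact ⟨e * l₁, e, l₁, trFun q, blkFun q, rfl, (mk_blk_tr q).symm, he, hl1, hl2⟩


/-- A quadratic pair gives a section isomorphic to `Qd(p)`. -/
theorem QPair.involves_qd {p : ℕ} [Fact p.Prime] (hp : p ≠ 2) {G : Type*} [Group G] [Finite G]
    {P : Subgroup G} {x y : G} (h : QPair p P x y) : Involves ↥(Cfsg.qd p) G := by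
  obtain ⟨a, -, b, -, hab⟩ := QPair.exists_nPair hp h
  exact NPair.involves_qd hp hab

/-- `Qd(p)`-free groups have no quadratic pairs; hence all their sections are `p`-stable in every
sense (see `Helper31Pair3.NoQP`). -/
theorem noQP_of_not_involves_qd {p : ℕ} [Fact p.Prime] (hp : p ≠ 2) {G : Type*} [Group G]
    [Finite G] (h : ¬ Involves ↥(Cfsg.qd p) G) : Cfsg.Agent.Lib.Helper31Pair3.NoQP p G :=
  fun _ _ _ hq => h (QPair.involves_qd hp hq)

end Cfsg.Agent.Lib.Helper31Nat2
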