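import Mathlib

set_option autoImplicit false

namespace Cfsg.Agent.Lib.Helper31NormOne

open Polynomial

/-- The norm of `t + b` is a monic polynomial in `t` of degree the dimension. -/
theorem exists_norm_poly {K L : Type*} [Field K] [Field L] [Algebra K L] [FiniteDimensional K L]
    (b : L) : ∃ f : K[X], f.Monic ∧ f.natDegree = Module.finrank K L ∧
      ∀ t : K, f.eval t = Algebra.norm K (algebraMap K L t + b) := by
  refine ⟨(Algebra.lmul K L (-b)).charpoly, LinearMap.charpoly_monic _,
    LinearMap.charpoly_natDegree _, fun t => ?_⟩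
  rw [LinearMap.eval_charpoly, Algebra.norm_apply]
  congr 1
  ext x
  simp [Algebra.algebraMap_eq_smul_one]

/-- The set of `a` with `N a = N (2 - a) = 1`. -/
def normPairSet (K L : Type*) [Field K] [Field L] [Algebra K L] : Set L :=
  {a : L | Algebra.norm K a = 1 ∧ Algebra.norm K (2 - a) = 1}

theorem le_finrank_of_inv_closed (p : ℕ) [Fact p.Prime] {L : Type*} [Field L] [Algebra (ZMod p) L]
    [FiniteDimensional (ZMod p) L]
    (hinv : ∀ a ∈ normPairSet (ZMod p) L, a⁻¹ ∈ normPairSet (ZMod p) L)
    (a : L) (ha : a ∈ normPairSet (ZMod p) L) (ha1 : a ≠ 1) :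
    p ≤ Module.finrank (ZMod p) L := by
  have hne0 : ∀ x : L, Algebra.norm (ZMod p) x = 1 → x ≠ 0 := by
    intro x hx h0
    rw [h0, Algebra.norm_zero] at hx
    exact zero_ne_one hx
  have htau : ∀ x ∈ normPairSet (ZMod p) L, 2 - x⁻¹ ∈ normPairSet (ZMod p) L := by
    intro x hx
    have h := hinv x hx
    refine ⟨h.2, ?_⟩
    have : (2 : L) - (2 - x⁻¹) = x⁻¹ := by ring
    rw [this]; exact h.1
  set b : L := (a - 1)⁻¹ with hb
  have ha1' : a - 1 ≠ 0 := sub_ne_zero.mpr ha1
  have hb0 : b ≠ 0 := inv_ne_zero ha1'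
  have key : ∀ n : ℕ, b + n ≠ 0 ∧ 1 + (b + n)⁻¹ ∈ normPairSet (ZMod p) L := by
    intro n
    induction n with
    | zero =>
      refine ⟨by simpa using hb0, ?_⟩
      have : 1 + (b + ((0 : ℕ) : L))⁻¹ = a := by
        rw [hb]; simp
      rw [this]; exact ha
    | succ n ih =>
      obtain ⟨h0, hE⟩ := ih
      have h1 : 1 + (b + n)⁻¹ ≠ 0 := hne0 _ hE.1
      have h2 : b + ((n + 1 : ℕ) : L) ≠ 0 := by
        intro h
        apply h1
        have : 1 + (b + n)⁻¹ = (b + ((n + 1 : ℕ) : L)) * (b + n)⁻¹ := by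
          push_cast
          field_simp
          ring
        rw [this, h, zero_mul]
      refine ⟨h2, ?_⟩
      have h3 := htau _ hE
      have : 2 - (1 + (b + (n : L))⁻¹)⁻¹ = 1 + (b + ((n + 1 : ℕ) : L))⁻¹ := by
        have h2' : b + (n : L) + 1 ≠ 0 := by
          have : b + ((n + 1 : ℕ) : L) = b + (n : L) + 1 := by push_cast; ring
          rwa [this] at h2
        have e1 : 1 + (b + (n : L))⁻¹ = (b + n + 1) / (b + n) := by
          field_simp
        rw [e1]
        push_cast
        rw [← add_assoc]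
        field_simp
        ring
      rw [this] at h3
      exact h3
  have hconst : ∀ n : ℕ, Algebra.norm (ZMod p) (b + n) = Algebra.norm (ZMod p) b := by
    intro n
    induction n with
    | zero => simp
    | succ n ih =>
      obtain ⟨h0, hE⟩ := key n
      have : b + ((n + 1 : ℕ) : L) = (1 + (b + n)⁻¹) * (b + n) := by
        push_cast
        field_simp
        ring
      rw [this, map_mul, hE.1, one_mul, ih]
  obtain ⟨f, hfm, hfd, hfe⟩ := exists_norm_poly (K := ZMod p) b
  by_contra hlt
  rw [not_le] at hlt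
  set c := Algebra.norm (ZMod p) b with hc
  have hpos : 0 < Module.finrank (ZMod p) L := Module.finrank_pos
  have hdeg : (f - C c).natDegree = Module.finrank (ZMod p) L := by
    rw [natDegree_sub_C, hfd]
  have hzero : f - C c = 0 := by
    apply eq_zero_of_natDegree_lt_card_of_eval_eq_zero (f - C c) (f := (id : ZMod p → ZMod p))
      Function.injective_id
    · intro i
      obtain ⟨n, rfl⟩ : ∃ n : ℕ, (n : ZMod p) = i := ⟨i.val, ZMod.natCast_zmod_val i⟩
      simp only [id, eval_sub, eval_C, hfe, map_natCast]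
      rw [add_comm, hconst n, sub_self]
    · rw [hdeg, ZMod.card]; exact hlt
  rw [hzero] at hdeg
  simp at hdeg
  omega

end Cfsg.Agent.Lib.Helper31NormOne
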