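import Mathlib

set_option autoImplicit false

namespace Cfsg.Agent.Lib.Helper32Comb

open scoped Classical in
/-- number of nonzero entries of the matrix `r i + c j`. -/
noncomputable def cnt {I J : Type*} [Fintype I] [Fintype J] (r : I → ℂ) (c : J → ℂ) : ℕ :=
  ∑ i : I, ∑ j : J, if r i + c j ≠ 0 then 1 else 0

theorem cnt_eq_card {I J : Type*} [Fintype I] [Fintype J] (r : I → ℂ) (c : J → ℂ) :
    Nat.card {p : I × J // r p.1 + c p.2 ≠ 0} = cnt r c := by
  classical
  rw [Nat.card_eq_fintype_card, Fintype.card_subtype, Finset.card_filter, Fintype.sum_prod_type]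
  rfl

theorem cnt_comm {I J : Type*} [Fintype I] [Fintype J] (r : I → ℂ) (c : J → ℂ) :
    cnt r c = cnt c r := by
  unfold cnt
  rw [Finset.sum_comm]
  apply Finset.sum_congr rfl
  intro j _
  apply Finset.sum_congr rfl
  intro i _
  rw [add_comm]

open scoped Classical in
theorem comb1 {I J : Type*} [Fintype I] [Fintype J] (r : I → ℂ) (c : J → ℂ)
    (hr : ∀ i i', r i = r i') (hN : cnt r c < 2 * Fintype.card I) :
    (∀ i j, r i + c j = 0) ∨ ∃ (j₀ : J) (a : ℂ), ∀ i j, r i + c j = if j = j₀ then a else 0 := by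
  by_cases hI : IsEmpty I
  · left; intro i; exact hI.elim i
  rw [not_isEmpty_iff] at hI
  obtain ⟨i₀⟩ := hI
  set J' := Finset.univ.filter (fun j => r i₀ + c j ≠ 0) with hJ'
  have h1 : cnt r c = Fintype.card I * J'.card := by
    unfold cnt
    rw [Finset.sum_congr rfl (g := fun _ => J'.card)]
    · rw [Finset.sum_const, Finset.card_univ, smul_eq_mul]
    · intro i _
      rw [hJ', Finset.card_filter, hr i i₀]
  rw [h1, mul_comm] at hN
  have h2 : J'.card < 2 := Nat.lt_of_mul_lt_mul_right hN
  by_cases hE : J' = ∅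
  · left
    intro i j
    by_contra hne
    have : j ∈ J' := by
      rw [hJ', Finset.mem_filter]
      exact ⟨Finset.mem_univ _, by rwa [hr i₀ i]⟩
    rw [hE] at this
    exact absurd this (Finset.notMem_empty _)
  · right
    obtain ⟨j₀, hj₀⟩ := Finset.nonempty_iff_ne_empty.2 hE
    refine ⟨j₀, r i₀ + c j₀, ?_⟩
    intro i j
    split_ifs with hj
    · rw [hj, hr i i₀]
    · by_contra hne
      have hjm : j ∈ J' := by
        rw [hJ', Finset.mem_filter]
        exact ⟨Finset.mem_univ _, by rwa [hr i₀ i]⟩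
      have := Finset.card_le_one.1 (Nat.lt_succ_iff.1 h2) j hjm j₀ hj₀
      exact hj this

theorem comb3 {I J : Type*} [Fintype I] [Fintype J] (r : I → ℂ) (c : J → ℂ)
    (i₁ i₂ : I) (hi : r i₁ ≠ r i₂) (j₁ j₂ : J) (hj : c j₁ ≠ c j₂) :
    Fintype.card J + Fintype.card I ≤ cnt r c + 2 := by
  classical
  set g : I → ℕ := fun i => ∑ j : J, if r i + c j ≠ 0 then 1 else 0 with hg
  have hg1 : ∀ i, 1 ≤ g i := by
    intro i
    by_cases h : r i + c j₁ ≠ 0
    · calc 1 = (if r i + c j₁ ≠ 0 then 1 else 0) := by rw [if_pos h]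
        _ ≤ g i := Finset.single_le_sum (f := fun j => if r i + c j ≠ 0 then 1 else 0)
            (fun _ _ => Nat.zero_le _) (Finset.mem_univ j₁)
    · have h' : r i + c j₂ ≠ 0 := by
        intro h2
        push Not at h
        apply hj
        have : c j₁ = - r i := by linear_combination h
        have h3 : c j₂ = - r i := by linear_combination h2
        rw [this, h3]
      calc 1 = (if r i + c j₂ ≠ 0 then 1 else 0) := by rw [if_pos h']
        _ ≤ g i := Finset.single_le_sum (f := fun j => if r i + c j ≠ 0 then 1 else 0)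
            (fun _ _ => Nat.zero_le _) (Finset.mem_univ j₂)
  have hg2 : Fintype.card J ≤ g i₁ + g i₂ := by
    rw [hg]
    simp only
    rw [← Finset.sum_add_distrib, ← Finset.card_univ, Finset.card_eq_sum_ones]
    apply Finset.sum_le_sum
    intro j _
    by_cases h : r i₁ + c j ≠ 0
    · rw [if_pos h]; omega
    · have h' : r i₂ + c j ≠ 0 := by
        intro h2
        push Not at h
        apply hi
        linear_combination h - h2
      rw [if_pos h']; omega
  have hne : i₁ ≠ i₂ := fun h => hi (by rw [h])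
  have h3 : cnt r c = g i₁ + (g i₂ + ∑ i ∈ (Finset.univ.erase i₁).erase i₂, g i) := by
    unfold cnt
    rw [← Finset.add_sum_erase Finset.univ g (Finset.mem_univ i₁),
      ← Finset.add_sum_erase (Finset.univ.erase i₁) g
        (Finset.mem_erase.2 ⟨hne.symm, Finset.mem_univ i₂⟩)]
  have h4 : ((Finset.univ.erase i₁).erase i₂).card ≤ ∑ i ∈ (Finset.univ.erase i₁).erase i₂, g i := by
    rw [Finset.card_eq_sum_ones]
    exact Finset.sum_le_sum (fun i _ => hg1 i)
  have h5 : ((Finset.univ.erase i₁).erase i₂).card + 2 = Fintype.card I := by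
    rw [Finset.card_erase_of_mem (Finset.mem_erase.2 ⟨hne.symm, Finset.mem_univ i₂⟩),
      Finset.card_erase_of_mem (Finset.mem_univ i₁), Finset.card_univ]
    have : 2 ≤ Fintype.card I := by
      have := Finset.card_le_univ ({i₁, i₂} : Finset I)
      rwa [Finset.card_pair hne] at this
    omega
  omega

open scoped Classical in
theorem comb {I J : Type*} [Fintype I] [Fintype J] (r : I → ℂ) (c : J → ℂ)
    (h12 : Fintype.card I + 2 ≤ Fintype.card J) (hN : cnt r c < 2 * Fintype.card I) :
    (∀ i j, r i + c j = 0) ∨ (∃ (j₀ : J) (a : ℂ), ∀ i j, r i + c j = if j = j₀ then a else 0) ∨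
      (∃ (i₀ : I) (a : ℂ), ∀ i j, r i + c j = if i = i₀ then a else 0) := by
  by_cases hr : ∀ i i', r i = r i'
  · rcases comb1 r c hr hN with h | h
    · exact Or.inl h
    · exact Or.inr (Or.inl h)
  by_cases hc : ∀ j j', c j = c j'
  · have hN' : cnt c r < 2 * Fintype.card J := by rw [← cnt_comm]; omega
    rcases comb1 c r hc hN' with h | h
    · left; intro i j; rw [add_comm]; exact h j i
    · right; right
      obtain ⟨i₀, a, h⟩ := h
      exact ⟨i₀, a, fun i j => by rw [add_comm]; exact h j i⟩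
  push Not at hr hc
  obtain ⟨i₁, i₂, hi⟩ := hr
  obtain ⟨j₁, j₂, hj⟩ := hc
  have := comb3 r c i₁ i₂ hi j₁ j₂ hj
  omega

end Cfsg.Agent.Lib.Helper32Comb
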