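import Cfsg.Agent.Lib.Helper32Ind
import Cfsg.Agent.Lib.Helper4Char
import Cfsg.Agent.Lib.Helper82Linear
import Cfsg.Agent.Lib.Helper29Basic
import Cfsg.Prelude.Def_OddOrderChar
import Cfsg.Prelude.Def_OddOrderLocal
import Mathlib

set_option autoImplicit false
open Cfsg

namespace Cfsg.Agent.Lib.Helper32CyclicTI

open Cfsg.Agent.Lib.Helper32Ind Cfsg.Agent.Lib.Helper19Ind Cfsg.Agent.Lib.Helper4Char

variable {G : Type*} [Group G]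

/-- the function `(1 - φ)(1 - ψ)` on `W`. -/
noncomputable def aFun {W : Type*} [Group W] (φ ψ : W →* ℂˣ) : W → ℂ :=
  fun w => 1 - (φ w : ℂ) - (ψ w : ℂ) + (φ w : ℂ) * (ψ w : ℂ)

theorem aFun_eq_zero (W₁ W₂ : Subgroup G) (φ ψ : ↥(W₁ ⊔ W₂) →* ℂˣ)
    (hφ : ∀ w : ↥(W₁ ⊔ W₂), (w : G) ∈ W₂ → φ w = 1)
    (hψ : ∀ w : ↥(W₁ ⊔ W₂), (w : G) ∈ W₁ → ψ w = 1) (w : ↥(W₁ ⊔ W₂))
    (hw : (w : G) ∈ W₁ ∨ (w : G) ∈ W₂) : aFun φ ψ w = 0 := by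
  unfold aFun
  rcases hw with hw | hw
  · rw [hψ w hw]; simp
  · rw [hφ w hw]; simp

theorem inner_ind_aFun [Fintype G] (W₁ W₂ : Subgroup G) (φ ψ : ↥(W₁ ⊔ W₂) →* ℂˣ)
    (hφ : ∀ w : ↥(W₁ ⊔ W₂), (w : G) ∈ W₂ → φ w = 1)
    (hψ : ∀ w : ↥(W₁ ⊔ W₂), (w : G) ∈ W₁ → ψ w = 1)
    (θ : G → ℂ) (hθ : IsClassFunction G θ)
    (hθV : ∀ w : ↥(W₁ ⊔ W₂), (w : G) ∉ W₁ → (w : G) ∉ W₂ → θ w = 0) :
    classInner θ (indFun (W₁ ⊔ W₂) (aFun φ ψ)) = 0 := by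
  have : Fintype ↥(W₁ ⊔ W₂) := Fintype.ofFinite _
  rw [← classInner_conj_symm, frobenius _ _ _ hθ]
  have : classInner (aFun φ ψ) (fun h : ↥(W₁ ⊔ W₂) => θ h) = 0 := by
    unfold classInner
    rw [Finset.sum_eq_zero, mul_zero]
    intro w _
    by_cases hw : (w : G) ∈ W₁ ∨ (w : G) ∈ W₂
    · rw [aFun_eq_zero W₁ W₂ φ ψ hφ hψ w hw, zero_mul]
    · push Not at hw
      show aFun φ ψ w * (starRingEnd ℂ) (θ w) = 0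
      rw [hθV w hw.1 hw.2]; simp
  rw [this, map_zero]

/-- the rectangle rule in additive form. -/
theorem rect [Fintype G] (W₁ W₂ : Subgroup G) (χ : (↥(W₁ ⊔ W₂) →* ℂˣ) → (G → ℂ))
    (hχ : IsCyclicTIFamily W₁ W₂ χ) (θ : G → ℂ) (hθ : IsClassFunction G θ)
    (hθV : ∀ w : ↥(W₁ ⊔ W₂), (w : G) ∉ W₁ → (w : G) ∉ W₂ → θ w = 0)
    (φ ψ : ↥(W₁ ⊔ W₂) →* ℂˣ)
    (hφ : ∀ w : ↥(W₁ ⊔ W₂), (w : G) ∈ W₂ → φ w = 1)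
    (hψ : ∀ w : ↥(W₁ ⊔ W₂), (w : G) ∈ W₁ → ψ w = 1) :
    classInner θ (χ (φ * ψ)) = classInner θ (χ φ) + classInner θ (χ ψ) - classInner θ (χ 1) := by
  by_cases h1 : φ = 1
  · have e : (1 : ↥(W₁ ⊔ W₂) →* ℂˣ) * ψ = ψ := by ext w; simp
    rw [h1, e]; ring
  by_cases h2 : ψ = 1
  · have e : φ * (1 : ↥(W₁ ⊔ W₂) →* ℂˣ) = φ := by ext w; simp
    rw [h2, e]; ring
  have h := inner_ind_aFun W₁ W₂ φ ψ hφ hψ θ hθ hθV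
  have hind := hχ.induced_eq φ ψ h1 h2 hφ hψ
  have e : indFun (W₁ ⊔ W₂) (aFun φ ψ) = χ 1 - χ φ - χ ψ + χ (φ * ψ) := by
    unfold aFun
    rw [hind, hχ.map_one]
    rfl
  rw [e, classInner_add_right, classInner_sub_right, classInner_sub_right] at h
  linear_combination h

/-- a linear character as a complex function. -/
noncomputable def lin {W : Type*} [Group W] (ω : W →* ℂˣ) : W → ℂ := fun w => (ω w : ℂ)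

theorem lin_injective {W : Type*} [Group W] : Function.Injective (lin : (W →* ℂˣ) → W → ℂ) := by
  intro ω ω' h
  ext w
  exact congrFun h w

open scoped Classical in
theorem lin_inner {W : Type*} [Group W] [Fintype W] (ω ω' : W →* ℂˣ) :
    classInner (lin ω) (lin ω') = if ω = ω' then 1 else 0 := by
  have h := classInner_irr (Cfsg.Agent.Lib.Helper82Linear.isIrrCharacter_of_hom ω)
    (Cfsg.Agent.Lib.Helper82Linear.isIrrCharacter_of_hom ω')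
  have e : ((fun g => ((ω g : ℂˣ) : ℂ)) = fun g => ((ω' g : ℂˣ) : ℂ)) ↔ ω = ω' :=
    ⟨fun h => lin_injective h, fun h => by rw [h]⟩
  simp only [e] at h
  exact h

theorem eq_one_of_trivial (W₁ W₂ : Subgroup G) (ω : ↥(W₁ ⊔ W₂) →* ℂˣ)
    (h₁ : ∀ w : ↥(W₁ ⊔ W₂), (w : G) ∈ W₁ → ω w = 1)
    (h₂ : ∀ w : ↥(W₁ ⊔ W₂), (w : G) ∈ W₂ → ω w = 1) : ω = 1 := by
  have hle : W₁ ⊔ W₂ ≤ (ω.ker).map (W₁ ⊔ W₂).subtype := by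
    apply sup_le
    · intro a ha
      exact ⟨⟨a, (le_sup_left : W₁ ≤ W₁ ⊔ W₂) ha⟩, h₁ _ ha, rfl⟩
    · intro a ha
      exact ⟨⟨a, (le_sup_right : W₂ ≤ W₁ ⊔ W₂) ha⟩, h₂ _ ha, rfl⟩
  ext w
  obtain ⟨w', hw', e⟩ := hle w.2
  have : w' = w := Subtype.ext e
  rw [← this]
  have h1 : ω w' = 1 := hw'
  rw [h1]; rfl

theorem mul_eq_mul_iff (W₁ W₂ : Subgroup G) (φ φ' ψ ψ' : ↥(W₁ ⊔ W₂) →* ℂˣ)
    (hφ : ∀ w : ↥(W₁ ⊔ W₂), (w : G) ∈ W₂ → φ w = 1)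
    (hφ' : ∀ w : ↥(W₁ ⊔ W₂), (w : G) ∈ W₂ → φ' w = 1)
    (hψ : ∀ w : ↥(W₁ ⊔ W₂), (w : G) ∈ W₁ → ψ w = 1)
    (hψ' : ∀ w : ↥(W₁ ⊔ W₂), (w : G) ∈ W₁ → ψ' w = 1) :
    φ * ψ = φ' * ψ' ↔ φ = φ' ∧ ψ = ψ' := by
  constructor
  · intro h
    have hw : ∀ w, φ w * ψ w = φ' w * ψ' w := fun w => by
      have := congrArg (fun f : ↥(W₁ ⊔ W₂) →* ℂˣ => f w) h
      simpa using this
    have h1 : φ * φ'⁻¹ = 1 := by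
      apply eq_one_of_trivial W₁ W₂
      · intro w hw1
        have := hw w
        rw [hψ w hw1, hψ' w hw1, mul_one, mul_one] at this
        simp [this]
      · intro w hw2
        simp [hφ w hw2, hφ' w hw2]
    have h2 : φ = φ' := by
      ext w
      have := congrArg (fun f : ↥(W₁ ⊔ W₂) →* ℂˣ => f w) h1
      simp only [MonoidHom.mul_apply, MonoidHom.inv_apply, MonoidHom.one_apply] at this
      rw [mul_inv_eq_one] at this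
      rw [this]
    refine ⟨h2, ?_⟩
    ext w
    have := hw w
    rw [h2] at this
    rw [mul_left_cancel this]
  · rintro ⟨rfl, rfl⟩; rfl

theorem mem_of_conj_mem [Finite G] (W₁ W₂ : Subgroup G) (hW : IsSelfNormalizingCyclic W₁ W₂)
    (g t : G) (ht : t ∈ W₁ ⊔ W₂) (ht1 : t ∉ W₁) (ht2 : t ∉ W₂) (hgt : g * t * g⁻¹ ∈ W₁ ⊔ W₂) :
    g ∈ W₁ ⊔ W₂ := by
  obtain ⟨-, -, -, -, hcyc, hN⟩ := hW
  have hmap : ∀ s : G, Subgroup.zpowers (g * s * g⁻¹) =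
      (Subgroup.zpowers s).map (MulAut.conj g).toMonoidHom := by
    intro s
    rw [MonoidHom.map_zpowers]
    rfl
  have hz : Subgroup.zpowers (g * t * g⁻¹) = Subgroup.zpowers t := by
    apply Cfsg.Agent.Lib.Helper29Basic.eq_of_card_eq_of_le_cyclic hcyc
    · rwa [Subgroup.zpowers_le]
    · rwa [Subgroup.zpowers_le]
    · rw [hmap]
      exact Subgroup.card_map_of_injective (MulAut.conj g).injective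
  set X : Set G := {s | Subgroup.zpowers s = Subgroup.zpowers t} with hX
  have hXsub : X ⊆ (↑(W₁ ⊔ W₂) : Set G) \ (↑W₁ ∪ ↑W₂) := by
    intro s hs
    have hs' : Subgroup.zpowers s = Subgroup.zpowers t := hs
    refine ⟨?_, ?_⟩
    · have : s ∈ Subgroup.zpowers t := hs' ▸ Subgroup.mem_zpowers s
      exact (Subgroup.zpowers_le.2 ht) this
    · rintro (h | h)
      · have : t ∈ Subgroup.zpowers s := hs' ▸ Subgroup.mem_zpowers t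
        exact ht1 ((Subgroup.zpowers_le.2 h) this)
      · have : t ∈ Subgroup.zpowers s := hs' ▸ Subgroup.mem_zpowers t
        exact ht2 ((Subgroup.zpowers_le.2 h) this)
  have hne : X.Nonempty := ⟨t, rfl⟩
  rw [← hN X hXsub hne, Subgroup.mem_set_normalizer_iff]
  intro s
  show Subgroup.zpowers s = Subgroup.zpowers t ↔ Subgroup.zpowers (g * s * g⁻¹) = Subgroup.zpowers t
  constructor
  · intro h
    rw [hmap, h, ← hmap, hz]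
  · intro h
    rw [← hz, hmap, hmap] at h
    exact Subgroup.map_injective (MulAut.conj g).injective h

open scoped Classical in
theorem lin_inner_mul (W₁ W₂ : Subgroup G) [Fintype ↥(W₁ ⊔ W₂)] (φ φ' ψ ψ' : ↥(W₁ ⊔ W₂) →* ℂˣ)
    (hφ : ∀ w : ↥(W₁ ⊔ W₂), (w : G) ∈ W₂ → φ w = 1)
    (hφ' : ∀ w : ↥(W₁ ⊔ W₂), (w : G) ∈ W₂ → φ' w = 1)
    (hψ : ∀ w : ↥(W₁ ⊔ W₂), (w : G) ∈ W₁ → ψ w = 1)
    (hψ' : ∀ w : ↥(W₁ ⊔ W₂), (w : G) ∈ W₁ → ψ' w = 1) :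
    classInner (lin (φ * ψ)) (lin (φ' * ψ')) = if φ = φ' ∧ ψ = ψ' then 1 else 0 := by
  rw [lin_inner]
  simp only [mul_eq_mul_iff W₁ W₂ φ φ' ψ ψ' hφ hφ' hψ hψ']

theorem aFun_eq {W : Type*} [Group W] (φ ψ : W →* ℂˣ) :
    aFun φ ψ = lin ((1 : W →* ℂˣ) * 1) - lin (φ * 1) - lin (1 * ψ) + lin (φ * ψ) := by
  funext w
  simp [aFun, lin]

open scoped Classical in
theorem inner_aFun_lin (W₁ W₂ : Subgroup G) [Fintype ↥(W₁ ⊔ W₂)] (φ φ' ψ ψ' : ↥(W₁ ⊔ W₂) →* ℂˣ)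
    (hφ : ∀ w : ↥(W₁ ⊔ W₂), (w : G) ∈ W₂ → φ w = 1)
    (hφ' : ∀ w : ↥(W₁ ⊔ W₂), (w : G) ∈ W₂ → φ' w = 1)
    (hψ : ∀ w : ↥(W₁ ⊔ W₂), (w : G) ∈ W₁ → ψ w = 1)
    (hψ' : ∀ w : ↥(W₁ ⊔ W₂), (w : G) ∈ W₁ → ψ' w = 1) :
    classInner (aFun φ ψ) (lin (φ' * ψ')) =
      (if (1 : ↥(W₁ ⊔ W₂) →* ℂˣ) = φ' ∧ (1 : ↥(W₁ ⊔ W₂) →* ℂˣ) = ψ' then 1 else 0)
      - (if φ = φ' ∧ (1 : ↥(W₁ ⊔ W₂) →* ℂˣ) = ψ' then 1 else 0)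
      - (if (1 : ↥(W₁ ⊔ W₂) →* ℂˣ) = φ' ∧ ψ = ψ' then 1 else 0)
      + (if φ = φ' ∧ ψ = ψ' then 1 else 0) := by
  have t1 : ∀ w : ↥(W₁ ⊔ W₂), (w : G) ∈ W₂ → (1 : ↥(W₁ ⊔ W₂) →* ℂˣ) w = 1 := fun _ _ => rfl
  have t2 : ∀ w : ↥(W₁ ⊔ W₂), (w : G) ∈ W₁ → (1 : ↥(W₁ ⊔ W₂) →* ℂˣ) w = 1 := fun _ _ => rfl
  rw [aFun_eq, classInner_add_left, classInner_sub_left, classInner_sub_left,
    lin_inner_mul W₁ W₂ _ _ _ _ t1 hφ' t2 hψ', lin_inner_mul W₁ W₂ _ _ _ _ hφ hφ' t2 hψ',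
    lin_inner_mul W₁ W₂ _ _ _ _ t1 hφ' hψ hψ', lin_inner_mul W₁ W₂ _ _ _ _ hφ hφ' hψ hψ']

open scoped Classical in
theorem inner_aFun_aFun (W₁ W₂ : Subgroup G) [Fintype ↥(W₁ ⊔ W₂)]
    (φ φ' ψ ψ' : ↥(W₁ ⊔ W₂) →* ℂˣ)
    (h1 : φ ≠ 1) (h1' : φ' ≠ 1) (h2 : ψ ≠ 1) (h2' : ψ' ≠ 1)
    (hφ : ∀ w : ↥(W₁ ⊔ W₂), (w : G) ∈ W₂ → φ w = 1)
    (hφ' : ∀ w : ↥(W₁ ⊔ W₂), (w : G) ∈ W₂ → φ' w = 1)
    (hψ : ∀ w : ↥(W₁ ⊔ W₂), (w : G) ∈ W₁ → ψ w = 1)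
    (hψ' : ∀ w : ↥(W₁ ⊔ W₂), (w : G) ∈ W₁ → ψ' w = 1) :
    classInner (aFun φ ψ) (aFun φ' ψ') =
      1 + (if φ = φ' then 1 else 0) + (if ψ = ψ' then 1 else 0)
        + (if φ = φ' then 1 else 0) * (if ψ = ψ' then 1 else 0) := by
  have t1 : ∀ w : ↥(W₁ ⊔ W₂), (w : G) ∈ W₂ → (1 : ↥(W₁ ⊔ W₂) →* ℂˣ) w = 1 := fun _ _ => rfl
  have t2 : ∀ w : ↥(W₁ ⊔ W₂), (w : G) ∈ W₁ → (1 : ↥(W₁ ⊔ W₂) →* ℂˣ) w = 1 := fun _ _ => rfl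
  rw [aFun_eq φ' ψ', classInner_add_right, classInner_sub_right, classInner_sub_right,
    inner_aFun_lin W₁ W₂ _ _ _ _ hφ t1 hψ t2, inner_aFun_lin W₁ W₂ _ _ _ _ hφ hφ' hψ t2,
    inner_aFun_lin W₁ W₂ _ _ _ _ hφ t1 hψ hψ', inner_aFun_lin W₁ W₂ _ _ _ _ hφ hφ' hψ hψ']
  simp only [h1, h2, h1'.symm, h2'.symm, true_and, and_true, false_and, and_false, if_true,
    if_false]
  by_cases e1 : φ = φ' <;> by_cases e2 : ψ = ψ' <;> simp [e1, e2]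

end Cfsg.Agent.Lib.Helper32CyclicTI
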