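import Cfsg.Agent.S1498
import Cfsg.Agent.S1499
import Mathlib

set_option autoImplicit false
open Cfsg

namespace Cfsg.Agent.Lib.Helper32Dade

variable {G : Type*} [Group G]

/-- `Rel g (x, a)`: `a ∈ A` and `x g x⁻¹ ∈ a H(a)`. -/
def Rel (A : Set G) (L : Subgroup G) (H : G → Subgroup G) (g : G) (p : G × L) : Prop :=
  (p.2 : G) ∈ A ∧ (p.2 : G)⁻¹ * (p.1 * g * p.1⁻¹) ∈ H (p.2 : G)

theorem exists_iff (A : Set G) (L : Subgroup G) (H : G → Subgroup G) (g : G) :
    (∃ a : ↥L, (a : G) ∈ A ∧ ∃ x : G, ∃ u ∈ H (a : G), x * g * x⁻¹ = (a : G) * u) ↔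
      ∃ p, Rel A L H g p := by
  constructor
  · rintro ⟨a, ha, x, u, hu, h⟩
    refine ⟨(x, a), ha, ?_⟩
    show (a : G)⁻¹ * (x * g * x⁻¹) ∈ H (a : G)
    rw [h]
    simpa using hu
  · rintro ⟨⟨x, a⟩, ha, h⟩
    exact ⟨a, ha, x, _, h, by simp⟩

theorem comm_of_mem {A : Set G} {L : Subgroup G} {H : G → Subgroup G}
    (hD : DadeHypothesis A L H) {a u : G} (ha : a ∈ A) (hu : u ∈ H a) : u * a = a * u := by
  have := hD.le_centralizer a ha hu
  rwa [Subgroup.mem_centralizer_singleton_iff] at this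

theorem decomp [Finite G] {A : Set G} {L : Subgroup G} {H : G → Subgroup G}
    (hD : DadeHypothesis A L H) {a : G} (ha : a ∈ A) {y : G}
    (hy : y ∈ Subgroup.centralizer ({a} : Set G)) :
    ∃ c ∈ L ⊓ Subgroup.centralizer ({a} : Set G), ∃ h ∈ H a, y = c * h := by
  set C := Subgroup.centralizer ({a} : Set G) with hC
  have hN : ((H a).subgroupOf C).Normal := by
    constructor
    intro n hn g
    rw [Subgroup.mem_subgroupOf] at hn ⊢
    exact hD.conj_mem_H a ha g g.2 n hn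
  have hsup : (L ⊓ C).subgroupOf C ⊔ (H a).subgroupOf C = ⊤ := by
    rw [← Subgroup.subgroupOf_sup inf_le_right (hD.le_centralizer a ha), sup_comm, hD.sup_eq a ha,
      Subgroup.subgroupOf_self]
  have hk : (⟨y, hy⟩ : C) ∈ (L ⊓ C).subgroupOf C ⊔ (H a).subgroupOf C := by rw [hsup]; trivial
  rw [← SetLike.mem_coe, Subgroup.mul_normal] at hk
  obtain ⟨c, hc, h, hh, hch⟩ := Set.mem_mul.1 hk
  exact ⟨c, Subgroup.mem_subgroupOf.1 hc, h, Subgroup.mem_subgroupOf.1 hh,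
    (congrArg Subtype.val hch).symm⟩

theorem sum_rel [Fintype G] {A : Set G} {L : Subgroup G} [Fintype L] {H : G → Subgroup G}
    (hD : DadeHypothesis A L H) (w : L → ℂ)
    (hw : ∀ (l a : L), (a : G) ∈ A → w (l * a * l⁻¹) = w a) (g : G) (a₁ : L) (x₁ : G)
    (h₁ : Rel A L H g (x₁, a₁)) [DecidablePred (Rel A L H g)] :
    ∑ p : G × L, (if Rel A L H g p then w p.2 else 0) =
      (Nat.card L : ℂ) * (Nat.card (H a₁) : ℂ) * w a₁ := by
  classical
  have : Fintype (H (a₁ : G)) := Fintype.ofFinite _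
  obtain ⟨ha₁, hu₁⟩ := h₁
  set u₁ : G := (a₁ : G)⁻¹ * (x₁ * g * x₁⁻¹) with hu₁def
  have hg₁ : x₁ * g * x₁⁻¹ = a₁ * u₁ := by rw [hu₁def]; group
  change u₁ ∈ H (a₁ : G) at hu₁
  rw [← Finset.sum_filter]
  have key : ∑ q : L × H (a₁ : G), w a₁ =
      ∑ p ∈ (Finset.univ : Finset (G × L)).filter (Rel A L H g), w p.2 := by
    apply Finset.sum_nbij (fun q => ((q.1 : G) * (q.2 : G) * x₁, q.1 * a₁ * q.1⁻¹))
    · rintro ⟨l, h⟩ -
      simp only [Finset.mem_filter, Finset.mem_univ, true_and]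
      refine ⟨hD.conj_mem l l.2 a₁ ha₁, ?_⟩
      show ((l * a₁ * l⁻¹ : L) : G)⁻¹ * ((l : G) * (h : G) * x₁ * g * ((l : G) * (h : G) * x₁)⁻¹) ∈
        H ((l * a₁ * l⁻¹ : L) : G)
      have e1 : ((l * a₁ * l⁻¹ : L) : G) = (l : G) * a₁ * (l : G)⁻¹ := by simp
      rw [e1]
      have hc := comm_of_mem hD ha₁ h.2
      have e2 : ((l : G) * a₁ * (l : G)⁻¹)⁻¹ * ((l : G) * (h : G) * x₁ * g * ((l : G) * (h : G) * x₁)⁻¹)
          = (l : G) * ((h : G) * u₁ * (h : G)⁻¹) * (l : G)⁻¹ := by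
        calc ((l : G) * a₁ * (l : G)⁻¹)⁻¹ * ((l : G) * (h : G) * x₁ * g * ((l : G) * (h : G) * x₁)⁻¹)
            = (l : G) * (a₁ : G)⁻¹ * (h : G) * (x₁ * g * x₁⁻¹) * (h : G)⁻¹ * (l : G)⁻¹ := by group
          _ = (l : G) * (a₁ : G)⁻¹ * ((h : G) * a₁) * u₁ * (h : G)⁻¹ * (l : G)⁻¹ := by
              rw [hg₁]; group
          _ = (l : G) * ((h : G) * u₁ * (h : G)⁻¹) * (l : G)⁻¹ := by rw [hc]; group
      rw [e2]
      exact Cfsg.Agent.S1498.incl A L H hD a₁ ha₁ l l.2 _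
        ((H (a₁ : G)).mul_mem ((H (a₁ : G)).mul_mem h.2 hu₁) ((H (a₁ : G)).inv_mem h.2))
    · rintro ⟨l, h⟩ - ⟨l', h'⟩ - hEq
      have e1 : (l : G) * (h : G) * x₁ = (l' : G) * (h' : G) * x₁ := congrArg Prod.fst hEq
      have e2 : (l : G) * (h : G) = (l' : G) * (h' : G) := mul_right_cancel e1
      have e3 : (l' : G)⁻¹ * l = (h' : G) * (h : G)⁻¹ := by
        calc (l' : G)⁻¹ * l = (l' : G)⁻¹ * ((l : G) * h) * (h : G)⁻¹ := by group
          _ = (h' : G) * (h : G)⁻¹ := by rw [e2]; group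
      have m1 : (h' : G) * (h : G)⁻¹ ∈ H (a₁ : G) := (H (a₁ : G)).mul_mem h'.2 ((H (a₁ : G)).inv_mem h.2)
      have m2 : (h' : G) * (h : G)⁻¹ ∈ L := by
        rw [← e3]; exact L.mul_mem (L.inv_mem l'.2) l.2
      have m3 : (h' : G) * (h : G)⁻¹ ∈ H (a₁ : G) ⊓ (L ⊓ Subgroup.centralizer ({(a₁ : G)} : Set G)) :=
        ⟨m1, m2, hD.le_centralizer a₁ ha₁ m1⟩
      rw [hD.inf_eq_bot a₁ ha₁, Subgroup.mem_bot] at m3
      have e4 : (h' : G) = h := by
        rw [mul_inv_eq_one] at m3; exact m3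
      have e5 : (l : G) = l' := by
        rw [e4] at e2; exact mul_right_cancel e2
      exact Prod.ext (Subtype.ext e5) (Subtype.ext e4.symm)
    · rintro ⟨x, a⟩ hp
      simp only [Finset.coe_filter, Finset.mem_univ, true_and, Set.mem_ofPred_eq] at hp
      obtain ⟨ha, hu⟩ := hp
      change (a : G) ∈ A at ha
      change (a : G)⁻¹ * (x * g * x⁻¹) ∈ H (a : G) at hu
      have hconj : (x * x₁⁻¹) * ((a₁ : G) * u₁) * (x * x₁⁻¹)⁻¹ =
          (a : G) * ((a : G)⁻¹ * (x * g * x⁻¹)) := by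
        rw [← hg₁]; group
      have hya := Cfsg.Agent.S1499.conj_eq A L H hD a₁ a ha₁ ha u₁ _ _ hu₁ hu hconj
      obtain ⟨l₀, hl₀, hl₀a⟩ := hD.fusion a₁ ha₁ (x * x₁⁻¹) (hya ▸ ha)
      have hcent : l₀⁻¹ * (x * x₁⁻¹) ∈ Subgroup.centralizer ({(a₁ : G)} : Set G) := by
        rw [Subgroup.mem_centralizer_singleton_iff]
        calc l₀⁻¹ * (x * x₁⁻¹) * a₁ = l₀⁻¹ * ((x * x₁⁻¹) * a₁ * (x * x₁⁻¹)⁻¹) * (x * x₁⁻¹) := by group
          _ = l₀⁻¹ * (l₀ * a₁ * l₀⁻¹) * (x * x₁⁻¹) := by rw [hl₀a]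
          _ = a₁ * (l₀⁻¹ * (x * x₁⁻¹)) := by group
      obtain ⟨c, hc, h, hh, hch⟩ := decomp hD ha₁ hcent
      refine ⟨(⟨l₀ * c, L.mul_mem hl₀ hc.1⟩, ⟨h, hh⟩), by simp, ?_⟩
      have hcc : c * a₁ = a₁ * c := Subgroup.mem_centralizer_singleton_iff.1 hc.2
      apply Prod.ext
      · show l₀ * c * h * x₁ = x
        calc l₀ * c * h * x₁ = l₀ * (c * h) * x₁ := by group
          _ = x := by rw [← hch]; group
      · apply Subtype.ext
        show l₀ * c * a₁ * (l₀ * c)⁻¹ = a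
        calc l₀ * c * a₁ * (l₀ * c)⁻¹ = l₀ * (c * a₁) * c⁻¹ * l₀⁻¹ := by group
          _ = l₀ * a₁ * l₀⁻¹ := by rw [hcc]; group
          _ = a := by rw [hl₀a, hya]
    · rintro ⟨l, h⟩ -
      exact (hw l a₁ ha₁).symm
  rw [← key, Finset.sum_const, Finset.card_univ, Fintype.card_prod, nsmul_eq_mul,
    Nat.card_eq_fintype_card, Nat.card_eq_fintype_card]
  push_cast
  ring

theorem finsum_mem_eq_sum_ite [Fintype G] (K : Subgroup G) (f : G → ℂ)
    [DecidablePred (· ∈ K)] :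
    ∑ᶠ u ∈ (K : Set G), f u = ∑ u : G, if u ∈ K then f u else 0 := by
  classical
  rw [finsum_mem_def, finsum_eq_sum_of_fintype]
  apply Finset.sum_congr rfl
  intro u _
  by_cases hu : u ∈ K
  · rw [Set.indicator_of_mem (by exact hu), if_pos hu]
  · rw [Set.indicator_of_notMem (by exact hu), if_neg hu]

theorem card_H_conj [Finite G] {A : Set G} {L : Subgroup G} {H : G → Subgroup G}
    (hD : DadeHypothesis A L H) {a : G} (ha : a ∈ A) {l : G} (hl : l ∈ L) :
    Nat.card (H (l * a * l⁻¹)) = Nat.card (H a) := by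
  rw [Cfsg.Agent.S1498.result A L H hD a ha l hl]
  exact Subgroup.card_map_of_injective (MulAut.conj l).injective

/-- value of the Dade map -/
theorem dade_apply [Finite G] {A : Set G} {L : Subgroup G} {H : G → Subgroup G}
    (hD : DadeHypothesis A L H) (α : L → ℂ) (hα : IsClassFunction L α) (g : G) (x : G) (a : L)
    (h : Rel A L H g (x, a)) : dadeIsometry A L H α g = α a := by
  have hex : ∃ a : ↥L, (a : G) ∈ A ∧ ∃ x : G, ∃ u ∈ H (a : G), x * g * x⁻¹ = (a : G) * u :=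
    (exists_iff A L H g).2 ⟨_, h⟩
  unfold dadeIsometry
  rw [dif_pos hex]
  obtain ⟨hb, y, v, hv, hy⟩ := Classical.choose_spec hex
  set b := Classical.choose hex
  obtain ⟨ha, hu⟩ := h
  change (a : G) ∈ A at ha
  change (a : G)⁻¹ * (x * g * x⁻¹) ∈ H (a : G) at hu
  have hconj : (x * y⁻¹) * ((b : G) * v) * (x * y⁻¹)⁻¹ = (a : G) * ((a : G)⁻¹ * (x * g * x⁻¹)) := by
    rw [← hy]; group
  have h1 := Cfsg.Agent.S1499.conj_eq A L H hD b a hb ha v _ _ hv hu hconj
  obtain ⟨l, hl, hla⟩ := hD.fusion b hb _ (h1 ▸ ha)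
  have : a = (⟨l, hl⟩ : L) * b * (⟨l, hl⟩ : L)⁻¹ := by
    apply Subtype.ext
    show (a : G) = l * b * l⁻¹
    rw [hla, h1]
  rw [this, hα]

theorem dade_apply_of_not {A : Set G} {L : Subgroup G} {H : G → Subgroup G}
    (α : L → ℂ) (g : G) (h : ¬ ∃ p, Rel A L H g p) : dadeIsometry A L H α g = 0 := by
  unfold dadeIsometry
  rw [dif_neg]
  rwa [exists_iff]

theorem dade_isClassFunction [Finite G] {A : Set G} {L : Subgroup G} {H : G → Subgroup G}
    (hD : DadeHypothesis A L H) (α : L → ℂ) (hα : IsClassFunction L α) :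
    IsClassFunction G (dadeIsometry A L H α) := by
  intro g h
  by_cases hex : ∃ p, Rel A L H g p
  · obtain ⟨⟨x, a⟩, hp⟩ := hex
    rw [dade_apply hD α hα g x a hp]
    apply dade_apply hD α hα _ (x * h⁻¹) a
    refine ⟨hp.1, ?_⟩
    have := hp.2
    show (a : G)⁻¹ * (x * h⁻¹ * (h * g * h⁻¹) * (x * h⁻¹)⁻¹) ∈ H (a : G)
    have e : x * h⁻¹ * (h * g * h⁻¹) * (x * h⁻¹)⁻¹ = x * g * x⁻¹ := by group
    rw [e]; exact this
  · rw [dade_apply_of_not α g hex]
    apply dade_apply_of_not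
    rintro ⟨⟨x, a⟩, hp⟩
    apply hex
    refine ⟨(x * h, a), hp.1, ?_⟩
    have := hp.2
    show (a : G)⁻¹ * (x * h * g * (x * h)⁻¹) ∈ H (a : G)
    have e : x * h * g * (x * h)⁻¹ = x * (h * g * h⁻¹) * x⁻¹ := by group
    rw [e]; exact this

/-- The Dade counting lemma. -/
theorem dade_sum [Fintype G] {A : Set G} {L : Subgroup G} [Fintype L] {H : G → Subgroup G}
    (hD : DadeHypothesis A L H) (α : L → ℂ) (hα : IsClassFunction L α) (F : G → ℂ)
    (hF : IsClassFunction G F) [DecidablePred (fun a : L => (a : G) ∈ A)] :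
    ∑ g : G, dadeIsometry A L H α g * F g = (Nat.card G : ℂ) * (Nat.card L : ℂ)⁻¹ *
      ∑ a : L, if (a : G) ∈ A then
        α a * ((Nat.card (H a) : ℂ)⁻¹ * ∑ᶠ u ∈ (H a : Set G), F (a * u)) else 0 := by
  classical
  set w : L → ℂ := fun a => α a * (Nat.card (H a) : ℂ)⁻¹ with hwdef
  have hw : ∀ (l a : L), (a : G) ∈ A → w (l * a * l⁻¹) = w a := by
    intro l a ha
    simp only [hwdef]
    rw [hα]
    have : ((l * a * l⁻¹ : L) : G) = (l : G) * a * (l : G)⁻¹ := by simp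
    rw [this, card_H_conj hD ha l.2]
  have hB : ∀ g : G, ∑ p : G × L, (if Rel A L H g p then w p.2 else 0) =
      (Nat.card L : ℂ) * dadeIsometry A L H α g := by
    intro g
    by_cases hex : ∃ p, Rel A L H g p
    · obtain ⟨⟨x, a⟩, hp⟩ := hex
      rw [sum_rel hD w hw g a x hp, dade_apply hD α hα g x a hp]
      simp only [hwdef]
      have hne : (Nat.card (H (a : G)) : ℂ) ≠ 0 := by
        exact_mod_cast Nat.card_pos.ne'
      field_simp
    · rw [dade_apply_of_not α g hex, mul_zero]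
      apply Finset.sum_eq_zero
      intro p _
      rw [if_neg]
      exact fun h => hex ⟨p, h⟩
  have hA : ∀ p : G × L, ∑ g : G, (if Rel A L H g p then w p.2 else 0) * F g =
      if (p.2 : G) ∈ A then
        α p.2 * ((Nat.card (H p.2) : ℂ)⁻¹ * ∑ᶠ u ∈ (H p.2 : Set G), F (p.2 * u)) else 0 := by
    rintro ⟨x, a⟩
    by_cases ha : (a : G) ∈ A
    · simp only [if_pos ha]
      rw [finsum_mem_eq_sum_ite, Finset.mul_sum, Finset.mul_sum]
      let e : G ≃ G :=
        { toFun := fun g => (a : G)⁻¹ * (x * g * x⁻¹)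
          invFun := fun u => x⁻¹ * ((a : G) * u) * x
          left_inv := fun g => by group
          right_inv := fun u => by group }
      apply Finset.sum_equiv e (by simp)
      intro g _
      have hiff : Rel A L H g (x, a) ↔ e g ∈ H (a : G) := by
        constructor
        · intro h; exact h.2
        · intro h; exact ⟨ha, h⟩
      by_cases hg : e g ∈ H (a : G)
      · rw [if_pos (hiff.2 hg), if_pos hg]
        have : (a : G) * e g = x * g * x⁻¹ := by
          show (a : G) * ((a : G)⁻¹ * (x * g * x⁻¹)) = x * g * x⁻¹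
          group
        rw [this, hF]
        simp only [hwdef]
        ring
      · rw [if_neg (fun h => hg (hiff.1 h)), if_neg hg]
        simp
    · simp only [if_neg ha]
      apply Finset.sum_eq_zero
      intro g _
      rw [if_neg (fun h : Rel A L H g (x, a) => ha h.1), zero_mul]
  have hLne : (Nat.card L : ℂ) ≠ 0 := by exact_mod_cast Nat.card_pos.ne'
  have h1 : (Nat.card L : ℂ) * ∑ g : G, dadeIsometry A L H α g * F g =
      ∑ g : G, ∑ p : G × L, (if Rel A L H g p then w p.2 else 0) * F g := by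
    rw [Finset.mul_sum]
    apply Finset.sum_congr rfl
    intro g _
    rw [← mul_assoc, ← hB g, Finset.sum_mul]
  rw [Finset.sum_comm] at h1
  rw [Finset.sum_congr rfl (fun p _ => hA p), Fintype.sum_prod_type] at h1
  simp only [Finset.sum_const, Finset.card_univ, nsmul_eq_mul] at h1
  rw [← Nat.card_eq_fintype_card] at h1
  rw [mul_comm (Nat.card G : ℂ), mul_assoc, ← h1, ← mul_assoc, inv_mul_cancel₀ hLne, one_mul]

theorem finsum_mem_const_eq [Finite G] (K : Subgroup G) (c : ℂ) :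
    ∑ᶠ _u ∈ (K : Set G), c = (Nat.card K : ℂ) * c := by
  classical
  have : Fintype G := Fintype.ofFinite G
  rw [finsum_mem_eq_sum_ite, ← Finset.sum_filter, Finset.sum_const, nsmul_eq_mul]
  congr 2
  rw [Nat.card_eq_fintype_card, Fintype.card_subtype]

theorem rel_one_of_mem {A : Set G} {L : Subgroup G} {H : G → Subgroup G} (a : L) (ha : (a : G) ∈ A)
    (u : G) (hu : u ∈ H (a : G)) : Rel A L H ((a : G) * u) (1, a) := by
  refine ⟨ha, ?_⟩
  show (a : G)⁻¹ * (1 * ((a : G) * u) * 1⁻¹) ∈ H (a : G)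
  simpa using hu

theorem dade_avg [Finite G] {A : Set G} {L : Subgroup G} {H : G → Subgroup G}
    (hD : DadeHypothesis A L H) (β : L → ℂ) (hβ : IsClassFunction L β) (a : L)
    (ha : (a : G) ∈ A) :
    β a = (Nat.card (H a) : ℂ)⁻¹ * ∑ᶠ u ∈ (H a : Set G), dadeIsometry A L H β (a * u) := by
  have h1 : ∑ᶠ u ∈ (H a : Set G), dadeIsometry A L H β (a * u) = ∑ᶠ _u ∈ (H a : Set G), β a := by
    apply finsum_mem_congr rfl
    intro u hu
    exact dade_apply hD β hβ _ 1 a (rel_one_of_mem a ha u hu)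
  rw [h1, finsum_mem_const_eq]
  have hne : (Nat.card (H (a : G)) : ℂ) ≠ 0 := by
    exact_mod_cast Nat.card_pos.ne'
  field_simp

end Cfsg.Agent.Lib.Helper32Dade
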