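import Mathlib

/-!
Peterfalvi (4.3), group theoretic part: `L = K ⋊ W₁`, `W₁` a cyclic Hall subgroup, `W₂ = C_K(x)` for all
`x ∈ W₁ \ {1}`.  Then `W = W₁ W₂` is abelian and `W \ W₂` is a TI-subset with normaliser `W`.
-/

set_option autoImplicit false

namespace Cfsg.Agent.Lib.Helper32PF43a

variable {L : Type*} [Group L]

structure Hyp (K W₁ W₂ : Subgroup L) : Prop where
  normal : K.Normal
  inf : K ⊓ W₁ = ⊥
  sup : K ⊔ W₁ = ⊤
  ne₁ : W₁ ≠ ⊥
  cyc₁ : IsCyclic W₁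
  cyc₂ : IsCyclic W₂
  hall : Nat.Coprime (Nat.card W₁) W₁.index
  le : W₂ ≤ K
  cent : ∀ x ∈ W₁, x ≠ 1 → K ⊓ Subgroup.centralizer ({x} : Set L) = W₂

variable {K W₁ W₂ : Subgroup L}

namespace Hyp

theorem comm12 (h : Hyp K W₁ W₂) {a b : L} (ha : a ∈ W₁) (hb : b ∈ W₂) : a * b = b * a := by
  by_cases h1 : a = 1
  · rw [h1]; simp
  · have hb' : b ∈ K ⊓ Subgroup.centralizer ({a} : Set L) := by rw [h.cent a ha h1]; exact hb
    exact (Subgroup.mem_centralizer_iff.1 hb'.2) a rfl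

theorem comm11 (h : Hyp K W₁ W₂) {a b : L} (ha : a ∈ W₁) (hb : b ∈ W₁) : a * b = b * a := by
  have := h.cyc₁
  have := (IsCyclic.commGroup : CommGroup W₁).mul_comm ⟨a, ha⟩ ⟨b, hb⟩
  exact congrArg Subtype.val this

theorem comm22 (h : Hyp K W₁ W₂) {a b : L} (ha : a ∈ W₂) (hb : b ∈ W₂) : a * b = b * a := by
  have := h.cyc₂
  have := (IsCyclic.commGroup : CommGroup W₂).mul_comm ⟨a, ha⟩ ⟨b, hb⟩
  exact congrArg Subtype.val this

theorem mem_sup (h : Hyp K W₁ W₂) {w : L} (hw : w ∈ W₁ ⊔ W₂) :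
    ∃ x ∈ W₁, ∃ c ∈ W₂, w = x * c := by
  let P : Subgroup L :=
    { carrier := {w | ∃ x ∈ W₁, ∃ c ∈ W₂, w = x * c}
      one_mem' := ⟨1, W₁.one_mem, 1, W₂.one_mem, by simp⟩
      mul_mem' := by
        rintro _ _ ⟨x, hx, c, hc, rfl⟩ ⟨x', hx', c', hc', rfl⟩
        refine ⟨x * x', W₁.mul_mem hx hx', c * c', W₂.mul_mem hc hc', ?_⟩
        have e := h.comm12 hx' hc
        calc x * c * (x' * c') = x * (c * x') * c' := by group
          _ = x * (x' * c) * c' := by rw [e]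
          _ = x * x' * (c * c') := by group
      inv_mem' := by
        rintro _ ⟨x, hx, c, hc, rfl⟩
        refine ⟨x⁻¹, W₁.inv_mem hx, c⁻¹, W₂.inv_mem hc, ?_⟩
        have e := h.comm12 (W₁.inv_mem hx) (W₂.inv_mem hc)
        rw [e]; group }
  have h1 : W₁ ≤ P := fun x hx => ⟨x, hx, 1, W₂.one_mem, by simp⟩
  have h2 : W₂ ≤ P := fun c hc => ⟨1, W₁.one_mem, c, hc, by simp⟩
  exact (sup_le h1 h2) hw

theorem comm (h : Hyp K W₁ W₂) {a b : L} (ha : a ∈ W₁ ⊔ W₂) (hb : b ∈ W₁ ⊔ W₂) :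
    a * b = b * a := by
  obtain ⟨x, hx, c, hc, rfl⟩ := h.mem_sup ha
  obtain ⟨x', hx', c', hc', rfl⟩ := h.mem_sup hb
  have e1 := h.comm12 hx' hc
  have e2 := h.comm12 hx hc'
  have e3 := h.comm11 hx hx'
  have e4 := h.comm22 hc hc'
  calc x * c * (x' * c') = x * (c * x') * c' := by group
    _ = x * (x' * c) * c' := by rw [e1]
    _ = (x * x') * (c * c') := by group
    _ = (x' * x) * (c' * c) := by rw [e3, e4]
    _ = x' * (x * c') * c := by group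
    _ = x' * (c' * x) * c := by rw [e2]
    _ = x' * c' * (x * c) := by group

theorem isComplement' (h : Hyp K W₁ W₂) : Subgroup.IsComplement' K W₁ := by
  have := h.normal
  apply Subgroup.isComplement'_of_disjoint_and_mul_eq_univ (disjoint_iff.2 h.inf)
  rw [← Subgroup.normal_mul, h.sup, Subgroup.coe_top]

theorem coprime [Finite L] (h : Hyp K W₁ W₂) : (Nat.card W₁).Coprime (Nat.card W₂) := by
  have h1 : W₁.index = Nat.card K := h.isComplement'.index_eq_card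
  have h2 : Nat.card W₂ ∣ Nat.card K := Subgroup.card_dvd_of_le h.le
  have h3 := h.hall
  rw [h1] at h3
  exact Nat.Coprime.coprime_dvd_right h2 h3

theorem exists_mul (h : Hyp K W₁ W₂) (g : L) : ∃ k ∈ K, ∃ u ∈ W₁, g = k * u := by
  have := h.normal
  have hg : g ∈ ((K ⊔ W₁ : Subgroup L) : Set L) := by rw [h.sup]; trivial
  rw [Subgroup.normal_mul] at hg
  obtain ⟨k, hk, u, hu, e⟩ := Set.mem_mul.1 hg
  exact ⟨k, hk, u, hu, e.symm⟩

theorem not_mem₂ (h : Hyp K W₁ W₂) {x : L} (hx : x ∈ W₁) (h1 : x ≠ 1) : x ∉ W₂ := by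
  intro h2
  have : x ∈ K ⊓ W₁ := ⟨h.le h2, hx⟩
  rw [h.inf] at this
  exact h1 (Subgroup.mem_bot.1 this)

theorem exists_pow [Finite L] (h : Hyp K W₁ W₂) :
    ∃ n : ℕ, (∀ x ∈ W₁, x ^ n = x) ∧ ∀ c ∈ W₂, c ^ n = 1 := by
  obtain ⟨n, hn1, hn2⟩ := Nat.chineseRemainder h.coprime 1 0
  refine ⟨n, ?_, ?_⟩
  · intro x hx
    have h1 : n ≡ 1 [MOD orderOf x] := hn1.of_dvd (Subgroup.orderOf_dvd_natCard W₁ hx)
    have := pow_eq_pow_iff_modEq.2 h1
    rwa [pow_one] at this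
  · intro c hc
    have h1 : n ≡ 0 [MOD orderOf c] := hn2.of_dvd (Subgroup.orderOf_dvd_natCard W₂ hc)
    have := pow_eq_pow_iff_modEq.2 h1
    rwa [pow_zero] at this

/-- the TI property of `W \ W₂`. -/
theorem mem_of_conj [Finite L] (h : Hyp K W₁ W₂) {t g : L} (ht : t ∈ W₁ ⊔ W₂) (ht2 : t ∉ W₂)
    (hg : g * t * g⁻¹ ∈ W₁ ⊔ W₂) : g ∈ W₁ ⊔ W₂ := by
  have hn := h.normal
  obtain ⟨x, hx, c, hc, rfl⟩ := h.mem_sup ht
  obtain ⟨x', hx', c', hc', e⟩ := h.mem_sup hg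
  obtain ⟨k, hk, u, hu, rfl⟩ := h.exists_mul g
  have hx1 : x ≠ 1 := by
    rintro rfl
    apply ht2
    simpa using hc
  -- `x' = x`
  have hxx : x' = x := by
    have h1 : x⁻¹ * x' ∈ K := by
      have e1 : x' = k * u * (x * c) * (k * u)⁻¹ * c'⁻¹ := by rw [e]; group
      have e2 : u * x * u⁻¹ = x := by rw [h.comm11 hu hx]; group
      have e3 : x⁻¹ * x' = (x⁻¹ * k * x) * ((u * x * u⁻¹)⁻¹ * (u * x * u⁻¹))
          * (x⁻¹ * (u * x * u⁻¹)) * ((u * c * u⁻¹) * k⁻¹ * c'⁻¹) := by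
        rw [e1]; group
      rw [e3, e2]
      have a1 : x⁻¹ * k * x ∈ K := by
        have := hn.conj_mem k hk x⁻¹
        simpa using this
      have a2 : u * c * u⁻¹ ∈ K := hn.conj_mem c (h.le hc) u
      have a3 : x⁻¹ * x = 1 := by group
      rw [a3, mul_one, mul_one]
      exact K.mul_mem a1 (K.mul_mem (K.mul_mem a2 (K.inv_mem hk)) (K.inv_mem (h.le hc')))
    have h2 : x⁻¹ * x' ∈ K ⊓ W₁ := ⟨h1, W₁.mul_mem (W₁.inv_mem hx) hx'⟩
    rw [h.inf] at h2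
    have := Subgroup.mem_bot.1 h2
    exact (inv_mul_eq_one.1 this).symm
  subst hxx
  obtain ⟨n, hn1, hn2⟩ := h.exists_pow
  have p1 : (x' * c) ^ n = x' := by
    rw [(show Commute x' c from h.comm12 hx hc).mul_pow, hn1 x' hx, hn2 c hc, mul_one]
  have p2 : (x' * c') ^ n = x' := by
    rw [(show Commute x' c' from h.comm12 hx hc').mul_pow, hn1 x' hx, hn2 c' hc', mul_one]
  have p3 : k * u * x' * (k * u)⁻¹ = x' := by
    have := congrArg (fun y => y ^ n) e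
    simp only [conj_pow, p1, p2] at this
    exact this
  have p4 : k * x' * k⁻¹ = x' := by
    have e2 : u * x' * u⁻¹ = x' := by rw [h.comm11 hu hx]; group
    calc k * x' * k⁻¹ = k * (u * x' * u⁻¹) * k⁻¹ := by rw [e2]
      _ = k * u * x' * (k * u)⁻¹ := by group
      _ = x' := p3
  have hk2 : k ∈ K ⊓ Subgroup.centralizer ({x'} : Set L) := by
    refine Subgroup.mem_inf.2 ⟨hk, ?_⟩
    rw [Subgroup.mem_centralizer_iff]
    rintro y rfl
    calc y * k = (k * y * k⁻¹) * k := by rw [p4]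
      _ = k * y := by group
  rw [h.cent x' hx hx1] at hk2
  exact (W₁ ⊔ W₂).mul_mem ((le_sup_right : W₂ ≤ W₁ ⊔ W₂) hk2) ((le_sup_left : W₁ ≤ W₁ ⊔ W₂) hu)

theorem centralizer_eq [Finite L] (h : Hyp K W₁ W₂) {t : L} (ht : t ∈ W₁ ⊔ W₂) (ht2 : t ∉ W₂) :
    Subgroup.centralizer ({t} : Set L) = W₁ ⊔ W₂ := by
  apply le_antisymm
  · intro g hg
    apply h.mem_of_conj ht ht2
    have := (Subgroup.mem_centralizer_iff.1 hg) t rfl
    have e : g * t * g⁻¹ = t := by rw [← this]; group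
    rw [e]; exact ht
  · intro g hg
    rw [Subgroup.mem_centralizer_iff]
    rintro y rfl
    exact h.comm ht hg

end Hyp

end Cfsg.Agent.Lib.Helper32PF43a
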