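import Cfsg.Agent.Lib.Helper32EqDeg
import Cfsg.Agent.Lib.Helper32TI
import Cfsg.Agent.Lib.Helper32CyclicTI
import Cfsg.Agent.Lib.Helper32Dual

/-!
Peterfalvi (4.3), character theoretic part, in an abstract form: `W` an abelian subgroup of `L`, `B` a
subgroup such that `W \ B` is a (nonempty) TI-subset of `L` with normaliser `W`.
-/

set_option autoImplicit false
set_option linter.unusedSectionVars false
open Cfsg

namespace Cfsg.Agent.Lib.Helper32PF43b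

open Cfsg.Agent.Lib.Helper4Char Cfsg.Agent.Lib.Helper4Char2 Cfsg.Agent.Lib.Helper4Char4
open Cfsg.Agent.Lib.Helper32Virt Cfsg.Agent.Lib.Helper32Coh Cfsg.Agent.Lib.Helper32Sub
open Cfsg.Agent.Lib.Helper32Sub2 Cfsg.Agent.Lib.Helper32Ind Cfsg.Agent.Lib.Helper19Ind
open Cfsg.Agent.Lib.Helper5Ind Cfsg.Agent.Lib.Helper32CyclicTI Cfsg.Agent.Lib.Helper32TI
open Cfsg.Agent.Lib.Helper82Linear

variable {L : Type*} [Group L] [Fintype L] (W B : Subgroup L)

structure TIHyp : Prop where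
  comm : ∀ a ∈ W, ∀ b ∈ W, a * b = b * a
  ti : ∀ t ∈ W, t ∉ B → ∀ g : L, g * t * g⁻¹ ∈ W → g ∈ W
  ne : ∃ t ∈ W, t ∉ B

/-- two linear characters of `W` agree on `B`. -/
def Rel (ω ω' : ↥W →* ℂˣ) : Prop := ∀ w : ↥W, (w : L) ∈ B → ω w = ω' w

variable {W B}

theorem Rel.refl (ω : ↥W →* ℂˣ) : Rel W B ω ω := fun _ _ => rfl

theorem Rel.symm {ω ω' : ↥W →* ℂˣ} (h : Rel W B ω ω') : Rel W B ω' ω := fun w hw => (h w hw).symm

theorem Rel.trans {ω ω' ω'' : ↥W →* ℂˣ} (h : Rel W B ω ω') (h' : Rel W B ω' ω'') :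
    Rel W B ω ω'' := fun w hw => (h w hw).trans (h' w hw)

variable (W B)

/-- the class of `ω₀`, as a set of functions. -/
def cls (ω₀ : ↥W →* ℂˣ) : Set (↥W → ℂ) := {f | ∃ ω, Rel W B ω₀ ω ∧ f = lin ω}

variable {W B}

theorem zspan_on_B {ω₀ : ↥W →* ℂˣ} {α : ↥W → ℂ} (h : α ∈ zspan (cls W B ω₀)) (w : ↥W)
    (hw : (w : L) ∈ B) : α w = α 1 * (ω₀ w : ℂ) := by
  induction h using Submodule.span_induction with
  | mem a ha =>
    obtain ⟨ω, hω, rfl⟩ := ha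
    simp [lin, hω w hw]
  | zero => simp
  | add a b _ _ ha hb => rw [Pi.add_apply, Pi.add_apply, ha, hb]; ring
  | smul n a _ ha => rw [zsmul_apply', zsmul_apply', ha]; ring

theorem cls_irr {ω₀ : ↥W →* ℂˣ} : ∀ χ ∈ cls W B ω₀, IsIrrCharacter ↥W χ := by
  rintro _ ⟨ω, -, rfl⟩
  exact isIrrCharacter_of_hom ω

theorem hTI (h : TIHyp W B) : ∀ g : L, g ∉ W → ∀ t ∈ {t : L | t ∈ W ∧ t ∉ B},
    g * t * g⁻¹ ∈ {t : L | t ∈ W ∧ t ∉ B} → t = 1 := by
  intro g hg t ht hgt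
  exact absurd (h.ti t ht.1 ht.2 g hgt.1) hg

theorem isometry [Fintype ↥W] (h : TIHyp W B) (ω₀ : ↥W →* ℂˣ) :
    IsLinearIsometryOn (zspanOn (cls W B ω₀) {1}ᶜ) (fun α : ↥W → ℂ => indFun W α) := by
  have hchar : ∀ χ ∈ cls W B ω₀, IsCharacter ↥W χ :=
    fun χ hχ => IsIrrCharacter.isCharacter (cls_irr χ hχ)
  have hv : ∀ α ∈ zspanOn (cls W B ω₀) {1}ᶜ, ∀ x : ↥W,
      (x : L) ∉ {t : L | t ∈ W ∧ t ∉ B} → α x = 0 := by
    intro α hα x hx
    have hxB : (x : L) ∈ B := by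
      by_contra hb
      exact hx ⟨x.2, hb⟩
    rw [zspan_on_B hα.1 x hxB, (mem_zspanOn_one.1 hα).2, zero_mul]
  refine ⟨fun α _ β _ => indFun_add W α β, fun α _ n => indFun_zsmul W n α, ?_, ?_⟩
  · intro α hα β hβ
    exact classInner_indFun_of_TI W {t : L | t ∈ W ∧ t ∉ B} (hTI h) α β
      (gen_isClassFunction (zspan_gen hchar hβ.1)) (hv α hα) (hv β hβ) (mem_zspanOn_one.1 hα).2
  · intro α hα
    exact gen_ind W (zspan_gen hchar hα.1)

/-- the commutative group structure on `W`. -/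
@[reducible] def commGroupW (h : TIHyp W B) : CommGroup ↥W :=
  { (inferInstance : Group ↥W) with
    mul_comm := fun a b => Subtype.ext (h.comm a a.2 b b.2) }

theorem finite_hom (h : TIHyp W B) : Finite (↥W →* ℂˣ) := by
  let _ := commGroupW h
  apply Nat.finite_of_card_ne_zero
  rw [CommGroup.card_monoidHom_of_hasEnoughRootsOfUnity]
  exact Nat.card_pos.ne'

theorem card_hom (h : TIHyp W B) : Nat.card (↥W →* ℂˣ) = Nat.card ↥W := by
  let _ := commGroupW h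
  rw [CommGroup.card_monoidHom_of_hasEnoughRootsOfUnity]

theorem exists_twist (h : TIHyp W B) {a : ↥W} (ha : (a : L) ∉ B) :
    ∃ φ : ↥W →* ℂˣ, (∀ ω, Rel W B ω (ω * φ)) ∧ φ a ≠ 1 := by
  let _ := commGroupW h
  obtain ⟨φ, hφ, hφ1⟩ := Cfsg.Agent.Lib.Helper32Dual.exists_triv_ne_one (B.subgroupOf W) (x := a)
    (by simpa [Subgroup.mem_subgroupOf] using ha)
  refine ⟨φ, ?_, hφ1⟩
  intro ω w hw
  have : φ w = 1 := hφ w (by simpa [Subgroup.mem_subgroupOf] using hw)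
  rw [MonoidHom.mul_apply, this, mul_one]

theorem class_data (h : TIHyp W B) (ω₀ : ↥W →* ℂˣ) :
    ∃ (δ : ℂ) (μ : (↥W →* ℂˣ) → (L → ℂ)), (δ = 1 ∨ δ = -1) ∧
      (∀ ω, Rel W B ω₀ ω → IsIrrCharacter L (μ ω)) ∧
      (∀ ω ω', Rel W B ω₀ ω → Rel W B ω₀ ω' →
        indFun W (lin ω - lin ω') = δ • (μ ω - μ ω')) ∧
      (∀ ω ω', Rel W B ω₀ ω → Rel W B ω₀ ω' → μ ω = μ ω' → ω = ω') := by
  classical
  have : Fintype ↥W := Fintype.ofFinite _
  have := finite_hom h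
  obtain ⟨t, htW, htB⟩ := h.ne
  obtain ⟨φ, hφ, hφ1⟩ := exists_twist h (a := ⟨t, htW⟩) htB
  have hfin : (cls W B ω₀).Finite := by
    apply Set.Finite.subset (Set.finite_range (lin : (↥W →* ℂˣ) → ↥W → ℂ))
    rintro _ ⟨ω, -, rfl⟩
    exact ⟨ω, rfl⟩
  have hcoe : (↑hfin.toFinset : Set (↥W → ℂ)) = cls W B ω₀ := hfin.coe_toFinset
  have hmem : ∀ ω, Rel W B ω₀ ω → lin ω ∈ cls W B ω₀ := fun ω hω => ⟨ω, hω, rfl⟩
  have hcoh : IsCoherent (↑hfin.toFinset : Set (↥W → ℂ)) {1}ᶜ (fun α : ↥W → ℂ => indFun W α) := by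
    apply Cfsg.Agent.Lib.Helper32EqDeg.eqdeg hfin.toFinset
    · intro χ hχ
      exact cls_irr χ (hfin.mem_toFinset.1 hχ)
    · intro χ hχ ψ hψ
      obtain ⟨ω, -, rfl⟩ := hfin.mem_toFinset.1 hχ
      obtain ⟨ω', -, rfl⟩ := hfin.mem_toFinset.1 hψ
      simp [lin]
    · rw [← Nat.succ_le_iff.symm]
      apply Finset.one_lt_card.2
      refine ⟨lin ω₀, hfin.mem_toFinset.2 (hmem _ (Rel.refl _)), lin (ω₀ * φ),
        hfin.mem_toFinset.2 (hmem _ (hφ ω₀)), ?_⟩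
      intro e
      have e' := lin_injective e
      apply hφ1
      have := congrArg (fun f : ↥W →* ℂˣ => f ⟨t, htW⟩) e'
      simpa using this
    · rw [hcoe]; exact isometry h ω₀
    · rw [hcoe]; exact Cfsg.Agent.Lib.Helper32TI.map_one W _
  rw [hcoe] at hcoh
  obtain ⟨-, τ₁, hτ₁, hext⟩ := hcoh
  have h0 : ∀ α ∈ zspan (cls W B ω₀), α 1 = 0 → τ₁ α 1 = 0 := by
    intro α hα h1
    have hα' : α ∈ zspanOn (cls W B ω₀) {1}ᶜ := mem_zspanOn_one.2 ⟨hα, h1⟩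
    rw [hext α hα']
    exact Cfsg.Agent.Lib.Helper32TI.map_one W _ α hα'
  obtain ⟨ε, hε, hεirr⟩ := signs_uniform cls_irr hτ₁ h0
  have hεε : ε * ε = 1 := by rcases hε with rfl | rfl <;> norm_num
  refine ⟨ε, fun ω => ε • τ₁ (lin ω), hε, fun ω hω => hεirr _ (hmem ω hω), ?_, ?_⟩
  · intro ω ω' hω hω'
    have hd : lin ω - lin ω' ∈ zspanOn (cls W B ω₀) {1}ᶜ := by
      rw [mem_zspanOn_one]
      refine ⟨zspan_sub (zspan_of_mem (hmem ω hω)) (zspan_of_mem (hmem ω' hω')), ?_⟩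
      simp [lin]
    have e1 := hext _ hd
    rw [iso_sub closed_zspan hτ₁ (zspan_of_mem (hmem ω hω)) (zspan_of_mem (hmem ω' hω'))] at e1
    have e2 : indFun W (lin ω - lin ω') = τ₁ (lin ω) - τ₁ (lin ω') := e1.symm
    show indFun W (lin ω - lin ω') = ε • (ε • τ₁ (lin ω) - ε • τ₁ (lin ω'))
    rw [e2, ← smul_sub, smul_smul, hεε, one_smul]
  · intro ω ω' hω hω' e
    have e2 : τ₁ (lin ω) = τ₁ (lin ω') := by
      have := congrArg (fun f => ε • f) e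
      simpa only [smul_smul, hεε, one_smul] using this
    exact lin_injective (iso_injOn cls_irr hτ₁ (hmem ω hω) (hmem ω' hω') e2)

/-- the data `μ`, `δ`. -/
structure Dat (W B : Subgroup L) (μ : (↥W →* ℂˣ) → (L → ℂ)) (δ : (↥W →* ℂˣ) → ℂ) : Prop where
  irr : ∀ ω, IsIrrCharacter L (μ ω)
  sign : ∀ ω, δ ω = 1 ∨ δ ω = -1
  sign_eq : ∀ ω ω', Rel W B ω ω' → δ ω = δ ω'
  ind : ∀ ω ω', Rel W B ω ω' → indFun W (lin ω - lin ω') = δ ω • (μ ω - μ ω')
  inj : ∀ ω ω', Rel W B ω ω' → μ ω = μ ω' → ω = ω'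

theorem exists_dat (h : TIHyp W B) : ∃ μ δ, Dat W B μ δ := by
  classical
  let r : Setoid (↥W →* ℂˣ) := ⟨Rel W B, Rel.refl, Rel.symm, Rel.trans⟩
  let rep : (↥W →* ℂˣ) → (↥W →* ℂˣ) := fun ω => (Quotient.mk r ω).out
  have hrep : ∀ ω, Rel W B (rep ω) ω := fun ω => Quotient.exact (Quotient.out_eq (Quotient.mk r ω))
  have hrep_eq : ∀ ω ω', Rel W B ω ω' → rep ω = rep ω' := by
    intro ω ω' hh
    show (Quotient.mk r ω).out = (Quotient.mk r ω').out
    rw [Quotient.sound (s := r) hh]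
  choose δ' μ' h1 h2 h3 h4 using class_data h
  refine ⟨fun ω => μ' (rep ω) ω, fun ω => δ' (rep ω), ?_, ?_, ?_, ?_, ?_⟩
  · intro ω; exact h2 _ _ (hrep ω)
  · intro ω; exact h1 _
  · intro ω ω' hh
    show δ' (rep ω) = δ' (rep ω')
    rw [hrep_eq ω ω' hh]
  · intro ω ω' hh
    show _ = δ' (rep ω) • (μ' (rep ω) ω - μ' (rep ω') ω')
    rw [← hrep_eq ω ω' hh]
    exact h3 _ _ _ (hrep ω) ((hrep ω).trans hh)
  · intro ω ω' hh e
    have e' : μ' (rep ω) ω = μ' (rep ω) ω' := by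
      have : μ' (rep ω) ω = μ' (rep ω') ω' := e
      rwa [← hrep_eq ω ω' hh] at this
    exact h4 _ _ _ (hrep ω) ((hrep ω).trans hh) e'


theorem lin_mul_conj {X : Type*} [Group X] [Finite X] (ω : X →* ℂˣ) (x : X) :
    (ω x : ℂ) * (starRingEnd ℂ) (ω x : ℂ) = 1 :=
  irr_linear_mul_conj ⟨_, isIrrCharacter_of_hom ω⟩ (by simp) x

theorem diff_vanish {ω ω' : ↥W →* ℂˣ} (hh : Rel W B ω ω') (x : ↥W)
    (hx : (x : L) ∉ {t : L | t ∈ W ∧ t ∉ B}) : (lin ω - lin ω') x = 0 := by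
  have hxB : (x : L) ∈ B := by
    by_contra hb
    exact hx ⟨x.2, hb⟩
  simp [lin, hh x hxB]

theorem diff_class (ω ω' : ↥W →* ℂˣ) : IsClassFunction ↥W (lin ω - lin ω') :=
  gen_isClassFunction (gen_sub (gen_of_irr (isIrrCharacter_of_hom ω))
    (gen_of_irr (isIrrCharacter_of_hom ω')))

namespace Dat

variable {μ : (↥W →* ℂˣ) → (L → ℂ)} {δ : (↥W →* ℂˣ) → ℂ}

theorem sign_sq (D : Dat W B μ δ) (ω : ↥W →* ℂˣ) : δ ω * δ ω = 1 := by
  rcases D.sign ω with e | e <;> rw [e] <;> norm_num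

theorem sign_conj (D : Dat W B μ δ) (ω : ↥W →* ℂˣ) : (starRingEnd ℂ) (δ ω) = δ ω := by
  rcases D.sign ω with e | e <;> rw [e] <;> simp

theorem sign_ne (D : Dat W B μ δ) (ω : ↥W →* ℂˣ) : δ ω ≠ 0 := by
  rcases D.sign ω with e | e <;> rw [e] <;> norm_num

theorem injective (h : TIHyp W B) (D : Dat W B μ δ) : Function.Injective μ := by
  classical
  have : Fintype ↥W := Fintype.ofFinite _
  intro ω ω' e
  by_cases hr : Rel W B ω ω'
  · exact D.inj ω ω' hr e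
  exfalso
  obtain ⟨t, htW, htB⟩ := h.ne
  obtain ⟨φ, hφ, hφ1⟩ := exists_twist h (a := ⟨t, htW⟩) htB
  have hne : ∀ ω : ↥W →* ℂˣ, ω ≠ ω * φ := by
    intro ω e'
    apply hφ1
    have := congrArg (fun f : ↥W →* ℂˣ => f ⟨t, htW⟩) e'
    simpa using this
  have I1 : classInner (indFun W (lin ω - lin (ω * φ))) (indFun W (lin ω' - lin (ω' * φ)))
      = classInner (lin ω - lin (ω * φ)) (lin ω' - lin (ω' * φ)) :=
    classInner_indFun_of_TI W {t : L | t ∈ W ∧ t ∉ B} (hTI h) _ _ (diff_class _ _)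
      (diff_vanish (hφ ω)) (diff_vanish (hφ ω')) (by simp [lin])
  have n1 : ω ≠ ω' := fun e' => hr (e' ▸ Rel.refl ω)
  have n2 : ω ≠ ω' * φ := fun e' => hr (by rw [e']; exact (hφ ω').symm)
  have n3 : ω * φ ≠ ω' := fun e' => hr (by rw [← e']; exact hφ ω)
  have n4 : ω * φ ≠ ω' * φ := fun e' => n1 (mul_right_cancel e')
  have I2 : classInner (lin ω - lin (ω * φ)) (lin ω' - lin (ω' * φ)) = 0 := by
    rw [classInner_sub_left, classInner_sub_right, classInner_sub_right, lin_inner, lin_inner,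
      lin_inner, lin_inner, if_neg n1, if_neg n2, if_neg n3, if_neg n4]
    ring
  rw [I2, D.ind _ _ (hφ ω), D.ind _ _ (hφ ω'), classInner_smul_left, classInner_smul_right,
    classInner_sub_left, classInner_sub_right, classInner_sub_right,
    classInner_irr (D.irr _) (D.irr _), classInner_irr (D.irr _) (D.irr _),
    classInner_irr (D.irr _) (D.irr _), classInner_irr (D.irr _) (D.irr _), if_pos e] at I1
  have m2 : μ ω ≠ μ (ω' * φ) := by
    rw [e]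
    intro e'
    exact hne ω' (D.inj _ _ (hφ ω') e')
  have m3 : μ (ω * φ) ≠ μ ω' := by
    rw [← e]
    intro e'
    exact hne ω (D.inj _ _ (hφ ω) e'.symm)
  rw [if_neg m2, if_neg m3, D.sign_conj] at I1
  have hd := D.sign_ne ω
  have hd' := D.sign_ne ω'
  split_ifs at I1
  · have : δ ω * (δ ω' * 2) = 0 := by linear_combination I1
    simp [hd, hd'] at this
  · have : δ ω * (δ ω' * 1) = 0 := by linear_combination I1
    simp [hd, hd'] at this

theorem diff_val (h : TIHyp W B) (D : Dat W B μ δ) {a : ↥W} (ha : (a : L) ∉ B)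
    {ω ω' : ↥W →* ℂˣ} (hh : Rel W B ω ω') :
    μ ω a - δ ω * (ω a : ℂ) = μ ω' a - δ ω' * (ω' a : ℂ) := by
  have ha1 : a ≠ 1 := by
    rintro rfl
    exact ha B.one_mem
  have e1 := indFun_eq_of_TI W {t : L | t ∈ W ∧ t ∉ B} (hTI h) (lin ω - lin ω') (diff_class _ _)
    (diff_vanish hh) a ⟨a.2, ha⟩ ha1
  rw [D.ind _ _ hh] at e1
  simp only [Pi.smul_apply, Pi.sub_apply, smul_eq_mul, lin] at e1
  rw [← D.sign_eq _ _ hh]
  have := D.sign_sq ω
  linear_combination (δ ω) * e1 - (μ ω a - μ ω' a) * this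

/-- averaging over a class kills `ω a`. -/
theorem sum_twist (h : TIHyp W B) [Fintype (↥W →* ℂˣ)] {a : ↥W} (ha : (a : L) ∉ B)
    (F : (↥W →* ℂˣ) → ℂ) (hF : ∀ ω ω', Rel W B ω ω' → F ω = F ω') :
    ∑ ω : ↥W →* ℂˣ, F ω * (ω a : ℂ) = 0 := by
  obtain ⟨φ, hφ, hφ1⟩ := exists_twist h ha
  set S := ∑ ω : ↥W →* ℂˣ, F ω * (ω a : ℂ) with hS
  have h2 : S = ((φ a : ℂˣ) : ℂ) * S := by
    conv_lhs => rw [hS]
    rw [hS, Finset.mul_sum]
    apply Fintype.sum_equiv (Equiv.mulRight φ⁻¹)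
    intro ω
    have e1 : F ((Equiv.mulRight φ⁻¹) ω) = F ω := by
      have := hF _ _ (hφ (ω * φ⁻¹))
      have e0 : ω * φ⁻¹ * φ = ω := by
        ext x
        simp
      rw [e0] at this
      exact this
    rw [e1]
    simp only [Equiv.coe_mulRight, MonoidHom.mul_apply, MonoidHom.inv_apply, Units.val_mul]
    have : ((φ a : ℂˣ) : ℂ) * (((φ a)⁻¹ : ℂˣ) : ℂ) = 1 := by
      rw [← Units.val_mul, mul_inv_cancel]; rfl
    linear_combination (- F ω * (ω a : ℂ)) * this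
  have h3 : (((φ a : ℂˣ) : ℂ) - 1) * S = 0 := by linear_combination -h2
  rcases mul_eq_zero.1 h3 with h4 | h4
  · exfalso
    apply hφ1
    ext
    rw [sub_eq_zero] at h4
    simpa using h4
  · exact h4

theorem centralizer_eq (h : TIHyp W B) {a : ↥W} (ha : (a : L) ∉ B) :
    Subgroup.centralizer ({(a : L)} : Set L) = W := by
  apply le_antisymm
  · intro g hg
    apply h.ti a a.2 ha
    have := (Subgroup.mem_centralizer_iff.1 hg) a rfl
    have e : g * a * g⁻¹ = a := by rw [← this]; group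
    rw [e]; exact a.2
  · intro g hg
    rw [Subgroup.mem_centralizer_iff]
    rintro y rfl
    exact h.comm _ a.2 _ hg

theorem vals (h : TIHyp W B) (D : Dat W B μ δ) {a : ↥W} (ha : (a : L) ∉ B) :
    (∀ ω, μ ω a = δ ω * (ω a : ℂ)) ∧
      ∀ θ : L → ℂ, IsIrrCharacter L θ → (∀ ω, θ ≠ μ ω) → θ a = 0 := by
  classical
  have := finite_hom h
  have : Fintype (↥W →* ℂˣ) := Fintype.ofFinite _
  set c : (↥W →* ℂˣ) → ℂ := fun ω => μ ω a - δ ω * (ω a : ℂ) with hc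
  have hcR : ∀ ω ω', Rel W B ω ω' → c ω = c ω' := fun ω ω' hh => D.diff_val h ha hh
  -- the cross terms vanish
  have S1 : ∑ ω : ↥W →* ℂˣ, (δ ω * (starRingEnd ℂ) (c ω)) * (ω a : ℂ) = 0 := by
    apply sum_twist h ha
    intro ω ω' hh
    rw [D.sign_eq _ _ hh, hcR _ _ hh]
  have S2 : ∑ ω : ↥W →* ℂˣ, (δ ω * c ω) * (starRingEnd ℂ) (ω a : ℂ) = 0 := by
    have := congrArg (starRingEnd ℂ) S1
    rw [map_sum, map_zero] at this
    rw [← this]
    apply Finset.sum_congr rfl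
    intro ω _
    rw [map_mul, map_mul, D.sign_conj, Complex.conj_conj]
  have S3 : ∑ ω : ↥W →* ℂˣ, μ ω a * (starRingEnd ℂ) (μ ω a)
      = (Nat.card ↥W : ℂ) + ∑ ω : ↥W →* ℂˣ, c ω * (starRingEnd ℂ) (c ω) := by
    have e : ∀ ω : ↥W →* ℂˣ, μ ω a * (starRingEnd ℂ) (μ ω a)
        = 1 + (δ ω * (starRingEnd ℂ) (c ω)) * (ω a : ℂ)
          + (δ ω * c ω) * (starRingEnd ℂ) (ω a : ℂ) + c ω * (starRingEnd ℂ) (c ω) := by
      intro ω
      have e1 : μ ω a = δ ω * (ω a : ℂ) + c ω := by rw [hc]; ring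
      rw [e1, map_add, map_mul, D.sign_conj]
      have e2 := lin_mul_conj ω a
      have e3 := D.sign_sq ω
      linear_combination (δ ω * δ ω) * e2 + e3
    rw [Finset.sum_congr rfl (fun ω _ => e ω), Finset.sum_add_distrib, Finset.sum_add_distrib,
      Finset.sum_add_distrib, S1, S2, Finset.sum_const, Finset.card_univ, nsmul_eq_mul, mul_one,
      ← Nat.card_eq_fintype_card, card_hom h]
    ring
  have C := col_orth (a : L) (a : L)
  rw [if_pos (IsConj.refl _), centralizer_eq h ha] at C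
  -- split the sum
  let I : Finset (IrrCharacter L) := Finset.univ.image (fun ω => (⟨μ ω, D.irr ω⟩ : IrrCharacter L))
  have hinj : Function.Injective (fun ω => (⟨μ ω, D.irr ω⟩ : IrrCharacter L)) := by
    intro ω ω' e
    exact D.injective h (congrArg Subtype.val e)
  have C1 : ∑ χ ∈ I, (χ : L → ℂ) a * (starRingEnd ℂ) ((χ : L → ℂ) a)
      = ∑ ω : ↥W →* ℂˣ, μ ω a * (starRingEnd ℂ) (μ ω a) := by
    rw [Finset.sum_image (fun x _ y _ e => hinj e)]
  have C2 := Finset.sum_add_sum_compl I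
    (fun χ : IrrCharacter L => (χ : L → ℂ) a * (starRingEnd ℂ) ((χ : L → ℂ) a))
  rw [C, C1, S3] at C2
  have C3 : ∑ ω : ↥W →* ℂˣ, c ω * (starRingEnd ℂ) (c ω)
      + ∑ χ ∈ Iᶜ, (χ : L → ℂ) a * (starRingEnd ℂ) ((χ : L → ℂ) a) = 0 := by
    linear_combination C2
  simp only [Complex.mul_conj] at C3
  have C4 : ∑ ω : ↥W →* ℂˣ, Complex.normSq (c ω)
      + ∑ χ ∈ Iᶜ, Complex.normSq ((χ : L → ℂ) a) = 0 := by
    exact_mod_cast C3
  have p1 : 0 ≤ ∑ ω : ↥W →* ℂˣ, Complex.normSq (c ω) :=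
    Finset.sum_nonneg (fun _ _ => Complex.normSq_nonneg _)
  have p2 : 0 ≤ ∑ χ ∈ Iᶜ, Complex.normSq ((χ : L → ℂ) a) :=
    Finset.sum_nonneg (fun _ _ => Complex.normSq_nonneg _)
  have z1 : ∑ ω : ↥W →* ℂˣ, Complex.normSq (c ω) = 0 := by linarith
  have z2 : ∑ χ ∈ Iᶜ, Complex.normSq ((χ : L → ℂ) a) = 0 := by linarith
  constructor
  · intro ω
    have := (Finset.sum_eq_zero_iff_of_nonneg (fun _ _ => Complex.normSq_nonneg _)).1 z1 ω
      (Finset.mem_univ _)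
    have hz : c ω = 0 := Complex.normSq_eq_zero.1 this
    rw [hc] at hz
    exact sub_eq_zero.1 hz
  · intro θ hθ hne
    have hmem : (⟨θ, hθ⟩ : IrrCharacter L) ∈ Iᶜ := by
      rw [Finset.mem_compl, Finset.mem_image]
      rintro ⟨ω, -, e⟩
      exact hne ω (congrArg Subtype.val e).symm
    have := (Finset.sum_eq_zero_iff_of_nonneg (fun _ _ => Complex.normSq_nonneg _)).1 z2 _ hmem
    exact Complex.normSq_eq_zero.1 this

theorem degree (h : TIHyp W B) (D : Dat W B μ δ) (A : Subgroup L) (hAW : A ≤ W)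
    (hAB : ∀ x ∈ A, x ≠ 1 → x ∉ B) (ω : ↥W →* ℂˣ) :
    ∃ n : ℤ, μ ω 1 - δ ω = n * (Nat.card A : ℂ) := by
  classical
  have : Fintype ↥A := Fintype.ofFinite _
  set lam : ↥A →* ℂˣ := ω.comp (Subgroup.inclusion hAW) with hlam
  obtain ⟨n, hn⟩ := gen_inner_int (gen_ind A (gen_of_irr (isIrrCharacter_of_hom lam)))
    (gen_of_irr (D.irr ω))
  rw [frobenius A _ _ (IsIrrCharacter.isClassFunction (D.irr ω))] at hn
  obtain ⟨d, -, hd⟩ := IsIrrCharacter.exists_degree (D.irr ω)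
  have e : ∀ x : ↥A, (lam x : ℂ) * (starRingEnd ℂ) (μ ω x)
      = δ ω + if x = 1 then ((d : ℂ) - δ ω) else 0 := by
    intro x
    split_ifs with hx
    · rw [hx]
      simp [hd]
    · have hx' : ((Subgroup.inclusion hAW x : ↥W) : L) ∉ B :=
        hAB x x.2 (fun e => hx (Subtype.ext e))
      have e1 := (D.vals h hx').1 ω
      have e2 : μ ω (x : L) = δ ω * (lam x : ℂ) := e1
      rw [e2, map_mul, D.sign_conj, add_zero]
      have := lin_mul_conj lam x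
      linear_combination (δ ω) * this
  unfold classInner at hn
  rw [Finset.sum_congr rfl (fun x _ => e x), Finset.sum_add_distrib, Finset.sum_const,
    Finset.card_univ, nsmul_eq_mul, Finset.sum_ite_eq' Finset.univ (1 : ↥A),
    if_pos (Finset.mem_univ _), ← Nat.card_eq_fintype_card] at hn
  have hA : (Nat.card ↥A : ℂ) ≠ 0 := by exact_mod_cast Nat.card_pos.ne'
  have hn' : (Nat.card ↥A : ℂ) * δ ω + ((d : ℂ) - δ ω) = n * (Nat.card ↥A : ℂ) := by
    field_simp at hn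
    linear_combination hn
  rcases D.sign ω with e1 | e1
  · refine ⟨n - 1, ?_⟩
    rw [hd]
    rw [e1] at hn' ⊢
    push_cast
    linear_combination hn'
  · refine ⟨n + 1, ?_⟩
    rw [hd]
    rw [e1] at hn' ⊢
    push_cast
    linear_combination hn'

end Dat

end Cfsg.Agent.Lib.Helper32PF43b
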