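import Mathlib
import Cfsg.Agent.Lib.Helper32Dade
import Cfsg.Agent.Lib.Helper32Virt
import Cfsg.Agent.S1496
import Cfsg.Agent.S0148
import Cfsg.Agent.Lib.Helper82Quot
import Cfsg.Agent.Lib.Helper19Ind
import Cfsg.Agent.Lib.Helper5Ind

set_option autoImplicit false
set_option linter.unusedSectionVars false
set_option linter.unusedVariables false

namespace Cfsg.Agent.Lib.Helper83Dade

open Cfsg Subgroup

section sd

variable {G : Type*} [Group G] {K N : Subgroup G}

/-- the product `K N` of a subgroup `K` and a subgroup `N` normalizing it. -/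
def sd (K N : Subgroup G) (hN : ∀ n ∈ N, ∀ k ∈ K, n * k * n⁻¹ ∈ K) : Subgroup G where
  carrier := {m | ∃ k ∈ K, ∃ n ∈ N, m = k * n}
  one_mem' := ⟨1, K.one_mem, 1, N.one_mem, by simp⟩
  mul_mem' := by
    rintro _ _ ⟨k, hk, n, hn, rfl⟩ ⟨k', hk', n', hn', rfl⟩
    exact ⟨k * (n * k' * n⁻¹), K.mul_mem hk (hN n hn k' hk'), n * n', N.mul_mem hn hn', by group⟩
  inv_mem' := by
    rintro _ ⟨k, hk, n, hn, rfl⟩
    exact ⟨n⁻¹ * k⁻¹ * n⁻¹⁻¹, hN n⁻¹ (N.inv_mem hn) k⁻¹ (K.inv_mem hk), n⁻¹, N.inv_mem hn, by group⟩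

variable {hN : ∀ n ∈ N, ∀ k ∈ K, n * k * n⁻¹ ∈ K}

theorem mem_sd {m : G} : m ∈ sd K N hN ↔ ∃ k ∈ K, ∃ n ∈ N, m = k * n := Iff.rfl

theorem mem_sd_iff {m : G} : m ∈ sd K N hN ↔ ∃ n ∈ N, m * n⁻¹ ∈ K := by
  constructor
  · rintro ⟨k, hk, n, hn, rfl⟩
    exact ⟨n, hn, by simpa using hk⟩
  · rintro ⟨n, hn, h⟩
    exact ⟨_, h, n, hn, by simp⟩

theorem sd_unique (hKN : K ⊓ N = ⊥) {m n n' : G} (hn : n ∈ N) (hn' : n' ∈ N)
    (h : m * n⁻¹ ∈ K) (h' : m * n'⁻¹ ∈ K) : n = n' := by
  have h1 : n * n'⁻¹ ∈ K := by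
    have := K.mul_mem (K.inv_mem h) h'
    have e : (m * n⁻¹)⁻¹ * (m * n'⁻¹) = n * n'⁻¹ := by group
    rwa [e] at this
  have h2 : n * n'⁻¹ ∈ K ⊓ N := ⟨h1, N.mul_mem hn (N.inv_mem hn')⟩
  rw [hKN, mem_bot] at h2
  exact mul_inv_eq_one.mp h2

/-- the projection of `K N` onto `N`. -/
noncomputable def sdFun (m : sd K N hN) : N :=
  ⟨(mem_sd_iff.mp m.2).choose, (mem_sd_iff.mp m.2).choose_spec.1⟩

theorem sdFun_spec (m : sd K N hN) : (m : G) * ((sdFun m : N) : G)⁻¹ ∈ K :=
  (mem_sd_iff.mp m.2).choose_spec.2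

theorem sdFun_eq (hKN : K ⊓ N = ⊥) (m : sd K N hN) (n : N) (h : (m : G) * (n : G)⁻¹ ∈ K) :
    sdFun m = n :=
  Subtype.ext (sd_unique hKN (sdFun m).2 n.2 (sdFun_spec m) h)

/-- the projection of `K N` onto `N`, as a homomorphism. -/
noncomputable def sdProj (hKN : K ⊓ N = ⊥) : sd K N hN →* N :=
  MonoidHom.mk' sdFun (by
    intro m m'
    apply sdFun_eq hKN
    have h1 := sdFun_spec m
    have h2 := sdFun_spec m'
    have h3 := hN _ (sdFun m).2 _ h2
    have := K.mul_mem h1 h3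
    have e : (m : G) * ((sdFun m : N) : G)⁻¹ * (((sdFun m : N) : G) *
        ((m' : G) * ((sdFun m' : N) : G)⁻¹) * ((sdFun m : N) : G)⁻¹)
        = ((m * m' : sd K N hN) : G) * ((sdFun m * sdFun m' : N) : G)⁻¹ := by
      simp only [Subgroup.coe_mul]
      group
    rwa [e] at this)

theorem sdProj_eq (hKN : K ⊓ N = ⊥) (m : sd K N hN) (n : N) (h : (m : G) * (n : G)⁻¹ ∈ K) :
    sdProj hKN m = n := sdFun_eq hKN m n h

theorem card_sd (hKN : K ⊓ N = ⊥) : Nat.card (sd K N hN) = Nat.card K * Nat.card N := by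
  rw [← Nat.card_prod]
  apply Nat.card_congr
  refine ⟨fun m => (⟨(m : G) * ((sdFun m : N) : G)⁻¹, sdFun_spec m⟩, sdFun m),
    fun p => ⟨(p.1 : G) * (p.2 : G), ⟨p.1, p.1.2, p.2, p.2.2, rfl⟩⟩, ?_, ?_⟩
  · intro m
    apply Subtype.ext
    simp
  · rintro ⟨k, n⟩
    have h : sdFun (⟨(k : G) * (n : G), ⟨k, k.2, n, n.2, rfl⟩⟩ : sd K N hN) = n := by
      apply sdFun_eq hKN
      simp
    apply Prod.ext
    · apply Subtype.ext
      simp [h]
    · exact h

end sd

section lemmaK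

variable {G : Type*} [Group G] [Fintype G]

open scoped Classical in
/-- counting the `K`-translates into the centralizer coset. -/
theorem count_K (K : Subgroup G) (b : G) (hb : b ∈ normalizer (K : Set G))
    (hcop : Nat.Coprime (orderOf b) (Nat.card K)) (y : G) [Fintype K] :
    ∑ k : K, (if (k : G) * y * (k : G)⁻¹ * b⁻¹ ∈ K ⊓ centralizer ({b} : Set G) then (1 : ℂ) else 0)
      = (Nat.card ↥(K ⊓ centralizer ({b} : Set G)) : ℂ) * (if y * b⁻¹ ∈ K then 1 else 0) := by
  set C := K ⊓ centralizer ({b} : Set G) with hC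
  have hbK : ∀ k ∈ K, b * k * b⁻¹ ∈ K := fun k hk => (mem_normalizer_iff.mp hb k).mp hk
  by_cases hy : y * b⁻¹ ∈ K
  · rw [if_pos hy, mul_one]
    obtain ⟨k₀, hk₀, c₀, hc₀, hcb, hconj⟩ := Cfsg.Agent.S1496.result K b hb hcop _ hy
    have hyb : y * b⁻¹ * b = y := by group
    rw [hyb] at hconj
    rw [Finset.sum_boole, Nat.card_eq_fintype_card, ← Fintype.card_subtype]
    congr 1
    have key : ∀ k : G, k ∈ K → (k * y * k⁻¹ * b⁻¹ ∈ C ↔ k * k₀⁻¹ ∈ C) := by
      intro k hk
      have e1 : k * y * k⁻¹ = (k * k₀⁻¹) * (c₀ * b) * (k * k₀⁻¹)⁻¹ := by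
        rw [← hconj]; group
      constructor
      · intro h
        refine ⟨K.mul_mem hk (K.inv_mem hk₀), ?_⟩
        show k * k₀⁻¹ ∈ centralizer ({b} : Set G)
        rw [mem_centralizer_singleton_iff]
        have hc : (k * y * k⁻¹ * b⁻¹) * b = b * (k * y * k⁻¹ * b⁻¹) :=
          mem_centralizer_singleton_iff.mp h.2
        have := Cfsg.Agent.S1496.conj_g K b hcop (k * k₀⁻¹) c₀ (k * y * k⁻¹ * b⁻¹) hc₀ h.1 hcb hc
          (by rw [← e1]; group)
        rw [mul_inv_eq_iff_eq_mul] at this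
        exact this
      · intro h
        have hu : (k * k₀⁻¹) * b = b * (k * k₀⁻¹) := mem_centralizer_singleton_iff.mp h.2
        have e2 : k * y * k⁻¹ * b⁻¹ = (k * k₀⁻¹) * c₀ * (k * k₀⁻¹)⁻¹ := by
          rw [e1]
          have : (k * k₀⁻¹)⁻¹ * b⁻¹ = b⁻¹ * (k * k₀⁻¹)⁻¹ := by
            rw [← mul_inv_rev, ← mul_inv_rev, hu]
          calc k * k₀⁻¹ * (c₀ * b) * (k * k₀⁻¹)⁻¹ * b⁻¹
              = k * k₀⁻¹ * c₀ * b * ((k * k₀⁻¹)⁻¹ * b⁻¹) := by group
            _ = k * k₀⁻¹ * c₀ * b * (b⁻¹ * (k * k₀⁻¹)⁻¹) := by rw [this]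
            _ = _ := by group
        rw [e2]
        have hc₀C : c₀ ∈ C := ⟨hc₀, mem_centralizer_singleton_iff.mpr hcb⟩
        exact C.mul_mem (C.mul_mem h hc₀C) (C.inv_mem h)
    refine Fintype.card_congr ⟨fun k => ⟨(k.1 : G) * k₀⁻¹, (key _ k.1.2).mp k.2⟩,
      fun u => ⟨⟨(u : G) * k₀, K.mul_mem u.2.1 hk₀⟩, (key _ (K.mul_mem u.2.1 hk₀)).mpr (by
        have : (u : G) * k₀ * k₀⁻¹ = u := by group
        rw [this]; exact u.2)⟩, ?_, ?_⟩
    · intro k
      apply Subtype.ext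
      apply Subtype.ext
      simp
    · intro u
      apply Subtype.ext
      simp
  · rw [if_neg hy, mul_zero]
    apply Finset.sum_eq_zero
    intro k _
    rw [if_neg]
    intro h
    apply hy
    have h1 := h.1
    have h2 : (k : G)⁻¹ * ((k : G) * y * (k : G)⁻¹ * b⁻¹) * (b * (k : G) * b⁻¹) ∈ K :=
      K.mul_mem (K.mul_mem (K.inv_mem k.2) h1) (hbK k k.2)
    have e : (k : G)⁻¹ * ((k : G) * y * (k : G)⁻¹ * b⁻¹) * (b * (k : G) * b⁻¹) = y * b⁻¹ := by group
    rwa [e] at h2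

open scoped Classical in
/-- Peterfalvi (2.1), counting form. -/
theorem lemmaK (K : Subgroup G) (b : G) (hb : b ∈ normalizer (K : Set G))
    (hcop : Nat.Coprime (orderOf b) (Nat.card K)) (g : G) :
    (Nat.card ↥(K ⊓ centralizer ({b} : Set G)) : ℂ) *
        ∑ x : G, (if x⁻¹ * g * x * b⁻¹ ∈ K then (1 : ℂ) else 0)
      = (Nat.card K : ℂ) *
        ∑ x : G, (if x⁻¹ * g * x * b⁻¹ ∈ K ⊓ centralizer ({b} : Set G) then (1 : ℂ) else 0) := by
  have : Fintype K := Fintype.ofFinite _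
  rw [Finset.mul_sum]
  simp only [← count_K K b hb hcop]
  rw [Finset.sum_comm]
  have e : ∀ k : K, ∑ x : G, (if (k : G) * (x⁻¹ * g * x) * (k : G)⁻¹ * b⁻¹ ∈
      K ⊓ centralizer ({b} : Set G) then (1 : ℂ) else 0)
      = ∑ x : G, (if x⁻¹ * g * x * b⁻¹ ∈ K ⊓ centralizer ({b} : Set G) then (1 : ℂ) else 0) := by
    intro k
    refine Fintype.sum_equiv (Equiv.mulRight (k : G)⁻¹) _ _ ?_
    intro x
    have : ((Equiv.mulRight (k : G)⁻¹) x)⁻¹ * g * ((Equiv.mulRight (k : G)⁻¹) x)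
        = (k : G) * (x⁻¹ * g * x) * (k : G)⁻¹ := by
      simp only [Equiv.coe_mulRight]; group
    simp only [this]
  simp only [e]
  rw [Finset.sum_const, Finset.card_univ, nsmul_eq_mul, Nat.card_eq_fintype_card]

end lemmaK

section orbit

variable {L X V : Type*} [Group L] [Finite L] [Fintype X] [MulAction L X] [AddCommGroup V]
  [Module ℂ V]

theorem stab_div (x : X) : (Nat.card (MulAction.stabilizer L x) : ℂ) / (Nat.card L : ℂ)
    = (Nat.card (MulAction.orbit L x) : ℂ)⁻¹ := by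
  have h1 := Subgroup.card_eq_card_quotient_mul_card_subgroup (MulAction.stabilizer L x)
  have h2 : Nat.card (L ⧸ MulAction.stabilizer L x) = Nat.card (MulAction.orbit L x) :=
    Nat.card_congr (MulAction.orbitEquivQuotientStabilizer L x).symm
  rw [h2] at h1
  have h3 : (Nat.card (MulAction.stabilizer L x) : ℂ) ≠ 0 := by exact_mod_cast Nat.card_pos.ne'
  have h4 : (Nat.card (MulAction.orbit L x) : ℂ) ≠ 0 := by
    have : Nonempty (MulAction.orbit L x) := ⟨⟨x, MulAction.mem_orbit_self x⟩⟩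
    exact_mod_cast Nat.card_pos.ne'
  rw [h1]
  push_cast
  field_simp

open scoped Classical in
/-- averaging an invariant function over the orbits. -/
theorem orbit_sum (F : X → V) (hF : ∀ (l : L) (x : X), F (l • x) = F x) :
    ∃ s : Finset X, ∑ x, ((Nat.card (MulAction.stabilizer L x) : ℂ) / (Nat.card L : ℂ)) • F x
      = ∑ x ∈ s, F x := by
  let rep : X → X := fun x => (Quotient.mk (MulAction.orbitRel L X) x).out
  have hrep : ∀ x, rep x ∈ MulAction.orbit L x := fun x =>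
    Quotient.mk_out (s := MulAction.orbitRel L X) x
  have hrep2 : ∀ x y, x ∈ MulAction.orbit L y → rep x = rep y := by
    intro x y h
    show (Quotient.mk (MulAction.orbitRel L X) x).out = (Quotient.mk (MulAction.orbitRel L X) y).out
    congr 1
    exact Quotient.sound h
  refine ⟨Finset.univ.image rep, ?_⟩
  rw [← Finset.sum_fiberwise_of_maps_to (s := Finset.univ) (t := Finset.univ.image rep) (g := rep)
    (fun x _ => Finset.mem_image_of_mem rep (Finset.mem_univ x))]
  apply Finset.sum_congr rfl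
  intro r hr
  obtain ⟨x₀, -, rfl⟩ := Finset.mem_image.mp hr
  set r := rep x₀ with hr0
  have hrr : rep r = r := hrep2 _ _ (hrep x₀)
  have hiff : ∀ x, rep x = r ↔ x ∈ MulAction.orbit L r := by
    intro x
    constructor
    · intro h
      rw [← h]
      have := hrep x
      rw [MulAction.orbit_eq_iff.mpr this]
      exact MulAction.mem_orbit_self x
    · intro h
      rw [hrep2 x r h, hrr]
  have e1 : ∀ x ∈ Finset.univ.filter (fun x => rep x = r),
      ((Nat.card (MulAction.stabilizer L x) : ℂ) / (Nat.card L : ℂ)) • F x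
        = (Nat.card (MulAction.orbit L r) : ℂ)⁻¹ • F r := by
    intro x hx
    have hx' := (hiff x).mp (Finset.mem_filter.mp hx).2
    rw [stab_div, MulAction.orbit_eq_iff.mpr hx']
    obtain ⟨l, rfl⟩ := hx'
    rw [hF]
  rw [Finset.sum_congr rfl e1, Finset.sum_const]
  have e2 : (Finset.univ.filter (fun x => rep x = r)).card = Nat.card (MulAction.orbit L r) := by
    rw [Nat.card_eq_fintype_card, ← Fintype.card_subtype]
    apply Fintype.card_congr
    exact Equiv.subtypeEquivRight hiff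
  rw [e2, ← Nat.cast_smul_eq_nsmul ℂ, smul_smul, mul_inv_cancel₀, one_smul]
  have : Nonempty (MulAction.orbit L r) := ⟨⟨r, MulAction.mem_orbit_self r⟩⟩
  exact_mod_cast Nat.card_pos.ne'

end orbit

section dade

open scoped Classical

variable {G : Type*} [Group G] [Fintype G] {A : Set G} {L : Subgroup G} {H : G → Subgroup G}

/-- conjugation action of `L` on the finite subsets of `G`. -/
@[reducible] noncomputable def cjAct (L : Subgroup G) : MulAction L (Finset G) where
  smul l B := B.image (fun g => (l : G) * g * (l : G)⁻¹)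
  one_smul B := by
    show B.image (fun g => ((1 : L) : G) * g * ((1 : L) : G)⁻¹) = B
    simp
  mul_smul l l' B := by
    show B.image (fun g => ((l * l' : L) : G) * g * ((l * l' : L) : G)⁻¹)
      = (B.image (fun g => (l' : G) * g * (l' : G)⁻¹)).image (fun g => (l : G) * g * (l : G)⁻¹)
    rw [Finset.image_image]
    congr 1
    funext g
    simp [mul_assoc]

attribute [local instance] cjAct

theorem smul_def (l : L) (B : Finset G) : l • B = B.image (fun g => (l : G) * g * (l : G)⁻¹) := rfl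

theorem mem_smul (l : L) (B : Finset G) (g : G) : g ∈ l • B ↔ (l : G)⁻¹ * g * (l : G) ∈ B := by
  rw [smul_def, Finset.mem_image]
  constructor
  · rintro ⟨a, ha, rfl⟩
    have : (l : G)⁻¹ * ((l : G) * a * (l : G)⁻¹) * (l : G) = a := by group
    rwa [this]
  · intro h
    exact ⟨_, h, by group⟩

theorem conj_mem_smul (l : L) (B : Finset G) {a : G} (ha : a ∈ B) :
    (l : G) * a * (l : G)⁻¹ ∈ l • B := Finset.mem_image_of_mem _ ha

theorem card_smul (l : L) (B : Finset G) : (l • B).card = B.card := by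
  rw [smul_def]
  apply Finset.card_image_of_injective
  intro a b h
  simpa using h

/-- `H(B)`. -/
def HB (H : G → Subgroup G) (B : Finset G) : Subgroup G := ⨅ a ∈ B, H a

theorem mem_HB {B : Finset G} {y : G} : y ∈ HB H B ↔ ∀ a ∈ B, y ∈ H a := by
  simp [HB, Subgroup.mem_iInf]

/-- `N_L(B)`. -/
noncomputable def NB (L : Subgroup G) (B : Finset G) : Subgroup G :=
  (MulAction.stabilizer L B).map L.subtype

theorem mem_NB {B : Finset G} {n : G} : n ∈ NB L B ↔ ∃ h : n ∈ L, (⟨n, h⟩ : L) • B = B := by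
  unfold NB
  rw [Subgroup.mem_map]
  constructor
  · rintro ⟨l, hl, rfl⟩
    exact ⟨l.2, hl⟩
  · rintro ⟨h, h2⟩
    exact ⟨⟨n, h⟩, h2, rfl⟩

theorem coe_mem_NB {B : Finset G} {l : L} : (l : G) ∈ NB L B ↔ l • B = B := by
  rw [mem_NB]
  constructor
  · rintro ⟨_, h⟩; exact h
  · intro h; exact ⟨l.2, h⟩

theorem NB_le (B : Finset G) : NB L B ≤ L := by
  intro n hn
  exact (mem_NB.mp hn).choose

theorem card_NB (B : Finset G) : Nat.card (NB L B) = Nat.card (MulAction.stabilizer L B) :=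
  Subgroup.card_map_of_injective L.subtype_injective

/-- nonempty subsets of `A`. -/
def IsP (A : Set G) (B : Finset G) : Prop := B.Nonempty ∧ ∀ a ∈ B, a ∈ A

theorem IsP.smul (hD : DadeHypothesis A L H) {B : Finset G} (h : IsP A B) (l : L) :
    IsP A (l • B) := by
  refine ⟨h.1.image _, ?_⟩
  intro a ha
  rw [smul_def, Finset.mem_image] at ha
  obtain ⟨a', ha', rfl⟩ := ha
  exact hD.conj_mem l l.2 a' (h.2 a' ha')

theorem isP_smul_iff (hD : DadeHypothesis A L H) {B : Finset G} (l : L) :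
    IsP A (l • B) ↔ IsP A B := by
  constructor
  · intro h
    have := h.smul hD l⁻¹
    rwa [inv_smul_smul] at this
  · intro h; exact h.smul hD l

theorem HB_smul (hD : DadeHypothesis A L H) {B : Finset G} (h : IsP A B) (l : L) (y : G) :
    y ∈ HB H (l • B) ↔ (l : G)⁻¹ * y * (l : G) ∈ HB H B := by
  rw [mem_HB, mem_HB]
  constructor
  · intro h1 a ha
    have h2 := h1 _ (conj_mem_smul l B ha)
    rw [Cfsg.Agent.S1498.result A L H hD a (h.2 a ha) l l.2, Subgroup.mem_map] at h2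
    obtain ⟨u, hu, rfl⟩ := h2
    have : (l : G)⁻¹ * ((MulAut.conj (l : G)).toMonoidHom u) * (l : G) = u := by
      simp [mul_assoc]
    rwa [this]
  · intro h1 a ha
    rw [mem_smul] at ha
    have h2 := h1 _ ha
    have h3 := Cfsg.Agent.S1498.incl A L H hD _ (h.2 _ ha) l l.2 _ h2
    have e1 : (l : G) * ((l : G)⁻¹ * y * (l : G)) * (l : G)⁻¹ = y := by group
    have e2 : (l : G) * ((l : G)⁻¹ * a * (l : G)) * (l : G)⁻¹ = a := by group
    rwa [e1, e2] at h3

theorem NB_conj_mem (hD : DadeHypothesis A L H) {B : Finset G} (h : IsP A B) :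
    ∀ n ∈ NB L B, ∀ k ∈ HB H B, n * k * n⁻¹ ∈ HB H B := by
  intro n hn k hk
  obtain ⟨hnL, hn2⟩ := mem_NB.mp hn
  have := (HB_smul hD h ⟨n, hnL⟩ (n * k * n⁻¹)).mpr (by
    have e : n⁻¹ * (n * k * n⁻¹) * n = k := by group
    show n⁻¹ * (n * k * n⁻¹) * n ∈ HB H B
    rwa [e])
  rwa [hn2] at this

theorem HB_inf_NB (hD : DadeHypothesis A L H) {B : Finset G} (h : IsP A B) :
    HB H B ⊓ NB L B = ⊥ := by
  obtain ⟨a, ha⟩ := h.1
  rw [eq_bot_iff]
  intro y hy
  have h1 : y ∈ H a := mem_HB.mp hy.1 a ha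
  have h2 : y ∈ L := NB_le B hy.2
  rw [← hD.inf_eq_bot a (h.2 a ha)]
  exact ⟨h1, h2, hD.le_centralizer a (h.2 a ha) h1⟩

theorem mem_normalizer_HB (hD : DadeHypothesis A L H) {B : Finset G} (h : IsP A B) {b : G}
    (hb : b ∈ NB L B) : b ∈ normalizer ((HB H B : Subgroup G) : Set G) := by
  rw [mem_normalizer_iff]
  intro k
  refine ⟨NB_conj_mem hD h b hb k, fun hk => ?_⟩
  have := NB_conj_mem hD h b⁻¹ (inv_mem hb) _ hk
  have e : b⁻¹ * (b * k * b⁻¹) * b⁻¹⁻¹ = k := by group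
  rwa [e] at this

theorem coprime_HB (hD : DadeHypothesis A L H) {B : Finset G} (h : IsP A B) {b : G}
    (hbA : b ∈ A) : Nat.Coprime (orderOf b) (Nat.card (HB H B)) := by
  obtain ⟨a, ha⟩ := h.1
  have h1 : HB H B ≤ H a := fun y hy => mem_HB.mp hy a ha
  have h2 : b ∈ L ⊓ centralizer ({b} : Set G) :=
    ⟨hD.subset hbA, mem_centralizer_singleton_iff.mpr rfl⟩
  have h3 : orderOf b ∣ Nat.card ↥(L ⊓ centralizer ({b} : Set G)) := by
    have := orderOf_dvd_natCard (⟨b, h2⟩ : ↥(L ⊓ centralizer ({b} : Set G)))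
    rwa [Subgroup.orderOf_mk] at this
  exact ((hD.coprime a (h.2 a ha) b hbA).of_dvd_left (Subgroup.card_dvd_of_le h1)).symm.of_dvd_left h3

/-- an element of `C_G(b)` of order prime to `|C_L(b)|` lies in `H(b)`. -/
theorem mem_H_of_coprime (hD : DadeHypothesis A L H) {b : G} (hbA : b ∈ A) {y : G}
    (hy : y ∈ centralizer ({b} : Set G)) (n : ℕ) (hn : y ^ n = 1)
    (hcop : Nat.Coprime n (Nat.card ↥(L ⊓ centralizer ({b} : Set G)))) : y ∈ H b := by
  set C := Subgroup.centralizer ({b} : Set G) with hC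
  have hN : ((H b).subgroupOf C).Normal := by
    constructor
    intro n hn g
    rw [Subgroup.mem_subgroupOf] at hn ⊢
    exact hD.conj_mem_H b hbA g g.2 n hn
  have hsup : (H b).subgroupOf C ⊔ (L ⊓ C).subgroupOf C = ⊤ := by
    rw [← Subgroup.subgroupOf_sup (hD.le_centralizer b hbA) inf_le_right, hD.sup_eq b hbA,
      Subgroup.subgroupOf_self]
  let k : C := ⟨y, hy⟩
  have hk : k ∈ (H b).subgroupOf C ⊔ (L ⊓ C).subgroupOf C := by rw [hsup]; trivial
  rw [← SetLike.mem_coe, Subgroup.normal_mul] at hk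
  obtain ⟨h, hh, c, hc, hhc⟩ := Set.mem_mul.1 hk
  have hpi : (QuotientGroup.mk' ((H b).subgroupOf C)) k = (QuotientGroup.mk' ((H b).subgroupOf C)) c := by
    have e1 : (QuotientGroup.mk' ((H b).subgroupOf C)) h = 1 := (QuotientGroup.eq_one_iff h).2 hh
    rw [← hhc, map_mul, e1, one_mul]
  have h1 : ((QuotientGroup.mk' ((H b).subgroupOf C)) k) ^ Nat.card ↥(L ⊓ C) = 1 := by
    rw [hpi, ← map_pow]
    have : c ^ Nat.card ↥(L ⊓ C) = 1 := by
      apply Subtype.ext
      rw [Subgroup.coe_pow, Subgroup.coe_one]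
      exact Cfsg.Agent.S1498.pow_card_sub (Subgroup.mem_subgroupOf.1 hc)
    rw [this, map_one]
  have h2 : ((QuotientGroup.mk' ((H b).subgroupOf C)) k) ^ n = 1 := by
    rw [← map_pow]
    have : k ^ n = 1 := by
      apply Subtype.ext
      rw [Subgroup.coe_pow, Subgroup.coe_one]
      exact hn
    rw [this, map_one]
  have h3 : orderOf ((QuotientGroup.mk' ((H b).subgroupOf C)) k) ∣ 1 := by
    rw [← Nat.coprime_iff_gcd_eq_one.1 hcop]
    exact Nat.dvd_gcd (orderOf_dvd_of_pow_eq_one h2) (orderOf_dvd_of_pow_eq_one h1)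
  have h4 : (QuotientGroup.mk' ((H b).subgroupOf C)) k = 1 := by
    rw [← orderOf_eq_one_iff]
    exact Nat.dvd_one.1 h3
  have h5 : k ∈ (H b).subgroupOf C := (QuotientGroup.eq_one_iff k).1 h4
  exact Subgroup.mem_subgroupOf.1 h5

theorem HB_inf_centralizer (hD : DadeHypothesis A L H) {B : Finset G} (h : IsP A B) {b : G}
    (hbA : b ∈ A) : HB H B ⊓ centralizer ({b} : Set G) = HB H (insert b B) := by
  obtain ⟨a, ha⟩ := h.1
  ext y
  rw [Subgroup.mem_inf, mem_HB, mem_HB]
  constructor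
  · rintro ⟨h1, h2⟩ c hc
    rcases Finset.mem_insert.mp hc with rfl | hc
    · exact mem_H_of_coprime hD hbA h2 _ (Cfsg.Agent.S1498.pow_card_sub (h1 a ha))
        (hD.coprime a (h.2 a ha) c hbA)
    · exact h1 c hc
  · intro h1
    exact ⟨fun c hc => h1 c (Finset.mem_insert_of_mem hc),
      hD.le_centralizer b hbA (h1 b (Finset.mem_insert_self b B))⟩

variable [Fintype L]

/-- the inflation of `α` restricted to `N_L(B)`, extended by zero. -/
noncomputable def E (L : Subgroup G) [Fintype L] (H : G → Subgroup G) (α : L → ℂ) (B : Finset G)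
    (y : G) : ℂ :=
  ∑ b : L, if ((b : G) ∈ NB L B ∧ y * (b : G)⁻¹ ∈ HB H B) then α b else 0

/-- the induced function. -/
noncomputable def IndB (L : Subgroup G) [Fintype L] (H : G → Subgroup G) (α : L → ℂ)
    (B : Finset G) : G → ℂ := fun g =>
  ((Nat.card (HB H B) : ℂ) * (Nat.card (NB L B) : ℂ))⁻¹ * ∑ x : G, E L H α B (x⁻¹ * g * x)

theorem gen_comp {K₁ K₂ : Type*} [Group K₁] [Group K₂] {α : K₂ → ℂ}
    (h : IsGeneralizedCharacter K₂ α) (f : K₁ →* K₂) : IsGeneralizedCharacter K₁ (α ∘ f) := by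
  obtain ⟨a, b, ha, hb, rfl⟩ := h
  exact ⟨a ∘ f, b ∘ f, Cfsg.Agent.Lib.Helper82Quot.isCharacter_comp ha f,
    Cfsg.Agent.Lib.Helper82Quot.isCharacter_comp hb f, rfl⟩

theorem gen_ind' (M : Subgroup G) {β : M → ℂ} (h : IsGeneralizedCharacter M β) :
    IsGeneralizedCharacter G (indFun M β) := by
  obtain ⟨a, b, ha, hb, rfl⟩ := h
  refine ⟨indFun M a, indFun M b, Cfsg.Agent.S0148.result M a ha, Cfsg.Agent.S0148.result M b hb, ?_⟩
  have : a - b = a + (-1 : ℂ) • b := by funext x; simp [sub_eq_add_neg]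
  rw [this, Cfsg.Agent.Lib.Helper5Ind.indFun_add, Cfsg.Agent.Lib.Helper5Ind.indFun_smul]
  funext x; simp [sub_eq_add_neg]

theorem gen_IndB (hD : DadeHypothesis A L H) {α : L → ℂ} (hα : IsGeneralizedCharacter L α)
    {B : Finset G} (h : IsP A B) : IsGeneralizedCharacter G (IndB L H α B) := by
  set M := sd (HB H B) (NB L B) (NB_conj_mem hD h) with hM
  let π : M →* L := (Subgroup.inclusion (NB_le B)).comp (sdProj (HB_inf_NB hD h))
  have h1 : IsGeneralizedCharacter M (α ∘ π) := gen_comp hα π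
  have h2 : indFun M (α ∘ π) = IndB L H α B := by
    funext g
    unfold indFun IndB
    rw [card_sd (HB_inf_NB hD h)]
    push_cast
    congr 1
    apply Finset.sum_congr rfl
    intro x _
    set y := x⁻¹ * g * x with hy
    unfold E
    by_cases hyM : y ∈ M
    · rw [Cfsg.Agent.Lib.Helper19Ind.extendByZero_of_mem M _ hyM]
      obtain ⟨n, hn, hk⟩ := mem_sd_iff.mp hyM
      have hπ : π ⟨y, hyM⟩ = ⟨n, NB_le B hn⟩ := by
        have := sdProj_eq (HB_inf_NB hD h) ⟨y, hyM⟩ ⟨n, hn⟩ hk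
        show Subgroup.inclusion (NB_le B) (sdProj (HB_inf_NB hD h) ⟨y, hyM⟩) = _
        rw [this]
        rfl
      rw [Function.comp_apply, hπ, Finset.sum_eq_single (⟨n, NB_le B hn⟩ : L)]
      · rw [if_pos ⟨hn, hk⟩]
      · intro b _ hb
        rw [if_neg]
        rintro ⟨hb1, hb2⟩
        apply hb
        apply Subtype.ext
        exact sd_unique (HB_inf_NB hD h) hb1 hn hb2 hk
      · intro h'; exact absurd (Finset.mem_univ _) h'
    · rw [Cfsg.Agent.Lib.Helper19Ind.extendByZero_of_not_mem M _ hyM]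
      symm
      apply Finset.sum_eq_zero
      intro b _
      rw [if_neg]
      rintro ⟨hb1, hb2⟩
      exact hyM (mem_sd_iff.mpr ⟨b, hb1, hb2⟩)
  rw [← h2]
  exact gen_ind' M h1

theorem NB_smul (B : Finset G) (l b : L) :
    (b : G) ∈ NB L (l • B) ↔ ((l⁻¹ * b * l : L) : G) ∈ NB L B := by
  rw [coe_mem_NB, coe_mem_NB, mul_smul, mul_smul, inv_smul_eq_iff]

theorem card_HB_smul (hD : DadeHypothesis A L H) {B : Finset G} (h : IsP A B) (l : L) :
    Nat.card (HB H (l • B)) = Nat.card (HB H B) := by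
  apply Nat.card_congr
  refine ⟨fun y => ⟨(l : G)⁻¹ * y * (l : G), (HB_smul hD h l y).mp y.2⟩,
    fun y => ⟨(l : G) * y * (l : G)⁻¹, (HB_smul hD h l _).mpr (by
      have e : (l : G)⁻¹ * ((l : G) * y * (l : G)⁻¹) * (l : G) = y := by group
      rw [e]; exact y.2)⟩, ?_, ?_⟩
  · intro y; apply Subtype.ext; simp [mul_assoc]
  · intro y; apply Subtype.ext; simp [mul_assoc]

theorem card_NB_smul (B : Finset G) (l : L) : Nat.card (NB L (l • B)) = Nat.card (NB L B) := by
  rw [card_NB, card_NB, MulAction.stabilizer_smul_eq_stabilizer_map_conj]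
  exact Subgroup.card_map_of_injective (MulAut.conj l).injective

theorem E_smul (hD : DadeHypothesis A L H) {α : L → ℂ} (hα : IsClassFunction L α)
    {B : Finset G} (h : IsP A B) (l : L) (y : G) :
    E L H α (l • B) y = E L H α B ((l : G)⁻¹ * y * (l : G)) := by
  unfold E
  refine Fintype.sum_equiv (MulAut.conj l⁻¹).toEquiv _ _ ?_
  intro b
  have e0 : (MulAut.conj l⁻¹).toEquiv b = l⁻¹ * b * l := by simp
  rw [e0]
  have e1 : α (l⁻¹ * b * l) = α b := by
    have := hα b l⁻¹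
    rwa [inv_inv] at this
  have e2 : (l : G)⁻¹ * y * (l : G) * ((l⁻¹ * b * l : L) : G)⁻¹
      = (l : G)⁻¹ * (y * (b : G)⁻¹) * (l : G) := by
    simp only [Subgroup.coe_mul, Subgroup.coe_inv]
    group
  rw [e1, e2]
  apply if_congr _ rfl rfl
  rw [NB_smul, HB_smul hD h]

theorem IndB_smul (hD : DadeHypothesis A L H) {α : L → ℂ} (hα : IsClassFunction L α)
    {B : Finset G} (h : IsP A B) (l : L) : IndB L H α (l • B) = IndB L H α B := by
  funext g
  unfold IndB
  rw [card_HB_smul hD h, card_NB_smul]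
  congr 1
  simp only [E_smul hD hα h]
  refine Fintype.sum_equiv (Equiv.mulRight (l : G)) _ _ ?_
  intro x
  simp only [Equiv.coe_mulRight]
  congr 1
  group

/-- the number of `x` with `g ^ x ∈ K b`. -/
noncomputable def cnt (K : Subgroup G) (b g : G) : ℂ :=
  ∑ x : G, if x⁻¹ * g * x * b⁻¹ ∈ K then (1 : ℂ) else 0

/-- normalized count. -/
noncomputable def T (H : G → Subgroup G) (B : Finset G) (b g : G) : ℂ :=
  (Nat.card (HB H B) : ℂ)⁻¹ * cnt (HB H B) b g

theorem T_insert (hD : DadeHypothesis A L H) {B : Finset G} (h : IsP A B) {b : G} (hbA : b ∈ A)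
    (hb : b ∈ NB L B) (g : G) : T H B b g = T H (insert b B) b g := by
  have := lemmaK (HB H B) b (mem_normalizer_HB hD h hb) (coprime_HB hD h hbA) g
  rw [HB_inf_centralizer hD h hbA] at this
  unfold T cnt
  have h1 : (Nat.card (HB H B) : ℂ) ≠ 0 := by exact_mod_cast Nat.card_pos.ne'
  have h2 : (Nat.card (HB H (insert b B)) : ℂ) ≠ 0 := by exact_mod_cast Nat.card_pos.ne'
  field_simp
  rw [mul_comm, this, mul_comm]

theorem sum_E (α : L → ℂ) (B : Finset G) (g : G) :
    ∑ x : G, E L H α B (x⁻¹ * g * x)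
      = ∑ b : L, if (b : G) ∈ NB L B then α b * cnt (HB H B) b g else 0 := by
  unfold E cnt
  rw [Finset.sum_comm]
  apply Finset.sum_congr rfl
  intro b _
  by_cases hb : (b : G) ∈ NB L B
  · rw [if_pos hb, Finset.mul_sum]
    apply Finset.sum_congr rfl
    intro x _
    by_cases hx : x⁻¹ * g * x * (b : G)⁻¹ ∈ HB H B
    · rw [if_pos ⟨hb, hx⟩, if_pos hx, mul_one]
    · rw [if_neg (fun h => hx h.2), if_neg hx, mul_zero]
  · rw [if_neg hb]
    apply Finset.sum_eq_zero
    intro x _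
    rw [if_neg (fun h => hb h.1)]

theorem weight_IndB (α : L → ℂ) (B : Finset G) (g : G) :
    ((Nat.card (MulAction.stabilizer L B) : ℂ) / (Nat.card L : ℂ)) * IndB L H α B g
      = (Nat.card L : ℂ)⁻¹ * ∑ b : L, if (b : G) ∈ NB L B then α b * T H B b g else 0 := by
  unfold IndB
  rw [sum_E, ← card_NB]
  have h1 : (Nat.card (HB H B) : ℂ) ≠ 0 := by exact_mod_cast Nat.card_pos.ne'
  have h2 : (Nat.card (NB L B) : ℂ) ≠ 0 := by exact_mod_cast Nat.card_pos.ne'
  have h3 : (Nat.card L : ℂ) ≠ 0 := by exact_mod_cast Nat.card_pos.ne'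
  have e : ∀ b : L, (if (b : G) ∈ NB L B then α b * T H B b g else 0)
      = (Nat.card (HB H B) : ℂ)⁻¹ * (if (b : G) ∈ NB L B then α b * cnt (HB H B) b g else 0) := by
    intro b
    split_ifs
    · unfold T; ring
    · simp
  simp only [e]
  rw [← Finset.mul_sum]
  field_simp

open scoped symmDiff in
theorem mem_tog (B : Finset G) (b x : G) :
    x ∈ B ∆ {b} ↔ (x = b ∧ b ∉ B) ∨ (x ≠ b ∧ x ∈ B) := by
  rw [Finset.mem_symmDiff, Finset.mem_singleton]
  constructor
  · rintro (⟨h1, h2⟩ | ⟨h1, h2⟩)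
    · exact Or.inr ⟨h2, h1⟩
    · exact Or.inl ⟨h1, h1 ▸ h2⟩
  · rintro (⟨h1, h2⟩ | ⟨h1, h2⟩)
    · exact Or.inr ⟨h1, h1 ▸ h2⟩
    · exact Or.inl ⟨h2, h1⟩

open scoped symmDiff in
theorem tog_cond {B : Finset G} {b : L} (hbA : (b : G) ∈ A) (h0 : B ≠ ∅) (h1 : B ≠ {(b : G)})
    (h : IsP A B ∧ (b : G) ∈ NB L B) :
    IsP A (B ∆ {(b : G)}) ∧ (b : G) ∈ NB L (B ∆ {(b : G)}) := by
  obtain ⟨⟨hne, hA⟩, hN⟩ := h
  refine ⟨⟨?_, ?_⟩, ?_⟩
  · by_cases hb : (b : G) ∈ B
    · have : ∃ x ∈ B, x ≠ (b : G) := by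
        by_contra hcon
        push Not at hcon
        apply h1
        ext x
        rw [Finset.mem_singleton]
        exact ⟨hcon x, fun hx => hx ▸ hb⟩
      obtain ⟨x, hx, hxb⟩ := this
      exact ⟨x, (mem_tog B b x).mpr (Or.inr ⟨hxb, hx⟩)⟩
    · exact ⟨b, (mem_tog B b b).mpr (Or.inl ⟨rfl, hb⟩)⟩
  · intro a ha
    rcases (mem_tog B b a).mp ha with ⟨rfl, _⟩ | ⟨_, h2⟩
    · exact hbA
    · exact hA a h2
  · rw [coe_mem_NB] at hN ⊢
    ext x
    rw [mem_smul, mem_tog, mem_tog]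
    have hx : (b : G)⁻¹ * x * (b : G) ∈ B ↔ x ∈ B := by
      rw [← mem_smul, hN]
    have hxb : (b : G)⁻¹ * x * (b : G) = (b : G) ↔ x = (b : G) := by
      constructor
      · intro h
        have : x = (b : G) * ((b : G)⁻¹ * x * (b : G)) * (b : G)⁻¹ := by group
        rw [this, h]; group
      · intro h
        rw [h]; group
    rw [hx, hxb, ne_eq, ne_eq, hxb]

open scoped symmDiff in
theorem tog_card (B : Finset G) (b : G) :
    (-1 : ℂ) ^ (B ∆ {b}).card = - (-1 : ℂ) ^ B.card := by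
  by_cases hb : b ∈ B
  · have e : B ∆ {b} = B.erase b := by
      ext x
      rw [mem_tog, Finset.mem_erase]
      constructor
      · rintro (⟨_, h2⟩ | h)
        · exact absurd hb h2
        · exact h
      · intro h; exact Or.inr h
    have h2 : B.card = (B.erase b).card + 1 := (Finset.card_erase_add_one hb).symm
    rw [e, h2, pow_succ]
    ring
  · have e : B ∆ {b} = insert b B := by
      ext x
      rw [mem_tog, Finset.mem_insert]
      constructor
      · rintro (⟨h1, _⟩ | ⟨_, h2⟩)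
        · exact Or.inl h1
        · exact Or.inr h2
      · rintro (h | h)
        · exact Or.inl ⟨h, hb⟩
        · exact Or.inr ⟨fun hx => hb (hx ▸ h), h⟩
    rw [e, Finset.card_insert_of_notMem hb, pow_succ]
    ring

open scoped symmDiff in
theorem tog_insert (B : Finset G) (b : G) : insert b (B ∆ {b}) = insert b B := by
  ext x
  rw [Finset.mem_insert, Finset.mem_insert, mem_tog]
  by_cases hx : x = b
  · simp [hx]
  · simp [hx]

open scoped symmDiff in
/-- the alternating sum. -/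
theorem alt_sum (b : L) (hbA : (b : G) ∈ A) (g : G) :
    ∑ B : Finset G, (if IsP A B ∧ (b : G) ∈ NB L B then
      (-1 : ℂ) ^ B.card * T H (insert (b : G) B) b g else 0) = - T H {(b : G)} b g := by
  set f : Finset G → ℂ := fun B => if IsP A B ∧ (b : G) ∈ NB L B then
      (-1 : ℂ) ^ B.card * T H (insert (b : G) B) b g else 0 with hf
  have hsplit : ∑ B : Finset G, f B = f {(b : G)} + f ∅
      + ∑ B ∈ (Finset.univ.erase {(b : G)}).erase ∅, f B := by
    rw [← Finset.add_sum_erase Finset.univ f (Finset.mem_univ {(b : G)}),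
      ← Finset.add_sum_erase (Finset.univ.erase {(b : G)}) f (a := ∅)
        (Finset.mem_erase.mpr ⟨(Finset.singleton_ne_empty _).symm, Finset.mem_univ _⟩), add_assoc]
  have h0 : f ∅ = 0 := by
    simp only [hf]
    rw [if_neg]
    rintro ⟨⟨h, _⟩, _⟩
    exact Finset.not_nonempty_empty h
  have h1 : f {(b : G)} = - T H {(b : G)} b g := by
    simp only [hf]
    rw [if_pos]
    · simp
    · refine ⟨⟨Finset.singleton_nonempty _, ?_⟩, ?_⟩
      · intro a ha
        rw [Finset.mem_singleton] at ha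
        rw [ha]; exact hbA
      · rw [coe_mem_NB, smul_def, Finset.image_singleton]
        simp
  have h2 : ∑ B ∈ (Finset.univ.erase {(b : G)}).erase ∅, f B = 0 := by
    have hmem : ∀ B : Finset G, B ∈ (Finset.univ.erase {(b : G)}).erase ∅ ↔
        B ≠ ∅ ∧ B ≠ {(b : G)} := by
      intro B
      simp
    have hmem2 : ∀ B : Finset G, B ≠ ∅ ∧ B ≠ {(b : G)} →
        B ∆ {(b : G)} ≠ ∅ ∧ B ∆ {(b : G)} ≠ {(b : G)} := by
      rintro B ⟨hB0, hB1⟩
      constructor
      · intro h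
        apply hB1
        exact symmDiff_eq_bot.mp h
      · intro h
        apply hB0
        have : B ∆ {(b : G)} = ∅ ∆ {(b : G)} := by
          rw [h]; exact (bot_symmDiff _).symm
        exact symmDiff_left_injective _ this
    apply Finset.sum_involution (fun B _ => B ∆ {(b : G)})
    · intro B hB
      have hB' := (hmem B).mp hB
      have hB'' := hmem2 B hB'
      simp only [hf]
      by_cases hc : IsP A B ∧ (b : G) ∈ NB L B
      · rw [if_pos hc, if_pos (tog_cond hbA hB'.1 hB'.2 hc), tog_card, tog_insert]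
        ring
      · rw [if_neg hc, if_neg, add_zero]
        intro hc'
        apply hc
        have := tog_cond hbA hB''.1 hB''.2 hc'
        rwa [symmDiff_symmDiff_cancel_right] at this
    · intro B _ _ h
      have : B ∆ {(b : G)} = B ∆ ∅ := by
        rw [h]; exact (symmDiff_bot _).symm
      exact Finset.singleton_ne_empty _ (symmDiff_right_injective _ this)
    · intro B _
      exact symmDiff_symmDiff_cancel_right _ _
    · intro B hB
      exact (hmem _).mpr (hmem2 B ((hmem B).mp hB))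
  rw [hsplit, h0, h1, h2]
  ring

theorem HB_singleton (b : G) : HB H {b} = H b := by
  ext y
  rw [mem_HB]
  simp

/-- the Dade map as an average. -/
theorem dade_eq_sum (hD : DadeHypothesis A L H) {α : L → ℂ} (hα : IsClassFunction L α)
    (hαA : ∀ x : L, (x : G) ∉ A → α x = 0) (g : G) :
    (Nat.card L : ℂ)⁻¹ * ∑ b : L, α b * T H {(b : G)} b g = dadeIsometry A L H α g := by
  have h3 : (Nat.card L : ℂ) ≠ 0 := by exact_mod_cast Nat.card_pos.ne'
  set w : L → ℂ := fun a => α a * (Nat.card (H (a : G)) : ℂ)⁻¹ with hw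
  have hwinv : ∀ (l a : L), (a : G) ∈ A → w (l * a * l⁻¹) = w a := by
    intro l a ha
    simp only [hw]
    rw [hα]
    congr 2
    have := Cfsg.Agent.Lib.Helper32Dade.card_H_conj hD ha l.2
    rw [← this]
    rfl
  have e1 : ∑ p : G × L, (if Cfsg.Agent.Lib.Helper32Dade.Rel A L H g p then w p.2 else 0)
      = ∑ b : L, α b * T H {(b : G)} b g := by
    rw [Fintype.sum_prod_type_right]
    apply Finset.sum_congr rfl
    intro a _
    by_cases ha : (a : G) ∈ A
    · unfold T cnt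
      rw [HB_singleton, ← mul_assoc, Finset.mul_sum]
      refine Fintype.sum_equiv (Equiv.inv G) _ _ ?_
      intro x
      simp only [Equiv.inv_apply, inv_inv, mul_ite, mul_one, mul_zero]
      apply if_congr _ rfl rfl
      show ((a : G) ∈ A ∧ (a : G)⁻¹ * (x * g * x⁻¹) ∈ H (a : G)) ↔ _
      constructor
      · rintro ⟨_, h⟩
        have hc := Cfsg.Agent.Lib.Helper32Dade.comm_of_mem hD ha h
        have e : x * g * x⁻¹ * (a : G)⁻¹ = (a : G) * ((a : G)⁻¹ * (x * g * x⁻¹)) * (a : G)⁻¹ := by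
          group
        rw [e, ← hc, mul_inv_cancel_right]
        exact h
      · intro h
        refine ⟨ha, ?_⟩
        have hc := Cfsg.Agent.Lib.Helper32Dade.comm_of_mem hD ha h
        have e : (a : G)⁻¹ * (x * g * x⁻¹) = (a : G)⁻¹ * ((x * g * x⁻¹ * (a : G)⁻¹) * (a : G)) := by
          group
        rw [e, hc, inv_mul_cancel_left]
        exact h
    · rw [hαA a ha, zero_mul]
      apply Finset.sum_eq_zero
      intro x _
      rw [if_neg]
      intro h
      exact ha h.1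
  rw [← e1]
  by_cases hex : ∃ p, Cfsg.Agent.Lib.Helper32Dade.Rel A L H g p
  · obtain ⟨⟨x₁, a₁⟩, hp⟩ := hex
    rw [Cfsg.Agent.Lib.Helper32Dade.sum_rel hD w hwinv g a₁ x₁ hp,
      Cfsg.Agent.Lib.Helper32Dade.dade_apply hD α hα g x₁ a₁ hp]
    have h4 : (Nat.card (H (a₁ : G)) : ℂ) ≠ 0 := by exact_mod_cast Nat.card_pos.ne'
    simp only [hw]
    field_simp
  · rw [Cfsg.Agent.Lib.Helper32Dade.dade_apply_of_not α g hex, Finset.sum_eq_zero, mul_zero]
    intro p _
    rw [if_neg]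
    intro h
    exact hex ⟨p, h⟩

/-- the summands of Peterfalvi (2.10). -/
noncomputable def FB (A : Set G) (L : Subgroup G) [Fintype L] (H : G → Subgroup G) (α : L → ℂ)
    (B : Finset G) : G → ℂ :=
  if IsP A B then ((-1 : ℂ) ^ B.card) • IndB L H α B else 0

/-- Peterfalvi (2.10). -/
theorem dade_expansion (hD : DadeHypothesis A L H) {α : L → ℂ} (hα : IsClassFunction L α)
    (hαA : ∀ x : L, (x : G) ∉ A → α x = 0) :
    ∑ B : Finset G, ((Nat.card (MulAction.stabilizer L B) : ℂ) / (Nat.card L : ℂ)) • FB A L H α B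
      = - dadeIsometry A L H α := by
  funext g
  rw [Finset.sum_apply, Pi.neg_apply, ← dade_eq_sum hD hα hαA g]
  have e1 : ∀ B : Finset G,
      (((Nat.card (MulAction.stabilizer L B) : ℂ) / (Nat.card L : ℂ)) • FB A L H α B) g
      = (Nat.card L : ℂ)⁻¹ * ∑ b : L, α b * (if IsP A B ∧ (b : G) ∈ NB L B then
          (-1 : ℂ) ^ B.card * T H B b g else 0) := by
    intro B
    rw [Pi.smul_apply, smul_eq_mul]
    unfold FB
    by_cases hB : IsP A B
    · rw [if_pos hB, Pi.smul_apply, smul_eq_mul, mul_left_comm, weight_IndB, mul_left_comm,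
        Finset.mul_sum]
      congr 1
      apply Finset.sum_congr rfl
      intro b _
      by_cases hb : (b : G) ∈ NB L B
      · rw [if_pos hb, if_pos ⟨hB, hb⟩]; ring
      · rw [if_neg hb, if_neg (fun h => hb h.2)]; simp
    · rw [if_neg hB]
      simp [hB]
  simp only [e1]
  rw [← Finset.mul_sum, Finset.sum_comm, ← mul_neg, ← Finset.sum_neg_distrib]
  congr 1
  apply Finset.sum_congr rfl
  intro b _
  rw [← Finset.mul_sum, ← mul_neg]
  by_cases hbA : (b : G) ∈ A
  · congr 1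
    rw [← alt_sum b hbA g]
    apply Finset.sum_congr rfl
    intro B _
    by_cases hc : IsP A B ∧ (b : G) ∈ NB L B
    · rw [if_pos hc, if_pos hc, T_insert hD hc.1 hbA hc.2]
    · rw [if_neg hc, if_neg hc]
  · rw [hαA b hbA, zero_mul, zero_mul]

theorem FB_smul (hD : DadeHypothesis A L H) {α : L → ℂ} (hα : IsClassFunction L α) (l : L)
    (B : Finset G) : FB A L H α (l • B) = FB A L H α B := by
  unfold FB
  by_cases hB : IsP A B
  · rw [if_pos hB, if_pos (hB.smul hD l), card_smul, IndB_smul hD hα hB]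
  · rw [if_neg hB, if_neg (fun h => hB ((isP_smul_iff hD l).mp h))]

theorem gen_FB (hD : DadeHypothesis A L H) {α : L → ℂ} (hα : IsGeneralizedCharacter L α)
    (B : Finset G) : IsGeneralizedCharacter G (FB A L H α B) := by
  unfold FB
  by_cases hB : IsP A B
  · rw [if_pos hB]
    have : ((-1 : ℂ) ^ B.card) = (((-1 : ℤ) ^ B.card : ℤ) : ℂ) := by push_cast; rfl
    rw [this]
    exact Cfsg.Agent.Lib.Helper32Virt.gen_intCast_smul _ (gen_IndB hD hα hB)
  · rw [if_neg hB]
    exact Cfsg.Agent.Lib.Helper32Virt.gen_zero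

/-- Peterfalvi (2.8?): the Dade map sends virtual characters to virtual characters. -/
theorem dade_gen (hD : DadeHypothesis A L H) {α : L → ℂ} (hα : IsGeneralizedCharacter L α)
    (hαA : ∀ x : L, (x : G) ∉ A → α x = 0) :
    IsGeneralizedCharacter G (dadeIsometry A L H α) := by
  have hcl := Cfsg.Agent.Lib.Helper32Virt.gen_isClassFunction hα
  obtain ⟨s, hs⟩ := orbit_sum (L := L) (FB A L H α) (FB_smul hD hcl)
  have h1 := dade_expansion hD hcl hαA
  rw [hs] at h1
  have h2 : dadeIsometry A L H α = - ∑ B ∈ s, FB A L H α B := by rw [h1, neg_neg]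
  rw [h2]
  exact Cfsg.Agent.Lib.Helper32Virt.gen_neg
    (Cfsg.Agent.Lib.Helper32Virt.gen_sum s (fun B _ => gen_FB hD hα B))

end dade

end Cfsg.Agent.Lib.Helper83Dade
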