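import Cfsg.Agent.Lib.Helper32Sibley
import Cfsg.Agent.Lib.Helper32Dade
import Cfsg.Agent.Lib.Helper1FpfSylow
import Cfsg.Agent.Lib.Helper1Fitting
import Cfsg.Agent.Lib.Helper29Basic
import Cfsg.Agent.S1500
import Cfsg.Agent.S1501
import Cfsg.Agent.S1518

/-!
Peterfalvi: coherence for a maximal subgroup of Type I which is a Frobenius group
(relative to the Dade hypothesis for `A(L)`).
-/

set_option autoImplicit false
set_option linter.unusedSectionVars false
open Cfsg

namespace Cfsg.Agent.Lib.Helper32T1Frob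

open Cfsg.Agent.Lib.Helper4Char Cfsg.Agent.Lib.Helper4Char2 Cfsg.Agent.Lib.Helper4Char4
open Cfsg.Agent.Lib.Helper32Virt Cfsg.Agent.Lib.Helper32Coh Cfsg.Agent.Lib.Helper32Sub
open Cfsg.Agent.Lib.Helper32Sub2 Cfsg.Agent.Lib.Helper32SeqInd Cfsg.Agent.Lib.Helper32Extend
open Cfsg.Agent.Lib.Helper32Frob2 Cfsg.Agent.Lib.Helper32Ind Cfsg.Agent.Lib.Helper19Ind
open Cfsg.Agent.Lib.Helper5Ind Cfsg.Agent.Lib.Helper32TI Cfsg.Agent.Lib.Helper32FrobGrp
open Cfsg.Agent.Lib.Helper32Div Cfsg.Agent.Lib.Helper32Link Cfsg.Agent.Lib.Helper32Nil2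
open Cfsg.Agent.Lib.Helper32Dade

section Dade

variable {G : Type*} [Group G]

theorem dade_add (A : Set G) (L : Subgroup G) (H : G → Subgroup G) (α β : L → ℂ) :
    dadeIsometry A L H (α + β) = dadeIsometry A L H α + dadeIsometry A L H β := by
  funext g
  rw [Pi.add_apply]
  unfold dadeIsometry
  split_ifs with h
  · rfl
  · simp

theorem dade_zsmul (A : Set G) (L : Subgroup G) (H : G → Subgroup G) (n : ℤ) (α : L → ℂ) :
    dadeIsometry A L H (n • α) = n • dadeIsometry A L H α := by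
  funext g
  rw [Pi.smul_apply]
  unfold dadeIsometry
  split_ifs with h
  · rfl
  · simp

theorem dade_iso [Fintype G] {A : Set G} {L : Subgroup G} [Fintype L] {H : G → Subgroup G}
    (hD : DadeHypothesis A L H) (S : Set (L → ℂ)) (hchar : ∀ χ ∈ S, IsCharacter L χ)
    (hv : ∀ α ∈ zspanOn S {1}ᶜ, ∀ x : L, (x : G) ∉ A → α x = 0) :
    IsLinearIsometryOn (zspanOn S {1}ᶜ) (dadeIsometry A L H) :=
  ⟨fun α _ β _ => dade_add A L H α β, fun α _ n => dade_zsmul A L H n α,
    fun α hα β hβ => (Cfsg.Agent.S1500.result A L H hD α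
      (gen_isClassFunction (zspan_gen hchar hα.1)) (hv α hα)).1 β
      (gen_isClassFunction (zspan_gen hchar hβ.1)) (hv β hβ),
    fun α hα => Cfsg.Agent.S1501.result A L H hD α (zspan_gen hchar hα.1) (hv α hα)⟩

end Dade

section Basic

variable {G : Type*} [Group G] [Finite G] (L : Subgroup G)

theorem mem_fh {x : L} : x ∈ fittingHall ↥L ↔ (x : G) ∈ fittingHallOf L := by
  unfold fittingHallOf
  constructor
  · intro h
    exact ⟨x, h, rfl⟩
  · rintro ⟨y, hy, e⟩
    have : y = x := Subtype.ext e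
    rwa [← this]

theorem fh_nil : Group.IsNilpotent ↥(fittingHall ↥L) := by
  have h1 : fittingHall ↥L ≤ fittingSubgroup ↥L :=
    sSup_le_sSup (fun N hN => ⟨hN.1, hN.2.1⟩)
  have h2 := Cfsg.Agent.Lib.Helper1Fitting.fitting_isNilpotent (G := ↥L)
  exact (Group.isNilpotent_congr (Subgroup.subgroupOfEquivOfLe h1)).mp inferInstance

variable {L}

theorem free_of (hfrob : ∀ x ∈ fittingHallOf L, x ≠ 1 →
      L ⊓ Subgroup.centralizer ({x} : Set G) ≤ fittingHallOf L) :
    ∀ y : L, y ∉ fittingHall ↥L → ∀ c ∈ fittingHall ↥L, y * c = c * y → c = 1 := by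
  intro y hy c hc hyc
  by_contra hc1
  apply hy
  rw [mem_fh]
  apply hfrob c ((mem_fh L).1 hc) (fun e => hc1 (Subtype.ext e))
  refine Subgroup.mem_inf.2 ⟨y.2, ?_⟩
  rw [Subgroup.mem_centralizer_singleton_iff]
  exact congrArg Subtype.val hyc

theorem mem_typeA (hI : IsOfTypeI L) (hfrob : ∀ x ∈ fittingHallOf L, x ≠ 1 →
      L ⊓ Subgroup.centralizer ({x} : Set G) ≤ fittingHallOf L) {a : G} :
    a ∈ typeA L ↔ a ∈ fittingHallOf L ∧ a ≠ 1 := by
  unfold typeA
  rw [if_pos hI]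
  constructor
  · rintro ⟨haL, ha1, x, hx, hx1, hax⟩
    refine ⟨hfrob x hx hx1 (Subgroup.mem_inf.2 ⟨haL, ?_⟩), ha1⟩
    rw [Subgroup.mem_centralizer_singleton_iff]
    exact hax
  · rintro ⟨ha, ha1⟩
    exact ⟨Subgroup.map_subtype_le _ ha, ha1, a, ha, ha1, rfl⟩

end Basic

section Main

variable {G : Type*} [Group G] [Fintype G] {L : Subgroup G} [Fintype L]

theorem vanish (hI : IsOfTypeI L) (hfrob : ∀ x ∈ fittingHallOf L, x ≠ 1 →
      L ⊓ Subgroup.centralizer ({x} : Set G) ≤ fittingHallOf L) {α : L → ℂ}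
    (hα : α ∈ zspanOn (inducedIrrAbove (fittingHall ↥L) ⊥) {1}ᶜ) (x : L)
    (hx : (x : G) ∉ typeA L) : α x = 0 := by
  by_cases h1 : x = 1
  · rw [h1]; exact (mem_zspanOn_one.1 hα).2
  · apply zspan_vanish (fittingHall ↥L) ⊥ hα.1 x
    intro hK
    exact hx ((mem_typeA hI hfrob).2 ⟨(mem_fh L).1 hK, fun e => h1 (Subtype.ext e)⟩)

theorem coh_of_good (hI : IsOfTypeI L) (hfrob : ∀ x ∈ fittingHallOf L, x ≠ 1 →
      L ⊓ Subgroup.centralizer ({x} : Set G) ≤ fittingHallOf L)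
    (hD : DadeHypothesis (typeA L) L (supportR L))
    (hgood : (¬ ∃ p m : ℕ, p.Prime ∧ Nat.card (fittingHall ↥L) = p ^ m) ∨
      ⁅fittingHall ↥L, fittingHall ↥L⁆ ≤ ⊥ ∨
      ∃ p m : ℕ, p.Prime ∧ Nat.card (fittingHall ↥L) = p ^ m ∧ (fittingHall ↥L).index ∣ p - 1) :
    IsCoherent (inducedIrrAbove (fittingHall ↥L) ⊥) {1}ᶜ
      (dadeIsometry (typeA L) L (supportR L)) := by
  classical
  set K := fittingHall ↥L with hKdef
  have hnil : Group.IsNilpotent K := fh_nil L
  have hsolv : Group.IsSolvable K := inferInstance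
  have hK1 : K ≠ ⊥ := hI.1.2.2.1
  have hKL : K < ⊤ := lt_top_iff_ne_top.2 hI.1.2.2.2.1
  have hodd : Odd (Nat.card L) := hI.1.2.1
  have hC := free_of hfrob
  have hnil' : Group.IsNilpotent (↥K ⧸ (⊥ : Subgroup L).subgroupOf K) := inferInstance
  have hH₁K : ⁅K, K⁆ < K := by
    have := Cfsg.Agent.S1520.comm_lt ⊥ K K (bot_lt_iff_ne_bot.2 hK1) le_rfl hnil'
    rwa [sup_bot_eq] at this
  have hirr := all_irr K hC
  have hreal := not_real K hC hodd hKL
  have hne : (inducedIrrAbove K ⊥).Nonempty := by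
    obtain ⟨ξ, hξ, -⟩ := exists_linear_mem hsolv (bot_lt_iff_ne_bot.2 hK1)
    exact ⟨ξ, hξ⟩
  have hiso := dade_iso hD (inducedIrrAbove K ⊥)
    (fun χ hχ => IsIrrCharacter.isCharacter (hirr χ hχ))
    (fun α hα x hx => vanish hI hfrob hα x hx)
  obtain ⟨R, hS⟩ := Cfsg.Agent.S1514.result _ hne hirr
    (fun χ hχ => ⟨conj_mem hχ, hreal χ hχ⟩) _ hiso (fun α _ => Cfsg.Agent.S1518.dade_one hD α)
  have hfr := quot_frob K hC ⁅K, K⁆ (Subgroup.commutator_le_left K K)
  apply Cfsg.Agent.S1521.result K hsolv _ R hS hodd ⊥ bot_le hnil' ⁅K, K⁆ (sup_bot_eq _).symm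
    hH₁K hKL hfr
  rcases hgood with h | h | ⟨p, m, hp, hm, hd⟩
  · refine Or.inr (Or.inr (Or.inl ?_))
    rwa [Subgroup.relIndex_bot_left]
  · exact Or.inr (Or.inr (Or.inr (Or.inl h)))
  · refine Or.inr (Or.inr (Or.inr (Or.inr ⟨p, m, hp, ?_, hd⟩)))
    rwa [Subgroup.relIndex_bot_left]

theorem subgroupOf_eq : (fittingHallOf L).subgroupOf L = fittingHall ↥L := by
  unfold fittingHallOf Subgroup.subgroupOf
  exact Subgroup.comap_map_eq_self_of_injective L.subtype_injective _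

theorem centralizer_le (hTI : IsTISubset (fittingHallOf L : Set G))
    (hN : Subgroup.normalizer (fittingHallOf L : Set G) = L) {a : G} (ha : a ∈ fittingHallOf L)
    (ha1 : a ≠ 1) : Subgroup.centralizer ({a} : Set G) ≤ L := by
  intro g hg
  by_contra hgL
  rw [← hN] at hgL
  apply ha1
  apply hTI g hgL a ha
  rw [Subgroup.mem_centralizer_singleton_iff] at hg
  have e : g * a * g⁻¹ = a := by rw [hg]; group
  rw [e]; exact ha

theorem dade_eq_ind (hI : IsOfTypeI L) (hfrob : ∀ x ∈ fittingHallOf L, x ≠ 1 →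
      L ⊓ Subgroup.centralizer ({x} : Set G) ≤ fittingHallOf L)
    (hD : DadeHypothesis (typeA L) L (supportR L))
    (hTI : IsTISubset (fittingHallOf L : Set G))
    (hN : Subgroup.normalizer (fittingHallOf L : Set G) = L) {α : L → ℂ}
    (hα : α ∈ zspanOn (inducedIrrAbove (fittingHall ↥L) ⊥) {1}ᶜ) :
    dadeIsometry (typeA L) L (supportR L) α = indFun L α := by
  classical
  have hC := free_of hfrob
  have hirr := all_irr (fittingHall ↥L) hC
  have hcl : IsClassFunction L α :=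
    gen_isClassFunction (zspan_gen (fun χ hχ => IsIrrCharacter.isCharacter (hirr χ hχ)) hα.1)
  funext g
  by_cases hex : ∃ p, Rel (typeA L) L (supportR L) g p
  · obtain ⟨⟨x, a⟩, hp⟩ := hex
    rw [dade_apply hD α hcl g x a hp]
    obtain ⟨ha, hu⟩ := hp
    change (a : G) ∈ typeA L at ha
    change (a : G)⁻¹ * (x * g * x⁻¹) ∈ supportR L (a : G) at hu
    obtain ⟨haH, ha1⟩ := (mem_typeA hI hfrob).1 ha
    have hbot : supportR L (a : G) = ⊥ := by
      unfold supportR
      rw [dif_neg]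
      intro h
      exact h.1 (centralizer_le hTI hN haH ha1)
    rw [hbot, Subgroup.mem_bot] at hu
    have e : x * g * x⁻¹ = a := (inv_mul_eq_one.1 hu).symm
    rw [← indFun_isClassFunction L α g x, e]
    symm
    have hTI' : ∀ g : G, g ∉ L → ∀ t ∈ (fittingHallOf L : Set G),
        g * t * g⁻¹ ∈ (fittingHallOf L : Set G) → t = 1 := by
      intro g hg
      exact hTI g (by rw [hN]; exact hg)
    apply indFun_eq_of_TI L (fittingHallOf L : Set G) hTI' α hcl _ a haH
      (fun e => ha1 (congrArg Subtype.val e))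
    intro y hy
    apply zspan_vanish (fittingHall ↥L) ⊥ hα.1 y
    intro hK
    exact hy ((mem_fh L).1 hK)
  · rw [dade_apply_of_not α g hex, indFun_apply, Finset.sum_eq_zero, mul_zero]
    intro y _
    by_cases hm : y⁻¹ * g * y ∈ L
    · rw [extendByZero_of_mem L α hm]
      apply vanish hI hfrob hα
      intro hA
      apply hex
      refine ⟨(y⁻¹, ⟨y⁻¹ * g * y, hm⟩), hA, ?_⟩
      show (y⁻¹ * g * y)⁻¹ * (y⁻¹ * g * y⁻¹⁻¹) ∈ supportR L (y⁻¹ * g * y)
      have e : (y⁻¹ * g * y)⁻¹ * (y⁻¹ * g * y⁻¹⁻¹) = 1 := by group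
      rw [e]; exact Subgroup.one_mem _
    · exact extendByZero_of_not_mem L α hm

theorem coh_of_TI (hI : IsOfTypeI L) (hfrob : ∀ x ∈ fittingHallOf L, x ≠ 1 →
      L ⊓ Subgroup.centralizer ({x} : Set G) ≤ fittingHallOf L)
    (hD : DadeHypothesis (typeA L) L (supportR L))
    (hTI : IsTISubset (fittingHallOf L : Set G))
    (hN : Subgroup.normalizer (fittingHallOf L : Set G) = L) :
    IsCoherent (inducedIrrAbove (fittingHall ↥L) ⊥) {1}ᶜ
      (dadeIsometry (typeA L) L (supportR L)) := by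
  have e : (fittingHallOf L).subgroupOf L = fittingHall ↥L := subgroupOf_eq
  have hn : ((fittingHallOf L).subgroupOf L).Normal := by rw [e]; infer_instance
  have hH1 : fittingHallOf L ≠ ⊥ := by
    intro h
    apply hI.1.2.2.1
    rw [← e, h]
    exact Subgroup.bot_subgroupOf L
  have key := Cfsg.Agent.Lib.Helper32Sibley.core (fittingHallOf L) L hI.1.2.1
    (Subgroup.map_subtype_le _) hH1 (by rw [e]; exact lt_top_iff_ne_top.2 hI.1.2.2.2.1)
    (by rw [e]; exact fh_nil L) (by rw [e]; exact free_of hfrob) hTI hN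
  rw [e] at key
  obtain ⟨h1, τ₁, h2, h3⟩ := key
  refine ⟨h1, τ₁, h2, fun α hα => ?_⟩
  rw [h3 α hα, dade_eq_ind hI hfrob hD hTI hN hα]

theorem index_dvd_exponent (hI : IsOfTypeI L) (hfrob : ∀ x ∈ fittingHallOf L, x ≠ 1 →
      L ⊓ Subgroup.centralizer ({x} : Set G) ≤ fittingHallOf L) :
    (fittingHall ↥L).index ∣ Monoid.exponent (↥L ⧸ fittingHall ↥L) := by
  classical
  set K := fittingHall ↥L with hKdef
  have hC := free_of hfrob
  obtain ⟨U, hU1, hcompl, -, -⟩ := hI.1.2.2.2.2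
  have hoddU : Odd (Nat.card U) :=
    Odd.of_dvd_nat hI.1.2.1 (Subgroup.card_subgroup_dvd_card U)
  have hfpf : ∀ h ∈ U, h ≠ 1 → K ⊓ Subgroup.centralizer {h} = ⊥ := by
    intro h hh h1
    have hhK : h ∉ K := by
      intro hK
      have : h ∈ K ⊓ U := ⟨hK, hh⟩
      rw [hcompl.disjoint.eq_bot, Subgroup.mem_bot] at this
      exact h1 this
    rw [eq_bot_iff]
    intro c hc
    rw [Subgroup.mem_bot]
    apply hC h hhK c hc.1
    exact (Subgroup.mem_centralizer_singleton_iff.1 hc.2).symm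
  have hZ : IsZGroup U := by
    refine ⟨fun p hp P => ?_⟩
    have := Fact.mk hp
    rcases Cfsg.Agent.Lib.Helper1FpfSylow.sylow_cyclic_or_quaternion K U hI.1.2.2.1 hfpf p P with
      h | ⟨n, ⟨φ⟩⟩
    · exact h
    · exfalso
      have h1 : Nat.card P = 4 * 2 ^ n := by
        rw [Nat.card_congr φ.toEquiv]
        have : NeZero (2 ^ n) := ⟨by positivity⟩
        rw [Nat.card_eq_fintype_card, QuaternionGroup.card]
      have h2 : Nat.card P ∣ Nat.card U := Subgroup.card_subgroup_dvd_card _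
      have h3 : Odd (Nat.card P) := Odd.of_dvd_nat hoddU h2
      rw [h1] at h3
      have : Even (4 * 2 ^ n) := ⟨2 * 2 ^ n, by ring⟩
      exact (Nat.not_odd_iff_even.2 this) h3
  have hsurj : Function.Surjective ((QuotientGroup.mk' K).comp U.subtype) := by
    intro q
    obtain ⟨l, rfl⟩ := QuotientGroup.mk_surjective q
    have hl : l ∈ ((K ⊔ U : Subgroup L) : Set L) := by rw [hcompl.sup_eq_top]; trivial
    rw [Subgroup.normal_mul] at hl
    obtain ⟨k, hk, u, hu, rfl⟩ := Set.mem_mul.1 hl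
    refine ⟨⟨u, hu⟩, ?_⟩
    show (QuotientGroup.mk u : L ⧸ K) = QuotientGroup.mk (k * u)
    rw [QuotientGroup.eq]
    have : u⁻¹ * (k * u) = u⁻¹ * k * u⁻¹⁻¹ := by group
    rw [this]
    exact (inferInstance : K.Normal).conj_mem k hk u⁻¹
  have hZ' : IsZGroup (L ⧸ K) := IsZGroup.of_surjective hsurj
  rw [IsZGroup.exponent_eq_card, Subgroup.index_eq_card]

/-- the main statement, relative to the Dade hypothesis. -/
theorem main (hI : IsOfTypeI L) (hfrob : ∀ x ∈ fittingHallOf L, x ≠ 1 →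
      L ⊓ Subgroup.centralizer ({x} : Set G) ≤ fittingHallOf L)
    (hD : DadeHypothesis (typeA L) L (supportR L))
    (hN : Subgroup.normalizer (fittingHallOf L : Set G) = L) :
    (∀ χ ∈ inducedIrrAbove (fittingHall ↥L) ⊥, IsIrrCharacter L χ) ∧
    IsCoherent (inducedIrrAbove (fittingHall ↥L) ⊥) {1}ᶜ
      (dadeIsometry (typeA L) L (supportR L)) := by
  refine ⟨all_irr _ (free_of hfrob), ?_⟩
  rcases hI.2 with hTI | ⟨hab, -, -⟩ | ⟨hexp, -⟩
  · exact coh_of_TI hI hfrob hD hTI hN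
  · apply coh_of_good hI hfrob hD
    refine Or.inr (Or.inl ?_)
    rw [Subgroup.commutator_le]
    intro a ha b hb
    rw [Subgroup.mem_bot, commutatorElement_eq_one_iff_mul_comm]
    have := hab.is_comm.comm ⟨(a : G), (mem_fh L).1 ha⟩ ⟨(b : G), (mem_fh L).1 hb⟩
    have h2 : (a : G) * (b : G) = (b : G) * (a : G) := congrArg Subtype.val this
    exact Subtype.ext h2
  · apply coh_of_good hI hfrob hD
    by_cases hpp : ∃ p m : ℕ, p.Prime ∧ Nat.card (fittingHall ↥L) = p ^ m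
    · obtain ⟨p, m, hp, hm⟩ := hpp
      refine Or.inr (Or.inr ⟨p, m, hp, hm, ?_⟩)
      apply (index_dvd_exponent hI hfrob).trans
      apply hexp p hp
      rw [Cfsg.Agent.Lib.Helper29Basic.card_fittingHallOf, hm]
      have hm0 : m ≠ 0 := by
        rintro rfl
        rw [pow_zero] at hm
        exact hI.1.2.2.1 (Subgroup.card_eq_one.1 hm)
      exact dvd_pow_self p hm0
    · exact Or.inl hpp

end Main

end Cfsg.Agent.Lib.Helper32T1Frob
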