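import Cfsg.Agent.Lib.Helper33LI2H

/-! # `HasInv` for the stabiliser of `v0`: assembling the pieces (helper33) -/

set_option autoImplicit false
set_option exponentiation.threshold 2000
set_option maxRecDepth 1000000

open Cfsg Cfsg.Agent.Lib.Helper33Golay Cfsg.Agent.Lib.Helper33LVec Cfsg.Agent.Lib.Helper33LMat
open Cfsg.Agent.Lib.Helper33LTest Cfsg.Agent.Lib.Helper33LCo0 Cfsg.Agent.Lib.Helper33LFrame
open Cfsg.Agent.Lib.Helper33LGood Cfsg.Agent.Lib.Helper33LReach2 Cfsg.Agent.Lib.Helper33LWord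
open Cfsg.Agent.Lib.Helper33LPat Cfsg.Agent.Lib.Helper33LFrame2 Cfsg.Agent.Lib.Helper33LBase
open Cfsg.Agent.Lib.Helper33LMcL Cfsg.Agent.Lib.Helper33LHS Cfsg.Agent.Lib.Helper33LReach
open Cfsg.Agent.Lib.Helper33LCo2Thy Cfsg.Agent.Lib.Helper33LCent Cfsg.Agent.Lib.Helper33LCent2
open Cfsg.Agent.Lib.Helper33LCent3 Cfsg.Agent.Lib.Helper33LMin
open Cfsg.Agent.Lib.Helper33LCent4
open Cfsg.Agent.Lib.Helper33LCo2 Cfsg.Agent.Lib.Helper33LCo2Ord Cfsg.Agent.Lib.Helper33LI2D
open Cfsg.Agent.Lib.H33I2Defs Cfsg.Agent.Lib.Helper33LI2G Cfsg.Agent.Lib.Helper33LI2Q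
open Cfsg.Agent.Lib.Helper33LI2H
open MulAction

namespace Cfsg.Agent.Lib.Helper33LI2F

/-! ### the kernel is extraspecial of order `2^9` -/

/-- the embedding -/
noncomputable def φ : CC →* ↥Co0 := (Subgroup.subtype _).comp (Subgroup.subtype _)

theorem φ_apply (g : CC) : φ g = co g := rfl
theorem φ_inj : Function.Injective φ := fun _ _ e => co_inj e

noncomputable def L : List ↥Co0 := words512.map wprod

theorem good9 : ∀ Q ∈ gens9, goodP Q = true := fun Q hQ => (gd Q (g9 Q hQ)).1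

theorem goodW {z : List ℕ} (hz : z ∈ words512) : ∀ Q ∈ z, goodP Q = true :=
  fun Q hQ => good9 Q (let512 z hz Q hQ)

theorem L_nodup : L.Nodup := by
  have h1 : (words512.map (fun z => run z x1c)).Nodup := nodup_of_ndGo _ _ nd512
  have h0 : words512.Nodup := List.Nodup.of_map _ h1
  obtain ⟨x1, x2, _⟩ := code_ok x1_ok
  have nz : ∀ z ∈ words512, run z x1c ≠ 0 := by
    intro z hz h0
    have := List.all_eq_true.1 nz512 _ (List.mem_map_of_mem (f := fun z => run z x1c) hz)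
    rw [h0] at this
    simp at this
  unfold L
  refine List.Nodup.map_on ?_ h0
  intro z hz z' hz' he
  obtain ⟨a1, a2, a3⟩ := run_spec z (goodW hz) x1c x1 x2 (nz z hz)
  obtain ⟨b1, b2, b3⟩ := run_spec z' (goodW hz') x1c x1 x2 (nz z' hz')
  rw [he, b3] at a3
  have h3 := congrArg (fun x : LV => (x : GolayPt → ℤ)) a3
  simp only [DL_coe a2, DL_coe b2] at h3
  exact List.inj_on_of_nodup_map h1 hz hz' (D_injOn b1 a1 h3).symm

theorem L_len : L.length = 512 := by
  unfold L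
  rw [List.length_map, len512]

theorem L_ker (y : ↥Co0) : y ∈ L ↔ ∃ x ∈ f.ker, φ x = y := by
  constructor
  · intro hy
    obtain ⟨z, hz, rfl⟩ := List.mem_map.1 hy
    exact ⟨mkC (wprod z) (word_mem' hz), MonoidHom.mem_ker.2 (word_ker hz), rfl⟩
  · rintro ⟨x, hx, rfl⟩
    obtain ⟨z, hz, he⟩ := ker_sub (MonoidHom.mem_ker.1 hx)
    rw [φ_apply, he]
    exact List.mem_map_of_mem hz

theorem T_mem : [PT8] ∈ words512 := gens_mem PT8 (by decide)

theorem z_mem : toCo0 PT8 ∈ L := by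
  rw [← wprod_single]
  exact List.mem_map_of_mem T_mem

theorem z_ne : toCo0 PT8 ≠ 1 := by
  rw [← wprod_single]
  exact wprod_ne_of_notOne (goodW T_mem) T_ne

theorem z_sq : toCo0 PT8 * toCo0 PT8 = 1 := by
  have h := wprod_eq_one (ws := [PT8, PT8]) (by
    intro P hP
    simp only [List.mem_cons, List.not_mem_nil, or_false, or_self] at hP
    rw [hP]; exact gT) TT
  rwa [wprod_cons, wprod_single] at h

theorem z_comm (y : ↥Co0) (hy : y ∈ L) : toCo0 PT8 * y = y * toCo0 PT8 := by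
  obtain ⟨z, hz, rfl⟩ := List.mem_map.1 hy
  exact (mem_Zg.1 (word_mem' hz)).1.symm

theorem L_cen (x : ↥Co0) (hx : x ∈ L) (h : ∀ y ∈ L, x * y = y * x) : x = 1 ∨ x = toCo0 PT8 := by
  obtain ⟨w, hw, rfl⟩ := List.mem_map.1 hx
  have hc := List.all_eq_true.1 cen_all w hw
  rw [Bool.or_eq_true, Bool.or_eq_true] at hc
  rcases hc with (hc | hc) | hc
  · left; rw [eq_of_beqL _ _ hc, wprod_nil]
  · right; rw [eq_of_beqL _ _ hc, wprod_single]
  · exfalso
    obtain ⟨k, hk, hd⟩ := List.any_eq_true.1 hc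
    have hne := wprod_ne_of_diffW (u := w ++ [k]) (v := k :: w) (by
      intro P hP
      rcases List.mem_append.1 hP with hP | hP
      · exact goodW hw P hP
      · rw [List.mem_singleton.1 hP]; exact good9 k hk) (by
      intro P hP
      rcases List.mem_cons.1 hP with hP | hP
      · rw [hP]; exact good9 k hk
      · exact goodW hw P hP) hd
    apply hne
    rw [wprod_append, wprod_single, wprod_cons]
    have := h (wprod [k]) (List.mem_map_of_mem (gens_mem k hk))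
    rwa [wprod_single] at this

theorem L_sq (x : ↥Co0) (hx : x ∈ L) : x * x = 1 ∨ x * x = toCo0 PT8 := by
  obtain ⟨w, hw, rfl⟩ := List.mem_map.1 hx
  have hc := List.all_eq_true.1 sq_all w hw
  have hg : ∀ P ∈ w ++ w, goodP P = true := by
    intro P hP
    rcases List.mem_append.1 hP with hP | hP <;> exact goodW hw P hP
  rw [Bool.or_eq_true] at hc
  rcases hc with hc | hc
  · left
    rw [← wprod_append]
    exact wprod_eq_one hg hc
  · right
    have h1 := wprod_eq_one (ws := PT8 :: (w ++ w)) (by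
      intro P hP
      rcases List.mem_cons.1 hP with hP | hP
      · rw [hP]; exact gT
      · exact hg P hP) hc
    rw [wprod_cons, wprod_append] at h1
    calc wprod w * wprod w = (toCo0 PT8 * toCo0 PT8) * (wprod w * wprod w) := by
          rw [z_sq, one_mul]
      _ = toCo0 PT8 * (toCo0 PT8 * (wprod w * wprod w)) := by rw [mul_assoc]
      _ = toCo0 PT8 := by rw [h1, mul_one]

theorem ker_extra : Cfsg.IsExtraspecial 2 ↥f.ker ∧ Nat.card ↥f.ker = 2 ^ 9 :=
  H33I2Extra.extraspecial_of_list φ φ_inj f.ker L L_nodup L_len L_ker (toCo0 PT8) z_mem z_ne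
    z_comm L_cen L_sq

/-! ### surjectivity -/

theorem xh_R7 : xhc ∈ R7L := by
  have : xhc ∈ F7r ++ F7nr := List.mem_append_left _ (List.of_mem_zip xh_mem).1
  exact mem_of_any (List.all_eq_true.1 F7_mem _ this)

noncomputable def g0 : CC := mkC (toCo0 PG0) (kokA PG0 (by decide)).2

noncomputable def r0 : LV := DL xhc

theorem hr0 : r0 ∈ R := (R7_facts _ xh_R7).2.2

theorem T6 : ∀ p ∈ blL.zip g0img, ∀ j : I6, p.1 = bl j → ∀ k : I6, pN p.2 (bl k.swap) =
    ((if k = j then 1 else 0) + pN xhc (bl j) * pN xhc (bl k.swap)) % 2 := by decide +kernel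

theorem T7 : ∀ j : I6, ∃ p ∈ blL.zip g0img, p.1 = bl j := by decide +kernel

theorem h0 (j : I6) : κ (g0 • b j) =
    Pi.single j 1 + Cfsg.sympForm 3 (ZMod 2) (Pi.single j 1) (κ r0) • κ r0 := by
  obtain ⟨p, hp, hj⟩ := T7 j
  have hk := List.all_eq_true.1 g0_ok p hp
  rw [Bool.and_eq_true] at hk
  have hm := mem_of_any hk.2
  obtain ⟨a1, a2, _⟩ := R7_facts _ (bl_mem' j)
  rw [hj] at hk
  obtain ⟨_, _, b3⟩ := toCo0_smul_DL (gd PG0 (by decide)).1 a1 a2 hk.1
  have e1 : g0 • b j = DL p.2 := by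
    rw [smul_co]; exact b3
  have e2 : Cfsg.sympForm 3 (ZMod 2) (Pi.single j 1) (κ r0) = (pN xhc (bl j) : ZMod 2) := by
    rw [H33I2Form.sympForm_eq, Finset.sum_eq_single j]
    · rw [Pi.single_eq_same, one_mul, r0, κ_code _ xh_R7, Sum.swap_swap]
    · intro k _ hk
      rw [Pi.single_eq_of_ne hk, zero_mul]
    · intro h; exact absurd (Finset.mem_univ j) h
  funext k
  rw [e1, e2, κ_code _ hm, T6 p hp j hj k, ZMod.natCast_mod, Pi.add_apply, Pi.smul_apply, r0,
    κ_code _ xh_R7, Pi.single_apply, smul_eq_mul]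
  push_cast
  split_ifs <;> simp

theorem T8 : ∀ w : V6, w ≠ 0 → ∃ p ∈ orbL, ∀ k : I6, (pN p.2 (bl k.swap) : ZMod 2) = w k := by
  decide +kernel

theorem T9 : ∀ p ∈ orbL, ∀ Q ∈ p.1, Q ∈ allP := by decide +kernel

theorem R7_ne : ∀ r ∈ R7L, r ≠ 0 := by decide +kernel

theorem htr (w : V6) (hw : w ≠ 0) : ∃ g : CC, κ (g • r0) = w := by
  obtain ⟨p, hp, hk⟩ := T8 w hw
  have ho := List.all_eq_true.1 orb_ok p hp
  rw [Bool.and_eq_true, Nat.beq_eq] at ho
  have hm := mem_of_any ho.2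
  refine ⟨mkC (wprod p.1) (wprod_mem (fun Q hQ => kokA Q (T9 p hp Q hQ))), ?_⟩
  obtain ⟨a1, a2, _⟩ := R7_facts _ xh_R7
  obtain ⟨_, _, b3⟩ := run_spec p.1 (fun Q hQ => (gd Q (T9 p hp Q hQ)).1) xhc a1 a2 (by
    rw [ho.1]; exact R7_ne _ hm)
  rw [smul_co, co_mkC, r0, b3, ho.1]
  funext k
  rw [κ_code _ hm, hk]

theorem f_surj : Function.Surjective f :=
  H33I2Surj.surj R κ b hb hbκ f hf g0 r0 hr0 h0 htr

/-! ### the result -/

theorem order_t2 : orderOf t2 = 2 := by
  have : Fact (Nat.Prime 2) := ⟨Nat.prime_two⟩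
  apply orderOf_eq_prime
  · apply Subtype.ext
    rw [pow_two]
    exact z_sq
  · intro h
    exact z_ne (congrArg Subtype.val h)

theorem hasInv : HasInv G2 Sp6 := by
  have : Finite ↥Co0 := Helper33LCo1.finite_Co0
  exact ⟨t2, order_t2, H33I2OfHom.of_hom f f_surj H33I2CoreSp.pCore_sp ker_extra.1 ker_extra.2⟩

end Cfsg.Agent.Lib.Helper33LI2F
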