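import Cfsg.Agent.Lib.Helper33LI2PAll
import Cfsg.Agent.Lib.H33I2Form
import Cfsg.Agent.Lib.H33I2Lin

/-! # The action of the involution centraliser on the `E7` roots modulo 2 (helper33) -/

set_option autoImplicit false
set_option exponentiation.threshold 2000
set_option maxRecDepth 1000000

open Cfsg Cfsg.Agent.Lib.Helper33Golay Cfsg.Agent.Lib.Helper33LVec Cfsg.Agent.Lib.Helper33LMat
open Cfsg.Agent.Lib.Helper33LTest Cfsg.Agent.Lib.Helper33LCo0 Cfsg.Agent.Lib.Helper33LFrame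
open Cfsg.Agent.Lib.Helper33LGood Cfsg.Agent.Lib.Helper33LReach2 Cfsg.Agent.Lib.Helper33LWord
open Cfsg.Agent.Lib.Helper33LPat Cfsg.Agent.Lib.Helper33LFrame2 Cfsg.Agent.Lib.Helper33LBase
open Cfsg.Agent.Lib.Helper33LMcL Cfsg.Agent.Lib.Helper33LHS Cfsg.Agent.Lib.Helper33LReach
open Cfsg.Agent.Lib.Helper33LCo2Thy Cfsg.Agent.Lib.Helper33LCent Cfsg.Agent.Lib.Helper33LCent2
open Cfsg.Agent.Lib.Helper33LCent3 Cfsg.Agent.Lib.Helper33LMin
open Cfsg.Agent.Lib.Helper33LCent4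
open Cfsg.Agent.Lib.Helper33LCo2 Cfsg.Agent.Lib.Helper33LCo2Ord Cfsg.Agent.Lib.Helper33LI2D
open Cfsg.Agent.Lib.H33I2Defs
open MulAction

namespace Cfsg.Agent.Lib.Helper33LI2G

theorem gd (P : ℕ) (hP : P ∈ allP) :
    goodP P = true ∧ stepOK P v0c v0c = true ∧ sameW [P, PT8] [PT8, P] = true := by
  have := List.all_eq_true.1 good_all P hP
  simp only [Bool.and_eq_true] at this
  exact ⟨this.1.1, this.1.2, this.2⟩

theorem gT : goodP PT8 = true := (gd PT8 (by decide)).1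

theorem kokA : ∀ Q ∈ allP, Kok (Zg PT8 ([v0c].map DL)) Q := by
  intro Q hQ
  exact kok_Zg gT (gd Q hQ).1 okV1 (gd Q hQ).2.2 (by
    rw [List.all_cons, List.all_nil, Bool.and_true]; exact (gd Q hQ).2.1)

abbrev G2 : Type := ↥(fixG [DL v0c])

noncomputable def t2 : G2 := ⟨toCo0 PT8, (mem_Zg.1 (kokA PT8 (by decide)).2).2⟩

abbrev CC : Type := ↥(Subgroup.centralizer ({t2} : Set G2))

def co (g : CC) : ↥Co0 := g.1.1

theorem co_mem (g : CC) : co g ∈ Zg PT8 ([v0c].map DL) := by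
  rw [mem_Zg]
  refine ⟨?_, g.1.2⟩
  have h := (Subgroup.mem_centralizer_iff.1 g.2) t2 rfl
  exact (congrArg Subtype.val h).symm

def mkC (c : ↥Co0) (hc : c ∈ Zg PT8 ([v0c].map DL)) : CC :=
  ⟨⟨c, (mem_Zg.1 hc).2⟩, by
    rw [Subgroup.mem_centralizer_iff]
    intro h hh
    rw [Set.mem_singleton_iff] at hh
    subst hh
    exact Subtype.ext (mem_Zg.1 hc).1.symm⟩

theorem co_mkC (c : ↥Co0) (hc : c ∈ Zg PT8 ([v0c].map DL)) : co (mkC c hc) = c := rfl

theorem smul_co (g : CC) (x : LV) : g • x = co g • x := rfl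

theorem co_mul (g h : CC) : co (g * h) = co g * co h := rfl
theorem co_inv (g : CC) : co g⁻¹ = (co g)⁻¹ := rfl
theorem co_inj {g h : CC} (e : co g = co h) : g = h := Subtype.ext (Subtype.ext e)

/-- the roots -/
def R : Set LV := {x | sqNorm (x : GolayPt → ℤ) = 32 ∧
  dotInt ((DL v0c : LV) : GolayPt → ℤ) (x : GolayPt → ℤ) = 0 ∧ toCo0 PT8 • x = x}

theorem hR (g : CC) (r : LV) (hr : r ∈ R) : g • r ∈ R := by
  obtain ⟨h1, h2, h3⟩ := hr
  obtain ⟨c1, c2⟩ := mem_Zg.1 (co_mem g)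
  refine ⟨by rw [smul_co, sqNorm_smul']; exact h1, ?_, ?_⟩
  · have hv : co g • DL v0c = DL v0c := c2 _ (by simp)
    rw [smul_co]
    conv_lhs => rw [← hv]
    rw [dot_smul']; exact h2
  · rw [smul_co, ← mul_smul, ← c1, mul_smul, h3]

theorem okv : InR v0c ∧ D v0c ∈ leechLattice := okV1 v0c (by simp)

theorem R_sub (x : LV) (hx : x ∈ R) : ∃ r ∈ R7L, x = DL r := by
  obtain ⟨h1, h2, h3⟩ := hx
  obtain ⟨a1, a2, a3, a4⟩ := code_facts x h1
  have hc : cndR (code (x : GolayPt → ℤ)) = true := by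
    unfold cndR
    rw [cV_iff 32 _ a1, a2, ← DL_coe okv.2, h2]; norm_num
  have hk := Helper33LI2PAll.chk_all _ a3 hc
  unfold chkR at hk
  rw [force_eq, Bool.or_eq_true] at hk
  rcases hk with hk | hk
  · exfalso
    rw [Bool.and_eq_true] at hk
    have y0 : step1 PT8 (code (x : GolayPt → ℤ)) ≠ 0 := by
      intro h0; rw [h0] at hk; simp at hk
    have ym : step1 PT8 (code (x : GolayPt → ℤ)) ≠ code (x : GolayPt → ℤ) := by
      intro h0; rw [h0] at hk; simp at hk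
    obtain ⟨_, hs⟩ := step1_ne y0
    have hL : D (code (x : GolayPt → ℤ)) ∈ leechLattice := by rw [a2]; exact x.2
    obtain ⟨b1, b2, b3⟩ := toCo0_smul_DL gT a1 hL hs
    rw [a4, h3] at b3
    apply ym
    have h5 := congrArg (fun y : LV => (y : GolayPt → ℤ)) b3
    simp only [DL_coe b2] at h5
    exact D_injOn b1 a1 (by rw [a2, ← h5])
  · obtain ⟨r, hr, he⟩ := List.any_eq_true.1 hk
    rw [Nat.beq_eq] at he
    exact ⟨r, hr, by rw [← he, a4]⟩

theorem R7_facts (r : ℕ) (hr : r ∈ R7L) : InR r ∧ D r ∈ leechLattice ∧ DL r ∈ R := by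
  have h := List.all_eq_true.1 R7_ok r hr
  rw [Bool.and_eq_true, Bool.and_eq_true] at h
  obtain ⟨a1, a2, a3⟩ := code_ok h.1.1
  refine ⟨a1, a2, ?_, ?_, toCo0_fix gT a1 a2 h.2⟩
  · rw [DL_coe a2]; simpa using a3
  · rw [DL_coe a2, DL_coe okv.2, (cV_iff 32 r a1).1 h.1.2]; norm_num

theorem mem_of_any {l : List ℕ} {b : ℕ} (h : l.any (Nat.beq b) = true) : b ∈ l := by
  obtain ⟨r, hr, he⟩ := List.any_eq_true.1 h
  rw [Nat.beq_eq] at he
  rw [he]; exact hr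

/-- the form -/
def β (x y : LV) : ZMod 2 := ((dotInt (x : GolayPt → ℤ) (y : GolayPt → ℤ) / 16 : ℤ) : ZMod 2)

theorem hβ (g : CC) (r s : LV) : β (g • r) (g • s) = β r s := by
  unfold β
  rw [smul_co, smul_co, dot_smul']

theorem pN_lt (r s : ℕ) : pN r s < 2 := Nat.mod_lt _ (by norm_num)

theorem β_spec {r s : ℕ} (hr : InR r) (hrL : D r ∈ leechLattice) (hs : InR s)
    (hsL : D s ∈ leechLattice) (hv : vN r s = true) : β (DL r) (DL s) = (pN r s : ZMod 2) := by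
  unfold β
  rw [DL_coe hrL, DL_coe hsL, dot_D r s hr hs]
  have hv' : 16 * (fsum r + fsum s) ≤ dotN r s + 6208 := Nat.le_of_ble_eq_true hv
  have e1 : pN r s = (dotN r s + 6208 - 16 * (fsum r + fsum s)) / 16 % 2 := rfl
  rw [e1, ZMod.natCast_mod]
  have e2 : ((dotN r s : ℤ) + 6144 - 16 * ((fsum r : ℤ) + (fsum s : ℤ))) =
      ((dotN r s + 6208 - 16 * (fsum r + fsum s) : ℕ) : ℤ) + (-4) * 16 := by
    rw [Nat.cast_sub hv']; push_cast; ring
  rw [e2, Int.add_mul_ediv_right _ _ (by norm_num : (16 : ℤ) ≠ 0)]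
  push_cast
  have e3 : ((-4 : ℤ) : ZMod 2) = 0 := by decide
  have e4 : (-4 : ZMod 2) = 0 := by decide
  rw [e4, add_zero]
  norm_cast

def bl : I6 → ℕ := Sum.elim ![E1, E2, E3] ![F1, F2, F3]

theorem bl_mem' (j : I6) : bl j ∈ R7L := by
  have h : ∀ j : I6, bl j ∈ blL := by decide
  exact mem_of_any (List.all_eq_true.1 bl_mem _ (h j))

noncomputable def b (j : I6) : LV := DL (bl j)

noncomputable def κ (x : LV) : V6 := fun k => β x (b k.swap)

theorem T2' (r s : ℕ) (hr : r ∈ R7L) (hs : s ∈ R7L) : vN r s = true ∧ pN r s = formN r s := by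
  have h := List.all_eq_true.1 (List.all_eq_true.1 T2 r hr) s hs
  rw [Bool.and_eq_true, Nat.beq_eq] at h
  exact h

theorem β_code (r s : ℕ) (hr : r ∈ R7L) (hs : s ∈ R7L) : β (DL r) (DL s) = (pN r s : ZMod 2) :=
  β_spec (R7_facts r hr).1 (R7_facts r hr).2.1 (R7_facts s hs).1 (R7_facts s hs).2.1 (T2' r s hr hs).1

theorem κ_code (r : ℕ) (hr : r ∈ R7L) (k : I6) : κ (DL r) k = (pN r (bl k.swap) : ZMod 2) :=
  β_code r _ hr (bl_mem' _)

theorem hκ (r : LV) (hr : r ∈ R) (s : LV) (hs : s ∈ R) :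
    β r s = Cfsg.sympForm 3 (ZMod 2) (κ r) (κ s) := by
  obtain ⟨r, hr', rfl⟩ := R_sub r hr
  obtain ⟨s, hs', rfl⟩ := R_sub s hs
  clear hr hs
  rename' hr' => hr, hs' => hs
  rw [H33I2Form.sympForm_eq, β_code r s hr hs, (T2' r s hr hs).2]
  simp only [κ_code r hr, κ_code s hs]
  rw [Fintype.sum_sum_type, Fin.sum_univ_three, Fin.sum_univ_three]
  have e : formN r s = (pN r F1 * pN s E1 + pN r F2 * pN s E2 + pN r F3 * pN s E3 +
    pN r E1 * pN s F1 + pN r E2 * pN s F2 + pN r E3 * pN s F3) % 2 := rfl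
  rw [e, ZMod.natCast_mod]
  push_cast
  simp only [Sum.swap_inl, Sum.swap_inr, bl, Sum.elim_inl, Sum.elim_inr, Matrix.cons_val_zero,
    Matrix.cons_val_one, Matrix.cons_val_two, Matrix.head_cons, Matrix.tail_cons]
  ring

theorem hb (j : I6) : b j ∈ R := (R7_facts _ (bl_mem' j)).2.2

theorem T0 : ∀ j k : I6, pN (bl j) (bl k.swap) = if k = j then 1 else 0 := by decide +kernel

theorem hbκ (j : I6) : κ (b j) = Pi.single j 1 := by
  funext k
  rw [b, κ_code _ (bl_mem' j), T0, Pi.single_apply]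
  split_ifs <;> simp

theorem ex_f : ∃ f : CC →* Sp6, ∀ g : CC, ∀ r ∈ R,
    (f g : Matrix I6 I6 (ZMod 2)).mulVec (κ r) = κ (g • r) :=
  H33I2Lin.linearise R hR β (fun g r _ s _ => hβ g r s) κ hκ b hb hbκ

noncomputable def f : CC →* Sp6 := Classical.choose ex_f

theorem hf (g : CC) (r : LV) (hr : r ∈ R) :
    (f g : Matrix I6 I6 (ZMod 2)).mulVec (κ r) = κ (g • r) := Classical.choose_spec ex_f g r hr

end Cfsg.Agent.Lib.Helper33LI2G
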