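import Cfsg.Agent.Lib.Helper33LI2K2D

/-! # An automorphism centralising `t` and fixing `v0` and the roots is one of 512 words: checks, part 2 (helper33) -/

set_option autoImplicit false
set_option exponentiation.threshold 2000
set_option maxRecDepth 1000000

open Cfsg Cfsg.Agent.Lib.Helper33Golay Cfsg.Agent.Lib.Helper33LVec Cfsg.Agent.Lib.Helper33LMat
open Cfsg.Agent.Lib.Helper33LTest Cfsg.Agent.Lib.Helper33LCo0 Cfsg.Agent.Lib.Helper33LFrame
open Cfsg.Agent.Lib.Helper33LGood Cfsg.Agent.Lib.Helper33LReach2 Cfsg.Agent.Lib.Helper33LWord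
open Cfsg.Agent.Lib.Helper33LPat Cfsg.Agent.Lib.Helper33LFrame2 Cfsg.Agent.Lib.Helper33LBase
open Cfsg.Agent.Lib.Helper33LMcL Cfsg.Agent.Lib.Helper33LHS Cfsg.Agent.Lib.Helper33LReach
open Cfsg.Agent.Lib.Helper33LCo2Thy Cfsg.Agent.Lib.Helper33LCent Cfsg.Agent.Lib.Helper33LCent2
open Cfsg.Agent.Lib.Helper33LCent3 Cfsg.Agent.Lib.Helper33LMin
open Cfsg.Agent.Lib.Helper33LCent4
open MulAction

open Cfsg.Agent.Lib.Helper33LCo2 Cfsg.Agent.Lib.Helper33LCo2Ord Cfsg.Agent.Lib.Helper33LI2D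
open Cfsg.Agent.Lib.Helper33LI2K2D

namespace Cfsg.Agent.Lib.Helper33LI2K2C2

theorem ch5_0 : ((Helper33LI2L.lst.drop (0 * 4600)).take 4600).all (fun m => !qT m || ck5 m) = true := by
  decide +kernel
theorem ch6_0 : ((Helper33LI2L.lst.drop (0 * 4600)).take 4600).all (fun m => !qT m || ck6 m) = true := by
  decide +kernel
theorem ch7_0 : ((Helper33LI2L.lst.drop (0 * 4600)).take 4600).all (fun m => !qT m || ck7 m) = true := by
  decide +kernel

end Cfsg.Agent.Lib.Helper33LI2K2C2
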