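import Cfsg.Agent.Lib.Helper33LI2K2D
import Cfsg.Agent.Lib.Helper33LI2K2C0
import Cfsg.Agent.Lib.Helper33LI2K2C1
import Cfsg.Agent.Lib.Helper33LI2K2C2
import Cfsg.Agent.Lib.Helper33LI2K2C3
import Cfsg.Agent.Lib.Helper33LI2K2C4
import Cfsg.Agent.Lib.Helper33LI2K2C5
import Cfsg.Agent.Lib.Helper33LI2K2C6
import Cfsg.Agent.Lib.Helper33LI2K2C7

/-! # An automorphism centralising `t` and fixing `v0` and the roots is one of 512 words (helper33) -/

set_option autoImplicit false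
set_option exponentiation.threshold 2000
set_option maxRecDepth 1000000

open Cfsg Cfsg.Agent.Lib.Helper33Golay Cfsg.Agent.Lib.Helper33LVec Cfsg.Agent.Lib.Helper33LMat
open Cfsg.Agent.Lib.Helper33LTest Cfsg.Agent.Lib.Helper33LCo0 Cfsg.Agent.Lib.Helper33LFrame
open Cfsg.Agent.Lib.Helper33LGood Cfsg.Agent.Lib.Helper33LReach2 Cfsg.Agent.Lib.Helper33LWord
open Cfsg.Agent.Lib.Helper33LPat Cfsg.Agent.Lib.Helper33LFrame2 Cfsg.Agent.Lib.Helper33LBase
open Cfsg.Agent.Lib.Helper33LMcL Cfsg.Agent.Lib.Helper33LHS Cfsg.Agent.Lib.Helper33LReach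
open Cfsg.Agent.Lib.Helper33LCo2Thy Cfsg.Agent.Lib.Helper33LCent Cfsg.Agent.Lib.Helper33LCent2
open Cfsg.Agent.Lib.Helper33LCent3 Cfsg.Agent.Lib.Helper33LMin
open Cfsg.Agent.Lib.Helper33LCent4
open MulAction

open Cfsg.Agent.Lib.Helper33LCo2 Cfsg.Agent.Lib.Helper33LCo2Ord Cfsg.Agent.Lib.Helper33LI2D
open Cfsg.Agent.Lib.Helper33LI2K2D
open Cfsg.Agent.Lib.Helper33LI2K2C0
open Cfsg.Agent.Lib.Helper33LI2K2C1
open Cfsg.Agent.Lib.Helper33LI2K2C2
open Cfsg.Agent.Lib.Helper33LI2K2C3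
open Cfsg.Agent.Lib.Helper33LI2K2C4
open Cfsg.Agent.Lib.Helper33LI2K2C5
open Cfsg.Agent.Lib.Helper33LI2K2C6
open Cfsg.Agent.Lib.Helper33LI2K2C7

namespace Cfsg.Agent.Lib.Helper33LI2K2

theorem ch1 : Helper33LI2L.lst.all (fun m => !qT m || ck1 m) = true := by
  apply all_of_chunks _ 4600 1 _ (le_of_eq_of_le lenL (by norm_num))
  intro j hj
  interval_cases j
  · exact ch1_0
theorem ch2 : Helper33LI2L.lst.all (fun m => !qT m || ck2 m) = true := by
  apply all_of_chunks _ 4600 1 _ (le_of_eq_of_le lenL (by norm_num))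
  intro j hj
  interval_cases j
  · exact ch2_0
theorem ch3 : Helper33LI2L.lst.all (fun m => !qT m || ck3 m) = true := by
  apply all_of_chunks _ 4600 1 _ (le_of_eq_of_le lenL (by norm_num))
  intro j hj
  interval_cases j
  · exact ch3_0
theorem ch4 : Helper33LI2L.lst.all (fun m => !qT m || ck4 m) = true := by
  apply all_of_chunks _ 2730 2 _ (le_of_eq_of_le lenL (by norm_num))
  intro j hj
  interval_cases j
  · exact ch4_0
  · exact ch4_1
theorem ch5 : Helper33LI2L.lst.all (fun m => !qT m || ck5 m) = true := by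
  apply all_of_chunks _ 4600 1 _ (le_of_eq_of_le lenL (by norm_num))
  intro j hj
  interval_cases j
  · exact ch5_0
theorem ch6 : Helper33LI2L.lst.all (fun m => !qT m || ck6 m) = true := by
  apply all_of_chunks _ 4600 1 _ (le_of_eq_of_le lenL (by norm_num))
  intro j hj
  interval_cases j
  · exact ch6_0
theorem ch7 : Helper33LI2L.lst.all (fun m => !qT m || ck7 m) = true := by
  apply all_of_chunks _ 4600 1 _ (le_of_eq_of_le lenL (by norm_num))
  intro j hj
  interval_cases j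
  · exact ch7_0
theorem ch8 : Helper33LI2L.lst.all (fun m => !qT m || ck8 m) = true := by
  apply all_of_chunks _ 4600 1 _ (le_of_eq_of_le lenL (by norm_num))
  intro j hj
  interval_cases j
  · exact ch8_0
theorem ch9 : Helper33LI2L.lst.all (fun m => !qT m || ck9 m) = true := by
  apply all_of_chunks _ 4600 1 _ (le_of_eq_of_le lenL (by norm_num))
  intro j hj
  interval_cases j
  · exact ch9_0
theorem ch10 : Helper33LI2L.lst.all (fun m => !qT m || ck10 m) = true := by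
  apply all_of_chunks _ 4600 1 _ (le_of_eq_of_le lenL (by norm_num))
  intro j hj
  interval_cases j
  · exact ch10_0
theorem ch11 : Helper33LI2L.lst.all (fun m => !qT m || ck11 m) = true := by
  apply all_of_chunks _ 4600 1 _ (le_of_eq_of_le lenL (by norm_num))
  intro j hj
  interval_cases j
  · exact ch11_0
theorem ch12 : Helper33LI2L.lst.all (fun m => !qT m || ck12 m) = true := by
  apply all_of_chunks _ 4600 1 _ (le_of_eq_of_le lenL (by norm_num))
  intro j hj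
  interval_cases j
  · exact ch12_0
theorem ch13 : Helper33LI2L.lst.all (fun m => !qT m || ck13 m) = true := by
  apply all_of_chunks _ 4600 1 _ (le_of_eq_of_le lenL (by norm_num))
  intro j hj
  interval_cases j
  · exact ch13_0
theorem ch14 : Helper33LI2L.lst.all (fun m => !qT m || ck14 m) = true := by
  apply all_of_chunks _ 4600 1 _ (le_of_eq_of_le lenL (by norm_num))
  intro j hj
  interval_cases j
  · exact ch14_0
theorem ch15 : Helper33LI2L.lst.all (fun m => !qT m || ck15 m) = true := by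
  apply all_of_chunks _ 4600 1 _ (le_of_eq_of_le lenL (by norm_num))
  intro j hj
  interval_cases j
  · exact ch15_0
theorem ch16 : Helper33LI2L.lst.all (fun m => !qT m || ck16 m) = true := by
  apply all_of_chunks _ 4600 1 _ (le_of_eq_of_le lenL (by norm_num))
  intro j hj
  interval_cases j
  · exact ch16_0
theorem wc1 : cV 36 w1 = true := by decide +kernel
theorem wc2 : cV 36 w2 = true := by decide +kernel
theorem wc3 : cV 36 w3 = true := by decide +kernel
theorem wc4 : cV 36 w4 = true := by decide +kernel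
theorem wc5 : cV 36 w5 = true := by decide +kernel
theorem wc6 : cV 36 w6 = true := by decide +kernel
theorem wc7 : cV 36 w7 = true := by decide +kernel
theorem wc8 : cV 36 w8 = true := by decide +kernel
theorem wc9 : cV 36 w9 = true := by decide +kernel
theorem wc10 : cV 36 w10 = true := by decide +kernel
theorem wc11 : cV 36 w11 = true := by decide +kernel
theorem wc12 : cV 36 w12 = true := by decide +kernel
theorem wc13 : cV 36 w13 = true := by decide +kernel
theorem wc14 : cV 36 w14 = true := by decide +kernel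
theorem wc15 : cV 36 w15 = true := by decide +kernel
theorem wc16 : cV 36 w16 = true := by decide +kernel
theorem lenW : (heads1.zip wit1).length = 512 := by decide +kernel
theorem redW : (heads1.zip wit1).all (fun p => words32.any (beqL p.2) && redChk [p.1 :: F7r] repsA [p.2]) = true := by
  apply all_of_chunks _ 64 8 _ (le_of_eq_of_le lenW (by norm_num))
  intro j hj
  interval_cases j
  · exact redW_0
  · exact redW_1
  · exact redW_2
  · exact redW_3
  · exact redW_4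
  · exact redW_5
  · exact redW_6
  · exact redW_7
theorem exists_zip {α β : Type} : ∀ (l : List α) (l' : List β), l.length ≤ l'.length →
    ∀ a ∈ l, ∃ b, (a, b) ∈ l.zip l'
  | [], _, _, a, ha => by simp at ha
  | x :: l, [], h, _, _ => by simp at h
  | x :: l, y :: l', h, a, ha => by
    rcases List.mem_cons.1 ha with rfl | ha
    · exact ⟨y, by simp⟩
    · obtain ⟨b, hb⟩ := exists_zip l l' (by simpa using h) a ha
      exact ⟨b, by rw [List.zip_cons_cons]; exact List.mem_cons_of_mem _ hb⟩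
theorem redB : redChk repsA (pres2.map Prod.fst) words16 = true := by decide +kernel
theorem hlast : pres17.map Prod.fst = [(w16 :: w15 :: w14 :: w13 :: w12 :: w11 :: w10 :: w9 :: w8 :: w7 :: w6 :: w5 :: w4 :: w3 :: w2 :: w1 :: F7r)] := by decide +kernel
theorem hB : beqL (preR PT8 0 (w16 :: w15 :: w14 :: w13 :: w12 :: w11 :: w10 :: w9 :: w8 :: w7 :: w6 :: w5 :: w4 :: w3 :: w2 :: w1 :: F7r) []) Bl = true := by decide +kernel
theorem h0 : Bl.all (fun z => !(Nat.beq z 0)) = true := by decide +kernel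
theorem span : spanChk ([v0c] ++ Bl) N Cs = true := by decide +kernel
theorem let32 : ∀ z ∈ words32, ∀ Q ∈ z, Q ∈ allP := by decide +kernel
theorem let16 : ∀ z ∈ words16, ∀ Q ∈ z, Q ∈ allP := by decide +kernel
theorem gd (P : ℕ) (hP : P ∈ allP) :
    goodP P = true ∧ stepOK P v0c v0c = true ∧ sameW [P, PT8] [PT8, P] = true := by
  have := List.all_eq_true.1 good_all P hP
  simp only [Bool.and_eq_true] at this
  exact ⟨this.1.1, this.1.2, this.2⟩

theorem kokA : ∀ Q ∈ allP, Kok (Zg PT8 ([v0c].map DL)) Q := by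
  intro Q hQ
  exact kok_Zg (gd PT8 (by decide)).1 (gd Q hQ).1 okV1 (gd Q hQ).2.2 (by
    rw [List.all_cons, List.all_nil, Bool.and_true]; exact (gd Q hQ).2.1)

theorem hq {m : ℕ} (h : cV 36 m = true) : (Helper33LI2L.cnd m && qT m) = true := by
  rw [Bool.and_eq_true]; exact ⟨h, rfl⟩

theorem redA' {c : ↥Co0} {W : List ℕ} (h : ∃ M ∈ sols1, List.Forall₂ (Img c) W M) :
    ∃ z ∈ words32, ∃ M' ∈ repsA, List.Forall₂ (Img (wprod z * c)) W M' := by
  obtain ⟨M, hM, hWM⟩ := h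
  obtain ⟨m, hm, rfl⟩ := List.mem_map.1 hM
  obtain ⟨z, hz⟩ := exists_zip heads1 wit1 (by decide +kernel) m hm
  have hk := List.all_eq_true.1 redW _ hz
  rw [Bool.and_eq_true] at hk
  obtain ⟨z0, hz0, he⟩ := List.any_eq_true.1 hk.1
  have hz32 : z ∈ words32 := by
    have e : z = z0 := eq_of_beqL _ _ he
    rw [e]; exact hz0
  obtain ⟨z', hz', M', hM', h2⟩ := red_spec (sols := [m :: F7r]) (words := [z]) (fun y hy Q hQ => by
      rw [List.mem_singleton.1 hy] at hQ; exact (kokA Q (let32 z hz32 Q hQ)).1) hk.2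
      ⟨_, by simp, hWM⟩
  rw [List.mem_singleton.1 hz'] at h2
  exact ⟨z, hz32, M', hM', h2⟩

theorem ker_plus (c : ↥Co0) (hc : c ∈ Zg PT8 ([v0c].map DL))
    (h7 : List.Forall₂ (Img c) F7r F7r) :
    ∃ b ∈ words16, ∃ a ∈ words32, wprod b * (wprod a * c) = 1 := by
  have gP : goodP PT8 = true := (gd PT8 (by decide)).1
  obtain ⟨hc1, hc2⟩ := mem_Zg.1 hc
  obtain ⟨m, hm, hmc, hwm⟩ := img_cand [v0c] (fun b hb => (okV1 b hb).2) [16] _
    (hc_one v0c 16 _ (hV 36 16 (by norm_num))) hc2 (wk w1 (by simp)) wc1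
  have h1 := stage_gen gP hc1 hwm ref1 pok1
    (forall_of_lst _ qT _ _ Helper33LI2L.lst_eq ch1 m hm (hq hmc)) ⟨F7r, by decide +kernel, h7⟩
  obtain ⟨a, ha, h2⟩ := redA' h1
  obtain ⟨b, hb, h3⟩ := red_spec (fun z hz Q hQ => (kokA Q (let16 z hz Q hQ)).1) redB h2
  have ha' : wprod a ∈ Zg PT8 ([v0c].map DL) := wprod_mem (fun Q hQ => kokA Q (let32 a ha Q hQ))
  have hb' : wprod b ∈ Zg PT8 ([v0c].map DL) := wprod_mem (fun Q hQ => kokA Q (let16 b hb Q hQ))
  have hc' := Subgroup.mul_mem _ hb' (Subgroup.mul_mem _ ha' hc)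
  obtain ⟨hd1, hd2⟩ := mem_Zg.1 hc'
  obtain ⟨m2, hm2, hmc2, hwm2⟩ := img_cand [v0c] (fun b hb => (okV1 b hb).2) [16] _
    (hc_one v0c 16 _ (hV 36 16 (by norm_num))) hd2 (wk w2 (by simp)) wc2
  have s2 := stage_gen gP hd1 hwm2 ref2 pok2
    (forall_of_lst _ qT _ _ Helper33LI2L.lst_eq ch2 m2 hm2 (hq hmc2)) h3
  obtain ⟨m3, hm3, hmc3, hwm3⟩ := img_cand [v0c] (fun b hb => (okV1 b hb).2) [16] _
    (hc_one v0c 16 _ (hV 36 16 (by norm_num))) hd2 (wk w3 (by simp)) wc3
  have s3 := stage_gen gP hd1 hwm3 ref3 pok3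
    (forall_of_lst _ qT _ _ Helper33LI2L.lst_eq ch3 m3 hm3 (hq hmc3)) s2
  obtain ⟨m4, hm4, hmc4, hwm4⟩ := img_cand [v0c] (fun b hb => (okV1 b hb).2) [16] _
    (hc_one v0c 16 _ (hV 36 16 (by norm_num))) hd2 (wk w4 (by simp)) wc4
  have s4 := stage_gen gP hd1 hwm4 ref4 pok4
    (forall_of_lst _ qT _ _ Helper33LI2L.lst_eq ch4 m4 hm4 (hq hmc4)) s3
  obtain ⟨m5, hm5, hmc5, hwm5⟩ := img_cand [v0c] (fun b hb => (okV1 b hb).2) [16] _
    (hc_one v0c 16 _ (hV 36 16 (by norm_num))) hd2 (wk w5 (by simp)) wc5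
  have s5 := stage_gen gP hd1 hwm5 ref5 pok5
    (forall_of_lst _ qT _ _ Helper33LI2L.lst_eq ch5 m5 hm5 (hq hmc5)) s4
  obtain ⟨m6, hm6, hmc6, hwm6⟩ := img_cand [v0c] (fun b hb => (okV1 b hb).2) [16] _
    (hc_one v0c 16 _ (hV 36 16 (by norm_num))) hd2 (wk w6 (by simp)) wc6
  have s6 := stage_gen gP hd1 hwm6 ref6 pok6
    (forall_of_lst _ qT _ _ Helper33LI2L.lst_eq ch6 m6 hm6 (hq hmc6)) s5
  obtain ⟨m7, hm7, hmc7, hwm7⟩ := img_cand [v0c] (fun b hb => (okV1 b hb).2) [16] _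
    (hc_one v0c 16 _ (hV 36 16 (by norm_num))) hd2 (wk w7 (by simp)) wc7
  have s7 := stage_gen gP hd1 hwm7 ref7 pok7
    (forall_of_lst _ qT _ _ Helper33LI2L.lst_eq ch7 m7 hm7 (hq hmc7)) s6
  obtain ⟨m8, hm8, hmc8, hwm8⟩ := img_cand [v0c] (fun b hb => (okV1 b hb).2) [16] _
    (hc_one v0c 16 _ (hV 36 16 (by norm_num))) hd2 (wk w8 (by simp)) wc8
  have s8 := stage_gen gP hd1 hwm8 ref8 pok8
    (forall_of_lst _ qT _ _ Helper33LI2L.lst_eq ch8 m8 hm8 (hq hmc8)) s7
  obtain ⟨m9, hm9, hmc9, hwm9⟩ := img_cand [v0c] (fun b hb => (okV1 b hb).2) [16] _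
    (hc_one v0c 16 _ (hV 36 16 (by norm_num))) hd2 (wk w9 (by simp)) wc9
  have s9 := stage_gen gP hd1 hwm9 ref9 pok9
    (forall_of_lst _ qT _ _ Helper33LI2L.lst_eq ch9 m9 hm9 (hq hmc9)) s8
  obtain ⟨m10, hm10, hmc10, hwm10⟩ := img_cand [v0c] (fun b hb => (okV1 b hb).2) [16] _
    (hc_one v0c 16 _ (hV 36 16 (by norm_num))) hd2 (wk w10 (by simp)) wc10
  have s10 := stage_gen gP hd1 hwm10 ref10 pok10
    (forall_of_lst _ qT _ _ Helper33LI2L.lst_eq ch10 m10 hm10 (hq hmc10)) s9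
  obtain ⟨m11, hm11, hmc11, hwm11⟩ := img_cand [v0c] (fun b hb => (okV1 b hb).2) [16] _
    (hc_one v0c 16 _ (hV 36 16 (by norm_num))) hd2 (wk w11 (by simp)) wc11
  have s11 := stage_gen gP hd1 hwm11 ref11 pok11
    (forall_of_lst _ qT _ _ Helper33LI2L.lst_eq ch11 m11 hm11 (hq hmc11)) s10
  obtain ⟨m12, hm12, hmc12, hwm12⟩ := img_cand [v0c] (fun b hb => (okV1 b hb).2) [16] _
    (hc_one v0c 16 _ (hV 36 16 (by norm_num))) hd2 (wk w12 (by simp)) wc12
  have s12 := stage_gen gP hd1 hwm12 ref12 pok12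
    (forall_of_lst _ qT _ _ Helper33LI2L.lst_eq ch12 m12 hm12 (hq hmc12)) s11
  obtain ⟨m13, hm13, hmc13, hwm13⟩ := img_cand [v0c] (fun b hb => (okV1 b hb).2) [16] _
    (hc_one v0c 16 _ (hV 36 16 (by norm_num))) hd2 (wk w13 (by simp)) wc13
  have s13 := stage_gen gP hd1 hwm13 ref13 pok13
    (forall_of_lst _ qT _ _ Helper33LI2L.lst_eq ch13 m13 hm13 (hq hmc13)) s12
  obtain ⟨m14, hm14, hmc14, hwm14⟩ := img_cand [v0c] (fun b hb => (okV1 b hb).2) [16] _
    (hc_one v0c 16 _ (hV 36 16 (by norm_num))) hd2 (wk w14 (by simp)) wc14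
  have s14 := stage_gen gP hd1 hwm14 ref14 pok14
    (forall_of_lst _ qT _ _ Helper33LI2L.lst_eq ch14 m14 hm14 (hq hmc14)) s13
  obtain ⟨m15, hm15, hmc15, hwm15⟩ := img_cand [v0c] (fun b hb => (okV1 b hb).2) [16] _
    (hc_one v0c 16 _ (hV 36 16 (by norm_num))) hd2 (wk w15 (by simp)) wc15
  have s15 := stage_gen gP hd1 hwm15 ref15 pok15
    (forall_of_lst _ qT _ _ Helper33LI2L.lst_eq ch15 m15 hm15 (hq hmc15)) s14
  obtain ⟨m16, hm16, hmc16, hwm16⟩ := img_cand [v0c] (fun b hb => (okV1 b hb).2) [16] _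
    (hc_one v0c 16 _ (hV 36 16 (by norm_num))) hd2 (wk w16 (by simp)) wc16
  have s16 := stage_gen gP hd1 hwm16 ref16 pok16
    (forall_of_lst _ qT _ _ Helper33LI2L.lst_eq ch16 m16 hm16 (hq hmc16)) s15
  obtain ⟨M', hM', h5⟩ := s16
  rw [hlast] at hM'
  simp only [List.mem_cons, List.not_mem_nil, or_false] at hM'
  subst hM'
  exact ⟨b, hb, a, ha, cent_final_gen gP okV1 hc' h5 hB h0 N (by decide) Cs span⟩

end Cfsg.Agent.Lib.Helper33LI2K2
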