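import Cfsg.Agent.Lib.Helper33LI2N3D
import Cfsg.Agent.Lib.Helper33LI2N3C0
import Cfsg.Agent.Lib.Helper33LI2N3C1
import Cfsg.Agent.Lib.Helper33LI2N3C2
import Cfsg.Agent.Lib.Helper33LI2N3C3
import Cfsg.Agent.Lib.Helper33LI2N3C4
import Cfsg.Agent.Lib.Helper33LI2N3C5

/-! # No automorphism centralising `t` and fixing `v0` negates the roots (helper33) -/

set_option autoImplicit false
set_option exponentiation.threshold 2000
set_option maxRecDepth 1000000

open Cfsg Cfsg.Agent.Lib.Helper33Golay Cfsg.Agent.Lib.Helper33LVec Cfsg.Agent.Lib.Helper33LMat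
open Cfsg.Agent.Lib.Helper33LTest Cfsg.Agent.Lib.Helper33LCo0 Cfsg.Agent.Lib.Helper33LFrame
open Cfsg.Agent.Lib.Helper33LGood Cfsg.Agent.Lib.Helper33LReach2 Cfsg.Agent.Lib.Helper33LWord
open Cfsg.Agent.Lib.Helper33LPat Cfsg.Agent.Lib.Helper33LFrame2 Cfsg.Agent.Lib.Helper33LBase
open Cfsg.Agent.Lib.Helper33LMcL Cfsg.Agent.Lib.Helper33LHS Cfsg.Agent.Lib.Helper33LReach
open Cfsg.Agent.Lib.Helper33LCo2Thy Cfsg.Agent.Lib.Helper33LCent Cfsg.Agent.Lib.Helper33LCent2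
open Cfsg.Agent.Lib.Helper33LCent3 Cfsg.Agent.Lib.Helper33LMin
open Cfsg.Agent.Lib.Helper33LCent4
open MulAction

open Cfsg.Agent.Lib.Helper33LCo2 Cfsg.Agent.Lib.Helper33LCo2Ord Cfsg.Agent.Lib.Helper33LI2D
open Cfsg.Agent.Lib.Helper33LI2N3D
open Cfsg.Agent.Lib.Helper33LI2N3C0
open Cfsg.Agent.Lib.Helper33LI2N3C1
open Cfsg.Agent.Lib.Helper33LI2N3C2
open Cfsg.Agent.Lib.Helper33LI2N3C3
open Cfsg.Agent.Lib.Helper33LI2N3C4
open Cfsg.Agent.Lib.Helper33LI2N3C5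

namespace Cfsg.Agent.Lib.Helper33LI2N3

theorem ch1 : Helper33LI2M.lst.all (fun m => !qF1 m || ck1 m) = true := by
  apply all_of_chunks _ 512 4 _ (le_of_eq_of_le lenL (by norm_num))
  intro j hj
  interval_cases j
  · exact ch1_0
  · exact ch1_1
  · exact ch1_2
  · exact ch1_3
theorem ch2 : Helper33LI2M.lst.all (fun m => !qF2 m || ck2 m) = true := by
  apply all_of_chunks _ 512 4 _ (le_of_eq_of_le lenL (by norm_num))
  intro j hj
  interval_cases j
  · exact ch2_0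
  · exact ch2_1
  · exact ch2_2
  · exact ch2_3
theorem ch3 : Helper33LI2M.lst.all (fun m => !qF3 m || ck3 m) = true := by
  apply all_of_chunks _ 512 4 _ (le_of_eq_of_le lenL (by norm_num))
  intro j hj
  interval_cases j
  · exact ch3_0
  · exact ch3_1
  · exact ch3_2
  · exact ch3_3
theorem ch4 : Helper33LI2M.lst.all (fun m => !qF4 m || ck4 m) = true := by
  apply all_of_chunks _ 512 4 _ (le_of_eq_of_le lenL (by norm_num))
  intro j hj
  interval_cases j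
  · exact ch4_0
  · exact ch4_1
  · exact ch4_2
  · exact ch4_3
theorem wc1 : cV 28 w1 = true := by decide +kernel
theorem wd1 : dotEq xhc w1 56 = true := by decide +kernel
theorem wc2 : cV 30 w2 = true := by decide +kernel
theorem wd2 : dotEq xhc w2 48 = true := by decide +kernel
theorem wc3 : cV 28 w3 = true := by decide +kernel
theorem wd3 : dotEq xhc w3 56 = true := by decide +kernel
theorem wc4 : cV 30 w4 = true := by decide +kernel
theorem wd4 : dotEq xhc w4 48 = true := by decide +kernel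
theorem gd (P : ℕ) (hP : P ∈ allP) :
    goodP P = true ∧ stepOK P v0c v0c = true ∧ sameW [P, PT8] [PT8, P] = true := by
  have := List.all_eq_true.1 good_all P hP
  simp only [Bool.and_eq_true] at this
  exact ⟨this.1.1, this.1.2, this.2⟩

theorem qF_true {c : ↥Co0} {w m : ℕ} {τ : List ℕ} (hw : Img c w m)
    (h7 : List.Forall₂ (Img c) A7 B7) (hp : passD w A7 τ = true) : (!(rejD m B7 τ)) = true := by
  rw [rejD_false hw A7 B7 τ h7 hp]; rfl

theorem hq {q : ℕ → Bool} {m : ℕ} (h : (cV 30 m = true ∧ dotEq xmc m 48 = true) ∨ (cV 28 m = true ∧ dotEq xmc m 56 = true))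
    (h2 : q m = true) : (Helper33LI2M.cnd m && q m) = true := by
  rw [Bool.and_eq_true]
  refine ⟨?_, h2⟩
  unfold Helper33LI2M.cnd
  rw [Bool.or_eq_true, Bool.and_eq_true, Bool.and_eq_true]
  exact h

theorem ker_minus (c : ↥Co0) (hc : c ∈ Zg PT8 ([v0c].map DL))
    (h7 : List.Forall₂ (Img c) F7r F7nr) (hx : Img c xhc xmc) : False := by
  have gP : goodP PT8 = true := (gd PT8 (by decide)).1
  obtain ⟨hc1, hc2⟩ := mem_Zg.1 hc
  have hr7 : List.Forall₂ (Img c) A7 B7 := by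
    rw [A7_eq, B7_eq]; exact List.forall₂_reverse_iff.2 h7
  obtain ⟨m1, hm1, hmc1, hwm1⟩ := img_cand [v0c] (fun b hb => (okV1 b hb).2) [(-16)] _
    (hc_one v0c (-16) _ (hV 28 (-16) (by norm_num))) hc2 (wk w1 (by simp)) wc1
  have s1 := stage_gen gP hc1 hwm1 ref1 pok1
    (forall_of_lst _ qF1 _ _ Helper33LI2M.lst_eq ch1 m1 hm1
      (hq (Or.inr ⟨hmc1, dotEq_img hx hwm1 wd1⟩) (qF_true hwm1 hr7 pq1))) ⟨F7nr, by decide +kernel, h7⟩
  obtain ⟨m2, hm2, hmc2, hwm2⟩ := img_cand [v0c] (fun b hb => (okV1 b hb).2) [(-8)] _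
    (hc_one v0c (-8) _ (hV 30 (-8) (by norm_num))) hc2 (wk w2 (by simp)) wc2
  have s2 := stage_gen gP hc1 hwm2 ref2 pok2
    (forall_of_lst _ qF2 _ _ Helper33LI2M.lst_eq ch2 m2 hm2
      (hq (Or.inl ⟨hmc2, dotEq_img hx hwm2 wd2⟩) (qF_true hwm2 hr7 pq2))) s1
  obtain ⟨m3, hm3, hmc3, hwm3⟩ := img_cand [v0c] (fun b hb => (okV1 b hb).2) [(-16)] _
    (hc_one v0c (-16) _ (hV 28 (-16) (by norm_num))) hc2 (wk w3 (by simp)) wc3
  have s3 := stage_gen gP hc1 hwm3 ref3 pok3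
    (forall_of_lst _ qF3 _ _ Helper33LI2M.lst_eq ch3 m3 hm3
      (hq (Or.inr ⟨hmc3, dotEq_img hx hwm3 wd3⟩) (qF_true hwm3 hr7 pq3))) s2
  obtain ⟨m4, hm4, hmc4, hwm4⟩ := img_cand [v0c] (fun b hb => (okV1 b hb).2) [(-8)] _
    (hc_one v0c (-8) _ (hV 30 (-8) (by norm_num))) hc2 (wk w4 (by simp)) wc4
  have s4 := stage_gen gP hc1 hwm4 ref4 pok4
    (forall_of_lst _ qF4 _ _ Helper33LI2M.lst_eq ch4 m4 hm4
      (hq (Or.inl ⟨hmc4, dotEq_img hx hwm4 wd4⟩) (qF_true hwm4 hr7 pq4))) s3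
  obtain ⟨M', hM', _⟩ := s4
  simp at hM'

end Cfsg.Agent.Lib.Helper33LI2N3
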