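import Cfsg.Agent.Lib.Helper33LI2D

/-! # The 512 words: checks (helper33) -/

set_option autoImplicit false
set_option exponentiation.threshold 2000
set_option maxRecDepth 1000000

open Cfsg Cfsg.Agent.Lib.Helper33Golay Cfsg.Agent.Lib.Helper33LVec Cfsg.Agent.Lib.Helper33LMat
open Cfsg.Agent.Lib.Helper33LTest Cfsg.Agent.Lib.Helper33LCo0 Cfsg.Agent.Lib.Helper33LFrame
open Cfsg.Agent.Lib.Helper33LGood Cfsg.Agent.Lib.Helper33LReach2 Cfsg.Agent.Lib.Helper33LWord
open Cfsg.Agent.Lib.Helper33LPat Cfsg.Agent.Lib.Helper33LFrame2 Cfsg.Agent.Lib.Helper33LBase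
open Cfsg.Agent.Lib.Helper33LMcL Cfsg.Agent.Lib.Helper33LHS Cfsg.Agent.Lib.Helper33LReach
open Cfsg.Agent.Lib.Helper33LCo2Thy Cfsg.Agent.Lib.Helper33LCent Cfsg.Agent.Lib.Helper33LCent2
open Cfsg.Agent.Lib.Helper33LCent3 Cfsg.Agent.Lib.Helper33LMin
open Cfsg.Agent.Lib.Helper33LCent4
open MulAction

open Cfsg.Agent.Lib.Helper33LCo2 Cfsg.Agent.Lib.Helper33LCo2Ord Cfsg.Agent.Lib.Helper33LI2D

namespace Cfsg.Agent.Lib.Helper33LI2Q

/-- the two words represent different elements -/
noncomputable def diffW (u v : List ℕ) : Bool :=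
  (List.range 24).any (fun i => force (run u (e8 i)) (fun y => force (run v (e8 i)) (fun y' =>
    !(Nat.beq y 0) && !(Nat.beq y' 0) && !(Nat.beq y y'))))

theorem wprod_ne_of_diffW {u v : List ℕ} (hu : ∀ P ∈ u, goodP P = true)
    (hv : ∀ P ∈ v, goodP P = true) (h : diffW u v = true) : wprod u ≠ wprod v := by
  obtain ⟨i, hi, h1⟩ := List.any_eq_true.1 h
  rw [force_eq, force_eq, Bool.and_eq_true, Bool.and_eq_true] at h1
  have hi' := List.mem_range.1 hi
  have y0 : run u (e8 i) ≠ 0 := by
    intro h0; rw [h0] at h1; simp at h1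
  have y0' : run v (e8 i) ≠ 0 := by
    intro h0; rw [h0] at h1; simp at h1
  have yy : run u (e8 i) ≠ run v (e8 i) := by
    intro h0; rw [h0] at h1; simp at h1
  obtain ⟨a1, a2, a3⟩ := run_spec u hu (e8 i) (e8_InR hi').1 (e8_InR hi').2 y0
  obtain ⟨b1, b2, b3⟩ := run_spec v hv (e8 i) (e8_InR hi').1 (e8_InR hi').2 y0'
  intro he
  rw [he, b3] at a3
  apply yy
  have h3 := congrArg (fun x : LV => (x : GolayPt → ℤ)) a3
  simp only [DL_coe a2, DL_coe b2] at h3
  exact (D_injOn b1 a1 h3).symm

def gens9 : List ℕ := [PT8, PX1, PX2, PX3, PX4, PP1, PP2, PP3, PP4]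

theorem len512 : words512.length = 512 := by decide +kernel
theorem let512 : ∀ z ∈ words512, ∀ Q ∈ z, Q ∈ gens9 := by decide +kernel
theorem gens_mem : ∀ k ∈ gens9, [k] ∈ words512 := by decide +kernel
theorem nil_mem : [] ∈ words512 := by decide +kernel

theorem nd512 : ndGo 131081 0 (words512.map (fun z => run z x1c)) = true := by decide +kernel
theorem nz512 : (words512.map (fun z => run z x1c)).all (fun y => !(Nat.beq y 0)) = true := by
  decide +kernel
theorem x1_ok : (inR x1c && isLeech x1c && normB 32 x1c) = true := by decide +kernel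

theorem cen_0 : ((words512.drop 0).take 128).all (fun w => beqL w [] || beqL w [PT8] ||
    gens9.any (fun k => diffW (w ++ [k]) (k :: w))) = true := by decide +kernel
theorem cen_1 : ((words512.drop 128).take 128).all (fun w => beqL w [] || beqL w [PT8] ||
    gens9.any (fun k => diffW (w ++ [k]) (k :: w))) = true := by decide +kernel
theorem cen_2 : ((words512.drop 256).take 128).all (fun w => beqL w [] || beqL w [PT8] ||
    gens9.any (fun k => diffW (w ++ [k]) (k :: w))) = true := by decide +kernel
theorem cen_3 : ((words512.drop 384).take 128).all (fun w => beqL w [] || beqL w [PT8] ||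
    gens9.any (fun k => diffW (w ++ [k]) (k :: w))) = true := by decide +kernel

theorem sq_0 : ((words512.drop 0).take 128).all (fun w => isOne (w ++ w) || isOne (PT8 :: (w ++ w))) = true := by
  decide +kernel
theorem sq_1 : ((words512.drop 128).take 128).all (fun w => isOne (w ++ w) || isOne (PT8 :: (w ++ w))) = true := by
  decide +kernel
theorem sq_2 : ((words512.drop 256).take 128).all (fun w => isOne (w ++ w) || isOne (PT8 :: (w ++ w))) = true := by
  decide +kernel
theorem sq_3 : ((words512.drop 384).take 128).all (fun w => isOne (w ++ w) || isOne (PT8 :: (w ++ w))) = true := by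
  decide +kernel

theorem TT : isOne [PT8, PT8] = true := by decide +kernel
theorem T_ne : notOne [PT8] = true := by decide +kernel

theorem cen_all : words512.all (fun w => beqL w [] || beqL w [PT8] ||
    gens9.any (fun k => diffW (w ++ [k]) (k :: w))) = true := by
  apply all_of_chunks _ 128 4 _ (le_of_eq_of_le len512 (by norm_num))
  intro j hj
  interval_cases j
  · exact cen_0
  · exact cen_1
  · exact cen_2
  · exact cen_3

theorem sq_all : words512.all (fun w => isOne (w ++ w) || isOne (PT8 :: (w ++ w))) = true := by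
  apply all_of_chunks _ 128 4 _ (le_of_eq_of_le len512 (by norm_num))
  intro j hj
  interval_cases j
  · exact sq_0
  · exact sq_1
  · exact sq_2
  · exact sq_3

end Cfsg.Agent.Lib.Helper33LI2Q
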