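import Cfsg.Agent.Lib.Helper33LI2G
import Cfsg.Agent.Lib.Helper33LI2K2
import Cfsg.Agent.Lib.Helper33LI2N3
import Cfsg.Agent.Lib.Helper33LI2Q
import Cfsg.Agent.Lib.H33I2Ker
import Cfsg.Agent.Lib.H33I2Surj
import Cfsg.Agent.Lib.H33I2Extra
import Cfsg.Agent.Lib.H33I2OfHom
import Cfsg.Agent.Lib.H33I2CoreSp
import Cfsg.Agent.Lib.Helper33LCo1

/-! # The involution centraliser `2^(1+8) Sp(6,2)` in the stabiliser of `v0` (helper33) -/

set_option autoImplicit false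
set_option exponentiation.threshold 2000
set_option maxRecDepth 1000000

open Cfsg Cfsg.Agent.Lib.Helper33Golay Cfsg.Agent.Lib.Helper33LVec Cfsg.Agent.Lib.Helper33LMat
open Cfsg.Agent.Lib.Helper33LTest Cfsg.Agent.Lib.Helper33LCo0 Cfsg.Agent.Lib.Helper33LFrame
open Cfsg.Agent.Lib.Helper33LGood Cfsg.Agent.Lib.Helper33LReach2 Cfsg.Agent.Lib.Helper33LWord
open Cfsg.Agent.Lib.Helper33LPat Cfsg.Agent.Lib.Helper33LFrame2 Cfsg.Agent.Lib.Helper33LBase
open Cfsg.Agent.Lib.Helper33LMcL Cfsg.Agent.Lib.Helper33LHS Cfsg.Agent.Lib.Helper33LReach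
open Cfsg.Agent.Lib.Helper33LCo2Thy Cfsg.Agent.Lib.Helper33LCent Cfsg.Agent.Lib.Helper33LCent2
open Cfsg.Agent.Lib.Helper33LCent3 Cfsg.Agent.Lib.Helper33LMin
open Cfsg.Agent.Lib.Helper33LCent4
open Cfsg.Agent.Lib.Helper33LCo2 Cfsg.Agent.Lib.Helper33LCo2Ord Cfsg.Agent.Lib.Helper33LI2D
open Cfsg.Agent.Lib.H33I2Defs Cfsg.Agent.Lib.Helper33LI2G Cfsg.Agent.Lib.Helper33LI2Q
open MulAction

namespace Cfsg.Agent.Lib.Helper33LI2H

/-! ### the kernel -/

theorem κ_of_ker {g : CC} (hg : f g = 1) (r : LV) (hr : r ∈ R) : κ (g • r) = κ r := by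
  rw [← hf g r hr, hg]
  exact Matrix.one_mulVec _

theorem nat_eq_of_cast {a c : ℕ} (ha : a < 2) (hc : c < 2) (h : (a : ZMod 2) = (c : ZMod 2)) :
    a = c := by
  rw [ZMod.natCast_eq_natCast_iff'] at h
  omega

theorem same6_of {r s : ℕ} (hr : r ∈ R7L) (hs : s ∈ R7L) (h : κ (DL s) = κ (DL r)) :
    same6 s r = true := by
  unfold same6
  rw [List.all_eq_true]
  intro x hx
  have hx' : ∃ k : I6, x = bl k.swap := by
    have : ∀ x ∈ blL, ∃ k : I6, x = bl k.swap := by decide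
    exact this x hx
  obtain ⟨k, rfl⟩ := hx'
  rw [Nat.beq_eq]
  have h1 := congrFun h k
  rw [κ_code s hs, κ_code r hr] at h1
  exact nat_eq_of_cast (pN_lt _ _) (pN_lt _ _) h1

theorem img_pm {g : CC} (hg : f g = 1) (p : ℕ × ℕ) (hp : p ∈ F7r.zip F7nr) :
    Img (co g) p.1 p.1 ∨ Img (co g) p.1 p.2 := by
  have hm1 : p.1 ∈ R7L := by
    have : p.1 ∈ F7r ++ F7nr := List.mem_append_left _ (List.of_mem_zip hp).1
    exact mem_of_any (List.all_eq_true.1 F7_mem _ this)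
  have hm2 : p.2 ∈ R7L := by
    have : p.2 ∈ F7r ++ F7nr := List.mem_append_right _ (List.of_mem_zip hp).2
    exact mem_of_any (List.all_eq_true.1 F7_mem _ this)
  obtain ⟨a1, a2, a3⟩ := R7_facts _ hm1
  obtain ⟨s, hs, he⟩ := R_sub _ (hR g _ a3)
  have hk := κ_of_ker hg _ a3
  rw [he] at hk
  have h6 := same6_of hm1 hs hk
  have h3 := List.all_eq_true.1 (List.all_eq_true.1 T3 p hp) s hs
  rw [h6] at h3
  simp only [Bool.not_true, Bool.false_or, Bool.or_eq_true, Nat.beq_eq] at h3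
  rw [smul_co] at he
  rcases h3 with h3 | h3
  · left; rw [h3] at he; exact ⟨a1, a2, a1, a2, he⟩
  · right; rw [h3] at he; exact ⟨a1, a2, (R7_facts _ hm2).1, (R7_facts _ hm2).2.1, he⟩

def cnd2 (p q : ℕ × ℕ) : Bool :=
  (dotEq p.1 q.1 48 && !(dotEq p.1 q.2 48) && !(dotEq p.2 q.1 48)) ||
    (dotEq p.1 q.1 80 && !(dotEq p.1 q.2 80) && !(dotEq p.2 q.1 80))

def adj : List (ℕ × ℕ) → Bool
  | p :: q :: l => cnd2 p q && adj (q :: l)
  | _ => true

theorem adj7 : adj (F7r.zip F7nr) = true := by decide +kernel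

theorem step_pm {c : ↥Co0} {p q : ℕ × ℕ} (h : cnd2 p q = true)
    (hq : Img c q.1 q.1 ∨ Img c q.1 q.2) :
    (Img c p.1 p.1 → Img c q.1 q.1) ∧ (Img c p.1 p.2 → Img c q.1 q.2) := by
  unfold cnd2 at h
  simp only [Bool.or_eq_true, Bool.and_eq_true, Bool.not_eq_true'] at h
  constructor
  · intro hp
    rcases hq with hq | hq
    · exact hq
    · exfalso
      rcases h with ⟨⟨h1, h2⟩, _⟩ | ⟨⟨h1, h2⟩, _⟩
      · rw [dotEq_img hp hq h1] at h2; exact absurd h2 (by simp)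
      · rw [dotEq_img hp hq h1] at h2; exact absurd h2 (by simp)
  · intro hp
    rcases hq with hq | hq
    · exfalso
      rcases h with ⟨⟨h1, _⟩, h3⟩ | ⟨⟨h1, _⟩, h3⟩
      · rw [dotEq_img hp hq h1] at h3; exact absurd h3 (by simp)
      · rw [dotEq_img hp hq h1] at h3; exact absurd h3 (by simp)
    · exact hq

theorem chain_pm (c : ↥Co0) : ∀ (l : List (ℕ × ℕ)) (p : ℕ × ℕ),
    (∀ q ∈ l, Img c q.1 q.1 ∨ Img c q.1 q.2) → adj (p :: l) = true →
    (Img c p.1 p.1 → List.Forall₂ (Img c) ((p :: l).map Prod.fst) ((p :: l).map Prod.fst)) ∧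
    (Img c p.1 p.2 → List.Forall₂ (Img c) ((p :: l).map Prod.fst) ((p :: l).map Prod.snd))
  | [], p, _, _ => ⟨fun h => List.Forall₂.cons h List.Forall₂.nil,
      fun h => List.Forall₂.cons h List.Forall₂.nil⟩
  | q :: l, p, hl, ha => by
    rw [adj, Bool.and_eq_true] at ha
    have ih := chain_pm c l q (fun x hx => hl x (List.mem_cons_of_mem _ hx)) ha.2
    have hs := step_pm ha.1 (hl q (by simp))
    exact ⟨fun h => List.Forall₂.cons h (ih.1 (hs.1 h)), fun h => List.Forall₂.cons h (ih.2 (hs.2 h))⟩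

theorem zip_fst : (F7r.zip F7nr).map Prod.fst = F7r := by decide +kernel
theorem zip_snd : (F7r.zip F7nr).map Prod.snd = F7nr := by decide +kernel
theorem xh_mem : (xhc, xmc) ∈ F7r.zip F7nr := by decide +kernel

theorem all_pm_aux (c : ↥Co0) (L : List (ℕ × ℕ)) (h : ∀ p ∈ L, Img c p.1 p.1 ∨ Img c p.1 p.2)
    (ha : adj L = true) : List.Forall₂ (Img c) (L.map Prod.fst) (L.map Prod.fst) ∨
      List.Forall₂ (Img c) (L.map Prod.fst) (L.map Prod.snd) := by
  match L, h, ha with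
  | [], _, _ => left; exact List.Forall₂.nil
  | p :: l, h, ha =>
    have hc := chain_pm c l p (fun q hq => h q (List.mem_cons_of_mem _ hq)) ha
    rcases h p (by simp) with hp | hp
    · exact Or.inl (hc.1 hp)
    · exact Or.inr (hc.2 hp)

theorem all_pm {g : CC} (hg : f g = 1) :
    List.Forall₂ (Img (co g)) F7r F7r ∨ List.Forall₂ (Img (co g)) F7r F7nr := by
  have h := all_pm_aux (co g) _ (img_pm hg) adj7
  rwa [zip_fst, zip_snd] at h

theorem ker_fix {g : CC} (hg : f g = 1) : List.Forall₂ (Img (co g)) F7r F7r := by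
  rcases all_pm hg with h | h
  · exact h
  · exfalso
    exact Helper33LI2N3.ker_minus (co g) (co_mem g) h ((List.forall₂_iff_zip.1 h).2 xh_mem)

theorem ker_sub {g : CC} (hg : f g = 1) : ∃ z ∈ words512, co g = wprod z := by
  have hg' : f g⁻¹ = 1 := by rw [map_inv, hg, inv_one]
  obtain ⟨b, hb, a, ha, h⟩ := Helper33LI2K2.ker_plus (co g⁻¹) (co_mem _) (ker_fix hg')
  refine ⟨b ++ a, ?_, ?_⟩
  · unfold words512
    rw [List.mem_flatMap]
    exact ⟨b, hb, List.mem_map.2 ⟨a, ha, rfl⟩⟩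
  · rw [wprod_append, co_inv, ← mul_assoc] at *
    exact (eq_of_mul_inv_eq_one h).symm

theorem g9 : ∀ Q ∈ gens9, Q ∈ allP := by decide

theorem okB : ∀ x ∈ v0c :: blL, InR x ∧ D x ∈ leechLattice := by
  intro x hx
  rcases List.mem_cons.1 hx with rfl | hx
  · exact okv
  · have := mem_of_any (List.all_eq_true.1 bl_mem x hx)
    exact ⟨(R7_facts x this).1, (R7_facts x this).2.1⟩

theorem kokQ : ∀ Q ∈ gens9, Kok (Zg PT8 ((v0c :: blL).map DL)) Q := by
  intro Q hQ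
  refine kok_Zg gT (gd Q (g9 Q hQ)).1 okB (gd Q (g9 Q hQ)).2.2 ?_
  rw [List.all_cons, Bool.and_eq_true]
  refine ⟨(gd Q (g9 Q hQ)).2.1, ?_⟩
  have h := List.all_eq_true.1 fixQ Q hQ
  rw [List.all_append, Bool.and_eq_true] at h
  exact h.1

theorem word_mem {z : List ℕ} (hz : z ∈ words512) : wprod z ∈ Zg PT8 ((v0c :: blL).map DL) :=
  wprod_mem (fun Q hQ => kokQ Q (let512 z hz Q hQ))

theorem word_mem' {z : List ℕ} (hz : z ∈ words512) : wprod z ∈ Zg PT8 ([v0c].map DL) := by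
  obtain ⟨h1, h2⟩ := mem_Zg.1 (word_mem hz)
  exact mem_Zg.2 ⟨h1, fun x hx => h2 x (by
    simp only [List.map_cons, List.map_nil, List.mem_cons, List.not_mem_nil, or_false] at hx
    rw [hx]; simp)⟩

theorem word_ker {z : List ℕ} (hz : z ∈ words512) : f (mkC (wprod z) (word_mem' hz)) = 1 := by
  rw [H33I2Ker.eq_one_iff R κ b hb hbκ f hf]
  intro j
  congr 1
  rw [smul_co, co_mkC]
  have hj : bl j ∈ blL := by
    have : ∀ j : I6, bl j ∈ blL := by decide
    exact this j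
  exact (mem_Zg.1 (word_mem hz)).2 _ (List.mem_map_of_mem (List.mem_cons_of_mem _ hj))

end Cfsg.Agent.Lib.Helper33LI2H
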