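import Mathlib

/-!
# A maximality criterion for point stabilisers from suborbit sizes (helper33)
-/

set_option autoImplicit false

namespace Cfsg.Agent.Lib.Helper33Max

open MulAction

variable {G α : Type*} [Group G] [MulAction G α]

theorem stabilizer_subgroup_eq (H : Subgroup G) (x : α) :
    stabilizer H x = (stabilizer G x).subgroupOf H := by
  ext g
  simp [Subgroup.mem_subgroupOf, mem_stabilizer_iff, Subgroup.smul_def]

/-- the orbit of `x` under a subgroup `H` has `|H : H ∩ G_x|` elements -/
theorem ncard_orbit_subgroup (H : Subgroup G) (x : α) :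
    (orbit H x).ncard = (stabilizer G x).relIndex H := by
  rw [Subgroup.relIndex, ← stabilizer_subgroup_eq, index_stabilizer]

theorem ncard_fiberwise {k : ℕ} (c : α → Fin k) (B : Set α) (hB : B.Finite) :
    B.ncard = ∑ i, {y | y ∈ B ∧ c y = i}.ncard := by
  classical
  rw [Set.ncard_eq_toFinset_card _ hB,
    Finset.card_eq_sum_card_fiberwise (f := c) (t := Finset.univ) (fun y _ => Finset.mem_coe.2 (Finset.mem_univ _))]
  apply Finset.sum_congr rfl
  intro i _
  rw [← Set.ncard_coe_finset]
  congr 1
  ext y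
  simp

/-- **Maximality criterion.** `c` colours the orbit `Ω` of `x`; points of the same colour are in one
orbit of the stabiliser of `x`; colour `i` has `n i` points; and no union of colour classes
containing `x` has size dividing `|Ω|`, other than size `1` and `|Ω|`. -/
theorem isCoatom_stabilizer [Finite G] (x : α) (k : ℕ) (c : α → Fin k) (n : Fin k → ℕ)
    (hn : ∀ i, {y | y ∈ orbit G x ∧ c y = i}.ncard = n i)
    (hc : ∀ y ∈ orbit G x, ∀ y' ∈ orbit G x, c y = c y' → ∃ g ∈ stabilizer G x, g • y = y')
    (hne : ∃ i, i ≠ c x ∧ n i ≠ 0)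
    (harith : ∀ I : Finset (Fin k), c x ∈ I → (∑ i ∈ I, n i) ∣ (∑ i, n i) →
      (∑ i ∈ I, n i) = 1 ∨ (∑ i ∈ I, n i) = ∑ i, n i) :
    IsCoatom (stabilizer G x) := by
  classical
  have hfin : (orbit G x).Finite := Set.finite_range _
  have htot : (orbit G x).ncard = ∑ i, n i := by
    rw [ncard_fiberwise c _ hfin]
    exact Finset.sum_congr rfl (fun i _ => hn i)
  refine ⟨?_, fun H hlt => ?_⟩
  · intro htop
    obtain ⟨i, hi, hni⟩ := hne
    rw [← hn i] at hni
    obtain ⟨y, hy⟩ := Set.nonempty_of_ncard_ne_zero hni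
    obtain ⟨⟨g, rfl⟩, hcy⟩ := hy
    have : g ∈ stabilizer G x := htop ▸ Subgroup.mem_top g
    have hgx : g • x = x := this
    simp only [hgx] at hcy
    exact hi hcy.symm
  · have hle : stabilizer G x ≤ H := hlt.le
    set B : Set α := orbit H x with hBdef
    have hBsub : B ⊆ orbit G x := by
      rintro _ ⟨h, rfl⟩; exact ⟨(h : G), rfl⟩
    have hBfin : B.Finite := hfin.subset hBsub
    have hsat : ∀ y ∈ B, ∀ y' ∈ orbit G x, c y = c y' → y' ∈ B := by
      rintro _ ⟨h, rfl⟩ y' hy' hcc
      obtain ⟨g, hg, hgy⟩ := hc _ (hBsub ⟨h, rfl⟩) y' hy' hcc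
      refine ⟨⟨g, hle hg⟩ * h, ?_⟩
      rw [← hgy]
      simp [mul_smul, Subgroup.smul_def]
    have hBcard : B.ncard = ∑ i ∈ Finset.univ.filter (fun i => ∃ y ∈ B, c y = i), n i := by
      rw [ncard_fiberwise c _ hBfin, Finset.sum_filter]
      apply Finset.sum_congr rfl
      intro i _
      split_ifs with hi
      · rw [← hn i]
        congr 1
        ext y
        constructor
        · rintro ⟨hy, hcy⟩; exact ⟨hBsub hy, hcy⟩
        · rintro ⟨hy, hcy⟩
          obtain ⟨z, hz, hcz⟩ := hi
          exact ⟨hsat z hz y hy (hcz.trans hcy.symm), hcy⟩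
      · have : {y | y ∈ B ∧ c y = i} = ∅ := by
          ext y
          simp only [Set.mem_empty_iff_false, iff_false]
          rintro ⟨hy, hcy⟩
          exact hi ⟨y, hy, hcy⟩
        rw [this, Set.ncard_empty]
    have hrel : B.ncard = (stabilizer G x).relIndex H := ncard_orbit_subgroup H x
    have hmul : B.ncard * H.index = ∑ i, n i := by
      rw [hrel, Subgroup.relIndex_mul_index hle, index_stabilizer, htot]
    have hxB : x ∈ B := mem_orbit_self x
    have hdvd : (∑ i ∈ Finset.univ.filter (fun i => ∃ y ∈ B, c y = i), n i) ∣ ∑ i, n i := by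
      rw [← hBcard, ← hmul]; exact dvd_mul_right _ _
    rcases harith _ (by simp only [Finset.mem_filter, Finset.mem_univ, true_and]; exact ⟨x, hxB, rfl⟩) hdvd
      with h1 | h1
    · rw [← hBcard, hrel, Subgroup.relIndex_eq_one] at h1
      exact absurd h1 (not_le_of_gt hlt)
    · rw [← hBcard] at h1
      have hpos : 0 < B.ncard := (Set.ncard_pos hBfin).2 ⟨x, hxB⟩
      rw [← h1] at hmul
      have : H.index = 1 := by
        have := Nat.eq_of_mul_eq_mul_left hpos (hmul.trans (Nat.mul_one _).symm)
        exact this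
      exact Subgroup.index_eq_one.1 this

/-- maximality of a point stabiliser is inherited by the other points of the orbit -/
theorem isCoatom_stabilizer_smul (g : G) (x : α) (h : IsCoatom (stabilizer G x)) :
    IsCoatom (stabilizer G (g • x)) := by
  rw [stabilizer_smul_eq_stabilizer_map_conj]
  exact ((MulAut.conj g).mapSubgroup.isCoatom_iff _).2 h

end Cfsg.Agent.Lib.Helper33Max
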