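import Cfsg.Agent.Lib.Helper33Orbit
import Cfsg.Agent.Lib.Helper33Max

/-! # Maximality of stabilisers in the group of the code, from checkable data (helper33) -/

set_option autoImplicit false

namespace Cfsg.Agent.Lib.Helper33MaxM24

open Cfsg Cfsg.Agent.Lib.Helper33Golay Cfsg.Agent.Lib.Helper33Orbit Cfsg.Agent.Lib.Helper33Max
open scoped Pointwise

theorem gens_stab {x0 : ℕ} {gensS : List ℕ}
    (hS1 : gensS.all (fun P => inM24 P && Nat.beq (app P x0) x0) = true) :
    ∀ P ∈ gensS, validPerm P = true ∧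
      toPerm P ∈ M24 ⊓ MulAction.stabilizer (Equiv.Perm GolayPt) (dec x0) := by
  intro P hP
  have := List.all_eq_true.1 hS1 P hP
  rw [Bool.and_eq_true] at this
  refine ⟨inM24_valid this.1, Subgroup.mem_inf.2 ⟨toPerm_mem_M24 this.1, ?_⟩⟩
  rw [MulAction.mem_stabilizer_iff, smul_dec (inM24_valid this.1), Nat.eq_of_beq_eq_true this.2]

theorem gens_M24 {gensT : List ℕ} (hT1 : gensT.all inM24 = true) :
    ∀ P ∈ gensT, validPerm P = true ∧ toPerm P ∈ M24 := fun P hP =>
  ⟨inM24_valid (List.all_eq_true.1 hT1 P hP), toPerm_mem_M24 (List.all_eq_true.1 hT1 P hP)⟩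

/-- all the data needed to prove that the stabilisers of the sets in a family `X` are maximal -/
theorem isCoatom_of_data (x0 k : ℕ) (X : ℕ → Bool) (L : List ℕ) (index cls rootOf : ℕ → ℕ)
    (gensT gensS : List ℕ) (tblT tblS : ℕ) (n : Fin (k + 1) → ℕ)
    (hLnodup : L.Nodup) (hLlt : ∀ m ∈ L, m < 2 ^ 24) (hXL : ∀ m, X m = true ↔ m ∈ L)
    (hinv : ∀ g ∈ M24, ∀ s : Finset GolayPt, X (enc s) = true → X (enc (g • s)) = true)
    (hX0 : X x0 = true)
    (hT1 : gensT.all inM24 = true)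
    (hT2 : L.all (chk gensT tblT index X (fun _ => 0) (fun _ => x0)) = true)
    (hS1 : gensS.all (fun P => inM24 P && Nat.beq (app P x0) x0) = true)
    (hS2 : L.all (chk gensS tblS index X cls rootOf) = true)
    (hcls : L.all (fun m => Nat.blt (cls m) (k + 1)) = true)
    (hcnt : ∀ i : Fin (k + 1), (L.filter (fun m => Nat.beq (cls m) i.val)).length = n i)
    (hne : ∃ i : Fin (k + 1), i.val ≠ cls x0 ∧ n i ≠ 0)
    (harith : ∀ I : Finset (Fin (k + 1)), Fin.ofNat (k + 1) (cls x0) ∈ I →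
      (∑ i ∈ I, n i) ∣ (∑ i, n i) → (∑ i ∈ I, n i) = 1 ∨ (∑ i ∈ I, n i) = ∑ i, n i)
    (s : Finset GolayPt) (hs : X (enc s) = true) : IsCoatom (MulAction.stabilizer M24 s) := by
  have hx0lt : x0 < 2 ^ 24 := hLlt _ ((hXL _).1 hX0)
  have htrans := reach_of_chk M24 gensT tblT index X _ _ L (gens_M24 hT1) (fun m hm => (hXL m).1 hm) hT2
  have hsub := reach_of_chk _ gensS tblS index X cls rootOf L (gens_stab hS1)
    (fun m hm => (hXL m).1 hm) hS2
  have hclslt : ∀ m, X m = true → cls m < k + 1 := by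
    intro m hm
    have := List.all_eq_true.1 hcls m ((hXL m).1 hm)
    simpa [Nat.blt] using this
  have horb : ∀ y, y ∈ MulAction.orbit M24 (dec x0) ↔ X (enc y) = true := by
    intro y
    constructor
    · rintro ⟨g, rfl⟩
      have := hinv g.1 g.2 (dec x0) (by rw [enc_dec hx0lt]; exact hX0)
      exact this
    · intro hy
      obtain ⟨g, hg, h⟩ := htrans x0 (enc y) hX0 hy rfl
      rw [dec_enc] at h
      exact ⟨⟨g, hg⟩, h⟩
  have hbase : IsCoatom (MulAction.stabilizer M24 (dec x0)) := by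
    apply isCoatom_stabilizer (dec x0) (k + 1) (fun y => Fin.ofNat (k + 1) (cls (enc y))) n
    · intro i
      rw [← hcnt i]
      apply ncard_filter _ L hLnodup hLlt
      intro t
      show (t ∈ MulAction.orbit M24 (dec x0) ∧ Fin.ofNat (k + 1) (cls (enc t)) = i) ↔ _
      rw [horb, hXL, Nat.beq_eq]
      constructor
      · rintro ⟨h1, h2⟩
        refine ⟨h1, ?_⟩
        rw [← h2, Fin.val_ofNat, Nat.mod_eq_of_lt (hclslt _ ((hXL _).2 h1))]
      · rintro ⟨h1, h2⟩
        refine ⟨h1, ?_⟩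
        rw [Fin.ext_iff, Fin.val_ofNat, Nat.mod_eq_of_lt (hclslt _ ((hXL _).2 h1)), h2]
    · intro y hy y' hy' hc
      rw [horb] at hy hy'
      have hc' : cls (enc y) = cls (enc y') := by
        have := congrArg Fin.val hc
        simp only [Fin.val_ofNat] at this
        rwa [Nat.mod_eq_of_lt (hclslt _ hy), Nat.mod_eq_of_lt (hclslt _ hy')] at this
      obtain ⟨g, hg, h⟩ := hsub _ _ hy hy' hc'
      rw [dec_enc, dec_enc] at h
      exact ⟨⟨g, hg.1⟩, hg.2, h⟩
    · obtain ⟨i, hi, hni⟩ := hne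
      refine ⟨i, ?_, hni⟩
      intro h
      apply hi
      rw [h, enc_dec hx0lt, Fin.val_ofNat, Nat.mod_eq_of_lt (hclslt _ hX0)]
    · rw [enc_dec hx0lt]; exact harith
  obtain ⟨g, hg⟩ := (horb s).2 hs
  have := isCoatom_stabilizer_smul g (dec x0) hbase
  rwa [show g • dec x0 = s from hg] at this

end Cfsg.Agent.Lib.Helper33MaxM24
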