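import Cfsg.Agent.Lib.Helper33Orbit

/-! # Orbit certificates for objects decoded from masks (helper33) -/

set_option autoImplicit false

namespace Cfsg.Agent.Lib.Helper33OrbitD

open Cfsg Cfsg.Agent.Lib.Helper33Golay Cfsg.Agent.Lib.Helper33Orbit
open scoped Pointwise

variable {α : Type*} [MulAction (Equiv.Perm GolayPt) α]

theorem reachD (D : ℕ → α) (H : Subgroup (Equiv.Perm GolayPt)) (X : ℕ → Prop)
    (cls rootOf rank step : ℕ → ℕ)
    (hstep : ∀ m, X m → ∃ g ∈ H, g • D m = D (step m))
    (hcheck : ∀ m, X m → D m = D (rootOf (cls m)) ∨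
      (X (step m) ∧ cls (step m) = cls m ∧ rank (step m) < rank m)) :
    ∀ m, X m → ∃ g ∈ H, g • D m = D (rootOf (cls m)) := by
  intro m
  induction h : rank m using Nat.strong_induction_on generalizing m with
  | _ n ih =>
    intro hm
    rcases hcheck m hm with h0 | ⟨h1, h2, h3⟩
    · exact ⟨1, H.one_mem, by rw [one_smul, ← h0]⟩
    · obtain ⟨g, hg, hgm⟩ := hstep m hm
      obtain ⟨g', hg', hgm'⟩ := ih _ (h ▸ h3) (step m) rfl h1
      exact ⟨g' * g, H.mul_mem hg' hg, by rw [mul_smul, hgm, hgm', h2]⟩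

/-- the Bool check for one mask, with an equivalence test in place of equality with the root -/
def chkD (gens : List ℕ) (T : ℕ) (index : ℕ → ℕ) (X : ℕ → Bool) (cls rootOf : ℕ → ℕ)
    (eqv : ℕ → ℕ → Bool) (m : ℕ) : Bool :=
  eqv m (rootOf (cls m)) ||
    (X (stepT gens T index m) && Nat.beq (cls (stepT gens T index m)) (cls m) &&
      Nat.blt (Nat.div (tblEnt T (index (stepT gens T index m))) 16) (Nat.div (tblEnt T (index m)) 16))

theorem reach_of_chkD (D : ℕ → α) (H : Subgroup (Equiv.Perm GolayPt)) (gens : List ℕ) (T : ℕ)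
    (index : ℕ → ℕ) (X : ℕ → Bool) (cls rootOf : ℕ → ℕ) (eqv : ℕ → ℕ → Bool) (L : List ℕ)
    (heqv : ∀ a b, eqv a b = true → D a = D b)
    (hgens : ∀ P ∈ idP :: gens, toPerm P ∈ H ∧ ∀ m, X m = true → toPerm P • D m = D (app P m))
    (hL : ∀ m, X m = true → m ∈ L)
    (hchk : L.all (chkD gens T index X cls rootOf eqv) = true) :
    ∀ a b, X a = true → X b = true → cls a = cls b → ∃ g ∈ H, g • D a = D b := by
  have key : ∀ m, X m = true → ∃ g ∈ H, g • D m = D (rootOf (cls m)) := by
    apply reachD D H (fun m => X m = true) cls rootOf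
      (fun m => Nat.div (tblEnt T (index m)) 16) (stepT gens T index)
    · intro m hm
      have hmem : gens.getD (Nat.mod (tblEnt T (index m)) 16) idP ∈ idP :: gens := by
        rcases getD_mem_or gens (Nat.mod (tblEnt T (index m)) 16) with h | h
        · exact List.mem_cons_of_mem _ h
        · rw [h]; exact List.mem_cons_self
      exact ⟨_, (hgens _ hmem).1, (hgens _ hmem).2 m hm⟩
    · intro m hm
      have := List.all_eq_true.1 hchk m (hL m hm)
      unfold chkD at this
      rw [Bool.or_eq_true] at this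
      rcases this with h | h
      · left; exact heqv _ _ h
      · right
        rw [Bool.and_eq_true, Bool.and_eq_true] at h
        exact ⟨h.1.1, Nat.eq_of_beq_eq_true h.1.2, by simpa [Nat.blt] using h.2⟩
  intro a b ha hb hab
  obtain ⟨g, hg, h1⟩ := key a ha
  obtain ⟨g', hg', h2⟩ := key b hb
  refine ⟨g'⁻¹ * g, H.mul_mem (H.inv_mem hg') hg, ?_⟩
  rw [mul_smul, h1, hab, ← h2, inv_smul_smul]

end Cfsg.Agent.Lib.Helper33OrbitD
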