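import Cfsg.Agent.Lib.Helper33Max

/-! # Suborbit data for a transitive action: sizes of suborbits, transport, maximality (helper33) -/

set_option autoImplicit false

namespace Cfsg.Agent.Lib.Helper33Sub

open MulAction Cfsg.Agent.Lib.Helper33Max

variable (G : Type*) {α : Type*} [Group G] [MulAction G α]

/-- a colouring `c` of the orbit of `x` with class sizes `n`, such that points of one colour lie in one
orbit of the stabiliser of `x` -/
structure SubData (x : α) (k : ℕ) (c : α → Fin k) (n : Fin k → ℕ) : Prop where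
  hn : ∀ i, {y | y ∈ orbit G x ∧ c y = i}.ncard = n i
  hc : ∀ y ∈ orbit G x, ∀ y' ∈ orbit G x, c y = c y' → ∃ g ∈ stabilizer G x, g • y = y'

variable {G}

theorem SubData.smul {x : α} {k : ℕ} {c : α → Fin k} {n : Fin k → ℕ} (h : SubData G x k c n) (g : G) :
    SubData G (g • x) k (fun y => c (g⁻¹ • y)) n := by
  have horb : orbit G (g • x) = orbit G x := orbit_smul g x
  constructor
  · intro i
    rw [← h.hn i, horb]
    have : {y | y ∈ orbit G x ∧ c (g⁻¹ • y) = i} = (fun y => g • y) '' {y | y ∈ orbit G x ∧ c y = i} := by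
      ext y
      constructor
      · rintro ⟨h1, h2⟩
        exact ⟨g⁻¹ • y, ⟨mem_orbit_of_mem_orbit _ h1, h2⟩, smul_inv_smul g y⟩
      · rintro ⟨z, ⟨h1, h2⟩, rfl⟩
        exact ⟨mem_orbit_of_mem_orbit _ h1, by simpa using h2⟩
    rw [this, Set.ncard_image_of_injective _ (MulAction.injective g)]
  · intro y hy y' hy' hcc
    rw [horb] at hy hy'
    obtain ⟨k', hk', hky⟩ := h.hc (g⁻¹ • y) (mem_orbit_of_mem_orbit _ hy) (g⁻¹ • y')
      (mem_orbit_of_mem_orbit _ hy') hcc
    refine ⟨g * k' * g⁻¹, ?_, ?_⟩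
    · rw [mem_stabilizer_iff, mul_smul, mul_smul, inv_smul_smul, mem_stabilizer_iff.1 hk']
    · rw [mul_smul, mul_smul, hky, smul_inv_smul]

open Classical in
theorem SubData.ncard_sat [Finite G] {x : α} {k : ℕ} {c : α → Fin k} {n : Fin k → ℕ}
    (h : SubData G x k c n) (B : Set α) (hBsub : B ⊆ orbit G x)
    (hsat : ∀ y ∈ B, ∀ y' ∈ orbit G x, c y = c y' → y' ∈ B) :
    B.ncard = ∑ i ∈ Finset.univ.filter (fun i => ∃ y ∈ B, c y = i), n i := by
  classical
  have hfin : (orbit G x).Finite := Set.finite_range _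
  have hBfin : B.Finite := hfin.subset hBsub
  rw [ncard_fiberwise c _ hBfin, Finset.sum_filter]
  apply Finset.sum_congr rfl
  intro i _
  split_ifs with hi
  · rw [← h.hn i]
    congr 1
    ext y
    constructor
    · rintro ⟨hy, hcy⟩; exact ⟨hBsub hy, hcy⟩
    · rintro ⟨hy, hcy⟩
      obtain ⟨z, hz, hcz⟩ := hi
      exact ⟨hsat z hz y hy (hcz.trans hcy.symm), hcy⟩
  · have : {y | y ∈ B ∧ c y = i} = ∅ := by
      ext y
      simp only [Set.mem_empty_iff_false, iff_false]
      rintro ⟨hy, hcy⟩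
      exact hi ⟨y, hy, hcy⟩
    rw [this, Set.ncard_empty]

/-- the colour classes are exactly the suborbits, if no other union of classes has a size dividing the
order of the stabiliser -/
theorem SubData.ncard_orbit [Finite G] {x : α} {k : ℕ} {c : α → Fin k} {n : Fin k → ℕ}
    (h : SubData G x k c n)
    (hdiv : ∀ i, ∀ I : Finset (Fin k), i ∈ I → (∑ j ∈ I, n j) ∣ Nat.card (stabilizer G x) →
      ∑ j ∈ I, n j = n i) (y : α) (hy : y ∈ orbit G x) :
    (orbit (stabilizer G x) y).ncard = n (c y) := by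
  classical
  set B : Set α := orbit (stabilizer G x) y with hB
  have hBsub : B ⊆ orbit G x := by
    rintro _ ⟨k', rfl⟩
    exact mem_orbit_of_mem_orbit (k' : G) hy
  have hsat : ∀ z ∈ B, ∀ z' ∈ orbit G x, c z = c z' → z' ∈ B := by
    rintro _ ⟨k', rfl⟩ z' hz' hcc
    obtain ⟨g, hg, hgz⟩ := h.hc _ (hBsub ⟨k', rfl⟩) z' hz' hcc
    refine ⟨⟨g, hg⟩ * k', ?_⟩
    rw [← hgz]
    simp [mul_smul, Subgroup.smul_def]
  have hcard := h.ncard_sat B hBsub hsat
  rw [hcard]
  apply hdiv
  · simp only [Finset.mem_filter, Finset.mem_univ, true_and]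
    exact ⟨y, mem_orbit_self y, rfl⟩
  · rw [← hcard]
    rw [hB, ← index_stabilizer]
    exact Subgroup.index_dvd_card _

theorem SubData.mem_orbit {x : α} {k : ℕ} {c : α → Fin k} {n : Fin k → ℕ}
    (h : SubData G x k c n) {y y' : α} (hy : y ∈ orbit G x) (hy' : y' ∈ orbit G x) (hc : c y = c y') :
    y' ∈ orbit (stabilizer G x) y := by
  obtain ⟨g, hg, hgy⟩ := h.hc y hy y' hy' hc
  exact ⟨⟨g, hg⟩, hgy⟩

theorem SubData.eq_self {x : α} {k : ℕ} {c : α → Fin k} {n : Fin k → ℕ}
    (h : SubData G x k c n) {y : α} (hy : y ∈ orbit G x) (hc : c x = c y) : y = x := by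
  obtain ⟨g, hg, hgy⟩ := h.hc x (mem_orbit_self x) y hy hc
  rw [← hgy]; exact hg

theorem SubData.exists_colour {x : α} {k : ℕ} {c : α → Fin k} {n : Fin k → ℕ}
    (h : SubData G x k c n) (i : Fin k) (hi : n i ≠ 0) : ∃ y ∈ orbit G x, c y = i := by
  rw [← h.hn i] at hi
  obtain ⟨y, hy⟩ := Set.nonempty_of_ncard_ne_zero hi
  exact ⟨y, hy.1, hy.2⟩

theorem SubData.isCoatom [Finite G] {x : α} {k : ℕ} {c : α → Fin k} {n : Fin k → ℕ}
    (h : SubData G x k c n) (hne : ∃ i, i ≠ c x ∧ n i ≠ 0)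
    (harith : ∀ I : Finset (Fin k), c x ∈ I → (∑ i ∈ I, n i) ∣ (∑ i, n i) →
      (∑ i ∈ I, n i) = 1 ∨ (∑ i ∈ I, n i) = ∑ i, n i) : IsCoatom (stabilizer G x) :=
  isCoatom_stabilizer x k c n h.hn h.hc hne harith

/-- order of the stabiliser from the order of the group and the size of the orbit -/
theorem card_stabilizer_of [Finite G] (x : α) (N m : ℕ) (hm : (orbit G x).ncard = m)
    (hN : Nat.card G = m * N) (hm0 : m ≠ 0) : Nat.card (stabilizer G x) = N := by
  have := Subgroup.index_mul_card (stabilizer G x)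
  rw [index_stabilizer, hm, hN] at this
  exact Nat.eq_of_mul_eq_mul_left (Nat.pos_of_ne_zero hm0) this

end Cfsg.Agent.Lib.Helper33Sub
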