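import Mathlib
import Cfsg.Prelude.Def_KGroupFacts
import Cfsg.Agent.Lib.Helper69Schur

set_option autoImplicit false

/-!
Tools for proving that the multiplier of an explicit finite group is trivial: reduction to stem
extensions with kernel of prime order, the transfer argument, and local criteria.
-/

namespace Cfsg.Agent.Lib.Helper69Mult

open scoped commutatorElement
open Cfsg.Agent.Lib.Helper69Schur

universe u

section general

variable {Γ : Type*} [Group Γ]

theorem pow_index_mem' (H : Subgroup Γ) [H.FiniteIndex] (k : Γ)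
    (hk : k ∈ Subgroup.center Γ) (hk' : k ∈ commutator Γ) :
    ∃ h : k ^ H.index ∈ H, (⟨k ^ H.index, h⟩ : H) ∈ commutator H := by
  have key : ∀ (j : ℕ) (g₀ : Γ), g₀⁻¹ * k ^ j * g₀ ∈ H → g₀⁻¹ * k ^ j * g₀ = k ^ j := by
    intro j g₀ _
    have := Subgroup.mem_center_iff.1 (Subgroup.pow_mem _ hk j) g₀
    rw [mul_assoc, ← this]; group
  have h1 := MonoidHom.transfer_eq_pow (Abelianization.of : H →* Abelianization H) k key
  have h2 : MonoidHom.transfer (Abelianization.of : H →* Abelianization H) k = 1 :=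
    Abelianization.commutator_subset_ker _ hk'
  rw [h2] at h1
  refine ⟨MonoidHom.transfer_eq_pow_aux k key, ?_⟩
  rw [← Abelianization.ker_of, MonoidHom.mem_ker]
  exact h1.symm

/-- commutators of elements of a closure lie in `D`, if `D` is normalised by the generators and
contains their commutators -/
theorem comm_mem_of_closure (S : Set Γ) (D : Subgroup Γ)
    (hn : ∀ s ∈ S, ∀ d ∈ D, s * d * s⁻¹ ∈ D ∧ s⁻¹ * d * s ∈ D)
    (hc : ∀ s ∈ S, ∀ t ∈ S, ⁅s, t⁆ ∈ D) :
    ∀ x ∈ Subgroup.closure S, ∀ y ∈ Subgroup.closure S, ⁅x, y⁆ ∈ D := by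
  have hN : ∀ x ∈ Subgroup.closure S, ∀ d ∈ D, x * d * x⁻¹ ∈ D ∧ x⁻¹ * d * x ∈ D := by
    intro x hx
    induction hx using Subgroup.closure_induction with
    | mem s hs => exact hn s hs
    | one => intro d hd; simpa using hd
    | mul a b _ _ iha ihb =>
      intro d hd
      constructor
      · have : a * b * d * (a * b)⁻¹ = a * (b * d * b⁻¹) * a⁻¹ := by group
        rw [this]; exact (iha _ (ihb d hd).1).1
      · have : (a * b)⁻¹ * d * (a * b) = b⁻¹ * (a⁻¹ * d * a) * b := by group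
        rw [this]; exact (ihb _ (iha d hd).2).2
    | inv a _ iha =>
      intro d hd
      constructor
      · simpa using (iha d hd).2
      · simpa using (iha d hd).1
  have h1 : ∀ t ∈ S, ∀ x ∈ Subgroup.closure S, ⁅x, t⁆ ∈ D := by
    intro t ht x hx
    induction hx using Subgroup.closure_induction with
    | mem s hs => exact hc s hs t ht
    | one => simp
    | mul a b ha _ iha ihb =>
      have : ⁅a * b, t⁆ = a * ⁅b, t⁆ * a⁻¹ * ⁅a, t⁆ := by
        simp only [commutatorElement_def]; group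
      rw [this]; exact D.mul_mem (hN a ha _ ihb).1 iha
    | inv a ha iha =>
      have : ⁅a⁻¹, t⁆ = a⁻¹ * ⁅a, t⁆⁻¹ * a := by
        simp only [commutatorElement_def]; group
      rw [this]; exact (hN a ha _ (D.inv_mem iha)).2
  intro x hx y hy
  induction hy using Subgroup.closure_induction with
  | mem t ht => exact h1 t ht x hx
  | one => simp
  | mul a b ha _ iha ihb =>
    have : ⁅x, a * b⁆ = ⁅x, a⁆ * (a * ⁅x, b⁆ * a⁻¹) := by
      simp only [commutatorElement_def]; group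
    rw [this]; exact D.mul_mem iha (hN a ha _ ihb).1
  | inv a ha iha =>
    have : ⁅x, a⁻¹⁆ = a⁻¹ * ⁅x, a⁆⁻¹ * a := by
      simp only [commutatorElement_def]; group
    rw [this]; exact (hN a ha _ (D.inv_mem iha)).2

end general

/-- The transfer criterion. -/
theorem comm_le {Γ X : Type*} [Group Γ] [Finite Γ] [Group X] (τ : Γ →* X)
    (hc : τ.ker ≤ Subgroup.center Γ) (hs : τ.ker ≤ commutator Γ) {p : ℕ} (hp : p.Prime)
    (hcard : Nat.card τ.ker = p) (U : Subgroup X) (hU : ¬ p ∣ U.relIndex τ.range)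
    (S : Set Γ) (hS : U ≤ (Subgroup.closure S).map τ) (D : Subgroup Γ)
    (hn : ∀ s ∈ S, ∀ d ∈ D, s * d * s⁻¹ ∈ D ∧ s⁻¹ * d * s ∈ D)
    (hcm : ∀ s ∈ S, ∀ t ∈ S, ⁅s, t⁆ ∈ D) (hD : ∀ d ∈ D, τ d = 1 → d = 1) : False := by
  have hnt : Nontrivial τ.ker := by
    rw [← Finite.one_lt_card_iff_nontrivial, hcard]; exact hp.one_lt
  obtain ⟨⟨a, ha⟩, ha1⟩ := exists_ne (1 : τ.ker)
  have ha1' : a ≠ 1 := fun h => ha1 (Subtype.ext h)
  set H := U.comap τ with hH
  obtain ⟨h1, h2⟩ := pow_index_mem' H a (hc ha) (hs ha)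
  have hle : ⁅H, H⁆ ≤ D := by
    rw [Subgroup.commutator_le]
    intro g1 hg1 g2 hg2
    obtain ⟨k1, hk1, e1⟩ := hS hg1
    obtain ⟨k2, hk2, e2⟩ := hS hg2
    have z1 : k1⁻¹ * g1 ∈ Subgroup.center Γ := hc (by rw [MonoidHom.mem_ker]; simp [e1])
    have z2 : k2⁻¹ * g2 ∈ Subgroup.center Γ := hc (by rw [MonoidHom.mem_ker]; simp [e2])
    have := commutatorElement_mul_center k1 k2 _ _ z1 z2
    rw [mul_inv_cancel_left, mul_inv_cancel_left] at this
    rw [this]
    exact comm_mem_of_closure S D hn hcm k1 hk1 k2 hk2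
  have h3 : a ^ H.index ∈ ⁅H, H⁆ := by
    have : (commutator H).map H.subtype = ⁅H, H⁆ := by
      rw [commutator_def, Subgroup.map_commutator, ← MonoidHom.range_eq_map, Subgroup.range_subtype]
    rw [← this]
    exact ⟨_, h2, rfl⟩
  have h4 : a ^ H.index = 1 := hD _ (hle h3) (by rw [map_pow, MonoidHom.mem_ker.1 ha, one_pow])
  have h5 : orderOf a = p := by
    have : orderOf (⟨a, ha⟩ : τ.ker) ∣ p := hcard ▸ orderOf_dvd_natCard _
    rw [Subgroup.orderOf_mk] at this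
    rcases (Nat.dvd_prime hp).1 this with h | h
    · exact absurd (orderOf_eq_one_iff.1 h) ha1'
    · exact h
  apply hU
  rw [← Subgroup.index_comap, ← h5]
  exact orderOf_dvd_of_pow_eq_one h4

/-- reduction to kernels of prime order -/
theorem trivial_of_prime {G : Type u} [Group G] [Finite G]
    (h : ∀ p : ℕ, p.Prime → ∀ (Γ : Type u) [Group Γ] [Finite Γ] (σ : Γ →* G),
      Cfsg.IsStemExtension σ → Nat.card σ.ker = p → False) :
    Cfsg.HasCyclicSchurMultiplier G 1 := by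
  rw [hasTrivialMultiplier_iff]
  have key : ∀ n : ℕ, ∀ (Γ : Type u) [Group Γ] [Finite Γ] (σ : Γ →* G),
      Cfsg.IsStemExtension σ → Nat.card σ.ker = n → n = 1 := by
    intro n
    induction n using Nat.strong_induction_on with
    | _ n ih =>
      intro Γ _ _ σ hσ hn
      by_contra hn1
      have hpos : 0 < n := hn ▸ Nat.card_pos
      obtain ⟨p, hp, hpn⟩ := Nat.exists_prime_and_dvd hn1
      have hfp : Fact p.Prime := ⟨hp⟩
      obtain ⟨⟨a, ha⟩, hoa⟩ := exists_prime_orderOf_dvd_card' (G := σ.ker) p (hn ▸ hpn)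
      rw [Subgroup.orderOf_mk] at hoa
      set A := Subgroup.zpowers a with hA
      have hAker : A ≤ σ.ker := Subgroup.zpowers_le.2 ha
      have hAn : A.Normal := normal_of_le_center (hAker.trans hσ.2.1)
      let σ' : Γ ⧸ A →* G := QuotientGroup.lift A σ (fun x hx => hAker hx)
      have hsurj : Function.Surjective σ' := by
        intro g
        obtain ⟨x, rfl⟩ := hσ.1 g
        exact ⟨QuotientGroup.mk x, rfl⟩
      have hker : σ'.ker = σ.ker.map (QuotientGroup.mk' A) := QuotientGroup.ker_lift _ _ _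
      have hstem : Cfsg.IsStemExtension σ' := by
        refine ⟨hsurj, ?_, ?_⟩
        · rw [hker]
          rintro _ ⟨x, hx, rfl⟩
          rw [Subgroup.mem_center_iff]
          intro y
          obtain ⟨y, rfl⟩ := QuotientGroup.mk'_surjective A y
          rw [← map_mul, ← map_mul, Subgroup.mem_center_iff.1 (hσ.2.1 hx) y]
        · rw [hker]
          rintro _ ⟨x, hx, rfl⟩
          exact map_commutator_le (QuotientGroup.mk' A) ⟨x, hσ.2.2 hx, rfl⟩
      have c1 : Nat.card Γ = Nat.card G * Nat.card σ.ker := by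
        rw [Subgroup.card_eq_card_quotient_mul_card_subgroup σ.ker,
          Nat.card_congr (QuotientGroup.quotientKerEquivOfSurjective σ hσ.1).toEquiv]
      have c2 : Nat.card (Γ ⧸ A) = Nat.card G * Nat.card σ'.ker := by
        rw [Subgroup.card_eq_card_quotient_mul_card_subgroup σ'.ker,
          Nat.card_congr (QuotientGroup.quotientKerEquivOfSurjective σ' hsurj).toEquiv]
      have c3 : Nat.card Γ = Nat.card (Γ ⧸ A) * p := by
        rw [Subgroup.card_eq_card_quotient_mul_card_subgroup A, hA, Nat.card_zpowers, hoa]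
      have c4 : n = Nat.card σ'.ker * p := by
        have hG : 0 < Nat.card G := Nat.card_pos
        apply Nat.eq_of_mul_eq_mul_left hG
        rw [← hn, ← c1, c3, c2, mul_assoc]
      by_cases hk1 : Nat.card σ'.ker = 1
      · rw [hk1, one_mul] at c4
        exact h p hp Γ σ hσ (hn.trans c4)
      · have hlt : Nat.card σ'.ker < n := by
          have h0 : 0 < Nat.card σ'.ker := Nat.card_pos
          have := hp.two_le
          rw [c4]; nlinarith
        exact hk1 (ih _ hlt (Γ ⧸ A) σ' hstem rfl)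
  intro Γ _ _ σ hσ
  have := key _ Γ σ hσ rfl
  exact Subgroup.card_eq_one.1 this

/-! ### kernels of order two -/

/-- `τ` has central kernel `{1, a}` of order two -/
structure Ext2 {Γ X : Type*} [Group Γ] [Group X] (τ : Γ →* X) (a : Γ) : Prop where
  cen : ∀ g, g * a = a * g
  ne : a ≠ 1
  sq : a * a = 1
  ker : ∀ x, τ x = 1 → x = 1 ∨ x = a
  map : τ a = 1

/-- every lift of `x` squares to `1` -/
def Good {Γ X : Type*} [Group Γ] [Group X] (τ : Γ →* X) (x : X) : Prop :=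
  ∀ Y : Γ, τ Y = x → Y * Y = 1

section ext2

variable {Γ X : Type*} [Group Γ] [Group X] {τ : Γ →* X} {a : Γ}

theorem Ext2.of_card (hc : τ.ker ≤ Subgroup.center Γ) (hcard : Nat.card τ.ker = 2) :
    ∃ a, Ext2 τ a := by
  have hfin : Finite τ.ker := Nat.finite_of_card_ne_zero (by rw [hcard]; norm_num)
  have hnt : Nontrivial τ.ker := by
    rw [← Finite.one_lt_card_iff_nontrivial, hcard]; norm_num
  obtain ⟨⟨a, ha⟩, ha1⟩ := exists_ne (1 : τ.ker)
  have ha1' : a ≠ 1 := fun h => ha1 (Subtype.ext h)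
  obtain ⟨x, y, hxy, huniv⟩ := Nat.card_eq_two_iff.1 hcard
  have hall : ∀ z : τ.ker, z = 1 ∨ z = ⟨a, ha⟩ := by
    intro z
    have m1 : (1 : τ.ker) ∈ ({x, y} : Set τ.ker) := huniv ▸ Set.mem_univ _
    have m2 : (⟨a, ha⟩ : τ.ker) ∈ ({x, y} : Set τ.ker) := huniv ▸ Set.mem_univ _
    have m3 : z ∈ ({x, y} : Set τ.ker) := huniv ▸ Set.mem_univ _
    simp only [Set.mem_insert_iff, Set.mem_singleton_iff] at m1 m2 m3
    rcases m1 with m1 | m1 <;> rcases m2 with m2 | m2 <;> rcases m3 with m3 | m3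
    · exact absurd (m2.trans m1.symm) ha1
    · exact absurd (m2.trans m1.symm) ha1
    · left; rw [m3, m1]
    · right; rw [m3, m2]
    · right; rw [m3, m2]
    · left; rw [m3, m1]
    · exact absurd (m2.trans m1.symm) ha1
    · exact absurd (m2.trans m1.symm) ha1
  refine ⟨a, ⟨fun g => Subgroup.mem_center_iff.1 (hc ha) g, ha1', ?_, ?_, ha⟩⟩
  · rcases hall (⟨a, ha⟩ * ⟨a, ha⟩) with h | h
    · exact congrArg Subtype.val h
    · have := congrArg Subtype.val h
      simp only [Subgroup.coe_mul] at this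
      exact absurd (mul_eq_left.1 this) ha1'
  · intro x hx
    rcases hall ⟨x, hx⟩ with h | h
    · left; exact congrArg Subtype.val h
    · right; exact congrArg Subtype.val h

variable (E : Ext2 τ a)
include E

theorem Ext2.kcen {z : Γ} (hz : τ z = 1) (g : Γ) : g * z = z * g := by
  rcases E.ker z hz with rfl | rfl
  · simp
  · exact E.cen g

theorem Ext2.kcenter {z : Γ} (hz : τ z = 1) : z ∈ Subgroup.center Γ :=
  Subgroup.mem_center_iff.2 (E.kcen hz)

theorem Ext2.ksq {z : Γ} (hz : τ z = 1) : z * z = 1 := by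
  rcases E.ker z hz with rfl | rfl
  · simp
  · exact E.sq

theorem Ext2.kinv {z : Γ} (hz : τ z = 1) : z⁻¹ = z :=
  inv_eq_of_mul_eq_one_left (E.ksq hz)

theorem Ext2.kconj {z : Γ} (hz : τ z = 1) (g : Γ) : g * z * g⁻¹ = z := by
  rw [E.kcen hz g, mul_inv_cancel_right]

theorem Ext2.comm_mul {A B C : Γ} (h : τ ⁅A, C⁆ = 1) : ⁅A, B * C⁆ = ⁅A, B⁆ * ⁅A, C⁆ := by
  have : ⁅A, B * C⁆ = ⁅A, B⁆ * (B * ⁅A, C⁆ * B⁻¹) := by
    simp only [commutatorElement_def]; group
  rw [this, E.kconj h]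

theorem Ext2.comm_mul_k {A B z : Γ} (hz : τ z = 1) : ⁅A, B * z⁆ = ⁅A, B⁆ := by
  have := commutatorElement_mul_center A B 1 z (Subgroup.one_mem _) (E.kcenter hz)
  rwa [mul_one] at this

omit E in
theorem good_conj {g x y : X} (hg : g ∈ τ.range) (h : g * x = y * g) (hy : Good τ y) :
    Good τ x := by
  obtain ⟨Gm, rfl⟩ := hg
  intro Y hY
  have h1 : τ (Gm * Y * Gm⁻¹) = y := by
    rw [map_mul, map_mul, hY, h, map_inv, mul_inv_cancel_right]
  have h2 := hy _ h1
  have h3 : Gm * Y * Gm⁻¹ * (Gm * Y * Gm⁻¹) = Gm * (Y * Y) * Gm⁻¹ := by group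
  rw [h3] at h2
  have : Y * Y = Gm⁻¹ * (Gm * (Y * Y) * Gm⁻¹) * Gm := by group
  rw [this, h2]; group

omit E in
theorem comm_of_good {x y : X} (hx : Good τ x) (hy : Good τ y) (hxy : Good τ (x * y))
    {A B : Γ} (hA : τ A = x) (hB : τ B = y) : A * B = B * A := by
  have h1 := hx A hA
  have h2 := hy B hB
  have h3 := hxy (A * B) (by rw [map_mul, hA, hB])
  have hA' : A⁻¹ = A := inv_eq_of_mul_eq_one_left h1
  have hB' : B⁻¹ = B := inv_eq_of_mul_eq_one_left h2
  have hAB : (A * B)⁻¹ = A * B := inv_eq_of_mul_eq_one_left h3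
  calc A * B = (A * B)⁻¹ := hAB.symm
    _ = B⁻¹ * A⁻¹ := mul_inv_rev _ _
    _ = B * A := by rw [hA', hB']

/-- the order seven trick -/
theorem Ext2.good3 {x0 x1 x2 u : X} (hu : u ∈ τ.range) (h0 : u * x0 = x1 * u) (h1 : u * x1 = x2 * u)
    (h2 : u * x2 = x0 * x1 * u) (hs : x0 * x0 = 1) (c01 : x0 * x1 = x1 * x0)
    (c02 : x0 * x2 = x2 * x0) : Good τ x0 := by
  obtain ⟨U, rfl⟩ := hu
  intro X0 hX0
  set X1 := U * X0 * U⁻¹ with hX1d
  set X2 := U * X1 * U⁻¹ with hX2d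
  set X3 := U * X2 * U⁻¹ with hX3d
  have hX1 : τ X1 = x1 := by
    rw [hX1d, map_mul, map_mul, hX0, h0, map_inv, mul_inv_cancel_right]
  have hX2 : τ X2 = x2 := by
    rw [hX2d, map_mul, map_mul, hX1, h1, map_inv, mul_inv_cancel_right]
  have hX3 : τ X3 = x0 * x1 := by
    rw [hX3d, map_mul, map_mul, hX2, h2, map_inv, mul_inv_cancel_right]
  set e := (X0 * X1)⁻¹ * X3 with hed
  have he : τ e = 1 := by
    rw [hed, map_mul, map_inv, map_mul, hX0, hX1, hX3, inv_mul_cancel]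
  have hX3e : X3 = X0 * X1 * e := by rw [hed, mul_inv_cancel_left]
  have hp : τ ⁅X0, X1⁆ = 1 := by
    rw [map_commutatorElement, hX0, hX1, commutatorElement_eq_one_iff_mul_comm]; exact c01
  have hr : τ ⁅X0, X2⁆ = 1 := by
    rw [map_commutatorElement, hX0, hX2, commutatorElement_eq_one_iff_mul_comm]; exact c02
  have e12 : ⁅X1, X2⁆ = ⁅X0, X1⁆ := by
    rw [hX2d, hX1d, ← conjugate_commutatorElement, ← hX1d, E.kconj hp]
  have e13 : ⁅X1, X3⁆ = ⁅X0, X2⁆ := by
    rw [hX3d]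
    conv_lhs => rw [hX1d]
    rw [← conjugate_commutatorElement, E.kconj hr]
  have e23 : ⁅X2, X3⁆ = ⁅X0, X1⁆ := by
    rw [hX3d]
    conv_lhs => rw [hX2d]
    rw [← conjugate_commutatorElement, e12, E.kconj hp]
  have hp' : τ ⁅X1, X0⁆ = 1 := by rw [← commutatorElement_inv, map_inv, hp, inv_one]
  have f13 : ⁅X1, X3⁆ = ⁅X0, X1⁆ := by
    rw [hX3e, E.comm_mul_k he, E.comm_mul (by simp), commutatorElement_self, mul_one,
      ← commutatorElement_inv, E.kinv hp]
  have h21 : τ ⁅X2, X1⁆ = 1 := by rw [← commutatorElement_inv, e12, map_inv, hp, inv_one]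
  have f23 : ⁅X2, X3⁆ = ⁅X0, X2⁆ * ⁅X0, X1⁆ := by
    rw [hX3e, E.comm_mul_k he, E.comm_mul h21, ← commutatorElement_inv X0 X2,
      ← commutatorElement_inv X1 X2, e12, E.kinv hp, E.kinv hr]
  have hrp : ⁅X0, X2⁆ = ⁅X0, X1⁆ := e13.symm.trans f13
  have hp1 : ⁅X0, X1⁆ = 1 := by
    have := e23.symm.trans f23
    rw [hrp, E.ksq hp] at this
    exact this
  have hcomm : X0 * X1 = X1 * X0 := commutatorElement_eq_one_iff_mul_comm.1 hp1
  have hk : τ (X0 * X0) = 1 := by rw [map_mul, hX0, hs]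
  have k1 : X1 * X1 = X0 * X0 := by
    have : X1 * X1 = U * (X0 * X0) * U⁻¹ := by rw [hX1d]; group
    rw [this, E.kconj hk]
  have k2 : X2 * X2 = X0 * X0 := by
    have : X2 * X2 = U * (X1 * X1) * U⁻¹ := by rw [hX2d]; group
    rw [this, k1, E.kconj hk]
  have k3 : X3 * X3 = X0 * X0 := by
    have : X3 * X3 = U * (X2 * X2) * U⁻¹ := by rw [hX3d]; group
    rw [this, k2, E.kconj hk]
  have k3' : X3 * X3 = 1 := by
    rw [hX3e]
    calc X0 * X1 * e * (X0 * X1 * e) = X0 * X1 * (e * (X0 * X1)) * e := by group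
      _ = X0 * X1 * (X0 * X1 * e) * e := by rw [← E.kcen he (X0 * X1)]
      _ = X0 * (X1 * X0) * X1 * (e * e) := by group
      _ = X0 * (X0 * X1) * X1 * (e * e) := by rw [hcomm]
      _ = (X0 * X0) * (X1 * X1) * (e * e) := by group
      _ = 1 := by rw [k1, E.ksq hk, E.ksq he, one_mul]
  rw [← k3, k3']

/-- the order fifteen trick -/
theorem Ext2.good4 {x0 x1 x2 x3 u : X} (hu : u ∈ τ.range) (h0 : u * x0 = x1 * u)
    (h1 : u * x1 = x2 * u) (h2 : u * x2 = x3 * u) (h3 : u * x3 = x0 * x1 * u) (hs : x0 * x0 = 1)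
    (c01 : x0 * x1 = x1 * x0) (c02 : x0 * x2 = x2 * x0) : Good τ x0 := by
  obtain ⟨U, rfl⟩ := hu
  intro X0 hX0
  set X1 := U * X0 * U⁻¹ with hX1d
  set X2 := U * X1 * U⁻¹ with hX2d
  set X3 := U * X2 * U⁻¹ with hX3d
  set X4 := U * X3 * U⁻¹ with hX4d
  have hX1 : τ X1 = x1 := by
    rw [hX1d, map_mul, map_mul, hX0, h0, map_inv, mul_inv_cancel_right]
  have hX2 : τ X2 = x2 := by
    rw [hX2d, map_mul, map_mul, hX1, h1, map_inv, mul_inv_cancel_right]
  have hX3 : τ X3 = x3 := by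
    rw [hX3d, map_mul, map_mul, hX2, h2, map_inv, mul_inv_cancel_right]
  have hX4 : τ X4 = x0 * x1 := by
    rw [hX4d, map_mul, map_mul, hX3, h3, map_inv, mul_inv_cancel_right]
  set e := (X0 * X1)⁻¹ * X4 with hed
  have he : τ e = 1 := by
    rw [hed, map_mul, map_inv, map_mul, hX0, hX1, hX4, inv_mul_cancel]
  have hX4e : X4 = X0 * X1 * e := by rw [hed, mul_inv_cancel_left]
  have hp : τ ⁅X0, X1⁆ = 1 := by
    rw [map_commutatorElement, hX0, hX1, commutatorElement_eq_one_iff_mul_comm]; exact c01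
  have hr : τ ⁅X0, X2⁆ = 1 := by
    rw [map_commutatorElement, hX0, hX2, commutatorElement_eq_one_iff_mul_comm]; exact c02
  have e12 : ⁅X1, X2⁆ = ⁅X0, X1⁆ := by
    rw [hX2d, hX1d, ← conjugate_commutatorElement, ← hX1d, E.kconj hp]
  have e13 : ⁅X1, X3⁆ = ⁅X0, X2⁆ := by
    rw [hX3d]
    conv_lhs => rw [hX1d]
    rw [← conjugate_commutatorElement, E.kconj hr]
  have e24 : ⁅X2, X4⁆ = ⁅X0, X2⁆ := by
    rw [hX4d]
    conv_lhs => rw [hX2d]
    rw [← conjugate_commutatorElement, e13, E.kconj hr]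
  have h21 : τ ⁅X2, X1⁆ = 1 := by rw [← commutatorElement_inv, e12, map_inv, hp, inv_one]
  have f24 : ⁅X2, X4⁆ = ⁅X0, X2⁆ * ⁅X0, X1⁆ := by
    rw [hX4e, E.comm_mul_k he, E.comm_mul h21, ← commutatorElement_inv X0 X2,
      ← commutatorElement_inv X1 X2, e12, E.kinv hp, E.kinv hr]
  have hp1 : ⁅X0, X1⁆ = 1 := by
    have := e24.symm.trans f24
    exact (mul_eq_left.1 this.symm)
  have hcomm : X0 * X1 = X1 * X0 := commutatorElement_eq_one_iff_mul_comm.1 hp1
  have hk : τ (X0 * X0) = 1 := by rw [map_mul, hX0, hs]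
  have k1 : X1 * X1 = X0 * X0 := by
    have : X1 * X1 = U * (X0 * X0) * U⁻¹ := by rw [hX1d]; group
    rw [this, E.kconj hk]
  have k2 : X2 * X2 = X0 * X0 := by
    have : X2 * X2 = U * (X1 * X1) * U⁻¹ := by rw [hX2d]; group
    rw [this, k1, E.kconj hk]
  have k3 : X3 * X3 = X0 * X0 := by
    have : X3 * X3 = U * (X2 * X2) * U⁻¹ := by rw [hX3d]; group
    rw [this, k2, E.kconj hk]
  have k4 : X4 * X4 = X0 * X0 := by
    have : X4 * X4 = U * (X3 * X3) * U⁻¹ := by rw [hX4d]; group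
    rw [this, k3, E.kconj hk]
  have k4' : X4 * X4 = 1 := by
    rw [hX4e]
    calc X0 * X1 * e * (X0 * X1 * e) = X0 * X1 * (e * (X0 * X1)) * e := by group
      _ = X0 * X1 * (X0 * X1 * e) * e := by rw [← E.kcen he (X0 * X1)]
      _ = X0 * (X1 * X0) * X1 * (e * e) := by group
      _ = X0 * (X0 * X1) * X1 * (e * e) := by rw [hcomm]
      _ = (X0 * X0) * (X1 * X1) * (e * e) := by group
      _ = 1 := by rw [k1, E.ksq hk, E.ksq he, one_mul]
  rw [← k4, k4']

end ext2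

/-! ### chains of subgroups -/

section chain

variable {Γ : Type*} [Group Γ]

/-- `x` conjugates `K` into itself -/
def Nz (x : Γ) (K : Subgroup Γ) : Prop := ∀ k ∈ K, x * k * x⁻¹ ∈ K

theorem Nz.sup {x y : Γ} {K : Subgroup Γ} (h : Nz x K)
    (hy : x * y * x⁻¹ ∈ K ⊔ Subgroup.zpowers y) : Nz x (K ⊔ Subgroup.zpowers y) := by
  have hle : K ⊔ Subgroup.zpowers y ≤
      (K ⊔ Subgroup.zpowers y).comap (MulAut.conj x).toMonoidHom := by
    apply sup_le
    · intro k hk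
      exact Subgroup.mem_sup_left (h k hk)
    · rw [Subgroup.zpowers_le]
      exact hy
  intro k hk
  exact hle hk

theorem Nz.mul {x y : Γ} {K : Subgroup Γ} (hx : Nz x K) (hy : Nz y K) : Nz (x * y) K := by
  intro k hk
  have : x * y * k * (x * y)⁻¹ = x * (y * k * y⁻¹) * x⁻¹ := by group
  rw [this]
  exact hx _ (hy k hk)

theorem Nz.zpow {x : Γ} {K : Subgroup Γ} (h1 : Nz x K) (h2 : Nz x⁻¹ K) (i : ℤ) : Nz (x ^ i) K := by
  induction i using Int.induction_on with
  | zero => intro k hk; simpa using hk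
  | succ n ih =>
    rw [zpow_add_one]
    exact ih.mul h1
  | pred n ih =>
    rw [zpow_sub_one]
    exact ih.mul h2

theorem Nz.inv_of_pow {x : Γ} {K : Subgroup Γ} (h : Nz x K) {n : ℕ} (hn : 0 < n) (hx : x ^ n ∈ K) :
    Nz x⁻¹ K := by
  have hp : ∀ m : ℕ, Nz (x ^ m) K := by
    intro m
    induction m with
    | zero => intro k hk; simpa using hk
    | succ m ih => rw [pow_succ]; exact ih.mul h
  intro k hk
  obtain ⟨m, rfl⟩ : ∃ m, n = m + 1 := ⟨n - 1, by omega⟩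
  have : x⁻¹ * k * x⁻¹⁻¹ = (x ^ (m + 1))⁻¹ * (x ^ m * k * (x ^ m)⁻¹) * x ^ (m + 1) := by
    rw [pow_succ]; group
  rw [this]
  exact K.mul_mem (K.mul_mem (K.inv_mem hx) (hp m k hk)) hx

theorem mem_sup_zpowers {x : Γ} {K : Subgroup Γ} (h : Nz x K) {n : ℕ} (hn : 0 < n)
    (hx : x ^ n ∈ K) {g : Γ} (hg : g ∈ K ⊔ Subgroup.zpowers x) :
    ∃ i < n, ∃ k ∈ K, g = x ^ i * k := by
  have h' := h.inv_of_pow hn hx
  let M : Subgroup Γ :=
    { carrier := {g | ∃ i : ℤ, x ^ i * g ∈ K}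
      one_mem' := ⟨0, by simp⟩
      mul_mem' := by
        rintro a b ⟨i, hi⟩ ⟨j, hj⟩
        refine ⟨j + i, ?_⟩
        have : x ^ (j + i) * (a * b) = x ^ j * (x ^ i * a) * (x ^ j)⁻¹ * (x ^ j * b) := by
          rw [zpow_add]; group
        rw [this]
        exact K.mul_mem (Nz.zpow h h' j _ hi) hj
      inv_mem' := by
        rintro a ⟨i, hi⟩
        refine ⟨-i, ?_⟩
        have : x ^ (-i) * a⁻¹ = x ^ (-i) * (x ^ i * a)⁻¹ * (x ^ (-i))⁻¹ := by
          rw [zpow_neg]; group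
        rw [this]
        exact Nz.zpow h h' (-i) _ (K.inv_mem hi) }
  have hle : K ⊔ Subgroup.zpowers x ≤ M := by
    apply sup_le
    · intro k hk; exact ⟨0, by simpa using hk⟩
    · rw [Subgroup.zpowers_le]
      exact ⟨-1, by simp⟩
  obtain ⟨i, hi⟩ := hle hg
  have hn' : (n : ℤ) ≠ 0 := by exact_mod_cast hn.ne'
  have hr0 : 0 ≤ (-i) % (n : ℤ) := Int.emod_nonneg _ hn'
  have hr1 : (-i) % (n : ℤ) < n := Int.emod_lt_of_pos _ (by exact_mod_cast hn)
  obtain ⟨r, hr⟩ := Int.eq_ofNat_of_zero_le hr0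
  refine ⟨r, by rw [hr] at hr1; exact_mod_cast hr1, (x ^ n) ^ ((-i) / (n : ℤ)) * (x ^ i * g),
    K.mul_mem (K.zpow_mem hx _) hi, ?_⟩
  have h1 : (-i) = r + n * ((-i) / (n : ℤ)) := by
    rw [← hr]; exact (Int.emod_add_mul_ediv _ _).symm
  have h2 : x ^ (-i) = x ^ r * (x ^ n) ^ ((-i) / (n : ℤ)) := by
    conv_lhs => rw [h1]
    rw [zpow_add, zpow_mul, zpow_natCast, zpow_natCast]
  calc g = x ^ (-i) * (x ^ i * g) := by rw [zpow_neg]; group
    _ = x ^ r * ((x ^ n) ^ ((-i) / (n : ℤ)) * (x ^ i * g)) := by rw [h2, mul_assoc]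

theorem card_sup_zpowers_le [Finite Γ] {x : Γ} {K : Subgroup Γ} (h : Nz x K) {n : ℕ} (hn : 0 < n)
    (hx : x ^ n ∈ K) : Nat.card ↥(K ⊔ Subgroup.zpowers x) ≤ n * Nat.card K := by
  let f : Fin n × K → Γ := fun q => x ^ (q.1 : ℕ) * q.2
  have hsub : ((K ⊔ Subgroup.zpowers x : Subgroup Γ) : Set Γ) ⊆ Set.range f := by
    intro g hg
    obtain ⟨i, hi, k, hk, rfl⟩ := mem_sup_zpowers h hn hx hg
    exact ⟨(⟨i, hi⟩, ⟨k, hk⟩), rfl⟩
  calc Nat.card ↥(K ⊔ Subgroup.zpowers x)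
      = ((K ⊔ Subgroup.zpowers x : Subgroup Γ) : Set Γ).ncard := rfl
    _ ≤ (Set.range f).ncard := Set.ncard_le_ncard hsub (Set.toFinite _)
    _ ≤ Nat.card (Fin n × K) := by
        rw [← Set.image_univ, ← Set.ncard_univ]
        exact Set.ncard_image_le (Set.toFinite _)
    _ = n * Nat.card K := by rw [Nat.card_prod, Nat.card_fin]

theorem card_sup_zpowers_eq [Finite Γ] {x : Γ} {K : Subgroup Γ} (h : Nz x K) {p : ℕ} (hp : p.Prime)
    (hx : x ^ p ∈ K) (hxK : x ∉ K) : Nat.card ↥(K ⊔ Subgroup.zpowers x) = p * Nat.card K := by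
  apply le_antisymm (card_sup_zpowers_le h hp.pos hx)
  have hd : ∀ d : ℕ, 0 < d → d < p → x ^ d ∉ K := by
    intro d hd0 hdp hmem
    have hcop : Nat.Coprime d p := (Nat.coprime_of_lt_prime hd0.ne' hdp hp).symm
    obtain ⟨m, -, hm⟩ := Nat.exists_mul_mod_eq_one_of_coprime hcop hp.one_lt
    have h1 : d * m = p * (d * m / p) + 1 := by
      have := Nat.div_add_mod (d * m) p
      rw [hm] at this; exact this.symm
    apply hxK
    have h2 : x = ((x ^ p) ^ (d * m / p))⁻¹ * (x ^ d) ^ m := by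
      rw [← pow_mul, ← pow_mul, h1, pow_succ]
      have : (p * (d * m / p) + 1) / p = d * m / p := by rw [← h1]
      rw [this]; group
    rw [h2]
    exact K.mul_mem (K.inv_mem (K.pow_mem hx _)) (K.pow_mem hmem _)
  let f : Fin p × K → ↥(K ⊔ Subgroup.zpowers x) := fun q =>
    ⟨x ^ (q.1 : ℕ) * q.2, Subgroup.mul_mem _
      (Subgroup.pow_mem _ (Subgroup.mem_sup_right (Subgroup.mem_zpowers x)) _)
      (Subgroup.mem_sup_left q.2.2)⟩
  have hinj : Function.Injective f := by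
    rintro ⟨⟨i, hi⟩, ⟨k, hk⟩⟩ ⟨⟨j, hj⟩, ⟨l, hl⟩⟩ hEq
    have hEq' : x ^ i * k = x ^ j * l := congrArg Subtype.val hEq
    have hij : i = j := by
      by_contra hne
      rcases Nat.lt_or_gt_of_ne hne with hlt | hlt
      · apply hd (j - i) (by omega) (by omega)
        have : x ^ (j - i) = k * l⁻¹ := by
          have h3 : x ^ j = x ^ i * x ^ (j - i) := by rw [← pow_add]; congr 1; omega
          rw [h3, mul_assoc] at hEq'
          have h4 := mul_left_cancel hEq'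
          rw [h4]; group
        rw [this]; exact K.mul_mem hk (K.inv_mem hl)
      · apply hd (i - j) (by omega) (by omega)
        have : x ^ (i - j) = l * k⁻¹ := by
          have h3 : x ^ i = x ^ j * x ^ (i - j) := by rw [← pow_add]; congr 1; omega
          rw [h3, mul_assoc] at hEq'
          have h4 := mul_left_cancel hEq'
          rw [← h4]; group
        rw [this]; exact K.mul_mem hl (K.inv_mem hk)
    subst hij
    have := mul_left_cancel hEq'
    subst this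
    rfl
  calc p * Nat.card K = Nat.card (Fin p × K) := by rw [Nat.card_prod, Nat.card_fin]
    _ ≤ _ := Nat.card_le_card_of_injective f hinj

/-- the chain for a dihedral group of order eight over `B` -/
theorem card_D8_le [Finite Γ] (B : Subgroup Γ) (S S' : Γ) (hS : S * S = 1) (hS' : S' * S' = 1)
    (hZ : S * S' * (S * S') * (S * S' * (S * S')) = 1) (nS : Nz S B) (nS' : Nz S' B) :
    Nat.card ↥(B ⊔ Subgroup.zpowers (S * S' * (S * S')) ⊔ Subgroup.zpowers S ⊔ Subgroup.zpowers S')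
      ≤ 8 * Nat.card B := by
  set Z := S * S' * (S * S') with hZd
  have hSi : S⁻¹ = S := inv_eq_of_mul_eq_one_left hS
  have hS'i : S'⁻¹ = S' := inv_eq_of_mul_eq_one_left hS'
  have hZi : Z⁻¹ = Z := inv_eq_of_mul_eq_one_left hZ
  have hZinv : Z⁻¹ = S' * S * S' * S := by
    rw [hZd]
    calc (S * S' * (S * S'))⁻¹ = S'⁻¹ * S⁻¹ * S'⁻¹ * S⁻¹ := by group
      _ = _ := by rw [hSi, hS'i]
  have nZ : Nz Z B := (nS.mul nS').mul (nS.mul nS')
  have c1 : S * Z * S⁻¹ = Z := by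
    calc S * Z * S⁻¹ = (S * S) * (S' * S * S' * S⁻¹) := by rw [hZd]; group
      _ = Z := by rw [hS, one_mul, hSi, ← hZinv, hZi]
  have c2 : S' * Z * S'⁻¹ = Z := by
    calc S' * Z * S'⁻¹ = S' * S * S' * S * (S' * S'⁻¹) := by rw [hZd]; group
      _ = Z := by rw [mul_inv_cancel, mul_one, ← hZinv, hZi]
  have c3 : S' * S * S'⁻¹ = S * Z := by
    calc S' * S * S'⁻¹ = S' * S * S' := by rw [hS'i]
      _ = (S * S) * S' * S * S' := by rw [hS, one_mul]
      _ = S * Z := by rw [hZd]; group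
  have n2 : Nz S (B ⊔ Subgroup.zpowers Z) :=
    nS.sup (by rw [c1]; exact Subgroup.mem_sup_right (Subgroup.mem_zpowers Z))
  have n3' : Nz S' (B ⊔ Subgroup.zpowers Z) :=
    nS'.sup (by rw [c2]; exact Subgroup.mem_sup_right (Subgroup.mem_zpowers Z))
  have n3 : Nz S' (B ⊔ Subgroup.zpowers Z ⊔ Subgroup.zpowers S) :=
    n3'.sup (by
      rw [c3]
      exact Subgroup.mul_mem _ (Subgroup.mem_sup_right (Subgroup.mem_zpowers S))
        (Subgroup.mem_sup_left (Subgroup.mem_sup_right (Subgroup.mem_zpowers Z))))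
  have k1 := card_sup_zpowers_le nZ (n := 2) (by norm_num) (by rw [pow_two, hZ]; exact B.one_mem)
  have k2 := card_sup_zpowers_le n2 (n := 2) (by norm_num)
    (by rw [pow_two, hS]; exact Subgroup.one_mem _)
  have k3 := card_sup_zpowers_le n3 (n := 2) (by norm_num)
    (by rw [pow_two, hS']; exact Subgroup.one_mem _)
  omega

theorem card_D8x2_le [Finite Γ] (B : Subgroup Γ) (S S' V : Γ) (hS : S * S = 1) (hS' : S' * S' = 1)
    (hZ : S * S' * (S * S') * (S * S' * (S * S')) = 1) (nS : Nz S B) (nS' : Nz S' B)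
    (hV : V * V = 1) (nV : Nz V B) (hVS : V * S = S * V) (hVS' : V * S' = S' * V) :
    Nat.card ↥(B ⊔ Subgroup.zpowers (S * S' * (S * S')) ⊔ Subgroup.zpowers S ⊔ Subgroup.zpowers S'
      ⊔ Subgroup.zpowers V) ≤ 16 * Nat.card B := by
  have h8 := card_D8_le B S S' hS hS' hZ nS nS'
  have c1 : V * S * V⁻¹ = S := by rw [hVS, mul_inv_cancel_right]
  have c2 : V * S' * V⁻¹ = S' := by rw [hVS', mul_inv_cancel_right]
  have c3 : V * (S * S' * (S * S')) * V⁻¹ = S * S' * (S * S') := by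
    calc V * (S * S' * (S * S')) * V⁻¹
        = (V * S * V⁻¹) * (V * S' * V⁻¹) * ((V * S * V⁻¹) * (V * S' * V⁻¹)) := by group
      _ = _ := by rw [c1, c2]
  have n1 : Nz V (B ⊔ Subgroup.zpowers (S * S' * (S * S'))) :=
    nV.sup (by rw [c3]; exact Subgroup.mem_sup_right (Subgroup.mem_zpowers _))
  have n2 : Nz V (B ⊔ Subgroup.zpowers (S * S' * (S * S')) ⊔ Subgroup.zpowers S) :=
    n1.sup (by rw [c1]; exact Subgroup.mem_sup_right (Subgroup.mem_zpowers _))
  have n3 : Nz V (B ⊔ Subgroup.zpowers (S * S' * (S * S')) ⊔ Subgroup.zpowers S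
      ⊔ Subgroup.zpowers S') :=
    n2.sup (by rw [c2]; exact Subgroup.mem_sup_right (Subgroup.mem_zpowers _))
  have k := card_sup_zpowers_le n3 (n := 2) (by norm_num)
    (by rw [pow_two, hV]; exact Subgroup.one_mem _)
  omega

end chain

/-! ### the complement -/

section compl

theorem six {Γ : Type*} [Group Γ] {a b c d e f : Γ} (c1 : d * b = b * d) (c2 : e * c = c * e)
    (c3 : d * c = c * d) : (a * d) * (b * e) * (c * f) = (a * b * c) * (d * e * f) := by
  calc (a * d) * (b * e) * (c * f) = a * (d * b) * (e * c) * f := by group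
    _ = a * (b * d) * (c * e) * f := by rw [c1, c2]
    _ = a * b * (d * c) * e * f := by group
    _ = a * b * (c * d) * e * f := by rw [c3]
    _ = _ := by group

variable {Γ X : Type*} [Group Γ] [Group X] {τ : Γ →* X} {a : Γ}

/-- lifts of the same element act in the same way by conjugation -/
theorem Ext2.conj_eq (E : Ext2 τ a) {A B : Γ} (h : τ A = τ B) (Y : Γ) :
    A * Y * A⁻¹ = B * Y * B⁻¹ := by
  have hk : τ (B⁻¹ * A) = 1 := by rw [map_mul, map_inv, h, inv_mul_cancel]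
  have hA : A = B * (B⁻¹ * A) := by group
  generalize B⁻¹ * A = k at hk hA
  rw [hA]
  calc B * k * Y * (B * k)⁻¹ = B * (k * Y) * k⁻¹ * B⁻¹ := by group
    _ = B * (Y * k) * k⁻¹ * B⁻¹ := by rw [E.kcen hk Y]
    _ = _ := by group

/-- the lifts of elements of `W` of norm one with respect to `U` -/
def W0 (W : Subgroup X) (hgood : ∀ w ∈ W, Good τ w) (U : Γ)
    (hU : ∀ w ∈ W, τ U * w * (τ U)⁻¹ ∈ W) : Subgroup Γ where
  carrier := {Y | τ Y ∈ W ∧ Y * (U * Y * U⁻¹) * (U * (U * Y * U⁻¹) * U⁻¹) = 1}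
  one_mem' := ⟨by rw [map_one]; exact W.one_mem, by group⟩
  mul_mem' := by
    rintro Y Y' ⟨hY, nY⟩ ⟨hY', nY'⟩
    have cW : ∀ A B : Γ, τ A ∈ W → τ B ∈ W → A * B = B * A := fun A B hA hB =>
      comm_of_good (hgood _ hA) (hgood _ hB) (hgood _ (W.mul_mem hA hB)) rfl rfl
    have hc : ∀ A : Γ, τ A ∈ W → τ (U * A * U⁻¹) ∈ W := by
      intro A hA
      rw [map_mul, map_mul, map_inv]; exact hU _ hA
    refine ⟨by rw [map_mul]; exact W.mul_mem hY hY', ?_⟩
    have e1 : U * (Y * Y') * U⁻¹ = (U * Y * U⁻¹) * (U * Y' * U⁻¹) := by group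
    have e2 : U * ((U * Y * U⁻¹) * (U * Y' * U⁻¹)) * U⁻¹
        = (U * (U * Y * U⁻¹) * U⁻¹) * (U * (U * Y' * U⁻¹) * U⁻¹) := by group
    rw [e1, e2, six (cW _ _ hY' (hc _ hY)) (cW _ _ (hc _ hY') (hc _ (hc _ hY)))
      (cW _ _ hY' (hc _ (hc _ hY))), nY, nY', one_mul]
  inv_mem' := by
    rintro Y ⟨hY, nY⟩
    have : Y⁻¹ = Y := inv_eq_of_mul_eq_one_left (hgood _ hY Y rfl)
    rw [this]; exact ⟨hY, nY⟩

variable {W : Subgroup X} {hgood : ∀ w ∈ W, Good τ w} {U : Γ}
  {hU : ∀ w ∈ W, τ U * w * (τ U)⁻¹ ∈ W}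

theorem W0_inj (E : Ext2 τ a) {Y : Γ} (hY : Y ∈ W0 W hgood U hU) (h1 : τ Y = 1) : Y = 1 := by
  rcases E.ker Y h1 with h | h
  · exact h
  · exfalso
    have h2 : Y * (U * Y * U⁻¹) * (U * (U * Y * U⁻¹) * U⁻¹) = 1 := hY.2
    rw [h, E.kconj E.map, E.kconj E.map, E.sq, one_mul] at h2
    exact E.ne h2

theorem W0_surj (E : Ext2 τ a) (hle : W ≤ τ.range)
    (nrm : ∀ w ∈ W, w * (τ U * w * (τ U)⁻¹) * (τ U * (τ U * w * (τ U)⁻¹) * (τ U)⁻¹) = 1) :
    W ≤ (W0 W hgood U hU).map τ := by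
  intro w hw
  obtain ⟨Y, rfl⟩ := hle hw
  have hN : τ (Y * (U * Y * U⁻¹) * (U * (U * Y * U⁻¹) * U⁻¹)) = 1 := by
    simp only [map_mul, map_inv]
    exact nrm _ hw
  rcases E.ker _ hN with h | h
  · exact ⟨Y, ⟨hw, h⟩, rfl⟩
  · refine ⟨Y * a, ⟨by rw [map_mul, E.map, mul_one]; exact hw, ?_⟩, by rw [map_mul, E.map, mul_one]⟩
    have e1 : ∀ B : Γ, U * (B * a) * U⁻¹ = U * B * U⁻¹ * a := by
      intro B
      calc U * (B * a) * U⁻¹ = U * B * (a * U⁻¹) := by group
        _ = U * B * (U⁻¹ * a) := by rw [E.cen U⁻¹]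
        _ = _ := by group
    rw [e1, e1, six (E.cen _).symm (E.cen _).symm (E.cen _).symm, h, E.sq, one_mul, E.sq]

theorem W0_card_le [Finite Γ] (E : Ext2 τ a) (hle : W ≤ τ.range) :
    Nat.card (W0 W hgood U hU) ≤ Nat.card W := by
  have hfr : Finite τ.range := (Set.finite_range τ).to_subtype
  have hfin : Finite W :=
    Finite.of_injective (Subgroup.inclusion hle) (Subgroup.inclusion_injective hle)
  let f : W0 W hgood U hU → W := fun Y => ⟨τ Y.1, Y.2.1⟩
  apply Nat.card_le_card_of_injective f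
  rintro ⟨Y, hY⟩ ⟨Y', hY'⟩ h
  have h1 : τ Y = τ Y' := congrArg Subtype.val h
  have h2 : Y * Y'⁻¹ = 1 :=
    W0_inj E ((W0 W hgood U hU).mul_mem hY ((W0 W hgood U hU).inv_mem hY'))
      (by rw [map_mul, map_inv, h1, mul_inv_cancel])
  exact Subtype.ext (mul_inv_eq_one.1 h2)

theorem W0_conj (E : Ext2 τ a) (hu3 : τ U * τ U * τ U = 1) {T : Γ}
    (hTW : ∀ w ∈ W, τ T * w * (τ T)⁻¹ ∈ W)
    (hT : τ U * τ T = τ T * τ U ∨ τ U * τ T = τ T * τ U * τ U) : Nz T (W0 W hgood U hU) := by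
  rintro Y ⟨hY, nY⟩
  have cW : ∀ A B : Γ, τ A ∈ W → τ B ∈ W → A * B = B * A := fun A B hA hB =>
    comm_of_good (hgood _ hA) (hgood _ hB) (hgood _ (W.mul_mem hA hB)) rfl rfl
  have hc : ∀ A : Γ, τ A ∈ W → τ (U * A * U⁻¹) ∈ W := by
    intro A hA
    rw [map_mul, map_mul, map_inv]; exact hU _ hA
  refine ⟨by rw [map_mul, map_mul, map_inv]; exact hTW _ hY, ?_⟩
  rcases hT with hT | hT
  · have hconj : ∀ B : Γ, U * (T * B * T⁻¹) * U⁻¹ = T * (U * B * U⁻¹) * T⁻¹ := by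
      intro B
      calc U * (T * B * T⁻¹) * U⁻¹ = (U * T) * B * (U * T)⁻¹ := by group
        _ = (T * U) * B * (T * U)⁻¹ := E.conj_eq (by rw [map_mul, map_mul, hT]) B
        _ = _ := by group
    rw [hconj, hconj]
    calc T * Y * T⁻¹ * (T * (U * Y * U⁻¹) * T⁻¹) * (T * (U * (U * Y * U⁻¹) * U⁻¹) * T⁻¹)
        = T * (Y * (U * Y * U⁻¹) * (U * (U * Y * U⁻¹) * U⁻¹)) * T⁻¹ := by group
      _ = 1 := by rw [nY]; group
  · have hconj : ∀ B : Γ, U * (T * B * T⁻¹) * U⁻¹ = T * (U * (U * B * U⁻¹) * U⁻¹) * T⁻¹ := by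
      intro B
      calc U * (T * B * T⁻¹) * U⁻¹ = (U * T) * B * (U * T)⁻¹ := by group
        _ = (T * U * U) * B * (T * U * U)⁻¹ :=
            E.conj_eq (by rw [map_mul, map_mul, map_mul, hT]) B
        _ = _ := by group
    have h3 : ∀ B : Γ, U * (U * (U * B * U⁻¹) * U⁻¹) * U⁻¹ = B := by
      intro B
      calc U * (U * (U * B * U⁻¹) * U⁻¹) * U⁻¹ = (U * U * U) * B * (U * U * U)⁻¹ := by group
        _ = 1 * B * 1⁻¹ := E.conj_eq (by rw [map_mul, map_mul, hu3, map_one]) B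
        _ = B := by group
    rw [hconj, hconj, h3]
    calc T * Y * T⁻¹ * (T * (U * (U * Y * U⁻¹) * U⁻¹) * T⁻¹) * (T * (U * Y * U⁻¹) * T⁻¹)
        = T * (Y * ((U * (U * Y * U⁻¹) * U⁻¹) * (U * Y * U⁻¹))) * T⁻¹ := by group
      _ = T * (Y * ((U * Y * U⁻¹) * (U * (U * Y * U⁻¹) * U⁻¹))) * T⁻¹ := by
          rw [cW _ _ (hc _ (hc _ hY)) (hc _ hY)]
      _ = T * (Y * (U * Y * U⁻¹) * (U * (U * Y * U⁻¹) * U⁻¹)) * T⁻¹ := by group
      _ = 1 := by rw [nY]; group

end compl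

/-- the counting argument -/
theorem final {Γ X : Type*} [Group Γ] [Finite Γ] [Group X] (τ : Γ →* X)
    (hc : τ.ker ≤ Subgroup.center Γ) (hs : τ.ker ≤ commutator Γ) {p : ℕ} (hp : p.Prime)
    (hcard : Nat.card τ.ker = p) (K0 : Subgroup Γ) (Q : Subgroup X) (hQ : Q ≤ K0.map τ)
    (hle : Nat.card K0 ≤ Nat.card Q) (hidx : ¬ p ∣ Q.relIndex τ.range) : False := by
  have hfin : Finite ↥(K0.map τ) := ((Set.toFinite (K0 : Set Γ)).image τ).to_subtype
  have h1 : Nat.card Q ≤ Nat.card ↥(K0.map τ) := Subgroup.card_le_of_le hQ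
  have hbij := (τ.subgroupMap_surjective K0).bijective_of_nat_card_le (hle.trans h1)
  refine comm_le τ hc hs hp hcard Q hidx (K0 : Set Γ) (by rwa [Subgroup.closure_eq]) K0 ?_ ?_ ?_
  · intro s hs d hd
    exact ⟨K0.mul_mem (K0.mul_mem hs hd) (K0.inv_mem hs), K0.mul_mem (K0.mul_mem (K0.inv_mem hs) hd) hs⟩
  · intro s hs t ht
    rw [commutatorElement_def]
    exact K0.mul_mem (K0.mul_mem (K0.mul_mem hs ht) (K0.inv_mem hs)) (K0.inv_mem ht)
  · intro d hd h
    have : τ.subgroupMap K0 ⟨d, hd⟩ = τ.subgroupMap K0 1 := by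
      apply Subtype.ext
      rw [map_one]
      exact h
    exact congrArg Subtype.val (hbij.1 this)

/-- splitting over a 2-subgroup `W : D₈` -/
theorem split_D8 {Γ X : Type*} [Group Γ] [Finite Γ] [Group X] {τ : Γ →* X} {a : Γ} (E : Ext2 τ a)
    (hc : τ.ker ≤ Subgroup.center Γ) (hs : τ.ker ≤ commutator Γ) (hcard : Nat.card τ.ker = 2)
    (W : Subgroup X) (hWr : W ≤ τ.range) (hgood : ∀ w ∈ W, Good τ w)
    (u s s' : X) (hu : u ∈ τ.range) (hsr : s ∈ τ.range) (hs'r : s' ∈ τ.range)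
    (hu3 : u * u * u = 1) (huW : ∀ w ∈ W, u * w * u⁻¹ ∈ W)
    (nrm : ∀ w ∈ W, w * (u * w * u⁻¹) * (u * (u * w * u⁻¹) * u⁻¹) = 1)
    (sW : ∀ w ∈ W, s * w * s⁻¹ ∈ W) (s'W : ∀ w ∈ W, s' * w * s'⁻¹ ∈ W)
    (su : u * s = s * u ∨ u * s = s * u * u) (s'u : u * s' = s' * u ∨ u * s' = s' * u * u)
    (gs : Good τ s) (gs' : Good τ s') (gz : Good τ (s * s' * (s * s')))
    (Q : Subgroup X) (hQ : Q ≤ W ⊔ Subgroup.zpowers s ⊔ Subgroup.zpowers s')
    (hQc : 8 * Nat.card W ≤ Nat.card Q) (hidx : ¬ 2 ∣ Q.relIndex τ.range) : False := by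
  obtain ⟨U, rfl⟩ := hu
  obtain ⟨S, rfl⟩ := hsr
  obtain ⟨S', rfl⟩ := hs'r
  set B := W0 W hgood U huW with hB
  have nS : Nz S B := W0_conj E hu3 sW su
  have nS' : Nz S' B := W0_conj E hu3 s'W s'u
  have hS : S * S = 1 := gs S rfl
  have hS' : S' * S' = 1 := gs' S' rfl
  have hZ : S * S' * (S * S') * (S * S' * (S * S')) = 1 := gz _ (by simp only [map_mul])
  have k1 := card_D8_le B S S' hS hS' hZ nS nS'
  have k2 : Nat.card B ≤ Nat.card W := W0_card_le E hWr
  refine final τ hc hs Nat.prime_two hcard _ Q (hQ.trans ?_) (le_trans k1 (by omega)) hidx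
  refine sup_le (sup_le ?_ ?_) ?_
  · refine (W0_surj (hgood := hgood) (hU := huW) E hWr nrm).trans (Subgroup.map_mono ?_)
    exact le_sup_left.trans (le_sup_left.trans le_sup_left)
  · rw [Subgroup.zpowers_le]
    exact ⟨S, Subgroup.mem_sup_left (Subgroup.mem_sup_right (Subgroup.mem_zpowers S)), rfl⟩
  · rw [Subgroup.zpowers_le]
    exact ⟨S', Subgroup.mem_sup_right (Subgroup.mem_zpowers S'), rfl⟩

/-- splitting over a 2-subgroup `W : (D₈ × 2)` -/
theorem split_D8x2 {Γ X : Type*} [Group Γ] [Finite Γ] [Group X] {τ : Γ →* X} {a : Γ}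
    (E : Ext2 τ a)
    (hc : τ.ker ≤ Subgroup.center Γ) (hs : τ.ker ≤ commutator Γ) (hcard : Nat.card τ.ker = 2)
    (W : Subgroup X) (hWr : W ≤ τ.range) (hgood : ∀ w ∈ W, Good τ w)
    (u s s' v : X) (hu : u ∈ τ.range) (hsr : s ∈ τ.range) (hs'r : s' ∈ τ.range)
    (hvr : v ∈ τ.range)
    (hu3 : u * u * u = 1) (huW : ∀ w ∈ W, u * w * u⁻¹ ∈ W)
    (nrm : ∀ w ∈ W, w * (u * w * u⁻¹) * (u * (u * w * u⁻¹) * u⁻¹) = 1)
    (sW : ∀ w ∈ W, s * w * s⁻¹ ∈ W) (s'W : ∀ w ∈ W, s' * w * s'⁻¹ ∈ W)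
    (vW : ∀ w ∈ W, v * w * v⁻¹ ∈ W)
    (su : u * s = s * u ∨ u * s = s * u * u) (s'u : u * s' = s' * u ∨ u * s' = s' * u * u)
    (vu : u * v = v * u ∨ u * v = v * u * u)
    (gs : Good τ s) (gs' : Good τ s') (gz : Good τ (s * s' * (s * s'))) (gv : Good τ v)
    (gvs : Good τ (v * s)) (gvs' : Good τ (v * s'))
    (Q : Subgroup X)
    (hQ : Q ≤ W ⊔ Subgroup.zpowers s ⊔ Subgroup.zpowers s' ⊔ Subgroup.zpowers v)
    (hQc : 16 * Nat.card W ≤ Nat.card Q) (hidx : ¬ 2 ∣ Q.relIndex τ.range) : False := by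
  obtain ⟨U, rfl⟩ := hu
  obtain ⟨S, rfl⟩ := hsr
  obtain ⟨S', rfl⟩ := hs'r
  obtain ⟨V, rfl⟩ := hvr
  set B := W0 W hgood U huW with hB
  have nS : Nz S B := W0_conj E hu3 sW su
  have nS' : Nz S' B := W0_conj E hu3 s'W s'u
  have nV : Nz V B := W0_conj E hu3 vW vu
  have hS : S * S = 1 := gs S rfl
  have hS' : S' * S' = 1 := gs' S' rfl
  have hZ : S * S' * (S * S') * (S * S' * (S * S')) = 1 := gz _ (by simp only [map_mul])
  have hV : V * V = 1 := gv V rfl
  have hVS : V * S = S * V := comm_of_good gv gs gvs rfl rfl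
  have hVS' : V * S' = S' * V := comm_of_good gv gs' gvs' rfl rfl
  have k1 := card_D8x2_le B S S' V hS hS' hZ nS nS' hV nV hVS hVS'
  have k2 : Nat.card B ≤ Nat.card W := W0_card_le E hWr
  refine final τ hc hs Nat.prime_two hcard _ Q (hQ.trans ?_) (le_trans k1 (by omega)) hidx
  refine sup_le (sup_le (sup_le ?_ ?_) ?_) ?_
  · refine (W0_surj (hgood := hgood) (hU := huW) E hWr nrm).trans (Subgroup.map_mono ?_)
    exact le_sup_left.trans (le_sup_left.trans (le_sup_left.trans le_sup_left))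
  · rw [Subgroup.zpowers_le]
    exact ⟨S, Subgroup.mem_sup_left (Subgroup.mem_sup_left
      (Subgroup.mem_sup_right (Subgroup.mem_zpowers S))), rfl⟩
  · rw [Subgroup.zpowers_le]
    exact ⟨S', Subgroup.mem_sup_left (Subgroup.mem_sup_right (Subgroup.mem_zpowers S')), rfl⟩
  · rw [Subgroup.zpowers_le]
    exact ⟨V, Subgroup.mem_sup_right (Subgroup.mem_zpowers V), rfl⟩

/-! ### odd primes -/

section odd

variable {Γ X : Type*} [Group Γ] [Finite Γ] [Group X] (τ : Γ →* X)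

/-- a cyclic Sylow subgroup -/
theorem cyclic_case (hc : τ.ker ≤ Subgroup.center Γ) (hs : τ.ker ≤ commutator Γ) {p : ℕ}
    (hp : p.Prime) (hcard : Nat.card τ.ker = p) (h2 : ¬ p ^ 2 ∣ Nat.card τ.range) : False := by
  have hfp : Fact p.Prime := ⟨hp⟩
  have hfr : Finite τ.range := (Set.finite_range τ).to_subtype
  obtain ⟨P⟩ : Nonempty (Sylow p τ.range) := inferInstance
  have hcy : IsCyclic (P : Subgroup τ.range) := by
    obtain ⟨n, hn⟩ := IsPGroup.iff_card.1 P.2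
    have hdvd : p ^ n ∣ Nat.card τ.range := hn ▸ Subgroup.card_subgroup_dvd_card _
    have hn1 : n ≤ 1 := by
      by_contra hlt
      exact h2 ((pow_dvd_pow p (by omega)).trans hdvd)
    interval_cases n
    · rw [pow_zero] at hn
      have := (Nat.card_eq_one_iff_unique.1 hn).1
      infer_instance
    · rw [pow_one] at hn
      exact isCyclic_of_prime_card hn
  obtain ⟨⟨⟨x, hxr⟩, hxP⟩, hgen⟩ := hcy.exists_generator
  obtain ⟨A, rfl⟩ := hxr
  refine comm_le τ hc hs hp hcard ((P : Subgroup τ.range).map τ.range.subtype) ?_ {A} ?_ ⊥ ?_ ?_ ?_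
  · rw [Subgroup.relIndex, Subgroup.subgroupOf,
      Subgroup.comap_map_eq_self_of_injective (Subgroup.subtype_injective _)]
    exact P.not_dvd_index
  · rintro _ ⟨y, hy, rfl⟩
    obtain ⟨k, hk⟩ := Subgroup.mem_zpowers_iff.1 (hgen ⟨y, hy⟩)
    refine ⟨A ^ k, Subgroup.zpow_mem _ (Subgroup.subset_closure (Set.mem_singleton A)) k, ?_⟩
    have h1 := congrArg (fun z : (P : Subgroup τ.range) => ((z : τ.range) : X)) hk
    simp only [Subgroup.coe_zpow] at h1
    rw [map_zpow]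
    exact h1
  · intro s _ d hd
    rw [Subgroup.mem_bot] at hd
    subst hd
    simp
  · intro s hs t ht
    rw [Set.mem_singleton_iff] at hs ht
    subst hs; subst ht
    simp
  · intro d hd _
    exact hd

/-- commuting lifts -/
theorem abelian_case (hc : τ.ker ≤ Subgroup.center Γ) (hs : τ.ker ≤ commutator Γ) {p : ℕ}
    (hp : p.Prime) (hcard : Nat.card τ.ker = p) (S : Set Γ)
    (hS : ∀ s ∈ S, ∀ t ∈ S, s * t = t * s) (U : Subgroup X)
    (hU : U ≤ (Subgroup.closure S).map τ) (hidx : ¬ p ∣ U.relIndex τ.range) : False := by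
  refine comm_le τ hc hs hp hcard U hidx S hU ⊥ ?_ ?_ ?_
  · intro s _ d hd
    rw [Subgroup.mem_bot] at hd
    subst hd
    simp
  · intro s hs t ht
    rw [Subgroup.mem_bot, commutatorElement_eq_one_iff_mul_comm]
    exact hS s hs t ht
  · intro d hd _
    exact hd

variable {τ}

omit [Finite Γ] in
theorem ker_eq_one_of_sq {p : ℕ} (hcard : Nat.card τ.ker = p) (hp2 : ¬ 2 ∣ p) {c : Γ}
    (hc : τ c = 1) (h2 : c * c = 1) : c = 1 := by
  have h1 : orderOf c ∣ p := by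
    have hc' : c ∈ τ.ker := hc
    have : orderOf (⟨c, hc'⟩ : τ.ker) ∣ p := hcard ▸ orderOf_dvd_natCard _
    rwa [Subgroup.orderOf_mk] at this
  have h3 : orderOf c ∣ 2 := orderOf_dvd_of_pow_eq_one (by rw [pow_two, h2])
  rcases (Nat.dvd_prime Nat.prime_two).1 h3 with h | h
  · exact orderOf_eq_one_iff.1 h
  · exact absurd (h ▸ h1) hp2

omit [Finite Γ] in
theorem comm_lift_eq (hc : τ.ker ≤ Subgroup.center Γ) {A A' B B' : Γ} (hA : τ A = τ A')
    (hB : τ B = τ B') : ⁅A, B⁆ = ⁅A', B'⁆ := by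
  have z1 : A'⁻¹ * A ∈ Subgroup.center Γ := hc (by rw [MonoidHom.mem_ker]; simp [hA])
  have z2 : B'⁻¹ * B ∈ Subgroup.center Γ := hc (by rw [MonoidHom.mem_ker]; simp [hB])
  have := commutatorElement_mul_center A' B' _ _ z1 z2
  rwa [mul_inv_cancel_left, mul_inv_cancel_left] at this

omit [Finite Γ] in
theorem conj_ker (hc : τ.ker ≤ Subgroup.center Γ) {k : Γ} (hk : τ k = 1) (g : Γ) :
    g * k * g⁻¹ = k := by
  rw [Subgroup.mem_center_iff.1 (hc hk) g, mul_inv_cancel_right]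

/-- a Sylow subgroup of rank two with an element exchanging the two generators -/
theorem swap_case (hc : τ.ker ≤ Subgroup.center Γ) (hs : τ.ker ≤ commutator Γ) {p : ℕ}
    (hp : p.Prime) (hcard : Nat.card τ.ker = p) (hp2 : ¬ 2 ∣ p) (x y n : X) (hx : x ∈ τ.range)
    (hy : y ∈ τ.range) (hn : n ∈ τ.range) (hxy : x * y = y * x) (h1 : n * x = y * n)
    (h2 : n * y = x * n)
    (hidx : ¬ p ∣ (Subgroup.zpowers x ⊔ Subgroup.zpowers y).relIndex τ.range) : False := by
  obtain ⟨A, rfl⟩ := hx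
  obtain ⟨B, rfl⟩ := hy
  obtain ⟨N, rfl⟩ := hn
  have hk : τ ⁅A, B⁆ = 1 := by
    rw [map_commutatorElement, commutatorElement_eq_one_iff_mul_comm]; exact hxy
  have e1 : ⁅A, B⁆ = ⁅B, A⁆ := by
    calc ⁅A, B⁆ = N * ⁅A, B⁆ * N⁻¹ := (conj_ker hc hk N).symm
      _ = ⁅N * A * N⁻¹, N * B * N⁻¹⁆ := conjugate_commutatorElement _ _ _
      _ = ⁅B, A⁆ := comm_lift_eq hc
          (by rw [map_mul, map_mul, h1, map_inv, mul_inv_cancel_right])
          (by rw [map_mul, map_mul, h2, map_inv, mul_inv_cancel_right])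
  have e2 : ⁅A, B⁆ * ⁅A, B⁆ = 1 := by
    have e4 : ⁅A, B⁆ = ⁅A, B⁆⁻¹ := by
      conv_lhs => rw [e1]
      exact (commutatorElement_inv A B).symm
    conv_lhs => lhs; rw [e4]
    exact inv_mul_cancel _
  have e3 : ⁅A, B⁆ = 1 := ker_eq_one_of_sq hcard hp2 hk e2
  have hAB : A * B = B * A := commutatorElement_eq_one_iff_mul_comm.1 e3
  refine abelian_case τ hc hs hp hcard {A, B} ?_ _ ?_ hidx
  · intro s hs t ht
    simp only [Set.mem_insert_iff, Set.mem_singleton_iff] at hs ht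
    rcases hs with rfl | rfl <;> rcases ht with rfl | rfl
    · rfl
    · exact hAB
    · exact hAB.symm
    · rfl
  · refine sup_le ?_ ?_
    · rw [Subgroup.zpowers_le]
      exact ⟨A, Subgroup.subset_closure (by simp), rfl⟩
    · rw [Subgroup.zpowers_le]
      exact ⟨B, Subgroup.subset_closure (by simp), rfl⟩

omit [Finite Γ] in
theorem Nz_zpowers {x y : Γ} (h : x * y * x⁻¹ ∈ Subgroup.zpowers y) :
    Nz x (Subgroup.zpowers y) := by
  have hle : Subgroup.zpowers y ≤ (Subgroup.zpowers y).comap (MulAut.conj x).toMonoidHom := by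
    rw [Subgroup.zpowers_le]
    exact h
  intro k hk
  exact hle hk

theorem Nz.inv {x : Γ} {K : Subgroup Γ} (h : Nz x K) : Nz x⁻¹ K :=
  h.inv_of_pow (orderOf_pos x) (by rw [pow_orderOf_eq_one]; exact K.one_mem)

theorem Nz.both {x : Γ} {K : Subgroup Γ} (h : Nz x K) :
    ∀ d ∈ K, x * d * x⁻¹ ∈ K ∧ x⁻¹ * d * x ∈ K := by
  intro d hd
  refine ⟨h d hd, ?_⟩
  have := h.inv d hd
  rwa [inv_inv] at this

/-- an extraspecial Sylow 3-subgroup of order 27 with an element inverting both generators -/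
theorem extraspecial_case (hc : τ.ker ≤ Subgroup.center Γ) (hs : τ.ker ≤ commutator Γ)
    (hcard : Nat.card τ.ker = 3) (x y c n : X) (hx : x ∈ τ.range)
    (hy : y ∈ τ.range) (hn : n ∈ τ.range) (hxy : x * y = c * y * x) (hxc : x * c = c * x)
    (hyc : y * c = c * y) (hnc : n * c = c * n) (hnx : x * n * x = n) (hny : y * n * y = n)
    (hx3 : x * x * x = 1) (hc1 : c ≠ 1)
    (hidx : ¬ 3 ∣ (Subgroup.zpowers c ⊔ Subgroup.zpowers x ⊔ Subgroup.zpowers y).relIndex τ.range) :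
    False := by
  obtain ⟨A, rfl⟩ := hx
  obtain ⟨B, rfl⟩ := hy
  obtain ⟨N, rfl⟩ := hn
  set C := ⁅A, B⁆ with hC
  have hCc : τ C = c := by
    rw [hC, map_commutatorElement, commutatorElement_def, hxy]; group
  have hNC : τ (N * C * N⁻¹) = τ C := by
    rw [map_mul, map_mul, hCc, hnc, map_inv, mul_inv_cancel_right]
  have key : ∀ A' : Γ, τ A' * c = c * τ A' → τ A' * τ N * τ A' = τ N → A' * C = C * A' := by
    intro A' h1 h2
    have hk : τ ⁅A', C⁆ = 1 := by
      rw [map_commutatorElement, commutatorElement_eq_one_iff_mul_comm, hCc]; exact h1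
    have hNA : τ (N * A' * N⁻¹) = τ A'⁻¹ := by
      rw [map_mul, map_mul, map_inv, map_inv]
      calc τ N * τ A' * (τ N)⁻¹ = (τ A')⁻¹ * (τ A' * τ N * τ A') * (τ N)⁻¹ := by group
        _ = (τ A')⁻¹ := by rw [h2]; group
    have e1 : ⁅A', C⁆ = ⁅A', C⁆⁻¹ := by
      calc ⁅A', C⁆ = N * ⁅A', C⁆ * N⁻¹ := (conj_ker hc hk N).symm
        _ = ⁅N * A' * N⁻¹, N * C * N⁻¹⁆ := conjugate_commutatorElement _ _ _
        _ = ⁅A'⁻¹, C⁆ := comm_lift_eq hc hNA hNC
        _ = A'⁻¹ * ⁅A', C⁆⁻¹ * A'⁻¹⁻¹ := by simp only [commutatorElement_def]; group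
        _ = ⁅A', C⁆⁻¹ := conj_ker hc (by rw [map_inv, hk, inv_one]) _
    have e2 : ⁅A', C⁆ * ⁅A', C⁆ = 1 := by
      conv_lhs => lhs; rw [e1]
      exact inv_mul_cancel _
    exact commutatorElement_eq_one_iff_mul_comm.1 (ker_eq_one_of_sq hcard (by norm_num) hk e2)
  have hAC : A * C = C * A := key A hxc hnx
  have hBC : B * C = C * B := key B hyc hny
  have hAB : A * B = C * B * A := by rw [hC, commutatorElement_def]; group
  have hA3 : τ (A * A * A) = 1 := by rw [map_mul, map_mul, hx3]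
  have h3 : A * A * A * B = C * C * C * (B * (A * A * A)) := by
    calc A * A * A * B = A * A * (A * B) := by group
      _ = A * A * (C * B * A) := by rw [hAB]
      _ = A * (A * C) * B * A := by group
      _ = A * (C * A) * B * A := by rw [hAC]
      _ = (A * C) * (A * B) * A := by group
      _ = (C * A) * (C * B * A) * A := by rw [hAC, hAB]
      _ = C * (A * C) * B * A * A := by group
      _ = C * (C * A) * B * A * A := by rw [hAC]
      _ = C * C * (A * B) * A * A := by group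
      _ = C * C * (C * B * A) * A * A := by rw [hAB]
      _ = _ := by group
  have hC3 : C * C * C = 1 := by
    rw [← Subgroup.mem_center_iff.1 (hc hA3) B] at h3
    exact (mul_eq_right.1 h3.symm)
  have hC3' : C ^ 3 = 1 := by rw [pow_succ, pow_two, hC3]
  have hfp : Fact (Nat.Prime 3) := ⟨Nat.prime_three⟩
  have hoc : orderOf c = 3 := orderOf_eq_prime (by rw [← hCc, ← map_pow, hC3', map_one]) hc1
  have nA : Nz A (Subgroup.zpowers C) :=
    Nz_zpowers (by rw [hAC, mul_inv_cancel_right]; exact Subgroup.mem_zpowers C)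
  have nB : Nz B (Subgroup.zpowers C) :=
    Nz_zpowers (by rw [hBC, mul_inv_cancel_right]; exact Subgroup.mem_zpowers C)
  refine comm_le τ hc hs Nat.prime_three hcard _ hidx {A, B} ?_ (Subgroup.zpowers C) ?_ ?_ ?_
  · refine sup_le (sup_le ?_ ?_) ?_
    · rw [Subgroup.zpowers_le]
      refine ⟨C, ?_, hCc⟩
      rw [hC, commutatorElement_def]
      have mA : A ∈ Subgroup.closure ({A, B} : Set Γ) := Subgroup.subset_closure (by simp)
      have mB : B ∈ Subgroup.closure ({A, B} : Set Γ) := Subgroup.subset_closure (by simp)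
      exact Subgroup.mul_mem _ (Subgroup.mul_mem _ (Subgroup.mul_mem _ mA mB)
        (Subgroup.inv_mem _ mA)) (Subgroup.inv_mem _ mB)
    · rw [Subgroup.zpowers_le]
      exact ⟨A, Subgroup.subset_closure (by simp), rfl⟩
    · rw [Subgroup.zpowers_le]
      exact ⟨B, Subgroup.subset_closure (by simp), rfl⟩
  · intro s hs
    simp only [Set.mem_insert_iff, Set.mem_singleton_iff] at hs
    rcases hs with rfl | rfl
    · exact nA.both
    · exact nB.both
  · intro s hs t ht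
    simp only [Set.mem_insert_iff, Set.mem_singleton_iff] at hs ht
    rcases hs with rfl | rfl <;> rcases ht with rfl | rfl
    · rw [commutatorElement_self]; exact Subgroup.one_mem _
    · exact Subgroup.mem_zpowers C
    · rw [← commutatorElement_inv]; exact Subgroup.inv_mem _ (Subgroup.mem_zpowers C)
    · rw [commutatorElement_self]; exact Subgroup.one_mem _
  · intro d hd h1
    obtain ⟨k, rfl⟩ := Subgroup.mem_zpowers_iff.1 hd
    rw [map_zpow, hCc, ← orderOf_dvd_iff_zpow_eq_one, hoc] at h1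
    obtain ⟨m, rfl⟩ := h1
    rw [zpow_mul]
    have : C ^ ((3 : ℕ) : ℤ) = 1 := by rw [zpow_natCast, hC3']
    rw [this, one_zpow]

end odd

theorem not_dvd_relIndex {X : Type*} [Group X] {Q G : Subgroup X} (hQG : Q ≤ G) {p a m : ℕ}
    (hQ : Nat.card Q = a) (hG : Nat.card G = a * m) (ha : 0 < a) (hm : ¬ p ∣ m) :
    ¬ p ∣ Q.relIndex G := by
  have h := Subgroup.relIndex_mul_relIndex ⊥ Q G bot_le hQG
  rw [Subgroup.relIndex_bot_left, Subgroup.relIndex_bot_left, hQ, hG] at h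
  rwa [Nat.eq_of_mul_eq_mul_left ha h]

theorem of_subgroup {X : Type u} [Group X] (G : Subgroup X) [Finite G]
    (h : ∀ p : ℕ, p.Prime → ∀ (Γ : Type u) [Group Γ] [Finite Γ] (τ : Γ →* X), τ.range = G →
      τ.ker ≤ Subgroup.center Γ → τ.ker ≤ commutator Γ → Nat.card τ.ker = p → False) :
    Cfsg.HasCyclicSchurMultiplier G 1 := by
  apply trivial_of_prime
  intro p hp Γ _ _ σ hσ hcard
  have hker : (G.subtype.comp σ).ker = σ.ker := by
    ext x; simp [MonoidHom.mem_ker]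
  refine h p hp Γ (G.subtype.comp σ) ?_ (hker ▸ hσ.2.1) (hker ▸ hσ.2.2) (hker ▸ hcard)
  rw [MonoidHom.range_comp, MonoidHom.range_eq_top.2 hσ.1, ← MonoidHom.range_eq_map,
    Subgroup.range_subtype]

/-! ### orders of small subgroups -/

section cards

variable {X : Type*} [Group X] [Finite X]

omit [Finite X] in
theorem card_zpowers_prime {x : X} {p : ℕ} (hp : p.Prime) (h : x ^ p = 1) (h1 : x ≠ 1) :
    Nat.card (Subgroup.zpowers x) = p := by
  have : Fact p.Prime := ⟨hp⟩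
  rw [Nat.card_zpowers, orderOf_eq_prime h h1]

omit [Finite X] in
theorem Nz_of_comm {x y : X} (h : x * y = y * x) : Nz x (Subgroup.zpowers y) :=
  Nz_zpowers (by rw [h, mul_inv_cancel_right]; exact Subgroup.mem_zpowers y)

theorem card_rank2 {x y : X} {p : ℕ} (hp : p.Prime) (hxy : x * y = y * x) (hx : x ^ p = 1)
    (hx1 : x ≠ 1) (hy : y ^ p = 1) (hyx : y ∉ Subgroup.zpowers x) :
    Nat.card ↥(Subgroup.zpowers x ⊔ Subgroup.zpowers y) = p * p := by
  rw [card_sup_zpowers_eq (Nz_of_comm hxy.symm) hp (by rw [hy]; exact Subgroup.one_mem _) hyx,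
    card_zpowers_prime hp hx hx1]

theorem card_extraspecial {x y c : X} (hxy : x * y = c * y * x) (hxc : x * c = c * x)
    (hyc : y * c = c * y) (hx3 : x * x * x = 1) (hy3 : y * y * y = 1) (hc3 : c * c * c = 1)
    (hc1 : c ≠ 1) (h1 : x ∉ Subgroup.zpowers c)
    (h2 : y ∉ Subgroup.zpowers c ⊔ Subgroup.zpowers x) :
    Nat.card ↥(Subgroup.zpowers c ⊔ Subgroup.zpowers x ⊔ Subgroup.zpowers y) = 27 := by
  have p3 : ∀ g : X, g * g * g = 1 → g ^ 3 = 1 := fun g hg => by rw [pow_succ, pow_two, hg]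
  have n1 : Nz y (Subgroup.zpowers c ⊔ Subgroup.zpowers x) := by
    refine (Nz_of_comm hyc).sup ?_
    have : y * x * y⁻¹ = c⁻¹ * x := by
      have h3 : y * x = c⁻¹ * (x * y) := by rw [hxy]; group
      rw [h3]; group
    rw [this]
    exact Subgroup.mul_mem _ (Subgroup.mem_sup_left (Subgroup.inv_mem _ (Subgroup.mem_zpowers c)))
      (Subgroup.mem_sup_right (Subgroup.mem_zpowers x))
  rw [card_sup_zpowers_eq n1 Nat.prime_three (by rw [p3 y hy3]; exact Subgroup.one_mem _) h2,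
    card_sup_zpowers_eq (Nz_of_comm hxc) Nat.prime_three
      (by rw [p3 x hx3]; exact Subgroup.one_mem _) h1,
    card_zpowers_prime Nat.prime_three (p3 c hc3) hc1]

end cards

/-- a semidihedral Sylow 2-subgroup -/
theorem sd16_case {Γ X : Type*} [Group Γ] [Finite Γ] [Group X] {τ : Γ →* X} {a : Γ}
    (E : Ext2 τ a) (hc : τ.ker ≤ Subgroup.center Γ) (hs : τ.ker ≤ commutator Γ)
    (hcard : Nat.card τ.ker = 2) (r s : X) (hr : r ∈ τ.range) (hsr : s ∈ τ.range)
    (h : s * r = r * r * r * s) (hs2 : s * s = 1) (hr4 : r * r * (r * r) ≠ 1)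
    (hidx : ¬ 2 ∣ (Subgroup.zpowers r ⊔ Subgroup.zpowers s).relIndex τ.range) : False := by
  obtain ⟨R, rfl⟩ := hr
  obtain ⟨S, rfl⟩ := hsr
  obtain ⟨ζ, hζd⟩ : ∃ ζ, ζ = (R * R * R)⁻¹ * (S * R * S⁻¹) := ⟨_, rfl⟩
  have hζ : τ ζ = 1 := by
    rw [hζd]
    simp only [map_mul, map_inv]
    rw [h]; group
  have hSR : S * R * S⁻¹ = R * R * R * ζ := by rw [hζd, mul_inv_cancel_left]
  have hζc : ∀ g, g * ζ = ζ * g := E.kcen hζ
  have hζ2 : ζ * ζ = 1 := E.ksq hζ
  have hSζ : S * ζ * S⁻¹ = ζ := E.kconj hζ S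
  have e1 : ∀ g k : Γ, g * ζ * (k * ζ) = g * k := by
    intro g k
    calc g * ζ * (k * ζ) = g * (ζ * k) * ζ := by group
      _ = g * (k * ζ) * ζ := by rw [hζc k]
      _ = g * k * (ζ * ζ) := by group
      _ = g * k := by rw [hζ2, mul_one]
  have hSS : S * (S * R * S⁻¹) * S⁻¹ = R := by
    calc S * (S * R * S⁻¹) * S⁻¹ = (S * S) * R * (S * S)⁻¹ := by group
      _ = 1 * R * 1⁻¹ := E.conj_eq (by rw [map_mul, hs2, map_one]) R
      _ = R := by group
  have h9 : R = R * R * R * (R * R * R) * (R * R * R) := by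
    calc R = S * (S * R * S⁻¹) * S⁻¹ := hSS.symm
      _ = S * (R * R * R * ζ) * S⁻¹ := by rw [hSR]
      _ = (S * R * S⁻¹) * (S * R * S⁻¹) * ((S * R * S⁻¹) * (S * ζ * S⁻¹)) := by group
      _ = (R * R * R * ζ) * (R * R * R * ζ) * ((R * R * R * ζ) * ζ) := by rw [hSR, hSζ]
      _ = R * R * R * (R * R * R) * (R * R * R * (ζ * ζ)) := by rw [e1, mul_assoc (R * R * R) ζ ζ]
      _ = _ := by rw [hζ2, mul_one]
  have hR8 : R * R * (R * R) * (R * R * (R * R)) = 1 := by
    have : R * 1 = R * (R * R * (R * R) * (R * R * (R * R))) := by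
      rw [mul_one]
      conv_lhs => rw [h9]
      group
    exact (mul_left_cancel this).symm
  obtain ⟨M, hM⟩ : ∃ M, M = R * R * ζ := ⟨_, rfl⟩
  have hτM : τ M = τ R * τ R := by rw [hM, map_mul, map_mul, hζ, mul_one]
  have hcomm : ⁅S, R⁆ = M := by
    rw [commutatorElement_def, hSR, hM]
    calc R * R * R * ζ * R⁻¹ = R * R * (R * ζ) * R⁻¹ := by group
      _ = R * R * (ζ * R) * R⁻¹ := by rw [hζc R]
      _ = _ := by group
  have hRM : R * M = M * R := by
    rw [hM]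
    calc R * (R * R * ζ) = R * R * (R * ζ) := by group
      _ = R * R * (ζ * R) := by rw [hζc R]
      _ = _ := by group
  have hSM : S * M * S⁻¹ = M ^ 3 := by
    have h1 : M ^ 3 = R * R * (R * R) * (R * R * ζ) := by
      rw [pow_succ, pow_two, hM, e1]
    rw [h1]
    calc S * M * S⁻¹ = (S * R * S⁻¹) * (S * R * S⁻¹) * (S * ζ * S⁻¹) := by rw [hM]; group
      _ = (R * R * R * ζ) * (R * R * R * ζ) * ζ := by rw [hSR, hSζ]
      _ = R * R * R * (R * R * R) * ζ := by rw [e1]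
      _ = _ := by group
  have hM4 : M ^ 4 = 1 := by
    have : M ^ 4 = M * M * (M * M) := by
      rw [show (4 : ℕ) = 2 + 2 from rfl, pow_add, pow_two]
    rw [this, hM, e1, hR8]
  have hfp : Fact (Nat.Prime 2) := ⟨Nat.prime_two⟩
  have hord : orderOf (τ R * τ R) = 2 ^ (1 + 1) := by
    apply orderOf_eq_prime_pow
    · rw [pow_one, pow_two]; exact hr4
    · rw [← hτM, ← map_pow]
      norm_num [hM4]
  have nR : Nz R (Subgroup.zpowers M) := Nz_of_comm hRM
  have nS : Nz S (Subgroup.zpowers M) :=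
    Nz_zpowers (by rw [hSM]; exact Subgroup.pow_mem _ (Subgroup.mem_zpowers M) 3)
  refine comm_le τ hc hs Nat.prime_two hcard _ hidx {R, S} ?_ (Subgroup.zpowers M) ?_ ?_ ?_
  · refine sup_le ?_ ?_
    · rw [Subgroup.zpowers_le]
      exact ⟨R, Subgroup.subset_closure (by simp), rfl⟩
    · rw [Subgroup.zpowers_le]
      exact ⟨S, Subgroup.subset_closure (by simp), rfl⟩
  · intro t ht
    simp only [Set.mem_insert_iff, Set.mem_singleton_iff] at ht
    rcases ht with rfl | rfl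
    · exact nR.both
    · exact nS.both
  · intro t ht t' ht'
    simp only [Set.mem_insert_iff, Set.mem_singleton_iff] at ht ht'
    rcases ht with rfl | rfl <;> rcases ht' with rfl | rfl
    · rw [commutatorElement_self]; exact Subgroup.one_mem _
    · rw [← commutatorElement_inv, hcomm]; exact Subgroup.inv_mem _ (Subgroup.mem_zpowers M)
    · rw [hcomm]; exact Subgroup.mem_zpowers M
    · rw [commutatorElement_self]; exact Subgroup.one_mem _
  · intro d hd h1
    obtain ⟨k, rfl⟩ := Subgroup.mem_zpowers_iff.1 hd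
    rw [map_zpow, hτM, ← orderOf_dvd_iff_zpow_eq_one, hord] at h1
    obtain ⟨m, rfl⟩ := h1
    rw [zpow_mul]
    have : M ^ (((2 ^ (1 + 1) : ℕ)) : ℤ) = 1 := by rw [zpow_natCast]; exact hM4
    rw [this, one_zpow]

theorem card_sd16 {X : Type*} [Group X] [Finite X] {r s : X} (h : s * r = r * r * r * s)
    (hs2 : s * s = 1) (hr4 : r * r * (r * r) ≠ 1)
    (hr8 : r * r * (r * r) * (r * r * (r * r)) = 1) :
    Nat.card ↥(Subgroup.zpowers r ⊔ Subgroup.zpowers s) = 16 := by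
  have hfp : Fact (Nat.Prime 2) := ⟨Nat.prime_two⟩
  have hord : orderOf r = 2 ^ (2 + 1) := by
    apply orderOf_eq_prime_pow
    · intro h4
      apply hr4
      rw [← h4]
      norm_num [pow_succ, mul_assoc]
    · rw [← hr8]
      norm_num [pow_succ, mul_assoc]
  have hn : Nz s (Subgroup.zpowers r) := by
    apply Nz_zpowers
    rw [h, mul_inv_cancel_right]
    exact Subgroup.mul_mem _ (Subgroup.mul_mem _ (Subgroup.mem_zpowers r) (Subgroup.mem_zpowers r))
      (Subgroup.mem_zpowers r)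
  have hnot : s ∉ Subgroup.zpowers r := by
    intro hmem
    obtain ⟨k, rfl⟩ := Subgroup.mem_zpowers_iff.1 hmem
    have h1 : r ^ k * r = r * r ^ k := ((Commute.refl r).zpow_left k).eq
    rw [h1] at h
    have h2 : r * r = 1 := by
      have h3 : r * r ^ k = r * (r * r) * r ^ k := by rw [h]; group
      have h4 := mul_right_cancel h3
      exact (mul_eq_left.1 h4.symm)
    apply hr4
    rw [h2, one_mul]
  rw [card_sup_zpowers_eq hn Nat.prime_two (by rw [pow_two, hs2]; exact Subgroup.one_mem _) hnot,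
    Nat.card_zpowers, hord]
  norm_num

theorem not_sq_dvd {p N a b m : ℕ} (hp : p.Prime) (h2 : p ≠ 2) (h3 : p ≠ 3)
    (hN : N = 2 ^ a * 3 ^ b * m) (hm : Squarefree m) : ¬ p ^ 2 ∣ N := by
  intro h
  have c2 : Nat.Coprime (p ^ 2) (2 ^ a) :=
    Nat.Coprime.pow _ _ ((Nat.coprime_primes hp Nat.prime_two).2 h2)
  have c3 : Nat.Coprime (p ^ 2) (3 ^ b) :=
    Nat.Coprime.pow _ _ ((Nat.coprime_primes hp Nat.prime_three).2 h3)
  rw [hN] at h
  have h4 : p ^ 2 ∣ m := (Nat.Coprime.mul_right c2 c3).dvd_of_dvd_mul_left h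
  rw [pow_two] at h4
  exact hp.one_lt.ne' (Nat.isUnit_iff.1 (hm p h4))

end Cfsg.Agent.Lib.Helper69Mult
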