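import Cfsg.Agent.Lib.Helper34CovA
import Cfsg.Agent.Lib.Helper69Mult

set_option autoImplicit false

/-!
# Central coset tables, part B: relations between the relator values, normalisation of the lifts for a
perfect subgroup, and the transfer argument (helper34)
-/

namespace Cfsg.Agent.Lib.Helper34CovB

open scoped IsMulCommutative
open Cfsg.Agent.Lib.Helper34CovA

section lin
variable {Γ : Type*} [Group Γ] (a : ℕ → Subgroup.center Γ)

def combC : List ℤ → List (ℤ × (ℕ → ℤ)) → ℤ
  | n :: ns, t :: ts => n * t.1 + combC ns ts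
  | _, _ => 0

def combV : List ℤ → List (ℤ × (ℕ → ℤ)) → ℕ → ℤ
  | n :: ns, t :: ts, q => n * t.2 q + combV ns ts q
  | _, _, _ => 0

theorem comb_sound (m : ℕ) (H : Γ) (L : List (ℤ × (ℕ → ℤ)))
    (h : ∀ t ∈ L, H ^ t.1 = (al a m t.2 : Γ)) (ns : List ℤ) :
    H ^ combC ns L = (al a m (combV ns L) : Γ) := by
  induction L generalizing ns with
  | nil =>
    have : al a m (combV ns []) = 1 := by
      rw [← al_zero a m]; apply al_congr; intro q _; cases ns <;> rfl
    rw [this]
    cases ns <;> simp [combC]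
  | cons t ts ih =>
    cases ns with
    | nil =>
      have : al a m (combV [] (t :: ts)) = 1 := by
        rw [← al_zero a m]; apply al_congr; intro q _; rfl
      rw [this]; simp [combC]
    | cons n ns =>
      have h1 := ih (fun t' ht' => h t' (List.mem_cons_of_mem _ ht')) ns
      have h2 := h t List.mem_cons_self
      have h3 : al a m (combV (n :: ns) (t :: ts)) = al a m t.2 ^ n * al a m (combV ns ts) := by
        rw [← al_smul, ← al_add]; rfl
      rw [h3]
      simp only [combC]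
      rw [zpow_add, mul_comm n, zpow_mul, h2, h1]
      simp

theorem al_mem (m : ℕ) (K : Subgroup (Subgroup.center Γ)) (h : ∀ k < m, a k ∈ K) (v : ℕ → ℤ) :
    al a m v ∈ K :=
  Subgroup.prod_mem _ (fun k hk => K.zpow_mem (h k (Finset.mem_range.1 hk)) _)

def e0 : List ℕ → ℤ
  | [] => 0
  | l :: ls => (if l = 0 then 1 else 0) + e0 ls

def e1 : List ℕ → ℤ
  | [] => 0
  | l :: ls => (if l = 0 then 0 else 1) + e1 ls

theorem wev_scale (x y : Γ) (zx zy : Subgroup.center Γ) (w : List ℕ) :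
    wev (x * zx) (y * zy) w = wev x y w * ((zx ^ e0 w * zy ^ e1 w : Subgroup.center Γ) : Γ) := by
  induction w with
  | nil => simp [wev, e0, e1]
  | cons l ls ih =>
    simp only [wev, ih, e0, e1, gen]
    by_cases h : l = 0
    · simp only [h, if_true]
      rw [zero_add, zpow_add, zpow_one, mul_assoc zx]
      generalize zx ^ e0 ls * zy ^ e1 ls = Z
      rw [Subgroup.coe_mul, mul_assoc x, ← mul_assoc (zx : Γ), ← cen zx (wev x y ls)]
      simp only [mul_assoc]
    · simp only [h, if_false]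
      rw [zero_add, zpow_add, zpow_one, mul_left_comm]
      generalize zx ^ e0 ls * zy ^ e1 ls = Z
      rw [Subgroup.coe_mul, mul_assoc y, ← mul_assoc (zy : Γ), ← cen zy (wev x y ls)]
      simp only [mul_assoc]

def dotr (f : ℕ → ℤ) : ℕ → ℤ
  | 0 => 0
  | m + 1 => dotr f m + f m

theorem al_scale (zx zy : Subgroup.center Γ) (E0 E1 : ℕ → ℤ) (m : ℕ) (v : ℕ → ℤ) :
    al (fun k => a k * (zx ^ E0 k * zy ^ E1 k)) m v =
      al a m v * (zx ^ dotr (fun k => v k * E0 k) m * zy ^ dotr (fun k => v k * E1 k) m) := by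
  induction m with
  | zero => simp [al, dotr]
  | succ m ih =>
    have h1 : ∀ (b : ℕ → Subgroup.center Γ), al b (m + 1) v = al b m v * b m ^ v m := by
      intro b; unfold al; rw [Finset.prod_range_succ]
    rw [h1, h1, ih]
    simp only [dotr]
    rw [zpow_add, zpow_add, mul_zpow, mul_zpow, zpow_mul' zx, zpow_mul' zy, mul_mul_mul_comm,
      mul_mul_mul_comm (zx ^ dotr (fun k => v k * E0 k) m)]

end lin

/-- the linear algebra part of the certificate -/
structure LA where
  oh : ℕ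
  th : ℤ
  u1 : ℕ → ℤ
  u2 : ℕ → ℤ
  src : List (ℕ × ℕ)
  beta : ℕ → ℤ
  t : ℕ → ℤ
  co : ℕ → List ℤ

def relsOf (C : Cert) (A : LA) : List (ℤ × (ℕ → ℤ)) :=
  (0, A.u1) :: (0, A.u2) :: A.src.map (fun p => (C.cs (C.rel p.1) p.2,
    fun q => (if q = p.1 then 1 else 0) + (-1) * C.vs (C.rel p.1) p.2 q))

def chkNorm (C : Cert) (A : LA) : Bool :=
  decide (dotr (fun k => A.u1 k * e0 (C.rel k)) C.m = 1) &&
  (decide (dotr (fun k => A.u1 k * e1 (C.rel k)) C.m = 0) &&
  (decide (dotr (fun k => A.u2 k * e0 (C.rel k)) C.m = 0) &&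
  decide (dotr (fun k => A.u2 k * e1 (C.rel k)) C.m = 1)))

def chkSrc (C : Cert) (A : LA) : Bool :=
  A.src.all (fun p => decide (p.1 < C.m) && (decide (p.2 < C.N) &&
    (C.okr C.R (C.rel p.1) p.2 && decide (C.endc (C.rel p.1) p.2 = p.2))))

def chkRows (C : Cert) (A : LA) : Bool :=
  (List.range C.m).all (fun k => decide (combC (A.co k) (relsOf C A) = 0) &&
    (List.range C.m).all (fun q => decide (combV (A.co k) (relsOf C A) q =
      (if q = k then 1 else 0) + (-1) * (A.t k * A.beta q)))) &&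
  (decide (combC (A.co C.m) (relsOf C A) = 0) &&
  ((List.range C.m).all (fun q => decide (combV (A.co C.m) (relsOf C A) q = 2 * A.beta q)) &&
  (decide (combC (A.co (C.m + 1)) (relsOf C A) = A.oh) &&
  (List.range C.m).all (fun q => decide (combV (A.co (C.m + 1)) (relsOf C A) q = A.th * A.beta q)))))

section main
variable {Γ X : Type*} [Group Γ] [Group X]

theorem mem_zpowers_two {G : Type*} [Group G] {b z : G} (hb : b * b = 1) (hz : z ∈ Subgroup.zpowers b) :
    z = 1 ∨ z = b := by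
  obtain ⟨n, rfl⟩ := Subgroup.mem_zpowers_iff.1 hz
  have h2 : b ^ (2 : ℤ) = 1 := by rw [zpow_two]; exact hb
  rcases Int.even_or_odd' n with ⟨k, rfl | rfl⟩
  · left; rw [zpow_mul, h2, one_zpow]
  · right; rw [zpow_add, zpow_mul, h2, one_zpow, one_mul, zpow_one]

/-- The main bound for a perfect two-generator subgroup. -/
theorem perfect_bound [Finite Γ] (τ : Γ →* X) (hc : τ.ker ≤ Subgroup.center Γ) (C : Cert) (A : LA)
    (ux uy : X) (hx : ux ∈ τ.range) (hy : uy ∈ τ.range)
    (hrelX : ∀ k < C.m, wev ux uy (C.rel k) = 1)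
    (hchk : C.chkAll = true) (hN : 0 < C.N)
    (hG : ∀ (c : ℤ) (j : ℕ), j < C.N → wev ux uy C.hw ^ c * wrep C ux uy j = 1 →
      j = 0 ∧ (A.oh : ℤ) ∣ c)
    (h1 : chkNorm C A = true) (h2 : chkSrc C A = true) (h3 : chkRows C A = true) :
    ∃ x y b : Γ, τ x = ux ∧ τ y = uy ∧ b * b = 1 ∧
      ∀ g ∈ Subgroup.closure ({x, y} : Set Γ), τ g = 1 → g = 1 ∨ g = b := by
  obtain ⟨x0, rfl⟩ := hx
  obtain ⟨y0, rfl⟩ := hy
  have hcen : ∀ k, k < C.m → wev x0 y0 (C.rel k) ∈ Subgroup.center Γ := by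
    intro k hk
    apply hc
    rw [MonoidHom.mem_ker, map_wev, hrelX k hk]
  let a0 : ℕ → Subgroup.center Γ := fun k =>
    if h : k < C.m then ⟨wev x0 y0 (C.rel k), hcen k h⟩ else 1
  have ha0 : ∀ k < C.m, wev x0 y0 (C.rel k) = (a0 k : Γ) := by
    intro k hk; simp only [a0, hk, dif_pos]
  let zx : Subgroup.center Γ := (al a0 C.m A.u1)⁻¹
  let zy : Subgroup.center Γ := (al a0 C.m A.u2)⁻¹
  let a : ℕ → Subgroup.center Γ := fun k => a0 k * (zx ^ e0 (C.rel k) * zy ^ e1 (C.rel k))
  have hker : ∀ z : Subgroup.center Γ, (∃ v, z = al a0 C.m v) → τ (z : Γ) = 1 := by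
    rintro z ⟨v, rfl⟩
    have : al a0 C.m v ∈ (τ.comp (Subgroup.center Γ).subtype).ker := by
      apply al_mem
      intro k hk
      rw [MonoidHom.mem_ker, MonoidHom.comp_apply, Subgroup.subtype_apply, ← ha0 k hk,
        map_wev, hrelX k hk]
    exact this
  have hzx : τ (zx : Γ) = 1 := by
    simp only [zx, Subgroup.coe_inv, map_inv, hker _ ⟨_, rfl⟩, inv_one]
  have hzy : τ (zy : Γ) = 1 := by
    simp only [zy, Subgroup.coe_inv, map_inv, hker _ ⟨_, rfl⟩, inv_one]
  set x : Γ := x0 * zx with hxd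
  set y : Γ := y0 * zy with hyd
  have hτx : τ x = τ x0 := by rw [hxd, map_mul, hzx, mul_one]
  have hτy : τ y = τ y0 := by rw [hyd, map_mul, hzy, mul_one]
  have hrel : ∀ k < C.m, wev x y (C.rel k) = (a k : Γ) := by
    intro k hk
    rw [hxd, hyd, wev_scale, ha0 k hk]
    rfl
  simp only [chkNorm, Bool.and_eq_true, decide_eq_true_eq] at h1
  obtain ⟨n1, n2, n3, n4⟩ := h1
  have hu1 : al a C.m A.u1 = 1 := by
    rw [al_scale, n1, n2]; simp [zx]
  have hu2 : al a C.m A.u2 = 1 := by
    rw [al_scale, n3, n4]; simp [zy]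
  set H : Γ := wev x y C.hw with hH
  have hR : ∀ t ∈ relsOf C A, H ^ t.1 = (al a C.m t.2 : Γ) := by
    intro t ht
    simp only [relsOf, List.mem_cons, List.mem_map] at ht
    rcases ht with rfl | rfl | ⟨p, hp, rfl⟩
    · simp [hu1]
    · simp [hu2]
    · have h4 := List.all_eq_true.1 h2 p hp
      simp only [Bool.and_eq_true, decide_eq_true_eq] at h4
      exact closing C x y a hrel hchk p.1 p.2 h4.1 h4.2.1 h4.2.2.1 h4.2.2.2
  simp only [chkRows, Bool.and_eq_true, decide_eq_true_eq] at h3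
  obtain ⟨r1, r2, r3, r4, r5⟩ := h3
  set b : Subgroup.center Γ := al a C.m A.beta with hb
  have hbb : b * b = 1 := by
    have h5 := comb_sound a C.m H _ hR (A.co C.m)
    rw [r2, zpow_zero] at h5
    have h6 : al a C.m (combV (A.co C.m) (relsOf C A)) = b ^ (2 : ℤ) := by
      rw [hb, ← al_smul]
      apply al_congr
      intro q hq
      exact of_decide_eq_true (all_of_range r3 q hq)
    rw [h6] at h5
    rw [← zpow_two]
    exact Subtype.ext h5.symm
  have hak : ∀ k < C.m, a k = b ^ A.t k := by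
    intro k hk
    have h4 := all_of_range r1 k hk
    simp only [Bool.and_eq_true, decide_eq_true_eq] at h4
    have h5 := comb_sound a C.m H _ hR (A.co k)
    rw [h4.1, zpow_zero] at h5
    have h6 : al a C.m (combV (A.co k) (relsOf C A)) = a k * ((b ^ A.t k) ^ (-1 : ℤ)) := by
      rw [hb, ← al_smul, ← al_smul, ← al_single a C.m k hk, ← al_add]
      apply al_congr
      intro q hq
      exact of_decide_eq_true (all_of_range h4.2 q hq)
    rw [h6] at h5
    have h7 : a k * ((b ^ A.t k) ^ (-1 : ℤ)) = 1 := Subtype.ext h5.symm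
    rw [zpow_neg_one, mul_inv_eq_one] at h7
    exact h7
  have hal : ∀ v, al a C.m v ∈ Subgroup.zpowers b := by
    intro v
    unfold al
    apply Subgroup.prod_mem
    intro k hk
    rw [hak k (Finset.mem_range.1 hk)]
    exact Subgroup.zpow_mem _ (Subgroup.zpow_mem _ (Subgroup.mem_zpowers b) _) _
  have hHo : ∃ z ∈ Subgroup.zpowers b, H ^ (A.oh : ℤ) = (z : Γ) := by
    have h5 := comb_sound a C.m H _ hR (A.co (C.m + 1))
    rw [r4] at h5
    exact ⟨_, hal _, h5⟩
  refine ⟨x, y, (b : Γ), hτx, hτy, ?_, ?_⟩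
  · rw [← Subgroup.coe_mul, hbb]; rfl
  · intro g hg hg1
    obtain ⟨c, j, v, hj, rfl⟩ := cover C x y a hrel hchk hN g hg
    have hv : τ (al a C.m v : Γ) = 1 := by
      have : al a C.m v ∈ (τ.comp (Subgroup.center Γ).subtype).ker := by
        apply al_mem
        intro k hk
        rw [MonoidHom.mem_ker, MonoidHom.comp_apply, Subgroup.subtype_apply, ← hrel k hk,
          map_wev, hτx, hτy, hrelX k hk]
      exact this
    rw [map_mul, hv, mul_one, map_mul, map_zpow, map_wev, map_wrep, hτx, hτy] at hg1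
    obtain ⟨rfl, n, rfl⟩ := hG c j hj hg1
    obtain ⟨z, hz, hz2⟩ := hHo
    rw [wrep_zero, mul_one, zpow_mul, ← hH, hz2, ← Subgroup.coe_zpow, ← Subgroup.coe_mul]
    have h8 : z ^ n * al a C.m v ∈ Subgroup.zpowers b :=
      Subgroup.mul_mem _ (Subgroup.zpow_mem _ hz _) (hal v)
    rcases mem_zpowers_two hbb h8 with h9 | h9
    · left; rw [h9]; rfl
    · right; rw [h9]

/-- transfer into a subgroup: `k ^ index` lies in the group generated by any lifts of generators -/
theorem pow_index_mem_closure [Finite Γ] (τ : Γ →* X) (hc : τ.ker ≤ Subgroup.center Γ)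
    (hs : τ.ker ≤ commutator Γ) (S : Set Γ) (k : Γ) (hk : k ∈ τ.ker) :
    k ^ ((Subgroup.closure (τ '' S)).comap τ).index ∈ ⁅Subgroup.closure S, Subgroup.closure S⁆ := by
  set H := (Subgroup.closure (τ '' S)).comap τ with hH
  obtain ⟨h1, h2⟩ := Cfsg.Agent.Lib.Helper69Mult.pow_index_mem' H k (hc hk) (hs hk)
  have hle : ⁅H, H⁆ ≤ ⁅Subgroup.closure S, Subgroup.closure S⁆ := by
    rw [Subgroup.commutator_le]
    intro g1 hg1 g2 hg2
    have hm : Subgroup.closure (τ '' S) = (Subgroup.closure S).map τ := (MonoidHom.map_closure τ S).symm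
    rw [hH, Subgroup.mem_comap, hm] at hg1 hg2
    obtain ⟨k1, hk1, e1⟩ := hg1
    obtain ⟨k2, hk2, e2⟩ := hg2
    have z1 : k1⁻¹ * g1 ∈ Subgroup.center Γ := hc (by rw [MonoidHom.mem_ker]; simp [e1])
    have z2 : k2⁻¹ * g2 ∈ Subgroup.center Γ := hc (by rw [MonoidHom.mem_ker]; simp [e2])
    have := Cfsg.Agent.Lib.Helper69Schur.commutatorElement_mul_center k1 k2 _ _ z1 z2
    rw [mul_inv_cancel_left, mul_inv_cancel_left] at this
    rw [this]
    exact Subgroup.commutator_mem_commutator hk1 hk2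
  have h3 : k ^ H.index ∈ ⁅H, H⁆ := by
    have : (commutator H).map H.subtype = ⁅H, H⁆ := by
      rw [commutator_def, Subgroup.map_commutator, ← MonoidHom.range_eq_map, Subgroup.range_subtype]
    rw [← this]
    exact ⟨_, h2, rfl⟩
  exact hle h3

end main

end Cfsg.Agent.Lib.Helper34CovB
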