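import Cfsg.Agent.Lib.Helper34CovB
import Cfsg.Agent.Lib.Helper34J2Perm

set_option autoImplicit false

/-!
# Central coset tables, part C: computing in `P315` (helper34)
-/

namespace Cfsg.Agent.Lib.Helper34CovC

open Cfsg.Agent.Lib.Helper34CovA Cfsg.Agent.Lib.Helper34CovB Cfsg.Agent.Lib.Helper34J2Perm

section generic
variable {X : Type*} [Group X]

theorem wev_mem (x y : X) (w : List ℕ) : wev x y w ∈ Subgroup.closure ({x, y} : Set X) := by
  induction w with
  | nil => exact Subgroup.one_mem _
  | cons l ls ih =>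
    refine Subgroup.mul_mem _ ?_ ih
    unfold gen
    split_ifs
    · exact Subgroup.subset_closure (by simp)
    · exact Subgroup.subset_closure (by simp)

theorem wrep_mem (C : Cert) (x y : X) (j : ℕ) : wrep C x y j ∈ Subgroup.closure ({x, y} : Set X) := by
  induction j using Nat.strong_induction_on with
  | _ j ih =>
    by_cases h : C.par j < j
    · rw [wrep_succ C x y h]
      refine Subgroup.mul_mem _ (ih _ h) ?_
      have := wev_mem x y [C.pg j]
      simpa [wev] using this
    · rw [wrep_of_not C x y h]; exact Subgroup.one_mem _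

theorem wev_pow (x y : X) (w : List ℕ) (n : ℕ) :
    wev x y (List.replicate n w).flatten = wev x y w ^ n := by
  induction n with
  | zero => simp [wev]
  | succ n ih => rw [List.replicate_succ, List.flatten_cons, wev_append, ih, pow_succ']

/-- order of the subgroup described by a table -/
theorem card_closure [Finite X] (C : Cert) (ux uy : X) (oh : ℕ) (hoh : 0 < oh)
    (hrelX : ∀ k < C.m, wev ux uy (C.rel k) = 1) (hchk : C.chkAll = true) (hN : 0 < C.N)
    (hHo : wev ux uy C.hw ^ oh = 1)
    (hinj : ∀ c < oh, ∀ j < C.N, ∀ c' < oh, ∀ j' < C.N,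
      wev ux uy C.hw ^ c * wrep C ux uy j = wev ux uy C.hw ^ c' * wrep C ux uy j' → c = c' ∧ j = j') :
    Nat.card (Subgroup.closure ({ux, uy} : Set X)) = oh * C.N := by
  let f : Fin oh × Fin C.N → Subgroup.closure ({ux, uy} : Set X) := fun p =>
    ⟨wev ux uy C.hw ^ (p.1 : ℕ) * wrep C ux uy p.2,
      Subgroup.mul_mem _ (Subgroup.pow_mem _ (wev_mem _ _ _) _) (wrep_mem _ _ _ _)⟩
  have hf : Function.Bijective f := by
    constructor
    · rintro ⟨c, j⟩ ⟨c', j'⟩ h
      have h' := congrArg Subtype.val h
      obtain ⟨h1, h2⟩ := hinj c c.2 j j.2 c' c'.2 j' j'.2 h'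
      exact Prod.ext (Fin.ext h1) (Fin.ext h2)
    · rintro ⟨g, hg⟩
      obtain ⟨c, j, v, hj, rfl⟩ := cover C ux uy (fun _ => 1) (by simpa using hrelX) hchk hN g hg
      have hc0 : 0 ≤ c % (oh : ℤ) := Int.emod_nonneg _ (by exact_mod_cast hoh.ne')
      have hc1 : c % (oh : ℤ) < oh := Int.emod_lt_of_pos _ (by exact_mod_cast hoh)
      refine ⟨(⟨(c % (oh : ℤ)).toNat, by omega⟩, ⟨j, hj⟩), ?_⟩
      apply Subtype.ext
      have h1 : al (fun _ => (1 : Subgroup.center X)) C.m v = 1 := by simp [al]
      have h2 : wev ux uy C.hw ^ c = wev ux uy C.hw ^ (c % (oh : ℤ)).toNat := by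
        rw [← zpow_natCast, Int.toNat_of_nonneg hc0]
        conv_lhs => rw [← Int.mul_ediv_add_emod c oh]
        rw [zpow_add, zpow_mul, zpow_natCast, hHo, one_zpow, one_mul]
      simp only [f, h1, h2]
      simp
  rw [← Nat.card_congr (Equiv.ofBijective f hf), Nat.card_prod, Nat.card_fin, Nat.card_fin]

theorem hG_of_inj (C : Cert) (ux uy : X) (oh : ℕ) (hoh : 0 < oh) (hN : 0 < C.N)
    (hHo : wev ux uy C.hw ^ oh = 1)
    (hinj : ∀ c < oh, ∀ j < C.N, ∀ c' < oh, ∀ j' < C.N,
      wev ux uy C.hw ^ c * wrep C ux uy j = wev ux uy C.hw ^ c' * wrep C ux uy j' → c = c' ∧ j = j')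
    (c : ℤ) (j : ℕ) (hj : j < C.N) (h : wev ux uy C.hw ^ c * wrep C ux uy j = 1) :
    j = 0 ∧ (oh : ℤ) ∣ c := by
  have hc0 : 0 ≤ c % (oh : ℤ) := Int.emod_nonneg _ (by exact_mod_cast hoh.ne')
  have hc1 : c % (oh : ℤ) < oh := Int.emod_lt_of_pos _ (by exact_mod_cast hoh)
  have h2 : wev ux uy C.hw ^ c = wev ux uy C.hw ^ (c % (oh : ℤ)).toNat := by
    rw [← zpow_natCast, Int.toNat_of_nonneg hc0]
    conv_lhs => rw [← Int.mul_ediv_add_emod c oh]
    rw [zpow_add, zpow_mul, zpow_natCast, hHo, one_zpow, one_mul]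
  rw [h2] at h
  obtain ⟨h3, h4⟩ := hinj (c % (oh : ℤ)).toNat (by omega) j hj 0 hoh 0 hN
    (by rw [h, pow_zero, wrep_zero, one_mul])
  refine ⟨h4, ?_⟩
  apply Int.dvd_of_emod_eq_zero
  omega

end generic

/-! ### words in the four generating involutions of `P315` -/

def tsel (l : ℕ) : ℕ := if l = 0 then T0 else if l = 1 then T1 else if l = 2 then T2 else T3

def fsel (l : ℕ) : Fin 4 := if l = 0 then 0 else if l = 1 then 1 else if l = 2 then 2 else 3

theorem tsel_eq (l : ℕ) : tsel l = TT (fsel l) := by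
  unfold tsel fsel
  split_ifs <;> rfl

def sg (l : ℕ) : P315 := ⟨piGen (fsel l), Subgroup.subset_closure ⟨_, rfl⟩⟩

def sw : List ℕ → P315
  | [] => 1
  | l :: ls => sg l * sw ls

def sact : List ℕ → ℕ → ℕ
  | [], p => p
  | l :: ls, p => tb (tsel l) (sact ls p)

theorem sw_apply (w : List ℕ) (p : Fin 315) : (((sw w : P315) : Equiv.Perm (Fin 315)) p : ℕ) = sact w p := by
  induction w with
  | nil => rfl
  | cons l ls ih =>
    simp only [sw, sact, Subgroup.coe_mul, Equiv.Perm.mul_apply, sg]
    rw [piGen_apply, ih, tsel_eq]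

theorem sw_append (u v : List ℕ) : sw (u ++ v) = sw u * sw v := by
  induction u with
  | nil => simp [sw]
  | cons l ls ih => simp [sw, ih, mul_assoc]

/-- two elements given by functions on `ℕ` -/
theorem ext_P315 {g h : P315} (H : ∀ p : Fin 315, (((g : Equiv.Perm (Fin 315)) p : Fin 315) : ℕ) =
    ((h : Equiv.Perm (Fin 315)) p : Fin 315)) : g = h :=
  Subtype.ext (Equiv.ext fun p => Fin.ext (H p))

def expand (wx wy : List ℕ) : List ℕ → List ℕ
  | [] => []
  | l :: ls => (if l = 0 then wx else wy) ++ expand wx wy ls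

theorem wev_sw (wx wy : List ℕ) (w : List ℕ) : wev (sw wx) (sw wy) w = sw (expand wx wy w) := by
  induction w with
  | nil => rfl
  | cons l ls ih =>
    simp only [wev, expand, sw_append, ih, gen]
    split_ifs <;> rfl

/-- Boolean test that an `s`-word is trivial -/
def triv (w : List ℕ) : Bool := (List.range 315).all fun p => sact w p == p

theorem sw_eq_one {w : List ℕ} (h : triv w = true) : sw w = 1 := by
  apply ext_P315
  intro p
  rw [sw_apply]
  have := all_of_range h p p.2
  simpa using this

/-- Boolean test that two `s`-words agree -/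
def same (u v : List ℕ) : Bool := (List.range 315).all fun p => sact u p == sact v p

theorem sw_eq_sw {u v : List ℕ} (h : same u v = true) : sw u = sw v := by
  apply ext_P315
  intro p
  rw [sw_apply, sw_apply]
  have := all_of_range h p p.2
  simpa using this

/-- action of a coset representative -/
def ract (C : Cert) (wx wy : List ℕ) : ℕ → ℕ → ℕ → ℕ
  | 0, _, p => p
  | f + 1, j, p => if C.par j < j then
      ract C wx wy f (C.par j) (sact (if C.pg j = 0 then wx else wy) p) else p

theorem ract_eq (C : Cert) (wx wy : List ℕ) (f j : ℕ) (hj : j ≤ f) (p : Fin 315) :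
    (((wrep C (sw wx) (sw wy) j : P315) : Equiv.Perm (Fin 315)) p : ℕ) = ract C wx wy f j p := by
  induction f generalizing j p with
  | zero =>
    obtain rfl : j = 0 := Nat.le_zero.1 hj
    rw [wrep_zero]; rfl
  | succ f ih =>
    simp only [ract]
    by_cases h : C.par j < j
    · rw [wrep_succ C _ _ h, if_pos h, Subgroup.coe_mul, Equiv.Perm.mul_apply, ih _ (by omega)]
      congr 1
      unfold gen
      split_ifs <;> exact sw_apply _ _
    · rw [wrep_of_not C _ _ h, if_neg h]; rfl

def iter (f : ℕ → ℕ) : ℕ → ℕ → ℕ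
  | 0, p => p
  | n + 1, p => f (iter f n p)

theorem pow_apply (w : List ℕ) (n : ℕ) (p : Fin 315) :
    ((((sw w) ^ n : P315) : Equiv.Perm (Fin 315)) p : ℕ) = iter (sact w) n p := by
  induction n with
  | zero => rfl
  | succ n ih =>
    rw [pow_succ', Subgroup.coe_mul, Equiv.Perm.mul_apply, sw_apply, ih]; rfl

/-- key of the element `H ^ c * wrep j` -/
def key (C : Cert) (wx wy : List ℕ) (base : List ℕ) (t : ℕ) : List ℕ :=
  base.map fun b => iter (sact (expand wx wy C.hw)) (t / C.N) (ract C wx wy C.N (t % C.N) b)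

def code : List ℕ → ℕ
  | [] => 0
  | a :: l => a + 512 * code l

def incr : List ℕ → Bool
  | a :: b :: l => decide (a < b) && incr (b :: l)
  | _ => true

theorem incr_lt : ∀ (l : List ℕ) (a : ℕ), incr (a :: l) = true → ∀ x ∈ l, a < x := by
  intro l
  induction l with
  | nil => intro a _ x hx; cases hx
  | cons b l ih =>
    intro a h x hx
    simp only [incr, Bool.and_eq_true, decide_eq_true_eq] at h
    rcases List.mem_cons.1 hx with rfl | hx
    · exact h.1
    · exact lt_trans h.1 (ih b h.2 x hx)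

theorem incr_nodup : ∀ l : List ℕ, incr l = true → l.Nodup := by
  intro l
  induction l with
  | nil => intro _; exact List.nodup_nil
  | cons a l ih =>
    intro h
    rw [List.nodup_cons]
    constructor
    · intro ha
      exact lt_irrefl _ (incr_lt l a h a ha)
    · apply ih
      cases l with
      | nil => rfl
      | cons b l =>
        simp only [incr, Bool.and_eq_true] at h
        exact h.2

theorem inj_of_keys (C : Cert) (wx wy : List ℕ) (base : List ℕ) (oh : ℕ) (ord : List ℕ)
    (hb : base.all (fun b => decide (b < 315)) = true)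
    (hord : (ord.all (fun t => decide (t < oh * C.N)) && ord.length == oh * C.N) = true)
    (hk' : incr (ord.map fun t => code (key C wx wy base t)) = true) :
    ∀ c < oh, ∀ j < C.N, ∀ c' < oh, ∀ j' < C.N,
      wev (sw wx) (sw wy) C.hw ^ c * wrep C (sw wx) (sw wy) j =
        wev (sw wx) (sw wy) C.hw ^ c' * wrep C (sw wx) (sw wy) j' → c = c' ∧ j = j' := by
  have hk := incr_nodup _ hk'
  have hmem : ∀ t < oh * C.N, t ∈ ord := by
    intro t ht
    rw [Bool.and_eq_true] at hord
    have hnd : ord.Nodup := List.Nodup.of_map _ hk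
    have hsub : ord.toFinset ⊆ Finset.range (oh * C.N) := by
      intro x hx
      rw [List.mem_toFinset] at hx
      exact Finset.mem_range.2 (of_decide_eq_true (List.all_eq_true.1 hord.1 x hx))
    have hcard : (Finset.range (oh * C.N)).card ≤ ord.toFinset.card := by
      rw [List.toFinset_card_of_nodup hnd, Finset.card_range]
      have h5 : ord.length = oh * C.N := by simpa using hord.2
      exact le_of_eq h5.symm
    have heq := Finset.eq_of_subset_of_card_le hsub hcard
    have : t ∈ ord.toFinset := by rw [heq]; exact Finset.mem_range.2 ht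
    exact List.mem_toFinset.1 this
  intro c hc j hj c' hc' j' hj' h
  have hlt : ∀ c < oh, ∀ j < C.N, c * C.N + j < oh * C.N := by
    intro c hc j hj
    calc c * C.N + j < c * C.N + C.N := by omega
      _ = (c + 1) * C.N := by ring
      _ ≤ oh * C.N := Nat.mul_le_mul_right _ hc
  have hkey : ∀ c j, j < C.N → key C wx wy base (c * C.N + j) = base.map fun b =>
      iter (sact (expand wx wy C.hw)) c (ract C wx wy C.N j b) := by
    intro c j hj
    have hN : 0 < C.N := lt_of_le_of_lt (Nat.zero_le _) hj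
    unfold key
    rw [show (c * C.N + j) / C.N = c by
      rw [Nat.add_comm, Nat.add_mul_div_right _ _ hN, Nat.div_eq_of_lt hj, zero_add],
      show (c * C.N + j) % C.N = j by rw [Nat.add_comm, Nat.add_mul_mod_self_right, Nat.mod_eq_of_lt hj]]
  have hval : ∀ c j, j < C.N → ∀ b, (hb : b < 315) →
      iter (sact (expand wx wy C.hw)) c (ract C wx wy C.N j b) =
      (((wev (sw wx) (sw wy) C.hw ^ c * wrep C (sw wx) (sw wy) j : P315) :
        Equiv.Perm (Fin 315)) ⟨b, hb⟩ : ℕ) := by
    intro c j hj b hb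
    rw [Subgroup.coe_mul, Equiv.Perm.mul_apply, wev_sw, pow_apply, ract_eq C wx wy C.N j hj.le]
  have h1 : key C wx wy base (c * C.N + j) = key C wx wy base (c' * C.N + j') := by
    rw [hkey c j hj, hkey c' j' hj']
    apply List.map_congr_left
    intro b hbm
    have hb' : b < 315 := of_decide_eq_true (List.all_eq_true.1 hb b hbm)
    rw [hval c j hj b hb', hval c' j' hj' b hb', h]
  have h2 := List.inj_on_of_nodup_map hk (hmem _ (hlt c hc j hj))
    (hmem _ (hlt c' hc' j' hj')) (congrArg code h1)
  have hN : 0 < C.N := lt_of_le_of_lt (Nat.zero_le _) hj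
  constructor
  · have := congrArg (· / C.N) h2
    beta_reduce at this
    rwa [Nat.add_comm, Nat.add_mul_div_right _ _ hN, Nat.div_eq_of_lt hj, zero_add,
      Nat.add_comm, Nat.add_mul_div_right _ _ hN, Nat.div_eq_of_lt hj', zero_add] at this
  · have := congrArg (· % C.N) h2
    beta_reduce at this
    rwa [Nat.add_comm, Nat.add_mul_mod_self_right, Nat.mod_eq_of_lt hj,
      Nat.add_comm, Nat.add_mul_mod_self_right, Nat.mod_eq_of_lt hj'] at this

end Cfsg.Agent.Lib.Helper34CovC
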