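import Cfsg.Agent.Lib.Helper34CovB

set_option autoImplicit false

/-!
# Central coset tables, part H: kernels generated by two elements (helper34)
-/

namespace Cfsg.Agent.Lib.Helper34CovH

open scoped IsMulCommutative
open Cfsg.Agent.Lib.Helper34CovA Cfsg.Agent.Lib.Helper34CovB

/-- the linear algebra part of the certificate: two generators `beta`, `beta2` of orders `o1`, `o2` -/
structure LA2 where
  A : LA
  o1 : ℤ
  o2 : ℤ
  th2 : ℤ
  beta2 : ℕ → ℤ
  t2 : ℕ → ℤ

def chkRows2 (C : Cert) (B : LA2) : Bool :=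
  (List.range C.m).all (fun k => decide (combC (B.A.co k) (relsOf C B.A) = 0) &&
    (List.range C.m).all (fun q => decide (combV (B.A.co k) (relsOf C B.A) q =
      (if q = k then 1 else 0) + (-1) * (B.A.t k * B.A.beta q + B.t2 k * B.beta2 q)))) &&
  (decide (combC (B.A.co C.m) (relsOf C B.A) = 0) &&
  ((List.range C.m).all (fun q => decide (combV (B.A.co C.m) (relsOf C B.A) q = B.o1 * B.A.beta q)) &&
  (decide (combC (B.A.co (C.m + 1)) (relsOf C B.A) = 0) &&
  ((List.range C.m).all (fun q => decide (combV (B.A.co (C.m + 1)) (relsOf C B.A) q = B.o2 * B.beta2 q)) &&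
  (decide (combC (B.A.co (C.m + 2)) (relsOf C B.A) = B.A.oh) &&
  (List.range C.m).all (fun q => decide (combV (B.A.co (C.m + 2)) (relsOf C B.A) q =
    B.A.th * B.A.beta q + B.th2 * B.beta2 q)))))))

section main
variable {Γ X : Type*} [Group Γ] [Group X]

/-- The main bound for a perfect two-generator subgroup: two generators for the kernel. -/
theorem perfect_bound2 [Finite Γ] (τ : Γ →* X) (hc : τ.ker ≤ Subgroup.center Γ) (C : Cert) (B : LA2)
    (ux uy : X) (hx : ux ∈ τ.range) (hy : uy ∈ τ.range)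
    (hrelX : ∀ k < C.m, wev ux uy (C.rel k) = 1)
    (hchk : C.chkAll = true) (hN : 0 < C.N)
    (hG : ∀ (c : ℤ) (j : ℕ), j < C.N → wev ux uy C.hw ^ c * wrep C ux uy j = 1 →
      j = 0 ∧ (B.A.oh : ℤ) ∣ c)
    (h1 : chkNorm C B.A = true) (h2 : chkSrc C B.A = true) (h3 : chkRows2 C B = true) :
    ∃ x y b₁ b₂ : Γ, τ x = ux ∧ τ y = uy ∧ τ b₁ = 1 ∧ τ b₂ = 1 ∧ b₁ ^ B.o1 = 1 ∧ b₂ ^ B.o2 = 1 ∧
      ∀ g ∈ Subgroup.closure ({x, y} : Set Γ), τ g = 1 → ∃ i j : ℤ, g = b₁ ^ i * b₂ ^ j := by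
  obtain ⟨x0, rfl⟩ := hx
  obtain ⟨y0, rfl⟩ := hy
  have hcen : ∀ k, k < C.m → wev x0 y0 (C.rel k) ∈ Subgroup.center Γ := by
    intro k hk
    apply hc
    rw [MonoidHom.mem_ker, map_wev, hrelX k hk]
  let a0 : ℕ → Subgroup.center Γ := fun k =>
    if h : k < C.m then ⟨wev x0 y0 (C.rel k), hcen k h⟩ else 1
  have ha0 : ∀ k < C.m, wev x0 y0 (C.rel k) = (a0 k : Γ) := by
    intro k hk; simp only [a0, hk, dif_pos]
  let zx : Subgroup.center Γ := (al a0 C.m B.A.u1)⁻¹
  let zy : Subgroup.center Γ := (al a0 C.m B.A.u2)⁻¹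
  let a : ℕ → Subgroup.center Γ := fun k => a0 k * (zx ^ e0 (C.rel k) * zy ^ e1 (C.rel k))
  have hker : ∀ z : Subgroup.center Γ, (∃ v, z = al a0 C.m v) → τ (z : Γ) = 1 := by
    rintro z ⟨v, rfl⟩
    have : al a0 C.m v ∈ (τ.comp (Subgroup.center Γ).subtype).ker := by
      apply al_mem
      intro k hk
      rw [MonoidHom.mem_ker, MonoidHom.comp_apply, Subgroup.subtype_apply, ← ha0 k hk,
        map_wev, hrelX k hk]
    exact this
  have hzx : τ (zx : Γ) = 1 := by
    simp only [zx, Subgroup.coe_inv, map_inv, hker _ ⟨_, rfl⟩, inv_one]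
  have hzy : τ (zy : Γ) = 1 := by
    simp only [zy, Subgroup.coe_inv, map_inv, hker _ ⟨_, rfl⟩, inv_one]
  set x : Γ := x0 * zx with hxd
  set y : Γ := y0 * zy with hyd
  have hτx : τ x = τ x0 := by rw [hxd, map_mul, hzx, mul_one]
  have hτy : τ y = τ y0 := by rw [hyd, map_mul, hzy, mul_one]
  have hrel : ∀ k < C.m, wev x y (C.rel k) = (a k : Γ) := by
    intro k hk
    rw [hxd, hyd, wev_scale, ha0 k hk]
    rfl
  have hv : ∀ v, τ (al a C.m v : Γ) = 1 := by
    intro v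
    have : al a C.m v ∈ (τ.comp (Subgroup.center Γ).subtype).ker := by
      apply al_mem
      intro k hk
      rw [MonoidHom.mem_ker, MonoidHom.comp_apply, Subgroup.subtype_apply, ← hrel k hk,
        map_wev, hτx, hτy, hrelX k hk]
    exact this
  simp only [chkNorm, Bool.and_eq_true, decide_eq_true_eq] at h1
  obtain ⟨n1, n2, n3, n4⟩ := h1
  have hu1 : al a C.m B.A.u1 = 1 := by
    rw [al_scale, n1, n2]; simp [zx]
  have hu2 : al a C.m B.A.u2 = 1 := by
    rw [al_scale, n3, n4]; simp [zy]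
  set H : Γ := wev x y C.hw with hH
  have hR : ∀ t ∈ relsOf C B.A, H ^ t.1 = (al a C.m t.2 : Γ) := by
    intro t ht
    simp only [relsOf, List.mem_cons, List.mem_map] at ht
    rcases ht with rfl | rfl | ⟨p, hp, rfl⟩
    · simp [hu1]
    · simp [hu2]
    · have h4 := List.all_eq_true.1 h2 p hp
      simp only [Bool.and_eq_true, decide_eq_true_eq] at h4
      exact closing C x y a hrel hchk p.1 p.2 h4.1 h4.2.1 h4.2.2.1 h4.2.2.2
  simp only [chkRows2, Bool.and_eq_true, decide_eq_true_eq] at h3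
  obtain ⟨r1, r2, r3, r4, r5, r6, r7⟩ := h3
  set b₁ : Subgroup.center Γ := al a C.m B.A.beta with hb1
  set b₂ : Subgroup.center Γ := al a C.m B.beta2 with hb2
  have hbo1 : b₁ ^ B.o1 = 1 := by
    have h5 := comb_sound a C.m H _ hR (B.A.co C.m)
    rw [r2, zpow_zero] at h5
    have h6 : al a C.m (combV (B.A.co C.m) (relsOf C B.A)) = b₁ ^ B.o1 := by
      rw [hb1, ← al_smul]
      apply al_congr
      intro q hq
      exact of_decide_eq_true (all_of_range r3 q hq)
    rw [h6] at h5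
    exact Subtype.ext h5.symm
  have hbo2 : b₂ ^ B.o2 = 1 := by
    have h5 := comb_sound a C.m H _ hR (B.A.co (C.m + 1))
    rw [r4, zpow_zero] at h5
    have h6 : al a C.m (combV (B.A.co (C.m + 1)) (relsOf C B.A)) = b₂ ^ B.o2 := by
      rw [hb2, ← al_smul]
      apply al_congr
      intro q hq
      exact of_decide_eq_true (all_of_range r5 q hq)
    rw [h6] at h5
    exact Subtype.ext h5.symm
  have hak : ∀ k < C.m, a k = b₁ ^ B.A.t k * b₂ ^ B.t2 k := by
    intro k hk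
    have h4 := all_of_range r1 k hk
    simp only [Bool.and_eq_true, decide_eq_true_eq] at h4
    have h5 := comb_sound a C.m H _ hR (B.A.co k)
    rw [h4.1, zpow_zero] at h5
    have h6 : al a C.m (combV (B.A.co k) (relsOf C B.A)) =
        a k * ((b₁ ^ B.A.t k * b₂ ^ B.t2 k) ^ (-1 : ℤ)) := by
      rw [hb1, hb2, ← al_smul, ← al_smul, ← al_add, ← al_smul, ← al_single a C.m k hk, ← al_add]
      apply al_congr
      intro q hq
      exact of_decide_eq_true (all_of_range h4.2 q hq)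
    rw [h6] at h5
    have h7 : a k * ((b₁ ^ B.A.t k * b₂ ^ B.t2 k) ^ (-1 : ℤ)) = 1 := Subtype.ext h5.symm
    rw [zpow_neg_one, mul_inv_eq_one] at h7
    exact h7
  have hm1 : b₁ ∈ Subgroup.closure ({b₁, b₂} : Set (Subgroup.center Γ)) :=
    Subgroup.subset_closure (by simp)
  have hm2 : b₂ ∈ Subgroup.closure ({b₁, b₂} : Set (Subgroup.center Γ)) :=
    Subgroup.subset_closure (by simp)
  have hal : ∀ v, al a C.m v ∈ Subgroup.closure ({b₁, b₂} : Set (Subgroup.center Γ)) := by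
    intro v
    unfold al
    apply Subgroup.prod_mem
    intro k hk
    rw [hak k (Finset.mem_range.1 hk)]
    exact Subgroup.zpow_mem _ (Subgroup.mul_mem _ (Subgroup.zpow_mem _ hm1 _)
      (Subgroup.zpow_mem _ hm2 _)) _
  have hHo : ∃ z ∈ Subgroup.closure ({b₁, b₂} : Set (Subgroup.center Γ)),
      H ^ (B.A.oh : ℤ) = (z : Γ) := by
    have h5 := comb_sound a C.m H _ hR (B.A.co (C.m + 2))
    rw [r6] at h5
    exact ⟨_, hal _, h5⟩
  refine ⟨x, y, (b₁ : Γ), (b₂ : Γ), hτx, hτy, hv _, hv _, ?_, ?_, ?_⟩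
  · rw [← Subgroup.coe_zpow, hbo1]; rfl
  · rw [← Subgroup.coe_zpow, hbo2]; rfl
  · intro g hg hg1
    obtain ⟨c, j, v, hj, rfl⟩ := cover C x y a hrel hchk hN g hg
    rw [map_mul, hv v, mul_one, map_mul, map_zpow, map_wev, map_wrep, hτx, hτy] at hg1
    obtain ⟨rfl, n, rfl⟩ := hG c j hj hg1
    obtain ⟨z, hz, hz2⟩ := hHo
    rw [wrep_zero, mul_one, zpow_mul, ← hH, hz2, ← Subgroup.coe_zpow, ← Subgroup.coe_mul]
    have h8 : z ^ n * al a C.m v ∈ Subgroup.closure ({b₁, b₂} : Set (Subgroup.center Γ)) :=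
      Subgroup.mul_mem _ (Subgroup.zpow_mem _ hz _) (hal v)
    obtain ⟨i, j, hij⟩ := Subgroup.mem_closure_pair.1 h8
    refine ⟨i, j, ?_⟩
    rw [← hij]
    simp

end main

end Cfsg.Agent.Lib.Helper34CovH
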