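import Cfsg.Agent.Lib.Helper34CovC
import Cfsg.Agent.Lib.Helper34CovH
import Cfsg.Prelude.Def_KGroupFacts

set_option autoImplicit false

/-!
# Central coset tables, part P: arbitrary permutation models (helper34)

`G` is a group with an injective homomorphism `ρ` into `Perm (Fin d)` whose range contains two
permutations `px`, `py` given by functions `fx`, `fy` on `ℕ`; the certificate is a table for
`⟨px, py⟩` of the full order of `G`.  Result: generators for the kernel of any stem extension of `G`.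
-/

namespace Cfsg.Agent.Lib.Helper34CovP

open Cfsg.Agent.Lib.Helper34CovA Cfsg.Agent.Lib.Helper34CovB Cfsg.Agent.Lib.Helper34CovC
  Cfsg.Agent.Lib.Helper34CovH

/-- packed tables: entry `i` of `T`, `B` bits per entry, `M = 2 ^ B - 1` -/
def pk (B M T i : ℕ) : ℕ := (T >>> (B * i)) &&& M

def wact (fx fy : ℕ → ℕ) : List ℕ → ℕ → ℕ
  | [], p => p
  | l :: ls, p => (if l = 0 then fx else fy) (wact fx fy ls p)

section
variable {d : ℕ} (px py : Equiv.Perm (Fin d)) (fx fy : ℕ → ℕ)
  (hx : ∀ p : Fin d, ((px p : Fin d) : ℕ) = fx p) (hy : ∀ p : Fin d, ((py p : Fin d) : ℕ) = fy p)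

include hx hy in
theorem wev_apply (w : List ℕ) (p : Fin d) : (((wev px py w) p : Fin d) : ℕ) = wact fx fy w p := by
  induction w with
  | nil => rfl
  | cons l ls ih =>
    simp only [wev, wact, Equiv.Perm.mul_apply, gen]
    split_ifs
    · rw [hx, ih]
    · rw [hy, ih]

def trivW (d : ℕ) (fx fy : ℕ → ℕ) (w : List ℕ) : Bool :=
  (List.range d).all fun p => wact fx fy w p == p

include hx hy in
theorem wev_eq_one {w : List ℕ} (h : trivW d fx fy w = true) : wev px py w = 1 := by
  apply Equiv.ext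
  intro p
  apply Fin.ext
  rw [wev_apply px py fx fy hx hy]
  have := all_of_range h p p.2
  simpa using this

def ractP (C : Cert) (fx fy : ℕ → ℕ) : ℕ → ℕ → ℕ → ℕ
  | 0, _, p => p
  | f + 1, j, p => if C.par j < j then
      ractP C fx fy f (C.par j) ((if C.pg j = 0 then fx else fy) p) else p

include hx hy in
theorem ractP_eq (C : Cert) (f j : ℕ) (hj : j ≤ f) (p : Fin d) :
    (((wrep C px py j) p : Fin d) : ℕ) = ractP C fx fy f j p := by
  induction f generalizing j p with
  | zero =>
    obtain rfl : j = 0 := Nat.le_zero.1 hj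
    rw [wrep_zero]; rfl
  | succ f ih =>
    simp only [ractP]
    by_cases h : C.par j < j
    · rw [wrep_succ C _ _ h, if_pos h, Equiv.Perm.mul_apply, ih _ (by omega)]
      congr 1
      unfold gen
      split_ifs
      · exact hx p
      · exact hy p
    · rw [wrep_of_not C _ _ h, if_neg h]; rfl

include hx hy in
theorem pow_applyP (w : List ℕ) (n : ℕ) (p : Fin d) :
    ((((wev px py w) ^ n) p : Fin d) : ℕ) = iter (wact fx fy w) n p := by
  induction n with
  | zero => rfl
  | succ n ih =>
    rw [pow_succ', Equiv.Perm.mul_apply, wev_apply px py fx fy hx hy, ih]; rfl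

def keyP (C : Cert) (fx fy : ℕ → ℕ) (base : List ℕ) (t : ℕ) : List ℕ :=
  base.map fun b => iter (wact fx fy C.hw) (t / C.N) (ractP C fx fy C.N (t % C.N) b)

def codeP : List ℕ → ℕ
  | [] => 0
  | a :: l => a + 65536 * codeP l

include hx hy in
theorem inj_of_keysP (C : Cert) (base : List ℕ) (oh : ℕ) (ord : List ℕ)
    (hb : base.all (fun b => decide (b < d)) = true)
    (hord : (ord.all (fun t => decide (t < oh * C.N)) && ord.length == oh * C.N) = true)
    (hk' : incr (ord.map fun t => codeP (keyP C fx fy base t)) = true) :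
    ∀ c < oh, ∀ j < C.N, ∀ c' < oh, ∀ j' < C.N,
      wev px py C.hw ^ c * wrep C px py j = wev px py C.hw ^ c' * wrep C px py j' →
        c = c' ∧ j = j' := by
  have hk := incr_nodup _ hk'
  have hmem : ∀ t < oh * C.N, t ∈ ord := by
    intro t ht
    rw [Bool.and_eq_true] at hord
    have hnd : ord.Nodup := List.Nodup.of_map _ hk
    have hsub : ord.toFinset ⊆ Finset.range (oh * C.N) := by
      intro x hx
      rw [List.mem_toFinset] at hx
      exact Finset.mem_range.2 (of_decide_eq_true (List.all_eq_true.1 hord.1 x hx))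
    have hcard : (Finset.range (oh * C.N)).card ≤ ord.toFinset.card := by
      rw [List.toFinset_card_of_nodup hnd, Finset.card_range]
      have h5 : ord.length = oh * C.N := by simpa using hord.2
      exact le_of_eq h5.symm
    have heq := Finset.eq_of_subset_of_card_le hsub hcard
    have : t ∈ ord.toFinset := by rw [heq]; exact Finset.mem_range.2 ht
    exact List.mem_toFinset.1 this
  intro c hc j hj c' hc' j' hj' h
  have hlt : ∀ c < oh, ∀ j < C.N, c * C.N + j < oh * C.N := by
    intro c hc j hj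
    calc c * C.N + j < c * C.N + C.N := by omega
      _ = (c + 1) * C.N := by ring
      _ ≤ oh * C.N := Nat.mul_le_mul_right _ hc
  have hkey : ∀ c j, j < C.N → keyP C fx fy base (c * C.N + j) = base.map fun b =>
      iter (wact fx fy C.hw) c (ractP C fx fy C.N j b) := by
    intro c j hj
    have hN : 0 < C.N := lt_of_le_of_lt (Nat.zero_le _) hj
    unfold keyP
    rw [show (c * C.N + j) / C.N = c by
      rw [Nat.add_comm, Nat.add_mul_div_right _ _ hN, Nat.div_eq_of_lt hj, zero_add],
      show (c * C.N + j) % C.N = j by rw [Nat.add_comm, Nat.add_mul_mod_self_right, Nat.mod_eq_of_lt hj]]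
  have hval : ∀ c j, j < C.N → ∀ b, (hb : b < d) →
      iter (wact fx fy C.hw) c (ractP C fx fy C.N j b) =
      (((wev px py C.hw ^ c * wrep C px py j) ⟨b, hb⟩ : Fin d) : ℕ) := by
    intro c j hj b hb
    rw [Equiv.Perm.mul_apply, pow_applyP px py fx fy hx hy, ractP_eq px py fx fy hx hy C C.N j hj.le]
  have h1 : keyP C fx fy base (c * C.N + j) = keyP C fx fy base (c' * C.N + j') := by
    rw [hkey c j hj, hkey c' j' hj']
    apply List.map_congr_left
    intro b hbm
    have hb' : b < d := of_decide_eq_true (List.all_eq_true.1 hb b hbm)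
    rw [hval c j hj b hb', hval c' j' hj' b hb', h]
  have h2 := List.inj_on_of_nodup_map hk (hmem _ (hlt c hc j hj))
    (hmem _ (hlt c' hc' j' hj')) (congrArg codeP h1)
  have hN : 0 < C.N := lt_of_le_of_lt (Nat.zero_le _) hj
  constructor
  · have := congrArg (· / C.N) h2
    beta_reduce at this
    rwa [Nat.add_comm, Nat.add_mul_div_right _ _ hN, Nat.div_eq_of_lt hj, zero_add,
      Nat.add_comm, Nat.add_mul_div_right _ _ hN, Nat.div_eq_of_lt hj', zero_add] at this
  · have := congrArg (· % C.N) h2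
    beta_reduce at this
    rwa [Nat.add_comm, Nat.add_mul_mod_self_right, Nat.mod_eq_of_lt hj,
      Nat.add_comm, Nat.add_mul_mod_self_right, Nat.mod_eq_of_lt hj'] at this

/-- all the facts about the model which are needed later -/
structure Model (G : Type*) [Group G] (C : Cert) (oh : ℕ) (ux uy : G) : Prop where
  hoh : 0 < oh
  hN : 0 < C.N
  hrel : ∀ k < C.m, wev ux uy (C.rel k) = 1
  hHo : wev ux uy C.hw ^ oh = 1
  hinj : ∀ c < oh, ∀ j < C.N, ∀ c' < oh, ∀ j' < C.N,
      wev ux uy C.hw ^ c * wrep C ux uy j = wev ux uy C.hw ^ c' * wrep C ux uy j' → c = c' ∧ j = j'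
  htop : Subgroup.closure ({ux, uy} : Set G) = ⊤

include hx hy in
theorem model_of_checks {G : Type*} [Group G] (ρ : G →* Equiv.Perm (Fin d))
    (hρ : Function.Injective ρ) (ux uy : G) (hux : ρ ux = px) (huy : ρ uy = py)
    (C : Cert) (oh : ℕ) (base : List ℕ) (hcard : Nat.card G = oh * C.N)
    (chk1 : C.chkAll = true)
    (chk5 : (List.range C.m).all (fun k => trivW d fx fy (C.rel k)) = true)
    (chk6 : C.rel 0 = (List.replicate oh C.hw).flatten)
    (chk7 : base.all (fun b => decide (b < d)) = true)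
    (ord : List ℕ) (chk8 : (ord.all (fun t => decide (t < oh * C.N)) && ord.length == oh * C.N) = true)
    (chk9 : incr (ord.map fun t => codeP (keyP C fx fy base t)) = true)
    (hm : 0 < C.m) (hpos : 0 < oh * C.N) : Model G C oh ux uy := by
  have hoh : 0 < oh := Nat.pos_of_mul_pos_right hpos
  have hN : 0 < C.N := Nat.pos_of_mul_pos_left hpos
  have hfin : Finite G := Nat.finite_of_card_ne_zero (by rw [hcard]; exact hpos.ne')
  have hrelX : ∀ k < C.m, wev ux uy (C.rel k) = 1 := by
    intro k hk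
    apply hρ
    rw [map_wev, hux, huy, map_one]
    exact wev_eq_one px py fx fy hx hy (all_of_range chk5 k hk)
  have hHo : wev ux uy C.hw ^ oh = 1 := by
    rw [← wev_pow, ← chk6]; exact hrelX 0 hm
  have hinj0 := inj_of_keysP px py fx fy hx hy C base oh ord chk7 chk8 chk9
  have hinj : ∀ c < oh, ∀ j < C.N, ∀ c' < oh, ∀ j' < C.N,
      wev ux uy C.hw ^ c * wrep C ux uy j = wev ux uy C.hw ^ c' * wrep C ux uy j' →
        c = c' ∧ j = j' := by
    intro c hc j hj c' hc' j' hj' h
    apply hinj0 c hc j hj c' hc' j' hj'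
    have := congrArg ρ h
    rwa [map_mul, map_mul, map_pow, map_pow, map_wev, map_wrep, map_wrep, hux, huy] at this
  refine ⟨hoh, hN, hrelX, hHo, hinj, ?_⟩
  apply Subgroup.eq_top_of_card_eq
  rw [card_closure C _ _ oh hoh hrelX chk1 hN hHo hinj, hcard]

end

/-- generators for the kernel of a stem extension -/
theorem stem_bound2 {G : Type*} [Group G] {Γ : Type*} [Group Γ] [Finite Γ] (σ : Γ →* G)
    (hσ : Cfsg.IsStemExtension σ) (C : Cert) (B : LA2) (ux uy : G) (M : Model G C B.A.oh ux uy)
    (chk1 : C.chkAll = true) (chk2 : chkNorm C B.A = true) (chk3 : chkSrc C B.A = true)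
    (chk4 : chkRows2 C B = true) :
    ∃ b₁ b₂ : Γ, b₁ ∈ σ.ker ∧ b₂ ∈ σ.ker ∧ b₁ ^ B.o1 = 1 ∧ b₂ ^ B.o2 = 1 ∧
      ∀ k ∈ σ.ker, ∃ i j : ℤ, k = b₁ ^ i * b₂ ^ j := by
  obtain ⟨hsurj, hc, hs⟩ := hσ
  obtain ⟨x, y, b₁, b₂, hx, hy, h1, h2, h3, h4, hker⟩ := perfect_bound2 σ hc C B ux uy
    (MonoidHom.mem_range.2 (hsurj _)) (MonoidHom.mem_range.2 (hsurj _)) M.hrel chk1 M.hN
    (hG_of_inj C _ _ B.A.oh M.hoh M.hN M.hHo M.hinj) chk2 chk3 chk4
  refine ⟨b₁, b₂, h1, h2, h3, h4, ?_⟩
  intro k hk
  have e1 := pow_index_mem_closure σ hc hs {x, y} k hk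
  have e2 : σ '' ({x, y} : Set Γ) = {ux, uy} := by rw [Set.image_pair, hx, hy]
  rw [e2, M.htop, Subgroup.comap_top, Subgroup.index_top, pow_one] at e1
  have e4 : ⁅Subgroup.closure ({x, y} : Set Γ), Subgroup.closure ({x, y} : Set Γ)⁆ ≤
      Subgroup.closure ({x, y} : Set Γ) := by
    rw [Subgroup.commutator_le]
    intro g1 hg1 g2 hg2
    rw [commutatorElement_def]
    exact Subgroup.mul_mem _ (Subgroup.mul_mem _ (Subgroup.mul_mem _ hg1 hg2)
      (Subgroup.inv_mem _ hg1)) (Subgroup.inv_mem _ hg2)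
  exact hker _ (e4 e1) (MonoidHom.mem_ker.1 hk)

end Cfsg.Agent.Lib.Helper34CovP
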