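import Cfsg.Agent.Lib.Helper34CovP

set_option autoImplicit false

/-!
# Central coset tables, part Q: splitting the big checks into chunks (helper34)
-/

namespace Cfsg.Agent.Lib.Helper34CovQ

open Cfsg.Agent.Lib.Helper34CovA Cfsg.Agent.Lib.Helper34CovB Cfsg.Agent.Lib.Helper34CovC
  Cfsg.Agent.Lib.Helper34CovP

theorem all_range_of_chunks (f : ℕ → Bool) (nc sz : ℕ)
    (h : ∀ c < nc, (List.range sz).all (fun t => f (c * sz + t)) = true) :
    (List.range (nc * sz)).all f = true := by
  rw [List.all_eq_true]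
  intro i hi
  rw [List.mem_range] at hi
  have hsz : 0 < sz := by
    rcases Nat.eq_zero_or_pos sz with h0 | h0
    · subst h0; simp at hi
    · exact h0
  have hc : i / sz < nc := by
    rw [Nat.div_lt_iff_lt_mul hsz]; exact hi
  have := all_of_range (h (i / sz) hc) (i % sz) (Nat.mod_lt _ hsz)
  rwa [Nat.mul_comm, Nat.div_add_mod] at this

theorem chkAll_of_chunks (C : Cert) (nc sz : ℕ) (hN : C.N = nc * sz)
    (h : ∀ l < 2, ∀ c < nc, (List.range sz).all (fun t => C.chkE l (c * sz + t)) = true) :
    C.chkAll = true := by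
  unfold Cert.chkAll
  rw [List.all_eq_true]
  intro l hl
  rw [List.mem_range] at hl
  rw [hN]
  exact all_range_of_chunks _ nc sz (h l hl)

theorem incr_glue0 : ∀ (l1 : List ℕ) (x : ℕ) (l2 : List ℕ), incr (l1 ++ [x]) = true →
    incr (x :: l2) = true → incr (l1 ++ x :: l2) = true := by
  intro l1
  induction l1 with
  | nil => intro x l2 _ h; exact h
  | cons a l1 ih =>
    intro x l2 h1 h2
    cases l1 with
    | nil =>
      simp only [List.nil_append, List.cons_append, incr, Bool.and_eq_true] at h1 ⊢
      exact ⟨h1.1, h2⟩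
    | cons b l1 =>
      simp only [List.cons_append, incr, Bool.and_eq_true] at h1 ⊢
      exact ⟨h1.1, ih x l2 h1.2 h2⟩

theorem incr_glue (g : ℕ → ℕ) (l1 l2 : List ℕ) (x : ℕ) (hx : l2.head? = some x)
    (h1 : incr ((l1 ++ [x]).map g) = true) (h2 : incr (l2.map g) = true) :
    incr ((l1 ++ l2).map g) = true := by
  cases l2 with
  | nil => simp at hx
  | cons b l2 =>
    simp only [List.head?_cons, Option.some.injEq] at hx
    subst hx
    rw [List.map_append, List.map_cons] at *
    exact incr_glue0 _ _ _ h1 h2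

end Cfsg.Agent.Lib.Helper34CovQ
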