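import Cfsg.Agent.Lib.Helper34CovQ

set_option autoImplicit false

/-!
# Central coset tables, part V: voltage sums (helper34)
-/

namespace Cfsg.Agent.Lib.Helper34CovV

open Cfsg.Agent.Lib.Helper34CovA Cfsg.Agent.Lib.Helper34CovB Cfsg.Agent.Lib.Helper34CovC
  Cfsg.Agent.Lib.Helper34CovP

/-- sum of the voltages `p l i` along the path of the word `w` starting at the coset `i` -/
def vsum (C : Cert) (p : ℕ → ℕ → ℕ) : List ℕ → ℕ → ℕ
  | [], _ => 0
  | l :: ls, i => p l i + vsum C p ls (C.T l i)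

/-- evaluate the argument first (for the kernel) -/
def force {α : Type} (n : ℕ) (f : ℕ → α) : α := Nat.casesOn n (f 0) (fun k => f (k + 1))

theorem force_eq {α : Type} (n : ℕ) (f : ℕ → α) : force n f = f n := by
  cases n <;> rfl

def scanV (C : Cert) (p1 p2 : ℕ → ℕ → ℕ) : List ℕ → ℕ → ℕ → ℕ → ℕ × ℕ × ℕ
  | [], i, a, b => (i, a, b)
  | l :: ls, i, a, b => force (C.T l i) fun i' => force (a + p1 l i) fun a' =>
      force (b + p2 l i) fun b' => scanV C p1 p2 ls i' a' b'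

theorem scanV_eq (C : Cert) (p1 p2 : ℕ → ℕ → ℕ) (w : List ℕ) : ∀ i a b : ℕ,
    scanV C p1 p2 w i a b = (C.endc w i, a + vsum C p1 w i, b + vsum C p2 w i) := by
  induction w with
  | nil => intro i a b; rfl
  | cons l ls ih =>
    intro i a b
    simp only [scanV, force_eq, ih, Cert.endc, vsum, Nat.add_assoc]

/-- the relator `k` closes at the coset `i` with voltage `(e1 k, e2 k)` -/
def chkCl (C : Cert) (p1 p2 : ℕ → ℕ → ℕ) (o1 o2 : ℕ) (e1 e2 : ℕ → ℕ) (k i : ℕ) : Bool :=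
  match scanV C p1 p2 (C.rel k) i 0 0 with
  | (j, a, b) => j == i && (a % o1 == e1 k && b % o2 == e2 k)

theorem of_chkCl (C : Cert) (p1 p2 : ℕ → ℕ → ℕ) (o1 o2 : ℕ) (e1 e2 : ℕ → ℕ) (k i : ℕ)
    (h : chkCl C p1 p2 o1 o2 e1 e2 k i = true) :
    C.endc (C.rel k) i = i ∧ vsum C p1 (C.rel k) i % o1 = e1 k ∧
      vsum C p2 (C.rel k) i % o2 = e2 k := by
  unfold chkCl at h
  rw [scanV_eq] at h
  simpa using h

theorem T_lt (C : Cert) (chk1 : C.chkAll = true) (l : ℕ) (hl : l < 2) (i : ℕ) (hi : i < C.N) :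
    C.T l i < C.N := by
  have h := chkE_of_all C chk1 l i hl hi
  unfold Cert.chkE at h
  rw [Bool.and_eq_true, Bool.and_eq_true] at h
  exact of_decide_eq_true h.1.1

end Cfsg.Agent.Lib.Helper34CovV
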