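import Mathlib

/-! # From additive / affine permutation actions on `Fin n → ZMod p` to `GL` (helper34)

`glHom ρ hadd` : a homomorphism `ρ : G →* Perm (Fin n → ZMod p)` with additive values gives
`G →* GL (Fin n) (ZMod p)` with the same kernel.  `linPart ρ haff` : the linear part of an affine
action.  `iso_GL_of_additive`, `quotient_iso_GL_of_affine` : isomorphisms by counting. -/

set_option autoImplicit false

namespace Cfsg.Agent.Lib.Helper34GL

variable {G : Type*} [Group G] {n p : ℕ}

/-- the endomorphism-valued homomorphism of an additive action -/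
def endHom (ρ : G →* Equiv.Perm (Fin n → ZMod p))
    (hadd : ∀ g x y, ρ g (x + y) = ρ g x + ρ g y) :
    G →* Module.End (ZMod p) (Fin n → ZMod p) where
  toFun g := (AddMonoidHom.mk' (ρ g) (hadd g)).toZModLinearMap p
  map_one' := by
    ext x
    simp
  map_mul' a b := by
    ext x
    simp

theorem endHom_apply (ρ : G →* Equiv.Perm (Fin n → ZMod p))
    (hadd : ∀ g x y, ρ g (x + y) = ρ g x + ρ g y) (g : G) (x : Fin n → ZMod p) :
    endHom ρ hadd g x = ρ g x := rfl

/-- the matrix-valued homomorphism of an additive action -/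
noncomputable def glHom (ρ : G →* Equiv.Perm (Fin n → ZMod p))
    (hadd : ∀ g x y, ρ g (x + y) = ρ g x + ρ g y) : G →* GL (Fin n) (ZMod p) :=
  (Matrix.GeneralLinearGroup.toLin (n := Fin n) (R := ZMod p)).symm.toMonoidHom.comp
    (endHom ρ hadd).toHomUnits

theorem glHom_ker (ρ : G →* Equiv.Perm (Fin n → ZMod p))
    (hadd : ∀ g x y, ρ g (x + y) = ρ g x + ρ g y) : (glHom ρ hadd).ker = ρ.ker := by
  ext g
  rw [MonoidHom.mem_ker, MonoidHom.mem_ker]
  unfold glHom
  rw [MonoidHom.comp_apply]
  constructor
  · intro h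
    have h1 : (endHom ρ hadd).toHomUnits g = 1 := by
      apply (Matrix.GeneralLinearGroup.toLin (n := Fin n) (R := ZMod p)).symm.injective
      rw [map_one]; exact h
    have h2 : endHom ρ hadd g = 1 := by
      have := congrArg Units.val h1
      simpa using this
    ext1 x
    have := congrArg (fun f : Module.End (ZMod p) (Fin n → ZMod p) => f x) h2
    exact this
  · intro h
    have h2 : endHom ρ hadd g = 1 := by
      ext1 x
      apply LinearMap.ext
      intro c
      rw [LinearMap.comp_apply, LinearMap.comp_apply, endHom_apply, h]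
      rfl
    have h1 : (endHom ρ hadd).toHomUnits g = 1 := by
      apply Units.ext
      simpa using h2
    rw [h1]
    exact map_one _

/-- an injective additive action of a group of the order of `GL` is an isomorphism with `GL` -/
theorem iso_GL_of_additive [Fact p.Prime] (ρ : G →* Equiv.Perm (Fin n → ZMod p))
    (hadd : ∀ g x y, ρ g (x + y) = ρ g x + ρ g y) (hinj : Function.Injective ρ)
    (hcard : Nat.card G = Nat.card (GL (Fin n) (ZMod p))) :
    Nonempty (G ≃* GL (Fin n) (ZMod p)) := by
  have hi : Function.Injective (glHom ρ hadd) := by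
    rw [← MonoidHom.ker_eq_bot_iff, glHom_ker, MonoidHom.ker_eq_bot_iff]; exact hinj
  have hb : Function.Bijective (glHom ρ hadd) := by
    rw [Nat.bijective_iff_injective_and_card]
    exact ⟨hi, hcard⟩
  exact ⟨MulEquiv.ofBijective _ hb⟩

/-- the linear part of an affine action -/
def linPart (ρ : G →* Equiv.Perm (Fin n → ZMod p))
    (haff : ∀ g x y, ρ g (x + y) + ρ g 0 = ρ g x + ρ g y) :
    G →* Equiv.Perm (Fin n → ZMod p) where
  toFun g :=
    { toFun := fun x => ρ g x - ρ g 0
      invFun := fun y => (ρ g).symm (y + ρ g 0)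
      left_inv := fun x => by simp
      right_inv := fun y => by simp }
  map_one' := by
    ext1 x
    simp
  map_mul' a b := by
    ext1 x
    show ρ (a * b) x - ρ (a * b) 0 = ρ a (ρ b x - ρ b 0) - ρ a 0
    rw [map_mul, Equiv.Perm.mul_apply, Equiv.Perm.mul_apply]
    have h := haff a (ρ b x - ρ b 0) (ρ b 0)
    rw [sub_add_cancel] at h
    rw [sub_eq_sub_iff_add_eq_add, h]

theorem linPart_apply (ρ : G →* Equiv.Perm (Fin n → ZMod p))
    (haff : ∀ g x y, ρ g (x + y) + ρ g 0 = ρ g x + ρ g y) (g : G) (x : Fin n → ZMod p) :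
    linPart ρ haff g x = ρ g x - ρ g 0 := rfl

theorem linPart_add (ρ : G →* Equiv.Perm (Fin n → ZMod p))
    (haff : ∀ g x y, ρ g (x + y) + ρ g 0 = ρ g x + ρ g y) (g : G) (x y : Fin n → ZMod p) :
    linPart ρ haff g (x + y) = linPart ρ haff g x + linPart ρ haff g y := by
  rw [linPart_apply, linPart_apply, linPart_apply]
  have h := haff g x y
  have : ρ g (x + y) = ρ g x + ρ g y - ρ g 0 := by rw [← h]; abel
  rw [this]; abel

/-- the homomorphism to `GL` of an affine action -/
noncomputable def affHom (ρ : G →* Equiv.Perm (Fin n → ZMod p))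
    (haff : ∀ g x y, ρ g (x + y) + ρ g 0 = ρ g x + ρ g y) : G →* GL (Fin n) (ZMod p) :=
  glHom (linPart ρ haff) (linPart_add ρ haff)

theorem mem_affHom_ker (ρ : G →* Equiv.Perm (Fin n → ZMod p))
    (haff : ∀ g x y, ρ g (x + y) + ρ g 0 = ρ g x + ρ g y) (g : G) :
    g ∈ (affHom ρ haff).ker ↔ ∀ x, ρ g x = x + ρ g 0 := by
  unfold affHom
  rw [glHom_ker, MonoidHom.mem_ker]
  constructor
  · intro h x
    have := congrArg (fun f : Equiv.Perm (Fin n → ZMod p) => f x) h
    simp only [linPart_apply, Equiv.Perm.one_apply] at this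
    exact sub_eq_iff_eq_add.1 this
  · intro h
    ext1 x
    rw [linPart_apply, h x]
    simp

/-- the kernel of the linear part of a faithful affine action has at most `p ^ n` elements -/
theorem card_affHom_ker_le [NeZero p] (ρ : G →* Equiv.Perm (Fin n → ZMod p))
    (haff : ∀ g x y, ρ g (x + y) + ρ g 0 = ρ g x + ρ g y) (hinj : Function.Injective ρ) :
    Nat.card (affHom ρ haff).ker ≤ p ^ n := by
  have h1 : Function.Injective (fun g : (affHom ρ haff).ker => ρ g.1 0) := by
    intro a b hab
    apply Subtype.ext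
    apply hinj
    ext1 x
    rw [(mem_affHom_ker ρ haff a.1).1 a.2 x, (mem_affHom_ker ρ haff b.1).1 b.2 x]
    have : ρ a.1 0 = ρ b.1 0 := hab
    rw [this]
  have h2 := Nat.card_le_card_of_injective _ h1
  have h3 : Nat.card (Fin n → ZMod p) = p ^ n := by
    rw [Nat.card_eq_fintype_card, Fintype.card_fun, ZMod.card, Fintype.card_fin]
  rwa [h3] at h2

/-- a faithful affine action of a group of order `p ^ n * |GL|` : the quotient by the translations
is `GL` -/
theorem quotient_iso_GL_of_affine [Fact p.Prime] [Finite G]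
    (ρ : G →* Equiv.Perm (Fin n → ZMod p))
    (haff : ∀ g x y, ρ g (x + y) + ρ g 0 = ρ g x + ρ g y) (hinj : Function.Injective ρ)
    (hcard : Nat.card G = p ^ n * Nat.card (GL (Fin n) (ZMod p))) :
    Function.Surjective (affHom ρ haff) ∧ Nat.card (affHom ρ haff).ker = p ^ n := by
  have : NeZero p := ⟨(Fact.out : p.Prime).ne_zero⟩
  have h1 := Subgroup.card_mul_index (affHom ρ haff).ker
  rw [Subgroup.index_ker, hcard] at h1
  have h2 := card_affHom_ker_le ρ haff hinj
  have h3 : Nat.card (affHom ρ haff).range ≤ Nat.card (GL (Fin n) (ZMod p)) :=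
    Subgroup.card_le_card_group _
  have hpos : 0 < Nat.card (GL (Fin n) (ZMod p)) := Nat.card_pos
  have hpn : 0 < p ^ n := pow_pos (Fact.out : p.Prime).pos n
  have h4 : Nat.card (affHom ρ haff).ker = p ^ n := by
    apply le_antisymm h2
    by_contra hlt
    push Not at hlt
    have : Nat.card (affHom ρ haff).ker * Nat.card (affHom ρ haff).range <
        p ^ n * Nat.card (GL (Fin n) (ZMod p)) :=
      Nat.mul_lt_mul_of_lt_of_le hlt h3 hpos
    omega
  refine ⟨?_, h4⟩
  rw [h4] at h1
  have h5 := Nat.eq_of_mul_eq_mul_left hpn h1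
  rw [← MonoidHom.range_eq_top]
  exact Subgroup.eq_top_of_card_eq _ h5

end Cfsg.Agent.Lib.Helper34GL

namespace Cfsg.Agent.Lib.Helper34GL

/-- the action of a group on a set of labelled objects, as permutations of the labels -/
def labHom {H α β : Type*} [Group H] [MulAction H α] (unlab : β → α) (lab : α → β)
    (h1 : ∀ v, lab (unlab v) = v) (h2 : ∀ (g : H) (v : β), unlab (lab (g • unlab v)) = g • unlab v) :
    H →* Equiv.Perm β where
  toFun g :=
    { toFun := fun v => lab (g • unlab v)
      invFun := fun v => lab (g⁻¹ • unlab v)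
      left_inv := fun v => by
        show lab (g⁻¹ • unlab (lab (g • unlab v))) = v
        rw [h2, inv_smul_smul, h1]
      right_inv := fun v => by
        show lab (g • unlab (lab (g⁻¹ • unlab v))) = v
        rw [h2, smul_inv_smul, h1] }
  map_one' := by
    ext1 v
    show lab ((1 : H) • unlab v) = v
    rw [one_smul, h1]
  map_mul' a b := by
    ext1 v
    show lab ((a * b) • unlab v) = lab (a • unlab (lab (b • unlab v)))
    rw [h2, mul_smul]

theorem labHom_apply {H α β : Type*} [Group H] [MulAction H α] (unlab : β → α) (lab : α → β)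
    (h1 : ∀ v, lab (unlab v) = v) (h2 : ∀ (g : H) (v : β), unlab (lab (g • unlab v)) = g • unlab v)
    (g : H) (v : β) : labHom unlab lab h1 h2 g v = lab (g • unlab v) := rfl

theorem unlab_labHom {H α β : Type*} [Group H] [MulAction H α] (unlab : β → α) (lab : α → β)
    (h1 : ∀ v, lab (unlab v) = v) (h2 : ∀ (g : H) (v : β), unlab (lab (g • unlab v)) = g • unlab v)
    (g : H) (v : β) : unlab (labHom unlab lab h1 h2 g v) = g • unlab v := h2 g v

end Cfsg.Agent.Lib.Helper34GL
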