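import Mathlib

set_option autoImplicit false

namespace Cfsg.Agent.Lib.Helper34Mask

variable {α : Type*} [Fintype α] [DecidableEq α] {n : ℕ} (e : α ≃ Fin n)

/-- The subset coded by a bit mask. -/
def dec (m : ℕ) : Finset α := Finset.univ.filter (fun p => m.testBit (e p) = true)

/-- The bit mask of a subset. -/
def enc (s : Finset α) : ℕ := Nat.ofBits (fun i : Fin n => decide (e.symm i ∈ s))

theorem mem_dec (m : ℕ) (p : α) : p ∈ dec e m ↔ m.testBit (e p) = true := by
  simp [dec]

theorem enc_lt (s : Finset α) : enc e s < 2 ^ n := Nat.ofBits_lt_two_pow _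

theorem dec_enc (s : Finset α) : dec e (enc e s) = s := by
  ext p
  rw [mem_dec, enc, Nat.testBit_ofBits_lt _ _ (e p).2]
  simp

theorem testBit_enc (s : Finset α) (p : α) : (enc e s).testBit (e p) = decide (p ∈ s) := by
  rw [enc, Nat.testBit_ofBits_lt _ _ (e p).2]
  simp

theorem dec_subset_of (m h : ℕ) (hmh : m &&& h = m) : dec e m ⊆ dec e h := by
  intro p hp
  rw [mem_dec] at hp ⊢
  rw [← hmh, Nat.testBit_land, Bool.and_eq_true] at hp
  exact hp.2

theorem land_of_dec_subset (m h : ℕ) (hm : m < 2 ^ n) (hs : dec e m ⊆ dec e h) : m &&& h = m := by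
  apply Nat.eq_of_testBit_eq
  intro i
  rw [Nat.testBit_land]
  by_cases hi : i < n
  · cases hb : m.testBit i with
    | false => simp
    | true =>
      have h1 : e.symm ⟨i, hi⟩ ∈ dec e m := by rw [mem_dec]; simpa using hb
      have h2 := hs h1
      rw [mem_dec] at h2
      simpa using h2
  · have : m.testBit i = false := by
      apply Nat.testBit_lt_two_pow
      exact lt_of_lt_of_le hm (Nat.pow_le_pow_right (by norm_num) (not_lt.mp hi))
    simp [this]

theorem dec_subset_iff (m h : ℕ) (hm : m < 2 ^ n) : dec e m ⊆ dec e h ↔ m &&& h = m :=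
  ⟨land_of_dec_subset e m h hm, dec_subset_of e m h⟩

theorem dec_injOn (m h : ℕ) (hm : m < 2 ^ n) (hh : h < 2 ^ n) (hd : dec e m = dec e h) : m = h := by
  have h1 := land_of_dec_subset e m h hm hd.subset
  have h2 := land_of_dec_subset e h m hh hd.symm.subset
  rw [← h1, Nat.land_comm, h2]

theorem enc_dec (m : ℕ) (hm : m < 2 ^ n) : enc e (dec e m) = m :=
  dec_injOn e _ _ (enc_lt e _) hm (dec_enc e _)

theorem dec_land (m h : ℕ) : dec e (m &&& h) = dec e m ∩ dec e h := by
  ext p; simp [mem_dec, Nat.testBit_land]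

theorem dec_lor (m h : ℕ) : dec e (m ||| h) = dec e m ∪ dec e h := by
  ext p; simp [mem_dec, Nat.testBit_lor]

/-- Every statement on subsets can be checked on masks. -/
theorem forall_finset (P : Finset α → Prop) (h : ∀ m < 2 ^ n, P (dec e m)) : ∀ s, P s := by
  intro s
  have := h (enc e s) (enc_lt e s)
  rwa [dec_enc] at this

end Cfsg.Agent.Lib.Helper34Mask
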