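import Cfsg.Agent.Lib.Helper34Ternary
import Cfsg.Agent.Lib.Helper34Mask

set_option autoImplicit false
open Cfsg

namespace Cfsg.Agent.Lib.Helper34Hexads

open Cfsg.Agent.Lib.Helper34Ternary Cfsg.Agent.Lib.Helper34Mask

/-- Numbering of the twelve positions: (i, r) has number 3 i + r. -/
def eA : ArrayPt ≃ Fin 12 := (finProdFinEquiv : Fin 4 × Fin 3 ≃ Fin (4 * 3))

/-- The hexads of the ternary code. -/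
def hexads : Set (Finset ArrayPt) :=
  {h : Finset Cfsg.ArrayPt | ∃ x ∈ Cfsg.ternaryGolayCode, Cfsg.ternarySupport x = h ∧ h.card = 6}

/-- mask of the support of a word -/
def mskW (x : W) : ℕ := Nat.ofBits (fun i : Fin 12 => decide (x (eA.symm i) ≠ 0))

theorem supp_eq (x : W) : ternarySupport x = dec eA (mskW x) := by
  ext p
  rw [mem_dec, mskW, Nat.testBit_ofBits_lt _ _ (eA p).2]
  simp [ternarySupport]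

theorem mskW_lt (x : W) : mskW x < 2 ^ 12 := Nat.ofBits_lt_two_pow _

def hexMasks : List ℕ := [63, 222, 237, 243, 347, 366, 373, 413, 427, 438, 455, 504, 591, 630, 633, 667, 679, 700, 725, 746, 791, 813, 826, 860, 867, 910, 945, 969, 978, 996, 1117, 1127, 1146, 1175, 1198, 1209, 1227, 1268, 1295, 1331, 1340, 1366, 1385, 1434, 1445, 1484, 1489, 1506, 1566, 1579, 1589, 1619, 1644, 1677, 1714, 1734, 1752, 1761, 1817, 1830, 1861, 1866, 1904, 1923, 1940, 1960, 2135, 2155, 2172, 2191, 2229, 2234, 2265, 2278, 2334, 2343, 2361, 2381, 2418, 2451, 2476, 2506, 2516, 2529, 2589, 2606, 2611, 2650, 2661, 2710, 2729, 2755, 2764, 2800, 2827, 2868, 2886, 2897, 2920, 2949, 2968, 2978, 3099, 3117, 3126, 3150, 3185, 3228, 3235, 3269, 3282, 3304, 3349, 3370, 3395, 3416, 3428, 3462, 3465, 3504, 3591,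 3640, 3657, 3668, 3682, 3722, 3729, 3748, 3852, 3858, 3873, 4032]
def hexWit : List P6 := [(1, 0, 0, 0, 0, 0), (0, 1, 0, 0, 0, 0), (1, 1, 0, 0, 0, 0), (1, 2, 0, 0, 0, 0), (0, 0, 1, 0, 0, 0), (1, 0, 2, 0, 0, 0), (1, 0, 1, 0, 0, 0), (0, 1, 2, 0, 0, 0), (1, 2, 1, 0, 0, 0), (1, 1, 2, 0, 0, 0), (0, 1, 1, 0, 0, 0), (1, 2, 2, 0, 0, 0), (0, 0, 0, 1, 0, 0), (1, 0, 0, 2, 0, 0), (1, 0, 0, 1, 0, 0), (0, 1, 0, 1, 0, 0), (1, 1, 0, 1, 0, 0), (1, 2, 0, 2, 0, 0), (0, 1, 0, 2, 0, 0), (1, 1, 0, 2, 0, 0), (0, 0, 1, 1, 0, 0), (1, 0, 2, 2, 0, 0), (1, 0, 1, 1, 0, 0), (0, 0, 1, 2, 0, 0), (1, 0, 2, 1, 0, 0), (0, 1, 1, 2, 0, 0), (1, 1, 1, 2, 0, 0), (0, 1, 1, 1, 0, 0), (0, 1, 2, 1, 0, 0), (1, 2, 1, 1, 0, 0), (0, 0, 0, 0, 1, 0), (1, 0, 0, 0, 1, 0), (1, 0, 0, 0, 2, 0), (0, 1, 0, 0, 1, 0), (1, 2, 0, 0, 2, 0),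 (1, 1, 0, 0, 1, 0), (0, 1, 0, 0, 2, 0), (1, 1, 0, 0, 2, 0), (0, 0, 1, 0, 1, 0), (1, 0, 2, 0, 2, 0), (1, 0, 1, 0, 1, 0), (0, 0, 1, 0, 2, 0), (1, 0, 1, 0, 2, 0), (0, 1, 1, 0, 2, 0), (1, 2, 2, 0, 1, 0), (0, 1, 2, 0, 1, 0), (0, 1, 2, 0, 2, 0), (1, 1, 1, 0, 1, 0), (0, 0, 0, 1, 2, 0), (1, 0, 0, 2, 1, 0), (1, 0, 0, 1, 2, 0), (0, 0, 0, 1, 1, 0), (1, 0, 0, 1, 1, 0), (0, 1, 0, 2, 2, 0), (1, 2, 0, 1, 1, 0), (0, 1, 0, 1, 2, 0), (0, 1, 0, 2, 1, 0), (1, 2, 0, 2, 2, 0), (0, 0, 1, 2, 2, 0), (1, 0, 1, 2, 2, 0), (0, 0, 1, 2, 1, 0), (0, 0, 1, 1, 1, 0), (1, 0, 2, 2, 1, 0), (0, 1, 2, 2, 1, 0), (0, 1, 1, 1, 1, 0), (1, 1, 2, 1, 2, 0), (0, 0, 0, 0, 0, 1), (1, 0, 0, 0, 0, 2), (1, 0, 0, 0, 0, 1), (0, 1, 0, 0, 0, 1), (1, 2, 0, 0, 0, 2), (1, 1, 0, 0, 0, 1), (0, 1, 0, 0, 0, 2), (1, 2, 0, 0, 0, 1), (0, 0, 1, 0,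 0, 1), (1, 0, 1, 0, 0, 1), (1, 0, 2, 0, 0, 2), (0, 0, 1, 0, 0, 2), (1, 0, 1, 0, 0, 2), (0, 1, 1, 0, 0, 2), (1, 1, 1, 0, 0, 2), (0, 1, 2, 0, 0, 2), (0, 1, 1, 0, 0, 1), (1, 1, 2, 0, 0, 1), (0, 0, 0, 1, 0, 2), (1, 0, 0, 1, 0, 2), (1, 0, 0, 2, 0, 1), (0, 0, 0, 1, 0, 1), (1, 0, 0, 2, 0, 2), (0, 1, 0, 2, 0, 2), (1, 2, 0, 1, 0, 1), (0, 1, 0, 2, 0, 1), (0, 1, 0, 1, 0, 1), (1, 1, 0, 1, 0, 2), (0, 0, 1, 2, 0, 2), (1, 0, 2, 1, 0, 1), (0, 0, 1, 1, 0, 2), (0, 0, 1, 1, 0, 1), (1, 0, 1, 2, 0, 1), (0, 1, 2, 1, 0, 2), (0, 1, 2, 2, 0, 1), (1, 2, 2, 2, 0, 2), (0, 0, 0, 0, 1, 2), (1, 0, 0, 0, 2, 1), (1, 0, 0, 0, 1, 2), (0, 0, 0, 0, 1, 1), (1, 0, 0, 0, 1, 1), (0, 1, 0, 0, 2, 2), (1, 1, 0, 0, 2, 2), (0, 1, 0, 0, 1, 2), (0, 1, 0, 0, 1, 1), (1, 2, 0, 0, 1, 2), (0, 0, 1, 0, 2, 2), (1, 0, 2, 0, 1, 1), (0,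 0, 1, 0, 2, 1), (0, 0, 1, 0, 1, 2), (1, 0, 2, 0, 2, 2), (0, 1, 2, 0, 2, 1), (0, 1, 1, 0, 1, 1), (1, 2, 1, 0, 2, 1), (0, 0, 0, 1, 1, 1), (1, 0, 0, 2, 2, 2), (0, 0, 0, 1, 2, 2), (0, 0, 0, 1, 1, 2), (1, 0, 0, 1, 2, 1), (0, 1, 0, 1, 1, 2), (0, 1, 0, 1, 2, 1), (1, 1, 0, 2, 1, 1), (0, 0, 1, 1, 2, 1), (0, 0, 1, 2, 1, 1), (1, 0, 1, 1, 1, 2), (0, 1, 1, 2, 2, 2)]

set_option maxRecDepth 100000 in
theorem hexWit_map : hexWit.map (fun a => mskW (phi a)) = hexMasks := by decide +kernel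

set_option maxRecDepth 100000 in
theorem hexMasks_card : ∀ m ∈ hexMasks, (dec eA m).card = 6 := by decide +kernel

set_option maxRecDepth 100000 in
theorem hexMasks_lt : ∀ m ∈ hexMasks, m < 2 ^ 12 := by decide +kernel

set_option maxRecDepth 100000 in
theorem hexMasks_complete : ∀ a : P6, (dec eA (mskW (phi a))).card = 6 → mskW (phi a) ∈ hexMasks := by
  decide +kernel

theorem hexMasks_nodup : hexMasks.Nodup := by decide +kernel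

theorem mem_hexads_iff (h : Finset ArrayPt) : h ∈ hexads ↔ ∃ m ∈ hexMasks, dec eA m = h := by
  constructor
  · rintro ⟨x, hx, rfl, hc⟩
    obtain ⟨a, rfl⟩ := (mem_iff_phi x).1 hx
    rw [supp_eq] at hc ⊢
    exact ⟨_, hexMasks_complete a hc, rfl⟩
  · rintro ⟨m, hm, rfl⟩
    have hm' := hm
    rw [← hexWit_map, List.mem_map] at hm'
    obtain ⟨a, -, rfl⟩ := hm'
    exact ⟨phi a, phi_mem a, supp_eq _, hexMasks_card _ hm⟩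

theorem dec_mem_hexads {m : ℕ} (hm : m ∈ hexMasks) : dec eA m ∈ hexads :=
  (mem_hexads_iff _).2 ⟨m, hm, rfl⟩

end Cfsg.Agent.Lib.Helper34Hexads
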