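import Cfsg.Agent.Lib.Helper34IcoJ

set_option autoImplicit false

/-!
The centre of the icosian reflection group is `{±1}`.
-/

namespace Cfsg.Agent.Lib.Helper34IcoL

open Quaternion Cfsg.Spor Cfsg.Agent.Lib.Helper34IcoA Cfsg.Agent.Lib.Helper34IcoA.Q8
  Cfsg.Agent.Lib.Helper34IcoB Cfsg.Agent.Lib.Helper34IcoC Cfsg.Agent.Lib.Helper34IcoD
  Cfsg.Agent.Lib.Helper34IcoE Cfsg.Agent.Lib.Helper34IcoF Cfsg.Agent.Lib.Helper34IcoH
  Cfsg.Agent.Lib.Helper34IcoI Cfsg.Agent.Lib.Helper34IcoJ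

/-- an explicit minimal vector -/
structure MV where
  v : V3
  hL : inL v = true
  hA : nA v.x + nA v.y + nA v.z = 64
  hB : nB v.x + nB v.y + nB v.z = 0

noncomputable def MV.el (a : MV) : icoLeech := ⟨io3 a.v, (mem_L_iff _).2 a.hL⟩

theorem MV.coe (a : MV) : ((a.el : icoLeech) : V) = io3 a.v := rfl

theorem MV.min (a : MV) : qip ((a.el : icoLeech) : V) a.el = 4 := (minv_iff _).2 ⟨a.hA, a.hB⟩

def F0 : MV := ⟨⟨sc 2 one, zero, zero⟩, by decide +kernel, by decide +kernel, by decide +kernel⟩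
def F1 : MV := ⟨⟨zero, sc 2 one, zero⟩, by decide +kernel, by decide +kernel, by decide +kernel⟩
def F2 : MV := ⟨⟨zero, zero, sc 2 one⟩, by decide +kernel, by decide +kernel, by decide +kernel⟩
def Z1 : Q8 := ⟨2, 0, 0, -2, 2, 0, -2, 0⟩
def Z2 : Q8 := ⟨2, 0, -2, 0, 0, -2, 2, 0⟩
def E1 : MV := ⟨⟨one, one, Z1⟩, by decide +kernel, by decide +kernel, by decide +kernel⟩
def E2 : MV := ⟨⟨one, Z1, one⟩, by decide +kernel, by decide +kernel, by decide +kernel⟩
def E3 : MV := ⟨⟨one, one, Z2⟩, by decide +kernel, by decide +kernel, by decide +kernel⟩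

theorem io_two : io (sc 2 one) = (2 : ℝ) • (1 : ℍ[ℝ]) := by
  rw [io_sc, io_one]; norm_num

/-- two minimal vectors with the same reflection are unit multiples of each other -/
theorem same_line {r r' : icoLeech} (h4 : qip (r : V) r = 4) (h4' : qip (r' : V) r' = 4)
    (h : reflP r' h4' = reflP r h4) : ∃ d ∈ U120, (r' : V) = io d • (r : V) := by
  obtain ⟨l, c, hc, e1, e2⟩ := reflP_eq_sR r h4
  obtain ⟨l', c', hc', e1', e2'⟩ := reflP_eq_sR r' h4'
  have hl : l' = l := sR_injective (by rw [← e2, ← e2', h])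
  subst hl
  obtain ⟨w, hw, e3⟩ := unit_of_abstract
    (icosians.mul_mem (mem_of_inI (U120_inI _ hc')) (star_mem (mem_of_inI (U120_inI _ hc))))
    (by rw [star_mul, star_star, mul_assoc, ← mul_assoc (star (io c)), unit_star_mul hc, one_mul,
      unit_mul_star hc'])
  refine ⟨w, hw, ?_⟩
  rw [← e3, e1, e1', smul_smul, mul_assoc, unit_star_mul hc, mul_one]

/-- an element commuting with all reflections maps every minimal vector to a unit multiple -/
theorem fix_line {z : Equiv.Perm icoLeech} (hz : z ∈ AutL)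
    (hc : ∀ (r : icoLeech) (h4 : qip (r : V) r = 4), z * reflP r h4 = reflP r h4 * z)
    (r : icoLeech) (h4 : qip (r : V) r = 4) : ∃ d ∈ U120, ((z r : icoLeech) : V) = io d • (r : V) := by
  have h1 := conj_reflP hz r h4
  rw [hc r h4, mul_assoc, mul_inv_cancel, mul_one] at h1
  exact same_line h4 _ h1.symm

theorem coords {z : Equiv.Perm icoLeech} (hz : z ∈ AutL) {u0 u1 u2 : ℍ[ℝ]}
    (h0 : ((z F0.el : icoLeech) : V) = u0 • (F0.el : V)) (h1 : ((z F1.el : icoLeech) : V) = u1 • (F1.el : V))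
    (h2 : ((z F2.el : icoLeech) : V) = u2 • (F2.el : V)) (x : icoLeech) :
    ((z x : icoLeech) : V) = ![(x : V) 0 * u0, (x : V) 1 * u1, (x : V) 2 * u2] := by
  obtain ⟨g1, g2, -⟩ := hz
  have a0 := g2 _ (x.2.1 0) F0.el ⟨_, L_smul (x.2.1 0) F0.el.2⟩ rfl
  have a1 := g2 _ (x.2.1 1) F1.el ⟨_, L_smul (x.2.1 1) F1.el.2⟩ rfl
  have a2 := g2 _ (x.2.1 2) F2.el ⟨_, L_smul (x.2.1 2) F2.el.2⟩ rfl
  have b1 := g1 ⟨_, L_smul (x.2.1 0) F0.el.2⟩ ⟨_, L_smul (x.2.1 1) F1.el.2⟩
    ⟨_, L_add (L_smul (x.2.1 0) F0.el.2) (L_smul (x.2.1 1) F1.el.2)⟩ rfl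
  have b2 := g1 ⟨_, L_add (L_smul (x.2.1 0) F0.el.2) (L_smul (x.2.1 1) F1.el.2)⟩
    ⟨_, L_smul (x.2.1 2) F2.el.2⟩
    ⟨_, L_add (L_add (L_smul (x.2.1 0) F0.el.2) (L_smul (x.2.1 1) F1.el.2)) (L_smul (x.2.1 2) F2.el.2)⟩ rfl
  have b3 := g1 x x ⟨_, L_add x.2 x.2⟩ rfl
  have e : (⟨_, L_add x.2 x.2⟩ : icoLeech) =
      ⟨_, L_add (L_add (L_smul (x.2.1 0) F0.el.2) (L_smul (x.2.1 1) F1.el.2)) (L_smul (x.2.1 2) F2.el.2)⟩ := by
    apply Subtype.ext
    funext t
    fin_cases t
    · simp only [MV.coe, F0, F1, F2, io3, io_two, io_zero, Fin.zero_eta, Pi.add_apply, Pi.smul_apply, smul_eq_mul,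
        Matrix.cons_val_zero, mul_zero, add_zero, mul_smul_comm, mul_one]
      module
    · simp only [MV.coe, F0, F1, F2, io3, io_two, io_zero, Fin.mk_one, Pi.add_apply, Pi.smul_apply, smul_eq_mul,
        Matrix.cons_val_one, Matrix.cons_val_zero, mul_zero, add_zero, zero_add, mul_smul_comm, mul_one]
      module
    · simp only [MV.coe, F0, F1, F2, io3, io_two, io_zero, Fin.reduceFinMk, Pi.add_apply, Pi.smul_apply, smul_eq_mul,
        Matrix.cons_val, mul_zero, zero_add, mul_smul_comm, mul_one]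
      module
  rw [e, b2, b1, a0, a1, a2, h0, h1, h2] at b3
  have b4 : ((z x : icoLeech) : V) = (1 / 2 : ℝ) • (((z x : icoLeech) : V) + ((z x : icoLeech) : V)) := by
    module
  rw [b4, ← b3]
  funext t
  fin_cases t
  · simp only [MV.coe, F0, F1, F2, io3, io_two, io_zero, Fin.zero_eta, Pi.add_apply, Pi.smul_apply, smul_eq_mul,
      Matrix.cons_val_zero, mul_zero, add_zero, mul_smul_comm, mul_one]
    module
  · simp only [MV.coe, F0, F1, F2, io3, io_two, io_zero, Fin.mk_one, Pi.add_apply, Pi.smul_apply, smul_eq_mul,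
      Matrix.cons_val_one, Matrix.cons_val_zero, mul_zero, add_zero, zero_add, mul_smul_comm, mul_one]
    module
  · simp only [MV.coe, F0, F1, F2, io3, io_two, io_zero, Fin.reduceFinMk, Pi.add_apply, Pi.smul_apply, smul_eq_mul,
      Matrix.cons_val, mul_zero, zero_add, mul_smul_comm, mul_one]
    module

set_option maxRecDepth 100000 in
theorem comm_check : ∀ u ∈ U120, mul Z1 u = mul u Z1 → mul Z2 u = mul u Z2 → u = one ∨ u = neg one := by
  decide +kernel

theorem central_eq {z : Equiv.Perm icoLeech} (hz : z ∈ AutL)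
    (hc : ∀ (r : icoLeech) (h4 : qip (r : V) r = 4), z * reflP r h4 = reflP r h4 * z) :
    (∀ x : icoLeech, ((z x : icoLeech) : V) = x) ∨ (∀ x : icoLeech, ((z x : icoLeech) : V) = -(x : V)) := by
  obtain ⟨d0, hd0, e0⟩ := fix_line hz hc F0.el F0.min
  obtain ⟨d1, hd1, e1⟩ := fix_line hz hc F1.el F1.min
  obtain ⟨d2, hd2, e2⟩ := fix_line hz hc F2.el F2.min
  have C := coords hz e0 e1 e2
  obtain ⟨a, ha, ea⟩ := fix_line hz hc E1.el E1.min
  obtain ⟨b, hb, eb⟩ := fix_line hz hc E2.el E2.min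
  obtain ⟨c, hc', ec⟩ := fix_line hz hc E3.el E3.min
  rw [C E1.el] at ea
  rw [C E2.el] at eb
  rw [C E3.el] at ec
  have a0 : io one * io d0 = io a * io one := congrFun ea 0
  have a1 : io one * io d1 = io a * io one := congrFun ea 1
  have b0 : io one * io d0 = io b * io one := congrFun eb 0
  have b1 : io Z1 * io d1 = io b * io Z1 := congrFun eb 1
  have b2 : io one * io d2 = io b * io one := congrFun eb 2
  have c0 : io one * io d0 = io c * io one := congrFun ec 0
  have c2 : io Z2 * io d2 = io c * io Z2 := congrFun ec 2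
  rw [io_one, one_mul, mul_one] at a0 a1 b0 b2 c0
  have h10 : d1 = d0 := io_inj (a1.trans a0.symm)
  have h20 : d2 = d0 := io_inj (b2.trans b0.symm)
  subst h10 h20
  rw [← b0] at b1
  rw [← c0] at c2
  have hz1 : inI Z1 = true := by decide +kernel
  have hz2 : inI Z2 = true := by decide +kernel
  have hI := U120_inI _ hd2
  have k1 : mul Z1 d2 = mul d2 Z1 := io_inj (by rw [io_mul' hz1 hI, io_mul' hI hz1, b1])
  have k2 : mul Z2 d2 = mul d2 Z2 := io_inj (by rw [io_mul' hz2 hI, io_mul' hI hz2, c2])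
  rcases comm_check d2 hd2 k1 k2 with rfl | rfl
  · left
    intro x
    rw [C x, io_one]
    funext t
    fin_cases t <;> simp
  · right
    intro x
    rw [C x, io_neg, io_one]
    funext t
    fin_cases t <;> simp

theorem qrefl_F0 (x : V) : qrefl (io3 F0.v) x = ![-(x 0), x 1, x 2] := by
  funext t
  fin_cases t
  · simp only [qrefl, qip, Fin.sum_univ_three, F0, io3, io_two, io_zero, Fin.zero_eta, Matrix.cons_val_zero,
      Matrix.cons_val_one, Matrix.cons_val, star_zero, mul_zero, add_zero, Quaternion.star_smul, star_one,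
      mul_smul_comm, mul_one, smul_mul_assoc]
    module
  · simp [qrefl, F0, io3, io_zero]
  · simp [qrefl, F0, io3, io_zero]

theorem qrefl_F1 (x : V) : qrefl (io3 F1.v) x = ![x 0, -(x 1), x 2] := by
  funext t
  fin_cases t
  · simp [qrefl, F1, io3, io_zero]
  · simp only [qrefl, qip, Fin.sum_univ_three, F1, io3, io_two, io_zero, Fin.mk_one, Matrix.cons_val_zero,
      Matrix.cons_val_one, Matrix.cons_val, star_zero, mul_zero, add_zero, zero_add, Quaternion.star_smul, star_one,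
      mul_smul_comm, mul_one, smul_mul_assoc]
    module
  · simp [qrefl, F1, io3, io_zero]

theorem qrefl_F2 (x : V) : qrefl (io3 F2.v) x = ![x 0, x 1, -(x 2)] := by
  funext t
  fin_cases t
  · simp [qrefl, F2, io3, io_zero]
  · simp [qrefl, F2, io3, io_zero]
  · simp only [qrefl, qip, Fin.sum_univ_three, F2, io3, io_two, io_zero, Fin.reduceFinMk, Matrix.cons_val_zero,
      Matrix.cons_val_one, Matrix.cons_val, star_zero, mul_zero, add_zero, zero_add, Quaternion.star_smul, star_one,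
      mul_smul_comm, mul_one, smul_mul_assoc]
    module

theorem exists_neg : ∃ z ∈ twoJ2, ∀ x : icoLeech, ((z x : icoLeech) : V) = -(x : V) := by
  refine ⟨reflP F0.el F0.min * reflP F1.el F1.min * reflP F2.el F2.min,
    twoJ2.mul_mem (twoJ2.mul_mem (Subgroup.subset_closure (isRefl_reflP _ _))
      (Subgroup.subset_closure (isRefl_reflP _ _))) (Subgroup.subset_closure (isRefl_reflP _ _)), ?_⟩
  intro x
  rw [Equiv.Perm.mul_apply, Equiv.Perm.mul_apply, reflP_apply, reflP_apply, reflP_apply, MV.coe, MV.coe,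
    MV.coe, qrefl_F2, qrefl_F1, qrefl_F0]
  funext t
  fin_cases t <;> simp

theorem AutL_neg {g : Equiv.Perm icoLeech} (hg : g ∈ AutL) {x y : icoLeech} (h : (y : V) = -(x : V)) :
    ((g y : icoLeech) : V) = -((g x : icoLeech) : V) := by
  have := hg.2.1 (-1) (icosians.neg_mem icosians.one_mem) x y (by rw [h]; simp)
  rw [this]; simp

end Cfsg.Agent.Lib.Helper34IcoL
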