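import Cfsg.Agent.Lib.Helper34L34K1x0
import Cfsg.Agent.Lib.Helper34L34K1x1
import Cfsg.Agent.Lib.Helper34L34K9x0
import Cfsg.Agent.Lib.Helper34L34K9x1
import Cfsg.Agent.Lib.Helper34L34K9x2
import Cfsg.Agent.Lib.Helper34L34K9x3

set_option autoImplicit false
set_option maxRecDepth 1000000
set_option maxHeartbeats 4000000

/-! assembly of the certificate (generated by scratch/cov/emit3.py, helper34) -/

namespace Cfsg.Agent.Lib.Helper34L34Cert

open Cfsg.Agent.Lib.Helper34CovA Cfsg.Agent.Lib.Helper34CovB Cfsg.Agent.Lib.Helper34CovC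
  Cfsg.Agent.Lib.Helper34CovH Cfsg.Agent.Lib.Helper34CovP Cfsg.Agent.Lib.Helper34CovQ Cfsg.Agent.Lib.Helper34L34Defs
  Cfsg.Agent.Lib.Helper34L34Tab Cfsg.Agent.Lib

theorem chk1 : C.chkAll = true := by
  refine chkAll_of_chunks C 16 180 rfl ?_
  intro l hl c hc
  interval_cases l
  · exact Helper34L34K1x0.k c hc
  · exact Helper34L34K1x1.k c hc

theorem chk9 : incr (ord.map fun t => codeP (keyP C fx fy base t)) = true :=
  incr_glue kf _ _ 2522 rfl Helper34L34K9x0.k0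
    (incr_glue kf _ _ 19309 rfl Helper34L34K9x0.k1
    (incr_glue kf _ _ 18429 rfl Helper34L34K9x0.k2
    (incr_glue kf _ _ 9357 rfl Helper34L34K9x0.k3
    (incr_glue kf _ _ 1569 rfl Helper34L34K9x1.k4
    (incr_glue kf _ _ 18164 rfl Helper34L34K9x1.k5
    (incr_glue kf _ _ 1684 rfl Helper34L34K9x1.k6
    (incr_glue kf _ _ 8719 rfl Helper34L34K9x1.k7
    (incr_glue kf _ _ 10411 rfl Helper34L34K9x2.k8
    (incr_glue kf _ _ 11074 rfl Helper34L34K9x2.k9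
    (incr_glue kf _ _ 1261 rfl Helper34L34K9x2.k10
    (incr_glue kf _ _ 3651 rfl Helper34L34K9x2.k11
    (incr_glue kf _ _ 6587 rfl Helper34L34K9x3.k12
    (incr_glue kf _ _ 5018 rfl Helper34L34K9x3.k13
    (incr_glue kf _ _ 4766 rfl Helper34L34K9x3.k14
    (Helper34L34K9x3.k15)))))))))))))))

theorem model {G : Type*} [Group G] (ρ : G →* Equiv.Perm (Fin 21)) (hρ : Function.Injective ρ)
    (ux uy : G) (hux : ρ ux = X21) (huy : ρ uy = Y21) (hcard : Nat.card G = 20160) :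
    Model G C 7 ux uy :=
  model_of_checks X21 Y21 fx fy hfx hfy ρ hρ ux uy hux huy C 7 base hcard chk1 chk5 chk6 chk7 ord
    chk8 chk9 (by decide) (by decide)

theorem bound {G : Type*} [Group G] (ρ : G →* Equiv.Perm (Fin 21)) (hρ : Function.Injective ρ)
    (hx : X21 ∈ ρ.range) (hy : Y21 ∈ ρ.range) (hcard : Nat.card G = 20160)
    {Γ : Type*} [Group Γ] [Finite Γ] (σ : Γ →* G) (hσ : Cfsg.IsStemExtension σ) :
    ∃ b₁ b₂ : Γ, b₁ ∈ σ.ker ∧ b₂ ∈ σ.ker ∧ b₁ ^ (4 : ℤ) = 1 ∧ b₂ ^ (12 : ℤ) = 1 ∧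
      ∀ k ∈ σ.ker, ∃ i j : ℤ, k = b₁ ^ i * b₂ ^ j := by
  obtain ⟨ux, hux⟩ := hx
  obtain ⟨uy, huy⟩ := hy
  exact stem_bound2 σ hσ C B ux uy (model ρ hρ ux uy hux huy hcard) chk1 chk2 chk3 chk4

end Cfsg.Agent.Lib.Helper34L34Cert
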