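import Cfsg.Agent.Lib.Helper34L34VCx0
import Cfsg.Agent.Lib.Helper34L34VCx1
import Cfsg.Agent.Lib.Helper34L34Cert
import Cfsg.Agent.Lib.H34VMain
import Cfsg.Agent.Lib.H34VPerm
import Cfsg.Agent.Lib.H34VGen

set_option autoImplicit false
set_option maxRecDepth 1000000
set_option maxHeartbeats 4000000

/-! existence of the covering group (generated by scratch/cov/emit4.py, helper34) -/

namespace Cfsg.Agent.Lib.Helper34L34Ex

open Cfsg.Agent.Lib.Helper34CovA Cfsg.Agent.Lib.Helper34CovB Cfsg.Agent.Lib.Helper34CovC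
  Cfsg.Agent.Lib.Helper34CovH Cfsg.Agent.Lib.Helper34CovP Cfsg.Agent.Lib.Helper34CovQ Cfsg.Agent.Lib.Helper34CovV
  Cfsg.Agent.Lib.Helper34L34Tab Cfsg.Agent.Lib.Helper34L34Vol Cfsg.Agent.Lib.Helper34L34Cert Cfsg.Agent.Lib

universe u

theorem cl (k : ℕ) (hk : k < 8) :
    (List.range 2880).all (fun i => chkCl C p1 p2 4 12 e1 e2 k i) = true := by
  interval_cases k
  · exact Helper34L34VCx1.c0
  · exact Helper34L34VCx0.c1
  · exact Helper34L34VCx1.c2
  · exact Helper34L34VCx0.c3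
  · exact Helper34L34VCx0.c4
  · exact Helper34L34VCx1.c5
  · exact Helper34L34VCx1.c6
  · exact Helper34L34VCx0.c7

theorem hlet : ∀ k < C.m, ∀ l ∈ C.rel k, l < 2 := by decide +kernel

def ee (k : ℕ) : Multiplicative (ZMod 4 × ZMod 12) :=
  Multiplicative.ofAdd (-(((e1 k : ℕ) : ZMod 4), ((e2 k : ℕ) : ZMod 12)))

theorem g1 : Multiplicative.ofAdd ((1, 0) : ZMod 4 × ZMod 12) = H34VStem.ev ee C.m w1 := by
  decide +kernel
theorem g2 : Multiplicative.ofAdd ((0, 1) : ZMod 4 × ZMod 12) = H34VStem.ev ee C.m w2 := by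
  decide +kernel

theorem exists_stem {G : Type u} [Group G] [Finite G] (ux uy : G) (M : Model G C 7 ux uy) :
    ∃ (Γ : Type u) (_ : Group Γ) (_ : Finite Γ) (σ : Γ →* G),
      Cfsg.IsStemExtension σ ∧ Nat.card σ.ker = 48 := by
  obtain ⟨X, Y, δ, hδ, hcx, hcy, hrel⟩ := H34VPerm.exists_perms C p1 p2 4 12 e1 e2 (by decide)
    (T_lt C chk1) hlet
    (fun k hk i hi => of_chkCl C p1 p2 4 12 e1 e2 k i (all_of_range (cl k hk) i hi))
    ⟨1, by decide, _, rfl⟩ ⟨0, by decide, _, rfl⟩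
  obtain ⟨Γ, i1, i2, σ, h1, h2⟩ := H34VMain.exists_stem X Y ux uy C 7 M chk1 chk6 (by decide) δ hδ
    hcx hcy ee hrel [w1, w2]
    (by decide +kernel) (by decide +kernel)
    (H34VGen.closure_top 4 12 _ ⟨w1, by simp, g1⟩ ⟨w2, by simp, g2⟩)
  refine ⟨Γ, i1, i2, σ, h1, ?_⟩
  rw [h2, Nat.card_eq_fintype_card]
  rfl

end Cfsg.Agent.Lib.Helper34L34Ex
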