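import Cfsg.Agent.Lib.Helper34L34Cert
import Cfsg.Agent.Lib.Helper11L34Bridge

/-! The kernel of every stem extension of `PSL₃(4)` is generated by two elements of orders
dividing 4 and 12. -/

set_option autoImplicit false
open Cfsg

namespace Cfsg.Agent.Lib.Helper34L34Ker

universe u v

theorem ker_gen {F : Type u} [Field F] [Fintype F] (hF : Fintype.card F = 4)
    {Γ : Type v} [Group Γ] [Finite Γ]
    (σ : Γ →* Matrix.ProjectiveSpecialLinearGroup (Fin 3) F) (hσ : IsStemExtension σ) :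
    ∃ b₁ b₂ : Γ, b₁ ∈ σ.ker ∧ b₂ ∈ σ.ker ∧ b₁ ^ 4 = 1 ∧ b₂ ^ 12 = 1 ∧
      ∀ k ∈ σ.ker, ∃ i j : ℤ, k = b₁ ^ i * b₂ ^ j := by
  obtain ⟨ρ, hρ, hx, hy⟩ := Cfsg.Agent.Lib.Helper11L34Bridge.bridge hF
  obtain ⟨b₁, b₂, m₁, m₂, e₁, e₂, hg⟩ :=
    Cfsg.Agent.Lib.Helper34L34Cert.bound ρ hρ hx hy
      (Cfsg.Agent.Lib.Helper11L34Bridge.card_psl hF) σ hσ
  refine ⟨b₁, b₂, m₁, m₂, ?_, ?_, hg⟩
  · exact_mod_cast e₁
  · exact_mod_cast e₂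

end Cfsg.Agent.Lib.Helper34L34Ker
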