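import Cfsg.Agent.Lib.Helper34M24

/-! # Flags (dodecad, points) under the group of the length-24 code (helper34) -/

set_option autoImplicit false

namespace Cfsg.Agent.Lib.Helper34M12

open Cfsg Cfsg.Agent.Lib.Helper33Golay Cfsg.Agent.Lib.Helper33Orbit Cfsg.Agent.Lib.Helper33Trans
open Cfsg.Agent.Lib.Helper34M24
open scoped Pointwise

/-- pointwise stabiliser of a list of (numbered) points -/
def Fix (l : List ℕ) : Subgroup (Equiv.Perm GolayPt) where
  carrier := {g | ∀ i ∈ l, g (pt i) = pt i}
  one_mem' := fun _ _ => rfl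
  mul_mem' := fun {a b} ha hb i hi => by rw [Equiv.Perm.mul_apply, hb i hi, ha i hi]
  inv_mem' := fun {a} ha i hi => by
    rw [Equiv.Perm.inv_eq_iff_eq]; exact (ha i hi).symm

theorem mem_Fix {l : List ℕ} {g : Equiv.Perm GolayPt} : g ∈ Fix l ↔ ∀ i ∈ l, g (pt i) = pt i := Iff.rfl

/-- the standard dodecad {0, 2, 3, 12, 14, 15, 16, 18, 19, 20, 21, 22} -/
def d0 : ℕ := 8245261

theorem d0_mem : d0 ∈ dodL := by decide +kernel

theorem d0_lt : d0 < 2 ^ 24 := by decide

/-- the stabiliser of the standard dodecad fixing the listed points -/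
def HD (l : List ℕ) : Subgroup (Equiv.Perm GolayPt) :=
  M24 ⊓ MulAction.stabilizer (Equiv.Perm GolayPt) (dec d0) ⊓ Fix l

def inHD (l : List ℕ) (P : ℕ) : Bool :=
  inM24 P && Nat.beq (app P d0) d0 && l.all (fun i => Nat.blt i 24 && Nat.beq (img P i) i)

theorem inHD_spec {l : List ℕ} {P : ℕ} (h : inHD l P = true) : validPerm P = true ∧ toPerm P ∈ HD l := by
  unfold inHD at h
  rw [Bool.and_eq_true, Bool.and_eq_true] at h
  have hv := inM24_valid h.1.1
  refine ⟨hv, Subgroup.mem_inf.2 ⟨Subgroup.mem_inf.2 ⟨toPerm_mem_M24 h.1.1, ?_⟩, ?_⟩⟩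
  · rw [MulAction.mem_stabilizer_iff, smul_dec hv, Nat.eq_of_beq_eq_true h.1.2]
  · intro i hi
    have h2 := List.all_eq_true.1 h.2 i hi
    rw [Bool.and_eq_true] at h2
    have hi24 : i < 24 := by simpa [Nat.blt] using h2.1
    rw [toPerm_pt hv hi24, Nat.eq_of_beq_eq_true h2.2]

theorem HD_M24 {l : List ℕ} {g : Equiv.Perm GolayPt} (h : g ∈ HD l) : g ∈ M24 := h.1.1

theorem HD_smul {l : List ℕ} {g : Equiv.Perm GolayPt} (h : g ∈ HD l) : g • dec d0 = dec d0 :=
  MulAction.mem_stabilizer_iff.1 h.1.2

theorem HD_fix {l : List ℕ} {g : Equiv.Perm GolayPt} (h : g ∈ HD l) {i : ℕ} (hi : i ∈ l) :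
    g (pt i) = pt i := h.2 i hi

def D1 : List ℕ := [984818244535754528103549039458486304, 485588004438217978087630600073740724, 476988580371750162191834792554662451, 190196259936366363761359533716361571, 979336767053594284940499768065480940, 561663638904761489752217323230121140, 980558779772544790030756141688600854, 480871212766240279556038652587596115, 976745092617732046736870406309893423, 402890641078342896009479211004150131, 228489559335496635182816905458747955, 373952474356195839567942765591873584]

def D2 : List ℕ := [984818244535754528103549039458486304, 461615699306433448187439320631687328, 561340657800681757953503800558507552, 971613208195407541598978153389838880, 726195698175380333047227966094331296, 192710164488264121304711149001453984, 971717689096759693414291594385441056, 185141735940729266933507975771959712, 726275204874778201878692403551516864, 318137777595105461358306338862153984, 709260236605184876036985319596349728]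

def D3 : List ℕ := [984818244535754528103549039458486304, 975726649136091593640438789241702432, 971634673966735795557231856693217824, 486073511990513831341034671554660896, 182489215768271843905620038042224672, 735222972379075297105737860721937120, 480921423429628494606401348553869728, 353689199873406915432601141926103168, 568696726458174664146872500378634432, 46188770581236358747299964694137024]

def D4 : List ℕ := [984818244535754528103549039458486304, 734003548015605117403463454985128064, 318662669349828903646717580347017344, 351234792836758687225904649378826976, 482217670708688711661397270384970272, 981940551097502478945506534821562624, 195221538914226725496644676547086624, 564029314892313031157123960575985856, 722569179908263461381309138687068288, 440885969965853753726741117184084384, 233032711263187665576133505826523680, 68417224896965207915481748531677504]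

def D5 : List ℕ := [984818244535754528103549039458486304, 726195698175380333047227966094331296, 185141735940729266933507975771959712, 561340657800681757953503800558507552, 971613208195407541598978153389838880, 710724090644602808834190234067031200, 318137777595105461358306338862153984, 543102900602203000761188783161985280, 709260236605184876036985319596349728, 294771206537416582374122803435094304, 227267427672764634589552942225932416, 68417224896965207915481748531677504]

def D6 : List ℕ := [984818244535754528103549039458486304, 401617684807888626572967181144902688, 401214688515414402133339803564264480, 389507974666004828305039616044091424, 226638659665912597256850071556177952, 309699207081308264293872929548095520, 228038541984707640989224992225495072, 353703220743533099954380300443801632, 293999370943752683831240480545910816, 353183170568915096940080068224469024, 190172455555934124293024322518923296]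

theorem D1_ok : D1.all (inHD []) = true := by decide +kernel
theorem D2_ok : D2.all (inHD [0]) = true := by decide +kernel
theorem D3_ok : D3.all (inHD [0, 2]) = true := by decide +kernel
theorem D4_ok : D4.all (inHD [0, 2, 3]) = true := by decide +kernel
theorem D5_ok : D5.all (inHD [0]) = true := by decide +kernel
theorem D6_ok : D6.all (inHD [0, 1]) = true := by decide +kernel

theorem moveD1 : ∀ x ∈ dec d0, ∃ g ∈ HD [], g x = pt 0 :=
  move_point _ D1 d0 0 (fun P hP => inHD_spec (List.all_eq_true.1 D1_ok P hP)) (by decide +kernel)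

theorem moveD2 : ∀ x ∈ dec (d0 ^^^ 1), ∃ g ∈ HD [0], g x = pt 2 :=
  move_point _ D2 _ 2 (fun P hP => inHD_spec (List.all_eq_true.1 D2_ok P hP)) (by decide +kernel)

theorem moveD3 : ∀ x ∈ dec (d0 ^^^ 5), ∃ g ∈ HD [0, 2], g x = pt 3 :=
  move_point _ D3 _ 3 (fun P hP => inHD_spec (List.all_eq_true.1 D3_ok P hP)) (by decide +kernel)

theorem moveD4 : ∀ x ∈ dec (d0 ^^^ 16777215), ∃ g ∈ HD [0, 2, 3], g x = pt 1 :=
  move_point _ D4 _ 1 (fun P hP => inHD_spec (List.all_eq_true.1 D4_ok P hP)) (by decide +kernel)

theorem moveD5 : ∀ x ∈ dec (d0 ^^^ 16777215), ∃ g ∈ HD [0], g x = pt 1 :=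
  move_point _ D5 _ 1 (fun P hP => inHD_spec (List.all_eq_true.1 D5_ok P hP)) (by decide +kernel)

theorem moveD6 : ∀ x ∈ dec (d0 ^^^ 16777215 ^^^ 2), ∃ g ∈ HD [0, 1], g x = pt 4 :=
  move_point _ D6 _ 4 (fun P hP => inHD_spec (List.all_eq_true.1 D6_ok P hP)) (by decide +kernel)

/-- membership in a decoded mask from which some points were removed -/
theorem mem_dec_of {m m' : ℕ} {x : GolayPt} (hx : x ∈ dec m) (l : List ℕ)
    (hl : ∀ i ∈ l, x ≠ pt i)
    (hchk : (List.range 24).all (fun i => !(m.testBit i) || l.contains i || m'.testBit i) = true) :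
    x ∈ dec m' := by
  rw [mem_dec] at hx ⊢
  have h := List.all_eq_true.1 hchk (idx x) (List.mem_range.2 (idx_lt x))
  rw [hx] at h
  simp only [Bool.not_true, Bool.false_or, Bool.or_eq_true, List.contains_iff_mem] at h
  rcases h with h | h
  · exact absurd (pt_idx x).symm (hl _ h)
  · exact h

/-- transitivity on (dodecad, point of the dodecad) -/
theorem dflag1 {d : Finset GolayPt} (hd : d ∈ dodecads) {x : GolayPt} (hx : x ∈ d) :
    ∃ k ∈ M24, k • d = dec d0 ∧ k x = pt 0 := by
  obtain ⟨k, hk, hkd⟩ := dodecad_trans hd (dec_mem_dodecads d0_mem)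
  obtain ⟨g, hg, hgx⟩ := moveD1 (k x) (by rw [← hkd, smul_mem_smul]; exact hx)
  refine ⟨g * k, M24.mul_mem (HD_M24 hg) hk, ?_, ?_⟩
  · rw [mul_smul, hkd]; exact HD_smul hg
  · rw [Equiv.Perm.mul_apply, hgx]

/-- transitivity on (dodecad, two distinct points of the dodecad) -/
theorem dflag2 {d : Finset GolayPt} (hd : d ∈ dodecads) {p q : GolayPt} (hp : p ∈ d) (hq : q ∈ d)
    (hpq : p ≠ q) : ∃ k ∈ M24, k • d = dec d0 ∧ k p = pt 0 ∧ k q = pt 2 := by
  obtain ⟨k, hk, hkd, hkp⟩ := dflag1 hd hp
  obtain ⟨g, hg, hgx⟩ := moveD2 (k q) (mem_dec_of (m := d0)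
    (by rw [← hkd, smul_mem_smul]; exact hq) [0]
    (by
      intro i hi
      simp only [List.mem_singleton] at hi
      subst hi
      rw [← hkp]
      exact fun h => hpq (k.injective h).symm) (by decide +kernel))
  refine ⟨g * k, M24.mul_mem (HD_M24 hg) hk, ?_, ?_, ?_⟩
  · rw [mul_smul, hkd]; exact HD_smul hg
  · rw [Equiv.Perm.mul_apply, hkp]; exact HD_fix hg (by simp)
  · rw [Equiv.Perm.mul_apply, hgx]

/-- transitivity on (dodecad, three distinct points of the dodecad) -/
theorem dflag3 {d : Finset GolayPt} (hd : d ∈ dodecads) {p q r : GolayPt} (hp : p ∈ d) (hq : q ∈ d)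
    (hr : r ∈ d) (hpq : p ≠ q) (hpr : p ≠ r) (hqr : q ≠ r) :
    ∃ k ∈ M24, k • d = dec d0 ∧ k p = pt 0 ∧ k q = pt 2 ∧ k r = pt 3 := by
  obtain ⟨k, hk, hkd, hkp, hkq⟩ := dflag2 hd hp hq hpq
  obtain ⟨g, hg, hgx⟩ := moveD3 (k r) (mem_dec_of (m := d0)
    (by rw [← hkd, smul_mem_smul]; exact hr) [0, 2]
    (by
      intro i hi
      simp only [List.mem_cons, List.not_mem_nil, or_false] at hi
      rcases hi with rfl | rfl
      · rw [← hkp]; exact fun h => hpr (k.injective h).symm
      · rw [← hkq]; exact fun h => hqr (k.injective h).symm) (by decide +kernel))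
  refine ⟨g * k, M24.mul_mem (HD_M24 hg) hk, ?_, ?_, ?_, ?_⟩
  · rw [mul_smul, hkd]; exact HD_smul hg
  · rw [Equiv.Perm.mul_apply, hkp]; exact HD_fix hg (by simp)
  · rw [Equiv.Perm.mul_apply, hkq]; exact HD_fix hg (by simp)
  · rw [Equiv.Perm.mul_apply, hgx]

/-- transitivity on (dodecad, point of it, point off it) -/
theorem dflag_in_out {d : Finset GolayPt} (hd : d ∈ dodecads) {p q : GolayPt} (hp : p ∈ d) (hq : q ∉ d) :
    ∃ k ∈ M24, k • d = dec d0 ∧ k p = pt 0 ∧ k q = pt 1 := by
  obtain ⟨k, hk, hkd, hkp⟩ := dflag1 hd hp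
  obtain ⟨g, hg, hgx⟩ := moveD5 (k q) (by
    rw [dec_compl, Finset.mem_compl, ← hkd, smul_mem_smul]; exact hq)
  refine ⟨g * k, M24.mul_mem (HD_M24 hg) hk, ?_, ?_, ?_⟩
  · rw [mul_smul, hkd]; exact HD_smul hg
  · rw [Equiv.Perm.mul_apply, hkp]; exact HD_fix hg (by simp)
  · rw [Equiv.Perm.mul_apply, hgx]

/-- transitivity on (dodecad, point of it, two distinct points off it) -/
theorem dflag_in_out2 {d : Finset GolayPt} (hd : d ∈ dodecads) {p q q' : GolayPt} (hp : p ∈ d)
    (hq : q ∉ d) (hq' : q' ∉ d) (hqq : q ≠ q') :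
    ∃ k ∈ M24, k • d = dec d0 ∧ k p = pt 0 ∧ k q = pt 1 ∧ k q' = pt 4 := by
  obtain ⟨k, hk, hkd, hkp, hkq⟩ := dflag_in_out hd hp hq
  obtain ⟨g, hg, hgx⟩ := moveD6 (k q') (mem_dec_of (m := d0 ^^^ 16777215)
    (by rw [dec_compl, Finset.mem_compl, ← hkd, smul_mem_smul]; exact hq') [1]
    (by
      intro i hi
      simp only [List.mem_singleton] at hi
      subst hi
      rw [← hkq]
      exact fun h => hqq (k.injective h).symm) (by decide +kernel))
  refine ⟨g * k, M24.mul_mem (HD_M24 hg) hk, ?_, ?_, ?_, ?_⟩
  · rw [mul_smul, hkd]; exact HD_smul hg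
  · rw [Equiv.Perm.mul_apply, hkp]; exact HD_fix hg (by simp)
  · rw [Equiv.Perm.mul_apply, hkq]; exact HD_fix hg (by simp)
  · rw [Equiv.Perm.mul_apply, hgx]

theorem pop_land_enc_d (s : Finset GolayPt) : pop (Nat.land d0 (enc s)) = (dec d0 ∩ s).card := by
  rw [card_eq_pop, enc_inter, enc_dec d0_lt]; rfl

/-- counting dodecads cut out by a Bool test on masks -/
theorem count_dodecads (q : ℕ → Bool) (Q : Finset GolayPt → Prop) (hQ : ∀ s, Q s ↔ q (enc s) = true) :
    {U : Finset GolayPt | U ∈ dodecads ∧ Q U}.ncard = (dodL.filter q).length :=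
  ncard_filter _ dodL dodL_nodup (fun _ h => dodL_lt h) q
    (fun s => by rw [← mem_dodecads_iff, ← hQ]; rfl)

theorem isDod_enc_smul {k : Equiv.Perm GolayPt} (hk : k ∈ M24) {o : Finset GolayPt} (ho : o ∈ dodecads) :
    isDod (enc (k • o)) = true :=
  isDod_iff.2 ((mem_dodecads_iff _).1 (smul_mem_dodecads hk ho))

theorem card_inter_of_smul_d {k : Equiv.Perm GolayPt} {o : Finset GolayPt} (hko : k • o = dec d0)
    (U : Finset GolayPt) : (dec d0 ∩ k • U).card = (o ∩ U).card := by
  rw [← hko, ← Finset.smul_finset_inter, Finset.card_smul_finset]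

end Cfsg.Agent.Lib.Helper34M12
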