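import Cfsg.Agent.Lib.Helper34M22Tab

set_option autoImplicit false
set_option maxRecDepth 1000000
set_option maxHeartbeats 4000000

namespace Cfsg.Agent.Lib.Helper34M22K1x1x3

open Cfsg.Agent.Lib.Helper34CovA Cfsg.Agent.Lib.Helper34CovB Cfsg.Agent.Lib.Helper34CovC
  Cfsg.Agent.Lib.Helper34CovH Cfsg.Agent.Lib.Helper34CovP Cfsg.Agent.Lib.Helper34CovQ Cfsg.Agent.Lib.Helper34CovV Cfsg.Agent.Lib.Helper34M22Tab

theorem k24 : (List.range 630).all (fun t => C.chkE 1 (24 * 630 + t)) = true := by decide +kernel
theorem k25 : (List.range 630).all (fun t => C.chkE 1 (25 * 630 + t)) = true := by decide +kernel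
theorem k26 : (List.range 630).all (fun t => C.chkE 1 (26 * 630 + t)) = true := by decide +kernel
theorem k27 : (List.range 630).all (fun t => C.chkE 1 (27 * 630 + t)) = true := by decide +kernel
theorem k28 : (List.range 630).all (fun t => C.chkE 1 (28 * 630 + t)) = true := by decide +kernel
theorem k29 : (List.range 630).all (fun t => C.chkE 1 (29 * 630 + t)) = true := by decide +kernel
theorem k30 : (List.range 630).all (fun t => C.chkE 1 (30 * 630 + t)) = true := by decide +kernel
theorem k31 : (List.range 630).all (fun t => C.chkE 1 (31 * 630 + t)) = true := by decide +kernel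

end Cfsg.Agent.Lib.Helper34M22K1x1x3
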