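import Cfsg.Agent.Lib.Helper34M22Tab

set_option autoImplicit false
set_option maxRecDepth 1000000
set_option maxHeartbeats 4000000

namespace Cfsg.Agent.Lib.Helper34M22K1x1x6

open Cfsg.Agent.Lib.Helper34CovA Cfsg.Agent.Lib.Helper34CovB Cfsg.Agent.Lib.Helper34CovC
  Cfsg.Agent.Lib.Helper34CovH Cfsg.Agent.Lib.Helper34CovP Cfsg.Agent.Lib.Helper34CovQ Cfsg.Agent.Lib.Helper34CovV Cfsg.Agent.Lib.Helper34M22Tab

theorem k48 : (List.range 630).all (fun t => C.chkE 1 (48 * 630 + t)) = true := by decide +kernel
theorem k49 : (List.range 630).all (fun t => C.chkE 1 (49 * 630 + t)) = true := by decide +kernel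
theorem k50 : (List.range 630).all (fun t => C.chkE 1 (50 * 630 + t)) = true := by decide +kernel
theorem k51 : (List.range 630).all (fun t => C.chkE 1 (51 * 630 + t)) = true := by decide +kernel
theorem k52 : (List.range 630).all (fun t => C.chkE 1 (52 * 630 + t)) = true := by decide +kernel
theorem k53 : (List.range 630).all (fun t => C.chkE 1 (53 * 630 + t)) = true := by decide +kernel
theorem k54 : (List.range 630).all (fun t => C.chkE 1 (54 * 630 + t)) = true := by decide +kernel
theorem k55 : (List.range 630).all (fun t => C.chkE 1 (55 * 630 + t)) = true := by decide +kernel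

end Cfsg.Agent.Lib.Helper34M22K1x1x6
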