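import Cfsg.Agent.Lib.Helper34M22Tab

set_option autoImplicit false
set_option maxRecDepth 1000000
set_option maxHeartbeats 4000000

namespace Cfsg.Agent.Lib.Helper34M22K1x1x7

open Cfsg.Agent.Lib.Helper34CovA Cfsg.Agent.Lib.Helper34CovB Cfsg.Agent.Lib.Helper34CovC
  Cfsg.Agent.Lib.Helper34CovH Cfsg.Agent.Lib.Helper34CovP Cfsg.Agent.Lib.Helper34CovQ Cfsg.Agent.Lib.Helper34CovV Cfsg.Agent.Lib.Helper34M22Tab

theorem k56 : (List.range 630).all (fun t => C.chkE 1 (56 * 630 + t)) = true := by decide +kernel
theorem k57 : (List.range 630).all (fun t => C.chkE 1 (57 * 630 + t)) = true := by decide +kernel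
theorem k58 : (List.range 630).all (fun t => C.chkE 1 (58 * 630 + t)) = true := by decide +kernel
theorem k59 : (List.range 630).all (fun t => C.chkE 1 (59 * 630 + t)) = true := by decide +kernel
theorem k60 : (List.range 630).all (fun t => C.chkE 1 (60 * 630 + t)) = true := by decide +kernel
theorem k61 : (List.range 630).all (fun t => C.chkE 1 (61 * 630 + t)) = true := by decide +kernel
theorem k62 : (List.range 630).all (fun t => C.chkE 1 (62 * 630 + t)) = true := by decide +kernel
theorem k63 : (List.range 630).all (fun t => C.chkE 1 (63 * 630 + t)) = true := by decide +kernel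

end Cfsg.Agent.Lib.Helper34M22K1x1x7
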