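import Cfsg.Agent.Lib.Helper34M22K1x0x0
import Cfsg.Agent.Lib.Helper34M22K1x0x1
import Cfsg.Agent.Lib.Helper34M22K1x0x2
import Cfsg.Agent.Lib.Helper34M22K1x0x3
import Cfsg.Agent.Lib.Helper34M22K1x0x4
import Cfsg.Agent.Lib.Helper34M22K1x0x5
import Cfsg.Agent.Lib.Helper34M22K1x0x6
import Cfsg.Agent.Lib.Helper34M22K1x0x7
import Cfsg.Agent.Lib.Helper34M22K1x1x0
import Cfsg.Agent.Lib.Helper34M22K1x1x1
import Cfsg.Agent.Lib.Helper34M22K1x1x2
import Cfsg.Agent.Lib.Helper34M22K1x1x3
import Cfsg.Agent.Lib.Helper34M22K1x1x4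
import Cfsg.Agent.Lib.Helper34M22K1x1x5
import Cfsg.Agent.Lib.Helper34M22K1x1x6
import Cfsg.Agent.Lib.Helper34M22K1x1x7
import Cfsg.Agent.Lib.H34MModel
import Cfsg.Agent.Lib.Helper34M22Lev

set_option autoImplicit false
set_option maxRecDepth 1000000
set_option maxHeartbeats 4000000

/-! assembly of the certificate (generated by scratch/cov/emit5.py, helper34) -/

namespace Cfsg.Agent.Lib.Helper34M22Cert

open Cfsg.Agent.Lib.Helper34CovA Cfsg.Agent.Lib.Helper34CovB Cfsg.Agent.Lib.Helper34CovC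
  Cfsg.Agent.Lib.Helper34CovH Cfsg.Agent.Lib.Helper34CovP Cfsg.Agent.Lib.Helper34CovQ Cfsg.Agent.Lib.Helper34CovV Cfsg.Agent.Lib.Helper34M22Defs
  Cfsg.Agent.Lib.Helper34M22Tab Cfsg.Agent.Lib.Helper34M22Lev Cfsg.Agent.Lib

theorem chk1 : C.chkAll = true := by
  refine chkAll_of_chunks C 64 630 rfl ?_
  intro l hl c hc
  interval_cases l
  · interval_cases c
    · exact Helper34M22K1x0x0.k0
    · exact Helper34M22K1x0x0.k1
    · exact Helper34M22K1x0x0.k2
    · exact Helper34M22K1x0x0.k3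
    · exact Helper34M22K1x0x0.k4
    · exact Helper34M22K1x0x0.k5
    · exact Helper34M22K1x0x0.k6
    · exact Helper34M22K1x0x0.k7
    · exact Helper34M22K1x0x1.k8
    · exact Helper34M22K1x0x1.k9
    · exact Helper34M22K1x0x1.k10
    · exact Helper34M22K1x0x1.k11
    · exact Helper34M22K1x0x1.k12
    · exact Helper34M22K1x0x1.k13
    · exact Helper34M22K1x0x1.k14
    · exact Helper34M22K1x0x1.k15
    · exact Helper34M22K1x0x2.k16
    · exact Helper34M22K1x0x2.k17
    · exact Helper34M22K1x0x2.k18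
    · exact Helper34M22K1x0x2.k19
    · exact Helper34M22K1x0x2.k20
    · exact Helper34M22K1x0x2.k21
    · exact Helper34M22K1x0x2.k22
    · exact Helper34M22K1x0x2.k23
    · exact Helper34M22K1x0x3.k24
    · exact Helper34M22K1x0x3.k25
    · exact Helper34M22K1x0x3.k26
    · exact Helper34M22K1x0x3.k27
    · exact Helper34M22K1x0x3.k28
    · exact Helper34M22K1x0x3.k29
    · exact Helper34M22K1x0x3.k30
    · exact Helper34M22K1x0x3.k31
    · exact Helper34M22K1x0x4.k32
    · exact Helper34M22K1x0x4.k33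
    · exact Helper34M22K1x0x4.k34
    · exact Helper34M22K1x0x4.k35
    · exact Helper34M22K1x0x4.k36
    · exact Helper34M22K1x0x4.k37
    · exact Helper34M22K1x0x4.k38
    · exact Helper34M22K1x0x4.k39
    · exact Helper34M22K1x0x5.k40
    · exact Helper34M22K1x0x5.k41
    · exact Helper34M22K1x0x5.k42
    · exact Helper34M22K1x0x5.k43
    · exact Helper34M22K1x0x5.k44
    · exact Helper34M22K1x0x5.k45
    · exact Helper34M22K1x0x5.k46
    · exact Helper34M22K1x0x5.k47
    · exact Helper34M22K1x0x6.k48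
    · exact Helper34M22K1x0x6.k49
    · exact Helper34M22K1x0x6.k50
    · exact Helper34M22K1x0x6.k51
    · exact Helper34M22K1x0x6.k52
    · exact Helper34M22K1x0x6.k53
    · exact Helper34M22K1x0x6.k54
    · exact Helper34M22K1x0x6.k55
    · exact Helper34M22K1x0x7.k56
    · exact Helper34M22K1x0x7.k57
    · exact Helper34M22K1x0x7.k58
    · exact Helper34M22K1x0x7.k59
    · exact Helper34M22K1x0x7.k60
    · exact Helper34M22K1x0x7.k61
    · exact Helper34M22K1x0x7.k62
    · exact Helper34M22K1x0x7.k63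
  · interval_cases c
    · exact Helper34M22K1x1x0.k0
    · exact Helper34M22K1x1x0.k1
    · exact Helper34M22K1x1x0.k2
    · exact Helper34M22K1x1x0.k3
    · exact Helper34M22K1x1x0.k4
    · exact Helper34M22K1x1x0.k5
    · exact Helper34M22K1x1x0.k6
    · exact Helper34M22K1x1x0.k7
    · exact Helper34M22K1x1x1.k8
    · exact Helper34M22K1x1x1.k9
    · exact Helper34M22K1x1x1.k10
    · exact Helper34M22K1x1x1.k11
    · exact Helper34M22K1x1x1.k12
    · exact Helper34M22K1x1x1.k13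
    · exact Helper34M22K1x1x1.k14
    · exact Helper34M22K1x1x1.k15
    · exact Helper34M22K1x1x2.k16
    · exact Helper34M22K1x1x2.k17
    · exact Helper34M22K1x1x2.k18
    · exact Helper34M22K1x1x2.k19
    · exact Helper34M22K1x1x2.k20
    · exact Helper34M22K1x1x2.k21
    · exact Helper34M22K1x1x2.k22
    · exact Helper34M22K1x1x2.k23
    · exact Helper34M22K1x1x3.k24
    · exact Helper34M22K1x1x3.k25
    · exact Helper34M22K1x1x3.k26
    · exact Helper34M22K1x1x3.k27
    · exact Helper34M22K1x1x3.k28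
    · exact Helper34M22K1x1x3.k29
    · exact Helper34M22K1x1x3.k30
    · exact Helper34M22K1x1x3.k31
    · exact Helper34M22K1x1x4.k32
    · exact Helper34M22K1x1x4.k33
    · exact Helper34M22K1x1x4.k34
    · exact Helper34M22K1x1x4.k35
    · exact Helper34M22K1x1x4.k36
    · exact Helper34M22K1x1x4.k37
    · exact Helper34M22K1x1x4.k38
    · exact Helper34M22K1x1x4.k39
    · exact Helper34M22K1x1x5.k40
    · exact Helper34M22K1x1x5.k41
    · exact Helper34M22K1x1x5.k42
    · exact Helper34M22K1x1x5.k43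
    · exact Helper34M22K1x1x5.k44
    · exact Helper34M22K1x1x5.k45
    · exact Helper34M22K1x1x5.k46
    · exact Helper34M22K1x1x5.k47
    · exact Helper34M22K1x1x6.k48
    · exact Helper34M22K1x1x6.k49
    · exact Helper34M22K1x1x6.k50
    · exact Helper34M22K1x1x6.k51
    · exact Helper34M22K1x1x6.k52
    · exact Helper34M22K1x1x6.k53
    · exact Helper34M22K1x1x6.k54
    · exact Helper34M22K1x1x6.k55
    · exact Helper34M22K1x1x7.k56
    · exact Helper34M22K1x1x7.k57
    · exact Helper34M22K1x1x7.k58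
    · exact Helper34M22K1x1x7.k59
    · exact Helper34M22K1x1x7.k60
    · exact Helper34M22K1x1x7.k61
    · exact Helper34M22K1x1x7.k62
    · exact Helper34M22K1x1x7.k63

theorem top {G : Type*} [Group G] (ρ : G →* Equiv.Perm (Fin 24)) (hρ : Function.Injective ρ)
    (ux uy : G) (hux : ∀ p : Fin 24, ((ρ ux p : Fin 24) : ℕ) = fx p)
    (huy : ∀ p : Fin 24, ((ρ uy p : Fin 24) : ℕ) = fy p) (hcard : Nat.card G = 443520) :
    Subgroup.closure ({ux, uy} : Set G) = ⊤ := by
  have hfin : Finite G := Nat.finite_of_card_ne_zero (by rw [hcard]; norm_num)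
  have h := H34MChain.le_card_closure (ρ ux) (ρ uy) fx fy hux huy levels chkL
  rw [prodL] at h
  have e : (Subgroup.closure ({ux, uy} : Set G)).map ρ =
      Subgroup.closure ({ρ ux, ρ uy} : Set (Equiv.Perm (Fin 24))) := by
    rw [MonoidHom.map_closure, Set.image_pair]
  have c : Nat.card ((Subgroup.closure ({ux, uy} : Set G)).map ρ) =
      Nat.card (Subgroup.closure ({ux, uy} : Set G)) := Subgroup.card_map_of_injective hρ
  apply Subgroup.eq_top_of_le_card
  rw [hcard, ← c, e]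
  exact h

theorem model {G : Type*} [Group G] (ρ : G →* Equiv.Perm (Fin 24)) (hρ : Function.Injective ρ)
    (ux uy : G) (hux : ∀ p : Fin 24, ((ρ ux p : Fin 24) : ℕ) = fx p)
    (huy : ∀ p : Fin 24, ((ρ uy p : Fin 24) : ℕ) = fy p) (hcard : Nat.card G = 443520) :
    Model G C 11 ux uy := by
  have hfin : Finite G := Nat.finite_of_card_ne_zero (by rw [hcard]; norm_num)
  refine H34MModel.model_of_top ux uy C 11 hcard (top ρ hρ ux uy hux huy hcard) ?_ chk1 chk6
    (by decide) (by decide)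
  intro k hk
  apply hρ
  rw [map_wev, map_one]
  exact wev_eq_one (ρ ux) (ρ uy) fx fy hux huy (all_of_range chk5 k hk)

theorem bound {G : Type*} [Group G] (ux uy : G) (M : Model G C 11 ux uy)
    {Γ : Type*} [Group Γ] [Finite Γ] (σ : Γ →* G) (hσ : Cfsg.IsStemExtension σ) :
    ∃ b₁ b₂ : Γ, b₁ ∈ σ.ker ∧ b₂ ∈ σ.ker ∧ b₁ ^ (1 : ℤ) = 1 ∧ b₂ ^ (12 : ℤ) = 1 ∧
      ∀ k ∈ σ.ker, ∃ i j : ℤ, k = b₁ ^ i * b₂ ^ j :=
  stem_bound2 σ hσ C B ux uy M chk1 chk2 chk3 chk4

end Cfsg.Agent.Lib.Helper34M22Cert
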