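import Cfsg.Agent.Lib.Helper33Golay

set_option autoImplicit false

/-!
# PROJECT 34: vocabulary for `M22` (helper34)

Two generators of `Spor.M22` as packed permutations in the format of `Helper33Golay` (`img P i` is the image of the point `pt i`;
`pt i = some i` for `i < 23`, `pt 23 = none`): `PX` is an involution, `PY` has order 11.
-/

namespace Cfsg.Agent.Lib.Helper34M22Defs

open Cfsg.Agent.Lib.Helper33Golay

def PX : ℕ := 984389335412866629269198819667628320
def PY : ℕ := 963515020750256529682550057428731168
def fx (p : ℕ) : ℕ := img PX p
def fy (p : ℕ) : ℕ := img PY p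

end Cfsg.Agent.Lib.Helper34M22Defs
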