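import Cfsg.Agent.Lib.Helper34M22Tab

set_option autoImplicit false
set_option maxRecDepth 1000000
set_option maxHeartbeats 4000000

namespace Cfsg.Agent.Lib.Helper34M22K1x0x0

open Cfsg.Agent.Lib.Helper34CovA Cfsg.Agent.Lib.Helper34CovB Cfsg.Agent.Lib.Helper34CovC
  Cfsg.Agent.Lib.Helper34CovH Cfsg.Agent.Lib.Helper34CovP Cfsg.Agent.Lib.Helper34CovQ Cfsg.Agent.Lib.Helper34CovV Cfsg.Agent.Lib.Helper34M22Tab

theorem k0 : (List.range 630).all (fun t => C.chkE 0 (0 * 630 + t)) = true := by decide +kernel
theorem k1 : (List.range 630).all (fun t => C.chkE 0 (1 * 630 + t)) = true := by decide +kernel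
theorem k2 : (List.range 630).all (fun t => C.chkE 0 (2 * 630 + t)) = true := by decide +kernel
theorem k3 : (List.range 630).all (fun t => C.chkE 0 (3 * 630 + t)) = true := by decide +kernel
theorem k4 : (List.range 630).all (fun t => C.chkE 0 (4 * 630 + t)) = true := by decide +kernel
theorem k5 : (List.range 630).all (fun t => C.chkE 0 (5 * 630 + t)) = true := by decide +kernel
theorem k6 : (List.range 630).all (fun t => C.chkE 0 (6 * 630 + t)) = true := by decide +kernel
theorem k7 : (List.range 630).all (fun t => C.chkE 0 (7 * 630 + t)) = true := by decide +kernel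

end Cfsg.Agent.Lib.Helper34M22K1x0x0
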