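import Cfsg.Agent.Lib.Helper34M22Vol

set_option autoImplicit false
set_option maxRecDepth 1000000
set_option maxHeartbeats 4000000

namespace Cfsg.Agent.Lib.Helper34M22VCx0

open Cfsg.Agent.Lib.Helper34CovA Cfsg.Agent.Lib.Helper34CovB Cfsg.Agent.Lib.Helper34CovC
  Cfsg.Agent.Lib.Helper34CovH Cfsg.Agent.Lib.Helper34CovP Cfsg.Agent.Lib.Helper34CovQ Cfsg.Agent.Lib.Helper34CovV
  Cfsg.Agent.Lib.Helper34M22Tab Cfsg.Agent.Lib.Helper34M22Vol

theorem c0x7 : (List.range 5040).all (fun t => chkCl C p1 p2 1 12 e1 e2 0 (7 * 5040 + t)) = true := by decide +kernel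
theorem c1x7 : (List.range 5040).all (fun t => chkCl C p1 p2 1 12 e1 e2 1 (7 * 5040 + t)) = true := by decide +kernel
theorem c2x7 : (List.range 5040).all (fun t => chkCl C p1 p2 1 12 e1 e2 2 (7 * 5040 + t)) = true := by decide +kernel
theorem c3x7 : (List.range 5040).all (fun t => chkCl C p1 p2 1 12 e1 e2 3 (7 * 5040 + t)) = true := by decide +kernel
theorem c4x7 : (List.range 5040).all (fun t => chkCl C p1 p2 1 12 e1 e2 4 (7 * 5040 + t)) = true := by decide +kernel
theorem c5x7 : (List.range 5040).all (fun t => chkCl C p1 p2 1 12 e1 e2 5 (7 * 5040 + t)) = true := by decide +kernel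
theorem c6x7 : (List.range 5040).all (fun t => chkCl C p1 p2 1 12 e1 e2 6 (7 * 5040 + t)) = true := by decide +kernel

end Cfsg.Agent.Lib.Helper34M22VCx0
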