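import Cfsg.Agent.Lib.Helper33Transport

/-! # Flags (octad, points) under the group of the length-24 code (helper34) -/

set_option autoImplicit false

namespace Cfsg.Agent.Lib.Helper34M24

open Cfsg Cfsg.Agent.Lib.Helper33Golay Cfsg.Agent.Lib.Helper33Orbit Cfsg.Agent.Lib.Helper33Trans
open scoped Pointwise

/-- move a point by explicit elements of a subgroup -/
theorem move_point (H : Subgroup (Equiv.Perm GolayPt)) (L : List ℕ) (C t : ℕ)
    (hL : ∀ P ∈ L, validPerm P = true ∧ toPerm P ∈ H)
    (hchk : (List.range 24).all
      (fun i => !(C.testBit i) || L.any (fun P => Nat.beq (img P i) t)) = true) :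
    ∀ x ∈ dec C, ∃ g ∈ H, g x = pt t := by
  intro x hx
  have h1 := List.all_eq_true.1 hchk (idx x) (List.mem_range.2 (idx_lt x))
  rw [mem_dec] at hx
  rw [hx] at h1
  simp only [Bool.not_true, Bool.false_or, List.any_eq_true] at h1
  obtain ⟨P, hP, h2⟩ := h1
  refine ⟨toPerm P, (hL P hP).2, ?_⟩
  rw [toPerm_apply (hL P hP).1, Nat.eq_of_beq_eq_true h2]

/-- the standard octad {0, 12, 14, 16, 17, 18, 22, ∞} -/
def o0 : ℕ := 13062145

theorem o0_mem : o0 ∈ octL := by decide +kernel

theorem o0_lt : o0 < 2 ^ 24 := by decide

/-- the stabiliser of the standard octad -/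
def HO : Subgroup (Equiv.Perm GolayPt) := M24 ⊓ MulAction.stabilizer (Equiv.Perm GolayPt) (dec o0)

/-- the stabiliser of the standard octad and of its point 0 -/
def HOp : Subgroup (Equiv.Perm GolayPt) := HO ⊓ MulAction.stabilizer (Equiv.Perm GolayPt) (pt 0)

def inHO (P : ℕ) : Bool := inM24 P && Nat.beq (app P o0) o0

def inHOp (P : ℕ) : Bool := inHO P && Nat.beq (img P 0) 0

theorem inHO_spec {P : ℕ} (h : inHO P = true) : validPerm P = true ∧ toPerm P ∈ HO := by
  unfold inHO at h
  rw [Bool.and_eq_true] at h
  refine ⟨inM24_valid h.1, Subgroup.mem_inf.2 ⟨toPerm_mem_M24 h.1, ?_⟩⟩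
  rw [MulAction.mem_stabilizer_iff, smul_dec (inM24_valid h.1), Nat.eq_of_beq_eq_true h.2]

theorem inHOp_spec {P : ℕ} (h : inHOp P = true) : validPerm P = true ∧ toPerm P ∈ HOp := by
  unfold inHOp at h
  rw [Bool.and_eq_true] at h
  obtain ⟨hv, hm⟩ := inHO_spec h.1
  refine ⟨hv, Subgroup.mem_inf.2 ⟨hm, ?_⟩⟩
  rw [MulAction.mem_stabilizer_iff, Equiv.Perm.smul_def, toPerm_pt hv (by norm_num),
    Nat.eq_of_beq_eq_true h.2]

def L1 : List ℕ := [984818244535754528103549039458486304, 722187700646552909995405694427446478, 604067264654669896968548442233315511, 519647002481953129456499386478727218, 693337952838297325555643885615224145, 977747940534852627139563814154970604, 914008153324584491677644446143613616, 30628565763825269397523361764226258]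

def L2 : List ℕ := [984818244535754528103549039458486304, 735040127587020170419236158045357120, 977747940534852627139563814154970604, 683095533490184593904983424088810572, 934901999045055311345988286461332658, 937336880354726212873674482896950576, 973694246604031295164270149510878288, 768607079996796688674220355108509009, 722187700646552909995405694427446478, 527184731310793929032274593241704064, 776498881793007997165536574753230967, 597525638687019189623142360208805174, 693337952838297325555643885615224145, 604067264654669896968548442233315511, 914008153324584491677644446143613616, 973603021699179178886503634891259538]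

def L3 : List ℕ := [984818244535754528103549039458486304, 736876477945172895794891331853256832, 944009599453809775216359738130512992, 984723918263324225057352093669657760, 944077768949519831681060554545812608, 929597958282699011436845663266281088, 527559479320126941992848318790258336]

def L4 : List ℕ := [984818244535754528103549039458486304, 778403651968246186946988503438329120, 736417783944747538017303968945836256, 522123314427209654674905248015171200, 984371714609630230640079187379261632, 976770523884147178841786191428822656, 695010504443271286961914842344313024, 984723918263324225057352093669657760, 694683208068378117842136324856491136, 979078083883634819697632842069036672, 978075212267837886874298968402414752, 944009599453809775216359738130512992, 519476464923199896717134144707235040, 736876477945172895794891331853256832, 776533740870390890977508137015623328, 736052898952148782442790225663628544]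

theorem L1_ok : L1.all inHO = true := by decide +kernel
theorem L2_ok : L2.all inHO = true := by decide +kernel
theorem L3_ok : L3.all inHOp = true := by decide +kernel
theorem L4_ok : L4.all inHOp = true := by decide +kernel

theorem move1 : ∀ x ∈ dec o0, ∃ g ∈ HO, g x = pt 0 :=
  move_point HO L1 o0 0 (fun P hP => inHO_spec (List.all_eq_true.1 L1_ok P hP)) (by decide +kernel)

theorem move2 : ∀ x ∈ dec (o0 ^^^ 16777215), ∃ g ∈ HO, g x = pt 1 :=
  move_point HO L2 _ 1 (fun P hP => inHO_spec (List.all_eq_true.1 L2_ok P hP)) (by decide +kernel)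

theorem move3 : ∀ x ∈ dec (o0 ^^^ 1), ∃ g ∈ HOp, g x = pt 12 :=
  move_point HOp L3 _ 12 (fun P hP => inHOp_spec (List.all_eq_true.1 L3_ok P hP)) (by decide +kernel)

theorem move4 : ∀ x ∈ dec (o0 ^^^ 16777215), ∃ g ∈ HOp, g x = pt 1 :=
  move_point HOp L4 _ 1 (fun P hP => inHOp_spec (List.all_eq_true.1 L4_ok P hP)) (by decide +kernel)

theorem smul_mem_smul (g : Equiv.Perm GolayPt) (x : GolayPt) (s : Finset GolayPt) :
    g x ∈ g • s ↔ x ∈ s := by
  rw [← Equiv.Perm.smul_def, Finset.smul_mem_smul_finset_iff]

/-- transitivity on (octad, point of the octad) -/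
theorem flag_in {o : Finset GolayPt} (ho : o ∈ octads) {x : GolayPt} (hx : x ∈ o) :
    ∃ k ∈ M24, k • o = dec o0 ∧ k x = pt 0 := by
  obtain ⟨k, hk, hko⟩ := octad_trans ho (dec_mem_octads o0_mem)
  obtain ⟨g, hg, hgx⟩ := move1 (k x) (by rw [← hko, smul_mem_smul]; exact hx)
  refine ⟨g * k, M24.mul_mem hg.1 hk, ?_, ?_⟩
  · rw [mul_smul, hko]; exact MulAction.mem_stabilizer_iff.1 hg.2
  · rw [Equiv.Perm.mul_apply, hgx]

/-- transitivity on (octad, point off the octad) -/
theorem flag_out {o : Finset GolayPt} (ho : o ∈ octads) {x : GolayPt} (hx : x ∉ o) :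
    ∃ k ∈ M24, k • o = dec o0 ∧ k x = pt 1 := by
  obtain ⟨k, hk, hko⟩ := octad_trans ho (dec_mem_octads o0_mem)
  obtain ⟨g, hg, hgx⟩ := move2 (k x) (by
    rw [dec_compl, Finset.mem_compl, ← hko, smul_mem_smul]; exact hx)
  refine ⟨g * k, M24.mul_mem hg.1 hk, ?_, ?_⟩
  · rw [mul_smul, hko]; exact MulAction.mem_stabilizer_iff.1 hg.2
  · rw [Equiv.Perm.mul_apply, hgx]

theorem dec_o0_xor_one : dec (o0 ^^^ 1) = (dec o0).erase (pt 0) := by
  have h1 : (1 : ℕ) = 2 ^ 0 := rfl
  rw [dec_xor, h1, dec_two_pow' (by norm_num)]
  ext p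
  have h0 : pt 0 ∈ dec o0 := by rw [mem_dec, idx_pt (by norm_num)]; decide
  simp only [Finset.mem_symmDiff, Finset.mem_singleton, Finset.mem_erase]
  constructor
  · rintro (⟨h2, h3⟩ | ⟨h2, h3⟩)
    · exact ⟨h3, h2⟩
    · exact absurd (h2 ▸ h0) h3
  · rintro ⟨h2, h3⟩
    exact Or.inl ⟨h3, h2⟩

/-- transitivity on (octad, two distinct points of the octad) -/
theorem flag_in_in {o : Finset GolayPt} (ho : o ∈ octads) {p q : GolayPt} (hp : p ∈ o) (hq : q ∈ o)
    (hpq : p ≠ q) : ∃ k ∈ M24, k • o = dec o0 ∧ k p = pt 0 ∧ k q = pt 12 := by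
  obtain ⟨k, hk, hko, hkp⟩ := flag_in ho hp
  obtain ⟨g, hg, hgx⟩ := move3 (k q) (by
    rw [dec_o0_xor_one, Finset.mem_erase]
    refine ⟨?_, by rw [← hko, smul_mem_smul]; exact hq⟩
    rw [← hkp]
    exact fun h => hpq (k.injective h).symm)
  refine ⟨g * k, M24.mul_mem hg.1.1 hk, ?_, ?_, ?_⟩
  · rw [mul_smul, hko]; exact MulAction.mem_stabilizer_iff.1 hg.1.2
  · rw [Equiv.Perm.mul_apply, hkp]; exact MulAction.mem_stabilizer_iff.1 hg.2
  · rw [Equiv.Perm.mul_apply, hgx]

/-- transitivity on (octad, point of the octad, point off the octad) -/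
theorem flag_in_out {o : Finset GolayPt} (ho : o ∈ octads) {p q : GolayPt} (hp : p ∈ o) (hq : q ∉ o) :
    ∃ k ∈ M24, k • o = dec o0 ∧ k p = pt 0 ∧ k q = pt 1 := by
  obtain ⟨k, hk, hko, hkp⟩ := flag_in ho hp
  obtain ⟨g, hg, hgx⟩ := move4 (k q) (by
    rw [dec_compl, Finset.mem_compl, ← hko, smul_mem_smul]; exact hq)
  refine ⟨g * k, M24.mul_mem hg.1.1 hk, ?_, ?_, ?_⟩
  · rw [mul_smul, hko]; exact MulAction.mem_stabilizer_iff.1 hg.1.2
  · rw [Equiv.Perm.mul_apply, hkp]; exact MulAction.mem_stabilizer_iff.1 hg.2
  · rw [Equiv.Perm.mul_apply, hgx]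

theorem testBit_enc_pt (s : Finset GolayPt) {i : ℕ} (hi : i < 24) :
    (enc s).testBit i = decide (pt i ∈ s) := by
  have := testBit_enc s (pt i)
  rwa [idx_pt hi] at this

theorem pop_land_enc (s : Finset GolayPt) : pop (Nat.land o0 (enc s)) = (dec o0 ∩ s).card := by
  rw [card_eq_pop, enc_inter, enc_dec o0_lt]; rfl

/-- counting octads cut out by a Bool test on masks -/
theorem count_octads (q : ℕ → Bool) (Q : Finset GolayPt → Prop) (hQ : ∀ s, Q s ↔ q (enc s) = true) :
    {U : Finset GolayPt | U ∈ octads ∧ Q U}.ncard = (octL.filter q).length :=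
  ncard_filter _ octL octL_nodup (fun _ h => octL_lt h) q
    (fun s => by rw [← mem_octads_iff, ← hQ]; rfl)

theorem isOct_enc_smul {k : Equiv.Perm GolayPt} (hk : k ∈ M24) {o : Finset GolayPt} (ho : o ∈ octads) :
    isOct (enc (k • o)) = true :=
  isOct_iff.2 ((mem_octads_iff _).1 (smul_mem_octads hk ho))

theorem card_inter_of_smul {k : Equiv.Perm GolayPt} {o : Finset GolayPt} (hko : k • o = dec o0)
    (U : Finset GolayPt) : (dec o0 ∩ k • U).card = (o ∩ U).card := by
  rw [← hko, ← Finset.smul_finset_inter, Finset.card_smul_finset]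

/-- stabiliser of the standard octad and the outside point 1 -/
def HOx : Subgroup (Equiv.Perm GolayPt) := HO ⊓ MulAction.stabilizer (Equiv.Perm GolayPt) (pt 1)

/-- stabiliser of the standard octad and its points 0, 12 -/
def HOpq : Subgroup (Equiv.Perm GolayPt) := HOp ⊓ MulAction.stabilizer (Equiv.Perm GolayPt) (pt 12)

/-- stabiliser of the standard octad, its point 0 and the outside point 1 -/
def HOpr : Subgroup (Equiv.Perm GolayPt) := HOp ⊓ MulAction.stabilizer (Equiv.Perm GolayPt) (pt 1)

def inHOx (P : ℕ) : Bool := inHO P && Nat.beq (img P 1) 1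

def inHOpq (P : ℕ) : Bool := inHOp P && Nat.beq (img P 12) 12

def inHOpr (P : ℕ) : Bool := inHOp P && Nat.beq (img P 1) 1

theorem inHOx_spec {P : ℕ} (h : inHOx P = true) : validPerm P = true ∧ toPerm P ∈ HOx := by
  unfold inHOx at h
  rw [Bool.and_eq_true] at h
  obtain ⟨hv, hm⟩ := inHO_spec h.1
  refine ⟨hv, Subgroup.mem_inf.2 ⟨hm, ?_⟩⟩
  rw [MulAction.mem_stabilizer_iff, Equiv.Perm.smul_def, toPerm_pt hv (by norm_num),
    Nat.eq_of_beq_eq_true h.2]

theorem inHOpq_spec {P : ℕ} (h : inHOpq P = true) : validPerm P = true ∧ toPerm P ∈ HOpq := by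
  unfold inHOpq at h
  rw [Bool.and_eq_true] at h
  obtain ⟨hv, hm⟩ := inHOp_spec h.1
  refine ⟨hv, Subgroup.mem_inf.2 ⟨hm, ?_⟩⟩
  rw [MulAction.mem_stabilizer_iff, Equiv.Perm.smul_def, toPerm_pt hv (by norm_num),
    Nat.eq_of_beq_eq_true h.2]

theorem inHOpr_spec {P : ℕ} (h : inHOpr P = true) : validPerm P = true ∧ toPerm P ∈ HOpr := by
  unfold inHOpr at h
  rw [Bool.and_eq_true] at h
  obtain ⟨hv, hm⟩ := inHOp_spec h.1
  refine ⟨hv, Subgroup.mem_inf.2 ⟨hm, ?_⟩⟩
  rw [MulAction.mem_stabilizer_iff, Equiv.Perm.smul_def, toPerm_pt hv (by norm_num),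
    Nat.eq_of_beq_eq_true h.2]

def L5 : List ℕ := [984818244535754528103549039458486304, 983478296959358443554250846857397270, 982138349382962359004952654256308949, 980798401806566274455654461655243444, 967887489528427266242133166964201813, 981693010012508137356114545279183529, 977596047671616058656642491031259285, 960059871648320526394461150354936497, 975223431440002263577755234079352981, 961450122998796714974223555818392662, 960106208246398047257673015591327209, 901276932450172030087052924672190103, 885535552053993010777501352989086454, 976906235610688015451518686719350038, 920673147177082347608427462066127447, 858398610005497325338173092873511543, 842657229609318331717153795711717109, 885451454766050347369992326646119735, 978935966775391239642194360952491190, 961398908100847696903877017200596690, 928812809474430267217275392496970199, 915161777076393314975379502410192535, 914299547958271476800544734014024375, 1795248432537898728475572672376535]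

def L6 : List ℕ := [984818244535754528103549039458486304, 592087020489696000850629599559386528, 268056923743650611664232558565040608, 843207638956078443371194574460956928, 560984134814268518207960246857009376, 461691558826419761792476959022865568, 766499047377135966508040491201999488, 556040616037507241579526053491299648, 196885486118746679078002064791815392, 963881707130141011734699075424656480, 479200355031143275250414889017265280, 844408278281154078222498678172653248, 267023486479997433691923031411664992, 709620055374276534674440544434498880, 675413375349424945931714454235536672, 217124000011010993931186960044512832, 228082736206545604947312880410831936, 218177089704261312099035074537334496, 104756173114278794284315446368082272, 717349787275539106691211009059806528, 969720512952439076071105142546841120, 209543247584689515914734034286285312, 65093029154193123618613427321461856]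

theorem L5_ok : L5.all inM24 = true := by decide +kernel

theorem L6_ok : L6.all (fun P => inM24 P && Nat.beq (img P 0) 0) = true := by decide +kernel

theorem move5 : ∀ x ∈ dec 16777215, ∃ g ∈ M24, g x = pt 0 :=
  move_point M24 L5 _ 0 (fun P hP => ⟨inM24_valid (List.all_eq_true.1 L5_ok P hP),
    toPerm_mem_M24 (List.all_eq_true.1 L5_ok P hP)⟩) (by decide +kernel)

theorem move6 : ∀ x ∈ dec 16777214,
    ∃ g ∈ M24 ⊓ MulAction.stabilizer (Equiv.Perm GolayPt) (pt 0), g x = pt 1 :=
  move_point _ L6 _ 1 (fun P hP => by
    have h := List.all_eq_true.1 L6_ok P hP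
    rw [Bool.and_eq_true] at h
    refine ⟨inM24_valid h.1, Subgroup.mem_inf.2 ⟨toPerm_mem_M24 h.1, ?_⟩⟩
    rw [MulAction.mem_stabilizer_iff, Equiv.Perm.smul_def, toPerm_pt (inM24_valid h.1) (by norm_num),
      Nat.eq_of_beq_eq_true h.2]) (by decide +kernel)

/-- the group of the code is 2-transitive on points -/
theorem two_trans {p q : GolayPt} (hpq : p ≠ q) : ∃ k ∈ M24, k p = pt 0 ∧ k q = pt 1 := by
  obtain ⟨k, hk, hkp⟩ := move5 p (by rw [dec_full]; exact Finset.mem_univ _)
  obtain ⟨g, hg, hgq⟩ := move6 (k q) (by
    rw [mem_dec]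
    have h1 : idx (k q) ≠ 0 := by
      intro h0
      apply hpq
      apply k.injective
      rw [hkp, ← pt_idx (k q), h0]
    have h2 := idx_lt (k q)
    have : ∀ i < 24, i ≠ 0 → (16777214 : ℕ).testBit i = true := by decide
    exact this _ h2 h1)
  refine ⟨g * k, M24.mul_mem hg.1 hk, ?_, ?_⟩
  · rw [Equiv.Perm.mul_apply, hkp]; exact MulAction.mem_stabilizer_iff.1 hg.2
  · rw [Equiv.Perm.mul_apply, hgq]

end Cfsg.Agent.Lib.Helper34M24
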