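import Cfsg.Agent.Lib.Helper34M12

/-! # 4-transitivity of the group of the length-24 code, explicit form (helper34) -/

set_option autoImplicit false

namespace Cfsg.Agent.Lib.Helper34M24b

open Cfsg Cfsg.Agent.Lib.Helper33Golay Cfsg.Agent.Lib.Helper33Orbit Cfsg.Agent.Lib.Helper33Trans
open Cfsg.Agent.Lib.Helper34M24 Cfsg.Agent.Lib.Helper34M12
open scoped Pointwise

/-- elements of the group of the code fixing the listed points -/
def HF (l : List ℕ) : Subgroup (Equiv.Perm GolayPt) := M24 ⊓ Fix l

def inHF (l : List ℕ) (P : ℕ) : Bool :=
  inM24 P && l.all (fun i => Nat.blt i 24 && Nat.beq (img P i) i)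

theorem inHF_spec {l : List ℕ} {P : ℕ} (h : inHF l P = true) : validPerm P = true ∧ toPerm P ∈ HF l := by
  unfold inHF at h
  rw [Bool.and_eq_true] at h
  have hv := inM24_valid h.1
  refine ⟨hv, Subgroup.mem_inf.2 ⟨toPerm_mem_M24 h.1, ?_⟩⟩
  intro i hi
  have h2 := List.all_eq_true.1 h.2 i hi
  rw [Bool.and_eq_true] at h2
  have hi24 : i < 24 := by simpa [Nat.blt] using h2.1
  rw [toPerm_pt hv hi24, Nat.eq_of_beq_eq_true h2.2]

def L7 : List ℕ := [984818244535754528103549039458486304, 668846116623669399154019077724394528, 154855273992966403458734983876187168, 264210381378169377525514270222236704, 678225522857578602799335028084149280, 475814760183830887211768133216145440, 675190147267334456994939246463981600, 421405587556692411408414826868288544, 849246885914346321644564726980270112, 596551634048242275525341723664990240, 435225716997388737311553583322911776, 357362564385264299434725664418644000, 312041279819820381066005954967586848, 835520806584144973342118231962885152, 592640888399565906964891407640563744, 970216809278429382161623298921371680, 928662570588713286201571194214554656, 395237067119478282892705227235610656,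 688184825162313392615109919983817760, 598497784999602902710700560892637216, 460134655612653441006633001755495456, 87585241375413982460213743396182048]

def L8 : List ℕ := [984818244535754528103549039458486304, 388985583080006245941988384149571616, 944409389370383614000628439641851936, 183526946265164044161740544198477856, 479379432116513400396247402186082336, 984314827592033236074561707266279456, 932883493316568586197225988995713056, 595011946574119123270539265598523424, 967922996129322142687065624027695136, 937916468602429400007706905364662304, 809297716693940395085774683239516192, 927781446720046098412192078702676000, 554790046084021230739666898843633696, 353295061959452243724455040786008096, 610873680236142979730613415697942560, 769364328729119197956361166291044384, 344768149632094043199676150024210464, 385086291026642730159376228410787872, 228596121744262155300947890916165664, 918599624331467715410632250989709344, 148897343443693677599191203543812128]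

theorem L7_ok : L7.all (inHF [0, 1]) = true := by decide +kernel
theorem L8_ok : L8.all (inHF [0, 1, 2]) = true := by decide +kernel

theorem move7 : ∀ x ∈ dec 16777212, ∃ g ∈ HF [0, 1], g x = pt 2 :=
  move_point _ L7 _ 2 (fun P hP => inHF_spec (List.all_eq_true.1 L7_ok P hP)) (by decide +kernel)

theorem move8 : ∀ x ∈ dec 16777208, ∃ g ∈ HF [0, 1, 2], g x = pt 3 :=
  move_point _ L8 _ 3 (fun P hP => inHF_spec (List.all_eq_true.1 L8_ok P hP)) (by decide +kernel)

theorem three_trans {p q a : GolayPt} (hpq : p ≠ q) (hpa : p ≠ a) (hqa : q ≠ a) :
    ∃ k ∈ M24, k p = pt 0 ∧ k q = pt 1 ∧ k a = pt 2 := by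
  obtain ⟨k, hk, hkp, hkq⟩ := two_trans hpq
  obtain ⟨g, hg, hgx⟩ := move7 (k a) (mem_dec_of (m := 16777215)
    (by rw [dec_full]; exact Finset.mem_univ _) [0, 1]
    (by
      intro i hi
      simp only [List.mem_cons, List.not_mem_nil, or_false] at hi
      rcases hi with rfl | rfl
      · rw [← hkp]; exact fun h => hpa (k.injective h).symm
      · rw [← hkq]; exact fun h => hqa (k.injective h).symm) (by decide +kernel))
  refine ⟨g * k, M24.mul_mem hg.1 hk, ?_, ?_, ?_⟩
  · rw [Equiv.Perm.mul_apply, hkp]; exact hg.2 0 (by simp)
  · rw [Equiv.Perm.mul_apply, hkq]; exact hg.2 1 (by simp)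
  · rw [Equiv.Perm.mul_apply, hgx]

theorem four_trans {p q a b : GolayPt} (hpq : p ≠ q) (hpa : p ≠ a) (hqa : q ≠ a)
    (hpb : p ≠ b) (hqb : q ≠ b) (hab : a ≠ b) :
    ∃ k ∈ M24, k p = pt 0 ∧ k q = pt 1 ∧ k a = pt 2 ∧ k b = pt 3 := by
  obtain ⟨k, hk, hkp, hkq, hka⟩ := three_trans hpq hpa hqa
  obtain ⟨g, hg, hgx⟩ := move8 (k b) (mem_dec_of (m := 16777215)
    (by rw [dec_full]; exact Finset.mem_univ _) [0, 1, 2]
    (by
      intro i hi
      simp only [List.mem_cons, List.not_mem_nil, or_false] at hi
      rcases hi with rfl | rfl | rfl
      · rw [← hkp]; exact fun h => hpb (k.injective h).symm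
      · rw [← hkq]; exact fun h => hqb (k.injective h).symm
      · rw [← hka]; exact fun h => hab (k.injective h).symm) (by decide +kernel))
  refine ⟨g * k, M24.mul_mem hg.1 hk, ?_, ?_, ?_, ?_⟩
  · rw [Equiv.Perm.mul_apply, hkp]; exact hg.2 0 (by simp)
  · rw [Equiv.Perm.mul_apply, hkq]; exact hg.2 1 (by simp)
  · rw [Equiv.Perm.mul_apply, hka]; exact hg.2 2 (by simp)
  · rw [Equiv.Perm.mul_apply, hgx]

end Cfsg.Agent.Lib.Helper34M24b
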