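import Mathlib
import Cfsg.Prelude.Def_SporadicCombinatorics

set_option autoImplicit false
open Cfsg

namespace Cfsg.Agent.Lib.Helper34Ternary

abbrev W := ArrayPt → ZMod 3

theorem c3 : (3 : ZMod 3) = 0 := by decide

theorem sumZ3 (f : ZMod 3 → ZMod 3) : ∑ r : ZMod 3, f r = f 0 + f 1 + f 2 :=
  Fin.sum_univ_three f

theorem mem_tetra (t : Fin 4 → ZMod 3) :
    t ∈ tetracode ↔ ∃ a b : ZMod 3, a • ![0, 1, 1, 1] + b • ![1, 0, 1, 2] = t :=
  Submodule.mem_span_pair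

theorem tetra_cases (t : Fin 4 → ZMod 3) (ht : t ∈ tetracode) :
    t = ![0, 0, 0, 0] ∨ t = ![1, 0, 1, 2] ∨ t = ![2, 0, 2, 1] ∨ t = ![0, 1, 1, 1] ∨ t = ![1, 1, 2, 0] ∨ t = ![2, 1, 0, 2] ∨ t = ![0, 2, 2, 2] ∨ t = ![1, 2, 0, 1] ∨ t = ![2, 2, 1, 0] := by
  obtain ⟨a, b, rfl⟩ := (mem_tetra t).1 ht
  clear ht
  revert a b
  decide

/-- Parity checks of the length-12 ternary code. -/
def Chk (x : W) : Prop :=
  x (0, 0) + x (1, 2) + x (2, 2) + x (3, 0) + x (3, 1) + 2 * x (3, 2) = 0 ∧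
  x (0, 1) + x (1, 2) + 2 * x (2, 1) + 2 * x (2, 2) + 2 * x (3, 0) + 2 * x (3, 2) = 0 ∧
  x (0, 2) + x (1, 2) + x (2, 1) + 2 * x (3, 0) + x (3, 1) + x (3, 2) = 0 ∧
  x (1, 0) + 2 * x (1, 2) + 2 * x (2, 1) + x (2, 2) + 2 * x (3, 0) + x (3, 1) = 0 ∧
  x (1, 1) + 2 * x (1, 2) + x (2, 1) + 2 * x (2, 2) + x (3, 1) + 2 * x (3, 2) = 0 ∧
  x (2, 0) + x (2, 1) + x (2, 2) + 2 * x (3, 0) + 2 * x (3, 1) + 2 * x (3, 2) = 0

instance (x : W) : Decidable (Chk x) := by unfold Chk; infer_instance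

theorem mem_iff (x : W) : x ∈ ternaryGolayCode ↔ Chk x := by
  have c3 := c3
  constructor
  · rintro ⟨s, hc, ht⟩
    have hc0 := hc 0
    have hc1 := hc 1
    have hc2 := hc 2
    have hc3 := hc 3
    rw [sumZ3 (fun r => x (_, r))] at hc0 hc1 hc2 hc3
    have ht0 : x (0, 0) + x (1, 0) + x (2, 0) + x (3, 0) = s :=
      (Fin.sum_univ_four (fun i => x (i, ![0, 0, 0, 0] i))).symm.trans
        (ht ![0, 0, 0, 0] ((mem_tetra _).2 ⟨0, 0, by decide⟩))
    have ht1 : x (0, 1) + x (1, 0) + x (2, 1) + x (3, 2) = s :=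
      (Fin.sum_univ_four (fun i => x (i, ![1, 0, 1, 2] i))).symm.trans
        (ht ![1, 0, 1, 2] ((mem_tetra _).2 ⟨0, 1, by decide⟩))
    have ht3 : x (0, 0) + x (1, 1) + x (2, 1) + x (3, 1) = s :=
      (Fin.sum_univ_four (fun i => x (i, ![0, 1, 1, 1] i))).symm.trans
        (ht ![0, 1, 1, 1] ((mem_tetra _).2 ⟨1, 0, by decide⟩))
    refine ⟨?_, ?_, ?_, ?_, ?_, ?_⟩
    · linear_combination (1) * hc1 + (1) * hc2 + (2) * hc3 + (2) * ht0 + (2) * ht3 - ((1) * x (0, 0) + (1) * x (1, 0) + (1) * x (1, 1) + (1) * x (2, 0) + (1) * x (2, 1) + (1) * x (3, 0) + (1) * x (3, 1)) * c3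
    · linear_combination (1) * hc1 + (2) * hc2 + (1) * hc3 + (1) * ht0 + (1) * ht1 + (2) * ht3 - ((1) * x (0, 0) + (1) * x (1, 0) + (1) * x (1, 1) + (1) * x (2, 0) + (1) * x (2, 1) + (1) * x (3, 1)) * c3
    · linear_combination (1) * hc0 + (1) * hc1 + (2) * hc3 + (2) * ht1 + (2) * ht3 - ((1) * x (0, 0) + (1) * x (0, 1) + (1) * x (1, 0) + (1) * x (1, 1) + (1) * x (2, 1) + (1) * x (3, 1) + (1) * x (3, 2)) * c3
    · linear_combination (2) * hc1 + (1) * hc2 + (2) * ht0 + (1) * ht3 - ((1) * x (0, 0) + (1) * x (1, 0) + (1) * x (1, 1) + (1) * x (2, 0)) * c3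
    · linear_combination (2) * hc1 + (2) * hc2 + (2) * hc3 + (1) * ht0 + (2) * ht3 - ((1) * x (0, 0) + (1) * x (1, 0) + (1) * x (1, 1) + (1) * x (2, 0) + (1) * x (2, 1) + (1) * x (3, 0) + (1) * x (3, 1) + (1) * s) * c3
    · linear_combination (1) * hc2 + (2) * hc3 - ((1) * s) * c3
  · rintro ⟨h0, h1, h2, h3, h4, h5⟩
    refine ⟨-(x (3, 0) + x (3, 1) + x (3, 2)), ?_, ?_⟩
    · intro i
      rw [sumZ3 (fun r => x (_, r))]
      fin_cases i
      · show x (0, 0) + x (0, 1) + x (0, 2) = _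
        linear_combination (1) * h0 + (1) * h1 + (1) * h2 + ((-1) * x (1, 2) + (-1) * x (2, 1) + (-1) * x (2, 2) + (-2) * x (3, 0) + (-1) * x (3, 1) + (-2) * x (3, 2)) * c3
      · show x (1, 0) + x (1, 1) + x (1, 2) = _
        linear_combination (1) * h3 + (1) * h4 + ((-1) * x (1, 2) + (-1) * x (2, 1) + (-1) * x (2, 2) + (-1) * x (3, 0) + (-1) * x (3, 1) + (-1) * x (3, 2)) * c3
      · show x (2, 0) + x (2, 1) + x (2, 2) = _
        linear_combination (1) * h5 + ((-1) * x (3, 0) + (-1) * x (3, 1) + (-1) * x (3, 2)) * c3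
      · show x (3, 0) + x (3, 1) + x (3, 2) = _
        ring
    · intro t ht
      rw [Fin.sum_univ_four]
      rcases tetra_cases t ht with rfl | rfl | rfl | rfl | rfl | rfl | rfl | rfl | rfl
      · show x (0, 0) + x (1, 0) + x (2, 0) + x (3, 0) = _
        linear_combination (1) * h0 + (1) * h3 + (1) * h5 + ((-1) * x (1, 2) + (-1) * x (2, 1) + (-1) * x (2, 2) + (-1) * x (3, 0) + (-1) * x (3, 1) + (-1) * x (3, 2)) * c3
      · show x (0, 1) + x (1, 0) + x (2, 1) + x (3, 2) = _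
        linear_combination (1) * h1 + (1) * h3 + ((-1) * x (1, 2) + (-1) * x (2, 1) + (-1) * x (2, 2) + (-1) * x (3, 0)) * c3
      · show x (0, 2) + x (1, 0) + x (2, 2) + x (3, 1) = _
        linear_combination (1) * h2 + (1) * h3 + ((-1) * x (1, 2) + (-1) * x (2, 1) + (-1) * x (3, 0)) * c3
      · show x (0, 0) + x (1, 1) + x (2, 1) + x (3, 1) = _
        linear_combination (1) * h0 + (1) * h4 + ((-1) * x (1, 2) + (-1) * x (2, 2) + (-1) * x (3, 2)) * c3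
      · show x (0, 1) + x (1, 1) + x (2, 2) + x (3, 0) = _
        linear_combination (1) * h1 + (1) * h4 + ((-1) * x (1, 2) + (-1) * x (2, 1) + (-1) * x (2, 2) + (-1) * x (3, 2)) * c3
      · show x (0, 2) + x (1, 1) + x (2, 0) + x (3, 2) = _
        linear_combination (1) * h2 + (1) * h4 + (1) * h5 + ((-1) * x (1, 2) + (-1) * x (2, 1) + (-1) * x (2, 2) + (-1) * x (3, 0) + (-1) * x (3, 1) + (-1) * x (3, 2)) * c3
      · show x (0, 0) + x (1, 2) + x (2, 2) + x (3, 2) = _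
        linear_combination (1) * h0 + (0) * c3
      · show x (0, 1) + x (1, 2) + x (2, 0) + x (3, 1) = _
        linear_combination (1) * h1 + (1) * h5 + ((-1) * x (2, 1) + (-1) * x (2, 2) + (-1) * x (3, 0) + (-1) * x (3, 2)) * c3
      · show x (0, 2) + x (1, 2) + x (2, 1) + x (3, 0) = _
        linear_combination (1) * h2 + (0) * c3

abbrev P6 := ZMod 3 × ZMod 3 × ZMod 3 × ZMod 3 × ZMod 3 × ZMod 3

/-- Systematic encoder of the code. -/
def phi (a : P6) : W :=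
  match a with
  | (x5, x7, x8, x9, x10, x11) => fun p =>
    (![![-(x5 + x8 + x9 + x10 + 2 * x11), -(x5 + 2 * x7 + 2 * x8 + 2 * x9 + 2 * x11),
          -(x5 + x7 + 2 * x9 + x10 + x11)],
       ![-(2 * x5 + 2 * x7 + x8 + 2 * x9 + x10), -(2 * x5 + x7 + 2 * x8 + x10 + 2 * x11), x5],
       ![-(x7 + x8 + 2 * x9 + 2 * x10 + 2 * x11), x7, x8],
       ![x9, x10, x11]] p.1) p.2

def info (x : W) : P6 := (x (1, 2), x (2, 1), x (2, 2), x (3, 0), x (3, 1), x (3, 2))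

theorem info_phi (a : P6) : info (phi a) = a := rfl

theorem phi_injective : Function.Injective phi := fun a b h => by
  rw [← info_phi a, ← info_phi b, h]

theorem chk_phi (a : P6) : Chk (phi a) := by
  obtain ⟨x5, x7, x8, x9, x10, x11⟩ := a
  refine ⟨?_, ?_, ?_, ?_, ?_, ?_⟩
  · show -(x5 + x8 + x9 + x10 + 2 * x11) + x5 + x8 + x9 + x10 + 2 * x11 = 0
    ring
  · show -(x5 + 2 * x7 + 2 * x8 + 2 * x9 + 2 * x11) + x5 + 2 * x7 + 2 * x8 + 2 * x9 + 2 * x11 = 0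
    ring
  · show -(x5 + x7 + 2 * x9 + x10 + x11) + x5 + x7 + 2 * x9 + x10 + x11 = 0
    ring
  · show -(2 * x5 + 2 * x7 + x8 + 2 * x9 + x10) + 2 * x5 + 2 * x7 + x8 + 2 * x9 + x10 = 0
    ring
  · show -(2 * x5 + x7 + 2 * x8 + x10 + 2 * x11) + 2 * x5 + x7 + 2 * x8 + x10 + 2 * x11 = 0
    ring
  · show -(x7 + x8 + 2 * x9 + 2 * x10 + 2 * x11) + x7 + x8 + 2 * x9 + 2 * x10 + 2 * x11 = 0
    ring

theorem forall_pt (P : ArrayPt → Prop)
    (h : P (0, 0) ∧ P (0, 1) ∧ P (0, 2) ∧ P (1, 0) ∧ P (1, 1) ∧ P (1, 2) ∧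
      P (2, 0) ∧ P (2, 1) ∧ P (2, 2) ∧ P (3, 0) ∧ P (3, 1) ∧ P (3, 2)) : ∀ p, P p := by
  obtain ⟨h0, h1, h2, h3, h4, h5, h6, h7, h8, h9, h10, h11⟩ := h
  rintro ⟨i, r⟩
  fin_cases i <;> fin_cases r
  exacts [h0, h1, h2, h3, h4, h5, h6, h7, h8, h9, h10, h11]

theorem phi_info (x : W) (h : Chk x) : phi (info x) = x := by
  obtain ⟨h0, h1, h2, h3, h4, h5⟩ := h
  funext p
  revert p
  apply forall_pt
  refine ⟨?_, ?_, ?_, ?_, ?_, rfl, ?_, rfl, rfl, rfl, rfl, rfl⟩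
  · show -(x (1, 2) + x (2, 2) + x (3, 0) + x (3, 1) + 2 * x (3, 2)) = x (0, 0)
    linear_combination -h0
  · show -(x (1, 2) + 2 * x (2, 1) + 2 * x (2, 2) + 2 * x (3, 0) + 2 * x (3, 2)) = x (0, 1)
    linear_combination -h1
  · show -(x (1, 2) + x (2, 1) + 2 * x (3, 0) + x (3, 1) + x (3, 2)) = x (0, 2)
    linear_combination -h2
  · show -(2 * x (1, 2) + 2 * x (2, 1) + x (2, 2) + 2 * x (3, 0) + x (3, 1)) = x (1, 0)
    linear_combination -h3
  · show -(2 * x (1, 2) + x (2, 1) + 2 * x (2, 2) + x (3, 1) + 2 * x (3, 2)) = x (1, 1)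
    linear_combination -h4
  · show -(x (2, 1) + x (2, 2) + 2 * x (3, 0) + 2 * x (3, 1) + 2 * x (3, 2)) = x (2, 0)
    linear_combination -h5

theorem phi_mem (a : P6) : phi a ∈ ternaryGolayCode := (mem_iff _).2 (chk_phi a)

theorem mem_iff_phi (x : W) : x ∈ ternaryGolayCode ↔ ∃ a, phi a = x :=
  ⟨fun h => ⟨info x, phi_info x ((mem_iff x).1 h)⟩, fun ⟨a, ha⟩ => ha ▸ phi_mem a⟩

/-- To prove a property of all code words, check it on the 729 encoded words. -/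
theorem forall_code (P : W → Prop) (h : ∀ a, P (phi a)) : ∀ x ∈ ternaryGolayCode, P x := by
  intro x hx
  obtain ⟨a, rfl⟩ := (mem_iff_phi x).1 hx
  exact h a

def codeEquiv : P6 ≃ ternaryGolayCode where
  toFun a := ⟨phi a, phi_mem a⟩
  invFun x := info x.1
  left_inv a := info_phi a
  right_inv x := Subtype.ext (phi_info x.1 ((mem_iff _).1 x.2))

theorem card_code : Nat.card ternaryGolayCode = 729 := by
  rw [← Nat.card_congr codeEquiv, Nat.card_eq_fintype_card]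
  simp [Fintype.card_prod, ZMod.card]

theorem ncard_code (P : W → Prop) [DecidablePred P] :
    {x : W | x ∈ ternaryGolayCode ∧ P x}.ncard = (Finset.univ.filter (fun a => P (phi a))).card := by
  have : {x : W | x ∈ ternaryGolayCode ∧ P x} =
      phi '' (↑(Finset.univ.filter (fun a => P (phi a))) : Set P6) := by
    ext x
    simp only [Set.mem_setOf_eq, Set.mem_image, Finset.coe_filter, Finset.mem_univ, true_and]
    constructor
    · rintro ⟨hx, hP⟩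
      obtain ⟨a, rfl⟩ := (mem_iff_phi x).1 hx
      exact ⟨a, hP, rfl⟩
    · rintro ⟨a, hP, rfl⟩
      exact ⟨phi_mem a, hP⟩
  rw [this, Set.ncard_image_of_injective _ phi_injective, Set.ncard_coe_finset]


end Cfsg.Agent.Lib.Helper34Ternary
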