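import Cfsg.Agent.S1592
import Cfsg.Agent.S1593

set_option autoImplicit false
open Cfsg

namespace Cfsg.Agent.Lib.Helper34Mono

open Cfsg.Agent.Lib.Helper34Ternary Cfsg.Agent.Lib.Helper34Mask Cfsg.Agent.Lib.Helper34Hexads
open scoped Pointwise

def Pres (σ : Equiv.Perm ArrayPt) (c : ArrayPt → (ZMod 3)ˣ) : Prop :=
  ∀ x ∈ ternaryGolayCode, monomialMap σ c x ∈ ternaryGolayCode

def B0 : W := phi (1, 0, 0, 0, 0, 0)
def B1 : W := phi (0, 1, 0, 0, 0, 0)
def B2 : W := phi (0, 0, 1, 0, 0, 0)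
def B3 : W := phi (0, 0, 0, 1, 0, 0)
def B4 : W := phi (0, 0, 0, 0, 1, 0)
def B5 : W := phi (0, 0, 0, 0, 0, 1)

set_option maxRecDepth 100000 in
theorem phi_decomp : ∀ a : P6, phi a =
    a.1 • B0 + a.2.1 • B1 + a.2.2.1 • B2 + a.2.2.2.1 • B3 + a.2.2.2.2.1 • B4 + a.2.2.2.2.2 • B5 := by
  decide +kernel

theorem mono_add (σ : Equiv.Perm ArrayPt) (c : ArrayPt → (ZMod 3)ˣ) (x y : W) :
    monomialMap σ c (x + y) = monomialMap σ c x + monomialMap σ c y := by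
  funext i; simp [monomialMap, mul_add]

theorem mono_smul (σ : Equiv.Perm ArrayPt) (c : ArrayPt → (ZMod 3)ˣ) (k : ZMod 3) (x : W) :
    monomialMap σ c (k • x) = k • monomialMap σ c x := by
  funext i; simp [monomialMap, mul_left_comm]

theorem pres_of_basis (σ : Equiv.Perm ArrayPt) (c : ArrayPt → (ZMod 3)ˣ)
    (h : ∀ b ∈ [B0, B1, B2, B3, B4, B5], Chk (monomialMap σ c b)) : Pres σ c := by
  intro x hx
  obtain ⟨⟨a5, a7, a8, a9, a10, a11⟩, rfl⟩ := (mem_iff_phi x).1 hx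
  rw [phi_decomp]
  simp only [mono_add, mono_smul]
  have hb : ∀ b ∈ [B0, B1, B2, B3, B4, B5], monomialMap σ c b ∈ ternaryGolayCode :=
    fun b hb => (mem_iff _).2 (h b hb)
  simp only [List.mem_cons, List.not_mem_nil, or_false, forall_eq_or_imp, forall_eq] at hb
  obtain ⟨h0, h1, h2, h3, h4, h5⟩ := hb
  exact Submodule.add_mem _ (Submodule.add_mem _ (Submodule.add_mem _ (Submodule.add_mem _
    (Submodule.add_mem _ (Submodule.smul_mem _ _ h0) (Submodule.smul_mem _ _ h1))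
    (Submodule.smul_mem _ _ h2)) (Submodule.smul_mem _ _ h3)) (Submodule.smul_mem _ _ h4))
    (Submodule.smul_mem _ _ h5)

theorem pres_one : Pres 1 1 := by
  intro x hx
  have : monomialMap 1 1 x = x := by
    funext i
    show ((1 : (ZMod 3)ˣ) : ZMod 3) * x i = x i
    simp
  rwa [this]

theorem mono_mul (σ τ : Equiv.Perm ArrayPt) (c d : ArrayPt → (ZMod 3)ˣ) (x : W) :
    monomialMap (σ * τ) (fun i => c i * d (σ.symm i)) x = monomialMap σ c (monomialMap τ d x) := by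
  funext i
  simp [monomialMap, mul_assoc]
  rfl

theorem pres_mul {σ τ : Equiv.Perm ArrayPt} {c d : ArrayPt → (ZMod 3)ˣ} (h1 : Pres σ c) (h2 : Pres τ d) :
    Pres (σ * τ) (fun i => c i * d (σ.symm i)) := by
  intro x hx
  rw [mono_mul]
  exact h1 _ (h2 _ hx)

theorem pres_neg {σ : Equiv.Perm ArrayPt} {c : ArrayPt → (ZMod 3)ˣ} (h1 : Pres σ c) :
    Pres σ (fun i => - c i) := by
  intro x hx
  have : monomialMap σ (fun i => - c i) x = - monomialMap σ c x := by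
    funext i; simp [monomialMap]
  rw [this]
  exact Submodule.neg_mem _ (h1 x hx)

theorem mem_supp (x : W) (i : ArrayPt) : i ∈ ternarySupport x ↔ x i ≠ 0 := by
  simp [ternarySupport]

theorem supp_mono (σ : Equiv.Perm ArrayPt) (c : ArrayPt → (ZMod 3)ˣ) (x : W) :
    ternarySupport (monomialMap σ c x) = σ • ternarySupport x := by
  ext i
  rw [Finset.mem_smul_finset, mem_supp]
  constructor
  · intro h
    refine ⟨σ.symm i, ?_, by simp⟩
    rw [mem_supp]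
    intro h0
    apply h
    show (c i : ZMod 3) * x (σ.symm i) = 0
    rw [h0, mul_zero]
  · rintro ⟨j, hj, rfl⟩
    rw [mem_supp] at hj
    show (c (σ • j) : ZMod 3) * x (σ.symm (σ • j)) ≠ 0
    simpa using hj

theorem pres_aut {σ : Equiv.Perm ArrayPt} {c : ArrayPt → (ZMod 3)ˣ} (h1 : Pres σ c) :
    σ ∈ setSystemAut hexads := by
  rw [MulAction.mem_stabilizer_set' (Set.toFinite _)]
  rintro h ⟨x, hx, rfl, hc⟩
  refine ⟨monomialMap σ c x, h1 x hx, supp_mono σ c x, ?_⟩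
  rw [Finset.card_smul_finset]
  exact hc


def fOf (l : List (Fin 12)) (p : ArrayPt) : ArrayPt := eA.symm (l.getD (eA p).val 0)

def OkInv (f g : List (Fin 12)) : Prop := (∀ p, fOf g (fOf f p) = p) ∧ (∀ p, fOf f (fOf g p) = p)

instance (f g : List (Fin 12)) : Decidable (OkInv f g) := by unfold OkInv; infer_instance

def permOf (f g : List (Fin 12)) (h : OkInv f g) : Equiv.Perm ArrayPt := ⟨fOf f, fOf g, h.1, h.2⟩

def sgnOf (m : ℕ) : ArrayPt → (ZMod 3)ˣ := fun p => if m.testBit (eA p) then -1 else 1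

def sv (m : ℕ) (p : ArrayPt) : ZMod 3 := if m.testBit (eA p) then 2 else 1

theorem sgnOf_val (m : ℕ) (p : ArrayPt) : ((sgnOf m p : (ZMod 3)ˣ) : ZMod 3) = sv m p := by
  unfold sgnOf sv
  split_ifs
  · rfl
  · rfl

def T0 : W := fun p => (![2, 2, 2, 1, 1, 1, 0, 0, 0, 0, 0, 0] : Fin 12 → ZMod 3) (eA p)
def T1 : W := fun p => (![0, 1, 2, 1, 2, 0, 2, 1, 0, 0, 0, 0] : Fin 12 → ZMod 3) (eA p)
def T2 : W := fun p => (![2, 1, 0, 2, 1, 0, 2, 0, 1, 0, 0, 0] : Fin 12 → ZMod 3) (eA p)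
def T3 : W := fun p => (![2, 1, 1, 1, 0, 0, 1, 0, 0, 1, 0, 0] : Fin 12 → ZMod 3) (eA p)
def T4 : W := fun p => (![2, 0, 2, 2, 2, 0, 1, 0, 0, 0, 1, 0] : Fin 12 → ZMod 3) (eA p)
def T5 : W := fun p => (![1, 1, 2, 0, 1, 0, 1, 0, 0, 0, 0, 1] : Fin 12 → ZMod 3) (eA p)


end Cfsg.Agent.Lib.Helper34Mono
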