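import Cfsg.Agent.Lib.Helper10Fam
import Cfsg.Agent.Lib.Helper34Stab
import Cfsg.Agent.Lib.Helper94M24A

/-! # Stabilisers of set systems (sextets, trios) in the group of the length-24 code (helper34)

`actHom S` is the action of the stabiliser of `S` on the members of `S`; it is onto as soon as all
swaps are induced (`SwapProp`, checkable by `swapChk`); `KS S` is the subgroup fixing all members. -/

set_option autoImplicit false

namespace Cfsg.Agent.Lib.Helper34Sys

open Cfsg Cfsg.Agent.Lib.Helper33Golay Cfsg.Agent.Lib.Helper10Orb Cfsg.Agent.Lib.Helper10Fam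
open Cfsg.Agent.Lib.Helper34Stab Cfsg.Agent.Lib.Helper94M24A
open scoped Pointwise
open MulAction

abbrev Sys := Finset (Finset GolayPt)

/-- elements of the group of the code fixing every member of `S` -/
def KS (S : Sys) : Subgroup (Equiv.Perm GolayPt) where
  carrier := {g | g ∈ M24 ∧ ∀ t ∈ S, g • t = t}
  one_mem' := ⟨M24.one_mem, fun _ _ => one_smul _ _⟩
  mul_mem' := fun {a b} ha hb => ⟨M24.mul_mem ha.1 hb.1, fun t ht => by
    rw [mul_smul, hb.2 t ht, ha.2 t ht]⟩
  inv_mem' := fun {a} ha => ⟨M24.inv_mem ha.1, fun t ht => by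
    rw [inv_smul_eq_iff, ha.2 t ht]⟩

theorem mem_KS {S : Sys} {g : Equiv.Perm GolayPt} : g ∈ KS S ↔ g ∈ M24 ∧ ∀ t ∈ S, g • t = t :=
  Iff.rfl

theorem smul_eq_of_forall_mem {S : Sys} {g : Equiv.Perm GolayPt} (h : ∀ t ∈ S, g • t ∈ S) :
    g • S = S := by
  apply Finset.eq_of_subset_of_card_le
  · intro x hx
    obtain ⟨y, hy, rfl⟩ := Finset.mem_smul_finset.1 hx
    exact h y hy
  · rw [Finset.card_smul_finset]

theorem KS_smul {S : Sys} {g : Equiv.Perm GolayPt} (h : g ∈ KS S) : g • S = S :=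
  smul_eq_of_forall_mem (fun t ht => by rw [h.2 t ht]; exact ht)

/-- the stabiliser as permutations of the finsets of points -/
def iota (S : Sys) : ↥(stabilizer ↥M24 S) →* Equiv.Perm (Finset GolayPt) :=
  (MulAction.toPermHom (Equiv.Perm GolayPt) (Finset GolayPt)).comp
    (M24.subtype.comp (stabilizer ↥M24 S).subtype)

theorem iota_apply (S : Sys) (g : ↥(stabilizer ↥M24 S)) (t : Finset GolayPt) :
    iota S g t = ((g : ↥M24) : Equiv.Perm GolayPt) • t := rfl

theorem stab_smul (S : Sys) (g : ↥(stabilizer ↥M24 S)) :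
    ((g : ↥M24) : Equiv.Perm GolayPt) • S = S := g.2

theorem iota_mem (S : Sys) (g : ↥(stabilizer ↥M24 S)) (t : Finset GolayPt) :
    iota S g t ∈ S ↔ t ∈ S := by
  rw [iota_apply]
  have h := Finset.smul_mem_smul_finset_iff (s := S) (b := t) ((g : ↥M24) : Equiv.Perm GolayPt)
  rwa [stab_smul S g] at h

/-- the action of the stabiliser of `S` on the members of `S` -/
def actHom (S : Sys) : ↥(stabilizer ↥M24 S) →* Equiv.Perm {x // x ∈ S} :=
  restrictHom (iota S) S (iota_mem S)

theorem actHom_apply (S : Sys) (g : ↥(stabilizer ↥M24 S)) (t : {x // x ∈ S}) :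
    ((actHom S g t : {x // x ∈ S}) : Finset GolayPt) =
      ((g : ↥M24) : Equiv.Perm GolayPt) • (t : Finset GolayPt) := rfl

/-- every swap of two members is induced -/
def SwapProp (S : Sys) : Prop :=
  ∀ a ∈ S, ∀ b ∈ S, a ≠ b → ∃ g ∈ M24, g • a = b ∧ g • b = a ∧ ∀ t ∈ S, t ≠ a → t ≠ b → g • t = t

theorem SwapProp.transport {S : Sys} {k : Equiv.Perm GolayPt} (hk : k ∈ M24)
    (h : SwapProp (k • S)) : SwapProp S := by
  intro a ha b hb hab
  obtain ⟨g, hg, h1, h2, h3⟩ := h (k • a) (Finset.smul_mem_smul_finset ha) (k • b)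
    (Finset.smul_mem_smul_finset hb) (fun e => hab (MulAction.injective k e))
  refine ⟨k⁻¹ * g * k, M24.mul_mem (M24.mul_mem (M24.inv_mem hk) hg) hk, ?_, ?_, ?_⟩
  · rw [mul_smul, mul_smul, h1, inv_smul_smul]
  · rw [mul_smul, mul_smul, h2, inv_smul_smul]
  · intro t ht hta htb
    rw [mul_smul, mul_smul, h3 (k • t) (Finset.smul_mem_smul_finset ht)
      (fun e => hta (MulAction.injective k e)) (fun e => htb (MulAction.injective k e)),
      inv_smul_smul]

def swapChk (l L : List ℕ) : Bool :=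
  l.all fun u => l.all fun v => Nat.beq u v || L.any fun P =>
    inM24 P && Nat.beq (app P u) v && Nat.beq (app P v) u &&
      l.all fun w => Nat.beq w u || Nat.beq w v || Nat.beq (app P w) w

theorem swapProp_of_chk (l L : List ℕ) (h : swapChk l L = true) : SwapProp (setOf l) := by
  intro a ha b hb hab
  obtain ⟨u, hu, rfl⟩ := mem_setOf.1 ha
  obtain ⟨v, hv, rfl⟩ := mem_setOf.1 hb
  have h1 := List.all_eq_true.1 (List.all_eq_true.1 h u hu) v hv
  rw [Bool.or_eq_true, beq_iff] at h1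
  rcases h1 with h1 | h1
  · exact absurd (by rw [h1]) hab
  · obtain ⟨P, _, hP⟩ := List.any_eq_true.1 h1
    simp only [Bool.and_eq_true, beq_iff] at hP
    obtain ⟨⟨⟨hM, h2⟩, h3⟩, h4⟩ := hP
    have hval := inM24_valid hM
    refine ⟨toPerm P, toPerm_mem_M24 hM, by rw [smul_dec hval, h2], by rw [smul_dec hval, h3], ?_⟩
    intro t ht hta htb
    obtain ⟨w, hw, rfl⟩ := mem_setOf.1 ht
    have h5 := List.all_eq_true.1 h4 w hw
    simp only [Bool.or_eq_true, beq_iff] at h5
    rcases h5 with (h5 | h5) | h5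
    · exact absurd (by rw [h5]) hta
    · exact absurd (by rw [h5]) htb
    · rw [smul_dec hval, h5]

theorem actHom_surjective {S : Sys} (h : SwapProp S) : Function.Surjective (actHom S) := by
  rw [← MonoidHom.range_eq_top, eq_top_iff, ← Equiv.Perm.closure_isSwap, Subgroup.closure_le]
  rintro σ ⟨a, b, hab, rfl⟩
  obtain ⟨g, hg, h1, h2, h3⟩ := h a.1 a.2 b.1 b.2 (fun e => hab (Subtype.ext e))
  have hgS : g • S = S := by
    apply smul_eq_of_forall_mem
    intro t ht
    by_cases hta : t = a.1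
    · rw [hta, h1]; exact b.2
    · by_cases htb : t = b.1
      · rw [htb, h2]; exact a.2
      · rw [h3 t ht hta htb]; exact ht
  refine ⟨⟨⟨g, hg⟩, hgS⟩, ?_⟩
  apply Equiv.ext
  intro t
  apply Subtype.ext
  rw [actHom_apply]
  change g • (t : Finset GolayPt) = _
  by_cases hta : t = a
  · rw [hta, Equiv.swap_apply_left, h1]
  · by_cases htb : t = b
    · rw [htb, Equiv.swap_apply_right, h2]
    · rw [Equiv.swap_apply_of_ne_of_ne hta htb]
      exact h3 t.1 t.2 (fun e => hta (Subtype.ext e)) (fun e => htb (Subtype.ext e))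

theorem mem_ker_actHom {S : Sys} {g : ↥(stabilizer ↥M24 S)} :
    g ∈ (actHom S).ker ↔ ∀ t ∈ S, ((g : ↥M24) : Equiv.Perm GolayPt) • t = t := by
  rw [MonoidHom.mem_ker]
  constructor
  · intro h t ht
    have := congrArg (fun e : Equiv.Perm {x // x ∈ S} => ((e ⟨t, ht⟩ : {x // x ∈ S}) : Finset GolayPt)) h
    exact this
  · intro h
    apply Equiv.ext
    intro t
    apply Subtype.ext
    exact h t.1 t.2

theorem card_ker_mul {S : Sys} (h : SwapProp S) :
    Nat.card (actHom S).ker * S.card.factorial = Nat.card ↥(stabilizer ↥M24 S) := by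
  have h1 := Subgroup.card_mul_index (actHom S).ker
  have h2 : Nat.card (Equiv.Perm {x // x ∈ S}) = S.card.factorial := by
    rw [Nat.card_eq_fintype_card, Fintype.card_perm, Fintype.card_coe]
  rw [Subgroup.index_ker, MonoidHom.range_eq_top.2 (actHom_surjective h), Subgroup.card_top,
    h2] at h1
  exact h1

/-- the kernel, seen as a group of permutations of the points -/
def kerEquiv (S : Sys) : ↥(actHom S).ker ≃ ↥(KS S) where
  toFun g := ⟨((g : ↥(stabilizer ↥M24 S)) : ↥M24), (g : ↥(stabilizer ↥M24 S)).1.2,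
    mem_ker_actHom.1 g.2⟩
  invFun g := ⟨⟨⟨g.1, g.2.1⟩, KS_smul g.2⟩, mem_ker_actHom.2 g.2.2⟩
  left_inv _ := rfl
  right_inv _ := rfl

theorem card_KS_mul {S : Sys} (h : SwapProp S) :
    Nat.card ↥(KS S) * S.card.factorial = Nat.card ↥(stabilizer ↥M24 S) := by
  rw [← Nat.card_congr (kerEquiv S)]
  exact card_ker_mul h

theorem card_subtype_eq (S : Sys) :
    Nat.card {g : ↥(stabilizer ↥M24 S) // ∀ t ∈ S, ((g : ↥M24) : Equiv.Perm GolayPt) • t = t} =
      Nat.card (actHom S).ker :=
  Nat.card_congr (Equiv.subtypeEquivRight (fun _ => mem_ker_actHom.symm))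

theorem card_stab_mul (S : Sys) (F : Set Sys) (hF : orbit ↥M24 S = F) :
    Nat.card ↥(stabilizer ↥M24 S) * F.ncard = Nat.card ↥M24 := by
  have h := Subgroup.card_mul_index (stabilizer ↥M24 S)
  rwa [MulAction.index_stabilizer, hF] at h

theorem KS_conj {S : Sys} {k : Equiv.Perm GolayPt} (hk : k ∈ M24) {g : Equiv.Perm GolayPt} :
    k * g * k⁻¹ ∈ KS (k • S) ↔ g ∈ KS S := by
  rw [mem_KS, mem_KS]
  constructor
  · rintro ⟨h1, h2⟩
    constructor
    · have := M24.mul_mem (M24.mul_mem (M24.inv_mem hk) h1) hk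
      simpa [mul_assoc] using this
    · intro t ht
      have := h2 (k • t) (Finset.smul_mem_smul_finset ht)
      rw [mul_smul, mul_smul, inv_smul_smul] at this
      exact MulAction.injective k this
  · rintro ⟨h1, h2⟩
    refine ⟨M24.mul_mem (M24.mul_mem hk h1) (M24.inv_mem hk), ?_⟩
    intro t ht
    obtain ⟨y, hy, rfl⟩ := Finset.mem_smul_finset.1 ht
    rw [mul_smul, mul_smul, inv_smul_smul, h2 y hy]

end Cfsg.Agent.Lib.Helper34Sys
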