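import Cfsg.Agent.Lib.Helper34Sz8Tab

set_option autoImplicit false
set_option maxRecDepth 1000000
set_option maxHeartbeats 4000000

namespace Cfsg.Agent.Lib.Helper34Sz8K9x2

open Cfsg.Agent.Lib.Helper34CovA Cfsg.Agent.Lib.Helper34CovB Cfsg.Agent.Lib.Helper34CovC
  Cfsg.Agent.Lib.Helper34CovH Cfsg.Agent.Lib.Helper34CovP Cfsg.Agent.Lib.Helper34CovQ Cfsg.Agent.Lib.Helper34Sz8Tab

theorem k8 : incr ((ord8 ++ [23749]).map kf) = true := by decide +kernel
theorem k9 : incr ((ord9 ++ [19135]).map kf) = true := by decide +kernel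
theorem k10 : incr ((ord10 ++ [18217]).map kf) = true := by decide +kernel
theorem k11 : incr ((ord11 ++ [16163]).map kf) = true := by decide +kernel

end Cfsg.Agent.Lib.Helper34Sz8K9x2
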