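import Cfsg.Agent.Lib.Helper34Sz8Tab

set_option autoImplicit false
set_option maxRecDepth 1000000
set_option maxHeartbeats 4000000

namespace Cfsg.Agent.Lib.Helper34Sz8K9x3

open Cfsg.Agent.Lib.Helper34CovA Cfsg.Agent.Lib.Helper34CovB Cfsg.Agent.Lib.Helper34CovC
  Cfsg.Agent.Lib.Helper34CovH Cfsg.Agent.Lib.Helper34CovP Cfsg.Agent.Lib.Helper34CovQ Cfsg.Agent.Lib.Helper34Sz8Tab

theorem k12 : incr ((ord12 ++ [19054]).map kf) = true := by decide +kernel
theorem k13 : incr ((ord13 ++ [12077]).map kf) = true := by decide +kernel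
theorem k14 : incr ((ord14 ++ [11130]).map kf) = true := by decide +kernel
theorem k15 : incr (ord15.map kf) = true := by decide +kernel

end Cfsg.Agent.Lib.Helper34Sz8K9x3
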