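import Cfsg.Agent.Lib.Helper34Sz8K1x0
import Cfsg.Agent.Lib.Helper34Sz8K1x1
import Cfsg.Agent.Lib.Helper34Sz8K9x0
import Cfsg.Agent.Lib.Helper34Sz8K9x1
import Cfsg.Agent.Lib.Helper34Sz8K9x2
import Cfsg.Agent.Lib.Helper34Sz8K9x3

set_option autoImplicit false
set_option maxRecDepth 1000000
set_option maxHeartbeats 4000000

/-! assembly of the certificate (generated by scratch/cov/emit3.py, helper34) -/

namespace Cfsg.Agent.Lib.Helper34Sz8Cert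

open Cfsg.Agent.Lib.Helper34CovA Cfsg.Agent.Lib.Helper34CovB Cfsg.Agent.Lib.Helper34CovC
  Cfsg.Agent.Lib.Helper34CovH Cfsg.Agent.Lib.Helper34CovP Cfsg.Agent.Lib.Helper34CovQ Cfsg.Agent.Lib.Helper34Sz8Defs
  Cfsg.Agent.Lib.Helper34Sz8Tab Cfsg.Agent.Lib

theorem chk1 : C.chkAll = true := by
  refine chkAll_of_chunks C 16 140 rfl ?_
  intro l hl c hc
  interval_cases l
  · exact Helper34Sz8K1x0.k c hc
  · exact Helper34Sz8K1x1.k c hc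

theorem chk9 : incr (ord.map fun t => codeP (keyP C fx fy base t)) = true :=
  incr_glue kf _ _ 809 rfl Helper34Sz8K9x0.k0
    (incr_glue kf _ _ 1085 rfl Helper34Sz8K9x0.k1
    (incr_glue kf _ _ 10510 rfl Helper34Sz8K9x0.k2
    (incr_glue kf _ _ 27685 rfl Helper34Sz8K9x0.k3
    (incr_glue kf _ _ 11139 rfl Helper34Sz8K9x1.k4
    (incr_glue kf _ _ 14530 rfl Helper34Sz8K9x1.k5
    (incr_glue kf _ _ 26051 rfl Helper34Sz8K9x1.k6
    (incr_glue kf _ _ 13519 rfl Helper34Sz8K9x1.k7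
    (incr_glue kf _ _ 23749 rfl Helper34Sz8K9x2.k8
    (incr_glue kf _ _ 19135 rfl Helper34Sz8K9x2.k9
    (incr_glue kf _ _ 18217 rfl Helper34Sz8K9x2.k10
    (incr_glue kf _ _ 16163 rfl Helper34Sz8K9x2.k11
    (incr_glue kf _ _ 19054 rfl Helper34Sz8K9x3.k12
    (incr_glue kf _ _ 12077 rfl Helper34Sz8K9x3.k13
    (incr_glue kf _ _ 11130 rfl Helper34Sz8K9x3.k14
    (Helper34Sz8K9x3.k15)))))))))))))))

theorem model {G : Type*} [Group G] (ρ : G →* Equiv.Perm (Fin 585)) (hρ : Function.Injective ρ)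
    (ux uy : G) (hux : ∀ p : Fin 585, ((ρ ux p : Fin 585) : ℕ) = fx p)
    (huy : ∀ p : Fin 585, ((ρ uy p : Fin 585) : ℕ) = fy p) (hcard : Nat.card G = 29120) :
    Model G C 13 ux uy :=
  model_of_checks (ρ ux) (ρ uy) fx fy hux huy ρ hρ ux uy rfl rfl C 13 base hcard chk1 chk5 chk6 chk7 ord
    chk8 chk9 (by decide) (by decide)

theorem bound {G : Type*} [Group G] (ux uy : G) (M : Model G C 13 ux uy)
    {Γ : Type*} [Group Γ] [Finite Γ] (σ : Γ →* G) (hσ : Cfsg.IsStemExtension σ) :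
    ∃ b₁ b₂ : Γ, b₁ ∈ σ.ker ∧ b₂ ∈ σ.ker ∧ b₁ ^ (2 : ℤ) = 1 ∧ b₂ ^ (2 : ℤ) = 1 ∧
      ∀ k ∈ σ.ker, ∃ i j : ℤ, k = b₁ ^ i * b₂ ^ j :=
  stem_bound2 σ hσ C B ux uy M chk1 chk2 chk3 chk4


end Cfsg.Agent.Lib.Helper34Sz8Cert
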