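import Cfsg.Agent.Lib.Helper34Sz8Vol

set_option autoImplicit false
set_option maxRecDepth 1000000
set_option maxHeartbeats 4000000

namespace Cfsg.Agent.Lib.Helper34Sz8VCx1

open Cfsg.Agent.Lib.Helper34CovA Cfsg.Agent.Lib.Helper34CovB Cfsg.Agent.Lib.Helper34CovC
  Cfsg.Agent.Lib.Helper34CovH Cfsg.Agent.Lib.Helper34CovP Cfsg.Agent.Lib.Helper34CovQ Cfsg.Agent.Lib.Helper34CovV
  Cfsg.Agent.Lib.Helper34Sz8Tab Cfsg.Agent.Lib.Helper34Sz8Vol

theorem c1 : (List.range 2240).all (fun i => chkCl C p1 p2 2 2 e1 e2 1 i) = true := by decide +kernel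
theorem c4 : (List.range 2240).all (fun i => chkCl C p1 p2 2 2 e1 e2 4 i) = true := by decide +kernel
theorem c5 : (List.range 2240).all (fun i => chkCl C p1 p2 2 2 e1 e2 5 i) = true := by decide +kernel

end Cfsg.Agent.Lib.Helper34Sz8VCx1
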