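import Cfsg.Agent.Lib.Helper34Sz8Tab

set_option autoImplicit false
set_option maxRecDepth 1000000
set_option maxHeartbeats 4000000

namespace Cfsg.Agent.Lib.Helper34Sz8K1x0

open Cfsg.Agent.Lib.Helper34CovA Cfsg.Agent.Lib.Helper34CovB Cfsg.Agent.Lib.Helper34CovC
  Cfsg.Agent.Lib.Helper34CovH Cfsg.Agent.Lib.Helper34CovP Cfsg.Agent.Lib.Helper34CovQ Cfsg.Agent.Lib.Helper34Sz8Tab

theorem k0 : (List.range 140).all (fun t => C.chkE 0 (0 * 140 + t)) = true := by decide +kernel
theorem k1 : (List.range 140).all (fun t => C.chkE 0 (1 * 140 + t)) = true := by decide +kernel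
theorem k2 : (List.range 140).all (fun t => C.chkE 0 (2 * 140 + t)) = true := by decide +kernel
theorem k3 : (List.range 140).all (fun t => C.chkE 0 (3 * 140 + t)) = true := by decide +kernel
theorem k4 : (List.range 140).all (fun t => C.chkE 0 (4 * 140 + t)) = true := by decide +kernel
theorem k5 : (List.range 140).all (fun t => C.chkE 0 (5 * 140 + t)) = true := by decide +kernel
theorem k6 : (List.range 140).all (fun t => C.chkE 0 (6 * 140 + t)) = true := by decide +kernel
theorem k7 : (List.range 140).all (fun t => C.chkE 0 (7 * 140 + t)) = true := by decide +kernel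
theorem k8 : (List.range 140).all (fun t => C.chkE 0 (8 * 140 + t)) = true := by decide +kernel
theorem k9 : (List.range 140).all (fun t => C.chkE 0 (9 * 140 + t)) = true := by decide +kernel
theorem k10 : (List.range 140).all (fun t => C.chkE 0 (10 * 140 + t)) = true := by decide +kernel
theorem k11 : (List.range 140).all (fun t => C.chkE 0 (11 * 140 + t)) = true := by decide +kernel
theorem k12 : (List.range 140).all (fun t => C.chkE 0 (12 * 140 + t)) = true := by decide +kernel
theorem k13 : (List.range 140).all (fun t => C.chkE 0 (13 * 140 + t)) = true := by decide +kernel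
theorem k14 : (List.range 140).all (fun t => C.chkE 0 (14 * 140 + t)) = true := by decide +kernel
theorem k15 : (List.range 140).all (fun t => C.chkE 0 (15 * 140 + t)) = true := by decide +kernel

theorem k (c : ℕ) (hc : c < 16) : (List.range 140).all (fun t => C.chkE 0 (c * 140 + t)) = true := by
  interval_cases c
  · exact k0
  · exact k1
  · exact k2
  · exact k3
  · exact k4
  · exact k5
  · exact k6
  · exact k7
  · exact k8
  · exact k9
  · exact k10
  · exact k11
  · exact k12
  · exact k13
  · exact k14
  · exact k15

end Cfsg.Agent.Lib.Helper34Sz8K1x0
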