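import Cfsg.Agent.Lib.Helper35Ord4

set_option autoImplicit false

namespace Cfsg.Agent.Lib.Helper35TC

/-! ## Simplicity of a normal subgroup of index two -/

theorem normal_map_of_invariant {G : Type*} [Group G] (A : Subgroup G) [A.Normal]
    (hA : A.index = 2) (x : G) (hx : x ∉ A) (T : Subgroup A) [T.Normal]
    (hT : ∀ t ∈ T, MulAut.conjNormal x t ∈ T) : (T.map A.subtype).Normal := by
  constructor
  rintro _ ⟨t, ht, rfl⟩ g
  by_cases hg : g ∈ A
  · refine ⟨⟨g, hg⟩ * t * ⟨g, hg⟩⁻¹, ‹T.Normal›.conj_mem t ht _, rfl⟩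
  · -- g = a * x with a ∈ A
    have hgx : g * x⁻¹ ∈ A := by
      have h1 := (Subgroup.mul_mem_iff_of_index_two hA (a := g) (b := x⁻¹))
      rw [h1]
      constructor
      · intro h; exact absurd h hg
      · intro h; exact absurd (by simpa using A.inv_mem h) hx
    have h2 := hT t ht
    refine ⟨⟨g * x⁻¹, hgx⟩ * (MulAut.conjNormal x t) * ⟨g * x⁻¹, hgx⟩⁻¹,
      ‹T.Normal›.conj_mem _ h2 _, ?_⟩
    simp only [Subgroup.subtype_apply, Subgroup.coe_mul, MulAut.conjNormal_apply,
      InvMemClass.coe_inv]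
    group

theorem simple_of_index_two {G : Type*} [Group G] [Finite G] (A : Subgroup G) [A.Normal]
    (hA : A.index = 2)
    (hmin : ∀ M : Subgroup G, M.Normal → M ≠ ⊥ → A ≤ M)
    (hsq : ∀ m : ℕ, m * m ≠ Nat.card A) (hnt : Nontrivial A) : IsSimpleGroup A := by
  refine ⟨fun N hN => ?_⟩
  by_cases hNb : N = ⊥
  · exact Or.inl hNb
  right
  obtain ⟨x, hx⟩ : ∃ x, x ∉ A := by
    by_contra h
    have : A = ⊤ := eq_top_iff.mpr (fun g _ => by
      by_contra hg
      exact h ⟨g, hg⟩)
    rw [this, Subgroup.index_top] at hA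
    omega
  set σ : A ≃* A := MulAut.conjNormal x with hσ
  set N' : Subgroup A := N.map σ.toMonoidHom with hN'
  have hN'n : N'.Normal := Subgroup.Normal.map hN _ σ.surjective
  have hσN : ∀ t ∈ N, σ t ∈ N' := fun t ht => ⟨t, ht, rfl⟩
  have hσN' : ∀ t ∈ N', σ t ∈ N := by
    rintro _ ⟨t, ht, rfl⟩
    have hxx : x * x ∈ A := Subgroup.mul_self_mem_of_index_two hA x
    have : σ (σ t) = ⟨x * x, hxx⟩ * t * ⟨x * x, hxx⟩⁻¹ := by
      apply Subtype.ext
      simp only [hσ, MulAut.conjNormal_apply, Subgroup.coe_mul, InvMemClass.coe_inv]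
      group
    show σ (σ t) ∈ N
    rw [this]
    exact hN.conj_mem t ht _
  have key : ∀ T : Subgroup A, T.Normal → (∀ t ∈ T, σ t ∈ T) → T ≠ ⊥ → T = ⊤ := by
    intro T hTn hT hTb
    have h1 := normal_map_of_invariant A hA x hx T hT
    have h2 : T.map A.subtype ≠ ⊥ := by
      intro h
      apply hTb
      rw [eq_bot_iff]
      intro t ht
      have : A.subtype t ∈ T.map A.subtype := ⟨t, ht, rfl⟩
      rw [h, Subgroup.mem_bot] at this
      exact Subtype.ext this
    have h3 := hmin _ h1 h2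
    rw [eq_top_iff]
    intro a _
    obtain ⟨t, ht, hta⟩ := h3 a.2
    have : t = a := Subtype.ext hta
    rwa [← this]
  by_cases hI : N ⊓ N' = ⊥
  · exfalso
    have hJ : N ⊔ N' = ⊤ := by
      apply key _ inferInstance
      · intro t ht
        have hle : (N ⊔ N') ≤ (N ⊔ N').comap σ.toMonoidHom := by
          rw [sup_le_iff]
          constructor
          · intro u hu
            exact (le_sup_right : N' ≤ N ⊔ N') (hσN u hu)
          · intro u hu
            exact (le_sup_left : N ≤ N ⊔ N') (hσN' u hu)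
        exact hle ht
      · intro h
        apply hNb
        rw [eq_bot_iff, ← h]
        exact le_sup_left
    have hc : Subgroup.IsComplement' N N' := by
      apply Subgroup.isComplement'_of_disjoint_and_mul_eq_univ (disjoint_iff.mpr hI)
      rw [← Subgroup.mul_normal, hJ]
      rfl
    have h1 := hc.card_mul_card
    have h2 : Nat.card N' = Nat.card N := Subgroup.card_map_of_injective σ.injective
    rw [h2] at h1
    exact hsq _ h1
  · have h1 : N ⊓ N' = ⊤ := by
      apply key _ inferInstance _ hI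
      intro t ht
      exact ⟨hσN' t ht.2, hσN t ht.1⟩
    rw [eq_top_iff, ← h1]
    exact inf_le_left

/-- every nontrivial normal subgroup contains all elements of order `p` -/
theorem pow_mem_of_maximal {G : Type*} [Group G] [Finite G] (H : Subgroup G)
    (hmax : ∀ M : Subgroup G, H ≤ M → M = H ∨ M = ⊤)
    (hcore : ∀ N : Subgroup G, N.Normal → N ≤ H → N = ⊥)
    (p : ℕ) (hp : Nat.Coprime p (Nat.card H)) (N : Subgroup G) (hN : N.Normal) (hNb : N ≠ ⊥) :
    ∀ u : G, u ^ p = 1 → u ∈ N := by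
  have hNH : ¬ N ≤ H := fun h => hNb (hcore N hN h)
  have hsup : H ⊔ N = ⊤ := by
    rcases hmax (H ⊔ N) le_sup_left with h1 | h1
    · exact absurd (h1 ▸ le_sup_right) hNH
    · exact h1
  have hidx : N.index ∣ Nat.card H := by
    rw [← Subgroup.relIndex_top_right, ← hsup, Subgroup.relIndex_sup_right]
    exact Subgroup.index_dvd_card _
  intro u hu
  exact mem_of_pow_of_coprime N (Nat.Coprime.coprime_dvd_right hidx hp) hu

namespace Pkg
variable {α : Type} {K : Pkg α}

theorem comm_le_of_gens (M : Subgroup K.Grp) [M.Normal] (d : α)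
    (h : ∀ a : α, (PresentedGroup.of a : K.Grp) * PresentedGroup.of d ∈ M) :
    commutator K.Grp ≤ M := by
  set π := QuotientGroup.mk' M with hπ
  set t := π (PresentedGroup.of d) with ht
  have hS : (Subgroup.zpowers t).comap π = ⊤ := by
    apply top_of_gens
    intro a
    rw [Subgroup.mem_comap]
    have h1 : π (PresentedGroup.of a) * t = 1 := by
      rw [ht, ← map_mul]
      exact (QuotientGroup.eq_one_iff _).mpr (h a)
    rw [eq_inv_of_mul_eq_one_left h1]
    exact Subgroup.inv_mem _ (Subgroup.mem_zpowers t)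
  have hall : ∀ g, π g ∈ Subgroup.zpowers t := by
    intro g
    have : g ∈ (Subgroup.zpowers t).comap π := by rw [hS]; trivial
    exact this
  rw [commutator_def, Subgroup.commutator_le]
  intro g1 _ g2 _
  obtain ⟨i, hi⟩ := Subgroup.mem_zpowers_iff.mp (hall g1)
  obtain ⟨j, hj⟩ := Subgroup.mem_zpowers_iff.mp (hall g2)
  rw [commutatorElement_def]
  apply (QuotientGroup.eq_one_iff _).mp
  have h5 : π (g1 * g2 * g1⁻¹ * g2⁻¹) = 1 := by
    rw [map_mul, map_mul, map_mul, map_inv, map_inv, ← hi, ← hj, ← zpow_add, ← zpow_neg,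
      ← zpow_add, ← zpow_neg, ← zpow_add]
    have : i + j + -i + -j = 0 := by ring
    rw [this, zpow_zero]
  exact h5

theorem Ok.simple_commutator (h : K.Ok) (horb : ∀ j < K.P.n, K.P.chkOrb j = true)
    {D : BData} (hD : D.Valid K.P) (c : ℕ)
    (hc : (∏ i ∈ Finset.range D.base.length, D.cnt i) = c)
    (hub : Finite K.Grp ∧ Nat.card K.Grp ≤ K.P.n * c)
    (sz : ℕ → ℕ)
    (hsz : ∀ c < K.P.roots.length,
      ((Finset.range K.P.n).filter (fun j => K.P.labIs c j = true)).card = sz c)
    (har : ∀ C ∈ (Finset.range K.P.roots.length).powerset, K.P.lab 0 ∈ C →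
      (∑ c ∈ C, sz c) ∣ K.P.n → (∑ c ∈ C, sz c) = 1 ∨ (∑ c ∈ C, sz c) = K.P.n)
    (p : ℕ) (hp : Nat.Coprime p c)
    (d : α) (seed : α → WExp α)
    (hs1 : ∀ a, D.fixChk K.P ((WExp.pow (seed a) p).app K.code K.P.iv) = true)
    (hs2 : ∀ a, D.fixChk K.P
      ((WExp.pow (.mul (.mul (.of a) (.of d)) (seed a)) p).app K.code K.P.iv) = true)
    (hidx : (commutator K.Grp).index = 2)
    (hsq : ∀ m : ℕ, m * m ≠ Nat.card (commutator K.Grp))
    (hnt : Nontrivial (commutator K.Grp)) :
    IsSimpleGroup (commutator K.Grp) := by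
  obtain ⟨hcard, hH, hfix⟩ := h.order_eq hD c hc hub
  have := hub.1
  apply simple_of_index_two (commutator K.Grp) hidx ?_ hsq hnt
  intro M hM hMb
  have hall := pow_mem_of_maximal K.H (h.maximal horb sz hsz har) ?_ p (by rw [hH]; exact hp)
    M hM hMb
  · apply comm_le_of_gens M d
    intro a
    have h1 := h.word_eq_one hD hfix _ (hs1 a)
    have h2 := h.word_eq_one hD hfix _ (hs2 a)
    simp only [WExp.eval, map_pow, map_mul] at h1 h2
    have h3 := hall _ h1
    have h4 := hall _ h2
    have h5 := M.mul_mem h4 (M.inv_mem h3)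
    rwa [mul_inv_cancel_right] at h5
  · intro N hN hNH
    rw [eq_bot_iff]
    intro g hg
    have hall : ∀ j : Fin K.P.n, h.phi g j = j := by
      intro j
      obtain ⟨x, rfl⟩ := h.transitive j
      have h1 : x⁻¹ * g * x ∈ K.H := hNH (by
        have := hN.conj_mem g hg x⁻¹
        rwa [inv_inv] at this)
      have h2 := h.H_fix _ h1
      rw [map_mul, map_mul, map_inv, Equiv.Perm.mul_apply, Equiv.Perm.mul_apply,
        Equiv.Perm.inv_eq_iff_eq] at h2
      exact h2
    exact hfix g (hall _) (fun b _ => hall _)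

end Pkg

end Cfsg.Agent.Lib.Helper35TC
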