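import Cfsg.Agent.Lib.Helper35F78Dat

set_option autoImplicit false
set_option maxRecDepth 100000

namespace Cfsg.Agent.Lib.Helper35F78

open Cfsg.Agent.Lib.Helper35TC Cfsg.Agent.Lib.Helper35Pk

def labL : List (List ℕ) := [
  [1, 3, 2, 2, 2, 2, 2, 2, 2],
  [3, 1, 3, 2, 2, 2, 2, 2, 2],
  [2, 3, 1, 3, 2, 2, 2, 2, 2],
  [2, 2, 3, 1, 3, 2, 2, 3, 2],
  [2, 2, 2, 3, 1, 3, 2, 2, 2],
  [2, 2, 2, 2, 3, 1, 3, 2, 2],
  [2, 2, 2, 2, 2, 3, 1, 2, 2],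
  [2, 2, 2, 3, 2, 2, 2, 1, 3],
  [2, 2, 2, 2, 2, 2, 2, 3, 1]]

def lab (a b : ℕ) : ℕ := (labL.getD a []).getD b 0

theorem hcox : (List.range 9).all (fun a => (List.range (a + 1)).all (fun b =>
    chk 65536 13 78 tab 9 (repW [b, a] (lab a b)))) = true := by
  decide +kernel

end Cfsg.Agent.Lib.Helper35F78
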