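import Cfsg.Agent.Lib.Helper35F78Dat
import Cfsg.Agent.Lib.Helper35Fi22aMain

set_option autoImplicit false
set_option maxRecDepth 100000

namespace Cfsg.Agent.Lib.Helper35F78

open Cfsg.Agent.Lib.Helper35TC Cfsg.Agent.Lib.Helper35Pk

theorem hx : Cfsg.Agent.Lib.Helper35Fi22a.extraExps.all (fun e =>
    chk 65536 13 78 tab 9 (e.app Cfsg.Agent.Lib.Helper35Fi22a.code id)) = true := by
  decide +kernel

end Cfsg.Agent.Lib.Helper35F78
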