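import Cfsg.Agent.Lib.Helper35F78C
import Cfsg.Agent.Lib.Helper35F78X
import Cfsg.Agent.Lib.Helper35Fi22Fin

set_option autoImplicit false
set_option maxRecDepth 100000

namespace Cfsg.Agent.Lib.Helper35F78

open Cfsg.Agent.Lib.Helper35TC Cfsg.Agent.Lib.Helper35Pk Cfsg.Agent.Lib.Helper35Fi22a Cfsg.Spor

abbrev G78 := GL (Fin 78) (ZMod 13)

theorem sq (l : ℕ) (hl : l < 9) : mat 65536 13 78 (tab l) * mat 65536 13 78 (tab l) = 1 :=
  mat_mul_eq_one 65536 13 78 (by norm_num) (by norm_num) (by norm_num) _ _ (htab l hl) (htab l hl)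
    (hsq l hl)

noncomputable def val (l : ℕ) : G78 :=
  if h : l < 9 then ⟨mat 65536 13 78 (tab l), mat 65536 13 78 (tab l), sq l h, sq l h⟩ else 1

theorem val_coe (l : ℕ) (hl : l < 9) :
    Units.coeHom (Matrix (Fin 78) (Fin 78) (ZMod 13)) (val l) = mat 65536 13 78 (tab l) := by
  rw [val, dif_pos hl]
  rfl

theorem val_sq (l : ℕ) : val l * val l = 1 := by
  by_cases h : l < 9
  · apply Units.ext
    rw [Units.val_mul]
    have := val_coe l h
    rw [Units.coeHom_apply] at this
    rw [this]
    exact sq l h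
  · simp [val, h]

attribute [irreducible] val

theorem val_inv (l : ℕ) : val (id l) = (val l)⁻¹ := eq_inv_of_mul_eq_one_left (val_sq l)

theorem one_of_chk (w : List ℕ) (h : chk 65536 13 78 tab 9 w = true) : wordVal val w = 1 := by
  apply Units.ext
  exact wordVal_of_chk 65536 13 78 (by norm_num) (by norm_num) (by norm_num)
    (Units.coeHom (Matrix (Fin 78) (Fin 78) (ZMod 13))) val tab 9 htab val_coe w h

theorem pow_swap {G : Type*} [Group G] (x y : G) (m : ℕ) (h : (x * y) ^ m = 1) :
    (y * x) ^ m = 1 := by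
  rw [show y * x = y * (x * y) * y⁻¹ by group, conj_pow, h]
  simp

theorem cox1 (a b : ℕ) (hb : b ≤ a) (ha : a < 9) : (val a * val b) ^ lab a b = 1 := by
  have h := hcox
  rw [List.all_eq_true] at h
  have h1 := h a (List.mem_range.mpr ha)
  rw [List.all_eq_true] at h1
  have h2 := one_of_chk _ (h1 b (List.mem_range.mpr (by omega)))
  rw [wordVal_repW] at h2
  simpa [wordVal] using h2

theorem lab_symm : ∀ a < 9, ∀ b < 9, lab a b = lab b a := by decide

theorem hlab (x y : Fi22.Gen) : coxLabel Fi22.edges x y = lab (code x) (code y) := by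
  cases x <;> cases y <;> rfl

theorem code_lt (x : Fi22.Gen) : code x < 9 := by cases x <;> decide

theorem cox (x y : Fi22.Gen) :
    (val (code x) * val (code y)) ^ coxLabel Fi22.edges x y = 1 := by
  rw [hlab]
  rcases le_total (code y) (code x) with h | h
  · exact cox1 _ _ h (code_lt x)
  · rw [lab_symm _ (code_lt x) _ (code_lt y)]
    exact pow_swap (val (code y)) (val (code x)) _ (cox1 _ _ h (code_lt y))

theorem hrel : ∀ e ∈ K.relExps, e.evalIn (fun a => val (code a)) = 1 := by
  intro e he
  have he' : e ∈ coxExps Fi22.edges ++ extraExps := he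
  rw [List.mem_append] at he'
  rcases he' with h | h
  · rw [coxExps, List.mem_flatMap] at h
    obtain ⟨x, _, h⟩ := h
    rw [List.mem_map] at h
    obtain ⟨y, _, rfl⟩ := h
    simp only [WExp.evalIn]
    exact cox x y
  · rw [evalIn_eq_wordVal val id val_inv code e]
    apply one_of_chk
    have h1 := hx
    rw [List.all_eq_true] at h1
    exact h1 e h

noncomputable def hom : K.Grp →* G78 := ok.homTo (fun a => val (code a)) hrel

theorem hom_ne : ∃ x, hom x ≠ 1 := by
  refine ⟨PresentedGroup.of .a, ?_⟩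
  rw [hom, Pkg.Ok.homTo_of]
  intro h
  have h1 : mat 65536 13 78 (tab 0) = 1 := by
    have h0 := congrArg (Units.coeHom (Matrix (Fin 78) (Fin 78) (ZMod 13))) h
    rw [map_one] at h0
    rw [← h0]
    exact (val_coe 0 (by norm_num)).symm
  have h2 := congrFun (congrFun h1 2) 0
  rw [Matrix.one_apply_ne (by decide)] at h2
  have h3 : ((dg 65536 ((tab 0).getD 0 0) 2 : ℕ) : ZMod 13) = 0 := h2
  rw [ZMod.natCast_eq_zero_iff] at h3
  exact absurd h3 (by decide +kernel)

theorem hom_injective : Function.Injective hom := by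
  haveI := Cfsg.Agent.Lib.Helper35Fi22Fin.simple
  exact injective_of_simple hom hom_ne

end Cfsg.Agent.Lib.Helper35F78
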