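import Cfsg.Agent.Lib.Helper35R2aB
import Cfsg.Agent.Lib.Helper35R2Ub

set_option autoImplicit false
set_option maxRecDepth 100000

namespace Cfsg.Agent.Lib.Helper35R2Fin

open Cfsg.Agent.Lib.Helper35TC Cfsg.Agent.Lib.Helper35R2a

theorem hub : Finite K.Grp ∧ Nat.card K.Grp ≤ K.P.n * 348364800 :=
  ⟨Cfsg.Agent.Lib.Helper35R2Ub.ub0.1, Cfsg.Agent.Lib.Helper35R2Ub.ub0.2.trans (by show _ ≤ 28431 * 348364800; norm_num)⟩

theorem card_eq : Nat.card K.Grp = 9904359628800 :=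
  (ok.order_eq hBD 348364800 hprod hub).1.trans (by show 28431 * 348364800 = _; norm_num)

theorem word_eq_one (e : WExp Cfsg.Agent.Lib.Helper35R2a.Gen) (he : BD.fixChk K.P (e.app K.code K.P.iv) = true) :
    PresentedGroup.mk K.rels e.eval = 1 :=
  ok.word_eq_one hBD (ok.order_eq hBD 348364800 hprod hub).2.2 e he

end Cfsg.Agent.Lib.Helper35R2Fin
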