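import Cfsg.Agent.Lib.Helper35Der
import Cfsg.Agent.Lib.Helper35Fi24aMain
import Cfsg.Agent.Lib.Helper35R2Fin
import Cfsg.Agent.Lib.Helper35Fi23Fin

set_option autoImplicit false
set_option maxRecDepth 100000

namespace Cfsg.Agent.Lib.Helper35Fi24Ub

open Cfsg.Agent.Lib.Helper35TC

noncomputable abbrev K4 : Pkg Cfsg.Spor.Fi24.Gen := Cfsg.Agent.Lib.Helper35Fi24a.K
noncomputable abbrev K3 : Pkg Cfsg.Spor.Fi23.Gen := Cfsg.Agent.Lib.Helper35Fi23a.K
noncomputable abbrev KR : Pkg Cfsg.Agent.Lib.Helper35R2a.Gen := Cfsg.Agent.Lib.Helper35R2a.K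

theorem ok4 : K4.Ok := Cfsg.Agent.Lib.Helper35Fi24a.ok
theorem ok3 : K3.Ok := Cfsg.Agent.Lib.Helper35Fi23a.ok
theorem okR : KR.Ok := Cfsg.Agent.Lib.Helper35R2a.ok

/-! ### the spider relation -/

def iR : Cfsg.Agent.Lib.Helper35R2a.Gen → Cfsg.Spor.Fi24.Gen
  | .l => .l
  | .k => .k
  | .a => .a
  | .b => .b
  | .c => .c
  | .d => .d
  | .e => .e
  | .f => .f
  | .h => .h
  | .i => .i

theorem hmemR : ∀ e ∈ KR.relExps, e.map iR ∈ K4.relExps := by decide +kernel

def spR : WExp Cfsg.Agent.Lib.Helper35R2a.Gen :=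
  (.pow (.mul (.mul (.mul (.mul (.mul (.mul (.mul (.mul (.of .d) (.of .c)) (.of .b)) (.of .d)) (.of .e)) (.of .f)) (.of .d)) (.of .h)) (.of .i)) 10)

def sp4 : WExp Cfsg.Spor.Fi24.Gen :=
  (.pow (.mul (.mul (.mul (.mul (.mul (.mul (.mul (.mul (.of .d) (.of .c)) (.of .b)) (.of .d)) (.of .e)) (.of .f)) (.of .d)) (.of .h)) (.of .i)) 10)

theorem spider : PresentedGroup.mk K4.rels sp4.eval = 1 := by
  have h1 : PresentedGroup.mk KR.rels spR.eval = 1 :=
    Cfsg.Agent.Lib.Helper35R2Fin.word_eq_one spR (by decide +kernel)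
  have h2 := okR.homOf_mk K4 iR (fun e he => ok4.rel_one (hmemR e he)) spR
  rw [h1, map_one] at h2
  exact h2.symm

/-! ### the subgroup `H` is a quotient of `2 × Fi23` -/

def io : Cfsg.Spor.Fi23.Gen → Cfsg.Spor.Fi24.Gen
  | .a => .a
  | .b => .b
  | .c => .c
  | .d => .d
  | .e => .e
  | .f => .f
  | .g => .g
  | .j => .j
  | .h => .h
  | .i => .i

def fE : WExp Cfsg.Spor.Fi24.Gen :=
  (.pow (.mul (.mul (.mul (.mul (.mul (.mul (.of .a) (.of .b)) (.of .c)) (.of .d)) (.of .e)) (.of .f)) (.of .h)) 9)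

theorem hmem : ∀ e ∈ K3.relExps, e.map io ∈ K4.relExps ∨ e.map io = sp4 ∨ e.map io = fE := by
  decide +kernel

noncomputable def lG : K4.Grp := PresentedGroup.mk K4.rels (WExp.of Cfsg.Spor.Fi24.Gen.l).eval

theorem fE_eq : PresentedGroup.mk K4.rels fE.eval = lG := by
  have h := ok4.rel_one (e := .mul (.of .l) (.inv fE)) (by decide +kernel)
  simp only [WExp.eval, map_mul, map_inv] at h
  exact (mul_inv_eq_one.mp h).symm

theorem l_mem : lG ∈ K4.H := ok4.mem_H_of_sub (by decide +kernel)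

theorem l_sq : lG * lG = 1 := by
  have h := ok4.rel_one (e := .pow (.mul (.of .l) (.of .l)) 1) (by decide +kernel)
  simp only [WExp.eval, map_pow, map_mul, pow_one] at h
  exact h

theorem hcomm_mem : ∀ e ∈ K4.subExps,
    (e = .of .l ∨ WExp.pow (.mul e (.of .l)) 2 ∈ K4.relExps) ∧ WExp.pow (.mul e e) 1 ∈ K4.relExps := by
  decide +kernel

theorem l_comm : ∀ g ∈ K4.H, g * lG = lG * g := by
  have : K4.H ≤ Subgroup.centralizer {lG} := by
    apply ok4.H_le
    intro e he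
    rw [Subgroup.mem_centralizer_singleton_iff]
    obtain ⟨h0, hsq⟩ := hcomm_mem e he
    rcases h0 with rfl | h
    · rfl
    · have h1 := ok4.rel_one h
      have h2 := ok4.rel_one hsq
      simp only [WExp.eval, map_pow, map_mul, pow_one] at h1 h2
      set X := PresentedGroup.mk K4.rels e.eval with hX
      have h3 : (X * lG) * (X * lG) = 1 := by rw [← pow_two]; exact h1
      have hl := l_sq
      calc X * lG = X * lG * ((X * lG) * (lG * X)) := by
            rw [mul_assoc X lG (lG * X), ← mul_assoc lG lG X, hl, one_mul, h2, mul_one]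
        _ = ((X * lG) * (X * lG)) * (lG * X) := by simp only [mul_assoc]
        _ = lG * X := by rw [h3, one_mul]
  intro g hg
  exact Subgroup.mem_centralizer_singleton_iff.mp (this hg)

abbrev Hs : Type := ↥K4.H

noncomputable def l' : Hs := ⟨lG, l_mem⟩

noncomputable def Z : Subgroup Hs := Subgroup.zpowers l'

theorem l'_center : l' ∈ Subgroup.center Hs := by
  rw [Subgroup.mem_center_iff]
  intro g
  exact Subtype.ext (l_comm g.1 g.2)

theorem hZc : Z ≤ Subgroup.center Hs := Subgroup.zpowers_le.mpr l'_center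

instance : Z.Normal where
  conj_mem n hn g := by
    have h1 := Subgroup.mem_center_iff.mp (hZc hn) g
    rw [h1, mul_inv_cancel_right]
    exact hn

theorem hZ2 : Finite Z ∧ Nat.card Z ≤ 2 := by
  have h1 : l' ^ 2 = 1 := by rw [pow_two]; exact Subtype.ext l_sq
  have hfo : IsOfFinOrder l' := isOfFinOrder_iff_pow_eq_one.mpr ⟨2, by norm_num, h1⟩
  refine ⟨?_, ?_⟩
  · exact Nat.finite_of_card_ne_zero (by
      rw [Z, Nat.card_zpowers]
      exact (orderOf_pos_iff.mpr hfo).ne')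
  · rw [Z, Nat.card_zpowers]
    exact orderOf_le_of_pow_eq_one (by norm_num) h1

theorem of_mem (x : Cfsg.Spor.Fi23.Gen) : WExp.of (io x) ∈ K4.subExps := by
  cases x <;> decide +kernel

noncomputable def γ (x : Cfsg.Spor.Fi23.Gen) : Hs :=
  ⟨PresentedGroup.mk K4.rels (WExp.of (io x)).eval, ok4.mem_H_of_sub (of_mem x)⟩

noncomputable def θ : FreeGroup Cfsg.Spor.Fi23.Gen →* Hs := FreeGroup.lift γ

theorem hθ (w : FreeGroup Cfsg.Spor.Fi23.Gen) :
    ((θ w : Hs) : K4.Grp) = PresentedGroup.mk K4.rels (FreeGroup.map io w) := by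
  have : (K4.H.subtype).comp θ = (PresentedGroup.mk K4.rels).comp (FreeGroup.map io) := by
    ext x
    simp [θ, γ, WExp.eval]
  exact congrArg (fun f => f w) this

theorem θ_eval (e : WExp Cfsg.Spor.Fi23.Gen) :
    ((θ e.eval : Hs) : K4.Grp) = PresentedGroup.mk K4.rels (e.map io).eval := by
  rw [hθ, WExp.eval_map]

theorem lift_eq (w : FreeGroup Cfsg.Spor.Fi23.Gen) :
    FreeGroup.lift (fun x => QuotientGroup.mk' Z (γ x)) w = QuotientGroup.mk' Z (θ w) := by
  have : FreeGroup.lift (fun x => QuotientGroup.mk' Z (γ x)) = (QuotientGroup.mk' Z).comp θ := by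
    ext x
    simp [θ]
  rw [this]; rfl

noncomputable def ψ : K3.Grp →* Hs ⧸ Z :=
  PresentedGroup.toGroup (f := fun x => QuotientGroup.mk' Z (γ x)) (by
    intro r hr
    obtain ⟨e, he, rfl⟩ := (ok3.hrels r).mp hr
    rw [lift_eq]
    rcases hmem e he with h | h | h
    · have : θ e.eval = 1 := Subtype.ext (by rw [θ_eval]; exact ok4.rel_one h)
      rw [this, map_one]
    · have : θ e.eval = 1 := Subtype.ext (by rw [θ_eval, h]; exact spider)
      rw [this, map_one]
    · have : θ e.eval = l' := Subtype.ext (by rw [θ_eval, h]; exact fE_eq)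
      rw [this]
      exact (QuotientGroup.eq_one_iff _).mpr (Subgroup.mem_zpowers l'))

theorem ψ_of (x : Cfsg.Spor.Fi23.Gen) : ψ (PresentedGroup.of x) = QuotientGroup.mk' Z (γ x) :=
  PresentedGroup.toGroup.of _

theorem hsubs : ∀ e ∈ K4.subExps, e = .of .l ∨ ∃ x, e = .of (io x) := by
  intro e he
  have he' : e ∈ Cfsg.Agent.Lib.Helper35Fi24a.subExps := he
  simp only [Cfsg.Agent.Lib.Helper35Fi24a.subExps, List.mem_cons, List.not_mem_nil, or_false] at he'
  rcases he' with rfl | rfl | rfl | rfl | rfl | rfl | rfl | rfl | rfl | rfl | rfl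
  · exact Or.inr ⟨.a, rfl⟩
  · exact Or.inr ⟨.b, rfl⟩
  · exact Or.inr ⟨.c, rfl⟩
  · exact Or.inr ⟨.d, rfl⟩
  · exact Or.inr ⟨.e, rfl⟩
  · exact Or.inr ⟨.f, rfl⟩
  · exact Or.inr ⟨.g, rfl⟩
  · exact Or.inr ⟨.h, rfl⟩
  · exact Or.inr ⟨.i, rfl⟩
  · exact Or.inr ⟨.j, rfl⟩
  · exact Or.inl rfl

theorem ψ_surj : Function.Surjective ψ := by
  have hT : (ψ.range.comap (QuotientGroup.mk' Z)).map K4.H.subtype ≥ K4.H := by
    apply ok4.H_le
    intro e he
    rcases hsubs e he with rfl | ⟨x, rfl⟩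
    · refine ⟨l', ?_, rfl⟩
      show QuotientGroup.mk' Z l' ∈ ψ.range
      have : QuotientGroup.mk' Z l' = 1 := (QuotientGroup.eq_one_iff _).mpr (Subgroup.mem_zpowers l')
      rw [this]
      exact Subgroup.one_mem _
    · refine ⟨γ x, ?_, rfl⟩
      show QuotientGroup.mk' Z (γ x) ∈ ψ.range
      exact ⟨PresentedGroup.of x, ψ_of x⟩
  intro q
  obtain ⟨h, rfl⟩ := QuotientGroup.mk'_surjective Z q
  obtain ⟨t, ht, hth⟩ := hT h.2
  have : t = h := Subtype.ext hth
  rw [← this]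
  exact ht

theorem card_H_le : Finite Hs ∧ Nat.card Hs ≤ 8178940946586009600 := by
  haveI : Finite K3.Grp := Cfsg.Agent.Lib.Helper35Fi23Fin.hub.1
  haveI : Finite (Hs ⧸ Z) := Finite.of_surjective _ ψ_surj
  haveI : Finite Z := hZ2.1
  haveI : Finite Hs := Finite.of_equiv _ (Subgroup.groupEquivQuotientProdSubgroup (s := Z)).symm
  refine ⟨inferInstance, ?_⟩
  rw [Subgroup.card_eq_card_quotient_mul_card_subgroup Z]
  have h1 : Nat.card (Hs ⧸ Z) ≤ 4089470473293004800 := by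
    rw [← Cfsg.Agent.Lib.Helper35Fi23Fin.card_eq]
    exact Nat.card_le_card_of_surjective _ ψ_surj
  calc Nat.card (Hs ⧸ Z) * Nat.card Z ≤ 4089470473293004800 * 2 := Nat.mul_le_mul h1 hZ2.2
    _ = 8178940946586009600 := by norm_num

theorem ub0 : Finite K4.Grp ∧ Nat.card K4.Grp ≤ 306936 * 8178940946586009600 := by
  haveI := card_H_le.1
  have h := ok4.card_le_mul (Γ := Hs) K4.H.subtype (by rw [Subgroup.range_subtype])
  exact ⟨h.1, h.2.trans (Nat.mul_le_mul_left _ card_H_le.2)⟩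

end Cfsg.Agent.Lib.Helper35Fi24Ub
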