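import Cfsg.Agent.Lib.Helper35Fi24aB
import Cfsg.Agent.Lib.Helper35Fi24Ub
import Cfsg.Agent.Lib.Helper35Der
import Cfsg.Agent.S1691

set_option autoImplicit false
set_option maxRecDepth 100000

namespace Cfsg.Agent.Lib.Helper35Fi24Fin

open Cfsg.Agent.Lib.Helper35TC Cfsg.Agent.Lib.Helper35Fi24a

def seed : Cfsg.Spor.Fi24.Gen → WExp Cfsg.Spor.Fi24.Gen
  | .l => (.mul (.mul (.mul (.mul (.mul (.mul (.mul (.mul (.mul (.mul (.mul (.mul (.mul (.mul (.mul (.mul (.mul (.mul (.mul (.mul (.mul (.mul (.mul (.mul (.mul (.mul (.mul (.mul (.mul (.mul (.mul (.mul (.mul (.mul (.mul (.mul (.mul (.mul (.mul (.mul (.mul (.mul (.mul (.mul (.mul (.mul (.mul (.of .e) (.of .i)) (.of .a)) (.of .d)) (.of .f)) (.of .k)) (.of .g)) (.of .h)) (.of .l)) (.of .c)) (.of .b)) (.of .j)) (.of .l)) (.of .e)) (.of .a)) (.of .b)) (.of .g)) (.of .j)) (.of .h)) (.of .f)) (.of .d)) (.of .k)) (.of .i)) (.of .c)) (.of .d)) (.of .f))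 (.of .e)) (.of .i)) (.of .g)) (.of .b)) (.of .j)) (.of .h)) (.of .a)) (.of .l)) (.of .c)) (.of .k)) (.of .l)) (.of .a)) (.of .g)) (.of .j)) (.of .b)) (.of .c)) (.of .d)) (.of .k)) (.of .e)) (.of .i)) (.of .f)) (.of .h))
  | .k => (.mul (.mul (.mul (.mul (.mul (.mul (.mul (.mul (.mul (.mul (.mul (.mul (.mul (.mul (.mul (.mul (.mul (.mul (.mul (.mul (.mul (.mul (.mul (.mul (.mul (.mul (.mul (.mul (.mul (.mul (.mul (.mul (.mul (.mul (.mul (.mul (.mul (.mul (.mul (.mul (.mul (.mul (.mul (.mul (.mul (.mul (.mul (.mul (.mul (.mul (.mul (.mul (.mul (.mul (.mul (.mul (.mul (.mul (.mul (.mul (.mul (.mul (.mul (.mul (.mul (.mul (.mul (.mul (.mul (.mul (.mul (.of .h) (.of .l)) (.of .k)) (.of .a)) (.of .d)) (.of .e)) (.of .c)) (.of .b)) (.of .f)) (.of .j)) (.of .g)) (.of .i)) (.of .d)) (.of .e)) (.of .h)) (.of .f)) (.of .a)) (.of .g)) (.of .b)) (.of .k)) (.of .j)) (.of .c)) (.of .l)) (.of .i)) (.of .k))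 (.of .l)) (.of .b)) (.of .g)) (.of .a)) (.of .d)) (.of .f)) (.of .c)) (.of .e)) (.of .j)) (.of .i)) (.of .h)) (.of .b)) (.of .c)) (.of .i)) (.of .a)) (.of .f)) (.of .e)) (.of .g)) (.of .d)) (.of .k)) (.of .j)) (.of .h)) (.of .l)) (.of .l)) (.of .f)) (.of .a)) (.of .j)) (.of .d)) (.of .g)) (.of .k)) (.of .h)) (.of .b)) (.of .i)) (.of .c)) (.of .e)) (.of .f)) (.of .c)) (.of .b)) (.of .l)) (.of .g)) (.of .a)) (.of .h)) (.of .k)) (.of .j)) (.of .d)) (.of .i)) (.of .e))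
  | .a => (.mul (.mul (.mul (.mul (.mul (.mul (.mul (.mul (.mul (.mul (.mul (.mul (.mul (.mul (.mul (.mul (.mul (.mul (.mul (.mul (.mul (.mul (.mul (.mul (.mul (.mul (.mul (.mul (.mul (.mul (.mul (.mul (.mul (.mul (.mul (.mul (.mul (.mul (.mul (.mul (.mul (.mul (.mul (.mul (.mul (.mul (.mul (.mul (.mul (.mul (.mul (.mul (.mul (.mul (.mul (.mul (.mul (.mul (.mul (.mul (.mul (.mul (.mul (.mul (.mul (.mul (.mul (.mul (.mul (.mul (.mul (.of .g) (.of .f)) (.of .a)) (.of .e)) (.of .h)) (.of .i)) (.of .l)) (.of .c)) (.of .d)) (.of .j)) (.of .b)) (.of .k)) (.of .h)) (.of .g)) (.of .c)) (.of .j)) (.of .d)) (.of .a)) (.of .i)) (.of .b)) (.of .l)) (.of .e)) (.of .k)) (.of .f)) (.of .g)) (.of .l)) (.of .j)) (.of .i)) (.of .k)) (.of .h)) (.of .f)) (.of .b)) (.of .a)) (.of .e)) (.of .d)) (.of .c)) (.of .c)) (.of .k)) (.of .l)) (.of .d)) (.of .f)) (.of .b)) (.of .h)) (.of .g)) (.of .e)) (.of .i)) (.of .j))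 (.of .a)) (.of .c)) (.of .d)) (.of .f)) (.of .b)) (.of .k)) (.of .j)) (.of .l)) (.of .i)) (.of .g)) (.of .e)) (.of .h)) (.of .a)) (.of .c)) (.of .j)) (.of .e)) (.of .g)) (.of .d)) (.of .h)) (.of .b)) (.of .f)) (.of .l)) (.of .a)) (.of .k)) (.of .i))
  | .b => (.mul (.mul (.mul (.mul (.mul (.mul (.mul (.mul (.mul (.mul (.mul (.mul (.mul (.mul (.mul (.mul (.mul (.mul (.mul (.mul (.mul (.mul (.mul (.mul (.mul (.mul (.mul (.mul (.mul (.mul (.mul (.mul (.mul (.mul (.mul (.mul (.mul (.mul (.mul (.mul (.mul (.mul (.mul (.mul (.mul (.mul (.mul (.of .e) (.of .i)) (.of .a)) (.of .d)) (.of .f)) (.of .k)) (.of .g)) (.of .h)) (.of .l)) (.of .c)) (.of .b)) (.of .j)) (.of .l)) (.of .e)) (.of .a)) (.of .b)) (.of .g)) (.of .j)) (.of .h)) (.of .f)) (.of .d)) (.of .k)) (.of .i)) (.of .c)) (.of .d)) (.of .f)) (.of .e)) (.of .i)) (.of .g)) (.of .b)) (.of .j)) (.of .h)) (.of .a)) (.of .l)) (.of .c)) (.of .k)) (.of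 .l)) (.of .a)) (.of .g)) (.of .j)) (.of .b)) (.of .c)) (.of .d)) (.of .k)) (.of .e)) (.of .i)) (.of .f)) (.of .h))
  | .c => (.mul (.mul (.mul (.mul (.mul (.mul (.mul (.mul (.mul (.mul (.mul (.mul (.mul (.mul (.mul (.mul (.mul (.mul (.mul (.mul (.mul (.mul (.mul (.mul (.mul (.mul (.mul (.mul (.mul (.mul (.mul (.mul (.mul (.mul (.mul (.mul (.mul (.mul (.mul (.mul (.mul (.mul (.mul (.mul (.mul (.mul (.mul (.mul (.mul (.mul (.mul (.mul (.mul (.mul (.mul (.mul (.mul (.mul (.mul (.mul (.mul (.mul (.mul (.mul (.mul (.mul (.mul (.mul (.mul (.mul (.mul (.of .g) (.of .f)) (.of .a)) (.of .e)) (.of .h)) (.of .i)) (.of .l)) (.of .c)) (.of .d)) (.of .j)) (.of .b)) (.of .k)) (.of .h)) (.of .g)) (.of .c)) (.of .j)) (.of .d)) (.of .a)) (.of .i)) (.of .b)) (.of .l)) (.of .e)) (.of .k)) (.of .f)) (.of .g)) (.of .l)) (.of .j)) (.of .i)) (.of .k)) (.of .h)) (.of .f)) (.of .b)) (.of .a)) (.of .e)) (.of .d)) (.of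 .c)) (.of .c)) (.of .k)) (.of .l)) (.of .d)) (.of .f)) (.of .b)) (.of .h)) (.of .g)) (.of .e)) (.of .i)) (.of .j)) (.of .a)) (.of .c)) (.of .d)) (.of .f)) (.of .b)) (.of .k)) (.of .j)) (.of .l)) (.of .i)) (.of .g)) (.of .e)) (.of .h)) (.of .a)) (.of .c)) (.of .j)) (.of .e)) (.of .g)) (.of .d)) (.of .h)) (.of .b)) (.of .f)) (.of .l)) (.of .a)) (.of .k)) (.of .i))
  | .d => (.mul (.mul (.mul (.mul (.mul (.mul (.mul (.mul (.mul (.mul (.mul (.mul (.mul (.mul (.mul (.mul (.mul (.mul (.mul (.mul (.mul (.mul (.mul (.mul (.mul (.mul (.mul (.mul (.mul (.mul (.mul (.mul (.mul (.mul (.mul (.of .j) (.of .a)) (.of .i)) (.of .e)) (.of .g)) (.of .f)) (.of .d)) (.of .h)) (.of .b)) (.of .k)) (.of .l)) (.of .c)) (.of .k)) (.of .b)) (.of .a)) (.of .f)) (.of .c)) (.of .h)) (.of .e)) (.of .j)) (.of .d)) (.of .g)) (.of .i)) (.of .l)) (.of .i)) (.of .a)) (.of .l)) (.of .h)) (.of .d)) (.of .e)) (.of .k)) (.of .g))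 (.of .j)) (.of .c)) (.of .b)) (.of .f))
  | .e => (.mul (.mul (.mul (.mul (.mul (.mul (.mul (.mul (.mul (.mul (.mul (.mul (.mul (.mul (.mul (.mul (.mul (.mul (.mul (.mul (.mul (.mul (.mul (.mul (.mul (.mul (.mul (.mul (.mul (.mul (.mul (.mul (.mul (.mul (.mul (.of .l) (.of .g)) (.of .e)) (.of .f)) (.of .d)) (.of .a)) (.of .j)) (.of .k)) (.of .i)) (.of .h)) (.of .c)) (.of .b)) (.of .f)) (.of .j)) (.of .g)) (.of .d)) (.of .c)) (.of .i)) (.of .k)) (.of .l)) (.of .b)) (.of .e)) (.of .h)) (.of .a)) (.of .i)) (.of .d)) (.of .c)) (.of .h)) (.of .f)) (.of .b)) (.of .e)) (.of .a)) (.of .l)) (.of .k)) (.of .j)) (.of .g))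
  | .f => (.mul (.mul (.mul (.mul (.mul (.mul (.mul (.mul (.mul (.mul (.mul (.mul (.mul (.mul (.mul (.mul (.mul (.mul (.mul (.mul (.mul (.mul (.mul (.mul (.mul (.mul (.mul (.mul (.mul (.mul (.mul (.mul (.mul (.mul (.mul (.mul (.mul (.mul (.mul (.mul (.mul (.mul (.mul (.mul (.mul (.mul (.mul (.of .e) (.of .i)) (.of .a)) (.of .d)) (.of .f)) (.of .k)) (.of .g)) (.of .h)) (.of .l)) (.of .c)) (.of .b)) (.of .j)) (.of .l)) (.of .e)) (.of .a)) (.of .b)) (.of .g)) (.of .j)) (.of .h)) (.of .f)) (.of .d)) (.of .k)) (.of .i)) (.of .c)) (.of .d)) (.of .f)) (.of .e)) (.of .i)) (.of .g)) (.of .b)) (.of .j)) (.of .h)) (.of .a)) (.of .l)) (.of .c)) (.of .k)) (.of .l)) (.of .a)) (.of .g)) (.of .j)) (.of .b)) (.of .c)) (.of .d)) (.of .k)) (.of .e)) (.of .i)) (.of .f)) (.of .h))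
  | .g => (.mul (.mul (.mul (.mul (.mul (.mul (.mul (.mul (.mul (.mul (.mul (.mul (.mul (.mul (.mul (.mul (.mul (.mul (.mul (.mul (.mul (.mul (.mul (.mul (.mul (.mul (.mul (.mul (.mul (.mul (.mul (.mul (.mul (.mul (.mul (.mul (.mul (.mul (.mul (.mul (.mul (.mul (.mul (.mul (.mul (.mul (.mul (.mul (.mul (.mul (.mul (.mul (.mul (.mul (.mul (.mul (.mul (.mul (.mul (.of .l) (.of .b)) (.of .a)) (.of .e)) (.of .h)) (.of .d)) (.of .g)) (.of .c)) (.of .f)) (.of .k)) (.of .i)) (.of .j)) (.of .i)) (.of .j)) (.of .d)) (.of .h)) (.of .a)) (.of .f)) (.of .b)) (.of .k)) (.of .l)) (.of .e)) (.of .g)) (.of .c)) (.of .d)) (.of .e)) (.of .i)) (.of .b)) (.of .g)) (.of .j)) (.of .f)) (.of .c)) (.of .l)) (.of .a)) (.of .k)) (.of .h)) (.of .j)) (.of .i)) (.of .d)) (.of .c)) (.of .g)) (.of .a)) (.of .h)) (.of .f)) (.of .l)) (.of .b)) (.of .e)) (.of .k)) (.of .l)) (.of .c)) (.of .f)) (.of .a)) (.of .g)) (.of .i))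 (.of .h)) (.of .j)) (.of .d)) (.of .b)) (.of .e)) (.of .k))
  | .j => (.mul (.mul (.mul (.mul (.mul (.mul (.mul (.mul (.mul (.mul (.mul (.mul (.mul (.mul (.mul (.mul (.mul (.mul (.mul (.mul (.mul (.mul (.mul (.mul (.mul (.mul (.mul (.mul (.mul (.mul (.mul (.mul (.mul (.mul (.mul (.mul (.mul (.mul (.mul (.mul (.mul (.mul (.mul (.mul (.mul (.mul (.mul (.mul (.mul (.mul (.mul (.mul (.mul (.mul (.mul (.mul (.mul (.mul (.mul (.mul (.mul (.mul (.mul (.mul (.mul (.mul (.mul (.mul (.mul (.mul (.mul (.of .g) (.of .f)) (.of .a)) (.of .e)) (.of .h)) (.of .i)) (.of .l)) (.of .c)) (.of .d)) (.of .j)) (.of .b)) (.of .k)) (.of .h)) (.of .g)) (.of .c)) (.of .j)) (.of .d)) (.of .a)) (.of .i)) (.of .b)) (.of .l)) (.of .e)) (.of .k)) (.of .f)) (.of .g)) (.of .l)) (.of .j)) (.of .i)) (.of .k)) (.of .h)) (.of .f)) (.of .b)) (.of .a)) (.of .e)) (.of .d)) (.of .c)) (.of .c)) (.of .k)) (.of .l)) (.of .d)) (.of .f))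 (.of .b)) (.of .h)) (.of .g)) (.of .e)) (.of .i)) (.of .j)) (.of .a)) (.of .c)) (.of .d)) (.of .f)) (.of .b)) (.of .k)) (.of .j)) (.of .l)) (.of .i)) (.of .g)) (.of .e)) (.of .h)) (.of .a)) (.of .c)) (.of .j)) (.of .e)) (.of .g)) (.of .d)) (.of .h)) (.of .b)) (.of .f)) (.of .l)) (.of .a)) (.of .k)) (.of .i))
  | .h => (.mul (.mul (.mul (.mul (.mul (.mul (.mul (.mul (.mul (.mul (.mul (.mul (.mul (.mul (.mul (.mul (.mul (.mul (.mul (.mul (.mul (.mul (.mul (.mul (.mul (.mul (.mul (.mul (.mul (.mul (.mul (.mul (.mul (.mul (.mul (.mul (.mul (.mul (.mul (.mul (.mul (.mul (.mul (.mul (.mul (.mul (.mul (.mul (.mul (.mul (.mul (.mul (.mul (.mul (.mul (.mul (.mul (.mul (.mul (.mul (.mul (.mul (.mul (.mul (.mul (.mul (.mul (.mul (.mul (.mul (.mul (.of .k) (.of .d)) (.of .f)) (.of .e)) (.of .b)) (.of .i)) (.of .g)) (.of .a)) (.of .l)) (.of .h)) (.of .c)) (.of .j)) (.of .j)) (.of .e)) (.of .d)) (.of .a))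 (.of .c)) (.of .i)) (.of .g)) (.of .b)) (.of .k)) (.of .h)) (.of .f)) (.of .l)) (.of .l)) (.of .a)) (.of .i)) (.of .b)) (.of .c)) (.of .g)) (.of .j)) (.of .e)) (.of .k)) (.of .h)) (.of .f)) (.of .d)) (.of .l)) (.of .e)) (.of .h)) (.of .d)) (.of .f)) (.of .i)) (.of .b)) (.of .c)) (.of .g)) (.of .j)) (.of .a)) (.of .k)) (.of .h)) (.of .l)) (.of .e)) (.of .f)) (.of .c)) (.of .j)) (.of .i)) (.of .d)) (.of .b)) (.of .g)) (.of .k)) (.of .a)) (.of .k)) (.of .j)) (.of .g)) (.of .c)) (.of .i)) (.of .f)) (.of .l)) (.of .e)) (.of .d)) (.of .a)) (.of .h)) (.of .b))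
  | .i => (.mul (.mul (.mul (.mul (.mul (.mul (.mul (.mul (.mul (.mul (.mul (.mul (.mul (.mul (.mul (.mul (.mul (.mul (.mul (.mul (.mul (.mul (.mul (.mul (.mul (.mul (.mul (.mul (.mul (.mul (.mul (.mul (.mul (.mul (.mul (.mul (.mul (.mul (.mul (.mul (.mul (.mul (.mul (.mul (.mul (.mul (.mul (.of .e) (.of .a)) (.of .b)) (.of .d)) (.of .j)) (.of .c)) (.of .h)) (.of .k)) (.of .f)) (.of .i)) (.of .g)) (.of .l)) (.of .i)) (.of .k)) (.of .h)) (.of .d)) (.of .f)) (.of .j)) (.of .b)) (.of .a)) (.of .c)) (.of .e)) (.of .g)) (.of .l)) (.of .d)) (.of .i)) (.of .l)) (.of .b)) (.of .j)) (.of .e)) (.of .g)) (.of .f)) (.of .a)) (.of .k)) (.of .c)) (.of .h)) (.of .e)) (.of .a)) (.of .k)) (.of .i)) (.of .g)) (.of .l)) (.of .j)) (.of .c)) (.of .d)) (.of .b)) (.of .f)) (.of .h))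

theorem hs1 : ∀ a, BD.fixChk K.P ((WExp.pow (seed a) 29).app K.code K.P.iv) = true := by
  intro a; cases a <;> decide +kernel

theorem hs2 : ∀ a, BD.fixChk K.P ((WExp.pow (.mul (.mul (.of a) (.of .d)) (seed a)) 29).app K.code K.P.iv) = true := by
  intro a; cases a <;> decide +kernel

theorem hub : Finite K.Grp ∧ Nat.card K.Grp ≤ K.P.n * 8178940946586009600 :=
  ⟨Cfsg.Agent.Lib.Helper35Fi24Ub.ub0.1, Cfsg.Agent.Lib.Helper35Fi24Ub.ub0.2.trans (by show _ ≤ 306936 * 8178940946586009600; norm_num)⟩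

def sz (c : ℕ) : ℕ := [1, 275264, 31671].getD c 0

theorem hsz : ∀ c < K.P.roots.length,
    ((Finset.range K.P.n).filter (fun j => K.P.labIs c j = true)).card = sz c := by
  intro c hc
  have hc' : c < 3 := hc
  interval_cases c
  · have h := card_filter_range (P.labIs 0) 19 306936 (by norm_num) (P.labIs_lt 0)
    rw [cntO0_19_0] at h
    exact h
  · have h := card_filter_range (P.labIs 1) 19 306936 (by norm_num) (P.labIs_lt 1)
    rw [cntO1_19_0] at h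
    exact h
  · have h := card_filter_range (P.labIs 2) 19 306936 (by norm_num) (P.labIs_lt 2)
    rw [cntO2_19_0] at h
    exact h

theorem har : ∀ C ∈ (Finset.range K.P.roots.length).powerset, K.P.lab 0 ∈ C →
    (∑ c ∈ C, sz c) ∣ K.P.n → (∑ c ∈ C, sz c) = 1 ∨ (∑ c ∈ C, sz c) = K.P.n := by decide +kernel

theorem card_eq : Nat.card K.Grp = 2510411418381323442585600 :=
  (ok.order_eq hBD 8178940946586009600 hprod hub).1.trans (by show 306936 * 8178940946586009600 = _; norm_num)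

theorem hidx : (commutator K.Grp).index = 2 := Cfsg.Agent.S1691.result

theorem card_comm : Nat.card (commutator K.Grp) = 1255205709190661721292800 := by
  have h := Subgroup.card_mul_index (commutator K.Grp)
  rw [hidx, card_eq] at h
  omega

theorem hsq : ∀ m : ℕ, m * m ≠ Nat.card (commutator K.Grp) := by
  intro m hm
  rw [card_comm] at hm
  rcases Nat.lt_or_ge m 1120359633864 with h | h
  · have h1 : m ≤ 1120359633863 := by omega
    have h2 : m * m ≤ 1120359633863 * 1120359633863 := Nat.mul_le_mul h1 h1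
    have h3 : 1120359633863 * 1120359633863 < 1255205709190661721292800 := by norm_num
    omega
  · have h2 : 1120359633864 * 1120359633864 ≤ m * m := Nat.mul_le_mul h h
    have h3 : 1255205709190661721292800 < 1120359633864 * 1120359633864 := by norm_num
    omega

theorem hnt : Nontrivial (commutator K.Grp) := by
  haveI : Finite K.Grp := hub.1
  rw [← Finite.one_lt_card_iff_nontrivial, card_comm]
  norm_num

theorem simple : IsSimpleGroup (commutator K.Grp) :=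
  ok.simple_commutator horb hBD 8178940946586009600 hprod hub sz hsz har 29 (by norm_num) .d seed hs1 hs2 hidx hsq hnt

end Cfsg.Agent.Lib.Helper35Fi24Fin
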