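import Cfsg.Agent.Lib.Helper35Fi24aBd

set_option autoImplicit false
set_option maxRecDepth 100000

namespace Cfsg.Agent.Lib.Helper35Fi24a

open Cfsg.Agent.Lib.Helper35TC

theorem chkB_11_4 : allD (BD.chkB P) 11 8192 = true := by decide +kernel
theorem chkB_11_5 : allD (BD.chkB P) 11 10240 = true := by decide +kernel
theorem chkB_11_6 : allD (BD.chkB P) 11 12288 = true := by decide +kernel
theorem chkB_11_7 : allD (BD.chkB P) 11 14336 = true := by decide +kernel

end Cfsg.Agent.Lib.Helper35Fi24a
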