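import Cfsg.Agent.Lib.Helper35Fi24aBc0
import Cfsg.Agent.Lib.Helper35Fi24aBc1
import Cfsg.Agent.Lib.Helper35Fi24aBc2
import Cfsg.Agent.Lib.Helper35Fi24aBc3

set_option autoImplicit false
set_option maxRecDepth 100000

namespace Cfsg.Agent.Lib.Helper35Fi24a

open Cfsg.Agent.Lib.Helper35TC

theorem chkB_12_0 : allD (BD.chkB P) 12 0 = true :=
  allD_join chkB_11_0 chkB_11_1 (by norm_num)
theorem chkB_12_1 : allD (BD.chkB P) 12 4096 = true :=
  allD_join chkB_11_2 chkB_11_3 (by norm_num)
theorem chkB_12_2 : allD (BD.chkB P) 12 8192 = true :=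
  allD_join chkB_11_4 chkB_11_5 (by norm_num)
theorem chkB_12_3 : allD (BD.chkB P) 12 12288 = true :=
  allD_join chkB_11_6 chkB_11_7 (by norm_num)
theorem chkB_12_4 : allD (BD.chkB P) 12 16384 = true :=
  allD_join chkB_11_8 chkB_11_9 (by norm_num)
theorem chkB_12_5 : allD (BD.chkB P) 12 20480 = true :=
  allD_join chkB_11_10 chkB_11_11 (by norm_num)
theorem chkB_12_6 : allD (BD.chkB P) 12 24576 = true :=
  allD_join chkB_11_12 chkB_11_13 (by norm_num)
theorem chkB_12_7 : allD (BD.chkB P) 12 28672 = true :=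
  allD_join chkB_11_14 chkB_11_15 (by norm_num)
theorem chkB_13_0 : allD (BD.chkB P) 13 0 = true :=
  allD_join chkB_12_0 chkB_12_1 (by norm_num)
theorem chkB_13_1 : allD (BD.chkB P) 13 8192 = true :=
  allD_join chkB_12_2 chkB_12_3 (by norm_num)
theorem chkB_13_2 : allD (BD.chkB P) 13 16384 = true :=
  allD_join chkB_12_4 chkB_12_5 (by norm_num)
theorem chkB_13_3 : allD (BD.chkB P) 13 24576 = true :=
  allD_join chkB_12_6 chkB_12_7 (by norm_num)
theorem chkB_14_0 : allD (BD.chkB P) 14 0 = true :=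
  allD_join chkB_13_0 chkB_13_1 (by norm_num)
theorem chkB_14_1 : allD (BD.chkB P) 14 16384 = true :=
  allD_join chkB_13_2 chkB_13_3 (by norm_num)
theorem chkB_15_0 : allD (BD.chkB P) 15 0 = true :=
  allD_join chkB_14_0 chkB_14_1 (by norm_num)
theorem cntC0 : cntD (BD.claimed 0) 15 0 = 31671 := by decide +kernel
theorem cnt0 : BD.cnt 0 = 31671 := by
  have h := card_filter_range (BD.claimed 0) 15 31673 (by norm_num) (BD.claimed_lt 0)
  rw [cntC0] at h
  exact h
theorem cntC1 : cntD (BD.claimed 1) 15 0 = 28160 := by decide +kernel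
theorem cnt1 : BD.cnt 1 = 28160 := by
  have h := card_filter_range (BD.claimed 1) 15 31673 (by norm_num) (BD.claimed_lt 1)
  rw [cntC1] at h
  exact h
theorem cntC2 : cntD (BD.claimed 2) 15 0 = 3159 := by decide +kernel
theorem cnt2 : BD.cnt 2 = 3159 := by
  have h := card_filter_range (BD.claimed 2) 15 31673 (by norm_num) (BD.claimed_lt 2)
  rw [cntC2] at h
  exact h
theorem cntC3 : cntD (BD.claimed 3) 15 0 = 288 := by decide +kernel
theorem cnt3 : BD.cnt 3 = 288 := by
  have h := card_filter_range (BD.claimed 3) 15 31673 (by norm_num) (BD.claimed_lt 3)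
  rw [cntC3] at h
  exact h
theorem cntC4 : cntD (BD.claimed 4) 15 0 = 35 := by decide +kernel
theorem cnt4 : BD.cnt 4 = 35 := by
  have h := card_filter_range (BD.claimed 4) 15 31673 (by norm_num) (BD.claimed_lt 4)
  rw [cntC4] at h
  exact h
theorem cntC5 : cntD (BD.claimed 5) 15 0 = 3 := by decide +kernel
theorem cnt5 : BD.cnt 5 = 3 := by
  have h := card_filter_range (BD.claimed 5) 15 31673 (by norm_num) (BD.claimed_lt 5)
  rw [cntC5] at h
  exact h
theorem cntC6 : cntD (BD.claimed 6) 15 0 = 8 := by decide +kernel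
theorem cnt6 : BD.cnt 6 = 8 := by
  have h := card_filter_range (BD.claimed 6) 15 31673 (by norm_num) (BD.claimed_lt 6)
  rw [cntC6] at h
  exact h
theorem cntC7 : cntD (BD.claimed 7) 15 0 = 3 := by decide +kernel
theorem cnt7 : BD.cnt 7 = 3 := by
  have h := card_filter_range (BD.claimed 7) 15 31673 (by norm_num) (BD.claimed_lt 7)
  rw [cntC7] at h
  exact h
theorem cntC8 : cntD (BD.claimed 8) 15 0 = 2 := by decide +kernel
theorem cnt8 : BD.cnt 8 = 2 := by
  have h := card_filter_range (BD.claimed 8) 15 31673 (by norm_num) (BD.claimed_lt 8)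
  rw [cntC8] at h
  exact h
theorem cntC9 : cntD (BD.claimed 9) 15 0 = 2 := by decide +kernel
theorem cnt9 : BD.cnt 9 = 2 := by
  have h := card_filter_range (BD.claimed 9) 15 31673 (by norm_num) (BD.claimed_lt 9)
  rw [cntC9] at h
  exact h

theorem hBD : BD.Valid K.P where
  hrow := all_of_allD _ 15 31673 (by norm_num) chkB_15_0
  hlev := by decide +kernel
  hlen := by decide +kernel
  hLB := by decide +kernel
  hbase := by decide +kernel
  hdefs := by decide +kernel

theorem hprod : (∏ i ∈ Finset.range BD.base.length, BD.cnt i) = 8178940946586009600 := by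
  have hl : BD.base.length = 10 := rfl
  rw [hl]
  simp only [Finset.prod_range_succ, Finset.prod_range_zero, cnt0, cnt1, cnt2, cnt3, cnt4, cnt5, cnt6, cnt7, cnt8, cnt9]
  norm_num

end Cfsg.Agent.Lib.Helper35Fi24a
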