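import Cfsg.Agent.Lib.Helper35Fi24a

set_option autoImplicit false
set_option maxRecDepth 100000

namespace Cfsg.Agent.Lib.Helper35Fi24a

open Cfsg.Agent.Lib.Helper35TC

theorem chkU_11_26 : allD U.chkRow 11 53248 = true := by decide +kernel
theorem chkU_11_27 : allD U.chkRow 11 55296 = true := by decide +kernel
theorem chkU_11_28 : allD U.chkRow 11 57344 = true := by decide +kernel
theorem chkU_11_29 : allD U.chkRow 11 59392 = true := by decide +kernel
theorem chkU_11_30 : allD U.chkRow 11 61440 = true := by decide +kernel
theorem chkU_11_31 : allD U.chkRow 11 63488 = true := by decide +kernel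
theorem chkU_11_32 : allD U.chkRow 11 65536 = true := by decide +kernel
theorem chkU_11_33 : allD U.chkRow 11 67584 = true := by decide +kernel
theorem chkU_11_34 : allD U.chkRow 11 69632 = true := by decide +kernel
theorem chkU_11_35 : allD U.chkRow 11 71680 = true := by decide +kernel
theorem chkU_11_36 : allD U.chkRow 11 73728 = true := by decide +kernel
theorem chkU_11_37 : allD U.chkRow 11 75776 = true := by decide +kernel
theorem chkU_11_38 : allD U.chkRow 11 77824 = true := by decide +kernel
theorem chkU_11_39 : allD U.chkRow 11 79872 = true := by decide +kernel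
theorem chkU_11_40 : allD U.chkRow 11 81920 = true := by decide +kernel
theorem chkU_11_41 : allD U.chkRow 11 83968 = true := by decide +kernel
theorem chkU_11_42 : allD U.chkRow 11 86016 = true := by decide +kernel
theorem chkU_11_43 : allD U.chkRow 11 88064 = true := by decide +kernel
theorem chkU_11_44 : allD U.chkRow 11 90112 = true := by decide +kernel
theorem chkU_11_45 : allD U.chkRow 11 92160 = true := by decide +kernel
theorem chkU_11_46 : allD U.chkRow 11 94208 = true := by decide +kernel
theorem chkU_11_47 : allD U.chkRow 11 96256 = true := by decide +kernel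
theorem chkU_11_48 : allD U.chkRow 11 98304 = true := by decide +kernel
theorem chkU_11_49 : allD U.chkRow 11 100352 = true := by decide +kernel
theorem chkU_11_50 : allD U.chkRow 11 102400 = true := by decide +kernel
theorem chkU_11_51 : allD U.chkRow 11 104448 = true := by decide +kernel

end Cfsg.Agent.Lib.Helper35Fi24a
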