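import Cfsg.Agent.Lib.Helper35Fi24a

set_option autoImplicit false
set_option maxRecDepth 100000

namespace Cfsg.Agent.Lib.Helper35Fi24a

open Cfsg.Agent.Lib.Helper35TC

theorem cntU_14_4 : cntD U.live 14 65536 = 8269 := by decide +kernel
theorem cntU_14_5 : cntD U.live 14 81920 = 8867 := by decide +kernel
theorem cntU_14_6 : cntD U.live 14 98304 = 9519 := by decide +kernel
theorem cntU_14_7 : cntD U.live 14 114688 = 13060 := by decide +kernel
theorem cntU_14_8 : cntD U.live 14 131072 = 16383 := by decide +kernel
theorem cntU_14_9 : cntD U.live 14 147456 = 16384 := by decide +kernel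
theorem cntU_14_10 : cntD U.live 14 163840 = 16384 := by decide +kernel
theorem cntU_14_11 : cntD U.live 14 180224 = 16374 := by decide +kernel
theorem cntU_14_12 : cntD U.live 14 196608 = 16365 := by decide +kernel
theorem cntU_14_13 : cntD U.live 14 212992 = 16384 := by decide +kernel
theorem cntU_14_14 : cntD U.live 14 229376 = 16384 := by decide +kernel
theorem cntU_14_15 : cntD U.live 14 245760 = 16384 := by decide +kernel
theorem cntU_14_16 : cntD U.live 14 262144 = 16384 := by decide +kernel
theorem cntU_14_17 : cntD U.live 14 278528 = 16384 := by decide +kernel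
theorem cntU_14_18 : cntD U.live 14 294912 = 16384 := by decide +kernel
theorem cntU_14_19 : cntD U.live 14 311296 = 16384 := by decide +kernel
theorem cntU_14_20 : cntD U.live 14 327680 = 16384 := by decide +kernel
theorem cntU_14_21 : cntD U.live 14 344064 = 9033 := by decide +kernel
theorem cntU_14_22 : cntD U.live 14 360448 = 0 := by decide +kernel
theorem cntU_14_23 : cntD U.live 14 376832 = 0 := by decide +kernel
theorem cntU_14_24 : cntD U.live 14 393216 = 0 := by decide +kernel
theorem cntU_14_25 : cntD U.live 14 409600 = 0 := by decide +kernel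
theorem cntU_14_26 : cntD U.live 14 425984 = 0 := by decide +kernel
theorem cntU_14_27 : cntD U.live 14 442368 = 0 := by decide +kernel
theorem cntU_14_28 : cntD U.live 14 458752 = 0 := by decide +kernel
theorem cntU_14_29 : cntD U.live 14 475136 = 0 := by decide +kernel

end Cfsg.Agent.Lib.Helper35Fi24a
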