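import Cfsg.Agent.Lib.Helper35Fi24a

set_option autoImplicit false
set_option maxRecDepth 100000

namespace Cfsg.Agent.Lib.Helper35Fi24a

open Cfsg.Agent.Lib.Helper35TC

theorem chkU_11_208 : allD U.chkRow 11 425984 = true := by decide +kernel
theorem chkU_11_209 : allD U.chkRow 11 428032 = true := by decide +kernel
theorem chkU_11_210 : allD U.chkRow 11 430080 = true := by decide +kernel
theorem chkU_11_211 : allD U.chkRow 11 432128 = true := by decide +kernel
theorem chkU_11_212 : allD U.chkRow 11 434176 = true := by decide +kernel
theorem chkU_11_213 : allD U.chkRow 11 436224 = true := by decide +kernel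
theorem chkU_11_214 : allD U.chkRow 11 438272 = true := by decide +kernel
theorem chkU_11_215 : allD U.chkRow 11 440320 = true := by decide +kernel
theorem chkU_11_216 : allD U.chkRow 11 442368 = true := by decide +kernel
theorem chkU_11_217 : allD U.chkRow 11 444416 = true := by decide +kernel
theorem chkU_11_218 : allD U.chkRow 11 446464 = true := by decide +kernel
theorem chkU_11_219 : allD U.chkRow 11 448512 = true := by decide +kernel
theorem chkU_11_220 : allD U.chkRow 11 450560 = true := by decide +kernel
theorem chkU_11_221 : allD U.chkRow 11 452608 = true := by decide +kernel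
theorem chkU_11_222 : allD U.chkRow 11 454656 = true := by decide +kernel
theorem chkU_11_223 : allD U.chkRow 11 456704 = true := by decide +kernel
theorem chkU_11_224 : allD U.chkRow 11 458752 = true := by decide +kernel
theorem chkU_11_225 : allD U.chkRow 11 460800 = true := by decide +kernel
theorem chkU_11_226 : allD U.chkRow 11 462848 = true := by decide +kernel
theorem chkU_11_227 : allD U.chkRow 11 464896 = true := by decide +kernel
theorem chkU_11_228 : allD U.chkRow 11 466944 = true := by decide +kernel
theorem chkU_11_229 : allD U.chkRow 11 468992 = true := by decide +kernel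
theorem chkU_11_230 : allD U.chkRow 11 471040 = true := by decide +kernel
theorem chkU_11_231 : allD U.chkRow 11 473088 = true := by decide +kernel
theorem chkU_11_232 : allD U.chkRow 11 475136 = true := by decide +kernel
theorem chkU_11_233 : allD U.chkRow 11 477184 = true := by decide +kernel

end Cfsg.Agent.Lib.Helper35Fi24a
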