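import Cfsg.Agent.Lib.Helper35Fi24a
import Cfsg.Agent.Lib.Helper35Fi24aChk8

set_option autoImplicit false
set_option maxRecDepth 100000

namespace Cfsg.Agent.Lib.Helper35Fi24a

open Cfsg.Agent.Lib.Helper35TC

theorem chkP_9_128 : allD P.chkPt 9 65536 = true := by decide +kernel
theorem chkP_9_129 : allD P.chkPt 9 66048 = true := by decide +kernel
theorem chkP_9_130 : allD P.chkPt 9 66560 = true := by decide +kernel
theorem chkP_9_131 : allD P.chkPt 9 67072 = true := by decide +kernel
theorem chkP_9_132 : allD P.chkPt 9 67584 = true := by decide +kernel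
theorem chkP_9_133 : allD P.chkPt 9 68096 = true := by decide +kernel
theorem chkP_9_134 : allD P.chkPt 9 68608 = true := by decide +kernel
theorem chkP_9_135 : allD P.chkPt 9 69120 = true := by decide +kernel
theorem chkP_9_136 : allD P.chkPt 9 69632 = true := by decide +kernel
theorem chkP_9_137 : allD P.chkPt 9 70144 = true := by decide +kernel
theorem chkP_9_138 : allD P.chkPt 9 70656 = true := by decide +kernel
theorem chkP_9_139 : allD P.chkPt 9 71168 = true := by decide +kernel
theorem chkP_9_140 : allD P.chkPt 9 71680 = true := by decide +kernel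
theorem chkP_9_141 : allD P.chkPt 9 72192 = true := by decide +kernel
theorem chkP_9_142 : allD P.chkPt 9 72704 = true := by decide +kernel
theorem chkP_9_143 : allD P.chkPt 9 73216 = true := by decide +kernel
theorem chkP_9_144 : allD P.chkPt 9 73728 = true := by decide +kernel
theorem chkP_9_145 : allD P.chkPt 9 74240 = true := by decide +kernel
theorem chkP_9_146 : allD P.chkPt 9 74752 = true := by decide +kernel
theorem chkP_9_147 : allD P.chkPt 9 75264 = true := by decide +kernel
theorem chkP_9_148 : allD P.chkPt 9 75776 = true := by decide +kernel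
theorem chkP_9_149 : allD P.chkPt 9 76288 = true := by decide +kernel
theorem chkP_9_150 : allD P.chkPt 9 76800 = true := by decide +kernel
theorem chkP_9_151 : allD P.chkPt 9 77312 = true := by decide +kernel
theorem chkP_9_152 : allD P.chkPt 9 77824 = true := by decide +kernel
theorem chkP_9_153 : allD P.chkPt 9 78336 = true := by decide +kernel

end Cfsg.Agent.Lib.Helper35Fi24a
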