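import Cfsg.Agent.Lib.Helper35Fi24a

set_option autoImplicit false
set_option maxRecDepth 100000

namespace Cfsg.Agent.Lib.Helper35Fi24a

open Cfsg.Agent.Lib.Helper35TC

theorem chkU_11_234 : allD U.chkRow 11 479232 = true := by decide +kernel
theorem chkU_11_235 : allD U.chkRow 11 481280 = true := by decide +kernel
theorem chkU_11_236 : allD U.chkRow 11 483328 = true := by decide +kernel
theorem chkU_11_237 : allD U.chkRow 11 485376 = true := by decide +kernel
theorem chkU_11_238 : allD U.chkRow 11 487424 = true := by decide +kernel
theorem chkU_11_239 : allD U.chkRow 11 489472 = true := by decide +kernel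
theorem chkU_11_240 : allD U.chkRow 11 491520 = true := by decide +kernel
theorem chkU_11_241 : allD U.chkRow 11 493568 = true := by decide +kernel
theorem chkU_11_242 : allD U.chkRow 11 495616 = true := by decide +kernel
theorem chkU_11_243 : allD U.chkRow 11 497664 = true := by decide +kernel
theorem chkU_11_244 : allD U.chkRow 11 499712 = true := by decide +kernel
theorem chkU_11_245 : allD U.chkRow 11 501760 = true := by decide +kernel
theorem chkU_11_246 : allD U.chkRow 11 503808 = true := by decide +kernel
theorem chkU_11_247 : allD U.chkRow 11 505856 = true := by decide +kernel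
theorem chkU_11_248 : allD U.chkRow 11 507904 = true := by decide +kernel
theorem chkU_11_249 : allD U.chkRow 11 509952 = true := by decide +kernel
theorem chkU_11_250 : allD U.chkRow 11 512000 = true := by decide +kernel
theorem chkU_11_251 : allD U.chkRow 11 514048 = true := by decide +kernel
theorem chkU_11_252 : allD U.chkRow 11 516096 = true := by decide +kernel
theorem chkU_11_253 : allD U.chkRow 11 518144 = true := by decide +kernel
theorem chkU_11_254 : allD U.chkRow 11 520192 = true := by decide +kernel
theorem chkU_11_255 : allD U.chkRow 11 522240 = true := by decide +kernel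
theorem cntU_14_0 : cntD U.live 14 0 = 13821 := by decide +kernel
theorem cntU_14_1 : cntD U.live 14 16384 = 11644 := by decide +kernel
theorem cntU_14_2 : cntD U.live 14 32768 = 10331 := by decide +kernel
theorem cntU_14_3 : cntD U.live 14 49152 = 9430 := by decide +kernel

end Cfsg.Agent.Lib.Helper35Fi24a
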