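import Cfsg.Agent.Lib.Helper35Fi24a
import Cfsg.Agent.Lib.Helper35Fi24aChk9

set_option autoImplicit false
set_option maxRecDepth 100000

namespace Cfsg.Agent.Lib.Helper35Fi24a

open Cfsg.Agent.Lib.Helper35TC

theorem chkP_9_154 : allD P.chkPt 9 78848 = true := by decide +kernel
theorem chkP_9_155 : allD P.chkPt 9 79360 = true := by decide +kernel
theorem chkP_9_156 : allD P.chkPt 9 79872 = true := by decide +kernel
theorem chkP_9_157 : allD P.chkPt 9 80384 = true := by decide +kernel
theorem chkP_9_158 : allD P.chkPt 9 80896 = true := by decide +kernel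
theorem chkP_9_159 : allD P.chkPt 9 81408 = true := by decide +kernel
theorem chkP_9_160 : allD P.chkPt 9 81920 = true := by decide +kernel
theorem chkP_9_161 : allD P.chkPt 9 82432 = true := by decide +kernel
theorem chkP_9_162 : allD P.chkPt 9 82944 = true := by decide +kernel
theorem chkP_9_163 : allD P.chkPt 9 83456 = true := by decide +kernel
theorem chkP_9_164 : allD P.chkPt 9 83968 = true := by decide +kernel
theorem chkP_9_165 : allD P.chkPt 9 84480 = true := by decide +kernel
theorem chkP_9_166 : allD P.chkPt 9 84992 = true := by decide +kernel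
theorem chkP_9_167 : allD P.chkPt 9 85504 = true := by decide +kernel
theorem chkP_9_168 : allD P.chkPt 9 86016 = true := by decide +kernel
theorem chkP_9_169 : allD P.chkPt 9 86528 = true := by decide +kernel
theorem chkP_9_170 : allD P.chkPt 9 87040 = true := by decide +kernel
theorem chkP_9_171 : allD P.chkPt 9 87552 = true := by decide +kernel
theorem chkP_9_172 : allD P.chkPt 9 88064 = true := by decide +kernel
theorem chkP_9_173 : allD P.chkPt 9 88576 = true := by decide +kernel
theorem chkP_9_174 : allD P.chkPt 9 89088 = true := by decide +kernel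
theorem chkP_9_175 : allD P.chkPt 9 89600 = true := by decide +kernel
theorem chkP_9_176 : allD P.chkPt 9 90112 = true := by decide +kernel
theorem chkP_9_177 : allD P.chkPt 9 90624 = true := by decide +kernel
theorem chkP_9_178 : allD P.chkPt 9 91136 = true := by decide +kernel
theorem chkP_9_179 : allD P.chkPt 9 91648 = true := by decide +kernel

end Cfsg.Agent.Lib.Helper35Fi24a
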