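import Cfsg.Agent.Lib.Helper35Fi24a
import Cfsg.Agent.Lib.Helper35Fi24aChk10

set_option autoImplicit false
set_option maxRecDepth 100000

namespace Cfsg.Agent.Lib.Helper35Fi24a

open Cfsg.Agent.Lib.Helper35TC

theorem chkP_9_180 : allD P.chkPt 9 92160 = true := by decide +kernel
theorem chkP_9_181 : allD P.chkPt 9 92672 = true := by decide +kernel
theorem chkP_9_182 : allD P.chkPt 9 93184 = true := by decide +kernel
theorem chkP_9_183 : allD P.chkPt 9 93696 = true := by decide +kernel
theorem chkP_9_184 : allD P.chkPt 9 94208 = true := by decide +kernel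
theorem chkP_9_185 : allD P.chkPt 9 94720 = true := by decide +kernel
theorem chkP_9_186 : allD P.chkPt 9 95232 = true := by decide +kernel
theorem chkP_9_187 : allD P.chkPt 9 95744 = true := by decide +kernel
theorem chkP_9_188 : allD P.chkPt 9 96256 = true := by decide +kernel
theorem chkP_9_189 : allD P.chkPt 9 96768 = true := by decide +kernel
theorem chkP_9_190 : allD P.chkPt 9 97280 = true := by decide +kernel
theorem chkP_9_191 : allD P.chkPt 9 97792 = true := by decide +kernel
theorem chkP_9_192 : allD P.chkPt 9 98304 = true := by decide +kernel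
theorem chkP_9_193 : allD P.chkPt 9 98816 = true := by decide +kernel
theorem chkP_9_194 : allD P.chkPt 9 99328 = true := by decide +kernel
theorem chkP_9_195 : allD P.chkPt 9 99840 = true := by decide +kernel
theorem chkP_9_196 : allD P.chkPt 9 100352 = true := by decide +kernel
theorem chkP_9_197 : allD P.chkPt 9 100864 = true := by decide +kernel
theorem chkP_9_198 : allD P.chkPt 9 101376 = true := by decide +kernel
theorem chkP_9_199 : allD P.chkPt 9 101888 = true := by decide +kernel
theorem chkP_9_200 : allD P.chkPt 9 102400 = true := by decide +kernel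
theorem chkP_9_201 : allD P.chkPt 9 102912 = true := by decide +kernel
theorem chkP_9_202 : allD P.chkPt 9 103424 = true := by decide +kernel
theorem chkP_9_203 : allD P.chkPt 9 103936 = true := by decide +kernel
theorem chkP_9_204 : allD P.chkPt 9 104448 = true := by decide +kernel
theorem chkP_9_205 : allD P.chkPt 9 104960 = true := by decide +kernel

end Cfsg.Agent.Lib.Helper35Fi24a
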