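import Cfsg.Agent.Lib.Helper35Fi24a
import Cfsg.Agent.Lib.Helper35Fi24aChk11

set_option autoImplicit false
set_option maxRecDepth 100000

namespace Cfsg.Agent.Lib.Helper35Fi24a

open Cfsg.Agent.Lib.Helper35TC

theorem chkP_9_206 : allD P.chkPt 9 105472 = true := by decide +kernel
theorem chkP_9_207 : allD P.chkPt 9 105984 = true := by decide +kernel
theorem chkP_9_208 : allD P.chkPt 9 106496 = true := by decide +kernel
theorem chkP_9_209 : allD P.chkPt 9 107008 = true := by decide +kernel
theorem chkP_9_210 : allD P.chkPt 9 107520 = true := by decide +kernel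
theorem chkP_9_211 : allD P.chkPt 9 108032 = true := by decide +kernel
theorem chkP_9_212 : allD P.chkPt 9 108544 = true := by decide +kernel
theorem chkP_9_213 : allD P.chkPt 9 109056 = true := by decide +kernel
theorem chkP_9_214 : allD P.chkPt 9 109568 = true := by decide +kernel
theorem chkP_9_215 : allD P.chkPt 9 110080 = true := by decide +kernel
theorem chkP_9_216 : allD P.chkPt 9 110592 = true := by decide +kernel
theorem chkP_9_217 : allD P.chkPt 9 111104 = true := by decide +kernel
theorem chkP_9_218 : allD P.chkPt 9 111616 = true := by decide +kernel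
theorem chkP_9_219 : allD P.chkPt 9 112128 = true := by decide +kernel
theorem chkP_9_220 : allD P.chkPt 9 112640 = true := by decide +kernel
theorem chkP_9_221 : allD P.chkPt 9 113152 = true := by decide +kernel
theorem chkP_9_222 : allD P.chkPt 9 113664 = true := by decide +kernel
theorem chkP_9_223 : allD P.chkPt 9 114176 = true := by decide +kernel
theorem chkP_9_224 : allD P.chkPt 9 114688 = true := by decide +kernel
theorem chkP_9_225 : allD P.chkPt 9 115200 = true := by decide +kernel
theorem chkP_9_226 : allD P.chkPt 9 115712 = true := by decide +kernel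
theorem chkP_9_227 : allD P.chkPt 9 116224 = true := by decide +kernel
theorem chkP_9_228 : allD P.chkPt 9 116736 = true := by decide +kernel
theorem chkP_9_229 : allD P.chkPt 9 117248 = true := by decide +kernel
theorem chkP_9_230 : allD P.chkPt 9 117760 = true := by decide +kernel
theorem chkP_9_231 : allD P.chkPt 9 118272 = true := by decide +kernel

end Cfsg.Agent.Lib.Helper35Fi24a
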