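import Cfsg.Agent.Lib.Helper35Fi24a

set_option autoImplicit false
set_option maxRecDepth 100000

namespace Cfsg.Agent.Lib.Helper35Fi24a

open Cfsg.Agent.Lib.Helper35TC

theorem chkU_11_52 : allD U.chkRow 11 106496 = true := by decide +kernel
theorem chkU_11_53 : allD U.chkRow 11 108544 = true := by decide +kernel
theorem chkU_11_54 : allD U.chkRow 11 110592 = true := by decide +kernel
theorem chkU_11_55 : allD U.chkRow 11 112640 = true := by decide +kernel
theorem chkU_11_56 : allD U.chkRow 11 114688 = true := by decide +kernel
theorem chkU_11_57 : allD U.chkRow 11 116736 = true := by decide +kernel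
theorem chkU_11_58 : allD U.chkRow 11 118784 = true := by decide +kernel
theorem chkU_11_59 : allD U.chkRow 11 120832 = true := by decide +kernel
theorem chkU_11_60 : allD U.chkRow 11 122880 = true := by decide +kernel
theorem chkU_11_61 : allD U.chkRow 11 124928 = true := by decide +kernel
theorem chkU_11_62 : allD U.chkRow 11 126976 = true := by decide +kernel
theorem chkU_11_63 : allD U.chkRow 11 129024 = true := by decide +kernel
theorem chkU_11_64 : allD U.chkRow 11 131072 = true := by decide +kernel
theorem chkU_11_65 : allD U.chkRow 11 133120 = true := by decide +kernel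
theorem chkU_11_66 : allD U.chkRow 11 135168 = true := by decide +kernel
theorem chkU_11_67 : allD U.chkRow 11 137216 = true := by decide +kernel
theorem chkU_11_68 : allD U.chkRow 11 139264 = true := by decide +kernel
theorem chkU_11_69 : allD U.chkRow 11 141312 = true := by decide +kernel
theorem chkU_11_70 : allD U.chkRow 11 143360 = true := by decide +kernel
theorem chkU_11_71 : allD U.chkRow 11 145408 = true := by decide +kernel
theorem chkU_11_72 : allD U.chkRow 11 147456 = true := by decide +kernel
theorem chkU_11_73 : allD U.chkRow 11 149504 = true := by decide +kernel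
theorem chkU_11_74 : allD U.chkRow 11 151552 = true := by decide +kernel
theorem chkU_11_75 : allD U.chkRow 11 153600 = true := by decide +kernel
theorem chkU_11_76 : allD U.chkRow 11 155648 = true := by decide +kernel
theorem chkU_11_77 : allD U.chkRow 11 157696 = true := by decide +kernel

end Cfsg.Agent.Lib.Helper35Fi24a
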