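import Cfsg.Agent.Lib.Helper35Fi24a
import Cfsg.Agent.Lib.Helper35Fi24aChk13

set_option autoImplicit false
set_option maxRecDepth 100000

namespace Cfsg.Agent.Lib.Helper35Fi24a

open Cfsg.Agent.Lib.Helper35TC

theorem chkP_9_258 : allD P.chkPt 9 132096 = true := by decide +kernel
theorem chkP_9_259 : allD P.chkPt 9 132608 = true := by decide +kernel
theorem chkP_9_260 : allD P.chkPt 9 133120 = true := by decide +kernel
theorem chkP_9_261 : allD P.chkPt 9 133632 = true := by decide +kernel
theorem chkP_9_262 : allD P.chkPt 9 134144 = true := by decide +kernel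
theorem chkP_9_263 : allD P.chkPt 9 134656 = true := by decide +kernel
theorem chkP_9_264 : allD P.chkPt 9 135168 = true := by decide +kernel
theorem chkP_9_265 : allD P.chkPt 9 135680 = true := by decide +kernel
theorem chkP_9_266 : allD P.chkPt 9 136192 = true := by decide +kernel
theorem chkP_9_267 : allD P.chkPt 9 136704 = true := by decide +kernel
theorem chkP_9_268 : allD P.chkPt 9 137216 = true := by decide +kernel
theorem chkP_9_269 : allD P.chkPt 9 137728 = true := by decide +kernel
theorem chkP_9_270 : allD P.chkPt 9 138240 = true := by decide +kernel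
theorem chkP_9_271 : allD P.chkPt 9 138752 = true := by decide +kernel
theorem chkP_9_272 : allD P.chkPt 9 139264 = true := by decide +kernel
theorem chkP_9_273 : allD P.chkPt 9 139776 = true := by decide +kernel
theorem chkP_9_274 : allD P.chkPt 9 140288 = true := by decide +kernel
theorem chkP_9_275 : allD P.chkPt 9 140800 = true := by decide +kernel
theorem chkP_9_276 : allD P.chkPt 9 141312 = true := by decide +kernel
theorem chkP_9_277 : allD P.chkPt 9 141824 = true := by decide +kernel
theorem chkP_9_278 : allD P.chkPt 9 142336 = true := by decide +kernel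
theorem chkP_9_279 : allD P.chkPt 9 142848 = true := by decide +kernel
theorem chkP_9_280 : allD P.chkPt 9 143360 = true := by decide +kernel
theorem chkP_9_281 : allD P.chkPt 9 143872 = true := by decide +kernel
theorem chkP_9_282 : allD P.chkPt 9 144384 = true := by decide +kernel
theorem chkP_9_283 : allD P.chkPt 9 144896 = true := by decide +kernel

end Cfsg.Agent.Lib.Helper35Fi24a
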