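import Cfsg.Agent.Lib.Helper35Fi24a
import Cfsg.Agent.Lib.Helper35Fi24aChk14

set_option autoImplicit false
set_option maxRecDepth 100000

namespace Cfsg.Agent.Lib.Helper35Fi24a

open Cfsg.Agent.Lib.Helper35TC

theorem chkP_9_284 : allD P.chkPt 9 145408 = true := by decide +kernel
theorem chkP_9_285 : allD P.chkPt 9 145920 = true := by decide +kernel
theorem chkP_9_286 : allD P.chkPt 9 146432 = true := by decide +kernel
theorem chkP_9_287 : allD P.chkPt 9 146944 = true := by decide +kernel
theorem chkP_9_288 : allD P.chkPt 9 147456 = true := by decide +kernel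
theorem chkP_9_289 : allD P.chkPt 9 147968 = true := by decide +kernel
theorem chkP_9_290 : allD P.chkPt 9 148480 = true := by decide +kernel
theorem chkP_9_291 : allD P.chkPt 9 148992 = true := by decide +kernel
theorem chkP_9_292 : allD P.chkPt 9 149504 = true := by decide +kernel
theorem chkP_9_293 : allD P.chkPt 9 150016 = true := by decide +kernel
theorem chkP_9_294 : allD P.chkPt 9 150528 = true := by decide +kernel
theorem chkP_9_295 : allD P.chkPt 9 151040 = true := by decide +kernel
theorem chkP_9_296 : allD P.chkPt 9 151552 = true := by decide +kernel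
theorem chkP_9_297 : allD P.chkPt 9 152064 = true := by decide +kernel
theorem chkP_9_298 : allD P.chkPt 9 152576 = true := by decide +kernel
theorem chkP_9_299 : allD P.chkPt 9 153088 = true := by decide +kernel
theorem chkP_9_300 : allD P.chkPt 9 153600 = true := by decide +kernel
theorem chkP_9_301 : allD P.chkPt 9 154112 = true := by decide +kernel
theorem chkP_9_302 : allD P.chkPt 9 154624 = true := by decide +kernel
theorem chkP_9_303 : allD P.chkPt 9 155136 = true := by decide +kernel
theorem chkP_9_304 : allD P.chkPt 9 155648 = true := by decide +kernel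
theorem chkP_9_305 : allD P.chkPt 9 156160 = true := by decide +kernel
theorem chkP_9_306 : allD P.chkPt 9 156672 = true := by decide +kernel
theorem chkP_9_307 : allD P.chkPt 9 157184 = true := by decide +kernel
theorem chkP_9_308 : allD P.chkPt 9 157696 = true := by decide +kernel
theorem chkP_9_309 : allD P.chkPt 9 158208 = true := by decide +kernel

end Cfsg.Agent.Lib.Helper35Fi24a
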