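import Cfsg.Agent.Lib.Helper35Fi24a
import Cfsg.Agent.Lib.Helper35Fi24aChk15

set_option autoImplicit false
set_option maxRecDepth 100000

namespace Cfsg.Agent.Lib.Helper35Fi24a

open Cfsg.Agent.Lib.Helper35TC

theorem chkP_9_310 : allD P.chkPt 9 158720 = true := by decide +kernel
theorem chkP_9_311 : allD P.chkPt 9 159232 = true := by decide +kernel
theorem chkP_9_312 : allD P.chkPt 9 159744 = true := by decide +kernel
theorem chkP_9_313 : allD P.chkPt 9 160256 = true := by decide +kernel
theorem chkP_9_314 : allD P.chkPt 9 160768 = true := by decide +kernel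
theorem chkP_9_315 : allD P.chkPt 9 161280 = true := by decide +kernel
theorem chkP_9_316 : allD P.chkPt 9 161792 = true := by decide +kernel
theorem chkP_9_317 : allD P.chkPt 9 162304 = true := by decide +kernel
theorem chkP_9_318 : allD P.chkPt 9 162816 = true := by decide +kernel
theorem chkP_9_319 : allD P.chkPt 9 163328 = true := by decide +kernel
theorem chkP_9_320 : allD P.chkPt 9 163840 = true := by decide +kernel
theorem chkP_9_321 : allD P.chkPt 9 164352 = true := by decide +kernel
theorem chkP_9_322 : allD P.chkPt 9 164864 = true := by decide +kernel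
theorem chkP_9_323 : allD P.chkPt 9 165376 = true := by decide +kernel
theorem chkP_9_324 : allD P.chkPt 9 165888 = true := by decide +kernel
theorem chkP_9_325 : allD P.chkPt 9 166400 = true := by decide +kernel
theorem chkP_9_326 : allD P.chkPt 9 166912 = true := by decide +kernel
theorem chkP_9_327 : allD P.chkPt 9 167424 = true := by decide +kernel
theorem chkP_9_328 : allD P.chkPt 9 167936 = true := by decide +kernel
theorem chkP_9_329 : allD P.chkPt 9 168448 = true := by decide +kernel
theorem chkP_9_330 : allD P.chkPt 9 168960 = true := by decide +kernel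
theorem chkP_9_331 : allD P.chkPt 9 169472 = true := by decide +kernel
theorem chkP_9_332 : allD P.chkPt 9 169984 = true := by decide +kernel
theorem chkP_9_333 : allD P.chkPt 9 170496 = true := by decide +kernel
theorem chkP_9_334 : allD P.chkPt 9 171008 = true := by decide +kernel
theorem chkP_9_335 : allD P.chkPt 9 171520 = true := by decide +kernel

end Cfsg.Agent.Lib.Helper35Fi24a
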