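import Cfsg.Agent.Lib.Helper35Fi24a
import Cfsg.Agent.Lib.Helper35Fi24aChk16

set_option autoImplicit false
set_option maxRecDepth 100000

namespace Cfsg.Agent.Lib.Helper35Fi24a

open Cfsg.Agent.Lib.Helper35TC

theorem chkP_9_336 : allD P.chkPt 9 172032 = true := by decide +kernel
theorem chkP_9_337 : allD P.chkPt 9 172544 = true := by decide +kernel
theorem chkP_9_338 : allD P.chkPt 9 173056 = true := by decide +kernel
theorem chkP_9_339 : allD P.chkPt 9 173568 = true := by decide +kernel
theorem chkP_9_340 : allD P.chkPt 9 174080 = true := by decide +kernel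
theorem chkP_9_341 : allD P.chkPt 9 174592 = true := by decide +kernel
theorem chkP_9_342 : allD P.chkPt 9 175104 = true := by decide +kernel
theorem chkP_9_343 : allD P.chkPt 9 175616 = true := by decide +kernel
theorem chkP_9_344 : allD P.chkPt 9 176128 = true := by decide +kernel
theorem chkP_9_345 : allD P.chkPt 9 176640 = true := by decide +kernel
theorem chkP_9_346 : allD P.chkPt 9 177152 = true := by decide +kernel
theorem chkP_9_347 : allD P.chkPt 9 177664 = true := by decide +kernel
theorem chkP_9_348 : allD P.chkPt 9 178176 = true := by decide +kernel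
theorem chkP_9_349 : allD P.chkPt 9 178688 = true := by decide +kernel
theorem chkP_9_350 : allD P.chkPt 9 179200 = true := by decide +kernel
theorem chkP_9_351 : allD P.chkPt 9 179712 = true := by decide +kernel
theorem chkP_9_352 : allD P.chkPt 9 180224 = true := by decide +kernel
theorem chkP_9_353 : allD P.chkPt 9 180736 = true := by decide +kernel
theorem chkP_9_354 : allD P.chkPt 9 181248 = true := by decide +kernel
theorem chkP_9_355 : allD P.chkPt 9 181760 = true := by decide +kernel
theorem chkP_9_356 : allD P.chkPt 9 182272 = true := by decide +kernel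
theorem chkP_9_357 : allD P.chkPt 9 182784 = true := by decide +kernel
theorem chkP_9_358 : allD P.chkPt 9 183296 = true := by decide +kernel
theorem chkP_9_359 : allD P.chkPt 9 183808 = true := by decide +kernel
theorem chkP_9_360 : allD P.chkPt 9 184320 = true := by decide +kernel
theorem chkP_9_361 : allD P.chkPt 9 184832 = true := by decide +kernel

end Cfsg.Agent.Lib.Helper35Fi24a
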