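import Cfsg.Agent.Lib.Helper35Fi24a
import Cfsg.Agent.Lib.Helper35Fi24aChk17

set_option autoImplicit false
set_option maxRecDepth 100000

namespace Cfsg.Agent.Lib.Helper35Fi24a

open Cfsg.Agent.Lib.Helper35TC

theorem chkP_9_362 : allD P.chkPt 9 185344 = true := by decide +kernel
theorem chkP_9_363 : allD P.chkPt 9 185856 = true := by decide +kernel
theorem chkP_9_364 : allD P.chkPt 9 186368 = true := by decide +kernel
theorem chkP_9_365 : allD P.chkPt 9 186880 = true := by decide +kernel
theorem chkP_9_366 : allD P.chkPt 9 187392 = true := by decide +kernel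
theorem chkP_9_367 : allD P.chkPt 9 187904 = true := by decide +kernel
theorem chkP_9_368 : allD P.chkPt 9 188416 = true := by decide +kernel
theorem chkP_9_369 : allD P.chkPt 9 188928 = true := by decide +kernel
theorem chkP_9_370 : allD P.chkPt 9 189440 = true := by decide +kernel
theorem chkP_9_371 : allD P.chkPt 9 189952 = true := by decide +kernel
theorem chkP_9_372 : allD P.chkPt 9 190464 = true := by decide +kernel
theorem chkP_9_373 : allD P.chkPt 9 190976 = true := by decide +kernel
theorem chkP_9_374 : allD P.chkPt 9 191488 = true := by decide +kernel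
theorem chkP_9_375 : allD P.chkPt 9 192000 = true := by decide +kernel
theorem chkP_9_376 : allD P.chkPt 9 192512 = true := by decide +kernel
theorem chkP_9_377 : allD P.chkPt 9 193024 = true := by decide +kernel
theorem chkP_9_378 : allD P.chkPt 9 193536 = true := by decide +kernel
theorem chkP_9_379 : allD P.chkPt 9 194048 = true := by decide +kernel
theorem chkP_9_380 : allD P.chkPt 9 194560 = true := by decide +kernel
theorem chkP_9_381 : allD P.chkPt 9 195072 = true := by decide +kernel
theorem chkP_9_382 : allD P.chkPt 9 195584 = true := by decide +kernel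
theorem chkP_9_383 : allD P.chkPt 9 196096 = true := by decide +kernel
theorem chkP_9_384 : allD P.chkPt 9 196608 = true := by decide +kernel
theorem chkP_9_385 : allD P.chkPt 9 197120 = true := by decide +kernel
theorem chkP_9_386 : allD P.chkPt 9 197632 = true := by decide +kernel
theorem chkP_9_387 : allD P.chkPt 9 198144 = true := by decide +kernel

end Cfsg.Agent.Lib.Helper35Fi24a
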