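import Cfsg.Agent.Lib.Helper35Fi24a
import Cfsg.Agent.Lib.Helper35Fi24aChk18

set_option autoImplicit false
set_option maxRecDepth 100000

namespace Cfsg.Agent.Lib.Helper35Fi24a

open Cfsg.Agent.Lib.Helper35TC

theorem chkP_9_388 : allD P.chkPt 9 198656 = true := by decide +kernel
theorem chkP_9_389 : allD P.chkPt 9 199168 = true := by decide +kernel
theorem chkP_9_390 : allD P.chkPt 9 199680 = true := by decide +kernel
theorem chkP_9_391 : allD P.chkPt 9 200192 = true := by decide +kernel
theorem chkP_9_392 : allD P.chkPt 9 200704 = true := by decide +kernel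
theorem chkP_9_393 : allD P.chkPt 9 201216 = true := by decide +kernel
theorem chkP_9_394 : allD P.chkPt 9 201728 = true := by decide +kernel
theorem chkP_9_395 : allD P.chkPt 9 202240 = true := by decide +kernel
theorem chkP_9_396 : allD P.chkPt 9 202752 = true := by decide +kernel
theorem chkP_9_397 : allD P.chkPt 9 203264 = true := by decide +kernel
theorem chkP_9_398 : allD P.chkPt 9 203776 = true := by decide +kernel
theorem chkP_9_399 : allD P.chkPt 9 204288 = true := by decide +kernel
theorem chkP_9_400 : allD P.chkPt 9 204800 = true := by decide +kernel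
theorem chkP_9_401 : allD P.chkPt 9 205312 = true := by decide +kernel
theorem chkP_9_402 : allD P.chkPt 9 205824 = true := by decide +kernel
theorem chkP_9_403 : allD P.chkPt 9 206336 = true := by decide +kernel
theorem chkP_9_404 : allD P.chkPt 9 206848 = true := by decide +kernel
theorem chkP_9_405 : allD P.chkPt 9 207360 = true := by decide +kernel
theorem chkP_9_406 : allD P.chkPt 9 207872 = true := by decide +kernel
theorem chkP_9_407 : allD P.chkPt 9 208384 = true := by decide +kernel
theorem chkP_9_408 : allD P.chkPt 9 208896 = true := by decide +kernel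
theorem chkP_9_409 : allD P.chkPt 9 209408 = true := by decide +kernel
theorem chkP_9_410 : allD P.chkPt 9 209920 = true := by decide +kernel
theorem chkP_9_411 : allD P.chkPt 9 210432 = true := by decide +kernel
theorem chkP_9_412 : allD P.chkPt 9 210944 = true := by decide +kernel
theorem chkP_9_413 : allD P.chkPt 9 211456 = true := by decide +kernel

end Cfsg.Agent.Lib.Helper35Fi24a
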