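import Cfsg.Agent.Lib.Helper35Fi24a
import Cfsg.Agent.Lib.Helper35Fi24aChk19

set_option autoImplicit false
set_option maxRecDepth 100000

namespace Cfsg.Agent.Lib.Helper35Fi24a

open Cfsg.Agent.Lib.Helper35TC

theorem chkP_9_414 : allD P.chkPt 9 211968 = true := by decide +kernel
theorem chkP_9_415 : allD P.chkPt 9 212480 = true := by decide +kernel
theorem chkP_9_416 : allD P.chkPt 9 212992 = true := by decide +kernel
theorem chkP_9_417 : allD P.chkPt 9 213504 = true := by decide +kernel
theorem chkP_9_418 : allD P.chkPt 9 214016 = true := by decide +kernel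
theorem chkP_9_419 : allD P.chkPt 9 214528 = true := by decide +kernel
theorem chkP_9_420 : allD P.chkPt 9 215040 = true := by decide +kernel
theorem chkP_9_421 : allD P.chkPt 9 215552 = true := by decide +kernel
theorem chkP_9_422 : allD P.chkPt 9 216064 = true := by decide +kernel
theorem chkP_9_423 : allD P.chkPt 9 216576 = true := by decide +kernel
theorem chkP_9_424 : allD P.chkPt 9 217088 = true := by decide +kernel
theorem chkP_9_425 : allD P.chkPt 9 217600 = true := by decide +kernel
theorem chkP_9_426 : allD P.chkPt 9 218112 = true := by decide +kernel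
theorem chkP_9_427 : allD P.chkPt 9 218624 = true := by decide +kernel
theorem chkP_9_428 : allD P.chkPt 9 219136 = true := by decide +kernel
theorem chkP_9_429 : allD P.chkPt 9 219648 = true := by decide +kernel
theorem chkP_9_430 : allD P.chkPt 9 220160 = true := by decide +kernel
theorem chkP_9_431 : allD P.chkPt 9 220672 = true := by decide +kernel
theorem chkP_9_432 : allD P.chkPt 9 221184 = true := by decide +kernel
theorem chkP_9_433 : allD P.chkPt 9 221696 = true := by decide +kernel
theorem chkP_9_434 : allD P.chkPt 9 222208 = true := by decide +kernel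
theorem chkP_9_435 : allD P.chkPt 9 222720 = true := by decide +kernel
theorem chkP_9_436 : allD P.chkPt 9 223232 = true := by decide +kernel
theorem chkP_9_437 : allD P.chkPt 9 223744 = true := by decide +kernel
theorem chkP_9_438 : allD P.chkPt 9 224256 = true := by decide +kernel
theorem chkP_9_439 : allD P.chkPt 9 224768 = true := by decide +kernel

end Cfsg.Agent.Lib.Helper35Fi24a
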