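import Cfsg.Agent.Lib.Helper35Fi24a
import Cfsg.Agent.Lib.Helper35Fi24aChk20

set_option autoImplicit false
set_option maxRecDepth 100000

namespace Cfsg.Agent.Lib.Helper35Fi24a

open Cfsg.Agent.Lib.Helper35TC

theorem chkP_9_440 : allD P.chkPt 9 225280 = true := by decide +kernel
theorem chkP_9_441 : allD P.chkPt 9 225792 = true := by decide +kernel
theorem chkP_9_442 : allD P.chkPt 9 226304 = true := by decide +kernel
theorem chkP_9_443 : allD P.chkPt 9 226816 = true := by decide +kernel
theorem chkP_9_444 : allD P.chkPt 9 227328 = true := by decide +kernel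
theorem chkP_9_445 : allD P.chkPt 9 227840 = true := by decide +kernel
theorem chkP_9_446 : allD P.chkPt 9 228352 = true := by decide +kernel
theorem chkP_9_447 : allD P.chkPt 9 228864 = true := by decide +kernel
theorem chkP_9_448 : allD P.chkPt 9 229376 = true := by decide +kernel
theorem chkP_9_449 : allD P.chkPt 9 229888 = true := by decide +kernel
theorem chkP_9_450 : allD P.chkPt 9 230400 = true := by decide +kernel
theorem chkP_9_451 : allD P.chkPt 9 230912 = true := by decide +kernel
theorem chkP_9_452 : allD P.chkPt 9 231424 = true := by decide +kernel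
theorem chkP_9_453 : allD P.chkPt 9 231936 = true := by decide +kernel
theorem chkP_9_454 : allD P.chkPt 9 232448 = true := by decide +kernel
theorem chkP_9_455 : allD P.chkPt 9 232960 = true := by decide +kernel
theorem chkP_9_456 : allD P.chkPt 9 233472 = true := by decide +kernel
theorem chkP_9_457 : allD P.chkPt 9 233984 = true := by decide +kernel
theorem chkP_9_458 : allD P.chkPt 9 234496 = true := by decide +kernel
theorem chkP_9_459 : allD P.chkPt 9 235008 = true := by decide +kernel
theorem chkP_9_460 : allD P.chkPt 9 235520 = true := by decide +kernel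
theorem chkP_9_461 : allD P.chkPt 9 236032 = true := by decide +kernel
theorem chkP_9_462 : allD P.chkPt 9 236544 = true := by decide +kernel
theorem chkP_9_463 : allD P.chkPt 9 237056 = true := by decide +kernel
theorem chkP_9_464 : allD P.chkPt 9 237568 = true := by decide +kernel
theorem chkP_9_465 : allD P.chkPt 9 238080 = true := by decide +kernel

end Cfsg.Agent.Lib.Helper35Fi24a
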