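import Cfsg.Agent.Lib.Helper35Fi24a
import Cfsg.Agent.Lib.Helper35Fi24aChk21

set_option autoImplicit false
set_option maxRecDepth 100000

namespace Cfsg.Agent.Lib.Helper35Fi24a

open Cfsg.Agent.Lib.Helper35TC

theorem chkP_9_466 : allD P.chkPt 9 238592 = true := by decide +kernel
theorem chkP_9_467 : allD P.chkPt 9 239104 = true := by decide +kernel
theorem chkP_9_468 : allD P.chkPt 9 239616 = true := by decide +kernel
theorem chkP_9_469 : allD P.chkPt 9 240128 = true := by decide +kernel
theorem chkP_9_470 : allD P.chkPt 9 240640 = true := by decide +kernel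
theorem chkP_9_471 : allD P.chkPt 9 241152 = true := by decide +kernel
theorem chkP_9_472 : allD P.chkPt 9 241664 = true := by decide +kernel
theorem chkP_9_473 : allD P.chkPt 9 242176 = true := by decide +kernel
theorem chkP_9_474 : allD P.chkPt 9 242688 = true := by decide +kernel
theorem chkP_9_475 : allD P.chkPt 9 243200 = true := by decide +kernel
theorem chkP_9_476 : allD P.chkPt 9 243712 = true := by decide +kernel
theorem chkP_9_477 : allD P.chkPt 9 244224 = true := by decide +kernel
theorem chkP_9_478 : allD P.chkPt 9 244736 = true := by decide +kernel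
theorem chkP_9_479 : allD P.chkPt 9 245248 = true := by decide +kernel
theorem chkP_9_480 : allD P.chkPt 9 245760 = true := by decide +kernel
theorem chkP_9_481 : allD P.chkPt 9 246272 = true := by decide +kernel
theorem chkP_9_482 : allD P.chkPt 9 246784 = true := by decide +kernel
theorem chkP_9_483 : allD P.chkPt 9 247296 = true := by decide +kernel
theorem chkP_9_484 : allD P.chkPt 9 247808 = true := by decide +kernel
theorem chkP_9_485 : allD P.chkPt 9 248320 = true := by decide +kernel
theorem chkP_9_486 : allD P.chkPt 9 248832 = true := by decide +kernel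
theorem chkP_9_487 : allD P.chkPt 9 249344 = true := by decide +kernel
theorem chkP_9_488 : allD P.chkPt 9 249856 = true := by decide +kernel
theorem chkP_9_489 : allD P.chkPt 9 250368 = true := by decide +kernel
theorem chkP_9_490 : allD P.chkPt 9 250880 = true := by decide +kernel
theorem chkP_9_491 : allD P.chkPt 9 251392 = true := by decide +kernel

end Cfsg.Agent.Lib.Helper35Fi24a
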