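import Cfsg.Agent.Lib.Helper35Fi24a
import Cfsg.Agent.Lib.Helper35Fi24aChk22

set_option autoImplicit false
set_option maxRecDepth 100000

namespace Cfsg.Agent.Lib.Helper35Fi24a

open Cfsg.Agent.Lib.Helper35TC

theorem chkP_9_492 : allD P.chkPt 9 251904 = true := by decide +kernel
theorem chkP_9_493 : allD P.chkPt 9 252416 = true := by decide +kernel
theorem chkP_9_494 : allD P.chkPt 9 252928 = true := by decide +kernel
theorem chkP_9_495 : allD P.chkPt 9 253440 = true := by decide +kernel
theorem chkP_9_496 : allD P.chkPt 9 253952 = true := by decide +kernel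
theorem chkP_9_497 : allD P.chkPt 9 254464 = true := by decide +kernel
theorem chkP_9_498 : allD P.chkPt 9 254976 = true := by decide +kernel
theorem chkP_9_499 : allD P.chkPt 9 255488 = true := by decide +kernel
theorem chkP_9_500 : allD P.chkPt 9 256000 = true := by decide +kernel
theorem chkP_9_501 : allD P.chkPt 9 256512 = true := by decide +kernel
theorem chkP_9_502 : allD P.chkPt 9 257024 = true := by decide +kernel
theorem chkP_9_503 : allD P.chkPt 9 257536 = true := by decide +kernel
theorem chkP_9_504 : allD P.chkPt 9 258048 = true := by decide +kernel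
theorem chkP_9_505 : allD P.chkPt 9 258560 = true := by decide +kernel
theorem chkP_9_506 : allD P.chkPt 9 259072 = true := by decide +kernel
theorem chkP_9_507 : allD P.chkPt 9 259584 = true := by decide +kernel
theorem chkP_9_508 : allD P.chkPt 9 260096 = true := by decide +kernel
theorem chkP_9_509 : allD P.chkPt 9 260608 = true := by decide +kernel
theorem chkP_9_510 : allD P.chkPt 9 261120 = true := by decide +kernel
theorem chkP_9_511 : allD P.chkPt 9 261632 = true := by decide +kernel
theorem chkP_9_512 : allD P.chkPt 9 262144 = true := by decide +kernel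
theorem chkP_9_513 : allD P.chkPt 9 262656 = true := by decide +kernel
theorem chkP_9_514 : allD P.chkPt 9 263168 = true := by decide +kernel
theorem chkP_9_515 : allD P.chkPt 9 263680 = true := by decide +kernel
theorem chkP_9_516 : allD P.chkPt 9 264192 = true := by decide +kernel
theorem chkP_9_517 : allD P.chkPt 9 264704 = true := by decide +kernel

end Cfsg.Agent.Lib.Helper35Fi24a
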