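import Cfsg.Agent.Lib.Helper35Fi24a
import Cfsg.Agent.Lib.Helper35Fi24aChk23

set_option autoImplicit false
set_option maxRecDepth 100000

namespace Cfsg.Agent.Lib.Helper35Fi24a

open Cfsg.Agent.Lib.Helper35TC

theorem chkP_9_518 : allD P.chkPt 9 265216 = true := by decide +kernel
theorem chkP_9_519 : allD P.chkPt 9 265728 = true := by decide +kernel
theorem chkP_9_520 : allD P.chkPt 9 266240 = true := by decide +kernel
theorem chkP_9_521 : allD P.chkPt 9 266752 = true := by decide +kernel
theorem chkP_9_522 : allD P.chkPt 9 267264 = true := by decide +kernel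
theorem chkP_9_523 : allD P.chkPt 9 267776 = true := by decide +kernel
theorem chkP_9_524 : allD P.chkPt 9 268288 = true := by decide +kernel
theorem chkP_9_525 : allD P.chkPt 9 268800 = true := by decide +kernel
theorem chkP_9_526 : allD P.chkPt 9 269312 = true := by decide +kernel
theorem chkP_9_527 : allD P.chkPt 9 269824 = true := by decide +kernel
theorem chkP_9_528 : allD P.chkPt 9 270336 = true := by decide +kernel
theorem chkP_9_529 : allD P.chkPt 9 270848 = true := by decide +kernel
theorem chkP_9_530 : allD P.chkPt 9 271360 = true := by decide +kernel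
theorem chkP_9_531 : allD P.chkPt 9 271872 = true := by decide +kernel
theorem chkP_9_532 : allD P.chkPt 9 272384 = true := by decide +kernel
theorem chkP_9_533 : allD P.chkPt 9 272896 = true := by decide +kernel
theorem chkP_9_534 : allD P.chkPt 9 273408 = true := by decide +kernel
theorem chkP_9_535 : allD P.chkPt 9 273920 = true := by decide +kernel
theorem chkP_9_536 : allD P.chkPt 9 274432 = true := by decide +kernel
theorem chkP_9_537 : allD P.chkPt 9 274944 = true := by decide +kernel
theorem chkP_9_538 : allD P.chkPt 9 275456 = true := by decide +kernel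
theorem chkP_9_539 : allD P.chkPt 9 275968 = true := by decide +kernel
theorem chkP_9_540 : allD P.chkPt 9 276480 = true := by decide +kernel
theorem chkP_9_541 : allD P.chkPt 9 276992 = true := by decide +kernel
theorem chkP_9_542 : allD P.chkPt 9 277504 = true := by decide +kernel
theorem chkP_9_543 : allD P.chkPt 9 278016 = true := by decide +kernel

end Cfsg.Agent.Lib.Helper35Fi24a
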