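import Cfsg.Agent.Lib.Helper35Fi24a
import Cfsg.Agent.Lib.Helper35Fi24aChk24

set_option autoImplicit false
set_option maxRecDepth 100000

namespace Cfsg.Agent.Lib.Helper35Fi24a

open Cfsg.Agent.Lib.Helper35TC

theorem chkP_9_544 : allD P.chkPt 9 278528 = true := by decide +kernel
theorem chkP_9_545 : allD P.chkPt 9 279040 = true := by decide +kernel
theorem chkP_9_546 : allD P.chkPt 9 279552 = true := by decide +kernel
theorem chkP_9_547 : allD P.chkPt 9 280064 = true := by decide +kernel
theorem chkP_9_548 : allD P.chkPt 9 280576 = true := by decide +kernel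
theorem chkP_9_549 : allD P.chkPt 9 281088 = true := by decide +kernel
theorem chkP_9_550 : allD P.chkPt 9 281600 = true := by decide +kernel
theorem chkP_9_551 : allD P.chkPt 9 282112 = true := by decide +kernel
theorem chkP_9_552 : allD P.chkPt 9 282624 = true := by decide +kernel
theorem chkP_9_553 : allD P.chkPt 9 283136 = true := by decide +kernel
theorem chkP_9_554 : allD P.chkPt 9 283648 = true := by decide +kernel
theorem chkP_9_555 : allD P.chkPt 9 284160 = true := by decide +kernel
theorem chkP_9_556 : allD P.chkPt 9 284672 = true := by decide +kernel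
theorem chkP_9_557 : allD P.chkPt 9 285184 = true := by decide +kernel
theorem chkP_9_558 : allD P.chkPt 9 285696 = true := by decide +kernel
theorem chkP_9_559 : allD P.chkPt 9 286208 = true := by decide +kernel
theorem chkP_9_560 : allD P.chkPt 9 286720 = true := by decide +kernel
theorem chkP_9_561 : allD P.chkPt 9 287232 = true := by decide +kernel
theorem chkP_9_562 : allD P.chkPt 9 287744 = true := by decide +kernel
theorem chkP_9_563 : allD P.chkPt 9 288256 = true := by decide +kernel
theorem chkP_9_564 : allD P.chkPt 9 288768 = true := by decide +kernel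
theorem chkP_9_565 : allD P.chkPt 9 289280 = true := by decide +kernel
theorem chkP_9_566 : allD P.chkPt 9 289792 = true := by decide +kernel
theorem chkP_9_567 : allD P.chkPt 9 290304 = true := by decide +kernel
theorem chkP_9_568 : allD P.chkPt 9 290816 = true := by decide +kernel
theorem chkP_9_569 : allD P.chkPt 9 291328 = true := by decide +kernel

end Cfsg.Agent.Lib.Helper35Fi24a
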