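import Cfsg.Agent.Lib.Helper35Fi24a
import Cfsg.Agent.Lib.Helper35Fi24aChk25

set_option autoImplicit false
set_option maxRecDepth 100000

namespace Cfsg.Agent.Lib.Helper35Fi24a

open Cfsg.Agent.Lib.Helper35TC

theorem chkP_9_570 : allD P.chkPt 9 291840 = true := by decide +kernel
theorem chkP_9_571 : allD P.chkPt 9 292352 = true := by decide +kernel
theorem chkP_9_572 : allD P.chkPt 9 292864 = true := by decide +kernel
theorem chkP_9_573 : allD P.chkPt 9 293376 = true := by decide +kernel
theorem chkP_9_574 : allD P.chkPt 9 293888 = true := by decide +kernel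
theorem chkP_9_575 : allD P.chkPt 9 294400 = true := by decide +kernel
theorem chkP_9_576 : allD P.chkPt 9 294912 = true := by decide +kernel
theorem chkP_9_577 : allD P.chkPt 9 295424 = true := by decide +kernel
theorem chkP_9_578 : allD P.chkPt 9 295936 = true := by decide +kernel
theorem chkP_9_579 : allD P.chkPt 9 296448 = true := by decide +kernel
theorem chkP_9_580 : allD P.chkPt 9 296960 = true := by decide +kernel
theorem chkP_9_581 : allD P.chkPt 9 297472 = true := by decide +kernel
theorem chkP_9_582 : allD P.chkPt 9 297984 = true := by decide +kernel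
theorem chkP_9_583 : allD P.chkPt 9 298496 = true := by decide +kernel
theorem chkP_9_584 : allD P.chkPt 9 299008 = true := by decide +kernel
theorem chkP_9_585 : allD P.chkPt 9 299520 = true := by decide +kernel
theorem chkP_9_586 : allD P.chkPt 9 300032 = true := by decide +kernel
theorem chkP_9_587 : allD P.chkPt 9 300544 = true := by decide +kernel
theorem chkP_9_588 : allD P.chkPt 9 301056 = true := by decide +kernel
theorem chkP_9_589 : allD P.chkPt 9 301568 = true := by decide +kernel
theorem chkP_9_590 : allD P.chkPt 9 302080 = true := by decide +kernel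
theorem chkP_9_591 : allD P.chkPt 9 302592 = true := by decide +kernel
theorem chkP_9_592 : allD P.chkPt 9 303104 = true := by decide +kernel
theorem chkP_9_593 : allD P.chkPt 9 303616 = true := by decide +kernel
theorem chkP_9_594 : allD P.chkPt 9 304128 = true := by decide +kernel
theorem chkP_9_595 : allD P.chkPt 9 304640 = true := by decide +kernel

end Cfsg.Agent.Lib.Helper35Fi24a
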