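import Cfsg.Agent.Lib.Helper35Fi24a
import Cfsg.Agent.Lib.Helper35Fi24aChk26

set_option autoImplicit false
set_option maxRecDepth 100000

namespace Cfsg.Agent.Lib.Helper35Fi24a

open Cfsg.Agent.Lib.Helper35TC

theorem chkP_9_596 : allD P.chkPt 9 305152 = true := by decide +kernel
theorem chkP_9_597 : allD P.chkPt 9 305664 = true := by decide +kernel
theorem chkP_9_598 : allD P.chkPt 9 306176 = true := by decide +kernel
theorem chkP_9_599 : allD P.chkPt 9 306688 = true := by decide +kernel
theorem chkP_9_600 : allD P.chkPt 9 307200 = true := by decide +kernel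
theorem chkP_9_601 : allD P.chkPt 9 307712 = true := by decide +kernel
theorem chkP_9_602 : allD P.chkPt 9 308224 = true := by decide +kernel
theorem chkP_9_603 : allD P.chkPt 9 308736 = true := by decide +kernel
theorem chkP_9_604 : allD P.chkPt 9 309248 = true := by decide +kernel
theorem chkP_9_605 : allD P.chkPt 9 309760 = true := by decide +kernel
theorem chkP_9_606 : allD P.chkPt 9 310272 = true := by decide +kernel
theorem chkP_9_607 : allD P.chkPt 9 310784 = true := by decide +kernel
theorem chkP_9_608 : allD P.chkPt 9 311296 = true := by decide +kernel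
theorem chkP_9_609 : allD P.chkPt 9 311808 = true := by decide +kernel
theorem chkP_9_610 : allD P.chkPt 9 312320 = true := by decide +kernel
theorem chkP_9_611 : allD P.chkPt 9 312832 = true := by decide +kernel
theorem chkP_9_612 : allD P.chkPt 9 313344 = true := by decide +kernel
theorem chkP_9_613 : allD P.chkPt 9 313856 = true := by decide +kernel
theorem chkP_9_614 : allD P.chkPt 9 314368 = true := by decide +kernel
theorem chkP_9_615 : allD P.chkPt 9 314880 = true := by decide +kernel
theorem chkP_9_616 : allD P.chkPt 9 315392 = true := by decide +kernel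
theorem chkP_9_617 : allD P.chkPt 9 315904 = true := by decide +kernel
theorem chkP_9_618 : allD P.chkPt 9 316416 = true := by decide +kernel
theorem chkP_9_619 : allD P.chkPt 9 316928 = true := by decide +kernel
theorem chkP_9_620 : allD P.chkPt 9 317440 = true := by decide +kernel
theorem chkP_9_621 : allD P.chkPt 9 317952 = true := by decide +kernel

end Cfsg.Agent.Lib.Helper35Fi24a
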