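import Cfsg.Agent.Lib.Helper35Fi24a
import Cfsg.Agent.Lib.Helper35Fi24aChk27

set_option autoImplicit false
set_option maxRecDepth 100000

namespace Cfsg.Agent.Lib.Helper35Fi24a

open Cfsg.Agent.Lib.Helper35TC

theorem chkP_9_622 : allD P.chkPt 9 318464 = true := by decide +kernel
theorem chkP_9_623 : allD P.chkPt 9 318976 = true := by decide +kernel
theorem chkP_9_624 : allD P.chkPt 9 319488 = true := by decide +kernel
theorem chkP_9_625 : allD P.chkPt 9 320000 = true := by decide +kernel
theorem chkP_9_626 : allD P.chkPt 9 320512 = true := by decide +kernel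
theorem chkP_9_627 : allD P.chkPt 9 321024 = true := by decide +kernel
theorem chkP_9_628 : allD P.chkPt 9 321536 = true := by decide +kernel
theorem chkP_9_629 : allD P.chkPt 9 322048 = true := by decide +kernel
theorem chkP_9_630 : allD P.chkPt 9 322560 = true := by decide +kernel
theorem chkP_9_631 : allD P.chkPt 9 323072 = true := by decide +kernel
theorem chkP_9_632 : allD P.chkPt 9 323584 = true := by decide +kernel
theorem chkP_9_633 : allD P.chkPt 9 324096 = true := by decide +kernel
theorem chkP_9_634 : allD P.chkPt 9 324608 = true := by decide +kernel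
theorem chkP_9_635 : allD P.chkPt 9 325120 = true := by decide +kernel
theorem chkP_9_636 : allD P.chkPt 9 325632 = true := by decide +kernel
theorem chkP_9_637 : allD P.chkPt 9 326144 = true := by decide +kernel
theorem chkP_9_638 : allD P.chkPt 9 326656 = true := by decide +kernel
theorem chkP_9_639 : allD P.chkPt 9 327168 = true := by decide +kernel
theorem chkP_9_640 : allD P.chkPt 9 327680 = true := by decide +kernel
theorem chkP_9_641 : allD P.chkPt 9 328192 = true := by decide +kernel
theorem chkP_9_642 : allD P.chkPt 9 328704 = true := by decide +kernel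
theorem chkP_9_643 : allD P.chkPt 9 329216 = true := by decide +kernel
theorem chkP_9_644 : allD P.chkPt 9 329728 = true := by decide +kernel
theorem chkP_9_645 : allD P.chkPt 9 330240 = true := by decide +kernel
theorem chkP_9_646 : allD P.chkPt 9 330752 = true := by decide +kernel
theorem chkP_9_647 : allD P.chkPt 9 331264 = true := by decide +kernel

end Cfsg.Agent.Lib.Helper35Fi24a
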