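import Cfsg.Agent.Lib.Helper35Fi24a
import Cfsg.Agent.Lib.Helper35Fi24aChk28

set_option autoImplicit false
set_option maxRecDepth 100000

namespace Cfsg.Agent.Lib.Helper35Fi24a

open Cfsg.Agent.Lib.Helper35TC

theorem chkP_9_648 : allD P.chkPt 9 331776 = true := by decide +kernel
theorem chkP_9_649 : allD P.chkPt 9 332288 = true := by decide +kernel
theorem chkP_9_650 : allD P.chkPt 9 332800 = true := by decide +kernel
theorem chkP_9_651 : allD P.chkPt 9 333312 = true := by decide +kernel
theorem chkP_9_652 : allD P.chkPt 9 333824 = true := by decide +kernel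
theorem chkP_9_653 : allD P.chkPt 9 334336 = true := by decide +kernel
theorem chkP_9_654 : allD P.chkPt 9 334848 = true := by decide +kernel
theorem chkP_9_655 : allD P.chkPt 9 335360 = true := by decide +kernel
theorem chkP_9_656 : allD P.chkPt 9 335872 = true := by decide +kernel
theorem chkP_9_657 : allD P.chkPt 9 336384 = true := by decide +kernel
theorem chkP_9_658 : allD P.chkPt 9 336896 = true := by decide +kernel
theorem chkP_9_659 : allD P.chkPt 9 337408 = true := by decide +kernel
theorem chkP_9_660 : allD P.chkPt 9 337920 = true := by decide +kernel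
theorem chkP_9_661 : allD P.chkPt 9 338432 = true := by decide +kernel
theorem chkP_9_662 : allD P.chkPt 9 338944 = true := by decide +kernel
theorem chkP_9_663 : allD P.chkPt 9 339456 = true := by decide +kernel
theorem chkP_9_664 : allD P.chkPt 9 339968 = true := by decide +kernel
theorem chkP_9_665 : allD P.chkPt 9 340480 = true := by decide +kernel
theorem chkP_9_666 : allD P.chkPt 9 340992 = true := by decide +kernel
theorem chkP_9_667 : allD P.chkPt 9 341504 = true := by decide +kernel
theorem chkP_9_668 : allD P.chkPt 9 342016 = true := by decide +kernel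
theorem chkP_9_669 : allD P.chkPt 9 342528 = true := by decide +kernel
theorem chkP_9_670 : allD P.chkPt 9 343040 = true := by decide +kernel
theorem chkP_9_671 : allD P.chkPt 9 343552 = true := by decide +kernel
theorem chkP_9_672 : allD P.chkPt 9 344064 = true := by decide +kernel
theorem chkP_9_673 : allD P.chkPt 9 344576 = true := by decide +kernel

end Cfsg.Agent.Lib.Helper35Fi24a
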