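import Cfsg.Agent.Lib.Helper35Fi24a
import Cfsg.Agent.Lib.Helper35Fi24aChk29

set_option autoImplicit false
set_option maxRecDepth 100000

namespace Cfsg.Agent.Lib.Helper35Fi24a

open Cfsg.Agent.Lib.Helper35TC

theorem chkP_9_674 : allD P.chkPt 9 345088 = true := by decide +kernel
theorem chkP_9_675 : allD P.chkPt 9 345600 = true := by decide +kernel
theorem chkP_9_676 : allD P.chkPt 9 346112 = true := by decide +kernel
theorem chkP_9_677 : allD P.chkPt 9 346624 = true := by decide +kernel
theorem chkP_9_678 : allD P.chkPt 9 347136 = true := by decide +kernel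
theorem chkP_9_679 : allD P.chkPt 9 347648 = true := by decide +kernel
theorem chkP_9_680 : allD P.chkPt 9 348160 = true := by decide +kernel
theorem chkP_9_681 : allD P.chkPt 9 348672 = true := by decide +kernel
theorem chkP_9_682 : allD P.chkPt 9 349184 = true := by decide +kernel
theorem chkP_9_683 : allD P.chkPt 9 349696 = true := by decide +kernel
theorem chkP_9_684 : allD P.chkPt 9 350208 = true := by decide +kernel
theorem chkP_9_685 : allD P.chkPt 9 350720 = true := by decide +kernel
theorem chkP_9_686 : allD P.chkPt 9 351232 = true := by decide +kernel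
theorem chkP_9_687 : allD P.chkPt 9 351744 = true := by decide +kernel
theorem chkP_9_688 : allD P.chkPt 9 352256 = true := by decide +kernel
theorem chkP_9_689 : allD P.chkPt 9 352768 = true := by decide +kernel
theorem chkP_9_690 : allD P.chkPt 9 353280 = true := by decide +kernel
theorem chkP_9_691 : allD P.chkPt 9 353792 = true := by decide +kernel
theorem chkP_9_692 : allD P.chkPt 9 354304 = true := by decide +kernel
theorem chkP_9_693 : allD P.chkPt 9 354816 = true := by decide +kernel
theorem chkP_9_694 : allD P.chkPt 9 355328 = true := by decide +kernel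
theorem chkP_9_695 : allD P.chkPt 9 355840 = true := by decide +kernel
theorem chkP_9_696 : allD P.chkPt 9 356352 = true := by decide +kernel
theorem chkP_9_697 : allD P.chkPt 9 356864 = true := by decide +kernel
theorem chkP_9_698 : allD P.chkPt 9 357376 = true := by decide +kernel
theorem chkP_9_699 : allD P.chkPt 9 357888 = true := by decide +kernel

end Cfsg.Agent.Lib.Helper35Fi24a
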