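import Cfsg.Agent.Lib.Helper35Fi24a
import Cfsg.Agent.Lib.Helper35Fi24aChk30

set_option autoImplicit false
set_option maxRecDepth 100000

namespace Cfsg.Agent.Lib.Helper35Fi24a

open Cfsg.Agent.Lib.Helper35TC

theorem chkP_9_700 : allD P.chkPt 9 358400 = true := by decide +kernel
theorem chkP_9_701 : allD P.chkPt 9 358912 = true := by decide +kernel
theorem chkP_9_702 : allD P.chkPt 9 359424 = true := by decide +kernel
theorem chkP_9_703 : allD P.chkPt 9 359936 = true := by decide +kernel
theorem chkP_9_704 : allD P.chkPt 9 360448 = true := by decide +kernel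
theorem chkP_9_705 : allD P.chkPt 9 360960 = true := by decide +kernel
theorem chkP_9_706 : allD P.chkPt 9 361472 = true := by decide +kernel
theorem chkP_9_707 : allD P.chkPt 9 361984 = true := by decide +kernel
theorem chkP_9_708 : allD P.chkPt 9 362496 = true := by decide +kernel
theorem chkP_9_709 : allD P.chkPt 9 363008 = true := by decide +kernel
theorem chkP_9_710 : allD P.chkPt 9 363520 = true := by decide +kernel
theorem chkP_9_711 : allD P.chkPt 9 364032 = true := by decide +kernel
theorem chkP_9_712 : allD P.chkPt 9 364544 = true := by decide +kernel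
theorem chkP_9_713 : allD P.chkPt 9 365056 = true := by decide +kernel
theorem chkP_9_714 : allD P.chkPt 9 365568 = true := by decide +kernel
theorem chkP_9_715 : allD P.chkPt 9 366080 = true := by decide +kernel
theorem chkP_9_716 : allD P.chkPt 9 366592 = true := by decide +kernel
theorem chkP_9_717 : allD P.chkPt 9 367104 = true := by decide +kernel
theorem chkP_9_718 : allD P.chkPt 9 367616 = true := by decide +kernel
theorem chkP_9_719 : allD P.chkPt 9 368128 = true := by decide +kernel
theorem chkP_9_720 : allD P.chkPt 9 368640 = true := by decide +kernel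
theorem chkP_9_721 : allD P.chkPt 9 369152 = true := by decide +kernel
theorem chkP_9_722 : allD P.chkPt 9 369664 = true := by decide +kernel
theorem chkP_9_723 : allD P.chkPt 9 370176 = true := by decide +kernel
theorem chkP_9_724 : allD P.chkPt 9 370688 = true := by decide +kernel
theorem chkP_9_725 : allD P.chkPt 9 371200 = true := by decide +kernel

end Cfsg.Agent.Lib.Helper35Fi24a
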