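import Cfsg.Agent.Lib.Helper35Fi24a
import Cfsg.Agent.Lib.Helper35Fi24aChk31

set_option autoImplicit false
set_option maxRecDepth 100000

namespace Cfsg.Agent.Lib.Helper35Fi24a

open Cfsg.Agent.Lib.Helper35TC

theorem chkP_9_726 : allD P.chkPt 9 371712 = true := by decide +kernel
theorem chkP_9_727 : allD P.chkPt 9 372224 = true := by decide +kernel
theorem chkP_9_728 : allD P.chkPt 9 372736 = true := by decide +kernel
theorem chkP_9_729 : allD P.chkPt 9 373248 = true := by decide +kernel
theorem chkP_9_730 : allD P.chkPt 9 373760 = true := by decide +kernel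
theorem chkP_9_731 : allD P.chkPt 9 374272 = true := by decide +kernel
theorem chkP_9_732 : allD P.chkPt 9 374784 = true := by decide +kernel
theorem chkP_9_733 : allD P.chkPt 9 375296 = true := by decide +kernel
theorem chkP_9_734 : allD P.chkPt 9 375808 = true := by decide +kernel
theorem chkP_9_735 : allD P.chkPt 9 376320 = true := by decide +kernel
theorem chkP_9_736 : allD P.chkPt 9 376832 = true := by decide +kernel
theorem chkP_9_737 : allD P.chkPt 9 377344 = true := by decide +kernel
theorem chkP_9_738 : allD P.chkPt 9 377856 = true := by decide +kernel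
theorem chkP_9_739 : allD P.chkPt 9 378368 = true := by decide +kernel
theorem chkP_9_740 : allD P.chkPt 9 378880 = true := by decide +kernel
theorem chkP_9_741 : allD P.chkPt 9 379392 = true := by decide +kernel
theorem chkP_9_742 : allD P.chkPt 9 379904 = true := by decide +kernel
theorem chkP_9_743 : allD P.chkPt 9 380416 = true := by decide +kernel
theorem chkP_9_744 : allD P.chkPt 9 380928 = true := by decide +kernel
theorem chkP_9_745 : allD P.chkPt 9 381440 = true := by decide +kernel
theorem chkP_9_746 : allD P.chkPt 9 381952 = true := by decide +kernel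
theorem chkP_9_747 : allD P.chkPt 9 382464 = true := by decide +kernel
theorem chkP_9_748 : allD P.chkPt 9 382976 = true := by decide +kernel
theorem chkP_9_749 : allD P.chkPt 9 383488 = true := by decide +kernel
theorem chkP_9_750 : allD P.chkPt 9 384000 = true := by decide +kernel
theorem chkP_9_751 : allD P.chkPt 9 384512 = true := by decide +kernel

end Cfsg.Agent.Lib.Helper35Fi24a
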