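import Cfsg.Agent.Lib.Helper35Fi24a

set_option autoImplicit false
set_option maxRecDepth 100000

namespace Cfsg.Agent.Lib.Helper35Fi24a

open Cfsg.Agent.Lib.Helper35TC

theorem chkU_11_104 : allD U.chkRow 11 212992 = true := by decide +kernel
theorem chkU_11_105 : allD U.chkRow 11 215040 = true := by decide +kernel
theorem chkU_11_106 : allD U.chkRow 11 217088 = true := by decide +kernel
theorem chkU_11_107 : allD U.chkRow 11 219136 = true := by decide +kernel
theorem chkU_11_108 : allD U.chkRow 11 221184 = true := by decide +kernel
theorem chkU_11_109 : allD U.chkRow 11 223232 = true := by decide +kernel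
theorem chkU_11_110 : allD U.chkRow 11 225280 = true := by decide +kernel
theorem chkU_11_111 : allD U.chkRow 11 227328 = true := by decide +kernel
theorem chkU_11_112 : allD U.chkRow 11 229376 = true := by decide +kernel
theorem chkU_11_113 : allD U.chkRow 11 231424 = true := by decide +kernel
theorem chkU_11_114 : allD U.chkRow 11 233472 = true := by decide +kernel
theorem chkU_11_115 : allD U.chkRow 11 235520 = true := by decide +kernel
theorem chkU_11_116 : allD U.chkRow 11 237568 = true := by decide +kernel
theorem chkU_11_117 : allD U.chkRow 11 239616 = true := by decide +kernel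
theorem chkU_11_118 : allD U.chkRow 11 241664 = true := by decide +kernel
theorem chkU_11_119 : allD U.chkRow 11 243712 = true := by decide +kernel
theorem chkU_11_120 : allD U.chkRow 11 245760 = true := by decide +kernel
theorem chkU_11_121 : allD U.chkRow 11 247808 = true := by decide +kernel
theorem chkU_11_122 : allD U.chkRow 11 249856 = true := by decide +kernel
theorem chkU_11_123 : allD U.chkRow 11 251904 = true := by decide +kernel
theorem chkU_11_124 : allD U.chkRow 11 253952 = true := by decide +kernel
theorem chkU_11_125 : allD U.chkRow 11 256000 = true := by decide +kernel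
theorem chkU_11_126 : allD U.chkRow 11 258048 = true := by decide +kernel
theorem chkU_11_127 : allD U.chkRow 11 260096 = true := by decide +kernel
theorem chkU_11_128 : allD U.chkRow 11 262144 = true := by decide +kernel
theorem chkU_11_129 : allD U.chkRow 11 264192 = true := by decide +kernel

end Cfsg.Agent.Lib.Helper35Fi24a
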