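import Cfsg.Agent.Lib.Helper35Fi24a
import Cfsg.Agent.Lib.Helper35Fi24aChk32

set_option autoImplicit false
set_option maxRecDepth 100000

namespace Cfsg.Agent.Lib.Helper35Fi24a

open Cfsg.Agent.Lib.Helper35TC

theorem chkP_9_752 : allD P.chkPt 9 385024 = true := by decide +kernel
theorem chkP_9_753 : allD P.chkPt 9 385536 = true := by decide +kernel
theorem chkP_9_754 : allD P.chkPt 9 386048 = true := by decide +kernel
theorem chkP_9_755 : allD P.chkPt 9 386560 = true := by decide +kernel
theorem chkP_9_756 : allD P.chkPt 9 387072 = true := by decide +kernel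
theorem chkP_9_757 : allD P.chkPt 9 387584 = true := by decide +kernel
theorem chkP_9_758 : allD P.chkPt 9 388096 = true := by decide +kernel
theorem chkP_9_759 : allD P.chkPt 9 388608 = true := by decide +kernel
theorem chkP_9_760 : allD P.chkPt 9 389120 = true := by decide +kernel
theorem chkP_9_761 : allD P.chkPt 9 389632 = true := by decide +kernel
theorem chkP_9_762 : allD P.chkPt 9 390144 = true := by decide +kernel
theorem chkP_9_763 : allD P.chkPt 9 390656 = true := by decide +kernel
theorem chkP_9_764 : allD P.chkPt 9 391168 = true := by decide +kernel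
theorem chkP_9_765 : allD P.chkPt 9 391680 = true := by decide +kernel
theorem chkP_9_766 : allD P.chkPt 9 392192 = true := by decide +kernel
theorem chkP_9_767 : allD P.chkPt 9 392704 = true := by decide +kernel
theorem chkP_9_768 : allD P.chkPt 9 393216 = true := by decide +kernel
theorem chkP_9_769 : allD P.chkPt 9 393728 = true := by decide +kernel
theorem chkP_9_770 : allD P.chkPt 9 394240 = true := by decide +kernel
theorem chkP_9_771 : allD P.chkPt 9 394752 = true := by decide +kernel
theorem chkP_9_772 : allD P.chkPt 9 395264 = true := by decide +kernel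
theorem chkP_9_773 : allD P.chkPt 9 395776 = true := by decide +kernel
theorem chkP_9_774 : allD P.chkPt 9 396288 = true := by decide +kernel
theorem chkP_9_775 : allD P.chkPt 9 396800 = true := by decide +kernel
theorem chkP_9_776 : allD P.chkPt 9 397312 = true := by decide +kernel
theorem chkP_9_777 : allD P.chkPt 9 397824 = true := by decide +kernel

end Cfsg.Agent.Lib.Helper35Fi24a
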