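import Cfsg.Agent.Lib.Helper35Fi24a
import Cfsg.Agent.Lib.Helper35Fi24aChk33

set_option autoImplicit false
set_option maxRecDepth 100000

namespace Cfsg.Agent.Lib.Helper35Fi24a

open Cfsg.Agent.Lib.Helper35TC

theorem chkP_9_778 : allD P.chkPt 9 398336 = true := by decide +kernel
theorem chkP_9_779 : allD P.chkPt 9 398848 = true := by decide +kernel
theorem chkP_9_780 : allD P.chkPt 9 399360 = true := by decide +kernel
theorem chkP_9_781 : allD P.chkPt 9 399872 = true := by decide +kernel
theorem chkP_9_782 : allD P.chkPt 9 400384 = true := by decide +kernel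
theorem chkP_9_783 : allD P.chkPt 9 400896 = true := by decide +kernel
theorem chkP_9_784 : allD P.chkPt 9 401408 = true := by decide +kernel
theorem chkP_9_785 : allD P.chkPt 9 401920 = true := by decide +kernel
theorem chkP_9_786 : allD P.chkPt 9 402432 = true := by decide +kernel
theorem chkP_9_787 : allD P.chkPt 9 402944 = true := by decide +kernel
theorem chkP_9_788 : allD P.chkPt 9 403456 = true := by decide +kernel
theorem chkP_9_789 : allD P.chkPt 9 403968 = true := by decide +kernel
theorem chkP_9_790 : allD P.chkPt 9 404480 = true := by decide +kernel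
theorem chkP_9_791 : allD P.chkPt 9 404992 = true := by decide +kernel
theorem chkP_9_792 : allD P.chkPt 9 405504 = true := by decide +kernel
theorem chkP_9_793 : allD P.chkPt 9 406016 = true := by decide +kernel
theorem chkP_9_794 : allD P.chkPt 9 406528 = true := by decide +kernel
theorem chkP_9_795 : allD P.chkPt 9 407040 = true := by decide +kernel
theorem chkP_9_796 : allD P.chkPt 9 407552 = true := by decide +kernel
theorem chkP_9_797 : allD P.chkPt 9 408064 = true := by decide +kernel
theorem chkP_9_798 : allD P.chkPt 9 408576 = true := by decide +kernel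
theorem chkP_9_799 : allD P.chkPt 9 409088 = true := by decide +kernel
theorem chkP_9_800 : allD P.chkPt 9 409600 = true := by decide +kernel
theorem chkP_9_801 : allD P.chkPt 9 410112 = true := by decide +kernel
theorem chkP_9_802 : allD P.chkPt 9 410624 = true := by decide +kernel
theorem chkP_9_803 : allD P.chkPt 9 411136 = true := by decide +kernel

end Cfsg.Agent.Lib.Helper35Fi24a
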