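import Cfsg.Agent.Lib.Helper35Fi24a
import Cfsg.Agent.Lib.Helper35Fi24aChk34

set_option autoImplicit false
set_option maxRecDepth 100000

namespace Cfsg.Agent.Lib.Helper35Fi24a

open Cfsg.Agent.Lib.Helper35TC

theorem chkP_9_804 : allD P.chkPt 9 411648 = true := by decide +kernel
theorem chkP_9_805 : allD P.chkPt 9 412160 = true := by decide +kernel
theorem chkP_9_806 : allD P.chkPt 9 412672 = true := by decide +kernel
theorem chkP_9_807 : allD P.chkPt 9 413184 = true := by decide +kernel
theorem chkP_9_808 : allD P.chkPt 9 413696 = true := by decide +kernel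
theorem chkP_9_809 : allD P.chkPt 9 414208 = true := by decide +kernel
theorem chkP_9_810 : allD P.chkPt 9 414720 = true := by decide +kernel
theorem chkP_9_811 : allD P.chkPt 9 415232 = true := by decide +kernel
theorem chkP_9_812 : allD P.chkPt 9 415744 = true := by decide +kernel
theorem chkP_9_813 : allD P.chkPt 9 416256 = true := by decide +kernel
theorem chkP_9_814 : allD P.chkPt 9 416768 = true := by decide +kernel
theorem chkP_9_815 : allD P.chkPt 9 417280 = true := by decide +kernel
theorem chkP_9_816 : allD P.chkPt 9 417792 = true := by decide +kernel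
theorem chkP_9_817 : allD P.chkPt 9 418304 = true := by decide +kernel
theorem chkP_9_818 : allD P.chkPt 9 418816 = true := by decide +kernel
theorem chkP_9_819 : allD P.chkPt 9 419328 = true := by decide +kernel
theorem chkP_9_820 : allD P.chkPt 9 419840 = true := by decide +kernel
theorem chkP_9_821 : allD P.chkPt 9 420352 = true := by decide +kernel
theorem chkP_9_822 : allD P.chkPt 9 420864 = true := by decide +kernel
theorem chkP_9_823 : allD P.chkPt 9 421376 = true := by decide +kernel
theorem chkP_9_824 : allD P.chkPt 9 421888 = true := by decide +kernel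
theorem chkP_9_825 : allD P.chkPt 9 422400 = true := by decide +kernel
theorem chkP_9_826 : allD P.chkPt 9 422912 = true := by decide +kernel
theorem chkP_9_827 : allD P.chkPt 9 423424 = true := by decide +kernel
theorem chkP_9_828 : allD P.chkPt 9 423936 = true := by decide +kernel
theorem chkP_9_829 : allD P.chkPt 9 424448 = true := by decide +kernel

end Cfsg.Agent.Lib.Helper35Fi24a
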