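import Cfsg.Agent.Lib.Helper35Fi24a
import Cfsg.Agent.Lib.Helper35Fi24aChk35

set_option autoImplicit false
set_option maxRecDepth 100000

namespace Cfsg.Agent.Lib.Helper35Fi24a

open Cfsg.Agent.Lib.Helper35TC

theorem chkP_9_830 : allD P.chkPt 9 424960 = true := by decide +kernel
theorem chkP_9_831 : allD P.chkPt 9 425472 = true := by decide +kernel
theorem chkP_9_832 : allD P.chkPt 9 425984 = true := by decide +kernel
theorem chkP_9_833 : allD P.chkPt 9 426496 = true := by decide +kernel
theorem chkP_9_834 : allD P.chkPt 9 427008 = true := by decide +kernel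
theorem chkP_9_835 : allD P.chkPt 9 427520 = true := by decide +kernel
theorem chkP_9_836 : allD P.chkPt 9 428032 = true := by decide +kernel
theorem chkP_9_837 : allD P.chkPt 9 428544 = true := by decide +kernel
theorem chkP_9_838 : allD P.chkPt 9 429056 = true := by decide +kernel
theorem chkP_9_839 : allD P.chkPt 9 429568 = true := by decide +kernel
theorem chkP_9_840 : allD P.chkPt 9 430080 = true := by decide +kernel
theorem chkP_9_841 : allD P.chkPt 9 430592 = true := by decide +kernel
theorem chkP_9_842 : allD P.chkPt 9 431104 = true := by decide +kernel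
theorem chkP_9_843 : allD P.chkPt 9 431616 = true := by decide +kernel
theorem chkP_9_844 : allD P.chkPt 9 432128 = true := by decide +kernel
theorem chkP_9_845 : allD P.chkPt 9 432640 = true := by decide +kernel
theorem chkP_9_846 : allD P.chkPt 9 433152 = true := by decide +kernel
theorem chkP_9_847 : allD P.chkPt 9 433664 = true := by decide +kernel
theorem chkP_9_848 : allD P.chkPt 9 434176 = true := by decide +kernel
theorem chkP_9_849 : allD P.chkPt 9 434688 = true := by decide +kernel
theorem chkP_9_850 : allD P.chkPt 9 435200 = true := by decide +kernel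
theorem chkP_9_851 : allD P.chkPt 9 435712 = true := by decide +kernel
theorem chkP_9_852 : allD P.chkPt 9 436224 = true := by decide +kernel
theorem chkP_9_853 : allD P.chkPt 9 436736 = true := by decide +kernel
theorem chkP_9_854 : allD P.chkPt 9 437248 = true := by decide +kernel
theorem chkP_9_855 : allD P.chkPt 9 437760 = true := by decide +kernel

end Cfsg.Agent.Lib.Helper35Fi24a
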