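import Cfsg.Agent.Lib.Helper35Fi24a
import Cfsg.Agent.Lib.Helper35Fi24aChk36

set_option autoImplicit false
set_option maxRecDepth 100000

namespace Cfsg.Agent.Lib.Helper35Fi24a

open Cfsg.Agent.Lib.Helper35TC

theorem chkP_9_856 : allD P.chkPt 9 438272 = true := by decide +kernel
theorem chkP_9_857 : allD P.chkPt 9 438784 = true := by decide +kernel
theorem chkP_9_858 : allD P.chkPt 9 439296 = true := by decide +kernel
theorem chkP_9_859 : allD P.chkPt 9 439808 = true := by decide +kernel
theorem chkP_9_860 : allD P.chkPt 9 440320 = true := by decide +kernel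
theorem chkP_9_861 : allD P.chkPt 9 440832 = true := by decide +kernel
theorem chkP_9_862 : allD P.chkPt 9 441344 = true := by decide +kernel
theorem chkP_9_863 : allD P.chkPt 9 441856 = true := by decide +kernel
theorem chkP_9_864 : allD P.chkPt 9 442368 = true := by decide +kernel
theorem chkP_9_865 : allD P.chkPt 9 442880 = true := by decide +kernel
theorem chkP_9_866 : allD P.chkPt 9 443392 = true := by decide +kernel
theorem chkP_9_867 : allD P.chkPt 9 443904 = true := by decide +kernel
theorem chkP_9_868 : allD P.chkPt 9 444416 = true := by decide +kernel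
theorem chkP_9_869 : allD P.chkPt 9 444928 = true := by decide +kernel
theorem chkP_9_870 : allD P.chkPt 9 445440 = true := by decide +kernel
theorem chkP_9_871 : allD P.chkPt 9 445952 = true := by decide +kernel
theorem chkP_9_872 : allD P.chkPt 9 446464 = true := by decide +kernel
theorem chkP_9_873 : allD P.chkPt 9 446976 = true := by decide +kernel
theorem chkP_9_874 : allD P.chkPt 9 447488 = true := by decide +kernel
theorem chkP_9_875 : allD P.chkPt 9 448000 = true := by decide +kernel
theorem chkP_9_876 : allD P.chkPt 9 448512 = true := by decide +kernel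
theorem chkP_9_877 : allD P.chkPt 9 449024 = true := by decide +kernel
theorem chkP_9_878 : allD P.chkPt 9 449536 = true := by decide +kernel
theorem chkP_9_879 : allD P.chkPt 9 450048 = true := by decide +kernel
theorem chkP_9_880 : allD P.chkPt 9 450560 = true := by decide +kernel
theorem chkP_9_881 : allD P.chkPt 9 451072 = true := by decide +kernel

end Cfsg.Agent.Lib.Helper35Fi24a
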