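import Cfsg.Agent.Lib.Helper35Fi24a
import Cfsg.Agent.Lib.Helper35Fi24aChk37

set_option autoImplicit false
set_option maxRecDepth 100000

namespace Cfsg.Agent.Lib.Helper35Fi24a

open Cfsg.Agent.Lib.Helper35TC

theorem chkP_9_882 : allD P.chkPt 9 451584 = true := by decide +kernel
theorem chkP_9_883 : allD P.chkPt 9 452096 = true := by decide +kernel
theorem chkP_9_884 : allD P.chkPt 9 452608 = true := by decide +kernel
theorem chkP_9_885 : allD P.chkPt 9 453120 = true := by decide +kernel
theorem chkP_9_886 : allD P.chkPt 9 453632 = true := by decide +kernel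
theorem chkP_9_887 : allD P.chkPt 9 454144 = true := by decide +kernel
theorem chkP_9_888 : allD P.chkPt 9 454656 = true := by decide +kernel
theorem chkP_9_889 : allD P.chkPt 9 455168 = true := by decide +kernel
theorem chkP_9_890 : allD P.chkPt 9 455680 = true := by decide +kernel
theorem chkP_9_891 : allD P.chkPt 9 456192 = true := by decide +kernel
theorem chkP_9_892 : allD P.chkPt 9 456704 = true := by decide +kernel
theorem chkP_9_893 : allD P.chkPt 9 457216 = true := by decide +kernel
theorem chkP_9_894 : allD P.chkPt 9 457728 = true := by decide +kernel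
theorem chkP_9_895 : allD P.chkPt 9 458240 = true := by decide +kernel
theorem chkP_9_896 : allD P.chkPt 9 458752 = true := by decide +kernel
theorem chkP_9_897 : allD P.chkPt 9 459264 = true := by decide +kernel
theorem chkP_9_898 : allD P.chkPt 9 459776 = true := by decide +kernel
theorem chkP_9_899 : allD P.chkPt 9 460288 = true := by decide +kernel
theorem chkP_9_900 : allD P.chkPt 9 460800 = true := by decide +kernel
theorem chkP_9_901 : allD P.chkPt 9 461312 = true := by decide +kernel
theorem chkP_9_902 : allD P.chkPt 9 461824 = true := by decide +kernel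
theorem chkP_9_903 : allD P.chkPt 9 462336 = true := by decide +kernel
theorem chkP_9_904 : allD P.chkPt 9 462848 = true := by decide +kernel
theorem chkP_9_905 : allD P.chkPt 9 463360 = true := by decide +kernel
theorem chkP_9_906 : allD P.chkPt 9 463872 = true := by decide +kernel
theorem chkP_9_907 : allD P.chkPt 9 464384 = true := by decide +kernel

end Cfsg.Agent.Lib.Helper35Fi24a
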