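import Cfsg.Agent.Lib.Helper35Fi24a
import Cfsg.Agent.Lib.Helper35Fi24aChk38

set_option autoImplicit false
set_option maxRecDepth 100000

namespace Cfsg.Agent.Lib.Helper35Fi24a

open Cfsg.Agent.Lib.Helper35TC

theorem chkP_9_908 : allD P.chkPt 9 464896 = true := by decide +kernel
theorem chkP_9_909 : allD P.chkPt 9 465408 = true := by decide +kernel
theorem chkP_9_910 : allD P.chkPt 9 465920 = true := by decide +kernel
theorem chkP_9_911 : allD P.chkPt 9 466432 = true := by decide +kernel
theorem chkP_9_912 : allD P.chkPt 9 466944 = true := by decide +kernel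
theorem chkP_9_913 : allD P.chkPt 9 467456 = true := by decide +kernel
theorem chkP_9_914 : allD P.chkPt 9 467968 = true := by decide +kernel
theorem chkP_9_915 : allD P.chkPt 9 468480 = true := by decide +kernel
theorem chkP_9_916 : allD P.chkPt 9 468992 = true := by decide +kernel
theorem chkP_9_917 : allD P.chkPt 9 469504 = true := by decide +kernel
theorem chkP_9_918 : allD P.chkPt 9 470016 = true := by decide +kernel
theorem chkP_9_919 : allD P.chkPt 9 470528 = true := by decide +kernel
theorem chkP_9_920 : allD P.chkPt 9 471040 = true := by decide +kernel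
theorem chkP_9_921 : allD P.chkPt 9 471552 = true := by decide +kernel
theorem chkP_9_922 : allD P.chkPt 9 472064 = true := by decide +kernel
theorem chkP_9_923 : allD P.chkPt 9 472576 = true := by decide +kernel
theorem chkP_9_924 : allD P.chkPt 9 473088 = true := by decide +kernel
theorem chkP_9_925 : allD P.chkPt 9 473600 = true := by decide +kernel
theorem chkP_9_926 : allD P.chkPt 9 474112 = true := by decide +kernel
theorem chkP_9_927 : allD P.chkPt 9 474624 = true := by decide +kernel
theorem chkP_9_928 : allD P.chkPt 9 475136 = true := by decide +kernel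
theorem chkP_9_929 : allD P.chkPt 9 475648 = true := by decide +kernel
theorem chkP_9_930 : allD P.chkPt 9 476160 = true := by decide +kernel
theorem chkP_9_931 : allD P.chkPt 9 476672 = true := by decide +kernel
theorem chkP_9_932 : allD P.chkPt 9 477184 = true := by decide +kernel
theorem chkP_9_933 : allD P.chkPt 9 477696 = true := by decide +kernel

end Cfsg.Agent.Lib.Helper35Fi24a
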