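import Cfsg.Agent.Lib.Helper35Fi24a
import Cfsg.Agent.Lib.Helper35Fi24aChk39

set_option autoImplicit false
set_option maxRecDepth 100000

namespace Cfsg.Agent.Lib.Helper35Fi24a

open Cfsg.Agent.Lib.Helper35TC

theorem chkP_9_934 : allD P.chkPt 9 478208 = true := by decide +kernel
theorem chkP_9_935 : allD P.chkPt 9 478720 = true := by decide +kernel
theorem chkP_9_936 : allD P.chkPt 9 479232 = true := by decide +kernel
theorem chkP_9_937 : allD P.chkPt 9 479744 = true := by decide +kernel
theorem chkP_9_938 : allD P.chkPt 9 480256 = true := by decide +kernel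
theorem chkP_9_939 : allD P.chkPt 9 480768 = true := by decide +kernel
theorem chkP_9_940 : allD P.chkPt 9 481280 = true := by decide +kernel
theorem chkP_9_941 : allD P.chkPt 9 481792 = true := by decide +kernel
theorem chkP_9_942 : allD P.chkPt 9 482304 = true := by decide +kernel
theorem chkP_9_943 : allD P.chkPt 9 482816 = true := by decide +kernel
theorem chkP_9_944 : allD P.chkPt 9 483328 = true := by decide +kernel
theorem chkP_9_945 : allD P.chkPt 9 483840 = true := by decide +kernel
theorem chkP_9_946 : allD P.chkPt 9 484352 = true := by decide +kernel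
theorem chkP_9_947 : allD P.chkPt 9 484864 = true := by decide +kernel
theorem chkP_9_948 : allD P.chkPt 9 485376 = true := by decide +kernel
theorem chkP_9_949 : allD P.chkPt 9 485888 = true := by decide +kernel
theorem chkP_9_950 : allD P.chkPt 9 486400 = true := by decide +kernel
theorem chkP_9_951 : allD P.chkPt 9 486912 = true := by decide +kernel
theorem chkP_9_952 : allD P.chkPt 9 487424 = true := by decide +kernel
theorem chkP_9_953 : allD P.chkPt 9 487936 = true := by decide +kernel
theorem chkP_9_954 : allD P.chkPt 9 488448 = true := by decide +kernel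
theorem chkP_9_955 : allD P.chkPt 9 488960 = true := by decide +kernel
theorem chkP_9_956 : allD P.chkPt 9 489472 = true := by decide +kernel
theorem chkP_9_957 : allD P.chkPt 9 489984 = true := by decide +kernel
theorem chkP_9_958 : allD P.chkPt 9 490496 = true := by decide +kernel
theorem chkP_9_959 : allD P.chkPt 9 491008 = true := by decide +kernel

end Cfsg.Agent.Lib.Helper35Fi24a
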