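import Cfsg.Agent.Lib.Helper35Fi24a
import Cfsg.Agent.Lib.Helper35Fi24aChk40

set_option autoImplicit false
set_option maxRecDepth 100000

namespace Cfsg.Agent.Lib.Helper35Fi24a

open Cfsg.Agent.Lib.Helper35TC

theorem chkP_9_960 : allD P.chkPt 9 491520 = true := by decide +kernel
theorem chkP_9_961 : allD P.chkPt 9 492032 = true := by decide +kernel
theorem chkP_9_962 : allD P.chkPt 9 492544 = true := by decide +kernel
theorem chkP_9_963 : allD P.chkPt 9 493056 = true := by decide +kernel
theorem chkP_9_964 : allD P.chkPt 9 493568 = true := by decide +kernel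
theorem chkP_9_965 : allD P.chkPt 9 494080 = true := by decide +kernel
theorem chkP_9_966 : allD P.chkPt 9 494592 = true := by decide +kernel
theorem chkP_9_967 : allD P.chkPt 9 495104 = true := by decide +kernel
theorem chkP_9_968 : allD P.chkPt 9 495616 = true := by decide +kernel
theorem chkP_9_969 : allD P.chkPt 9 496128 = true := by decide +kernel
theorem chkP_9_970 : allD P.chkPt 9 496640 = true := by decide +kernel
theorem chkP_9_971 : allD P.chkPt 9 497152 = true := by decide +kernel
theorem chkP_9_972 : allD P.chkPt 9 497664 = true := by decide +kernel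
theorem chkP_9_973 : allD P.chkPt 9 498176 = true := by decide +kernel
theorem chkP_9_974 : allD P.chkPt 9 498688 = true := by decide +kernel
theorem chkP_9_975 : allD P.chkPt 9 499200 = true := by decide +kernel
theorem chkP_9_976 : allD P.chkPt 9 499712 = true := by decide +kernel
theorem chkP_9_977 : allD P.chkPt 9 500224 = true := by decide +kernel
theorem chkP_9_978 : allD P.chkPt 9 500736 = true := by decide +kernel
theorem chkP_9_979 : allD P.chkPt 9 501248 = true := by decide +kernel
theorem chkP_9_980 : allD P.chkPt 9 501760 = true := by decide +kernel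
theorem chkP_9_981 : allD P.chkPt 9 502272 = true := by decide +kernel
theorem chkP_9_982 : allD P.chkPt 9 502784 = true := by decide +kernel
theorem chkP_9_983 : allD P.chkPt 9 503296 = true := by decide +kernel
theorem chkP_9_984 : allD P.chkPt 9 503808 = true := by decide +kernel
theorem chkP_9_985 : allD P.chkPt 9 504320 = true := by decide +kernel

end Cfsg.Agent.Lib.Helper35Fi24a
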