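import Cfsg.Agent.Lib.Helper35Fi24a
import Cfsg.Agent.Lib.Helper35Fi24aChk41

set_option autoImplicit false
set_option maxRecDepth 100000

namespace Cfsg.Agent.Lib.Helper35Fi24a

open Cfsg.Agent.Lib.Helper35TC

theorem chkP_9_986 : allD P.chkPt 9 504832 = true := by decide +kernel
theorem chkP_9_987 : allD P.chkPt 9 505344 = true := by decide +kernel
theorem chkP_9_988 : allD P.chkPt 9 505856 = true := by decide +kernel
theorem chkP_9_989 : allD P.chkPt 9 506368 = true := by decide +kernel
theorem chkP_9_990 : allD P.chkPt 9 506880 = true := by decide +kernel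
theorem chkP_9_991 : allD P.chkPt 9 507392 = true := by decide +kernel
theorem chkP_9_992 : allD P.chkPt 9 507904 = true := by decide +kernel
theorem chkP_9_993 : allD P.chkPt 9 508416 = true := by decide +kernel
theorem chkP_9_994 : allD P.chkPt 9 508928 = true := by decide +kernel
theorem chkP_9_995 : allD P.chkPt 9 509440 = true := by decide +kernel
theorem chkP_9_996 : allD P.chkPt 9 509952 = true := by decide +kernel
theorem chkP_9_997 : allD P.chkPt 9 510464 = true := by decide +kernel
theorem chkP_9_998 : allD P.chkPt 9 510976 = true := by decide +kernel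
theorem chkP_9_999 : allD P.chkPt 9 511488 = true := by decide +kernel
theorem chkP_9_1000 : allD P.chkPt 9 512000 = true := by decide +kernel
theorem chkP_9_1001 : allD P.chkPt 9 512512 = true := by decide +kernel
theorem chkP_9_1002 : allD P.chkPt 9 513024 = true := by decide +kernel
theorem chkP_9_1003 : allD P.chkPt 9 513536 = true := by decide +kernel
theorem chkP_9_1004 : allD P.chkPt 9 514048 = true := by decide +kernel
theorem chkP_9_1005 : allD P.chkPt 9 514560 = true := by decide +kernel
theorem chkP_9_1006 : allD P.chkPt 9 515072 = true := by decide +kernel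
theorem chkP_9_1007 : allD P.chkPt 9 515584 = true := by decide +kernel
theorem chkP_9_1008 : allD P.chkPt 9 516096 = true := by decide +kernel
theorem chkP_9_1009 : allD P.chkPt 9 516608 = true := by decide +kernel
theorem chkP_9_1010 : allD P.chkPt 9 517120 = true := by decide +kernel
theorem chkP_9_1011 : allD P.chkPt 9 517632 = true := by decide +kernel

end Cfsg.Agent.Lib.Helper35Fi24a
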