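import Cfsg.Agent.Lib.Helper35Fi24a

set_option autoImplicit false
set_option maxRecDepth 100000

namespace Cfsg.Agent.Lib.Helper35Fi24a

open Cfsg.Agent.Lib.Helper35TC

theorem chkU_11_130 : allD U.chkRow 11 266240 = true := by decide +kernel
theorem chkU_11_131 : allD U.chkRow 11 268288 = true := by decide +kernel
theorem chkU_11_132 : allD U.chkRow 11 270336 = true := by decide +kernel
theorem chkU_11_133 : allD U.chkRow 11 272384 = true := by decide +kernel
theorem chkU_11_134 : allD U.chkRow 11 274432 = true := by decide +kernel
theorem chkU_11_135 : allD U.chkRow 11 276480 = true := by decide +kernel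
theorem chkU_11_136 : allD U.chkRow 11 278528 = true := by decide +kernel
theorem chkU_11_137 : allD U.chkRow 11 280576 = true := by decide +kernel
theorem chkU_11_138 : allD U.chkRow 11 282624 = true := by decide +kernel
theorem chkU_11_139 : allD U.chkRow 11 284672 = true := by decide +kernel
theorem chkU_11_140 : allD U.chkRow 11 286720 = true := by decide +kernel
theorem chkU_11_141 : allD U.chkRow 11 288768 = true := by decide +kernel
theorem chkU_11_142 : allD U.chkRow 11 290816 = true := by decide +kernel
theorem chkU_11_143 : allD U.chkRow 11 292864 = true := by decide +kernel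
theorem chkU_11_144 : allD U.chkRow 11 294912 = true := by decide +kernel
theorem chkU_11_145 : allD U.chkRow 11 296960 = true := by decide +kernel
theorem chkU_11_146 : allD U.chkRow 11 299008 = true := by decide +kernel
theorem chkU_11_147 : allD U.chkRow 11 301056 = true := by decide +kernel
theorem chkU_11_148 : allD U.chkRow 11 303104 = true := by decide +kernel
theorem chkU_11_149 : allD U.chkRow 11 305152 = true := by decide +kernel
theorem chkU_11_150 : allD U.chkRow 11 307200 = true := by decide +kernel
theorem chkU_11_151 : allD U.chkRow 11 309248 = true := by decide +kernel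
theorem chkU_11_152 : allD U.chkRow 11 311296 = true := by decide +kernel
theorem chkU_11_153 : allD U.chkRow 11 313344 = true := by decide +kernel
theorem chkU_11_154 : allD U.chkRow 11 315392 = true := by decide +kernel
theorem chkU_11_155 : allD U.chkRow 11 317440 = true := by decide +kernel

end Cfsg.Agent.Lib.Helper35Fi24a
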