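import Cfsg.Agent.Lib.Helper35Fi24a
import Cfsg.Agent.Lib.Helper35Fi24aChk42

set_option autoImplicit false
set_option maxRecDepth 100000

namespace Cfsg.Agent.Lib.Helper35Fi24a

open Cfsg.Agent.Lib.Helper35TC

theorem chkP_9_1012 : allD P.chkPt 9 518144 = true := by decide +kernel
theorem chkP_9_1013 : allD P.chkPt 9 518656 = true := by decide +kernel
theorem chkP_9_1014 : allD P.chkPt 9 519168 = true := by decide +kernel
theorem chkP_9_1015 : allD P.chkPt 9 519680 = true := by decide +kernel
theorem chkP_9_1016 : allD P.chkPt 9 520192 = true := by decide +kernel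
theorem chkP_9_1017 : allD P.chkPt 9 520704 = true := by decide +kernel
theorem chkP_9_1018 : allD P.chkPt 9 521216 = true := by decide +kernel
theorem chkP_9_1019 : allD P.chkPt 9 521728 = true := by decide +kernel
theorem chkP_9_1020 : allD P.chkPt 9 522240 = true := by decide +kernel
theorem chkP_9_1021 : allD P.chkPt 9 522752 = true := by decide +kernel
theorem chkP_9_1022 : allD P.chkPt 9 523264 = true := by decide +kernel
theorem chkP_9_1023 : allD P.chkPt 9 523776 = true := by decide +kernel
theorem chkO_11_0 : allD P.chkOrb 11 0 = true := by decide +kernel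
theorem chkO_11_1 : allD P.chkOrb 11 2048 = true := by decide +kernel
theorem chkO_11_2 : allD P.chkOrb 11 4096 = true := by decide +kernel
theorem chkO_11_3 : allD P.chkOrb 11 6144 = true := by decide +kernel
theorem chkO_11_4 : allD P.chkOrb 11 8192 = true := by decide +kernel
theorem chkO_11_5 : allD P.chkOrb 11 10240 = true := by decide +kernel
theorem chkO_11_6 : allD P.chkOrb 11 12288 = true := by decide +kernel
theorem chkO_11_7 : allD P.chkOrb 11 14336 = true := by decide +kernel
theorem chkO_11_8 : allD P.chkOrb 11 16384 = true := by decide +kernel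
theorem chkO_11_9 : allD P.chkOrb 11 18432 = true := by decide +kernel
theorem chkO_11_10 : allD P.chkOrb 11 20480 = true := by decide +kernel
theorem chkO_11_11 : allD P.chkOrb 11 22528 = true := by decide +kernel
theorem chkO_11_12 : allD P.chkOrb 11 24576 = true := by decide +kernel
theorem chkO_11_13 : allD P.chkOrb 11 26624 = true := by decide +kernel

end Cfsg.Agent.Lib.Helper35Fi24a
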