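import Cfsg.Agent.Lib.Helper35Fi24a
import Cfsg.Agent.Lib.Helper35Fi24aChk43

set_option autoImplicit false
set_option maxRecDepth 100000

namespace Cfsg.Agent.Lib.Helper35Fi24a

open Cfsg.Agent.Lib.Helper35TC

theorem chkO_11_14 : allD P.chkOrb 11 28672 = true := by decide +kernel
theorem chkO_11_15 : allD P.chkOrb 11 30720 = true := by decide +kernel
theorem chkO_11_16 : allD P.chkOrb 11 32768 = true := by decide +kernel
theorem chkO_11_17 : allD P.chkOrb 11 34816 = true := by decide +kernel
theorem chkO_11_18 : allD P.chkOrb 11 36864 = true := by decide +kernel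
theorem chkO_11_19 : allD P.chkOrb 11 38912 = true := by decide +kernel
theorem chkO_11_20 : allD P.chkOrb 11 40960 = true := by decide +kernel
theorem chkO_11_21 : allD P.chkOrb 11 43008 = true := by decide +kernel
theorem chkO_11_22 : allD P.chkOrb 11 45056 = true := by decide +kernel
theorem chkO_11_23 : allD P.chkOrb 11 47104 = true := by decide +kernel
theorem chkO_11_24 : allD P.chkOrb 11 49152 = true := by decide +kernel
theorem chkO_11_25 : allD P.chkOrb 11 51200 = true := by decide +kernel
theorem chkO_11_26 : allD P.chkOrb 11 53248 = true := by decide +kernel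
theorem chkO_11_27 : allD P.chkOrb 11 55296 = true := by decide +kernel
theorem chkO_11_28 : allD P.chkOrb 11 57344 = true := by decide +kernel
theorem chkO_11_29 : allD P.chkOrb 11 59392 = true := by decide +kernel
theorem chkO_11_30 : allD P.chkOrb 11 61440 = true := by decide +kernel
theorem chkO_11_31 : allD P.chkOrb 11 63488 = true := by decide +kernel
theorem chkO_11_32 : allD P.chkOrb 11 65536 = true := by decide +kernel
theorem chkO_11_33 : allD P.chkOrb 11 67584 = true := by decide +kernel
theorem chkO_11_34 : allD P.chkOrb 11 69632 = true := by decide +kernel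
theorem chkO_11_35 : allD P.chkOrb 11 71680 = true := by decide +kernel
theorem chkO_11_36 : allD P.chkOrb 11 73728 = true := by decide +kernel
theorem chkO_11_37 : allD P.chkOrb 11 75776 = true := by decide +kernel
theorem chkO_11_38 : allD P.chkOrb 11 77824 = true := by decide +kernel
theorem chkO_11_39 : allD P.chkOrb 11 79872 = true := by decide +kernel

end Cfsg.Agent.Lib.Helper35Fi24a
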