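import Cfsg.Agent.Lib.Helper35Fi24a
import Cfsg.Agent.Lib.Helper35Fi24aChk44

set_option autoImplicit false
set_option maxRecDepth 100000

namespace Cfsg.Agent.Lib.Helper35Fi24a

open Cfsg.Agent.Lib.Helper35TC

theorem chkO_11_40 : allD P.chkOrb 11 81920 = true := by decide +kernel
theorem chkO_11_41 : allD P.chkOrb 11 83968 = true := by decide +kernel
theorem chkO_11_42 : allD P.chkOrb 11 86016 = true := by decide +kernel
theorem chkO_11_43 : allD P.chkOrb 11 88064 = true := by decide +kernel
theorem chkO_11_44 : allD P.chkOrb 11 90112 = true := by decide +kernel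
theorem chkO_11_45 : allD P.chkOrb 11 92160 = true := by decide +kernel
theorem chkO_11_46 : allD P.chkOrb 11 94208 = true := by decide +kernel
theorem chkO_11_47 : allD P.chkOrb 11 96256 = true := by decide +kernel
theorem chkO_11_48 : allD P.chkOrb 11 98304 = true := by decide +kernel
theorem chkO_11_49 : allD P.chkOrb 11 100352 = true := by decide +kernel
theorem chkO_11_50 : allD P.chkOrb 11 102400 = true := by decide +kernel
theorem chkO_11_51 : allD P.chkOrb 11 104448 = true := by decide +kernel
theorem chkO_11_52 : allD P.chkOrb 11 106496 = true := by decide +kernel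
theorem chkO_11_53 : allD P.chkOrb 11 108544 = true := by decide +kernel
theorem chkO_11_54 : allD P.chkOrb 11 110592 = true := by decide +kernel
theorem chkO_11_55 : allD P.chkOrb 11 112640 = true := by decide +kernel
theorem chkO_11_56 : allD P.chkOrb 11 114688 = true := by decide +kernel
theorem chkO_11_57 : allD P.chkOrb 11 116736 = true := by decide +kernel
theorem chkO_11_58 : allD P.chkOrb 11 118784 = true := by decide +kernel
theorem chkO_11_59 : allD P.chkOrb 11 120832 = true := by decide +kernel
theorem chkO_11_60 : allD P.chkOrb 11 122880 = true := by decide +kernel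
theorem chkO_11_61 : allD P.chkOrb 11 124928 = true := by decide +kernel
theorem chkO_11_62 : allD P.chkOrb 11 126976 = true := by decide +kernel
theorem chkO_11_63 : allD P.chkOrb 11 129024 = true := by decide +kernel
theorem chkO_11_64 : allD P.chkOrb 11 131072 = true := by decide +kernel
theorem chkO_11_65 : allD P.chkOrb 11 133120 = true := by decide +kernel

end Cfsg.Agent.Lib.Helper35Fi24a
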