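import Cfsg.Agent.Lib.Helper35Fi24a
import Cfsg.Agent.Lib.Helper35Fi24aChk45

set_option autoImplicit false
set_option maxRecDepth 100000

namespace Cfsg.Agent.Lib.Helper35Fi24a

open Cfsg.Agent.Lib.Helper35TC

theorem chkO_11_66 : allD P.chkOrb 11 135168 = true := by decide +kernel
theorem chkO_11_67 : allD P.chkOrb 11 137216 = true := by decide +kernel
theorem chkO_11_68 : allD P.chkOrb 11 139264 = true := by decide +kernel
theorem chkO_11_69 : allD P.chkOrb 11 141312 = true := by decide +kernel
theorem chkO_11_70 : allD P.chkOrb 11 143360 = true := by decide +kernel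
theorem chkO_11_71 : allD P.chkOrb 11 145408 = true := by decide +kernel
theorem chkO_11_72 : allD P.chkOrb 11 147456 = true := by decide +kernel
theorem chkO_11_73 : allD P.chkOrb 11 149504 = true := by decide +kernel
theorem chkO_11_74 : allD P.chkOrb 11 151552 = true := by decide +kernel
theorem chkO_11_75 : allD P.chkOrb 11 153600 = true := by decide +kernel
theorem chkO_11_76 : allD P.chkOrb 11 155648 = true := by decide +kernel
theorem chkO_11_77 : allD P.chkOrb 11 157696 = true := by decide +kernel
theorem chkO_11_78 : allD P.chkOrb 11 159744 = true := by decide +kernel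
theorem chkO_11_79 : allD P.chkOrb 11 161792 = true := by decide +kernel
theorem chkO_11_80 : allD P.chkOrb 11 163840 = true := by decide +kernel
theorem chkO_11_81 : allD P.chkOrb 11 165888 = true := by decide +kernel
theorem chkO_11_82 : allD P.chkOrb 11 167936 = true := by decide +kernel
theorem chkO_11_83 : allD P.chkOrb 11 169984 = true := by decide +kernel
theorem chkO_11_84 : allD P.chkOrb 11 172032 = true := by decide +kernel
theorem chkO_11_85 : allD P.chkOrb 11 174080 = true := by decide +kernel
theorem chkO_11_86 : allD P.chkOrb 11 176128 = true := by decide +kernel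
theorem chkO_11_87 : allD P.chkOrb 11 178176 = true := by decide +kernel
theorem chkO_11_88 : allD P.chkOrb 11 180224 = true := by decide +kernel
theorem chkO_11_89 : allD P.chkOrb 11 182272 = true := by decide +kernel
theorem chkO_11_90 : allD P.chkOrb 11 184320 = true := by decide +kernel
theorem chkO_11_91 : allD P.chkOrb 11 186368 = true := by decide +kernel

end Cfsg.Agent.Lib.Helper35Fi24a
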