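import Cfsg.Agent.Lib.Helper35Fi24a
import Cfsg.Agent.Lib.Helper35Fi24aChk46

set_option autoImplicit false
set_option maxRecDepth 100000

namespace Cfsg.Agent.Lib.Helper35Fi24a

open Cfsg.Agent.Lib.Helper35TC

theorem chkO_11_92 : allD P.chkOrb 11 188416 = true := by decide +kernel
theorem chkO_11_93 : allD P.chkOrb 11 190464 = true := by decide +kernel
theorem chkO_11_94 : allD P.chkOrb 11 192512 = true := by decide +kernel
theorem chkO_11_95 : allD P.chkOrb 11 194560 = true := by decide +kernel
theorem chkO_11_96 : allD P.chkOrb 11 196608 = true := by decide +kernel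
theorem chkO_11_97 : allD P.chkOrb 11 198656 = true := by decide +kernel
theorem chkO_11_98 : allD P.chkOrb 11 200704 = true := by decide +kernel
theorem chkO_11_99 : allD P.chkOrb 11 202752 = true := by decide +kernel
theorem chkO_11_100 : allD P.chkOrb 11 204800 = true := by decide +kernel
theorem chkO_11_101 : allD P.chkOrb 11 206848 = true := by decide +kernel
theorem chkO_11_102 : allD P.chkOrb 11 208896 = true := by decide +kernel
theorem chkO_11_103 : allD P.chkOrb 11 210944 = true := by decide +kernel
theorem chkO_11_104 : allD P.chkOrb 11 212992 = true := by decide +kernel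
theorem chkO_11_105 : allD P.chkOrb 11 215040 = true := by decide +kernel
theorem chkO_11_106 : allD P.chkOrb 11 217088 = true := by decide +kernel
theorem chkO_11_107 : allD P.chkOrb 11 219136 = true := by decide +kernel
theorem chkO_11_108 : allD P.chkOrb 11 221184 = true := by decide +kernel
theorem chkO_11_109 : allD P.chkOrb 11 223232 = true := by decide +kernel
theorem chkO_11_110 : allD P.chkOrb 11 225280 = true := by decide +kernel
theorem chkO_11_111 : allD P.chkOrb 11 227328 = true := by decide +kernel
theorem chkO_11_112 : allD P.chkOrb 11 229376 = true := by decide +kernel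
theorem chkO_11_113 : allD P.chkOrb 11 231424 = true := by decide +kernel
theorem chkO_11_114 : allD P.chkOrb 11 233472 = true := by decide +kernel
theorem chkO_11_115 : allD P.chkOrb 11 235520 = true := by decide +kernel
theorem chkO_11_116 : allD P.chkOrb 11 237568 = true := by decide +kernel
theorem chkO_11_117 : allD P.chkOrb 11 239616 = true := by decide +kernel

end Cfsg.Agent.Lib.Helper35Fi24a
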