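import Cfsg.Agent.Lib.Helper35Fi24a
import Cfsg.Agent.Lib.Helper35Fi24aChk47

set_option autoImplicit false
set_option maxRecDepth 100000

namespace Cfsg.Agent.Lib.Helper35Fi24a

open Cfsg.Agent.Lib.Helper35TC

theorem chkO_11_118 : allD P.chkOrb 11 241664 = true := by decide +kernel
theorem chkO_11_119 : allD P.chkOrb 11 243712 = true := by decide +kernel
theorem chkO_11_120 : allD P.chkOrb 11 245760 = true := by decide +kernel
theorem chkO_11_121 : allD P.chkOrb 11 247808 = true := by decide +kernel
theorem chkO_11_122 : allD P.chkOrb 11 249856 = true := by decide +kernel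
theorem chkO_11_123 : allD P.chkOrb 11 251904 = true := by decide +kernel
theorem chkO_11_124 : allD P.chkOrb 11 253952 = true := by decide +kernel
theorem chkO_11_125 : allD P.chkOrb 11 256000 = true := by decide +kernel
theorem chkO_11_126 : allD P.chkOrb 11 258048 = true := by decide +kernel
theorem chkO_11_127 : allD P.chkOrb 11 260096 = true := by decide +kernel
theorem chkO_11_128 : allD P.chkOrb 11 262144 = true := by decide +kernel
theorem chkO_11_129 : allD P.chkOrb 11 264192 = true := by decide +kernel
theorem chkO_11_130 : allD P.chkOrb 11 266240 = true := by decide +kernel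
theorem chkO_11_131 : allD P.chkOrb 11 268288 = true := by decide +kernel
theorem chkO_11_132 : allD P.chkOrb 11 270336 = true := by decide +kernel
theorem chkO_11_133 : allD P.chkOrb 11 272384 = true := by decide +kernel
theorem chkO_11_134 : allD P.chkOrb 11 274432 = true := by decide +kernel
theorem chkO_11_135 : allD P.chkOrb 11 276480 = true := by decide +kernel
theorem chkO_11_136 : allD P.chkOrb 11 278528 = true := by decide +kernel
theorem chkO_11_137 : allD P.chkOrb 11 280576 = true := by decide +kernel
theorem chkO_11_138 : allD P.chkOrb 11 282624 = true := by decide +kernel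
theorem chkO_11_139 : allD P.chkOrb 11 284672 = true := by decide +kernel
theorem chkO_11_140 : allD P.chkOrb 11 286720 = true := by decide +kernel
theorem chkO_11_141 : allD P.chkOrb 11 288768 = true := by decide +kernel
theorem chkO_11_142 : allD P.chkOrb 11 290816 = true := by decide +kernel
theorem chkO_11_143 : allD P.chkOrb 11 292864 = true := by decide +kernel

end Cfsg.Agent.Lib.Helper35Fi24a
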