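import Cfsg.Agent.Lib.Helper35Fi24a
import Cfsg.Agent.Lib.Helper35Fi24aChk48

set_option autoImplicit false
set_option maxRecDepth 100000

namespace Cfsg.Agent.Lib.Helper35Fi24a

open Cfsg.Agent.Lib.Helper35TC

theorem chkO_11_144 : allD P.chkOrb 11 294912 = true := by decide +kernel
theorem chkO_11_145 : allD P.chkOrb 11 296960 = true := by decide +kernel
theorem chkO_11_146 : allD P.chkOrb 11 299008 = true := by decide +kernel
theorem chkO_11_147 : allD P.chkOrb 11 301056 = true := by decide +kernel
theorem chkO_11_148 : allD P.chkOrb 11 303104 = true := by decide +kernel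
theorem chkO_11_149 : allD P.chkOrb 11 305152 = true := by decide +kernel
theorem chkO_11_150 : allD P.chkOrb 11 307200 = true := by decide +kernel
theorem chkO_11_151 : allD P.chkOrb 11 309248 = true := by decide +kernel
theorem chkO_11_152 : allD P.chkOrb 11 311296 = true := by decide +kernel
theorem chkO_11_153 : allD P.chkOrb 11 313344 = true := by decide +kernel
theorem chkO_11_154 : allD P.chkOrb 11 315392 = true := by decide +kernel
theorem chkO_11_155 : allD P.chkOrb 11 317440 = true := by decide +kernel
theorem chkO_11_156 : allD P.chkOrb 11 319488 = true := by decide +kernel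
theorem chkO_11_157 : allD P.chkOrb 11 321536 = true := by decide +kernel
theorem chkO_11_158 : allD P.chkOrb 11 323584 = true := by decide +kernel
theorem chkO_11_159 : allD P.chkOrb 11 325632 = true := by decide +kernel
theorem chkO_11_160 : allD P.chkOrb 11 327680 = true := by decide +kernel
theorem chkO_11_161 : allD P.chkOrb 11 329728 = true := by decide +kernel
theorem chkO_11_162 : allD P.chkOrb 11 331776 = true := by decide +kernel
theorem chkO_11_163 : allD P.chkOrb 11 333824 = true := by decide +kernel
theorem chkO_11_164 : allD P.chkOrb 11 335872 = true := by decide +kernel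
theorem chkO_11_165 : allD P.chkOrb 11 337920 = true := by decide +kernel
theorem chkO_11_166 : allD P.chkOrb 11 339968 = true := by decide +kernel
theorem chkO_11_167 : allD P.chkOrb 11 342016 = true := by decide +kernel
theorem chkO_11_168 : allD P.chkOrb 11 344064 = true := by decide +kernel
theorem chkO_11_169 : allD P.chkOrb 11 346112 = true := by decide +kernel

end Cfsg.Agent.Lib.Helper35Fi24a
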