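import Cfsg.Agent.Lib.Helper35Fi24a
import Cfsg.Agent.Lib.Helper35Fi24aChk49

set_option autoImplicit false
set_option maxRecDepth 100000

namespace Cfsg.Agent.Lib.Helper35Fi24a

open Cfsg.Agent.Lib.Helper35TC

theorem chkO_11_170 : allD P.chkOrb 11 348160 = true := by decide +kernel
theorem chkO_11_171 : allD P.chkOrb 11 350208 = true := by decide +kernel
theorem chkO_11_172 : allD P.chkOrb 11 352256 = true := by decide +kernel
theorem chkO_11_173 : allD P.chkOrb 11 354304 = true := by decide +kernel
theorem chkO_11_174 : allD P.chkOrb 11 356352 = true := by decide +kernel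
theorem chkO_11_175 : allD P.chkOrb 11 358400 = true := by decide +kernel
theorem chkO_11_176 : allD P.chkOrb 11 360448 = true := by decide +kernel
theorem chkO_11_177 : allD P.chkOrb 11 362496 = true := by decide +kernel
theorem chkO_11_178 : allD P.chkOrb 11 364544 = true := by decide +kernel
theorem chkO_11_179 : allD P.chkOrb 11 366592 = true := by decide +kernel
theorem chkO_11_180 : allD P.chkOrb 11 368640 = true := by decide +kernel
theorem chkO_11_181 : allD P.chkOrb 11 370688 = true := by decide +kernel
theorem chkO_11_182 : allD P.chkOrb 11 372736 = true := by decide +kernel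
theorem chkO_11_183 : allD P.chkOrb 11 374784 = true := by decide +kernel
theorem chkO_11_184 : allD P.chkOrb 11 376832 = true := by decide +kernel
theorem chkO_11_185 : allD P.chkOrb 11 378880 = true := by decide +kernel
theorem chkO_11_186 : allD P.chkOrb 11 380928 = true := by decide +kernel
theorem chkO_11_187 : allD P.chkOrb 11 382976 = true := by decide +kernel
theorem chkO_11_188 : allD P.chkOrb 11 385024 = true := by decide +kernel
theorem chkO_11_189 : allD P.chkOrb 11 387072 = true := by decide +kernel
theorem chkO_11_190 : allD P.chkOrb 11 389120 = true := by decide +kernel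
theorem chkO_11_191 : allD P.chkOrb 11 391168 = true := by decide +kernel
theorem chkO_11_192 : allD P.chkOrb 11 393216 = true := by decide +kernel
theorem chkO_11_193 : allD P.chkOrb 11 395264 = true := by decide +kernel
theorem chkO_11_194 : allD P.chkOrb 11 397312 = true := by decide +kernel
theorem chkO_11_195 : allD P.chkOrb 11 399360 = true := by decide +kernel

end Cfsg.Agent.Lib.Helper35Fi24a
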