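import Cfsg.Agent.Lib.Helper35Fi24a
import Cfsg.Agent.Lib.Helper35Fi24aChk50

set_option autoImplicit false
set_option maxRecDepth 100000

namespace Cfsg.Agent.Lib.Helper35Fi24a

open Cfsg.Agent.Lib.Helper35TC

theorem chkO_11_196 : allD P.chkOrb 11 401408 = true := by decide +kernel
theorem chkO_11_197 : allD P.chkOrb 11 403456 = true := by decide +kernel
theorem chkO_11_198 : allD P.chkOrb 11 405504 = true := by decide +kernel
theorem chkO_11_199 : allD P.chkOrb 11 407552 = true := by decide +kernel
theorem chkO_11_200 : allD P.chkOrb 11 409600 = true := by decide +kernel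
theorem chkO_11_201 : allD P.chkOrb 11 411648 = true := by decide +kernel
theorem chkO_11_202 : allD P.chkOrb 11 413696 = true := by decide +kernel
theorem chkO_11_203 : allD P.chkOrb 11 415744 = true := by decide +kernel
theorem chkO_11_204 : allD P.chkOrb 11 417792 = true := by decide +kernel
theorem chkO_11_205 : allD P.chkOrb 11 419840 = true := by decide +kernel
theorem chkO_11_206 : allD P.chkOrb 11 421888 = true := by decide +kernel
theorem chkO_11_207 : allD P.chkOrb 11 423936 = true := by decide +kernel
theorem chkO_11_208 : allD P.chkOrb 11 425984 = true := by decide +kernel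
theorem chkO_11_209 : allD P.chkOrb 11 428032 = true := by decide +kernel
theorem chkO_11_210 : allD P.chkOrb 11 430080 = true := by decide +kernel
theorem chkO_11_211 : allD P.chkOrb 11 432128 = true := by decide +kernel
theorem chkO_11_212 : allD P.chkOrb 11 434176 = true := by decide +kernel
theorem chkO_11_213 : allD P.chkOrb 11 436224 = true := by decide +kernel
theorem chkO_11_214 : allD P.chkOrb 11 438272 = true := by decide +kernel
theorem chkO_11_215 : allD P.chkOrb 11 440320 = true := by decide +kernel
theorem chkO_11_216 : allD P.chkOrb 11 442368 = true := by decide +kernel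
theorem chkO_11_217 : allD P.chkOrb 11 444416 = true := by decide +kernel
theorem chkO_11_218 : allD P.chkOrb 11 446464 = true := by decide +kernel
theorem chkO_11_219 : allD P.chkOrb 11 448512 = true := by decide +kernel
theorem chkO_11_220 : allD P.chkOrb 11 450560 = true := by decide +kernel
theorem chkO_11_221 : allD P.chkOrb 11 452608 = true := by decide +kernel

end Cfsg.Agent.Lib.Helper35Fi24a
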