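import Cfsg.Agent.Lib.Helper35Fi24a
import Cfsg.Agent.Lib.Helper35Fi24aChk51

set_option autoImplicit false
set_option maxRecDepth 100000

namespace Cfsg.Agent.Lib.Helper35Fi24a

open Cfsg.Agent.Lib.Helper35TC

theorem chkO_11_222 : allD P.chkOrb 11 454656 = true := by decide +kernel
theorem chkO_11_223 : allD P.chkOrb 11 456704 = true := by decide +kernel
theorem chkO_11_224 : allD P.chkOrb 11 458752 = true := by decide +kernel
theorem chkO_11_225 : allD P.chkOrb 11 460800 = true := by decide +kernel
theorem chkO_11_226 : allD P.chkOrb 11 462848 = true := by decide +kernel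
theorem chkO_11_227 : allD P.chkOrb 11 464896 = true := by decide +kernel
theorem chkO_11_228 : allD P.chkOrb 11 466944 = true := by decide +kernel
theorem chkO_11_229 : allD P.chkOrb 11 468992 = true := by decide +kernel
theorem chkO_11_230 : allD P.chkOrb 11 471040 = true := by decide +kernel
theorem chkO_11_231 : allD P.chkOrb 11 473088 = true := by decide +kernel
theorem chkO_11_232 : allD P.chkOrb 11 475136 = true := by decide +kernel
theorem chkO_11_233 : allD P.chkOrb 11 477184 = true := by decide +kernel
theorem chkO_11_234 : allD P.chkOrb 11 479232 = true := by decide +kernel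
theorem chkO_11_235 : allD P.chkOrb 11 481280 = true := by decide +kernel
theorem chkO_11_236 : allD P.chkOrb 11 483328 = true := by decide +kernel
theorem chkO_11_237 : allD P.chkOrb 11 485376 = true := by decide +kernel
theorem chkO_11_238 : allD P.chkOrb 11 487424 = true := by decide +kernel
theorem chkO_11_239 : allD P.chkOrb 11 489472 = true := by decide +kernel
theorem chkO_11_240 : allD P.chkOrb 11 491520 = true := by decide +kernel
theorem chkO_11_241 : allD P.chkOrb 11 493568 = true := by decide +kernel
theorem chkO_11_242 : allD P.chkOrb 11 495616 = true := by decide +kernel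
theorem chkO_11_243 : allD P.chkOrb 11 497664 = true := by decide +kernel
theorem chkO_11_244 : allD P.chkOrb 11 499712 = true := by decide +kernel
theorem chkO_11_245 : allD P.chkOrb 11 501760 = true := by decide +kernel
theorem chkO_11_246 : allD P.chkOrb 11 503808 = true := by decide +kernel
theorem chkO_11_247 : allD P.chkOrb 11 505856 = true := by decide +kernel

end Cfsg.Agent.Lib.Helper35Fi24a
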