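import Cfsg.Agent.Lib.Helper35Fi24a

set_option autoImplicit false
set_option maxRecDepth 100000

namespace Cfsg.Agent.Lib.Helper35Fi24a

open Cfsg.Agent.Lib.Helper35TC

theorem chkU_11_156 : allD U.chkRow 11 319488 = true := by decide +kernel
theorem chkU_11_157 : allD U.chkRow 11 321536 = true := by decide +kernel
theorem chkU_11_158 : allD U.chkRow 11 323584 = true := by decide +kernel
theorem chkU_11_159 : allD U.chkRow 11 325632 = true := by decide +kernel
theorem chkU_11_160 : allD U.chkRow 11 327680 = true := by decide +kernel
theorem chkU_11_161 : allD U.chkRow 11 329728 = true := by decide +kernel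
theorem chkU_11_162 : allD U.chkRow 11 331776 = true := by decide +kernel
theorem chkU_11_163 : allD U.chkRow 11 333824 = true := by decide +kernel
theorem chkU_11_164 : allD U.chkRow 11 335872 = true := by decide +kernel
theorem chkU_11_165 : allD U.chkRow 11 337920 = true := by decide +kernel
theorem chkU_11_166 : allD U.chkRow 11 339968 = true := by decide +kernel
theorem chkU_11_167 : allD U.chkRow 11 342016 = true := by decide +kernel
theorem chkU_11_168 : allD U.chkRow 11 344064 = true := by decide +kernel
theorem chkU_11_169 : allD U.chkRow 11 346112 = true := by decide +kernel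
theorem chkU_11_170 : allD U.chkRow 11 348160 = true := by decide +kernel
theorem chkU_11_171 : allD U.chkRow 11 350208 = true := by decide +kernel
theorem chkU_11_172 : allD U.chkRow 11 352256 = true := by decide +kernel
theorem chkU_11_173 : allD U.chkRow 11 354304 = true := by decide +kernel
theorem chkU_11_174 : allD U.chkRow 11 356352 = true := by decide +kernel
theorem chkU_11_175 : allD U.chkRow 11 358400 = true := by decide +kernel
theorem chkU_11_176 : allD U.chkRow 11 360448 = true := by decide +kernel
theorem chkU_11_177 : allD U.chkRow 11 362496 = true := by decide +kernel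
theorem chkU_11_178 : allD U.chkRow 11 364544 = true := by decide +kernel
theorem chkU_11_179 : allD U.chkRow 11 366592 = true := by decide +kernel
theorem chkU_11_180 : allD U.chkRow 11 368640 = true := by decide +kernel
theorem chkU_11_181 : allD U.chkRow 11 370688 = true := by decide +kernel

end Cfsg.Agent.Lib.Helper35Fi24a
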