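import Cfsg.Agent.Lib.Helper35Fi24a
import Cfsg.Agent.Lib.Helper35Fi24aChk52

set_option autoImplicit false
set_option maxRecDepth 100000

namespace Cfsg.Agent.Lib.Helper35Fi24a

open Cfsg.Agent.Lib.Helper35TC

theorem chkO_11_248 : allD P.chkOrb 11 507904 = true := by decide +kernel
theorem chkO_11_249 : allD P.chkOrb 11 509952 = true := by decide +kernel
theorem chkO_11_250 : allD P.chkOrb 11 512000 = true := by decide +kernel
theorem chkO_11_251 : allD P.chkOrb 11 514048 = true := by decide +kernel
theorem chkO_11_252 : allD P.chkOrb 11 516096 = true := by decide +kernel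
theorem chkO_11_253 : allD P.chkOrb 11 518144 = true := by decide +kernel
theorem chkO_11_254 : allD P.chkOrb 11 520192 = true := by decide +kernel
theorem chkO_11_255 : allD P.chkOrb 11 522240 = true := by decide +kernel
theorem cntO0_14_0 : cntD (P.labIs 0) 14 0 = 1 := by decide +kernel
theorem cntO0_14_1 : cntD (P.labIs 0) 14 16384 = 0 := by decide +kernel
theorem cntO0_14_2 : cntD (P.labIs 0) 14 32768 = 0 := by decide +kernel
theorem cntO0_14_3 : cntD (P.labIs 0) 14 49152 = 0 := by decide +kernel
theorem cntO0_14_4 : cntD (P.labIs 0) 14 65536 = 0 := by decide +kernel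
theorem cntO0_14_5 : cntD (P.labIs 0) 14 81920 = 0 := by decide +kernel
theorem cntO0_14_6 : cntD (P.labIs 0) 14 98304 = 0 := by decide +kernel
theorem cntO0_14_7 : cntD (P.labIs 0) 14 114688 = 0 := by decide +kernel
theorem cntO0_14_8 : cntD (P.labIs 0) 14 131072 = 0 := by decide +kernel
theorem cntO0_14_9 : cntD (P.labIs 0) 14 147456 = 0 := by decide +kernel
theorem cntO0_14_10 : cntD (P.labIs 0) 14 163840 = 0 := by decide +kernel
theorem cntO0_14_11 : cntD (P.labIs 0) 14 180224 = 0 := by decide +kernel
theorem cntO0_14_12 : cntD (P.labIs 0) 14 196608 = 0 := by decide +kernel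
theorem cntO0_14_13 : cntD (P.labIs 0) 14 212992 = 0 := by decide +kernel
theorem cntO0_14_14 : cntD (P.labIs 0) 14 229376 = 0 := by decide +kernel
theorem cntO0_14_15 : cntD (P.labIs 0) 14 245760 = 0 := by decide +kernel
theorem cntO0_14_16 : cntD (P.labIs 0) 14 262144 = 0 := by decide +kernel
theorem cntO0_14_17 : cntD (P.labIs 0) 14 278528 = 0 := by decide +kernel

end Cfsg.Agent.Lib.Helper35Fi24a
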