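import Cfsg.Agent.Lib.Helper35Fi24a
import Cfsg.Agent.Lib.Helper35Fi24aChk53

set_option autoImplicit false
set_option maxRecDepth 100000

namespace Cfsg.Agent.Lib.Helper35Fi24a

open Cfsg.Agent.Lib.Helper35TC

theorem cntO0_14_18 : cntD (P.labIs 0) 14 294912 = 0 := by decide +kernel
theorem cntO0_14_19 : cntD (P.labIs 0) 14 311296 = 0 := by decide +kernel
theorem cntO0_14_20 : cntD (P.labIs 0) 14 327680 = 0 := by decide +kernel
theorem cntO0_14_21 : cntD (P.labIs 0) 14 344064 = 0 := by decide +kernel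
theorem cntO0_14_22 : cntD (P.labIs 0) 14 360448 = 0 := by decide +kernel
theorem cntO0_14_23 : cntD (P.labIs 0) 14 376832 = 0 := by decide +kernel
theorem cntO0_14_24 : cntD (P.labIs 0) 14 393216 = 0 := by decide +kernel
theorem cntO0_14_25 : cntD (P.labIs 0) 14 409600 = 0 := by decide +kernel
theorem cntO0_14_26 : cntD (P.labIs 0) 14 425984 = 0 := by decide +kernel
theorem cntO0_14_27 : cntD (P.labIs 0) 14 442368 = 0 := by decide +kernel
theorem cntO0_14_28 : cntD (P.labIs 0) 14 458752 = 0 := by decide +kernel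
theorem cntO0_14_29 : cntD (P.labIs 0) 14 475136 = 0 := by decide +kernel
theorem cntO0_14_30 : cntD (P.labIs 0) 14 491520 = 0 := by decide +kernel
theorem cntO0_14_31 : cntD (P.labIs 0) 14 507904 = 0 := by decide +kernel
theorem cntO1_14_0 : cntD (P.labIs 1) 14 0 = 12191 := by decide +kernel
theorem cntO1_14_1 : cntD (P.labIs 1) 14 16384 = 13251 := by decide +kernel
theorem cntO1_14_2 : cntD (P.labIs 1) 14 32768 = 13545 := by decide +kernel
theorem cntO1_14_3 : cntD (P.labIs 1) 14 49152 = 14233 := by decide +kernel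
theorem cntO1_14_4 : cntD (P.labIs 1) 14 65536 = 14341 := by decide +kernel
theorem cntO1_14_5 : cntD (P.labIs 1) 14 81920 = 14292 := by decide +kernel
theorem cntO1_14_6 : cntD (P.labIs 1) 14 98304 = 14699 := by decide +kernel
theorem cntO1_14_7 : cntD (P.labIs 1) 14 114688 = 14560 := by decide +kernel
theorem cntO1_14_8 : cntD (P.labIs 1) 14 131072 = 16114 := by decide +kernel
theorem cntO1_14_9 : cntD (P.labIs 1) 14 147456 = 14796 := by decide +kernel
theorem cntO1_14_10 : cntD (P.labIs 1) 14 163840 = 15170 := by decide +kernel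
theorem cntO1_14_11 : cntD (P.labIs 1) 14 180224 = 15120 := by decide +kernel

end Cfsg.Agent.Lib.Helper35Fi24a
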