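import Cfsg.Agent.Lib.Helper35Fi24a
import Cfsg.Agent.Lib.Helper35Fi24aChk54

set_option autoImplicit false
set_option maxRecDepth 100000

namespace Cfsg.Agent.Lib.Helper35Fi24a

open Cfsg.Agent.Lib.Helper35TC

theorem cntO1_14_12 : cntD (P.labIs 1) 14 196608 = 16199 := by decide +kernel
theorem cntO1_14_13 : cntD (P.labIs 1) 14 212992 = 15398 := by decide +kernel
theorem cntO1_14_14 : cntD (P.labIs 1) 14 229376 = 16057 := by decide +kernel
theorem cntO1_14_15 : cntD (P.labIs 1) 14 245760 = 15334 := by decide +kernel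
theorem cntO1_14_16 : cntD (P.labIs 1) 14 262144 = 15199 := by decide +kernel
theorem cntO1_14_17 : cntD (P.labIs 1) 14 278528 = 15310 := by decide +kernel
theorem cntO1_14_18 : cntD (P.labIs 1) 14 294912 = 9455 := by decide +kernel
theorem cntO1_14_19 : cntD (P.labIs 1) 14 311296 = 0 := by decide +kernel
theorem cntO1_14_20 : cntD (P.labIs 1) 14 327680 = 0 := by decide +kernel
theorem cntO1_14_21 : cntD (P.labIs 1) 14 344064 = 0 := by decide +kernel
theorem cntO1_14_22 : cntD (P.labIs 1) 14 360448 = 0 := by decide +kernel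
theorem cntO1_14_23 : cntD (P.labIs 1) 14 376832 = 0 := by decide +kernel
theorem cntO1_14_24 : cntD (P.labIs 1) 14 393216 = 0 := by decide +kernel
theorem cntO1_14_25 : cntD (P.labIs 1) 14 409600 = 0 := by decide +kernel
theorem cntO1_14_26 : cntD (P.labIs 1) 14 425984 = 0 := by decide +kernel
theorem cntO1_14_27 : cntD (P.labIs 1) 14 442368 = 0 := by decide +kernel
theorem cntO1_14_28 : cntD (P.labIs 1) 14 458752 = 0 := by decide +kernel
theorem cntO1_14_29 : cntD (P.labIs 1) 14 475136 = 0 := by decide +kernel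
theorem cntO1_14_30 : cntD (P.labIs 1) 14 491520 = 0 := by decide +kernel
theorem cntO1_14_31 : cntD (P.labIs 1) 14 507904 = 0 := by decide +kernel
theorem cntO2_14_0 : cntD (P.labIs 2) 14 0 = 4192 := by decide +kernel
theorem cntO2_14_1 : cntD (P.labIs 2) 14 16384 = 3133 := by decide +kernel
theorem cntO2_14_2 : cntD (P.labIs 2) 14 32768 = 2839 := by decide +kernel
theorem cntO2_14_3 : cntD (P.labIs 2) 14 49152 = 2151 := by decide +kernel
theorem cntO2_14_4 : cntD (P.labIs 2) 14 65536 = 2043 := by decide +kernel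
theorem cntO2_14_5 : cntD (P.labIs 2) 14 81920 = 2092 := by decide +kernel

end Cfsg.Agent.Lib.Helper35Fi24a
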