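import Cfsg.Agent.Lib.Helper35Fi24a
import Cfsg.Agent.Lib.Helper35Fi24aChk55

set_option autoImplicit false
set_option maxRecDepth 100000

namespace Cfsg.Agent.Lib.Helper35Fi24a

open Cfsg.Agent.Lib.Helper35TC

theorem cntO2_14_6 : cntD (P.labIs 2) 14 98304 = 1685 := by decide +kernel
theorem cntO2_14_7 : cntD (P.labIs 2) 14 114688 = 1824 := by decide +kernel
theorem cntO2_14_8 : cntD (P.labIs 2) 14 131072 = 270 := by decide +kernel
theorem cntO2_14_9 : cntD (P.labIs 2) 14 147456 = 1588 := by decide +kernel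
theorem cntO2_14_10 : cntD (P.labIs 2) 14 163840 = 1214 := by decide +kernel
theorem cntO2_14_11 : cntD (P.labIs 2) 14 180224 = 1264 := by decide +kernel
theorem cntO2_14_12 : cntD (P.labIs 2) 14 196608 = 185 := by decide +kernel
theorem cntO2_14_13 : cntD (P.labIs 2) 14 212992 = 986 := by decide +kernel
theorem cntO2_14_14 : cntD (P.labIs 2) 14 229376 = 327 := by decide +kernel
theorem cntO2_14_15 : cntD (P.labIs 2) 14 245760 = 1050 := by decide +kernel
theorem cntO2_14_16 : cntD (P.labIs 2) 14 262144 = 1185 := by decide +kernel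
theorem cntO2_14_17 : cntD (P.labIs 2) 14 278528 = 1074 := by decide +kernel
theorem cntO2_14_18 : cntD (P.labIs 2) 14 294912 = 2569 := by decide +kernel
theorem cntO2_14_19 : cntD (P.labIs 2) 14 311296 = 0 := by decide +kernel
theorem cntO2_14_20 : cntD (P.labIs 2) 14 327680 = 0 := by decide +kernel
theorem cntO2_14_21 : cntD (P.labIs 2) 14 344064 = 0 := by decide +kernel
theorem cntO2_14_22 : cntD (P.labIs 2) 14 360448 = 0 := by decide +kernel
theorem cntO2_14_23 : cntD (P.labIs 2) 14 376832 = 0 := by decide +kernel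
theorem cntO2_14_24 : cntD (P.labIs 2) 14 393216 = 0 := by decide +kernel
theorem cntO2_14_25 : cntD (P.labIs 2) 14 409600 = 0 := by decide +kernel
theorem cntO2_14_26 : cntD (P.labIs 2) 14 425984 = 0 := by decide +kernel
theorem cntO2_14_27 : cntD (P.labIs 2) 14 442368 = 0 := by decide +kernel
theorem cntO2_14_28 : cntD (P.labIs 2) 14 458752 = 0 := by decide +kernel
theorem cntO2_14_29 : cntD (P.labIs 2) 14 475136 = 0 := by decide +kernel
theorem cntO2_14_30 : cntD (P.labIs 2) 14 491520 = 0 := by decide +kernel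
theorem cntO2_14_31 : cntD (P.labIs 2) 14 507904 = 0 := by decide +kernel

end Cfsg.Agent.Lib.Helper35Fi24a
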