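import Cfsg.Agent.Lib.Helper35Fi24a

set_option autoImplicit false
set_option maxRecDepth 100000

namespace Cfsg.Agent.Lib.Helper35Fi24a

open Cfsg.Agent.Lib.Helper35TC

theorem chkU_11_182 : allD U.chkRow 11 372736 = true := by decide +kernel
theorem chkU_11_183 : allD U.chkRow 11 374784 = true := by decide +kernel
theorem chkU_11_184 : allD U.chkRow 11 376832 = true := by decide +kernel
theorem chkU_11_185 : allD U.chkRow 11 378880 = true := by decide +kernel
theorem chkU_11_186 : allD U.chkRow 11 380928 = true := by decide +kernel
theorem chkU_11_187 : allD U.chkRow 11 382976 = true := by decide +kernel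
theorem chkU_11_188 : allD U.chkRow 11 385024 = true := by decide +kernel
theorem chkU_11_189 : allD U.chkRow 11 387072 = true := by decide +kernel
theorem chkU_11_190 : allD U.chkRow 11 389120 = true := by decide +kernel
theorem chkU_11_191 : allD U.chkRow 11 391168 = true := by decide +kernel
theorem chkU_11_192 : allD U.chkRow 11 393216 = true := by decide +kernel
theorem chkU_11_193 : allD U.chkRow 11 395264 = true := by decide +kernel
theorem chkU_11_194 : allD U.chkRow 11 397312 = true := by decide +kernel
theorem chkU_11_195 : allD U.chkRow 11 399360 = true := by decide +kernel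
theorem chkU_11_196 : allD U.chkRow 11 401408 = true := by decide +kernel
theorem chkU_11_197 : allD U.chkRow 11 403456 = true := by decide +kernel
theorem chkU_11_198 : allD U.chkRow 11 405504 = true := by decide +kernel
theorem chkU_11_199 : allD U.chkRow 11 407552 = true := by decide +kernel
theorem chkU_11_200 : allD U.chkRow 11 409600 = true := by decide +kernel
theorem chkU_11_201 : allD U.chkRow 11 411648 = true := by decide +kernel
theorem chkU_11_202 : allD U.chkRow 11 413696 = true := by decide +kernel
theorem chkU_11_203 : allD U.chkRow 11 415744 = true := by decide +kernel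
theorem chkU_11_204 : allD U.chkRow 11 417792 = true := by decide +kernel
theorem chkU_11_205 : allD U.chkRow 11 419840 = true := by decide +kernel
theorem chkU_11_206 : allD U.chkRow 11 421888 = true := by decide +kernel
theorem chkU_11_207 : allD U.chkRow 11 423936 = true := by decide +kernel

end Cfsg.Agent.Lib.Helper35Fi24a
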