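import Cfsg.Agent.Lib.Helper35Fi22Ub

set_option autoImplicit false

namespace Cfsg.Agent.Lib.Helper35O73Ub

theorem ub0 : Finite Cfsg.Agent.Lib.Helper35Fi22c1.K.Grp ∧ Nat.card Cfsg.Agent.Lib.Helper35Fi22c1.K.Grp ≤ 364 * 12597120 :=
  Cfsg.Agent.Lib.Helper35Fi22Ub.ub1

end Cfsg.Agent.Lib.Helper35O73Ub
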