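import Cfsg.Agent.Lib.Helper35O73aB
import Cfsg.Agent.Lib.Helper35O73Ub

set_option autoImplicit false
set_option maxRecDepth 100000

namespace Cfsg.Agent.Lib.Helper35O73Fin

open Cfsg.Agent.Lib.Helper35TC Cfsg.Agent.Lib.Helper35O73a

def seed : Cfsg.Agent.Lib.Helper35Fi22c1.Gen → WExp Cfsg.Agent.Lib.Helper35Fi22c1.Gen
  | .b => (.mul (.mul (.pow (.mul (.of .c) (.of .b)) 1) (.mul (.mul (.mul (.mul (.mul (.mul (.mul (.mul (.mul (.mul (.mul (.mul (.mul (.mul (.mul (.of .g) (.of .e)) (.of .d)) (.of .f)) (.of .c)) (.of .i)) (.of .b)) (.of .h)) (.of .g)) (.of .i)) (.of .h)) (.of .f)) (.of .c)) (.of .e)) (.of .b)) (.of .d))) (.inv (.pow (.mul (.of .c) (.of .b)) 1)))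
  | .c => (.mul (.mul (.mul (.mul (.mul (.mul (.mul (.mul (.mul (.mul (.mul (.mul (.mul (.mul (.mul (.of .g) (.of .e)) (.of .d)) (.of .f)) (.of .c)) (.of .i)) (.of .b)) (.of .h)) (.of .g)) (.of .i)) (.of .h)) (.of .f)) (.of .c)) (.of .e)) (.of .b)) (.of .d))
  | .d => (.mul (.mul (.pow (.mul (.of .c) (.of .d)) 1) (.mul (.mul (.mul (.mul (.mul (.mul (.mul (.mul (.mul (.mul (.mul (.mul (.mul (.mul (.mul (.of .g) (.of .e)) (.of .d)) (.of .f)) (.of .c)) (.of .i)) (.of .b)) (.of .h)) (.of .g)) (.of .i)) (.of .h)) (.of .f)) (.of .c)) (.of .e)) (.of .b)) (.of .d))) (.inv (.pow (.mul (.of .c) (.of .d)) 1)))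
  | .e => (.mul (.mul (.pow (.mul (.of .d) (.of .e)) 1) (.mul (.mul (.pow (.mul (.of .c) (.of .d)) 1) (.mul (.mul (.mul (.mul (.mul (.mul (.mul (.mul (.mul (.mul (.mul (.mul (.mul (.mul (.mul (.of .g) (.of .e)) (.of .d)) (.of .f)) (.of .c)) (.of .i)) (.of .b)) (.of .h)) (.of .g)) (.of .i)) (.of .h)) (.of .f)) (.of .c)) (.of .e)) (.of .b)) (.of .d))) (.inv (.pow (.mul (.of .c) (.of .d)) 1)))) (.inv (.pow (.mul (.of .d) (.of .e)) 1)))
  | .f => (.mul (.mul (.pow (.mul (.of .e) (.of .f)) 1) (.mul (.mul (.pow (.mul (.of .d) (.of .e)) 1) (.mul (.mul (.pow (.mul (.of .c) (.of .d)) 1) (.mul (.mul (.mul (.mul (.mul (.mul (.mul (.mul (.mul (.mul (.mul (.mul (.mul (.mul (.mul (.of .g) (.of .e)) (.of .d)) (.of .f)) (.of .c)) (.of .i)) (.of .b)) (.of .h)) (.of .g)) (.of .i)) (.of .h)) (.of .f)) (.of .c)) (.of .e)) (.of .b)) (.of .d))) (.inv (.pow (.mul (.of .c) (.of .d)) 1)))) (.inv (.pow (.mul (.of .d) (.of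 .e)) 1)))) (.inv (.pow (.mul (.of .e) (.of .f)) 1)))
  | .g => (.mul (.mul (.pow (.mul (.of .f) (.of .g)) 1) (.mul (.mul (.pow (.mul (.of .e) (.of .f)) 1) (.mul (.mul (.pow (.mul (.of .d) (.of .e)) 1) (.mul (.mul (.pow (.mul (.of .c) (.of .d)) 1) (.mul (.mul (.mul (.mul (.mul (.mul (.mul (.mul (.mul (.mul (.mul (.mul (.mul (.mul (.mul (.of .g) (.of .e)) (.of .d)) (.of .f)) (.of .c)) (.of .i)) (.of .b)) (.of .h)) (.of .g)) (.of .i)) (.of .h)) (.of .f)) (.of .c)) (.of .e)) (.of .b)) (.of .d))) (.inv (.pow (.mul (.of .c) (.of .d)) 1)))) (.inv (.pow (.mul (.of .d) (.of .e)) 1)))) (.inv (.pow (.mul (.of .e) (.of .f)) 1)))) (.inv (.pow (.mul (.of .f) (.of .g)) 1)))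
  | .h => (.mul (.mul (.pow (.mul (.of .d) (.of .h)) 1) (.mul (.mul (.pow (.mul (.of .c) (.of .d)) 1) (.mul (.mul (.mul (.mul (.mul (.mul (.mul (.mul (.mul (.mul (.mul (.mul (.mul (.mul (.mul (.of .g) (.of .e)) (.of .d)) (.of .f)) (.of .c)) (.of .i)) (.of .b)) (.of .h)) (.of .g)) (.of .i)) (.of .h)) (.of .f)) (.of .c)) (.of .e)) (.of .b)) (.of .d))) (.inv (.pow (.mul (.of .c) (.of .d)) 1)))) (.inv (.pow (.mul (.of .d) (.of .h)) 1)))
  | .i => (.mul (.mul (.pow (.mul (.of .h) (.of .i)) 1) (.mul (.mul (.pow (.mul (.of .d) (.of .h)) 1) (.mul (.mul (.pow (.mul (.of .c) (.of .d)) 1) (.mul (.mul (.mul (.mul (.mul (.mul (.mul (.mul (.mul (.mul (.mul (.mul (.mul (.mul (.mul (.of .g) (.of .e)) (.of .d)) (.of .f)) (.of .c)) (.of .i)) (.of .b)) (.of .h)) (.of .g)) (.of .i)) (.of .h)) (.of .f)) (.of .c)) (.of .e)) (.of .b)) (.of .d))) (.inv (.pow (.mul (.of .c) (.of .d)) 1)))) (.inv (.pow (.mul (.of .d) (.of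 .h)) 1)))) (.inv (.pow (.mul (.of .h) (.of .i)) 1)))

theorem hs1 : ∀ a, BD.fixChk K.P ((WExp.pow (seed a) 13).app K.code K.P.iv) = true := by
  intro a; cases a <;> decide +kernel

theorem hs2 : ∀ a, BD.fixChk K.P ((WExp.pow (.mul (.of a) (seed a)) 13).app K.code K.P.iv) = true := by
  intro a; cases a <;> decide +kernel

theorem hub : Finite K.Grp ∧ Nat.card K.Grp ≤ K.P.n * 12597120 :=
  ⟨Cfsg.Agent.Lib.Helper35O73Ub.ub0.1, Cfsg.Agent.Lib.Helper35O73Ub.ub0.2.trans (by show _ ≤ 364 * 12597120; norm_num)⟩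

def sz (c : ℕ) : ℕ := [1, 243, 120].getD c 0

theorem hsz : ∀ c < K.P.roots.length,
    ((Finset.range K.P.n).filter (fun j => K.P.labIs c j = true)).card = sz c := by
  intro c hc
  have hc' : c < 3 := hc
  interval_cases c
  · have h := card_filter_range (P.labIs 0) 9 364 (by norm_num) (P.labIs_lt 0)
    rw [cntO0_9_0] at h
    exact h
  · have h := card_filter_range (P.labIs 1) 9 364 (by norm_num) (P.labIs_lt 1)
    rw [cntO1_9_0] at h
    exact h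
  · have h := card_filter_range (P.labIs 2) 9 364 (by norm_num) (P.labIs_lt 2)
    rw [cntO2_9_0] at h
    exact h

theorem har : ∀ C ∈ (Finset.range K.P.roots.length).powerset, K.P.lab 0 ∈ C →
    (∑ c ∈ C, sz c) ∣ K.P.n → (∑ c ∈ C, sz c) = 1 ∨ (∑ c ∈ C, sz c) = K.P.n := by decide +kernel

theorem simple : IsSimpleGroup K.Grp :=
  ok.simple_of_seeds horb hBD 12597120 hprod hub sz hsz har 13 (by norm_num) (by decide) seed hs1 hs2

theorem card_eq : Nat.card K.Grp = 4585351680 :=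
  (ok.order_eq hBD 12597120 hprod hub).1.trans (by show 364 * 12597120 = _; norm_num)

theorem card_H : Nat.card K.H = 12597120 := (ok.order_eq hBD 12597120 hprod hub).2.1

theorem word_eq_one (e : WExp Cfsg.Agent.Lib.Helper35Fi22c1.Gen) (he : BD.fixChk K.P (e.app K.code K.P.iv) = true) :
    PresentedGroup.mk K.rels e.eval = 1 :=
  ok.word_eq_one hBD (ok.order_eq hBD 12597120 hprod hub).2.2 e he

end Cfsg.Agent.Lib.Helper35O73Fin
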