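import Cfsg.Agent.Lib.Helper35O73Mat

set_option autoImplicit false
set_option maxRecDepth 100000

namespace Cfsg.Agent.Lib.Helper35O73Iso

open Cfsg.Agent.Lib.Helper35TC Cfsg.Agent.Lib.Helper35Mat Cfsg.Agent.Lib.Helper35O73Mat

/-- a simple non-abelian group which maps non-trivially to a group `Γ` whose commutator subgroup
is not larger is isomorphic to `Γ' / Z(Γ')` -/
theorem iso_commutator_mod_center {S Γ : Type*} [Group S] [Group Γ] [IsSimpleGroup S] [Finite Γ]
    (hc : ¬ (Nat.card S).Prime) (ψ : S →* Γ) (hne : ∃ x, ψ x ≠ 1)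
    (hcard : Nat.card (commutator Γ) ≤ Nat.card S) :
    Nonempty (S ≃* (commutator Γ ⧸ Subgroup.center (commutator Γ))) := by
  have hperf := commutator_eq_top_of_simple hc
  have hr : ∀ x, ψ x ∈ commutator Γ := by
    intro x
    have h1 : x ∈ commutator S := by rw [hperf]; trivial
    have h2 : ψ x ∈ (commutator S).map ψ := Subgroup.mem_map_of_mem _ h1
    rw [commutator_def, Subgroup.map_commutator] at h2
    exact Subgroup.commutator_mono le_top le_top h2
  let ψ1 : S →* commutator Γ := ψ.codRestrict _ hr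
  obtain ⟨x, hx⟩ := hne
  have hne1 : ∃ x, ψ1 x ≠ 1 := ⟨x, fun h => hx (congrArg Subtype.val h)⟩
  obtain ⟨e⟩ := equiv_of_simple ψ1 hne1 hcard
  haveI : Nontrivial (commutator Γ) := e.symm.toEquiv.nontrivial
  haveI : IsSimpleGroup (commutator Γ) :=
    IsSimpleGroup.isSimpleGroup_of_surjective e.toMonoidHom e.surjective
  have hz : Subgroup.center (commutator Γ) = ⊥ :=
    center_eq_bot_of_simple (by rw [← Nat.card_congr e.toEquiv]; exact hc)
  exact ⟨e.trans ((QuotientGroup.quotientMulEquivOfEq hz).trans QuotientGroup.quotientBot).symm⟩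

theorem f_ne : ∃ x, psi0 x ≠ 1 := by
  refine ⟨PresentedGroup.of .b, ?_⟩
  rw [psi0, Pkg.Ok.homTo_of]
  intro h
  have h1 : matOf r0 = 1 := congrArg (fun z : Γ => (z.1 : Matrix J J F)) h
  exact absurd h1 (by decide +kernel)

theorem iso1 : Nonempty (K.Grp ≃* Cfsg.POmega F Qf) := by
  haveI := Cfsg.Agent.Lib.Helper35O73Fin.simple
  have hc : Nat.card K.Grp = 4585351680 := Cfsg.Agent.Lib.Helper35O73Fin.card_eq
  exact iso_commutator_mod_center (by rw [hc]; norm_num) psi0 f_ne (by rw [hc]; exact card_Omega_le)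

noncomputable abbrev KB := Cfsg.Agent.Lib.Helper35Fi22b.K

theorem hmem : ∀ e ∈ K.relExps, e.map Cfsg.Agent.Lib.Helper35Fi22Ub.i0 ∈ KB.relExps := by
  decide +kernel

noncomputable def phi : K.Grp →* KB.Grp :=
  Cfsg.Agent.Lib.Helper35O73a.ok.homOf KB Cfsg.Agent.Lib.Helper35Fi22Ub.i0
    (fun e he => Cfsg.Agent.Lib.Helper35Fi22b.ok.rel_one (hmem e he))

theorem phi_range : phi.range = KB.H := by
  apply le_antisymm
  · apply Pkg.range_le_of_gens
    intro x
    rw [phi, Pkg.Ok.homOf_of]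
    have : (PresentedGroup.of (Cfsg.Agent.Lib.Helper35Fi22Ub.i0 x) : KB.Grp) =
        PresentedGroup.mk KB.rels (WExp.of (Cfsg.Agent.Lib.Helper35Fi22Ub.i0 x)).eval := rfl
    rw [this]
    apply Cfsg.Agent.Lib.Helper35Fi22b.ok.mem_H_of_sub
    cases x <;> decide +kernel
  · apply Cfsg.Agent.Lib.Helper35Fi22b.ok.H_le
    intro e he
    obtain ⟨e', rfl⟩ := hsub_of_list Cfsg.Agent.Lib.Helper35Fi22Ub.i0 _
      [(.of .b), (.of .c), (.of .d), (.of .e), (.of .f), (.of .g), (.of .h), (.of .i)]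
      (by decide +kernel) e he
    exact ⟨PresentedGroup.mk K.rels e'.eval, Pkg.Ok.homOf_mk _ _ _ _ e'⟩

theorem phi_ne : ∃ x, phi x ≠ 1 := by
  refine ⟨PresentedGroup.of .b, ?_⟩
  rw [phi, Pkg.Ok.homOf_of]
  exact Cfsg.Agent.Lib.Helper35Fi22b.ok.mk_ne_one (.of .b) 1 (by decide +kernel) (by decide +kernel)

theorem main : Nonempty (KB.H ≃* Cfsg.POmega F Qf) := by
  haveI := Cfsg.Agent.Lib.Helper35O73Fin.simple
  obtain ⟨e⟩ := iso1
  have hi := injective_of_simple phi phi_ne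
  exact ⟨((MulEquiv.subgroupCongr phi_range.symm).trans (MonoidHom.ofInjective hi).symm).trans e⟩

end Cfsg.Agent.Lib.Helper35O73Iso
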