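import Cfsg.Agent.Lib.Helper35O73Fin
import Cfsg.Agent.Lib.Helper35Cnt
import Cfsg.Prelude.Def_Classical

set_option autoImplicit false
set_option maxRecDepth 100000

namespace Cfsg.Agent.Lib.Helper35O73Mat

open Matrix Cfsg.Agent.Lib.Helper35TC Cfsg.Agent.Lib.Helper35Mat

abbrev F := ZMod 3
abbrev J := Unit ⊕ (Fin 3 ⊕ Fin 3)
abbrev V := J → F
abbrev Qf : V → F := Cfsg.quadFormOdd 3 F
abbrev Γ : Subgroup (GL J F) := Cfsg.isometryGroup F Qf

def E : Enum J :=
  ⟨[.inl (), .inr (.inl 0), .inr (.inl 1), .inr (.inl 2), .inr (.inr 0), .inr (.inr 1),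
    .inr (.inr 2)], by decide, by
      rintro (_ | (i | i))
      · simp
      · fin_cases i <;> simp
      · fin_cases i <;> simp⟩

def pos : J → ℕ
  | .inl _ => 0
  | .inr (.inl i) => 1 + i.val
  | .inr (.inr i) => 4 + i.val

def matOf (R : List (List F)) : Matrix J J F :=
  Matrix.of fun i j => (R.getD (pos i) []).getD (pos j) 0

def vecOf (l : List F) : V := fun i => l.getD (pos i) 0

def QL : List F → F
  | [x0, x1, x2, x3, y1, y2, y3] => x0 ^ 2 + (x1 * y1 + (x2 * y2 + x3 * y3))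
  | _ => 0

theorem QL_eq (v : V) : Qf v = QL (E.en.map v) := by
  simp [Qf, Cfsg.quadFormOdd, QL, E, Fin.sum_univ_succ, add_assoc]

def al : List F := [0, 1, 2]

theorem hal : ∀ a : F, a ∈ al := by decide

def nm : List F → List F := nmL (fun a : F => a.val) (fun k => (k : F)) 3

theorem hnm (x : List F) : nm x = x :=
  nmL_eq _ _ _ (fun a => ZMod.val_lt a) (fun a => ZMod.natCast_zmod_val a) x

theorem mem_all (u : V) : E.en.map u ∈ allVecs al 7 := by
  have := mem_allVecs al hal (E.en.map u)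
  rwa [List.length_map] at this

theorem mem_of_chk (r : List (List F)) (g : GL J F) (hg : rowsOf E.en (g : Matrix J J F) = r)
    (h : ∀ l ∈ allVecs al 7, QL (mvl r l) = QL l) : g ∈ Γ := by
  intro u _
  show Qf ((g : Matrix J J F).mulVec u) = Qf u
  rw [QL_eq, QL_eq, E.map_mulVec, hg]
  exact h _ (mem_all u)

def r0 : List (List F) := [[2, 0, 0, 0, 0, 0, 0], [0, 2, 0, 0, 0, 0, 0], [0, 0, 0, 0, 0, 2, 0], [0, 0, 0, 2, 0, 0, 0], [0, 0, 0, 0, 2, 0, 0], [0, 0, 2, 0, 0, 0, 0], [0, 0, 0, 0, 0, 0, 2]]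
theorem sq0 : matOf r0 * matOf r0 = 1 := by decide +kernel
def g0 : GL J F := ⟨matOf r0, matOf r0, sq0, sq0⟩
theorem mem0 : g0 ∈ Γ := mem_of_chk r0 g0 (by decide +kernel) (by decide +kernel)
def s0 : Γ := ⟨g0, mem0⟩

def r1 : List (List F) := [[2, 0, 0, 0, 0, 0, 0], [0, 2, 0, 0, 0, 0, 0], [0, 0, 2, 0, 0, 0, 0], [0, 0, 2, 0, 0, 0, 2], [0, 0, 0, 0, 2, 0, 0], [0, 0, 2, 1, 0, 2, 2], [0, 0, 1, 2, 0, 0, 0]]
theorem sq1 : matOf r1 * matOf r1 = 1 := by decide +kernel
def g1 : GL J F := ⟨matOf r1, matOf r1, sq1, sq1⟩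
theorem mem1 : g1 ∈ Γ := mem_of_chk r1 g1 (by decide +kernel) (by decide +kernel)
def s1 : Γ := ⟨g1, mem1⟩

def r2 : List (List F) := [[2, 0, 0, 0, 0, 0, 0], [0, 2, 0, 0, 0, 0, 0], [0, 0, 2, 0, 0, 0, 0], [0, 0, 0, 0, 0, 0, 2], [0, 0, 0, 0, 2, 0, 0], [0, 0, 0, 0, 0, 2, 0], [0, 0, 0, 2, 0, 0, 0]]
theorem sq2 : matOf r2 * matOf r2 = 1 := by decide +kernel
def g2 : GL J F := ⟨matOf r2, matOf r2, sq2, sq2⟩
theorem mem2 : g2 ∈ Γ := mem_of_chk r2 g2 (by decide +kernel) (by decide +kernel)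
def s2 : Γ := ⟨g2, mem2⟩

def r3 : List (List F) := [[2, 0, 0, 0, 0, 0, 0], [0, 1, 2, 1, 2, 2, 0], [0, 2, 1, 1, 2, 2, 0], [0, 0, 0, 2, 0, 0, 0], [0, 2, 2, 1, 1, 2, 0], [0, 2, 2, 1, 2, 1, 0], [0, 1, 1, 2, 1, 1, 2]]
theorem sq3 : matOf r3 * matOf r3 = 1 := by decide +kernel
def g3 : GL J F := ⟨matOf r3, matOf r3, sq3, sq3⟩
theorem mem3 : g3 ∈ Γ := mem_of_chk r3 g3 (by decide +kernel) (by decide +kernel)
def s3 : Γ := ⟨g3, mem3⟩

def r4 : List (List F) := [[0, 0, 0, 2, 0, 0, 2], [0, 2, 0, 0, 0, 0, 0], [0, 0, 2, 0, 0, 0, 0], [1, 0, 0, 1, 0, 0, 2], [0, 0, 0, 0, 2, 0, 0], [0, 0, 0, 0, 0, 2, 0], [1, 0, 0, 2, 0, 0, 1]]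
theorem sq4 : matOf r4 * matOf r4 = 1 := by decide +kernel
def g4 : GL J F := ⟨matOf r4, matOf r4, sq4, sq4⟩
theorem mem4 : g4 ∈ Γ := mem_of_chk r4 g4 (by decide +kernel) (by decide +kernel)
def s4 : Γ := ⟨g4, mem4⟩

def r5 : List (List F) := [[2, 0, 0, 0, 0, 0, 0], [0, 1, 0, 1, 2, 0, 1], [0, 0, 2, 0, 0, 0, 0], [0, 1, 0, 1, 1, 0, 2], [0, 2, 0, 1, 1, 0, 1], [0, 0, 0, 0, 0, 2, 0], [0, 1, 0, 2, 1, 0, 1]]
theorem sq5 : matOf r5 * matOf r5 = 1 := by decide +kernel
def g5 : GL J F := ⟨matOf r5, matOf r5, sq5, sq5⟩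
theorem mem5 : g5 ∈ Γ := mem_of_chk r5 g5 (by decide +kernel) (by decide +kernel)
def s5 : Γ := ⟨g5, mem5⟩

def r6 : List (List F) := [[2, 0, 0, 0, 0, 0, 0], [0, 0, 2, 2, 2, 2, 1], [0, 1, 1, 2, 2, 2, 1], [0, 2, 1, 0, 1, 1, 2], [0, 2, 1, 1, 0, 1, 2], [0, 1, 2, 2, 2, 1, 1], [0, 1, 2, 2, 2, 2, 0]]
theorem sq6 : matOf r6 * matOf r6 = 1 := by decide +kernel
def g6 : GL J F := ⟨matOf r6, matOf r6, sq6, sq6⟩
theorem mem6 : g6 ∈ Γ := mem_of_chk r6 g6 (by decide +kernel) (by decide +kernel)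
def s6 : Γ := ⟨g6, mem6⟩

def r7 : List (List F) := [[2, 0, 0, 0, 0, 0, 0], [0, 0, 0, 0, 2, 0, 0], [0, 0, 2, 0, 0, 0, 0], [0, 0, 0, 2, 0, 0, 0], [0, 2, 0, 0, 0, 0, 0], [0, 0, 0, 0, 0, 2, 0], [0, 0, 0, 0, 0, 0, 2]]
theorem sq7 : matOf r7 * matOf r7 = 1 := by decide +kernel
def g7 : GL J F := ⟨matOf r7, matOf r7, sq7, sq7⟩
theorem mem7 : g7 ∈ Γ := mem_of_chk r7 g7 (by decide +kernel) (by decide +kernel)
def s7 : Γ := ⟨g7, mem7⟩

def rm : List (List F) := [[2, 0, 0, 0, 0, 0, 0], [0, 2, 0, 0, 0, 0, 0], [0, 0, 2, 0, 0, 0, 0], [0, 0, 0, 2, 0, 0, 0], [0, 0, 0, 0, 2, 0, 0], [0, 0, 0, 0, 0, 2, 0], [0, 0, 0, 0, 0, 0, 2]]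
theorem sqm : matOf rm * matOf rm = 1 := by decide +kernel
def gm : GL J F := ⟨matOf rm, matOf rm, sqm, sqm⟩
theorem memm : gm ∈ Γ := mem_of_chk rm gm (by decide +kernel) (by decide +kernel)
def sm : Γ := ⟨gm, memm⟩

def rr : List (List F) := [[2, 0, 0, 0, 0, 0, 0], [0, 1, 0, 0, 0, 0, 0], [0, 0, 1, 0, 0, 0, 0], [0, 0, 0, 1, 0, 0, 0], [0, 0, 0, 0, 1, 0, 0], [0, 0, 0, 0, 0, 1, 0], [0, 0, 0, 0, 0, 0, 1]]
theorem sqr : matOf rr * matOf rr = 1 := by decide +kernel
def gr : GL J F := ⟨matOf rr, matOf rr, sqr, sqr⟩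
theorem memr : gr ∈ Γ := mem_of_chk rr gr (by decide +kernel) (by decide +kernel)
def sr : Γ := ⟨gr, memr⟩

def tabs : List (List (List F)) := [r0, r1, r2, r3, r4, r5, r6, r7]
def vals : List Γ := [s0, s1, s2, s3, s4, s5, s6, s7]
def ivl : List ℕ := [0, 1, 2, 3, 4, 5, 6, 7]

def rho : Γ →* Matrix J J F := (Units.coeHom _).comp Γ.subtype

theorem rho_inj : Function.Injective rho := fun _ _ h => Subtype.ext (Units.ext h)

def tab (l : ℕ) : List (List F) := tabs.getD l []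

abbrev code := Cfsg.Agent.Lib.Helper35O73a.code
noncomputable abbrev K := Cfsg.Agent.Lib.Helper35O73a.K

theorem hiv : ∀ l < vals.length, vals.getD (ivl.getD l l) 1 * vals.getD l 1 = 1 := by
  intro l hl
  have hl' : l < 8 := hl
  interval_cases l
  · exact Subtype.ext (Units.ext sq0)
  · exact Subtype.ext (Units.ext sq1)
  · exact Subtype.ext (Units.ext sq2)
  · exact Subtype.ext (Units.ext sq3)
  · exact Subtype.ext (Units.ext sq4)
  · exact Subtype.ext (Units.ext sq5)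
  · exact Subtype.ext (Units.ext sq6)
  · exact Subtype.ext (Units.ext sq7)

theorem htab : ∀ l < vals.length, rowsOf E.en (rho (vals.getD l 1)) = tab l := by
  decide +kernel

theorem hchk : ∀ e ∈ K.relExps,
    (∀ l ∈ e.app code (fun l => ivl.getD l l), l < vals.length) ∧
    ∀ j ∈ E.en, walkV nm tab (e.app code (fun l => ivl.getD l l))
      (E.en.map (Pi.single j 1)) = E.en.map (Pi.single j 1) := by
  decide +kernel

def f (a : Cfsg.Agent.Lib.Helper35Fi22c1.Gen) : Γ := vals.getD (code a) 1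

theorem hrel : ∀ e ∈ K.relExps, e.evalIn f = 1 := by
  intro e he
  obtain ⟨hw, hj⟩ := hchk e he
  apply rho_inj
  have h1 := evalIn_scalar E rho nm hnm vals ivl rfl hiv tab htab code e 1 hw hj
  rw [map_one]
  exact h1.trans (by simp)

noncomputable def psi0 : K.Grp →* Γ := Cfsg.Agent.Lib.Helper35O73a.ok.homTo f hrel

/-! ### the order of the isometry group -/

noncomputable def act : Γ →* Equiv.Perm V := matPerm rho

theorem Q_act (g : Γ) (v : V) : Qf (act g v) = Qf v := g.2 v v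

theorem act_add (g : Γ) (u v : V) : act g (u + v) = act g u + act g v := by
  show (rho g).mulVec (u + v) = (rho g).mulVec u + (rho g).mulVec v
  exact Matrix.mulVec_add _ _ _

def cond (fs : List V) (x w : V) : Prop := Qf w = Qf x ∧ ∀ y ∈ fs, Qf (w + y) = Qf (x + y)

instance (fs : List V) (x : V) : DecidablePred (cond fs x) := fun w => by
  unfold cond; infer_instance

def SS (fs : List V) (x : V) : Finset V := Finset.univ.filter (cond fs x)

theorem hSS : ∀ (fs : List V) (x : V) (g : Γ), (∀ y ∈ fs, act g y = y) → act g x ∈ SS fs x := by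
  intro fs x g h
  simp only [SS, Finset.mem_filter, Finset.mem_univ, true_and]
  refine ⟨Q_act g x, fun y hy => ?_⟩
  have : act g x + y = act g (x + y) := by rw [act_add, h y hy]
  rw [this, Q_act]

def addL (a b : List F) : List F := List.zipWith (· + ·) a b

theorem map_add' (u v : V) : E.en.map (u + v) = addL (E.en.map u) (E.en.map v) := by
  simp [addL, E]

def condL (fsL : List (List F)) (xL l : List F) : Bool :=
  (QL l == QL xL) && fsL.all (fun y => QL (addL l y) == QL (addL xL y))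

theorem card_SS_le (fs : List V) (x : V) :
    (SS fs x).card ≤ (allVecs al 7).countP (condL (fs.map (fun y => E.en.map y)) (E.en.map x)) := by
  apply card_filter_le E al hal
  intro v hv
  obtain ⟨h1, h2⟩ := hv
  simp only [condL, Bool.and_eq_true, beq_iff_eq, List.all_eq_true, List.mem_map]
  refine ⟨by rw [← QL_eq, ← QL_eq, h1], ?_⟩
  rintro _ ⟨y, hy, rfl⟩
  rw [← map_add', ← map_add', ← QL_eq, ← QL_eq, h2 y hy]

def b0 : V := vecOf [1, 0, 0, 0, 0, 0, 0]
def b1 : V := vecOf [0, 1, 0, 0, 1, 0, 0]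
def b2 : V := vecOf [0, 0, 1, 0, 0, 1, 0]
def b3 : V := vecOf [0, 0, 0, 1, 0, 0, 1]
def b4 : V := vecOf [0, 1, 0, 0, 2, 0, 0]
def b5 : V := vecOf [0, 0, 1, 0, 0, 2, 0]
def b6 : V := vecOf [0, 0, 0, 1, 0, 0, 2]

def todo : List (V × ℕ) := [(b0, 756), (b1, 234), (b2, 72), (b3, 30), (b4, 6), (b5, 4), (b6, 2)]

theorem hcards : cardsOK SS todo [] := by
  refine ⟨?_, ?_, ?_, ?_, ?_, ?_, ?_, trivial⟩
  · exact (card_SS_le _ _).trans (by decide +kernel)
  · exact (card_SS_le _ _).trans (by decide +kernel)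
  · exact (card_SS_le _ _).trans (by decide +kernel)
  · exact (card_SS_le _ _).trans (by decide +kernel)
  · exact (card_SS_le _ _).trans (by decide +kernel)
  · exact (card_SS_le _ _).trans (by decide +kernel)
  · exact (card_SS_le _ _).trans (by decide +kernel)

def MB : Matrix J J F := matOf [[1, 0, 0, 0, 0, 0, 0], [0, 1, 0, 0, 1, 0, 0], [0, 0, 1, 0, 0, 1, 0], [0, 0, 0, 1, 0, 0, 1], [0, 1, 0, 0, 2, 0, 0], [0, 0, 1, 0, 0, 2, 0], [0, 0, 0, 1, 0, 0, 2]]
def MB' : Matrix J J F := matOf [[1, 0, 0, 0, 0, 0, 0], [0, 2, 0, 0, 2, 0, 0], [0, 0, 2, 0, 0, 2, 0], [0, 0, 0, 2, 0, 0, 2], [0, 2, 0, 0, 1, 0, 0], [0, 0, 2, 0, 0, 1, 0], [0, 0, 0, 2, 0, 0, 1]]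

theorem fix_one (g : Γ) (h : ∀ y ∈ todo, act g y.1 = y.1) : g = 1 := by
  apply rho_inj
  rw [map_one]
  apply eq_one_of_fix_cols (rho g) MB MB' (by decide +kernel)
  intro j
  have h1 : (fun i => MB i j) ∈ todo.map Prod.fst := by
    revert j
    decide +kernel
  obtain ⟨y, hy, hyj⟩ := List.mem_map.mp h1
  rw [← hyj]
  exact h y hy

theorem card_le : Nat.card Γ ≤ 18341406720 := by
  have h := (Chain.ofList act SS hSS todo [] ⊤ (by simp) hcards
    (fun g _ _ h => fix_one g h)).card_le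
  rw [Subgroup.card_top] at h
  exact h.trans (by decide +kernel)

/-! ### two characters -/

def P1 (v : V) : Prop := Qf v = 1

instance : DecidablePred P1 := fun v => inferInstanceAs (Decidable (Qf v = 1))

theorem hP1 : ∀ (g : Γ) (v : V), P1 v → P1 (act g v) := fun g v h => (Q_act g v).trans h

noncomputable def chi1 : Γ →* ℤˣ := Equiv.Perm.sign.comp (subPerm act P1 hP1)

noncomputable def chi2 : Γ →* Fˣ := Matrix.GeneralLinearGroup.det.comp Γ.subtype

def supL (r : List (List F)) (l : List F) : Bool := (QL l == 1) && (mvl r l != l)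

theorem sup_iff (g : Γ) (r : List (List F)) (hg : rowsOf E.en (rho g) = r) (v : V) :
    (P1 v ∧ act g v ≠ v) ↔ supL r (E.en.map v) = true := by
  have h1 : act g v = v ↔ mvl r (E.en.map v) = E.en.map v := by
    rw [← hg, ← E.map_mulVec]
    exact ⟨fun h => congrArg (fun w : V => E.en.map w) h, fun h => E.map_inj h⟩
  simp only [supL, Bool.and_eq_true, beq_iff_eq, bne_iff_ne, ne_eq, P1, QL_eq, h1]

theorem card_V : Fintype.card V = 2187 := by
  simp [ZMod.card]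

theorem sup_card (g : Γ) (r : List (List F)) (hg : rowsOf E.en (rho g) = r) (a b : ℕ)
    (ha : (allVecs al 7).countP (supL r) ≤ a)
    (hb : (allVecs al 7).countP (fun l => !supL r l) ≤ b) (hab : a + b = 2187) :
    (subPerm act P1 hP1 g).support.card = a := by
  rw [support_subPerm_card]
  apply card_filter_eq _ a b
  · exact (card_filter_le E al hal _ (supL r) (fun v hv => (sup_iff g r hg v).1 hv)).trans ha
  · refine (card_filter_le E al hal _ (fun l => !supL r l) (fun v hv => ?_)).trans hb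
    rw [sup_iff g r hg v] at hv
    simpa using hv
  · rw [hab, card_V]

theorem chi1_r : chi1 sr = -1 := by
  have h := sign_of_sq (subPerm act P1 hP1 sr) (by
    rw [← map_pow]
    have : sr ^ 2 = 1 := by rw [pow_two]; exact Subtype.ext (Units.ext sqr)
    rw [this, map_one]) 261
    (sup_card sr rr (by decide +kernel) 522 1665 (by decide +kernel) (by decide +kernel) rfl)
  exact h.trans (by decide)

theorem chi1_m : chi1 sm = 1 := by
  have h := sign_of_sq (subPerm act P1 hP1 sm) (by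
    rw [← map_pow]
    have : sm ^ 2 = 1 := by rw [pow_two]; exact Subtype.ext (Units.ext sqm)
    rw [this, map_one]) 378
    (sup_card sm rm (by decide +kernel) 756 1431 (by decide +kernel) (by decide +kernel) rfl)
  exact h.trans (by decide)

theorem chi2_m : chi2 sm ≠ 1 := by
  intro h
  have h1 : (matOf rm).det = 1 := congrArg Units.val h
  have h2 : matOf rm = -1 := by decide +kernel
  rw [h2, Matrix.det_neg, Matrix.det_one] at h1
  simp at h1
  exact absurd h1 (by decide)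

theorem card_Omega_le : Nat.card (commutator Γ) ≤ 4585351680 := by
  have h1 := four_mul_card_commutator_le chi1 chi2 sr sm (by rw [chi1_r]; decide) chi1_m chi2_m
  have h2 := card_le
  omega

end Cfsg.Agent.Lib.Helper35O73Mat
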