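import Cfsg.Agent.Lib.Helper35O73a

set_option autoImplicit false
set_option maxRecDepth 100000

namespace Cfsg.Agent.Lib.Helper35O73a

open Cfsg.Agent.Lib.Helper35TC

theorem chkU_10_0 : allD U.chkRow 10 0 = true := by decide +kernel
theorem cntU_10_0 : cntD U.live 10 0 = 364 := by decide +kernel
theorem chkP_9_0 : allD P.chkPt 9 0 = true := by decide +kernel
theorem chkO_9_0 : allD P.chkOrb 9 0 = true := by decide +kernel
theorem cntO0_9_0 : cntD (P.labIs 0) 9 0 = 1 := by decide +kernel
theorem cntO1_9_0 : cntD (P.labIs 1) 9 0 = 243 := by decide +kernel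
theorem cntO2_9_0 : cntD (P.labIs 2) 9 0 = 120 := by decide +kernel

end Cfsg.Agent.Lib.Helper35O73a
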