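import Cfsg.Agent.Lib.Helper35O73aChk0
import Cfsg.Agent.Lib.Helper35Fi22c1Main

set_option autoImplicit false
set_option maxRecDepth 100000

namespace Cfsg.Agent.Lib.Helper35O73a

open Cfsg.Agent.Lib.Helper35TC

open Cfsg.Spor


def extraExps : List (WExp Cfsg.Agent.Lib.Helper35Fi22c1.Gen) := [
  (.pow (.mul (.mul (.mul (.mul (.mul (.mul (.mul (.mul (.of .d) (.of .c)) (.of .b)) (.of .d)) (.of .e)) (.of .f)) (.of .d)) (.of .h)) (.of .i)) 10),
  (.pow (.mul (.mul (.mul (.mul (.mul (.mul (.of .b) (.of .c)) (.of .d)) (.of .e)) (.of .f)) (.of .g)) (.of .h)) 9)]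

def subExps : List (WExp Cfsg.Agent.Lib.Helper35Fi22c1.Gen) := [
  (.of .b),
  (.of .c),
  (.of .d),
  (.of .e),
  (.of .f),
  (.of .h),
  (.of .i)]

def code : Cfsg.Agent.Lib.Helper35Fi22c1.Gen → ℕ
  | .b => 0
  | .c => 1
  | .d => 2
  | .e => 3
  | .f => 4
  | .g => 5
  | .h => 6
  | .i => 7

noncomputable def K : Pkg Cfsg.Agent.Lib.Helper35Fi22c1.Gen where
  rels := coxRelators Cfsg.Agent.Lib.Helper35Fi22c1.edges ∪ {r | r ∈ Cfsg.Agent.Lib.Helper35Fi22c1.extra}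
  S := {s | ∃ e ∈ subExps, s = e.eval}
  relExps := coxExps Cfsg.Agent.Lib.Helper35Fi22c1.edges ++ extraExps
  subExps := subExps
  code := code
  letters := [FreeGroup.of Cfsg.Agent.Lib.Helper35Fi22c1.Gen.b, FreeGroup.of Cfsg.Agent.Lib.Helper35Fi22c1.Gen.c, FreeGroup.of Cfsg.Agent.Lib.Helper35Fi22c1.Gen.d, FreeGroup.of Cfsg.Agent.Lib.Helper35Fi22c1.Gen.e, FreeGroup.of Cfsg.Agent.Lib.Helper35Fi22c1.Gen.f, FreeGroup.of Cfsg.Agent.Lib.Helper35Fi22c1.Gen.g, FreeGroup.of Cfsg.Agent.Lib.Helper35Fi22c1.Gen.h, FreeGroup.of Cfsg.Agent.Lib.Helper35Fi22c1.Gen.i]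
  U := U
  rotT := tR
  rotSrc := rotSrc
  relWords := relWords
  P := P

theorem hS : ∀ s, s ∈ K.S ↔ ∃ e ∈ K.subExps, s = e.eval := fun _ => Iff.rfl

theorem hsurj : ∀ l < K.P.L, ∃ x, l = K.code x ∨ l = K.P.iv (K.code x) := by
  intro l hl
  have hl' : l < 8 := hl
  interval_cases l
  · exact ⟨.b, Or.inl rfl⟩
  · exact ⟨.c, Or.inl rfl⟩
  · exact ⟨.d, Or.inl rfl⟩
  · exact ⟨.e, Or.inl rfl⟩
  · exact ⟨.f, Or.inl rfl⟩
  · exact ⟨.g, Or.inl rfl⟩
  · exact ⟨.h, Or.inl rfl⟩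
  · exact ⟨.i, Or.inl rfl⟩

theorem hvalG_lt : ∀ l < K.P.L, K.valG (K.P.iv l) * K.valG l = 1 := by
  intro l hl
  have hl' : l < 8 := hl
  interval_cases l
  · exact cox_sq Cfsg.Agent.Lib.Helper35Fi22c1.edges _ .b (by decide)
  · exact cox_sq Cfsg.Agent.Lib.Helper35Fi22c1.edges _ .c (by decide)
  · exact cox_sq Cfsg.Agent.Lib.Helper35Fi22c1.edges _ .d (by decide)
  · exact cox_sq Cfsg.Agent.Lib.Helper35Fi22c1.edges _ .e (by decide)
  · exact cox_sq Cfsg.Agent.Lib.Helper35Fi22c1.edges _ .f (by decide)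
  · exact cox_sq Cfsg.Agent.Lib.Helper35Fi22c1.edges _ .g (by decide)
  · exact cox_sq Cfsg.Agent.Lib.Helper35Fi22c1.edges _ .h (by decide)
  · exact cox_sq Cfsg.Agent.Lib.Helper35Fi22c1.edges _ .i (by decide)

theorem hP : K.P.Valid where
  hn := by decide
  hlen := rfl
  hiv := by decide
  hpt := all_of_allD _ 9 364 (by norm_num) chkP_9_0
  hmacL := by decide
  hrelL := by decide

theorem ok : K.Ok where
  hrels := hrels_of Cfsg.Agent.Lib.Helper35Fi22c1.edges Cfsg.Agent.Lib.Helper35Fi22c1.extra extraExps rfl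
  hS := hS
  hcodeL := by intro x; cases x <;> decide
  hletters := by intro x; cases x <;> rfl
  hsurj := hsurj
  hvalG := Pkg.hvalG_of rfl rfl hvalG_lt
  hP := hP
  hpairs := by decide +kernel
  hsubsP := by decide +kernel
  hsub0 := by decide +kernel
  hUL := rfl
  hUN := by decide
  hrot := rfl
  hrotT := by decide +kernel
  hrelW := by decide +kernel
  hUsub := fun _ => rfl
  hchk := all_of_allD _ 10 606 (by norm_num) chkU_10_0
  hcnt := by
    have h := card_filter_range U.live 10 606 (by norm_num) U.live_lt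
    rw [cntU_10_0] at h
    exact le_of_eq h

theorem horb : ∀ j < K.P.n, K.P.chkOrb j = true :=
  all_of_allD _ 9 364 (by norm_num) chkO_9_0

theorem orbit0 : ∃ q : K.Grp ⧸ K.H,
    (∀ q', q' ∈ MulAction.orbit K.H q ↔ K.P.lab (ok.thetaFun q') = 0) ∧
    (MulAction.orbit K.H q).ncard = 1 := by
  obtain ⟨q, h1, h2⟩ := ok.orbit_spec horb 0 0 (by decide +kernel) (by decide) (by decide +kernel)
  refine ⟨q, h1, ?_⟩
  have h := card_filter_range (P.labIs 0) 9 364 (by norm_num) (P.labIs_lt 0)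
  rw [cntO0_9_0] at h
  exact h2.trans h

theorem orbit1 : ∃ q : K.Grp ⧸ K.H,
    (∀ q', q' ∈ MulAction.orbit K.H q ↔ K.P.lab (ok.thetaFun q') = 1) ∧
    (MulAction.orbit K.H q).ncard = 243 := by
  obtain ⟨q, h1, h2⟩ := ok.orbit_spec horb 1 1 (by decide +kernel) (by decide) (by decide +kernel)
  refine ⟨q, h1, ?_⟩
  have h := card_filter_range (P.labIs 1) 9 364 (by norm_num) (P.labIs_lt 1)
  rw [cntO1_9_0] at h
  exact h2.trans h

theorem orbit2 : ∃ q : K.Grp ⧸ K.H,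
    (∀ q', q' ∈ MulAction.orbit K.H q ↔ K.P.lab (ok.thetaFun q') = 2) ∧
    (MulAction.orbit K.H q).ncard = 120 := by
  obtain ⟨q, h1, h2⟩ := ok.orbit_spec horb 2 100 (by decide +kernel) (by decide) (by decide +kernel)
  refine ⟨q, h1, ?_⟩
  have h := card_filter_range (P.labIs 2) 9 364 (by norm_num) (P.labIs_lt 2)
  rw [cntO2_9_0] at h
  exact h2.trans h

end Cfsg.Agent.Lib.Helper35O73a
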