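import Cfsg.Agent.Lib.Helper47StemA

set_option autoImplicit false

/-! Stem extensions of a simple presented group from generators satisfying the relators up to a
central subgroup; bound for the kernel of a stem extension of a presented group. -/

namespace Cfsg.Agent.Lib.Helper47StemB

open Cfsg.Agent.Lib.Helper47StemA

theorem stem_of_gens {α : Type*} {rels : Set (FreeGroup α)}
    (hsimple : IsSimpleGroup (PresentedGroup rels)) {Γ : Type*} [Group Γ] (v : α → Γ)
    (hgen : Subgroup.closure (Set.range v) = ⊤) (Z : Subgroup Γ) (hZc : Z ≤ Subgroup.center Γ)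
    (hrel : ∀ r ∈ rels, FreeGroup.lift v r ∈ Z) (hperf : commutator Γ = ⊤) (hne : Z ≠ ⊤) :
    ∃ σ : Γ →* PresentedGroup rels, Cfsg.IsStemExtension σ ∧ σ.ker = Z := by
  have : Z.Normal := ⟨fun n hn g => by
    have := Subgroup.mem_center_iff.mp (hZc hn) g
    rw [this, mul_inv_cancel_right]
    exact hn⟩
  have hr : ∀ r ∈ rels, FreeGroup.lift (fun a => (QuotientGroup.mk' Z) (v a)) r = 1 := by
    intro r hr
    have e : FreeGroup.lift (fun a => (QuotientGroup.mk' Z) (v a))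
        = (QuotientGroup.mk' Z).comp (FreeGroup.lift v) := by
      ext a
      simp
    rw [e, MonoidHom.comp_apply]
    exact (QuotientGroup.eq_one_iff _).mpr (hrel r hr)
  let τ : PresentedGroup rels →* Γ ⧸ Z := PresentedGroup.toGroup hr
  have hτ : ∀ a, τ (PresentedGroup.of a) = (QuotientGroup.mk' Z) (v a) := fun a =>
    PresentedGroup.toGroup.of hr
  have hsurj : Function.Surjective τ := by
    rw [← MonoidHom.range_eq_top, eq_top_iff]
    have h1 : (Subgroup.closure (Set.range v)).map (QuotientGroup.mk' Z) ≤ τ.range := by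
      rw [MonoidHom.map_closure, Subgroup.closure_le]
      rintro _ ⟨_, ⟨a, rfl⟩, rfl⟩
      exact ⟨PresentedGroup.of a, hτ a⟩
    rw [hgen] at h1
    intro q _
    obtain ⟨γ, rfl⟩ := QuotientGroup.mk'_surjective Z q
    exact h1 ⟨γ, trivial, rfl⟩
  have hinj : Function.Injective τ := by
    rw [← MonoidHom.ker_eq_bot_iff]
    rcases hsimple.eq_bot_or_eq_top_of_normal τ.ker inferInstance with h | h
    · exact h
    · exfalso
      apply hne
      rw [eq_top_iff]
      intro γ _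
      obtain ⟨g, hg⟩ := hsurj ((QuotientGroup.mk' Z) γ)
      have : τ g = 1 := by
        have : g ∈ τ.ker := by rw [h]; trivial
        exact this
      rw [this] at hg
      exact (QuotientGroup.eq_one_iff γ).mp hg.symm
  let e : PresentedGroup rels ≃* Γ ⧸ Z := MulEquiv.ofBijective τ ⟨hinj, hsurj⟩
  let σ : Γ →* PresentedGroup rels := e.symm.toMonoidHom.comp (QuotientGroup.mk' Z)
  have hker : σ.ker = Z := by
    ext γ
    rw [MonoidHom.mem_ker]
    show e.symm ((QuotientGroup.mk' Z) γ) = 1 ↔ _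
    rw [MulEquiv.map_eq_one_iff]
    exact QuotientGroup.eq_one_iff γ
  refine ⟨σ, ⟨?_, ?_, ?_⟩, hker⟩
  · exact e.symm.surjective.comp (QuotientGroup.mk'_surjective Z)
  · rw [hker]; exact hZc
  · rw [hperf]; exact le_top

/-- the kernel of a stem extension of a presented group is generated by the values of the
relators on any lifts of the generators -/
theorem ker_le_of_section {α : Type*} {rels : Set (FreeGroup α)} {Γ : Type*} [Group Γ]
    (σ : Γ →* PresentedGroup rels) (hσ : Cfsg.IsStemExtension σ) (f : α → Γ)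
    (hf : ∀ a, σ (f a) = PresentedGroup.of a) (B : Subgroup Γ) (hB : B ≤ Subgroup.center Γ)
    (hr : ∀ r ∈ rels, FreeGroup.lift f r ∈ B) : σ.ker ≤ B := by
  obtain ⟨-, hc, hd⟩ := hσ
  have : B.Normal := ⟨fun n hn g => by
    have := Subgroup.mem_center_iff.mp (hB hn) g
    rw [this, mul_inv_cancel_right]
    exact hn⟩
  have hcomp : ∀ w, σ (FreeGroup.lift f w) = PresentedGroup.mk rels w := by
    intro w
    have : σ.comp (FreeGroup.lift f) = PresentedGroup.mk rels := by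
      ext a
      simp [hf]
      rfl
    exact DFunLike.congr_fun this w
  have hdec : ∀ γ : Γ, ∃ w, ∃ a ∈ Subgroup.center Γ, γ = FreeGroup.lift f w * a := by
    intro γ
    obtain ⟨w, hw⟩ := QuotientGroup.mk'_surjective _ (σ γ)
    refine ⟨w, (FreeGroup.lift f w)⁻¹ * γ, hc ?_, by group⟩
    rw [MonoidHom.mem_ker, map_mul, map_inv, hcomp]
    have : PresentedGroup.mk rels w = σ γ := hw
    rw [this, inv_mul_cancel]
  have hcomm : commutator Γ ≤ (FreeGroup.lift f).range := by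
    rw [commutator_eq_closure, Subgroup.closure_le]
    rintro _ ⟨γ₁, γ₂, rfl⟩
    obtain ⟨w₁, a₁, ha₁, h₁⟩ := hdec γ₁
    obtain ⟨w₂, a₂, ha₂, h₂⟩ := hdec γ₂
    refine ⟨w₁ * w₂ * w₁⁻¹ * w₂⁻¹, ?_⟩
    rw [map_mul, map_mul, map_mul, map_inv, map_inv]
    generalize FreeGroup.lift f w₁ = u₁ at h₁
    generalize FreeGroup.lift f w₂ = u₂ at h₂
    rw [h₁, h₂, commutatorElement_def]
    have c₁ := Subgroup.mem_center_iff.mp ha₁
    have c₂ := Subgroup.mem_center_iff.mp ha₂
    calc u₁ * u₂ * u₁⁻¹ * u₂⁻¹ = u₁ * u₂ * u₁⁻¹ * u₂⁻¹ * (a₁ * a₁⁻¹) * (a₂ * a₂⁻¹) := by group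
      _ = u₁ * a₁ * (u₂ * a₂) * (u₁ * a₁)⁻¹ * (u₂ * a₂)⁻¹ := by
        rw [mul_inv_rev, mul_inv_rev]
        have e1 : u₁ * a₁ * (u₂ * a₂) * (a₁⁻¹ * u₁⁻¹) * (a₂⁻¹ * u₂⁻¹)
            = u₁ * (a₁ * u₂) * (a₂ * a₁⁻¹) * u₁⁻¹ * a₂⁻¹ * u₂⁻¹ := by group
        rw [e1, ← c₁ u₂, ← c₂ a₁⁻¹]
        have e2 : u₁ * (u₂ * a₁) * (a₁⁻¹ * a₂) * u₁⁻¹ * a₂⁻¹ * u₂⁻¹
            = u₁ * u₂ * (a₂ * u₁⁻¹) * a₂⁻¹ * u₂⁻¹ := by group
        rw [e2, ← c₂ u₁⁻¹]
        group
  intro a ha
  obtain ⟨w, rfl⟩ := hcomm (hd ha)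
  rw [MonoidHom.mem_ker, hcomp] at ha
  have hw : w ∈ Subgroup.normalClosure rels := (QuotientGroup.eq_one_iff w).mp ha
  have hle : Subgroup.normalClosure rels ≤ B.comap (FreeGroup.lift f) :=
    Subgroup.normalClosure_le_normal (fun r hr' => hr r hr')
  exact hle hw

/-- a surjection from the cyclic group of order `n` onto a group generated by an element `t`
with `t ^ n = 1` -/
theorem exists_surj_of_zpowers {A : Type*} [Group A] (n : ℕ) (t : A) (ht : t ^ n = 1)
    (hA : ∀ a : A, a ∈ Subgroup.zpowers t) :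
    ∃ π : Multiplicative (ZMod n) →* A, Function.Surjective π := by
  let φ : ℤ →+ Additive A := (zmultiplesHom (Additive A)) (Additive.ofMul t)
  have hφ : ∀ k : ℤ, φ k = Additive.ofMul (t ^ k) := fun k => by
    show k • Additive.ofMul t = _
    rfl
  have h0 : φ (n : ℤ) = 0 := by
    rw [hφ, zpow_natCast, ht]
    rfl
  let ψ : ZMod n →+ Additive A := ZMod.lift n ⟨φ, h0⟩
  refine ⟨AddMonoidHom.toMultiplicativeLeft ψ, ?_⟩
  intro a
  obtain ⟨k, hk⟩ := Subgroup.mem_zpowers_iff.mp (hA a)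
  refine ⟨Multiplicative.ofAdd (k : ZMod n), ?_⟩
  show Additive.toMul (ψ (k : ZMod n)) = a
  have : ψ (k : ZMod n) = φ k := ZMod.lift_coe n ⟨φ, h0⟩ k
  rw [this, hφ]
  exact hk

end Cfsg.Agent.Lib.Helper47StemB
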