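import Cfsg.Agent.Lib.Helper35ON3V
import Cfsg.Agent.Lib.Helper35ONFin
import Cfsg.Agent.Lib.Helper35Iso
import Cfsg.Agent.Lib.Helper47StemB

set_option autoImplicit false
set_option maxRecDepth 100000

/-! A stem extension of the O'Nan group with kernel of order three, as a group of permutations of
`368280 = 3 * 122760` points. -/

namespace Cfsg.Agent.Lib.Helper35ON3B

open Cfsg.Agent.Lib.Helper35TC Cfsg.Agent.Lib.Helper35ON3

abbrev Gen := Cfsg.Spor.ON.Gen

noncomputable abbrev K := Cfsg.Agent.Lib.Helper35ONa.K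

abbrev Sy : Type := Equiv.Perm (Fin P.n)

noncomputable def val (l : ℕ) : Sy := hP.val l

theorem val_iv (l : ℕ) : val (P.iv l) = (val l)⁻¹ := hP.val_iv l

noncomputable def vv (s : Gen) : Sy := val (K.code s)

/-- the word of the central element -/
def zw : List ℕ := macrosW.getD 0 []

noncomputable def zz : Sy := wordVal val zw

theorem evalIn_vv (e : WExp Gen) : e.evalIn vv = wordVal val (e.app K.code P.iv) := by
  rw [← WExp.lift_eval]
  exact eval_eq_wordVal val K.code P.iv val_iv (FreeGroup.lift vv) (fun a => by simp [vv]) e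

/-- every relator of the O'Nan presentation is checked to be `1` or the central element -/
theorem hcase : ∀ e ∈ K.relExps,
    ((e.app K.code P.iv = (e.app K.code P.iv).take ((e.app K.code P.iv).length / 2) ++
        invRev P.iv ((e.app K.code P.iv).take ((e.app K.code P.iv).length / 2))) ∨
      ∃ p ∈ P.relPairs, ∃ k < 2,
        (e.app K.code P.iv).rotate k = P.expand p.1 ++ invRev P.iv (P.expand p.2)) ∨
    (e.app K.code P.iv = zw ∨ (e.app K.code P.iv, [11]) ∈ P.relPairs) := by
  decide +kernel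

theorem pairM (w : List ℕ) (hw : (w, [11]) ∈ P.relPairs) (hx : P.expand w = w) :
    wordVal val w = zz := by
  have h := hP.pair_eq (w, [11]) hw
  rw [show P.expand (w, [11]).1 = w from hx] at h
  exact h

theorem hexp : ∀ e ∈ K.relExps, P.expand (e.app K.code P.iv) = e.app K.code P.iv := by
  decide +kernel

theorem rel_vv (e : WExp Gen) (he : e ∈ K.relExps) : e.evalIn vv = 1 ∨ e.evalIn vv = zz := by
  rw [evalIn_vv]
  rcases hcase e he with h | h | h
  · exact Or.inl (hP.rel_eq_one _ h)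
  · right; rw [h]; rfl
  · exact Or.inr (pairM _ h (hexp e he))

theorem zz_cube : zz ^ 3 = 1 := by
  have h := hP.pair_eq ([11, 11, 11], []) (by decide +kernel)
  have e1 : P.expand ([11, 11, 11], ([] : List ℕ)).1 = zw ++ (zw ++ zw) := by decide +kernel
  have e2 : P.expand ([11, 11, 11], ([] : List ℕ)).2 = [] := rfl
  rw [e1, e2, wordVal_append, wordVal_append] at h
  have h' : zz * zz * zz = 1 := h
  rw [pow_succ, pow_two]
  exact h'

theorem zz_comm_val (l : ℕ) (hl : ([11, l], [l, 11]) ∈ P.relPairs) (hl8 : l < 8) :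
    val l * zz = zz * val l := by
  have h := hP.pair_eq ([11, l], [l, 11]) hl
  have e1 : P.expand ([11, l], [l, 11]).1 = zw ++ [l] := by
    interval_cases l <;> decide +kernel
  have e2 : P.expand ([11, l], [l, 11]).2 = [l] ++ zw := by
    interval_cases l <;> decide +kernel
  rw [e1, e2, wordVal_append, wordVal_append] at h
  have h' : (1 * hP.val l) * wordVal hP.val zw = wordVal hP.val zw * (1 * hP.val l) := h
  rw [one_mul] at h'
  exact h'

theorem zz_comm (s : Gen) : vv s * zz = zz * vv s := by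
  cases s <;> exact zz_comm_val _ (by decide +kernel) (by decide)

theorem zz_ne : zz ≠ 1 := by
  intro h
  have h1 := hP.wordVal_apply zw (by decide +kernel) ⟨0, by decide⟩
  have h2 : wordVal hP.val zw = 1 := h
  rw [h2] at h1
  have h3 : P.walkA zw 0 ≠ 0 := by decide +kernel
  exact h3 h1.symm

/-! ### the group -/

noncomputable def Gam : Subgroup Sy := Subgroup.closure (Set.range vv)

noncomputable def v (s : Gen) : Gam := ⟨vv s, Subgroup.subset_closure ⟨s, rfl⟩⟩

theorem hgen : Subgroup.closure (Set.range v) = ⊤ := by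
  have h := Subgroup.closure_closure_coe_preimage (k := Set.range vv)
  have e : (Set.range v) =
      ((↑) : Subgroup.closure (Set.range vv) → Sy) ⁻¹' Set.range vv := by
    ext x
    constructor
    · rintro ⟨s, rfl⟩
      exact ⟨s, rfl⟩
    · rintro ⟨s, hs⟩
      exact ⟨s, Subtype.ext hs⟩
  rw [e]
  exact h

theorem coe_evalIn (e : WExp Gen) : ((e.evalIn v : Gam) : Sy) = e.evalIn vv :=
  WExp.map_evalIn Gam.subtype v e

/-- `(b c d g)^5` -/
def zE : WExp Gen := .pow (.mul (.mul (.mul (.of .b) (.of .c)) (.of .d)) (.of .g)) 5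

noncomputable def tt : Gam := zE.evalIn v

theorem tt_coe : (tt : Sy) = zz := by
  rw [tt, coe_evalIn, evalIn_vv]
  rfl

theorem rel_v (e : WExp Gen) (he : e ∈ K.relExps) : e.evalIn v = 1 ∨ e.evalIn v = tt := by
  rcases rel_vv e he with h | h
  · left; apply Subtype.ext; rw [coe_evalIn, h]; rfl
  · right; apply Subtype.ext; rw [coe_evalIn, h, tt_coe]

theorem tt_cube : tt ^ 3 = 1 := by
  apply Subtype.ext
  rw [Subgroup.coe_pow, tt_coe, zz_cube]; rfl

theorem tt_ne : tt ≠ 1 := by
  intro h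
  apply zz_ne
  rw [← tt_coe, h]; rfl

theorem tt_comm (s : Gen) : v s * tt = tt * v s := by
  apply Subtype.ext
  rw [Subgroup.coe_mul, Subgroup.coe_mul, tt_coe]
  exact zz_comm s

theorem tt_order : orderOf tt = 3 := by
  have : Fact (Nat.Prime 3) := ⟨Nat.prime_three⟩
  exact orderOf_eq_prime tt_cube tt_ne

theorem tt_central : tt ∈ Subgroup.center Gam := by
  have key : (⊤ : Subgroup Gam) ≤ Subgroup.centralizer {tt} := by
    rw [← hgen, Subgroup.closure_le]
    rintro _ ⟨s, rfl⟩
    rw [SetLike.mem_coe, Subgroup.mem_centralizer_singleton_iff]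
    exact tt_comm s
  rw [Subgroup.mem_center_iff]
  intro g
  exact Subgroup.mem_centralizer_singleton_iff.mp (key (Subgroup.mem_top g))

noncomputable def ZZ : Subgroup Gam := Subgroup.zpowers tt

theorem ZZ_le : ZZ ≤ Subgroup.center Gam := by
  rw [ZZ, Subgroup.zpowers_le]
  exact tt_central

theorem hrel : ∀ r ∈ K.rels, FreeGroup.lift v r ∈ ZZ := by
  intro r hr
  obtain ⟨e, he, rfl⟩ := (Cfsg.Agent.Lib.Helper35ONa.ok.hrels r).mp hr
  rw [WExp.lift_eval]
  rcases rel_v e he with h | h
  · rw [h]; exact Subgroup.one_mem _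
  · rw [h]; exact Subgroup.mem_zpowers tt

/-! ### perfectness -/

theorem one_of (e : WExp Gen)
    (h : (e.app K.code P.iv = (e.app K.code P.iv).take ((e.app K.code P.iv).length / 2) ++
        invRev P.iv ((e.app K.code P.iv).take ((e.app K.code P.iv).length / 2))) ∨
      ∃ p ∈ P.relPairs, ∃ k < 2,
        (e.app K.code P.iv).rotate k = P.expand p.1 ++ invRev P.iv (P.expand p.2)) :
    e.evalIn v = 1 := by
  apply Subtype.ext
  rw [coe_evalIn, evalIn_vv]
  exact hP.rel_eq_one _ h

theorem tt_of (e : WExp Gen) (h : (e.app K.code P.iv, [11]) ∈ P.relPairs)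
    (hx : P.expand (e.app K.code P.iv) = e.app K.code P.iv) : e.evalIn v = tt := by
  apply Subtype.ext
  rw [coe_evalIn, evalIn_vv, tt_coe]
  exact pairM _ h hx

theorem v_sq (s : Gen) (hs : s ≠ .g) : v s * v s = 1 := by
  have h : (WExp.pow (.mul (.of s) (.of s)) 1).evalIn v = 1 := by
    apply one_of
    cases s
    · exact absurd rfl hs
    all_goals decide +kernel
  have h' : (v s * v s) ^ 1 = 1 := h
  rwa [pow_one] at h'

theorem v_ab : (v .a * v .b) ^ 3 = 1 :=
  one_of (.pow (.mul (.of .a) (.of .b)) 3) (by decide +kernel)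

theorem v_bc : (v .b * v .c) ^ 3 = 1 :=
  one_of (.pow (.mul (.of .b) (.of .c)) 3) (by decide +kernel)

theorem v_de : (v .d * v .e) ^ 3 = 1 :=
  one_of (.pow (.mul (.of .d) (.of .e)) 3) (by decide +kernel)

theorem v_ef : (v .e * v .f) ^ 3 = 1 :=
  one_of (.pow (.mul (.of .e) (.of .f)) 3) (by decide +kernel)

theorem v_r1 : (v .a * v .f) * ((v .g) ^ 2)⁻¹ = 1 :=
  one_of (.mul (.mul (.of .a) (.of .f)) (.inv (.pow (.of .g) 2))) (by decide +kernel)

theorem v_r2 : (v .a * v .f) * ((v .c * v .d) ^ 4)⁻¹ = 1 :=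
  one_of (.mul (.mul (.of .a) (.of .f)) (.inv (.pow (.mul (.of .c) (.of .d)) 4)))
    (by decide +kernel)

theorem v_r6 : v .g * v .b * ((v .c)⁻¹ * v .g * v .c) * ((v .b)⁻¹ * v .g * v .b) *
    ((v .c)⁻¹ * v .g * v .c) = tt :=
  tt_of (.mul (.mul (.mul (.mul (.of .g) (.of .b)) (.mul (.mul (.inv (.of .c)) (.of .g)) (.of .c)))
    (.mul (.mul (.inv (.of .b)) (.of .g)) (.of .b))) (.mul (.mul (.inv (.of .c)) (.of .g)) (.of .c)))
    (by decide +kernel) (by decide +kernel)

theorem v_r5 : (v .b * v .c * v .d * v .g) ^ 5 = tt := rfl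

theorem perfect : commutator Gam = ⊤ := by
  let ab : Gam →* Abelianization Gam := Abelianization.of
  have sq : ∀ s, s ≠ Cfsg.Spor.ON.Gen.g → ab (v s) * ab (v s) = 1 := by
    intro s hs
    rw [← map_mul, v_sq s hs, map_one]
  have ed : ∀ s t, s ≠ Cfsg.Spor.ON.Gen.g → t ≠ Cfsg.Spor.ON.Gen.g → (v s * v t) ^ 3 = 1 → ab (v s) = ab (v t) := by
    intro s t hs ht hl
    apply Cfsg.Agent.Lib.Helper47StemA.eq_of_edge (mul_comm _ _) (sq s hs) (sq t ht)
    rw [← map_mul, ← map_pow, hl, map_one]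
  have hab : ab (v .a) = ab (v .b) := ed _ _ (by decide) (by decide) v_ab
  have hbc : ab (v .b) = ab (v .c) := ed _ _ (by decide) (by decide) v_bc
  have hde : ab (v .d) = ab (v .e) := ed _ _ (by decide) (by decide) v_de
  have hef : ab (v .e) = ab (v .f) := ed _ _ (by decide) (by decide) v_ef
  have h2 : ∀ s, s ≠ Cfsg.Spor.ON.Gen.g → ab (v s) ^ 2 = 1 := fun s hs => by rw [pow_two, sq s hs]
  have h4 : ∀ s, s ≠ Cfsg.Spor.ON.Gen.g → ab (v s) ^ 4 = 1 := fun s hs => by
    rw [show (4 : ℕ) = 2 * 2 from rfl, pow_mul, h2 s hs, one_pow]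
  have haf : ab (v .a) * ab (v .f) = 1 := by
    have h := congrArg ab v_r2
    rw [map_mul, map_mul, map_inv, map_pow, map_mul, mul_pow, h4 _ (by decide), h4 _ (by decide),
      map_one, one_mul, inv_one, mul_one] at h
    exact h
  have hg2 : ab (v .g) ^ 2 = 1 := by
    have h := congrArg ab v_r1
    rw [map_mul, map_mul, map_inv, map_pow, haf, one_mul, map_one, inv_eq_one] at h
    exact h
  have haf' : ab (v .a) = ab (v .f) := by
    calc ab (v .a) = ab (v .a) * (ab (v .f) * ab (v .f)) := by rw [sq _ (by decide), mul_one]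
      _ = (ab (v .a) * ab (v .f)) * ab (v .f) := by rw [mul_assoc]
      _ = ab (v .f) := by rw [haf, one_mul]
  have hT3 : ab tt ^ 3 = 1 := by rw [← map_pow, tt_cube, map_one]
  have hbT : ab (v .b) = ab tt := by
    have h := congrArg ab v_r6
    simp only [map_mul, map_inv] at h
    have e : ab (v .g) * ab (v .b) * ((ab (v .c))⁻¹ * ab (v .g) * ab (v .c)) *
        ((ab (v .b))⁻¹ * ab (v .g) * ab (v .b)) * ((ab (v .c))⁻¹ * ab (v .g) * ab (v .c)) =
        (ab (v .g) ^ 2) ^ 2 * ab (v .b) := by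
      have c1 : ∀ x y : Abelianization Gam, x⁻¹ * y * x = y := fun x y => by
        rw [mul_comm x⁻¹ y, inv_mul_cancel_right]
      rw [c1, c1, pow_two, pow_two]
      simp only [mul_assoc, mul_comm (ab (v .b))]
    rw [e, hg2, one_pow, one_mul] at h
    exact h
  have hb : ab (v .b) = 1 := by
    have h3 : ab (v .b) ^ 3 = 1 := by rw [hbT, hT3]
    have h3' : ab (v .b) ^ 3 = ab (v .b) := by
      rw [pow_succ, h2 _ (by decide), one_mul]
    rw [← h3', h3]
  have hT : ab tt = 1 := by rw [← hbT, hb]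
  have ha : ab (v .a) = 1 := hab.trans hb
  have hc : ab (v .c) = 1 := hbc.symm.trans hb
  have hf : ab (v .f) = 1 := haf'.symm.trans ha
  have he : ab (v .e) = 1 := hef.trans hf
  have hd : ab (v .d) = 1 := hde.trans he
  have hg : ab (v .g) = 1 := by
    have h := congrArg ab v_r5
    rw [map_pow, map_mul, map_mul, map_mul, hb, hc, hd, one_mul, one_mul, one_mul, hT] at h
    have h5 : ab (v .g) ^ 5 = ab (v .g) := by
      rw [show (5 : ℕ) = 2 * 2 + 1 from rfl, pow_succ, pow_mul, hg2, one_pow, one_mul]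
    rwa [h5] at h
  have all : ∀ s, ab (v s) = 1 := by
    intro s
    cases s
    · exact hg
    · exact ha
    · exact hb
    · exact hc
    · exact hd
    · exact he
    · exact hf
  have hker : ab.ker = ⊤ := by
    rw [eq_top_iff, ← hgen, Subgroup.closure_le]
    rintro _ ⟨s, rfl⟩
    exact all s
  have h2 : ab.ker = commutator Gam := QuotientGroup.ker_mk' _
  rw [← h2, hker]

theorem ZZ_ne : ZZ ≠ ⊤ := by
  intro h
  have hc : ∀ a b : Gam, a * b = b * a := by
    intro a b
    have : b ∈ Subgroup.center Gam := ZZ_le (by rw [h]; trivial)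
    exact Subgroup.mem_center_iff.mp this a
  have h1 : commutator Gam = ⊥ := by
    rw [commutator_eq_closure, Subgroup.closure_eq_bot_iff]
    rintro _ ⟨a, b, rfl⟩
    rw [Set.mem_singleton_iff, commutatorElement_def, hc a b]
    group
  rw [perfect] at h1
  have h2 : tt = 1 := by
    have : tt ∈ (⊤ : Subgroup Gam) := trivial
    rw [h1] at this
    exact this
  exact tt_ne h2

theorem exists_cover' : ∃ σ : Gam →* K.Grp, Cfsg.IsStemExtension σ ∧ Nat.card σ.ker = 3 := by
  obtain ⟨σ, hσ, hker⟩ := Cfsg.Agent.Lib.Helper47StemB.stem_of_gens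
    Cfsg.Agent.Lib.Helper35ONFin.simple v hgen ZZ ZZ_le hrel perfect ZZ_ne
  refine ⟨σ, hσ, ?_⟩
  rw [hker, ZZ, Nat.card_zpowers, tt_order]

/-- A finite stem extension of the O'Nan group whose kernel is cyclic of order three. -/
theorem exists_cover : ∃ (Γ : Type) (_ : Group Γ) (_ : Finite Γ) (σ : Γ →* Cfsg.Spor.ON),
    Cfsg.IsStemExtension σ ∧ Nonempty (σ.ker ≃* Multiplicative (ZMod 3)) := by
  obtain ⟨σ, hσ, hc⟩ := exists_cover'
  have : Fact (Nat.Prime 3) := ⟨Nat.prime_three⟩
  refine ⟨Gam, inferInstance, inferInstance, σ, hσ, ⟨mulEquivOfPrimeCardEq (p := 3) hc ?_⟩⟩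
  rw [Nat.card_eq_fintype_card, Fintype.card_multiplicative, ZMod.card]

end Cfsg.Agent.Lib.Helper35ON3B
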