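import Cfsg.Agent.Lib.Helper35ON3

set_option autoImplicit false
set_option maxRecDepth 100000

namespace Cfsg.Agent.Lib.Helper35ON3

open Cfsg.Agent.Lib.Helper35TC

theorem chkP_10_0 : allD P.chkPt 10 0 = true := by decide +kernel
theorem chkP_10_1 : allD P.chkPt 10 1024 = true := by decide +kernel
theorem chkP_10_2 : allD P.chkPt 10 2048 = true := by decide +kernel
theorem chkP_10_3 : allD P.chkPt 10 3072 = true := by decide +kernel
theorem chkP_10_4 : allD P.chkPt 10 4096 = true := by decide +kernel
theorem chkP_10_5 : allD P.chkPt 10 5120 = true := by decide +kernel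
theorem chkP_10_6 : allD P.chkPt 10 6144 = true := by decide +kernel
theorem chkP_10_7 : allD P.chkPt 10 7168 = true := by decide +kernel
theorem chkP_10_8 : allD P.chkPt 10 8192 = true := by decide +kernel
theorem chkP_10_9 : allD P.chkPt 10 9216 = true := by decide +kernel
theorem chkP_10_10 : allD P.chkPt 10 10240 = true := by decide +kernel
theorem chkP_10_11 : allD P.chkPt 10 11264 = true := by decide +kernel
theorem chkP_10_12 : allD P.chkPt 10 12288 = true := by decide +kernel
theorem chkP_10_13 : allD P.chkPt 10 13312 = true := by decide +kernel
theorem chkP_10_14 : allD P.chkPt 10 14336 = true := by decide +kernel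
theorem chkP_10_15 : allD P.chkPt 10 15360 = true := by decide +kernel
theorem chkP_10_16 : allD P.chkPt 10 16384 = true := by decide +kernel
theorem chkP_10_17 : allD P.chkPt 10 17408 = true := by decide +kernel
theorem chkP_10_18 : allD P.chkPt 10 18432 = true := by decide +kernel
theorem chkP_10_19 : allD P.chkPt 10 19456 = true := by decide +kernel
theorem chkP_10_20 : allD P.chkPt 10 20480 = true := by decide +kernel
theorem chkP_10_21 : allD P.chkPt 10 21504 = true := by decide +kernel
theorem chkP_10_22 : allD P.chkPt 10 22528 = true := by decide +kernel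
theorem chkP_10_23 : allD P.chkPt 10 23552 = true := by decide +kernel
theorem chkP_10_24 : allD P.chkPt 10 24576 = true := by decide +kernel
theorem chkP_10_25 : allD P.chkPt 10 25600 = true := by decide +kernel
theorem chkP_10_26 : allD P.chkPt 10 26624 = true := by decide +kernel
theorem chkP_10_27 : allD P.chkPt 10 27648 = true := by decide +kernel
theorem chkP_10_28 : allD P.chkPt 10 28672 = true := by decide +kernel
theorem chkP_10_29 : allD P.chkPt 10 29696 = true := by decide +kernel

end Cfsg.Agent.Lib.Helper35ON3
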