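import Cfsg.Agent.Lib.Helper35ON3

set_option autoImplicit false
set_option maxRecDepth 100000

namespace Cfsg.Agent.Lib.Helper35ON3

open Cfsg.Agent.Lib.Helper35TC

theorem chkP_10_30 : allD P.chkPt 10 30720 = true := by decide +kernel
theorem chkP_10_31 : allD P.chkPt 10 31744 = true := by decide +kernel
theorem chkP_10_32 : allD P.chkPt 10 32768 = true := by decide +kernel
theorem chkP_10_33 : allD P.chkPt 10 33792 = true := by decide +kernel
theorem chkP_10_34 : allD P.chkPt 10 34816 = true := by decide +kernel
theorem chkP_10_35 : allD P.chkPt 10 35840 = true := by decide +kernel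
theorem chkP_10_36 : allD P.chkPt 10 36864 = true := by decide +kernel
theorem chkP_10_37 : allD P.chkPt 10 37888 = true := by decide +kernel
theorem chkP_10_38 : allD P.chkPt 10 38912 = true := by decide +kernel
theorem chkP_10_39 : allD P.chkPt 10 39936 = true := by decide +kernel
theorem chkP_10_40 : allD P.chkPt 10 40960 = true := by decide +kernel
theorem chkP_10_41 : allD P.chkPt 10 41984 = true := by decide +kernel
theorem chkP_10_42 : allD P.chkPt 10 43008 = true := by decide +kernel
theorem chkP_10_43 : allD P.chkPt 10 44032 = true := by decide +kernel
theorem chkP_10_44 : allD P.chkPt 10 45056 = true := by decide +kernel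
theorem chkP_10_45 : allD P.chkPt 10 46080 = true := by decide +kernel
theorem chkP_10_46 : allD P.chkPt 10 47104 = true := by decide +kernel
theorem chkP_10_47 : allD P.chkPt 10 48128 = true := by decide +kernel
theorem chkP_10_48 : allD P.chkPt 10 49152 = true := by decide +kernel
theorem chkP_10_49 : allD P.chkPt 10 50176 = true := by decide +kernel
theorem chkP_10_50 : allD P.chkPt 10 51200 = true := by decide +kernel
theorem chkP_10_51 : allD P.chkPt 10 52224 = true := by decide +kernel
theorem chkP_10_52 : allD P.chkPt 10 53248 = true := by decide +kernel
theorem chkP_10_53 : allD P.chkPt 10 54272 = true := by decide +kernel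
theorem chkP_10_54 : allD P.chkPt 10 55296 = true := by decide +kernel
theorem chkP_10_55 : allD P.chkPt 10 56320 = true := by decide +kernel
theorem chkP_10_56 : allD P.chkPt 10 57344 = true := by decide +kernel
theorem chkP_10_57 : allD P.chkPt 10 58368 = true := by decide +kernel
theorem chkP_10_58 : allD P.chkPt 10 59392 = true := by decide +kernel
theorem chkP_10_59 : allD P.chkPt 10 60416 = true := by decide +kernel

end Cfsg.Agent.Lib.Helper35ON3
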