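import Cfsg.Agent.Lib.Helper35ON3

set_option autoImplicit false
set_option maxRecDepth 100000

namespace Cfsg.Agent.Lib.Helper35ON3

open Cfsg.Agent.Lib.Helper35TC

theorem chkP_10_300 : allD P.chkPt 10 307200 = true := by decide +kernel
theorem chkP_10_301 : allD P.chkPt 10 308224 = true := by decide +kernel
theorem chkP_10_302 : allD P.chkPt 10 309248 = true := by decide +kernel
theorem chkP_10_303 : allD P.chkPt 10 310272 = true := by decide +kernel
theorem chkP_10_304 : allD P.chkPt 10 311296 = true := by decide +kernel
theorem chkP_10_305 : allD P.chkPt 10 312320 = true := by decide +kernel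
theorem chkP_10_306 : allD P.chkPt 10 313344 = true := by decide +kernel
theorem chkP_10_307 : allD P.chkPt 10 314368 = true := by decide +kernel
theorem chkP_10_308 : allD P.chkPt 10 315392 = true := by decide +kernel
theorem chkP_10_309 : allD P.chkPt 10 316416 = true := by decide +kernel
theorem chkP_10_310 : allD P.chkPt 10 317440 = true := by decide +kernel
theorem chkP_10_311 : allD P.chkPt 10 318464 = true := by decide +kernel
theorem chkP_10_312 : allD P.chkPt 10 319488 = true := by decide +kernel
theorem chkP_10_313 : allD P.chkPt 10 320512 = true := by decide +kernel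
theorem chkP_10_314 : allD P.chkPt 10 321536 = true := by decide +kernel
theorem chkP_10_315 : allD P.chkPt 10 322560 = true := by decide +kernel
theorem chkP_10_316 : allD P.chkPt 10 323584 = true := by decide +kernel
theorem chkP_10_317 : allD P.chkPt 10 324608 = true := by decide +kernel
theorem chkP_10_318 : allD P.chkPt 10 325632 = true := by decide +kernel
theorem chkP_10_319 : allD P.chkPt 10 326656 = true := by decide +kernel
theorem chkP_10_320 : allD P.chkPt 10 327680 = true := by decide +kernel
theorem chkP_10_321 : allD P.chkPt 10 328704 = true := by decide +kernel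
theorem chkP_10_322 : allD P.chkPt 10 329728 = true := by decide +kernel
theorem chkP_10_323 : allD P.chkPt 10 330752 = true := by decide +kernel
theorem chkP_10_324 : allD P.chkPt 10 331776 = true := by decide +kernel
theorem chkP_10_325 : allD P.chkPt 10 332800 = true := by decide +kernel
theorem chkP_10_326 : allD P.chkPt 10 333824 = true := by decide +kernel
theorem chkP_10_327 : allD P.chkPt 10 334848 = true := by decide +kernel
theorem chkP_10_328 : allD P.chkPt 10 335872 = true := by decide +kernel
theorem chkP_10_329 : allD P.chkPt 10 336896 = true := by decide +kernel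

end Cfsg.Agent.Lib.Helper35ON3
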