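import Cfsg.Agent.Lib.Helper35ON3

set_option autoImplicit false
set_option maxRecDepth 100000

namespace Cfsg.Agent.Lib.Helper35ON3

open Cfsg.Agent.Lib.Helper35TC

theorem chkP_10_60 : allD P.chkPt 10 61440 = true := by decide +kernel
theorem chkP_10_61 : allD P.chkPt 10 62464 = true := by decide +kernel
theorem chkP_10_62 : allD P.chkPt 10 63488 = true := by decide +kernel
theorem chkP_10_63 : allD P.chkPt 10 64512 = true := by decide +kernel
theorem chkP_10_64 : allD P.chkPt 10 65536 = true := by decide +kernel
theorem chkP_10_65 : allD P.chkPt 10 66560 = true := by decide +kernel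
theorem chkP_10_66 : allD P.chkPt 10 67584 = true := by decide +kernel
theorem chkP_10_67 : allD P.chkPt 10 68608 = true := by decide +kernel
theorem chkP_10_68 : allD P.chkPt 10 69632 = true := by decide +kernel
theorem chkP_10_69 : allD P.chkPt 10 70656 = true := by decide +kernel
theorem chkP_10_70 : allD P.chkPt 10 71680 = true := by decide +kernel
theorem chkP_10_71 : allD P.chkPt 10 72704 = true := by decide +kernel
theorem chkP_10_72 : allD P.chkPt 10 73728 = true := by decide +kernel
theorem chkP_10_73 : allD P.chkPt 10 74752 = true := by decide +kernel
theorem chkP_10_74 : allD P.chkPt 10 75776 = true := by decide +kernel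
theorem chkP_10_75 : allD P.chkPt 10 76800 = true := by decide +kernel
theorem chkP_10_76 : allD P.chkPt 10 77824 = true := by decide +kernel
theorem chkP_10_77 : allD P.chkPt 10 78848 = true := by decide +kernel
theorem chkP_10_78 : allD P.chkPt 10 79872 = true := by decide +kernel
theorem chkP_10_79 : allD P.chkPt 10 80896 = true := by decide +kernel
theorem chkP_10_80 : allD P.chkPt 10 81920 = true := by decide +kernel
theorem chkP_10_81 : allD P.chkPt 10 82944 = true := by decide +kernel
theorem chkP_10_82 : allD P.chkPt 10 83968 = true := by decide +kernel
theorem chkP_10_83 : allD P.chkPt 10 84992 = true := by decide +kernel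
theorem chkP_10_84 : allD P.chkPt 10 86016 = true := by decide +kernel
theorem chkP_10_85 : allD P.chkPt 10 87040 = true := by decide +kernel
theorem chkP_10_86 : allD P.chkPt 10 88064 = true := by decide +kernel
theorem chkP_10_87 : allD P.chkPt 10 89088 = true := by decide +kernel
theorem chkP_10_88 : allD P.chkPt 10 90112 = true := by decide +kernel
theorem chkP_10_89 : allD P.chkPt 10 91136 = true := by decide +kernel

end Cfsg.Agent.Lib.Helper35ON3
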