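import Cfsg.Agent.Lib.Helper35ON3

set_option autoImplicit false
set_option maxRecDepth 100000

namespace Cfsg.Agent.Lib.Helper35ON3

open Cfsg.Agent.Lib.Helper35TC

theorem chkP_10_90 : allD P.chkPt 10 92160 = true := by decide +kernel
theorem chkP_10_91 : allD P.chkPt 10 93184 = true := by decide +kernel
theorem chkP_10_92 : allD P.chkPt 10 94208 = true := by decide +kernel
theorem chkP_10_93 : allD P.chkPt 10 95232 = true := by decide +kernel
theorem chkP_10_94 : allD P.chkPt 10 96256 = true := by decide +kernel
theorem chkP_10_95 : allD P.chkPt 10 97280 = true := by decide +kernel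
theorem chkP_10_96 : allD P.chkPt 10 98304 = true := by decide +kernel
theorem chkP_10_97 : allD P.chkPt 10 99328 = true := by decide +kernel
theorem chkP_10_98 : allD P.chkPt 10 100352 = true := by decide +kernel
theorem chkP_10_99 : allD P.chkPt 10 101376 = true := by decide +kernel
theorem chkP_10_100 : allD P.chkPt 10 102400 = true := by decide +kernel
theorem chkP_10_101 : allD P.chkPt 10 103424 = true := by decide +kernel
theorem chkP_10_102 : allD P.chkPt 10 104448 = true := by decide +kernel
theorem chkP_10_103 : allD P.chkPt 10 105472 = true := by decide +kernel
theorem chkP_10_104 : allD P.chkPt 10 106496 = true := by decide +kernel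
theorem chkP_10_105 : allD P.chkPt 10 107520 = true := by decide +kernel
theorem chkP_10_106 : allD P.chkPt 10 108544 = true := by decide +kernel
theorem chkP_10_107 : allD P.chkPt 10 109568 = true := by decide +kernel
theorem chkP_10_108 : allD P.chkPt 10 110592 = true := by decide +kernel
theorem chkP_10_109 : allD P.chkPt 10 111616 = true := by decide +kernel
theorem chkP_10_110 : allD P.chkPt 10 112640 = true := by decide +kernel
theorem chkP_10_111 : allD P.chkPt 10 113664 = true := by decide +kernel
theorem chkP_10_112 : allD P.chkPt 10 114688 = true := by decide +kernel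
theorem chkP_10_113 : allD P.chkPt 10 115712 = true := by decide +kernel
theorem chkP_10_114 : allD P.chkPt 10 116736 = true := by decide +kernel
theorem chkP_10_115 : allD P.chkPt 10 117760 = true := by decide +kernel
theorem chkP_10_116 : allD P.chkPt 10 118784 = true := by decide +kernel
theorem chkP_10_117 : allD P.chkPt 10 119808 = true := by decide +kernel
theorem chkP_10_118 : allD P.chkPt 10 120832 = true := by decide +kernel
theorem chkP_10_119 : allD P.chkPt 10 121856 = true := by decide +kernel

end Cfsg.Agent.Lib.Helper35ON3
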