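import Cfsg.Agent.Lib.Helper35ON3

set_option autoImplicit false
set_option maxRecDepth 100000

namespace Cfsg.Agent.Lib.Helper35ON3

open Cfsg.Agent.Lib.Helper35TC

theorem chkP_10_120 : allD P.chkPt 10 122880 = true := by decide +kernel
theorem chkP_10_121 : allD P.chkPt 10 123904 = true := by decide +kernel
theorem chkP_10_122 : allD P.chkPt 10 124928 = true := by decide +kernel
theorem chkP_10_123 : allD P.chkPt 10 125952 = true := by decide +kernel
theorem chkP_10_124 : allD P.chkPt 10 126976 = true := by decide +kernel
theorem chkP_10_125 : allD P.chkPt 10 128000 = true := by decide +kernel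
theorem chkP_10_126 : allD P.chkPt 10 129024 = true := by decide +kernel
theorem chkP_10_127 : allD P.chkPt 10 130048 = true := by decide +kernel
theorem chkP_10_128 : allD P.chkPt 10 131072 = true := by decide +kernel
theorem chkP_10_129 : allD P.chkPt 10 132096 = true := by decide +kernel
theorem chkP_10_130 : allD P.chkPt 10 133120 = true := by decide +kernel
theorem chkP_10_131 : allD P.chkPt 10 134144 = true := by decide +kernel
theorem chkP_10_132 : allD P.chkPt 10 135168 = true := by decide +kernel
theorem chkP_10_133 : allD P.chkPt 10 136192 = true := by decide +kernel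
theorem chkP_10_134 : allD P.chkPt 10 137216 = true := by decide +kernel
theorem chkP_10_135 : allD P.chkPt 10 138240 = true := by decide +kernel
theorem chkP_10_136 : allD P.chkPt 10 139264 = true := by decide +kernel
theorem chkP_10_137 : allD P.chkPt 10 140288 = true := by decide +kernel
theorem chkP_10_138 : allD P.chkPt 10 141312 = true := by decide +kernel
theorem chkP_10_139 : allD P.chkPt 10 142336 = true := by decide +kernel
theorem chkP_10_140 : allD P.chkPt 10 143360 = true := by decide +kernel
theorem chkP_10_141 : allD P.chkPt 10 144384 = true := by decide +kernel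
theorem chkP_10_142 : allD P.chkPt 10 145408 = true := by decide +kernel
theorem chkP_10_143 : allD P.chkPt 10 146432 = true := by decide +kernel
theorem chkP_10_144 : allD P.chkPt 10 147456 = true := by decide +kernel
theorem chkP_10_145 : allD P.chkPt 10 148480 = true := by decide +kernel
theorem chkP_10_146 : allD P.chkPt 10 149504 = true := by decide +kernel
theorem chkP_10_147 : allD P.chkPt 10 150528 = true := by decide +kernel
theorem chkP_10_148 : allD P.chkPt 10 151552 = true := by decide +kernel
theorem chkP_10_149 : allD P.chkPt 10 152576 = true := by decide +kernel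

end Cfsg.Agent.Lib.Helper35ON3
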