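import Cfsg.Agent.Lib.Helper35ON3

set_option autoImplicit false
set_option maxRecDepth 100000

namespace Cfsg.Agent.Lib.Helper35ON3

open Cfsg.Agent.Lib.Helper35TC

theorem chkP_10_150 : allD P.chkPt 10 153600 = true := by decide +kernel
theorem chkP_10_151 : allD P.chkPt 10 154624 = true := by decide +kernel
theorem chkP_10_152 : allD P.chkPt 10 155648 = true := by decide +kernel
theorem chkP_10_153 : allD P.chkPt 10 156672 = true := by decide +kernel
theorem chkP_10_154 : allD P.chkPt 10 157696 = true := by decide +kernel
theorem chkP_10_155 : allD P.chkPt 10 158720 = true := by decide +kernel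
theorem chkP_10_156 : allD P.chkPt 10 159744 = true := by decide +kernel
theorem chkP_10_157 : allD P.chkPt 10 160768 = true := by decide +kernel
theorem chkP_10_158 : allD P.chkPt 10 161792 = true := by decide +kernel
theorem chkP_10_159 : allD P.chkPt 10 162816 = true := by decide +kernel
theorem chkP_10_160 : allD P.chkPt 10 163840 = true := by decide +kernel
theorem chkP_10_161 : allD P.chkPt 10 164864 = true := by decide +kernel
theorem chkP_10_162 : allD P.chkPt 10 165888 = true := by decide +kernel
theorem chkP_10_163 : allD P.chkPt 10 166912 = true := by decide +kernel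
theorem chkP_10_164 : allD P.chkPt 10 167936 = true := by decide +kernel
theorem chkP_10_165 : allD P.chkPt 10 168960 = true := by decide +kernel
theorem chkP_10_166 : allD P.chkPt 10 169984 = true := by decide +kernel
theorem chkP_10_167 : allD P.chkPt 10 171008 = true := by decide +kernel
theorem chkP_10_168 : allD P.chkPt 10 172032 = true := by decide +kernel
theorem chkP_10_169 : allD P.chkPt 10 173056 = true := by decide +kernel
theorem chkP_10_170 : allD P.chkPt 10 174080 = true := by decide +kernel
theorem chkP_10_171 : allD P.chkPt 10 175104 = true := by decide +kernel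
theorem chkP_10_172 : allD P.chkPt 10 176128 = true := by decide +kernel
theorem chkP_10_173 : allD P.chkPt 10 177152 = true := by decide +kernel
theorem chkP_10_174 : allD P.chkPt 10 178176 = true := by decide +kernel
theorem chkP_10_175 : allD P.chkPt 10 179200 = true := by decide +kernel
theorem chkP_10_176 : allD P.chkPt 10 180224 = true := by decide +kernel
theorem chkP_10_177 : allD P.chkPt 10 181248 = true := by decide +kernel
theorem chkP_10_178 : allD P.chkPt 10 182272 = true := by decide +kernel
theorem chkP_10_179 : allD P.chkPt 10 183296 = true := by decide +kernel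

end Cfsg.Agent.Lib.Helper35ON3
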