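import Cfsg.Agent.Lib.Helper35ON3

set_option autoImplicit false
set_option maxRecDepth 100000

namespace Cfsg.Agent.Lib.Helper35ON3

open Cfsg.Agent.Lib.Helper35TC

theorem chkP_10_180 : allD P.chkPt 10 184320 = true := by decide +kernel
theorem chkP_10_181 : allD P.chkPt 10 185344 = true := by decide +kernel
theorem chkP_10_182 : allD P.chkPt 10 186368 = true := by decide +kernel
theorem chkP_10_183 : allD P.chkPt 10 187392 = true := by decide +kernel
theorem chkP_10_184 : allD P.chkPt 10 188416 = true := by decide +kernel
theorem chkP_10_185 : allD P.chkPt 10 189440 = true := by decide +kernel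
theorem chkP_10_186 : allD P.chkPt 10 190464 = true := by decide +kernel
theorem chkP_10_187 : allD P.chkPt 10 191488 = true := by decide +kernel
theorem chkP_10_188 : allD P.chkPt 10 192512 = true := by decide +kernel
theorem chkP_10_189 : allD P.chkPt 10 193536 = true := by decide +kernel
theorem chkP_10_190 : allD P.chkPt 10 194560 = true := by decide +kernel
theorem chkP_10_191 : allD P.chkPt 10 195584 = true := by decide +kernel
theorem chkP_10_192 : allD P.chkPt 10 196608 = true := by decide +kernel
theorem chkP_10_193 : allD P.chkPt 10 197632 = true := by decide +kernel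
theorem chkP_10_194 : allD P.chkPt 10 198656 = true := by decide +kernel
theorem chkP_10_195 : allD P.chkPt 10 199680 = true := by decide +kernel
theorem chkP_10_196 : allD P.chkPt 10 200704 = true := by decide +kernel
theorem chkP_10_197 : allD P.chkPt 10 201728 = true := by decide +kernel
theorem chkP_10_198 : allD P.chkPt 10 202752 = true := by decide +kernel
theorem chkP_10_199 : allD P.chkPt 10 203776 = true := by decide +kernel
theorem chkP_10_200 : allD P.chkPt 10 204800 = true := by decide +kernel
theorem chkP_10_201 : allD P.chkPt 10 205824 = true := by decide +kernel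
theorem chkP_10_202 : allD P.chkPt 10 206848 = true := by decide +kernel
theorem chkP_10_203 : allD P.chkPt 10 207872 = true := by decide +kernel
theorem chkP_10_204 : allD P.chkPt 10 208896 = true := by decide +kernel
theorem chkP_10_205 : allD P.chkPt 10 209920 = true := by decide +kernel
theorem chkP_10_206 : allD P.chkPt 10 210944 = true := by decide +kernel
theorem chkP_10_207 : allD P.chkPt 10 211968 = true := by decide +kernel
theorem chkP_10_208 : allD P.chkPt 10 212992 = true := by decide +kernel
theorem chkP_10_209 : allD P.chkPt 10 214016 = true := by decide +kernel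

end Cfsg.Agent.Lib.Helper35ON3
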