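import Cfsg.Agent.Lib.Helper35ON3

set_option autoImplicit false
set_option maxRecDepth 100000

namespace Cfsg.Agent.Lib.Helper35ON3

open Cfsg.Agent.Lib.Helper35TC

theorem chkP_10_210 : allD P.chkPt 10 215040 = true := by decide +kernel
theorem chkP_10_211 : allD P.chkPt 10 216064 = true := by decide +kernel
theorem chkP_10_212 : allD P.chkPt 10 217088 = true := by decide +kernel
theorem chkP_10_213 : allD P.chkPt 10 218112 = true := by decide +kernel
theorem chkP_10_214 : allD P.chkPt 10 219136 = true := by decide +kernel
theorem chkP_10_215 : allD P.chkPt 10 220160 = true := by decide +kernel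
theorem chkP_10_216 : allD P.chkPt 10 221184 = true := by decide +kernel
theorem chkP_10_217 : allD P.chkPt 10 222208 = true := by decide +kernel
theorem chkP_10_218 : allD P.chkPt 10 223232 = true := by decide +kernel
theorem chkP_10_219 : allD P.chkPt 10 224256 = true := by decide +kernel
theorem chkP_10_220 : allD P.chkPt 10 225280 = true := by decide +kernel
theorem chkP_10_221 : allD P.chkPt 10 226304 = true := by decide +kernel
theorem chkP_10_222 : allD P.chkPt 10 227328 = true := by decide +kernel
theorem chkP_10_223 : allD P.chkPt 10 228352 = true := by decide +kernel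
theorem chkP_10_224 : allD P.chkPt 10 229376 = true := by decide +kernel
theorem chkP_10_225 : allD P.chkPt 10 230400 = true := by decide +kernel
theorem chkP_10_226 : allD P.chkPt 10 231424 = true := by decide +kernel
theorem chkP_10_227 : allD P.chkPt 10 232448 = true := by decide +kernel
theorem chkP_10_228 : allD P.chkPt 10 233472 = true := by decide +kernel
theorem chkP_10_229 : allD P.chkPt 10 234496 = true := by decide +kernel
theorem chkP_10_230 : allD P.chkPt 10 235520 = true := by decide +kernel
theorem chkP_10_231 : allD P.chkPt 10 236544 = true := by decide +kernel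
theorem chkP_10_232 : allD P.chkPt 10 237568 = true := by decide +kernel
theorem chkP_10_233 : allD P.chkPt 10 238592 = true := by decide +kernel
theorem chkP_10_234 : allD P.chkPt 10 239616 = true := by decide +kernel
theorem chkP_10_235 : allD P.chkPt 10 240640 = true := by decide +kernel
theorem chkP_10_236 : allD P.chkPt 10 241664 = true := by decide +kernel
theorem chkP_10_237 : allD P.chkPt 10 242688 = true := by decide +kernel
theorem chkP_10_238 : allD P.chkPt 10 243712 = true := by decide +kernel
theorem chkP_10_239 : allD P.chkPt 10 244736 = true := by decide +kernel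

end Cfsg.Agent.Lib.Helper35ON3
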