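import Cfsg.Agent.Lib.Helper35ON3

set_option autoImplicit false
set_option maxRecDepth 100000

namespace Cfsg.Agent.Lib.Helper35ON3

open Cfsg.Agent.Lib.Helper35TC

theorem chkP_10_240 : allD P.chkPt 10 245760 = true := by decide +kernel
theorem chkP_10_241 : allD P.chkPt 10 246784 = true := by decide +kernel
theorem chkP_10_242 : allD P.chkPt 10 247808 = true := by decide +kernel
theorem chkP_10_243 : allD P.chkPt 10 248832 = true := by decide +kernel
theorem chkP_10_244 : allD P.chkPt 10 249856 = true := by decide +kernel
theorem chkP_10_245 : allD P.chkPt 10 250880 = true := by decide +kernel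
theorem chkP_10_246 : allD P.chkPt 10 251904 = true := by decide +kernel
theorem chkP_10_247 : allD P.chkPt 10 252928 = true := by decide +kernel
theorem chkP_10_248 : allD P.chkPt 10 253952 = true := by decide +kernel
theorem chkP_10_249 : allD P.chkPt 10 254976 = true := by decide +kernel
theorem chkP_10_250 : allD P.chkPt 10 256000 = true := by decide +kernel
theorem chkP_10_251 : allD P.chkPt 10 257024 = true := by decide +kernel
theorem chkP_10_252 : allD P.chkPt 10 258048 = true := by decide +kernel
theorem chkP_10_253 : allD P.chkPt 10 259072 = true := by decide +kernel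
theorem chkP_10_254 : allD P.chkPt 10 260096 = true := by decide +kernel
theorem chkP_10_255 : allD P.chkPt 10 261120 = true := by decide +kernel
theorem chkP_10_256 : allD P.chkPt 10 262144 = true := by decide +kernel
theorem chkP_10_257 : allD P.chkPt 10 263168 = true := by decide +kernel
theorem chkP_10_258 : allD P.chkPt 10 264192 = true := by decide +kernel
theorem chkP_10_259 : allD P.chkPt 10 265216 = true := by decide +kernel
theorem chkP_10_260 : allD P.chkPt 10 266240 = true := by decide +kernel
theorem chkP_10_261 : allD P.chkPt 10 267264 = true := by decide +kernel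
theorem chkP_10_262 : allD P.chkPt 10 268288 = true := by decide +kernel
theorem chkP_10_263 : allD P.chkPt 10 269312 = true := by decide +kernel
theorem chkP_10_264 : allD P.chkPt 10 270336 = true := by decide +kernel
theorem chkP_10_265 : allD P.chkPt 10 271360 = true := by decide +kernel
theorem chkP_10_266 : allD P.chkPt 10 272384 = true := by decide +kernel
theorem chkP_10_267 : allD P.chkPt 10 273408 = true := by decide +kernel
theorem chkP_10_268 : allD P.chkPt 10 274432 = true := by decide +kernel
theorem chkP_10_269 : allD P.chkPt 10 275456 = true := by decide +kernel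

end Cfsg.Agent.Lib.Helper35ON3
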