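import Cfsg.Agent.Lib.Helper35ON3

set_option autoImplicit false
set_option maxRecDepth 100000

namespace Cfsg.Agent.Lib.Helper35ON3

open Cfsg.Agent.Lib.Helper35TC

theorem chkP_10_270 : allD P.chkPt 10 276480 = true := by decide +kernel
theorem chkP_10_271 : allD P.chkPt 10 277504 = true := by decide +kernel
theorem chkP_10_272 : allD P.chkPt 10 278528 = true := by decide +kernel
theorem chkP_10_273 : allD P.chkPt 10 279552 = true := by decide +kernel
theorem chkP_10_274 : allD P.chkPt 10 280576 = true := by decide +kernel
theorem chkP_10_275 : allD P.chkPt 10 281600 = true := by decide +kernel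
theorem chkP_10_276 : allD P.chkPt 10 282624 = true := by decide +kernel
theorem chkP_10_277 : allD P.chkPt 10 283648 = true := by decide +kernel
theorem chkP_10_278 : allD P.chkPt 10 284672 = true := by decide +kernel
theorem chkP_10_279 : allD P.chkPt 10 285696 = true := by decide +kernel
theorem chkP_10_280 : allD P.chkPt 10 286720 = true := by decide +kernel
theorem chkP_10_281 : allD P.chkPt 10 287744 = true := by decide +kernel
theorem chkP_10_282 : allD P.chkPt 10 288768 = true := by decide +kernel
theorem chkP_10_283 : allD P.chkPt 10 289792 = true := by decide +kernel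
theorem chkP_10_284 : allD P.chkPt 10 290816 = true := by decide +kernel
theorem chkP_10_285 : allD P.chkPt 10 291840 = true := by decide +kernel
theorem chkP_10_286 : allD P.chkPt 10 292864 = true := by decide +kernel
theorem chkP_10_287 : allD P.chkPt 10 293888 = true := by decide +kernel
theorem chkP_10_288 : allD P.chkPt 10 294912 = true := by decide +kernel
theorem chkP_10_289 : allD P.chkPt 10 295936 = true := by decide +kernel
theorem chkP_10_290 : allD P.chkPt 10 296960 = true := by decide +kernel
theorem chkP_10_291 : allD P.chkPt 10 297984 = true := by decide +kernel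
theorem chkP_10_292 : allD P.chkPt 10 299008 = true := by decide +kernel
theorem chkP_10_293 : allD P.chkPt 10 300032 = true := by decide +kernel
theorem chkP_10_294 : allD P.chkPt 10 301056 = true := by decide +kernel
theorem chkP_10_295 : allD P.chkPt 10 302080 = true := by decide +kernel
theorem chkP_10_296 : allD P.chkPt 10 303104 = true := by decide +kernel
theorem chkP_10_297 : allD P.chkPt 10 304128 = true := by decide +kernel
theorem chkP_10_298 : allD P.chkPt 10 305152 = true := by decide +kernel
theorem chkP_10_299 : allD P.chkPt 10 306176 = true := by decide +kernel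

end Cfsg.Agent.Lib.Helper35ON3
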