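import Cfsg.Agent.Lib.Helper35ONFin
import Cfsg.Agent.Lib.Helper63PCUb

set_option autoImplicit false
set_option maxRecDepth 100000

/-! Local bounds for the Schur multiplier of the O'Nan group: interface between the PC-MULT engine
(`Helper63PCUb.ub`) and the word identity test of the presented group on `122760` points. -/

namespace Cfsg.Agent.Lib.Helper35ONM

open Cfsg Cfsg.Agent.Lib.Helper35TC Cfsg.Agent.Lib.Helper63PCDefs Cfsg.Agent.Lib.Helper35ONa

abbrev Gen := Cfsg.Spor.ON.Gen

abbrev G : Type := K.Grp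

instance : Finite G := Cfsg.Agent.Lib.Helper35ONFin.hub.1

def ofL : ℕ → WExp Gen
  | 0 => .of .g
  | 1 => .inv (.of .g)
  | 2 => .of .a
  | 3 => .of .b
  | 4 => .of .c
  | 5 => .of .d
  | 6 => .of .e
  | _ => .of .f

def ofWa : WExp Gen → List ℕ → WExp Gen
  | acc, [] => acc
  | acc, l :: w => ofWa (.mul acc (ofL l)) w

def ofW (w : List ℕ) : WExp Gen := ofWa (.pow (.of .a) 0) w

noncomputable def lt (l : ℕ) : G := PresentedGroup.mk K.rels (ofL l).eval

noncomputable def el (w : List ℕ) : G := evalW lt w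

theorem el_nil : el [] = 1 := rfl

theorem el_append (u v : List ℕ) : el (u ++ v) = el u * el v := by
  simp [el, evalW]

theorem ofWa_eval (acc : WExp Gen) (w : List ℕ) :
    PresentedGroup.mk K.rels (ofWa acc w).eval = PresentedGroup.mk K.rels acc.eval * el w := by
  induction w generalizing acc with
  | nil => simp [ofWa, el_nil]
  | cons l w ih =>
    rw [ofWa, ih]
    have : el (l :: w) = lt l * el w := by simp [el, evalW]
    rw [this, WExp.eval, map_mul, mul_assoc]
    rfl

theorem ofW_eval (w : List ℕ) : PresentedGroup.mk K.rels (ofW w).eval = el w := by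
  rw [ofW, ofWa_eval]
  simp [WExp.eval]

noncomputable def eqChk (u v : List ℕ) : Bool :=
  BD.fixChk K.P ((WExp.mul (ofW u) (.inv (ofW v))).app K.code K.P.iv)

theorem eq_of_chk {u v : List ℕ} (h : eqChk u v = true) : el u = el v := by
  have h1 := Cfsg.Agent.Lib.Helper35ONFin.word_eq_one _ h
  rw [WExp.eval, WExp.eval, map_mul, map_inv, ofW_eval, ofW_eval] at h1
  exact mul_inv_eq_one.mp h1

section data
variable (XW GW : List (List ℕ))

def xw (a : ℕ) : List ℕ := XW.getD a []

noncomputable def xx (a : ℕ) : G := el (xw XW a)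

def flat (w : List ℕ) : List ℕ := w.flatMap (xw XW)

theorem evalW_xx (w : List ℕ) : evalW (xx XW) w = el (flat XW w) := by
  induction w with
  | nil => rfl
  | cons a w ih =>
    have h1 : evalW (xx XW) (a :: w) = xx XW a * evalW (xx XW) w := by simp [evalW]
    have h2 : flat XW (a :: w) = xw XW a ++ flat XW w := by simp [flat]
    rw [h1, h2, el_append, ih]
    rfl

noncomputable def pcChk (D : PC) : Bool :=
  (List.range D.n).all (fun a => eqChk (flat XW (List.replicate D.p a)) (flat XW (D.pw a))) &&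
  (List.range D.n).all (fun b => (List.range D.n).all (fun a =>
    !(decide (b < a)) || eqChk (flat XW [a, b]) (flat XW (b :: a :: D.cm b a))))

theorem sat_of_chk (D : PC) (h : pcChk XW D = true) : Sat D (xx XW) (fun _ => 1) := by
  simp only [pcChk, Bool.and_eq_true, List.all_eq_true, List.mem_range, Bool.or_eq_true,
    Bool.not_eq_true', decide_eq_false_iff_not] at h
  constructor
  · intro a ha
    have h1 := eq_of_chk (h.1 a ha)
    rw [← evalW_xx, ← evalW_xx] at h1
    rw [mul_one, ← h1]
    simp [evalW]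
  · intro b a hba ha
    have h1 := (h.2 b (lt_trans hba ha) a ha).resolve_left (not_not.mpr hba)
    have h2 := eq_of_chk h1
    rw [← evalW_xx, ← evalW_xx] at h2
    rw [mul_one]
    simpa [evalW, mul_assoc] using h2

noncomputable def fusChk (C : Cert) : Bool :=
  (List.range C.fus.length).all (fun gi =>
    decide ((C.Dw gi).length ≤ C.R) && decide ((C.Ew gi).length ≤ C.R) &&
    (List.range C.R).all (fun i =>
      eqChk (xw GW gi ++ flat XW (nthL (C.Dw gi) i)) (flat XW (nthL (C.Ew gi) i) ++ xw GW gi)))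

theorem fus_of_chk (C : Cert) (h : fusChk XW GW C = true) (gi i : ℕ) :
    xx GW gi * evalW (xx XW) (nthL (C.Dw gi) i) * (xx GW gi)⁻¹ =
      evalW (xx XW) (nthL (C.Ew gi) i) := by
  simp only [fusChk, Bool.and_eq_true, List.all_eq_true, List.mem_range, decide_eq_true_eq] at h
  by_cases hgi : gi < C.fus.length
  · obtain ⟨⟨hD, hE⟩, hr⟩ := h gi hgi
    by_cases hi : i < C.R
    · have h1 := eq_of_chk (hr i hi)
      rw [el_append, el_append, ← evalW_xx, ← evalW_xx] at h1
      rw [mul_inv_eq_iff_eq_mul]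
      exact h1
    · have e1 : nthL (C.Dw gi) i = [] := List.getD_eq_default _ _ (by omega)
      have e2 : nthL (C.Ew gi) i = [] := List.getD_eq_default _ _ (by omega)
      rw [e1, e2]
      simp [evalW]
  · have e0 : C.fus.getD gi ([], []) = ([], []) := List.getD_eq_default _ _ (by omega)
    have e1 : nthL (C.Dw gi) i = [] := by rw [Cert.Dw, e0]; rfl
    have e2 : nthL (C.Ew gi) i = [] := by rw [Cert.Ew, e0]; rfl
    rw [e1, e2]
    simp [evalW]

/-- the normal word with index `e < p ^ n` -/
def nfw (p n e : ℕ) : List ℕ :=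
  (List.range n).flatMap (fun a => List.replicate ((e / p ^ a) % p) a)

def nodupB : List ℕ → Bool
  | [] => true
  | a :: l => !(l.contains a) && nodupB l

theorem nodup_of_nodupB : ∀ l : List ℕ, nodupB l = true → l.Nodup
  | [], _ => List.nodup_nil
  | a :: l, h => by
    simp only [nodupB, Bool.and_eq_true, Bool.not_eq_true', List.contains_eq_mem,
      decide_eq_false_iff_not] at h
    exact List.nodup_cons.mpr ⟨h.1, nodup_of_nodupB l h.2⟩

noncomputable def codeOf (u : List ℕ) (w : List ℕ) : ℕ :=
  K.P.walkA ((ofW (flat XW w ++ u)).app K.code K.P.iv) 0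

noncomputable def injChk (D : PC) (u : List ℕ) : Bool :=
  nodupB ((List.range (D.p ^ D.n)).map (fun e => codeOf XW u (nfw D.p D.n e)))

theorem nfw_lt (p n e : ℕ) : ∀ l ∈ nfw p n e, l < n := by
  intro l hl
  simp only [nfw, List.mem_flatMap, List.mem_range, List.mem_replicate] at hl
  obtain ⟨a, ha, _, rfl⟩ := hl
  exact ha

theorem evalW_mem (x : ℕ → G) (n : ℕ) (w : List ℕ) (hw : ∀ l ∈ w, l < n) :
    evalW x w ∈ Subgroup.closure (x '' Set.Iio n) := by
  induction w with
  | nil => exact Subgroup.one_mem _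
  | cons a w ih =>
    have h1 : evalW x (a :: w) = x a * evalW x w := by simp [evalW]
    rw [h1]
    exact Subgroup.mul_mem _ (Subgroup.subset_closure ⟨a, hw a (by simp), rfl⟩)
      (ih (fun l hl => hw l (by simp [hl])))

theorem card_ge (D : PC) (u : List ℕ) (h : injChk XW D u = true) :
    D.p ^ D.n ≤ Nat.card (Subgroup.closure (xx XW '' Set.Iio D.n)) := by
  classical
  have hnd := nodup_of_nodupB _ h
  let f : G → ℕ := fun y => ((ok.phi (y * el u)) ok.zero).val
  let L : List G := (List.range (D.p ^ D.n)).map (fun e => evalW (xx XW) (nfw D.p D.n e))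
  have hL : L.map f = (List.range (D.p ^ D.n)).map (fun e => codeOf XW u (nfw D.p D.n e)) := by
    rw [List.map_map]
    apply List.map_congr_left
    intro e _
    show ((ok.phi (evalW (xx XW) (nfw D.p D.n e) * el u)) ok.zero).val = _
    rw [evalW_xx, ← el_append, ← ofW_eval, ok.phi_mk_apply]
    rfl
  have hLnd : L.Nodup := List.Nodup.of_map f (by rw [hL]; exact hnd)
  have hsub : (↑L.toFinset : Set G) ⊆ (Subgroup.closure (xx XW '' Set.Iio D.n) : Set G) := by
    intro y hy
    simp only [Finset.mem_coe, List.mem_toFinset, L, List.mem_map, List.mem_range] at hy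
    obtain ⟨e, _, rfl⟩ := hy
    exact evalW_mem _ _ _ (nfw_lt _ _ _)
  calc D.p ^ D.n = L.length := by simp [L]
    _ = L.toFinset.card := (List.toFinset_card_of_nodup hLnd).symm
    _ = (↑L.toFinset : Set G).ncard := (Set.ncard_coe_finset _).symm
    _ ≤ (Subgroup.closure (xx XW '' Set.Iio D.n) : Set G).ncard :=
        Set.ncard_le_ncard hsub (Set.toFinite _)
    _ = Nat.card (Subgroup.closure (xx XW '' Set.Iio D.n)) := rfl

theorem lb (C : Cert) (u : List ℕ) (hp : C.D.p.Prime) (hC : C.check = true)
    (hpc : pcChk XW C.D = true) (hfus : fusChk XW GW C = true) (hinj : injChk XW C.D u = true)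
    (hG : ¬ C.D.p ^ (C.D.n + 1) ∣ 460815505920) : LocalBound G C.D.p C.k := by
  have hsat := sat_of_chk XW C.D hpc
  have hw : C.D.wordsOK = true := by
    simp only [Cert.check, Bool.and_eq_true] at hC
    exact hC.1.1.1.1
  refine Cfsg.Agent.Lib.Helper63PCUb.ub C hp hC (xx XW) (xx GW) hsat (fus_of_chk XW GW C hfus)
    (le_antisymm (Cfsg.Agent.Lib.Helper38PCpcb.pcb C.D hp.pos hw _ hsat).2 (card_ge XW C.D u hinj))
    ?_
  rw [Cfsg.Agent.Lib.Helper35ONFin.card_eq]
  exact hG

end data

end Cfsg.Agent.Lib.Helper35ONM
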