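import Cfsg.Agent.Lib.Helper35R2a

set_option autoImplicit false
set_option maxRecDepth 100000

namespace Cfsg.Agent.Lib.Helper35R2a

open Cfsg.Agent.Lib.Helper35TC

theorem chkO_11_5 : allD P.chkOrb 11 10240 = true := by decide +kernel
theorem chkO_11_6 : allD P.chkOrb 11 12288 = true := by decide +kernel
theorem chkO_11_7 : allD P.chkOrb 11 14336 = true := by decide +kernel
theorem chkO_11_8 : allD P.chkOrb 11 16384 = true := by decide +kernel
theorem chkO_11_9 : allD P.chkOrb 11 18432 = true := by decide +kernel
theorem chkO_11_10 : allD P.chkOrb 11 20480 = true := by decide +kernel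
theorem chkO_11_11 : allD P.chkOrb 11 22528 = true := by decide +kernel
theorem chkO_11_12 : allD P.chkOrb 11 24576 = true := by decide +kernel
theorem chkO_11_13 : allD P.chkOrb 11 26624 = true := by decide +kernel
theorem chkO_11_14 : allD P.chkOrb 11 28672 = true := by decide +kernel
theorem chkO_11_15 : allD P.chkOrb 11 30720 = true := by decide +kernel
theorem cntO0_14_0 : cntD (P.labIs 0) 14 0 = 1 := by decide +kernel
theorem cntO0_14_1 : cntD (P.labIs 0) 14 16384 = 0 := by decide +kernel
theorem cntO1_14_0 : cntD (P.labIs 1) 14 0 = 960 := by decide +kernel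
theorem cntO1_14_1 : cntD (P.labIs 1) 14 16384 = 0 := by decide +kernel
theorem cntO2_14_0 : cntD (P.labIs 2) 14 0 = 3144 := by decide +kernel
theorem cntO2_14_1 : cntD (P.labIs 2) 14 16384 = 6 := by decide +kernel
theorem cntO3_14_0 : cntD (P.labIs 3) 14 0 = 12279 := by decide +kernel
theorem cntO3_14_1 : cntD (P.labIs 3) 14 16384 = 10121 := by decide +kernel
theorem cntO4_14_0 : cntD (P.labIs 4) 14 0 = 0 := by decide +kernel
theorem cntO4_14_1 : cntD (P.labIs 4) 14 16384 = 1920 := by decide +kernel

end Cfsg.Agent.Lib.Helper35R2a
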