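import Cfsg.Agent.Lib.Helper35R2aChk0
import Cfsg.Agent.Lib.Helper35R2aChk1
import Cfsg.Agent.Lib.Helper35R2aChk2
import Cfsg.Agent.Lib.Helper35R2aChk3
import Cfsg.Agent.Lib.Helper35R2aChk4
import Cfsg.Agent.Lib.Helper35R2aChk5

set_option autoImplicit false
set_option maxRecDepth 100000

namespace Cfsg.Agent.Lib.Helper35R2a

open Cfsg.Agent.Lib.Helper35TC

open Cfsg.Spor

inductive Gen
  | l
  | k
  | a
  | b
  | c
  | d
  | e
  | f
  | h
  | i
  deriving DecidableEq

def edges : List (Gen × ℕ × Gen) :=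
  [(.l, 3, .k), (.k, 3, .a), (.a, 3, .b), (.b, 3, .c), (.c, 3, .d), (.d, 3, .e), (.d, 3, .h), (.e, 3, .f), (.h, 3, .i)]

theorem chkU_12_0 : allD U.chkRow 12 0 = true :=
  allD_join chkU_11_0 chkU_11_1 (by norm_num)
theorem chkU_12_1 : allD U.chkRow 12 4096 = true :=
  allD_join chkU_11_2 chkU_11_3 (by norm_num)
theorem chkU_12_2 : allD U.chkRow 12 8192 = true :=
  allD_join chkU_11_4 chkU_11_5 (by norm_num)
theorem chkU_12_3 : allD U.chkRow 12 12288 = true :=
  allD_join chkU_11_6 chkU_11_7 (by norm_num)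
theorem chkU_12_4 : allD U.chkRow 12 16384 = true :=
  allD_join chkU_11_8 chkU_11_9 (by norm_num)
theorem chkU_12_5 : allD U.chkRow 12 20480 = true :=
  allD_join chkU_11_10 chkU_11_11 (by norm_num)
theorem chkU_12_6 : allD U.chkRow 12 24576 = true :=
  allD_join chkU_11_12 chkU_11_13 (by norm_num)
theorem chkU_12_7 : allD U.chkRow 12 28672 = true :=
  allD_join chkU_11_14 chkU_11_15 (by norm_num)
theorem chkU_12_8 : allD U.chkRow 12 32768 = true :=
  allD_join chkU_11_16 chkU_11_17 (by norm_num)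
theorem chkU_12_9 : allD U.chkRow 12 36864 = true :=
  allD_join chkU_11_18 chkU_11_19 (by norm_num)
theorem chkU_12_10 : allD U.chkRow 12 40960 = true :=
  allD_join chkU_11_20 chkU_11_21 (by norm_num)
theorem chkU_12_11 : allD U.chkRow 12 45056 = true :=
  allD_join chkU_11_22 chkU_11_23 (by norm_num)
theorem chkU_12_12 : allD U.chkRow 12 49152 = true :=
  allD_join chkU_11_24 chkU_11_25 (by norm_num)
theorem chkU_12_13 : allD U.chkRow 12 53248 = true :=
  allD_join chkU_11_26 chkU_11_27 (by norm_num)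
theorem chkU_12_14 : allD U.chkRow 12 57344 = true :=
  allD_join chkU_11_28 chkU_11_29 (by norm_num)
theorem chkU_12_15 : allD U.chkRow 12 61440 = true :=
  allD_join chkU_11_30 chkU_11_31 (by norm_num)
theorem chkU_13_0 : allD U.chkRow 13 0 = true :=
  allD_join chkU_12_0 chkU_12_1 (by norm_num)
theorem chkU_13_1 : allD U.chkRow 13 8192 = true :=
  allD_join chkU_12_2 chkU_12_3 (by norm_num)
theorem chkU_13_2 : allD U.chkRow 13 16384 = true :=
  allD_join chkU_12_4 chkU_12_5 (by norm_num)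
theorem chkU_13_3 : allD U.chkRow 13 24576 = true :=
  allD_join chkU_12_6 chkU_12_7 (by norm_num)
theorem chkU_13_4 : allD U.chkRow 13 32768 = true :=
  allD_join chkU_12_8 chkU_12_9 (by norm_num)
theorem chkU_13_5 : allD U.chkRow 13 40960 = true :=
  allD_join chkU_12_10 chkU_12_11 (by norm_num)
theorem chkU_13_6 : allD U.chkRow 13 49152 = true :=
  allD_join chkU_12_12 chkU_12_13 (by norm_num)
theorem chkU_13_7 : allD U.chkRow 13 57344 = true :=
  allD_join chkU_12_14 chkU_12_15 (by norm_num)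
theorem chkU_14_0 : allD U.chkRow 14 0 = true :=
  allD_join chkU_13_0 chkU_13_1 (by norm_num)
theorem chkU_14_1 : allD U.chkRow 14 16384 = true :=
  allD_join chkU_13_2 chkU_13_3 (by norm_num)
theorem chkU_14_2 : allD U.chkRow 14 32768 = true :=
  allD_join chkU_13_4 chkU_13_5 (by norm_num)
theorem chkU_14_3 : allD U.chkRow 14 49152 = true :=
  allD_join chkU_13_6 chkU_13_7 (by norm_num)
theorem chkU_15_0 : allD U.chkRow 15 0 = true :=
  allD_join chkU_14_0 chkU_14_1 (by norm_num)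
theorem chkU_15_1 : allD U.chkRow 15 32768 = true :=
  allD_join chkU_14_2 chkU_14_3 (by norm_num)
theorem chkU_16_0 : allD U.chkRow 16 0 = true :=
  allD_join chkU_15_0 chkU_15_1 (by norm_num)
theorem cntU_15_0 : cntD U.live 15 0 = 22202 :=
  cntD_join cntU_14_0 cntU_14_1 (by norm_num) (by norm_num)
theorem cntU_15_1 : cntD U.live 15 32768 = 6229 :=
  cntD_join cntU_14_2 cntU_14_3 (by norm_num) (by norm_num)
theorem cntU_16_0 : cntD U.live 16 0 = 28431 :=
  cntD_join cntU_15_0 cntU_15_1 (by norm_num) (by norm_num)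
theorem chkP_10_0 : allD P.chkPt 10 0 = true :=
  allD_join chkP_9_0 chkP_9_1 (by norm_num)
theorem chkP_10_1 : allD P.chkPt 10 1024 = true :=
  allD_join chkP_9_2 chkP_9_3 (by norm_num)
theorem chkP_10_2 : allD P.chkPt 10 2048 = true :=
  allD_join chkP_9_4 chkP_9_5 (by norm_num)
theorem chkP_10_3 : allD P.chkPt 10 3072 = true :=
  allD_join chkP_9_6 chkP_9_7 (by norm_num)
theorem chkP_10_4 : allD P.chkPt 10 4096 = true :=
  allD_join chkP_9_8 chkP_9_9 (by norm_num)
theorem chkP_10_5 : allD P.chkPt 10 5120 = true :=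
  allD_join chkP_9_10 chkP_9_11 (by norm_num)
theorem chkP_10_6 : allD P.chkPt 10 6144 = true :=
  allD_join chkP_9_12 chkP_9_13 (by norm_num)
theorem chkP_10_7 : allD P.chkPt 10 7168 = true :=
  allD_join chkP_9_14 chkP_9_15 (by norm_num)
theorem chkP_10_8 : allD P.chkPt 10 8192 = true :=
  allD_join chkP_9_16 chkP_9_17 (by norm_num)
theorem chkP_10_9 : allD P.chkPt 10 9216 = true :=
  allD_join chkP_9_18 chkP_9_19 (by norm_num)
theorem chkP_10_10 : allD P.chkPt 10 10240 = true :=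
  allD_join chkP_9_20 chkP_9_21 (by norm_num)
theorem chkP_10_11 : allD P.chkPt 10 11264 = true :=
  allD_join chkP_9_22 chkP_9_23 (by norm_num)
theorem chkP_10_12 : allD P.chkPt 10 12288 = true :=
  allD_join chkP_9_24 chkP_9_25 (by norm_num)
theorem chkP_10_13 : allD P.chkPt 10 13312 = true :=
  allD_join chkP_9_26 chkP_9_27 (by norm_num)
theorem chkP_10_14 : allD P.chkPt 10 14336 = true :=
  allD_join chkP_9_28 chkP_9_29 (by norm_num)
theorem chkP_10_15 : allD P.chkPt 10 15360 = true :=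
  allD_join chkP_9_30 chkP_9_31 (by norm_num)
theorem chkP_10_16 : allD P.chkPt 10 16384 = true :=
  allD_join chkP_9_32 chkP_9_33 (by norm_num)
theorem chkP_10_17 : allD P.chkPt 10 17408 = true :=
  allD_join chkP_9_34 chkP_9_35 (by norm_num)
theorem chkP_10_18 : allD P.chkPt 10 18432 = true :=
  allD_join chkP_9_36 chkP_9_37 (by norm_num)
theorem chkP_10_19 : allD P.chkPt 10 19456 = true :=
  allD_join chkP_9_38 chkP_9_39 (by norm_num)
theorem chkP_10_20 : allD P.chkPt 10 20480 = true :=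
  allD_join chkP_9_40 chkP_9_41 (by norm_num)
theorem chkP_10_21 : allD P.chkPt 10 21504 = true :=
  allD_join chkP_9_42 chkP_9_43 (by norm_num)
theorem chkP_10_22 : allD P.chkPt 10 22528 = true :=
  allD_join chkP_9_44 chkP_9_45 (by norm_num)
theorem chkP_10_23 : allD P.chkPt 10 23552 = true :=
  allD_join chkP_9_46 chkP_9_47 (by norm_num)
theorem chkP_10_24 : allD P.chkPt 10 24576 = true :=
  allD_join chkP_9_48 chkP_9_49 (by norm_num)
theorem chkP_10_25 : allD P.chkPt 10 25600 = true :=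
  allD_join chkP_9_50 chkP_9_51 (by norm_num)
theorem chkP_10_26 : allD P.chkPt 10 26624 = true :=
  allD_join chkP_9_52 chkP_9_53 (by norm_num)
theorem chkP_10_27 : allD P.chkPt 10 27648 = true :=
  allD_join chkP_9_54 chkP_9_55 (by norm_num)
theorem chkP_10_28 : allD P.chkPt 10 28672 = true :=
  allD_join chkP_9_56 chkP_9_57 (by norm_num)
theorem chkP_10_29 : allD P.chkPt 10 29696 = true :=
  allD_join chkP_9_58 chkP_9_59 (by norm_num)
theorem chkP_10_30 : allD P.chkPt 10 30720 = true :=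
  allD_join chkP_9_60 chkP_9_61 (by norm_num)
theorem chkP_10_31 : allD P.chkPt 10 31744 = true :=
  allD_join chkP_9_62 chkP_9_63 (by norm_num)
theorem chkP_11_0 : allD P.chkPt 11 0 = true :=
  allD_join chkP_10_0 chkP_10_1 (by norm_num)
theorem chkP_11_1 : allD P.chkPt 11 2048 = true :=
  allD_join chkP_10_2 chkP_10_3 (by norm_num)
theorem chkP_11_2 : allD P.chkPt 11 4096 = true :=
  allD_join chkP_10_4 chkP_10_5 (by norm_num)
theorem chkP_11_3 : allD P.chkPt 11 6144 = true :=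
  allD_join chkP_10_6 chkP_10_7 (by norm_num)
theorem chkP_11_4 : allD P.chkPt 11 8192 = true :=
  allD_join chkP_10_8 chkP_10_9 (by norm_num)
theorem chkP_11_5 : allD P.chkPt 11 10240 = true :=
  allD_join chkP_10_10 chkP_10_11 (by norm_num)
theorem chkP_11_6 : allD P.chkPt 11 12288 = true :=
  allD_join chkP_10_12 chkP_10_13 (by norm_num)
theorem chkP_11_7 : allD P.chkPt 11 14336 = true :=
  allD_join chkP_10_14 chkP_10_15 (by norm_num)
theorem chkP_11_8 : allD P.chkPt 11 16384 = true :=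
  allD_join chkP_10_16 chkP_10_17 (by norm_num)
theorem chkP_11_9 : allD P.chkPt 11 18432 = true :=
  allD_join chkP_10_18 chkP_10_19 (by norm_num)
theorem chkP_11_10 : allD P.chkPt 11 20480 = true :=
  allD_join chkP_10_20 chkP_10_21 (by norm_num)
theorem chkP_11_11 : allD P.chkPt 11 22528 = true :=
  allD_join chkP_10_22 chkP_10_23 (by norm_num)
theorem chkP_11_12 : allD P.chkPt 11 24576 = true :=
  allD_join chkP_10_24 chkP_10_25 (by norm_num)
theorem chkP_11_13 : allD P.chkPt 11 26624 = true :=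
  allD_join chkP_10_26 chkP_10_27 (by norm_num)
theorem chkP_11_14 : allD P.chkPt 11 28672 = true :=
  allD_join chkP_10_28 chkP_10_29 (by norm_num)
theorem chkP_11_15 : allD P.chkPt 11 30720 = true :=
  allD_join chkP_10_30 chkP_10_31 (by norm_num)
theorem chkP_12_0 : allD P.chkPt 12 0 = true :=
  allD_join chkP_11_0 chkP_11_1 (by norm_num)
theorem chkP_12_1 : allD P.chkPt 12 4096 = true :=
  allD_join chkP_11_2 chkP_11_3 (by norm_num)
theorem chkP_12_2 : allD P.chkPt 12 8192 = true :=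
  allD_join chkP_11_4 chkP_11_5 (by norm_num)
theorem chkP_12_3 : allD P.chkPt 12 12288 = true :=
  allD_join chkP_11_6 chkP_11_7 (by norm_num)
theorem chkP_12_4 : allD P.chkPt 12 16384 = true :=
  allD_join chkP_11_8 chkP_11_9 (by norm_num)
theorem chkP_12_5 : allD P.chkPt 12 20480 = true :=
  allD_join chkP_11_10 chkP_11_11 (by norm_num)
theorem chkP_12_6 : allD P.chkPt 12 24576 = true :=
  allD_join chkP_11_12 chkP_11_13 (by norm_num)
theorem chkP_12_7 : allD P.chkPt 12 28672 = true :=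
  allD_join chkP_11_14 chkP_11_15 (by norm_num)
theorem chkP_13_0 : allD P.chkPt 13 0 = true :=
  allD_join chkP_12_0 chkP_12_1 (by norm_num)
theorem chkP_13_1 : allD P.chkPt 13 8192 = true :=
  allD_join chkP_12_2 chkP_12_3 (by norm_num)
theorem chkP_13_2 : allD P.chkPt 13 16384 = true :=
  allD_join chkP_12_4 chkP_12_5 (by norm_num)
theorem chkP_13_3 : allD P.chkPt 13 24576 = true :=
  allD_join chkP_12_6 chkP_12_7 (by norm_num)
theorem chkP_14_0 : allD P.chkPt 14 0 = true :=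
  allD_join chkP_13_0 chkP_13_1 (by norm_num)
theorem chkP_14_1 : allD P.chkPt 14 16384 = true :=
  allD_join chkP_13_2 chkP_13_3 (by norm_num)
theorem chkP_15_0 : allD P.chkPt 15 0 = true :=
  allD_join chkP_14_0 chkP_14_1 (by norm_num)
theorem chkO_12_0 : allD P.chkOrb 12 0 = true :=
  allD_join chkO_11_0 chkO_11_1 (by norm_num)
theorem chkO_12_1 : allD P.chkOrb 12 4096 = true :=
  allD_join chkO_11_2 chkO_11_3 (by norm_num)
theorem chkO_12_2 : allD P.chkOrb 12 8192 = true :=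
  allD_join chkO_11_4 chkO_11_5 (by norm_num)
theorem chkO_12_3 : allD P.chkOrb 12 12288 = true :=
  allD_join chkO_11_6 chkO_11_7 (by norm_num)
theorem chkO_12_4 : allD P.chkOrb 12 16384 = true :=
  allD_join chkO_11_8 chkO_11_9 (by norm_num)
theorem chkO_12_5 : allD P.chkOrb 12 20480 = true :=
  allD_join chkO_11_10 chkO_11_11 (by norm_num)
theorem chkO_12_6 : allD P.chkOrb 12 24576 = true :=
  allD_join chkO_11_12 chkO_11_13 (by norm_num)
theorem chkO_12_7 : allD P.chkOrb 12 28672 = true :=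
  allD_join chkO_11_14 chkO_11_15 (by norm_num)
theorem chkO_13_0 : allD P.chkOrb 13 0 = true :=
  allD_join chkO_12_0 chkO_12_1 (by norm_num)
theorem chkO_13_1 : allD P.chkOrb 13 8192 = true :=
  allD_join chkO_12_2 chkO_12_3 (by norm_num)
theorem chkO_13_2 : allD P.chkOrb 13 16384 = true :=
  allD_join chkO_12_4 chkO_12_5 (by norm_num)
theorem chkO_13_3 : allD P.chkOrb 13 24576 = true :=
  allD_join chkO_12_6 chkO_12_7 (by norm_num)
theorem chkO_14_0 : allD P.chkOrb 14 0 = true :=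
  allD_join chkO_13_0 chkO_13_1 (by norm_num)
theorem chkO_14_1 : allD P.chkOrb 14 16384 = true :=
  allD_join chkO_13_2 chkO_13_3 (by norm_num)
theorem chkO_15_0 : allD P.chkOrb 15 0 = true :=
  allD_join chkO_14_0 chkO_14_1 (by norm_num)
theorem cntO0_15_0 : cntD (P.labIs 0) 15 0 = 1 :=
  cntD_join cntO0_14_0 cntO0_14_1 (by norm_num) (by norm_num)
theorem cntO1_15_0 : cntD (P.labIs 1) 15 0 = 960 :=
  cntD_join cntO1_14_0 cntO1_14_1 (by norm_num) (by norm_num)
theorem cntO2_15_0 : cntD (P.labIs 2) 15 0 = 3150 :=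
  cntD_join cntO2_14_0 cntO2_14_1 (by norm_num) (by norm_num)
theorem cntO3_15_0 : cntD (P.labIs 3) 15 0 = 22400 :=
  cntD_join cntO3_14_0 cntO3_14_1 (by norm_num) (by norm_num)
theorem cntO4_15_0 : cntD (P.labIs 4) 15 0 = 1920 :=
  cntD_join cntO4_14_0 cntO4_14_1 (by norm_num) (by norm_num)

def extraExps : List (WExp Cfsg.Agent.Lib.Helper35R2a.Gen) := [
  (.mul (.of .l) (.inv (.pow (.mul (.mul (.mul (.mul (.mul (.mul (.of .a) (.of .b)) (.of .c)) (.of .d)) (.of .e)) (.of .f)) (.of .h)) 9)))]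

def subExps : List (WExp Cfsg.Agent.Lib.Helper35R2a.Gen) := [
  (.of .l),
  (.of .k),
  (.of .a),
  (.of .b),
  (.of .c),
  (.of .d),
  (.of .e),
  (.of .f),
  (.of .h)]

def code : Cfsg.Agent.Lib.Helper35R2a.Gen → ℕ
  | .l => 0
  | .k => 1
  | .a => 2
  | .b => 3
  | .c => 4
  | .d => 5
  | .e => 6
  | .f => 7
  | .h => 8
  | .i => 9

def extra : List (FreeGroup Gen) := extraExps.map WExp.eval

noncomputable def K : Pkg Cfsg.Agent.Lib.Helper35R2a.Gen where
  rels := coxRelators Cfsg.Agent.Lib.Helper35R2a.edges ∪ {r | r ∈ Cfsg.Agent.Lib.Helper35R2a.extra}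
  S := {s | ∃ e ∈ subExps, s = e.eval}
  relExps := coxExps Cfsg.Agent.Lib.Helper35R2a.edges ++ extraExps
  subExps := subExps
  code := code
  letters := [FreeGroup.of Cfsg.Agent.Lib.Helper35R2a.Gen.l, FreeGroup.of Cfsg.Agent.Lib.Helper35R2a.Gen.k, FreeGroup.of Cfsg.Agent.Lib.Helper35R2a.Gen.a, FreeGroup.of Cfsg.Agent.Lib.Helper35R2a.Gen.b, FreeGroup.of Cfsg.Agent.Lib.Helper35R2a.Gen.c, FreeGroup.of Cfsg.Agent.Lib.Helper35R2a.Gen.d, FreeGroup.of Cfsg.Agent.Lib.Helper35R2a.Gen.e, FreeGroup.of Cfsg.Agent.Lib.Helper35R2a.Gen.f, FreeGroup.of Cfsg.Agent.Lib.Helper35R2a.Gen.h, FreeGroup.of Cfsg.Agent.Lib.Helper35R2a.Gen.i]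
  U := U
  rotT := tR
  rotSrc := rotSrc
  relWords := relWords
  P := P

theorem hS : ∀ s, s ∈ K.S ↔ ∃ e ∈ K.subExps, s = e.eval := fun _ => Iff.rfl

theorem hsurj : ∀ l < K.P.L, ∃ x, l = K.code x ∨ l = K.P.iv (K.code x) := by
  intro l hl
  have hl' : l < 10 := hl
  interval_cases l
  · exact ⟨.l, Or.inl rfl⟩
  · exact ⟨.k, Or.inl rfl⟩
  · exact ⟨.a, Or.inl rfl⟩
  · exact ⟨.b, Or.inl rfl⟩
  · exact ⟨.c, Or.inl rfl⟩
  · exact ⟨.d, Or.inl rfl⟩
  · exact ⟨.e, Or.inl rfl⟩
  · exact ⟨.f, Or.inl rfl⟩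
  · exact ⟨.h, Or.inl rfl⟩
  · exact ⟨.i, Or.inl rfl⟩

theorem hvalG_lt : ∀ l < K.P.L, K.valG (K.P.iv l) * K.valG l = 1 := by
  intro l hl
  have hl' : l < 10 := hl
  interval_cases l
  · exact cox_sq Cfsg.Agent.Lib.Helper35R2a.edges _ .l (by decide)
  · exact cox_sq Cfsg.Agent.Lib.Helper35R2a.edges _ .k (by decide)
  · exact cox_sq Cfsg.Agent.Lib.Helper35R2a.edges _ .a (by decide)
  · exact cox_sq Cfsg.Agent.Lib.Helper35R2a.edges _ .b (by decide)
  · exact cox_sq Cfsg.Agent.Lib.Helper35R2a.edges _ .c (by decide)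
  · exact cox_sq Cfsg.Agent.Lib.Helper35R2a.edges _ .d (by decide)
  · exact cox_sq Cfsg.Agent.Lib.Helper35R2a.edges _ .e (by decide)
  · exact cox_sq Cfsg.Agent.Lib.Helper35R2a.edges _ .f (by decide)
  · exact cox_sq Cfsg.Agent.Lib.Helper35R2a.edges _ .h (by decide)
  · exact cox_sq Cfsg.Agent.Lib.Helper35R2a.edges _ .i (by decide)

theorem hP : K.P.Valid where
  hn := by decide
  hlen := rfl
  hiv := by decide
  hpt := all_of_allD _ 15 28431 (by norm_num) chkP_15_0
  hmacL := by decide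
  hrelL := by decide

theorem ok : K.Ok where
  hrels := hrels_of Cfsg.Agent.Lib.Helper35R2a.edges Cfsg.Agent.Lib.Helper35R2a.extra extraExps rfl
  hS := hS
  hcodeL := by intro x; cases x <;> decide
  hletters := by intro x; cases x <;> rfl
  hsurj := hsurj
  hvalG := Pkg.hvalG_of rfl rfl hvalG_lt
  hP := hP
  hpairs := by decide +kernel
  hsubsP := by decide +kernel
  hsub0 := by decide +kernel
  hUL := rfl
  hUN := by decide
  hrot := rfl
  hrotT := by decide +kernel
  hrelW := by decide +kernel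
  hUsub := fun _ => rfl
  hchk := all_of_allD _ 16 38997 (by norm_num) chkU_16_0
  hcnt := by
    have h := card_filter_range U.live 16 38997 (by norm_num) U.live_lt
    rw [cntU_16_0] at h
    exact le_of_eq h

theorem horb : ∀ j < K.P.n, K.P.chkOrb j = true :=
  all_of_allD _ 15 28431 (by norm_num) chkO_15_0

theorem orbit0 : ∃ q : K.Grp ⧸ K.H,
    (∀ q', q' ∈ MulAction.orbit K.H q ↔ K.P.lab (ok.thetaFun q') = 0) ∧
    (MulAction.orbit K.H q).ncard = 1 := by
  obtain ⟨q, h1, h2⟩ := ok.orbit_spec horb 0 0 (by decide +kernel) (by decide) (by decide +kernel)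
  refine ⟨q, h1, ?_⟩
  have h := card_filter_range (P.labIs 0) 15 28431 (by norm_num) (P.labIs_lt 0)
  rw [cntO0_15_0] at h
  exact h2.trans h

theorem orbit1 : ∃ q : K.Grp ⧸ K.H,
    (∀ q', q' ∈ MulAction.orbit K.H q ↔ K.P.lab (ok.thetaFun q') = 1) ∧
    (MulAction.orbit K.H q).ncard = 960 := by
  obtain ⟨q, h1, h2⟩ := ok.orbit_spec horb 1 1 (by decide +kernel) (by decide) (by decide +kernel)
  refine ⟨q, h1, ?_⟩
  have h := card_filter_range (P.labIs 1) 15 28431 (by norm_num) (P.labIs_lt 1)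
  rw [cntO1_15_0] at h
  exact h2.trans h

theorem orbit2 : ∃ q : K.Grp ⧸ K.H,
    (∀ q', q' ∈ MulAction.orbit K.H q ↔ K.P.lab (ok.thetaFun q') = 2) ∧
    (MulAction.orbit K.H q).ncard = 3150 := by
  obtain ⟨q, h1, h2⟩ := ok.orbit_spec horb 2 28 (by decide +kernel) (by decide) (by decide +kernel)
  refine ⟨q, h1, ?_⟩
  have h := card_filter_range (P.labIs 2) 15 28431 (by norm_num) (P.labIs_lt 2)
  rw [cntO2_15_0] at h
  exact h2.trans h

theorem orbit3 : ∃ q : K.Grp ⧸ K.H,
    (∀ q', q' ∈ MulAction.orbit K.H q ↔ K.P.lab (ok.thetaFun q') = 3) ∧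
    (MulAction.orbit K.H q).ncard = 22400 := by
  obtain ⟨q, h1, h2⟩ := ok.orbit_spec horb 3 169 (by decide +kernel) (by decide) (by decide +kernel)
  refine ⟨q, h1, ?_⟩
  have h := card_filter_range (P.labIs 3) 15 28431 (by norm_num) (P.labIs_lt 3)
  rw [cntO3_15_0] at h
  exact h2.trans h

theorem orbit4 : ∃ q : K.Grp ⧸ K.H,
    (∀ q', q' ∈ MulAction.orbit K.H q ↔ K.P.lab (ok.thetaFun q') = 4) ∧
    (MulAction.orbit K.H q).ncard = 1920 := by
  obtain ⟨q, h1, h2⟩ := ok.orbit_spec horb 4 20385 (by decide +kernel) (by decide) (by decide +kernel)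
  refine ⟨q, h1, ?_⟩
  have h := card_filter_range (P.labIs 4) 15 28431 (by norm_num) (P.labIs_lt 4)
  rw [cntO4_15_0] at h
  exact h2.trans h

end Cfsg.Agent.Lib.Helper35R2a
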