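import Cfsg.Agent.Lib.Helper35R2c1

set_option autoImplicit false
set_option maxRecDepth 100000

namespace Cfsg.Agent.Lib.Helper35R2c1

open Cfsg.Agent.Lib.Helper35TC

theorem chkU_8_0 : allD U.chkRow 8 0 = true := by decide +kernel
theorem cntU_8_0 : cntD U.live 8 0 = 120 := by decide +kernel
theorem chkP_7_0 : allD P.chkPt 7 0 = true := by decide +kernel

end Cfsg.Agent.Lib.Helper35R2c1
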