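import Cfsg.Agent.Lib.Helper35R2c1Chk0

set_option autoImplicit false
set_option maxRecDepth 100000

namespace Cfsg.Agent.Lib.Helper35R2c1

open Cfsg.Agent.Lib.Helper35TC

open Cfsg.Spor

inductive Gen
  | l
  | k
  | a
  | b
  | c
  | d
  | e
  | f
  | h
  deriving DecidableEq

def edges : List (Gen × ℕ × Gen) :=
  [(.l, 3, .k), (.k, 3, .a), (.a, 3, .b), (.b, 3, .c), (.c, 3, .d), (.d, 3, .e), (.d, 3, .h), (.e, 3, .f)]


def extraExps : List (WExp Cfsg.Agent.Lib.Helper35R2c1.Gen) := [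
  (.mul (.of .l) (.inv (.pow (.mul (.mul (.mul (.mul (.mul (.mul (.of .a) (.of .b)) (.of .c)) (.of .d)) (.of .e)) (.of .f)) (.of .h)) 9)))]

def subExps : List (WExp Cfsg.Agent.Lib.Helper35R2c1.Gen) := [
  (.of .l),
  (.of .a),
  (.of .b),
  (.of .c),
  (.of .d),
  (.of .e),
  (.of .f),
  (.of .h)]

def code : Cfsg.Agent.Lib.Helper35R2c1.Gen → ℕ
  | .l => 0
  | .k => 1
  | .a => 2
  | .b => 3
  | .c => 4
  | .d => 5
  | .e => 6
  | .f => 7
  | .h => 8

def extra : List (FreeGroup Gen) := extraExps.map WExp.eval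

noncomputable def K : Pkg Cfsg.Agent.Lib.Helper35R2c1.Gen where
  rels := coxRelators Cfsg.Agent.Lib.Helper35R2c1.edges ∪ {r | r ∈ Cfsg.Agent.Lib.Helper35R2c1.extra}
  S := {s | ∃ e ∈ subExps, s = e.eval}
  relExps := coxExps Cfsg.Agent.Lib.Helper35R2c1.edges ++ extraExps
  subExps := subExps
  code := code
  letters := [FreeGroup.of Cfsg.Agent.Lib.Helper35R2c1.Gen.l, FreeGroup.of Cfsg.Agent.Lib.Helper35R2c1.Gen.k, FreeGroup.of Cfsg.Agent.Lib.Helper35R2c1.Gen.a, FreeGroup.of Cfsg.Agent.Lib.Helper35R2c1.Gen.b, FreeGroup.of Cfsg.Agent.Lib.Helper35R2c1.Gen.c, FreeGroup.of Cfsg.Agent.Lib.Helper35R2c1.Gen.d, FreeGroup.of Cfsg.Agent.Lib.Helper35R2c1.Gen.e, FreeGroup.of Cfsg.Agent.Lib.Helper35R2c1.Gen.f, FreeGroup.of Cfsg.Agent.Lib.Helper35R2c1.Gen.h]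
  U := U
  rotT := tR
  rotSrc := rotSrc
  relWords := relWords
  P := P

theorem hS : ∀ s, s ∈ K.S ↔ ∃ e ∈ K.subExps, s = e.eval := fun _ => Iff.rfl

theorem hsurj : ∀ l < K.P.L, ∃ x, l = K.code x ∨ l = K.P.iv (K.code x) := by
  intro l hl
  have hl' : l < 9 := hl
  interval_cases l
  · exact ⟨.l, Or.inl rfl⟩
  · exact ⟨.k, Or.inl rfl⟩
  · exact ⟨.a, Or.inl rfl⟩
  · exact ⟨.b, Or.inl rfl⟩
  · exact ⟨.c, Or.inl rfl⟩
  · exact ⟨.d, Or.inl rfl⟩
  · exact ⟨.e, Or.inl rfl⟩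
  · exact ⟨.f, Or.inl rfl⟩
  · exact ⟨.h, Or.inl rfl⟩

theorem hvalG_lt : ∀ l < K.P.L, K.valG (K.P.iv l) * K.valG l = 1 := by
  intro l hl
  have hl' : l < 9 := hl
  interval_cases l
  · exact cox_sq Cfsg.Agent.Lib.Helper35R2c1.edges _ .l (by decide)
  · exact cox_sq Cfsg.Agent.Lib.Helper35R2c1.edges _ .k (by decide)
  · exact cox_sq Cfsg.Agent.Lib.Helper35R2c1.edges _ .a (by decide)
  · exact cox_sq Cfsg.Agent.Lib.Helper35R2c1.edges _ .b (by decide)
  · exact cox_sq Cfsg.Agent.Lib.Helper35R2c1.edges _ .c (by decide)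
  · exact cox_sq Cfsg.Agent.Lib.Helper35R2c1.edges _ .d (by decide)
  · exact cox_sq Cfsg.Agent.Lib.Helper35R2c1.edges _ .e (by decide)
  · exact cox_sq Cfsg.Agent.Lib.Helper35R2c1.edges _ .f (by decide)
  · exact cox_sq Cfsg.Agent.Lib.Helper35R2c1.edges _ .h (by decide)

theorem hP : K.P.Valid where
  hn := by decide
  hlen := rfl
  hiv := by decide
  hpt := all_of_allD _ 7 120 (by norm_num) chkP_7_0
  hmacL := by decide
  hrelL := by decide

theorem ok : K.Ok where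
  hrels := hrels_of Cfsg.Agent.Lib.Helper35R2c1.edges Cfsg.Agent.Lib.Helper35R2c1.extra extraExps rfl
  hS := hS
  hcodeL := by intro x; cases x <;> decide
  hletters := by intro x; cases x <;> rfl
  hsurj := hsurj
  hvalG := Pkg.hvalG_of rfl rfl hvalG_lt
  hP := hP
  hpairs := by decide +kernel
  hsubsP := by decide +kernel
  hsub0 := by decide +kernel
  hUL := rfl
  hUN := by decide
  hrot := rfl
  hrotT := by decide +kernel
  hrelW := by decide +kernel
  hUsub := fun _ => rfl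
  hchk := all_of_allD _ 8 149 (by norm_num) chkU_8_0
  hcnt := by
    have h := card_filter_range U.live 8 149 (by norm_num) U.live_lt
    rw [cntU_8_0] at h
    exact le_of_eq h

end Cfsg.Agent.Lib.Helper35R2c1
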