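import Cfsg.Agent.Lib.Helper35R2c2

set_option autoImplicit false
set_option maxRecDepth 100000

namespace Cfsg.Agent.Lib.Helper35R2c2

open Cfsg.Agent.Lib.Helper35TC

theorem chkU_6_0 : allD U.chkRow 6 0 = true := by decide +kernel
theorem cntU_6_0 : cntD U.live 6 0 = 56 := by decide +kernel
theorem chkP_6_0 : allD P.chkPt 6 0 = true := by decide +kernel

end Cfsg.Agent.Lib.Helper35R2c2
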