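import Cfsg.Agent.Lib.Helper35R2c2Chk0

set_option autoImplicit false
set_option maxRecDepth 100000

namespace Cfsg.Agent.Lib.Helper35R2c2

open Cfsg.Agent.Lib.Helper35TC

open Cfsg.Spor

inductive Gen
  | l
  | a
  | b
  | c
  | d
  | e
  | f
  | h
  deriving DecidableEq

def edges : List (Gen × ℕ × Gen) :=
  [(.a, 3, .b), (.b, 3, .c), (.c, 3, .d), (.d, 3, .e), (.d, 3, .h), (.e, 3, .f)]


def extraExps : List (WExp Cfsg.Agent.Lib.Helper35R2c2.Gen) := [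
  (.mul (.of .l) (.inv (.pow (.mul (.mul (.mul (.mul (.mul (.mul (.of .a) (.of .b)) (.of .c)) (.of .d)) (.of .e)) (.of .f)) (.of .h)) 9))),
  (.pow (.mul (.of .l) (.of .l)) 1),
  (.pow (.mul (.of .l) (.of .a)) 2),
  (.pow (.mul (.of .l) (.of .b)) 2),
  (.pow (.mul (.of .l) (.of .c)) 2),
  (.pow (.mul (.of .l) (.of .d)) 2),
  (.pow (.mul (.of .l) (.of .e)) 2),
  (.pow (.mul (.of .l) (.of .f)) 2),
  (.pow (.mul (.of .l) (.of .h)) 2)]

def subExps : List (WExp Cfsg.Agent.Lib.Helper35R2c2.Gen) := [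
  (.of .b),
  (.of .c),
  (.of .d),
  (.of .e),
  (.of .f),
  (.of .h)]

def code : Cfsg.Agent.Lib.Helper35R2c2.Gen → ℕ
  | .l => 0
  | .a => 2
  | .b => 3
  | .c => 4
  | .d => 5
  | .e => 6
  | .f => 7
  | .h => 8

def extra : List (FreeGroup Gen) := extraExps.map WExp.eval

noncomputable def K : Pkg Cfsg.Agent.Lib.Helper35R2c2.Gen where
  rels := coxRelators Cfsg.Agent.Lib.Helper35R2c2.edges ∪ {r | r ∈ Cfsg.Agent.Lib.Helper35R2c2.extra}
  S := {s | ∃ e ∈ subExps, s = e.eval}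
  relExps := coxExps Cfsg.Agent.Lib.Helper35R2c2.edges ++ extraExps
  subExps := subExps
  code := code
  letters := [FreeGroup.of Cfsg.Agent.Lib.Helper35R2c2.Gen.l, (FreeGroup.of Cfsg.Agent.Lib.Helper35R2c2.Gen.l)⁻¹, FreeGroup.of Cfsg.Agent.Lib.Helper35R2c2.Gen.a, FreeGroup.of Cfsg.Agent.Lib.Helper35R2c2.Gen.b, FreeGroup.of Cfsg.Agent.Lib.Helper35R2c2.Gen.c, FreeGroup.of Cfsg.Agent.Lib.Helper35R2c2.Gen.d, FreeGroup.of Cfsg.Agent.Lib.Helper35R2c2.Gen.e, FreeGroup.of Cfsg.Agent.Lib.Helper35R2c2.Gen.f, FreeGroup.of Cfsg.Agent.Lib.Helper35R2c2.Gen.h]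
  U := U
  rotT := tR
  rotSrc := rotSrc
  relWords := relWords
  P := P

theorem hS : ∀ s, s ∈ K.S ↔ ∃ e ∈ K.subExps, s = e.eval := fun _ => Iff.rfl

theorem hsurj : ∀ l < K.P.L, ∃ x, l = K.code x ∨ l = K.P.iv (K.code x) := by
  intro l hl
  have hl' : l < 9 := hl
  interval_cases l
  · exact ⟨.l, Or.inl rfl⟩
  · exact ⟨.l, Or.inr rfl⟩
  · exact ⟨.a, Or.inl rfl⟩
  · exact ⟨.b, Or.inl rfl⟩
  · exact ⟨.c, Or.inl rfl⟩
  · exact ⟨.d, Or.inl rfl⟩
  · exact ⟨.e, Or.inl rfl⟩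
  · exact ⟨.f, Or.inl rfl⟩
  · exact ⟨.h, Or.inl rfl⟩

theorem hvalG_lt : ∀ l < K.P.L, K.valG (K.P.iv l) * K.valG l = 1 := by
  intro l hl
  have hl' : l < 9 := hl
  interval_cases l
  · exact inv_mul_cancel (PresentedGroup.mk K.rels (FreeGroup.of Cfsg.Agent.Lib.Helper35R2c2.Gen.l))
  · exact mul_inv_cancel (PresentedGroup.mk K.rels (FreeGroup.of Cfsg.Agent.Lib.Helper35R2c2.Gen.l))
  · exact cox_sq Cfsg.Agent.Lib.Helper35R2c2.edges _ .a (by decide)
  · exact cox_sq Cfsg.Agent.Lib.Helper35R2c2.edges _ .b (by decide)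
  · exact cox_sq Cfsg.Agent.Lib.Helper35R2c2.edges _ .c (by decide)
  · exact cox_sq Cfsg.Agent.Lib.Helper35R2c2.edges _ .d (by decide)
  · exact cox_sq Cfsg.Agent.Lib.Helper35R2c2.edges _ .e (by decide)
  · exact cox_sq Cfsg.Agent.Lib.Helper35R2c2.edges _ .f (by decide)
  · exact cox_sq Cfsg.Agent.Lib.Helper35R2c2.edges _ .h (by decide)

theorem hP : K.P.Valid where
  hn := by decide
  hlen := rfl
  hiv := by decide
  hpt := all_of_allD _ 6 56 (by norm_num) chkP_6_0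
  hmacL := by decide
  hrelL := by decide

theorem ok : K.Ok where
  hrels := hrels_of Cfsg.Agent.Lib.Helper35R2c2.edges Cfsg.Agent.Lib.Helper35R2c2.extra extraExps rfl
  hS := hS
  hcodeL := by intro x; cases x <;> decide
  hletters := by intro x; cases x <;> rfl
  hsurj := hsurj
  hvalG := Pkg.hvalG_of rfl rfl hvalG_lt
  hP := hP
  hpairs := by decide +kernel
  hsubsP := by decide +kernel
  hsub0 := by decide +kernel
  hUL := rfl
  hUN := by decide
  hrot := rfl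
  hrotT := by decide +kernel
  hrelW := by decide +kernel
  hUsub := fun _ => rfl
  hchk := all_of_allD _ 6 56 (by norm_num) chkU_6_0
  hcnt := by
    have h := card_filter_range U.live 6 56 (by norm_num) U.live_lt
    rw [cntU_6_0] at h
    exact le_of_eq h

end Cfsg.Agent.Lib.Helper35R2c2
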