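import Cfsg.Agent.Lib.Helper35SuzBChk0
import Cfsg.Agent.Lib.Helper35SuzBChk1
import Cfsg.Agent.Lib.Helper35SuzBChk2
import Cfsg.Agent.Lib.Helper35SuzBChk3
import Cfsg.Prelude.Def_Spor_Suz

set_option autoImplicit false
set_option maxRecDepth 100000

namespace Cfsg.Agent.Lib.Helper35SuzB

open Cfsg.Agent.Lib.Helper35TC

open Cfsg.Spor

theorem chkU_12_0 : allD U.chkRow 12 0 = true :=
  allD_join chkU_11_0 chkU_11_1 (by norm_num)
theorem chkU_12_1 : allD U.chkRow 12 4096 = true :=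
  allD_join chkU_11_2 chkU_11_3 (by norm_num)
theorem chkU_12_2 : allD U.chkRow 12 8192 = true :=
  allD_join chkU_11_4 chkU_11_5 (by norm_num)
theorem chkU_12_3 : allD U.chkRow 12 12288 = true :=
  allD_join chkU_11_6 chkU_11_7 (by norm_num)
theorem chkU_12_4 : allD U.chkRow 12 16384 = true :=
  allD_join chkU_11_8 chkU_11_9 (by norm_num)
theorem chkU_12_5 : allD U.chkRow 12 20480 = true :=
  allD_join chkU_11_10 chkU_11_11 (by norm_num)
theorem chkU_12_6 : allD U.chkRow 12 24576 = true :=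
  allD_join chkU_11_12 chkU_11_13 (by norm_num)
theorem chkU_12_7 : allD U.chkRow 12 28672 = true :=
  allD_join chkU_11_14 chkU_11_15 (by norm_num)
theorem chkU_13_0 : allD U.chkRow 13 0 = true :=
  allD_join chkU_12_0 chkU_12_1 (by norm_num)
theorem chkU_13_1 : allD U.chkRow 13 8192 = true :=
  allD_join chkU_12_2 chkU_12_3 (by norm_num)
theorem chkU_13_2 : allD U.chkRow 13 16384 = true :=
  allD_join chkU_12_4 chkU_12_5 (by norm_num)
theorem chkU_13_3 : allD U.chkRow 13 24576 = true :=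
  allD_join chkU_12_6 chkU_12_7 (by norm_num)
theorem chkU_14_0 : allD U.chkRow 14 0 = true :=
  allD_join chkU_13_0 chkU_13_1 (by norm_num)
theorem chkU_14_1 : allD U.chkRow 14 16384 = true :=
  allD_join chkU_13_2 chkU_13_3 (by norm_num)
theorem chkU_15_0 : allD U.chkRow 15 0 = true :=
  allD_join chkU_14_0 chkU_14_1 (by norm_num)
theorem cntU_15_0 : cntD U.live 15 0 = 22880 :=
  cntD_join cntU_14_0 cntU_14_1 (by norm_num) (by norm_num)
theorem chkP_10_0 : allD P.chkPt 10 0 = true :=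
  allD_join chkP_9_0 chkP_9_1 (by norm_num)
theorem chkP_10_1 : allD P.chkPt 10 1024 = true :=
  allD_join chkP_9_2 chkP_9_3 (by norm_num)
theorem chkP_10_2 : allD P.chkPt 10 2048 = true :=
  allD_join chkP_9_4 chkP_9_5 (by norm_num)
theorem chkP_10_3 : allD P.chkPt 10 3072 = true :=
  allD_join chkP_9_6 chkP_9_7 (by norm_num)
theorem chkP_10_4 : allD P.chkPt 10 4096 = true :=
  allD_join chkP_9_8 chkP_9_9 (by norm_num)
theorem chkP_10_5 : allD P.chkPt 10 5120 = true :=
  allD_join chkP_9_10 chkP_9_11 (by norm_num)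
theorem chkP_10_6 : allD P.chkPt 10 6144 = true :=
  allD_join chkP_9_12 chkP_9_13 (by norm_num)
theorem chkP_10_7 : allD P.chkPt 10 7168 = true :=
  allD_join chkP_9_14 chkP_9_15 (by norm_num)
theorem chkP_10_8 : allD P.chkPt 10 8192 = true :=
  allD_join chkP_9_16 chkP_9_17 (by norm_num)
theorem chkP_10_9 : allD P.chkPt 10 9216 = true :=
  allD_join chkP_9_18 chkP_9_19 (by norm_num)
theorem chkP_10_10 : allD P.chkPt 10 10240 = true :=
  allD_join chkP_9_20 chkP_9_21 (by norm_num)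
theorem chkP_10_11 : allD P.chkPt 10 11264 = true :=
  allD_join chkP_9_22 chkP_9_23 (by norm_num)
theorem chkP_10_12 : allD P.chkPt 10 12288 = true :=
  allD_join chkP_9_24 chkP_9_25 (by norm_num)
theorem chkP_10_13 : allD P.chkPt 10 13312 = true :=
  allD_join chkP_9_26 chkP_9_27 (by norm_num)
theorem chkP_10_14 : allD P.chkPt 10 14336 = true :=
  allD_join chkP_9_28 chkP_9_29 (by norm_num)
theorem chkP_10_15 : allD P.chkPt 10 15360 = true :=
  allD_join chkP_9_30 chkP_9_31 (by norm_num)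
theorem chkP_10_16 : allD P.chkPt 10 16384 = true :=
  allD_join chkP_9_32 chkP_9_33 (by norm_num)
theorem chkP_10_17 : allD P.chkPt 10 17408 = true :=
  allD_join chkP_9_34 chkP_9_35 (by norm_num)
theorem chkP_10_18 : allD P.chkPt 10 18432 = true :=
  allD_join chkP_9_36 chkP_9_37 (by norm_num)
theorem chkP_10_19 : allD P.chkPt 10 19456 = true :=
  allD_join chkP_9_38 chkP_9_39 (by norm_num)
theorem chkP_10_20 : allD P.chkPt 10 20480 = true :=
  allD_join chkP_9_40 chkP_9_41 (by norm_num)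
theorem chkP_10_21 : allD P.chkPt 10 21504 = true :=
  allD_join chkP_9_42 chkP_9_43 (by norm_num)
theorem chkP_10_22 : allD P.chkPt 10 22528 = true :=
  allD_join chkP_9_44 chkP_9_45 (by norm_num)
theorem chkP_10_23 : allD P.chkPt 10 23552 = true :=
  allD_join chkP_9_46 chkP_9_47 (by norm_num)
theorem chkP_10_24 : allD P.chkPt 10 24576 = true :=
  allD_join chkP_9_48 chkP_9_49 (by norm_num)
theorem chkP_10_25 : allD P.chkPt 10 25600 = true :=
  allD_join chkP_9_50 chkP_9_51 (by norm_num)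
theorem chkP_10_26 : allD P.chkPt 10 26624 = true :=
  allD_join chkP_9_52 chkP_9_53 (by norm_num)
theorem chkP_10_27 : allD P.chkPt 10 27648 = true :=
  allD_join chkP_9_54 chkP_9_55 (by norm_num)
theorem chkP_10_28 : allD P.chkPt 10 28672 = true :=
  allD_join chkP_9_56 chkP_9_57 (by norm_num)
theorem chkP_10_29 : allD P.chkPt 10 29696 = true :=
  allD_join chkP_9_58 chkP_9_59 (by norm_num)
theorem chkP_10_30 : allD P.chkPt 10 30720 = true :=
  allD_join chkP_9_60 chkP_9_61 (by norm_num)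
theorem chkP_10_31 : allD P.chkPt 10 31744 = true :=
  allD_join chkP_9_62 chkP_9_63 (by norm_num)
theorem chkP_11_0 : allD P.chkPt 11 0 = true :=
  allD_join chkP_10_0 chkP_10_1 (by norm_num)
theorem chkP_11_1 : allD P.chkPt 11 2048 = true :=
  allD_join chkP_10_2 chkP_10_3 (by norm_num)
theorem chkP_11_2 : allD P.chkPt 11 4096 = true :=
  allD_join chkP_10_4 chkP_10_5 (by norm_num)
theorem chkP_11_3 : allD P.chkPt 11 6144 = true :=
  allD_join chkP_10_6 chkP_10_7 (by norm_num)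
theorem chkP_11_4 : allD P.chkPt 11 8192 = true :=
  allD_join chkP_10_8 chkP_10_9 (by norm_num)
theorem chkP_11_5 : allD P.chkPt 11 10240 = true :=
  allD_join chkP_10_10 chkP_10_11 (by norm_num)
theorem chkP_11_6 : allD P.chkPt 11 12288 = true :=
  allD_join chkP_10_12 chkP_10_13 (by norm_num)
theorem chkP_11_7 : allD P.chkPt 11 14336 = true :=
  allD_join chkP_10_14 chkP_10_15 (by norm_num)
theorem chkP_11_8 : allD P.chkPt 11 16384 = true :=
  allD_join chkP_10_16 chkP_10_17 (by norm_num)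
theorem chkP_11_9 : allD P.chkPt 11 18432 = true :=
  allD_join chkP_10_18 chkP_10_19 (by norm_num)
theorem chkP_11_10 : allD P.chkPt 11 20480 = true :=
  allD_join chkP_10_20 chkP_10_21 (by norm_num)
theorem chkP_11_11 : allD P.chkPt 11 22528 = true :=
  allD_join chkP_10_22 chkP_10_23 (by norm_num)
theorem chkP_11_12 : allD P.chkPt 11 24576 = true :=
  allD_join chkP_10_24 chkP_10_25 (by norm_num)
theorem chkP_11_13 : allD P.chkPt 11 26624 = true :=
  allD_join chkP_10_26 chkP_10_27 (by norm_num)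
theorem chkP_11_14 : allD P.chkPt 11 28672 = true :=
  allD_join chkP_10_28 chkP_10_29 (by norm_num)
theorem chkP_11_15 : allD P.chkPt 11 30720 = true :=
  allD_join chkP_10_30 chkP_10_31 (by norm_num)
theorem chkP_12_0 : allD P.chkPt 12 0 = true :=
  allD_join chkP_11_0 chkP_11_1 (by norm_num)
theorem chkP_12_1 : allD P.chkPt 12 4096 = true :=
  allD_join chkP_11_2 chkP_11_3 (by norm_num)
theorem chkP_12_2 : allD P.chkPt 12 8192 = true :=
  allD_join chkP_11_4 chkP_11_5 (by norm_num)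
theorem chkP_12_3 : allD P.chkPt 12 12288 = true :=
  allD_join chkP_11_6 chkP_11_7 (by norm_num)
theorem chkP_12_4 : allD P.chkPt 12 16384 = true :=
  allD_join chkP_11_8 chkP_11_9 (by norm_num)
theorem chkP_12_5 : allD P.chkPt 12 20480 = true :=
  allD_join chkP_11_10 chkP_11_11 (by norm_num)
theorem chkP_12_6 : allD P.chkPt 12 24576 = true :=
  allD_join chkP_11_12 chkP_11_13 (by norm_num)
theorem chkP_12_7 : allD P.chkPt 12 28672 = true :=
  allD_join chkP_11_14 chkP_11_15 (by norm_num)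
theorem chkP_13_0 : allD P.chkPt 13 0 = true :=
  allD_join chkP_12_0 chkP_12_1 (by norm_num)
theorem chkP_13_1 : allD P.chkPt 13 8192 = true :=
  allD_join chkP_12_2 chkP_12_3 (by norm_num)
theorem chkP_13_2 : allD P.chkPt 13 16384 = true :=
  allD_join chkP_12_4 chkP_12_5 (by norm_num)
theorem chkP_13_3 : allD P.chkPt 13 24576 = true :=
  allD_join chkP_12_6 chkP_12_7 (by norm_num)
theorem chkP_14_0 : allD P.chkPt 14 0 = true :=
  allD_join chkP_13_0 chkP_13_1 (by norm_num)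
theorem chkP_14_1 : allD P.chkPt 14 16384 = true :=
  allD_join chkP_13_2 chkP_13_3 (by norm_num)
theorem chkP_15_0 : allD P.chkPt 15 0 = true :=
  allD_join chkP_14_0 chkP_14_1 (by norm_num)

def extraExps : List (WExp Cfsg.Spor.Suz.Gen) := [
  (.mul (.of .a) (.inv (.pow (.mul (.of .c) (.of .d)) 4))),
  (.mul (.of .a) (.inv (.pow (.mul (.of .f) (.of .g)) 2))),
  (.pow (.mul (.mul (.mul (.of .a) (.of .b)) (.of .c)) (.of .f)) 5),
  (.pow (.mul (.mul (.of .b) (.of .f)) (.of .g)) 5),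
  (.pow (.mul (.pow (.mul (.mul (.mul (.mul (.of .b) (.of .c)) (.of .d)) (.of .c)) (.of .d)) 5) (.of .e)) 3)]

def subExps : List (WExp Cfsg.Spor.Suz.Gen) := [
  (.of .a),
  (.of .b),
  (.of .c),
  (.of .d),
  (.of .f),
  (.of .g)]

def code : Cfsg.Spor.Suz.Gen → ℕ
  | .a => 0
  | .b => 1
  | .c => 2
  | .d => 3
  | .e => 4
  | .f => 5
  | .g => 6

noncomputable def K : Pkg Cfsg.Spor.Suz.Gen where
  rels := coxRelators Cfsg.Spor.Suz.edges ∪ {r | r ∈ Cfsg.Spor.Suz.extra}
  S := {Cfsg.Spor.Suz.a, Cfsg.Spor.Suz.b, Cfsg.Spor.Suz.c, Cfsg.Spor.Suz.d, Cfsg.Spor.Suz.f, Cfsg.Spor.Suz.g}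
  relExps := coxExps Cfsg.Spor.Suz.edges ++ extraExps
  subExps := subExps
  code := code
  letters := [FreeGroup.of Cfsg.Spor.Suz.Gen.a, FreeGroup.of Cfsg.Spor.Suz.Gen.b, FreeGroup.of Cfsg.Spor.Suz.Gen.c, FreeGroup.of Cfsg.Spor.Suz.Gen.d, FreeGroup.of Cfsg.Spor.Suz.Gen.e, FreeGroup.of Cfsg.Spor.Suz.Gen.f, FreeGroup.of Cfsg.Spor.Suz.Gen.g]
  U := U
  rotT := tR
  rotSrc := rotSrc
  relWords := relWords
  P := P

theorem hS : ∀ s, s ∈ K.S ↔ ∃ e ∈ K.subExps, s = e.eval := by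
  intro s
  constructor
  · intro hs
    have hs' : s ∈ ({Cfsg.Spor.Suz.a, Cfsg.Spor.Suz.b, Cfsg.Spor.Suz.c, Cfsg.Spor.Suz.d, Cfsg.Spor.Suz.f, Cfsg.Spor.Suz.g} : Set (FreeGroup Cfsg.Spor.Suz.Gen)) := hs
    simp only [Set.mem_insert_iff, Set.mem_singleton_iff] at hs'
    rcases hs' with rfl | rfl | rfl | rfl | rfl | rfl
    · exact ⟨(.of .a), by simp [K, subExps], rfl⟩
    · exact ⟨(.of .b), by simp [K, subExps], rfl⟩
    · exact ⟨(.of .c), by simp [K, subExps], rfl⟩
    · exact ⟨(.of .d), by simp [K, subExps], rfl⟩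
    · exact ⟨(.of .f), by simp [K, subExps], rfl⟩
    · exact ⟨(.of .g), by simp [K, subExps], rfl⟩
  · rintro ⟨e, he, rfl⟩
    have he' : e ∈ subExps := he
    simp only [subExps, List.mem_cons, List.not_mem_nil, or_false] at he'
    show e.eval ∈ ({Cfsg.Spor.Suz.a, Cfsg.Spor.Suz.b, Cfsg.Spor.Suz.c, Cfsg.Spor.Suz.d, Cfsg.Spor.Suz.f, Cfsg.Spor.Suz.g} : Set (FreeGroup Cfsg.Spor.Suz.Gen))
    rcases he' with rfl | rfl | rfl | rfl | rfl | rfl <;>
      simp only [WExp.eval, Set.mem_insert_iff, Set.mem_singleton_iff, true_or, or_true]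

theorem hsurj : ∀ l < K.P.L, ∃ x, l = K.code x ∨ l = K.P.iv (K.code x) := by
  intro l hl
  have hl' : l < 7 := hl
  interval_cases l
  · exact ⟨.a, Or.inl rfl⟩
  · exact ⟨.b, Or.inl rfl⟩
  · exact ⟨.c, Or.inl rfl⟩
  · exact ⟨.d, Or.inl rfl⟩
  · exact ⟨.e, Or.inl rfl⟩
  · exact ⟨.f, Or.inl rfl⟩
  · exact ⟨.g, Or.inl rfl⟩

theorem hvalG_lt : ∀ l < K.P.L, K.valG (K.P.iv l) * K.valG l = 1 := by
  intro l hl
  have hl' : l < 7 := hl
  interval_cases l
  · exact cox_sq Cfsg.Spor.Suz.edges _ .a (by decide)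
  · exact cox_sq Cfsg.Spor.Suz.edges _ .b (by decide)
  · exact cox_sq Cfsg.Spor.Suz.edges _ .c (by decide)
  · exact cox_sq Cfsg.Spor.Suz.edges _ .d (by decide)
  · exact cox_sq Cfsg.Spor.Suz.edges _ .e (by decide)
  · exact cox_sq Cfsg.Spor.Suz.edges _ .f (by decide)
  · exact cox_sq Cfsg.Spor.Suz.edges _ .g (by decide)

theorem hP : K.P.Valid where
  hn := by decide
  hlen := rfl
  hiv := by decide
  hpt := all_of_allD _ 15 22880 (by norm_num) chkP_15_0
  hmacL := by decide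
  hrelL := by decide

theorem ok : K.Ok where
  hrels := hrels_of Cfsg.Spor.Suz.edges Cfsg.Spor.Suz.extra extraExps rfl
  hS := hS
  hcodeL := by intro x; cases x <;> decide
  hletters := by intro x; cases x <;> rfl
  hsurj := hsurj
  hvalG := Pkg.hvalG_of rfl rfl hvalG_lt
  hP := hP
  hpairs := by decide +kernel
  hsubsP := by decide +kernel
  hsub0 := by decide +kernel
  hUL := rfl
  hUN := by decide
  hrot := rfl
  hrotT := by decide +kernel
  hrelW := by decide +kernel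
  hUsub := fun _ => rfl
  hchk := all_of_allD _ 15 27809 (by norm_num) chkU_15_0
  hcnt := by
    have h := card_filter_range U.live 15 27809 (by norm_num) U.live_lt
    rw [cntU_15_0] at h
    exact le_of_eq h

end Cfsg.Agent.Lib.Helper35SuzB
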