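import Cfsg.Agent.Lib.Helper35Y5Psi
import Cfsg.Prelude.Def_Spor_M

set_option autoImplicit false
set_option maxRecDepth 100000

namespace Cfsg.Agent.Lib.Helper35Y5Emb

open Cfsg.Agent.Lib.Helper35TC Cfsg.Spor

/-! ## Three copies of `Y₅₃₂ + spider` inside `Y₅₅₅ + spider` -/

abbrev BG : Type := Cfsg.Spor.Bimonster.Gen

abbrev R : Set (FreeGroup BG) :=
  Cfsg.Spor.coxRelators Cfsg.Spor.Bimonster.edges ∪ {r' | r' ∈ [(Cfsg.Spor.Bimonster.a * Cfsg.Spor.Bimonster.b1 * Cfsg.Spor.Bimonster.c1 * Cfsg.Spor.Bimonster.a * Cfsg.Spor.Bimonster.b2 * Cfsg.Spor.Bimonster.c2 * Cfsg.Spor.Bimonster.a * Cfsg.Spor.Bimonster.b3 * Cfsg.Spor.Bimonster.c3) ^ 10]}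

theorem mk_evalIn (e : WExp BG) :
    PresentedGroup.mk R e.eval = e.evalIn (fun x => (PresentedGroup.of x : PresentedGroup R)) := by
  rw [← WExp.lift_eval]
  have : (PresentedGroup.mk R : FreeGroup BG →* PresentedGroup R) =
      FreeGroup.lift (fun x => (PresentedGroup.of x : PresentedGroup R)) := by
    ext x
    simp [PresentedGroup.of]
  rw [this]

theorem evalIn_map {α β : Type} {T : Type*} [Group T] (ι : β → α) (f : α → T) (e : WExp β) :
    (e.map ι).evalIn f = e.evalIn (fun x => f (ι x)) := by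
  induction e with
  | of a => simp [WExp.evalIn, WExp.map]
  | mul x y hx hy => simp [WExp.evalIn, WExp.map, hx, hy]
  | inv x hx => simp [WExp.evalIn, WExp.map, hx]
  | pow x n hx => simp [WExp.evalIn, WExp.map, hx]

def spW : WExp Cfsg.Agent.Lib.Helper35Y5a.Gen :=
  (.pow (.mul (.mul (.mul (.mul (.mul (.mul (.mul (.mul (.of .d) (.of .c)) (.of .b)) (.of .d)) (.of .e)) (.of .f)) (.of .d)) (.of .h)) (.of .i)) 10)

theorem emb (ι : Cfsg.Agent.Lib.Helper35Y5a.Gen → BG)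
    (hcox : ∀ e ∈ coxExps Cfsg.Agent.Lib.Helper35Y5a.edges, e.map ι ∈ coxExps Cfsg.Spor.Bimonster.edges)
    (hsp : PresentedGroup.mk R (spW.map ι).eval = 1)
    (e : WExp Cfsg.Agent.Lib.Helper35Y5a.Gen)
    (he : PresentedGroup.mk Cfsg.Agent.Lib.Helper35Y5a.K.rels e.eval = 1) :
    PresentedGroup.mk R (e.map ι).eval = 1 := by
  have hrel : ∀ e ∈ Cfsg.Agent.Lib.Helper35Y5a.K.relExps,
      e.evalIn (fun x => (PresentedGroup.of (ι x) : PresentedGroup R)) = 1 := by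
    intro e he
    rw [← evalIn_map ι (fun x => (PresentedGroup.of x : PresentedGroup R)), ← mk_evalIn]
    rcases List.mem_append.mp he with h | h
    · exact PresentedGroup.one_of_mem (Or.inl ((mem_coxRelators_iff _ _).mpr ⟨_, hcox e h, rfl⟩))
    · rw [List.mem_singleton.mp h]
      exact hsp
  have h1 := Cfsg.Agent.Lib.Helper35Y5a.ok.homTo_mk _ hrel e
  rw [he, map_one] at h1
  rw [mk_evalIn, evalIn_map]
  exact h1.symm

theorem rot {T : Type*} [Group T] (x y : T) (n : ℕ) (h : (x * y) ^ n = 1) : (y * x) ^ n = 1 := by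
  have h1 : y * x = x⁻¹ * (x * y) * x⁻¹⁻¹ := by group
  rw [h1, conj_pow, h]
  group

/-- long arm 2, middle arm 1, short arm 3 -/
def i2 : Cfsg.Agent.Lib.Helper35Y5a.Gen → BG
  | .d => .a
  | .e => .b2
  | .f => .c2
  | .g => .d2
  | .j => .e2
  | .k => .f2
  | .c => .b1
  | .b => .c1
  | .a => .d1
  | .h => .b3
  | .i => .c3

/-- long arm 3, middle arm 2, short arm 1 -/
def i3 : Cfsg.Agent.Lib.Helper35Y5a.Gen → BG
  | .d => .a
  | .e => .b3
  | .f => .c3
  | .g => .d3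
  | .j => .e3
  | .k => .f3
  | .c => .b2
  | .b => .c2
  | .a => .d2
  | .h => .b1
  | .i => .c1

/-- long arm 1, middle arm 3, short arm 2 -/
def i1 : Cfsg.Agent.Lib.Helper35Y5a.Gen → BG
  | .d => .a
  | .e => .b1
  | .f => .c1
  | .g => .d1
  | .j => .e1
  | .k => .f1
  | .c => .b3
  | .b => .c3
  | .a => .d3
  | .h => .b2
  | .i => .c2

theorem hcox1 : ∀ e ∈ coxExps Cfsg.Agent.Lib.Helper35Y5a.edges, e.map i1 ∈ coxExps Cfsg.Spor.Bimonster.edges := by
  decide +kernel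

theorem hcox2 : ∀ e ∈ coxExps Cfsg.Agent.Lib.Helper35Y5a.edges, e.map i2 ∈ coxExps Cfsg.Spor.Bimonster.edges := by
  decide +kernel

theorem hcox3 : ∀ e ∈ coxExps Cfsg.Agent.Lib.Helper35Y5a.edges, e.map i3 ∈ coxExps Cfsg.Spor.Bimonster.edges := by
  decide +kernel

theorem hsp2 : PresentedGroup.mk R (spW.map i2).eval = 1 :=
  PresentedGroup.one_of_mem (Or.inr (List.mem_singleton.mpr rfl))

theorem hsp3 : PresentedGroup.mk R (spW.map i3).eval = 1 := by
  have h := hsp2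
  simp only [spW, WExp.map, WExp.eval, i2, i3, map_pow, map_mul] at h ⊢
  simp only [mul_assoc] at h ⊢
  have h2 := rot (PresentedGroup.mk R (FreeGroup.of Bimonster.Gen.a) *
    (PresentedGroup.mk R (FreeGroup.of Bimonster.Gen.b1) * PresentedGroup.mk R (FreeGroup.of Bimonster.Gen.c1))) _ 10
    (by simpa only [mul_assoc] using h)
  simpa only [mul_assoc] using h2

theorem hsp1 : PresentedGroup.mk R (spW.map i1).eval = 1 := by
  have h := hsp3
  simp only [spW, WExp.map, WExp.eval, i1, i3, map_pow, map_mul] at h ⊢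
  simp only [mul_assoc] at h ⊢
  have h2 := rot (PresentedGroup.mk R (FreeGroup.of Bimonster.Gen.a) *
    (PresentedGroup.mk R (FreeGroup.of Bimonster.Gen.b2) * PresentedGroup.mk R (FreeGroup.of Bimonster.Gen.c2))) _ 10
    (by simpa only [mul_assoc] using h)
  simpa only [mul_assoc] using h2

theorem final : ∀ r ∈ Cfsg.Spor.Bimonster.extra, PresentedGroup.mk R r = 1 := by
  intro r hr
  simp only [Cfsg.Spor.Bimonster.extra, List.mem_cons, List.not_mem_nil, or_false] at hr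
  rcases hr with rfl | rfl | rfl | rfl | rfl | rfl | rfl
  · exact hsp2
  · exact emb i1 hcox1 hsp1 _ Cfsg.Agent.Lib.Helper35Y5Psi.hr2
  · exact emb i1 hcox1 hsp1 _ Cfsg.Agent.Lib.Helper35Y5Psi.hr1
  · exact emb i2 hcox2 hsp2 _ Cfsg.Agent.Lib.Helper35Y5Psi.hr1
  · exact emb i2 hcox2 hsp2 _ Cfsg.Agent.Lib.Helper35Y5Psi.hr2
  · exact emb i3 hcox3 hsp3 _ Cfsg.Agent.Lib.Helper35Y5Psi.hr2
  · exact emb i3 hcox3 hsp3 _ Cfsg.Agent.Lib.Helper35Y5Psi.hr1

end Cfsg.Agent.Lib.Helper35Y5Emb
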