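import Cfsg.Agent.Lib.Helper35Y5Ub
import Cfsg.Agent.Lib.Helper35Fi23Fin
import Cfsg.Agent.Lib.Helper35Iso

set_option autoImplicit false
set_option maxRecDepth 100000

namespace Cfsg.Agent.Lib.Helper35Y5Psi

open Cfsg.Agent.Lib.Helper35TC

/-! ## The group `Y₅₃₂ + spider` is `Fi₂₃ × 2`: a word problem solver for it -/

/-- parity of the length of a word -/
def len2 {α : Type} : WExp α → ℕ
  | .of _ => 1
  | .mul x y => (len2 x + len2 y) % 2
  | .inv x => len2 x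
  | .pow x n => (len2 x * n) % 2

theorem evalIn_const {α : Type} {T : Type*} [Group T] (s : T) (hs : s ^ 2 = 1) (e : WExp α) :
    e.evalIn (fun _ => s) = s ^ len2 e := by
  induction e with
  | of a => simp [WExp.evalIn, len2]
  | mul x y hx hy =>
    simp only [WExp.evalIn, len2, hx, hy]
    rw [← pow_add, pow_eq_pow_mod _ hs]
  | inv x hx =>
    simp only [WExp.evalIn, len2, hx]
    apply inv_eq_of_mul_eq_one_left
    rw [← pow_add, ← two_mul, pow_mul, hs, one_pow]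
  | pow x n hx =>
    simp only [WExp.evalIn, len2, hx]
    rw [← pow_mul, pow_eq_pow_mod _ hs]

theorem evalIn_prod {α : Type} {T T' : Type*} [Group T] [Group T'] (f : α → T) (f' : α → T')
    (e : WExp α) : e.evalIn (fun x => (f x, f' x)) = (e.evalIn f, e.evalIn f') := by
  apply Prod.ext
  · exact WExp.map_evalIn (MonoidHom.fst T T') (fun x => (f x, f' x)) e
  · exact WExp.map_evalIn (MonoidHom.snd T T') (fun x => (f x, f' x)) e

abbrev W : Type := Cfsg.Agent.Lib.Helper35Y5a.K.Grp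
abbrev F : Type := Cfsg.Agent.Lib.Helper35Fi23a.K.Grp

/-- the ninth power of the Coxeter element of the `E₇` diagram with long arm `e, f, g` -/
def wF : WExp Cfsg.Spor.Fi23.Gen :=
  .pow (.mul (.mul (.mul (.mul (.mul (.mul (.of .d) (.of .e)) (.of .c)) (.of .h)) (.of .f)) (.of .b)) (.of .g)) 9

def img : Cfsg.Agent.Lib.Helper35Y5a.Gen → WExp Cfsg.Spor.Fi23.Gen
  | .a => .of .a
  | .b => .of .b
  | .c => .of .c
  | .d => .of .d
  | .e => .of .e
  | .f => .of .f
  | .g => .of .g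
  | .j => .of .j
  | .k => wF
  | .h => .of .h
  | .i => .of .i

noncomputable def chk (e : WExp Cfsg.Agent.Lib.Helper35Y5a.Gen) : Bool :=
  Cfsg.Agent.Lib.Helper35Fi23a.BD.fixChk Cfsg.Agent.Lib.Helper35Fi23a.K.P
    ((e.bind img).app Cfsg.Agent.Lib.Helper35Fi23a.K.code Cfsg.Agent.Lib.Helper35Fi23a.K.P.iv) &&
  decide (len2 e = 0)

theorem hchk : ∀ e ∈ Cfsg.Agent.Lib.Helper35Y5a.K.relExps, chk e = true := by decide +kernel

def gen (x : Cfsg.Agent.Lib.Helper35Y5a.Gen) : F × ℤˣ :=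
  (PresentedGroup.mk Cfsg.Agent.Lib.Helper35Fi23a.K.rels (img x).eval, -1)

theorem evalIn_gen (e : WExp Cfsg.Agent.Lib.Helper35Y5a.Gen) :
    e.evalIn gen = (PresentedGroup.mk Cfsg.Agent.Lib.Helper35Fi23a.K.rels (e.bind img).eval,
      (-1) ^ len2 e) := by
  unfold gen
  rw [evalIn_prod, evalIn_const (-1 : ℤˣ) (by simp), Pkg.mk_bind_eq]

theorem evalIn_gen_one (e : WExp Cfsg.Agent.Lib.Helper35Y5a.Gen) (he : chk e = true) :
    e.evalIn gen = 1 := by
  rw [chk, Bool.and_eq_true, decide_eq_true_eq] at he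
  rw [evalIn_gen, he.2, Cfsg.Agent.Lib.Helper35Fi23Fin.word_eq_one _ he.1]
  rfl

noncomputable def psi : W →* F × ℤˣ :=
  Cfsg.Agent.Lib.Helper35Y5a.ok.homTo gen (fun e he => evalIn_gen_one e (hchk e he))

theorem psi_mk (e : WExp Cfsg.Agent.Lib.Helper35Y5a.Gen) :
    psi (PresentedGroup.mk Cfsg.Agent.Lib.Helper35Y5a.K.rels e.eval) = e.evalIn gen :=
  Cfsg.Agent.Lib.Helper35Y5a.ok.homTo_mk _ _ e

/-- the central involution -/
def zE : WExp Cfsg.Agent.Lib.Helper35Y5a.Gen :=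
  .pow (.mul (.mul (.mul (.mul (.mul (.mul (.of .a) (.of .b)) (.of .c)) (.of .d)) (.of .e)) (.of .f)) (.of .h)) 9

theorem hz : Cfsg.Agent.Lib.Helper35Fi23a.BD.fixChk Cfsg.Agent.Lib.Helper35Fi23a.K.P
    ((zE.bind img).app Cfsg.Agent.Lib.Helper35Fi23a.K.code Cfsg.Agent.Lib.Helper35Fi23a.K.P.iv) = true := by
  decide +kernel

theorem psi_z : psi (PresentedGroup.mk Cfsg.Agent.Lib.Helper35Y5a.K.rels zE.eval) = (1, -1) := by
  rw [psi_mk, evalIn_gen, Cfsg.Agent.Lib.Helper35Fi23Fin.word_eq_one _ hz]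
  rfl

def up : Cfsg.Spor.Fi23.Gen → Cfsg.Agent.Lib.Helper35Y5a.Gen
  | .a => .a
  | .b => .b
  | .c => .c
  | .d => .d
  | .e => .e
  | .f => .f
  | .g => .g
  | .j => .j
  | .h => .h
  | .i => .i

theorem psi_surj : Function.Surjective psi := by
  have hz1 : ((1, -1) : F × ℤˣ) ∈ psi.range := ⟨_, psi_z⟩
  have h1 : psi.range.comap (MonoidHom.inl F ℤˣ) = ⊤ := by
    apply Pkg.top_of_gens
    intro x
    show ((PresentedGroup.of x : F), (1 : ℤˣ)) ∈ psi.range
    have h2 : psi (PresentedGroup.mk Cfsg.Agent.Lib.Helper35Y5a.K.rels (WExp.of (up x)).eval) ∈ psi.range :=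
      ⟨_, rfl⟩
    rw [psi_mk] at h2
    have h3 := psi.range.mul_mem h2 hz1
    have h4 : (WExp.of (up x)).evalIn gen * ((1, -1) : F × ℤˣ) = ((PresentedGroup.of x : F), (1 : ℤˣ)) := by
      cases x <;> rfl
    rwa [h4] at h3
  intro ⟨x, s⟩
  have hx : ((x, 1) : F × ℤˣ) ∈ psi.range := by
    have : x ∈ psi.range.comap (MonoidHom.inl F ℤˣ) := by rw [h1]; trivial
    exact this
  rcases Int.units_eq_one_or s with rfl | rfl
  · exact hx
  · have := psi.range.mul_mem hx hz1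
    simpa using this

theorem psi_inj : Function.Injective psi := by
  haveI : Finite W := Cfsg.Agent.Lib.Helper35Y5Ub.ub0.1
  refine (psi_surj.bijective_of_nat_card_le ?_).1
  rw [Nat.card_prod, Cfsg.Agent.Lib.Helper35Fi23Fin.card_eq]
  have h2 : Nat.card ℤˣ = 2 := by simp
  rw [h2]
  exact Cfsg.Agent.Lib.Helper35Y5Ub.ub0.2.trans (by norm_num)

/-- the word problem solver -/
theorem word_eq_one (e : WExp Cfsg.Agent.Lib.Helper35Y5a.Gen) (he : chk e = true) :
    PresentedGroup.mk Cfsg.Agent.Lib.Helper35Y5a.K.rels e.eval = 1 := by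
  apply psi_inj
  rw [psi_mk, map_one]
  exact evalIn_gen_one e he

/-- `k = (d e c h f b g)^9` -/
def r1 : WExp Cfsg.Agent.Lib.Helper35Y5a.Gen :=
  .mul (.of .k) (.inv (.pow (.mul (.mul (.mul (.mul (.mul (.mul (.of .d) (.of .e)) (.of .c)) (.of .h)) (.of .f)) (.of .b)) (.of .g)) 9))

/-- `k = (d e h c f i g)^9` -/
def r2 : WExp Cfsg.Agent.Lib.Helper35Y5a.Gen :=
  .mul (.of .k) (.inv (.pow (.mul (.mul (.mul (.mul (.mul (.mul (.of .d) (.of .e)) (.of .h)) (.of .c)) (.of .f)) (.of .i)) (.of .g)) 9))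

theorem hr1 : PresentedGroup.mk Cfsg.Agent.Lib.Helper35Y5a.K.rels r1.eval = 1 :=
  word_eq_one r1 (by decide +kernel)

theorem hr2 : PresentedGroup.mk Cfsg.Agent.Lib.Helper35Y5a.K.rels r2.eval = 1 :=
  word_eq_one r2 (by decide +kernel)

end Cfsg.Agent.Lib.Helper35Y5Psi
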