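import Cfsg.Agent.Lib.Helper35Y5a

set_option autoImplicit false
set_option maxRecDepth 100000

namespace Cfsg.Agent.Lib.Helper35Y5a

open Cfsg.Agent.Lib.Helper35TC

theorem cntU_14_0 : cntD U.live 14 0 = 1 := by decide +kernel
theorem cntU_14_1 : cntD U.live 14 16384 = 0 := by decide +kernel
theorem chkP_0_0 : allD P.chkPt 0 0 = true := by decide +kernel

end Cfsg.Agent.Lib.Helper35Y5a
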