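import Cfsg.Agent.Lib.Helper35Y5aChk0
import Cfsg.Agent.Lib.Helper35Y5aChk1
import Cfsg.Agent.Lib.Helper35Y5aChk2
import Cfsg.Agent.Lib.Helper35Y5aChk3
import Cfsg.Agent.Lib.Helper35Y5aChk4
import Cfsg.Agent.Lib.Helper35Y5aChk5

set_option autoImplicit false
set_option maxRecDepth 100000

namespace Cfsg.Agent.Lib.Helper35Y5a

open Cfsg.Agent.Lib.Helper35TC

open Cfsg.Spor

inductive Gen
  | a
  | b
  | c
  | d
  | e
  | f
  | g
  | j
  | k
  | h
  | i
  deriving DecidableEq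

def edges : List (Gen × ℕ × Gen) :=
  [(.a, 3, .b), (.b, 3, .c), (.c, 3, .d), (.d, 3, .e), (.d, 3, .h), (.e, 3, .f), (.f, 3, .g), (.g, 3, .j), (.h, 3, .i), (.j, 3, .k)]

theorem chkU_12_0 : allD U.chkRow 12 0 = true :=
  allD_join chkU_11_0 chkU_11_1 (by norm_num)
theorem chkU_12_1 : allD U.chkRow 12 4096 = true :=
  allD_join chkU_11_2 chkU_11_3 (by norm_num)
theorem chkU_12_2 : allD U.chkRow 12 8192 = true :=
  allD_join chkU_11_4 chkU_11_5 (by norm_num)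
theorem chkU_12_3 : allD U.chkRow 12 12288 = true :=
  allD_join chkU_11_6 chkU_11_7 (by norm_num)
theorem chkU_12_4 : allD U.chkRow 12 16384 = true :=
  allD_join chkU_11_8 chkU_11_9 (by norm_num)
theorem chkU_12_5 : allD U.chkRow 12 20480 = true :=
  allD_join chkU_11_10 chkU_11_11 (by norm_num)
theorem chkU_12_6 : allD U.chkRow 12 24576 = true :=
  allD_join chkU_11_12 chkU_11_13 (by norm_num)
theorem chkU_12_7 : allD U.chkRow 12 28672 = true :=
  allD_join chkU_11_14 chkU_11_15 (by norm_num)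
theorem chkU_13_0 : allD U.chkRow 13 0 = true :=
  allD_join chkU_12_0 chkU_12_1 (by norm_num)
theorem chkU_13_1 : allD U.chkRow 13 8192 = true :=
  allD_join chkU_12_2 chkU_12_3 (by norm_num)
theorem chkU_13_2 : allD U.chkRow 13 16384 = true :=
  allD_join chkU_12_4 chkU_12_5 (by norm_num)
theorem chkU_13_3 : allD U.chkRow 13 24576 = true :=
  allD_join chkU_12_6 chkU_12_7 (by norm_num)
theorem chkU_14_0 : allD U.chkRow 14 0 = true :=
  allD_join chkU_13_0 chkU_13_1 (by norm_num)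
theorem chkU_14_1 : allD U.chkRow 14 16384 = true :=
  allD_join chkU_13_2 chkU_13_3 (by norm_num)
theorem chkU_15_0 : allD U.chkRow 15 0 = true :=
  allD_join chkU_14_0 chkU_14_1 (by norm_num)
theorem cntU_15_0 : cntD U.live 15 0 = 1 :=
  cntD_join cntU_14_0 cntU_14_1 (by norm_num) (by norm_num)

def extraExps : List (WExp Cfsg.Agent.Lib.Helper35Y5a.Gen) := [
  (.pow (.mul (.mul (.mul (.mul (.mul (.mul (.mul (.mul (.of .d) (.of .c)) (.of .b)) (.of .d)) (.of .e)) (.of .f)) (.of .d)) (.of .h)) (.of .i)) 10)]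

def subExps : List (WExp Cfsg.Agent.Lib.Helper35Y5a.Gen) := [
  (.of .a),
  (.of .b),
  (.of .c),
  (.of .d),
  (.of .e),
  (.of .f),
  (.of .g),
  (.of .j),
  (.of .h),
  (.of .i)]

def code : Cfsg.Agent.Lib.Helper35Y5a.Gen → ℕ
  | .a => 0
  | .b => 1
  | .c => 2
  | .d => 3
  | .e => 4
  | .f => 5
  | .g => 6
  | .j => 7
  | .k => 8
  | .h => 9
  | .i => 10

def extra : List (FreeGroup Gen) := extraExps.map WExp.eval

noncomputable def K : Pkg Cfsg.Agent.Lib.Helper35Y5a.Gen where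
  rels := coxRelators Cfsg.Agent.Lib.Helper35Y5a.edges ∪ {r | r ∈ Cfsg.Agent.Lib.Helper35Y5a.extra}
  S := {s | ∃ e ∈ subExps, s = e.eval}
  relExps := coxExps Cfsg.Agent.Lib.Helper35Y5a.edges ++ extraExps
  subExps := subExps
  code := code
  letters := [FreeGroup.of Cfsg.Agent.Lib.Helper35Y5a.Gen.a, FreeGroup.of Cfsg.Agent.Lib.Helper35Y5a.Gen.b, FreeGroup.of Cfsg.Agent.Lib.Helper35Y5a.Gen.c, FreeGroup.of Cfsg.Agent.Lib.Helper35Y5a.Gen.d, FreeGroup.of Cfsg.Agent.Lib.Helper35Y5a.Gen.e, FreeGroup.of Cfsg.Agent.Lib.Helper35Y5a.Gen.f, FreeGroup.of Cfsg.Agent.Lib.Helper35Y5a.Gen.g, FreeGroup.of Cfsg.Agent.Lib.Helper35Y5a.Gen.j, FreeGroup.of Cfsg.Agent.Lib.Helper35Y5a.Gen.k, FreeGroup.of Cfsg.Agent.Lib.Helper35Y5a.Gen.h, FreeGroup.of Cfsg.Agent.Lib.Helper35Y5a.Gen.i]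
  U := U
  rotT := tR
  rotSrc := rotSrc
  relWords := relWords
  P := P

theorem hS : ∀ s, s ∈ K.S ↔ ∃ e ∈ K.subExps, s = e.eval := fun _ => Iff.rfl

theorem hsurj : ∀ l < K.P.L, ∃ x, l = K.code x ∨ l = K.P.iv (K.code x) := by
  intro l hl
  have hl' : l < 11 := hl
  interval_cases l
  · exact ⟨.a, Or.inl rfl⟩
  · exact ⟨.b, Or.inl rfl⟩
  · exact ⟨.c, Or.inl rfl⟩
  · exact ⟨.d, Or.inl rfl⟩
  · exact ⟨.e, Or.inl rfl⟩
  · exact ⟨.f, Or.inl rfl⟩
  · exact ⟨.g, Or.inl rfl⟩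
  · exact ⟨.j, Or.inl rfl⟩
  · exact ⟨.k, Or.inl rfl⟩
  · exact ⟨.h, Or.inl rfl⟩
  · exact ⟨.i, Or.inl rfl⟩

theorem hvalG_lt : ∀ l < K.P.L, K.valG (K.P.iv l) * K.valG l = 1 := by
  intro l hl
  have hl' : l < 11 := hl
  interval_cases l
  · exact cox_sq Cfsg.Agent.Lib.Helper35Y5a.edges _ .a (by decide)
  · exact cox_sq Cfsg.Agent.Lib.Helper35Y5a.edges _ .b (by decide)
  · exact cox_sq Cfsg.Agent.Lib.Helper35Y5a.edges _ .c (by decide)
  · exact cox_sq Cfsg.Agent.Lib.Helper35Y5a.edges _ .d (by decide)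
  · exact cox_sq Cfsg.Agent.Lib.Helper35Y5a.edges _ .e (by decide)
  · exact cox_sq Cfsg.Agent.Lib.Helper35Y5a.edges _ .f (by decide)
  · exact cox_sq Cfsg.Agent.Lib.Helper35Y5a.edges _ .g (by decide)
  · exact cox_sq Cfsg.Agent.Lib.Helper35Y5a.edges _ .j (by decide)
  · exact cox_sq Cfsg.Agent.Lib.Helper35Y5a.edges _ .k (by decide)
  · exact cox_sq Cfsg.Agent.Lib.Helper35Y5a.edges _ .h (by decide)
  · exact cox_sq Cfsg.Agent.Lib.Helper35Y5a.edges _ .i (by decide)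

theorem hP : K.P.Valid where
  hn := by decide
  hlen := rfl
  hiv := by decide
  hpt := all_of_allD _ 0 1 (by norm_num) chkP_0_0
  hmacL := by decide
  hrelL := by decide

theorem ok : K.Ok where
  hrels := hrels_of Cfsg.Agent.Lib.Helper35Y5a.edges Cfsg.Agent.Lib.Helper35Y5a.extra extraExps rfl
  hS := hS
  hcodeL := by intro x; cases x <;> decide
  hletters := by intro x; cases x <;> rfl
  hsurj := hsurj
  hvalG := Pkg.hvalG_of rfl rfl hvalG_lt
  hP := hP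
  hpairs := by decide +kernel
  hsubsP := by decide +kernel
  hsub0 := by decide +kernel
  hUL := rfl
  hUN := by decide
  hrot := rfl
  hrotT := by decide +kernel
  hrelW := by decide +kernel
  hUsub := fun _ => rfl
  hchk := all_of_allD _ 15 22104 (by norm_num) chkU_15_0
  hcnt := by
    have h := card_filter_range U.live 15 22104 (by norm_num) U.live_lt
    rw [cntU_15_0] at h
    exact le_of_eq h

end Cfsg.Agent.Lib.Helper35Y5a
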