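import Cfsg.Agent.Lib.Helper35Y5b

set_option autoImplicit false
set_option maxRecDepth 100000

namespace Cfsg.Agent.Lib.Helper35Y5b

open Cfsg.Agent.Lib.Helper35TC

theorem chkU_11_17 : allD U.chkRow 11 34816 = true := by decide +kernel
theorem chkU_11_18 : allD U.chkRow 11 36864 = true := by decide +kernel
theorem chkU_11_19 : allD U.chkRow 11 38912 = true := by decide +kernel
theorem chkU_11_20 : allD U.chkRow 11 40960 = true := by decide +kernel
theorem chkU_11_21 : allD U.chkRow 11 43008 = true := by decide +kernel
theorem chkU_11_22 : allD U.chkRow 11 45056 = true := by decide +kernel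
theorem chkU_11_23 : allD U.chkRow 11 47104 = true := by decide +kernel
theorem chkU_11_24 : allD U.chkRow 11 49152 = true := by decide +kernel
theorem chkU_11_25 : allD U.chkRow 11 51200 = true := by decide +kernel
theorem chkU_11_26 : allD U.chkRow 11 53248 = true := by decide +kernel
theorem chkU_11_27 : allD U.chkRow 11 55296 = true := by decide +kernel
theorem chkU_11_28 : allD U.chkRow 11 57344 = true := by decide +kernel
theorem chkU_11_29 : allD U.chkRow 11 59392 = true := by decide +kernel
theorem chkU_11_30 : allD U.chkRow 11 61440 = true := by decide +kernel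
theorem chkU_11_31 : allD U.chkRow 11 63488 = true := by decide +kernel
theorem cntU_14_0 : cntD U.live 14 0 = 9417 := by decide +kernel
theorem cntU_14_1 : cntD U.live 14 16384 = 5507 := by decide +kernel

end Cfsg.Agent.Lib.Helper35Y5b
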