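import Cfsg.Agent.Lib.LeadAutDefs
import Cfsg.Agent.Lib.LeadChevMisc
import Cfsg.Agent.Lib.Helper22ChevBruhat
import Cfsg.Agent.Lib.Helper23RG2

set_option autoImplicit false

namespace Cfsg.Agent.Lib.Helper36AutA2

open Subgroup Cfsg.Agent.Lib.Helper23Grp Cfsg.Agent.Lib.Helper23RG Cfsg.Agent.Lib.Helper23RG.RG
  Cfsg.Agent.Lib.Helper23Weyl Cfsg.Agent.Lib.LeadAutDefs

variable {𝔾 K R I : Type*} [Group 𝔾] [Field K] [Fintype R] [DecidableEq R] {S : RG 𝔾 K R I}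

omit [Fintype R] [DecidableEq R] in
/-- a monomial element exchanging the signs conjugates `U` onto `V` -/
theorem conj_mem_U_iff (ok : S.Ok) {n : 𝔾} {π : Equiv.Perm R} (hM : S.Mon n π)
    (h0 : ∀ r, S.pos r → ¬ S.pos (π r)) (w : 𝔾) : n⁻¹ * w * n ∈ S.U ↔ w ∈ S.V := by
  constructor
  · intro hw
    have := hM.conj_XS (Ψ := S.pos) (Ψ' := fun r => ¬ S.pos r) h0 _ hw
    have e : n * (n⁻¹ * w * n) * n⁻¹ = w := by group
    rwa [e] at this
  · intro hw
    have := hM.inv.conj_XS (Ψ := fun r => ¬ S.pos r) (Ψ' := S.pos) (by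
      intro r hr
      by_contra hs
      have h1 : S.pos (S.neg (π⁻¹ r)) := (ok.pos_neg _).mpr hs
      have h2 := h0 _ h1
      rw [hM.1] at h2
      have e : π (π⁻¹ r) = r := by simp
      rw [e, ok.pos_neg] at h2
      exact h2 hr) _ hw
    rwa [inv_inv] at this

omit [Fintype R] [DecidableEq R] in
theorem B_le_normalizer_U (ok : S.Ok) : S.B ≤ normalizer (S.U : Set 𝔾) :=
  sup_le le_normalizer (H_le_normalizer_XS ok _)

/-- A2 -/
theorem exists_nrm (h : AData S) (θ : 𝔾 ≃* 𝔾) : ∃ y : 𝔾, Nrm S (θ.trans (MulAut.conj y)) := by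
  have ok := h.ok
  -- `|V| = |U|`
  have hcardV : Nat.card S.V = Nat.card S.U := by
    obtain ⟨n0, _, π0, hM0, h0⟩ := h.n0
    have e : S.V = S.U.map (MulAut.conj n0).toMonoidHom := by
      ext w
      rw [Subgroup.mem_map_equiv, MulAut.conj_symm_apply, conj_mem_U_iff ok hM0 h0]
    rw [e]
    exact Subgroup.card_map_of_injective (MulAut.conj n0).injective
  obtain ⟨g1, hg1⟩ := h.syl (S.U.map θ.toMonoidHom) (Subgroup.card_map_of_injective θ.injective)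
  obtain ⟨g2, hg2⟩ := h.syl (S.V.map θ.toMonoidHom)
    ((Subgroup.card_map_of_injective θ.injective).trans hcardV)
  have hU1 : ∀ g, g1⁻¹ * θ g * g1 ∈ S.U ↔ g ∈ S.U := by
    intro g
    have := congrArg (fun Q : Subgroup 𝔾 => θ g ∈ Q) hg1
    simp only [Subgroup.mem_map_equiv, MulAut.conj_symm_apply, MulEquiv.symm_apply_apply] at this
    rw [← this]
  have hV1 : ∀ g, g2⁻¹ * θ g * g2 ∈ S.U ↔ g ∈ S.V := by
    intro g
    have := congrArg (fun Q : Subgroup 𝔾 => θ g ∈ Q) hg2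
    simp only [Subgroup.mem_map_equiv, MulAut.conj_symm_apply, MulEquiv.symm_apply_apply] at this
    rw [← this]
  obtain ⟨rf, pr, hW⟩ := h.hW
  have hmem : g1⁻¹ * g2 ∈ S.G := by rw [h.top]; trivial
  obtain ⟨b, hb, n, hn, π, hM, u, hu, e⟩ :=
    Cfsg.Agent.Lib.Helper22ChevBruhat.normal_form_ex ok h.hBV h.hUN hW hmem
  have huU : u ∈ S.U := XS_mono (fun r hr => hr.1) hu
  have hg2e : g2 = g1 * b * n * u := by
    calc g2 = g1 * (g1⁻¹ * g2) := by group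
      _ = _ := by rw [e]; group
  have hbN := B_le_normalizer_U ok hb
  have hU : ∀ g, (g1 * b)⁻¹ * θ g * (g1 * b) ∈ S.U ↔ g ∈ S.U := by
    intro g
    rw [← hU1 g, (mem_normalizer_iff.mp hbN) ((g1 * b)⁻¹ * θ g * (g1 * b))]
    have e1 : b * ((g1 * b)⁻¹ * θ g * (g1 * b)) * b⁻¹ = g1⁻¹ * θ g * g1 := by group
    rw [e1]
  have hV : ∀ g, n⁻¹ * ((g1 * b)⁻¹ * θ g * (g1 * b)) * n ∈ S.U ↔ g ∈ S.V := by
    intro g
    rw [← hV1 g, hg2e]
    have e1 : (g1 * b * n * u)⁻¹ * θ g * (g1 * b * n * u) =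
        u⁻¹ * (n⁻¹ * ((g1 * b)⁻¹ * θ g * (g1 * b)) * n) * u := by group
    rw [e1]
    constructor
    · intro hx
      exact S.U.mul_mem (S.U.mul_mem (S.U.inv_mem huU) hx) huU
    · intro hx
      have := S.U.mul_mem (S.U.mul_mem huU hx) (S.U.inv_mem huU)
      have e2 : u * (u⁻¹ * (n⁻¹ * ((g1 * b)⁻¹ * θ g * (g1 * b)) * n) * u) * u⁻¹ =
          n⁻¹ * ((g1 * b)⁻¹ * θ g * (g1 * b)) * n := by group
      rwa [e2] at this
  have h0 : ∀ r, S.pos r → ¬ S.pos (π r) := by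
    intro r hr hπr
    obtain ⟨_, c, hc0, _, hc⟩ := hM
    -- `z = n x_r(1) n⁻¹`
    set z := n * S.x r 1 * n⁻¹ with hz
    have hzU : z ∈ S.U := by
      rw [hz, hc]; exact x_mem_U hπr _
    set g := θ.symm ((g1 * b) * z * (g1 * b)⁻¹) with hg
    have hgz : (g1 * b)⁻¹ * θ g * (g1 * b) = z := by
      rw [hg, MulEquiv.apply_symm_apply]; group
    have hgU : g ∈ S.U := by
      rw [← hU g, hgz]; exact hzU
    have hgV : g ∈ S.V := by
      rw [← hV g, hgz, hz]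
      have e1 : n⁻¹ * (n * S.x r 1 * n⁻¹) * n = S.x r 1 := by group
      rw [e1]; exact x_mem_U hr _
    have hg1' : g = 1 := h.hBV g (U_le_B hgU) hgV
    have hz1 : z = 1 := by
      rw [← hgz, hg1', map_one]; group
    have hx1 : S.x r 1 = 1 := by
      have e1 : S.x r 1 = n⁻¹ * z * n := by rw [hz]; group
      rw [e1, hz1]; group
    exact one_ne_zero (ok.x_inj r 1 hx1)
  refine ⟨(g1 * b)⁻¹, ?_, ?_⟩
  · intro g
    have : (θ.trans (MulAut.conj (g1 * b)⁻¹)) g = (g1 * b)⁻¹ * θ g * (g1 * b) := by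
      rw [MulEquiv.trans_apply, MulAut.conj_apply, inv_inv]
    rw [this]; exact hU g
  · intro g
    have : (θ.trans (MulAut.conj (g1 * b)⁻¹)) g = (g1 * b)⁻¹ * θ g * (g1 * b) := by
      rw [MulEquiv.trans_apply, MulAut.conj_apply, inv_inv]
    rw [this, ← conj_mem_U_iff ok hM h0]; exact hV g

end Cfsg.Agent.Lib.Helper36AutA2
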