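import Cfsg.Agent.Lib.Helper74BG36B
import Cfsg.Agent.Lib.Helper1Coprime

set_option autoImplicit false
set_option linter.unusedSectionVars false

/-! Piece `caseB_M` of B-G Theorem 3.6 (project 87). -/

namespace Cfsg.Agent.Lib.Helper36BG36M

open Subgroup

theorem exists_M {G : Type*} [Group G] [Finite G] {r : ℕ} (hr : r.Prime) {Q R : Subgroup G}
    (hRQ : R ≤ normalizer (Q : Set G)) (hQr : (Nat.card Q).Coprime r) (hR : Nat.card R = r)
    (hcl : ⁅Q, Q⁆ ≤ centralizer (Q : Set G))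
    (hab : ∀ a ∈ Q ⊓ centralizer (R : Set G), ∀ b ∈ Q ⊓ centralizer (R : Set G), a * b = b * a)
    {c : G} (hc : c ∈ Q ⊓ centralizer (R : Set G)) (hcZ : c ∉ centralizer (Q : Set G)) :
    ∃ M : Subgroup G, M ≤ Q ∧ M ≠ ⊥ ∧ R ≤ normalizer (M : Set G) ∧ Q ≤ normalizer (M : Set G) ∧
      (∀ x ∈ R, x ≠ 1 → ∀ m ∈ M, x * m = m * x → m = 1) ∧ (∀ m ∈ M, c * m = m * c) ∧
      (∀ m ∈ M, ∃ g ∈ Q, m = c * g * c⁻¹ * g⁻¹) := by
  have hcQ : c ∈ Q := hc.1
  have hcR : ∀ x ∈ R, x * c = c * x := fun x hx => (mem_centralizer_iff.mp hc.2) x hx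
  -- values are central
  have hcen : ∀ g ∈ Q, ∀ q ∈ Q, q * (c * g * c⁻¹ * g⁻¹) = (c * g * c⁻¹ * g⁻¹) * q := by
    intro g hg q hq
    have h1 : c * g * c⁻¹ * g⁻¹ ∈ ⁅Q, Q⁆ := by
      have := Subgroup.commutator_mem_commutator hcQ hg
      rwa [commutatorElement_def] at this
    exact (mem_centralizer_iff.mp (hcl h1)) q hq
  have hmul : ∀ g ∈ Q, ∀ h ∈ Q, c * (g * h) * c⁻¹ * (g * h)⁻¹ =
      (c * g * c⁻¹ * g⁻¹) * (c * h * c⁻¹ * h⁻¹) := by
    intro g hg h hh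
    have h1 := hcen h hh g⁻¹ (Q.inv_mem hg)
    calc c * (g * h) * c⁻¹ * (g * h)⁻¹ = c * g * c⁻¹ * ((c * h * c⁻¹ * h⁻¹) * g⁻¹) := by group
      _ = c * g * c⁻¹ * (g⁻¹ * (c * h * c⁻¹ * h⁻¹)) := by rw [h1]
      _ = _ := by group
  have hconjR : ∀ x ∈ R, ∀ g : G, x * (c * g * c⁻¹ * g⁻¹) * x⁻¹ =
      c * (x * g * x⁻¹) * c⁻¹ * (x * g * x⁻¹)⁻¹ := by
    intro x hx g
    have h1 := hcR x hx
    have h2 : x * c⁻¹ = c⁻¹ * x := by
      have : c⁻¹ * (x * c) * c⁻¹ = c⁻¹ * (c * x) * c⁻¹ := by rw [h1]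
      simpa [mul_assoc] using this.symm
    calc x * (c * g * c⁻¹ * g⁻¹) * x⁻¹ = (x * c) * g * c⁻¹ * g⁻¹ * x⁻¹ := by group
      _ = c * x * g * c⁻¹ * g⁻¹ * x⁻¹ := by rw [h1]
      _ = c * x * g * (x⁻¹ * (x * c⁻¹)) * g⁻¹ * x⁻¹ := by group
      _ = c * x * g * (x⁻¹ * (c⁻¹ * x)) * g⁻¹ * x⁻¹ := by rw [h2]
      _ = _ := by group
  have hRQ' : ∀ x ∈ R, ∀ g ∈ Q, x * g * x⁻¹ ∈ Q := by
    intro x hx g hg
    exact (mem_normalizer_iff.mp (hRQ hx) g).mp hg
  let M : Subgroup G :=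
    { carrier := {m | ∃ g ∈ Q, m = c * g * c⁻¹ * g⁻¹}
      one_mem' := ⟨1, Q.one_mem, by group⟩
      mul_mem' := by
        rintro a b ⟨g, hg, rfl⟩ ⟨h, hh, rfl⟩
        exact ⟨g * h, Q.mul_mem hg hh, (hmul g hg h hh).symm⟩
      inv_mem' := by
        rintro a ⟨g, hg, rfl⟩
        refine ⟨g⁻¹, Q.inv_mem hg, ?_⟩
        have h1 := hmul g hg g⁻¹ (Q.inv_mem hg)
        rw [mul_inv_cancel] at h1
        have h2 : (c * g * c⁻¹ * g⁻¹) * (c * g⁻¹ * c⁻¹ * g⁻¹⁻¹) = 1 := by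
          rw [← h1]; group
        exact inv_eq_of_mul_eq_one_right h2 }
  have hMmem : ∀ m, m ∈ M ↔ ∃ g ∈ Q, m = c * g * c⁻¹ * g⁻¹ := fun m => Iff.rfl
  have hMQ : M ≤ Q := by
    rintro m ⟨g, hg, rfl⟩
    exact Q.mul_mem (Q.mul_mem (Q.mul_mem hcQ hg) (Q.inv_mem hcQ)) (Q.inv_mem hg)
  refine ⟨M, hMQ, ?_, ?_, ?_, ?_, ?_, fun m hm => hm⟩
  · intro hM
    apply hcZ
    rw [mem_centralizer_iff]
    intro g hg
    have h1 : c * g * c⁻¹ * g⁻¹ ∈ M := ⟨g, hg, rfl⟩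
    rw [hM, mem_bot] at h1
    have : c * g = g * c := by
      calc c * g = (c * g * c⁻¹ * g⁻¹) * (g * c) := by group
        _ = g * c := by rw [h1, one_mul]
    exact this.symm
  · intro x hx
    rw [mem_normalizer_iff]
    intro m
    constructor
    · rintro ⟨g, hg, rfl⟩
      exact ⟨x * g * x⁻¹, hRQ' x hx g hg, hconjR x hx g⟩
    · rintro ⟨g, hg, hm⟩
      refine ⟨x⁻¹ * g * x⁻¹⁻¹, hRQ' x⁻¹ (R.inv_mem hx) g hg, ?_⟩
      rw [← hconjR x⁻¹ (R.inv_mem hx) g, ← hm]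
      group
  · intro q hq
    rw [mem_normalizer_iff]
    intro m
    constructor
    · rintro ⟨g, hg, rfl⟩
      refine ⟨g, hg, ?_⟩
      rw [hcen g hg q hq]; group
    · rintro ⟨g, hg, hm⟩
      refine ⟨g, hg, ?_⟩
      have h1 := hcen g hg q⁻¹ (Q.inv_mem hq)
      calc m = q⁻¹ * (q * m * q⁻¹) * q := by group
        _ = q⁻¹ * (c * g * c⁻¹ * g⁻¹) * q := by rw [hm]
        _ = (c * g * c⁻¹ * g⁻¹) * q⁻¹ * q := by rw [h1]
        _ = _ := by group
  · rintro x hx hx1 m ⟨g, hg, rfl⟩ hxm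
    set m := c * g * c⁻¹ * g⁻¹ with hm
    have hRm : R ≤ centralizer ({m} : Set G) := by
      apply Cfsg.Agent.Lib.Helper74BG36.le_of_mem_of_prime hr hR hx hx1
      rw [mem_centralizer_iff]
      intro y hy
      rw [Set.mem_singleton_iff] at hy
      rw [hy]; exact hxm.symm
    let U : Subgroup G := Q ⊓ centralizer ({c} : Set G)
    have hUmem : ∀ u, u ∈ U ↔ u ∈ Q ∧ c * u = u * c := by
      intro u
      constructor
      · rintro ⟨h1, h2⟩
        exact ⟨h1, (mem_centralizer_iff.mp h2) c rfl⟩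
      · rintro ⟨h1, h2⟩
        refine ⟨h1, ?_⟩
        show u ∈ centralizer ({c} : Set G)
        rw [mem_centralizer_iff]
        intro y hy
        rw [Set.mem_singleton_iff] at hy
        rw [hy]; exact h2
    have hphi1 : ∀ u, c * u * c⁻¹ * u⁻¹ = 1 ↔ c * u = u * c := by
      intro u
      constructor
      · intro h
        calc c * u = (c * u * c⁻¹ * u⁻¹) * (u * c) := by group
          _ = u * c := by rw [h, one_mul]
      · intro h
        rw [h]; group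
    have hRU : R ≤ normalizer (U : Set G) := by
      have key : ∀ z ∈ R, ∀ u ∈ U, z * u * z⁻¹ ∈ U := by
        intro z hz u hu
        rw [hUmem] at hu ⊢
        refine ⟨hRQ' z hz u hu.1, ?_⟩
        rw [← hphi1, ← hconjR z hz u, (hphi1 u).mpr hu.2]
        group
      intro z hz
      rw [mem_normalizer_iff]
      intro u
      constructor
      · exact key z hz u
      · intro h
        have := key z⁻¹ (R.inv_mem hz) _ h
        have e : z⁻¹ * (z * u * z⁻¹) * z⁻¹⁻¹ = u := by group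
        rwa [e] at this
    have hcop : (Nat.card R).Coprime (Nat.card U) := by
      rw [hR]
      exact (Nat.Coprime.coprime_dvd_left (Subgroup.card_dvd_of_le inf_le_left) hQr).symm
    have hsol : Group.IsSolvable R := by
      haveI : Fact r.Prime := ⟨hr⟩
      haveI : IsCyclic R := isCyclic_of_prime_card hR
      letI : CommGroup R := IsCyclic.commGroup
      infer_instance
    have hinv : ∀ z ∈ R, z * g * z⁻¹ * g⁻¹ ∈ U := by
      intro z hz
      rw [hUmem]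
      have hzg := hRQ' z hz g hg
      refine ⟨Q.mul_mem hzg (Q.inv_mem hg), ?_⟩
      rw [← hphi1, hmul _ hzg _ (Q.inv_mem hg), ← hconjR z hz g, ← hm]
      have h1 : z * m * z⁻¹ = m := by
        have := (mem_centralizer_iff.mp (hRm hz)) m rfl
        rw [← this]; group
      rw [h1, hm, ← hmul g hg _ (Q.inv_mem hg)]
      group
    obtain ⟨u, hu, hug⟩ := Cfsg.Agent.Lib.Helper1Coprime.exists_mul_mem_centralizer hRU hcop
      (Or.inl hsol) g hinv
    have huQ := ((hUmem u).mp hu).1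
    have h1 : c * (u * g) = (u * g) * c := hab c hc (u * g) ⟨Q.mul_mem huQ hg, hug⟩
    have h2 := (hphi1 (u * g)).mpr h1
    rw [hmul u huQ g hg, (hphi1 u).mpr ((hUmem u).mp hu).2, one_mul] at h2
    exact h2
  · rintro m ⟨g, hg, rfl⟩
    exact hcen g hg c hcQ

end Cfsg.Agent.Lib.Helper36BG36M
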