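import Cfsg.Agent.Lib.Helper23CE0
import Cfsg.Agent.Lib.Helper39CEA2
import Cfsg.Agent.Lib.Helper40CEA3
import Cfsg.Agent.Lib.Helper95CEA1
import Cfsg.Agent.Lib.Helper36CEI6a

set_option autoImplicit false

namespace Cfsg.Agent.Lib.Helper36CEA4

open Matrix Cfsg.Agent.Lib.Helper23CE

variable {F : Type*} [Field F]

/-- A4.  (from A2, A3, E2b) -/
theorem aut_class [Finite F] (p : ℕ) [Fact p.Prime] [CharP F p] (h2 : (2 : F) ≠ 0) (δ : SL 2 F ≃* SL 2 F)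
    (hδ : ∀ g, δ (kap g) = kap (δ g)) :
    ∃ (a : F) (σ : F ≃+* F), a ≠ 0 ∧
      (((∀ t, δ (u2 t) = u2 (a * σ t)) ∧ (∀ t, δ (l2 t) = l2 (a⁻¹ * σ t))) ∨
       ((∀ t, δ (u2 t) = l2 (a * σ t)) ∧ (∀ t, δ (l2 t) = u2 (a⁻¹ * σ t)))) := by
  rcases Cfsg.Agent.Lib.Helper39CEA2.aut_type p h2 δ hδ
    (Cfsg.Agent.Lib.Helper95CEA1.unip_of_kap p h2) with ⟨h1, h1'⟩ | ⟨h1, h1'⟩
  · choose f hf using h1
    choose g hg using h1'
    obtain ⟨a, σ, ha, e1, e2⟩ := Cfsg.Agent.Lib.Helper40CEA3.aut_form h2 δ f g hf hg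
    exact ⟨a, σ, ha, Or.inl ⟨fun t => by rw [hf, e1], fun t => by rw [hg, e2]⟩⟩
  · choose f hf using h1
    choose g hg using h1'
    obtain ⟨sw, hs1, hs2⟩ := Cfsg.Agent.Lib.Helper36CEI6a.sl2_swap (F := F)
    obtain ⟨a, σ, ha, e1, e2⟩ := Cfsg.Agent.Lib.Helper40CEA3.aut_form h2 (δ.trans sw) f g
      (fun t => by rw [MulEquiv.trans_apply, hf, hs2]) (fun t => by rw [MulEquiv.trans_apply, hg, hs1])
    exact ⟨a, σ, ha, Or.inr ⟨fun t => by rw [hf, e1], fun t => by rw [hg, e2]⟩⟩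

end Cfsg.Agent.Lib.Helper36CEA4
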