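import Cfsg.Agent.Lib.Helper23CE0
import Cfsg.Agent.Lib.Helper39CETools

set_option autoImplicit false

namespace Cfsg.Agent.Lib.Helper36CEE3a

open Matrix Cfsg.Agent.Lib.Helper23CE Cfsg.Agent.Lib.Helper39CETools

variable {F : Type*} [Field F]

/-- E3a.  (entrywise `σ`, then conjugation by `diag(a, 1, 1)`) -/
theorem sl3_aut (a : F) (ha : a ≠ 0) (σ : F ≃+* F) : ∃ Δ : SL 3 F ≃* SL 3 F,
    (∀ t, Δ (E3 0 1 t) = E3 0 1 (a * σ t)) ∧ (∀ t, Δ (E3 1 0 t) = E3 1 0 (a⁻¹ * σ t)) ∧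
    (∀ t, Δ (E3 1 2 t) = E3 1 2 (σ t)) ∧ (∀ t, Δ (E3 2 1 t) = E3 2 1 (σ t)) := by
  have hdet : (!![a, 0, 0; 0, 1, 0; 0, 0, 1] : Matrix (Fin 3) (Fin 3) F).det ≠ 0 := by
    rw [Matrix.det_fin_three]
    simp [ha]
  set P : GL (Fin 3) F := Matrix.GeneralLinearGroup.mkOfDetNeZero _ hdet with hP
  have hPv : (P : Matrix (Fin 3) (Fin 3) F) = !![a, 0, 0; 0, 1, 0; 0, 0, 1] := rfl
  have h01 : (0 : Fin 3) ≠ 1 := by decide
  have h12 : (1 : Fin 3) ≠ 2 := by decide
  refine ⟨(ms σ).trans (cj P), ?_, ?_, ?_, ?_⟩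
  · intro t
    simp only [MulEquiv.trans_apply]
    rw [ms_E3 σ h01]
    apply cj_eq
    rw [hPv, E3_val h01, E3_val h01]
    ext i j
    fin_cases i <;> fin_cases j <;>
      simp [Matrix.mul_apply, Fin.sum_univ_three, Matrix.single_apply, Matrix.one_apply]
  · intro t
    simp only [MulEquiv.trans_apply]
    rw [ms_E3 σ h01.symm]
    apply cj_eq
    rw [hPv, E3_val h01.symm, E3_val h01.symm]
    ext i j
    fin_cases i <;> fin_cases j <;>
      simp [Matrix.mul_apply, Fin.sum_univ_three, Matrix.single_apply, Matrix.one_apply]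
    field_simp
  · intro t
    simp only [MulEquiv.trans_apply]
    rw [ms_E3 σ h12]
    apply cj_eq
    rw [hPv, E3_val h12]
    ext i j
    fin_cases i <;> fin_cases j <;>
      simp [Matrix.mul_apply, Fin.sum_univ_three, Matrix.single_apply, Matrix.one_apply]
  · intro t
    simp only [MulEquiv.trans_apply]
    rw [ms_E3 σ h12.symm]
    apply cj_eq
    rw [hPv, E3_val h12.symm]
    ext i j
    fin_cases i <;> fin_cases j <;>
      simp [Matrix.mul_apply, Fin.sum_univ_three, Matrix.single_apply, Matrix.one_apply]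

end Cfsg.Agent.Lib.Helper36CEE3a
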