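import Mathlib
import Cfsg.Prelude.Def_GeometricClasses

set_option autoImplicit false
set_option linter.unusedSectionVars false
set_option linter.unusedVariables false

namespace Cfsg.Agent.Lib.Helper36Elu2CHAR

open Cfsg Cfsg.Geo Matrix Polynomial
open scoped MatrixGroups

variable {F : Type*} [Field F] [Fintype F]

/- piece CHAR -/
theorem charpoly_eq_of_squarefree {n : ℕ} (A : Matrix (Fin n) (Fin n) F) (f : F[X]) (hm : f.Monic)
    (hsq : Squarefree f) (hdeg : f.natDegree = n) (hA : aeval A f = 0)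
    (hk : ∀ g : F[X], Irreducible g → g ∣ f → ∃ v : Fin n → F, v ≠ 0 ∧ (aeval A g) *ᵥ v = 0) :
    A.charpoly = f := by
  classical
  set μ := minpoly F A with hμ
  have hint : IsIntegral F A := Matrix.isIntegral A
  have hμ0 : μ ≠ 0 := minpoly.ne_zero hint
  have hf0 : f ≠ 0 := hm.ne_zero
  have hirr : ∀ g : F[X], Irreducible g → g ∣ f → g ∣ μ := by
    intro g hg hgf
    obtain ⟨v, hv0, hv⟩ := hk g hg hgf
    by_contra hnd
    have hcop : IsCoprime g μ := (Irreducible.coprime_iff_not_dvd hg).2 hnd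
    obtain ⟨a, b, hab⟩ := hcop
    have h1 := congrArg (aeval A) hab
    rw [map_add, map_mul, map_mul, minpoly.aeval, mul_zero, add_zero, map_one] at h1
    apply hv0
    have h2 : (aeval A a * aeval A g) *ᵥ v = v := by rw [h1, Matrix.one_mulVec]
    rw [← h2, ← Matrix.mulVec_mulVec, hv, Matrix.mulVec_zero]
  have hfμ : f ∣ μ := by
    rw [UniqueFactorizationMonoid.dvd_iff_normalizedFactors_le_normalizedFactors hf0 hμ0]
    have hnd := (UniqueFactorizationMonoid.squarefree_iff_nodup_normalizedFactors hf0).1 hsq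
    rw [Multiset.le_iff_subset hnd]
    intro p hp
    have h1 := (UniqueFactorizationMonoid.mem_normalizedFactors_iff' hf0).1 hp
    exact (UniqueFactorizationMonoid.mem_normalizedFactors_iff' hμ0).2
      ⟨h1.1, h1.2.1, hirr p h1.1 h1.2.2⟩
  have hfc : f ∣ A.charpoly := hfμ.trans (Matrix.minpoly_dvd_charpoly A)
  apply Polynomial.eq_of_monic_of_dvd_of_natDegree_le hm (Matrix.charpoly_monic A) hfc
  rw [Matrix.charpoly_natDegree_eq_dim, hdeg, Fintype.card_fin]

end Cfsg.Agent.Lib.Helper36Elu2CHAR
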