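import Mathlib

set_option autoImplicit false
set_option linter.unusedSectionVars false

/-! Frobenius groups acting on abelian groups of coprime order: the norm identity and
B-G Theorem 3.5 in abstract (`DistribMulAction`) form. -/

namespace Cfsg.Agent.Lib.Helper36Frob

variable {G V : Type*} [Group G] [Finite G] [AddCommGroup V] [DistribMulAction G V]

noncomputable local instance instFintypeSub (H : Subgroup G) : Fintype H := Fintype.ofFinite H

/-- fixed points of a subgroup -/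
def fix (H : Subgroup G) : AddSubgroup V where
  carrier := {v | ∀ h ∈ H, h • v = v}
  add_mem' := by
    intro a b ha hb h hh
    rw [smul_add, ha h hh, hb h hh]
  zero_mem' := fun h _ => smul_zero h
  neg_mem' := by
    intro a ha h hh
    rw [smul_neg, ha h hh]

lemma mem_fix {H : Subgroup G} {v : V} : v ∈ (fix H : AddSubgroup V) ↔ ∀ h ∈ H, h • v = v := Iff.rfl

/-- the norm (trace) map of a subgroup -/
noncomputable def nrm (H : Subgroup G) : V →+ V :=
  ∑ h : H, DistribSMul.toAddMonoidHom V (h : G)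

lemma nrm_apply (H : Subgroup G) (v : V) : nrm H v = ∑ h : H, (h : G) • v := by
  unfold nrm
  rw [AddMonoidHom.finsetSum_apply]
  rfl

lemma smul_nrm {H : Subgroup G} {h : G} (hh : h ∈ H) (v : V) : h • nrm H v = nrm H v := by
  rw [nrm_apply, Finset.smul_sum]
  refine Fintype.sum_equiv (Equiv.mulLeft (⟨h, hh⟩ : H)) _ _ ?_
  intro x
  simp [mul_smul]

lemma nrm_mem_fix (H : Subgroup G) (v : V) : nrm H v ∈ (fix H : AddSubgroup V) :=
  fun _ hh => smul_nrm hh v

lemma nrm_smul {H : Subgroup G} {h : G} (hh : h ∈ H) (v : V) : nrm H (h • v) = nrm H v := by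
  rw [nrm_apply, nrm_apply]
  refine Fintype.sum_equiv (Equiv.mulRight (⟨h, hh⟩ : H)) _ _ ?_
  intro x
  simp [mul_smul]

lemma nrm_of_fix {H : Subgroup G} {v : V} (hv : v ∈ (fix H : AddSubgroup V)) :
    nrm H v = Nat.card H • v := by
  rw [nrm_apply, Finset.sum_congr rfl (fun (x : H) _ => hv (x : G) x.2)]
  simp [Nat.card_eq_fintype_card]

/-- the norm map commutes with elements normalising the subgroup -/
lemma nrm_smul_of_normalizes {H : Subgroup G} {g : G} (hg : ∀ h ∈ H, g * h * g⁻¹ ∈ H)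
    (hg' : ∀ h ∈ H, g⁻¹ * h * g ∈ H) (v : V) : nrm H (g • v) = g • nrm H v := by
  rw [nrm_apply, nrm_apply, Finset.smul_sum]
  let e : H ≃ H :=
    { toFun := fun h => ⟨g⁻¹ * h * g, hg' h h.2⟩
      invFun := fun h => ⟨g * h * g⁻¹, hg h h.2⟩
      left_inv := fun h => by ext; simp [mul_assoc]
      right_inv := fun h => by ext; simp [mul_assoc] }
  refine Fintype.sum_equiv e _ _ ?_
  intro x
  simp [e, ← mul_smul, mul_assoc]

lemma nrm_mem {H : Subgroup G} {U : AddSubgroup V} (hU : ∀ h ∈ H, ∀ v ∈ U, h • v ∈ U) {v : V}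
    (hv : v ∈ U) : nrm H v ∈ U := by
  rw [nrm_apply]
  exact U.sum_mem (fun x _ => hU x x.2 v hv)

lemma mem_of_nsmul_mem [Finite V] {U : AddSubgroup V} {n : ℕ} (h : n.Coprime (Nat.card V)) {v : V}
    (hv : n • v ∈ U) : v ∈ U := by
  have h1 := (nsmulCoprime h.symm).left_inv v
  rw [← h1]
  exact U.zsmul_mem hv _

lemma eq_zero_of_nsmul [Finite V] {n : ℕ} (h : n.Coprime (Nat.card V)) {v : V}
    (hv : n • v = 0) : v = 0 := by
  have : v ∈ (⊥ : AddSubgroup V) := mem_of_nsmul_mem h (by rw [hv]; exact AddSubgroup.zero_mem _)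
  exact (AddSubgroup.mem_bot).mp this

/-- **The norm identity** for a group `A` on which `R` acts without fixed points. -/
lemma norm_identity {A R : Subgroup G} (hRA : ∀ r ∈ R, ∀ a ∈ A, r * a * r⁻¹ ∈ A)
    (hfpf : ∀ r ∈ R, r ≠ 1 → ∀ a ∈ A, r * a = a * r → a = 1) {v : V}
    (hv : ∀ r ∈ R, r ≠ 1 → nrm A (r • v) = 0) :
    ∑ x : A, (x : G) • nrm R ((x : G)⁻¹ • v) = Nat.card A • v := by
  have h1 : ∀ x : A, (x : G) • nrm R ((x : G)⁻¹ • v) = ∑ r : R, ((x : G) * r * (x : G)⁻¹) • v := by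
    intro x
    rw [nrm_apply, Finset.smul_sum]
    refine Finset.sum_congr rfl (fun r _ => ?_)
    rw [← mul_smul, ← mul_smul]
  rw [Finset.sum_congr rfl (fun x _ => h1 x), Finset.sum_comm, Finset.sum_eq_single (1 : R)]
  · simp [Nat.card_eq_fintype_card]
  · intro r _ hr
    have hr1 : (r : G) ≠ 1 := fun h => hr (Subtype.ext h)
    rw [← hv r r.2 hr1, nrm_apply]
    let c : A → A := fun x => ⟨(x : G) * (r * (x : G)⁻¹ * (r : G)⁻¹), A.mul_mem x.2 (hRA r r.2 _ (A.inv_mem x.2))⟩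
    have hc : Function.Injective c := by
      intro x y hxy
      have h2 : (x : G) * (r * (x : G)⁻¹ * (r : G)⁻¹) = (y : G) * (r * (y : G)⁻¹ * (r : G)⁻¹) :=
        congrArg Subtype.val hxy
      have h3 : (r : G) * ((x : G)⁻¹ * y) = ((x : G)⁻¹ * y) * r := by
        have h4 : (r : G) * (x : G)⁻¹ * (r : G)⁻¹ = (x : G)⁻¹ * (y : G) * (r * (y : G)⁻¹ * (r : G)⁻¹) := by
          rw [mul_assoc (x : G)⁻¹, ← h2, inv_mul_cancel_left]
        calc (r : G) * ((x : G)⁻¹ * y) = ((r : G) * (x : G)⁻¹ * (r : G)⁻¹) * (r * y) := by group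
          _ = (x : G)⁻¹ * (y : G) * (r * (y : G)⁻¹ * (r : G)⁻¹) * (r * y) := by rw [h4]
          _ = ((x : G)⁻¹ * y) * r := by group
      have h5 := hfpf r r.2 hr1 _ (A.mul_mem (A.inv_mem x.2) y.2) h3
      exact Subtype.ext (inv_mul_eq_one.mp h5)
    have hcb : Function.Bijective c := Finite.injective_iff_bijective.mp hc
    refine Fintype.sum_bijective c hcb _ _ ?_
    intro x
    rw [← mul_smul]
    congr 1
    simp [c, mul_assoc]
  · intro h
    exact absurd (Finset.mem_univ _) h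

/-- a step of the lower central series -/
lemma nil_step {K : Subgroup G} (hnil : Group.IsNilpotent K) {C : Subgroup G} (hC : ¬ K ≤ C) :
    ∃ a ∈ K, a ∉ C ∧ ∀ k ∈ K, a * k * a⁻¹ * k⁻¹ ∈ C := by
  classical
  have hex : ∃ n, K.lowerCentralSeries n ≤ C := by
    obtain ⟨n, hn⟩ := (Subgroup.isNilpotent_iff_lowerCentralSeries K).mp hnil
    exact ⟨n, by rw [hn]; exact bot_le⟩
  have hn0 : Nat.find hex ≠ 0 := by
    intro h0
    have := Nat.find_spec hex
    rw [h0] at this
    exact hC this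
  obtain ⟨m, hm⟩ := Nat.exists_eq_succ_of_ne_zero hn0
  have h1 : ¬ K.lowerCentralSeries m ≤ C := Nat.find_min hex (by omega)
  have h2 : K.lowerCentralSeries (m + 1) ≤ C := by
    have := Nat.find_spec hex
    rwa [hm] at this
  obtain ⟨a, ha, haC⟩ := SetLike.not_le_iff_exists.mp h1
  refine ⟨a, K.lowerCentralSeries_le_self m ha, haC, fun k hk => h2 ?_⟩
  rw [Subgroup.lowerCentralSeries_succ]
  exact Subgroup.commutator_mem_commutator ha hk

/-- **B-G Theorem 3.5**, abstract form: a nilpotent group `K` with a group `R` of operators acting without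
fixed points on `K`; if `K R` acts on an abelian group `V` of order prime to `|K|` and `C_V(R)` has prime order,
then `K` acts on `V` as an abelian group. -/
theorem smul_comm_of_frob [Finite V] {K R : Subgroup G} (hnil : Group.IsNilpotent K)
    (hRK : ∀ r ∈ R, ∀ k ∈ K, r * k * r⁻¹ ∈ K)
    (hfpf : ∀ r ∈ R, r ≠ 1 → ∀ k ∈ K, r * k = k * r → k = 1)
    (hcop : (Nat.card K).Coprime (Nat.card V))
    (hℓ : (Nat.card (fix R : AddSubgroup V)).Prime) :
    ∀ k₁ ∈ K, ∀ k₂ ∈ K, ∀ v : V, (k₁ * k₂) • v = (k₂ * k₁) • v := by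
  classical
  have hsimple : ∀ U : AddSubgroup V, U ≤ fix R → U = ⊥ ∨ U = fix R := by
    intro U hU
    have hdvd : Nat.card U ∣ Nat.card (fix R : AddSubgroup V) := AddSubgroup.card_dvd_of_le hU
    rcases (Nat.dvd_prime hℓ).mp hdvd with h | h
    · left; exact AddSubgroup.card_eq_one.mp h
    · right; exact AddSubgroup.eq_of_le_of_card_ge hU (by rw [h])
  set W : AddSubgroup V := (nrm K).ker with hW
  have hWmem : ∀ v, v ∈ W ↔ nrm K v = 0 := fun v => AddMonoidHom.mem_ker
  have hRK' : ∀ r ∈ R, ∀ k ∈ K, r⁻¹ * k * r ∈ K := by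
    intro r hr k hk
    simpa using hRK r⁻¹ (R.inv_mem hr) k hk
  have hWK : ∀ k ∈ K, ∀ v ∈ W, k • v ∈ W := by
    intro k hk v hv
    rw [hWmem] at hv ⊢
    rw [nrm_smul hk, hv]
  have hWR : ∀ r ∈ R, ∀ v ∈ W, r • v ∈ W := by
    intro r hr v hv
    rw [hWmem] at hv ⊢
    rw [nrm_smul_of_normalizes (hRK r hr) (hRK' r hr), hv, smul_zero]
  have hfixW : ∀ v ∈ W, v ∈ (fix K : AddSubgroup V) → v = 0 := by
    intro v hv hvf
    rw [hWmem, nrm_of_fix hvf] at hv
    exact eq_zero_of_nsmul hcop hv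
  -- every non-zero invariant subgroup of `W` contains `C_V(R)`
  have hM : ∀ U : AddSubgroup V, U ≤ W → (∀ k ∈ K, ∀ v ∈ U, k • v ∈ U) →
      (∀ r ∈ R, ∀ v ∈ U, r • v ∈ U) → U ≠ ⊥ → fix R ≤ U := by
    intro U hUW hUK hUR hU0
    rcases hsimple (U ⊓ fix R) inf_le_right with h | h
    · exfalso
      apply hU0
      rw [eq_bot_iff]
      intro v hv
      have h1 := norm_identity (A := K) (R := R) hRK hfpf (v := v)
        (fun r hr _ => (hWmem _).mp (hWR r hr v (hUW hv)))
      have h2 : ∀ x : K, (x : G) • nrm R ((x : G)⁻¹ • v) = 0 := by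
        intro x
        have h3 : nrm R ((x : G)⁻¹ • v) ∈ U ⊓ fix R :=
          ⟨nrm_mem hUR (hUK _ (K.inv_mem x.2) v hv), nrm_mem_fix R _⟩
        rw [h] at h3
        rw [(AddSubgroup.mem_bot).mp h3, smul_zero]
      rw [Finset.sum_congr rfl (fun x _ => h2 x), Finset.sum_const_zero] at h1
      exact (AddSubgroup.mem_bot).mpr (eq_zero_of_nsmul hcop h1.symm)
    · rw [← h]; exact inf_le_left
  intro k₁ hk₁ k₂ hk₂
  -- reduction to `W`
  suffices hmain : ∀ v ∈ W, (k₁ * k₂) • v = (k₂ * k₁) • v by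
    intro v
    let T : AddSubgroup V :=
      { carrier := {v | (k₁ * k₂) • v = (k₂ * k₁) • v}
        add_mem' := by
          intro a b ha hb
          change (k₁ * k₂) • (a + b) = (k₂ * k₁) • (a + b)
          rw [smul_add, smul_add, ha, hb]
        zero_mem' := by
          change (k₁ * k₂) • (0 : V) = (k₂ * k₁) • (0 : V)
          rw [smul_zero, smul_zero]
        neg_mem' := by
          intro a ha
          change (k₁ * k₂) • (-a) = (k₂ * k₁) • (-a)
          rw [smul_neg, smul_neg, ha] }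
    have hT : Nat.card K • v ∈ T := by
      have h1 : Nat.card K • v = nrm K v + (Nat.card K • v - nrm K v) := by abel
      rw [h1]
      apply T.add_mem
      · have := nrm_mem_fix K v
        change (k₁ * k₂) • nrm K v = (k₂ * k₁) • nrm K v
        rw [this _ (K.mul_mem hk₁ hk₂), this _ (K.mul_mem hk₂ hk₁)]
      · apply hmain
        rw [hWmem, map_sub, map_nsmul, nrm_of_fix (nrm_mem_fix K v), sub_self]
    exact mem_of_nsmul_mem hcop hT
  by_cases hW0 : W = ⊥
  · intro v hv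
    rw [hW0] at hv
    rw [(AddSubgroup.mem_bot).mp hv, smul_zero, smul_zero]
  -- the kernel of the action on `W`
  let C : Subgroup G :=
    { carrier := {g | ∀ v ∈ W, g • v = v}
      mul_mem' := by
        intro g h hg hh v hv
        rw [mul_smul, hh v hv, hg v hv]
      one_mem' := fun v _ => one_smul G v
      inv_mem' := by
        intro g hg v hv
        rw [inv_smul_eq_iff, hg v hv] }
  have hKC : ¬ K ≤ C := by
    intro h
    apply hW0
    rw [eq_bot_iff]
    intro v hv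
    exact (AddSubgroup.mem_bot).mpr (hfixW v hv (fun k hk => h hk v hv))
  obtain ⟨a, haK, haC, hak⟩ := nil_step hnil hKC
  -- the elements of `K` commuting with `K` on `W`
  let A : Subgroup G :=
    { carrier := {x | x ∈ K ∧ ∀ k ∈ K, ∀ v ∈ W, (x * k) • v = (k * x) • v}
      mul_mem' := by
        rintro x y ⟨hx, hx'⟩ ⟨hy, hy'⟩
        refine ⟨K.mul_mem hx hy, fun k hk v hv => ?_⟩
        calc (x * y * k) • v = x • ((y * k) • v) := by rw [mul_assoc, mul_smul]
          _ = x • ((k * y) • v) := by rw [hy' k hk v hv]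
          _ = (x * k) • (y • v) := by rw [mul_smul, mul_smul]
          _ = (k * x) • (y • v) := by rw [hx' k hk _ (hWK y hy v hv)]
          _ = (k * (x * y)) • v := by rw [← mul_smul, mul_assoc]
      one_mem' := ⟨K.one_mem, fun k _ v _ => by rw [one_mul, mul_one]⟩
      inv_mem' := by
        rintro x ⟨hx, hx'⟩
        refine ⟨K.inv_mem hx, fun k hk v hv => ?_⟩
        have h1 := hx' k hk (x⁻¹ • v) (hWK _ (K.inv_mem hx) v hv)
        rw [mul_smul, mul_smul, smul_inv_smul] at h1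
        rw [mul_smul, mul_smul, inv_smul_eq_iff, h1] }
  have hAmem : ∀ x, x ∈ A ↔ x ∈ K ∧ ∀ k ∈ K, ∀ v ∈ W, (x * k) • v = (k * x) • v := fun x => Iff.rfl
  have hAK : A ≤ K := fun x hx => hx.1
  have haA : a ∈ A := by
    refine ⟨haK, fun k hk v hv => ?_⟩
    have h1 := hak k hk ((k * a) • v) (hWK _ (K.mul_mem hk haK) v hv)
    rw [← h1, ← mul_smul]
    congr 1
    group
  have hRA : ∀ r ∈ R, ∀ x ∈ A, r * x * r⁻¹ ∈ A := by
    intro r hr x hx
    refine ⟨hRK r hr x hx.1, fun k hk v hv => ?_⟩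
    have h1 := hx.2 (r⁻¹ * k * r) (hRK' r hr k hk) (r⁻¹ • v) (hWR _ (R.inv_mem hr) v hv)
    have h2 := congrArg (fun u => r • u) h1
    simp only [← mul_smul] at h2
    convert h2 using 2 <;> group
  have hRA' : ∀ r ∈ R, ∀ x ∈ A, r⁻¹ * x * r ∈ A := by
    intro r hr x hx
    simpa using hRA r⁻¹ (R.inv_mem hr) x hx
  have hcopA : (Nat.card A).Coprime (Nat.card V) :=
    Nat.Coprime.coprime_dvd_left (Subgroup.card_dvd_of_le hAK) hcop
  have hfpfA : ∀ r ∈ R, r ≠ 1 → ∀ x ∈ A, r * x = x * r → x = 1 :=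
    fun r hr hr1 x hx h => hfpf r hr hr1 x hx.1 h
  have hWA : ∀ x ∈ A, ∀ v ∈ W, x • v ∈ W := fun x hx v hv => hWK x hx.1 v hv
  have hcomm : ∀ x ∈ A, ∀ k ∈ K, ∀ v ∈ W, x • k • v = k • x • v := by
    intro x hx k hk v hv
    rw [← mul_smul, ← mul_smul]
    exact hx.2 k hk v hv
  -- `C_W(A) = 0`
  have hW1 : W ⊓ fix A = ⊥ := by
    by_contra h1
    have hR1 : fix R ≤ W ⊓ fix A := by
      refine hM _ inf_le_left ?_ ?_ h1
      · intro k hk v hv
        refine ⟨hWK k hk v hv.1, fun x hx => ?_⟩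
        rw [hcomm x hx k hk v hv.1, hv.2 x hx]
      · intro r hr v hv
        refine ⟨hWR r hr v hv.1, fun x hx => ?_⟩
        have h2 := hv.2 _ (hRA' r hr x hx)
        rw [mul_smul, mul_smul, inv_smul_eq_iff] at h2
        exact h2
    have h2 : W ⊓ (nrm A).ker ≠ ⊥ := by
      intro h2
      apply haC
      intro v hv
      have h3 : Nat.card A • v - nrm A v ∈ W ⊓ (nrm A).ker := by
        refine ⟨W.sub_mem (W.nsmul_mem hv _) (nrm_mem hWA hv), ?_⟩
        change _ ∈ (nrm A).ker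
        rw [AddMonoidHom.mem_ker, map_sub, map_nsmul, nrm_of_fix (nrm_mem_fix A v), sub_self]
      rw [h2, AddSubgroup.mem_bot, sub_eq_zero] at h3
      have h4 : v ∈ (fix A : AddSubgroup V) := by
        apply mem_of_nsmul_mem hcopA
        rw [h3]
        exact nrm_mem_fix A v
      exact h4 a haA
    have hR2 : fix R ≤ W ⊓ (nrm A).ker := by
      refine hM _ inf_le_left ?_ ?_ h2
      · intro k hk v hv
        refine ⟨hWK k hk v hv.1, ?_⟩
        have h3 : nrm A (k • v) = k • nrm A v := by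
          rw [nrm_apply, nrm_apply, Finset.smul_sum]
          exact Finset.sum_congr rfl (fun x _ => hcomm x x.2 k hk v hv.1)
        change _ ∈ (nrm A).ker
        rw [AddMonoidHom.mem_ker, h3, AddMonoidHom.mem_ker.mp hv.2, smul_zero]
      · intro r hr v hv
        refine ⟨hWR r hr v hv.1, ?_⟩
        change _ ∈ (nrm A).ker
        rw [AddMonoidHom.mem_ker, nrm_smul_of_normalizes (hRA r hr) (hRA' r hr),
          AddMonoidHom.mem_ker.mp hv.2, smul_zero]
    have h3 : (fix R : AddSubgroup V) = ⊥ := by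
      rw [eq_bot_iff]
      intro v hv
      have h4 := (hR1 hv).2
      have h5 := AddMonoidHom.mem_ker.mp (hR2 hv).2
      rw [nrm_of_fix h4] at h5
      exact (AddSubgroup.mem_bot).mpr (eq_zero_of_nsmul hcopA h5)
    rw [h3] at hℓ
    simp at hℓ
    exact Nat.not_prime_one hℓ
  -- a generator of `C_V(R)`
  have hRne : (fix R : AddSubgroup V) ≠ ⊥ := by
    intro h3
    rw [h3] at hℓ
    simp at hℓ
    exact Nat.not_prime_one hℓ
  obtain ⟨w, hwR, hw0⟩ := (AddSubgroup.ne_bot_iff_exists_ne_zero).mp hRne |>.imp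
    (fun x hx => hx) |> fun ⟨x, hx⟩ => (⟨(x : V), x.2, fun h => hx (Subtype.ext h)⟩ :
      ∃ w : V, w ∈ (fix R : AddSubgroup V) ∧ w ≠ 0)
  have hzw : AddSubgroup.zmultiples w = fix R := by
    rcases hsimple (AddSubgroup.zmultiples w) (by
      rw [AddSubgroup.zmultiples_le]; exact hwR) with h | h
    · exact absurd (AddSubgroup.zmultiples_eq_bot.mp h) hw0
    · exact h
  have hRW : fix R ≤ W := hM W le_rfl hWK hWR hW0
  have hwW : w ∈ W := hRW hwR
  set U : AddSubgroup V := AddSubgroup.closure {u | ∃ x ∈ A, u = x • w} with hU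
  have hWU : W ≤ U := by
    intro v hv
    have h1 := norm_identity (A := A) (R := R) hRA hfpfA (v := v) (by
      intro r hr _
      have h2 : nrm A (r • v) ∈ W ⊓ fix A := ⟨nrm_mem hWA (hWR r hr v hv), nrm_mem_fix A _⟩
      rw [hW1] at h2
      exact (AddSubgroup.mem_bot).mp h2)
    apply mem_of_nsmul_mem hcopA
    rw [← h1]
    apply U.sum_mem
    intro x _
    have h2 : nrm R ((x : G)⁻¹ • v) ∈ AddSubgroup.zmultiples w := by
      rw [hzw]; exact nrm_mem_fix R _
    obtain ⟨n, hn⟩ := AddSubgroup.mem_zmultiples_iff.mp h2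
    rw [← hn]
    have h3 : (x : G) • (n • w) = n • ((x : G) • w) :=
      (DistribSMul.toAddMonoidHom V (x : G)).map_zsmul n w
    rw [h3]
    exact U.zsmul_mem (AddSubgroup.subset_closure ⟨x, x.2, rfl⟩) n
  -- the double centraliser argument
  let Γ : (V →+ V) → Prop := fun γ => (∀ v ∈ W, γ v ∈ W) ∧ ∀ x ∈ A, ∀ v ∈ W, γ (x • v) = x • γ v
  have hΓK : ∀ k ∈ K, Γ (DistribSMul.toAddMonoidHom V k) := by
    intro k hk
    refine ⟨fun v hv => hWK k hk v hv, fun x hx v hv => ?_⟩
    exact (hcomm x hx k hk v hv).symm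
  have hgood : ∀ u ∈ U, ∃ β : V →+ V, β w = u ∧ ∀ γ, Γ γ → ∀ v ∈ W, β (γ v) = γ (β v) := by
    intro u hu
    induction hu using AddSubgroup.closure_induction with
    | mem u hu =>
      obtain ⟨x, hx, rfl⟩ := hu
      refine ⟨DistribSMul.toAddMonoidHom V x, rfl, fun γ hγ v hv => ?_⟩
      exact (hγ.2 x hx v hv).symm
    | zero => exact ⟨0, rfl, fun γ _ v _ => by simp⟩
    | add u₁ u₂ _ _ h₁ h₂ =>
      obtain ⟨β₁, hβ₁, hc₁⟩ := h₁
      obtain ⟨β₂, hβ₂, hc₂⟩ := h₂
      refine ⟨β₁ + β₂, by rw [AddMonoidHom.add_apply, hβ₁, hβ₂], fun γ hγ v hv => ?_⟩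
      rw [AddMonoidHom.add_apply, AddMonoidHom.add_apply, hc₁ γ hγ v hv, hc₂ γ hγ v hv, map_add]
    | neg u _ h =>
      obtain ⟨β, hβ, hc⟩ := h
      refine ⟨-β, by rw [AddMonoidHom.neg_apply, hβ], fun γ hγ v hv => ?_⟩
      rw [AddMonoidHom.neg_apply, AddMonoidHom.neg_apply, hc γ hγ v hv, map_neg]
  obtain ⟨β, hβw, hβ⟩ := hgood (k₁ • w) (hWU (hWK k₁ hk₁ w hwW))
  have hagree : ∀ v ∈ U, k₁ • v = β v := by
    intro v hv
    induction hv using AddSubgroup.closure_induction with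
    | mem u hu =>
      obtain ⟨x, hx, rfl⟩ := hu
      have h1 := hβ _ (hΓK x hx.1) w hwW
      change β (x • w) = x • β w at h1
      rw [h1, hβw, hcomm x hx k₁ hk₁ w hwW]
    | zero => rw [smul_zero, map_zero]
    | add u₁ u₂ _ _ h₁ h₂ => rw [smul_add, map_add, h₁, h₂]
    | neg u _ h => rw [smul_neg, map_neg, h]
  intro v hv
  have h1 := hβ _ (hΓK k₂ hk₂) v hv
  change β (k₂ • v) = k₂ • β v at h1
  rw [mul_smul, mul_smul, hagree _ (hWU (hWK k₂ hk₂ v hv)), h1, hagree v (hWU hv)]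

end Cfsg.Agent.Lib.Helper36Frob
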