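import Cfsg.Agent.Lib.Helper36Frob

set_option autoImplicit false
set_option linter.unusedSectionVars false

/-! B-G Theorem 3.5: multiplicative and internal forms. -/

namespace Cfsg.Agent.Lib.Helper36Frob2

open Cfsg.Agent.Lib.Helper36Frob
open scoped commutatorElement

/-- multiplicative form of `smul_comm_of_frob` -/
theorem comm_of_frob_mulAut {G A : Type*} [Group G] [Finite G] [Group A] [Finite A]
    (hcomm : ∀ a b : A, a * b = b * a) (ρ : G →* MulAut A) {K R : Subgroup G}
    (hnil : Group.IsNilpotent K) (hRK : ∀ r ∈ R, ∀ k ∈ K, r * k * r⁻¹ ∈ K)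
    (hfpf : ∀ r ∈ R, r ≠ 1 → ∀ k ∈ K, r * k = k * r → k = 1)
    (hcop : (Nat.card K).Coprime (Nat.card A))
    (hℓ : (Nat.card {a : A // ∀ r ∈ R, ρ r a = a}).Prime) :
    ∀ k₁ ∈ K, ∀ k₂ ∈ K, ∀ a : A, ρ (k₁ * k₂) a = ρ (k₂ * k₁) a := by
  let _ : CommGroup A := { (inferInstance : Group A) with mul_comm := hcomm }
  let _ : DistribMulAction G (Additive A) :=
    { smul := fun g a => Additive.ofMul (ρ g a.toMul)
      one_smul := fun a => by
        change Additive.ofMul (ρ 1 a.toMul) = a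
        simp
      mul_smul := fun g h a => by
        change Additive.ofMul (ρ (g * h) a.toMul) = Additive.ofMul (ρ g (ρ h a.toMul))
        simp
      smul_zero := fun g => by
        change Additive.ofMul (ρ g 1) = 0
        simp
      smul_add := fun g a b => by
        change Additive.ofMul (ρ g (a.toMul * b.toMul)) =
          Additive.ofMul (ρ g a.toMul) + Additive.ofMul (ρ g b.toMul)
        simp }
  have hcard : Nat.card (fix R : AddSubgroup (Additive A)) = Nat.card {a : A // ∀ r ∈ R, ρ r a = a} :=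
    Nat.card_congr (Equiv.subtypeEquiv Additive.toMul (fun a => Iff.rfl))
  have key := smul_comm_of_frob (V := Additive A) hnil hRK hfpf hcop (by rw [hcard]; exact hℓ)
  intro k₁ hk₁ k₂ hk₂ a
  exact congrArg Additive.toMul (key k₁ hk₁ k₂ hk₂ (Additive.ofMul a))

/-- **B-G Theorem 3.5**, internal form. -/
theorem commutator_le_centralizer_of_frob {X : Type*} [Group X] [Finite X] (K R V : Subgroup X)
    (hnil : Group.IsNilpotent K) (hRK : R ≤ Subgroup.normalizer (K : Set X))
    (hfpf : ∀ r ∈ R, r ≠ 1 → ∀ k ∈ K, r * k = k * r → k = 1)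
    (hKV : K ≤ Subgroup.normalizer (V : Set X)) (hRV : R ≤ Subgroup.normalizer (V : Set X))
    (hVc : ∀ a ∈ V, ∀ b ∈ V, a * b = b * a) (hcop : (Nat.card K).Coprime (Nat.card V))
    (hℓ : (Nat.card ↥(V ⊓ Subgroup.centralizer (R : Set X))).Prime) :
    ⁅K, K⁆ ≤ Subgroup.centralizer (V : Set X) := by
  set Nm : Subgroup X := Subgroup.normalizer (V : Set X) with hNm
  have eK : ↥(K.subgroupOf Nm) ≃* ↥K := Subgroup.subgroupOfEquivOfLe hKV
  have hnil' : Group.IsNilpotent ↥(K.subgroupOf Nm) :=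
    Group.nilpotent_of_mulEquiv eK.symm
  have hcard : Nat.card {a : ↥V // ∀ r ∈ R.subgroupOf Nm, V.normalizerMonoidHom r a = a} =
      Nat.card ↥(V ⊓ Subgroup.centralizer (R : Set X)) := by
    refine Nat.card_congr
      { toFun := fun a => ⟨(a.1 : X), a.1.2, ?_⟩
        invFun := fun x => ⟨⟨(x : X), x.2.1⟩, ?_⟩
        left_inv := fun a => rfl
        right_inv := fun x => rfl }
    · change (a.1 : X) ∈ Subgroup.centralizer (R : Set X)
      rw [Subgroup.mem_centralizer_iff]
      intro r hr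
      have h1 := a.2 ⟨r, hRV hr⟩ (Subgroup.mem_subgroupOf.mpr hr)
      have h2 : r * (a.1 : X) * r⁻¹ = (a.1 : X) := congrArg Subtype.val h1
      exact mul_inv_eq_iff_eq_mul.mp h2
    · intro r hr
      have h1 := (Subgroup.mem_centralizer_iff.mp x.2.2) (r : X) (Subgroup.mem_subgroupOf.mp hr)
      apply Subtype.ext
      change (r : X) * (x : X) * (r : X)⁻¹ = (x : X)
      rw [h1, mul_inv_cancel_right]
  have key := comm_of_frob_mulAut (G := ↥Nm) (A := ↥V)
    (fun a b => Subtype.ext (hVc a a.2 b b.2)) V.normalizerMonoidHom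
    (K := K.subgroupOf Nm) (R := R.subgroupOf Nm) hnil' ?_ ?_ ?_ ?_
  · rw [Subgroup.commutator_le]
    intro a ha b hb
    rw [Subgroup.mem_centralizer_iff]
    intro v hv
    have haN : a ∈ Nm := hKV ha
    have hbN : b ∈ Nm := hKV hb
    have hu : (b * a)⁻¹ * v * (b * a) ∈ V := by
      have := (Subgroup.mem_normalizer_iff.mp (Nm.inv_mem (Nm.mul_mem hbN haN)) v).mp hv
      simpa using this
    have h1 := key ⟨a, haN⟩ (Subgroup.mem_subgroupOf.mpr ha) ⟨b, hbN⟩ (Subgroup.mem_subgroupOf.mpr hb)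
      ⟨_, hu⟩
    have h2 : (a * b) * ((b * a)⁻¹ * v * (b * a)) * (a * b)⁻¹ =
        (b * a) * ((b * a)⁻¹ * v * (b * a)) * (b * a)⁻¹ := congrArg Subtype.val h1
    have h3 : (b * a) * ((b * a)⁻¹ * v * (b * a)) * (b * a)⁻¹ = v := by group
    rw [h3] at h2
    have h4 : ⁅a, b⁆ * v * ⁅a, b⁆⁻¹ = v := by
      rw [← h2, commutatorElement_def]
      conv_rhs => rw [← h2]
      group
    exact (mul_inv_eq_iff_eq_mul.mp h4).symm
  · intro r hr k hk
    rw [Subgroup.mem_subgroupOf] at hr hk ⊢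
    exact (Subgroup.mem_normalizer_iff.mp (hRK hr) _).mp hk
  · intro r hr hr1 k hk h
    rw [Subgroup.mem_subgroupOf] at hr hk
    have h1 := hfpf r hr (fun h0 => hr1 (Subtype.ext h0)) k hk (congrArg Subtype.val h)
    exact Subtype.ext h1
  · rw [Nat.card_congr eK.toEquiv]
    exact hcop
  · rw [hcard]
    exact hℓ

end Cfsg.Agent.Lib.Helper36Frob2
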