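import Mathlib
import Cfsg.Agent.Lib.Helper87EluD

set_option autoImplicit false

/-! Project 94 (S5958), sub-piece I-C3. -/

namespace Cfsg.Agent.Lib.Helper36ImpIC3

open scoped MatrixGroups

variable {F : Type*} [Field F] {n : ℕ}

theorem le_of_dvd_card_GL [Fintype F] (r : ℕ) [Fact r.Prime] (hr : ¬ r ∣ Fintype.card F)
    (h : r ∣ Nat.card (GL (Fin n) F)) : orderOf (Fintype.card F : ZMod r) ≤ n := by
  have hrp : r.Prime := Fact.out
  rw [Matrix.card_GL_field] at h
  obtain ⟨i, -, hi⟩ := (Prime.dvd_finset_prod_iff hrp.prime _).1 h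
  have hq : 0 < Fintype.card F := Fintype.card_pos
  have e : Fintype.card F ^ n - Fintype.card F ^ (i : ℕ)
      = Fintype.card F ^ (i : ℕ) * (Fintype.card F ^ (n - (i : ℕ)) - 1) := by
    rw [Nat.mul_sub, mul_one, ← pow_add, Nat.add_sub_cancel' i.isLt.le]
  rw [e] at hi
  rcases (Nat.Prime.dvd_mul hrp).1 hi with h1 | h1
  · exact absurd (hrp.dvd_of_dvd_pow h1) hr
  · rw [Cfsg.Agent.Lib.Helper87EluD.dvd_pow_sub_one_iff _ _ _ hq] at h1
    have := Nat.le_of_dvd (by have := i.isLt; omega) h1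
    omega

end Cfsg.Agent.Lib.Helper36ImpIC3
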