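import Cfsg.Agent.Lib.Helper36Simple
import Cfsg.Agent.Lib.Helper36Local
import Cfsg.Agent.Lib.Helper94Extra
import Cfsg.Prelude.Def_MonsterType

set_option autoImplicit false

namespace Cfsg.Agent.Lib.Helper36Large

open Cfsg Subgroup
open Cfsg.Agent.Lib.Helper36Extra Cfsg.Agent.Lib.Helper36GF2 Cfsg.Agent.Lib.Helper36Simple
open Cfsg.Agent.Lib.Helper94Extra

universe u

variable {G : Type u} [Group G]

/-- no involutions: no 2-torsion -/
theorem eq_one_of_isPGroup {Y P : Subgroup G} (hY : ∀ a ∈ Y, a * a = 1 → a = 1)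
    (hP : IsPGroup 2 P) {a : G} (haY : a ∈ Y) (haP : a ∈ P) : a = 1 := by
  obtain ⟨k, hk⟩ := hP ⟨a, haP⟩
  have hk' : a ^ 2 ^ k = 1 := congrArg Subtype.val hk
  clear hk
  induction k with
  | zero => simpa using hk'
  | succ k ih =>
    apply ih
    apply hY _ (Y.pow_mem haY _)
    rw [← pow_two, ← pow_mul, ← pow_succ]
    exact hk'

theorem no_invol_of_odd {Y : Subgroup G} (hY : Odd (Nat.card Y)) : ∀ a ∈ Y, a * a = 1 → a = 1 := by
  intro a ha h
  have h1 : orderOf a ∣ 2 := orderOf_dvd_of_pow_eq_one (by rw [pow_two]; exact h)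
  have h2 : orderOf a ∣ Nat.card Y := Subgroup.orderOf_dvd_natCard Y ha
  have h3 : orderOf a = 1 := by
    rcases (Nat.dvd_prime Nat.prime_two).mp h1 with h | h
    · exact h
    · exfalso
      rw [h] at h2
      exact (Nat.not_even_iff_odd.mpr hY) (even_iff_two_dvd.mpr h2)
  exact orderOf_eq_one_iff.mp h3

variable [Finite G]

/-- `Q = F*(C(z))` extraspecial, `u ∈ Q` a noncentral involution with `z ∈ O_2(C(u))`: a subgroup
without involutions normalized by `Q` is trivial. -/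
theorem eq_bot_of_normalized {z u : G} (hE : Ex (QF z) z) (hQ2 : IsPGroup 2 (QF z))
    (hu : u ∈ QF z) (hu2 : u * u = 1) (hu1 : u ≠ 1) (huz : u ≠ z) (hzu : z ∈ QQ u)
    (Y : Subgroup G) (hY : ∀ a ∈ Y, a * a = 1 → a = 1)
    (hQY : QF z ≤ normalizer (Y : Set G)) : Y = ⊥ := by
  have hconj : ∀ q ∈ QF z, ∀ y ∈ Y, q * y * q⁻¹ ∈ Y := fun q hq y hy =>
    (mem_normalizer_iff.mp (hQY hq) y).mp hy
  have hfz : ∀ y ∈ Y, z * y = y * z → y = 1 := by
    intro y hy hyz
    have hyC : y ∈ CC z := mem_CC.mpr hyz.symm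
    apply eq_one_of_isPGroup hY hQ2 hy
    apply centralizer_QF_le z
    refine mem_inf.mpr ⟨hyC, ?_⟩
    rw [mem_centralizer_iff]
    intro q hq
    have h1 : y * q * y⁻¹ * q⁻¹ ∈ Y := by
      have := Y.mul_mem hy (hconj q hq _ (Y.inv_mem hy))
      simpa [mul_assoc] using this
    have h2 : y * q * y⁻¹ * q⁻¹ ∈ QF z := (QF z).mul_mem (conj_mem_QF hyC hq) ((QF z).inv_mem hq)
    have h3 := eq_one_of_isPGroup hY hQ2 h1 h2
    have h4 : y * q = q * y := by
      calc y * q = (y * q * y⁻¹ * q⁻¹) * (q * y) := by group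
        _ = q * y := by rw [h3, one_mul]
    exact h4.symm
  have hiz := inverts_of_fpf hE.sq (hconj z hE.mem) hfz
  have hQQ2 : IsPGroup 2 (QQ u) := (Cfsg.Agent.Lib.Helper28Fitting.pCore_isPGroup 2).map _
  have hfu : ∀ y ∈ Y, u * y = y * u → y = 1 := by
    intro y hy hyu
    have h1 : y * z * y⁻¹ ∈ QQ u := conj_mem_QQ hyu.symm hzu
    have h2 : y * z * y⁻¹ * z⁻¹ ∈ QQ u := (QQ u).mul_mem h1 ((QQ u).inv_mem hzu)
    have h3 : y * z * y⁻¹ * z⁻¹ = y * y := by
      have := hiz y⁻¹ (Y.inv_mem hy)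
      rw [inv_inv] at this
      calc y * z * y⁻¹ * z⁻¹ = y * (z * y⁻¹ * z⁻¹) := by group
        _ = y * y := by rw [this]
    rw [h3] at h2
    exact hY y hy (eq_one_of_isPGroup hY hQQ2 (Y.mul_mem hy hy) h2)
  have hiu := inverts_of_fpf hu2 (hconj u hu) hfu
  obtain ⟨q, hq, hqu⟩ := Ex.exists_conj hE hu hu1 huz
  rw [eq_bot_iff]
  intro y hy
  rw [mem_bot]
  have h1 : (u * z) * y = y * (u * z) := by
    have h2 := hiz y hy
    have h3 := hiu y⁻¹ (Y.inv_mem hy)
    rw [inv_inv] at h3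
    calc (u * z) * y = u * (z * y * z⁻¹) * u⁻¹ * (u * z) := by group
      _ = y * (u * z) := by rw [h2, h3]
  rw [← hqu] at h1
  have h4 : q⁻¹ * y * q ∈ Y := by simpa using hconj q⁻¹ ((QF z).inv_mem hq) y hy
  have h5 : u * (q⁻¹ * y * q) = (q⁻¹ * y * q) * u := by
    calc u * (q⁻¹ * y * q) = q⁻¹ * ((q * u * q⁻¹) * y) * q := by group
      _ = q⁻¹ * (y * (q * u * q⁻¹)) * q := by rw [h1]
      _ = _ := by group
  have h6 := hfu _ h4 h5
  calc y = q * (q⁻¹ * y * q) * q⁻¹ := by group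
    _ = 1 := by rw [h6]; group

/-- `QQ z = QF z` when `F*(C(z))` is a 2-group. -/
theorem QQ_eq_QF {z : G} (hQ2 : IsPGroup 2 (QF z)) : QQ z = QF z := by
  have : Fact (Nat.Prime 2) := ⟨Nat.prime_two⟩
  have h1 : IsPGroup 2 (generalizedFittingSubgroup ↥(CC z)) := by
    rw [Cfsg.Agent.Lib.Helper36Local.isPGroup_gfit_iff, ← QF_eq]
    exact hQ2
  unfold QQ QF
  rw [Cfsg.Agent.Lib.Helper36Local.gfit_eq_pCore_of_isPGroup h1]

theorem centralizer_QF_le' (z : G) : centralizer (QF z : Set G) ≤ QF z := by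
  intro c hc
  apply centralizer_QF_le z
  refine mem_inf.mpr ⟨?_, hc⟩
  rw [mem_CC]
  exact ((mem_centralizer_iff.mp hc) z (self_mem_QF z)).symm

/-- a conjugate `x ≠ z` of `z` in `Q` has `z ∈ O_2(C(x))`. -/
theorem mem_QQ_conj_of {z : G} (hz : orderOf z = 2) (hQ2 : IsPGroup 2 (QF z))
    (hQ : IsExtraspecial 2 ↥(QF z)) (g : G) (hx : g * z * g⁻¹ ∈ QF z) : z ∈ QQ (g * z * g⁻¹) := by
  have h1 := QQ_eq_QF hQ2
  have hL : Large (QQ z) z := by
    apply large_QQ hz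
    · rw [h1]; exact hQ
    · rw [h1]; exact centralizer_QF_le' z
  apply orth_symm hL g
  rw [h1]; exact hx

/-- The first three conditions of largeness. -/
theorem isLargeExtraspecial_of {z : G} (hE : Ex (QF z) z) (hQ : IsExtraspecial 2 ↥(QF z))
    (h4 : ∀ K : Subgroup G, Odd (Nat.card K) → QF z ≤ normalizer (K : Set G) → K = ⊥) :
    IsLargeExtraspecial (QF z) := by
  refine ⟨hQ, ?_, ?_, h4⟩
  · apply le_antisymm
    · intro c hc
      have hcQ := centralizer_QF_le' z hc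
      refine ⟨⟨c, hcQ⟩, ?_, rfl⟩
      rw [SetLike.mem_coe, mem_center_iff]
      intro q
      apply Subtype.ext
      exact (mem_centralizer_iff.mp hc) q.1 q.2
    · rintro _ ⟨c, hc, rfl⟩
      rw [mem_centralizer_iff]
      intro q hq
      exact congrArg Subtype.val ((mem_center_iff.mp hc) ⟨q, hq⟩)
  · intro c hc
    apply CC_le_normalizer_QF z
    rw [mem_CC]
    refine ((mem_centralizer_iff.mp hc) z ⟨⟨z, hE.mem⟩, ?_, rfl⟩).symm
    rw [SetLike.mem_coe, mem_center_iff]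
    intro q
    apply Subtype.ext
    exact hE.cen q.1 q.2

end Cfsg.Agent.Lib.Helper36Large
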