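import Cfsg.Agent.Lib.Helper36Local

set_option autoImplicit false

namespace Cfsg.Agent.Lib.Helper36Local2

open Cfsg Subgroup
open Cfsg.Agent.Lib.Helper28Comp Cfsg.Agent.Lib.Helper28Layer Cfsg.Agent.Lib.Helper28More
open Cfsg.Agent.Lib.Helper36Local

universe u

variable {G : Type u} [Group G] [Finite G] {p : ℕ} [hp : Fact p.Prime]

/-- normalizers grow in `p`-groups, ambient form -/
theorem lt_inf_normalizer {U V : Subgroup G} (hU : IsPGroup p U) (hVU : V < U) :
    V < U ⊓ normalizer (V : Set G) := by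
  have hn : Group.IsNilpotent U := hU.isNilpotent
  have hnc := Group.normalizerCondition_of_isNilpotent (G := U)
  have h1 : V.subgroupOf U < ⊤ := by
    rw [lt_top_iff_ne_top]
    intro h
    rw [subgroupOf_eq_top] at h
    exact absurd h (not_le_of_gt hVU)
  have h2 := hnc _ h1
  obtain ⟨x, hx, hxV⟩ := SetLike.exists_of_lt h2
  refine lt_of_le_of_ne (le_inf hVU.le le_normalizer) ?_
  intro h
  apply hxV
  rw [mem_subgroupOf, h]
  have := map_normalizer_subgroupOf hVU.le
  rw [← this]
  exact ⟨x, hx, rfl⟩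

/-- extension by a `p`-group -/
theorem isPGroup_gfitIn_sup {Y U : Subgroup G} (hU : IsPGroup p U)
    (hUY : U ≤ normalizer (Y : Set G)) (h : IsPGroup p (gfitIn Y)) :
    IsPGroup p (gfitIn (Y ⊔ U)) := by
  set M := Y ⊔ U with hM
  have hMY : M ≤ normalizer (Y : Set G) := sup_le le_normalizer hUY
  have hn : NormIn Y M := ⟨le_sup_left, hMY⟩
  have h1 : gfitIn Y = gfitIn M ⊓ Y := gfitIn_eq_inf_of_normIn hn
  have h2 : Y.relIndex (gfitIn M) ∣ Y.relIndex M :=
    Cfsg.Agent.Lib.Helper27Core.relIndex_dvd_relIndex_of_le_normalizer (gfitIn_le M) hMY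
  have h3 : Y.relIndex M = Y.relIndex U := Cfsg.Agent.Lib.Helper27Core.relIndex_sup_left' hUY
  have h4 : Y.relIndex U ∣ Nat.card U := relIndex_dvd_card Y U
  obtain ⟨k, hk⟩ := IsPGroup.iff_card.mp hU
  obtain ⟨j, hj⟩ := IsPGroup.iff_card.mp h
  have h5 : Y.relIndex (gfitIn M) ∣ p ^ k := by
    rw [← hk]; exact h2.trans (h3 ▸ h4)
  obtain ⟨i, -, hi⟩ := (Nat.dvd_prime_pow hp.out).mp h5
  have h6 := Cfsg.Agent.Lib.Helper27Core.card_mul_relIndex
    (inf_le_left : gfitIn M ⊓ Y ≤ gfitIn M)
  rw [inf_comm, inf_relIndex_right, inf_comm, ← h1, hj, hi, ← pow_add] at h6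
  exact IsPGroup.of_card h6.symm

/-- one step: `V ⊴ V₁` `p`-groups, `F*(C(V))` a `p`-group implies `F*(C(V₁))` a `p`-group. -/
theorem isPGroup_gfitIn_centralizer_step {V V₁ : Subgroup G} (hV₁ : IsPGroup p V₁) (hVV : V ≤ V₁)
    (hn : V₁ ≤ normalizer (V : Set G)) (h : IsPGroup p (gfitIn (centralizer (V : Set G)))) :
    IsPGroup p (gfitIn (centralizer (V₁ : Set G))) := by
  set Y := centralizer (V : Set G) with hY
  have h1 : V₁ ≤ normalizer (Y : Set G) := hn.trans (normalizer_le_normalizer_centralizer V)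
  have h2 := isPGroup_gfitIn_sup hV₁ h1 h
  have h3 := isPGroup_gfitIn_inf_normalizer (K := Y ⊔ V₁) (P := V₁) le_sup_right hV₁ h2
  have h4 : NormIn (centralizer (V₁ : Set G)) ((Y ⊔ V₁) ⊓ normalizer (V₁ : Set G)) := by
    refine ⟨le_inf ((centralizer_le hVV).trans le_sup_left) ?_, ?_⟩
    · exact Cfsg.Agent.Lib.Helper27Basic.centralizer_le_normalizer' V₁
    · exact inf_le_right.trans (normalizer_le_normalizer_centralizer V₁)
  exact h3.to_le (gfitIn_le_of_sn h4.sn)

/-- `V ≤ U` `p`-groups, `F*(C(V))` a `p`-group implies `F*(C(U))` a `p`-group. -/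
theorem isPGroup_gfitIn_centralizer_of_le {U : Subgroup G} (hU : IsPGroup p U) (n : ℕ) :
    ∀ V : Subgroup G, V ≤ U → Nat.card U - Nat.card V = n →
    IsPGroup p (gfitIn (centralizer (V : Set G))) →
    IsPGroup p (gfitIn (centralizer (U : Set G))) := by
  induction n using Nat.strong_induction_on with
  | _ n ih =>
    intro V hVU hn h
    by_cases hEq : V = U
    · rw [← hEq]; exact h
    · have hlt : V < U := lt_of_le_of_ne hVU hEq
      have h1 := lt_inf_normalizer hU hlt
      have h2 := isPGroup_gfitIn_centralizer_step (V := V) (V₁ := U ⊓ normalizer (V : Set G))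
        (hU.to_le inf_le_left) h1.le inf_le_right h
      have h3 : Nat.card V < Nat.card (U ⊓ normalizer (V : Set G) : Subgroup G) := by
        apply lt_of_le_of_ne (card_le_of_le h1.le)
        intro h'
        exact h1.ne (eq_of_le_of_card_ge h1.le h'.ge)
      have h4 : Nat.card (U ⊓ normalizer (V : Set G) : Subgroup G) ≤ Nat.card U :=
        card_le_of_le inf_le_left
      exact ih _ (by omega) _ inf_le_left rfl h2

/-- `F*(C(U))` a `p`-group implies `C_H(O_p(H)) ≤ O_p(H)` for `H = N(U)`. -/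
theorem centralizer_pCore_normalizer_le {U : Subgroup G} (hU : IsPGroup p U)
    (h : IsPGroup p (gfitIn (centralizer (U : Set G)))) :
    centralizer (pCore p (normalizer (U : Set G)) : Set (normalizer (U : Set G)))
      ≤ pCore p (normalizer (U : Set G)) := by
  set H := normalizer (U : Set G) with hH
  set O := (pCore p H).map H.subtype with hO
  set D := H ⊓ centralizer (O : Set G) with hD
  have hTO : U ≤ O := by
    have := Cfsg.Agent.Lib.Helper27Balance.subgroupOf_le_pCore (p := p) (U := U) (N := H) hU le_rfl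
    rwa [inf_of_le_left le_normalizer] at this
  have hHO : H ≤ normalizer (O : Set G) := by
    have : (pCore p H).Normal := inferInstance
    intro x hx
    rw [mem_normalizer_iff]
    intro y
    constructor
    · rintro ⟨y', hy', rfl⟩
      exact ⟨⟨x, hx⟩ * y' * ⟨x, hx⟩⁻¹, this.conj_mem _ hy' _, rfl⟩
    · rintro ⟨y', hy', hyy⟩
      refine ⟨⟨x, hx⟩⁻¹ * y' * ⟨x, hx⟩, ?_, ?_⟩
      · simpa using this.conj_mem _ hy' ⟨x, hx⟩⁻¹
      · simp only [subtype_apply] at hyy
        simp [hyy, mul_assoc]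
  have hHD : H ≤ normalizer (D : Set G) := by
    refine le_trans ?_ inf_normalizer_le_normalizer_inf
    exact le_inf le_normalizer (hHO.trans (normalizer_le_normalizer_centralizer _))
  have hCH : centralizer (U : Set G) ≤ H := Cfsg.Agent.Lib.Helper27Basic.centralizer_le_normalizer' U
  have hDN : NormIn D (centralizer (U : Set G)) :=
    ⟨inf_le_right.trans (centralizer_le hTO), hCH.trans hHD⟩
  have h1 : IsPGroup p (gfitIn D) := h.to_le (gfitIn_le_of_sn hDN.sn)
  have h2 : gfitIn D ≤ O := by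
    have := Cfsg.Agent.Lib.Helper27Balance.subgroupOf_le_pCore (p := p) (U := gfitIn D) (N := H) h1
      (hHD.trans (normalizer_le_normalizer_gfitIn D))
    rwa [inf_of_le_left ((gfitIn_le D).trans inf_le_left)] at this
  have h3 : D ≤ O := by
    have h4 : D ≤ D ⊓ centralizer (gfitIn D : Set G) :=
      le_inf le_rfl (inf_le_right.trans (centralizer_le h2))
    exact h4.trans ((inf_centralizer_gfitIn_le D).trans ((fittingIn_le_gfitIn D).trans h2))
  intro x hx
  have hxD : (x : G) ∈ D := by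
    refine mem_inf.mpr ⟨x.2, ?_⟩
    rw [mem_centralizer_iff]
    rintro _ ⟨y, hy, rfl⟩
    have := (mem_centralizer_iff.mp hx) y hy
    exact congrArg Subtype.val this
  obtain ⟨y, hy, hyx⟩ := h3 hxD
  have : y = x := Subtype.ext hyx
  rwa [← this]

/-- `V ≤ U` `p`-groups with `F*(N(V)) = O_p(N(V))`: then `F*(N(U)) = O_p(N(U))`. -/
theorem gfit_normalizer_eq_of_le {U V : Subgroup G} (hU : IsPGroup p U) (hVU : V ≤ U)
    (h : generalizedFittingSubgroup (normalizer (V : Set G)) = pCore p (normalizer (V : Set G))) :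
    generalizedFittingSubgroup (normalizer (U : Set G)) = pCore p (normalizer (U : Set G)) := by
  rw [Cfsg.Agent.Lib.Helper27Balance.gfit_eq_pCore_iff]
  apply centralizer_pCore_normalizer_le hU
  apply isPGroup_gfitIn_centralizer_of_le hU _ V hVU rfl
  have h1 : IsPGroup p (gfitIn (normalizer (V : Set G))) := by
    rw [← isPGroup_gfit_iff, h]
    exact Cfsg.Agent.Lib.Helper28Fitting.pCore_isPGroup p
  have h2 : NormIn (centralizer (V : Set G)) (normalizer (V : Set G)) :=
    ⟨Cfsg.Agent.Lib.Helper27Basic.centralizer_le_normalizer' V,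
      normalizer_le_normalizer_centralizer V⟩
  exact h1.to_le (gfitIn_le_of_sn h2.sn)

end Cfsg.Agent.Lib.Helper36Local2
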