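import Mathlib
import Cfsg.Agent.Lib.Helper17SymmForm

/-!
# ASCH-O piece planeiso: classification of non-degenerate binary quadratic forms over a finite field
-/

set_option autoImplicit false

namespace Cfsg.Agent.Lib.Helper36OPlaneiso

variable {F : Type*} [Field F]

/-- `f` is obtained from `g` by an invertible linear substitution -/
def Eq2 (f g : F → F → F) : Prop :=
  ∃ p q r s : F, p * s - q * r ≠ 0 ∧ ∀ x y : F, g (p * x + r * y) (q * x + s * y) = f x y

/-- the binary form with coefficients `a b c` -/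
def bf (a b c : F) : F → F → F := fun x y => a * x ^ 2 + b * x * y + c * y ^ 2

/-- isotropic -/
def Iso (f : F → F → F) : Prop := ∃ x y : F, (x ≠ 0 ∨ y ≠ 0) ∧ f x y = 0

theorem Eq2.symm {f g : F → F → F} (h : Eq2 f g) : Eq2 g f := by
  obtain ⟨p, q, r, s, hD, h⟩ := h
  obtain ⟨D, hDdef⟩ : ∃ D, D = p * s - q * r := ⟨_, rfl⟩
  rw [← hDdef] at hD
  refine ⟨s / D, -q / D, -r / D, p / D, ?_, ?_⟩
  · have : s / D * (p / D) - -q / D * (-r / D) = 1 / D := by
      field_simp
      rw [hDdef]; ring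
    rw [this]
    exact one_div_ne_zero hD
  · intro x y
    rw [← h]
    congr 1
    · field_simp
      rw [hDdef]; ring
    · field_simp
      rw [hDdef]; ring

theorem Eq2.trans {f g k : F → F → F} (h₁ : Eq2 f g) (h₂ : Eq2 g k) : Eq2 f k := by
  obtain ⟨p, q, r, s, hD, h⟩ := h₁
  obtain ⟨p', q', r', s', hD', h'⟩ := h₂
  refine ⟨p' * p + r' * q, q' * p + s' * q, p' * r + r' * s, q' * r + s' * s, ?_, ?_⟩
  · have : (p' * p + r' * q) * (q' * r + s' * s) - (q' * p + s' * q) * (p' * r + r' * s) =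
        (p' * s' - q' * r') * (p * s - q * r) := by ring
    rw [this]
    exact mul_ne_zero hD' hD
  · intro x y
    rw [← h, ← h']
    congr 1 <;> ring

theorem Eq2.iso {f g : F → F → F} (h : Eq2 f g) (hf : Iso f) : Iso g := by
  obtain ⟨p, q, r, s, hD, h⟩ := h
  obtain ⟨x, y, hxy, h0⟩ := hf
  refine ⟨p * x + r * y, q * x + s * y, ?_, by rw [h, h0]⟩
  by_contra hcon
  push Not at hcon
  obtain ⟨h1, h2⟩ := hcon
  have hx : (p * s - q * r) * x = 0 := by linear_combination s * h1 - r * h2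
  have hy : (p * s - q * r) * y = 0 := by linear_combination p * h2 - q * h1
  rcases hxy with hx0 | hy0
  · exact hx0 ((mul_eq_zero.mp hx).resolve_left hD)
  · exact hy0 ((mul_eq_zero.mp hy).resolve_left hD)

/-- a pair of vectors with prescribed values and a non-degenerate Gram matrix -/
theorem rep {α β γ a b c : F} (p q r s : F) (ha : bf α β γ p q = a) (hc : bf α β γ r s = c)
    (hb : 2 * α * p * r + β * (p * s + q * r) + 2 * γ * q * s = b) (hd : b ^ 2 - 4 * a * c ≠ 0) :
    Eq2 (bf a b c) (bf α β γ) := by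
  refine ⟨p, q, r, s, ?_, ?_⟩
  · intro h0
    apply hd
    have : b ^ 2 - 4 * a * c = (β ^ 2 - 4 * α * γ) * (p * s - q * r) ^ 2 := by
      rw [← ha, ← hb, ← hc]
      unfold bf
      ring
    rw [this, h0]
    ring
  · intro x y
    rw [← ha, ← hb, ← hc]
    unfold bf
    ring

/-- isotropic non-degenerate forms are hyperbolic -/
theorem hyp_of_iso {α β γ : F} (h : β ^ 2 - 4 * α * γ ≠ 0) (hi : Iso (bf α β γ)) :
    Eq2 (bf 0 1 0) (bf α β γ) := by
  obtain ⟨p, q, hpq, h0⟩ := hi
  -- a vector `w = (u, v)` with `B(e, w) ≠ 0`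
  have hex : ∃ u v : F, 2 * α * p * u + β * (p * v + q * u) + 2 * γ * q * v ≠ 0 := by
    by_contra hcon
    push Not at hcon
    have h1 := hcon 1 0
    have h2 := hcon 0 1
    have hp : (β ^ 2 - 4 * α * γ) * p = 0 := by linear_combination β * h2 - 2 * γ * h1
    have hq : (β ^ 2 - 4 * α * γ) * q = 0 := by linear_combination β * h1 - 2 * α * h2
    rcases hpq with hp0 | hq0
    · exact hp0 ((mul_eq_zero.mp hp).resolve_left h)
    · exact hq0 ((mul_eq_zero.mp hq).resolve_left h)
  obtain ⟨u, v, huv⟩ := hex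
  set B := 2 * α * p * u + β * (p * v + q * u) + 2 * γ * q * v with hB
  set t := bf α β γ u v / B ^ 2 with ht
  have ht' : t * B ^ 2 = bf α β γ u v := by rw [ht]; field_simp
  have hp0 : α * p ^ 2 + β * p * q + γ * q ^ 2 = 0 := h0
  have hBB : (2 * α * p * u + β * (p * v + q * u) + 2 * γ * q * v) / B = 1 := by
    rw [← hB]; exact div_self huv
  refine rep p q (u / B - t * p) (v / B - t * q) h0 ?_ ?_ (by norm_num)
  · unfold bf at ht' ⊢
    have e1 : α * (u / B - t * p) ^ 2 + β * (u / B - t * p) * (v / B - t * q) +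
        γ * (v / B - t * q) ^ 2 =
        (α * u ^ 2 + β * u * v + γ * v ^ 2) / B ^ 2
          - t * ((2 * α * p * u + β * (p * v + q * u) + 2 * γ * q * v) / B)
          + t ^ 2 * (α * p ^ 2 + β * p * q + γ * q ^ 2) := by
      field_simp
      ring
    rw [e1, hBB, hp0, ← ht']
    field_simp
    ring
  · have e1 : 2 * α * p * (u / B - t * p) + β * (p * (v / B - t * q) + q * (u / B - t * p)) +
        2 * γ * q * (v / B - t * q) =
        (2 * α * p * u + β * (p * v + q * u) + 2 * γ * q * v) / B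
          - 2 * t * (α * p ^ 2 + β * p * q + γ * q ^ 2) := by
      field_simp
      ring
    rw [e1, hBB, hp0]
    ring

/-! ### odd characteristic -/

theorem odd_normal [Finite F] (h2 : (2 : F) ≠ 0) {α β γ : F} (h : β ^ 2 - 4 * α * γ ≠ 0)
    (hi : ¬ Iso (bf α β γ)) : ∃ d : F, ¬ IsSquare (-d) ∧ Eq2 (bf 1 0 d) (bf α β γ) := by
  have hα : α ≠ 0 := by
    intro h0
    apply hi
    exact ⟨1, 0, Or.inl one_ne_zero, by unfold bf; rw [h0]; ring⟩
  have h4 : (4 : F) ≠ 0 := by
    have : (4 : F) = 2 * 2 := by norm_num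
    rw [this]; exact mul_ne_zero h2 h2
  obtain ⟨c, hc⟩ : ∃ c, c = γ - β ^ 2 / (4 * α) := ⟨_, rfl⟩
  have hc' : 4 * α * c = 4 * α * γ - β ^ 2 := by rw [hc]; field_simp
  have hc0 : c ≠ 0 := by
    intro h0
    apply h
    rw [h0] at hc'
    linear_combination hc'
  have hA : Eq2 (bf α 0 c) (bf α β γ) := by
    refine rep 1 0 (-β / (2 * α)) 1 (by unfold bf; ring) ?_ ?_ ?_
    · unfold bf
      rw [hc]
      field_simp
      ring
    · field_simp
      ring
    · intro h0
      apply h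
      linear_combination h0 + hc'
  obtain ⟨p, q, hpq⟩ := Cfsg.Agent.Lib.Helper17SymmForm.exists_sol h2 α c 1 hα hc0
  have hB : Eq2 (bf 1 0 (α * c)) (bf α 0 c) := by
    refine rep p q (-c * q) (α * p) (by unfold bf; linear_combination hpq) ?_ (by ring) ?_
    · unfold bf
      linear_combination (α * c) * hpq
    · intro h0
      have : 4 * (α * c) = 0 := by linear_combination -h0
      exact (mul_ne_zero h4 (mul_ne_zero hα hc0)) this
  refine ⟨α * c, ?_, hB.trans hA⟩
  rintro ⟨t, ht⟩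
  apply hi
  apply (hB.trans hA).iso
  exact ⟨t, 1, Or.inr one_ne_zero, by unfold bf; linear_combination -ht⟩

theorem odd_equiv [Finite F] (_h2 : (2 : F) ≠ 0) {d d' : F} (hd : ¬ IsSquare (-d))
    (hd' : ¬ IsSquare (-d')) : Eq2 (bf 1 0 d) (bf 1 0 d') := by
  classical
  have := Fintype.ofFinite F
  have hd0 : d ≠ 0 := by
    rintro rfl
    exact hd ⟨0, by simp⟩
  have hd0' : d' ≠ 0 := by
    rintro rfl
    exact hd' ⟨0, by simp⟩
  have h1 := (quadraticChar_neg_one_iff_not_isSquare (F := F)).mpr hd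
  have h1' := (quadraticChar_neg_one_iff_not_isSquare (F := F)).mpr hd'
  have h3 : quadraticChar F (-d * -d') = 1 := by rw [map_mul, h1, h1']; norm_num
  obtain ⟨w, hw⟩ := (quadraticChar_one_iff_isSquare
    (mul_ne_zero (neg_ne_zero.mpr hd0) (neg_ne_zero.mpr hd0'))).mp h3
  have hw0 : w ≠ 0 := by
    rintro rfl
    have : d * d' = 0 := by linear_combination hw
    exact mul_ne_zero hd0 hd0' this
  refine ⟨1, 0, 0, w / d', ?_, ?_⟩
  · simpa using div_ne_zero hw0 hd0'
  · intro x y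
    unfold bf
    have : d' * (w / d') ^ 2 = d := by
      field_simp
      linear_combination -hw
    linear_combination y ^ 2 * this

/-! ### characteristic two -/

theorem two_normal [Finite F] (h2 : (2 : F) = 0) {α β γ : F} (h : β ^ 2 - 4 * α * γ ≠ 0)
    (hi : ¬ Iso (bf α β γ)) : ∃ c : F, (∀ z : F, z ^ 2 + z ≠ c) ∧ Eq2 (bf 1 1 c) (bf α β γ) := by
  have hα : α ≠ 0 := by
    intro h0
    apply hi
    exact ⟨1, 0, Or.inl one_ne_zero, by unfold bf; rw [h0]; ring⟩
  have hβ : β ≠ 0 := by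
    intro h0
    apply h
    rw [h0]
    linear_combination (-2 * α * γ) * h2
  have hchar : ringChar F = 2 := by
    have : CharP F 2 := CharTwo.of_one_ne_zero_of_two_eq_zero one_ne_zero h2
    exact ringChar.eq F 2
  obtain ⟨s, hs⟩ := FiniteField.isSquare_of_char_two hchar (1 / α)
  have hs' : α * s ^ 2 = 1 := by
    rw [pow_two, ← hs]; field_simp
  have hs0 : s ≠ 0 := by
    rintro rfl
    simp at hs'
  have hE : Eq2 (bf 1 1 (γ / (β * s) ^ 2)) (bf α β γ) := by
    refine rep s 0 0 (1 / (β * s)) (by unfold bf; linear_combination hs') ?_ ?_ ?_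
    · unfold bf
      field_simp
      ring
    · field_simp
      ring
    · intro h0
      have : (1 : F) = 0 := by linear_combination h0 + (2 * (γ / (β * s) ^ 2)) * h2
      exact one_ne_zero this
  refine ⟨_, ?_, hE⟩
  intro z hz
  apply hi
  apply hE.iso
  exact ⟨z, 1, Or.inr one_ne_zero, by
    unfold bf; linear_combination hz + (γ / (β * s) ^ 2) * h2⟩

theorem two_index [Finite F] (h2 : (2 : F) = 0) {c c' : F} (hc : ∀ z : F, z ^ 2 + z ≠ c)
    (hc' : ∀ z : F, z ^ 2 + z ≠ c') : ∃ z : F, z ^ 2 + z = c + c' := by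
  let φ : F →+ F := AddMonoidHom.mk' (fun z => z ^ 2 + z) (by
    intro a b
    show (a + b) ^ 2 + (a + b) = a ^ 2 + a + (b ^ 2 + b)
    linear_combination (a * b) * h2)
  have hφ : ∀ z, φ z = z ^ 2 + z := fun z => rfl
  have hker : Nat.card φ.ker = 2 := by
    rw [Nat.card_eq_two_iff]
    refine ⟨⟨0, by rw [AddMonoidHom.mem_ker, hφ]; ring⟩,
      ⟨1, by rw [AddMonoidHom.mem_ker, hφ]; linear_combination h2⟩, ?_, ?_⟩
    · intro h0
      exact zero_ne_one (congrArg Subtype.val h0)
    · rw [Set.eq_univ_iff_forall]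
      rintro ⟨z, hz⟩
      rw [AddMonoidHom.mem_ker, hφ] at hz
      have h3 : z * (z + 1) = 0 := by linear_combination hz
      rcases mul_eq_zero.mp h3 with h4 | h4
      · left; exact Subtype.ext h4
      · right
        apply Subtype.ext
        show z = 1
        linear_combination h4 - h2
  have hidx : φ.range.index = 2 := by
    have e1 := φ.ker.card_mul_index
    rw [AddSubgroup.index_ker, hker] at e1
    have e2 := φ.range.card_mul_index
    have e3 : Nat.card φ.range * φ.range.index = Nat.card φ.range * 2 := by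
      rw [e2, ← e1, mul_comm]
    exact Nat.eq_of_mul_eq_mul_left Nat.card_pos e3
  have h3 : c + c' ∈ φ.range := by
    rw [AddSubgroup.add_mem_iff_of_index_two hidx]
    constructor
    · rintro ⟨z, hz⟩
      exact absurd hz (hc z)
    · rintro ⟨z, hz⟩
      exact absurd hz (hc' z)
  obtain ⟨z, hz⟩ := h3
  exact ⟨z, hz⟩

theorem two_equiv [Finite F] (h2 : (2 : F) = 0) {c c' : F} (hc : ∀ z : F, z ^ 2 + z ≠ c)
    (hc' : ∀ z : F, z ^ 2 + z ≠ c') : Eq2 (bf 1 1 c) (bf 1 1 c') := by
  obtain ⟨z, hz⟩ := two_index h2 hc hc'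
  refine ⟨1, 0, z, 1, by simp, ?_⟩
  intro x y
  unfold bf
  linear_combination y ^ 2 * hz + (x * z * y + c' * y ^ 2) * h2

/-- [planeiso] classification of the non-degenerate binary quadratic forms over a finite field. -/
theorem binary_equiv [Fintype F] {α β γ α' β' γ' : F} (h : β ^ 2 - 4 * α * γ ≠ 0)
    (h' : β' ^ 2 - 4 * α' * γ' ≠ 0)
    (hiff : (∃ x y : F, (x ≠ 0 ∨ y ≠ 0) ∧ α * x ^ 2 + β * x * y + γ * y ^ 2 = 0) ↔
      (∃ x y : F, (x ≠ 0 ∨ y ≠ 0) ∧ α' * x ^ 2 + β' * x * y + γ' * y ^ 2 = 0)) :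
    ∃ p q r s : F, p * s - q * r ≠ 0 ∧ ∀ x y : F,
      α' * (p * x + r * y) ^ 2 + β' * (p * x + r * y) * (q * x + s * y) + γ' * (q * x + s * y) ^ 2 =
        α * x ^ 2 + β * x * y + γ * y ^ 2 := by
  have hiff' : Iso (bf α β γ) ↔ Iso (bf α' β' γ') := hiff
  suffices hE : Eq2 (bf α β γ) (bf α' β' γ') from hE
  by_cases hi : Iso (bf α β γ)
  · exact (hyp_of_iso h hi).symm.trans (hyp_of_iso h' (hiff'.mp hi))
  · have hi' : ¬ Iso (bf α' β' γ') := fun h0 => hi (hiff'.mpr h0)
    by_cases h2 : (2 : F) = 0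
    · obtain ⟨c, hc, hE⟩ := two_normal h2 h hi
      obtain ⟨c', hc', hE'⟩ := two_normal h2 h' hi'
      exact hE.symm.trans ((two_equiv h2 hc hc').trans hE')
    · obtain ⟨d, hd, hE⟩ := odd_normal h2 h hi
      obtain ⟨d', hd', hE'⟩ := odd_normal h2 h' hi'
      exact hE.symm.trans ((odd_equiv h2 hd hd').trans hE')

end Cfsg.Agent.Lib.Helper36OPlaneiso
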