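import Cfsg.Agent.Lib.Helper96SpDefs

set_option autoImplicit false
set_option linter.unusedSectionVars false

namespace Cfsg.Agent.Lib.Helper97SpPaireven

open Cfsg Cfsg.Geo Matrix
open Cfsg.Agent.Lib.Helper97GBase Cfsg.Agent.Lib.Helper96SpDefs
open scoped MatrixGroups

variable {ι : Type} [Fintype ι] [DecidableEq ι] {F : Type*} [Field F]
variable {f : (ι → F) → (ι → F) → F} {H : Subgroup (GL ι F)}

lemma exists_proj {A B : Submodule F (ι → F)} (hc : IsCompl A B) :
    ∃ p0 p1 : (ι → F) →ₗ[F] (ι → F), (∀ v, p0 v ∈ A) ∧ (∀ v, p1 v ∈ B) ∧ (∀ v, p0 v + p1 v = v) ∧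
      (∀ a ∈ A, ∀ b ∈ B, p0 (a + b) = a ∧ p1 (a + b) = b) := by
  refine ⟨A.projection B hc, B.projection A hc.symm, fun v => Submodule.projection_apply_mem hc v,
    fun v => Submodule.projection_apply_mem hc.symm v,
    fun v => Submodule.projection_add_projection_eq_self hc v, ?_⟩
  intro a ha b hb
  constructor
  · rw [map_add, Submodule.projection_apply_of_mem_left hc ha,
      Submodule.projection_apply_of_mem_right hc hb, add_zero]
  · rw [map_add, Submodule.projection_apply_of_mem_right hc.symm ha,
      Submodule.projection_apply_of_mem_left hc.symm hb, zero_add]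

lemma isCompl_of_decomp {k : ℕ} {D : Fin 2 → Submodule F (ι → F)} (hD : IsMDecomposition k D) :
    IsCompl (D 0) (D 1) := by
  constructor
  · exact hD.indep.pairwiseDisjoint (by decide)
  · rw [codisjoint_iff, eq_top_iff, ← hD.iSup_eq_top]
    apply iSup_le
    intro i
    fin_cases i
    · exact le_sup_left
    · exact le_sup_right

/-- [paireven] characteristic 2: the stabiliser of a pair of complementary totally singular subspaces fixes
the quadratic form `Q(u₀ + u₁) = f(u₀, u₁)`. -/
theorem sp_pair_even (hf : IsSymplecticForm f) (h2 : (2 : F) = 0) (hH : FixesForm (matrixSet H) f)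
    (hp : AltPair f H) : AltQuad f H := by
  obtain ⟨k, D, hD, hts, hle⟩ := hp
  obtain ⟨p0, p1, h0, h1, hsum, huniq⟩ := exists_proj (isCompl_of_decomp hD)
  have hneg : ∀ a : F, -a = a := by
    intro a
    have : a + a = 0 := by rw [← two_mul, h2, zero_mul]
    exact neg_eq_of_add_eq_zero_left this
  have hb := hf.bilinear
  have hpolar : QuadraticMap.polar (fun v => f (p0 v) (p1 v)) = f := by
    funext u v
    unfold QuadraticMap.polar
    simp only [map_add]
    conv_rhs => rw [← hsum u, ← hsum v]
    rw [hb.add_left, hb.add_right, hb.add_right, hb.add_left, hb.add_right, hb.add_right,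
      hts 0 _ (h0 u) _ (h0 v), hts 1 _ (h1 u) _ (h1 v), hf.skew (p1 u) (p0 v), hneg]
    ring
  refine ⟨fun v => f (p0 v) (p1 v), ⟨?_, ?_, ?_⟩, fun u v => by rw [hpolar], ?_⟩
  · intro c v
    simp only [map_smul]
    rw [hb.smul_left, hb.smul_right]
    ring
  · rw [hpolar]; exact hb
  · rw [hpolar]; exact hf.nondegenerate
  · intro h hh
    refine ⟨1, fun v => ?_⟩
    rw [Units.val_one, one_mul]
    obtain ⟨σ, hσ⟩ := hle hh
    have hmem : ∀ i x, x ∈ D i → (h : Matrix ι ι F) *ᵥ x ∈ D (σ i) := by
      intro i x hx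
      rw [← hσ i]
      exact ⟨x, hx, Matrix.toLin'_apply _ _⟩
    have hv : (h : Matrix ι ι F) *ᵥ v = (h : Matrix ι ι F) *ᵥ p0 v + (h : Matrix ι ι F) *ᵥ p1 v := by
      rw [← Matrix.mulVec_add, hsum]
    have hfix := hH _ ⟨h, hh, rfl⟩
    by_cases hs : σ 0 = 0
    · have hs1 : σ 1 = 1 := by
        by_contra hcon
        have h3 : σ 1 = 0 := by
          have := (σ 1).isLt
          apply Fin.ext
          have h4 : (σ 1 : ℕ) ≠ 1 := fun h => hcon (Fin.ext h)
          simp only [Fin.val_zero]
          omega
        have := σ.injective (hs.trans h3.symm)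
        exact absurd this (by decide)
      have ha := hmem 0 _ (h0 v)
      have hb' := hmem 1 _ (h1 v)
      rw [hs] at ha
      rw [hs1] at hb'
      obtain ⟨e0, e1⟩ := huniq _ ha _ hb'
      simp only
      rw [hv, e0, e1, hfix]
    · have hs0 : σ 0 = 1 := by
        have := (σ 0).isLt
        apply Fin.ext
        have h4 : (σ 0 : ℕ) ≠ 0 := fun h => hs (Fin.ext h)
        simp only [Fin.val_one]
        omega
      have hs1 : σ 1 = 0 := by
        by_contra hcon
        have h3 : σ 1 = 1 := by
          have := (σ 1).isLt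
          apply Fin.ext
          have h4 : (σ 1 : ℕ) ≠ 0 := fun h => hcon (Fin.ext h)
          simp only [Fin.val_one]
          omega
        have := σ.injective (hs0.trans h3.symm)
        exact absurd this (by decide)
      have ha := hmem 0 _ (h0 v)
      have hb' := hmem 1 _ (h1 v)
      rw [hs0] at ha
      rw [hs1] at hb'
      obtain ⟨e0, e1⟩ := huniq _ hb' _ ha
      simp only
      rw [hv, add_comm, e0, e1, hfix, hf.skew, hneg]

end Cfsg.Agent.Lib.Helper97SpPaireven
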