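import Cfsg.Agent.Lib.Helper58EDefs
import Cfsg.Agent.Lib.Helper58GD
import Cfsg.Agent.Lib.Helper97OBase
import Cfsg.Agent.Lib.Helper97SpPaireven

set_option autoImplicit false
set_option linter.unusedSectionVars false

/-! PROJECT 5 = ASCH-O, PART 2a, pieces `ered` and `epair`. -/

namespace Cfsg.Agent.Lib.Helper36ORed

open Cfsg Cfsg.Geo Matrix
open Cfsg.Agent.Lib.Helper97GBase Cfsg.Agent.Lib.Helper96SpDefs
  Cfsg.Agent.Lib.Helper58ODefs Cfsg.Agent.Lib.Helper58EDefs Cfsg.Agent.Lib.Helper97OBase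
open scoped MatrixGroups

variable {ι : Type} [Fintype ι] [DecidableEq ι] {F : Type*} [Field F]
variable {Q : (ι → F) → F} {H : Subgroup (GL ι F)}

lemma Q_add (u v : ι → F) : Q (u + v) = Q u + Q v + QuadraticMap.polar Q u v := by
  unfold QuadraticMap.polar
  ring

lemma Q_zero (hQ : IsNondegenerateQuadraticForm Q) : Q 0 = 0 := by
  have := hQ.smul 0 0
  simpa using this

lemma polar_self (hQ : IsNondegenerateQuadraticForm Q) (v : ι → F) :
    QuadraticMap.polar Q v v = 2 * Q v := by
  unfold QuadraticMap.polar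
  rw [← two_smul F v, hQ.smul]
  ring

/-- the singular vectors of a subspace which is totally isotropic for the polar form -/
def sing (hQ : IsNondegenerateQuadraticForm Q) (R : Submodule F (ι → F))
    (hR : IsTotallySingularFor (QuadraticMap.polar Q) R) : Submodule F (ι → F) where
  carrier := {v | v ∈ R ∧ Q v = 0}
  add_mem' := by
    rintro a b ⟨ha, ha0⟩ ⟨hb, hb0⟩
    refine ⟨R.add_mem ha hb, ?_⟩
    rw [Q_add (Q := Q), ha0, hb0, hR a ha b hb]
    simp
  zero_mem' := ⟨R.zero_mem, Q_zero hQ⟩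
  smul_mem' := by
    rintro c a ⟨ha, ha0⟩
    refine ⟨R.smul_mem c ha, ?_⟩
    rw [hQ.smul, ha0, mul_zero]

lemma mem_sing (hQ : IsNondegenerateQuadraticForm Q) {R : Submodule F (ι → F)}
    (hR : IsTotallySingularFor (QuadraticMap.polar Q) R) {v : ι → F} :
    v ∈ sing hQ R hR ↔ v ∈ R ∧ Q v = 0 := Iff.rfl

/-- if a non-zero totally isotropic subspace has no singular vector, then the characteristic is `2` and the
subspace is a non-singular line. -/
lemma line_of_sing_eq_bot [Finite F] (hQ : IsNondegenerateQuadraticForm Q) {R : Submodule F (ι → F)}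
    (hR : IsTotallySingularFor (QuadraticMap.polar Q) R) (hS : sing hQ R hR = ⊥) (hR0 : R ≠ ⊥) :
    (2 : F) = 0 ∧ ∃ v : ι → F, Q v ≠ 0 ∧ R = Submodule.span F {v} := by
  obtain ⟨v, hv, hv0⟩ := (Submodule.ne_bot_iff R).mp hR0
  have hns : ∀ w ∈ R, Q w = 0 → w = 0 := by
    intro w hw hw0
    have : w ∈ sing hQ R hR := ⟨hw, hw0⟩
    rw [hS] at this
    exact (Submodule.mem_bot F).mp this
  have hQv : Q v ≠ 0 := fun h => hv0 (hns v hv h)
  have h2 : (2 : F) = 0 := by
    have h1 := polar_self hQ v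
    rw [hR v hv v hv] at h1
    rcases mul_eq_zero.mp h1.symm with h | h
    · exact h
    · exact absurd h hQv
  refine ⟨h2, v, hQv, ?_⟩
  have : CharP F 2 := by
    apply CharTwo.of_one_ne_zero_of_two_eq_zero one_ne_zero h2
  apply le_antisymm
  · intro u hu
    obtain ⟨c, hc⟩ : ∃ c : F, c ^ 2 = Q u / Q v := by
      have hsurj : Function.Surjective (frobenius F 2) :=
        (Finite.injective_iff_surjective).mp (frobenius F 2).injective
      obtain ⟨c, hc⟩ := hsurj (Q u / Q v)
      exact ⟨c, hc⟩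
    have h3 : Q (u + c • v) = 0 := by
      rw [Q_add (Q := Q), hQ.smul, hR u hu _ (R.smul_mem c hv), hc, div_mul_cancel₀ _ hQv, add_zero, ← two_mul, h2,
        zero_mul]
    have h4 := hns _ (R.add_mem hu (R.smul_mem c hv)) h3
    have h5 : u = (-c) • v := by
      rw [neg_smul]
      exact eq_neg_of_add_eq_zero_left h4
    rw [h5]
    exact Submodule.smul_mem _ _ (Submodule.mem_span_singleton_self v)
  · rw [Submodule.span_le]
    intro x hx
    rw [Set.mem_singleton_iff] at hx
    rw [hx]
    exact hv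

/-- [ered] reducible subgroups, all characteristics. -/
theorem o_reducible [Finite F] (hQ : IsNondegenerateQuadraticForm Q) (hH : H ≤ isometryGroup F Q)
    (hred : ¬ ActsIrreducibly (matrixSet H)) : OTS Q H ∨ OND Q H ∨ ONS Q H := by
  rw [actsIrreducibly_iff] at hred
  push Not at hred
  obtain ⟨W, hW, h0, h1⟩ := hred
  have hsymm : ∀ u v : ι → F, QuadraticMap.polar Q u v = QuadraticMap.polar Q v u :=
    fun u v => QuadraticMap.polar_comm Q u v
  -- the radical of `W`
  let R : Submodule F (ι → F) :=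
    { carrier := {v | v ∈ W ∧ ∀ w ∈ W, QuadraticMap.polar Q w v = 0}
      add_mem' := by
        rintro a b ⟨ha, ha0⟩ ⟨hb, hb0⟩
        refine ⟨W.add_mem ha hb, fun w hw => ?_⟩
        rw [hQ.polar_bilinear.add_right, ha0 w hw, hb0 w hw, add_zero]
      zero_mem' := by
        refine ⟨W.zero_mem, fun w _ => ?_⟩
        have := hQ.polar_bilinear.smul_right 0 w 0
        simpa using this
      smul_mem' := by
        rintro c a ⟨ha, ha0⟩
        refine ⟨W.smul_mem c ha, fun w hw => ?_⟩
        rw [hQ.polar_bilinear.smul_right, ha0 w hw, mul_zero] }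
  have hRmem : ∀ v, v ∈ R ↔ v ∈ W ∧ ∀ w ∈ W, QuadraticMap.polar Q w v = 0 := fun v => Iff.rfl
  have hRinv : Inv H R := by
    intro h hh v hv
    refine ⟨hW h hh v hv.1, fun w hw => ?_⟩
    have h1 := polar_iso (hH hh) (((h⁻¹ : GL ι F) : Matrix ι ι F) *ᵥ w) v
    rw [mulVec_inv_mulVec] at h1
    rw [h1]
    exact hv.2 _ (hW h⁻¹ (H.inv_mem hh) w hw)
  by_cases hR : R = ⊥
  · right; left
    refine ⟨W, h0, h1, ?_, le_subspaceStabilizer_of_Inv hW⟩
    intro w hw hw0
    have key : ∃ x ∈ W, QuadraticMap.polar Q x w ≠ 0 := by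
      by_contra hcon
      push Not at hcon
      have : w ∈ R := ⟨hw, fun x hx => hcon x hx⟩
      rw [hR] at this
      exact hw0 ((Submodule.mem_bot F).mp this)
    obtain ⟨x, hx, hxw⟩ := key
    refine ⟨⟨x, hx, hxw⟩, x, hx, ?_⟩
    rw [hsymm]
    exact hxw
  have hRts : IsTotallySingularFor (QuadraticMap.polar Q) R := fun u hu v hv => hv.2 u hu.1
  by_cases hS : sing hQ R hRts = ⊥
  · right; right
    obtain ⟨h2, v, hv, hRv⟩ := line_of_sing_eq_bot hQ hRts hS hR
    refine ⟨h2, v, hv, ?_⟩
    rw [← hRv]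
    exact le_subspaceStabilizer_of_Inv hRinv
  · left
    refine ⟨sing hQ R hRts, hS, fun w hw => hw.2, le_subspaceStabilizer_of_Inv ?_⟩
    intro h hh v hv
    refine ⟨hRinv h hh v hv.1, ?_⟩
    rw [mem_iso.mp (hH hh) v]
    exact hv.2

/-- [epair] a pair of complementary subspaces, totally isotropic for the polar form, stabilised by an
irreducible group of isometries of `Q`, is totally singular for `Q`. -/
theorem o_pair [Finite F] (h3 : 3 ≤ Fintype.card ι) (hQ : IsNondegenerateQuadraticForm Q)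
    (hH : H ≤ isometryGroup F Q) (hirr : ActsIrreducibly (matrixSet H))
    (h : AltPair (QuadraticMap.polar Q) H) : OPair Q H := by
  obtain ⟨k, D, hD, hts, hle⟩ := h
  refine ⟨k, D, hD, ?_, hle⟩
  have hc := Cfsg.Agent.Lib.Helper97SpPaireven.isCompl_of_decomp hD
  have hcard := Cfsg.Agent.Lib.Helper58GD.decomp_card D hD
  let S : Submodule F (ι → F) := ⨆ i, sing hQ (D i) (hts i)
  have hSinv : Inv H S := by
    intro h hh v hv
    obtain ⟨σ, hσ⟩ := hle hh
    have hmap : S.map (Matrix.toLin' (h : Matrix ι ι F)) ≤ S := by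
      rw [Submodule.map_iSup]
      apply iSup_le
      intro i
      refine le_trans ?_ (le_iSup (fun i => sing hQ (D i) (hts i)) (σ i))
      rintro _ ⟨w, hw, rfl⟩
      rw [Matrix.toLin'_apply]
      refine ⟨?_, ?_⟩
      · rw [← hσ i]
        exact ⟨w, hw.1, by rw [Matrix.toLin'_apply]⟩
      · rw [mem_iso.mp (hH hh) w]
        exact hw.2
    have := hmap (Submodule.mem_map_of_mem hv)
    rwa [Matrix.toLin'_apply] at this
  rcases (actsIrreducibly_iff.mp hirr) S hSinv with hS | hS
  · exfalso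
    have hbot : ∀ i, sing hQ (D i) (hts i) = ⊥ := by
      intro i
      rw [eq_bot_iff, ← hS]
      exact le_iSup (fun i => sing hQ (D i) (hts i)) i
    have hD0 : D 0 ≠ ⊥ := by
      intro h0
      have := hD.finrank_eq 0
      rw [h0, finrank_bot] at this
      have := hD.pos
      omega
    obtain ⟨_, v, _, hv⟩ := line_of_sing_eq_bot hQ (hts 0) (hbot 0) hD0
    have h1 := hD.finrank_eq 0
    rw [hv] at h1
    have h2 := finrank_span_le_card (R := F) ({v} : Set (ι → F))
    simp at h2
    omega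
  · have hsup : sing hQ (D 0) (hts 0) ⊔ sing hQ (D 1) (hts 1) = ⊤ := by
      rw [eq_top_iff, ← hS]
      apply iSup_le
      intro i
      fin_cases i
      · exact le_sup_left
      · exact le_sup_right
    intro i w hw
    have hwt : w ∈ sing hQ (D 0) (hts 0) ⊔ sing hQ (D 1) (hts 1) := by
      rw [hsup]; exact Submodule.mem_top
    obtain ⟨a, ha, b, hb, hab⟩ := Submodule.mem_sup.mp hwt
    fin_cases i
    · have hb0 : b ∈ D 0 ⊓ D 1 := by
        refine ⟨?_, hb.1⟩
        have : b = w - a := by rw [← hab]; abel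
        rw [this]
        exact (D 0).sub_mem hw ha.1
      rw [hc.disjoint.eq_bot] at hb0
      have hb1 := (Submodule.mem_bot F).mp hb0
      rw [hb1, add_zero] at hab
      rw [← hab]
      exact ha.2
    · have ha0 : a ∈ D 0 ⊓ D 1 := by
        refine ⟨ha.1, ?_⟩
        have : a = w - b := by rw [← hab]; abel
        rw [this]
        exact (D 1).sub_mem hw hb.1
      rw [hc.disjoint.eq_bot] at ha0
      have ha1 := (Submodule.mem_bot F).mp ha0
      rw [ha1, zero_add] at hab
      rw [← hab]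
      exact hb.2

end Cfsg.Agent.Lib.Helper36ORed
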