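import Cfsg.Agent.Lib.Helper97GBase
import Cfsg.Agent.Lib.Helper97GCore

set_option autoImplicit false

/-! Vocabulary for the general-dimension Aschbacher theorem (linear case). -/

namespace Cfsg.Agent.Lib.Helper98AschGDefs

open Cfsg Cfsg.Geo Matrix
open Cfsg.Agent.Lib.Helper97GBase
open scoped MatrixGroups Kronecker

variable {ι : Type} [Fintype ι] [DecidableEq ι] {F : Type*} [Field F]

/-- `H` normalises the subalgebra `A` of the matrix algebra. -/
def NzA (H : Subgroup (GL ι F)) (A : Subalgebra F (Matrix ι ι F)) : Prop :=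
  ∀ h ∈ H, ∀ a ∈ A, (h : Matrix ι ι F) * a *
    ((h⁻¹ : GL ι F) : Matrix ι ι F) ∈ A

/-- `P (a ⊗ b) P⁻¹`, transported along the bijection `e` of index sets. -/
def tens {κ₁ κ₂ : Type} [Fintype κ₁] [Fintype κ₂] [DecidableEq κ₁] [DecidableEq κ₂]
    (e : ι ≃ κ₁ × κ₂) (P : GL ι F)
    (a : Matrix κ₁ κ₁ F) (b : Matrix κ₂ κ₂ F) : Matrix ι ι F :=
  (P : Matrix ι ι F) * Matrix.reindex e.symm e.symm (a ⊗ₖ b) *
    ((P⁻¹ : GL ι F) : Matrix ι ι F)

/-- the enveloping algebra of a matrix group -/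
def env (T : Subgroup (GL ι F)) : Subalgebra F (Matrix ι ι F) :=
  Algebra.adjoin F (matrixSet T)

/-- the matrix `1 ⊗ ⋯ ⊗ a ⊗ ⋯ ⊗ 1` (`a` in position `i`) on the tensor power indexed by functions. -/
def factor {k m : ℕ} (i : Fin k) (a : Matrix (Fin m) (Fin m) F) :
    Matrix (Fin k → Fin m) (Fin k → Fin m) F :=
  fun x y => if ∀ j, j ≠ i → x j = y j then a (x i) (y i) else 0

end Cfsg.Agent.Lib.Helper98AschGDefs
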