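import Mathlib
import Cfsg.Agent.Lib.Helper98AschGDefs

set_option autoImplicit false
set_option linter.unusedSectionVars false

/-! ASCH-GEN piece `tensnorm`: centraliser and normaliser of `M_d ⊗ 1`. -/

namespace Cfsg.Agent.Lib.Helper58GTensnorm

open Cfsg Cfsg.Geo Matrix
open Cfsg.Agent.Lib.Helper98AschGDefs
open scoped MatrixGroups Kronecker

variable {ι : Type} [Fintype ι] [DecidableEq ι] {F : Type*} [Field F]

/-- Skolem-Noether for matrix algebras. -/
theorem skolem_noether {ι : Type} [Fintype ι] [DecidableEq ι] (α : Matrix ι ι F ≃ₐ[F] Matrix ι ι F) :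
    ∃ g : GL ι F, ∀ X : Matrix ι ι F,
      α X = (g : Matrix ι ι F) * X * ((g⁻¹ : GL ι F) : Matrix ι ι F) := by
  classical
  let f : Module.End F (ι → F) ≃ₐ[F] Module.End F (ι → F) :=
    (Matrix.toLinAlgEquiv' (R := F) (n := ι)).symm.trans (α.trans Matrix.toLinAlgEquiv')
  obtain ⟨T, hT⟩ := f.eq_linearEquivConjAlgEquiv
  have h1 : LinearMap.toMatrix' (T : (ι → F) →ₗ[F] (ι → F)) *
      LinearMap.toMatrix' (T.symm : (ι → F) →ₗ[F] (ι → F)) = 1 := by
    rw [← LinearMap.toMatrix'_comp, LinearEquiv.comp_symm, LinearMap.toMatrix'_id]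
  have h2 : LinearMap.toMatrix' (T.symm : (ι → F) →ₗ[F] (ι → F)) *
      LinearMap.toMatrix' (T : (ι → F) →ₗ[F] (ι → F)) = 1 := by
    rw [← LinearMap.toMatrix'_comp, LinearEquiv.symm_comp, LinearMap.toMatrix'_id]
  refine ⟨⟨_, _, h1, h2⟩, fun X => ?_⟩
  have h3 := congrArg (fun k => k (Matrix.toLinAlgEquiv' X)) hT
  simp only [f, AlgEquiv.trans_apply, AlgEquiv.symm_apply_apply, LinearEquiv.conjAlgEquiv_apply] at h3
  have h4 := congrArg LinearMap.toMatrix' h3
  have h5 : ∀ Y : Matrix ι ι F, LinearMap.toMatrix' (Matrix.toLinAlgEquiv' Y) = Y :=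
    fun Y => LinearMap.toMatrix'_toLin' Y
  simp only [LinearMap.toMatrix'_comp, h5] at h4
  rw [h4, Matrix.mul_assoc]
  rfl

section tens
variable {κ₁ κ₂ : Type} [Fintype κ₁] [Fintype κ₂] [DecidableEq κ₁] [DecidableEq κ₂]

/-- conjugate-and-reindex, the ambient map behind `tens`. -/
def tr (e : ι ≃ κ₁ × κ₂) (P : GL ι F) (X : Matrix (κ₁ × κ₂) (κ₁ × κ₂) F) :
    Matrix ι ι F :=
  (P : Matrix ι ι F) * Matrix.reindex e.symm e.symm X *
    ((P⁻¹ : GL ι F) : Matrix ι ι F)

lemma tens_eq_tr (e : ι ≃ κ₁ × κ₂) (P : GL ι F) (a : Matrix κ₁ κ₁ F) (b : Matrix κ₂ κ₂ F) :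
    tens e P a b = tr e P (a ⊗ₖ b) := rfl

lemma inv_mul_self' (P : GL ι F) :
    ((P⁻¹ : GL ι F) : Matrix ι ι F) * (P : Matrix ι ι F) = 1 := by
  rw [← Units.val_mul, inv_mul_cancel, Units.val_one]

lemma self_mul_inv' (P : GL ι F) :
    (P : Matrix ι ι F) * ((P⁻¹ : GL ι F) : Matrix ι ι F) = 1 := by
  rw [← Units.val_mul, mul_inv_cancel, Units.val_one]

lemma tr_mul (e : ι ≃ κ₁ × κ₂) (P : GL ι F) (X Y : Matrix (κ₁ × κ₂) (κ₁ × κ₂) F) :
    tr e P X * tr e P Y = tr e P (X * Y) := by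
  unfold tr
  have h : Matrix.reindex e.symm e.symm (X * Y) =
      Matrix.reindex e.symm e.symm X * Matrix.reindex e.symm e.symm Y := by
    simp only [Matrix.reindex_apply]
    rw [Matrix.submatrix_mul_equiv]
  rw [h]
  calc _ = (P : Matrix ι ι F) * Matrix.reindex e.symm e.symm X *
      (((P⁻¹ : GL ι F) : Matrix ι ι F) * (P : Matrix ι ι F)) *
      Matrix.reindex e.symm e.symm Y * ((P⁻¹ : GL ι F) : Matrix ι ι F) := by
        simp only [Matrix.mul_assoc]
    _ = _ := by rw [inv_mul_self', Matrix.mul_one]; simp only [Matrix.mul_assoc]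

lemma tr_one (e : ι ≃ κ₁ × κ₂) (P : GL ι F) : tr e P 1 = 1 := by
  unfold tr
  have h : Matrix.reindex e.symm e.symm (1 : Matrix (κ₁ × κ₂) (κ₁ × κ₂) F) = 1 := by
    simp only [Matrix.reindex_apply, Matrix.submatrix_one_equiv]
  rw [h, Matrix.mul_one, self_mul_inv']

lemma tr_injective (e : ι ≃ κ₁ × κ₂) (P : GL ι F) :
    Function.Injective (tr (F := F) e P) := by
  intro X Y h
  unfold tr at h
  have h1 := congrArg (fun M => ((P⁻¹ : GL ι F) : Matrix ι ι F) * M *
    (P : Matrix ι ι F)) h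
  simp only [Matrix.mul_assoc, inv_mul_self', Matrix.mul_one] at h1
  simp only [← Matrix.mul_assoc, inv_mul_self', Matrix.one_mul] at h1
  exact (Matrix.reindex e.symm e.symm).injective h1

lemma tr_surjective (e : ι ≃ κ₁ × κ₂) (P : GL ι F) :
    Function.Surjective (tr (F := F) e P) := by
  intro M
  refine ⟨(Matrix.reindex e.symm e.symm).symm (((P⁻¹ : GL ι F) : Matrix ι ι F) * M *
    (P : Matrix ι ι F)), ?_⟩
  unfold tr
  rw [Equiv.apply_symm_apply]
  simp only [← Matrix.mul_assoc, self_mul_inv', Matrix.one_mul]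
  simp only [Matrix.mul_assoc, self_mul_inv', Matrix.mul_one]

lemma tens_mul (e : ι ≃ κ₁ × κ₂) (P : GL ι F) (a a' : Matrix κ₁ κ₁ F)
    (b b' : Matrix κ₂ κ₂ F) : tens e P a b * tens e P a' b' = tens e P (a * a') (b * b') := by
  rw [tens_eq_tr, tens_eq_tr, tens_eq_tr, tr_mul, Matrix.mul_kronecker_mul]

lemma tens_one (e : ι ≃ κ₁ × κ₂) (P : GL ι F) :
    tens e P (1 : Matrix κ₁ κ₁ F) (1 : Matrix κ₂ κ₂ F) = 1 := by
  rw [tens_eq_tr, Matrix.kroneckerMap_one_one _ (by simp) (by simp) (by simp), tr_one]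

lemma tens_left_injective [Nonempty κ₂] (e : ι ≃ κ₁ × κ₂) (P : GL ι F) :
    Function.Injective (fun a : Matrix κ₁ κ₁ F => tens e P a (1 : Matrix κ₂ κ₂ F)) := by
  intro a a' h
  have h1 := tr_injective e P h
  obtain ⟨j⟩ := ‹Nonempty κ₂›
  ext x y
  have h2 := congrFun (congrFun h1 (x, j)) (y, j)
  simpa [Matrix.kroneckerMap_apply] using h2

end tens

/-- [tensnorm] the centraliser of `M_d ⊗ 1` is `1 ⊗ M_s`. -/
theorem centralizer_tens {κ : Type} [Fintype κ] [DecidableEq κ] [Nonempty κ] {s : ℕ}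
    (e : ι ≃ κ × Fin s) (P : GL ι F) (M : Matrix ι ι F)
    (hM : ∀ a : Matrix κ κ F, M * tens e P a 1 = tens e P a 1 * M) :
    ∃ b : Matrix (Fin s) (Fin s) F, M = tens e P 1 b := by
  classical
  obtain ⟨X, rfl⟩ := tr_surjective e P M
  obtain ⟨a0⟩ := ‹Nonempty κ›
  refine ⟨Matrix.of fun j j' => X (a0, j) (a0, j'), ?_⟩
  rw [tens_eq_tr]
  congr 1
  ext ⟨x, j⟩ ⟨i, j'⟩
  have h1 := hM (Matrix.single i a0 1)
  rw [tens_eq_tr, tr_mul, tr_mul] at h1
  have h2 := congrFun (congrFun (tr_injective e P h1) (x, j)) (a0, j')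
  simp only [Matrix.mul_apply, Fintype.sum_prod_type, Matrix.kroneckerMap_apply, Matrix.one_apply,
    Matrix.single_apply] at h2
  simp only [Matrix.kroneckerMap_apply, Matrix.one_apply]
  have hL : ∑ x_1, ∑ x_2, X (x, j) (x_1, x_2) * ((if i = x_1 ∧ True then (1 : F) else 0) *
      if x_2 = j' then 1 else 0) = X (x, j) (i, j') := by
    rw [Finset.sum_eq_single i, Finset.sum_eq_single j']
    · simp
    · intro b _ hb; simp [hb]
    · simp
    · intro b _ hb; simp [Ne.symm hb]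
    · simp
  have hR : ∑ x_1, ∑ x_2, ((if i = x ∧ a0 = x_1 then (1 : F) else 0) * if j = x_2 then 1 else 0) *
      X (x_1, x_2) (a0, j') = (if x = i then 1 else 0) * X (a0, j) (a0, j') := by
    rw [Finset.sum_eq_single a0, Finset.sum_eq_single j]
    · simp [eq_comm]
    · intro b _ hb; simp [Ne.symm hb]
    · simp
    · intro b _ hb; simp [Ne.symm hb]
    · simp
  rw [hL, hR] at h2
  exact h2

section more
variable {κ₁ κ₂ : Type} [Fintype κ₁] [Fintype κ₂] [DecidableEq κ₁] [DecidableEq κ₂]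

lemma tr_add (e : ι ≃ κ₁ × κ₂) (P : GL ι F) (X Y : Matrix (κ₁ × κ₂) (κ₁ × κ₂) F) :
    tr e P (X + Y) = tr e P X + tr e P Y := by
  unfold tr
  have h : Matrix.reindex e.symm e.symm (X + Y) =
      Matrix.reindex e.symm e.symm X + Matrix.reindex e.symm e.symm Y := rfl
  rw [h, Matrix.mul_add, Matrix.add_mul]

lemma tr_smul (e : ι ≃ κ₁ × κ₂) (P : GL ι F) (c : F) (X : Matrix (κ₁ × κ₂) (κ₁ × κ₂) F) :
    tr e P (c • X) = c • tr e P X := by
  unfold tr
  have h : Matrix.reindex e.symm e.symm (c • X) = c • Matrix.reindex e.symm e.symm X := rfl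
  rw [h, Matrix.mul_smul, Matrix.smul_mul]

lemma tens_add_left (e : ι ≃ κ₁ × κ₂) (P : GL ι F) (a a' : Matrix κ₁ κ₁ F)
    (b : Matrix κ₂ κ₂ F) : tens e P (a + a') b = tens e P a b + tens e P a' b := by
  rw [tens_eq_tr, tens_eq_tr, tens_eq_tr, Matrix.add_kronecker, tr_add]

lemma tens_smul_left (e : ι ≃ κ₁ × κ₂) (P : GL ι F) (c : F) (a : Matrix κ₁ κ₁ F)
    (b : Matrix κ₂ κ₂ F) : tens e P (c • a) b = c • tens e P a b := by
  rw [tens_eq_tr, tens_eq_tr, Matrix.smul_kronecker, tr_smul]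

lemma det_tens (e : ι ≃ κ₁ × κ₂) (P : GL ι F) (a : Matrix κ₁ κ₁ F)
    (b : Matrix κ₂ κ₂ F) :
    (tens e P a b).det = a.det ^ Fintype.card κ₂ * b.det ^ Fintype.card κ₁ := by
  unfold tens
  rw [Matrix.det_units_conj, Matrix.det_reindex_self, Matrix.det_kronecker]

end more

lemma mem_tensorProductSubgroup_of_eq {d s : ℕ} (e : ι ≃ Fin d × Fin s) (P g : GL ι F)
    (a : GL (Fin d) F) (b : GL (Fin s) F)
    (h : (g : Matrix ι ι F) =
      tens e P (a : Matrix (Fin d) (Fin d) F) (b : Matrix (Fin s) (Fin s) F)) :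
    g ∈ tensorProductSubgroup d s e P := by
  unfold tensorProductSubgroup
  have h1 : ((a : Matrix (Fin d) (Fin d) F) ⊗ₖ (b : Matrix (Fin s) (Fin s) F)) *
      (((a⁻¹ : GL (Fin d) F) : Matrix (Fin d) (Fin d) F) ⊗ₖ
        ((b⁻¹ : GL (Fin s) F) : Matrix (Fin s) (Fin s) F)) = 1 := by
    rw [← Matrix.mul_kronecker_mul, ← Units.val_mul, ← Units.val_mul, mul_inv_cancel,
      mul_inv_cancel, Units.val_one, Units.val_one,
      Matrix.kroneckerMap_one_one _ (by simp) (by simp) (by simp)]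
  have h2 : (((a⁻¹ : GL (Fin d) F) : Matrix (Fin d) (Fin d) F) ⊗ₖ
        ((b⁻¹ : GL (Fin s) F) : Matrix (Fin s) (Fin s) F)) *
        ((a : Matrix (Fin d) (Fin d) F) ⊗ₖ (b : Matrix (Fin s) (Fin s) F)) = 1 := by
    rw [← Matrix.mul_kronecker_mul, ← Units.val_mul, ← Units.val_mul, inv_mul_cancel,
      inv_mul_cancel, Units.val_one, Units.val_one,
      Matrix.kroneckerMap_one_one _ (by simp) (by simp) (by simp)]
  let k : GL (Fin d × Fin s) F := ⟨_, _, h1, h2⟩
  refine ⟨glReindex e.symm k, ⟨k, ⟨a, b, rfl⟩, rfl⟩, ?_⟩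
  apply Units.ext
  rw [h]
  rfl

lemma exists_of_mem_tensorProductSubgroup {d s : ℕ} (e : ι ≃ Fin d × Fin s) (P g : GL ι F)
    (h : g ∈ tensorProductSubgroup d s e P) :
    ∃ (a : GL (Fin d) F) (b : GL (Fin s) F), (g : Matrix ι ι F) =
      tens e P (a : Matrix (Fin d) (Fin d) F) (b : Matrix (Fin s) (Fin s) F) := by
  unfold tensorProductSubgroup at h
  obtain ⟨_, ⟨k, ⟨a, b, hk⟩, rfl⟩, rfl⟩ := h
  refine ⟨a, b, ?_⟩
  unfold tens
  rw [← hk]
  rfl

/-- [tensnorm] Skolem-Noether: the normaliser of `P (M_d ⊗ 1) P⁻¹` is the tensor product subgroup. -/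
theorem mem_tensorProductSubgroup_of_normalizes {d s : ℕ} (e : ι ≃ Fin d × Fin s) (P g : GL ι F)
    (hg : ∀ a : Matrix (Fin d) (Fin d) F, ∃ b : Matrix (Fin d) (Fin d) F,
      (g : Matrix ι ι F) * tens e P a 1 * ((g⁻¹ : GL ι F) : Matrix ι ι F) =
        tens e P b 1) :
    g ∈ tensorProductSubgroup d s e P := by
  classical
  rcases isEmpty_or_nonempty ι with hn | ⟨⟨i0⟩⟩
  · have : g = 1 := Subsingleton.elim _ _
    rw [this]; exact one_mem _
  have hd : Nonempty (Fin d) := ⟨(e i0).1⟩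
  have hs : Nonempty (Fin s) := ⟨(e i0).2⟩
  have hinj := tens_left_injective (κ₁ := Fin d) (κ₂ := Fin s) (F := F) e P
  choose α hα using hg
  have hα' : ∀ a, (g : Matrix ι ι F) * tens e P a 1 = tens e P (α a) 1 * g := by
    intro a
    rw [← hα a, Matrix.mul_assoc _ _ (g : Matrix ι ι F), inv_mul_self', Matrix.mul_one]
  have hcancel : ∀ X Y : Matrix ι ι F, X * (g : Matrix ι ι F) = Y * g → X = Y := by
    intro X Y h
    have := congrArg (· * ((g⁻¹ : GL ι F) : Matrix ι ι F)) h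
    simpa only [Matrix.mul_assoc, self_mul_inv', Matrix.mul_one] using this
  have hcancel' : ∀ X Y : Matrix ι ι F, (g : Matrix ι ι F) * X = g * Y → X = Y := by
    intro X Y h
    have := congrArg (((g⁻¹ : GL ι F) : Matrix ι ι F) * ·) h
    simpa only [← Matrix.mul_assoc, inv_mul_self', Matrix.one_mul] using this
  let αl : Matrix (Fin d) (Fin d) F →ₗ[F] Matrix (Fin d) (Fin d) F :=
    { toFun := α
      map_add' := by
        intro a a'
        apply hinj
        apply hcancel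
        show tens e P (α (a + a')) 1 * _ = tens e P (α a + α a') 1 * _
        rw [← hα', tens_add_left, tens_add_left, Matrix.mul_add, Matrix.add_mul, hα', hα']
      map_smul' := by
        intro c a
        apply hinj
        apply hcancel
        show tens e P (α (c • a)) 1 * _ = tens e P (c • α a) 1 * _
        rw [← hα', tens_smul_left, tens_smul_left, Matrix.mul_smul, Matrix.smul_mul, hα'] }
  let αh : Matrix (Fin d) (Fin d) F →ₐ[F] Matrix (Fin d) (Fin d) F :=
    AlgHom.ofLinearMap αl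
      (by
        apply hinj
        apply hcancel
        show tens e P (α 1) 1 * _ = tens e P 1 1 * _
        rw [← hα', tens_one, Matrix.mul_one, Matrix.one_mul])
      (by
        intro a a'
        apply hinj
        apply hcancel
        show tens e P (α (a * a')) 1 * _ = tens e P (α a * α a') 1 * _
        have h1 : tens e P (a * a') (1 : Matrix (Fin s) (Fin s) F) = tens e P a 1 * tens e P a' 1 := by
          rw [tens_mul, Matrix.mul_one]
        have h2 : tens e P (α a * α a') (1 : Matrix (Fin s) (Fin s) F) =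
            tens e P (α a) 1 * tens e P (α a') 1 := by
          rw [tens_mul, Matrix.mul_one]
        rw [← hα', h1, h2, ← Matrix.mul_assoc, hα', Matrix.mul_assoc, hα', Matrix.mul_assoc])
  have hαinj : Function.Injective αl := by
    intro a a' h
    apply hinj
    apply hcancel'
    show _ * tens e P a 1 = _ * tens e P a' 1
    rw [hα', hα']
    have h' : α a = α a' := h
    rw [h']
  have hαsurj : Function.Surjective αl := LinearMap.injective_iff_surjective.1 hαinj
  let αe : Matrix (Fin d) (Fin d) F ≃ₐ[F] Matrix (Fin d) (Fin d) F :=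
    AlgEquiv.ofBijective αh ⟨hαinj, hαsurj⟩
  obtain ⟨u, hu⟩ := skolem_noether αe
  have hu' : ∀ X, α X = (u : Matrix (Fin d) (Fin d) F) * X *
      ((u⁻¹ : GL (Fin d) F) : Matrix (Fin d) (Fin d) F) := hu
  have huu : ((u⁻¹ : GL (Fin d) F) : Matrix (Fin d) (Fin d) F) * (u : Matrix (Fin d) (Fin d) F) = 1 := by
    rw [← Units.val_mul, inv_mul_cancel, Units.val_one]
  have huu' : (u : Matrix (Fin d) (Fin d) F) * ((u⁻¹ : GL (Fin d) F) : Matrix (Fin d) (Fin d) F) = 1 := by
    rw [← Units.val_mul, mul_inv_cancel, Units.val_one]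
  obtain ⟨b, hb⟩ := centralizer_tens e P
    (tens e P ((u⁻¹ : GL (Fin d) F) : Matrix (Fin d) (Fin d) F) 1 * (g : Matrix ι ι F)) (by
      intro a
      rw [Matrix.mul_assoc, hα', ← Matrix.mul_assoc, ← Matrix.mul_assoc, tens_mul, tens_mul, hu',
        Matrix.mul_one]
      congr 2
      rw [← Matrix.mul_assoc, ← Matrix.mul_assoc, huu, Matrix.one_mul])
  have hgb : (g : Matrix ι ι F) = tens e P (u : Matrix (Fin d) (Fin d) F) b := by
    have h1 := congrArg (tens e P (u : Matrix (Fin d) (Fin d) F) 1 * ·) hb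
    simp only [← Matrix.mul_assoc, tens_mul, huu', Matrix.mul_one, Matrix.one_mul, tens_one] at h1
    exact h1
  have hdet : b.det ≠ 0 := by
    have h1 : IsUnit (g : Matrix ι ι F).det := (Matrix.isUnit_iff_isUnit_det _).1 g.isUnit
    rw [hgb, det_tens] at h1
    intro h0
    rw [h0, zero_pow (by rw [Fintype.card_fin]; exact (Fin.pos_iff_nonempty.2 hd).ne'), mul_zero] at h1
    exact not_isUnit_zero h1
  exact mem_tensorProductSubgroup_of_eq e P g u (Matrix.GeneralLinearGroup.mkOfDetNeZero b hdet) hgb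

end Cfsg.Agent.Lib.Helper58GTensnorm
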