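import Cfsg.Agent.Lib.Helper98AschGBasic
import Cfsg.Agent.Lib.Helper58GTensnorm
import Cfsg.Agent.Lib.Helper12AschTensorTwo

set_option autoImplicit false

/-! ASCH-O piece tens2field (general index type; adapted from helper12's `Helper12AschTensorTwo`): over the field with two elements, `GL_2(2) ⊗ GL_s(2)`
normalises the field `F_4 ⊗ 1`. -/

namespace Cfsg.Agent.Lib.Helper36OTens2field

open Cfsg Cfsg.Geo Matrix
open Cfsg.Agent.Lib.Helper97GBase Cfsg.Agent.Lib.Helper98AschGDefs
  Cfsg.Agent.Lib.Helper98AschGBasic Cfsg.Agent.Lib.Helper12AschTensorTwo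
open scoped MatrixGroups Kronecker

variable {ι : Type} [Fintype ι] [DecidableEq ι] {F : Type*} [Field F]

/-- [D10] (with the necessary hypothesis `0 < s`). -/
theorem tensor_two [Fintype F] (hq : Fintype.card F = 2) {s : ℕ} (hs : 0 < s)
    (e : ι ≃ Fin 2 × Fin s) (P : GL ι F) :
    ∃ K : Subalgebra F (Matrix ι ι F), IsFieldSubalgebra 2 K ∧
      tensorProductSubgroup 2 s e P ≤ subalgebraNormalizer K := by
  have h2 := two_eq_zero' hq
  have : Nonempty (Fin s) := ⟨⟨0, hs⟩⟩
  set W : Matrix ι ι F := tens e P (om F) 1 with hWdef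
  have hW : W * W = W + 1 := by
    rw [hWdef, tens_mul, om_sq, mul_one, tens_add_left, tens_one]
  have h2W : W + W = 0 := by
    have : W + W = ((1 : F) + 1) • W := by rw [add_smul, one_smul]
    rw [this, h2, zero_smul]
  have hlin : ∀ a b : F, a • (1 : Matrix ι ι F) + b • W = 0 → a = 0 ∧ b = 0 := by
    intro a b hab
    have h1 : tens e P (a • 1 + b • om F) 1 = tens e P 0 1 := by
      rw [tens_add_left, tens_smul_left, tens_smul_left, tens_one, hab]
      have := tens_smul_left e P (0 : F) (0 : Matrix (Fin 2) (Fin 2) F) (1 : Matrix (Fin s) (Fin s) F)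
      simpa using this.symm
    have h3 := Cfsg.Agent.Lib.Helper58GTensnorm.tens_left_injective e P h1
    have h01 := congrFun (congrFun h3 0) 1
    have h00 := congrFun (congrFun h3 0) 0
    simp [om] at h01 h00
    exact ⟨h00, h01⟩
  refine ⟨quadAlg W hW, ⟨?_, ?_, ?_⟩, ?_⟩
  · rintro _ ⟨a, b, rfl⟩ _ ⟨c, d, rfl⟩
    simp only [add_mul, mul_add, smul_mul_smul_comm, one_mul, mul_one, mul_comm]
    abel
  · rintro _ ⟨a, b, rfl⟩ hne
    rcases eq_zero_or_one hq a with rfl | rfl <;> rcases eq_zero_or_one hq b with rfl | rfl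
    · simp at hne
    · refine ⟨W + 1, ⟨1, 1, by simp [add_comm]⟩, ?_⟩
      simp only [zero_smul, one_smul, zero_add, mul_add, mul_one, hW]
      rw [add_right_comm, h2W, zero_add]
    · exact ⟨1, ⟨1, 0, by simp⟩, by simp⟩
    · refine ⟨W, ⟨0, 1, by simp⟩, ?_⟩
      simp only [one_smul, add_mul, one_mul, hW]
      rw [← add_assoc, h2W, zero_add]
  · have hspan : Subalgebra.toSubmodule (quadAlg (F := F) W hW) =
        Submodule.span F (Set.range ![(1 : Matrix ι ι F), W]) := by
      ext M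
      rw [Subalgebra.mem_toSubmodule, mem_quadAlg, Matrix.range_cons, Matrix.range_cons,
        Matrix.range_empty, Set.union_empty, Set.singleton_union, Submodule.mem_span_pair]
      constructor
      · rintro ⟨a, b, rfl⟩; exact ⟨a, b, rfl⟩
      · rintro ⟨a, b, rfl⟩; exact ⟨a, b, rfl⟩
    have hli : LinearIndependent F ![(1 : Matrix ι ι F), W] := by
      rw [LinearIndependent.pair_iff]
      exact hlin
    have := finrank_span_eq_card hli
    rw [← hspan] at this
    simpa using this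
  · apply NzA_le_subalgebraNormalizer
    intro g hg k hk
    obtain ⟨a, b, hab⟩ := (mem_tensorProductSubgroup_iff e P g).mp hg
    have hinv : ((g⁻¹ : GL ι F) : Matrix ι ι F) =
        tens e P ((a⁻¹ : GL (Fin 2) F) : Matrix (Fin 2) (Fin 2) F)
          ((b⁻¹ : GL (Fin s) F) : Matrix (Fin s) (Fin s) F) := by
      apply Units.inv_eq_of_mul_eq_one_right
      rw [hab, tens_mul, ← Units.val_mul, ← Units.val_mul, mul_inv_cancel, mul_inv_cancel,
        Units.val_one, Units.val_one, tens_one]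
    obtain ⟨x, y, rfl⟩ := hk
    have hconj : (g : Matrix ι ι F) * W * ((g⁻¹ : GL ι F) : Matrix ι ι F) =
        tens e P ((a : Matrix (Fin 2) (Fin 2) F) * om F *
          ((a⁻¹ : GL (Fin 2) F) : Matrix (Fin 2) (Fin 2) F)) 1 := by
      rw [hinv, hab, hWdef, tens_mul, tens_mul, mul_one, ← Units.val_mul, mul_inv_cancel,
        Units.val_one]
    have hsq : ((a : Matrix (Fin 2) (Fin 2) F) * om F *
          ((a⁻¹ : GL (Fin 2) F) : Matrix (Fin 2) (Fin 2) F)) * ((a : Matrix (Fin 2) (Fin 2) F) * om F *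
          ((a⁻¹ : GL (Fin 2) F) : Matrix (Fin 2) (Fin 2) F)) = ((a : Matrix (Fin 2) (Fin 2) F) * om F *
          ((a⁻¹ : GL (Fin 2) F) : Matrix (Fin 2) (Fin 2) F)) + 1 := by
      have h1 : ((a⁻¹ : GL (Fin 2) F) : Matrix (Fin 2) (Fin 2) F) * (a : Matrix (Fin 2) (Fin 2) F) = 1 := by
        rw [← Units.val_mul, inv_mul_cancel, Units.val_one]
      have h1' : (a : Matrix (Fin 2) (Fin 2) F) * ((a⁻¹ : GL (Fin 2) F) : Matrix (Fin 2) (Fin 2) F) = 1 := by
        rw [← Units.val_mul, mul_inv_cancel, Units.val_one]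
      calc _ = (a : Matrix (Fin 2) (Fin 2) F) * om F *
          (((a⁻¹ : GL (Fin 2) F) : Matrix (Fin 2) (Fin 2) F) * (a : Matrix (Fin 2) (Fin 2) F)) * om F *
          ((a⁻¹ : GL (Fin 2) F) : Matrix (Fin 2) (Fin 2) F) := by simp only [mul_assoc]
        _ = (a : Matrix (Fin 2) (Fin 2) F) * (om F * om F) *
          ((a⁻¹ : GL (Fin 2) F) : Matrix (Fin 2) (Fin 2) F) := by
            rw [h1]; simp only [mul_one, mul_assoc]
        _ = _ := by rw [om_sq, mul_add, add_mul, mul_one, h1']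
    have hgg : (g : Matrix ι ι F) * ((g⁻¹ : GL ι F) : Matrix ι ι F) = 1 := by
      rw [← Units.val_mul, mul_inv_cancel, Units.val_one]
    have hexp : (g : Matrix ι ι F) * (x • 1 + y • W) *
        ((g⁻¹ : GL ι F) : Matrix ι ι F) = x • 1 + y • ((g : Matrix ι ι F) * W *
          ((g⁻¹ : GL ι F) : Matrix ι ι F)) := by
      rw [mul_add, add_mul, mul_smul_comm, mul_smul_comm, smul_mul_assoc, smul_mul_assoc, mul_one, hgg]
    rw [hexp, hconj]
    rcases eq_om_of_sq hq _ hsq with h | h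
    · rw [h]
      exact ⟨x, y, rfl⟩
    · rw [h, tens_add_left, tens_one]
      refine ⟨x + y, y, ?_⟩
      rw [smul_add, add_smul]
      abel

/-- [tens2field] `q = 2`: `GL₂(2) ⊗ GL_s(2)` normalises a field of degree 2. -/
theorem tens_two_field {H : Subgroup (GL ι F)} [Fintype F] (hq : Fintype.card F = 2) {s : ℕ} (hs : 1 ≤ s)
    (e : ι ≃ Fin 2 × Fin s) (P : GL ι F) (hle : H ≤ tensorProductSubgroup 2 s e P) :
    ∃ K : Subalgebra F (Matrix ι ι F), IsFieldSubalgebra 2 K ∧ H ≤ subalgebraNormalizer K := by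
  obtain ⟨K, hK, h⟩ := tensor_two hq hs e P
  exact ⟨K, hK, hle.trans h⟩

end Cfsg.Agent.Lib.Helper36OTens2field
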