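import Cfsg.Agent.Lib.Helper36GF2

set_option autoImplicit false

namespace Cfsg.Agent.Lib.Helper36Simple

open Cfsg Subgroup
open Cfsg.Agent.Lib.Helper36Extra Cfsg.Agent.Lib.Helper36GF2

variable {G : Type*} [Group G]

/-- A fixed-point-free involution on a finite normal subgroup inverts it. -/
theorem inverts_of_fpf {N : Subgroup G} [Finite N] {t : G} (ht : t * t = 1)
    (hN : ∀ n ∈ N, t * n * t⁻¹ ∈ N) (hfpf : ∀ n ∈ N, t * n = n * t → n = 1) :
    ∀ n ∈ N, t * n * t⁻¹ = n⁻¹ := by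
  have ht' : t⁻¹ = t := inv_eq_of_mul_eq_one_left ht
  let f : N → N := fun x => ⟨x.1⁻¹ * (t * x.1 * t⁻¹), N.mul_mem (N.inv_mem x.2) (hN x.1 x.2)⟩
  have hinj : Function.Injective f := by
    intro x y hxy
    have h1 : x.1⁻¹ * (t * x.1 * t⁻¹) = y.1⁻¹ * (t * y.1 * t⁻¹) := congrArg Subtype.val hxy
    have h2 : t * (y.1 * x.1⁻¹) = (y.1 * x.1⁻¹) * t := by
      have h3 : y.1 * x.1⁻¹ = (t * y.1 * t⁻¹) * (t * x.1 * t⁻¹)⁻¹ := by
        calc y.1 * x.1⁻¹ = y.1 * (x.1⁻¹ * (t * x.1 * t⁻¹)) * (t * x.1 * t⁻¹)⁻¹ := by group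
          _ = y.1 * (y.1⁻¹ * (t * y.1 * t⁻¹)) * (t * x.1 * t⁻¹)⁻¹ := by rw [h1]
          _ = _ := by group
      calc t * (y.1 * x.1⁻¹) = (t * y.1 * t⁻¹) * (t * x.1 * t⁻¹)⁻¹ * t := by group
        _ = _ := by rw [← h3]
    have h4 := hfpf _ (N.mul_mem y.2 (N.inv_mem x.2)) h2
    have h5 : y.1 = x.1 := mul_inv_eq_one.mp h4
    exact Subtype.ext h5.symm
  have hsurj : Function.Surjective f := Finite.surjective_of_injective hinj
  intro n hn
  obtain ⟨x, hx⟩ := hsurj ⟨n, hn⟩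
  have hx' : x.1⁻¹ * (t * x.1 * t⁻¹) = n := congrArg Subtype.val hx
  rw [← hx', ht']
  calc t * (x.1⁻¹ * (t * x.1 * t)) * t = t * x.1⁻¹ * t * x.1 * (t * t) := by group
    _ = t * x.1⁻¹ * t * x.1 := by rw [ht, mul_one]
    _ = t⁻¹ * x.1⁻¹ * t⁻¹ * x.1 := by rw [ht']
    _ = (x.1⁻¹ * (t * x.1 * t))⁻¹ := by group

variable [Finite G]

omit [Finite G] in
/-- a noncentral element `x` of `Q` is `Q`-conjugate to `x z`. -/
theorem Ex.exists_conj {Q : Subgroup G} {z : G} (h : Ex Q z) {x : G} (hx : x ∈ Q) (h1 : x ≠ 1)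
    (hz : x ≠ z) : ∃ q ∈ Q, q * x * q⁻¹ = x * z := by
  by_contra hcon
  push_neg at hcon
  have : ∀ b ∈ Q, x * b = b * x := by
    intro b hb
    rcases h.comm b hb x hx with h2 | h2
    · exact h2.symm
    · exfalso
      apply hcon b hb
      rw [h2]
      calc x * b * z * b⁻¹ = x * (b * z) * b⁻¹ := by group
        _ = x * (z * b) * b⁻¹ := by rw [h.cen b hb]
        _ = x * z := by group
  rcases h.center x hx this with h3 | h3
  · exact h1 h3
  · exact hz h3

omit [Finite G] in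
/-- a normal subgroup of `G` meeting `Q` nontrivially contains `z`. -/
theorem Ex.mem_of_normal {Q : Subgroup G} {z : G} (h : Ex Q z) {N : Subgroup G} (hN : N.Normal)
    {a : G} (haN : a ∈ N) (haQ : a ∈ Q) (ha1 : a ≠ 1) : z ∈ N := by
  by_cases haz : a = z
  · rwa [← haz]
  · obtain ⟨q, -, hq⟩ := Ex.exists_conj h haQ ha1 haz
    have h1 : a⁻¹ * (q * a * q⁻¹) ∈ N := N.mul_mem (N.inv_mem haN) (hN.conj_mem a haN q)
    rw [hq] at h1
    simpa using h1

/-- Setting: `Q = F*(C(z))` extraspecial and some conjugate `x ≠ z` of `z` lies in `Q`.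
Then every nontrivial normal subgroup of `G` contains `z`. -/
theorem mem_of_normal_ne_bot {z : G} (hE : Ex (QF z) z) {x : G} (hx : IsConj z x)
    (hxQ : x ∈ QF z) (hxz : x ≠ z) {N : Subgroup G} (hN : N.Normal) (hN1 : N ≠ ⊥) : z ∈ N := by
  by_contra hzN
  have hNQ : ∀ a ∈ N, a ∈ QF z → a = 1 := by
    intro a haN haQ
    by_contra ha1
    exact hzN (Ex.mem_of_normal hE hN haN haQ ha1)
  have hfpf : ∀ n ∈ N, z * n = n * z → n = 1 := by
    intro n hn hnz
    have hnC : n ∈ CC z := mem_CC.mpr hnz.symm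
    apply hNQ n hn
    apply centralizer_QF_le z
    refine mem_inf.mpr ⟨hnC, ?_⟩
    rw [mem_centralizer_iff]
    intro q hq
    have h1 : n * q * n⁻¹ * q⁻¹ ∈ N := by
      have := N.mul_mem hn (hN.conj_mem _ (N.inv_mem hn) q)
      simpa [mul_assoc] using this
    have h2 : n * q * n⁻¹ * q⁻¹ ∈ QF z := (QF z).mul_mem (conj_mem_QF hnC hq) ((QF z).inv_mem hq)
    have h3 := hNQ _ h1 h2
    have h4 : n * q = q * n := by
      calc n * q = (n * q * n⁻¹ * q⁻¹) * (q * n) := by group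
        _ = q * n := by rw [h3, one_mul]
    exact h4.symm
  -- every conjugate of `z` inverts `N`
  have hinv : ∀ t : G, IsConj z t → ∀ n ∈ N, t * n * t⁻¹ = n⁻¹ := by
    intro t ht
    obtain ⟨g, hg⟩ := isConj_iff.mp ht
    apply inverts_of_fpf
    · rw [← hg]
      calc g * z * g⁻¹ * (g * z * g⁻¹) = g * (z * z) * g⁻¹ := by group
        _ = 1 := by rw [hE.sq]; group
    · intro n hn; exact hN.conj_mem n hn t
    · intro n hn hc
      have h1 : g⁻¹ * n * g ∈ N := by simpa using hN.conj_mem n hn g⁻¹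
      have h2 : z * (g⁻¹ * n * g) = (g⁻¹ * n * g) * z := by
        rw [← hg] at hc
        calc z * (g⁻¹ * n * g) = g⁻¹ * (g * z * g⁻¹ * n) * g := by group
          _ = g⁻¹ * (n * (g * z * g⁻¹)) * g := by rw [hc]
          _ = _ := by group
      have h3 := hfpf _ h1 h2
      calc n = g * (g⁻¹ * n * g) * g⁻¹ := by group
        _ = 1 := by rw [h3]; group
  have hx1 : x ≠ 1 := by
    rintro rfl
    exact hE.ne_one (isConj_one_right.mp hx.symm)
  obtain ⟨q, -, hq⟩ := Ex.exists_conj hE hxQ hx1 hxz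
  have hxz' : IsConj z (x * z) := hx.trans (isConj_iff.mpr ⟨q, hq⟩)
  apply hN1
  rw [eq_bot_iff]
  intro n hn
  rw [mem_bot]
  have h1 := hinv z (IsConj.refl z) n hn
  have h2 := hinv x hx n⁻¹ (N.inv_mem hn)
  have h3 := hinv (x * z) hxz' n hn
  have h4 : n = n⁻¹ := by
    calc n = (n⁻¹)⁻¹ := (inv_inv n).symm
      _ = x * n⁻¹ * x⁻¹ := h2.symm
      _ = x * (z * n * z⁻¹) * x⁻¹ := by rw [h1]
      _ = (x * z) * n * (x * z)⁻¹ := by group
      _ = n⁻¹ := h3
  apply hfpf n hn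
  rw [← h4] at h1
  calc z * n = (z * n * z⁻¹) * z := by group
    _ = n * z := by rw [h1]

/-- If `N ⊴ G` contains `C(z)` (in the setting above), then `N = G`. -/
theorem eq_top_of_CC_le {z : G} (hE : Ex (QF z) z) (hQ2 : IsPGroup 2 (QF z)) {N : Subgroup G}
    (hN : N.Normal) (hCN : CC z ≤ N) : N = ⊤ := by
  have : Fact (Nat.Prime 2) := ⟨Nat.prime_two⟩
  have hQN : QF z ≤ N := (QF_le z).trans hCN
  obtain ⟨P, hP⟩ := (hQ2.comap_subtype (K := N)).exists_le_sylow
  have hfr := Sylow.normalizer_sup_eq_top P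
  set P' := (P : Subgroup N).map N.subtype with hP'
  have hQP : QF z ≤ P' := by
    rw [← map_subgroupOf_eq_of_le hQN]
    exact map_mono hP
  have hP2 : IsPGroup 2 P' := P.2.map _
  -- central elements of `P'` are `1` or `z`
  have hcen : ∀ c ∈ P', (∀ y ∈ P', c * y = y * c) → c = 1 ∨ c = z := by
    intro c _ hc
    have h1 : c ∈ QF z := by
      apply centralizer_QF_le z
      refine mem_inf.mpr ⟨mem_CC.mpr (hc z (hQP hE.mem)), ?_⟩
      rw [mem_centralizer_iff]
      intro q hq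
      exact (hc q (hQP hq)).symm
    exact hE.center c h1 (fun b hb => hc b (hQP hb))
  have hzcen : ∀ y ∈ P', z * y = y * z := by
    have : Nontrivial P' := ⟨⟨⟨z, hQP hE.mem⟩, 1, fun h => hE.ne_one (congrArg Subtype.val h)⟩⟩
    have hnt := hP2.center_nontrivial
    obtain ⟨c, hc⟩ := exists_ne (1 : center P')
    have hc1 : (c : P').1 ≠ 1 := fun h => hc (Subtype.ext (Subtype.ext h))
    have hc2 : ∀ y ∈ P', (c : P').1 * y = y * (c : P').1 := by
      intro y hy
      have := (mem_center_iff.mp c.2) ⟨y, hy⟩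
      exact (congrArg Subtype.val this).symm
    rcases hcen _ (c : P').2 hc2 with h | h
    · exact absurd h hc1
    · rw [← h]; exact hc2
  have hNP : normalizer (P' : Set G) ≤ N := by
    intro g hg
    apply hCN
    rw [mem_CC]
    have h1 : g * z * g⁻¹ ∈ P' := (mem_normalizer_iff.mp hg z).mp (hQP hE.mem)
    have h2 : ∀ y ∈ P', (g * z * g⁻¹) * y = y * (g * z * g⁻¹) := by
      intro y hy
      have h3 : g⁻¹ * y * g ∈ P' := by
        rw [mem_normalizer_iff] at hg
        rw [hg]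
        simpa [mul_assoc] using hy
      have h4 := hzcen _ h3
      calc (g * z * g⁻¹) * y = g * (z * (g⁻¹ * y * g)) * g⁻¹ := by group
        _ = g * ((g⁻¹ * y * g) * z) * g⁻¹ := by rw [h4]
        _ = _ := by group
    rcases hcen _ h1 h2 with h | h
    · exfalso
      apply hE.ne_one
      calc z = g⁻¹ * (g * z * g⁻¹) * g := by group
        _ = 1 := by rw [h]; group
    · calc g * z = (g * z * g⁻¹) * g := by group
        _ = z * g := by rw [h]
  rw [← hfr]
  exact ((sup_le hNP le_rfl).antisymm le_sup_right).symm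

end Cfsg.Agent.Lib.Helper36Simple
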