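import Cfsg.Agent.Lib.Helper28Fitting
import Cfsg.Agent.Lib.Helper3PGroup
import Cfsg.Agent.Lib.Helper36TI

set_option autoImplicit false

namespace Cfsg.Agent.Lib.Helper36Stab

open Cfsg Cfsg.Agent.Lib.Helper36TI

variable {X : Type*} [Group X]

/-- the subgroup generated by the squares of `H` -/
abbrev sqS (H : Subgroup X) : Subgroup X := Subgroup.closure ((fun a : X => a ^ 2) '' (H : Set X))

theorem sqS_le (H : Subgroup X) : sqS H ≤ H := by
  rw [Subgroup.closure_le]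
  rintro _ ⟨a, ha, rfl⟩
  exact H.pow_mem ha 2

theorem sq_mem_sqS {H : Subgroup X} {a : X} (ha : a ∈ H) : a ^ 2 ∈ sqS H :=
  Subgroup.subset_closure ⟨a, ha, rfl⟩

theorem cj_sqS (g : X) (H : Subgroup X) : cj g (sqS H) = sqS (cj g H) := by
  unfold cj sqS
  rw [MonoidHom.map_closure]
  congr 1
  ext x
  constructor
  · rintro ⟨_, ⟨a, ha, rfl⟩, rfl⟩
    exact ⟨_, ⟨a, ha, rfl⟩, by simp⟩
  · rintro ⟨_, ⟨a, ha, rfl⟩, rfl⟩
    exact ⟨_, ⟨a, ha, rfl⟩, by simp⟩

theorem cj_of_normal {H : Subgroup X} (hH : H.Normal) (g : X) : cj g H = H := by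
  rw [cj_eq_self_iff, Subgroup.normalizer_eq_top_iff.mpr hH]
  exact Subgroup.mem_top g

theorem normal_of_cj {H : Subgroup X} (h : ∀ g, cj g H = H) : H.Normal := by
  rw [← Subgroup.normalizer_eq_top_iff, eq_top_iff]
  intro g _
  exact cj_eq_self_iff.mp (h g)

theorem sqS_normal {H : Subgroup X} (hH : H.Normal) : (sqS H).Normal :=
  normal_of_cj fun g => by rw [cj_sqS, cj_of_normal hH]

theorem sqS_ne [Finite X] {H : Subgroup X} (h2 : IsPGroup 2 H) (hne : H ≠ ⊥) : sqS H ≠ H := by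
  have : Fact (Nat.Prime 2) := ⟨Nat.prime_two⟩
  have hnt : Nontrivial H := (Subgroup.nontrivial_iff_ne_bot H).mpr hne
  have hbt : (⊥ : Subgroup H) ≠ ⊤ := bot_ne_top
  obtain ⟨M, hM, -⟩ := (eq_top_or_exists_le_coatom (⊥ : Subgroup H)).resolve_left hbt
  intro e
  apply hM.1
  have hle : sqS H ≤ M.map H.subtype := by
    rw [Subgroup.closure_le]
    rintro _ ⟨a, ha, rfl⟩
    exact ⟨⟨a, ha⟩ ^ 2, Cfsg.Agent.Lib.Helper3PGroup.pow_mem_coatom h2 hM _, rfl⟩
  rw [eq_top_iff]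
  intro x _
  have : (x : X) ∈ M.map H.subtype := hle (by rw [e]; exact x.2)
  obtain ⟨y, hy, hyx⟩ := this
  have : y = x := Subtype.ext hyx
  rwa [← this]

theorem eq_one_of_pow_coprime {d : X} {n j : ℕ} (hn : Odd n) (h1 : d ^ n = 1) (h2 : d ^ (2 ^ j) = 1) :
    d = 1 := by
  have hc : Nat.Coprime n (2 ^ j) := (Nat.Coprime.pow_right j (Nat.coprime_two_right.mpr hn))
  have := pow_gcd_eq_one.mpr ⟨h1, h2⟩
  rwa [hc, pow_one] at this

/-- An element of odd order acting trivially on `H / sqS H` for all normal `H ≤ Q` (a 2-group) centralizes them. -/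
theorem centralizes_of_odd [Finite X] {Q : Subgroup X} (hQ : IsPGroup 2 Q) {k : X} {n : ℕ} (hn : Odd n)
    (hkn : k ^ n = 1)
    (hk : ∀ H : Subgroup X, H ≤ Q → H.Normal → ∀ x ∈ H, k * x * k⁻¹ * x⁻¹ ∈ sqS H) (m : ℕ) :
    ∀ H : Subgroup X, Nat.card H = m → H ≤ Q → H.Normal → ∀ x ∈ H, k * x * k⁻¹ = x := by
  induction m using Nat.strong_induction_on with
  | _ m ih =>
  intro H hm hHQ hHn x hx
  by_cases hbot : H = ⊥
  · rw [hbot, Subgroup.mem_bot] at hx
    rw [hx]; group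
  have hlt : Nat.card (sqS H) < m := by
    rw [← hm]
    rcases lt_or_eq_of_le (Subgroup.card_le_of_le (sqS_le H)) with h | h
    · exact h
    · exact absurd (Subgroup.eq_of_le_of_card_ge (sqS_le H) h.ge) (sqS_ne (hQ.to_le hHQ) hbot)
  set d := k * x * k⁻¹ * x⁻¹ with hd
  have hdS : d ∈ sqS H := hk H hHQ hHn x hx
  have hkd : k * d * k⁻¹ = d := ih _ hlt (sqS H) rfl ((sqS_le H).trans hHQ) (sqS_normal hHn) d hdS
  have hpow : ∀ i : ℕ, k ^ i * x * (k ^ i)⁻¹ = d ^ i * x := by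
    intro i
    induction i with
    | zero => simp
    | succ i ihi =>
      have hkdi : k * d ^ i * k⁻¹ = d ^ i := by
        have := conj_pow (a := k) (b := d) (i := i)
        rw [hkd] at this
        exact this.symm
      calc k ^ (i + 1) * x * (k ^ (i + 1))⁻¹ = k * (k ^ i * x * (k ^ i)⁻¹) * k⁻¹ := by
            rw [pow_succ']; group
        _ = k * (d ^ i * x) * k⁻¹ := by rw [ihi]
        _ = (k * d ^ i * k⁻¹) * (k * x * k⁻¹ * x⁻¹) * x := by group
        _ = d ^ (i + 1) * x := by rw [hkdi, ← hd, pow_succ]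
  have h1 : d ^ n = 1 := by
    have := hpow n
    rw [hkn] at this
    simp only [one_mul, inv_one, mul_one] at this
    exact (mul_eq_right.mp this.symm)
  obtain ⟨j, hj⟩ := hQ ⟨d, hHQ (sqS_le H hdS)⟩
  have h2 : d ^ (2 ^ j) = 1 := by simpa using congrArg Subtype.val hj
  have hd1 : d = 1 := eq_one_of_pow_coprime hn h1 h2
  exact mul_inv_eq_one.mp (hd ▸ hd1)

/-- Elements stabilizing all `H / sqS H` (`H ≤ O_2(X)` normal in `X`) lie in `O_2(X)`, when `C_X(O_2(X)) ≤ O_2(X)`. -/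
theorem mem_pCore_of_stab [Finite X]
    (hC : Subgroup.centralizer (pCore 2 X : Set X) ≤ pCore 2 X) (k : X)
    (hk : ∀ H : Subgroup X, H ≤ pCore 2 X → H.Normal → ∀ x ∈ H, k * x * k⁻¹ * x⁻¹ ∈ sqS H) :
    k ∈ pCore 2 X := by
  have hQ : IsPGroup 2 (pCore 2 X) := Cfsg.Agent.Lib.Helper28Fitting.pCore_isPGroup 2
  let K : Subgroup X :=
    { carrier := {k | ∀ H : Subgroup X, H ≤ pCore 2 X → H.Normal → ∀ x ∈ H, k * x * k⁻¹ * x⁻¹ ∈ sqS H}
      one_mem' := by
        intro H _ _ x _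
        have : (1 : X) * x * 1⁻¹ * x⁻¹ = 1 := by group
        rw [this]; exact Subgroup.one_mem _
      mul_mem' := by
        intro a b ha hb H hH hHn x hx
        have : a * b * x * (a * b)⁻¹ * x⁻¹ = (a * (b * x * b⁻¹ * x⁻¹) * a⁻¹) * (a * x * a⁻¹ * x⁻¹) := by
          group
        rw [this]
        exact Subgroup.mul_mem _ ((sqS_normal hHn).conj_mem _ (hb H hH hHn x hx) a) (ha H hH hHn x hx)
      inv_mem' := by
        intro a ha H hH hHn x hx
        have : a⁻¹ * x * a⁻¹⁻¹ * x⁻¹ = a⁻¹ * (a * x * a⁻¹ * x⁻¹)⁻¹ * a⁻¹⁻¹ := by group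
        rw [this]
        exact (sqS_normal hHn).conj_mem _ (Subgroup.inv_mem _ (ha H hH hHn x hx)) a⁻¹ }
  have hKn : K.Normal := by
    constructor
    intro a ha g H hH hHn x hx
    have : g * a * g⁻¹ * x * (g * a * g⁻¹)⁻¹ * x⁻¹ =
        g * (a * (g⁻¹ * x * g⁻¹⁻¹) * a⁻¹ * (g⁻¹ * x * g⁻¹⁻¹)⁻¹) * g⁻¹ := by group
    rw [this]
    exact (sqS_normal hHn).conj_mem _ (ha H hH hHn _ (hHn.conj_mem x hx g⁻¹)) g
  have hK2 : IsPGroup 2 K := by
    rintro ⟨a, ha⟩
    have hpos : orderOf a ≠ 0 := (orderOf_pos a).ne'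
    obtain ⟨j, n, hn, hjn⟩ := Nat.exists_eq_two_pow_mul_odd hpos
    refine ⟨j, ?_⟩
    apply Subtype.ext
    simp only [Subgroup.coe_pow, Subgroup.coe_one]
    set a' := a ^ (2 ^ j) with ha'
    have ha'K : a' ∈ K := K.pow_mem ha _
    have ha'n : a' ^ n = 1 := by rw [ha', ← pow_mul, ← hjn]; exact pow_orderOf_eq_one a
    have hcen := centralizes_of_odd hQ hn ha'n ha'K _ (pCore 2 X) rfl le_rfl inferInstance
    have hmem : a' ∈ pCore 2 X := by
      apply hC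
      rw [Subgroup.mem_centralizer_iff]
      intro q hq
      calc q * a' = (a' * q * a'⁻¹) * a' := by rw [hcen q hq]
        _ = a' * q := by group
    obtain ⟨i, hi⟩ := hQ ⟨a', hmem⟩
    have h2 : a' ^ (2 ^ i) = 1 := by simpa using congrArg Subtype.val hi
    exact eq_one_of_pow_coprime hn ha'n h2
  exact Cfsg.Agent.Lib.Helper28Fitting.le_pCore hKn hK2 hk

end Cfsg.Agent.Lib.Helper36Stab
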