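import Cfsg.Agent.Lib.LeadTwDefs3

set_option autoImplicit false
set_option linter.unusedVariables false
set_option linter.unusedSectionVars false

/-! Project 101 (TW-AUT), piece I10. -/

namespace Cfsg.Agent.Lib.Helper36TwI10

open Subgroup Cfsg.Agent.Lib.Helper23Grp Cfsg.Agent.Lib.Helper23RG Cfsg.Agent.Lib.Helper23TG
  Cfsg.Agent.Lib.Helper23Tw Cfsg.Agent.Lib.Helper23Weyl Cfsg.Agent.Lib.LeadTwDefs

variable {𝔾 F R I R1 I1 : Type*} [Group 𝔾] [Field F] {S : RG 𝔾 F R I} {T : Tw S R1 I1}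
  (ok : S.Ok) (hT : T.Ok) (hBV : ∀ g ∈ S.B, g ∈ S.V → g = 1) (hUN : ∀ g ∈ S.U, g ∈ S.N → g = 1)
  (rep : I1 → I) (hrep : ∀ J, rep J ∈ T.orb J)

include ok hT hBV hUN hrep

omit hT hBV hUN hrep in
theorem list_conj (l : List I) (c : I → F) (hc : ∀ i ∈ l, c i ≠ 0) (r : R) (t : F) :
    (l.map (fun i => S.hE (S.simple i) (c i))).prod * S.x r t *
      ((l.map (fun i => S.hE (S.simple i) (c i))).prod)⁻¹
      = S.x r ((l.map (fun i => c i ^ S.A i r)).prod * t) := by
  induction l with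
  | nil => simp
  | cons a l ih =>
    simp only [List.map_cons, List.prod_cons]
    have e : S.hE (S.simple a) (c a) * (l.map (fun i => S.hE (S.simple i) (c i))).prod * S.x r t *
        (S.hE (S.simple a) (c a) * (l.map (fun i => S.hE (S.simple i) (c i))).prod)⁻¹
        = S.hE (S.simple a) (c a) * ((l.map (fun i => S.hE (S.simple i) (c i))).prod * S.x r t *
          ((l.map (fun i => S.hE (S.simple i) (c i))).prod)⁻¹) * (S.hE (S.simple a) (c a))⁻¹ := by
      group
    rw [e, ih (fun i hi => hc i (by simp [hi])), ok.h_conj a r (c a) _ (hc a (by simp)), mul_assoc]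

/-- I10 -/
theorem hJ_conj (J : I1) {c : I → F} (hc : ∀ i ∈ T.orb J, c i ≠ 0) (r : R) (t : F) :
    T.hJ J c * S.x r t * (T.hJ J c)⁻¹ = S.x r (((T.orb J).map (fun i => c i ^ S.A i r)).prod * t) :=
  list_conj ok (T.orb J) c hc r t

end Cfsg.Agent.Lib.Helper36TwI10
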