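import Cfsg.Agent.Lib.LeadTwDefs3

set_option autoImplicit false
set_option linter.unusedVariables false
set_option linter.unusedSectionVars false

/-! Project 101 (TW-AUT), piece I11. -/

namespace Cfsg.Agent.Lib.Helper36TwI11

open Subgroup Cfsg.Agent.Lib.Helper23Grp Cfsg.Agent.Lib.Helper23RG Cfsg.Agent.Lib.Helper23TG
  Cfsg.Agent.Lib.Helper23Tw Cfsg.Agent.Lib.Helper23Weyl Cfsg.Agent.Lib.LeadTwDefs

variable {𝔾 F R I R1 I1 : Type*} [Group 𝔾] [Field F] {S : RG 𝔾 F R I} {T : Tw S R1 I1}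
  (ok : S.Ok) (hT : T.Ok) (hBV : ∀ g ∈ S.B, g ∈ S.V → g = 1) (hUN : ∀ g ∈ S.U, g ∈ S.N → g = 1)
  (rep : I1 → I) (hrep : ∀ J, rep J ∈ T.orb J)

include ok hT hBV hUN hrep

/-- I11 -/
theorem chi_cmp (J J' : I1) {c : I → F} (hc : ∀ i ∈ T.orb J, c i ≠ 0) (hcmp : T.Cmp J c)
    (h10 : ∀ (r : R) (t : F), T.hJ J c * S.x r t * (T.hJ J c)⁻¹ = S.x r (((T.orb J).map (fun i => c i ^ S.A i r)).prod * t)) :
    T.Cmp J' (fun i' => ((T.orb J).map (fun i => c i ^ S.A i (S.simple i'))).prod) := by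
  have h1 : T.hJ J c ∈ T.T0 := subset_closure ⟨J, c, hc, hcmp, rfl⟩
  have h2 : T.hJ J c ∈ Tw.Fix ok hT := Tw.G1_le_Fix ok hT hBV (Tw.T0_le_G1 ok hT h1)
  exact Tw.Cmp_of_conj ok hT hBV h2 (c := fun r => ((T.orb J).map (fun i => c i ^ S.A i r)).prod) h10 J'

end Cfsg.Agent.Lib.Helper36TwI11
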