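import Cfsg.Agent.Lib.LeadTwDefs3

set_option autoImplicit false
set_option linter.unusedVariables false
set_option linter.unusedSectionVars false

/-! Project 101 (TW-AUT), piece I12. -/

namespace Cfsg.Agent.Lib.Helper36TwI12

open Subgroup Cfsg.Agent.Lib.Helper23Grp Cfsg.Agent.Lib.Helper23RG Cfsg.Agent.Lib.Helper23TG
  Cfsg.Agent.Lib.Helper23Tw Cfsg.Agent.Lib.Helper23Weyl Cfsg.Agent.Lib.LeadTwDefs

variable {𝔾 F R I R1 I1 : Type*} [Group 𝔾] [Field F] {S : RG 𝔾 F R I} {T : Tw S R1 I1}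
  (ok : S.Ok) (hT : T.Ok) (hBV : ∀ g ∈ S.B, g ∈ S.V → g = 1) (hUN : ∀ g ∈ S.U, g ∈ S.N → g = 1)
  (rep : I1 → I) (hrep : ∀ J, rep J ∈ T.orb J)

include ok hT hBV hUN hrep

/-- I12 -/
theorem chi_single {J J' : I1} (k : ℤ) (h1 : S.A (rep J) (S.simple (rep J')) = k)
    (h0 : ∀ i ∈ T.orb J, i ≠ rep J → S.A i (S.simple (rep J')) = 0) {a : F} (ha : a ∈ T.Adm (rep J))
    (h7a : ev T J (rep J) a (rep J) = a) : (ta T rep).χ J J' a = a ^ k := by
  classical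
  show ((T.orb J).map (fun i => (ev T J (rep J) a i) ^ (S.A i (S.simple (rep J'))))).prod = a ^ k
  rw [List.prod_map_eq_pow_single (rep J), List.count_eq_one_of_mem (hT.orb_nodup J) (hrep J), pow_one,
    h7a, h1]
  intro i hi hmem
  rw [h0 i hmem hi, zpow_zero]

end Cfsg.Agent.Lib.Helper36TwI12
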