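import Cfsg.Agent.Lib.LeadTwDefs3

set_option autoImplicit false
set_option linter.unusedVariables false
set_option linter.unusedSectionVars false

/-! Project 101 (TW-AUT), piece I13. -/

namespace Cfsg.Agent.Lib.Helper36TwI13

open Subgroup Cfsg.Agent.Lib.Helper23Grp Cfsg.Agent.Lib.Helper23RG Cfsg.Agent.Lib.Helper23TG
  Cfsg.Agent.Lib.Helper23Tw Cfsg.Agent.Lib.Helper23Weyl Cfsg.Agent.Lib.LeadTwDefs

variable {𝔾 F R I R1 I1 : Type*} [Group 𝔾] [Field F] {S : RG 𝔾 F R I} {T : Tw S R1 I1}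
  (ok : S.Ok) (hT : T.Ok) (hBV : ∀ g ∈ S.B, g ∈ S.V → g = 1) (hUN : ∀ g ∈ S.U, g ∈ S.N → g = 1)
  (rep : I1 → I) (hrep : ∀ J, rep J ∈ T.orb J)

include ok hT hBV hUN hrep

/-- I13 -/
theorem ta_add_inj (hE : EvOk T rep) :
    (∀ j, ∀ a ∈ (ta T rep).A j, ∀ b ∈ (ta T rep).A j, (ta T rep).x j (a + b) = (ta T rep).x j a * (ta T rep).x j b) ∧
    (∀ j, ∀ a ∈ (ta T rep).A j, ∀ b ∈ (ta T rep).A j, (ta T rep).y j (a + b) = (ta T rep).y j a * (ta T rep).y j b) ∧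
    (∀ j, ∀ a ∈ (ta T rep).A j, (ta T rep).x j a = 1 → a = 0) ∧
    (∀ j, ∀ a ∈ (ta T rep).A j, (ta T rep).y j a = 1 → a = 0) := by
  have hadd : ∀ (β : Bool) j, ∀ a ∈ T.Adm (rep j), ∀ b ∈ T.Adm (rep j),
      T.yy β j (ev T j (rep j) (a + b)) = T.yy β j (ev T j (rep j) a) * T.yy β j (ev T j (rep j) b) := by
    intro β j a ha b hb
    rw [← Tw.yy_add ok hT]
    exact Tw.yy_congr β j (fun i hi => hE.add j a ha b hb i hi)
  have hinj : ∀ (β : Bool) j, ∀ a ∈ T.Adm (rep j), T.yy β j (ev T j (rep j) a) = 1 → a = 0 := by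
    intro β j a ha h
    rw [← Tw.yy_zero ok hT β j] at h
    have := Tw.yy_inj ok hT hBV β j h (rep j) (hrep j)
    rw [hE.at_rep j a ha] at this
    exact this
  refine ⟨?_, ?_, ?_, ?_⟩
  · intro j a ha b hb
    exact Subtype.ext (hadd true j a ha b hb)
  · intro j a ha b hb
    exact Subtype.ext (hadd false j a ha b hb)
  · intro j a ha h
    exact hinj true j a ha (congrArg Subtype.val h)
  · intro j a ha h
    exact hinj false j a ha (congrArg Subtype.val h)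

end Cfsg.Agent.Lib.Helper36TwI13
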