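import Cfsg.Agent.Lib.LeadTwDefs3

set_option autoImplicit false
set_option linter.unusedVariables false
set_option linter.unusedSectionVars false

/-! Project 101 (TW-AUT), piece I14 : `ta_h_x`. -/

namespace Cfsg.Agent.Lib.Helper36TwI14

open Subgroup Cfsg.Agent.Lib.Helper23Grp Cfsg.Agent.Lib.Helper23RG Cfsg.Agent.Lib.Helper23TG
  Cfsg.Agent.Lib.Helper23Tw Cfsg.Agent.Lib.Helper23Weyl Cfsg.Agent.Lib.LeadTwDefs

variable {𝔾 F R I R1 I1 : Type*} [Group 𝔾] [Field F] {S : RG 𝔾 F R I} {T : Tw S R1 I1}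
  (ok : S.Ok) (hT : T.Ok) (hBV : ∀ g ∈ S.B, g ∈ S.V → g = 1) (hUN : ∀ g ∈ S.U, g ∈ S.N → g = 1)
  (rep : I1 → I) (hrep : ∀ J, rep J ∈ T.orb J)

include ok hT hBV hUN hrep

/-- I14 -/
theorem ta_h_x (hE : EvOk T rep)
    (h9 : ∀ J, ∀ a ∈ T.Adm (rep J), (((ta T rep).h J a : ↥T.G1) : 𝔾) = T.hJ J (ev T J (rep J) a))
    (h10 : ∀ (J : I1) (c : I → F), (∀ i ∈ T.orb J, c i ≠ 0) → ∀ (r : R) (t : F),
      T.hJ J c * S.x r t * (T.hJ J c)⁻¹ = S.x r (((T.orb J).map (fun i => c i ^ S.A i r)).prod * t))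
    (h11 : ∀ (J J' : I1) (c : I → F), (∀ i ∈ T.orb J, c i ≠ 0) → T.Cmp J c →
      T.Cmp J' (fun i' => ((T.orb J).map (fun i => c i ^ S.A i (S.simple i'))).prod)) :
    ∀ i j, ∀ a ∈ (ta T rep).A i, a ≠ 0 → ∀ u ∈ (ta T rep).A j,
      (ta T rep).h i a * (ta T rep).x j u * ((ta T rep).h i a)⁻¹ = (ta T rep).x j ((ta T rep).χ i j a * u) := by
  intro i j a ha ha0 u hu
  have ha' : a ∈ T.Adm (rep i) := ha
  have hu' : u ∈ T.Adm (rep j) := hu
  apply Subtype.ext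
  rw [Subgroup.coe_mul, Subgroup.coe_mul, Subgroup.coe_inv, h9 i a ha']
  set c := ev T i (rep i) a with hc
  have hc0 : ∀ k ∈ T.orb i, c k ≠ 0 := hE.ne i a ha' ha0
  have hcc : T.Cmp i c := ev_cmp T i (rep i) a
  show T.hJ i c * T.yy true j (ev T j (rep j) u) * (T.hJ i c)⁻¹
    = T.yy true j (ev T j (rep j) ((ta T rep).χ i j a * u))
  rw [Tw.conj_yy (c := fun r => ((T.orb i).map (fun k => c k ^ S.A k r)).prod) (h10 i c hc0) true j]
  apply Tw.yy_congr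
  intro k hk
  set t : I → F := fun k => ((T.orb i).map (fun l => c l ^ S.A l (S.simple k))).prod * ev T j (rep j) u k
    with ht
  have htc : T.Cmp j t := by
    intro l hl
    have h1 := h11 i j c hc0 hcc l hl
    have h2 := ev_cmp T j (rep j) u l hl
    simp only [ht]
    simp only at h1
    rw [h1, h2, map_mul]
  have h3 := hE.eq j t htc k hk
  have h4 : t (rep j) = (ta T rep).χ i j a * u := by
    simp only [ht]
    rw [hE.at_rep j u hu']
    rfl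
  rw [h4] at h3
  rw [h3]
  rfl

end Cfsg.Agent.Lib.Helper36TwI14
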