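import Cfsg.Agent.Lib.LeadTwDefs3

set_option autoImplicit false
set_option linter.unusedVariables false
set_option linter.unusedSectionVars false

/-! Project 101 (TW-AUT), piece I17. -/

namespace Cfsg.Agent.Lib.Helper36TwI17

open Subgroup Cfsg.Agent.Lib.Helper23Grp Cfsg.Agent.Lib.Helper23RG Cfsg.Agent.Lib.Helper23TG
  Cfsg.Agent.Lib.Helper23Tw Cfsg.Agent.Lib.Helper23Weyl Cfsg.Agent.Lib.LeadTwDefs

variable {𝔾 F R I R1 I1 : Type*} [Group 𝔾] [Field F] {S : RG 𝔾 F R I} {T : Tw S R1 I1}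
  (ok : S.Ok) (hT : T.Ok) (hBV : ∀ g ∈ S.B, g ∈ S.V → g = 1) (hUN : ∀ g ∈ S.U, g ∈ S.N → g = 1)
  (rep : I1 → I) (hrep : ∀ J, rep J ∈ T.orb J)

include ok hT hBV hUN hrep

/-- I17 -/
theorem ta_uniq
    (h8a : ∀ J (g : ↥T.G1), g ∈ (ta T rep).X J ↔ g ∈ (S1 ok hT).X ((S1 ok hT).simple J))
    (h8b : ∀ J (g : ↥T.G1), g ∈ (ta T rep).Y J ↔ g ∈ (S1 ok hT).X ((S1 ok hT).neg ((S1 ok hT).simple J)))
    (hya : ∀ j, ∀ a ∈ (ta T rep).A j, ∀ b ∈ (ta T rep).A j, (ta T rep).y j (a + b) = (ta T rep).y j a * (ta T rep).y j b)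
    (hyi : ∀ j, ∀ a ∈ (ta T rep).A j, (ta T rep).y j a = 1 → a = 0)
    (hsw : ∀ j, ∀ a ∈ (ta T rep).A j, a ≠ 0 → ∀ g ∈ (ta T rep).X j, (ta T rep).n j a * g * ((ta T rep).n j a)⁻¹ ∈ (ta T rep).Y j)
    (h15 : ∀ (j : I1) (a y y' : ↥T.G1), a ∈ (S1 ok hT).X ((S1 ok hT).simple j) →
      y ∈ (S1 ok hT).X ((S1 ok hT).neg ((S1 ok hT).simple j)) → y' ∈ (S1 ok hT).X ((S1 ok hT).neg ((S1 ok hT).simple j)) →
      (∀ g ∈ (S1 ok hT).X ((S1 ok hT).simple j), (a * y * a) * g * (a * y * a)⁻¹ ∈ (S1 ok hT).X ((S1 ok hT).neg ((S1 ok hT).simple j))) →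
      (∀ g ∈ (S1 ok hT).X ((S1 ok hT).simple j), (a * y' * a) * g * (a * y' * a)⁻¹ ∈ (S1 ok hT).X ((S1 ok hT).neg ((S1 ok hT).simple j))) →
      y = y') :
    ∀ j, ∀ a ∈ (ta T rep).A j, a ≠ 0 → ∀ b ∈ (ta T rep).A j,
      (∀ g ∈ (ta T rep).X j, ((ta T rep).x j a * (ta T rep).y j b * (ta T rep).x j a) * g *
        ((ta T rep).x j a * (ta T rep).y j b * (ta T rep).x j a)⁻¹ ∈ (ta T rep).Y j) → b = -a⁻¹ := by
  intro j a ha ha0 b hb H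
  have hd : -a⁻¹ ∈ (ta T rep).A j := neg_mem (inv_mem ha)
  have hnd : -(-a⁻¹) ∈ (ta T rep).A j := neg_mem hd
  have e : (ta T rep).y j b = (ta T rep).y j (-a⁻¹) := by
    refine h15 j ((ta T rep).x j a) _ _ ((h8a j _).1 ⟨a, ha, rfl⟩) ((h8b j _).1 ⟨b, hb, rfl⟩)
      ((h8b j _).1 ⟨_, hd, rfl⟩) ?_ ?_
    · intro g hg
      exact (h8b j _).1 (H g ((h8a j g).2 hg))
    · intro g hg
      exact (h8b j _).1 (hsw j a ha ha0 g ((h8a j g).2 hg))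
  have h0 : (ta T rep).y j 0 = 1 := by
    have := hya j 0 (zero_mem _) 0 (zero_mem _)
    rw [add_zero] at this
    exact mul_eq_left.1 this.symm
  have h1 : (ta T rep).y j (b + -(-a⁻¹)) = 1 := by
    rw [hya j b hb _ hnd, e, ← hya j _ hd _ hnd, add_neg_cancel, h0]
  have h2 := hyi j _ (add_mem hb hnd) h1
  exact add_neg_eq_zero.1 h2

end Cfsg.Agent.Lib.Helper36TwI17
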