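import Cfsg.Agent.Lib.LeadTwDefs3

set_option autoImplicit false
set_option linter.unusedVariables false
set_option linter.unusedSectionVars false

/-! Project 101 (TW-AUT), piece I18. -/

namespace Cfsg.Agent.Lib.Helper36TwI18

open Subgroup Cfsg.Agent.Lib.Helper23Grp Cfsg.Agent.Lib.Helper23RG Cfsg.Agent.Lib.Helper23TG
  Cfsg.Agent.Lib.Helper23Tw Cfsg.Agent.Lib.Helper23Weyl Cfsg.Agent.Lib.LeadTwDefs

variable {𝔾 F R I R1 I1 : Type*} [Group 𝔾] [Field F] {S : RG 𝔾 F R I} {T : Tw S R1 I1}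
  (ok : S.Ok) (hT : T.Ok) (hBV : ∀ g ∈ S.B, g ∈ S.V → g = 1) (hUN : ∀ g ∈ S.U, g ∈ S.N → g = 1)
  (rep : I1 → I) (hrep : ∀ J, rep J ∈ T.orb J)

include ok hT hBV hUN hrep

/-- I18 -/
theorem ta_gen (hE : EvOk T rep) :
    closure {g : ↥T.G1 | ∃ j, g ∈ (ta T rep).X j ∨ g ∈ (ta T rep).Y j} = ⊤ := by
  set K := closure {g : ↥T.G1 | ∃ j, g ∈ (ta T rep).X j ∨ g ∈ (ta T rep).Y j} with hK
  rw [eq_top_iff]
  rintro ⟨g, hg⟩ -
  have key : ∀ (x : 𝔾) (hx : x ∈ closure {g | ∃ b J t, T.Cmp J t ∧ g = T.yy b J t}),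
      (⟨x, hx⟩ : ↥T.G1) ∈ K := by
    intro x hx
    induction hx using closure_induction with
    | mem x hx =>
      obtain ⟨b, J, t, ht, rfl⟩ := hx
      apply Subgroup.subset_closure
      refine ⟨J, ?_⟩
      have hmem : t (rep J) ∈ (ta T rep).A J := Tw.Cmp_mem_Adm ok hT ht (hrep J)
      cases b with
      | true =>
        left
        exact ⟨t (rep J), hmem, Subtype.ext (Tw.yy_congr true J (fun i hi => (hE.eq J t ht i hi).symm))⟩
      | false =>
        right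
        exact ⟨t (rep J), hmem, Subtype.ext (Tw.yy_congr false J (fun i hi => (hE.eq J t ht i hi).symm))⟩
    | one => exact K.one_mem
    | mul x y hx hy h1 h2 => exact K.mul_mem h1 h2
    | inv x hx h1 => exact K.inv_mem h1
  exact key g hg

end Cfsg.Agent.Lib.Helper36TwI18
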