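import Cfsg.Agent.Lib.LeadTwDefs3

set_option autoImplicit false
set_option linter.unusedVariables false
set_option linter.unusedSectionVars false

/-! Project 101 (TW-AUT), piece I19. -/

namespace Cfsg.Agent.Lib.Helper36TwI19

open Subgroup Cfsg.Agent.Lib.Helper23Grp Cfsg.Agent.Lib.Helper23RG Cfsg.Agent.Lib.Helper23TG
  Cfsg.Agent.Lib.Helper23Tw Cfsg.Agent.Lib.Helper23Weyl Cfsg.Agent.Lib.LeadTwDefs

variable {𝔾 F R I R1 I1 : Type*} [Group 𝔾] [Field F] {S : RG 𝔾 F R I} {T : Tw S R1 I1}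
  (ok : S.Ok) (hT : T.Ok) (hBV : ∀ g ∈ S.B, g ∈ S.V → g = 1) (hUN : ∀ g ∈ S.U, g ∈ S.N → g = 1)
  (rep : I1 → I) (hrep : ∀ J, rep J ∈ T.orb J)

include ok hT hBV hUN hrep

/-- I19 -/
theorem nUi (J : I1) : (S1 ok hT).X ((S1 ok hT).simple J) ≤ normalizer ((S1 ok hT).Ui J : Set ↥T.G1) := by
  intro g hg
  have hg' : g.1 ∈ Tw.XS1 ok hT (fun s => s = T.simple1 J) := hg
  unfold Tw.XS1 at hg'
  rw [mem_inf] at hg'
  obtain ⟨hg1, hg2⟩ := hg'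
  have hn := Tw.XJ_le_normalizer ok hT J hg1
  rw [mem_normalizer_iff]
  intro h
  have e : ∀ z : ↥T.G1, z ∈ (S1 ok hT).Ui J ↔
      z.1 ∈ S.XS (fun r => T.pos1 (T.cls r) ∧ T.cls r ≠ T.simple1 J) ⊓ Tw.Fix ok hT := fun _ => Iff.rfl
  have e' : ∀ z : ↥T.G1, z ∈ ((S1 ok hT).Ui J : Set ↥T.G1) ↔ z ∈ (S1 ok hT).Ui J := fun _ => Iff.rfl
  have hfix : ∀ z : ↥T.G1, z.1 ∈ Tw.Fix ok hT := fun z => Tw.G1_le_Fix ok hT hBV z.2
  rw [e, e, mem_inf, mem_inf]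
  have h3 := mem_normalizer_iff.1 hn h.1
  constructor
  · rintro ⟨h1, -⟩
    exact ⟨h3.1 h1, hfix _⟩
  · rintro ⟨h1, -⟩
    exact ⟨h3.2 h1, hfix _⟩

end Cfsg.Agent.Lib.Helper36TwI19
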