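import Cfsg.Agent.Lib.LeadTwDefs3

set_option autoImplicit false
set_option linter.unusedVariables false
set_option linter.unusedSectionVars false

/-! Project 101 (TW-AUT), piece I20. -/

namespace Cfsg.Agent.Lib.Helper36TwI20

open Subgroup Cfsg.Agent.Lib.Helper23Grp Cfsg.Agent.Lib.Helper23RG Cfsg.Agent.Lib.Helper23TG
  Cfsg.Agent.Lib.Helper23Tw Cfsg.Agent.Lib.Helper23Weyl Cfsg.Agent.Lib.LeadTwDefs

variable {𝔾 F R I R1 I1 : Type*} [Group 𝔾] [Field F] {S : RG 𝔾 F R I} {T : Tw S R1 I1}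
  (ok : S.Ok) (hT : T.Ok) (hBV : ∀ g ∈ S.B, g ∈ S.V → g = 1) (hUN : ∀ g ∈ S.U, g ∈ S.N → g = 1)
  (rep : I1 → I) (hrep : ∀ J, rep J ∈ T.orb J)

include ok hT hBV hUN hrep

/-- I20 -/
theorem nn_eq (J : I1) : ∃ a ∈ (S1 ok hT).X ((S1 ok hT).simple J),
    ∃ b ∈ (S1 ok hT).X ((S1 ok hT).neg ((S1 ok hT).simple J)), (S1 ok hT).nn J = a * b * a := by
  have hc1 : T.Cmp J (fun _ => (1 : F)) := Tw.Cmp_const J 1 (by simp)
  have hc2 : T.Cmp J (fun _ => -(1 : F)⁻¹) := Tw.Cmp_const J _ (by simp)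
  refine ⟨⟨T.yy true J (fun _ => 1), Tw.yy_mem_G1 _ _ hc1⟩, ?_,
    ⟨T.yy false J (fun _ => -(1 : F)⁻¹), Tw.yy_mem_G1 _ _ hc2⟩, ?_, ?_⟩
  · show T.yy true J (fun _ => 1) ∈ Tw.XS1 ok hT (fun s => s = T.simple1 J)
    exact (Tw.mem_X1_iff ok hT hBV J).2 ⟨_, hc1, rfl⟩
  · show T.yy false J (fun _ => -(1 : F)⁻¹) ∈ Tw.XS1 ok hT (fun s => s = T.neg1 (T.simple1 J))
    exact (Tw.mem_X1_neg_iff ok hT hBV J).2 ⟨_, hc2, rfl⟩
  · apply Subtype.ext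
    show T.nJ J = T.yy true J (fun _ => 1) * T.yy false J (fun _ => -(1 : F)⁻¹) * T.yy true J (fun _ => 1)
    rw [← Tw.prod_nE ok hT J (fun _ => 1)]
    rfl

end Cfsg.Agent.Lib.Helper36TwI20
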