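import Cfsg.Agent.Lib.LeadTwDefs3

set_option autoImplicit false
set_option linter.unusedVariables false
set_option linter.unusedSectionVars false

/-! Project 101 (TW-AUT), piece I21. -/

namespace Cfsg.Agent.Lib.Helper36TwI21

open Subgroup Cfsg.Agent.Lib.Helper23Grp Cfsg.Agent.Lib.Helper23RG Cfsg.Agent.Lib.Helper23TG
  Cfsg.Agent.Lib.Helper23Tw Cfsg.Agent.Lib.Helper23Weyl Cfsg.Agent.Lib.LeadTwDefs

variable {𝔾 F R I R1 I1 : Type*} [Group 𝔾] [Field F] {S : RG 𝔾 F R I} {T : Tw S R1 I1}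
  (ok : S.Ok) (hT : T.Ok) (hBV : ∀ g ∈ S.B, g ∈ S.V → g = 1) (hUN : ∀ g ∈ S.U, g ∈ S.N → g = 1)
  (rep : I1 → I) (hrep : ∀ J, rep J ∈ T.orb J)

include ok hT hBV hUN hrep

/-- I21 -/
theorem Dc_of_comm {J J' : I1}
    (h : ∀ i ∈ T.orb J, ∀ j ∈ T.orb J', ∀ b t u, Commute (S.x (Tw.sr S b i) t) (S.x (S.simple j) u)) :
    Dc (S1 ok hT) J J' := by
  have key : ∀ (β : Bool) (t u : I → F), Commute (T.yy β J t) (T.yy true J' u) := by
    intro β t u
    unfold Tw.yy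
    apply Commute.list_prod_left
    intro x hx
    obtain ⟨i, hi, rfl⟩ := List.mem_map.1 hx
    apply Commute.list_prod_right
    intro y hy
    obtain ⟨j, hj, rfl⟩ := List.mem_map.1 hy
    exact h i hi j hj β _ _
  intro a ha b hb
  have hb' : b.1 ∈ Tw.XS1 ok hT (fun s => s = T.simple1 J') := hb
  obtain ⟨u, -, hu⟩ := (Tw.mem_X1_iff ok hT hBV J').1 hb'
  apply Subtype.ext
  rw [Subgroup.coe_mul, Subgroup.coe_mul, hu]
  rcases ha with ha | ha
  · have ha' : a.1 ∈ Tw.XS1 ok hT (fun s => s = T.simple1 J) := ha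
    obtain ⟨t, -, ht⟩ := (Tw.mem_X1_iff ok hT hBV J).1 ha'
    rw [ht]
    exact (key true t u).eq
  · have ha' : a.1 ∈ Tw.XS1 ok hT (fun s => s = T.neg1 (T.simple1 J)) := ha
    obtain ⟨t, -, ht⟩ := (Tw.mem_X1_neg_iff ok hT hBV J).1 ha'
    rw [ht]
    exact (key false t u).eq

end Cfsg.Agent.Lib.Helper36TwI21
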