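import Cfsg.Agent.Lib.LeadTwDefs3

set_option autoImplicit false
set_option linter.unusedVariables false
set_option linter.unusedSectionVars false

/-! Project 101 (TW-AUT), piece I22. -/

namespace Cfsg.Agent.Lib.Helper36TwI22

open Subgroup Cfsg.Agent.Lib.Helper23Grp Cfsg.Agent.Lib.Helper23RG Cfsg.Agent.Lib.Helper23TG
  Cfsg.Agent.Lib.Helper23Tw Cfsg.Agent.Lib.Helper23Weyl Cfsg.Agent.Lib.LeadTwDefs

variable {𝔾 F R I R1 I1 : Type*} [Group 𝔾] [Field F] {S : RG 𝔾 F R I} {T : Tw S R1 I1}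
  (ok : S.Ok) (hT : T.Ok) (hBV : ∀ g ∈ S.B, g ∈ S.V → g = 1) (hUN : ∀ g ∈ S.U, g ∈ S.N → g = 1)
  (rep : I1 → I) (hrep : ∀ J, rep J ∈ T.orb J)

include ok hT hBV hUN hrep

/-- I22 -/
theorem card_S1_X (hU : (Tw.tg0 ok hT).U ≤ T.G1) (J : I1) :
    Nat.card ((S1 ok hT).X ((S1 ok hT).simple J)) = Nat.card (T.Adm (rep J)) := by
  rw [← Tw.card_X1' ok hT hBV J (hrep J)]
  have hle : Tw.XS1 ok hT (fun s => s = T.simple1 J) ≤ T.G1 := by
    intro g hg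
    obtain ⟨t, ht, rfl⟩ := (Tw.mem_X1_iff ok hT hBV J).1 hg
    exact Tw.yy_mem_G1 _ _ ht
  exact Nat.card_congr (Subgroup.subgroupOfEquivOfLe hle).toEquiv

end Cfsg.Agent.Lib.Helper36TwI22
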