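import Cfsg.Agent.Lib.LeadTwDefs3

set_option autoImplicit false
set_option linter.unusedVariables false
set_option linter.unusedSectionVars false

/-! Project 101 (TW-AUT), piece I7 : `ev_rep`, `ev_eq`, `ev_calc`. -/

namespace Cfsg.Agent.Lib.Helper36TwI7

open Subgroup Cfsg.Agent.Lib.Helper23Grp Cfsg.Agent.Lib.Helper23RG Cfsg.Agent.Lib.Helper23TG
  Cfsg.Agent.Lib.Helper23Tw Cfsg.Agent.Lib.Helper23Weyl Cfsg.Agent.Lib.LeadTwDefs

variable {𝔾 F R I R1 I1 : Type*} [Group 𝔾] [Field F] {S : RG 𝔾 F R I} {T : Tw S R1 I1}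
  (ok : S.Ok) (hT : T.Ok) (hBV : ∀ g ∈ S.B, g ∈ S.V → g = 1) (hUN : ∀ g ∈ S.U, g ∈ S.N → g = 1)
  (rep : I1 → I) (hrep : ∀ J, rep J ∈ T.orb J)

include ok hT hBV hUN hrep

/-- I7a -/
theorem ev_rep {J : I1} {a : F} (ha : a ∈ T.Adm (rep J)) :
    ev T J (rep J) a (rep J) = a :=
  ev_apply (Tw.exists_Cmp hT J (hrep J) ha)

/-- I7b -/
theorem ev_eq {J : I1} {t : I → F} (ht : T.Cmp J t) :
    ∀ i ∈ T.orb J, ev T J (rep J) (t (rep J)) i = t i :=
  Tw.Cmp_ext ok hT hBV (ev_cmp T J (rep J) (t (rep J))) ht (hrep J) (ev_apply ⟨t, ht, rfl⟩)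

/-- I7c -/
theorem ev_calc (J : I1)
    (h7a : ∀ a ∈ T.Adm (rep J), ev T J (rep J) a (rep J) = a)
    (h7b : ∀ t, T.Cmp J t → ∀ i ∈ T.orb J, ev T J (rep J) (t (rep J)) i = t i) :
    (∀ a ∈ T.Adm (rep J), ∀ b ∈ T.Adm (rep J), ∀ i ∈ T.orb J,
      ev T J (rep J) (a + b) i = ev T J (rep J) a i + ev T J (rep J) b i) ∧
    (∀ a ∈ T.Adm (rep J), ∀ b ∈ T.Adm (rep J), ∀ i ∈ T.orb J,
      ev T J (rep J) (a * b) i = ev T J (rep J) a i * ev T J (rep J) b i) ∧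
    (∀ a ∈ T.Adm (rep J), ∀ i ∈ T.orb J, ev T J (rep J) (-a⁻¹) i = -(ev T J (rep J) a i)⁻¹) ∧
    (∀ i ∈ T.orb J, ev T J (rep J) 1 i = 1) ∧
    (∀ a ∈ T.Adm (rep J), a ≠ 0 → ∀ i ∈ T.orb J, ev T J (rep J) a i ≠ 0) := by
  refine ⟨?_, ?_, ?_, ?_, ?_⟩
  · intro a ha b hb i hi
    have hc : T.Cmp J (fun i => ev T J (rep J) a i + ev T J (rep J) b i) := by
      intro k hk
      simp only
      rw [ev_cmp T J (rep J) a k hk, ev_cmp T J (rep J) b k hk, map_add]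
    have := h7b _ hc i hi
    rwa [h7a a ha, h7a b hb] at this
  · intro a ha b hb i hi
    have hc : T.Cmp J (fun i => ev T J (rep J) a i * ev T J (rep J) b i) := by
      intro k hk
      simp only
      rw [ev_cmp T J (rep J) a k hk, ev_cmp T J (rep J) b k hk, map_mul]
    have := h7b _ hc i hi
    rwa [h7a a ha, h7a b hb] at this
  · intro a ha i hi
    have hc : T.Cmp J (fun i => -(ev T J (rep J) a i)⁻¹) := by
      intro k hk
      simp only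
      rw [ev_cmp T J (rep J) a k hk, map_neg, map_inv₀]
    have := h7b _ hc i hi
    rwa [h7a a ha] at this
  · intro i hi
    have hc : T.Cmp J (fun _ => (1 : F)) := fun k _ => (map_one T.φ).symm
    exact h7b _ hc i hi
  · intro a ha ha0 i hi
    have hc := ev_cmp T J (rep J) a
    by_contra h0
    have hz : T.Cmp J (fun _ => (0 : F)) := fun k _ => (map_zero T.φ).symm
    have h1 := Tw.Cmp_ext ok hT hBV hc hz hi h0 (rep J) (hrep J)
    rw [h7a a ha] at h1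
    exact ha0 h1

end Cfsg.Agent.Lib.Helper36TwI7
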