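import Cfsg.Agent.Lib.LeadTwDefs3

set_option autoImplicit false
set_option linter.unusedVariables false
set_option linter.unusedSectionVars false

/-! Project 101 (TW-AUT), piece I8 : `mem_X_iff`, `mem_Y_iff`, `mem_S1_UV`. -/

namespace Cfsg.Agent.Lib.Helper36TwI8

open Subgroup Cfsg.Agent.Lib.Helper23Grp Cfsg.Agent.Lib.Helper23RG Cfsg.Agent.Lib.Helper23TG
  Cfsg.Agent.Lib.Helper23Tw Cfsg.Agent.Lib.Helper23Weyl Cfsg.Agent.Lib.LeadTwDefs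

variable {𝔾 F R I R1 I1 : Type*} [Group 𝔾] [Field F] {S : RG 𝔾 F R I} {T : Tw S R1 I1}
  (ok : S.Ok) (hT : T.Ok) (hBV : ∀ g ∈ S.B, g ∈ S.V → g = 1) (hUN : ∀ g ∈ S.U, g ∈ S.N → g = 1)
  (rep : I1 → I) (hrep : ∀ J, rep J ∈ T.orb J)

include ok hT hBV hUN hrep

/-- I8a -/
theorem mem_X_iff (h7b : ∀ J t, T.Cmp J t → ∀ i ∈ T.orb J, ev T J (rep J) (t (rep J)) i = t i) (J : I1) (g : ↥T.G1) :
    g ∈ (ta T rep).X J ↔ g ∈ (S1 ok hT).X ((S1 ok hT).simple J) := by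
  have e : g ∈ (S1 ok hT).X ((S1 ok hT).simple J) ↔ g.1 ∈ Tw.XS1 ok hT (fun s => s = T.simple1 J) := Iff.rfl
  rw [e, Tw.mem_X1_iff ok hT hBV]
  constructor
  · rintro ⟨a, ha, rfl⟩
    exact ⟨_, ev_cmp T J (rep J) a, rfl⟩
  · rintro ⟨t, ht, hg⟩
    refine ⟨t (rep J), Tw.Cmp_mem_Adm ok hT ht (hrep J), ?_⟩
    apply Subtype.ext
    rw [hg]
    exact Tw.yy_congr true J (fun i hi => (h7b J t ht i hi).symm)

/-- I8b -/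
theorem mem_Y_iff (h7b : ∀ J t, T.Cmp J t → ∀ i ∈ T.orb J, ev T J (rep J) (t (rep J)) i = t i) (J : I1) (g : ↥T.G1) :
    g ∈ (ta T rep).Y J ↔ g ∈ (S1 ok hT).X ((S1 ok hT).neg ((S1 ok hT).simple J)) := by
  have e : g ∈ (S1 ok hT).X ((S1 ok hT).neg ((S1 ok hT).simple J)) ↔
      g.1 ∈ Tw.XS1 ok hT (fun s => s = T.neg1 (T.simple1 J)) := Iff.rfl
  rw [e, Tw.mem_X1_neg_iff ok hT hBV]
  constructor
  · rintro ⟨a, ha, rfl⟩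
    exact ⟨_, ev_cmp T J (rep J) a, rfl⟩
  · rintro ⟨t, ht, hg⟩
    refine ⟨t (rep J), Tw.Cmp_mem_Adm ok hT ht (hrep J), ?_⟩
    apply Subtype.ext
    rw [hg]
    exact Tw.yy_congr false J (fun i hi => (h7b J t ht i hi).symm)

/-- I8c -/
theorem mem_S1_UV (g : ↥T.G1) : (g ∈ (S1 ok hT).U ↔ g.1 ∈ S.U) ∧ (g ∈ (S1 ok hT).V ↔ g.1 ∈ S.V) := by
  have hfix : g.1 ∈ Tw.Fix ok hT := Tw.G1_le_Fix ok hT hBV g.2
  constructor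
  · have e : g ∈ (S1 ok hT).U ↔ g.1 ∈ Tw.XS1 ok hT T.pos1 := Iff.rfl
    rw [e]
    unfold Tw.XS1
    rw [mem_inf, Tw.XS_pos ok hT]
    exact ⟨fun h => h.1, fun h => ⟨h, hfix⟩⟩
  · have e : g ∈ (S1 ok hT).V ↔ g.1 ∈ Tw.XS1 ok hT (fun r => ¬ T.pos1 r) := Iff.rfl
    rw [e]
    unfold Tw.XS1
    rw [mem_inf, Tw.XS_npos ok hT]
    exact ⟨fun h => h.1, fun h => ⟨h, hfix⟩⟩

end Cfsg.Agent.Lib.Helper36TwI8
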