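import Mathlib
import Cfsg.Prelude.Def_Local
import Cfsg.Agent.Lib.Helper37Delta
import Cfsg.Agent.S1324

set_option autoImplicit false

/-! Coprime action helpers (fixed points in cosets, centralizers of products) and a
"local completeness" theorem: a family of subgroups `Z F ≤ C(F)` indexed by the hyperplanes `F` of an
elementary abelian `p`-group `A`, any two of which lie in a common `A`-invariant `p'`-group `Y` with
`C_Y(F) ≤ Z F`, generates (inside a solvable `p'`-group) a group `W` with `C_W(F) ≤ Z F`. -/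

namespace Cfsg.Agent.Lib.Helper37LocalComplete

open Cfsg Cfsg.Agent.Lib.Helper37Delta Cfsg.Agent.Lib.Helper37Cores
open scoped commutatorElement

variable {G : Type*} [Group G]

/-- conjugation action of a subgroup `P` on the left coset `t N`. -/
@[instance_reducible]
def cosetAct (P N : Subgroup G) (t : G) (hPN : ∀ x ∈ P, ∀ n ∈ N, x * n * x⁻¹ ∈ N)
    (ht : ∀ x ∈ P, t⁻¹ * (x * t * x⁻¹) ∈ N) : MulAction P {g : G // t⁻¹ * g ∈ N} where
  smul x g := ⟨x * g * (x : G)⁻¹, by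
    have h1 := ht x x.2
    have h2 := hPN x x.2 _ g.2
    have h3 : t⁻¹ * ((x : G) * g * (x : G)⁻¹) =
        (t⁻¹ * (x * t * (x : G)⁻¹)) * (x * (t⁻¹ * g) * (x : G)⁻¹) := by group
    rw [h3]
    exact N.mul_mem h1 h2⟩
  one_smul g := by
    apply Subtype.ext
    show ((1 : P) : G) * g * ((1 : P) : G)⁻¹ = g
    simp
  mul_smul x y g := by
    apply Subtype.ext
    show ((x * y : P) : G) * g * ((x * y : P) : G)⁻¹ = x * (y * g * (y : G)⁻¹) * (x : G)⁻¹
    simp [mul_assoc]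

theorem exists_fixed_in_coset [Finite G] {p : ℕ} [Fact p.Prime] {P N : Subgroup G}
    (hP : IsPGroup p P) (hN : ¬ p ∣ Nat.card N) (hPN : ∀ x ∈ P, ∀ n ∈ N, x * n * x⁻¹ ∈ N) (t : G)
    (ht : ∀ x ∈ P, t⁻¹ * (x * t * x⁻¹) ∈ N) :
    ∃ n ∈ N, ∀ x ∈ P, x * (t * n) * x⁻¹ = t * n := by
  let _ := cosetAct P N t hPN ht
  have hcard : Nat.card {g : G // t⁻¹ * g ∈ N} = Nat.card N := by
    apply Nat.card_congr
    refine ⟨fun g => ⟨t⁻¹ * g, g.2⟩, fun h => ⟨t * h, by simp⟩, ?_, ?_⟩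
    · intro g; apply Subtype.ext; simp
    · intro h; apply Subtype.ext; simp
  obtain ⟨g, hg⟩ := hP.nonempty_fixed_point_of_prime_not_dvd_card {g : G // t⁻¹ * g ∈ N}
    (by rw [hcard]; exact hN)
  refine ⟨t⁻¹ * g, g.2, ?_⟩
  intro x hx
  have h1 : x * (g : G) * x⁻¹ = g := congrArg Subtype.val (hg ⟨x, hx⟩)
  rw [mul_inv_cancel_left]
  exact h1

/-- `C_{MZ}(P) = C_M(P) C_Z(P)` for a `p`-group `P` and `P`-invariant `M`, `Z` with `M ∩ Z` a `p'`-group. -/
theorem centralizer_mul [Finite G] {p : ℕ} [Fact p.Prime] {P M Z : Subgroup G} (hP : IsPGroup p P)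
    (hN : ¬ p ∣ Nat.card (M ⊓ Z : Subgroup G)) (hPM : ∀ x ∈ P, ∀ m ∈ M, x * m * x⁻¹ ∈ M)
    (hPZ : ∀ x ∈ P, ∀ z ∈ Z, x * z * x⁻¹ ∈ Z) {m z : G} (hm : m ∈ M) (hz : z ∈ Z)
    (hfix : ∀ x ∈ P, x * (m * z) * x⁻¹ = m * z) :
    ∃ m' ∈ M, ∃ z' ∈ Z, m * z = m' * z' ∧ (∀ x ∈ P, x * m' * x⁻¹ = m') ∧
      (∀ x ∈ P, x * z' * x⁻¹ = z') := by
  have ht : ∀ x ∈ P, m⁻¹ * (x * m * x⁻¹) ∈ M ⊓ Z := by
    intro x hx
    refine ⟨M.mul_mem (M.inv_mem hm) (hPM x hx m hm), ?_⟩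
    have h1 : m⁻¹ * (x * m * x⁻¹) = z * (x * z * x⁻¹)⁻¹ := by
      have h2 := hfix x hx
      have h3 : x * (m * z) * x⁻¹ = (x * m * x⁻¹) * (x * z * x⁻¹) := by group
      rw [h3] at h2
      rw [eq_mul_inv_iff_mul_eq, mul_assoc, h2, inv_mul_cancel_left]
    rw [h1]
    exact Z.mul_mem hz (Z.inv_mem (hPZ x hx z hz))
  obtain ⟨n, hn, hfn⟩ := exists_fixed_in_coset hP hN
    (fun x hx n hn => ⟨hPM x hx n hn.1, hPZ x hx n hn.2⟩) m ht
  refine ⟨m * n, M.mul_mem hm hn.1, n⁻¹ * z, Z.mul_mem (Z.inv_mem hn.2) hz, by group, hfn, ?_⟩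
  intro x hx
  have h1 : n⁻¹ * z = (m * n)⁻¹ * (m * z) := by group
  rw [h1]
  calc x * ((m * n)⁻¹ * (m * z)) * x⁻¹ = (x * (m * n) * x⁻¹)⁻¹ * (x * (m * z) * x⁻¹) := by group
    _ = (m * n)⁻¹ * (m * z) := by rw [hfn x hx, hfix x hx]

theorem mem_centralizer_of_conj {P : Subgroup G} {g : G} (h : ∀ x ∈ P, x * g * x⁻¹ = g) :
    g ∈ Subgroup.centralizer (P : Set G) := by
  rw [Subgroup.mem_centralizer_iff]
  intro x hx
  have := h x hx
  rwa [mul_inv_eq_iff_eq_mul] at this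

theorem conj_of_mem_centralizer {P : Subgroup G} {g : G}
    (h : g ∈ Subgroup.centralizer (P : Set G)) : ∀ x ∈ P, x * g * x⁻¹ = g := by
  intro x hx
  rw [mul_inv_eq_iff_eq_mul]
  exact (Subgroup.mem_centralizer_iff.1 h) x hx

/-- `X` is invariant under conjugation by `A`. -/
def Inv (A X : Subgroup G) : Prop := ∀ x ∈ A, ∀ y ∈ X, x * y * x⁻¹ ∈ X

theorem Inv.inf {A X Y : Subgroup G} (hX : Inv A X) (hY : Inv A Y) : Inv A (X ⊓ Y) :=
  fun x hx y hy => ⟨hX x hx y hy.1, hY x hx y hy.2⟩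

theorem Inv.mono {A B X : Subgroup G} (hX : Inv A X) (h : B ≤ A) : Inv B X :=
  fun x hx y hy => hX x (h hx) y hy

theorem Inv.iSup {ι : Sort*} {A : Subgroup G} {X : ι → Subgroup G} (h : ∀ i, Inv A (X i)) :
    Inv A (⨆ i, X i) := by
  intro x hx
  have h1 : (⨆ i, X i) ≤ (⨆ i, X i).comap (MulAut.conj x).toMonoidHom := by
    refine iSup_le fun i y hy => ?_
    show x * y * x⁻¹ ∈ (⨆ i, X i)
    exact (le_iSup X i) (h i x hx y hy)
  intro y hy
  exact h1 hy

theorem Inv.le_normalizer {A X : Subgroup G} (h : Inv A X) :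
    A ≤ Subgroup.normalizer (X : Set G) :=
  Subgroup.le_normalizer_iff.2 h

theorem Inv.commutator {A X : Subgroup G} (h : Inv A X) : Inv A ⁅X, X⁆ := by
  intro x hx y hy
  have h1 : X.map (MulAut.conj x).toMonoidHom ≤ X := by
    rintro _ ⟨z, hz, rfl⟩
    exact h x hx z hz
  have h2 : (⁅X, X⁆).map (MulAut.conj x).toMonoidHom ≤ ⁅X, X⁆ := by
    rw [Subgroup.map_commutator]
    exact Subgroup.commutator_mono h1 h1
  exact h2 ⟨y, hy, rfl⟩

theorem inv_centralizer {A : Subgroup G} (hA : ∀ x ∈ A, ∀ y ∈ A, x * y = y * x) {S : Set G}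
    (hS : S ⊆ A) : Inv A (Subgroup.centralizer S) := by
  intro x hx y hy
  rw [Subgroup.mem_centralizer_iff] at hy ⊢
  intro s hs
  have h1 := hy s hs
  have h2 := hA x hx s (hS hs)
  calc s * (x * y * x⁻¹) = (s * x) * y * x⁻¹ := by group
    _ = x * (s * y) * x⁻¹ := by rw [← h2]; group
    _ = x * y * (s * x⁻¹) := by rw [h1]; group
    _ = x * y * (x⁻¹ * (x * s) * x⁻¹) := by group
    _ = x * y * x⁻¹ * s := by rw [h2]; group

theorem commutator_lt_of_solvable {W : Subgroup G} (hs : Group.IsSolvable W) (hW : W ≠ ⊥) :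
    ⁅W, W⁆ < W := by
  rw [← Subgroup.nontrivial_iff_ne_bot] at hW
  have h := Group.IsSolvable.commutator_lt_top_of_nontrivial (G := W)
  have h2 : (commutator W).map W.subtype < (⊤ : Subgroup W).map W.subtype :=
    Subgroup.map_subtype_lt_map_subtype.2 h
  rwa [Subgroup.map_subtype_commutator, ← MonoidHom.range_eq_map, Subgroup.range_subtype] at h2

theorem solvable_of_le {W M : Subgroup G} (hs : Group.IsSolvable W) (h : M ≤ W) :
    Group.IsSolvable M :=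
  Group.isSolvable_of_isSolvable_injective (Subgroup.inclusion_injective h)

theorem not_dvd_card_of_le {p : ℕ} {W M : Subgroup G} (hs : ¬ p ∣ Nat.card W) (h : M ≤ W) :
    ¬ p ∣ Nat.card M :=
  fun hd => hs (hd.trans (Subgroup.card_dvd_of_le h))

theorem isPGroup_of_le {p : ℕ} {A F : Subgroup G} (hA : IsElementaryAbelian p A) (h : F ≤ A) :
    IsPGroup p F := by
  intro g
  refine ⟨1, ?_⟩
  apply Subtype.ext
  simpa using hA.2 g (h g.2)

/-- hyperplanes (or everything). -/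
def Hyp (p : ℕ) (A F : Subgroup G) : Prop := F ≤ A ∧ F.relIndex A ≤ p

theorem Hyp.of_le [Finite G] {p : ℕ} {A F F' : Subgroup G} (h : Hyp p A F) (h1 : F ≤ F') (h2 : F' ≤ A) :
    Hyp p A F' := by
  refine ⟨h2, le_trans (Nat.le_of_dvd ?_ (Subgroup.relIndex_dvd_of_le_left A h1)) h.2⟩
  exact Nat.pos_of_ne_zero (Subgroup.index_ne_zero_of_finite (H := F.subgroupOf A))

theorem local_complete [Finite G] {p : ℕ} [hp : Fact p.Prime] {A : Subgroup G}
    (hA : IsElementaryAbelian p A) (hA2 : p ^ 2 ≤ Nat.card A) {a : G} (ha : a ∈ A) (n : ℕ) :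
    ∀ (Z : Subgroup G → Subgroup G),
      (∀ F, Hyp p A F → Inv A (Z F)) →
      (∀ F, Hyp p A F → Z F ≤ Subgroup.centralizer (F : Set G)) →
      (∀ F₁ F₂, Hyp p A F₁ → Hyp p A F₂ → ∃ Y : Subgroup G, Inv A Y ∧ ¬ p ∣ Nat.card Y ∧
          Z F₁ ≤ Y ∧ Z F₂ ≤ Y ∧ ∀ F, Hyp p A F → Y ⊓ Subgroup.centralizer (F : Set G) ≤ Z F) →
      Group.IsSolvable ↥(⨆ F : {F : Subgroup G // Hyp p A F ∧ a ∈ F}, Z F) →
      ¬ p ∣ Nat.card ↥(⨆ F : {F : Subgroup G // Hyp p A F ∧ a ∈ F}, Z F) →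
      Nat.card ↥(⨆ F : {F : Subgroup G // Hyp p A F ∧ a ∈ F}, Z F) ≤ n →
      ∀ F, Hyp p A F →
        (⨆ F : {F : Subgroup G // Hyp p A F ∧ a ∈ F}, Z F) ⊓ Subgroup.centralizer (F : Set G) ≤ Z F := by
  induction n with
  | zero =>
    intro Z _ _ _ _ _ hcard
    exact absurd hcard (by have := Nat.card_pos (α := ↥(⨆ F : {F : Subgroup G // Hyp p A F ∧ a ∈ F}, Z F)); omega)
  | succ n ih =>
    intro Z hinv hcen hY hsol hpW hcard
    have hAc := comm_of_isElementaryAbelian hA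
    obtain ⟨W, hWdef⟩ : ∃ W : Subgroup G, W = ⨆ F : {F : Subgroup G // Hyp p A F ∧ a ∈ F}, Z F :=
      ⟨_, rfl⟩
    rw [← hWdef] at hsol hpW hcard ⊢
    have hZW : ∀ F, Hyp p A F → a ∈ F → Z F ≤ W := by
      intro F hF haF
      rw [hWdef]
      exact le_iSup (fun F : {F : Subgroup G // Hyp p A F ∧ a ∈ F} => Z F) ⟨F, hF, haF⟩
    have hWinv : Inv A W := by
      rw [hWdef]
      exact Inv.iSup fun F => hinv F F.2.1
    have hWa : W ≤ Subgroup.centralizer ({a} : Set G) := by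
      rw [hWdef]
      refine iSup_le fun F => (hcen F F.2.1).trans (Subgroup.centralizer_le ?_)
      simpa using F.2.2
    by_cases hWbot : W = ⊥
    · intro F _
      rw [hWbot]
      exact inf_le_left.trans bot_le
    -- choose `M`
    let 𝓜 : Set (Subgroup G) := {M | ⁅W, W⁆ ≤ M ∧ M < W ∧ Inv A M}
    have hne : 𝓜.Nonempty := ⟨⁅W, W⁆, le_rfl, commutator_lt_of_solvable hsol hWbot, hWinv.commutator⟩
    obtain ⟨M, hM, hmax⟩ := Set.exists_max_image 𝓜 (fun M => Nat.card M) (Set.toFinite _) hne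
    obtain ⟨hM1, hM2, hM3⟩ := hM
    have hMmax : ∀ L : Subgroup G, M ≤ L → L ≤ W → Inv A L → L = M ∨ L = W := by
      intro L h1 h2 h3
      by_cases h4 : L = W
      · exact Or.inr h4
      · left
        have h5 : L ∈ 𝓜 := ⟨hM1.trans h1, lt_of_le_of_ne h2 h4, h3⟩
        exact (Subgroup.eq_of_le_of_card_ge h1 (hmax L h5)).symm
    have hMn : ∀ w ∈ W, ∀ m ∈ M, w * m * w⁻¹ ∈ M := by
      intro w hw m hm
      have h1 : ⁅w, m⁆ ∈ M := hM1 (Subgroup.commutator_mem_commutator hw (hM2.le hm))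
      have h2 : w * m * w⁻¹ = ⁅w, m⁆ * m := by
        rw [commutatorElement_def]; group
      rw [h2]
      exact M.mul_mem h1 hm
    have hMn' : ∀ w ∈ W, ∀ m ∈ M, w⁻¹ * m * w ∈ M := by
      intro w hw m hm
      simpa using hMn w⁻¹ (W.inv_mem hw) m hm
    -- the subgroup `K e`
    let K : G → Subgroup G := fun e =>
      { carrier := {w | w ∈ W ∧ w⁻¹ * (e * w * e⁻¹) ∈ M}
        one_mem' := ⟨W.one_mem, by simp⟩
        mul_mem' := by
          rintro w v ⟨hw, hw'⟩ ⟨hv, hv'⟩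
          refine ⟨W.mul_mem hw hv, ?_⟩
          have h1 : (w * v)⁻¹ * (e * (w * v) * e⁻¹) =
              (v⁻¹ * (w⁻¹ * (e * w * e⁻¹)) * v) * (v⁻¹ * (e * v * e⁻¹)) := by group
          rw [h1]
          exact M.mul_mem (hMn' v hv _ hw') hv'
        inv_mem' := by
          rintro w ⟨hw, hw'⟩
          refine ⟨W.inv_mem hw, ?_⟩
          have h1 : (w⁻¹)⁻¹ * (e * w⁻¹ * e⁻¹) = w * (w⁻¹ * (e * w * e⁻¹))⁻¹ * w⁻¹ := by group
          rw [h1]
          exact hMn w hw _ (M.inv_mem hw') }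
    have hKmem : ∀ e w, w ∈ K e ↔ w ∈ W ∧ w⁻¹ * (e * w * e⁻¹) ∈ M := fun e w => Iff.rfl
    have hdich : ∀ e ∈ A, (∀ w ∈ W, w⁻¹ * (e * w * e⁻¹) ∈ M) ∨
        W ⊓ Subgroup.centralizer ({e} : Set G) ≤ M := by
      intro e he
      have h1 : M ≤ K e := fun m hm =>
        ⟨hM2.le hm, M.mul_mem (M.inv_mem hm) (hM3 e he m hm)⟩
      have h2 : K e ≤ W := fun w hw => hw.1
      have h3 : Inv A (K e) := by
        intro b hb w hw
        refine ⟨hWinv b hb w hw.1, ?_⟩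
        have h4 : (b * w * b⁻¹)⁻¹ * (e * (b * w * b⁻¹) * e⁻¹) = b * (w⁻¹ * (e * w * e⁻¹)) * b⁻¹ := by
          have h5 : e * b = b * e := hAc e he b hb
          have h6 : b⁻¹ * e⁻¹ = e⁻¹ * b⁻¹ := by
            rw [← mul_inv_rev, ← mul_inv_rev, h5]
          calc (b * w * b⁻¹)⁻¹ * (e * (b * w * b⁻¹) * e⁻¹)
              = b * w⁻¹ * b⁻¹ * ((e * b) * w * (b⁻¹ * e⁻¹)) := by group
            _ = b * w⁻¹ * b⁻¹ * ((b * e) * w * (e⁻¹ * b⁻¹)) := by rw [h5, h6]
            _ = b * (w⁻¹ * (e * w * e⁻¹)) * b⁻¹ := by group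
        rw [h4]
        exact hM3 b hb _ hw.2
      rcases hMmax (K e) h1 h2 h3 with h | h
      · right
        rintro w ⟨hw1, hw2⟩
        rw [← h]
        refine ⟨hw1, ?_⟩
        have h7 : w * e = e * w := Subgroup.mem_centralizer_singleton_iff.1 hw2
        have h8 : w⁻¹ * (e * w * e⁻¹) = 1 := by rw [← h7]; group
        rw [h8]
        exact M.one_mem
      · left
        intro w hw
        rw [← h] at hw
        exact hw.2
    -- the kernel `E₀`
    let E₀ : Subgroup G :=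
      { carrier := {e | e ∈ A ∧ ∀ w ∈ W, w⁻¹ * (e * w * e⁻¹) ∈ M}
        one_mem' := ⟨A.one_mem, fun w _ => by simp⟩
        mul_mem' := by
          rintro e f ⟨he, he'⟩ ⟨hf, hf'⟩
          refine ⟨A.mul_mem he hf, fun w hw => ?_⟩
          have h1 : w⁻¹ * (e * f * w * (e * f)⁻¹) =
              (w⁻¹ * (f * w * f⁻¹)) * ((f * w * f⁻¹)⁻¹ * (e * (f * w * f⁻¹) * e⁻¹)) := by group
          rw [h1]
          exact M.mul_mem (hf' w hw) (he' _ (hWinv f hf w hw))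
        inv_mem' := by
          rintro e ⟨he, he'⟩
          refine ⟨A.inv_mem he, fun w hw => ?_⟩
          have h0 : e⁻¹ * w * e ∈ W := by simpa using hWinv e⁻¹ (A.inv_mem he) w hw
          have h1 : w⁻¹ * (e⁻¹ * w * e⁻¹⁻¹) =
              ((e⁻¹ * w * e)⁻¹ * (e * (e⁻¹ * w * e) * e⁻¹))⁻¹ := by group
          rw [h1]
          exact M.inv_mem (he' _ h0) }
    have hE₀A : E₀ ≤ A := fun e he => he.1
    -- some `Z F₀` is not in `M`
    obtain ⟨F₀, hF₀, haF₀, hF₀M⟩ : ∃ F₀, Hyp p A F₀ ∧ a ∈ F₀ ∧ ¬ Z F₀ ≤ M := by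
      by_contra hcon
      push Not at hcon
      have : W ≤ M := by
        rw [hWdef]
        exact iSup_le fun F => hcon F F.2.1 F.2.2
      exact absurd hM2 (not_lt_of_ge this)
    have hF₀E₀ : F₀ ≤ E₀ := by
      intro e he
      refine ⟨hF₀.1 he, ?_⟩
      rcases hdich e (hF₀.1 he) with h | h
      · exact h
      · exfalso
        apply hF₀M
        refine le_trans (le_inf (hZW F₀ hF₀ haF₀) ?_) h
        exact (hcen F₀ hF₀).trans (Subgroup.centralizer_le (by simpa using he))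
    have hE₀ : Hyp p A E₀ := hF₀.of_le hF₀E₀ hE₀A
    have haE₀ : a ∈ E₀ := hF₀E₀ haF₀
    -- the subgroup `M₀`
    obtain ⟨M₀, hM₀def⟩ : ∃ M₀ : Subgroup G,
        M₀ = ⨆ F : {F : Subgroup G // Hyp p A F ∧ a ∈ F}, (fun F => Z F ⊓ M) F := ⟨_, rfl⟩
    have hM₀M : M₀ ≤ M := by
      rw [hM₀def]
      exact iSup_le fun F => inf_le_right
    have hM₀W : M₀ ≤ W := hM₀M.trans hM2.le
    have hZM₀ : ∀ F, Hyp p A F → a ∈ F → Z F ⊓ M ≤ M₀ := by
      intro F hF haF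
      rw [hM₀def]
      exact le_iSup (fun F : {F : Subgroup G // Hyp p A F ∧ a ∈ F} => Z F ⊓ M) ⟨F, hF, haF⟩
    have hM₀inv : Inv A M₀ := by
      rw [hM₀def]
      exact Inv.iSup fun F => (hinv F F.2.1).inf hM3
    have hIH : ∀ F, Hyp p A F → M₀ ⊓ Subgroup.centralizer (F : Set G) ≤ Z F ⊓ M := by
      have h := ih (fun F => Z F ⊓ M) (fun F hF => (hinv F hF).inf hM3)
        (fun F hF => inf_le_left.trans (hcen F hF))
        (by
          intro F₁ F₂ h1 h2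
          obtain ⟨Y, hY1, hY2, hY3, hY4, hY5⟩ := hY F₁ F₂ h1 h2
          refine ⟨Y ⊓ M, hY1.inf hM3, not_dvd_card_of_le hY2 inf_le_left,
            inf_le_inf_right M hY3, inf_le_inf_right M hY4, fun F hF => ?_⟩
          rintro x ⟨⟨hx1, hx2⟩, hx3⟩
          exact ⟨hY5 F hF ⟨hx1, hx3⟩, hx2⟩)
      rw [← hM₀def] at h
      refine h (solvable_of_le hsol hM₀W) (not_dvd_card_of_le hpW hM₀W) ?_
      have h1 : Nat.card M < Nat.card W := by
        refine lt_of_le_of_ne (Subgroup.card_le_of_le hM2.le) fun h => ?_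
        exact hM2.ne (Subgroup.eq_of_le_of_card_ge hM2.le h.ge)
      have h2 : Nat.card M₀ ≤ Nat.card M := Subgroup.card_le_of_le hM₀M
      omega
    -- `W` normalizes `M₀`
    have hnorm : W ≤ Subgroup.normalizer (M₀ : Set G) := by
      rw [hWdef]
      refine iSup_le fun F₁ => ?_
      obtain ⟨F₁, hF₁, haF₁⟩ := F₁
      rw [Subgroup.le_normalizer_iff]
      intro x hx
      have h1 : M₀ ≤ M₀.comap (MulAut.conj x).toMonoidHom := by
        conv_lhs => rw [hM₀def]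
        refine iSup_le fun F₂ => ?_
        obtain ⟨F₂, hF₂, haF₂⟩ := F₂
        rintro y ⟨hy1, hy2⟩
        show x * y * x⁻¹ ∈ M₀
        obtain ⟨Y, hY1, hY2, hY3, hY4, hY5⟩ := hY F₁ F₂ hF₁ hF₂
        have hxW : x ∈ W := hZW F₁ hF₁ haF₁ hx
        have hT : x * y * x⁻¹ ∈ Y ⊓ M ⊓ Subgroup.centralizer ({a} : Set G) := by
          refine ⟨⟨Y.mul_mem (Y.mul_mem (hY3 hx) (hY4 hy1)) (Y.inv_mem (hY3 hx)), hMn x hxW y hy2⟩, ?_⟩
          exact hWa (W.mul_mem (W.mul_mem hxW (hM2.le hy2)) (W.inv_mem hxW))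
        have hTinv : Inv A (Y ⊓ M ⊓ Subgroup.centralizer ({a} : Set G)) :=
          (hY1.inf hM3).inf (inv_centralizer hAc (by simpa using ha))
        have hTp : ¬ p ∣ Nat.card ↥(Y ⊓ M ⊓ Subgroup.centralizer ({a} : Set G)) :=
          not_dvd_card_of_le hY2 (inf_le_left.trans inf_le_left)
        have key := Cfsg.Agent.S1324.result p A _ hA hA2 hTp hTinv.le_normalizer
        rw [key] at hT
        refine (iSup_le fun B => ?_ : _ ≤ M₀) hT
        obtain ⟨B, hBA, hBi⟩ := B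
        have hF' : Hyp p A (B ⊔ Subgroup.zpowers a) :=
          Hyp.of_le (F := B) ⟨hBA, hBi⟩ le_sup_left (sup_le hBA (by simpa using ha))
        have haF' : a ∈ B ⊔ Subgroup.zpowers a :=
          (le_sup_right : Subgroup.zpowers a ≤ _) (Subgroup.mem_zpowers a)
        rintro t ⟨⟨⟨ht1, ht2⟩, ht3⟩, ht4⟩
        refine hZM₀ _ hF' haF' ⟨hY5 _ hF' ⟨ht1, ?_⟩, ht2⟩
        have h5 : B ⊔ Subgroup.zpowers a ≤ Subgroup.centralizer ({t} : Set G) := by
          refine sup_le ?_ ?_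
          · intro b hb
            rw [Subgroup.mem_centralizer_singleton_iff]
            exact (Subgroup.mem_centralizer_iff.1 ht4) b hb
          · rw [Subgroup.zpowers_le, Subgroup.mem_centralizer_singleton_iff]
            exact (Subgroup.mem_centralizer_singleton_iff.1 ht3).symm
        show t ∈ Subgroup.centralizer ((B ⊔ Subgroup.zpowers a : Subgroup G) : Set G)
        rw [Subgroup.mem_centralizer_iff]
        intro b hb
        exact Subgroup.mem_centralizer_singleton_iff.1 (h5 hb)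
      intro y hy
      exact h1 hy
    -- `W = M₀ Z(E₀)`
    have hWle : W ≤ M₀ ⊔ Z E₀ := by
      conv_lhs => rw [hWdef]
      refine iSup_le fun F => ?_
      obtain ⟨F, hF, haF⟩ := F
      show Z F ≤ M₀ ⊔ Z E₀
      by_cases hFE : F ≤ E₀
      · intro t ht
        have hP : IsPGroup p E₀ := isPGroup_of_le hA hE₀A
        have hNp : ¬ p ∣ Nat.card ↥(Z F ⊓ M) :=
          not_dvd_card_of_le hpW (inf_le_left.trans (hZW F hF haF))
        obtain ⟨m, hm, hfix⟩ := exists_fixed_in_coset hP hNp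
          (fun x hx y hy => ((hinv F hF).inf hM3) x (hE₀A hx) y hy) t
          (fun x hx => ⟨(Z F).mul_mem ((Z F).inv_mem ht) (hinv F hF x (hE₀A hx) t ht),
            hx.2 t (hZW F hF haF ht)⟩)
        obtain ⟨Y, _, _, hY3, _, hY5⟩ := hY F F hF hF
        have h1 : t * m ∈ Z E₀ :=
          hY5 E₀ hE₀ ⟨hY3 ((Z F).mul_mem ht hm.1), mem_centralizer_of_conj hfix⟩
        have h2 : t = (t * m) * m⁻¹ := by group
        rw [h2]
        exact Subgroup.mul_mem _ ((le_sup_right : Z E₀ ≤ _) h1)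
          ((le_sup_left : M₀ ≤ _) (M₀.inv_mem (hZM₀ F hF haF hm)))
      · obtain ⟨e, heF, heE⟩ := SetLike.not_le_iff_exists.1 hFE
        have heA : e ∈ A := hF.1 heF
        rcases hdich e heA with h | h
        · exact absurd ⟨heA, h⟩ heE
        · have h1 : Z F ≤ M := by
            refine le_trans (le_inf (hZW F hF haF) ?_) h
            exact (hcen F hF).trans (Subgroup.centralizer_le (by simpa using heF))
          exact (le_inf le_rfl h1).trans ((hZM₀ F hF haF).trans le_sup_left)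
    -- conclusion
    intro F hF
    rintro w ⟨hw1, hw2⟩
    have hZE₀W : Z E₀ ≤ W := hZW E₀ hE₀ haE₀
    have h1 : w ∈ ((M₀ ⊔ Z E₀ : Subgroup G) : Set G) := hWle hw1
    rw [Subgroup.coe_mul_of_right_le_normalizer_left M₀ (Z E₀) (hZE₀W.trans hnorm)] at h1
    obtain ⟨m, hm, z, hz, rfl⟩ := h1
    have hP : IsPGroup p F := isPGroup_of_le hA hF.1
    obtain ⟨m', hm', z', hz', heq, hfm, hfz⟩ := centralizer_mul hP
      (not_dvd_card_of_le hpW (inf_le_left.trans hM₀W))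
      (fun x hx y hy => hM₀inv x (hF.1 hx) y hy)
      (fun x hx y hy => hinv E₀ hE₀ x (hF.1 hx) y hy) hm hz (conj_of_mem_centralizer hw2)
    show m * z ∈ Z F
    rw [heq]
    obtain ⟨Y, _, _, hY3, _, hY5⟩ := hY E₀ E₀ hE₀ hE₀
    exact (Z F).mul_mem (hIH F hF ⟨hm', mem_centralizer_of_conj hfm⟩).1
      (hY5 F hF ⟨hY3 hz', mem_centralizer_of_conj hfz⟩)

end Cfsg.Agent.Lib.Helper37LocalComplete
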