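import Mathlib
import Cfsg.Prelude.Def_Local
import Cfsg.Agent.Lib.Helper37LocalComplete

set_option autoImplicit false

/-! The `k`-balanced functor `a ↦ ⟨Δ(F) : a ∈ F hyperplane of A⟩` is a signalizer functor when the
`p'`-cores `O_{p'}(C(a))` are solvable. -/

namespace Cfsg.Agent.Lib.Helper37KBal

open Cfsg Cfsg.Agent.Lib.Helper37Delta Cfsg.Agent.Lib.Helper37Cores
  Cfsg.Agent.Lib.Helper37LocalComplete

variable {G : Type*} [Group G]

/-- balance with respect to `A`, for subgroups of order at least `p ^ k`. -/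
def Bal (p k : ℕ) (A : Subgroup G) : Prop :=
  ∀ D : Subgroup G, D ≤ A → p ^ k ≤ Nat.card D → ∀ e ∈ A, e ≠ 1 →
    signalizerDelta p D ⊓ Subgroup.centralizer {e} ≤ centralizerPPrimeCore p e

/-- the functor in hyperplane form. -/
def thetaH (p : ℕ) (A : Subgroup G) (a : G) : Subgroup G :=
  ⨆ F : {F : Subgroup G // Hyp p A F ∧ a ∈ F}, signalizerDelta p (F : Subgroup G)

theorem Bal.delta_inf_le {p k : ℕ} {A : Subgroup G} (h : Bal p k A) {D F : Subgroup G} (hD : D ≤ A)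
    (hDk : p ^ k ≤ Nat.card D) (hF : F ≤ A) :
    signalizerDelta p D ⊓ Subgroup.centralizer (F : Set G) ≤ signalizerDelta p F := by
  rintro x ⟨hx1, hx2⟩
  rw [mem_delta_iff]
  intro e he he1
  exact h D hD hDk e (hF he) he1 ⟨hx1, Subgroup.centralizer_le (by simpa using he) hx2⟩

theorem card_hyp [Finite G] {p k : ℕ} (hp : p.Prime) {A F : Subgroup G}
    (hAk : p ^ (k + 1) ≤ Nat.card A) (hF : Hyp p A F) : p ^ k ≤ Nat.card F := by
  have h3 := card_mul_relIndex hF.1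
  have h4 : p ^ (k + 1) ≤ Nat.card F * p := by
    calc p ^ (k + 1) ≤ Nat.card A := hAk
      _ = Nat.card F * F.relIndex A := h3.symm
      _ ≤ Nat.card F * p := Nat.mul_le_mul_left _ hF.2
  rw [pow_succ] at h4
  exact Nat.le_of_mul_le_mul_right h4 hp.pos

theorem card_hyp_inf [Finite G] {p k : ℕ} (hp : p.Prime) {A F₁ F₂ : Subgroup G}
    (hAk : p ^ (k + 2) ≤ Nat.card A) (hF₁ : Hyp p A F₁) (hF₂ : Hyp p A F₂) :
    p ^ k ≤ Nat.card (F₁ ⊓ F₂ : Subgroup G) := by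
  have h3 := card_mul_relIndex (inf_le_left.trans hF₁.1 : F₁ ⊓ F₂ ≤ A)
  have h5 : (F₁ ⊓ F₂).relIndex A ≤ p * p :=
    (Subgroup.relIndex_inf_le).trans (Nat.mul_le_mul hF₁.2 hF₂.2)
  have h4 : p ^ k * (p * p) ≤ Nat.card (F₁ ⊓ F₂ : Subgroup G) * (p * p) := by
    calc p ^ k * (p * p) = p ^ (k + 2) := by ring
      _ ≤ Nat.card A := hAk
      _ = Nat.card (F₁ ⊓ F₂ : Subgroup G) * (F₁ ⊓ F₂).relIndex A := h3.symm
      _ ≤ Nat.card (F₁ ⊓ F₂ : Subgroup G) * (p * p) := Nat.mul_le_mul_left _ h5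
  exact Nat.le_of_mul_le_mul_right h4 (Nat.mul_pos hp.pos hp.pos)

theorem inv_delta {p : ℕ} {A B : Subgroup G} (hA : IsElementaryAbelian p A) (hB : B ≤ A) :
    Inv A (signalizerDelta p B) :=
  Subgroup.le_normalizer_iff.1 (le_normalizer_delta (comm_of_isElementaryAbelian hA) hB)

theorem thetaH_le_cppc {p : ℕ} {A : Subgroup G} {a : G} (ha1 : a ≠ 1) :
    thetaH p A a ≤ centralizerPPrimeCore p a :=
  iSup_le fun F => delta_le_cppc F.2.2 ha1

theorem inv_thetaH {p : ℕ} {A : Subgroup G} (hA : IsElementaryAbelian p A) (a : G) :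
    Inv A (thetaH p A a) :=
  Inv.iSup fun F => inv_delta hA F.2.1.1

theorem delta_le_thetaH {p : ℕ} {A F : Subgroup G} {a : G} (hF : Hyp p A F) (ha : a ∈ F) :
    signalizerDelta p F ≤ thetaH p A a :=
  le_iSup (fun F : {F : Subgroup G // Hyp p A F ∧ a ∈ F} => signalizerDelta p (F : Subgroup G))
    ⟨F, hF, ha⟩

theorem mem_centralizer_sup_zpowers {B : Subgroup G} {a t : G}
    (h1 : t ∈ Subgroup.centralizer (B : Set G)) (h2 : t ∈ Subgroup.centralizer ({a} : Set G)) :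
    t ∈ Subgroup.centralizer ((B ⊔ Subgroup.zpowers a : Subgroup G) : Set G) := by
  have h5 : B ⊔ Subgroup.zpowers a ≤ Subgroup.centralizer ({t} : Set G) := by
    refine sup_le ?_ ?_
    · intro b hb
      rw [Subgroup.mem_centralizer_singleton_iff]
      exact (Subgroup.mem_centralizer_iff.1 h1) b hb
    · rw [Subgroup.zpowers_le, Subgroup.mem_centralizer_singleton_iff]
      exact (Subgroup.mem_centralizer_singleton_iff.1 h2).symm
  rw [Subgroup.mem_centralizer_iff]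
  intro b hb
  exact Subgroup.mem_centralizer_singleton_iff.1 (h5 hb)

theorem hyp_sup_zpowers [Finite G] {p : ℕ} {A B : Subgroup G} {a : G} (hB : Hyp p A B) (ha : a ∈ A) :
    Hyp p A (B ⊔ Subgroup.zpowers a) ∧ a ∈ B ⊔ Subgroup.zpowers a :=
  ⟨hB.of_le le_sup_left (sup_le hB.1 (by simpa using ha)),
    (le_sup_right : Subgroup.zpowers a ≤ _) (Subgroup.mem_zpowers a)⟩

/-- local completeness of the hyperplane functor. -/
theorem thetaH_inf_centralizer_le [Finite G] {p k : ℕ} [hp : Fact p.Prime] (hk : 1 ≤ k)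
    {A : Subgroup G} (hA : IsElementaryAbelian p A) (hAk : p ^ (k + 2) ≤ Nat.card A)
    (hbal : Bal p k A) {a : G} (ha : a ∈ A) (ha1 : a ≠ 1)
    (hsol : Group.IsSolvable (centralizerPPrimeCore p a)) {F : Subgroup G} (hF : Hyp p A F) :
    thetaH p A a ⊓ Subgroup.centralizer (F : Set G) ≤ signalizerDelta p F := by
  have hA2 : p ^ 2 ≤ Nat.card A := le_trans (Nat.pow_le_pow_right hp.out.pos (by omega)) hAk
  refine local_complete hA hA2 ha _ (fun F => signalizerDelta p F) (fun F hF => inv_delta hA hF.1)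
    (fun F _ => delta_le_centralizer p F) ?_ (solvable_of_le hsol (thetaH_le_cppc ha1))
    (not_dvd_card_of_le_cppc hp.out (thetaH_le_cppc ha1)) le_rfl F hF
  intro F₁ F₂ hF₁ hF₂
  have hc := card_hyp_inf hp.out hAk hF₁ hF₂
  have h1 : 1 < Nat.card (F₁ ⊓ F₂ : Subgroup G) :=
    lt_of_lt_of_le (Nat.one_lt_pow (by omega) hp.out.one_lt) hc
  obtain ⟨b, hb, hb1⟩ := exists_ne_one_of_lt_card h1
  have hle : F₁ ⊓ F₂ ≤ A := inf_le_left.trans hF₁.1
  exact ⟨signalizerDelta p (F₁ ⊓ F₂), inv_delta hA hle, not_dvd_card_delta hp.out hb hb1,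
    delta_anti inf_le_left, delta_anti inf_le_right, fun F hF => hbal.delta_inf_le hle hc hF.1⟩

/-- balance of the hyperplane functor. -/
theorem thetaH_balance [Finite G] {p k : ℕ} [hp : Fact p.Prime] (hk : 1 ≤ k)
    {A : Subgroup G} (hA : IsElementaryAbelian p A) (hAk : p ^ (k + 2) ≤ Nat.card A)
    (hbal : Bal p k A) {a : G} (ha : a ∈ A) (ha1 : a ≠ 1)
    (hsol : Group.IsSolvable (centralizerPPrimeCore p a)) {b : G} (hb : b ∈ A) :
    thetaH p A a ⊓ Subgroup.centralizer {b} ≤ thetaH p A b := by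
  have hA2 : p ^ 2 ≤ Nat.card A := le_trans (Nat.pow_le_pow_right hp.out.pos (by omega)) hAk
  have hAc := comm_of_isElementaryAbelian hA
  have hTinv : Inv A (thetaH p A a ⊓ Subgroup.centralizer {b}) :=
    (inv_thetaH hA a).inf (inv_centralizer hAc (by simpa using hb))
  have hTp : ¬ p ∣ Nat.card ↥(thetaH p A a ⊓ Subgroup.centralizer {b}) :=
    not_dvd_card_of_le_cppc hp.out (inf_le_left.trans (thetaH_le_cppc ha1))
  have key := Cfsg.Agent.S1324.result p A _ hA hA2 hTp hTinv.le_normalizer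
  rw [key]
  refine iSup_le fun B => ?_
  obtain ⟨B, hBA, hBi⟩ := B
  obtain ⟨hF', hbF'⟩ := hyp_sup_zpowers (p := p) (B := B) ⟨hBA, hBi⟩ hb
  rintro t ⟨⟨ht1, ht2⟩, ht3⟩
  exact delta_le_thetaH hF' hbF' (thetaH_inf_centralizer_le hk hA hAk hbal ha ha1 hsol hF'
    ⟨ht1, mem_centralizer_sup_zpowers ht3 ht2⟩)

/-- `Δ(D) ∩ C(a) ≤ θ(a)` for `D ≤ A` of order at least `p ^ k`. -/
theorem delta_inf_le_thetaH [Finite G] {p k : ℕ} [hp : Fact p.Prime] (hk : 1 ≤ k)
    {A : Subgroup G} (hA : IsElementaryAbelian p A) (hAk : p ^ (k + 2) ≤ Nat.card A)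
    (hbal : Bal p k A) {a : G} (ha : a ∈ A) {D : Subgroup G} (hD : D ≤ A)
    (hDk : p ^ k ≤ Nat.card D) :
    signalizerDelta p D ⊓ Subgroup.centralizer {a} ≤ thetaH p A a := by
  have hA2 : p ^ 2 ≤ Nat.card A := le_trans (Nat.pow_le_pow_right hp.out.pos (by omega)) hAk
  have hAc := comm_of_isElementaryAbelian hA
  have h1 : 1 < Nat.card D := lt_of_lt_of_le (Nat.one_lt_pow (by omega) hp.out.one_lt) hDk
  obtain ⟨d, hd, hd1⟩ := exists_ne_one_of_lt_card h1
  have hTinv : Inv A (signalizerDelta p D ⊓ Subgroup.centralizer {a}) :=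
    (inv_delta hA hD).inf (inv_centralizer hAc (by simpa using ha))
  have hTp : ¬ p ∣ Nat.card ↥(signalizerDelta p D ⊓ Subgroup.centralizer {a}) :=
    not_dvd_card_of_le (not_dvd_card_delta hp.out hd hd1) inf_le_left
  have key := Cfsg.Agent.S1324.result p A _ hA hA2 hTp hTinv.le_normalizer
  rw [key]
  refine iSup_le fun B => ?_
  obtain ⟨B, hBA, hBi⟩ := B
  obtain ⟨hF', haF'⟩ := hyp_sup_zpowers (p := p) (B := B) ⟨hBA, hBi⟩ ha
  rintro t ⟨⟨ht1, ht2⟩, ht3⟩
  exact delta_le_thetaH hF' haF' (hbal.delta_inf_le hD hDk hF'.1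
    ⟨ht1, mem_centralizer_sup_zpowers ht3 ht2⟩)

end Cfsg.Agent.Lib.Helper37KBal
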