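import Mathlib

set_option autoImplicit false

/-! PROJECT 101 (TW-AUT), piece C4. -/

namespace Cfsg.Agent.Lib.Helper37TwC4

/-- C4 (the center is a normal subgroup) -/
theorem center_trivial {G : Type*} [Group G] (h : IsSimpleGroup G ∧ ¬ IsMulCommutative G) :
    ∀ z : G, (∀ g, z * g = g * z) → z = 1 := by
  obtain ⟨hs, hn⟩ := h
  intro z hz
  have hzc : z ∈ Subgroup.center G := by
    rw [Subgroup.mem_center_iff]
    intro g
    exact (hz g).symm
  rcases hs.eq_bot_or_eq_top_of_normal (Subgroup.center G) inferInstance with h1 | h1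
  · rw [h1] at hzc
    exact Subgroup.mem_bot.mp hzc
  · exfalso
    apply hn
    refine ⟨⟨fun a b => ?_⟩⟩
    have ha : a ∈ Subgroup.center G := by rw [h1]; exact Subgroup.mem_top a
    rw [Subgroup.mem_center_iff] at ha
    exact (ha b).symm

end Cfsg.Agent.Lib.Helper37TwC4
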