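import Cfsg.Agent.Lib.LeadTwDefs3
import Cfsg.Agent.S0311

set_option autoImplicit false
set_option linter.unusedVariables false
set_option linter.unusedSectionVars false

/-! PROJECT 101 (TW-AUT), piece E2. -/

namespace Cfsg.Agent.Lib.Helper37TwE2

open Subgroup Cfsg.Agent.Lib.Helper23Grp Cfsg.Agent.Lib.Helper23RG Cfsg.Agent.Lib.Helper23TG
  Cfsg.Agent.Lib.Helper23Tw Cfsg.Agent.Lib.Helper23Weyl Cfsg.Agent.Lib.LeadTwDefs

theorem map_list_prod_aux {𝔾 I : Type*} [Group 𝔾] (L : Subgroup 𝔾) (Θ : ↥L ≃* ↥L) (f f' : I → 𝔾)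
    (hf : ∀ i, f i ∈ L) (hΘ : ∀ i, (Θ ⟨f i, hf i⟩ : 𝔾) = f' i) (l : List I) :
    ∀ h : (l.map f).prod ∈ L, (Θ ⟨(l.map f).prod, h⟩ : 𝔾) = (l.map f').prod := by
  induction l with
  | nil =>
    intro h
    have e : (⟨(List.map f []).prod, h⟩ : ↥L) = 1 := rfl
    rw [e, map_one]
    rfl
  | cons a l ih =>
    intro h
    have hp : (l.map f).prod ∈ L := by
      rw [List.map_cons, List.prod_cons] at h
      exact (L.mul_mem_cancel_left (hf a)).1 h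
    have e : (⟨(List.map f (a :: l)).prod, h⟩ : ↥L) = ⟨f a, hf a⟩ * ⟨(l.map f).prod, hp⟩ := by
      apply Subtype.ext
      simp
    rw [e, map_mul, Subgroup.coe_mul, hΘ, ih hp, List.map_cons, List.prod_cons]

variable {𝔾 F R I R1 I1 : Type*} [Group 𝔾] [Field F] {S : RG 𝔾 F R I} {T : Tw S R1 I1}
  (ok : S.Ok) (hT : T.Ok) (hBV : ∀ g ∈ S.B, g ∈ S.V → g = 1) (hUN : ∀ g ∈ S.U, g ∈ S.N → g = 1)
  (rep : I1 → I) (hrep : ∀ J, rep J ∈ T.orb J)

include ok hT hBV hUN hrep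

/-- E2 (`map_list_prod`-style induction on `T.orb J`) -/
theorem theta_yy (L : Subgroup 𝔾) (hx : ∀ r t, S.x r t ∈ L) (Θ : ↥L ≃* ↥L) (C : I → F) (σ : F ≃+* F)
    (hpos : ∀ i t, (Θ ⟨S.x (S.simple i) t, hx _ _⟩ : 𝔾) = S.x (S.simple i) (C i * σ t))
    (hneg : ∀ i t, (Θ ⟨S.x (S.neg (S.simple i)) t, hx _ _⟩ : 𝔾) = S.x (S.neg (S.simple i)) ((C i)⁻¹ * σ t))
    (J : I1) (t : I → F) :
    (∀ h1 : T.yy true J t ∈ L, (Θ ⟨T.yy true J t, h1⟩ : 𝔾) = T.yy true J (fun i => C i * σ (t i))) ∧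
    (∀ h2 : T.yy false J t ∈ L, (Θ ⟨T.yy false J t, h2⟩ : 𝔾) = T.yy false J (fun i => (C i)⁻¹ * σ (t i))) := by
  constructor
  · intro h1
    exact map_list_prod_aux L Θ (fun i => S.x (Tw.sr S true i) (t i))
      (fun i => S.x (Tw.sr S true i) (C i * σ (t i))) (fun i => hx _ _) (fun i => hpos i (t i))
      (T.orb J) h1
  · intro h2
    exact map_list_prod_aux L Θ (fun i => S.x (Tw.sr S false i) (t i))
      (fun i => S.x (Tw.sr S false i) ((C i)⁻¹ * σ (t i))) (fun i => hx _ _) (fun i => hneg i (t i))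
      (T.orb J) h2

end Cfsg.Agent.Lib.Helper37TwE2
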