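import Cfsg.Agent.Lib.LeadTwDefs3
import Cfsg.Agent.S0311

set_option autoImplicit false
set_option linter.unusedVariables false
set_option linter.unusedSectionVars false

/-! PROJECT 101 (TW-AUT), piece E3. -/

namespace Cfsg.Agent.Lib.Helper37TwE3

open Subgroup Cfsg.Agent.Lib.Helper23Grp Cfsg.Agent.Lib.Helper23RG Cfsg.Agent.Lib.Helper23TG
  Cfsg.Agent.Lib.Helper23Tw Cfsg.Agent.Lib.Helper23Weyl Cfsg.Agent.Lib.LeadTwDefs

variable {𝔾 F R I R1 I1 : Type*} [Group 𝔾] [Field F] {S : RG 𝔾 F R I} {T : Tw S R1 I1}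
  (ok : S.Ok) (hT : T.Ok) (hBV : ∀ g ∈ S.B, g ∈ S.V → g = 1) (hUN : ∀ g ∈ S.U, g ∈ S.N → g = 1)
  (rep : I1 → I) (hrep : ∀ J, rep J ∈ T.orb J)

include ok hT hBV hUN hrep

/-- E3 (closure induction on `T.G1`, E2; the new families are compatible by `hC`, `hσ`) -/
theorem theta_G1 (L : Subgroup 𝔾) (hGL : T.G1 ≤ L) (Θ : ↥L ≃* ↥L) (C : I → F) (σ : F ≃+* F)
    (hC : ∀ i, C (T.ρI i) = T.φ (C i)) (hσ : ∀ t, σ (T.φ t) = T.φ (σ t))
    (h2 : ∀ (J : I1) (t : I → F),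
      (∀ h1 : T.yy true J t ∈ L, (Θ ⟨T.yy true J t, h1⟩ : 𝔾) = T.yy true J (fun i => C i * σ (t i))) ∧
      (∀ h2 : T.yy false J t ∈ L, (Θ ⟨T.yy false J t, h2⟩ : 𝔾) = T.yy false J (fun i => (C i)⁻¹ * σ (t i)))) :
    ∀ m (hm : m ∈ T.G1), (Θ ⟨m, hGL hm⟩ : 𝔾) ∈ T.G1 := by
  have key : ∀ m, m ∈ T.G1 → ∀ hm' : m ∈ L, (Θ ⟨m, hm'⟩ : 𝔾) ∈ T.G1 := by
    intro m hm
    unfold Tw.G1 at hm
    induction hm using Subgroup.closure_induction with
    | mem x hx =>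
      intro hm'
      obtain ⟨b, J, t, ht, rfl⟩ := hx
      cases b with
      | true =>
        rw [(h2 J t).1 hm']
        apply Tw.yy_mem_G1
        intro i hi
        show C (T.ρI i) * σ (t (T.ρI i)) = T.φ (C i * σ (t i))
        rw [hC, ht i hi, hσ, map_mul]
      | false =>
        rw [(h2 J t).2 hm']
        apply Tw.yy_mem_G1
        intro i hi
        show (C (T.ρI i))⁻¹ * σ (t (T.ρI i)) = T.φ ((C i)⁻¹ * σ (t i))
        rw [hC, ht i hi, hσ, map_mul, map_inv₀]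
    | one =>
      intro hm'
      have e : (⟨1, hm'⟩ : ↥L) = 1 := rfl
      rw [e, map_one]
      exact T.G1.one_mem
    | mul x y hx hy ihx ihy =>
      intro hm'
      have hxL : x ∈ L := hGL hx
      have hyL : y ∈ L := hGL hy
      have e : (⟨x * y, hm'⟩ : ↥L) = ⟨x, hxL⟩ * ⟨y, hyL⟩ := rfl
      rw [e, map_mul, Subgroup.coe_mul]
      exact T.G1.mul_mem (ihx hxL) (ihy hyL)
    | inv x hx ihx =>
      intro hm'
      have hxL : x ∈ L := hGL hx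
      have e : (⟨x⁻¹, hm'⟩ : ↥L) = (⟨x, hxL⟩ : ↥L)⁻¹ := rfl
      rw [e, map_inv, Subgroup.coe_inv]
      exact T.G1.inv_mem (ihx hxL)
  intro m hm
  exact key m hm (hGL hm)

end Cfsg.Agent.Lib.Helper37TwE3
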