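import Cfsg.Agent.Lib.LeadAutConc
import Cfsg.Agent.Lib.LeadChevCent
import Cfsg.Agent.Lib.Helper22ChevPar

set_option autoImplicit false
set_option maxRecDepth 100000

/-! PROJECT 100 (CHEV-AUT), piece C10 : in type `G₂` the two fundamental roots can be exchanged only in
characteristic 3. -/

namespace Cfsg.Agent.Lib.Helper38AutC10

open Cfsg Cfsg.Lie Cfsg.Lie.ChevalleyDatum
open Subgroup Cfsg.Agent.Lib.Helper23Grp Cfsg.Agent.Lib.Helper23RG Cfsg.Agent.Lib.Helper23RG.RG
  Cfsg.Agent.Lib.Helper23Weyl Cfsg.Agent.Lib.LeadAutDefs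
  Cfsg.Agent.Lib.Helper23Table Cfsg.Agent.Lib.Helper23Chev Cfsg.Agent.Lib.LeadAutConc
  Cfsg.Agent.Lib.Helper22ChevBasic
open scoped MatrixGroups Matrix

section abstract

variable {𝔾 K R I : Type*} [Group 𝔾] [Field K] {S : RG 𝔾 K R I}

theorem Acts.f_zero {θ : 𝔾 ≃* 𝔾} {ρ : Equiv.Perm I} {f : I → K → K} (hA : Acts S θ ρ f) (i : I) :
    f i 0 = 0 := by
  have h := hA.add i 0 0
  rw [add_zero] at h
  exact left_eq_add.mp h

theorem Acts.f_ne_zero {θ : 𝔾 ≃* 𝔾} {ρ : Equiv.Perm I} {f : I → K → K} (hA : Acts S θ ρ f) (i : I)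
    {t : K} (ht : t ≠ 0) : f i t ≠ 0 := by
  intro h
  apply ht
  apply (hA.bij i).1
  rw [h, Acts.f_zero hA]

theorem Acts.map_nn {θ : 𝔾 ≃* 𝔾} {ρ : Equiv.Perm I} {f : I → K → K} (hA : Acts S θ ρ f) (i : I) :
    θ (S.nn i) = S.nE (S.simple (ρ i)) (f i 1) := by
  unfold RG.nn RG.nE
  rw [map_mul, map_mul, hA.pos, hA.neg i 1 one_ne_zero]

theorem Mon_nE_simple (ok : S.Ok) (i : I) {t : K} (ht : t ≠ 0) :
    S.Mon (S.nE (S.simple i) t) (reflPerm ok i) := by
  have e : S.nE (S.simple i) t = S.hE (S.simple i) t * S.nn i := by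
    unfold RG.hE RG.nn
    rw [← nE_inv ok (S.simple i) 1]; group
  have h := (Mon_hE ok (S.simple i) t ht).mul (Mon_nn ok i)
  rw [one_mul] at h
  rw [e]
  exact h

/-- the image of the root subgroup of `s_j s_i (α_j)` -/
theorem Acts.map_refl_refl (ok : S.Ok) {θ : 𝔾 ≃* 𝔾} {ρ : Equiv.Perm I} {f : I → K → K}
    (hA : Acts S θ ρ f) (i j : I) :
    ∃ u d : K, u ≠ 0 ∧ d ≠ 0 ∧ θ (S.x (S.refl j (S.refl i (S.simple j))) u) =
      S.x (S.refl (ρ j) (S.refl (ρ i) (S.simple (ρ j)))) d := by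
  obtain ⟨-, c, hc0, -, hc⟩ := (Mon_nn ok j).mul (Mon_nn ok i)
  obtain ⟨-, c', hc0', -, hc'⟩ := (Mon_nE_simple ok (ρ j) (Acts.f_ne_zero hA j one_ne_zero)).mul
    (Mon_nE_simple ok (ρ i) (Acts.f_ne_zero hA i one_ne_zero))
  refine ⟨c (S.simple j) * 1, c' (S.simple (ρ j)) * f j 1, mul_ne_zero (hc0 _) one_ne_zero,
    mul_ne_zero (hc0' _) (Acts.f_ne_zero hA j one_ne_zero), ?_⟩
  have h1 := hc (S.simple j) 1
  have h2 := hc' (S.simple (ρ j)) (f j 1)
  rw [Equiv.Perm.mul_apply, reflPerm_apply, reflPerm_apply] at h1 h2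
  rw [← h1, ← h2, map_mul, map_mul, map_inv, map_mul, Acts.map_nn hA, Acts.map_nn hA, hA.pos]

end abstract

variable {F : Type*} [Field F]

theorem hG2 : Std chevG2 := by simp [Std]

theorem terms1 : chevG2.commTerms 6 11 = [] := by decide +kernel
theorem terms2 : chevG2.commTerms 7 9 = [(10, 3, 1, 1)] := by decide +kernel

theorem coe_SG_x' (hT : TableOK chevG2) (hR : Rel chevG2 F) (r : Fin chevG2.nroots) (t : F) :
    (((SG hT hR).x r t : ↥(chevG2.group F)) : GL chevG2.Idx F) = xG hG2 r t :=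
  Cfsg.Agent.Lib.Helper22ChevPar.xg_eq_xG hR hG2 r t

/-- C10 : in type G2 the two fundamental roots can be exchanged only in characteristic 3 -/
theorem g2_swap (hT : TableOK chevG2) (hR : Rel chevG2 F) (ok : (SG hT hR).Ok)
    (θ : ↥(chevG2.group F) ≃* ↥(chevG2.group F)) (ρ : Equiv.Perm (Fin chevG2.rank))
    (f : Fin chevG2.rank → F → F) (hA : Acts (SG hT hR) θ ρ f) (hρ : ρ ≠ 1) : (3 : F) = 0 := by
  let i0 : Fin chevG2.rank := ⟨0, by decide⟩
  let i1 : Fin chevG2.rank := ⟨1, by decide⟩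
  have hall : ∀ k : Fin chevG2.rank, k = i0 ∨ k = i1 := by
    intro k
    have hk : k.val < 2 := k.2
    rcases Nat.lt_succ_iff_lt_or_eq.mp hk with h | h
    · left; apply Fin.ext; show k.val = 0; omega
    · right; apply Fin.ext; show k.val = 1; omega
  have h01 : i0 ≠ i1 := by
    intro h
    have := congrArg Fin.val h
    exact absurd this (by decide)
  have hρ0 : ρ i0 = i1 := by
    rcases hall (ρ i0) with h | h
    · exfalso
      apply hρ
      have h1 : ρ i1 = i1 := by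
        rcases hall (ρ i1) with h' | h'
        · exact absurd (ρ.injective (h.trans h'.symm)) h01
        · exact h'
      ext k
      rcases hall k with rfl | rfl
      · rw [h]; rfl
      · rw [h1]; rfl
    · exact h
  have hρ1 : ρ i1 = i0 := by
    rcases hall (ρ i1) with h | h
    · exact h
    · exact absurd (ρ.injective (hρ0.trans h.symm)) h01
  obtain ⟨u, d, hu, hd, hθ⟩ := Acts.map_refl_refl ok hA i0 i1
  rw [hρ0, hρ1] at hθ
  set e := f i1 1 with he
  have he0 : e ≠ 0 := Acts.f_ne_zero hA i1 one_ne_zero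
  -- the roots
  have r1 : (SG hT hR).refl i1 ((SG hT hR).refl i0 ((SG hT hR).simple i1)) = ⟨11, by decide⟩ := by
    apply Fin.ext
    show chevG2.reflectRoot 1 (chevG2.reflectRoot 0 (chevG2.simple 1)) = 11
    decide +kernel
  have r2 : (SG hT hR).refl i0 ((SG hT hR).refl i1 ((SG hT hR).simple i0)) = ⟨9, by decide⟩ := by
    apply Fin.ext
    show chevG2.reflectRoot 0 (chevG2.reflectRoot 1 (chevG2.simple 0)) = 9
    decide +kernel
  have s0 : (SG hT hR).simple i0 = ⟨7, by decide⟩ := by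
    apply Fin.ext
    show chevG2.simple 0 = 7
    decide +kernel
  have s1 : (SG hT hR).simple i1 = ⟨6, by decide⟩ := by
    apply Fin.ext
    show chevG2.simple 1 = 6
    decide +kernel
  rw [r1, r2] at hθ
  -- `x_{3a+2b}` commutes with `x_b`
  have c1 : (SG hT hR).x (⟨6, by decide⟩) 1 * (SG hT hR).x ⟨11, by decide⟩ u =
      (SG hT hR).x ⟨11, by decide⟩ u * (SG hT hR).x (⟨6, by decide⟩) 1 := by
    apply Subtype.ext
    rw [Subgroup.coe_mul, Subgroup.coe_mul, coe_SG_x', coe_SG_x']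
    apply Cfsg.Agent.Lib.LeadChevCent.comm_of_terms hG2 (by decide) (by decide) (by decide) (by decide)
    intro c hc
    rw [terms1] at hc
    exact absurd hc (List.not_mem_nil)
  have c2 := congrArg θ c1
  have hpos := hA.pos i1 1
  rw [hρ1, s0, s1] at hpos
  rw [map_mul, map_mul, hθ, hpos] at c2
  have c3 := congrArg Subtype.val c2
  rw [Subgroup.coe_mul, Subgroup.coe_mul, coe_SG_x', coe_SG_x'] at c3
  have h4 := Cfsg.Agent.Lib.Helper22ChevPar.conj_eq (F := F) hG2 (r := 7) (s := 9) (by decide) (by decide)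
    (by decide) (by decide) e d
  have c3' : xG hG2 7 e * xG hG2 9 d = xG hG2 9 d * xG hG2 7 e := c3
  have h5 : xG hG2 7 e * xG hG2 9 d * (xG hG2 7 e)⁻¹ = xG hG2 9 d := by
    rw [c3', mul_inv_cancel_right]
  rw [h5] at h4
  have h6 : wordG hG2 (chevG2.commWord F 7 9 (-e) d) = 1 := (mul_eq_left.mp h4.symm)
  unfold ChevalleyDatum.commWord at h6
  rw [terms2] at h6
  simp only [List.map_cons, List.map_nil, wordG_cons, wordG_nil, mul_one, neg_neg, pow_one] at h6
  have h7 : (SG hT hR).x ⟨10, by decide⟩ (((3 : ℤ) : F) * e * d) = 1 := by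
    apply Subtype.ext
    rw [coe_SG_x']
    exact h6
  have h8 := ok.x_inj _ _ h7
  have h9 : ((3 : ℤ) : F) = 0 := by
    rcases mul_eq_zero.mp h8 with h | h
    · rcases mul_eq_zero.mp h with h | h
      · exact h
      · exact absurd h he0
    · exact absurd h hd
  exact_mod_cast h9

end Cfsg.Agent.Lib.Helper38AutC10
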