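import Cfsg.Agent.Lib.LeadAutConc
import Cfsg.Agent.Lib.Helper38AutC1
import Cfsg.Agent.Lib.LeadChevCent
import Cfsg.Agent.Lib.Helper46ChevFacts
import Cfsg.Agent.Lib.Helper22ChevInst
import Cfsg.Agent.S2326

set_option autoImplicit false

/-! PROJECT 100 (CHEV-AUT), piece C2 : the hypotheses `AData` for the Chevalley groups. -/

namespace Cfsg.Agent.Lib.Helper38AutC2

open Cfsg Cfsg.Lie Cfsg.Lie.ChevalleyDatum
open Subgroup Cfsg.Agent.Lib.Helper23Grp Cfsg.Agent.Lib.Helper23RG Cfsg.Agent.Lib.Helper23RG.RG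
  Cfsg.Agent.Lib.Helper23Weyl Cfsg.Agent.Lib.LeadAutDefs
  Cfsg.Agent.Lib.Helper23Table Cfsg.Agent.Lib.Helper23Chev Cfsg.Agent.Lib.LeadAutConc
  Cfsg.Agent.Lib.Helper38AutC1
open scoped MatrixGroups Matrix

variable {F : Type*} [Field F] {D : ChevalleyDatum}

set_option maxRecDepth 1000000 in
theorem cartan_self (hD : D ∈ [chevG2, chevB2, chevD4, chevF4, chevE6, chevE7, chevE8]) :
    ∀ i < D.rank, D.cartan i (D.simple i) = 2 := by
  simp only [List.mem_cons, List.not_mem_nil, or_false] at hD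
  rcases hD with rfl | rfl | rfl | rfl | rfl | rfl | rfl <;> decide

theorem SG_U_eq (hT : TableOK D) (hR : Rel D F) :
    (SG hT hR).U = (D.posUnipotent F).subgroupOf (D.group F) := by
  ext g
  rw [mem_subgroupOf, ← U_eq hT hR]
  exact mem_pull_U _ _ _ g

theorem adata [Finite F] (hD : D ∈ [chevG2, chevB2, chevD4, chevF4, chevE6, chevE7, chevE8])
    (hT : TableOK D) (hR : Rel D F) : AData (SG hT hR) where
  ok := pull_ok _ _ _ (rg_ok hT hR)
  hBV := fun g h1 h2 =>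
    Subtype.ext (hBV hT hR g.1 ((mem_pull_B _ _ _ g).1 h1) ((mem_pull_V _ _ _ g).1 h2))
  hUN := fun g h1 h2 =>
    Subtype.ext (hUN hT hR g.1 ((mem_pull_U _ _ _ g).1 h1) ((mem_pull_N _ _ _ g).1 h2))
  top := by
    rw [eq_top_iff]
    intro g _
    refine (mem_pull_G _ _ _ g).2 ?_
    rw [G_eq]
    exact g.2
  inj := fun i j h =>
    Fin.ext (Cfsg.Agent.Lib.Helper46ChevFacts.simple_inj hD i i.2 j j.2 (congrArg Fin.val h))
  A_self := fun i => cartan_self hD i i.2
  hW := by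
    obtain ⟨rf, pr, h⟩ := Cfsg.Agent.Lib.Helper22ChevInst.exists_hW hD hT hR
    exact ⟨rf, pr, pull_ws _ _ _ _ rf pr h⟩
  n0 := by
    obtain ⟨n0, hn, π0, hM, hp⟩ := Cfsg.Agent.Lib.Helper23All.hasN0 hD hT hR
    have hnG : n0 ∈ D.group F := by
      apply (Cfsg.Agent.Lib.Helper46ChevFacts.facts (F := F) hD).NG
      rw [← N_eq hT hR]
      exact hn
    exact ⟨⟨n0, hnG⟩, (mem_pull_N _ _ _ _).2 hn, π0, (pull_Mon _ _ _ _ _).2 hM, hp⟩
  ovr := by
    intro M hBM
    have hB : D.borelSubgroup F ≤ M.map (D.group F).subtype := by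
      intro x hx
      have hxG : x ∈ D.group F := (Cfsg.Agent.Lib.Helper46ChevFacts.facts (F := F) hD).BG hx
      refine ⟨⟨x, hxG⟩, hBM ((mem_pull_B _ _ _ _).2 ?_), rfl⟩
      rw [B_eq]
      exact hx
    have h0 := Cfsg.Agent.Lib.LeadChevCent.hover hD hT hR (M.map (D.group F).subtype) hB
      (map_subtype_le _)
    intro g hg
    have h1 := h0 ⟨g, hg, rfl⟩
    rw [← Subgroup.mem_map_iff_mem (D.group F).subtype_injective, Subgroup.map_sup,
      MonoidHom.map_closure]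
    have e1 : ((SG hT hR).B).map (D.group F).subtype = D.borelSubgroup F := by
      rw [← B_eq hT hR]
      exact map_pull_B _ _ _
    rw [e1]
    have e2 : (⇑(D.group F).subtype '' {g | ∃ i, g = (SG hT hR).nn i ∧ g ∈ M}) =
        {g | ∃ i : Fin D.rank, g = (rg hT hR).nn i ∧ g ∈ M.map (D.group F).subtype} := by
      ext y
      constructor
      · rintro ⟨_, ⟨i, rfl, hi⟩, rfl⟩
        exact ⟨i, rfl, ⟨_, hi, rfl⟩⟩
      · rintro ⟨i, rfl, ⟨z, hz, hzi⟩⟩
        have : z = (SG hT hR).nn i := Subtype.ext hzi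
        exact ⟨z, ⟨i, this, hz⟩, hzi⟩
    rw [e2]
    exact h1
  syl := by
    intro Q hQ
    have : Fintype F := Fintype.ofFinite F
    have hp : (ringChar F).Prime := CharP.char_is_prime F (ringChar F)
    have : Fact (ringChar F).Prime := ⟨hp⟩
    obtain ⟨P, hP⟩ := Cfsg.Agent.S2326.result (F := F) (ringChar F) D hD
    rw [← SG_U_eq hT hR] at hP
    have hQc : Nat.card Q = (ringChar F) ^ (Nat.card ↥(D.group F)).factorization (ringChar F) := by
      rw [hQ, ← hP]
      exact P.card_eq_multiplicity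
    obtain ⟨g, hg⟩ := MulAction.exists_smul_eq ↥(D.group F) P (Sylow.ofCard Q hQc)
    refine ⟨g, ?_⟩
    have h1 : ((g • P : Sylow (ringChar F) ↥(D.group F)) : Subgroup ↥(D.group F)) = Q := by
      rw [hg]; rfl
    rw [← h1, ← hP]
    rfl

end Cfsg.Agent.Lib.Helper38AutC2
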