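import Cfsg.Agent.Lib.LeadAutConc
import Cfsg.Agent.Lib.Helper22ChevInst

set_option autoImplicit false
set_option maxRecDepth 1000000

/-! PROJECT 100 (CHEV-AUT), piece C3 : the number of bonds is determined by the order of `s_i s_j`. -/

namespace Cfsg.Agent.Lib.Helper38AutC3

open Cfsg Cfsg.Lie Cfsg.Lie.ChevalleyDatum
open Subgroup Cfsg.Agent.Lib.Helper23Grp Cfsg.Agent.Lib.Helper23RG Cfsg.Agent.Lib.Helper23RG.RG
  Cfsg.Agent.Lib.Helper23Weyl Cfsg.Agent.Lib.LeadAutDefs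
  Cfsg.Agent.Lib.Helper23Table Cfsg.Agent.Lib.Helper23Chev Cfsg.Agent.Lib.LeadAutConc
  Cfsg.Agent.Lib.Helper23Fast Cfsg.Agent.Lib.Helper23Agr Cfsg.Agent.Lib.Helper22ChevEngine
open scoped MatrixGroups Matrix

/-! ### the boolean check on the packed tables -/

def st (P : FT) (i j r : ℕ) : ℕ := P.refl i (P.refl j r)
def it2 (P : FT) (i j r : ℕ) : ℕ := st P i j (st P i j r)
def it3 (P : FT) (i j r : ℕ) : ℕ := st P i j (it2 P i j r)
def it4 (P : FT) (i j r : ℕ) : ℕ := st P i j (it3 P i j r)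
def it6 (P : FT) (i j r : ℕ) : ℕ := st P i j (st P i j (it4 P i j r))

noncomputable def fix2 (P : FT) (i j : ℕ) : Bool := allLt P.n (fun r => Nat.beq (it2 P i j r) r)
noncomputable def fix3 (P : FT) (i j : ℕ) : Bool := allLt P.n (fun r => Nat.beq (it3 P i j r) r)
noncomputable def fix4 (P : FT) (i j : ℕ) : Bool := allLt P.n (fun r => Nat.beq (it4 P i j r) r)
noncomputable def fix6 (P : FT) (i j : ℕ) : Bool := allLt P.n (fun r => Nat.beq (it6 P i j r) r)
def mv2 (P : FT) (i j : ℕ) : Bool := !(Nat.beq (it2 P i j (P.simp j)) (P.simp j))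
def mv3 (P : FT) (i j : ℕ) : Bool := !(Nat.beq (it3 P i j (P.simp j)) (P.simp j))
def mv4 (P : FT) (i j : ℕ) : Bool := !(Nat.beq (it4 P i j (P.simp j)) (P.simp j))
def bd (P : FT) (i j k : ℕ) : Bool :=
  Nat.beq (Nat.add (Nat.mul (P.pr (P.simp j) (P.simp i)) (P.pr (P.simp i) (P.simp j))) 64)
    (Nat.add (Nat.add (Nat.mul 8 (P.pr (P.simp j) (P.simp i))) (Nat.mul 8 (P.pr (P.simp i) (P.simp j)))) k)

noncomputable def chkCox (P : FT) : Bool :=
  allLt P.l (fun i => allLt P.l (fun j => Nat.beq i j ||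
    (bd P i j 0 && fix2 P i j) ||
    (bd P i j 1 && fix3 P i j && mv2 P i j) ||
    (bd P i j 2 && fix4 P i j && mv2 P i j && mv3 P i j) ||
    (bd P i j 3 && fix6 P i j && mv2 P i j && mv3 P i j && mv4 P i j)))

theorem cG2 : chkCox Helper23FastG2.P = true := by decide +kernel
theorem cB2 : chkCox Helper23FastB2.P = true := by decide +kernel
theorem cD4 : chkCox Helper23FastD4.P = true := by decide +kernel
theorem cF4 : chkCox Helper23FastF4.P = true := by decide +kernel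
theorem cE6 : chkCox Helper23FastE6.P = true := by decide +kernel
theorem cE7 : chkCox Helper23FastE7.P = true := by decide +kernel
theorem cE8 : chkCox Helper23FastE8.P = true := by decide +kernel

/-! ### translation to the datum -/

/-- `s_i s_j` on root indices -/
def ff (D : ChevalleyDatum) (i j r : ℕ) : ℕ := D.reflectRoot i (D.reflectRoot j r)

/-- `(s_i s_j)^m = 1` on root indices -/
def PP (D : ChevalleyDatum) (i j m : ℕ) : Prop := ∀ r < D.nroots, (ff D i j)^[m] r = r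

def Cls (D : ChevalleyDatum) (i j : ℕ) : Prop :=
  (D.bonds i j = 0 ∧ PP D i j 2) ∨ (D.bonds i j = 1 ∧ PP D i j 3 ∧ ¬ PP D i j 2) ∨
  (D.bonds i j = 2 ∧ PP D i j 4 ∧ ¬ PP D i j 2 ∧ ¬ PP D i j 3) ∨
  (D.bonds i j = 3 ∧ PP D i j 6 ∧ ¬ PP D i j 2 ∧ ¬ PP D i j 3 ∧ ¬ PP D i j 4)

theorem iter_eq {D : ChevalleyDatum} {P : FT} (hv : P.Valid) (ha : Agr D P) {i j : ℕ} (hi : i < P.l)
    (hj : j < P.l) : ∀ (m r : ℕ), r < P.n → (ff D i j)^[m] r = (st P i j)^[m] r ∧ (st P i j)^[m] r < P.n := by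
  intro m
  induction m with
  | zero => intro r hr; exact ⟨rfl, hr⟩
  | succ m ih =>
    intro r hr
    have h1 : P.refl j r < P.n := hv.refl_lt j hj r hr
    have h2 : ff D i j r = st P i j r := by
      unfold ff st
      rw [ha.refl j hj r hr, ha.refl i hi _ h1]
    have h3 : st P i j r < P.n := hv.refl_lt i hi _ h1
    rw [Function.iterate_succ_apply, Function.iterate_succ_apply, h2]
    exact ih _ h3

theorem bonds_eq {D : ChevalleyDatum} {P : FT} (hv : P.Valid) (ha : Agr D P) {i j k : ℕ} (hi : i < P.l)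
    (hj : j < P.l) (h : bd P i j k = true) : D.bonds i j = k := by
  unfold bd at h
  rw [FT.beq_iff] at h
  unfold ChevalleyDatum.bonds
  rw [ha.simple i hi, ha.simple j hj, ha.cartan i hi _ (hv.simp_lt j hj), ha.cartan j hj _ (hv.simp_lt i hi)]
  have h' : (P.pr (P.simp j) (P.simp i)) * (P.pr (P.simp i) (P.simp j)) + 64 =
      8 * (P.pr (P.simp j) (P.simp i)) + 8 * (P.pr (P.simp i) (P.simp j)) + k := h
  have h'' : ((P.pr (P.simp j) (P.simp i) : ℕ) : ℤ) * (P.pr (P.simp i) (P.simp j) : ℕ) + 64 =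
      8 * (P.pr (P.simp j) (P.simp i) : ℕ) + 8 * (P.pr (P.simp i) (P.simp j) : ℕ) + k := by
    exact_mod_cast h'
  linear_combination h''

theorem PP_of {D : ChevalleyDatum} {P : FT} (hv : P.Valid) (ha : Agr D P) {i j : ℕ} (hi : i < P.l)
    (hj : j < P.l) (m : ℕ) (h : ∀ r < P.n, (st P i j)^[m] r = r) : PP D i j m := by
  intro r hr
  rw [ha.n_eq] at hr
  rw [(iter_eq hv ha hi hj m r hr).1, h r hr]

theorem not_PP_of {D : ChevalleyDatum} {P : FT} (hv : P.Valid) (ha : Agr D P) {i j : ℕ} (hi : i < P.l)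
    (hj : j < P.l) (m : ℕ) (h : (st P i j)^[m] (P.simp j) ≠ P.simp j) : ¬ PP D i j m := by
  intro hP
  have hr := hv.simp_lt j hj
  have h1 := hP (P.simp j) (by rw [ha.n_eq]; exact hr)
  rw [(iter_eq hv ha hi hj m _ hr).1] at h1
  exact h h1

theorem cls_of {D : ChevalleyDatum} {P : FT} (hv : P.Valid) (ha : Agr D P) (h : chkCox P = true) :
    ∀ i < D.rank, ∀ j < D.rank, i ≠ j → Cls D i j := by
  intro i hi j hj hij
  rw [ha.l_eq] at hi hj
  unfold chkCox at h
  rw [allLt_iff] at h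
  have h1 := h i hi
  rw [allLt_iff] at h1
  have h2 := h1 j hj
  simp only [Bool.or_eq_true, Bool.and_eq_true, FT.beq_iff] at h2
  have f2 : fix2 P i j = true → PP D i j 2 := by
    intro h
    unfold fix2 at h
    simp only [allLt_iff, FT.beq_iff] at h
    exact PP_of hv ha hi hj 2 h
  have f3 : fix3 P i j = true → PP D i j 3 := by
    intro h
    unfold fix3 at h
    simp only [allLt_iff, FT.beq_iff] at h
    exact PP_of hv ha hi hj 3 h
  have f4 : fix4 P i j = true → PP D i j 4 := by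
    intro h
    unfold fix4 at h
    simp only [allLt_iff, FT.beq_iff] at h
    exact PP_of hv ha hi hj 4 h
  have f6 : fix6 P i j = true → PP D i j 6 := by
    intro h
    unfold fix6 at h
    simp only [allLt_iff, FT.beq_iff] at h
    exact PP_of hv ha hi hj 6 h
  have m2 : mv2 P i j = true → ¬ PP D i j 2 := by
    intro h
    unfold mv2 at h
    simp only [Bool.not_eq_true', ← Bool.not_eq_true, FT.beq_iff] at h
    exact not_PP_of hv ha hi hj 2 h
  have m3 : mv3 P i j = true → ¬ PP D i j 3 := by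
    intro h
    unfold mv3 at h
    simp only [Bool.not_eq_true', ← Bool.not_eq_true, FT.beq_iff] at h
    exact not_PP_of hv ha hi hj 3 h
  have m4 : mv4 P i j = true → ¬ PP D i j 4 := by
    intro h
    unfold mv4 at h
    simp only [Bool.not_eq_true', ← Bool.not_eq_true, FT.beq_iff] at h
    exact not_PP_of hv ha hi hj 4 h
  rcases h2 with (((h2 | h2) | h2) | h2) | h2
  · exact absurd h2 hij
  · exact Or.inl ⟨by exact_mod_cast bonds_eq hv ha hi hj h2.1, f2 h2.2⟩
  · exact Or.inr (Or.inl ⟨by exact_mod_cast bonds_eq hv ha hi hj h2.1.1, f3 h2.1.2, m2 h2.2⟩)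
  · exact Or.inr (Or.inr (Or.inl ⟨by exact_mod_cast bonds_eq hv ha hi hj h2.1.1.1, f4 h2.1.1.2,
      m2 h2.1.2, m3 h2.2⟩))
  · exact Or.inr (Or.inr (Or.inr ⟨by exact_mod_cast bonds_eq hv ha hi hj h2.1.1.1.1, f6 h2.1.1.1.2,
      m2 h2.1.1.2, m3 h2.1.2, m4 h2.2⟩))

theorem cls {D : ChevalleyDatum} (hD : D ∈ [chevG2, chevB2, chevD4, chevF4, chevE6, chevE7, chevE8]) :
    ∀ i < D.rank, ∀ j < D.rank, i ≠ j → Cls D i j := by
  simp only [List.mem_cons, List.not_mem_nil, or_false] at hD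
  rcases hD with rfl | rfl | rfl | rfl | rfl | rfl | rfl
  · exact cls_of Helper23FastG2.valid Helper23AgrG2.agr cG2
  · exact cls_of Helper23FastB2.valid Helper23AgrB2.agr cB2
  · exact cls_of Helper23FastD4.valid Helper23AgrD4.agr cD4
  · exact cls_of Helper23FastF4.valid Helper23AgrF4.agr cF4
  · exact cls_of Helper23FastE6.valid Helper23AgrE6.agr cE6
  · exact cls_of Helper23FastE7.valid Helper23AgrE7.agr cE7
  · exact cls_of Helper23FastE8.valid Helper23AgrE8.agr cE8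

theorem bonds_eq_of_cls {D : ChevalleyDatum} {i j i' j' : ℕ} (h1 : Cls D i j) (h2 : Cls D i' j')
    (h : ∀ m, PP D i j m ↔ PP D i' j' m) : D.bonds i' j' = D.bonds i j := by
  have e2 := h 2
  have e3 := h 3
  have e4 := h 4
  rcases h1 with ⟨a, a2⟩ | ⟨a, a3, a2⟩ | ⟨a, a4, a2, a3⟩ | ⟨a, a6, a2, a3, a4⟩
  · rcases h2 with ⟨b, b2⟩ | ⟨b, b3, b2⟩ | ⟨b, b4, b2, b3⟩ | ⟨b, b6, b2, b3, b4⟩
    · rw [a, b]
    · exact absurd (e2.mp a2) b2
    · exact absurd (e2.mp a2) b2
    · exact absurd (e2.mp a2) b2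
  · rcases h2 with ⟨b, b2⟩ | ⟨b, b3, b2⟩ | ⟨b, b4, b2, b3⟩ | ⟨b, b6, b2, b3, b4⟩
    · exact absurd (e2.mpr b2) a2
    · rw [a, b]
    · exact absurd (e3.mp a3) b3
    · exact absurd (e3.mp a3) b3
  · rcases h2 with ⟨b, b2⟩ | ⟨b, b3, b2⟩ | ⟨b, b4, b2, b3⟩ | ⟨b, b6, b2, b3, b4⟩
    · exact absurd (e2.mpr b2) a2
    · exact absurd (e3.mpr b3) a3
    · rw [a, b]
    · exact absurd (e4.mp a4) b4
  · rcases h2 with ⟨b, b2⟩ | ⟨b, b3, b2⟩ | ⟨b, b4, b2, b3⟩ | ⟨b, b6, b2, b3, b4⟩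
    · exact absurd (e2.mpr b2) a2
    · exact absurd (e3.mpr b3) a3
    · exact absurd (e4.mpr b4) a4
    · rw [a, b]

variable {F : Type*} [Field F] {D : ChevalleyDatum}

theorem pow_eq_one_iff (hT : TableOK D) (hR : Rel D F) (ok : (SG hT hR).Ok) (i j : Fin D.rank) (m : ℕ) :
    (reflPerm ok i * reflPerm ok j) ^ m = 1 ↔ PP D i j m := by
  have key : ∀ (m : ℕ) (r : Fin D.nroots),
      (((reflPerm ok i * reflPerm ok j) ^ m) r : ℕ) = (ff D i j)^[m] r := by
    intro m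
    induction m with
    | zero => intro r; rfl
    | succ m ih =>
      intro r
      rw [pow_succ, Equiv.Perm.mul_apply, ih, Function.iterate_succ_apply]
      rfl
  constructor
  · intro h r hr
    have := key m ⟨r, hr⟩
    rw [h] at this
    exact this.symm
  · intro h
    ext r
    rw [key m r, h r r.2]
    rfl

/-- C3 : the number of bonds is determined by the order of `s_i s_j` -/
theorem bonds_of_cox (hD : D ∈ [chevG2, chevB2, chevD4, chevF4, chevE6, chevE7, chevE8])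
    (hT : TableOK D) (hR : Rel D F) (ok : (SG hT hR).Ok) (i j i' j' : Fin D.rank) (hij : i ≠ j) (hij' : i' ≠ j')
    (h : ∀ m : ℕ, (reflPerm ok i * reflPerm ok j) ^ m = 1 ↔ (reflPerm ok i' * reflPerm ok j') ^ m = 1) :
    D.bonds i' j' = D.bonds i j := by
  apply bonds_eq_of_cls (cls hD i i.2 j j.2 (fun e => hij (Fin.ext e)))
    (cls hD i' i'.2 j' j'.2 (fun e => hij' (Fin.ext e)))
  intro m
  rw [← pow_eq_one_iff hT hR ok, ← pow_eq_one_iff hT hR ok]
  exact h m

end Cfsg.Agent.Lib.Helper38AutC3
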