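import Mathlib
import Cfsg.Prelude.Def_GeometricClasses

set_option autoImplicit false

/-! PROJECT 94, row S5969: generic matrix lemmas (helper38). -/

namespace Cfsg.Agent.Lib.Helper38EluRow69a

open Cfsg Cfsg.Geo Matrix Polynomial
open scoped MatrixGroups

variable {F : Type*} [Field F]

theorem rank_pos_of_ne_zero {n : ℕ} {A : Matrix (Fin n) (Fin n) F} (h : A ≠ 0) : 0 < A.rank := by
  rw [Nat.pos_iff_ne_zero]
  intro h0
  apply h
  have h1 : LinearMap.range A.mulVecLin = ⊥ := Submodule.finrank_eq_zero.mp h0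
  rw [LinearMap.range_eq_bot] at h1
  have h2 : Matrix.toLin' A = 0 := h1
  have h3 := congrArg LinearMap.toMatrix' h2
  rwa [LinearMap.toMatrix'_toLin', map_zero] at h3

/-- rank of `x - l` is invariant under conjugation -/
theorem rank_conj {n : ℕ} (P x : Matrix.SpecialLinearGroup (Fin n) F) (l : F) :
    (((Matrix.SpecialLinearGroup.toGL (P⁻¹ * x * P) : GL (Fin n) F) : Matrix (Fin n) (Fin n) F)
      - l • (1 : Matrix (Fin n) (Fin n) F)).rank
      = ((x : Matrix (Fin n) (Fin n) F) - l • (1 : Matrix (Fin n) (Fin n) F)).rank := by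
  have h1 : ((Matrix.SpecialLinearGroup.toGL (P⁻¹ * x * P) : GL (Fin n) F) : Matrix (Fin n) (Fin n) F)
      = ((P⁻¹ : Matrix.SpecialLinearGroup (Fin n) F) : Matrix (Fin n) (Fin n) F) * x * P := by
    rw [Matrix.SpecialLinearGroup.coe_GL_coe_matrix, Matrix.SpecialLinearGroup.coe_mul,
      Matrix.SpecialLinearGroup.coe_mul]
  have h2 : ((P⁻¹ : Matrix.SpecialLinearGroup (Fin n) F) : Matrix (Fin n) (Fin n) F)
      * (P : Matrix (Fin n) (Fin n) F) = 1 := by
    rw [← Matrix.SpecialLinearGroup.coe_mul, inv_mul_cancel, Matrix.SpecialLinearGroup.coe_one]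
  have h3 : ((P⁻¹ : Matrix.SpecialLinearGroup (Fin n) F) : Matrix (Fin n) (Fin n) F) * x * P
      - l • (1 : Matrix (Fin n) (Fin n) F)
      = ((P⁻¹ : Matrix.SpecialLinearGroup (Fin n) F) : Matrix (Fin n) (Fin n) F)
        * ((x : Matrix (Fin n) (Fin n) F) - l • (1 : Matrix (Fin n) (Fin n) F)) * P := by
    rw [mul_sub, sub_mul, mul_smul_comm, mul_one, smul_mul_assoc, h2]
  rw [h1, h3, Matrix.rank_mul_eq_left_of_isUnit_det _ _ (by rw [P.2]; exact isUnit_one),
    Matrix.rank_mul_eq_right_of_isUnit_det _ _ (by rw [(P⁻¹).2]; exact isUnit_one)]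

theorem rank_single_eq_one {n : ℕ} (i j : Fin n) {c : F} (hc : c ≠ 0) :
    (Matrix.single i j c : Matrix (Fin n) (Fin n) F).rank = 1 := by
  apply le_antisymm
  · have h1 : (Matrix.single i j c : Matrix (Fin n) (Fin n) F)
        = Matrix.vecMulVec (Pi.single i c) (Pi.single j 1) := by
      ext a b
      simp only [Matrix.single_apply, Matrix.vecMulVec_apply, Pi.single_apply]
      by_cases h1 : i = a <;> by_cases h2 : j = b <;> simp [h1, h2, eq_comm]
    rw [h1]
    exact Matrix.rank_vecMulVec_le _ _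
  · apply rank_pos_of_ne_zero
    intro h
    have := congrFun (congrFun h i) j
    simp at this
    exact hc this

end Cfsg.Agent.Lib.Helper38EluRow69a
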