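import Mathlib
import Cfsg.Prelude.Def_GeometricClasses
import Cfsg.Agent.Lib.Helper96ExtMat
import Cfsg.Agent.Lib.Helper91EluCHARSQ

set_option autoImplicit false

/-! PROJECT 94, piece KDIAG2. -/

namespace Cfsg.Agent.Lib.Helper70EluKDIAG2

open Cfsg Cfsg.Geo Matrix Polynomial Module
open scoped MatrixGroups

/-- abstract version of `exists_diag2` -/
theorem diag2_abs {F K V : Type*} [Field F] [Field K] [Algebra F K] [AddCommGroup V] [Module F V]
    [Module K V] [IsScalarTower F K V] [FiniteDimensional F V] [FiniteDimensional F K]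
    (hK : finrank F K = 2) (w : F) (c d : ℕ) (hcd : 2 * c + 2 * d = finrank F V) :
    ∃ g : V →ₗ[F] V, (∀ (k : K) (v : V), g (k • v) = k • g v) ∧ (∀ v, g (g v) = (w * w) • v) ∧
      g.charpoly = (X - C w) ^ (2 * c) * (X + C w) ^ (2 * d) := by
  classical
  have : FiniteDimensional K V := FiniteDimensional.right F K V
  have hKV : finrank K V = c + d := by
    have := Module.finrank_mul_finrank F K V
    rw [hK] at this
    omega
  let β : Basis (Fin c ⊕ Fin d) K V := (finBasisOfFinrankEq K V hKV).reindex finSumFinEquiv.symm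
  let κ : Basis (Fin 2) F K := finBasisOfFinrankEq F K hK
  let B : Basis (Fin 2 × (Fin c ⊕ Fin d)) F V := κ.smulTower β
  let e : Fin c ⊕ Fin d → F := Sum.elim (fun _ => w) (fun _ => -w)
  let gK : V →ₗ[K] V := β.constr K (fun i => e i • β i)
  have hgβ : ∀ i, gK (β i) = e i • β i := fun i => by simp [gK]
  have hee : ∀ i, e i * e i = w * w := by
    rintro (i | i) <;> simp [e]
  refine ⟨gK.restrictScalars F, fun k v => map_smul gK k v, ?_, ?_⟩
  · intro v
    have h1 : gK ∘ₗ gK = (algebraMap F K (w * w)) • LinearMap.id := by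
      apply β.ext
      intro i
      simp only [LinearMap.comp_apply, hgβ, LinearMap.smul_apply, LinearMap.id_apply]
      rw [← algebraMap_smul K (e i) (β i), map_smul, hgβ, algebraMap_smul, smul_smul, hee,
        algebraMap_smul]
    have h2 := LinearMap.congr_fun h1 v
    simp only [LinearMap.comp_apply, LinearMap.smul_apply, LinearMap.id_apply, algebraMap_smul] at h2
    exact h2
  · have hB : ∀ x, (gK.restrictScalars F) (B x) = e x.2 • B x := by
      rintro ⟨j, i⟩
      simp only [B, Basis.smulTower_apply, LinearMap.restrictScalars_apply, map_smul, hgβ]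
      rw [smul_comm]
    have hmat : LinearMap.toMatrix B B (gK.restrictScalars F) = Matrix.diagonal (fun x => e x.2) := by
      ext x y
      rw [LinearMap.toMatrix_apply, hB, map_smul, Finsupp.smul_apply, Basis.repr_self,
        Matrix.diagonal_apply, Finsupp.single_apply]
      by_cases hxy : x = y
      · subst hxy; simp
      · simp [hxy, Ne.symm hxy]
    rw [← LinearMap.charpoly_toMatrix (gK.restrictScalars F) B, hmat, Matrix.charpoly_diagonal,
      Fintype.prod_prod_type]
    simp only [Fintype.prod_sum_type, e, Sum.elim_inl, Sum.elim_inr, Finset.prod_const,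
      Finset.card_univ, Fintype.card_fin, map_neg, sub_neg_eq_add]
    ring

/-- abstract version of the square root -/
theorem sqrt_abs {F K : Type*} [Field F] [Field K] [Algebra F K] [Fintype F] [Finite K]
    (hK : finrank F K = 2) (z : F) (hz : ¬ IsSquare z) : ∃ k : K, k * k = algebraMap F K z := by
  classical
  have : Fintype K := Fintype.ofFinite K
  have hz0 : z ≠ 0 := by
    rintro rfl
    exact hz IsSquare.zero
  have hF2 : ringChar F ≠ 2 := fun h => hz (FiniteField.isSquare_of_char_two h z)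
  have h2F : (2 : F) ≠ 0 := Ring.two_ne_zero hF2
  have hK2 : ringChar K ≠ 2 := by
    intro h
    have h1 : ((ringChar K : ℕ) : K) = 0 := ringChar.Nat.cast_ringChar
    rw [h] at h1
    apply h2F
    apply (algebraMap F K).injective
    rw [map_ofNat, map_zero]
    exact_mod_cast h1
  have hcard : Fintype.card K = Fintype.card F ^ 2 := by
    rw [← hK]
    exact Module.card_eq_pow_finrank
  have hodd : Fintype.card F % 2 = 1 := FiniteField.odd_card_of_char_ne_two hF2
  have ha0 : algebraMap F K z ≠ 0 := by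
    intro h
    exact hz0 ((map_eq_zero (algebraMap F K)).mp h)
  have hsq : IsSquare (algebraMap F K z) := by
    rw [FiniteField.isSquare_iff hK2 ha0, hcard]
    obtain ⟨t, ht⟩ : ∃ t, Fintype.card F = 2 * t + 1 := ⟨Fintype.card F / 2, by omega⟩
    have h3 : Fintype.card F ^ 2 / 2 = (Fintype.card F - 1) * (t + 1) := by
      rw [ht]
      have : (2 * t + 1) ^ 2 = 2 * ((2 * t + 1 - 1) * (t + 1)) + 1 := by
        simp only [Nat.add_sub_cancel]
        ring
      rw [this]
      omega
    rw [h3, pow_mul, ← map_pow, FiniteField.pow_card_sub_one_eq_one z hz0, map_one, one_pow]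
  obtain ⟨k, hk⟩ := hsq
  exact ⟨k, hk.symm⟩

theorem diag2_ring {F L V : Type*} [Field F] [Ring L] [iA : Algebra F L] [AddCommGroup V]
    [Module F V] [iM : Module L V] [iT : IsScalarTower F L V] [FiniteDimensional F V]
    [iFD : FiniteDimensional F L] (hL : IsField L)
    (hK : finrank F L = 2) (w : F) (c d : ℕ) (hcd : 2 * c + 2 * d = finrank F V) :
    ∃ g : V →ₗ[F] V, (∀ (k : L) (v : V), g (k • v) = k • g v) ∧ (∀ v, g (g v) = (w * w) • v) ∧
      g.charpoly = (X - C w) ^ (2 * c) * (X + C w) ^ (2 * d) :=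
  @diag2_abs F L V _ hL.toField iA _ _ iM iT _ iFD hK w c d hcd

theorem sqrt_ring {F L : Type*} [Field F] [Ring L] [iA : Algebra F L] [Fintype F] [Finite L]
    (hL : IsField L) (hK : finrank F L = 2) (z : F) (hz : ¬ IsSquare z) :
    ∃ k : L, k * k = algebraMap F L z :=
  @sqrt_abs F L _ hL.toField iA _ _ hK z hz

variable {F : Type*} [Field F] [Fintype F]

open Cfsg.Agent.Lib.Helper96ExtMat

/- piece KDIAG2 -/
theorem exists_diag2 {n : ℕ} {K : Subalgebra F (Matrix (Fin n) (Fin n) F)}
    (hK : IsFieldSubalgebra 2 K) (w : F) (hw : w ≠ 0) (c d : ℕ) (hcd : 2 * c + 2 * d = n) :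
    ∃ g ∈ subalgebraNormalizer K,
      (g : Matrix (Fin n) (Fin n) F).charpoly = (X - C w) ^ (2 * c) * (X + C w) ^ (2 * d) := by
  classical
  have : Nontrivial K := Module.nontrivial_of_finrank_pos (R := F) (by rw [hK.finrank_eq]; norm_num)
  have hL : IsField K := isField_of hK
  obtain ⟨g, hgK, hgg, hch⟩ := diag2_ring (F := F) (L := K) (V := Fin n → F) hL hK.finrank_eq w c d
    (by simp [hcd])
  set G : Matrix (Fin n) (Fin n) F := LinearMap.toMatrix' g with hG
  have hGv : ∀ v, G *ᵥ v = g v := fun v => LinearMap.toMatrix'_mulVec g v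
  have hGG : G * G = (w * w) • (1 : Matrix (Fin n) (Fin n) F) := by
    apply mat_ext'
    intro v
    rw [← Matrix.mulVec_mulVec, hGv, hGv, hgg, Matrix.smul_mulVec, Matrix.one_mulVec]
  have hww : w * w ≠ 0 := mul_ne_zero hw hw
  let u : GL (Fin n) F := ⟨G, (w * w)⁻¹ • G, by
    rw [Matrix.mul_smul, hGG, smul_smul, inv_mul_cancel₀ hww, one_smul], by
    rw [Matrix.smul_mul, hGG, smul_smul, inv_mul_cancel₀ hww, one_smul]⟩
  refine ⟨u, ?_, ?_⟩
  · rw [mem_normalizer_iff]
    intro k
    refine ⟨k, fun v => ?_⟩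
    change G *ᵥ ((k : Matrix (Fin n) (Fin n) F) *ᵥ v) = (k : Matrix (Fin n) (Fin n) F) *ᵥ (G *ᵥ v)
    rw [hGv, hGv]
    exact hgK k v
  · change G.charpoly = _
    rw [← hch, ← Matrix.charpoly_toLin', hG, Matrix.toLin'_toMatrix']

theorem exists_sqrt2 {n m : ℕ} (hn : n = 2 * m) {K : Subalgebra F (Matrix (Fin n) (Fin n) F)}
    (hK : IsFieldSubalgebra 2 K) (z : F) (hz : ¬ IsSquare z) :
    ∃ g ∈ subalgebraNormalizer K, (g : Matrix (Fin n) (Fin n) F).charpoly = (X ^ 2 - C z) ^ m := by
  classical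
  have : Nontrivial K := Module.nontrivial_of_finrank_pos (R := F) (by rw [hK.finrank_eq]; norm_num)
  have hL : IsField K := isField_of hK
  obtain ⟨k, hk⟩ := sqrt_ring (F := F) (L := K) hL hK.finrank_eq z hz
  have hz0 : z ≠ 0 := by
    rintro rfl
    exact hz IsSquare.zero
  have hkk : (k : Matrix (Fin n) (Fin n) F) * (k : Matrix (Fin n) (Fin n) F)
      = z • (1 : Matrix (Fin n) (Fin n) F) := by
    have := congrArg (Subtype.val) hk
    rw [Subalgebra.coe_mul, Subalgebra.coe_algebraMap, Algebra.algebraMap_eq_smul_one] at this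
    exact this
  let u : GL (Fin n) F := ⟨(k : Matrix (Fin n) (Fin n) F), z⁻¹ • (k : Matrix (Fin n) (Fin n) F), by
    rw [Matrix.mul_smul, hkk, smul_smul, inv_mul_cancel₀ hz0, one_smul], by
    rw [Matrix.smul_mul, hkk, smul_smul, inv_mul_cancel₀ hz0, one_smul]⟩
  refine ⟨u, ?_, ?_⟩
  · rw [mem_normalizer_iff]
    intro k₁
    refine ⟨k₁, fun v => ?_⟩
    change (k : Matrix (Fin n) (Fin n) F) *ᵥ ((k₁ : Matrix (Fin n) (Fin n) F) *ᵥ v)
      = (k₁ : Matrix (Fin n) (Fin n) F) *ᵥ ((k : Matrix (Fin n) (Fin n) F) *ᵥ v)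
    rw [Matrix.mulVec_mulVec, Matrix.mulVec_mulVec, hK.comm k k.2 k₁ k₁.2]
  · change (k : Matrix (Fin n) (Fin n) F).charpoly = _
    obtain ⟨m', hm', hch⟩ := Cfsg.Agent.Lib.Helper91EluCHARSQ.charpoly_of_sq_eq_nonsquare
      (k : Matrix (Fin n) (Fin n) F) z hz (by rw [sq, hkk])
    have : m' = m := by omega
    rw [hch, this]

end Cfsg.Agent.Lib.Helper70EluKDIAG2
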