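import Mathlib
import Cfsg.Prelude.Def_GeometricClasses
import Cfsg.Agent.Lib.Helper70EluKDIAG2

set_option autoImplicit false

/-! PROJECT 94, row S5969: the elements of KDIAG2 together with their squares
(the proofs are those of helper70, with one more conclusion recorded). -/

namespace Cfsg.Agent.Lib.Helper38EluRow69c

open Cfsg Cfsg.Geo Matrix Polynomial Module
open scoped MatrixGroups
open Cfsg.Agent.Lib.Helper96ExtMat Cfsg.Agent.Lib.Helper70EluKDIAG2

variable {F : Type*} [Field F] [Fintype F]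

theorem exists_diag2' {n : ℕ} {K : Subalgebra F (Matrix (Fin n) (Fin n) F)}
    (hK : IsFieldSubalgebra 2 K) (w : F) (hw : w ≠ 0) (c d : ℕ) (hcd : 2 * c + 2 * d = n) :
    ∃ g ∈ subalgebraNormalizer K,
      (g : Matrix (Fin n) (Fin n) F).charpoly = (X - C w) ^ (2 * c) * (X + C w) ^ (2 * d) ∧
      (g : Matrix (Fin n) (Fin n) F) ^ 2 = (w ^ 2) • (1 : Matrix (Fin n) (Fin n) F) := by
  classical
  have : Nontrivial K := Module.nontrivial_of_finrank_pos (R := F) (by rw [hK.finrank_eq]; norm_num)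
  have hL : IsField K := isField_of hK
  obtain ⟨g, hgK, hgg, hch⟩ := diag2_ring (F := F) (L := K) (V := Fin n → F) hL hK.finrank_eq w c d
    (by simp [hcd])
  set G : Matrix (Fin n) (Fin n) F := LinearMap.toMatrix' g with hG
  have hGv : ∀ v, G *ᵥ v = g v := fun v => LinearMap.toMatrix'_mulVec g v
  have hGG : G * G = (w * w) • (1 : Matrix (Fin n) (Fin n) F) := by
    apply mat_ext'
    intro v
    rw [← Matrix.mulVec_mulVec, hGv, hGv, hgg, Matrix.smul_mulVec, Matrix.one_mulVec]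
  have hww : w * w ≠ 0 := mul_ne_zero hw hw
  let u : GL (Fin n) F := ⟨G, (w * w)⁻¹ • G, by
    rw [Matrix.mul_smul, hGG, smul_smul, inv_mul_cancel₀ hww, one_smul], by
    rw [Matrix.smul_mul, hGG, smul_smul, inv_mul_cancel₀ hww, one_smul]⟩
  refine ⟨u, ?_, ?_, ?_⟩
  · rw [mem_normalizer_iff]
    intro k
    refine ⟨k, fun v => ?_⟩
    change G *ᵥ ((k : Matrix (Fin n) (Fin n) F) *ᵥ v) = (k : Matrix (Fin n) (Fin n) F) *ᵥ (G *ᵥ v)
    rw [hGv, hGv]
    exact hgK k v
  · change G.charpoly = _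
    rw [← hch, ← Matrix.charpoly_toLin', hG, Matrix.toLin'_toMatrix']
  · change G ^ 2 = _
    rw [sq, sq, hGG]

theorem exists_sqrt2' {n m : ℕ} (hn : n = 2 * m) {K : Subalgebra F (Matrix (Fin n) (Fin n) F)}
    (hK : IsFieldSubalgebra 2 K) (z : F) (hz : ¬ IsSquare z) :
    ∃ g ∈ subalgebraNormalizer K, (g : Matrix (Fin n) (Fin n) F).charpoly = (X ^ 2 - C z) ^ m ∧
      (g : Matrix (Fin n) (Fin n) F) ^ 2 = z • (1 : Matrix (Fin n) (Fin n) F) := by
  classical
  have : Nontrivial K := Module.nontrivial_of_finrank_pos (R := F) (by rw [hK.finrank_eq]; norm_num)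
  have hL : IsField K := isField_of hK
  obtain ⟨k, hk⟩ := sqrt_ring (F := F) (L := K) hL hK.finrank_eq z hz
  have hz0 : z ≠ 0 := by
    rintro rfl
    exact hz IsSquare.zero
  have hkk : (k : Matrix (Fin n) (Fin n) F) * (k : Matrix (Fin n) (Fin n) F)
      = z • (1 : Matrix (Fin n) (Fin n) F) := by
    have := congrArg (Subtype.val) hk
    rw [Subalgebra.coe_mul, Subalgebra.coe_algebraMap, Algebra.algebraMap_eq_smul_one] at this
    exact this
  let u : GL (Fin n) F := ⟨(k : Matrix (Fin n) (Fin n) F), z⁻¹ • (k : Matrix (Fin n) (Fin n) F), by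
    rw [Matrix.mul_smul, hkk, smul_smul, inv_mul_cancel₀ hz0, one_smul], by
    rw [Matrix.smul_mul, hkk, smul_smul, inv_mul_cancel₀ hz0, one_smul]⟩
  refine ⟨u, ?_, ?_, ?_⟩
  · rw [mem_normalizer_iff]
    intro k₁
    refine ⟨k₁, fun v => ?_⟩
    change (k : Matrix (Fin n) (Fin n) F) *ᵥ ((k₁ : Matrix (Fin n) (Fin n) F) *ᵥ v)
      = (k₁ : Matrix (Fin n) (Fin n) F) *ᵥ ((k : Matrix (Fin n) (Fin n) F) *ᵥ v)
    rw [Matrix.mulVec_mulVec, Matrix.mulVec_mulVec, hK.comm k k.2 k₁ k₁.2]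
  · change (k : Matrix (Fin n) (Fin n) F).charpoly = _
    obtain ⟨m', hm', hch⟩ := Cfsg.Agent.Lib.Helper91EluCHARSQ.charpoly_of_sq_eq_nonsquare
      (k : Matrix (Fin n) (Fin n) F) z hz (by rw [sq, hkk])
    have : m' = m := by omega
    rw [hch, this]
  · change (k : Matrix (Fin n) (Fin n) F) ^ 2 = _
    rw [sq, hkk]

end Cfsg.Agent.Lib.Helper38EluRow69c
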