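import Cfsg.Agent.Lib.Helper97OBase

set_option autoImplicit false
set_option linter.unusedSectionVars false

namespace Cfsg.Agent.Lib.Helper97OProper

open Cfsg Cfsg.Geo Matrix Cfsg.Agent.Lib.Helper97GBase Cfsg.Agent.Lib.Helper97GForms
  Cfsg.Agent.Lib.Helper95Quad Cfsg.Agent.Lib.Helper95Form Cfsg.Agent.Lib.Helper95Basic
  Cfsg.Agent.Lib.Helper97OBase
open scoped MatrixGroups

variable {ι : Type} [Fintype ι] [DecidableEq ι] {F : Type*} [Field F] {Q : (ι → F) → F}

/-- the orthogonal complement -/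
def orth (hQ : IsNondegenerateQuadraticForm Q) (W : Submodule F (ι → F)) : Submodule F (ι → F) :=
  (bil hQ).orthogonal W

lemma mem_orth {hQ : IsNondegenerateQuadraticForm Q} {W : Submodule F (ι → F)} {x : ι → F} :
    x ∈ orth hQ W ↔ ∀ w ∈ W, QuadraticMap.polar Q w x = 0 := Iff.rfl

lemma finrank_orth (hQ : IsNondegenerateQuadraticForm Q) (W : Submodule F (ι → F)) :
    Module.finrank F (orth hQ W) + Module.finrank F W = Fintype.card ι := by
  have h1 := LinearMap.BilinForm.finrank_orthogonal (bil_nondeg hQ) W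
  have h2 := Submodule.finrank_le W
  rw [Module.finrank_fintype_fun_eq_card] at h1 h2
  unfold orth
  omega

lemma orth_orth (hQ : IsNondegenerateQuadraticForm Q) (W : Submodule F (ι → F)) :
    orth hQ (orth hQ W) = W :=
  LinearMap.BilinForm.orthogonal_orthogonal (bil_nondeg hQ) (qf hQ).isRefl W

lemma Inv_orth (hQ : IsNondegenerateQuadraticForm Q) {H : Subgroup (GL ι F)}
    (hH : H ≤ isometryGroup F Q) {W : Submodule F (ι → F)} (hW : Inv H W) : Inv H (orth hQ W) := by
  intro g hg x hx w hw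
  show QuadraticMap.polar Q w _ = 0
  have h1 := polar_iso (hH hg) (((g⁻¹ : GL ι F) : Matrix ι ι F) *ᵥ w) x
  rw [Helper97GBase.mulVec_inv_mulVec] at h1
  rw [h1]
  exact hx _ (hW g⁻¹ (H.inv_mem hg) w hw)

lemma sup_orth_eq_top (hQ : IsNondegenerateQuadraticForm Q) {W : Submodule F (ι → F)}
    (hW : W ⊓ orth hQ W = ⊥) : W ⊔ orth hQ W = ⊤ := by
  apply Submodule.eq_top_of_finrank_eq
  have h1 := Submodule.finrank_sup_add_finrank_inf_eq W (orth hQ W)
  rw [hW, finrank_bot, add_zero] at h1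
  have h2 := finrank_orth hQ W
  rw [Module.finrank_fintype_fun_eq_card]
  omega

lemma nondegOn_of_inf_eq_bot (hQ : IsNondegenerateQuadraticForm Q) {W : Submodule F (ι → F)}
    (hW : W ⊓ orth hQ W = ⊥) : IsNondegenerateOn (QuadraticMap.polar Q) W := by
  intro w hw hw0
  have key : ∃ x ∈ W, QuadraticMap.polar Q x w ≠ 0 := by
    by_contra hcon
    push Not at hcon
    apply hw0
    have : w ∈ W ⊓ orth hQ W := ⟨hw, fun u hu => hcon u hu⟩
    rw [hW] at this
    exact this
  obtain ⟨x, hx, hxw⟩ := key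
  exact ⟨⟨x, hx, hxw⟩, ⟨x, hx, by rw [QuadraticMap.polar_comm]; exact hxw⟩⟩

lemma inf_orth_eq_bot_of_nondegOn (hQ : IsNondegenerateQuadraticForm Q) {W : Submodule F (ι → F)}
    (hW : IsNondegenerateOn (QuadraticMap.polar Q) W) : W ⊓ orth hQ W = ⊥ := by
  rw [eq_bot_iff]
  rintro w ⟨hw, hw'⟩
  by_contra hw0
  obtain ⟨x, hx, hxw⟩ := (hW w hw hw0).1
  exact hxw (hw' x hx)

/-- a non-degenerate non-zero subspace contains a non-singular vector -/
lemma exists_nonsingular (_hQ : IsNondegenerateQuadraticForm Q) {W : Submodule F (ι → F)} (h0 : W ≠ ⊥)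
    (hW : IsNondegenerateOn (QuadraticMap.polar Q) W) : ∃ a ∈ W, Q a ≠ 0 := by
  obtain ⟨w, hw, hw0⟩ := Submodule.exists_mem_ne_zero_of_ne_bot h0
  obtain ⟨x, hx, hxw⟩ := (hW w hw hw0).1
  by_contra hcon
  push Not at hcon
  apply hxw
  unfold QuadraticMap.polar
  rw [hcon _ (W.add_mem hx hw), hcon x hx, hcon w hw]
  ring

lemma finrank_fun : Module.finrank F (ι → F) = Fintype.card ι := Module.finrank_fintype_fun_eq_card F

/-- vectors of prescribed norm orthogonal to two given vectors -/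
lemma exists_perp_two [Finite F] (hQ : IsNondegenerateQuadraticForm Q) (hn : 7 ≤ Fintype.card ι)
    (a b : ι → F) (d : F) :
    ∃ y, QuadraticMap.polar Q y a = 0 ∧ QuadraticMap.polar Q y b = 0 ∧ Q y = d := by
  classical
  obtain ⟨y, hy, hd⟩ := (qf hQ).exists_perp (bil_nondeg hQ) {a, b} (by
    rw [finrank_fun]
    have := Finset.card_le_two (a := a) (b := b)
    omega) d
  exact ⟨y, hy a (by simp), hy b (by simp), hd⟩

lemma not_le_stab_singular [Finite F] (hQ : IsNondegenerateQuadraticForm Q) (h2 : (2 : F) ≠ 0)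
    (hn : 7 ≤ Fintype.card ι) {W : Submodule F (ι → F)} (h0 : W ≠ ⊥)
    (hW : IsTotallySingularQuad Q W) : ¬ omegaGL Q ≤ subspaceStabilizer W := by
  intro hle
  have hb := hQ.polar_bilinear
  obtain ⟨w, hw, hw0⟩ := Submodule.exists_mem_ne_zero_of_ne_bot h0
  obtain ⟨x, hx⟩ := (hQ.nondegenerate w hw0).1
  obtain ⟨u, hu, hwu⟩ : ∃ u, Q u ≠ 0 ∧ QuadraticMap.polar Q u w ≠ 0 := by
    by_cases hQx : Q x = 0
    · refine ⟨x + w, ?_, ?_⟩
      · have := (qf hQ).add x w
        rw [this, hQx, hW w hw, bil_apply]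
        simpa using hx
      · rw [hb.add_left, polar_self hQ, hW w hw]
        simpa using hx
    · exact ⟨x, hQx, hx⟩
  obtain ⟨v, hvw, hvu, hQv⟩ := exists_perp_two hQ hn w u (Q u)
  have hv : Q v ≠ 0 := by rw [hQv]; exact hu
  have hg := hle (rr_mem hQ h2 v u hv hu hQv)
  have h1 := (mem_subspaceStabilizer_iff.mp hg w).mp hw
  rw [mul_mulVec, rf_mulVec hQ u hu, Matrix.mulVec_sub, Matrix.mulVec_smul, rf_fix hQ v hv hvw,
    rf_fix hQ v hv hvu] at h1
  have h3 : ((Q u)⁻¹ * QuadraticMap.polar Q u w) • u ∈ W := by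
    have := W.sub_mem hw h1
    simpa using this
  have h4 : (Q u)⁻¹ * QuadraticMap.polar Q u w ≠ 0 := mul_ne_zero (inv_ne_zero hu) hwu
  have h5 : u ∈ W := by
    have := W.smul_mem ((Q u)⁻¹ * QuadraticMap.polar Q u w)⁻¹ h3
    rwa [smul_smul, inv_mul_cancel₀ h4, one_smul] at this
  exact hu (hW u h5)

lemma not_le_stab_nondeg [Finite F] (hQ : IsNondegenerateQuadraticForm Q) (h2 : (2 : F) ≠ 0)
    (hn : 7 ≤ Fintype.card ι) {W : Submodule F (ι → F)} (h0 : W ≠ ⊥) (h1 : W ≠ ⊤)
    (hW : IsNondegenerateOn (QuadraticMap.polar Q) W) : ¬ omegaGL Q ≤ subspaceStabilizer W := by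
  intro hle
  have hb := hQ.polar_bilinear
  have hinf := inf_orth_eq_bot_of_nondegOn hQ hW
  have hinf' : orth hQ W ⊓ orth hQ (orth hQ W) = ⊥ := by rw [orth_orth, inf_comm]; exact hinf
  have hO0 : orth hQ W ≠ ⊥ := by
    intro hbot
    have h3 := finrank_orth hQ W
    rw [hbot, finrank_bot, zero_add] at h3
    apply h1
    apply Submodule.eq_top_of_finrank_eq
    rw [h3, finrank_fun]
  obtain ⟨a, ha, hQa⟩ := exists_nonsingular hQ h0 hW
  obtain ⟨b, hbW, hQb⟩ := exists_nonsingular hQ hO0 (nondegOn_of_inf_eq_bot hQ hinf')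
  have hab : QuadraticMap.polar Q a b = 0 := hbW a ha
  have hba : QuadraticMap.polar Q b a = 0 := by rw [QuadraticMap.polar_comm]; exact hab
  have hbnot : b ∉ W := by
    intro hbin
    have : b ∈ W ⊓ orth hQ W := ⟨hbin, hbW⟩
    rw [hinf] at this
    have hb0 : b = 0 := this
    apply hQb
    rw [hb0]
    exact (qf hQ).zero
  have hQab : Q (a + b) = Q a + Q b := by
    have := (qf hQ).add a b
    rw [this, bil_apply, hab, add_zero]
  by_cases hsum : Q a + Q b = 0
  · obtain ⟨z, hza, hzb, hQz⟩ := exists_perp_two hQ hn a b 1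
    have hz : Q z ≠ 0 := by rw [hQz]; exact one_ne_zero
    have hzab : QuadraticMap.polar Q z (a + b) = 0 := by rw [hb.add_right, hza, hzb, add_zero]
    have hQz' : Q (z + (a + b)) = Q z := by
      have := (qf hQ).add z (a + b)
      rw [this, bil_apply, hzab, hQab, hsum]
      ring
    have hz' : Q (z + (a + b)) ≠ 0 := by rw [hQz']; exact hz
    have hg := hle (rr_mem hQ h2 z (z + (a + b)) hz hz' hQz'.symm)
    have h3 := (mem_subspaceStabilizer_iff.mp hg a).mp ha
    have e1 : QuadraticMap.polar Q (z + (a + b)) a = 2 * Q a := by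
      rw [hb.add_left, hb.add_left, hza, hba, polar_self hQ]
      ring
    have e2 : (rf hQ z hz : Matrix ι ι F) *ᵥ z = -z := by
      rw [rf_mulVec, polar_self hQ]
      have : (Q z)⁻¹ * (2 * Q z) = 2 := by field_simp
      rw [this]
      module
    rw [mul_mulVec, rf_mulVec hQ _ hz', Matrix.mulVec_sub, Matrix.mulVec_smul, Matrix.mulVec_add,
      Matrix.mulVec_add, rf_fix hQ z hz hza, rf_fix hQ z hz hzb, e2, e1, hQz'] at h3
    have hk : (Q z)⁻¹ * (2 * Q a) ≠ 0 := mul_ne_zero (inv_ne_zero hz) (mul_ne_zero h2 hQa)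
    have h4 : ((Q z)⁻¹ * (2 * Q a)) • (-z + (a + b)) ∈ W := by
      have := W.sub_mem ha h3
      simpa using this
    have h5 : -z + (a + b) ∈ W := by
      have := W.smul_mem ((Q z)⁻¹ * (2 * Q a))⁻¹ h4
      rwa [smul_smul, inv_mul_cancel₀ hk, one_smul] at this
    have h6 : QuadraticMap.polar Q (-z + (a + b)) b = 0 := hbW _ h5
    rw [hb.add_left, hb.add_left, hab, polar_self hQ] at h6
    have e3 : QuadraticMap.polar Q (-z) b = 0 := by
      have := hb.smul_left (-1) z b
      rw [hzb] at this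
      simpa using this
    rw [e3] at h6
    apply hQb
    have : 2 * Q b = 0 := by linear_combination h6
    exact (mul_eq_zero.mp this).resolve_left h2
  · have hu : Q (a + b) ≠ 0 := by rw [hQab]; exact hsum
    obtain ⟨v, hva, hvb, hQv⟩ := exists_perp_two hQ hn a b (Q (a + b))
    have hv : Q v ≠ 0 := by rw [hQv]; exact hu
    have hg := hle (rr_mem hQ h2 v (a + b) hv hu hQv)
    have h3 := (mem_subspaceStabilizer_iff.mp hg a).mp ha
    have e1 : QuadraticMap.polar Q (a + b) a = 2 * Q a := by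
      rw [hb.add_left, hba, polar_self hQ]
      ring
    rw [mul_mulVec, rf_mulVec hQ _ hu, Matrix.mulVec_sub, Matrix.mulVec_smul, Matrix.mulVec_add,
      rf_fix hQ v hv hva, rf_fix hQ v hv hvb, e1] at h3
    have hk : (Q (a + b))⁻¹ * (2 * Q a) ≠ 0 := mul_ne_zero (inv_ne_zero hu) (mul_ne_zero h2 hQa)
    have h4 : ((Q (a + b))⁻¹ * (2 * Q a)) • (a + b) ∈ W := by
      have := W.sub_mem ha h3
      simpa using this
    have h5 : a + b ∈ W := by
      have := W.smul_mem ((Q (a + b))⁻¹ * (2 * Q a))⁻¹ h4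
      rwa [smul_smul, inv_mul_cancel₀ hk, one_smul] at this
    apply hbnot
    have := W.sub_mem h5 ha
    simpa using this

end Cfsg.Agent.Lib.Helper97OProper
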