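import Cfsg.Agent.Lib.Helper58GD
import Cfsg.Agent.Lib.Helper97OProper

set_option autoImplicit false

/-! PROJECT 5 = ASCH-O, PART 3: pieces `kdim`, `kalt`, `saeven`. -/

namespace Cfsg.Agent.Lib.Helper94OKdim

open Cfsg Cfsg.Geo Matrix
open Cfsg.Agent.Lib.Helper97OBase Cfsg.Agent.Lib.Helper97OProper
open scoped MatrixGroups

variable {ι : Type} [Fintype ι] [DecidableEq ι] {F : Type*} [Field F]
variable {Q : (ι → F) → F}

/-- [kdim] the dimension of a `K`-invariant subspace is a multiple of the degree of `K`. -/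
theorem finrank_dvd_of_invariant [Finite F] {r : ℕ} (K : Subalgebra F (Matrix ι ι F))
    (hK : IsFieldSubalgebra r K) (W : Submodule F (ι → F)) (hW : ∀ k ∈ K, ∀ w ∈ W, k *ᵥ w ∈ W) :
    r ∣ Module.finrank F W := by
  classical
  rcases isEmpty_or_nonempty ι with hn | hn
  · have h1 := Submodule.finrank_le W
    rw [Module.finrank_fintype_fun_eq_card, Fintype.card_eq_zero] at h1
    rw [Nat.le_zero.1 h1]
    exact dvd_zero r
  have : Fintype F := Fintype.ofFinite F
  let f : K →+* Module.End F (ι → F) :=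
    (((Matrix.toLinAlgEquiv' : Matrix ι ι F ≃ₐ[F] _) : _ →ₐ[F] _).comp K.val).toRingHom
  let inst : Module K (ι → F) := Module.compHom (ι → F) f
  let W' : Submodule K (ι → F) :=
    { carrier := W
      add_mem' := fun ha hb => W.add_mem ha hb
      zero_mem' := W.zero_mem
      smul_mem' := fun k w hw => hW k k.2 w hw }
  have hF : IsField K := by
    refine ⟨exists_pair_ne K, fun a b => Subtype.ext (hK.comm a a.2 b b.2), ?_⟩
    intro a ha
    obtain ⟨y, hy, hxy⟩ := hK.inv a a.2 (fun h => ha (Subtype.ext h))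
    exact ⟨⟨y, hy⟩, Subtype.ext hxy⟩
  apply Helper58GD.dvd_of_isField_module (K := K) (V := W') hF (Fintype.card F) r (Module.finrank F W)
    Fintype.one_lt_card
  · rw [Module.natCard_eq_pow_finrank (K := F), Nat.card_eq_fintype_card, hK.finrank_eq]
  · have h1 : Nat.card W' = Nat.card W := rfl
    rw [h1, Module.natCard_eq_pow_finrank (K := F), Nat.card_eq_fintype_card]

/-- [kalt] characteristic 2, `K` self-adjoint: `polar Q (k v) v = 0`. -/
theorem selfAdjoint_alt [Fintype F] (h2 : (2 : F) = 0) (hQ : IsNondegenerateQuadraticForm Q) {r : ℕ}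
    (K : Subalgebra F (Matrix ι ι F)) (hK : IsFieldSubalgebra r K)
    (hsa : IsSelfAdjointFor (QuadraticMap.polar Q) K) :
    ∀ k ∈ K, ∀ v, QuadraticMap.polar Q (k *ᵥ v) v = 0 := by
  classical
  obtain ⟨f, hf⟩ : ∃ f, f = QuadraticMap.polar Q := ⟨_, rfl⟩
  rw [← hf] at hsa ⊢
  have hb : IsBilinearForm f := hf ▸ hQ.polar_bilinear
  have hsym : ∀ u v, f u v = f v u := by
    intro u v; rw [hf]; exact QuadraticMap.polar_comm Q u v
  have hself : ∀ v, f v v = 0 := by
    intro v
    have h1 : v + v = (2 : F) • v := (two_smul F v).symm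
    rw [hf, QuadraticMap.polar, h1, hQ.smul, h2]
    have h3 : Q v + Q v = 0 := by rw [← two_mul, h2, zero_mul]
    linear_combination -h3
  rcases isEmpty_or_nonempty ι with hn | hn
  · intro k _ v
    rw [Subsingleton.elim (k *ᵥ v) v]
    exact hself v
  have hxx : ∀ x : F, x + x = 0 := fun x => by rw [← two_mul, h2, zero_mul]
  let φ : (ι → F) → Module.Dual F K := fun v =>
    { toFun := fun k => f ((k : Matrix ι ι F) *ᵥ v) v
      map_add' := fun a b => by
        show f (((a : Matrix ι ι F) + (b : Matrix ι ι F)) *ᵥ v) v = _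
        rw [Matrix.add_mulVec, hb.add_left]
      map_smul' := fun c a => by
        show f ((c • (a : Matrix ι ι F)) *ᵥ v) v = _
        rw [Matrix.smul_mulVec, hb.smul_left]; rfl }
  have hφ : ∀ v (k : K), φ v k = f ((k : Matrix ι ι F) *ᵥ v) v := fun _ _ => rfl
  have hadd : ∀ u v, φ (u + v) = φ u + φ v := by
    intro u v
    ext k
    rw [LinearMap.add_apply, hφ, hφ, hφ, Matrix.mulVec_add, hb.add_left, hb.add_right, hb.add_right,
      hsa k k.2 v u, hsym v]
    linear_combination hxx (f ((k : Matrix ι ι F) *ᵥ u) v)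
  let Φ : (ι → F) →+ Module.Dual F K := AddMonoidHom.mk' φ hadd
  let A : Submodule F (Module.Dual F K) := (F ∙ (1 : K)).dualAnnihilator
  have hA : ∀ v, φ v ∈ A := by
    intro v
    rw [Submodule.mem_dualAnnihilator]
    intro w hw
    obtain ⟨c, rfl⟩ := Submodule.mem_span_singleton.1 hw
    rw [map_smul, hφ]
    show c • f ((1 : Matrix ι ι F) *ᵥ v) v = 0
    rw [Matrix.one_mulVec, hself, smul_zero]
  let R : Submodule F (ι → F) :=
    { carrier := {v | ∀ k ∈ K, f (k *ᵥ v) v = 0}
      add_mem' := by
        intro u v hu hv k hk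
        have h1 := hadd u v
        have h3 := congrArg (fun ψ => ψ ⟨k, hk⟩) h1
        simp only [LinearMap.add_apply, hφ] at h3
        rw [h3, hu k hk, hv k hk, add_zero]
      zero_mem' := by
        intro k _
        rw [Matrix.mulVec_zero]; exact hself 0
      smul_mem' := by
        intro c v hv k hk
        rw [Matrix.mulVec_smul, hb.smul_left, hb.smul_right, hv k hk, mul_zero, mul_zero] }
  have hRmem : ∀ v, v ∈ R ↔ ∀ k ∈ K, f (k *ᵥ v) v = 0 := fun _ => Iff.rfl
  have hRinv : ∀ k ∈ K, ∀ w ∈ R, k *ᵥ w ∈ R := by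
    intro a ha w hw k hk
    rw [← hsa a ha, Matrix.mulVec_mulVec, Matrix.mulVec_mulVec]
    exact hw _ (K.mul_mem (K.mul_mem ha hk) ha)
  have hd1 := finrank_dvd_of_invariant K hK R hRinv
  have hd2 := Helper58GD.field_dvd K hK
  have hq : 1 < Fintype.card F := Fintype.one_lt_card
  have hr : Module.finrank F A + 1 = r := by
    have h1 := Subspace.finrank_add_finrank_dualAnnihilator_eq (F ∙ (1 : K))
    rw [finrank_span_singleton (one_ne_zero), hK.finrank_eq] at h1
    show Module.finrank F (F ∙ (1 : K)).dualAnnihilator + 1 = r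
    omega
  have hker : Nat.card Φ.ker = Nat.card R := by
    apply Nat.card_congr
    apply Equiv.subtypeEquivRight
    intro v
    rw [AddMonoidHom.mem_ker, hRmem]
    constructor
    · intro h k hk
      have h3 := congrArg (fun ψ => ψ ⟨k, hk⟩) h
      exact h3
    · intro h
      show φ v = 0
      ext k
      exact h k k.2
  have hfinD : Finite (Module.Dual F K) := Module.finite_of_finite F
  have hrange : Nat.card Φ.range ≤ Nat.card A := by
    apply Nat.card_le_card_of_injective (fun x : Φ.range => (⟨x.1, by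
      obtain ⟨v, hv⟩ := x.2
      rw [← hv]; exact hA v⟩ : A))
    intro x y hxy
    exact Subtype.ext (congrArg (fun z : A => (z : Module.Dual F K)) hxy)
  have hcard := AddSubgroup.card_mul_index Φ.ker
  rw [AddSubgroup.index_ker, hker, Module.natCard_eq_pow_finrank (K := F) (V := R),
    Module.natCard_eq_pow_finrank (K := F) (V := ι → F), Module.finrank_fintype_fun_eq_card] at hcard
  rw [Module.natCard_eq_pow_finrank (K := F) (V := A)] at hrange
  have hle : Nat.card F ^ Fintype.card ι ≤ Nat.card F ^ (Module.finrank F R + Module.finrank F A) := by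
    rw [← hcard, pow_add]
    exact Nat.mul_le_mul_left _ hrange
  rw [Nat.card_eq_fintype_card] at hle
  have hle2 := (Nat.pow_le_pow_iff_right hq).1 hle
  have hle3 := Submodule.finrank_le R
  rw [Module.finrank_fintype_fun_eq_card] at hle3
  have heq : Module.finrank F R = Fintype.card ι := by
    obtain ⟨a, ha⟩ := hd1
    obtain ⟨b, hb'⟩ := hd2
    rw [ha, hb'] at hle2 hle3 ⊢
    have hab : b ≤ a := by
      by_contra hlt
      push Not at hlt
      have : r * (a + 1) ≤ r * b := Nat.mul_le_mul_left r hlt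
      rw [Nat.mul_add] at this
      omega
    have hba : r * b ≤ r * a := Nat.mul_le_mul_left r hab
    omega
  have htop : R = ⊤ := by
    apply Submodule.eq_top_of_finrank_eq
    rw [heq, Module.finrank_fintype_fun_eq_card]
  intro k hk v
  have hv : v ∈ R := htop ▸ Submodule.mem_top
  exact hv k hk

end Cfsg.Agent.Lib.Helper94OKdim
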