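import Mathlib
import Cfsg.Prelude.Def_GeometricClasses

set_option autoImplicit false

namespace Cfsg.Agent.Lib.Helper95EluKCASES

open Cfsg Cfsg.Geo Matrix Polynomial
open scoped MatrixGroups

variable {F : Type*} [Field F] [Fintype F]

/- piece KCASES -/
theorem normalizer_cases {n k : ℕ} (hk : k.Prime) {K : Subalgebra F (Matrix (Fin n) (Fin n) F)}
    (hK : IsFieldSubalgebra k K) (g : GL (Fin n) F) (hg : g ∈ subalgebraNormalizer K) :
    (∀ κ ∈ K, (g : Matrix (Fin n) (Fin n) F) * κ = κ * g) ∨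
    (∀ κ ∈ K, (g : Matrix (Fin n) (Fin n) F) * κ = κ * g →
      ∃ c : F, κ = c • (1 : Matrix (Fin n) (Fin n) F)) := by
  have hnt : Nontrivial K :=
    Module.nontrivial_of_finrank_pos (R := F) (by rw [hK.finrank_eq]; exact hk.pos)
  have hfield : IsField K := by
    refine ⟨exists_pair_ne K, fun a b => Subtype.ext (hK.comm a a.2 b b.2), ?_⟩
    intro a ha
    obtain ⟨y, hy, hxy⟩ := hK.inv a a.2 (fun h => ha (Subtype.ext h))
    exact ⟨⟨y, hy⟩, Subtype.ext hxy⟩
  have hdom : IsDomain K := hfield.isDomain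
  have hsimple := Subalgebra.isSimpleOrder_of_finrank_prime F K (by rw [hK.finrank_eq]; exact hk)
  have hmem : ∀ κ : K, κ ∈ (Subalgebra.centralizer F
      ({(g : Matrix (Fin n) (Fin n) F)} : Set (Matrix (Fin n) (Fin n) F))).comap K.val ↔
      (g : Matrix (Fin n) (Fin n) F) * κ = κ * g := by
    intro κ
    rw [Subalgebra.mem_comap, Subalgebra.mem_centralizer_iff]
    simp
  rcases hsimple.eq_bot_or_eq_top ((Subalgebra.centralizer F
      ({(g : Matrix (Fin n) (Fin n) F)} : Set (Matrix (Fin n) (Fin n) F))).comap K.val) with h | h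
  · right
    intro κ hκ hc
    have h1 := (hmem ⟨κ, hκ⟩).2 hc
    rw [h, Algebra.mem_bot] at h1
    obtain ⟨c, hc'⟩ := h1
    refine ⟨c, ?_⟩
    have h2 : ((algebraMap F K c : K) : Matrix (Fin n) (Fin n) F) = κ := congrArg Subtype.val hc'
    rw [← h2, Algebra.algebraMap_eq_smul_one]
    rfl
  · left
    intro κ hκ
    apply (hmem ⟨κ, hκ⟩).1
    rw [h]
    exact Algebra.mem_top

end Cfsg.Agent.Lib.Helper95EluKCASES
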