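import Mathlib
import Cfsg.Prelude.Def_GeometricClasses
import Cfsg.Agent.Lib.Helper95EluKCASES
import Cfsg.Agent.Lib.Helper57FieldTv
import Cfsg.Agent.Lib.Helper94OKdim

set_option autoImplicit false

/-! PROJECT 94, piece KRANK2. -/

namespace Cfsg.Agent.Lib.Helper6EluKRANK2

open Cfsg Cfsg.Geo Matrix Polynomial
open scoped MatrixGroups

variable {F : Type*} [Field F] [Fintype F]

/- piece KRANK2 -/
theorem rank_ne_one {n : ℕ} (hn : 4 ≤ n) {K : Subalgebra F (Matrix (Fin n) (Fin n) F)}
    (hK : IsFieldSubalgebra 2 K) (g : GL (Fin n) F) (hg : g ∈ subalgebraNormalizer K) (l : F) :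
    ((g : Matrix (Fin n) (Fin n) F) - l • (1 : Matrix (Fin n) (Fin n) F)).rank ≠ 1 := by
  intro hrank
  have hginv : ((g⁻¹ : GL (Fin n) F) : Matrix (Fin n) (Fin n) F) * (g : Matrix (Fin n) (Fin n) F) = 1 := by
    rw [← Units.val_mul, inv_mul_cancel]; rfl
  set A := (g : Matrix (Fin n) (Fin n) F) - l • (1 : Matrix (Fin n) (Fin n) F) with hA
  have hAx : ∀ x, A *ᵥ x = (g : Matrix (Fin n) (Fin n) F) *ᵥ x - l • x := by
    intro x
    rw [hA, Matrix.sub_mulVec, Matrix.smul_mulVec, Matrix.one_mulVec]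
  rcases Cfsg.Agent.Lib.Helper95EluKCASES.normalizer_cases Nat.prime_two hK g hg with hc | hB
  · have hdvd := Cfsg.Agent.Lib.Helper94OKdim.finrank_dvd_of_invariant K hK
      (LinearMap.range A.mulVecLin) (by
        rintro k hk _ ⟨x, rfl⟩
        refine ⟨k *ᵥ x, ?_⟩
        simp only [Matrix.mulVecLin_apply]
        rw [hAx, hAx, Matrix.mulVec_sub, Matrix.mulVec_smul, Matrix.mulVec_mulVec,
          Matrix.mulVec_mulVec, hc k hk])
    have : A.rank = Module.finrank F (LinearMap.range A.mulVecLin) := rfl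
    rw [← this, hrank] at hdvd
    omega
  · -- a non scalar element of `K`
    have hex : ∃ κ ∈ K, ∀ c : F, κ ≠ c • (1 : Matrix (Fin n) (Fin n) F) := by
      by_contra hcon
      push Not at hcon
      have h1 : Module.finrank F K ≤ 1 := by
        apply finrank_le_one (1 : K)
        intro w
        obtain ⟨c, hc⟩ := hcon w w.2
        exact ⟨c, Subtype.ext (by simpa using hc.symm)⟩
      rw [hK.finrank_eq] at h1
      omega
    obtain ⟨κ, hκ, hκns⟩ := hex
    have hκ0 : κ ≠ 0 := by
      intro h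
      exact hκns 0 (by rw [h, zero_smul])
    have hκinj : Function.Injective κ.mulVecLin := by
      rw [← LinearMap.ker_eq_bot, LinearMap.ker_eq_bot']
      intro x hx
      by_contra hx0
      exact hκ0 (Cfsg.Agent.Lib.Helper57FieldTv.eq_zero_of_mulVec hK hκ hx0 hx)
    set U := LinearMap.ker A.mulVecLin with hU
    have hUmem : ∀ x, x ∈ U ↔ (g : Matrix (Fin n) (Fin n) F) *ᵥ x = l • x := by
      intro x
      rw [hU, LinearMap.mem_ker, Matrix.mulVecLin_apply, hAx, sub_eq_zero]
    have hkey : ∀ x, x ∈ U → κ *ᵥ x ∈ U → x = 0 := by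
      intro x hx hκx
      rw [hUmem] at hx hκx
      by_contra hx0
      have hl : l ≠ 0 := by
        rintro rfl
        apply hx0
        rw [zero_smul] at hx
        have := congrArg (fun w => ((g⁻¹ : GL (Fin n) F) : Matrix (Fin n) (Fin n) F) *ᵥ w) hx
        simpa [Matrix.mulVec_mulVec, hginv] using this
      have hκ' := (hg κ).1 hκ
      set κ' := (g : Matrix (Fin n) (Fin n) F) * κ * ((g⁻¹ : GL (Fin n) F) : Matrix (Fin n) (Fin n) F)
        with hκ'def
      have h1 : κ' * (g : Matrix (Fin n) (Fin n) F) = (g : Matrix (Fin n) (Fin n) F) * κ := by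
        rw [hκ'def, mul_assoc, hginv, mul_one]
      have h2 : l • (κ' *ᵥ x) = l • (κ *ᵥ x) := by
        rw [← Matrix.mulVec_smul, ← hx, Matrix.mulVec_mulVec, h1, ← Matrix.mulVec_mulVec, hκx]
      have h3 : κ' *ᵥ x = κ *ᵥ x := smul_right_injective _ hl h2
      have h4 : κ' - κ = 0 := by
        apply Cfsg.Agent.Lib.Helper57FieldTv.eq_zero_of_mulVec hK (K.sub_mem hκ' hκ) hx0
        rw [Matrix.sub_mulVec, h3, sub_self]
      have h5 : κ' = κ := sub_eq_zero.1 h4
      obtain ⟨c, hc⟩ := hB κ hκ (by rw [← h1, h5])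
      exact hκns c hc
    have hdisj : U ⊓ U.map κ.mulVecLin = ⊥ := by
      rw [eq_bot_iff]
      rintro y ⟨hy, x, hx, rfl⟩
      have := hkey x hx hy
      rw [this]
      simp
    have hrn := LinearMap.finrank_range_add_finrank_ker A.mulVecLin
    have hr1 : Module.finrank F (LinearMap.range A.mulVecLin) = 1 := hrank
    rw [hr1, Module.finrank_fin_fun] at hrn
    have hmap : Module.finrank F (U.map κ.mulVecLin) = Module.finrank F U :=
      (LinearEquiv.finrank_eq (Submodule.equivMapOfInjective κ.mulVecLin hκinj U)).symm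
    have hsup := Submodule.finrank_sup_add_finrank_inf_eq U (U.map κ.mulVecLin)
    rw [hdisj, finrank_bot, hmap] at hsup
    have hle := Submodule.finrank_le (U ⊔ U.map κ.mulVecLin)
    rw [Module.finrank_fin_fun] at hle
    have hUU : Module.finrank F (LinearMap.ker A.mulVecLin) = Module.finrank F U := rfl
    omega

end Cfsg.Agent.Lib.Helper6EluKRANK2
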