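import Mathlib
import Cfsg.Prelude.Def_GeometricClasses

set_option autoImplicit false

/-! PROJECT 94, piece SQZERO. -/

namespace Cfsg.Agent.Lib.Helper70EluSQZERO

open Cfsg Cfsg.Geo Matrix Polynomial Module
open scoped MatrixGroups

/-- adapted basis of a square-zero endomorphism -/
theorem exists_adapted {F : Type*} [Field F] {V : Type*} [AddCommGroup V] [Module F V]
    [FiniteDimensional F V] (T : V →ₗ[F] V) (hT : ∀ v, T (T v) = 0) (s m : ℕ)
    (hs : finrank F (LinearMap.range T) = s) (hm : 2 * s + m = finrank F V) :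
    ∃ b : Basis (Fin s ⊕ (Fin s ⊕ Fin m)) F V,
      (∀ i, T (b (Sum.inl i)) = b (Sum.inr (Sum.inl i))) ∧ (∀ x, T (b (Sum.inr x)) = 0) := by
  set K := LinearMap.ker T with hK
  set R := LinearMap.range T with hR
  have hRK : R ≤ K := by
    rintro _ ⟨v, rfl⟩
    exact LinearMap.mem_ker.mpr (hT v)
  obtain ⟨C, hC⟩ := Submodule.exists_isCompl K
  obtain ⟨D', hD'⟩ := Submodule.exists_isCompl R
  set D := D' ⊓ K with hD
  have hRDinf : R ⊓ D = ⊥ := by
    rw [hD, ← inf_assoc, hD'.inf_eq_bot, bot_inf_eq]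
  have hRDsup : R ⊔ D = K := by
    rw [hD, ← sup_inf_assoc_of_le D' hRK, hD'.sup_eq_top, top_inf_eq]
  have hrn : finrank F R + finrank F K = finrank F V := LinearMap.finrank_range_add_finrank_ker T
  have hCs : finrank F C = s := by
    have := Submodule.finrank_add_eq_of_isCompl hC
    omega
  have hDm : finrank F D = m := by
    have := Submodule.finrank_sup_add_finrank_inf_eq R D
    rw [hRDsup, hRDinf, finrank_bot] at this
    omega
  let Φ : (C × (C × D)) →ₗ[F] V :=
    LinearMap.coprod C.subtype (LinearMap.coprod (T ∘ₗ C.subtype) D.subtype)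
  have hΦ : ∀ x : C × (C × D), Φ x = (x.1 : V) + (T (x.2.1 : V) + (x.2.2 : V)) := fun x => rfl
  have hCK : ∀ c : C, T (c : V) = 0 → c = 0 := by
    intro c hc
    have : (c : V) ∈ K ⊓ C := ⟨LinearMap.mem_ker.mpr hc, c.2⟩
    rw [hC.inf_eq_bot, Submodule.mem_bot] at this
    exact Subtype.ext this
  have hinj : Function.Injective Φ := by
    rw [← LinearMap.ker_eq_bot, LinearMap.ker_eq_bot']
    rintro ⟨c, c2, d⟩ hx
    rw [hΦ] at hx
    simp only at hx
    have hdK : T (d : V) = 0 := LinearMap.mem_ker.mp d.2.2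
    have h1 : T (c : V) = 0 := by
      have := congrArg T hx
      rw [map_add, map_add, hT, hdK, map_zero, add_zero, add_zero] at this
      exact this
    have hc0 := hCK c h1
    rw [hc0, Submodule.coe_zero, zero_add] at hx
    have h2 : T (c2 : V) ∈ R ⊓ D := by
      refine ⟨⟨_, rfl⟩, ?_⟩
      have : T (c2 : V) = -(d : V) := eq_neg_of_add_eq_zero_left hx
      rw [this]
      exact D.neg_mem d.2
    rw [hRDinf, Submodule.mem_bot] at h2
    have hc20 := hCK c2 h2
    rw [h2, zero_add] at hx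
    have hd0 : d = 0 := Subtype.ext hx
    rw [hc0, hc20, hd0]
    rfl
  have hdim : finrank F (C × (C × D)) = finrank F V := by
    rw [finrank_prod, finrank_prod, hCs, hDm]
    omega
  let Φe : (C × (C × D)) ≃ₗ[F] V := LinearEquiv.ofInjectiveOfFinrankEq Φ hinj hdim
  have hΦe : ∀ x, Φe x = Φ x := fun x => rfl
  let bC : Basis (Fin s) F C := finBasisOfFinrankEq F C hCs
  let bD : Basis (Fin m) F D := finBasisOfFinrankEq F D hDm
  refine ⟨(bC.prod (bC.prod bD)).map Φe, ?_, ?_⟩
  · intro i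
    simp only [Basis.map_apply, Basis.prod_apply, Sum.elim_inl, Sum.elim_inr, Function.comp_apply,
      hΦe, hΦ, LinearMap.inl_apply, LinearMap.inr_apply]
    simp
  · rintro (i | j)
    · simp only [Basis.map_apply, Basis.prod_apply, Sum.elim_inl, Sum.elim_inr, Function.comp_apply,
        hΦe, hΦ, LinearMap.inl_apply, LinearMap.inr_apply]
      simp [hT]
    · simp only [Basis.map_apply, Basis.prod_apply, Sum.elim_inr, Function.comp_apply,
        hΦe, hΦ, LinearMap.inr_apply]
      have : T ((bD j : D) : V) = 0 := LinearMap.mem_ker.mp (bD j).2.2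
      simp [this]

variable {F : Type*} [Field F] [Fintype F]

/- piece SQZERO -/
theorem exists_SL_conj_of_sq_zero [CharP F 2] {n : ℕ} (N N' : Matrix (Fin n) (Fin n) F)
    (h : N * N = 0) (h' : N' * N' = 0) (hr : N.rank = N'.rank) :
    ∃ P : Matrix.SpecialLinearGroup (Fin n) F,
      ((P⁻¹ : Matrix.SpecialLinearGroup (Fin n) F) : Matrix (Fin n) (Fin n) F) * (1 + N) *
        (P : Matrix (Fin n) (Fin n) F) = 1 + N' := by
  classical
  rcases Nat.eq_zero_or_pos n with rfl | hn
  · exact ⟨1, Subsingleton.elim _ _⟩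
  set T := Matrix.toLin' N with hTdef
  set T' := Matrix.toLin' N' with hTdef'
  have hT : ∀ v, T (T v) = 0 := by
    intro v
    rw [hTdef, ← LinearMap.comp_apply, ← Matrix.toLin'_mul, h]
    simp
  have hT' : ∀ v, T' (T' v) = 0 := by
    intro v
    rw [hTdef', ← LinearMap.comp_apply, ← Matrix.toLin'_mul, h']
    simp
  set s := N.rank with hsdef
  have hs : finrank F (LinearMap.range T) = s := rfl
  have hs' : finrank F (LinearMap.range T') = s := hr.symm
  have hV : finrank F (Fin n → F) = n := by simp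
  have h2s : 2 * s ≤ n := by
    have h1 := LinearMap.finrank_range_add_finrank_ker T
    have h2 : LinearMap.range T ≤ LinearMap.ker T := by
      rintro _ ⟨v, rfl⟩
      exact LinearMap.mem_ker.mpr (hT v)
    have h3 := Submodule.finrank_mono h2
    omega
  obtain ⟨m, hm⟩ : ∃ m, 2 * s + m = n := ⟨n - 2 * s, by omega⟩
  obtain ⟨b, hb1, hb2⟩ := exists_adapted T hT s m hs (by rw [hV]; exact hm)
  obtain ⟨b', hb1', hb2'⟩ := exists_adapted T' hT' s m hs' (by rw [hV]; exact hm)
  let φ : (Fin n → F) ≃ₗ[F] (Fin n → F) := b'.equiv b (Equiv.refl _)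
  have hφb : ∀ x, φ (b' x) = b x := fun x => by simp [φ]
  have hφ : T ∘ₗ φ.toLinearMap = φ.toLinearMap ∘ₗ T' := by
    apply b'.ext
    rintro (i | x)
    · simp only [LinearMap.comp_apply, LinearEquiv.coe_coe, hφb, hb1, hb1']
    · simp only [LinearMap.comp_apply, LinearEquiv.coe_coe, hφb, hb2, hb2', map_zero]
  have hdetφ : LinearMap.det φ.toLinearMap ≠ 0 := (LinearEquiv.isUnit_det' φ).ne_zero
  obtain ⟨d, hd1, hd2⟩ : ∃ d : Fin s ⊕ (Fin s ⊕ Fin m) → F,
      (∀ i, d (Sum.inl i) = d (Sum.inr (Sum.inl i))) ∧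
      (∏ x, d x) * LinearMap.det φ.toLinearMap = 1 := by
    rcases Nat.eq_zero_or_pos m with hm0 | hm0
    · have hs0 : 0 < s := by omega
      obtain ⟨c, hc⟩ := FiniteField.isSquare_of_char_two (F := F)
        ((ringChar.eq_iff).mpr inferInstance) (LinearMap.det φ.toLinearMap)⁻¹
      refine ⟨Sum.elim (fun i => if i = ⟨0, hs0⟩ then c else 1)
        (Sum.elim (fun i => if i = ⟨0, hs0⟩ then c else 1) (fun _ => 1)), fun i => rfl, ?_⟩
      rw [Fintype.prod_sum_type, Fintype.prod_sum_type]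
      simp only [Sum.elim_inl, Sum.elim_inr, Finset.prod_ite_eq', Finset.mem_univ, if_true,
        Finset.prod_const_one, mul_one]
      rw [← hc]
      exact inv_mul_cancel₀ hdetφ
    · refine ⟨Sum.elim (fun _ => 1) (Sum.elim (fun _ => 1)
        (fun j => if j = ⟨0, hm0⟩ then (LinearMap.det φ.toLinearMap)⁻¹ else 1)), fun i => rfl, ?_⟩
      rw [Fintype.prod_sum_type, Fintype.prod_sum_type]
      simp only [Sum.elim_inl, Sum.elim_inr, Finset.prod_ite_eq', Finset.mem_univ, if_true,
        Finset.prod_const_one, one_mul]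
      exact inv_mul_cancel₀ hdetφ
  let z : (Fin n → F) →ₗ[F] (Fin n → F) := Matrix.toLin b b (Matrix.diagonal d)
  have hzb : ∀ x, z (b x) = d x • b x := by
    intro x
    simp only [z, Matrix.toLin_self, Matrix.diagonal_apply]
    rw [Finset.sum_eq_single x]
    · simp
    · intro y _ hy
      simp [hy]
    · intro hx
      exact absurd (Finset.mem_univ x) hx
  have hz : T ∘ₗ z = z ∘ₗ T := by
    apply b.ext
    rintro (i | x)
    · simp only [LinearMap.comp_apply, hzb, map_smul, hb1, hd1]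
    · simp only [LinearMap.comp_apply, hzb, map_smul, hb2, map_zero, smul_zero]
  have hdetz : LinearMap.det z = ∏ x, d x := by
    simp only [z]
    rw [LinearMap.det_toLin, Matrix.det_diagonal]
  let P : Matrix (Fin n) (Fin n) F := LinearMap.toMatrix' (z ∘ₗ φ.toLinearMap)
  have hP : P.det = 1 := by
    simp only [P]
    rw [LinearMap.det_toMatrix', LinearMap.det_comp, hdetz, hd2]
  have hNP : N * P = P * N' := by
    apply (Matrix.toLin' (R := F)).injective
    rw [Matrix.toLin'_mul, Matrix.toLin'_mul]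
    simp only [P, Matrix.toLin'_toMatrix']
    change T ∘ₗ (z ∘ₗ φ.toLinearMap) = (z ∘ₗ φ.toLinearMap) ∘ₗ T'
    rw [← LinearMap.comp_assoc, hz, LinearMap.comp_assoc, hφ, LinearMap.comp_assoc]
  obtain ⟨Q, hQ⟩ : ∃ Q : Matrix.SpecialLinearGroup (Fin n) F, (Q : Matrix (Fin n) (Fin n) F) = P :=
    ⟨⟨P, hP⟩, rfl⟩
  refine ⟨Q, ?_⟩
  have hinv : ((Q⁻¹ : Matrix.SpecialLinearGroup (Fin n) F) : Matrix (Fin n) (Fin n) F) * P = 1 := by
    rw [← hQ, ← Matrix.SpecialLinearGroup.coe_mul, inv_mul_cancel, Matrix.SpecialLinearGroup.coe_one]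
  rw [hQ, mul_assoc, add_mul, one_mul, hNP, mul_add, ← mul_assoc, hinv, one_mul]

end Cfsg.Agent.Lib.Helper70EluSQZERO
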