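import Mathlib
import Cfsg.Prelude.Def_GeometricClasses
import Cfsg.Agent.Lib.Helper96ExtMat

set_option autoImplicit false

namespace Cfsg.Agent.Lib.Helper95EluKFROB

open Polynomial Module

section abs
variable {F L : Type*} [Field F] [Fintype F] [Field L] [Algebra F L] [Finite L]

/-- the twisted Frobenius `x ↦ κ x^q` -/
noncomputable def tw (F : Type*) {L : Type*} [Field F] [Fintype F] [Field L] [Algebra F L] (κ : L) :
    Module.End F L :=
  LinearMap.mulLeft F κ ∘ₗ (FiniteField.frobeniusAlgHom F L).toLinearMap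

omit [Finite L] in
lemma tw_apply (κ x : L) : tw F κ x = κ * x ^ Fintype.card F := rfl

omit [Finite L] in
lemma tw_pow_apply (κ x : L) (j : ℕ) :
    (tw F κ ^ j) x = κ ^ (∑ i ∈ Finset.range j, Fintype.card F ^ i) * x ^ (Fintype.card F ^ j) := by
  induction j with
  | zero => simp
  | succ j ih =>
    rw [pow_succ', Module.End.mul_apply, ih, tw_apply, mul_pow, ← pow_mul, ← pow_mul, ← mul_assoc,
      ← pow_succ', ← pow_succ]
    congr 2
    rw [Finset.sum_range_succ', Finset.sum_mul]
    simp [pow_succ]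

lemma tw_li (κ : L) (hκ : κ ≠ 0) :
    LinearIndependent F fun i : Fin (finrank F L) ↦ tw F κ ^ i.val := by
  have h1 : LinearIndependent L (fun j : Fin (finrank F L) =>
      ((FiniteField.frobeniusAlgHom F L) ^ (j : ℕ)).toLinearMap) :=
    (linearIndependent_algHom_toLinearMap F L L).comp _ (FiniteField.bijective_frobeniusAlgHom_pow F L).1
  have h2 := h1.units_smul (fun j => Units.mk0 (κ ^ (∑ i ∈ Finset.range (j : ℕ), Fintype.card F ^ i))
    (pow_ne_zero _ hκ))
  have h3 := h2.restrict_scalars' F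
  convert h3 using 1
  funext j
  ext x
  rw [tw_pow_apply]
  simp [Units.smul_def, AlgHom.coe_pow, FiniteField.coe_frobeniusAlgHom, pow_iterate]

lemma tw_minpoly (κ : L) (a : F) (ha : a ≠ 0) (hκ : Algebra.norm F κ = a) :
    minpoly F (tw F κ) = X ^ (finrank F L) - C a := by
  have hn : 0 < finrank F L := Module.finrank_pos
  have hκ0 : κ ≠ 0 := by
    rintro rfl
    rw [Algebra.norm_zero] at hκ
    exact ha hκ.symm
  refine minpoly.eq_of_linearIndependent _ _ (monic_X_pow_sub_C a hn.ne') ?_ _
    (degree_X_pow_sub_C hn a) (tw_li κ hκ0)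
  have := Fintype.ofFinite L
  ext x
  simp only [map_sub, map_pow, aeval_X, aeval_C, LinearMap.sub_apply, LinearMap.zero_apply,
    Module.algebraMap_end_apply]
  rw [tw_pow_apply, ← Module.card_eq_pow_finrank, FiniteField.pow_card, ← Nat.card_eq_fintype_card,
    ← FiniteField.algebraMap_norm_eq_pow_sum, hκ, Algebra.smul_def, sub_self]

end abs

theorem abs_frob {F L V : Type*} [Field F] [Fintype F] [Field L] [Algebra F L] [Finite L]
    [AddCommGroup V] [Module F V] [Module L V] [IsScalarTower F L V]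
    (hdim : finrank F V = finrank F L) (a : F) (ha : a ≠ 0) :
    ∃ g : Module.End F V, (∀ (κ : L) (v : V), g (κ • v) = (κ ^ Fintype.card F) • g v) ∧
      minpoly F g = X ^ (finrank F L) - C a := by
  have hn : 0 < finrank F L := Module.finrank_pos
  have : FiniteDimensional F V := FiniteDimensional.of_finrank_pos (by omega)
  have : Nontrivial V := Module.nontrivial_of_finrank_pos (R := F) (by omega)
  obtain ⟨v0, hv0⟩ := exists_ne (0 : V)
  obtain ⟨κ0, hκ0⟩ := FiniteField.norm_surjective F L a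
  have hinj : Function.Injective ((LinearMap.toSpanSingleton L V v0).restrictScalars F) := by
    intro x y hxy
    exact smul_left_injective L hv0 hxy
  let ε : L ≃ₗ[F] V := LinearMap.linearEquivOfInjective _ hinj hdim.symm
  have hε : ∀ x : L, ε x = x • v0 := fun x => rfl
  refine ⟨ε.conjAlgEquiv F (tw F κ0), ?_, ?_⟩
  · intro κ v
    obtain ⟨y, rfl⟩ := ε.surjective v
    have h1 : κ • ε y = ε (κ * y) := by rw [hε, hε, mul_smul]
    rw [h1]
    simp only [LinearEquiv.conjAlgEquiv_apply, LinearMap.comp_apply, LinearEquiv.coe_coe,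
      LinearEquiv.symm_apply_apply]
    rw [tw_apply, tw_apply, hε, hε, ← mul_smul, mul_pow]
    congr 1
    ring
  · rw [minpoly.algEquiv_eq, tw_minpoly κ0 a ha hκ0]

theorem abs_frob_ring {F L V : Type*} [Field F] [Fintype F] [Ring L] [iA : Algebra F L] [Finite L]
    [AddCommGroup V] [Module F V] [iM : Module L V] [iT : IsScalarTower F L V] (hL : IsField L)
    (hdim : finrank F V = finrank F L) (a : F) (ha : a ≠ 0) :
    ∃ g : Module.End F V, (∀ (κ : L) (v : V), g (κ • v) = (κ ^ Fintype.card F) • g v) ∧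
      minpoly F g = X ^ (finrank F L) - C a :=
  @abs_frob F L V _ _ hL.toField iA _ _ _ iM iT hdim a ha

open Cfsg Cfsg.Geo Matrix
open scoped MatrixGroups

variable {F : Type*} [Field F] [Fintype F]

/- piece KFROB -/
theorem exists_frob {n : ℕ} (hn : 0 < n) {K : Subalgebra F (Matrix (Fin n) (Fin n) F)}
    (hK : IsFieldSubalgebra n K) (a : F) (ha : a ≠ 0) :
    ∃ g ∈ subalgebraNormalizer K, (g : Matrix (Fin n) (Fin n) F).charpoly = X ^ n - C a ∧
      minpoly F (g : Matrix (Fin n) (Fin n) F) = X ^ n - C a := by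
  classical
  have : Nontrivial K := Module.nontrivial_of_finrank_pos (R := F) (by rw [hK.finrank_eq]; exact hn)
  have hL := Cfsg.Agent.Lib.Helper96ExtMat.isField_of hK
  obtain ⟨T, hT, hmin⟩ := abs_frob_ring (F := F) (L := K) (V := Fin n → F) hL
    (by rw [Module.finrank_fin_fun, hK.finrank_eq]) a ha
  rw [hK.finrank_eq] at hmin
  obtain ⟨M, hM⟩ : ∃ M : Matrix (Fin n) (Fin n) F, Matrix.toLin' M = T :=
    ⟨LinearMap.toMatrix' T, Matrix.toLin'_toMatrix' T⟩
  have hminM : minpoly F M = X ^ n - C a := by rw [← Matrix.minpoly_toLin', hM, hmin]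
  have hpow : M ^ n = algebraMap F _ a := by
    have h1 := minpoly.aeval F M
    rw [hminM] at h1
    simpa [sub_eq_zero] using h1
  have hunit : IsUnit M := by
    rw [← isUnit_pow_iff hn.ne', hpow]
    exact (IsUnit.mk0 a ha).map _
  obtain ⟨g, hg⟩ := hunit
  refine ⟨g, ?_, ?_, ?_⟩
  · rw [Cfsg.Agent.Lib.Helper96ExtMat.mem_normalizer_iff]
    intro k
    refine ⟨k ^ Fintype.card F, fun v => ?_⟩
    have h1 := hT k v
    rw [← hM] at h1
    rw [hg]
    exact h1
  · rw [hg]
    have hmon : (X ^ n - C a : F[X]).Monic := monic_X_pow_sub_C a hn.ne'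
    apply Polynomial.eq_of_monic_of_dvd_of_natDegree_le hmon (Matrix.charpoly_monic M)
    · rw [← hminM]; exact Matrix.minpoly_dvd_charpoly M
    · rw [Matrix.charpoly_natDegree_eq_dim, natDegree_X_pow_sub_C, Fintype.card_fin]
  · rw [hg]; exact hminM

end Cfsg.Agent.Lib.Helper95EluKFROB
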