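import Mathlib
import Cfsg.Prelude.Def_GeometricClasses
import Cfsg.Agent.Lib.Helper38EluRow69a
import Cfsg.Agent.Lib.Helper38EluSEMI
import Cfsg.Agent.Lib.Helper38EluSLCONJ
import Cfsg.Agent.Lib.Helper38EluNEGONE
import Cfsg.Agent.Lib.Helper91EluCHARSQ
import Cfsg.Agent.Lib.Helper95EluKFROB
import Cfsg.Agent.Lib.Helper70EluSQZERO
import Cfsg.Agent.Lib.Helper6EluKRANK2
import Cfsg.Agent.Lib.Helper38EluRow69c

set_option autoImplicit false

/-! PROJECT 94, row S5969: the two directions (helper38). -/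

namespace Cfsg.Agent.Lib.Helper38EluRow69b

open Cfsg Cfsg.Geo Matrix Polynomial
open scoped MatrixGroups
open Cfsg.Agent.Lib.Helper38EluRow69a Cfsg.Agent.Lib.Helper38EluSEMI
open Cfsg.Agent.Lib.Helper38EluSLCONJ Cfsg.Agent.Lib.Helper38EluNEGONE
open Cfsg.Agent.Lib.Helper6EluKRANK2 (rank_ne_one)
open Cfsg.Agent.Lib.Helper91EluCHARSQ (charpoly_of_sq_eq_sq charpoly_of_sq_eq_nonsquare)
open Cfsg.Agent.Lib.Helper38EluRow69c (exists_diag2' exists_sqrt2')
open Cfsg.Agent.Lib.Helper95EluKFROB (exists_frob)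
open Cfsg.Agent.Lib.Helper70EluSQZERO (exists_SL_conj_of_sq_zero)

variable {F : Type*} [Field F] [Fintype F]

theorem forward {n : ℕ} (hn4 : 4 ≤ n) {K : Subalgebra F (Matrix (Fin n) (Fin n) F)}
    (hK : IsFieldSubalgebra 2 K)
    (hall : ∀ x : Matrix.SpecialLinearGroup (Fin n) F,
      (∃ z : F, ((x ^ 2 : Matrix.SpecialLinearGroup (Fin n) F) : Matrix (Fin n) (Fin n) F) = z • (1 : Matrix (Fin n) (Fin n) F)) →
      (∀ z : F, (x : Matrix (Fin n) (Fin n) F) ≠ z • (1 : Matrix (Fin n) (Fin n) F)) →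
      ∃ P : Matrix.SpecialLinearGroup (Fin n) F, P⁻¹ * x * P ∈ ((Cfsg.Geo.subalgebraNormalizer K).comap (Matrix.SpecialLinearGroup.toGL : Matrix.SpecialLinearGroup (Fin n) F →* GL (Fin n) F))) :
    Odd (Fintype.card F) ∧ padicValNat 2 (Fintype.card F - 1) ≤ padicValNat 2 n := by
  have key : ∀ x : Matrix.SpecialLinearGroup (Fin n) F,
      (∃ z : F, ((x ^ 2 : Matrix.SpecialLinearGroup (Fin n) F) : Matrix (Fin n) (Fin n) F) = z • (1 : Matrix (Fin n) (Fin n) F)) →
      (∀ z : F, (x : Matrix (Fin n) (Fin n) F) ≠ z • (1 : Matrix (Fin n) (Fin n) F)) →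
      ∀ l : F, ((x : Matrix (Fin n) (Fin n) F) - l • (1 : Matrix (Fin n) (Fin n) F)).rank ≠ 1 := by
    intro x h1 h2 l hr
    obtain ⟨P, hP⟩ := hall x h1 h2
    exact rank_ne_one hn4 hK _ hP l (by rw [rank_conj]; exact hr)
  obtain ⟨i0, i1, h01⟩ : ∃ i0 i1 : Fin n, i0 ≠ i1 :=
    ⟨⟨0, by omega⟩, ⟨1, by omega⟩, by simp [Fin.ext_iff]⟩
  have hodd : Odd (Fintype.card F) := by
    by_contra hne
    have hch : ringChar F = 2 := by
      rw [FiniteField.even_card_iff_char_two]
      exact Nat.even_iff.mp (Nat.not_odd_iff_even.mp hne)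
    have : CharP F 2 := ringChar.of_eq hch
    obtain ⟨x, hx⟩ : ∃ x : Matrix.SpecialLinearGroup (Fin n) F,
        (x : Matrix (Fin n) (Fin n) F) = Matrix.transvection i0 i1 1 :=
      ⟨⟨_, Matrix.det_transvection_of_ne _ _ h01 1⟩, rfl⟩
    apply key x ⟨1, ?_⟩ ?_ 1
    · rw [hx, one_smul, Matrix.transvection, add_sub_cancel_left]
      exact rank_single_eq_one _ _ one_ne_zero
    · rw [Matrix.SpecialLinearGroup.coe_pow, hx, sq, Matrix.transvection_mul_transvection_same _ _ h01,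
        CharTwo.add_self_eq_zero, Matrix.transvection_zero, one_smul]
    · intro z hz
      rw [hx] at hz
      have := congrFun (congrFun hz i0) i1
      simp [Matrix.transvection, h01] at this
  refine ⟨hodd, ?_⟩
  by_contra hv
  push Not at hv
  have hch := ringChar_ne_two hodd
  have h2 : (2 : F) ≠ 0 := Ring.two_ne_zero hch
  obtain ⟨w, hw⟩ := exists_pow_eq_neg_one (F := F) (n := n) (by omega) hodd hv
  have hw0 : w ≠ 0 := by
    rintro rfl
    rw [zero_pow (by omega)] at hw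
    exact (neg_ne_zero.mpr one_ne_zero) hw.symm
  have hdet : (Matrix.diagonal (fun i : Fin n => w * (if i = i0 then (-1 : F) else 1))).det = 1 := by
    rw [Matrix.det_diagonal, Finset.prod_mul_distrib, Finset.prod_const, Finset.prod_ite_eq']
    simp [hw]
  obtain ⟨x, hx⟩ : ∃ x : Matrix.SpecialLinearGroup (Fin n) F,
      (x : Matrix (Fin n) (Fin n) F) = Matrix.diagonal (fun i : Fin n => w * (if i = i0 then (-1 : F) else 1)) :=
    ⟨⟨_, hdet⟩, rfl⟩
  apply key x ⟨w ^ 2, ?_⟩ ?_ w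
  · have h1 : (x : Matrix (Fin n) (Fin n) F) - w • (1 : Matrix (Fin n) (Fin n) F)
        = Matrix.single i0 i0 (-(2 * w)) := by
      rw [hx]
      ext a b
      by_cases hab : a = b
      · subst hab
        by_cases ha : a = i0
        · subst ha
          simp
          ring
        · simp [ha, Matrix.single_apply, Ne.symm ha]
      · simp [hab, Matrix.single_apply]
        intro h1 h2
        exact absurd (h1.symm.trans h2) hab
    rw [h1]
    exact rank_single_eq_one _ _ (neg_ne_zero.mpr (mul_ne_zero h2 hw0))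
  · rw [Matrix.SpecialLinearGroup.coe_pow, hx, Matrix.diagonal_pow]
    ext a b
    by_cases hab : a = b
    · subst hab
      by_cases ha : a = i0 <;> simp [ha]
    · simp [hab]
  · intro z hz
    rw [hx] at hz
    have e0 := congrFun (congrFun hz i0) i0
    have e1 := congrFun (congrFun hz i1) i1
    simp [h01.symm] at e0 e1
    have : 2 * w = 0 := by linear_combination e1 - e0
    exact (mul_ne_zero h2 hw0) this

theorem mem_of_conj {n : ℕ} {K : Subalgebra F (Matrix (Fin n) (Fin n) F)}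
    {x P : Matrix.SpecialLinearGroup (Fin n) F} {g : GL (Fin n) F} (hg : g ∈ subalgebraNormalizer K)
    (h : (Matrix.SpecialLinearGroup.toGL : Matrix.SpecialLinearGroup (Fin n) F →* GL (Fin n) F)
        (P⁻¹ * x * P) = g) :
    P⁻¹ * x * P ∈ ((Cfsg.Geo.subalgebraNormalizer K).comap (Matrix.SpecialLinearGroup.toGL : Matrix.SpecialLinearGroup (Fin n) F →* GL (Fin n) F)) := by
  rw [Subgroup.mem_comap, h]
  exact hg

theorem backward_odd {n : ℕ} (hn0 : n ≠ 0) (h2n : 2 ∣ n) {K : Subalgebra F (Matrix (Fin n) (Fin n) F)}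
    (hK : IsFieldSubalgebra 2 K) (hodd : Odd (Fintype.card F))
    (hv : padicValNat 2 (Fintype.card F - 1) ≤ padicValNat 2 n)
    (x : Matrix.SpecialLinearGroup (Fin n) F) (z : F)
    (hz : ((x ^ 2 : Matrix.SpecialLinearGroup (Fin n) F) : Matrix (Fin n) (Fin n) F) = z • (1 : Matrix (Fin n) (Fin n) F)) :
    ∃ P : Matrix.SpecialLinearGroup (Fin n) F, P⁻¹ * x * P ∈ ((Cfsg.Geo.subalgebraNormalizer K).comap (Matrix.SpecialLinearGroup.toGL : Matrix.SpecialLinearGroup (Fin n) F →* GL (Fin n) F)) := by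
  have hch := ringChar_ne_two hodd
  have h2 : (2 : F) ≠ 0 := Ring.two_ne_zero hch
  have h2' : ((2 : ℕ) : F) ≠ 0 := by exact_mod_cast h2
  have hx2 : (x : Matrix (Fin n) (Fin n) F) ^ 2 = z • (1 : Matrix (Fin n) (Fin n) F) := by
    rw [← Matrix.SpecialLinearGroup.coe_pow]
    exact hz
  have hz0 : z ≠ 0 := by
    rintro rfl
    have h1 := (x ^ 2).2
    have : Nonempty (Fin n) := ⟨⟨0, Nat.pos_of_ne_zero hn0⟩⟩
    rw [hz, zero_smul, Matrix.det_zero] at h1
    exact zero_ne_one h1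
  have hxs := semisimple_of_pow_eq_smul 2 h2' (x : Matrix (Fin n) (Fin n) F) z hz0 hx2
  by_cases hsq : IsSquare z
  · obtain ⟨w, rfl⟩ := hsq
    have hw : w ≠ 0 := fun h => hz0 (by rw [h, mul_zero])
    rw [← sq] at hx2
    obtain ⟨c, d, hcd, hchp, hdet, -⟩ := charpoly_of_sq_eq_sq h2 (x : Matrix (Fin n) (Fin n) F) w hw hx2
    rw [x.2] at hdet
    have hd : Even d := even_of_pow_mul_neg_one hn0 hodd hv w hdet.symm
    have hc : Even c := by
      have hn : Even n := (even_iff_two_dvd).mpr h2n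
      rw [← hcd] at hn
      exact (Nat.even_add.mp hn).mpr hd
    obtain ⟨d', rfl⟩ := hd
    obtain ⟨c', rfl⟩ := hc
    obtain ⟨g, hgN, hgch, hg2⟩ := exists_diag2' hK w hw c' d' (by omega)
    have hgs := semisimple_of_pow_eq_smul 2 h2' (g : Matrix (Fin n) (Fin n) F) (w ^ 2)
      (pow_ne_zero 2 hw) hg2
    obtain ⟨P, hP⟩ := exists_SL_conj x g hxs hgs (by rw [hchp, hgch, two_mul, two_mul])
    exact ⟨P, mem_of_conj hgN hP⟩
  · obtain ⟨m, hm, hchp⟩ := charpoly_of_sq_eq_nonsquare (x : Matrix (Fin n) (Fin n) F) z hsq hx2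
    obtain ⟨g, hgN, hgch, hg2⟩ := exists_sqrt2' hm hK z hsq
    have hgs := semisimple_of_pow_eq_smul 2 h2' (g : Matrix (Fin n) (Fin n) F) z hz0 hg2
    obtain ⟨P, hP⟩ := exists_SL_conj x g hxs hgs (by rw [hchp, hgch])
    exact ⟨P, mem_of_conj hgN hP⟩

theorem rank_eq_one_of_sq_zero {A : Matrix (Fin 2) (Fin 2) F} (h : A * A = 0) (h0 : A ≠ 0) :
    A.rank = 1 := by
  have h1 := Matrix.rank_add_rank_le_card_of_mul_eq_zero h
  have h2 := rank_pos_of_ne_zero h0
  rw [Fintype.card_fin] at h1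
  omega

theorem backward_two {K : Subalgebra F (Matrix (Fin 2) (Fin 2) F)}
    (hK : IsFieldSubalgebra 2 K) (x : Matrix.SpecialLinearGroup (Fin 2) F) (z : F)
    (hz : ((x ^ 2 : Matrix.SpecialLinearGroup (Fin 2) F) : Matrix (Fin 2) (Fin 2) F) = z • (1 : Matrix (Fin 2) (Fin 2) F))
    (hns : ∀ z : F, (x : Matrix (Fin 2) (Fin 2) F) ≠ z • (1 : Matrix (Fin 2) (Fin 2) F)) :
    ∃ P : Matrix.SpecialLinearGroup (Fin 2) F, P⁻¹ * x * P ∈ ((Cfsg.Geo.subalgebraNormalizer K).comap (Matrix.SpecialLinearGroup.toGL : Matrix.SpecialLinearGroup (Fin 2) F →* GL (Fin 2) F)) := by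
  have hx2 : (x : Matrix (Fin 2) (Fin 2) F) ^ 2 = z • (1 : Matrix (Fin 2) (Fin 2) F) := by
    rw [← Matrix.SpecialLinearGroup.coe_pow]
    exact hz
  by_cases hch : ringChar F = 2
  · have : CharP F 2 := ringChar.of_eq hch
    have hAA : ∀ A : Matrix (Fin 2) (Fin 2) F, A + A = 0 := by
      intro A
      ext i j
      simp [CharTwo.add_self_eq_zero]
    have hz1 : z = 1 := by
      have h1 := (x ^ 2).2
      rw [hz, Matrix.det_smul, Matrix.det_one, Fintype.card_fin, mul_one] at h1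
      have h2 : (z + 1) ^ 2 = 0 := by
        rw [CharTwo.add_sq, h1, one_pow, CharTwo.add_self_eq_zero]
      have h3 : z + 1 = 0 := by simpa using h2
      rw [← CharTwo.sub_eq_add, sub_eq_zero] at h3
      exact h3
    rw [hz1, one_smul] at hx2
    have sqz : ∀ A : Matrix (Fin 2) (Fin 2) F, A ^ 2 = 1 → (A - 1) * (A - 1) = 0 := by
      intro A hA
      have : (A - 1) * (A - 1) = A ^ 2 + 1 - (A + A) := by noncomm_ring
      rw [this, hA, hAA, hAA, sub_zero]
    obtain ⟨g, hgN, hgch, hgmin⟩ := exists_frob (n := 2) (by norm_num) hK (1 : F) one_ne_zero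
    have hg2 : (g : Matrix (Fin 2) (Fin 2) F) ^ 2 = 1 := by
      have := Matrix.aeval_self_charpoly (g : Matrix (Fin 2) (Fin 2) F)
      rw [hgch] at this
      simpa [sub_eq_zero] using this
    have hx0 : (x : Matrix (Fin 2) (Fin 2) F) - 1 ≠ 0 := by
      intro h
      apply hns 1
      rw [one_smul]
      exact sub_eq_zero.mp h
    have hg0 : (g : Matrix (Fin 2) (Fin 2) F) - 1 ≠ 0 := by
      intro h
      rw [sub_eq_zero.mp h, minpoly.one] at hgmin
      have := congrArg Polynomial.natDegree hgmin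
      rw [← Polynomial.C_1, Polynomial.natDegree_X_sub_C, Polynomial.natDegree_X_pow_sub_C] at this
      omega
    obtain ⟨P, hP⟩ := exists_SL_conj_of_sq_zero _ _ (sqz _ hx2) (sqz _ hg2)
      ((rank_eq_one_of_sq_zero (sqz _ hx2) hx0).trans (rank_eq_one_of_sq_zero (sqz _ hg2) hg0).symm)
    rw [add_sub_cancel, add_sub_cancel] at hP
    refine ⟨P, mem_of_conj hgN ?_⟩
    apply Units.ext
    rw [Matrix.SpecialLinearGroup.coe_GL_coe_matrix, Matrix.SpecialLinearGroup.coe_mul,
      Matrix.SpecialLinearGroup.coe_mul]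
    exact hP
  · have h2 : (2 : F) ≠ 0 := Ring.two_ne_zero hch
    have h2' : ((2 : ℕ) : F) ≠ 0 := by exact_mod_cast h2
    have hCH := Matrix.aeval_self_charpoly (x : Matrix (Fin 2) (Fin 2) F)
    have hcp := Matrix.charpoly_fin_two (x : Matrix (Fin 2) (Fin 2) F)
    rw [x.2] at hcp
    rw [hcp] at hCH
    simp only [map_add, map_sub, map_pow, map_mul, aeval_X, aeval_C, map_one, hx2] at hCH
    rw [Algebra.algebraMap_eq_smul_one, smul_mul_assoc, one_mul] at hCH
    have htr : (x : Matrix (Fin 2) (Fin 2) F).trace = 0 := by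
      by_contra ht
      apply hns ((z + 1) / (x : Matrix (Fin 2) (Fin 2) F).trace)
      have h3 : (x : Matrix (Fin 2) (Fin 2) F).trace • (x : Matrix (Fin 2) (Fin 2) F)
          = (z + 1) • (1 : Matrix (Fin 2) (Fin 2) F) := by
        rw [add_smul, one_smul]
        exact (sub_eq_zero.mp (by rw [← hCH]; abel)).symm
      rw [div_eq_inv_mul, mul_smul, ← h3, smul_smul, inv_mul_cancel₀ ht, one_smul]
    rw [htr, zero_smul, sub_zero] at hCH
    have hz1 : z = -1 := by
      have := congrFun (congrFun hCH 0) 0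
      simp at this
      exact eq_neg_of_add_eq_zero_left this
    have hcp' : (x : Matrix (Fin 2) (Fin 2) F).charpoly = X ^ 2 - C (-1 : F) := by
      rw [hcp, htr]
      simp
    obtain ⟨g, hgN, hgch, -⟩ := exists_frob (n := 2) (by norm_num) hK (-1 : F)
      (neg_ne_zero.mpr one_ne_zero)
    have hg2 : (g : Matrix (Fin 2) (Fin 2) F) ^ 2 = (-1 : F) • (1 : Matrix (Fin 2) (Fin 2) F) := by
      have := Matrix.aeval_self_charpoly (g : Matrix (Fin 2) (Fin 2) F)
      rw [hgch] at this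
      simp only [map_sub, map_pow, aeval_X, aeval_C] at this
      rw [Algebra.algebraMap_eq_smul_one] at this
      exact sub_eq_zero.mp this
    rw [hz1] at hx2
    have hxs := semisimple_of_pow_eq_smul 2 h2' (x : Matrix (Fin 2) (Fin 2) F) (-1)
      (neg_ne_zero.mpr one_ne_zero) hx2
    have hgs := semisimple_of_pow_eq_smul 2 h2' (g : Matrix (Fin 2) (Fin 2) F) (-1)
      (neg_ne_zero.mpr one_ne_zero) hg2
    obtain ⟨P, hP⟩ := exists_SL_conj x g hxs hgs (by rw [hcp', hgch])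
    exact ⟨P, mem_of_conj hgN hP⟩

end Cfsg.Agent.Lib.Helper38EluRow69b
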