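import Cfsg.Agent.Lib.Helper81KulGDefs

set_option autoImplicit false

/-! PROJECT 83 (KUL), piece D-IOTA (helper38). -/

namespace Cfsg.Agent.Lib.Helper38KulIOTA

open Cfsg
open Cfsg.Agent.Lib.Helper81Local Cfsg.Agent.Lib.Helper20GA Cfsg.Agent.Lib.Helper80IdemDefs
open Cfsg.Agent.Lib.Helper80StarDefs Cfsg.Agent.Lib.Helper4ModRed
open Cfsg.Agent.Lib.Helper81KulDefs Cfsg.Agent.Lib.Helper81KulGDefs

variable {p : ℕ} [Fact p.Prime] {M : Ideal AlgInt} [M.IsPrime] {G : Type*} [Group G] [Fintype G]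

theorem exists_iota (hdec : DecompP (Rt M) (OA M G)) {ε : OA M G} (hε : ε * ε = ε) (h0 : ε ≠ 0) :
    ∃ ι : OA M G, Prim (⊤ : Subalgebra (Rt M) (OA M G)) ι ∧ ε * ι = ι := by
  classical
  obtain ⟨n, j, hprim, horth, hsum⟩ := hdec ⊤ ε Algebra.mem_top hε
  have hn : 0 < n := by
    rcases Nat.eq_zero_or_pos n with h | h
    · subst h
      exfalso
      apply h0
      rw [← hsum]
      simp
    · exact h
  refine ⟨j ⟨0, hn⟩, hprim _, ?_⟩
  rw [← hsum, Finset.sum_mul, Finset.sum_eq_single (⟨0, hn⟩ : Fin n)]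
  · exact (hprim _).idem
  · intro b _ hb
    exact horth b _ hb
  · intro h; exact absurd (Finset.mem_univ _) h

end Cfsg.Agent.Lib.Helper38KulIOTA
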