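import Cfsg.Agent.Lib.Helper81KulGDefs

set_option autoImplicit false

/-! PROJECT 83 (KUL), piece C-LAM (helper38). -/

namespace Cfsg.Agent.Lib.Helper38KulLAM

open Cfsg Cfsg.Agent.Lib.Helper81KulGDefs

theorem lamk_apply {k : Type*} [Field k] {G : Type*} [Group G] (a : MonoidAlgebra k G) :
    lamk k G a = a.coeff 1 := rfl

theorem lamk_symm {k : Type*} [Field k] {G : Type*} [Group G] (a b : MonoidAlgebra k G) :
    lamk k G (a * b) = lamk k G (b * a) := by
  induction b using MonoidAlgebra.induction_linear with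
  | zero => rw [mul_zero, zero_mul]
  | add x y hx hy => rw [mul_add, add_mul, map_add, map_add, hx, hy]
  | single g r =>
    rw [lamk_apply, lamk_apply, MonoidAlgebra.coeff_mul_single_apply,
      MonoidAlgebra.coeff_single_mul_apply, one_mul, mul_one, mul_comm]

theorem lamk_nd {k : Type*} [Field k] {G : Type*} [Group G] (a : MonoidAlgebra k G) (ha : a ≠ 0) :
    ∃ b, lamk k G (a * b) ≠ 0 := by
  obtain ⟨g, hg⟩ : ∃ g, a.coeff g ≠ 0 := by
    by_contra hcon
    push Not at hcon
    apply ha
    apply MonoidAlgebra.coeff_injective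
    ext g
    rw [hcon g]
    rfl
  refine ⟨MonoidAlgebra.single g⁻¹ 1, ?_⟩
  rw [lamk_apply, MonoidAlgebra.coeff_mul_single_apply, one_mul, inv_inv, mul_one]
  exact hg

end Cfsg.Agent.Lib.Helper38KulLAM
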