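import Cfsg.Agent.Lib.Helper81KulGDefs

set_option autoImplicit false

/-! PROJECT 83 (KUL), piece C-LOCC (helper38). -/

namespace Cfsg.Agent.Lib.Helper38KulLOCC

open Cfsg
open Cfsg.Agent.Lib.Helper81Local Cfsg.Agent.Lib.Helper20GA Cfsg.Agent.Lib.Helper80IdemDefs
open Cfsg.Agent.Lib.Helper80StarDefs Cfsg.Agent.Lib.Helper4ModRed
open Cfsg.Agent.Lib.Helper81KulDefs Cfsg.Agent.Lib.Helper81KulGDefs

variable {p : ℕ} [Fact p.Prime] {M : Ideal AlgInt} [M.IsPrime] {G : Type*} [Group G] [Fintype G]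

theorem locC_red {φ : OA M G →+* MonoidAlgebra (kk M) G} (hφ : IsRed φ) {ι : OA M G}
    (hscal : ∀ a : OA M G, ∃ c : Rt M, TN (Rt M) (OA M G) (ι * a * ι - c • ι)) :
    LocC (kk M) (φ ι) := by
  rintro a ⟨h1, h2⟩
  obtain ⟨a', rfl⟩ := hφ.surj a
  obtain ⟨c, m, hm⟩ := hscal a'
  refine ⟨IsLocalRing.residue (Rt M) c, m, ?_⟩
  have h3 : φ (ι * a' * ι - c • ι) = φ a' - IsLocalRing.residue (Rt M) c • φ ι := by
    rw [map_sub, map_mul, map_mul, h1, h2, hφ.smul]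
  rw [← h3, ← map_pow]
  exact (hφ.ker _).2 hm

end Cfsg.Agent.Lib.Helper38KulLOCC
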