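import Cfsg.Agent.Lib.Helper81KulGDefs
import Cfsg.Agent.Lib.Helper40ModRL

set_option autoImplicit false

/-! PROJECT 83 (KUL), piece C-TF1 (helper38): copy of `Helper40ModRL.rank_link` without the restriction to
`p`-regular elements. -/

namespace Cfsg.Agent.Lib.Helper38KulTF1

open Cfsg
open Cfsg.Agent.Lib.Helper81Local Cfsg.Agent.Lib.Helper4ModRed Cfsg.Agent.Lib.Helper40ModRed
open Cfsg.Agent.Lib.Helper40ModRL
open scoped ComplexConjugate

variable {p : ℕ} [Fact p.Prime] {M : Ideal AlgInt} [M.IsPrime] {G : Type*} [Group G] [Fintype G]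

theorem card_link (hM : IsPModular p M) {B : Set (IrrCharacter G)} (hB : IsPBlock M B)
    (ε : G → kk M) (hε : ∀ g, Red M (blockCoeff B g) (ε g)) (n : ℕ) (τ : Fin n → G → kk M)
    (hli : LinearIndependent (kk M) τ) (hcl : ∀ i g h, τ i (h * g * h⁻¹) = τ i g)
    (hblk : ∀ i g, ∑ u, ε u * τ i (u * g) = τ i g) : n ≤ Nat.card B := by
  classical
  obtain ⟨β, hβ⟩ := exists_dual τ hli
  set η : Fin n → G → ℂ := fun i g => lift M (τ i g) with hη
  have hηcl : ∀ i, IsClassFunction G (η i) := by
    intro i g h
    simp only [hη, hcl]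
  set Fn : Fin n → G → ℂ := fun i => blockPart B (η i) with hFn
  have hred : ∀ i y, Red M (Fn i y) (τ i y) := by
    intro i y
    simp only [hFn]
    rw [Cfsg.Agent.Lib.Helper81Part.blockPart_eq_sum B (hηcl i), ← hblk i y]
    apply Red.sum
    intro u _
    exact Red.mul (hε u) (red_lift _)
  set A : Matrix (Fin n) (Fin n) ℂ := fun i j => ∑ y, Fn i y * lift M (β j y) with hA
  have hAred : ∀ i j, Red M (A i j) ((1 : Matrix (Fin n) (Fin n) (kk M)) i j) := by
    intro i j
    rw [Matrix.one_apply, ← hβ i j]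
    apply Red.sum
    intro y _
    exact Red.mul (hred i y) (red_lift _)
  have hdet : A.det ≠ 0 := by
    intro h0
    have h1 := Red.det hAred
    rw [h0, Matrix.det_one] at h1
    exact one_ne_zero (Red.unique h1 red_zero)
  have hFli : LinearIndependent ℂ Fn := by
    rw [Fintype.linearIndependent_iff]
    intro c hc
    have h1 : Matrix.vecMul c A = 0 := by
      funext j
      simp only [Matrix.vecMul, dotProduct, hA, Pi.zero_apply]
      have h2 : ∑ i, c i * ∑ y, Fn i y * lift M (β j y) = ∑ y, (∑ i, c i • Fn i) y * lift M (β j y) := by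
        simp only [Finset.sum_apply, Pi.smul_apply, smul_eq_mul, Finset.mul_sum, Finset.sum_mul]
        rw [Finset.sum_comm]
        apply Finset.sum_congr rfl
        intro y _
        apply Finset.sum_congr rfl
        intro i _
        ring
      rw [h2, hc]
      simp
    have h3 := Matrix.eq_zero_of_vecMul_eq_zero hdet h1
    intro i
    exact congrFun h3 i
  have hle : Submodule.span ℂ (Set.range Fn) ≤
      Submodule.span ℂ (Set.range (fun χ : B => ((χ : IrrCharacter G) : G → ℂ))) := by
    rw [Submodule.span_le]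
    rintro _ ⟨i, rfl⟩
    have h1 : Fn i = ∑ ψ : IrrCharacter G, if ψ ∈ B then
        ((Nat.card G : ℂ)⁻¹ * ∑ g, η i g * conj ((ψ : G → ℂ) g)) • (ψ : G → ℂ) else 0 := by
      funext y
      simp only [hFn]
      rw [Cfsg.Agent.Lib.Helper81Part.blockPart_def, Finset.sum_apply]
      apply Finset.sum_congr rfl
      intro ψ _
      split_ifs
      · rfl
      · rfl
    rw [h1]
    apply Submodule.sum_mem
    intro ψ _
    split_ifs with hψ
    · exact Submodule.smul_mem _ _ (Submodule.subset_span ⟨⟨ψ, hψ⟩, rfl⟩)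
    · exact Submodule.zero_mem _
  have h5 := Submodule.finrank_mono hle
  rw [finrank_span_eq_card hFli, Fintype.card_fin] at h5
  have h6 := finrank_range_le_card (R := ℂ) (fun χ : B => ((χ : IrrCharacter G) : G → ℂ))
  rw [Nat.card_eq_fintype_card]
  exact h5.trans h6

end Cfsg.Agent.Lib.Helper38KulTF1
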