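import Cfsg.Agent.Lib.Helper81KulGDefs

set_option autoImplicit false

/-! PROJECT 83 (KUL), piece C-TF2 (helper38). -/

namespace Cfsg.Agent.Lib.Helper38KulTF2

open Cfsg
open Cfsg.Agent.Lib.Helper81Local Cfsg.Agent.Lib.Helper20GA Cfsg.Agent.Lib.Helper80IdemDefs
open Cfsg.Agent.Lib.Helper80StarDefs Cfsg.Agent.Lib.Helper4ModRed
open Cfsg.Agent.Lib.Helper81KulDefs Cfsg.Agent.Lib.Helper81KulGDefs
open Cfsg.Agent.Lib.Helper91StarBASIC Cfsg.Agent.Lib.Helper80Brauer

variable {p : ℕ} [Fact p.Prime] {M : Ideal AlgInt} [M.IsPrime] {G : Type*} [Group G] [Fintype G]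

theorem traceforms_le {φ : OA M G →+* MonoidAlgebra (kk M) G} (hφ : IsRed φ)
    {B : Set (IrrCharacter G)} (hRV : RV M (blockCoeff B))
    (ε : G → kk M) (hε : ∀ g, Red M (blockCoeff B g) (ε g)) (z : ℕ)
    (hlink : ∀ (n : ℕ) (τ : Fin n → G → kk M), LinearIndependent (kk M) τ →
      (∀ i g h, τ i (h * g * h⁻¹) = τ i g) → (∀ i g, ∑ u, ε u * τ i (u * g) = τ i g) → n ≤ z)
    (n : ℕ) (F : Fin n → (MonoidAlgebra (kk M) G →ₗ[kk M] kk M))
    (h1 : ∀ j a b, F j (a * b) = F j (b * a)) (h2 : ∀ j a, F j (φ (epsA M B) * a) = F j a)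
    (h3 : LinearIndependent (kk M) F) : n ≤ z := by
  classical
  have hfe : fn (epsA M B) = blockCoeff B := fn_toA hRV
  have hφε : φ (epsA M B) = ∑ u : G, ε u • MonoidAlgebra.of (kk M) G u := by
    conv_lhs => rw [eq_sum_smul_ptA (epsA M B)]
    rw [map_sum]
    apply Finset.sum_congr rfl
    intro u _
    rw [hφ.smul, hφ.pt]
    congr 1
    obtain ⟨h, hh⟩ := hε u
    rw [← hh]
    congr 1
    exact Subtype.ext (congrFun hfe u)
  apply hlink n (fun j g => F j (MonoidAlgebra.of (kk M) G g))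
  · rw [Fintype.linearIndependent_iff] at h3 ⊢
    intro c hc
    apply h3 c
    apply LinearMap.ext
    intro x
    induction x using MonoidAlgebra.induction_linear with
    | zero => rw [map_zero, map_zero]
    | add x y hx hy => rw [map_add, hx, hy, map_add]
    | single g r =>
      have e1 : MonoidAlgebra.single g r = r • MonoidAlgebra.of (kk M) G g := by
        rw [MonoidAlgebra.of_apply, MonoidAlgebra.smul_single, smul_eq_mul, mul_one]
      have e2 := congrFun hc g
      simp only [Finset.sum_apply, Pi.smul_apply, smul_eq_mul, Pi.zero_apply] at e2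
      rw [e1, map_smul, LinearMap.zero_apply, LinearMap.sum_apply]
      simp only [LinearMap.smul_apply, smul_eq_mul]
      rw [e2, mul_zero]
  · intro j g h
    have e1 : MonoidAlgebra.of (kk M) G (h * g * h⁻¹) = MonoidAlgebra.of (kk M) G (h * g) *
        MonoidAlgebra.of (kk M) G h⁻¹ := map_mul _ _ _
    have e2 : MonoidAlgebra.of (kk M) G h⁻¹ * MonoidAlgebra.of (kk M) G (h * g)
        = MonoidAlgebra.of (kk M) G g := by
      rw [← map_mul, inv_mul_cancel_left]
    rw [e1, h1, e2]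
  · intro j g
    rw [← h2 j (MonoidAlgebra.of (kk M) G g), hφε, Finset.sum_mul, map_sum]
    apply Finset.sum_congr rfl
    intro u _
    rw [smul_mul_assoc, map_smul, smul_eq_mul, (MonoidAlgebra.of (kk M) G).map_mul]

end Cfsg.Agent.Lib.Helper38KulTF2
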