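import Cfsg.Agent.Lib.Helper81KulGDefs
import Cfsg.Agent.Lib.Helper40ModRL
import Cfsg.Agent.Lib.Helper86ModRank

set_option autoImplicit false

/-! PROJECT 83 (KUL), piece D-WED1 (helper38): the number of matrix factors of `k G ε_B` is at most `l(B)`.
(The hypothesis `hd` had to be added: a factor of size `0` would satisfy `π ε i = 1` trivially.) -/

namespace Cfsg.Agent.Lib.Helper38KulWED1

open Cfsg
open Cfsg.Agent.Lib.Helper81Local Cfsg.Agent.Lib.Helper20GA Cfsg.Agent.Lib.Helper80IdemDefs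
open Cfsg.Agent.Lib.Helper80StarDefs Cfsg.Agent.Lib.Helper4ModRed
open Cfsg.Agent.Lib.Helper81KulDefs Cfsg.Agent.Lib.Helper81KulGDefs
open Cfsg.Agent.Lib.Helper91StarBASIC Cfsg.Agent.Lib.Helper80Brauer Cfsg.Agent.Lib.Helper81Subsec

variable {p : ℕ} [Fact p.Prime] {M : Ideal AlgInt} [M.IsPrime] {G : Type*} [Group G] [Fintype G]

/-- the trace of `π a i` in terms of the coefficients of `a` -/
theorem trace_pi {n : ℕ} {d : Fin n → ℕ}
    (π : OA M G →+* (∀ i, Matrix (Fin (d i)) (Fin (d i)) (kk M)))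
    (hsm : ∀ (r : Rt M) (a : OA M G), π (r • a) = (IsLocalRing.residue (Rt M) r) • π a)
    (a : OA M G) (i : Fin n) :
    Matrix.trace (π a i) = ∑ g : G, IsLocalRing.residue (Rt M) ⟨fn a g, rv_fn a g⟩ *
      Matrix.trace (π (ptA M g) i) := by
  conv_lhs => rw [eq_sum_smul_ptA a]
  rw [map_sum, Finset.sum_apply, Matrix.trace_sum]
  apply Finset.sum_congr rfl
  intro g _
  rw [hsm, Pi.smul_apply, Matrix.trace_smul, smul_eq_mul]

theorem wed_count (hM : IsPModular p M) {B : Set (IrrCharacter G)} (hB : IsPBlock M B)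
    (n : ℕ) (d : Fin n → ℕ) (hd : ∀ i, 0 < d i)
    (π : OA M G →+* (∀ i, Matrix (Fin (d i)) (Fin (d i)) (kk M)))
    (hsurj : Function.Surjective π)
    (hsm : ∀ (r : Rt M) (a : OA M G), π (r • a) = (IsLocalRing.residue (Rt M) r) • π a) :
    Nat.card {i : Fin n // π (epsA M B) i = 1} ≤ blockRank p B := by
  classical
  haveI : CharP (kk M) p := Cfsg.Agent.Lib.Helper40ModRed.charP_kk hM
  have hRV : RV M (blockCoeff B) := (Helper20Block.isSC_blockCoeff inferInstance hB).2
  have hfe : fn (epsA M B) = blockCoeff B := fn_toA hRV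
  set τ : {i : Fin n // π (epsA M B) i = 1} → G → kk M :=
    fun i g => Matrix.trace (π (ptA M g) i.1) with hτ
  rw [Nat.card_eq_fintype_card]
  refine Cfsg.Agent.Lib.Helper40ModRL.rank_link hM (isBlockUnion_of_isPBlock hB)
    (fun g => IsLocalRing.residue (Rt M) ⟨blockCoeff B g, hRV g⟩) (fun g => ⟨hRV g, rfl⟩) τ ?_ ?_ ?_ ?_
  · -- independence
    rw [Fintype.linearIndependent_iff]
    intro c hc i0
    obtain ⟨a, ha⟩ := hsurj (Pi.single i0.1 (Matrix.single ⟨0, hd i0.1⟩ ⟨0, hd i0.1⟩ 1))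
    have h1 : ∑ g : G, IsLocalRing.residue (Rt M) ⟨fn a g, rv_fn a g⟩ * (∑ i, c i • τ i) g = 0 := by
      rw [hc]; simp
    have h2 : ∑ g : G, IsLocalRing.residue (Rt M) ⟨fn a g, rv_fn a g⟩ * (∑ i, c i • τ i) g
        = ∑ i, c i * Matrix.trace (π a i.1) := by
      simp only [Finset.sum_apply, Pi.smul_apply, smul_eq_mul, Finset.mul_sum]
      rw [Finset.sum_comm]
      apply Finset.sum_congr rfl
      intro i _
      rw [trace_pi π hsm a i.1, Finset.mul_sum]
      apply Finset.sum_congr rfl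
      intro g _
      simp only [hτ]
      ring
    rw [h2, Finset.sum_eq_single i0] at h1
    · rw [ha, Pi.single_eq_same, Matrix.trace_single_eq_same, mul_one] at h1
      exact h1
    · intro i _ hi
      have : i.1 ≠ i0.1 := fun h => hi (Subtype.ext h)
      rw [ha, Pi.single_eq_of_ne this, Matrix.trace_zero, mul_zero]
    · intro h; exact absurd (Finset.mem_univ _) h
  · -- class functions
    intro i g h
    simp only [hτ]
    rw [ptA_mul, ptA_mul, map_mul, map_mul, Pi.mul_apply, Pi.mul_apply, Matrix.trace_mul_comm,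
      ← mul_assoc, ← Pi.mul_apply, ← map_mul, ptA_inv_mul, map_one, Pi.one_apply, one_mul]
  · -- `p`-sections
    rintro i s u hsu ⟨k, hk⟩
    simp only [hτ]
    haveI : Nonempty (Fin (d i.1)) := ⟨⟨0, hd i.1⟩⟩
    set Sm := π (ptA M s) i.1 with hSm
    set Um := π (ptA M u) i.1 with hUm
    have hcomm : Commute Sm Um := by
      show Sm * Um = Um * Sm
      rw [hSm, hUm, ← Pi.mul_apply, ← Pi.mul_apply, ← map_mul, ← map_mul, ← ptA_mul, ← ptA_mul,
        hsu.eq]
    have hUk : Um ^ p ^ k = 1 := by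
      rw [hUm, ← Pi.pow_apply, ← map_pow, ← ptA_pow, hk, ptA_one, map_one, Pi.one_apply]
    have hN : IsNilpotent (Um - 1) := by
      refine ⟨p ^ k, ?_⟩
      rw [sub_pow_char_pow_of_commute _ _ (Commute.one_right Um), hUk, one_pow, sub_self]
    have hSN : IsNilpotent (Sm * (Um - 1)) :=
      (hcomm.sub_right (Commute.one_right Sm)).isNilpotent_mul_left hN
    have h0 := (Matrix.isNilpotent_trace_of_isNilpotent hSN).eq_zero
    rw [mul_sub, mul_one, Matrix.trace_sub, sub_eq_zero] at h0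
    rw [ptA_mul, map_mul, Pi.mul_apply]
    exact h0
  · -- the block
    intro i g
    simp only [hτ]
    have h1 : π (epsA M B * ptA M g) i.1 = π (ptA M g) i.1 := by
      rw [map_mul, Pi.mul_apply, i.2, one_mul]
    have h2 : epsA M B * ptA M g = (∑ u : G, (⟨fn (epsA M B) u, rv_fn (epsA M B) u⟩ : Rt M) • ptA M u)
        * ptA M g := by
      rw [← eq_sum_smul_ptA (epsA M B)]
    rw [← h1, h2, Finset.sum_mul, map_sum, Finset.sum_apply, Matrix.trace_sum]
    apply Finset.sum_congr rfl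
    intro u _
    rw [smul_mul_assoc, hsm, Pi.smul_apply, Matrix.trace_smul, smul_eq_mul, ← ptA_mul]
    congr 2
    exact Subtype.ext (congrFun hfe u).symm

end Cfsg.Agent.Lib.Helper38KulWED1
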