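import Mathlib

set_option autoImplicit false

/-! PROJECT 83 (KUL), piece D-WED2 (helper38). -/

namespace Cfsg.Agent.Lib.Helper38KulWED2

theorem central_idem {k : Type*} [Field k] {d : ℕ} (P : Matrix (Fin d) (Fin d) k)
    (hP : P * P = P) (hc : ∀ Q, P * Q = Q * P) : P = 0 ∨ P = 1 := by
  obtain ⟨c, rfl⟩ := Matrix.mem_range_scalar_of_commute_single
    (M := P) (fun i j _ => (hc (Matrix.single i j 1)).symm)
  rcases Nat.eq_zero_or_pos d with hd | hd
  · subst hd
    left
    exact Subsingleton.elim _ _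
  · have h1 := congrFun (congrFun hP ⟨0, hd⟩) ⟨0, hd⟩
    rw [← map_mul] at h1
    simp only [Matrix.scalar_apply, Matrix.diagonal_apply_eq] at h1
    have h2 : c * (c - 1) = 0 := by linear_combination h1
    rcases mul_eq_zero.mp h2 with h | h
    · left; rw [h, map_zero]
    · right; rw [sub_eq_zero.mp h, map_one]

theorem gen_one {k : Type*} [Field k] {d : ℕ} (P : Matrix (Fin d) (Fin d) k) (hP : P ≠ 0) :
    ∃ (m : ℕ) (x y : Fin m → Matrix (Fin d) (Fin d) k), ∑ s, x s * P * y s = 1 := by
  obtain ⟨a, b, hab⟩ : ∃ a b, P a b ≠ 0 := by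
    by_contra hcon
    push Not at hcon
    exact hP (Matrix.ext hcon)
  refine ⟨d, fun c => (P a b)⁻¹ • Matrix.single c a 1, fun c => Matrix.single b c 1, ?_⟩
  ext i j
  rw [Matrix.sum_apply]
  have h1 : ∀ c : Fin d, (((P a b)⁻¹ • (Matrix.single c a 1 : Matrix (Fin d) (Fin d) k)) * P *
      (Matrix.single b c 1 : Matrix (Fin d) (Fin d) k)) i j = if c = i ∧ c = j then 1 else 0 := by
    intro c
    rw [Matrix.smul_mul, Matrix.smul_mul, Matrix.smul_apply, Matrix.single_mul_mul_single,
      Matrix.single_apply, smul_eq_mul]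
    split_ifs with h
    · rw [one_mul, mul_one, inv_mul_cancel₀ hab]
    · rw [mul_zero]
  rw [Finset.sum_congr rfl (fun c _ => h1 c), Matrix.one_apply]
  by_cases hij : i = j
  · subst hij
    rw [if_pos rfl, Finset.sum_eq_single i]
    · simp
    · intro c _ hc
      rw [if_neg (fun h => hc h.1)]
    · intro h; exact absurd (Finset.mem_univ _) h
  · rw [if_neg hij]
    apply Finset.sum_eq_zero
    intro c _
    rw [if_neg]
    rintro ⟨rfl, h⟩
    exact hij h

end Cfsg.Agent.Lib.Helper38KulWED2
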