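import Cfsg.Agent.Lib.Helper81KulGDefs

set_option autoImplicit false

/-! PROJECT 83 (KUL), piece D-WED3 (helper38). -/

namespace Cfsg.Agent.Lib.Helper38KulWED3

open Cfsg
open Cfsg.Agent.Lib.Helper81Local Cfsg.Agent.Lib.Helper20GA Cfsg.Agent.Lib.Helper80IdemDefs
open Cfsg.Agent.Lib.Helper80StarDefs Cfsg.Agent.Lib.Helper4ModRed
open Cfsg.Agent.Lib.Helper81KulDefs Cfsg.Agent.Lib.Helper81KulGDefs

/-- abstract version -/
theorem wed_link_abs {O : Type*} [CommRing O] [IsLocalRing O] {Γ : Type*} [Ring Γ] [Algebra O Γ]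
    (hwed : WedP O Γ) (hunit : UnitP O Γ)
    (hzero : ZeroP O Γ) {ε ι : Γ} (hε : ε * ε = ε) (hεc : ∀ a, ε * a = a * ε)
    (hι : ι * ι = ι) (hι0 : ι ≠ 0) (hει : ε * ι = ι)
    (hcount : ∀ (n : ℕ) (d : Fin n → ℕ), (∀ i, 0 < d i) → ∀
      (π : Γ →+* (∀ i, Matrix (Fin (d i)) (Fin (d i)) (IsLocalRing.ResidueField O))),
      Function.Surjective π →
      (∀ (r : O) (a : Γ), π (r • a) = (IsLocalRing.residue O r) • π a) →
      Nat.card {i : Fin n // π ε i = 1} ≤ 1)
    (hci : ∀ (d : ℕ) (P : Matrix (Fin d) (Fin d) (IsLocalRing.ResidueField O)), P * P = P →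
      (∀ Q, P * Q = Q * P) → P = 0 ∨ P = 1)
    (hgen : ∀ (d : ℕ) (P : Matrix (Fin d) (Fin d) (IsLocalRing.ResidueField O)), P ≠ 0 →
      ∃ (m : ℕ) (x y : Fin m → Matrix (Fin d) (Fin d) (IsLocalRing.ResidueField O)),
        ∑ s, x s * P * y s = 1) :
    ∃ (m : ℕ) (x y : Fin m → Γ), ε = ∑ s, x s * ι * y s := by
  classical
  obtain ⟨n, d, hd, π, hsurj, hsm, hTN, -⟩ := hwed
  have hπε : ∀ i, π ε i = 0 ∨ π ε i = 1 := by
    intro i
    apply hci
    · have := congrFun (congrArg π hε) i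
      rwa [map_mul, Pi.mul_apply] at this
    · intro Q
      obtain ⟨a, ha⟩ := hsurj (Pi.single i Q)
      have := congrFun (congrArg π (hεc a)) i
      rwa [map_mul, map_mul, Pi.mul_apply, Pi.mul_apply, ha, Pi.single_eq_same] at this
  have hπι : π ι ≠ 0 := fun h => hι0 (hzero ι hι (hTN ι h))
  obtain ⟨i0, hi0⟩ := Function.ne_iff.mp hπι
  rw [Pi.zero_apply] at hi0
  have hεi0 : π ε i0 = 1 := by
    rcases hπε i0 with h | h
    · exfalso
      apply hi0
      have := congrFun (congrArg π hει) i0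
      rw [map_mul, Pi.mul_apply, h, zero_mul] at this
      exact this.symm
    · exact h
  have huniq : ∀ i, i ≠ i0 → π ε i = 0 := by
    intro i hi
    rcases hπε i with h | h
    · exact h
    · exfalso
      have h1 := hcount n d hd π hsurj hsm
      have h2 : Subsingleton {i : Fin n // π ε i = 1} := (Finite.card_le_one_iff_subsingleton).mp h1
      have h3 := h2.elim ⟨i, h⟩ ⟨i0, hεi0⟩
      exact hi (congrArg Subtype.val h3)
  obtain ⟨m, xb, yb, hxy⟩ := hgen (d i0) (π ι i0) hi0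
  choose x hx using fun s => hsurj (Pi.single i0 (xb s))
  choose y hy using fun s => hsurj (Pi.single i0 (yb s))
  set ν : Γ := ε - ∑ s, ε * x s * ι * y s with hν
  have hπν : π ν = 0 := by
    funext i
    rw [hν, map_sub, map_sum, Pi.sub_apply, Finset.sum_apply, Pi.zero_apply]
    by_cases hi : i = i0
    · subst hi
      have : ∀ s, π (ε * x s * ι * y s) i = xb s * π ι i * yb s := by
        intro s
        rw [map_mul, map_mul, map_mul, Pi.mul_apply, Pi.mul_apply, Pi.mul_apply, hx, hy, hεi0,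
          Pi.single_eq_same, Pi.single_eq_same, one_mul]
      rw [Finset.sum_congr rfl (fun s _ => this s), hxy, hεi0, sub_self]
    · have : ∀ s, π (ε * x s * ι * y s) i = 0 := by
        intro s
        rw [map_mul, map_mul, map_mul, Pi.mul_apply, Pi.mul_apply, Pi.mul_apply, huniq i hi,
          zero_mul, zero_mul, zero_mul]
      rw [Finset.sum_congr rfl (fun s _ => this s), huniq i hi, Finset.sum_const_zero, sub_zero]
  obtain ⟨u, hu⟩ := hunit ν (hTN ν hπν)
  have hεν : ε * ν = ν := by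
    rw [hν, mul_sub, hε, Finset.mul_sum]
    congr 1
    apply Finset.sum_congr rfl
    intro s _
    rw [← mul_assoc, ← mul_assoc, ← mul_assoc, hε]
  have h1 : ∑ s, ε * x s * ι * y s = ε * (1 - ν) := by
    rw [mul_sub, mul_one, hεν, hν]
    abel
  refine ⟨m, fun s => ε * x s, fun s => y s * (↑u⁻¹ : Γ), ?_⟩
  have h2 : ∑ s, ε * x s * ι * (y s * (↑u⁻¹ : Γ)) = (∑ s, ε * x s * ι * y s) * (↑u⁻¹ : Γ) := by
    rw [Finset.sum_mul]
    apply Finset.sum_congr rfl
    intro s _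
    rw [mul_assoc (ε * x s * ι)]
  rw [h2, h1, ← hu, mul_assoc, Units.mul_inv, mul_one]

variable {p : ℕ} [Fact p.Prime] {M : Ideal AlgInt} [M.IsPrime] {G : Type*} [Group G] [Fintype G]

theorem wed_link (hwed : WedP (Rt M) (OA M G)) (hunit : UnitP (Rt M) (OA M G))
    (hzero : ZeroP (Rt M) (OA M G)) {ε ι : OA M G} (hε : ε * ε = ε) (hεc : ∀ a, ε * a = a * ε)
    (hι : ι * ι = ι) (hι0 : ι ≠ 0) (hει : ε * ι = ι)
    (hcount : ∀ (n : ℕ) (d : Fin n → ℕ), (∀ i, 0 < d i) → ∀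
      (π : OA M G →+* (∀ i, Matrix (Fin (d i)) (Fin (d i)) (kk M))), Function.Surjective π →
      (∀ (r : Rt M) (a : OA M G), π (r • a) = (IsLocalRing.residue (Rt M) r) • π a) →
      Nat.card {i : Fin n // π ε i = 1} ≤ 1)
    (hci : ∀ (d : ℕ) (P : Matrix (Fin d) (Fin d) (kk M)), P * P = P → (∀ Q, P * Q = Q * P) →
      P = 0 ∨ P = 1)
    (hgen : ∀ (d : ℕ) (P : Matrix (Fin d) (Fin d) (kk M)), P ≠ 0 →
      ∃ (m : ℕ) (x y : Fin m → Matrix (Fin d) (Fin d) (kk M)), ∑ s, x s * P * y s = 1) :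
    ∃ (m : ℕ) (x y : Fin m → OA M G), ε = ∑ s, x s * ι * y s :=
  wed_link_abs hwed hunit hzero hε hεc hι hι0 hει hcount hci hgen

end Cfsg.Agent.Lib.Helper38KulWED3
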