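import Mathlib

/-!
# PROJECT PC-MULT, piece `surj` (helper38)
-/

set_option autoImplicit false

namespace Cfsg.Agent.Lib.Helper38PCsurj

/-- iterating `A = A^p ⟨ω⟩` -/
theorem iter {A : Type*} [CommGroup A] (p : ℕ) (ω : A)
    (h : ∀ a : A, ∃ (b : A) (j : ℕ), a = b ^ p * ω ^ j) :
    ∀ (k : ℕ) (a : A), ∃ (b : A) (j : ℕ), a = b ^ (p ^ k) * ω ^ j := by
  intro k
  induction k with
  | zero => intro a; exact ⟨a, 0, by simp⟩
  | succ k ih =>
    intro a
    obtain ⟨b, j, rfl⟩ := ih a
    obtain ⟨c, i, rfl⟩ := h b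
    refine ⟨c, i * p ^ k + j, ?_⟩
    rw [mul_pow, ← pow_mul, ← pow_mul, pow_add ω, pow_succ' p k, mul_assoc]

theorem isCyclic_of_local {A : Type*} [CommGroup A] [Finite A]
    (h : ∀ p : ℕ, p.Prime → ∃ ω : A, ∀ a : A, ∃ (b : A) (j : ℕ), a = b ^ p * ω ^ j) :
    IsCyclic A := by
  have hZ : IsZGroup A := by
    refine ⟨fun p hp P => ?_⟩
    have : Fact p.Prime := ⟨hp⟩
    obtain ⟨ω, hω⟩ := h p hp
    obtain ⟨e, he⟩ := IsPGroup.iff_card.mp P.2
    have hidx : ¬ p ∣ (P : Subgroup A).index := P.not_dvd_index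
    have hcard : Nat.card A = p ^ e * (P : Subgroup A).index := by
      rw [← he]
      exact ((P : Subgroup A).card_mul_index).symm
    have hcop : Nat.Coprime (P : Subgroup A).index (p ^ e) :=
      (Nat.Coprime.pow_left e ((Nat.Prime.coprime_iff_not_dvd hp).mpr hidx)).symm
    have hle : (P : Subgroup A) ≤ Subgroup.zpowers ω := by
      intro a ha
      have ha1 : a ^ (p ^ e) = 1 := by
        have := pow_card_eq_one' (G := (P : Subgroup A)) (x := ⟨a, ha⟩)
        rw [he] at this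
        exact congrArg Subtype.val this
      obtain ⟨b, j, hb⟩ := iter p ω hω e a
      have h1 : a ^ (P : Subgroup A).index = ω ^ (j * (P : Subgroup A).index) := by
        rw [hb, mul_pow, ← pow_mul, ← hcard, pow_card_eq_one', one_mul, ← pow_mul]
      have h2 := Nat.gcd_eq_gcd_ab (P : Subgroup A).index (p ^ e)
      rw [hcop] at h2
      have h3 : a = (a ^ (P : Subgroup A).index) ^ (Nat.gcdA (P : Subgroup A).index (p ^ e)) := by
        calc a = a ^ ((1 : ℕ) : ℤ) := by simp
          _ = _ := by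
            rw [h2, zpow_add, zpow_mul, zpow_mul, zpow_natCast, zpow_natCast, ha1, one_zpow, mul_one]
      rw [h3, h1]
      exact Subgroup.zpow_mem _ (Subgroup.pow_mem _ (Subgroup.mem_zpowers ω) _) _
    exact Subgroup.isCyclic_of_le hle
  infer_instance

/-- piece `surj` -/
theorem surj_of_local {A : Type*} [CommGroup A] [Finite A] (n : ℕ) (hn : 0 < n)
    (h : ∀ p : ℕ, p.Prime →
      (∃ ω : A, ∀ a : A, ∃ (b : A) (j : ℕ), a = b ^ p * ω ^ j) ∧
      (∀ a : A, ∃ b : A, a ^ (p ^ (n.factorization p)) = b ^ (p ^ (n.factorization p + 1)))) :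
    ∃ π : Multiplicative (ZMod n) →* A, Function.Surjective π := by
  have hc : IsCyclic A := isCyclic_of_local (fun p hp => (h p hp).1)
  obtain ⟨g, hg⟩ := IsCyclic.exists_generator (α := A)
  have hpow : ∀ a : A, ∃ t : ℕ, g ^ t = a := by
    intro a
    have h1 : a ∈ Submonoid.powers g := by
      rw [mem_powers_iff_mem_zpowers]
      exact hg a
    exact h1
  have hN0 : orderOf g ≠ 0 := (orderOf_pos g).ne'
  have hdvd : orderOf g ∣ n := by
    rw [← Nat.factorization_prime_le_iff_dvd hN0 hn.ne']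
    intro p hp
    by_contra hlt
    push Not at hlt
    have h1 : p ^ (n.factorization p + 1) ∣ orderOf g :=
      (Nat.Prime.pow_dvd_iff_le_factorization hp hN0).mpr hlt
    obtain ⟨b, hb⟩ := (h p hp).2 g
    obtain ⟨t, rfl⟩ := hpow b
    rw [← pow_mul, pow_eq_pow_iff_modEq] at hb
    have h2 := hb.of_dvd h1
    have h3 : p ^ (n.factorization p + 1) ∣ p ^ (n.factorization p) := by
      rw [← Nat.modEq_zero_iff_dvd]
      refine h2.trans ?_
      rw [Nat.modEq_zero_iff_dvd]
      exact Dvd.intro_left _ rfl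
    have h4 := Nat.le_of_dvd (pow_pos hp.pos _) h3
    have h5 : p ^ (n.factorization p) < p ^ (n.factorization p + 1) :=
      Nat.pow_lt_pow_right hp.one_lt (Nat.lt_succ_self (n.factorization p))
    omega
  have hgn : g ^ n = 1 := orderOf_dvd_iff_pow_eq_one.mp hdvd
  have : NeZero n := ⟨hn.ne'⟩
  refine ⟨{ toFun := fun x => g ^ (Multiplicative.toAdd x).val
            map_one' := by simp
            map_mul' := ?_ }, ?_⟩
  · intro x y
    show g ^ (Multiplicative.toAdd x + Multiplicative.toAdd y).val = _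
    rw [ZMod.val_add, ← pow_add, ← pow_eq_pow_mod _ hgn]
  · intro a
    obtain ⟨t, rfl⟩ := hpow a
    refine ⟨Multiplicative.ofAdd (t : ZMod n), ?_⟩
    show g ^ ((t : ZMod n)).val = g ^ t
    rw [ZMod.val_natCast, ← pow_eq_pow_mod _ hgn]

end Cfsg.Agent.Lib.Helper38PCsurj
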