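import Mathlib

set_option autoImplicit false

namespace Cfsg.Agent.Lib.Helper38SolvChain

open scoped commutatorElement

variable {Γ : Type*} [Group Γ]

/-- a non-identity element of an abelian normal subgroup. -/
def Good (a : Γ) : Prop :=
  a ≠ 1 ∧ ∃ T : Subgroup Γ, T.Normal ∧ (∀ u ∈ T, ∀ v ∈ T, u * v = v * u) ∧ a ∈ T

lemma comm_sup {T A : Subgroup Γ} (hT : ∀ u ∈ T, ∀ v ∈ T, u * v = v * u)
    (hA : ∀ u ∈ A, ∀ v ∈ A, u * v = v * u) (hTA : ∀ u ∈ T, ∀ v ∈ A, u * v = v * u) :
    ∀ u ∈ T ⊔ A, ∀ v ∈ T ⊔ A, u * v = v * u := by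
  have h1 : T ⊔ A ≤ Subgroup.centralizer (T : Set Γ) := by
    apply sup_le
    · intro u hu
      rw [Subgroup.mem_centralizer_iff]
      intro v hv
      exact hT v hv u hu
    · intro u hu
      rw [Subgroup.mem_centralizer_iff]
      intro v hv
      exact hTA v hv u hu
  have h2 : T ⊔ A ≤ Subgroup.centralizer (A : Set Γ) := by
    apply sup_le
    · intro u hu
      rw [Subgroup.mem_centralizer_iff]
      intro v hv
      exact (hTA u hu v hv).symm
    · intro u hu
      rw [Subgroup.mem_centralizer_iff]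
      intro v hv
      exact hA v hv u hu
  have h3 : T ⊔ A ≤ Subgroup.centralizer ((T ⊔ A : Subgroup Γ) : Set Γ) := by
    apply sup_le
    · rw [Subgroup.le_centralizer_iff]; exact h1
    · rw [Subgroup.le_centralizer_iff]; exact h2
  intro u hu v hv
  exact ((Subgroup.mem_centralizer_iff.1 (h3 hu)) v hv).symm

lemma comm_ne_one_iff {a b : Γ} : ⁅a, b⁆ ≠ 1 ↔ a * b ≠ b * a := by
  rw [Ne, commutatorElement_eq_one_iff_mul_comm]

/-- In a finite solvable group every non-identity element reaches a non-identity element of an abelian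
normal subgroup after at most two commutations. -/
theorem chain [Finite Γ] [Group.IsSolvable Γ] (g : Γ) (hg : g ≠ 1) :
    Good g ∨ (∃ x : Γ, Good ⁅g, x⁆) ∨ ∃ x y : Γ, Good ⁅⁅g, x⁆, y⁆ := by
  classical
  -- a maximal abelian normal subgroup
  obtain ⟨A, hAmax⟩ := (Set.toFinite {T : Subgroup Γ | T.Normal ∧
    ∀ u ∈ T, ∀ v ∈ T, u * v = v * u}).exists_maximal
      ⟨⊥, by
        refine ⟨inferInstance, ?_⟩
        intro u hu v hv
        rw [Subgroup.mem_bot] at hu hv
        rw [hu, hv]⟩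
  obtain ⟨⟨hAn, hAc⟩, hAm⟩ := hAmax
  by_cases h1 : ∃ a ∈ A, ⁅g, a⁆ ≠ 1
  · obtain ⟨a, ha, hne⟩ := h1
    right; left
    refine ⟨a, hne, A, hAn, hAc, ?_⟩
    rw [commutatorElement_def]
    exact A.mul_mem (hAn.conj_mem a ha g) (A.inv_mem ha)
  push Not at h1
  by_cases h2 : g ∈ A
  · left
    exact ⟨hg, A, hAn, hAc, h2⟩
  have hCn : (Subgroup.centralizer (A : Set Γ)).Normal := inferInstance
  have hgC : g ∈ Subgroup.centralizer (A : Set Γ) := by
    rw [Subgroup.mem_centralizer_iff]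
    intro a ha
    exact (commutatorElement_eq_one_iff_mul_comm.1 (h1 a ha)).symm
  -- maximality
  have hM : ∀ T : Subgroup Γ, T.Normal → (∀ u ∈ T, ∀ v ∈ T, u * v = v * u) →
      T ≤ Subgroup.centralizer (A : Set Γ) → T ≤ A := by
    intro T hTn hTc hTC
    have hsup : (T ⊔ A).Normal := Subgroup.sup_normal T A
    have hc := comm_sup hTc hAc (fun u hu v hv => ((Subgroup.mem_centralizer_iff.1 (hTC hu)) v hv).symm)
    have := hAm ⟨hsup, hc⟩ le_sup_right
    exact le_trans le_sup_left this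
  -- a class two normal subgroup not centralised by g
  have hN : ∃ N : Subgroup Γ, N.Normal ∧ N ≤ Subgroup.centralizer (A : Set Γ) ∧ ⁅N, N⁆ ≤ A ∧
      ∃ x ∈ N, ⁅g, x⁆ ≠ 1 := by
    by_contra hcon
    push Not at hcon
    obtain ⟨T, hTmin⟩ := (Set.toFinite {T : Subgroup Γ | T.Normal ∧
      T ≤ Subgroup.normalClosure {g} ∧ ¬ T ≤ A}).exists_minimal
        ⟨Subgroup.normalClosure {g}, inferInstance, le_rfl, fun h =>
          h2 (h (Subgroup.subset_normalClosure (Set.mem_singleton g)))⟩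
    obtain ⟨⟨hTn, hTle, hTA⟩, hTm⟩ := hTmin
    have hncC : Subgroup.normalClosure {g} ≤ Subgroup.centralizer (A : Set Γ) :=
      Subgroup.normalClosure_le_normal (by simpa using hgC)
    have hTbot : T ≠ ⊥ := by
      rintro rfl
      exact hTA bot_le
    have hlt : ⁅T, T⁆ < T := Group.IsSolvable.commutator_lt_of_ne_bot hTbot
    have hcomA : ⁅T, T⁆ ≤ A := by
      by_contra hnot
      have hn : (⁅T, T⁆ : Subgroup Γ).Normal := Subgroup.commutator_normal T T
      have := hTm ⟨hn, le_trans hlt.le hTle, hnot⟩ hlt.le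
      exact absurd (lt_of_lt_of_le hlt this) (lt_irrefl _)
    have hcent := hcon T hTn (le_trans hTle hncC) hcomA
    have hTcn : (Subgroup.centralizer (T : Set Γ)).Normal := inferInstance
    have hgT : g ∈ Subgroup.centralizer (T : Set Γ) := by
      rw [Subgroup.mem_centralizer_iff]
      intro x hx
      exact (commutatorElement_eq_one_iff_mul_comm.1 (hcent x hx)).symm
    have hncT : Subgroup.normalClosure {g} ≤ Subgroup.centralizer (T : Set Γ) :=
      Subgroup.normalClosure_le_normal (by simpa using hgT)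
    apply hTA
    apply hM T hTn _ (le_trans hTle hncC)
    intro u hu v hv
    exact ((Subgroup.mem_centralizer_iff.1 (hncT (hTle hu))) v hv).symm
  obtain ⟨N, hNn, hNC, hNA, x, hx, hne⟩ := hN
  have hhN : ⁅g, x⁆ ∈ N := by
    rw [commutatorElement_def]
    exact N.mul_mem (hNn.conj_mem x hx g) (N.inv_mem hx)
  by_cases h3 : ⁅g, x⁆ ∈ A
  · right; left
    exact ⟨x, hne, A, hAn, hAc, h3⟩
  right; right
  have hy : ∃ y ∈ N, ⁅⁅g, x⁆, y⁆ ≠ 1 := by
    by_contra hcon
    push Not at hcon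
    apply h3
    have hZn : (N ⊓ Subgroup.centralizer (N : Set Γ)).Normal := inferInstance
    apply hM (N ⊓ Subgroup.centralizer (N : Set Γ)) hZn _ (le_trans inf_le_left hNC)
    · refine Subgroup.mem_inf.2 ⟨hhN, ?_⟩
      rw [Subgroup.mem_centralizer_iff]
      intro y hy
      exact (commutatorElement_eq_one_iff_mul_comm.1 (hcon y hy)).symm
    · intro u hu v hv
      exact ((Subgroup.mem_centralizer_iff.1 (Subgroup.mem_inf.1 hu).2) v (Subgroup.mem_inf.1 hv).1).symm
  obtain ⟨y, hy, hne2⟩ := hy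
  exact ⟨x, y, hne2, A, hAn, hAc, hNA (Subgroup.commutator_mem_commutator hhN hy)⟩

end Cfsg.Agent.Lib.Helper38SolvChain
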