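import Cfsg.Agent.Lib.Helper96SpxDefs
import Cfsg.Agent.Lib.Helper95Extcoord
import Cfsg.Agent.Lib.Helper95Extc1

set_option autoImplicit false
set_option linter.unusedSectionVars false

/-! PROJECT 97, piece `c1`. -/

namespace Cfsg.Agent.Lib.Helper38Spxc1

open Module Cfsg.Agent.Lib.Helper96ExtDefs Cfsg.Agent.Lib.Helper96SpxDefs
open Cfsg.Agent.Lib.Helper95Extcoord Cfsg.Agent.Lib.Helper95Extc1

variable {F V : Type*} [Field F] [AddCommGroup V] [Module F V] [Finite F] [Finite V]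
variable {G : Subgroup (Module.End F V)ˣ} {B : LinearMap.BilinForm F V}

/-- piece `c1` (`q > 2`) -/
theorem c1S (hsk : ∀ x y, B x y = - B y x) {Q Q' : Submodule F V}
    {T T' : Submodule F (Module.End F V)} (hQ : RootS B G Q T) (hQ' : RootS B G Q' T')
    (hd : finrank F ↥(Q ⊓ Q') + 1 = finrank F Q) (hd' : finrank F ↥(Q ⊓ Q') + 1 = finrank F Q')
    (hW : Q ⊓ Q' ≠ ⊥) {p p' : V} (hp : p ∈ Q) (hp' : p' ∈ Q') (hpp : B p p' ≠ 0) {f : F}
    (hf0 : f ≠ 0) (hf1 : f ≠ 1) : HasTv G := by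
  have hpQ' : p ∉ Q' := fun h => hpp (hQ'.iso p h p' hp')
  have hp'Q : p' ∉ Q := fun h => hpp (hQ.iso p hp p' h)
  obtain ⟨π, b1, -, hπ⟩ := exists_coord (inf_le_left : Q ⊓ Q' ≤ Q) hd hp (fun h => hpQ' h.2)
  obtain ⟨π', -, -, hπ'⟩ := exists_coord (inf_le_right : Q ⊓ Q' ≤ Q') hd' hp' (fun h => hp'Q h.1)
  have hp'p : B p' p ≠ 0 := by
    rw [hsk]
    exact neg_ne_zero.2 hpp
  obtain ⟨w₁, hw₁, hw₁0⟩ := Submodule.exists_mem_ne_zero_of_ne_bot hW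
  obtain ⟨ν, hν, hνu⟩ := hQ.trans p' ⟨p, hp, hp'p⟩ w₁ hw₁.1
  obtain ⟨μ, hμ, hμp⟩ := hQ'.trans p ⟨p', hp', hpp⟩ p' hp'
  have kQ : ∀ {ν : Module.End F V}, ν ∈ T → ∀ v ∈ Q, ν v = 0 :=
    fun {ν} hν v hv => hQ.ker ν hν v (fun y hy => hQ.iso v hv y hy)
  have kQ' : ∀ {ν : Module.End F V}, ν ∈ T' → ∀ v ∈ Q', ν v = 0 :=
    fun {ν} hν v hv => hQ'.ker ν hν v (fun y hy => hQ'.iso v hv y hy)
  have mulT : ∀ {ν ν' : Module.End F V}, ν ∈ T → ν' ∈ T → ν * ν' = 0 := by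
    intro ν ν' hν hν'
    ext v
    rw [Module.End.mul_apply]
    exact kQ hν _ (hQ.range ν' hν' v)
  have mulT' : ∀ {ν ν' : Module.End F V}, ν ∈ T' → ν' ∈ T' → ν * ν' = 0 := by
    intro ν ν' hν hν'
    ext v
    rw [Module.End.mul_apply]
    exact kQ' hν _ (hQ'.range ν' hν' v)
  have hνν := mulT hν hν
  have hμμ := mulT' hμ hμ
  have hνμ : ∀ v, ν (μ v) = π' (μ v) • w₁ := by
    intro v
    rw [apply_of_coord hπ' (fun w hw => kQ hν w hw.1) (hQ'.range μ hμ v), hνu]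
  have hμν : ∀ v, μ (ν v) = π (ν v) • p' := by
    intro v
    rw [apply_of_coord hπ (fun w hw => kQ' hμ w hw.2) (hQ.range ν hν v), hμp]
  have h3 : μ * ν * μ = 0 := by
    ext v
    simp only [Module.End.mul_apply, hνμ, map_smul, kQ' hμ w₁ hw₁.2, smul_zero,
      LinearMap.zero_apply]
  have hB : ν * μ * ν = (π ∘ₗ ν).smulRight w₁ := by
    ext v
    simp only [Module.End.mul_apply, hμν, map_smul, hνu, LinearMap.smulRight_apply,
      LinearMap.comp_apply]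
  have hX := InG_comm (hQ.inG _ (T.smul_mem f hν)) (hQ'.inG _ (T'.smul_mem 1 hμ))
    (mulT (T.smul_mem f hν) (T.smul_mem f hν)) (mulT' (T'.smul_mem 1 hμ) (T'.smul_mem 1 hμ))
  have hY := InG_comm (hQ'.inG _ (T'.smul_mem f hμ)) (hQ.inG _ (T.smul_mem 1 hν))
    (mulT' (T'.smul_mem f hμ) (T'.smul_mem f hμ)) (mulT (T.smul_mem 1 hν) (T.smul_mem 1 hν))
  rw [X_eq h3] at hX
  rw [Y_eq h3] at hY
  have hXY := hX.mul hY
  rw [prod_eq hνν hμμ h3] at hXY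
  have e : (1 : Module.End F V) + (f * 1 - 1 * f) • (ν * μ - μ * ν) + (1 * 1 * f - f * f * 1) • (ν * μ * ν)
      = 1 + ((f - f * f) • (π ∘ₗ ν)).smulRight w₁ := by
    rw [hB]
    ext v
    simp [smul_smul]
  rw [e] at hXY
  have hff : f - f * f ≠ 0 := by
    have : f - f * f = f * (1 - f) := by ring
    rw [this]
    exact mul_ne_zero hf0 (sub_ne_zero.2 (Ne.symm hf1))
  refine ⟨(f - f * f) • (π ∘ₗ ν), w₁, ?_, hw₁0, ?_, hXY⟩
  · intro h0
    have hν0 : ν ≠ 0 := by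
      rintro rfl
      exact hw₁0 hνu.symm
    obtain ⟨x, hx⟩ := hQ.onto ν hν hν0 p hp
    have := congrArg (fun ψ : Module.Dual F V => ψ x) h0
    simp only [LinearMap.smul_apply, LinearMap.comp_apply, hx, b1, smul_eq_mul, mul_one,
      LinearMap.zero_apply] at this
    exact hff this
  · simp [kQ hν w₁ hw₁.1]

end Cfsg.Agent.Lib.Helper38Spxc1
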