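import Cfsg.Agent.Lib.Helper96SpxDefs
import Cfsg.Agent.Lib.Helper95Extcoord
import Cfsg.Agent.Lib.Helper95Extc3a

set_option autoImplicit false
set_option linter.unusedSectionVars false

/-! PROJECT 97, piece `c3a`. -/

namespace Cfsg.Agent.Lib.Helper38Spxc3a

open Module Cfsg.Agent.Lib.Helper96ExtDefs Cfsg.Agent.Lib.Helper96SpxDefs
open Cfsg.Agent.Lib.Helper95Extcoord Cfsg.Agent.Lib.Helper95Extc3a

variable {F V : Type*} [Field F] [AddCommGroup V] [Module F V] [Finite F] [Finite V]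
variable {G : Subgroup (Module.End F V)ˣ} {B : LinearMap.BilinForm F V}

/-- piece `c3a` (`q = 2`) -/
theorem c3aS (hF : Nat.card F = 2) (hiso : IsoG B G) (hsk : ∀ x y, B x y = - B y x)
    {Q Q' : Submodule F V} {T T' : Submodule F (Module.End F V)} (hQ : RootS B G Q T)
    (hQ' : RootS B G Q' T') (hd : finrank F ↥(Q ⊓ Q') + 1 = finrank F Q)
    (hd' : finrank F ↥(Q ⊓ Q') + 1 = finrank F Q') {p p' : V} (hp : p ∈ Q) (hp' : p' ∈ Q')
    (hpp : B p p' ≠ 0) :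
    ∀ w₁ ∈ Q ⊓ Q', ∀ w₂ ∈ Q ⊓ Q', InG G (1 + alt2 B w₁ w₂) := by
  intro w₁ hw₁ w₂ hw₂
  have hone : ∀ x : F, x ≠ 0 → x = 1 := by
    intro x hx
    have := Fintype.ofFinite F
    have h1 := FiniteField.pow_card_sub_one_eq_one x hx
    rw [← Nat.card_eq_fintype_card, hF] at h1
    simpa using h1
  have htwo : (1 : F) + 1 = 0 := by
    by_contra h
    have := hone _ h
    simp at this
  have hpp1 : B p p' = 1 := hone _ hpp
  have hpQ' : p ∉ Q' := fun h => hpp (hQ'.iso p h p' hp')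
  have hp'Q : p' ∉ Q := fun h => hpp (hQ.iso p hp p' h)
  obtain ⟨π, -, -, hπ⟩ := exists_coord (inf_le_left : Q ⊓ Q' ≤ Q) hd hp (fun h => hpQ' h.2)
  obtain ⟨π', -, -, hπ'⟩ := exists_coord (inf_le_right : Q ⊓ Q' ≤ Q') hd' hp' (fun h => hp'Q h.1)
  have hp'p : B p' p ≠ 0 := by
    rw [hsk]
    exact neg_ne_zero.2 hpp
  obtain ⟨ν₁, hν₁, hν₁u⟩ := hQ.trans p' ⟨p, hp, hp'p⟩ w₁ hw₁.1
  obtain ⟨ν₂, hν₂, hν₂u⟩ := hQ.trans p' ⟨p, hp, hp'p⟩ w₂ hw₂.1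
  obtain ⟨μ, hμ, hμp⟩ := hQ'.trans p ⟨p', hp', hpp⟩ p' hp'
  have kQ : ∀ {ν : Module.End F V}, ν ∈ T → ∀ v ∈ Q, ν v = 0 :=
    fun {ν} hν v hv => hQ.ker ν hν v (fun y hy => hQ.iso v hv y hy)
  have kQ' : ∀ {ν : Module.End F V}, ν ∈ T' → ∀ v ∈ Q', ν v = 0 :=
    fun {ν} hν v hv => hQ'.ker ν hν v (fun y hy => hQ'.iso v hv y hy)
  have mulT : ∀ {ν ν' : Module.End F V}, ν ∈ T → ν' ∈ T → ν * ν' = 0 := by
    intro ν ν' hν hν'
    ext v
    rw [Module.End.mul_apply]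
    exact kQ hν _ (hQ.range ν' hν' v)
  have hμμ : μ * μ = 0 := by
    ext v
    rw [Module.End.mul_apply]
    exact kQ' hμ _ (hQ'.range μ hμ v)
  have hνμ : ∀ {ν : Module.End F V}, ν ∈ T → ∀ v, ν (μ v) = π' (μ v) • ν p' := by
    intro ν hν v
    rw [apply_of_coord hπ' (fun w hw => kQ hν w hw.1) (hQ'.range μ hμ v)]
  have hμν : ∀ {ν : Module.End F V}, ν ∈ T → ∀ v, μ (ν v) = π (ν v) • p' := by
    intro ν hν v
    rw [apply_of_coord hπ (fun w hw => kQ' hμ w hw.2) (hQ.range ν hν v), hμp]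
  have h31 : μ * ν₁ * μ = 0 := by
    ext v
    simp only [Module.End.mul_apply, hνμ hν₁, hν₁u, map_smul, kQ' hμ w₁ hw₁.2, smul_zero,
      LinearMap.zero_apply]
  have h32 : μ * ν₂ * μ = 0 := by
    ext v
    simp only [Module.End.mul_apply, hνμ hν₂, hν₂u, map_smul, kQ' hμ w₂ hw₂.2, smul_zero,
      LinearMap.zero_apply]
  have hν12 := T.add_mem hν₁ hν₂
  have hX := InG_comm (hQ.inG _ hν12) (hQ'.inG _ hμ) (mulT hν12 hν12) hμμ
  have hY₁ := InG_comm (hQ'.inG _ hμ) (hQ.inG _ hν₁) hμμ (mulT hν₁ hν₁)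
  have hY₂ := InG_comm (hQ'.inG _ hμ) (hQ.inG _ hν₂) hμμ (mulT hν₂ hν₂)
  have hXY := (hX.mul hY₁).mul hY₂
  rw [ring_c3a (mulT hν₁ hν₁) (mulT hν₁ hν₂) (mulT hν₂ hν₁) (mulT hν₂ hν₂) hμμ h31 h32] at hXY
  -- the coordinate `π` on `Q`
  have hπB : ∀ y ∈ Q, π y = B y p' := by
    intro y hy
    have h1 := hQ'.iso _ (hπ y hy).2 p' hp'
    rw [map_sub, map_smul, LinearMap.sub_apply, LinearMap.smul_apply, hpp1, smul_eq_mul, mul_one,
      sub_eq_zero] at h1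
    exact h1.symm
  -- symmetry of `ν`
  have hsym : ∀ {ν : Module.End F V}, ν ∈ T → ∀ x y, B (ν x) y = B (ν y) x := by
    intro ν hν x y
    obtain ⟨g, hg, hgν⟩ := hQ.inG ν hν
    have h1 := hiso g hg x y
    rw [hgν] at h1
    simp only [LinearMap.add_apply, Module.End.one_apply, map_add] at h1
    rw [hQ.iso _ (hQ.range ν hν x) _ (hQ.range ν hν y), add_zero, hsk x (ν y)] at h1
    have h2 : B (ν x) y - B (ν y) x = 0 := by
      linear_combination h1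
    exact sub_eq_zero.1 h2
  have hδ : (ν₁ * μ * ν₂ + ν₂ * μ * ν₁ : Module.End F V) = alt2 B w₁ w₂ := by
    ext v
    simp only [LinearMap.add_apply, Module.End.mul_apply, hμν hν₁, hμν hν₂, map_smul, hν₁u, hν₂u,
      alt2_apply]
    rw [hπB _ (hQ.range ν₂ hν₂ v), hπB _ (hQ.range ν₁ hν₁ v), hsym hν₂ v p', hsym hν₁ v p', hν₁u,
      hν₂u]
  rw [hδ] at hXY
  have hneg : (1 - alt2 B w₁ w₂ : Module.End F V) = 1 + alt2 B w₁ w₂ := by
    have h2 : (alt2 B w₁ w₂ + alt2 B w₁ w₂ : Module.End F V) = 0 := by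
      rw [← one_smul F (alt2 B w₁ w₂), ← add_smul, htwo, zero_smul]
    rw [sub_eq_add_neg, eq_comm]
    congr 1
    exact eq_neg_of_add_eq_zero_left h2
  rwa [hneg] at hXY

end Cfsg.Agent.Lib.Helper38Spxc3a
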