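import Cfsg.Agent.Lib.Helper96SpxDefs

set_option autoImplicit false
set_option linter.unusedSectionVars false

/-! PROJECT 97, piece `dall`. -/

namespace Cfsg.Agent.Lib.Helper38Spxdall

open Module Cfsg.Agent.Lib.Helper96ExtDefs Cfsg.Agent.Lib.Helper96SpxDefs

variable {F V : Type*} [Field F] [AddCommGroup V] [Module F V] [Finite F] [Finite V]
variable {G : Subgroup (Module.End F V)ˣ} {B : LinearMap.BilinForm F V}

/-- piece `dall` -/
theorem all_stv (hiso : IsoG B G) (hself : ∀ x, B x x = 0)
    (hmove : ∀ a b : V, a ≠ 0 → b ≠ 0 → ∃ g ∈ G, (g : Module.End F V) a = b)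
    (hsq : ∀ x : F, ∃ s t : F, x = s * s - t * t) {c₀ : F} {w₀ : V} (hc₀ : c₀ ≠ 0) (hw₀ : w₀ ≠ 0)
    (h : InG G (1 + (c₀ • B.flip w₀).smulRight w₀)) :
    ∀ (c : F) (w : V), InG G (1 + (c • B.flip w).smulRight w) := by
  have happ : ∀ (c : F) (w v : V),
      (1 + (c • B.flip w).smulRight w : Module.End F V) v = v + (c * B v w) • w := by
    intro c w v
    simp
  have hadd : ∀ (c c' : F) (w : V),
      (1 + (c • B.flip w).smulRight w : Module.End F V) * (1 + (c' • B.flip w).smulRight w)
        = 1 + ((c + c') • B.flip w).smulRight w := by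
    intro c c' w
    ext v
    rw [Module.End.mul_apply, happ, happ, happ]
    simp only [map_add, map_smul, LinearMap.add_apply, LinearMap.smul_apply, hself, smul_zero,
      add_zero, add_mul, add_smul]
    abel
  have hconj : ∀ (c : F) (w : V) (g : (Module.End F V)ˣ), g ∈ G →
      (g : Module.End F V) * (1 + (c • B.flip w).smulRight w)
          * ((g⁻¹ : (Module.End F V)ˣ) : Module.End F V)
        = 1 + (c • B.flip ((g : Module.End F V) w)).smulRight ((g : Module.End F V) w) := by
    intro c w g hg
    ext v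
    rw [Module.End.mul_apply, Module.End.mul_apply, happ, happ, map_add, map_smul, unit_apply_inv]
    have h1 : B (((g⁻¹ : (Module.End F V)ˣ) : Module.End F V) v) w = B v ((g : Module.End F V) w) := by
      rw [← hiso g hg, unit_apply_inv]
    rw [h1]
  have hscal : ∀ (c l : F) (w : V),
      (1 + (c • B.flip (l • w)).smulRight (l • w) : Module.End F V)
        = 1 + ((c * (l * l)) • B.flip w).smulRight w := by
    intro c l w
    ext v
    rw [happ, happ, map_smul, smul_smul, smul_eq_mul]
    congr 2
    ring
  have hzero : ∀ w : V, InG G (1 + ((0 : F) • B.flip w).smulRight w) := by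
    intro w
    have : (1 + ((0 : F) • B.flip w).smulRight w : Module.End F V) = 1 := by
      ext v
      rw [happ]
      simp
    rw [this]
    exact InG.one
  intro c w
  by_cases hw : w = 0
  · subst hw
    have : (1 + (c • B.flip (0 : V)).smulRight (0 : V) : Module.End F V) = 1 := by
      ext v
      rw [happ]
      simp
    rw [this]
    exact InG.one
  -- `c₀` works for all nonzero vectors
  have h1 : ∀ w' : V, w' ≠ 0 → InG G (1 + (c₀ • B.flip w').smulRight w') := by
    intro w' hw'
    obtain ⟨g, hg, hgw⟩ := hmove w₀ w' hw₀ hw'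
    have := h.conj hg
    rwa [hconj c₀ w₀ g hg, hgw] at this
  have h2 : ∀ l : F, InG G (1 + ((c₀ * (l * l)) • B.flip w).smulRight w) := by
    intro l
    by_cases hl : l = 0
    · subst hl
      simpa using hzero w
    · rw [← hscal]
      exact h1 _ (smul_ne_zero hl hw)
  have h3 : ∀ l : F, InG G (1 + ((-(c₀ * (l * l))) • B.flip w).smulRight w) := by
    intro l
    apply (h2 l).of_mul_eq_one
    rw [hadd, add_neg_cancel]
    ext v
    rw [happ]
    simp
  obtain ⟨s, t, hst⟩ := hsq (c / c₀)
  have h4 := (h2 s).mul (h3 t)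
  rw [hadd] at h4
  have h5 : c₀ * (s * s) + -(c₀ * (t * t)) = c := by
    have : c = c₀ * (c / c₀) := by field_simp
    rw [this, hst]
    ring
  rwa [h5] at h4

end Cfsg.Agent.Lib.Helper38Spxdall
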