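import Cfsg.Agent.Lib.Helper96SpxDefs
import Cfsg.Agent.Lib.Helper95Extcoord
import Cfsg.Agent.Lib.Helper73Extfinrankpt

set_option autoImplicit false
set_option linter.unusedSectionVars false

/-! PROJECT 97, piece `hyp`. -/

namespace Cfsg.Agent.Lib.Helper38Spxhyp

open Module Cfsg.Agent.Lib.Helper96ExtDefs Cfsg.Agent.Lib.Helper96SpxDefs

variable {F K V : Type*} [Field F] [Field K] [Algebra F K] [AddCommGroup V] [Module F V] [Module K V]
  [IsScalarTower F K V] [Finite F] [Finite K] [Finite V]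

/-- piece `hyp` -/
theorem hyp (h3 : 3 ≤ finrank F K) {a : V} {W₀ : Submodule F V}
    (hd : finrank F W₀ + 1 = finrank F K) (hW₀ : W₀ ≤ pt F K a) {y₁ y₂ : V} (h₁ : y₁ ∈ pt F K a)
    (h₂ : y₂ ∈ pt F K a) : ∃ c : K, c ≠ 0 ∧ c • y₁ ∈ W₀ ∧ c • y₂ ∈ W₀ := by
  have ha : a ≠ 0 := by
    rintro rfl
    have h0 : W₀ = ⊥ := by
      rw [eq_bot_iff]
      intro x hx
      obtain ⟨k, hk⟩ := mem_pt.1 (hW₀ hx)
      rw [smul_zero] at hk
      exact (Submodule.mem_bot F).2 hk.symm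
    rw [h0, finrank_bot] at hd
    omega
  have hpt : finrank F (pt F K a) = finrank F K := Cfsg.Agent.Lib.Helper73Extfinrankpt.finrank_pt ha
  obtain ⟨p, hp, hpW⟩ : ∃ p ∈ pt F K a, p ∉ W₀ := by
    by_contra hcon
    push Not at hcon
    have := Submodule.finrank_mono hcon
    omega
  obtain ⟨π, -, -, hπ⟩ := Cfsg.Agent.Lib.Helper95Extcoord.exists_coord hW₀ (hd.trans hpt.symm) hp hpW
  let f₁ : K →ₗ[F] V := ((LinearMap.id : K →ₗ[K] K).smulRight y₁).restrictScalars F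
  let f₂ : K →ₗ[F] V := ((LinearMap.id : K →ₗ[K] K).smulRight y₂).restrictScalars F
  have hf₁ : ∀ k, f₁ k = k • y₁ := fun k => rfl
  have hf₂ : ∀ k, f₂ k = k • y₂ := fun k => rfl
  let g : K →ₗ[F] F × F := (π.comp f₁).prod (π.comp f₂)
  have hker : LinearMap.ker g ≠ ⊥ := by
    apply LinearMap.ker_ne_bot_of_finrank_lt
    rw [finrank_prod, finrank_self]
    omega
  obtain ⟨c, hc, hc0⟩ := Submodule.exists_mem_ne_zero_of_ne_bot hker
  have hg : g c = 0 := hc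
  have hg1 : π (c • y₁) = 0 := congrArg Prod.fst hg
  have hg2 : π (c • y₂) = 0 := congrArg Prod.snd hg
  have hmem : ∀ y ∈ pt F K a, c • y ∈ pt F K a := by
    intro y hy
    obtain ⟨k, rfl⟩ := mem_pt.1 hy
    rw [smul_smul]
    exact smul_mem_pt _ _
  refine ⟨c, hc0, ?_, ?_⟩
  · have := hπ _ (hmem y₁ h₁)
    rwa [hg1, zero_smul, sub_zero] at this
  · have := hπ _ (hmem y₂ h₂)
    rwa [hg2, zero_smul, sub_zero] at this

end Cfsg.Agent.Lib.Helper38Spxhyp
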