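import Mathlib

set_option autoImplicit false

/-! SU_6(2): the 126 points (in coordinates with respect to an orthonormal frame). -/

namespace Cfsg.Agent.Lib.Helper38U6Defs

variable {F : Type*} [Field F]

open Classical in
/-- the 126 points (378 vectors) in coordinates: weight 2, or all coordinates non-zero with product 1. -/
def S6 (x : Fin 6 → F) : Prop :=
  (Finset.univ.filter (fun i => x i ≠ 0)).card = 2 ∨ ∏ i, x i = 1

end Cfsg.Agent.Lib.Helper38U6Defs
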