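import Cfsg.Agent.Lib.Helper97CField

set_option autoImplicit false
set_option linter.unusedSectionVars false

namespace Cfsg.Agent.Lib.Helper97CSubK

open Cfsg Cfsg.Geo Matrix Cfsg.Agent.Lib.Helper97GBase
open scoped MatrixGroups

/-- the intermediate field of given degree of an extension of finite fields -/
lemma exists_intermediate {F E : Type*} [Field F] [Fintype F] [Field E] [Algebra F E] [Finite E]
    {r : ℕ} (hr0 : 0 < r) (hr : r ∣ Module.finrank F E) :
    ∃ L : IntermediateField F E, Module.finrank F L = r ∧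
      ∀ x, x ∈ L ↔ x ^ (Fintype.card F ^ r) = x := by
  classical
  let φ := FiniteField.frobeniusAlgEquivOfAlgebraic F E
  have hord : orderOf φ = Module.finrank F E := FiniteField.orderOf_frobeniusAlgEquivOfAlgebraic F E
  have hk0 : 0 < Module.finrank F E := Module.finrank_pos
  let τ := φ ^ r
  have hτa : ∀ x, τ x = x ^ (Fintype.card F ^ r) := by
    intro x
    have h1 : (τ : E → E) = (⇑φ)^[r] := by
      ext y
      exact AlgEquiv.coe_pow φ r ▸ rfl
    rw [h1, FiniteField.coe_frobeniusAlgEquivOfAlgebraic_iterate]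
  have hτ : orderOf τ = Module.finrank F E / r := by
    rw [← hord]
    exact orderOf_pow_of_dvd hr0.ne' (hord ▸ hr)
  let L := IntermediateField.fixedField (Subgroup.zpowers τ)
  have hL : Module.finrank L E = Module.finrank F E / r := by
    rw [IntermediateField.finrank_fixedField_eq_card, Nat.card_zpowers, hτ]
  refine ⟨L, ?_, ?_⟩
  · have h1 := Module.finrank_mul_finrank F L E
    rw [hL] at h1
    obtain ⟨m, hm⟩ := hr
    rw [hm, Nat.mul_div_cancel_left m hr0] at h1
    have hm0 : 0 < m := by
      rcases Nat.eq_zero_or_pos m with h | h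
      · rw [h, mul_zero] at hm; omega
      · exact h
    exact Nat.eq_of_mul_eq_mul_right hm0 h1
  · intro a
    rw [← hτa]
    constructor
    · intro ha
      rw [IntermediateField.mem_fixedField_iff] at ha
      exact ha τ (Subgroup.mem_zpowers τ)
    · intro ha
      rw [IntermediateField.mem_fixedField_iff]
      have hle : Subgroup.zpowers τ ≤ MulAction.stabilizer (E ≃ₐ[F] E) a := by
        rw [Subgroup.zpowers_le, MulAction.mem_stabilizer_iff]
        exact ha
      intro f hf
      exact MulAction.mem_stabilizer_iff.mp (hle hf)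

variable {ι : Type} [Fintype ι] [DecidableEq ι] {F : Type*} [Field F]

/-- a field of matrices contains a subfield of each degree dividing its degree, and the subfield is
normalised by the normaliser of the field -/
theorem exists_subfield [Fintype F] [Nonempty ι] {k r : ℕ} {K : Subalgebra F (Matrix ι ι F)}
    (hK : IsFieldSubalgebra k K) (hr0 : 0 < r) (hr : r ∣ k) :
    ∃ K' : Subalgebra F (Matrix ι ι F), IsFieldSubalgebra r K' ∧ K' ≤ K ∧
      subalgebraNormalizer K ≤ subalgebraNormalizer K' := by
  classical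
  have hnt : Nontrivial K := ⟨0, 1, by
    intro h
    have := congrArg Subtype.val h
    simp at this⟩
  have hfield : IsField K :=
    { exists_pair_ne := ⟨0, 1, zero_ne_one⟩
      mul_comm := fun a b => Subtype.ext (hK.comm a a.2 b b.2)
      mul_inv_cancel := by
        intro a ha
        obtain ⟨y, hy, hxy⟩ := hK.inv a a.2 (fun h => ha (Subtype.ext h))
        exact ⟨⟨y, hy⟩, Subtype.ext hxy⟩ }
  letI : Field K := hfield.toField
  obtain ⟨L, hL, hmem⟩ := exists_intermediate (F := F) (E := K) hr0 (by rw [hK.finrank_eq]; exact hr)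
  let K' : Subalgebra F (Matrix ι ι F) := L.toSubalgebra.map K.val
  have hchar : ∀ x : Matrix ι ι F, x ∈ K' ↔ x ∈ K ∧ x ^ (Fintype.card F ^ r) = x := by
    intro x
    constructor
    · rintro ⟨y, hy, rfl⟩
      refine ⟨y.2, ?_⟩
      have h1 := (hmem y).mp hy
      exact congrArg Subtype.val h1
    · rintro ⟨hx, hpow⟩
      refine ⟨⟨x, hx⟩, (hmem ⟨x, hx⟩).mpr ?_, rfl⟩
      exact Subtype.ext hpow
  have hle : K' ≤ K := fun x hx => ((hchar x).mp hx).1
  refine ⟨K', ⟨fun x hx y hy => hK.comm x (hle hx) y (hle hy), ?_, ?_⟩, hle, ?_⟩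
  · intro x hx hx0
    obtain ⟨hxK, hxp⟩ := (hchar x).mp hx
    obtain ⟨y, hy, hxy⟩ := hK.inv x hxK hx0
    refine ⟨y, (hchar y).mpr ⟨hy, ?_⟩, hxy⟩
    have hc : Commute x y := hK.comm x hxK y hy
    have h1 : x * y ^ (Fintype.card F ^ r) = 1 := by
      have h2 := hc.mul_pow (Fintype.card F ^ r)
      rw [hxy, one_pow, hxp] at h2
      exact h2.symm
    calc y ^ (Fintype.card F ^ r) = (y * x) * y ^ (Fintype.card F ^ r) := by
          rw [← hc.eq, hxy, one_mul]
      _ = y := by rw [mul_assoc, h1, mul_one]
  · have e := (Subalgebra.equivMapOfInjective L.toSubalgebra K.val Subtype.val_injective)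
    rw [← hL]
    exact e.toLinearEquiv.finrank_eq.symm
  · intro g hg x
    rw [hchar, hchar, ← hg x, Units.conj_pow]
    constructor
    · rintro ⟨h1, h2⟩
      exact ⟨h1, by rw [h2]⟩
    · rintro ⟨h1, h2⟩
      refine ⟨h1, ?_⟩
      have h3 := congrArg (fun M => ((g⁻¹ : GL ι F) : Matrix ι ι F) * M * (g : Matrix ι ι F)) h2
      simpa [mul_assoc] using h3

end Cfsg.Agent.Lib.Helper97CSubK
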