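import Cfsg.Agent.Lib.Helper74UAdj
import Cfsg.Agent.Lib.Helper97CSubK

set_option autoImplicit false
set_option linter.unusedSectionVars false

/-! PROJECT 8 = SU_6(2), piece `unit`: a norm-one, determinant-one element of F_64 in M_6(F_4) is a scalar. -/

namespace Cfsg.Agent.Lib.Helper97U6Unit

open Cfsg Cfsg.Geo Matrix
open Cfsg.Agent.Lib.Helper13UDefs Cfsg.Agent.Lib.Helper74UAdj

section abstract

variable {F E : Type*} [Field F] [Fintype F] [Field E] [Algebra F E] [Finite E]

lemma card_E (hF : Fintype.card F = 4) (hE : Module.finrank F E = 3) : Nat.card E = 64 := by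
  rw [Module.natCard_eq_pow_finrank (K := F), Nat.card_eq_fintype_card, hF, hE]
  norm_num

lemma pow64 (hF : Fintype.card F = 4) (hE : Module.finrank F E = 3) (x : E) : x ^ 64 = x := by
  have := Fintype.ofFinite E
  have h := FiniteField.pow_card x
  rwa [← Nat.card_eq_fintype_card, card_E hF hE] at h

lemma two_eq_zero (hF : Fintype.card F = 4) : (2 : F) = 0 := by
  have h4 : ((Fintype.card F : ℕ) : F) = 0 := Nat.cast_card_eq_zero F
  rw [hF] at h4
  have h5 : (2 : F) * 2 = 0 := by
    have : ((4 : ℕ) : F) = 2 * 2 := by norm_num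
    rw [← this]; exact h4
  exact mul_self_eq_zero.mp h5

lemma charE (hF : Fintype.card F = 4) : CharP E 2 := by
  apply CharTwo.of_one_ne_zero_of_two_eq_zero one_ne_zero
  have h := congrArg (algebraMap F E) (two_eq_zero hF)
  rw [map_zero, map_ofNat] at h
  exact h

/-- an involutory ring endomorphism of `F_64` inducing the squaring map on `F_4` is `x ↦ x ^ 8` -/
lemma star_eq_pow (hF : Fintype.card F = 4) (hE : Module.finrank F E = 3) (s : E →+* E)
    (hs2 : ∀ x, s (s x) = x) (hsF : ∀ c : F, s (algebraMap F E c) = algebraMap F E (c ^ 2)) (x : E) :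
    s x = x ^ 8 := by
  have hch : CharP E 2 := charE (F := F) hF
  have hc4 : ∀ c : F, c ^ 4 = c := fun c => by
    have := FiniteField.pow_card c
    rwa [hF] at this
  let ρ : E →ₐ[F] E :=
    { toFun := fun y => s (y ^ 8)
      map_one' := by simp
      map_mul' := fun a b => by rw [mul_pow, map_mul]
      map_zero' := by simp
      map_add' := fun a b => by
        have : (a + b) ^ 8 = a ^ 8 + b ^ 8 := by
          have := add_pow_char_pow (p := 2) (n := 3) a b
          simpa using this
        rw [this, map_add]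
      commutes' := fun c => by
        show s ((algebraMap F E c) ^ 8) = _
        rw [← map_pow, hsF]
        congr 1
        calc (c ^ 8) ^ 2 = (c ^ 4) ^ 4 := by ring
          _ = c := by rw [hc4, hc4] }
  have hρ : ∀ y, ρ y = s (y ^ 8) := fun y => rfl
  have hρ2 : ∀ y, ρ (ρ y) = y := by
    intro y
    rw [hρ, hρ, ← map_pow, hs2, ← pow_mul]
    exact pow64 hF hE y
  let ρ' : E ≃ₐ[F] E := AlgEquiv.ofAlgHom ρ ρ (AlgHom.ext hρ2) (AlgHom.ext hρ2)
  have h2 : ρ' ^ 2 = 1 := by
    ext y
    rw [pow_two]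
    exact hρ2 y
  have h3 : ρ' ^ 3 = 1 := by
    have h := IsGalois.card_aut_eq_finrank F E
    rw [hE] at h
    rw [← h]
    exact pow_card_eq_one'
  have h1 : ρ' = 1 := by
    calc ρ' = ρ' ^ 3 * (ρ' ^ 2)⁻¹ := by group
      _ = 1 := by rw [h2, h3]; simp
  have h4 : s (x ^ 8) = x := by
    have := congrArg (fun e : E ≃ₐ[F] E => e x) h1
    exact this
  rw [← h4, hs2, h4]

/-- an element of `F_64` with `x ^ 9 = 1` whose norm to `F_4` squares to one lies in `F_4`. -/
lemma mem_base (hF : Fintype.card F = 4) (hE : Module.finrank F E = 3) (x : E) (h9 : x ^ 9 = 1)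
    (hN : Algebra.norm F x ^ 2 = 1) : ∃ c : F, x = algebraMap F E c := by
  have h21 : algebraMap F E (Algebra.norm F x) = x ^ 21 := by
    rw [FiniteField.algebraMap_norm_eq_pow, card_E hF hE, Nat.card_eq_fintype_card, hF]
  have h42 : x ^ 42 = 1 := by
    have := congrArg (algebraMap F E) hN
    rw [map_pow, h21, map_one, ← pow_mul] at this
    exact this
  have h6 : x ^ 6 = 1 := by
    have : x ^ 42 = (x ^ 9) ^ 4 * x ^ 6 := by ring
    rw [this, h9, one_pow, one_mul] at h42
    exact h42
  have h3 : x ^ 3 = 1 := by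
    have : x ^ 9 = x ^ 6 * x ^ 3 := by ring
    rw [this, h6, one_mul] at h9
    exact h9
  obtain ⟨L, hL, hmem⟩ := Cfsg.Agent.Lib.Helper97CSubK.exists_intermediate (F := F) (E := E) (r := 1)
    one_pos (one_dvd _)
  have hx : x ∈ L := by
    rw [hmem, hF, pow_one]
    calc x ^ 4 = x ^ 3 * x := by ring
      _ = x := by rw [h3, one_mul]
  rw [IntermediateField.finrank_eq_one_iff.mp hL, IntermediateField.mem_bot] at hx
  obtain ⟨c, hc⟩ := hx
  exact ⟨c, hc.symm⟩

/-- determinant of a scalar multiplication, over the small field -/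
lemma det_lsmul {V : Type*} [AddCommGroup V] [Module F V] [Module E V] [IsScalarTower F E V] (x : E) :
    LinearMap.det ((x • (LinearMap.id : V →ₗ[E] V)).restrictScalars F) =
      Algebra.norm F x ^ Module.finrank E V := by
  rw [LinearMap.det_restrictScalars, LinearMap.det_smul, LinearMap.det_id, mul_one, map_pow]

/-- the abstract statement -/
lemma main_field {V : Type*} [AddCommGroup V] [Module F V] [Module E V] [IsScalarTower F E V]
    (hF : Fintype.card F = 4) (hE : Module.finrank F E = 3) (hV : Module.finrank F V = 6) (s : E →+* E)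
    (hs2 : ∀ x, s (s x) = x) (hsF : ∀ c : F, s (algebraMap F E c) = algebraMap F E (c ^ 2)) (x : E)
    (hx : x * s x = 1) (T : V →ₗ[F] V) (hT : ∀ v, T v = x • v) (hdet : LinearMap.det T = 1) :
    ∃ c : F, x = algebraMap F E c := by
  have h9 : x ^ 9 = 1 := by
    rw [← hx, star_eq_pow hF hE s hs2 hsF, pow_succ' x 8]
  have hrank : Module.finrank E V = 2 := by
    have h := Module.finrank_mul_finrank F E V
    rw [hE, hV] at h
    omega
  have hd := det_lsmul (F := F) (E := E) (V := V) x
  have hlin : (x • (LinearMap.id : V →ₗ[E] V)).restrictScalars F = T := by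
    apply LinearMap.ext
    intro v
    rw [hT]
    rfl
  rw [hlin, hdet, hrank] at hd
  exact mem_base hF hE x h9 hd.symm

end abstract

/-- the abstract statement for a ring that is a field -/
lemma main_isField {F E V : Type*} [Field F] [Fintype F] [Ring E] [iA : Algebra F E] [Finite E]
    [AddCommGroup V] [Module F V] [iM : Module E V] [iT : IsScalarTower F E V] (hfield : IsField E)
    (hF : Fintype.card F = 4) (hE : Module.finrank F E = 3) (hV : Module.finrank F V = 6) (s : E →+* E)
    (hs2 : ∀ x, s (s x) = x) (hsF : ∀ c : F, s (algebraMap F E c) = algebraMap F E (c ^ 2)) (x : E)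
    (hx : x * s x = 1) (T : V →ₗ[F] V) (hT : ∀ v, T v = x • v) (hdet : LinearMap.det T = 1) :
    ∃ c : F, x = algebraMap F E c :=
  @main_field F E _ _ hfield.toField iA _ V _ _ iM iT hF hE hV s hs2 hsF x hx T hT hdet

variable {F : Type*} [Field F] {σ : F ≃+* F} {f : (Fin 6 → F) → (Fin 6 → F) → F}

/-- [unit] -/
theorem unit_scalar [Fintype F] (hU : US σ f 2) {K : Subalgebra F (Matrix (Fin 6) (Fin 6) F)}
    (hK : IsFieldSubalgebra 3 K) (hs : IsAdjointClosedFor f K) {μ μ' : Matrix (Fin 6) (Fin 6) F}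
    (hμ : μ ∈ K) (hμ' : μ' ∈ K) (hadj : ∀ u v, f (μ *ᵥ u) v = f u (μ' *ᵥ v)) (h1 : μ * μ' = 1)
    (hdet : μ.det = 1) : ∃ c : F, μ = c • (1 : Matrix (Fin 6) (Fin 6) F) := by
  classical
  have hf := hU.unitary
  have hF : Fintype.card F = 4 := by rw [hU.card]; norm_num
  have hfield : IsField K :=
    { exists_pair_ne := ⟨0, 1, by
        intro h
        have := congrArg Subtype.val h
        simp at this⟩
      mul_comm := fun a b => Subtype.ext (hK.comm a a.2 b b.2)
      mul_inv_cancel := by
        intro a ha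
        obtain ⟨y, hy, hxy⟩ := hK.inv a a.2 (fun h => ha (Subtype.ext h))
        exact ⟨⟨y, hy⟩, Subtype.ext hxy⟩ }
  have hfin : Finite K := inferInstance
  have hcl := (AC_iff hf).mp hs
  let s : K →+* K :=
    { toFun := fun k => ⟨adj hf k, hcl k k.2⟩
      map_one' := Subtype.ext (adj_one hf)
      map_mul' := fun a b => Subtype.ext (by
        show adj hf ((a : Matrix (Fin 6) (Fin 6) F) * b) = adj hf a * adj hf b
        rw [adj_mul]
        exact hK.comm _ (hcl b b.2) _ (hcl a a.2))
      map_zero' := Subtype.ext (adj_zero hf)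
      map_add' := fun a b => Subtype.ext (adj_add hf a b) }
  have hsv : ∀ k : K, ((s k : K) : Matrix (Fin 6) (Fin 6) F) = adj hf k := fun k => rfl
  have hs2 : ∀ x, s (s x) = x := fun x => Subtype.ext (adj_adj hf x)
  have hsF : ∀ c : F, s (algebraMap F K c) = algebraMap F K (c ^ 2) := by
    intro c
    apply Subtype.ext
    rw [hsv]
    show adj hf (algebraMap F (Matrix (Fin 6) (Fin 6) F) c) = algebraMap F (Matrix (Fin 6) (Fin 6) F) (c ^ 2)
    rw [Algebra.algebraMap_eq_smul_one, Algebra.algebraMap_eq_smul_one, adj_smul, adj_one, hU.pow]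
  have hx : (⟨μ, hμ⟩ : K) * s ⟨μ, hμ⟩ = 1 := by
    apply Subtype.ext
    show μ * adj hf μ = 1
    rw [adj_unique hf hadj, h1]
  let φ : K →+* Module.End F (Fin 6 → F) :=
    (((Matrix.toLinAlgEquiv' : Matrix (Fin 6) (Fin 6) F ≃ₐ[F] _) : _ →ₐ[F] _).comp K.val).toRingHom
  let inst : Module K (Fin 6 → F) := Module.compHom (Fin 6 → F) φ
  have hsm : ∀ (k : K) (v : Fin 6 → F), k • v = (k : Matrix (Fin 6) (Fin 6) F) *ᵥ v := fun k v => rfl
  have iT : IsScalarTower F K (Fin 6 → F) := ⟨fun c k v => by
    rw [hsm, hsm]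
    show (c • (k : Matrix (Fin 6) (Fin 6) F)) *ᵥ v = _
    rw [Matrix.smul_mulVec]⟩
  obtain ⟨c, hc⟩ := main_isField (F := F) (E := K) (V := Fin 6 → F) (iM := inst) (iT := iT) hfield hF hK.finrank_eq
    (Module.finrank_fin_fun F) s hs2 hsF ⟨μ, hμ⟩ hx (Matrix.toLin' μ) (fun v => rfl)
    (by rw [LinearMap.det_toLin', hdet])
  refine ⟨c, ?_⟩
  have := congrArg Subtype.val hc
  rw [← Algebra.algebraMap_eq_smul_one]
  exact this

end Cfsg.Agent.Lib.Helper97U6Unit
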