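import Cfsg.Agent.Lib.Helper38U6J
import Cfsg.Agent.Lib.Helper74UAdj
import Cfsg.Agent.Lib.Helper74UDec
import Cfsg.Agent.Lib.Helper13UProper
import Cfsg.Agent.Lib.Helper17AschUDescent
import Cfsg.Agent.Lib.Helper97U6Unit

set_option autoImplicit false

/-! SU_6(2): the normaliser of an adjoint-closed field `F_64` lies in a subfield group of symplectic type. -/

namespace Cfsg.Agent.Lib.Helper38U6Field

open Cfsg Cfsg.Geo Matrix
open Cfsg.Agent.Lib.Helper97AschBase Cfsg.Agent.Lib.Helper97UBase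
  Cfsg.Agent.Lib.Helper13UDefs Cfsg.Agent.Lib.Helper17AschUDescent Cfsg.Agent.Lib.Helper74UAdj
  Cfsg.Agent.Lib.Helper38U6J
open scoped MatrixGroups

variable {F : Type*} [Field F] {σ : F ≃+* F} {f : (Fin 6 → F) → (Fin 6 → F) → F}

/-- a ring automorphism of `K'` from a ring automorphism of the image -/
lemma exists_ringEquiv {K' R : Type*} [Field K'] [Ring R] (ι : K' →+* R) (hι : Function.Injective ι)
    (T T' : R → R) (hT : ∀ k, ∃ k', T (ι k) = ι k') (hT' : ∀ k, ∃ k', T' (ι k) = ι k')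
    (h1 : ∀ k, T' (T (ι k)) = ι k) (h2 : ∀ k, T (T' (ι k)) = ι k)
    (hmul : ∀ a b, T (ι a * ι b) = T (ι a) * T (ι b)) (hadd : ∀ a b, T (ι a + ι b) = T (ι a) + T (ι b)) :
    ∃ α : K' ≃+* K', ∀ k, ι (α k) = T (ι k) := by
  choose a ha using hT
  choose a' ha' using hT'
  refine ⟨{ toFun := a, invFun := a', left_inv := ?_, right_inv := ?_, map_mul' := ?_, map_add' := ?_ },
    fun k => (ha k).symm⟩
  · intro k
    apply hι
    rw [← ha', ← ha, h1]
  · intro k
    apply hι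
    rw [← ha, ← ha', h2]
  · intro x y
    apply hι
    rw [← ha, map_mul, map_mul, hmul, ha, ha]
  · intro x y
    apply hι
    rw [← ha, map_add, map_add, hadd, ha, ha]

theorem field_J_aux [Fintype F] (hU : US σ f 2) {K' : Type*} [Field K'] [Algebra F K']
    (ι : K' →ₐ[F] Matrix (Fin 6) (Fin 6) F) (hfr : Module.finrank F K' = 3)
    (hAC : ∀ k, ∃ k', adj hU.unitary (ι k) = ι k') :
    ∃ J : (Fin 6 → F) → (Fin 6 → F), (∀ u v, J (u + v) = J u + J v) ∧
      (∀ k v, J (ι k *ᵥ v) = adj hU.unitary (ι k) *ᵥ J v) ∧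
      (∀ v, J (J v) = v) ∧ (∀ u v, f (J u) (J v) = σ (f u v)) ∧
      (∀ h : GL (Fin 6) F, h ∈ Iso f →
        (∀ k, ∃ k', (h : Matrix (Fin 6) (Fin 6) F) * ι k * ((h⁻¹ : GL (Fin 6) F) : Matrix (Fin 6) (Fin 6) F) = ι k') →
        (∀ k, ∃ k', ((h⁻¹ : GL (Fin 6) F) : Matrix (Fin 6) (Fin 6) F) * ι k * (h : Matrix (Fin 6) (Fin 6) F) = ι k') →
        ∃ μ, ∀ v, J ((h : Matrix (Fin 6) (Fin 6) F) *ᵥ v) = ι μ *ᵥ ((h : Matrix (Fin 6) (Fin 6) F) *ᵥ J v)) := by
  classical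
  have hf := hU.unitary
  have hι : Function.Injective ι := (ι : K' →+* Matrix (Fin 6) (Fin 6) F).injective
  have : Module.Finite F K' := Module.finite_of_finrank_pos (by omega)
  have : Finite K' := Module.finite_of_finite F
  have h2F : (2 : F) = 0 := Cfsg.Agent.Lib.Helper74UDec.two_eq_zero_of_card hU.card
  have : CharP F 2 := CharTwo.of_one_ne_zero_of_two_eq_zero one_ne_zero h2F
  have : CharP K' 2 := charP_of_injective_algebraMap (algebraMap F K').injective 2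
  let φ : K' →+* Module.End F (Fin 6 → F) :=
    (((Matrix.toLinAlgEquiv' : Matrix (Fin 6) (Fin 6) F ≃ₐ[F] _) : _ →ₐ[F] _).comp ι).toRingHom
  let inst : Module K' (Fin 6 → F) := Module.compHom (Fin 6 → F) φ
  have hsm : ∀ (k : K') (v : Fin 6 → F), k • v = ι k *ᵥ v := by
    intro k v
    rfl
  have hIST : IsScalarTower F K' (Fin 6 → F) := IsScalarTower.of_algebraMap_smul (fun c v => by
    rw [hsm, AlgHom.commutes, Algebra.algebraMap_eq_smul_one, Matrix.smul_mulVec, Matrix.one_mulVec])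
  have hV : Module.finrank K' (Fin 6 → F) = 2 := by
    have h1 := Module.finrank_mul_finrank F K' (Fin 6 → F)
    rw [hfr, Module.finrank_fin_fun] at h1
    omega
  obtain ⟨st, hst⟩ := exists_ringEquiv (ι : K' →+* Matrix (Fin 6) (Fin 6) F) hι (adj hf) (adj hf) hAC hAC
    (fun k => adj_adj hf _) (fun k => adj_adj hf _)
    (fun a b => by
      show adj hf (ι a * ι b) = adj hf (ι a) * adj hf (ι b)
      rw [← map_mul, mul_comm, map_mul, adj_mul])
    (fun a b => adj_add hf _ _)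
  have hst' : ∀ k, ι (st k) = adj hf (ι k) := hst
  have hHS : HS σ st f :=
    { st2 := fun k => by
        apply hι
        rw [hst', hst', adj_adj]
      add_left := hf.add_left
      smul_left := hf.smul_left
      herm := hf.herm
      nd := by
        intro v hv
        by_contra hv0
        obtain ⟨x, hx⟩ := (hf.nondegenerate v hv0).1
        exact hx (hv x)
      adj := by
        intro k x y
        rw [hsm, hsm, hst', adj_spec hf] }
  have hns : ∃ u : Fin 6 → F, f u u ≠ 0 := by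
    obtain ⟨P, hP⟩ := Cfsg.Agent.Lib.Helper13UProper.exists_ON hf
    refine ⟨(P : Matrix (Fin 6) (Fin 6) F) *ᵥ Pi.single 0 1, ?_⟩
    rw [hP]
    simp [Pi.single_apply]
  obtain ⟨J, hJadd, hJsm, hJJ, hJf, hJg⟩ := exists_J hHS hV hns
  refine ⟨J, hJadd, ?_, hJJ, hJf, ?_⟩
  · intro k v
    have := hJsm k v
    rw [hsm, hsm, hst'] at this
    exact this
  · intro h hiso hN hN'
    obtain ⟨α, hα⟩ := exists_ringEquiv (ι : K' →+* Matrix (Fin 6) (Fin 6) F) hι
      (fun M => (h : Matrix (Fin 6) (Fin 6) F) * M * ((h⁻¹ : GL (Fin 6) F) : Matrix (Fin 6) (Fin 6) F))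
      (fun M => ((h⁻¹ : GL (Fin 6) F) : Matrix (Fin 6) (Fin 6) F) * M * (h : Matrix (Fin 6) (Fin 6) F))
      hN hN' (fun k => by simp [mul_assoc]) (fun k => by simp [mul_assoc])
      (fun a b => by simp [mul_assoc]) (fun a b => by simp [mul_add, add_mul])
    have hα' : ∀ k, ι (α k) =
      (h : Matrix (Fin 6) (Fin 6) F) * ι k * ((h⁻¹ : GL (Fin 6) F) : Matrix (Fin 6) (Fin 6) F) := hα
    obtain ⟨μ, hμ⟩ := hJg (fun v => (h : Matrix (Fin 6) (Fin 6) F) *ᵥ v) α
      (fun x y => Matrix.mulVec_add _ x y)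
      (fun k v => by
        show (h : Matrix (Fin 6) (Fin 6) F) *ᵥ (k • v) = α k • ((h : Matrix (Fin 6) (Fin 6) F) *ᵥ v)
        rw [hsm, hsm, hα', Matrix.mulVec_mulVec, Matrix.mulVec_mulVec]
        simp [mul_assoc])
      (fun v => ⟨((h⁻¹ : GL (Fin 6) F) : Matrix (Fin 6) (Fin 6) F) *ᵥ v, by
        show (h : Matrix (Fin 6) (Fin 6) F) *ᵥ (((h⁻¹ : GL (Fin 6) F) : Matrix (Fin 6) (Fin 6) F) *ᵥ v) = v
        rw [Matrix.mulVec_mulVec]
        simp⟩)
      (fun x y => hiso x y)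
      (fun c => by
        apply hι
        rw [hα', AlgHom.commutes, ← Algebra.commutes, mul_assoc]
        simp)
    exact ⟨μ, fun v => hμ v⟩

/-- [fieldJ] -/
theorem field_J [Fintype F] (hU : US σ f 2) {K : Subalgebra F (Matrix (Fin 6) (Fin 6) F)}
    (hK : IsFieldSubalgebra 3 K) (hs : IsAdjointClosedFor f K) :
    ∃ J : (Fin 6 → F) → (Fin 6 → F), (∀ u v, J (u + v) = J u + J v) ∧
      (∀ k ∈ K, ∀ k' ∈ K, (∀ u v, f (k *ᵥ u) v = f u (k' *ᵥ v)) → ∀ v, J (k *ᵥ v) = k' *ᵥ J v) ∧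
      (∀ v, J (J v) = v) ∧ (∀ u v, f (J u) (J v) = σ (f u v)) ∧
      (∀ h : GL (Fin 6) F, h ∈ Iso f → h ∈ subalgebraNormalizer K →
        ∃ μ ∈ K, ∀ v, J ((h : Matrix (Fin 6) (Fin 6) F) *ᵥ v) = μ *ᵥ ((h : Matrix (Fin 6) (Fin 6) F) *ᵥ J v)) := by
  classical
  have hf := hU.unitary
  have hfield : IsField K :=
    { exists_pair_ne := ⟨0, 1, by
        intro h
        have := congrArg Subtype.val h
        simp at this⟩
      mul_comm := fun a b => Subtype.ext (hK.comm a a.2 b b.2)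
      mul_inv_cancel := by
        intro a ha
        obtain ⟨y, hy, hxy⟩ := hK.inv a a.2 (fun h => ha (Subtype.ext h))
        exact ⟨⟨y, hy⟩, Subtype.ext hxy⟩ }
  let _ : Field K := hfield.toField
  have hAC := (AC_iff hf).mp hs
  obtain ⟨J, hJadd, hJsm, hJJ, hJf, hJg⟩ := field_J_aux hU (K' := K) K.val hK.finrank_eq
    (fun k => ⟨⟨adj hf k, hAC k k.2⟩, rfl⟩)
  refine ⟨J, hJadd, ?_, hJJ, hJf, ?_⟩
  · intro k hk k' hk' hadj v
    have := hJsm ⟨k, hk⟩ v
    rw [← adj_unique hf hadj]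
    exact this
  · intro h hiso hN
    have hN' := (subalgebraNormalizer K).inv_mem hN
    obtain ⟨μ, hμ⟩ := hJg h hiso (fun k => ⟨⟨_, (hN k).mp k.2⟩, rfl⟩)
      (fun k => ⟨⟨_, by
        have := (hN' k).mp k.2
        rwa [inv_inv] at this⟩, rfl⟩)
    exact ⟨μ, μ.2, hμ⟩

/-- [field32] -/
theorem field_three_two [Fintype F] (hU : US σ f 2) {K : Subalgebra F (Matrix (Fin 6) (Fin 6) F)}
    (hK : IsFieldSubalgebra 3 K) (hs : IsAdjointClosedFor f K)
    {H : Subgroup (GL (Fin 6) F)} (hH : H ≤ Iso f ⊓ specialLinear (Fin 6) F)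
    (hirr : ActsIrreducibly (matrixSet H)) (hle : H ≤ subalgebraNormalizer K) :
    SubfieldTwoAlt 2 f H := by
  classical
  have hf := hU.unitary
  obtain ⟨J, hJadd, hJsm, hJJ, hJf, hJg⟩ := field_J hU hK hs
  have hAC := (AC_iff hf).mp hs
  have hsmul : ∀ (c : F) v, J (c • v) = σ c • J v := by
    intro c v
    have h1 := hJsm (c • (1 : Matrix (Fin 6) (Fin 6) F)) (K.smul_mem K.one_mem c)
      (σ c • (1 : Matrix (Fin 6) (Fin 6) F)) (K.smul_mem K.one_mem _) (by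
        intro u w
        rw [Matrix.smul_mulVec, Matrix.one_mulVec, Matrix.smul_mulVec, Matrix.one_mulVec, hf.smul_left,
          hf.herm u (σ c • w), hf.smul_left, map_mul, hf.involutive, ← hf.herm]) v
    rwa [Matrix.smul_mulVec, Matrix.one_mulVec, Matrix.smul_mulVec, Matrix.one_mulVec] at h1
  have hσne : ∃ z, σ z ≠ z := by
    by_contra hcon
    push Not at hcon
    exact hf.ne_refl (RingEquiv.ext hcon)
  obtain ⟨D, hD⟩ := Cfsg.Agent.Lib.Helper97UQF.exists_GL_of_span (span_fixed hσne J hJadd hsmul hJJ)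
  have hD' : ∀ j, J ((D : Matrix (Fin 6) (Fin 6) F) *ᵥ Pi.single j 1) =
      (D : Matrix (Fin 6) (Fin 6) F) *ᵥ Pi.single j 1 := hD
  have hJD := semilinear_coord J hJadd hsmul D hD'
  refine descent_core hf hU.card hU.pow (by norm_num) (hH.trans inf_le_left) hirr J hJadd hsmul hJJ
    (ε := 1) (Or.inl rfl) (fun u v => by rw [hJf, one_mul]) ?_
  intro h hh
  have hiso : h ∈ Iso f := (hH hh).1
  have hdet : (h : Matrix (Fin 6) (Fin 6) F).det = 1 := by
    have := (hH hh).2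
    have h2 : Matrix.GeneralLinearGroup.det h = 1 := this
    have h3 := congrArg Units.val h2
    simpa using h3
  obtain ⟨μ, hμK, hμ⟩ := hJg h hiso (hle hh)
  -- μ * μ^* = 1
  have hμ' : adj hf μ * μ = 1 := by
    apply mat_ext
    intro w
    obtain ⟨v, rfl⟩ : ∃ v, w = (h : Matrix (Fin 6) (Fin 6) F) *ᵥ v :=
      ⟨((h⁻¹ : GL (Fin 6) F) : Matrix (Fin 6) (Fin 6) F) *ᵥ w, by rw [Matrix.mulVec_mulVec]; simp⟩
    have e1 := hJJ ((h : Matrix (Fin 6) (Fin 6) F) *ᵥ v)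
    rw [hμ, hJsm μ hμK (adj hf μ) (hAC μ hμK) (adj_spec hf μ), hμ, hJJ] at e1
    rw [Matrix.one_mulVec, ← Matrix.mulVec_mulVec]
    exact e1
  have hμ'' : μ * adj hf μ = 1 := by
    rw [hK.comm μ hμK _ (hAC μ hμK)]
    exact hμ'
  -- det μ = 1
  have hmat : (D : Matrix (Fin 6) (Fin 6) F) *
      ((((D⁻¹ : GL (Fin 6) F) : Matrix (Fin 6) (Fin 6) F) * (h : Matrix (Fin 6) (Fin 6) F) *
        (D : Matrix (Fin 6) (Fin 6) F)).map σ) = μ * (h : Matrix (Fin 6) (Fin 6) F) * (D : Matrix (Fin 6) (Fin 6) F) := by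
    apply mat_ext
    intro y
    obtain ⟨x, rfl⟩ : ∃ x : Fin 6 → F, y = fun j => σ (x j) :=
      ⟨fun j => σ (y j), by funext j; rw [hf.involutive]⟩
    have e1 := hμ ((D : Matrix (Fin 6) (Fin 6) F) *ᵥ x)
    rw [hJD] at e1
    have e2 : (h : Matrix (Fin 6) (Fin 6) F) *ᵥ ((D : Matrix (Fin 6) (Fin 6) F) *ᵥ x) =
        (D : Matrix (Fin 6) (Fin 6) F) *ᵥ ((((D⁻¹ : GL (Fin 6) F) : Matrix (Fin 6) (Fin 6) F) *
          (h : Matrix (Fin 6) (Fin 6) F) * (D : Matrix (Fin 6) (Fin 6) F)) *ᵥ x) := by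
      rw [Matrix.mulVec_mulVec, Matrix.mulVec_mulVec]
      simp [← mul_assoc]
    rw [e2, hJD] at e1
    have e3 : ∀ (M : Matrix (Fin 6) (Fin 6) F) (w : Fin 6 → F),
        (fun i => σ ((M *ᵥ w) i)) = (M.map σ) *ᵥ (fun i => σ (w i)) := by
      intro M w
      ext i
      simp [Matrix.mulVec, dotProduct, map_sum, map_mul]
    rw [e3] at e1
    rw [← Matrix.mulVec_mulVec, e1, Matrix.mulVec_mulVec, Matrix.mulVec_mulVec, mul_assoc]
  have hdetμ : μ.det = 1 := by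
    have e := congrArg Matrix.det hmat
    have e4 : ((((D⁻¹ : GL (Fin 6) F) : Matrix (Fin 6) (Fin 6) F) * (h : Matrix (Fin 6) (Fin 6) F) *
        (D : Matrix (Fin 6) (Fin 6) F)).map σ).det = 1 := by
      have := (RingHom.map_det (σ : F →+* F) (((D⁻¹ : GL (Fin 6) F) : Matrix (Fin 6) (Fin 6) F) *
        (h : Matrix (Fin 6) (Fin 6) F) * (D : Matrix (Fin 6) (Fin 6) F))).symm
      have e5 : (((D⁻¹ : GL (Fin 6) F) : Matrix (Fin 6) (Fin 6) F) * (h : Matrix (Fin 6) (Fin 6) F) *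
        (D : Matrix (Fin 6) (Fin 6) F)).det = 1 := by
        rw [Matrix.det_mul, Matrix.det_mul, hdet, mul_one, ← Matrix.det_mul, ← Units.val_mul, inv_mul_cancel,
          Units.val_one, Matrix.det_one]
      rw [e5, map_one] at this
      exact this
    rw [Matrix.det_mul, Matrix.det_mul, Matrix.det_mul, e4, hdet, mul_one, mul_one] at e
    have hD0 : (D : Matrix (Fin 6) (Fin 6) F).det ≠ 0 := by
      have := (Matrix.isUnit_iff_isUnit_det _).mp D.isUnit
      exact this.ne_zero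
    have e6 : (1 : F) * (D : Matrix (Fin 6) (Fin 6) F).det = μ.det * (D : Matrix (Fin 6) (Fin 6) F).det := by
      rw [one_mul]; exact e
    exact (mul_right_cancel₀ hD0 e6).symm
  obtain ⟨c, hc⟩ := Cfsg.Agent.Lib.Helper97U6Unit.unit_scalar hU hK hs hμK (hAC μ hμK) (adj_spec hf μ) hμ'' hdetμ
  refine ⟨c, fun v => ?_⟩
  rw [hμ, hc, Matrix.smul_mulVec, Matrix.one_mulVec]

end Cfsg.Agent.Lib.Helper38U6Field
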