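import Mathlib

set_option autoImplicit false

/-! An abstract construction: a two-dimensional hermitian space over a finite field `K` of characteristic two,
whose form is given through an `F`-valued form `f`; the semilinear involution `J`. -/

namespace Cfsg.Agent.Lib.Helper38U6J

section abs

variable {F K V : Type*} [Field F] [Field K] [Algebra F K] [Finite K] [CharP K 2]
  [AddCommGroup V] [Module F V] [Module K V] [IsScalarTower F K V]

/-- the determinant form in the coordinates of the basis `b` (characteristic two) -/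
noncomputable def bt (b : Module.Basis (Fin 2) K V) (x y : V) : K :=
  b.repr x 0 * b.repr y 1 + b.repr x 1 * b.repr y 0

variable (b : Module.Basis (Fin 2) K V)

omit [Finite K] [CharP K 2] in
lemma bt_add_left (x x' y : V) : bt b (x + x') y = bt b x y + bt b x' y := by
  simp only [bt, map_add, Finsupp.add_apply]; ring

omit [Finite K] [CharP K 2] in
lemma bt_add_right (x y y' : V) : bt b x (y + y') = bt b x y + bt b x y' := by
  simp only [bt, map_add, Finsupp.add_apply]; ring

omit [Finite K] [CharP K 2] in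
lemma bt_smul_left (k : K) (x y : V) : bt b (k • x) y = k * bt b x y := by
  simp only [bt, map_smul, Finsupp.smul_apply, smul_eq_mul]; ring

omit [Finite K] [CharP K 2] in
lemma bt_smul_right (k : K) (x y : V) : bt b x (k • y) = k * bt b x y := by
  simp only [bt, map_smul, Finsupp.smul_apply, smul_eq_mul]; ring

omit [Finite K] [CharP K 2] in
lemma bt_comm (x y : V) : bt b x y = bt b y x := by
  simp only [bt]; ring

omit [Finite K] in
lemma bt_self (x : V) : bt b x x = 0 := by
  simp only [bt]
  rw [mul_comm (b.repr x 1)]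
  exact CharTwo.add_self_eq_zero _

omit [Finite K] [CharP K 2] in
lemma bt_zero_right (x : V) : bt b x 0 = 0 := by
  simp [bt]

omit [Finite K] [CharP K 2] in
lemma bt_basis : bt b (b 0) (b 1) = 1 := by
  simp [bt]

omit [Finite K] [CharP K 2] in
lemma expand (x : V) : x = b.repr x 0 • b 0 + b.repr x 1 • b 1 := by
  conv_lhs => rw [← b.sum_repr x]
  rw [Fin.sum_univ_two]

omit [Finite K] [CharP K 2] in
lemma bt_nondeg {w : V} (h : ∀ x, bt b x w = 0) : w = 0 := by
  have h0 := h (b 0)
  have h1 := h (b 1)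
  simp [bt] at h0 h1
  rw [expand b w, h0, h1]
  simp

omit [Finite K] in
lemma bt_eq {w w' : V} (h : ∀ x, bt b x w = bt b x w') : w = w' := by
  have : w + w' = 0 := by
    apply bt_nondeg b
    intro x
    rw [bt_add_right, h x]
    exact CharTwo.add_self_eq_zero _
  have h2 : w' + w' = 0 := by
    have : (2 : K) • w' = 0 := by rw [CharTwo.two_eq_zero, zero_smul]
    rwa [two_smul] at this
  calc w = w + (w' + w') := by rw [h2, add_zero]
    _ = (w + w') + w' := by abel
    _ = w' := by rw [this, zero_add]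

omit [Finite K] in
/-- semilinear maps scale the determinant form -/
lemma bt_semilinear (g : V → V) (θ : K →+* K) (hadd : ∀ x y, g (x + y) = g x + g y)
    (hsm : ∀ (k : K) v, g (k • v) = θ k • g v) (x y : V) :
    bt b (g x) (g y) = bt b (g (b 0)) (g (b 1)) * θ (bt b x y) := by
  have hx : g x = θ (b.repr x 0) • g (b 0) + θ (b.repr x 1) • g (b 1) := by
    conv_lhs => rw [expand b x]
    rw [hadd, hsm, hsm]
  have hy : g y = θ (b.repr y 0) • g (b 0) + θ (b.repr y 1) • g (b 1) := by
    conv_lhs => rw [expand b y]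
    rw [hadd, hsm, hsm]
  rw [hx, hy]
  simp only [bt_add_left, bt_add_right, bt_smul_left, bt_smul_right, bt_self, bt_comm b (g (b 1)) (g (b 0))]
  simp only [bt, map_add, map_mul]
  ring

end abs

section dual

variable {F K : Type*} [Field F] [Field K] [Algebra F K] [Finite K]

omit [Finite K] in
lemma t_nd (t : K →ₗ[F] F) (ht : t 1 ≠ 0) {c : K} (h : ∀ k, t (k * c) = 0) : c = 0 := by
  by_contra hc
  apply ht
  have := h c⁻¹
  rwa [inv_mul_cancel₀ hc] at this

omit [Finite K] in
lemma t_eq (t : K →ₗ[F] F) (ht : t 1 ≠ 0) {c c' : K} (h : ∀ k, t (k * c) = t (k * c')) : c = c' := by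
  have : c - c' = 0 := by
    apply t_nd t ht
    intro k
    rw [mul_sub, map_sub, h k, sub_self]
  exact sub_eq_zero.mp this

lemma dual_exists (t : K →ₗ[F] F) (ht : t 1 ≠ 0) (ψ : K →ₗ[F] F) : ∃ c, ∀ k, ψ k = t (k * c) := by
  have : Module.Finite F K := Module.Finite.of_finite
  let D : K →ₗ[F] Module.Dual F K := (LinearMap.mul F K).compr₂ t
  have hD : ∀ c k, D c k = t (c * k) := fun c k => rfl
  have hinj : Function.Injective D := by
    rw [← LinearMap.ker_eq_bot, LinearMap.ker_eq_bot']
    intro c hc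
    apply t_nd t ht
    intro k
    rw [mul_comm, ← hD, hc]
    rfl
  have hsurj : Function.Surjective D :=
    (LinearMap.injective_iff_surjective_of_finrank_eq_finrank (Subspace.dual_finrank_eq).symm).mp hinj
  obtain ⟨c, hc⟩ := hsurj ψ
  refine ⟨c, fun k => ?_⟩
  rw [← hc, hD, mul_comm]

end dual

section main

variable {F K V : Type*} [Field F] [Field K] [Algebra F K] [Finite K] [CharP K 2]
  [AddCommGroup V] [Module F V] [Module K V] [IsScalarTower F K V]

/-- the hypotheses: `f` is `σ`-hermitian over `F`, non-degenerate, and `K` acts with adjoint `st`. -/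
structure HS (σ : F ≃+* F) (st : K ≃+* K) (f : V → V → F) : Prop where
  st2 : ∀ k, st (st k) = k
  add_left : ∀ x y v, f (x + y) v = f x v + f y v
  smul_left : ∀ (c : F) x v, f (c • x) v = c * f x v
  herm : ∀ v w, f v w = σ (f w v)
  nd : ∀ v, (∀ x, f x v = 0) → v = 0
  adj : ∀ (k : K) x y, f (k • x) y = f x (st k • y)

variable {σ : F ≃+* F} {st : K ≃+* K} {f : V → V → F}

namespace HS

omit [Finite K] [CharP K 2] [IsScalarTower F K V] [Algebra F K] in
lemma add_right (h : HS σ st f) (x y y' : V) : f x (y + y') = f x y + f x y' := by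
  rw [h.herm, h.add_left, map_add, ← h.herm, ← h.herm]

omit [Finite K] [CharP K 2] [IsScalarTower F K V] [Algebra F K] in
lemma adj' (h : HS σ st f) (k : K) (x y : V) : f x (k • y) = f (st k • x) y := by
  rw [h.adj, h.st2]

/-- the functional `k ↦ f (k v) y` -/
noncomputable def ps (h : HS σ st f) (v y : V) : K →ₗ[F] F where
  toFun k := f (k • v) y
  map_add' := by intro a b; rw [add_smul, h.add_left]
  map_smul' := by intro c k; rw [smul_assoc, h.smul_left]; rfl

omit [Finite K] [CharP K 2] in
lemma ps_apply (h : HS σ st f) (v y : V) (k : K) : h.ps v y k = f (k • v) y := rfl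

omit [Finite K] [CharP K 2] in
lemma ps_st (h : HS σ st f) (u : V) (k : K) : h.ps u u (st k) = σ (h.ps u u k) := by
  rw [ps_apply, ps_apply, h.adj, h.st2, ← h.herm]

end HS

theorem exists_J (h : HS σ st f) (hV : Module.finrank K V = 2) (hns : ∃ u, f u u ≠ 0) :
    ∃ J : V → V, (∀ u v, J (u + v) = J u + J v) ∧ (∀ (k : K) v, J (k • v) = st k • J v) ∧
      (∀ v, J (J v) = v) ∧ (∀ u v, f (J u) (J v) = σ (f u v)) ∧
      (∀ (g : V → V) (α : K ≃+* K), (∀ x y, g (x + y) = g x + g y) → (∀ (k : K) v, g (k • v) = α k • g v) →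
        Function.Surjective g → (∀ x y, f (g x) (g y) = f x y) →
        (∀ c : F, α (algebraMap F K c) = algebraMap F K c) → ∃ μ : K, ∀ v, J (g v) = μ • g (J v)) := by
  classical
  have hfin : Module.Finite K V := Module.finite_of_finrank_pos (by omega)
  let b : Module.Basis (Fin 2) K V := Module.finBasisOfFinrankEq K V hV
  obtain ⟨u, hu⟩ := hns
  let t : K →ₗ[F] F := h.ps u u
  have ht : t 1 ≠ 0 := by
    show f ((1 : K) • u) u ≠ 0
    rwa [one_smul]
  have htst : ∀ k, t (st k) = σ (t k) := h.ps_st u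
  -- uniqueness
  have huniq : ∀ {w w' : V}, (∀ x, t (bt b x w) = t (bt b x w')) → w = w' := by
    intro w w' hw
    apply bt_eq b
    intro x
    apply t_eq t ht
    intro k
    rw [← bt_smul_left, ← bt_smul_left]
    exact hw _
  -- existence
  have hex : ∀ y : V, ∃ w : V, ∀ x, f x y = t (bt b x w) := by
    intro y
    obtain ⟨g0, hg0⟩ := dual_exists t ht (h.ps (b 0) y)
    obtain ⟨g1, hg1⟩ := dual_exists t ht (h.ps (b 1) y)
    refine ⟨g1 • b 0 + g0 • b 1, fun x => ?_⟩
    have e1 : bt b x (g1 • b 0 + g0 • b 1) = b.repr x 0 * g0 + b.repr x 1 * g1 := by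
      simp [bt]
    rw [e1, map_add, ← hg0, ← hg1, HS.ps_apply, HS.ps_apply, ← h.add_left, ← expand b x]
  choose J0 hJ0 using hex
  have hJ0add : ∀ y y', J0 (y + y') = J0 y + J0 y' := by
    intro y y'
    apply huniq
    intro x
    rw [← hJ0, h.add_right, hJ0, hJ0, bt_add_right, map_add]
  have hJ0sm : ∀ (k : K) y, J0 (k • y) = st k • J0 y := by
    intro k y
    apply huniq
    intro x
    rw [← hJ0, h.adj', hJ0, bt_smul_left, bt_smul_right]
  -- hermitian
  have hherm : ∀ x y, bt b y (J0 x) = st (bt b x (J0 y)) := by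
    intro x y
    apply t_eq t ht
    intro k
    rw [← bt_smul_left, ← hJ0, h.herm, h.adj', hJ0, bt_smul_left, ← htst, map_mul, h.st2]
  have hSL := bt_semilinear b J0 (st : K →+* K) hJ0add hJ0sm
  obtain ⟨δ, hδ⟩ : ∃ δ, δ = bt b (J0 (b 0)) (J0 (b 1)) := ⟨_, rfl⟩
  rw [← hδ] at hSL
  have hJJ : ∀ y, J0 (J0 y) = st δ • y := by
    intro y
    apply bt_eq b
    intro x
    rw [hherm (J0 y) x, hSL, bt_smul_right, map_mul]
    show st δ * st (st (bt b y x)) = _
    rw [h.st2, bt_comm b y x]
  obtain ⟨d, hd⟩ : ∃ d, d = st δ := ⟨_, rfl⟩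
  rw [← hd] at hJJ
  have hJ0ne : ∃ y, J0 y ≠ 0 := by
    by_contra hcon
    push Not at hcon
    apply hu
    rw [hJ0, hcon, bt_zero_right, map_zero]
  have hd0 : d ≠ 0 := by
    rintro rfl
    obtain ⟨y, hy⟩ := hJ0ne
    apply hy
    apply h.nd
    intro x
    rw [hJ0, hJJ, zero_smul, bt_zero_right, map_zero]
  have hdst : st d = d := by
    obtain ⟨y, hy⟩ := hJ0ne
    have e1 : J0 (J0 (J0 y)) = d • J0 y := hJJ _
    rw [hJJ y, hJ0sm] at e1
    have e2 : (st d - d) • J0 y = 0 := by rw [sub_smul, e1, sub_self]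
    rcases smul_eq_zero.mp e2 with e | e
    · exact sub_eq_zero.mp e
    · exact absurd e hy
  -- the square root
  have hfrob : Function.Injective (fun x : K => x * x) := by
    intro x y hxy
    have hxy' : x * x = y * y := hxy
    have : (x + y) * (x + y) = 0 := by
      rw [CharTwo.add_mul_self, hxy']
      exact CharTwo.add_self_eq_zero _
    have h0 : x + y = 0 := by
      rcases mul_eq_zero.mp this with e | e <;> exact e
    exact CharTwo.add_eq_zero.mp h0
  obtain ⟨l, hl⟩ := (Finite.injective_iff_surjective.mp hfrob) d⁻¹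
  have hl' : l * l = d⁻¹ := hl
  have hl0 : l ≠ 0 := by
    rintro rfl
    rw [mul_zero] at hl'
    exact inv_ne_zero hd0 hl'.symm
  have hlst : st l = l := by
    apply hfrob
    show st l * st l = l * l
    rw [← map_mul, hl', map_inv₀, hdst]
  have hlld : l * l * d = 1 := by rw [hl', inv_mul_cancel₀ hd0]
  refine ⟨fun y => l • J0 y, ?_, ?_, ?_, ?_, ?_⟩
  · intro x y
    show l • J0 (x + y) = l • J0 x + l • J0 y
    rw [hJ0add, smul_add]
  · intro k v
    show l • J0 (k • v) = st k • l • J0 v
    rw [hJ0sm, smul_comm]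
  · intro v
    show l • J0 (l • J0 v) = v
    rw [hJ0sm, hlst, hJJ, smul_smul, smul_smul, hlld, one_smul]
  · intro x y
    show f (l • J0 x) (l • J0 y) = σ (f x y)
    rw [h.adj, hlst, hJ0, smul_smul, hJ0sm, hJJ, map_mul, hlst, smul_smul, hlld, one_smul, bt_comm, ← hJ0,
      ← h.herm]
  · intro g α hgadd hgsm hgsurj hgiso hαF
    -- the functional t ∘ α⁻¹
    let ψ : K →ₗ[F] F :=
      { toFun := fun k => t (α.symm k)
        map_add' := by intro x y; rw [map_add, map_add]
        map_smul' := by
          intro c k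
          have : α.symm (c • k) = c • α.symm k := by
            apply α.injective
            rw [α.apply_symm_apply, Algebra.smul_def, Algebra.smul_def, map_mul, hαF, α.apply_symm_apply]
          rw [this, map_smul]
          rfl }
    obtain ⟨c', hc'⟩ := dual_exists t ht ψ
    have hψ : ∀ k, t (α.symm k) = t (k * c') := hc'
    have hSLg := bt_semilinear b g (α : K →+* K) hgadd hgsm
    obtain ⟨e, he⟩ : ∃ e, e = bt b (g (b 0)) (g (b 1)) := ⟨_, rfl⟩
    rw [← he] at hSLg
    have he0 : e ≠ 0 := by
      rintro rfl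
      obtain ⟨x0, hx0⟩ := hgsurj (b 0)
      obtain ⟨x1, hx1⟩ := hgsurj (b 1)
      have := hSLg x0 x1
      rw [hx0, hx1, bt_basis, zero_mul] at this
      exact one_ne_zero this
    have key : ∀ x y, bt b (g x) (J0 (g y)) = α (bt b x (J0 y)) * c' := by
      intro x y
      apply t_eq t ht
      intro k
      have e1 : k • g x = g (α.symm k • x) := by rw [hgsm, α.apply_symm_apply]
      rw [← bt_smul_left, ← hJ0, e1, hgiso, hJ0, bt_smul_left, ← mul_assoc, ← hψ, map_mul α.symm,
        α.symm_apply_apply]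
    have hμ0 : ∀ y, J0 (g y) = (c' * e⁻¹) • g (J0 y) := by
      intro y
      apply bt_eq b
      intro x'
      obtain ⟨x, rfl⟩ := hgsurj x'
      rw [key, bt_smul_right, hSLg]
      show α (bt b x (J0 y)) * c' = c' * e⁻¹ * (e * α (bt b x (J0 y)))
      field_simp
    have hαl : α l ≠ 0 := by
      intro h0
      exact hl0 ((map_eq_zero α).mp h0)
    refine ⟨l * (c' * e⁻¹) * (α l)⁻¹, fun v => ?_⟩
    show l • J0 (g v) = (l * (c' * e⁻¹) * (α l)⁻¹) • g (l • J0 v)
    rw [hμ0, hgsm, smul_smul, smul_smul, mul_assoc (l * (c' * e⁻¹)), inv_mul_cancel₀ hαl, mul_one]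

end main

end Cfsg.Agent.Lib.Helper38U6J
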