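import Mathlib
import Cfsg.Agent.Lib.Helper38UniSPLIT

set_option autoImplicit false
set_option linter.unusedSectionVars false
open scoped MatrixGroups
open Module Matrix Cfsg
open Cfsg.Agent.Lib.Helper48RankSeq Cfsg.Agent.Lib.Helper48QuadEx Cfsg.Agent.Lib.Helper48QuadType
  Cfsg.Agent.Lib.Helper48UnipOrth Cfsg.Agent.Lib.Helper48Chain3 Cfsg.Agent.Lib.Helper38UniSPLIT
  Cfsg.Agent.Lib.Helper48UnipForm

/-! Project 94, wave 5, piece U-EVEN. -/

namespace Cfsg.Agent.Lib.Helper38UniEVEN

variable {F : Type*} [Field F] [Fintype F] {ι : Type} [Fintype ι] [DecidableEq ι]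
  (Q : QuadraticForm F (ι → F))

/-- U-EVEN -/
theorem even_finrank (h2 : (2 : F) ≠ 0) (x : GL ι F) (hx : x ∈ Cfsg.isometryGroup F ⇑Q)
    (hnil : IsNilpotent ((x : Matrix ι ι F) - 1)) (W : Submodule F (ι → F))
    (hW : Cfsg.Geo.IsNondegenerateOn (QuadraticMap.polar ⇑Q) W)
    (hxW : W.map (Matrix.toLin' (x : Matrix ι ι F)) ≤ W) (k : ℕ) :
    Even (finrank F ↥(W.map ((Matrix.toLin' ((x : Matrix ι ι F) - 1)) ^ (2 * k + 1)))) := by
  set B : LinearMap.BilinForm F (ι → F) := QuadraticMap.polarBilin Q with hB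
  set N : End F (ι → F) := Matrix.toLin' ((x : Matrix ι ι F) - 1) with hN
  have hNW := sub_one_mem x W hxW
  have hNnil : IsNilpotent N := hnil.map (Matrix.toLinAlgEquiv' (R := F))
  have hnilW := isNilpotent_restrict N hNnil W hNW
  set NW : End F W := N.restrict hNW with hNWdef
  set b := Module.finBasis F W with hb
  set E := LinearMap.toMatrixAlgEquiv b with hE
  set A : Matrix (Fin (finrank F W)) (Fin (finrank F W)) F := E (1 + NW) with hA
  set Y : Matrix (Fin (finrank F W)) (Fin (finrank F W)) F :=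
    LinearMap.BilinForm.toMatrix b (B.restrict W) with hY
  have hA1 : A - 1 = E NW := by
    rw [hA, map_add, map_one]; abel
  have hAnil : IsNilpotent (A - 1) := by
    rw [hA1]; exact hnilW.map E
  have hAu : IsUnit A := by
    have h1 : A = 1 + (A - 1) := by abel
    rw [h1]
    exact hAnil.isUnit_one_add
  obtain ⟨u, hu⟩ := hAu
  have hrefl : B.IsRefl := by
    intro a c hac
    show QuadraticMap.polar ⇑Q c a = 0
    rw [QuadraticMap.polar_comm]
    exact hac
  have hdis : Disjoint W (B.orthogonal W) := by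
    rw [disjoint_iff, eq_bot_iff]
    rintro v ⟨hv1, hv2⟩
    by_contra hv0
    obtain ⟨⟨y, hy, hyv⟩, -⟩ := hW v hv1 hv0
    exact hyv ((LinearMap.BilinForm.mem_orthogonal_iff.1 hv2) y hy)
  have hnd := B.nondegenerate_restrict_of_disjoint_orthogonal hrefl hdis
  have hYu : IsUnit Y := by
    rw [Matrix.isUnit_iff_isUnit_det, isUnit_iff_ne_zero, ← Matrix.nondegenerate_iff_det_ne_zero, hY,
      LinearMap.BilinForm.nondegenerate_toMatrix_iff]
    exact hnd
  obtain ⟨Yu, hYu⟩ := hYu
  have hYT : Yᵀ = Y := by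
    ext i j
    simp only [hY, Matrix.transpose_apply, LinearMap.BilinForm.toMatrix_apply]
    exact QuadraticMap.polar_comm _ _ _
  have hinv : Aᵀ * Y * A = Y := by
    have h1 : (B.restrict W).comp (1 + NW) (1 + NW) = B.restrict W := by
      ext v w
      have e1 : ∀ v : W, (((1 + NW : End F W) v : W) : ι → F) = (x : Matrix ι ι F) *ᵥ (v : ι → F) := by
        intro v
        simp only [LinearMap.add_apply, Module.End.one_apply, Submodule.coe_add, hNWdef,
          LinearMap.coe_restrict_apply, hN, Matrix.toLin'_apply, Matrix.sub_mulVec, Matrix.one_mulVec]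
        abel
      show QuadraticMap.polar ⇑Q (((1 + NW : End F W) v : W) : ι → F) (((1 + NW : End F W) w : W) : ι → F)
        = QuadraticMap.polar ⇑Q (v : ι → F) (w : ι → F)
      rw [e1, e1, polar_inv Q x hx]
    have h3 := LinearMap.BilinForm.toMatrix_comp b b (B.restrict W) (1 + NW) (1 + NW)
    rw [h1] at h3
    exact h3.symm
  have hu1 : IsUnit (A + 1) := by
    have e1 : A + 1 = (2 : F) • (1 : Matrix (Fin (finrank F W)) (Fin (finrank F W)) F) + (A - 1) := by
      rw [two_smul]; abel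
    rw [e1]
    apply IsNilpotent.isUnit_add_left_of_commute hAnil
    · apply IsUnit.of_mul_eq_one ((2 : F)⁻¹ • (1 : Matrix (Fin (finrank F W)) (Fin (finrank F W)) F))
      rw [smul_mul_smul_comm, mul_inv_cancel₀ h2, one_smul, one_mul]
    · exact (Commute.one_right _).smul_right _
  have hev := even_rank_symm A (u⁻¹ : (Matrix _ _ F)ˣ).1 Y (Yu⁻¹ : (Matrix _ _ F)ˣ).1
    (by rw [← hu, Units.mul_inv]) (by rw [← hYu, Units.mul_inv]) hinv hYT hu1 k
  rw [← finrank_range_restrict_pow N W hNW]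
  have h4 : ((A - 1) ^ (2 * k + 1)).rank = finrank F (LinearMap.range (NW ^ (2 * k + 1))) := by
    rw [hA1, ← map_pow, Matrix.rank_eq_finrank_range_toLin _ b b]
    have h5 : Matrix.toLin b b (E (NW ^ (2 * k + 1))) = NW ^ (2 * k + 1) :=
      Matrix.toLin_toMatrix b b _
    rw [h5]
  rw [← h4]
  exact hev

end Cfsg.Agent.Lib.Helper38UniEVEN
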