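import Mathlib
import Cfsg.Prelude.Def_GeometricClasses
import Cfsg.Agent.Lib.Helper48UnipOrth
import Cfsg.Agent.Lib.Helper48QuadType
import Cfsg.Agent.Lib.Helper49All
import Cfsg.Agent.Lib.Helper49Forms
import Cfsg.Agent.Lib.Helper49OddForm

set_option autoImplicit false
open scoped MatrixGroups
open Module Matrix Cfsg
open Cfsg.Agent.Lib.Helper48RankSeq Cfsg.Agent.Lib.Helper48QuadEx Cfsg.Agent.Lib.Helper48QuadType
  Cfsg.Agent.Lib.Helper48UnipOrth

/-! Project 94, wave 5, piece U-MEM. -/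

namespace Cfsg.Agent.Lib.Helper38UniMEM

variable {F : Type*} [Field F] [Fintype F] {ι : Type} [Fintype ι] [DecidableEq ι]
  (Q : QuadraticForm F (ι → F))

/-- U-MEM -/
theorem mem_omega (p : ℕ) [Fact p.Prime] [CharP F p] (h2 : (2 : F) ≠ 0)
    (hQ : (QuadraticMap.polarBilin Q).Nondegenerate) (x : GL ι F)
    (hx : x ∈ Cfsg.isometryGroup F ⇑Q) (μ : Multiset ℕ) (hμ : RankSeq (x : Matrix ι ι F) μ)
    (hp : ∀ e ∈ μ, e ≤ p) (e : ℕ) (he : e ∈ μ) (he2 : 2 ≤ e) :
    x ∈ Cfsg.Geo.omegaGL ⇑Q ∧ x ^ p = 1 ∧ ∀ z : F, (x : Matrix ι ι F) ≠ z • (1 : Matrix ι ι F) := by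
  have hpp : p.Prime := Fact.out
  have hne : Nonempty ι := by
    have h1 := hμ.card
    have h3 : e ≤ μ.sum := Multiset.le_sum_of_mem he
    exact Fintype.card_pos_iff.1 (by omega)
  have h0 : ((x : Matrix ι ι F) - 1) ^ p = 0 := by
    apply eq_zero_of_rank
    rw [hμ p]
    apply Multiset.sum_eq_zero
    intro a ha
    obtain ⟨b, hb, rfl⟩ := Multiset.mem_map.1 ha
    exact Nat.sub_eq_zero_of_le (hp b hb)
  have hxp : (x : Matrix ι ι F) ^ p = 1 := by
    have h1 := sub_pow_char_of_commute (p := p) (Commute.one_right (x : Matrix ι ι F))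
    rw [h0, one_pow] at h1
    exact (sub_eq_zero.1 h1.symm)
  have hxp' : x ^ p = 1 := by
    apply Units.ext
    rw [Units.val_pow_eq_pow_val, hxp]; rfl
  have hp2 : p ≠ 2 := by
    rintro rfl
    apply h2
    have := CharP.cast_eq_zero F 2
    exact_mod_cast this
  refine ⟨?_, hxp', ?_⟩
  · obtain ⟨m, hm⟩ := hpp.eq_two_or_odd'.resolve_left hp2
    have hy : x ^ (m + 1) ∈ Cfsg.isometryGroup F ⇑Q := Subgroup.pow_mem _ hx _
    have hq : Fintype.card F ≠ 2 := by
      intro h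
      apply h2
      have := Nat.cast_card_eq_zero F
      rw [h] at this
      exact_mod_cast this
    have h1 := Cfsg.Agent.Lib.Helper49All.sq_mem_Omega Q hQ (Or.inl hq) ⟨x ^ (m + 1), hy⟩
    refine ⟨_, h1, ?_⟩
    show x ^ (m + 1) * x ^ (m + 1) = x
    rw [← pow_add]
    have : m + 1 + (m + 1) = p + 1 := by omega
    rw [this, pow_succ, hxp', one_mul]
  · intro z hz
    have h1 : (x : Matrix ι ι F) - 1 = (z - 1) • (1 : Matrix ι ι F) := by
      rw [hz, sub_smul, one_smul]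
    have h3 : (z - 1) ^ p = 0 := by
      rw [h1, smul_pow, one_pow] at h0
      obtain ⟨i⟩ := hne
      have := congrFun (congrFun h0 i) i
      simpa using this
    have h4 : z - 1 = 0 := pow_eq_zero_iff hpp.ne_zero |>.1 h3
    have h5 := hμ 1
    rw [h1, h4, zero_smul, pow_one, Matrix.rank_zero] at h5
    have h6 : e - 1 ≤ (μ.map (· - 1)).sum := by
      apply Multiset.le_sum_of_mem
      exact Multiset.mem_map.2 ⟨e, he, rfl⟩
    omega

end Cfsg.Agent.Lib.Helper38UniMEM
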