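import Mathlib
import Cfsg.Prelude.Def_GeometricClasses
import Cfsg.Agent.Lib.Helper48UnipOrth
import Cfsg.Agent.Lib.Helper48QuadType
import Cfsg.Agent.Lib.Helper49All
import Cfsg.Agent.Lib.Helper49Forms
import Cfsg.Agent.Lib.Helper49OddForm

set_option autoImplicit false
set_option linter.unusedSectionVars false
open scoped MatrixGroups
open Module Matrix Cfsg
open Cfsg.Agent.Lib.Helper48RankSeq Cfsg.Agent.Lib.Helper48QuadEx Cfsg.Agent.Lib.Helper48QuadType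
  Cfsg.Agent.Lib.Helper48UnipOrth

/-! Project 94, wave 5, piece U-PLUSEVEN. -/

namespace Cfsg.Agent.Lib.Helper38UniPLUSEVEN

variable {F : Type*} [Field F] [Fintype F]

theorem exists_half (μ : Multiset ℕ) (hev : ∀ e, Even (μ.count e)) : ∃ l : Multiset ℕ, μ = l + l := by
  refine ⟨Finsupp.toMultiset (μ.toFinsupp.mapRange (· / 2) rfl), ?_⟩
  ext e
  rw [Multiset.count_add, Finsupp.count_toMultiset, Finsupp.mapRange_apply, Multiset.toFinsupp_apply]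
  obtain ⟨c, hc⟩ := hev e
  omega

/-- a unipotent matrix of any type -/
theorem exists_rankSeq (l : Multiset ℕ) (h0 : 0 ∉ l) :
    ∃ A : Matrix (Fin l.sum) (Fin l.sum) F, RankSeq A l := by
  obtain ⟨n, A, -, hA⟩ := exists_of_blocks (F := F) (fun _ _ => True) trivial
    (fun _ _ _ _ _ _ => trivial) (fun _ => True)
    (fun j _ _ => ⟨j, Cfsg.jordanBlock j F, trivial, rankSeq_jordanBlock j⟩)
    (fun j _ => ⟨j + j, _, trivial,
      ((rankSeq_jordanBlock (F := F) j).fromBlocks (rankSeq_jordanBlock j)).reindex finSumFinEquiv⟩)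
    l h0 (fun j hj => absurd trivial hj)
  have hn : n = l.sum := by
    have := hA.card
    rwa [Fintype.card_fin] at this
  subst hn
  exact ⟨A, hA⟩

/-- U-PLUSEVEN -/
theorem exists_plus_of_even (d : ℕ) (μ : Multiset ℕ) (h0 : 0 ∉ μ) (hev : ∀ e, Even (μ.count e))
    (hsum : μ.sum = 2 * d) :
    ∃ x : GL (Fin d ⊕ Fin d) F, x ∈ Cfsg.isometryGroup F (Cfsg.quadFormPlus d F) ∧
      RankSeq (x : Matrix (Fin d ⊕ Fin d) (Fin d ⊕ Fin d) F) μ := by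
  obtain ⟨l, rfl⟩ := exists_half μ hev
  have hl0 : 0 ∉ l := fun h => h0 (Multiset.mem_add.2 (Or.inl h))
  have hls : l.sum = d := by
    rw [Multiset.sum_add] at hsum
    omega
  subst hls
  obtain ⟨A, hA⟩ := exists_rankSeq (F := F) l hl0
  have hu : IsUnit A := by
    have h1 : A = 1 + (A - 1) := by abel
    rw [h1]
    exact hA.nilpotent.isUnit_one_add
  obtain ⟨u, rfl⟩ := hu
  have hAA' : u.1 * u⁻¹.1 = 1 := Units.mul_inv u
  have hA'A : u⁻¹.1 * u.1 = 1 := Units.inv_mul u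
  have ht : u.1ᵀ * u⁻¹.1ᵀ = 1 := by rw [← Matrix.transpose_mul, hA'A, Matrix.transpose_one]
  have ht' : u⁻¹.1ᵀ * u.1ᵀ = 1 := by rw [← Matrix.transpose_mul, hAA', Matrix.transpose_one]
  refine ⟨⟨fromBlocks u.1 0 0 u⁻¹.1ᵀ, fromBlocks u⁻¹.1 0 0 u.1ᵀ, ?_, ?_⟩, ?_, ?_⟩
  · rw [fromBlocks_multiply, hAA', ht']
    simp only [mul_zero, zero_mul, add_zero, zero_add, fromBlocks_one]
  · rw [fromBlocks_multiply, hA'A, ht]
    simp only [mul_zero, zero_mul, add_zero, zero_add, fromBlocks_one]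
  · rw [Cfsg.Agent.Lib.Helper49Orth.mem_iso]
    intro v
    show Cfsg.quadFormPlus l.sum F (fromBlocks u.1 0 0 u⁻¹.1ᵀ *ᵥ v) = Cfsg.quadFormPlus l.sum F v
    have e1 : ∀ w : Fin l.sum ⊕ Fin l.sum → F,
        Cfsg.quadFormPlus l.sum F w = (w ∘ Sum.inl) ⬝ᵥ (w ∘ Sum.inr) := fun w => rfl
    rw [e1, e1, Matrix.fromBlocks_mulVec]
    simp only [Matrix.zero_mulVec, add_zero, zero_add]
    have e2 : (Sum.elim (u.1 *ᵥ (v ∘ Sum.inl)) (u⁻¹.1ᵀ *ᵥ (v ∘ Sum.inr))) ∘ Sum.inl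
        = u.1 *ᵥ (v ∘ Sum.inl) := rfl
    have e3 : (Sum.elim (u.1 *ᵥ (v ∘ Sum.inl)) (u⁻¹.1ᵀ *ᵥ (v ∘ Sum.inr))) ∘ Sum.inr
        = u⁻¹.1ᵀ *ᵥ (v ∘ Sum.inr) := rfl
    rw [e2, e3, Matrix.dotProduct_mulVec, Matrix.vecMul_transpose, Matrix.mulVec_mulVec, hA'A,
      Matrix.one_mulVec]
  · exact hA.fromBlocks (hA.inv hAA').transpose

end Cfsg.Agent.Lib.Helper38UniPLUSEVEN
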