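import Mathlib
import Cfsg.Prelude.Def_GeometricClasses
import Cfsg.Agent.Lib.Helper48UnipOrth
import Cfsg.Agent.Lib.Helper48QuadType
import Cfsg.Agent.Lib.Helper49All
import Cfsg.Agent.Lib.Helper49Forms
import Cfsg.Agent.Lib.Helper49OddForm

set_option autoImplicit false
set_option linter.unusedSectionVars false
open scoped MatrixGroups
open Module Matrix Cfsg
open Cfsg.Agent.Lib.Helper48RankSeq Cfsg.Agent.Lib.Helper48QuadEx Cfsg.Agent.Lib.Helper48QuadType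
  Cfsg.Agent.Lib.Helper48UnipOrth

/-! Project 94, wave 5, piece U-TRANS. -/

namespace Cfsg.Agent.Lib.Helper38UniTRANS

variable {F : Type*} [Field F] [Fintype F]

/-- the matrix of `T ∘ M ∘ T⁻¹` -/
noncomputable def tr {κ ι : Type} [Fintype κ] [DecidableEq κ] [Fintype ι] [DecidableEq ι]
    (T : (κ → F) ≃ₗ[F] (ι → F)) (M : Matrix κ κ F) : Matrix ι ι F :=
  LinearMap.toMatrix' (T.toLinearMap ∘ₗ Matrix.toLin' M ∘ₗ T.symm.toLinearMap)

section
variable {κ ι : Type} [Fintype κ] [DecidableEq κ] [Fintype ι] [DecidableEq ι]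
  (T : (κ → F) ≃ₗ[F] (ι → F))

theorem tr_mulVec (M : Matrix κ κ F) (v : ι → F) : tr T M *ᵥ v = T (M *ᵥ T.symm v) := by
  rw [tr, ← Matrix.toLin'_apply, Matrix.toLin'_toMatrix']
  simp

theorem tr_mul (M N : Matrix κ κ F) : tr T (M * N) = tr T M * tr T N := by
  rw [tr, tr, tr, ← LinearMap.toMatrix'_comp]
  congr 1
  ext v
  simp [Matrix.toLin'_mul]

theorem tr_one : tr T (1 : Matrix κ κ F) = 1 := by
  rw [tr, Matrix.toLin'_one]
  rw [← LinearMap.toMatrix'_id]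
  congr 1
  ext v
  simp

theorem tr_sub (M N : Matrix κ κ F) : tr T (M - N) = tr T M - tr T N := by
  rw [tr, tr, tr, ← map_sub]
  congr 1
  ext v
  simp [Matrix.sub_mulVec]

theorem tr_pow (M : Matrix κ κ F) (k : ℕ) : tr T (M ^ k) = tr T M ^ k := by
  induction k with
  | zero => rw [pow_zero, pow_zero, tr_one]
  | succ k ih => rw [pow_succ, pow_succ, tr_mul, ih]

theorem tr_rank (M : Matrix κ κ F) : (tr T M).rank = M.rank := by
  rw [tr, Matrix.rank, Matrix.rank, ← Matrix.toLin'_apply', Matrix.toLin'_toMatrix',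
    ← Matrix.toLin'_apply']
  rw [LinearMap.range_comp, LinearMap.range_comp, LinearEquiv.range, Submodule.map_top]
  exact LinearEquiv.finrank_map_eq T _

end

/-- U-TRANS -/
theorem transport {κ ι : Type} [Fintype κ] [DecidableEq κ] [Fintype ι] [DecidableEq ι]
    (Z A : Matrix κ κ F) (μ : Multiset ℕ)
    (hinv : ∀ x : κ → F, (A *ᵥ x) ⬝ᵥ Z *ᵥ (A *ᵥ x) = x ⬝ᵥ Z *ᵥ x) (hA : RankSeq A μ)
    (Q : QuadraticForm F (ι → F)) (c : F) (hc : c ≠ 0) (T : (κ → F) ≃ₗ[F] (ι → F))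
    (hT : ∀ v, Q (T v) = c * qf Z v) :
    ∃ x : GL ι F, x ∈ Cfsg.isometryGroup F ⇑Q ∧ RankSeq (x : Matrix ι ι F) μ := by
  have hu : IsUnit A := by
    have h1 : A = 1 + (A - 1) := by abel
    rw [h1]
    exact hA.nilpotent.isUnit_one_add
  obtain ⟨u, hu⟩ := hu
  have h1 : tr T A * tr T (u⁻¹ : (Matrix κ κ F)ˣ).1 = 1 := by
    rw [← tr_mul, ← hu, Units.mul_inv, tr_one]
  have h2 : tr T (u⁻¹ : (Matrix κ κ F)ˣ).1 * tr T A = 1 := by
    rw [← tr_mul, ← hu, Units.inv_mul, tr_one]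
  refine ⟨⟨tr T A, tr T (u⁻¹ : (Matrix κ κ F)ˣ).1, h1, h2⟩, ?_, ?_⟩
  · rw [Cfsg.Agent.Lib.Helper49Orth.mem_iso]
    intro v
    show Q (tr T A *ᵥ v) = Q v
    rw [tr_mulVec, hT, qf_apply, hinv, ← qf_apply, ← hT, LinearEquiv.apply_symm_apply]
  · intro k
    show ((tr T A - 1) ^ k).rank = _
    rw [← tr_one T, ← tr_sub, ← tr_pow, tr_rank, hA k]

end Cfsg.Agent.Lib.Helper38UniTRANS
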