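import Mathlib
import Cfsg.Prelude.Def_GeometricClasses
import Cfsg.Agent.Lib.Helper48UnipOrth
import Cfsg.Agent.Lib.Helper48QuadType
import Cfsg.Agent.Lib.Helper49All
import Cfsg.Agent.Lib.Helper49Forms
import Cfsg.Agent.Lib.Helper49OddForm

set_option autoImplicit false
open scoped MatrixGroups
open Module Matrix Cfsg
open Cfsg.Agent.Lib.Helper48RankSeq Cfsg.Agent.Lib.Helper48QuadEx Cfsg.Agent.Lib.Helper48QuadType
  Cfsg.Agent.Lib.Helper48UnipOrth Cfsg.Agent.Lib.Helper48OrthConj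

namespace Cfsg.Agent.Lib.Helper86UniDISC

variable {F : Type*} [Field F] [Fintype F]

/-- Gram matrices of isometric forms are congruent. -/
theorem gram_congr {ι : Type} [Fintype ι] [DecidableEq ι] (Q Q' : QuadraticForm F (ι → F))
    (a : Matrix ι ι F) (ha : ∀ v, Q' (a *ᵥ v) = Q v) : aᵀ * GG Q' * a = GG Q := by
  apply eq_of_pol
  intro x y
  rw [← pol_eq]
  have h2 : QuadraticMap.polar Q' (a *ᵥ x) (a *ᵥ y) = QuadraticMap.polar Q x y := by
    unfold QuadraticMap.polar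
    rw [← Matrix.mulVec_add, ha, ha, ha]
  rw [← h2, pol_eq, ← Matrix.mulVec_mulVec, ← Matrix.mulVec_mulVec, Matrix.dotProduct_mulVec x,
    Matrix.vecMul_transpose]

/-- U-DISC -/
theorem not_isom_scale {κ ι : Type} [Fintype κ] [DecidableEq κ] [Fintype ι] [DecidableEq ι]
    (hodd : Odd (Fintype.card κ)) (Z₁ : Matrix κ κ F) (Z₂ : Matrix ι ι F)
    (h₁ : IsUnit (Z₁ + Z₁ᵀ)) (h₂ : IsUnit (Z₂ + Z₂ᵀ)) (δ : F) (hδ : ¬ IsSquare δ) :
    ¬ Isom (qf (fromBlocks Z₁ 0 0 Z₂)) (qf (fromBlocks (δ • Z₁) 0 0 Z₂)) := by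
  rintro ⟨T, hT⟩
  have hc := gram_congr (qf (fromBlocks Z₁ 0 0 Z₂)) (qf (fromBlocks (δ • Z₁) 0 0 Z₂))
    (LinearMap.toMatrix' T.toLinearMap) (fun v => by
      rw [← Matrix.toLin'_apply, Matrix.toLin'_toMatrix']
      exact hT v)
  rw [GG_qf, GG_qf] at hc
  have hd := congrArg Matrix.det hc
  rw [Matrix.det_mul, Matrix.det_mul, Matrix.det_transpose, Matrix.fromBlocks_transpose,
    Matrix.fromBlocks_transpose, Matrix.fromBlocks_add, Matrix.fromBlocks_add] at hd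
  simp only [Matrix.transpose_zero, add_zero, Matrix.det_fromBlocks_zero₂₁, Matrix.transpose_smul,
    ← smul_add, Matrix.det_smul] at hd
  have hd1 : (Z₁ + Z₁ᵀ).det ≠ 0 := by
    have := (Matrix.isUnit_iff_isUnit_det _).1 h₁
    exact this.ne_zero
  have hd2 : (Z₂ + Z₂ᵀ).det ≠ 0 := by
    have := (Matrix.isUnit_iff_isUnit_det _).1 h₂
    exact this.ne_zero
  obtain ⟨j, hj⟩ := hodd
  set P := (LinearMap.toMatrix' T.toLinearMap).det with hP
  have h3 : P * P * δ ^ (2 * j + 1) = 1 := by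
    rw [hj] at hd
    have h4 : (P * P * δ ^ (2 * j + 1)) * ((Z₁ + Z₁ᵀ).det * (Z₂ + Z₂ᵀ).det) =
        1 * ((Z₁ + Z₁ᵀ).det * (Z₂ + Z₂ᵀ).det) := by
      have h6 : (P * P * δ ^ (2 * j + 1)) * ((Z₁ + Z₁ᵀ).det * (Z₂ + Z₂ᵀ).det) =
          P * (δ ^ (2 * j + 1) * (Z₁ + Z₁ᵀ).det * (Z₂ + Z₂ᵀ).det) * P := by ring
      rw [h6, hd, one_mul]
    exact mul_right_cancel₀ (mul_ne_zero hd1 hd2) h4
  apply hδ
  have hne : P * δ ^ j ≠ 0 := by
    intro h0
    have : P * P * δ ^ (2 * j + 1) = (P * δ ^ j) * (P * δ ^ j) * δ := by ring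
    rw [this, h0] at h3
    simp at h3
  refine ⟨(P * δ ^ j)⁻¹, ?_⟩
  have h5 : (P * δ ^ j) * (P * δ ^ j) * δ = 1 := by rw [← h3]; ring
  have h7 := eq_inv_of_mul_eq_one_right h5
  rw [mul_inv] at h7
  exact h7

end Cfsg.Agent.Lib.Helper86UniDISC
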