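import Mathlib
import Cfsg.Prelude.Def_GeometricClasses
import Cfsg.Agent.Lib.Helper48UnipOrth
import Cfsg.Agent.Lib.Helper48QuadType
import Cfsg.Agent.Lib.Helper49All
import Cfsg.Agent.Lib.Helper49Forms
import Cfsg.Agent.Lib.Helper49OddForm
import Cfsg.Agent.Lib.Helper86UniDISC

set_option autoImplicit false
set_option linter.unusedSectionVars false
open scoped MatrixGroups
open Module Matrix Cfsg
open Cfsg.Agent.Lib.Helper48RankSeq Cfsg.Agent.Lib.Helper48QuadEx Cfsg.Agent.Lib.Helper48QuadType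
  Cfsg.Agent.Lib.Helper48UnipOrth Cfsg.Agent.Lib.Helper48UnipEx

/-! Project 94, wave 5, piece U-TWO. -/

namespace Cfsg.Agent.Lib.Helper38UniTWO

variable {F : Type*} [Field F] [Fintype F]

/-- explicit version of `QuadInv.fromBlocks` -/
theorem blocks_facts {κ ι : Type*} [Fintype κ] [DecidableEq κ] [Fintype ι] [DecidableEq ι]
    {A Y : Matrix κ κ F} {B Z : Matrix ι ι F} (h1 : IsUnit (Y + Yᵀ))
    (h2 : ∀ x : κ → F, (A *ᵥ x) ⬝ᵥ Y *ᵥ (A *ᵥ x) = x ⬝ᵥ Y *ᵥ x) (k1 : IsUnit (Z + Zᵀ))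
    (k2 : ∀ x : ι → F, (B *ᵥ x) ⬝ᵥ Z *ᵥ (B *ᵥ x) = x ⬝ᵥ Z *ᵥ x) :
    IsUnit (fromBlocks Y 0 0 Z + (fromBlocks Y 0 0 Z)ᵀ) ∧
      ∀ x : κ ⊕ ι → F, (fromBlocks A 0 0 B *ᵥ x) ⬝ᵥ fromBlocks Y 0 0 Z *ᵥ (fromBlocks A 0 0 B *ᵥ x)
        = x ⬝ᵥ fromBlocks Y 0 0 Z *ᵥ x := by
  constructor
  · obtain ⟨W₀, hW₀⟩ := h1.exists_right_inv
    obtain ⟨W, hW⟩ := k1.exists_right_inv
    apply IsUnit.of_mul_eq_one (Matrix.fromBlocks W₀ 0 0 W)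
    rw [fromBlocks_transpose, fromBlocks_add, fromBlocks_multiply]
    simp [hW₀, hW]
  · intro x
    have key : ∀ y : κ ⊕ ι → F, y ⬝ᵥ (Matrix.fromBlocks Y 0 0 Z) *ᵥ y
        = (y ∘ Sum.inl) ⬝ᵥ Y *ᵥ (y ∘ Sum.inl) + (y ∘ Sum.inr) ⬝ᵥ Z *ᵥ (y ∘ Sum.inr) := by
      intro y
      rw [Matrix.fromBlocks_mulVec, dotProduct, Fintype.sum_sum_type]
      simp only [Sum.elim_inl, Sum.elim_inr, Matrix.zero_mulVec, add_zero, zero_add]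
      rfl
    rw [key, key, Matrix.fromBlocks_mulVec]
    have e1 : (Sum.elim (A *ᵥ (x ∘ Sum.inl) + (0 : Matrix κ ι F) *ᵥ (x ∘ Sum.inr))
        ((0 : Matrix ι κ F) *ᵥ (x ∘ Sum.inl) + B *ᵥ (x ∘ Sum.inr))) ∘ Sum.inl
        = A *ᵥ (x ∘ Sum.inl) := by
      funext i
      simp
    have e2 : (Sum.elim (A *ᵥ (x ∘ Sum.inl) + (0 : Matrix κ ι F) *ᵥ (x ∘ Sum.inr))
        ((0 : Matrix ι κ F) *ᵥ (x ∘ Sum.inl) + B *ᵥ (x ∘ Sum.inr))) ∘ Sum.inr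
        = B *ᵥ (x ∘ Sum.inr) := by
      funext i
      simp
    rw [e1, e2, h2, k2]

/-- the realisation part of row 2583 -/
theorem exists_quadInv (h2 : (2 : F) ≠ 0) (s : Multiset ℕ) (h0 : 0 ∉ s)
    (hev : ∀ e, Even e → Even (s.count e)) :
    ∃ (n : ℕ) (A : Matrix (Fin n) (Fin n) F), QuadInv A ∧ RankSeq A s :=
  exists_of_blocks (F := F) (fun n A => QuadInv A)
    ⟨1, ⟨1, Subsingleton.elim _ _⟩, fun x => by simp⟩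
    (fun n n' A B hA hB => (hA.fromBlocks hB).reindex _) Odd
    (fun j hj hj1 => ⟨j, _, quadInv_odd h2 j hj, rankSeq_jordanBlock j⟩)
    (fun j hj1 => by
      obtain ⟨A, A', h1, h2, h3⟩ := exists_pair (F := F) j
      exact ⟨j + j, _, (quadInv_pair A A' h2).reindex finSumFinEquiv, h3.reindex _⟩)
    s h0 (fun j hj => hev j (Nat.not_odd_iff_even.1 hj))

/-- U-TWO -/
theorem exists_two_forms (h2 : (2 : F) ≠ 0) (μ : Multiset ℕ) (h0 : 0 ∉ μ)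
    (hev : ∀ e, Even e → Even (μ.count e)) (k : ℕ) (hk : k ∈ μ) (hko : Odd k) :
    ∃ (n : ℕ) (A Z₁ Z₂ : Matrix (Fin k ⊕ Fin n) (Fin k ⊕ Fin n) F), RankSeq A μ ∧
      IsUnit (Z₁ + Z₁ᵀ) ∧ IsUnit (Z₂ + Z₂ᵀ) ∧
      (∀ x : Fin k ⊕ Fin n → F, (A *ᵥ x) ⬝ᵥ Z₁ *ᵥ (A *ᵥ x) = x ⬝ᵥ Z₁ *ᵥ x) ∧
      (∀ x : Fin k ⊕ Fin n → F, (A *ᵥ x) ⬝ᵥ Z₂ *ᵥ (A *ᵥ x) = x ⬝ᵥ Z₂ *ᵥ x) ∧
      ¬ Isom (qf Z₁) (qf Z₂) := by
  obtain ⟨n, A', ⟨Z', hZ'u, hZ'i⟩, hA'⟩ := exists_quadInv h2 (μ.erase k)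
    (fun h => h0 (Multiset.mem_of_mem_erase h)) (fun e he => by
      have hne : e ≠ k := by
        rintro rfl
        exact (Nat.not_even_iff_odd.2 hko) he
      rw [Multiset.count_erase_of_ne hne]
      exact hev e he)
  obtain ⟨B, hBu, hBi⟩ := quadInv_odd h2 k hko
  have hchar : ringChar F ≠ 2 := by
    intro h
    apply h2
    have := ringChar.Nat.cast_ringChar (R := F)
    rw [h] at this
    exact_mod_cast this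
  obtain ⟨δ, hδ⟩ := FiniteField.exists_nonsquare hchar
  have hδ0 : δ ≠ 0 := by
    rintro rfl
    exact hδ ⟨0, by simp⟩
  have hBu' : IsUnit (δ • B + (δ • B)ᵀ) := by
    rw [Matrix.transpose_smul, ← smul_add]
    obtain ⟨W, hW⟩ := hBu.exists_right_inv
    apply IsUnit.of_mul_eq_one (δ⁻¹ • W)
    rw [smul_mul_smul_comm, hW, mul_inv_cancel₀ hδ0, one_smul]
  have hBi' : ∀ x : Fin k → F, (Cfsg.jordanBlock k F *ᵥ x) ⬝ᵥ (δ • B) *ᵥ (Cfsg.jordanBlock k F *ᵥ x)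
      = x ⬝ᵥ (δ • B) *ᵥ x := by
    intro x
    rw [Matrix.smul_mulVec, Matrix.smul_mulVec, dotProduct_smul, dotProduct_smul, hBi]
  obtain ⟨a1, a2⟩ := blocks_facts hBu hBi hZ'u hZ'i
  obtain ⟨b1, b2⟩ := blocks_facts hBu' hBi' hZ'u hZ'i
  refine ⟨n, fromBlocks (Cfsg.jordanBlock k F) 0 0 A', fromBlocks B 0 0 Z', fromBlocks (δ • B) 0 0 Z',
    ?_, a1, b1, a2, b2, ?_⟩
  · have h1 := (rankSeq_jordanBlock (F := F) k).fromBlocks hA'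
    rwa [Multiset.singleton_add, Multiset.cons_erase hk] at h1
  · exact Cfsg.Agent.Lib.Helper86UniDISC.not_isom_scale (by rw [Fintype.card_fin]; exact hko) B Z'
      hBu hZ'u δ hδ

end Cfsg.Agent.Lib.Helper38UniTWO
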