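import Mathlib
import Cfsg.Agent.Lib.Helper38UniTWO
import Cfsg.Agent.Lib.Helper38UniTRANS

set_option autoImplicit false
set_option linter.unusedSectionVars false
open scoped MatrixGroups
open Module Matrix Cfsg
open Cfsg.Agent.Lib.Helper48RankSeq Cfsg.Agent.Lib.Helper48QuadEx Cfsg.Agent.Lib.Helper48QuadType
  Cfsg.Agent.Lib.Helper48UnipOrth Cfsg.Agent.Lib.Helper38UniTWO Cfsg.Agent.Lib.Helper38UniTRANS
  Cfsg.Agent.Lib.Helper7OPlus Cfsg.Agent.Lib.Helper7OMinus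

/-! Project 94, wave 5, pieces U-TYPE (P and M) and U-ODD. -/

namespace Cfsg.Agent.Lib.Helper38UniTYPE

variable {F : Type*} [Field F] [Fintype F]

/-- U-TYPEP -/
theorem exists_plus_of_odd (h2 : (2 : F) ≠ 0) (d : ℕ) (hd : 1 ≤ d) (μ : Multiset ℕ) (h0 : 0 ∉ μ)
    (hev : ∀ e, Even e → Even (μ.count e)) (hsum : μ.sum = 2 * d) (k : ℕ) (hk : k ∈ μ) (hko : Odd k) :
    ∃ x : GL (Fin d ⊕ Fin d) F, x ∈ Cfsg.isometryGroup F (Cfsg.quadFormPlus d F) ∧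
      RankSeq (x : Matrix (Fin d ⊕ Fin d) (Fin d ⊕ Fin d) F) μ := by
  obtain ⟨n, A, Z₁, Z₂, hA, hu₁, hu₂, hi₁, hi₂, hni⟩ := exists_two_forms h2 μ h0 hev k hk hko
  have hV : Module.finrank F (Fin k ⊕ Fin n → F) = 2 * d := by
    rw [Module.finrank_fintype_fun_eq_card, hA.card, hsum]
  have hfun : ⇑(QP F d) = Cfsg.quadFormPlus d F := funext (QP_apply d)
  rw [← hfun]
  rcases isom_std hd hV (qf Z₁) (nondeg_qf Z₁ hu₁) with ⟨T, hT⟩ | ⟨ζ, hζ, h1⟩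
  · exact transport Z₁ A μ hi₁ hA (QP F d) 1 one_ne_zero T (fun v => by rw [hT, one_mul])
  · rcases isom_std hd hV (qf Z₂) (nondeg_qf Z₂ hu₂) with ⟨T, hT⟩ | ⟨ζ', hζ', h1'⟩
    · exact transport Z₂ A μ hi₂ hA (QP F d) 1 one_ne_zero T (fun v => by rw [hT, one_mul])
    · exact absurd ((h1.trans (isom_QM_param (d - 1) ζ ζ' hζ hζ')).trans h1'.symm) hni

/-- U-TYPEM -/
theorem exists_minus_of_odd (h2 : (2 : F) ≠ 0) (d : ℕ) (hd : 1 ≤ d) (μ : Multiset ℕ) (h0 : 0 ∉ μ)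
    (hev : ∀ e, Even e → Even (μ.count e)) (hsum : μ.sum = 2 * d) (k : ℕ) (hk : k ∈ μ) (hko : Odd k)
    (a b : F) (hab : ∀ x y : F, x ^ 2 + a * x * y + b * y ^ 2 = 0 → x = 0 ∧ y = 0) :
    ∃ x : GL ((Fin (d - 1) ⊕ Fin (d - 1)) ⊕ Fin 2) F,
      x ∈ Cfsg.isometryGroup F (Cfsg.quadFormMinus (d - 1) F a b) ∧
      RankSeq (x : Matrix ((Fin (d - 1) ⊕ Fin (d - 1)) ⊕ Fin 2) ((Fin (d - 1) ⊕ Fin (d - 1)) ⊕ Fin 2) F) μ := by
  obtain ⟨n, A, Z₁, Z₂, hA, hu₁, hu₂, hi₁, hi₂, hni⟩ := exists_two_forms h2 μ h0 hev k hk hko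
  have hV : Module.finrank F (Fin k ⊕ Fin n → F) = 2 * d := by
    rw [Module.finrank_fintype_fun_eq_card, hA.card, hsum]
  have hfun : ⇑(QM F (d - 1) a b) = Cfsg.quadFormMinus (d - 1) F a b := funext (QM_apply (d - 1) a b)
  rw [← hfun]
  rcases classify hd hV (qf Z₁) (nondeg_qf Z₁ hu₁) a b hab with h1 | ⟨T, hT⟩
  · rcases classify hd hV (qf Z₂) (nondeg_qf Z₂ hu₂) a b hab with h1' | ⟨T, hT⟩
    · exact absurd (h1.trans h1'.symm) hni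
    · exact transport Z₂ A μ hi₂ hA (QM F (d - 1) a b) 1 one_ne_zero T (fun v => by rw [hT, one_mul])
  · exact transport Z₁ A μ hi₁ hA (QM F (d - 1) a b) 1 one_ne_zero T (fun v => by rw [hT, one_mul])

/-- U-ODD -/
theorem exists_odd (h2 : (2 : F) ≠ 0) (d : ℕ) (μ : Multiset ℕ) (h0 : 0 ∉ μ)
    (hev : ∀ e, Even e → Even (μ.count e)) (hsum : μ.sum = 2 * d + 1) :
    ∃ x : GL (Unit ⊕ (Fin d ⊕ Fin d)) F, x ∈ Cfsg.isometryGroup F (Cfsg.quadFormOdd d F) ∧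
      RankSeq (x : Matrix (Unit ⊕ (Fin d ⊕ Fin d)) (Unit ⊕ (Fin d ⊕ Fin d)) F) μ := by
  obtain ⟨n, A, ⟨Z, hZu, hZi⟩, hA⟩ := exists_quadInv h2 μ h0 hev
  have hn : n = 2 * d + 1 := by
    have := hA.card
    rw [Fintype.card_fin, hsum] at this
    exact this
  have hcard : Fintype.card (Unit ⊕ (Fin d ⊕ Fin d)) = Fintype.card (Fin n) := by
    simp [hn]; ring
  let e : Unit ⊕ (Fin d ⊕ Fin d) ≃ Fin n := Fintype.equivOfCardEq hcard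
  let E : (Fin n → F) ≃ₗ[F] (Unit ⊕ (Fin d ⊕ Fin d) → F) := LinearEquiv.funCongrLeft F F e
  have hodd : Odd (Fintype.card (Unit ⊕ (Fin d ⊕ Fin d))) := by
    rw [hcard, Fintype.card_fin, hn]
    exact ⟨d, rfl⟩
  obtain ⟨g, c, hc, hg⟩ := similar_of_odd h2 hodd ((qf Z).comp E.symm.toLinearMap)
    (Cfsg.Agent.Lib.Helper49Forms.QOdd d F) (nondeg_comp_equiv (qf Z) E.symm (nondeg_qf Z hZu))
    (Cfsg.Agent.Lib.Helper49OddForm.QOdd_nondegenerate h2 d)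
  rw [← Cfsg.Agent.Lib.Helper49Forms.coe_QOdd]
  refine transport Z A μ hZi hA (Cfsg.Agent.Lib.Helper49Forms.QOdd d F) c hc (E.trans g) (fun v => ?_)
  rw [LinearEquiv.trans_apply, hg]
  simp

end Cfsg.Agent.Lib.Helper38UniTYPE
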