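import Cfsg.Agent.Lib.Helper23CE0
import Cfsg.Agent.Lib.Helper39CEA2

set_option autoImplicit false

namespace Cfsg.Agent.Lib.Helper39CEH3

open Subgroup Matrix Cfsg.Agent.Lib.Helper23CE Cfsg.Agent.Lib.Helper39CEA2

variable {F : Type*} [Field F] {G : Type*} [Group G]

theorem inj_of_range [Finite F] (Li : Subgroup G) (ei : SL 2 F ≃* Li) (φ : SL 2 F →* G)
    (hφ : φ.range = Li) : Function.Injective φ := by
  classical
  have hfin : Finite (SL 2 F) := inferInstance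
  have hcard : Nat.card (SL 2 F) = Nat.card φ.range := by
    rw [hφ]; exact Nat.card_congr ei.toEquiv
  have hsurj : Function.Surjective φ.rangeRestrict := φ.rangeRestrict_surjective
  have hbij : Function.Bijective φ.rangeRestrict :=
    (Nat.bijective_iff_surjective_and_card _).2 ⟨hsurj, hcard⟩
  intro a b hab
  apply hbij.1
  exact Subtype.ext hab

theorem u2_ne (h2 : (2 : F) ≠ 0) : u2 (-1 : F) ≠ u2 1 := by
  intro h
  have h1 := congrArg (fun g : SL 2 F => g.1 0 1) h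
  simp only [u2_val] at h1
  have h3 : (-1 : F) = 1 := by simpa using h1
  apply h2
  linear_combination -h3

theorem not_cent [Finite F] (h2 : (2 : F) ≠ 0) (Li : Subgroup G) (ei : SL 2 F ≃* Li) (z : G)
    (φ : SL 2 F →* G) (hφ : φ.range = Li) (hI : Inv z φ) : z ∉ centralizer (Li : Set G) := by
  intro hz
  have hmem : φ (u2 1) ∈ Li := by rw [← hφ]; exact ⟨_, rfl⟩
  have h1 := Subgroup.mem_centralizer_iff.1 hz _ hmem
  have h3 := (hI 1).1
  rw [← h1, mul_inv_cancel_right] at h3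
  exact u2_ne h2 (inj_of_range Li ei φ hφ h3).symm

/-- H3. -/
theorem inv_transfer [Finite F] [Finite G] (h2 : (2 : F) ≠ 0) (Li : Subgroup G) (ei : SL 2 F ≃* Li) (H₀ : Subgroup G) (zj zk : G)
    (hj : zj ∈ H₀) (hk : zk ∈ H₀) (hj2 : zj * zj = 1) (hk2 : zk * zk = 1)
    (h3 : ((H₀ ⊓ centralizer (Li : Set G)).subgroupOf H₀).index ≤ 2)
    (φ ψ : SL 2 F →* G) (hφ : φ.range = Li) (hψ : ψ.range = Li) (hI : Inv zj φ) (hI' : Inv zk ψ) : Inv zk φ := by
  have hjc := not_cent h2 Li ei zj φ hφ hI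
  have hkc := not_cent h2 Li ei zk ψ hψ hI'
  set C := (H₀ ⊓ centralizer (Li : Set G)).subgroupOf H₀ with hC
  have hjC : (⟨zj, hj⟩ : H₀) ∉ C := by
    rw [hC, Subgroup.mem_subgroupOf]
    exact fun h => hjc h.2
  have hkC : (⟨zk, hk⟩ : H₀) ∉ C := by
    rw [hC, Subgroup.mem_subgroupOf]
    exact fun h => hkc h.2
  have hidx : C.index = 2 := by
    have h0 : C.index ≠ 0 := Subgroup.index_ne_zero_of_finite
    have h1 : C.index ≠ 1 := by
      intro h
      rw [Subgroup.index_eq_one] at h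
      apply hjC
      rw [h]; trivial
    omega
  have hmul : (⟨zj, hj⟩ : H₀) * ⟨zk, hk⟩ ∈ C :=
    (Subgroup.mul_mem_iff_of_index_two hidx).2 ⟨fun h => absurd h hjC, fun h => absurd h hkC⟩
  have hcen : zj * zk ∈ centralizer (Li : Set G) := by
    rw [hC, Subgroup.mem_subgroupOf] at hmul
    exact hmul.2
  have hjinv : zj⁻¹ = zj := inv_eq_of_mul_eq_one_left hj2
  have key : ∀ x ∈ Li, zk * x * zk⁻¹ = zj * x * zj⁻¹ := by
    intro x hx
    have h1 := Subgroup.mem_centralizer_iff.1 hcen x hx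
    calc zk * x * zk⁻¹ = zj⁻¹ * (zj * zk * x) * zk⁻¹ := by group
      _ = zj⁻¹ * (x * (zj * zk)) * zk⁻¹ := by rw [h1]
      _ = zj⁻¹ * x * zj := by group
      _ = zj * x * zj⁻¹ := by rw [hjinv]
  intro t
  have hm1 : φ (u2 t) ∈ Li := by rw [← hφ]; exact ⟨_, rfl⟩
  have hm2 : φ (l2 t) ∈ Li := by rw [← hφ]; exact ⟨_, rfl⟩
  rw [key _ hm1, key _ hm2]
  exact hI t

end Cfsg.Agent.Lib.Helper39CEH3
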