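import Mathlib
import Cfsg.Agent.Lib.Helper39Trace

set_option autoImplicit false

/-! A unit `g` of a ring of characteristic `p` with `(g - 1)^(p-1) = 0` commutes with every finite
commutative group of units of order prime to `p` that it normalizes. -/

namespace Cfsg.Agent.Lib.Helper39RingEngel

open Finset Cfsg.Agent.Lib.Helper39Trace

variable {R : Type*} [Ring R]

theorem geom_eq_pow (p : ℕ) (hp : p.Prime) (hp0 : (p : R) = 0) (h : R) :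
    ∑ i ∈ range p, h ^ i = (h - 1) ^ (p - 1) := by
  have key := geom_sum_add_one (h - 1) p
  rw [sub_add_cancel] at key
  rw [key]
  have hp1 : p = (p - 1) + 1 := (Nat.sub_add_cancel hp.one_le).symm
  conv_lhs => rw [hp1]
  rw [sum_range_succ, ← hp1, Nat.choose_self, one_smul]
  rw [sum_eq_zero, zero_add]
  intro j hj
  rw [mem_range] at hj
  obtain ⟨c, hc⟩ := hp.dvd_choose_self (k := j + 1) (by omega) (by omega)
  rw [hc, nsmul_eq_mul, Nat.cast_mul, hp0, zero_mul, zero_mul]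

/-- the set of "commutators" `h⁻¹ x⁻¹ h x`, `x ∈ Q`. -/
def Rg (Q : Subgroup Rˣ) (h : Rˣ) : Set Rˣ := {y | ∃ x ∈ Q, y = h⁻¹ * x⁻¹ * h * x}

theorem pow_mem_Rg (Q : Subgroup Rˣ) (hQc : ∀ a ∈ Q, ∀ b ∈ Q, a * b = b * a) (h : Rˣ)
    (hh : ∀ a ∈ Q, h⁻¹ * a * h ∈ Q) (j : ℕ) :
    ∀ x ∈ Q, (h ^ j)⁻¹ * x⁻¹ * h ^ j * x ∈ Rg Q h := by
  induction j with
  | zero =>
    intro x hx
    exact ⟨1, Q.one_mem, by simp⟩
  | succ j ih =>
    intro x hx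
    obtain ⟨x1, hx1, e1⟩ := ih x hx
    refine ⟨h⁻¹ * x1 * h * x, Q.mul_mem (hh x1 hx1) hx, ?_⟩
    have e2 : (h ^ (j + 1))⁻¹ * x⁻¹ * h ^ (j + 1) * x
        = h⁻¹ * ((h ^ j)⁻¹ * x⁻¹ * h ^ j * x) * h * (h⁻¹ * x⁻¹ * h * x) := by
      rw [pow_succ]; group
    rw [e2, e1]
    have hx2 := hh x1 hx1
    have c1 := hQc (h⁻¹ * (h⁻¹ * x1 * h)⁻¹ * h * (h⁻¹ * x1 * h))
      (Q.mul_mem (hh _ (Q.inv_mem hx2)) hx2) (h⁻¹ * x⁻¹ * h) (hh _ (Q.inv_mem hx))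
    have e3 : h⁻¹ * (h⁻¹ * x1⁻¹ * h * x1) * h * (h⁻¹ * x⁻¹ * h * x)
        = (h⁻¹ * (h⁻¹ * x1 * h)⁻¹ * h * (h⁻¹ * x1 * h)) * (h⁻¹ * x⁻¹ * h) * x := by group
    rw [e3, c1]
    group

theorem commute_of_engel (p : ℕ) (hp : p.Prime) (hp0 : (p : R) = 0) (g : Rˣ) (Q : Subgroup Rˣ)
    [Finite Q] (hQc : ∀ a ∈ Q, ∀ b ∈ Q, a * b = b * a) (hgQ : ∀ a ∈ Q, g⁻¹ * a * g ∈ Q)
    (hcop : (Nat.card Q).Coprime p) (hg : ((g : R) - 1) ^ (p - 1) = 0) :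
    ∀ a ∈ Q, g * a = a * g := by
  classical
  have : Fintype Q := Fintype.ofFinite Q
  intro x0 hx0
  -- `g ^ p = 1`
  have hgp : g ^ p = 1 := by
    have h1 : ∑ i ∈ range p, (g : R) ^ i = 0 := by rw [geom_eq_pow p hp hp0, hg]
    have h2 := geom_sum_mul (g : R) p
    rw [h1, zero_mul] at h2
    apply Units.ext
    rw [Units.val_pow_eq_pow_val, Units.val_one]
    exact (sub_eq_zero.mp h2.symm)
  have hgQi : ∀ i : ℕ, ∀ a ∈ Q, (g ^ i)⁻¹ * a * g ^ i ∈ Q := by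
    intro i
    induction i with
    | zero => intro a ha; simpa using ha
    | succ i ih =>
      intro a ha
      have := hgQ _ (ih a ha)
      convert this using 1
      rw [pow_succ]; group
  set y0 : Rˣ := g⁻¹ * x0⁻¹ * g * x0 with hy0
  -- the sums
  let S : ℕ → R := fun i => ∑ x : Q, ((((x : Rˣ)⁻¹ * g ^ i * (x : Rˣ) : Rˣ)) : R)
  have hsum : ∑ i ∈ range p, S i = 0 := by
    show ∑ i ∈ range p, ∑ x : Q, ((((x : Rˣ)⁻¹ * g ^ i * (x : Rˣ) : Rˣ)) : R) = 0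
    rw [sum_comm]
    apply sum_eq_zero
    intro x _
    have h1 : ∀ i : ℕ, ((((x : Rˣ)⁻¹ * g ^ i * (x : Rˣ) : Rˣ)) : R)
        = ((((x : Rˣ)⁻¹ * g * (x : Rˣ) : Rˣ)) : R) ^ i := by
      intro i
      rw [← Units.val_pow_eq_pow_val]
      congr 1
      have := conj_pow (a := (x : Rˣ)⁻¹) (b := g) (i := i)
      rw [inv_inv] at this
      exact this.symm
    simp_rw [h1]
    rw [geom_eq_pow p hp hp0]
    have h2 : ((((x : Rˣ)⁻¹ * g * (x : Rˣ) : Rˣ)) : R) - 1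
        = (((x : Rˣ)⁻¹ : Rˣ) : R) * ((g : R) - 1) * ((x : Rˣ) : R) := by
      rw [mul_sub, sub_mul, mul_one, Units.inv_mul]
      simp [Units.val_mul]
    have h3 : ∀ n : ℕ, ((((x : Rˣ)⁻¹ : Rˣ) : R) * ((g : R) - 1) * ((x : Rˣ) : R)) ^ n
        = (((x : Rˣ)⁻¹ : Rˣ) : R) * ((g : R) - 1) ^ n * ((x : Rˣ) : R) := by
      intro n
      induction n with
      | zero => simp
      | succ n ih =>
        rw [pow_succ, ih, pow_succ]
        have : ((x : Rˣ) : R) * (((x : Rˣ)⁻¹ : Rˣ) : R) = 1 := Units.mul_inv _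
        calc (((x : Rˣ)⁻¹ : Rˣ) : R) * ((g : R) - 1) ^ n * ((x : Rˣ) : R) *
              ((((x : Rˣ)⁻¹ : Rˣ) : R) * ((g : R) - 1) * ((x : Rˣ) : R))
            = (((x : Rˣ)⁻¹ : Rˣ) : R) * ((g : R) - 1) ^ n * (((x : Rˣ) : R) *
              (((x : Rˣ)⁻¹ : Rˣ) : R)) * ((g : R) - 1) * ((x : Rˣ) : R) := by noncomm_ring
          _ = _ := by rw [this]; noncomm_ring
    rw [h2, h3, hg, mul_zero, zero_mul]
  have hS0 : S 0 = (Nat.card Q : R) := by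
    show ∑ x : Q, ((((x : Rˣ)⁻¹ * g ^ 0 * (x : Rˣ) : Rˣ)) : R) = _
    simp [Nat.card_eq_fintype_card]
  have hSi : ∀ i ∈ range p, i ≠ 0 → S i * ((y0 : R) - 1) = 0 := by
    intro i hi hi0
    rw [mem_range] at hi
    -- `y0 ∈ Rg Q (g ^ i)`
    have hco : i.Coprime (orderOf g) := by
      have h1 : orderOf g ∣ p := orderOf_dvd_of_pow_eq_one hgp
      have h2 : i.Coprime p := (Nat.coprime_of_lt_prime hi0 hi hp).symm
      exact Nat.Coprime.coprime_dvd_right h1 h2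
    obtain ⟨m, hm⟩ := exists_pow_eq_self_of_coprime hco
    have hy : y0 ∈ Rg Q (g ^ i) := by
      have := pow_mem_Rg Q hQc (g ^ i) (hgQi i) m x0 hx0
      rwa [hm] at this
    obtain ⟨x', hx', e⟩ := hy
    rw [mul_sub, mul_one, sub_eq_zero]
    show (∑ x : Q, ((((x : Rˣ)⁻¹ * g ^ i * (x : Rˣ) : Rˣ)) : R)) * (y0 : R) = _
    rw [sum_mul]
    apply Fintype.sum_equiv (Equiv.mulRight (⟨x', hx'⟩ : Q))
    intro x
    rw [← Units.val_mul]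
    congr 1
    show (x : Rˣ)⁻¹ * g ^ i * (x : Rˣ) * y0 = ((x : Rˣ) * x')⁻¹ * g ^ i * ((x : Rˣ) * x')
    rw [e]
    have c1 := hQc (x : Rˣ) x.2 ((g ^ i)⁻¹ * x'⁻¹ * g ^ i) (hgQi i _ (Q.inv_mem hx'))
    have e3 : (x : Rˣ)⁻¹ * g ^ i * (x : Rˣ) * ((g ^ i)⁻¹ * x'⁻¹ * g ^ i * x')
        = (x : Rˣ)⁻¹ * g ^ i * ((x : Rˣ) * ((g ^ i)⁻¹ * x'⁻¹ * g ^ i)) * x' := by group
    rw [e3, c1]
    have c2 := hQc (x : Rˣ) x.2 x' hx'
    have e4 : ((x : Rˣ) * x')⁻¹ = (x : Rˣ)⁻¹ * x'⁻¹ := by rw [c2, mul_inv_rev]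
    rw [e4]
    group
  have hfin : (Nat.card Q : R) * ((y0 : R) - 1) = 0 := by
    have h1 : (∑ i ∈ range p, S i) * ((y0 : R) - 1) = 0 := by rw [hsum, zero_mul]
    rw [sum_mul, sum_eq_single_of_mem 0 (mem_range.mpr hp.pos) (fun i hi hi0 => hSi i hi hi0), hS0] at h1
    exact h1
  have hy1 : (y0 : R) = 1 := by
    have hc : IsCoprime ((Nat.card Q : ℕ) : ℤ) (p : ℤ) := Nat.isCoprime_iff_coprime.mpr hcop
    obtain ⟨a, b, hab⟩ := hc
    have h2 := congrArg (fun z : ℤ => (z : R)) hab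
    simp only [Int.cast_add, Int.cast_mul, Int.cast_natCast, Int.cast_one, hp0, mul_zero, add_zero] at h2
    have h3 : (y0 : R) - 1 = 0 := by
      calc (y0 : R) - 1 = 1 * ((y0 : R) - 1) := (one_mul _).symm
        _ = (a : R) * (Nat.card Q : R) * ((y0 : R) - 1) := by rw [h2]
        _ = 0 := by rw [mul_assoc, hfin, mul_zero]
    exact sub_eq_zero.mp h3
  have hy1' : y0 = 1 := Units.ext (by rw [hy1, Units.val_one])
  rw [hy0] at hy1'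
  have : g * x0 = x0 * g * (g⁻¹ * x0⁻¹ * g * x0) := by group
  rw [this, hy1', mul_one]

end Cfsg.Agent.Lib.Helper39RingEngel
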