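import Mathlib
import Cfsg.Agent.Lib.Helper39RingEngel

set_option autoImplicit false

/-! An irreducible module in characteristic `p` for a group `X = T K`, `T` a `p`-group, `K` normal and
abelian of order prime to `p` modulo the kernel: an element `g ∈ T` with `(g - 1)^(p-1) = 0` acts trivially. -/

namespace Cfsg.Agent.Lib.Helper39ModEngel

open Cfsg.Agent.Lib.Helper39RingEngel

theorem trivial_of_engel {X M : Type*} [Group X] [Finite X] [CommGroup M] [Finite M] [Nontrivial M]
    [MulDistribMulAction X M] (p : ℕ) [hp : Fact p.Prime] (hexp : ∀ m : M, m ^ p = 1)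
    (hirr : ∀ F : Subgroup M, (∀ x : X, ∀ m ∈ F, x • m ∈ F) → F = ⊥ ∨ F = ⊤)
    (T K H : Subgroup X) [hK : K.Normal] (hT : IsPGroup p T)
    (hTK : ∀ x : X, ∃ t ∈ T, ∃ k ∈ K, x = t * k)
    (hH : ∀ h ∈ H, ∀ m : M, h • m = m) (hKK : ⁅K, K⁆ ≤ H) (hcop : (H.relIndex K).Coprime p)
    (g : X) (hg : g ∈ T) (heng : ∀ m : M, (fun w => g • w / w)^[p - 1] m = 1) :
    ∀ m : M, g • m = m := by
  classical
  set ρ := Representation.ofMulDistribMulAction X M with hρ
  have hρa : ∀ (x : X) (m : M), ρ x (Additive.ofMul m) = Additive.ofMul (x • m) := fun _ _ => rfl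
  set ρu := ρ.toHomUnits with hρu
  have hρu_coe : ∀ x : X, ((ρu x : (Module.End ℤ (Additive M))ˣ) : Module.End ℤ (Additive M)) = ρ x :=
    fun x => MonoidHom.coe_toHomUnits ρ x
  have hsmul_of_eq : ∀ x y : X, ρu x = ρu y → ∀ m : M, x • m = y • m := by
    intro x y h m
    have h1 : ρ x = ρ y := by rw [← hρu_coe, ← hρu_coe, h]
    have h2 := congrArg (fun f => f (Additive.ofMul m)) h1
    simp only [hρa] at h2
    exact Additive.ofMul.injective h2
  have hp0 : ((p : ℕ) : Module.End ℤ (Additive M)) = 0 := by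
    ext a
    rw [Module.End.natCast_apply, LinearMap.zero_apply]
    have := hexp (Additive.toMul a)
    exact congrArg Additive.ofMul this
  set Q : Subgroup (Module.End ℤ (Additive M))ˣ := K.map ρu with hQ
  have hQfin : Finite Q := by
    have : (Q : Set (Module.End ℤ (Additive M))ˣ) = ρu '' (K : Set X) := rfl
    exact Set.Finite.to_subtype (this ▸ (Set.toFinite (K : Set X)).image ρu)
  have hHker : ∀ h ∈ H, ρu h = 1 := by
    intro h hh
    apply Units.ext
    rw [hρu_coe, Units.val_one]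
    ext a
    have := hρa h (Additive.toMul a)
    rw [hH h hh] at this
    exact this
  have hQc : ∀ a ∈ Q, ∀ b ∈ Q, a * b = b * a := by
    rintro _ ⟨k1, hk1, rfl⟩ _ ⟨k2, hk2, rfl⟩
    have h1 := hHker _ (hKK (Subgroup.commutator_mem_commutator hk1 hk2))
    rw [map_commutatorElement] at h1
    exact commutatorElement_eq_one_iff_mul_comm.mp h1
  have hgQ : ∀ a ∈ Q, (ρu g)⁻¹ * a * ρu g ∈ Q := by
    rintro _ ⟨k, hk, rfl⟩
    refine ⟨g⁻¹ * k * g, ?_, by simp⟩
    have := hK.conj_mem k hk g⁻¹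
    rwa [inv_inv] at this
  have hQcop : (Nat.card Q).Coprime p := by
    have h1 : (ρu.comp K.subtype).range = Q := by
      rw [MonoidHom.range_comp, Subgroup.range_subtype]
    have h2 : Nat.card Q = (ρu.comp K.subtype).ker.index := by
      rw [Subgroup.index_ker, h1]
    have h3 : H.subgroupOf K ≤ (ρu.comp K.subtype).ker := by
      intro k hk
      rw [MonoidHom.mem_ker]
      exact hHker _ (Subgroup.mem_subgroupOf.mp hk)
    have h4 : Nat.card Q ∣ H.relIndex K := by
      rw [h2]
      exact Subgroup.index_dvd_of_le h3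
    exact Nat.Coprime.coprime_dvd_left h4 hcop
  have hengR : (((ρu g : (Module.End ℤ (Additive M))ˣ) : Module.End ℤ (Additive M)) - 1) ^ (p - 1) = 0 := by
    rw [hρu_coe]
    have e2 : ∀ (i : ℕ) (w : M), ((ρ g - 1) ^ i) (Additive.ofMul w)
        = Additive.ofMul ((fun w => g • w / w)^[i] w) := by
      intro i
      induction i with
      | zero => intro w; simp
      | succ i ih =>
        intro w
        rw [pow_succ, Module.End.mul_apply, Function.iterate_succ_apply]
        exact ih (g • w / w)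
    ext a
    have := e2 (p - 1) (Additive.toMul a)
    rw [heng] at this
    exact this
  have hcomm := commute_of_engel p hp.out hp0 (ρu g) Q hQc hgQ hQcop hengR
  -- the subgroup `Z`
  set Z : Subgroup X := T ⊓ (Subgroup.centralizer (Q : Set (Module.End ℤ (Additive M))ˣ)).comap ρu with hZ
  have hgZ : g ∈ Z := by
    refine Subgroup.mem_inf.mpr ⟨hg, ?_⟩
    rw [Subgroup.mem_comap, Subgroup.mem_centralizer_iff]
    intro q hq
    exact (hcomm q hq).symm
  have hZp : IsPGroup p Z := hT.to_le inf_le_left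
  let F : Subgroup M :=
    { carrier := {m | ∀ z ∈ Z, z • m = m}
      mul_mem' := fun {a b} ha hb z hz => by rw [smul_mul', ha z hz, hb z hz]
      one_mem' := fun z _ => smul_one z
      inv_mem' := fun {a} ha z hz => by rw [smul_inv', ha z hz] }
  have hFinv : ∀ x : X, ∀ m ∈ F, x • m ∈ F := by
    intro x m hm z hz
    have hz := Subgroup.mem_inf.mp hz
    obtain ⟨t, ht, k, hk, rfl⟩ := hTK x
    have hz' : t⁻¹ * z * t ∈ Z := by
      refine Subgroup.mem_inf.mpr ⟨T.mul_mem (T.mul_mem (T.inv_mem ht) hz.1) ht, ?_⟩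
      rw [Subgroup.mem_comap, Subgroup.mem_centralizer_iff]
      rintro _ ⟨k0, hk0, rfl⟩
      have h1 := (Subgroup.mem_centralizer_iff.mp (Subgroup.mem_comap.mp hz.2)) (ρu (t * k0 * t⁻¹))
        ⟨_, hK.conj_mem k0 hk0 t, rfl⟩
      simp only [map_mul, map_inv] at h1 ⊢
      calc ρu k0 * ((ρu t)⁻¹ * ρu z * ρu t)
          = (ρu t)⁻¹ * ((ρu t * ρu k0 * (ρu t)⁻¹) * ρu z) * ρu t := by group
        _ = (ρu t)⁻¹ * (ρu z * (ρu t * ρu k0 * (ρu t)⁻¹)) * ρu t := by rw [h1]
        _ = _ := by group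
    have h2 : ρu (z * (t * k)) = ρu ((t * k) * (t⁻¹ * z * t)) := by
      have h3 := (Subgroup.mem_centralizer_iff.mp (Subgroup.mem_comap.mp (Subgroup.mem_inf.mp hz').2)) (ρu k) ⟨k, hk, rfl⟩
      have e1 : z * (t * k) = t * ((t⁻¹ * z * t) * k) := by group
      rw [e1, map_mul, map_mul (f := ρu) (t⁻¹ * z * t) k, ← h3]
      simp only [map_mul, mul_assoc]
    rw [← mul_smul, hsmul_of_eq _ _ h2, mul_smul, hm _ hz']
  have hFne : F ≠ ⊥ := by
    have hMp : IsPGroup p M := fun m => ⟨1, by rw [pow_one]; exact hexp m⟩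
    obtain ⟨n, hn⟩ := hMp.exists_card_eq
    have hn0 : n ≠ 0 := by
      rintro rfl
      have := Finite.one_lt_card (α := M)
      rw [hn, pow_zero] at this
      omega
    have hdvd : p ∣ Nat.card M := by rw [hn]; exact dvd_pow_self p hn0
    have h1 : (1 : M) ∈ MulAction.fixedPoints Z M := fun z => smul_one z
    obtain ⟨b, hb, hb1⟩ := hZp.exists_fixed_point_of_prime_dvd_card_of_fixed_point M hdvd h1
    intro hbot
    have hbF : b ∈ F := fun z hz => hb ⟨z, hz⟩
    rw [hbot, Subgroup.mem_bot] at hbF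
    exact hb1 hbF.symm
  rcases hirr F hFinv with h | h
  · exact absurd h hFne
  · intro m
    have : m ∈ F := h ▸ Subgroup.mem_top m
    exact this g hgZ

end Cfsg.Agent.Lib.Helper39ModEngel
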