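import Mathlib
import Cfsg.Agent.Lib.Helper39ModEngel
import Cfsg.Agent.Lib.Helper39TransferEngel
import Cfsg.Agent.Lib.Helper40Chief
import Cfsg.Agent.Lib.Helper24Star
import Cfsg.Agent.Lib.Helper37AxZJ

set_option autoImplicit false

/-! No element of a maximal Sylow `p`-subgroup `T` of `X` (with `X / O_p(X)` having a normal
`p`-complement) satisfies the Engel condition `[U, g; p-1] ≤ V`, `[U, g] ≰ V` on a chief factor
`U / V` inside `O_p(X)`. -/

namespace Cfsg.Agent.Lib.Helper39ChiefEngel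

open Cfsg Subgroup Cfsg.Agent.Lib.Helper39ModEngel Cfsg.Agent.Lib.Helper40Chief
  Cfsg.Agent.Lib.Helper24Star Cfsg.Agent.Lib.Helper11Frobenius
open scoped commutatorElement

theorem no_engel {X : Type*} [Group X] [Finite X] {p : ℕ} [hp : Fact p.Prime]
    (hq : HasNormalPComplement p (X ⧸ pCore p X)) (T : Sylow p X) (hT : IsCoatom (T : Subgroup X))
    (g : X) (hgT : g ∈ (T : Subgroup X)) (U V : Subgroup X) (hch : IsChiefFactor U V)
    (hU : U ≤ pCore p X) (hiter : iterCommutator U (zpowers g) (p - 1) ≤ V)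
    (hnot : ¬ ⁅U, zpowers g⁆ ≤ V) : False := by
  classical
  have hP0n : (pCore p X).Normal := Helper40Cores.pCore_normal
  have hP0p : IsPGroup p (pCore p X) := Helper40Cores.pCore_isPGroup
  obtain ⟨K, hK⟩ := exists_star (pCore p X) hP0p (hasNPC_iff.mpr hq)
    (fun T' => Helper37AxZJ.isCoatom_sylow hT T')
  have hKn := hK.normal
  obtain ⟨hlt, hUn, hVn, hmax⟩ := id hch
  have hnil : Group.IsNilpotent (pCore p X) := hP0p.isNilpotent
  have hUP : ⁅U, pCore p X⁆ ≤ V := chief_central hch hU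
  have hUU : ⁅U, U⁆ ≤ V := (Subgroup.commutator_mono le_rfl hU).trans hUP
  have hUp : IsPGroup p U := hP0p.to_le hU
  have hpow := Helper39TransferEngel.pow_mem_of_chief' hch hUU hUp
  set π := QuotientGroup.mk' V with hπ
  have hπs : Function.Surjective π := QuotientGroup.mk'_surjective V
  set Ub : Subgroup (X ⧸ V) := U.map π with hUb
  have hUbn : Ub.Normal := hUn.map π hπs
  have hπV : ∀ x : X, π x = 1 ↔ x ∈ V := fun x => QuotientGroup.eq_one_iff x
  let instC : CommGroup Ub :=
    { (inferInstance : Group Ub) with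
      mul_comm := by
        rintro ⟨_, a, ha, rfl⟩ ⟨_, b, hb, rfl⟩
        apply Subtype.ext
        show π a * π b = π b * π a
        rw [← commutatorElement_eq_one_iff_mul_comm, ← map_commutatorElement, hπV]
        exact hUU (Subgroup.commutator_mem_commutator ha hb) }
  let instA : MulDistribMulAction X Ub :=
    MulDistribMulAction.compHom Ub ((MulAut.conjNormal (H := Ub)).comp π)
  have hsm : ∀ (x : X) (m : Ub), ((x • m : Ub) : X ⧸ V) = π x * (m : X ⧸ V) * (π x)⁻¹ := fun _ _ => rfl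
  have hnt : Nontrivial Ub := by
    obtain ⟨u, huU, huV⟩ := SetLike.exists_of_lt hlt
    refine ⟨⟨⟨π u, u, huU, rfl⟩, 1, ?_⟩⟩
    intro h
    exact huV ((hπV u).mp (congrArg Subtype.val h))
  have hexp : ∀ m : Ub, m ^ p = 1 := by
    rintro ⟨_, a, ha, rfl⟩
    apply Subtype.ext
    show π a ^ p = 1
    rw [← map_pow, hπV]
    exact hpow a ha
  have hirr : ∀ F : Subgroup Ub, (∀ x : X, ∀ m ∈ F, x • m ∈ F) → F = ⊥ ∨ F = ⊤ := by
    intro F hF
    set N : Subgroup X := (F.map Ub.subtype).comap π with hN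
    have hNn : N.Normal := by
      refine ⟨fun n hn x => ?_⟩
      obtain ⟨m, hm, e⟩ := hn
      refine ⟨x • m, hF x m hm, ?_⟩
      show ((x • m : Ub) : X ⧸ V) = π (x * n * x⁻¹)
      rw [hsm, map_mul, map_mul, map_inv]
      congr 2
    have hVN : V ≤ N := by
      intro v hv
      refine ⟨1, F.one_mem, ?_⟩
      show (1 : X ⧸ V) = π v
      rw [(hπV v).mpr hv]
    have hNU : N ≤ U := by
      intro n hn
      obtain ⟨m, _, e⟩ := hn
      obtain ⟨u, hu, e2⟩ := m.2
      have e3 : π u = π n := e2.trans e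
      have : u⁻¹ * n ∈ V := by rw [← hπV, map_mul, map_inv, e3, inv_mul_cancel]
      have h2 : n = u * (u⁻¹ * n) := by group
      rw [h2]
      exact U.mul_mem hu (hlt.le this)
    rcases hmax N hNn hVN hNU with h | h
    · left
      rw [eq_bot_iff]
      rintro ⟨_, a, ha, rfl⟩ hm
      have : a ∈ N := ⟨⟨π a, a, ha, rfl⟩, hm, rfl⟩
      rw [h] at this
      rw [Subgroup.mem_bot]
      apply Subtype.ext
      exact (hπV a).mpr this
    · right
      rw [eq_top_iff]
      rintro ⟨_, a, ha, rfl⟩ _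
      have : a ∈ N := h ▸ ha
      obtain ⟨m, hm, e⟩ := this
      have : m = ⟨π a, a, ha, rfl⟩ := Subtype.ext e
      rwa [← this]
  have hTK : ∀ x : X, ∃ t ∈ (T : Subgroup X), ∃ k ∈ K, x = t * k := by
    have h1 : (T : Subgroup X) ⊔ K = ⊤ := by
      rw [← Subgroup.index_eq_one]
      obtain ⟨k, hk⟩ := hK.index
      have h2 : ((T : Subgroup X) ⊔ K).index ∣ p ^ k := hk ▸ Subgroup.index_dvd_of_le le_sup_right
      have h3 : ((T : Subgroup X) ⊔ K).index ∣ (T : Subgroup X).index := Subgroup.index_dvd_of_le le_sup_left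
      have h4 : ((T : Subgroup X).index).Coprime (p ^ k) :=
        Nat.Coprime.pow_right k ((Nat.Prime.coprime_iff_not_dvd hp.out).mpr T.not_dvd_index).symm
      exact Nat.eq_one_of_dvd_coprimes h4 h3 h2
    intro x
    have h2 : x ∈ (T : Subgroup X) ⊔ K := h1 ▸ Subgroup.mem_top x
    rw [← SetLike.mem_coe, Subgroup.mul_normal] at h2
    obtain ⟨t, ht, k, hk, rfl⟩ := Set.mem_mul.mp h2
    exact ⟨t, ht, k, hk, rfl⟩
  have hH : ∀ h ∈ pCore p X, ∀ m : Ub, h • m = m := by
    rintro h hh ⟨_, a, ha, rfl⟩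
    apply Subtype.ext
    rw [hsm]
    show π h * π a * (π h)⁻¹ = π a
    have h1 : ⁅a, h⁆ ∈ V := hUP (Subgroup.commutator_mem_commutator ha hh)
    rw [← hπV, map_commutatorElement, commutatorElement_eq_one_iff_mul_comm] at h1
    rw [← h1, mul_inv_cancel_right]
  have heng : ∀ m : Ub, (fun w => g • w / w)^[p - 1] m = 1 := by
    have key : ∀ (n : ℕ) (m : Ub), ∃ w ∈ iterCommutator U (zpowers g) n,
        (((fun w => g • w / w)^[n] m : Ub) : X ⧸ V) = π w := by
      intro n
      induction n with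
      | zero =>
        rintro ⟨_, a, ha, rfl⟩
        exact ⟨a, ha, rfl⟩
      | succ n ih =>
        intro m
        obtain ⟨w, hw, e⟩ := ih m
        refine ⟨⁅g, w⁆, ?_, ?_⟩
        · rw [iter_succ, Subgroup.commutator_comm]
          exact Subgroup.commutator_mem_commutator (mem_zpowers g) hw
        · rw [Function.iterate_succ_apply']
          show ((g • ((fun w => g • w / w)^[n] m) / ((fun w => g • w / w)^[n] m) : Ub) : X ⧸ V) = _
          rw [Subgroup.coe_div, hsm, e, map_commutatorElement, commutatorElement_def, div_eq_mul_inv]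
    intro m
    obtain ⟨w, hw, e⟩ := key (p - 1) m
    apply Subtype.ext
    rw [e]
    exact (hπV w).mpr (hiter hw)
  have hfin : Finite Ub := inferInstance
  have htriv := trivial_of_engel (X := X) (M := Ub) p hexp hirr (T : Subgroup X) K (pCore p X) T.2 hTK hH
    hK.comm hK.coprime g hgT heng
  apply hnot
  rw [Subgroup.commutator_le]
  intro u hu z hz
  obtain ⟨n, rfl⟩ := mem_zpowers_iff.mp hz
  have h1 : ∀ m : Ub, (g ^ n) • m = m := by
    intro m
    have hstab : g ∈ MulAction.stabilizer X m := htriv m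
    exact (MulAction.stabilizer X m).zpow_mem hstab n
  have h2 := congrArg Subtype.val (h1 ⟨π u, u, hu, rfl⟩)
  rw [hsm] at h2
  rw [← hπV, map_commutatorElement, commutatorElement_eq_one_iff_mul_comm]
  have h3 : π (g ^ n) * π u * (π (g ^ n))⁻¹ = π u := h2
  rw [mul_inv_eq_iff_eq_mul] at h3
  exact h3.symm

end Cfsg.Agent.Lib.Helper39ChiefEngel
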