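import Mathlib
import Cfsg.Agent.Lib.Helper23Tw6
import Cfsg.Agent.Lib.Helper23TwC2
import Cfsg.Agent.Lib.H99EaClos

set_option autoImplicit false
set_option linter.unusedSectionVars false
set_option linter.unusedVariables false

/-! `U` is generated by the positive root subgroups (abstract `TG` version), and in characteristic 2
the root subgroups of the twisted groups with all classes of type `A₁ᵏ` consist of involutions. -/

namespace Cfsg.Agent.Lib.Helper39TGGen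

open Subgroup Cfsg.Agent.Lib.Helper23Grp Cfsg.Agent.Lib.Helper23TG Cfsg.Agent.Lib.Helper23Weyl
  Cfsg.Agent.Lib.Helper23RG Cfsg.Agent.Lib.Helper23Tw

section TGpart

variable {𝔾 R I : Type*} [Group 𝔾] {S : TG 𝔾 R I} (ok : S.Ok)
variable {rf : R → R → R} {pr : R → R → ℤ} (hW : (TG.ws ok rf pr).Ok)
variable [Fintype R] [DecidableEq R]

include hW in
theorem gen_aux : ∀ (k : ℕ) (π : Equiv.Perm R), (TG.ws ok rf pr).len π = k →
    π ∈ (TG.ws ok rf pr).WJ Set.univ → ∀ n : 𝔾, S.Mon n π → ∀ u ∈ S.U, n * u * n⁻¹ ∈ S.V →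
    u ∈ closure {g : 𝔾 | ∃ r, S.pos r ∧ ¬ S.pos (π r) ∧ g ∈ S.X r} := by
  have base : ∀ n : 𝔾, S.Mon n 1 → ∀ u ∈ S.U, n * u * n⁻¹ ∈ S.V → u = 1 := by
    intro n hn u hu hV
    have h1 : n * u * n⁻¹ ∈ S.U := hn.2 S.pos S.pos (fun r hr => hr) u hu
    have h2 := ok.hBV _ (TG.U_le_B h1) hV
    have : u = n⁻¹ * (n * u * n⁻¹) * n := by group
    rw [this, h2]
    group
  have step : ∀ (k : ℕ), (∀ (π : Equiv.Perm R), (TG.ws ok rf pr).len π = k →
      π ∈ (TG.ws ok rf pr).WJ Set.univ → ∀ n : 𝔾, S.Mon n π → ∀ u ∈ S.U, n * u * n⁻¹ ∈ S.V →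
      u ∈ closure {g : 𝔾 | ∃ r, S.pos r ∧ ¬ S.pos (π r) ∧ g ∈ S.X r}) →
      ∀ (π : Equiv.Perm R) (i : I), (TG.ws ok rf pr).len (π * TG.reflPerm ok i) = k →
      π ∈ (TG.ws ok rf pr).WJ Set.univ → ¬ S.pos (π (S.simple i)) →
      ∀ n : 𝔾, S.Mon n π → ∀ u ∈ S.U, n * u * n⁻¹ ∈ S.V →
      u ∈ closure {g : 𝔾 | ∃ r, S.pos r ∧ ¬ S.pos (π r) ∧ g ∈ S.X r} := by
    intro k ih π i hk hπ hneg n hn u hu hV
    have hπ' : π * TG.reflPerm ok i ∈ (TG.ws ok rf pr).WJ Set.univ :=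
      mul_mem hπ (WS.s_mem_WJ (W := TG.ws ok rf pr) (Set.mem_univ i))
    obtain ⟨u', hu', a, ha, rfl⟩ := ok.U_eq i u hu
    have hu'' : (S.nn i)⁻¹ * u' * S.nn i ∈ S.Ui i := TG.nn_Ui' ok i u' hu'
    have hMon' : S.Mon (n * S.nn i) (π * TG.reflPerm ok i) := hn.mul (TG.Mon_nn ok i)
    have haV : n * a * n⁻¹ ∈ S.V :=
      hn.2 (fun s => s = S.simple i) (fun r => ¬ S.pos r) (fun r hr => by rw [hr]; exact hneg) a ha
    have hV' : (n * S.nn i) * ((S.nn i)⁻¹ * u' * S.nn i) * (n * S.nn i)⁻¹ ∈ S.V := by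
      have e : (n * S.nn i) * ((S.nn i)⁻¹ * u' * S.nn i) * (n * S.nn i)⁻¹
          = (n * (u' * a) * n⁻¹) * (n * a * n⁻¹)⁻¹ := by group
      rw [e]
      exact S.V.mul_mem hV (S.V.inv_mem haV)
    have h1 := ih _ hk hπ' _ hMon' _ (TG.Ui_le_U ok i hu'') hV'
    have hposi : S.pos ((π * TG.reflPerm ok i) (S.simple i)) := by
      rw [Equiv.Perm.mul_apply, TG.reflPerm_apply, ok.refl_simple]
      have e : π (S.neg (S.simple i)) = S.neg (π (S.simple i)) := WS.mem_neg hW hπ (S.simple i)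
      rw [e, ok.pos_neg]
      exact hneg
    have h2 : ∀ g ∈ closure {g : 𝔾 | ∃ r, S.pos r ∧ ¬ S.pos ((π * TG.reflPerm ok i) r) ∧ g ∈ S.X r},
        S.nn i * g * (S.nn i)⁻¹ ∈ closure {g : 𝔾 | ∃ r, S.pos r ∧ ¬ S.pos (π r) ∧ g ∈ S.X r} := by
      intro g hg
      induction hg using closure_induction with
      | mem x hx =>
        obtain ⟨r, hr, hr', hxr⟩ := hx
        apply Subgroup.subset_closure
        have hne : r ≠ S.simple i := by
          rintro rfl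
          exact hr' hposi
        exact ⟨S.refl i r, ok.refl_pos i r hr hne, hr', TG.n_conj ok i r x hxr⟩
      | one => simp
      | mul x y _ _ hx hy =>
        have e : S.nn i * (x * y) * (S.nn i)⁻¹
            = (S.nn i * x * (S.nn i)⁻¹) * (S.nn i * y * (S.nn i)⁻¹) := by group
        rw [e]
        exact mul_mem hx hy
      | inv x _ hx =>
        have e : S.nn i * x⁻¹ * (S.nn i)⁻¹ = (S.nn i * x * (S.nn i)⁻¹)⁻¹ := by group
        rw [e]
        exact inv_mem hx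
    have h3 := h2 _ h1
    have e3 : S.nn i * ((S.nn i)⁻¹ * u' * S.nn i) * (S.nn i)⁻¹ = u' := by group
    rw [e3] at h3
    exact mul_mem h3 (Subgroup.subset_closure ⟨S.simple i, ok.pos_simple i, hneg, ha⟩)
  intro k
  induction k with
  | zero =>
    intro π hk hπ n hn u hu hV
    by_cases h1 : π = 1
    · subst h1
      rw [base n hn u hu hV]
      exact one_mem _
    · obtain ⟨i, _, hneg⟩ := WS.exists_descent hW hπ h1
      have := WS.len_mul_s_of_neg hW (WS.mem_neg hW hπ) hneg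
      omega
  | succ k ih =>
    intro π hk hπ n hn u hu hV
    by_cases h1 : π = 1
    · subst h1
      rw [base n hn u hu hV]
      exact one_mem _
    · obtain ⟨i, _, hneg⟩ := WS.exists_descent hW hπ h1
      have hl := WS.len_mul_s_of_neg hW (WS.mem_neg hW hπ) hneg
      have hs : (TG.ws ok rf pr).s i = TG.reflPerm ok i := rfl
      exact step k ih π i (by rw [hs] at hl; omega) hπ hneg n hn u hu hV

include hW in
/-- `U` is generated by the positive root subgroups. -/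
theorem U_eq_closure {π0 : Equiv.Perm R} (hπ0 : π0 ∈ (TG.ws ok rf pr).WJ Set.univ)
    (h0 : ∀ r, S.pos r → ¬ S.pos (π0 r)) :
    S.U = closure {g : 𝔾 | ∃ r, S.pos r ∧ g ∈ S.X r} := by
  apply le_antisymm
  · intro u hu
    obtain ⟨n0, -, hM0⟩ := TG.exists_Mon_of_mem ok hπ0
    have h1 := gen_aux ok hW _ π0 rfl hπ0 n0 hM0 u hu
      (hM0.2 S.pos (fun r => ¬ S.pos r) h0 u hu)
    refine closure_mono ?_ h1
    rintro g ⟨r, hr, -, hg⟩
    exact ⟨r, hr, hg⟩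
  · rw [closure_le]
    rintro g ⟨r, hr, hg⟩
    exact TG.X_le_U ok r hr hg

end TGpart

section Twpart

open Cfsg.Agent.Lib.Helper99EaDefs

variable {𝔾 F R I : Type*} [Group 𝔾] [Field F] [CharP F 2] {S : RG 𝔾 F R I} {R1 I1 : Type*}
  {T : Tw S R1 I1}
variable (ok : S.Ok) (hT : T.Ok)
variable (hBV : ∀ g ∈ S.B, g ∈ S.V → g = 1) (hUN : ∀ g ∈ S.U, g ∈ S.N → g = 1)

include hBV hUN in
/-- in characteristic 2 the twisted root subgroups consist of involutions. -/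
theorem X_invol (r : R1) : ∀ g ∈ (Tw.tg0 ok hT).X r, g * g = 1 := by
  have tok := Tw.tg0_ok ok hT hBV hUN
  refine tok.reach (fun r => ∀ g ∈ (Tw.tg0 ok hT).X r, g * g = 1) ?_ ?_ r
  · intro J g hg
    obtain ⟨t, -, rfl⟩ := (Tw.mem_X1_iff ok hT hBV J).1 hg
    have e : t + t = 0 := by
      ext i
      simp [CharTwo.add_self_eq_zero]
    rw [← Tw.yy_add ok hT, e, Tw.yy_zero ok hT]
  · intro J r ih g hg
    have h1 := TG.n_conj' tok J _ g hg
    rw [tok.refl_refl] at h1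
    have h2 := ih _ h1
    have e : g * g = (Tw.tg0 ok hT).nn J * ((((Tw.tg0 ok hT).nn J)⁻¹ * g * (Tw.tg0 ok hT).nn J)
        * (((Tw.tg0 ok hT).nn J)⁻¹ * g * (Tw.tg0 ok hT).nn J)) * ((Tw.tg0 ok hT).nn J)⁻¹ := by
      group
    rw [e, h2]
    group

variable {rf : R1 → R1 → R1} {pr : R1 → R1 → ℤ} [Fintype R1] [DecidableEq R1]
  (hW : (TG.ws (Tw.tg0_ok ok hT hBV hUN) rf pr).Ok)
  {π0 : Equiv.Perm R1} (hπ0 : π0 ∈ (TG.ws (Tw.tg0_ok ok hT hBV hUN) rf pr).WJ Set.univ)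
  (h0 : ∀ r, T.pos1 r → ¬ T.pos1 (π0 r))

include hW hπ0 h0 in
theorem sqD_U1 : SqD ↥(S.U ⊓ T.G1) := by
  rw [Tw.U_inf ok hT hBV hUN hW hπ0 h0, U_eq_closure (Tw.tg0_ok ok hT hBV hUN) hW hπ0 h0]
  apply Cfsg.Agent.Lib.H99EaClos.sqD_closure_invol
  rintro s ⟨r, -, hs⟩
  rw [pow_two]
  exact X_invol ok hT hBV hUN r s hs

end Twpart

section Cpart

open Cfsg.Lie Cfsg.Lie.ChevalleyDatum
open Cfsg.Agent.Lib.Helper23Table
open Cfsg.Agent.Lib.Helper23Chev Cfsg.Agent.Lib.Helper23Fast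
open Cfsg.Agent.Lib.Helper23Diag Cfsg.Agent.Lib.Helper23TwC Cfsg.Agent.Lib.Helper99EaDefs

variable {X : TD} {F : Type*} [Field F] [CharP F 2]
variable (hX : X.Chk) (hT : TableOK X.D) (hR : Rel X.D F) (hv : X.P.Valid)
  {sg : GL X.D.Idx F → GL X.D.Idx F} {φ : F ≃+* F}
variable (hs : SgOk X sg φ) {rkT : ℕ} (hreach : X.P.reachChk rkT = true)
  (hCF : ∀ r s, r < X.D.nroots → s < X.D.nroots → s ≠ r → s ≠ X.D.neg r → ∀ t u : F,
    X.D.x F s u * X.D.x F r t = X.D.x F r t * X.D.x F s u * X.D.wordMat F (X.D.commWord F r s t u))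
variable (hw0 : ∃ π ∈ (FT.W hv).WJ Set.univ, ∀ r, (FT.W hv).pos r → ¬ (FT.W hv).pos (π r))

include hs hreach hCF hw0 in
theorem sqD_UC : SqD ↥(X.D.posUnipotent F ⊓ (tw hX hT hR hv sg φ).G1) := by
  obtain ⟨π0, hπ0, h0⟩ := hw0
  rw [← Helper23Chev.U_eq hT hR]
  exact sqD_U1 (rg_ok hT hR) (tw_ok hX hT hR hv hs hreach hCF) (hBV hT hR) (hUN hT hR)
    (rf := (FT.W hv).rf) (pr := (FT.W hv).pr) (FT.W_ok hv) hπ0 h0

end Cpart

end Cfsg.Agent.Lib.Helper39TGGen
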