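import Mathlib
import Cfsg.Agent.Lib.Helper39TGGen
import Cfsg.Agent.Lib.H99EaSyl
import Cfsg.Agent.Lib.Helper23Tw2E6c
import Cfsg.Agent.Lib.Helper23Tw3D4c

set_option autoImplicit false
set_option linter.unusedSectionVars false
set_option linter.unusedVariables false
set_option maxRecDepth 100000

/-! Project 4625: the families `²E₆(q)` and `³D₄(q)`, `q` even. -/

namespace Cfsg.Agent.Lib.Helper39EaTw

open Cfsg.Agent.Lib.Helper99EaDefs

theorem EA_of_data {𝔾 : Type*} [Group 𝔾] (G U : Subgroup 𝔾) [Finite G] (q N d c f : ℕ)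
    (hq : q = 2 ^ f) (hU : Nat.card ↥(U ⊓ G) = q ^ N) (hG : d * Nat.card G = q ^ N * c)
    (hc : Odd c) (h : SqD ↥(U ⊓ G)) : EA G := by
  have e : ↥((U ⊓ G).subgroupOf G) ≃* ↥(U ⊓ G) := Subgroup.subgroupOfEquivOfLe inf_le_right
  have hcard : Nat.card ↥((U ⊓ G).subgroupOf G) = 2 ^ (f * N) := by
    rw [Nat.card_congr e.toEquiv, hU, hq, pow_mul]
  have hp : IsPGroup 2 ↥((U ⊓ G).subgroupOf G) := IsPGroup.of_card hcard
  refine Cfsg.Agent.Lib.H99EaSyl.EA_of_card ((U ⊓ G).subgroupOf G) hp (f * N) c d hcard.ge hc ?_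
    (Cfsg.Agent.Lib.H99EaEquiv.sqD_of_equiv e h)
  rw [hG, hq, pow_mul]

theorem exists_two_pow {K : Type*} [Field K] [Fintype K] [CharP K 2] {q k : ℕ} (hk : k ≠ 0)
    (hK : Fintype.card K = q ^ k) : ∃ f, q = 2 ^ f := by
  obtain ⟨n, -, hn⟩ := FiniteField.card K 2
  have h1 : q ∣ 2 ^ (n : ℕ) := by
    rw [← hn, hK]
    exact dvd_pow_self q hk
  obtain ⟨f, -, hf⟩ := (Nat.dvd_prime_pow Nat.prime_two).1 h1
  exact ⟨f, hf⟩

theorem odd_sub {q : ℕ} (hq : Even q) (h2 : 2 ≤ q) {k : ℕ} (hk : k ≠ 0) : Odd (q ^ k - 1) :=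
  Nat.Even.sub_odd (Nat.one_le_pow _ _ (by omega)) (hq.pow_of_ne_zero hk) odd_one

theorem odd_add {q : ℕ} (hq : Even q) {k : ℕ} (hk : k ≠ 0) : Odd (q ^ k + 1) :=
  (hq.pow_of_ne_zero hk).add_one

theorem even_of {q f : ℕ} (hq : q = 2 ^ f) (h2 : 2 ≤ q) : Even q := by
  have hf : f ≠ 0 := by
    rintro rfl
    rw [pow_zero] at hq
    omega
  rw [hq]
  exact (even_two).pow_of_ne_zero hf

section E6

open Cfsg.Agent.Lib.Helper23Tw2E6 Cfsg.Agent.Lib.Helper23TwT2E6 Cfsg.Agent.Lib.Helper23FastT2E6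

theorem sqD_E6 {K : Type*} [Field K] [Fintype K] [CharP K 2] {q : ℕ} (hq : IsPrimePow q)
    (hK : Fintype.card K = q ^ 2) : SqD ↥(X.D.posUnipotent K ⊓ tws K q) := by
  obtain ⟨sg, φ, hs, hφ, e⟩ := exists_ctx hq hK
  rw [← e]
  exact Cfsg.Agent.Lib.Helper39TGGen.sqD_UC chk hT hR Helper23FastF4.valid hs rchk hCF
    Helper23FastF4.exists_w0

theorem mainE6 {K : Type*} [Field K] [Fintype K] [CharP K 2] (q : ℕ) (hq : IsPrimePow q)
    (hK : Fintype.card K = q ^ 2) : EA (Cfsg.Lie.twistedE6 K q) := by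
  obtain ⟨f, hf⟩ := exists_two_pow (K := K) (q := q) (k := 2) (by norm_num) hK
  have he := even_of hf hq.two_le
  have h2 := hq.two_le
  refine EA_of_data (tws K q) (X.D.posUnipotent K) q 36 (Nat.gcd 3 (q + 1))
    ((q ^ 2 - 1) * (q ^ 5 + 1) * (q ^ 6 - 1) * (q ^ 8 - 1) * (q ^ 9 + 1) * (q ^ 12 - 1)) f hf
    (s1086 hq hK) ?_ ?_ (sqD_E6 hq hK)
  · rw [s1066 hq hK]
    ring
  · exact ((((((odd_sub he h2 (by norm_num)).mul (odd_add he (by norm_num))).mul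
      (odd_sub he h2 (by norm_num))).mul (odd_sub he h2 (by norm_num))).mul
      (odd_add he (by norm_num))).mul (odd_sub he h2 (by norm_num)))

end E6

section D4

open Cfsg.Agent.Lib.Helper23Tw3D4 Cfsg.Agent.Lib.Helper23TwT3D4 Cfsg.Agent.Lib.Helper23FastT3D4

theorem sqD_D4 {K : Type*} [Field K] [Fintype K] [CharP K 2] {q : ℕ} (hq : IsPrimePow q)
    (hK : Fintype.card K = q ^ 3) : SqD ↥(X.D.posUnipotent K ⊓ tws K q) := by
  obtain ⟨sg, φ, hs, hφ, e⟩ := exists_ctx hq hK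
  rw [← e]
  exact Cfsg.Agent.Lib.Helper39TGGen.sqD_UC chk hT hR Helper23FastG2.valid hs rchk hCF
    Helper23FastG2.exists_w0

theorem mainD4 {K : Type*} [Field K] [Fintype K] [CharP K 2] (q : ℕ) (hq : IsPrimePow q)
    (hK : Fintype.card K = q ^ 3) : EA (Cfsg.Lie.twistedD4 K q) := by
  obtain ⟨f, hf⟩ := exists_two_pow (K := K) (q := q) (k := 3) (by norm_num) hK
  have he := even_of hf hq.two_le
  have h2 := hq.two_le
  refine EA_of_data (tws K q) (X.D.posUnipotent K) q 12 1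
    ((q ^ 2 - 1) * (q ^ 6 - 1) * (q ^ 8 + q ^ 4 + 1)) f hf
    (s1088 hq hK) ?_ ?_ (sqD_D4 hq hK)
  · rw [s1067 hq hK]
    ring
  · refine ((odd_sub he h2 (by norm_num)).mul (odd_sub he h2 (by norm_num))).mul ?_
    exact ((he.pow_of_ne_zero (by norm_num)).add (he.pow_of_ne_zero (by norm_num))).add_one

end D4

end Cfsg.Agent.Lib.Helper39EaTw
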