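import Mathlib
import Cfsg.Agent.Lib.Helper39SecTransfer
import Cfsg.Agent.Lib.Helper39TransferEngel

set_option autoImplicit false

namespace Cfsg.Agent.Lib.Helper39FamTransfer

open Cfsg Cfsg.Agent.Lib.Helper39Sylow Cfsg.Agent.Lib.Helper39Control Cfsg.Agent.Lib.Helper39Transfer
  Cfsg.Agent.Lib.Helper24Functor Cfsg.Agent.Lib.Helper39Rel Cfsg.Agent.Lib.Helper39Core
  Cfsg.Agent.Lib.Helper39WellPlaced Cfsg.Agent.Lib.Helper39KInfFunctor Cfsg.Agent.Lib.Helper39Section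
  Cfsg.Agent.Lib.Helper39Fusion Cfsg.Agent.Lib.Helper39SecFusion Cfsg.Agent.Lib.Helper39SecTransfer
  Cfsg.Agent.Lib.Helper39SecTransport

open scoped Pointwise commutatorElement

section group

variable {G : Type*} [Group G] {p : ℕ}

/-- the subgroup generated by the `T ∩ N_H(W(T))'`, `W ∈ 𝒲` -/
def FT (𝒲 : Set (Subgroup G → Subgroup G)) (H T : Subgroup G) : Subgroup G :=
  ⨆ W ∈ 𝒲, T ⊓ ⁅H ⊓ Subgroup.normalizer ((W T : Subgroup G) : Set G),
    H ⊓ Subgroup.normalizer ((W T : Subgroup G) : Set G)⁆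

/-- the family `𝒲` controls transfer in `H` with respect to `T` -/
def FCT (𝒲 : Set (Subgroup G → Subgroup G)) (H T : Subgroup G) : Prop := T ⊓ ⁅H, H⁆ ≤ FT 𝒲 H T

variable {𝒲 : Set (Subgroup G → Subgroup G)}

theorem le_FT {W : Subgroup G → Subgroup G} (hW : W ∈ 𝒲) (H T : Subgroup G) :
    T ⊓ ⁅H ⊓ Subgroup.normalizer ((W T : Subgroup G) : Set G),
      H ⊓ Subgroup.normalizer ((W T : Subgroup G) : Set G)⁆ ≤ FT 𝒲 H T :=
  le_iSup₂ (f := fun (W : Subgroup G → Subgroup G) (_ : W ∈ 𝒲) =>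
    T ⊓ ⁅H ⊓ Subgroup.normalizer ((W T : Subgroup G) : Set G),
      H ⊓ Subgroup.normalizer ((W T : Subgroup G) : Set G)⁆) W hW

theorem FT_le (H T : Subgroup G) : FT 𝒲 H T ≤ T ⊓ ⁅H, H⁆ :=
  iSup₂_le (fun _ _ => inf_le_inf_left _ (Subgroup.commutator_mono inf_le_left inf_le_left))

theorem FT_mono {H H' : Subgroup G} (h : H ≤ H') (T : Subgroup G) : FT 𝒲 H T ≤ FT 𝒲 H' T :=
  iSup₂_mono (fun _ _ => inf_le_inf_left _
    (Subgroup.commutator_mono (inf_le_inf_right _ h) (inf_le_inf_right _ h)))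

theorem cj_FT (h𝒲 : ∀ W ∈ 𝒲, IsConjugacyFunctor p W) {H T : Subgroup G} (hT : IsPGroup p T) (k : G) :
    cj k (FT 𝒲 H T) = FT 𝒲 (cj k H) (cj k T) := by
  unfold FT
  rw [cj, Subgroup.map_iSup]
  apply iSup_congr
  intro W
  rw [Subgroup.map_iSup]
  apply iSup_congr
  intro hW
  change cj k _ = _
  rw [cj_inf, cj_commutator, cj_inf, ← normalizer_cj, ← W_cj (h𝒲 W hW) hT]

theorem familyControlsTransferIn_iff [Finite G] [Fact p.Prime] (h𝒲 : ∀ W ∈ 𝒲, IsConjugacyFunctor p W)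
    {H T : Subgroup G} (hT : IsSyl p T H) : FamilyControlsTransferIn p 𝒲 H ↔ FCT 𝒲 H T := by
  constructor
  · rintro ⟨T', h1, h2, h3, h4⟩
    obtain ⟨k, hk, e⟩ := hT.exists_conj_eq (T' := T') ⟨h1, h2, h3⟩
    have h5 : T' ⊓ ⁅H, H⁆ = FT 𝒲 H T' := h4
    have h6 := congrArg (cj k) h5
    rw [cj_FT h𝒲 h2, cj_inf, cj_commutator, cj_eq_of_mem hk, e] at h6
    exact h6.le
  · intro h
    exact ⟨T, hT.1, hT.2.1, hT.2.2, le_antisymm h (FT_le H T)⟩

/-- local-to-global principle for control of transfer by a family of conjugacy functors -/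
theorem fct_of_local [Finite G] [Fact p.Prime] (h𝒲 : ∀ W ∈ 𝒲, IsConjugacyFunctor p W) {S : Subgroup G}
    (hS : IsSyl p S ⊤)
    (hloc : ∀ U : Subgroup G, U ≤ S → U ≠ ⊥ →
      IsSyl p (S ⊓ Subgroup.normalizer (U : Set G)) (Subgroup.normalizer (U : Set G)) →
      FCT 𝒲 (Subgroup.normalizer (U : Set G)) (S ⊓ Subgroup.normalizer (U : Set G))) :
    FCT 𝒲 ⊤ S := by
  set K := FT 𝒲 ⊤ S with hK
  have claim : ∀ U : Subgroup G,
      (∀ A : Subgroup G, A ≤ S → Nat.card U < Nat.card A → ∀ g : G, cj g A ≤ S → CommIn K A g) →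
      ∀ V : Subgroup G, V ≤ S → V ≠ ⊥ →
      IsSyl p (S ⊓ Subgroup.normalizer (V : Set G)) (Subgroup.normalizer (V : Set G)) →
      Nat.card U ≤ Nat.card (S ⊓ Subgroup.normalizer (V : Set G) : Subgroup G) →
      (S ⊓ Subgroup.normalizer (V : Set G)) ⊓
        ⁅Subgroup.normalizer (V : Set G), Subgroup.normalizer (V : Set G)⁆ ≤ K := by
    intro U IH V
    induction' hn : (Nat.card S - Nat.card (S ⊓ Subgroup.normalizer (V : Set G) : Subgroup G))
      using Nat.strong_induction_on with n ih generalizing V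
    intro hVS hVne hVt hcard
    set R := S ⊓ Subgroup.normalizer (V : Set G) with hR
    have hRp : IsPGroup p R := hS.2.1.to_le inf_le_left
    have hRS : R ≤ S := inf_le_left
    refine (hloc V hVS hVne hVt).trans (iSup₂_le fun W hW => ?_)
    change R ⊓ ⁅Subgroup.normalizer (V : Set G) ⊓ Subgroup.normalizer ((W R : Subgroup G) : Set G),
      Subgroup.normalizer (V : Set G) ⊓ Subgroup.normalizer ((W R : Subgroup G) : Set G)⁆ ≤ K
    rcases eq_or_lt_of_le hRS with hRe | hRlt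
    · rw [hRe]
      refine le_trans ?_ (le_FT hW ⊤ S)
      exact inf_le_inf_left _ (Subgroup.commutator_mono (inf_le_inf_right _ le_top) (inf_le_inf_right _ le_top))
    · have hWc := h𝒲 W hW
      have hVR : V ≤ R := le_inf hVS Subgroup.le_normalizer
      have hRne : R ≠ ⊥ := fun h => hVne (le_bot_iff.1 (h ▸ hVR))
      have hgrow : R < S ⊓ Subgroup.normalizer (R : Set G) := lt_inf_normalizer hS.2.1 hRlt
      have hle2 : S ⊓ Subgroup.normalizer (R : Set G) ≤ S ⊓ Subgroup.normalizer ((W R : Subgroup G) : Set G) :=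
        inf_le_inf_left _ (normalizer_le_normalizer_W hWc hRp)
      have hRA : R ≤ S ⊓ Subgroup.normalizer ((W R : Subgroup G) : Set G) := hgrow.le.trans hle2
      have hc1 : Nat.card R < Nat.card (S ⊓ Subgroup.normalizer ((W R : Subgroup G) : Set G) : Subgroup G) :=
        lt_of_lt_of_le (card_lt_of_lt hgrow) (Subgroup.card_le_of_le hle2)
      have hV'S : W R ≤ S := (W_le hWc hRp).trans hRS
      obtain ⟨h, h1, h2, h3⟩ := exists_tame_conj' hS hV'S
      have hc2 : Nat.card (S ⊓ Subgroup.normalizer ((W R : Subgroup G) : Set G) : Subgroup G) ≤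
          Nat.card (S ⊓ Subgroup.normalizer ((cj h (W R) : Subgroup G) : Set G) : Subgroup G) := by
        rw [← card_cj h]
        exact Subgroup.card_le_of_le h3
      have hc3 : Nat.card (S ⊓ Subgroup.normalizer ((cj h (W R) : Subgroup G) : Set G) : Subgroup G) ≤
          Nat.card S := Subgroup.card_le_of_le inf_le_left
      intro x hx
      have hxA := hRA hx.1
      have e1 : ⁅x, h⁆ ∈ K := IH _ inf_le_left (lt_of_le_of_lt hcard hc1) h (h3.trans inf_le_left) x hxA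
      have e2 : h * x * h⁻¹ ∈ (S ⊓ Subgroup.normalizer ((cj h (W R) : Subgroup G) : Set G)) ⊓
          ⁅Subgroup.normalizer ((cj h (W R) : Subgroup G) : Set G),
            Subgroup.normalizer ((cj h (W R) : Subgroup G) : Set G)⁆ := by
        refine ⟨h3 (conj_mem_cj hxA), ?_⟩
        rw [normalizer_cj, ← cj_commutator]
        exact conj_mem_cj (Subgroup.commutator_mono inf_le_right inf_le_right hx.2)
      have e3 := ih _ (by omega) (cj h (W R)) rfl h1
        (fun hb => W_ne_bot hWc hRp hRne (cj_eq_bot_iff.1 hb)) h2 (by omega) e2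
      have e4 : x = ⁅x, h⁆ * (h * x * h⁻¹) := by
        rw [commutatorElement_def]; group
      rw [e4]
      exact K.mul_mem e1 e3
  apply inf_commutator_le_of_commIn (toSylowTop hS)
  intro A hA g hgA
  have hA : A ≤ S := hA
  have hgA : cj g A ≤ S := hgA
  revert A g
  intro A _ g _ hA hgA
  refine alperin_induction S hS (CommIn K) (fun A g h _ _ _ h1 h2 => h1.trans h2)
    (fun A g _ _ h1 => h1.symm) (fun A B g _ _ hBA h1 => h1.mono hBA) Set.univ ?_ ?_ A hA g hgA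
  · intro T hT
    obtain ⟨h, h1, h2, -⟩ := exists_tame_conj hS hT
    exact ⟨cj h T, trivial, h1, ⟨h, rfl⟩, h2⟩
  · intro U _ hUS hUt IH x hx u hu
    by_cases hUne : U = ⊥
    · have : u = 1 := by
        rw [hUne] at hu
        exact hu
      rw [this]; simp
    · apply claim U IH U hUS hUne hUt (Subgroup.card_le_of_le (le_inf hUS Subgroup.le_normalizer))
      have h1 : ⁅u, x⁆ ∈ U := by
        rw [commutatorElement_def, mul_assoc, mul_assoc]
        refine U.mul_mem hu ?_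
        have := (Subgroup.mem_normalizer_iff.1 hx u⁻¹).1 (U.inv_mem hu)
        simpa [mul_assoc] using this
      exact ⟨⟨hUS h1, Subgroup.le_normalizer h1⟩,
        Subgroup.commutator_mem_commutator (Subgroup.le_normalizer hu) hx⟩

end group


section types

universe u

variable {p : ℕ} {𝓦 : Set (∀ (Q : Type u) [Group Q], Subgroup Q)}

/-- the family of conjugacy functors induced on `X` -/
abbrev Ind (𝓦 : Set (∀ (Q : Type u) [Group Q], Subgroup Q)) (X : Type u) [Group X] :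
    Set (Subgroup X → Subgroup X) := (fun W => inducedFunctor (G := X) W) '' 𝓦

theorem ind_conj (h𝓦 : ∀ W ∈ 𝓦, IsCharPFunctor.{u} p W) (X : Type u) [Group X] [Finite X] :
    ∀ W ∈ Ind 𝓦 X, IsConjugacyFunctor p W := by
  rintro _ ⟨W, hW, rfl⟩
  exact isConjugacyFunctor_induced (h𝓦 W hW)

theorem FT_ind {X : Type u} [Group X] (H T : Subgroup X) :
    FT (Ind 𝓦 X) H T = ⨆ W ∈ 𝓦, T ⊓ ⁅H ⊓ Subgroup.normalizer ((inducedFunctor W T : Subgroup X) : Set X),
      H ⊓ Subgroup.normalizer ((inducedFunctor W T : Subgroup X) : Set X)⁆ := by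
  unfold FT
  exact iSup_image

theorem le_FT_ind {X : Type u} [Group X] {W : ∀ (Q : Type u) [Group Q], Subgroup Q} (hW : W ∈ 𝓦)
    (H T : Subgroup X) :
    T ⊓ ⁅H ⊓ Subgroup.normalizer ((inducedFunctor W T : Subgroup X) : Set X),
      H ⊓ Subgroup.normalizer ((inducedFunctor W T : Subgroup X) : Set X)⁆ ≤ FT (Ind 𝓦 X) H T :=
  le_FT (𝒲 := Ind 𝓦 X) ⟨W, hW, rfl⟩ H T

theorem FT_ind_le {X : Type u} [Group X] {H T K : Subgroup X}
    (h : ∀ W ∈ 𝓦, T ⊓ ⁅H ⊓ Subgroup.normalizer ((inducedFunctor W T : Subgroup X) : Set X),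
      H ⊓ Subgroup.normalizer ((inducedFunctor W T : Subgroup X) : Set X)⁆ ≤ K) :
    FT (Ind 𝓦 X) H T ≤ K := by
  rw [FT_ind]
  exact iSup₂_le h

theorem map_FT_equiv (h𝓦 : ∀ W ∈ 𝓦, IsCharPFunctor.{u} p W) {A B : Type u} [Group A] [Group B] [Finite A]
    (e : A ≃* B) {T : Subgroup A} (hT : IsPGroup p T) :
    (FT (Ind 𝓦 A) ⊤ T).map e.toMonoidHom = FT (Ind 𝓦 B) ⊤ (T.map e.toMonoidHom) := by
  rw [FT_ind, FT_ind, Subgroup.map_iSup]
  apply iSup_congr
  intro W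
  rw [Subgroup.map_iSup]
  apply iSup_congr
  intro hW
  rw [Subgroup.map_inf _ _ _ e.injective, Subgroup.map_commutator, top_inf_eq, top_inf_eq,
    map_normalizer_equiv, ← ind_map_equiv (h𝓦 W hW) e hT]

theorem fct_equiv (h𝓦 : ∀ W ∈ 𝓦, IsCharPFunctor.{u} p W) {A B : Type u} [Group A] [Group B] [Finite A]
    (e : A ≃* B) {T : Subgroup A} (hT : IsPGroup p T) (h : FCT (Ind 𝓦 A) ⊤ T) :
    FCT (Ind 𝓦 B) ⊤ (T.map e.toMonoidHom) := by
  have h1 := Subgroup.map_mono (f := e.toMonoidHom) h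
  rw [map_FT_equiv h𝓦 e hT, Subgroup.map_inf _ _ _ e.injective, Subgroup.map_commutator,
    Subgroup.map_top_of_surjective _ e.surjective] at h1
  exact h1

theorem map_FT_subtype (h𝓦 : ∀ W ∈ 𝓦, IsCharPFunctor.{u} p W) {X : Type u} [Group X] [Finite X]
    {H T : Subgroup X} (hTH : T ≤ H) (hT : IsPGroup p T) :
    (FT (Ind 𝓦 H) ⊤ (T.subgroupOf H)).map H.subtype = FT (Ind 𝓦 X) H T := by
  rw [FT_ind, FT_ind, Subgroup.map_iSup]
  apply iSup_congr
  intro W
  rw [Subgroup.map_iSup]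
  apply iSup_congr
  intro hW
  rw [Subgroup.map_inf _ _ _ H.subtype_injective, Subgroup.map_commutator, top_inf_eq,
    map_normalizer_subtype, ind_subgroupOf (h𝓦 W hW) hTH hT, Subgroup.map_subgroupOf_eq_of_le hTH]

theorem fct_sub (h𝓦 : ∀ W ∈ 𝓦, IsCharPFunctor.{u} p W) {X : Type u} [Group X] [Finite X]
    {H T : Subgroup X} (hTH : T ≤ H) (hT : IsPGroup p T) (h : FCT (Ind 𝓦 H) ⊤ (T.subgroupOf H)) :
    FCT (Ind 𝓦 X) H T := by
  have h1 := Subgroup.map_mono (f := H.subtype) h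
  rw [map_FT_subtype h𝓦 hTH hT, Subgroup.map_inf _ _ _ H.subtype_injective, Subgroup.map_commutator,
    Subgroup.map_subgroupOf_eq_of_le hTH, ← MonoidHom.range_eq_map, Subgroup.range_subtype] at h1
  exact h1

theorem fct_of_quotient_pprime (h𝓦 : ∀ W ∈ 𝓦, IsCharPFunctor.{u} p W) {X : Type u} [Group X] [Finite X]
    [Fact p.Prime] {S M : Subgroup X} (hS : IsSyl p S ⊤) [hM : M.Normal] (hMc : (Nat.card M).Coprime p)
    (h : FCT (Ind 𝓦 (X ⧸ M)) ⊤ (S.map (QuotientGroup.mk' M))) : FCT (Ind 𝓦 X) ⊤ S := by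
  set π := QuotientGroup.mk' M with hπ
  have hSM : S ⊓ M = ⊥ := inf_eq_bot_of_pgroup_coprime hS.2.1 hMc
  have hinj : Set.InjOn π S := injOn_mk' hSM
  have key : FT (Ind 𝓦 (X ⧸ M)) ⊤ (S.map π) ≤ (FT (Ind 𝓦 X) ⊤ S).map π := by
    apply FT_ind_le
    intro W hW
    have hWW := h𝓦 W hW
    refine le_trans ?_ (Subgroup.map_mono (le_FT_ind hW ⊤ S))
    have hWmap : inducedFunctor W (S.map π) = (inducedFunctor W S).map π := ind_map hWW π S hS.2.1 hinj
    rw [hWmap, top_inf_eq, top_inf_eq]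
    set N := Subgroup.normalizer ((inducedFunctor W S : Subgroup X) : Set X) with hN
    have hSN : S ≤ N := le_normalizer_W (isConjugacyFunctor_induced hWW) hS.2.1
    rintro _ ⟨⟨s, hs, rfl⟩, h2⟩
    refine ⟨s, ⟨hs, ?_⟩, rfl⟩
    have h3 := normalizer_map_le M hMc (inducedFunctor W S) (hS.2.1.to_le (ind_le S))
    have h4 := Subgroup.commutator_mono h3 h3 h2
    rw [← Subgroup.map_commutator] at h4
    obtain ⟨y, hy, hye⟩ := h4
    have hy : y ∈ ⁅N, N⁆ := hy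
    have hye : π y = π s := hye
    have hm : y⁻¹ * s ∈ M := QuotientGroup.eq.1 hye
    obtain ⟨k, hk⟩ := exists_pow_eq_one_of_isPGroup hS.2.1 hs
    apply mem_commutator_of_coprime (m := y⁻¹ * s) (a := p ^ k) (r := Nat.card M) hy
      (N.mul_mem (N.inv_mem (Subgroup.commutator_le_self N hy)) (hSN hs)) (by group) hk
    · have : (⟨y⁻¹ * s, hm⟩ : M) ^ Nat.card M = 1 := pow_card_eq_one'
      exact congrArg Subtype.val this
    · exact (Nat.Coprime.pow_right k hMc).symm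
  intro s hs
  have h1 : π s ∈ S.map π ⊓ ⁅(⊤ : Subgroup (X ⧸ M)), ⊤⁆ := by
    refine ⟨⟨s, hs.1, rfl⟩, ?_⟩
    have : π s ∈ Subgroup.map π ⁅(⊤ : Subgroup X), (⊤ : Subgroup X)⁆ := ⟨s, hs.2, rfl⟩
    rw [Subgroup.map_commutator] at this
    exact Subgroup.commutator_mono le_top le_top this
  obtain ⟨t, ht, hte⟩ := key (h h1)
  have htS : t ∈ S := (FT_le ⊤ S ht).1
  have : t = s := hinj htS hs.1 hte
  exact this ▸ ht

/-- reduction of control of transfer to `O_p(X) ∩ X'` -/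
theorem fct_of_core (h𝓦 : ∀ W ∈ 𝓦, IsCharPFunctor.{u} p W) {X : Type u} [Group X] [Finite X] [Fact p.Prime]
    (IHsub : ∀ H : Subgroup X, H ≠ ⊤ → ∀ T, IsSyl p T H → FCT (Ind 𝓦 X) H T)
    (IHquot : ∀ (M : Subgroup X) [M.Normal], M ≠ ⊥ → ∀ T : Subgroup (X ⧸ M), IsSyl p T ⊤ →
      FCT (Ind 𝓦 (X ⧸ M)) ⊤ T)
    {S : Subgroup X} (hS : IsSyl p S ⊤) (h2 : pCore p X ≠ ⊥)
    (hcore : pCore p X ⊓ ⁅(⊤ : Subgroup X), ⊤⁆ ≤ FT (Ind 𝓦 X) ⊤ S) :
    FCT (Ind 𝓦 X) ⊤ S := by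
  have hQn : (pCore p X).Normal := Cfsg.Agent.Lib.Helper39Core.pCore_normal p
  set Q := pCore p X with hQ
  by_cases hSQ : S ≤ Q
  · exact (inf_le_inf_right _ hSQ).trans hcore
  have hQS : Q ≤ S := hS.normal_le le_top (pCore_isPGroup p) (top_le_normalizer hQn)
  set π := QuotientGroup.mk' Q with hπ
  have hctQ := IHquot Q h2 _ (isSyl_map_surjective hS _ (QuotientGroup.mk'_surjective Q))
  have key : FT (Ind 𝓦 (X ⧸ Q)) ⊤ (S.map π) ≤ (FT (Ind 𝓦 X) ⊤ S).map π := by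
    apply FT_ind_le
    intro W hW
    have hWW := h𝓦 W hW
    have hM := preimage_normalizer_ne_top hWW hS hSQ
    have hSM := le_preimage_normalizer (N := Q) hWW hS.2.1
    have hctM := IHsub _ hM S (hS.of_le hSM le_top)
    set M := (Subgroup.normalizer ((inducedFunctor W (S.map π) : Subgroup (X ⧸ Q)) : Set (X ⧸ Q))).comap π
      with hMdef
    have hMmap : M.map π = Subgroup.normalizer ((inducedFunctor W (S.map π) : Subgroup (X ⧸ Q)) : Set (X ⧸ Q)) :=
      Subgroup.map_comap_eq_self_of_surjective (QuotientGroup.mk'_surjective Q) _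
    rw [top_inf_eq, ← hMmap, ← Subgroup.map_commutator]
    rintro _ ⟨⟨s, hs, rfl⟩, ⟨y, hy, hye⟩⟩
    have hy : y ∈ ⁅M, M⁆ := hy
    have hye : π y = π s := hye
    have hq : y⁻¹ * s ∈ Q := QuotientGroup.eq.1 hye
    have hyS : y ∈ S := by
      have : y = s * (y⁻¹ * s)⁻¹ := by group
      rw [this]
      exact S.mul_mem hs (S.inv_mem (hQS hq))
    exact ⟨y, FT_mono le_top S (hctM ⟨hyS, hy⟩), hye⟩
  intro s hs
  have h1 : π s ∈ S.map π ⊓ ⁅(⊤ : Subgroup (X ⧸ Q)), ⊤⁆ := by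
    refine ⟨⟨s, hs.1, rfl⟩, ?_⟩
    have : π s ∈ Subgroup.map π ⁅(⊤ : Subgroup X), (⊤ : Subgroup X)⁆ := ⟨s, hs.2, rfl⟩
    rw [Subgroup.map_commutator] at this
    exact Subgroup.commutator_mono le_top le_top this
  obtain ⟨t, ht, hte⟩ := key (hctQ h1)
  have hte : π t = π s := hte
  have hq : t⁻¹ * s ∈ Q := QuotientGroup.eq.1 hte
  have hqK : t⁻¹ * s ∈ FT (Ind 𝓦 X) ⊤ S := by
    apply hcore
    exact ⟨hq, Subgroup.mul_mem _ (Subgroup.inv_mem _ (FT_le ⊤ S ht).2) hs.2⟩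
  have : s = t * (t⁻¹ * s) := by group
  rw [this]
  exact Subgroup.mul_mem _ ht hqK

theorem fct_step (h𝓦 : ∀ W ∈ 𝓦, IsCharPFunctor.{u} p W) {X : Type u} [Group X] [Finite X] [Fact p.Prime]
    (IHsub : ∀ H : Subgroup X, H ≠ ⊤ → ∀ T, IsSyl p T H → FCT (Ind 𝓦 X) H T)
    (IHquot : ∀ (M : Subgroup X) [M.Normal], M ≠ ⊥ → ∀ T : Subgroup (X ⧸ M), IsSyl p T ⊤ →
      FCT (Ind 𝓦 (X ⧸ M)) ⊤ T)
    {S : Subgroup X} (hS : IsSyl p S ⊤)
    (hloc : Subgroup.centralizer ((pCore p X : Subgroup X) : Set X) ≤ pCore p X →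
      pCore p X ⊓ ⁅(⊤ : Subgroup X), ⊤⁆ ≤ FT (Ind 𝓦 X) ⊤ S) : FCT (Ind 𝓦 X) ⊤ S := by
  by_cases h1 : pPrimeCore p X = ⊥
  swap
  · have : (pPrimeCore p X).Normal := Cfsg.Agent.Lib.Helper40Cores.pPrimeCore_normal
    exact fct_of_quotient_pprime h𝓦 hS Cfsg.Agent.Lib.Helper40Cores.pPrimeCore_coprime
      (IHquot _ h1 _ (isSyl_map_surjective hS _ (QuotientGroup.mk'_surjective _)))
  have hnormal_le : ∀ T : Subgroup X, IsPGroup p T → Subgroup.normalizer (T : Set X) = ⊤ → T ≤ pCore p X :=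
    fun T hT htop => le_pCore (Subgroup.normalizer_eq_top_iff.1 htop) hT
  by_cases h2 : pCore p X = ⊥
  · apply fct_of_local (ind_conj h𝓦 X) hS
    intro U hUS hUne hUt
    apply IHsub _ ?_ _ hUt
    intro htop
    apply hUne
    have := hnormal_le U (hS.2.1.to_le hUS) htop
    rw [h2] at this
    exact le_bot_iff.1 this
  by_cases h3 : Subgroup.centralizer ((pCore p X : Subgroup X) : Set X) ≤ pCore p X
  · exact fct_of_core h𝓦 IHsub IHquot hS h2 (hloc h3)
  have hQn : (pCore p X).Normal := Cfsg.Agent.Lib.Helper39Core.pCore_normal p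
  have hS0 := not_le_of_not_constrained hS h1 h3
  have hST : S ≠ ⊤ := by
    intro htop
    apply h3
    have : (⊤ : Subgroup X) ≤ pCore p X := hnormal_le ⊤ (htop ▸ hS.2.1)
      (Subgroup.normalizer_eq_top_iff.2 inferInstance)
    exact le_top.trans this
  have hSS : ⁅S, S⁆ ≤ FT (Ind 𝓦 X) ⊤ S := by
    have h4 := IHsub S hST S ⟨le_rfl, hS.2.1, by rw [Subgroup.relIndex_self]; exact (Fact.out : p.Prime).one_lt.ne' ∘ Nat.dvd_one.1⟩
    exact (le_inf (Subgroup.commutator_le_self S) le_rfl).trans (h4.trans (FT_mono le_top S))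
  by_cases h4 : Subgroup.centralizer ((pCore p X : Subgroup X) : Set X) ⊔ S = ⊤
  · apply fct_of_core h𝓦 IHsub IHquot hS h2
    have hQS : pCore p X ≤ S := hS.normal_le le_top (pCore_isPGroup p) (top_le_normalizer hQn)
    exact (inf_commutator_le_of_sup_eq_top hS hQS h4).trans hSS
  set Q := pCore p X with hQ
  set C := Subgroup.centralizer (Q : Set X) with hC
  have hCn : C.Normal := inferInstance
  have hDn : (Q ⊔ C).Normal := inferInstance
  have hQS : Q ≤ S := hS.normal_le le_top (pCore_isPGroup p) (top_le_normalizer hQn)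
  set S0 := S ⊓ (Q ⊔ C) with hS0def
  have hG1 : Subgroup.normalizer (S0 : Set X) ≠ ⊤ :=
    fun htop => hS0 (hnormal_le S0 (hS.2.1.to_le inf_le_left) htop)
  have hSG1 : S ≤ Subgroup.normalizer (S0 : Set X) := by
    intro s hs
    rw [mem_normalizer_iff_cj, hS0def, cj_inf, cj_eq_of_mem hs, cj_of_normal hDn]
  have hct1 := (IHsub _ hG1 S (hS.of_le hSG1 le_top)).trans (FT_mono le_top S)
  have hct2 := (IHsub _ h4 S (hS.of_le le_sup_right le_top)).trans (FT_mono le_top S)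
  apply inf_commutator_le_of_commIn (toSylowTop hS)
  intro A hA h hhA
  have hA : A ≤ S := hA
  have hhA : cj h A ≤ S := hhA
  obtain ⟨e, he, n, hn, rfl, hnA⟩ := exists_factor hS hDn hA hhA
  have heCS : e ∈ C ⊔ S := (sup_le (hQS.trans le_sup_right) le_sup_left : Q ⊔ C ≤ C ⊔ S) he
  apply CommIn.trans
  · exact commIn_of_ct hct1 hSG1 hn hA hnA
  · exact commIn_of_ct hct2 le_sup_right heCS hnA (by rw [← cj_mul]; exact hhA)

/-- abstract form of the reduction of control of transfer by a family to constrained sections -/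
theorem fct_all (h𝓦 : ∀ W ∈ 𝓦, IsCharPFunctor.{u} p W) [Fact p.Prime]
    (𝒮 : ∀ (X : Type u) [Group X], Prop)
    (hSsub : ∀ (X : Type u) [Group X] [Finite X] (Y : Subgroup X), 𝒮 X → 𝒮 Y)
    (hSquot : ∀ (X : Type u) [Group X] [Finite X] (N : Subgroup X) [N.Normal], 𝒮 X → 𝒮 (X ⧸ N))
    (hloc : ∀ (X : Type u) [Group X] [Finite X], 𝒮 X →
      Subgroup.centralizer ((pCore p X : Subgroup X) : Set X) ≤ pCore p X →
      ∀ S : Subgroup X, IsSyl p S ⊤ → FCT (Ind 𝓦 X) ⊤ S) :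
    ∀ (n : ℕ) (X : Type u) [Group X] [Finite X], Nat.card X = n → 𝒮 X →
      ∀ S : Subgroup X, IsSyl p S ⊤ → FCT (Ind 𝓦 X) ⊤ S := by
  intro n
  induction n using Nat.strong_induction_on with
  | _ n ih =>
  intro X _ _ hn hX S hS
  have IHsub : ∀ H : Subgroup X, H ≠ ⊤ → ∀ T, IsSyl p T H → FCT (Ind 𝓦 X) H T := by
    intro H hH T hT
    apply fct_sub h𝓦 hT.1 hT.2.1
    apply ih (Nat.card H) _ H rfl (hSsub X H hX) _ (isSyl_subgroupOf hT)
    rw [← hn, ← Subgroup.card_top (G := X)]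
    exact card_lt_of_lt (lt_top_iff_ne_top.2 hH)
  apply fct_step h𝓦 IHsub _ hS
  · intro hc
    have hQn : (pCore p X).Normal := Cfsg.Agent.Lib.Helper39Core.pCore_normal p
    have hQS : pCore p X ≤ S := hS.normal_le le_top (pCore_isPGroup p) (top_le_normalizer hQn)
    exact (inf_le_inf_right _ hQS).trans (hloc X hX hc S hS)
  · intro M _ hM T hT
    apply ih (Nat.card (X ⧸ M)) _ (X ⧸ M) rfl (hSquot X M hX) T hT
    rw [← hn, ← M.card_mul_index, ← Subgroup.index_eq_card]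
    have h1 : 1 < Nat.card M := by
      rw [Subgroup.one_lt_card_iff_ne_bot]; exact hM
    have h2 : 0 < M.index := Nat.pos_of_ne_zero M.index_ne_zero_of_finite
    nlinarith

end types


section failure

open Cfsg.Agent.Lib.Helper39TransferEngel

universe u

variable {p : ℕ} {𝓦 : Set (∀ (Q : Type u) [Group Q], Subgroup Q)}

theorem exists_proper_of_engel {X : Type*} [Group X] [Finite X] [Fact p.Prime]
    {S : Subgroup X} (hS : IsSyl p S ⊤) {g : X} (hgS : g ∈ S) (hgQ : g ∉ pCore p X)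
    (hEng : ∀ U V : Subgroup X, IsChiefFactor U V → U ≤ pCore p X →
      iterCommutator U (Subgroup.zpowers g) (p - 1) ≤ V) :
    ∃ C : Subgroup X, C ≠ ⊤ ∧ S ≤ C ∧ pCore p X ⊓ ⁅(⊤ : Subgroup X), ⊤⁆ ≤ ⁅C, C⁆ := by
  have hQn : (pCore p X).Normal := Cfsg.Agent.Lib.Helper39Core.pCore_normal p
  set Q := pCore p X with hQ
  have hQS : Q ≤ S := hS.normal_le le_top (pCore_isPGroup p) (top_le_normalizer hQn)
  let 𝓔 : Set X := {e | ∀ U V : Subgroup X, IsChiefFactor U V → U ≤ Q →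
      iterCommutator U (Subgroup.zpowers e) (p - 1) ≤ V}
  have h𝓔conj : ∀ k : X, ∀ e ∈ 𝓔, k * e * k⁻¹ ∈ 𝓔 := by
    intro k e he U V hch hU
    have h1 := cj_mono (g := k) (he U V hch hU)
    rw [cj_of_normal hch.2.2.1, cj, map_iter, MonoidHom.map_zpowers] at h1
    have h2 := cj_of_normal hch.2.1 (g := k)
    rw [cj] at h2
    rw [h2] at h1
    exact h1
  let 𝓢 : Set X := {e | e ∈ 𝓔 ∧ e ∈ S}
  set E := Subgroup.closure 𝓢 with hE
  have hES : E ≤ S := by
    rw [hE, Subgroup.closure_le]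
    exact fun e he => he.2
  have hwc : ∀ k : X, cj k E ≤ S → cj k E = E := by
    intro k hle
    apply cj_eq_of_le_of_finite
    have h1 : cj k E = Subgroup.closure ((MulAut.conj k).toMonoidHom '' 𝓢) := by
      rw [cj, hE, MonoidHom.map_closure]
    rw [h1, Subgroup.closure_le]
    rintro _ ⟨s, hs, rfl⟩
    apply Subgroup.subset_closure
    exact ⟨h𝓔conj k s hs.1, hle (conj_mem_cj (Subgroup.subset_closure hs))⟩
  have hgE : g ∈ E := Subgroup.subset_closure ⟨hEng, hgS⟩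
  set C := Subgroup.normalizer (E : Set X) with hC
  have hCne : C ≠ ⊤ := by
    intro htop
    exact hgQ (le_pCore (Subgroup.normalizer_eq_top_iff.1 htop) (hS.2.1.to_le hES) hgE)
  have hSC : S ≤ C := by
    intro k hk
    rw [hC, mem_normalizer_iff_cj]
    apply hwc k
    have := cj_mono (g := k) hES
    rwa [cj_eq_of_mem hk] at this
  have hSsylC : IsSyl p S C := hS.of_le hSC le_top
  have hfix : ∀ l : X, (∀ a ∈ 𝓢, l⁻¹ * a * l ∈ C) → l ∈ C := by
    intro k hka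
    have h1 : cj k⁻¹ E ≤ C := by
      have h2 : cj k⁻¹ E = Subgroup.closure ((MulAut.conj k⁻¹).toMonoidHom '' 𝓢) := by
        rw [cj, hE, MonoidHom.map_closure]
      rw [h2, Subgroup.closure_le]
      rintro _ ⟨s, hs, rfl⟩
      have h3 := hka s hs
      simpa using h3
    obtain ⟨m, hm, hmle⟩ := hSsylC.exists_conj_le h1 (isPGroup_cj (hS.2.1.to_le hES))
    rw [← cj_mul] at hmle
    have h5 := hwc _ hmle
    have h6 : m * k⁻¹ ∈ C := mem_normalizer_iff_cj.2 h5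
    have h7 : k = (m * k⁻¹)⁻¹ * m := by group
    rw [h7]
    exact C.mul_mem (C.inv_mem h6) hm
  have key := inf_commutator_le_of_engel (p := p) Q (pCore_isPGroup p) C (hQS.trans hSC) 𝓢
    (fun a ha => hSC ha.2) (hS.2.1.to_le hES) hfix (fun U V hch hU e he => he.1 U V hch hU)
  exact ⟨C, hCne, hSC, key⟩

/-- structure of a minimal failure of control of transfer by a family of functors -/
theorem min_failure (h𝓦 : ∀ W ∈ 𝓦, IsCharPFunctor.{u} p W) (hne : 𝓦.Nonempty)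
    {X : Type u} [Group X] [Finite X] [Fact p.Prime]
    (IHsub : ∀ H : Subgroup X, H ≠ ⊤ → ∀ T, IsSyl p T H → FCT (Ind 𝓦 X) H T)
    (IHquot : ∀ (M : Subgroup X) [M.Normal], M ≠ ⊥ → ∀ T : Subgroup (X ⧸ M), IsSyl p T ⊤ →
      FCT (Ind 𝓦 (X ⧸ M)) ⊤ T)
    {S : Subgroup X} (hS : IsSyl p S ⊤) (hfail : ¬ FCT (Ind 𝓦 X) ⊤ S)
    (M : Subgroup X) (hM : M = Subgroup.normalizer ((FT (Ind 𝓦 X) ⊤ S ⊓ pCore p X : Subgroup X) : Set X)) :
    Subgroup.centralizer ((pCore p X : Subgroup X) : Set X) ≤ pCore p X ∧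
    (M ≠ ⊤ ∧ ∀ H : Subgroup X, S ≤ H → H ≠ ⊤ → H ≤ M) ∧
    (⁅pCore p X, M⁆ ≤ pCore p X ⊓ ⁅M, M⁆ ∧ pCore p X ⊓ ⁅M, M⁆ ≤ pCore p X ⊓ FT (Ind 𝓦 X) ⊤ S) ∧
    ∀ u : X, u ∈ S → u ∉ pCore p X → ∃ U V : Subgroup X, IsChiefFactor U V ∧ U ≤ pCore p X ∧
      ¬ iterCommutator U (Subgroup.zpowers u) (p - 1) ≤ V := by
  have hcon : Subgroup.centralizer ((pCore p X : Subgroup X) : Set X) ≤ pCore p X := by
    by_contra h
    exact hfail (fct_step h𝓦 IHsub IHquot hS (fun hc => absurd hc h))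
  have hcore : ¬ (pCore p X ⊓ ⁅(⊤ : Subgroup X), ⊤⁆ ≤ FT (Ind 𝓦 X) ⊤ S) :=
    fun h => hfail (fct_step h𝓦 IHsub IHquot hS (fun _ => h))
  have hPn : (pCore p X).Normal := Cfsg.Agent.Lib.Helper39Core.pCore_normal p
  set P := pCore p X with hP
  set K := FT (Ind 𝓦 X) ⊤ S with hK
  have hPS : P ≤ S := hS.normal_le le_top (pCore_isPGroup p) (top_le_normalizer hPn)
  have hprop : ∀ H : Subgroup X, S ≤ H → H ≠ ⊤ → S ⊓ ⁅H, H⁆ ≤ K := fun H hSH hH =>
    (IHsub H hH S (hS.of_le hSH le_top)).trans (FT_mono le_top S)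
  have hcomm : ∀ H : Subgroup X, S ≤ H → H ≠ ⊤ → ∀ h ∈ H, ∀ x ∈ P, ⁅h, x⁆ ∈ K ⊓ P := by
    intro H hSH hH h hh x hx
    have h1 : ⁅h, x⁆ ∈ P := by
      rw [commutatorElement_def]
      exact P.mul_mem (hPn.conj_mem x hx h) (P.inv_mem hx)
    exact ⟨hprop H hSH hH ⟨hPS h1, Subgroup.commutator_mem_commutator hh (hSH (hPS hx))⟩, h1⟩
  have hleM : ∀ H : Subgroup X, S ≤ H → H ≠ ⊤ → H ≤ M := by
    intro H hSH hH h hh
    rw [hM, mem_normalizer_iff_cj]
    apply cj_eq_of_le_of_finite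
    rintro _ ⟨x, hx, rfl⟩
    have h1 := hcomm H hSH hH h hh x hx.2
    have h2 : h * x * h⁻¹ = ⁅h, x⁆ * x := by rw [commutatorElement_def]; group
    show h * x * h⁻¹ ∈ K ⊓ P
    rw [h2]
    exact Subgroup.mul_mem _ h1 hx
  obtain ⟨W₀, hW₀⟩ := hne
  have hW₀c := isConjugacyFunctor_induced (G := X) (h𝓦 W₀ hW₀)
  set N₀ := Subgroup.normalizer ((inducedFunctor W₀ S : Subgroup X) : Set X) with hN₀
  have hSN₀ : S ≤ N₀ := le_normalizer_W hW₀c hS.2.1
  have hN₀K : S ⊓ ⁅N₀, N₀⁆ ≤ K := by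
    have := le_FT_ind (𝓦 := 𝓦) hW₀ ⊤ S
    rwa [top_inf_eq] at this
  have hN₀ne : N₀ ≠ ⊤ := by
    intro htop
    apply hfail
    rw [htop] at hN₀K
    exact hN₀K
  have hSne : S ≠ ⊤ := fun h => hN₀ne (top_le_iff.1 (h ▸ hSN₀))
  have hSM : S ≤ M := hleM S le_rfl hSne
  have hMne : M ≠ ⊤ := by
    intro htop
    have hRn : (K ⊓ P).Normal := by
      rw [← Subgroup.normalizer_eq_top_iff, ← hM, htop]
    set R := K ⊓ P with hR
    set π := QuotientGroup.mk' R with hπ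
    have hPbn : (P.map π).Normal := hPn.map π (QuotientGroup.mk'_surjective R)
    set D := (Subgroup.centralizer ((P.map π : Subgroup (X ⧸ R)) : Set (X ⧸ R))).comap π with hD
    have hDn : D.Normal := by
      have : (Subgroup.centralizer ((P.map π : Subgroup (X ⧸ R)) : Set (X ⧸ R))).Normal := inferInstance
      exact this.comap π
    have hN₀D : N₀ ≤ D := by
      intro g hg
      rw [hD, Subgroup.mem_comap]
      rintro _ ⟨x, hx, rfl⟩
      have h1 := hcomm N₀ hSN₀ hN₀ne g hg x hx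
      have h2 : π ⁅g, x⁆ = 1 := (QuotientGroup.eq_one_iff _).2 h1
      rw [commutatorElement_def, map_mul, map_mul, map_mul, map_inv, map_inv] at h2
      calc π x * π g = (π g * π x * (π g)⁻¹ * (π x)⁻¹)⁻¹ * (π g * π x) := by group
        _ = π g * π x := by rw [h2]; group
    have hDtop : D = ⊤ := by
      rw [eq_top_iff]
      intro g _
      obtain ⟨c, hc, n, hn, rfl⟩ := frattini_rel hS le_top (top_le_normalizer hDn) (Subgroup.mem_top g)
      have h1 : S ⊓ D = S := inf_eq_left.2 (hSN₀.trans hN₀D)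
      rw [h1] at hn
      exact D.mul_mem hc (hN₀D (normalizer_le_normalizer_W hW₀c hS.2.1 hn.2))
    have hCtop : Subgroup.centralizer ((P.map π : Subgroup (X ⧸ R)) : Set (X ⧸ R)) = ⊤ := by
      rw [eq_top_iff]
      intro y _
      obtain ⟨g, rfl⟩ := QuotientGroup.mk'_surjective R y
      have : g ∈ D := hDtop ▸ Subgroup.mem_top g
      exact this
    have h3 := inf_commutator_le_of_sup_eq_top (Q := P.map π)
      (isSyl_map_surjective hS π (QuotientGroup.mk'_surjective R)) (Subgroup.map_mono hPS)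
      (by rw [hCtop, top_sup_eq])
    apply hcore
    intro x hx
    have h4 : π x ∈ P.map π ⊓ ⁅(⊤ : Subgroup (X ⧸ R)), ⊤⁆ := by
      refine ⟨⟨x, hx.1, rfl⟩, ?_⟩
      have : π x ∈ Subgroup.map π ⁅(⊤ : Subgroup X), (⊤ : Subgroup X)⁆ := ⟨x, hx.2, rfl⟩
      rw [Subgroup.map_commutator] at this
      exact Subgroup.commutator_mono le_top le_top this
    have h5 := h3 h4
    rw [← Subgroup.map_commutator] at h5
    obtain ⟨y, hy, hye⟩ := h5
    have hye : π y = π x := hye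
    have hr : y⁻¹ * x ∈ R := QuotientGroup.eq.1 hye
    have hyK : y ∈ K := hN₀K ⟨Subgroup.commutator_le_self S hy, Subgroup.commutator_mono hSN₀ hSN₀ hy⟩
    have : x = y * (y⁻¹ * x) := by group
    rw [this]
    exact K.mul_mem hyK hr.1
  refine ⟨hcon, ⟨hMne, hleM⟩, ⟨le_inf (Subgroup.commutator_le_left P M)
    (Subgroup.commutator_mono (hPS.trans hSM) le_rfl), ?_⟩, ?_⟩
  · intro x hx
    exact ⟨hx.1, hprop M hSM hMne ⟨hPS hx.1, hx.2⟩⟩
  · intro u huS huP
    by_contra hno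
    push Not at hno
    obtain ⟨C, hCne, hSC, hle⟩ := exists_proper_of_engel hS huS huP hno
    apply hcore
    intro x hx
    exact hprop C hSC hCne ⟨hPS hx.1, hle hx⟩

end failure

end Cfsg.Agent.Lib.Helper39FamTransfer
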