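import Mathlib
import Cfsg.Agent.Lib.Helper39SecFusion
import Cfsg.Agent.Lib.Helper39SecTransport
import Cfsg.Agent.Lib.Helper39FamTransfer

set_option autoImplicit false

namespace Cfsg.Agent.Lib.Helper39FamFusion

open Cfsg Cfsg.Agent.Lib.Helper39Sylow Cfsg.Agent.Lib.Helper39Control
  Cfsg.Agent.Lib.Helper24Functor Cfsg.Agent.Lib.Helper39Rel Cfsg.Agent.Lib.Helper39Core
  Cfsg.Agent.Lib.Helper39WellPlaced Cfsg.Agent.Lib.Helper39KInfFunctor Cfsg.Agent.Lib.Helper39Section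
  Cfsg.Agent.Lib.Helper39Fusion Cfsg.Agent.Lib.Helper39SecFusion Cfsg.Agent.Lib.Helper39SecTransport

section chains

variable {G : Type*} [Group G]

/-- chains of conjugations by elements of members of `ℳ`, keeping the conjugates of `A` inside `T` -/
inductive ChM (ℳ : Set (Subgroup G)) (T A : Subgroup G) : G → Prop
  | one : ChM ℳ T A 1
  | step {y x : G} (M : Subgroup G) (hM : M ∈ ℳ) (hy : ChM ℳ T A y) (hx : x ∈ M)
      (hT : cj (x * y) A ≤ T) : ChM ℳ T A (x * y)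

/-- `g` acts on `A` like the end of a chain -/
def FRM (ℳ : Set (Subgroup G)) (T A : Subgroup G) (g : G) : Prop :=
  ∃ y, ChM ℳ T A y ∧ ∃ c ∈ Subgroup.centralizer (A : Set G), g = y * c

variable {ℳ ℳ' : Set (Subgroup G)} {T A B : Subgroup G}

theorem ChM.le (hA : A ≤ T) {y : G} (h : ChM ℳ T A y) : cj y A ≤ T := by
  cases h with
  | one => rwa [cj_one]
  | step M hM hy hx hT => exact hT

theorem ChM.mono (hBA : B ≤ A) {y : G} (h : ChM ℳ T A y) : ChM ℳ T B y := by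
  induction h with
  | one => exact ChM.one
  | step M hM _ hx hT ih => exact ChM.step M hM ih hx ((cj_mono hBA).trans hT)

theorem ChM.mono_family (h𝓜 : ∀ M ∈ ℳ, ∃ M' ∈ ℳ', M ≤ M') {y : G} (h : ChM ℳ T A y) : ChM ℳ' T A y := by
  induction h with
  | one => exact ChM.one
  | step M hM _ hx hT ih =>
    obtain ⟨M', hM', hle⟩ := h𝓜 M hM
    exact ChM.step M' hM' ih (hle hx) hT

theorem ChM.append {y y' : G} (h : ChM ℳ T A y) (h' : ChM ℳ T (cj y A) y') : ChM ℳ T A (y' * y) := by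
  induction h' with
  | one => rwa [one_mul]
  | step M hM _ hx hT ih =>
    rw [mul_assoc]
    refine ChM.step M hM ih hx ?_
    rw [← mul_assoc, cj_mul]
    exact hT

theorem ChM.single {M : Subgroup G} (hM : M ∈ ℳ) {x : G} (hx : x ∈ M) (hT : cj x A ≤ T) : ChM ℳ T A x := by
  have := ChM.step (A := A) (T := T) M hM ChM.one hx (by rwa [mul_one])
  rwa [mul_one] at this

theorem ChM.inv (hA : A ≤ T) {y : G} (h : ChM ℳ T A y) : ChM ℳ T (cj y A) y⁻¹ := by
  induction h with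
  | one => rw [inv_one]; exact ChM.one
  | @step y x M hM hy hx hT ih =>
    rw [mul_inv_rev]
    have h1 : ChM ℳ T (cj (x * y) A) x⁻¹ := by
      apply ChM.single hM (M.inv_mem hx)
      rw [cj_mul, cj_inv_cj]
      exact hy.le hA
    apply h1.append
    rw [cj_mul, cj_inv_cj]
    exact ih

theorem ChM.conj (k : G) {y : G} (h : ChM ℳ T A y) :
    ChM ((cj k) '' ℳ) (cj k T) (cj k A) (k * y * k⁻¹) := by
  induction h with
  | one => simpa using ChM.one
  | @step y x M hM hy hx hT ih =>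
    have e : k * (x * y) * k⁻¹ = (k * x * k⁻¹) * (k * y * k⁻¹) := by group
    rw [e]
    refine ChM.step (cj k M) ⟨M, hM, rfl⟩ ih (conj_mem_cj hx) ?_
    rw [← e, ← cj_mul]
    have e2 : k * (x * y) * k⁻¹ * k = k * (x * y) := by group
    rw [e2, cj_mul]
    exact cj_mono hT

theorem ChM.map {G' : Type*} [Group G'] (f : G →* G') {y : G} (h : ChM ℳ T A y) :
    ChM ((Subgroup.map f) '' ℳ) (T.map f) (A.map f) (f y) := by
  induction h with
  | one => rw [map_one]; exact ChM.one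
  | @step y x M hM hy hx hT ih =>
    rw [map_mul]
    refine ChM.step (M.map f) ⟨M, hM, rfl⟩ ih ⟨x, hx, rfl⟩ ?_
    rw [← map_mul, ← map_cj]
    exact Subgroup.map_mono hT

/-- a chain realises any relation which is transitive and contains the steps -/
theorem ChM.rel {R : Subgroup G → G → Prop} (h1 : ∀ B, B ≤ T → R B 1)
    (htrans : ∀ B g h, B ≤ T → cj g B ≤ T → cj (h * g) B ≤ T → R B g → R (cj g B) h → R B (h * g))
    (hstep : ∀ M ∈ ℳ, ∀ B, B ≤ T → ∀ x ∈ M, cj x B ≤ T → R B x) (hA : A ≤ T) {y : G}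
    (h : ChM ℳ T A y) : R A y := by
  induction h with
  | one => exact h1 A hA
  | @step y x M hM hy hx hT ih =>
    refine htrans A y x hA (hy.le hA) hT ih (hstep M hM _ (hy.le hA) x hx ?_)
    rw [← cj_mul]
    exact hT

theorem FRM.trans {g h : G} (h1 : FRM ℳ T A g) (h2 : FRM ℳ T (cj g A) h) : FRM ℳ T A (h * g) := by
  obtain ⟨y, hy, c, hc, rfl⟩ := h1
  obtain ⟨y', hy', c', hc', rfl⟩ := h2
  rw [cj_mul, cj_eq_of_mem_centralizer hc] at hy' hc'
  rw [centralizer_cj, mem_cj] at hc'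
  exact ⟨y' * y, hy.append hy', (y⁻¹ * c' * y) * c, mul_mem hc' hc, by group⟩

theorem FRM.symm (hA : A ≤ T) {g : G} (h1 : FRM ℳ T A g) : FRM ℳ T (cj g A) g⁻¹ := by
  obtain ⟨y, hy, c, hc, rfl⟩ := h1
  rw [cj_mul, cj_eq_of_mem_centralizer hc]
  refine ⟨y⁻¹, hy.inv hA, y * c⁻¹ * y⁻¹, ?_, by group⟩
  rw [centralizer_cj]
  exact conj_mem_cj (inv_mem hc)

theorem FRM.mono (hBA : B ≤ A) {g : G} (h1 : FRM ℳ T A g) : FRM ℳ T B g := by
  obtain ⟨y, hy, c, hc, rfl⟩ := h1
  exact ⟨y, hy.mono hBA, c, Subgroup.centralizer_le hBA hc, rfl⟩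

theorem FRM.mono_family (h𝓜 : ∀ M ∈ ℳ, ∃ M' ∈ ℳ', M ≤ M') {g : G} (h1 : FRM ℳ T A g) : FRM ℳ' T A g := by
  obtain ⟨y, hy, c, hc, rfl⟩ := h1
  exact ⟨y, hy.mono_family h𝓜, c, hc, rfl⟩

theorem FRM.of_centralizer {c : G} (hc : c ∈ Subgroup.centralizer (A : Set G)) : FRM ℳ T A c :=
  ⟨1, ChM.one, c, hc, by simp⟩

theorem FRM.of_mem {M : Subgroup G} (hM : M ∈ ℳ) {x : G} (hx : x ∈ M) (hT : cj x A ≤ T) : FRM ℳ T A x :=
  ⟨x, ChM.single hM hx hT, 1, one_mem _, by simp⟩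

theorem FRM.le (hA : A ≤ T) {g : G} (h : FRM ℳ T A g) : cj g A ≤ T := by
  obtain ⟨y, hy, c, hc, rfl⟩ := h
  rw [cj_mul, cj_eq_of_mem_centralizer hc]
  exact hy.le hA

/-- refinement of the steps -/
theorem FRM.rel {R : Subgroup G → G → Prop} (hcent : ∀ B, B ≤ T → ∀ c ∈ Subgroup.centralizer (B : Set G), R B c)
    (htrans : ∀ B g h, B ≤ T → cj g B ≤ T → cj (h * g) B ≤ T → R B g → R (cj g B) h → R B (h * g))
    (hstep : ∀ M ∈ ℳ, ∀ B, B ≤ T → ∀ x ∈ M, cj x B ≤ T → R B x) (hA : A ≤ T) {g : G}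
    (h : FRM ℳ T A g) : R A g := by
  obtain ⟨y, hy, c, hc, rfl⟩ := h
  have e := cj_eq_of_mem_centralizer hc
  refine htrans A c y hA (by rw [e]; exact hA) (by rw [cj_mul, e]; exact hy.le hA) (hcent A hA c hc) ?_
  rw [e]
  exact hy.rel (fun B hB => hcent B hB 1 (one_mem _)) htrans hstep hA

theorem FRM.refine (hstep : ∀ M ∈ ℳ, ∀ B, B ≤ T → ∀ x ∈ M, cj x B ≤ T → FRM ℳ' T B x) (hA : A ≤ T) {g : G}
    (h : FRM ℳ T A g) : FRM ℳ' T A g :=
  h.rel (R := FRM ℳ' T) (fun _ _ _ hc => FRM.of_centralizer hc)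
    (fun _ _ _ _ _ _ h1 h2 => h1.trans h2) hstep hA

end chains


section family

variable {G : Type*} [Group G] {p : ℕ}

/-- the normalizers `N_H(W(T))`, `W ∈ 𝒲` -/
def NF (𝒲 : Set (Subgroup G → Subgroup G)) (H T : Subgroup G) : Set (Subgroup G) :=
  (fun W => H ⊓ Subgroup.normalizer ((W T : Subgroup G) : Set G)) '' 𝒲

/-- the family `𝒲` controls strong fusion in `H` with respect to `T` -/
def FCSF (𝒲 : Set (Subgroup G → Subgroup G)) (H T : Subgroup G) : Prop :=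
  ∀ A : Subgroup G, A ≤ T → ∀ h ∈ H, cj h A ≤ T → FRM (NF 𝒲 H T) T A h

variable {𝒲 : Set (Subgroup G → Subgroup G)}

theorem NF_mono {H H' : Subgroup G} (h : H ≤ H') (T : Subgroup G) :
    ∀ M ∈ NF 𝒲 H T, ∃ M' ∈ NF 𝒲 H' T, M ≤ M' := by
  rintro _ ⟨W, hW, rfl⟩
  exact ⟨_, ⟨W, hW, rfl⟩, inf_le_inf_right _ h⟩

theorem cj_NF (h𝒲 : ∀ W ∈ 𝒲, IsConjugacyFunctor p W) {H T : Subgroup G} (hT : IsPGroup p T) {k : G}
    (hk : k ∈ H) : ∀ M ∈ (cj k) '' NF 𝒲 H T, ∃ M' ∈ NF 𝒲 H (cj k T), M ≤ M' := by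
  rintro _ ⟨_, ⟨W, hW, rfl⟩, rfl⟩
  refine ⟨_, ⟨W, hW, rfl⟩, ?_⟩
  rw [cj_inf, cj_eq_of_mem hk, ← normalizer_cj, ← W_cj (h𝒲 W hW) hT]

theorem FCSF.conj (h𝒲 : ∀ W ∈ 𝒲, IsConjugacyFunctor p W) {H T : Subgroup G} (hT : IsPGroup p T)
    (h : FCSF 𝒲 H T) {k : G} (hk : k ∈ H) : FCSF 𝒲 H (cj k T) := by
  intro A hA g hg hgA
  have h1 : cj k⁻¹ A ≤ T := by rw [cj_le_iff, inv_inv]; exact hA
  have h2 : cj (k⁻¹ * g * k) (cj k⁻¹ A) ≤ T := by
    rw [← cj_mul]
    have e : k⁻¹ * g * k * k⁻¹ = k⁻¹ * g := by group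
    rw [e, cj_mul, cj_le_iff, inv_inv]
    exact hgA
  obtain ⟨y, hy, c, hc, e⟩ := h (cj k⁻¹ A) h1 (k⁻¹ * g * k) (H.mul_mem (H.mul_mem (H.inv_mem hk) hg) hk) h2
  have h3 := (hy.conj k).mono_family (cj_NF h𝒲 hT hk)
  rw [cj_cj_inv] at h3
  refine ⟨k * y * k⁻¹, h3, k * c * k⁻¹, ?_, ?_⟩
  · have := conj_mem_cj (g := k) hc
    rwa [← centralizer_cj, cj_cj_inv] at this
  · have : g = k * (k⁻¹ * g * k) * k⁻¹ := by group
    rw [this, e]; group

theorem exists_fin_chain {ℳ : Set (Subgroup G)} {T A : Subgroup G} (hA : A ≤ T) {y : G} (h : ChM ℳ T A y) :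
    ∃ (n : ℕ) (c : Fin (n + 1) → G), c 0 = 1 ∧ c (Fin.last n) = y ∧
      (∀ i : Fin n, ∃ M ∈ ℳ, c i.succ * (c i.castSucc)⁻¹ ∈ M) ∧ ∀ i : Fin (n + 1), cj (c i) A ≤ T := by
  induction h with
  | one => exact ⟨0, fun _ => 1, rfl, rfl, fun i => i.elim0, fun _ => by rwa [cj_one]⟩
  | @step y x M hM hy hx hT ih =>
    obtain ⟨n, c, h0, hl, hs, hin⟩ := ih
    refine ⟨n + 1, Fin.snoc (α := fun _ => G) c (x * y), ?_, ?_, ?_, ?_⟩
    · have : (0 : Fin (n + 1 + 1)) = Fin.castSucc (0 : Fin (n + 1)) := rfl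
      rw [this, Fin.snoc_castSucc, h0]
    · rw [Fin.snoc_last]
    · intro i
      induction i using Fin.lastCases with
      | last =>
        refine ⟨M, hM, ?_⟩
        rw [Fin.succ_last, Fin.snoc_last, Fin.snoc_castSucc, hl]
        simpa using hx
      | cast j =>
        obtain ⟨M', hM', hj⟩ := hs j
        refine ⟨M', hM', ?_⟩
        rw [Fin.succ_castSucc, Fin.snoc_castSucc, Fin.snoc_castSucc]
        exact hj
    · intro i
      induction i using Fin.lastCases with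
      | last => rw [Fin.snoc_last]; exact hT
      | cast j => rw [Fin.snoc_castSucc]; exact hin j

theorem chM_of_fin_chain {ℳ : Set (Subgroup G)} {T A : Subgroup G} {n : ℕ} (c : Fin (n + 1) → G)
    (h0 : c 0 = 1) (hs : ∀ i : Fin n, ∃ M ∈ ℳ, c i.succ * (c i.castSucc)⁻¹ ∈ M)
    (hin : ∀ i : Fin (n + 1), cj (c i) A ≤ T) : ∀ i : Fin (n + 1), ChM ℳ T A (c i) := by
  intro i
  induction i using Fin.induction with
  | zero => rw [h0]; exact ChM.one
  | succ i ih =>
    obtain ⟨M, hM, hi⟩ := hs i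
    have e : c i.succ = (c i.succ * (c i.castSucc)⁻¹) * c i.castSucc := by group
    rw [e]
    refine ChM.step M hM ih hi ?_
    rw [← e]
    exact hin i.succ

theorem familyControlsStrongFusionIn_iff [Finite G] [Fact p.Prime] (h𝒲 : ∀ W ∈ 𝒲, IsConjugacyFunctor p W)
    {H T : Subgroup G} (hT : IsSyl p T H) : FamilyControlsStrongFusionIn p 𝒲 H ↔ FCSF 𝒲 H T := by
  constructor
  · rintro ⟨T', h1, h2, h3, h4⟩
    obtain ⟨k, hk, e⟩ := hT.exists_conj_eq (T' := T') ⟨h1, h2, h3⟩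
    rw [← e]
    refine FCSF.conj h𝒲 h2 ?_ hk
    intro A hA h hh hhA
    obtain ⟨n, c, h0, hs, hin, hl⟩ := h4 (A : Set G) h hh hA (by
      rw [image_conj_subset_iff, Subgroup.closure_eq]; exact hhA)
    have hch := chM_of_fin_chain (ℳ := NF 𝒲 H T') (T := T') (A := A) c h0 (by
      intro i
      obtain ⟨W, hW, hi⟩ := hs i
      exact ⟨_, ⟨W, hW, rfl⟩, hi⟩) (by
      intro i
      have := hin i
      rwa [image_conj_subset_iff, Subgroup.closure_eq] at this) (Fin.last n)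
    refine ⟨_, hch, (c (Fin.last n))⁻¹ * h, ?_, by group⟩
    intro a ha
    exact conj_eq_conj_iff.1 (hl a ha)
  · intro h
    refine ⟨T, hT.1, hT.2.1, hT.2.2, ?_⟩
    intro A g hg hA hgA
    have hA' : Subgroup.closure A ≤ T := (Subgroup.closure_le _).2 hA
    obtain ⟨y, hy, c₀, hc₀, rfl⟩ := h (Subgroup.closure A) hA' g hg (image_conj_subset_iff.1 hgA)
    obtain ⟨n, c, h0, hl, hs, hin⟩ := exists_fin_chain hA' hy
    refine ⟨n, c, h0, ?_, ?_, ?_⟩
    · intro i
      obtain ⟨_, ⟨W, hW, rfl⟩, hi⟩ := hs i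
      exact ⟨W, hW, hi⟩
    · intro i
      exact image_conj_subset_iff.2 (hin i)
    · intro a ha
      rw [hl]
      apply conj_eq_conj_iff.2
      have : y⁻¹ * (y * c₀) = c₀ := by group
      rw [this]
      exact hc₀ a (Subgroup.subset_closure ha)

/-- local-to-global principle for control of strong fusion by a family of conjugacy functors; the
normal subgroups `U` are treated by a separate hypothesis -/
theorem fcsf_of_local [Finite G] [Fact p.Prime] (h𝒲 : ∀ W ∈ 𝒲, IsConjugacyFunctor p W) {S : Subgroup G}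
    (hS : IsSyl p S ⊤)
    (hloc : ∀ U : Subgroup G, U ≤ S → U ≠ ⊥ →
      IsSyl p (S ⊓ Subgroup.normalizer (U : Set G)) (Subgroup.normalizer (U : Set G)) →
      FCSF 𝒲 (Subgroup.normalizer (U : Set G)) (S ⊓ Subgroup.normalizer (U : Set G)) ∨
      (∀ A : Subgroup G, A ≤ S → ∀ x : G, cj x A ≤ S → FRM (NF 𝒲 ⊤ S) S A x)) :
    FCSF 𝒲 ⊤ S := by
  set ℳ := NF 𝒲 ⊤ S with hℳ
  have claim : ∀ U : Subgroup G,
      (∀ A : Subgroup G, A ≤ S → Nat.card U < Nat.card A → ∀ g : G, cj g A ≤ S → FRM ℳ S A g) →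
      ∀ V : Subgroup G, V ≤ S → V ≠ ⊥ →
      IsSyl p (S ⊓ Subgroup.normalizer (V : Set G)) (Subgroup.normalizer (V : Set G)) →
      Nat.card U ≤ Nat.card (S ⊓ Subgroup.normalizer (V : Set G) : Subgroup G) →
      ∀ A : Subgroup G, A ≤ S ⊓ Subgroup.normalizer (V : Set G) → ∀ x ∈ Subgroup.normalizer (V : Set G),
        cj x A ≤ S ⊓ Subgroup.normalizer (V : Set G) → FRM ℳ S A x := by
    intro U IH V
    induction' hn : (Nat.card S - Nat.card (S ⊓ Subgroup.normalizer (V : Set G) : Subgroup G))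
      using Nat.strong_induction_on with n ih generalizing V
    intro hVS hVne hVt hcard A hA x hx hxA
    set R := S ⊓ Subgroup.normalizer (V : Set G) with hR
    have hRp : IsPGroup p R := hS.2.1.to_le inf_le_left
    have hRS : R ≤ S := inf_le_left
    rcases hloc V hVS hVne hVt with hlocV | hlocV
    swap
    · exact hlocV A (hA.trans hRS) x (hxA.trans hRS)
    have h0 := hlocV A hA x hx hxA
    -- refine each step
    refine FRM.rel (R := fun B g => FRM ℳ S B g) (T := R) (fun _ _ _ hc => FRM.of_centralizer hc)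
      (fun _ _ _ _ _ _ h1 h2 => h1.trans h2) ?_ hA h0
    rintro _ ⟨W, hW, rfl⟩ B hB n hn' hnB
    change n ∈ Subgroup.normalizer (V : Set G) ⊓ Subgroup.normalizer ((W R : Subgroup G) : Set G) at hn'
    rcases eq_or_lt_of_le hRS with hRe | hRlt
    · rw [hRe] at hn' hnB
      exact FRM.of_mem (ℳ := ℳ) (M := ⊤ ⊓ Subgroup.normalizer ((W S : Subgroup G) : Set G)) ⟨W, hW, rfl⟩
        ⟨trivial, hn'.2⟩ hnB
    · have hWc := h𝒲 W hW
      have hVR : V ≤ R := le_inf hVS Subgroup.le_normalizer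
      have hRne : R ≠ ⊥ := fun h => hVne (le_bot_iff.1 (h ▸ hVR))
      have hgrow : R < S ⊓ Subgroup.normalizer (R : Set G) := lt_inf_normalizer hS.2.1 hRlt
      have hle2 : S ⊓ Subgroup.normalizer (R : Set G) ≤ S ⊓ Subgroup.normalizer ((W R : Subgroup G) : Set G) :=
        inf_le_inf_left _ (normalizer_le_normalizer_W hWc hRp)
      have hRA : R ≤ S ⊓ Subgroup.normalizer ((W R : Subgroup G) : Set G) := hgrow.le.trans hle2
      have hc1 : Nat.card R < Nat.card (S ⊓ Subgroup.normalizer ((W R : Subgroup G) : Set G) : Subgroup G) :=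
        lt_of_lt_of_le (card_lt_of_lt hgrow) (Subgroup.card_le_of_le hle2)
      have hV'S : W R ≤ S := (W_le hWc hRp).trans hRS
      obtain ⟨h, h1, h2, h3⟩ := exists_tame_conj' hS hV'S
      have hc2 : Nat.card (S ⊓ Subgroup.normalizer ((W R : Subgroup G) : Set G) : Subgroup G) ≤
          Nat.card (S ⊓ Subgroup.normalizer ((cj h (W R) : Subgroup G) : Set G) : Subgroup G) := by
        rw [← card_cj h]
        exact Subgroup.card_le_of_le h3
      have hc3 : Nat.card (S ⊓ Subgroup.normalizer ((cj h (W R) : Subgroup G) : Set G) : Subgroup G) ≤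
          Nat.card S := Subgroup.card_le_of_le inf_le_left
      have hrelh := IH _ inf_le_left (lt_of_le_of_lt hcard hc1) h (h3.trans inf_le_left)
      have e1 : FRM ℳ S B h := hrelh.mono (hB.trans hRA)
      have e2 : FRM ℳ S (cj n B) h := hrelh.mono (hnB.trans hRA)
      have hn'' : h * n * h⁻¹ ∈ Subgroup.normalizer ((cj h (W R) : Subgroup G) : Set G) := by
        rw [normalizer_cj]
        exact conj_mem_cj hn'.2
      have e5 : cj (h * n * h⁻¹) (cj h B) = cj h (cj n B) := by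
        rw [← cj_mul, ← cj_mul]
        congr 1
        group
      have e3 := ih _ (by omega) (cj h (W R)) rfl h1
        (fun hb => W_ne_bot hWc hRp hRne (cj_eq_bot_iff.1 hb)) h2 (by omega) (cj h B)
        ((cj_mono (hB.trans hRA)).trans h3) (h * n * h⁻¹) hn''
        (by rw [e5]; exact (cj_mono (hnB.trans hRA)).trans h3)
      have e4 := e2.symm ((hnB.trans hRS))
      have e6 := (e1.trans e3)
      rw [← e5, ← cj_mul] at e4
      have e7 := e6.trans e4
      have e8 : h⁻¹ * (h * n * h⁻¹ * h) = n := by group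
      rwa [e8] at e7
  intro A hA g _ hgA
  refine alperin_induction S hS (FRM ℳ S) (fun A g h _ _ _ h1 h2 => h1.trans h2)
    (fun A g hA _ h1 => h1.symm hA) (fun A B g _ _ hBA h1 => h1.mono hBA) Set.univ ?_ ?_ A hA g hgA
  · intro T hT
    obtain ⟨h, h1, h2, -⟩ := exists_tame_conj hS hT
    exact ⟨cj h T, trivial, h1, ⟨h, rfl⟩, h2⟩
  · intro U _ hUS hUt IH x hx
    by_cases hUne : U = ⊥
    · apply FRM.of_centralizer
      rw [hUne]
      intro u hu
      rw [SetLike.mem_coe, Subgroup.mem_bot] at hu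
      rw [hu]; simp
    · have hUR : U ≤ S ⊓ Subgroup.normalizer (U : Set G) := le_inf hUS Subgroup.le_normalizer
      exact claim U IH U hUS hUne hUt (Subgroup.card_le_of_le hUR) U hUR x hx
        (by rw [mem_normalizer_iff_cj.1 hx]; exact hUR)

end family


section types

open Cfsg.Agent.Lib.Helper39FamTransfer

universe u

variable {p : ℕ} {𝓦 : Set (∀ (Q : Type u) [Group Q], Subgroup Q)}

theorem mem_NF_ind {X : Type u} [Group X] {W : ∀ (Q : Type u) [Group Q], Subgroup Q} (hW : W ∈ 𝓦)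
    (H T : Subgroup X) :
    H ⊓ Subgroup.normalizer ((inducedFunctor W T : Subgroup X) : Set X) ∈ NF (Ind 𝓦 X) H T :=
  ⟨inducedFunctor W, ⟨W, hW, rfl⟩, rfl⟩

theorem fcsf_map_injective (h𝓦 : ∀ W ∈ 𝓦, IsCharPFunctor.{u} p W) {A B : Type u} [Group A] [Group B]
    [Finite A] (f : A →* B) (hf : Function.Injective f) {T : Subgroup A} (hT : IsPGroup p T)
    (h : FCSF (Ind 𝓦 A) ⊤ T) : FCSF (Ind 𝓦 B) f.range (T.map f) := by
  rintro A' hA' _ ⟨g, rfl⟩ hgA'
  have hAr : A' ≤ f.range := hA'.trans (by rw [MonoidHom.range_eq_map]; exact Subgroup.map_mono le_top)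
  have hmap : (A'.comap f).map f = A' := Subgroup.map_comap_eq_self hAr
  have h1 : A'.comap f ≤ T := by
    rw [← Subgroup.map_le_map_iff_of_injective hf, hmap]; exact hA'
  have h2 : cj g (A'.comap f) ≤ T := by
    rw [← Subgroup.map_le_map_iff_of_injective hf, map_cj, hmap]; exact hgA'
  obtain ⟨y, hy, c, hc, rfl⟩ := h _ h1 g trivial h2
  have h3 := (hy.map f).mono_family (ℳ' := NF (Ind 𝓦 B) f.range (T.map f)) (by
    rintro _ ⟨_, ⟨_, ⟨W, hW, rfl⟩, rfl⟩, rfl⟩
    refine ⟨_, mem_NF_ind hW _ _, ?_⟩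
    rw [ind_map (h𝓦 W hW) f T hT hf.injOn]
    refine le_inf ?_ ?_
    · rw [MonoidHom.range_eq_map]; exact Subgroup.map_mono le_top
    · exact (Subgroup.map_mono inf_le_right).trans (Subgroup.le_normalizer_map f))
  rw [hmap] at h3
  refine ⟨f y, h3, f c, ?_, map_mul f y c⟩
  intro a ha
  obtain ⟨a', ha', rfl⟩ := hmap ▸ ha
  rw [← map_mul, ← map_mul, hc a' ha']

theorem fcsf_equiv (h𝓦 : ∀ W ∈ 𝓦, IsCharPFunctor.{u} p W) {A B : Type u} [Group A] [Group B] [Finite A]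
    (e : A ≃* B) {T : Subgroup A} (hT : IsPGroup p T) (h : FCSF (Ind 𝓦 A) ⊤ T) :
    FCSF (Ind 𝓦 B) ⊤ (T.map e.toMonoidHom) := by
  have h1 := fcsf_map_injective h𝓦 e.toMonoidHom e.injective hT h
  rwa [MonoidHom.range_eq_top.2 e.surjective] at h1

theorem fcsf_sub (h𝓦 : ∀ W ∈ 𝓦, IsCharPFunctor.{u} p W) {X : Type u} [Group X] [Finite X]
    {H T : Subgroup X} (hTH : T ≤ H) (hT : IsPGroup p T) (h : FCSF (Ind 𝓦 H) ⊤ (T.subgroupOf H)) :
    FCSF (Ind 𝓦 X) H T := by
  have h1 := fcsf_map_injective h𝓦 H.subtype H.subtype_injective (T := T.subgroupOf H)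
    (hT.comap_of_injective H.subtype H.subtype_injective) h
  rwa [Subgroup.range_subtype, Subgroup.map_subgroupOf_eq_of_le hTH] at h1

theorem FCSF.top {X : Type u} [Group X] {H S : Subgroup X} (h : FCSF (Ind 𝓦 X) H S) :
    ∀ A : Subgroup X, A ≤ S → ∀ x ∈ H, cj x A ≤ S → FRM (NF (Ind 𝓦 X) ⊤ S) S A x :=
  fun A hA x hx hxA => (h A hA x hx hxA).mono_family (NF_mono le_top S)

theorem fcsf_of_quotient_pprime (h𝓦 : ∀ W ∈ 𝓦, IsCharPFunctor.{u} p W) {X : Type u} [Group X] [Finite X]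
    [Fact p.Prime] {S M : Subgroup X} (hS : IsSyl p S ⊤) [hM : M.Normal] (hMc : (Nat.card M).Coprime p)
    (h : FCSF (Ind 𝓦 (X ⧸ M)) ⊤ (S.map (QuotientGroup.mk' M))) : FCSF (Ind 𝓦 X) ⊤ S := by
  set π := QuotientGroup.mk' M with hπ
  have hSM : S ⊓ M = ⊥ := inf_eq_bot_of_pgroup_coprime hS.2.1 hMc
  have hinj : Set.InjOn π S := injOn_mk' hSM
  -- lifting one step
  have hstep : ∀ W ∈ 𝓦, ∀ B : Subgroup X, B ≤ S →
      ∀ xb ∈ Subgroup.normalizer ((inducedFunctor W (S.map π) : Subgroup (X ⧸ M)) : Set (X ⧸ M)),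
      cj xb (B.map π) ≤ S.map π →
      ∃ n ∈ Subgroup.normalizer ((inducedFunctor W S : Subgroup X) : Set X), π n = xb ∧ cj n B ≤ S := by
    intro W hW B hB xb hxb hxbB
    have hWW := h𝓦 W hW
    have hWmap : inducedFunctor W (S.map π) = (inducedFunctor W S).map π := ind_map hWW π S hS.2.1 hinj
    rw [hWmap] at hxb
    obtain ⟨x, hx, hxe⟩ := normalizer_map_le M hMc (inducedFunctor W S) (hS.2.1.to_le (ind_le S)) hxb
    have hxe : π x = xb := hxe
    have hx : x ∈ Subgroup.normalizer ((inducedFunctor W S : Subgroup X) : Set X) := hx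
    set N := Subgroup.normalizer ((inducedFunctor W S : Subgroup X) : Set X) with hN
    have hSN : S ≤ N := le_normalizer_W (isConjugacyFunctor_induced hWW) hS.2.1
    have hA1N : cj x B ≤ N := by
      have := cj_mono (g := x) (hB.trans hSN)
      rwa [cj_eq_of_mem hx] at this
    have hA1MS : cj x B ≤ S ⊔ M := by
      intro v hv
      have h1 : π v ∈ S.map π := by
        apply hxbB
        rw [← hxe, ← map_cj]
        exact ⟨v, hv, rfl⟩
      obtain ⟨s, hs, hse⟩ := h1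
      have hse : π s = π v := hse
      have h2 : s⁻¹ * v ∈ M := QuotientGroup.eq.1 hse
      have h3 : v = s * (s⁻¹ * v) := by group
      rw [h3]
      exact Subgroup.mul_mem _ (le_sup_left (a := S) (b := M) hs) (le_sup_right (a := S) (b := M) h2)
    obtain ⟨y, hy, hyS⟩ := (hS.of_le (le_inf hSN le_sup_left) le_top).exists_conj_le (le_inf hA1N hA1MS)
      (isPGroup_cj (hS.2.1.to_le hB))
    have hy2 : y ∈ S ⊔ M := hy.2
    rw [← SetLike.mem_coe, Subgroup.mul_normal] at hy2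
    obtain ⟨s, hs, n', hn', rfl⟩ := hy2
    have hn'S : cj n' (cj x B) ≤ S := by
      rw [cj_mul, cj_le_iff, cj_eq_of_mem (S.inv_mem hs)] at hyS
      exact hyS
    have hn'N : n' ∈ N := by
      have : n' = s⁻¹ * (s * n') := by group
      rw [this]
      exact N.mul_mem (N.inv_mem (hSN hs)) hy.1
    refine ⟨n' * x, N.mul_mem hn'N hx, ?_, by rw [cj_mul]; exact hn'S⟩
    have hn1 : π n' = 1 := (QuotientGroup.eq_one_iff n').2 hn'
    rw [map_mul, hn1, one_mul, hxe]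
  -- lifting chains
  have hlift : ∀ A : Subgroup X, A ≤ S → ∀ yb : X ⧸ M,
      ChM (NF (Ind 𝓦 (X ⧸ M)) ⊤ (S.map π)) (S.map π) (A.map π) yb →
      ∃ y, π y = yb ∧ ChM (NF (Ind 𝓦 X) ⊤ S) S A y := by
    intro A hA yb hyb
    induction hyb with
    | one => exact ⟨1, map_one π, ChM.one⟩
    | @step yb xb Mb hMb hy hx hT ih =>
      obtain ⟨y, rfl, hy'⟩ := ih
      obtain ⟨_, ⟨W, hW, rfl⟩, rfl⟩ := hMb
      obtain ⟨n, hn, rfl, hnB⟩ := hstep W hW (cj y A) (hy'.le hA) xb hx.2 (by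
        rw [map_cj, ← cj_mul]; exact hT)
      refine ⟨n * y, map_mul π n y, ChM.step _ (mem_NF_ind hW ⊤ S) hy' ⟨trivial, hn⟩ ?_⟩
      rw [cj_mul]; exact hnB
  intro A hA g _ hgA
  obtain ⟨yb, hyb, cb, hcb, e⟩ := h (A.map π) (Subgroup.map_mono hA) (π g) trivial (by
    rw [← map_cj]; exact Subgroup.map_mono hgA)
  obtain ⟨y, rfl, hy⟩ := hlift A hA yb hyb
  refine ⟨y, hy, y⁻¹ * g, ?_, by group⟩
  intro a ha
  apply conj_eq_conj_iff.1
  apply hinj
  · exact hy.le hA (conj_mem_cj ha)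
  · exact hgA (conj_mem_cj ha)
  · have hca : π a * cb = cb * π a := hcb (π a) ⟨a, ha, rfl⟩
    simp only [map_mul, map_inv, e]
    calc π y * π a * (π y)⁻¹ = π y * (π a * cb) * cb⁻¹ * (π y)⁻¹ := by group
      _ = π y * (cb * π a) * cb⁻¹ * (π y)⁻¹ := by rw [hca]
      _ = π y * cb * π a * (π y * cb)⁻¹ := by group

end types


section supTop

variable {p : ℕ}

/-- the case `X = C_X(Q) S`: a relation on `S` containing the preimages of the steps of a family controlling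
strong fusion in `S / Q` contains all fusion in `S` -/
theorem rel_of_sup_eq_top {X : Type*} [Group X] [Finite X] [Fact p.Prime]
    {S Q : Subgroup X} (hS : IsSyl p S ⊤) [hQn : Q.Normal] (hQS : Q ≤ S)
    (htop : Subgroup.centralizer (Q : Set X) ⊔ S = ⊤)
    (ℳb : Set (Subgroup (X ⧸ Q)))
    (hq : ∀ A : Subgroup (X ⧸ Q), A ≤ S.map (QuotientGroup.mk' Q) → ∀ g : X ⧸ Q,
      cj g A ≤ S.map (QuotientGroup.mk' Q) → FRM ℳb (S.map (QuotientGroup.mk' Q)) A g)
    (R : Subgroup X → X → Prop)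
    (hcent : ∀ B, B ≤ S → ∀ c ∈ Subgroup.centralizer (B : Set X), R B c)
    (htrans : ∀ B g h, B ≤ S → cj g B ≤ S → cj (h * g) B ≤ S → R B g → R (cj g B) h → R B (h * g))
    (hsymm : ∀ A g, A ≤ S → cj g A ≤ S → R A g → R (cj g A) g⁻¹)
    (hmono : ∀ A B g, A ≤ S → cj g A ≤ S → B ≤ A → R A g → R B g)
    (hSstep : ∀ B, B ≤ S → ∀ t ∈ S, R B t)
    (hstep : ∀ Mb ∈ ℳb, ∀ B, B ≤ S → ∀ x : X, QuotientGroup.mk' Q x ∈ Mb → cj x B ≤ S → R B x) :
    ∀ A : Subgroup X, A ≤ S → ∀ g : X, cj g A ≤ S → R A g := by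
  set π := QuotientGroup.mk' Q with hπ
  have hQp : IsPGroup p Q := hS.2.1.to_le hQS
  have hpre : ∀ Y : Subgroup X, Y.map π ≤ S.map π → Y ≤ S := by
    intro Y hY v hv
    obtain ⟨s, hs, hse⟩ := hY ⟨v, hv, rfl⟩
    have hse : π s = π v := hse
    have h2 : s⁻¹ * v ∈ Q := QuotientGroup.eq.1 hse
    have h3 : v = s * (s⁻¹ * v) := by group
    rw [h3]
    exact S.mul_mem hs (hQS h2)
  have hlift : ∀ U : Subgroup X, U ≤ S → ∀ yb : X ⧸ Q, ChM ℳb (S.map π) (U.map π) yb →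
      ∃ n, π n = yb ∧ cj n U ≤ S ∧ R U n := by
    intro U hU yb hyb
    induction hyb with
    | one => exact ⟨1, map_one π, by rwa [cj_one], hcent U hU 1 (one_mem _)⟩
    | @step yb xb Mb hMb hy hx hT ih =>
      obtain ⟨n₀, rfl, hn₀, hR₀⟩ := ih
      obtain ⟨x₁, rfl⟩ := QuotientGroup.mk'_surjective Q xb
      have h1 : cj (x₁ * n₀) U ≤ S := by
        apply hpre
        rw [map_cj, map_mul]
        exact hT
      refine ⟨x₁ * n₀, map_mul π x₁ n₀, h1, htrans U n₀ x₁ hU hn₀ h1 hR₀ ?_⟩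
      exact hstep Mb hMb _ hn₀ x₁ hx (by rw [← cj_mul]; exact h1)
  apply alperin_induction S hS R htrans hsymm hmono Set.univ
  · intro T hT
    obtain ⟨h, h1, h2, -⟩ := exists_tame_conj hS hT
    exact ⟨cj h T, trivial, h1, ⟨h, rfl⟩, h2⟩
  · intro U _ hUS hUsyl IH x hx
    by_cases hQU : Q ≤ U
    · -- main case
      have hxU : cj x U = U := mem_normalizer_iff_cj.1 hx
      obtain ⟨nb, hnb, zb, hzb, e⟩ := hq (U.map π) (Subgroup.map_mono hUS) (π x) (by
        rw [← map_cj, hxU]; exact Subgroup.map_mono hUS)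
      obtain ⟨n, hne, hnU, hRn⟩ := hlift U hUS nb hnb
      rw [← hne] at e
      set D := (Subgroup.centralizer ((U.map π : Subgroup (X ⧸ Q)) : Set (X ⧸ Q))).comap π with hD
      have hzD : n⁻¹ * x ∈ D := by
        rw [hD, Subgroup.mem_comap, map_mul, map_inv, e, inv_mul_cancel_left]
        exact hzb
      have hDact : ∀ d ∈ D, ∀ u ∈ U, u⁻¹ * (d * u * d⁻¹) ∈ Q := by
        intro d hd u hu
        have h1 : π u * π d = π d * π u := hd (π u) ⟨u, hu, rfl⟩
        rw [← QuotientGroup.ker_mk' Q, MonoidHom.mem_ker, ← hπ]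
        simp only [map_mul, map_inv]
        rw [← h1]; group
      have hDN : D ≤ Subgroup.normalizer (U : Set X) := by
        intro d hd
        rw [mem_normalizer_iff_cj]
        apply cj_eq_of_le_of_finite
        rintro _ ⟨u, hu, rfl⟩
        have h1 := hQU (hDact d hd u hu)
        have h2 : d * u * d⁻¹ = u * (u⁻¹ * (d * u * d⁻¹)) := by group
        show d * u * d⁻¹ ∈ U
        rw [h2]
        exact U.mul_mem hu h1
      have hND : Subgroup.normalizer (U : Set X) ≤ Subgroup.normalizer (D : Set X) := by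
        intro k hk
        rw [mem_normalizer_iff_cj]
        apply cj_eq_of_le_of_finite
        rintro _ ⟨d, hd, rfl⟩
        show k * d * k⁻¹ ∈ D
        rw [hD, Subgroup.mem_comap]
        have h1 : π k ∈ Subgroup.normalizer ((U.map π : Subgroup (X ⧸ Q)) : Set (X ⧸ Q)) := by
          rw [mem_normalizer_iff_cj, ← map_cj, mem_normalizer_iff_cj.1 hk]
        have h2 := Cfsg.Agent.Lib.Helper39KInfCent.normalizer_le_normalizer_centralizer _ h1
        have h3 := (Subgroup.mem_normalizer_iff.1 h2 (π d)).1 hd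
        simpa using h3
      have hDC : D ≤ Subgroup.normalizer ((Subgroup.centralizer (U : Set X) : Subgroup X) : Set X) :=
        hDN.trans (Cfsg.Agent.Lib.Helper39KInfCent.normalizer_le_normalizer_centralizer U)
      have hpow : ∀ d ∈ D, ∃ k : ℕ, d ^ (p ^ k) ∈ Subgroup.centralizer (U : Set X) := by
        intro d hd
        obtain ⟨k, hk⟩ := exists_pow_coprime (p := p) d
        refine ⟨k, ?_⟩
        set z := d ^ (p ^ k) with hz
        have hzD' : z ∈ D := D.pow_mem hd _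
        have hzC : z ∈ Subgroup.centralizer (Q : Set X) :=
          mem_of_coprime_of_sup_eq_top inferInstance hS.2.1 htop hk
        have hcop : (Nat.card (Subgroup.zpowers z)).Coprime (Nat.card Q) := by
          rw [Nat.card_zpowers]
          obtain ⟨j, hj⟩ := hQp.exists_card_eq
          rw [hj]
          exact Nat.Coprime.pow_right j hk
        have hzp : Subgroup.zpowers z ≤ D ⊓ Subgroup.centralizer (Q : Set X) := by
          rw [Subgroup.zpowers_le]; exact ⟨hzD', hzC⟩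
        have h1 := Cfsg.Agent.Lib.Helper30Coprime.centralizes_of_chain (A := Subgroup.zpowers z) (P := U) (N := Q)
          hcop (fun a ha n hn => by
            have := (hzp ha).2 n hn
            rw [← this]; group)
          (fun a ha u hu => hDact a (hzp ha).1 u hu) z (Subgroup.mem_zpowers z)
        intro u hu
        have h2 := h1 u hu
        calc u * z = (z * u * z⁻¹) * z := by rw [h2]
          _ = z * u := by group
      obtain ⟨t, ht, c, hc, e2⟩ := exists_mul_of_pgroup_quotient hUsyl hDN hND hDC hpow _ hzD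
      have ec : cj c U = U := cj_eq_of_mem_centralizer hc
      have et : cj t U = U := mem_normalizer_iff_cj.1 ht.1.2
      have etc : cj (t * c) U = U := by rw [cj_mul, ec, et]
      have h1 : R U (t * c) := htrans U c t hUS (by rw [ec]; exact hUS) (by rw [etc]; exact hUS)
        (hcent U hUS c hc) (by rw [ec]; exact hSstep U hUS t ht.1.1)
      have h2 : R U (n * (t * c)) := htrans U (t * c) n hUS (by rw [etc]; exact hUS)
        (by rw [cj_mul, etc]; exact hnU) h1 (by rw [etc]; exact hRn)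
      have e3 : x = n * (t * c) := by rw [← e2]; group
      rw [e3]
      exact h2
    · -- enlarge `U`
      have hlt : U < U ⊔ Q := lt_of_le_of_ne le_sup_left (fun h => hQU (h ▸ le_sup_right))
      have hle : U ⊔ Q ≤ S := sup_le hUS hQS
      have hx2 : cj x (U ⊔ Q) = U ⊔ Q := by
        rw [cj_sup, mem_normalizer_iff_cj.1 hx, cj_of_normal hQn]
      exact hmono (U ⊔ Q) U x hle (by rw [hx2]; exact hle) le_sup_left
        (IH (U ⊔ Q) hle (card_lt_of_lt hlt) x (by rw [hx2]; exact hle))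

end supTop

section step

open Cfsg.Agent.Lib.Helper39FamTransfer

universe u

variable {p : ℕ} {𝓦 : Set (∀ (Q : Type u) [Group Q], Subgroup Q)}

theorem fcsf_step (h𝓦 : ∀ W ∈ 𝓦, IsCharPFunctor.{u} p W) {X : Type u} [Group X] [Finite X] [Fact p.Prime]
    (IHsub : ∀ H : Subgroup X, H ≠ ⊤ → ∀ T, IsSyl p T H → FCSF (Ind 𝓦 X) H T)
    (IHquot : ∀ (M : Subgroup X) [M.Normal], M ≠ ⊥ → ∀ T : Subgroup (X ⧸ M), IsSyl p T ⊤ →
      FCSF (Ind 𝓦 (X ⧸ M)) ⊤ T)
    {S : Subgroup X} (hS : IsSyl p S ⊤)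
    (hloc : Subgroup.centralizer ((pCore p X : Subgroup X) : Set X) ≤ pCore p X → FCSF (Ind 𝓦 X) ⊤ S) :
    FCSF (Ind 𝓦 X) ⊤ S := by
  by_cases h1 : pPrimeCore p X = ⊥
  swap
  · have : (pPrimeCore p X).Normal := Cfsg.Agent.Lib.Helper40Cores.pPrimeCore_normal
    exact fcsf_of_quotient_pprime h𝓦 hS Cfsg.Agent.Lib.Helper40Cores.pPrimeCore_coprime
      (IHquot _ h1 _ (isSyl_map_surjective hS _ (QuotientGroup.mk'_surjective _)))
  have hnormal_le : ∀ T : Subgroup X, IsPGroup p T → Subgroup.normalizer (T : Set X) = ⊤ → T ≤ pCore p X :=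
    fun T hT htop => le_pCore (Subgroup.normalizer_eq_top_iff.1 htop) hT
  by_cases h2 : pCore p X = ⊥
  · apply fcsf_of_local (ind_conj h𝓦 X) hS
    intro U hUS hUne hUt
    left
    apply IHsub _ ?_ _ hUt
    intro htop
    apply hUne
    have := hnormal_le U (hS.2.1.to_le hUS) htop
    rw [h2] at this
    exact le_bot_iff.1 this
  by_cases h3 : Subgroup.centralizer ((pCore p X : Subgroup X) : Set X) ≤ pCore p X
  · exact hloc h3
  have hQn : (pCore p X).Normal := Cfsg.Agent.Lib.Helper39Core.pCore_normal p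
  have hS0 := not_le_of_not_constrained hS h1 h3
  have hST : S ≠ ⊤ := by
    intro htop
    apply h3
    have : (⊤ : Subgroup X) ≤ pCore p X := hnormal_le ⊤ (htop ▸ hS.2.1)
      (Subgroup.normalizer_eq_top_iff.2 inferInstance)
    exact le_top.trans this
  have hSS := (IHsub S hST S ⟨le_rfl, hS.2.1, by
    rw [Subgroup.relIndex_self]; exact (Fact.out : p.Prime).one_lt.ne' ∘ Nat.dvd_one.1⟩).top
  set Q := pCore p X with hQ
  set C := Subgroup.centralizer (Q : Set X) with hC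
  have hCn : C.Normal := inferInstance
  have hDn : (Q ⊔ C).Normal := inferInstance
  have hQS : Q ≤ S := hS.normal_le le_top (pCore_isPGroup p) (top_le_normalizer hQn)
  set S0 := S ⊓ (Q ⊔ C) with hS0def
  have hG1 : Subgroup.normalizer (S0 : Set X) ≠ ⊤ :=
    fun htop => hS0 (hnormal_le S0 (hS.2.1.to_le inf_le_left) htop)
  have hSG1 : S ≤ Subgroup.normalizer (S0 : Set X) := by
    intro s hs
    rw [mem_normalizer_iff_cj, hS0def, cj_inf, cj_eq_of_mem hs, cj_of_normal hDn]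
  have hcsf1 := (IHsub _ hG1 S (hS.of_le hSG1 le_top)).top
  by_cases h4 : C ⊔ S = ⊤
  swap
  · have hcsf2 := (IHsub _ h4 S (hS.of_le le_sup_right le_top)).top
    intro A hA h _ hhA
    obtain ⟨e, he, n, hn, rfl, hnA⟩ := exists_factor hS hDn hA hhA
    have heCS : e ∈ C ⊔ S := (sup_le (hQS.trans le_sup_right) le_sup_left : Q ⊔ C ≤ C ⊔ S) he
    exact (hcsf1 A hA n hn hnA).trans (hcsf2 (cj n A) hnA e heCS (by rw [← cj_mul]; exact hhA))
  · have hSQ : ¬ S ≤ Q := fun h => hS0 (inf_le_left.trans h)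
    have hcsfQ := IHquot Q h2 _ (isSyl_map_surjective hS _ (QuotientGroup.mk'_surjective Q))
    intro A hA g _ hgA
    refine rel_of_sup_eq_top hS hQS h4 _ (fun A hA g hgA => hcsfQ A hA g trivial hgA)
      (FRM (NF (Ind 𝓦 X) ⊤ S) S) (fun _ _ _ hc => FRM.of_centralizer hc)
      (fun _ _ _ _ _ _ h1 h2 => h1.trans h2) (fun _ _ hA _ h1 => h1.symm hA)
      (fun _ _ _ _ _ hBA h1 => h1.mono hBA) ?_ ?_ A hA g hgA
    · intro B hB t ht
      apply hSS B hB t ht
      have := cj_mono (g := t) hB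
      rwa [cj_eq_of_mem ht] at this
    · rintro _ ⟨_, ⟨W, hW, rfl⟩, rfl⟩ B hB x hx hxB
      have hWW := h𝓦 W hW
      have hM := preimage_normalizer_ne_top hWW hS hSQ
      have hSM := le_preimage_normalizer (N := Q) hWW hS.2.1
      exact (IHsub _ hM S (hS.of_le hSM le_top)).top B hB x hx.2 hxB

/-- abstract form of the reduction of control of strong fusion by a family to constrained sections -/
theorem fcsf_all (h𝓦 : ∀ W ∈ 𝓦, IsCharPFunctor.{u} p W) [Fact p.Prime]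
    (𝒮 : ∀ (X : Type u) [Group X], Prop)
    (hSsub : ∀ (X : Type u) [Group X] [Finite X] (Y : Subgroup X), 𝒮 X → 𝒮 Y)
    (hSquot : ∀ (X : Type u) [Group X] [Finite X] (N : Subgroup X) [N.Normal], 𝒮 X → 𝒮 (X ⧸ N))
    (hloc : ∀ (X : Type u) [Group X] [Finite X], 𝒮 X →
      Subgroup.centralizer ((pCore p X : Subgroup X) : Set X) ≤ pCore p X →
      (∀ H : Subgroup X, H ≠ ⊤ → ∀ T, IsSyl p T H → FCSF (Ind 𝓦 X) H T) →
      ∀ S : Subgroup X, IsSyl p S ⊤ → FCSF (Ind 𝓦 X) ⊤ S) :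
    ∀ (n : ℕ) (X : Type u) [Group X] [Finite X], Nat.card X = n → 𝒮 X →
      ∀ S : Subgroup X, IsSyl p S ⊤ → FCSF (Ind 𝓦 X) ⊤ S := by
  intro n
  induction n using Nat.strong_induction_on with
  | _ n ih =>
  intro X _ _ hn hX S hS
  have IHsub : ∀ H : Subgroup X, H ≠ ⊤ → ∀ T, IsSyl p T H → FCSF (Ind 𝓦 X) H T := by
    intro H hH T hT
    apply fcsf_sub h𝓦 hT.1 hT.2.1
    apply ih (Nat.card H) _ H rfl (hSsub X H hX) _ (isSyl_subgroupOf hT)
    rw [← hn, ← Subgroup.card_top (G := X)]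
    exact card_lt_of_lt (lt_top_iff_ne_top.2 hH)
  apply fcsf_step h𝓦 IHsub _ hS (fun hc => hloc X hX hc IHsub S hS)
  · intro M _ hM T hT
    apply ih (Nat.card (X ⧸ M)) _ (X ⧸ M) rfl (hSquot X M hX) T hT
    rw [← hn, ← M.card_mul_index, ← Subgroup.index_eq_card]
    have h1 : 1 < Nat.card M := by
      rw [Subgroup.one_lt_card_iff_ne_bot]; exact hM
    have h2 : 0 < M.index := Nat.pos_of_ne_zero M.index_ne_zero_of_finite
    nlinarith

end step


section factorization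

open Cfsg.Agent.Lib.Helper39FamTransfer

universe u

variable {p : ℕ} {𝓦 : Set (∀ (Q : Type u) [Group Q], Subgroup Q)}

theorem fcsf_of_factorization (h𝓦 : ∀ W ∈ 𝓦, IsCharPFunctor.{u} p W)
    {W₁ W₂ : ∀ (Q : Type u) [Group Q], Subgroup Q} (h1 : W₁ ∈ 𝓦) (h2 : W₂ ∈ 𝓦)
    {X : Type u} [Group X] [Finite X] [Fact p.Prime] {S : Subgroup X} (hS : IsSyl p S ⊤)
    (hfac : ∀ x : X, ∃ a ∈ Subgroup.normalizer ((inducedFunctor W₁ S : Subgroup X) : Set X),
      ∃ b ∈ Subgroup.normalizer ((inducedFunctor W₂ S : Subgroup X) : Set X), x = a * b) :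
    FCSF (Ind 𝓦 X) ⊤ S := by
  intro A hA h _ hhA
  obtain ⟨a, ha, b, hb, rfl⟩ := hfac h
  set N₁ := Subgroup.normalizer ((inducedFunctor W₁ S : Subgroup X) : Set X) with hN₁
  set N₂ := Subgroup.normalizer ((inducedFunctor W₂ S : Subgroup X) : Set X) with hN₂
  have hSN₁ : S ≤ N₁ := le_normalizer_W (isConjugacyFunctor_induced (h𝓦 W₁ h1)) hS.2.1
  have hSN₂ : S ≤ N₂ := le_normalizer_W (isConjugacyFunctor_induced (h𝓦 W₂ h2)) hS.2.1
  have hb2 : cj b A ≤ N₂ := cj_le_of_mem hb (hA.trans hSN₂)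
  have hb1 : cj b A ≤ N₁ := by
    have e : cj b A = cj a⁻¹ (cj (a * b) A) := by rw [cj_mul, cj_inv_cj]
    rw [e]
    exact cj_le_of_mem (N₁.inv_mem ha) (hhA.trans hSN₁)
  obtain ⟨d, hd, hdS⟩ := (hS.of_le (le_inf hSN₁ hSN₂) le_top).exists_conj_le (le_inf hb1 hb2)
    (isPGroup_cj (hS.2.1.to_le hA))
  rw [← cj_mul] at hdS
  have e1 : FRM (NF (Ind 𝓦 X) ⊤ S) S A (d * b) :=
    FRM.of_mem (mem_NF_ind h2 ⊤ S) ⟨trivial, N₂.mul_mem hd.2 hb⟩ hdS
  have e3 : a * d⁻¹ * (d * b) = a * b := by group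
  have e2 : FRM (NF (Ind 𝓦 X) ⊤ S) S (cj (d * b) A) (a * d⁻¹) :=
    FRM.of_mem (mem_NF_ind h1 ⊤ S) ⟨trivial, N₁.mul_mem ha (N₁.inv_mem hd.1)⟩ (by
      rw [← cj_mul, e3]; exact hhA)
  have := e1.trans e2
  rwa [e3] at this

end factorization

end Cfsg.Agent.Lib.Helper39FamFusion
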