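import Mathlib

set_option autoImplicit false

namespace Cfsg.Agent.Lib.Helper39Support

open Subgroup

/-- counting the class support of a subset `A` of an abelian subgroup `Z` such that
`g d g⁻¹ ∈ Z` forces `g ∈ Z` for `d ∈ A`. -/
theorem class_support_count {X : Type*} [Group X] [Finite X] (Z : Subgroup X) (A : Set X)
    (hA : A ⊆ Z) (hab : ∀ a ∈ Z, ∀ b ∈ Z, a * b = b * a)
    (hTI : ∀ d ∈ A, ∀ g : X, g * d * g⁻¹ ∈ Z → g ∈ Z) :
    Nat.card X * A.ncard =
      Set.ncard {a : X | ∃ g : X, ∃ z ∈ A, a = g * z * g⁻¹} * Nat.card Z := by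
  classical
  have := Fintype.ofFinite X
  set cs : Set X := {a : X | ∃ g : X, ∃ z ∈ A, a = g * z * g⁻¹} with hcs
  have h := Finset.card_mul_eq_card_mul (s := (Finset.univ : Finset X)) (t := cs.toFinset)
    (fun g a => g⁻¹ * a * g ∈ A) (m := A.ncard) (n := Nat.card Z) ?_ ?_
  · rw [Finset.card_univ, ← Nat.card_eq_fintype_card, ← Set.ncard_eq_toFinset_card'] at h
    exact h
  · intro g _
    rw [← Set.ncard_coe_finset]
    have e : ((Finset.bipartiteAbove (fun g a => g⁻¹ * a * g ∈ A) cs.toFinset g : Finset X) : Set X)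
        = (fun z => g * z * g⁻¹) '' A := by
      ext a
      simp only [Finset.bipartiteAbove, Finset.coe_filter, Set.mem_toFinset, Set.mem_ofPred_eq,
        Set.mem_image]
      constructor
      · rintro ⟨_, h2⟩
        exact ⟨_, h2, by group⟩
      · rintro ⟨z, hz, rfl⟩
        refine ⟨⟨g, z, hz, rfl⟩, ?_⟩
        have : g⁻¹ * (g * z * g⁻¹) * g = z := by group
        rwa [this]
    rw [e]
    apply Set.ncard_image_of_injective
    intro a b hab'
    simpa using hab'
  · intro a ha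
    rw [Set.mem_toFinset] at ha
    obtain ⟨g0, z, hz, rfl⟩ := ha
    rw [← Set.ncard_coe_finset]
    have e : ((Finset.bipartiteBelow (fun g a => g⁻¹ * a * g ∈ A) Finset.univ (g0 * z * g0⁻¹) :
        Finset X) : Set X) = (fun c => g0 * c) '' (Z : Set X) := by
      ext g
      simp only [Finset.bipartiteBelow, Finset.coe_filter, Finset.mem_univ, true_and,
        Set.mem_ofPred_eq, Set.mem_image, SetLike.mem_coe]
      constructor
      · intro h2
        have h3 : (g⁻¹ * g0) * z * (g⁻¹ * g0)⁻¹ ∈ Z := by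
          have : (g⁻¹ * g0) * z * (g⁻¹ * g0)⁻¹ = g⁻¹ * (g0 * z * g0⁻¹) * g := by group
          rw [this]; exact hA h2
        have h4 := hTI z hz _ h3
        refine ⟨(g⁻¹ * g0)⁻¹, Z.inv_mem h4, by group⟩
      · rintro ⟨c, hc, rfl⟩
        have : (g0 * c)⁻¹ * (g0 * z * g0⁻¹) * (g0 * c) = c⁻¹ * (z * c) := by group
        rw [this, hab z (hA hz) c hc]
        have : c⁻¹ * (c * z) = z := by group
        rwa [this]
    rw [e, Set.ncard_image_of_injective _ (mul_right_injective g0)]
    exact (Nat.card_coe_set_eq (Z : Set X)).symm ▸ rfl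

theorem mem_zpowers_of_coprime {X : Type*} [Group X] {x y : X} (hc : Commute x y)
    (hcop : (orderOf x).Coprime (orderOf y)) : x ∈ zpowers (x * y) ∧ y ∈ zpowers (x * y) := by
  constructor
  · obtain ⟨n, hn1, hn2⟩ := Nat.chineseRemainder hcop 1 0
    have h1 : x ^ n = x := by
      have := (pow_eq_pow_iff_modEq (x := x) (n := n) (m := 1)).mpr hn1
      simpa using this
    have h2 : y ^ n = 1 := by
      have := (pow_eq_pow_iff_modEq (x := y) (n := n) (m := 0)).mpr hn2
      simpa using this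
    have : (x * y) ^ n = x := by rw [hc.mul_pow, h1, h2, mul_one]
    have h3 := npow_mem_zpowers (x * y) n
    rwa [this] at h3
  · obtain ⟨n, hn1, hn2⟩ := Nat.chineseRemainder hcop 0 1
    have h1 : x ^ n = 1 := by
      have := (pow_eq_pow_iff_modEq (x := x) (n := n) (m := 0)).mpr hn1
      simpa using this
    have h2 : y ^ n = y := by
      have := (pow_eq_pow_iff_modEq (x := y) (n := n) (m := 1)).mpr hn2
      simpa using this
    have : (x * y) ^ n = y := by rw [hc.mul_pow, h1, h2, one_mul]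
    have h3 := npow_mem_zpowers (x * y) n
    rwa [this] at h3

theorem exists_prime_sub {X : Type*} [Group X] [Finite X] {K : Subgroup X} (hK : K ≠ ⊥) :
    ∃ Y : Subgroup X, Y ≤ K ∧ (Nat.card Y).Prime := by
  have h1 : Nat.card K ≠ 1 := by
    intro h
    exact hK (card_eq_one.mp h)
  obtain ⟨p, hp, hdvd⟩ := Nat.exists_prime_and_dvd h1
  have : Fact p.Prime := ⟨hp⟩
  obtain ⟨x, hx⟩ := exists_prime_orderOf_dvd_card' (G := K) p hdvd
  refine ⟨zpowers (x : X), ?_, ?_⟩
  · rw [zpowers_le]; exact x.2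
  · rw [Nat.card_zpowers, orderOf_coe, hx]; exact hp

theorem exists_prime_sub_zpowers {X : Type*} [Group X] [Finite X] {x : X} (hx : x ≠ 1) :
    ∃ Y : Subgroup X, Y ≤ zpowers x ∧ (Nat.card Y).Prime := by
  apply exists_prime_sub
  intro h
  exact hx (zpowers_eq_bot.mp h)

/-- arithmetic: for coprime odd `a, b ≥ 3`, `a b < 2 (a-1)(b-1)`. -/
theorem arith {a b : ℕ} (ha : Odd a) (hb : Odd b) (ha1 : a ≠ 1) (hb1 : b ≠ 1) (hc : a.Coprime b) :
    a * b < 2 * (a * b - a - b + 1) := by
  obtain ⟨i, rfl⟩ := ha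
  obtain ⟨j, rfl⟩ := hb
  have hi : 1 ≤ i := by omega
  have hj : 1 ≤ j := by omega
  have hij : i ≠ j := by
    rintro rfl
    rw [Nat.coprime_self] at hc
    omega
  have e : (2 * i + 1) * (2 * j + 1) - (2 * i + 1) - (2 * j + 1) + 1 = 4 * i * j := by
    have : (2 * i + 1) * (2 * j + 1) = 4 * i * j + 2 * i + 2 * j + 1 := by ring
    have hw : 1 ≤ 4 * i * j := by nlinarith [Nat.mul_le_mul hi hj]
    rw [this]
    generalize 4 * i * j = w at hw ⊢
    omega
  rw [e]
  have h2 : 2 ≤ i ∨ 2 ≤ j := by omega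
  have : (2 * i + 1) * (2 * j + 1) = 4 * i * j + 2 * i + 2 * j + 1 := by ring
  rw [this]
  rcases h2 with h2 | h2
  · nlinarith
  · nlinarith

end Cfsg.Agent.Lib.Helper39Support
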