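import Mathlib
import Cfsg.Agent.Lib.Helper39FamFusion

set_option autoImplicit false

/-! Triple factorizations in constrained sections: the normal closures of `Ω₁ Z(S)` in `N(W₁ S)` and
`N(W₂ S)` coincide. -/

namespace Cfsg.Agent.Lib.Helper39Triple

open Cfsg Cfsg.Agent.Lib.Helper39Sylow Cfsg.Agent.Lib.Helper39Control
  Cfsg.Agent.Lib.Helper24Functor Cfsg.Agent.Lib.Helper39Rel Cfsg.Agent.Lib.Helper39Core
  Cfsg.Agent.Lib.Helper39WellPlaced Cfsg.Agent.Lib.Helper39KInfFunctor Cfsg.Agent.Lib.Helper39Section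
  Cfsg.Agent.Lib.Helper39Fusion Cfsg.Agent.Lib.Helper39SecFusion Cfsg.Agent.Lib.Helper39SecTransport
  Cfsg.Agent.Lib.Helper39FamFusion

section closure

variable {X Y : Type*} [Group X] [Group Y]

/-- `Ω₁ Z(S)` -/
def OZ (p : ℕ) (S : Subgroup X) : Subgroup X := omegaOne p (S ⊓ Subgroup.centralizer (S : Set X))

/-- the join of the conjugates of `Z` under the elements of `M` -/
def CL (M Z : Subgroup X) : Subgroup X := ⨆ n ∈ M, cj n Z

theorem cj_le_CL {M Z : Subgroup X} {n : X} (hn : n ∈ M) : cj n Z ≤ CL M Z :=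
  le_iSup₂ (f := fun (n : X) (_ : n ∈ M) => cj n Z) n hn

theorem CL_le {M Z B : Subgroup X} (h : ∀ n ∈ M, cj n Z ≤ B) : CL M Z ≤ B := iSup₂_le h

theorem le_CL (M Z : Subgroup X) : Z ≤ CL M Z := by
  have := cj_le_CL (Z := Z) M.one_mem
  rwa [cj_one] at this

theorem CL_mono {M M' : Subgroup X} (h : M ≤ M') (Z : Subgroup X) : CL M Z ≤ CL M' Z :=
  CL_le fun _ hn => cj_le_CL (h hn)

theorem cj_CL_le {M Z : Subgroup X} {m : X} (hm : m ∈ M) : cj m (CL M Z) ≤ CL M Z := by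
  rw [cj_le_iff]
  apply CL_le
  intro n hn
  rw [← cj_le_iff, ← cj_mul]
  exact cj_le_CL (M.mul_mem hm hn)

theorem cj_CL {M Z : Subgroup X} {m : X} (hm : m ∈ M) : cj m (CL M Z) = CL M Z := by
  apply le_antisymm (cj_CL_le hm)
  have := cj_CL_le (Z := Z) (M.inv_mem hm)
  rwa [cj_le_iff, inv_inv] at this

theorem le_normalizer_CL (M Z : Subgroup X) : M ≤ Subgroup.normalizer ((CL M Z : Subgroup X) : Set X) :=
  fun _ hm => mem_normalizer_iff_cj.2 (cj_CL hm)

theorem map_CL (f : X →* Y) (M Z : Subgroup X) : (CL M Z).map f = CL (M.map f) (Z.map f) := by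
  apply le_antisymm
  · rw [Subgroup.map_le_iff_le_comap]
    apply CL_le
    intro n hn
    rw [← Subgroup.map_le_iff_le_comap, map_cj]
    exact cj_le_CL ⟨n, hn, rfl⟩
  · apply CL_le
    rintro _ ⟨n, hn, rfl⟩
    rw [← map_cj]
    exact Subgroup.map_mono (cj_le_CL hn)

theorem map_OZ (p : ℕ) (f : X →* Y) (S : Subgroup X) (hinj : Set.InjOn f S) :
    (OZ p S).map f = OZ p (S.map f) := by
  unfold OZ omegaOne
  rw [MonoidHom.map_closure]
  congr 1
  ext y
  constructor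
  · rintro ⟨x, ⟨⟨hxS, hxC⟩, hxp⟩, rfl⟩
    refine ⟨⟨⟨x, hxS, rfl⟩, ?_⟩, by rw [← map_pow, hxp, map_one]⟩
    rintro _ ⟨s, hs, rfl⟩
    rw [← map_mul, ← map_mul, hxC s hs]
  · rintro ⟨⟨⟨x, hxS, rfl⟩, hxC⟩, hxp⟩
    refine ⟨x, ⟨⟨hxS, ?_⟩, ?_⟩, rfl⟩
    · intro s hs
      apply hinj (S.mul_mem hs hxS) (S.mul_mem hxS hs)
      rw [map_mul, map_mul]
      exact hxC (f s) ⟨s, hs, rfl⟩
    · apply hinj (S.pow_mem hxS p) S.one_mem
      rw [map_pow, hxp, map_one]

theorem OZ_le (p : ℕ) (S : Subgroup X) : OZ p S ≤ S ⊓ Subgroup.centralizer (S : Set X) := by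
  unfold OZ omegaOne
  rw [Subgroup.closure_le]
  exact fun x hx => hx.1

end closure

section main

universe u

variable {p : ℕ}

/-- the normal closure of `Ω₁ Z(S)` in `N_H(W(S))` -/
def AC (p : ℕ) (W : ∀ (Q : Type u) [Group Q], Subgroup Q) {X : Type u} [Group X] (H S : Subgroup X) :
    Subgroup X :=
  CL (H ⊓ Subgroup.normalizer ((inducedFunctor W S : Subgroup X) : Set X)) (OZ p S)

variable {W W' W₁ W₂ : ∀ (Q : Type u) [Group Q], Subgroup Q}

theorem cj_le_ind {X : Type u} [Group X] {S : Subgroup X} (hZ : OZ p S ≤ inducedFunctor W S) {n : X}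
    (hn : n ∈ Subgroup.normalizer ((inducedFunctor W S : Subgroup X) : Set X)) :
    cj n (OZ p S) ≤ inducedFunctor W S := by
  have := cj_mono (g := n) hZ
  rwa [mem_normalizer_iff_cj.1 hn] at this

theorem AC_le_ind {X : Type u} [Group X] {H S : Subgroup X} (hZ : OZ p S ≤ inducedFunctor W S) :
    AC p W H S ≤ inducedFunctor W S :=
  CL_le fun _ hn => cj_le_ind hZ hn.2

theorem AC_sub (hW : IsCharPFunctor.{u} p W) {X : Type u} [Group X] [Finite X] {H S : Subgroup X}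
    (hSH : S ≤ H) (hS : IsPGroup p S) :
    (AC p W (⊤ : Subgroup H) (S.subgroupOf H)).map H.subtype = AC p W H S := by
  unfold AC
  rw [map_CL, map_OZ p _ _ H.subtype_injective.injOn, Subgroup.map_subgroupOf_eq_of_le hSH, top_inf_eq,
    map_normalizer_subtype, ind_subgroupOf hW hSH hS]

theorem AC_quot [Fact p.Prime] (hW : IsCharPFunctor.{u} p W) {X : Type u} [Group X] [Finite X] {S M : Subgroup X}
    (hS : IsPGroup p S) [hM : M.Normal] (hMc : (Nat.card M).Coprime p) :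
    (AC p W ⊤ S).map (QuotientGroup.mk' M) = AC p W ⊤ (S.map (QuotientGroup.mk' M)) := by
  have hSM : S ⊓ M = ⊥ := inf_eq_bot_of_pgroup_coprime hS hMc
  have hinj : Set.InjOn (QuotientGroup.mk' M) S := injOn_mk' hSM
  unfold AC
  rw [map_CL, map_OZ p _ _ hinj, top_inf_eq, top_inf_eq, ind_map hW _ S hS hinj]
  congr 1
  exact le_antisymm (Subgroup.le_normalizer_map _) (normalizer_map_le M hMc _ (hS.to_le (ind_le S)))

theorem AC_eq_of_factorization {X : Type u} [Group X] {S : Subgroup X}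
    (hfac : ∀ x : X, ∃ a ∈ Subgroup.centralizer ((OZ p S : Subgroup X) : Set X),
      ∃ b ∈ Subgroup.normalizer ((inducedFunctor W S : Subgroup X) : Set X), x = a * b) :
    AC p W ⊤ S = CL ⊤ (OZ p S) := by
  apply le_antisymm (CL_mono inf_le_left _)
  apply CL_le
  intro h _
  obtain ⟨a, ha, b, hb, e⟩ := hfac h⁻¹
  have e2 : h = b⁻¹ * a⁻¹ := by rw [← inv_inv h, e]; group
  rw [e2, cj_mul, cj_eq_of_mem_centralizer (Subgroup.inv_mem _ ha)]
  exact cj_le_CL ⟨trivial, Subgroup.inv_mem _ hb⟩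

/-- the non-constrained case with `W(S)` normal -/
theorem AC_le_of_normal (hW' : IsCharPFunctor.{u} p W') {X : Type u} [Group X] [Finite X] [Fact p.Prime]
    {S : Subgroup X} (hS : IsSyl p S ⊤) (hZ : OZ p S ≤ inducedFunctor W S)
    (hN : Subgroup.normalizer ((inducedFunctor W S : Subgroup X) : Set X) = ⊤)
    (IH : AC p W (Subgroup.normalizer ((S ⊓ (pCore p X ⊔ Subgroup.centralizer ((pCore p X : Subgroup X) : Set X)) :
        Subgroup X) : Set X)) S ≤
      AC p W' (Subgroup.normalizer ((S ⊓ (pCore p X ⊔ Subgroup.centralizer ((pCore p X : Subgroup X) : Set X)) :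
        Subgroup X) : Set X)) S) :
    AC p W ⊤ S ≤ AC p W' ⊤ S := by
  have hQn : (pCore p X).Normal := Cfsg.Agent.Lib.Helper39Core.pCore_normal p
  set Q := pCore p X with hQ
  set C := Subgroup.centralizer (Q : Set X) with hC
  have hCn : C.Normal := inferInstance
  have hDn : (Q ⊔ C).Normal := inferInstance
  have hQS : Q ≤ S := hS.normal_le le_top (pCore_isPGroup p) (top_le_normalizer hQn)
  have hWQ : inducedFunctor W S ≤ Q :=
    le_pCore (Subgroup.normalizer_eq_top_iff.1 hN) (hS.2.1.to_le (ind_le S))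
  have hSN' : S ≤ Subgroup.normalizer ((inducedFunctor W' S : Subgroup X) : Set X) :=
    le_normalizer_W (isConjugacyFunctor_induced hW') hS.2.1
  apply CL_le
  intro n hn
  have hZS : OZ p S ≤ S := hZ.trans (ind_le S)
  have hnS : cj n (OZ p S) ≤ S := (cj_le_ind hZ hn.2).trans (ind_le S)
  obtain ⟨e, he, n', hn', rfl, -⟩ := exists_factor hS hDn hZS hnS
  have h1 : cj n' (OZ p S) ≤ AC p W' ⊤ S := by
    refine le_trans ?_ (IH.trans (CL_mono (inf_le_inf_right _ le_top) _))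
    exact cj_le_CL ⟨hn', by rw [hN]; trivial⟩
  have h2 : cj n' (OZ p S) ≤ Q := (cj_le_ind hZ (by rw [hN]; trivial)).trans hWQ
  rw [← SetLike.mem_coe, Subgroup.mul_normal] at he
  obtain ⟨q, hq, c, hc, rfl⟩ := he
  have hc' : c ∈ Subgroup.centralizer ((cj n' (OZ p S) : Subgroup X) : Set X) :=
    Subgroup.centralizer_le h2 hc
  rw [cj_mul, cj_mul, cj_eq_of_mem_centralizer hc']
  have h3 := cj_mono (g := q) h1
  have h4 : q ∈ (⊤ : Subgroup X) ⊓ Subgroup.normalizer ((inducedFunctor W' S : Subgroup X) : Set X) :=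
    ⟨trivial, hSN' (hQS hq)⟩
  have h5 : cj q (AC p W' ⊤ S) = AC p W' ⊤ S := cj_CL h4
  rwa [h5] at h3

theorem ac_eq (hW₁ : IsCharPFunctor.{u} p W₁) (hW₂ : IsCharPFunctor.{u} p W₂) [Fact p.Prime]
    (𝒮 : ∀ (X : Type u) [Group X], Prop)
    (hSsub : ∀ (X : Type u) [Group X] [Finite X] (Y : Subgroup X), 𝒮 X → 𝒮 Y)
    (hSquot : ∀ (X : Type u) [Group X] [Finite X] (N : Subgroup X) [N.Normal], 𝒮 X → 𝒮 (X ⧸ N))
    (hfac : ∀ (X : Type u) [Group X] [Finite X], 𝒮 X →
      Subgroup.centralizer ((pCore p X : Subgroup X) : Set X) ≤ pCore p X → ∀ S : Subgroup X, IsSyl p S ⊤ →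
      (∀ x : X, ∃ a ∈ Subgroup.centralizer ((OZ p S : Subgroup X) : Set X),
        ∃ b ∈ Subgroup.normalizer ((inducedFunctor W₁ S : Subgroup X) : Set X), x = a * b) ∧
      (∀ x : X, ∃ a ∈ Subgroup.centralizer ((OZ p S : Subgroup X) : Set X),
        ∃ b ∈ Subgroup.normalizer ((inducedFunctor W₂ S : Subgroup X) : Set X), x = a * b)) :
    ∀ (n : ℕ) (X : Type u) [Group X] [Finite X], Nat.card X = n → 𝒮 X → ∀ S : Subgroup X, IsSyl p S ⊤ →
      OZ p S ≤ inducedFunctor W₁ S ⊓ inducedFunctor W₂ S → AC p W₁ ⊤ S = AC p W₂ ⊤ S := by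
  intro n
  induction n using Nat.strong_induction_on with
  | _ n ih =>
  intro X _ _ hn hX S hS hZ
  have hZ₁ := hZ.trans inf_le_left
  have hZ₂ := hZ.trans inf_le_right
  have IHsub : ∀ H : Subgroup X, H ≠ ⊤ → S ≤ H → AC p W₁ H S = AC p W₂ H S := by
    intro H hH hSH
    have hT : IsSyl p S H := hS.of_le hSH le_top
    rw [← AC_sub hW₁ hSH hS.2.1, ← AC_sub hW₂ hSH hS.2.1]
    congr 1
    apply ih (Nat.card H) _ H rfl (hSsub X H hX) _ (isSyl_subgroupOf hT)
    · rw [← Subgroup.map_le_map_iff_of_injective H.subtype_injective,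
        map_OZ p _ _ H.subtype_injective.injOn, Subgroup.map_subgroupOf_eq_of_le hSH,
        Subgroup.map_inf_eq _ _ _ H.subtype_injective, ind_subgroupOf hW₁ hSH hS.2.1,
        ind_subgroupOf hW₂ hSH hS.2.1]
      exact hZ
    · rw [← hn, ← Subgroup.card_top (G := X)]
      exact card_lt_of_lt (lt_top_iff_ne_top.2 hH)
  set N₁ := Subgroup.normalizer ((inducedFunctor W₁ S : Subgroup X) : Set X) with hN₁
  set N₂ := Subgroup.normalizer ((inducedFunctor W₂ S : Subgroup X) : Set X) with hN₂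
  have hSN₁ : S ≤ N₁ := le_normalizer_W (isConjugacyFunctor_induced hW₁) hS.2.1
  have hSN₂ : S ≤ N₂ := le_normalizer_W (isConjugacyFunctor_induced hW₂) hS.2.1
  by_cases h1 : pPrimeCore p X = ⊥
  swap
  · have hMn : (pPrimeCore p X).Normal := Cfsg.Agent.Lib.Helper40Cores.pPrimeCore_normal
    have hMc := Cfsg.Agent.Lib.Helper40Cores.pPrimeCore_coprime (p := p) (G := X)
    set M := pPrimeCore p X with hM
    set π := QuotientGroup.mk' M with hπ
    have hSM : S ⊓ M = ⊥ := inf_eq_bot_of_pgroup_coprime hS.2.1 hMc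
    have hinj : Set.InjOn π S := injOn_mk' hSM
    have hq : AC p W₁ ⊤ (S.map π) = AC p W₂ ⊤ (S.map π) := by
      apply ih (Nat.card (X ⧸ M)) _ (X ⧸ M) rfl (hSquot X M hX) _
        (isSyl_map_surjective hS _ (QuotientGroup.mk'_surjective _))
      · rw [← map_OZ p _ _ hinj, ind_map hW₁ _ S hS.2.1 hinj, ind_map hW₂ _ S hS.2.1 hinj]
        exact le_inf (Subgroup.map_mono hZ₁) (Subgroup.map_mono hZ₂)
      · rw [← hn, ← M.card_mul_index, ← Subgroup.index_eq_card]
        have h1 : 1 < Nat.card M := by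
          rw [Subgroup.one_lt_card_iff_ne_bot]; exact h1
        have h2 : 0 < M.index := Nat.pos_of_ne_zero M.index_ne_zero_of_finite
        nlinarith
    rw [← AC_quot hW₁ hS.2.1 hMc, ← AC_quot hW₂ hS.2.1 hMc] at hq
    have hA₁ : AC p W₁ ⊤ S ≤ S := (AC_le_ind hZ₁).trans (ind_le S)
    have hA₂ : AC p W₂ ⊤ S ≤ S := (AC_le_ind hZ₂).trans (ind_le S)
    have key : ∀ A B : Subgroup X, A ≤ S → B ≤ S → A.map π = B.map π → A ≤ B := by
      intro A B hA hB hAB x hx
      have h2 : π x ∈ B.map π := hAB ▸ ⟨x, hx, rfl⟩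
      obtain ⟨b, hb, hbx⟩ := h2
      rw [← hinj (hB hb) (hA hx) hbx]
      exact hb
    exact le_antisymm (key _ _ hA₁ hA₂ hq) (key _ _ hA₂ hA₁ hq.symm)
  by_cases h3 : Subgroup.centralizer ((pCore p X : Subgroup X) : Set X) ≤ pCore p X
  · obtain ⟨f1, f2⟩ := hfac X hX h3 S hS
    rw [AC_eq_of_factorization f1, AC_eq_of_factorization f2]
  by_cases h4 : N₁ ≠ ⊤ ∧ N₂ ≠ ⊤
  · have e1 := IHsub N₁ h4.1 hSN₁
    have e2 := IHsub N₂ h4.2 hSN₂
    unfold AC at e1 e2 ⊢
    rw [← hN₁, ← hN₂] at e1 e2 ⊢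
    rw [inf_idem] at e1 e2
    rw [top_inf_eq, top_inf_eq, e1, ← e2, inf_comm]
  have hS0 := not_le_of_not_constrained hS h1 h3
  have hnormal_le : ∀ T : Subgroup X, IsPGroup p T → Subgroup.normalizer (T : Set X) = ⊤ → T ≤ pCore p X :=
    fun T hT htop => le_pCore (Subgroup.normalizer_eq_top_iff.1 htop) hT
  have hQn : (pCore p X).Normal := Cfsg.Agent.Lib.Helper39Core.pCore_normal p
  have hDn : (pCore p X ⊔ Subgroup.centralizer ((pCore p X : Subgroup X) : Set X)).Normal := inferInstance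
  have hG1 : Subgroup.normalizer ((S ⊓ (pCore p X ⊔ Subgroup.centralizer ((pCore p X : Subgroup X) : Set X)) :
      Subgroup X) : Set X) ≠ ⊤ :=
    fun htop => hS0 (hnormal_le _ (hS.2.1.to_le inf_le_left) htop)
  have hSG1 : S ≤ Subgroup.normalizer ((S ⊓ (pCore p X ⊔
      Subgroup.centralizer ((pCore p X : Subgroup X) : Set X)) : Subgroup X) : Set X) := by
    intro s hs
    rw [mem_normalizer_iff_cj, cj_inf, cj_eq_of_mem hs, cj_of_normal hDn]
  have e := IHsub _ hG1 hSG1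
  have h5 : N₁ = ⊤ ∨ N₂ = ⊤ := by
    by_contra hcon
    push Not at hcon
    exact h4 hcon
  rcases h5 with h5 | h5
  · apply le_antisymm (AC_le_of_normal hW₂ hS hZ₁ h5 e.le)
    apply CL_mono
    rw [← hN₁, h5]
    exact inf_le_inf_left _ le_top
  · refine le_antisymm ?_ (AC_le_of_normal hW₁ hS hZ₂ h5 e.ge)
    apply CL_mono
    rw [← hN₂, h5]
    exact inf_le_inf_left _ le_top

theorem fac_equiv (hW : IsCharPFunctor.{u} p W) {A B : Type u} [Group A] [Group B] [Finite A] (e : A ≃* B)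
    {T : Subgroup A} (hT : IsPGroup p T)
    (h : ∀ x : A, ∃ a ∈ Subgroup.centralizer ((OZ p T : Subgroup A) : Set A),
      ∃ b ∈ Subgroup.normalizer ((inducedFunctor W T : Subgroup A) : Set A), x = a * b) :
    ∀ x : B, ∃ a ∈ Subgroup.centralizer ((OZ p (T.map e.toMonoidHom) : Subgroup B) : Set B),
      ∃ b ∈ Subgroup.normalizer ((inducedFunctor W (T.map e.toMonoidHom) : Subgroup B) : Set B),
        x = a * b := by
  intro x
  obtain ⟨a, ha, b, hb, hx⟩ := h (e.symm x)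
  refine ⟨e a, ?_, e b, ?_, ?_⟩
  · rw [← map_OZ p _ _ e.injective.injOn, ← map_centralizer_equiv]
    exact ⟨a, ha, rfl⟩
  · rw [ind_map_equiv hW e hT, ← map_normalizer_equiv]
    exact ⟨b, hb, rfl⟩
  · rw [← map_mul, ← hx, MulEquiv.apply_symm_apply]

theorem ChM.mem {X : Type*} [Group X] {ℳ : Set (Subgroup X)} {T A K : Subgroup X} (hK : ∀ M ∈ ℳ, M ≤ K)
    {y : X} (h : ChM ℳ T A y) : y ∈ K := by
  induction h with
  | one => exact K.one_mem
  | step M hM _ hx _ ih => exact K.mul_mem (hK M hM hx) ih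

open Cfsg.Agent.Lib.Helper39FamTransfer in
theorem triple_conclusion (hW₁ : IsCharPFunctor.{u} p W₁) {X : Type u} [Group X]
    [Finite X] [Fact p.Prime] {S : Subgroup X} (hS : IsSyl p S ⊤)
    (hZ : OZ p S ≤ inducedFunctor W₁ S) (heq : AC p W₁ ⊤ S = AC p W₂ ⊤ S)
    (hF : FCSF (Ind {W₁, W₂} X) ⊤ S) :
    AC p W₁ ⊤ S ≤ S ∧ IsElementaryAbelian p (AC p W₁ ⊤ S) ∧ IsStronglyClosed (AC p W₁ ⊤ S) S ∧
      ∀ B : Set X, B ⊆ S →
        ControlsStrongFusionOf (Subgroup.normalizer ((AC p W₁ ⊤ S : Subgroup X) : Set X)) S B := by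
  set A := AC p W₁ ⊤ S with hA
  set U := inducedFunctor W₁ S with hU
  have hUS : U ≤ S := ind_le S
  have hAU : A ≤ U := AC_le_ind hZ
  have hAS : A ≤ S := hAU.trans hUS
  have hK : ∀ M ∈ NF (Ind {W₁, W₂} X) ⊤ S, M ≤ Subgroup.normalizer ((A : Subgroup X) : Set X) := by
    rintro _ ⟨_, ⟨W, hW, rfl⟩, rfl⟩
    rcases hW with rfl | rfl
    · exact le_normalizer_CL _ _
    · change _ ≤ Subgroup.normalizer ((A : Subgroup X) : Set X)
      rw [heq]
      exact le_normalizer_CL _ _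
  -- the elements of order dividing `p` in `Z(U)`
  have hE : ∀ a ∈ A, a ∈ Subgroup.centralizer (U : Set X) ∧ a ^ p = 1 := by
    let E : Subgroup X :=
      { carrier := {x | x ∈ U ⊓ Subgroup.centralizer (U : Set X) ∧ x ^ p = 1}
        one_mem' := ⟨Subgroup.one_mem _, one_pow p⟩
        mul_mem' := by
          rintro x y ⟨hx, hxp⟩ ⟨hy, hyp⟩
          refine ⟨Subgroup.mul_mem _ hx hy, ?_⟩
          have hc : Commute x y := (hy.2 x hx.1)
          rw [hc.mul_pow, hxp, hyp, one_mul]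
        inv_mem' := by
          rintro x ⟨hx, hxp⟩
          exact ⟨Subgroup.inv_mem _ hx, by rw [inv_pow, hxp, inv_one]⟩ }
    have hZE : OZ p S ≤ E := by
      intro z hz
      have h1 : ∀ w ∈ OZ p S, w ^ p = 1 ∨ True := fun _ _ => Or.inr trivial
      have h2 : OZ p S ≤ E := by
        unfold OZ omegaOne
        rw [Subgroup.closure_le]
        intro x hx
        have hxZ : x ∈ OZ p S := Subgroup.subset_closure hx
        exact ⟨⟨hZ hxZ, Subgroup.centralizer_le hUS hx.1.2⟩, hx.2⟩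
      exact h2 hz
    have hAE : A ≤ E := by
      apply CL_le
      rintro n hn _ ⟨z, hz, rfl⟩
      have hz' := hZE hz
      have hnU : cj n U = U := mem_normalizer_iff_cj.1 hn.2
      refine ⟨⟨?_, ?_⟩, ?_⟩
      · rw [← hnU]; exact conj_mem_cj hz'.1.1
      · have := conj_mem_cj (g := n) hz'.1.2
        rwa [← centralizer_cj, hnU] at this
      · change (n * z * n⁻¹) ^ p = 1
        rw [conj_pow, hz'.2]; group
    intro a ha
    exact ⟨(hAE ha).1.2, (hAE ha).2⟩
  refine ⟨hAS, ⟨⟨⟨fun a b => Subtype.ext ((hE b b.2).1 a (hAU a.2))⟩⟩, fun a ha => (hE a ha).2⟩, ⟨hAS, ?_⟩, ?_⟩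
  · intro x hx g hg
    have h1 : Subgroup.zpowers x ≤ S := by rw [Subgroup.zpowers_le]; exact hAS hx
    have h2 : cj g (Subgroup.zpowers x) ≤ S := by
      rw [cj, MonoidHom.map_zpowers, Subgroup.zpowers_le]
      simpa using hg
    obtain ⟨y, hy, c, hc, rfl⟩ := hF _ h1 g trivial h2
    have hyN := ChM.mem hK hy
    have hcx : x * c = c * x := hc x (Subgroup.mem_zpowers x)
    have e : y * c * x * (y * c)⁻¹ = y * x * y⁻¹ := by
      calc y * c * x * (y * c)⁻¹ = y * (c * x) * c⁻¹ * y⁻¹ := by group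
        _ = y * (x * c) * c⁻¹ * y⁻¹ := by rw [hcx]
        _ = y * x * y⁻¹ := by group
    rw [e, ← mem_normalizer_iff_cj.1 hyN]
    exact conj_mem_cj hx
  · intro B hB
    refine ⟨hB, fun g hg => ?_⟩
    have h1 : Subgroup.closure B ≤ S := by rw [Subgroup.closure_le]; exact hB
    have h2 : cj g (Subgroup.closure B) ≤ S := by
      rw [cj, MonoidHom.map_closure, Subgroup.closure_le]
      rintro _ ⟨b, hb, rfl⟩
      exact hg ⟨b, hb, by simp⟩
    obtain ⟨y, hy, c, hc, rfl⟩ := hF _ h1 g trivial h2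
    refine ⟨y, ChM.mem hK hy, fun a ha => ?_⟩
    have hcx : a * c = c * a := hc a (Subgroup.subset_closure ha)
    calc y * c * a * (y * c)⁻¹ = y * (c * a) * c⁻¹ * y⁻¹ := by group
      _ = y * (a * c) * c⁻¹ * y⁻¹ := by rw [hcx]
      _ = y * a * y⁻¹ := by group

theorem map_normalClosure_eq_CL {X : Type*} [Group X] {N Z : Subgroup X} (hZN : Z ≤ N) :
    (Subgroup.normalClosure ((Z.subgroupOf N : Subgroup N) : Set N)).map N.subtype = CL N Z := by
  apply le_antisymm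
  · rw [Subgroup.map_le_iff_le_comap]
    have hn : ((CL N Z).subgroupOf N).Normal :=
      Subgroup.normal_subgroupOf_of_le_normalizer (le_normalizer_CL N Z)
    apply Subgroup.normalClosure_le_normal (N := (CL N Z).subgroupOf N)
    intro z hz
    exact le_CL N Z hz
  · apply CL_le
    rintro n hn _ ⟨z, hz, rfl⟩
    refine ⟨⟨n, hn⟩ * ⟨z, hZN hz⟩ * ⟨n, hn⟩⁻¹, ?_, by simp⟩
    have hz' : (⟨z, hZN hz⟩ : N) ∈ ((Z.subgroupOf N : Subgroup N) : Set N) := hz
    exact Subgroup.normalClosure_normal.conj_mem _ (Subgroup.subset_normalClosure hz') _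

end main

end Cfsg.Agent.Lib.Helper39Triple
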