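import Cfsg.Agent.Lib.LeadTwDefs

set_option autoImplicit false
set_option linter.unusedSectionVars false

/-! Project 101 (TW-AUT), pieces T1 `mem_H_of_pos`, T2 `normalizer_U`, T10 `opp_simple`. -/

namespace Cfsg.Agent.Lib.Helper39TwT1

open Subgroup Cfsg.Agent.Lib.Helper23Grp Cfsg.Agent.Lib.Helper23TG Cfsg.Agent.Lib.Helper23TG.TG
  Cfsg.Agent.Lib.Helper23Weyl Cfsg.Agent.Lib.LeadTwDefs

variable {𝔾 R I : Type*} [Group 𝔾] [Fintype R] [DecidableEq R] {S : TG 𝔾 R I}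

/-- T1 -/
theorem mem_H_of_pos (h : TData S) {n : 𝔾} (hn : n ∈ S.N) {π : Equiv.Perm R} (hM : S.Mon n π)
    (hp : ∀ r, S.pos r → S.pos (π r)) : n ∈ S.H := by
  have ok := h.ok
  rw [← B_inf_N ok]
  refine ⟨mem_B_of_conj ok (N_le_G hn) ?_, hn⟩
  intro b hb
  obtain ⟨u, hu, k, hk, rfl⟩ := (mem_B_iff ok).1 hb
  have e : n * (u * k) * n⁻¹ = (n * u * n⁻¹) * (n * k * n⁻¹) := by group
  rw [e]
  exact S.B.mul_mem (U_le_B (hM.2 _ _ hp u hu)) (H_le_B (N_conj_H ok n hn k hk))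

/-- `B` normalizes `U` -/
theorem B_conj_U (h : TData S) {b : 𝔾} (hb : b ∈ S.B) : ∀ u ∈ S.U, b * u * b⁻¹ ∈ S.U := by
  intro u hu
  obtain ⟨v, hv, k, hk, rfl⟩ := (mem_B_iff h.ok).1 hb
  have e : v * k * u * (v * k)⁻¹ = v * (k * u * k⁻¹) * v⁻¹ := by group
  rw [e]
  exact mul_mem (mul_mem hv (H_U h.ok k hk u hu)) (inv_mem hv)

/-- T2 -/
theorem normalizer_U (h : TData S)
    (h1 : ∀ n ∈ S.N, ∀ π : Equiv.Perm R, S.Mon n π → (∀ r, S.pos r → S.pos (π r)) → n ∈ S.H)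
    {g : 𝔾} (hg : ∀ u ∈ S.U, g * u * g⁻¹ ∈ S.U) : g ∈ S.B := by
  have ok := h.ok
  have hgG : g ∈ S.G := by rw [h.top]; trivial
  obtain ⟨n, hn, b1, hb1, b2, hb2, rfl⟩ := bruhat_ex ok hgG
  obtain ⟨π, hM, -⟩ := Mon_N ok n hn
  have hnU : ∀ v ∈ S.U, n * v * n⁻¹ ∈ S.U := by
    intro v hv
    have h2 : b2⁻¹ * v * b2⁻¹⁻¹ ∈ S.U := B_conj_U h (inv_mem hb2) v hv
    have h3 := hg _ h2
    have h4 := B_conj_U h (inv_mem hb1) _ h3
    have e : n * v * n⁻¹ = b1⁻¹ * (b1 * n * b2 * (b2⁻¹ * v * b2⁻¹⁻¹) * (b1 * n * b2)⁻¹) * b1⁻¹⁻¹ := by group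
    rw [e]
    exact h4
  have hpos : ∀ r, S.pos r → S.pos (π r) := by
    intro r hr
    by_contra hneg
    obtain ⟨x, hx, hx1⟩ := X_ne_all ok r
    have h2 := hnU _ (X_le_U ok r hr hx)
    have h3 := hM.conj_X r x hx
    exact conj_ne_one ok hx1 (ok.hBV _ (U_le_B h2) (X_le_V ok _ hneg h3))
  exact S.B.mul_mem (S.B.mul_mem hb1 (H_le_B (h1 n hn π hM hpos))) hb2

omit [Fintype R] [DecidableEq R] in
theorem opp_aux (h : TData S) {n0 : 𝔾} (hn0 : n0 ∈ S.N) {π0 : Equiv.Perm R} (hM : S.Mon n0 π0)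
    (h0 : ∀ r, S.pos r → ¬ S.pos (π0 r)) (i : I) : ∃ j, π0 (S.neg (S.simple i)) = S.simple j := by
  have ok := h.ok
  obtain ⟨rf, pr, hW⟩ := h.hW
  obtain ⟨π, hπ, hMπ⟩ := Mon_N' ok (rf := rf) (pr := pr) n0 hn0
  obtain rfl : π = π0 := Mon_unique ok hMπ hM
  have hs : reflPerm ok i ∈ (ws ok rf pr).WJ Set.univ := WS.s_mem_WJ (W := ws ok rf pr) (Set.mem_univ i)
  have hw : π * reflPerm ok i * π⁻¹ ∈ (ws ok rf pr).WJ Set.univ := mul_mem (mul_mem hπ hs) (inv_mem hπ)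
  have h1 : π * reflPerm ok i * π⁻¹ ≠ 1 := by
    intro e
    have e2 : reflPerm ok i = 1 := by
      have := congrArg (fun z => π⁻¹ * z * π) e
      simpa [mul_assoc] using this
    have h7 : S.refl i (S.simple i) = S.simple i := by
      rw [← reflPerm_apply ok, e2]; rfl
    rw [ok.refl_simple] at h7
    have := ok.pos_simple i
    rw [← h7, ok.pos_neg] at this
    exact this (ok.pos_simple i)
  obtain ⟨j, _, hj⟩ := WS.exists_descent hW hw h1
  have hj' : ¬ S.pos (π (S.refl i (π⁻¹ (S.simple j)))) := hj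
  refine ⟨j, ?_⟩
  set r := π⁻¹ (S.simple j) with hr
  have hπr : π r = S.simple j := by simp [hr]
  have hrneg : ¬ S.pos r := by
    intro hp
    exact h0 r hp (hπr ▸ ok.pos_simple j)
  have hpos2 : S.pos (S.refl i r) := by
    by_contra hn
    have h3 : S.pos (S.neg (S.refl i r)) := (ok.pos_neg _).2 hn
    have h4 := h0 _ h3
    rw [hM.1, ok.pos_neg] at h4
    exact h4 hj'
  have hr' : S.pos (S.neg r) := (ok.pos_neg _).2 hrneg
  have e : S.neg r = S.simple i := by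
    by_contra hne
    have := ok.refl_pos i _ hr' hne
    rw [ok.refl_neg, ok.pos_neg] at this
    exact this hpos2
  have e2 : r = S.neg (S.simple i) := by rw [← e, ok.neg_neg]
  rw [← e2, hπr]

/-- T10 -/
theorem opp_simple (h : TData S) {n0 : 𝔾} (hn0 : n0 ∈ S.N) {π0 : Equiv.Perm R} (hM : S.Mon n0 π0)
    (h0 : ∀ r, S.pos r → ¬ S.pos (π0 r)) :
    ∃ τ : Equiv.Perm I, ∀ i, π0 (S.neg (S.simple i)) = S.simple (τ i) := by
  choose τ hτ using opp_aux h hn0 hM h0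
  haveI : Finite I := Finite.of_injective S.simple (fun a b e => h.ok.simple_inj a b e)
  have hinj : Function.Injective τ := by
    intro a b e
    have h1 : π0 (S.neg (S.simple a)) = π0 (S.neg (S.simple b)) := by rw [hτ, hτ, e]
    have h2 := π0.injective h1
    have h3 : S.simple a = S.simple b := by
      rw [← h.ok.neg_neg (S.simple a), h2, h.ok.neg_neg]
    exact h.ok.simple_inj _ _ h3
  exact ⟨Equiv.ofBijective τ (Finite.injective_iff_bijective.1 hinj), hτ⟩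

end Cfsg.Agent.Lib.Helper39TwT1
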