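import Mathlib

set_option autoImplicit false

namespace Cfsg.Agent.Lib.Helper3BG14count

theorem count_abstract {X : Type*} [Group X] [Finite X] (D : Subgroup X)
    (I : Finset (Subgroup X)) (S : Subgroup X → Subgroup X) (T : Subgroup X → Set X)
    (hI : 2 ≤ I.card)
    (hTI : ∀ d ∈ D, (∀ L ∈ I, d ∉ S L) → ∀ g : X, g * d * g⁻¹ ∈ D → g ∈ D)
    (hT1 : ∀ L ∈ I, (1 : X) ∉ T L)
    (hTT : ∀ L ∈ I, ∀ L' ∈ I, L ≠ L' → T L ∩ T L' = ∅)
    (hTD : ∀ L ∈ I, ∀ d ∈ D, (∀ L' ∈ I, d ∉ S L') → ∀ y : X, y * d * y⁻¹ ∉ T L)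
    (hcT : ∀ L ∈ I, (T L).ncard * (Nat.card (S L) * Nat.card D) =
      (Nat.card (S L) - 1) * Nat.card (D ⊓ S L : Subgroup X) * Nat.card X)
    (h3 : ∀ L ∈ I, 3 * Nat.card (D ⊓ S L : Subgroup X) ≤ Nat.card (S L)) : False := by
  classical
  haveI : Fintype X := Fintype.ofFinite X
  obtain ⟨L0, hL0⟩ : I.Nonempty := Finset.card_pos.mp (by omega)
  let Df : Finset X := Finset.univ.filter (fun d => d ∈ D)
  let Dh : Finset X := Finset.univ.filter (fun d => d ∈ D ∧ ∀ L ∈ I, d ∉ S L)
  let Cf : Finset X := (Finset.univ ×ˢ Dh).image (fun yd : X × X => yd.1 * yd.2 * yd.1⁻¹)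
  let DS : Subgroup X → Finset X := fun L => Finset.univ.filter (fun d => d ∈ D ⊓ S L)
  let Tf : Subgroup X → Finset X := fun L => Finset.univ.filter (fun d => d ∈ T L)
  have cardsub : ∀ H : Subgroup X, (Finset.univ.filter (fun d => d ∈ H)).card = Nat.card H := by
    intro H
    have h : ((Finset.univ.filter (fun d => d ∈ H) : Finset X) : Set X) = (H : Set X) := by
      ext; simp
    rw [← Set.ncard_coe_finset, h]
    exact (Nat.card_coe_set_eq _).symm
  have cardT : ∀ L, (Tf L).card = (T L).ncard := by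
    intro L
    have h : ((Tf L : Finset X) : Set X) = T L := by
      ext; simp [Tf]
    rw [← Set.ncard_coe_finset, h]
  have memDh : ∀ d, d ∈ Dh ↔ d ∈ D ∧ ∀ L ∈ I, d ∉ S L := by
    intro d; simp [Dh]
  have a1 : Fintype.card X * Dh.card ≤ Df.card * Cf.card := by
    have := Finset.card_le_mul_card_image (f := fun yd : X × X => yd.1 * yd.2 * yd.1⁻¹)
      (Finset.univ ×ˢ Dh) Df.card ?_
    · rwa [Finset.card_product, Finset.card_univ] at this
    · intro a ha
      obtain ⟨⟨y0, d0⟩, h0, rfl⟩ := Finset.mem_image.mp ha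
      have hd0 : d0 ∈ Dh := (Finset.mem_product.mp h0).2
      apply Finset.card_le_card_of_injOn (fun yd => y0⁻¹ * yd.1)
      · rintro ⟨y, d⟩ hyd
        have hyd' := Finset.mem_filter.mp hyd
        have hd : d ∈ Dh := (Finset.mem_product.mp hyd'.1).2
        have he : y * d * y⁻¹ = y0 * d0 * y0⁻¹ := hyd'.2
        have hmem : y0⁻¹ * y ∈ D := by
          apply hTI d ((memDh d).mp hd).1 ((memDh d).mp hd).2
          have : y0⁻¹ * y * d * (y0⁻¹ * y)⁻¹ = y0⁻¹ * (y * d * y⁻¹) * y0 := by group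
          rw [this, he]
          have : y0⁻¹ * (y0 * d0 * y0⁻¹) * y0 = d0 := by group
          rw [this]
          exact ((memDh d0).mp hd0).1
        show y0⁻¹ * y ∈ (Df : Set X)
        simpa [Df] using hmem
      · rintro ⟨y, d⟩ hyd ⟨y', d'⟩ hyd' heq
        have hyd1 := (Finset.mem_filter.mp hyd).2
        have hyd2 := (Finset.mem_filter.mp hyd').2
        have hy : y = y' := mul_left_cancel heq
        subst hy
        have he : y * d * y⁻¹ = y * d' * y⁻¹ := hyd1.trans hyd2.symm
        have hd : d = d' := mul_left_cancel (mul_right_cancel he)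
        rw [hd]
  have one_mem_DS : ∀ L, (1 : X) ∈ DS L := by
    intro L; simp [DS, one_mem]
  have a2 : Df.card + I.card ≤ Dh.card + 1 + ∑ L ∈ I, (DS L).card := by
    have hsub : Df ⊆ Dh ∪ {1} ∪ I.biUnion (fun L => (DS L).erase 1) := by
      intro d hd
      have hdD : d ∈ D := by simpa [Df] using hd
      by_cases h1 : d = 1
      · simp [h1]
      by_cases h2 : ∀ L ∈ I, d ∉ S L
      · exact Finset.mem_union_left _ (Finset.mem_union_left _ ((memDh d).mpr ⟨hdD, h2⟩))
      · push Not at h2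
        obtain ⟨L, hL, hdL⟩ := h2
        apply Finset.mem_union_right
        refine Finset.mem_biUnion.mpr ⟨L, hL, Finset.mem_erase.mpr ⟨h1, ?_⟩⟩
        simpa [DS] using (⟨hdD, hdL⟩ : d ∈ D ∧ d ∈ S L)
    have h1 := Finset.card_le_card hsub
    have h2 : (Dh ∪ {1} ∪ I.biUnion (fun L => (DS L).erase 1)).card ≤
        Dh.card + 1 + ∑ L ∈ I, ((DS L).card - 1) := by
      refine (Finset.card_union_le _ _).trans
        (Nat.add_le_add ((Finset.card_union_le _ _).trans (by simp)) ?_)
      refine Finset.card_biUnion_le.trans (Finset.sum_le_sum fun L _ => ?_)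
      rw [Finset.card_erase_of_mem (one_mem_DS L)]
    have h3 : ∑ L ∈ I, ((DS L).card - 1) + I.card = ∑ L ∈ I, (DS L).card := by
      rw [Finset.card_eq_sum_ones, ← Finset.sum_add_distrib]
      apply Finset.sum_congr rfl
      intro L _
      have : 0 < (DS L).card := Finset.card_pos.mpr ⟨1, one_mem_DS L⟩
      omega
    omega
  have memCf : ∀ c, c ∈ Cf → ∃ y d, d ∈ Dh ∧ c = y * d * y⁻¹ := by
    intro c hc
    obtain ⟨⟨y, d⟩, h0, rfl⟩ := Finset.mem_image.mp hc
    exact ⟨y, d, (Finset.mem_product.mp h0).2, rfl⟩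
  have a3 : 1 + Cf.card + ∑ L ∈ I, (Tf L).card ≤ Fintype.card X := by
    have hd1 : Disjoint ({1} : Finset X) Cf := by
      rw [Finset.disjoint_singleton_left]
      intro h
      obtain ⟨y, d, hd, he⟩ := memCf 1 h
      have hd1 : d = 1 := by
        have : d = y⁻¹ * (y * d * y⁻¹) * y := by group
        rw [this, ← he]; group
      exact ((memDh d).mp hd).2 L0 hL0 (hd1 ▸ one_mem _)
    have hd2 : Disjoint ({1} ∪ Cf) (I.biUnion Tf) := by
      rw [Finset.disjoint_left]
      intro c hc hc'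
      obtain ⟨L, hL, hcL⟩ := Finset.mem_biUnion.mp hc'
      have hcT' : c ∈ T L := by simpa [Tf] using hcL
      rcases Finset.mem_union.mp hc with h | h
      · rw [Finset.mem_singleton] at h
        exact hT1 L hL (h ▸ hcT')
      · obtain ⟨y, d, hd, he⟩ := memCf c h
        exact hTD L hL d ((memDh d).mp hd).1 ((memDh d).mp hd).2 y (he ▸ hcT')
    have hd3 : ∀ L ∈ I, ∀ L' ∈ I, L ≠ L' → Disjoint (Tf L) (Tf L') := by
      intro L hL L' hL' hne
      rw [Finset.disjoint_left]
      intro c hc hc'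
      have h1 : c ∈ T L ∩ T L' := ⟨by simpa [Tf] using hc, by simpa [Tf] using hc'⟩
      rw [hTT L hL L' hL' hne] at h1
      exact h1
    rw [← Finset.card_biUnion hd3, ← Finset.card_singleton (1 : X),
      ← Finset.card_union_of_disjoint hd1, ← Finset.card_union_of_disjoint hd2]
    exact Finset.card_le_univ _
  have hN : Fintype.card X = Nat.card X := (Nat.card_eq_fintype_card).symm
  have hNpos : 0 < Nat.card X := Nat.card_pos
  have hδpos : 0 < Nat.card D := Nat.card_pos
  have a4 : ∀ L ∈ I, 3 * (DS L).card * Nat.card X ≤ 3 * Nat.card D * (Tf L).card + Nat.card X := by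
    intro L hL
    have e1 := hcT L hL
    have e2 := h3 L hL
    rw [cardT, show (DS L).card = Nat.card (D ⊓ S L : Subgroup X) from cardsub _]
    have hm : 0 < Nat.card (S L) := Nat.card_pos
    obtain ⟨m, hm'⟩ : ∃ m, Nat.card (S L) = m + 1 := ⟨Nat.card (S L) - 1, by omega⟩
    rw [hm'] at e1 e2
    rw [Nat.add_sub_cancel] at e1
    generalize Nat.card (D ⊓ S L : Subgroup X) = d at *
    generalize (T L).ncard = t at *
    generalize Nat.card X = N at *
    generalize Nat.card D = δ at *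
    by_contra hcon
    rw [not_le] at hcon
    have h5 : (3 * δ * t + N) * (m + 1) < 3 * d * N * (m + 1) :=
      Nat.mul_lt_mul_of_pos_right hcon (Nat.succ_pos m)
    have h6 : N * (3 * d) ≤ N * (m + 1) := Nat.mul_le_mul_left N e2
    nlinarith
  rw [hN] at a1 a3
  rw [show Df.card = Nat.card D from cardsub D] at a1 a2
  have a5 : 3 * (∑ L ∈ I, (DS L).card) * Nat.card X ≤
      3 * Nat.card D * (∑ L ∈ I, (Tf L).card) + I.card * Nat.card X := by
    have := Finset.sum_le_sum a4
    rw [Finset.sum_add_distrib, Finset.sum_const, smul_eq_mul, ← Finset.mul_sum,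
      ← Finset.sum_mul, ← Finset.mul_sum] at this
    exact this
  generalize (∑ L ∈ I, (DS L).card) = sd at *
  generalize (∑ L ∈ I, (Tf L).card) = st at *
  generalize Nat.card X = N at *
  generalize Nat.card D = δ at *
  generalize Dh.card = h at *
  generalize Cf.card = c at *
  generalize I.card = n at *
  have b1 : δ * (1 + c + st) ≤ δ * N := Nat.mul_le_mul_left δ a3
  have b2 : N * (δ + n) ≤ N * (h + 1 + sd) := Nat.mul_le_mul_left N a2
  have b3 : N * 2 ≤ N * n := Nat.mul_le_mul_left N hI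
  nlinarith

end Cfsg.Agent.Lib.Helper3BG14count
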