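import Cfsg.Agent.S0027
import Cfsg.Agent.Lib.Helper30SZ

set_option autoImplicit false

/-! Step (0) of the hard case of B-G Theorem 3.6: a minimal invariant subgroup on which `A` acts
nontrivially. -/

namespace Cfsg.Agent.Lib.Helper3BG36Red

open Subgroup

theorem exists_min {G : Type*} [Group G] [Finite G] (L A R : Subgroup G)
    (hAL : A ≤ normalizer (L : Set G)) (hRL : R ≤ normalizer (L : Set G))
    (hRA : R ≤ normalizer (A : Set G)) (hcop : (Nat.card A).Coprime (Nat.card L))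
    (hsolv : Group.IsSolvable L) (hne : ¬ L ≤ centralizer (A : Set G)) :
    ∃ Q : Subgroup G, Q ≤ L ∧ A ≤ normalizer (Q : Set G) ∧ R ≤ normalizer (Q : Set G) ∧
      ¬ Q ≤ centralizer (A : Set G) ∧ ⁅Q, A⁆ = Q ∧
      ∀ N : Subgroup G, N ≤ Q → N ≠ Q → A ≤ normalizer (N : Set G) →
        R ≤ normalizer (N : Set G) → N ≤ centralizer (A : Set G) := by
  obtain ⟨Q, hQ⟩ := Set.Finite.exists_minimal
    (s := {Q : Subgroup G | Q ≤ L ∧ A ≤ normalizer (Q : Set G) ∧ R ≤ normalizer (Q : Set G) ∧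
      ¬ Q ≤ centralizer (A : Set G)}) (Set.toFinite _) ⟨L, le_rfl, hAL, hRL, hne⟩
  obtain ⟨⟨hQL, hAQ, hRQ, hQA⟩, hmin⟩ := hQ
  have hmin' : ∀ N : Subgroup G, N ≤ Q → N ≠ Q → A ≤ normalizer (N : Set G) →
      R ≤ normalizer (N : Set G) → N ≤ centralizer (A : Set G) := by
    intro N hNQ hNne hAN hRN
    by_contra h
    exact hNne (le_antisymm hNQ (hmin ⟨hNQ.trans hQL, hAN, hRN, h⟩ hNQ))
  refine ⟨Q, hQL, hAQ, hRQ, hQA, ?_, hmin'⟩
  by_contra hne'
  have h1 : ⁅Q, A⁆ ≤ Q := Cfsg.Agent.Lib.Helper30SZ.commutator_le_of_le_normalizer hAQ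
  have h2 := hmin' ⁅Q, A⁆ h1 hne'
    (Cfsg.Agent.Lib.Helper30SZ.le_normalizer_commutator hAQ le_normalizer)
    (Cfsg.Agent.Lib.Helper30SZ.le_normalizer_commutator hRQ hRA)
  have h3 : ⁅⁅Q, A⁆, A⁆ = ⊥ := commutator_eq_bot_iff_le_centralizer.mpr h2
  have hsQ : Group.IsSolvable Q :=
    Group.isSolvable_of_isSolvable_injective (inclusion_injective hQL)
  rw [Cfsg.Agent.S0027.result A Q hAQ
    (Nat.Coprime.coprime_dvd_right (card_dvd_of_le hQL) hcop) (Or.inr hsQ)] at h3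
  exact hQA (commutator_eq_bot_iff_le_centralizer.mp h3)

end Cfsg.Agent.Lib.Helper3BG36Red
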