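import Cfsg.Prelude
import Cfsg.Agent.S3769
import Cfsg.Agent.Lib.Helper30SZ

/-! PROJECT 87, piece `caseA1`. -/

set_option autoImplicit false
open Cfsg Subgroup

namespace Cfsg.Agent.Lib.Helper3BG36caseA1

/-- piece `caseA1` (uses S3769) -/
theorem caseA1 {G : Type*} [Group G] [Finite G] [Group.IsSolvable G] (hodd : Odd (Nat.card G))
    (p : ℕ) [Fact p.Prime] (V U R₀ : Subgroup G) [V.Normal] (hV : IsElementaryAbelian p V)
    (hU : (Nat.card U).Coprime p) (hR₀U : R₀ ≤ normalizer (U : Set G))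
    (hR₀p : (Nat.card R₀).Prime) (hcop : (Nat.card R₀).Coprime (Nat.card U))
    (hpr : (Nat.card R₀).Coprime p)
    (hCUV : U ⊓ centralizer (V : Set G) = ⊥) (hCV : V ⊓ centralizer (R₀ : Set G) = ⊥) :
    U ≤ centralizer (R₀ : Set G) := by
  have hp : p.Prime := Fact.out
  have hcard : Nat.card ↥(U ⊔ R₀) = Nat.card U * Nat.card R₀ :=
    Cfsg.Agent.Lib.Helper30SZ.card_sup hR₀U hcop
  have hidx : U.relIndex (U ⊔ R₀) = Nat.card R₀ := by
    have h1 := relIndex_mul_relIndex ⊥ U (U ⊔ R₀) bot_le le_sup_left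
    rw [relIndex_bot_left, relIndex_bot_left, hcard] at h1
    exact Nat.eq_of_mul_eq_mul_left Nat.card_pos h1
  have h := Cfsg.Agent.S3769.result (U ⊔ R₀) inferInstance
    (hodd.of_dvd_nat (card_subgroup_dvd_card _)) V hp hV
    (by
      rw [hcard]
      intro hd
      rcases (Nat.Prime.dvd_mul hp).mp hd with h | h
      · exact hp.one_lt.ne' (Nat.eq_one_of_dvd_coprimes hU h dvd_rfl)
      · exact hp.one_lt.ne' (Nat.eq_one_of_dvd_coprimes hpr h dvd_rfl))
    (by rw [normalizer_eq_top]; exact le_top)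
    U R₀ le_sup_left (sup_le le_normalizer hR₀U) (by rw [hidx]; exact hcop.symm) le_sup_right
    hR₀p (Cfsg.Agent.Lib.Helper30SZ.inf_eq_bot_of_coprime hcop) rfl hCV
  have h2 : ⁅R₀, U⁆ ≤ U := le_normalizer_iff_commutator_le_right.mp hR₀U
  have h3 : ⁅R₀, U⁆ = ⊥ := by
    rw [eq_bot_iff, ← hCUV]
    exact le_inf h2 h
  rw [commutator_comm] at h3
  exact commutator_eq_bot_iff_le_centralizer.mp h3

end Cfsg.Agent.Lib.Helper3BG36caseA1
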