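import Cfsg.Prelude

/-! PROJECT 87, piece `caseA2`. -/

set_option autoImplicit false
open Cfsg Subgroup

namespace Cfsg.Agent.Lib.Helper3BG36caseA2

/-- the derived group of a group normalising a cyclic group centralises it. -/
theorem derived_le_centralizer_of_cyclic {G : Type*} [Group G] {M C : Subgroup G}
    (hC : IsCyclic C) (hM : M ≤ normalizer (C : Set G)) :
    ⁅M, M⁆ ≤ centralizer (C : Set G) := by
  obtain ⟨⟨c, hcC⟩, hc⟩ := hC.exists_generator
  have hgen : ∀ x ∈ C, ∃ k : ℤ, x = c ^ k := by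
    intro x hx
    obtain ⟨k, hk⟩ := mem_zpowers_iff.mp (hc ⟨x, hx⟩)
    exact ⟨k, by simpa using (congrArg Subtype.val hk).symm⟩
  have hconj : ∀ a ∈ M, ∃ i : ℤ, a * c * a⁻¹ = c ^ i := by
    intro a ha
    exact hgen _ ((mem_normalizer_iff.mp (hM ha) c).mp hcC)
  have hT : ∀ a ∈ M, ∀ b ∈ M, ∀ x ∈ C, a * (b * x * b⁻¹) * a⁻¹ = b * (a * x * a⁻¹) * b⁻¹ := by
    intro a ha b hb x hx
    obtain ⟨k, rfl⟩ := hgen x hx
    obtain ⟨i, hi⟩ := hconj a ha
    obtain ⟨j, hj⟩ := hconj b hb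
    have e1 : a * (b * c ^ k * b⁻¹) * a⁻¹ = c ^ (i * (j * k)) := by
      rw [← conj_zpow, hj, ← zpow_mul, ← conj_zpow, hi, ← zpow_mul]
    have e2 : b * (a * c ^ k * a⁻¹) * b⁻¹ = c ^ (j * (i * k)) := by
      rw [← conj_zpow, hi, ← zpow_mul, ← conj_zpow, hj, ← zpow_mul]
    rw [e1, e2]
    congr 1
    ring
  rw [commutator_le]
  intro a ha b hb
  rw [mem_centralizer_iff]
  intro x hx
  have hy : a⁻¹ * (b⁻¹ * x * b) * a ∈ C := by
    have h1 : b⁻¹ * x * b ∈ C := (mem_normalizer_iff''.mp (hM hb) x).mp hx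
    exact (mem_normalizer_iff''.mp (hM ha) _).mp h1
  have h := hT a ha b hb _ hy
  have e1 : b * (a * (a⁻¹ * (b⁻¹ * x * b) * a) * a⁻¹) * b⁻¹ = x := by group
  rw [e1] at h
  rw [commutatorElement_def]
  calc x * (a * b * a⁻¹ * b⁻¹)
      = (a * (b * (a⁻¹ * (b⁻¹ * x * b) * a) * b⁻¹) * a⁻¹) * (a * b * a⁻¹ * b⁻¹) := by rw [h]
    _ = a * b * a⁻¹ * b⁻¹ * x := by group

theorem normalizer_le_normalizer_derived {G : Type*} [Group G] (U : Subgroup G) :
    normalizer (U : Set G) ≤ normalizer ((⁅U, U⁆ : Subgroup G) : Set G) := by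
  rw [le_normalizer_iff]
  intro g hg k hk
  have h1 : U.map (MulAut.conj g).toMonoidHom ≤ U := by
    rintro _ ⟨u, hu, rfl⟩
    exact (mem_normalizer_iff.mp hg u).mp hu
  have h2 : (⁅U, U⁆).map (MulAut.conj g).toMonoidHom ≤ ⁅U, U⁆ := by
    rw [map_commutator]
    exact commutator_mono h1 h1
  exact h2 ⟨k, hk, rfl⟩

/-- piece `caseA2` (pure group theory) -/
theorem caseA2 {G : Type*} [Group G] [Finite G] (U K R : Subgroup G) (hUK : U ≤ K)
    (hKU : K ≤ normalizer (U : Set G)) (hRU : R ≤ normalizer (U : Set G))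
    (hRK : R ≤ normalizer (K : Set G)) (hKR : ⁅K, R⁆ = K) (hZ : IsZGroup ↥U) :
    K ≤ centralizer (U : Set G) := by
  have hM : K ⊔ R ≤ normalizer (U : Set G) := sup_le hKU hRU
  have hKM : K ≤ ⁅K ⊔ R, K ⊔ R⁆ := by
    conv_lhs => rw [← hKR]
    exact commutator_mono le_sup_left le_sup_right
  have hU' : IsCyclic ↥⁅U, U⁆ := by
    have h1 : IsCyclic (commutator ↥U) := IsZGroup.isCyclic_commutator _
    rw [← map_subtype_commutator]
    exact (equivMapOfInjective _ _ (subtype_injective U)).isCyclic.mp h1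
  have h1 : K ≤ centralizer ((⁅U, U⁆ : Subgroup G) : Set G) :=
    hKM.trans (derived_le_centralizer_of_cyclic hU' (hM.trans (normalizer_le_normalizer_derived U)))
  have h2 : ⁅⁅U, U⁆, U⁆ = ⊥ :=
    commutator_eq_bot_iff_le_centralizer.mpr (le_centralizer_iff.mp (hUK.trans h1))
  have hnil : Group.IsNilpotent U := isNilpotent_of_lowerCentralSeries_eq_bot (n := 2) h2
  have hcyc : IsCyclic U := inferInstance
  exact hKM.trans (derived_le_centralizer_of_cyclic hcyc hM)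

end Cfsg.Agent.Lib.Helper3BG36caseA2
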