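import Cfsg.Prelude
import Cfsg.Agent.S0023

/-! PROJECT 87, piece `existsS`. -/

set_option autoImplicit false
open Cfsg Subgroup

namespace Cfsg.Agent.Lib.Helper3BG36existsS

/-- piece `existsS`: an `R`-invariant Sylow `p`-subgroup of `X ⊓ N(U)`. -/
theorem existsS {G : Type*} [Group G] [Finite G] [Group.IsSolvable G] (p : ℕ) [Fact p.Prime]
    (V W X U R : Subgroup G) [V.Normal] [W.Normal] [X.Normal] (hWX : W ≤ X)
    (hVU : V ⊓ U = ⊥) (hVUW : V ⊔ U = W) (hVN : V ⊔ normalizer (U : Set G) = ⊤)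
    (hXW : ∃ m : ℕ, W.relIndex X = p ^ m) (hRU : R ≤ normalizer (U : Set G))
    (hcop : (Nat.card R).Coprime (Nat.card X)) :
    ∃ S : Subgroup G, S ≤ X ∧ S ≤ normalizer (U : Set G) ∧ IsPGroup p S ∧
      R ≤ normalizer (S : Set G) ∧ W ⊔ S = X := by
  have hp : p.Prime := Fact.out
  obtain ⟨X₀, hX₀⟩ : ∃ X₀, X₀ = X ⊓ normalizer (U : Set G) := ⟨_, rfl⟩
  have hX₀X : X₀ ≤ X := hX₀ ▸ inf_le_left
  have hX₀N : X₀ ≤ normalizer (U : Set G) := hX₀ ▸ inf_le_right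
  have hVW : V ≤ W := hVUW ▸ le_sup_left
  have hRX₀ : R ≤ normalizer (X₀ : Set G) := by
    rw [le_normalizer_iff]
    intro r hr x hx
    rw [hX₀] at hx ⊢
    refine ⟨‹X.Normal›.conj_mem x hx.1 r, ?_⟩
    exact (normalizer (U : Set G)).mul_mem ((normalizer (U : Set G)).mul_mem (hRU hr) hx.2)
      ((normalizer (U : Set G)).inv_mem (hRU hr))
  obtain ⟨P, hP⟩ := Cfsg.Agent.S0023.result R X₀ hRX₀
    (Nat.Coprime.coprime_dvd_right (card_dvd_of_le hX₀X) hcop) (Or.inl inferInstance) p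
  obtain ⟨S, hS⟩ : ∃ S, S = (P : Subgroup X₀).map X₀.subtype := ⟨_, rfl⟩
  have hSX₀ : S ≤ X₀ := hS ▸ map_subtype_le _
  have hsup : X₀ ⊔ W = X := by
    apply le_antisymm (sup_le hX₀X hWX)
    intro x hx
    have h1 : x ∈ V ⊔ normalizer (U : Set G) := by rw [hVN]; exact mem_top x
    obtain ⟨v, hv, n, hn, rfl⟩ := mem_sup_of_normal_left.mp h1
    have hnX : n ∈ X := by
      have h2 : n = v⁻¹ * (v * n) := by group
      rw [h2]
      exact mul_mem (inv_mem (hWX (hVW hv))) hx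
    exact mul_mem (mem_sup_right (hVW hv)) (mem_sup_left (hX₀ ▸ ⟨hnX, hn⟩))
  have hidx : S.relIndex X₀ = (P : Subgroup X₀).index := by
    rw [hS, relIndex, subgroupOf, comap_map_eq_self_of_injective (subtype_injective X₀)]
  obtain ⟨m, hm⟩ := hXW
  have h1 : (W ⊔ S).relIndex X₀ ∣ S.relIndex X₀ := relIndex_dvd_of_le_left X₀ le_sup_right
  have h2 : (W ⊔ S).relIndex X₀ ∣ p ^ m := by
    rw [← hm, ← hsup, relIndex_sup_right]
    exact relIndex_dvd_of_le_left X₀ le_sup_left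
  have h3 : (W ⊔ S).relIndex X₀ = 1 := by
    obtain ⟨k, -, hk⟩ := (Nat.dvd_prime_pow hp).mp h2
    rcases Nat.eq_zero_or_pos k with h0 | h0
    · rw [hk, h0, pow_zero]
    · exfalso
      apply P.not_dvd_index
      rw [← hidx]
      refine dvd_trans ?_ h1
      rw [hk]
      exact dvd_pow_self p h0.ne'
  refine ⟨S, hSX₀.trans hX₀X, hSX₀.trans hX₀N, hS ▸ P.2.map _, hS ▸ hP, ?_⟩
  apply le_antisymm (sup_le hWX (hSX₀.trans hX₀X))
  rw [← hsup]
  exact sup_le (relIndex_eq_one.mp h3) le_sup_left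

end Cfsg.Agent.Lib.Helper3BG36existsS
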