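import Cfsg.Prelude

set_option autoImplicit false

namespace Cfsg.Agent.Lib.Helper87BG36Defs

variable {G : Type*} [Group G]

/-- `H / N` has a `G`-normal series `N ≤ W ≤ X ≤ H` of type `p', p, p'`. -/
def PL1Rel (p : ℕ) (N H : Subgroup G) : Prop :=
  ∃ W X : Subgroup G, W.Normal ∧ X.Normal ∧ N ≤ W ∧ W ≤ X ∧ X ≤ H ∧
    (N.relIndex W).Coprime p ∧ (∃ m : ℕ, W.relIndex X = p ^ m) ∧ (X.relIndex H).Coprime p

end Cfsg.Agent.Lib.Helper87BG36Defs
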