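import Cfsg.Prelude
import Cfsg.Agent.S0027
import Cfsg.Agent.Lib.Helper30SZ
import Cfsg.Agent.Lib.Helper87BG36Defs

/-! PROJECT 87, piece `general`. -/

set_option autoImplicit false
open Cfsg Subgroup

namespace Cfsg.Agent.Lib.Helper3BG36general
open Cfsg.Agent.Lib.Helper87BG36Defs Cfsg.Agent.Lib.Helper30SZ

theorem le_normalizer_map_subtype {G : Type*} [Group G] {T : Subgroup G} (W : Subgroup T)
    [hW : W.Normal] : T ≤ normalizer ((W.map T.subtype : Subgroup G) : Set G) := by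
  rw [le_normalizer_iff]
  rintro t ht _ ⟨w, hw, rfl⟩
  exact ⟨⟨t, ht⟩ * w * ⟨t, ht⟩⁻¹, hW.conj_mem w hw _, rfl⟩

/-- piece `general`: reduction of S1444 to the case `⁅H, R⁆ = H`. -/
theorem general.{u} {G : Type u} [Group G] [Finite G] [Group.IsSolvable G]
    (hodd : Odd (Nat.card G))
    (H R R₀ : Subgroup G) [H.Normal] (hHall : (Nat.card H).Coprime H.index)
    (hR : IsComplement' H R) (hR₀ : R₀ ≤ R) (hR₀p : (Nat.card R₀).Prime)
    (hZ : IsZGroup ↥(H ⊓ centralizer (R₀ : Set G))) (p : ℕ) [Fact p.Prime]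
    (main : ∀ (G' : Type u) [Group G'] [Finite G'] [Group.IsSolvable G'], Odd (Nat.card G') →
      ∀ (H' R' R₀' : Subgroup G') [H'.Normal], (Nat.card H').Coprime H'.index →
      IsComplement' H' R' → R₀' ≤ R' → (Nat.card R₀').Prime →
      IsZGroup ↥(H' ⊓ centralizer (R₀' : Set G')) → ⁅H', R'⁆ = H' → PL1Rel p ⊥ H') :
    ∃ W X : Subgroup G, ⁅H, R⁆ ≤ normalizer (W : Set G) ∧ ⁅H, R⁆ ≤ normalizer (X : Set G) ∧
      W ≤ X ∧ X ≤ ⁅H, R⁆ ∧ (Nat.card W).Coprime p ∧ (∃ m : ℕ, W.relIndex X = p ^ m) ∧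
      (X.relIndex ⁅H, R⁆).Coprime p := by
  have hRcard : Nat.card R = H.index := by
    have h1 := hR.card_mul_card
    have h2 := H.card_mul_index
    exact Nat.eq_of_mul_eq_mul_left Nat.card_pos (h1.trans h2.symm)
  have hRH : (Nat.card R).Coprime (Nat.card H) := by rw [hRcard]; exact hHall.symm
  have hRnH : R ≤ normalizer (H : Set G) := by rw [normalizer_eq_top]; exact le_top
  obtain ⟨L, hL⟩ : ∃ L, L = ⁅H, R⁆ := ⟨_, rfl⟩
  have hLH : L ≤ H := hL ▸ commutator_le_of_le_normalizer hRnH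
  have hRL : R ≤ normalizer (L : Set G) := hL ▸ le_normalizer_commutator hRnH le_normalizer
  have hRLc : (Nat.card R).Coprime (Nat.card L) :=
    Nat.Coprime.coprime_dvd_right (card_dvd_of_le hLH) hRH
  have hLR : ⁅L, R⁆ = L := by
    rw [hL]
    exact Cfsg.Agent.S0027.result R H hRnH hRH (Or.inl inferInstance)
  obtain ⟨T, hT⟩ : ∃ T, T = L ⊔ R := ⟨_, rfl⟩
  have hLT : L ≤ T := hT ▸ le_sup_left
  have hRT : R ≤ T := hT ▸ le_sup_right
  have hTL : T ≤ normalizer (L : Set G) := hT ▸ sup_le le_normalizer hRL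
  have hn : (L.subgroupOf T).Normal := (normal_subgroupOf_iff_le_normalizer hLT).mpr hTL
  have hcompl : IsComplement' (L.subgroupOf T) (R.subgroupOf T) := by
    rw [hT]
    exact isComplement'_subgroupOf_sup hRL hRLc
  have hidx : (L.subgroupOf T).index = Nat.card R := by
    have h1 := hcompl.card_mul_card
    have h2 := (L.subgroupOf T).card_mul_index
    rw [← card_subgroupOf_of_le hRT]
    exact (Nat.eq_of_mul_eq_mul_left Nat.card_pos (h1.trans h2.symm)).symm
  have hZ' : IsZGroup ↥(L.subgroupOf T ⊓ centralizer ((R₀.subgroupOf T : Subgroup T) : Set T)) := by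
    have hmem : ∀ x : ↥(L.subgroupOf T ⊓ centralizer ((R₀.subgroupOf T : Subgroup T) : Set T)),
        ((x : T) : G) ∈ H ⊓ centralizer (R₀ : Set G) := by
      intro x
      refine ⟨hLH (mem_subgroupOf.mp x.2.1), ?_⟩
      show ((x : T) : G) ∈ centralizer (R₀ : Set G)
      rw [mem_centralizer_iff]
      intro a ha
      have h1 := (mem_centralizer_iff.mp x.2.2) ⟨a, hRT (hR₀ ha)⟩ (mem_subgroupOf.mpr ha)
      exact congrArg Subtype.val h1
    let f : ↥(L.subgroupOf T ⊓ centralizer ((R₀.subgroupOf T : Subgroup T) : Set T)) →*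
        ↥(H ⊓ centralizer (R₀ : Set G)) :=
      (T.subtype.comp (Subgroup.subtype _)).codRestrict _ hmem
    apply IsZGroup.of_injective (f := f)
    intro x y hxy
    apply Subtype.ext
    apply Subtype.ext
    have h5 : ((f x : ↥(H ⊓ centralizer (R₀ : Set G))) : G) = (f y : G) := congrArg Subtype.val hxy
    exact h5
  have hcomm : ⁅L.subgroupOf T, R.subgroupOf T⁆ = L.subgroupOf T := by
    apply map_injective (subtype_injective T)
    rw [map_commutator, map_subgroupOf_eq_of_le hLT, map_subgroupOf_eq_of_le hRT, hLR]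
  obtain ⟨W, X, hWn, hXn, -, hWX, hXL, h1, ⟨m, h2⟩, h3⟩ := main ↥T
    (hodd.of_dvd_nat (card_subgroup_dvd_card _)) (L.subgroupOf T) (R.subgroupOf T)
    (R₀.subgroupOf T)
    (by rw [hidx, card_subgroupOf_of_le hLT]; exact hRLc.symm) hcompl
    (fun x hx => mem_subgroupOf.mpr (hR₀ (mem_subgroupOf.mp hx)))
    (by rw [card_subgroupOf_of_le (hR₀.trans hRT)]; exact hR₀p) hZ' hcomm
  rw [← hL]
  refine ⟨W.map T.subtype, X.map T.subtype, hLT.trans (le_normalizer_map_subtype W),
    hLT.trans (le_normalizer_map_subtype X), map_mono hWX, ?_, ?_, ⟨m, ?_⟩, ?_⟩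
  · rintro _ ⟨x, hx, rfl⟩
    exact mem_subgroupOf.mp (hXL hx)
  · rw [card_map_of_injective (subtype_injective T)]
    rwa [relIndex_bot_left] at h1
  · rw [relIndex_map_map_of_injective _ _ (subtype_injective T), h2]
  · conv_lhs => rw [← map_subgroupOf_eq_of_le hLT]
    rw [relIndex_map_map_of_injective _ _ (subtype_injective T)]
    exact h3

end Cfsg.Agent.Lib.Helper3BG36general
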