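import Cfsg.Prelude
import Cfsg.Agent.S0022
import Cfsg.Agent.Lib.Helper12Hall

/-! PROJECT 87, piece `quot`. -/

set_option autoImplicit false
open Cfsg Subgroup

namespace Cfsg.Agent.Lib.Helper3BG36quot

/-- piece `quot`: the hypotheses pass to `G ⧸ N`. -/
theorem quot {G : Type*} [Group G] [Finite G] [Group.IsSolvable G]
    (H R R₀ N : Subgroup G) [H.Normal] [N.Normal] (hNH : N ≤ H)
    (hHall : (Nat.card H).Coprime H.index) (hR : IsComplement' H R) (hR₀ : R₀ ≤ R)
    (hR₀p : (Nat.card R₀).Prime) (hZ : IsZGroup ↥(H ⊓ centralizer (R₀ : Set G)))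
    (hHR : ⁅H, R⁆ = H) :
    (Nat.card (H.map (QuotientGroup.mk' N))).Coprime (H.map (QuotientGroup.mk' N)).index ∧
    IsComplement' (H.map (QuotientGroup.mk' N)) (R.map (QuotientGroup.mk' N)) ∧
    (Nat.card (R₀.map (QuotientGroup.mk' N))).Prime ∧
    IsZGroup ↥(H.map (QuotientGroup.mk' N) ⊓
      centralizer ((R₀.map (QuotientGroup.mk' N) : Subgroup (G ⧸ N)) : Set (G ⧸ N))) ∧
    ⁅H.map (QuotientGroup.mk' N), R.map (QuotientGroup.mk' N)⁆ = H.map (QuotientGroup.mk' N) := by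
  have hsurj : Function.Surjective (QuotientGroup.mk' N) := QuotientGroup.mk'_surjective N
  have hRcard : Nat.card R = H.index := by
    have h1 := hR.card_mul_card
    have h2 := H.card_mul_index
    exact Nat.eq_of_mul_eq_mul_left Nat.card_pos (h1.trans h2.symm)
  have hRH : (Nat.card R).Coprime (Nat.card H) := by rw [hRcard]; exact hHall.symm
  have hidx : (H.map (QuotientGroup.mk' N)).index = H.index :=
    index_map_eq _ hsurj (by rw [QuotientGroup.ker_mk']; exact hNH)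
  have hcop' : (Nat.card (H.map (QuotientGroup.mk' N))).Coprime
      (Nat.card (R.map (QuotientGroup.mk' N))) :=
    Nat.Coprime.coprime_dvd_left (card_map_dvd _ _)
      (Nat.Coprime.coprime_dvd_right (card_map_dvd _ _) hRH.symm)
  refine ⟨?_, ?_, ?_, ?_, ?_⟩
  · rw [hidx]
    exact Nat.Coprime.coprime_dvd_left (card_map_dvd _ _) hHall
  · apply isComplement'_of_disjoint_and_mul_eq_univ (disjoint_of_coprime_natCard hcop')
    rw [Set.eq_univ_iff_forall]
    intro x
    obtain ⟨g, rfl⟩ := hsurj x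
    obtain ⟨⟨h, r⟩, hhr⟩ := hR.2 g
    refine Set.mem_mul.mpr ⟨_, ⟨h, h.2, rfl⟩, _, ⟨r, r.2, rfl⟩, ?_⟩
    rw [← map_mul]
    exact congrArg _ hhr
  · have h1 := Cfsg.Agent.Lib.Helper12Hall.card_map_mk' N R₀
    have h2 : R₀ ⊓ N = ⊥ := by
      rw [eq_bot_iff]
      have h3 : R ⊓ H = ⊥ := (disjoint_of_coprime_natCard hRH).eq_bot
      rw [← h3]
      exact inf_le_inf hR₀ hNH
    rw [h2, card_bot, one_mul] at h1
    rw [h1]
    exact hR₀p
  · have hmem : ∀ x : ↥(H ⊓ centralizer (R₀ : Set G)), QuotientGroup.mk' N (x : G) ∈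
        H.map (QuotientGroup.mk' N) ⊓
          centralizer ((R₀.map (QuotientGroup.mk' N) : Subgroup (G ⧸ N)) : Set (G ⧸ N)) := by
      intro x
      refine ⟨⟨x, x.2.1, rfl⟩, ?_⟩
      show QuotientGroup.mk' N (x : G) ∈
        centralizer ((R₀.map (QuotientGroup.mk' N) : Subgroup (G ⧸ N)) : Set (G ⧸ N))
      rw [mem_centralizer_iff]
      rintro _ ⟨a, ha, rfl⟩
      rw [← map_mul, ← map_mul, (mem_centralizer_iff.mp x.2.2) a ha]
    let f : ↥(H ⊓ centralizer (R₀ : Set G)) →* ↥(H.map (QuotientGroup.mk' N) ⊓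
        centralizer ((R₀.map (QuotientGroup.mk' N) : Subgroup (G ⧸ N)) : Set (G ⧸ N))) :=
      ((QuotientGroup.mk' N).comp (Subgroup.subtype _)).codRestrict _ hmem
    apply IsZGroup.of_surjective (f := f)
    rintro ⟨y, ⟨k, hk, rfl⟩, hy2⟩
    have hfix : ∀ a ∈ R₀, a * k * a⁻¹ * k⁻¹ ∈ N := by
      intro a ha
      have h1 := (mem_centralizer_iff.mp hy2) (QuotientGroup.mk' N a) ⟨a, ha, rfl⟩
      rw [← QuotientGroup.eq_one_iff]
      have h2 : ((a * k * a⁻¹ * k⁻¹ : G) : G ⧸ N) =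
          QuotientGroup.mk' N a * QuotientGroup.mk' N k * (QuotientGroup.mk' N a)⁻¹ *
            (QuotientGroup.mk' N k)⁻¹ := by
        simp
      rw [h2, h1]
      group
    obtain ⟨c, hc, hcN⟩ := Cfsg.Agent.S0022.result R₀ H
      (by rw [normalizer_eq_top]; exact le_top)
      (Nat.Coprime.coprime_dvd_left (card_dvd_of_le hR₀) hRH) (Or.inl inferInstance) N hNH
      (by rw [normalizer_eq_top]; exact le_top) (by rw [normalizer_eq_top]; exact le_top)
      k hk hfix
    refine ⟨⟨c, hc⟩, ?_⟩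
    apply Subtype.ext
    show QuotientGroup.mk' N c = QuotientGroup.mk' N k
    exact (QuotientGroup.eq.mpr hcN).symm
  · rw [← map_commutator, hHR]

end Cfsg.Agent.Lib.Helper3BG36quot
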