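import Mathlib
import Cfsg.Agent.Lib.H69G4Ord

set_option autoImplicit false
set_option linter.unusedVariables false
set_option linter.unusedSectionVars false

/-! Abstract order arguments for row S0678 (plan of helper69, shortened). -/

namespace Cfsg.Agent.Lib.Helper3Deg7A

open Cfsg Cfsg.Agent.Lib.H69G4Ord

theorem solv_ext {X : Type*} [Group X] (N : Subgroup X) [N.Normal] (h1 : Group.IsSolvable N)
    (h2 : Group.IsSolvable (X ⧸ N)) : Group.IsSolvable X :=
  (Group.isSolvable_iff_subgroup_quotient N).2 ⟨h1, h2⟩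

theorem solv_of_normal_sylow {X : Type*} [Group X] [Finite X] (P : Sylow 7 X)
    (hP : (P : Subgroup X).Normal) (a b : ℕ) (h : Nat.card X ∣ 7 * (2 ^ a * 3 ^ b)) :
    Group.IsSolvable X := by
  haveI : Fact (Nat.Prime 7) := ⟨by norm_num⟩
  haveI := hP
  obtain ⟨n, hn⟩ := IsPGroup.iff_card.1 P.2
  apply solv_ext (P : Subgroup X)
  · apply solvable_of_dvd 7 2 n 0 (by norm_num) Nat.prime_two
    rw [hn]; simp
  · apply solvable_of_dvd 2 3 a b Nat.prime_two Nat.prime_three
    have h1 : Nat.card (X ⧸ (P : Subgroup X)) = (P : Subgroup X).index := rfl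
    rw [h1]
    have h2 : (P : Subgroup X).index ∣ 7 * (2 ^ a * 3 ^ b) :=
      ((P : Subgroup X).index_dvd_card).trans h
    have h3 : Nat.Coprime (P : Subgroup X).index 7 := by
      rw [Nat.coprime_comm]
      exact (Nat.Prime.coprime_iff_not_dvd (by norm_num)).2 P.not_dvd_index
    exact h3.dvd_of_dvd_mul_left h2

theorem normal_of_card_sylow_eq_one {X : Type*} [Group X] [Finite X] (P : Sylow 7 X)
    (h : Nat.card (Sylow 7 X) = 1) : (P : Subgroup X).Normal := by
  haveI : Fact (Nat.Prime 7) := ⟨by norm_num⟩
  rw [P.card_eq_index_normalizer, Subgroup.index_eq_one] at h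
  exact Subgroup.normalizer_eq_top_iff.1 h

theorem solv_84 {X : Type*} [Group X] [Finite X] (h : Nat.card X ∣ 84) : Group.IsSolvable X := by
  haveI : Fact (Nat.Prime 7) := ⟨by norm_num⟩
  let P : Sylow 7 X := default
  have h1 : Nat.card (Sylow 7 X) ∣ (P : Subgroup X).index := P.card_dvd_index
  have h2 : (P : Subgroup X).index ∣ 7 * 12 := ((P : Subgroup X).index_dvd_card).trans h
  have h3 : Nat.Coprime (P : Subgroup X).index 7 := by
    rw [Nat.coprime_comm]
    exact (Nat.Prime.coprime_iff_not_dvd (by norm_num)).2 P.not_dvd_index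
  have h4 : (P : Subgroup X).index ∣ 12 := h3.dvd_of_dvd_mul_left h2
  have h5 : Nat.card (Sylow 7 X) ∣ 12 := h1.trans h4
  have h6 : Nat.card (Sylow 7 X) % 7 = 1 := card_sylow_modEq_one 7 X
  have h7 : Nat.card (Sylow 7 X) = 1 := by
    have hle : Nat.card (Sylow 7 X) ≤ 12 := Nat.le_of_dvd (by norm_num) h5
    generalize Nat.card (Sylow 7 X) = n at *
    interval_cases n <;> omega
  exact solv_of_normal_sylow P (normal_of_card_sylow_eq_one P h7) 2 1 (by simpa using h)

theorem solv_lt168 {X : Type*} [Group X] [Finite X] (h : Nat.card X ∣ 168)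
    (hne : Nat.card X ≠ 168) : Group.IsSolvable X := by
  have key : Nat.card X ∣ 84 ∨ Nat.card X ∣ 56 ∨ Nat.card X ∣ 24 := by
    have hle : Nat.card X ≤ 168 := Nat.le_of_dvd (by norm_num) h
    generalize Nat.card X = n at *
    interval_cases n <;> omega
  rcases key with h1 | h1 | h1
  · exact solv_84 h1
  · exact solvable_of_dvd 2 7 3 1 Nat.prime_two (by norm_num) (by simpa using h1)
  · exact solvable_of_dvd 2 3 3 1 Nat.prime_two Nat.prime_three (by simpa using h1)

theorem card168 {K : Type*} [Group K] [Finite K] (hns : ¬ Group.IsSolvable K)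
    (h504 : Nat.card K ∣ 504) (h7 : 7 ∣ Nat.card K) (hle : Nat.card K ≤ 360) :
    Nat.card K = 168 := by
  haveI : Fact (Nat.Prime 7) := ⟨by norm_num⟩
  let P : Sylow 7 K := default
  obtain ⟨n, hn⟩ := IsPGroup.iff_card.1 P.2
  have hPc : Nat.card P = 7 := by
    have h1 : 7 ^ n ∣ 504 := by
      rw [← hn]; exact ((P : Subgroup K).card_subgroup_dvd_card).trans h504
    have hn1 : n ≤ 1 := by
      by_contra hcon
      push Not at hcon
      have : 7 ^ 2 ∣ 504 := (pow_dvd_pow 7 hcon).trans h1
      omega
    have hn0 : n ≠ 0 := by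
      rintro rfl
      have h2 := (P : Subgroup K).index_mul_card
      rw [hn, pow_zero, mul_one] at h2
      exact P.not_dvd_index (h2 ▸ h7)
    have : n = 1 := by omega
    rw [hn, this, pow_one]
  have hmod : Nat.card (Sylow 7 K) % 7 = 1 := card_sylow_modEq_one 7 K
  have hidx : Nat.card (Sylow 7 K) = (Subgroup.normalizer ((P : Subgroup K) : Set K)).index :=
    P.card_eq_index_normalizer
  have hmul := (Subgroup.normalizer ((P : Subgroup K) : Set K)).index_mul_card
  have hPle : (P : Subgroup K) ≤ Subgroup.normalizer ((P : Subgroup K) : Set K) :=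
    Subgroup.le_normalizer
  have hdvd : 7 ∣ Nat.card (Subgroup.normalizer ((P : Subgroup K) : Set K)) := by
    have := Subgroup.card_dvd_of_le hPle
    rwa [hPc] at this
  obtain ⟨c, hc⟩ := hdvd
  rw [← hidx, hc] at hmul
  have h72 : Nat.card (Sylow 7 K) * c ∣ 72 := by
    have : 7 * (Nat.card (Sylow 7 K) * c) ∣ 7 * 72 := by
      have e : 7 * (Nat.card (Sylow 7 K) * c) = Nat.card K := by rw [← hmul]; ring
      rw [e]; exact h504
    exact Nat.dvd_of_mul_dvd_mul_left (by norm_num) this
  have hn7 : Nat.card (Sylow 7 K) = 1 ∨ Nat.card (Sylow 7 K) = 8 ∨ Nat.card (Sylow 7 K) = 36 := by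
    have h1 : Nat.card (Sylow 7 K) ∣ 72 := (Dvd.intro _ rfl).trans h72
    have hle : Nat.card (Sylow 7 K) ≤ 72 := Nat.le_of_dvd (by norm_num) h1
    generalize Nat.card (Sylow 7 K) = m at *
    interval_cases m <;> omega
  rcases hn7 with h1 | h8 | h36
  · exfalso
    apply hns
    exact solv_of_normal_sylow P (normal_of_card_sylow_eq_one P h1) 3 2 (by simpa using h504)
  · rw [h8] at hmul h72
    have hc9 : c ∣ 9 := Nat.dvd_of_mul_dvd_mul_left (by norm_num : 0 < 8) (by simpa using h72)
    have hc' : c = 1 ∨ c = 3 ∨ c = 9 := by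
      have hle : c ≤ 9 := Nat.le_of_dvd (by norm_num) hc9
      interval_cases c <;> omega
    rcases hc' with rfl | rfl | rfl
    · exfalso
      apply hns
      apply solvable_of_dvd 2 7 3 1 Nat.prime_two (by norm_num)
      rw [← hmul]
      norm_num
    · omega
    · omega
  · rw [h36] at hmul h72
    have hc2 : c ∣ 2 := Nat.dvd_of_mul_dvd_mul_left (by norm_num : 0 < 36) (by simpa using h72)
    have hc' : c = 1 ∨ c = 2 := by
      have hle : c ≤ 2 := Nat.le_of_dvd (by norm_num) hc2
      interval_cases c <;> omega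
    rcases hc' with rfl | rfl
    · exfalso
      apply hns
      have hNP : Subgroup.normalizer ((P : Subgroup K) : Set K) = (P : Subgroup K) := by
        symm
        apply Subgroup.eq_of_le_of_card_ge hPle
        rw [hc, hPc]
      have hcyc : IsCyclic (P : Subgroup K) := isCyclic_of_prime_card hPc
      have hcomm : ∀ a b : (P : Subgroup K), a * b = b * a := by
        intro a b
        letI := hcyc.commGroup
        exact mul_comm a b
      have hP : Subgroup.normalizer ((P : Subgroup K) : Set K) ≤
          Subgroup.centralizer ((P : Subgroup K) : Set K) := by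
        rw [hNP]
        intro x hx
        rw [Subgroup.mem_centralizer_iff]
        intro y hy
        exact congrArg Subtype.val (hcomm ⟨y, hy⟩ ⟨x, hx⟩)
      have hcompl := MonoidHom.ker_transferSylow_isComplement' P hP
      have hcard := hcompl.card_mul_card
      rw [hPc] at hcard
      have hM : Nat.card (MonoidHom.transferSylow P hP).ker = 36 := by omega
      apply solv_ext (MonoidHom.transferSylow P hP).ker
      · apply solvable_of_dvd 2 3 2 2 Nat.prime_two Nat.prime_three
        rw [hM]
        norm_num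
      · apply solvable_of_dvd 7 2 1 0 (by norm_num) Nat.prime_two
        have h1 : Nat.card (K ⧸ (MonoidHom.transferSylow P hP).ker) =
            (MonoidHom.transferSylow P hP).ker.index := rfl
        have h2 := (MonoidHom.transferSylow P hP).ker.index_mul_card
        rw [hM] at h2
        rw [h1]
        have : (MonoidHom.transferSylow P hP).ker.index = 7 := by omega
        rw [this]
        norm_num
    · omega

end Cfsg.Agent.Lib.Helper3Deg7A
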