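import Mathlib
import Cfsg.Agent.Lib.Helper3Deg7A
import Cfsg.Agent.Lib.H69G4T7
import Cfsg.Agent.Lib.H69G4AltTop
import Cfsg.Agent.Lib.H69G4AltIdx

set_option autoImplicit false
set_option linter.unusedVariables false
set_option linter.unusedSectionVars false

/-! Permutation part of row S0678 on `Fin 7` (plan of helper69, shortened). -/

namespace Cfsg.Agent.Lib.Helper3Deg7B

open Cfsg Equiv Equiv.Perm MulAction Cfsg.Agent.Lib.H69G4Ord

theorem trans_of_seven (K : Subgroup (Perm (Fin 7))) (h7 : 7 ∣ Nat.card K) :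
    IsPretransitive K (Fin 7) := by
  haveI : Fact (Nat.Prime 7) := ⟨by norm_num⟩
  obtain ⟨g, hg⟩ := exists_prime_orderOf_dvd_card' (G := K) 7 h7
  have hg1 : (g : Perm (Fin 7)) ≠ 1 := by
    intro h
    have : g = 1 := Subtype.ext h
    rw [this, orderOf_one] at hg
    omega
  obtain ⟨x, hx⟩ : ∃ x, (g : Perm (Fin 7)) x ≠ x := by
    by_contra hcon
    push Not at hcon
    exact hg1 (Equiv.ext hcon)
  have hZ : Nat.card (Subgroup.zpowers g) = 7 := by rw [Nat.card_zpowers, hg]
  have h1 : (orbit (Subgroup.zpowers g) x).ncard ∣ 7 := by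
    rw [← index_stabilizer]
    have := (stabilizer (Subgroup.zpowers g) x).index_dvd_card
    rwa [hZ] at this
  have h2 : (orbit (Subgroup.zpowers g) x).ncard ≠ 1 := by
    intro h
    rw [Set.ncard_eq_one] at h
    obtain ⟨a, ha⟩ := h
    have e1 : x ∈ orbit (Subgroup.zpowers g) x := mem_orbit_self x
    have e2 : (g : Perm (Fin 7)) x ∈ orbit (Subgroup.zpowers g) x :=
      ⟨⟨g, Subgroup.mem_zpowers g⟩, rfl⟩
    rw [ha, Set.mem_singleton_iff] at e1 e2
    exact hx (e2.trans e1.symm)
  have h3 : (orbit (Subgroup.zpowers g) x).ncard = 7 :=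
    ((Nat.dvd_prime (by norm_num)).1 h1).resolve_left h2
  have h4 : orbit (Subgroup.zpowers g) x = Set.univ := by
    apply Set.eq_of_subset_of_ncard_le (Set.subset_univ _)
    rw [h3, Set.ncard_univ]
    simp
  rw [isPretransitive_iff_base x]
  intro y
  have : y ∈ orbit (Subgroup.zpowers g) x := by rw [h4]; trivial
  obtain ⟨⟨k, hk⟩, rfl⟩ := this
  exact ⟨k, rfl⟩

theorem swap_of_16 (G : Subgroup (Perm (Fin 7))) (h16 : 16 ∣ Nat.card G) :
    ∃ g ∈ G, g.IsSwap := by
  haveI : Fact (Nat.Prime 2) := ⟨Nat.prime_two⟩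
  obtain ⟨S, hS⟩ := Sylow.exists_subgroup_card_pow_prime (G := G) 2 (n := 4) (by simpa using h16)
  have hS' : Nat.card (S.map G.subtype) = 16 := by
    rw [Subgroup.card_map_of_injective G.subtype_injective, hS]
    norm_num
  have hp : IsPGroup 2 (S.map G.subtype) := IsPGroup.of_card (n := 4) (by rw [hS']; norm_num)
  obtain ⟨Q', hQ'⟩ := hp.exists_le_sylow
  have hQc : Nat.card Q' = 16 := by
    obtain ⟨m, hm⟩ := IsPGroup.iff_card.1 Q'.2
    have h1 : 16 ∣ Nat.card Q' := hS' ▸ Subgroup.card_dvd_of_le hQ'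
    have h2 : Nat.card Q' ∣ 5040 := by
      have := (Q' : Subgroup (Perm (Fin 7))).card_subgroup_dvd_card
      rwa [Nat.card_eq_fintype_card (α := Perm (Fin 7)), Fintype.card_perm, Fintype.card_fin] at this
    rw [hm] at h1 h2
    have hm4 : m ≤ 4 := by
      by_contra hcon
      push Not at hcon
      have : 2 ^ 5 ∣ 5040 := (pow_dvd_pow 2 hcon).trans h2
      omega
    have hm4' : 4 ≤ m := by
      have : 2 ^ 4 ∣ 2 ^ m := by simpa using h1
      exact (Nat.pow_dvd_pow_iff_le_right (by norm_num)).1 this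
    have : m = 4 := le_antisymm hm4 hm4'
    rw [hm, this]
    norm_num
  have hSQ : S.map G.subtype = (Q' : Subgroup (Perm (Fin 7))) :=
    Subgroup.eq_of_le_of_card_ge hQ' (by rw [hQc, hS'])
  have hp2 : IsPGroup 2 (Subgroup.zpowers (swap (0 : Fin 7) 1)) := by
    apply IsPGroup.of_card (n := 1)
    rw [Nat.card_zpowers, pow_one]
    exact (swap_isSwap_iff.2 (by decide)).orderOf
  obtain ⟨Q, hQ⟩ := hp2.exists_le_sylow
  obtain ⟨g, hg⟩ := MulAction.exists_smul_eq (Perm (Fin 7)) Q Q'
  have hmem : swap (0 : Fin 7) 1 ∈ (Q : Subgroup (Perm (Fin 7))) := hQ (Subgroup.mem_zpowers _)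
  have hmem2 : g * swap (0 : Fin 7) 1 * g⁻¹ ∈ (Q' : Subgroup (Perm (Fin 7))) := by
    rw [← hg, Sylow.coe_subgroup_smul]
    exact Subgroup.smul_mem_pointwise_smul _ (MulAut.conj g) _ hmem
  refine ⟨g * swap (0 : Fin 7) 1 * g⁻¹, ?_, ?_⟩
  · rw [← hSQ] at hmem2
    obtain ⟨s, _, hs⟩ := hmem2
    rw [← hs]
    exact s.2
  · rw [← swap_apply_apply, swap_isSwap_iff]
    intro h
    exact absurd (g.injective h) (by decide)

theorem main7 (G : Subgroup (Perm (Fin 7))) (htr : IsPretransitive G (Fin 7))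
    (hG : ¬ Group.IsSolvable G) (hA : ¬ alternatingGroup (Fin 7) ≤ G) :
    Nat.card G = 168 ∧ IsSimpleGroup G := by
  have hcard := H69G4AltTop.card_inf_alt G
  have h7G : 7 ∣ Nat.card G := by
    have h1 := index_stabilizer_of_transitive (G := G) (x := (0 : Fin 7))
    have h2 := (stabilizer G (0 : Fin 7)).index_dvd_card
    rw [h1] at h2
    simpa using h2
  have h7K : 7 ∣ Nat.card ↥(G ⊓ alternatingGroup (Fin 7)) := by
    rcases hcard with h | h
    · rwa [h] at h7G
    · rw [h] at h7G
      exact (Nat.Coprime.dvd_of_dvd_mul_left (by norm_num) h7G)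
  have htrK := trans_of_seven _ h7K
  have hKns : ¬ Group.IsSolvable ↥(G ⊓ alternatingGroup (Fin 7)) := by
    intro hs
    apply hG
    haveI := H69G4AltTop.normal_inf_alt G
    apply Helper3Deg7A.solv_ext ((G ⊓ alternatingGroup (Fin 7)).subgroupOf G)
    · exact Group.isSolvable_of_isSolvable_injective
        (f := (Subgroup.subgroupOfEquivOfLe (inf_le_left :
          G ⊓ alternatingGroup (Fin 7) ≤ G)).toMonoidHom) (MulEquiv.injective _)
    · apply solvable_of_dvd 2 3 1 0 Nat.prime_two Nat.prime_three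
      have h1 : Nat.card (↥G ⧸ (G ⊓ alternatingGroup (Fin 7)).subgroupOf G) =
          ((G ⊓ alternatingGroup (Fin 7)).subgroupOf G).index := rfl
      have h2 := ((G ⊓ alternatingGroup (Fin 7)).subgroupOf G).index_mul_card
      rw [H69G4AltTop.card_subgroupOf_inf_alt] at h2
      rw [h1]
      have hpos : 0 < Nat.card ↥(G ⊓ alternatingGroup (Fin 7)) := Nat.card_pos
      rcases hcard with h | h
      · rw [h] at h2
        have : ((G ⊓ alternatingGroup (Fin 7)).subgroupOf G).index = 1 := by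
          nlinarith
        rw [this]; norm_num
      · rw [h] at h2
        have : ((G ⊓ alternatingGroup (Fin 7)).subgroupOf G).index = 2 :=
          Nat.eq_of_mul_eq_mul_right hpos h2
        rw [this]; norm_num
  have h5 : ¬ 5 ∣ Nat.card ↥(G ⊓ alternatingGroup (Fin 7)) := by
    intro h5
    apply hA
    have := H69G4T7.t7 _ inf_le_right htrK h5
    rw [← this]
    exact inf_le_left
  have hA7 : Nat.card (alternatingGroup (Fin 7)) = 2520 := by
    rw [nat_card_alternatingGroup]
    simp [Nat.factorial]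
  have hKd : Nat.card ↥(G ⊓ alternatingGroup (Fin 7)) ∣ 2520 :=
    hA7 ▸ Subgroup.card_dvd_of_le inf_le_right
  have h504 : Nat.card ↥(G ⊓ alternatingGroup (Fin 7)) ∣ 504 := by
    have hc : Nat.Coprime (Nat.card ↥(G ⊓ alternatingGroup (Fin 7))) 5 := by
      rw [Nat.coprime_comm]
      exact (Nat.Prime.coprime_iff_not_dvd Nat.prime_five).2 h5
    exact hc.dvd_of_dvd_mul_left (by simpa using hKd)
  have hle : Nat.card ↥(G ⊓ alternatingGroup (Fin 7)) ≤ 360 := by
    rcases H69G4AltIdx.alt_index (by norm_num) (G ⊓ alternatingGroup (Fin 7)) inf_le_right with h | h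
    · exfalso
      apply hA
      rw [← h]
      exact inf_le_left
    · rw [hA7] at h
      omega
  have hK168 := Helper3Deg7A.card168 hKns h504 h7K hle
  have hG168 : Nat.card G = 168 := by
    rcases hcard with h | h
    · rw [h, hK168]
    · exfalso
      obtain ⟨g, hg, hsw⟩ := swap_of_16 G (by rw [h, hK168]; norm_num)
      have hprim : IsPreprimitive G (Fin 7) :=
        IsPreprimitive.of_prime_card (by simp; norm_num)
      have := subgroup_eq_top_of_isPreprimitive_of_isSwap_mem hprim g hsw hg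
      apply hA
      rw [this]
      exact le_top
  refine ⟨hG168, ?_⟩
  haveI : Nontrivial G := by
    rw [← Finite.one_lt_card_iff_nontrivial, hG168]
    norm_num
  refine { toNontrivial := inferInstance, eq_bot_or_eq_top_of_normal := ?_ }
  intro N hN
  by_contra hcon
  push Not at hcon
  obtain ⟨hb, ht⟩ := hcon
  apply hG
  have hmul := N.index_mul_card
  rw [hG168] at hmul
  apply Helper3Deg7A.solv_ext N
  · apply Helper3Deg7A.solv_lt168
    · exact Dvd.intro_left _ hmul
    · intro h
      exact ht (Subgroup.eq_top_of_card_eq N (by rw [h, hG168]))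
  · have h1 : Nat.card (↥G ⧸ N) = N.index := rfl
    apply Helper3Deg7A.solv_lt168
    · rw [h1]; exact Dvd.intro _ hmul
    · rw [h1]
      intro h
      rw [h] at hmul
      have : Nat.card N = 1 := by omega
      exact hb (Subgroup.card_eq_one.1 this)

end Cfsg.Agent.Lib.Helper3Deg7B
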