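import Mathlib
import Cfsg.Prelude.Def_GeometricClasses
import Cfsg.Agent.Lib.Helper45Sp

/-!
PROJECT 94 (ELU2): tools for the rows S5967, S5968 (symplectic similarity groups inside `SL_n`).
-/

set_option autoImplicit false

namespace Cfsg.Agent.Lib.Helper3EluSp

open Cfsg Cfsg.Geo Matrix Module
open scoped MatrixGroups

variable {F : Type*} [Field F] {n : ℕ} {f : (Fin n → F) → (Fin n → F) → F}

/-- the Mathlib bilinear form of a bilinear function form -/
def toB (f : (Fin n → F) → (Fin n → F) → F) (hf : IsBilinearForm f) :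
    LinearMap.BilinForm F (Fin n → F) :=
  LinearMap.mk₂ F f hf.add_left hf.smul_left hf.add_right hf.smul_right

@[simp] theorem toB_apply (hf : IsBilinearForm f) (u v : Fin n → F) : toB f hf u v = f u v := rfl

/-- a vector orthogonal to the standard basis is zero -/
theorem eq_zero_of_basis (hf : IsSymplecticForm f) (u : Fin n → F)
    (h : ∀ k, f u (Pi.single k 1) = 0) : u = 0 := by
  by_contra hu
  obtain ⟨-, x, hx⟩ := hf.nondegenerate u hu
  apply hx
  have h0 : toB f hf.bilinear u = 0 := by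
    apply (Pi.basisFun F (Fin n)).ext
    intro k
    simpa using h k
  have := LinearMap.congr_fun h0 x
  simpa using this

/-- rows indexed by `S` supported in the columns `T` -/
theorem card_le_of_support (hf : IsSymplecticForm f) (S T : Finset (Fin n))
    (h : ∀ j ∈ S, ∀ k, k ∉ T → f (Pi.single j 1) (Pi.single k 1) = 0) : S.card ≤ T.card := by
  by_contra hlt
  push Not at hlt
  let E : (S → F) →ₗ[F] (Fin n → F) :=
    Fintype.linearCombination F (fun j : S => (Pi.single (j : Fin n) (1 : F) : Fin n → F))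
  let Φ : (S → F) →ₗ[F] (T → F) :=
    LinearMap.pi (fun k : T => ((toB f hf.bilinear).flip (Pi.single (k : Fin n) 1)) ∘ₗ E)
  have hker : LinearMap.ker Φ ≠ ⊥ := by
    apply LinearMap.ker_ne_bot_of_finrank_lt
    rw [Module.finrank_fintype_fun_eq_card, Module.finrank_fintype_fun_eq_card, Fintype.card_coe,
      Fintype.card_coe]
    exact hlt
  obtain ⟨c, hc, hc0⟩ := Submodule.exists_mem_ne_zero_of_ne_bot hker
  rw [LinearMap.mem_ker] at hc
  have hE : E c = ∑ j : S, c j • (Pi.single (j : Fin n) (1 : F) : Fin n → F) :=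
    Fintype.linearCombination_apply F _ c
  have hu : E c = 0 := by
    apply eq_zero_of_basis hf
    intro k
    by_cases hk : k ∈ T
    · have := congrFun hc ⟨k, hk⟩
      simpa [Φ] using this
    · rw [← toB_apply hf.bilinear, hE, map_sum, LinearMap.sum_apply]
      apply Finset.sum_eq_zero
      intro j _
      rw [map_smul, LinearMap.smul_apply, toB_apply, h j j.2 k hk, smul_zero]
  apply hc0
  funext j
  have := congrFun hu (j : Fin n)
  rw [hE, Finset.sum_apply, Finset.sum_eq_single j] at this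
  · simpa using this
  · intro b _ hb
    have : (b : Fin n) ≠ j := fun hh => hb (Subtype.ext hh)
    simp [this.symm]
  · intro hj
    exact absurd (Finset.mem_univ j) hj

theorem diagonal_mulVec_single (d : Fin n → F) (j : Fin n) :
    diagonal d *ᵥ (Pi.single j 1 : Fin n → F) = d j • (Pi.single j 1 : Fin n → F) := by
  funext k
  rw [mulVec_diagonal, Pi.smul_apply, smul_eq_mul]
  by_cases hk : k = j
  · subst hk; rfl
  · simp [hk]

theorem diag_support (hf : IsSymplecticForm f) (d : Fin n → F) (c : F)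
    (hsim : ∀ u v, f (diagonal d *ᵥ u) (diagonal d *ᵥ v) = c * f u v) (j k : Fin n)
    (hjk : d j * d k ≠ c) : f (Pi.single j 1) (Pi.single k 1) = 0 := by
  have h1 := hsim (Pi.single j 1) (Pi.single k 1)
  rw [diagonal_mulVec_single, diagonal_mulVec_single, hf.bilinear.smul_left, hf.bilinear.smul_right,
    ← mul_assoc] at h1
  by_contra h0
  exact hjk (mul_right_cancel₀ h0 h1)

/-- multiplicities of the eigenvalues `a` and `c / a` of a diagonal similarity -/
theorem card_eig_le [DecidableEq F] (hf : IsSymplecticForm f) (d : Fin n → F) (c : F)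
    (hsim : ∀ u v, f (diagonal d *ᵥ u) (diagonal d *ᵥ v) = c * f u v) (a : F) :
    (Finset.univ.filter (fun j => d j = a)).card ≤ (Finset.univ.filter (fun k => a * d k = c)).card := by
  apply card_le_of_support hf
  intro j hj k hk
  rw [Finset.mem_filter] at hj hk
  apply diag_support hf d c hsim
  rw [hj.2]
  exact fun hh => hk ⟨Finset.mem_univ _, hh⟩

/-- transport of a symplectic form -/
theorem transport (hf : IsSymplecticForm f) (P : GL (Fin n) F) :
    IsSymplecticForm (fun u v => f ((P : Matrix (Fin n) (Fin n) F) *ᵥ u)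
      ((P : Matrix (Fin n) (Fin n) F) *ᵥ v)) where
  bilinear :=
    { add_left := fun x y v => by simp only [mulVec_add, hf.bilinear.add_left]
      smul_left := fun c x v => by simp only [mulVec_smul, hf.bilinear.smul_left]
      add_right := fun v x y => by simp only [mulVec_add, hf.bilinear.add_right]
      smul_right := fun c v x => by simp only [mulVec_smul, hf.bilinear.smul_right] }
  skew := fun v w => hf.skew _ _
  alternating := fun v => hf.alternating _
  nondegenerate := by
    intro v hv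
    have hPv : (P : Matrix (Fin n) (Fin n) F) *ᵥ v ≠ 0 := by
      intro h0
      apply hv
      have : ((P⁻¹ : GL (Fin n) F) : Matrix (Fin n) (Fin n) F) *ᵥ ((P : Matrix (Fin n) (Fin n) F) *ᵥ v) = v := by
        rw [mulVec_mulVec, ← Units.val_mul, inv_mul_cancel, Units.val_one, one_mulVec]
      rw [← this, h0, mulVec_zero]
    have hsurj : ∀ x : Fin n → F, (P : Matrix (Fin n) (Fin n) F) *ᵥ
        (((P⁻¹ : GL (Fin n) F) : Matrix (Fin n) (Fin n) F) *ᵥ x) = x := by
      intro x
      rw [mulVec_mulVec, ← Units.val_mul, mul_inv_cancel, Units.val_one, one_mulVec]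
    obtain ⟨⟨x, hx⟩, ⟨y, hy⟩⟩ := hf.nondegenerate _ hPv
    refine ⟨⟨((P⁻¹ : GL (Fin n) F) : Matrix (Fin n) (Fin n) F) *ᵥ x, ?_⟩,
      ⟨((P⁻¹ : GL (Fin n) F) : Matrix (Fin n) (Fin n) F) *ᵥ y, ?_⟩⟩
    · show f _ _ ≠ 0
      rw [hsurj]; exact hx
    · show f _ _ ≠ 0
      rw [hsurj]; exact hy

/-- if a conjugate of `x` is a similarity of `f` then `x` is a similarity of a symplectic form -/
theorem exists_form_of_conj (hf : IsSymplecticForm f) (x P : Matrix.SpecialLinearGroup (Fin n) F)
    (h : P⁻¹ * x * P ∈ (similarityGroup f).comap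
      (Matrix.SpecialLinearGroup.toGL : Matrix.SpecialLinearGroup (Fin n) F →* GL (Fin n) F)) :
    ∃ f' : (Fin n → F) → (Fin n → F) → F, IsSymplecticForm f' ∧ ∃ c : F, c ≠ 0 ∧
      ∀ u v, f' ((x : Matrix (Fin n) (Fin n) F) *ᵥ u) ((x : Matrix (Fin n) (Fin n) F) *ᵥ v)
        = c * f' u v := by
  obtain ⟨c, hc⟩ := h
  refine ⟨_, transport hf (Matrix.SpecialLinearGroup.toGL P⁻¹), c, c.ne_zero, ?_⟩
  intro u v
  have key : ∀ u : Fin n → F,
      ((Matrix.SpecialLinearGroup.toGL P⁻¹ : GL (Fin n) F) : Matrix (Fin n) (Fin n) F) *ᵥ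
        ((x : Matrix (Fin n) (Fin n) F) *ᵥ u)
      = ((Matrix.SpecialLinearGroup.toGL (P⁻¹ * x * P) : GL (Fin n) F) : Matrix (Fin n) (Fin n) F) *ᵥ
        (((Matrix.SpecialLinearGroup.toGL P⁻¹ : GL (Fin n) F) : Matrix (Fin n) (Fin n) F) *ᵥ u) := by
    intro u
    rw [mulVec_mulVec, mulVec_mulVec]
    congr 1
    simp
  show f _ _ = c * f _ _
  rw [key u, key v]
  exact hc _ _

section Std

variable {m : ℕ}

/-- transfer of matrices from the symplectic basis to the standard basis -/
noncomputable def Psi (b : Basis (Fin m ⊕ Fin m) F (Fin n → F)) :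
    Matrix (Fin m ⊕ Fin m) (Fin m ⊕ Fin m) F ≃ₐ[F] Matrix (Fin n) (Fin n) F :=
  (Matrix.toLinAlgEquiv b).trans LinearMap.toMatrixAlgEquiv'

theorem Psi_mulVec (b : Basis (Fin m ⊕ Fin m) F (Fin n → F))
    (Y : Matrix (Fin m ⊕ Fin m) (Fin m ⊕ Fin m) F) (u : Fin n → F) :
    b.equivFun (Psi b Y *ᵥ u) = Y *ᵥ b.equivFun u := by
  have h1 : Psi b Y *ᵥ u = Matrix.toLin b b Y u := by
    show (LinearMap.toMatrix' (Matrix.toLin b b Y)) *ᵥ u = _
    rw [← Matrix.toLin'_apply, Matrix.toLin'_toMatrix']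
  rw [h1]
  have h2 := LinearMap.toMatrix_mulVec_repr b b (Matrix.toLin b b Y) u
  rw [LinearMap.toMatrix_toLin] at h2
  exact h2.symm

theorem Psi_rank (b : Basis (Fin m ⊕ Fin m) F (Fin n → F))
    (Y : Matrix (Fin m ⊕ Fin m) (Fin m ⊕ Fin m) F) : (Psi b Y).rank = Y.rank := by
  rw [Matrix.rank_eq_finrank_range_toLin Y b b]
  show finrank F (LinearMap.range (LinearMap.toMatrix' (Matrix.toLin b b Y)).mulVecLin) = _
  rw [← Matrix.toLin'_apply', Matrix.toLin'_toMatrix']

theorem exists_std (hf : IsSymplecticForm f) (hn : n = 2 * m) :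
    ∃ b : Basis (Fin m ⊕ Fin m) F (Fin n → F),
      ∀ x y, Cfsg.sympForm m F (b.equivFun x) (b.equivFun y) = f x y := by
  obtain ⟨b, hb⟩ := Cfsg.Agent.Lib.Helper45Sp.exists_symplectic_basis (n := m) (toB f hf.bilinear)
    (fun x => hf.alternating x)
    (by
      intro u hu
      by_contra hu0
      obtain ⟨-, x, hx⟩ := hf.nondegenerate u hu0
      exact hx (hu x))
    (by rw [Module.finrank_fin_fun, hn])
  exact ⟨b, hb⟩

theorem sympForm_mulVec (Y : Matrix (Fin m ⊕ Fin m) (Fin m ⊕ Fin m) F) (c : F)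
    (h : Yᵀ * Matrix.J (Fin m) F * Y = c • Matrix.J (Fin m) F) (u v : Fin m ⊕ Fin m → F) :
    Cfsg.sympForm m F (Y *ᵥ u) (Y *ᵥ v) = c * Cfsg.sympForm m F u v := by
  unfold Cfsg.sympForm
  rw [← vecMul_transpose, ← dotProduct_mulVec, mulVec_mulVec, mulVec_mulVec, h, smul_mulVec,
    dotProduct_smul, smul_eq_mul]

/-- a similarity of the standard form gives a similarity of `f` -/
theorem Psi_sim (b : Basis (Fin m ⊕ Fin m) F (Fin n → F))
    (hb : ∀ x y, Cfsg.sympForm m F (b.equivFun x) (b.equivFun y) = f x y)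
    (Y : Matrix (Fin m ⊕ Fin m) (Fin m ⊕ Fin m) F) (c : F)
    (h : Yᵀ * Matrix.J (Fin m) F * Y = c • Matrix.J (Fin m) F) (u v : Fin n → F) :
    f (Psi b Y *ᵥ u) (Psi b Y *ᵥ v) = c * f u v := by
  rw [← hb, ← hb, Psi_mulVec, Psi_mulVec, sympForm_mulVec Y c h]

end Std

end Cfsg.Agent.Lib.Helper3EluSp
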