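import Cfsg.Agent.Lib.Helper97CKron

set_option autoImplicit false
set_option linter.unusedSectionVars false

namespace Cfsg.Agent.Lib.Helper97CLoc

open Cfsg Cfsg.Geo Matrix Cfsg.Agent.Lib.Helper97GBase Cfsg.Agent.Lib.Helper97CField
  Cfsg.Agent.Lib.Helper97CKron
open scoped MatrixGroups Kronecker

variable {ι : Type} [Fintype ι] [DecidableEq ι] {F : Type*} [Field F]
variable {κ : Type} [Fintype κ] [DecidableEq κ]

lemma vi (g : GL ι F) : ((g⁻¹ : GL ι F) : Matrix ι ι F) * (g : Matrix ι ι F) = 1 := by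
  rw [← Units.val_mul, inv_mul_cancel, Units.val_one]

lemma iv (g : GL ι F) : (g : Matrix ι ι F) * ((g⁻¹ : GL ι F) : Matrix ι ι F) = 1 := by
  rw [← Units.val_mul, mul_inv_cancel, Units.val_one]

/-- a matrix in the coordinates given by `P` and `ε` -/
def loc (ε : ι ≃ κ) (P : GL ι F) (g : Matrix ι ι F) : Matrix κ κ F :=
  (((P⁻¹ : GL ι F) : Matrix ι ι F) * g * (P : Matrix ι ι F)).submatrix ε.symm ε.symm

/-- back from coordinates -/
def unloc (ε : ι ≃ κ) (P : GL ι F) (M : Matrix κ κ F) : Matrix ι ι F :=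
  (P : Matrix ι ι F) * M.submatrix ε ε * ((P⁻¹ : GL ι F) : Matrix ι ι F)

lemma loc_unloc (ε : ι ≃ κ) (P : GL ι F) (M : Matrix κ κ F) : loc ε P (unloc ε P M) = M := by
  unfold loc unloc
  have : ((P⁻¹ : GL ι F) : Matrix ι ι F) * ((P : Matrix ι ι F) * M.submatrix ε ε *
      ((P⁻¹ : GL ι F) : Matrix ι ι F)) * (P : Matrix ι ι F) = M.submatrix ε ε := by
    simp only [← mul_assoc, vi, one_mul]
    rw [mul_assoc, vi, mul_one]
  rw [this, Matrix.submatrix_submatrix]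
  simp

lemma unloc_loc (ε : ι ≃ κ) (P : GL ι F) (g : Matrix ι ι F) : unloc ε P (loc ε P g) = g := by
  unfold loc unloc
  rw [Matrix.submatrix_submatrix]
  simp only [Equiv.symm_comp_self, Matrix.submatrix_id_id, ← mul_assoc, iv, one_mul]
  rw [mul_assoc, iv, mul_one]

lemma unloc_mul (ε : ι ≃ κ) (P : GL ι F) (M N : Matrix κ κ F) :
    unloc ε P (M * N) = unloc ε P M * unloc ε P N := by
  unfold unloc
  rw [← Matrix.submatrix_mul_equiv M N ε ε ε]
  simp only [mul_assoc]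
  rw [← mul_assoc ((P⁻¹ : GL ι F) : Matrix ι ι F) (P : Matrix ι ι F), vi, one_mul]

lemma unloc_one (ε : ι ≃ κ) (P : GL ι F) : unloc ε P (1 : Matrix κ κ F) = 1 := by
  unfold unloc
  rw [Matrix.submatrix_one_equiv, mul_one, iv]

lemma unloc_smul (ε : ι ≃ κ) (P : GL ι F) (c : F) (M : Matrix κ κ F) :
    unloc ε P (c • M) = c • unloc ε P M := by
  unfold unloc
  rw [Matrix.submatrix_smul]
  simp

lemma unloc_injective (ε : ι ≃ κ) (P : GL ι F) : Function.Injective (unloc (F := F) ε P) := by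
  intro M N h
  rw [← loc_unloc ε P M, h, loc_unloc]

lemma loc_mul (ε : ι ≃ κ) (P : GL ι F) (g h : Matrix ι ι F) :
    loc ε P (g * h) = loc ε P g * loc ε P h := by
  apply unloc_injective ε P
  rw [unloc_mul, unloc_loc, unloc_loc, unloc_loc]

lemma loc_one (ε : ι ≃ κ) (P : GL ι F) : loc ε P (1 : Matrix ι ι F) = 1 := by
  apply unloc_injective ε P
  rw [unloc_loc, unloc_one]

lemma loc_injective (ε : ι ≃ κ) (P : GL ι F) : Function.Injective (loc (F := F) ε P) := by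
  intro M N h
  rw [← unloc_loc ε P M, h, unloc_loc]

lemma isUnit_loc (ε : ι ≃ κ) (P : GL ι F) (g : GL ι F) : IsUnit (loc ε P (g : Matrix ι ι F)) := by
  refine ⟨⟨loc ε P g, loc ε P ((g⁻¹ : GL ι F) : Matrix ι ι F), ?_, ?_⟩, rfl⟩
  · rw [← loc_mul, iv, loc_one]
  · rw [← loc_mul, vi, loc_one]

variable {d e : ℕ}

lemma mem_tensorProductSubgroup_iff (ε : ι ≃ Fin d × Fin e) (P h : GL ι F) :
    h ∈ tensorProductSubgroup d e ε P ↔ ∃ (a : GL (Fin d) F) (b : GL (Fin e) F),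
      (h : Matrix ι ι F) = unloc ε P ((a : Matrix (Fin d) (Fin d) F) ⊗ₖ (b : Matrix (Fin e) (Fin e) F)) := by
  unfold tensorProductSubgroup
  constructor
  · rintro ⟨_, ⟨g, ⟨a, b, hg⟩, rfl⟩, rfl⟩
    refine ⟨a, b, ?_⟩
    rw [← hg]
    rfl
  · rintro ⟨a, b, hab⟩
    have hu : IsUnit ((a : Matrix (Fin d) (Fin d) F) ⊗ₖ (b : Matrix (Fin e) (Fin e) F)) := by
      have h1 : ((a : Matrix (Fin d) (Fin d) F) ⊗ₖ (b : Matrix (Fin e) (Fin e) F)) *
          (((a⁻¹ : GL (Fin d) F) : Matrix (Fin d) (Fin d) F) ⊗ₖ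
            ((b⁻¹ : GL (Fin e) F) : Matrix (Fin e) (Fin e) F)) = 1 := by
        rw [← Matrix.mul_kronecker_mul, iv, iv, Matrix.one_kronecker_one]
      have h2 : (((a⁻¹ : GL (Fin d) F) : Matrix (Fin d) (Fin d) F) ⊗ₖ
            ((b⁻¹ : GL (Fin e) F) : Matrix (Fin e) (Fin e) F)) *
          ((a : Matrix (Fin d) (Fin d) F) ⊗ₖ (b : Matrix (Fin e) (Fin e) F)) = 1 := by
        rw [← Matrix.mul_kronecker_mul, vi, vi, Matrix.one_kronecker_one]
      exact ⟨⟨_, _, h1, h2⟩, rfl⟩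
    obtain ⟨g, hg⟩ := hu
    refine ⟨_, ⟨g, ⟨a, b, hg⟩, rfl⟩, ?_⟩
    apply Units.ext
    rw [hab, ← hg]
    rfl

/-- a Kronecker product that is invertible has invertible factors -/
lemma units_of_kron (hd : 0 < d) (he : 0 < e) {x : Matrix (Fin d) (Fin d) F}
    {y : Matrix (Fin e) (Fin e) F} (h : IsUnit (x ⊗ₖ y)) :
    ∃ (a : GL (Fin d) F) (b : GL (Fin e) F), (a : Matrix (Fin d) (Fin d) F) = x ∧
      (b : Matrix (Fin e) (Fin e) F) = y := by
  rw [Matrix.isUnit_iff_isUnit_det, Matrix.det_kronecker, Fintype.card_fin, Fintype.card_fin,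
    isUnit_iff_ne_zero] at h
  have hx : x.det ≠ 0 := by
    intro h0
    apply h
    rw [h0, zero_pow he.ne', zero_mul]
  have hy : y.det ≠ 0 := by
    intro h0
    apply h
    rw [h0, zero_pow hd.ne', mul_zero]
  obtain ⟨a, ha⟩ := (Matrix.isUnit_iff_isUnit_det x).mpr (isUnit_iff_ne_zero.mpr hx)
  obtain ⟨b, hb⟩ := (Matrix.isUnit_iff_isUnit_det y).mpr (isUnit_iff_ne_zero.mpr hy)
  exact ⟨a, b, ha, hb⟩

end Cfsg.Agent.Lib.Helper97CLoc
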