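import Cfsg.Agent.Lib.Helper97GSubfield
import Cfsg.Agent.Lib.Helper97CLoc

set_option autoImplicit false
set_option linter.unusedSectionVars false

/-! transvections over a general index type, and the geometric classes that contain none of them -/

namespace Cfsg.Agent.Lib.Helper97SpTv

open Cfsg Cfsg.Geo Matrix Cfsg.Agent.Lib.Helper97GBase Cfsg.Agent.Lib.Helper97GSubfield
open scoped MatrixGroups Kronecker

variable {ι : Type} [Fintype ι] [DecidableEq ι] {F : Type*} [Field F]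

/-- the transvection `v ↦ v + (φ ⬝ᵥ v) • u` -/
def tv (u φ : ι → F) (h : φ ⬝ᵥ u = 0) : GL ι F where
  val := 1 + vecMulVec u φ
  inv := 1 - vecMulVec u φ
  val_inv := by
    rw [add_mul, mul_sub, mul_sub, vecMulVec_mul_vecMulVec, h]
    simp
  inv_val := by
    rw [sub_mul, mul_add, mul_add, vecMulVec_mul_vecMulVec, h]
    simp

lemma tv_val (u φ : ι → F) (h : φ ⬝ᵥ u = 0) :
    (tv u φ h : Matrix ι ι F) = 1 + vecMulVec u φ := rfl

lemma tv_mulVec (u φ : ι → F) (h : φ ⬝ᵥ u = 0) (v : ι → F) :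
    (tv u φ h : Matrix ι ι F) *ᵥ v = v + (φ ⬝ᵥ v) • u := by
  rw [tv_val, Matrix.add_mulVec, Matrix.one_mulVec, vecMulVec_mulVec]
  simp

/-- the functional `v ↦ φ ⬝ᵥ v` -/
def dotL (φ : ι → F) : (ι → F) →ₗ[F] F where
  toFun v := φ ⬝ᵥ v
  map_add' := dotProduct_add φ
  map_smul' c v := by simp [dotProduct_smul]

@[simp] lemma dotL_apply (φ v : ι → F) : dotL φ v = φ ⬝ᵥ v := rfl

lemma exists_dot_eq_one {φ : ι → F} (hφ : φ ≠ 0) : ∃ v, φ ⬝ᵥ v = 1 := by
  obtain ⟨i, hi⟩ := Function.ne_iff.mp hφ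
  rw [Pi.zero_apply] at hi
  refine ⟨Pi.single i (φ i)⁻¹, ?_⟩
  rw [dotProduct_single, mul_inv_cancel₀ hi]

lemma exists_ker_two (hn : 3 ≤ Fintype.card ι) (L₁ L₂ : (ι → F) →ₗ[F] F) :
    ∃ v, v ≠ 0 ∧ L₁ v = 0 ∧ L₂ v = 0 := by
  have h2 : LinearMap.ker (L₁.prod L₂) ≠ ⊥ := by
    apply LinearMap.ker_ne_bot_of_finrank_lt
    rw [Module.finrank_prod, Module.finrank_self, Module.finrank_fintype_fun_eq_card]
    omega
  obtain ⟨v, hv, hv0⟩ := Submodule.exists_mem_ne_zero_of_ne_bot h2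
  rw [LinearMap.mem_ker] at hv
  exact ⟨v, hv0, congrArg Prod.fst hv, congrArg Prod.snd hv⟩

lemma exists_ker_one {κ : Type} [Fintype κ] (hn : 2 ≤ Fintype.card κ) (L : (κ → F) →ₗ[F] F) :
    ∃ v, v ≠ 0 ∧ L v = 0 := by
  have h2 : LinearMap.ker L ≠ ⊥ := by
    apply LinearMap.ker_ne_bot_of_finrank_lt
    rw [Module.finrank_self, Module.finrank_fintype_fun_eq_card]
    omega
  obtain ⟨v, hv, hv0⟩ := Submodule.exists_mem_ne_zero_of_ne_bot h2
  exact ⟨v, hv0, hv⟩

/-- no transvection normalises a proper extension field -/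
lemma tv_not_mem_fieldNormalizer (hn : 3 ≤ Fintype.card ι) {r : ℕ} (hr : r ≠ 1)
    (K : Subalgebra F (Matrix ι ι F))
    (hK : IsFieldSubalgebra r K) (u φ : ι → F) (hφu : φ ⬝ᵥ u = 0) (hu0 : u ≠ 0) (hφ0 : φ ≠ 0) :
    tv u φ hφu ∉ subalgebraNormalizer K := by
  intro ht
  have hzero : ∀ k ∈ K, ∀ v : ι → F, v ≠ 0 → k *ᵥ v = 0 → k = 0 := by
    intro k hk v hv hkv
    by_contra hk0
    obtain ⟨k', hk', hkk'⟩ := hK.inv k hk hk0
    rw [hK.comm k hk k' hk'] at hkk'
    apply hv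
    have := congrArg (fun M => M *ᵥ v) hkk'
    simp only [← Matrix.mulVec_mulVec, hkv, Matrix.mulVec_zero, Matrix.one_mulVec] at this
    exact this.symm
  have hcomm : ∀ k ∈ K, ∀ v, (tv u φ hφu : Matrix ι ι F) *ᵥ (k *ᵥ v) =
      k *ᵥ ((tv u φ hφu : Matrix ι ι F) *ᵥ v) := by
    intro k hk
    have hk2 := (ht k).mp hk
    obtain ⟨v, hv0, hv1, hv2⟩ := exists_ker_two hn (dotL φ) ((dotL φ) ∘ₗ Matrix.toLin' k)
    simp only [dotL_apply, LinearMap.comp_apply, Matrix.toLin'_apply] at hv1 hv2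
    have htv : (tv u φ hφu : Matrix ι ι F) *ᵥ v = v := by
      rw [tv_mulVec, hv1, zero_smul, add_zero]
    have htv' : (((tv u φ hφu)⁻¹ : GL ι F) : Matrix ι ι F) *ᵥ v = v := by
      conv_lhs => rw [← htv]
      simp
    have h3 : ((tv u φ hφu : Matrix ι ι F) * k *
        (((tv u φ hφu)⁻¹ : GL ι F) : Matrix ι ι F) - k) *ᵥ v = 0 := by
      rw [Matrix.sub_mulVec, ← Matrix.mulVec_mulVec, htv', ← Matrix.mulVec_mulVec, tv_mulVec, hv2,
        zero_smul, add_zero, sub_self]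
    have h4 := sub_eq_zero.mp (hzero _ (K.sub_mem hk2 hk) v hv0 h3)
    intro w
    conv_rhs => rw [← h4]
    rw [← Matrix.mulVec_mulVec, ← Matrix.mulVec_mulVec, inv_mulVec_mulVec]
  obtain ⟨v₁, hv₁⟩ := exists_dot_eq_one hφ0
  have hsc : ∀ k ∈ K, k ∈ (⊥ : Subalgebra F (Matrix ι ι F)) := by
    intro k hk
    have h1 := hcomm k hk v₁
    rw [tv_mulVec, tv_mulVec, Matrix.mulVec_add, Matrix.mulVec_smul, hv₁, one_smul] at h1
    have h3 : k *ᵥ u = (φ ⬝ᵥ k *ᵥ v₁) • u := (add_left_cancel h1).symm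
    have h4 : (k - algebraMap F _ (φ ⬝ᵥ k *ᵥ v₁)) *ᵥ u = 0 := by
      rw [Matrix.sub_mulVec, h3, Algebra.algebraMap_eq_smul_one, Matrix.smul_mulVec, Matrix.one_mulVec,
        sub_self]
    have h5 := sub_eq_zero.mp (hzero _ (K.sub_mem hk (K.algebraMap_mem _)) u hu0 h4)
    rw [h5]
    exact Subalgebra.algebraMap_mem _ _
  have hbot : K = ⊥ := eq_bot_iff.mpr hsc
  have hfr := hK.finrank_eq
  have : Nonempty ι := Fintype.card_pos_iff.mp (by omega)
  rw [hbot, Subalgebra.finrank_bot] at hfr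
  omega

lemma exists_moved [Fintype F] {F₁ : Subfield F} (h : F₁ ≠ ⊤) :
    ∃ τ : F →+* F, (∀ a ∈ F₁, τ a = a) ∧ ∃ l, τ l ≠ l := by
  obtain ⟨τ, F₂, r, hr, hcard, hτ0, hτ1⟩ := exists_aut h
  refine ⟨τ, hτ0, ?_⟩
  by_contra hcon
  push Not at hcon
  apply subfield_ne_top_of_card hr hcard
  rw [eq_top_iff]
  intro a _
  exact hτ1 a (hcon a)

/-- a transvection in a subfield group is rational -/
lemma tv_fixed (hn : 3 ≤ Fintype.card ι) (τ : F →+* F) {F₁ : Subfield F} (hτ : ∀ a ∈ F₁, τ a = a)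
    (C : GL ι F) (u φ : ι → F) (hφu : φ ⬝ᵥ u = 0)
    (ht : tv u φ hφu ∈ subfieldSubgroup F₁ C) (i j : ι) :
    τ ((((C⁻¹ : GL ι F) : Matrix ι ι F) *ᵥ u) i * (φ ᵥ* (C : Matrix ι ι F)) j) =
      (((C⁻¹ : GL ι F) : Matrix ι ι F) *ᵥ u) i * (φ ᵥ* (C : Matrix ι ι F)) j := by
  obtain ⟨g, hg, hgt⟩ := ht
  have hgt' : C * g * C⁻¹ = tv u φ hφu := hgt
  obtain ⟨u', hu'⟩ : ∃ u', u' = ((C⁻¹ : GL ι F) : Matrix ι ι F) *ᵥ u := ⟨_, rfl⟩
  obtain ⟨φ', hφ'⟩ : ∃ φ', φ' = φ ᵥ* (C : Matrix ι ι F) := ⟨_, rfl⟩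
  rw [← hu', ← hφ']
  have hgval : (g : Matrix ι ι F) = 1 + vecMulVec u' φ' := by
    have e1 : g = C⁻¹ * tv u φ hφu * C := by rw [← hgt']; group
    rw [e1, Units.val_mul, Units.val_mul, tv_val, mul_add, add_mul, mul_one, vi, Matrix.mul_vecMulVec,
      Matrix.vecMulVec_mul, hu', hφ']
  obtain ⟨g₀, ⟨m, rfl⟩, z, hz, hgz⟩ := Subgroup.mem_sup_of_normal_right.mp hg
  obtain ⟨c, hc⟩ := (mem_scalars_iff z).mp hz
  have hentry : ∀ a b, (g : Matrix ι ι F) a b = ((m a b : F₁) : F) * c := by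
    intro a b
    rw [← hgz, Units.val_mul, hc, Matrix.mul_smul, mul_one]
    simp [mul_comm]
  have hτg : ∀ a b, τ ((g : Matrix ι ι F) a b) =
      (τ c / c) * (g : Matrix ι ι F) a b := by
    intro a b
    rw [hentry, map_mul, hτ _ (m a b).2]
    field_simp
  -- the factor is one
  obtain ⟨v, hv0, hv1, hv2⟩ := exists_ker_two hn (dotL φ') (dotL (fun k => τ (φ' k)))
  rw [dotL_apply] at hv1 hv2
  have h1 : (g : Matrix ι ι F) *ᵥ v = v := by
    rw [hgval, Matrix.add_mulVec, Matrix.one_mulVec, vecMulVec_mulVec, hv1]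
    simp
  have hmap : (g : Matrix ι ι F).map τ = 1 + vecMulVec (fun k => τ (u' k)) (fun k => τ (φ' k)) := by
    ext a b
    rw [Matrix.map_apply, hgval, Matrix.add_apply, Matrix.add_apply, vecMulVec_apply, vecMulVec_apply,
      map_add, map_mul]
    congr 1
    by_cases hab : a = b
    · subst hab; simp
    · simp [hab]
  have h2 : (g : Matrix ι ι F).map τ *ᵥ v = v := by
    rw [hmap, Matrix.add_mulVec, Matrix.one_mulVec, vecMulVec_mulVec, hv2]
    simp
  have h3 : (g : Matrix ι ι F).map τ = (τ c / c) • (g : Matrix ι ι F) := by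
    ext a b
    rw [Matrix.map_apply, hτg, Matrix.smul_apply, smul_eq_mul]
  have hχ : τ c / c = 1 := by
    rw [h3, Matrix.smul_mulVec, h1] at h2
    have h4 : (τ c / c - 1) • v = 0 := by rw [sub_smul, h2, one_smul, sub_self]
    rcases smul_eq_zero.mp h4 with h5 | h5
    · exact sub_eq_zero.mp h5
    · exact absurd h5 hv0
  have h5 := hτg i j
  rw [hχ, one_mul, hgval, Matrix.add_apply, vecMulVec_apply, map_add] at h5
  have h6 : τ ((1 : Matrix ι ι F) i j) = (1 : Matrix ι ι F) i j := by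
    by_cases hab : i = j
    · subst hab; simp
    · simp [hab]
  rw [h6] at h5
  exact add_left_cancel h5

/-- pure tensors of vectors -/
def pt {d e : ℕ} (x : Fin d → F) (y : Fin e → F) : Fin d × Fin e → F := fun p => x p.1 * y p.2

lemma kron_mulVec_pt {d e : ℕ} (a : Matrix (Fin d) (Fin d) F) (b : Matrix (Fin e) (Fin e) F)
    (x : Fin d → F) (y : Fin e → F) : (a ⊗ₖ b) *ᵥ pt x y = pt (a *ᵥ x) (b *ᵥ y) := by
  ext ⟨i, j⟩
  simp only [Matrix.mulVec, dotProduct, pt, Matrix.kroneckerMap_apply, Fintype.sum_prod_type,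
    Finset.sum_mul_sum]
  apply Finset.sum_congr rfl
  intro k _
  apply Finset.sum_congr rfl
  intro l _
  ring

lemma scalar_of_eigen {d : ℕ} (a : Matrix (Fin d) (Fin d) F)
    (h : ∀ x : Fin d → F, x ≠ 0 → ∃ c : F, a *ᵥ x = c • x) : ∃ c : F, a = c • (1 : Matrix (Fin d) (Fin d) F) := by
  rcases Nat.eq_zero_or_pos d with rfl | hd
  · exact ⟨0, by ext i; exact i.elim0⟩
  let i₀ : Fin d := ⟨0, hd⟩
  have hs : ∀ j : Fin d, (Pi.single j 1 : Fin d → F) ≠ 0 := by
    intro j h0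
    have := congrFun h0 j
    simp at this
  choose c hc using fun j => h _ (hs j)
  have hcc : ∀ j, c j = c i₀ := by
    intro j
    by_cases hj : j = i₀
    · rw [hj]
    have hne : (Pi.single i₀ 1 + Pi.single j 1 : Fin d → F) ≠ 0 := by
      intro h0
      have := congrFun h0 j
      simp [hj] at this
    obtain ⟨μ, hμ⟩ := h _ hne
    rw [Matrix.mulVec_add, hc, hc] at hμ
    have e1 := congrFun hμ i₀
    have e2 := congrFun hμ j
    simp [hj, Ne.symm hj] at e1 e2
    rw [e2, e1]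
  refine ⟨c i₀, ?_⟩
  ext i j
  have := congrFun (hc j) i
  rw [Matrix.mulVec_single_one] at this
  rw [hcc] at this
  simp only [Matrix.col_apply, Pi.smul_apply, smul_eq_mul] at this
  rw [this, Matrix.smul_apply, Matrix.one_apply, Pi.single_apply, smul_eq_mul]

open Cfsg.Agent.Lib.Helper97CLoc in
/-- no transvection stabilises a tensor decomposition -/
lemma tv_not_mem_tensor {d e : ℕ} (hd : 2 ≤ d) (he : 2 ≤ e) (ε : ι ≃ Fin d × Fin e) (P : GL ι F)
    (u φ : ι → F) (hφu : φ ⬝ᵥ u = 0) (hu0 : u ≠ 0) (hφ0 : φ ≠ 0) :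
    tv u φ hφu ∉ tensorProductSubgroup d e ε P := by
  intro ht
  obtain ⟨a, b, hab⟩ := (mem_tensorProductSubgroup_iff ε P _).mp ht
  let emb : (Fin d × Fin e → F) → (ι → F) := fun z => (P : Matrix ι ι F) *ᵥ (z ∘ ε)
  have hemb_inj : Function.Injective emb := by
    intro z z' h
    have h1 := mulVec_injective P h
    funext p
    have := congrFun h1 (ε.symm p)
    simpa using this
  have hact : ∀ z, (tv u φ hφu : Matrix ι ι F) *ᵥ emb z =
      emb (((a : Matrix (Fin d) (Fin d) F) ⊗ₖ (b : Matrix (Fin e) (Fin e) F)) *ᵥ z) := by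
    intro z
    rw [hab]
    unfold unloc
    simp only [emb]
    rw [← Matrix.mulVec_mulVec, inv_mulVec_mulVec, ← Matrix.mulVec_mulVec, Matrix.submatrix_mulVec_equiv]
    have : (z ∘ ⇑ε) ∘ ⇑ε.symm = z := by
      funext p
      simp
    rw [this]
  have key : ∀ x y, φ ⬝ᵥ emb (pt x y) = 0 →
      pt ((a : Matrix (Fin d) (Fin d) F) *ᵥ x) ((b : Matrix (Fin e) (Fin e) F) *ᵥ y) = pt x y := by
    intro x y h0
    apply hemb_inj
    rw [← kron_mulVec_pt, ← hact, tv_mulVec, h0, zero_smul, add_zero]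
  have hemb_add : ∀ z z', emb (z + z') = emb z + emb z' := by
    intro z z'
    simp only [emb]
    rw [← Matrix.mulVec_add]
    rfl
  have hemb_smul : ∀ (c : F) z, emb (c • z) = c • emb z := by
    intro c z
    simp only [emb]
    rw [← Matrix.mulVec_smul]
    rfl
  have ha : ∃ α : F, (a : Matrix (Fin d) (Fin d) F) = α • 1 := by
    apply scalar_of_eigen
    intro x hx
    let L : (Fin e → F) →ₗ[F] F :=
      { toFun := fun y => φ ⬝ᵥ emb (pt x y)
        map_add' := fun y y' => by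
          have : pt x (y + y') = pt x y + pt x y' := by
            ext p; simp [pt, mul_add]
          rw [this, hemb_add, dotProduct_add]
        map_smul' := fun c y => by
          have : pt x (c • y) = c • pt x y := by
            ext p; simp [pt]; ring
          rw [this, hemb_smul, dotProduct_smul]
          rfl }
    obtain ⟨y, hy0, hy⟩ := exists_ker_one (by rw [Fintype.card_fin]; exact he) L
    have h1 := key x y hy
    obtain ⟨j, hj⟩ := Function.ne_iff.mp hy0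
    obtain ⟨i₀, hi₀⟩ := Function.ne_iff.mp hx
    rw [Pi.zero_apply] at hj hi₀
    have h2 : ∀ i, ((a : Matrix (Fin d) (Fin d) F) *ᵥ x) i * ((b : Matrix (Fin e) (Fin e) F) *ᵥ y) j =
        x i * y j := fun i => congrFun h1 (i, j)
    have hbj : ((b : Matrix (Fin e) (Fin e) F) *ᵥ y) j ≠ 0 := by
      intro h0
      have := h2 i₀
      rw [h0, mul_zero] at this
      exact mul_ne_zero hi₀ hj this.symm
    refine ⟨y j / ((b : Matrix (Fin e) (Fin e) F) *ᵥ y) j, ?_⟩
    ext i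
    rw [Pi.smul_apply, smul_eq_mul]
    have := h2 i
    field_simp
    linear_combination this
  have hb : ∃ β : F, (b : Matrix (Fin e) (Fin e) F) = β • 1 := by
    apply scalar_of_eigen
    intro y hy
    let L : (Fin d → F) →ₗ[F] F :=
      { toFun := fun x => φ ⬝ᵥ emb (pt x y)
        map_add' := fun x x' => by
          have : pt (x + x') y = pt x y + pt x' y := by
            ext p; simp [pt, add_mul]
          rw [this, hemb_add, dotProduct_add]
        map_smul' := fun c x => by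
          have : pt (c • x) y = c • pt x y := by
            ext p; simp [pt]; ring
          rw [this, hemb_smul, dotProduct_smul]
          rfl }
    obtain ⟨x, hx0, hx⟩ := exists_ker_one (by rw [Fintype.card_fin]; exact hd) L
    have h1 := key x y hx
    obtain ⟨i, hi⟩ := Function.ne_iff.mp hx0
    obtain ⟨j₀, hj₀⟩ := Function.ne_iff.mp hy
    rw [Pi.zero_apply] at hi hj₀
    have h2 : ∀ j, ((a : Matrix (Fin d) (Fin d) F) *ᵥ x) i * ((b : Matrix (Fin e) (Fin e) F) *ᵥ y) j =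
        x i * y j := fun j => congrFun h1 (i, j)
    have hai : ((a : Matrix (Fin d) (Fin d) F) *ᵥ x) i ≠ 0 := by
      intro h0
      have := h2 j₀
      rw [h0, zero_mul] at this
      exact mul_ne_zero hi hj₀ this.symm
    refine ⟨x i / ((a : Matrix (Fin d) (Fin d) F) *ᵥ x) i, ?_⟩
    ext j
    rw [Pi.smul_apply, smul_eq_mul]
    have := h2 j
    field_simp
    linear_combination this
  obtain ⟨α, hα⟩ := ha
  obtain ⟨β, hβ⟩ := hb
  have hsc : (tv u φ hφu : Matrix ι ι F) = (α * β) • 1 := by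
    rw [hab, hα, hβ, Matrix.smul_kronecker, Matrix.kronecker_smul, Matrix.one_kronecker_one, smul_smul,
      unloc_smul, unloc_one]
  have hcard : Fintype.card ι = d * e := by
    rw [Fintype.card_congr ε, Fintype.card_prod, Fintype.card_fin, Fintype.card_fin]
  have h4 : 2 * 2 ≤ d * e := Nat.mul_le_mul hd he
  obtain ⟨v, hv0, hv⟩ := exists_ker_one (κ := ι) (by omega) (dotL φ)
  rw [dotL_apply] at hv
  have h5 := tv_mulVec u φ hφu v
  rw [hv, zero_smul, add_zero, hsc, Matrix.smul_mulVec, Matrix.one_mulVec] at h5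
  have h6 : α * β = 1 := by
    have h7 : (α * β - 1) • v = 0 := by rw [sub_smul, h5, one_smul, sub_self]
    rcases smul_eq_zero.mp h7 with h8 | h8
    · exact sub_eq_zero.mp h8
    · exact absurd h8 hv0
  rw [h6, one_smul, tv_val] at hsc
  have h7 : vecMulVec u φ = 0 := by simpa using hsc
  obtain ⟨i, hi⟩ := Function.ne_iff.mp hu0
  obtain ⟨j, hj⟩ := Function.ne_iff.mp hφ0
  have := congrFun (congrFun h7 i) j
  rw [vecMulVec_apply] at this
  exact mul_ne_zero hi hj this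

end Cfsg.Agent.Lib.Helper97SpTv
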