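import Cfsg.Agent.Lib.Helper96SpTv
import Cfsg.Agent.Lib.Helper97SpTv
import Cfsg.Agent.Lib.Helper97GForms

set_option autoImplicit false

/-! PROJECT 3 = ASCH-SP, PART D: pieces `D_field` and `D_even`. -/

namespace Cfsg.Agent.Lib.Helper74SpDField

open Cfsg Cfsg.Geo Matrix
open Cfsg.Agent.Lib.Helper97GBase Cfsg.Agent.Lib.Helper96SpDefs
  Cfsg.Agent.Lib.Helper96SpTv
open scoped MatrixGroups Kronecker

variable {ι : Type} [Fintype ι] [DecidableEq ι] {F : Type*} [Field F]
variable {f : (ι → F) → (ι → F) → F}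

/-- [D_field] -/
theorem notSp_field (hf : IsSymplecticForm f) (hn : 3 ≤ Fintype.card ι) {r : ℕ} (hr : 2 ≤ r)
    {K : Subalgebra F (Matrix ι ι F)} (hK : IsFieldSubalgebra r K) :
    ∃ v c, tv hf v c ∉ subalgebraNormalizer K := by
  have hne : Nonempty ι := by
    rw [← Fintype.card_pos_iff]
    omega
  obtain ⟨i⟩ := hne
  let v : ι → F := Pi.single i 1
  have hv0 : v ≠ 0 := by
    intro h
    have := congrFun h i
    simp [v] at this
  let φ : ι → F := fun j => f (Pi.single j 1) v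
  have hφ : ∀ x, φ ⬝ᵥ x = f x v := by
    intro x
    rw [form_eq_sum hf.bilinear x v]
    unfold dotProduct
    apply Finset.sum_congr rfl
    intro j _
    exact mul_comm _ _
  have hφv : φ ⬝ᵥ v = 0 := by rw [hφ, hf.alternating]
  have hφ0 : φ ≠ 0 := by
    intro h0
    obtain ⟨x, hx⟩ := (hf.nondegenerate v hv0).1
    apply hx
    rw [← hφ, h0, zero_dotProduct]
  refine ⟨v, 1, ?_⟩
  have e : tv hf v 1 = Cfsg.Agent.Lib.Helper97SpTv.tv v φ hφv := by
    apply Units.ext
    rw [tv_val, Cfsg.Agent.Lib.Helper97SpTv.tv_val]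
    unfold tvM
    rw [one_smul]
  rw [e]
  exact Cfsg.Agent.Lib.Helper97SpTv.tv_not_mem_fieldNormalizer hn (by omega) K hK v φ hφv hv0 hφ0

/-- [D_even] a subspace on which the alternating form is non-degenerate has even dimension. -/
theorem even_finrank_of_nondegenerateOn (hf : IsSymplecticForm f) {W : Submodule F (ι → F)}
    (hW : IsNondegenerateOn f W) : Even (Module.finrank F W) := by
  by_contra hodd
  rw [Nat.not_even_iff_odd] at hodd
  let b := Module.finBasis F W
  let L : (Fin (Module.finrank F W) → F) →ₗ[F] (ι → F) := W.subtype ∘ₗ b.equivFun.symm.toLinearMap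
  have hLmem : ∀ x, L x ∈ W := fun x => (b.equivFun.symm x).2
  have hLinj : ∀ x, x ≠ 0 → L x ≠ 0 := by
    intro x hx h0
    apply hx
    have h1 : (b.equivFun.symm x : ι → F) = 0 := h0
    have h2 : b.equivFun.symm x = 0 := Subtype.ext h1
    exact (LinearEquiv.map_eq_zero_iff _).mp h2
  have hLsurj : ∀ w ∈ W, ∃ x, L x = w := by
    intro w hw
    refine ⟨b.equivFun ⟨w, hw⟩, ?_⟩
    show ((b.equivFun.symm (b.equivFun ⟨w, hw⟩) : W) : ι → F) = w
    rw [LinearEquiv.symm_apply_apply]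
  apply Cfsg.Agent.Lib.Helper97GForms.no_symplectic (ι := Fin (Module.finrank F W)) (F := F)
    (by rwa [Fintype.card_fin]) (fun x y => f (L x) (L y))
  refine ⟨⟨?_, ?_, ?_, ?_⟩, ?_, ?_, ?_⟩
  · intro x y v
    simp only [map_add, hf.bilinear.add_left]
  · intro c x v
    simp only [map_smul, hf.bilinear.smul_left]
  · intro v x y
    simp only [map_add, hf.bilinear.add_right]
  · intro c v x
    simp only [map_smul, hf.bilinear.smul_right]
  · intro v w
    exact hf.skew _ _
  · intro v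
    exact hf.alternating _
  · intro v hv
    obtain ⟨⟨x, hx, hx1⟩, ⟨y, hy, hy1⟩⟩ := hW (L v) (hLmem v) (hLinj v hv)
    obtain ⟨x', rfl⟩ := hLsurj x hx
    obtain ⟨y', rfl⟩ := hLsurj y hy
    exact ⟨⟨x', hx1⟩, ⟨y', hy1⟩⟩

end Cfsg.Agent.Lib.Helper74SpDField
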