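import Mathlib
import Cfsg.Prelude.Def_GeometricClasses
import Cfsg.Agent.Lib.Helper3EluSp
import Cfsg.Agent.Lib.Helper74SpDField

/-!
PROJECT 94 (ELU2), row S5968: general lemmas on similarities of a symplectic form.
-/

set_option autoImplicit false

namespace Cfsg.Agent.Lib.Helper3EluSpOdd

open Cfsg Cfsg.Geo Matrix Module Cfsg.Agent.Lib.Helper3EluSp
open scoped MatrixGroups

variable {F : Type*} [Field F] {n : ℕ} {f : (Fin n → F) → (Fin n → F) → F}

theorem sim_pow {X : Matrix (Fin n) (Fin n) F} {c : F}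
    (hsim : ∀ u v, f (X *ᵥ u) (X *ᵥ v) = c * f u v) (k : ℕ) (u v : Fin n → F) :
    f ((X ^ k) *ᵥ u) ((X ^ k) *ᵥ v) = c ^ k * f u v := by
  induction k with
  | zero => simp
  | succ k ih =>
    rw [pow_succ', ← mulVec_mulVec, ← mulVec_mulVec, hsim, ih, pow_succ']
    ring

theorem exists_ne_zero (hf : IsSymplecticForm f) (hn : 0 < n) : ∃ u v, f u v ≠ 0 := by
  have h1 : (Pi.single (⟨0, hn⟩ : Fin n) (1 : F) : Fin n → F) ≠ 0 := by
    intro h
    have := congrFun h ⟨0, hn⟩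
    simp at this
  obtain ⟨-, x, hx⟩ := hf.nondegenerate _ h1
  exact ⟨_, x, hx⟩

/-- the multiplier of a similarity of order `r` -/
theorem mult_pow (hf : IsSymplecticForm f) (hn : 0 < n) {X : Matrix (Fin n) (Fin n) F} {c : F}
    (hsim : ∀ u v, f (X *ᵥ u) (X *ᵥ v) = c * f u v) {r : ℕ} (hX : X ^ r = 1) : c ^ r = 1 := by
  obtain ⟨u, v, huv⟩ := exists_ne_zero hf hn
  have := sim_pow hsim r u v
  rw [hX, one_mulVec, one_mulVec] at this
  exact (mul_right_cancel₀ huv (by rw [one_mul]; exact this)).symm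

theorem eq_one_of_pow [Fintype F] {r : ℕ} [Fact r.Prime] (h1 : ¬ r ∣ Fintype.card F - 1) {c : F}
    (hc : c ^ r = 1) : c = 1 := by
  have hc0 : c ≠ 0 := by
    rintro rfl
    rw [zero_pow (Fact.out : r.Prime).ne_zero] at hc
    exact zero_ne_one hc
  have h2 := FiniteField.pow_card_sub_one_eq_one c hc0
  have h3 := pow_gcd_eq_one.2 ⟨hc, h2⟩
  have h4 : Nat.gcd r (Fintype.card F - 1) = 1 :=
    (Nat.Prime.coprime_iff_not_dvd Fact.out).2 h1
  rw [h4, pow_one] at h3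
  exact h3

/-- an isometry of order prime to the characteristic has a commutator space of even dimension -/
theorem even_rank (hf : IsSymplecticForm f) {X : Matrix (Fin n) (Fin n) F}
    (hiso : ∀ u v, f (X *ᵥ u) (X *ᵥ v) = f u v) {r : ℕ} (hX : X ^ r = 1) (hr : (r : F) ≠ 0) :
    Even (X - 1).rank := by
  let E : Matrix (Fin n) (Fin n) F := ∑ k ∈ Finset.range r, X ^ k
  let G : Matrix (Fin n) (Fin n) F := -∑ k ∈ Finset.range r, ∑ i ∈ Finset.range k, X ^ i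
  have hE : (X - 1) * E = 0 := by
    rw [mul_geom_sum, hX, sub_self]
  have hG : (X - 1) * G = (r : F) • (1 : Matrix (Fin n) (Fin n) F) - E := by
    simp only [G, E]
    rw [mul_neg, Finset.mul_sum, Finset.sum_congr rfl (fun k _ => mul_geom_sum X k),
      Finset.sum_sub_distrib, Finset.sum_const, Finset.card_range, neg_sub, Nat.cast_smul_eq_nsmul]
  let W : Submodule F (Fin n → F) := LinearMap.range (X - 1).mulVecLin
  have hfix : ∀ v, X *ᵥ (E *ᵥ v) = E *ᵥ v := by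
    intro v
    have := congrArg (fun M => M *ᵥ v) hE
    simp only [← mulVec_mulVec, sub_mulVec, one_mulVec, zero_mulVec] at this
    exact sub_eq_zero.1 this
  have horth : ∀ v₁, X *ᵥ v₁ = v₁ → ∀ w ∈ W, f v₁ w = 0 := by
    rintro v₁ hv₁ w ⟨y, rfl⟩
    rw [mulVecLin_apply, sub_mulVec, one_mulVec]
    have h1 : f v₁ (X *ᵥ y - y) = f v₁ (X *ᵥ y) - f v₁ y := by
      have := hf.bilinear.add_right v₁ (X *ᵥ y - y) y
      rw [sub_add_cancel] at this
      rw [this, add_sub_cancel_right]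
    rw [h1]
    nth_rewrite 1 [← hv₁]
    rw [hiso, sub_self]
  have hdec : ∀ v, ∃ v₁ v₂, X *ᵥ v₁ = v₁ ∧ v₂ ∈ W ∧ v = v₁ + v₂ := by
    intro v
    refine ⟨(r : F)⁻¹ • (E *ᵥ v), (r : F)⁻¹ • ((X - 1) *ᵥ (G *ᵥ v)), ?_, ?_, ?_⟩
    · rw [mulVec_smul, hfix]
    · exact W.smul_mem _ ⟨G *ᵥ v, rfl⟩
    · rw [mulVec_mulVec, hG, sub_mulVec, smul_mulVec, one_mulVec, ← smul_add, add_sub_cancel,
        smul_smul, inv_mul_cancel₀ hr, one_smul]
  have hleft : ∀ w ∈ W, w ≠ 0 → ∃ x ∈ W, f x w ≠ 0 := by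
    intro w hw hw0
    obtain ⟨⟨v, hv⟩, -⟩ := hf.nondegenerate w hw0
    obtain ⟨v₁, v₂, h1, h2, rfl⟩ := hdec v
    refine ⟨v₂, h2, ?_⟩
    rw [hf.bilinear.add_left, horth v₁ h1 w hw, zero_add] at hv
    exact hv
  have hW : IsNondegenerateOn f W := by
    intro w hw hw0
    obtain ⟨x, hx, hxw⟩ := hleft w hw hw0
    refine ⟨⟨x, hx, hxw⟩, ⟨x, hx, ?_⟩⟩
    rw [hf.skew]
    exact neg_ne_zero.2 hxw
  exact Cfsg.Agent.Lib.Helper74SpDField.even_finrank_of_nondegenerateOn hf hW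

end Cfsg.Agent.Lib.Helper3EluSpOdd
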