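import Mathlib
import Cfsg.Prelude.Def_GeometricClasses
import Cfsg.Agent.Lib.Helper3EluSp
import Cfsg.Agent.Lib.Helper3EluSpOdd
import Cfsg.Agent.Lib.Helper70EluSMALL
import Cfsg.Agent.Lib.Helper21EluRANK

/-!
PROJECT 94 (ELU2), row S5968: derangements, cases `r = p` and `ord_r(q)` odd, `> 1`.
-/

set_option autoImplicit false

namespace Cfsg.Agent.Lib.Helper3EluSpDerA

open Cfsg Cfsg.Geo Matrix Module Cfsg.Agent.Lib.Helper3EluSp Cfsg.Agent.Lib.Helper3EluSpOdd
open scoped MatrixGroups

variable {F : Type*} [Field F] {n : ℕ} {f : (Fin n → F) → (Fin n → F) → F}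

theorem eq_zero_of_rank_eq_zero (A : Matrix (Fin n) (Fin n) F) (h : A.rank = 0) : A = 0 := by
  have h1 : LinearMap.range A.mulVecLin = ⊥ := Submodule.finrank_eq_zero.1 h
  rw [LinearMap.range_eq_bot, ← Matrix.toLin'_apply'] at h1
  exact (LinearEquiv.map_eq_zero_iff _).1 h1

theorem pow_eq_one_zmod {q r j : ℕ} (hq : 0 < q) : r ∣ q ^ j - 1 ↔ ((q : ℕ) : ZMod r) ^ j = 1 := by
  have h1 : 1 ≤ q ^ j := Nat.one_le_pow _ _ hq
  rw [← ZMod.natCast_eq_zero_iff, Nat.cast_sub h1, Nat.cast_pow, Nat.cast_one, sub_eq_zero]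

theorem exists_der_odd [Fintype F] (hf : IsSymplecticForm f) (hn : 0 < n) {r : ℕ} [Fact r.Prime]
    (hrq : ¬ r ∣ Fintype.card F) (hrF : (r : F) ≠ 0) (h1 : ¬ r ∣ Fintype.card F - 1)
    {j : ℕ} (hj : Odd j) (hjn : j ≤ n) (hjr : r ∣ Fintype.card F ^ j - 1) :
    ∃ x : Matrix.SpecialLinearGroup (Fin n) F,
      (∃ z : F, ((x ^ r : Matrix.SpecialLinearGroup (Fin n) F) : Matrix (Fin n) (Fin n) F)
        = z • (1 : Matrix (Fin n) (Fin n) F)) ∧
      (∀ z : F, (x : Matrix (Fin n) (Fin n) F) ≠ z • (1 : Matrix (Fin n) (Fin n) F)) ∧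
      ∀ P : Matrix.SpecialLinearGroup (Fin n) F, P⁻¹ * x * P ∉ (similarityGroup f).comap
        (Matrix.SpecialLinearGroup.toGL : Matrix.SpecialLinearGroup (Fin n) F →* GL (Fin n) F) := by
  have hq : 0 < Fintype.card F := Fintype.card_pos
  have hj0 : 0 < j := hj.pos
  set i := orderOf ((Fintype.card F : ℕ) : ZMod r) with hi
  have hij : i ∣ j := orderOf_dvd_of_pow_eq_one ((pow_eq_one_zmod hq).1 hjr)
  have hi0 : 0 < i := Nat.pos_of_dvd_of_pos hij hj0
  have hiodd : Odd i := Odd.of_dvd_nat hj hij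
  have hin : i ≤ n := (Nat.le_of_dvd hj0 hij).trans hjn
  have hir : r ∣ Fintype.card F ^ i - 1 := (pow_eq_one_zmod hq).2 (pow_orderOf_eq_one _)
  obtain ⟨x, hxr, hx1, hxrank⟩ := Cfsg.Agent.Lib.Helper70EluSMALL.exists_small hi0 hin hir h1
  have hxr' : (x : Matrix (Fin n) (Fin n) F) ^ r = 1 := by
    rw [← Matrix.SpecialLinearGroup.coe_pow, hxr, Matrix.SpecialLinearGroup.coe_one]
  have hdvd := Cfsg.Agent.Lib.Helper21EluRANK.orderOf_dvd_rank r hrq (x : Matrix (Fin n) (Fin n) F) hxr'
  have hrank0 : ((x : Matrix (Fin n) (Fin n) F) - 1).rank ≠ 0 := by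
    intro h0
    apply hx1
    apply Subtype.ext
    rw [Matrix.SpecialLinearGroup.coe_one]
    exact sub_eq_zero.1 (eq_zero_of_rank_eq_zero _ h0)
  have hrank : ((x : Matrix (Fin n) (Fin n) F) - 1).rank = i :=
    le_antisymm hxrank (Nat.le_of_dvd (Nat.pos_of_ne_zero hrank0) hdvd)
  refine ⟨x, ⟨1, ?_⟩, ?_, ?_⟩
  · rw [hxr, Matrix.SpecialLinearGroup.coe_one, one_smul]
  · intro z hz
    have hzr : z ^ r = 1 := by
      rw [hz, smul_pow, one_pow] at hxr'
      have := congrFun (congrFun hxr' ⟨0, hn⟩) ⟨0, hn⟩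
      simpa using this
    have hz1 := eq_one_of_pow h1 hzr
    apply hx1
    apply Subtype.ext
    rw [hz, hz1, one_smul, Matrix.SpecialLinearGroup.coe_one]
  · intro P hP
    obtain ⟨f', hf', c, -, hsim⟩ := exists_form_of_conj hf x P hP
    have hc1 : c = 1 := eq_one_of_pow h1 (mult_pow hf' hn hsim hxr')
    rw [hc1] at hsim
    have := even_rank hf' (fun u v => by rw [hsim, one_mul]) hxr' hrF
    rw [hrank] at this
    exact (Nat.not_even_iff_odd.2 hiodd) this

theorem exists_der_char {p : ℕ} [Fact p.Prime] [CharP F p] (hp2 : p ≠ 2) (hf : IsSymplecticForm f)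
    (hn : 4 ≤ n) :
    ∃ x : Matrix.SpecialLinearGroup (Fin n) F,
      (∃ z : F, ((x ^ p : Matrix.SpecialLinearGroup (Fin n) F) : Matrix (Fin n) (Fin n) F)
        = z • (1 : Matrix (Fin n) (Fin n) F)) ∧
      (∀ z : F, (x : Matrix (Fin n) (Fin n) F) ≠ z • (1 : Matrix (Fin n) (Fin n) F)) ∧
      ∀ P : Matrix.SpecialLinearGroup (Fin n) F, P⁻¹ * x * P ∉ (similarityGroup f).comap
        (Matrix.SpecialLinearGroup.toGL : Matrix.SpecialLinearGroup (Fin n) F →* GL (Fin n) F) := by
  classical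
  have hne : Nonempty (Fin n) := ⟨⟨0, by omega⟩⟩
  let j0 : Fin n := ⟨0, by omega⟩
  let j1 : Fin n := ⟨1, by omega⟩
  let j2 : Fin n := ⟨2, by omega⟩
  have h10 : j1 ≠ j0 := by simp [j0, j1]
  have h20 : j2 ≠ j0 := by simp [j0, j2]
  have h21 : j2 ≠ j1 := by simp [j1, j2]
  let A : Matrix (Fin n) (Fin n) F := single j0 j1 1
  let B : Matrix (Fin n) (Fin n) F := single j1 j2 1
  let C : Matrix (Fin n) (Fin n) F := single j0 j2 1
  have hAB : A * B = C := by simp [A, B, C]
  have hAA : A * A = 0 := single_mul_single_of_ne _ _ _ _ h10 _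
  have hAC : A * C = 0 := single_mul_single_of_ne _ _ _ _ h10 _
  have hBA : B * A = 0 := single_mul_single_of_ne _ _ _ _ h20 _
  have hBB : B * B = 0 := single_mul_single_of_ne _ _ _ _ h21 _
  have hBC : B * C = 0 := single_mul_single_of_ne _ _ _ _ h20 _
  have hCA : C * A = 0 := single_mul_single_of_ne _ _ _ _ h20 _
  have hCB : C * B = 0 := single_mul_single_of_ne _ _ _ _ h21 _
  have hCC : C * C = 0 := single_mul_single_of_ne _ _ _ _ h20 _
  let X : Matrix (Fin n) (Fin n) F := transvection j0 j1 1 * transvection j1 j2 1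
  have hXM : X = 1 + (A + B + C) := by
    show (1 + A) * (1 + B) = _
    rw [add_mul, mul_add, mul_add, hAB, one_mul, one_mul, mul_one]
    abel
  have hdet : X.det = 1 := by
    rw [det_mul, det_transvection_of_ne _ _ h10.symm, det_transvection_of_ne _ _ h21.symm, one_mul]
  have hM2 : (A + B + C) * (A + B + C) = C := by
    simp only [add_mul, mul_add, hAA, hAB, hAC, hBA, hBB, hBC, hCA, hCB, hCC, add_zero, zero_add]
  have hM3 : (A + B + C) ^ 3 = 0 := by
    rw [pow_succ, pow_two, hM2]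
    simp only [mul_add, hCA, hCB, hCC, add_zero]
  have hp3 : 3 ≤ p := by
    have := (Fact.out : p.Prime).two_le
    omega
  have hXp : X ^ p = 1 := by
    rw [hXM, add_pow_char_of_commute p (Commute.one_left _), one_pow,
      show p = 3 + (p - 3) by omega, pow_add, hM3, zero_mul, add_zero]
  have hact : ∀ u : Fin n → F, X *ᵥ u = u + (u j1 + u j2) • (Pi.single j0 1 : Fin n → F)
      + (u j2) • (Pi.single j1 1 : Fin n → F) := by
    intro u
    rw [hXM]
    simp only [add_mulVec, one_mulVec, A, B, C, single_mulVec_eq, one_mul, add_smul]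
    abel
  let x : Matrix.SpecialLinearGroup (Fin n) F := ⟨X, hdet⟩
  have hxc : (x : Matrix (Fin n) (Fin n) F) = X := rfl
  refine ⟨x, ⟨1, ?_⟩, ?_, ?_⟩
  · rw [Matrix.SpecialLinearGroup.coe_pow, hxc, hXp, one_smul]
  · intro z hz
    rw [hxc, hXM] at hz
    have := congrFun (congrFun hz j0) j1
    simp [A, B, C, h10, h10.symm, h21] at this
  · intro P hP
    obtain ⟨f', hf', c, -, hsim⟩ := exists_form_of_conj hf x P hP
    rw [hxc] at hsim
    let e : Fin n → (Fin n → F) := fun k => Pi.single k 1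
    have he0 : X *ᵥ e j0 = e j0 := by
      rw [hact]
      simp [e, h10, h20]
    have he1 : X *ᵥ e j1 = e j1 + e j0 := by
      rw [hact]
      simp [e, h21]
    have he2 : X *ᵥ e j2 = e j2 + e j0 + e j1 := by
      rw [hact]
      simp [e, h21.symm]
    have hek : ∀ k, k ≠ j1 → k ≠ j2 → X *ᵥ e k = e k := by
      intro k hk1 hk2
      rw [hact]
      simp [e, hk1.symm, hk2.symm]
    have hb := hf'.bilinear
    have R1 := hsim (e j0) (e j1)
    have R2 := hsim (e j0) (e j2)
    have R4 := hsim (e j1) (e j2)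
    rw [he0, he1, hb.add_right, hf'.alternating, add_zero] at R1
    rw [he0, he2, hb.add_right, hb.add_right, hf'.alternating, add_zero] at R2
    rw [he1, he2, hb.add_left, hb.add_right, hb.add_right, hb.add_right, hb.add_right, hf'.alternating,
      hf'.alternating, hf'.skew (e j1) (e j0)] at R4
    have key : ∀ k, f' (e j0) (e k) = 0 := by
      by_cases hc : c = 1
      · subst hc
        have a1 : f' (e j0) (e j1) = 0 := by linear_combination R2
        have a2 : f' (e j0) (e j2) = 0 := by linear_combination R4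
        intro k
        by_cases hk1 : k = j1
        · rw [hk1]; exact a1
        by_cases hk2 : k = j2
        · rw [hk2]; exact a2
        have R5 := hsim (e j1) (e k)
        rw [he1, hek k hk1 hk2, hb.add_left] at R5
        linear_combination R5
      · have hc' : 1 - c ≠ 0 := sub_ne_zero.2 (Ne.symm hc)
        have a1 : f' (e j0) (e j1) = 0 := by
          have : (1 - c) * f' (e j0) (e j1) = 0 := by linear_combination R1
          exact (mul_eq_zero.1 this).resolve_left hc'
        have a2 : f' (e j0) (e j2) = 0 := by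
          have : (1 - c) * f' (e j0) (e j2) = 0 := by linear_combination R2 - a1
          exact (mul_eq_zero.1 this).resolve_left hc'
        intro k
        by_cases hk1 : k = j1
        · rw [hk1]; exact a1
        by_cases hk2 : k = j2
        · rw [hk2]; exact a2
        have R3 := hsim (e j0) (e k)
        rw [he0, hek k hk1 hk2] at R3
        have : (1 - c) * f' (e j0) (e k) = 0 := by linear_combination R3
        exact (mul_eq_zero.1 this).resolve_left hc'
    have h0 := eq_zero_of_basis hf' (e j0) key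
    have := congrFun h0 j0
    simp [e] at this

end Cfsg.Agent.Lib.Helper3EluSpDerA
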