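import Mathlib
import Cfsg.Prelude.Def_GeometricClasses
import Cfsg.Agent.Lib.Helper3EluSp

/-!
PROJECT 94 (ELU2), row S5968: derangements, case `r ∣ q - 1`.
-/

set_option autoImplicit false

namespace Cfsg.Agent.Lib.Helper3EluSpDerB

open Cfsg Cfsg.Geo Matrix Module Cfsg.Agent.Lib.Helper3EluSp
open scoped MatrixGroups

variable {F : Type*} [Field F] {n : ℕ} {f : (Fin n → F) → (Fin n → F) → F}

theorem exists_der_one [Fintype F] (hf : IsSymplecticForm f) (hn : 4 ≤ n) {r : ℕ}
    [Fact r.Prime] (hr2 : r ≠ 2) (hgap : ¬ (n = 6 ∧ r = 3)) (h1 : r ∣ Fintype.card F - 1) :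
    ∃ x : Matrix.SpecialLinearGroup (Fin n) F,
      (∃ z : F, ((x ^ r : Matrix.SpecialLinearGroup (Fin n) F) : Matrix (Fin n) (Fin n) F)
        = z • (1 : Matrix (Fin n) (Fin n) F)) ∧
      (∀ z : F, (x : Matrix (Fin n) (Fin n) F) ≠ z • (1 : Matrix (Fin n) (Fin n) F)) ∧
      ∀ P : Matrix.SpecialLinearGroup (Fin n) F, P⁻¹ * x * P ∉ (similarityGroup f).comap
        (Matrix.SpecialLinearGroup.toGL : Matrix.SpecialLinearGroup (Fin n) F →* GL (Fin n) F) := by
  classical
  have hrp : r.Prime := Fact.out
  obtain ⟨ζ, hζ⟩ := exists_prime_orderOf_dvd_card (G := Fˣ) r (by rw [Fintype.card_units]; exact h1)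
  obtain ⟨k, rfl⟩ : ∃ k, n = k + 4 := ⟨n - 4, by omega⟩
  set t : F := (ζ : F) with ht
  have ht0 : t ≠ 0 := ζ.ne_zero
  have hpow : ∀ a : ℕ, t ^ a = 1 → r ∣ a := by
    intro a ha
    rw [← hζ]
    apply orderOf_dvd_of_pow_eq_one
    apply Units.ext
    rw [Units.val_pow_eq_pow_val, Units.val_one]
    exact ha
  have htr : t ^ r = 1 := by
    rw [ht, ← Units.val_pow_eq_pow_val, ← hζ, pow_orderOf_eq_one, Units.val_one]
  have hr5 : r = 3 ∨ 5 ≤ r := by
    have h2 := hrp.two_le
    rcases Nat.lt_or_ge r 5 with h | h
    · left
      interval_cases r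
      · exact absurd rfl hr2
      · rfl
      · exact absurd hrp (by norm_num)
    · right; exact h
  have ht1 : t ≠ 1 := by
    intro h
    have := hpow 1 (by rw [pow_one]; exact h)
    exact hrp.one_lt.ne' (Nat.dvd_one.1 this)
  have ht2 : t ^ 2 ≠ 1 := by
    intro h
    have := Nat.le_of_dvd (by norm_num) (hpow 2 h)
    have h2 := hrp.two_le
    omega
  set s : F := (t * t)⁻¹ with hs
  have hst : s * (t * t) = 1 := inv_mul_cancel₀ (mul_ne_zero ht0 ht0)
  let d : Fin (k + 4) → F := fun j => if (j : ℕ) < 2 then t else if (j : ℕ) = 2 then s else 1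
  let j0 : Fin (k + 4) := ⟨0, by omega⟩
  let j1 : Fin (k + 4) := ⟨1, by omega⟩
  let j2 : Fin (k + 4) := ⟨2, by omega⟩
  let j3 : Fin (k + 4) := ⟨3, by omega⟩
  have hd0 : d j0 = t := by simp [d, j0]
  have hd1 : d j1 = t := by simp [d, j1]
  have hd2 : d j2 = s := by simp [d, j2]
  have hd3 : d j3 = 1 := by simp [d, j3]
  have hdk : ∀ j : Fin (k + 4), j ≠ j0 → j ≠ j1 → j ≠ j2 → d j = 1 := by
    intro j h0 h1 h2
    have e0 : (j : ℕ) ≠ 0 := fun h => h0 (Fin.ext h)
    have e1 : (j : ℕ) ≠ 1 := fun h => h1 (Fin.ext h)
    have e2 : (j : ℕ) ≠ 2 := fun h => h2 (Fin.ext h)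
    show (if (j : ℕ) < 2 then t else if (j : ℕ) = 2 then s else 1) = 1
    rw [if_neg (by omega), if_neg e2]
  have hcases : ∀ j : Fin (k + 4), j ≠ j2 → d j = t ∨ d j = 1 := by
    intro j h2
    by_cases h0 : j = j0
    · left; rw [h0]; exact hd0
    by_cases h1 : j = j1
    · left; rw [h1]; exact hd1
    right; exact hdk j h0 h1 h2
  have hcases' : ∀ j : Fin (k + 4), d j = t ∨ d j = s ∨ d j = 1 := by
    intro j
    by_cases h2 : j = j2
    · right; left; rw [h2]; exact hd2
    · rcases hcases j h2 with h | h
      · left; exact h
      · right; right; exact h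
  have hdet : (diagonal d).det = 1 := by
    rw [det_diagonal, Fin.prod_univ_succ, Fin.prod_univ_succ, Fin.prod_univ_succ,
      Finset.prod_eq_one]
    · show d j0 * (d j1 * (d j2 * 1)) = 1
      rw [hd0, hd1, hd2]
      linear_combination hst
    · intro j _
      apply hdk
      · intro h
        have := congrArg Fin.val h
        simp only [Fin.val_succ, j0] at this
        omega
      · intro h
        have := congrArg Fin.val h
        simp only [Fin.val_succ, j1] at this
        omega
      · intro h
        have := congrArg Fin.val h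
        simp only [Fin.val_succ, j2] at this
        omega
  let x : Matrix.SpecialLinearGroup (Fin (k + 4)) F := ⟨diagonal d, hdet⟩
  have hxc : (x : Matrix (Fin (k + 4)) (Fin (k + 4)) F) = diagonal d := rfl
  have hsr : s ^ r = 1 := by
    rw [hs, inv_pow, mul_pow, htr, one_mul, inv_one]
  refine ⟨x, ⟨1, ?_⟩, ?_, ?_⟩
  · rw [Matrix.SpecialLinearGroup.coe_pow, hxc, diagonal_pow, one_smul, ← diagonal_one]
    congr 1
    funext j
    show d j ^ r = 1
    rcases hcases' j with h | h | h <;> rw [h]
    · exact htr
    · exact hsr
    · exact one_pow _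
  · intro z hz
    rw [hxc] at hz
    have e0 := congrFun (congrFun hz j0) j0
    have e3 := congrFun (congrFun hz j3) j3
    simp only [diagonal_apply_eq, Matrix.smul_apply, one_apply_eq, smul_eq_mul, mul_one] at e0 e3
    rw [hd0] at e0
    rw [hd3] at e3
    exact ht1 (by rw [e0, ← e3])
  · intro P hP
    obtain ⟨f', hf', c, -, hsim⟩ := exists_form_of_conj hf _ P hP
    have hsim' : ∀ u v, f' (diagonal d *ᵥ u) (diagonal d *ᵥ v) = c * f' u v := hsim
    have rad : ∀ j, (∀ k', k' ≠ j → d j * d k' ≠ c) → False := by
      intro j hj
      have := card_le_of_support hf' {j} ∅ (by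
        intro j' hj' k' _
        rw [Finset.mem_singleton] at hj'
        subst hj'
        by_cases hk : k' = j'
        · subst hk
          exact hf'.alternating _
        · exact diag_support hf' d c hsim' _ _ (hj k' hk))
      simp at this
    rcases hr5 with hr3 | hr5
    · -- `r = 3`
      have ht3 : t ^ 3 = 1 := by rw [← hr3]; exact htr
      have hs' : s = t := by
        have : s * (t * t) = t * (t * t) := by rw [hst]; linear_combination -ht3
        exact mul_right_cancel₀ (mul_ne_zero ht0 ht0) this
      have hall : ∀ j, d j = t ∨ d j = 1 := by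
        intro j
        rcases hcases' j with h | h | h
        · left; exact h
        · left; rw [h, hs']
        · right; exact h
      by_cases hct : c = t
      · let S : Finset (Fin (k + 4)) := {j0, j1, j2}
        have hScard : S.card = 3 := by
          rw [Finset.card_insert_of_notMem, Finset.card_pair]
          · simp [j1, j2]
          · simp [j0, j1, j2]
        have hdS : ∀ j ∈ S, d j = t := by
          intro j hj
          simp only [S, Finset.mem_insert, Finset.mem_singleton] at hj
          rcases hj with rfl | rfl | rfl
          · exact hd0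
          · exact hd1
          · rw [hd2, hs']
        have hdS' : ∀ j, j ∉ S → d j = 1 := by
          intro j hj
          simp only [S, Finset.mem_insert, Finset.mem_singleton, not_or] at hj
          exact hdk j hj.1 hj.2.1 hj.2.2
        have hc1 := card_le_of_support hf' S Sᶜ (by
          intro j hj k' hk'
          rw [Finset.mem_compl, not_not] at hk'
          apply diag_support hf' d c hsim'
          rw [hdS j hj, hdS k' hk', hct]
          intro h
          exact ht1 (mul_right_cancel₀ ht0 (by rw [h, one_mul])))
        have hc2 := card_le_of_support hf' Sᶜ S (by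
          intro j hj k' hk'
          rw [Finset.mem_compl] at hj
          apply diag_support hf' d c hsim'
          rw [hdS' j hj, hdS' k' hk', hct, one_mul]
          exact Ne.symm ht1)
        rw [Finset.card_compl, Fintype.card_fin, hScard] at hc1 hc2
        exact hgap ⟨by omega, hr3⟩
      · by_cases hc1 : c = 1
        · apply rad j0
          intro k' _
          rw [hd0, hc1]
          rcases hall k' with h | h <;> rw [h]
          · rw [← pow_two]; exact ht2
          · rw [mul_one]; exact ht1
        · apply rad j3
          intro k' _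
          rw [hd3, one_mul]
          rcases hall k' with h | h <;> rw [h]
          · exact Ne.symm hct
          · exact Ne.symm hc1
    · -- `r ≥ 5`
      have ht3 : t ^ 3 ≠ 1 := by
        intro h
        have := Nat.le_of_dvd (by norm_num) (hpow 3 h)
        omega
      have ht4 : t ^ 4 ≠ 1 := by
        intro h
        have := Nat.le_of_dvd (by norm_num) (hpow 4 h)
        omega
      by_cases hc1 : c = s * t
      · apply rad j3
        intro k' _
        rw [hd3, one_mul, hc1]
        rcases hcases' k' with h | h | h <;> rw [h]
        · intro h'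
          apply ht2
          linear_combination t * h' + hst
        · intro h'
          apply ht1
          have hs0 : s ≠ 0 := inv_ne_zero (mul_ne_zero ht0 ht0)
          exact (mul_left_cancel₀ hs0 (by rw [mul_one]; exact h')).symm
        · intro h'
          apply ht1
          linear_combination t * h' + hst
      · by_cases hc2 : c = s
        · apply rad j0
          intro k' _
          rw [hd0, hc2]
          rcases hcases' k' with h | h | h <;> rw [h]
          · intro h'
            apply ht4
            linear_combination (t * t) * h' + hst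
          · intro h'
            apply ht1
            have hs0 : s ≠ 0 := inv_ne_zero (mul_ne_zero ht0 ht0)
            exact mul_right_cancel₀ hs0 (by rw [one_mul]; exact h')
          · intro h'
            apply ht3
            linear_combination (t * t) * h' + hst
        · apply rad j2
          intro k' hk'
          rw [hd2]
          rcases hcases k' hk' with h | h <;> rw [h]
          · exact Ne.symm hc1
          · rw [mul_one]; exact Ne.symm hc2

end Cfsg.Agent.Lib.Helper3EluSpDerB
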