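import Mathlib
import Cfsg.Prelude.Def_GeometricClasses
import Cfsg.Agent.Lib.Helper3EluSp
import Cfsg.Agent.Lib.Helper95Form
import Cfsg.Agent.Lib.Helper7SpFrame
import Cfsg.Agent.Lib.Helper70EluCARDSL

/-!
PROJECT 94 (ELU2), row S5968: the primes dividing the index of the symplectic similarity group in `SL_n`.
-/

set_option autoImplicit false

namespace Cfsg.Agent.Lib.Helper3EluSpIdx

open Cfsg Cfsg.Geo Matrix Module Cfsg.Agent.Lib.Helper3EluSp
open scoped MatrixGroups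

variable {F : Type*} [Field F] {n m : ℕ} {f : (Fin n → F) → (Fin n → F) → F}

theorem det_eq_one_of_isometry (hf : IsSymplecticForm f) (Y : Matrix (Fin n) (Fin n) F)
    (h : ∀ u v, f (Y *ᵥ u) (Y *ᵥ v) = f u v) : Y.det = 1 := by
  have hdet : Y.det ≠ 0 := by
    intro h0
    obtain ⟨v, hv, hYv⟩ := Matrix.exists_mulVec_eq_zero_iff.2 h0
    obtain ⟨-, x, hx⟩ := hf.nondegenerate v hv
    apply hx
    rw [← h, hYv]
    have := hf.bilinear.smul_left 0 0 (Y *ᵥ x)
    simpa using this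
  let g : GL (Fin n) F := Matrix.GeneralLinearGroup.mkOfDetNeZero Y hdet
  have hg : (g : Matrix (Fin n) (Fin n) F) = Y := rfl
  have hB := Cfsg.Agent.Lib.Helper95Form.toBilin_nondegenerate f hf.bilinear hf.nondegenerate
  have hA := Cfsg.Agent.Lib.Helper95Form.toBilin_isAlt f hf
  have h1 := Cfsg.Agent.Lib.Helper95Sp.mem_of_isometry hB hA
    (Cfsg.Agent.Lib.Helper95Form.pull (specialLinear (Fin n) F))
    (fun v c => (Cfsg.Agent.Lib.Helper95Form.mem_pull _ _).2
      (Cfsg.Agent.Lib.Helper95Form.mkGL_stv_mem_specialLinear _ hA v c))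
    (Cfsg.Agent.Lib.Helper95Basic.glEquiv _ _ g) (fun x y => h x y)
  rw [Cfsg.Agent.Lib.Helper95Form.glEquiv_mem_pull,
    Cfsg.Agent.Lib.Helper95Basic.mem_specialLinear_iff] at h1
  exact h1

/-- the isometries of determinant one -/
def isoSL (f : (Fin n → F) → (Fin n → F) → F) : Subgroup (Matrix.SpecialLinearGroup (Fin n) F) where
  carrier := {g | ∀ u v, f ((g : Matrix (Fin n) (Fin n) F) *ᵥ u) ((g : Matrix (Fin n) (Fin n) F) *ᵥ v)
    = f u v}
  mul_mem' := by
    intro a b ha hb u v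
    rw [Matrix.SpecialLinearGroup.coe_mul, ← mulVec_mulVec, ← mulVec_mulVec, ha, hb]
  one_mem' := by
    intro u v
    simp
  inv_mem' := by
    intro a ha u v
    rw [← ha, mulVec_mulVec, mulVec_mulVec, ← Matrix.SpecialLinearGroup.coe_mul, mul_inv_cancel,
      Matrix.SpecialLinearGroup.coe_one, one_mulVec, one_mulVec]

theorem isoSL_le : isoSL f ≤ (similarityGroup f).comap
    (Matrix.SpecialLinearGroup.toGL : Matrix.SpecialLinearGroup (Fin n) F →* GL (Fin n) F) := by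
  intro g hg
  refine ⟨1, fun u v => ?_⟩
  rw [Units.val_one, one_mul]
  exact hg u v

theorem card_isoSL (hf : IsSymplecticForm f) (hn : n = 2 * m) :
    Nat.card (isoSL f) = Nat.card (Matrix.symplecticGroup (Fin m) F) := by
  obtain ⟨b, hb⟩ := exists_std hf hn
  refine Nat.card_congr (Equiv.ofBijective
    (fun g : isoSL f => (⟨(Psi b).symm (g.1 : Matrix (Fin n) (Fin n) F), ?_⟩ :
      Matrix.symplecticGroup (Fin m) F)) ⟨?_, ?_⟩)
  · rw [Cfsg.Agent.Lib.Helper17Symp.mem_symplecticGroup_iff_preserves]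
    intro u v
    have key : ∀ u : Fin m ⊕ Fin m → F, (Psi b).symm (g.1 : Matrix (Fin n) (Fin n) F) *ᵥ u
        = b.equivFun ((g.1 : Matrix (Fin n) (Fin n) F) *ᵥ b.equivFun.symm u) := by
      intro u
      have := Psi_mulVec b ((Psi b).symm (g.1 : Matrix (Fin n) (Fin n) F)) (b.equivFun.symm u)
      rw [AlgEquiv.apply_symm_apply, LinearEquiv.apply_symm_apply] at this
      exact this.symm
    rw [key, key, hb, g.2, ← hb, LinearEquiv.apply_symm_apply, LinearEquiv.apply_symm_apply]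
  · intro g g' hgg
    have h1 := congrArg Subtype.val hgg
    have h2 := (Psi b).symm.injective h1
    exact Subtype.ext (Subtype.ext h2)
  · rintro ⟨A, hA⟩
    rw [Cfsg.Agent.Lib.Helper17Symp.mem_symplecticGroup_iff_preserves] at hA
    have hiso : ∀ u v, f (Psi b A *ᵥ u) (Psi b A *ᵥ v) = f u v := by
      intro u v
      rw [← hb, Psi_mulVec, Psi_mulVec, hA, hb]
    refine ⟨⟨⟨Psi b A, det_eq_one_of_isometry hf _ hiso⟩, hiso⟩, Subtype.ext ?_⟩
    exact (Psi b).symm_apply_apply A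

theorem prod_range_two_mul (g : ℕ → ℕ) (m : ℕ) :
    ∏ i ∈ Finset.range (2 * m), g i
      = (∏ k ∈ Finset.range m, g (2 * k + 1)) * ∏ k ∈ Finset.range m, g (2 * k) := by
  induction m with
  | zero => simp
  | succ m ih =>
    rw [show 2 * (m + 1) = 2 * m + 1 + 1 by ring, Finset.prod_range_succ, Finset.prod_range_succ, ih,
      Finset.prod_range_succ, Finset.prod_range_succ]
    ring

theorem arith {q m r idx S : ℕ} (hq : 2 ≤ q) (hr : r.Prime) (hrq : ¬ r ∣ q)
    (hSL : S * (q - 1) = ∏ i : Fin (2 * m), (q ^ (2 * m) - q ^ (i : ℕ)))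
    (hS : S = (q ^ (m ^ 2) * ∏ i ∈ Finset.range m, (q ^ (2 * (i + 1)) - 1)) * idx) (hidx : r ∣ idx) :
    ∃ j, Odd j ∧ j ≤ 2 * m ∧ r ∣ q ^ j - 1 := by
  have h1 : ∏ i : Fin (2 * m), (q ^ (2 * m) - q ^ (i : ℕ))
      = (∏ i ∈ Finset.range (2 * m), q ^ i) * ∏ i ∈ Finset.range (2 * m), (q ^ (i + 1) - 1) := by
    rw [Fin.prod_univ_eq_prod_range (fun i => q ^ (2 * m) - q ^ i) (2 * m),
      ← Finset.prod_range_reflect (fun i => q ^ (i + 1) - 1), ← Finset.prod_mul_distrib]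
    refine Finset.prod_congr rfl ?_
    intro i hi
    rw [Finset.mem_range] at hi
    rw [show 2 * m - 1 - i + 1 = 2 * m - i by omega, Nat.mul_sub, mul_one, ← pow_add,
      show i + (2 * m - i) = 2 * m by omega]
  rw [h1, prod_range_two_mul (fun i => q ^ (i + 1) - 1) m] at hSL
  set A := ∏ i ∈ Finset.range m, (q ^ (2 * (i + 1)) - 1) with hA
  have hA' : ∏ k ∈ Finset.range m, (q ^ (2 * k + 1 + 1) - 1) = A := by
    refine Finset.prod_congr rfl ?_
    intro k _
    rw [show 2 * k + 1 + 1 = 2 * (k + 1) by ring]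
  simp only [hA'] at hSL
  have hA0 : 0 < A := by
    apply Finset.prod_pos
    intro i _
    have : 1 < q ^ (2 * (i + 1)) := Nat.one_lt_pow (by omega) (by omega)
    omega
  rw [hS] at hSL
  have h2 : A * (q ^ (m ^ 2) * idx * (q - 1))
      = A * ((∏ i ∈ Finset.range (2 * m), q ^ i) * ∏ k ∈ Finset.range m, (q ^ (2 * k + 1) - 1)) := by
    linear_combination hSL
  have h3 := Nat.eq_of_mul_eq_mul_left hA0 h2
  have h4 : r ∣ (∏ i ∈ Finset.range (2 * m), q ^ i) * ∏ k ∈ Finset.range m, (q ^ (2 * k + 1) - 1) := by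
    rw [← h3]
    exact Dvd.dvd.mul_right (Dvd.dvd.mul_left hidx _) _
  rcases (Nat.Prime.dvd_mul hr).1 h4 with h5 | h5
  · obtain ⟨i, -, hi⟩ := Prime.exists_mem_finset_dvd hr.prime h5
    exact absurd (hr.dvd_of_dvd_pow hi) hrq
  · obtain ⟨k, hk, hkr⟩ := Prime.exists_mem_finset_dvd hr.prime h5
    rw [Finset.mem_range] at hk
    exact ⟨2 * k + 1, ⟨k, rfl⟩, by omega, hkr⟩

theorem exists_odd_of_dvd_index [Fintype F] (hf : IsSymplecticForm f) (hn : n = 2 * m) (hn0 : 0 < n)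
    {r : ℕ} [Fact r.Prime] (hrq : ¬ r ∣ Fintype.card F)
    (hΩ : r ∣ ((similarityGroup f).comap
      (Matrix.SpecialLinearGroup.toGL : Matrix.SpecialLinearGroup (Fin n) F →* GL (Fin n) F)).index) :
    ∃ j, Odd j ∧ j ≤ n ∧ r ∣ Fintype.card F ^ j - 1 := by
  have h1 : r ∣ (isoSL f).index := hΩ.trans (Subgroup.index_dvd_of_le isoSL_le)
  have h2 := (isoSL f).card_mul_index
  rw [card_isoSL hf hn, Cfsg.Agent.Lib.Helper7SpFrame.card_symplecticGroup] at h2
  have h3 := Cfsg.Agent.Lib.Helper70EluCARDSL.card_SL_mul (F := F) n hn0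
  subst hn
  exact arith (Fintype.one_lt_card) Fact.out hrq h3 h2.symm h1

end Cfsg.Agent.Lib.Helper3EluSpIdx
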