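import Mathlib
import Cfsg.Prelude.Def_GeometricClasses
import Cfsg.Agent.Lib.Helper3EluSp

/-!
PROJECT 94 (ELU2), row S5967: explicit similarities of a symplectic form.
-/

set_option autoImplicit false

namespace Cfsg.Agent.Lib.Helper3EluSpInv

open Cfsg Cfsg.Geo Matrix Module Cfsg.Agent.Lib.Helper3EluSp
open scoped MatrixGroups

variable {F : Type*} [Field F] {n m : ℕ} {f : (Fin n → F) → (Fin n → F) → F}

theorem card_sum_lt {s : ℕ} (hs : s ≤ m) :
    Fintype.card {k : Fin m ⊕ Fin m // ((Sum.elim id id k : Fin m) : ℕ) < s} = 2 * s := by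
  have h1 : Nat.card {a : Fin m // (a : ℕ) < s} = s := by
    rw [Nat.card_eq_fintype_card, Fintype.card_fin_lt_of_le hs]
  rw [← Nat.card_eq_fintype_card, Nat.card_congr (Equiv.subtypeSum), Nat.card_sum]
  show Nat.card {a : Fin m // (a : ℕ) < s} + Nat.card {a : Fin m // (a : ℕ) < s} = 2 * s
  rw [h1]
  ring

/-- a square-zero perturbation of rank `s` which is an isometry -/
theorem exists_sq_zero [DecidableEq F] (hf : IsSymplecticForm f) (hn : n = 2 * m) {s : ℕ} (hs : s ≤ m) :
    ∃ N' : Matrix (Fin n) (Fin n) F, N' * N' = 0 ∧ N'.rank = s ∧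
      ∀ u v, f ((1 + N') *ᵥ u) ((1 + N') *ᵥ v) = f u v := by
  obtain ⟨b, hb⟩ := exists_std hf hn
  let δ : Fin m → F := fun i => if (i : ℕ) < s then 1 else 0
  let N₀ : Matrix (Fin m ⊕ Fin m) (Fin m ⊕ Fin m) F := fromBlocks 0 (diagonal δ) 0 0
  refine ⟨Psi b N₀, ?_, ?_, ?_⟩
  · rw [← map_mul]
    have : N₀ * N₀ = 0 := by
      simp [N₀, fromBlocks_multiply]
    rw [this, map_zero]
  · rw [Psi_rank]
    let W : Matrix (Fin m ⊕ Fin m) (Fin m ⊕ Fin m) F := fromBlocks 0 1 1 0
    have hW : IsUnit W.det := by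
      apply Matrix.isUnit_det_of_left_inverse (B := W)
      simp [W, fromBlocks_multiply]
    rw [← Matrix.rank_mul_eq_left_of_isUnit_det W N₀ hW]
    have e : N₀ * W = diagonal (Sum.elim δ 0) := by
      rw [← fromBlocks_diagonal]
      simp [N₀, W, fromBlocks_multiply]
    rw [e, rank_diagonal, Fintype.card_congr (Equiv.subtypeSum), Fintype.card_sum]
    simp only [Sum.elim_inl, Sum.elim_inr, Pi.zero_apply, ne_eq, not_true_eq_false, Fintype.card_eq_zero,
      add_zero]
    rw [← Fintype.card_fin_lt_of_le hs]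
    apply Fintype.card_congr
    apply Equiv.subtypeEquivRight
    intro i
    simp [δ]
  · intro u v
    have h1 : (1 : Matrix (Fin n) (Fin n) F) + Psi b N₀ = Psi b (1 + N₀) := by
      rw [map_add, map_one]
    rw [h1, Psi_sim b hb (1 + N₀) 1, one_mul]
    have h2 : (1 : Matrix (Fin m ⊕ Fin m) (Fin m ⊕ Fin m) F) + N₀ = fromBlocks 1 (diagonal δ) 0 1 := by
      show (1 : Matrix (Fin m ⊕ Fin m) (Fin m ⊕ Fin m) F) + fromBlocks 0 (diagonal δ) 0 0 = _
      rw [← fromBlocks_one, fromBlocks_add]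
      simp only [add_zero, zero_add]
    rw [h2]
    simp [Matrix.J, fromBlocks_transpose, fromBlocks_multiply]

/-- `w` times a reflection-like isometry with `-1`-eigenspace of dimension `2 d₂` -/
theorem exists_sq_sq [DecidableEq F] (hf : IsSymplecticForm f) (hn : n = 2 * m) (h2 : (2 : F) ≠ 0) (w : F)
    (hw : w ≠ 0) {d₂ : ℕ} (hd : d₂ ≤ m) :
    ∃ y : Matrix (Fin n) (Fin n) F, y ^ 2 = (w ^ 2) • (1 : Matrix (Fin n) (Fin n) F) ∧
      (y - w • (1 : Matrix (Fin n) (Fin n) F)).rank = 2 * d₂ ∧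
      ∀ u v, f (y *ᵥ u) (y *ᵥ v) = w ^ 2 * f u v := by
  obtain ⟨b, hb⟩ := exists_std hf hn
  let a : Fin m → F := fun i => if (i : ℕ) < d₂ then -w else w
  have haa : ∀ i, a i * a i = w ^ 2 := by
    intro i
    simp only [a]
    split_ifs <;> ring
  have hAA : diagonal a * diagonal a = (w ^ 2) • (1 : Matrix (Fin m) (Fin m) F) := by
    rw [diagonal_mul_diagonal, ← diagonal_one, ← diagonal_smul]
    congr 1
    funext i
    simp [haa i]
  let Y : Matrix (Fin m ⊕ Fin m) (Fin m ⊕ Fin m) F := fromBlocks (diagonal a) 0 0 (diagonal a)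
  refine ⟨Psi b Y, ?_, ?_, ?_⟩
  · rw [← map_pow]
    have : Y ^ 2 = (w ^ 2) • (1 : Matrix (Fin m ⊕ Fin m) (Fin m ⊕ Fin m) F) := by
      rw [pow_two, ← fromBlocks_one, fromBlocks_smul]
      show fromBlocks (diagonal a) 0 0 (diagonal a) * fromBlocks (diagonal a) 0 0 (diagonal a) = _
      rw [fromBlocks_multiply]
      simp only [mul_zero, zero_mul, add_zero, zero_add, smul_zero, hAA]
    rw [this, map_smul, map_one]
  · have h1 : Psi b Y - w • (1 : Matrix (Fin n) (Fin n) F)
        = Psi b (Y - w • (1 : Matrix (Fin m ⊕ Fin m) (Fin m ⊕ Fin m) F)) := by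
      rw [map_sub, map_smul, map_one]
    rw [h1, Psi_rank]
    have e : Y - w • (1 : Matrix (Fin m ⊕ Fin m) (Fin m ⊕ Fin m) F)
        = diagonal (fun k => a (Sum.elim id id k) - w) := by
      have e1 : Y = diagonal (Sum.elim a a) := fromBlocks_diagonal a a
      rw [e1, ← diagonal_one, ← diagonal_smul, diagonal_sub]
      congr 1
      funext k
      rcases k with k | k <;> simp
    rw [e, rank_diagonal, ← card_sum_lt hd]
    apply Fintype.card_congr
    apply Equiv.subtypeEquivRight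
    intro k
    simp only [a]
    split_ifs with hk
    · simp only [hk, iff_true]
      intro h0
      have : (2 : F) * w = 0 := by linear_combination -h0
      rcases mul_eq_zero.1 this with h | h
      · exact h2 h
      · exact hw h
    · simp [hk]
  · intro u v
    apply Psi_sim b hb
    simp only [Y, Matrix.J, fromBlocks_transpose, fromBlocks_multiply, diagonal_transpose, fromBlocks_smul,
      transpose_zero, mul_zero, zero_mul, add_zero, zero_add, mul_one, mul_neg, neg_mul, hAA, smul_neg,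
      smul_zero, neg_zero]

/-- a similarity with square `z` -/
theorem exists_sq_eq (hf : IsSymplecticForm f) (hn : n = 2 * m) (z : F) :
    ∃ y : Matrix (Fin n) (Fin n) F, y ^ 2 = z • (1 : Matrix (Fin n) (Fin n) F) ∧
      ∀ u v, f (y *ᵥ u) (y *ᵥ v) = (-z) * f u v := by
  obtain ⟨b, hb⟩ := exists_std hf hn
  let Y : Matrix (Fin m ⊕ Fin m) (Fin m ⊕ Fin m) F := fromBlocks 0 (z • 1) 1 0
  refine ⟨Psi b Y, ?_, ?_⟩
  · rw [← map_pow]
    have : Y ^ 2 = z • (1 : Matrix (Fin m ⊕ Fin m) (Fin m ⊕ Fin m) F) := by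
      rw [pow_two, ← fromBlocks_one, fromBlocks_smul]
      simp [Y, fromBlocks_multiply]
    rw [this, map_smul, map_one]
  · intro u v
    apply Psi_sim b hb
    simp [Y, Matrix.J, fromBlocks_transpose, fromBlocks_multiply, fromBlocks_smul, fromBlocks_neg]

end Cfsg.Agent.Lib.Helper3EluSpInv
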