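import Mathlib
import Cfsg.Prelude.Def_GeometricClasses
import Cfsg.Agent.Lib.Helper3EluSp
import Cfsg.Agent.Lib.Helper3EluSpInv
import Cfsg.Agent.Lib.Helper38EluNEGONE
import Cfsg.Agent.Lib.Helper38EluSEMI
import Cfsg.Agent.Lib.Helper38EluSLCONJ
import Cfsg.Agent.Lib.Helper91EluCHARSQ
import Cfsg.Agent.Lib.Helper70EluSQZERO

/-!
PROJECT 94 (ELU2), row S5967: the two directions.
-/

set_option autoImplicit false

namespace Cfsg.Agent.Lib.Helper3EluSpRow

open Cfsg Cfsg.Geo Matrix Module Cfsg.Agent.Lib.Helper3EluSp Cfsg.Agent.Lib.Helper3EluSpInv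
open Cfsg.Agent.Lib.Helper38EluNEGONE Cfsg.Agent.Lib.Helper38EluSEMI Cfsg.Agent.Lib.Helper38EluSLCONJ
  Cfsg.Agent.Lib.Helper91EluCHARSQ Cfsg.Agent.Lib.Helper70EluSQZERO
open scoped MatrixGroups

variable {F : Type*} [Field F] {n : ℕ} {f : (Fin n → F) → (Fin n → F) → F}

theorem exists_bad (hn : 4 ≤ n) (hf : IsSymplecticForm f) (h2 : (2 : F) ≠ 0) (w : F) (hw : w ^ n = -1) :
    ∃ x : Matrix.SpecialLinearGroup (Fin n) F,
      (∃ z : F, ((x ^ 2 : Matrix.SpecialLinearGroup (Fin n) F) : Matrix (Fin n) (Fin n) F)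
        = z • (1 : Matrix (Fin n) (Fin n) F)) ∧
      (∀ z : F, (x : Matrix (Fin n) (Fin n) F) ≠ z • (1 : Matrix (Fin n) (Fin n) F)) ∧
      ∀ P : Matrix.SpecialLinearGroup (Fin n) F, P⁻¹ * x * P ∉ (similarityGroup f).comap
        (Matrix.SpecialLinearGroup.toGL : Matrix.SpecialLinearGroup (Fin n) F →* GL (Fin n) F) := by
  classical
  obtain ⟨k, rfl⟩ : ∃ k, n = k + 4 := ⟨n - 4, by omega⟩
  have hw0 : w ≠ 0 := by
    rintro rfl
    rw [zero_pow (by omega)] at hw
    exact neg_ne_zero.2 one_ne_zero hw.symm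
  have h2w : w * w ≠ -(w * w) := by
    intro h
    have : (2 : F) * (w * w) = 0 := by linear_combination h
    rcases mul_eq_zero.1 this with h | h
    · exact h2 h
    · exact hw0 (mul_self_eq_zero.1 h)
  let d : Fin (k + 4) → F := fun j => if (j : ℕ) = 0 then -w else w
  let j0 : Fin (k + 4) := ⟨0, by omega⟩
  let j1 : Fin (k + 4) := ⟨1, by omega⟩
  let j2 : Fin (k + 4) := ⟨2, by omega⟩
  have hd0 : d j0 = -w := by simp [d, j0]
  have hdj : ∀ j : Fin (k + 4), j ≠ j0 → d j = w := fun j hj => by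
    have : (j : ℕ) ≠ 0 := fun h => hj (Fin.ext h)
    show (if (j : ℕ) = 0 then -w else w) = w
    rw [if_neg this]
  have h10 : j1 ≠ j0 := by simp [j0, j1]
  have h20 : j2 ≠ j0 := by simp [j0, j2]
  have h12 : j1 ≠ j2 := by simp [j1, j2]
  have hdet : (diagonal d).det = 1 := by
    rw [det_diagonal, Fin.prod_univ_succ, show d 0 = -w from hd0,
      Finset.prod_congr rfl (fun j _ => hdj (Fin.succ j) (Fin.succ_ne_zero j)), Finset.prod_const,
      Finset.card_univ, Fintype.card_fin]
    have : -w * w ^ (k + 3) = -(w ^ (k + 4)) := by ring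
    rw [this, hw, neg_neg]
  let x : Matrix.SpecialLinearGroup (Fin (k + 4)) F := ⟨diagonal d, hdet⟩
  have hxc : (x : Matrix (Fin (k + 4)) (Fin (k + 4)) F) = diagonal d := rfl
  refine ⟨x, ⟨w ^ 2, ?_⟩, ?_, ?_⟩
  · rw [Matrix.SpecialLinearGroup.coe_pow, hxc, diagonal_pow, ← diagonal_one, ← diagonal_smul]
    congr 1
    funext j
    by_cases hj : j = j0
    · subst hj
      simp [hd0]
    · simp [hdj j hj]
  · intro z hz
    rw [hxc] at hz
    have e0 := congrFun (congrFun hz j0) j0
    have e1 := congrFun (congrFun hz j1) j1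
    simp only [diagonal_apply_eq, Matrix.smul_apply, one_apply_eq, smul_eq_mul, mul_one] at e0 e1
    rw [hd0] at e0
    rw [hdj j1 h10] at e1
    have : (2 : F) * w = 0 := by linear_combination e1 - e0
    rcases mul_eq_zero.1 this with h | h
    · exact h2 h
    · exact hw0 h
  · intro P hP
    obtain ⟨f', hf', c, -, hsim⟩ := exists_form_of_conj hf _ P hP
    have hsim' : ∀ u v, f' (diagonal d *ᵥ u) (diagonal d *ᵥ v) = c * f' u v := hsim
    by_cases hc : c = -(w * w)
    · have := card_le_of_support hf' {j1, j2} {j0} (by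
        intro j hj k' hk'
        apply diag_support hf' d c hsim'
        have hj0 : j ≠ j0 := by
          rcases Finset.mem_insert.1 hj with rfl | hj
          · exact h10
          · rw [Finset.mem_singleton] at hj
            subst hj
            exact h20
        have hk0 : k' ≠ j0 := by simpa using hk'
        rw [hdj j hj0, hdj k' hk0, hc]
        exact h2w)
      rw [Finset.card_pair h12, Finset.card_singleton] at this
      omega
    · have := card_le_of_support hf' {j0} ∅ (by
        intro j hj k' _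
        rw [Finset.mem_singleton] at hj
        subst hj
        by_cases hk0 : k' = j0
        · subst hk0
          exact hf'.alternating _
        · apply diag_support hf' d c hsim'
          rw [hd0, hdj k' hk0]
          intro h
          exact hc (by rw [← h]; ring))
      simp at this

theorem mem_comap_of_coe {x : Matrix.SpecialLinearGroup (Fin n) F} {Y : Matrix (Fin n) (Fin n) F}
    (hx : (x : Matrix (Fin n) (Fin n) F) = Y) {c : F} (hc : c ≠ 0)
    (h : ∀ u v, f (Y *ᵥ u) (Y *ᵥ v) = c * f u v) :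
    x ∈ (similarityGroup f).comap
        (Matrix.SpecialLinearGroup.toGL : Matrix.SpecialLinearGroup (Fin n) F →* GL (Fin n) F) := by
  refine ⟨Units.mk0 c hc, fun u v => ?_⟩
  show f ((x : Matrix (Fin n) (Fin n) F) *ᵥ u) ((x : Matrix (Fin n) (Fin n) F) *ᵥ v) = c * f u v
  rw [hx]
  exact h u v

theorem all_conj [Fintype F] {p : ℕ} [Fact p.Prime] [CharP F p] (hn : 4 ≤ n) (he : Even n)
    (hf : IsSymplecticForm f)
    (hv : padicValNat 2 (Fintype.card F - 1) ≤ padicValNat 2 n)
    (x : Matrix.SpecialLinearGroup (Fin n) F) (z : F)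
    (hz : ((x ^ 2 : Matrix.SpecialLinearGroup (Fin n) F) : Matrix (Fin n) (Fin n) F)
        = z • (1 : Matrix (Fin n) (Fin n) F)) :
    ∃ P : Matrix.SpecialLinearGroup (Fin n) F, P⁻¹ * x * P ∈ (similarityGroup f).comap
        (Matrix.SpecialLinearGroup.toGL : Matrix.SpecialLinearGroup (Fin n) F →* GL (Fin n) F) := by
  classical
  obtain ⟨m, hm⟩ := he
  have hn2 : n = 2 * m := by omega
  have hne : Nonempty (Fin n) := ⟨⟨0, by omega⟩⟩
  have hx2 : (x : Matrix (Fin n) (Fin n) F) ^ 2 = z • (1 : Matrix (Fin n) (Fin n) F) := by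
    rw [← Matrix.SpecialLinearGroup.coe_pow]; exact hz
  have hz0 : z ≠ 0 := by
    intro h0
    rw [h0, zero_smul] at hx2
    have := congrArg det hx2
    rw [det_pow, x.det_coe, one_pow, det_zero] at this
    exact one_ne_zero this
  by_cases hp : p = 2
  · subst hp
    obtain ⟨w, hw⟩ := FiniteField.isSquare_of_char_two (ringChar.eq F 2) z
    have hw0 : w ≠ 0 := by
      rintro rfl
      exact hz0 (by rw [hw, mul_zero])
    set A : Matrix (Fin n) (Fin n) F := w⁻¹ • (x : Matrix (Fin n) (Fin n) F) with hA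
    have hAA : A * A = 1 := by
      have hxx : (x : Matrix (Fin n) (Fin n) F) * (x : Matrix (Fin n) (Fin n) F)
          = z • (1 : Matrix (Fin n) (Fin n) F) := by rw [← pow_two]; exact hx2
      rw [hA, smul_mul_smul_comm, hxx, smul_smul, hw]
      have : w⁻¹ * w⁻¹ * (w * w) = 1 := by field_simp
      rw [this, one_smul]
    have hA2 : A + A = 0 := by
      rw [← two_smul F A, CharTwo.two_eq_zero, zero_smul]
    have h11 : (1 : Matrix (Fin n) (Fin n) F) + 1 = 0 := by
      rw [← two_smul F (1 : Matrix (Fin n) (Fin n) F), CharTwo.two_eq_zero, zero_smul]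
    have hNN : (A - 1) * (A - 1) = 0 := by
      have : (A - 1) * (A - 1) = A * A - (A + A) + 1 := by noncomm_ring
      rw [this, hAA, hA2, sub_zero, h11]
    have hs : (A - 1).rank ≤ m := by
      have := rank_add_rank_le_card_of_mul_eq_zero hNN
      rw [Fintype.card_fin] at this
      omega
    obtain ⟨N', hN'0, hN'r, hN'iso⟩ := exists_sq_zero hf hn2 hs
    obtain ⟨P, hP⟩ := exists_SL_conj_of_sq_zero (A - 1) N' hNN hN'0 hN'r.symm
    refine ⟨P, mem_comap_of_coe (Y := w • (1 + N')) ?_ (mul_ne_zero hw0 hw0) ?_⟩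
    · rw [← hP, Matrix.SpecialLinearGroup.coe_mul, Matrix.SpecialLinearGroup.coe_mul]
      have hxA : (x : Matrix (Fin n) (Fin n) F) = w • (1 + (A - 1)) := by
        rw [add_sub_cancel, hA, smul_smul, mul_inv_cancel₀ hw0, one_smul]
      rw [hxA, Matrix.mul_smul, Matrix.smul_mul]
    · intro u v
      rw [smul_mulVec, smul_mulVec, hf.bilinear.smul_left, hf.bilinear.smul_right, hN'iso, mul_assoc]
  · have hchar : ringChar F ≠ 2 := by rw [ringChar.eq F p]; exact hp
    have h2 : (2 : F) ≠ 0 := Ring.two_ne_zero hchar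
    have hodd : Odd (Fintype.card F) := Nat.odd_iff.2 (FiniteField.odd_card_of_char_ne_two hchar)
    have h2' : ((2 : ℕ) : F) ≠ 0 := by exact_mod_cast h2
    have hxs := semisimple_of_pow_eq_smul 2 h2' (x : Matrix (Fin n) (Fin n) F) z hz0 hx2
    by_cases hsq : IsSquare z
    · obtain ⟨w, hw⟩ := hsq
      have hw0 : w ≠ 0 := by
        rintro rfl
        exact hz0 (by rw [hw, mul_zero])
      rw [← pow_two] at hw
      rw [hw] at hx2
      obtain ⟨c, d, hcd, hchar, hdet, hrank⟩ := charpoly_of_sq_eq_sq h2 _ w hw0 hx2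
      rw [x.det_coe] at hdet
      obtain ⟨d₂, hd₂⟩ := even_of_pow_mul_neg_one (by omega) hodd hv w hdet.symm
      obtain ⟨y, hy2, hyr, hysim⟩ := exists_sq_sq hf hn2 h2 w hw0 (d₂ := d₂) (by omega)
      obtain ⟨c', d', hcd', hchar', hdet', hrank'⟩ := charpoly_of_sq_eq_sq h2 y w hw0 hy2
      have hdd : d' = d := by omega
      have hcc : c' = c := by omega
      have hydet : y.det ≠ 0 := by
        rw [hdet']
        exact mul_ne_zero (pow_ne_zero _ hw0) (pow_ne_zero _ (neg_ne_zero.2 one_ne_zero))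
      have hys := semisimple_of_pow_eq_smul 2 h2' y (w ^ 2) (pow_ne_zero _ hw0) hy2
      obtain ⟨P, hP⟩ := exists_SL_conj x (Matrix.GeneralLinearGroup.mkOfDetNeZero y hydet) hxs hys
        (by
          show _ = y.charpoly
          rw [hchar, hchar', hdd, hcc])
      refine ⟨P, mem_comap_of_coe (Y := y) ?_ (pow_ne_zero 2 hw0) hysim⟩
      have := congrArg (fun g : GL (Fin n) F => (g : Matrix (Fin n) (Fin n) F)) hP
      exact this
    · obtain ⟨m₁, hm₁, hchar⟩ := charpoly_of_sq_eq_nonsquare _ z hsq hx2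
      obtain ⟨y, hy2, hysim⟩ := exists_sq_eq hf hn2 z
      obtain ⟨m₂, hm₂, hchar'⟩ := charpoly_of_sq_eq_nonsquare y z hsq hy2
      have hmm : m₂ = m₁ := by omega
      have hydet : y.det ≠ 0 := by
        intro h0
        have := congrArg det hy2
        rw [det_pow, h0, zero_pow (by norm_num), det_smul, det_one, mul_one] at this
        exact pow_ne_zero _ hz0 this.symm
      have hys := semisimple_of_pow_eq_smul 2 h2' y z hz0 hy2
      obtain ⟨P, hP⟩ := exists_SL_conj x (Matrix.GeneralLinearGroup.mkOfDetNeZero y hydet) hxs hys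
        (by
          show _ = y.charpoly
          rw [hchar, hchar', hmm])
      refine ⟨P, mem_comap_of_coe (Y := y) ?_ (neg_ne_zero.2 hz0) hysim⟩
      have := congrArg (fun g : GL (Fin n) F => (g : Matrix (Fin n) (Fin n) F)) hP
      exact this

end Cfsg.Agent.Lib.Helper3EluSpRow
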