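import Cfsg.Agent.Lib.LeadAutDefs
import Cfsg.Agent.Lib.LeadChevMisc
import Cfsg.Agent.Lib.Helper22ChevBruhat
import Cfsg.Agent.Lib.Helper23RG2

set_option autoImplicit false
set_option linter.unusedSectionVars false

namespace Cfsg.Agent.Lib.Helper40AutA1

open Subgroup Cfsg.Agent.Lib.Helper23Grp Cfsg.Agent.Lib.Helper23RG Cfsg.Agent.Lib.Helper23RG.RG
  Cfsg.Agent.Lib.Helper23Weyl Cfsg.Agent.Lib.LeadAutDefs

variable {𝔾 K R I : Type*} [Group 𝔾] [Field K] [Fintype R] [DecidableEq R] {S : RG 𝔾 K R I}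

omit [Fintype R] [DecidableEq R] in
theorem B_le_normalizer_U (h : AData S) : S.B ≤ normalizer (S.U : Set 𝔾) :=
  sup_le le_normalizer (H_le_normalizer_XS h.ok _)

/-- A1 -/
theorem normalizer_U (h : AData S) {g : 𝔾} (hg : ∀ u ∈ S.U, g * u * g⁻¹ ∈ S.U) : g ∈ S.B := by
  obtain ⟨rf, pr, hW⟩ := h.hW
  have hgG : g ∈ S.G := by rw [h.top]; trivial
  obtain ⟨b, hb, n, hn, π, hM, u, hu, rfl⟩ :=
    Cfsg.Agent.Lib.Helper22ChevBruhat.normal_form_ex h.ok h.hBV h.hUN hW hgG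
  have huU : u ∈ S.U := XS_mono (fun r hr => hr.1) hu
  have hnU : ∀ v ∈ S.U, n * v * n⁻¹ ∈ S.U := by
    intro v hv
    have h1 : u⁻¹ * v * u ∈ S.U := S.U.mul_mem (S.U.mul_mem (S.U.inv_mem huU) hv) huU
    have h2 := hg _ h1
    have h3 := conj_mem_of_mem_normalizer' (B_le_normalizer_U h hb) h2
    have e : n * v * n⁻¹ = b⁻¹ * (b * n * u * (u⁻¹ * v * u) * (b * n * u)⁻¹) * b := by group
    rw [e]
    exact h3
  have hpos : ∀ r, S.pos r → S.pos (π r) := by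
    intro r hr
    by_contra hneg
    obtain ⟨_, c, hc0, _, hc⟩ := hM
    have h1 := hnU _ (x_mem_U hr (1 : K))
    rw [hc] at h1
    have h2 := h.hBV _ (U_le_B h1) (x_mem_V hneg _)
    exact mul_ne_zero (hc0 r) one_ne_zero (h.ok.x_inj _ _ h2)
  have hnH := Cfsg.Agent.Lib.LeadChevMisc.mem_H_of_pos h.ok h.hBV h.hUN hn hM hpos
  exact S.B.mul_mem (S.B.mul_mem hb (H_le_B hnH)) (U_le_B huU)

end Cfsg.Agent.Lib.Helper40AutA1
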