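import Cfsg.Agent.Lib.LeadAutDefs
import Cfsg.Agent.Lib.LeadChevMisc
import Cfsg.Agent.Lib.Helper22ChevBruhat
import Cfsg.Agent.Lib.Helper23RG2

set_option autoImplicit false
set_option linter.unusedSectionVars false

namespace Cfsg.Agent.Lib.Helper40AutA10

open Subgroup Cfsg.Agent.Lib.Helper23Grp Cfsg.Agent.Lib.Helper23RG Cfsg.Agent.Lib.Helper23RG.RG
  Cfsg.Agent.Lib.Helper23Weyl Cfsg.Agent.Lib.LeadAutDefs

variable {𝔾 K R I : Type*} [Group 𝔾] [Field K] [Fintype R] [DecidableEq R] {S : RG 𝔾 K R I}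

/-- A10 -/
theorem perm_eq (h : AData S) {θ : 𝔾 ≃* 𝔾} {i j k : I}
    (hn : ∀ g, θ g ∈ S.X (S.neg (S.simple j)) ↔ g ∈ S.X (S.neg (S.simple i)))
    (hp : ∀ g, θ g ∈ S.X (S.simple k) ↔ g ∈ S.X (S.simple i)) : k = j := by
  by_contra hkj
  have hne : S.simple k ≠ S.simple j := fun e => hkj (h.inj e)
  obtain ⟨a, ha⟩ := (mem_X_iff h.ok).1 ((hp _).2 (x_mem_X (S.simple i) (1 : K)))
  obtain ⟨b, hb⟩ := (mem_X_iff h.ok).1 ((hn _).2 (x_mem_X (S.neg (S.simple i)) (-(1 : K)⁻¹)))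
  have hm : θ (S.nn i) = S.x (S.simple k) a * S.x (S.neg (S.simple j)) b * S.x (S.simple k) a := by
    unfold RG.nn RG.nE
    rw [map_mul, map_mul, ha, hb]
  -- the element `x_k(1)` and its preimage
  obtain ⟨g, hg⟩ := θ.surjective (S.x (S.simple k) 1)
  have hgX : g ∈ S.X (S.simple i) := (hp g).1 (by rw [hg]; exact x_mem_X _ _)
  obtain ⟨t, rfl⟩ := (mem_X_iff h.ok).1 hgX
  have h1 : θ (S.nn i * S.x (S.simple i) t * (S.nn i)⁻¹) ∈ S.X (S.neg (S.simple j)) := by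
    rw [hn, h.ok.n_conj, h.ok.refl_simple]
    exact x_mem_X _ _
  rw [map_mul, map_mul, map_inv, hg, hm] at h1
  set xa := S.x (S.simple k) a with hxa
  set xb := S.x (S.neg (S.simple j)) b with hxb
  set x1 := S.x (S.simple k) 1 with hx1
  have hxaU : xa ∈ S.Ui j := x_mem_Ui (h.ok.pos_simple k) hne a
  have hx1U : x1 ∈ S.Ui j := x_mem_Ui (h.ok.pos_simple k) hne 1
  have h2 : xa * x1 * xa⁻¹ ∈ S.Ui j := mul_mem (mul_mem hxaU hx1U) (inv_mem hxaU)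
  have h3 : xb * (xa * x1 * xa⁻¹) * xb⁻¹ ∈ S.Ui j :=
    conj_mem_of_mem_normalizer (X_neg_le_normalizer_Ui h.ok j (x_mem_X _ _)) h2
  have h4 : xa * (xb * (xa * x1 * xa⁻¹) * xb⁻¹) * xa⁻¹ ∈ S.Ui j :=
    mul_mem (mul_mem hxaU h3) (inv_mem hxaU)
  have e : xa * xb * xa * x1 * (xa * xb * xa)⁻¹ = xa * (xb * (xa * x1 * xa⁻¹) * xb⁻¹) * xa⁻¹ := by
    group
  rw [e] at h1
  have hV : xa * (xb * (xa * x1 * xa⁻¹) * xb⁻¹) * xa⁻¹ ∈ S.V :=
    XS_mono (fun r hr => hr ▸ not_pos_neg_simple h.ok j) h1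
  have h5 := h.hBV _ (U_le_B (Ui_le_U h.ok j h4)) hV
  rw [← e] at h5
  have h6 : x1 = 1 := by
    have : x1 = (xa * xb * xa)⁻¹ * (xa * xb * xa * x1 * (xa * xb * xa)⁻¹) * (xa * xb * xa) := by group
    rw [this, h5]; group
  exact one_ne_zero (h.ok.x_inj _ _ h6)

end Cfsg.Agent.Lib.Helper40AutA10
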