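import Cfsg.Agent.Lib.LeadAutDefs
import Cfsg.Agent.Lib.LeadChevMisc
import Cfsg.Agent.Lib.Helper22ChevBruhat
import Cfsg.Agent.Lib.Helper23RG2

set_option autoImplicit false
set_option linter.unusedSectionVars false

namespace Cfsg.Agent.Lib.Helper40AutA11

open Subgroup Cfsg.Agent.Lib.Helper23Grp Cfsg.Agent.Lib.Helper23RG Cfsg.Agent.Lib.Helper23RG.RG
  Cfsg.Agent.Lib.Helper23Weyl Cfsg.Agent.Lib.LeadAutDefs

variable {𝔾 K R I : Type*} [Group 𝔾] [Field K] [Fintype R] [DecidableEq R] {S : RG 𝔾 K R I}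

theorem nE_eq (h : AData S) (r : R) (t : K) : S.nE r t = S.hE r t * S.nE r 1 := by
  unfold RG.hE
  have := nE_inv h.ok r 1
  rw [← this]; group

theorem Mon_nE_simple (h : AData S) (j : I) {a : K} (ha : a ≠ 0) :
    S.Mon (S.nE (S.simple j) a) (reflPerm h.ok j) := by
  rw [nE_eq h]
  have := (Mon_hE h.ok (S.simple j) a ha).mul (Mon_nn h.ok j)
  rwa [one_mul] at this

/-- A11 -/
theorem rank_one_unique (h : AData S) (j : I) {a b : K} (ha : a ≠ 0)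
    (hm : ∀ g ∈ S.X (S.simple j),
      (S.x (S.simple j) a * S.x (S.neg (S.simple j)) b * S.x (S.simple j) a) * g *
        (S.x (S.simple j) a * S.x (S.neg (S.simple j)) b * S.x (S.simple j) a)⁻¹ ∈ S.X (S.neg (S.simple j))) :
    b = -a⁻¹ := by
  set p := S.simple j with hp
  set q := S.neg p with hq
  have hMon := Mon_nE_simple h j ha
  -- conjugation by `m'⁻¹` maps `X q` into `X p`
  have h2 : ∀ g ∈ S.X q, (S.nE p a)⁻¹ * g * ((S.nE p a)⁻¹)⁻¹ ∈ S.X p := by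
    apply hMon.inv.conj_XS
    intro r hr
    rw [hr, reflPerm_inv, reflPerm_apply, hq, h.ok.refl_neg, hp, h.ok.refl_simple, h.ok.neg_neg]
  set c := a⁻¹ + b with hc
  have hy : (S.nE p a)⁻¹ * (S.x p a * S.x q b * S.x p a) = S.x p (-a) * S.x q c * S.x p a := by
    rw [nE_inv h.ok]
    unfold RG.nE
    have e1 : -(-a)⁻¹ = a⁻¹ := by rw [inv_neg, neg_neg]
    rw [e1, hc, h.ok.x_add, ← x_inv h.ok, ← hq]
    group
  -- `x_q(c)` maps `X p` into `X p`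
  have h3 : ∀ g ∈ S.X p, S.x q c * g * (S.x q c)⁻¹ ∈ S.X p := by
    intro g hg
    have hxa : S.x p a ∈ S.X p := x_mem_X _ _
    have hg' : (S.x p a)⁻¹ * g * S.x p a ∈ S.X p := mul_mem (mul_mem (inv_mem hxa) hg) hxa
    have h4 := h2 _ (hm _ hg')
    have e : S.x q c * g * (S.x q c)⁻¹ = S.x p a * ((S.nE p a)⁻¹ * (S.x p a * S.x q b * S.x p a *
        ((S.x p a)⁻¹ * g * S.x p a) * (S.x p a * S.x q b * S.x p a)⁻¹) * ((S.nE p a)⁻¹)⁻¹) * (S.x p a)⁻¹ := by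
      have e2 : (S.nE p a)⁻¹ * (S.x p a * S.x q b * S.x p a *
          ((S.x p a)⁻¹ * g * S.x p a) * (S.x p a * S.x q b * S.x p a)⁻¹) * ((S.nE p a)⁻¹)⁻¹
          = ((S.nE p a)⁻¹ * (S.x p a * S.x q b * S.x p a)) * ((S.x p a)⁻¹ * g * S.x p a) *
            ((S.nE p a)⁻¹ * (S.x p a * S.x q b * S.x p a))⁻¹ := by group
      rw [e2, hy, ← x_inv h.ok]
      group
    rw [e]
    exact mul_mem (mul_mem hxa h4) (inv_mem hxa)
  have hc0 : c = 0 := by
    by_contra hne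
    have hr := rank_one h.ok p hne
    set k := S.hE p (-c⁻¹) * S.nE p 1 with hk
    have hMk : S.Mon k (reflPerm h.ok j) := by
      have := (Mon_hE h.ok p (-c⁻¹) (neg_ne_zero.2 (inv_ne_zero hne))).mul (Mon_nn h.ok j)
      rwa [one_mul] at this
    have hxc : S.x p c⁻¹ ∈ S.X p := x_mem_X _ _
    have hx1 : (S.x p c⁻¹)⁻¹ * S.x p 1 * S.x p c⁻¹ ∈ S.X p := mul_mem (mul_mem (inv_mem hxc) (x_mem_X _ _)) hxc
    have h5 := h3 _ hx1
    have h6 : k * S.x p 1 * k⁻¹ ∈ S.X p := by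
      have e : k * S.x p 1 * k⁻¹ = (S.x p c⁻¹)⁻¹ * (S.x q c * ((S.x p c⁻¹)⁻¹ * S.x p 1 * S.x p c⁻¹) *
          (S.x q c)⁻¹) * S.x p c⁻¹ := by
        rw [hr]; group
      rw [e]
      exact mul_mem (mul_mem (inv_mem hxc) h5) hxc
    obtain ⟨_, d, hd0, _, hd⟩ := hMk
    rw [hd, reflPerm_apply, hp, h.ok.refl_simple] at h6
    have hU : S.x (S.neg (S.simple j)) (d (S.simple j) * 1) ∈ S.U :=
      XS_mono (fun r hr => hr ▸ h.ok.pos_simple j) h6
    have h7 := h.hBV _ (U_le_B hU) (x_mem_V (not_pos_neg_simple h.ok j) _)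
    exact mul_ne_zero (hd0 _) one_ne_zero (h.ok.x_inj _ _ h7)
  rw [hc] at hc0
  linear_combination hc0

end Cfsg.Agent.Lib.Helper40AutA11
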