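import Cfsg.Agent.Lib.LeadAutDefs
import Cfsg.Agent.Lib.LeadChevMisc
import Cfsg.Agent.Lib.Helper22ChevBruhat
import Cfsg.Agent.Lib.Helper23RG2

set_option autoImplicit false
set_option linter.unusedSectionVars false

namespace Cfsg.Agent.Lib.Helper40AutA15

open Subgroup Cfsg.Agent.Lib.Helper23Grp Cfsg.Agent.Lib.Helper23RG Cfsg.Agent.Lib.Helper23RG.RG
  Cfsg.Agent.Lib.Helper23Weyl Cfsg.Agent.Lib.LeadAutDefs

variable {𝔾 K R I : Type*} [Group 𝔾] [Field K] [Fintype R] [DecidableEq R] {S : RG 𝔾 K R I}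

/-- A15 -/
theorem gen_simple (h : AData S) :
    closure {g : 𝔾 | ∃ i t, g = S.x (S.simple i) t ∨ g = S.x (S.neg (S.simple i)) t} = ⊤ := by
  set C := closure {g : 𝔾 | ∃ i t, g = S.x (S.simple i) t ∨ g = S.x (S.neg (S.simple i)) t} with hC
  have hp : ∀ i t, S.x (S.simple i) t ∈ C := fun i t => subset_closure ⟨i, t, Or.inl rfl⟩
  have hm : ∀ i t, S.x (S.neg (S.simple i)) t ∈ C := fun i t => subset_closure ⟨i, t, Or.inr rfl⟩
  have hn : ∀ i, S.nn i ∈ C := fun i => C.mul_mem (C.mul_mem (hp i _) (hm i _)) (hp i _)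
  have hall : ∀ r, ∀ t, S.x r t ∈ C := by
    refine h.ok.reach (fun r => ∀ t, S.x r t ∈ C) hp ?_
    intro i r ih t
    have h1 := h.ok.n_conj i r (S.η i r * t)
    rw [← mul_assoc, η_mul_self h.ok, one_mul] at h1
    rw [← h1]
    exact C.mul_mem (C.mul_mem (hn i) (ih _)) (C.inv_mem (hn i))
  rw [eq_top_iff, ← h.top]
  unfold RG.G RG.XS
  rw [closure_le]
  rintro _ ⟨r, t, _, rfl⟩
  exact hall r t

end Cfsg.Agent.Lib.Helper40AutA15
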