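import Cfsg.Agent.Lib.Helper40AutA1
import Cfsg.Agent.Lib.LeadAutDefs
import Cfsg.Agent.Lib.LeadChevMisc
import Cfsg.Agent.Lib.Helper22ChevBruhat
import Cfsg.Agent.Lib.Helper23RG2

set_option autoImplicit false
set_option linter.unusedSectionVars false

namespace Cfsg.Agent.Lib.Helper40AutA3

open Subgroup Cfsg.Agent.Lib.Helper23Grp Cfsg.Agent.Lib.Helper23RG Cfsg.Agent.Lib.Helper23RG.RG
  Cfsg.Agent.Lib.Helper23Weyl Cfsg.Agent.Lib.LeadAutDefs Cfsg.Agent.Lib.Helper40AutA1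

variable {𝔾 K R I : Type*} [Group 𝔾] [Field K] [Fintype R] [DecidableEq R] {S : RG 𝔾 K R I}

/-- A3 -/
theorem map_B (h : AData S) {θ : 𝔾 ≃* 𝔾} (hθ : Nrm S θ) : ∀ g, θ g ∈ S.B ↔ g ∈ S.B := by
  intro g
  constructor
  · intro hg
    apply normalizer_U h
    intro u hu
    rw [← hθ.1, map_mul, map_mul, map_inv]
    exact conj_mem_of_mem_normalizer (B_le_normalizer_U h hg) ((hθ.1 u).2 hu)
  · intro hg
    apply normalizer_U h
    intro u hu
    obtain ⟨v, rfl⟩ := θ.surjective u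
    rw [← map_inv, ← map_mul, ← map_mul, hθ.1]
    exact conj_mem_of_mem_normalizer (B_le_normalizer_U h hg) ((hθ.1 v).1 hu)

end Cfsg.Agent.Lib.Helper40AutA3
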