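import Cfsg.Prelude

set_option autoImplicit false
open Cfsg Subgroup

namespace Cfsg.Agent.Lib.Helper40BG36a

/-- piece `existsmin` -/
theorem existsmin {G : Type*} [Group G] [Finite G] (H : Subgroup G) [H.Normal] (hH : H ≠ ⊥) :
    ∃ V : Subgroup G, V.Normal ∧ V ≤ H ∧ V ≠ ⊥ ∧
      ∀ M : Subgroup G, M.Normal → M ≤ V → M = ⊥ ∨ M = V := by
  have hne : ({V : Subgroup G | V.Normal ∧ V ≤ H ∧ V ≠ ⊥}).Nonempty := ⟨H, inferInstance, le_rfl, hH⟩
  obtain ⟨V, hV⟩ := (Set.toFinite {V : Subgroup G | V.Normal ∧ V ≤ H ∧ V ≠ ⊥}).exists_minimal hne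
  obtain ⟨⟨h1, h2, h3⟩, hmin⟩ := hV
  refine ⟨V, h1, h2, h3, ?_⟩
  intro M hM hMV
  by_cases hM1 : M = ⊥
  · exact Or.inl hM1
  · exact Or.inr (le_antisymm hMV (hmin ⟨hM, hMV.trans h2, hM1⟩ hMV))

/-- piece `normalsup` -/
theorem normalsup {G : Type*} [Group G] (A B N : Subgroup G) (hAB : A ⊔ B = ⊤)
    (hA : A ≤ normalizer (N : Set G)) (hB : B ≤ normalizer (N : Set G)) : N.Normal := by
  rw [← Subgroup.normalizer_eq_top_iff, eq_top_iff, ← hAB]
  exact sup_le hA hB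

/-- piece `commK` -/
theorem commK {G : Type*} [Group G] [Finite G] (H V U R : Subgroup G) [H.Normal] [V.Normal]
    (hVH : V ≤ H) (hHR : ⁅H, R⁆ = H) (hVN : V ⊔ normalizer (U : Set G) = ⊤)
    (hVNU : V ⊓ normalizer (U : Set G) = ⊥) (hRU : R ≤ normalizer (U : Set G)) :
    ⁅H ⊓ normalizer (U : Set G), R⁆ = H ⊓ normalizer (U : Set G) := by
  set N := normalizer (U : Set G) with hN
  have hle : ⁅H ⊓ N, R⁆ ≤ H ⊓ N := by
    apply le_inf
    · exact (Subgroup.commutator_mono inf_le_left le_rfl).trans (Subgroup.commutator_le_left H R)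
    · rw [Subgroup.commutator_le]
      intro a ha b hb
      exact N.mul_mem (N.mul_mem (N.mul_mem ha.2 (hRU hb)) (N.inv_mem ha.2)) (N.inv_mem (hRU hb))
  apply le_antisymm hle
  have hmapH : H.map (QuotientGroup.mk' V) = (H ⊓ N).map (QuotientGroup.mk' V) := by
    apply le_antisymm
    · rintro _ ⟨h, hh, rfl⟩
      have h1 : h ∈ ((V ⊔ N : Subgroup G) : Set G) := by rw [hVN]; trivial
      rw [Subgroup.normal_mul] at h1
      obtain ⟨v, hv, n, hn, rfl⟩ := h1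
      refine ⟨n, ⟨?_, hn⟩, ?_⟩
      · have : n = v⁻¹ * (v * n) := by group
        rw [this]
        exact H.mul_mem (H.inv_mem (hVH hv)) hh
      · rw [map_mul]
        have : QuotientGroup.mk' V v = 1 := (QuotientGroup.eq_one_iff v).2 hv
        rw [this, one_mul]
    · exact Subgroup.map_mono inf_le_left
  have hmap : (⁅H ⊓ N, R⁆).map (QuotientGroup.mk' V) = (H ⊓ N).map (QuotientGroup.mk' V) := by
    rw [Subgroup.map_commutator, ← hmapH, ← Subgroup.map_commutator, hHR]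
  intro k hk
  have h1 : QuotientGroup.mk' V k ∈ (⁅H ⊓ N, R⁆).map (QuotientGroup.mk' V) := by
    rw [hmap]; exact ⟨k, hk, rfl⟩
  obtain ⟨a, ha, hak⟩ := h1
  have h2 : a⁻¹ * k ∈ V := QuotientGroup.eq.1 hak
  have h3 : a⁻¹ * k ∈ N := N.mul_mem (N.inv_mem (hle ha).2) hk.2
  have h4 : a⁻¹ * k ∈ V ⊓ N := ⟨h2, h3⟩
  rw [hVNU, Subgroup.mem_bot] at h4
  have h5 : k = a := by
    calc k = a * (a⁻¹ * k) := by group
      _ = a := by rw [h4, mul_one]
  rw [h5]; exact ha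

/-- piece `cycelem` -/
theorem cycelem {G : Type*} [Group G] [Finite G] (p : ℕ) [Fact p.Prime]
    (H V R₀ : Subgroup G) (hVH : V ≤ H) (hV : IsElementaryAbelian p V)
    (hZ : IsZGroup ↥(H ⊓ centralizer (R₀ : Set G))) :
    Nat.card ↥(V ⊓ centralizer (R₀ : Set G)) ≤ p := by
  have hp : p.Prime := Fact.out
  have hle : V ⊓ centralizer (R₀ : Set G) ≤ H ⊓ centralizer (R₀ : Set G) := inf_le_inf_right _ hVH
  have hZ' : IsZGroup ↥(V ⊓ centralizer (R₀ : Set G)) :=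
    IsZGroup.of_injective (f := Subgroup.inclusion hle) (Subgroup.inclusion_injective hle)
  have hpow : ∀ x : ↥(V ⊓ centralizer (R₀ : Set G)), x ^ p = 1 := fun x =>
    Subtype.ext (hV.2 x x.2.1)
  have hP : IsPGroup p ↥(V ⊓ centralizer (R₀ : Set G)) := fun x => ⟨1, by rw [pow_one]; exact hpow x⟩
  have hcyc : IsCyclic ↥(V ⊓ centralizer (R₀ : Set G)) := by
    have h1 : IsPGroup p (⊤ : Subgroup ↥(V ⊓ centralizer (R₀ : Set G))) :=
      fun x => ⟨1, by rw [pow_one]; exact Subtype.ext (hpow x)⟩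
    have h2 := IsPGroup.isCyclic_of_isZGroup h1
    exact isCyclic_of_surjective (Subgroup.topEquiv : (⊤ : Subgroup ↥(V ⊓ centralizer (R₀ : Set G))) ≃* _)
      (Subgroup.topEquiv).surjective
  obtain ⟨g, hg⟩ := hcyc.exists_generator
  rw [← orderOf_eq_card_of_forall_mem_zpowers hg]
  exact Nat.le_of_dvd hp.pos (orderOf_dvd_of_pow_eq_one (hpow g))

end Cfsg.Agent.Lib.Helper40BG36a
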