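import Cfsg.Agent.Lib.Helper96Parabolic
import Cfsg.Agent.Lib.H65DecBig
import Cfsg.Agent.Lib.H65DecMonMain
import Cfsg.Agent.Lib.H65DecLine
import Cfsg.Agent.Lib.Helper95Form
import Cfsg.Agent.Lib.Helper95SL
import Cfsg.Agent.Lib.Helper95SpSL

/-! # Geometric maximal subgroups of `SL_n(q)`: versions of S5631, S5634, S5642 for small `n`

The proofs are those of helper96 (S5631), helper65 (S5634) and helper95 (S5642); only the bound on
`n` is relaxed. -/

set_option autoImplicit false
open Cfsg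

namespace Cfsg.Agent.Lib.Helper40GeoSL

section sub
open Cfsg.Agent.Lib.Helper96Parabolic

theorem subspace_max {F : Type*} [Field F] [Fintype F] (n : ℕ) (hn : 2 ≤ n) (W : Submodule F (Fin n → F)) (hW0 : W ≠ ⊥) (hW1 : W ≠ ⊤) : Cfsg.Geo.IsMaximalIn (Cfsg.Geo.specialLinear (Fin n) F) (Cfsg.Geo.subspaceStabilizer W ⊓ Cfsg.Geo.specialLinear (Fin n) F) := by
  have hnt : Nontrivial (Fin n) := Fin.nontrivial_iff_two_le.2 (by omega)
  constructor
  · refine lt_of_le_of_ne inf_le_right ?_
    intro heq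
    obtain ⟨g, hg1, hg2⟩ := exists_tv_not_stab W hW0 hW1
    rw [← heq] at hg1
    exact hg2 hg1.1
  · intro M hHM hMS
    by_cases hMH : M ≤ Cfsg.Geo.subspaceStabilizer W ⊓ Cfsg.Geo.specialLinear (Fin n) F
    · exact Or.inl (le_antisymm hMH hHM)
    · right
      refine le_antisymm hMS ?_
      obtain ⟨g, hgM, hgH⟩ := SetLike.not_le_iff_exists.1 hMH
      exact specialLinear_le_of_stab W M hHM g hgM (fun h => hgH ⟨h, hMS hgM⟩)

end sub

theorem dec_max {F : Type*} [Field F] [Fintype F] (n : ℕ) (hn : 5 ≤ n) {t : ℕ} (m : ℕ) (D : Fin t → Submodule F (Fin n → F)) (hD : Cfsg.Geo.IsMDecomposition m D) (h1 : ¬ (m = 1 ∧ Fintype.card F ≤ 4)) (h2 : ¬ (m = 2 ∧ Fintype.card F = 2)) (h7 : m = 1 → 7 ≤ n) : Cfsg.Geo.IsMaximalIn (Cfsg.Geo.specialLinear (Fin n) F) (Cfsg.Geo.decompositionStabilizer D ⊓ Cfsg.Geo.specialLinear (Fin n) F) := by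
  classical
  have hlt : Cfsg.Geo.decompositionStabilizer D ⊓ Cfsg.Geo.specialLinear (Fin n) F
      < Cfsg.Geo.specialLinear (Fin n) F := by
    refine lt_of_le_of_ne inf_le_right fun h => ?_
    obtain ⟨g, hg, hg'⟩ := Cfsg.Agent.Lib.H65DecBad.proper hD
    rw [← h] at hg
    exact hg' hg.1
  refine ⟨hlt, fun H hMH hHS => ?_⟩
  by_cases hle : H ≤ Cfsg.Geo.decompositionStabilizer D
  · left
    exact le_antisymm (le_inf hle hHS) hMH
  right
  apply le_antisymm hHS
  have hcard : m * t = n := by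
    have := Cfsg.Agent.Lib.H65DecProj.card_eq hD
    simpa using this
  have hpos := hD.pos
  rcases Nat.lt_or_ge 1 m with hm | hm
  · refine Cfsg.Agent.Lib.H65DecBig.big hD hm (fun h => ?_) h2 H hMH hle
    subst h
    omega
  · have hm1 : m = 1 := by omega
    subst hm1
    have hq : 5 ≤ Fintype.card F := by
      by_contra hcon
      exact h1 ⟨rfl, by omega⟩
    obtain ⟨P, hP⟩ := Cfsg.Agent.Lib.H65DecLine.line_conj hD
    -- conjugate everything by `P`
    have hSLn : (Cfsg.Geo.specialLinear (Fin n) F).Normal := by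
      unfold Cfsg.Geo.specialLinear
      infer_instance
    let H' : Subgroup (GL (Fin n) F) := H.comap (MulAut.conj P).toMonoidHom
    have hmem : ∀ x, x ∈ H' ↔ P * x * P⁻¹ ∈ H := fun x => Iff.rfl
    have h1' : Cfsg.Agent.Lib.H65DecDefs.SMon (Fin n) F ≤ H' := by
      intro x hx
      rw [hmem]
      apply hMH
      refine Subgroup.mem_inf.2 ⟨?_, hSLn.conj_mem x hx.2 P⟩
      rw [hP]
      have : P⁻¹ * (P * x * P⁻¹) * P = x := by group
      rw [this]
      exact hx.1
    have h2' : H' ≤ Cfsg.Geo.specialLinear (Fin n) F := by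
      intro x hx
      have h3 := hSLn.conj_mem _ (hHS ((hmem x).1 hx)) P⁻¹
      have : P⁻¹ * (P * x * P⁻¹) * P⁻¹⁻¹ = x := by group
      rwa [this] at h3
    have h3' : ¬ H' ≤ Cfsg.Agent.Lib.H65DecDefs.Mon (Fin n) F := by
      intro hcon
      apply hle
      intro g hg
      rw [hP]
      apply hcon
      rw [hmem]
      have : P * (P⁻¹ * g * P) * P⁻¹ = g := by group
      rwa [this]
    have h4 := Cfsg.Agent.Lib.H65DecMonMain.mon_main hq (by simpa using h7 rfl) H' h1' h2' h3'
    intro g hg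
    have h5 := h4 (hSLn.conj_mem g hg P⁻¹)
    rw [hmem] at h5
    have : P * (P⁻¹ * g * P⁻¹⁻¹) * P⁻¹ = g := by group
    rwa [this] at h5

section symp
open Cfsg.Agent.Lib.Helper95Basic Cfsg.Agent.Lib.Helper95Sp Cfsg.Agent.Lib.Helper95Form
  Cfsg.Agent.Lib.Helper95SL Cfsg.Agent.Lib.Helper95SpSL

theorem symp_max {F : Type*} [Field F] [Fintype F] (n : ℕ) (hn : 3 ≤ n) (f : (Fin n → F) → (Fin n → F) → F) (hf : Cfsg.Geo.IsSymplecticForm f) : Cfsg.Geo.IsMaximalIn (Cfsg.Geo.specialLinear (Fin n) F) (Cfsg.Geo.similarityGroup f ⊓ Cfsg.Geo.specialLinear (Fin n) F) := by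
  classical
  have hnt : Nontrivial (Fin n) := Fin.nontrivial_iff_two_le.2 (by omega)
  set B := toBilin f hf.bilinear with hBdef
  have hB : B.Nondegenerate := toBilin_nondegenerate f hf.bilinear hf.nondegenerate
  have hA : B.IsAlt := toBilin_isAlt f hf
  have hstvH : ∀ v c, mkGL (stv B hA v c) ∈
      Cfsg.Geo.similarityGroup f ⊓ Cfsg.Geo.specialLinear (Fin n) F := by
    intro v c
    refine ⟨⟨1, fun x y => ?_⟩, mkGL_stv_mem_specialLinear B hA v c⟩
    rw [mkGL_mulVec, mkGL_mulVec, Units.val_one, one_mul]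
    exact stv_isometry hA v c x y
  constructor
  · refine lt_of_le_of_ne inf_le_right ?_
    intro heq
    -- a transvection that is not a similarity
    obtain ⟨a, ha⟩ : ∃ a : Fin n → F, a ≠ 0 := exists_ne 0
    obtain ⟨x, hx⟩ := (hf.nondegenerate a ha).1
    have hlt : Submodule.span F ((({a, x} : Finset (Fin n → F)) : Set (Fin n → F))) < ⊤ := by
      rw [lt_top_iff_ne_top]
      intro htop
      have h1 := finrank_span_finset_le_card (R := F) ({a, x} : Finset (Fin n → F))
      rw [Set.finrank, htop, finrank_top, Module.finrank_fin_fun] at h1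
      have h2 : ({a, x} : Finset (Fin n → F)).card ≤ 2 := Finset.card_le_two
      omega
    obtain ⟨ℓ, hℓ0, hℓ⟩ := Submodule.exists_le_ker_of_lt_top _ hlt
    have hℓa : ℓ a = 0 := LinearMap.mem_ker.1 (hℓ (Submodule.subset_span (by simp)))
    have hℓx : ℓ x = 0 := LinearMap.mem_ker.1 (hℓ (Submodule.subset_span (by simp)))
    obtain ⟨y, hy⟩ : ∃ y, ℓ y ≠ 0 := by
      by_contra hcon
      push Not at hcon
      exact hℓ0 (LinearMap.ext hcon)
    have hmem : tv a ℓ hℓa ∈ Cfsg.Geo.specialLinear (Fin n) F := tv_mem_specialLinear _ _ _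
    rw [← heq] at hmem
    obtain ⟨c, hc⟩ := hmem.1
    have h1 := hc x a
    have h2 := hc x y
    simp only [tv_mulVec, hℓa, hℓx, zero_smul, add_zero] at h1 h2
    have hc1 : (c : F) = 1 := by
      have : (1 - (c : F)) * f x a = 0 := by rw [sub_mul, one_mul, ← h1, sub_self]
      rcases mul_eq_zero.1 this with h | h
      · exact (sub_eq_zero.1 h).symm
      · exact absurd h hx
    rw [hc1, one_mul, hf.bilinear.add_right, hf.bilinear.smul_right] at h2
    have h3 : ℓ y * f x a = 0 := by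
      have := h2
      rw [add_eq_left] at this
      exact this
    rcases mul_eq_zero.1 h3 with h | h
    · exact hy h
    · exact hx h
  · intro M hHM hMS
    by_cases hMH : M ≤ Cfsg.Geo.similarityGroup f ⊓ Cfsg.Geo.specialLinear (Fin n) F
    · exact Or.inl (le_antisymm hMH hHM)
    · right
      refine le_antisymm hMS ?_
      obtain ⟨g, hgM, hgH⟩ := SetLike.not_le_iff_exists.1 hMH
      have hgS : g ∉ Cfsg.Geo.similarityGroup f := fun h => hgH ⟨h, hMS hgM⟩
      have hall := all_tv_mem (M := pull M) hB hA (fun v c => (mem_pull M _).2 (hHM (hstvH v c)))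
        (glEquiv (Fin n) F g) ((glEquiv_mem_pull M g).2 hgM) (by
          rintro ⟨c, hc⟩
          apply hgS
          have hc0 : c ≠ 0 := by
            rintro rfl
            obtain ⟨a, ha⟩ : ∃ a : Fin n → F, a ≠ 0 := exists_ne 0
            obtain ⟨x, hx⟩ := (hf.nondegenerate a ha).1
            apply hx
            have := hc ((glEquiv (Fin n) F g).symm x) ((glEquiv (Fin n) F g).symm a)
            rw [LinearEquiv.apply_symm_apply, LinearEquiv.apply_symm_apply, zero_mul] at this
            exact this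
          exact ⟨Units.mk0 c hc0, fun u v => hc u v⟩)
      exact specialLinear_le_of_tv M (fun a ℓ h => hall a ℓ h)

end symp

end Cfsg.Agent.Lib.Helper40GeoSL
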