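import Mathlib
import Cfsg.Agent.Lib.Helper98MinDefs

set_option autoImplicit false

namespace Cfsg.Agent.Lib.Helper40MinAlgA

open Matrix Cfsg.Agent.Lib.Helper98MinDefs

variable {F : Type*} [Field F] [Fintype F] {ι : Type*} [Fintype ι] [DecidableEq ι]
set_option linter.unusedSectionVars false
set_option linter.unusedSimpArgs false

theorem vecMul_inv_of_fix (x : SpecialLinearGroup ι F) (η : ι → F)
    (h : η ᵥ* (x : Matrix ι ι F) = η) :
    η ᵥ* ((x⁻¹ : SpecialLinearGroup ι F) : Matrix ι ι F) = (1 : F) • η := by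
  rw [one_smul]
  conv_lhs => rw [← h]
  rw [vecMul_vecMul, coe_mul_inv, vecMul_one]

/-! ### piece `algA` -/
theorem algA (hn : 3 ≤ Fintype.card ι) (hex : ¬ (Fintype.card ι = 4 ∧ Fintype.card F = 2))
    (i₀ i₁ : ι) (h01 : i₀ ≠ i₁) (θ : (ι → F) → (ι → F))
    (h1 : ∀ v w, (Pi.single i₁ (1 : F) : ι → F) ⬝ᵥ v = 0 → (Pi.single i₁ (1 : F) : ι → F) ⬝ᵥ w = 0 →
      θ v ⬝ᵥ w = θ w ⬝ᵥ v)
    (h2 : ∀ v, (Pi.single i₁ (1 : F) : ι → F) ⬝ᵥ v = 0 → θ v ⬝ᵥ (Pi.single i₀ (1 : F) : ι → F) = 0)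
    (h3 : ∀ v, (Pi.single i₁ (1 : F) : ι → F) ⬝ᵥ v = 0 →
      (∀ w, (Pi.single i₁ (1 : F) : ι → F) ⬝ᵥ w = 0 → θ v ⬝ᵥ w = 0) →
      v ∈ Submodule.span F {(Pi.single i₀ (1 : F) : ι → F)})
    (h4 : ∀ (x : SpecialLinearGroup ι F) (a b : F), a ≠ 0 → b ≠ 0 →
        (x : Matrix ι ι F) *ᵥ (Pi.single i₀ (1 : F) : ι → F) = a • (Pi.single i₀ (1 : F) : ι → F) →
        (Pi.single i₁ (1 : F) : ι → F) ᵥ* ((x⁻¹ : SpecialLinearGroup ι F) : Matrix ι ι F)
          = b • (Pi.single i₁ (1 : F) : ι → F) →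
        ∀ v w, (Pi.single i₁ (1 : F) : ι → F) ⬝ᵥ v = 0 → (Pi.single i₁ (1 : F) : ι → F) ⬝ᵥ w = 0 →
          θ (b • ((x : Matrix ι ι F) *ᵥ v)) ⬝ᵥ ((x : Matrix ι ι F) *ᵥ w) = a * (θ v ⬝ᵥ w))
    (h5 : (2 : F) = 0 → ∀ v, (Pi.single i₁ (1 : F) : ι → F) ⬝ᵥ v = 0 → θ v ⬝ᵥ v = 0) : False := by
  simp only [single_one_dotProduct] at h1 h2 h3 h4 h5
  simp only [dotProduct_single_one] at h2
  set E : ι → ι → F := fun j => Pi.single j (1 : F) with hE
  have hEp : ∀ j, j ≠ i₁ → E j i₁ = 0 := fun j hj => by simp [hE, Pi.single_apply, hj.symm]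
  set β : ι → ι → F := fun j k => θ (E j) k with hβ
  have hdot : ∀ (u : ι → F) k, u ⬝ᵥ E k = u k := fun u k => dotProduct_single_one u k
  -- symmetry
  have hsym : ∀ j k, j ≠ i₁ → k ≠ i₁ → β j k = β k j := by
    intro j k hj hk
    have := h1 (E j) (E k) (hEp j hj) (hEp k hk)
    rwa [hdot, hdot] at this
  -- evaluation through symmetry
  have hev : ∀ (v : ι → F) k, v i₁ = 0 → k ≠ i₁ → θ v k = θ (E k) ⬝ᵥ v := by
    intro v k hv hk
    rw [← hdot (θ v) k]
    exact h1 v (E k) hv (hEp k hk)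
  -- non degeneracy
  have hN : ∀ j, j ≠ i₀ → j ≠ i₁ → ∃ k, k ≠ i₀ ∧ k ≠ i₁ ∧ β j k ≠ 0 := by
    intro j hj0 hj1
    by_contra hcon
    push Not at hcon
    have hmem := h3 (E j) (hEp j hj1) (by
      intro w hw
      apply Finset.sum_eq_zero
      intro k _
      by_cases hk1 : k = i₁
      · rw [hk1, hw, mul_zero]
      · by_cases hk0 : k = i₀
        · rw [hk0, h2 (E j) (hEp j hj1), zero_mul]
        · have : θ (E j) k = 0 := hcon k hk0 hk1
          rw [this, zero_mul])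
    obtain ⟨c, hc⟩ := Submodule.mem_span_singleton.1 hmem
    have := congrFun hc j
    simp [hE, Pi.single_apply, hj0] at this
  -- diagonal elements
  have hD : ∀ j, j ≠ i₀ → j ≠ i₁ → ∀ k, k ≠ i₁ → ∀ c : F, c ≠ 0 →
      ((if k = j then c else 1) * (if k = i₀ then c⁻¹ else 1)) * c * β j k = c⁻¹ * β j k := by
    intro j hj0 hj1 k hk1 c hc
    set d : ι → F := fun m => (if m = j then c else 1) * (if m = i₀ then c⁻¹ else 1) with hd
    have hdet : (Matrix.diagonal d).det = 1 := by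
      rw [Matrix.det_diagonal, hd, Finset.prod_mul_distrib, Finset.prod_ite_eq', Finset.prod_ite_eq']
      simp [hc]
    have hxE : ∀ m, (Matrix.diagonal d) *ᵥ (E m) = d m • E m := by
      intro m
      ext l
      rw [mulVec_diagonal]
      by_cases hl : l = m
      · subst hl; simp [hE]
      · simp [hE, Pi.single_apply, hl]
    have h := h4 ⟨Matrix.diagonal d, hdet⟩ c⁻¹ 1 (inv_ne_zero hc) one_ne_zero
      (by
        have := hxE i₀
        have hd0 : d i₀ = c⁻¹ := by simp [hd, hj0.symm]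
        rw [hd0] at this
        exact this)
      (by
        apply vecMul_inv_of_fix
        ext l
        change ((Pi.single i₁ (1 : F) : ι → F) ᵥ* Matrix.diagonal d) l = _
        rw [vecMul_diagonal]
        by_cases hl : l = i₁
        · subst hl; simp [hd, hj1.symm, h01.symm]
        · simp [Pi.single_apply, hl])
      (E j) (E k) (hEp j hj1) (hEp k hk1)
    change θ ((1 : F) • (Matrix.diagonal d *ᵥ E j)) ⬝ᵥ (Matrix.diagonal d *ᵥ E k) = _ at h
    rw [one_smul, hxE, hxE, dotProduct_smul, hdot, hdot] at h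
    have hdj : d j = c := by simp [hd, hj0]
    rw [hdj, hev (c • E j) k (by simp [hEp j hj1]) hk1, dotProduct_smul, hdot, smul_eq_mul,
      smul_eq_mul] at h
    have hs := hsym j k hj1 hk1
    simp only [hβ] at hs ⊢
    rw [← hs] at h
    rw [← h]
    ring
  -- transvections
  have hT : ∀ i j, i ≠ i₀ → i ≠ i₁ → j ≠ i₀ → j ≠ i₁ → i ≠ j → ∀ v w : ι → F, v i₁ = 0 → w i₁ = 0 →
      θ (v + v j • E i) ⬝ᵥ (w + w j • E i) = θ v ⬝ᵥ w := by
    intro i j hi0 hi1 hj0 hj1 hij v w hv hw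
    have hperp : E j ⬝ᵥ E i = 0 := by rw [hdot]; simp [hE, Pi.single_apply, hij]
    have h := h4 (T (E i) (E j)) 1 1 one_ne_zero one_ne_zero
      (by
        rw [T_mulVec hperp, one_smul]
        have : E j ⬝ᵥ (Pi.single i₀ (1 : F) : ι → F) = 0 := by
          rw [dotProduct_single_one]; simp [hE, Pi.single_apply, hj0.symm]
        rw [this, zero_smul, add_zero])
      (by
        apply vecMul_inv_of_fix
        rw [vecMul_T hperp]
        have : (Pi.single i₁ (1 : F) : ι → F) ⬝ᵥ E i = 0 := by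
          rw [hdot]; simp [Pi.single_apply, hi1]
        rw [this, zero_smul, add_zero])
      v w hv hw
    rw [one_smul, one_mul, T_mulVec hperp, T_mulVec hperp] at h
    have e1 : ∀ u : ι → F, E j ⬝ᵥ u = u j := fun u => single_one_dotProduct j u
    rw [e1, e1] at h
    exact h
  have hEE : ∀ j k, j ≠ k → E j k = 0 := fun j k hjk => by simp [hE, Pi.single_apply, hjk.symm]
  have hEj : ∀ j, E j j = 1 := fun j => by simp [hE]
  have hT1 : ∀ i j, i ≠ i₀ → i ≠ i₁ → j ≠ i₀ → j ≠ i₁ → i ≠ j → ∀ k, k ≠ j → k ≠ i₁ → β i k = 0 := by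
    intro i j hi0 hi1 hj0 hj1 hij k hkj hk1
    have h := hT i j hi0 hi1 hj0 hj1 hij (E j) (E k) (hEp j hj1) (hEp k hk1)
    rw [hEj, hEE k j hkj, zero_smul, add_zero, one_smul, hdot, hdot,
      hev (E j + E i) k (by simp [hEp j hj1, hEp i hi1]) hk1, dotProduct_add, hdot, hdot] at h
    have hs1 := hsym j k hj1 hk1
    have hs2 := hsym i k hi1 hk1
    simp only [hβ] at hs1 hs2 ⊢
    rw [hs2]
    rw [hs1] at h
    exact left_eq_add.1 h.symm
  have hT2 : ∀ i j, i ≠ i₀ → i ≠ i₁ → j ≠ i₀ → j ≠ i₁ → i ≠ j → β j i + β i j + β i i = 0 := by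
    intro i j hi0 hi1 hj0 hj1 hij
    have h := hT i j hi0 hi1 hj0 hj1 hij (E j) (E j) (hEp j hj1) (hEp j hj1)
    have hp : (E j + E i) i₁ = 0 := by simp [hEp j hj1, hEp i hi1]
    rw [hEj, one_smul, dotProduct_add, hdot, hdot, hdot, hev (E j + E i) j hp hj1,
      hev (E j + E i) i hp hi1, dotProduct_add, dotProduct_add, hdot, hdot, hdot, hdot] at h
    simp only [hβ]
    linear_combination h
  -- step 1
  have hdiag : ∀ j, j ≠ i₀ → j ≠ i₁ → β j j = 0 := by
    intro j hj0 hj1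
    by_contra hne
    have h := hD j hj0 hj1 j hj1 (-1) (by norm_num)
    simp only [if_true, if_neg hj0] at h
    have h' : (2 : F) * β j j = 0 := by
      have : ((-1 : F))⁻¹ = -1 := by norm_num
      rw [this] at h
      linear_combination h
    have h20 : (2 : F) = 0 := (mul_eq_zero.1 h').resolve_right hne
    have := h5 h20 (E j) (hEp j hj1)
    rw [hdot] at this
    exact hne this
  -- step 2
  obtain ⟨j, hj0, hj1⟩ : ∃ j, j ≠ i₀ ∧ j ≠ i₁ := by
    by_contra hcon
    push Not at hcon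
    have : (Finset.univ : Finset ι) ⊆ {i₀, i₁} := by
      intro m _
      by_cases hm : m = i₀
      · simp [hm]
      · simp [hcon m hm]
    have h := Finset.card_le_card this
    rw [Finset.card_univ] at h
    have := Finset.card_le_two (a := i₀) (b := i₁)
    omega
  obtain ⟨k, hk0, hk1, hjk⟩ := hN j hj0 hj1
  have hkj : k ≠ j := by
    rintro rfl
    exact hjk (hdiag k hj0 hj1)
  -- step 3
  have h20 : (2 : F) = 0 := by
    have h := hT2 k j hk0 hk1 hj0 hj1 hkj
    rw [hdiag k hk0 hk1, add_zero, ← hsym j k hj1 hk1] at h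
    have h' : (2 : F) * β j k = 0 := by linear_combination h
    exact (mul_eq_zero.1 h').resolve_right hjk
  -- step 4
  have hc1 : ∀ c : F, c ≠ 0 → c = 1 := by
    intro c hc
    have h := hD j hj0 hj1 k hk1 c hc
    rw [if_neg hkj, if_neg hk0, one_mul, one_mul] at h
    have h' : c = c⁻¹ := mul_right_cancel₀ hjk h
    have h2 : c * c = 1 := by
      nth_rewrite 2 [h']
      exact mul_inv_cancel₀ hc
    have h3 : (c - 1) * (c - 1) = 0 := by linear_combination h2 + (1 - c) * h20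
    have := mul_self_eq_zero.1 h3
    exact sub_eq_zero.1 this
  apply hex
  constructor
  · have huniv : (Finset.univ : Finset ι) = {i₀, i₁, j, k} := by
      ext m
      simp only [Finset.mem_univ, Finset.mem_insert, Finset.mem_singleton, true_iff]
      by_contra hcon
      push Not at hcon
      obtain ⟨m0, m1, mj, mk⟩ := hcon
      exact hjk (hT1 j m hj0 hj1 m0 m1 mj.symm k mk.symm hk1)
    rw [← Finset.card_univ, huniv]
    rw [Finset.card_insert_of_notMem, Finset.card_insert_of_notMem, Finset.card_insert_of_notMem,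
      Finset.card_singleton]
    · simp [hkj.symm]
    · simp [hj1.symm, hk1.symm]
    · simp [h01, hj0.symm, hk0.symm]
  · rw [← Nat.card_eq_fintype_card, Nat.card_eq_two_iff]
    refine ⟨0, 1, zero_ne_one, ?_⟩
    ext c
    simp only [Set.mem_insert_iff, Set.mem_singleton_iff, Set.mem_univ, iff_true]
    by_cases hc : c = 0
    · exact Or.inl hc
    · exact Or.inr (hc1 c hc)

end Cfsg.Agent.Lib.Helper40MinAlgA
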