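import Mathlib
import Cfsg.Agent.Lib.Helper98MinDefs

set_option autoImplicit false
set_option linter.unusedSectionVars false
set_option linter.style.haveILetI false

namespace Cfsg.Agent.Lib.Helper40MinLLa

open Cfsg.Agent.Lib.Helper98MinDefs

section LLa
variable {W Ω : Type*} [AddCommGroup W] [Finite W] [Fintype Ω] [DecidableEq Ω]

theorem sum_card_inf (ρ : Multiplicative W →* Equiv.Perm Ω) (f : ℕ)
    (hf : ∀ a : W, a ≠ 0 → Fintype.card {ω // ρ (Multiplicative.ofAdd a) ω = ω} = f)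
    (S : AddSubgroup W) :
    ∑ ω, Nat.card ↥(S ⊓ St ρ ω) = Fintype.card Ω + (Nat.card S - 1) * f := by
  classical
  have := Fintype.ofFinite W
  set Sf : Finset W := Finset.univ.filter (· ∈ S) with hSf
  have hcS : Nat.card S = Sf.card := by
    rw [Nat.card_eq_fintype_card, Fintype.card_subtype]
  have h0 : (0 : W) ∈ Sf := by simp [hSf, S.zero_mem]
  have h1 : ∀ ω, Nat.card ↥(S ⊓ St ρ ω) =
      (Sf.bipartiteAbove (fun ω a => ρ (Multiplicative.ofAdd a) ω = ω) ω).card := by
    intro ω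
    rw [Nat.card_eq_fintype_card, Fintype.card_subtype]
    congr 1
    ext a
    simp [Finset.bipartiteAbove, hSf, mem_St, AddSubgroup.mem_inf]
  simp_rw [h1]
  rw [Finset.sum_card_bipartiteAbove_eq_sum_card_bipartiteBelow, ← Finset.add_sum_erase Sf _ h0]
  congr 1
  · simp [Finset.bipartiteBelow]
  · rw [Finset.sum_congr rfl (g := fun _ => f), Finset.sum_const, Finset.card_erase_of_mem h0, hcS,
      smul_eq_mul]
    intro a ha
    rw [← hf a (Finset.ne_of_mem_erase ha), Fintype.card_subtype]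
    rfl

theorem le_card [Nontrivial W] (ρ : Multiplicative W →* Equiv.Perm Ω) (f : ℕ)
    (hf : ∀ a : W, a ≠ 0 → Fintype.card {ω // ρ (Multiplicative.ofAdd a) ω = ω} = f) :
    f ≤ Fintype.card Ω := by
  obtain ⟨a, ha⟩ := exists_ne (0 : W)
  rw [← hf a ha]
  exact Fintype.card_subtype_le _

/-- NOTE: `[Nontrivial W]` is needed (for trivial `W` the number `f` is arbitrary). -/
theorem exists_mul [Nontrivial W] (ρ : Multiplicative W →* Equiv.Perm Ω) (f : ℕ)
    (hf : ∀ a : W, a ≠ 0 → Fintype.card {ω // ρ (Multiplicative.ofAdd a) ω = ω} = f) :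
    ∃ m, Fintype.card Ω = f + Nat.card W * m := by
  classical
  have := Fintype.ofFinite W
  letI : MulAction (Multiplicative W) Ω := MulAction.compHom Ω ρ
  have hB := MulAction.sum_card_fixedBy_eq_card_orbits_mul_card_group (Multiplicative W) Ω
  set k := Fintype.card (Quotient (MulAction.orbitRel (Multiplicative W) Ω)) with hk
  have hle := le_card ρ f hf
  have hW : Fintype.card (Multiplicative W) = Nat.card W := by
    rw [Nat.card_eq_fintype_card]; exact Fintype.card_multiplicative W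
  have hWpos : 0 < Nat.card W := Nat.card_pos
  rw [← Finset.add_sum_erase Finset.univ _ (Finset.mem_univ (1 : Multiplicative W)),
    Finset.sum_congr rfl (g := fun _ => f), Finset.sum_const, Finset.card_erase_of_mem (Finset.mem_univ _),
    Finset.card_univ, hW, smul_eq_mul] at hB
  · have h1 : Fintype.card (MulAction.fixedBy Ω (1 : Multiplicative W)) = Fintype.card Ω := by
      rw [← Nat.card_eq_fintype_card, ← Nat.card_eq_fintype_card]
      have : MulAction.fixedBy Ω (1 : Multiplicative W) = Set.univ := by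
        ext ω; simp
      rw [this]
      exact Nat.card_congr (Equiv.Set.univ Ω)
    rw [h1] at hB
    obtain ⟨w, hw⟩ : ∃ w, Nat.card W = w + 1 := ⟨Nat.card W - 1, by omega⟩
    rw [hw] at hB ⊢
    simp only [Nat.add_sub_cancel] at hB
    have hfk : f ≤ k := by
      by_contra hcon
      push Not at hcon
      have : k * (w + 1) + (w + 1) ≤ f * (w + 1) := by nlinarith
      nlinarith
    obtain ⟨m, hm⟩ := Nat.exists_eq_add_of_le hfk
    refine ⟨m, ?_⟩
    rw [hm] at hB
    nlinarith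
  · intro a ha
    have ha' : Multiplicative.toAdd a ≠ 0 := by
      intro h
      exact Finset.ne_of_mem_erase ha h
    rw [← hf _ ha', ← Nat.card_eq_fintype_card, ← Nat.card_eq_fintype_card]
    rfl

theorem card_mul_le (S S' : AddSubgroup W) :
    Nat.card S * Nat.card S' ≤ Nat.card W * Nat.card ↥(S ⊓ S') := by
  have h1 := AddSubgroup.index_inf_le (H := S) (K := S')
  have h2 := S.card_mul_index
  have h3 := S'.card_mul_index
  have h4 := (S ⊓ S').card_mul_index
  have hpos : 0 < (S ⊓ S').index := Nat.pos_of_ne_zero AddSubgroup.index_ne_zero_of_finite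
  apply Nat.le_of_mul_le_mul_right _ hpos
  calc Nat.card S * Nat.card S' * (S ⊓ S').index
      ≤ Nat.card S * Nat.card S' * (S.index * S'.index) := Nat.mul_le_mul_left _ h1
    _ = (Nat.card S * S.index) * (Nat.card S' * S'.index) := by ring
    _ = Nat.card W * (Nat.card ↥(S ⊓ S') * (S ⊓ S').index) := by rw [h2, h3, h4]
    _ = Nat.card W * Nat.card ↥(S ⊓ S') * (S ⊓ S').index := by ring

theorem St_orbit (ρ : Multiplicative W →* Equiv.Perm Ω) (ω₀ : Ω) (b : W) :
    St ρ (ρ (Multiplicative.ofAdd b) ω₀) = St ρ ω₀ := by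
  ext a
  rw [mem_St, mem_St, ← Equiv.Perm.mul_apply, ← map_mul, mul_comm, map_mul, Equiv.Perm.mul_apply]
  exact (ρ (Multiplicative.ofAdd b)).injective.eq_iff

open Classical in
theorem card_orbit_mul (ρ : Multiplicative W →* Equiv.Perm Ω) (ω₀ : Ω) :
    (Finset.univ.filter (fun ω' => ∃ a : W, ρ (Multiplicative.ofAdd a) ω₀ = ω')).card *
      Nat.card (St ρ ω₀) = Nat.card W := by
  classical
  have := Fintype.ofFinite W
  letI : MulAction (Multiplicative W) Ω := MulAction.compHom Ω ρ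
  have h := MulAction.card_orbit_mul_card_stabilizer_eq_card_group (Multiplicative W) ω₀
  have hW : Fintype.card (Multiplicative W) = Nat.card W := by
    rw [Nat.card_eq_fintype_card]; exact Fintype.card_multiplicative W
  have h1 : Fintype.card (MulAction.orbit (Multiplicative W) ω₀) =
      (Finset.univ.filter (fun ω' => ∃ a : W, ρ (Multiplicative.ofAdd a) ω₀ = ω')).card := by
    rw [Fintype.card_subtype]
    congr 1
    ext x
    simp only [Finset.mem_filter, Finset.mem_univ, true_and, MulAction.mem_orbit_iff]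
    exact ⟨fun ⟨y, hy⟩ => ⟨Multiplicative.toAdd y, hy⟩, fun ⟨a, ha⟩ => ⟨Multiplicative.ofAdd a, ha⟩⟩
  have h2 : Fintype.card (MulAction.stabilizer (Multiplicative W) ω₀) = Nat.card (St ρ ω₀) := by
    rw [← Nat.card_eq_fintype_card]
    exact Nat.card_congr ⟨fun x => ⟨Multiplicative.toAdd x.1, x.2⟩,
      fun y => ⟨Multiplicative.ofAdd y.1, y.2⟩, fun _ => rfl, fun _ => rfl⟩
  rw [h1, h2, hW] at h
  convert h

theorem slack (ρ : Multiplicative W →* Equiv.Perm Ω) (f : ℕ)
    (hf : ∀ a : W, a ≠ 0 → Fintype.card {ω // ρ (Multiplicative.ofAdd a) ω = ω} = f)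
    (hN : Fintype.card Ω = f + Nat.card W) (ω₀ ω : Ω)
    (h : ∀ a : W, ρ (Multiplicative.ofAdd a) ω₀ ≠ ω) :
    Nat.card W * Nat.card ↥(St ρ ω₀ ⊓ St ρ ω) = Nat.card (St ρ ω₀) * Nat.card (St ρ ω) := by
  classical
  set S := St ρ ω₀ with hS
  set O : Finset Ω := Finset.univ.filter (fun ω' => ∃ a : W, ρ (Multiplicative.ofAdd a) ω₀ = ω') with hO
  have hOS : O.card * Nat.card S = Nat.card W := card_orbit_mul ρ ω₀
  set A : Ω → ℕ := fun ω' => Nat.card W * Nat.card ↥(S ⊓ St ρ ω') with hA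
  set B : Ω → ℕ := fun ω' => Nat.card S * Nat.card (St ρ ω') with hB
  have hBA : ∀ ω', B ω' ≤ A ω' := fun ω' => card_mul_le S (St ρ ω')
  obtain ⟨s, hs⟩ : ∃ s, Nat.card S = s + 1 := ⟨Nat.card S - 1, by have : 0 < Nat.card S := Nat.card_pos; omega⟩
  obtain ⟨w, hw⟩ : ∃ w, Nat.card W = w + 1 := ⟨Nat.card W - 1, by have : 0 < Nat.card W := Nat.card_pos; omega⟩
  have hsA : ∑ ω', A ω' = Nat.card W * (Fintype.card Ω + s * f) := by
    rw [hA, ← Finset.mul_sum, sum_card_inf ρ f hf S, hs, Nat.add_sub_cancel]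
  have hsB : ∑ ω', B ω' = Nat.card S * (Fintype.card Ω + w * f) := by
    have h1 := sum_card_inf ρ f hf ⊤
    simp only [top_inf_eq] at h1
    have h2 : Nat.card (⊤ : AddSubgroup W) = Nat.card W := Nat.card_congr AddSubgroup.topEquiv.toEquiv
    rw [hB, ← Finset.mul_sum, h1, h2, hw, Nat.add_sub_cancel]
  have hOA : ∑ ω' ∈ O, A ω' = Nat.card W * Nat.card W := by
    rw [Finset.sum_congr rfl (g := fun _ => Nat.card W * Nat.card S), Finset.sum_const, smul_eq_mul,
      mul_left_comm, hOS]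
    intro ω' hω'
    obtain ⟨b, rfl⟩ := (Finset.mem_filter.1 hω').2
    simp only [hA]
    rw [St_orbit, ← hS, inf_idem]
  have hOB : ∑ ω' ∈ O, B ω' = Nat.card W * Nat.card S := by
    rw [Finset.sum_congr rfl (g := fun _ => Nat.card S * Nat.card S), Finset.sum_const, smul_eq_mul,
      ← mul_assoc, hOS]
    intro ω' hω'
    obtain ⟨b, rfl⟩ := (Finset.mem_filter.1 hω').2
    simp only [hB]
    rw [St_orbit, ← hS]
  have hspA := Finset.sum_add_sum_compl O A
  have hspB := Finset.sum_add_sum_compl O B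
  have heq : ∑ ω' ∈ Oᶜ, B ω' = ∑ ω' ∈ Oᶜ, A ω' := by
    rw [hsA, hOA, hN] at hspA
    rw [hsB, hOB, hN] at hspB
    have e1 : ∑ ω' ∈ Oᶜ, A ω' = Nat.card W * f * Nat.card S := by
      apply Nat.add_left_cancel (n := Nat.card W * Nat.card W)
      rw [hspA, hs]; ring
    have e2 : ∑ ω' ∈ Oᶜ, B ω' = Nat.card W * f * Nat.card S := by
      apply Nat.add_left_cancel (n := Nat.card W * Nat.card S)
      rw [hspB, hw]; ring
    rw [e1, e2]
  have hall := (Finset.sum_eq_sum_iff_of_le (fun i _ => hBA i)).1 heq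
  have hmem : ω ∈ Oᶜ := by
    rw [Finset.mem_compl, hO, Finset.mem_filter]
    rintro ⟨-, a, ha⟩
    exact h a ha
  exact (hall ω hmem).symm

theorem caseA (ρ : Multiplicative W →* Equiv.Perm Ω) (f : ℕ)
    (hf : ∀ a : W, a ≠ 0 → Fintype.card {ω // ρ (Multiplicative.ofAdd a) ω = ω} = f)
    (hN : Fintype.card Ω = f + Nat.card W) (ω₀ : Ω)
    (h0 : ∀ a : W, ρ (Multiplicative.ofAdd a) ω₀ = ω₀ → a = 0) (ω : Ω) :
    (∃ a : W, ρ (Multiplicative.ofAdd a) ω₀ = ω) ∨ ∀ a : W, ρ (Multiplicative.ofAdd a) ω = ω := by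
  by_cases h : ∃ a : W, ρ (Multiplicative.ofAdd a) ω₀ = ω
  · exact Or.inl h
  · right
    push Not at h
    have h1 := slack ρ f hf hN ω₀ ω h
    have h2 : St ρ ω₀ = ⊥ := by
      rw [eq_bot_iff]
      intro a ha
      exact h0 a ha
    rw [h2, bot_inf_eq] at h1
    simp only [AddSubgroup.card_bot, mul_one, one_mul] at h1
    have h3 : St ρ ω = ⊤ := AddSubgroup.eq_top_of_card_eq _ h1.symm
    intro a
    have : a ∈ St ρ ω := h3 ▸ AddSubgroup.mem_top a
    exact this

end LLa

end Cfsg.Agent.Lib.Helper40MinLLa
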