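import Mathlib

set_option autoImplicit false

/-! PROJECT 5 = ASCH-O, piece `quadroot`: a binary quadratic form over `F₀` has a non-trivial zero over the
quadratic extension. -/

namespace Cfsg.Agent.Lib.Helper40OQuadroot

open Polynomial

theorem quad_root {F : Type*} [Field F] [Fintype F] {F₀ : Subfield F} (hcard : Fintype.card F = Nat.card F₀ ^ 2)
    {α β γ : F} (hα : α ∈ F₀) (hβ : β ∈ F₀) (hγ : γ ∈ F₀) :
    ∃ x y : F, (x ≠ 0 ∨ y ≠ 0) ∧ α * x ^ 2 + β * x * y + γ * y ^ 2 = 0 := by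
  by_cases h0 : α = 0
  · exact ⟨1, 0, Or.inl one_ne_zero, by rw [h0]; ring⟩
  set a : F₀ := ⟨α, hα⟩ with ha
  set b : F₀ := ⟨β, hβ⟩ with hb
  set c : F₀ := ⟨γ, hγ⟩ with hc
  have ha0 : a ≠ 0 := fun h => h0 (congrArg Subtype.val h)
  set p : F₀[X] := C a * X ^ 2 + C b * X + C c with hp
  have hdeg : p.natDegree = 2 := natDegree_quadratic ha0
  have hp0 : p ≠ 0 := by
    intro h
    rw [h] at hdeg
    simp at hdeg
  obtain ⟨g, hg, hgp⟩ := exists_irreducible_of_natDegree_pos (f := p) (by omega)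
  have hgdeg : g.natDegree ∣ 2 := by
    have h1 : g.natDegree ≤ 2 := hdeg ▸ natDegree_le_of_dvd hgp hp0
    have h2 : 0 < g.natDegree := hg.natDegree_pos
    interval_cases g.natDegree <;> simp
  have hdvd := hg.natDegree_dvd_iff_dvd_X_pow_card_pow_sub_X.1 hgdeg
  rw [← hcard] at hdvd
  have hspl : Splits (g.map (algebraMap F₀ F)) := by
    refine Splits.of_dvd (IsSplittingField.splits F (X ^ Fintype.card F - X : F₀[X])) ?_
      (Polynomial.map_dvd (algebraMap F₀ F) hdvd)
    exact (Polynomial.map_ne_zero_iff (algebraMap F₀ F).injective).2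
      (FiniteField.X_pow_card_sub_X_ne_zero _ Fintype.one_lt_card)
  obtain ⟨t, ht⟩ := hspl.exists_eval_eq_zero (by
    rw [degree_map]
    exact (degree_pos_of_irreducible hg).ne')
  have hpt : (p.map (algebraMap F₀ F)).eval t = 0 := by
    obtain ⟨r, hr⟩ := hgp
    rw [hr, Polynomial.map_mul, eval_mul, ht, zero_mul]
  refine ⟨t, 1, Or.inr one_ne_zero, ?_⟩
  rw [hp] at hpt
  simp only [Polynomial.map_add, Polynomial.map_mul, Polynomial.map_pow, map_C, map_X, eval_add, eval_mul,
    eval_pow, eval_C, eval_X] at hpt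
  have e1 : algebraMap F₀ F a = α := rfl
  have e2 : algebraMap F₀ F b = β := rfl
  have e3 : algebraMap F₀ F c = γ := rfl
  rw [e1, e2, e3] at hpt
  linear_combination hpt

end Cfsg.Agent.Lib.Helper40OQuadroot
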