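import Cfsg.Agent.Lib.Helper95Cen

set_option autoImplicit false
set_option linter.unusedSimpArgs false

namespace Cfsg.Agent.Lib.Helper96Lagr

open Module LinearMap Cfsg.Agent.Lib.Helper95Sp Cfsg.Agent.Lib.Helper95Cen

variable {K V : Type*} [Field K] [AddCommGroup V] [Module K V]
variable {B : LinearMap.BilinForm K V}

/-- the short root element `x ↦ x + B x a • b + B x b • a` -/
noncomputable def srt (hA : B.IsAlt) (a b : V) : V ≃ₗ[K] V :=
  stv B hA (a + b) 1 * stv B hA a (-1) * stv B hA b (-1)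

lemma srt_isometry (hA : B.IsAlt) (a b x y : V) : B (srt hA a b x) (srt hA a b y) = B x y := by
  simp only [srt, LinearEquiv.mul_apply, stv_isometry]

lemma srt_apply (hA : B.IsAlt) (a b : V) (hab : B a b = 0) (x : V) :
    srt hA a b x = x + B x a • b + B x b • a := by
  have hba : B b a = 0 := alt_zero hA hab
  simp only [srt, LinearEquiv.mul_apply, stv_apply, map_add, map_smul, LinearMap.add_apply,
    LinearMap.smul_apply, smul_eq_mul, hA a, hA b, hab, hba]
  module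

lemma srt_comm (hA : B.IsAlt) (a b : V) (hab : B a b = 0) : srt hA a b = srt hA b a := by
  ext x
  rw [srt_apply hA a b hab, srt_apply hA b a (alt_zero hA hab)]
  abel

lemma conj_srt (hA : B.IsAlt) (e : V ≃ₗ[K] V) (he : ∀ x y, B (e x) (e y) = B x y) (a b : V) :
    e * srt hA a b * e⁻¹ = srt hA (e a) (e b) := by
  unfold srt
  rw [← conj_stv hA e he a, ← conj_stv hA e he b, ← map_add, ← conj_stv hA e he (a + b)]
  group

lemma stv_mul (hA : B.IsAlt) (a : V) (c d : K) :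
    stv B hA a c * stv B hA a d = stv B hA a (c + d) := by
  ext x
  simp only [LinearEquiv.mul_apply, stv_apply, map_add, map_smul, LinearMap.add_apply,
    LinearMap.smul_apply, hA a, smul_eq_mul]
  module

lemma stv_inv (hA : B.IsAlt) (a : V) (c : K) : (stv B hA a c)⁻¹ = stv B hA a (-c) := by
  rw [inv_eq_iff_mul_eq_one, stv_mul]
  ext x
  simp

/-- a nonzero vector of a subspace of dimension at least three killed by two functionals -/
lemma exists_ker2 [FiniteDimensional K V] (S : Submodule K V) (h : 3 ≤ finrank K S)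
    (φ ψ : Dual K V) : ∃ x ∈ S, x ≠ 0 ∧ φ x = 0 ∧ ψ x = 0 := by
  have h1 : LinearMap.ker ((φ.prod ψ) ∘ₗ S.subtype) ≠ ⊥ := by
    apply LinearMap.ker_ne_bot_of_finrank_lt
    rw [Module.finrank_prod, Module.finrank_self]
    omega
  obtain ⟨x, hx, hx0⟩ := Submodule.exists_mem_ne_zero_of_ne_bot h1
  rw [LinearMap.mem_ker] at hx
  exact ⟨x, x.2, fun h => hx0 (Subtype.ext h), congrArg Prod.fst hx, congrArg Prod.snd hx⟩

/-- stabilising or interchanging a pair of subspaces -/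
def InH (A A' : Submodule K V) (e : V ≃ₗ[K] V) : Prop :=
  ((∀ x ∈ A, e x ∈ A) ∧ (∀ x ∈ A', e x ∈ A')) ∨ ((∀ x ∈ A, e x ∈ A') ∧ (∀ x ∈ A', e x ∈ A))

/-- the data: a pair of complementary Lagrangians and an overgroup of its stabiliser -/
structure Setup (hA : B.IsAlt) (A A' : Submodule K V) (M : Subgroup (V ≃ₗ[K] V)) : Prop where
  nd : B.Nondegenerate
  two : (2 : K) ≠ 0
  isoA : ∀ x ∈ A, ∀ y ∈ A, B x y = 0
  isoA' : ∀ x ∈ A', ∀ y ∈ A', B x y = 0
  compl : IsCompl A A'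
  hM : ∀ e : V ≃ₗ[K] V, (∀ u v, B (e u) (e v) = B u v) → InH A A' e → e ∈ M
  hMiso : ∀ e ∈ M, ∀ u v, B (e u) (e v) = B u v
  dimA : 3 ≤ finrank K A
  dimA' : 3 ≤ finrank K A'
  dimEq : finrank K A = finrank K A'

variable {hA : B.IsAlt} {A A' : Submodule K V} {M : Subgroup (V ≃ₗ[K] V)}

lemma Setup.symm (S : Setup hA A A' M) : Setup hA A' A M where
  nd := S.nd
  two := S.two
  isoA := S.isoA'
  isoA' := S.isoA
  compl := S.compl.symm
  hM := fun e he h => S.hM e he (by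
    rcases h with h | h
    · exact Or.inl ⟨h.2, h.1⟩
    · exact Or.inr ⟨h.2, h.1⟩)
  hMiso := S.hMiso
  dimA := S.dimA'
  dimA' := S.dimA
  dimEq := S.dimEq.symm

lemma Setup.decomp (S : Setup hA A A' M) (x : V) : ∃ a ∈ A, ∃ b ∈ A', a + b = x := by
  have : x ∈ A ⊔ A' := by rw [S.compl.sup_eq_top]; exact Submodule.mem_top
  exact Submodule.mem_sup.1 this

lemma Setup.inter (S : Setup hA A A' M) {x : V} (h : x ∈ A) (h' : x ∈ A') : x = 0 := by
  have : x ∈ A ⊓ A' := ⟨h, h'⟩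
  rw [S.compl.inf_eq_bot] at this
  simpa using this

lemma Setup.perp (S : Setup hA A A' M) (x : V) (h : ∀ a ∈ A, B a x = 0) : x ∈ A := by
  obtain ⟨a0, ha0, b0, hb0, rfl⟩ := S.decomp x
  have : b0 = 0 := by
    apply S.nd.2
    intro y
    obtain ⟨a, ha, b, hb, rfl⟩ := S.decomp y
    have h1 := h a ha
    rw [map_add, S.isoA a ha a0 ha0, zero_add] at h1
    rw [map_add, LinearMap.add_apply, h1, S.isoA' b hb b0 hb0, add_zero]
  rw [this, add_zero]
  exact ha0

lemma Setup.exists_pair (S : Setup hA A A' M) {a : V} (ha : a ∈ A) (ha0 : a ≠ 0) :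
    ∃ b ∈ A', B a b ≠ 0 := by
  by_contra hcon
  push Not at hcon
  exact ha0 (S.inter ha (S.symm.perp a fun b hb => alt_zero hA (hcon b hb)))

lemma Setup.srt_mem (S : Setup hA A A' M) {a b : V} (ha : a ∈ A) (hb : b ∈ A') (hab : B a b = 0) :
    srt hA a b ∈ M := by
  refine S.hM _ (srt_isometry hA a b) (Or.inl ⟨fun x hx => ?_, fun x hx => ?_⟩)
  · rw [srt_apply hA a b hab, S.isoA x hx a ha, zero_smul, add_zero]
    exact A.add_mem hx (A.smul_mem _ ha)
  · rw [srt_apply hA a b hab, S.isoA' x hx b hb, zero_smul, add_zero]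
    exact A'.add_mem hx (A'.smul_mem _ hb)

lemma Setup.sub_mem (S : Setup hA A A' M) {u : V ≃ₗ[K] V} (huM : u ∈ M) (hu : ∀ a ∈ A, u a = a)
    (x : V) : u x - x ∈ A := by
  refine S.perp _ fun a ha => ?_
  have := S.hMiso u huM a x
  rw [hu a ha] at this
  rw [map_sub, this, sub_self]

lemma Setup.exists_quad (S : Setup hA A A' M) {u : V ≃ₗ[K] V} (huM : u ∈ M)
    (hu : ∀ a ∈ A, u a = a) (hne : u ≠ 1) : ∃ b ∈ A', B (u b) b ≠ 0 := by
  by_contra hcon
  push Not at hcon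
  have hiso := S.hMiso u huM
  have hσ := S.sub_mem huM hu
  have h0 : ∀ b ∈ A', ∀ b' ∈ A', B (u b) b' = 0 := by
    intro b hb b' hb'
    have h1 := hcon (b + b') (A'.add_mem hb hb')
    simp only [map_add, LinearMap.add_apply, hcon b hb, hcon b' hb'] at h1
    have h2 : B (u b) (u b') = 0 := by rw [hiso, S.isoA' b hb b' hb']
    have h3 : B (u b) (u b' - b') = B b (u b') := by
      rw [← hu _ (hσ b'), hiso, map_sub, S.isoA' b hb b' hb', sub_zero]
    have h4 : B (u b) b' + B b (u b') = 0 := by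
      rw [← h3, map_sub, h2]; ring
    have h5 : B b (u b') = - B (u b') b := alt_swap hA _ _
    have h6 : (2 : K) * B (u b) b' = 0 := by
      rw [h5] at h4
      linear_combination h1 + h4
    exact (mul_eq_zero.1 h6).resolve_left S.two
  apply hne
  ext x
  obtain ⟨a, ha, b, hb, rfl⟩ := S.decomp x
  have h1 : u b - b = 0 := by
    refine S.inter (hσ b) (S.symm.perp _ fun b' hb' => ?_)
    rw [map_sub, S.isoA' b' hb' b hb, sub_zero]
    exact alt_zero hA (h0 b hb b' hb')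
  rw [map_add, hu a ha, sub_eq_zero.1 h1]
  rfl

lemma Setup.stv_mem (S : Setup hA A A' M) {u : V ≃ₗ[K] V} (huM : u ∈ M)
    (hu : ∀ a ∈ A, u a = a) {a b : V} (ha : a ∈ A) (hb : b ∈ A') (hab : B a b = 0) :
    stv B hA a (-2 * B (u b) b) ∈ M := by
  have hiso := S.hMiso u huM
  have hσ := S.sub_mem huM hu
  have huu : ∀ x, u (u x) = u x + (u x - x) := fun x => by
    have := hu _ (hσ x)
    rw [map_sub] at this
    rw [← this]; abel
  have hab' : B a (-b) = 0 := by simp [hab]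
  have hba : B b a = 0 := alt_zero hA hab
  have hBa : ∀ y, B (u y) a = B y a := fun y => by
    have := hiso y a
    rwa [hu a ha] at this
  have hs : srt hA a b ∈ M := S.srt_mem ha hb hab
  have hs' : srt hA a (-b) ∈ M := S.srt_mem ha (A'.neg_mem hb) hab'
  have key : stv B hA a (-2 * B (u b) b) * (u * u) =
      (srt hA a b * u * srt hA a (-b)) * (srt hA a (-b) * u * srt hA a b) := by
    ext x
    simp only [LinearEquiv.mul_apply, srt_apply hA a b hab, srt_apply hA a (-b) hab', stv_apply,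
      map_add, map_smul, map_neg, map_sub, LinearMap.add_apply, LinearMap.smul_apply,
      LinearMap.neg_apply, LinearMap.sub_apply, smul_eq_mul, hu a ha, huu, hBa, hba, hab, hA a, hA b]
    module
  have h2 : stv B hA a (-2 * B (u b) b) =
      (srt hA a b * u * srt hA a (-b)) * (srt hA a (-b) * u * srt hA a b) * (u * u)⁻¹ := by
    rw [← key]; group
  rw [h2]
  exact M.mul_mem (M.mul_mem (M.mul_mem (M.mul_mem hs huM) hs') (M.mul_mem (M.mul_mem hs' huM) hs))
    (M.inv_mem (M.mul_mem huM huM))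

lemma Setup.mem_cen_of (S : Setup hA A A' M) {u : V ≃ₗ[K] V} (huM : u ∈ M)
    (hu : ∀ a ∈ A, u a = a) {a b : V} (ha : a ∈ A) (hb : b ∈ A') (hab : B a b = 0)
    (hq : B (u b) b ≠ 0) : a ∈ cen hA M := by
  intro c
  have h1 : ∀ l : K, stv B hA a (-2 * (l * l * B (u b) b)) ∈ M := by
    intro l
    have := S.stv_mem huM hu ha (A'.smul_mem l hb) (by simp [hab])
    simpa [mul_assoc, mul_left_comm] using this
  have h2 := M.mul_mem (h1 ((c / (-2 * B (u b) b) + 1) / 2))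
    (M.inv_mem (h1 ((c / (-2 * B (u b) b) - 1) / 2)))
  rw [stv_inv, stv_mul] at h2
  have h3 : -2 * ((c / (-2 * B (u b) b) + 1) / 2 * ((c / (-2 * B (u b) b) + 1) / 2) * B (u b) b) +
      -(-2 * ((c / (-2 * B (u b) b) - 1) / 2 * ((c / (-2 * B (u b) b) - 1) / 2) * B (u b) b)) = c := by
    have := S.two
    field_simp
    ring
  rwa [h3] at h2

lemma Setup.le_cen (S : Setup hA A A' M) [FiniteDimensional K V] {u : V ≃ₗ[K] V} (huM : u ∈ M)
    (hu : ∀ a ∈ A, u a = a) (hne : u ≠ 1) : ∀ a ∈ A, a ∈ cen hA M := by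
  obtain ⟨b0, hb0, hq⟩ := S.exists_quad huM hu hne
  intro a ha
  by_cases hab0 : B a b0 = 0
  · exact S.mem_cen_of huM hu ha hb0 hab0 hq
  · obtain ⟨a1, ha1, ha10, h1, -⟩ := exists_ker2 A S.dimA (B.flip b0) 0
    have h1' : B a1 b0 = 0 := h1
    have ha1c : a1 ∈ cen hA M := S.mem_cen_of huM hu ha1 hb0 h1' hq
    obtain ⟨b1, hb1, h2⟩ := S.exists_pair ha1 ha10
    set β := (B a1 b1)⁻¹ with hβ
    set α := (1 - β * B a b1) / B a b0 with hα
    set b := α • b0 + β • b1 with hb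
    have hbA : b ∈ A' := A'.add_mem (A'.smul_mem _ hb0) (A'.smul_mem _ hb1)
    have e1 : B a1 b = 1 := by
      simp only [hb, map_add, map_smul, smul_eq_mul, h1', hβ]
      field_simp
      ring
    have e2 : B a b = 1 := by
      simp only [hb, map_add, map_smul, smul_eq_mul, hα]
      field_simp
      ring
    have e3 : B (a - a1) b = 0 := by
      rw [map_sub, LinearMap.sub_apply, e1, e2, sub_self]
    have h3 := cen_map _ (S.srt_mem (A.sub_mem ha ha1) hbA e3) (srt_isometry hA _ _) ha1c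
    rw [srt_apply hA _ _ e3, e1, S.isoA a1 ha1 _ (A.sub_mem ha ha1)] at h3
    have h4 : a1 + (0 : K) • b + (1 : K) • (a - a1) = a := by
      rw [zero_smul, one_smul]; abel
    rwa [h4] at h3

lemma Setup.exists_swap (S : Setup hA A A' M) [FiniteDimensional K V] :
    ∃ J : V ≃ₗ[K] V, (∀ x y, B (J x) (J y) = B x y) ∧ (∀ x ∈ A, J x ∈ A') ∧
      (∀ x ∈ A', J x ∈ A) := by
  classical
  let p : A' →ₗ[K] Dual K A := A.subtype.dualMap ∘ₗ B.flip ∘ₗ A'.subtype
  have hp : ∀ (b : A') (a : A), p b a = B a b := fun b a => rfl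
  have hinj : Function.Injective p := by
    rw [← LinearMap.ker_eq_bot, LinearMap.ker_eq_bot']
    intro b hb
    apply Subtype.ext
    refine S.inter (S.perp _ fun a ha => ?_) b.2
    have := hp b ⟨a, ha⟩
    rw [hb] at this
    exact this.symm
  let pe : A' ≃ₗ[K] Dual K A :=
    LinearMap.linearEquivOfInjective p hinj (by rw [Subspace.dual_finrank_eq, S.dimEq])
  have hpe : ∀ b, pe b = p b := fun b => rfl
  let 𝔟 := Module.finBasis K A
  let θ : A ≃ₗ[K] A' := 𝔟.toDualEquiv.trans pe.symm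
  have hsym : ∀ a a' : A, 𝔟.toDual a a' = 𝔟.toDual a' a := by
    have : 𝔟.toDual = 𝔟.toDual.flip := by
      refine 𝔟.ext fun i => 𝔟.ext fun j => ?_
      simp [Module.Basis.toDual_apply, eq_comm]
    intro a a'
    conv_lhs => rw [this]
    rfl
  have hθ : ∀ a a' : A, B a (θ a') = 𝔟.toDual a' a := by
    intro a a'
    rw [← hp, ← hpe]
    simp [θ]
  let J₀ : V →ₗ[K] V :=
    LinearMap.ofIsCompl S.compl (A'.subtype ∘ₗ (θ : A →ₗ[K] A')) (-(A.subtype ∘ₗ (θ.symm : A' →ₗ[K] A)))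
  have hJa : ∀ a : A, J₀ a = θ a := fun a => by
    simp [J₀, LinearMap.ofIsCompl_apply_left]
  have hJb : ∀ b : A', J₀ b = -(θ.symm b : V) := fun b => by
    simp [J₀, LinearMap.ofIsCompl_apply_right]
  have hmix : ∀ (a : A) (b : A'), B (θ a : V) (θ.symm b : V) = - B (a : V) (b : V) := by
    intro a b
    rw [alt_swap hA, hθ, hsym, ← hθ, LinearEquiv.apply_symm_apply]
  have hiso : ∀ x y, B (J₀ x) (J₀ y) = B x y := by
    intro x y
    obtain ⟨a, ha, b, hb, rfl⟩ := S.decomp x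
    obtain ⟨a', ha', b', hb', rfl⟩ := S.decomp y
    have e1 := hJa ⟨a, ha⟩
    have e2 := hJa ⟨a', ha'⟩
    have e3 := hJb ⟨b, hb⟩
    have e4 := hJb ⟨b', hb'⟩
    simp only at e1 e2 e3 e4
    have m1 := hmix ⟨a, ha⟩ ⟨b', hb'⟩
    have m2 := hmix ⟨a', ha'⟩ ⟨b, hb⟩
    simp only at m1 m2
    have m3 : B ((θ.symm ⟨b, hb⟩ : A) : V) ((θ ⟨a', ha'⟩ : A') : V) = B a' b := by
      rw [alt_swap hA, m2, neg_neg]
    simp only [map_add, LinearMap.add_apply, e1, e2, e3, e4, map_neg, LinearMap.neg_apply,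
      S.isoA' _ (θ ⟨a, ha⟩).2 _ (θ ⟨a', ha'⟩).2, S.isoA _ (θ.symm ⟨b, hb⟩).2 _ (θ.symm ⟨b', hb'⟩).2,
      S.isoA a ha a' ha', S.isoA' b hb b' hb', m1, m3]
    rw [alt_swap hA b a']
    ring
  have hJinj : Function.Injective J₀ := by
    rw [← LinearMap.ker_eq_bot, LinearMap.ker_eq_bot']
    intro x hx
    apply S.nd.1
    intro y
    rw [← hiso, hx]
    simp
  refine ⟨LinearEquiv.ofInjectiveEndo J₀ hJinj, fun x y => ?_, fun x hx => ?_, fun x hx => ?_⟩
  · simpa using hiso x y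
  · have := hJa ⟨x, hx⟩
    simp only at this
    rw [LinearEquiv.coe_ofInjectiveEndo, this]
    exact (θ ⟨x, hx⟩).2
  · have := hJb ⟨x, hx⟩
    simp only at this
    rw [LinearEquiv.coe_ofInjectiveEndo, this]
    exact A.neg_mem (θ.symm ⟨x, hx⟩).2

/-- a nontrivial element of `M` fixing `A` pointwise forces all transvections into `M` -/
theorem Setup.cen_univ_of_unip (S : Setup hA A A' M) [FiniteDimensional K V] {u : V ≃ₗ[K] V}
    (huM : u ∈ M) (hu : ∀ a ∈ A, u a = a) (hne : u ≠ 1) : ∀ v, v ∈ cen hA M := by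
  have hAc := S.le_cen huM hu hne
  obtain ⟨J, hJiso, hJA, hJA'⟩ := S.exists_swap
  have hJM : J ∈ M := S.hM J hJiso (Or.inr ⟨hJA, hJA'⟩)
  have hA'c : ∀ b ∈ A', b ∈ cen hA M := by
    intro b hb
    have h1 := cen_map J⁻¹ (M.inv_mem hJM) (S.hMiso _ (M.inv_mem hJM)) (hAc _ (hJA' b hb))
    have h2 : J⁻¹ (J b) = b := J.symm_apply_apply b
    rwa [h2] at h1
  intro v
  obtain ⟨a, ha, b, hb, rfl⟩ := S.decomp v
  by_cases hab : B a b = 0
  · by_cases ha0 : a = 0
    · rw [ha0, zero_add]; exact hA'c b hb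
    · obtain ⟨b1, hb1, h1⟩ := S.exists_pair ha ha0
      have h2 : a + b1 ∈ cen hA M := cen_add (hAc a ha) (hA'c b1 hb1) h1
      have h3 : (a + b1) + (b - b1) ∈ cen hA M := by
        refine cen_add h2 (hA'c _ (A'.sub_mem hb hb1)) ?_
        simp only [map_add, map_sub, LinearMap.add_apply, hab, S.isoA' b1 hb1 b hb, hA b1]
        simpa using h1
      have h4 : (a + b1) + (b - b1) = a + b := by abel
      rwa [h4] at h3
  · exact cen_add (hAc a ha) (hA'c b hb) hab

/-- Lemma 1 -/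
theorem Setup.cen_univ_of_srt (S : Setup hA A A' M) [FiniteDimensional K V] {c c' : V}
    (hc : c ∈ A) (hc0 : c ≠ 0) (hcc' : B c c' = 0) (hc' : c' ∉ A') (hs : srt hA c c' ∈ M) :
    ∀ v, v ∈ cen hA M := by
  obtain ⟨a2, ha2, b2, hb2, hsum⟩ := S.decomp c'
  have ha20 : a2 ≠ 0 := by
    rintro rfl
    apply hc'
    rw [← hsum, zero_add]
    exact hb2
  have hcb2 : B c b2 = 0 := by
    have := hcc'
    rw [← hsum, map_add, S.isoA c hc a2 ha2, zero_add] at this
    exact this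
  have hcb2' : B c (-b2) = 0 := by simp [hcb2]
  have hb2c : B b2 c = 0 := alt_zero hA hcb2
  have hs2 : srt hA c (-b2) ∈ M := S.srt_mem hc (A'.neg_mem hb2) hcb2'
  have happ : ∀ x, (srt hA c c' * srt hA c (-b2)) x =
      x + B x c • a2 + (B x a2 - B x c * B b2 a2) • c := by
    intro x
    rw [LinearEquiv.mul_apply, srt_apply hA c (-b2) hcb2', srt_apply hA c c' hcc', ← hsum]
    simp only [map_add, map_smul, map_neg, LinearMap.add_apply, LinearMap.smul_apply,
      LinearMap.neg_apply, smul_eq_mul, hA c, hA b2, hb2c, hcb2, S.isoA c hc a2 ha2]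
    module
  refine S.cen_univ_of_unip (M.mul_mem hs hs2) ?_ ?_
  · intro x hx
    rw [happ, S.isoA x hx c hc, S.isoA x hx a2 ha2]
    simp
  · intro h1
    obtain ⟨x, hx, hxc⟩ := S.exists_pair hc hc0
    have hxc' : B x c ≠ 0 := fun h => hxc (alt_zero hA h)
    have h2 := happ x
    rw [h1] at h2
    have h3 : B x c • a2 + (B x a2 - B x c * B b2 a2) • c = 0 := by
      have h4 : x = x + (B x c • a2 + (B x a2 - B x c * B b2 a2) • c) := by
        rw [← add_assoc]; exact h2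
      exact (left_eq_add.1 h4)
    -- a2 is a multiple of c
    set μ := -((B x a2 - B x c * B b2 a2) / B x c) with hμ
    have h5 : a2 = μ • c := by
      have : B x c • a2 = B x c • (μ • c) := by
        have h4 : B x c * -((B x a2 - B x c * B b2 a2) / B x c) = -(B x a2 - B x c * B b2 a2) := by
          field_simp
        rw [smul_smul, hμ, h4, neg_smul]
        exact eq_neg_of_add_eq_zero_left h3
      exact smul_right_injective V hxc' this
    have h6 : B b2 a2 = 0 := by rw [h5, map_smul, hb2c, smul_zero]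
    have h7 : B x a2 = μ * B x c := by rw [h5, map_smul, smul_eq_mul]
    rw [h6, mul_zero, sub_zero, h7, h5, smul_smul, ← add_smul] at h3
    have h8 : B x c * μ + μ * B x c = 0 := by
      rcases smul_eq_zero.1 h3 with h | h
      · exact h
      · exact absurd h hc0
    have h9 : (2 : K) * (μ * B x c) = 0 := by linear_combination h8
    have h10 : μ = 0 := by
      rcases mul_eq_zero.1 h9 with h | h
      · exact absurd h S.two
      · exact (mul_eq_zero.1 h).resolve_right hxc'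
    apply ha20
    rw [h5, h10, zero_smul]

/-- Claim 2 -/
theorem Setup.cen_univ_of_pair (S : Setup hA A A' M) [FiniteDimensional K V]
    (C C' : Submodule K V) (hC : 3 ≤ finrank K C) (hC' : 3 ≤ finrank K C')
    (hs : ∀ c ∈ C, ∀ c' ∈ C', B c c' = 0 → srt hA c c' ∈ M)
    {c0 : V} (hc0C : c0 ∈ C) (hc0A : c0 ∈ A) (hc00 : c0 ≠ 0) (hnot : ¬ (C ≤ A ∧ C' ≤ A')) :
    ∀ v, v ∈ cen hA M := by
  by_cases hCA : C ≤ A
  · have hC'A' : ¬ C' ≤ A' := fun h => hnot ⟨hCA, h⟩
    obtain ⟨y', hy'C, hy'A⟩ := SetLike.not_le_iff_exists.1 hC'A'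
    obtain ⟨c, hcC, hc0, h1, -⟩ := exists_ker2 C hC (B.flip y') 0
    exact S.cen_univ_of_srt (hCA hcC) hc0 h1 hy'A (hs c hcC y' hy'C h1)
  · obtain ⟨y, hyC, hyA⟩ := SetLike.not_le_iff_exists.1 hCA
    obtain ⟨c', hc'C, hc'0, h1, h2⟩ := exists_ker2 C' hC' (B c0) (B y)
    by_cases hc'A : c' ∈ A'
    · refine S.symm.cen_univ_of_srt hc'A hc'0 (alt_zero hA h2) hyA ?_
      rw [← srt_comm hA y c' h2]
      exact hs y hyC c' hc'C h2
    · exact S.cen_univ_of_srt hc0A hc00 h1 hc'A (hs c0 hc0C c' hc'C h1)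

lemma Setup.srt_map_mem (S : Setup hA A A' M) {g : V ≃ₗ[K] V} (hg : g ∈ M) :
    ∀ c ∈ A.map (g : V →ₗ[K] V), ∀ c' ∈ A'.map (g : V →ₗ[K] V), B c c' = 0 → srt hA c c' ∈ M := by
  rintro _ ⟨a, ha, rfl⟩ _ ⟨b, hb, rfl⟩ h
  have hiso := S.hMiso g hg
  have hab : B a b = 0 := by rw [← hiso]; exact h
  have := conj_srt hA g hiso a b
  simp only [LinearEquiv.coe_coe]
  rw [← this]
  exact M.mul_mem (M.mul_mem hg (S.srt_mem ha hb hab)) (M.inv_mem hg)

/-- the main theorem: a proper overgroup contains all symplectic transvections -/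
theorem Setup.cen_univ (S : Setup hA A A' M) [FiniteDimensional K V] {g : V ≃ₗ[K] V}
    (hgM : g ∈ M) (hg : ¬ InH A A' g) : ∀ v, v ∈ cen hA M := by
  set C := A.map (g : V →ₗ[K] V) with hCdef
  set C' := A'.map (g : V →ₗ[K] V) with hC'def
  have hC : 3 ≤ finrank K C := by rw [hCdef, LinearEquiv.finrank_map_eq]; exact S.dimA
  have hC' : 3 ≤ finrank K C' := by rw [hC'def, LinearEquiv.finrank_map_eq]; exact S.dimA'
  have hs := S.srt_map_mem hgM
  have hs' : ∀ c ∈ C', ∀ c' ∈ C, B c c' = 0 → srt hA c c' ∈ M := by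
    intro c hc c' hc' h
    rw [srt_comm hA c c' h]
    exact hs c' hc' c hc (alt_zero hA h)
  have hle : ∀ (X Y : Submodule K V), X.map (g : V →ₗ[K] V) ≤ Y → ∀ x ∈ X, g x ∈ Y :=
    fun X Y h x hx => h ⟨x, hx, rfl⟩
  by_cases h1 : ∃ x ∈ C, x ∈ A ∧ x ≠ 0
  · obtain ⟨x, hxC, hxA, hx0⟩ := h1
    exact S.cen_univ_of_pair C C' hC hC' hs hxC hxA hx0
      (fun h => hg (Or.inl ⟨hle _ _ h.1, hle _ _ h.2⟩))
  by_cases h2 : ∃ x ∈ C, x ∈ A' ∧ x ≠ 0
  · obtain ⟨x, hxC, hxA, hx0⟩ := h2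
    exact S.symm.cen_univ_of_pair C C' hC hC' hs hxC hxA hx0
      (fun h => hg (Or.inr ⟨hle _ _ h.1, hle _ _ h.2⟩))
  by_cases h3 : ∃ x ∈ C', x ∈ A ∧ x ≠ 0
  · obtain ⟨x, hxC, hxA, hx0⟩ := h3
    exact S.cen_univ_of_pair C' C hC' hC hs' hxC hxA hx0
      (fun h => hg (Or.inr ⟨hle _ _ h.2, hle _ _ h.1⟩))
  by_cases h4 : ∃ x ∈ C', x ∈ A' ∧ x ≠ 0
  · obtain ⟨x, hxC, hxA, hx0⟩ := h4
    exact S.symm.cen_univ_of_pair C' C hC' hC hs' hxC hxA hx0
      (fun h => hg (Or.inl ⟨hle _ _ h.2, hle _ _ h.1⟩))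
  push Not at h1 h2 h3 h4
  -- general position
  obtain ⟨c, hcC, hc0, -, -⟩ := exists_ker2 C hC 0 0
  obtain ⟨c', hc'C, hc'0, hcc', -⟩ := exists_ker2 C' hC' (B c) 0
  have hcA : c ∉ A := fun h => hc0 (h1 c hcC h)
  have hc'A : c' ∉ A := fun h => hc'0 (h3 c' hc'C h)
  have hg' : srt hA c c' ∈ M := hs c hcC c' hc'C hcc'
  obtain ⟨x0, hx0A, hx00, e1, e2⟩ := exists_ker2 A S.dimA (B.flip c) (B.flip c')
  have e1' : B x0 c = 0 := e1
  have e2' : B x0 c' = 0 := e2
  have hfix : srt hA c c' x0 = x0 := by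
    rw [srt_apply hA c c' hcc', e1', e2']; simp
  refine S.cen_univ_of_pair (A.map (srt hA c c' : V →ₗ[K] V)) (A'.map (srt hA c c' : V →ₗ[K] V))
    (by rw [LinearEquiv.finrank_map_eq]; exact S.dimA)
    (by rw [LinearEquiv.finrank_map_eq]; exact S.dimA') (S.srt_map_mem hg')
    ⟨x0, hx0A, hfix⟩ hx0A hx00 ?_
  rintro ⟨h5, -⟩
  obtain ⟨x, hxA, hx1, hx2⟩ := exists_both_ne_zero A (B.flip c) (B.flip c')
    (by
      by_contra hcon
      push Not at hcon
      exact hcA (S.perp c hcon))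
    (by
      by_contra hcon
      push Not at hcon
      exact hc'A (S.perp c' hcon))
  have hx1' : B x c ≠ 0 := hx1
  have hx2' : B x c' ≠ 0 := hx2
  have h6 : srt hA c c' x ∈ A := h5 ⟨x, hxA, rfl⟩
  have h7 := S.isoA x hxA _ h6
  rw [srt_apply hA c c' hcc'] at h7
  simp only [map_add, map_smul, smul_eq_mul, hA x] at h7
  have h8 : (2 : K) * (B x c * B x c') = 0 := by linear_combination h7
  rcases mul_eq_zero.1 h8 with h | h
  · exact S.two h
  · rcases mul_eq_zero.1 h with h | h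
    · exact hx1' h
    · exact hx2' h

end Cfsg.Agent.Lib.Helper96Lagr
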