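import Cfsg.Agent.Lib.Helper95Quad
import Cfsg.Agent.Lib.Helper96Lagr

set_option autoImplicit false
set_option linter.unusedSimpArgs false

namespace Cfsg.Agent.Lib.Helper96Orth

open Module Cfsg.Agent.Lib.Helper95Sp Cfsg.Agent.Lib.Helper95Quad Cfsg.Agent.Lib.Helper96Lagr

variable {K V : Type*} [Field K] [AddCommGroup V] [Module K V]
variable {B : LinearMap.BilinForm K V} {Q : V → K}

/-- the Eichler transformation (trivial when the side conditions fail) -/
noncomputable def ei (h : QF B Q) (e w : V) : V ≃ₗ[K] V :=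
  open Classical in if hh : Q e = 0 ∧ B e w = 0 then h.eich e w hh.1 hh.2 else 1

lemma ei_apply (h : QF B Q) {e w : V} (he : Q e = 0) (hw : B e w = 0) (x : V) :
    ei h e w x = x + B x e • w - B x w • e - (Q w * B x e) • e := by
  rw [ei, dif_pos ⟨he, hw⟩, h.eich_apply, h.symm e x, h.symm w x]

lemma ei_apply' (h : QF B Q) {e w : V} (he : Q e = 0) (hw : B e w = 0) (hQw : Q w = 0) (x : V) :
    ei h e w x = x + B x e • w - B x w • e := by
  rw [ei_apply h he hw, hQw, zero_mul, zero_smul, sub_zero]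

lemma ei_Q (h : QF B Q) (e w x : V) : Q (ei h e w x) = Q x := by
  by_cases hh : Q e = 0 ∧ B e w = 0
  · rw [ei, dif_pos hh, h.eich_Q]
  · rw [ei, dif_neg hh]
    rfl

lemma conj_ei (h : QF B Q) (g : V ≃ₗ[K] V) (hg : ∀ x, Q (g x) = Q x) (e w : V) :
    g * ei h e w * g⁻¹ = ei h (g e) (g w) := by
  have hgB := h.isoB g hg
  by_cases hh : Q e = 0 ∧ B e w = 0
  · have he' : Q (g e) = 0 := by rw [hg, hh.1]
    have hw' : B (g e) (g w) = 0 := by rw [hgB, hh.2]
    ext x
    have h1 : g (g⁻¹ x) = x := g.apply_symm_apply x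
    have h2 : ∀ v, B (g⁻¹ x) v = B x (g v) := fun v => by rw [← hgB, h1]
    rw [LinearEquiv.mul_apply, LinearEquiv.mul_apply, ei_apply h hh.1 hh.2, ei_apply h he' hw',
      map_sub, map_sub, map_add, map_smul, map_smul, map_smul, h1, h2, h2, hg]
  · have hh' : ¬ (Q (g e) = 0 ∧ B (g e) (g w) = 0) := by rw [hg, hgB]; exact hh
    rw [ei, ei, dif_neg hh, dif_neg hh']
    group

lemma ei_add (h : QF B Q) {e w w' : V} (he : Q e = 0) (hw : B e w = 0) (hw' : B e w' = 0) :
    ei h e w * ei h e w' = ei h e (w + w') := by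
  have hww : B e (w + w') = 0 := by rw [map_add, hw, hw', add_zero]
  have hee : B e e = 0 := by rw [h.self, he, mul_zero]
  ext x
  simp only [LinearEquiv.mul_apply, ei_apply h he hw, ei_apply h he hw', ei_apply h he hww,
    map_add, map_sub, map_smul, LinearMap.add_apply, LinearMap.sub_apply, LinearMap.smul_apply,
    smul_eq_mul, hee, hw, hw', h.symm w e, h.symm w' e, h.add, h.symm w' w]
  module

lemma ei_zero (h : QF B Q) (e : V) : ei h e 0 = 1 := by
  by_cases he : Q e = 0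
  · ext x
    rw [ei_apply h he (map_zero _), h.zero]
    simp
  · rw [ei, dif_neg (fun hh => he hh.1)]

lemma ei_inv (h : QF B Q) {e w : V} (he : Q e = 0) (hw : B e w = 0) :
    (ei h e w)⁻¹ = ei h e (-w) := by
  rw [inv_eq_iff_mul_eq_one, ei_add h he hw (by rw [map_neg, hw, neg_zero]), add_neg_cancel, ei_zero]

lemma ei_swap (h : QF B Q) {e w : V} (he : Q e = 0) (hw : B e w = 0) (hQw : Q w = 0) :
    ei h e w = ei h w (-e) := by
  ext x
  rw [ei_apply' h he hw hQw, ei_apply' h hQw (by rw [map_neg, h.symm, hw, neg_zero])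
    (by rw [h.neg, he])]
  simp only [map_neg]
  module

lemma ei_smul (h : QF B Q) {e w : V} (he : Q e = 0) (hw : B e w = 0) (c : K) :
    ei h (c • e) w = ei h e (c • w) := by
  ext x
  rw [ei_apply h (by rw [h.smul, he, mul_zero]) (by rw [map_smul, LinearMap.smul_apply, hw, smul_zero]),
    ei_apply h he (by rw [map_smul, hw, smul_zero]), h.smul]
  simp only [map_smul, smul_eq_mul]
  module

/-- a nonzero vector of a subspace killed by `m` functionals -/
lemma exists_kerN [FiniteDimensional K V] (S : Submodule K V) (m : ℕ) (φ : Fin m → Dual K V)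
    (hm : m < finrank K S) : ∃ x ∈ S, x ≠ 0 ∧ ∀ i, φ i x = 0 := by
  have h1 : LinearMap.ker ((LinearMap.pi φ) ∘ₗ S.subtype) ≠ ⊥ := by
    apply LinearMap.ker_ne_bot_of_finrank_lt
    rw [Module.finrank_fin_fun]
    exact hm
  obtain ⟨x, hx, hx0⟩ := Submodule.exists_mem_ne_zero_of_ne_bot h1
  rw [LinearMap.mem_ker] at hx
  exact ⟨x, x.2, fun h => hx0 (Subtype.ext h), fun i => congrFun hx i⟩

lemma exists_ker4 [FiniteDimensional K V] (S : Submodule K V) (hS : 5 ≤ finrank K S)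
    (φ₁ φ₂ φ₃ φ₄ : Dual K V) : ∃ x ∈ S, x ≠ 0 ∧ φ₁ x = 0 ∧ φ₂ x = 0 ∧ φ₃ x = 0 ∧ φ₄ x = 0 := by
  obtain ⟨x, hx, hx0, h⟩ := exists_kerN S 4 ![φ₁, φ₂, φ₃, φ₄] (by omega)
  exact ⟨x, hx, hx0, h 0, h 1, h 2, h 3⟩

lemma polar_zero_of_ts (h : QF B Q) (C : Submodule K V) (hC : ∀ x ∈ C, Q x = 0) :
    ∀ x ∈ C, ∀ y ∈ C, B x y = 0 := by
  intro x hx y hy
  have := h.add x y
  rw [hC _ (C.add_mem hx hy), hC x hx, hC y hy] at this
  linear_combination -this

lemma finrank_sup_span_le [FiniteDimensional K V] (W : Submodule K V) (x : V) :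
    finrank K (W ⊔ Submodule.span K {x} : Submodule K V) ≤ finrank K W + 1 := by
  have h1 := Submodule.finrank_add_le_finrank_add_finrank W (Submodule.span K {x})
  have h2 : finrank K (Submodule.span K {x}) ≤ 1 := by
    by_cases hx : x = 0
    · rw [hx, Submodule.span_zero_singleton, finrank_bot]
      omega
    · rw [finrank_span_singleton hx]
  omega

lemma map_mul_eq (X : Submodule K V) (s t : V ≃ₗ[K] V) :
    X.map ((s * t : V ≃ₗ[K] V) : V →ₗ[K] V) = (X.map (t : V →ₗ[K] V)).map (s : V →ₗ[K] V) := by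
  rw [← Submodule.map_comp]
  rfl

/-- root elements are transitive on each family of maximal totally singular subspaces -/
theorem exists_move_max [FiniteDimensional K V] (h : QF B Q) {T : Subgroup (V ≃ₗ[K] V)}
    (hT : ∀ e w, ei h e w ∈ T) (A : Submodule K V)
    (hA : ∀ x ∈ A, Q x = 0) (hAp : ∀ x, (∀ a ∈ A, B x a = 0) → x ∈ A) (m : ℕ) :
    ∀ C : Submodule K V, (∀ x ∈ C, Q x = 0) → finrank K C = finrank K A →
      finrank K A = finrank K (A ⊓ C : Submodule K V) + 2 * m →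
      ∃ t ∈ T, (∀ x, Q (t x) = Q x) ∧ C.map (t : V →ₗ[K] V) = A := by
  induction m with
  | zero =>
    intro C hC hfr hle
    have h1 : A ⊓ C = A := Submodule.eq_of_le_of_finrank_le inf_le_left (by omega)
    have h2 : A ≤ C := by rw [← h1]; exact inf_le_right
    have h3 : A = C := Submodule.eq_of_le_of_finrank_eq h2 hfr.symm
    refine ⟨1, T.one_mem, fun x => rfl, ?_⟩
    rw [h3]
    exact Submodule.map_id C
  | succ m ih =>
    intro C hC hfr hle
    have hAB := polar_zero_of_ts h A hA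
    have hCB := polar_zero_of_ts h C hC
    have hCA : ¬ C ≤ A := by
      intro hCA
      have : A ⊓ C = C := inf_eq_right.2 hCA
      rw [this] at hle
      omega
    obtain ⟨b1, hb1C, hb1A⟩ := SetLike.not_le_iff_exists.1 hCA
    obtain ⟨a2', ha2', h12⟩ : ∃ a ∈ A, B b1 a ≠ 0 := by
      by_contra hcon
      push Not at hcon
      exact hb1A (hAp b1 hcon)
    obtain ⟨a2, ha2, e12⟩ : ∃ a2 ∈ A, B b1 a2 = -1 := by
      refine ⟨(-(B b1 a2')⁻¹) • a2', A.smul_mem _ ha2', ?_⟩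
      rw [map_smul, smul_eq_mul]
      field_simp
    have hnle : ¬ C ≤ (A ⊓ C) ⊔ Submodule.span K {b1} := by
      intro hle'
      have h1 := Submodule.finrank_mono hle'
      have h2 := finrank_sup_span_le (A ⊓ C) b1
      omega
    obtain ⟨b2', hb2'C, hb2'⟩ := SetLike.not_le_iff_exists.1 hnle
    obtain ⟨b2, hb2C, e22, hb2A⟩ : ∃ b2 ∈ C, B b2 a2 = 0 ∧ b2 ∉ A := by
      refine ⟨b2' + B b2' a2 • b1, C.add_mem hb2'C (C.smul_mem _ hb1C), ?_, ?_⟩
      · rw [map_add, LinearMap.add_apply, map_smul, LinearMap.smul_apply, e12, smul_eq_mul]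
        ring
      · intro h0
        apply hb2'
        have h1 : b2' = (b2' + B b2' a2 • b1) + (-(B b2' a2)) • b1 := by module
        rw [h1]
        exact Submodule.add_mem _
          (Submodule.mem_sup_left ⟨h0, C.add_mem hb2'C (C.smul_mem _ hb1C)⟩)
          (Submodule.mem_sup_right (Submodule.smul_mem _ _ (Submodule.mem_span_singleton_self b1)))
    obtain ⟨a, ha, h2a⟩ : ∃ a ∈ A, B b2 a ≠ 0 := by
      by_contra hcon
      push Not at hcon
      exact hb2A (hAp b2 hcon)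
    obtain ⟨a1, ha1, e11, e21⟩ : ∃ a1 ∈ A, B b1 a1 = 0 ∧ B b2 a1 = 1 := by
      refine ⟨(B b2 a)⁻¹ • (a + B b1 a • a2), A.smul_mem _ (A.add_mem ha (A.smul_mem _ ha2)), ?_, ?_⟩
      · simp only [map_smul, map_add, smul_eq_mul, e12]
        ring
      · simp only [map_smul, map_add, smul_eq_mul, e22]
        field_simp
        ring
    have hQc1 : Q (b1 - a1) = 0 := by rw [h.sub, hC b1 hb1C, hA a1 ha1, e11]; ring
    have hQc2 : Q (b2 - a2) = 0 := by rw [h.sub, hC b2 hb2C, hA a2 ha2, e22]; ring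
    have hc12 : B (b1 - a1) (b2 - a2) = 0 := by
      simp only [map_sub, LinearMap.sub_apply, hCB b1 hb1C b2 hb2C, e12, h.symm a1 b2, e21,
        hAB a1 ha1 a2 ha2]
      ring
    set t := ei h (b1 - a1) (b2 - a2) with htdef
    have htT : t ∈ T := hT _ _
    have htQ : ∀ x, Q (t x) = Q x := ei_Q h _ _
    have htC : ∀ x ∈ C, t x = x - B x a1 • (b2 - a2) + B x a2 • (b1 - a1) := by
      intro x hx
      rw [htdef, ei_apply' h hQc1 hc12 hQc2]
      simp only [map_sub, hCB x hx b1 hb1C, hCB x hx b2 hb2C]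
      module
    have htb1 : t b1 = a1 := by
      rw [htC b1 hb1C, e11, e12]; module
    have htb2 : t b2 = a2 := by
      rw [htC b2 hb2C, e21, e22]; module
    have htfix : ∀ x ∈ A ⊓ C, t x = x := by
      intro x hx
      rw [htC x hx.2, hAB x hx.1 a1 ha1, hAB x hx.1 a2 ha2]
      simp
    set C1 := C.map (t : V →ₗ[K] V) with hC1
    have hC1Q : ∀ x ∈ C1, Q x = 0 := by
      rintro _ ⟨x, hx, rfl⟩
      simp only [LinearEquiv.coe_coe]
      rw [htQ]
      exact hC x hx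
    -- lower bound
    have hlt1 : A ⊓ C < (A ⊓ C) ⊔ Submodule.span K {a1} := by
      refine lt_of_le_of_ne le_sup_left ?_
      intro heq
      have : a1 ∈ A ⊓ C := by
        rw [heq]
        exact Submodule.mem_sup_right (Submodule.mem_span_singleton_self a1)
      have h0 := hCB b2 hb2C a1 this.2
      rw [e21] at h0
      exact one_ne_zero h0
    have hlt2 : (A ⊓ C) ⊔ Submodule.span K {a1} <
        ((A ⊓ C) ⊔ Submodule.span K {a1}) ⊔ Submodule.span K {a2} := by
      refine lt_of_le_of_ne le_sup_left ?_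
      intro heq
      have : a2 ∈ (A ⊓ C) ⊔ Submodule.span K {a1} := by
        rw [heq]
        exact Submodule.mem_sup_right (Submodule.mem_span_singleton_self a2)
      obtain ⟨w, hw, y, hy, hwy⟩ := Submodule.mem_sup.1 this
      obtain ⟨c, rfl⟩ := Submodule.mem_span_singleton.1 hy
      have h0 := e12
      rw [← hwy, map_add, map_smul, hCB b1 hb1C w hw.2, e11] at h0
      simp at h0
    have hle3 : ((A ⊓ C) ⊔ Submodule.span K {a1}) ⊔ Submodule.span K {a2} ≤ A ⊓ C1 := by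
      refine sup_le (sup_le ?_ ?_) ?_
      · intro x hx
        exact ⟨hx.1, ⟨x, hx.2, htfix x hx⟩⟩
      · rw [Submodule.span_singleton_le_iff_mem]
        exact ⟨ha1, ⟨b1, hb1C, htb1⟩⟩
      · rw [Submodule.span_singleton_le_iff_mem]
        exact ⟨ha2, ⟨b2, hb2C, htb2⟩⟩
    have hlow : finrank K (A ⊓ C : Submodule K V) + 2 ≤ finrank K (A ⊓ C1 : Submodule K V) := by
      have h1 := Submodule.finrank_lt_finrank_of_lt hlt1
      have h2 := Submodule.finrank_lt_finrank_of_lt hlt2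
      have h3 := Submodule.finrank_mono hle3
      omega
    -- upper bound
    have hle4 : A ⊓ C1 ≤
        (((A ⊓ C) ⊔ Submodule.span K {b1}) ⊔ Submodule.span K {b2}).map (t : V →ₗ[K] V) := by
      rintro _ ⟨hyA, ⟨x, hx, rfl⟩⟩
      refine ⟨x, ?_, rfl⟩
      simp only [LinearEquiv.coe_coe] at hyA
      have h1 : x - B x a1 • b2 + B x a2 • b1 ∈ A := by
        have h2 : x - B x a1 • b2 + B x a2 • b1 = t x - B x a1 • a2 + B x a2 • a1 := by
          rw [htC x hx]; module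
        rw [h2]
        exact A.add_mem (A.sub_mem hyA (A.smul_mem _ ha2)) (A.smul_mem _ ha1)
      have h2 : x - B x a1 • b2 + B x a2 • b1 ∈ C :=
        C.add_mem (C.sub_mem hx (C.smul_mem _ hb2C)) (C.smul_mem _ hb1C)
      have h3 : x = (x - B x a1 • b2 + B x a2 • b1) + (-(B x a2)) • b1 + B x a1 • b2 := by module
      rw [h3]
      exact Submodule.add_mem _ (Submodule.mem_sup_left (Submodule.add_mem _
        (Submodule.mem_sup_left ⟨h1, h2⟩)
        (Submodule.mem_sup_right (Submodule.smul_mem _ _ (Submodule.mem_span_singleton_self b1)))))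
        (Submodule.mem_sup_right (Submodule.smul_mem _ _ (Submodule.mem_span_singleton_self b2)))
    have hup : finrank K (A ⊓ C1 : Submodule K V) ≤ finrank K (A ⊓ C : Submodule K V) + 2 := by
      have h1 := Submodule.finrank_mono hle4
      rw [LinearEquiv.finrank_map_eq] at h1
      have h2 := finrank_sup_span_le ((A ⊓ C) ⊔ Submodule.span K {b1}) b2
      have h3 := finrank_sup_span_le (A ⊓ C) b1
      omega
    obtain ⟨t1, ht1T, ht1Q, ht1⟩ := ih C1 hC1Q
      (by rw [hC1, LinearEquiv.finrank_map_eq]; exact hfr) (by omega)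
    refine ⟨t1 * t, T.mul_mem ht1T htT, fun x => ?_, ?_⟩
    · rw [LinearEquiv.mul_apply, ht1Q, htQ]
    · rw [map_mul_eq]
      exact ht1

/-- the pointwise stabiliser of `A` is transitive on the totally singular complements -/
theorem exists_move_compl [FiniteDimensional K V] (h : QF B Q) (hB : B.Nondegenerate)
    {T : Subgroup (V ≃ₗ[K] V)} (hT : ∀ e w, ei h e w ∈ T) (A A' : Submodule K V)
    (hA : ∀ x ∈ A, Q x = 0) (hAp : ∀ x, (∀ a ∈ A, B x a = 0) → x ∈ A)
    (hA' : ∀ x ∈ A', Q x = 0) (hc : IsCompl A A') (m : ℕ) :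
    ∀ C : Submodule K V, (∀ x ∈ C, Q x = 0) → finrank K C = finrank K A' →
      Disjoint A C → finrank K A' ≤ finrank K (A' ⊓ C : Submodule K V) + m →
      ∃ t ∈ T, (∀ x, Q (t x) = Q x) ∧ (∀ x ∈ A, t x = x) ∧ C.map (t : V →ₗ[K] V) = A' := by
  have hAB := polar_zero_of_ts h A hA
  have hA'B := polar_zero_of_ts h A' hA'
  induction m with
  | zero =>
    intro C hC hfr _ hle
    have h1 : A' ⊓ C = A' := Submodule.eq_of_le_of_finrank_le inf_le_left (by omega)
    have h2 : A' ≤ C := by rw [← h1]; exact inf_le_right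
    have h3 : A' = C := Submodule.eq_of_le_of_finrank_eq h2 hfr.symm
    refine ⟨1, T.one_mem, fun x => rfl, fun x _ => rfl, ?_⟩
    rw [h3]
    exact Submodule.map_id C
  | succ m ih =>
    intro C hC hfr hdisj hle
    have hCB := polar_zero_of_ts h C hC
    by_cases hCA : C ≤ A'
    · have h3 : C = A' := Submodule.eq_of_le_of_finrank_eq hCA hfr
      refine ⟨1, T.one_mem, fun x => rfl, fun x _ => rfl, ?_⟩
      rw [h3]
      exact Submodule.map_id A'
    · obtain ⟨b, hbC, hbA⟩ := SetLike.not_le_iff_exists.1 hCA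
      obtain ⟨a, ha, b', hb', hsum⟩ : ∃ a ∈ A, ∃ b' ∈ A', a + b' = b := by
        have : b ∈ A ⊔ A' := by rw [hc.sup_eq_top]; exact Submodule.mem_top
        exact Submodule.mem_sup.1 this
      have hQa : Q a = 0 := hA a ha
      have hb'C : b' ∉ C := by
        intro h0
        have h1 : a ∈ C := by
          have := C.sub_mem hbC h0
          rwa [← hsum, add_sub_cancel_right] at this
        have h2 : a = 0 := by
          have : a ∈ A ⊓ C := ⟨ha, h1⟩
          rw [hdisj.eq_bot] at this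
          simpa using this
        apply hbA
        rw [← hsum, h2, zero_add]
        exact hb'
      have hWa : ∀ x ∈ A' ⊓ C, B x a = 0 := by
        intro x hx
        have h1 := hCB x hx.2 b hbC
        rw [← hsum, map_add, hA'B x hx.1 b' hb', add_zero] at h1
        exact h1
      have hτ : B b' a = 0 := by
        have h1 := hC b hbC
        rw [← hsum, h.add, hQa, hA' b' hb', h.symm] at h1
        linear_combination h1
      have hnot : b' ∉ Submodule.span K ((A : Set V) ∪ ((A' ⊓ C : Submodule K V) : Set V)) := by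
        rw [Submodule.span_union, Submodule.span_eq, Submodule.span_eq]
        intro hmem
        obtain ⟨a1, ha1, w, hw, h1⟩ := Submodule.mem_sup.1 hmem
        have h2 : a1 ∈ A' := by
          have := A'.sub_mem hb' hw.1
          rwa [← h1, add_sub_cancel_right] at this
        have h3 : a1 = 0 := by
          have : a1 ∈ A ⊓ A' := ⟨ha1, h2⟩
          rw [hc.inf_eq_bot] at this
          simpa using this
        apply hb'C
        rw [← h1, h3, zero_add]
        exact hw.2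
      obtain ⟨c0, hc0S, hc0b⟩ := h.exists_perp_ne hB _ _ hnot
      have hc0S' := h.mem_orth _ _ hc0S
      obtain ⟨c, hcA, hcW, hb'c⟩ : ∃ c ∈ A, (∀ x ∈ A' ⊓ C, B x c = 0) ∧ B b' c = 1 := by
        refine ⟨(B c0 b')⁻¹ • c0, A.smul_mem _ (hAp c0 fun a1 ha1 => hc0S' a1 (Or.inl ha1)),
          fun x hx => ?_, ?_⟩
        · rw [map_smul, h.symm x c0, hc0S' x (Or.inr hx), smul_zero]
        · rw [map_smul, h.symm b' c0, smul_eq_mul, inv_mul_cancel₀ hc0b]
      have hac : B a c = 0 := hAB a ha c hcA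
      have hQc : Q c = 0 := hA c hcA
      set t := ei h a c with htdef
      have htT : t ∈ T := hT _ _
      have htQ : ∀ x, Q (t x) = Q x := ei_Q h _ _
      have htA : ∀ x ∈ A, t x = x := by
        intro x hx
        rw [htdef, ei_apply' h hQa hac hQc, hAB x hx a ha, hAB x hx c hcA]
        simp
      have htW : ∀ x ∈ A' ⊓ C, t x = x := by
        intro x hx
        rw [htdef, ei_apply' h hQa hac hQc, hWa x hx, hcW x hx]
        simp
      have htb : t b = b' := by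
        rw [htdef, ei_apply' h hQa hac hQc, ← hsum]
        simp only [map_add, LinearMap.add_apply, hAB a ha a ha, hτ, hac, hb'c]
        module
      set C1 := C.map (t : V →ₗ[K] V) with hC1
      have hC1Q : ∀ x ∈ C1, Q x = 0 := by
        rintro _ ⟨x, hx, rfl⟩
        simp only [LinearEquiv.coe_coe]
        rw [htQ]
        exact hC x hx
      have hdisj1 : Disjoint A C1 := by
        rw [Submodule.disjoint_def]
        rintro _ hxA ⟨x, hx, rfl⟩
        simp only [LinearEquiv.coe_coe] at hxA ⊢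
        have h1 : t (t x) = t x := htA _ hxA
        have h2 : t x = x := t.injective h1
        rw [h2] at hxA ⊢
        exact (Submodule.disjoint_def.1 hdisj) x hxA hx
      have hlt : A' ⊓ C < A' ⊓ C1 := by
        refine lt_of_le_of_ne ?_ ?_
        · intro x hx
          exact ⟨hx.1, ⟨x, hx.2, htW x hx⟩⟩
        · intro heq
          have : b' ∈ A' ⊓ C1 := ⟨hb', ⟨b, hbC, htb⟩⟩
          rw [← heq] at this
          exact hb'C this.2
      have hlt' := Submodule.finrank_lt_finrank_of_lt hlt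
      obtain ⟨t1, ht1T, ht1Q, ht1A, ht1⟩ := ih C1 hC1Q
        (by rw [hC1, LinearEquiv.finrank_map_eq]; exact hfr) hdisj1 (by omega)
      refine ⟨t1 * t, T.mul_mem ht1T htT, fun x => ?_, fun x hx => ?_, ?_⟩
      · rw [LinearEquiv.mul_apply, ht1Q, htQ]
      · rw [LinearEquiv.mul_apply, htA x hx, ht1A x hx]
      · rw [map_mul_eq]
        exact ht1

/-- the data: a pair of complementary totally singular subspaces, the group `Om` and an overgroup
`M` of the stabiliser of the pair in `Om` -/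
structure OSetup (h : QF B Q) (A A' : Submodule K V) (Om M : Subgroup (V ≃ₗ[K] V)) : Prop where
  nd : B.Nondegenerate
  isoA : ∀ x ∈ A, Q x = 0
  isoA' : ∀ x ∈ A', Q x = 0
  compl : IsCompl A A'
  hOm : ∀ e w, ei h e w ∈ Om
  hM : ∀ e ∈ Om, InH A A' e → e ∈ M
  hMiso : ∀ e ∈ M, ∀ x, Q (e x) = Q x
  dimA : 5 ≤ finrank K A
  dimA' : 5 ≤ finrank K A'
  dimEq : finrank K A = finrank K A'
  even : Even (finrank K A)

variable {h : QF B Q} {A A' : Submodule K V} {Om M : Subgroup (V ≃ₗ[K] V)}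

lemma OSetup.symm (S : OSetup h A A' Om M) : OSetup h A' A Om M where
  nd := S.nd
  isoA := S.isoA'
  isoA' := S.isoA
  compl := S.compl.symm
  hOm := S.hOm
  hM := fun e he hh => S.hM e he (by
    rcases hh with hh | hh
    · exact Or.inl ⟨hh.2, hh.1⟩
    · exact Or.inr ⟨hh.2, hh.1⟩)
  hMiso := S.hMiso
  dimA := S.dimA'
  dimA' := S.dimA
  dimEq := S.dimEq.symm
  even := S.dimEq ▸ S.even

lemma OSetup.BA (S : OSetup h A A' Om M) : ∀ x ∈ A, ∀ y ∈ A, B x y = 0 :=
  polar_zero_of_ts h A S.isoA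

lemma OSetup.BA' (S : OSetup h A A' Om M) : ∀ x ∈ A', ∀ y ∈ A', B x y = 0 :=
  polar_zero_of_ts h A' S.isoA'

lemma OSetup.decomp (S : OSetup h A A' Om M) (x : V) : ∃ a ∈ A, ∃ b ∈ A', a + b = x := by
  have : x ∈ A ⊔ A' := by rw [S.compl.sup_eq_top]; exact Submodule.mem_top
  exact Submodule.mem_sup.1 this

lemma OSetup.inter (S : OSetup h A A' Om M) {x : V} (hx : x ∈ A) (hx' : x ∈ A') : x = 0 := by
  have : x ∈ A ⊓ A' := ⟨hx, hx'⟩
  rw [S.compl.inf_eq_bot] at this
  simpa using this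

lemma OSetup.perp (S : OSetup h A A' Om M) (x : V) (hx : ∀ a ∈ A, B x a = 0) : x ∈ A := by
  obtain ⟨a0, ha0, b0, hb0, rfl⟩ := S.decomp x
  have : b0 = 0 := by
    apply S.nd.1
    intro y
    obtain ⟨a, ha, b, hb, rfl⟩ := S.decomp y
    have h1 := hx a ha
    rw [map_add, LinearMap.add_apply, S.BA a0 ha0 a ha, zero_add] at h1
    rw [map_add, h1, S.BA' b0 hb0 b hb, add_zero]
  rw [this, add_zero]
  exact ha0

lemma OSetup.exists_pair (S : OSetup h A A' Om M) {a : V} (ha : a ∈ A) (ha0 : a ≠ 0) :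
    ∃ b ∈ A', B a b ≠ 0 := by
  by_contra hcon
  push Not at hcon
  exact ha0 (S.inter ha (S.symm.perp a hcon))

lemma OSetup.ei_mem (S : OSetup h A A' Om M) {a b : V} (ha : a ∈ A) (hb : b ∈ A')
    (hab : B a b = 0) : ei h a b ∈ M := by
  have hQa := S.isoA a ha
  have hQb := S.isoA' b hb
  refine S.hM _ (S.hOm a b) (Or.inl ⟨fun x hx => ?_, fun x hx => ?_⟩)
  · rw [ei_apply' h hQa hab hQb, S.BA x hx a ha, zero_smul, add_zero]
    exact A.sub_mem hx (A.smul_mem _ ha)
  · rw [ei_apply' h hQa hab hQb, S.BA' x hx b hb, zero_smul, sub_zero]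
    exact A'.add_mem hx (A'.smul_mem _ hb)

lemma OSetup.isoB (S : OSetup h A A' Om M) {e : V ≃ₗ[K] V} (he : e ∈ M) (x y : V) :
    B (e x) (e y) = B x y := h.isoB e (S.hMiso e he) x y

lemma OSetup.sub_mem (S : OSetup h A A' Om M) {u : V ≃ₗ[K] V} (huM : u ∈ M)
    (hu : ∀ a ∈ A, u a = a) (x : V) : u x - x ∈ A := by
  refine S.perp _ fun a ha => ?_
  have := S.isoB huM x a
  rw [hu a ha] at this
  rw [map_sub, LinearMap.sub_apply, this, sub_self]

/-- a commutator computation -/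
lemma OSetup.T1 (S : OSetup h A A' Om M) {u : V ≃ₗ[K] V} (huM : u ∈ M)
    (hu : ∀ a ∈ A, u a = a) {a b : V} (ha : a ∈ A) (hb : b ∈ A') (hab : B a b = 0) :
    ei h (u b - b) a ∈ M := by
  have hiso := S.isoB huM
  have hσ := S.sub_mem huM hu
  have hQa := S.isoA a ha
  have hQb := S.isoA' b hb
  have hQn : Q (u b - b) = 0 := S.isoA _ (hσ b)
  have hna : B (u b - b) a = 0 := S.BA _ (hσ b) a ha
  have hab' : B a (-b) = 0 := by rw [map_neg, hab, neg_zero]
  have hQb' : Q (-b) = 0 := by rw [h.neg, hQb]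
  have hBa : ∀ y, ∀ a ∈ A, B (u y) a = B y a := fun y a ha => by
    have := hiso y a
    rwa [hu a ha] at this
  have hBb : ∀ y, B (u y) b = B y b - B y (u b - b) := fun y => by
    have h1 := hiso y b
    have h2 := hBa y _ (hσ b)
    simp only [map_sub] at h2 ⊢
    linear_combination h1 - h2
  have hs : ei h a b ∈ M := S.ei_mem ha hb hab
  have key : ei h a b * u * ei h a (-b) = ei h (u b - b) a * u := by
    ext x
    simp only [LinearEquiv.mul_apply, ei_apply' h hQa hab hQb, ei_apply' h hQa hab' hQb',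
      ei_apply' h hQn hna hQa]
    simp only [map_add, map_sub, map_smul, map_neg, LinearMap.add_apply, LinearMap.sub_apply,
      LinearMap.smul_apply, LinearMap.neg_apply, smul_eq_mul, hu a ha, hBa _ a ha, hBb,
      h.symm b a, hab, S.BA a ha a ha, S.BA' b hb b hb, h.symm a (u b), hBa b a ha]
    have e1 : B (u x) (u b) = B x b := hiso x b
    have e2 : B b (u b) = 0 := by
      have h3 : Q (u b) = 0 := by rw [S.hMiso u huM, hQb]
      have h4 := h.sub (u b) b
      rw [hQn, h3, hQb, h.symm (u b) b] at h4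
      linear_combination h4
    simp only [e1, e2]
    module
  have h2 : ei h (u b - b) a = ei h a b * u * ei h a (-b) * u⁻¹ := by
    rw [key]; group
  rw [h2, ← ei_inv h hQa hab]
  exact M.mul_mem (M.mul_mem (M.mul_mem hs huM) (M.inv_mem hs)) (M.inv_mem huM)

lemma OSetup.T2 (S : OSetup h A A' Om M) [FiniteDimensional K V] {a0 b : V} (ha0 : a0 ∈ A)
    (hb : b ∈ A') (hb0 : b ≠ 0) (hP : ∀ a ∈ A, B a b = 0 → ei h a0 a ∈ M) :
    ∀ x ∈ A, ei h a0 x ∈ M := by
  have hQa0 := S.isoA a0 ha0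
  obtain ⟨a', ha', hba'⟩ := S.symm.exists_pair hb hb0
  have ha'b : B a' b ≠ 0 := by rw [h.symm]; exact hba'
  obtain ⟨b', hb', hb'0, e1, e2⟩ := exists_ker2 A' (by have := S.dimA'; omega) (B a0) (B a')
  obtain ⟨a1, ha1, hb'a1⟩ := S.symm.exists_pair hb' hb'0
  have ha1b' : B a1 b' ≠ 0 := by rw [h.symm]; exact hb'a1
  obtain ⟨a, ha, hab, hab'⟩ : ∃ a ∈ A, B a b = 0 ∧ B a b' ≠ 0 := by
    refine ⟨a1 - (B a1 b / B a' b) • a', A.sub_mem ha1 (A.smul_mem _ ha'), ?_, ?_⟩
    · simp only [map_sub, map_smul, LinearMap.sub_apply, LinearMap.smul_apply, smul_eq_mul]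
      field_simp
      ring
    · simp only [map_sub, map_smul, LinearMap.sub_apply, LinearMap.smul_apply, smul_eq_mul, e2]
      simpa using ha1b'
  have hs : ei h a' b' ∈ M := S.ei_mem ha' hb' e2
  have hsa0 : ei h a' b' a0 = a0 := by
    rw [ei_apply' h (S.isoA a' ha') e2 (S.isoA' b' hb'), S.BA a0 ha0 a' ha', e1]
    simp
  have hsa : ∀ c : K, ei h a' b' (c • a) = c • (a - B a b' • a') := by
    intro c
    rw [map_smul, ei_apply' h (S.isoA a' ha') e2 (S.isoA' b' hb'), S.BA a ha a' ha']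
    simp
  have h1 : ∀ c : K, ei h a0 (c • (a - B a b' • a')) ∈ M := by
    intro c
    have h2 := conj_ei h _ (S.hMiso _ hs) a0 (c • a)
    rw [hsa0, hsa] at h2
    rw [← h2]
    exact M.mul_mem (M.mul_mem hs (hP _ (A.smul_mem c ha)
      (by rw [map_smul, LinearMap.smul_apply, hab, smul_zero]))) (M.inv_mem hs)
  have ha'' : a - B a b' • a' ∈ A := A.sub_mem ha (A.smul_mem _ ha')
  have hne : B (a - B a b' • a') b ≠ 0 := by
    simp only [map_sub, map_smul, LinearMap.sub_apply, LinearMap.smul_apply, smul_eq_mul, hab]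
    simpa using ⟨hab', ha'b⟩
  intro x hx
  set a'' := a - B a b' • a' with ha''def
  have h3 : x = (x - (B x b / B a'' b) • a'') + (B x b / B a'' b) • a'' := by abel
  rw [h3, ← ei_add h hQa0 (S.BA a0 ha0 _ (A.sub_mem hx (A.smul_mem _ ha'')))
    (S.BA a0 ha0 _ (A.smul_mem _ ha''))]
  refine M.mul_mem (hP _ (A.sub_mem hx (A.smul_mem _ ha'')) ?_) (h1 _)
  simp only [map_sub, map_smul, LinearMap.sub_apply, LinearMap.smul_apply, smul_eq_mul]
  field_simp
  ring

lemma OSetup.T3 (S : OSetup h A A' Om M) {a0 : V} (ha0 : a0 ∈ A) (ha00 : a0 ≠ 0)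
    (hP : ∀ x ∈ A, ei h a0 x ∈ M) : ∀ a1 ∈ A, ∀ x ∈ A, ei h a1 x ∈ M := by
  intro a1 ha1 x hx
  have hQa0 := S.isoA a0 ha0
  obtain ⟨b1, hb1, h01⟩ := S.exists_pair ha0 ha00
  by_cases hdep : ∃ b ∈ A', B a0 b = 0 ∧ B a1 b ≠ 0
  · obtain ⟨b0, hb0, h00, h10⟩ := hdep
    obtain ⟨b, hb, e0, e1⟩ : ∃ b ∈ A', B a0 b = 1 ∧ B a1 b = 1 := by
      refine ⟨((1 - (B a0 b1)⁻¹ * B a1 b1) / B a1 b0) • b0 + (B a0 b1)⁻¹ • b1,
        A'.add_mem (A'.smul_mem _ hb0) (A'.smul_mem _ hb1), ?_, ?_⟩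
      · simp only [map_add, map_smul, smul_eq_mul, h00]
        field_simp
        ring
      · simp only [map_add, map_smul, smul_eq_mul]
        field_simp
        ring
    have hd : a0 - a1 ∈ A := A.sub_mem ha0 ha1
    have e3 : B (a0 - a1) b = 0 := by
      rw [map_sub, LinearMap.sub_apply, e0, e1, sub_self]
    have hs : ei h (a0 - a1) b ∈ M := S.ei_mem hd hb e3
    have hsA : ∀ y ∈ A, ei h (a0 - a1) b y = y - B y b • (a0 - a1) := by
      intro y hy
      rw [ei_apply' h (S.isoA _ hd) e3 (S.isoA' b hb), S.BA y hy _ hd]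
      simp
    have hy : x + B x b • (a0 - a1) ∈ A := A.add_mem hx (A.smul_mem _ hd)
    have h2 := conj_ei h _ (S.hMiso _ hs) a0 (x + B x b • (a0 - a1))
    rw [hsA a0 ha0, hsA _ hy, e0] at h2
    have e4 : a0 - (1 : K) • (a0 - a1) = a1 := by module
    have e5 : x + B x b • (a0 - a1) - B (x + B x b • (a0 - a1)) b • (a0 - a1) = x := by
      rw [map_add, LinearMap.add_apply, map_smul, LinearMap.smul_apply, e3]
      module
    rw [e4, e5] at h2
    rw [← h2]
    exact M.mul_mem (M.mul_mem hs (hP _ hy)) (M.inv_mem hs)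
  · push Not at hdep
    have h1 : a1 = (B a1 b1 / B a0 b1) • a0 := by
      rw [← sub_eq_zero]
      refine S.inter (A.sub_mem ha1 (A.smul_mem _ ha0)) (S.symm.perp _ fun b hb => ?_)
      have h2 := hdep (b - (B a0 b / B a0 b1) • b1) (A'.sub_mem hb (A'.smul_mem _ hb1)) (by
        simp only [map_sub, map_smul, smul_eq_mul]
        field_simp
        ring)
      simp only [map_sub, map_smul, smul_eq_mul] at h2
      simp only [map_sub, map_smul, LinearMap.sub_apply, LinearMap.smul_apply, smul_eq_mul]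
      field_simp
      field_simp at h2
      linear_combination h2
    rw [h1, ei_smul h hQa0 (S.BA a0 ha0 x hx)]
    exact hP _ (A.smul_mem _ hx)

/-- a nontrivial element fixing `A` pointwise gives all root elements inside `A` -/
lemma OSetup.LA_of_unip (S : OSetup h A A' Om M) [FiniteDimensional K V] {u : V ≃ₗ[K] V}
    (huM : u ∈ M) (hu : ∀ a ∈ A, u a = a) (hne : u ≠ 1) : ∀ a1 ∈ A, ∀ x ∈ A, ei h a1 x ∈ M := by
  obtain ⟨b, hb, hub⟩ : ∃ b ∈ A', u b ≠ b := by
    by_contra hcon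
    push Not at hcon
    apply hne
    ext x
    obtain ⟨a, ha, b, hb, rfl⟩ := S.decomp x
    rw [map_add, hu a ha, hcon b hb]
    rfl
  have hb0 : b ≠ 0 := by
    rintro rfl
    exact hub (map_zero u)
  exact S.T3 (S.sub_mem huM hu b) (sub_ne_zero.2 hub)
    (S.T2 (S.sub_mem huM hu b) hb hb0 fun a ha hab => S.T1 huM hu ha hb hab)

lemma OSetup.exists_swap (S : OSetup h A A' Om M) [FiniteDimensional K V] :
    ∃ J ∈ M, (∀ x ∈ A, J x ∈ A') ∧ (∀ x ∈ A', J x ∈ A) := by
  obtain ⟨m, hm⟩ := S.even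
  obtain ⟨t1, ht1T, ht1Q, ht1⟩ := exists_move_max h S.hOm A S.isoA S.perp m A' S.isoA'
    S.dimEq.symm (by rw [S.compl.inf_eq_bot, finrank_bot]; omega)
  set C1 := A.map (t1 : V →ₗ[K] V) with hC1
  have hC1Q : ∀ x ∈ C1, Q x = 0 := by
    rintro _ ⟨x, hx, rfl⟩
    simp only [LinearEquiv.coe_coe]
    rw [ht1Q]
    exact S.isoA x hx
  have hdisj : Disjoint A C1 := by
    rw [Submodule.disjoint_def]
    rintro _ hxA ⟨x, hx, rfl⟩
    rw [← ht1] at hxA
    obtain ⟨y, hy, hyx⟩ := hxA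
    have h1 : y = x := t1.injective hyx
    have h2 : x = 0 := S.inter hx (h1 ▸ hy)
    rw [h2]
    simp
  obtain ⟨t2, ht2T, -, ht2A, ht2⟩ := exists_move_compl h S.nd S.hOm A A' S.isoA S.perp S.isoA'
    S.compl (finrank K A') C1 hC1Q (by rw [hC1, LinearEquiv.finrank_map_eq]; exact S.dimEq) hdisj
    (by omega)
  have hA : ∀ x ∈ A, (t2 * t1) x ∈ A' := by
    intro x hx
    rw [LinearEquiv.mul_apply, ← ht2]
    exact ⟨t1 x, ⟨x, hx, rfl⟩, rfl⟩
  have hA' : ∀ x ∈ A', (t2 * t1) x ∈ A := by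
    intro x hx
    have h1 : t1 x ∈ A := by rw [← ht1]; exact ⟨x, hx, rfl⟩
    rw [LinearEquiv.mul_apply, ht2A _ h1]
    exact h1
  exact ⟨t2 * t1, S.hM _ (Om.mul_mem ht2T ht1T) (Or.inr ⟨hA, hA'⟩), hA, hA'⟩

/-- Eichler transformations with centre in `A` -/
lemma OSetup.ei_mem_of_LA (S : OSetup h A A' Om M) (hLA : ∀ a1 ∈ A, ∀ x ∈ A, ei h a1 x ∈ M)
    {a : V} (ha : a ∈ A) (w : V) (hw : B a w = 0) : ei h a w ∈ M := by
  obtain ⟨wa, hwa, wb, hwb, rfl⟩ := S.decomp w
  have h1 : B a wa = 0 := S.BA a ha wa hwa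
  have h2 : B a wb = 0 := by
    rw [map_add, h1, zero_add] at hw
    exact hw
  rw [← ei_add h (S.isoA a ha) h1 h2]
  exact M.mul_mem (hLA a ha wa hwa) (S.ei_mem ha hwb h2)

/-- a nontrivial element of `M` fixing `A` pointwise forces all Eichler transformations into `M` -/
theorem OSetup.univ_of_unip (S : OSetup h A A' Om M) [FiniteDimensional K V] {u : V ≃ₗ[K] V}
    (huM : u ∈ M) (hu : ∀ a ∈ A, u a = a) (hne : u ≠ 1) : ∀ e w, ei h e w ∈ M := by
  have hLA := S.LA_of_unip huM hu hne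
  obtain ⟨J, hJM, hJA, hJA'⟩ := S.exists_swap
  have hLA' : ∀ b1 ∈ A', ∀ x ∈ A', ei h b1 x ∈ M := by
    intro b1 hb1 x hx
    have h1 := conj_ei h J⁻¹ (S.hMiso _ (M.inv_mem hJM)) (J b1) (J x)
    have h2 : ∀ y, J⁻¹ (J y) = y := fun y => J.symm_apply_apply y
    rw [h2, h2] at h1
    rw [← h1]
    exact M.mul_mem (M.mul_mem (M.inv_mem hJM) (hLA _ (hJA' b1 hb1) _ (hJA' x hx)))
      (M.inv_mem (M.inv_mem hJM))
  intro e w
  by_cases hh : Q e = 0 ∧ B e w = 0
  · obtain ⟨he, hw⟩ := hh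
    obtain ⟨a, ha, b, hb, rfl⟩ := S.decomp e
    by_cases ha0 : a = 0
    · rw [ha0, zero_add] at hw ⊢
      exact S.symm.ei_mem_of_LA hLA' hb w hw
    · have hab : B a b = 0 := by
        rw [h.add, S.isoA a ha, S.isoA' b hb] at he
        linear_combination he
      obtain ⟨b0, hb0, h1⟩ := S.exists_pair ha ha0
      obtain ⟨b2, hb2, h2⟩ : ∃ b2 ∈ A', B a b2 = 1 :=
        ⟨(B a b0)⁻¹ • b0, A'.smul_mem _ hb0, by rw [map_smul, smul_eq_mul, inv_mul_cancel₀ h1]⟩
      have hm : ei h b b2 ∈ M := hLA' b hb b2 hb2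
      have hme : ei h b b2 (a + b) = a := by
        rw [ei_apply' h (S.isoA' b hb) (S.BA' b hb b2 hb2) (S.isoA' b2 hb2)]
        simp only [map_add, LinearMap.add_apply, hab, S.BA' b hb b hb, h2, S.BA' b hb b2 hb2]
        module
      have h3 := conj_ei h _ (S.hMiso _ hm) (a + b) w
      rw [hme] at h3
      have h4 : ei h a (ei h b b2 w) ∈ M := by
        refine S.ei_mem_of_LA hLA ha _ ?_
        rw [← hme, S.isoB hm]
        exact hw
      have h5 : ei h (a + b) w = (ei h b b2)⁻¹ * ei h a (ei h b b2 w) * ei h b b2 := by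
        rw [← h3]; group
      rw [h5]
      exact M.mul_mem (M.mul_mem (M.inv_mem hm) h4) hm
  · rw [ei, dif_neg hh]
    exact M.one_mem

/-- Lemma 1 -/
theorem OSetup.univ_of_ei (S : OSetup h A A' Om M) [FiniteDimensional K V] {c c' bs : V}
    (hc : c ∈ A) (hc0 : c ≠ 0) (hcc' : B c c' = 0) (hs : ei h c c' ∈ M)
    (hbs : bs ∈ A') (h1 : B c bs = 0) (h2 : B c' bs ≠ 0) : ∀ e w, ei h e w ∈ M := by
  obtain ⟨a2, ha2, b2, hb2, hsum⟩ := S.decomp c'
  have hQc := S.isoA c hc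
  have hca2 : B c a2 = 0 := S.BA c hc a2 ha2
  have hcb2 : B c b2 = 0 := by
    have := hcc'
    rw [← hsum, map_add, hca2, zero_add] at this
    exact this
  have hcb2' : B c (-b2) = 0 := by rw [map_neg, hcb2, neg_zero]
  have hu : ei h c a2 ∈ M := by
    have h3 := ei_add h hQc hcc' hcb2'
    have h4 : c' + -b2 = a2 := by rw [← hsum]; abel
    rw [h4] at h3
    rw [← h3]
    exact M.mul_mem hs (S.ei_mem hc (A'.neg_mem hb2) hcb2')
  have ha2bs : B a2 bs ≠ 0 := by
    rw [← hsum, map_add, LinearMap.add_apply, S.BA' b2 hb2 bs hbs, add_zero] at h2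
    exact h2
  refine S.univ_of_unip hu ?_ ?_
  · intro x hx
    rw [ei_apply' h hQc hca2 (S.isoA a2 ha2), S.BA x hx c hc, S.BA x hx a2 ha2]
    simp
  · intro h3
    have h4 := ei_apply' h hQc hca2 (S.isoA a2 ha2) bs
    rw [h3, h.symm bs c, h1, h.symm bs a2] at h4
    have h5 : B a2 bs • c = 0 := by
      have h6 : bs = bs - B a2 bs • c := by simpa using h4
      have h7 := sub_eq_self.1 h6.symm
      exact h7
    rcases smul_eq_zero.1 h5 with h6 | h6
    · exact ha2bs h6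
    · exact hc0 h6

/-- Claim 2 -/
theorem OSetup.univ_of_pair (S : OSetup h A A' Om M) [FiniteDimensional K V]
    (C C' : Submodule K V) (hC : 5 ≤ finrank K C) (hC' : 5 ≤ finrank K C')
    (hCi : ∀ x ∈ C, Q x = 0) (hCi' : ∀ x ∈ C', Q x = 0)
    (hs : ∀ c ∈ C, ∀ c' ∈ C', B c c' = 0 → ei h c c' ∈ M)
    {c0 : V} (hc0C : c0 ∈ C) (hc0A : c0 ∈ A) (hc00 : c0 ≠ 0) (hnot : ¬ (C ≤ A ∧ C' ≤ A')) :
    ∀ e w, ei h e w ∈ M := by
  by_cases hCA : C ≤ A
  · have hC'A' : ¬ C' ≤ A' := fun h0 => hnot ⟨hCA, h0⟩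
    obtain ⟨y', hy'C, hy'A⟩ := SetLike.not_le_iff_exists.1 hC'A'
    obtain ⟨bs, hbs, hy'bs⟩ : ∃ bs ∈ A', B y' bs ≠ 0 := by
      by_contra hcon
      push Not at hcon
      exact hy'A (S.symm.perp y' hcon)
    obtain ⟨c, hcC, hc0, h1, h2⟩ := exists_ker2 C (by omega) (B.flip y') (B.flip bs)
    exact S.univ_of_ei (hCA hcC) hc0 h1 (hs c hcC y' hy'C h1) hbs h2 hy'bs
  · obtain ⟨y, hyC, hyA⟩ := SetLike.not_le_iff_exists.1 hCA
    obtain ⟨as, has, hyas⟩ : ∃ as ∈ A, B y as ≠ 0 := by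
      by_contra hcon
      push Not at hcon
      exact hyA (S.perp y hcon)
    obtain ⟨b0, hb0, hc0b0⟩ := S.exists_pair hc0A hc00
    obtain ⟨c', hc'C, hc'0, h1, h2, h3, h4⟩ := exists_ker4 C' hC' (B c0) (B y) (B.flip as)
      (B.flip b0)
    have h3' : B c' as = 0 := h3
    have h4' : B c' b0 = 0 := h4
    by_cases hc'A : c' ∈ A'
    · refine S.symm.univ_of_ei hc'A hc'0 (by rw [h.symm]; exact h2) ?_ has h3' hyas
      rw [ei_swap h (hCi' c' hc'C) (by rw [h.symm]; exact h2) (hCi y hyC)]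
      exact hs y hyC _ (C'.neg_mem hc'C) (by rw [map_neg, h2, neg_zero])
    · obtain ⟨b1, hb1, hc'b1⟩ : ∃ b1 ∈ A', B c' b1 ≠ 0 := by
        by_contra hcon
        push Not at hcon
        exact hc'A (S.symm.perp c' hcon)
      refine S.univ_of_ei hc0A hc00 h1 (hs c0 hc0C c' hc'C h1)
        (A'.sub_mem hb1 (A'.smul_mem (B c0 b1 / B c0 b0) hb0)) ?_ ?_
      · simp only [map_sub, map_smul, smul_eq_mul]
        field_simp
        ring
      · simp only [map_sub, map_smul, smul_eq_mul, h4']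
        simpa using hc'b1

lemma OSetup.ei_map_mem (S : OSetup h A A' Om M) {g : V ≃ₗ[K] V}
    (hg : g ∈ M) : ∀ c ∈ A.map (g : V →ₗ[K] V), ∀ c' ∈ A'.map (g : V →ₗ[K] V), B c c' = 0 →
      ei h c c' ∈ M := by
  rintro _ ⟨a, ha, rfl⟩ _ ⟨b, hb, rfl⟩ h0
  have hab : B a b = 0 := by rw [← S.isoB hg]; exact h0
  have := conj_ei h g (S.hMiso g hg) a b
  simp only [LinearEquiv.coe_coe]
  rw [← this]
  exact M.mul_mem (M.mul_mem hg (S.ei_mem ha hb hab)) (M.inv_mem hg)

lemma OSetup.map_iso (S : OSetup h A A' Om M) {g : V ≃ₗ[K] V} (hg : g ∈ M) :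
    ∀ x ∈ A.map (g : V →ₗ[K] V), Q x = 0 := by
  rintro _ ⟨a, ha, rfl⟩
  simp only [LinearEquiv.coe_coe]
  rw [S.hMiso g hg]
  exact S.isoA a ha

/-- a proper overgroup contains all Eichler transformations -/
theorem OSetup.univ (S : OSetup h A A' Om M) [FiniteDimensional K V] {g : V ≃ₗ[K] V}
    (hgM : g ∈ M) (hg : ¬ InH A A' g) : ∀ e w, ei h e w ∈ M := by
  set C := A.map (g : V →ₗ[K] V) with hCdef
  set C' := A'.map (g : V →ₗ[K] V) with hC'def
  have hC : 5 ≤ finrank K C := by rw [hCdef, LinearEquiv.finrank_map_eq]; exact S.dimA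
  have hC' : 5 ≤ finrank K C' := by rw [hC'def, LinearEquiv.finrank_map_eq]; exact S.dimA'
  have hCi : ∀ x ∈ C, Q x = 0 := S.map_iso hgM
  have hCi' : ∀ x ∈ C', Q x = 0 := S.symm.map_iso hgM
  have hs := S.ei_map_mem hgM
  have hs' : ∀ c ∈ C', ∀ c' ∈ C, B c c' = 0 → ei h c c' ∈ M := by
    intro c hc c' hc' h0
    rw [ei_swap h (hCi' c hc) h0 (hCi c' hc')]
    exact hs c' hc' _ (C'.neg_mem hc) (by rw [map_neg, h.symm, h0, neg_zero])
  have hle : ∀ (X Y : Submodule K V), X.map (g : V →ₗ[K] V) ≤ Y → ∀ x ∈ X, g x ∈ Y :=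
    fun X Y h0 x hx => h0 ⟨x, hx, rfl⟩
  by_cases h1 : ∃ x ∈ C, x ∈ A ∧ x ≠ 0
  · obtain ⟨x, hxC, hxA, hx0⟩ := h1
    exact S.univ_of_pair C C' hC hC' hCi hCi' hs hxC hxA hx0
      (fun h0 => hg (Or.inl ⟨hle _ _ h0.1, hle _ _ h0.2⟩))
  by_cases h2 : ∃ x ∈ C, x ∈ A' ∧ x ≠ 0
  · obtain ⟨x, hxC, hxA, hx0⟩ := h2
    exact S.symm.univ_of_pair C C' hC hC' hCi hCi' hs hxC hxA hx0
      (fun h0 => hg (Or.inr ⟨hle _ _ h0.1, hle _ _ h0.2⟩))
  by_cases h3 : ∃ x ∈ C', x ∈ A ∧ x ≠ 0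
  · obtain ⟨x, hxC, hxA, hx0⟩ := h3
    exact S.univ_of_pair C' C hC' hC hCi' hCi hs' hxC hxA hx0
      (fun h0 => hg (Or.inr ⟨hle _ _ h0.2, hle _ _ h0.1⟩))
  by_cases h4 : ∃ x ∈ C', x ∈ A' ∧ x ≠ 0
  · obtain ⟨x, hxC, hxA, hx0⟩ := h4
    exact S.symm.univ_of_pair C' C hC' hC hCi' hCi hs' hxC hxA hx0
      (fun h0 => hg (Or.inl ⟨hle _ _ h0.2, hle _ _ h0.1⟩))
  push Not at h1 h2 h3 h4
  -- general position
  obtain ⟨c', hc'C, hc'0, -, -⟩ := exists_ker2 C' (by omega) 0 0
  have hc'A : c' ∉ A := fun h0 => hc'0 (h3 c' hc'C h0)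
  obtain ⟨as, has, hc'as⟩ : ∃ as ∈ A, B c' as ≠ 0 := by
    by_contra hcon
    push Not at hcon
    exact hc'A (S.perp c' hcon)
  obtain ⟨c, hcC, hc0, hcc', hcas⟩ := exists_ker2 C (by omega) (B.flip c') (B.flip as)
  have hcc'' : B c c' = 0 := hcc'
  have hcas' : B c as = 0 := hcas
  have hcA : c ∉ A := fun h0 => hc0 (h1 c hcC h0)
  have hg' : ei h c c' ∈ M := hs c hcC c' hc'C hcc''
  obtain ⟨x0, hx0A, hx00, e1, e2⟩ := exists_ker2 A (by have := S.dimA; omega) (B.flip c) (B.flip c')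
  have e1' : B x0 c = 0 := e1
  have e2' : B x0 c' = 0 := e2
  have happ := ei_apply' h (hCi c hcC) hcc'' (hCi' c' hc'C)
  have hfix : ei h c c' x0 = x0 := by
    rw [happ, e1', e2']; simp
  refine S.univ_of_pair (A.map (ei h c c' : V →ₗ[K] V)) (A'.map (ei h c c' : V →ₗ[K] V))
    (by rw [LinearEquiv.finrank_map_eq]; exact S.dimA)
    (by rw [LinearEquiv.finrank_map_eq]; exact S.dimA') (S.map_iso hg') (S.symm.map_iso hg')
    (S.ei_map_mem hg') ⟨x0, hx0A, hfix⟩ hx0A hx00 ?_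
  rintro ⟨h5, -⟩
  have h6 : ei h c c' as ∈ A := h5 ⟨as, has, rfl⟩
  rw [happ, h.symm as c, hcas', zero_smul, add_zero, h.symm as c'] at h6
  have h7 : B c' as • c ∈ A := by
    have := A.sub_mem has h6
    rwa [sub_sub_cancel] at this
  exact hcA ((A.smul_mem_iff hc'as).1 h7)

/-- the stabiliser is a proper subgroup -/
theorem OSetup.exists_not_inH (S : OSetup h A A' Om M) [FiniteDimensional K V] :
    ∃ e ∈ Om, ¬ InH A A' e := by
  obtain ⟨a, ha, ha0, -, -⟩ := exists_ker2 A (by have := S.dimA; omega) 0 0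
  obtain ⟨b, hb, hab⟩ := S.exists_pair ha ha0
  obtain ⟨a1, ha1, ha10, h1, -⟩ := exists_ker2 A (by have := S.dimA; omega) (B.flip b) 0
  have h1' : B a1 b = 0 := h1
  have hb0 : b ≠ 0 := by
    rintro rfl
    exact hab (map_zero _)
  have hba : B b a ≠ 0 := by rw [h.symm]; exact hab
  refine ⟨ei h a a1, S.hOm _ _, ?_⟩
  have happ := ei_apply' h (S.isoA a ha) (S.BA a ha a1 ha1) (S.isoA a1 ha1)
  rintro (⟨-, h3⟩ | ⟨h3, -⟩)
  · have h4 := h3 b hb
    rw [happ, h.symm b a1, h1', zero_smul, sub_zero] at h4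
    have h5 : B b a • a1 ∈ A' := by
      have := A'.sub_mem h4 hb
      rwa [add_sub_cancel_left] at this
    exact ha10 (S.inter ha1 ((A'.smul_mem_iff hba).1 h5))
  · have h4 := h3 a ha
    rw [happ, S.BA a ha a ha, S.BA a ha a1 ha1, zero_smul, zero_smul, add_zero, sub_zero] at h4
    exact ha0 (S.inter ha h4)

end Cfsg.Agent.Lib.Helper96Orth
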