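import Cfsg.Prelude.Def_GeometricClasses
import Cfsg.Agent.Lib.Helper49EichGen
import Cfsg.Agent.Lib.Helper95Form
import Cfsg.Agent.Lib.Helper96Orth

set_option autoImplicit false
set_option linter.unusedSectionVars false

namespace Cfsg.Agent.Lib.Helper96OrthStd

open Module Cfsg.Agent.Lib.Helper95Basic Cfsg.Agent.Lib.Helper95Form Cfsg.Agent.Lib.Helper95Quad
  Cfsg.Agent.Lib.Helper96Orth Cfsg.Agent.Lib.Helper49Orth Cfsg.Agent.Lib.Helper49Eich
  Cfsg.Agent.Lib.Helper49EichGen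

variable {ι : Type} [Fintype ι] [DecidableEq ι] {F : Type*} [Field F]
variable {Q : (ι → F) → F}

/-- the polar form as a Mathlib bilinear form -/
noncomputable def stdB (hQ : Cfsg.Geo.IsNondegenerateQuadraticForm Q) :
    LinearMap.BilinForm F (ι → F) :=
  toBilin (QuadraticMap.polar Q) hQ.polar_bilinear

lemma stdB_apply (hQ : Cfsg.Geo.IsNondegenerateQuadraticForm Q) (x y : ι → F) :
    stdB hQ x y = QuadraticMap.polar Q x y := rfl

lemma stdQF (hQ : Cfsg.Geo.IsNondegenerateQuadraticForm Q) : QF (stdB hQ) Q where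
  smul := hQ.smul
  add := fun x y => by
    rw [stdB_apply, QuadraticMap.polar]
    ring

lemma stdB_nondegenerate (hQ : Cfsg.Geo.IsNondegenerateQuadraticForm Q) :
    (stdB hQ).Nondegenerate :=
  toBilin_nondegenerate _ _ hQ.nondegenerate

lemma mem_omegaGL_iff (g : GL ι F) : g ∈ Cfsg.Geo.omegaGL Q ↔
    ∃ y ∈ Cfsg.Omega F Q, ((y : ↥(Cfsg.isometryGroup F Q)) : GL ι F) = g := by
  unfold Cfsg.Geo.omegaGL
  rw [Subgroup.mem_map]
  rfl

lemma iso_of_mem_omegaGL {g : GL ι F} (hg : g ∈ Cfsg.Geo.omegaGL Q) (v : ι → F) :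
    Q ((g : Matrix ι ι F).mulVec v) = Q v := by
  obtain ⟨y, -, rfl⟩ := (mem_omegaGL_iff g).1 hg
  exact iso_apply y v

lemma exists_quad (hQ : Cfsg.Geo.IsNondegenerateQuadraticForm Q) :
    ∃ Q' : QuadraticForm F (ι → F), ⇑Q' = Q := ⟨(stdQF hQ).toQuad, rfl⟩

lemma polarBilin_eq (Q' : QuadraticForm F (ι → F))
    (hQ : Cfsg.Geo.IsNondegenerateQuadraticForm ⇑Q') : QuadraticMap.polarBilin Q' = stdB hQ := by
  ext x y
  rfl

lemma mkGL_ei_eq (Q' : QuadraticForm F (ι → F)) (hQ : Cfsg.Geo.IsNondegenerateQuadraticForm ⇑Q')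
    {e w : ι → F} (he : Q' e = 0) (hw : stdB hQ e w = 0) :
    mkGL (ei (stdQF hQ) e w) = ((E Q' e (-w) : ↥(Cfsg.isometryGroup F ⇑Q')) : GL ι F) := by
  apply gl_ext
  intro x
  have hw' : QuadraticMap.polar (⇑Q') e (-w) = 0 := by
    have h1 : stdB hQ e (-w) = 0 := by rw [map_neg, hw, neg_zero]
    exact h1
  have h2 := E_apply Q' (e := e) (w := -w) he hw' x
  rw [mkGL_mulVec, ei_apply (stdQF hQ) he hw]
  refine Eq.trans ?_ h2.symm
  have e1 : QuadraticMap.polar (⇑Q') x (-w) = - stdB hQ x w := by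
    have : stdB hQ x (-w) = - stdB hQ x w := map_neg _ _
    exact this
  have e2 : QuadraticMap.polar (⇑Q') x e = stdB hQ x e := rfl
  have e3 : Q' (-w) = Q' w := (stdQF hQ).neg w
  rw [e1, e2, e3]
  module

variable [Fintype F]

lemma mkGL_ei_mem (hQ : Cfsg.Geo.IsNondegenerateQuadraticForm Q) (hn : 5 ≤ Fintype.card ι)
    (e w : ι → F) : mkGL (ei (stdQF hQ) e w) ∈ Cfsg.Geo.omegaGL Q := by
  obtain ⟨Q', rfl⟩ := exists_quad hQ
  by_cases hh : Q' e = 0 ∧ stdB hQ e w = 0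
  · rw [mkGL_ei_eq Q' hQ hh.1 hh.2, mem_omegaGL_iff]
    refine ⟨_, ?_, rfl⟩
    refine E_mem_Omega Q' ?_ hn hh.1 ?_
    · rw [polarBilin_eq Q' hQ]
      exact stdB_nondegenerate hQ
    · have h1 : stdB hQ e (-w) = 0 := by rw [map_neg, hh.2, neg_zero]
      exact h1
  · rw [ei, dif_neg hh]
    have : mkGL (1 : (ι → F) ≃ₗ[F] (ι → F)) = 1 := map_one _
    rw [this]
    exact Subgroup.one_mem _

/-- a subgroup containing all Eichler transformations contains `Ω` -/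
lemma omegaGL_le_of_ei (hQ : Cfsg.Geo.IsNondegenerateQuadraticForm Q) (hn : 5 ≤ Fintype.card ι)
    (M : Subgroup (GL ι F)) (hM : ∀ e w, mkGL (ei (stdQF hQ) e w) ∈ M) :
    Cfsg.Geo.omegaGL Q ≤ M := by
  obtain ⟨Q', rfl⟩ := exists_quad hQ
  intro g hg
  obtain ⟨y, hy, rfl⟩ := (mem_omegaGL_iff g).1 hg
  have hnd : (QuadraticMap.polarBilin Q').Nondegenerate := by
    rw [polarBilin_eq Q' hQ]
    exact stdB_nondegenerate hQ
  have hy' : y ∈ TT Q' := by
    rw [← Omega_eq_TT Q' hnd hn]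
    exact hy
  have hle : TT Q' ≤ M.comap (Cfsg.isometryGroup F ⇑Q').subtype := by
    unfold TT
    rw [Subgroup.closure_le]
    rintro _ ⟨e, w, he, hw, rfl⟩
    have hw' : stdB hQ e (-w) = 0 := by
      have h1 : stdB hQ e w = 0 := hw
      rw [map_neg, h1, neg_zero]
    have h2 := mkGL_ei_eq Q' hQ he hw'
    rw [neg_neg] at h2
    show ((E Q' e w : ↥(Cfsg.isometryGroup F ⇑Q')) : GL ι F) ∈ M
    rw [← h2]
    exact hM _ _
  exact hle hy'

/-- General wrapper: maximality in `Ω`. -/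
theorem omega_maximal (hQ : Cfsg.Geo.IsNondegenerateQuadraticForm Q) (hn : 5 ≤ Fintype.card ι)
    (X : Subgroup (GL ι F))
    (h1 : ∃ e ∈ pull (Cfsg.Geo.omegaGL Q), mkGL e ∉ X)
    (h2 : ∀ M : Subgroup ((ι → F) ≃ₗ[F] (ι → F)),
      (∀ e ∈ pull (Cfsg.Geo.omegaGL Q), mkGL e ∈ X → e ∈ M) →
      (∀ e ∈ M, ∀ x, Q (e x) = Q x) →
      ∀ g ∈ M, mkGL g ∉ X → ∀ e w, ei (stdQF hQ) e w ∈ M) :
    Cfsg.Geo.IsMaximalIn (Cfsg.Geo.omegaGL Q) (X ⊓ Cfsg.Geo.omegaGL Q) := by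
  constructor
  · refine lt_of_le_of_ne inf_le_right ?_
    intro heq
    obtain ⟨e, he, heX⟩ := h1
    have : mkGL e ∈ Cfsg.Geo.omegaGL Q := he
    rw [← heq] at this
    exact heX this.1
  · intro M hHM hMS
    by_cases hMH : M ≤ X ⊓ Cfsg.Geo.omegaGL Q
    · exact Or.inl (le_antisymm hMH hHM)
    · right
      refine le_antisymm hMS ?_
      obtain ⟨g, hgM, hgH⟩ := SetLike.not_le_iff_exists.1 hMH
      have hgX : g ∉ X := fun h => hgH ⟨h, hMS hgM⟩
      have hall := h2 (pull M)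
        (fun e he heX => (mem_pull M e).2 (hHM ⟨heX, he⟩))
        (fun e he x => by
          have := iso_of_mem_omegaGL (hMS ((mem_pull M e).1 he)) x
          rwa [mkGL_mulVec] at this)
        (glEquiv _ F g) ((glEquiv_mem_pull M g).2 hgM) (by rwa [mkGL_glEquiv])
      exact omegaGL_le_of_ei hQ hn M hall

end Cfsg.Agent.Lib.Helper96OrthStd
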