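import Mathlib
import Cfsg.Agent.Lib.Helper42Quad
import Cfsg.Agent.Lib.Helper96OrthStd

set_option autoImplicit false

/-! ASCH-O piece [witt]: Witt decomposition of a non-degenerate quadratic form of even dimension
over a finite field (helper70). -/

namespace Cfsg.Agent.Lib.Helper70OWitt

open Cfsg Cfsg.Geo Matrix

variable {ι : Type} [Fintype ι] [DecidableEq ι] {F : Type*} [Field F]
variable {Q : (ι → F) → F}

/-- [witt] Witt decomposition: `l` hyperbolic pairs and a non-degenerate plane. -/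
theorem witt_dec [Finite F] (hQ : IsNondegenerateQuadraticForm Q) {l : ℕ}
    (hl : Fintype.card ι = 2 * l + 2) :
    ∃ (e f : Fin l → ι → F) (a b : ι → F), (∀ i, Q (e i) = 0) ∧ (∀ i, Q (f i) = 0) ∧
      (∀ i j, QuadraticMap.polar Q (e i) (e j) = 0) ∧ (∀ i j, QuadraticMap.polar Q (f i) (f j) = 0) ∧
      (∀ i j, QuadraticMap.polar Q (e i) (f j) = if i = j then 1 else 0) ∧
      (∀ i, QuadraticMap.polar Q (e i) a = 0) ∧ (∀ i, QuadraticMap.polar Q (e i) b = 0) ∧
      (∀ i, QuadraticMap.polar Q (f i) a = 0) ∧ (∀ i, QuadraticMap.polar Q (f i) b = 0) ∧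
      QuadraticMap.polar Q a b ^ 2 - 4 * Q a * Q b ≠ 0 := by
  obtain ⟨Q', rfl⟩ := Cfsg.Agent.Lib.Helper96OrthStd.exists_quad hQ
  have hnd : (QuadraticMap.polarBilin Q').Nondegenerate := by
    rw [Cfsg.Agent.Lib.Helper96OrthStd.polarBilin_eq Q' hQ]
    exact Cfsg.Agent.Lib.Helper96OrthStd.stdB_nondegenerate hQ
  have hfr : Module.finrank F (ι → F) = 2 * l + 2 := by
    rw [Module.finrank_fintype_fun_eq_card, hl]
  rcases Cfsg.Agent.Lib.Helper42Quad.std (2 * l + 2) Q' hnd hfr with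
    ⟨k, hk, e, f, h1, h2, h3, h4, h5⟩ | ⟨k, hk, -⟩ | ⟨k, hk, e, f, x, y, ⟨h1, h2, h3, h4, h5⟩, hx, hy, hQx, hxy, ht⟩
  · obtain rfl : k = l + 1 := by omega
    refine ⟨fun i => e i.castSucc, fun i => f i.castSucc, e (Fin.last l), f (Fin.last l),
      fun i => h1 _, fun i => h2 _, fun i j => h4 _ _, fun i j => h5 _ _, fun i j => ?_,
      fun i => h4 _ _, fun i => ?_, fun i => ?_, fun i => h5 _ _, ?_⟩
    · rw [h3]
      simp [Fin.castSucc_inj]
    · rw [h3, if_neg (Fin.castSucc_lt_last i).ne]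
    · rw [QuadraticMap.polar_comm, h3, if_neg (Fin.castSucc_lt_last i).ne']
    · rw [h3, if_pos rfl, h1, h2]
      simp
  · omega
  · obtain rfl : k = l := by omega
    refine ⟨e, f, x, y, h1, h2, h4, h5, h3, fun i => (hx i).1, fun i => (hy i).1,
      fun i => (hx i).2, fun i => (hy i).2, ?_⟩
    rw [hxy, hQx]
    intro hcon
    by_cases h20 : (2 : F) = 0
    · have h4 : (4 : F) = 0 := by
        have : (4 : F) = 2 * 2 := by norm_num
        rw [this, h20, mul_zero]
      rw [h4] at hcon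
      simp at hcon
    · apply ht (-(1 / 2))
      field_simp
      linear_combination -hcon

end Cfsg.Agent.Lib.Helper70OWitt
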