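import Mathlib
import Cfsg.Agent.Lib.Helper96OrthStd

set_option autoImplicit false

/-! ASCH-O piece [wittplus] (helper70). -/

namespace Cfsg.Agent.Lib.Helper70OWittplus

open Cfsg Cfsg.Geo Matrix

variable {ι : Type} [Fintype ι] [DecidableEq ι] {F : Type*} [Field F]
variable {Q : (ι → F) → F}

/-- a family of pairwise orthogonal singular vectors spans a totally singular subspace -/
theorem ts_span {V : Type*} [AddCommGroup V] [Module F V] (Q' : QuadraticForm F V) {κ : Type*}
    (v : κ → V) (hv : ∀ i, Q' (v i) = 0) (hvv : ∀ i j, QuadraticMap.polar Q' (v i) (v j) = 0) :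
    ∀ w ∈ Submodule.span F (Set.range v), Q' w = 0 := by
  have hA : ∀ x : V, (∀ i, QuadraticMap.polar Q' x (v i) = 0) →
      ∀ y ∈ Submodule.span F (Set.range v), QuadraticMap.polar Q' x y = 0 := by
    intro x hx y hy
    induction hy using Submodule.span_induction with
    | mem y hy => obtain ⟨i, rfl⟩ := hy; exact hx i
    | zero => simp
    | add y z _ _ h1 h2 => rw [QuadraticMap.polar_add_right, h1, h2, add_zero]
    | smul c y _ h1 => rw [QuadraticMap.polar_smul_right, h1, smul_zero]
  have hB : ∀ w ∈ Submodule.span F (Set.range v),
      Q' w = 0 ∧ ∀ i, QuadraticMap.polar Q' w (v i) = 0 := by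
    intro w hw
    induction hw using Submodule.span_induction with
    | mem y hy => obtain ⟨i, rfl⟩ := hy; exact ⟨hv i, fun j => hvv i j⟩
    | zero => simp
    | add y z _ hz h1 h2 =>
      refine ⟨?_, fun i => by rw [QuadraticMap.polar_add_left, h1.2, h2.2, add_zero]⟩
      have : Q' (y + z) = Q' y + Q' z + QuadraticMap.polar Q' y z := by
        simp [QuadraticMap.polar]
      rw [this, h1.1, h2.1, hA y h1.2 z hz]
      simp
    | smul c y _ h1 =>
      refine ⟨by rw [QuadraticMap.map_smul, h1.1, smul_zero],
        fun i => by rw [QuadraticMap.polar_smul_left, h1.2, smul_zero]⟩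
  exact fun w hw => (hB w hw).1

/-- [wittplus] a Witt decomposition whose plane contains a non-zero singular vector: plus type. -/
theorem plus_of_witt (hQ : IsNondegenerateQuadraticForm Q) {l : ℕ}
    (hl : Fintype.card ι = 2 * l + 2) (e f : Fin l → ι → F) (s : ι → F) (he : ∀ i, Q (e i) = 0)
    (hee : ∀ i j, QuadraticMap.polar Q (e i) (e j) = 0)
    (hef : ∀ i j, QuadraticMap.polar Q (e i) (f j) = if i = j then 1 else 0)
    (hes : ∀ i, QuadraticMap.polar Q (e i) s = 0) (hfs : ∀ i, QuadraticMap.polar Q (f i) s = 0)
    (hs0 : s ≠ 0) (hs : Q s = 0) : IsPlusTypeOn Q ⊤ := by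
  obtain ⟨Q', rfl⟩ := Cfsg.Agent.Lib.Helper96OrthStd.exists_quad hQ
  set v : Option (Fin l) → ι → F := fun o => o.elim s e with hv
  have hss : QuadraticMap.polar Q' s s = 0 := by
    rw [QuadraticMap.polar_self, hs, smul_zero]
  have hli : LinearIndependent F v := by
    rw [Fintype.linearIndependent_iff]
    intro c hc
    rw [Fintype.sum_option] at hc
    simp only [hv, Option.elim_none, Option.elim_some] at hc
    have hj : ∀ j, c (some j) = 0 := by
      intro j
      have h1 : QuadraticMap.polar Q' (c none • s + ∑ i, c (some i) • e i) (f j) = 0 := by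
        rw [hc]; simp
      rw [QuadraticMap.polar_add_left, QuadraticMap.polar_smul_left, QuadraticMap.polar_comm Q' s,
        hfs, smul_zero, zero_add] at h1
      have h2 : QuadraticMap.polar Q' (∑ i, c (some i) • e i) (f j)
          = ∑ i, c (some i) * QuadraticMap.polar Q' (e i) (f j) := by
        have := map_sum ((QuadraticMap.polarBilin Q').flip (f j)) (fun i => c (some i) • e i)
          Finset.univ
        simp only [LinearMap.flip_apply, QuadraticMap.polarBilin_apply_apply, map_smul,
          smul_eq_mul] at this
        exact this
      rw [h2] at h1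
      simp only [hef] at h1
      simpa using h1
    intro o
    cases o with
    | some j => exact hj j
    | none =>
      simp only [hj, zero_smul, Finset.sum_const_zero, add_zero] at hc
      exact (smul_eq_zero.mp hc).resolve_right hs0
  refine ⟨Submodule.span F (Set.range v), le_top, ?_, ?_⟩
  · apply ts_span Q' v
    · intro o
      cases o with
      | some j => exact he j
      | none => exact hs
    · intro o o'
      cases o with
      | some j =>
        cases o' with
        | some j' => exact hee j j'
        | none => exact hes j
      | none =>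
        cases o' with
        | some j' => rw [QuadraticMap.polar_comm]; exact hes j'
        | none => exact hss
  · rw [finrank_span_eq_card hli, finrank_top, Module.finrank_fintype_fun_eq_card, hl]
    simp
    ring

end Cfsg.Agent.Lib.Helper70OWittplus
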