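import Cfsg.Agent.Lib.Helper96SpDefs

set_option autoImplicit false
set_option linter.unusedSectionVars false

/-! PROJECT 3 = ASCH-SP. API for adjoints `IsAdj` and Gram matrices in coordinates.
(Same namespace as `Helper96SpDefs`, so that `h.mul h'` etc. work.) -/

namespace Cfsg.Agent.Lib.Helper96SpDefs

open Cfsg Cfsg.Geo Matrix
open Cfsg.Agent.Lib.Helper97GBase Cfsg.Agent.Lib.Helper97GForms Cfsg.Agent.Lib.Helper98AschGDefs
  Cfsg.Agent.Lib.Helper98AschGBasic
open scoped MatrixGroups Kronecker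

variable {ι : Type} [Fintype ι] [DecidableEq ι] {F : Type*} [Field F]
variable {f : (ι → F) → (ι → F) → F}

/-! ### bilinear forms -/

lemma bil_zero_left (hf : IsBilinearForm f) (v : ι → F) : f 0 v = 0 := by
  have := hf.smul_left 0 0 v
  simpa using this

lemma bil_zero_right (hf : IsBilinearForm f) (v : ι → F) : f v 0 = 0 := by
  have := hf.smul_right 0 v 0
  simpa using this

lemma bil_neg_left (hf : IsBilinearForm f) (u v : ι → F) : f (-u) v = - f u v := by
  have := hf.smul_left (-1) u v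
  simpa using this

lemma bil_neg_right (hf : IsBilinearForm f) (u v : ι → F) : f u (-v) = - f u v := by
  have := hf.smul_right (-1) u v
  simpa using this

lemma bil_sub_left (hf : IsBilinearForm f) (u u' v : ι → F) : f (u - u') v = f u v - f u' v := by
  rw [sub_eq_add_neg, hf.add_left, bil_neg_left hf, sub_eq_add_neg]

lemma bil_sub_right (hf : IsBilinearForm f) (u v v' : ι → F) : f u (v - v') = f u v - f u v' := by
  rw [sub_eq_add_neg, hf.add_right, bil_neg_right hf, sub_eq_add_neg]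

lemma bil_sum_left (hf : IsBilinearForm f) {α : Type*} (s : Finset α) (u : α → ι → F) (v : ι → F) :
    f (∑ a ∈ s, u a) v = ∑ a ∈ s, f (u a) v := by
  classical
  induction s using Finset.induction_on with
  | empty => simpa using bil_zero_left hf v
  | insert a s ha ih => rw [Finset.sum_insert ha, Finset.sum_insert ha, hf.add_left, ih]

lemma bil_sum_right (hf : IsBilinearForm f) {α : Type*} (s : Finset α) (u : ι → F) (v : α → ι → F) :
    f u (∑ a ∈ s, v a) = ∑ a ∈ s, f u (v a) := by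
  classical
  induction s using Finset.induction_on with
  | empty => simpa using bil_zero_right hf u
  | insert a s ha ih => rw [Finset.sum_insert ha, Finset.sum_insert ha, hf.add_right, ih]

lemma eq_of_forall_right (hf : IsBilinearForm f) (hnd : IsNondegenerateForm f) {v v' : ι → F}
    (h : ∀ u, f u v = f u v') : v = v' := by
  by_contra hne
  obtain ⟨x, hx⟩ := (hnd _ (sub_ne_zero.2 hne)).1
  apply hx
  rw [bil_sub_right hf, h, sub_self]

lemma eq_of_forall_left (hf : IsBilinearForm f) (hnd : IsNondegenerateForm f) {v v' : ι → F}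
    (h : ∀ u, f v u = f v' u) : v = v' := by
  by_contra hne
  obtain ⟨x, hx⟩ := (hnd _ (sub_ne_zero.2 hne)).2
  apply hx
  rw [bil_sub_left hf, h, sub_self]

lemma matrix_ext_mulVec {M N : Matrix ι ι F} (h : ∀ v, M *ᵥ v = N *ᵥ v) : M = N := by
  apply Matrix.toLin'.injective
  apply LinearMap.ext
  intro v
  rw [Matrix.toLin'_apply, Matrix.toLin'_apply, h]

/-! ### adjoints -/

lemma IsAdj.unique (hf : IsBilinearForm f) (hnd : IsNondegenerateForm f) {a b b' : Matrix ι ι F}
    (h : IsAdj f a b) (h' : IsAdj f a b') : b = b' :=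
  matrix_ext_mulVec fun v => eq_of_forall_right hf hnd fun u => by rw [← h, ← h']

lemma IsAdj.unique_left (hf : IsBilinearForm f) (hnd : IsNondegenerateForm f) {a a' b : Matrix ι ι F}
    (h : IsAdj f a b) (h' : IsAdj f a' b) : a = a' :=
  matrix_ext_mulVec fun v => eq_of_forall_left hf hnd fun u => by rw [h, h']

lemma IsAdj.one : IsAdj f 1 1 := fun u v => by rw [Matrix.one_mulVec, Matrix.one_mulVec]

lemma IsAdj.zero (hf : IsBilinearForm f) : IsAdj f 0 0 := fun u v => by
  rw [Matrix.zero_mulVec, Matrix.zero_mulVec, bil_zero_left hf, bil_zero_right hf]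

lemma IsAdj.mul {a a' b b' : Matrix ι ι F} (h : IsAdj f a a') (h' : IsAdj f b b') :
    IsAdj f (a * b) (b' * a') := fun u v => by
  rw [← Matrix.mulVec_mulVec, ← Matrix.mulVec_mulVec, h, h']

lemma IsAdj.add (hf : IsBilinearForm f) {a a' b b' : Matrix ι ι F} (h : IsAdj f a a') (h' : IsAdj f b b') :
    IsAdj f (a + b) (a' + b') := fun u v => by
  rw [Matrix.add_mulVec, Matrix.add_mulVec, hf.add_left, hf.add_right, h, h']

lemma IsAdj.smul (hf : IsBilinearForm f) (c : F) {a a' : Matrix ι ι F} (h : IsAdj f a a') :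
    IsAdj f (c • a) (c • a') := fun u v => by
  rw [Matrix.smul_mulVec, Matrix.smul_mulVec, hf.smul_left, hf.smul_right, h]

lemma IsAdj.neg (hf : IsBilinearForm f) {a a' : Matrix ι ι F} (h : IsAdj f a a') :
    IsAdj f (-a) (-a') := by
  have := h.smul hf (-1)
  simpa using this

lemma IsAdj.sub (hf : IsBilinearForm f) {a a' b b' : Matrix ι ι F} (h : IsAdj f a a') (h' : IsAdj f b b') :
    IsAdj f (a - b) (a' - b') := by
  rw [sub_eq_add_neg, sub_eq_add_neg]
  exact h.add hf (h'.neg hf)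

lemma IsAdj.pow {a a' : Matrix ι ι F} (h : IsAdj f a a') (k : ℕ) : IsAdj f (a ^ k) (a' ^ k) := by
  induction k with
  | zero => simpa using IsAdj.one
  | succ k ih =>
    rw [pow_succ, pow_succ']
    exact ih.mul h

lemma IsAdj.scalar (hf : IsBilinearForm f) (c : F) :
    IsAdj f (c • (1 : Matrix ι ι F)) (c • (1 : Matrix ι ι F)) := IsAdj.one.smul hf c

lemma IsAdj.symm_of_skew (hskew : ∀ u v, f u v = - f v u) {a b : Matrix ι ι F} (h : IsAdj f a b) :
    IsAdj f b a := fun u v => by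
  rw [hskew, ← h, hskew u]

lemma IsAdj.symm_of_symm (hsymm : ∀ u v, f u v = f v u) {a b : Matrix ι ι F} (h : IsAdj f a b) :
    IsAdj f b a := fun u v => by
  rw [hsymm, ← h, hsymm u]

lemma IsAdj.symm (hf : IsSymplecticForm f) {a b : Matrix ι ι F} (h : IsAdj f a b) : IsAdj f b a :=
  h.symm_of_skew hf.skew

/-- an isometry has its inverse as adjoint -/
lemma isAdj_inv {g : GL ι F} (hg : ∀ u v, f ((g : Matrix ι ι F) *ᵥ u) ((g : Matrix ι ι F) *ᵥ v) = f u v) :
    IsAdj f (g : Matrix ι ι F) ((g⁻¹ : GL ι F) : Matrix ι ι F) := fun u v => by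
  conv_lhs => rw [← mulVec_inv_mulVec g v]
  rw [hg]

lemma isAdj_inv' {g : GL ι F} (hg : ∀ u v, f ((g : Matrix ι ι F) *ᵥ u) ((g : Matrix ι ι F) *ᵥ v) = f u v) :
    IsAdj f ((g⁻¹ : GL ι F) : Matrix ι ι F) (g : Matrix ι ι F) := fun u v => by
  conv_rhs => rw [← mulVec_inv_mulVec g u]
  rw [hg]

lemma fixes_apply {H : Subgroup (GL ι F)} (hH : FixesForm (matrixSet H) f) {h : GL ι F} (hh : h ∈ H)
    (u v : ι → F) : f ((h : Matrix ι ι F) *ᵥ u) ((h : Matrix ι ι F) *ᵥ v) = f u v :=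
  hH _ ⟨h, hh, rfl⟩ u v

lemma fixes_mono {H T : Subgroup (GL ι F)} (hH : FixesForm (matrixSet H) f) (hT : T ≤ H) :
    FixesForm (matrixSet T) f := by
  rintro _ ⟨t, ht, rfl⟩
  exact hH _ ⟨t, hT ht, rfl⟩

/-- conjugation by an isometry commutes with taking adjoints -/
lemma IsAdj.conj {h : GL ι F}
    (hh : ∀ u v, f ((h : Matrix ι ι F) *ᵥ u) ((h : Matrix ι ι F) *ᵥ v) = f u v) {a b : Matrix ι ι F}
    (hab : IsAdj f a b) :
    IsAdj f ((h : Matrix ι ι F) * a * ((h⁻¹ : GL ι F) : Matrix ι ι F))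
      ((h : Matrix ι ι F) * b * ((h⁻¹ : GL ι F) : Matrix ι ι F)) := by
  have := ((isAdj_inv hh).mul hab).mul (isAdj_inv' hh)
  rwa [← mul_assoc] at this

lemma IsAdj.conj_inv {h : GL ι F}
    (hh : ∀ u v, f ((h : Matrix ι ι F) *ᵥ u) ((h : Matrix ι ι F) *ᵥ v) = f u v) {a b : Matrix ι ι F}
    (hab : IsAdj f a b) :
    IsAdj f (((h⁻¹ : GL ι F) : Matrix ι ι F) * a * (h : Matrix ι ι F))
      (((h⁻¹ : GL ι F) : Matrix ι ι F) * b * (h : Matrix ι ι F)) := by
  have := ((isAdj_inv' hh).mul hab).mul (isAdj_inv hh)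
  rwa [← mul_assoc] at this

/-- every matrix has an adjoint -/
lemma exists_adj (hf : IsBilinearForm f) (hnd : IsNondegenerateForm f) (a : Matrix ι ι F) :
    ∃ b, IsAdj f a b := by
  -- apply helper97's lemma to the flipped forms
  have hs : Sesq (RingEquiv.refl F) (fun u v => f v u) :=
    { add_left := fun x y v => hf.add_right v x y
      smul_left := fun c x v => hf.smul_right c v x
      add_right := fun v x y => hf.add_left x y v
      smul_right := fun c v x => hf.smul_left c x v }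
  have hs' : Sesq (RingEquiv.refl F) (fun u v => f (a *ᵥ v) u) :=
    { add_left := fun x y v => hf.add_right _ x y
      smul_left := fun c x v => hf.smul_right c _ x
      add_right := fun v x y => by simp only [Matrix.mulVec_add, hf.add_left]
      smul_right := fun c v x => by simp only [Matrix.mulVec_smul, hf.smul_left]; rfl }
  obtain ⟨b, hb⟩ := hs.exists_adjoint hs' (fun v hv => (hnd v hv).2)
  exact ⟨b, fun u v => hb v u⟩

/-! ### adjoint-closed subalgebras -/

lemma adjClosed_iff {A : Subalgebra F (Matrix ι ι F)} :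
    IsAdjointClosedFor f A ↔ ∀ a ∈ A, ∃ a' ∈ A, IsAdj f a a' := Iff.rfl

/-- the enveloping algebra of a group of isometries is closed under adjoints -/
lemma adjClosed_env (hf : IsBilinearForm f) {T : Subgroup (GL ι F)} (hT : FixesForm (matrixSet T) f) :
    IsAdjointClosedFor f (env T) := by
  intro a ha
  unfold env at ha ⊢
  induction ha using Algebra.adjoin_induction with
  | mem x hx =>
    obtain ⟨t, ht, rfl⟩ := hx
    exact ⟨_, Algebra.subset_adjoin ⟨t⁻¹, T.inv_mem ht, rfl⟩, isAdj_inv (fixes_apply hT ht)⟩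
  | algebraMap c =>
    refine ⟨_, Subalgebra.algebraMap_mem _ c, ?_⟩
    rw [Algebra.algebraMap_eq_smul_one]
    exact IsAdj.scalar hf c
  | add x y _ _ hx hy =>
    obtain ⟨x', hx', hxa⟩ := hx
    obtain ⟨y', hy', hya⟩ := hy
    exact ⟨_, Subalgebra.add_mem _ hx' hy', IsAdj.add hf hxa hya⟩
  | mul x y _ _ hx hy =>
    obtain ⟨x', hx', hxa⟩ := hx
    obtain ⟨y', hy', hya⟩ := hy
    exact ⟨_, Subalgebra.mul_mem _ hy' hx', IsAdj.mul hxa hya⟩

/-- the centre of an adjoint-closed subalgebra is adjoint-closed (reflexive form) -/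
lemma adjClosed_cen (hf : IsBilinearForm f) (hnd : IsNondegenerateForm f)
    (hrefl : ∀ a b : Matrix ι ι F, IsAdj f a b → IsAdj f b a)
    {A : Subalgebra F (Matrix ι ι F)} (hA : IsAdjointClosedFor f A) : IsAdjointClosedFor f (cen A) := by
  intro z hz
  rw [mem_cen] at hz
  obtain ⟨z', hz', hzz⟩ := hA z hz.1
  replace hzz : IsAdj f z z' := hzz
  refine ⟨z', mem_cen.2 ⟨hz', fun a ha => ?_⟩, hzz⟩
  obtain ⟨a', ha', haa⟩ := hA a ha
  replace haa : IsAdj f a a' := haa
  -- (z a')* = a z' and (a' z)* = z' a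
  have h1 : IsAdj f (z * a') (a * z') := hzz.mul (hrefl _ _ haa)
  have h2 : IsAdj f (a' * z) (z' * a) := (hrefl _ _ haa).mul hzz
  rw [hz.2 a' ha'] at h1
  exact h2.unique hf hnd h1

lemma adjClosed_cen_sp (hf : IsSymplecticForm f) {A : Subalgebra F (Matrix ι ι F)}
    (hA : IsAdjointClosedFor f A) : IsAdjointClosedFor f (cen A) :=
  adjClosed_cen hf.bilinear hf.nondegenerate (fun _ _ h => h.symm hf) hA

/-! ### Gram matrices in coordinates -/

section coords

variable {κ : Type} [Fintype κ] [DecidableEq κ]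

/-- the Gram matrix of `f` in the basis `P (e_a ∘ e)` -/
def gramIn (f : (ι → F) → (ι → F) → F) (e : ι ≃ κ) (P : GL ι F) : Matrix κ κ F :=
  fun a b => f ((P : Matrix ι ι F) *ᵥ ((Pi.single a 1 : κ → F) ∘ e))
    ((P : Matrix ι ι F) *ᵥ ((Pi.single b 1 : κ → F) ∘ e))

lemma comp_eq_sum (e : ι ≃ κ) (x : κ → F) :
    x ∘ e = ∑ a, x a • ((Pi.single a 1 : κ → F) ∘ e) := by
  ext i
  simp [Finset.sum_apply, Pi.single_apply]

lemma form_eq_gramIn (hf : IsBilinearForm f) (e : ι ≃ κ) (P : GL ι F) (x y : κ → F) :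
    f ((P : Matrix ι ι F) *ᵥ (x ∘ e)) ((P : Matrix ι ι F) *ᵥ (y ∘ e)) =
      ∑ a, ∑ b, x a * gramIn f e P a b * y b := by
  conv_lhs => rw [comp_eq_sum e x, comp_eq_sum e y]
  rw [Matrix.mulVec_sum, Matrix.mulVec_sum, bil_sum_left hf]
  apply Finset.sum_congr rfl
  intro a _
  rw [bil_sum_right hf]
  apply Finset.sum_congr rfl
  intro b _
  rw [Matrix.mulVec_smul, Matrix.mulVec_smul, hf.smul_left, hf.smul_right]
  unfold gramIn
  ring

lemma form_eq_formOfGram (hf : IsBilinearForm f) (e : ι ≃ κ) (P : GL ι F) (x y : κ → F) :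
    f ((P : Matrix ι ι F) *ᵥ (x ∘ e)) ((P : Matrix ι ι F) *ᵥ (y ∘ e)) =
      formOfGram id (gramIn f e P) x y := form_eq_gramIn hf e P x y

/-- every vector is `P (x ∘ e)` -/
lemma exists_coords (e : ι ≃ κ) (P : GL ι F) (v : ι → F) :
    ∃ x : κ → F, v = (P : Matrix ι ι F) *ᵥ (x ∘ e) := by
  refine ⟨(((P⁻¹ : GL ι F) : Matrix ι ι F) *ᵥ v) ∘ e.symm, ?_⟩
  have : ((((P⁻¹ : GL ι F) : Matrix ι ι F) *ᵥ v) ∘ e.symm) ∘ e = ((P⁻¹ : GL ι F) : Matrix ι ι F) *ᵥ v := by
    ext i; simp
  rw [this, mulVec_inv_mulVec]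

/-- action of `P (reindex M) P⁻¹` in coordinates -/
lemma conj_reindex_mulVec (e : ι ≃ κ) (P : GL ι F) (M : Matrix κ κ F) (x : κ → F) :
    ((P : Matrix ι ι F) * Matrix.reindex e.symm e.symm M * ((P⁻¹ : GL ι F) : Matrix ι ι F)) *ᵥ
      ((P : Matrix ι ι F) *ᵥ (x ∘ e)) = (P : Matrix ι ι F) *ᵥ ((M *ᵥ x) ∘ e) := by
  rw [Matrix.mulVec_mulVec, mul_assoc, vi, mul_one, ← Matrix.mulVec_mulVec]
  congr 1
  ext i
  simp only [Matrix.reindex_apply, Equiv.symm_symm, Matrix.mulVec, dotProduct, Matrix.submatrix_apply,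
    Function.comp_apply]
  exact Fintype.sum_equiv e _ _ (fun _ => rfl)

end coords

end Cfsg.Agent.Lib.Helper96SpDefs
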