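import Mathlib
import Cfsg.Prelude.Def_GeometricClasses
import Cfsg.Agent.Lib.Helper96SpBasic
import Cfsg.Agent.Lib.Helper70OWitt
import Cfsg.Agent.Lib.Helper70OWittplus
import Cfsg.Agent.Lib.Helper40OQuadroot

set_option autoImplicit false
set_option linter.unusedSectionVars false

/-! PROJECT 5 = ASCH-O, piece `subplus`: a rational structure over the subfield of index 2 forces plus type. -/

namespace Cfsg.Agent.Lib.Helper40OSubplus

open Cfsg Cfsg.Geo Matrix
open Cfsg.Agent.Lib.Helper70OWitt Cfsg.Agent.Lib.Helper70OWittplus Cfsg.Agent.Lib.Helper40OQuadroot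
  Cfsg.Agent.Lib.Helper97GBase Cfsg.Agent.Lib.Helper96SpDefs
open scoped MatrixGroups

variable {ι : Type} [Fintype ι] [DecidableEq ι] {F : Type*} [Field F]
variable {Q : (ι → F) → F}

/-- extension of scalars of a vector -/
def up {F₀ : Subfield F} (u : ι → F₀) : ι → F := fun i => (u i : F)

lemma up_add {F₀ : Subfield F} (u v : ι → F₀) : up (u + v) = up u + up v := rfl

lemma up_smul {F₀ : Subfield F} (c : F₀) (u : ι → F₀) : up (c • u) = (c : F) • up u := rfl

lemma up_single {F₀ : Subfield F} (i : ι) : up (Pi.single i 1 : ι → F₀) = Pi.single i 1 := by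
  funext j
  unfold up
  by_cases h : j = i
  · subst h; simp
  · simp [Pi.single_eq_of_ne h]

lemma up_ne_zero {F₀ : Subfield F} {u : ι → F₀} (hu : u ≠ 0) : up u ≠ 0 := by
  intro h
  apply hu
  funext i
  have := congrFun h i
  exact Subtype.ext this

/-- the descended quadratic form -/
def Q0 (Q : (ι → F) → F) (F₀ : Subfield F) (P : GL ι F) (ζ : F)
    (hrat : IsQuadFormRationalStructure (fun v : ι → F => ζ * Q v) F₀ P) (u : ι → F₀) : F₀ :=
  ⟨ζ * Q ((P : Matrix ι ι F) *ᵥ up u), hrat (up u) (fun i => (u i).2)⟩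

lemma coe_Q0 {F₀ : Subfield F} {P : GL ι F} {ζ : F}
    (hrat : IsQuadFormRationalStructure (fun v : ι → F => ζ * Q v) F₀ P) (u : ι → F₀) :
    ((Q0 Q F₀ P ζ hrat u : F₀) : F) = ζ * Q ((P : Matrix ι ι F) *ᵥ up u) := rfl

lemma coe_polar_Q0 {F₀ : Subfield F} {P : GL ι F} {ζ : F}
    (hrat : IsQuadFormRationalStructure (fun v : ι → F => ζ * Q v) F₀ P) (u v : ι → F₀) :
    ((QuadraticMap.polar (Q0 Q F₀ P ζ hrat) u v : F₀) : F) =
      ζ * QuadraticMap.polar Q ((P : Matrix ι ι F) *ᵥ up u) ((P : Matrix ι ι F) *ᵥ up v) := by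
  unfold QuadraticMap.polar
  push_cast
  rw [coe_Q0, coe_Q0, coe_Q0, up_add, Matrix.mulVec_add]
  ring

lemma Q0_nondeg (hQ : IsNondegenerateQuadraticForm Q) {F₀ : Subfield F} {P : GL ι F} {ζ : F} (hζ : ζ ≠ 0)
    (hrat : IsQuadFormRationalStructure (fun v : ι → F => ζ * Q v) F₀ P) :
    IsNondegenerateQuadraticForm (Q0 Q F₀ P ζ hrat) := by
  have hb := hQ.polar_bilinear
  refine ⟨?_, ⟨?_, ?_, ?_, ?_⟩, ?_⟩
  · intro c v
    apply Subtype.ext
    push_cast
    rw [coe_Q0, coe_Q0, up_smul, Matrix.mulVec_smul, hQ.smul]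
    ring
  · intro x y v
    apply Subtype.ext
    push_cast
    rw [coe_polar_Q0, coe_polar_Q0, coe_polar_Q0, up_add, Matrix.mulVec_add, hb.add_left]
    ring
  · intro c x v
    apply Subtype.ext
    push_cast
    rw [coe_polar_Q0, coe_polar_Q0, up_smul, Matrix.mulVec_smul, hb.smul_left]
    ring
  · intro v x y
    apply Subtype.ext
    push_cast
    rw [coe_polar_Q0, coe_polar_Q0, coe_polar_Q0, up_add, Matrix.mulVec_add, hb.add_right]
    ring
  · intro c v x
    apply Subtype.ext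
    push_cast
    rw [coe_polar_Q0, coe_polar_Q0, up_smul, Matrix.mulVec_smul, hb.smul_right]
    ring
  · intro v hv
    have hw : (P : Matrix ι ι F) *ᵥ up v ≠ 0 := by
      intro h0
      apply up_ne_zero hv
      apply mulVec_injective P
      simp only
      rw [h0, Matrix.mulVec_zero]
    have key : ∃ x : ι → F₀, QuadraticMap.polar (Q0 Q F₀ P ζ hrat) x v ≠ 0 := by
      by_contra hcon
      push Not at hcon
      obtain ⟨y, hy⟩ := (hQ.nondegenerate _ hw).1
      apply hy
      have h1 : ∀ i, QuadraticMap.polar Q ((P : Matrix ι ι F) *ᵥ Pi.single i 1) ((P : Matrix ι ι F) *ᵥ up v) = 0 := by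
        intro i
        have h2 := congrArg (fun t : F₀ => (t : F)) (hcon (Pi.single i 1))
        rw [coe_polar_Q0, up_single] at h2
        simpa [hζ] using h2
      have h3 : y = ∑ i, (((P⁻¹ : GL ι F) : Matrix ι ι F) *ᵥ y) i • ((P : Matrix ι ι F) *ᵥ Pi.single i 1) := by
        conv_lhs => rw [← mulVec_inv_mulVec P y, pi_eq_sum_univ' (((P⁻¹ : GL ι F) : Matrix ι ι F) *ᵥ y)]
        rw [Matrix.mulVec_sum]
        apply Finset.sum_congr rfl
        intro i _
        rw [Matrix.mulVec_smul]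
      rw [h3, bil_sum_left hb]
      apply Finset.sum_eq_zero
      intro i _
      rw [hb.smul_left, h1, mul_zero]
    obtain ⟨x, hx⟩ := key
    exact ⟨⟨x, hx⟩, x, by rwa [QuadraticMap.polar_comm]⟩

/-- `Q (x A + y B)` -/
lemma Q_pair (hQ : IsNondegenerateQuadraticForm Q) (x y : F) (A B : ι → F) :
    Q (x • A + y • B) = x ^ 2 * Q A + x * y * QuadraticMap.polar Q A B + y ^ 2 * Q B := by
  have h1 : QuadraticMap.polar Q (x • A) (y • B) = x * y * QuadraticMap.polar Q A B := by
    rw [hQ.polar_bilinear.smul_left, hQ.polar_bilinear.smul_right]; ring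
  have h2 : Q (x • A + y • B) = Q (x • A) + Q (y • B) + QuadraticMap.polar Q (x • A) (y • B) := by
    unfold QuadraticMap.polar; ring
  rw [h2, h1, hQ.smul, hQ.smul]
  ring

lemma polar_self (hQ : IsNondegenerateQuadraticForm Q) (A : ι → F) : QuadraticMap.polar Q A A = 2 * Q A := by
  have h1 : Q (A + A) = 4 * Q A := by
    rw [← two_smul F A, hQ.smul]; ring
  unfold QuadraticMap.polar
  rw [h1]; ring

/-- [subplus] a rational structure over the subfield of index 2: plus type. -/
theorem plus_of_sub_two [Fintype F] (hQ : IsNondegenerateQuadraticForm Q) {l : ℕ}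
    (hl : Fintype.card ι = 2 * l) {F₀ : Subfield F} (hcard : Fintype.card F = Nat.card F₀ ^ 2)
    (P : GL ι F) {ζ : F} (hζ : ζ ≠ 0)
    (hrat : IsQuadFormRationalStructure (fun v : ι → F => ζ * Q v) F₀ P) : IsPlusTypeOn Q ⊤ := by
  have hb := hQ.polar_bilinear
  rcases Nat.eq_zero_or_pos l with rfl | hlpos
  · refine ⟨⊥, bot_le, ?_, ?_⟩
    · intro w hw
      rw [Submodule.mem_bot] at hw
      subst hw
      have := hQ.smul 0 0
      simpa using this
    · rw [finrank_bot, finrank_top, Module.finrank_fintype_fun_eq_card, hl]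
  obtain ⟨l', rfl⟩ : ∃ l', l = l' + 1 := ⟨l - 1, by omega⟩
  have hl' : Fintype.card ι = 2 * l' + 2 := by omega
  obtain ⟨e₀, f₀, a₀, b₀, he, hf, hee, hff, hef, hea, heb, hfa, hfb, hdisc⟩ :=
    witt_dec (Q0_nondeg hQ hζ hrat) hl'
  set T : (ι → F₀) → ι → F := fun u => (P : Matrix ι ι F) *ᵥ up u with hT
  have cQ : ∀ u, Q0 Q F₀ P ζ hrat u = 0 → Q (T u) = 0 := by
    intro u hu
    have h2 := congrArg (fun t : F₀ => (t : F)) hu
    rw [coe_Q0] at h2
    simpa [hζ] using h2
  have cP : ∀ u v, QuadraticMap.polar (Q0 Q F₀ P ζ hrat) u v = 0 → QuadraticMap.polar Q (T u) (T v) = 0 := by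
    intro u v hu
    have h2 := congrArg (fun t : F₀ => (t : F)) hu
    rw [coe_polar_Q0] at h2
    simpa [hζ] using h2
  set A := T a₀ with hA
  set B := T b₀ with hB
  obtain ⟨x, y, hxy, hroot⟩ := quad_root hcard (Q0 Q F₀ P ζ hrat a₀).2
    (QuadraticMap.polar (Q0 Q F₀ P ζ hrat) a₀ b₀).2 (Q0 Q F₀ P ζ hrat b₀).2
  rw [coe_Q0, coe_Q0, coe_polar_Q0] at hroot
  have hdisc' : QuadraticMap.polar Q A B ^ 2 - 4 * Q A * Q B ≠ 0 := by
    intro h0
    apply hdisc
    apply Subtype.ext
    push_cast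
    rw [coe_Q0, coe_Q0, coe_polar_Q0]
    have h4 : ((4 : F₀) : F) = 4 := map_ofNat F₀.subtype 4
    rw [h4]
    linear_combination ζ ^ 2 * h0
  apply plus_of_witt hQ hl' (fun i => T (e₀ i)) (fun i => ζ • T (f₀ i)) (x • A + y • B)
  · intro i
    exact cQ _ (he i)
  · intro i j
    exact cP _ _ (hee i j)
  · intro i j
    rw [hb.smul_right]
    have h2 := congrArg (fun t : F₀ => (t : F)) (hef i j)
    rw [coe_polar_Q0] at h2
    rw [h2]
    split_ifs <;> simp
  · intro i
    rw [hb.add_right, hb.smul_right, hb.smul_right, cP _ _ (hea i), cP _ _ (heb i)]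
    simp
  · intro i
    rw [hb.smul_left, hb.add_right, hb.smul_right, hb.smul_right, cP _ _ (hfa i), cP _ _ (hfb i)]
    simp
  · intro h0
    have e1 : QuadraticMap.polar Q (x • A + y • B) A = 0 := by rw [h0, bil_zero_left hb]
    have e2 : QuadraticMap.polar Q (x • A + y • B) B = 0 := by rw [h0, bil_zero_left hb]
    rw [hb.add_left, hb.smul_left, hb.smul_left, polar_self hQ, QuadraticMap.polar_comm Q B A] at e1
    rw [hb.add_left, hb.smul_left, hb.smul_left, polar_self hQ] at e2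
    have hx : x * (QuadraticMap.polar Q A B ^ 2 - 4 * Q A * Q B) = 0 := by
      linear_combination QuadraticMap.polar Q A B * e2 - 2 * Q B * e1
    have hy : y * (QuadraticMap.polar Q A B ^ 2 - 4 * Q A * Q B) = 0 := by
      linear_combination QuadraticMap.polar Q A B * e1 - 2 * Q A * e2
    rcases hxy with h | h
    · exact h ((mul_eq_zero.1 hx).resolve_right hdisc')
    · exact h ((mul_eq_zero.1 hy).resolve_right hdisc')
  · rw [Q_pair hQ]
    have : ζ * (x ^ 2 * Q A + x * y * QuadraticMap.polar Q A B + y ^ 2 * Q B) = 0 := by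
      linear_combination hroot
    exact (mul_eq_zero.1 this).resolve_left hζ

end Cfsg.Agent.Lib.Helper40OSubplus
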