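import Cfsg.Agent.Lib.Helper96SpTv

set_option autoImplicit false
set_option linter.unusedSectionVars false

/-! PROJECT 3 = ASCH-SP, PART D, piece D_c6: some symplectic transvection does not normalise an absolutely
irreducible group of isometries `R` with scalar commutators (dimension at least 3, `2 ≠ 0`). -/

namespace Cfsg.Agent.Lib.Helper40SpDC6

open Cfsg Cfsg.Geo Matrix
open Cfsg.Agent.Lib.Helper97GBase Cfsg.Agent.Lib.Helper96SpDefs Cfsg.Agent.Lib.Helper96SpTv
open scoped MatrixGroups commutatorElement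

variable {ι : Type} [Fintype ι] [DecidableEq ι] {F : Type*} [Field F]
variable {f : (ι → F) → (ι → F) → F}

/-- a scalar isometry has square one -/
lemma sq_eq_one_of_scalar_isometry [Nonempty ι] (hf : IsSymplecticForm f) {c : F}
    (h : ∀ u v, f (c • u) (c • v) = f u v) : c * c = 1 := by
  classical
  obtain ⟨i⟩ := ‹Nonempty ι›
  have hne : (Pi.single i 1 : ι → F) ≠ 0 := by
    intro h0
    have := congrFun h0 i
    simp at this
  obtain ⟨x, hx⟩ := (hf.nondegenerate _ hne).1
  have h1 := h x (Pi.single i 1)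
  rw [hf.bilinear.smul_left, hf.bilinear.smul_right, ← mul_assoc] at h1
  exact mul_right_cancel₀ hx (by rw [h1, one_mul])

/-- every element of `R` has square `±1` -/
lemma sq_of_mem [Nonempty ι] (hf : IsSymplecticForm f) {R : Subgroup (GL ι F)}
    (habs : ActsAbsolutelyIrreducibly (matrixSet R))
    (hR : FixesForm (matrixSet R) f) (hcomm : ⁅R, R⁆ ≤ scalars ι F) {y : GL ι F} (hy : y ∈ R) :
    (y : Matrix ι ι F) * (y : Matrix ι ι F) = 1 ∨ (y : Matrix ι ι F) * (y : Matrix ι ι F) = -1 := by
  have hc : ∀ s ∈ matrixSet R, ((y : Matrix ι ι F) * (y : Matrix ι ι F)) * s =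
      s * ((y : Matrix ι ι F) * (y : Matrix ι ι F)) := by
    rintro _ ⟨r, hr, rfl⟩
    have h1 : ⁅y, r⁆ ∈ scalars ι F := hcomm (Subgroup.commutator_mem_commutator hy hr)
    have h1' : ⁅y, r⁆ ∈ R := by
      rw [commutatorElement_def]
      exact R.mul_mem (R.mul_mem (R.mul_mem hy hr) (R.inv_mem hy)) (R.inv_mem hr)
    obtain ⟨c, hc⟩ := (mem_scalars_iff _).1 h1
    have h2 : y * r = ⁅y, r⁆ * (r * y) := by
      rw [commutatorElement_def]; group
    have h3 : (y : Matrix ι ι F) * (r : Matrix ι ι F) = (c : F) • ((r : Matrix ι ι F) * (y : Matrix ι ι F)) := by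
      have := congrArg (fun g : GL ι F => (g : Matrix ι ι F)) h2
      simp only [Units.val_mul] at this
      rw [this, hc, Matrix.smul_mul, Matrix.one_mul]
    have h4 : (c : F) * (c : F) = 1 := by
      apply sq_eq_one_of_scalar_isometry hf
      intro u v
      have h5 := fixes_apply hR h1' u v
      rw [hc, Matrix.smul_mulVec, Matrix.smul_mulVec, Matrix.one_mulVec, Matrix.one_mulVec] at h5
      exact h5
    rw [mul_assoc, h3, Matrix.mul_smul, ← mul_assoc, h3, Matrix.smul_mul, smul_smul, h4, one_smul, mul_assoc]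
  obtain ⟨d, hd⟩ := habs.2 _ hc
  have hd2 : d * d = 1 := by
    apply sq_eq_one_of_scalar_isometry hf
    intro u v
    have h5 := fixes_apply hR (R.mul_mem hy hy) u v
    rw [Units.val_mul, hd, Matrix.smul_mulVec, Matrix.smul_mulVec, Matrix.one_mulVec, Matrix.one_mulVec] at h5
    exact h5
  rcases mul_self_eq_one_iff.1 hd2 with rfl | rfl
  · left; rw [hd, one_smul]
  · right; rw [hd, neg_smul, one_smul]

/-- two independent vectors are separated by the form -/
lemma exists_sep (hf : IsSymplecticForm f) {v w : ι → F} (hv : v ≠ 0) (hw : w ∉ Submodule.span F {v}) :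
    ∃ z, f z v = 1 ∧ f z w = 0 := by
  have hw0 : w ≠ 0 := by
    rintro rfl
    exact hw (Submodule.zero_mem _)
  by_contra hcon
  have hcon' : ∀ z, f z w = 0 → f z v = 0 := by
    intro z hz
    by_contra hzv
    apply hcon
    refine ⟨(f z v)⁻¹ • z, ?_, ?_⟩
    · rw [hf.bilinear.smul_left, inv_mul_cancel₀ hzv]
    · rw [hf.bilinear.smul_left, hz, mul_zero]
  obtain ⟨z₀, hz₀⟩ := (hf.nondegenerate w hw0).1
  have hvw : v = (f z₀ v / f z₀ w) • w := by
    apply eq_of_forall_right hf.bilinear hf.nondegenerate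
    intro u
    have h1 := hcon' (u - (f u w / f z₀ w) • z₀) (by
      rw [bil_sub_left hf.bilinear, hf.bilinear.smul_left]
      field_simp
      ring)
    rw [bil_sub_left hf.bilinear, hf.bilinear.smul_left, sub_eq_zero] at h1
    rw [hf.bilinear.smul_right, h1]
    field_simp
  generalize f z₀ v / f z₀ w = μ at hvw
  have hμ : μ ≠ 0 := by
    intro h0
    rw [h0, zero_smul] at hvw
    exact hv hvw
  apply hw
  rw [Submodule.mem_span_singleton]
  refine ⟨μ⁻¹, ?_⟩
  rw [hvw, smul_smul, inv_mul_cancel₀ hμ, one_smul]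

/-- [D_c6], in dimension at least 3 and without finiteness. -/
theorem notSp_c6' (hf : IsSymplecticForm f) (h2 : (2 : F) ≠ 0) (hn : 3 ≤ Fintype.card ι)
    {R : Subgroup (GL ι F)} (habs : ActsAbsolutelyIrreducibly (matrixSet R))
    (hR : FixesForm (matrixSet R) f) (hcomm : ⁅R, R⁆ ≤ scalars ι F) :
    ∃ v c, tv hf v c ∉ subgroupNormalizer R := by
  classical
  have hne : Nonempty ι := Fintype.card_pos_iff.1 (by omega)
  by_contra hcon
  push Not at hcon
  obtain ⟨i⟩ := hne
  set v : ι → F := Pi.single i 1 with hv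
  have hv0 : v ≠ 0 := by
    intro h0
    have := congrFun h0 i
    simp [hv] at this
  -- some element of `R` moves the line `F v`
  have hx : ∃ x ∈ R, (x : Matrix ι ι F) *ᵥ v ∉ Submodule.span F {v} := by
    by_contra hx
    push Not at hx
    rcases habs.1 (Submodule.span F {v}) (by
      rintro _ ⟨x, hxR, rfl⟩
      rw [Submodule.map_span_le]
      intro w hw
      rw [Set.mem_singleton_iff] at hw
      subst hw
      rw [Matrix.toLin'_apply]
      exact hx x hxR) with h | h
    · rw [Submodule.span_singleton_eq_bot] at h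
      exact hv0 h
    · have h1 := finrank_span_singleton (K := F) hv0
      rw [h, finrank_top, Module.finrank_fintype_fun_eq_card] at h1
      omega
  obtain ⟨x, hxR, hxv⟩ := hx
  have hne : Nonempty ι := ⟨i⟩
  set w : ι → F := (x : Matrix ι ι F) *ᵥ v with hw
  -- the commutator of the transvection and `x`
  have hyR : tv hf v 1 * x * (tv hf v 1)⁻¹ * x⁻¹ ∈ R := by
    have h1 := hcon v 1
    unfold subgroupNormalizer at h1
    rw [Subgroup.mem_normalizer_iff] at h1
    exact R.mul_mem ((h1 x).1 hxR) (R.inv_mem hxR)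
  have hyeq : tv hf v 1 * x * (tv hf v 1)⁻¹ * x⁻¹ = tv hf v 1 * tv hf w (-1) := by
    rw [mul_assoc, mul_assoc, ← mul_assoc x, tv_inv, conj_tv hf (fixes_apply hR hxR)]
  rw [hyeq] at hyR
  set y : GL ι F := tv hf v 1 * tv hf w (-1) with hy
  have hyz : ∀ z, (y : Matrix ι ι F) *ᵥ z = z - f z w • w + (f z v - f z w * f w v) • v := by
    intro z
    rw [hy, Units.val_mul, ← Matrix.mulVec_mulVec, tv_mulVec, tv_mulVec, hf.bilinear.add_left,
      hf.bilinear.smul_left]
    simp only [neg_mul, one_mul, neg_smul]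
    rw [sub_eq_add_neg, sub_eq_add_neg]
  rcases sq_of_mem hf habs hR hcomm hyR with h1 | h1
  · obtain ⟨z, hz1, hz2⟩ := exists_sep hf hv0 hxv
    have h3 : (y : Matrix ι ι F) *ᵥ ((y : Matrix ι ι F) *ᵥ z) = z := by
      rw [Matrix.mulVec_mulVec, h1, Matrix.one_mulVec]
    have h4 : (y : Matrix ι ι F) *ᵥ z = z + v := by
      rw [hyz, hz1, hz2]; simp
    have h5 : (y : Matrix ι ι F) *ᵥ v = v + f w v • w + (f w v * f w v) • v := by
      rw [hyz, hf.alternating, hf.skew v w]; simp
    rw [h4, Matrix.mulVec_add, h4, h5] at h3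
    have h6 : f w v • w = - ((2 + f w v * f w v) • v) := by
      have : z + v + (v + f w v • w + (f w v * f w v) • v) - z = 0 := by rw [h3, sub_self]
      rw [eq_neg_iff_add_eq_zero, ← this, add_smul, two_smul]
      abel
    by_cases hγ : f w v = 0
    · rw [hγ] at h6
      simp only [zero_smul, mul_zero, add_zero] at h6
      have h7 : (2 : F) • v = 0 := by
        rw [← neg_eq_zero]; exact h6.symm
      rcases smul_eq_zero.1 h7 with h8 | h8
      · exact h2 h8
      · exact hv0 h8
    · apply hxv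
      rw [Submodule.mem_span_singleton]
      refine ⟨- ((f w v)⁻¹ * (2 + f w v * f w v)), ?_⟩
      rw [neg_smul, mul_smul, ← smul_neg, ← h6, smul_smul, inv_mul_cancel₀ hγ, one_smul]
  · have hspan : ∀ z, (y : Matrix ι ι F) *ᵥ z - z ∈ Submodule.span F {v, w} := by
      intro z
      rw [hyz]
      have e : z - f z w • w + (f z v - f z w * f w v) • v - z =
          (f z v - f z w * f w v) • v - f z w • w := by abel
      rw [e]
      exact Submodule.sub_mem _ (Submodule.smul_mem _ _ (Submodule.subset_span (by simp)))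
        (Submodule.smul_mem _ _ (Submodule.subset_span (by simp)))
    have htop : Submodule.span F {v, w} = ⊤ := by
      rw [eq_top_iff]
      intro z _
      have h3 : (y : Matrix ι ι F) *ᵥ ((y : Matrix ι ι F) *ᵥ z) = - z := by
        rw [Matrix.mulVec_mulVec, h1, Matrix.neg_mulVec, Matrix.one_mulVec]
      have h4 := Submodule.add_mem _ (hspan ((y : Matrix ι ι F) *ᵥ z)) (hspan z)
      rw [h3] at h4
      have e : -z - (y : Matrix ι ι F) *ᵥ z + ((y : Matrix ι ι F) *ᵥ z - z) = (-2 : F) • z := by
        rw [neg_smul, two_smul]; abel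
      rw [e] at h4
      have h5 := Submodule.smul_mem _ ((-2 : F)⁻¹) h4
      rwa [smul_smul, inv_mul_cancel₀ (neg_ne_zero.2 h2), one_smul] at h5
    have h6 : Module.finrank F (Submodule.span F ({v, w} : Set (ι → F))) ≤ 2 := by
      have := finrank_span_finset_le_card (R := F) ({v, w} : Finset (ι → F))
      have h7 : ({v, w} : Finset (ι → F)).card ≤ 2 := Finset.card_le_two
      simp only [Finset.coe_insert, Finset.coe_singleton] at this
      unfold Set.finrank at this
      omega
    rw [htop, finrank_top, Module.finrank_fintype_fun_eq_card] at h6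
    omega

/-- [D_c6] -/
theorem notSp_c6 [Finite F] (hf : IsSymplecticForm f) (h2 : (2 : F) ≠ 0) (hn : 4 ≤ Fintype.card ι)
    {R : Subgroup (GL ι F)} (habs : ActsAbsolutelyIrreducibly (matrixSet R))
    (hR : FixesForm (matrixSet R) f) (hcomm : ⁅R, R⁆ ≤ scalars ι F) :
    ∃ v c, tv hf v c ∉ subgroupNormalizer R :=
  notSp_c6' hf h2 (by omega) habs hR hcomm

end Cfsg.Agent.Lib.Helper40SpDC6
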