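import Cfsg.Agent.Lib.Helper96SpDefs

set_option autoImplicit false
set_option linter.unusedSectionVars false

namespace Cfsg.Agent.Lib.Helper97SpRed

open Cfsg Cfsg.Geo Matrix
open Cfsg.Agent.Lib.Helper97GBase Cfsg.Agent.Lib.Helper96SpDefs
open scoped MatrixGroups

variable {ι : Type} [Fintype ι] [DecidableEq ι] {F : Type*} [Field F]
variable {f : (ι → F) → (ι → F) → F} {H : Subgroup (GL ι F)}

/-- the bilinear form of Mathlib attached to a bilinear form given as a function -/
def bilF (hf : IsBilinearForm f) : LinearMap.BilinForm F (ι → F) :=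
  LinearMap.mk₂ F f hf.add_left hf.smul_left hf.add_right hf.smul_right

@[simp] lemma bilF_apply (hf : IsBilinearForm f) (u v : ι → F) : bilF hf u v = f u v := rfl

lemma bilF_nondeg (hf : IsBilinearForm f) (hnd : IsNondegenerateForm f) : (bilF hf).Nondegenerate := by
  constructor
  · intro v hv
    by_contra h0
    obtain ⟨x, hx⟩ := (hnd v h0).2
    exact hx (hv x)
  · intro v hv
    by_contra h0
    obtain ⟨x, hx⟩ := (hnd v h0).1
    exact hx (hv x)

lemma bilF_refl (hf : IsSymplecticForm f) : (bilF hf.bilinear).IsRefl := by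
  intro u v h
  change f v u = 0
  rw [hf.skew, show f u v = 0 from h, neg_zero]

/-- the orthogonal complement -/
def perp (hf : IsSymplecticForm f) (W : Submodule F (ι → F)) : Submodule F (ι → F) :=
  (bilF hf.bilinear).orthogonal W

lemma mem_perp (hf : IsSymplecticForm f) {W : Submodule F (ι → F)} {v : ι → F} :
    v ∈ perp hf W ↔ ∀ w ∈ W, f w v = 0 := Iff.rfl

lemma Inv_perp (hf : IsSymplecticForm f) (hH : FixesForm (matrixSet H) f) {W : Submodule F (ι → F)}
    (hW : Inv H W) : Inv H (perp hf W) := by
  intro h hh v hv w hw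
  have h1 := hH _ ⟨h, hh, rfl⟩ (((h⁻¹ : GL ι F) : Matrix ι ι F) *ᵥ w) v
  rw [mulVec_inv_mulVec] at h1
  change f w _ = 0
  rw [h1]
  exact hv _ (hW h⁻¹ (H.inv_mem hh) w hw)

lemma finrank_perp (hf : IsSymplecticForm f) (W : Submodule F (ι → F)) :
    Module.finrank F W + Module.finrank F (perp hf W) = Fintype.card ι := by
  have h := LinearMap.BilinForm.finrank_orthogonal (bilF_nondeg hf.bilinear hf.nondegenerate) W
  have h1 : Module.finrank F W ≤ Module.finrank F (ι → F) := Submodule.finrank_le W
  rw [Module.finrank_fintype_fun_eq_card] at h h1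
  unfold perp
  omega

lemma perp_perp (hf : IsSymplecticForm f) (W : Submodule F (ι → F)) : perp hf (perp hf W) = W :=
  LinearMap.BilinForm.orthogonal_orthogonal (bilF_nondeg hf.bilinear hf.nondegenerate) (bilF_refl hf) W

lemma nondegOn_of_inf (hf : IsSymplecticForm f) {W : Submodule F (ι → F)} (h : W ⊓ perp hf W = ⊥) :
    IsNondegenerateOn f W := by
  intro w hw hw0
  have key : ∃ x ∈ W, f x w ≠ 0 := by
    by_contra hcon
    push Not at hcon
    have : w ∈ W ⊓ perp hf W := ⟨hw, fun x hx => hcon x hx⟩
    rw [h] at this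
    exact hw0 ((Submodule.mem_bot F).mp this)
  obtain ⟨x, hx, hxw⟩ := key
  refine ⟨⟨x, hx, hxw⟩, x, hx, ?_⟩
  rw [hf.skew]
  exact neg_ne_zero.mpr hxw

lemma map_eq_of_Inv {W : Submodule F (ι → F)} (hW : Inv H W) {h : GL ι F} (hh : h ∈ H) :
    W.map (Matrix.toLin' (h : Matrix ι ι F)) = W := by
  apply le_antisymm
  · rintro _ ⟨w, hw, rfl⟩
    rw [Matrix.toLin'_apply]
    exact hW h hh w hw
  · intro w hw
    refine ⟨((h⁻¹ : GL ι F) : Matrix ι ι F) *ᵥ w, hW h⁻¹ (H.inv_mem hh) w hw, ?_⟩
    rw [Matrix.toLin'_apply, mulVec_inv_mulVec]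

/-- [red] reducible subgroups. -/
theorem sp_reducible (hf : IsSymplecticForm f) (hH : FixesForm (matrixSet H) f)
    (hred : ¬ ActsIrreducibly (matrixSet H)) : AltTS f H ∨ AltND f H ∨ AltDec f H := by
  rw [actsIrreducibly_iff] at hred
  push Not at hred
  obtain ⟨W, hW, h0, h1⟩ := hred
  have hWp := Inv_perp hf hH hW
  by_cases hR : W ⊓ perp hf W = ⊥
  swap
  · left
    refine ⟨W ⊓ perp hf W, hR, ?_, le_subspaceStabilizer_of_Inv ?_⟩
    · intro u hu v hv
      exact hv.2 u hu.1
    · intro h hh w hw
      exact ⟨hW h hh w hw.1, hWp h hh w hw.2⟩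
  right
  have hdim := finrank_perp hf W
  have hR' : perp hf W ⊓ perp hf (perp hf W) = ⊥ := by rw [perp_perp, inf_comm]; exact hR
  have hnd := nondegOn_of_inf hf hR
  have hnd' := nondegOn_of_inf hf hR'
  have hpos : 0 < Module.finrank F W := Module.finrank_pos_iff_exists_ne_zero.mpr (by
    obtain ⟨w, hw, hw0⟩ := (Submodule.ne_bot_iff W).mp h0
    exact ⟨⟨w, hw⟩, fun h => hw0 (congrArg Subtype.val h)⟩)
  have hp0 : perp hf W ≠ ⊥ := by
    intro h
    rw [h, finrank_bot, add_zero] at hdim
    apply h1
    apply Submodule.eq_top_of_finrank_eq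
    rw [hdim, Module.finrank_fintype_fun_eq_card]
  rcases lt_trichotomy (Module.finrank F W) (Module.finrank F (perp hf W)) with hlt | heq | hlt
  · left
    exact ⟨W, h0, hnd, by omega, le_subspaceStabilizer_of_Inv hW⟩
  · right
    have hdisj : Disjoint W (perp hf W) := disjoint_iff.mpr hR
    have hsup : W ⊔ perp hf W = ⊤ := by
      apply Submodule.eq_top_of_finrank_eq
      have := Submodule.finrank_sup_add_finrank_inf_eq W (perp hf W)
      rw [hR, finrank_bot, add_zero] at this
      rw [this, hdim, Module.finrank_fintype_fun_eq_card]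
    refine ⟨2, Module.finrank F W, ![W, perp hf W], ⟨⟨le_rfl, hpos, ?_, ?_, ?_⟩, ?_, ?_⟩, ?_⟩
    · intro i
      fin_cases i
      · rfl
      · exact heq.symm
    · rw [iSupIndep_def]
      intro i
      fin_cases i
      · have : (⨆ j, ⨆ (_ : j ≠ (0 : Fin 2)), (![W, perp hf W] : Fin 2 → Submodule F (ι → F)) j) ≤
            perp hf W := by
          apply iSup_le
          intro j
          apply iSup_le
          intro hj
          fin_cases j
          · exact absurd rfl hj
          · exact le_rfl
        exact hdisj.mono_right this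
      · have : (⨆ j, ⨆ (_ : j ≠ (1 : Fin 2)), (![W, perp hf W] : Fin 2 → Submodule F (ι → F)) j) ≤ W := by
          apply iSup_le
          intro j
          apply iSup_le
          intro hj
          fin_cases j
          · exact le_rfl
          · exact absurd rfl hj
        exact hdisj.symm.mono_right this
    · rw [eq_top_iff, ← hsup]
      apply sup_le
      · exact le_iSup (![W, perp hf W] : Fin 2 → Submodule F (ι → F)) 0
      · exact le_iSup (![W, perp hf W] : Fin 2 → Submodule F (ι → F)) 1
    · intro i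
      fin_cases i
      · exact hnd
      · exact hnd'
    · intro i j hij
      fin_cases i <;> fin_cases j
      · exact absurd rfl hij
      · intro u hu v hv
        exact hv u hu
      · intro u hu v hv
        rw [hf.skew, show f v u = 0 from hu v hv, neg_zero]
      · exact absurd rfl hij
    · intro h hh
      refine ⟨1, fun i => ?_⟩
      fin_cases i
      · exact map_eq_of_Inv hW hh
      · exact map_eq_of_Inv hWp hh
  · left
    exact ⟨perp hf W, hp0, hnd', by omega, le_subspaceStabilizer_of_Inv hWp⟩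

end Cfsg.Agent.Lib.Helper97SpRed
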