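import Cfsg.Agent.Lib.Helper96SpTv
import Cfsg.Agent.Lib.Helper97SpRed
import Cfsg.Agent.Lib.Helper58GD
import Cfsg.Agent.Lib.Helper40SpDC6

set_option autoImplicit false
set_option linter.unusedSectionVars false
set_option linter.unusedSimpArgs false

/-! PROJECT 3 = ASCH-SP, PART D for `Sp_4(3)`, piece D_pair3: the stabiliser of a pair of complementary totally
singular planes stabilises a decomposition into two non-degenerate planes. -/

namespace Cfsg.Agent.Lib.Helper40SpDPair3

open Cfsg Cfsg.Geo Matrix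
open Cfsg.Agent.Lib.Helper97GBase Cfsg.Agent.Lib.Helper96SpDefs Cfsg.Agent.Lib.Helper97SpRed
open scoped MatrixGroups

variable {ι : Type} [Fintype ι] [DecidableEq ι] {F : Type*} [Field F]
variable {f : (ι → F) → (ι → F) → F} {H : Subgroup (GL ι F)}

/-- `W ⊕ W^⊥` as a non-degenerate decomposition -/
lemma dec_of_perp (hf : IsSymplecticForm f) {W : Submodule F (ι → F)} (hR : W ⊓ perp hf W = ⊥)
    (heq : Module.finrank F W = Module.finrank F (perp hf W)) (h0 : W ≠ ⊥) :
    IsNondegenerateMDecomposition f (Module.finrank F W) ![W, perp hf W] := by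
  have hdim := finrank_perp hf W
  have hR' : perp hf W ⊓ perp hf (perp hf W) = ⊥ := by rw [perp_perp, inf_comm]; exact hR
  have hnd := nondegOn_of_inf hf hR
  have hnd' := nondegOn_of_inf hf hR'
  have hpos : 0 < Module.finrank F W := Module.finrank_pos_iff_exists_ne_zero.mpr (by
    obtain ⟨w, hw, hw0⟩ := (Submodule.ne_bot_iff W).mp h0
    exact ⟨⟨w, hw⟩, fun h => hw0 (congrArg Subtype.val h)⟩)
  have hdisj : Disjoint W (perp hf W) := disjoint_iff.mpr hR
  have hsup : W ⊔ perp hf W = ⊤ := by
    apply Submodule.eq_top_of_finrank_eq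
    have := Submodule.finrank_sup_add_finrank_inf_eq W (perp hf W)
    rw [hR, finrank_bot, add_zero] at this
    rw [this, hdim, Module.finrank_fintype_fun_eq_card]
  refine ⟨⟨le_rfl, hpos, ?_, ?_, ?_⟩, ?_, ?_⟩
  · intro i
    fin_cases i
    · rfl
    · exact heq.symm
  · rw [iSupIndep_def]
    intro i
    fin_cases i
    · have : (⨆ j, ⨆ (_ : j ≠ (0 : Fin 2)), (![W, perp hf W] : Fin 2 → Submodule F (ι → F)) j) ≤
          perp hf W := by
        apply iSup_le
        intro j
        apply iSup_le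
        intro hj
        fin_cases j
        · exact absurd rfl hj
        · exact le_rfl
      exact hdisj.mono_right this
    · have : (⨆ j, ⨆ (_ : j ≠ (1 : Fin 2)), (![W, perp hf W] : Fin 2 → Submodule F (ι → F)) j) ≤ W := by
        apply iSup_le
        intro j
        apply iSup_le
        intro hj
        fin_cases j
        · exact le_rfl
        · exact absurd rfl hj
      exact hdisj.symm.mono_right this
  · rw [eq_top_iff, ← hsup]
    apply sup_le
    · exact le_iSup (![W, perp hf W] : Fin 2 → Submodule F (ι → F)) 0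
    · exact le_iSup (![W, perp hf W] : Fin 2 → Submodule F (ι → F)) 1
  · intro i
    fin_cases i
    · exact hnd
    · exact hnd'
  · intro i j hij
    fin_cases i <;> fin_cases j
    · exact absurd rfl hij
    · intro u hu v hv
      exact hv u hu
    · intro u hu v hv
      rw [hf.skew, show f v u = 0 from hu v hv, neg_zero]
    · exact absurd rfl hij

/-- an isometry commutes with `⊥` -/
lemma map_perp (hf : IsSymplecticForm f) {h : GL ι F}
    (hh : ∀ u v, f ((h : Matrix ι ι F) *ᵥ u) ((h : Matrix ι ι F) *ᵥ v) = f u v) (W : Submodule F (ι → F)) :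
    (perp hf W).map (Matrix.toLin' (h : Matrix ι ι F)) = perp hf (W.map (Matrix.toLin' (h : Matrix ι ι F))) := by
  apply le_antisymm
  · rintro _ ⟨v, hv, rfl⟩
    rw [mem_perp]
    rintro _ ⟨w, hw, rfl⟩
    rw [Matrix.toLin'_apply, Matrix.toLin'_apply, hh]
    exact (mem_perp hf).1 hv w hw
  · intro v hv
    refine ⟨((h⁻¹ : GL ι F) : Matrix ι ι F) *ᵥ v, ?_, ?_⟩
    · change _ ∈ perp hf W
      rw [mem_perp]
      intro w hw
      rw [← hh, mulVec_inv_mulVec]
      exact (mem_perp hf).1 hv _ ⟨w, hw, Matrix.toLin'_apply _ _⟩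
    · rw [Matrix.toLin'_apply, mulVec_inv_mulVec]

/-- a group of isometries permuting `W` and `W^⊥` -/
lemma altDec_of_map (hf : IsSymplecticForm f) (hH : FixesForm (matrixSet H) f) {W : Submodule F (ι → F)}
    (hR : W ⊓ perp hf W = ⊥) (heq : Module.finrank F W = Module.finrank F (perp hf W)) (h0 : W ≠ ⊥)
    (hmap : ∀ h ∈ H, W.map (Matrix.toLin' (h : Matrix ι ι F)) = W ∨
      W.map (Matrix.toLin' (h : Matrix ι ι F)) = perp hf W) : AltDec f H := by
  refine ⟨2, Module.finrank F W, ![W, perp hf W], dec_of_perp hf hR heq h0, ?_⟩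
  intro h hh
  have hp := map_perp hf (fixes_apply hH hh) W
  rcases hmap h hh with h1 | h1
  · refine ⟨1, fun i => ?_⟩
    fin_cases i
    · exact h1
    · change (perp hf W).map _ = perp hf W
      rw [hp, h1]
  · refine ⟨Equiv.swap 0 1, fun i => ?_⟩
    fin_cases i
    · exact h1
    · change (perp hf W).map _ = W
      rw [hp, h1, perp_perp]

/-- the elements of the field with three elements -/
lemma three_cases [Fintype F] (hq : Fintype.card F = 3) : (3 : F) = 0 ∧ ∀ x : F, x = 0 ∨ x = 1 ∨ x = -1 := by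
  classical
  have h3 : (3 : F) = 0 := by
    have := Nat.cast_card_eq_zero F
    rw [hq] at this
    exact_mod_cast this
  refine ⟨h3, ?_⟩
  have h2 : (1 : F) ≠ -1 := by
    intro h
    have h4 : (1 : F) = 0 := by linear_combination h3 - h
    exact one_ne_zero h4
  have hcard : ({0, 1, -1} : Finset F).card = 3 := by
    rw [Finset.card_insert_of_notMem, Finset.card_insert_of_notMem, Finset.card_singleton]
    · simpa using h2
    · simp
  have huniv : ({0, 1, -1} : Finset F) = Finset.univ := by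
    apply Finset.eq_univ_of_card
    rw [hcard, hq]
  intro x
  have hx : x ∈ ({0, 1, -1} : Finset F) := by rw [huniv]; exact Finset.mem_univ x
  simpa using hx

/-- the key computation: change of hyperbolic frames -/
lemma frame_key (hf : IsSymplecticForm f) (h3 : ∀ x : F, x = 0 ∨ x = 1 ∨ x = -1)
    {a b a' b' : ι → F} (haa : f a a' = 1) (hbb : f b b' = 1) (hab' : f a b' = 0) (hba' : f b a' = 0)
    {α β γ δ α' β' γ' δ' : F}
    (h1 : f (α • a + β • b) (α' • a' + β' • b') = 1)
    (h2 : f (α • a + β • b) (γ' • a' + δ' • b') = 0)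
    (h3' : f (γ • a + δ • b) (α' • a' + β' • b') = 0)
    (h4 : f (γ • a + δ • b) (γ' • a' + δ' • b') = 1) :
    ∃ d : F, (d = 1 ∨ d = -1) ∧
      (α • a + β • b) + (γ' • a' + δ' • b') = α • (a + d • b') + β • (b - d • a') ∧
      (γ • a + δ • b) - (α' • a' + β' • b') = γ • (a + d • b') + δ • (b - d • a') := by
  simp only [hf.bilinear.add_left, hf.bilinear.add_right, hf.bilinear.smul_left, hf.bilinear.smul_right,
    haa, hbb, hab', hba'] at h1 h2 h3' h4
  set d : F := α * δ - β * γ with hd
  have e1 : γ' * d = -β := by rw [hd]; linear_combination δ * h2 - β * h4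
  have e2 : δ' * d = α := by rw [hd]; linear_combination α * h4 - γ * h2
  have e3 : α' * d = δ := by rw [hd]; linear_combination δ * h1 - β * h3'
  have e4 : β' * d = -γ := by rw [hd]; linear_combination α * h3' - γ * h1
  have hd0 : d ≠ 0 := by
    intro h0
    rw [h0, mul_zero] at e1 e2
    have hβ : β = 0 := by linear_combination e1
    rw [← e2, hβ] at h1
    simp at h1
  have hd1 : d = 1 ∨ d = -1 := by
    rcases h3 d with h | h
    · exact absurd h hd0
    · exact h
  have hdd : d * d = 1 := by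
    rcases hd1 with h | h <;> rw [h] <;> ring
  have f1 : γ' = -β * d := by linear_combination d * e1 - γ' * hdd
  have f2 : δ' = α * d := by linear_combination d * e2 - δ' * hdd
  have f3 : α' = δ * d := by linear_combination d * e3 - α' * hdd
  have f4 : β' = -γ * d := by linear_combination d * e4 - β' * hdd
  refine ⟨d, hd1, ?_, ?_⟩
  · rw [f1, f2]
    simp only [smul_add, smul_sub, smul_smul, neg_mul, neg_smul]
    abel
  · rw [f3, f4]
    simp only [smul_add, smul_sub, smul_smul, neg_mul, neg_smul]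
    abel

/-- a hyperbolic frame adapted to a pair of complementary totally singular planes -/
lemma exists_frame (hf : IsSymplecticForm f) {D : Fin 2 → Submodule F (ι → F)} (hD : IsMDecomposition 2 D)
    (hTS : ∀ i, IsTotallySingularFor f (D i)) :
    ∃ a b a' b' : ι → F, a ∈ D 0 ∧ b ∈ D 0 ∧ a' ∈ D 1 ∧ b' ∈ D 1 ∧
      f a a' = 1 ∧ f b b' = 1 ∧ f a b' = 0 ∧ f b a' = 0 ∧
      (∀ u ∈ D 0, ∃ x y : F, u = x • a + y • b) ∧ (∀ u ∈ D 1, ∃ x y : F, u = x • a' + y • b') := by
  have htop : D 0 ⊔ D 1 = ⊤ := by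
    rw [eq_top_iff, ← hD.iSup_eq_top]
    apply iSup_le
    intro i
    fin_cases i
    · exact le_sup_left
    · exact le_sup_right
  have hortho : ∀ v, (∀ u ∈ D 0, f u v = 0) → (∀ u ∈ D 1, f u v = 0) → v = 0 := by
    intro v h0 h1
    by_contra hv
    obtain ⟨x, hx⟩ := (hf.nondegenerate v hv).1
    have hx' : x ∈ D 0 ⊔ D 1 := by rw [htop]; exact Submodule.mem_top
    obtain ⟨u, hu, u', hu', rfl⟩ := Submodule.mem_sup.1 hx'
    apply hx
    rw [hf.bilinear.add_left, h0 u hu, h1 u' hu', add_zero]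
  let bU := Module.finBasisOfFinrankEq F (D 0) (hD.finrank_eq 0)
  set a : ι → F := (bU 0 : ι → F) with ha
  set b : ι → F := (bU 1 : ι → F) with hb
  have hspan : ∀ u ∈ D 0, ∃ x y : F, u = x • a + y • b := by
    intro u hu
    have h1 := bU.sum_repr ⟨u, hu⟩
    rw [Fin.sum_univ_two] at h1
    refine ⟨bU.repr ⟨u, hu⟩ 0, bU.repr ⟨u, hu⟩ 1, ?_⟩
    have h2 := congrArg (fun t : D 0 => (t : ι → F)) h1
    exact h2.symm
  let L : D 1 →ₗ[F] (Fin 2 → F) :=
    { toFun := fun u => ![f a u, f b u]
      map_add' := by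
        intro u v
        ext i
        fin_cases i <;> simp [hf.bilinear.add_right]
      map_smul' := by
        intro c u
        ext i
        fin_cases i <;> simp [hf.bilinear.smul_right] }
  have hLinj : Function.Injective L := by
    rw [← LinearMap.ker_eq_bot, LinearMap.ker_eq_bot']
    intro u hu
    have h0 : f a u = 0 := congrFun hu 0
    have h1 : f b u = 0 := congrFun hu 1
    apply Subtype.ext
    apply hortho
    · intro w hw
      obtain ⟨x, y, rfl⟩ := hspan w hw
      rw [hf.bilinear.add_left, hf.bilinear.smul_left, hf.bilinear.smul_left, h0, h1]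
      simp
    · intro w hw
      exact hTS 1 w hw u u.2
  have hLsurj : Function.Surjective L := by
    apply (LinearMap.injective_iff_surjective_of_finrank_eq_finrank ?_).1 hLinj
    rw [hD.finrank_eq 1]
    simp
  obtain ⟨a', ha'⟩ := hLsurj ![1, 0]
  obtain ⟨b', hb'⟩ := hLsurj ![0, 1]
  have g1 : f a a' = 1 := congrFun ha' 0
  have g2 : f b a' = 0 := congrFun ha' 1
  have g3 : f a b' = 0 := congrFun hb' 0
  have g4 : f b b' = 1 := congrFun hb' 1
  refine ⟨a, b, a', b', (bU 0).2, (bU 1).2, a'.2, b'.2, g1, g4, g3, g2, hspan, ?_⟩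
  intro u hu
  refine ⟨f a u, f b u, ?_⟩
  rw [← sub_eq_zero]
  apply hortho
  · intro w hw
    obtain ⟨x, y, rfl⟩ := hspan w hw
    simp only [hf.bilinear.add_left, hf.bilinear.smul_left, bil_sub_right hf.bilinear, hf.bilinear.add_right,
      hf.bilinear.smul_right, g1, g2, g3, g4]
    ring
  · intro w hw
    simp only [bil_sub_right hf.bilinear, hf.bilinear.add_right, hf.bilinear.smul_right, hTS 1 w hw u hu,
      hTS 1 w hw a' a'.2, hTS 1 w hw b' b'.2]
    ring

lemma finrank_map_gl (h : GL ι F) (W : Submodule F (ι → F)) :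
    Module.finrank F (W.map (Matrix.toLin' (h : Matrix ι ι F))) = Module.finrank F W := by
  have hinj : Function.Injective (Matrix.toLin' (h : Matrix ι ι F)) := by
    intro u v huv
    rw [Matrix.toLin'_apply, Matrix.toLin'_apply] at huv
    exact mulVec_injective h huv
  exact (Submodule.equivMapOfInjective _ hinj W).finrank_eq.symm

/-- a hyperbolic pair spans a non-degenerate plane -/
lemma hyperbolic_pair (hf : IsSymplecticForm f) {w1 w2 : ι → F} (hw12 : f w1 w2 = 1) :
    Module.finrank F (Submodule.span F {w1, w2}) = 2 ∧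
      Submodule.span F {w1, w2} ⊓ perp hf (Submodule.span F {w1, w2}) = ⊥ := by
  have hw21 : f w2 w1 = -1 := by rw [hf.skew, hw12]
  constructor
  · have hli : LinearIndependent F ![w1, w2] := by
      rw [LinearIndependent.pair_iff]
      intro s t hst
      have e1 := congrArg (fun x => f x w2) hst
      have e2 := congrArg (fun x => f x w1) hst
      simp only [hf.bilinear.add_left, hf.bilinear.smul_left, hw12, hw21, hf.alternating,
        bil_zero_left hf.bilinear] at e1 e2
      constructor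
      · linear_combination e1
      · linear_combination -e2
    have h1 := finrank_span_eq_card hli
    have h2 : Set.range ![w1, w2] = {w1, w2} := by
      simp [Matrix.range_cons, Matrix.range_empty, Set.pair_comm]
    rw [h2] at h1
    simpa using h1
  · rw [eq_bot_iff]
    rintro x ⟨hx1, hx2⟩
    obtain ⟨s, t, rfl⟩ := Submodule.mem_span_pair.1 hx1
    have e1 := (mem_perp hf).1 hx2 _ (Submodule.subset_span (Set.mem_insert _ _))
    have e2 := (mem_perp hf).1 hx2 _ (Submodule.subset_span (Set.mem_insert_of_mem _ (Set.mem_singleton _)))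
    simp only [hf.bilinear.add_right, hf.bilinear.smul_right, hw12, hw21, hf.alternating] at e1 e2
    have hs : s = 0 := by linear_combination -e2
    have ht : t = 0 := by linear_combination e1
    rw [hs, ht]
    simp

/-- [D_pair3] -/
theorem pair3_dec [Fintype F] (hq : Fintype.card F = 3) (hn : Fintype.card ι = 4) (hf : IsSymplecticForm f)
    (hH : FixesForm (matrixSet H) f) (h : AltPair f H) : AltDec f H := by
  obtain ⟨k, D, hD, hTS, hle⟩ := h
  have hk : k = 2 := by
    have := Cfsg.Agent.Lib.Helper58GD.decomp_card D hD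
    omega
  subst hk
  obtain ⟨h30, h3⟩ := three_cases hq
  obtain ⟨a, b, a', b', ha, hb, ha', hb', g1, g2, g3, g4, hsp0, hsp1⟩ := exists_frame hf hD hTS
  -- the Gram matrix
  have k1 : f a a = 0 := hf.alternating a
  have k2 : f b b = 0 := hf.alternating b
  have k3 : f a' a' = 0 := hf.alternating a'
  have k4 : f b' b' = 0 := hf.alternating b'
  have k5 : f a b = 0 := hTS 0 a ha b hb
  have k6 : f b a = 0 := hTS 0 b hb a ha
  have k7 : f a' b' = 0 := hTS 1 a' ha' b' hb'
  have k8 : f b' a' = 0 := hTS 1 b' hb' a' ha'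
  have k9 : f a' a = -1 := by rw [hf.skew, g1]
  have k10 : f b' b = -1 := by rw [hf.skew, g2]
  have k11 : f b' a = 0 := by rw [hf.skew, g3, neg_zero]
  have k12 : f a' b = 0 := by rw [hf.skew, g4, neg_zero]
  set Wd : F → Submodule F (ι → F) := fun d => Submodule.span F {a + d • b', b - d • a'} with hWd
  have hw12 : f (a + (1 : F) • b') (b - (1 : F) • a') = 1 := by
    simp only [hf.bilinear.add_left, hf.bilinear.smul_left, bil_sub_right hf.bilinear,
      hf.bilinear.smul_right, g1, g2, g3, g4, k1, k2, k3, k4, k5, k6, k7, k8, k9, k10, k11, k12]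
    linear_combination -h30
  have hw21 : f (b - (1 : F) • a') (a + (1 : F) • b') = -1 := by rw [hf.skew, hw12]
  obtain ⟨hfr, hR⟩ : Module.finrank F (Wd 1) = 2 ∧ Wd 1 ⊓ perp hf (Wd 1) = ⊥ := hyperbolic_pair hf hw12
  have hfrp : Module.finrank F (perp hf (Wd 1)) = 2 := by
    have := finrank_perp hf (Wd 1)
    omega
  have hneg : Wd (-1) ≤ perp hf (Wd 1) := by
    rw [hWd]
    simp only
    rw [Submodule.span_le]
    intro x hx
    change x ∈ perp hf _
    rw [mem_perp]
    intro w hw
    obtain ⟨s, t, rfl⟩ := Submodule.mem_span_pair.1 hw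
    rcases hx with rfl | hx
    · simp only [hf.bilinear.add_left, hf.bilinear.smul_left, bil_sub_left hf.bilinear, hf.bilinear.add_right,
        hf.bilinear.smul_right, g1, g2, g3, g4, k1, k2, k3, k4, k5, k6, k7, k8, k9, k10, k11, k12]
      ring
    · rw [Set.mem_singleton_iff] at hx
      subst hx
      simp only [hf.bilinear.add_left, hf.bilinear.smul_left, bil_sub_left hf.bilinear, bil_sub_right hf.bilinear,
        hf.bilinear.smul_right, g1, g2, g3, g4, k1, k2, k3, k4, k5, k6, k7, k8, k9, k10, k11, k12]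
      ring
  have h0 : Wd 1 ≠ ⊥ := by
    intro h
    rw [h, finrank_bot] at hfr
    omega
  -- the action of `H`
  have key : ∀ h ∈ H, ∃ d : F, (d = 1 ∨ d = -1) ∧
      (Wd 1).map (Matrix.toLin' (h : Matrix ι ι F)) ≤ Wd d := by
    intro h hh
    obtain ⟨σ, hσ⟩ := hle hh
    have hiso := fixes_apply hH hh
    have hmem : ∀ i, ∀ u ∈ D i, (h : Matrix ι ι F) *ᵥ u ∈ D (σ i) := by
      intro i u hu
      rw [← hσ i]
      exact ⟨u, hu, Matrix.toLin'_apply _ _⟩
    suffices hs : ∃ d : F, (d = 1 ∨ d = -1) ∧ (h : Matrix ι ι F) *ᵥ (a + (1 : F) • b') ∈ Wd d ∧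
        (h : Matrix ι ι F) *ᵥ (b - (1 : F) • a') ∈ Wd d by
      obtain ⟨d, hd, h1, h2⟩ := hs
      refine ⟨d, hd, ?_⟩
      rw [Submodule.map_span_le]
      intro x hx
      rcases hx with rfl | hx
      · rw [Matrix.toLin'_apply]; exact h1
      · rw [Set.mem_singleton_iff] at hx
        subst hx
        rw [Matrix.toLin'_apply]; exact h2
    have hm1 : ∀ d : F, a + d • b' ∈ Wd d := fun d => Submodule.subset_span (Set.mem_insert _ _)
    have hm2 : ∀ d : F, b - d • a' ∈ Wd d := fun d =>
      Submodule.subset_span (Set.mem_insert_of_mem _ (Set.mem_singleton _))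
    have hσ01 : (σ 0 = 0 ∧ σ 1 = 1) ∨ (σ 0 = 1 ∧ σ 1 = 0) := by
      have hall : ∀ τ : Equiv.Perm (Fin 2), (τ 0 = 0 ∧ τ 1 = 1) ∨ (τ 0 = 1 ∧ τ 1 = 0) := by decide
      exact hall σ
    rcases hσ01 with ⟨s0, s1⟩ | ⟨s0, s1⟩
    · obtain ⟨α, β, e1⟩ := hsp0 _ (s0 ▸ hmem 0 a ha)
      obtain ⟨γ, δ, e2⟩ := hsp0 _ (s0 ▸ hmem 0 b hb)
      obtain ⟨α', β', e3⟩ := hsp1 _ (s1 ▸ hmem 1 a' ha')
      obtain ⟨γ', δ', e4⟩ := hsp1 _ (s1 ▸ hmem 1 b' hb')
      obtain ⟨d, hd, r1, r2⟩ := frame_key hf h3 g1 g2 g3 g4 (α := α) (β := β) (γ := γ) (δ := δ)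
        (α' := α') (β' := β') (γ' := γ') (δ' := δ')
        (by rw [← e1, ← e3, hiso, g1]) (by rw [← e1, ← e4, hiso, g3]) (by rw [← e2, ← e3, hiso, g4])
        (by rw [← e2, ← e4, hiso, g2])
      refine ⟨d, hd, ?_, ?_⟩
      · rw [one_smul, Matrix.mulVec_add, e1, e4, r1]
        exact Submodule.add_mem _ (Submodule.smul_mem _ _ (hm1 d)) (Submodule.smul_mem _ _ (hm2 d))
      · rw [one_smul, Matrix.mulVec_sub, e2, e3, r2]
        exact Submodule.add_mem _ (Submodule.smul_mem _ _ (hm1 d)) (Submodule.smul_mem _ _ (hm2 d))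
    · obtain ⟨α, β, e1⟩ := hsp1 _ (s0 ▸ hmem 0 a ha)
      obtain ⟨γ, δ, e2⟩ := hsp1 _ (s0 ▸ hmem 0 b hb)
      obtain ⟨α', β', e3⟩ := hsp0 _ (s1 ▸ hmem 1 a' ha')
      obtain ⟨γ', δ', e4⟩ := hsp0 _ (s1 ▸ hmem 1 b' hb')
      have e3' : (h : Matrix ι ι F) *ᵥ a' = (-α') • (-a) + (-β') • (-b) := by rw [e3]; simp
      have e4' : (h : Matrix ι ι F) *ᵥ b' = (-γ') • (-a) + (-δ') • (-b) := by rw [e4]; simp
      obtain ⟨d, hd, r1, r2⟩ := frame_key hf h3 (a := a') (b := b') (a' := -a) (b' := -b)
        (by rw [bil_neg_right hf.bilinear, k9, neg_neg]) (by rw [bil_neg_right hf.bilinear, k10, neg_neg])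
        (by rw [bil_neg_right hf.bilinear, k12, neg_zero]) (by rw [bil_neg_right hf.bilinear, k11, neg_zero])
        (α := α) (β := β) (γ := γ) (δ := δ)
        (α' := -α') (β' := -β') (γ' := -γ') (δ' := -δ')
        (by rw [← e1, ← e3', hiso, g1]) (by rw [← e1, ← e4', hiso, g3]) (by rw [← e2, ← e3', hiso, g4])
        (by rw [← e2, ← e4', hiso, g2])
      have hdd : d * d = 1 := by
        rcases hd with h | h <;> rw [h] <;> ring
      have t1 : a' + d • (-b) = (-d) • (b - d • a') := by
        rw [smul_sub, smul_smul, neg_mul, hdd]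
        simp only [neg_smul, smul_neg, one_smul]
        abel
      have t2 : b' - d • (-a) = d • (a + d • b') := by
        rw [smul_add, smul_smul, hdd]
        simp only [smul_neg, one_smul]
        abel
      refine ⟨d, hd, ?_, ?_⟩
      · rw [one_smul, Matrix.mulVec_add, e1, e4', r1, t1, t2]
        exact Submodule.add_mem _ (Submodule.smul_mem _ _ (Submodule.smul_mem _ _ (hm2 d)))
          (Submodule.smul_mem _ _ (Submodule.smul_mem _ _ (hm1 d)))
      · rw [one_smul, Matrix.mulVec_sub, e2, e3', r2, t1, t2]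
        exact Submodule.add_mem _ (Submodule.smul_mem _ _ (Submodule.smul_mem _ _ (hm2 d)))
          (Submodule.smul_mem _ _ (Submodule.smul_mem _ _ (hm1 d)))
  apply altDec_of_map hf hH hR (by rw [hfr, hfrp]) h0
  intro h hh
  obtain ⟨d, hd, hle'⟩ := key h hh
  rcases hd with rfl | rfl
  · left
    exact Submodule.eq_of_le_of_finrank_eq hle' (finrank_map_gl h _)
  · right
    exact Submodule.eq_of_le_of_finrank_eq (hle'.trans hneg) (by rw [finrank_map_gl, hfr, hfrp])

end Cfsg.Agent.Lib.Helper40SpDPair3
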