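import Mathlib
import Cfsg.Agent.Lib.Helper41Dk18
import Cfsg.Agent.Lib.Helper41SL2Dic
import Cfsg.Agent.Lib.Helper12Hall
import Cfsg.Prelude.Def_OddOrderLocal

/-!
# Hall `{2,3}`-subgroups of `PSL₂(q)`: auxiliary results
-/

set_option autoImplicit false

namespace Cfsg.Agent.Lib.Helper41Hall

open Matrix Cfsg.Agent.Lib.Helper46SL2 Cfsg.Agent.Lib.Helper41SL2 Cfsg.Agent.Lib.Helper41Dk

variable {F : Type*} [Field F]

local notation "SL2" => Matrix.SpecialLinearGroup (Fin 2)
local notation "PSL2" => Matrix.ProjectiveSpecialLinearGroup (Fin 2)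

theorem isSolvable_of_comm_index_two {G : Type*} [Group G] (A : Subgroup G)
    (hA : ∀ a ∈ A, ∀ b ∈ A, a * b = b * a) (h2 : A.index = 2) : Group.IsSolvable G := by
  have hn : A.Normal := Subgroup.normal_of_index_eq_two h2
  have h1 : Group.IsSolvable A := Group.isSolvable_of_comm (fun a b => Subtype.ext (hA a a.2 b b.2))
  have h3 : Nat.card (G ⧸ A) = 2 := h2
  have : Fact (Nat.Prime 2) := ⟨Nat.prime_two⟩
  have h4 : IsCyclic (G ⧸ A) := isCyclic_of_prime_card h3
  have h5 : Group.IsSolvable (G ⧸ A) := Group.isSolvable_of_comm (fun a b => (IsCyclic.isMulCommutative (α := G ⧸ A)).is_comm.comm a b)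
  exact Group.isSolvable_of_ker_le_range A.subtype (QuotientGroup.mk' A) (by simp)

/-- the image in `PSL₂` of the normalizer of a torus -/
def Dbar (x : SL2 F) : Subgroup (PSL2 F) :=
  (Subgroup.normalizer ((Subgroup.centralizer {x} : Subgroup (SL2 F)) : Set (SL2 F))).map (proj F)

theorem isSolvable_normalizer [Finite F] {x : SL2 F} (ht : tr x ^ 2 ≠ 4) :
    Group.IsSolvable (Subgroup.normalizer ((Subgroup.centralizer {x} : Subgroup (SL2 F)) : Set (SL2 F))) := by
  apply isSolvable_of_comm_index_two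
    ((Subgroup.centralizer {x} : Subgroup (SL2 F)).subgroupOf _)
  · intro a ha b hb
    apply Subtype.ext
    exact commute_of_mem_centralizer (not_mem_center_of_tr ht)
      (mem_centralizer_iff.mp (Subgroup.mem_subgroupOf.mp ha))
      (mem_centralizer_iff.mp (Subgroup.mem_subgroupOf.mp hb))
  · exact relIndex_centralizer_normalizer ht

theorem isSolvable_Dbar [Finite F] {x : SL2 F} (ht : tr x ^ 2 ≠ 4) : Group.IsSolvable (Dbar x) := by
  have := isSolvable_normalizer ht
  exact Group.isSolvable_of_surjective (MonoidHom.subgroupMap_surjective (proj F) _)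

theorem card_Dbar [Fintype F] (hodd : Odd (Fintype.card F)) {x : SL2 F} (ht : tr x ^ 2 ≠ 4) :
    Nat.card (Dbar x) = Nat.card (Subgroup.centralizer {x} : Subgroup (SL2 F)) := by
  have hZ : Subgroup.center (SL2 F) ≤
      Subgroup.normalizer ((Subgroup.centralizer {x} : Subgroup (SL2 F)) : Set (SL2 F)) :=
    (Subgroup.center_le_centralizer _).trans (centralizer_le_normalizer x)
  have h1 := card_pre (Dbar x)
  rw [Dbar, pre_map_proj hZ, card_normalizer_centralizer ht, ee_eq_two hodd] at h1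
  rw [Dbar]
  omega

theorem exists_split [Fintype F] (h4 : 4 ≤ Fintype.card F) :
    ∃ x : SL2 F, tr x ^ 2 ≠ 4 ∧
      Nat.card (Subgroup.centralizer {x} : Subgroup (SL2 F)) = Fintype.card F - 1 := by
  obtain ⟨a, ha0, ha⟩ : ∃ a : F, a ≠ 0 ∧ a ^ 2 ≠ 1 := by
    by_contra hcon
    push Not at hcon
    have hsub : (Set.univ : Set F) ⊆ {0, 1, -1} := by
      intro a _
      by_cases ha : a = 0
      · left; exact ha
      · have h1 := hcon a ha
        have h2 : (a - 1) * (a + 1) = 0 := by linear_combination h1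
        rcases mul_eq_zero.mp h2 with h | h
        · right; left; linear_combination h
        · right; right; rw [Set.mem_singleton_iff]; linear_combination h
    have h5 := Set.ncard_le_ncard hsub (Set.toFinite _)
    rw [Set.ncard_univ, Nat.card_eq_fintype_card] at h5
    have h6 : ({0, 1, -1} : Set F).ncard ≤ 3 := by
      refine (Set.ncard_insert_le _ _).trans ?_
      have := Set.ncard_insert_le (1 : F) {-1}
      rw [Set.ncard_singleton] at this
      omega
    omega
  refine ⟨dg a ha0, ?_, card_centralizer_split ha0 ha (tr_dg a ha0)⟩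
  rw [tr_dg]
  intro h
  apply ha
  have h1 : (a ^ 2 - 1) ^ 2 = 0 := by
    field_simp at h
    linear_combination h
  have := pow_eq_zero_iff (two_ne_zero) |>.mp h1
  linear_combination this

theorem exists_nonsplit' [Fintype F] :
    ∃ x : SL2 F, tr x ^ 2 ≠ 4 ∧
      Nat.card (Subgroup.centralizer {x} : Subgroup (SL2 F)) = Fintype.card F + 1 := by
  obtain ⟨A, hA, -, -⟩ := exists_nonSplit_generator (F := F)
  exact ⟨A, hA.sq_ne_four, card_centralizer_nonSplit hA⟩

/-- the `{2,3}`-part -/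
def P23 (M : ℕ) : ℕ := 2 ^ M.factorization 2 * 3 ^ M.factorization 3

theorem P23_pos (M : ℕ) : 0 < P23 M := by unfold P23; positivity

theorem P23_spec {M : ℕ} (hM : M ≠ 0) : ∃ m, M = P23 M * m ∧ ¬ 2 ∣ m ∧ ¬ 3 ∣ m := by
  have h2 : 2 ^ M.factorization 2 ∣ M := Nat.ordProj_dvd M 2
  have h3 : 3 ^ M.factorization 3 ∣ M := Nat.ordProj_dvd M 3
  have hco : Nat.Coprime (2 ^ M.factorization 2) (3 ^ M.factorization 3) :=
    Nat.Coprime.pow _ _ (by norm_num)
  obtain ⟨m, hm⟩ := Nat.Coprime.mul_dvd_of_dvd_of_dvd hco h2 h3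
  refine ⟨m, hm, ?_, ?_⟩
  · rintro ⟨c, rfl⟩
    apply Nat.pow_succ_factorization_not_dvd hM Nat.prime_two
    refine ⟨3 ^ M.factorization 3 * c, ?_⟩
    conv_lhs => rw [hm]
    ring
  · rintro ⟨c, rfl⟩
    apply Nat.pow_succ_factorization_not_dvd hM Nat.prime_three
    refine ⟨2 ^ M.factorization 2 * c, ?_⟩
    conv_lhs => rw [hm]
    ring

theorem coprime_of_dvd_P23 {n k M : ℕ} (hn : n ∣ P23 M) (h2 : ¬ 2 ∣ k) (h3 : ¬ 3 ∣ k) :
    n.Coprime k := by
  apply Nat.Coprime.coprime_dvd_left hn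
  apply Nat.Coprime.mul_left
  · exact Nat.Coprime.pow_left _ ((Nat.Prime.coprime_iff_not_dvd Nat.prime_two).mpr h2)
  · exact Nat.Coprime.pow_left _ ((Nat.Prime.coprime_iff_not_dvd Nat.prime_three).mpr h3)

theorem prime_dvd_P23 {k M : ℕ} (hk : k.Prime) (h : k ∣ P23 M) : k = 2 ∨ k = 3 := by
  rcases (Nat.Prime.dvd_mul hk).mp h with h | h
  · left; exact (Nat.prime_dvd_prime_iff_eq hk Nat.prime_two).mp (hk.dvd_of_dvd_pow h)
  · right; exact (Nat.prime_dvd_prime_iff_eq hk Nat.prime_three).mp (hk.dvd_of_dvd_pow h)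

theorem hall_iff {G : Type*} [Group G] [Finite G] {q M : ℕ} (hG : 2 * Nat.card G = q * M)
    (hq2 : ¬ 2 ∣ q) (hq3 : ¬ 3 ∣ q) (hM : M ≠ 0) (H : Subgroup G) :
    Cfsg.IsPiHall ({2, 3} : Set ℕ) H ↔ 2 * Nat.card H = P23 M := by
  obtain ⟨m, hm, hm2, hm3⟩ := P23_spec hM
  have hci := H.card_mul_index
  have hqm2 : ¬ 2 ∣ q * m := fun h => ((Nat.Prime.dvd_mul Nat.prime_two).mp h).elim hq2 hm2
  have hqm3 : ¬ 3 ∣ q * m := fun h => ((Nat.Prime.dvd_mul Nat.prime_three).mp h).elim hq3 hm3
  have key : 2 * Nat.card H * H.index = P23 M * (q * m) := by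
    rw [mul_assoc, hci, hG]
    conv_lhs => rw [hm]
    ring
  constructor
  · rintro ⟨h1, h2⟩
    apply Nat.dvd_antisymm
    · have hco : Nat.Coprime (2 * Nat.card H) (q * m) := by
        apply Nat.coprime_of_dvd
        intro k hk hkd hkq
        have hk23 : k = 2 ∨ k = 3 := by
          rcases (Nat.Prime.dvd_mul hk).mp hkd with h | h
          · left; exact (Nat.prime_dvd_prime_iff_eq hk Nat.prime_two).mp h
          · exact h1 k hk h
        rcases hk23 with rfl | rfl
        · exact hqm2 hkq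
        · exact hqm3 hkq
      exact hco.dvd_of_dvd_mul_right ⟨H.index, key.symm⟩
    · have hco : Nat.Coprime (P23 M) H.index :=
        coprime_of_dvd_P23 dvd_rfl (h2 2 Nat.prime_two (by simp)) (h2 3 Nat.prime_three (by simp))
      exact hco.dvd_of_dvd_mul_right ⟨q * m, key⟩
  · intro h
    constructor
    · intro k hk hkd
      exact prime_dvd_P23 hk (h ▸ Dvd.dvd.mul_left hkd 2)
    · rw [h] at key
      have hidx : H.index = q * m := Nat.eq_of_mul_eq_mul_left (P23_pos M) key
      intro k hk hk23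
      rw [hidx]
      rcases hk23 with rfl | rfl
      · exact hqm2
      · exact hqm3

end Cfsg.Agent.Lib.Helper41Hall
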