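import Mathlib
import Cfsg.Agent.Lib.Helper42Cent
import Cfsg.Agent.Lib.Helper42OInv
import Cfsg.Agent.Lib.Helper17SpCount

set_option autoImplicit false
set_option linter.unusedSectionVars false
set_option linter.unusedVariables false

/-! Centraliser orders of involutions of orthogonal groups in characteristic two: reduction to
counting families of vectors (helper42). -/

namespace Cfsg.Agent.Lib.Helper42CentO

open Matrix Cfsg.Agent.Lib.Helper42Inv Cfsg.Agent.Lib.Helper42OInv Cfsg.Agent.Lib.Helper49Orth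
  Cfsg.Agent.Lib.Helper49Witt Cfsg.Agent.Lib.Helper42Cent
open QuadraticMap

section abstract

variable {F V : Type*} [Field F] [AddCommGroup V] [Module F V]

/-- Witt's lemma for families of vectors. -/
theorem witt_famQ [Finite F] [FiniteDimensional F V] (Q : QuadraticForm F V)
    (hQ : (polarBilin Q).Nondegenerate) {κ : Type*} (x y : κ → V) (hx : LinearIndependent F x)
    (hy : LinearIndependent F y) (hval : ∀ i, Q (x i) = Q (y i))
    (hpol : ∀ i j, polar Q (x i) (x j) = polar Q (y i) (y j)) :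
    ∃ g : V ≃ₗ[F] V, (∀ v, Q (g v) = Q v) ∧ ∀ i, g (x i) = y i := by
  obtain ⟨φ, hφ⟩ : ∃ φ : Submodule.span F (Set.range x) ≃ₗ[F] Submodule.span F (Set.range y),
      ∀ i, φ (Module.Basis.span hx i) = Module.Basis.span hy i :=
    ⟨(Module.Basis.span hx).equiv (Module.Basis.span hy) (Equiv.refl κ), fun i => by
      rw [Module.Basis.equiv_apply, Equiv.refl_apply]⟩
  have hiso : (Q.comp (Submodule.subtype _)).comp φ.toLinearMap = Q.comp (Submodule.subtype _) := by
    apply Cfsg.Agent.Lib.Helper42Quad.ext_of_basis (Module.Basis.span hx)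
    · intro i
      change Q (φ (Module.Basis.span hx i) : V) = Q (Module.Basis.span hx i : V)
      rw [hφ, Module.Basis.span_apply, Module.Basis.span_apply]
      exact (hval i).symm
    · intro i j
      have e1 : polar ((Q.comp (Submodule.subtype _)).comp φ.toLinearMap)
          (Module.Basis.span hx i) (Module.Basis.span hx j) = polar Q (y i) (y j) := by
        change Q (φ (Module.Basis.span hx i + Module.Basis.span hx j) : V)
          - Q (φ (Module.Basis.span hx i) : V) - Q (φ (Module.Basis.span hx j) : V) = _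
        rw [map_add, hφ, hφ, Submodule.coe_add, Module.Basis.span_apply, Module.Basis.span_apply]
        rfl
      have e2 : polar (Q.comp (Submodule.subtype _))
          (Module.Basis.span hx i) (Module.Basis.span hx j) = polar Q (x i) (x j) := by
        change Q ((Module.Basis.span hx i + Module.Basis.span hx j : _) : V)
          - Q (Module.Basis.span hx i : V) - Q (Module.Basis.span hx j : V) = _
        rw [Submodule.coe_add, Module.Basis.span_apply, Module.Basis.span_apply]
        rfl
      rw [e1, e2, hpol]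
  obtain ⟨g, hg1, hg2⟩ := Cfsg.Agent.S0750.result Q hQ _ _ φ (by
    intro x
    have := congrArg (fun q => q x) hiso
    simpa using this)
  refine ⟨g, hg1, fun i => ?_⟩
  have h1 := hg2 (Module.Basis.span hx i)
  rw [hφ, Module.Basis.span_apply, Module.Basis.span_apply] at h1
  exact h1

variable {κ : Type*} [Fintype κ] [DecidableEq κ]

theorem Q_Phi (Q : QuadraticForm F V) (N : V →ₗ[F] V) (σ : κ → κ) (hσ : ∀ i, σ (σ i) = i)
    (u : κ → V) (h : Dat (polarBilin Q) N σ u) (hQN : ∀ w, Q (N w) = polarBilin Q w (N w))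
    (A : Matrix κ κ F) (i : κ) :
    Q (Phi N σ u A i) = (A * PP F σ * A.transpose) i i := by
  rw [mul_PP_mul_transpose σ hσ]
  have e : Phi N σ u A i = N (∑ k, A i k • u (σ k)) := by
    simp only [Phi, map_sum, map_smul]
  rw [e, hQN]
  simp only [map_sum, map_smul, LinearMap.sum_apply, LinearMap.smul_apply, h.gram, smul_eq_mul, hσ]
  apply Finset.sum_congr rfl
  intro k _
  rw [Finset.sum_eq_single (σ k)]
  · simp [hσ]
  · intro b _ hb
    have : σ b ≠ k := fun hh => hb (by rw [← hh, hσ])
    simp [this]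
  · simp

end abstract

section concrete

variable {F : Type*} [Field F] {ι : Type} [Fintype ι] [DecidableEq ι]
variable (Q : QuadraticForm F (ι → F))

/-- The matrix of an isometry. -/
abbrev mt (g : ↥(Cfsg.isometryGroup F ⇑Q)) : Matrix ι ι F :=
  ((g : Matrix.GeneralLinearGroup ι F) : Matrix ι ι F)

theorem mt_mul (g h : ↥(Cfsg.isometryGroup F ⇑Q)) : mt Q (g * h) = mt Q g * mt Q h := rfl

theorem mt_one : mt Q 1 = 1 := rfl

theorem commute_iff (t g : ↥(Cfsg.isometryGroup F ⇑Q)) :
    g * t = t * g ↔ ∀ w, mt Q g *ᵥ (NO Q t w) = NO Q t (mt Q g *ᵥ w) := by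
  constructor
  · intro h w
    have h' : mt Q g * mt Q t = mt Q t * mt Q g := by rw [← mt_mul, h, mt_mul]
    rw [NO_apply, NO_apply, Matrix.mulVec_sub, Matrix.mulVec_mulVec, Matrix.mulVec_mulVec, h']
  · intro h
    apply iso_ext
    change mt Q g * mt Q t = mt Q t * mt Q g
    apply Matrix.toLin'.injective
    apply LinearMap.ext
    intro x
    rw [Matrix.toLin'_apply, Matrix.toLin'_apply, ← Matrix.mulVec_mulVec, ← Matrix.mulVec_mulVec]
    have h1 := h x
    rw [NO_apply, NO_apply, Matrix.mulVec_sub] at h1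
    exact sub_left_injective h1

/-- The diagonal action of `O(Q)` on families of vectors. -/
@[instance_reducible]
def actFam (k : ℕ) : MulAction ↥(Cfsg.isometryGroup F ⇑Q) (Fin k → (ι → F)) where
  smul g x := fun i => mt Q g *ᵥ x i
  one_smul x := by
    funext i
    change mt Q 1 *ᵥ x i = x i
    rw [mt_one, Matrix.one_mulVec]
  mul_smul g h x := by
    funext i
    change mt Q (g * h) *ᵥ x i = mt Q g *ᵥ (mt Q h *ᵥ x i)
    rw [mt_mul, Matrix.mulVec_mulVec]

/-- Families isometric to a given one. -/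
def Fam {k : ℕ} (x0 : Fin k → (ι → F)) : Set (Fin k → (ι → F)) :=
  {x | LinearIndependent F x ∧ (∀ i, Q (x i) = Q (x0 i)) ∧
    ∀ i j, polar Q (x i) (x j) = polar Q (x0 i) (x0 j)}

theorem li_map (g : ↥(Cfsg.isometryGroup F ⇑Q)) {κ : Type*} (x : κ → (ι → F))
    (hx : LinearIndependent F x) : LinearIndependent F (fun i => mt Q g *ᵥ x i) := by
  have := hx.map' (Matrix.mulVecLin (mt Q g)) (by
    rw [LinearMap.ker_eq_bot]
    intro a b hab
    simp only [Matrix.mulVecLin_apply] at hab
    have h1 : mt Q g⁻¹ * mt Q g = 1 := by rw [← mt_mul, inv_mul_cancel, mt_one]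
    have h2 := congrArg (fun v => mt Q g⁻¹ *ᵥ v) hab
    simpa [Matrix.mulVec_mulVec, h1] using h2)
  exact this

theorem orbit_eq [Finite F] (hQ : (polarBilin Q).Nondegenerate) (k : ℕ) (x0 : Fin k → (ι → F))
    (hx0 : LinearIndependent F x0) :
    @MulAction.orbit ↥(Cfsg.isometryGroup F ⇑Q) _ (actFam Q k).toSMul x0 = Fam Q x0 := by
  ext x
  constructor
  · rintro ⟨g, rfl⟩
    exact ⟨li_map Q g x0 hx0, fun i => iso_apply (Q := ⇑Q) g _, fun i j => polar_iso Q g _ _⟩
  · rintro ⟨h1, h2, h3⟩
    obtain ⟨e, he, hx⟩ := witt_famQ Q hQ x0 x hx0 h1 (fun i => (h2 i).symm) (fun i j => (h3 i j).symm)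
    exact ⟨ofEquiv Q e he, funext fun i => by
      change mt Q (ofEquiv Q e he) *ᵥ x0 i = x i
      rw [ofEquiv_mulVec, hx]⟩

theorem card_mul_fam [Fintype F] (hQ : (polarBilin Q).Nondegenerate) (k : ℕ)
    (P : Subgroup ↥(Cfsg.isometryGroup F ⇑Q)) (x0 : Fin k → (ι → F))
    (hx0 : LinearIndependent F x0)
    (hP : ∀ g : ↥(Cfsg.isometryGroup F ⇑Q), (∀ i, mt Q g *ᵥ x0 i = x0 i) → g ∈ P)
    (O : Set (Fin k → (ι → F)))
    (hO : ∀ x, x ∈ O ↔ ∃ g ∈ P, ∀ i, mt Q g *ᵥ x0 i = x i) :
    Nat.card P * Nat.card (Fam Q x0) = Nat.card ↥(Cfsg.isometryGroup F ⇑Q) * O.ncard := by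
  let _ := actFam Q (F := F) k
  have h1 := Cfsg.Agent.Lib.Helper17SpCount.card_mul_orbit P x0 (by
    intro g hg
    apply hP
    intro i
    exact congrFun hg i)
  rw [orbit_eq Q hQ k x0 hx0, ← Nat.card_coe_set_eq] at h1
  have h2 : MulAction.orbit P x0 = O := by
    ext x
    rw [hO]
    constructor
    · rintro ⟨g, rfl⟩
      exact ⟨g.1, g.2, fun i => rfl⟩
    · rintro ⟨g, hg, hx⟩
      exact ⟨⟨g, hg⟩, funext hx⟩
  rw [h2] at h1
  exact h1

theorem card_centO [Fintype F] [CharP F 2] (hQ : (polarBilin Q).Nondegenerate)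
    (t : ↥(Cfsg.isometryGroup F ⇑Q)) (ht : t * t = 1)
    {κ : Type*} [Fintype κ] [DecidableEq κ] (σ : κ → κ) (hσ : ∀ i, σ (σ i) = i)
    (u : κ → (ι → F)) (h : Dat (polarBilin Q) (NO Q t) σ u) :
    Nat.card ↥(Subgroup.centralizer ({t} : Set ↥(Cfsg.isometryGroup F ⇑Q))) *
        Nat.card (Fam Q (fun i : Fin (Fintype.card κ) => NO Q t (u ((Fintype.equivFin κ).symm i))))
      = Nat.card ↥(Cfsg.isometryGroup F ⇑Q) *
        Nat.card {A : Matrix κ κ F // A * PP F σ * A.transpose = PP F σ} := by
  set e := Fintype.equivFin κ with he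
  set x0 : Fin (Fintype.card κ) → (ι → F) := fun i => NO Q t (u (e.symm i)) with hx0
  have hiso : ∀ a b, polarBilin Q (NO Q t a) (NO Q t b) = 0 := by
    intro a b
    rw [NO_sa Q t ht, NO_sq Q t ht, map_zero]
  have hli : LinearIndependent F x0 := (h.li hσ).comp _ e.symm.injective
  have hpres : ∀ (g : ↥(Cfsg.isometryGroup F ⇑Q)) (x y : ι → F),
      polarBilin Q (Matrix.mulVecLin (mt Q g) x) (Matrix.mulVecLin (mt Q g) y)
        = polarBilin Q x y := by
    intro g x y
    exact polar_iso Q g x y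
  have hmem : ∀ g : ↥(Cfsg.isometryGroup F ⇑Q),
      g ∈ Subgroup.centralizer ({t} : Set ↥(Cfsg.isometryGroup F ⇑Q)) ↔
        ∀ w, mt Q g *ᵥ (NO Q t w) = NO Q t (mt Q g *ᵥ w) := by
    intro g
    rw [Subgroup.mem_centralizer_singleton_iff, commute_iff]
  set Φ : {A : Matrix κ κ F // A * PP F σ * A.transpose = PP F σ} →
      (Fin (Fintype.card κ) → (ι → F)) :=
    fun A i => Phi (NO Q t) σ u A.1 (e.symm i) with hΦ
  have hΦinj : Function.Injective Φ := by
    intro A B hAB
    apply Subtype.ext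
    apply Phi_injective h hσ
    funext i
    have := congrFun hAB (e i)
    simpa [hΦ] using this
  have key := card_mul_fam Q hQ (Fintype.card κ)
    (Subgroup.centralizer ({t} : Set ↥(Cfsg.isometryGroup F ⇑Q))) x0 hli (by
      intro g hg
      rw [hmem]
      have hg' : ∀ i, mt Q g *ᵥ NO Q t (u i) = NO Q t (u i) := by
        intro i
        have := hg (e i)
        simpa [hx0] using this
      intro w
      apply commute_of_formula h (Matrix.mulVecLin (mt Q g)) (hpres g)
      intro w
      simp only [Matrix.mulVecLin_apply, hg']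
      exact h.formula w)
    (Set.range Φ) (by
      intro x
      constructor
      · rintro ⟨A, rfl⟩
        have hform := formula_of_matrix h hσ A.1 A.2
        have hliA := li_of_formula h hσ _ hform
        obtain ⟨g, hg1, hg⟩ := witt_famQ Q hQ (fun i => NO Q t (u i)) (Phi (NO Q t) σ u A.1)
          (h.li hσ) hliA (by
            intro i
            rw [Q_Phi Q (NO Q t) σ hσ u h (Q_NO Q t), A.2, Q_NO, h.gram]
            simp [PP]) (by
            intro i j
            obtain ⟨a, ha⟩ := Phi_mem_range (N := NO Q t) (σ := σ) (u := u) A.1 i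
            obtain ⟨b, hb⟩ := Phi_mem_range (N := NO Q t) (σ := σ) (u := u) A.1 j
            rw [← polarBilin_apply_apply, ← polarBilin_apply_apply, hiso, ← ha, ← hb, hiso])
        have hg' : ∀ v, mt Q (ofEquiv Q g hg1) *ᵥ v = g v := fun v => ofEquiv_mulVec Q g hg1 v
        refine ⟨ofEquiv Q g hg1, ?_, fun i => by rw [hg']; exact hg _⟩
        rw [hmem]
        intro w
        apply commute_of_formula h (Matrix.mulVecLin (mt Q (ofEquiv Q g hg1))) (hpres _)
        intro w
        simp only [Matrix.mulVecLin_apply, hg', hg]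
        exact hform w
      · rintro ⟨g, hg, hx⟩
        rw [hmem] at hg
        obtain ⟨h1, h2⟩ := matrix_of_isometry h hσ (fun v => mt Q g *ᵥ v)
          (fun x y => hpres g x y) hg
        refine ⟨⟨_, h1⟩, ?_⟩
        funext i
        rw [← hx i]
        exact (h2 _).symm)
  rw [key, ← Nat.card_coe_set_eq, Nat.card_range_of_injective hΦinj]

end concrete

end Cfsg.Agent.Lib.Helper42CentO
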