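import Mathlib
import Cfsg.Agent.Lib.Helper42ON

set_option autoImplicit false
set_option linter.unusedSectionVars false
set_option linter.unusedVariables false

/-! Counting linearly independent, pairwise orthogonal families of vectors of constant norm `0` or
`1` in a non-degenerate quadratic space over a finite field of characteristic two (helper42). -/

namespace Cfsg.Agent.Lib.Helper42QFam

open QuadraticMap Cfsg.Agent.Lib.Helper42ON

variable {F V : Type*} [Field F] [AddCommGroup V] [Module F V] (Q : QuadraticForm F V)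

/-- Linearly independent, pairwise orthogonal families of vectors of norm `c`. -/
def ZFam (c : F) (k : ℕ) : Set (Fin k → V) :=
  {x | LinearIndependent F x ∧ (∀ i, Q (x i) = c) ∧ ∀ i j, polar Q (x i) (x j) = 0}

theorem polar_self_zero [CharP F 2] (v : V) : polar Q v v = 0 := by
  rw [polar_self]
  have h1 : Q v + Q v = 0 := CharTwo.add_self_eq_zero _
  simp only [nsmul_eq_mul, Nat.cast_ofNat]
  linear_combination h1

/-- Peeling off the first vector. -/
def peelZ [CharP F 2] (c : F) (k : ℕ) : ZFam Q c (k + 1) ≃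
    Σ s : ZFam Q c k, {v : V // (∀ i, polar Q (s.1 i) v = 0) ∧
      v ∉ Submodule.span F (Set.range s.1) ∧ Q v = c} where
  toFun s := ⟨⟨Fin.tail s.1, (linearIndependent_finSucc.mp s.2.1).1,
      fun i => s.2.2.1 i.succ, fun i j => s.2.2.2 i.succ j.succ⟩,
    ⟨s.1 0, fun i => s.2.2.2 i.succ 0, (linearIndependent_finSucc.mp s.2.1).2, s.2.2.1 0⟩⟩
  invFun s := ⟨Fin.cons s.2.1 s.1.1, linearIndependent_finCons.mpr ⟨s.1.2.1, s.2.2.2.1⟩, by
      intro i
      refine Fin.cases ?_ (fun i => ?_) i
      · simpa using s.2.2.2.2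
      · simpa using s.1.2.2.1 i, by
    intro i j
    refine Fin.cases ?_ (fun i => ?_) i <;> refine Fin.cases ?_ (fun j => ?_) j
    · simpa using polar_self_zero Q _
    · simp only [Fin.cons_zero, Fin.cons_succ]
      rw [polar_comm]
      exact s.2.2.1 j
    · simpa using s.2.2.1 i
    · simpa using s.1.2.2.2 i j⟩
  left_inv s := by simp only [Fin.cons_self_tail, Subtype.coe_eta]
  right_inv := fun ⟨⟨_, _⟩, ⟨_, _⟩⟩ => rfl

theorem mem_orth_span {k : ℕ} (s : Fin k → V) (v : V) :
    (∀ i, polar Q (s i) v = 0) ↔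
      v ∈ LinearMap.BilinForm.orthogonal (polarBilin Q) (Submodule.span F (Set.range s)) := by
  rw [LinearMap.BilinForm.mem_orthogonal_iff]
  constructor
  · intro h u hu
    induction hu using Submodule.span_induction with
    | mem x hx =>
      obtain ⟨i, rfl⟩ := hx
      exact h i
    | zero => simp
    | add x y _ _ hx hy =>
      rw [map_add, LinearMap.add_apply, hx, hy, add_zero]
    | smul a x _ hx =>
      rw [map_smul, LinearMap.smul_apply, hx, smul_zero]
  · intro h i
    exact h _ (Submodule.subset_span ⟨i, rfl⟩)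

section count

variable [Fintype F] [CharP F 2] [Finite V]

/-- In a subspace `Y` containing a vector `x` of norm one orthogonal to all of `Y`, exactly one
vector in `q` has norm one. -/
theorem card_val_one (Y : Submodule F V) (x : V) (hx : x ∈ Y) (hQx : Q x = 1)
    (hperp : ∀ y ∈ Y, polar Q y x = 0) :
    Nat.card Y = Nat.card {v : V // v ∈ Y ∧ Q v = 1} * Fintype.card F := by
  have h11 : ∀ a : F, a + a = 0 := fun a => CharTwo.add_self_eq_zero a
  have hvv : ∀ w : V, w + w = 0 := fun w => by
    have : (2 : F) • w = 0 := by rw [CharTwo.two_eq_zero, zero_smul]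
    rwa [two_smul] at this
  have hQ : ∀ y ∈ Y, ∀ a : F, Q (y + a • x) = Q y + a ^ 2 := by
    intro y hy a
    have h1 : Q (y + a • x) = Q y + Q (a • x) + polar Q y (a • x) := by
      simp only [polar]; ring
    rw [h1, polar_smul_right, hperp y hy, QuadraticMap.map_smul, hQx]
    simp only [smul_eq_mul]
    ring
  have e : Y ≃ {v : V // v ∈ Y ∧ Q v = 1} × F :=
    { toFun := fun y => (⟨y.1 + (frobeniusEquiv F 2).symm (Q y.1 + 1) • x,
          Y.add_mem y.2 (Y.smul_mem _ hx), by
            rw [hQ y.1 y.2, frobeniusEquiv_symm_pow_p]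
            linear_combination h11 (Q y.1)⟩, (frobeniusEquiv F 2).symm (Q y.1 + 1))
      invFun := fun p => ⟨p.1.1 + p.2 • x, Y.add_mem p.1.2.1 (Y.smul_mem _ hx)⟩
      left_inv := fun y => by
        apply Subtype.ext
        simp only
        rw [add_assoc, hvv, add_zero]
      right_inv := fun p => by
        obtain ⟨⟨w, hw1, hw2⟩, a⟩ := p
        have h2 : (frobeniusEquiv F 2).symm (Q (w + a • x) + 1) = a := by
          rw [hQ w hw1, hw2]
          have : (1 : F) + a ^ 2 + 1 = a ^ 2 := by linear_combination h11 1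
          rw [this, frobeniusEquiv_symm_pow]
        apply Prod.ext
        · apply Subtype.ext
          change w + a • x + (frobeniusEquiv F 2).symm (Q (w + a • x) + 1) • x = w
          rw [h2, add_assoc, hvv, add_zero]
        · exact h2 }
  rw [Nat.card_congr e, Nat.card_prod, Nat.card_eq_fintype_card (α := F)]

theorem card_submodule (Y : Submodule F V) :
    Nat.card Y = Fintype.card F ^ Module.finrank F Y := by
  rw [Module.natCard_eq_pow_finrank (K := F), Nat.card_eq_fintype_card]

theorem card_fiber_one (hnd : (polarBilin Q).Nondegenerate) (k : ℕ) (s : ZFam Q 1 (k + 1)) :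
    Nat.card {v : V // (∀ i, polar Q (s.1 i) v = 0) ∧
      v ∉ Submodule.span F (Set.range s.1) ∧ Q v = 1}
      = Fintype.card F ^ (Module.finrank F V - k - 2) - Fintype.card F ^ k := by
  have : FiniteDimensional F V := Module.Finite.of_finite
  have hq : 0 < Fintype.card F := Fintype.card_pos
  set U := Submodule.span F (Set.range s.1) with hU
  have hUk : Module.finrank F U = k + 1 := by
    rw [hU, finrank_span_eq_card s.2.1, Fintype.card_fin]
  set P := LinearMap.BilinForm.orthogonal (polarBilin Q) U with hP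
  have hPk : Module.finrank F P = Module.finrank F V - (k + 1) := by
    rw [hP, LinearMap.BilinForm.finrank_orthogonal hnd U, hUk]
  have hle : U ≤ P := by
    rw [hU, Submodule.span_le]
    rintro _ ⟨j, rfl⟩
    rw [SetLike.mem_coe, hP, hU, ← mem_orth_span]
    intro i
    exact s.2.2.2 i j
  have hx : s.1 0 ∈ U := Submodule.subset_span ⟨0, rfl⟩
  have hperp : ∀ y ∈ P, polar Q y (s.1 0) = 0 := by
    intro y hy
    rw [polar_comm]
    exact hy _ hx
  have hA := card_val_one Q P (s.1 0) (hle hx) (s.2.2.1 0) hperp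
  have hB := card_val_one Q U (s.1 0) hx (s.2.2.1 0) (fun y hy => hperp y (hle hy))
  rw [card_submodule, hPk] at hA
  rw [card_submodule, hUk] at hB
  have hmono := Submodule.finrank_mono hle
  rw [hUk, hPk] at hmono
  have hA' : Nat.card {v : V // v ∈ P ∧ Q v = 1}
      = Fintype.card F ^ (Module.finrank F V - k - 2) := by
    have e : Module.finrank F V - (k + 1) = (Module.finrank F V - k - 2) + 1 := by omega
    rw [e, pow_succ] at hA
    exact (Nat.eq_of_mul_eq_mul_right hq hA).symm
  have hB' : Nat.card {v : V // v ∈ U ∧ Q v = 1} = Fintype.card F ^ k := by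
    rw [pow_succ] at hB
    exact (Nat.eq_of_mul_eq_mul_right hq hB).symm
  have e : {v : V | (∀ i, polar Q (s.1 i) v = 0) ∧ v ∉ U ∧ Q v = 1}
      = {v : V | v ∈ P ∧ Q v = 1} \ {v : V | v ∈ U ∧ Q v = 1} := by
    ext v
    simp only [Set.mem_ofPred_eq, Set.mem_sdiff, mem_orth_span, ← hU, ← hP]
    tauto
  change Nat.card ↥{v : V | (∀ i, polar Q (s.1 i) v = 0) ∧ v ∉ U ∧ Q v = 1} = _
  have hsub : {v : V | v ∈ U ∧ Q v = 1} ⊆ {v : V | v ∈ P ∧ Q v = 1} :=
    fun v hv => ⟨hle hv.1, hv.2⟩
  rw [e, Nat.card_coe_set_eq, Set.ncard_sdiff hsub (Set.toFinite _),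
    ← Nat.card_coe_set_eq, ← Nat.card_coe_set_eq]
  change Nat.card {v : V // v ∈ P ∧ Q v = 1} - Nat.card {v : V // v ∈ U ∧ Q v = 1} = _
  rw [hA', hB']

theorem card_ZFam_one (hnd : (polarBilin Q).Nondegenerate) (k : ℕ) :
    Nat.card (ZFam Q 1 (k + 1)) = Nat.card {v : V // Q v = 1} *
      ∏ i ∈ Finset.range k, (Fintype.card F ^ (Module.finrank F V - i - 2) - Fintype.card F ^ i) := by
  induction k with
  | zero =>
    have : Unique (ZFam Q 1 0) :=
      { default := ⟨fun i => i.elim0, linearIndependent_empty_type, fun i => i.elim0,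
          fun i => i.elim0⟩
        uniq := fun s => Subtype.ext (funext fun i => i.elim0) }
    have : Fintype (ZFam Q 1 0) := Fintype.ofFinite _
    rw [Nat.card_congr (peelZ Q 1 0), Nat.card_sigma, Fintype.sum_unique]
    simp only [Finset.range_zero, Finset.prod_empty, mul_one]
    apply Nat.card_congr
    apply Equiv.subtypeEquivRight
    intro v
    constructor
    · exact fun h => h.2.2
    · intro h
      refine ⟨fun i => i.elim0, ?_, h⟩
      have : Set.range (default : ZFam Q 1 0).1 = ∅ := Set.range_eq_empty _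
      rw [this, Submodule.span_empty, Submodule.mem_bot]
      rintro rfl
      simp at h
  | succ k ih =>
    have : Fintype (ZFam Q 1 (k + 1)) := Fintype.ofFinite _
    rw [Nat.card_congr (peelZ Q 1 (k + 1)), Nat.card_sigma, Finset.prod_range_succ, ← mul_assoc,
      ← ih]
    rw [Finset.sum_congr rfl (fun s _ => card_fiber_one Q hnd k s)]
    simp [Nat.card_eq_fintype_card]

end count

end Cfsg.Agent.Lib.Helper42QFam
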