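import Mathlib
import Cfsg.Agent.Lib.Helper42CentO
import Cfsg.Agent.Lib.Helper42CentSp
import Cfsg.Agent.Lib.Helper42QFam
import Cfsg.Agent.Lib.Helper42OInv2
import Cfsg.Agent.Lib.Helper7QForms
import Cfsg.Agent.S0287

set_option autoImplicit false
set_option linter.unusedSectionVars false
set_option linter.unusedVariables false

/-! Centraliser orders in `Ω⁺_{2m}(q)`, `q` even, of involutions of types `b` and `c`
(helper42). -/

namespace Cfsg.Agent.Lib.Helper42CentO2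

open Matrix Cfsg.Agent.Lib.Helper42Inv Cfsg.Agent.Lib.Helper42OInv Cfsg.Agent.Lib.Helper49Orth
  Cfsg.Agent.Lib.Helper49Witt Cfsg.Agent.Lib.Helper42Cent Cfsg.Agent.Lib.Helper42CentO
  Cfsg.Agent.Lib.Helper42QFam Cfsg.Agent.Lib.Helper42ON Cfsg.Agent.Lib.Helper49Forms
  Cfsg.Agent.Lib.Helper42OInv2 Cfsg.Agent.Lib.Helper7QForms Cfsg.Agent.Lib.Helper7QCount
open QuadraticMap

theorem card_inf_of_index_two {G : Type*} [Group G] [Finite G] (H K : Subgroup G)
    (hK : K.index = 2) (g : G) (hgH : g ∈ H) (hgK : g ∉ K) :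
    Nat.card H = 2 * Nat.card (H ⊓ K : Subgroup G) := by
  have : K.Normal := Subgroup.normal_of_index_eq_two hK
  have h1 : K.relIndex H ∣ 2 := hK ▸ Subgroup.relIndex_dvd_index_of_normal K H
  have h2 : K.relIndex H ≠ 1 := by
    rw [Ne, Subgroup.relIndex_eq_one]
    exact fun h => hgK (h hgH)
  have h3 : K.relIndex H = 2 := by
    rcases (Nat.dvd_prime Nat.prime_two).mp h1 with h | h
    · exact absurd h h2
    · exact h
  have h4 := Subgroup.index_mul_card (K.subgroupOf H)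
  rw [← Subgroup.relIndex, h3] at h4
  rw [← h4, inf_comm, ← Subgroup.inf_subgroupOf_right K H]
  congr 1
  exact Nat.card_congr (Subgroup.subgroupOfEquivOfLe inf_le_right).toEquiv

variable {F : Type*} [Field F]

theorem cntQ_plus_one [Fintype F] (m : ℕ) :
    Fintype.card F * cntQ (nuPlus F) m 1 + Fintype.card F ^ m = Fintype.card F ^ (2 * m) := by
  have hq : 1 ≤ Fintype.card F := Fintype.card_pos
  induction m with
  | zero =>
    rw [cntQ_zero]
    have : IsEmpty {x : Unit // nuPlus F x = 1} := ⟨fun x => by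
      have := x.2
      simp [nuPlus] at this⟩
    simp
  | succ m ih =>
    rw [cntQ_succ]
    generalize cntQ (nuPlus F) m 1 = P at ih ⊢
    generalize Fintype.card F = q at ih hq ⊢
    simp only [Fintype.card_unit, mul_one]
    zify [hq] at ih ⊢
    linear_combination (q : ℤ) * ih

section

variable {ι : Type} [Fintype ι] [DecidableEq ι] (Q : QuadraticForm F (ι → F))

/-- The set in the statements is the intersection of the centraliser with `Ω`. -/
def equivCent (x : ↥(Cfsg.isometryGroup F ⇑Q)) :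
    {g : ↥(Cfsg.Omega F ⇑Q) // (g : ↥(Cfsg.isometryGroup F ⇑Q)) * x
      = x * (g : ↥(Cfsg.isometryGroup F ⇑Q))} ≃
    ↥(Subgroup.centralizer ({x} : Set ↥(Cfsg.isometryGroup F ⇑Q)) ⊓ Cfsg.Omega F ⇑Q :
      Subgroup ↥(Cfsg.isometryGroup F ⇑Q)) where
  toFun g := ⟨g.1.1, Subgroup.mem_centralizer_singleton_iff.mpr g.2, g.1.2⟩
  invFun g := ⟨⟨g.1, g.2.2⟩, Subgroup.mem_centralizer_singleton_iff.mp g.2.1⟩
  left_inv _ := rfl
  right_inv _ := rfl

/-- If the involution fixes a non-singular vector, half of its centraliser lies in `Ω`. -/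
theorem card_cent_two [Fintype F] [CharP F 2] (hQ : (polarBilin Q).Nondegenerate)
    (hq : Fintype.card F ≠ 2 ∨ Fintype.card ι ≠ 4) (hcard : 1 ≤ Fintype.card ι)
    (x : ↥(Cfsg.isometryGroup F ⇑Q)) (v : ι → F) (hv : Q v ≠ 0) (hxv : mt Q x *ᵥ v = v) :
    Nat.card ↥(Subgroup.centralizer ({x} : Set ↥(Cfsg.isometryGroup F ⇑Q))) =
      2 * Nat.card {g : ↥(Cfsg.Omega F ⇑Q) // (g : ↥(Cfsg.isometryGroup F ⇑Q)) * x
        = x * (g : ↥(Cfsg.isometryGroup F ⇑Q))} := by
  rw [Nat.card_congr (equivCent Q x)]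
  apply card_inf_of_index_two _ _ (Cfsg.Agent.Lib.Helper49All.index_Omega_two Q hQ hq hcard)
    (reflO Q hv) _ (reflO_not_mem Q hQ hq hv)
  rw [Subgroup.mem_centralizer_singleton_iff]
  apply iso_ext
  have := conj_refl Q x v
  rw [hxv] at this
  exact this.symm

end

theorem card_centOmega_bc [Fintype F] [CharP F 2] {q : ℕ} (hF : Fintype.card F = q) {m : ℕ}
    (Q : QuadraticForm F (Fin m ⊕ Fin m → F)) (hQdef : Q = QPlus m F)
    (h : Fintype.card F ≠ 2 ∨ m ≠ 2) (x : ↥(Cfsg.isometryGroup F ⇑Q)) (hx : x * x = 1)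
    (hna : ∃ v, polarBilin Q v (NO Q x v) ≠ 0) (k : ℕ)
    (hs : Module.finrank F (LinearMap.range (NO Q x)) = k + 1) :
    Nat.card {g : ↥(Cfsg.Omega F ⇑Q) // (g : ↥(Cfsg.isometryGroup F ⇑Q)) * x
        = x * (g : ↥(Cfsg.isometryGroup F ⇑Q))}
      = q ^ (k * (k + 1) / 2 + 2 * k * (m - 1 - k)) *
          (q ^ ((m - 1 - k) ^ 2) * ∏ i ∈ Finset.range (m - 1 - k), (q ^ (2 * (i + 1)) - 1)) *
        aa q (k + 1) := by
  classical
  have hQ : (polarBilin Q).Nondegenerate := by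
    rw [hQdef]; exact Cfsg.Agent.Lib.Helper49Rank.QPlus_nondegenerate m
  have hdim : Module.finrank F (Fin m ⊕ Fin m → F) = 2 * m := by simp; ring
  have hle : k + 1 ≤ m := by
    have h1 := LinearMap.finrank_range_add_finrank_ker (NO Q x)
    have h2 : LinearMap.range (NO Q x) ≤ LinearMap.ker (NO Q x) := by
      rintro _ ⟨y, rfl⟩
      exact NO_sq Q x hx y
    have h3 := Submodule.finrank_mono h2
    omega
  obtain ⟨m', rfl⟩ : ∃ m', m = m' + 1 := ⟨m - 1, by omega⟩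
  have hq4 : Fintype.card F ≠ 2 ∨ Fintype.card (Fin (m' + 1) ⊕ Fin (m' + 1)) ≠ 4 := by
    rcases h with h | h
    · left; exact h
    · right
      simp only [Fintype.card_sum, Fintype.card_fin]
      omega
  obtain ⟨l, u, hd⟩ := exists_dat_O (polarBilin Q) hQ (alt Q) (NO Q x) (NO_sa Q x hx) hna
  have hl : l = k + 1 := by
    have := hd.finrank_range (fun i => rfl)
    rw [hs] at this
    simpa using this.symm
  subst hl
  have key := card_centO Q hQ x hx id (fun i => rfl) u hd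
  -- the family set
  have hfam : Fam Q (fun i : Fin (Fintype.card (Fin (k + 1))) =>
      NO Q x (u ((Fintype.equivFin (Fin (k + 1))).symm i)))
      = ZFam Q 1 (Fintype.card (Fin (k + 1))) := by
    ext y
    have h1 : ∀ i, Q (NO Q x (u i)) = 1 := by
      intro i
      rw [Q_NO, hd.gram]
      simp
    have h2 : ∀ a b, polar Q (NO Q x a) (NO Q x b) = 0 := by
      intro a b
      rw [← polarBilin_apply_apply, NO_sa Q x hx, NO_sq Q x hx, map_zero]
    simp only [Fam, ZFam, Set.mem_ofPred_eq, h1, h2]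
  rw [hfam, Fintype.card_fin, card_ZFam_one Q hQ k, hdim,
    Cfsg.Agent.Lib.Helper42CentSp.card_matrix_id, hF] at key
  -- a fixed non-singular vector
  obtain ⟨v, hv⟩ := hna
  have hfix : mt Q x *ᵥ (NO Q x v) = NO Q x v := by
    have := NO_sq Q x hx v
    rw [NO_apply] at this
    exact sub_eq_zero.mp this
  have htwo := card_cent_two Q hQ hq4 (by simp; omega) x (NO Q x v) (by rw [Q_NO]; exact hv) hfix
  rw [htwo] at key
  -- the order of `O`
  have hO : Nat.card ↥(Cfsg.isometryGroup F ⇑Q) = 2 * q ^ ((m' + 1) * (m' + 1 - 1)) *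
      (q ^ (m' + 1) - 1) * ∏ i ∈ Finset.range (m' + 1 - 1), (q ^ (2 * (i + 1)) - 1) := by
    rw [hQdef, coe_QPlus]
    exact Cfsg.Agent.S0287.result hF (m' + 1) (by omega)
  rw [hO] at key
  -- the number of vectors of norm one
  have hc1 : Nat.card {v : Fin (m' + 1) ⊕ Fin (m' + 1) → F // Q v = 1}
      = q ^ m' * (q ^ (m' + 1) - 1) := by
    have h1 := cntQ_plus_one (F := F) (m' + 1)
    rw [← card_plus, hF] at h1
    have h2 : Nat.card {v : Fin (m' + 1) ⊕ Fin (m' + 1) → F // Q v = 1}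
        = Nat.card {v : Fin (m' + 1) ⊕ Fin (m' + 1) → F // Cfsg.quadFormPlus (m' + 1) F v = 1} := by
      rw [hQdef, coe_QPlus]
    rw [h2]
    have hq : 0 < q := by rw [← hF]; exact Fintype.card_pos
    apply Nat.eq_of_mul_eq_mul_left hq
    have h3 : 1 ≤ q ^ (m' + 1) := Nat.one_le_pow _ _ hq
    generalize Nat.card {v : Fin (m' + 1) ⊕ Fin (m' + 1) → F //
      Cfsg.quadFormPlus (m' + 1) F v = 1} = c at h1 ⊢
    zify [h3] at h1 ⊢
    have e1 : (q : ℤ) ^ (2 * (m' + 1)) = (q : ℤ) ^ (m' + 1) * (q : ℤ) ^ (m' + 1) := by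
      rw [← pow_add]; congr 1; ring
    rw [e1] at h1
    have e2 : (q : ℤ) ^ (m' + 1) = q ^ m' * q := pow_succ _ _
    linear_combination h1 + ((q : ℤ) ^ (m' + 1) - 1) * e2
  rw [hc1] at key
  have hprod : ∏ i ∈ Finset.range k, (q ^ (2 * (m' + 1) - i - 2) - q ^ i)
      = ∏ i ∈ Finset.range k, (q ^ (2 * m' - i) - q ^ i) := by
    apply Finset.prod_congr rfl
    intro i _
    congr 2
    omega
  have har := Cfsg.Agent.Lib.Helper17SpCount.arith q m' k (by omega)
  have e0 : m' + 1 - 1 = m' := by omega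
  rw [hprod, e0] at key
  rw [e0]
  have e3 : q ^ ((m' + 1) * m') = q ^ m' * q ^ (m' ^ 2) := by
    rw [← pow_add]; congr 1; ring
  rw [e3] at key
  have hq1 : 1 < q := by rw [← hF]; exact Fintype.one_lt_card
  have hpos1 : 0 < q ^ m' * (q ^ (m' + 1) - 1) := by
    apply Nat.mul_pos (pow_pos (by omega) _)
    have : 1 < q ^ (m' + 1) := Nat.one_lt_pow (by omega) hq1
    omega
  have hpos2 : 0 < ∏ i ∈ Finset.range k, (q ^ (2 * m' - i) - q ^ i) := by
    apply Finset.prod_pos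
    intro i hi
    rw [Finset.mem_range] at hi
    have : q ^ i < q ^ (2 * m' - i) := Nat.pow_lt_pow_right hq1 (by omega)
    omega
  apply Nat.eq_of_mul_eq_mul_left (Nat.mul_pos (Nat.mul_pos (by norm_num : 0 < 2) hpos1) hpos2)
  generalize Nat.card {g : ↥(Cfsg.Omega F ⇑Q) // (g : ↥(Cfsg.isometryGroup F ⇑Q)) * x
        = x * (g : ↥(Cfsg.isometryGroup F ⇑Q))} = C at key ⊢
  generalize q ^ (k * (k + 1) / 2 + 2 * k * (m' - k)) *
          (q ^ ((m' - k) ^ 2) * ∏ i ∈ Finset.range (m' - k), (q ^ (2 * (i + 1)) - 1)) = R at har ⊢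
  calc 2 * (q ^ m' * (q ^ (m' + 1) - 1)) * (∏ i ∈ Finset.range k, (q ^ (2 * m' - i) - q ^ i)) * C
      = 2 * C * (q ^ m' * (q ^ (m' + 1) - 1) *
          ∏ i ∈ Finset.range k, (q ^ (2 * m' - i) - q ^ i)) := by ring
    _ = 2 * (q ^ m' * q ^ m' ^ 2) * (q ^ (m' + 1) - 1) *
          (∏ i ∈ Finset.range m', (q ^ (2 * (i + 1)) - 1)) * aa q (k + 1) := key
    _ = 2 * (q ^ m' * (q ^ (m' + 1) - 1)) *
          (q ^ m' ^ 2 * ∏ i ∈ Finset.range m', (q ^ (2 * (i + 1)) - 1)) * aa q (k + 1) := by ring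
    _ = _ := by rw [har]; ring

theorem rank_le_O [CharP F 2] {m : ℕ} (Q : QuadraticForm F (Fin m ⊕ Fin m → F))
    (x : ↥(Cfsg.isometryGroup F ⇑Q)) (hx : x * x = 1) :
    Module.finrank F (LinearMap.range (NO Q x)) ≤ m := by
  have hdim : Module.finrank F (Fin m ⊕ Fin m → F) = 2 * m := by simp; ring
  have h1 := LinearMap.finrank_range_add_finrank_ker (NO Q x)
  have h2 : LinearMap.range (NO Q x) ≤ LinearMap.ker (NO Q x) := by
    rintro _ ⟨y, rfl⟩
    exact NO_sq Q x hx y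
  have h3 := Submodule.finrank_mono h2
  omega

theorem expO (m k : ℕ) (h : k + 1 ≤ m) :
    k * (k + 1) / 2 + 2 * k * (m - (k + 1))
      = 2 * m * (k + 1 - 1) - (3 * (k + 1) ^ 2 - 3 * (k + 1)) / 2 := by
  obtain ⟨r, rfl⟩ : ∃ r, m = k + 1 + r := ⟨m - (k + 1), by omega⟩
  obtain ⟨T, hT⟩ := Nat.even_mul_succ_self k
  have h1 : k * (k + 1) = k * k + k := by ring
  have h2 : 2 * k * (k + 1 + r - (k + 1)) = 2 * (k * r) := by
    rw [Nat.add_sub_cancel_left]; ring
  have h3 : 2 * (k + 1 + r) * (k + 1 - 1) = 2 * (k * k) + 2 * k + 2 * (k * r) := by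
    rw [Nat.add_sub_cancel]; ring
  have h4 : 3 * (k + 1) ^ 2 = 3 * (k * k) + 6 * k + 3 := by ring
  rw [h2, h3, h4]
  rw [h1] at hT ⊢
  generalize k * k = S at *
  generalize k * r = R at *
  omega

theorem expO' (m k : ℕ) (h : k + 1 ≤ m) (hk : 1 ≤ k) :
    k * (k + 1) / 2 + 2 * k * (m - (k + 1)) + k
      = 2 * m * (k + 1 - 1) - (3 * (k + 1) ^ 2 - 5 * (k + 1)) / 2 - 1 := by
  obtain ⟨r, rfl⟩ : ∃ r, m = k + 1 + r := ⟨m - (k + 1), by omega⟩
  obtain ⟨T, hT⟩ := Nat.even_mul_succ_self k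
  have h0 : k ≤ k * k := Nat.le_mul_self k
  have h1 : k * (k + 1) = k * k + k := by ring
  have h2 : 2 * k * (k + 1 + r - (k + 1)) = 2 * (k * r) := by
    rw [Nat.add_sub_cancel_left]; ring
  have h3 : 2 * (k + 1 + r) * (k + 1 - 1) = 2 * (k * k) + 2 * k + 2 * (k * r) := by
    rw [Nat.add_sub_cancel]; ring
  have h4 : 3 * (k + 1) ^ 2 = 3 * (k * k) + 6 * k + 3 := by ring
  rw [h2, h3, h4]
  rw [h1] at hT ⊢
  generalize k * k = S at *
  generalize k * r = R at *
  omega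

end Cfsg.Agent.Lib.Helper42CentO2
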