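import Mathlib
import Cfsg.Agent.Lib.Helper42Inv

set_option autoImplicit false

/-! Construction of involutions `1 + N` with prescribed normal form, and a class counting lemma
(helper42). -/

namespace Cfsg.Agent.Lib.Helper42InvEx

open Cfsg.Agent.Lib.Helper42Inv

section mk

variable {F V : Type*} [Field F] [AddCommGroup V] [Module F V]
variable (f : LinearMap.BilinForm F V) {ι : Type*} [Fintype ι] (σ : ι → ι) (r : ι → V)

/-- `x ↦ ∑ i, f x (r i) • r (σ i)`. -/
noncomputable def mkN : V →ₗ[F] V := ∑ i, (f.flip (r i)).smulRight (r (σ i))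

theorem mkN_apply (x : V) : mkN f σ r x = ∑ i, f x (r i) • r (σ i) := by
  simp [mkN, LinearMap.sum_apply, LinearMap.smulRight_apply, LinearMap.BilinForm.flip_apply]

variable {f σ r}

theorem sum_reindex (hσ : ∀ i, σ (σ i) = i) {M : Type*} [AddCommMonoid M] (g : ι → M) :
    ∑ i, g (σ i) = ∑ i, g i :=
  Equiv.sum_comp (Function.Involutive.toPerm σ hσ) g

theorem mkN_u [DecidableEq ι] (u : ι → V)
    (hdual : ∀ i j, f (u i) (r j) = if i = j then 1 else 0) (j : ι) :
    mkN f σ r (u j) = r (σ j) := by
  rw [mkN_apply]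
  simp [hdual]

theorem mkN_dat [DecidableEq ι] (hσ : ∀ i, σ (σ i) = i) (u : ι → V)
    (hdual : ∀ i j, f (u i) (r j) = if i = j then 1 else 0) : Dat f (mkN f σ r) σ u := by
  refine ⟨fun i j => ?_, fun x => ?_⟩
  · rw [mkN_u u hdual, hdual]
  · simp only [mkN_u u hdual, hσ]
    rw [mkN_apply, ← sum_reindex hσ (fun i => f x (r i) • r (σ i))]
    simp only [hσ]

theorem mkN_r (hiso : ∀ i j, f (r i) (r j) = 0) (j : ι) : mkN f σ r (r j) = 0 := by
  rw [mkN_apply]
  simp [hiso]

theorem mkN_sq (hiso : ∀ i j, f (r i) (r j) = 0) (x : V) : mkN f σ r (mkN f σ r x) = 0 := by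
  rw [mkN_apply f σ r x, map_sum]
  simp [mkN_r hiso]

theorem mkN_sa (hsym : ∀ x y, f x y = f y x) (hσ : ∀ i, σ (σ i) = i) (x y : V) :
    f (mkN f σ r x) y = f x (mkN f σ r y) := by
  rw [mkN_apply, mkN_apply, map_sum, LinearMap.sum_apply, map_sum,
    ← sum_reindex hσ (fun i => f x (f y (r i) • r (σ i)))]
  apply Finset.sum_congr rfl
  intro i _
  simp only [map_smul, LinearMap.smul_apply, smul_eq_mul, hσ]
  rw [hsym (r (σ i)) y, mul_comm]

theorem gamma_apply (x : V) : f x (mkN f σ r x) = ∑ i, f x (r i) * f x (r (σ i)) := by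
  rw [mkN_apply, map_sum]
  simp

end mk

section swap

variable {F V : Type*} [Field F] [CharP F 2] [AddCommGroup V] [Module F V]
variable {f : LinearMap.BilinForm F V} {κ : Type*} [Fintype κ] {r : κ ⊕ κ → V}

theorem gamma_swap (x : V) : f x (mkN f Sum.swap r x) = 0 := by
  rw [gamma_apply, Fintype.sum_sum_type]
  simp only [Sum.swap_inl, Sum.swap_inr]
  rw [← Finset.sum_add_distrib]
  apply Finset.sum_eq_zero
  intro i _
  rw [mul_comm]
  exact CharTwo.add_self_eq_zero _

end swap

section quad

open QuadraticMap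

variable {F V : Type*} [Field F] [AddCommGroup V] [Module F V] (Q : QuadraticForm F V)

theorem Q_sum {ι : Type*} (s : Finset ι) (w : ι → V) (h : ∀ i j, polar Q (w i) (w j) = 0) :
    Q (∑ i ∈ s, w i) = ∑ i ∈ s, Q (w i) := by
  classical
  induction s using Finset.induction_on with
  | empty => simp
  | insert a s ha ih =>
    rw [Finset.sum_insert ha, Finset.sum_insert ha, Cfsg.Agent.Lib.Helper42Quad.map_add_polar, ih]
    have : polar Q (w a) (∑ i ∈ s, w i) = 0 := by
      rw [← polarBilin_apply_apply, map_sum]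
      apply Finset.sum_eq_zero
      intro i _
      exact h a i
    rw [this, add_zero]

variable {ι : Type*} [Fintype ι] {σ : ι → ι} {r : ι → V}

theorem Q_mkN (hσ : ∀ i, σ (σ i) = i) (hiso : ∀ i j, polarBilin Q (r i) (r j) = 0) (c : F)
    (hval : ∀ i, Q (r i) = c) (x : V) :
    Q (mkN (polarBilin Q) σ r x) = c * ∑ i, polarBilin Q x (r i) * polarBilin Q x (r i) := by
  rw [mkN_apply, Q_sum]
  · simp only [QuadraticMap.map_smul, hval, smul_eq_mul]
    rw [Finset.mul_sum]
    apply Finset.sum_congr rfl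
    intro i _
    ring
  · intro i j
    rw [polar_smul_left, polar_smul_right]
    have := hiso (σ i) (σ j)
    rw [polarBilin_apply_apply] at this
    rw [this]
    simp

end quad

section count

/-- Counting conjugacy classes by a complete invariant. -/
theorem card_classes {G T : Type*} [Group G] (P : G → Prop) (φ : G → T)
    (h : ∀ a b, P a → P b → (IsConj a b ↔ φ a = φ b)) :
    Nat.card {C : ConjClasses G // ∃ g : G, ConjClasses.mk g = C ∧ P g}
      = Nat.card {x : T // ∃ g, P g ∧ φ g = x} := by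
  classical
  apply Nat.card_congr
  refine Equiv.ofBijective (fun C => ⟨φ C.2.choose, C.2.choose, C.2.choose_spec.2, rfl⟩) ⟨?_, ?_⟩
  · intro C C' hCC
    have h1 : φ C.2.choose = φ C'.2.choose := congrArg Subtype.val hCC
    have h2 := (h _ _ C.2.choose_spec.2 C'.2.choose_spec.2).mpr h1
    apply Subtype.ext
    rw [← C.2.choose_spec.1, ← C'.2.choose_spec.1]
    exact ConjClasses.mk_eq_mk_iff_isConj.mpr h2
  · rintro ⟨x, g, hg, rfl⟩
    refine ⟨⟨ConjClasses.mk g, g, rfl, hg⟩, ?_⟩
    apply Subtype.ext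
    have hc : ∃ g' : G, ConjClasses.mk g' = ConjClasses.mk g ∧ P g' := ⟨g, rfl, hg⟩
    change φ hc.choose = φ g
    exact (h _ _ hc.choose_spec.2 hg).mp (ConjClasses.mk_eq_mk_iff_isConj.mp hc.choose_spec.1)

/-- The number of pairs (rank, type). -/
theorem card_pairs (m m' : ℕ) :
    Nat.card {x : ℕ × Bool // 1 ≤ x.1 ∧ x.1 ≤ m ∧ (x.2 = true → Even x.1 ∧ x.1 ≤ m')}
      = m + min m m' / 2 := by
  have e : {x : ℕ × Bool // 1 ≤ x.1 ∧ x.1 ≤ m ∧ (x.2 = true → Even x.1 ∧ x.1 ≤ m')}
      ≃ Fin m ⊕ Fin (min m m' / 2) :=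
    { toFun := fun x =>
        if hb : x.1.2 = true then
          Sum.inr ⟨x.1.1 / 2 - 1, by
            obtain ⟨h1, h2, h3⟩ := x.2
            obtain ⟨⟨k, hk⟩, h5⟩ := h3 hb
            omega⟩
        else Sum.inl ⟨x.1.1 - 1, by
            obtain ⟨h1, h2, h3⟩ := x.2
            omega⟩
      invFun := fun y => match y with
        | Sum.inl i => ⟨(i.1 + 1, false), by
            have := i.2
            refine ⟨by simp, by simp only; omega, by simp⟩⟩
        | Sum.inr j => ⟨(2 * j.1 + 2, true), by
            have := j.2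
            refine ⟨by simp, by simp only; omega,
              fun _ => ⟨⟨j.1 + 1, by simp only; ring⟩, by simp only; omega⟩⟩⟩
      left_inv := by
        rintro ⟨⟨l, b⟩, h1, h2, h3⟩
        cases b with
        | true =>
          obtain ⟨⟨k, hk⟩, h5⟩ := h3 rfl
          simp only at hk h1
          simp only [dite_true, Subtype.mk.injEq, Prod.mk.injEq, and_true]
          omega
        | false =>
          simp only at h1
          simp only [Bool.false_eq_true, dite_false, Subtype.mk.injEq, Prod.mk.injEq, and_true]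
          omega
      right_inv := by
        rintro (i | j)
        · simp
        · simp only [dite_true, Sum.inr.injEq]
          apply Fin.ext
          simp only
          omega }
  rw [Nat.card_congr e]
  simp

end count

end Cfsg.Agent.Lib.Helper42InvEx
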