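import Mathlib
import Cfsg.Agent.Lib.Helper42OInv2
import Cfsg.Agent.Lib.Helper42InvEx

set_option autoImplicit false

/-! Existence of involutions of orthogonal groups in characteristic two with given invariants
(helper42). -/

namespace Cfsg.Agent.Lib.Helper42OInv3

open Cfsg.Agent.Lib.Helper42Inv Cfsg.Agent.Lib.Helper42OInv Cfsg.Agent.Lib.Helper42OInv2
  Cfsg.Agent.Lib.Helper42InvEx Cfsg.Agent.Lib.Helper49Orth
  Cfsg.Agent.Lib.Helper49Witt Cfsg.Agent.Lib.Helper49Forms Cfsg.Agent.Lib.Helper18Hyp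
open QuadraticMap

section general

variable {F : Type*} [Field F] {ι' : Type} [Fintype ι'] [DecidableEq ι']
variable (Q : QuadraticForm F (ι' → F))

theorem polar_symm (x y : ι' → F) : polarBilin Q x y = polarBilin Q y x := by
  rw [polarBilin_apply_apply, polarBilin_apply_apply, polar_comm]

theorem exists_O [CharP F 2] {ι : Type*} [Fintype ι] [DecidableEq ι] [Nonempty ι] (σ : ι → ι)
    (hσ : ∀ i, σ (σ i) = i) (r u : ι → (ι' → F))
    (hdual : ∀ i j, polarBilin Q (u i) (r j) = if i = j then 1 else 0)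
    (hiso : ∀ i j, polarBilin Q (r i) (r j) = 0) (c : F) (hval : ∀ i, Q (r i) = c)
    (hc : ∀ x, c * ∑ i, polarBilin Q x (r i) * polarBilin Q x (r i)
      = polarBilin Q x (mkN (polarBilin Q) σ r x)) :
    ∃ t : ↥(Cfsg.isometryGroup F ⇑Q), orderOf t = 2 ∧ NO Q t = mkN (polarBilin Q) σ r ∧
      Dat (polarBilin Q) (NO Q t) σ u := by
  obtain ⟨N, hN⟩ : ∃ N, N = mkN (polarBilin Q) σ r := ⟨_, rfl⟩
  have hsq : ∀ x, N (N x) = 0 := by rw [hN]; exact mkN_sq hiso
  have hdat : Dat (polarBilin Q) N σ u := by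
    rw [hN]; exact mkN_dat hσ _ hdual
  have hQN : ∀ x, Q (N x) = polarBilin Q x (N x) := by
    intro x
    rw [hN, Q_mkN Q hσ hiso c hval, hc]
  have hinv : Function.Involutive (LinearMap.id + N : (ι' → F) →ₗ[F] (ι' → F)) := by
    intro x
    simp only [LinearMap.add_apply, LinearMap.id_apply, map_add, hsq, add_zero]
    rw [add_assoc, vadd_self, add_zero]
  have he : ∀ v, Q (LinearEquiv.ofInvolutive _ hinv v) = Q v := by
    intro v
    change Q (v + N v) = Q v
    rw [Cfsg.Agent.Lib.Helper42Quad.map_add_polar, hQN, ← polarBilin_apply_apply, add_assoc,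
      CharTwo.add_self_eq_zero, add_zero]
  have hmul : ∀ x, Matrix.mulVec (((ofEquiv Q _ he : ↥(Cfsg.isometryGroup F ⇑Q)) :
      Matrix.GeneralLinearGroup ι' F) : Matrix ι' ι' F) x = x + N x := by
    intro x
    rw [ofEquiv_mulVec]
    rfl
  have hNO : NO Q (ofEquiv Q _ he) = N := by
    apply LinearMap.ext
    intro x
    rw [NO_apply, hmul]; abel
  refine ⟨ofEquiv Q _ he, ?_, by rw [hNO, hN], by rw [hNO]; exact hdat⟩
  apply orderOf_eq_prime
  · rw [pow_two]
    apply iso_ext
    apply Matrix.mulVec_injective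
    funext x
    simp only [Subgroup.coe_mul, Units.val_mul, Subgroup.coe_one, Units.val_one]
    rw [← Matrix.mulVec_mulVec, hmul, hmul, Matrix.one_mulVec, map_add, hsq, add_zero, add_assoc,
      vadd_self, add_zero]
  · intro h1
    obtain ⟨i0⟩ := (inferInstance : Nonempty ι)
    have h3 := hdat.gram (σ i0) i0
    rw [← hNO, h1] at h3
    have h4 : NO Q (1 : ↥(Cfsg.isometryGroup F ⇑Q)) = 0 := by
      apply LinearMap.ext
      intro x
      rw [NO_apply]
      simp
    rw [h4] at h3
    simp at h3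

/-- Non-alternating type from a family of pairwise orthogonal vectors of norm one. -/
theorem exists_O_id [CharP F 2] {κ : Type*} (R U : κ → (ι' → F))
    (hdual : ∀ i j, polarBilin Q (U i) (R j) = open Classical in if i = j then 1 else 0)
    (hiso : ∀ i j, polarBilin Q (R i) (R j) = 0) (hval : ∀ i, Q (R i) = 1)
    (l : ℕ) (hl : 1 ≤ l) (emb : Fin l → κ) (hemb : Function.Injective emb) :
    ∃ t : ↥(Cfsg.isometryGroup F ⇑Q), orderOf t = 2 ∧
      Module.finrank F (LinearMap.range (NO Q t)) = l ∧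
      ¬ ∀ v, polarBilin Q v (NO Q t v) = 0 := by
  classical
  haveI : Nonempty (Fin l) := ⟨⟨0, by omega⟩⟩
  obtain ⟨t, ht, -, hdat⟩ := exists_O Q (id : Fin l → Fin l) (fun _ => rfl) (fun i => R (emb i))
    (fun i => U (emb i)) (fun i j => by
      rw [hdual]
      by_cases h : i = j
      · simp [h]
      · have : emb i ≠ emb j := fun hh => h (hemb hh)
        simp [h, this]) (fun i j => hiso _ _) 1 (fun i => hval _) (fun x => by
      rw [gamma_apply, one_mul]; rfl)
  refine ⟨t, ht, ?_, ?_⟩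
  · rw [hdat.finrank_range (fun _ => rfl)]; simp
  · intro hall
    have := hdat.gram ⟨0, by omega⟩ ⟨0, by omega⟩
    rw [hall] at this
    simp at this

/-- Alternating type from a family of pairwise orthogonal singular vectors. -/
theorem exists_O_swap [CharP F 2] {κ : Type*} (R U : κ → (ι' → F))
    (hdual : ∀ i j, polarBilin Q (U i) (R j) = open Classical in if i = j then 1 else 0)
    (hiso : ∀ i j, polarBilin Q (R i) (R j) = 0) (hval : ∀ i, Q (R i) = 0)
    (k : ℕ) (hk : 1 ≤ k) (emb : Fin k ⊕ Fin k → κ) (hemb : Function.Injective emb) :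
    ∃ t : ↥(Cfsg.isometryGroup F ⇑Q), orderOf t = 2 ∧
      Module.finrank F (LinearMap.range (NO Q t)) = k + k ∧
      ∀ v, polarBilin Q v (NO Q t v) = 0 := by
  classical
  haveI : Nonempty (Fin k ⊕ Fin k) := ⟨Sum.inl ⟨0, by omega⟩⟩
  obtain ⟨t, ht, hN, hdat⟩ := exists_O Q (Sum.swap : Fin k ⊕ Fin k → _)
    (fun i => Sum.swap_swap i) (fun i => R (emb i))
    (fun i => U (emb i)) (fun i j => by
      rw [hdual]
      by_cases h : i = j
      · simp [h]
      · have : emb i ≠ emb j := fun hh => h (hemb hh)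
        simp [h, this]) (fun i j => hiso _ _) 0 (fun i => hval _) (fun x => by
      rw [gamma_swap, zero_mul])
  refine ⟨t, ht, ?_, ?_⟩
  · rw [hdat.finrank_range (fun i => Sum.swap_swap i)]; simp
  · intro v
    rw [hN]
    exact gamma_swap v

theorem isConj_iff_inv [Finite F] [CharP F 2] (hQ : (polarBilin Q).Nondegenerate)
    (t s : ↥(Cfsg.isometryGroup F ⇑Q)) (ht : orderOf t = 2) (hs : orderOf s = 2) :
    IsConj t s ↔ (Module.finrank F (LinearMap.range (NO Q t))
        = Module.finrank F (LinearMap.range (NO Q s)) ∧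
      ((∀ v, polarBilin Q v (NO Q t v) = 0) ↔ (∀ v, polarBilin Q v (NO Q s v) = 0))) := by
  constructor
  · intro h
    obtain ⟨c, hc⟩ := isConj_iff.mp h
    exact invariants_of_sp_conj Q t s c.1 (fun u v => polar_iso Q c u v) (by rw [← hc]; rfl)
  · rintro ⟨h1, h2⟩
    obtain ⟨c, hc⟩ := conjO Q hQ t s (sq_of_order Q t ht) (sq_of_order Q s hs) h1 h2
    exact isConj_iff.mpr ⟨c, hc⟩

theorem bounds [CharP F 2] (hQ : (polarBilin Q).Nondegenerate) {m : ℕ}
    (hdim : Module.finrank F (ι' → F) = 2 * m)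
    (t : ↥(Cfsg.isometryGroup F ⇑Q)) (ht : orderOf t = 2) :
    1 ≤ Module.finrank F (LinearMap.range (NO Q t)) ∧
    Module.finrank F (LinearMap.range (NO Q t)) ≤ m ∧
    ((∀ v, polarBilin Q v (NO Q t v) = 0) → Even (Module.finrank F (LinearMap.range (NO Q t))) ∧
      TS Q (LinearMap.range (NO Q t))) := by
  classical
  have ht2 := sq_of_order Q t ht
  refine ⟨?_, ?_, ?_⟩
  · by_contra h0
    have h1 : Module.finrank F (LinearMap.range (NO Q t)) = 0 := by omega
    rw [Submodule.finrank_eq_zero, LinearMap.range_eq_bot] at h1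
    have h2 : t = 1 := by
      apply iso_ext
      apply Matrix.mulVec_injective
      funext x
      have := congrArg (fun L => L x) h1
      simp only [NO_apply, LinearMap.zero_apply] at this
      rw [sub_eq_zero.mp this]
      simp
    rw [h2, orderOf_one] at ht
    omega
  · have h1 := LinearMap.finrank_range_add_finrank_ker (NO Q t)
    have h2 : LinearMap.range (NO Q t) ≤ LinearMap.ker (NO Q t) := by
      rintro _ ⟨x, rfl⟩
      exact NO_sq Q t ht2 x
    have h3 := Submodule.finrank_mono h2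
    omega
  · intro hA
    constructor
    · obtain ⟨k, u, h⟩ := exists_dat_A (polarBilin Q) hQ (NO Q t) (NO_sa Q t ht2) hA
      rw [h.finrank_range (fun i => Sum.swap_swap i)]
      simp
    · rintro _ ⟨v, rfl⟩
      rw [Q_NO]
      exact hA v

/-- Hyperbolic coordinates give the two kinds of families. -/
theorem hyp_A {κ : Type*} (pa pb : κ → ι') (H : ∀ i, HypPair Q (pa i) (pb i))
    (ha : Function.Injective pa) (hab : ∀ i j, pa i ≠ pb j) :
    (∀ i j, polarBilin Q (Pi.single (pb i) 1 : ι' → F) (Pi.single (pa j) 1)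
      = open Classical in if i = j then 1 else 0) ∧
    (∀ i j, polarBilin Q (Pi.single (pa i) 1 : ι' → F) (Pi.single (pa j) 1) = 0) ∧
    (∀ i, Q (Pi.single (pa i) 1) = 0) := by
  classical
  refine ⟨fun i j => ?_, fun i j => ?_, fun i => ?_⟩
  · rw [polarBilin_apply_apply, Cfsg.Agent.Lib.Helper49Disc.HypPair.polar_right (H i),
      Pi.single_apply]
    by_cases h : i = j
    · simp [h]
    · have : pa i ≠ pa j := fun hh => h (ha hh)
      simp [h, this]
  · rw [polarBilin_apply_apply, Cfsg.Agent.Lib.Helper49Disc.HypPair.polar_left (H i),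
      Pi.single_apply]
    simp [(hab j i).symm]
  · have := (H i).Q_st 1 0
    simpa using this

theorem hyp_O [CharP F 2] {κ : Type*} (pa pb : κ → ι') (H : ∀ i, HypPair Q (pa i) (pb i))
    (ha : Function.Injective pa) (hb : Function.Injective pb) (hab : ∀ i j, pa i ≠ pb j) :
    (∀ i j, polarBilin Q (Pi.single (pa i) 1 : ι' → F) (Pi.single (pa j) 1 + Pi.single (pb j) 1)
      = open Classical in if i = j then 1 else 0) ∧
    (∀ i j, polarBilin Q (Pi.single (pa i) 1 + Pi.single (pb i) 1 : ι' → F)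
      (Pi.single (pa j) 1 + Pi.single (pb j) 1) = 0) ∧
    (∀ i, Q (Pi.single (pa i) 1 + Pi.single (pb i) 1) = 1) := by
  classical
  have h1 : ∀ i j, polarBilin Q (Pi.single (pa i) 1 : ι' → F)
      (Pi.single (pa j) 1 + Pi.single (pb j) 1) = if i = j then 1 else 0 := by
    intro i j
    rw [polarBilin_apply_apply, Cfsg.Agent.Lib.Helper49Disc.HypPair.polar_left (H i),
      Pi.add_apply, Pi.single_apply, Pi.single_apply]
    by_cases h : i = j
    · simp [h, (hab j j).symm]
    · have : pb i ≠ pb j := fun hh => h (hb hh)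
      simp [h, this, (hab j i).symm]
  have h2 : ∀ i j, polarBilin Q (Pi.single (pb i) 1 : ι' → F)
      (Pi.single (pa j) 1 + Pi.single (pb j) 1) = if i = j then 1 else 0 := by
    intro i j
    rw [polarBilin_apply_apply, Cfsg.Agent.Lib.Helper49Disc.HypPair.polar_right (H i),
      Pi.add_apply, Pi.single_apply, Pi.single_apply]
    by_cases h : i = j
    · simp [h, hab j j]
    · have : pa i ≠ pa j := fun hh => h (ha hh)
      simp [h, this, hab i j]
  refine ⟨h1, fun i j => ?_, fun i => ?_⟩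
  · rw [LinearMap.map_add₂, h1, h2]
    exact CharTwo.add_self_eq_zero _
  · have := (H i).Q_st 1 1
    simpa using this

end general

section minus

variable {F : Type*} [Field F]

theorem a_ne_zero [Fintype F] [CharP F 2] {a b : F}
    (hab : ∀ z₁ z₂ : F, z₁ ^ 2 + a * z₁ * z₂ + b * z₂ ^ 2 = 0 → z₁ = 0 ∧ z₂ = 0) : a ≠ 0 := by
  rintro rfl
  obtain ⟨c, hc⟩ := Cfsg.Agent.Lib.Helper49CharTwoA.exists_sqrt b
  have := hab c 1 (by
    rw [← hc]
    have h2 : c ^ 2 + 0 * c * 1 + c * c * 1 ^ 2 = c * c + c * c := by ring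
    rw [h2]
    exact CharTwo.add_self_eq_zero _)
  exact one_ne_zero this.2

/-- norm one vectors of the elliptic form -/
noncomputable def RM (k : ℕ) (F : Type*) [Field F] : Fin k ⊕ Unit → ((Fin k ⊕ Fin k) ⊕ Fin 2 → F) :=
  Sum.elim (fun i => Pi.single (Sum.inl (Sum.inl i)) 1 + Pi.single (Sum.inl (Sum.inr i)) 1)
    (fun _ => Pi.single (Sum.inr 0) 1)

/-- dual vectors -/
noncomputable def UM (k : ℕ) {F : Type*} [Field F] (a : F) :
    Fin k ⊕ Unit → ((Fin k ⊕ Fin k) ⊕ Fin 2 → F) :=
  Sum.elim (fun i => Pi.single (Sum.inl (Sum.inl i)) 1)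
    (fun _ => a⁻¹ • Pi.single (Sum.inr 1) 1)

theorem minus_O [CharP F 2] (k : ℕ) (a b : F) (ha : a ≠ 0) :
    (∀ i j, polarBilin (QMinus k F a b) (UM k a i) (RM k F j)
      = open Classical in if i = j then 1 else 0) ∧
    (∀ i j, polarBilin (QMinus k F a b) (RM k F i) (RM k F j) = 0) ∧
    (∀ i, QMinus k F a b (RM k F i) = 1) := by
  classical
  have h2 : (2 : F) = 0 := CharTwo.two_eq_zero
  obtain ⟨h1, h3, h4⟩ := hyp_O (QMinus k F a b) (fun i : Fin k => Sum.inl (Sum.inl i))
    (fun i : Fin k => Sum.inl (Sum.inr i)) (fun i => hypPair_QMinus k a b i)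
    (fun i j h => by simpa using h) (fun i j h => by simpa using h) (fun i j => by simp)
  refine ⟨?_, ?_, ?_⟩
  · rintro (i | i) (j | j)
    · have := h1 i j
      simp only [UM, RM, Sum.elim_inl, Sum.inl.injEq]
      rw [this]
      by_cases h : i = j <;> simp [h]
    · simp only [UM, RM, Sum.elim_inl, Sum.elim_inr, polarBilin_apply_apply]
      rw [Cfsg.Agent.Lib.Helper49Disc.HypPair.polar_left (hypPair_QMinus k a b i)]
      simp
    · simp only [UM, RM, Sum.elim_inl, Sum.elim_inr, polarBilin_apply_apply]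
      rw [polar_smul_left, Cfsg.Agent.Lib.Helper49Disc.polar_QMinus_one]
      simp
    · simp only [UM, RM, Sum.elim_inl, Sum.elim_inr, polarBilin_apply_apply]
      rw [polar_smul_left, Cfsg.Agent.Lib.Helper49Disc.polar_QMinus_one]
      simp [ha]
  · rintro (i | i) (j | j)
    · simpa [RM] using h3 i j
    · simp only [RM, Sum.elim_inl, Sum.elim_inr, polarBilin_apply_apply]
      rw [polar_comm, Cfsg.Agent.Lib.Helper49Disc.polar_QMinus_zero]
      simp
    · simp only [RM, Sum.elim_inl, Sum.elim_inr, polarBilin_apply_apply]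
      rw [Cfsg.Agent.Lib.Helper49Disc.polar_QMinus_zero]
      simp
    · simp only [RM, Sum.elim_inl, Sum.elim_inr, polarBilin_apply_apply]
      rw [Cfsg.Agent.Lib.Helper49Disc.polar_QMinus_zero]
      simp [h2]
  · rintro (i | i)
    · simpa [RM] using h4 i
    · simp only [RM, Sum.elim_inr]
      rw [coe_QMinus]
      simp [Cfsg.quadFormMinus]

end minus

end Cfsg.Agent.Lib.Helper42OInv3
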