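import Mathlib
import Cfsg.Agent.Lib.Helper42OInv3

set_option autoImplicit false

/-! Involution classes of `Ω` in characteristic two (helper42). -/

namespace Cfsg.Agent.Lib.Helper42OInv4

open Cfsg.Agent.Lib.Helper42Inv Cfsg.Agent.Lib.Helper42OInv Cfsg.Agent.Lib.Helper42OInv2
  Cfsg.Agent.Lib.Helper42OInv3 Cfsg.Agent.Lib.Helper42InvEx Cfsg.Agent.Lib.Helper49Orth
  Cfsg.Agent.Lib.Helper49Witt Cfsg.Agent.Lib.Helper49Forms Cfsg.Agent.Lib.Helper18Hyp
  Cfsg.Agent.Lib.Helper49Fam Cfsg.Agent.Lib.Helper49Fam2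
open QuadraticMap

section general

variable {F : Type*} [Field F] {ι' : Type} [Fintype ι'] [DecidableEq ι']
variable (Q : QuadraticForm F (ι' → F))

theorem isConj_Omega_iff (a b : ↥(Cfsg.Omega F ⇑Q)) :
    IsConj a b ↔ ∃ c ∈ Cfsg.Omega F ⇑Q,
      c * (a : ↥(Cfsg.isometryGroup F ⇑Q)) * c⁻¹ = (b : ↥(Cfsg.isometryGroup F ⇑Q)) := by
  rw [isConj_iff]
  constructor
  · rintro ⟨c, hc⟩
    exact ⟨c.1, c.2, by rw [← hc]; rfl⟩
  · rintro ⟨c, hc, h⟩
    exact ⟨⟨c, hc⟩, Subtype.ext h⟩

theorem conj_Omega_of_not_exc [Fintype F] [CharP F 2] (hQ : (polarBilin Q).Nondegenerate)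
    (hq : Fintype.card F ≠ 2 ∨ Fintype.card ι' ≠ 4) (hcard : 1 ≤ Fintype.card ι') {m : ℕ}
    (hdim : Module.finrank F (ι' → F) = 2 * m)
    (t s g : ↥(Cfsg.isometryGroup F ⇑Q)) (ht : t * t = 1) (hg : g * t * g⁻¹ = s)
    (hne : ¬ (Module.finrank F (LinearMap.range (NO Q t)) = m ∧
      ∀ v, polarBilin Q v (NO Q t v) = 0)) :
    ∃ g' ∈ Cfsg.Omega F ⇑Q, g' * t * g'⁻¹ = s := by
  by_cases hex : ∃ v, Q v ≠ 0 ∧
      Matrix.mulVec ((t : Matrix.GeneralLinearGroup ι' F) : Matrix ι' ι' F) v = v
  · obtain ⟨v, hv, htv⟩ := hex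
    exact conj_in_Omega Q hQ hq hcard t s g hg v hv htv
  · exfalso
    push Not at hex
    have h1 := exceptional Q hQ hdim t ht (fun v hv => by
      by_contra h
      exact hex v h hv)
    exact hne ⟨h1.2.2.1, fun v => by rw [← Q_NO]; exact h1.2.2.2 v⟩

end general

section plus

variable {F : Type*} [Field F] [Fintype F] [CharP F 2]

theorem prop_aux (M A B C H CH : Prop) (e1 : (M ↔ A) ↔ H) (e2 : (M ↔ B) ↔ CH)
    (e3 : CH ↔ (C ↔ H)) : (A ↔ B) ↔ C := by
  tauto

theorem parity_iff {m : ℕ} (h : Fintype.card F ≠ 2 ∨ m ≠ 2) (hm : 1 ≤ m)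
    (Y : Submodule F (Fin m ⊕ Fin m → F)) (hY : TS (QPlus m F) Y)
    (hYm : Module.finrank F Y = m) (c : ↥(Cfsg.isometryGroup F ⇑(QPlus m F))) :
    ((Even (Module.finrank F (U0 m F ⊓ Y : Submodule F (Fin m ⊕ Fin m → F))) ↔
      Even (Module.finrank F (U0 m F ⊓ img (QPlus m F) c Y : Submodule F (Fin m ⊕ Fin m → F)))) ↔
      c ∈ Cfsg.Omega F ⇑(QPlus m F)) := by
  have hQ := Cfsg.Agent.Lib.Helper49Rank.QPlus_nondegenerate (F := F) m
  have hq : Fintype.card F ≠ 2 ∨ Fintype.card (Fin m ⊕ Fin m) ≠ 4 := by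
    refine h.imp id fun h => ?_
    simp only [Fintype.card_sum, Fintype.card_fin]
    omega
  have hidx := Cfsg.Agent.Lib.Helper49All.index_Omega_two (QPlus m F) hQ hq
    (by simp only [Fintype.card_sum, Fintype.card_fin]; omega)
  obtain ⟨h0, rfl⟩ := exists_img_eq_of_TS (QPlus m F) hQ (U0_TS m) hY (by rw [U0_finrank, hYm])
  have e1 := even_codim_iff_mem h (U0_TS m) (U0_finrank m) h0
  have e2 := even_codim_iff_mem h (U0_TS m) (U0_finrank m) (c * h0)
  rw [img_mul] at e2
  have e3 := Subgroup.mul_mem_iff_of_index_two hidx (a := c) (b := h0)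
  have d1 : Module.finrank F (U0 m F ⊓ img (QPlus m F) h0 (U0 m F) :
      Submodule F (Fin m ⊕ Fin m → F)) ≤ m :=
    le_trans (Submodule.finrank_mono inf_le_left) (U0_finrank m).le
  have d2 : Module.finrank F (U0 m F ⊓ img (QPlus m F) c (img (QPlus m F) h0 (U0 m F)) :
      Submodule F (Fin m ⊕ Fin m → F)) ≤ m :=
    le_trans (Submodule.finrank_mono inf_le_left) (U0_finrank m).le
  rw [Nat.even_sub d1] at e1
  rw [Nat.even_sub d2] at e2
  exact prop_aux _ _ _ _ _ _ e1 e2 e3

end plus

section count

theorem card_pairs_even (m m' : ℕ) :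
    Nat.card {x : ℕ × Bool // 1 ≤ x.1 ∧ x.1 ≤ m ∧ Even x.1 ∧ (x.2 = true → x.1 ≤ m')}
      = m / 2 + min m m' / 2 := by
  have e : {x : ℕ × Bool // 1 ≤ x.1 ∧ x.1 ≤ m ∧ Even x.1 ∧ (x.2 = true → x.1 ≤ m')}
      ≃ Fin (m / 2) ⊕ Fin (min m m' / 2) :=
    { toFun := fun x =>
        if hb : x.1.2 = true then
          Sum.inr ⟨x.1.1 / 2 - 1, by
            obtain ⟨h1, h2, ⟨k, hk⟩, h3⟩ := x.2
            have h5 := h3 hb
            omega⟩
        else Sum.inl ⟨x.1.1 / 2 - 1, by
            obtain ⟨h1, h2, ⟨k, hk⟩, h3⟩ := x.2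
            omega⟩
      invFun := fun y => match y with
        | Sum.inl i => ⟨(2 * i.1 + 2, false), by
            have := i.2
            refine ⟨by simp, by simp only; omega, ⟨i.1 + 1, by simp only; ring⟩, by simp⟩⟩
        | Sum.inr j => ⟨(2 * j.1 + 2, true), by
            have := j.2
            refine ⟨by simp, by simp only; omega, ⟨j.1 + 1, by simp only; ring⟩,
              fun _ => by simp only; omega⟩⟩
      left_inv := by
        rintro ⟨⟨l, b⟩, h1, h2, ⟨k, hk⟩, h3⟩
        cases b with
        | true =>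
          simp only at hk h1
          simp only [dite_true, Subtype.mk.injEq, Prod.mk.injEq, and_true]
          omega
        | false =>
          simp only at hk h1
          simp only [Bool.false_eq_true, dite_false, Subtype.mk.injEq, Prod.mk.injEq, and_true]
          omega
      right_inv := by
        rintro (i | j)
        · simp only [Bool.false_eq_true, dite_false, Sum.inl.injEq]
          apply Fin.ext
          simp only
          omega
        · simp only [dite_true, Sum.inr.injEq]
          apply Fin.ext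
          simp only
          omega }
  rw [Nat.card_congr e]
  simp

theorem card_triples (m : ℕ) (hm : 1 ≤ m) :
    Nat.card {x : ℕ × Bool × Bool // 1 ≤ x.1 ∧ x.1 ≤ m ∧ Even x.1 ∧
      (x.2.2 = false → x.1 = m ∧ x.2.1 = true)}
      = 2 * (m / 2) + (if Even m then 1 else 0) := by
  have e : {x : ℕ × Bool × Bool // 1 ≤ x.1 ∧ x.1 ≤ m ∧ Even x.1 ∧
      (x.2.2 = false → x.1 = m ∧ x.2.1 = true)}
      ≃ (Fin (m / 2) ⊕ Fin (m / 2)) ⊕ Fin (if Even m then 1 else 0) :=
    { toFun := fun x =>
        if hp : x.1.2.2 = true then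
          (if hb : x.1.2.1 = true then
            Sum.inl (Sum.inr ⟨x.1.1 / 2 - 1, by
              obtain ⟨h1, h2, ⟨k, hk⟩, h3⟩ := x.2
              omega⟩)
          else Sum.inl (Sum.inl ⟨x.1.1 / 2 - 1, by
              obtain ⟨h1, h2, ⟨k, hk⟩, h3⟩ := x.2
              omega⟩))
        else Sum.inr ⟨0, by
          obtain ⟨h1, h2, h4, h3⟩ := x.2
          have h5 := (h3 (by simpa using hp)).1
          rw [h5] at h4
          simp [h4]⟩
      invFun := fun y => match y with
        | Sum.inl (Sum.inl i) => ⟨(2 * i.1 + 2, false, true), by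
            have := i.2
            refine ⟨by simp, by simp only; omega, ⟨i.1 + 1, by simp only; ring⟩, by simp⟩⟩
        | Sum.inl (Sum.inr i) => ⟨(2 * i.1 + 2, true, true), by
            have := i.2
            refine ⟨by simp, by simp only; omega, ⟨i.1 + 1, by simp only; ring⟩, by simp⟩⟩
        | Sum.inr j => ⟨(m, true, false), by
            have hj := j.2
            have he : Even m := by
              by_contra hne
              simp [hne] at hj
            exact ⟨hm, le_refl _, he, fun _ => ⟨rfl, rfl⟩⟩⟩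
      left_inv := by
        rintro ⟨⟨l, b, p⟩, h1, h2, ⟨k, hk⟩, h3⟩
        cases p with
        | true =>
          cases b with
          | true =>
            simp only at hk h1
            simp only [dite_true, Subtype.mk.injEq, Prod.mk.injEq, and_true]
            omega
          | false =>
            simp only at hk h1
            simp only [dite_true, Bool.false_eq_true, dite_false, Subtype.mk.injEq, Prod.mk.injEq,
              and_true]
            omega
        | false =>
          obtain ⟨h5, h6⟩ := h3 rfl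
          simp only at h5 h6
          subst h5 h6
          simp
      right_inv := by
        rintro ((i | i) | j)
        · simp only [dite_true, Bool.false_eq_true, dite_false, Sum.inl.injEq]
          apply Fin.ext
          simp only
          omega
        · simp only [dite_true, Sum.inl.injEq, Sum.inr.injEq]
          apply Fin.ext
          simp only
          omega
        · simp only [Bool.false_eq_true, dite_false, Sum.inr.injEq]
          apply Fin.ext
          have hj := j.2
          by_cases he : Even m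
          · simp only [he, if_true] at hj
            simp only
            omega
          · simp [he] at hj }
  rw [Nat.card_congr e]
  simp
  ring

end count

end Cfsg.Agent.Lib.Helper42OInv4
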