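import Mathlib
import Cfsg.Agent.Lib.Helper42QFam

set_option autoImplicit false
set_option linter.unusedSectionVars false
set_option linter.unusedVariables false

/-! Counting linearly independent families spanning a totally singular subspace of a
non-degenerate quadratic space over a finite field of characteristic two (helper42). -/

namespace Cfsg.Agent.Lib.Helper42QFam2

open QuadraticMap Cfsg.Agent.Lib.Helper42ON Cfsg.Agent.Lib.Helper42QFam

variable {F V : Type*} [Field F] [AddCommGroup V] [Module F V] (Q : QuadraticForm F V)
variable [Fintype F] [CharP F 2] [Finite V]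

theorem sum_three {α : Type*} [Fintype α] (p r : α → Prop) [DecidablePred p] [DecidablePred r]
    (a b : ℕ) :
    ∑ v : α, (if p v then (if r v then a else 0) else b)
      = a * Nat.card {v : α // p v ∧ r v} + b * (Nat.card α - Nat.card {v : α // p v}) := by
  have h1 : ∀ v : α, (if p v then (if r v then a else 0) else b)
      = (if p v ∧ r v then a else 0) + (if ¬ p v then b else 0) := by
    intro v
    by_cases hp : p v <;> by_cases hr : r v <;> simp [hp, hr]
  simp only [h1, Finset.sum_add_distrib, Finset.sum_ite, Finset.sum_const, Finset.sum_const_zero,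
    add_zero, smul_eq_mul]
  rw [Nat.card_eq_fintype_card, Nat.card_eq_fintype_card, Nat.card_eq_fintype_card,
    Fintype.card_subtype, ← Fintype.card_subtype_compl, Fintype.card_subtype]
  ring

/-- The number of singular vectors orthogonal to a totally singular subspace. -/
theorem card_sing_perp (hnd : (polarBilin Q).Nondegenerate) (U : Submodule F V)
    (hU : ∀ u ∈ U, Q u = 0) :
    Fintype.card F * Nat.card {v : V // v ∈ LinearMap.BilinForm.orthogonal (polarBilin Q) U ∧ Q v = 0}
        + Fintype.card F ^ Module.finrank F V
      = Fintype.card F * Nat.card {v : V // Q v = 0}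
        + Fintype.card F ^ (Module.finrank F V - Module.finrank F U) := by
  classical
  have : FiniteDimensional F V := Module.Finite.of_finite
  have : Fintype V := Fintype.ofFinite V
  have h11 : ∀ a : F, a + a = 0 := fun a => CharTwo.add_self_eq_zero a
  have hq : 0 < Fintype.card F := Fintype.card_pos
  set P := LinearMap.BilinForm.orthogonal (polarBilin Q) U with hP
  set k := Module.finrank F U with hk
  set n := Module.finrank F V with hn
  have hPk : Module.finrank F P = n - k := by
    rw [hP, LinearMap.BilinForm.finrank_orthogonal hnd U]
  have hkn : k ≤ n := Submodule.finrank_le U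
  rcases Nat.eq_zero_or_pos k with hk0 | hkpos
  · have hUbot : U = ⊥ := by
      rw [← Submodule.finrank_eq_zero]; exact hk0
    have hPtop : P = ⊤ := by rw [hP, hUbot]; simp
    rw [hk0, Nat.sub_zero, hPtop]
    congr 2
    apply Nat.card_congr
    apply Equiv.subtypeEquivRight
    intro v
    simp
  have hS1 : Nat.card {p : V × U // Q (p.1 + p.2) = 0}
      = Nat.card {v : V // Q v = 0} * Fintype.card F ^ k := by
    have e : {p : V × U // Q (p.1 + p.2) = 0} ≃ {v : V // Q v = 0} × U :=
      { toFun := fun p => (⟨p.1.1 + p.1.2, p.2⟩, p.1.2)
        invFun := fun w => ⟨(w.1.1 - w.2, w.2), by simpa using w.1.2⟩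
        left_inv := fun p => by
          apply Subtype.ext
          apply Prod.ext <;> simp
        right_inv := fun w => by
          apply Prod.ext
          · apply Subtype.ext; simp
          · rfl }
    rw [Nat.card_congr e, Nat.card_prod, card_submodule]
  have hS2 : Nat.card {p : V × U // Q (p.1 + p.2) = 0}
      = ∑ v : V, Nat.card {u : U // Q (v + u) = 0} := by
    rw [Nat.card_congr (Equiv.subtypeProdEquivSigmaSubtype (fun (v : V) (u : U) => Q (v + u) = 0)),
      Nat.card_sigma]
  have hterm : ∀ v : V, Nat.card {u : U // Q (v + u) = 0}
      = if v ∈ P then (if Q v = 0 then Fintype.card F ^ k else 0) else Fintype.card F ^ (k - 1) := by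
    intro v
    have hQ : ∀ u : U, Q (v + u) = Q v + polar Q v u := by
      intro u
      have h1 : Q (v + u) = Q v + Q (u : V) + polar Q v u := by
        simp only [polar]; ring
      rw [h1, hU u u.2, add_zero]
    split_ifs with h1 h2
    · rw [← card_submodule]
      apply Nat.card_congr
      apply Equiv.subtypeUnivEquiv
      intro u
      rw [hQ, h2, zero_add, polar_comm]
      exact h1 u u.2
    · rw [Nat.card_eq_zero]
      left
      constructor
      rintro ⟨u, hu⟩
      rw [hQ, polar_comm] at hu
      have : polar Q u v = 0 := h1 u u.2
      rw [this, add_zero] at hu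
      exact h2 hu
    · set L : U →ₗ[F] F := (polarBilin Q v).comp U.subtype with hL
      have hL0 : L ≠ 0 := by
        intro h0
        apply h1
        intro u hu
        have := congrArg (fun l => l ⟨u, hu⟩) h0
        simp only [hL, LinearMap.comp_apply, Submodule.subtype_apply, LinearMap.zero_apply,
          polarBilin_apply_apply] at this
        rw [polarBilin_apply_apply, polar_comm]
        exact this
      rw [hk, ← card_fiber_functional L hL0 (Q v)]
      apply Nat.card_congr
      apply Equiv.subtypeEquivRight
      intro u
      rw [hQ]
      change Q v + polar Q v u = 0 ↔ polar Q v u = Q v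
      constructor
      · intro h
        linear_combination h - h11 (Q v)
      · intro h
        rw [h]; exact h11 _
  rw [hS1, Finset.sum_congr rfl (fun v _ => hterm v), sum_three] at hS2
  have hcV : Nat.card V = Fintype.card F ^ n := by
    rw [Module.natCard_eq_pow_finrank (K := F), Nat.card_eq_fintype_card]
  have hcP : Nat.card {v : V // v ∈ P} = Fintype.card F ^ (n - k) := by
    rw [← hPk]; exact card_submodule P
  rw [hcV, hcP] at hS2
  have hle : Fintype.card F ^ (n - k) ≤ Fintype.card F ^ n := Nat.pow_le_pow_right hq (by omega)
  have hpk : Fintype.card F ^ k = Fintype.card F ^ (k - 1) * Fintype.card F := by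
    rw [← pow_succ]; congr 1; omega
  have hpos : 0 < Fintype.card F ^ (k - 1) := pow_pos hq _
  apply Nat.eq_of_mul_eq_mul_left hpos
  rw [hpk] at hS2
  generalize Nat.card {v : V // v ∈ P ∧ Q v = 0} = A at hS2 ⊢
  generalize Nat.card {v : V // Q v = 0} = B at hS2 ⊢
  generalize Fintype.card F ^ (k - 1) = c at hS2 ⊢
  generalize Fintype.card F ^ (n - k) = d at hS2 hle ⊢
  generalize Fintype.card F ^ n = e at hS2 hle ⊢
  generalize Fintype.card F = q at hS2 ⊢
  zify [hle] at hS2 ⊢
  linear_combination -hS2

end Cfsg.Agent.Lib.Helper42QFam2
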