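import Mathlib
import Cfsg.Agent.Lib.Helper42CentO2
import Cfsg.Agent.Lib.Helper42QFam2
import Cfsg.Agent.Lib.Helper42OInv4

set_option autoImplicit false
set_option linter.unusedSectionVars false
set_option linter.unusedVariables false

/-! Centraliser orders in `Ω⁺_{2m}(q)`, `q` even, of involutions of type `a` (helper42). -/

namespace Cfsg.Agent.Lib.Helper42CentO3

open Matrix Cfsg.Agent.Lib.Helper42Inv Cfsg.Agent.Lib.Helper42OInv Cfsg.Agent.Lib.Helper49Orth
  Cfsg.Agent.Lib.Helper49Witt Cfsg.Agent.Lib.Helper42Cent Cfsg.Agent.Lib.Helper42CentO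
  Cfsg.Agent.Lib.Helper42QFam Cfsg.Agent.Lib.Helper42QFam2 Cfsg.Agent.Lib.Helper42ON
  Cfsg.Agent.Lib.Helper49Forms Cfsg.Agent.Lib.Helper42OInv2 Cfsg.Agent.Lib.Helper7QForms
  Cfsg.Agent.Lib.Helper7QCount Cfsg.Agent.Lib.Helper42CentO2 Cfsg.Agent.Lib.Helper49Fam
  Cfsg.Agent.Lib.Helper49Fam2 Cfsg.Agent.Lib.Helper18Hyp
open QuadraticMap

section abstract

variable {F V : Type*} [Field F] [AddCommGroup V] [Module F V] (Q : QuadraticForm F V)
variable [Fintype F] [CharP F 2] [Finite V]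

theorem card_fiber_zero (hnd : (polarBilin Q).Nondegenerate) (m : ℕ)
    (hdim : Module.finrank F V = 2 * m)
    (hn0 : Fintype.card F * Nat.card {v : V // Q v = 0} + Fintype.card F ^ m
      = Fintype.card F ^ (2 * m) + Fintype.card F ^ (m + 1))
    (k : ℕ) (hk : k < m) (s : ZFam Q 0 k) :
    Nat.card {v : V // (∀ i, polar Q (s.1 i) v = 0) ∧
      v ∉ Submodule.span F (Set.range s.1) ∧ Q v = 0}
      = Fintype.card F ^ k * (Fintype.card F ^ (m - k) - 1) * (Fintype.card F ^ (m - k - 1) + 1) := by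
  have : FiniteDimensional F V := Module.Finite.of_finite
  have hq : 0 < Fintype.card F := Fintype.card_pos
  set U := Submodule.span F (Set.range s.1) with hU
  have hUk : Module.finrank F U = k := by
    rw [hU, finrank_span_eq_card s.2.1, Fintype.card_fin]
  set P := LinearMap.BilinForm.orthogonal (polarBilin Q) U with hP
  have hle : U ≤ P := by
    rw [hU, Submodule.span_le]
    rintro _ ⟨j, rfl⟩
    rw [SetLike.mem_coe, hP, hU, ← mem_orth_span]
    intro i
    exact s.2.2.2 i j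
  have hTS : ∀ u ∈ U, Q u = 0 := by
    intro u hu
    induction hu using Submodule.span_induction with
    | mem x hx =>
      obtain ⟨i, rfl⟩ := hx
      exact s.2.2.1 i
    | zero => simp
    | add x y hx hy hx' hy' =>
      have h1 : Q (x + y) = Q x + Q y + polar Q x y := by
        simp only [polar]; ring
      have h2 : polar Q x y = 0 := hle hy x hx
      rw [h1, hx', hy', h2]
      simp
    | smul a x _ hx =>
      rw [QuadraticMap.map_smul, hx, smul_zero]
  have hA := card_sing_perp Q hnd U hTS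
  rw [← hP, hUk, hdim] at hA
  have e : {v : V | (∀ i, polar Q (s.1 i) v = 0) ∧ v ∉ U ∧ Q v = 0}
      = {v : V | v ∈ P ∧ Q v = 0} \ (U : Set V) := by
    ext v
    simp only [Set.mem_ofPred_eq, Set.mem_sdiff, mem_orth_span, ← hU, ← hP, SetLike.mem_coe]
    tauto
  change Nat.card ↥{v : V | (∀ i, polar Q (s.1 i) v = 0) ∧ v ∉ U ∧ Q v = 0} = _
  have hsub : (U : Set V) ⊆ {v : V | v ∈ P ∧ Q v = 0} := fun v hv => ⟨hle hv, hTS v hv⟩
  rw [e, Nat.card_coe_set_eq, Set.ncard_sdiff hsub (Set.toFinite _),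
    ← Nat.card_coe_set_eq, ← Nat.card_coe_set_eq]
  change Nat.card {v : V // v ∈ P ∧ Q v = 0} - Nat.card U = _
  rw [card_submodule, hUk]
  generalize Nat.card {v : V // v ∈ P ∧ Q v = 0} = A at hA ⊢
  generalize Nat.card {v : V // Q v = 0} = B at hA hn0
  generalize Fintype.card F = q at hA hn0 hq ⊢
  obtain ⟨r, rfl⟩ : ∃ r, m = k + (r + 1) := ⟨m - k - 1, by omega⟩
  have e1 : k + (r + 1) - k = r + 1 := by omega
  have e2 : r + 1 - 1 = r := by omega
  have e3 : 2 * (k + (r + 1)) - k = k + 2 * (r + 1) := by omega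
  rw [e1, e2]
  rw [e3] at hA
  have h1 : 1 ≤ q ^ (r + 1) := Nat.one_le_pow _ _ hq
  have key : A = q ^ k * (q ^ (r + 1) - 1) * (q ^ r + 1) + q ^ k := by
    apply Nat.eq_of_mul_eq_mul_left hq
    zify [h1] at hA hn0 ⊢
    have p1 : (q : ℤ) ^ (k + (r + 1)) = q ^ k * (q ^ r * q) := by rw [pow_add, pow_succ]
    have p2 : (q : ℤ) ^ (k + (r + 1) + 1) = q ^ k * (q ^ r * q) * q := by
      rw [pow_succ, pow_add, pow_succ]
    have p3 : (q : ℤ) ^ (k + 2 * (r + 1)) = q ^ k * ((q ^ r * q) * (q ^ r * q)) := by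
      rw [pow_add, two_mul, pow_add, pow_succ]
    have p4 : (q : ℤ) ^ (r + 1) = q ^ r * q := pow_succ _ _
    rw [p1, p2] at hn0
    rw [p3] at hA
    rw [p4]
    linear_combination hA + hn0
  rw [key, Nat.add_sub_cancel]

theorem card_ZFam_zero (hnd : (polarBilin Q).Nondegenerate) (m : ℕ)
    (hdim : Module.finrank F V = 2 * m)
    (hn0 : Fintype.card F * Nat.card {v : V // Q v = 0} + Fintype.card F ^ m
      = Fintype.card F ^ (2 * m) + Fintype.card F ^ (m + 1))
    (s : ℕ) (hs : s ≤ m) :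
    Nat.card (ZFam Q 0 s) = ∏ k ∈ Finset.range s,
      (Fintype.card F ^ k * (Fintype.card F ^ (m - k) - 1) * (Fintype.card F ^ (m - k - 1) + 1)) := by
  induction s with
  | zero =>
    have : Unique (ZFam Q 0 0) :=
      { default := ⟨fun i => i.elim0, linearIndependent_empty_type, fun i => i.elim0,
          fun i => i.elim0⟩
        uniq := fun s => Subtype.ext (funext fun i => i.elim0) }
    simp
  | succ k ih =>
    have : Fintype (ZFam Q 0 k) := Fintype.ofFinite _
    rw [Nat.card_congr (peelZ Q 0 k), Nat.card_sigma, Finset.prod_range_succ, ← ih (by omega)]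
    rw [Finset.sum_congr rfl (fun s _ => card_fiber_zero Q hnd m hdim hn0 k (by omega) s)]
    simp [Nat.card_eq_fintype_card]

end abstract

/-- The order of `O⁺_{2r}(q)`, with the convention that it is `1` for `r = 0`. -/
def DD (q r : ℕ) : ℕ :=
  if r = 0 then 1 else 2 * q ^ (r * (r - 1)) * (q ^ r - 1) *
    ∏ i ∈ Finset.range (r - 1), (q ^ (2 * (i + 1)) - 1)

theorem DD_succ (q r : ℕ) (hq : 1 ≤ q) :
    DD q (r + 1) = q ^ (2 * r) * (q ^ (r + 1) - 1) * (q ^ r + 1) * DD q r := by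
  rcases Nat.eq_zero_or_pos r with rfl | hr
  · simp [DD]; ring
  · obtain ⟨r, rfl⟩ : ∃ r', r = r' + 1 := ⟨r - 1, by omega⟩
    simp only [DD, Nat.add_eq_zero_iff, one_ne_zero, and_false, if_false, Nat.add_sub_cancel]
    rw [Finset.prod_range_succ]
    have h1 : q ^ (2 * (r + 1)) - 1 = (q ^ (r + 1) + 1) * (q ^ (r + 1) - 1) := by
      have h0 : 1 ≤ q ^ (r + 1) := Nat.one_le_pow _ _ hq
      have h2 : 1 ≤ q ^ (2 * (r + 1)) := Nat.one_le_pow _ _ hq
      zify [h0, h2]
      rw [two_mul, pow_add]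
      ring
    rw [h1]
    have h3 : q ^ ((r + 1 + 1) * (r + 1)) = q ^ (2 * (r + 1)) * q ^ ((r + 1) * r) := by
      rw [← pow_add]; congr 1; ring
    rw [h3]
    ring

theorem DD_arith (q m : ℕ) (hq : 1 ≤ q) (s : ℕ) (hs : s ≤ m) :
    q ^ (s * (s - 1) / 2) * DD q m
      = (∏ k ∈ Finset.range s, (q ^ k * (q ^ (m - k) - 1) * (q ^ (m - k - 1) + 1))) *
        q ^ (s * (2 * m - s - 1)) * DD q (m - s) := by
  induction s with
  | zero => simp
  | succ s ih =>
    have ih' := ih (by omega)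
    obtain ⟨r, rfl⟩ : ∃ r, m = s + 1 + r := ⟨m - (s + 1), by omega⟩
    have e1 : s + 1 + r - s = r + 1 := by omega
    have e2 : s + 1 + r - (s + 1) = r := by omega
    have e3 : r + 1 - 1 = r := by omega
    rw [e1, DD_succ q r hq] at ih'
    rw [Finset.prod_range_succ, e1, e2, e3]
    have e4 : (s + 1) * (s + 1 - 1) / 2 = s * (s - 1) / 2 + s := by
      rcases Nat.eq_zero_or_pos s with rfl | hs0
      · simp
      · obtain ⟨t, rfl⟩ : ∃ t, s = t + 1 := ⟨s - 1, by omega⟩
        simp only [Nat.add_sub_cancel]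
        have : (t + 1 + 1) * (t + 1) = (t + 1) * t + 2 * (t + 1) := by ring
        rw [this, Nat.add_mul_div_left _ _ (by norm_num)]
    have e5 : (s + 1) * (2 * (s + 1 + r) - (s + 1) - 1) = s * (2 * (s + 1 + r) - s - 1) + 2 * r := by
      have a1 : 2 * (s + 1 + r) - (s + 1) - 1 = s + 2 * r := by omega
      have a2 : 2 * (s + 1 + r) - s - 1 = s + 2 * r + 1 := by omega
      rw [a1, a2]; ring
    rw [e4, e5, pow_add, pow_add, mul_right_comm, ih']
    ring_nf

variable {F : Type*} [Field F]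

theorem cent_le_Omega [Fintype F] [CharP F 2] {m : ℕ} (h : Fintype.card F ≠ 2 ∨ m ≠ 2)
    (x : ↥(Cfsg.isometryGroup F ⇑(QPlus m F)))
    (hTS : ∀ v, QPlus m F (NO (QPlus m F) x v) = 0)
    (hrank : Module.finrank F (LinearMap.range (NO (QPlus m F) x)) = m) :
    Subgroup.centralizer ({x} : Set ↥(Cfsg.isometryGroup F ⇑(QPlus m F)))
      ≤ Cfsg.Omega F ⇑(QPlus m F) := by
  intro g hg
  rw [Subgroup.mem_centralizer_singleton_iff] at hg
  have hg' : g * x * g⁻¹ = x := by rw [hg]; group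
  have h1 := range_conj (QPlus m F) x x g hg'
  have hU : TS (QPlus m F) (LinearMap.range (NO (QPlus m F) x)) := by
    rintro _ ⟨v, rfl⟩
    exact hTS v
  rw [← even_codim_iff_mem h hU hrank g, ← h1, inf_idem, hrank]
  simp

theorem card_centO_a [Fintype F] [CharP F 2] {q : ℕ} (hF : Fintype.card F = q) {m : ℕ}
    (hm : 1 ≤ m) (Q : QuadraticForm F (Fin m ⊕ Fin m → F)) (hQdef : Q = QPlus m F)
    (x : ↥(Cfsg.isometryGroup F ⇑Q)) (hx : x * x = 1)
    (ha : ∀ v, polarBilin Q v (NO Q x v) = 0) (k : ℕ)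
    (hs : Module.finrank F (LinearMap.range (NO Q x)) = 2 * k) :
    Nat.card ↥(Subgroup.centralizer ({x} : Set ↥(Cfsg.isometryGroup F ⇑Q))) *
        q ^ (2 * k * (2 * k - 1) / 2)
      = q ^ (2 * k * (2 * m - 2 * k - 1)) * DD q (m - 2 * k) *
        (q ^ (k ^ 2) * ∏ i ∈ Finset.range k, (q ^ (2 * (i + 1)) - 1)) := by
  classical
  have hQ : (polarBilin Q).Nondegenerate := by
    rw [hQdef]; exact Cfsg.Agent.Lib.Helper49Rank.QPlus_nondegenerate m
  have hdim : Module.finrank F (Fin m ⊕ Fin m → F) = 2 * m := by simp; ring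
  have hle : 2 * k ≤ m := by rw [← hs]; exact rank_le_O Q x hx
  obtain ⟨l, u, hd⟩ := exists_dat_A (polarBilin Q) hQ (NO Q x) (NO_sa Q x hx) ha
  have hl : l = k := by
    have := hd.finrank_range (fun i => Sum.swap_swap i)
    rw [hs] at this
    simp only [Fintype.card_sum, Fintype.card_fin] at this
    omega
  subst hl
  have key := card_centO Q hQ x hx Sum.swap (fun i => Sum.swap_swap i) u hd
  have hfam : Fam Q (fun i : Fin (Fintype.card (Fin l ⊕ Fin l)) =>
      NO Q x (u ((Fintype.equivFin (Fin l ⊕ Fin l)).symm i)))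
      = ZFam Q 0 (Fintype.card (Fin l ⊕ Fin l)) := by
    ext y
    have h1 : ∀ i, Q (NO Q x (u i)) = 0 := by
      intro i
      rw [Q_NO, ha]
    have h2 : ∀ a b, polar Q (NO Q x a) (NO Q x b) = 0 := by
      intro a b
      rw [← polarBilin_apply_apply, NO_sa Q x hx, NO_sq Q x hx, map_zero]
    simp only [Fam, ZFam, Set.mem_ofPred_eq, h1, h2]
  have hcard : Fintype.card (Fin l ⊕ Fin l) = 2 * l := by simp; ring
  have hn0 : Fintype.card F * Nat.card {v : Fin m ⊕ Fin m → F // Q v = 0} + Fintype.card F ^ m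
      = Fintype.card F ^ (2 * m) + Fintype.card F ^ (m + 1) := by
    have h1 := cntQ_plus_zero (F := F) m
    rw [← card_plus] at h1
    rw [hQdef, coe_QPlus]
    exact h1
  have hO : Nat.card ↥(Cfsg.isometryGroup F ⇑Q) = DD q m := by
    rw [hQdef, coe_QPlus, Cfsg.Agent.S0287.result hF m hm, DD, if_neg (by omega)]
  rw [hfam, hcard, card_ZFam_zero Q hQ m hdim hn0 (2 * l) hle,
    Cfsg.Agent.Lib.Helper42CentSp.card_matrix_swap, Cfsg.Agent.S0245.result hF l, hF, hO] at key
  have hq1 : 1 < q := by rw [← hF]; exact Fintype.one_lt_card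
  have har := DD_arith q m (by omega) (2 * l) hle
  have hpos : 0 < ∏ k ∈ Finset.range (2 * l), (q ^ k * (q ^ (m - k) - 1) * (q ^ (m - k - 1) + 1)) := by
    apply Finset.prod_pos
    intro i hi
    rw [Finset.mem_range] at hi
    have : 1 < q ^ (m - i) := Nat.one_lt_pow (by omega) hq1
    apply Nat.mul_pos (Nat.mul_pos (pow_pos (by omega) _) (by omega)) (by omega)
  apply Nat.eq_of_mul_eq_mul_left hpos
  generalize ∏ k ∈ Finset.range (2 * l), (q ^ k * (q ^ (m - k) - 1) * (q ^ (m - k - 1) + 1)) = PR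
    at key har hpos ⊢
  generalize Nat.card ↥(Subgroup.centralizer ({x} : Set ↥(Cfsg.isometryGroup F ⇑Q))) = C at key ⊢
  generalize q ^ (l ^ 2) * ∏ i ∈ Finset.range l, (q ^ (2 * (i + 1)) - 1) = S at key ⊢
  calc PR * (C * q ^ (2 * l * (2 * l - 1) / 2)) = (C * PR) * q ^ (2 * l * (2 * l - 1) / 2) := by ring
    _ = (q ^ (2 * l * (2 * l - 1) / 2) * DD q m) * S := by rw [key]; ring
    _ = _ := by rw [har]; ring

theorem expA (m s : ℕ) (h : s ≤ m) :
    s * (2 * m - s - 1) = s * (s - 1) / 2 + (2 * m * s - (3 * s ^ 2 + s) / 2) := by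
  obtain ⟨r, rfl⟩ : ∃ r, m = s + r := ⟨m - s, by omega⟩
  obtain ⟨T, hT⟩ := Nat.even_mul_succ_self s
  have h0 : s ≤ s * s := Nat.le_mul_self s
  have h1 : s * (s + 1) = s * s + s := by ring
  have h2 : s * (s - 1) = s * s - s := by rw [Nat.mul_sub, mul_one]
  have h3 : s * (2 * (s + r) - s - 1) = s * s + 2 * (s * r) - s := by
    have : 2 * (s + r) - s - 1 = s + 2 * r - 1 := by omega
    rw [this, Nat.mul_sub, mul_one]
    congr 1
    ring
  have h4 : 2 * (s + r) * s = 2 * (s * s) + 2 * (s * r) := by ring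
  have h5 : 3 * s ^ 2 = 3 * (s * s) := by ring
  rw [h2, h3, h4, h5]
  rw [h1] at hT
  generalize s * s = S at *
  generalize s * r = R at *
  omega

end Cfsg.Agent.Lib.Helper42CentO3
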