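import Cfsg.Agent.Lib.Helper42OPMain
import Cfsg.Agent.Lib.H42OPD1
import Cfsg.Agent.Lib.H42OPD2
import Cfsg.Agent.Lib.H42OPD3
import Cfsg.Agent.Lib.H42OPD4
import Cfsg.Agent.Lib.H42OPD5
import Cfsg.Agent.Lib.H42OPT2
import Cfsg.Agent.Lib.Helper23All
import Cfsg.Agent.S1082

set_option autoImplicit false

/-! PROJECT 142 (OUT-PLUS): `Out (PΩ⁺₈(q))` (assembly). -/

namespace Cfsg.Agent.Lib.Helper42OPConc

open Cfsg Cfsg.Lie Cfsg.Lie.ChevalleyDatum
open Subgroup Cfsg.Agent.Lib.Helper23Grp Cfsg.Agent.Lib.Helper23RG Cfsg.Agent.Lib.Helper23RG.RG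
  Cfsg.Agent.Lib.Helper23Weyl Cfsg.Agent.Lib.LeadAutDefs Cfsg.Agent.Lib.LeadAutMain
  Cfsg.Agent.Lib.Helper23Table Cfsg.Agent.Lib.Helper23Chev Cfsg.Agent.Lib.LeadAutConc Cfsg.Agent.Lib.LeadAutChev
  Cfsg.Agent.Lib.LeadAutOut Cfsg.Agent.Lib.Helper42OPDefs Cfsg.Agent.Lib.Helper42OPMain
open scoped MatrixGroups Matrix

variable {F : Type*} [Field F]

theorem cartan_D4 : ∀ i j : Fin 4, chevD4.cartan i (chevD4.simple j) = cD4 i j := by decide +kernel

theorem d4data [Finite F] (hT : TableOK chevD4) (hR : Rel chevD4 F) : D4Data (SG hT hR) where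
  h := adata (by simp) hT hR
  form := Cfsg.Agent.Lib.H42OPD1.d4_form hT hR
  ex := Cfsg.Agent.Lib.H42OPD2.d4_ex hT hR
  tor := Cfsg.Agent.Lib.H42OPD3.tor_of_cartan (adata (by simp) hT hR).ok cartan_D4
  sq := Cfsg.Agent.Lib.H42OPD4.sq_of_cartan (adata (by simp) hT hR).ok cartan_D4

/-- `Out` is an isomorphism invariant -/
theorem out_congr {G G' : Type*} [Group G] [Group G'] (e : G ≃* G') :
    Nonempty (Cfsg.Out G ≃* Cfsg.Out G') := by
  refine ⟨QuotientGroup.congr (Cfsg.Inn G) (Cfsg.Inn G') (MulAut.congr e) ?_⟩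
  ext φ
  constructor
  · rintro ⟨_, ⟨g, rfl⟩, rfl⟩
    refine ⟨e g, ?_⟩
    ext x
    simp [MulAut.congr, MulAut.conj_apply]
  · rintro ⟨g, rfl⟩
    refine ⟨MulAut.conj (e.symm g), ⟨_, rfl⟩, ?_⟩
    ext x
    simp [MulAut.congr, MulAut.conj_apply]

theorem hD4 : chevD4 ∈ [chevG2, chevB2, chevD4, chevF4, chevE6, chevE7, chevE8] := by simp

theorem out8_even [Fintype F] {f : ℕ} (hF : Fintype.card F = 2 ^ f) :
    Nonempty (Cfsg.Out (Cfsg.POmega F (Cfsg.quadFormPlus 4 F)) ≃*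
      Equiv.Perm (Fin 3) × Multiplicative (ZMod f)) := by
  have hT := Cfsg.Agent.Lib.Helper23All.tab hD4
  have hR : Rel chevD4 F := Cfsg.Agent.Lib.Helper23All.rel hD4
  have : Fact (Nat.Prime 2) := ⟨Nat.prime_two⟩
  obtain ⟨hcyc, hcard⟩ := Cfsg.Agent.Lib.Helper50Out.ringAut_cyclic_card hF
  have hchar : CharP F 2 := charP_of_card_eq_prime_pow hF
  have h2 : (2 : F) = 0 := CharTwo.two_eq_zero
  obtain ⟨e0⟩ := Cfsg.Agent.S1082.result (F := F)
  obtain ⟨e1⟩ := out_congr e0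
  obtain ⟨e2⟩ := out_even h2 (d4data hT hR) hcard
  exact ⟨e1.symm.trans e2⟩

theorem out8_odd [Fintype F] {p f : ℕ} [Fact p.Prime] (hF : Fintype.card F = p ^ f) (hp : p ≠ 2) :
    Nonempty (Cfsg.Out (Cfsg.POmega F (Cfsg.quadFormPlus 4 F)) ≃*
      Equiv.Perm (Fin 4) × Multiplicative (ZMod f)) := by
  have hT := Cfsg.Agent.Lib.Helper23All.tab hD4
  have hR : Rel chevD4 F := Cfsg.Agent.Lib.Helper23All.rel hD4
  obtain ⟨hcyc, hcard⟩ := Cfsg.Agent.Lib.Helper50Out.ringAut_cyclic_card hF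
  have hchar : CharP F p := charP_of_card_eq_prime_pow hF
  have hpodd : Odd p := (Fact.out : p.Prime).odd_of_ne_two hp
  have hodd : Odd (Fintype.card F) := by rw [hF]; exact hpodd.pow
  have h2 : (2 : F) ≠ 0 := Cfsg.Agent.Lib.Helper49Forms.two_ne_zero_of_odd rfl hodd
  have hg : Nat.gcd 2 (p ^ f - 1) = 2 := by
    rw [hF] at hodd
    obtain ⟨k, hk⟩ := hodd
    rw [hk, Nat.add_sub_cancel]
    exact Nat.gcd_eq_left (Dvd.intro k rfl)
  have hO := Cfsg.Agent.Lib.H42OPD5.d4_card (F := F) p f hF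
  rw [hg] at hO
  obtain ⟨e0⟩ := Cfsg.Agent.S1082.result (F := F)
  obtain ⟨e1⟩ := out_congr e0
  obtain ⟨e2⟩ := out_odd h2 (d4data hT hR) hcard (by rw [hO]; norm_num)
  exact ⟨e1.symm.trans e2⟩

theorem card_aut8 [Fintype F] (p f : ℕ) [Fact p.Prime] (hF : Fintype.card F = p ^ f) :
    Nat.card (MulAut (Cfsg.POmega F (Cfsg.quadFormPlus 4 F))) =
      3 * (if p = 2 then 2 else (if Even (4 * (p ^ f - 1) / 2) then 8 else 4)) * f *
        Nat.card (Cfsg.POmega F (Cfsg.quadFormPlus 4 F)) := by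
  have hchar : CharP F p := charP_of_card_eq_prime_pow hF
  obtain ⟨e0⟩ := Cfsg.Agent.S1082.result (F := F)
  have hO := Cfsg.Agent.Lib.H42OPD5.d4_card (F := F) p f hF
  have hZ := Cfsg.Agent.Lib.LeadAutOut.center_trivial (F := F) hD4 (by
    intro h
    rcases h with h | h <;> exact absurd (congrArg Cfsg.Lie.ChevalleyDatum.rank h) (by decide))
  have h1 := Cfsg.Agent.Lib.H42OPT2.card_aut_eq hZ
  rw [← Nat.card_congr (MulAut.congr e0).toEquiv, ← Nat.card_congr e0.toEquiv, h1, hO]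
  congr 2
  by_cases hp : p = 2
  · subst hp
    rw [if_pos rfl]
    by_cases hf : f = 0
    · subst hf
      exfalso
      rw [pow_zero] at hF
      exact absurd hF (by have := Fintype.one_lt_card (α := F); omega)
    have hg : Nat.gcd 2 (2 ^ f - 1) = 1 := by
      have h3 : 2 ^ f = 2 * 2 ^ (f - 1) := by
        rw [← pow_succ']; congr 1; omega
      have h5 : 0 < 2 ^ (f - 1) := by positivity
      have h4 : (2 ^ f - 1) % 2 = 1 := by omega
      rw [Nat.gcd_rec, h4]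
      rfl
    rw [hg]
    norm_num
  · rw [if_neg hp]
    have hpodd : Odd p := (Fact.out : p.Prime).odd_of_ne_two hp
    obtain ⟨k, hk⟩ : Odd (p ^ f) := hpodd.pow
    have hg : Nat.gcd 2 (p ^ f - 1) = 2 := by
      rw [hk, Nat.add_sub_cancel]
      exact Nat.gcd_eq_left (Dvd.intro k rfl)
    have he : Even (4 * (p ^ f - 1) / 2) := by
      rw [hk, Nat.add_sub_cancel]
      have : 4 * (2 * k) / 2 = 2 * (2 * k) := by omega
      rw [this]
      exact even_two_mul _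
    rw [hg, if_pos he]
    norm_num

end Cfsg.Agent.Lib.Helper42OPConc
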