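import Cfsg.Agent.Lib.LeadAutOut

set_option autoImplicit false

/-! PROJECT 142 (OUT-PLUS): vocabulary for `Out (PΩ⁺₈(q)) = Out (D₄(q))`. -/

namespace Cfsg.Agent.Lib.Helper42OPDefs

open Subgroup Cfsg.Agent.Lib.Helper23Grp Cfsg.Agent.Lib.Helper23RG Cfsg.Agent.Lib.Helper23RG.RG
  Cfsg.Agent.Lib.Helper23Weyl Cfsg.Agent.Lib.LeadAutDefs

variable {𝔾 K R : Type*} [Group 𝔾] [Field K]

/-- What we use about a root group datum of type `D₄` (node `1` is the central node, `0 2 3` are the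
leaves): normal form of the automorphisms stabilising `U` and `V`, existence of all of them, the
characters of the torus `H`. -/
structure D4Data (S : RG 𝔾 K R (Fin 4)) : Prop where
  h : AData S
  form : ∀ θ : 𝔾 ≃* 𝔾, Nrm S θ → ∃ (ρ : Equiv.Perm (Fin 4)) (c : Fin 4 → Kˣ) (σ : K ≃+* K),
    ρ 1 = 1 ∧ Acts S θ ρ (fun i t => (c i : K) * σ t)
  ex : ∀ ρ : Equiv.Perm (Fin 4), ρ 1 = 1 → ∀ (c : Fin 4 → Kˣ) (σ : K ≃+* K),
    ∃ θ : 𝔾 ≃* 𝔾, Acts S θ ρ (fun i t => (c i : K) * σ t)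
  tor : ∀ y ∈ S.H, ∃ χ : Fin 4 → Kˣ,
    Acts S (MulAut.conj y) 1 (fun i t => (χ i : K) * (1 : K ≃+* K) t) ∧
      IsSquare (χ 0 * χ 2) ∧ IsSquare (χ 0 * χ 3)
  sq : ∀ s : Fin 4 → Kˣ, ∃ y ∈ S.H,
    Acts S (MulAut.conj y) 1 (fun i t => ((s i * s i : Kˣ) : K) * (1 : K ≃+* K) t)

/-- the Cartan matrix of type `D₄` (node `1` is the central node) -/
def cD4 : Fin 4 → Fin 4 → ℤ := ![![2, -1, 0, 0], ![-1, 2, -1, -1], ![0, -1, 2, 0], ![0, -1, 0, 2]]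

/-- the class of an automorphism in `Out` -/
abbrev oq (𝔾 : Type*) [Group 𝔾] : MulAut 𝔾 →* Cfsg.Out 𝔾 := QuotientGroup.mk' (Cfsg.Inn 𝔾)

/-- the specification of the homomorphism `Out → Sym(nodes) × Aut(K)` -/
def LamSpec (S : RG 𝔾 K R (Fin 4)) (Λ : Cfsg.Out 𝔾 →* Equiv.Perm (Fin 4) × (K ≃+* K)) : Prop :=
  ∀ (θ : MulAut 𝔾) (ρ : Equiv.Perm (Fin 4)) (c : Fin 4 → Kˣ) (σ : K ≃+* K),
    Acts S θ ρ (fun i t => (c i : K) * σ t) → Λ (oq 𝔾 θ) = (ρ, σ)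

end Cfsg.Agent.Lib.Helper42OPDefs
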