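import Cfsg.Agent.Lib.Helper42OPDefs
import Cfsg.Agent.Lib.Helper40P8s4
import Cfsg.Agent.Lib.H42OPA6
import Cfsg.Agent.Lib.H42OPC1
import Cfsg.Agent.Lib.H42OPC2
import Cfsg.Agent.Lib.H42OPC3
import Cfsg.Agent.Lib.H42OPC4
import Cfsg.Agent.Lib.H42OPC5
import Cfsg.Agent.Lib.H42OPG1
import Cfsg.Agent.Lib.H42OPG2
import Cfsg.Agent.Lib.H42OPG3

set_option autoImplicit false

/-! PROJECT 142 (OUT-PLUS): the abstract assemblies. -/

namespace Cfsg.Agent.Lib.Helper42OPMain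

open Subgroup Cfsg.Agent.Lib.Helper23Grp Cfsg.Agent.Lib.Helper23RG Cfsg.Agent.Lib.Helper23RG.RG
  Cfsg.Agent.Lib.Helper23Weyl Cfsg.Agent.Lib.LeadAutDefs Cfsg.Agent.Lib.LeadAutMain
  Cfsg.Agent.Lib.Helper42OPDefs Cfsg.Agent.Lib.H42OPA6 Cfsg.Agent.Lib.H42OPC1 Cfsg.Agent.Lib.H42OPC2
  Cfsg.Agent.Lib.H42OPC3 Cfsg.Agent.Lib.H42OPC4 Cfsg.Agent.Lib.H42OPC5 Cfsg.Agent.Lib.H42OPG1
  Cfsg.Agent.Lib.H42OPG2 Cfsg.Agent.Lib.H42OPG3

variable {𝔾 K R : Type*} [Group 𝔾] [Field K] [Fintype R] [DecidableEq R] {S : RG 𝔾 K R (Fin 4)}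

/-- the restriction of `fst ∘ Λ` to the kernel of `snd ∘ Λ` -/
noncomputable def phi (Λ : Cfsg.Out 𝔾 →* Equiv.Perm (Fin 4) × (K ≃+* K)) :
    ↥((MonoidHom.snd (Equiv.Perm (Fin 4)) (K ≃+* K)).comp Λ).ker →* Equiv.Perm (Fin 4) :=
  ((MonoidHom.fst (Equiv.Perm (Fin 4)) (K ≃+* K)).comp Λ).comp (Subgroup.subtype _)

theorem phi_range (D : D4Data S) (Λ : Cfsg.Out 𝔾 →* Equiv.Perm (Fin 4) × (K ≃+* K))
    (hΛ : LamSpec S Λ) (ρ : Equiv.Perm (Fin 4)) : ρ ∈ (phi Λ).range ↔ ρ 1 = 1 := by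
  constructor
  · rintro ⟨x, rfl⟩
    exact (lam_range D Λ hΛ (Λ x.1)).1 ⟨x.1, rfl⟩
  · intro h
    obtain ⟨x, hx⟩ := (lam_range D Λ hΛ (ρ, 1)).2 h
    refine ⟨⟨x, ?_⟩, ?_⟩
    · rw [MonoidHom.mem_ker]
      show (Λ x).2 = 1
      rw [hx]
    · show (Λ x).1 = ρ
      rw [hx]

theorem phi_eq_one_iff (Λ : Cfsg.Out 𝔾 →* Equiv.Perm (Fin 4) × (K ≃+* K))
    (x : ↥((MonoidHom.snd (Equiv.Perm (Fin 4)) (K ≃+* K)).comp Λ).ker) :
    phi Λ x = 1 ↔ Λ x.1 = 1 := by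
  have h2 : (Λ x.1).2 = 1 := x.2
  constructor
  · intro h
    exact Prod.ext h h2
  · intro h
    show (Λ x.1).1 = 1
    rw [h]; rfl

theorem out_even [Finite K] (h2 : (2 : K) = 0) (D : D4Data S) [IsCyclic (K ≃+* K)] {f : ℕ}
    (hf : Nat.card (K ≃+* K) = f) :
    Nonempty (Cfsg.Out 𝔾 ≃* Equiv.Perm (Fin 3) × Multiplicative (ZMod f)) := by
  obtain ⟨Λ, hΛ⟩ := exists_lam D
  obtain ⟨s, hs, hc⟩ := exists_sec D Λ hΛ
  obtain ⟨e1⟩ := prod_of_central_section ((MonoidHom.snd (Equiv.Perm (Fin 4)) (K ≃+* K)).comp Λ) s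
    (fun σ => by show (Λ (s σ)).2 = σ; rw [hs]) hc
  obtain ⟨e2⟩ := perm3_of_hom (phi Λ) (by
    rw [injective_iff_map_eq_one]
    intro x hx
    rw [phi_eq_one_iff] at hx
    apply Subtype.ext
    exact lam_inj h2 D Λ hΛ (hx.trans (map_one Λ).symm)) (phi_range D Λ hΛ)
  obtain ⟨e3⟩ := cyclic_equiv hf
  exact ⟨e1.trans (e2.prodCongr e3)⟩

theorem out_odd [Finite K] [Finite 𝔾] (h2 : (2 : K) ≠ 0) (D : D4Data S) [IsCyclic (K ≃+* K)] {f : ℕ}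
    (hf : Nat.card (K ≃+* K) = f) (hcard : Nat.card (Cfsg.Out 𝔾) = 24 * f) :
    Nonempty (Cfsg.Out 𝔾 ≃* Equiv.Perm (Fin 4) × Multiplicative (ZMod f)) := by
  obtain ⟨Λ, hΛ⟩ := exists_lam D
  obtain ⟨s, hs, hc⟩ := exists_sec D Λ hΛ
  obtain ⟨e1⟩ := prod_of_central_section ((MonoidHom.snd (Equiv.Perm (Fin 4)) (K ≃+* K)).comp Λ) s
    (fun σ => by show (Λ (s σ)).2 = σ; rw [hs]) hc
  obtain ⟨e3⟩ := cyclic_equiv hf
  have hfin : Finite (K ≃+* K) :=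
    Finite.of_injective (fun τ : K ≃+* K => (τ : K → K)) DFunLike.coe_injective
  have hf0 : 0 < f := by rw [← hf]; exact Nat.card_pos
  have hfinO : Finite (Cfsg.Out 𝔾) := by
    apply Nat.finite_of_card_ne_zero
    rw [hcard]; omega
  set P := ((MonoidHom.snd (Equiv.Perm (Fin 4)) (K ≃+* K)).comp Λ).ker with hP
  have h24 : Nat.card ↥P = 24 := by
    have h1 := Nat.card_congr e1.toEquiv
    rw [Nat.card_prod, hf, hcard] at h1
    exact (Nat.eq_of_mul_eq_mul_right hf0 h1).symm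
  have hker : (phi Λ).ker = Λ.ker.subgroupOf P := by
    ext x
    rw [MonoidHom.mem_ker, phi_eq_one_iff, Subgroup.mem_subgroupOf, MonoidHom.mem_ker]
  have h6 : Nat.card ↥(phi Λ).range = 6 := by
    have e' : ↥(phi Λ).range ≃ {ρ : Equiv.Perm (Fin 4) // ρ 1 = 1} :=
      Equiv.subtypeEquivRight (fun ρ => phi_range D Λ hΛ ρ)
    rw [Nat.card_congr e', stab_card]
  have h4 : Nat.card ↥(Λ.ker.subgroupOf P) = 4 := by
    have h1 := Subgroup.card_mul_index (phi Λ).ker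
    rw [Subgroup.index_ker, h6, hker] at h1
    have h5 : Nat.card ↥(Λ.ker.subgroupOf P) * 6 = 24 := h1.trans h24
    omega
  obtain ⟨e2⟩ := Cfsg.Agent.Lib.Helper40P8s4.s4_of_card h24 (Λ.ker.subgroupOf P) h4
    (by
      intro v hv
      apply Subtype.ext
      rw [Subgroup.mem_subgroupOf, MonoidHom.mem_ker] at hv
      exact lam_ker_sq D Λ hΛ v.1 hv)
    (by
      intro k hk
      rw [Subgroup.mem_subgroupOf, MonoidHom.mem_ker]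
      apply lam_cent h2 D Λ hΛ k.1 k.2
      intro v hv
      have hvP : v ∈ P := by
        rw [hP, MonoidHom.mem_ker]
        show (Λ v).2 = 1
        rw [hv]; rfl
      have h1 := Subgroup.mem_centralizer_iff.1 hk ⟨v, hvP⟩ (by
        show (⟨v, hvP⟩ : ↥P) ∈ Λ.ker.subgroupOf P
        rw [Subgroup.mem_subgroupOf, MonoidHom.mem_ker]
        exact hv)
      exact (congrArg Subtype.val h1).symm)
  exact ⟨e1.trans (e2.prodCongr e3)⟩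

end Cfsg.Agent.Lib.Helper42OPMain
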