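import Cfsg.Agent.S2695
import Cfsg.Agent.Lib.H42OPMA
import Cfsg.Agent.Lib.H42OPMB
import Cfsg.Agent.Lib.H42OPMC
import Cfsg.Agent.Lib.H42OPMF
import Cfsg.Agent.Lib.Helper50Out
import Cfsg.Agent.Lib.Helper51OrthInst2

set_option autoImplicit false

/-! PROJECT 142 (OUT-PLUS): `Out (PΩ⁺_{2m}(q))`, `m ≥ 5` (assembly). -/

namespace Cfsg.Agent.Lib.Helper42OPPlus

open Cfsg Matrix Module
open scoped MatrixGroups
open Cfsg.Agent.Lib.Helper49Orth Cfsg.Agent.Lib.Helper49Hyp Cfsg.Agent.Lib.Helper49Idx Cfsg.Agent.Lib.Helper49Forms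
  Cfsg.Agent.Lib.Helper51OrthAut Cfsg.Agent.Lib.Helper51OrthKer Cfsg.Agent.Lib.Helper51OrthIdx
  Cfsg.Agent.Lib.Helper51OrthIdx2 Cfsg.Agent.Lib.Helper51OrthIdx3 Cfsg.Agent.Lib.Helper51OrthIdx4
  Cfsg.Agent.Lib.Helper18GamA Cfsg.Agent.Lib.Helper18GamB Cfsg.Agent.Lib.Helper18GamC Cfsg.Agent.Lib.Helper18GamD
  Cfsg.Agent.Lib.Helper51OutA Cfsg.Agent.Lib.Helper51OutB Cfsg.Agent.Lib.Helper51OutC Cfsg.Agent.Lib.Helper51OutD
open Cfsg.Agent.Lib.Helper18GamF Cfsg.Agent.Lib.Helper51LangA Cfsg.Agent.Lib.Helper51LangB Cfsg.Agent.Lib.Helper51LangC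
  Cfsg.Agent.Lib.H42OPMA Cfsg.Agent.Lib.H42OPMB Cfsg.Agent.Lib.H42OPMC Cfsg.Agent.Lib.H42OPMF
  Cfsg.Agent.Lib.Helper51OrthInst Cfsg.Agent.Lib.Helper51OrthInst2

variable {F : Type*} [Field F] [Fintype F]

theorem card_idx (k : ℕ) : Fintype.card (Fin (k + 1) ⊕ Fin (k + 1)) = 2 * (k + 1) := by
  simp only [Fintype.card_sum, Fintype.card_fin]
  omega

theorem out_plus_two {f m : ℕ} (hf : 1 ≤ f) (hF : Fintype.card F = 2 ^ f) (hm : 5 ≤ m) :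
    Nonempty (Cfsg.Out (Cfsg.POmega F (Cfsg.quadFormPlus m F)) ≃* Multiplicative (ZMod 2 × ZMod f)) := by
  have hp : Fact (Nat.Prime 2) := ⟨Nat.prime_two⟩
  have hchar : CharP F 2 := charP_of_card_eq_prime_pow hF
  obtain ⟨k, rfl⟩ : ∃ k, m = k + 1 := ⟨m - 1, by omega⟩
  have htop := Cfsg.Agent.S2695.result (F := F) hm
  rw [← coe_QPlus (k + 1)] at htop ⊢
  have hQ := Cfsg.Agent.Lib.Helper49Rank.QPlus_nondegenerate (F := F) (k + 1)
  have hc := card_idx k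
  obtain ⟨X, hX, hXf, -⟩ := exists_X hF k
  exact out_two_split _ hQ exists_one_QPlus (by omega) (sAut_surjective _ htop) (prO_surjective_plus _) hf
    (Cfsg.Agent.Lib.Helper50Out.ringAut_cyclic_card hF).2 X hX hXf

theorem out_plus_E4 {p f m : ℕ} [Fact p.Prime] (hf : 1 ≤ f)
    (hF : Fintype.card F = p ^ f) (hp : p ≠ 2) (hm : 5 ≤ m) (hc : p ^ f % 4 = 3 ∧ Odd m) :
    Nonempty (Cfsg.Out (Cfsg.POmega F (Cfsg.quadFormPlus m F)) ≃*
      Multiplicative (ZMod 2 × ZMod 2 × ZMod f)) := by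
  have hpodd : Odd p := (Fact.out : p.Prime).odd_of_ne_two hp
  have hodd : Odd (Fintype.card F) := by rw [hF]; exact hpodd.pow
  have h2 : (2 : F) ≠ 0 := Cfsg.Agent.Lib.Helper49Forms.two_ne_zero_of_odd rfl hodd
  obtain ⟨k, rfl⟩ : ∃ k, m = k + 1 := ⟨m - 1, by omega⟩
  have htop := Cfsg.Agent.S2695.result (F := F) hm
  rw [← coe_QPlus (k + 1)] at htop ⊢
  have G := good_QPlus h2 (by omega : 2 ≤ k + 1)
  have hcd := card_idx k
  obtain ⟨X, hX, hXf, -⟩ := exists_X hF k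
  have hneg : ¬ NegIn (QPlus (k + 1) F) := by
    rw [negIn_QPlus hodd (by omega), hF, not_not]
    exact ⟨hc.2, hc.1⟩
  exact out_E4_split _ G hcd (by omega) hneg (sAut_surjective _ htop) (prO_surjective_plus _) hf
    (Cfsg.Agent.Lib.Helper50Out.ringAut_cyclic_card hF).2 X hX hXf

theorem out_plus_D8 {p f m : ℕ} [Fact p.Prime] (hf : 1 ≤ f)
    (hF : Fintype.card F = p ^ f) (hp : p ≠ 2) (hm : 5 ≤ m) (hc : ¬ (p ^ f % 4 = 3 ∧ Odd m)) :
    Nonempty (Cfsg.Out (Cfsg.POmega F (Cfsg.quadFormPlus m F)) ≃*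
      DihedralGroup 4 × Multiplicative (ZMod f)) := by
  have hpodd : Odd p := (Fact.out : p.Prime).odd_of_ne_two hp
  have hodd : Odd (Fintype.card F) := by rw [hF]; exact hpodd.pow
  have h2 : (2 : F) ≠ 0 := Cfsg.Agent.Lib.Helper49Forms.two_ne_zero_of_odd rfl hodd
  obtain ⟨k, rfl⟩ : ∃ k, m = k + 1 := ⟨m - 1, by omega⟩
  have htop := Cfsg.Agent.S2695.result (F := F) hm
  rw [← coe_QPlus (k + 1)] at htop ⊢
  have G := good_QPlus h2 (by omega : 2 ≤ k + 1)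
  have hcd := card_idx k
  obtain ⟨X, hX, hXf, hXw⟩ := exists_X hF k
  have hneg : NegIn (QPlus (k + 1) F) := by
    rw [negIn_QPlus hodd (by omega), hF]
    exact fun h => hc ⟨h.2, h.1⟩
  exact out_D8_split _ G hcd (by omega) hneg (sAut_surjective _ htop) (prO_surjective_plus _) hf
    (Cfsg.Agent.Lib.Helper50Out.ringAut_cyclic_card hF).2 X hX hXf (wG k F) (psi_wG k G hcd) (wG_mul_self k) hXw

end Cfsg.Agent.Lib.Helper42OPPlus
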