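import Cfsg.Agent.Lib.Helper49TDefs
import Cfsg.Agent.Lib.Helper50Tv

/-! PROJECT 49 (TENS), piece `alg2`. -/

set_option autoImplicit false

namespace Cfsg.Agent.Lib.Helper42TAlg2

open Matrix Cfsg.Agent.Lib.Helper50Tv

variable {F : Type*} [Field F] {a : ℕ}

local notation "Ma" => Matrix (Fin a) (Fin a) F

theorem tv_inv_coe (u φ : Fin a → F) (h : φ ⬝ᵥ u = 0) :
    (((tv u φ h)⁻¹ : Matrix.SpecialLinearGroup (Fin a) F) : Ma) = 1 - vecMulVec u φ := by
  have h1 : (tv u φ h : Ma) * (1 - vecMulVec u φ) = 1 := by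
    rw [tv_coe]
    simp [add_mul, mul_sub, vecMulVec_mul_vecMulVec, h]
  have h2 : (((tv u φ h)⁻¹ : Matrix.SpecialLinearGroup (Fin a) F) : Ma) * (tv u φ h : Ma) = 1 := by
    rw [← Matrix.SpecialLinearGroup.coe_mul, inv_mul_cancel, Matrix.SpecialLinearGroup.coe_one]
  calc (((tv u φ h)⁻¹ : Matrix.SpecialLinearGroup (Fin a) F) : Ma)
      = (((tv u φ h)⁻¹ : Matrix.SpecialLinearGroup (Fin a) F) : Ma) *
          ((tv u φ h : Ma) * (1 - vecMulVec u φ)) := by rw [h1, mul_one]
    _ = _ := by rw [← mul_assoc, h2, one_mul]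

/-- piece `alg2` (pure matrix algebra, `|F| = 2`, `a ≥ 3`) -/
theorem alg_top_two [Fintype F] (h1 : 3 ≤ a) (hq : Fintype.card F = 2) (S : Set Ma)
    (hadd : ∀ x ∈ S, ∀ y ∈ S, x + y ∈ S) (hmul : ∀ x ∈ S, ∀ y ∈ S, x * y ∈ S)
    (hsc : ∀ c : F, c • (1 : Ma) ∈ S)
    (hconj : ∀ x ∈ S, ∀ g : Matrix.SpecialLinearGroup (Fin a) F,
      (g : Ma) * x * ((g⁻¹ : Matrix.SpecialLinearGroup (Fin a) F) : Ma) ∈ S)
    (β : Ma) (hβ : β ∈ S) (hns : ∀ c : F, β ≠ c • 1) : ∀ x : Ma, x ∈ S := by
  classical
  -- the field with two elements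
  have h01 : ∀ c : F, c = 0 ∨ c = 1 := by
    intro c
    by_contra hc
    push Not at hc
    have h3 : ({0, 1, c} : Finset F).card = 3 := by
      rw [Finset.card_insert_of_notMem, Finset.card_insert_of_notMem, Finset.card_singleton]
      · simpa using hc.2.symm
      · simp only [Finset.mem_insert, Finset.mem_singleton, not_or]
        exact ⟨zero_ne_one, hc.1.symm⟩
    have := Finset.card_le_univ ({0, 1, c} : Finset F)
    omega
  have h2 : (1 : F) + 1 = 0 := by
    rcases h01 (1 + 1) with h | h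
    · exact h
    · exact absurd (by linear_combination h) (one_ne_zero (α := F))
  have hxx : ∀ x : Ma, x + x = 0 := by
    intro x
    ext k l
    have : x k l + x k l = (1 + 1) * x k l := by ring
    simp [this, h2]
  have hneg : ∀ x : Ma, -x = x := fun x => neg_eq_of_add_eq_zero_left (hxx x)
  -- the operator `D`
  have hD : ∀ x ∈ S, ∀ u φ : Fin a → F, φ ⬝ᵥ u = 0 →
      vecMulVec u φ * x + x * vecMulVec u φ + vecMulVec u φ * x * vecMulVec u φ ∈ S := by
    intro x hx u φ h
    have h3 := hadd _ (hconj x hx (tv u φ h)) x hx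
    rw [tv_inv_coe, tv_coe, sub_eq_add_neg, hneg] at h3
    have h4 : (1 + vecMulVec u φ) * x * (1 + vecMulVec u φ) + x
        = vecMulVec u φ * x + x * vecMulVec u φ + vecMulVec u φ * x * vecMulVec u φ + (x + x) := by
      noncomm_ring
    rw [h4, hxx, add_zero] at h3
    exact h3
  let e : Fin a → Fin a → F := fun k => Pi.single k 1
  have hee : ∀ k l : Fin a, e k ⬝ᵥ e l = if k = l then 1 else 0 := by
    intro k l
    simp only [e, single_dotProduct, one_mul, Pi.single_apply]
  have hEE : ∀ p q r s : Fin a, vecMulVec (e p) (e q) * vecMulVec (e r) (e s)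
      = if q = r then vecMulVec (e p) (e s) else 0 := by
    intro p q r s
    rw [vecMulVec_mul_vecMulVec, hee]
    by_cases h : q = r <;> simp [h]
  -- Claim A
  have hA : ∃ i j : Fin a, i ≠ j ∧ vecMulVec (e i) (e j) ∈ S := by
    by_cases hoff : ∃ i j : Fin a, i ≠ j ∧ β j i ≠ 0
    · obtain ⟨i, j, hij, hb⟩ := hoff
      have hb1 : β j i = 1 := (h01 _).resolve_left hb
      obtain ⟨m, hmi, hmj⟩ : ∃ m : Fin a, m ≠ i ∧ m ≠ j := by
        by_contra hcon
        push Not at hcon
        have h3 : (Finset.univ : Finset (Fin a)) ⊆ {i, j} := by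
          intro c _
          by_cases hc : c = i
          · simp [hc]
          · simp [hcon c hc]
        have h4 := Finset.card_le_card h3
        have h5 : ({i, j} : Finset (Fin a)).card ≤ 2 := Finset.card_le_two
        rw [Finset.card_univ, Fintype.card_fin] at h4
        omega
      refine ⟨i, j, hij, ?_⟩
      set u := e i with hu
      set ψ := e j with hψ
      have hψu : ψ ⬝ᵥ u = 0 := by rw [hee, if_neg (Ne.symm hij)]
      set w := β *ᵥ u with hw
      set χ := ψ ᵥ* β + ψ with hχ
      have hwk : ∀ k, w k = β k i := by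
        intro k
        simp [hw, hu, e]
      have hd := hD β hβ u ψ hψu
      have hd' : vecMulVec u ψ * β + β * vecMulVec u ψ + vecMulVec u ψ * β * vecMulVec u ψ
          = vecMulVec u χ + vecMulVec w ψ := by
        have h5 : (ψ ᵥ* β) ⬝ᵥ u = 1 := by
          rw [← dotProduct_mulVec, ← hw]
          simp [hψ, e, hwk, hb1]
        rw [vecMulVec_mul, mul_vecMulVec, vecMulVec_mul_vecMulVec, h5, one_smul, hχ, vecMulVec_add]
        abel
      rw [hd'] at hd
      set d := vecMulVec u χ + vecMulVec w ψ with hdd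
      set θ := e m + w m • e j with hθ
      have hθu : θ ⬝ᵥ u = 0 := by
        rw [hθ, add_dotProduct, smul_dotProduct, hee, hee, if_neg hmi, if_neg (Ne.symm hij)]
        simp
      have hψw : ψ ⬝ᵥ w = 1 := by
        simp [hψ, e, hwk, hb1]
      have hθw : θ ⬝ᵥ w = 0 := by
        rw [hθ, add_dotProduct, smul_dotProduct, hψw]
        have : e m ⬝ᵥ w = w m := by simp [e]
        rw [this, smul_eq_mul, mul_one]
        have : w m + w m = (1 + 1) * w m := by ring
        rw [this, h2, zero_mul]
      have hN1 := hD d hd w θ hθw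
      have hθd : θ ᵥ* d = 0 := by
        rw [hdd, vecMul_add, vecMul_vecMulVec, vecMul_vecMulVec, hθu, hθw]
        simp
      have hN1' : vecMulVec w θ * d + d * vecMulVec w θ + vecMulVec w θ * d * vecMulVec w θ
          = vecMulVec (d *ᵥ w) θ := by
        rw [vecMulVec_mul, hθd, mul_vecMulVec]
        simp
      rw [hN1'] at hN1
      set v := d *ᵥ w with hv
      have hvj : ψ ⬝ᵥ v = 1 := by
        rw [hv, hdd, add_mulVec, vecMulVec_mulVec, vecMulVec_mulVec, dotProduct_add,
          dotProduct_smul, dotProduct_smul, hψu, hψw]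
        simp
      have hθi : θ ⬝ᵥ e i = 0 := hθu
      have hN2 := hD _ hN1 (e i) (e j) hψu
      have hN2' : vecMulVec (e i) (e j) * vecMulVec v θ + vecMulVec v θ * vecMulVec (e i) (e j)
          + vecMulVec (e i) (e j) * vecMulVec v θ * vecMulVec (e i) (e j) = vecMulVec (e i) θ := by
        rw [vecMulVec_mul_vecMulVec, vecMulVec_mul_vecMulVec, hvj, hθi, one_smul,
          vecMulVec_mul_vecMulVec, hθi]
        simp
      rw [hN2'] at hN2
      have hjm : e j ⬝ᵥ e m = 0 := by rw [hee, if_neg (Ne.symm hmj)]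
      have hθm : θ ⬝ᵥ e m = 1 := by
        rw [hθ, add_dotProduct, smul_dotProduct, hee, hjm]
        simp
      have hN3 := hD _ hN2 (e m) (e j) hjm
      have hN3' : vecMulVec (e m) (e j) * vecMulVec (e i) θ + vecMulVec (e i) θ * vecMulVec (e m) (e j)
          + vecMulVec (e m) (e j) * vecMulVec (e i) θ * vecMulVec (e m) (e j)
          = vecMulVec (e i) (e j) := by
        rw [vecMulVec_mul_vecMulVec, vecMulVec_mul_vecMulVec, hψu, hθm]
        simp
      rw [hN3'] at hN3
      exact hN3
    · push Not at hoff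
      obtain ⟨i, j, hne⟩ : ∃ i j : Fin a, β i i ≠ β j j := by
        by_contra hcon
        push Not at hcon
        apply hns (β ⟨0, by omega⟩ ⟨0, by omega⟩)
        ext k l
        by_cases hkl : k = l
        · subst hkl
          simp [hcon k ⟨0, by omega⟩]
        · simp [Matrix.one_apply_ne hkl, hoff l k (Ne.symm hkl)]
      have hij : i ≠ j := by
        rintro rfl
        exact hne rfl
      refine ⟨i, j, hij, ?_⟩
      have hψu : e j ⬝ᵥ e i = 0 := by rw [hee, if_neg (Ne.symm hij)]
      have hd := hD β hβ (e i) (e j) hψu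
      have hrow : e j ᵥ* β = β j j • e j := by
        ext l
        by_cases hl : l = j
        · subst hl; simp [e]
        · simp [e, Pi.single_eq_of_ne hl, hoff l j hl]
      have hcol : β *ᵥ e i = β i i • e i := by
        ext l
        by_cases hl : l = i
        · subst hl; simp [e]
        · simp [e, Pi.single_eq_of_ne hl, hoff i l (Ne.symm hl)]
      have hsum : β j j + β i i = 1 := by
        rcases h01 (β i i) with h | h <;> rcases h01 (β j j) with h' | h'
        · exact absurd (h.trans h'.symm) hne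
        · rw [h, h']; simp
        · rw [h, h']; simp
        · exact absurd (h.trans h'.symm) hne
      have hd' : vecMulVec (e i) (e j) * β + β * vecMulVec (e i) (e j)
          + vecMulVec (e i) (e j) * β * vecMulVec (e i) (e j) = vecMulVec (e i) (e j) := by
        rw [vecMulVec_mul, mul_vecMulVec, hrow, hcol, vecMulVec_mul_vecMulVec, smul_dotProduct, hψu,
          vecMulVec_smul, smul_vecMulVec, ← add_smul, hsum]
        simp
      rw [hd'] at hd
      exact hd
  obtain ⟨i, j, hij, hE⟩ := hA
  have third : ∀ k l : Fin a, ∃ m : Fin a, m ≠ k ∧ m ≠ l := by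
    intro k l
    by_contra hcon
    push Not at hcon
    have h3 : (Finset.univ : Finset (Fin a)) ⊆ {k, l} := by
      intro c _
      by_cases hc : c = k
      · simp [hc]
      · simp [hcon c hc]
    have h4 := Finset.card_le_card h3
    have h5 : ({k, l} : Finset (Fin a)).card ≤ 2 := Finset.card_le_two
    rw [Finset.card_univ, Fintype.card_fin] at h4
    omega
  have hB1 : ∀ k l m : Fin a, vecMulVec (e k) (e l) ∈ S → m ≠ k → m ≠ l →
      vecMulVec (e k) (e m) ∈ S := by
    intro k l m h hmk hml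
    have h3 := hD _ h (e l) (e m) (by rw [hee, if_neg hml])
    rw [hEE, hEE, if_neg hmk, if_pos rfl, zero_mul, zero_add, add_zero] at h3
    exact h3
  have hB2 : ∀ k l m : Fin a, vecMulVec (e k) (e l) ∈ S → m ≠ k → m ≠ l →
      vecMulVec (e m) (e l) ∈ S := by
    intro k l m h hmk hml
    have h3 := hD _ h (e m) (e k) (by rw [hee, if_neg (Ne.symm hmk)])
    rw [hEE, hEE, if_pos rfl, if_neg (Ne.symm hml), hEE, if_neg (Ne.symm hml), add_zero,
      add_zero] at h3
    exact h3
  have hB1' : ∀ k l m : Fin a, vecMulVec (e k) (e l) ∈ S → m ≠ k → vecMulVec (e k) (e m) ∈ S := by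
    intro k l m h hmk
    by_cases hml : m = l
    · rw [hml]; exact h
    · exact hB1 k l m h hmk hml
  have hB2' : ∀ k l m : Fin a, vecMulVec (e k) (e l) ∈ S → m ≠ l → vecMulVec (e m) (e l) ∈ S := by
    intro k l m h hml
    by_cases hmk : m = k
    · rw [hmk]; exact h
    · exact hB2 k l m h hmk hml
  have hoffd : ∀ k l : Fin a, k ≠ l → vecMulVec (e k) (e l) ∈ S := by
    intro k l hkl
    by_cases hli : l = i
    · by_cases hkj : k = j
      · obtain ⟨m, hmi, hmj⟩ := third i j
        subst hli hkj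
        exact hB1' _ _ _ (hB2' _ _ _ (hB1' _ _ _ hE hmi) (Ne.symm hmj)) (Ne.symm hkl)
      · subst hli
        exact hB1' _ _ _ (hB2' _ _ _ hE hkj) (Ne.symm hkl)
    · exact hB2' _ _ _ (hB1' _ _ _ hE hli) hkl
  have hall : ∀ k l : Fin a, vecMulVec (e k) (e l) ∈ S := by
    intro k l
    by_cases hkl : k = l
    · subst hkl
      obtain ⟨m, hmk, -⟩ := third k k
      have h3 := hmul _ (hoffd k m (Ne.symm hmk)) _ (hoffd m k hmk)
      rw [hEE, if_pos rfl] at h3
      exact h3
    · exact hoffd k l hkl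
  intro x
  have hx : x = ∑ k, ∑ l, (x k l • (1 : Ma)) * vecMulVec (e k) (e l) := by
    conv_lhs => rw [Matrix.matrix_eq_sum_single x]
    refine Finset.sum_congr rfl fun k _ => Finset.sum_congr rfl fun l _ => ?_
    ext p q
    simp only [smul_mul_assoc, one_mul, Matrix.smul_apply, vecMulVec_apply, e, Matrix.single_apply,
      Pi.single_apply, smul_eq_mul]
    by_cases hp : k = p <;> by_cases hq' : l = q <;> simp [hp, hq', eq_comm]
  have h0 : (0 : Ma) ∈ S := by simpa using hsc 0
  rw [hx]
  refine Finset.sum_induction _ (· ∈ S) (fun x y hx hy => hadd x hx y hy) h0 fun k _ => ?_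
  refine Finset.sum_induction _ (· ∈ S) (fun x y hx hy => hadd x hx y hy) h0 fun l _ => ?_
  exact hmul _ (hsc _) _ (hall k l)

end Cfsg.Agent.Lib.Helper42TAlg2
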