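import Cfsg.Agent.Lib.Helper43SpDefs
import Cfsg.Agent.Lib.Helper49Par
import Cfsg.Agent.Lib.Helper49Forms

set_option autoImplicit false

/-! Vocabulary of project 413 (S2413, S2414, S2415 = two generation of the finite orthogonal groups):
hyperbolic frames, Eichler transformations attached to a frame, Coxeter type elements. -/

namespace Cfsg.Agent.Lib.Helper43Og

open Cfsg.Agent.Lib.Helper43Sp (I ng ab gam)
open Cfsg.Agent.Lib.Helper49Eich (E)

variable {F : Type*} [Field F] {ι : Type} [Fintype ι] [DecidableEq ι]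

/-- the isometry group of `Q` -/
abbrev GG (Q : QuadraticForm F (ι → F)) := ↥(Cfsg.isometryGroup F ⇑Q)

/-- action of an isometry on a vector -/
def act {Q : QuadraticForm F (ι → F)} (g : GG Q) (x : ι → F) : ι → F :=
  ((g : Matrix.GeneralLinearGroup ι F) : Matrix ι ι F).mulVec x

/-- the polar form -/
abbrev BB (Q : QuadraticForm F (ι → F)) (x y : ι → F) : F := QuadraticMap.polar ⇑Q x y

/-- `k` pairwise orthogonal hyperbolic pairs `v (inl i), v (inr i)` and their orthogonal complement `V0` -/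
structure Frame (Q : QuadraticForm F (ι → F)) (k : ℕ) where
  v : I k → (ι → F)
  V0 : Submodule F (ι → F)
  sing : ∀ a, Q (v a) = 0
  pol : ∀ a b, BB Q (v a) (v b) = if b = ng a then 1 else 0
  perp : ∀ a, ∀ w ∈ V0, BB Q (v a) w = 0
  span : ∀ x : ι → F, ∃ (c : I k → F) (w : ι → F), w ∈ V0 ∧ x = ∑ a, c a • v a + w

/-- the reflection in `w0` as a map on vectors -/
def rf (Q : QuadraticForm F (ι → F)) (w0 x : ι → F) : ι → F := x - ((Q w0)⁻¹ * BB Q w0 x) • w0

/-- `c` acts on the frame as the negative `k`-cycle `gam` (up to scalars) and on `V0` as the reflection in `w0` -/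
structure Cox {Q : QuadraticForm F (ι → F)} {k : ℕ} (Φ : Frame Q k) (w0 : ι → F) (c : GG Q) : Prop where
  hv : ∀ a, ∃ κ : F, κ ≠ 0 ∧ act c (Φ.v a) = κ • Φ.v (gam a)
  h0 : ∀ w ∈ Φ.V0, act c w = rf Q w0 w

/-- multiplication by `l` generates `F` additively -/
def Gen (F : Type*) [Field F] (l : F) : Prop :=
  ∀ S : AddSubgroup F, (1 : F) ∈ S → (∀ x ∈ S, l * x ∈ S) → ∀ t : F, t ∈ S

/-- `M` contains an element scaling `v a` by `l` and fixing `V0` pointwise -/
def Sc {Q : QuadraticForm F (ι → F)} {k : ℕ} (Φ : Frame Q k) (M : Subgroup (GG Q)) (a : I k) (l : F) : Prop :=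
  ∃ g ∈ M, act g (Φ.v a) = l • Φ.v a ∧ ∀ w ∈ Φ.V0, act g w = w

/-- the auxiliary semisimple element `y` (supported on the hyperbolic pairs `1`, `2`) -/
structure YDat {Q : QuadraticForm F (ι → F)} {n : ℕ} (Φ : Frame Q (n + 3)) (p : ℕ) where
  y : GG Q
  mem : y ∈ Cfsg.Omega F ⇑Q
  fix0 : act y (Φ.v (Sum.inl 0)) = Φ.v (Sum.inl 0)
  fixV : ∀ w ∈ Φ.V0, act y w = w
  N : ℕ
  pow : y ^ N = 1
  cop : Nat.Coprime p N
  e : ℕ
  l : F
  scale : act (y ^ e) (Φ.v (Sum.inl 1)) = l • Φ.v (Sum.inl 1)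
  gen : Gen F l
  α : F
  β : F
  hβ : β ≠ 0
  tr : act y (Φ.v (Sum.inl 2)) = α • Φ.v (Sum.inl 2) + β • Φ.v (Sum.inl 1)

/-- the vectors `w ∈ V0` with `E (v a) w ∈ M` -/
def LL {Q : QuadraticForm F (ι → F)} {k : ℕ} (Φ : Frame Q k) (M : Subgroup (GG Q)) (a : I k) : Set (ι → F) :=
  {w | w ∈ Φ.V0 ∧ E Q (Φ.v a) w ∈ M}

end Cfsg.Agent.Lib.Helper43Og
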