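import Cfsg.Agent.Lib.Helper43OgDefs
import Cfsg.Agent.Lib.Helper17SUPrim
import Cfsg.Agent.Lib.Helper77SpTgam

set_option autoImplicit false

/-! Vocabulary of project 412 (S2412 = two generation of PSU_n(q)). -/

namespace Cfsg.Agent.Lib.Helper43Ug

open Cfsg.Agent.Lib.Helper43Sp (I ng ab gam)
open Cfsg.Agent.S0780 (Th)

variable {F : Type*} [Field F] {q n : ℕ}

/-- the special unitary group -/
abbrev GS (n : ℕ) (F : Type*) [Field F] (q : ℕ) := ↥(Cfsg.SU n F q)

/-- `g` is the Heisenberg element `x ↦ x + h(x,v)(u + a v) - h(x,u) v` -/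
def IsE (g : GS n F q) (v u : Fin n → F) (a : F) : Prop :=
  ∀ x, Th n F q g x = x + Cfsg.hermForm n F q x v • (u + a • v) - Cfsg.hermForm n F q x u • v

/-- `k` pairwise orthogonal hyperbolic pairs, their orthogonal complement `V0` (of dimension `e0`), and
the existence of monomial elements of determinant one -/
structure UFrame (n : ℕ) (F : Type*) [Field F] (q k e0 : ℕ) where
  v : I k → (Fin n → F)
  V0 : Submodule F (Fin n → F)
  pol : ∀ a b, Cfsg.hermForm n F q (v a) (v b) = if b = ng a then 1 else 0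
  perp : ∀ a, ∀ w ∈ V0, Cfsg.hermForm n F q w (v a) = 0
  span : ∀ x : Fin n → F, ∃ (c : I k → F) (w : Fin n → F), w ∈ V0 ∧ x = ∑ a, c a • v a + w
  mon : ∀ (π : Equiv.Perm (I k)) (d : I k → F) (μ : F), (∀ a, π (ng a) = ng (π a)) →
      (∀ a, d a * (d (ng a)) ^ q = 1) → μ * μ ^ q = 1 →
      (((Equiv.Perm.sign π : ℤˣ) : ℤ) : F) * (∏ a, d a) * μ ^ e0 = 1 →
      ∃ g : GS n F q, (∀ a, Th n F q g (v a) = d a • v (π a)) ∧ ∀ w ∈ V0, Th n F q g w = μ • w

variable {k e0 : ℕ} (Φ : UFrame n F q k e0) (M : Subgroup (GS n F q))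

/-- the short root group `a + b` lies in `M` -/
def XS (a b : I k) : Prop := ∀ (t : F) (g : GS n F q), IsE g (Φ.v a) (t • Φ.v b) 0 → g ∈ M

/-- the Heisenberg group at `v a` over `V0` (including the transvections) lies in `M` -/
def HS (a : I k) : Prop := ∀ w ∈ Φ.V0, ∀ (s : F) (g : GS n F q), IsE g (Φ.v a) w s → g ∈ M

/-- the whole unipotent radical at `v a` lies in `M` -/
def QS (a : I k) : Prop := ∀ (u : Fin n → F) (s : F) (g : GS n F q),
  Cfsg.hermForm n F q u (Φ.v a) = 0 → IsE g (Φ.v a) u s → g ∈ M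

/-- Coxeter type element -/
structure Cox (c : GS n F q) : Prop where
  hv : ∀ a, ∃ κ : F, κ ≠ 0 ∧ Th n F q c (Φ.v a) = κ • Φ.v (gam a)
  h0 : ∃ μ : F, μ ≠ 0 ∧ ∀ w ∈ Φ.V0, Th n F q c w = μ • w

/-- diagonal element -/
structure Dg (y : GS n F q) (l : I k → F) (μ : F) : Prop where
  hv : ∀ a, Th n F q y (Φ.v a) = l a • Φ.v a
  h0 : ∀ w ∈ Φ.V0, Th n F q y w = μ • w

end Cfsg.Agent.Lib.Helper43Ug
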