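import Mathlib

set_option autoImplicit false

namespace Cfsg.Agent.Lib.Helper44GL2Conj

open Matrix

variable {F : Type*} [Field F]

/-- conjugacy in `GL₂` from an intertwining invertible matrix -/
theorem isConj_of_intertwine (g h : GL (Fin 2) F) (P : Matrix (Fin 2) (Fin 2) F) (hP : P.det ≠ 0)
    (hgh : (g : Matrix (Fin 2) (Fin 2) F) * P = P * (h : Matrix (Fin 2) (Fin 2) F)) :
    IsConj g h := by
  rw [isConj_comm, isConj_iff]
  refine ⟨Matrix.GeneralLinearGroup.mkOfDetNeZero P hP, ?_⟩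
  rw [mul_inv_eq_iff_eq_mul]
  apply Units.ext
  exact hgh.symm

/-- the companion matrix of `X² - tX + δ` -/
def comp (t : F) (δ : Fˣ) : GL (Fin 2) F :=
  Matrix.GeneralLinearGroup.mkOfDetNeZero !![0, -(δ : F); 1, t]
    (by rw [Matrix.det_fin_two_of]; simp)

theorem comp_coe (t : F) (δ : Fˣ) :
    ((comp t δ : GL (Fin 2) F) : Matrix (Fin 2) (Fin 2) F) = !![0, -(δ : F); 1, t] := rfl

/-- being a scalar matrix -/
def IsScalar (M : Matrix (Fin 2) (Fin 2) F) : Prop := M 0 1 = 0 ∧ M 1 0 = 0 ∧ M 0 0 = M 1 1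

theorem isConj_comp (g : GL (Fin 2) F) (hg : ¬ IsScalar (g : Matrix (Fin 2) (Fin 2) F))
    (t : F) (δ : Fˣ) (ht : (g : Matrix (Fin 2) (Fin 2) F).trace = t)
    (hδ : (g : Matrix (Fin 2) (Fin 2) F).det = δ) : IsConj g (comp t δ) := by
  set M := (g : Matrix (Fin 2) (Fin 2) F) with hM
  have hMeta := Matrix.eta_fin_two M
  rw [Matrix.trace_fin_two] at ht
  rw [Matrix.det_fin_two] at hδ
  by_cases hc : M 1 0 = 0
  · by_cases hb : M 0 1 = 0
    · have had : M 0 0 ≠ M 1 1 := fun h => hg ⟨hb, hc, h⟩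
      apply isConj_of_intertwine g _ !![1, M 0 0; 1, M 1 1]
      · rw [Matrix.det_fin_two_of]
        intro h
        apply had
        linear_combination -h
      · rw [comp_coe, ← hM, hMeta, Matrix.mul_fin_two, Matrix.mul_fin_two, ← hδ, ← ht]
        ext i j
        fin_cases i <;> fin_cases j <;> simp [hb, hc] <;> ring
    · apply isConj_of_intertwine g _ !![0, M 0 1; 1, M 1 1]
      · rw [Matrix.det_fin_two_of]
        simpa using hb
      · rw [comp_coe, ← hM, hMeta, Matrix.mul_fin_two, Matrix.mul_fin_two, ← hδ, ← ht]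
        ext i j
        fin_cases i <;> fin_cases j <;> simp [hc] <;> ring
  · apply isConj_of_intertwine g _ !![1, M 0 0; 0, M 1 0]
    · rw [Matrix.det_fin_two_of]
      simpa using hc
    · rw [comp_coe, ← hM, hMeta, Matrix.mul_fin_two, Matrix.mul_fin_two, ← hδ, ← ht]
      ext i j
      fin_cases i <;> fin_cases j <;> simp <;> ring

/-- two non-scalar elements with the same trace and determinant are conjugate -/
theorem isConj_of_trace_det (g h : GL (Fin 2) F)
    (hg : ¬ IsScalar (g : Matrix (Fin 2) (Fin 2) F))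
    (hh : ¬ IsScalar (h : Matrix (Fin 2) (Fin 2) F))
    (ht : (g : Matrix (Fin 2) (Fin 2) F).trace = (h : Matrix (Fin 2) (Fin 2) F).trace)
    (hd : (g : Matrix (Fin 2) (Fin 2) F).det = (h : Matrix (Fin 2) (Fin 2) F).det) :
    IsConj g h := by
  have h1 := isConj_comp g hg _ (Matrix.GeneralLinearGroup.det g) rfl rfl
  have h2 := isConj_comp h hh (g : Matrix (Fin 2) (Fin 2) F).trace (Matrix.GeneralLinearGroup.det g)
    ht.symm hd.symm
  exact h1.trans h2.symm

theorem isScalar_iff (M : Matrix (Fin 2) (Fin 2) F) :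
    IsScalar M ↔ ∃ a : F, M = a • (1 : Matrix (Fin 2) (Fin 2) F) := by
  constructor
  · rintro ⟨h1, h2, h3⟩
    refine ⟨M 0 0, ?_⟩
    ext i j
    fin_cases i <;> fin_cases j <;> simp [h1, h2, h3]
  · rintro ⟨a, rfl⟩
    simp [IsScalar]

theorem isScalar_conj (g x : GL (Fin 2) F) (hg : IsScalar (g : Matrix (Fin 2) (Fin 2) F)) :
    x * g * x⁻¹ = g := by
  obtain ⟨a, ha⟩ := (isScalar_iff _).mp hg
  rw [mul_inv_eq_iff_eq_mul]
  apply Units.ext
  simp [ha]

end Cfsg.Agent.Lib.Helper44GL2Conj
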