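import Mathlib
import Cfsg.Agent.Lib.Helper44PS
import Cfsg.Agent.Lib.Helper44Ab

set_option autoImplicit false

namespace Cfsg.Agent.Lib.Helper44Loc

open Matrix Cfsg Cfsg.Agent.Lib.Helper19Ind Cfsg.Agent.Lib.Helper44Ind Cfsg.Agent.Lib.Helper44P1
  Cfsg.Agent.Lib.Helper44B Cfsg.Agent.Lib.Helper44PS Cfsg.Agent.Lib.Helper44Ab
  Cfsg.Agent.Lib.Helper4Char Cfsg.Agent.Lib.Helper4Char4

variable {F : Type*} [Field F] {Γ : Type*} [Group Γ] (ι : Γ →* GL (Fin 2) F)
variable (hSL : ∀ M : Matrix (Fin 2) (Fin 2) F, M.det = 1 → ∃ γ : Γ, mat ι γ = M)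
variable (hι : Function.Injective ι)

include hι in
theorem tor_isMulCommutative : IsMulCommutative (Tor ι) :=
  ⟨⟨fun a b => tor_comm ι hι a b⟩⟩

include hι in
theorem classInner_Bor_gen [Fintype F] [Fintype (Bor ι)] [Fintype (Tor ι)] (lam : Tor ι → ℂ)
    (χ : Γ → ℂ) :
    classInner (fun b : Bor ι => lam (pr ι hSL hι b)) (fun b : Bor ι => χ b) =
      classInner lam (tau ι hSL χ) := by
  unfold classInner
  rw [sum_Bor' ι hSL hι, card_Bor ι hSL hι]
  have hq : (Fintype.card F : ℂ) ≠ 0 := by exact_mod_cast Fintype.card_ne_zero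
  have hT : (Nat.card (Tor ι) : ℂ) ≠ 0 := by exact_mod_cast Nat.card_pos.ne'
  push_cast
  rw [_root_.mul_inv_rev, mul_assoc, mul_comm (Fintype.card F : ℂ)⁻¹, mul_assoc]
  congr 1
  rw [Finset.sum_mul]
  apply Finset.sum_congr rfl
  intro t _
  simp only [pr_tu]
  unfold tau
  rw [map_mul, map_sum, ← Finset.mul_sum, map_inv₀, Complex.conj_natCast]
  ring

include hι in
/-- the average over the unipotent radical is a character of the torus -/
theorem tau_isCharacter [Fintype F] [Finite Γ] (χ : Γ → ℂ) (hχ : IsCharacter Γ χ) :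
    IsCharacter (Tor ι) (tau ι hSL χ) := by
  classical
  have : Fintype (Tor ι) := Fintype.ofFinite _
  have : Fintype (Bor ι) := Fintype.ofFinite _
  apply isCharacter_of_classInner_nat
  · intro g h
    rw [tor_comm ι hι h g, mul_inv_cancel_right]
  · intro lam
    have h1 := classInner_Bor_gen ι hSL hι (lam : Tor ι → ℂ) χ
    obtain ⟨n, hn⟩ := IsCharacter.classInner_nat
      (IsCharacter.comp (pr ι hSL hι) (IsIrrCharacter.isCharacter lam.2))
      (IsCharacter.restrict (Bor ι) hχ)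
    refine ⟨n, ?_⟩
    rw [← classInner_conj_symm, ← h1, hn]
    simp

/-! ### Fourier analysis on the unipotent radical -/

/-- Fourier coefficients of `χ` restricted to the unipotent radical -/
noncomputable def mm [Fintype F] (ψ : AddChar F ℂ) (χ : Γ → ℂ) (a : F) : ℂ :=
  (Fintype.card F : ℂ)⁻¹ * ∑ c : F, χ (uu ι hSL c) * (starRingEnd ℂ) (ψ (a * c))

include hι in
theorem mm_nat [Fintype F] (ψ : AddChar F ℂ) (χ : Γ → ℂ) (hχ : IsCharacter Γ χ) (a : F) :
    ∃ n : ℕ, mm ι hSL ψ χ a = n := by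
  classical
  have h1 : IsCharacter (Multiplicative F) (fun c => χ (uHom ι hSL hι c)) :=
    IsCharacter.comp (uHom ι hSL hι) hχ
  have h2 := Cfsg.Agent.Lib.Helper82Linear.isIrrCharacter_of_hom
    (AddChar.toMonoidHom (AddChar.mulShift ψ a)).toHomUnits
  obtain ⟨n, hn⟩ := IsCharacter.classInner_nat h1 (IsIrrCharacter.isCharacter h2)
  refine ⟨n, ?_⟩
  rw [← hn]
  unfold mm classInner
  rw [Nat.card_eq_fintype_card, Fintype.card_multiplicative]
  congr 1
  rw [← Equiv.sum_comp Multiplicative.ofAdd]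
  apply Finset.sum_congr rfl
  intro c _
  simp only [MonoidHom.coe_toHomUnits, AddChar.toMonoidHom_apply, AddChar.mulShift_apply]
  rfl

theorem sum_psi [Fintype F] [DecidableEq F] (ψ : AddChar F ℂ) (hψ : ψ.IsPrimitive) (c c' : F) :
    ∑ a : F, ψ (a * c) * (starRingEnd ℂ) (ψ (a * c')) =
      if c = c' then (Fintype.card F : ℂ) else 0 := by
  have h1 : ∀ a : F, ψ (a * c) * (starRingEnd ℂ) (ψ (a * c')) = ψ (a * (c - c')) := by
    intro a
    rw [← AddChar.map_neg_eq_conj, ← AddChar.map_add_eq_mul]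
    congr 1
    ring
  simp only [h1]
  rw [AddChar.sum_mulShift _ hψ]
  simp only [sub_eq_zero]
  split_ifs <;> simp

theorem mm_inversion [Fintype F] [DecidableEq F] (ψ : AddChar F ℂ) (hψ : ψ.IsPrimitive)
    (χ : Γ → ℂ) (c : F) :
    χ (uu ι hSL c) = ∑ a : F, mm ι hSL ψ χ a * ψ (a * c) := by
  unfold mm
  have hq : (Fintype.card F : ℂ) ≠ 0 := by exact_mod_cast Fintype.card_ne_zero
  have h1 : ∀ a : F, (Fintype.card F : ℂ)⁻¹ *
      (∑ c' : F, χ (uu ι hSL c') * (starRingEnd ℂ) (ψ (a * c'))) * ψ (a * c) =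
      (Fintype.card F : ℂ)⁻¹ *
      ∑ c' : F, χ (uu ι hSL c') * (ψ (a * c) * (starRingEnd ℂ) (ψ (a * c'))) := by
    intro a
    rw [mul_assoc, Finset.sum_mul]
    congr 1
    apply Finset.sum_congr rfl
    intro c' _
    ring
  simp only [h1]
  rw [← Finset.mul_sum, Finset.sum_comm]
  simp only [← Finset.mul_sum, sum_psi ψ hψ]
  simp only [mul_ite, mul_zero]
  rw [Finset.sum_ite_eq Finset.univ c]
  simp only [Finset.mem_univ, if_true]
  field_simp

theorem mm_parseval [Fintype F] [DecidableEq F] (ψ : AddChar F ℂ) (hψ : ψ.IsPrimitive)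
    (χ : Γ → ℂ) :
    ∑ c : F, χ (uu ι hSL c) * (starRingEnd ℂ) (χ (uu ι hSL c)) =
      (Fintype.card F : ℂ) * ∑ a : F, mm ι hSL ψ χ a * (starRingEnd ℂ) (mm ι hSL ψ χ a) := by
  have hq : (Fintype.card F : ℂ) ≠ 0 := by exact_mod_cast Fintype.card_ne_zero
  have h1 : ∀ c : F, χ (uu ι hSL c) * (starRingEnd ℂ) (χ (uu ι hSL c)) =
      ∑ a : F, (χ (uu ι hSL c) * (starRingEnd ℂ) (ψ (a * c))) *
        (starRingEnd ℂ) (mm ι hSL ψ χ a) := by
    intro c
    conv_lhs => rw [mm_inversion ι hSL ψ hψ χ c]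
    rw [map_sum, ← mm_inversion ι hSL ψ hψ χ c, Finset.mul_sum]
    apply Finset.sum_congr rfl
    intro a _
    rw [map_mul]
    ring
  simp only [h1]
  rw [Finset.sum_comm, Finset.mul_sum]
  apply Finset.sum_congr rfl
  intro a _
  rw [← Finset.sum_mul]
  unfold mm
  field_simp

include hι in
theorem mm_sum [Fintype F] [DecidableEq F] (ψ : AddChar F ℂ) (hψ : ψ.IsPrimitive) (χ : Γ → ℂ) :
    χ 1 = ∑ a : F, mm ι hSL ψ χ a := by
  have := mm_inversion ι hSL ψ hψ χ 0
  rw [uu_zero ι hSL hι] at this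
  simpa using this

theorem mm_zero [Fintype F] (ψ : AddChar F ℂ) (χ : Γ → ℂ) :
    mm ι hSL ψ χ 0 = tau ι hSL χ 1 := by
  unfold mm tau
  simp

include hι in
/-- invariance of the Fourier coefficients under the torus -/
theorem mm_smul [Fintype F] (ψ : AddChar F ℂ) (χ : Γ → ℂ) (hχ : IsClassFunction Γ χ)
    (t : Tor ι) (a : F) :
    mm ι hSL ψ χ (a * (td ι t / ta ι t)) = mm ι hSL ψ χ a := by
  unfold mm
  congr 1
  have ha := ta_ne_zero ι t
  have hd := td_ne_zero ι t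
  have hk : ta ι t / td ι t ≠ 0 := div_ne_zero ha hd
  rw [← Equiv.sum_comp (Equiv.mulLeft₀ (ta ι t / td ι t) hk)]
  apply Finset.sum_congr rfl
  intro c _
  simp only [Equiv.mulLeft₀_apply]
  have h1 : χ (uu ι hSL (ta ι t / td ι t * c)) = χ (uu ι hSL c) := by
    have := t_u_conj ι hSL hι t c
    rw [show ta ι t / td ι t * c = ta ι t * c / td ι t by ring, ← this, hχ]
  rw [h1]
  congr 3
  field_simp

end Cfsg.Agent.Lib.Helper44Loc
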