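import Mathlib
import Cfsg.Agent.Lib.Helper44Loc

set_option autoImplicit false

namespace Cfsg.Agent.Lib.Helper44Master

open Matrix Cfsg Cfsg.Agent.Lib.Helper19Ind Cfsg.Agent.Lib.Helper44Ind Cfsg.Agent.Lib.Helper44P1
  Cfsg.Agent.Lib.Helper44B Cfsg.Agent.Lib.Helper44PS Cfsg.Agent.Lib.Helper44Ab
  Cfsg.Agent.Lib.Helper4Char Cfsg.Agent.Lib.Helper4Char4 Cfsg.Agent.Lib.Helper44Loc

variable {F : Type*} [Field F] [Fintype F] [DecidableEq F] {Γ : Type*} [Group Γ] [Fintype Γ]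
  (ι : Γ →* GL (Fin 2) F)
variable (hSL : ∀ M : Matrix (Fin 2) (Fin 2) F, M.det = 1 → ∃ γ : Γ, mat ι γ = M)
variable (hι : Function.Injective ι)

/-- the permutation character on the projective line -/
noncomputable def pif (γ : Γ) : ℂ := Cfsg.fixedPointCharacter (Bor ι) γ

omit [Fintype F] [DecidableEq F] in
theorem pif_eq : pif ι = indFun (Bor ι) (fun _ => 1) := by
  funext γ
  exact fixedPointCharacter_eq_indFun _ _

omit [Fintype F] [DecidableEq F] in
theorem pif_class : IsClassFunction Γ (pif ι) := by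
  rw [pif_eq]
  exact indFun_isClassFunction _ _

include hSL in
theorem pif_formula (γ : Γ) :
    pif ι γ =
      (∑ s : F, if mat ι γ 1 0 + (mat ι γ 1 1 - mat ι γ 0 0) * s - mat ι γ 0 1 * s ^ 2 = 0 then
        (1 : ℂ) else 0) + (if mat ι γ 0 1 = 0 then 1 else 0) :=
  perm_formula ι hSL γ

include hSL in
theorem pif_elliptic (γ : Γ)
    (hell : ∀ (c : F) (v : Fin 2 → F), v ≠ 0 → (mat ι γ).mulVec v ≠ c • v) : pif ι γ = 0 := by
  rw [pif_formula ι hSL]
  have h1 : ∀ s : F, ¬ (mat ι γ 1 0 + (mat ι γ 1 1 - mat ι γ 0 0) * s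
      - mat ι γ 0 1 * s ^ 2 = 0) := by
    intro s hs
    apply hell (mat ι γ 0 0 + mat ι γ 0 1 * s) ![1, s]
    · intro h
      have := congrFun h 0
      simp at this
    · ext i
      fin_cases i
      · simp [Matrix.mulVec, dotProduct, Fin.sum_univ_two]
      · simp [Matrix.mulVec, dotProduct, Fin.sum_univ_two]
        linear_combination hs
  have h2 : ¬ (mat ι γ 0 1 = 0) := by
    intro hs
    apply hell (mat ι γ 1 1) ![0, 1]
    · intro h
      have := congrFun h 1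
      simp at this
    · ext i
      fin_cases i
      · simp [Matrix.mulVec, dotProduct, Fin.sum_univ_two, hs]
      · simp [Matrix.mulVec, dotProduct, Fin.sum_univ_two]
  simp [h1, h2]

include hSL in
theorem pif_tor (t : Tor ι) (h : ta ι t ≠ td ι t) : pif ι (t : Γ) = 2 := by
  rw [pif_formula ι hSL, mat_tor]
  have : ∀ s : F, ((0 : F) + (td ι t - ta ι t) * s - 0 * s ^ 2 = 0) ↔ s = 0 := by
    intro s
    constructor
    · intro h1
      have h2 : (td ι t - ta ι t) * s = 0 := by linear_combination h1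
      rcases mul_eq_zero.mp h2 with h3 | h3
      · exact absurd (sub_eq_zero.mp h3).symm h
      · exact h3
    · rintro rfl
      ring
  simp only [Matrix.of_apply, Matrix.cons_val', Matrix.cons_val_zero, Matrix.cons_val_one,
    Matrix.cons_val_fin_one, this]
  simp
  norm_num

include hι in
theorem pif_tu_ne (t : Tor ι) (c : F) (h : ta ι t ≠ td ι t) :
    pif ι ((t : Γ) * uu ι hSL c) = 2 := by
  rw [tu_conj ι hSL hι t c h, pif_class ι, pif_tor ι hSL t h]

theorem pif_tu_eq (t : Tor ι) (c : F) (h : ta ι t = td ι t) :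
    pif ι ((t : Γ) * uu ι hSL c) = if c = 0 then (Fintype.card F : ℂ) + 1 else 1 := by
  rw [pif_formula ι hSL, mat_tu, ← h]
  have ha := ta_ne_zero ι t
  simp only [Matrix.of_apply, Matrix.cons_val', Matrix.cons_val_zero, Matrix.cons_val_one,
    Matrix.cons_val_fin_one]
  by_cases hc : c = 0
  · subst hc
    simp
  · have : ∀ s : F, ((0 : F) + (ta ι t - ta ι t) * s - ta ι t * c * s ^ 2 = 0) ↔ s = 0 := by
      intro s
      constructor
      · intro h1
        have h2 : (ta ι t * c) * s ^ 2 = 0 := by linear_combination -h1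
        rcases mul_eq_zero.mp h2 with h3 | h3
        · exact absurd h3 (mul_ne_zero ha hc)
        · exact pow_eq_zero_iff (two_ne_zero) |>.mp h3
      · rintro rfl
        ring
    simp only [this]
    simp [ha, hc]

include hι in
/-- decomposition of the sum of a class function according to fixed points on the line -/
theorem sum_decomp [Fintype (Tor ι)] (f : Γ → ℂ) (hf : IsClassFunction Γ f) :
    ∑ γ : Γ, f γ = ∑ γ : Γ, (if pif ι γ = 0 then f γ else 0) +
      ((Fintype.card F : ℂ) + 1) *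
        ∑ t : Tor ι, ∑ c : F, f ((t : Γ) * uu ι hSL c) / pif ι ((t : Γ) * uu ι hSL c) := by
  classical
  have : Fintype (Bor ι) := Fintype.ofFinite _
  have hcl : IsClassFunction Γ (fun γ => f γ / pif ι γ) := by
    intro g h
    simp only [hf g h, pif_class ι g h]
  have h1 := sum_indFun_one_mul (Bor ι) (fun γ => f γ / pif ι γ) hcl
  rw [sum_Bor ι hSL hι (fun γ => f γ / pif ι γ), index_Bor ι hSL, ← pif_eq] at h1
  push_cast at h1
  rw [← h1, ← Finset.sum_add_distrib]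
  apply Finset.sum_congr rfl
  intro γ _
  split_ifs with h0
  · rw [h0]; simp
  · field_simp
    ring

/-- number of scalar elements -/
noncomputable def nZ [Fintype (Tor ι)] : ℕ :=
  (Finset.univ.filter (fun t : Tor ι => ta ι t = td ι t)).card

omit [Fintype F] [DecidableEq F] [Fintype Γ] in
include hι in
theorem tor_central (t : Tor ι) (h : ta ι t = td ι t) (g : Γ) : g * (t : Γ) = (t : Γ) * g := by
  apply mat_injective ι hι
  rw [mat_mul, mat_mul, mat_tor, ← h, Matrix.eta_fin_two (mat ι g), Matrix.mul_fin_two,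
    Matrix.mul_fin_two]
  ext i j
  fin_cases i <;> fin_cases j <;> simp [mul_comm]

omit [DecidableEq F] [Fintype Γ] in
include hι in
theorem chi_tu_ne (χ : Γ → ℂ) (hχ : IsClassFunction Γ χ) (t : Tor ι) (c : F)
    (h : ta ι t ≠ td ι t) : χ ((t : Γ) * uu ι hSL c) = χ (t : Γ) := by
  rw [tu_conj ι hSL hι t c h, hχ]

omit [DecidableEq F] [Fintype Γ] in
include hι in
theorem tau_ne (χ : Γ → ℂ) (hχ : IsClassFunction Γ χ) (t : Tor ι) (h : ta ι t ≠ td ι t) :
    tau ι hSL χ t = χ (t : Γ) := by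
  unfold tau
  have hq : (Fintype.card F : ℂ) ≠ 0 := by exact_mod_cast Fintype.card_ne_zero
  simp only [chi_tu_ne ι hSL hι χ hχ t _ h, Finset.sum_const, Finset.card_univ, nsmul_eq_mul]
  field_simp

omit [DecidableEq F] in
include hι in
theorem tau_central (χ : Γ → ℂ) (hχ : IsIrrCharacter Γ χ) (t : Tor ι) (h : ta ι t = td ι t) :
    tau ι hSL χ t = χ (t : Γ) / χ 1 * tau ι hSL χ 1 := by
  unfold tau
  simp only [irr_central_mul hχ (t : Γ) (tor_central ι hι t h), OneMemClass.coe_one, one_mul]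
  rw [Finset.mul_sum, Finset.mul_sum, Finset.mul_sum]
  apply Finset.sum_congr rfl
  intro c _
  ring

omit [DecidableEq F] in
include hι in
theorem tau_central_norm (χ : Γ → ℂ) (hχ : IsIrrCharacter Γ χ) (t : Tor ι)
    (h : ta ι t = td ι t) :
    tau ι hSL χ t * (starRingEnd ℂ) (tau ι hSL χ t) =
      tau ι hSL χ 1 * (starRingEnd ℂ) (tau ι hSL χ 1) := by
  rw [tau_central ι hSL hι χ hχ t h]
  have h0 := Cfsg.Agent.Lib.Helper83Char.irr_one_ne_zero hχ
  have h1 := irr_central_norm hχ (t : Γ) (tor_central ι hι t h)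
  obtain ⟨n, _, hn⟩ := Cfsg.Agent.Lib.Helper83Char.irr_one hχ
  have h2 : (starRingEnd ℂ) (χ 1) = χ 1 := by rw [hn]; simp
  rw [map_mul, map_div₀, h2]
  field_simp
  linear_combination (tau ι hSL χ 1 * (starRingEnd ℂ) (tau ι hSL χ 1)) * h1

include hι in
/-- the master identity, complex form -/
theorem master_complex [Fintype (Tor ι)] (ψ : AddChar F ℂ) (hψ : ψ.IsPrimitive) (χ : Γ → ℂ)
    (hχ : IsIrrCharacter Γ χ) :
    (Nat.card Γ : ℂ) = ∑ γ : Γ, (if pif ι γ = 0 then χ γ * (starRingEnd ℂ) (χ γ) else 0) +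
      ((Fintype.card F : ℂ) + 1) * ((nZ ι : ℂ) * (χ 1 ^ 2 / ((Fintype.card F : ℂ) + 1) +
        ((Fintype.card F : ℂ) * (∑ a : F, mm ι hSL ψ χ a * (starRingEnd ℂ) (mm ι hSL ψ χ a))
          - χ 1 ^ 2) -
        (Fintype.card F : ℂ) / 2 * (tau ι hSL χ 1 * (starRingEnd ℂ) (tau ι hSL χ 1))) +
        (Fintype.card F : ℂ) / 2 *
          ((Nat.card (Tor ι) : ℂ) * classInner (tau ι hSL χ) (tau ι hSL χ))) := by
  have hcl := IsIrrCharacter.isClassFunction hχ
  have hq : (Fintype.card F : ℂ) ≠ 0 := by exact_mod_cast Fintype.card_ne_zero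
  have hq1 : (Fintype.card F : ℂ) + 1 ≠ 0 := by
    exact_mod_cast Nat.succ_ne_zero (Fintype.card F)
  have hG : (Nat.card Γ : ℂ) ≠ 0 := by exact_mod_cast Nat.card_pos.ne'
  have hT : (Nat.card (Tor ι) : ℂ) ≠ 0 := by exact_mod_cast Nat.card_pos.ne'
  have h0 : ∑ γ : Γ, χ γ * (starRingEnd ℂ) (χ γ) = (Nat.card Γ : ℂ) := by
    have := classInner_irr_self hχ
    unfold classInner at this
    field_simp at this
    exact this
  have hfcl : IsClassFunction Γ (fun γ => χ γ * (starRingEnd ℂ) (χ γ)) := by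
    intro g h
    simp only [hcl g h]
  obtain ⟨n, _, hn⟩ := Cfsg.Agent.Lib.Helper83Char.irr_one hχ
  have hconj1 : (starRingEnd ℂ) (χ 1) = χ 1 := by rw [hn]; simp
  rw [← h0, sum_decomp ι hSL hι _ hfcl]
  congr 2
  set S := ∑ a : F, mm ι hSL ψ χ a * (starRingEnd ℂ) (mm ι hSL ψ χ a) with hS
  set T1 := tau ι hSL χ 1 * (starRingEnd ℂ) (tau ι hSL χ 1) with hT1
  have hin : ∀ t : Tor ι, ∑ c : F, χ ((t : Γ) * uu ι hSL c) *
      (starRingEnd ℂ) (χ ((t : Γ) * uu ι hSL c)) / pif ι ((t : Γ) * uu ι hSL c) =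
      (if ta ι t = td ι t then (χ 1 ^ 2 / ((Fintype.card F : ℂ) + 1) +
        ((Fintype.card F : ℂ) * S - χ 1 ^ 2) - (Fintype.card F : ℂ) / 2 * T1) else 0) +
      (Fintype.card F : ℂ) / 2 * (tau ι hSL χ t * (starRingEnd ℂ) (tau ι hSL χ t)) := by
    intro t
    split_ifs with h
    · rw [tau_central_norm ι hSL hι χ hχ t h, ← hT1]
      simp only [irr_central_mul_norm hχ (t : Γ) (tor_central ι hι t h), pif_tu_eq ι hSL t _ h]
      have h2 : ∀ c : F, χ (uu ι hSL c) * (starRingEnd ℂ) (χ (uu ι hSL c)) /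
          (if c = 0 then (Fintype.card F : ℂ) + 1 else 1) =
          χ (uu ι hSL c) * (starRingEnd ℂ) (χ (uu ι hSL c)) +
          (if c = 0 then χ 1 ^ 2 / ((Fintype.card F : ℂ) + 1) - χ 1 ^ 2 else 0) := by
        intro c
        split_ifs with hc
        · subst hc
          rw [uu_zero ι hSL hι, hconj1]
          ring
        · simp
      simp only [h2]
      rw [Finset.sum_add_distrib, mm_parseval ι hSL ψ hψ χ, Finset.sum_ite_eq' Finset.univ (0 : F)]
      simp only [Finset.mem_univ, if_true]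
      ring
    · rw [tau_ne ι hSL hι χ hcl t h]
      simp only [chi_tu_ne ι hSL hι χ hcl t _ h, pif_tu_ne ι hSL hι t _ h, Finset.sum_const,
        Finset.card_univ, nsmul_eq_mul]
      ring
  simp only [hin]
  rw [Finset.sum_add_distrib, ← Finset.mul_sum, ← Finset.sum_filter, Finset.sum_const,
    nsmul_eq_mul]
  congr 2
  unfold classInner
  field_simp

include hι in
/-- the master identity with natural number parameters -/
theorem master_nat [Fintype (Tor ι)] (ψ : AddChar F ℂ) (hψ : ψ.IsPrimitive) (χ : Γ → ℂ)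
    (hχ : IsIrrCharacter Γ χ) :
    ∃ (N m0 : ℕ) (n : F → ℕ) (E : ℝ), 0 ≤ E ∧
      classInner (tau ι hSL χ) (tau ι hSL χ) = N ∧ tau ι hSL χ 1 = m0 ∧ n 0 = m0 ∧ m0 ≤ N ∧
      N ≤ m0 ^ 2 ∧ (m0 = 0 → tau ι hSL χ = 0) ∧ (∀ a, mm ι hSL ψ χ a = n a) ∧
      χ 1 = ((∑ a, n a : ℕ) : ℂ) ∧ (E = 0 → ∀ γ, pif ι γ = 0 → χ γ = 0) ∧
      2 * ((Fintype.card F : ℝ) + 1) * (Nat.card (Tor ι) : ℝ) * (Fintype.card F : ℝ) =
        2 * E + 2 * (nZ ι : ℝ) * ((∑ a, n a : ℕ) : ℝ) ^ 2 +
        ((Fintype.card F : ℝ) + 1) * (nZ ι : ℝ) *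
          (2 * (Fintype.card F : ℝ) * ((∑ a, (n a) ^ 2 : ℕ) : ℝ) - 2 * ((∑ a, n a : ℕ) : ℝ) ^ 2 -
            (Fintype.card F : ℝ) * (m0 : ℝ) ^ 2) +
        ((Fintype.card F : ℝ) + 1) * (Fintype.card F : ℝ) * (Nat.card (Tor ι) : ℝ) * (N : ℝ) := by
  have hchar := IsIrrCharacter.isCharacter hχ
  have := tor_isMulCommutative ι hι
  obtain ⟨N, m0, hN, hm0, h1, h2, h3⟩ :=
    abelian_char_numerics (tau ι hSL χ) (tau_isCharacter ι hSL hι χ hchar)
  choose n hn using mm_nat ι hSL hι ψ χ hchar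
  have hX : χ 1 = ((∑ a, n a : ℕ) : ℂ) := by
    rw [mm_sum ι hSL hι ψ hψ χ]
    push_cast
    exact Finset.sum_congr rfl (fun a _ => hn a)
  refine ⟨N, m0, n, ∑ γ : Γ, (if pif ι γ = 0 then ‖χ γ‖ ^ 2 else 0), ?_, hN, hm0, ?_, h1, h2, h3,
    hn, hX, ?_, ?_⟩
  · apply Finset.sum_nonneg
    intro γ _
    split_ifs
    · positivity
    · exact le_refl _
  · have := mm_zero ι hSL ψ χ
    rw [hn, hm0] at this
    exact_mod_cast this
  · intro hE γ hγ
    have hnn : ∀ γ ∈ (Finset.univ : Finset Γ), 0 ≤ (if pif ι γ = 0 then ‖χ γ‖ ^ 2 else 0) := by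
      intro γ _
      split_ifs
      · positivity
      · exact le_refl _
    have := (Finset.sum_eq_zero_iff_of_nonneg hnn).mp hE γ (Finset.mem_univ γ)
    rw [if_pos hγ] at this
    have h4 : ‖χ γ‖ = 0 := pow_eq_zero_iff (two_ne_zero) |>.mp this
    exact norm_eq_zero.mp h4
  · have key := master_complex ι hSL hι ψ hψ χ hχ
    have hE : ∑ γ : Γ, (if pif ι γ = 0 then χ γ * (starRingEnd ℂ) (χ γ) else 0) =
        ((∑ γ : Γ, (if pif ι γ = 0 then ‖χ γ‖ ^ 2 else 0) : ℝ) : ℂ) := by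
      push_cast
      apply Finset.sum_congr rfl
      intro γ _
      split_ifs
      · rw [Complex.mul_conj, Complex.normSq_eq_norm_sq]
      · rfl
    have hS : ∑ a : F, mm ι hSL ψ χ a * (starRingEnd ℂ) (mm ι hSL ψ χ a) =
        ((∑ a, (n a) ^ 2 : ℕ) : ℂ) := by
      push_cast
      apply Finset.sum_congr rfl
      intro a _
      rw [hn a, Complex.conj_natCast]
      ring
    rw [hE, hS, hX, hm0, hN, Complex.conj_natCast, card_Gam ι hSL hι] at key
    set E : ℝ := ∑ γ : Γ, (if pif ι γ = 0 then ‖χ γ‖ ^ 2 else 0) with hEdef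
    have key2 : (((Fintype.card F + 1) * (Nat.card (Tor ι) * Fintype.card F) : ℕ) : ℝ) =
        E + ((Fintype.card F : ℝ) + 1) * ((nZ ι : ℝ) * (((∑ a, n a : ℕ) : ℝ) ^ 2 /
          ((Fintype.card F : ℝ) + 1) +
        ((Fintype.card F : ℝ) * ((∑ a, (n a) ^ 2 : ℕ) : ℝ) - ((∑ a, n a : ℕ) : ℝ) ^ 2) -
        (Fintype.card F : ℝ) / 2 * ((m0 : ℝ) * (m0 : ℝ))) +
        (Fintype.card F : ℝ) / 2 * ((Nat.card (Tor ι) : ℝ) * (N : ℝ))) := by
      apply Complex.ofReal_injective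
      push_cast
      push_cast at key
      linear_combination key
    have hq1 : (Fintype.card F : ℝ) + 1 ≠ 0 := by positivity
    have e : ((Fintype.card F : ℝ) + 1) * (((∑ a, n a : ℕ) : ℝ) ^ 2 /
        ((Fintype.card F : ℝ) + 1)) = ((∑ a, n a : ℕ) : ℝ) ^ 2 := by
      field_simp
    push_cast at key2 e ⊢
    linear_combination 2 * key2 + 2 * (nZ ι : ℝ) * e

end Cfsg.Agent.Lib.Helper44Master
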