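import Mathlib
import Cfsg.Agent.Lib.Helper44Master
import Cfsg.Agent.Lib.Helper44GL2

set_option autoImplicit false

namespace Cfsg.Agent.Lib.Helper44GL2Loc

open Matrix Cfsg Cfsg.Agent.Lib.Helper19Ind Cfsg.Agent.Lib.Helper44Ind Cfsg.Agent.Lib.Helper44P1
  Cfsg.Agent.Lib.Helper44B Cfsg.Agent.Lib.Helper44PS Cfsg.Agent.Lib.Helper44Ab
  Cfsg.Agent.Lib.Helper4Char Cfsg.Agent.Lib.Helper4Char4 Cfsg.Agent.Lib.Helper44Loc
  Cfsg.Agent.Lib.Helper44Master Cfsg.Agent.Lib.Helper44GL2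

variable {F : Type*} [Field F] [Fintype F] [DecidableEq F]

theorem nZ_G [Fintype (Tor (iG F))] : nZ (iG F) = Fintype.card F - 1 := by
  have h1 : ((nZ (iG F) : ℕ) : ℂ) = ((Fintype.card F - 1 : ℕ) : ℂ) := by
    unfold nZ
    rw [Finset.card_filter]
    push_cast
    rw [sum_Tor (fun x y => if x = y then (1 : ℂ) else 0)]
    have : ∀ x : Fˣ, ∑ y : Fˣ, (if (x : F) = (y : F) then (1 : ℂ) else 0) = 1 := by
      intro x
      have h2 : ∀ y : Fˣ, ((x : F) = (y : F)) ↔ x = y := fun y => Units.val_inj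
      simp only [h2]
      rw [Finset.sum_ite_eq Finset.univ x]
      simp
    simp only [this]
    rw [Finset.sum_const, Finset.card_univ, Fintype.card_units]
    simp
  exact_mod_cast h1

/-- the master identity for `GL₂` -/
theorem gl2_master [Fintype (Tor (iG F))] (χ : GL (Fin 2) F → ℂ) (hχ : IsIrrCharacter (GL (Fin 2) F) χ) :
    ∃ (N m0 m1 : ℕ),
      classInner (tau (iG F) hSL_G χ) (tau (iG F) hSL_G χ) = N ∧ tau (iG F) hSL_G χ 1 = m0 ∧
      m0 ≤ N ∧ N ≤ m0 ^ 2 ∧ (m0 = 0 → tau (iG F) hSL_G χ = 0) ∧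
      χ 1 = (m0 : ℂ) + ((Fintype.card F : ℂ) - 1) * m1 ∧
      (∀ c : F, c ≠ 0 → χ (uu (iG F) hSL_G c) = (m0 : ℂ) - m1) ∧
      ((m0 : ℤ) - 2 * m1) ^ 2 + ((Fintype.card F : ℤ) + 1) * N ≤ 2 * ((Fintype.card F : ℤ) + 1) ∧
      (((m0 : ℤ) - 2 * m1) ^ 2 + ((Fintype.card F : ℤ) + 1) * N = 2 * ((Fintype.card F : ℤ) + 1) →
        ∀ γ, pif (iG F) γ = 0 → χ γ = 0) := by
  set ψ := AddChar.FiniteField.primitiveChar_to_Complex F with hψdef
  have hψ : ψ.IsPrimitive := AddChar.FiniteField.primitiveChar_to_Complex_isPrimitive F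
  obtain ⟨N, m0, n, E, hE, hN, hm0, hn0, h1, h2, h3, hn, hX, hE0, key⟩ :=
    master_nat (iG F) hSL_G hι_G ψ hψ χ hχ
  have hcl := IsIrrCharacter.isClassFunction hχ
  -- all nonzero coefficients agree
  have hna : ∀ a : F, a ≠ 0 → n a = n 1 := by
    intro a ha
    obtain ⟨t, ht⟩ := tor_bijective.2 ((1 : Fˣ), Units.mk0 a ha)
    have e1 : ta (iG F) t = 1 := congrArg (fun p : Fˣ × Fˣ => (p.1 : F)) ht
    have e2 : td (iG F) t = a := congrArg (fun p : Fˣ × Fˣ => (p.2 : F)) ht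
    have := mm_smul (iG F) hSL_G hι_G ψ χ hcl t 1
    rw [e1, e2, div_one, one_mul, hn, hn] at this
    exact_mod_cast this
  set m1 := n 1 with hm1
  have hq2 : 2 ≤ Fintype.card F := Fintype.one_lt_card
  have hnform : ∀ a : F, n a = if a = 0 then m0 else m1 := by
    intro a
    split_ifs with h
    · rw [h, hn0]
    · exact hna a h
  have hsum1 : ((∑ a, n a : ℕ) : ℝ) = (m0 : ℝ) + ((Fintype.card F : ℝ) - 1) * m1 := by
    push_cast
    have : ∀ a : F, (n a : ℝ) = (m1 : ℝ) + (if a = 0 then (m0 : ℝ) - m1 else 0) := by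
      intro a
      rw [hnform a]
      split_ifs <;> simp
    simp only [this]
    rw [Finset.sum_add_distrib, Finset.sum_ite_eq' Finset.univ (0 : F)]
    simp
    ring
  have hsum2 : ((∑ a, (n a) ^ 2 : ℕ) : ℝ) = (m0 : ℝ) ^ 2 + ((Fintype.card F : ℝ) - 1) * (m1 : ℝ) ^ 2 := by
    push_cast
    have : ∀ a : F, (n a : ℝ) ^ 2 = (m1 : ℝ) ^ 2 + (if a = 0 then (m0 : ℝ) ^ 2 - (m1 : ℝ) ^ 2 else 0) := by
      intro a
      rw [hnform a]
      split_ifs <;> simp
    simp only [this]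
    rw [Finset.sum_add_distrib, Finset.sum_ite_eq' Finset.univ (0 : F)]
    simp
    ring
  rw [hsum1, hsum2, card_Tor, nZ_G] at key
  have hqc : ((Fintype.card F - 1 : ℕ) : ℝ) = (Fintype.card F : ℝ) - 1 := by
    rw [Nat.cast_sub (by omega)]; simp
  rw [Nat.cast_pow, hqc] at key
  set q : ℝ := (Fintype.card F : ℝ) with hq
  have hq2' : (2 : ℝ) ≤ q := by rw [hq]; exact_mod_cast hq2
  have key2 : 2 * E = q * (q - 1) ^ 2 *
      (2 * (q + 1) - ((m0 : ℝ) - 2 * m1) ^ 2 - (q + 1) * N) := by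
    linear_combination -key
  have hpos : 0 < q * (q - 1) ^ 2 := by
    have : 0 < q - 1 := by linarith
    positivity
  refine ⟨N, m0, m1, hN, hm0, h1, h2, h3, ?_, ?_, ?_, ?_⟩
  · rw [hX]
    have := congrArg (fun x : ℝ => (x : ℂ)) hsum1
    push_cast at this ⊢
    rw [this, hq]
    push_cast
    rfl
  · intro c hc
    rw [mm_inversion (iG F) hSL_G ψ hψ χ c]
    have : ∀ a : F, mm (iG F) hSL_G ψ χ a * ψ (a * c) =
        (m1 : ℂ) * ψ (a * c) + (if a = 0 then (m0 : ℂ) - m1 else 0) := by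
      intro a
      rw [hn a, hnform a]
      split_ifs with h
      · subst h
        simp
      · simp
    simp only [this]
    rw [Finset.sum_add_distrib, Finset.sum_ite_eq' Finset.univ (0 : F), ← Finset.mul_sum,
      AddChar.sum_mulShift c hψ, if_neg hc]
    simp
  · have h5 : 0 ≤ 2 * (q + 1) - ((m0 : ℝ) - 2 * m1) ^ 2 - (q + 1) * N := by
      by_contra hneg
      push Not at hneg
      have := mul_neg_of_pos_of_neg hpos hneg
      linarith
    have h6 : ((((m0 : ℤ) - 2 * m1) ^ 2 + ((Fintype.card F : ℤ) + 1) * N : ℤ) : ℝ) ≤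
        ((2 * ((Fintype.card F : ℤ) + 1) : ℤ) : ℝ) := by
      push_cast
      linarith
    exact_mod_cast h6
  · intro heq
    apply hE0
    have h6 : ((((m0 : ℤ) - 2 * m1) ^ 2 + ((Fintype.card F : ℤ) + 1) * N : ℤ) : ℝ) =
        ((2 * ((Fintype.card F : ℤ) + 1) : ℤ) : ℝ) := by
      rw [heq]
    push_cast at h6
    have h7 : 2 * (q + 1) - ((m0 : ℝ) - 2 * m1) ^ 2 - (q + 1) * N = 0 := by
      linarith
    rw [h7] at key2
    linarith

end Cfsg.Agent.Lib.Helper44GL2Loc
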