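import Mathlib
import Cfsg.Agent.Lib.Helper44PS
import Cfsg.Agent.S0148

set_option autoImplicit false

namespace Cfsg.Agent.Lib.Helper44SL2

open Matrix Cfsg Cfsg.Agent.Lib.Helper19Ind Cfsg.Agent.Lib.Helper44Ind Cfsg.Agent.Lib.Helper44P1
  Cfsg.Agent.Lib.Helper44B Cfsg.Agent.Lib.Helper44PS

variable {F : Type*} [Field F]

/-- the embedding of `SL₂` in `GL₂` -/
abbrev iS (F : Type*) [Field F] : SpecialLinearGroup (Fin 2) F →* GL (Fin 2) F :=
  Matrix.SpecialLinearGroup.toGL

theorem hSL_S : ∀ M : Matrix (Fin 2) (Fin 2) F, M.det = 1 →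
    ∃ γ : SpecialLinearGroup (Fin 2) F, mat (iS F) γ = M := by
  intro M hM
  exact ⟨⟨M, hM⟩, rfl⟩

theorem hι_S : Function.Injective (iS F) := Matrix.SpecialLinearGroup.toGL_injective

theorem ta_mul_td (t : Tor (iS F)) : ta (iS F) t * td (iS F) t = 1 := by
  have h : (mat (iS F) (t : SpecialLinearGroup (Fin 2) F)).det = 1 :=
    (t : SpecialLinearGroup (Fin 2) F).2
  rw [mat_tor, Matrix.det_fin_two_of] at h
  linear_combination h

theorem td_eq (t : Tor (iS F)) : td (iS F) t = (ta (iS F) t)⁻¹ :=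
  eq_inv_of_mul_eq_one_right (ta_mul_td t)

theorem tor_bijective : Function.Bijective (fun t : Tor (iS F) => (taU (iS F) t : Fˣ)) := by
  constructor
  · intro t t' h
    have h1 : ta (iS F) t = ta (iS F) t' := congrArg (fun p : Fˣ => (p : F)) h
    exact tor_ext (iS F) hι_S t t' h1 (by rw [td_eq, td_eq, h1])
  · intro x
    refine ⟨⟨⟨!![(x : F), 0; 0, ((x⁻¹ : Fˣ) : F)], by rw [Matrix.det_fin_two_of]; simp⟩,
      ⟨rfl, rfl⟩⟩, ?_⟩
    exact Units.ext rfl

theorem sum_Tor [Fintype F] [DecidableEq F] [Fintype (Tor (iS F))] (f : F → ℂ) :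
    ∑ t : Tor (iS F), f (ta (iS F) t) = ∑ x : Fˣ, f x := by
  rw [← Equiv.sum_comp (Equiv.ofBijective _ tor_bijective)]
  rfl

theorem card_Tor [Fintype F] [DecidableEq F] :
    Nat.card (Tor (iS F)) = Fintype.card F - 1 := by
  rw [Nat.card_congr (Equiv.ofBijective _ tor_bijective), Nat.card_eq_fintype_card,
    Fintype.card_units]

theorem q_sub_one_ne_zero [Fintype F] : (Fintype.card F : ℂ) - 1 ≠ 0 := by
  have : 1 < Fintype.card F := Fintype.one_lt_card
  intro h
  have h2 : (Fintype.card F : ℂ) = 1 := by linear_combination h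
  have h3 : Fintype.card F = 1 := by exact_mod_cast h2
  omega

theorem classInner_thetaT [Fintype F] [DecidableEq F] [Fintype (Tor (iS F))]
    (α α' : MulChar F ℂ) :
    classInner (thetaT (iS F) (fun x _ => α x)) (thetaT (iS F) (fun x _ => α' x)) =
      (if α = α' then 1 else 0) := by
  unfold classInner thetaT
  rw [sum_Tor (fun x => α x * (starRingEnd ℂ) (α' x)), card_Tor, sum_units_mulChar]
  have hq := q_sub_one_ne_zero (F := F)
  rw [Nat.cast_sub Fintype.card_pos, Nat.cast_one]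
  split_ifs <;> first | (field_simp; done) | simp

theorem thetaT_swap (α : MulChar F ℂ) :
    thetaT (iS F) (fun _ y => α y) = thetaT (iS F) (fun x _ => α⁻¹ x) := by
  funext t
  unfold thetaT
  simp only []
  rw [td_eq, MulChar.inv_apply']

theorem thetaT_isIrr_S (α : MulChar F ℂ) :
    IsIrrCharacter (Tor (iS F)) (thetaT (iS F) (fun x _ => α x)) := by
  have := thetaT_isIrr (iS F) α 1
  convert this using 1
  funext t
  unfold thetaT
  simp only []
  rw [MulChar.one_apply (isUnit_iff_ne_zero.mpr (td_ne_zero _ t)), mul_one]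

/-- the inducing function of the principal series of `SL₂` -/
theorem ps_eq [Fintype F] [DecidableEq F] (α : MulChar F ℂ) :
    Cfsg.indFun ((Cfsg.upperTriangularGL 2 F).comap Matrix.SpecialLinearGroup.toGL)
      (fun b => α (((b : SpecialLinearGroup (Fin 2) F) : Matrix (Fin 2) (Fin 2) F) 0 0)) =
    Cfsg.indFun (Bor (iS F)) (thetaB (iS F) (fun x _ => α x)) := rfl

theorem ps_isCharacter [Fintype F] [DecidableEq F] (α : MulChar F ℂ) :
    IsCharacter (SpecialLinearGroup (Fin 2) F)
      (Cfsg.indFun (Bor (iS F)) (thetaB (iS F) (fun x _ => α x))) :=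
  Cfsg.Agent.S0148.result _ _ (thetaB_isCharacter (iS F) hSL_S hι_S _
    (Cfsg.Agent.Lib.Helper4Char.IsIrrCharacter.isCharacter (thetaT_isIrr_S α)))

theorem ps_inner [Fintype F] [DecidableEq F] (α α' : MulChar F ℂ) :
    classInner (Cfsg.indFun (Bor (iS F)) (thetaB (iS F) (fun x _ => α x)))
      (Cfsg.indFun (Bor (iS F)) (thetaB (iS F) (fun x _ => α' x))) =
      (if α = α' then 1 else 0) + (if α = α'⁻¹ then 1 else 0) := by
  classical
  rw [classInner_ind_ind (iS F) hSL_S hι_S, classInner_thetaT, thetaT_swap, classInner_thetaT]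

end Cfsg.Agent.Lib.Helper44SL2
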