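import Mathlib
import Cfsg.Agent.Lib.Helper44Master
import Cfsg.Agent.S0148

set_option autoImplicit false

namespace Cfsg.Agent.Lib.Helper44St

open Matrix Cfsg Cfsg.Agent.Lib.Helper19Ind Cfsg.Agent.Lib.Helper44Ind Cfsg.Agent.Lib.Helper44P1
  Cfsg.Agent.Lib.Helper44B Cfsg.Agent.Lib.Helper44PS Cfsg.Agent.Lib.Helper44Ab
  Cfsg.Agent.Lib.Helper4Char Cfsg.Agent.Lib.Helper4Char4 Cfsg.Agent.Lib.Helper44Loc
  Cfsg.Agent.Lib.Helper44Master

/-- a character of degree one is irreducible -/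
theorem isIrr_of_degree_one {G : Type*} [Group G] (lam : G → ℂ) (h : IsCharacter G lam)
    (h1 : lam 1 = 1) : IsIrrCharacter G lam := by
  obtain ⟨n, ρ, rfl⟩ := h
  rw [Representation.char_one] at h1
  have h2 : Module.finrank ℂ (Fin n → ℂ) = 1 := by exact_mod_cast h1
  exact ⟨n, ρ, Cfsg.Agent.Lib.Helper82Linear.irreducible_of_finrank_eq_one ρ h2, rfl⟩

/-- removing an irreducible constituent -/
theorem sub_isCharacter {G : Type*} [Group G] [Fintype G] (Φ χ : G → ℂ) (hΦ : IsCharacter G Φ)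
    (hχ : IsIrrCharacter G χ) (h : classInner Φ χ ≠ 0) : IsCharacter G (Φ - χ) := by
  classical
  apply isCharacter_of_classInner_nat
    (IsClassFunction.sub (IsCharacter.isClassFunction hΦ) (IsIrrCharacter.isClassFunction hχ))
  intro ψ
  rw [classInner_sub_left, classInner_irr hχ ψ.2]
  obtain ⟨n, hn⟩ := IsCharacter.classInner_nat hΦ (IsIrrCharacter.isCharacter ψ.2)
  split_ifs with he
  · rw [← he] at hn
    rw [← he, hn]
    rw [hn] at h
    have hn0 : n ≠ 0 := by
      rintro rfl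
      simp at h
    refine ⟨n - 1, ?_⟩
    rw [Nat.cast_sub (Nat.one_le_iff_ne_zero.mpr hn0)]
    simp
  · exact ⟨n, by rw [hn]; simp⟩

theorem indFun_degree {G : Type*} [Group G] [Fintype G] (H : Subgroup G) (θ : H → ℂ) :
    indFun H θ 1 = (H.index : ℂ) * θ 1 := by
  rw [indFun_apply]
  have : ∀ x : G, extendByZero H θ (x⁻¹ * 1 * x) = θ 1 := by
    intro x
    rw [mul_one, inv_mul_cancel]
    exact extendByZero_coe H θ 1
  simp only [this, Finset.sum_const, Finset.card_univ, nsmul_eq_mul]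
  rw [← card_div_card_eq_index, Nat.card_eq_fintype_card (α := G)]
  ring

theorem indFun_eq_zero_of_one {G : Type*} [Group G] [Fintype G] (H : Subgroup G) (θ : H → ℂ)
    (g : G) (h : indFun H (fun _ => 1) g = 0) : indFun H θ g = 0 := by
  classical
  rw [indFun_apply] at h ⊢
  have hH : (Nat.card H : ℂ)⁻¹ ≠ 0 := inv_ne_zero (Cfsg.Agent.Lib.Helper19Ind.card_ne_zero H)
  have h1 := (mul_eq_zero.mp h).resolve_left hH
  have h2 : ∀ x : G, extendByZero H (fun _ => (1 : ℂ)) (x⁻¹ * g * x) =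
      if x⁻¹ * g * x ∈ H then 1 else 0 := by
    intro x
    split_ifs with hx
    · rw [extendByZero_of_mem _ _ hx]
    · rw [extendByZero_of_not_mem _ _ hx]
  simp only [h2] at h1
  rw [Finset.sum_boole] at h1
  have h3 : (Finset.univ.filter (fun x : G => x⁻¹ * g * x ∈ H)).card = 0 := by exact_mod_cast h1
  rw [Finset.card_eq_zero] at h3
  have h4 : ∀ x : G, x⁻¹ * g * x ∉ H := by
    intro x hx
    have : x ∈ Finset.univ.filter (fun x : G => x⁻¹ * g * x ∈ H) := by simp [hx]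
    rw [h3] at this
    simp at this
  simp only [extendByZero_of_not_mem _ _ (h4 _)]
  simp

variable {F : Type*} [Field F] [Fintype F] [DecidableEq F] {Γ : Type*} [Group Γ] [Fintype Γ]
  (ι : Γ →* GL (Fin 2) F)
variable (hSL : ∀ M : Matrix (Fin 2) (Fin 2) F, M.det = 1 → ∃ γ : Γ, mat ι γ = M)
variable (hι : Function.Injective ι)

/-- the principal series character attached to the Jacquet character of `χ` -/
noncomputable def Phi (χ : Γ → ℂ) : Γ → ℂ :=
  indFun (Bor ι) (fun b => tau ι hSL χ (pr ι hSL hι b))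

theorem Phi_isCharacter (χ : Γ → ℂ) (hχ : IsCharacter Γ χ) : IsCharacter Γ (Phi ι hSL hι χ) :=
  Cfsg.Agent.S0148.result _ _ (IsCharacter.comp (pr ι hSL hι) (tau_isCharacter ι hSL hι χ hχ))

theorem Phi_inner [Fintype (Tor ι)] (χ : Γ → ℂ) (hχ : IsClassFunction Γ χ) :
    classInner (Phi ι hSL hι χ) χ = classInner (tau ι hSL χ) (tau ι hSL χ) := by
  classical
  have : Fintype (Bor ι) := Fintype.ofFinite _
  unfold Phi
  rw [Cfsg.Agent.Lib.Helper32Ind.frobenius _ _ _ hχ, classInner_Bor_gen ι hSL hι]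

theorem Phi_degree (χ : Γ → ℂ) :
    Phi ι hSL hι χ 1 = ((Fintype.card F : ℂ) + 1) * tau ι hSL χ 1 := by
  unfold Phi
  rw [indFun_degree, index_Bor ι hSL, map_one]
  push_cast
  rfl

theorem Phi_elliptic (χ : Γ → ℂ) (γ : Γ) (h : pif ι γ = 0) : Phi ι hSL hι χ γ = 0 := by
  unfold Phi
  apply indFun_eq_zero_of_one
  rw [← pif_eq]
  exact h

/-- an irreducible character of degree `q` with a one-dimensional space of `U`-invariants is a
principal series character minus a linear character -/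
theorem steinberg_like (χ : Γ → ℂ) (hχ : IsIrrCharacter Γ χ) (h0 : tau ι hSL χ 1 = 1)
    (hdeg : χ 1 = (Fintype.card F : ℂ)) :
    IsIrrCharacter (Tor ι) (tau ι hSL χ) ∧
    ∃ lam : Γ → ℂ, IsIrrCharacter Γ lam ∧ lam 1 = 1 ∧ Phi ι hSL hι χ = χ + lam := by
  classical
  have : Fintype (Tor ι) := Fintype.ofFinite _
  have hchar := IsIrrCharacter.isCharacter hχ
  have hτ : IsIrrCharacter (Tor ι) (tau ι hSL χ) :=
    isIrr_of_degree_one _ (tau_isCharacter ι hSL hι χ hchar) h0
  refine ⟨hτ, Phi ι hSL hι χ - χ, ?_, ?_, ?_⟩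
  · apply isIrr_of_degree_one
    · apply sub_isCharacter _ _ (Phi_isCharacter ι hSL hι χ hchar) hχ
      rw [Phi_inner ι hSL hι χ (IsIrrCharacter.isClassFunction hχ), classInner_irr_self hτ]
      exact one_ne_zero
    · rw [Pi.sub_apply, Phi_degree, h0, hdeg]
      ring
  · rw [Pi.sub_apply, Phi_degree, h0, hdeg]
    ring
  · ring

end Cfsg.Agent.Lib.Helper44St
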