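import Mathlib
import Cfsg.Agent.Lib.Helper6SL

set_option autoImplicit false

namespace Cfsg.Agent.Lib.Helper45SLGen

open Matrix Matrix.SpecialLinearGroup
open scoped commutatorElement

variable {K : Type*} [Field K] {n : ℕ}

/-- the sign attached to column `j` of the cyclic monomial matrix. -/
def eps (K : Type*) [Field K] (n : ℕ) (j : Fin (n + 1)) : K := if j = 0 then (-1) ^ n else 1

theorem eps_mul_self (j : Fin (n + 1)) : eps K n j * eps K n j = 1 := by
  unfold eps
  split_ifs
  · rw [← mul_pow]; simp
  · simp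

/-- the cyclic monomial matrix. -/
def wMat (K : Type*) [Field K] (n : ℕ) : Matrix (Fin (n + 1)) (Fin (n + 1)) K :=
  Matrix.of (fun i j => if j.val = i.val + 1 then 1 else if i.val = n ∧ j.val = 0 then (-1) ^ n else 0)

theorem wMat_apply (i j : Fin (n + 1)) :
    wMat K n i j = if j = i + 1 then eps K n j else 0 := by
  unfold wMat eps
  simp only [Matrix.of_apply]
  rcases Nat.lt_or_ge i.val n with h | h
  · have h1 : (i + 1).val = i.val + 1 := Fin.val_add_one_of_lt' (by omega)
    by_cases hj : j.val = i.val + 1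
    · have hj' : j = i + 1 := Fin.ext (by rw [h1, hj])
      have hj0 : j ≠ 0 := by
        intro h0
        rw [h0] at hj
        simp at hj
      rw [if_pos hj, if_pos hj', if_neg hj0]
    · have hj' : j ≠ i + 1 := fun hh => hj (by rw [hh, h1])
      have : ¬ (i.val = n ∧ j.val = 0) := fun hh => by omega
      rw [if_neg hj, if_neg hj', if_neg this]
  · have hi : i = Fin.last n := Fin.ext (by have := i.2; simp; omega)
    subst hi
    have hj : j.val ≠ (Fin.last n).val + 1 := by have := j.2; simp; omega
    rw [if_neg hj, Fin.last_add_one]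
    by_cases h0 : j = 0
    · simp [h0]
    · have : j.val ≠ 0 := fun hh => h0 (Fin.ext hh)
      simp [h0, this]

theorem transvection_mul_wMat (i j : Fin (n + 1)) (c : K) :
    Matrix.transvection i j c * wMat K n =
      wMat K n * Matrix.transvection (i + 1) (j + 1) (eps K n (i + 1) * eps K n (j + 1) * c) := by
  unfold Matrix.transvection
  rw [add_mul, mul_add, one_mul, mul_one]
  congr 1
  ext a b
  by_cases ha : a = i
  · subst ha
    rw [single_mul_apply_same]
    by_cases hb : b = j + 1
    · subst hb
      rw [mul_single_apply_same, wMat_apply, wMat_apply, if_pos rfl, if_pos rfl]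
      have := eps_mul_self (K := K) (a + 1)
      linear_combination (-(eps K n (j + 1) * c)) * this
    · rw [mul_single_apply_of_ne _ _ _ _ _ hb, wMat_apply, if_neg hb, mul_zero]
  · rw [single_mul_apply_of_ne _ _ _ _ _ ha]
    by_cases hb : b = j + 1
    · subst hb
      rw [mul_single_apply_same, wMat_apply, if_neg (fun h => ha (add_right_cancel h).symm), zero_mul]
    · rw [mul_single_apply_of_ne _ _ _ _ _ hb]

theorem wMat_mul_diagonal (δ : Fin (n + 1) → K) :
    wMat K n * Matrix.diagonal δ = Matrix.diagonal (fun i => δ (i + 1)) * wMat K n := by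
  ext a b
  rw [Matrix.mul_diagonal, Matrix.diagonal_mul, wMat_apply]
  split_ifs with h
  · rw [h, mul_comm]
  · simp

theorem diagonal_mul_transvection (δ : Fin (n + 1) → K) (i j : Fin (n + 1)) (a : K) :
    Matrix.diagonal δ * Matrix.transvection i j (δ j * a) =
      Matrix.transvection i j (δ i * a) * Matrix.diagonal δ := by
  unfold Matrix.transvection
  rw [add_mul, mul_add, one_mul, mul_one]
  congr 1
  ext x y
  rw [Matrix.mul_diagonal, Matrix.diagonal_mul]
  simp only [single_apply]
  split_ifs with h
  · obtain ⟨rfl, rfl⟩ := h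
    ring
  · simp

section gen

variable (H : Subgroup (SpecialLinearGroup (Fin (n + 1)) K))

/-- all elementary transvections at position `(i, j)` lie in `H`. -/
def Q (i j : Fin (n + 1)) : Prop :=
  ∀ (h : i ≠ j) (c : K), SpecialLinearGroup.transvection h c ∈ H

variable {H}

theorem Q_shift (w : SpecialLinearGroup (Fin (n + 1)) K) (hw : (w : Matrix _ _ K) = wMat K n)
    (hwH : w ∈ H) {i j : Fin (n + 1)} (h : Q H i j) : Q H (i + 1) (j + 1) := by
  intro hne c
  have hij : i ≠ j := fun e => hne (by rw [e])
  have e : SpecialLinearGroup.transvection hne c =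
      w⁻¹ * SpecialLinearGroup.transvection hij (eps K n (i + 1) * eps K n (j + 1) * c) * w := by
    rw [mul_assoc, eq_inv_mul_iff_mul_eq]
    apply Subtype.ext
    have := transvection_mul_wMat (K := K) i j (eps K n (i + 1) * eps K n (j + 1) * c)
    have e2 : eps K n (i + 1) * eps K n (j + 1) * (eps K n (i + 1) * eps K n (j + 1) * c) = c := by
      have h1 := eps_mul_self (K := K) (i + 1)
      have h2 := eps_mul_self (K := K) (j + 1)
      linear_combination (eps K n (j + 1) * eps K n (j + 1) * c) * h1 + c * h2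
    rw [e2] at this
    simp only [coe_mul, hw]
    exact this.symm
  rw [e]
  exact mul_mem (mul_mem (inv_mem hwH) (h hij _)) hwH

theorem Q_trans {i j l : Fin (n + 1)} (hij : i ≠ j) (hjl : j ≠ l) (h1 : Q H i j) (h2 : Q H j l) :
    Q H i l := by
  intro hil c
  have := Cfsg.Agent.Lib.Helper6SL.commutator_transvection hil hij hjl c (1 : K)
  rw [mul_one] at this
  rw [← this, commutatorElement_def]
  exact mul_mem (mul_mem (mul_mem (h1 hij c) (h2 hjl 1)) (inv_mem (h1 hij c))) (inv_mem (h2 hjl 1))

theorem Q_all (hn : 1 ≤ n) (w : SpecialLinearGroup (Fin (n + 1)) K)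
    (hw : (w : Matrix _ _ K) = wMat K n) (hwH : w ∈ H) (h01 : Q H 0 1) (i j : Fin (n + 1)) :
    Q H i j := by
  have h10 : (1 : Fin (n + 1)) ≠ 0 := by
    intro h
    have := congrArg Fin.val h
    rw [Fin.val_one', Fin.val_zero] at this
    have h2 : 1 % (n + 1) = 1 := Nat.mod_eq_of_lt (by omega)
    omega
  have step1' : ∀ k : Fin (n + 1), Q H k (k + 1) := by
    intro k
    induction k using Fin.induction with
    | zero => simpa using h01
    | succ k ih =>
      have := Q_shift w hw hwH ih
      rwa [Fin.coeSucc_eq_succ] at this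
  have step2 : ∀ d : ℕ, ∀ k : Fin (n + 1), Q H k (k + (d + 1) • (1 : Fin (n + 1))) := by
    intro d
    induction d with
    | zero => intro k; simpa using step1' k
    | succ d ih =>
      intro k
      rw [succ_nsmul, ← add_assoc]
      by_cases hk : k = k + (d + 1) • (1 : Fin (n + 1))
      · rw [← hk]; exact step1' k
      · refine Q_trans hk ?_ (ih k) (step1' _)
        intro h
        exact h10 (by simpa using h.symm)
  have hsm : ∀ x : Fin (n + 1), ∃ d : ℕ, x = d • (1 : Fin (n + 1)) := by
    intro x
    induction x using Fin.induction with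
    | zero => exact ⟨0, by simp⟩
    | succ k ih =>
      obtain ⟨d, hd⟩ := ih
      exact ⟨d + 1, by rw [succ_nsmul, ← hd, Fin.coeSucc_eq_succ]⟩
  intro hij
  obtain ⟨d, hd⟩ := hsm (j - i)
  have hd0 : d ≠ 0 := by
    rintro rfl
    rw [zero_nsmul] at hd
    exact hij (sub_eq_zero.1 hd).symm
  obtain ⟨d', rfl⟩ : ∃ d', d = d' + 1 := ⟨d - 1, by omega⟩
  have := step2 d' i
  rw [← hd, add_sub_cancel] at this
  exact this hij

theorem eq_top_of_Q (hn : 1 ≤ n) (w : SpecialLinearGroup (Fin (n + 1)) K)
    (hw : (w : Matrix _ _ K) = wMat K n) (hwH : w ∈ H) (h01 : Q H 0 1) : H = ⊤ := by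
  have : Nontrivial (Fin (n + 1)) := Fin.nontrivial_iff_two_le.2 (by omega)
  rw [eq_top_iff]
  intro A _
  exact Cfsg.Agent.Lib.Helper6SL.transvection_induction (fun A => A ∈ H)
    (fun i j h c => Q_all hn w hw hwH h01 i j h c) (fun _ _ => mul_mem) A

end gen

end Cfsg.Agent.Lib.Helper45SLGen
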