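import Cfsg.Agent.Lib.Helper46FH1

/-! The two-dimensional representations of the dihedral Hecke algebra and their Schur elements. -/

namespace Cfsg.Agent.Lib.Helper46FH3

open Cfsg.Agent.Lib.Helper46FH1

abbrev M2 := Matrix (Fin 2) (Fin 2) ℂ

section comm
variable {M : Type*} [CommMonoid M]

theorem pa_mul : ∀ (k : ℕ) (x y x' y' : M), pa (x * x') (y * y') k = pa x y k * pa x' y' k := by
  intro k
  induction k with
  | zero => intro x y x' y'; simp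
  | succ k ih => intro x y x' y'; rw [pa_succ, pa_succ, pa_succ, ih, mul_mul_mul_comm]

theorem pa_one_one : ∀ k : ℕ, pa (1 : M) 1 k = 1 := by
  intro k
  induction k with
  | zero => simp
  | succ k ih => rw [pa_succ, ih, mul_one]

theorem pa_comm_even (x y : M) {k : ℕ} (hk : Even k) : pa x y k = pa y x k := by
  obtain ⟨i, rfl⟩ := hk
  rw [← two_mul, pa_two_mul, pa_two_mul, mul_comm]

end comm

theorem pa_smul : ∀ (k : ℕ) (c d : ℂ) (X Y : M2), pa (c • X) (d • Y) k = pa c d k • pa X Y k := by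
  intro k
  induction k with
  | zero => intro c d X Y; simp
  | succ k ih => intro c d X Y; rw [pa_succ, pa_succ, pa_succ, ih, smul_mul_smul_comm]

section model
variable (x κ a1 ζ z : ℂ)

def t1 : M2 := !![x, 1; κ, a1 - x]
def t2 : M2 := !![(x - a1) * ζ, z; κ * ζ, - x * z]
def t1i : M2 := !![x - a1, 1; κ, - x]
def Rd : M2 := Matrix.diagonal ![ζ, z]

variable {x κ a1 ζ z} {a2 : ℂ}

theorem t1_sq (hκ : κ = 1 + x * (a1 - x)) : t1 x κ a1 * t1 x κ a1 = a1 • t1 x κ a1 + 1 := by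
  subst hκ
  ext i j
  fin_cases i <;> fin_cases j <;> simp [t1, Matrix.mul_apply, Fin.sum_univ_two] <;> ring

theorem t1i_mul (hκ : κ = 1 + x * (a1 - x)) : t1i x κ a1 * t1 x κ a1 = 1 := by
  subst hκ
  ext i j
  fin_cases i <;> fin_cases j <;> simp [t1, t1i, Matrix.mul_apply, Fin.sum_univ_two] <;> ring

theorem mul_t1i (hκ : κ = 1 + x * (a1 - x)) : t1 x κ a1 * t1i x κ a1 = 1 := by
  subst hκ
  ext i j
  fin_cases i <;> fin_cases j <;> simp [t1, t1i, Matrix.mul_apply, Fin.sum_univ_two] <;> ring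

theorem t1_t2 (hκ : κ = 1 + x * (a1 - x)) : t1 x κ a1 * t2 x κ a1 ζ z = Rd ζ z := by
  subst hκ
  ext i j
  fin_cases i <;> fin_cases j <;> simp [t1, t2, Rd, Matrix.mul_apply, Fin.sum_univ_two] <;> ring

theorem t2_sq (hκ : κ = 1 + x * (a1 - x)) (hz : ζ * z = 1) (hx : x * (ζ - z) = a2 + a1 * ζ) :
    t2 x κ a1 ζ z * t2 x κ a1 ζ z = a2 • t2 x κ a1 ζ z + 1 := by
  subst hκ
  have ha2 : a2 = x * (ζ - z) - a1 * ζ := by linear_combination -hx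
  subst ha2
  ext i j
  fin_cases i <;> fin_cases j <;> simp [t2, Matrix.mul_apply, Fin.sum_univ_two]
  · linear_combination hz
  · ring
  · ring
  · linear_combination hz

theorem Rd_pow (i : ℕ) : Rd ζ z ^ i = Matrix.diagonal ![ζ ^ i, z ^ i] := by
  unfold Rd
  rw [Matrix.diagonal_pow]
  congr 1
  ext j
  fin_cases j <;> simp

theorem A_even (hκ : κ = 1 + x * (a1 - x)) (i : ℕ) :
    pa (t1 x κ a1) (t2 x κ a1 ζ z) (2 * i) = Rd ζ z ^ i := by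
  rw [pa_two_mul, t1_t2 hκ]

theorem A_odd (hκ : κ = 1 + x * (a1 - x)) (i : ℕ) :
    pa (t1 x κ a1) (t2 x κ a1 ζ z) (2 * i + 1) = Rd ζ z ^ i * t1 x κ a1 := by
  rw [pa_two_mul_add_one, t1_t2 hκ]

theorem B_eq (hκ : κ = 1 + x * (a1 - x)) (k : ℕ) :
    pa (t2 x κ a1 ζ z) (t1 x κ a1) k = t1i x κ a1 * pa (t1 x κ a1) (t2 x κ a1 ζ z) (k + 1) := by
  rw [pa_succ, ← mul_assoc, t1i_mul hκ, one_mul]

theorem trA_even (hκ : κ = 1 + x * (a1 - x)) (i : ℕ) :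
    (pa (t1 x κ a1) (t2 x κ a1 ζ z) (2 * i)).trace = ζ ^ i + z ^ i := by
  rw [A_even hκ, Rd_pow, Matrix.trace_diagonal, Fin.sum_univ_two]
  simp

theorem trA_odd (hκ : κ = 1 + x * (a1 - x)) (i : ℕ) :
    (pa (t1 x κ a1) (t2 x κ a1 ζ z) (2 * i + 1)).trace = x * ζ ^ i + (a1 - x) * z ^ i := by
  rw [A_odd hκ, Rd_pow]
  simp [Matrix.trace, Fin.sum_univ_two, t1, Matrix.diagonal_mul]
  ring

theorem trB_even (hκ : κ = 1 + x * (a1 - x)) (i : ℕ) :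
    (pa (t2 x κ a1 ζ z) (t1 x κ a1) (2 * i)).trace = ζ ^ i + z ^ i := by
  rw [B_eq hκ, A_odd hκ, Matrix.trace_mul_comm, mul_assoc, mul_t1i hκ, mul_one, Rd_pow,
    Matrix.trace_diagonal, Fin.sum_univ_two]
  simp

theorem trB_odd (hκ : κ = 1 + x * (a1 - x)) (i : ℕ) :
    (pa (t2 x κ a1 ζ z) (t1 x κ a1) (2 * i + 1)).trace = (x - a1) * ζ ^ (i + 1) - x * z ^ (i + 1) := by
  have e : 2 * i + 1 + 1 = 2 * (i + 1) := by ring
  rw [B_eq hκ, e, A_even hκ, Rd_pow, Matrix.trace_mul_comm]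
  simp [Matrix.trace, Fin.sum_univ_two, t1i, Matrix.diagonal_mul]
  ring

theorem braid_even (hκ : κ = 1 + x * (a1 - x)) (hz : ζ * z = 1) {i : ℕ} (hζ : ζ ^ (2 * i) = 1) :
    pa (t1 x κ a1) (t2 x κ a1 ζ z) (2 * i) = pa (t2 x κ a1 ζ z) (t1 x κ a1) (2 * i) := by
  have h1 : z ^ i = ζ ^ i := by
    have h2 : ζ ^ i * z ^ i = 1 := by rw [← mul_pow, hz, one_pow]
    have h3 : ζ ^ i * ζ ^ i = 1 := by rw [← pow_add, ← two_mul, hζ]
    have h4 : ζ ^ i ≠ 0 := left_ne_zero_of_mul_eq_one h2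
    exact mul_left_cancel₀ h4 (h2.trans h3.symm)
  have h5 : Rd ζ z ^ i = ζ ^ i • (1 : M2) := by
    rw [Rd_pow, h1]
    ext a b
    fin_cases a <;> fin_cases b <;> simp
  rw [B_eq hκ, A_odd hκ, A_even hκ, h5, Matrix.smul_mul, one_mul, Matrix.mul_smul, t1i_mul hκ]

theorem braid_odd (hκ : κ = 1 + x * (a1 - x)) (hz : ζ * z = 1) (hx : x * (ζ - z) = a1 + a1 * ζ)
    (hne : ζ - z ≠ 0) {i : ℕ} (hζ : ζ ^ (2 * i + 1) = 1) :
    pa (t1 x κ a1) (t2 x κ a1 ζ z) (2 * i + 1) = pa (t2 x κ a1 ζ z) (t1 x κ a1) (2 * i + 1) := by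
  have h2 : ζ ^ i * z ^ i = 1 := by rw [← mul_pow, hz, one_pow]
  have h3 : ζ ^ (i + 1) = z ^ i := by
    have : ζ ^ i * ζ ^ (i + 1) = 1 := by rw [← pow_add, ← hζ]; congr 1; ring
    exact mul_left_cancel₀ (left_ne_zero_of_mul_eq_one h2) (this.trans h2.symm)
  have h4 : z ^ (i + 1) = ζ ^ i := by
    have h5 : ζ ^ (i + 1) * z ^ (i + 1) = 1 := by rw [← mul_pow, hz, one_pow]
    rw [h3] at h5
    rw [mul_comm] at h2
    exact mul_left_cancel₀ (left_ne_zero_of_mul_eq_one h2) (h5.trans h2.symm)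
  have hu : x * ζ ^ i + (a1 - x) * z ^ i = 0 := by
    apply mul_left_cancel₀ hne
    rw [mul_zero]
    have e1 : ζ * ζ ^ i = z ^ i := by rw [← pow_succ', h3]
    have e2 : z * z ^ i = ζ ^ i := by rw [← pow_succ', h4]
    linear_combination (ζ ^ i - z ^ i) * hx + a1 * e1 - a1 * e2
  have key : t1 x κ a1 * (Rd ζ z ^ i * t1 x κ a1) = Rd ζ z ^ (i + 1) := by
    rw [Rd_pow, Rd_pow, h3, h4]
    subst hκ
    ext a b
    fin_cases a <;> fin_cases b <;>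
      simp [t1, Matrix.mul_apply, Fin.sum_univ_two, Matrix.diagonal_apply]
    · linear_combination x * hu
    · linear_combination hu
    · linear_combination (1 + x * (a1 - x)) * hu
    · linear_combination (a1 - x) * hu
  have e : 2 * i + 1 + 1 = 2 * (i + 1) := by ring
  rw [B_eq hκ, e, A_even hκ, A_odd hκ, ← key, ← mul_assoc, t1i_mul hκ, one_mul]

theorem commutant (hκ : κ = 1 + x * (a1 - x)) (hne : ζ - z ≠ 0) (X : M2)
    (h1 : X * t1 x κ a1 = t1 x κ a1 * X) (h2 : X * t2 x κ a1 ζ z = t2 x κ a1 ζ z * X) :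
    ∃ c : ℂ, X = c • (1 : M2) := by
  have h3 : X * Rd ζ z = Rd ζ z * X := by
    rw [← t1_t2 hκ, ← mul_assoc, h1, mul_assoc, h2, mul_assoc]
  have e01 : X 0 1 = 0 := by
    have := congrFun (congrFun h3 0) 1
    simp [Rd, Matrix.mul_diagonal, Matrix.diagonal_mul] at this
    have h4 : (ζ - z) * X 0 1 = 0 := by linear_combination -this
    exact (mul_eq_zero.1 h4).resolve_left hne
  have e10 : X 1 0 = 0 := by
    have := congrFun (congrFun h3 1) 0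
    simp [Rd, Matrix.mul_diagonal, Matrix.diagonal_mul] at this
    have h4 : (ζ - z) * X 1 0 = 0 := by linear_combination this
    exact (mul_eq_zero.1 h4).resolve_left hne
  have e00 : X 0 0 = X 1 1 := by
    have := congrFun (congrFun h1 0) 1
    simp [t1, Matrix.mul_apply, Fin.sum_univ_two, e01] at this
    exact this
  refine ⟨X 0 0, ?_⟩
  ext a b
  fin_cases a <;> fin_cases b <;> simp [e01, e10, e00]

theorem geom_zero {y : ℂ} {n : ℕ} (h1 : y ^ n = 1) (h2 : y ≠ 1) : ∑ i ∈ Finset.range n, y ^ i = 0 := by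
  have := mul_neg_geom_sum y n
  rw [h1, sub_self] at this
  exact (mul_eq_zero.1 this).resolve_left (sub_ne_zero.2 h2.symm)

/-- the trace sequence. -/
noncomputable def Aseq (x κ a1 ζ z : ℂ) (k : ℕ) : ℂ := (pa (t1 x κ a1) (t2 x κ a1 ζ z) k).trace
noncomputable def Bseq (x κ a1 ζ z : ℂ) (k : ℕ) : ℂ := (pa (t2 x κ a1 ζ z) (t1 x κ a1) k).trace

theorem sum_A (hκ : κ = 1 + x * (a1 - x)) (hz : ζ * z = 1) {n : ℕ} (hζ : ζ ^ n = 1) (hζ2 : ζ ^ 2 ≠ 1) :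
    ∑ k ∈ Finset.range (2 * n), Aseq x κ a1 ζ z k ^ 2 = 2 * n * κ := by
  have h1 : ∀ N : ℕ, ∑ k ∈ Finset.range (2 * N), Aseq x κ a1 ζ z k ^ 2 =
      ∑ i ∈ Finset.range N, (Aseq x κ a1 ζ z (2 * i) ^ 2 + Aseq x κ a1 ζ z (2 * i + 1) ^ 2) := by
    intro N
    induction N with
    | zero => simp
    | succ N ih =>
      rw [Nat.mul_succ, Finset.sum_range_succ, Finset.sum_range_succ, ih, Finset.sum_range_succ]
      ring
  have hzn : z ^ n = 1 := by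
    have : ζ ^ n * z ^ n = 1 := by rw [← mul_pow, hz, one_pow]
    rwa [hζ, one_mul] at this
  have hz2 : z ^ 2 ≠ 1 := by
    intro h
    apply hζ2
    have : ζ ^ 2 * z ^ 2 = 1 := by rw [← mul_pow, hz, one_pow]
    rwa [h, mul_one] at this
  have g1 : ∑ i ∈ Finset.range n, (ζ ^ 2) ^ i = 0 :=
    geom_zero (by rw [← pow_mul, mul_comm, pow_mul, hζ, one_pow]) hζ2
  have g2 : ∑ i ∈ Finset.range n, (z ^ 2) ^ i = 0 :=
    geom_zero (by rw [← pow_mul, mul_comm, pow_mul, hzn, one_pow]) hz2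
  rw [h1]
  have h2 : ∀ i : ℕ, Aseq x κ a1 ζ z (2 * i) ^ 2 + Aseq x κ a1 ζ z (2 * i + 1) ^ 2 =
      (1 + x ^ 2) * (ζ ^ 2) ^ i + (1 + (a1 - x) ^ 2) * (z ^ 2) ^ i + 2 * κ := by
    intro i
    unfold Aseq
    rw [trA_even hκ, trA_odd hκ]
    have h3 : ζ ^ i * z ^ i = 1 := by rw [← mul_pow, hz, one_pow]
    rw [← pow_mul, ← pow_mul, mul_comm 2 i, pow_mul, pow_mul, hκ]
    linear_combination (2 + 2 * x * (a1 - x)) * h3
  simp only [h2]
  rw [Finset.sum_add_distrib, Finset.sum_add_distrib, ← Finset.mul_sum, ← Finset.mul_sum, g1, g2]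
  simp
  ring

theorem B_sq (hκ : κ = 1 + x * (a1 - x)) (hz : ζ * z = 1) {n : ℕ} (hζ : ζ ^ n = 1) {k : ℕ} (hk : k ≤ n) :
    Bseq x κ a1 ζ z k ^ 2 = Aseq x κ a1 ζ z (2 * n - k) ^ 2 := by
  have hzn : z ^ n = 1 := by
    have : ζ ^ n * z ^ n = 1 := by rw [← mul_pow, hz, one_pow]
    rwa [hζ, one_mul] at this
  have hsub : ∀ j ≤ n, ζ ^ (n - j) = z ^ j ∧ z ^ (n - j) = ζ ^ j := by
    intro j hj
    have h3 : ζ ^ j * z ^ j = 1 := by rw [← mul_pow, hz, one_pow]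
    constructor
    · have : ζ ^ j * ζ ^ (n - j) = 1 := by rw [← pow_add, Nat.add_sub_cancel' hj, hζ]
      exact mul_left_cancel₀ (left_ne_zero_of_mul_eq_one h3) (this.trans h3.symm)
    · have : z ^ j * z ^ (n - j) = 1 := by rw [← pow_add, Nat.add_sub_cancel' hj, hzn]
      rw [mul_comm] at h3
      exact mul_left_cancel₀ (left_ne_zero_of_mul_eq_one h3) (this.trans h3.symm)
  unfold Aseq Bseq
  rcases Nat.even_or_odd' k with ⟨i, rfl | rfl⟩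
  · have e : 2 * n - 2 * i = 2 * (n - i) := by omega
    rw [e, trA_even hκ, trB_even hκ, (hsub i (by omega)).1, (hsub i (by omega)).2]
    ring
  · have e : 2 * n - (2 * i + 1) = 2 * (n - (i + 1)) + 1 := by omega
    rw [e, trA_odd hκ, trB_odd hκ, (hsub (i + 1) (by omega)).1, (hsub (i + 1) (by omega)).2]
    ring

theorem sum_AB (hκ : κ = 1 + x * (a1 - x)) (hz : ζ * z = 1) {n : ℕ} (hn : 1 ≤ n) (hζ : ζ ^ n = 1)
    (hζ2 : ζ ^ 2 ≠ 1) :
    Aseq x κ a1 ζ z 0 ^ 2 + Aseq x κ a1 ζ z n ^ 2 +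
      ∑ k ∈ Finset.Ico 1 n, (Aseq x κ a1 ζ z k ^ 2 + Bseq x κ a1 ζ z k ^ 2) = 2 * n * κ := by
  rw [← sum_A hκ hz hζ hζ2, Finset.sum_add_distrib]
  have h1 : ∑ k ∈ Finset.Ico 1 n, Bseq x κ a1 ζ z k ^ 2 =
      ∑ k ∈ Finset.Ico (n + 1) (2 * n), Aseq x κ a1 ζ z k ^ 2 := by
    have := Finset.sum_Ico_reflect (fun k => Aseq x κ a1 ζ z k ^ 2) 1 (m := n) (n := 2 * n) (by omega)
    have e1 : 2 * n + 1 - n = n + 1 := by omega
    have e2 : 2 * n + 1 - 1 = 2 * n := by omega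
    rw [e1, e2] at this
    rw [← this]
    apply Finset.sum_congr rfl
    intro k hk
    rw [Finset.mem_Ico] at hk
    exact B_sq hκ hz hζ (by omega)
  rw [h1, Finset.range_eq_Ico, ← Finset.sum_Ico_consecutive _ (Nat.zero_le n) (by omega : n ≤ 2 * n),
    Finset.sum_eq_sum_Ico_succ_bot (by omega : 0 < n),
    Finset.sum_eq_sum_Ico_succ_bot (by omega : n < 2 * n)]
  ring

end model

/-- the weighted summands. -/
noncomputable def gA (l1 l2 : ℂ) (m1 m2 : M2) (k : ℕ) : ℂ :=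
  pa (l1 ^ 2) (l2 ^ 2) k * ((pa m1 m2 k).trace * (if Even k then pa m2 m1 k else pa m1 m2 k).trace)

theorem gA_eq {l1 l2 : ℂ} (hl1 : l1 ≠ 0) (hl2 : l2 ≠ 0) (T1 T2 : M2) (k : ℕ)
    (he : Even k → (pa T2 T1 k).trace = (pa T1 T2 k).trace) :
    gA l1 l2 (l1⁻¹ • T1) (l2⁻¹ • T2) k = (pa T1 T2 k).trace ^ 2 := by
  unfold gA
  have h1 : pa (l1 ^ 2) (l2 ^ 2) k * (pa l1⁻¹ l2⁻¹ k * pa l1⁻¹ l2⁻¹ k) = 1 := by
    rw [← pa_mul, ← pa_mul]
    have e1 : l1 ^ 2 * (l1⁻¹ * l1⁻¹) = 1 := by field_simp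
    have e2 : l2 ^ 2 * (l2⁻¹ * l2⁻¹) = 1 := by field_simp
    rw [e1, e2, pa_one_one]
  by_cases hk : Even k
  · rw [if_pos hk, pa_smul, pa_smul, Matrix.trace_smul, Matrix.trace_smul, he hk,
      pa_comm_even l2⁻¹ l1⁻¹ hk, smul_eq_mul]
    linear_combination (pa T1 T2 k).trace ^ 2 * h1
  · rw [if_neg hk, pa_smul, Matrix.trace_smul, smul_eq_mul]
    linear_combination (pa T1 T2 k).trace ^ 2 * h1

/-- **The model.** -/
theorem model (l1 l2 ζ : ℂ) (n : ℕ) (hl1 : l1 ≠ 0) (hl2 : l2 ≠ 0) (hn : 1 ≤ n) (hζn : ζ ^ n = 1)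
    (hζ2 : ζ ^ 2 ≠ 1) (hodd : Odd n → l1 = l2) :
    ∃ m1 m2 : M2,
      (l1 ^ 2 • (m1 * m1) = (l1 ^ 2 - 1) • m1 + 1) ∧ (l2 ^ 2 • (m2 * m2) = (l2 ^ 2 - 1) • m2 + 1) ∧
      pa m1 m2 n = pa m2 m1 n ∧
      (∀ X : M2, X * m1 = m1 * X → X * m2 = m2 * X → ∃ c : ℂ, X = c • (1 : M2)) ∧
      gA l1 l2 m1 m2 0 + gA l1 l2 m1 m2 n +
        ∑ k ∈ Finset.Ico 1 n, (gA l1 l2 m1 m2 k + gA l2 l1 m2 m1 k) =
      2 * n * (1 - ((l1 - l1⁻¹) ^ 2 + (l2 - l2⁻¹) ^ 2 + (l1 - l1⁻¹) * (l2 - l2⁻¹) * (ζ + ζ⁻¹)) /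
        (ζ - ζ⁻¹) ^ 2) := by
  have hζ0 : ζ ≠ 0 := by
    rintro rfl
    rw [zero_pow (by omega)] at hζn
    exact zero_ne_one hζn
  set z := ζ⁻¹ with hzdef
  have hz : ζ * z = 1 := mul_inv_cancel₀ hζ0
  have hne : ζ - z ≠ 0 := by
    intro h
    apply hζ2
    have : ζ = z := sub_eq_zero.1 h
    rw [pow_two]
    nth_rewrite 2 [this]
    exact hz
  set a1 := l1 - l1⁻¹ with ha1
  set a2 := l2 - l2⁻¹ with ha2
  set x := (a2 + a1 * ζ) / (ζ - z) with hxdef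
  have hx : x * (ζ - z) = a2 + a1 * ζ := by rw [hxdef]; field_simp
  set κ := 1 + x * (a1 - x) with hκ
  have hκ' : κ = 1 - (a1 ^ 2 + a2 ^ 2 + a1 * a2 * (ζ + z)) / (ζ - z) ^ 2 := by
    rw [hκ, hxdef]
    field_simp
    linear_combination (- a1 ^ 2) * hz
  refine ⟨l1⁻¹ • t1 x κ a1, l2⁻¹ • t2 x κ a1 ζ z, ?_, ?_, ?_, ?_, ?_⟩
  · rw [smul_mul_smul_comm, t1_sq hκ, smul_smul, smul_smul, smul_add, smul_smul]
    have e1 : l1 ^ 2 * (l1⁻¹ * l1⁻¹) = 1 := by field_simp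
    have e2 : (l1 ^ 2 - 1) * l1⁻¹ = a1 := by rw [ha1]; field_simp
    rw [e1, e2, one_mul, one_smul]
  · rw [smul_mul_smul_comm, t2_sq hκ hz hx, smul_smul, smul_smul, smul_add, smul_smul]
    have e1 : l2 ^ 2 * (l2⁻¹ * l2⁻¹) = 1 := by field_simp
    have e2 : (l2 ^ 2 - 1) * l2⁻¹ = a2 := by rw [ha2]; field_simp
    rw [e1, e2, one_mul, one_smul]
  · rw [pa_smul, pa_smul]
    rcases Nat.even_or_odd' n with ⟨i, rfl | rfl⟩
    · rw [braid_even hκ hz hζn, pa_comm_even _ _ (even_two_mul i)]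
    · have hl : l1 = l2 := hodd ⟨i, rfl⟩
      have ha : a2 = a1 := by rw [ha1, ha2, hl]
      rw [braid_odd hκ hz (by rw [hx, ha]) hne hζn, hl]
  · intro X h1 h2
    apply commutant hκ hne X
    · rw [Matrix.mul_smul, Matrix.smul_mul] at h1
      exact smul_right_injective _ (inv_ne_zero hl1) h1
    · rw [Matrix.mul_smul, Matrix.smul_mul] at h2
      exact smul_right_injective _ (inv_ne_zero hl2) h2
  · have hev : ∀ k, Even k → (pa (t2 x κ a1 ζ z) (t1 x κ a1) k).trace =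
        (pa (t1 x κ a1) (t2 x κ a1 ζ z) k).trace := by
      rintro k ⟨i, rfl⟩
      rw [← two_mul, trA_even hκ, trB_even hκ]
    have hA : ∀ k, gA l1 l2 (l1⁻¹ • t1 x κ a1) (l2⁻¹ • t2 x κ a1 ζ z) k = Aseq x κ a1 ζ z k ^ 2 :=
      fun k => gA_eq hl1 hl2 _ _ k (hev k)
    have hB : ∀ k, gA l2 l1 (l2⁻¹ • t2 x κ a1 ζ z) (l1⁻¹ • t1 x κ a1) k = Bseq x κ a1 ζ z k ^ 2 :=
      fun k => gA_eq hl2 hl1 _ _ k (fun h => (hev k h).symm)
    simp only [hA, hB]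
    rw [sum_AB hκ hz hn hζn hζ2, hκ']

end Cfsg.Agent.Lib.Helper46FH3
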