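import Mathlib

/-! The arithmetic part of the Feit-Higman theorem (after Kilmoyer-Solomon). -/

namespace Cfsg.Agent.Lib.Helper46FH4

open Real

theorem nat_of_cos_rat {k : ℕ} (hk : 2 ≤ k) (h : ∃ q : ℚ, cos (2 * π / k) = q) :
    k = 2 ∨ k = 3 ∨ k = 4 ∨ k = 6 := by
  have hk0 : (0 : ℚ) < k := by exact_mod_cast (by omega : 0 < k)
  have h1 : ∃ q : ℚ, cos (((2 / k : ℚ) : ℝ) * π) = q := by
    obtain ⟨q, hq⟩ := h
    refine ⟨q, ?_⟩
    rw [← hq]
    congr 1
    push_cast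
    ring
  have h2 := niven_angle_div_pi_eq h1 ⟨by positivity, by
    rw [div_le_one hk0]; exact_mod_cast hk⟩
  simp only [Set.mem_insert_iff, Set.mem_singleton_iff] at h2
  rcases h2 with h | h | h | h | h
  · exfalso
    field_simp at h
    norm_num at h
  · right; right; right
    have : (k : ℚ) = 6 := by field_simp at h; linarith
    exact_mod_cast this
  · right; right; left
    have : (k : ℚ) = 4 := by field_simp at h; linarith
    exact_mod_cast this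
  · right; left
    have : (k : ℚ) = 3 := by field_simp at h; linarith
    exact_mod_cast this
  · left
    have : (k : ℚ) = 2 := by field_simp at h; linarith
    exact_mod_cast this

theorem core (n : ℕ) (hn : 2 ≤ n) (α γ : ℝ) (hα : ∃ r : ℚ, α = r) (hα0 : 0 < α) (hγ0 : 0 < γ)
    (hodd : Odd n → α = 2 * γ)
    (H : ∀ θ : ℝ, (∃ j : ℤ, n * θ = 2 * π * j) → sin θ ≠ 0 →
      ∃ ρ : ℚ, (α + 2 * γ * cos θ) / sin θ ^ 2 = ρ) :
    n = 2 ∨ n = 3 ∨ n = 4 ∨ n = 6 ∨ n = 8 := by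
  obtain ⟨αq, hαq⟩ := hα
  have hn0 : (0 : ℝ) < n := by exact_mod_cast (by omega : 0 < n)
  by_cases hn2 : n = 2
  · left; exact hn2
  have hn3 : (3 : ℝ) ≤ n := by exact_mod_cast (by omega : 3 ≤ n)
  set θ := 2 * π / n with hθ
  have hθ0 : 0 < θ := by positivity
  have hθπ : θ < π := by
    rw [hθ, div_lt_iff₀ hn0]
    nlinarith [pi_pos]
  have hs : 0 < sin θ := sin_pos_of_pos_of_lt_pi hθ0 hθπ
  have hnθ : n * θ = 2 * π := by rw [hθ]; field_simp
  have hsc := sin_sq_add_cos_sq θ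
  rcases Nat.even_or_odd n with he | ho
  · -- even case
    obtain ⟨m, hm⟩ := he
    have hdiff : ∀ φ : ℝ, (∃ j : ℤ, n * φ = 2 * π * j) → sin φ ≠ 0 →
        (∃ ρ : ℚ, α / sin φ ^ 2 = ρ) ∧ (∃ ρ : ℚ, γ * cos φ / sin φ ^ 2 = ρ) := by
      intro φ ⟨j, hj⟩ hsφ
      obtain ⟨ρ1, h1⟩ := H φ ⟨j, hj⟩ hsφ
      obtain ⟨ρ2, h2⟩ := H (π - φ) ⟨m - j, by
        push_cast
        rw [mul_sub, hj, hm]
        push_cast
        ring⟩ (by rw [sin_pi_sub]; exact hsφ)
      rw [sin_pi_sub, cos_pi_sub] at h2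
      constructor
      · refine ⟨(ρ1 + ρ2) / 2, ?_⟩
        push_cast
        rw [← h1, ← h2]
        field_simp
        ring
      · refine ⟨(ρ1 - ρ2) / 4, ?_⟩
        push_cast
        rw [← h1, ← h2]
        field_simp
        ring
    obtain ⟨⟨ρ, hρ⟩, _⟩ := hdiff θ ⟨1, by rw [hnθ]; simp⟩ hs.ne'
    have hρ0 : (ρ : ℝ) ≠ 0 := by
      rw [← hρ]; positivity
    have hs2 : sin θ ^ 2 = α / ρ := by
      rw [← hρ]; field_simp
    have hm2 : 2 ≤ m := by omega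
    have hcos : ∃ q : ℚ, cos (2 * π / m) = q := by
      refine ⟨1 - 2 * (αq / ρ), ?_⟩
      have e : 2 * π / m = 2 * θ := by
        rw [hθ, hm]
        have : (0 : ℝ) < m := by exact_mod_cast (by omega : 0 < m)
        push_cast
        field_simp
        ring
      rw [e, cos_two_mul, cos_sq', hs2, hαq]
      push_cast
      ring
    rcases nat_of_cos_rat hm2 hcos with h | h | h | h
    · right; right; left; omega
    · right; right; right; left; omega
    · right; right; right; right; omega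
    · exfalso
      have hn12 : (n : ℝ) = 12 := by
        have : n = 12 := by omega
        rw [this]; norm_num
      obtain ⟨_, ρ1, h1⟩ := hdiff (π / 6) ⟨1, by rw [hn12]; push_cast; ring⟩ (by
        rw [sin_pi_div_six]; norm_num)
      obtain ⟨_, ρ2, h2⟩ := hdiff (π / 3) ⟨2, by rw [hn12]; push_cast; ring⟩ (by
        rw [sin_pi_div_three]; positivity)
      rw [sin_pi_div_six, cos_pi_div_six] at h1
      rw [sin_pi_div_three, cos_pi_div_three] at h2
      have h3 : (√3 : ℝ) ^ 2 = 3 := sq_sqrt (by norm_num)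
      have h4 : γ = 3 / 2 * ρ2 := by
        rw [← h2, div_pow, h3]
        ring
      have hρ2 : (ρ2 : ℝ) ≠ 0 := by
        intro h0
        rw [h0, mul_zero] at h4
        exact hγ0.ne' h4
      have h5 : (√3 : ℝ) = ((ρ1 / (3 * ρ2) : ℚ) : ℝ) := by
        push_cast
        rw [← h1, h4]
        field_simp
      have h6 : Irrational (√3 : ℝ) := by
        have := Nat.Prime.irrational_sqrt Nat.prime_three
        simpa using this
      exact h6 ⟨_, h5.symm⟩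
  · -- odd case
    have hαγ := hodd ho
    obtain ⟨ρ, hρ⟩ := H θ ⟨1, by rw [hnθ]; simp⟩ hs.ne'
    have hc1 : 0 < 1 + cos θ := by nlinarith [neg_one_le_cos θ, cos_le_one θ]
    have hc2 : 0 < 1 - cos θ := by nlinarith [neg_one_le_cos θ, cos_le_one θ]
    have h1 : α = ρ * (1 - cos θ) := by
      rw [← hρ, hαγ]
      have : sin θ ^ 2 = (1 - cos θ) * (1 + cos θ) := by linear_combination hsc
      rw [this]
      field_simp
    have hρ0 : (ρ : ℝ) ≠ 0 := by
      intro h0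
      rw [h0, zero_mul] at h1
      exact hα0.ne' h1
    have hcos : ∃ q : ℚ, cos (2 * π / n) = q := by
      refine ⟨1 - αq / ρ, ?_⟩
      push_cast
      rw [← hαq, h1]
      field_simp
      ring
    rcases nat_of_cos_rat hn hcos with h | h | h | h
    · left; exact h
    · right; left; exact h
    · exfalso; rw [h] at ho; revert ho; decide
    · exfalso; rw [h] at ho; revert ho; decide

theorem fh_number (n : ℕ) (hn : 2 ≤ n) (q1 q2 : ℚ) (h1 : 1 < q1) (h2 : 1 < q2) (hodd : Odd n → q1 = q2)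
    (H : ∀ ζ : ℂ, ζ ^ n = 1 → ζ ^ 2 ≠ 1 → ∃ ρ : ℚ,
      1 - ((((√(q1 : ℝ) : ℝ) : ℂ) - ((√(q1 : ℝ) : ℝ) : ℂ)⁻¹) ^ 2 +
        (((√(q2 : ℝ) : ℝ) : ℂ) - ((√(q2 : ℝ) : ℝ) : ℂ)⁻¹) ^ 2 +
        (((√(q1 : ℝ) : ℝ) : ℂ) - ((√(q1 : ℝ) : ℝ) : ℂ)⁻¹) *
        (((√(q2 : ℝ) : ℝ) : ℂ) - ((√(q2 : ℝ) : ℝ) : ℂ)⁻¹) * (ζ + ζ⁻¹)) / (ζ - ζ⁻¹) ^ 2 = ρ) :
    n = 2 ∨ n = 3 ∨ n = 4 ∨ n = 6 ∨ n = 8 := by
  have h1' : (1 : ℝ) < q1 := by exact_mod_cast h1
  have h2' : (1 : ℝ) < q2 := by exact_mod_cast h2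
  set L1 := √(q1 : ℝ) with hL1
  set L2 := √(q2 : ℝ) with hL2
  have hL1sq : L1 ^ 2 = q1 := sq_sqrt (by linarith)
  have hL2sq : L2 ^ 2 = q2 := sq_sqrt (by linarith)
  have hL1g : 1 < L1 := by
    rw [hL1, lt_sqrt (by norm_num)]; simpa using h1'
  have hL2g : 1 < L2 := by
    rw [hL2, lt_sqrt (by norm_num)]; simpa using h2'
  have ha1 : 0 < L1 - L1⁻¹ := by
    have : L1⁻¹ < 1 := inv_lt_one_of_one_lt₀ hL1g
    linarith
  have ha2 : 0 < L2 - L2⁻¹ := by
    have : L2⁻¹ < 1 := inv_lt_one_of_one_lt₀ hL2g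
    linarith
  apply core n hn ((L1 - L1⁻¹) ^ 2 + (L2 - L2⁻¹) ^ 2) ((L1 - L1⁻¹) * (L2 - L2⁻¹))
  · refine ⟨q1 - 2 + q1⁻¹ + (q2 - 2 + q2⁻¹), ?_⟩
    push_cast
    rw [← hL1sq, ← hL2sq]
    field_simp
    ring
  · positivity
  · positivity
  · intro ho
    have : L1 = L2 := by rw [hL1, hL2, hodd ho]
    rw [this]
    ring
  · intro θ ⟨j, hj⟩ hs
    set ζ := Complex.exp (θ * Complex.I) with hζ
    have hζi : ζ⁻¹ = Complex.exp (-(θ * Complex.I)) := by rw [hζ, Complex.exp_neg]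
    have e1 : ζ = Complex.cos θ + Complex.sin θ * Complex.I := by rw [hζ, Complex.exp_mul_I]
    have e2 : ζ⁻¹ = Complex.cos θ - Complex.sin θ * Complex.I := by
      rw [hζi, ← neg_mul, Complex.exp_mul_I, Complex.cos_neg, Complex.sin_neg]
      ring
    have e3 : ζ + ζ⁻¹ = ((2 * cos θ : ℝ) : ℂ) := by
      rw [e2, e1]; push_cast; ring
    have e4 : (ζ - ζ⁻¹) ^ 2 = ((-4 * sin θ ^ 2 : ℝ) : ℂ) := by
      rw [e2, e1]; push_cast
      linear_combination 4 * (Complex.sin θ) ^ 2 * Complex.I_sq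
    have hζn : ζ ^ n = 1 := by
      rw [hζ, ← Complex.exp_nat_mul, Complex.exp_eq_one_iff]
      refine ⟨j, ?_⟩
      have : ((n * θ : ℝ) : ℂ) = ((2 * π * j : ℝ) : ℂ) := by rw [hj]
      push_cast at this
      linear_combination Complex.I * this
    have hζ2 : ζ ^ 2 ≠ 1 := by
      intro h
      have h0 : ζ ≠ 0 := Complex.exp_ne_zero _
      have : ζ - ζ⁻¹ = 0 := by
        field_simp
        linear_combination h
      rw [this] at e4
      have h5 : (-4 * sin θ ^ 2 : ℝ) = 0 := by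
        have : ((-4 * sin θ ^ 2 : ℝ) : ℂ) = ((0 : ℝ) : ℂ) := by rw [← e4]; simp
        exact Complex.ofReal_injective this
      have : sin θ ^ 2 = 0 := by linarith
      exact hs ((pow_eq_zero_iff (two_ne_zero)).1 this)
    obtain ⟨ρ, hρ⟩ := H ζ hζn hζ2
    rw [e3, e4] at hρ
    have hρ' : 1 - ((L1 - L1⁻¹) ^ 2 + (L2 - L2⁻¹) ^ 2 + (L1 - L1⁻¹) * (L2 - L2⁻¹) * (2 * cos θ)) /
        (-4 * sin θ ^ 2) = ρ := by
      apply Complex.ofReal_injective
      push_cast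
      push_cast at hρ
      exact hρ
    refine ⟨4 * (ρ - 1), ?_⟩
    push_cast
    rw [← hρ']
    field_simp
    ring

end Cfsg.Agent.Lib.Helper46FH4
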