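import Cfsg.Agent.Lib.Helper46FH2
import Cfsg.Agent.Lib.Helper46FH3
import Cfsg.Agent.Lib.Helper46FH4

/-! The Feit-Higman theorem for finite BN-pairs of rank two. -/

namespace Cfsg.Agent.Lib.Helper46FH5

open Cfsg Cfsg.Agent.Lib.Helper8BN Cfsg.Agent.Lib.Helper46Len Cfsg.Agent.Lib.Helper46BN
  Cfsg.Agent.Lib.Helper46FH1 Cfsg.Agent.Lib.Helper46FH2 Cfsg.Agent.Lib.Helper46FH3
  Cfsg.Agent.Lib.Helper46FH4

open Classical

variable {G : Type*} [Group G] [Fintype G] (P : Cfsg.BNPair G)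

/-- thickness. -/
theorem card_one_lt {s : G} (hs : s ∈ P.S) :
    (cell P 1).card < (cell P (mkW P s (P.subset hs))).card := by
  set σ := mkW P s (P.subset hs) with hσdef
  have hσ : σ ∈ SW P := ⟨s, hs, rfl⟩
  have hds : delta P s = σ := delta_of_mem_N P (P.subset hs)
  rcases (card_one_le P hσ).lt_or_eq with h | h
  · exact h
  exfalso
  have hd : lenW P (σ * delta P s) + 1 = lenW P (delta P s) := by
    rw [hds, (lenSys P).sq σ hσ]
    have h1 := (lenSys P).l_one
    have h2 := (lenSys P).l_S hσ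
    simp only [lenSys_l] at h1 h2
    omega
  have h1 := (count_down P hσ hd).1
  rw [h] at h1
  have h2 := Finset.filter_card_eq h1
  have h3 : ∀ b ∈ P.B, s * b * s ∈ P.B := by
    intro b hb
    have := h2 (s * b) (by rw [mem_cell, delta_mul_B P hb, hds])
    rw [hds, (lenSys P).sq σ hσ, delta_eq_one_iff] at this
    exact this
  apply P.conj_ne s hs
  apply Set.eq_of_subset_of_ncard_le
  · rintro _ ⟨b, hb, rfl⟩
    exact h3 b hb
  · rw [Set.ncard_image_of_injective]
    intro b b' e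
    exact mul_left_cancel (mul_right_cancel e)
  · exact Set.toFinite _

variable {P} {a b w0 : Wg P} {n : ℕ}

theorem card_pa (h : Rk2 (lenSys P) a b w0 n) : ∀ k ≤ n,
    ((cell P (pa a b k)).card : ℂ) = (cell P 1).card *
      pa (((cell P a).card : ℂ) / (cell P 1).card) (((cell P b).card : ℂ) / (cell P 1).card) k ∧
    ((cell P (pa b a k)).card : ℂ) = (cell P 1).card *
      pa (((cell P b).card : ℂ) / (cell P 1).card) (((cell P a).card : ℂ) / (cell P 1).card) k := by
  have hβ : ((cell P 1).card : ℂ) ≠ 0 := Nat.cast_ne_zero.2 (cell_pos P 1).ne'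
  intro k
  induction k with
  | zero => intro _; simp
  | succ k ih =>
    intro hk
    obtain ⟨h1, h2⟩ := ih (by omega)
    constructor
    · have h3 := card_up P (σ := a) (w := pa b a k) h.ha (by
        have e1 := h.l_pa hk
        have e2 := h.symm.l_pa (by omega : k ≤ n)
        simp only [lenSys_l] at e1 e2
        rw [← pa_succ, e1, e2])
      have h4 : ((cell P (a * pa b a k)).card : ℂ) * (cell P 1).card =
          (cell P a).card * (cell P (pa b a k)).card := by exact_mod_cast h3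
      rw [pa_succ, pa_succ]
      rw [h2] at h4
      apply mul_right_cancel₀ hβ
      rw [h4]
      field_simp
    · have h3 := card_up P (σ := b) (w := pa a b k) h.hb (by
        have e1 := h.symm.l_pa hk
        have e2 := h.l_pa (by omega : k ≤ n)
        simp only [lenSys_l] at e1 e2
        rw [← pa_succ, e1, e2])
      have h4 : ((cell P (b * pa a b k)).card : ℂ) * (cell P 1).card =
          (cell P b).card * (cell P (pa a b k)).card := by exact_mod_cast h3
      rw [pa_succ, pa_succ]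
      rw [h1] at h4
      apply mul_right_cancel₀ hβ
      rw [h4]
      field_simp

theorem term_eq (h : Rk2 (lenSys P) a b w0 n) {l1 l2 : ℂ} {m1 m2 : Matrix (Fin 2) (Fin 2) ℂ} {f : Wg P → Matrix (Fin 2) (Fin 2) ℂ}
    (hf : Good a b n m1 m2 f)
    (hl1 : l1 ^ 2 = ((cell P a).card : ℂ) / (cell P 1).card)
    (hl2 : l2 ^ 2 = ((cell P b).card : ℂ) / (cell P 1).card) {k : ℕ} (hk : k ≤ n) :
    (cell P (pa a b k)).card • ((f (pa a b k)).trace * (f (pa a b k)⁻¹).trace) =
      ((cell P 1).card : ℂ) * gA l1 l2 m1 m2 k := by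
  rw [← Nat.cast_smul_eq_nsmul ℂ, (card_pa h k hk).1, smul_eq_mul, ← hl1, ← hl2,
    pa_inv ((lenSys P).sq a h.ha) ((lenSys P).sq b h.hb), hf.fa k hk, apply_ite f, hf.fa k hk, hf.fb k hk]
  unfold gA
  ring

/-- rationality of the Schur elements. -/
theorem rational (h : Rk2 (lenSys P) a b w0 n) [Fintype (Wg P)] {l1 l2 : ℂ}
    (hl1 : l1 ^ 2 = ((cell P a).card : ℂ) / (cell P 1).card)
    (hl2 : l2 ^ 2 = ((cell P b).card : ℂ) / (cell P 1).card) (hodd : Odd n → l1 = l2)
    (ζ : ℂ) (hζn : ζ ^ n = 1) (hζ2 : ζ ^ 2 ≠ 1) :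
    ∃ ρ : ℚ, 1 - ((l1 - l1⁻¹) ^ 2 + (l2 - l2⁻¹) ^ 2 + (l1 - l1⁻¹) * (l2 - l2⁻¹) * (ζ + ζ⁻¹)) /
        (ζ - ζ⁻¹) ^ 2 = ρ := by
  have hβ : ((cell P 1).card : ℂ) ≠ 0 := Nat.cast_ne_zero.2 (cell_pos P 1).ne'
  have hca : ((cell P a).card : ℂ) ≠ 0 := Nat.cast_ne_zero.2 (cell_pos P a).ne'
  have hcb : ((cell P b).card : ℂ) ≠ 0 := Nat.cast_ne_zero.2 (cell_pos P b).ne'
  have hl10 : l1 ≠ 0 := by
    rintro rfl
    rw [zero_pow two_ne_zero, eq_comm, div_eq_zero_iff] at hl1
    tauto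
  have hl20 : l2 ≠ 0 := by
    rintro rfl
    rw [zero_pow two_ne_zero, eq_comm, div_eq_zero_iff] at hl2
    tauto
  have hn := h.two_le
  obtain ⟨m1, m2, hq1, hq2, hbr, hcomm, hsum⟩ := model l1 l2 ζ n hl10 hl20 (by omega) hζn hζ2 hodd
  obtain ⟨f, hf⟩ := h.exists_good m1 m2 hbr
  have hSW : SW P = {a, b} := h.hS
  have hH : Harm P f (fun σ => if σ = a then m1 else m2) := by
    refine ⟨hf.one, ?_, ?_, ?_, ?_⟩
    · intro σ hσ w hw
      rw [hSW] at hσ
      rcases hσ with rfl | hσ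
      · rw [if_pos rfl]; exact h.good_L hf hw
      · rw [Set.mem_singleton_iff] at hσ
        subst hσ
        rw [if_neg h.hab.symm]; exact h.symm.good_L hf.symm hw
    · intro σ hσ w hw
      rw [hSW] at hσ
      rcases hσ with rfl | hσ
      · rw [if_pos rfl]; exact h.good_R hf hw
      · rw [Set.mem_singleton_iff] at hσ
        subst hσ
        rw [if_neg h.hab.symm]; exact h.symm.good_R hf.symm hw
    · intro σ hσ
      rw [hSW] at hσ
      rcases hσ with rfl | hσ
      · simp only [if_pos rfl]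
        have e := congrArg (fun X => ((cell P 1).card : ℂ) • X) hq1
        simp only [smul_add, smul_smul] at e
        have e1 : ((cell P 1).card : ℂ) * l1 ^ 2 = (cell P σ).card := by rw [hl1]; field_simp
        have e2 : ((cell P 1).card : ℂ) * (l1 ^ 2 - 1) = (cell P σ).card - (cell P 1).card := by
          rw [hl1]; field_simp
        rw [e1, e2] at e
        exact e
      · rw [Set.mem_singleton_iff] at hσ
        subst hσ
        simp only [if_neg h.hab.symm]
        have e := congrArg (fun X => ((cell P 1).card : ℂ) • X) hq2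
        simp only [smul_add, smul_smul] at e
        have e1 : ((cell P 1).card : ℂ) * l2 ^ 2 = (cell P σ).card := by rw [hl2]; field_simp
        have e2 : ((cell P 1).card : ℂ) * (l2 ^ 2 - 1) = (cell P σ).card - (cell P 1).card := by
          rw [hl2]; field_simp
        rw [e1, e2] at e
        exact e
    · intro X hX
      apply hcomm X
      · have := hX a h.ha
        rwa [if_pos rfl] at this
      · have := hX b h.hb
        rwa [if_neg h.hab.symm] at this
  obtain ⟨r, hr0, hr⟩ := hH.main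
  have e1 : ∑ g : G, (f (delta P g)).trace * (f (delta P g⁻¹)).trace =
      ((cell P 1).card : ℂ) * (gA l1 l2 m1 m2 0 + gA l1 l2 m1 m2 n +
        ∑ k ∈ Finset.Ico 1 n, (gA l1 l2 m1 m2 k + gA l2 l1 m2 m1 k)) := by
    simp only [delta_inv]
    rw [sum_cells P (fun w => (f w).trace * (f w⁻¹).trace), h.sum_eq]
    have t0 := term_eq h hf hl1 hl2 (Nat.zero_le n)
    have tn := term_eq h hf hl1 hl2 (le_refl n)
    rw [pa_zero] at t0
    rw [← h.w0_eq] at tn
    rw [t0, tn, mul_add, mul_add, Finset.mul_sum]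
    congr 1
    apply Finset.sum_congr rfl
    intro k hk
    rw [Finset.mem_Ico] at hk
    rw [term_eq h hf hl1 hl2 (by omega : k ≤ n), term_eq h.symm hf.symm hl2 hl1 (by omega : k ≤ n), mul_add]
  rw [e1, hsum] at hr
  set κ := 1 - ((l1 - l1⁻¹) ^ 2 + (l2 - l2⁻¹) ^ 2 + (l1 - l1⁻¹) * (l2 - l2⁻¹) * (ζ + ζ⁻¹)) /
        (ζ - ζ⁻¹) ^ 2 with hκ
  refine ⟨(4 * Fintype.card G : ℚ) / ((cell P 1).card * (2 * n) * r), ?_⟩
  have hr0' : (r : ℂ) ≠ 0 := Nat.cast_ne_zero.2 hr0
  have hn0 : (n : ℂ) ≠ 0 := Nat.cast_ne_zero.2 (by omega)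
  push_cast
  rw [hr]
  field_simp

/-- **Feit-Higman.** -/
theorem feit_higman (P : Cfsg.BNPair G) (h2 : P.rank = 2) :
    ∃ n : ℕ, Nat.card (Wg P) = 2 * n ∧ (n = 2 ∨ n = 3 ∨ n = 4 ∨ n = 6 ∨ n = 8) := by
  unfold Cfsg.BNPair.rank at h2
  rw [Nat.card_coe_set_eq, Set.ncard_eq_two] at h2
  obtain ⟨s1, s2, hne, hS⟩ := h2
  have hs1 : s1 ∈ P.S := by rw [hS]; simp
  have hs2 : s2 ∈ P.S := by rw [hS]; simp
  set a := mkW P s1 (P.subset hs1) with ha
  set b := mkW P s2 (P.subset hs2) with hb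
  have hab : a ≠ b := by
    intro e
    rw [ha, hb, mkW_eq_iff] at e
    exact hne (P.inj s1 hs1 s2 hs2 e)
  have hSW : SW P = {a, b} := by
    ext w
    constructor
    · rintro ⟨s, hs, rfl⟩
      have hs' := hs
      rw [hS] at hs'
      rcases hs' with rfl | hs'
      · left; rfl
      · rw [Set.mem_singleton_iff] at hs'
        subst hs'
        right; rfl
    · rintro (rfl | h)
      · exact ⟨s1, hs1, rfl⟩
      · rw [Set.mem_singleton_iff] at h
        subst h
        exact ⟨s2, hs2, rfl⟩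
  have : Fintype (Wg P) := Fintype.ofFinite _
  obtain ⟨w0, hL, -, -, -⟩ := (lenSys P).exists_top
  have h : Rk2 (lenSys P) a b w0 ((lenSys P).l w0) := ⟨hSW, hab, hL, rfl⟩
  set n := (lenSys P).l w0 with hn
  refine ⟨n, h.card_eq, ?_⟩
  have hβ0 : 0 < (cell P 1).card := cell_pos P 1
  have hβ : ((cell P 1).card : ℂ) ≠ 0 := Nat.cast_ne_zero.2 hβ0.ne'
  set q1 : ℚ := ((cell P a).card : ℚ) / (cell P 1).card with hq1
  set q2 : ℚ := ((cell P b).card : ℚ) / (cell P 1).card with hq2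
  have hq1g : 1 < q1 := by
    rw [hq1, one_lt_div (by exact_mod_cast hβ0)]
    exact_mod_cast card_one_lt P hs1
  have hq2g : 1 < q2 := by
    rw [hq2, one_lt_div (by exact_mod_cast hβ0)]
    exact_mod_cast card_one_lt P hs2
  have hodd : Odd n → q1 = q2 := by
    rintro ⟨i, hi⟩
    obtain ⟨e1, e2⟩ := card_pa h n le_rfl
    rw [← h.w0_eq] at e1
    rw [← h.symm.w0_eq, e1] at e2
    have e3 := mul_left_cancel₀ hβ e2
    rw [hi, pa_two_mul_add_one, pa_two_mul_add_one, mul_comm (((cell P b).card : ℂ) / _)] at e3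
    have hca : ((cell P a).card : ℂ) ≠ 0 := Nat.cast_ne_zero.2 (cell_pos P a).ne'
    have hcb : ((cell P b).card : ℂ) ≠ 0 := Nat.cast_ne_zero.2 (cell_pos P b).ne'
    have e4 := mul_left_cancel₀ (pow_ne_zero i (mul_ne_zero (div_ne_zero hca hβ) (div_ne_zero hcb hβ))) e3
    have e5 : ((q1 : ℚ) : ℂ) = ((q2 : ℚ) : ℂ) := by
      rw [hq1, hq2]; push_cast; exact e4
    exact_mod_cast e5
  apply fh_number n h.two_le q1 q2 hq1g hq2g hodd
  intro ζ hζn hζ2
  apply rational h _ _ _ ζ hζn hζ2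
  · rw [← Complex.ofReal_pow, Real.sq_sqrt (by
      have : (1 : ℝ) < q1 := by exact_mod_cast hq1g
      linarith), hq1]
    push_cast
    rfl
  · rw [← Complex.ofReal_pow, Real.sq_sqrt (by
      have : (1 : ℝ) < q2 := by exact_mod_cast hq2g
      linarith), hq2]
    push_cast
    rfl
  · intro ho
    rw [hodd ho]

end Cfsg.Agent.Lib.Helper46FH5
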