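import Mathlib

/-!
# The bialternant (Jacobi–Trudi) identity and orthonormality of the determinantal combinations of
contingency table numbers
-/

set_option autoImplicit false
set_option linter.unusedSectionVars false
set_option linter.unusedSimpArgs false
set_option linter.unusedVariables false

namespace Cfsg.Agent.Lib.Helper46JT

open Finset MvPolynomial

variable {n : ℕ}

noncomputable def fs (c : Fin n → ℕ) : Fin n →₀ ℕ := Finsupp.equivFunOnFinite.symm c

theorem fs_apply (c : Fin n → ℕ) (t : Fin n) : fs c t = c t := rfl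

theorem fs_inj {c c' : Fin n → ℕ} : fs c = fs c' ↔ c = c' := Finsupp.equivFunOnFinite.symm.injective.eq_iff

/-- The monomial `x^c`. -/
noncomputable def mono (c : Fin n → ℕ) : MvPolynomial (Fin n) ℤ := ∏ t, X t ^ c t

theorem mono_eq (c : Fin n → ℕ) : mono c = monomial (fs c) 1 := by
  rw [MvPolynomial.monomial_eq, Finsupp.prod_fintype _ _ (by simp)]
  simp [mono, fs]

theorem mono_add (c c' : Fin n → ℕ) : mono (c + c') = mono c * mono c' := by
  simp [mono, pow_add, Finset.prod_mul_distrib]

theorem mono_zero : mono (0 : Fin n → ℕ) = 1 := by simp [mono]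

theorem mono_sum {ι : Type*} (s : Finset ι) (p : ι → Fin n → ℕ) : ∏ i ∈ s, mono (p i) = mono (∑ i ∈ s, p i) := by
  classical
  induction s using Finset.induction_on with
  | empty => simp [mono_zero]
  | insert a s ha ih => rw [Finset.prod_insert ha, Finset.sum_insert ha, ih, mono_add]

theorem coeff_mono (c c' : Fin n → ℕ) : coeff (fs c') (mono c) = if c = c' then 1 else 0 := by
  rw [mono_eq, coeff_monomial]
  simp only [fs_inj]

/-- The complete homogeneous symmetric polynomial. -/
noncomputable def hh (b : ℕ) : MvPolynomial (Fin n) ℤ := ∑ c ∈ piAntidiag univ b, mono c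

theorem hh_zero : (hh 0 : MvPolynomial (Fin n) ℤ) = 1 := by
  have : (piAntidiag (univ : Finset (Fin n)) 0) = {0} := by
    ext c
    simp only [mem_piAntidiag, mem_univ, implies_true, and_true, mem_singleton]
    constructor
    · intro h
      funext t
      exact (Finset.sum_eq_zero_iff.mp h) t (mem_univ t)
    · rintro rfl
      simp
  rw [hh, this, Finset.sum_singleton, mono_zero]

/-- The alternant `det (x_s ^ γ_t)`. -/
noncomputable def alt (γ : Fin n → ℕ) : MvPolynomial (Fin n) ℤ :=
  Matrix.det (Matrix.of fun s t : Fin n => (X s : MvPolynomial (Fin n) ℤ) ^ γ t)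

theorem alt_eq1 (γ : Fin n → ℕ) :
    alt γ = ∑ σ : Equiv.Perm (Fin n), ((Equiv.Perm.sign σ : ℤ) : MvPolynomial (Fin n) ℤ) * ∏ t, X (σ t) ^ γ t := by
  rw [alt, Matrix.det_apply']
  rfl

theorem alt_eq2 (γ : Fin n → ℕ) :
    alt γ = ∑ σ : Equiv.Perm (Fin n), ((Equiv.Perm.sign σ : ℤ) : MvPolynomial (Fin n) ℤ) * mono (γ ∘ σ) := by
  rw [alt, ← Matrix.det_transpose, Matrix.det_apply']
  rfl

theorem alt_comp (γ : Fin n → ℕ) (σ : Equiv.Perm (Fin n)) :
    alt (γ ∘ σ) = ((Equiv.Perm.sign σ : ℤ) : MvPolynomial (Fin n) ℤ) * alt γ := by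
  rw [alt, alt, ← Matrix.det_permute']
  rfl

theorem hh_perm (b : ℕ) (σ : Equiv.Perm (Fin n)) :
    (hh b : MvPolynomial (Fin n) ℤ) = ∑ c ∈ piAntidiag univ b, ∏ t, X (σ t) ^ c t := by
  unfold hh
  apply Finset.sum_bij' (fun c _ => c ∘ σ) (fun c _ => c ∘ σ.symm)
  · intro c hc
    simp only [mem_piAntidiag, mem_univ, implies_true, and_true] at hc ⊢
    rw [← hc]
    exact Equiv.sum_comp σ c
  · intro c hc
    simp only [mem_piAntidiag, mem_univ, implies_true, and_true] at hc ⊢
    rw [← hc]
    exact Equiv.sum_comp σ.symm c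
  · intro c _
    funext t
    simp
  · intro c _
    funext t
    simp
  · intro c _
    unfold mono
    rw [← Equiv.prod_comp σ]
    rfl

/-- Pieri's rule in its raw form. -/
theorem alt_mul_hh (μ : Fin n → ℕ) (b : ℕ) : alt μ * hh b = ∑ c ∈ piAntidiag univ b, alt (μ + c) := by
  simp only [alt_eq1]
  rw [Finset.sum_mul, Finset.sum_comm]
  apply Finset.sum_congr rfl
  intro σ _
  rw [hh_perm b σ, Finset.mul_sum]
  apply Finset.sum_congr rfl
  intro c _
  rw [mul_assoc, ← Finset.prod_mul_distrib]
  simp only [Pi.add_apply, pow_add]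

/-! ### The sign reversing involution -/

section Invol

variable {m : ℕ}

/-- Exchange of two adjacent exponents, in terms of the increments. -/
def flip (i : Fin m) (c : Fin (m + 1) → ℕ) : Fin (m + 1) → ℕ :=
  fun t => if t = i.castSucc then c i.succ + 1 else if t = i.succ then c i.castSucc - 1 else c t

theorem castSucc_ne_succ (i : Fin m) : i.castSucc ≠ i.succ := by
  intro h
  have := congrArg Fin.val h
  simp at this

theorem flip_castSucc (i : Fin m) (c : Fin (m + 1) → ℕ) : flip i c i.castSucc = c i.succ + 1 := by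
  simp [flip]

theorem flip_succ (i : Fin m) (c : Fin (m + 1) → ℕ) : flip i c i.succ = c i.castSucc - 1 := by
  simp [flip, (castSucc_ne_succ i).symm]

theorem flip_of_ne (i : Fin m) (c : Fin (m + 1) → ℕ) {t : Fin (m + 1)} (h1 : t ≠ i.castSucc) (h2 : t ≠ i.succ) :
    flip i c t = c t := by
  simp [flip, h1, h2]

theorem flip_flip (i : Fin m) (c : Fin (m + 1) → ℕ) (h : c i.castSucc ≠ 0) : flip i (flip i c) = c := by
  funext t
  by_cases h1 : t = i.castSucc
  · subst h1
    rw [flip_castSucc, flip_succ]
    omega
  · by_cases h2 : t = i.succ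
    · subst h2
      rw [flip_succ, flip_castSucc]
      omega
    · rw [flip_of_ne i _ h1 h2, flip_of_ne i _ h1 h2]

theorem val_add_flip (i : Fin m) (c : Fin (m + 1) → ℕ) (h : c i.castSucc ≠ 0) :
    (fun t : Fin (m + 1) => t.val + flip i c t) =
      (fun t : Fin (m + 1) => t.val + c t) ∘ (Equiv.swap i.castSucc i.succ) := by
  funext t
  simp only [Function.comp_apply]
  by_cases h1 : t = i.castSucc
  · subst h1
    rw [flip_castSucc, Equiv.swap_apply_left]
    simp
    omega
  · by_cases h2 : t = i.succ
    · subst h2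
      rw [flip_succ, Equiv.swap_apply_right]
      simp
      omega
    · rw [flip_of_ne i _ h1 h2, Equiv.swap_apply_of_ne_of_ne h1 h2]

theorem sum_flip (i : Fin m) (c : Fin (m + 1) → ℕ) (h : c i.castSucc ≠ 0) : ∑ t, flip i c t = ∑ t, c t := by
  have h1 : ∑ t : Fin (m + 1), (t.val + flip i c t) = ∑ t : Fin (m + 1), (t.val + c t) := by
    have := congrArg (fun f : Fin (m + 1) → ℕ => ∑ t, f t) (val_add_flip i c h)
    rw [this]
    exact Equiv.sum_comp (Equiv.swap i.castSucc i.succ) (fun t : Fin (m + 1) => t.val + c t)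
  rw [Finset.sum_add_distrib, Finset.sum_add_distrib] at h1
  omega

/-- The positions (except the last one) with a nonzero increment. -/
def supp (c : Fin (m + 1) → ℕ) : Finset (Fin m) := univ.filter fun i => c i.castSucc ≠ 0

theorem mem_supp {c : Fin (m + 1) → ℕ} {i : Fin m} : i ∈ supp c ↔ c i.castSucc ≠ 0 := by simp [supp]

theorem min_supp_flip (c : Fin (m + 1) → ℕ) (h : (supp c).Nonempty) (h' : (supp (flip ((supp c).min' h) c)).Nonempty) :
    (supp (flip ((supp c).min' h) c)).min' h' = (supp c).min' h := by
  set i := (supp c).min' h with hi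
  apply le_antisymm
  · apply Finset.min'_le
    rw [mem_supp, flip_castSucc]
    omega
  · apply Finset.le_min'
    intro y hy
    by_contra hlt
    push Not at hlt
    rw [mem_supp, flip_of_ne] at hy
    · have : i ≤ y := Finset.min'_le _ _ (mem_supp.mpr hy)
      exact absurd hlt (not_lt.mpr this)
    · intro h2
      have := Fin.castSucc_injective _ h2
      exact absurd this hlt.ne
    · intro h2
      have := congrArg Fin.val h2
      simp at this
      have h3 : y.val < i.val := hlt
      omega

/-- The involution. -/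
def inv (c : Fin (m + 1) → ℕ) : Fin (m + 1) → ℕ :=
  if h : (supp c).Nonempty then flip ((supp c).min' h) c else c

theorem pieri_last (b : ℕ) :
    ∑ c ∈ piAntidiag (univ : Finset (Fin (m + 1))) b, alt (fun t => t.val + c t) =
      alt (fun t : Fin (m + 1) => t.val + (Pi.single (Fin.last m) b : Fin (m + 1) → ℕ) t) := by
  rw [← Finset.sum_filter_add_sum_filter_not _ (fun c => (supp c).Nonempty)]
  have h1 : ∑ c ∈ (piAntidiag (univ : Finset (Fin (m + 1))) b).filter (fun c => (supp c).Nonempty),
      alt (fun t => t.val + c t) = 0 := by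
    have hneg : ∀ c ∈ (piAntidiag (univ : Finset (Fin (m + 1))) b).filter (fun c => (supp c).Nonempty),
        alt (fun t => t.val + c t) + alt (fun t => t.val + inv c t) = 0 := by
      intro c hc
      rw [mem_filter] at hc
      have hne := mem_supp.mp (Finset.min'_mem _ hc.2)
      simp only [inv, dif_pos hc.2]
      rw [val_add_flip _ c hne, alt_comp, Equiv.Perm.sign_swap (castSucc_ne_succ _)]
      simp
    apply Finset.sum_involution (fun c _ => inv c) hneg
    · intro c hc hf heq
      apply hf
      have := hneg c hc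
      rw [heq] at this
      exact add_self_eq_zero.mp this
    · intro c hc
      rw [mem_filter] at hc ⊢
      have hne := mem_supp.mp (Finset.min'_mem _ hc.2)
      simp only [inv, dif_pos hc.2]
      refine ⟨?_, ⟨(supp c).min' hc.2, by rw [mem_supp, flip_castSucc]; omega⟩⟩
      have h3 := hc.1
      simp only [mem_piAntidiag, mem_univ, implies_true, and_true] at h3 ⊢
      rw [sum_flip _ _ hne, h3]
    · intro c hc
      rw [mem_filter] at hc
      have hne := mem_supp.mp (Finset.min'_mem _ hc.2)
      have hne2 : (supp (flip ((supp c).min' hc.2) c)).Nonempty :=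
        ⟨(supp c).min' hc.2, by rw [mem_supp, flip_castSucc]; omega⟩
      simp only [inv, dif_pos hc.2, dif_pos hne2]
      rw [min_supp_flip c hc.2 hne2, flip_flip _ _ hne]
  rw [h1, zero_add]
  have h2 : (piAntidiag (univ : Finset (Fin (m + 1))) b).filter (fun c => ¬ (supp c).Nonempty) =
      {Pi.single (Fin.last m) b} := by
    ext c
    simp only [mem_filter, mem_piAntidiag, mem_univ, implies_true, and_true, mem_singleton,
      Finset.not_nonempty_iff_eq_empty]
    constructor
    · rintro ⟨hs, he⟩
      have h0 : ∀ i : Fin m, c i.castSucc = 0 := by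
        intro i
        by_contra hne
        have : i ∈ supp c := mem_supp.mpr hne
        rw [he] at this
        simp at this
      rw [Fin.sum_univ_castSucc] at hs
      simp only [h0, Finset.sum_const_zero, zero_add] at hs
      funext t
      induction t using Fin.lastCases with
      | last => simp [hs]
      | cast i =>
        rw [h0, Pi.single_eq_of_ne]
        exact (Fin.castSucc_lt_last i).ne
    · rintro rfl
      constructor
      · simp
      · ext i
        simp only [mem_supp, Finset.notMem_empty, iff_false, not_not]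
        rw [Pi.single_eq_of_ne]
        exact (Fin.castSucc_lt_last i).ne
  rw [h2, Finset.sum_singleton]

end Invol

/-! ### The bialternant identity -/

/-- `h_{e-k}`, zero when `e < k`. -/
noncomputable def H (e k : ℕ) : MvPolynomial (Fin n) ℤ := if k ≤ e then hh (e - k) else 0

/-- The Jacobi–Trudi matrix. -/
noncomputable def JT (l : Fin n → ℕ) : Matrix (Fin n) (Fin n) (MvPolynomial (Fin n) ℤ) :=
  Matrix.of fun k t => H (l t) k.val

theorem alt_val_ne_zero : alt (fun t : Fin n => t.val) ≠ 0 := by
  have : alt (fun t : Fin n => t.val) = (Matrix.vandermonde (fun s : Fin n => (X s : MvPolynomial (Fin n) ℤ))).det := rfl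
  rw [this, Matrix.det_vandermonde_ne_zero_iff]
  exact MvPolynomial.X_injective

section Bialt

variable {m : ℕ}

theorem alt_update (e : ℕ) :
    alt (Function.update (fun t : Fin (m + 1) => t.val) (Fin.last m) e) = alt (fun t : Fin (m + 1) => t.val) * H e m := by
  unfold H
  split_ifs with h
  · rw [alt_mul_hh]
    have := pieri_last (m := m) (e - m)
    rw [show (∑ c ∈ piAntidiag (univ : Finset (Fin (m + 1))) (e - m), alt ((fun t : Fin (m + 1) => t.val) + c)) =
      ∑ c ∈ piAntidiag (univ : Finset (Fin (m + 1))) (e - m), alt (fun t => t.val + c t) from rfl, this]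
    congr 1
    funext t
    by_cases ht : t = Fin.last m
    · subst ht
      simp
      omega
    · rw [Function.update_of_ne ht, Pi.single_eq_of_ne ht]
      simp
  · rw [mul_zero]
    push Not at h
    have hne : (⟨e, by omega⟩ : Fin (m + 1)) ≠ Fin.last m := by
      intro h2
      have := congrArg Fin.val h2
      simp at this
      omega
    apply Matrix.det_zero_of_column_eq hne
    intro k
    simp only [Matrix.of_apply]
    rw [Function.update_of_ne hne, Function.update_self]

theorem cramer_last (e : ℕ) :
    ∑ s, (Matrix.of fun s t : Fin (m + 1) => (X s : MvPolynomial (Fin (m + 1)) ℤ) ^ t.val).adjugate (Fin.last m) s * X s ^ e =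
      alt (fun t : Fin (m + 1) => t.val) * H e m := by
  rw [← alt_update]
  set V := (Matrix.of fun s t : Fin (m + 1) => (X s : MvPolynomial (Fin (m + 1)) ℤ) ^ t.val) with hV
  have h1 : ∑ s, V.adjugate (Fin.last m) s * X s ^ e = (V.adjugate.mulVec fun s => X s ^ e) (Fin.last m) := rfl
  rw [h1, ← Matrix.cramer_eq_adjugate_mulVec, Matrix.cramer_apply, alt]
  congr 1
  ext s t
  rw [Matrix.updateCol_apply]
  by_cases ht : t = Fin.last m
  · subst ht
    simp
  · simp [ht, hV]

theorem JT_key (l : Fin (m + 1) → ℕ) :
    alt (fun t : Fin (m + 1) => t.val) • JT l =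
      (Matrix.of fun k s : Fin (m + 1) =>
        (Matrix.of fun s t : Fin (m + 1) => (X s : MvPolynomial (Fin (m + 1)) ℤ) ^ t.val).adjugate (Fin.last m) s *
          X s ^ (m - k.val)) * (Matrix.of fun s t : Fin (m + 1) => (X s : MvPolynomial (Fin (m + 1)) ℤ) ^ l t) := by
  apply Matrix.ext
  intro k t
  rw [Matrix.smul_apply, Matrix.mul_apply, smul_eq_mul]
  simp only [Matrix.of_apply, JT]
  have hk : k.val ≤ m := by omega
  have h1 : (H (l t) k.val : MvPolynomial (Fin (m + 1)) ℤ) = H (l t + (m - k.val)) m := by
    unfold H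
    by_cases h : k.val ≤ l t
    · rw [if_pos h, if_pos (by omega)]
      congr 1
      omega
    · rw [if_neg h, if_neg (by omega)]
  rw [h1, ← cramer_last]
  apply Finset.sum_congr rfl
  intro s _
  rw [mul_assoc, ← pow_add, add_comm (l t)]

theorem JT_val_det : (JT (fun t : Fin n => t.val)).det = 1 := by
  have htri : (JT (fun t : Fin n => t.val)).BlockTriangular id := by
    intro k t htk
    simp only [id] at htk
    simp only [JT, Matrix.of_apply, H]
    rw [if_neg]
    have : t.val < k.val := htk
    omega
  rw [Matrix.det_of_isUpperTriangular htri]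
  apply Finset.prod_eq_one
  intro i _
  simp [JT, H, hh_zero]

end Bialt

/-- **The bialternant identity.** -/
theorem bialternant (l : Fin n → ℕ) : alt (fun t : Fin n => t.val) * (JT l).det = alt l := by
  cases n with
  | zero => simp [alt]
  | succ m =>
    set a := alt (fun t : Fin (m + 1) => t.val) with ha
    set B := (Matrix.of fun k s : Fin (m + 1) =>
        (Matrix.of fun s t : Fin (m + 1) => (X s : MvPolynomial (Fin (m + 1)) ℤ) ^ t.val).adjugate (Fin.last m) s *
          X s ^ (m - k.val)) with hB
    have h1 : a ^ (m + 1) * (JT l).det = B.det * alt l := by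
      have := congrArg Matrix.det (JT_key l)
      rw [Matrix.det_smul, Matrix.det_mul, Fintype.card_fin] at this
      exact this
    have h2 : a ^ (m + 1) = B.det * a := by
      have := congrArg Matrix.det (JT_key (fun t : Fin (m + 1) => t.val))
      rw [Matrix.det_smul, Matrix.det_mul, Fintype.card_fin, JT_val_det, mul_one] at this
      exact this
    have ha0 : a ^ (m + 1) ≠ 0 := pow_ne_zero _ alt_val_ne_zero
    apply mul_left_cancel₀ ha0
    calc a ^ (m + 1) * (a * (JT l).det) = a * (a ^ (m + 1) * (JT l).det) := by ring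
      _ = a * (B.det * alt l) := by rw [h1]
      _ = (B.det * a) * alt l := by ring
      _ = a ^ (m + 1) * alt l := by rw [← h2]

/-! ### Coefficient extraction -/

/-- The number of contingency tables with row sums `α` and column sums `β` (as families of columns). -/
def NN (α β : Fin n → ℕ) : ℕ :=
  ((Fintype.piFinset fun t => piAntidiag (univ : Finset (Fin n)) (β t)).filter
    fun p => ∀ s, ∑ t, p t s = α s).card

theorem coeff_prod_hh (α β : Fin n → ℕ) : coeff (fs α) (∏ t, hh (β t)) = (NN α β : ℤ) := by
  unfold hh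
  rw [Finset.prod_univ_sum, MvPolynomial.coeff_sum]
  simp only [mono_sum, coeff_mono]
  rw [Finset.sum_boole, NN]
  congr 2
  ext p
  simp only [mem_filter, and_congr_right_iff]
  intro _
  rw [funext_iff]
  simp only [Finset.sum_apply]

theorem intCast_eq_C (z : ℤ) : ((z : ℤ) : MvPolynomial (Fin n) ℤ) = C z := (eq_intCast C z).symm

theorem coeff_alt_mul (l : Fin n → ℕ) (Q : MvPolynomial (Fin n) ℤ) :
    coeff (fs l) (alt (fun t : Fin n => t.val) * Q) =
      ∑ κ : Equiv.Perm (Fin n), (Equiv.Perm.sign κ : ℤ) *
        (if ∀ s, (κ s).val ≤ l s then coeff (fs fun s => l s - (κ s).val) Q else 0) := by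
  rw [alt_eq2, Finset.sum_mul, MvPolynomial.coeff_sum]
  apply Finset.sum_congr rfl
  intro κ _
  rw [intCast_eq_C, mul_assoc, MvPolynomial.coeff_C_mul, mono_eq, MvPolynomial.coeff_monomial_mul', one_mul]
  congr 1
  have h1 : (fs ((fun t : Fin n => t.val) ∘ κ) ≤ fs l) ↔ ∀ s, (κ s).val ≤ l s := by
    rw [Finsupp.le_def]
    rfl
  have h2 : fs l - fs ((fun t : Fin n => t.val) ∘ κ) = fs fun s => l s - (κ s).val := by
    ext s
    rfl
  simp only [h1, h2]

theorem det_JT (l : Fin n → ℕ) :
    (JT l).det = ∑ κ : Equiv.Perm (Fin n), ((Equiv.Perm.sign κ : ℤ) : MvPolynomial (Fin n) ℤ) *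
      (if ∀ t, (κ t).val ≤ l t then ∏ t, hh (l t - (κ t).val) else 0) := by
  rw [Matrix.det_apply']
  apply Finset.sum_congr rfl
  intro κ _
  congr 1
  simp only [JT, Matrix.of_apply, H]
  rw [Finset.prod_ite_zero]
  simp

theorem coeff_alt (l l' : Fin n → ℕ) (hl : StrictMono l) (hl' : StrictMono l') :
    coeff (fs l) (alt l') = if l = l' then 1 else 0 := by
  rw [alt_eq2, MvPolynomial.coeff_sum]
  simp only [intCast_eq_C, MvPolynomial.coeff_C_mul, coeff_mono]
  split_ifs with h
  · subst h
    rw [Finset.sum_eq_single 1]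
    · simp
    · intro σ _ hσ
      rw [if_neg, mul_zero]
      intro h2
      apply hσ
      ext t
      have := congrFun h2 t
      simp only [Function.comp_apply] at this
      rw [hl.injective this]
      rfl
    · simp
  · apply Finset.sum_eq_zero
    intro σ _
    rw [if_neg, mul_zero]
    intro h2
    apply h
    apply (hl.range_inj hl').mp
    rw [← h2, Set.range_comp, Set.range_eq_univ.mpr σ.surjective, Set.image_univ]

/-- **Orthonormality** of the determinantal combinations. -/
theorem orth (l l' : Fin n → ℕ) (hl : StrictMono l) (hl' : StrictMono l') :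
    ∑ κ : Equiv.Perm (Fin n), ∑ κ' : Equiv.Perm (Fin n),
      (if ∀ s, (κ s).val ≤ l s then
        (if ∀ t, (κ' t).val ≤ l' t then
          (Equiv.Perm.sign κ : ℤ) * (Equiv.Perm.sign κ' : ℤ) *
            (NN (fun s => l s - (κ s).val) (fun t => l' t - (κ' t).val) : ℤ) else 0) else 0) =
      if l = l' then 1 else 0 := by
  rw [← coeff_alt l l' hl hl', ← bialternant l', coeff_alt_mul]
  apply Finset.sum_congr rfl
  intro κ _
  split_ifs with h
  · rw [det_JT, MvPolynomial.coeff_sum, Finset.mul_sum]
    apply Finset.sum_congr rfl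
    intro κ' _
    rw [intCast_eq_C, MvPolynomial.coeff_C_mul]
    split_ifs with h'
    · rw [coeff_prod_hh]
      ring
    · simp
  · simp

end Cfsg.Agent.Lib.Helper46JT
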