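import Cfsg.Agent.Lib.Helper46SL2CharL
import Cfsg.Agent.Lib.Helper44St
import Cfsg.Agent.Lib.Helper19Ind

/-!
# The minimal index of a proper subgroup of `SL₂(q)` (Galois), through permutation characters
-/

set_option autoImplicit false
set_option linter.unusedSectionVars false
set_option linter.unusedSimpArgs false
set_option linter.unusedVariables false

namespace Cfsg.Agent.Lib.Helper46MinIndex

open Cfsg.Agent.Lib.Helper46SL2 Cfsg.Agent.Lib.Helper46Borel Cfsg.Agent.S2432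
open Cfsg.Agent.Lib.Helper4Char Cfsg.Agent.Lib.Helper4Char2 Cfsg.Agent.Lib.Helper4Char4
open Cfsg.Agent.Lib.Helper46SL2CharA Cfsg.Agent.Lib.Helper32Virt Cfsg.Agent.Lib.Helper46SL2CharD
open Cfsg.Agent.Lib.Helper46SL2CharB Cfsg.Agent.Lib.Helper46SL2CharC Cfsg.Agent.Lib.Helper46Fourier
open Cfsg.Agent.Lib.Helper46SL2CharE Cfsg.Agent.Lib.Helper46SL2CharF Cfsg.Agent.Lib.Helper46SL2CharG
open Cfsg.Agent.Lib.Helper46SL2CharH Cfsg.Agent.Lib.Helper46SL2CharJ Cfsg.Agent.Lib.Helper46SL2CharL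
open scoped ComplexConjugate

local notation "SL2" => Matrix.SpecialLinearGroup (Fin 2)

section General

variable {G : Type*} [Group G] [Fintype G]

theorem perm_inner_one (H : Subgroup G) :
    Cfsg.classInner (1 : G → ℂ) (Cfsg.indFun H (fun _ => 1)) = 1 := by
  classical
  let _ : Fintype H := Fintype.ofFinite _
  have hG : (Nat.card G : ℂ) ≠ 0 := by exact_mod_cast Nat.card_pos.ne'
  have hH : (Nat.card H : ℂ) ≠ 0 := by exact_mod_cast Nat.card_pos.ne'
  rw [Cfsg.classInner, frob _ _ _ (fun x h => rfl), sum_ext]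
  simp only [Pi.one_apply, map_one, mul_one, Finset.sum_const, Finset.card_univ, nsmul_eq_mul]
  rw [← Nat.card_eq_fintype_card (α := H)]
  field_simp

theorem perm_isCharacter (H : Subgroup G) : Cfsg.IsCharacter G (Cfsg.indFun H (fun _ => 1)) :=
  Cfsg.Agent.S0148.result H _ (IsCharacter.one (G := H))

theorem char_peel {ψ : G → ℂ} (hψ : Cfsg.IsCharacter G ψ) (h1 : ψ 1 ≠ 0) :
    ∃ χ : G → ℂ, Cfsg.IsIrrCharacter G χ ∧ Cfsg.classInner ψ χ ≠ 0 ∧ Cfsg.IsCharacter G (ψ - χ) := by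
  by_contra hcon
  push Not at hcon
  apply h1
  have : ψ = 0 := by
    apply eq_zero_of_classInner_irr_eq_zero ψ (IsCharacter.isClassFunction hψ)
    intro χ hχ
    by_contra hne
    exact hcon χ hχ hne (Cfsg.Agent.Lib.Helper44St.sub_isCharacter ψ χ hψ hχ hne)
  rw [this]
  rfl

theorem char_zero_of_deg {ψ : G → ℂ} (hψ : Cfsg.IsCharacter G ψ) (h1 : ψ 1 = 0) : ψ = 0 := by
  apply eq_zero_of_classInner_irr_eq_zero ψ (IsCharacter.isClassFunction hψ)
  intro χ hχ
  by_contra hne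
  have h2 := Cfsg.Agent.Lib.Helper44St.sub_isCharacter ψ χ hψ hχ hne
  obtain ⟨d, hd⟩ := IsCharacter.exists_degree h2
  obtain ⟨e, he0, he⟩ := IsIrrCharacter.exists_degree hχ
  rw [Pi.sub_apply, h1, he] at hd
  have : ((d + e : ℕ) : ℂ) = 0 := by
    push_cast
    rw [← hd]; ring
  have h3 : d + e = 0 := by exact_mod_cast this
  omega

end General

variable {F : Type*} [Field F] [Fintype F] [DecidableEq F] {C : Subgroup (SL2 F)}

local notation "q" => (Fintype.card F : ℂ)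

/-- The two halves are swapped on the two classes of transvections. -/
theorem halves_unip_swap (hodd : Odd (Fintype.card F)) (hC : IsNS C) {Θ χ χ' : SL2 F → ℂ} (hh : Halves C Θ χ χ')
    {α : MulChar F ℂ} (h1 : α = α⁻¹) (h2 : α ≠ 1) {ν : Fˣ} (hν : α (ν : F) = -1)
    (hΘ : Θ (mB ((1 : Fˣ), (ν : F)) : SL2 F) = Θ (mB ((1 : Fˣ), (1 : F)) : SL2 F)) :
    χ (mB ((1 : Fˣ), (ν : F)) : SL2 F) = χ' (mB ((1 : Fˣ), (1 : F)) : SL2 F) := by
  have c1 := IsIrrCharacter.isClassFunction hh.irr1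
  have c2 := IsIrrCharacter.isClassFunction hh.irr2
  have hcl : Cfsg.IsClassFunction (SL2 F) (χ - χ') := IsClassFunction.sub c1 c2
  have ha : ((1 : Fˣ) : F) ^ 2 = 1 := by simp
  have h0 : (χ - χ') (mB ((1 : Fˣ), 0) : SL2 F) = 0 := by
    rw [Pi.sub_apply, sub_eq_zero]
    exact hh.onC ⟨_, hC.center_le (mB_central ha)⟩
  have hs : ∑ e : F, (χ - χ') (mB ((1 : Fˣ), e) : SL2 F) = 0 := by
    simp only [Pi.sub_apply, Finset.sum_sub_distrib, hh.onU 1, sub_self]
  have v2 := unip_values hodd h1 h2 hcl 1 h0 hs ν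
  rw [hν] at v2
  simp only [Pi.sub_apply] at v2
  have s1 := congrFun hh.sum (mB ((1 : Fˣ), (1 : F)) : SL2 F)
  have s2 := congrFun hh.sum (mB ((1 : Fˣ), (ν : F)) : SL2 F)
  rw [Pi.add_apply] at s1 s2
  rw [hΘ, s1] at s2
  linear_combination (1 / 2 : ℂ) * v2 - (1 / 2 : ℂ) * s2

/-- Numerical data of a pair of halves at the two classes of transvections. -/
theorem halves_data (hodd : Odd (Fintype.card F)) (hC : IsNS C) {Θ χ χ' : SL2 F → ℂ} (hh : Halves C Θ χ χ')
    (t : ℂ) (hΘ : ∀ e : F, e ≠ 0 → Θ (mB ((1 : Fˣ), e) : SL2 F) = t) :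
    ∃ u u' : SL2 F, χ u + χ u' = t ∧ (χ u - χ u') ^ 2 = (-1) ^ ((Fintype.card F - 1) / 2) * q := by
  obtain ⟨α, h1, h2⟩ := exists_quad (F := F) hodd
  obtain ⟨ν, hν⟩ := exists_alpha_neg_one h1 h2
  refine ⟨(mB ((1 : Fˣ), (1 : F)) : SL2 F), (mB ((1 : Fˣ), (ν : F)) : SL2 F), ?_, ?_⟩
  · rw [halves_unip_swap hodd hC hh h1 h2 hν (by rw [hΘ _ ν.ne_zero, hΘ _ one_ne_zero]), ← hΘ 1 one_ne_zero, hh.sum]
    rfl
  · rw [halves_unip_swap hodd hC hh h1 h2 hν (by rw [hΘ _ ν.ne_zero, hΘ _ one_ne_zero])]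
    exact halves_D_sq hodd hC hh

theorem sq_eq_sign_mul {k k' : ℕ} {m Q : ℕ} (h : ((k : ℂ) - (k' : ℂ)) ^ 2 = (-1) ^ m * (Q : ℂ)) :
    ((k : ℤ) - (k' : ℤ)) ^ 2 = (Q : ℤ) ∨ Q = 0 := by
  rcases neg_one_pow_cases m with h1 | h1
  · left
    rw [h1, one_mul] at h
    exact_mod_cast h
  · right
    rw [h1] at h
    have h2 : ((k : ℤ) - (k' : ℤ)) ^ 2 = -(Q : ℤ) := by
      have : (((((k : ℤ) - (k' : ℤ)) ^ 2 : ℤ)) : ℂ) = ((-(Q : ℤ) : ℤ) : ℂ) := by
        push_cast
        rw [h]; ring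
      exact_mod_cast this
    have h3 := sq_nonneg ((k : ℤ) - (k' : ℤ))
    omega

/-- `1 + χ` with `χ` a half of a principal series character is not a permutation character. -/
theorem case_half_add (hodd : Odd (Fintype.card F)) (hC : IsNS C) {α : MulChar F ℂ} {π χ χ' : SL2 F → ℂ}
    (hh : Halves C (RR α) χ χ') (hπ : ∀ g, ∃ k : ℕ, π g = k) (h : π = 1 + χ) : Fintype.card F ≤ 9 := by
  obtain ⟨u, u', e1, e2⟩ := halves_data hodd hC hh 1 (fun e he => by
    rw [RR_mB_unip α 1 e (by simp) he]; simp)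
  obtain ⟨k, hk⟩ := hπ u
  obtain ⟨k', hk'⟩ := hπ u'
  rw [h, Pi.add_apply, Pi.one_apply] at hk hk'
  have a1 : χ u = k - 1 := by rw [← hk]; ring
  have a2 : χ u' = k' - 1 := by rw [← hk']; ring
  rw [a1, a2] at e1 e2
  have s : k + k' = 3 := by
    have : ((k + k' : ℕ) : ℂ) = ((3 : ℕ) : ℂ) := by
      push_cast
      linear_combination e1
    exact_mod_cast this
  have e3 : ((k : ℂ) - (k' : ℂ)) ^ 2 = (-1) ^ ((Fintype.card F - 1) / 2) * q := by
    rw [← e2]; ring
  rcases sq_eq_sign_mul e3 with h5 | h5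
  · have hk3 : k ≤ 3 := by omega
    have : k' = 3 - k := by omega
    subst this
    interval_cases k <;> simp at h5 <;> omega
  · omega

theorem case_half_sub (hodd : Odd (Fintype.card F)) (hC : IsNS C) {θ : C →* ℂˣ} {α : MulChar F ℂ}
    {π χ χ' : SL2 F → ℂ}
    (hh : Halves C (cusp θ α) χ χ') (hπ : ∀ g, ∃ k : ℕ, π g = k) (h : π = 1 + χ) : Fintype.card F ≤ 1 := by
  obtain ⟨u, u', e1, e2⟩ := halves_data hodd hC hh (-1) (fun e he => by
    rw [cusp_mB_unip hC θ α 1 e (by simp) he]; simp)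
  obtain ⟨k, hk⟩ := hπ u
  obtain ⟨k', hk'⟩ := hπ u'
  rw [h, Pi.add_apply, Pi.one_apply] at hk hk'
  have a1 : χ u = k - 1 := by rw [← hk]; ring
  have a2 : χ u' = k' - 1 := by rw [← hk']; ring
  rw [a1, a2] at e1 e2
  have s : k + k' = 1 := by
    have : ((k + k' : ℕ) : ℂ) = ((1 : ℕ) : ℂ) := by
      push_cast
      linear_combination e1
    exact_mod_cast this
  have e3 : ((k : ℂ) - (k' : ℂ)) ^ 2 = (-1) ^ ((Fintype.card F - 1) / 2) * q := by
    rw [← e2]; ring
  rcases sq_eq_sign_mul e3 with h5 | h5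
  · have hk3 : k ≤ 1 := by omega
    have : k' = 1 - k := by omega
    subst this
    interval_cases k <;> simp at h5 <;> omega
  · omega

theorem case_half_sub_twice (hodd : Odd (Fintype.card F)) (hC : IsNS C) {θ : C →* ℂˣ} {α : MulChar F ℂ}
    {π χ χ' : SL2 F → ℂ}
    (hh : Halves C (cusp θ α) χ χ') (hπ : ∀ g, ∃ k : ℕ, π g = k) (h : π = 1 + χ + χ) : False := by
  obtain ⟨u, u', e1, e2⟩ := halves_data hodd hC hh (-1) (fun e he => by
    rw [cusp_mB_unip hC θ α 1 e (by simp) he]; simp)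
  obtain ⟨k, hk⟩ := hπ u
  obtain ⟨k', hk'⟩ := hπ u'
  rw [h, Pi.add_apply, Pi.add_apply, Pi.one_apply] at hk hk'
  have a1 : χ u = (k - 1) / 2 := by rw [← hk]; ring
  have a2 : χ u' = (k' - 1) / 2 := by rw [← hk']; ring
  rw [a1, a2] at e1 e2
  have s : k + k' = 0 := by
    have : ((k + k' : ℕ) : ℂ) = ((0 : ℕ) : ℂ) := by
      push_cast
      linear_combination 2 * e1
    exact_mod_cast this
  have hk0 : k = 0 := by omega
  have hk0' : k' = 0 := by omega
  subst hk0 hk0'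
  have hq := q_ne_zero (F := F)
  rcases neg_one_pow_cases ((Fintype.card F - 1) / 2) with h1 | h1
  · rw [h1] at e2
    apply hq
    linear_combination -e2
  · rw [h1] at e2
    apply hq
    linear_combination e2

/-- Powers of a generator of the nonsplit torus which are central. -/
theorem dvd_of_pow_central (hC : IsNS C) {g : C} (hg : ∀ x, x ∈ Subgroup.zpowers g) {j : ℕ}
    (h : ((g ^ j : C) : SL2 F) ∈ Subgroup.center (SL2 F)) : Fintype.card F + 1 ∣ 2 * j := by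
  have hord : orderOf g = Fintype.card F + 1 := by
    rw [orderOf_eq_card_of_forall_mem_zpowers hg, hC.card]
  rw [← hord]
  apply orderOf_dvd_of_pow_eq_one
  rw [mul_comm, pow_mul]
  apply Subtype.ext
  rw [Subgroup.coe_pow]
  rcases mem_center_iff_eq.mp h with h1 | h1 <;> rw [h1] <;> simp

theorem case_cusp_of_pow (hC : IsNS C) {θ : C →* ℂˣ} {α : MulChar F ℂ} {π : SL2 F → ℂ}
    (hπ : ∀ g, ∃ k : ℕ, π g = k) (h : π = 1 + cusp θ α) {g : C} (hg : ∀ x, x ∈ Subgroup.zpowers g) {j : ℕ}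
    (hj : θ g ^ j = 1) : Fintype.card F + 1 ∣ 2 * j := by
  apply dvd_of_pow_central hC hg
  by_contra hcz
  obtain ⟨k, hk⟩ := hπ ((g ^ j : C) : SL2 F)
  rw [h, Pi.add_apply, Pi.one_apply, cusp_mem hC θ α _ hcz, map_inv, map_pow, hj] at hk
  simp only [inv_one, Units.val_one] at hk
  have : ((k + 1 : ℕ) : ℂ) = ((0 : ℕ) : ℂ) := by
    push_cast
    rw [← hk]; ring
  have h2 : k + 1 = 0 := by exact_mod_cast this
  omega

/-- `1 + cusp θ α` is a permutation character only for very small `q`. -/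
theorem case_cusp (hC : IsNS C) (hq : 2 ≤ Fintype.card F) {θ : C →* ℂˣ} {α : MulChar F ℂ} {π : SL2 F → ℂ}
    (hπ : ∀ g, ∃ k : ℕ, π g = k) (h : π = 1 + cusp θ α) :
    Fintype.card F + 1 ∣ 8 ∨ Fintype.card F + 1 ∣ 12 := by
  have := hC.cyclic
  obtain ⟨g, hg⟩ := IsCyclic.exists_generator (α := C)
  have hord : orderOf g = Fintype.card F + 1 := by
    rw [orderOf_eq_card_of_forall_mem_zpowers hg, hC.card]
  have hgz : (g : SL2 F) ∉ Subgroup.center (SL2 F) := by
    intro hz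
    have := dvd_of_pow_central hC hg (j := 1) (by simpa using hz)
    have := Nat.le_of_dvd (by norm_num) this
    omega
  obtain ⟨k, hk⟩ := hπ (g : SL2 F)
  rw [h, Pi.add_apply, Pi.one_apply, cusp_mem hC θ α _ hgz, map_inv] at hk
  set z : ℂ := ((θ g : ℂˣ) : ℂ) with hz
  have hz0 : z ≠ 0 := (θ g).ne_zero
  have hzinv : (((θ g)⁻¹ : ℂˣ) : ℂ) = z⁻¹ := by rw [Units.val_inv_eq_inv_val]
  rw [hzinv] at hk
  have hzn : z ^ (Fintype.card F + 1) = 1 := by
    rw [hz, ← Units.val_pow_eq_pow_val, ← map_pow, ← hord, pow_orderOf_eq_one, map_one, Units.val_one]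
  have hnorm : ‖z‖ = 1 := Complex.norm_eq_one_of_pow_eq_one hzn (by omega)
  have hk3 : k ≤ 3 := by
    have h1 : (k : ℂ) - 1 = -(z + z⁻¹) := by rw [← hk]; ring
    have h2 : ‖(k : ℂ) - 1‖ ≤ 2 := by
      rw [h1, norm_neg]
      calc ‖z + z⁻¹‖ ≤ ‖z‖ + ‖z⁻¹‖ := norm_add_le _ _
        _ = 2 := by rw [norm_inv, hnorm]; norm_num
    by_contra hcon
    push Not at hcon
    have h3 : ‖(k : ℂ) - 1‖ = (k : ℝ) - 1 := by
      have : (k : ℂ) - 1 = (((k : ℝ) - 1 : ℝ) : ℂ) := by push_cast; ring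
      rw [this, Complex.norm_real, Real.norm_eq_abs, abs_of_nonneg]
      have : (4 : ℝ) ≤ k := by exact_mod_cast hcon
      linarith
    rw [h3] at h2
    have : (4 : ℝ) ≤ k := by exact_mod_cast hcon
    linarith
  have hquad : z ^ 2 + ((k : ℂ) - 1) * z + 1 = 0 := by
    have : z * z⁻¹ = 1 := mul_inv_cancel₀ hz0
    have h1 : (k : ℂ) - 1 = -(z + z⁻¹) := by rw [← hk]; ring
    rw [h1]
    linear_combination -this
  have hunit : ∀ j : ℕ, z ^ j = 1 → θ g ^ j = 1 := by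
    intro j hj
    apply Units.ext
    rw [Units.val_pow_eq_pow_val, Units.val_one]
    exact hj
  interval_cases k
  · right
    have : z ^ 6 = 1 := by
      simp only [Nat.cast_zero] at hquad
      linear_combination (z ^ 4 + z ^ 3 - z - 1) * hquad
    exact case_cusp_of_pow hC hπ h hg (hunit 6 this)
  · left
    have : z ^ 4 = 1 := by
      simp only [Nat.cast_one] at hquad
      linear_combination (z ^ 2 - 1) * hquad
    exact case_cusp_of_pow hC hπ h hg (hunit 4 this)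
  · right
    have : z ^ 6 = 1 := by
      simp only [Nat.cast_ofNat] at hquad
      linear_combination (z ^ 4 - z ^ 3 + z - 1) * hquad
    exact case_cusp_of_pow hC hπ h hg (hunit 6 this)
  · left
    have h1 : (z + 1) ^ 2 = 0 := by
      simp only [Nat.cast_ofNat] at hquad
      linear_combination hquad
    have h2 : z = -1 := by
      have := pow_eq_zero_iff (two_ne_zero) |>.mp h1
      linear_combination this
    have : z ^ 4 = 1 := by rw [h2]; norm_num
    exact case_cusp_of_pow hC hπ h hg (hunit 4 this)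

/-- The case of the sum of the two halves of a cuspidal function. -/
theorem case_cusp_self_inv (hC : IsNS C) {θ : C →* ℂˣ} {α : MulChar F ℂ} {π : SL2 F → ℂ}
    (hθ : θ⁻¹ = θ) (hπ : ∀ g, ∃ k : ℕ, π g = k) (h : π = 1 + cusp θ α) : Fintype.card F + 1 ∣ 4 := by
  have := hC.cyclic
  obtain ⟨g, hg⟩ := IsCyclic.exists_generator (α := C)
  exact case_cusp_of_pow hC hπ h hg (hom_sq hθ g)

/-- **Galois**: a proper subgroup of `SL₂(q)` has index at least `q + 1`, unless `q ∈ {2,3,5,7,9,11}`. -/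
theorem index_ge (hq : Fintype.card F ∉ ({2, 3, 5, 7, 9, 11} : Finset ℕ)) (H : Subgroup (SL2 F)) (hH : H ≠ ⊤) :
    Fintype.card F + 1 ≤ H.index := by
  obtain ⟨C, hC⟩ := exists_isNS (F := F)
  have hq2 := two_le_card (F := F)
  simp only [Finset.mem_insert, Finset.mem_singleton, not_or] at hq
  obtain ⟨q2, q3, q5, q7, q9, q11⟩ := hq
  by_contra hlt
  push Not at hlt
  set π : SL2 F → ℂ := Cfsg.indFun H (fun _ => 1) with hπdef
  have hπ : ∀ g, ∃ k : ℕ, π g = k := fun g => ⟨_, Cfsg.Agent.Lib.Helper19Ind.indFun_one_eq_card_fixed H g⟩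
  have hπ1 : π 1 = (H.index : ℂ) := by
    rw [hπdef, Cfsg.Agent.Lib.Helper44St.indFun_degree, mul_one]
  have hidx : 2 ≤ H.index := by
    have h0 : H.index ≠ 0 := Subgroup.index_ne_zero_of_finite
    have h1 : H.index ≠ 1 := fun h => hH (Subgroup.index_eq_one.mp h)
    omega
  have hin : Cfsg.classInner π (1 : SL2 F → ℂ) = 1 := by
    rw [← classInner_conj_symm, perm_inner_one]
    simp
  have no8 : ¬ (Fintype.card F + 1 ∣ 8 ∨ Fintype.card F + 1 ∣ 12) := by
    rintro (h | h)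
    · have h1 := Nat.le_of_dvd (by norm_num) h
      obtain ⟨c, hc⟩ := h
      have : c ≤ 8 := by nlinarith
      interval_cases c <;> omega
    · have h1 := Nat.le_of_dvd (by norm_num) h
      obtain ⟨c, hc⟩ := h
      have : c ≤ 12 := by nlinarith
      interval_cases c <;> omega
  have hψ : Cfsg.IsCharacter (SL2 F) (π - 1) :=
    Cfsg.Agent.Lib.Helper44St.sub_isCharacter π 1 (perm_isCharacter H) one_irr (by rw [hin]; exact one_ne_zero)
  have hψ1 : (π - 1) 1 = ((H.index - 1 : ℕ) : ℂ) := by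
    rw [Pi.sub_apply, hπ1, Pi.one_apply, Nat.cast_sub (by omega)]
    simp
  have hψin : Cfsg.classInner (π - 1) (1 : SL2 F → ℂ) = 0 := by
    rw [classInner_sub_left, hin, classInner_irr_self one_irr, sub_self]
  obtain ⟨χ₁, irr1, ne1, hψ2⟩ := char_peel hψ (by
    rw [hψ1]
    exact_mod_cast (by omega : H.index - 1 ≠ 0))
  have hχ₁ : χ₁ ≠ 1 := by
    rintro rfl
    exact ne1 hψin
  obtain ⟨d₂, hd₂⟩ := IsCharacter.exists_degree hψ2
  obtain ⟨n₁, hn₁, cases1⟩ := classify_deg hC irr1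
  have hsum1 : n₁ + d₂ = H.index - 1 := by
    have : ((n₁ + d₂ : ℕ) : ℂ) = ((H.index - 1 : ℕ) : ℂ) := by
      push_cast
      rw [← hψ1, ← hn₁, ← hd₂, Pi.sub_apply]
      ring
    exact_mod_cast this
  have hψ2in : Cfsg.classInner (π - 1 - χ₁) (1 : SL2 F → ℂ) = 0 := by
    rw [classInner_sub_left, hψin, classInner_irr_ne irr1 one_irr hχ₁, sub_self]
  have fin1 : d₂ = 0 → π = 1 + χ₁ := by
    intro h0
    have := char_zero_of_deg hψ2 (by rw [hd₂, h0]; simp)
    funext g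
    have := congrFun this g
    simp only [Pi.sub_apply, Pi.one_apply, Pi.zero_apply, Pi.add_apply] at this ⊢
    linear_combination this
  rcases cases1 with ⟨-, h1⟩ | ⟨h1, -⟩ | ⟨h1, -⟩ | ⟨h1, θ, α, hc, hθ, rfl⟩ | ⟨hodd, h1, α, χ', a1, a2, hh⟩ |
      ⟨hodd, h1, θ, α, χ', hc, a1, a2, hh⟩
  · exact hχ₁ h1
  · omega
  · omega
  · exact no8 (case_cusp hC hq2 hπ (fin1 (by omega)))
  · obtain ⟨k, hk⟩ := hodd
    by_cases h0 : d₂ = 0
    · have := case_half_add ⟨k, hk⟩ hC hh hπ (fin1 h0)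
      omega
    · obtain ⟨χ₂, irr2, ne2, hψ3⟩ := char_peel hψ2 (by rw [hd₂]; exact_mod_cast h0)
      have hχ₂ : χ₂ ≠ 1 := by
        rintro rfl
        exact ne2 hψ2in
      obtain ⟨d₃, hd₃⟩ := IsCharacter.exists_degree hψ3
      obtain ⟨n₂, hn₂, cases2⟩ := classify_deg hC irr2
      have hsum2 : n₂ + d₃ = d₂ := by
        have : ((n₂ + d₃ : ℕ) : ℂ) = ((d₂ : ℕ) : ℂ) := by
          push_cast
          rw [← hd₂, ← hn₂, ← hd₃, Pi.sub_apply (π - 1 - χ₁)]
          ring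
        exact_mod_cast this
      rcases cases2 with ⟨-, h2⟩ | ⟨h2, -⟩ | ⟨h2, -⟩ | ⟨h2, -⟩ | ⟨-, h2, -⟩ | ⟨-, h2, -⟩
      · exact hχ₂ h2
      all_goals omega
  · obtain ⟨k, hk⟩ := hodd
    by_cases h0 : d₂ = 0
    · have := case_half_sub ⟨k, hk⟩ hC hh hπ (fin1 h0)
      omega
    · obtain ⟨χ₂, irr2, ne2, hψ3⟩ := char_peel hψ2 (by rw [hd₂]; exact_mod_cast h0)
      have hχ₂ : χ₂ ≠ 1 := by
        rintro rfl
        exact ne2 hψ2in
      obtain ⟨d₃, hd₃⟩ := IsCharacter.exists_degree hψ3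
      obtain ⟨n₂, hn₂, cases2⟩ := classify_deg hC irr2
      have hsum2 : n₂ + d₃ = d₂ := by
        have : ((n₂ + d₃ : ℕ) : ℂ) = ((d₂ : ℕ) : ℂ) := by
          push_cast
          rw [← hd₂, ← hn₂, ← hd₃, Pi.sub_apply (π - 1 - χ₁)]
          ring
        exact_mod_cast this
      have fin2 : d₃ = 0 → π = 1 + χ₁ + χ₂ := by
        intro h0
        have := char_zero_of_deg hψ3 (by rw [hd₃, h0]; simp)
        funext g
        have := congrFun this g
        simp only [Pi.sub_apply, Pi.one_apply, Pi.zero_apply, Pi.add_apply] at this ⊢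
        linear_combination this
      rcases cases2 with ⟨-, h2⟩ | ⟨h2, -⟩ | ⟨h2, -⟩ | ⟨h2, -⟩ | ⟨-, h2, -⟩ |
        ⟨-, h2, θ', α', χ'', hc', a1', a2', hh'⟩
      · exact hχ₂ h2
      · omega
      · omega
      · omega
      · omega
      · have e := fin2 (by omega)
        by_cases heq : χ₁ = χ₂
        · subst heq
          exact case_half_sub_twice ⟨k, hk⟩ hC hh hπ e
        · obtain rfl := hom_order_two_unique' hC a1 a2 a1' a2'
          rw [cusp_congr hC hc' hc] at hh'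
          have e2 := halves_other hh hh' heq
          rw [e2, add_assoc, ← hh.sum] at e
          have := case_cusp_self_inv hC a1 hπ e
          have := Nat.le_of_dvd (by norm_num) this
          omega

end Cfsg.Agent.Lib.Helper46MinIndex
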