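import Mathlib
import Cfsg.Prelude.Def_LinearParabolics

set_option autoImplicit false
set_option linter.unusedSectionVars false

namespace Cfsg.Agent.Lib.Helper46Parab

open scoped MatrixGroups

section General

variable {ι α F : Type*} [Fintype ι] [DecidableEq ι] [Field F]

/-- `GL` as the set of matrices of nonzero determinant. -/
noncomputable def glSub (m : Type*) [Fintype m] [DecidableEq m] :
    GL m F ≃ {N : Matrix m m F // N.det ≠ 0} where
  toFun g := ⟨g.1, by
    have := (Matrix.isUnit_iff_isUnit_det _).mp g.isUnit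
    exact this.ne_zero⟩
  invFun N := Matrix.GeneralLinearGroup.mkOfDetNeZero N.1 N.2
  left_inv g := by
    apply Units.ext
    rfl
  right_inv N := rfl

theorem card_det_ne_zero [Fintype F] (m : Type*) [Fintype m] [DecidableEq m] :
    Nat.card {N : Matrix m m F // N.det ≠ 0} =
      ∏ i : Fin (Fintype.card m), (Fintype.card F ^ (Fintype.card m) - Fintype.card F ^ i.val) := by
  rw [← Matrix.card_GL_field, Nat.card_congr (glSub (F := F) (Fin (Fintype.card m)))]
  apply Nat.card_congr
  refine (Matrix.reindex (Fintype.equivFin m) (Fintype.equivFin m)).subtypeEquiv ?_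
  intro N
  rw [Matrix.det_reindex_self]

variable [LinearOrder α]

/-- Assemble a block triangular matrix from its diagonal blocks and its entries above. -/
def assemble (b : ι → α) (g : ∀ a, Matrix {i // b i = a} {i // b i = a} F)
    (f : {p : ι × ι // b p.1 < b p.2} → F) : Matrix ι ι F :=
  fun i j => if h : b i = b j then g (b j) ⟨i, h⟩ ⟨j, rfl⟩ else
    if h2 : b i < b j then f ⟨(i, j), h2⟩ else 0

theorem assemble_blockTriangular (b : ι → α) (g : ∀ a, Matrix {i // b i = a} {i // b i = a} F)
    (f : {p : ι × ι // b p.1 < b p.2} → F) : (assemble b g f).BlockTriangular b := by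
  intro i j hij
  unfold assemble
  rw [dif_neg hij.ne', dif_neg (not_lt.mpr hij.le)]

theorem toSquareBlock_assemble (b : ι → α) (g : ∀ a, Matrix {i // b i = a} {i // b i = a} F)
    (f : {p : ι × ι // b p.1 < b p.2} → F) (a : α) : (assemble b g f).toSquareBlock b a = g a := by
  ext ⟨i, hi⟩ ⟨j, hj⟩
  subst hj
  change assemble b g f i j = _
  unfold assemble
  rw [dif_pos hi]

/-- The parametrisation of invertible block triangular matrices. -/
noncomputable def ptEquiv [Fintype α] (b : ι → α) :
    {M : Matrix ι ι F // M.BlockTriangular b ∧ M.det ≠ 0} ≃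
      (∀ a, {N : Matrix {i // b i = a} {i // b i = a} F // N.det ≠ 0}) ×
        ({p : ι × ι // b p.1 < b p.2} → F) where
  toFun M := (fun a => ⟨M.1.toSquareBlock b a, by
      have h := M.2.2
      rw [M.2.1.det_fintype] at h
      exact (Finset.prod_ne_zero_iff.mp h) a (Finset.mem_univ a)⟩, fun p => M.1 p.1.1 p.1.2)
  invFun x := ⟨assemble b (fun a => (x.1 a).1) x.2, assemble_blockTriangular _ _ _, by
      rw [(assemble_blockTriangular _ _ _).det_fintype]
      apply Finset.prod_ne_zero_iff.mpr
      intro a _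
      rw [toSquareBlock_assemble]
      exact (x.1 a).2⟩
  left_inv M := by
    apply Subtype.ext
    ext i j
    change assemble b (fun a => M.1.toSquareBlock b a) (fun p => M.1 p.1.1 p.1.2) i j = _
    unfold assemble
    split_ifs with h h2
    · rfl
    · rfl
    · exact (M.2.1 (lt_of_le_of_ne (not_lt.mp h2) (Ne.symm h))).symm
  right_inv x := by
    apply Prod.ext
    · funext a
      apply Subtype.ext
      exact toSquareBlock_assemble b (fun a => (x.1 a).1) x.2 a
    · funext ⟨⟨i, j⟩, h⟩
      change assemble b (fun a => (x.1 a).1) x.2 i j = _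
      unfold assemble
      rw [dif_neg h.ne, dif_pos h]

end General

section Label

variable {n : ℕ} (μ : Fin n → ℕ)

/-- Partial sums of a composition. -/
def pS (t : ℕ) : ℕ := ∑ k ∈ Finset.univ.filter (fun k : Fin n => k.val < t), μ k

theorem pS_mono : Monotone (pS μ) := by
  intro s t hst
  apply Finset.sum_le_sum_of_subset
  intro k hk
  rw [Finset.mem_filter] at hk ⊢
  exact ⟨hk.1, lt_of_lt_of_le hk.2 hst⟩

theorem pS_succ (t : Fin n) : pS μ (t.val + 1) = pS μ t.val + μ t := by
  unfold pS
  have : Finset.univ.filter (fun k : Fin n => k.val < t.val + 1) =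
      insert t (Finset.univ.filter (fun k : Fin n => k.val < t.val)) := by
    ext k
    simp only [Finset.mem_filter, Finset.mem_univ, true_and, Finset.mem_insert, Fin.ext_iff]
    omega
  rw [this, Finset.sum_insert (by simp), add_comm]

theorem pS_top : pS μ n = ∑ k, μ k := by
  unfold pS
  congr 1
  ext k
  simp

theorem compLabel_eq (i : Fin n) :
    Cfsg.compLabel μ i = (Finset.univ.filter fun j : Fin n => pS μ (j.val + 1) ≤ i.val).card := by
  unfold Cfsg.compLabel pS
  congr 1
  ext j
  simp only [Finset.mem_filter, Finset.mem_univ, true_and]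
  have : Finset.univ.filter (fun k : Fin n => k ≤ j) = Finset.univ.filter (fun k : Fin n => k.val < j.val + 1) := by
    ext k
    simp only [Finset.mem_filter, Finset.mem_univ, true_and, Fin.le_def]
    omega
  rw [this]

theorem compLabel_of_mem (i t : Fin n) (h1 : pS μ t.val ≤ i.val) (h2 : i.val < pS μ (t.val + 1)) :
    Cfsg.compLabel μ i = t.val := by
  rw [compLabel_eq]
  have : Finset.univ.filter (fun j : Fin n => pS μ (j.val + 1) ≤ i.val) = Finset.Iio t := by
    ext j
    simp only [Finset.mem_filter, Finset.mem_univ, true_and, Finset.mem_Iio, Fin.lt_def]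
    constructor
    · intro h
      by_contra hc
      have := pS_mono μ (show t.val + 1 ≤ j.val + 1 by omega)
      omega
    · intro h
      have := pS_mono μ (show j.val + 1 ≤ t.val by omega)
      omega
  rw [this, Fin.card_Iio]

theorem compLabel_lt (hμ : ∑ k, μ k = n) (i : Fin n) : Cfsg.compLabel μ i < n := by
  rw [compLabel_eq]
  have hn : 0 < n := lt_of_le_of_lt (Nat.zero_le _) i.2
  have h1 : (Finset.univ.filter fun j : Fin n => pS μ (j.val + 1) ≤ i.val) ⊂ Finset.univ := by
    rw [Finset.ssubset_univ_iff]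
    intro h
    have h2 : (⟨n - 1, by omega⟩ : Fin n) ∈ Finset.univ.filter fun j : Fin n => pS μ (j.val + 1) ≤ i.val := by
      rw [h]
      exact Finset.mem_univ _
    rw [Finset.mem_filter] at h2
    have h3 := h2.2
    simp only at h3
    rw [show n - 1 + 1 = n by omega, pS_top, hμ] at h3
    have := i.2
    omega
  have := Finset.card_lt_card h1
  rwa [Finset.card_univ, Fintype.card_fin] at this

/-- The label function with values in `Fin n`. -/
def lab (hμ : ∑ k, μ k = n) (i : Fin n) : Fin n := ⟨Cfsg.compLabel μ i, compLabel_lt μ hμ i⟩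

theorem le_card_fiber (hμ : ∑ k, μ k = n) (t : Fin n) :
    μ t ≤ (Finset.univ.filter fun i : Fin n => lab μ hμ i = t).card := by
  have hle : pS μ (t.val + 1) ≤ n := by
    have := pS_mono μ (show t.val + 1 ≤ n from t.2)
    rwa [pS_top, hμ] at this
  have hsub : (Finset.univ.filter fun i : Fin n => pS μ t.val ≤ i.val ∧ i.val < pS μ (t.val + 1)) ⊆
      (Finset.univ.filter fun i : Fin n => lab μ hμ i = t) := by
    intro i hi
    rw [Finset.mem_filter] at hi ⊢
    exact ⟨hi.1, Fin.ext (compLabel_of_mem μ i t hi.2.1 hi.2.2)⟩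
  refine le_trans ?_ (Finset.card_le_card hsub)
  have : (Finset.univ.filter fun i : Fin n => pS μ t.val ≤ i.val ∧ i.val < pS μ (t.val + 1)).card =
      (Finset.Ico (pS μ t.val) (pS μ (t.val + 1))).card := by
    apply Finset.card_bij (fun i _ => i.val)
    · intro i hi
      rw [Finset.mem_filter] at hi
      exact Finset.mem_Ico.mpr hi.2
    · intro i _ j _ h
      exact Fin.ext h
    · intro m hm
      rw [Finset.mem_Ico] at hm
      exact ⟨⟨m, by omega⟩, by simp [hm.1, hm.2], rfl⟩
  rw [this, Nat.card_Ico, pS_succ]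
  omega

theorem card_fiber (hμ : ∑ k, μ k = n) (t : Fin n) :
    (Finset.univ.filter fun i : Fin n => lab μ hμ i = t).card = μ t := by
  have hsum : ∑ t : Fin n, (Finset.univ.filter fun i : Fin n => lab μ hμ i = t).card = ∑ t, μ t := by
    rw [hμ]
    have := Finset.card_eq_sum_card_fiberwise (s := (Finset.univ : Finset (Fin n)))
      (t := (Finset.univ : Finset (Fin n))) (f := lab μ hμ) (fun _ _ => Finset.mem_coe.mpr (Finset.mem_univ _))
    rw [Finset.card_univ, Fintype.card_fin] at this
    exact this.symm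
  by_contra hne
  have hlt : μ t < (Finset.univ.filter fun i : Fin n => lab μ hμ i = t).card :=
    lt_of_le_of_ne (le_card_fiber μ hμ t) (Ne.symm hne)
  have := Finset.sum_lt_sum (fun t _ => le_card_fiber μ hμ t) ⟨t, Finset.mem_univ t, hlt⟩
  omega

end Label

theorem pair_count {ι α : Type*} [Fintype ι] [DecidableEq ι] [Fintype α] [LinearOrder α] (b : ι → α) :
    2 * Fintype.card {p : ι × ι // b p.1 < b p.2} +
      ∑ a, ((Finset.univ.filter fun i : ι => b i = a).card) ^ 2 = (Fintype.card ι) ^ 2 := by
  have h1 : Fintype.card {p : ι × ι // b p.1 < b p.2} =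
      (Finset.univ.filter fun p : ι × ι => b p.1 < b p.2).card := Fintype.card_subtype _
  have h2 : (Finset.univ.filter fun p : ι × ι => b p.2 < b p.1).card =
      (Finset.univ.filter fun p : ι × ι => b p.1 < b p.2).card := by
    apply Finset.card_bij (fun p _ => p.swap)
    · intro p hp
      rw [Finset.mem_filter] at hp ⊢
      exact ⟨Finset.mem_univ _, hp.2⟩
    · intro p _ p' _ h
      exact Prod.swap_injective h
    · intro p hp
      rw [Finset.mem_filter] at hp
      exact ⟨p.swap, by rw [Finset.mem_filter]; exact ⟨Finset.mem_univ _, hp.2⟩, Prod.swap_swap p⟩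
  have h3 : (Finset.univ.filter fun p : ι × ι => b p.1 = b p.2).card =
      ∑ a, ((Finset.univ.filter fun i : ι => b i = a).card) ^ 2 := by
    rw [Finset.card_eq_sum_card_fiberwise (t := (Finset.univ : Finset α)) (f := fun p => b p.1)
      (fun _ _ => Finset.mem_coe.mpr (Finset.mem_univ _))]
    apply Finset.sum_congr rfl
    intro a _
    rw [sq, ← Finset.card_product]
    congr 1
    ext ⟨i, j⟩
    simp only [Finset.mem_filter, Finset.mem_univ, true_and, Finset.mem_product]
    constructor
    · rintro ⟨h, h'⟩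
      exact ⟨h', h ▸ h'⟩
    · rintro ⟨h, h'⟩
      exact ⟨h.trans h'.symm, h⟩
  have h4 : (Fintype.card ι) ^ 2 = (Finset.univ.filter fun p : ι × ι => b p.1 < b p.2).card +
      (Finset.univ.filter fun p : ι × ι => b p.1 = b p.2).card +
      (Finset.univ.filter fun p : ι × ι => b p.2 < b p.1).card := by
    rw [sq, ← Fintype.card_prod, ← Finset.card_univ, Finset.card_eq_sum_ones, Finset.card_filter,
      Finset.card_filter, Finset.card_filter, ← Finset.sum_add_distrib, ← Finset.sum_add_distrib]
    apply Finset.sum_congr rfl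
    intro p _
    rcases lt_trichotomy (b p.1) (b p.2) with h | h | h
    · rw [if_pos h, if_neg h.ne, if_neg (not_lt.mpr h.le)]
    · rw [if_neg h.not_lt, if_pos h, if_neg h.symm.not_lt]
    · rw [if_neg (not_lt.mpr h.le), if_neg h.ne', if_pos h]
  rw [h4, h1, h2, h3]
  ring

/-- q-factorial. -/
def qfac (q m : ℕ) : ℕ := ∏ j ∈ Finset.range m, ∑ l ∈ Finset.range (j + 1), q ^ l

theorem card_GL_eq (q m : ℕ) (hq : 1 ≤ q) :
    ∏ i : Fin m, (q ^ m - q ^ i.val) = q ^ (∑ i ∈ Finset.range m, i) * (q - 1) ^ m * qfac q m := by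
  obtain ⟨x, rfl⟩ := Nat.exists_eq_add_of_le' hq
  rw [Fin.prod_univ_eq_prod_range (fun i => (x + 1) ^ m - (x + 1) ^ i) m]
  have h1 : ∀ i ∈ Finset.range m, (x + 1) ^ m - (x + 1) ^ i =
      (x + 1) ^ i * (x * ∑ l ∈ Finset.range (m - 1 - i + 1), (x + 1) ^ l) := by
    intro i hi
    rw [Finset.mem_range] at hi
    have h2 := geom_sum_mul_add x (m - 1 - i + 1)
    have h3 : m = i + (m - 1 - i + 1) := by omega
    conv_lhs => rw [h3]
    rw [pow_add, ← h2]
    have : (x + 1) ^ i * ((∑ i ∈ Finset.range (m - 1 - i + 1), (x + 1) ^ i) * x + 1) =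
      (x + 1) ^ i * (x * ∑ l ∈ Finset.range (m - 1 - i + 1), (x + 1) ^ l) + (x + 1) ^ i := by ring
    rw [this, Nat.add_sub_cancel]
  rw [Finset.prod_congr rfl h1, Finset.prod_mul_distrib, Finset.prod_mul_distrib,
    Finset.prod_pow_eq_pow_sum, Finset.prod_const, Finset.card_range, Nat.add_sub_cancel, qfac,
    Finset.prod_range_reflect (fun j => ∑ l ∈ Finset.range (j + 1), (x + 1) ^ l) m]
  ring


section Card

variable {F : Type*} [Field F] {n : ℕ} (μ : Fin n → ℕ)

/-- The parabolic subgroup as a set of matrices. -/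
noncomputable def parabEquiv (hμ : ∑ k, μ k = n) : Cfsg.parabolicGL n F μ ≃
    {M : Matrix (Fin n) (Fin n) F // M.BlockTriangular (lab μ hμ) ∧ M.det ≠ 0} where
  toFun g := ⟨g.1.1, fun i j hij => g.2 (show Cfsg.compLabel μ j < Cfsg.compLabel μ i from hij),
    (glSub (F := F) (Fin n) g.1).2⟩
  invFun M := ⟨Matrix.GeneralLinearGroup.mkOfDetNeZero M.1 M.2.2,
    fun i j hij => M.2.1 (show lab μ hμ j < lab μ hμ i from hij)⟩
  left_inv g := by
    apply Subtype.ext
    apply Units.ext
    rfl
  right_inv M := rfl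

theorem card_parabolic [Fintype F] (hμ : ∑ k, μ k = n) :
    Nat.card (Cfsg.parabolicGL n F μ) =
      (∏ t : Fin n, ∏ i : Fin (μ t), (Fintype.card F ^ (μ t) - Fintype.card F ^ i.val)) *
        Fintype.card F ^ Fintype.card {p : Fin n × Fin n // lab μ hμ p.1 < lab μ hμ p.2} := by
  classical
  rw [Nat.card_congr (parabEquiv μ hμ), Nat.card_congr (ptEquiv (lab μ hμ)), Nat.card_prod, Nat.card_pi,
    Nat.card_fun, Nat.card_eq_fintype_card, Nat.card_eq_fintype_card]
  congr 1
  apply Finset.prod_congr rfl
  intro t _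
  rw [card_det_ne_zero]
  have : Fintype.card {i // lab μ hμ i = t} = μ t := by
    rw [Fintype.card_subtype, card_fiber]
  rw [this]

theorem index_parabolic [Fintype F] (hμ : ∑ k, μ k = n) :
    Nat.card (GL (Fin n) F ⧸ Cfsg.parabolicGL n F μ) * ∏ t : Fin n, qfac (Fintype.card F) (μ t) =
      qfac (Fintype.card F) n := by
  classical
  have hq : 2 ≤ Fintype.card F := Fintype.one_lt_card
  set q := Fintype.card F with hqdef
  have hlag := Subgroup.card_eq_card_quotient_mul_card_subgroup (Cfsg.parabolicGL n F μ)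
  rw [Matrix.card_GL_field, card_parabolic μ hμ, ← hqdef, card_GL_eq q n (by omega)] at hlag
  simp_rw [card_GL_eq q _ (show 1 ≤ q by omega)] at hlag
  rw [Finset.prod_mul_distrib, Finset.prod_mul_distrib, Finset.prod_pow_eq_pow_sum,
    Finset.prod_pow_eq_pow_sum, hμ] at hlag
  have hpc := pair_count (lab μ hμ)
  simp_rw [card_fiber] at hpc
  rw [Fintype.card_fin] at hpc
  set N := Fintype.card {p : Fin n × Fin n // lab μ hμ p.1 < lab μ hμ p.2} with hN
  have hc : ∀ m : ℕ, (∑ i ∈ Finset.range m, i) * 2 + m = m ^ 2 := by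
    intro m
    rw [Finset.sum_range_id_mul_two]
    cases m with
    | zero => rfl
    | succ k =>
      rw [Nat.add_sub_cancel]
      ring
  have hexp : (∑ t : Fin n, ∑ i ∈ Finset.range (μ t), i) + N = ∑ i ∈ Finset.range n, i := by
    have h1 : ∑ t : Fin n, ((∑ i ∈ Finset.range (μ t), i) * 2 + μ t) = ∑ t : Fin n, (μ t) ^ 2 :=
      Finset.sum_congr rfl (fun t _ => hc (μ t))
    rw [Finset.sum_add_distrib, ← Finset.sum_mul, hμ] at h1
    have h2 := hc n
    omega
  have hpos : 0 < q ^ (∑ i ∈ Finset.range n, i) * (q - 1) ^ n := by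
    apply Nat.mul_pos
    · apply Nat.pow_pos
      omega
    · apply Nat.pow_pos
      omega
  apply Nat.eq_of_mul_eq_mul_left hpos
  rw [hlag, ← hexp, pow_add]
  ring

end Card

end Cfsg.Agent.Lib.Helper46Parab
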