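import Mathlib

set_option autoImplicit false

/-! Embeddings of products of cyclic groups in `GL_n(F)` through extension fields and block diagonal matrices. -/

namespace Cfsg.Agent.Lib.Helper46SylEmb

open Matrix

variable {F : Type*} [Field F]

/-- a cyclic group of order `m ∣ q^d - 1` embeds in `GL_d(F)`. -/
theorem exists_cyclic_emb [Finite F] {d m : ℕ} (hd : 0 < d) (hm : m ∣ Nat.card F ^ d - 1) :
    ∃ φ : Multiplicative (ZMod m) →* GL (Fin d) F, Function.Injective φ := by
  obtain ⟨p, hp⟩ := CharP.exists F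
  have : Fact p.Prime := ⟨CharP.char_is_prime F p⟩
  have : NeZero d := ⟨hd.ne'⟩
  let E := FiniteField.Extension F p d
  have hcard : Nat.card Eˣ = Nat.card F ^ d - 1 := by
    rw [Nat.card_units, FiniteField.natCard_extension]
  have hpos : 0 < Nat.card F ^ d - 1 := by
    rw [← hcard]; exact Nat.card_pos
  have hm0 : m ≠ 0 := by
    rintro rfl
    rw [zero_dvd_iff] at hm
    omega
  obtain ⟨g, hg⟩ := IsCyclic.exists_ofOrder_eq_natCard (α := Eˣ)
  rw [hcard] at hg
  obtain ⟨c, hc⟩ := hm
  have hc0 : c ≠ 0 := by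
    rintro rfl
    rw [mul_zero] at hc
    omega
  have hord : orderOf (g ^ c) = m := by
    rw [orderOf_pow_of_dvd hc0 (by rw [hg, hc]; exact dvd_mul_left c m), hg, hc,
      Nat.mul_div_cancel _ (Nat.pos_of_ne_zero hc0)]
  have hcz : Nat.card (Subgroup.zpowers (g ^ c)) = m := by rw [Nat.card_zpowers, hord]
  have e1 : Multiplicative (ZMod m) ≃* Subgroup.zpowers (g ^ c) := by
    have := zmodCyclicMulEquiv (G := Subgroup.zpowers (g ^ c)) inferInstance
    rwa [hcz] at this
  let b : Module.Basis (Fin d) F E := Module.finBasisOfFinrankEq F E (FiniteField.finrank_extension F p d)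
  let ψ : Eˣ →* GL (Fin d) F := Units.map (Algebra.leftMulMatrix b).toRingHom.toMonoidHom
  have hψ : Function.Injective ψ := Units.map_injective (Algebra.leftMulMatrix_injective b)
  refine ⟨(ψ.comp (Subgroup.zpowers (g ^ c)).subtype).comp e1.toMonoidHom, ?_⟩
  exact (hψ.comp Subtype.val_injective).comp e1.injective

/-- adding an identity block. -/
def addOne (α β : Type*) [Fintype α] [Fintype β] [DecidableEq α] [DecidableEq β] :
    Matrix α α F →* Matrix (α ⊕ β) (α ⊕ β) F where
  toFun A := fromBlocks A 0 0 1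
  map_one' := fromBlocks_one
  map_mul' A B := by rw [fromBlocks_multiply]; simp

theorem addOne_injective (α β : Type*) [Fintype α] [Fintype β] [DecidableEq α] [DecidableEq β] :
    Function.Injective (addOne (F := F) α β) := by
  intro A B h
  exact (fromBlocks_inj.1 h).1

theorem det_addOne (α β : Type*) [Fintype α] [Fintype β] [DecidableEq α] [DecidableEq β] (A : Matrix α α F) :
    (addOne α β A).det = A.det := by
  change (fromBlocks A 0 0 1).det = _
  rw [det_fromBlocks_zero₂₁, det_one, mul_one]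

/-- block diagonal embedding of `GL_d(F)^a` in `GL_n(F)`. -/
theorem exists_block_emb {a d n : ℕ} (h : a * d ≤ n) :
    ∃ Φ : (Fin a → GL (Fin d) F) →* GL (Fin n) F, Function.Injective Φ := by
  have hc : Fintype.card ((Fin d × Fin a) ⊕ Fin (n - a * d)) = n := by
    simp only [Fintype.card_sum, Fintype.card_prod, Fintype.card_fin]
    rw [mul_comm d a]; omega
  let e := Fintype.equivFinOfCardEq hc
  let f1 : (Fin a → Matrix (Fin d) (Fin d) F) →* Matrix (Fin d × Fin a) (Fin d × Fin a) F :=
    (blockDiagonalRingHom (Fin d) (Fin a) F).toMonoidHom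
  let f2 := addOne (F := F) (Fin d × Fin a) (Fin (n - a * d))
  let f3 : Matrix ((Fin d × Fin a) ⊕ Fin (n - a * d)) ((Fin d × Fin a) ⊕ Fin (n - a * d)) F →*
      Matrix (Fin n) (Fin n) F := (reindexAlgEquiv F F e).toRingEquiv.toRingHom.toMonoidHom
  have h1 : Function.Injective f1 := blockDiagonal_injective
  have h2 : Function.Injective f2 := addOne_injective _ _
  have h3 : Function.Injective f3 := (reindexAlgEquiv F F e).injective
  refine ⟨(Units.map ((f3.comp f2).comp f1)).comp
    (MulEquiv.piUnits (M := fun _ : Fin a => Matrix (Fin d) (Fin d) F)).symm.toMonoidHom, ?_⟩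
  exact (Units.map_injective ((h3.comp h2).comp h1)).comp (MulEquiv.injective _)

/-- products of injective homomorphisms. -/
theorem exists_pi_emb {A G H : Type*} [Group A] [Group G] [Group H] {a : ℕ} (φ : A →* G)
    (hφ : Function.Injective φ) (Φ : (Fin a → G) →* H) (hΦ : Function.Injective Φ) :
    ∃ Ψ : (Fin a → A) →* H, Function.Injective Ψ := by
  refine ⟨Φ.comp (MonoidHom.pi fun i => φ.comp (Pi.evalMonoidHom (fun _ : Fin a => A) i)), ?_⟩
  apply hΦ.comp
  intro x y hxy
  funext i
  exact hφ (congrFun hxy i)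

/-- a subgroup of the right order gives the isomorphism type of the Sylow subgroups. -/
theorem sylow_equiv {G A : Type*} [Group G] [Finite G] [Group A] {r : ℕ} [Fact r.Prime] (Ψ : A →* G)
    (hΨ : Function.Injective Ψ) (hcard : Nat.card A = r ^ (Nat.card G).factorization r) (P : Sylow r G) :
    Nonempty (↥(P : Subgroup G) ≃* A) := by
  have h1 : Nat.card Ψ.range = r ^ (Nat.card G).factorization r := by
    rw [← hcard]
    exact Nat.card_congr (MonoidHom.ofInjective hΨ).symm.toEquiv
  let Q : Sylow r G := Sylow.ofCard Ψ.range h1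
  exact ⟨(Sylow.equiv P Q).trans (MonoidHom.ofInjective hΨ).symm⟩

theorem card_pi_zmod (a m : ℕ) (hm : m ≠ 0) : Nat.card (Fin a → Multiplicative (ZMod m)) = m ^ a := by
  have : NeZero m := ⟨hm⟩
  rw [Nat.card_fun, Nat.card_fin]
  congr 1
  change Nat.card (ZMod m) = m
  exact Nat.card_zmod m

/-- a cyclic group of order `m ∣ q - 1` embeds in `Fˣ`. -/
theorem exists_cyclic_emb_units [Finite F] {m : ℕ} (hm : m ∣ Nat.card F - 1) :
    ∃ φ : Multiplicative (ZMod m) →* Fˣ, Function.Injective φ := by
  have hcard : Nat.card Fˣ = Nat.card F - 1 := Nat.card_units F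
  have hpos : 0 < Nat.card F - 1 := by
    rw [← hcard]; exact Nat.card_pos
  obtain ⟨g, hg⟩ := IsCyclic.exists_ofOrder_eq_natCard (α := Fˣ)
  rw [hcard] at hg
  obtain ⟨c, hc⟩ := hm
  have hc0 : c ≠ 0 := by
    rintro rfl
    rw [mul_zero] at hc
    omega
  have hord : orderOf (g ^ c) = m := by
    rw [orderOf_pow_of_dvd hc0 (by rw [hg, hc]; exact dvd_mul_left c m), hg, hc,
      Nat.mul_div_cancel _ (Nat.pos_of_ne_zero hc0)]
  have hcz : Nat.card (Subgroup.zpowers (g ^ c)) = m := by rw [Nat.card_zpowers, hord]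
  have e1 : Multiplicative (ZMod m) ≃* Subgroup.zpowers (g ^ c) := by
    have := zmodCyclicMulEquiv (G := Subgroup.zpowers (g ^ c)) inferInstance
    rwa [hcz] at this
  exact ⟨(Subgroup.zpowers (g ^ c)).subtype.comp e1.toMonoidHom, Subtype.val_injective.comp e1.injective⟩

/-- the diagonal torus of `SL_{k+1}`. -/
theorem exists_diag_emb (k : ℕ) :
    ∃ Φ : (Fin k → Fˣ) →* Matrix.SpecialLinearGroup (Fin (k + 1)) F, Function.Injective Φ := by
  let v : (Fin k → Fˣ) → Fin (k + 1) → F := fun t => Fin.cons ((∏ i, t i)⁻¹ : Fˣ).1 (fun i => (t i).1)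
  have hv : ∀ t t', v (t * t') = v t * v t' := by
    intro t t'
    funext i
    refine Fin.cases ?_ (fun j => ?_) i
    · simp [v, Finset.prod_mul_distrib, mul_comm]
    · simp [v]
  refine ⟨{ toFun := fun t => ⟨Matrix.diagonal (v t), ?_⟩, map_one' := ?_, map_mul' := ?_ }, ?_⟩
  · rw [Matrix.det_diagonal, Fin.prod_univ_succ]
    simp only [v, Fin.cons_zero, Fin.cons_succ]
    rw [← Units.coe_prod, ← Units.val_mul, inv_mul_cancel, Units.val_one]
  · apply Subtype.ext
    change Matrix.diagonal (v 1) = 1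
    rw [← Matrix.diagonal_one]
    congr 1
    funext i
    refine Fin.cases ?_ (fun j => ?_) i <;> simp [v]
  · intro t t'
    apply Subtype.ext
    change Matrix.diagonal (v (t * t')) = Matrix.diagonal (v t) * Matrix.diagonal (v t')
    rw [Matrix.diagonal_mul_diagonal, hv]
    rfl
  · intro t t' h
    have h1 : Matrix.diagonal (v t) = Matrix.diagonal (v t') := congrArg Subtype.val h
    have h2 := Matrix.diagonal_injective h1
    funext i
    apply Units.ext
    have := congrFun h2 i.succ
    simpa [v] using this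

/-- a homomorphism to `GL_n` from a group of order prime to `q - 1` lands in `SL_n`. -/
theorem exists_lift_SL {A : Type*} [Group A] [Finite A] [Finite F] {n : ℕ} (Ψ : A →* GL (Fin n) F)
    (hΨ : Function.Injective Ψ) (hcop : (Nat.card A).Coprime (Nat.card Fˣ)) :
    ∃ Ψ' : A →* Matrix.SpecialLinearGroup (Fin n) F, Function.Injective Ψ' := by
  have hdet : ∀ a, ((Ψ a : GL (Fin n) F) : Matrix (Fin n) (Fin n) F).det = 1 := by
    intro a
    have h1 : (Matrix.GeneralLinearGroup.det (Ψ a)) ^ Nat.card A = 1 := by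
      rw [← map_pow, ← map_pow, pow_card_eq_one', map_one, map_one]
    have h2 : (Matrix.GeneralLinearGroup.det (Ψ a)) ^ Nat.card Fˣ = 1 := pow_card_eq_one'
    have h3 := pow_gcd_eq_one.2 ⟨h1, h2⟩
    rw [Nat.Coprime.gcd_eq_one hcop, pow_one] at h3
    have := congrArg Units.val h3
    simpa using this
  refine ⟨{ toFun := fun a => ⟨(Ψ a : GL (Fin n) F), hdet a⟩, map_one' := ?_, map_mul' := ?_ }, ?_⟩
  · apply Subtype.ext; simp
  · intro a b
    apply Subtype.ext
    change ((Ψ (a * b) : GL (Fin n) F) : Matrix (Fin n) (Fin n) F) = (Ψ a : GL (Fin n) F).1 * (Ψ b : GL (Fin n) F).1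
    rw [map_mul, Units.val_mul]
  · intro a b h
    apply hΨ
    apply Units.ext
    exact congrArg Subtype.val h

end Cfsg.Agent.Lib.Helper46SylEmb
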