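import Mathlib

set_option autoImplicit false
set_option linter.unusedSectionVars false

/-! Number theory for the `r`-part of `|GL_n(q)|`, `r > n`. -/

namespace Cfsg.Agent.Lib.Helper46SylNT

open Finset

variable {q r : ℕ} [hr : Fact r.Prime]

theorem q_ne_zero (hrq : ¬ r ∣ q) : (q : ZMod r) ≠ 0 := by
  intro h
  exact hrq ((ZMod.natCast_eq_zero_iff q r).1 h)

theorem q_pos (hrq : ¬ r ∣ q) : 0 < q := by
  rcases Nat.eq_zero_or_pos q with h | h
  · subst h; exact absurd (dvd_zero r) hrq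
  · exact h

theorem d_pos (hrq : ¬ r ∣ q) : 0 < orderOf (q : ZMod r) := by
  rw [orderOf_pos_iff, isOfFinOrder_iff_pow_eq_one]
  exact ⟨r - 1, Nat.sub_pos_of_lt hr.out.one_lt, ZMod.pow_card_sub_one_eq_one (q_ne_zero hrq)⟩

theorem dvd_iff (hrq : ¬ r ∣ q) (j : ℕ) : r ∣ q ^ j - 1 ↔ orderOf (q : ZMod r) ∣ j := by
  have h1 : 1 ≤ q ^ j := Nat.one_le_pow _ _ (q_pos hrq)
  rw [orderOf_dvd_iff_pow_eq_one, ← ZMod.natCast_eq_zero_iff, Nat.cast_sub h1]
  push_cast
  rw [sub_eq_zero]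

theorem fac_pow_mul (hrq : ¬ r ∣ q) {k : ℕ} (hk0 : 0 < k) (hk : k < r) :
    (q ^ (orderOf (q : ZMod r) * k) - 1).factorization r = (q ^ orderOf (q : ZMod r) - 1).factorization r := by
  set d := orderOf (q : ZMod r) with hd
  have hQ1 : 1 ≤ q ^ d := Nat.one_le_pow _ _ (q_pos hrq)
  have h := geom_sum_mul_add (q ^ d - 1) k
  rw [Nat.sub_add_cancel hQ1] at h
  have h2 : q ^ (d * k) - 1 = (∑ i ∈ range k, (q ^ d) ^ i) * (q ^ d - 1) := by
    rw [pow_mul, ← h]; simp
  have hs : ¬ r ∣ ∑ i ∈ range k, (q ^ d) ^ i := by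
    rw [← ZMod.natCast_eq_zero_iff]
    push_cast
    rw [hd, pow_orderOf_eq_one]
    simp only [one_pow, sum_const, card_range, nsmul_eq_mul, mul_one]
    rw [ZMod.natCast_eq_zero_iff]
    exact Nat.not_dvd_of_pos_of_lt hk0 hk
  by_cases h0 : q ^ d - 1 = 0
  · rw [h2, h0, mul_zero]
  · have hs0 : ∑ i ∈ range k, (q ^ d) ^ i ≠ 0 := by
      intro h; rw [h] at hs; exact hs (dvd_zero r)
    rw [h2, Nat.factorization_mul hs0 h0, Finsupp.add_apply, Nat.factorization_eq_zero_of_not_dvd hs, zero_add]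

theorem fac_pow (hrq : ¬ r ∣ q) {j : ℕ} (hj0 : 0 < j) (hj : j < r) :
    (q ^ j - 1).factorization r =
      if orderOf (q : ZMod r) ∣ j then (q ^ orderOf (q : ZMod r) - 1).factorization r else 0 := by
  split_ifs with h
  · obtain ⟨k, rfl⟩ := h
    have hk0 : 0 < k := by
      rcases Nat.eq_zero_or_pos k with h' | h'
      · subst h'; simp at hj0
      · exact h'
    have hk : k < r := lt_of_le_of_lt (Nat.le_mul_of_pos_left k (d_pos hrq)) hj
    exact fac_pow_mul hrq hk0 hk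
  · exact Nat.factorization_eq_zero_of_not_dvd (fun h' => h ((dvd_iff hrq j).1 h'))

/-- the `r`-part of `|GL_n(q)|`. -/
theorem fac_GL (hrq : ¬ r ∣ q) (hq2 : 2 ≤ q) {n : ℕ} (hrn : n < r) :
    (∏ i : Fin n, (q ^ n - q ^ (i : ℕ))).factorization r =
      (n / orderOf (q : ZMod r)) * (q ^ orderOf (q : ZMod r) - 1).factorization r := by
  have hq0 := q_pos hrq
  have hne : ∀ i ∈ (univ : Finset (Fin n)), q ^ n - q ^ (i : ℕ) ≠ 0 := by
    intro i _
    have : q ^ (i : ℕ) < q ^ n := Nat.pow_lt_pow_right hq2 i.2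
    omega
  rw [Nat.factorization_prod hne, Finsupp.finsetSum_apply]
  have h1 : ∀ i : Fin n, (q ^ n - q ^ (i : ℕ)).factorization r = (q ^ (n - i) - 1).factorization r := by
    intro i
    have e : q ^ n - q ^ (i : ℕ) = q ^ (i : ℕ) * (q ^ (n - i) - 1) := by
      rw [Nat.mul_sub, ← pow_add, Nat.add_sub_cancel' i.2.le, mul_one]
    have h3 : q ^ (n - i) - 1 ≠ 0 := by
      have : 1 < q ^ (n - (i : ℕ)) := Nat.one_lt_pow (by have := i.2; omega) hq2
      omega
    rw [e, Nat.factorization_mul (pow_ne_zero _ hq0.ne') h3, Finsupp.add_apply,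
      Nat.factorization_eq_zero_of_not_dvd (fun h => hrq (hr.out.dvd_of_dvd_pow h)), zero_add]
  simp only [h1]
  rw [Fin.sum_univ_eq_sum_range (fun i => (q ^ (n - i) - 1).factorization r) n, ← Finset.sum_range_reflect]
  have h2 : ∀ j ∈ range n, (q ^ (n - (n - 1 - j)) - 1).factorization r =
      if orderOf (q : ZMod r) ∣ j + 1 then (q ^ orderOf (q : ZMod r) - 1).factorization r else 0 := by
    intro j hj
    rw [mem_range] at hj
    have e : n - (n - 1 - j) = j + 1 := by omega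
    rw [e]
    exact fac_pow hrq (Nat.succ_pos j) (by omega)
  rw [Finset.sum_congr rfl h2, ← Finset.sum_filter, Finset.sum_const, Nat.card_multiples, smul_eq_mul]

theorem fac_cyclotomic (hrq : ¬ r ∣ q) :
    padicValNat r ((Polynomial.cyclotomic (orderOf (q : ZMod r)) ℤ).eval (q : ℤ)).natAbs =
      (q ^ orderOf (q : ZMod r) - 1).factorization r := by
  set d := orderOf (q : ZMod r) with hd
  have hd0 : 0 < d := d_pos hrq
  have hQ1 : 1 ≤ q ^ d := Nat.one_le_pow _ _ (q_pos hrq)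
  have h := congrArg (Polynomial.eval (q : ℤ)) (Polynomial.prod_cyclotomic_eq_X_pow_sub_one hd0 ℤ)
  rw [← Nat.insert_self_properDivisors hd0.ne', Finset.prod_insert Nat.self_notMem_properDivisors,
    Polynomial.eval_mul, Polynomial.eval_prod] at h
  simp only [Polynomial.eval_sub, Polynomial.eval_pow, Polynomial.eval_X, Polynomial.eval_one] at h
  have h2 := congrArg Int.natAbs h
  rw [Int.natAbs_mul] at h2
  have e : ((q : ℤ) ^ d - 1).natAbs = q ^ d - 1 := by
    have : ((q : ℤ) ^ d - 1) = ((q ^ d - 1 : ℕ) : ℤ) := by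
      rw [Nat.cast_sub hQ1]; push_cast; ring
    rw [this, Int.natAbs_natCast]
  rw [e] at h2
  have hnd : ¬ r ∣ (∏ i ∈ d.properDivisors, Polynomial.eval (q : ℤ) (Polynomial.cyclotomic i ℤ)).natAbs := by
    intro hdv
    rw [← Int.natCast_dvd] at hdv
    have hp : Prime (r : ℤ) := Nat.prime_iff_prime_int.1 hr.out
    obtain ⟨i, hi, hdi⟩ := (hp.dvd_finsetProd_iff _).1 hdv
    rw [Nat.mem_properDivisors] at hi
    have h3 : Polynomial.eval (q : ℤ) (Polynomial.cyclotomic i ℤ) ∣ (q : ℤ) ^ i - 1 := by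
      have := Polynomial.eval_dvd (x := (q : ℤ)) (Polynomial.cyclotomic.dvd_X_pow_sub_one i ℤ)
      simpa using this
    have h4 : (r : ℤ) ∣ (q : ℤ) ^ i - 1 := hdi.trans h3
    have h5 : r ∣ q ^ i - 1 := by
      have h1i : 1 ≤ q ^ i := Nat.one_le_pow _ _ (q_pos hrq)
      rw [← Int.natCast_dvd_natCast, Nat.cast_sub h1i]
      push_cast
      exact h4
    have h6 := (dvd_iff hrq i).1 h5
    have hi0 : 0 < i := Nat.pos_of_dvd_of_pos hi.1 hd0
    exact absurd (Nat.le_of_dvd hi0 h6) (not_le.2 hi.2)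
  rw [← Nat.factorization_def _ hr.out]
  by_cases h0 : q ^ d - 1 = 0
  · rw [h0] at h2
    rcases Nat.mul_eq_zero.1 h2 with h | h
    · rw [h, h0]
    · rw [h] at hnd; exact absurd (dvd_zero r) hnd
  · rw [← h2] at h0 ⊢
    have ha := left_ne_zero_of_mul h0
    have hb := right_ne_zero_of_mul h0
    rw [Nat.factorization_mul ha hb, Finsupp.add_apply, Nat.factorization_eq_zero_of_not_dvd hnd, add_zero]

end Cfsg.Agent.Lib.Helper46SylNT
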