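import Mathlib

/-!
# Double cosets of Young subgroups: contingency tables
-/

set_option autoImplicit false
set_option linter.unusedSectionVars false
set_option linter.unusedSimpArgs false
set_option linter.unusedVariables false

namespace Cfsg.Agent.Lib.Helper46Young

open Finset

variable {ι A B : Type*} [Fintype ι] [DecidableEq ι] [DecidableEq A] [DecidableEq B]

/-- Two functions with equinumerous fibres differ by a permutation. -/
theorem exists_perm_of_card_fiber_eq {γ : Type*} [DecidableEq γ] (f f' : ι → γ)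
    (h : ∀ c, (univ.filter fun j => f j = c).card = (univ.filter fun j => f' j = c).card) :
    ∃ π : Equiv.Perm ι, ∀ j, f' j = f (π j) := by
  have h' : ∀ c, Fintype.card {j // f' j = c} = Fintype.card {j // f j = c} := by
    intro c
    rw [Fintype.card_subtype, Fintype.card_subtype, h c]
  let e₂ : (Σ c, {j // f' j = c}) ≃ (Σ c, {j // f j = c}) :=
    Equiv.sigmaCongrRight (fun c => Fintype.equivOfCardEq (h' c))
  refine ⟨(Equiv.sigmaFiberEquiv f').symm.trans (e₂.trans (Equiv.sigmaFiberEquiv f)), fun j => ?_⟩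
  have := (e₂ ((Equiv.sigmaFiberEquiv f').symm j)).2.2
  exact this.symm

/-- The contingency table of a permutation with respect to two labellings. -/
def cnt (a : ι → A) (b : ι → B) (w : Equiv.Perm ι) (s : A) (t : B) : ℕ :=
  (univ.filter fun j => a (w j) = s ∧ b j = t).card

theorem exists_of_cnt_eq (a : ι → A) (b : ι → B) (w w' : Equiv.Perm ι) (h : cnt a b w = cnt a b w') :
    ∃ y y' : Equiv.Perm ι, (∀ i, a (y i) = a i) ∧ (∀ j, b (y' j) = b j) ∧ w' = y * w * y' := by
  obtain ⟨π, hπ⟩ := exists_perm_of_card_fiber_eq (fun j => (a (w j), b j)) (fun j => (a (w' j), b j)) (by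
    rintro ⟨s, t⟩
    have := congrFun (congrFun h s) t
    simpa [cnt, Prod.ext_iff] using this)
  refine ⟨w' * π⁻¹ * w⁻¹, π, ?_, ?_, ?_⟩
  · intro i
    have := congrArg Prod.fst (hπ (π⁻¹ (w⁻¹ i)))
    simpa using this
  · intro j
    exact (congrArg Prod.snd (hπ j)).symm
  · group

theorem cnt_mul (a : ι → A) (b : ι → B) (w y y' : Equiv.Perm ι) (hy : ∀ i, a (y i) = a i)
    (hy' : ∀ j, b (y' j) = b j) : cnt a b (y * w * y') = cnt a b w := by
  funext s t
  unfold cnt
  apply Finset.card_equiv y'
  intro j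
  simp only [mem_filter, mem_univ, true_and, Equiv.Perm.coe_mul, Function.comp_apply, hy, hy']

theorem cnt_row [Fintype B] (a : ι → A) (b : ι → B) (w : Equiv.Perm ι) (s : A) :
    ∑ t, cnt a b w s t = (univ.filter fun i => a i = s).card := by
  have h1 : (univ.filter fun i => a i = s).card = (univ.filter fun j => a (w j) = s).card := by
    symm
    apply Finset.card_equiv w
    intro j
    simp
  rw [h1, Finset.card_eq_sum_card_fiberwise (f := b) (t := univ) (fun _ _ => Finset.mem_coe.mpr (mem_univ _))]
  apply Finset.sum_congr rfl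
  intro t _
  unfold cnt
  congr 1
  ext j
  simp

theorem cnt_col [Fintype A] (a : ι → A) (b : ι → B) (w : Equiv.Perm ι) (t : B) :
    ∑ s, cnt a b w s t = (univ.filter fun j => b j = t).card := by
  rw [Finset.card_eq_sum_card_fiberwise (f := fun j => a (w j)) (t := univ)
    (fun _ _ => Finset.mem_coe.mpr (mem_univ _))]
  apply Finset.sum_congr rfl
  intro s _
  unfold cnt
  congr 1
  ext j
  simp [and_comm]

/-- Every contingency table with the right margins occurs. -/
theorem exists_perm_cnt [Fintype A] [Fintype B] (a : ι → A) (b : ι → B) (M : A → B → ℕ)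
    (hrow : ∀ s, ∑ t, M s t = (univ.filter fun i => a i = s).card)
    (hcol : ∀ t, ∑ s, M s t = (univ.filter fun j => b j = t).card) :
    ∃ w : Equiv.Perm ι, cnt a b w = M := by
  have hcard : Fintype.card ι = Fintype.card (Σ c : A × B, Fin (M c.1 c.2)) := by
    rw [Fintype.card_sigma]
    simp only [Fintype.card_fin]
    rw [Fintype.sum_prod_type]
    simp only [hrow]
    rw [← Finset.card_eq_sum_card_fiberwise (f := a) (s := univ) (t := univ)
      (fun _ _ => Finset.mem_coe.mpr (mem_univ _)), Finset.card_univ]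
  let ε : ι ≃ (Σ c : A × B, Fin (M c.1 c.2)) := Fintype.equivOfCardEq hcard
  let f₀ : ι → A × B := fun j => (ε j).1
  have hf₀ : ∀ c : A × B, (univ.filter fun j => f₀ j = c).card = M c.1 c.2 := by
    intro c
    rw [← Fintype.card_subtype]
    have e1 : {j // f₀ j = c} ≃ {z : (Σ c : A × B, Fin (M c.1 c.2)) // z.1 = c} :=
      ε.subtypeEquiv (fun j => Iff.rfl)
    rw [Fintype.card_congr e1, Fintype.card_congr (Equiv.sigmaSubtype c), Fintype.card_fin]
  obtain ⟨π₁, h1⟩ := exists_perm_of_card_fiber_eq (fun j => (f₀ j).2) b (by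
    intro t
    rw [← hcol t, Finset.card_eq_sum_card_fiberwise (f := fun j => (f₀ j).1) (t := univ)
      (fun _ _ => Finset.mem_coe.mpr (mem_univ _))]
    apply Finset.sum_congr rfl
    intro s _
    rw [← hf₀ (s, t)]
    congr 1
    ext j
    simp [Prod.ext_iff, and_comm])
  obtain ⟨π₂, h2⟩ := exists_perm_of_card_fiber_eq (fun j => (f₀ j).1) a (by
    intro s
    rw [← hrow s, Finset.card_eq_sum_card_fiberwise (f := fun j => (f₀ j).2) (t := univ)
      (fun _ _ => Finset.mem_coe.mpr (mem_univ _))]
    apply Finset.sum_congr rfl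
    intro t _
    rw [← hf₀ (s, t)]
    congr 1
    ext j
    simp [Prod.ext_iff])
  refine ⟨π₂⁻¹ * π₁, ?_⟩
  funext s t
  rw [← hf₀ (s, t)]
  unfold cnt
  apply Finset.card_equiv π₁
  intro j
  simp only [mem_filter, mem_univ, true_and, Equiv.Perm.coe_mul, Function.comp_apply, h1, h2, Prod.ext_iff]
  simp

end Cfsg.Agent.Lib.Helper46Young
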