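import Cfsg.Agent.Lib.Helper46DC
import Cfsg.Agent.Lib.Helper46Young
import Cfsg.Agent.Lib.Helper46Bruhat
import Cfsg.Agent.Lib.Helper46JT
import Cfsg.Agent.Lib.Helper46Parab
import Cfsg.Prelude.Def_Characters

/-!
# Inner products of the flag characters of `GL_n(q)` and of the Young characters of `S_n`
-/

set_option autoImplicit false
set_option linter.unusedSectionVars false
set_option linter.unusedSimpArgs false
set_option linter.unusedVariables false

namespace Cfsg.Agent.Lib.Helper46Unip

open Finset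
open scoped MatrixGroups
open Cfsg.Agent.Lib.Helper46DC Cfsg.Agent.Lib.Helper46Young Cfsg.Agent.Lib.Helper46Bruhat
open Cfsg.Agent.Lib.Helper46JT Cfsg.Agent.Lib.Helper46Parab

variable {n : ℕ}

/-- Contingency tables with given margins. -/
def Tab (α β : Fin n → ℕ) : Type :=
  {M : Fin n → Fin n → ℕ // (∀ s, ∑ t, M s t = α s) ∧ (∀ t, ∑ s, M s t = β t)}

theorem card_Tab (α β : Fin n → ℕ) : Nat.card (Tab α β) = NN α β := by
  unfold NN
  rw [← Fintype.card_coe, ← Nat.card_eq_fintype_card]
  apply Nat.card_congr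
  exact
    { toFun := fun M => ⟨fun t s => M.1 s t, by
        simp only [mem_filter, Fintype.mem_piFinset, mem_piAntidiag, mem_univ, implies_true, and_true]
        exact ⟨M.2.2, M.2.1⟩⟩
      invFun := fun p => ⟨fun s t => p.1 t s, by
        have := p.2
        simp only [mem_filter, Fintype.mem_piFinset, mem_piAntidiag, mem_univ, implies_true, and_true] at this
        exact ⟨this.2, this.1⟩⟩
      left_inv := fun M => rfl
      right_inv := fun p => rfl }

variable (α β : Fin n → ℕ) (hα : ∑ k, α k = n) (hβ : ∑ k, β k = n)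

/-- The contingency table of a permutation. -/
def tab (w : Equiv.Perm (Fin n)) : Tab α β :=
  ⟨cnt (lab α hα) (lab β hβ) w,
    fun s => by rw [cnt_row, card_fiber], fun t => by rw [cnt_col, card_fiber]⟩

theorem mem_young {μ : Fin n → ℕ} (hμ : ∑ k, μ k = n) {σ : Equiv.Perm (Fin n)} :
    σ ∈ Cfsg.youngSubgroup μ ↔ ∀ i, lab μ hμ (σ i) = lab μ hμ i := by
  constructor
  · intro h i
    exact Fin.ext (h i)
  · intro h i
    exact congrArg Fin.val (h i)

theorem tab_surjective : Function.Surjective (tab α β hα hβ) := by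
  rintro ⟨M, h1, h2⟩
  obtain ⟨w, hw⟩ := exists_perm_cnt (lab α hα) (lab β hβ) M (fun s => by rw [h1, card_fiber])
    (fun t => by rw [h2, card_fiber])
  exact ⟨w, Subtype.ext hw⟩

theorem tab_eq_iff (w w' : Equiv.Perm (Fin n)) :
    tab α β hα hβ w = tab α β hα hβ w' ↔
      ∃ y ∈ Cfsg.youngSubgroup α, ∃ y' ∈ Cfsg.youngSubgroup β, w' = y * w * y' := by
  constructor
  · intro h
    obtain ⟨y, y', h1, h2, h3⟩ := exists_of_cnt_eq (lab α hα) (lab β hβ) w w' (congrArg Subtype.val h)
    exact ⟨y, (mem_young hα).mpr h1, y', (mem_young hβ).mpr h2, h3⟩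
  · rintro ⟨y, hy, y', hy', rfl⟩
    apply Subtype.ext
    exact (cnt_mul (lab α hα) (lab β hβ) w y y' ((mem_young hα).mp hy) ((mem_young hβ).mp hy')).symm

include hα hβ in
/-- The inner product of two Young permutation characters. -/
theorem inner_young :
    (Nat.card (Equiv.Perm (Fin n)) : ℂ)⁻¹ * ∑ σ : Equiv.Perm (Fin n),
        Cfsg.fixedPointCharacter (Cfsg.youngSubgroup α) σ * Cfsg.fixedPointCharacter (Cfsg.youngSubgroup β) σ =
      (NN α β : ℂ) := by
  rw [← card_Tab]
  exact inner_fixedPoint _ _ (tab α β hα hβ) (tab_surjective α β hα hβ) (tab_eq_iff α β hα hβ)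

variable {F : Type*} [Field F]

theorem compLabel_mono (μ : Fin n → ℕ) : Monotone (Cfsg.compLabel μ) := by
  intro i j hij
  unfold Cfsg.compLabel
  apply Finset.card_le_card
  intro k hk
  simp only [mem_filter, mem_univ, true_and] at hk ⊢
  have : i.val ≤ j.val := hij
  omega

theorem borel_le (μ : Fin n → ℕ) : Cfsg.upperTriangularGL n F ≤ Cfsg.parabolicGL n F μ := by
  intro g hg i j hij
  apply hg
  by_contra h
  simp only [id, not_lt] at h
  exact absurd hij (not_lt.mpr (compLabel_mono μ h))

theorem pmGL_mem (μ : Fin n → ℕ) {y : Equiv.Perm (Fin n)} (hy : y ∈ Cfsg.youngSubgroup μ) :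
    (pmGL y : GL (Fin n) F) ∈ Cfsg.parabolicGL n F μ := by
  intro i j hij
  change (pm y : Matrix (Fin n) (Fin n) F) i j = 0
  rw [pm_apply, if_neg]
  rintro rfl
  rw [hy j] at hij
  exact lt_irrefl _ hij

include hα hβ in
theorem exists_invariant :
    ∃ Ψ : GL (Fin n) F → Tab α β, Function.Surjective Ψ ∧ ∀ g g', Ψ g = Ψ g' ↔
      ∃ h ∈ Cfsg.parabolicGL n F α, ∃ k ∈ Cfsg.parabolicGL n F β, g' = h * g * k := by
  apply transfer pmGL _ _ (Cfsg.youngSubgroup α) (Cfsg.youngSubgroup β) (tab α β hα hβ)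
    (fun y hy => pmGL_mem α hy) (fun y hy => pmGL_mem β hy)
    (fun w w' h => (tab_eq_iff α β hα hβ w w').mp h) (tab_surjective α β hα hβ)
  · intro g
    obtain ⟨w, b, hb, b', hb', e⟩ := bruhat g
    exact ⟨w, b, borel_le α hb, b', borel_le β hb', e⟩
  · rintro w w' ⟨p, hp, p', hp', e⟩
    apply Subtype.ext
    funext s t
    have := card_eq_of_double_coset (Cfsg.compLabel α) (Cfsg.compLabel β) w w' hp hp'
      ((Cfsg.parabolicGL n F α).inv_mem hp) ((Cfsg.parabolicGL n F β).inv_mem hp') e s.val t.val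
    change cnt (lab α hα) (lab β hβ) w s t = cnt (lab α hα) (lab β hβ) w' s t
    unfold cnt
    simp only [lab, Fin.ext_iff]
    exact this

include hα hβ in
/-- The inner product of two flag characters of `GL_n(q)`. -/
theorem inner_parab [Fintype F] [DecidableEq F] :
    (Nat.card (GL (Fin n) F) : ℂ)⁻¹ * ∑ g : GL (Fin n) F,
        Cfsg.fixedPointCharacter (Cfsg.parabolicGL n F α) g * Cfsg.fixedPointCharacter (Cfsg.parabolicGL n F β) g =
      (NN α β : ℂ) := by
  rw [← card_Tab]
  obtain ⟨Ψ, h1, h2⟩ := exists_invariant (F := F) α β hα hβ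
  exact inner_fixedPoint _ _ Ψ h1 h2

omit α β in
theorem sum_shift (ν : Fin n → ℕ) (hsum : ∑ i, ν i = n) (κ : Equiv.Perm (Fin n))
    (h : ∀ i : Fin n, (κ i).val ≤ ν i + i.val) : ∑ i : Fin n, (ν i + i.val - (κ i).val) = n := by
  have h1 : ∑ i : Fin n, (ν i + i.val - (κ i).val) + ∑ i : Fin n, (κ i).val =
      ∑ i : Fin n, ν i + ∑ i : Fin n, i.val := by
    rw [← Finset.sum_add_distrib, ← Finset.sum_add_distrib]
    apply Finset.sum_congr rfl
    intro i _
    have := h i
    omega
  have h2 : ∑ i : Fin n, (κ i).val = ∑ i : Fin n, i.val :=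
    Equiv.sum_comp κ (fun i : Fin n => i.val)
  omega

omit α β in
theorem strictMono_shift (ν : Fin n → ℕ) (hmono : Monotone ν) : StrictMono fun i : Fin n => ν i + i.val := by
  intro i j hij
  have h1 := hmono hij.le
  have h2 : i.val < j.val := hij
  simp only
  omega

omit α β in
/-- Orthonormality of the unipotent class functions. -/
theorem inner_unip [Fintype F] [DecidableEq F] (ν ν' : Fin n → ℕ) (hmono : Monotone ν) (hsum : ∑ i, ν i = n)
    (hmono' : Monotone ν') (hsum' : ∑ i, ν' i = n) :
    Cfsg.classInner (Cfsg.unipotentCharacterGL n F ν) (Cfsg.unipotentCharacterGL n F ν') =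
      if ν = ν' then 1 else 0 := by
  have hconj : ∀ g, (starRingEnd ℂ) (Cfsg.unipotentCharacterGL n F ν' g) = Cfsg.unipotentCharacterGL n F ν' g := by
    intro g
    unfold Cfsg.unipotentCharacterGL Cfsg.fixedPointCharacter
    rw [map_sum]
    apply Finset.sum_congr rfl
    intro κ _
    split_ifs
    · simp
    · simp
  unfold Cfsg.classInner
  simp only [hconj]
  have horth := orth (fun i : Fin n => ν i + i.val) (fun i : Fin n => ν' i + i.val)
    (strictMono_shift ν hmono) (strictMono_shift ν' hmono')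
  have hiff : ((fun i : Fin n => ν i + i.val) = fun i : Fin n => ν' i + i.val) ↔ ν = ν' := by
    constructor
    · intro h
      funext i
      have := congrFun h i
      omega
    · rintro rfl
      rfl
  simp only [hiff] at horth
  have hc : ((if ν = ν' then (1 : ℤ) else 0 : ℤ) : ℂ) = if ν = ν' then 1 else 0 := by
    split_ifs <;> simp
  rw [← hc, ← horth]
  push_cast
  unfold Cfsg.unipotentCharacterGL
  simp only [Finset.sum_mul_sum]
  rw [Finset.sum_comm, Finset.mul_sum]
  apply Finset.sum_congr rfl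
  intro κ _
  rw [Finset.sum_comm, Finset.mul_sum]
  apply Finset.sum_congr rfl
  intro κ' _
  split_ifs with h h'
  · rw [← inner_parab (F := F) _ _ (sum_shift ν hsum κ h) (sum_shift ν' hsum' κ' h'), Finset.mul_sum, Finset.mul_sum,
      Finset.mul_sum]
    apply Finset.sum_congr rfl
    intro g _
    ring
  · simp
  · simp
  · simp

end Cfsg.Agent.Lib.Helper46Unip
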