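import Mathlib

set_option autoImplicit false

/-! Weights of an elementary abelian `p`-subgroup `x : (ι → F) → G` in a representation of `G` over a field of
characteristic different from `p`: the set `Ω` of weights has at most `d` elements, detects non-triviality and is
stable under the normaliser. -/

namespace Cfsg.Agent.Lib.Helper46Weight

open Matrix

variable {F : Type*} [Field F] [Fintype F] {L : Type*} [Field L] {ι : Type*} [Fintype ι] [DecidableEq ι] {d : ℕ}

theorem sum_char {ψ : AddChar F L} (hψ : ψ.IsPrimitive) (c : ι → F) (hc : c ≠ 0) :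
    ∑ u : ι → F, ψ (c ⬝ᵥ u) = 0 := by
  let f : (ι → F) →+ F :=
    { toFun := fun u => c ⬝ᵥ u, map_zero' := dotProduct_zero c, map_add' := dotProduct_add c }
  have h1 : ψ.compAddMonoidHom f ≠ 1 := by
    obtain ⟨i, hi⟩ : ∃ i, c i ≠ 0 := by
      by_contra h
      push Not at h
      exact hc (funext h)
    obtain ⟨t, ht⟩ := AddChar.ne_one_iff.1 (hψ hi)
    rw [AddChar.ne_one_iff]
    refine ⟨Pi.single i t, ?_⟩
    rw [AddChar.compAddMonoidHom_apply]
    change ψ (c ⬝ᵥ Pi.single i t) ≠ 1
    rw [dotProduct_single]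
    rwa [AddChar.mulShift_apply] at ht
  exact AddChar.sum_eq_zero_of_ne_one h1

variable (ψ : AddChar F L) (R : (ι → F) → Matrix (Fin d) (Fin d) L)

/-- the projection on the weight space of `w`. -/
noncomputable def E (w : ι → F) : Matrix (Fin d) (Fin d) L :=
  (Fintype.card (ι → F) : L)⁻¹ • ∑ v : ι → F, ψ (-(w ⬝ᵥ v)) • R v

variable {ψ R}

theorem R_mul_E (hR : ∀ u v, R (u + v) = R u * R v) (u w : ι → F) :
    R u * E ψ R w = ψ (w ⬝ᵥ u) • E ψ R w := by
  unfold E
  rw [Matrix.mul_smul, smul_comm]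
  congr 1
  rw [Finset.mul_sum, Finset.smul_sum]
  rw [← Fintype.sum_equiv (Equiv.addLeft u) (fun v => ψ (w ⬝ᵥ u) • ψ (-(w ⬝ᵥ (u + v))) • R (u + v))
    (fun v => ψ (w ⬝ᵥ u) • ψ (-(w ⬝ᵥ v)) • R v) (fun v => rfl)]
  apply Finset.sum_congr rfl
  intro v _
  rw [Matrix.mul_smul, ← hR, smul_smul, ← AddChar.map_add_eq_mul, dotProduct_add]
  congr 2
  ring

open Classical in
theorem E_mul_E (hψ : ψ.IsPrimitive) (hN : (Fintype.card (ι → F) : L) ≠ 0)
    (hR : ∀ u v, R (u + v) = R u * R v) (w' w : ι → F) :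
    E ψ R w' * E ψ R w = if w' = w then E ψ R w else 0 := by
  have h1 : E ψ R w' * E ψ R w =
      ((Fintype.card (ι → F) : L)⁻¹ * ∑ u : ι → F, ψ ((w - w') ⬝ᵥ u)) • E ψ R w := by
    conv_lhs => unfold E
    rw [Matrix.smul_mul, Finset.sum_mul, mul_smul, Finset.sum_smul]
    congr 1
    apply Finset.sum_congr rfl
    intro u _
    change (ψ (-(w' ⬝ᵥ u)) • R u) * E ψ R w = _
    rw [Matrix.smul_mul, R_mul_E hR, smul_smul, ← AddChar.map_add_eq_mul, sub_dotProduct]
    congr 2
    ring
  rw [h1]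
  split_ifs with h
  · subst h
    have : ∑ u : ι → F, ψ ((w' - w') ⬝ᵥ u) = (Fintype.card (ι → F) : L) := by
      simp only [sub_self, zero_dotProduct, AddChar.map_zero_eq_one, Finset.sum_const, Finset.card_univ,
        nsmul_eq_mul, mul_one]
    rw [this, inv_mul_cancel₀ hN, one_smul]
  · rw [sum_char hψ _ (sub_ne_zero.2 (Ne.symm h)), mul_zero, zero_smul]

theorem sum_E (hψ : ψ.IsPrimitive) (hN : (Fintype.card (ι → F) : L) ≠ 0) (hR0 : R 0 = 1) :
    ∑ w : ι → F, E ψ R w = 1 := by
  classical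
  unfold E
  rw [← Finset.smul_sum, Finset.sum_comm]
  have h1 : ∀ v : ι → F, ∑ w : ι → F, ψ (-(w ⬝ᵥ v)) • R v =
      if v = 0 then (Fintype.card (ι → F) : L) • (1 : Matrix (Fin d) (Fin d) L) else 0 := by
    intro v
    rw [← Finset.sum_smul]
    split_ifs with h
    · subst h
      simp [hR0]
    · have : ∑ w : ι → F, ψ (-(w ⬝ᵥ v)) = ∑ w : ι → F, ψ ((-v) ⬝ᵥ w) := by
        apply Finset.sum_congr rfl
        intro w _
        rw [neg_dotProduct, dotProduct_comm]
      rw [this, sum_char hψ _ (neg_ne_zero.2 h), zero_smul]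
  simp only [h1]
  rw [Finset.sum_ite_eq' Finset.univ (0 : ι → F), if_pos (Finset.mem_univ _), smul_smul, inv_mul_cancel₀ hN, one_smul]

theorem card_le (hψ : ψ.IsPrimitive) (hN : (Fintype.card (ι → F) : L) ≠ 0)
    (hR : ∀ u v, R (u + v) = R u * R v) (S : Finset (ι → F)) (hS : ∀ w ∈ S, E ψ R w ≠ 0) : S.card ≤ d := by
  classical
  have hex : ∀ w : S, ∃ j : Fin d, (fun i => E ψ R w.1 i j) ≠ 0 := by
    intro w
    by_contra h
    push Not at h
    apply hS w.1 w.2
    ext i j
    exact congrFun (h j) i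
  choose j hj using hex
  have hmul : ∀ w0 w : S, E ψ R w0.1 *ᵥ (fun i => E ψ R w.1 i (j w)) =
      if w0 = w then (fun i => E ψ R w.1 i (j w)) else 0 := by
    intro w0 w
    have h := E_mul_E hψ hN hR w0.1 w.1
    funext i
    have h2 := congrFun (congrFun h i) (j w)
    rw [Matrix.mul_apply] at h2
    change ∑ k, E ψ R w0.1 i k * E ψ R w.1 k (j w) = _
    rw [h2]
    by_cases hw : w0 = w
    · rw [if_pos hw, if_pos (congrArg Subtype.val hw)]
    · rw [if_neg hw, if_neg (fun h => hw (Subtype.ext h))]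
      rfl
  have hli : LinearIndependent L (fun w : S => (fun i => E ψ R w.1 i (j w) : Fin d → L)) := by
    rw [Fintype.linearIndependent_iff]
    intro c hc w0
    have h := congrArg (fun y => E ψ R w0.1 *ᵥ y) hc
    simp only [Matrix.mulVec_sum, Matrix.mulVec_smul, hmul, Matrix.mulVec_zero] at h
    rw [Finset.sum_eq_single w0] at h
    · rw [if_pos rfl] at h
      rcases smul_eq_zero.1 h with h | h
      · exact h
      · exact absurd h (hj w0)
    · intro b _ hb
      rw [if_neg (Ne.symm hb), smul_zero]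
    · intro h; exact absurd (Finset.mem_univ _) h
  have := hli.fintype_card_le_finrank
  simpa using this

/-- **Weights of an abelian `p`-subgroup.** -/
theorem exists_weights {G : Type*} [Group G] {K : Type*} [Field K] (hK : ringChar K ≠ ringChar F)
    (ρ : G →* GL (Fin d) K) (x : (ι → F) → G) (hx : ∀ u v, x (u + v) = x u * x v) :
    ∃ Ω : Set (ι → F), (∀ S : Finset (ι → F), (S : Set (ι → F)) ⊆ Ω → S.card ≤ d) ∧
      (∀ u0, ρ (x u0) ≠ 1 → ∃ w ∈ Ω, w ⬝ᵥ u0 ≠ 0) ∧
      (∀ (g : G) (T : (ι → F) → (ι → F)) (w w' : ι → F), Function.Bijective T →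
        (∀ v, g * x v * g⁻¹ = x (T v)) → (∀ v, w' ⬝ᵥ T v = w ⬝ᵥ v) → w ∈ Ω → w' ∈ Ω) := by
  classical
  let pc := AddChar.FiniteField.primitiveChar F K hK
  let L := CyclotomicField pc.n K
  let ψ : AddChar F L := pc.char
  have hψ : ψ.IsPrimitive := pc.prim
  let φ : K →+* L := algebraMap K L
  have hφ : Function.Injective φ := φ.injective
  let M : G → Matrix (Fin d) (Fin d) L := fun g => ((ρ g : GL (Fin d) K) : Matrix (Fin d) (Fin d) K).map φ
  have hM : ∀ g h, M (g * h) = M g * M h := by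
    intro g h
    simp only [M, map_mul, Units.val_mul, Matrix.map_mul]
  have hM1 : M 1 = 1 := by
    simp only [M, map_one, Units.val_one]
    exact Matrix.map_one φ φ.map_zero φ.map_one
  let R : (ι → F) → Matrix (Fin d) (Fin d) L := fun v => M (x v)
  have hR : ∀ u v, R (u + v) = R u * R v := fun u v => by simp only [R, hx, hM]
  have hx0 : x 0 = 1 := by
    have := hx 0 0
    rw [add_zero] at this
    exact (mul_eq_left.1 this.symm)
  have hR0 : R 0 = 1 := by simp only [R, hx0, hM1]
  have hN : (Fintype.card (ι → F) : L) ≠ 0 := by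
    have hp : (ringChar F).Prime := CharP.char_is_prime F _
    obtain ⟨n, _, hq⟩ := FiniteField.card F (ringChar F)
    rw [Fintype.card_fun, hq]
    push_cast
    apply pow_ne_zero
    apply pow_ne_zero
    intro h0
    have h1 : ringChar L ∣ ringChar F := (ringChar.spec L _).1 h0
    have h2 : ringChar L = ringChar K := (Algebra.ringChar_eq K L).symm
    rw [h2] at h1
    rcases (Nat.dvd_prime hp).1 h1 with h | h
    · have := CharP.ringChar_ne_one (R := K)
      exact this h
    · exact hK h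
  refine ⟨{w | E ψ R w ≠ 0}, ?_, ?_, ?_⟩
  · intro S hS
    exact card_le hψ hN hR S (fun w hw => hS hw)
  · intro u0 hu0
    by_contra hcon
    push Not at hcon
    apply hu0
    have h1 : R u0 = 1 := by
      calc R u0 = R u0 * ∑ w : ι → F, E ψ R w := by rw [sum_E hψ hN hR0, mul_one]
        _ = ∑ w : ι → F, E ψ R w := by
          rw [Finset.mul_sum]
          apply Finset.sum_congr rfl
          intro w _
          rw [R_mul_E hR]
          by_cases hw : E ψ R w = 0
          · rw [hw, smul_zero]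
          · rw [hcon w hw, AddChar.map_zero_eq_one, one_smul]
        _ = 1 := sum_E hψ hN hR0
    apply Units.ext
    have h2 : ((ρ (x u0) : GL (Fin d) K) : Matrix (Fin d) (Fin d) K).map φ = (1 : Matrix (Fin d) (Fin d) K).map φ := by
      rw [Matrix.map_one φ φ.map_zero φ.map_one]
      exact h1
    exact Matrix.map_injective hφ h2
  · intro g T w w' hT hg hw hwΩ hw'
    apply hwΩ
    have h1 : M g * E ψ R w * M g⁻¹ = E ψ R w' := by
      unfold E
      rw [Matrix.mul_smul, Matrix.smul_mul, Finset.mul_sum, Finset.sum_mul]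
      congr 1
      rw [← Fintype.sum_equiv (Equiv.ofBijective T hT) (fun v => ψ (-(w' ⬝ᵥ T v)) • R (T v))
        (fun v => ψ (-(w' ⬝ᵥ v)) • R v) (fun v => rfl)]
      apply Finset.sum_congr rfl
      intro v _
      rw [Matrix.mul_smul, Matrix.smul_mul, hw]
      congr 1
      simp only [R]
      rw [← hg, hM, hM]
    have h2 : E ψ R w = M g⁻¹ * (M g * E ψ R w * M g⁻¹) * M g := by
      have e1 : M g⁻¹ * M g = 1 := by rw [← hM, inv_mul_cancel, hM1]
      calc E ψ R w = (M g⁻¹ * M g) * E ψ R w * (M g⁻¹ * M g) := by rw [e1, one_mul, mul_one]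
        _ = _ := by simp only [Matrix.mul_assoc]
    rw [h2, h1, hw', mul_zero, zero_mul]

end Cfsg.Agent.Lib.Helper46Weight
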