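import Mathlib

set_option autoImplicit false

/-! Two permutation actions on `Fin n` glued to one action on `Fin (n + n)`. -/

namespace Cfsg.Agent.Lib.Helper47Dbl

variable {M : Type*} [Group M] {n : ℕ}

def dbl (a1 a2 : M →* Equiv.Perm (Fin n)) : M →* Equiv.Perm (Fin (n + n)) :=
  (finSumFinEquiv.permCongrHom).toMonoidHom.comp
    ((Equiv.Perm.sumCongrHom (Fin n) (Fin n)).comp (a1.prod a2))

theorem dbl_castAdd (a1 a2 : M →* Equiv.Perm (Fin n)) (A : M) (j : Fin n) :
    dbl a1 a2 A (Fin.castAdd n j) = Fin.castAdd n (a1 A j) := by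
  show finSumFinEquiv (Sum.map (a1 A) (a2 A) (finSumFinEquiv.symm (Fin.castAdd n j))) = _
  rw [finSumFinEquiv_symm_apply_castAdd]
  rfl

theorem dbl_natAdd (a1 a2 : M →* Equiv.Perm (Fin n)) (A : M) (j : Fin n) :
    dbl a1 a2 A (Fin.natAdd n j) = Fin.natAdd n (a2 A j) := by
  show finSumFinEquiv (Sum.map (a1 A) (a2 A) (finSumFinEquiv.symm (Fin.natAdd n j))) = _
  rw [finSumFinEquiv_symm_apply_natAdd]
  rfl

/-- criterion for a permutation to be `dbl a1 a2 A` -/
theorem eq_dbl (a1 a2 : M →* Equiv.Perm (Fin n)) (A : M) (z : Equiv.Perm (Fin (n + n)))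
    (h1 : ∀ j : Fin n, ((z (Fin.castAdd n j) : Fin (n + n)) : ℕ) = (a1 A j : Fin n))
    (h2 : ∀ j : Fin n, ((z (Fin.natAdd n j) : Fin (n + n)) : ℕ) = n + (a2 A j : Fin n)) :
    z = dbl a1 a2 A := by
  ext j
  refine Fin.addCases (fun i => ?_) (fun i => ?_) j
  · rw [dbl_castAdd, h1]; rfl
  · rw [dbl_natAdd, h2]; rfl

theorem dbl_eq_one_iff (a1 a2 : M →* Equiv.Perm (Fin n)) (A : M) :
    dbl a1 a2 A = 1 ↔ a1 A = 1 ∧ a2 A = 1 := by
  constructor
  · intro h
    constructor
    · ext j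
      have := dbl_castAdd a1 a2 A j
      rw [h] at this
      have h2 := congrArg Fin.val this
      simpa using h2.symm
    · ext j
      have := dbl_natAdd a1 a2 A j
      rw [h] at this
      have h2 := congrArg Fin.val this
      simpa using h2.symm
  · rintro ⟨h1, h2⟩
    symm
    apply eq_dbl
    · intro j; rw [h1]; rfl
    · intro j; rw [h2]; rfl

end Cfsg.Agent.Lib.Helper47Dbl
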