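import Mathlib
import Cfsg.Agent.Lib.Helper47IdxB

set_option autoImplicit false

/-! Recognising a double cover from a permutation action. -/

namespace Cfsg.Agent.Lib.Helper47Dc

open Cfsg.Agent.Lib.Helper47IdxB

theorem double_cover {H S T : Type*} [Group H] [Finite H] [Group S] [Finite S] [Group T]
    (m : ℕ) (hm : 0 < m) (hH : Nat.card H = 2 * m) (hS : Nat.card S = m)
    (ρ : H →* T) (α : S →* T) (hα : Function.Injective α) (h1 : ρ.range ≤ α.range)
    (h2 : m ≤ Nat.card ρ.range)
    (h3 : ∀ c ∈ ρ.range, (∀ g ∈ ρ.range, c * g = g * c) → c = 1) :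
    Nat.card (Subgroup.center H) = 2 ∧ Nonempty (H ⧸ Subgroup.center H ≃* S) ∧
      Subgroup.center H = ρ.ker := by
  have hαc : Nat.card α.range = m := by
    rw [← hS]; exact (Nat.card_congr (MonoidHom.ofInjective hα).toEquiv).symm
  have : Finite α.range := Nat.finite_of_card_ne_zero (by rw [hαc]; omega)
  have hrange : ρ.range = α.range :=
    Subgroup.eq_of_le_of_card_ge h1 (by rw [hαc]; exact h2)
  have hker : Nat.card ρ.ker = 2 := by
    have e1 := Subgroup.card_eq_card_quotient_mul_card_subgroup ρ.ker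
    rw [Nat.card_congr (QuotientGroup.quotientKerEquivRange ρ).toEquiv, hrange, hαc, hH] at e1
    have : m * 2 = m * Nat.card ρ.ker := by rw [← e1]; ring
    exact (Nat.eq_of_mul_eq_mul_left hm this).symm
  have hcen : Subgroup.center H = ρ.ker := by
    apply le_antisymm
    · intro z hz
      rw [MonoidHom.mem_ker]
      apply h3 _ ⟨z, rfl⟩
      rintro _ ⟨g, rfl⟩
      rw [← map_mul, ← map_mul, (Subgroup.mem_center_iff.mp hz g)]
    · exact le_center_of_card_two ρ.ker hker
  refine ⟨by rw [hcen]; exact hker, ⟨?_⟩, hcen⟩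
  exact (QuotientGroup.quotientMulEquivOfEq hcen).trans
    ((QuotientGroup.quotientKerEquivRange ρ).trans
      ((MulEquiv.subgroupCongr hrange).trans (MonoidHom.ofInjective hα).symm))

/-- in a subgroup of index two, odd powers -/
theorem pow3_mem_iff {G : Type*} [Group G] {L : Subgroup G} (h : L.index = 2) (g : G) :
    g ^ 3 ∈ L ↔ g ∈ L := by
  rw [pow_succ, Subgroup.mul_mem_iff_of_index_two h]
  have := Subgroup.sq_mem_of_index_two h g
  tauto

theorem pow5_mem_iff {G : Type*} [Group G] {L : Subgroup G} (h : L.index = 2) (g : G) :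
    g ^ 5 ∈ L ↔ g ∈ L := by
  rw [pow_succ, Subgroup.mul_mem_iff_of_index_two h]
  have h2 := Subgroup.sq_mem_of_index_two h g
  have h4 : g ^ 4 ∈ L := by
    have : g ^ 4 = g ^ 2 * g ^ 2 := by group
    rw [this]; exact L.mul_mem h2 h2
  tauto

theorem mem_iff_of_pow3 {G : Type*} [Group G] {L : Subgroup G} (h : L.index = 2) (s t : G)
    (hst : (s * t) ^ 3 = 1) : s ∈ L ↔ t ∈ L := by
  have h1 : (s * t) ^ 3 ∈ L := by rw [hst]; exact L.one_mem
  rw [pow3_mem_iff h, Subgroup.mul_mem_iff_of_index_two h] at h1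
  exact h1

/-- a complement of a subgroup of order two has index two -/
theorem index_of_complement {G : Type*} [Group G] [Finite G] {Z L : Subgroup G}
    (hZ : Nat.card Z = 2) (hc : Z.IsComplement' L) : L.index = 2 := by
  rw [← hZ]
  exact hc.index_eq_card

end Cfsg.Agent.Lib.Helper47Dc
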