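import Cfsg.Agent.Lib.Helper18F4
import Cfsg.Agent.Lib.Helper35TC

set_option autoImplicit false

/-! Fast evaluation of products of matrices over the field with four elements: rows are packed
into two bit planes, words are applied to the basis vectors. -/

namespace Cfsg.Agent.Lib.Helper47F4Mat

open Cfsg.Agent.Lib.Helper18F4 Cfsg.Agent.Lib.Helper35TC

abbrev Row := ℕ × ℕ

def bitF (v : Row) (k : ℕ) : F4c := ⟨v.1.testBit k, v.2.testBit k⟩

def sel (b : Bool) (x : ℕ) : ℕ := bif b then x else 0

/-- `(lo, hi) + v * B` where the rows of `B` are listed from index `k` on -/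
noncomputable def vmA (v1 v2 : ℕ) : ℕ → List Row → ℕ → ℕ → Row
  | _, [], lo, hi => (lo, hi)
  | k, r :: rs, lo, hi =>
    strict (lo ^^^ sel (v1.testBit k) r.1 ^^^ sel (v2.testBit k) r.2) fun lo' =>
    strict (hi ^^^ sel (v1.testBit k) r.2 ^^^ sel (v2.testBit k) r.1 ^^^ sel (v2.testBit k) r.2)
      fun hi' => vmA v1 v2 (k + 1) rs lo' hi'

theorem f4_step (l h xa xb r1 r2 : Bool) :
    (⟨xor (xor l (xa && r1)) (xb && r2), xor (xor (xor h (xa && r2)) (xb && r1)) (xb && r2)⟩ : F4c)
      = ⟨l, h⟩ + ⟨xa, xb⟩ * ⟨r1, r2⟩ := by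
  revert l h xa xb r1 r2
  decide

theorem testBit_sel (b : Bool) (x j : ℕ) : (sel b x).testBit j = (b && x.testBit j) := by
  cases b <;> simp [sel]

theorem vmA_spec (v1 v2 : ℕ) : ∀ (rows : List Row) (k lo hi j : ℕ),
    bitF (vmA v1 v2 k rows lo hi) j = bitF (lo, hi) j +
      ∑ t ∈ Finset.range rows.length, bitF (v1, v2) (k + t) * bitF (rows.getD t (0, 0)) j
  | [], k, lo, hi, j => by simp [vmA]
  | r :: rs, k, lo, hi, j => by
    rw [vmA, strict_eq, strict_eq, vmA_spec v1 v2 rs, List.length_cons, Finset.sum_range_succ']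
    have e : bitF (lo ^^^ sel (v1.testBit k) r.1 ^^^ sel (v2.testBit k) r.2,
        hi ^^^ sel (v1.testBit k) r.2 ^^^ sel (v2.testBit k) r.1 ^^^ sel (v2.testBit k) r.2) j
        = bitF (lo, hi) j + bitF (v1, v2) k * bitF r j := by
      simp only [bitF, Nat.testBit_xor, testBit_sel]
      exact f4_step _ _ _ _ _ _
    rw [e, List.getD_cons_zero, add_zero, add_assoc]
    congr 1
    rw [add_comm]
    congr 1
    apply Finset.sum_congr rfl
    intro t _
    rw [List.getD_cons_succ, add_assoc, add_comm 1 t]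

variable (n : ℕ)

def vec (r : Row) : Fin n → F4c := fun j => bitF r j

def toM (B : List Row) : Matrix (Fin n) (Fin n) F4c := fun i => vec n (B.getD i (0, 0))

/-- vector times matrix -/
noncomputable def vm (v : Row) (B : List Row) : Row := vmA v.1 v.2 0 B 0 0

theorem vec_vm (v : Row) (B : List Row) (hB : B.length = n) :
    vec n (vm v B) = Matrix.vecMul (vec n v) (toM n B) := by
  funext j
  show bitF (vmA v.1 v.2 0 B 0 0) j = _
  rw [vmA_spec, hB]
  have h0 : bitF (0, 0) j = 0 := by simp [bitF]; rfl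
  rw [h0, zero_add, Matrix.vecMul, dotProduct]
  rw [← Fin.sum_univ_eq_sum_range (fun t => bitF (v.1, v.2) (0 + t) * bitF (B.getD t (0, 0)) j) n]
  apply Finset.sum_congr rfl
  intro t _
  rw [zero_add]
  rfl

/-- apply a word -/
noncomputable def walk {α : Type} (R : α → List Row) : List α → Row → Row
  | [], v => v
  | s :: w, v =>
    match vm v (R s) with
    | (lo, hi) => walk R w (lo, hi)

theorem vec_walk {α : Type} (R : α → List Row) (hR : ∀ s, (R s).length = n) :
    ∀ (w : List α) (v : Row),
      vec n (walk R w v) = Matrix.vecMul (vec n v) (w.map fun s => toM n (R s)).prod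
  | [], v => by simp [walk]
  | s :: w, v => by
    have e : walk R (s :: w) v = walk R w (vm v (R s)) := rfl
    rw [e, vec_walk R hR w, vec_vm n v _ (hR s), List.map_cons, List.prod_cons,
      Matrix.vecMul_vecMul]

theorem vec_basis (i : Fin n) : vec n (2 ^ i.val, 0) = Pi.single i 1 := by
  funext j
  show (⟨(2 ^ i.val).testBit j, (0 : ℕ).testBit j⟩ : F4c) = _
  rw [Nat.testBit_two_pow, Nat.zero_testBit]
  by_cases h : i = j
  · subst h
    simp
    rfl
  · have h' : i.val ≠ j.val := fun e => h (Fin.ext e)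
    rw [Pi.single_eq_of_ne (Ne.symm h)]
    simp [h']
    rfl

/-- the packed scalar multiple of a basis vector -/
def scl (c : F4c) (i : ℕ) : Row := (sel c.a (2 ^ i), sel c.b (2 ^ i))

theorem vec_scl (c : F4c) (i : Fin n) : vec n (scl c i.val) = Pi.single i c := by
  funext j
  show (⟨(sel c.a (2 ^ i.val)).testBit j, (sel c.b (2 ^ i.val)).testBit j⟩ : F4c) = _
  rw [testBit_sel, testBit_sel, Nat.testBit_two_pow]
  by_cases h : i = j
  · subst h
    simp
  · have h' : i.val ≠ j.val := fun e => h (Fin.ext e)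
    rw [Pi.single_eq_of_ne (Ne.symm h)]
    simp [h']
    rfl

/-- the check: the word acts as the scalar `c` -/
noncomputable def chkW {α : Type} (R : α → List Row) (w : List α) (c : F4c) : Bool :=
  (List.range n).all fun i => walk R w (2 ^ i, 0) == scl c i

theorem prod_eq {α : Type} (R : α → List Row) (hR : ∀ s, (R s).length = n) (w : List α) (c : F4c)
    (h : chkW n R w c = true) : (w.map fun s => toM n (R s)).prod = c • 1 := by
  rw [chkW, List.all_eq_true] at h
  apply Matrix.ext_of_single_vecMul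
  intro i
  have h1 := h i.val (List.mem_range.mpr i.2)
  have h2 : walk R w (2 ^ i.val, 0) = scl c i.val := by simpa using h1
  have h3 := vec_walk n R hR w (2 ^ i.val, 0)
  rw [h2, vec_scl, vec_basis] at h3
  rw [← h3, Matrix.vecMul_smul, Matrix.vecMul_one]
  funext j
  by_cases hij : i = j
  · subst hij; simp
  · simp [Pi.single_eq_of_ne (Ne.symm hij)]

end Cfsg.Agent.Lib.Helper47F4Mat
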