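import Cfsg.Agent.Lib.Helper47Fi23MultD

set_option autoImplicit false
set_option maxRecDepth 100000

/-! The Schur multiplier of the presented Fischer group `Fi₂₃` is trivial. -/

namespace Cfsg.Agent.Lib.Helper47Fi23MultB

open Cfsg.Agent.Lib.Helper35TC Cfsg.Agent.Lib.Helper35Fi23a
  Cfsg.Agent.Lib.Helper47Fi23Out Cfsg.Agent.Lib.Helper47Fi23OutB
  Cfsg.Agent.Lib.Helper47StemA Cfsg.Agent.Lib.Helper47Fi23MultD

noncomputable abbrev og (s : Gen) : K.Grp := PresentedGroup.of s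

abbrev lbl (x y : Gen) : ℕ := Cfsg.Spor.coxLabel Cfsg.Spor.Fi23.edges x y

theorem mem_nodes (x : Gen) : x ∈ Cfsg.Spor.coxNodes Cfsg.Spor.Fi23.edges := by
  cases x <;> decide

theorem rel_cox (x y : Gen) : (og x * og y) ^ lbl x y = 1 := by
  have h : (FreeGroup.of x * FreeGroup.of y) ^ lbl x y ∈ K.rels :=
    Or.inl ⟨x, mem_nodes x, y, mem_nodes y, rfl⟩
  have h2 := PresentedGroup.one_of_mem h
  rw [map_pow, map_mul] at h2
  exact h2

theorem lab (x y : Gen) : lbl x y = 1 ∨ lbl x y = 2 ∨ lbl x y = 3 := by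
  cases x <;> cases y <;> decide

theorem og_sq (s : Gen) : og s * og s = 1 := by
  have h := rel_cox s s
  have h1 : lbl s s = 1 := by cases s <;> decide
  rwa [h1, pow_one] at h

theorem rel_S : (og .d * og .c * og .b * og .d * og .e * og .f * og .d * og .h * og .i) ^ 10 = 1 := by
  have h : (Cfsg.Spor.Fi23.d * Cfsg.Spor.Fi23.c * Cfsg.Spor.Fi23.b * Cfsg.Spor.Fi23.d *
      Cfsg.Spor.Fi23.e * Cfsg.Spor.Fi23.f * Cfsg.Spor.Fi23.d * Cfsg.Spor.Fi23.h *
      Cfsg.Spor.Fi23.i) ^ 10 ∈ K.rels := Or.inr (by simp [Cfsg.Spor.Fi23.extra])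
  have h2 := PresentedGroup.one_of_mem h
  simp only [map_pow, map_mul] at h2
  exact h2

theorem rel_E : (og .a * og .b * og .c * og .d * og .e * og .f * og .h) ^ 9 = 1 := by
  have h : (Cfsg.Spor.Fi23.a * Cfsg.Spor.Fi23.b * Cfsg.Spor.Fi23.c * Cfsg.Spor.Fi23.d *
      Cfsg.Spor.Fi23.e * Cfsg.Spor.Fi23.f * Cfsg.Spor.Fi23.h) ^ 9 ∈ K.rels :=
    Or.inr (by simp [Cfsg.Spor.Fi23.extra])
  have h2 := PresentedGroup.one_of_mem h
  simp only [map_pow, map_mul] at h2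
  exact h2

/-! ### the transpositions -/

noncomputable def tr (u : ℕ) : K.Grp := (gam u)⁻¹ * z * gam u

theorem og_eq (s : Gen) : og s = tr (ptOf s) := gen_eq s

theorem tr_sq (u : ℕ) : tr u * tr u = 1 := by
  calc tr u * tr u = (gam u)⁻¹ * (z * z) * gam u := by rw [tr]; group
    _ = 1 := by rw [z_sq]; group

theorem tr_inv (u : ℕ) : (tr u)⁻¹ = tr u := inv_eq_of_mul_eq_one_left (tr_sq u)

theorem hc (m x : ℕ) (hm : m < 31671) (hx : x < 31671) :
    circN m x < 31671 ∧ (tr m)⁻¹ * tr x * tr m = tr (circN m x) := by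
  have e1 : phi (gam m)⁻¹ o = ⟨m, hm⟩ := gam_inv_apply ⟨m, hm⟩
  have e2 := conj_apply (gam m)⁻¹ ⟨x, hx⟩
  rw [e1, inv_inv] at e2
  have e2' : (phi (tr m) ⟨x, hx⟩).val = circN m x := e2
  refine ⟨by rw [← e2']; exact Fin.is_lt _, ?_⟩
  have e3 := tr_gam ((tr m)⁻¹ * (gam x)⁻¹)
  have e4 : phi ((tr m)⁻¹ * (gam x)⁻¹) o = phi (tr m) ⟨x, hx⟩ := by
    rw [map_mul, Equiv.Perm.mul_apply, tr_inv]
    congr 1
    exact gam_inv_apply ⟨x, hx⟩
  rw [e4, e2'] at e3
  have e5 : tr (circN m x) = (gam (circN m x))⁻¹ * z * gam (circN m x) := rfl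
  rw [e5, ← e3]
  have e6 : tr x = (gam x)⁻¹ * z * gam x := rfl
  rw [e6]
  group

/-! ### lifting the centraliser of a transposition -/

theorem og_mem_H (s : Gen) (hs : s ≠ .j) : og s ∈ K.H := by
  apply Subgroup.mem_map_of_mem
  apply Subgroup.subset_closure
  show FreeGroup.of s ∈ ({Cfsg.Spor.Fi23.a, Cfsg.Spor.Fi23.b, Cfsg.Spor.Fi23.c, Cfsg.Spor.Fi23.d,
    Cfsg.Spor.Fi23.e, Cfsg.Spor.Fi23.f, Cfsg.Spor.Fi23.g, Cfsg.Spor.Fi23.h, Cfsg.Spor.Fi23.i} :
      Set (FreeGroup Gen))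
  cases s <;> simp at hs ⊢

theorem og_comm (s : Gen) (hs : s ≠ .j) : og s * z1 = z1 * og s :=
  Cfsg.Agent.Lib.Helper35Fi23Dc.z_comm _ (og_mem_H s hs)

section stem

variable {Γ : Type} [Group Γ] (σ : Γ →* K.Grp)

theorem lifts_comm (hs : Function.Surjective σ) (hk : σ.ker ≤ Subgroup.center Γ) (ζ : Γ)
    (hζ : σ ζ = z1) (s : Gen) (hsj : s ≠ .j) : ∃ γ, σ γ = og s ∧ γ * ζ = ζ * γ := by
  choose ℓ hℓ using fun s => hs (og s)
  have hN : ∀ s, s ≠ Cfsg.Spor.Fi23.Gen.j → ℓ s ∈ (Subgroup.centralizer {σ ζ}).comap σ := by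
    intro s h
    rw [Subgroup.mem_comap, Subgroup.mem_centralizer_singleton_iff, hℓ, hζ]
    exact og_comm s h
  let a : ∀ s, s ≠ Cfsg.Spor.Fi23.Gen.j → Subgroup.center Γ := fun s h => kap σ hk ζ ⟨ℓ s, hN s h⟩
  have sq : ∀ s (h : s ≠ Cfsg.Spor.Fi23.Gen.j), a s h * a s h = 1 := by
    intro s h
    show kap σ hk ζ _ * kap σ hk ζ _ = 1
    rw [← map_mul]
    apply kap_ker
    show σ (ℓ s * ℓ s) = 1
    rw [map_mul, hℓ]
    exact og_sq s
  have ed : ∀ s t (h : s ≠ Cfsg.Spor.Fi23.Gen.j) (h' : t ≠ Cfsg.Spor.Fi23.Gen.j), lbl s t = 3 → a s h = a t h' := by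
    intro s t h h' hl
    apply eq_of_edge (center_comm _ _) (sq s h) (sq t h')
    show (kap σ hk ζ _ * kap σ hk ζ _) ^ 3 = 1
    rw [← map_mul, ← map_pow]
    apply kap_ker
    show σ ((ℓ s * ℓ t) ^ 3) = 1
    rw [map_pow, map_mul, hℓ, hℓ]
    have := rel_cox s t
    rwa [hl] at this
  have hE : (a .a (by decide) * a .b (by decide) * a .c (by decide) * a .d (by decide) *
      a .e (by decide) * a .f (by decide) * a .h (by decide)) ^ 9 = 1 := by
    show (kap σ hk ζ _ * kap σ hk ζ _ * kap σ hk ζ _ * kap σ hk ζ _ * kap σ hk ζ _ *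
      kap σ hk ζ _ * kap σ hk ζ _) ^ 9 = 1
    simp only [← map_mul, ← map_pow]
    apply kap_ker
    show σ ((ℓ .a * ℓ .b * ℓ .c * ℓ .d * ℓ .e * ℓ .f * ℓ .h) ^ 9) = 1
    simp only [map_pow, map_mul, hℓ]
    exact rel_E
  have e1 := ed .a .b (by decide) (by decide) (by decide)
  have e2 := ed .b .c (by decide) (by decide) (by decide)
  have e3 := ed .c .d (by decide) (by decide) (by decide)
  have e4 := ed .d .e (by decide) (by decide) (by decide)
  have e5 := ed .e .f (by decide) (by decide) (by decide)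
  have e6 := ed .f .g (by decide) (by decide) (by decide)
  have e7 := ed .d .h (by decide) (by decide) (by decide)
  have e8 := ed .h .i (by decide) (by decide) (by decide)
  have hx := sq .a (by decide)
  rw [← e7, ← e5, ← e4, ← e3, ← e2, ← e1, hx, one_mul, hx, one_mul, hx, one_mul] at hE
  have hx1 : a .a (by decide) = 1 := by
    generalize a .a (by decide) = x at hx hE
    have : x ^ 9 = (x * x) ^ 4 * x := by
      rw [← pow_two, ← pow_mul, ← pow_succ]
    rw [this, hx, one_pow, one_mul] at hE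
    exact hE
  have all : ∀ s (h : s ≠ Cfsg.Spor.Fi23.Gen.j), a s h = 1 := by
    intro s h
    cases s
    · exact hx1
    · exact e1.symm.trans hx1
    · exact (e1.trans e2).symm.trans hx1
    · exact (e1.trans (e2.trans e3)).symm.trans hx1
    · exact (e1.trans (e2.trans (e3.trans e4))).symm.trans hx1
    · exact (e1.trans (e2.trans (e3.trans (e4.trans e5)))).symm.trans hx1
    · exact (e1.trans (e2.trans (e3.trans (e4.trans (e5.trans e6))))).symm.trans hx1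
    · exact absurd rfl h
    · exact (e1.trans (e2.trans (e3.trans e7))).symm.trans hx1
    · exact (e1.trans (e2.trans (e3.trans (e7.trans e8)))).symm.trans hx1
  exact ⟨ℓ s, hℓ s, comm_of_kap σ hk ζ ⟨ℓ s, hN s hsj⟩ (all s hsj)⟩

theorem hyp (hσ : Cfsg.IsStemExtension σ) : ∃ ζ, Hyp σ z1 ζ := by
  obtain ⟨hs, hk, -⟩ := hσ
  obtain ⟨ζ, hζ⟩ := hs z1
  refine ⟨ζ, hk, hζ, z1_sq, ?_⟩
  intro γ h
  apply cen_of_closure σ hk ζ hs ((PresentedGroup.mk K.rels) '' K.S) ?_ ?_ γ (by rw [hζ]; exact h)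
  · rw [hζ, ← MonoidHom.map_closure]
    exact le_of_eq Cfsg.Agent.Lib.Helper33Fi23T.cent_eq
  · rintro _ ⟨r, hr, rfl⟩
    have hr' : r ∈ ({Cfsg.Spor.Fi23.a, Cfsg.Spor.Fi23.b, Cfsg.Spor.Fi23.c, Cfsg.Spor.Fi23.d,
      Cfsg.Spor.Fi23.e, Cfsg.Spor.Fi23.f, Cfsg.Spor.Fi23.g, Cfsg.Spor.Fi23.h, Cfsg.Spor.Fi23.i} :
        Set (FreeGroup Gen)) := hr
    simp only [Set.mem_insert_iff, Set.mem_singleton_iff] at hr'
    rcases hr' with rfl | rfl | rfl | rfl | rfl | rfl | rfl | rfl | rfl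
    · exact lifts_comm σ hs hk ζ hζ .a (by decide)
    · exact lifts_comm σ hs hk ζ hζ .b (by decide)
    · exact lifts_comm σ hs hk ζ hζ .c (by decide)
    · exact lifts_comm σ hs hk ζ hζ .d (by decide)
    · exact lifts_comm σ hs hk ζ hζ .e (by decide)
    · exact lifts_comm σ hs hk ζ hζ .f (by decide)
    · exact lifts_comm σ hs hk ζ hζ .g (by decide)
    · exact lifts_comm σ hs hk ζ hζ .h (by decide)
    · exact lifts_comm σ hs hk ζ hζ .i (by decide)

def gl9 : List Gen := [.d, .c, .b, .d, .e, .f, .d, .h, .i]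

def gl7 : List Gen := [.a, .b, .c, .d, .e, .f, .h]

theorem map_tr (l : List Gen) : ((l.map ptOf).map tr).prod = (l.map og).prod := by
  rw [List.map_map]
  congr 1
  apply List.map_congr_left
  intro s _
  exact (og_eq s).symm

theorem alg1 {Γ : Type*} [Group Γ] (W Sh X Y Yh : Γ) (Wc : ∀ γ, W * γ = γ * W)
    (Sc : ∀ γ, Sh * γ = γ * Sh) (h2 : Sh ^ 3 = W ^ 135) (h3 : Sh * X = W ^ 51)
    (h4 : Yh * Y = W ^ 12) (h5 : X * Y = W ^ 12) (hconj : (∀ γ, Y * γ = γ * Y) → Yh = Y) :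
    Sh = W ^ 45 := by
  have hX : X = Sh⁻¹ * W ^ 51 := by rw [← h3]; group
  have hY : Y = (W ^ 51)⁻¹ * Sh * W ^ 12 := by
    have : Y = X⁻¹ * (X * Y) := by group
    rw [this, h5, hX]
    group
  have hY' : Y = Sh * (W ^ 39)⁻¹ := by
    rw [hY, ← Sc]
    group
  have Wp : ∀ γ, (W ^ 39)⁻¹ * γ = γ * (W ^ 39)⁻¹ := by
    intro γ
    have h : Commute W γ := Wc γ
    exact (h.pow_left 39).inv_left
  have Yc : ∀ γ, Y * γ = γ * Y := by
    intro γ
    rw [hY', mul_assoc, Wp, ← mul_assoc, Sc, mul_assoc]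
  rw [hconj Yc] at h4
  have h6 : Sh * Sh = W ^ 90 := by
    have : Sh * Sh = (Y * Y) * W ^ 78 := by
      rw [hY']
      calc Sh * Sh = Sh * (Sh * (W ^ 39)⁻¹) * ((W ^ 39)⁻¹ * W ^ 78) := by group
        _ = Sh * ((W ^ 39)⁻¹ * Sh) * ((W ^ 39)⁻¹ * W ^ 78) := by rw [Wp Sh]
        _ = _ := by group
    rw [this, h4]
    group
  calc Sh = Sh ^ 3 * (Sh * Sh)⁻¹ := by group
    _ = W ^ 135 * (W ^ 90)⁻¹ := by rw [h2, h6]
    _ = W ^ 45 := by group

theorem ker_bot (hσ : Cfsg.IsStemExtension σ) : σ.ker = ⊥ := by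
  obtain ⟨ζ, H⟩ := hyp σ hσ
  have hs := hσ.1
  have ht : ∀ v, IsT σ z1 (tr v) := by
    intro v
    obtain ⟨γ, hγ⟩ := hs ((gam v)⁻¹ * gam 0)
    refine ⟨γ, ?_⟩
    rw [hγ, z1_eq, tr]
    group
  have sW := sig_w H
  have Wc := w_comm H
  generalize hW : ζ * ζ = W at sW Wc
  have CS := fun cert l hl h => chk_sound (n := 31671) H ht hc cert l hl h
  rw [hW] at CS
  have EM := fun m hm l hl => ev_map (n := 31671) H ht hc m hm l hl
  have SE := sig_ev H ht
  have KC := fun (a : Γ) (ha : σ a = 1) => ker_comm H ha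
  have CX := fun x y => cox H (ht (ptOf x)) (ht (ptOf y)) (lbl x y) (lab x y)
    (by rw [← og_eq, ← og_eq]; exact rel_cox x y)
  rw [hW] at CX
  have SL := fun v => sig_Lc H (ht v)
  generalize hEV : ev σ z1 ζ tr = EV at CS EM SE
  have evc : ∀ v l, EV (v :: l) = Lc σ z1 ζ (tr v) * EV l := by
    intro v l; rw [← hEV]; exact ev_cons tr v l
  have evn : EV [] = 1 := by rw [← hEV]; rfl
  have eva : ∀ l l', EV (l ++ l') = EV l * EV l' := by
    intro l l'; rw [← hEV]; exact ev_append tr l l'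
  have evr : ∀ l k, EV (List.replicate k l).flatten = EV l ^ k := by
    intro l k; rw [← hEV]; exact ev_rep tr l k
  -- the five reductions
  have h1 : EV l7 ^ 18 = W ^ 63 := by
    rw [← evr]; exact CS cE2 _ (by decide) chkE2
  have h2 : EV l9 ^ 30 = W ^ 135 := by
    rw [← evr]; exact CS cS3 _ (by decide) chkS3
  have h3 : EV l9 ^ 10 * EV Zr = W ^ 51 := by
    rw [← evr, ← eva]; exact CS cSZ _ (by decide) chkSZ
  have h4 : EV Zh * EV Zw = W ^ 12 := by
    rw [← eva]; exact CS cZZ _ (by decide) chkZZ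
  have h5 : EV Zr * EV Zw = W ^ 12 := by
    rw [← eva]; exact CS cRZ _ (by decide) chkRZ
  have sS : σ (EV l9 ^ 10) = 1 := by
    rw [map_pow, SE]
    have : (l9.map tr).prod = (gl9.map og).prod := map_tr gl9
    rw [this]
    simp only [gl9, List.map_cons, List.map_nil, List.prod_cons, List.prod_nil, mul_one,
      ← mul_assoc]
    exact rel_S
  have sE : σ (EV l7 ^ 9) = 1 := by
    rw [map_pow, SE]
    have : (l7.map tr).prod = (gl7.map og).prod := map_tr gl7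
    rw [this]
    simp only [gl7, List.map_cons, List.map_nil, List.prod_cons, List.prod_nil, mul_one,
      ← mul_assoc]
    exact rel_E
  have h2' : (EV l9 ^ 10) ^ 3 = W ^ 135 := by rw [← pow_mul]; exact h2
  have h1' : EV l7 ^ 9 * EV l7 ^ 9 = W ^ 63 := by rw [← pow_add]; exact h1
  have Sc := KC _ sS
  have Ec := KC _ sE
  have hS : EV l9 ^ 10 = W ^ 45 := by
    apply alg1 W _ (EV Zr) (EV Zw) (EV Zh) Wc Sc h2' h3 h4 h5
    intro Yc
    have cj : ∀ η, η⁻¹ * EV Zw * η = EV Zw := fun η => by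
      rw [mul_assoc, Yc, ← mul_assoc, inv_mul_cancel, one_mul]
    rw [← chkZh, EM 2396 (by norm_num) _ ?_, EM 1315 (by norm_num) _ (by decide), cj, cj]
    intro v hv
    obtain ⟨u, hu, rfl⟩ := List.mem_map.mp hv
    exact (hc 1315 u (by norm_num) ((by decide : ∀ v ∈ Zw, v < 31671) u hu)).1
  -- the correction
  obtain ⟨y, hy⟩ : ∃ y, y = EV l7 ^ 9 * (W ^ 31)⁻¹ := ⟨_, rfl⟩
  have sy : σ y = 1 := by rw [hy, map_mul, map_inv, sE, map_pow, sW]; simp
  have yc := KC _ sy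
  have yic : ∀ γ, y⁻¹ * γ = γ * y⁻¹ := fun γ => (Commute.inv_left (yc γ : Commute y γ))
  have yy : y⁻¹ * y⁻¹ = W⁻¹ := by
    have Wp : ∀ γ, (W ^ 31)⁻¹ * γ = γ * (W ^ 31)⁻¹ := by
      intro γ
      have h : Commute W γ := Wc γ
      exact (h.pow_left 31).inv_left
    have : y * y = W := by
      rw [hy]
      calc EV l7 ^ 9 * (W ^ 31)⁻¹ * (EV l7 ^ 9 * (W ^ 31)⁻¹)
          = EV l7 ^ 9 * ((W ^ 31)⁻¹ * EV l7 ^ 9) * (W ^ 31)⁻¹ := by group
        _ = EV l7 ^ 9 * (EV l7 ^ 9 * (W ^ 31)⁻¹) * (W ^ 31)⁻¹ := by rw [Wp]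
        _ = (EV l7 ^ 9 * EV l7 ^ 9) * ((W ^ 31)⁻¹ * (W ^ 31)⁻¹) := by group
        _ = W := by rw [h1']; group
    rw [← this]
    group
  let f : Gen → Γ := fun s => Lc σ z1 ζ (tr (ptOf s)) * y⁻¹
  have prodf : ∀ l : List Gen, (l.map f).prod = EV (l.map ptOf) * y⁻¹ ^ l.length := by
    intro l
    induction l with
    | nil => simp [evn]
    | cons s l ih =>
      rw [List.map_cons, List.prod_cons, ih, List.map_cons, evc, List.length_cons, pow_succ']
      show Lc σ z1 ζ (tr (ptOf s)) * y⁻¹ * _ = _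
      rw [mul_assoc (Lc σ z1 ζ (tr (ptOf s))) y⁻¹, ← mul_assoc y⁻¹, yic]
      group
  apply ker_bot_of_section σ hσ f
  · intro s
    show σ (Lc σ z1 ζ (tr (ptOf s)) * y⁻¹) = _
    rw [map_mul, map_inv, sy, SL, inv_one, mul_one]
    exact (og_eq s).symm
  · rintro r (⟨x, -, x', -, rfl⟩ | hr)
    · rw [map_pow, map_mul, FreeGroup.lift_apply_of, FreeGroup.lift_apply_of]
      show (Lc σ z1 ζ (tr (ptOf x)) * y⁻¹ * (Lc σ z1 ζ (tr (ptOf x')) * y⁻¹)) ^ lbl x x' = 1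
      have e : Lc σ z1 ζ (tr (ptOf x)) * y⁻¹ * (Lc σ z1 ζ (tr (ptOf x')) * y⁻¹)
          = (Lc σ z1 ζ (tr (ptOf x)) * Lc σ z1 ζ (tr (ptOf x'))) * W⁻¹ := by
        rw [← yy, mul_assoc (Lc σ z1 ζ (tr (ptOf x))) y⁻¹, ← mul_assoc y⁻¹, yic]
        group
      have cm : Commute (Lc σ z1 ζ (tr (ptOf x)) * Lc σ z1 ζ (tr (ptOf x'))) W⁻¹ :=
        (Commute.inv_left (Wc _ : Commute W _)).symm
      rw [e, cm.mul_pow, CX, inv_pow, mul_inv_cancel]
    · have hr' : r ∈ Cfsg.Spor.Fi23.extra := hr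
      simp only [Cfsg.Spor.Fi23.extra, List.mem_cons, List.not_mem_nil, or_false] at hr'
      rcases hr' with rfl | rfl
      · simp only [map_pow, map_mul, FreeGroup.lift_apply_of]
        have e : f .d * f .c * f .b * f .d * f .e * f .f * f .d * f .h * f .i
            = (gl9.map f).prod := by
          simp only [gl9, List.map_cons, List.map_nil, List.prod_cons, List.prod_nil, mul_one,
            ← mul_assoc]
        rw [e, prodf]
        have e2 : gl9.map ptOf = l9 := rfl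
        have e3 : gl9.length = 9 := rfl
        have cm : Commute (EV l9) (y⁻¹ ^ 9) :=
          (Commute.pow_left (yic _ : Commute y⁻¹ _) 9).symm
        rw [e2, e3, cm.mul_pow, hS, ← pow_mul]
        have : y⁻¹ ^ (9 * 10) = (y⁻¹ * y⁻¹) ^ 45 := by rw [← pow_two, ← pow_mul]
        rw [this, yy, inv_pow, mul_inv_cancel]
      · simp only [map_pow, map_mul, FreeGroup.lift_apply_of]
        have e : f .a * f .b * f .c * f .d * f .e * f .f * f .h = (gl7.map f).prod := by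
          simp only [gl7, List.map_cons, List.map_nil, List.prod_cons, List.prod_nil, mul_one,
            ← mul_assoc]
        rw [e, prodf]
        have e2 : gl7.map ptOf = l7 := rfl
        have e3 : gl7.length = 7 := rfl
        have cm : Commute (EV l7) (y⁻¹ ^ 7) :=
          (Commute.pow_left (yic _ : Commute y⁻¹ _) 7).symm
        rw [e2, e3, cm.mul_pow, ← pow_mul]
        have : y⁻¹ ^ (7 * 9) = (y⁻¹ * y⁻¹) ^ 31 * y⁻¹ := by
          rw [← pow_two, ← pow_mul, ← pow_succ]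
        rw [this, yy, hy]
        group

end stem

theorem main : Cfsg.HasCyclicSchurMultiplier K.Grp 1 := by
  rw [Cfsg.Agent.Lib.Helper69Schur.hasTrivialMultiplier_iff]
  intro Γ _ _ σ hσ
  exact ker_bot σ hσ

end Cfsg.Agent.Lib.Helper47Fi23MultB
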