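import Cfsg.Agent.Lib.Helper47Fi22M27
import Cfsg.Agent.Lib.Helper47Fi23MultB
import Cfsg.Agent.Lib.Helper47StemB
import Cfsg.Agent.Lib.Helper47Fi22Out

set_option autoImplicit false
set_option maxRecDepth 100000

/-! A stem extension of `Fi₂₂` with kernel cyclic of order six, inside `GL₂₇(4) × Fi₂₃`. -/

namespace Cfsg.Agent.Lib.Helper47Fi22MultE

open Cfsg.Agent.Lib.Helper18F4 Cfsg.Agent.Lib.Helper47F4Mat Cfsg.Agent.Lib.Helper47Fi22M27
  Cfsg.Agent.Lib.Helper47StemA Cfsg.Agent.Lib.Helper47StemB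

noncomputable abbrev K22 := Cfsg.Agent.Lib.Helper35Fi22a.K
noncomputable abbrev K23 := Cfsg.Agent.Lib.Helper35Fi23a.K
abbrev G3 := Cfsg.Spor.Fi23.Gen
abbrev Mat := Matrix (Fin 27) (Fin 27) F4c

theorem prod_rep {α M : Type*} [Monoid M] (f : α → M) (l : List α) :
    ∀ m : ℕ, (((List.replicate m l).flatten).map f).prod = ((l.map f).prod) ^ m
  | 0 => by simp
  | m + 1 => by
    rw [List.replicate_succ, List.flatten_cons, List.map_append, List.prod_append, prod_rep f l m,
      pow_succ']

noncomputable def mm (s : Gen) : Mat := toM 27 (R s)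

theorem mm_word (w : List Gen) (c : F4c) (h : chkW 27 R w c = true) : (w.map mm).prod = c • 1 :=
  prod_eq 27 R hR w c h

theorem mm_cox (x y : Gen) : (mm x * mm y) ^ lbl x y = 1 := by
  have h := mm_word _ _ (chkCox x y)
  rw [prod_rep, one_smul] at h
  simpa using h

theorem lbl_self (s : Gen) : lbl s s = 1 := by cases s <;> decide

theorem mm_sq (s : Gen) : mm s * mm s = 1 := by
  have h := mm_cox s s
  rwa [lbl_self, pow_one] at h

noncomputable def mU (s : Gen) : Matˣ := ⟨mm s, mm s, mm_sq s, mm_sq s⟩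

theorem coe_prod : ∀ w : List Gen, ((w.map mU).prod : Matˣ).val = (w.map mm).prod
  | [] => by simp
  | s :: w => by
    rw [List.map_cons, List.prod_cons, Units.val_mul, coe_prod w, List.map_cons, List.prod_cons]
    rfl

def om : F4c := ⟨false, true⟩

def l9 : List Gen := [.d, .c, .b, .d, .e, .f, .d, .h, .i]
def l7 : List Gen := [.a, .b, .c, .d, .e, .f, .h]
def l7' : List Gen := [.b, .c, .d, .e, .f, .g, .h]

noncomputable def cU : Matˣ := ((l9.map mU).prod) ^ 10

theorem cU_val : cU.val = om • 1 := by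
  rw [cU, ← prod_rep, coe_prod]
  exact mm_word _ _ chkS

theorem cU_comm (X : Matˣ) : cU * X = X * cU := by
  apply Units.ext
  rw [Units.val_mul, Units.val_mul, cU_val, smul_mul_assoc, mul_smul_comm, one_mul, mul_one]

theorem cU_pow (k : ℕ) : (cU ^ k).val = (om ^ k) • 1 := by
  rw [Units.val_pow_eq_pow_val, cU_val, smul_pow, one_pow]

theorem cU_cube : cU ^ 3 = 1 := by
  apply Units.ext
  rw [cU_pow]
  have : om ^ 3 = 1 := by decide
  rw [this, one_smul]
  rfl

theorem cU_sq_ne : cU ^ 2 ≠ 1 := by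
  intro h
  have h1 := congrArg Units.val h
  rw [cU_pow] at h1
  have h2 := congrFun (congrFun h1 0) 0
  simp only [Matrix.smul_apply, Units.val_one, Matrix.one_apply_eq, smul_eq_mul, mul_one] at h2
  revert h2
  decide

theorem mU_E1 : ((l7.map mU).prod) ^ 9 = 1 := by
  apply Units.ext
  rw [← prod_rep, coe_prod]
  have h := mm_word _ _ chkE1
  rw [one_smul] at h
  exact h

theorem mU_E2 : ((l7'.map mU).prod) ^ 9 = 1 := by
  apply Units.ext
  rw [← prod_rep, coe_prod]
  have h := mm_word _ _ chkE2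
  rw [one_smul] at h
  exact h

theorem mU_cox (x y : Gen) : (mU x * mU y) ^ lbl x y = 1 := by
  apply Units.ext
  rw [Units.val_pow_eq_pow_val, Units.val_mul]
  exact mm_cox x y

/-! ### the group -/

def io : Gen → G3
  | .a => .a
  | .b => .b
  | .c => .c
  | .d => .d
  | .e => .e
  | .f => .f
  | .g => .g
  | .h => .h
  | .i => .i

noncomputable abbrev og3 (s : G3) : K23.Grp := PresentedGroup.of s

theorem io_ne (s : Gen) : io s ≠ .j := by cases s <;> decide

theorem lbl_io (x y : Gen) : Cfsg.Agent.Lib.Helper47Fi23MultB.lbl (io x) (io y) = lbl x y := by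
  cases x <;> cases y <;> decide

noncomputable def u (s : Gen) : Matˣ × K23.Grp := (mU s, og3 (io s))

noncomputable def Gam : Subgroup (Matˣ × K23.Grp) := Subgroup.closure (Set.range u)

noncomputable def v (s : Gen) : Gam := ⟨u s, Subgroup.subset_closure ⟨s, rfl⟩⟩

theorem hgen : Subgroup.closure (Set.range v) = ⊤ := by
  have h := Subgroup.closure_closure_coe_preimage (k := Set.range u)
  have e : (Set.range v) = ((↑) : Subgroup.closure (Set.range u) → Matˣ × K23.Grp) ⁻¹' Set.range u := by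
    ext x
    constructor
    · rintro ⟨s, rfl⟩
      exact ⟨s, rfl⟩
    · rintro ⟨s, hs⟩
      exact ⟨s, Subtype.ext hs⟩
  rw [e]
  exact h

noncomputable abbrev z1 : K23.Grp := Cfsg.Agent.Lib.Helper47Fi23Out.z1

theorem v_cox (x y : Gen) : (v x * v y) ^ lbl x y = 1 := by
  apply Subtype.ext
  apply Prod.ext
  · exact mU_cox x y
  · show (og3 (io x) * og3 (io y)) ^ lbl x y = 1
    rw [← lbl_io]
    exact Cfsg.Agent.Lib.Helper47Fi23MultB.rel_cox (io x) (io y)

theorem v_prod_fst : ∀ w : List Gen, ((w.map v).prod : Gam).1.1 = (w.map mU).prod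
  | [] => rfl
  | s :: w => by
    rw [List.map_cons, List.prod_cons, List.map_cons, List.prod_cons, ← v_prod_fst w]
    rfl

theorem v_prod_snd : ∀ w : List Gen, ((w.map v).prod : Gam).1.2 = (w.map fun s => og3 (io s)).prod
  | [] => rfl
  | s :: w => by
    rw [List.map_cons, List.prod_cons, List.map_cons, List.prod_cons, ← v_prod_snd w]
    rfl

theorem v_S : (((l9.map v).prod) ^ 10 : Gam).1 = (cU, 1) := by
  apply Prod.ext
  · show (((l9.map v).prod : Gam).1.1) ^ 10 = cU
    rw [v_prod_fst]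
    rfl
  · show (((l9.map v).prod : Gam).1.2) ^ 10 = 1
    rw [v_prod_snd]
    have h := Cfsg.Agent.Lib.Helper47Fi23MultB.rel_S
    simpa [l9, io, mul_assoc] using h

theorem v_E1 : ((l7.map v).prod) ^ 9 = (1 : Gam) := by
  apply Subtype.ext
  apply Prod.ext
  · show (((l7.map v).prod : Gam).1.1) ^ 9 = 1
    rw [v_prod_fst]
    exact mU_E1
  · show (((l7.map v).prod : Gam).1.2) ^ 9 = 1
    rw [v_prod_snd]
    have h := Cfsg.Agent.Lib.Helper47Fi23MultB.rel_E
    simpa [l7, io, mul_assoc] using h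

theorem z1_word : (og3 .b * og3 .c * og3 .d * og3 .e * og3 .f * og3 .g * og3 .h) ^ 9 = z1 := by
  show _ = PresentedGroup.mk K23.rels Cfsg.Agent.Lib.Helper35Fi23Dc.zE.eval
  simp only [Cfsg.Agent.Lib.Helper35Fi23Dc.zE, Cfsg.Agent.Lib.Helper35TC.WExp.eval, map_pow, map_mul]
  rfl

theorem v_E2 : (((l7'.map v).prod) ^ 9 : Gam).1 = (1, z1) := by
  apply Prod.ext
  · show (((l7'.map v).prod : Gam).1.1) ^ 9 = 1
    rw [v_prod_fst]
    exact mU_E2
  · show (((l7'.map v).prod : Gam).1.2) ^ 9 = z1
    rw [v_prod_snd, ← z1_word]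
    simp [l7', io, mul_assoc]

/-! ### the central subgroup of order six -/

noncomputable def tS : Gam := ((l9.map v).prod) ^ 10
noncomputable def tE : Gam := ((l7'.map v).prod) ^ 9
noncomputable def tt : Gam := tS * tE

theorem tt_val : tt.1 = (cU, z1) := by
  show tS.1 * tE.1 = _
  rw [show tS.1 = (cU, 1) from v_S, show tE.1 = (1, z1) from v_E2]
  simp

theorem z1_sq : z1 * z1 = 1 := Cfsg.Agent.Lib.Helper47Fi23OutB.z1_sq
theorem z1_ne : z1 ≠ 1 := Cfsg.Agent.Lib.Helper47Fi23OutB.z1_ne

theorem tt_pow (k : ℕ) : (tt ^ k).1 = (cU ^ k, z1 ^ k) := by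
  show (tt.1) ^ k = _
  rw [tt_val]
  rfl

theorem tt_three : tt ^ 3 = tE := by
  apply Subtype.ext
  rw [tt_pow, cU_cube, show tE.1 = (1, z1) from v_E2, pow_succ, pow_two, z1_sq, one_mul]

theorem tt_four : tt ^ 4 = tS := by
  apply Subtype.ext
  rw [tt_pow, show tS.1 = (cU, 1) from v_S, pow_succ cU, cU_cube, one_mul]
  have : z1 ^ 4 = 1 := by
    calc z1 ^ 4 = (z1 * z1) * (z1 * z1) := by
          simp only [pow_succ, pow_zero, one_mul, mul_assoc]
      _ = 1 := by rw [z1_sq, one_mul]
  rw [this]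

theorem tt_order : orderOf tt = 6 := by
  apply orderOf_eq_of_pow_and_pow_div_prime (by norm_num)
  · apply Subtype.ext
    rw [tt_pow, show (6 : ℕ) = 3 * 2 from rfl, pow_mul, cU_cube, one_pow,
      show (3 * 2 : ℕ) = 2 * 3 from rfl, pow_mul, pow_two, z1_sq, one_pow]
    rfl
  · intro p hp hd
    have hp6 : p ∣ 2 * 3 := hd
    rcases (Nat.Prime.dvd_mul hp).mp hp6 with h | h
    · have : p = 2 := (Nat.prime_dvd_prime_iff_eq hp Nat.prime_two).mp h
      subst this
      intro h1
      have h2 := congrArg (fun x : Gam => x.1.2) h1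
      simp only [show (6 / 2 : ℕ) = 3 from rfl] at h2
      rw [tt_pow] at h2
      apply z1_ne
      have h3 : z1 ^ 3 = 1 := h2
      rwa [pow_succ, pow_two, z1_sq, one_mul] at h3
    · have : p = 3 := (Nat.prime_dvd_prime_iff_eq hp Nat.prime_three).mp h
      subst this
      intro h1
      have h2 := congrArg (fun x : Gam => x.1.1) h1
      simp only [show (6 / 3 : ℕ) = 2 from rfl] at h2
      rw [tt_pow] at h2
      exact cU_sq_ne h2

theorem tt_central : tt ∈ Subgroup.center Gam := by
  rw [Subgroup.mem_center_iff]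
  have key : Gam ≤ Subgroup.centralizer {tt.1} := by
    show Subgroup.closure (Set.range u) ≤ _
    rw [Subgroup.closure_le]
    rintro _ ⟨s, rfl⟩
    rw [SetLike.mem_coe, Subgroup.mem_centralizer_singleton_iff, tt_val]
    apply Prod.ext
    · exact (cU_comm (mU s)).symm
    · exact Cfsg.Agent.Lib.Helper47Fi23MultB.og_comm (io s) (io_ne s)
  intro g
  apply Subtype.ext
  exact Subgroup.mem_centralizer_singleton_iff.mp (key g.2)

noncomputable def ZZ : Subgroup Gam := Subgroup.zpowers tt

theorem ZZ_le : ZZ ≤ Subgroup.center Gam := by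
  rw [ZZ, Subgroup.zpowers_le]
  exact tt_central

theorem perfect : commutator Gam = ⊤ := by
  let ab : Gam →* Abelianization Gam := Abelianization.of
  have sq : ∀ s, ab (v s) * ab (v s) = 1 := by
    intro s
    rw [← map_mul]
    have h := v_cox s s
    rw [lbl_self, pow_one] at h
    rw [h, map_one]
  have ed : ∀ s t, lbl s t = 3 → ab (v s) = ab (v t) := by
    intro s t hl
    apply eq_of_edge (mul_comm _ _) (sq s) (sq t)
    rw [← map_mul, ← map_pow]
    have h := v_cox s t
    rw [hl] at h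
    rw [h, map_one]
  have e1 := ed .a .b (by decide)
  have e2 := ed .b .c (by decide)
  have e3 := ed .c .d (by decide)
  have e4 := ed .d .e (by decide)
  have e5 := ed .e .f (by decide)
  have e6 := ed .f .g (by decide)
  have e7 := ed .d .h (by decide)
  have e8 := ed .h .i (by decide)
  have hE : (ab (v .a) * ab (v .b) * ab (v .c) * ab (v .d) * ab (v .e) * ab (v .f) * ab (v .h)) ^ 9
      = 1 := by
    have h := congrArg ab v_E1
    rw [map_one, map_pow] at h
    simpa [l7, mul_assoc] using h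
  have hx := sq .a
  rw [← e7, ← e5, ← e4, ← e3, ← e2, ← e1, hx, one_mul, hx, one_mul, hx, one_mul] at hE
  have hx1 : ab (v .a) = 1 := by
    generalize ab (v .a) = x at hx hE
    have : x ^ 9 = (x * x) ^ 4 * x := by
      rw [← pow_two, ← pow_mul, ← pow_succ]
    rw [this, hx, one_pow, one_mul] at hE
    exact hE
  have all : ∀ s, ab (v s) = 1 := by
    intro s
    cases s
    · exact hx1
    · exact e1.symm.trans hx1
    · exact (e1.trans e2).symm.trans hx1
    · exact (e1.trans (e2.trans e3)).symm.trans hx1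
    · exact (e1.trans (e2.trans (e3.trans e4))).symm.trans hx1
    · exact (e1.trans (e2.trans (e3.trans (e4.trans e5)))).symm.trans hx1
    · exact (e1.trans (e2.trans (e3.trans (e4.trans (e5.trans e6))))).symm.trans hx1
    · exact (e1.trans (e2.trans (e3.trans e7))).symm.trans hx1
    · exact (e1.trans (e2.trans (e3.trans (e7.trans e8)))).symm.trans hx1
  have hker : ab.ker = ⊤ := by
    rw [eq_top_iff, ← hgen, Subgroup.closure_le]
    rintro _ ⟨s, rfl⟩
    exact all s
  have h2 : ab.ker = commutator Gam := QuotientGroup.ker_mk' _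
  rw [← h2, hker]

theorem ZZ_ne : ZZ ≠ ⊤ := by
  intro h
  have hc : ∀ a b : Gam, a * b = b * a := by
    intro a b
    have : b ∈ Subgroup.center Gam := ZZ_le (by rw [h]; trivial)
    exact Subgroup.mem_center_iff.mp this a
  have h1 : commutator Gam = ⊥ := by
    rw [commutator_eq_closure, Subgroup.closure_eq_bot_iff]
    rintro _ ⟨a, b, rfl⟩
    rw [Set.mem_singleton_iff, commutatorElement_def, hc a b]
    group
  rw [perfect] at h1
  have h2 : tt = 1 := by
    have : tt ∈ (⊤ : Subgroup Gam) := trivial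
    rw [h1] at this
    exact this
  have h3 := tt_order
  rw [h2, orderOf_one] at h3
  norm_num at h3

theorem hrel : ∀ r ∈ K22.rels, FreeGroup.lift v r ∈ ZZ := by
  rintro r (⟨x, -, y, -, rfl⟩ | hr)
  · rw [map_pow, map_mul, FreeGroup.lift_apply_of, FreeGroup.lift_apply_of]
    have h := v_cox x y
    have h' : (v x * v y) ^ Cfsg.Spor.coxLabel Cfsg.Spor.Fi22.edges x y = 1 := h
    rw [h']
    exact Subgroup.one_mem _
  · have hr' : r ∈ Cfsg.Spor.Fi22.extra := hr
    simp only [Cfsg.Spor.Fi22.extra, List.mem_cons, List.not_mem_nil, or_false] at hr'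
    rcases hr' with rfl | rfl | rfl
    · simp only [map_pow, map_mul, FreeGroup.lift_apply_of]
      have e : (v .d * v .c * v .b * v .d * v .e * v .f * v .d * v .h * v .i) ^ 10 = tS := by
        simp [tS, l9, mul_assoc]
      rw [e, ← tt_four]
      exact Subgroup.pow_mem _ (Subgroup.mem_zpowers _) _
    · simp only [map_pow, map_mul, FreeGroup.lift_apply_of]
      have e : (v .a * v .b * v .c * v .d * v .e * v .f * v .h) ^ 9 = 1 := by
        have h := v_E1
        simpa [l7, mul_assoc] using h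
      rw [e]
      exact Subgroup.one_mem _
    · simp only [map_pow, map_mul, FreeGroup.lift_apply_of]
      have e : (v .b * v .c * v .d * v .e * v .f * v .g * v .h) ^ 9 = tE := by
        simp [tE, l7', mul_assoc]
      rw [e, ← tt_three]
      exact Subgroup.pow_mem _ (Subgroup.mem_zpowers _) _

instance : Finite K23.Grp := Cfsg.Agent.Lib.Helper35Fi23Fin.hub.1

theorem exists_cover : ∃ (Γ : Type) (_ : Group Γ) (_ : Finite Γ) (σ : Γ →* K22.Grp),
    Cfsg.IsStemExtension σ ∧ Nonempty (σ.ker ≃* Multiplicative (ZMod 6)) := by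
  obtain ⟨σ, hσ, hker⟩ := stem_of_gens Cfsg.Agent.Lib.Helper35Fi22Fin.simple v hgen ZZ ZZ_le hrel
    perfect ZZ_ne
  refine ⟨Gam, inferInstance, inferInstance, σ, hσ, ?_⟩
  rw [hker]
  have hc : Nat.card ZZ = 6 := by rw [ZZ, Nat.card_zpowers, tt_order]
  have hcyc : IsCyclic ZZ := by rw [ZZ]; infer_instance
  have e := zmodCyclicMulEquiv hcyc
  rw [hc] at e
  exact ⟨e.symm⟩

end Cfsg.Agent.Lib.Helper47Fi22MultE
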