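import Cfsg.Agent.Lib.Helper47Fi22MultD
import Cfsg.Agent.Lib.Helper47Fi22MultE

set_option autoImplicit false
set_option maxRecDepth 100000

/-! The Schur multiplier of the presented Fischer group `Fi₂₂` is cyclic of order six. -/

namespace Cfsg.Agent.Lib.Helper47Fi22MultB

open Cfsg.Agent.Lib.Helper35TC Cfsg.Agent.Lib.Helper35Fi22a
  Cfsg.Agent.Lib.Helper47Fi22Out Cfsg.Agent.Lib.Helper47Fi22OutB
  Cfsg.Agent.Lib.Helper47StemA Cfsg.Agent.Lib.Helper47StemB Cfsg.Agent.Lib.Helper47Fi22MultD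

noncomputable abbrev og (s : Gen) : K.Grp := PresentedGroup.of s

abbrev lbl (x y : Gen) : ℕ := Cfsg.Spor.coxLabel Cfsg.Spor.Fi22.edges x y

theorem mem_nodes (x : Gen) : x ∈ Cfsg.Spor.coxNodes Cfsg.Spor.Fi22.edges := by
  cases x <;> decide

theorem rel_cox (x y : Gen) : (og x * og y) ^ lbl x y = 1 := by
  have h : (FreeGroup.of x * FreeGroup.of y) ^ lbl x y ∈ K.rels :=
    Or.inl ⟨x, mem_nodes x, y, mem_nodes y, rfl⟩
  have h2 := PresentedGroup.one_of_mem h
  rw [map_pow, map_mul] at h2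
  exact h2

theorem lab (x y : Gen) : lbl x y = 1 ∨ lbl x y = 2 ∨ lbl x y = 3 := by
  cases x <;> cases y <;> decide

theorem og_sq (s : Gen) : og s * og s = 1 := by
  have h := rel_cox s s
  have h1 : lbl s s = 1 := by cases s <;> decide
  rwa [h1, pow_one] at h

theorem rel_S : (og .d * og .c * og .b * og .d * og .e * og .f * og .d * og .h * og .i) ^ 10 = 1 := by
  have h : (Cfsg.Spor.Fi22.d * Cfsg.Spor.Fi22.c * Cfsg.Spor.Fi22.b * Cfsg.Spor.Fi22.d *
      Cfsg.Spor.Fi22.e * Cfsg.Spor.Fi22.f * Cfsg.Spor.Fi22.d * Cfsg.Spor.Fi22.h *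
      Cfsg.Spor.Fi22.i) ^ 10 ∈ K.rels := Or.inr (by simp [Cfsg.Spor.Fi22.extra])
  have h2 := PresentedGroup.one_of_mem h
  simp only [map_pow, map_mul] at h2
  exact h2

theorem rel_E1 : (og .a * og .b * og .c * og .d * og .e * og .f * og .h) ^ 9 = 1 := by
  have h : (Cfsg.Spor.Fi22.a * Cfsg.Spor.Fi22.b * Cfsg.Spor.Fi22.c * Cfsg.Spor.Fi22.d *
      Cfsg.Spor.Fi22.e * Cfsg.Spor.Fi22.f * Cfsg.Spor.Fi22.h) ^ 9 ∈ K.rels :=
    Or.inr (by simp [Cfsg.Spor.Fi22.extra])
  have h2 := PresentedGroup.one_of_mem h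
  simp only [map_pow, map_mul] at h2
  exact h2

theorem rel_E2 : (og .b * og .c * og .d * og .e * og .f * og .g * og .h) ^ 9 = 1 := by
  have h : (Cfsg.Spor.Fi22.b * Cfsg.Spor.Fi22.c * Cfsg.Spor.Fi22.d * Cfsg.Spor.Fi22.e *
      Cfsg.Spor.Fi22.f * Cfsg.Spor.Fi22.g * Cfsg.Spor.Fi22.h) ^ 9 ∈ K.rels :=
    Or.inr (by simp [Cfsg.Spor.Fi22.extra])
  have h2 := PresentedGroup.one_of_mem h
  simp only [map_pow, map_mul] at h2
  exact h2

/-! ### the transpositions -/

noncomputable def tr (u : ℕ) : K.Grp := (gam u)⁻¹ * z * gam u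

theorem og_eq (s : Gen) : og s = tr (ptOf s) := gen_eq s

theorem tr_sq (u : ℕ) : tr u * tr u = 1 := by
  calc tr u * tr u = (gam u)⁻¹ * (z * z) * gam u := by rw [tr]; group
    _ = 1 := by rw [z_sq]; group

theorem tr_inv (u : ℕ) : (tr u)⁻¹ = tr u := inv_eq_of_mul_eq_one_left (tr_sq u)

theorem hc (m x : ℕ) (hm : m < 3510) (hx : x < 3510) :
    circN m x < 3510 ∧ (tr m)⁻¹ * tr x * tr m = tr (circN m x) := by
  have e1 : phi (gam m)⁻¹ o = ⟨m, hm⟩ := gam_inv_apply ⟨m, hm⟩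
  have e2 := conj_apply (gam m)⁻¹ ⟨x, hx⟩
  rw [e1, inv_inv] at e2
  have e2' : (phi (tr m) ⟨x, hx⟩).val = circN m x := e2
  refine ⟨by rw [← e2']; exact Fin.is_lt _, ?_⟩
  have e3 := tr_gam ((tr m)⁻¹ * (gam x)⁻¹)
  have e4 : phi ((tr m)⁻¹ * (gam x)⁻¹) o = phi (tr m) ⟨x, hx⟩ := by
    rw [map_mul, Equiv.Perm.mul_apply, tr_inv]
    congr 1
    exact gam_inv_apply ⟨x, hx⟩
  rw [e4, e2'] at e3
  have e5 : tr (circN m x) = (gam (circN m x))⁻¹ * z * gam (circN m x) := rfl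
  rw [e5, ← e3]
  have e6 : tr x = (gam x)⁻¹ * z * gam x := rfl
  rw [e6]
  group

/-! ### lifting the centraliser of a transposition -/

theorem og_mem_H (s : Gen) (hs : s ≠ .b) : og s ∈ K.H :=
  ok.mem_H_of_sub (e := .of s) (by
    show WExp.of s ∈ subExps
    cases s <;> simp [subExps] at hs ⊢)

theorem og_comm (s : Gen) (hs : s ≠ .b) : og s * z = z * og s := z_comm _ (og_mem_H s hs)

noncomputable def uu : K.Grp := PresentedGroup.mk K.rels uE.eval

theorem uu_mem_H : uu ∈ K.H :=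
  ok.mem_H_of_sub (e := uE) (by show uE ∈ subExps; simp [subExps, uE])

theorem uu_comm : uu * z = z * uu := z_comm _ uu_mem_H

theorem uu_sq : uu * uu = 1 := by
  have := weo _ chkU2
  simp only [WExp.eval, map_mul] at this
  exact this

theorem uu_f : (uu * og .f) ^ 3 = 1 := by
  have := weo _ chkUF
  rw [WExp.eval, map_pow, WExp.eval, map_mul] at this
  exact this

theorem rel_E7 : (og .c * og .d * og .e * og .f * og .g * og .h * og .i) ^ 9 = 1 := by
  have := weo _ chkE7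
  simp only [e7E, WExp.eval, map_pow, map_mul] at this
  exact this

section stem

variable {Γ : Type} [Group Γ] (σ : Γ →* K.Grp)

theorem lifts_comm (hs : Function.Surjective σ) (hk : σ.ker ≤ Subgroup.center Γ) (ζ : Γ)
    (hζ : σ ζ = z) : (∀ s : Gen, s ≠ .b → ∃ γ, σ γ = og s ∧ γ * ζ = ζ * γ) ∧
      ∃ γ, σ γ = uu ∧ γ * ζ = ζ * γ := by
  choose ℓ hℓ using fun s => hs (og s)
  obtain ⟨ℓu, hℓu⟩ := hs uu
  have hN : ∀ s, s ≠ Cfsg.Spor.Fi22.Gen.b → ℓ s ∈ (Subgroup.centralizer {σ ζ}).comap σ := by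
    intro s h
    rw [Subgroup.mem_comap, Subgroup.mem_centralizer_singleton_iff, hℓ, hζ]
    exact og_comm s h
  have hNu : ℓu ∈ (Subgroup.centralizer {σ ζ}).comap σ := by
    rw [Subgroup.mem_comap, Subgroup.mem_centralizer_singleton_iff, hℓu, hζ]
    exact uu_comm
  let a : ∀ s, s ≠ Cfsg.Spor.Fi22.Gen.b → Subgroup.center Γ := fun s h => kap σ hk ζ ⟨ℓ s, hN s h⟩
  let au : Subgroup.center Γ := kap σ hk ζ ⟨ℓu, hNu⟩
  have sq : ∀ s (h : s ≠ Cfsg.Spor.Fi22.Gen.b), a s h * a s h = 1 := by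
    intro s h
    show kap σ hk ζ _ * kap σ hk ζ _ = 1
    rw [← map_mul]
    apply kap_ker
    show σ (ℓ s * ℓ s) = 1
    rw [map_mul, hℓ]
    exact og_sq s
  have squ : au * au = 1 := by
    show kap σ hk ζ _ * kap σ hk ζ _ = 1
    rw [← map_mul]
    apply kap_ker
    show σ (ℓu * ℓu) = 1
    rw [map_mul, hℓu]
    exact uu_sq
  have ed : ∀ s t (h : s ≠ Cfsg.Spor.Fi22.Gen.b) (h' : t ≠ Cfsg.Spor.Fi22.Gen.b), lbl s t = 3 →
      a s h = a t h' := by
    intro s t h h' hl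
    apply eq_of_edge (center_comm _ _) (sq s h) (sq t h')
    show (kap σ hk ζ _ * kap σ hk ζ _) ^ 3 = 1
    rw [← map_mul, ← map_pow]
    apply kap_ker
    show σ ((ℓ s * ℓ t) ^ 3) = 1
    rw [map_pow, map_mul, hℓ, hℓ]
    have := rel_cox s t
    rwa [hl] at this
  have edu : au = a .f (by decide) := by
    apply eq_of_edge (center_comm _ _) squ (sq .f (by decide))
    show (kap σ hk ζ _ * kap σ hk ζ _) ^ 3 = 1
    rw [← map_mul, ← map_pow]
    apply kap_ker
    show σ ((ℓu * ℓ .f) ^ 3) = 1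
    rw [map_pow, map_mul, hℓ, hℓu]
    exact uu_f
  have hE : (a .c (by decide) * a .d (by decide) * a .e (by decide) * a .f (by decide) *
      a .g (by decide) * a .h (by decide) * a .i (by decide)) ^ 9 = 1 := by
    show (kap σ hk ζ _ * kap σ hk ζ _ * kap σ hk ζ _ * kap σ hk ζ _ * kap σ hk ζ _ *
      kap σ hk ζ _ * kap σ hk ζ _) ^ 9 = 1
    simp only [← map_mul, ← map_pow]
    apply kap_ker
    show σ ((ℓ .c * ℓ .d * ℓ .e * ℓ .f * ℓ .g * ℓ .h * ℓ .i) ^ 9) = 1
    simp only [map_pow, map_mul, hℓ]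
    exact rel_E7
  have e3 := ed .c .d (by decide) (by decide) (by decide)
  have e4 := ed .d .e (by decide) (by decide) (by decide)
  have e5 := ed .e .f (by decide) (by decide) (by decide)
  have e6 := ed .f .g (by decide) (by decide) (by decide)
  have e7 := ed .d .h (by decide) (by decide) (by decide)
  have e8 := ed .h .i (by decide) (by decide) (by decide)
  have hx := sq .c (by decide)
  rw [← e8, ← e7, ← e6, ← e5, ← e4, ← e3, hx, one_mul, hx, one_mul, hx, one_mul] at hE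
  have hx1 : a .c (by decide) = 1 := by
    generalize a .c (by decide) = x at hx hE
    have : x ^ 9 = (x * x) ^ 4 * x := by
      rw [← pow_two, ← pow_mul, ← pow_succ]
    rw [this, hx, one_pow, one_mul] at hE
    exact hE
  have hf1 : a .f (by decide) = 1 := (e3.trans (e4.trans e5)).symm.trans hx1
  refine ⟨?_, ℓu, hℓu, comm_of_kap σ hk ζ ⟨ℓu, hNu⟩ (edu.trans hf1)⟩
  intro s hsb
  by_cases hsa : s = .a
  · subst hsa
    exact ⟨ζ, hζ, rfl⟩
  have all : a s hsb = 1 := by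
    cases s
    · exact absurd rfl hsa
    · exact absurd rfl hsb
    · exact hx1
    · exact e3.symm.trans hx1
    · exact (e3.trans e4).symm.trans hx1
    · exact hf1
    · exact (e3.trans (e4.trans (e5.trans e6))).symm.trans hx1
    · exact (e3.trans e7).symm.trans hx1
    · exact (e3.trans (e7.trans e8)).symm.trans hx1
  exact ⟨ℓ s, hℓ s, comm_of_kap σ hk ζ ⟨ℓ s, hN s hsb⟩ all⟩

theorem hyp (hσ : Cfsg.IsStemExtension σ) : ∃ ζ, Hyp σ z ζ := by
  obtain ⟨hs, hk, -⟩ := hσ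
  obtain ⟨ζ, hζ⟩ := hs z
  refine ⟨ζ, hk, hζ, z_sq, ?_⟩
  intro γ h
  obtain ⟨L1, L2⟩ := lifts_comm σ hs hk ζ hζ
  apply cen_of_closure σ hk ζ hs ((PresentedGroup.mk K.rels) '' K.S) ?_ ?_ γ (by rw [hζ]; exact h)
  · rw [hζ, ← MonoidHom.map_closure]
    exact le_of_eq cent_eq
  · rintro _ ⟨r, hr, rfl⟩
    obtain ⟨e, he, rfl⟩ := (hS r).mp hr
    have he' : e ∈ subExps := he
    simp only [subExps, List.mem_cons, List.not_mem_nil, or_false] at he'
    rcases he' with rfl | rfl | rfl | rfl | rfl | rfl | rfl | rfl | rfl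
    · exact L1 .a (by decide)
    · exact L1 .c (by decide)
    · exact L1 .d (by decide)
    · exact L1 .e (by decide)
    · exact L1 .f (by decide)
    · exact L1 .g (by decide)
    · exact L1 .h (by decide)
    · exact L1 .i (by decide)
    · exact L2

def gl9 : List Gen := [.d, .c, .b, .d, .e, .f, .d, .h, .i]

def gl7 : List Gen := [.a, .b, .c, .d, .e, .f, .h]

def gl7' : List Gen := [.b, .c, .d, .e, .f, .g, .h]

theorem map_tr (l : List Gen) : ((l.map ptOf).map tr).prod = (l.map og).prod := by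
  rw [List.map_map]
  congr 1
  apply List.map_congr_left
  intro s _
  exact (og_eq s).symm

theorem alg2 {Γ : Type*} [Group Γ] (W A y : Γ) (Ac : ∀ γ, A * γ = γ * A)
    (hA : A * A = W ^ 63) (hy : y * y = W) : (A * (W ^ 31)⁻¹ * y⁻¹) ^ 2 = 1 := by
  subst hy
  calc (A * ((y * y) ^ 31)⁻¹ * y⁻¹) ^ 2
      = A * (((y * y) ^ 31)⁻¹ * y⁻¹ * A) * (((y * y) ^ 31)⁻¹ * y⁻¹) := by rw [pow_two]; group
    _ = A * (A * (((y * y) ^ 31)⁻¹ * y⁻¹)) * (((y * y) ^ 31)⁻¹ * y⁻¹) := by rw [← Ac]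
    _ = (A * A) * ((((y * y) ^ 31)⁻¹ * y⁻¹) * (((y * y) ^ 31)⁻¹ * y⁻¹)) := by group
    _ = 1 := by
      rw [hA]
      simp only [← pow_two, ← pow_mul]
      group

theorem alg3 {Γ : Type*} [Group Γ] (W A : Γ) (Wc : ∀ γ, W * γ = γ * W)
    (hA : A ^ 3 = W ^ 135) : (A * (W ^ 45)⁻¹) ^ 3 = 1 := by
  have cm : Commute A (W ^ 45)⁻¹ := (Commute.inv_left (Commute.pow_left (Wc A : Commute W A) 45)).symm
  rw [cm.mul_pow, hA]
  group

theorem alg6 {Γ : Type*} [Group Γ] (s0 e0 : Γ) (hc : Commute s0 e0) (h3 : s0 ^ 3 = 1)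
    (h2 : e0 ^ 2 = 1) : (s0 * e0) ^ 6 = 1 ∧ (s0 * e0) ^ 4 = s0 ∧ (s0 * e0) ^ 3 = e0 := by
  refine ⟨?_, ?_, ?_⟩
  · rw [hc.mul_pow, show (6 : ℕ) = 3 * 2 from rfl, pow_mul, h3, one_pow, one_mul,
      show (3 * 2 : ℕ) = 2 * 3 from rfl, pow_mul, h2, one_pow]
  · rw [hc.mul_pow, pow_succ s0 3, h3, one_mul, show (4 : ℕ) = 2 * 2 from rfl, pow_mul, h2, one_pow,
      mul_one]
  · rw [hc.mul_pow, h3, one_mul, pow_succ, h2, one_mul]

theorem ker_quot (hσ : Cfsg.IsStemExtension σ) :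
    ∃ π : Multiplicative (ZMod 6) →* σ.ker, Function.Surjective π := by
  obtain ⟨ζ, H⟩ := hyp σ hσ
  have hs := hσ.1
  have ht : ∀ v, IsT σ z (tr v) := by
    intro v
    obtain ⟨γ, hγ⟩ := hs (gam v)⁻¹
    refine ⟨γ, ?_⟩
    rw [hγ, tr]
    group
  have sW := sig_w H
  have Wc := w_comm H
  generalize hW : ζ * ζ = W at sW Wc
  have CS := fun cert l hl h => chk_sound (n := 3510) H ht hc cert l hl h
  rw [hW] at CS
  have SE := sig_ev H ht
  have KC := fun (a : Γ) (ha : σ a = 1) => ker_comm H ha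
  have CX := fun x y => cox H (ht (ptOf x)) (ht (ptOf y)) (lbl x y) (lab x y)
    (by rw [← og_eq, ← og_eq]; exact rel_cox x y)
  rw [hW] at CX
  have SL := fun v => sig_Lc H (ht v)
  generalize hEV : ev σ z ζ tr = EV at CS SE
  have evc : ∀ v l, EV (v :: l) = Lc σ z ζ (tr v) * EV l := by
    intro v l; rw [← hEV]; exact ev_cons tr v l
  have evn : EV [] = 1 := by rw [← hEV]; rfl
  have evr : ∀ l k, EV (List.replicate k l).flatten = EV l ^ k := by
    intro l k; rw [← hEV]; exact ev_rep tr l k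
  -- the three reductions
  have h1 : EV l7 ^ 18 = W ^ 63 := by
    rw [← evr]; exact CS cE1 _ (by decide) chkE1
  have h1b : EV l7' ^ 18 = W ^ 63 := by
    rw [← evr]; exact CS cE2 _ (by decide) chkE2
  have h2 : EV l9 ^ 30 = W ^ 135 := by
    rw [← evr]; exact CS cS3 _ (by decide) chkS3
  have sS : σ (EV l9 ^ 10) = 1 := by
    rw [map_pow, SE]
    have : (l9.map tr).prod = (gl9.map og).prod := map_tr gl9
    rw [this]
    simp only [gl9, List.map_cons, List.map_nil, List.prod_cons, List.prod_nil, mul_one,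
      ← mul_assoc]
    exact rel_S
  have sE : σ (EV l7 ^ 9) = 1 := by
    rw [map_pow, SE]
    have : (l7.map tr).prod = (gl7.map og).prod := map_tr gl7
    rw [this]
    simp only [gl7, List.map_cons, List.map_nil, List.prod_cons, List.prod_nil, mul_one,
      ← mul_assoc]
    exact rel_E1
  have sE' : σ (EV l7' ^ 9) = 1 := by
    rw [map_pow, SE]
    have : (l7'.map tr).prod = (gl7'.map og).prod := map_tr gl7'
    rw [this]
    simp only [gl7', List.map_cons, List.map_nil, List.prod_cons, List.prod_nil, mul_one,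
      ← mul_assoc]
    exact rel_E2
  have h2' : (EV l9 ^ 10) ^ 3 = W ^ 135 := by rw [← pow_mul]; exact h2
  have h1' : EV l7 ^ 9 * EV l7 ^ 9 = W ^ 63 := by rw [← pow_add]; exact h1
  have h1b' : EV l7' ^ 9 * EV l7' ^ 9 = W ^ 63 := by rw [← pow_add]; exact h1b
  have Ec' := KC _ sE'
  -- the correction
  obtain ⟨y, hy⟩ : ∃ y, y = EV l7 ^ 9 * (W ^ 31)⁻¹ := ⟨_, rfl⟩
  have sy : σ y = 1 := by rw [hy, map_mul, map_inv, sE, map_pow, sW]; simp
  have yc := KC _ sy
  have yic : ∀ γ, y⁻¹ * γ = γ * y⁻¹ := fun γ => (Commute.inv_left (yc γ : Commute y γ))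
  have yyW : y * y = W := by
    have Wp : ∀ γ, (W ^ 31)⁻¹ * γ = γ * (W ^ 31)⁻¹ := by
      intro γ
      have h : Commute W γ := Wc γ
      exact (h.pow_left 31).inv_left
    rw [hy]
    calc EV l7 ^ 9 * (W ^ 31)⁻¹ * (EV l7 ^ 9 * (W ^ 31)⁻¹)
        = EV l7 ^ 9 * ((W ^ 31)⁻¹ * EV l7 ^ 9) * (W ^ 31)⁻¹ := by group
      _ = EV l7 ^ 9 * (EV l7 ^ 9 * (W ^ 31)⁻¹) * (W ^ 31)⁻¹ := by rw [Wp]
      _ = (EV l7 ^ 9 * EV l7 ^ 9) * ((W ^ 31)⁻¹ * (W ^ 31)⁻¹) := by group
      _ = W := by rw [h1']; group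
  have yy : y⁻¹ * y⁻¹ = W⁻¹ := by
    rw [← yyW]
    group
  obtain ⟨s0, hs0⟩ : ∃ s0, s0 = EV l9 ^ 10 * (W ^ 45)⁻¹ := ⟨_, rfl⟩
  obtain ⟨e0, he0⟩ : ∃ e0, e0 = EV l7' ^ 9 * (W ^ 31)⁻¹ * y⁻¹ := ⟨_, rfl⟩
  have ss0 : σ s0 = 1 := by rw [hs0, map_mul, map_inv, sS, map_pow, sW]; simp
  have se0 : σ e0 = 1 := by
    rw [he0, map_mul, map_mul, map_inv, map_inv, sE', map_pow, sW, sy]; simp
  have s03 : s0 ^ 3 = 1 := by rw [hs0]; exact alg3 W _ Wc h2'
  have e02 : e0 ^ 2 = 1 := by rw [he0]; exact alg2 W _ y Ec' h1b' yyW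
  obtain ⟨t6, t4, t3⟩ := alg6 s0 e0 (KC _ ss0 e0) s03 e02
  have st : σ (s0 * e0) = 1 := by rw [map_mul, ss0, se0, one_mul]
  generalize s0 * e0 = t at t6 t4 t3 st
  let f : Gen → Γ := fun s => Lc σ z ζ (tr (ptOf s)) * y⁻¹
  have prodf : ∀ l : List Gen, (l.map f).prod = EV (l.map ptOf) * y⁻¹ ^ l.length := by
    intro l
    induction l with
    | nil => simp [evn]
    | cons s l ih =>
      rw [List.map_cons, List.prod_cons, ih, List.map_cons, evc, List.length_cons, pow_succ']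
      show Lc σ z ζ (tr (ptOf s)) * y⁻¹ * _ = _
      rw [mul_assoc (Lc σ z ζ (tr (ptOf s))) y⁻¹, ← mul_assoc y⁻¹, yic]
      group
  have hle : σ.ker ≤ Subgroup.zpowers t := by
    apply ker_le_of_section σ hσ f
    · intro s
      show σ (Lc σ z ζ (tr (ptOf s)) * y⁻¹) = _
      rw [map_mul, map_inv, sy, SL, inv_one, mul_one]
      exact (og_eq s).symm
    · rw [Subgroup.zpowers_le]
      exact H.ker (MonoidHom.mem_ker.mpr st)
    · rintro r (⟨x, -, x', -, rfl⟩ | hr)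
      · rw [map_pow, map_mul, FreeGroup.lift_apply_of, FreeGroup.lift_apply_of]
        have : (Lc σ z ζ (tr (ptOf x)) * y⁻¹ * (Lc σ z ζ (tr (ptOf x')) * y⁻¹)) ^ lbl x x' = 1 := by
          have e : Lc σ z ζ (tr (ptOf x)) * y⁻¹ * (Lc σ z ζ (tr (ptOf x')) * y⁻¹)
              = (Lc σ z ζ (tr (ptOf x)) * Lc σ z ζ (tr (ptOf x'))) * W⁻¹ := by
            rw [← yy, mul_assoc (Lc σ z ζ (tr (ptOf x))) y⁻¹, ← mul_assoc y⁻¹, yic]
            group
          have cm : Commute (Lc σ z ζ (tr (ptOf x)) * Lc σ z ζ (tr (ptOf x'))) W⁻¹ :=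
            (Commute.inv_left (Wc _ : Commute W _)).symm
          rw [e, cm.mul_pow, CX, inv_pow, mul_inv_cancel]
        show (Lc σ z ζ (tr (ptOf x)) * y⁻¹ * (Lc σ z ζ (tr (ptOf x')) * y⁻¹)) ^ lbl x x' ∈ _
        rw [this]
        exact Subgroup.one_mem _
      · have hr' : r ∈ Cfsg.Spor.Fi22.extra := hr
        simp only [Cfsg.Spor.Fi22.extra, List.mem_cons, List.not_mem_nil, or_false] at hr'
        rcases hr' with rfl | rfl | rfl
        · simp only [map_pow, map_mul, FreeGroup.lift_apply_of]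
          have e : f .d * f .c * f .b * f .d * f .e * f .f * f .d * f .h * f .i
              = (gl9.map f).prod := by
            simp only [gl9, List.map_cons, List.map_nil, List.prod_cons, List.prod_nil, mul_one,
              ← mul_assoc]
          rw [e, prodf]
          have e2 : gl9.map ptOf = l9 := rfl
          have e3 : gl9.length = 9 := rfl
          have cm : Commute (EV l9) (y⁻¹ ^ 9) :=
            (Commute.pow_left (yic _ : Commute y⁻¹ _) 9).symm
          rw [e2, e3, cm.mul_pow, ← pow_mul]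
          have : y⁻¹ ^ (9 * 10) = (y⁻¹ * y⁻¹) ^ 45 := by rw [← pow_two, ← pow_mul]
          rw [this, yy, inv_pow, ← hs0, ← t4]
          exact Subgroup.pow_mem _ (Subgroup.mem_zpowers _) _
        · simp only [map_pow, map_mul, FreeGroup.lift_apply_of]
          have e : f .a * f .b * f .c * f .d * f .e * f .f * f .h = (gl7.map f).prod := by
            simp only [gl7, List.map_cons, List.map_nil, List.prod_cons, List.prod_nil, mul_one,
              ← mul_assoc]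
          rw [e, prodf]
          have e2 : gl7.map ptOf = l7 := rfl
          have e3 : gl7.length = 7 := rfl
          have cm : Commute (EV l7) (y⁻¹ ^ 7) :=
            (Commute.pow_left (yic _ : Commute y⁻¹ _) 7).symm
          rw [e2, e3, cm.mul_pow, ← pow_mul]
          have : y⁻¹ ^ (7 * 9) = (y⁻¹ * y⁻¹) ^ 31 * y⁻¹ := by
            rw [← pow_two, ← pow_mul, ← pow_succ]
          rw [this, yy]
          have e4 : EV l7 ^ 9 * (W⁻¹ ^ 31 * y⁻¹) = 1 := by
            rw [hy]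
            group
          rw [e4]
          exact Subgroup.one_mem _
        · simp only [map_pow, map_mul, FreeGroup.lift_apply_of]
          have e : f .b * f .c * f .d * f .e * f .f * f .g * f .h = (gl7'.map f).prod := by
            simp only [gl7', List.map_cons, List.map_nil, List.prod_cons, List.prod_nil, mul_one,
              ← mul_assoc]
          rw [e, prodf]
          have e2 : gl7'.map ptOf = l7' := rfl
          have e3 : gl7'.length = 7 := rfl
          have cm : Commute (EV l7') (y⁻¹ ^ 7) :=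
            (Commute.pow_left (yic _ : Commute y⁻¹ _) 7).symm
          rw [e2, e3, cm.mul_pow, ← pow_mul]
          have : y⁻¹ ^ (7 * 9) = (y⁻¹ * y⁻¹) ^ 31 * y⁻¹ := by
            rw [← pow_two, ← pow_mul, ← pow_succ]
          rw [this, yy, inv_pow, ← mul_assoc, ← he0, ← t3]
          exact Subgroup.pow_mem _ (Subgroup.mem_zpowers _) _
  apply exists_surj_of_zpowers 6 (⟨t, MonoidHom.mem_ker.mpr st⟩ : σ.ker)
  · apply Subtype.ext
    exact t6
  · intro a
    obtain ⟨k, hk⟩ := Subgroup.mem_zpowers_iff.mp (hle a.2)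
    rw [Subgroup.mem_zpowers_iff]
    refine ⟨k, ?_⟩
    apply Subtype.ext
    rw [Subgroup.coe_zpow]
    exact hk

end stem

theorem main : Cfsg.HasCyclicSchurMultiplier K.Grp 6 :=
  ⟨Cfsg.Agent.Lib.Helper47Fi22MultE.exists_cover, fun _ _ _ σ hσ => ker_quot σ hσ⟩

end Cfsg.Agent.Lib.Helper47Fi22MultB
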