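import Cfsg.Agent.Lib.Helper47G23T
import Cfsg.Agent.S1077
import Cfsg.Agent.S1078
import Cfsg.Agent.S1055
import Cfsg.Agent.S1059

/-! The Steinberg group of type `G₂` over the field with three elements as a permutation group on
351 points (model for the power-commutator multiplier engine). -/

set_option autoImplicit false
set_option maxRecDepth 100000

namespace Cfsg.Agent.Lib.Helper47G23PM

open Cfsg Cfsg.Lie Cfsg.Agent.Lib.Helper47StG2 Cfsg.Agent.Lib.Helper47G23T
  Cfsg.Agent.Lib.Helper63PCTabDefs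

theorem isoSt : Nonempty (St ≃* chevG2.group (ZMod 3)) := by
  obtain ⟨θ, hs, hk, -⟩ := Cfsg.Agent.S1077.result (K := ZMod 3) chevG2 (by simp)
  have hc := Cfsg.Agent.S1078.result (K := ZMod 3) chevG2 (by simp)
  rw [hc] at hk
  exact ⟨MulEquiv.ofBijective θ ⟨(MonoidHom.ker_eq_bot_iff θ).mp hk, hs⟩⟩

theorem simpleSt : IsSimpleGroup St := by
  obtain ⟨e⟩ := isoSt
  have := (Cfsg.Agent.S1055.result (F := ZMod 3) ⟨2, by decide, by decide⟩).1
  exact e.isSimpleGroup

theorem cardSt : Nat.card St = 4245696 := by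
  obtain ⟨e⟩ := isoSt
  rw [Nat.card_congr e.toEquiv, Cfsg.Agent.S1059.result (F := ZMod 3) (q := 3) (ZMod.card 3)]
  norm_num

theorem finiteSt : Finite St := Nat.finite_of_card_ne_zero (by rw [cardSt]; norm_num)

noncomputable def phi : St →* Equiv.Perm (Fin 351) := PresentedGroup.toGroup (rel_one ok triv)

theorem phi_of (a : Fin chevG2.nroots × ZMod 3) (j : Fin 351) :
    (phi (PresentedGroup.of a) j).val = act 9 tab (a.1.val, a.2) j.val := by
  rw [phi, PresentedGroup.toGroup.of]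
  rfl

noncomputable def KO : Subgroup (Equiv.Perm (Fin 351)) := phi.range

theorem tabled (r : ℕ) (hr : r < 12) (t : ℕ) (h : ∀ j, act 9 tab (r, 1) j = lk 9 t j) :
    Tabled KO 9 t :=
  ⟨phi (PresentedGroup.of (⟨r, hr⟩, 1)), ⟨_, rfl⟩, fun j => by rw [phi_of, ← h]⟩

theorem tb0 : Tabled KO 9 T0_1 := tabled 0 (by norm_num) _ (fun _ => rfl)
theorem tb1 : Tabled KO 9 T1_1 := tabled 1 (by norm_num) _ (fun _ => rfl)
theorem tb2 : Tabled KO 9 T2_1 := tabled 2 (by norm_num) _ (fun _ => rfl)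
theorem tb3 : Tabled KO 9 T3_1 := tabled 3 (by norm_num) _ (fun _ => rfl)
theorem tb4 : Tabled KO 9 T4_1 := tabled 4 (by norm_num) _ (fun _ => rfl)
theorem tb5 : Tabled KO 9 T5_1 := tabled 5 (by norm_num) _ (fun _ => rfl)
theorem tb6 : Tabled KO 9 T6_1 := tabled 6 (by norm_num) _ (fun _ => rfl)
theorem tb7 : Tabled KO 9 T7_1 := tabled 7 (by norm_num) _ (fun _ => rfl)
theorem tb8 : Tabled KO 9 T8_1 := tabled 8 (by norm_num) _ (fun _ => rfl)
theorem tb9 : Tabled KO 9 T9_1 := tabled 9 (by norm_num) _ (fun _ => rfl)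
theorem tb10 : Tabled KO 9 T10_1 := tabled 10 (by norm_num) _ (fun _ => rfl)
theorem tb11 : Tabled KO 9 T11_1 := tabled 11 (by norm_num) _ (fun _ => rfl)

theorem phi_inj : Function.Injective phi := by
  have := simpleSt
  rw [← MonoidHom.ker_eq_bot_iff]
  rcases (phi.normal_ker).eq_bot_or_eq_top with h | h
  · exact h
  · exfalso
    have h1 : phi (PresentedGroup.of ((⟨0, by decide⟩ : Fin chevG2.nroots), (1 : ZMod 3))) = 1 := by
      have : (PresentedGroup.of ((⟨0, by decide⟩ : Fin chevG2.nroots), (1 : ZMod 3)) : St)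
          ∈ phi.ker := by
        rw [h]; exact Subgroup.mem_top _
      exact this
    have h2 := phi_of (⟨0, by decide⟩, 1) ⟨0, by norm_num⟩
    rw [h1] at h2
    have h3 : act 9 tab (0, 1) 0 = 0 := h2.symm
    have h4 := moved
    rw [h3] at h4
    simp at h4

noncomputable def iso : St ≃* KO := MonoidHom.ofInjective phi_inj

theorem cardK : Nat.card KO = 4245696 := by
  rw [← Nat.card_congr iso.toEquiv]; exact cardSt

end Cfsg.Agent.Lib.Helper47G23PM
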