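import Cfsg.Agent.Lib.Helper47G23U
import Cfsg.Agent.Lib.Helper47G23PM

set_option autoImplicit false

/-! A stem extension with kernel of order three of the Steinberg group of type `G₂` over the field
with three elements (permutations of 1053 points). -/

namespace Cfsg.Agent.Lib.Helper47G23M3

open Cfsg.Agent.Lib.Helper47StG2

theorem exists_cover : ∃ (Γ : Type) (_ : Group Γ) (_ : Finite Γ) (σ : Γ →* St),
    Cfsg.IsStemExtension σ ∧ Nat.card σ.ker = 3 :=
  cover Cfsg.Agent.Lib.Helper47G23U.ok Cfsg.Agent.Lib.Helper47G23PM.simpleSt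
    Cfsg.Agent.Lib.Helper47G23U.cen Cfsg.Agent.Lib.Helper47G23U.pw0
    Cfsg.Agent.Lib.Helper47G23U.pw2 Cfsg.Agent.Lib.Helper47G23U.pw3 (by norm_num)
    Cfsg.Agent.Lib.Helper47G23U.ne 0 4 (by norm_num) (by norm_num) Cfsg.Agent.Lib.Helper47G23U.wit

end Cfsg.Agent.Lib.Helper47G23M3
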