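import Cfsg.Agent.Lib.Helper47G23P2C

set_option autoImplicit false
set_option maxRecDepth 1000000
set_option maxHeartbeats 0

namespace Cfsg.Agent.Lib.Helper47G23P2R0

open Cfsg Cfsg.Agent.Lib.Helper63PCDefs Cfsg.Agent.Lib.Helper63PCTabDefs Cfsg.Agent.Lib.Helper47G23P2C

theorem hr : ix0.all (fun j => C.row1 j && C.row2 j) = true := by decide +kernel

end Cfsg.Agent.Lib.Helper47G23P2R0
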