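import Cfsg.Agent.Lib.Helper47G23P2n1
import Cfsg.Agent.Lib.Helper47G23P2C

set_option autoImplicit false
set_option maxRecDepth 1000000
set_option maxHeartbeats 0

namespace Cfsg.Agent.Lib.Helper47G23P2e

open Cfsg Cfsg.Agent.Lib.Helper63PCDefs Cfsg.Agent.Lib.Helper63PCTabDefs Cfsg.Agent.Lib.Helper47G23PM Cfsg.Agent.Lib.Helper47G23T Cfsg.Agent.Lib.Helper47G23P2n0 Cfsg.Agent.Lib.Helper47G23P2n1 Cfsg.Agent.Lib.Helper47G23P2C

local notation "KK" => KO

def tx : ℕ → ℕ
  | 0 => N577
  | 1 => N593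
  | 2 => N596
  | 3 => N579
  | 4 => N572
  | 5 => N395
  | _ => 0

def tg : ℕ → ℕ
  | 0 => N730
  | 1 => N548
  | 2 => N868
  | _ => 0

theorem hx : ∀ a < C.D.n, Tabled KK 9 (tx a) := by
  intro a ha
  have ha' : a < 6 := ha
  interval_cases a
  · exact h577
  · exact h593
  · exact h596
  · exact h579
  · exact h572
  · exact h395

theorem hg : ∀ i < C.fus.length, Tabled KK 9 (tg i) := by
  intro a ha
  have ha' : a < 3 := ha
  interval_cases a
  · exact h730
  · exact h548
  · exact h868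

theorem hpc : pcChk 351 9 C.D tx = true := by decide +kernel

theorem hfus : fusChk 351 9 C tx tg = true := by decide +kernel


end Cfsg.Agent.Lib.Helper47G23P2e
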