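import Cfsg.Agent.Lib.Helper47G23P2e

set_option autoImplicit false
set_option maxRecDepth 1000000
set_option maxHeartbeats 0

namespace Cfsg.Agent.Lib.Helper47G23P2f

open Cfsg Cfsg.Agent.Lib.Helper63PCDefs Cfsg.Agent.Lib.Helper63PCTabDefs Cfsg.Agent.Lib.Helper47G23PM Cfsg.Agent.Lib.Helper47G23T Cfsg.Agent.Lib.Helper47G23P2n0 Cfsg.Agent.Lib.Helper47G23P2n1 Cfsg.Agent.Lib.Helper47G23P2C Cfsg.Agent.Lib.Helper47G23P2e

local notation "KK" => KO

theorem hinj : injChk 351 9 C.D tx [2] = true := by decide +kernel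


end Cfsg.Agent.Lib.Helper47G23P2f
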