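import Cfsg.Agent.Lib.Helper47G24P2V0
import Cfsg.Agent.Lib.Helper47G24P2V1
import Cfsg.Agent.Lib.Helper47G24P2V2
import Cfsg.Agent.Lib.Helper47G24P2V3
import Cfsg.Agent.Lib.Helper47G24P2V4
import Cfsg.Agent.Lib.Helper47G24P2V5
import Cfsg.Agent.Lib.Helper47G24P2V6
import Cfsg.Agent.Lib.Helper47G24P2V7
import Cfsg.Agent.Lib.Helper47G24P2V8
import Cfsg.Agent.Lib.Helper47G24P2V9
import Cfsg.Agent.Lib.Helper47G24P2R0
import Cfsg.Agent.Lib.Helper47G24P2R1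
import Cfsg.Agent.Lib.Helper47G24P2R2
import Cfsg.Agent.Lib.Helper47G24P2R3
import Cfsg.Agent.Lib.Helper47G24P2R4
import Cfsg.Agent.Lib.Helper47G24P2R5
import Cfsg.Agent.Lib.Helper47G24P2R6
import Cfsg.Agent.Lib.Helper47G24P2R7
import Cfsg.Agent.Lib.Helper47G24P2R8
import Cfsg.Agent.Lib.Helper47G24P2R9
import Cfsg.Agent.Lib.Helper47G24P2R10
import Cfsg.Agent.Lib.Helper47G24P2R11
import Cfsg.Agent.Lib.Helper47G24P2R12

set_option autoImplicit false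
set_option maxRecDepth 1000000
set_option maxHeartbeats 0

namespace Cfsg.Agent.Lib.Helper47G24P2H

open Cfsg Cfsg.Agent.Lib.Helper63PCDefs Cfsg.Agent.Lib.Helper63PCTabDefs Cfsg.Agent.Lib.Helper47G24P2C

theorem hW : C.D.wordsOK = true := by decide +kernel

theorem hJ : decide (C.j0 < C.N) = true := by decide +kernel

theorem hL : C.lam.all (fun v => v.length == C.N) = true := by decide +kernel

theorem hV : (C.relV == C.specs.map C.vec) = true := by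
  rw [beq_iff_eq]
  show rv0 ++ rv1 ++ rv2 ++ rv3 ++ rv4 ++ rv5 ++ rv6 ++ rv7 ++ rv8 ++ rv9 = (sp0 ++ sp1 ++ sp2 ++ sp3 ++ sp4 ++ sp5 ++ sp6 ++ sp7 ++ sp8 ++ sp9).map C.vec
  simp only [List.map_append, Cfsg.Agent.Lib.Helper47G24P2V0.hv, Cfsg.Agent.Lib.Helper47G24P2V1.hv, Cfsg.Agent.Lib.Helper47G24P2V2.hv, Cfsg.Agent.Lib.Helper47G24P2V3.hv, Cfsg.Agent.Lib.Helper47G24P2V4.hv, Cfsg.Agent.Lib.Helper47G24P2V5.hv, Cfsg.Agent.Lib.Helper47G24P2V6.hv, Cfsg.Agent.Lib.Helper47G24P2V7.hv, Cfsg.Agent.Lib.Helper47G24P2V8.hv, Cfsg.Agent.Lib.Helper47G24P2V9.hv]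

theorem hidx : ∀ b < 12, ∀ a < 12, a < b ∨ (b * 12 + a) ∈ ix0 ++ ix1 ++ ix2 ++ ix3 ++ ix4 ++ ix5 ++ ix6 ++ ix7 ++ ix8 ++ ix9 ++ ix10 ++ ix11 ++ ix12 := by
  decide

theorem hkey (j : ℕ) (hj : j ∈ ix0 ++ ix1 ++ ix2 ++ ix3 ++ ix4 ++ ix5 ++ ix6 ++ ix7 ++ ix8 ++ ix9 ++ ix10 ++ ix11 ++ ix12) : (C.row1 j && C.row2 j) = true := by
  simp only [List.mem_append] at hj
  rcases hj with (((((((((((h | h) | h) | h) | h) | h) | h) | h) | h) | h) | h) | h) | h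
  · exact List.all_eq_true.mp Cfsg.Agent.Lib.Helper47G24P2R0.hr j h
  · exact List.all_eq_true.mp Cfsg.Agent.Lib.Helper47G24P2R1.hr j h
  · exact List.all_eq_true.mp Cfsg.Agent.Lib.Helper47G24P2R2.hr j h
  · exact List.all_eq_true.mp Cfsg.Agent.Lib.Helper47G24P2R3.hr j h
  · exact List.all_eq_true.mp Cfsg.Agent.Lib.Helper47G24P2R4.hr j h
  · exact List.all_eq_true.mp Cfsg.Agent.Lib.Helper47G24P2R5.hr j h
  · exact List.all_eq_true.mp Cfsg.Agent.Lib.Helper47G24P2R6.hr j h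
  · exact List.all_eq_true.mp Cfsg.Agent.Lib.Helper47G24P2R7.hr j h
  · exact List.all_eq_true.mp Cfsg.Agent.Lib.Helper47G24P2R8.hr j h
  · exact List.all_eq_true.mp Cfsg.Agent.Lib.Helper47G24P2R9.hr j h
  · exact List.all_eq_true.mp Cfsg.Agent.Lib.Helper47G24P2R10.hr j h
  · exact List.all_eq_true.mp Cfsg.Agent.Lib.Helper47G24P2R11.hr j h
  · exact List.all_eq_true.mp Cfsg.Agent.Lib.Helper47G24P2R12.hr j h

theorem hR : (List.range C.D.n).all (fun b => (List.range C.D.n).all (fun a =>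
    decide (a < b) || (C.row1 (b * C.D.n + a) && C.row2 (b * C.D.n + a)))) = true := by
  show (List.range 12).all (fun b => (List.range 12).all (fun a =>
    decide (a < b) || (C.row1 (b * 12 + a) && C.row2 (b * 12 + a)))) = true
  rw [List.all_eq_true]
  intro b hb
  rw [List.all_eq_true]
  intro a ha
  rcases hidx b (List.mem_range.mp hb) a (List.mem_range.mp ha) with h | h
  · rw [decide_eq_true h, Bool.true_or]
  · rw [hkey _ h, Bool.or_true]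

theorem hC : C.check = true := by
  rw [Cert.check, Bool.and_eq_true, Bool.and_eq_true, Bool.and_eq_true, Bool.and_eq_true]
  exact ⟨⟨⟨⟨hW, hJ⟩, hL⟩, hV⟩, hR⟩

end Cfsg.Agent.Lib.Helper47G24P2H
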