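import Cfsg.Agent.Lib.Helper47G24P2f
import Cfsg.Agent.Lib.Helper47G24P2H

set_option autoImplicit false
set_option maxRecDepth 1000000
set_option maxHeartbeats 0

namespace Cfsg.Agent.Lib.Helper47G24P2

open Cfsg Cfsg.Agent.Lib.Helper63PCDefs Cfsg.Agent.Lib.Helper63PCTabDefs Cfsg.Agent.Lib.Helper47G24PM Cfsg.Agent.Lib.Helper47G24Ta Cfsg.Agent.Lib.Helper47G24P2n0 Cfsg.Agent.Lib.Helper47G24P2n1 Cfsg.Agent.Lib.Helper47G24P2n2 Cfsg.Agent.Lib.Helper47G24P2n3 Cfsg.Agent.Lib.Helper47G24P2C Cfsg.Agent.Lib.Helper47G24P2e Cfsg.Agent.Lib.Helper47G24P2f Cfsg.Agent.Lib.Helper47G24P2H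

local notation "KK" => KO

theorem lb : LocalBound KK 2 1 :=
  Cfsg.Agent.Lib.Helper17PCTab.ub_tab KK C (by norm_num [C]) hC 11 tx tg [0, 4] hx hg hpc hfus hinj (by rw [cardK]; norm_num [C])


end Cfsg.Agent.Lib.Helper47G24P2
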