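import Cfsg.Agent.Lib.Helper47G24P2n3
import Cfsg.Agent.Lib.Helper47G24P2C

set_option autoImplicit false
set_option maxRecDepth 1000000
set_option maxHeartbeats 0

namespace Cfsg.Agent.Lib.Helper47G24P2e

open Cfsg Cfsg.Agent.Lib.Helper63PCDefs Cfsg.Agent.Lib.Helper63PCTabDefs Cfsg.Agent.Lib.Helper47G24PM Cfsg.Agent.Lib.Helper47G24Ta Cfsg.Agent.Lib.Helper47G24P2n0 Cfsg.Agent.Lib.Helper47G24P2n1 Cfsg.Agent.Lib.Helper47G24P2n2 Cfsg.Agent.Lib.Helper47G24P2n3 Cfsg.Agent.Lib.Helper47G24P2C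

local notation "KK" => KO

def tx : ℕ → ℕ
  | 0 => N983
  | 1 => N848
  | 2 => N932
  | 3 => N900
  | 4 => N880
  | 5 => N866
  | 6 => N842
  | 7 => N823
  | 8 => N646
  | 9 => N619
  | 10 => N492
  | 11 => N452
  | _ => 0

def tg : ℕ → ℕ
  | 0 => N1311
  | 1 => N1558
  | _ => 0

theorem hx : ∀ a < C.D.n, Tabled KK 11 (tx a) := by
  intro a ha
  have ha' : a < 12 := ha
  interval_cases a
  · exact h983
  · exact h848
  · exact h932
  · exact h900
  · exact h880
  · exact h866
  · exact h842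
  · exact h823
  · exact h646
  · exact h619
  · exact h492
  · exact h452

theorem hg : ∀ i < C.fus.length, Tabled KK 11 (tg i) := by
  intro a ha
  have ha' : a < 2 := ha
  interval_cases a
  · exact h1311
  · exact h1558

theorem hpc : pcChk 1365 11 C.D tx = true := by decide +kernel

theorem hfus : fusChk 1365 11 C tx tg = true := by decide +kernel


end Cfsg.Agent.Lib.Helper47G24P2e
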