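import Cfsg.Agent.Lib.Helper35TC
import Cfsg.Agent.Lib.Helper63PCTabDefs

set_option autoImplicit false

/-! A fast (radix) kernel test that a list of natural numbers has no duplicates, and its use for
the injectivity test of the power-commutator multiplier engine. -/

namespace Cfsg.Agent.Lib.Helper47Nodup

open Cfsg.Agent.Lib.Helper35TC Cfsg.Agent.Lib.Helper63PCDefs Cfsg.Agent.Lib.Helper63PCTabDefs

/-- halves of the even members -/
noncomputable def ev : List ℕ → List ℕ
  | [] => []
  | x :: l => bif Nat.beq (Nat.mod x 2) 0 then strict (Nat.div x 2) (fun v => v :: ev l) else ev l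

/-- halves of the odd members -/
noncomputable def od : List ℕ → List ℕ
  | [] => []
  | x :: l => bif Nat.beq (Nat.mod x 2) 0 then od l else strict (Nat.div x 2) (fun v => v :: od l)

theorem ev_cons_even (x : ℕ) (l : List ℕ) (h : x % 2 = 0) : ev (x :: l) = (x / 2) :: ev l := by
  have h' : Nat.beq (Nat.mod x 2) 0 = true := by rw [Nat.beq_eq]; exact h
  rw [ev, h', cond_true, strict_eq]
  rfl

theorem ev_cons_odd (x : ℕ) (l : List ℕ) (h : x % 2 ≠ 0) : ev (x :: l) = ev l := by
  have h' : Nat.beq (Nat.mod x 2) 0 = false := by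
    cases hb : Nat.beq (Nat.mod x 2) 0
    · rfl
    · exact absurd (Nat.eq_of_beq_eq_true hb) h
  rw [ev, h', cond_false]

theorem od_cons_even (x : ℕ) (l : List ℕ) (h : x % 2 = 0) : od (x :: l) = od l := by
  have h' : Nat.beq (Nat.mod x 2) 0 = true := by rw [Nat.beq_eq]; exact h
  rw [od, h', cond_true]

theorem od_cons_odd (x : ℕ) (l : List ℕ) (h : x % 2 ≠ 0) : od (x :: l) = (x / 2) :: od l := by
  have h' : Nat.beq (Nat.mod x 2) 0 = false := by
    cases hb : Nat.beq (Nat.mod x 2) 0
    · rfl
    · exact absurd (Nat.eq_of_beq_eq_true hb) h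
  rw [od, h', cond_false, strict_eq]
  rfl

theorem mem_ev : ∀ (l : List ℕ) (y : ℕ), y ∈ l → y % 2 = 0 → y / 2 ∈ ev l
  | x :: l, y, hy, h => by
    by_cases hx : x % 2 = 0
    · rw [ev_cons_even x l hx]
      rcases List.mem_cons.mp hy with rfl | hy
      · exact List.mem_cons_self
      · exact List.mem_cons_of_mem _ (mem_ev l y hy h)
    · rw [ev_cons_odd x l hx]
      rcases List.mem_cons.mp hy with rfl | hy
      · exact absurd h hx
      · exact mem_ev l y hy h

theorem mem_od : ∀ (l : List ℕ) (y : ℕ), y ∈ l → y % 2 ≠ 0 → y / 2 ∈ od l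
  | x :: l, y, hy, h => by
    by_cases hx : x % 2 = 0
    · rw [od_cons_even x l hx]
      rcases List.mem_cons.mp hy with rfl | hy
      · exact absurd hx h
      · exact mem_od l y hy h
    · rw [od_cons_odd x l hx]
      rcases List.mem_cons.mp hy with rfl | hy
      · exact List.mem_cons_self
      · exact List.mem_cons_of_mem _ (mem_od l y hy h)

theorem nodup_of_ev_od : ∀ l : List ℕ, (ev l).Nodup → (od l).Nodup → l.Nodup
  | [], _, _ => List.nodup_nil
  | x :: l, h0, h1 => by
    by_cases hx : x % 2 = 0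
    · rw [ev_cons_even x l hx, List.nodup_cons] at h0
      rw [od_cons_even x l hx] at h1
      rw [List.nodup_cons]
      exact ⟨fun hm => h0.1 (mem_ev l x hm hx), nodup_of_ev_od l h0.2 h1⟩
    · rw [ev_cons_odd x l hx] at h0
      rw [od_cons_odd x l hx, List.nodup_cons] at h1
      rw [List.nodup_cons]
      exact ⟨fun hm => h1.1 (mem_od l x hm hx), nodup_of_ev_od l h0 h1.2⟩

/-- radix test -/
noncomputable def nd : ℕ → List ℕ → Bool
  | _, [] => true
  | _, [_] => true
  | 0, _ :: _ :: _ => false
  | k + 1, x :: y :: l => nd k (ev (x :: y :: l)) && nd k (od (x :: y :: l))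

theorem nd_sound : ∀ (k : ℕ) (l : List ℕ), nd k l = true → l.Nodup
  | _, [], _ => List.nodup_nil
  | _, [_], _ => List.nodup_singleton _
  | 0, _ :: _ :: _, h => by simp [nd] at h
  | k + 1, x :: y :: l, h => by
    rw [nd, Bool.and_eq_true] at h
    exact nodup_of_ev_od _ (nd_sound k _ h.1) (nd_sound k _ h.2)

theorem memB_eq_false : ∀ (a : ℕ) (l : List ℕ), a ∉ l → memB a l = false
  | _, [], _ => rfl
  | a, b :: l, h => by
    rw [List.mem_cons, not_or] at h
    have h' : Nat.beq a b = false := by
      cases hb : Nat.beq a b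
      · rfl
      · exact absurd (Nat.eq_of_beq_eq_true hb) h.1
    rw [memB, h', Bool.false_or]
    exact memB_eq_false a l h.2

theorem nodupB_of_nodup : ∀ l : List ℕ, l.Nodup → nodupB l = true
  | [], _ => rfl
  | a :: l, h => by
    rw [List.nodup_cons] at h
    rw [nodupB, memB_eq_false a l h.1, nodupB_of_nodup l h.2]
    rfl

theorem injChk_of (d B : ℕ) (D : PC) (tx : ℕ → ℕ) (bs : List ℕ) (k : ℕ)
    (h1 : bs.all (fun b => decide (b < d)) = true)
    (h2 : nd k ((List.range (D.p ^ D.n)).map (fun e => codeN d B tx bs (nfw D.p D.n e))) = true) :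
    injChk d B D tx bs = true := by
  rw [injChk, h1, Bool.true_and]
  exact nodupB_of_nodup _ (nd_sound _ _ h2)

end Cfsg.Agent.Lib.Helper47Nodup
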