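import Cfsg.Agent.Lib.Helper47G24P2e
import Cfsg.Agent.Lib.Helper47Nodup

set_option autoImplicit false
set_option maxRecDepth 1000000
set_option maxHeartbeats 0

namespace Cfsg.Agent.Lib.Helper47G24P2f

open Cfsg Cfsg.Agent.Lib.Helper63PCDefs Cfsg.Agent.Lib.Helper63PCTabDefs Cfsg.Agent.Lib.Helper47G24PM Cfsg.Agent.Lib.Helper47G24Ta Cfsg.Agent.Lib.Helper47G24P2n0 Cfsg.Agent.Lib.Helper47G24P2n1 Cfsg.Agent.Lib.Helper47G24P2n2 Cfsg.Agent.Lib.Helper47G24P2n3 Cfsg.Agent.Lib.Helper47G24P2C Cfsg.Agent.Lib.Helper47G24P2e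

local notation "KK" => KO

theorem hinj : injChk 1365 11 C.D tx [0, 4] = true :=
  Cfsg.Agent.Lib.Helper47Nodup.injChk_of _ _ _ _ _ 22 (by decide) (by decide +kernel)


end Cfsg.Agent.Lib.Helper47G24P2f
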