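import Cfsg.Agent.Lib.Helper47G24P3V0
import Cfsg.Agent.Lib.Helper47G24P3R0

set_option autoImplicit false
set_option maxRecDepth 1000000
set_option maxHeartbeats 0

namespace Cfsg.Agent.Lib.Helper47G24P3H

open Cfsg Cfsg.Agent.Lib.Helper63PCDefs Cfsg.Agent.Lib.Helper63PCTabDefs Cfsg.Agent.Lib.Helper47G24P3C

theorem hW : C.D.wordsOK = true := by decide +kernel

theorem hJ : decide (C.j0 < C.N) = true := by decide +kernel

theorem hL : C.lam.all (fun v => v.length == C.N) = true := by decide +kernel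

theorem hV : (C.relV == C.specs.map C.vec) = true := by
  rw [beq_iff_eq]
  show rv0 = (sp0).map C.vec
  simp only [List.map_append, Cfsg.Agent.Lib.Helper47G24P3V0.hv]

theorem hidx : ∀ b < 3, ∀ a < 3, a < b ∨ (b * 3 + a) ∈ ix0 := by
  decide

theorem hkey (j : ℕ) (hj : j ∈ ix0) : (C.row1 j && C.row2 j) = true := by
  exact List.all_eq_true.mp Cfsg.Agent.Lib.Helper47G24P3R0.hr j hj

theorem hR : (List.range C.D.n).all (fun b => (List.range C.D.n).all (fun a =>
    decide (a < b) || (C.row1 (b * C.D.n + a) && C.row2 (b * C.D.n + a)))) = true := by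
  show (List.range 3).all (fun b => (List.range 3).all (fun a =>
    decide (a < b) || (C.row1 (b * 3 + a) && C.row2 (b * 3 + a)))) = true
  rw [List.all_eq_true]
  intro b hb
  rw [List.all_eq_true]
  intro a ha
  rcases hidx b (List.mem_range.mp hb) a (List.mem_range.mp ha) with h | h
  · rw [decide_eq_true h, Bool.true_or]
  · rw [hkey _ h, Bool.or_true]

theorem hC : C.check = true := by
  rw [Cert.check, Bool.and_eq_true, Bool.and_eq_true, Bool.and_eq_true, Bool.and_eq_true]
  exact ⟨⟨⟨⟨hW, hJ⟩, hL⟩, hV⟩, hR⟩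

end Cfsg.Agent.Lib.Helper47G24P3H
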