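import Cfsg.Agent.Lib.Helper47G24P3C

set_option autoImplicit false
set_option maxRecDepth 1000000
set_option maxHeartbeats 0

namespace Cfsg.Agent.Lib.Helper47G24P3V0

open Cfsg Cfsg.Agent.Lib.Helper63PCDefs Cfsg.Agent.Lib.Helper63PCTabDefs Cfsg.Agent.Lib.Helper47G24P3C

theorem hv : sp0.map C.vec = rv0 := by decide +kernel

end Cfsg.Agent.Lib.Helper47G24P3V0
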