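import Cfsg.Agent.Lib.Helper17PCTab

set_option autoImplicit false
set_option maxRecDepth 1000000
set_option maxHeartbeats 0

namespace Cfsg.Agent.Lib.Helper47G24P5C

open Cfsg Cfsg.Agent.Lib.Helper63PCDefs Cfsg.Agent.Lib.Helper63PCTabDefs 

def sp0 : List (ℕ × List ℕ × List ℕ) := [(1, [1, 1, 1, 1, 1], []),
    (1, [1, 0, 1, 1, 1, 1, 0, 0, 0, 0], []),
    (2, [0, 0, 0, 0, 0], [])]

def rv0 : List (List ℤ) := [[.ofNat 0, .ofNat 0, .ofNat 0, .negSucc 2, .ofNat 0, .negSucc 4, .ofNat 0, .ofNat 0],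
    [.ofNat 0, .negSucc 2, .ofNat 0, .negSucc 2, .negSucc 4, .negSucc 4, .ofNat 0, .ofNat 0],
    [.negSucc 2, .ofNat 0, .ofNat 0, .ofNat 0, .ofNat 0, .ofNat 0, .negSucc 4, .ofNat 0]]

def C : Cert where
  D := { p := 5, n := 2, pwL := [[], []], cmL := [[], [], [], []] }
  k := 0
  f := 25
  R := 2
  fus := [([[0], [1]], [[0], [1, 1, 1, 1]]), ([[0], [1]], [[0, 0, 0, 0], [1, 1, 1, 1]])]
  specs := sp0
  relV := rv0
  lam := [[.ofNat 0, .ofNat 0, .ofNat 0, .ofNat 0, .ofNat 0, .ofNat 0, .ofNat 0, .ofNat 0],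
    [.ofNat 0, .ofNat 0, .ofNat 0, .ofNat 0, .ofNat 0, .ofNat 0, .ofNat 0, .ofNat 0]]
  j0 := 0
  mu := [.ofNat 0, .ofNat 0, .ofNat 0, .ofNat 0]
  y1 := [[(2, .ofNat 3)],
    [(0, .ofNat 2), (1, .ofNat 3)],
    [],
    [(0, .ofNat 3)]]
  y2 := [[(2, .ofNat 3)],
    [(0, .ofNat 2), (1, .ofNat 3)],
    [],
    [(0, .ofNat 3)]]

def ix0 : List ℕ := [0, 1, 3]

end Cfsg.Agent.Lib.Helper47G24P5C
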