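import Cfsg.Agent.Lib.Helper47G24P5n1
import Cfsg.Agent.Lib.Helper47G24P5C

set_option autoImplicit false
set_option maxRecDepth 1000000
set_option maxHeartbeats 0

namespace Cfsg.Agent.Lib.Helper47G24P5e

open Cfsg Cfsg.Agent.Lib.Helper63PCDefs Cfsg.Agent.Lib.Helper63PCTabDefs Cfsg.Agent.Lib.Helper47G24PM Cfsg.Agent.Lib.Helper47G24Ta Cfsg.Agent.Lib.Helper47G24P5n0 Cfsg.Agent.Lib.Helper47G24P5n1 Cfsg.Agent.Lib.Helper47G24P5C

local notation "KK" => KO

def tx : ℕ → ℕ
  | 0 => N527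
  | 1 => N421
  | _ => 0

def tg : ℕ → ℕ
  | 0 => N476
  | 1 => N506
  | _ => 0

theorem hx : ∀ a < C.D.n, Tabled KK 11 (tx a) := by
  intro a ha
  have ha' : a < 2 := ha
  interval_cases a
  · exact h527
  · exact h421

theorem hg : ∀ i < C.fus.length, Tabled KK 11 (tg i) := by
  intro a ha
  have ha' : a < 2 := ha
  interval_cases a
  · exact h476
  · exact h506

theorem hpc : pcChk 1365 11 C.D tx = true := by decide +kernel

theorem hfus : fusChk 1365 11 C tx tg = true := by decide +kernel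


end Cfsg.Agent.Lib.Helper47G24P5e
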