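import Cfsg.Agent.Lib.Helper47G24T
import Cfsg.Agent.S1077
import Cfsg.Agent.S1078
import Cfsg.Agent.S1055
import Cfsg.Agent.S1059

/-! The Steinberg group of type `G₂` over the field with four elements as a permutation group on
1365 points (model for the power-commutator multiplier engine). -/

set_option autoImplicit false
set_option maxRecDepth 100000

namespace Cfsg.Agent.Lib.Helper47G24PM

open Cfsg Cfsg.Lie Cfsg.Agent.Lib.Helper47StG4 Cfsg.Agent.Lib.Helper47G24T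
  Cfsg.Agent.Lib.Helper47G24Ta Cfsg.Agent.Lib.Helper63PCTabDefs Cfsg.Agent.Lib.Helper18F4

theorem isoSt : Nonempty (St4 ≃* chevG2.group F4c) := by
  obtain ⟨θ, hs, hk, -⟩ := Cfsg.Agent.S1077.result (K := F4c) chevG2 (by simp)
  have hc := Cfsg.Agent.S1078.result (K := F4c) chevG2 (by simp)
  rw [hc] at hk
  exact ⟨MulEquiv.ofBijective θ ⟨(MonoidHom.ker_eq_bot_iff θ).mp hk, hs⟩⟩

theorem simpleSt : IsSimpleGroup St4 := by
  obtain ⟨e⟩ := isoSt
  have := (Cfsg.Agent.S1055.result (F := F4c) ⟨⟨false, true⟩, by decide, by decide⟩).1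
  exact e.isSimpleGroup

theorem cardSt : Nat.card St4 = 251596800 := by
  obtain ⟨e⟩ := isoSt
  rw [Nat.card_congr e.toEquiv, Cfsg.Agent.S1059.result (F := F4c) (q := 4) F4c.card]
  norm_num

theorem finiteSt : Finite St4 := Nat.finite_of_card_ne_zero (by rw [cardSt]; norm_num)

noncomputable def phi : St4 →* Equiv.Perm (Fin 1365) := PresentedGroup.toGroup (rel_one4 ok)

theorem phi_of (a : Fin chevG2.nroots × F4c) (j : Fin 1365) :
    (phi (PresentedGroup.of a) j).val = act4 11 tab (a.1.val, a.2) j.val := by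
  rw [phi, PresentedGroup.toGroup.of]
  rfl

noncomputable def KO : Subgroup (Equiv.Perm (Fin 1365)) := phi.range

theorem tabled (r : ℕ) (hr : r < 12) (x : F4c) (t : ℕ) (h : ∀ j, act4 11 tab (r, x) j = lk 11 t j) :
    Tabled KO 11 t :=
  ⟨phi (PresentedGroup.of (⟨r, hr⟩, x)), ⟨_, rfl⟩, fun j => by rw [phi_of, ← h]⟩

theorem tb0_1 : Tabled KO 11 T0_1 := tabled 0 (by norm_num) ⟨true, false⟩ _ (fun _ => rfl)
theorem tb0_2 : Tabled KO 11 T0_2 := tabled 0 (by norm_num) ⟨false, true⟩ _ (fun _ => rfl)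
theorem tb0_3 : Tabled KO 11 T0_3 := tabled 0 (by norm_num) ⟨true, true⟩ _ (fun _ => rfl)
theorem tb1_1 : Tabled KO 11 T1_1 := tabled 1 (by norm_num) ⟨true, false⟩ _ (fun _ => rfl)
theorem tb1_2 : Tabled KO 11 T1_2 := tabled 1 (by norm_num) ⟨false, true⟩ _ (fun _ => rfl)
theorem tb1_3 : Tabled KO 11 T1_3 := tabled 1 (by norm_num) ⟨true, true⟩ _ (fun _ => rfl)
theorem tb2_1 : Tabled KO 11 T2_1 := tabled 2 (by norm_num) ⟨true, false⟩ _ (fun _ => rfl)
theorem tb2_2 : Tabled KO 11 T2_2 := tabled 2 (by norm_num) ⟨false, true⟩ _ (fun _ => rfl)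
theorem tb2_3 : Tabled KO 11 T2_3 := tabled 2 (by norm_num) ⟨true, true⟩ _ (fun _ => rfl)
theorem tb3_1 : Tabled KO 11 T3_1 := tabled 3 (by norm_num) ⟨true, false⟩ _ (fun _ => rfl)
theorem tb3_2 : Tabled KO 11 T3_2 := tabled 3 (by norm_num) ⟨false, true⟩ _ (fun _ => rfl)
theorem tb3_3 : Tabled KO 11 T3_3 := tabled 3 (by norm_num) ⟨true, true⟩ _ (fun _ => rfl)
theorem tb4_1 : Tabled KO 11 T4_1 := tabled 4 (by norm_num) ⟨true, false⟩ _ (fun _ => rfl)
theorem tb4_2 : Tabled KO 11 T4_2 := tabled 4 (by norm_num) ⟨false, true⟩ _ (fun _ => rfl)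
theorem tb4_3 : Tabled KO 11 T4_3 := tabled 4 (by norm_num) ⟨true, true⟩ _ (fun _ => rfl)
theorem tb5_1 : Tabled KO 11 T5_1 := tabled 5 (by norm_num) ⟨true, false⟩ _ (fun _ => rfl)
theorem tb5_2 : Tabled KO 11 T5_2 := tabled 5 (by norm_num) ⟨false, true⟩ _ (fun _ => rfl)
theorem tb5_3 : Tabled KO 11 T5_3 := tabled 5 (by norm_num) ⟨true, true⟩ _ (fun _ => rfl)
theorem tb6_1 : Tabled KO 11 T6_1 := tabled 6 (by norm_num) ⟨true, false⟩ _ (fun _ => rfl)
theorem tb6_2 : Tabled KO 11 T6_2 := tabled 6 (by norm_num) ⟨false, true⟩ _ (fun _ => rfl)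
theorem tb6_3 : Tabled KO 11 T6_3 := tabled 6 (by norm_num) ⟨true, true⟩ _ (fun _ => rfl)
theorem tb7_1 : Tabled KO 11 T7_1 := tabled 7 (by norm_num) ⟨true, false⟩ _ (fun _ => rfl)
theorem tb7_2 : Tabled KO 11 T7_2 := tabled 7 (by norm_num) ⟨false, true⟩ _ (fun _ => rfl)
theorem tb7_3 : Tabled KO 11 T7_3 := tabled 7 (by norm_num) ⟨true, true⟩ _ (fun _ => rfl)
theorem tb8_1 : Tabled KO 11 T8_1 := tabled 8 (by norm_num) ⟨true, false⟩ _ (fun _ => rfl)
theorem tb8_2 : Tabled KO 11 T8_2 := tabled 8 (by norm_num) ⟨false, true⟩ _ (fun _ => rfl)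
theorem tb8_3 : Tabled KO 11 T8_3 := tabled 8 (by norm_num) ⟨true, true⟩ _ (fun _ => rfl)
theorem tb9_1 : Tabled KO 11 T9_1 := tabled 9 (by norm_num) ⟨true, false⟩ _ (fun _ => rfl)
theorem tb9_2 : Tabled KO 11 T9_2 := tabled 9 (by norm_num) ⟨false, true⟩ _ (fun _ => rfl)
theorem tb9_3 : Tabled KO 11 T9_3 := tabled 9 (by norm_num) ⟨true, true⟩ _ (fun _ => rfl)
theorem tb10_1 : Tabled KO 11 T10_1 := tabled 10 (by norm_num) ⟨true, false⟩ _ (fun _ => rfl)
theorem tb10_2 : Tabled KO 11 T10_2 := tabled 10 (by norm_num) ⟨false, true⟩ _ (fun _ => rfl)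
theorem tb10_3 : Tabled KO 11 T10_3 := tabled 10 (by norm_num) ⟨true, true⟩ _ (fun _ => rfl)
theorem tb11_1 : Tabled KO 11 T11_1 := tabled 11 (by norm_num) ⟨true, false⟩ _ (fun _ => rfl)
theorem tb11_2 : Tabled KO 11 T11_2 := tabled 11 (by norm_num) ⟨false, true⟩ _ (fun _ => rfl)
theorem tb11_3 : Tabled KO 11 T11_3 := tabled 11 (by norm_num) ⟨true, true⟩ _ (fun _ => rfl)

theorem phi_inj : Function.Injective phi := by
  have := simpleSt
  rw [← MonoidHom.ker_eq_bot_iff]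
  rcases (phi.normal_ker).eq_bot_or_eq_top with h | h
  · exact h
  · exfalso
    have h1 : phi (PresentedGroup.of ((⟨0, by decide⟩ : Fin chevG2.nroots), (1 : F4c))) = 1 := by
      have : (PresentedGroup.of ((⟨0, by decide⟩ : Fin chevG2.nroots), (1 : F4c)) : St4)
          ∈ phi.ker := by
        rw [h]; exact Subgroup.mem_top _
      exact this
    have h2 := phi_of (⟨0, by decide⟩, 1) ⟨4, by norm_num⟩
    rw [h1] at h2
    have h3 : act4 11 tab (0, 1) 4 = 4 := h2.symm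
    have h4 := moved
    rw [h3] at h4
    simp at h4

noncomputable def iso : St4 ≃* KO := MonoidHom.ofInjective phi_inj

theorem cardK : Nat.card KO = 251596800 := by
  rw [← Nat.card_congr iso.toEquiv]; exact cardSt

end Cfsg.Agent.Lib.Helper47G24PM
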