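import Cfsg.Agent.Lib.Helper47G24Ta

set_option autoImplicit false
set_option maxRecDepth 1000000
set_option maxHeartbeats 0

namespace Cfsg.Agent.Lib.Helper47G24Tb1

open Cfsg.Lie Cfsg.Agent.Lib.Helper47StG4 Cfsg.Agent.Lib.Helper18F4 Cfsg.Agent.Lib.Helper47G24Ta

theorem r2_3 : ∀ s < 12, ∀ t u : F4c, s ≠ 3 → s ≠ chevG2.neg 3 →
    chkEq4 1365 11 11 tab [(s, u), (3, t)] ((3, t) :: (s, u) :: chevG2.commWord F4c 3 s t u) = true := by
  decide +kernel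

theorem r2_4 : ∀ s < 12, ∀ t u : F4c, s ≠ 4 → s ≠ chevG2.neg 4 →
    chkEq4 1365 11 11 tab [(s, u), (4, t)] ((4, t) :: (s, u) :: chevG2.commWord F4c 4 s t u) = true := by
  decide +kernel

theorem r2_5 : ∀ s < 12, ∀ t u : F4c, s ≠ 5 → s ≠ chevG2.neg 5 →
    chkEq4 1365 11 11 tab [(s, u), (5, t)] ((5, t) :: (s, u) :: chevG2.commWord F4c 5 s t u) = true := by
  decide +kernel

end Cfsg.Agent.Lib.Helper47G24Tb1
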