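import Cfsg.Agent.Lib.Helper47G24Ta

set_option autoImplicit false
set_option maxRecDepth 1000000
set_option maxHeartbeats 0

namespace Cfsg.Agent.Lib.Helper47G24Tb2

open Cfsg.Lie Cfsg.Agent.Lib.Helper47StG4 Cfsg.Agent.Lib.Helper18F4 Cfsg.Agent.Lib.Helper47G24Ta

theorem r2_6 : ∀ s < 12, ∀ t u : F4c, s ≠ 6 → s ≠ chevG2.neg 6 →
    chkEq4 1365 11 11 tab [(s, u), (6, t)] ((6, t) :: (s, u) :: chevG2.commWord F4c 6 s t u) = true := by
  decide +kernel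

theorem r2_7 : ∀ s < 12, ∀ t u : F4c, s ≠ 7 → s ≠ chevG2.neg 7 →
    chkEq4 1365 11 11 tab [(s, u), (7, t)] ((7, t) :: (s, u) :: chevG2.commWord F4c 7 s t u) = true := by
  decide +kernel

theorem r2_8 : ∀ s < 12, ∀ t u : F4c, s ≠ 8 → s ≠ chevG2.neg 8 →
    chkEq4 1365 11 11 tab [(s, u), (8, t)] ((8, t) :: (s, u) :: chevG2.commWord F4c 8 s t u) = true := by
  decide +kernel

end Cfsg.Agent.Lib.Helper47G24Tb2
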