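import Cfsg.Agent.Lib.Helper47G24Ta

set_option autoImplicit false
set_option maxRecDepth 1000000
set_option maxHeartbeats 0

namespace Cfsg.Agent.Lib.Helper47G24Tb3

open Cfsg.Lie Cfsg.Agent.Lib.Helper47StG4 Cfsg.Agent.Lib.Helper18F4 Cfsg.Agent.Lib.Helper47G24Ta

theorem r2_9 : ∀ s < 12, ∀ t u : F4c, s ≠ 9 → s ≠ chevG2.neg 9 →
    chkEq4 1365 11 11 tab [(s, u), (9, t)] ((9, t) :: (s, u) :: chevG2.commWord F4c 9 s t u) = true := by
  decide +kernel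

theorem r2_10 : ∀ s < 12, ∀ t u : F4c, s ≠ 10 → s ≠ chevG2.neg 10 →
    chkEq4 1365 11 11 tab [(s, u), (10, t)] ((10, t) :: (s, u) :: chevG2.commWord F4c 10 s t u) = true := by
  decide +kernel

theorem r2_11 : ∀ s < 12, ∀ t u : F4c, s ≠ 11 → s ≠ chevG2.neg 11 →
    chkEq4 1365 11 11 tab [(s, u), (11, t)] ((11, t) :: (s, u) :: chevG2.commWord F4c 11 s t u) = true := by
  decide +kernel

end Cfsg.Agent.Lib.Helper47G24Tb3
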