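import Cfsg.Agent.Lib.Helper47G24Tb0
import Cfsg.Agent.Lib.Helper47G24Tb1
import Cfsg.Agent.Lib.Helper47G24Tb2
import Cfsg.Agent.Lib.Helper47G24Tb3

set_option autoImplicit false
set_option maxRecDepth 1000000
set_option maxHeartbeats 0

namespace Cfsg.Agent.Lib.Helper47G24T

open Cfsg.Lie Cfsg.Agent.Lib.Helper47StG4 Cfsg.Agent.Lib.Helper18F4 Cfsg.Agent.Lib.Helper47G24Ta
  Cfsg.Agent.Lib.Helper47G24Tb0 Cfsg.Agent.Lib.Helper47G24Tb1 Cfsg.Agent.Lib.Helper47G24Tb2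
  Cfsg.Agent.Lib.Helper47G24Tb3

theorem ok : OK4 1365 11 11 tab where
  hN := by norm_num
  dflt := by
    intro r hr t
    have h1 : tab r t = T0_0 := List.getD_eq_default _ _ (by simp [tabs]; omega)
    rw [h1]
    rfl
  inv := inv
  r1 := r1
  r2 := by
    intro r hr
    interval_cases r
    exacts [r2_0, r2_1, r2_2, r2_3, r2_4, r2_5, r2_6, r2_7, r2_8, r2_9, r2_10, r2_11]
  r3 := r3

theorem moved : Nat.beq (act4 11 tab (0, 1) 4) 4 = false := by decide +kernel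

end Cfsg.Agent.Lib.Helper47G24T
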