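import Cfsg.Agent.Lib.Helper47G24Ta

set_option autoImplicit false
set_option maxRecDepth 1000000
set_option maxHeartbeats 0

namespace Cfsg.Agent.Lib.Helper47G24Tb0

open Cfsg.Lie Cfsg.Agent.Lib.Helper47StG4 Cfsg.Agent.Lib.Helper18F4 Cfsg.Agent.Lib.Helper47G24Ta

theorem r2_0 : ∀ s < 12, ∀ t u : F4c, s ≠ 0 → s ≠ chevG2.neg 0 →
    chkEq4 1365 11 11 tab [(s, u), (0, t)] ((0, t) :: (s, u) :: chevG2.commWord F4c 0 s t u) = true := by
  decide +kernel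

theorem r2_1 : ∀ s < 12, ∀ t u : F4c, s ≠ 1 → s ≠ chevG2.neg 1 →
    chkEq4 1365 11 11 tab [(s, u), (1, t)] ((1, t) :: (s, u) :: chevG2.commWord F4c 1 s t u) = true := by
  decide +kernel

theorem r2_2 : ∀ s < 12, ∀ t u : F4c, s ≠ 2 → s ≠ chevG2.neg 2 →
    chkEq4 1365 11 11 tab [(s, u), (2, t)] ((2, t) :: (s, u) :: chevG2.commWord F4c 2 s t u) = true := by
  decide +kernel

end Cfsg.Agent.Lib.Helper47G24Tb0
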