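import Cfsg.Agent.Lib.Helper47O73M3

set_option autoImplicit false
set_option maxRecDepth 100000

/-! A stem extension of the presented group `Ω₇(3)` with kernel of order three, as a group of
permutations of 9477 points. -/

namespace Cfsg.Agent.Lib.Helper47O73M3B

open Cfsg.Agent.Lib.Helper35TC Cfsg.Agent.Lib.Helper47StemA Cfsg.Agent.Lib.Helper47StemB
  Cfsg.Agent.Lib.Helper47StemC Cfsg.Agent.Lib.Helper47O73M3

noncomputable abbrev K := Cfsg.Agent.Lib.Helper35O73a.K

theorem hInv (s : Gen) : ∀ j, j < 9477 → act s j < 9477 ∧ act s (act s j) = j := by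
  intro j hj
  have h := all_of_allD _ 14 9477 (by norm_num) (chkInv s) j hj
  rw [Bool.or_eq_true, Bool.and_eq_true, Nat.ble_eq, Nat.ble_eq, Nat.beq_eq] at h
  rcases h with h | h
  · omega
  · exact ⟨by omega, h.2⟩

noncomputable def vv (s : Gen) : Equiv.Perm (Fin 9477) := invPerm 9477 (act s) (hInv s)

theorem vv_apply (s : Gen) (j : Fin 9477) : (vv s j).val = act s j.val := rfl

theorem word_eq (w w' : List Gen) (h : chkEq w w' = true) : (w.map vv).prod = (w'.map vv).prod := by
  apply prod_eq_prod vv act vv_apply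
  intro j hj
  have h1 := all_of_allD _ 14 9477 (by norm_num) h j hj
  rw [Bool.or_eq_true, Nat.ble_eq, Nat.beq_eq] at h1
  rcases h1 with h1 | h1
  · omega
  · exact h1

theorem prod_rep {α M : Type*} [Monoid M] (f : α → M) (l : List α) :
    ∀ m : ℕ, (((List.replicate m l).flatten).map f).prod = ((l.map f).prod) ^ m
  | 0 => by simp
  | m + 1 => by
    rw [List.replicate_succ, List.flatten_cons, List.map_append, List.prod_append, prod_rep f l m,
      pow_succ']

noncomputable def Gam : Subgroup (Equiv.Perm (Fin 9477)) := Subgroup.closure (Set.range vv)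

noncomputable def v (s : Gen) : Gam := ⟨vv s, Subgroup.subset_closure ⟨s, rfl⟩⟩

theorem hgen : Subgroup.closure (Set.range v) = ⊤ := by
  have h := Subgroup.closure_closure_coe_preimage (k := Set.range vv)
  have e : (Set.range v) =
      ((↑) : Subgroup.closure (Set.range vv) → Equiv.Perm (Fin 9477)) ⁻¹' Set.range vv := by
    ext x
    constructor
    · rintro ⟨s, rfl⟩
      exact ⟨s, rfl⟩
    · rintro ⟨s, hs⟩
      exact ⟨s, Subtype.ext hs⟩
  rw [e]
  exact h

theorem v_prod : ∀ w : List Gen, ((w.map v).prod : Gam).1 = (w.map vv).prod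
  | [] => rfl
  | s :: w => by
    rw [List.map_cons, List.prod_cons, List.map_cons, List.prod_cons, ← v_prod w]
    rfl

theorem weq (w w' : List Gen) (h : chkEq w w' = true) : (w.map v).prod = (w'.map v).prod := by
  apply Subtype.ext
  rw [v_prod, v_prod]
  exact word_eq w w' h

theorem v_cox (x y : Gen) : (v x * v y) ^ lbl x y = 1 := by
  have h := weq _ _ (chkCox x y)
  rw [prod_rep] at h
  simpa using h

theorem lbl_self (s : Gen) : lbl s s = 1 := by cases s <;> decide

theorem v_sq (s : Gen) : v s * v s = 1 := by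
  have h := v_cox s s
  rwa [lbl_self, pow_one] at h

theorem rE : (v .b * v .c * v .d * v .e * v .f * v .g * v .h) ^ 9 = 1 := by
  have h := weq _ _ chkE2
  rw [prod_rep] at h
  simpa [mul_assoc] using h

noncomputable def tt : Gam := (v .d * v .c * v .b * v .d * v .e * v .f * v .d * v .h * v .i) ^ 10

theorem tt_eq : tt = (wt.map v).prod := by
  rw [wt, prod_rep, tt]
  simp [mul_assoc]

theorem tt_apply (j : Fin 9477) : (tt.1 j).val = tau j.val := by
  rw [tt_eq, v_prod, prod_apply vv act vv_apply]
  have h1 := all_of_allD _ 14 9477 (by norm_num) chkT j.1 j.2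
  rw [Bool.or_eq_true, Nat.ble_eq, Nat.beq_eq] at h1
  rcases h1 with h1 | h1
  · exact absurd j.2 (by omega)
  · exact h1

theorem tt_cube : tt ^ 3 = 1 := by
  apply Subtype.ext
  ext j
  show ((tt.1 ^ 3) j).val = j.val
  rw [pow_succ, pow_two, Equiv.Perm.mul_apply, Equiv.Perm.mul_apply, tt_apply, tt_apply, tt_apply]
  have h1 := all_of_allD _ 14 9477 (by norm_num) chkT3 j.1 j.2
  rw [Bool.or_eq_true, Bool.and_eq_true, Nat.ble_eq, Nat.beq_eq] at h1
  rcases h1 with h1 | h1
  · exact absurd j.2 (by omega)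
  · exact h1.2

theorem tt_comm (s : Gen) : tt * v s = v s * tt := by
  apply Subtype.ext
  ext j
  show (tt.1 (vv s j)).val = (vv s (tt.1 j)).val
  rw [tt_apply, vv_apply, vv_apply, tt_apply]
  have h1 := all_of_allD _ 14 9477 (by norm_num) (chkTc s) j.1 j.2
  rw [Bool.or_eq_true, Nat.ble_eq, Nat.beq_eq] at h1
  rcases h1 with h1 | h1
  · exact absurd j.2 (by omega)
  · exact h1

theorem tt_ne : tt ≠ 1 := by
  intro h
  have h2 := tt_apply ⟨0, by norm_num⟩
  rw [h] at h2
  have h3 : tau 0 = 0 := h2.symm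
  have h4 := chkTne
  rw [h3] at h4
  simp at h4

theorem tt_order : orderOf tt = 3 := by
  have : Fact (Nat.Prime 3) := ⟨Nat.prime_three⟩
  exact orderOf_eq_prime tt_cube tt_ne

theorem tt_central : tt ∈ Subgroup.center Gam := by
  have key : (⊤ : Subgroup Gam) ≤ Subgroup.centralizer {tt} := by
    rw [← hgen, Subgroup.closure_le]
    rintro _ ⟨s, rfl⟩
    rw [SetLike.mem_coe, Subgroup.mem_centralizer_singleton_iff]
    exact (tt_comm s).symm
  rw [Subgroup.mem_center_iff]
  intro g
  exact Subgroup.mem_centralizer_singleton_iff.mp (key (Subgroup.mem_top g))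

noncomputable def ZZ : Subgroup Gam := Subgroup.zpowers tt

theorem ZZ_le : ZZ ≤ Subgroup.center Gam := by
  rw [ZZ, Subgroup.zpowers_le]
  exact tt_central

theorem perfect : commutator Gam = ⊤ := by
  let ab : Gam →* Abelianization Gam := Abelianization.of
  have sq : ∀ s, ab (v s) * ab (v s) = 1 := by
    intro s
    rw [← map_mul, v_sq, map_one]
  have ed : ∀ s t, lbl s t = 3 → ab (v s) = ab (v t) := by
    intro s t hl
    apply eq_of_edge (mul_comm _ _) (sq s) (sq t)
    rw [← map_mul, ← map_pow]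
    have h := v_cox s t
    rw [hl] at h
    rw [h, map_one]
  have e2 := ed .b .c (by decide)
  have e3 := ed .c .d (by decide)
  have e4 := ed .d .e (by decide)
  have e5 := ed .e .f (by decide)
  have e6 := ed .f .g (by decide)
  have e7 := ed .d .h (by decide)
  have e8 := ed .h .i (by decide)
  have hE : (ab (v .b) * ab (v .c) * ab (v .d) * ab (v .e) * ab (v .f) * ab (v .g) * ab (v .h)) ^ 9
      = 1 := by
    have h := congrArg ab rE
    rw [map_one, map_pow] at h
    simpa using h
  have hx := sq .b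
  rw [← e7, ← e6, ← e5, ← e4, ← e3, ← e2, hx, one_mul, hx, one_mul, hx, one_mul] at hE
  have hx1 : ab (v .b) = 1 := by
    generalize ab (v .b) = x at hx hE
    have : x ^ 9 = (x * x) ^ 4 * x := by
      rw [← pow_two, ← pow_mul, ← pow_succ]
    rw [this, hx, one_pow, one_mul] at hE
    exact hE
  have all : ∀ s, ab (v s) = 1 := by
    intro s
    cases s
    · exact hx1
    · exact e2.symm.trans hx1
    · exact (e2.trans e3).symm.trans hx1
    · exact (e2.trans (e3.trans e4)).symm.trans hx1
    · exact (e2.trans (e3.trans (e4.trans e5))).symm.trans hx1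
    · exact (e2.trans (e3.trans (e4.trans (e5.trans e6)))).symm.trans hx1
    · exact (e2.trans (e3.trans e7)).symm.trans hx1
    · exact (e2.trans (e3.trans (e7.trans e8))).symm.trans hx1
  have hker : ab.ker = ⊤ := by
    rw [eq_top_iff, ← hgen, Subgroup.closure_le]
    rintro _ ⟨s, rfl⟩
    exact all s
  have h2 : ab.ker = commutator Gam := QuotientGroup.ker_mk' _
  rw [← h2, hker]

theorem ZZ_ne : ZZ ≠ ⊤ := by
  intro h
  have hc : ∀ a b : Gam, a * b = b * a := by
    intro a b
    have : b ∈ Subgroup.center Gam := ZZ_le (by rw [h]; trivial)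
    exact Subgroup.mem_center_iff.mp this a
  have h1 : commutator Gam = ⊥ := by
    rw [commutator_eq_closure, Subgroup.closure_eq_bot_iff]
    rintro _ ⟨a, b, rfl⟩
    rw [Set.mem_singleton_iff, commutatorElement_def, hc a b]
    group
  rw [perfect] at h1
  have h2 : tt = 1 := by
    have : tt ∈ (⊤ : Subgroup Gam) := trivial
    rw [h1] at this
    exact this
  exact tt_ne h2

theorem hrel : ∀ r ∈ K.rels, FreeGroup.lift v r ∈ ZZ := by
  rintro r (⟨x, -, y, -, rfl⟩ | hr)
  · rw [map_pow, map_mul, FreeGroup.lift_apply_of, FreeGroup.lift_apply_of]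
    have h' : (v x * v y) ^ Cfsg.Spor.coxLabel Cfsg.Agent.Lib.Helper35Fi22c1.edges x y = 1 :=
      v_cox x y
    rw [h']
    exact Subgroup.one_mem _
  · have hr' : r ∈ Cfsg.Agent.Lib.Helper35Fi22c1.extra := hr
    simp only [Cfsg.Agent.Lib.Helper35Fi22c1.extra, Cfsg.Agent.Lib.Helper35Fi22c1.extraExps,
      List.map_cons, List.map_nil, List.mem_cons, List.not_mem_nil, or_false] at hr'
    rcases hr' with rfl | rfl
    · simp only [WExp.eval, map_pow, map_mul, FreeGroup.lift_apply_of]
      exact Subgroup.mem_zpowers tt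
    · simp only [WExp.eval, map_pow, map_mul, FreeGroup.lift_apply_of]
      rw [rE]
      exact Subgroup.one_mem _

theorem exists_cover : ∃ σ : Gam →* K.Grp, Cfsg.IsStemExtension σ ∧ Nat.card σ.ker = 3 := by
  obtain ⟨σ, hσ, hker⟩ := stem_of_gens Cfsg.Agent.Lib.Helper35O73Fin.simple v hgen ZZ ZZ_le hrel
    perfect ZZ_ne
  refine ⟨σ, hσ, ?_⟩
  rw [hker, ZZ, Nat.card_zpowers, tt_order]

end Cfsg.Agent.Lib.Helper47O73M3B
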