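import Cfsg.Agent.Lib.Helper47O73P2n1
import Cfsg.Agent.Lib.Helper47O73P2C

set_option autoImplicit false
set_option maxRecDepth 1000000
set_option maxHeartbeats 0

namespace Cfsg.Agent.Lib.Helper47O73P2e

open Cfsg Cfsg.Agent.Lib.Helper63PCDefs Cfsg.Agent.Lib.Helper63PCTabDefs Cfsg.Agent.Lib.Helper47O73PM Cfsg.Agent.Lib.Helper47O73P2n0 Cfsg.Agent.Lib.Helper47O73P2n1 Cfsg.Agent.Lib.Helper47O73P2C

local notation "KK" => KO

def tx : ℕ → ℕ
  | 0 => N753
  | 1 => N690
  | 2 => N711
  | 3 => N691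
  | 4 => N671
  | 5 => N641
  | 6 => t7
  | 7 => N102
  | 8 => N248
  | _ => 0

def tg : ℕ → ℕ
  | 0 => N1386
  | 1 => N1357
  | 2 => N1879
  | 3 => N1907
  | _ => 0

theorem hx : ∀ a < C.D.n, Tabled KK 9 (tx a) := by
  intro a ha
  have ha' : a < 9 := ha
  interval_cases a
  · exact h753
  · exact h690
  · exact h711
  · exact h691
  · exact h671
  · exact h641
  · exact h7
  · exact h102
  · exact h248

theorem hg : ∀ i < C.fus.length, Tabled KK 9 (tg i) := by
  intro a ha
  have ha' : a < 4 := ha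
  interval_cases a
  · exact h1386
  · exact h1357
  · exact h1879
  · exact h1907

theorem hpc : pcChk 364 9 C.D tx = true := by decide +kernel

theorem hfus : fusChk 364 9 C tx tg = true := by decide +kernel


end Cfsg.Agent.Lib.Helper47O73P2e
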