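import Cfsg.Agent.Lib.Helper47O73P3n1
import Cfsg.Agent.Lib.Helper47O73P3C

set_option autoImplicit false
set_option maxRecDepth 1000000
set_option maxHeartbeats 0

namespace Cfsg.Agent.Lib.Helper47O73P3e

open Cfsg Cfsg.Agent.Lib.Helper63PCDefs Cfsg.Agent.Lib.Helper63PCTabDefs Cfsg.Agent.Lib.Helper47O73PM Cfsg.Agent.Lib.Helper47O73P3n0 Cfsg.Agent.Lib.Helper47O73P3n1 Cfsg.Agent.Lib.Helper47O73P3C

local notation "KK" => KO

def tx : ℕ → ℕ
  | 0 => N6100
  | 1 => N6063
  | 2 => N6031
  | 3 => N6004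
  | 4 => N5983
  | 5 => N5953
  | 6 => N5928
  | 7 => N5908
  | 8 => N5687
  | _ => 0

def tg : ℕ → ℕ
  | 0 => N5635
  | 1 => t0
  | _ => 0

theorem hx : ∀ a < C.D.n, Tabled KK 9 (tx a) := by
  intro a ha
  have ha' : a < 9 := ha
  interval_cases a
  · exact h6100
  · exact h6063
  · exact h6031
  · exact h6004
  · exact h5983
  · exact h5953
  · exact h5928
  · exact h5908
  · exact h5687

theorem hg : ∀ i < C.fus.length, Tabled KK 9 (tg i) := by
  intro a ha
  have ha' : a < 2 := ha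
  interval_cases a
  · exact h5635
  · exact h0

theorem hpc : pcChk 364 9 C.D tx = true := by decide +kernel

theorem hfus : fusChk 364 9 C tx tg = true := by decide +kernel


end Cfsg.Agent.Lib.Helper47O73P3e
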