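import Cfsg.Agent.Lib.Helper47O73P3e
import Cfsg.Agent.Lib.Helper47Nodup

set_option autoImplicit false
set_option maxRecDepth 1000000
set_option maxHeartbeats 0

namespace Cfsg.Agent.Lib.Helper47O73P3f

open Cfsg Cfsg.Agent.Lib.Helper63PCDefs Cfsg.Agent.Lib.Helper63PCTabDefs Cfsg.Agent.Lib.Helper47O73PM Cfsg.Agent.Lib.Helper47O73P3n0 Cfsg.Agent.Lib.Helper47O73P3n1 Cfsg.Agent.Lib.Helper47O73P3C Cfsg.Agent.Lib.Helper47O73P3e

local notation "KK" => KO

theorem hinj : injChk 364 9 C.D tx [0, 1, 4] = true :=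
  Cfsg.Agent.Lib.Helper47Nodup.injChk_of _ _ _ _ _ 26 (by decide) (by decide +kernel)


end Cfsg.Agent.Lib.Helper47O73P3f
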