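import Cfsg.Agent.Lib.Helper35ONFin
import Cfsg.Agent.Lib.Helper47ONSl

set_option autoImplicit false
set_option maxRecDepth 100000

/-! The subgroup `⟨a,…,f⟩` of the presented O'Nan group has an index two subgroup `≅ PSL₃(7)`. -/

namespace Cfsg.Agent.Lib.Helper47ONMain

open Cfsg.Agent.Lib.Helper35TC Cfsg.Agent.Lib.Helper47Idx2 Cfsg.Agent.Lib.Helper47ONSl

local notation "K1" => Cfsg.Agent.Lib.Helper35ONc1.K
local notation "ok1" => Cfsg.Agent.Lib.Helper35ONc1.ok
local notation "Ka" => Cfsg.Agent.Lib.Helper35ONa.K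
local notation "oka" => Cfsg.Agent.Lib.Helper35ONa.ok

def wevL (tabs : ℕ → ℕ) (w : List ℕ) (j : ℕ) : ℕ := w.foldl (fun x k => look (tabs k) x) j

theorem wordVal_apply (w : List ℕ) (j : Fin 114) :
    ((wordVal gens w j : Fin 114) : ℕ) = wevL tabs w j := by
  induction w generalizing j with
  | nil => rfl
  | cons l w ih =>
    rw [wordVal, Equiv.Perm.mul_apply, ih, hg]
    rfl

theorem iv_eq (l : ℕ) : (K1).P.iv l = l := by
  match l with
  | 0 => rfl
  | 1 => rfl
  | 2 => rfl
  | 3 => rfl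
  | 4 => rfl
  | 5 => rfl
  | _ + 6 => rfl

theorem relchk : ∀ e ∈ (K1).relExps, ∀ j < 114, wevL tabs (e.app (K1).code (K1).P.iv) j = j := by
  decide +kernel

noncomputable def theta : (K1).Grp →* Equiv.Perm (Fin 114) :=
  PresentedGroup.toGroup (f := fun x => gens ((K1).code x)) (by
    intro r hr
    obtain ⟨e, he, rfl⟩ := ((ok1).hrels r).mp hr
    rw [eval_eq_wordVal gens (K1).code (K1).P.iv (fun l => by rw [iv_eq, gens_inv]) _
      (fun a => by simp) e]
    ext j
    rw [wordVal_apply, relchk e he j j.2]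
    rfl)

theorem theta_of (x : Cfsg.Agent.Lib.Helper35ONc1.Gen) :
    theta (PresentedGroup.of x) = gens ((K1).code x) := PresentedGroup.toGroup.of _

theorem theta_mem (x : (K1).Grp) : theta x ∈ Hb := by
  have h : (⊤ : Subgroup (K1).Grp) ≤ Hb.comap theta := by
    rw [← PresentedGroup.closure_range_of, Subgroup.closure_le]
    rintro _ ⟨a, rfl⟩
    show theta (PresentedGroup.of a) ∈ Hb
    rw [theta_of]
    exact Subgroup.subset_closure ⟨_, rfl⟩
  exact h (Subgroup.mem_top x)

noncomputable def iota : (K1).Grp →* (Ka).Grp :=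
  (ok1).homOf Ka Cfsg.Agent.Lib.Helper35ONUb.i0
    (fun e he => (oka).rel_one (Cfsg.Agent.Lib.Helper35ONUb.hmem0 e he))

theorem iota_mem (x : (K1).Grp) : iota x ∈ (Ka).H := by
  have h : (⊤ : Subgroup (K1).Grp) ≤ (Ka).H.comap iota := by
    rw [← PresentedGroup.closure_range_of, Subgroup.closure_le]
    rintro _ ⟨a, rfl⟩
    show iota (PresentedGroup.of a) ∈ (Ka).H
    rw [iota, Pkg.Ok.homOf_of]
    have hm : (WExp.of (Cfsg.Agent.Lib.Helper35ONUb.i0 a)) ∈ (Ka).subExps := by
      show _ ∈ Cfsg.Agent.Lib.Helper35ONa.subExps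
      cases a <;> simp [Cfsg.Agent.Lib.Helper35ONa.subExps, Cfsg.Agent.Lib.Helper35ONUb.i0]
    exact (oka).mem_H_of_sub hm
  exact h (Subgroup.mem_top x)

theorem H_le_range : (Ka).H ≤ iota.range := by
  apply (oka).H_le
  intro e he
  obtain ⟨e', rfl⟩ := hsub_of_list Cfsg.Agent.Lib.Helper35ONUb.i0 _
    [(.of .a), (.of .b), (.of .c), (.of .d), (.of .e), (.of .f)] (by decide +kernel) e he
  exact ⟨PresentedGroup.mk (K1).rels e'.eval, (ok1).homOf_mk Ka _ _ e'⟩

theorem main : ∃ N : Subgroup (Ka).H, N.Normal ∧ N.index = 2 ∧ Nonempty (N ≃* PSL) := by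
  have hfin : Finite (K1).Grp := Cfsg.Agent.Lib.Helper35ONUb.ub1.1
  have hcard := Cfsg.Agent.Lib.Helper35ONUb.ub1.2
  have hH := Cfsg.Agent.Lib.Helper35ONFin.card_H
  let i' : (K1).Grp →* (Ka).H := iota.codRestrict (Ka).H iota_mem
  have hsurj : Function.Surjective i' := by
    rintro ⟨y, hy⟩
    obtain ⟨x, hx⟩ := H_le_range hy
    exact ⟨x, Subtype.ext hx⟩
  have hbij : Function.Bijective i' :=
    Function.Surjective.bijective_of_nat_card_le hsurj (by rw [hH]; exact hcard)
  let E : (K1).Grp ≃* (Ka).H := MulEquiv.ofBijective i' hbij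
  let ρ : (Ka).H →* Equiv.Perm (Fin 114) := theta.comp E.symm.toMonoidHom
  have : Finite (Ka).H := Nat.finite_of_card_ne_zero (by rw [hH]; norm_num)
  apply exists_index_two 1876896 (by norm_num) hH card_PSL ρ al al_injective sg
  · intro h
    exact Hb_sub _ (theta_mem _)
  · have hle : Hb ≤ ρ.range := by
      rw [Hb, Subgroup.closure_le]
      rintro _ ⟨k, rfl⟩
      have key : ∀ x : Cfsg.Agent.Lib.Helper35ONc1.Gen, gens ((K1).code x) ∈ ρ.range := by
        intro x
        refine ⟨E (PresentedGroup.of x), ?_⟩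
        show theta (E.symm (E (PresentedGroup.of x))) = _
        rw [E.symm_apply_apply, theta_of]
      match k with
      | 0 => exact key .a
      | 1 => exact key .b
      | 2 => exact key .c
      | 3 => exact key .d
      | 4 => exact key .e
      | 5 => exact key .f
      | _ + 6 => exact ρ.range.one_mem
    exact card_Hb.trans (Subgroup.card_le_of_le hle)

end Cfsg.Agent.Lib.Helper47ONMain
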