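import Cfsg.Agent.Lib.Helper47StemB

set_option autoImplicit false

/-! Fibre products of stem extensions with kernels of orders two and three; transport of a stem
extension along an isomorphism; permutations given by involutive functions on `ℕ`. -/

namespace Cfsg.Agent.Lib.Helper47StemC

theorem stem_transport {Γ G G' : Type*} [Group Γ] [Group G] [Group G'] (σ : Γ →* G)
    (hσ : Cfsg.IsStemExtension σ) (e : G ≃* G') :
    Cfsg.IsStemExtension (e.toMonoidHom.comp σ) ∧ (e.toMonoidHom.comp σ).ker = σ.ker := by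
  have hk : (e.toMonoidHom.comp σ).ker = σ.ker := by
    ext γ
    rw [MonoidHom.mem_ker, MonoidHom.mem_ker, MonoidHom.comp_apply]
    exact e.map_eq_one_iff
  refine ⟨⟨e.surjective.comp hσ.1, ?_, ?_⟩, hk⟩
  · rw [hk]; exact hσ.2.1
  · rw [hk]; exact hσ.2.2

section fibre

variable {Γ₁ Γ₂ G : Type*} [Group Γ₁] [Group Γ₂] [Group G] (σ₁ : Γ₁ →* G) (σ₂ : Γ₂ →* G)

/-- the fibre product -/
def Fib : Subgroup (Γ₁ × Γ₂) :=
  (σ₁.comp (MonoidHom.fst Γ₁ Γ₂)).eqLocus (σ₂.comp (MonoidHom.snd Γ₁ Γ₂))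

theorem mem_Fib (x : Γ₁ × Γ₂) : x ∈ Fib σ₁ σ₂ ↔ σ₁ x.1 = σ₂ x.2 := Iff.rfl

def fibHom : Fib σ₁ σ₂ →* G := (σ₁.comp (MonoidHom.fst Γ₁ Γ₂)).comp (Fib σ₁ σ₂).subtype

def pr₁ : Fib σ₁ σ₂ →* Γ₁ := (MonoidHom.fst Γ₁ Γ₂).comp (Fib σ₁ σ₂).subtype

def pr₂ : Fib σ₁ σ₂ →* Γ₂ := (MonoidHom.snd Γ₁ Γ₂).comp (Fib σ₁ σ₂).subtype

variable {σ₁ σ₂}

theorem pr₁_surj (h₂ : Function.Surjective σ₂) : Function.Surjective (pr₁ σ₁ σ₂) := by
  intro x
  obtain ⟨y, hy⟩ := h₂ (σ₁ x)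
  exact ⟨⟨(x, y), hy.symm⟩, rfl⟩

theorem pr₂_surj (h₁ : Function.Surjective σ₁) : Function.Surjective (pr₂ σ₁ σ₂) := by
  intro y
  obtain ⟨x, hx⟩ := h₁ (σ₂ y)
  exact ⟨⟨(x, y), hx⟩, rfl⟩

theorem exists_comm_of_surj {P Q : Type*} [Group P] [Group Q] (f : P →* Q)
    (hf : Function.Surjective f) (a : Q) (ha : a ∈ commutator Q) :
    ∃ w ∈ commutator P, f w = a := by
  have h : (commutator P).map f = commutator Q := by
    rw [commutator_def, Subgroup.map_commutator, Subgroup.map_top_of_surjective f hf, commutator_def]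
  rw [← h] at ha
  exact ha

theorem stem_fibre [Finite Γ₁] [Finite Γ₂] (h₁ : Cfsg.IsStemExtension σ₁)
    (h₂ : Cfsg.IsStemExtension σ₂) (c₁ : Nat.card σ₁.ker = 2) (c₂ : Nat.card σ₂.ker = 3) :
    Cfsg.IsStemExtension (fibHom σ₁ σ₂) ∧
      Nonempty ((fibHom σ₁ σ₂).ker ≃* Multiplicative (ZMod 6)) := by
  have sq : ∀ a, σ₁ a = 1 → a ^ 2 = 1 := by
    intro a ha
    have h := pow_card_eq_one' (G := σ₁.ker) (x := ⟨a, ha⟩)
    rw [c₁] at h
    exact congrArg Subtype.val h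
  have cu : ∀ b, σ₂ b = 1 → b ^ 3 = 1 := by
    intro b hb
    have h := pow_card_eq_one' (G := σ₂.ker) (x := ⟨b, hb⟩)
    rw [c₂] at h
    exact congrArg Subtype.val h
  have m1 : ∀ a (ha : σ₁ a = 1), (⟨(a, 1), by rw [mem_Fib, ha, map_one]⟩ : Fib σ₁ σ₂) ∈
      commutator (Fib σ₁ σ₂) := by
    intro a ha
    obtain ⟨w, hw, hwa⟩ := exists_comm_of_surj (pr₁ σ₁ σ₂) (pr₁_surj h₂.1) a (h₁.2.2 ha)
    have e : (⟨(a, 1), by rw [mem_Fib, ha, map_one]⟩ : Fib σ₁ σ₂) = w ^ 3 := by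
      apply Subtype.ext
      have hw1 : w.1.1 = a := hwa
      have hw2 : σ₂ w.1.2 = 1 := by rw [← (mem_Fib σ₁ σ₂ w.1).mp w.2, hw1, ha]
      apply Prod.ext
      · show a = w.1.1 ^ 3
        rw [hw1, pow_succ, sq a ha, one_mul]
      · show 1 = w.1.2 ^ 3
        rw [cu _ hw2]
    rw [e]
    exact Subgroup.pow_mem _ hw 3
  have m2 : ∀ b (hb : σ₂ b = 1), (⟨(1, b), by rw [mem_Fib, hb, map_one]⟩ : Fib σ₁ σ₂) ∈
      commutator (Fib σ₁ σ₂) := by
    intro b hb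
    obtain ⟨w, hw, hwb⟩ := exists_comm_of_surj (pr₂ σ₁ σ₂) (pr₂_surj h₁.1) b (h₂.2.2 hb)
    have e : (⟨(1, b), by rw [mem_Fib, hb, map_one]⟩ : Fib σ₁ σ₂) = w ^ 4 := by
      apply Subtype.ext
      have hw2 : w.1.2 = b := hwb
      have hw1 : σ₁ w.1.1 = 1 := by rw [(mem_Fib σ₁ σ₂ w.1).mp w.2, hw2, hb]
      apply Prod.ext
      · show 1 = w.1.1 ^ 4
        rw [show (4 : ℕ) = 2 * 2 from rfl, pow_mul, sq _ hw1, one_pow]
      · show b = w.1.2 ^ 4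
        rw [hw2, pow_succ, cu b hb, one_mul]
    rw [e]
    exact Subgroup.pow_mem _ hw 4
  have kmem : ∀ x : Fib σ₁ σ₂, fibHom σ₁ σ₂ x = 1 → σ₁ x.1.1 = 1 ∧ σ₂ x.1.2 = 1 := by
    intro x hx
    have h : σ₁ x.1.1 = 1 := hx
    exact ⟨h, by rw [← (mem_Fib σ₁ σ₂ x.1).mp x.2, h]⟩
  have hstem : Cfsg.IsStemExtension (fibHom σ₁ σ₂) := by
    refine ⟨?_, ?_, ?_⟩
    · intro g
      obtain ⟨x, hx⟩ := h₁.1 g
      obtain ⟨w, hw⟩ := pr₁_surj (σ₁ := σ₁) h₂.1 x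
      refine ⟨w, ?_⟩
      show σ₁ (pr₁ σ₁ σ₂ w) = g
      rw [hw, hx]
    · intro x hx
      obtain ⟨k1, k2⟩ := kmem x hx
      rw [Subgroup.mem_center_iff]
      intro y
      apply Subtype.ext
      apply Prod.ext
      · exact Subgroup.mem_center_iff.mp (h₁.2.1 k1) y.1.1
      · exact Subgroup.mem_center_iff.mp (h₂.2.1 k2) y.1.2
    · intro x hx
      obtain ⟨k1, k2⟩ := kmem x hx
      have e : x = ⟨(x.1.1, 1), by rw [mem_Fib, k1, map_one]⟩ *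
          ⟨(1, x.1.2), by rw [mem_Fib, k2, map_one]⟩ := by
        apply Subtype.ext
        apply Prod.ext
        · show x.1.1 = x.1.1 * 1
          rw [mul_one]
        · show x.1.2 = 1 * x.1.2
          rw [one_mul]
      rw [e]
      exact Subgroup.mul_mem _ (m1 _ k1) (m2 _ k2)
  refine ⟨hstem, ?_⟩
  -- generators of the two kernels
  have : Fact (Nat.Prime 2) := ⟨Nat.prime_two⟩
  have : Fact (Nat.Prime 3) := ⟨Nat.prime_three⟩
  have cy1 : IsCyclic σ₁.ker := isCyclic_of_prime_card c₁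
  have cy2 : IsCyclic σ₂.ker := isCyclic_of_prime_card c₂
  obtain ⟨a, ha⟩ := cy1.exists_generator
  obtain ⟨b, hb⟩ := cy2.exists_generator
  have oa : orderOf a = 2 := by rw [orderOf_eq_card_of_forall_mem_zpowers ha, c₁]
  have ob : orderOf b = 3 := by rw [orderOf_eq_card_of_forall_mem_zpowers hb, c₂]
  have oa' : orderOf a.1 = 2 := by rw [← oa]; exact Subgroup.orderOf_coe a
  have ob' : orderOf b.1 = 3 := by rw [← ob]; exact Subgroup.orderOf_coe b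
  have a1 : σ₁ a.1 = 1 := a.2
  have b1 : σ₂ b.1 = 1 := b.2
  let g0 : Fib σ₁ σ₂ := ⟨(a.1, b.1), by rw [mem_Fib, a1, b1]⟩
  have g0k : fibHom σ₁ σ₂ g0 = 1 := a1
  let g : (fibHom σ₁ σ₂).ker := ⟨g0, g0k⟩
  have og : orderOf g = 6 := by
    have e1 : orderOf g = orderOf g0 := (Subgroup.orderOf_coe g).symm
    have e2 : orderOf g0 = orderOf (a.1, b.1) := (Subgroup.orderOf_coe g0).symm
    rw [e1, e2, Prod.orderOf, oa', ob']
    rfl
  have gen : ∀ x : (fibHom σ₁ σ₂).ker, x ∈ Subgroup.zpowers g := by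
    intro x
    obtain ⟨k1, k2⟩ := kmem x.1 x.2
    obtain ⟨i, hi⟩ := Subgroup.mem_zpowers_iff.mp (ha ⟨x.1.1.1, k1⟩)
    obtain ⟨j, hj⟩ := Subgroup.mem_zpowers_iff.mp (hb ⟨x.1.1.2, k2⟩)
    have hi' : a.1 ^ i = x.1.1.1 := by
      have := congrArg Subtype.val hi
      rwa [Subgroup.coe_zpow] at this
    have hj' : b.1 ^ j = x.1.1.2 := by
      have := congrArg Subtype.val hj
      rwa [Subgroup.coe_zpow] at this
    rw [Subgroup.mem_zpowers_iff]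
    refine ⟨3 * i + 4 * j, ?_⟩
    apply Subtype.ext
    apply Subtype.ext
    have a2 : a.1 ^ (2 : ℤ) = 1 := by
      rw [show (2 : ℤ) = ((2 : ℕ) : ℤ) from rfl, zpow_natCast]; exact sq _ a1
    have b3 : b.1 ^ (3 : ℤ) = 1 := by
      rw [show (3 : ℤ) = ((3 : ℕ) : ℤ) from rfl, zpow_natCast]; exact cu _ b1
    apply Prod.ext
    · show a.1 ^ (3 * i + 4 * j) = x.1.1.1
      rw [← hi', show 3 * i + 4 * j = 2 * (i + 2 * j) + i by ring, zpow_add, zpow_mul, a2,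
        one_zpow, one_mul]
    · show b.1 ^ (3 * i + 4 * j) = x.1.1.2
      rw [← hj', show 3 * i + 4 * j = 3 * (i + j) + j by ring, zpow_add, zpow_mul, b3,
        one_zpow, one_mul]
  have hcyc : IsCyclic (fibHom σ₁ σ₂).ker := ⟨g, gen⟩
  have hc : Nat.card (fibHom σ₁ σ₂).ker = 6 := by
    rw [← orderOf_eq_card_of_forall_mem_zpowers gen, og]
  have e := zmodCyclicMulEquiv hcyc
  rw [hc] at e
  exact ⟨e.symm⟩

end fibre

/-! ### permutations from involutive functions -/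

def invPerm (N : ℕ) (f : ℕ → ℕ) (h : ∀ j, j < N → f j < N ∧ f (f j) = j) : Equiv.Perm (Fin N) where
  toFun j := ⟨f j.1, (h j.1 j.2).1⟩
  invFun j := ⟨f j.1, (h j.1 j.2).1⟩
  left_inv j := Fin.ext (h j.1 j.2).2
  right_inv j := Fin.ext (h j.1 j.2).2

theorem invPerm_apply (N : ℕ) (f : ℕ → ℕ) (h : ∀ j, j < N → f j < N ∧ f (f j) = j) (j : Fin N) :
    (invPerm N f h j).val = f j.val := rfl

noncomputable def walk {α : Type*} (f : α → ℕ → ℕ) (w : List α) : ℕ → ℕ :=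
  List.rec (fun j => j) (fun s _ ih j => Cfsg.Agent.Lib.Helper35TC.strict (ih j) (f s)) w

theorem walk_nil {α : Type*} (f : α → ℕ → ℕ) (j : ℕ) : walk f [] j = j := rfl

theorem walk_cons {α : Type*} (f : α → ℕ → ℕ) (s : α) (w : List α) (j : ℕ) :
    walk f (s :: w) j = f s (walk f w j) := by
  show Cfsg.Agent.Lib.Helper35TC.strict (walk f w j) (f s) = _
  rw [Cfsg.Agent.Lib.Helper35TC.strict_eq]

theorem prod_apply {α : Type*} {N : ℕ} (v : α → Equiv.Perm (Fin N)) (f : α → ℕ → ℕ)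
    (hv : ∀ s j, (v s j).val = f s j.val) :
    ∀ (w : List α) (j : Fin N), ((w.map v).prod j).val = walk f w j.val
  | [], _ => rfl
  | s :: w, j => by
    rw [List.map_cons, List.prod_cons, Equiv.Perm.mul_apply, hv, prod_apply v f hv w j, walk_cons]

theorem prod_eq_prod {α : Type*} {N : ℕ} (v : α → Equiv.Perm (Fin N)) (f : α → ℕ → ℕ)
    (hv : ∀ s j, (v s j).val = f s j.val) (w w' : List α)
    (h : ∀ j, j < N → walk f w j = walk f w' j) : (w.map v).prod = (w'.map v).prod := by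
  ext j
  rw [prod_apply v f hv, prod_apply v f hv, h j.1 j.2]

theorem prod_eq_one {α : Type*} {N : ℕ} (v : α → Equiv.Perm (Fin N)) (f : α → ℕ → ℕ)
    (hv : ∀ s j, (v s j).val = f s j.val) (w : List α) (h : ∀ j, j < N → walk f w j = j) :
    (w.map v).prod = 1 := by
  ext j
  rw [prod_apply v f hv, h j.1 j.2]
  rfl

end Cfsg.Agent.Lib.Helper47StemC
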