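import Cfsg.Prelude.Def_Steinberg
import Cfsg.Prelude.Def_ChevG2
import Cfsg.Agent.Lib.Helper47StemB
import Cfsg.Agent.Lib.Helper47StemC
import Cfsg.Agent.Lib.Helper63PCTabDefs
import Cfsg.Agent.Lib.Helper35TCd

set_option autoImplicit false

/-! Tabled permutations satisfying the Steinberg relators of type `G₂` over the field with three
elements up to a central permutation: a kernel check, the permutation model and the cover. -/

namespace Cfsg.Agent.Lib.Helper47StG2

open Cfsg.Lie Cfsg.Agent.Lib.Helper35TC Cfsg.Agent.Lib.Helper47StemC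
  Cfsg.Agent.Lib.Helper63PCTabDefs

abbrev Lt := ℕ × ZMod 3

abbrev St := chevG2.SteinbergGroup (ZMod 3)

/-- action of a letter: `(r, t)` with `r < 12` is a root element, `(12, k)` the central element -/
def act (B : ℕ) (tab : ℕ → ℕ → ℕ) (p : Lt) (j : ℕ) : ℕ := lk B (tab p.1 p.2.val) j

/-- walk along a list of tables -/
noncomputable def walkT (B : ℕ) (l : List ℕ) : ℕ → ℕ :=
  List.rec (fun j => j) (fun T _ ih j => strict (ih j) (lk B T)) l

theorem walkT_map (B : ℕ) (tab : ℕ → ℕ → ℕ) : ∀ (w : List Lt) (j : ℕ),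
    walkT B (w.map (fun p => tab p.1 p.2.val)) j = walk (act B tab) w j
  | [], _ => rfl
  | p :: w, j => by
    rw [walk_cons, ← walkT_map B tab w j]
    show strict (walkT B (w.map (fun p => tab p.1 p.2.val)) j) (lk B (tab p.1 p.2.val)) = _
    rw [strict_eq]
    rfl

/-- evaluate the tables of a word once -/
noncomputable def nrm (tab : ℕ → ℕ → ℕ) (w : List Lt) : (List ℕ → Bool) → Bool :=
  List.rec (fun k => k []) (fun p _ ih k => strict (tab p.1 p.2.val) (fun T => ih (fun l => k (T :: l)))) w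

theorem nrm_eq (tab : ℕ → ℕ → ℕ) : ∀ (w : List Lt) (k : List ℕ → Bool),
    nrm tab w k = k (w.map (fun p => tab p.1 p.2.val))
  | [], _ => rfl
  | p :: w, k => by
    show strict (tab p.1 p.2.val) (fun T => nrm tab w (fun l => k (T :: l))) = _
    rw [strict_eq, nrm_eq tab w]
    rfl

noncomputable def chkEq (N dep B : ℕ) (tab : ℕ → ℕ → ℕ) (w w' : List Lt) : Bool :=
  nrm tab w (fun l => nrm tab w' (fun l' =>
    allD (fun j => Nat.ble N j || Nat.beq (walkT B l j) (walkT B l' j)) dep 0))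

noncomputable def chkInv (N dep B : ℕ) (tab : ℕ → ℕ → ℕ) (p : Lt) : Bool :=
  strict (tab p.1 p.2.val) (fun T => strict (tab p.1 (-p.2).val) (fun T' =>
    allD (fun j => Nat.ble N j || (Nat.ble (lk B T j + 1) N &&
      Nat.beq (lk B T' (lk B T j)) j)) dep 0))

noncomputable def chkK (N dep B : ℕ) (tab : ℕ → ℕ → ℕ) (w w1 w2 : List Lt) : Bool :=
  chkEq N dep B tab w (w1 ++ (12, 0) :: w2) || (chkEq N dep B tab w (w1 ++ (12, 1) :: w2) ||
    chkEq N dep B tab w (w1 ++ (12, 2) :: w2))

structure OK (N dep B : ℕ) (tab : ℕ → ℕ → ℕ) : Prop where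
  hN : N ≤ 2 ^ dep
  dflt : ∀ r, 13 ≤ r → ∀ t, tab r t = tab 12 0
  inv : ∀ r < 13, ∀ t : ZMod 3, chkInv N dep B tab (r, t) = true
  r1 : ∀ r < 12, ∀ t₁ t₂ : ZMod 3, chkK N dep B tab [(r, t₁), (r, t₂)] [] [(r, t₁ + t₂)] = true
  r2 : ∀ r < 12, ∀ s < 12, ∀ t u : ZMod 3, s ≠ r → s ≠ chevG2.neg r →
    chkK N dep B tab [(s, u), (r, t)] [(r, t), (s, u)] (chevG2.commWord (ZMod 3) r s t u) = true
  r3 : ∀ r < 12, ∀ t₁ t₂ : ZMod 3, t₁ ≠ 0 → t₂ ≠ 0 →
    chkK N dep B tab (chevG2.hWord r t₁ ++ chevG2.hWord r t₂) [] (chevG2.hWord r (t₁ * t₂)) = true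

variable {N dep B : ℕ} {tab : ℕ → ℕ → ℕ}

theorem act_valid0 (h : OK N dep B tab) (r : ℕ) (hr : r < 13) (t : ZMod 3) (j : ℕ) (hj : j < N) :
    act B tab (r, t) j < N ∧ act B tab (r, -t) (act B tab (r, t) j) = j := by
  have h0 := h.inv r hr t
  unfold chkInv at h0
  rw [strict_eq, strict_eq] at h0
  have h1 := all_of_allD _ dep N h.hN h0 j hj
  rw [Bool.or_eq_true, Bool.and_eq_true, Nat.ble_eq, Nat.ble_eq, Nat.beq_eq] at h1
  rcases h1 with h1 | h1
  · omega
  · exact ⟨by have := h1.1; unfold act; omega, h1.2⟩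

theorem act_valid (h : OK N dep B tab) (p : Lt) (j : ℕ) (hj : j < N) :
    act B tab p j < N ∧ act B tab (p.1, -p.2) (act B tab p j) = j := by
  obtain ⟨r, t⟩ := p
  by_cases hp : r < 13
  · exact act_valid0 h r hp t j hj
  · have h0 := act_valid0 h 12 (by norm_num) 0 j hj
    rw [neg_zero] at h0
    have e : ∀ (t' : ZMod 3) (i : ℕ), act B tab (r, t') i = act B tab (12, 0) i := by
      intro t' i
      unfold act
      rw [h.dflt r (by omega)]
      rfl
    show act B tab (r, t) j < N ∧ act B tab (r, -t) (act B tab (r, t) j) = j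
    rw [e, e]
    exact h0

noncomputable def vv (h : OK N dep B tab) (p : Lt) : Equiv.Perm (Fin N) where
  toFun j := ⟨act B tab p j.1, (act_valid h p j.1 j.2).1⟩
  invFun j := ⟨act B tab (p.1, -p.2) j.1, (act_valid h (p.1, -p.2) j.1 j.2).1⟩
  left_inv j := Fin.ext (act_valid h p j.1 j.2).2
  right_inv j := Fin.ext (by
    have h1 := (act_valid h (p.1, -p.2) j.1 j.2).2
    simp only [neg_neg] at h1
    exact h1)

theorem vv_apply (h : OK N dep B tab) (p : Lt) (j : Fin N) : (vv h p j).val = act B tab p j.val :=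
  rfl

theorem eq_of_chk (h : OK N dep B tab) (w w' : List Lt) (hc : chkEq N dep B tab w w' = true) :
    (w.map (vv h)).prod = (w'.map (vv h)).prod := by
  apply prod_eq_prod (vv h) (act B tab) (vv_apply h)
  intro j hj
  unfold chkEq at hc
  rw [nrm_eq, nrm_eq] at hc
  have h1 := all_of_allD _ dep N h.hN hc j hj
  rw [Bool.or_eq_true, Nat.ble_eq, Nat.beq_eq, walkT_map, walkT_map] at h1
  rcases h1 with h1 | h1
  · omega
  · exact h1

theorem of_chkK (h : OK N dep B tab) (w w1 w2 : List Lt) (hc : chkK N dep B tab w w1 w2 = true) :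
    ∃ k : ZMod 3, (w.map (vv h)).prod
      = (w1.map (vv h)).prod * vv h (12, k) * (w2.map (vv h)).prod := by
  unfold chkK at hc
  rw [Bool.or_eq_true, Bool.or_eq_true] at hc
  rcases hc with hc | hc | hc
  · refine ⟨0, ?_⟩
    rw [eq_of_chk h _ _ hc, List.map_append, List.prod_append, List.map_cons, List.prod_cons,
      mul_assoc]
  · refine ⟨1, ?_⟩
    rw [eq_of_chk h _ _ hc, List.map_append, List.prod_append, List.map_cons, List.prod_cons,
      mul_assoc]
  · refine ⟨2, ?_⟩
    rw [eq_of_chk h _ _ hc, List.map_append, List.prod_append, List.map_cons, List.prod_cons,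
      mul_assoc]

noncomputable def ff (h : OK N dep B tab) : Fin chevG2.nroots × ZMod 3 → Equiv.Perm (Fin N) :=
  fun a => vv h (a.1.val, a.2)

theorem lift_stX (h : OK N dep B tab) (r : ℕ) (hr : r < 12) (t : ZMod 3) :
    FreeGroup.lift (ff h) (chevG2.stX r t) = vv h (r, t) := by
  have hr' : r < chevG2.nroots := hr
  unfold ChevalleyDatum.stX
  rw [dif_pos hr', FreeGroup.lift_apply_of]
  rfl

theorem lift_stWord (h : OK N dep B tab) : ∀ (w : List Lt), (∀ p ∈ w, p.1 < 12) →
    FreeGroup.lift (ff h) (chevG2.stWord w) = (w.map (vv h)).prod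
  | [], _ => by simp [ChevalleyDatum.stWord]
  | p :: w, hw => by
    have h1 := lift_stWord h w (fun q hq => hw q (List.mem_cons_of_mem _ hq))
    unfold ChevalleyDatum.stWord at h1 ⊢
    rw [List.map_cons, List.prod_cons, map_mul, h1, lift_stX h p.1 (hw p List.mem_cons_self),
      List.map_cons, List.prod_cons]

theorem cw_lt : ∀ r < 12, ∀ s < 12, ∀ t u : ZMod 3,
    (chevG2.commWord (ZMod 3) r s t u).all (fun p => decide (p.1 < 12)) = true := by
  decide +kernel

theorem hw_lt : ∀ r < 12, ∀ t : ZMod 3,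
    (chevG2.hWord r t).all (fun p => decide (p.1 < 12)) = true := by
  decide +kernel

theorem lt_of_all {w : List Lt} (h : w.all (fun p => decide (p.1 < 12)) = true) :
    ∀ p ∈ w, p.1 < 12 := by
  intro p hp
  have := List.all_eq_true.mp h p hp
  exact of_decide_eq_true this

theorem rel_mem (h : OK N dep B tab) : ∀ rel ∈ chevG2.steinbergRels (ZMod 3),
    ∃ k : ZMod 3, FreeGroup.lift (ff h) rel = vv h (12, k) := by
  rintro rel ((⟨r, t₁, t₂, hr, rfl⟩ | ⟨r, s, t, u, hr, hs, hsr, hsn, rfl⟩) |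
    ⟨r, t₁, t₂, hr, h1, h2, rfl⟩)
  · obtain ⟨k, hk⟩ := of_chkK h _ _ _ (h.r1 r hr t₁ t₂)
    refine ⟨k, ?_⟩
    rw [map_mul, map_mul, map_inv, lift_stX h r hr, lift_stX h r hr, lift_stX h r hr]
    simp only [List.map_cons, List.map_nil, List.prod_cons, List.prod_nil, mul_one, one_mul] at hk
    rw [hk, mul_inv_cancel_right]
  · obtain ⟨k, hk⟩ := of_chkK h _ _ _ (h.r2 r hr s hs t u hsr hsn)
    refine ⟨k, ?_⟩
    rw [map_mul, map_mul, map_mul, map_mul, map_inv, map_inv, map_inv, lift_stX h r hr,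
      lift_stX h s hs, lift_stWord h _ (lt_of_all (cw_lt r hr s hs t u))]
    simp only [List.map_cons, List.map_nil, List.prod_cons, List.prod_nil, mul_one] at hk
    generalize ((chevG2.commWord (ZMod 3) r s t u).map (vv h)).prod = c at hk ⊢
    generalize vv h (s, u) = a at hk ⊢
    generalize vv h (r, t) = b at hk ⊢
    calc a⁻¹ * b⁻¹ * a * b * c⁻¹ = a⁻¹ * b⁻¹ * (a * b) * c⁻¹ := by group
      _ = vv h (12, k) := by rw [hk]; group
  · obtain ⟨k, hk⟩ := of_chkK h _ _ _ (h.r3 r hr t₁ t₂ h1 h2)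
    refine ⟨k, ?_⟩
    unfold ChevalleyDatum.stH
    rw [map_mul, map_mul, map_inv, lift_stWord h _ (lt_of_all (hw_lt r hr t₁)),
      lift_stWord h _ (lt_of_all (hw_lt r hr t₂)), lift_stWord h _ (lt_of_all (hw_lt r hr _))]
    rw [List.map_append, List.prod_append, List.map_nil, List.prod_nil, one_mul] at hk
    rw [hk, mul_inv_cancel_right]

/-! ### the model -/

theorem rel_one (h : OK N dep B tab) (triv : ∀ k : ZMod 3, chkEq N dep B tab [(12, k)] [] = true) :
    ∀ rel ∈ chevG2.steinbergRels (ZMod 3), FreeGroup.lift (ff h) rel = 1 := by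
  intro rel hrel
  obtain ⟨k, hk⟩ := rel_mem h rel hrel
  rw [hk]
  have := eq_of_chk h _ _ (triv k)
  simpa using this

/-! ### the cover -/

theorem stem_of_gens' {α : Type*} {rels : Set (FreeGroup α)}
    (hsimple : IsSimpleGroup (PresentedGroup rels)) {Γ : Type*} [Group Γ] (v : α → Γ)
    (hgen : Subgroup.closure (Set.range v) = ⊤) (Z : Subgroup Γ) (hZc : Z ≤ Subgroup.center Γ)
    (hrel : ∀ r ∈ rels, FreeGroup.lift v r ∈ Z) (hZd : Z ≤ commutator Γ) (hne : Z ≠ ⊤) :
    ∃ σ : Γ →* PresentedGroup rels, Cfsg.IsStemExtension σ ∧ σ.ker = Z := by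
  have : Z.Normal := ⟨fun n hn g => by
    have := Subgroup.mem_center_iff.mp (hZc hn) g
    rw [this, mul_inv_cancel_right]
    exact hn⟩
  have hr : ∀ r ∈ rels, FreeGroup.lift (fun a => (QuotientGroup.mk' Z) (v a)) r = 1 := by
    intro r hr
    have e : FreeGroup.lift (fun a => (QuotientGroup.mk' Z) (v a))
        = (QuotientGroup.mk' Z).comp (FreeGroup.lift v) := by
      ext a
      simp
    rw [e, MonoidHom.comp_apply]
    exact (QuotientGroup.eq_one_iff _).mpr (hrel r hr)
  let τ : PresentedGroup rels →* Γ ⧸ Z := PresentedGroup.toGroup hr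
  have hτ : ∀ a, τ (PresentedGroup.of a) = (QuotientGroup.mk' Z) (v a) := fun a =>
    PresentedGroup.toGroup.of hr
  have hsurj : Function.Surjective τ := by
    rw [← MonoidHom.range_eq_top, eq_top_iff]
    have h1 : (Subgroup.closure (Set.range v)).map (QuotientGroup.mk' Z) ≤ τ.range := by
      rw [MonoidHom.map_closure, Subgroup.closure_le]
      rintro _ ⟨_, ⟨a, rfl⟩, rfl⟩
      exact ⟨PresentedGroup.of a, hτ a⟩
    rw [hgen] at h1
    intro q _
    obtain ⟨γ, rfl⟩ := QuotientGroup.mk'_surjective Z q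
    exact h1 ⟨γ, trivial, rfl⟩
  have hinj : Function.Injective τ := by
    rw [← MonoidHom.ker_eq_bot_iff]
    rcases hsimple.eq_bot_or_eq_top_of_normal τ.ker inferInstance with h | h
    · exact h
    · exfalso
      apply hne
      rw [eq_top_iff]
      intro γ _
      obtain ⟨g, hg⟩ := hsurj ((QuotientGroup.mk' Z) γ)
      have : τ g = 1 := by
        have : g ∈ τ.ker := by rw [h]; trivial
        exact this
      rw [this] at hg
      exact (QuotientGroup.eq_one_iff γ).mp hg.symm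
  let e : PresentedGroup rels ≃* Γ ⧸ Z := MulEquiv.ofBijective τ ⟨hinj, hsurj⟩
  let σ : Γ →* PresentedGroup rels := e.symm.toMonoidHom.comp (QuotientGroup.mk' Z)
  have hker : σ.ker = Z := by
    ext γ
    rw [MonoidHom.mem_ker]
    show e.symm ((QuotientGroup.mk' Z) γ) = 1 ↔ _
    rw [MulEquiv.map_eq_one_iff]
    exact QuotientGroup.eq_one_iff γ
  refine ⟨σ, ⟨?_, ?_, ?_⟩, hker⟩
  · exact e.symm.surjective.comp (QuotientGroup.mk'_surjective Z)
  · rw [hker]; exact hZc
  · rw [hker]; exact hZd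

theorem k3 : ∀ k : ZMod 3, k = 0 ∨ k = 1 ∨ k = 2 := by decide

theorem cover (h : OK N dep B tab) (hsimple : IsSimpleGroup St)
    (cen : ∀ r < 12, ∀ t : ZMod 3, chkEq N dep B tab [(12, 1), (r, t)] [(r, t), (12, 1)] = true)
    (pw0 : chkEq N dep B tab [(12, 0)] [] = true)
    (pw2 : chkEq N dep B tab [(12, 2)] [(12, 1), (12, 1)] = true)
    (pw3 : chkEq N dep B tab [(12, 1), (12, 1), (12, 1)] [] = true)
    (hN0 : 0 < N) (ne : Nat.beq (act B tab (12, 1) 0) 0 = false)
    (r0 s0 : ℕ) (hr0 : r0 < 12) (hs0 : s0 < 12)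
    (wit : chkEq N dep B tab [(s0, 1), (r0, 1)] [(r0, 1), (s0, 1), (12, 1)] = true) :
    ∃ (Γ : Type) (_ : Group Γ) (_ : Finite Γ) (σ : Γ →* St),
      Cfsg.IsStemExtension σ ∧ Nat.card σ.ker = 3 := by
  let Gam : Subgroup (Equiv.Perm (Fin N)) := Subgroup.closure (Set.range (ff h))
  let v : Fin chevG2.nroots × ZMod 3 → Gam := fun a => ⟨ff h a, Subgroup.subset_closure ⟨a, rfl⟩⟩
  have hgen : Subgroup.closure (Set.range v) = ⊤ := by
    have h0 := Subgroup.closure_closure_coe_preimage (k := Set.range (ff h))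
    have e : (Set.range v) =
        ((↑) : Subgroup.closure (Set.range (ff h)) → Equiv.Perm (Fin N)) ⁻¹' Set.range (ff h) := by
      ext x
      constructor
      · rintro ⟨s, rfl⟩
        exact ⟨s, rfl⟩
      · rintro ⟨s, hs⟩
        exact ⟨s, Subtype.ext hs⟩
    rw [e]
    exact h0
  set tau : Equiv.Perm (Fin N) := vv h (12, 1) with htau
  let A : Gam := v (⟨s0, hs0⟩, 1)
  let Bb : Gam := v (⟨r0, hr0⟩, 1)
  let tt : Gam := A⁻¹ * Bb⁻¹ * A * Bb
  have hwit : A.1 * Bb.1 = Bb.1 * A.1 * tau := by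
    have := eq_of_chk h _ _ wit
    simp only [List.map_cons, List.map_nil, List.prod_cons, List.prod_nil, mul_one] at this
    rw [mul_assoc]
    exact this
  have htt : tt.1 = tau := by
    show A.1⁻¹ * Bb.1⁻¹ * A.1 * Bb.1 = tau
    calc A.1⁻¹ * Bb.1⁻¹ * A.1 * Bb.1 = A.1⁻¹ * Bb.1⁻¹ * (A.1 * Bb.1) := by group
      _ = tau := by rw [hwit]; group
  have hcomm : ∀ a, tt * v a = v a * tt := by
    intro a
    apply Subtype.ext
    show tt.1 * ff h a = ff h a * tt.1
    rw [htt]
    have := eq_of_chk h _ _ (cen a.1.val a.1.isLt a.2)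
    simp only [List.map_cons, List.map_nil, List.prod_cons, List.prod_nil, mul_one] at this
    exact this
  have hcube : tt ^ 3 = 1 := by
    apply Subtype.ext
    show tt.1 ^ 3 = 1
    rw [htt]
    have := eq_of_chk h _ _ pw3
    simp only [List.map_cons, List.map_nil, List.prod_cons, List.prod_nil, mul_one] at this
    rw [pow_succ, pow_two, mul_assoc]
    exact this
  have hne1 : tt ≠ 1 := by
    intro h1
    have h2 : tau = 1 := by rw [← htt, h1]; rfl
    have h3 : (tau ⟨0, hN0⟩).val = act B tab (12, 1) 0 := rfl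
    rw [h2] at h3
    have h4 : act B tab (12, 1) 0 = 0 := h3.symm
    rw [h4] at ne
    simp at ne
  have horder : orderOf tt = 3 := by
    have : Fact (Nat.Prime 3) := ⟨Nat.prime_three⟩
    exact orderOf_eq_prime hcube hne1
  have hcentral : tt ∈ Subgroup.center Gam := by
    have key : (⊤ : Subgroup Gam) ≤ Subgroup.centralizer {tt} := by
      rw [← hgen, Subgroup.closure_le]
      rintro _ ⟨s, rfl⟩
      rw [SetLike.mem_coe, Subgroup.mem_centralizer_singleton_iff]
      exact (hcomm s).symm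
    rw [Subgroup.mem_center_iff]
    intro g
    exact Subgroup.mem_centralizer_singleton_iff.mp (key (Subgroup.mem_top g))
  let ZZ : Subgroup Gam := Subgroup.zpowers tt
  have hZc : ZZ ≤ Subgroup.center Gam := by
    rw [Subgroup.zpowers_le]
    exact hcentral
  have hZd : ZZ ≤ commutator Gam := by
    rw [Subgroup.zpowers_le, commutator_def]
    have h6 := Subgroup.commutator_mem_commutator (Subgroup.mem_top A⁻¹) (Subgroup.mem_top Bb⁻¹)
    rw [commutatorElement_def, inv_inv, inv_inv] at h6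
    exact h6
  have hZne : ZZ ≠ ⊤ := by
    intro htop
    apply hne1
    have hB : Bb ∈ Subgroup.center Gam := hZc (by rw [htop]; trivial)
    have h5 := Subgroup.mem_center_iff.mp hB A
    show A⁻¹ * Bb⁻¹ * A * Bb = 1
    rw [mul_assoc, h5]
    group
  have hsub : ∀ w, (FreeGroup.lift v w).1 = FreeGroup.lift (ff h) w := by
    intro w
    have : Gam.subtype.comp (FreeGroup.lift v) = FreeGroup.lift (ff h) := by
      ext a
      simp [v]
    exact DFunLike.congr_fun this w
  have hrel : ∀ r ∈ chevG2.steinbergRels (ZMod 3), FreeGroup.lift v r ∈ ZZ := by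
    intro r hr
    obtain ⟨k, hk⟩ := rel_mem h r hr
    have hk3 : k = 0 ∨ k = 1 ∨ k = 2 := k3 k
    rcases hk3 with rfl | rfl | rfl
    · have : FreeGroup.lift v r = 1 := by
        apply Subtype.ext
        rw [hsub, hk]
        have := eq_of_chk h _ _ pw0
        simpa using this
      rw [this]
      exact Subgroup.one_mem _
    · have : FreeGroup.lift v r = tt := by
        apply Subtype.ext
        rw [hsub, hk, htt]
      rw [this]
      exact Subgroup.mem_zpowers tt
    · have : FreeGroup.lift v r = tt * tt := by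
        apply Subtype.ext
        rw [hsub, hk]
        show _ = tt.1 * tt.1
        rw [htt]
        have := eq_of_chk h _ _ pw2
        simpa using this
      rw [this]
      exact Subgroup.mul_mem _ (Subgroup.mem_zpowers tt) (Subgroup.mem_zpowers tt)
  obtain ⟨σ, hσ, hker⟩ := stem_of_gens' hsimple v hgen ZZ hZc hrel hZd hZne
  refine ⟨Gam, inferInstance, inferInstance, σ, hσ, ?_⟩
  rw [hker, Nat.card_zpowers, horder]

end Cfsg.Agent.Lib.Helper47StG2
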