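import Cfsg.Agent.Lib.Helper47StG2
import Cfsg.Agent.Lib.Helper18F4

set_option autoImplicit false

/-! Tabled permutations satisfying the Steinberg relators of type `G₂` over the field with four
elements: a kernel check and the permutation model. -/

namespace Cfsg.Agent.Lib.Helper47StG4

open Cfsg.Lie Cfsg.Agent.Lib.Helper35TC Cfsg.Agent.Lib.Helper47StemC
  Cfsg.Agent.Lib.Helper63PCTabDefs Cfsg.Agent.Lib.Helper18F4 Cfsg.Agent.Lib.Helper47StG2

abbrev Lt4 := ℕ × F4c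

abbrev St4 := chevG2.SteinbergGroup F4c

def cd (t : F4c) : ℕ := (bif t.a then 1 else 0) + (bif t.b then 2 else 0)

def act4 (B : ℕ) (tab : ℕ → ℕ → ℕ) (p : Lt4) (j : ℕ) : ℕ := lk B (tab p.1 (cd p.2)) j

theorem walkT_map4 (B : ℕ) (tab : ℕ → ℕ → ℕ) : ∀ (w : List Lt4) (j : ℕ),
    walkT B (w.map (fun p => tab p.1 (cd p.2))) j = walk (act4 B tab) w j
  | [], _ => rfl
  | p :: w, j => by
    rw [walk_cons, ← walkT_map4 B tab w j]
    show strict (walkT B (w.map (fun p => tab p.1 (cd p.2))) j) (lk B (tab p.1 (cd p.2))) = _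
    rw [strict_eq]
    rfl

noncomputable def nrm4 (tab : ℕ → ℕ → ℕ) (w : List Lt4) : (List ℕ → Bool) → Bool :=
  List.rec (fun k => k []) (fun p _ ih k => strict (tab p.1 (cd p.2)) (fun T => ih (fun l => k (T :: l)))) w

theorem nrm4_eq (tab : ℕ → ℕ → ℕ) : ∀ (w : List Lt4) (k : List ℕ → Bool),
    nrm4 tab w k = k (w.map (fun p => tab p.1 (cd p.2)))
  | [], _ => rfl
  | p :: w, k => by
    show strict (tab p.1 (cd p.2)) (fun T => nrm4 tab w (fun l => k (T :: l))) = _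
    rw [strict_eq, nrm4_eq tab w]
    rfl

noncomputable def chkEq4 (N dep B : ℕ) (tab : ℕ → ℕ → ℕ) (w w' : List Lt4) : Bool :=
  nrm4 tab w (fun l => nrm4 tab w' (fun l' =>
    allD (fun j => Nat.ble N j || Nat.beq (walkT B l j) (walkT B l' j)) dep 0))

noncomputable def chkInv4 (N dep B : ℕ) (tab : ℕ → ℕ → ℕ) (p : Lt4) : Bool :=
  strict (tab p.1 (cd p.2)) (fun T =>
    allD (fun j => Nat.ble N j || (Nat.ble (lk B T j + 1) N &&
      Nat.beq (lk B T (lk B T j)) j)) dep 0)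

structure OK4 (N dep B : ℕ) (tab : ℕ → ℕ → ℕ) : Prop where
  hN : N ≤ 2 ^ dep
  dflt : ∀ r, 12 ≤ r → ∀ t, tab r t = tab 0 0
  inv : ∀ r < 12, ∀ t : F4c, chkInv4 N dep B tab (r, t) = true
  r1 : ∀ r < 12, ∀ t₁ t₂ : F4c, chkEq4 N dep B tab [(r, t₁), (r, t₂)] [(r, t₁ + t₂)] = true
  r2 : ∀ r < 12, ∀ s < 12, ∀ t u : F4c, s ≠ r → s ≠ chevG2.neg r →
    chkEq4 N dep B tab [(s, u), (r, t)] ((r, t) :: (s, u) :: chevG2.commWord F4c r s t u) = true
  r3 : ∀ r < 12, ∀ t₁ t₂ : F4c, t₁ ≠ 0 → t₂ ≠ 0 →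
    chkEq4 N dep B tab (chevG2.hWord r t₁ ++ chevG2.hWord r t₂) (chevG2.hWord r (t₁ * t₂)) = true

variable {N dep B : ℕ} {tab : ℕ → ℕ → ℕ}

theorem act_valid0 (h : OK4 N dep B tab) (r : ℕ) (hr : r < 12) (t : F4c) (j : ℕ) (hj : j < N) :
    act4 B tab (r, t) j < N ∧ act4 B tab (r, t) (act4 B tab (r, t) j) = j := by
  have h0 := h.inv r hr t
  unfold chkInv4 at h0
  rw [strict_eq] at h0
  have h1 := all_of_allD _ dep N h.hN h0 j hj
  rw [Bool.or_eq_true, Bool.and_eq_true, Nat.ble_eq, Nat.ble_eq, Nat.beq_eq] at h1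
  rcases h1 with h1 | h1
  · omega
  · exact ⟨by have := h1.1; unfold act4; omega, h1.2⟩

theorem act_valid (h : OK4 N dep B tab) (p : Lt4) (j : ℕ) (hj : j < N) :
    act4 B tab p j < N ∧ act4 B tab p (act4 B tab p j) = j := by
  obtain ⟨r, t⟩ := p
  by_cases hp : r < 12
  · exact act_valid0 h r hp t j hj
  · have h0 := act_valid0 h 0 (by norm_num) 0 j hj
    have e : ∀ (i : ℕ), act4 B tab (r, t) i = act4 B tab (0, 0) i := by
      intro i
      unfold act4
      rw [h.dflt r (by omega)]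
      rfl
    rw [e, e]
    exact h0

noncomputable def vv4 (h : OK4 N dep B tab) (p : Lt4) : Equiv.Perm (Fin N) :=
  invPerm N (act4 B tab p) (act_valid h p)

theorem vv4_apply (h : OK4 N dep B tab) (p : Lt4) (j : Fin N) :
    (vv4 h p j).val = act4 B tab p j.val := rfl

theorem eq_of_chk4 (h : OK4 N dep B tab) (w w' : List Lt4) (hc : chkEq4 N dep B tab w w' = true) :
    (w.map (vv4 h)).prod = (w'.map (vv4 h)).prod := by
  apply prod_eq_prod (vv4 h) (act4 B tab) (vv4_apply h)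
  intro j hj
  unfold chkEq4 at hc
  rw [nrm4_eq, nrm4_eq] at hc
  have h1 := all_of_allD _ dep N h.hN hc j hj
  rw [Bool.or_eq_true, Nat.ble_eq, Nat.beq_eq, walkT_map4, walkT_map4] at h1
  rcases h1 with h1 | h1
  · omega
  · exact h1

noncomputable def ff4 (h : OK4 N dep B tab) : Fin chevG2.nroots × F4c → Equiv.Perm (Fin N) :=
  fun a => vv4 h (a.1.val, a.2)

theorem lift_stX4 (h : OK4 N dep B tab) (r : ℕ) (hr : r < 12) (t : F4c) :
    FreeGroup.lift (ff4 h) (chevG2.stX r t) = vv4 h (r, t) := by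
  have hr' : r < chevG2.nroots := hr
  unfold ChevalleyDatum.stX
  rw [dif_pos hr', FreeGroup.lift_apply_of]
  rfl

theorem lift_stWord4 (h : OK4 N dep B tab) : ∀ (w : List Lt4), (∀ p ∈ w, p.1 < 12) →
    FreeGroup.lift (ff4 h) (chevG2.stWord w) = (w.map (vv4 h)).prod
  | [], _ => by simp [ChevalleyDatum.stWord]
  | p :: w, hw => by
    have h1 := lift_stWord4 h w (fun q hq => hw q (List.mem_cons_of_mem _ hq))
    unfold ChevalleyDatum.stWord at h1 ⊢
    rw [List.map_cons, List.prod_cons, map_mul, h1, lift_stX4 h p.1 (hw p List.mem_cons_self),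
      List.map_cons, List.prod_cons]

theorem cw_lt4 : ∀ r < 12, ∀ s < 12, ∀ t u : F4c,
    (chevG2.commWord F4c r s t u).all (fun p => decide (p.1 < 12)) = true := by
  decide +kernel

theorem hw_lt4 : ∀ r < 12, ∀ t : F4c,
    (chevG2.hWord r t).all (fun p => decide (p.1 < 12)) = true := by
  decide +kernel

theorem lt_of_all4 {w : List Lt4} (h : w.all (fun p => decide (p.1 < 12)) = true) :
    ∀ p ∈ w, p.1 < 12 := by
  intro p hp
  have := List.all_eq_true.mp h p hp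
  exact of_decide_eq_true this

theorem rel_one4 (h : OK4 N dep B tab) : ∀ rel ∈ chevG2.steinbergRels F4c,
    FreeGroup.lift (ff4 h) rel = 1 := by
  rintro rel ((⟨r, t₁, t₂, hr, rfl⟩ | ⟨r, s, t, u, hr, hs, hsr, hsn, rfl⟩) |
    ⟨r, t₁, t₂, hr, h1, h2, rfl⟩)
  · have hk := eq_of_chk4 h _ _ (h.r1 r hr t₁ t₂)
    rw [map_mul, map_mul, map_inv, lift_stX4 h r hr, lift_stX4 h r hr, lift_stX4 h r hr]
    simp only [List.map_cons, List.map_nil, List.prod_cons, List.prod_nil, mul_one] at hk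
    rw [hk, mul_inv_cancel]
  · have hk := eq_of_chk4 h _ _ (h.r2 r hr s hs t u hsr hsn)
    rw [map_mul, map_mul, map_mul, map_mul, map_inv, map_inv, map_inv, lift_stX4 h r hr,
      lift_stX4 h s hs, lift_stWord4 h _ (lt_of_all4 (cw_lt4 r hr s hs t u))]
    simp only [List.map_cons, List.map_nil, List.prod_cons, List.prod_nil, mul_one] at hk
    generalize ((chevG2.commWord F4c r s t u).map (vv4 h)).prod = c at hk ⊢
    generalize vv4 h (s, u) = a at hk ⊢
    generalize vv4 h (r, t) = b at hk ⊢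
    calc a⁻¹ * b⁻¹ * a * b * c⁻¹ = a⁻¹ * b⁻¹ * (a * b) * c⁻¹ := by group
      _ = 1 := by rw [hk]; group
  · have hk := eq_of_chk4 h _ _ (h.r3 r hr t₁ t₂ h1 h2)
    unfold ChevalleyDatum.stH
    rw [map_mul, map_mul, map_inv, lift_stWord4 h _ (lt_of_all4 (hw_lt4 r hr t₁)),
      lift_stWord4 h _ (lt_of_all4 (hw_lt4 r hr t₂)), lift_stWord4 h _ (lt_of_all4 (hw_lt4 r hr _))]
    rw [List.map_append, List.prod_append] at hk
    rw [hk, mul_inv_cancel]

end Cfsg.Agent.Lib.Helper47StG4
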