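import Cfsg.Agent.Lib.Helper35TC
import Cfsg.Agent.Lib.Helper69Schur

set_option autoImplicit false

/-! Central extensions of a group with a class of involutions whose centralisers lift:
canonical lifts of the class, Hurwitz moves, and a checker for reductions of words in the class. -/

namespace Cfsg.Agent.Lib.Helper47StemA

open Cfsg.Agent.Lib.Helper35TC

section lift

variable {Γ G : Type*} [Group Γ] [Group G] (σ : Γ →* G) (z : G) (ζ : Γ)

/-- the hypotheses: `ζ` lifts the involution `z`, and lifts of the centraliser of `z`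
centralise `ζ` -/
structure Hyp : Prop where
  ker : σ.ker ≤ Subgroup.center Γ
  hζ : σ ζ = z
  sq : z * z = 1
  cen : ∀ γ : Γ, σ γ * z = z * σ γ → γ * ζ = ζ * γ

def IsT (d : G) : Prop := ∃ γ : Γ, d = σ γ * z * (σ γ)⁻¹

open Classical in
/-- the canonical lift of a conjugate of `z` -/
noncomputable def Lc (d : G) : Γ :=
  if h : IsT σ z d then Classical.choose h * ζ * (Classical.choose h)⁻¹ else 1

variable {σ z ζ}

theorem Lc_eq (H : Hyp σ z ζ) (γ : Γ) : Lc σ z ζ (σ γ * z * (σ γ)⁻¹) = γ * ζ * γ⁻¹ := by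
  have h : IsT σ z (σ γ * z * (σ γ)⁻¹) := ⟨γ, rfl⟩
  rw [Lc, dif_pos h]
  have hs := Classical.choose_spec h
  set γ' := Classical.choose h
  have h1 : σ (γ⁻¹ * γ') * z = z * σ (γ⁻¹ * γ') := by
    rw [map_mul, map_inv]
    calc (σ γ)⁻¹ * σ γ' * z = (σ γ)⁻¹ * (σ γ' * z * (σ γ')⁻¹) * σ γ' := by group
      _ = (σ γ)⁻¹ * (σ γ * z * (σ γ)⁻¹) * σ γ' := by rw [← hs]
      _ = z * ((σ γ)⁻¹ * σ γ') := by group
  have h2 := H.cen _ h1
  calc γ' * ζ * γ'⁻¹ = γ * (γ⁻¹ * γ' * ζ) * γ'⁻¹ := by group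
    _ = γ * (ζ * (γ⁻¹ * γ')) * γ'⁻¹ := by rw [h2]
    _ = γ * ζ * γ⁻¹ := by group

theorem ker_comm (H : Hyp σ z ζ) {a : Γ} (ha : σ a = 1) (γ : Γ) : a * γ = γ * a :=
  (Subgroup.mem_center_iff.mp (H.ker (MonoidHom.mem_ker.mpr ha)) γ).symm

theorem sig_w (H : Hyp σ z ζ) : σ (ζ * ζ) = 1 := by rw [map_mul, H.hζ, H.sq]

theorem w_comm (H : Hyp σ z ζ) (γ : Γ) : ζ * ζ * γ = γ * (ζ * ζ) := ker_comm H (sig_w H) γ

theorem sig_Lc (H : Hyp σ z ζ) {d : G} (hd : IsT σ z d) : σ (Lc σ z ζ d) = d := by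
  obtain ⟨γ, rfl⟩ := hd
  rw [Lc_eq H, map_mul, map_mul, map_inv, H.hζ]

theorem isT_conj {d : G} (hd : IsT σ z d) (η : Γ) : IsT σ z (σ η * d * (σ η)⁻¹) := by
  obtain ⟨γ, rfl⟩ := hd
  exact ⟨η * γ, by rw [map_mul]; group⟩

theorem conj_Lc (H : Hyp σ z ζ) {d : G} (hd : IsT σ z d) (η : Γ) :
    Lc σ z ζ (σ η * d * (σ η)⁻¹) = η * Lc σ z ζ d * η⁻¹ := by
  obtain ⟨γ, rfl⟩ := hd
  have e : σ η * (σ γ * z * (σ γ)⁻¹) * (σ η)⁻¹ = σ (η * γ) * z * (σ (η * γ))⁻¹ := by
    rw [map_mul]; group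
  rw [e, Lc_eq H, Lc_eq H]
  group

theorem Lc_sq (H : Hyp σ z ζ) {d : G} (hd : IsT σ z d) :
    Lc σ z ζ d * Lc σ z ζ d = ζ * ζ := by
  obtain ⟨γ, rfl⟩ := hd
  rw [Lc_eq H]
  calc γ * ζ * γ⁻¹ * (γ * ζ * γ⁻¹) = γ * (ζ * ζ) * γ⁻¹ := by group
    _ = ζ * ζ * γ * γ⁻¹ := by rw [w_comm H]
    _ = ζ * ζ := by group

theorem isT_sq (H : Hyp σ z ζ) {d : G} (hd : IsT σ z d) : d * d = 1 := by
  obtain ⟨γ, rfl⟩ := hd
  calc σ γ * z * (σ γ)⁻¹ * (σ γ * z * (σ γ)⁻¹) = σ γ * (z * z) * (σ γ)⁻¹ := by group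
    _ = 1 := by rw [H.sq]; group

/-- Hurwitz move -/
theorem hur (H : Hyp σ z ζ) {d e : G} (hd : IsT σ z d) (he : IsT σ z e) :
    Lc σ z ζ d * Lc σ z ζ e = Lc σ z ζ e * Lc σ z ζ (e⁻¹ * d * e) := by
  have h := conj_Lc H hd (Lc σ z ζ e)⁻¹
  rw [map_inv, sig_Lc H he, inv_inv] at h
  rw [h]
  group

theorem cox (H : Hyp σ z ζ) {d e : G} (hd : IsT σ z d) (he : IsT σ z e) (m : ℕ)
    (hm : m = 1 ∨ m = 2 ∨ m = 3) (hde : (d * e) ^ m = 1) :
    (Lc σ z ζ d * Lc σ z ζ e) ^ m = (ζ * ζ) ^ m := by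
  have hd2 := isT_sq H hd
  have he2 := isT_sq H he
  have hD := Lc_sq H hd
  have hE := Lc_sq H he
  have hdi : d⁻¹ = d := inv_eq_of_mul_eq_one_left hd2
  have hei : e⁻¹ = e := inv_eq_of_mul_eq_one_left he2
  set D := Lc σ z ζ d with hDdef
  set E := Lc σ z ζ e with hEdef
  set w := ζ * ζ with hw
  have wc : ∀ γ, w * γ = γ * w := w_comm H
  have mv : ∀ a b, a * w * b = w * (a * b) := fun a b => by rw [← wc a, mul_assoc]
  rcases hm with rfl | rfl | rfl
  · rw [pow_one] at hde ⊢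
    have : e = d := by rw [← hdi]; exact (inv_eq_of_mul_eq_one_right hde).symm
    rw [hEdef, this, ← hDdef, hD, pow_one]
  · have h1 : e⁻¹ * d * e = d := by
      rw [hei]
      calc e * d * e = d⁻¹ * ((d * e) ^ 2) := by rw [pow_two]; group
        _ = d := by rw [hde, mul_one, hdi]
    have h2 := hur H hd he
    rw [h1, ← hDdef, ← hEdef] at h2
    calc (D * E) ^ 2 = D * (E * D) * E := by rw [pow_two]; group
      _ = D * (D * E) * E := by rw [h2]
      _ = (D * D) * (E * E) := by group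
      _ = w ^ 2 := by rw [hD, hE, pow_two]
  · have h1 : e⁻¹ * d * e = d⁻¹ * e * d := by
      rw [hei, hdi]
      calc e * d * e = d⁻¹ * ((d * e) ^ 3) * (e⁻¹ * d⁻¹) := by
            rw [pow_succ, pow_two]; group
        _ = d * e * d := by rw [hde, hdi, hei]; group
    have h2 := hur H hd he
    have h3 := hur H he hd
    rw [← h1] at h3
    rw [← hDdef, ← hEdef] at h2 h3
    set R := Lc σ z ζ (e⁻¹ * d * e)
    have hR : R * R = w := Lc_sq H (by
      have := isT_conj hd (Lc σ z ζ e)⁻¹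
      rwa [map_inv, sig_Lc H he, inv_inv] at this)
    calc (D * E) ^ 3 = (D * E) * D * (E * D) * E := by rw [pow_succ, pow_two]; group
      _ = (E * R) * D * (D * R) * E := by rw [h2, h3]
      _ = E * R * (D * D) * R * E := by group
      _ = E * R * w * R * E := by rw [hD]
      _ = w * (E * (R * R) * E) := by rw [mv (E * R) R]; group
      _ = w * (E * w * E) := by rw [hR]
      _ = w * (w * (E * E)) := by rw [mv E E]
      _ = w ^ 3 := by rw [hE, pow_succ, pow_two]; group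

end lift

/-! ### the reduction checker -/

section red

variable (c : ℕ → ℕ → ℕ)

/-- move `x` to the right across `k` letters, then cancel it against the next letter -/
noncomputable def cross : ℕ → ℕ → List ℕ → Option (List ℕ)
  | _, _, [] => none
  | 0, x, y :: rest => bif Nat.beq x y then some rest else none
  | k + 1, x, m :: rest => strict (c m x) fun x' => (cross k x' rest).map (m :: ·)

noncomputable def del1 : ℕ → ℕ → List ℕ → Option (List ℕ)
  | _, _, [] => none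
  | 0, k, x :: rest => cross c k x rest
  | i + 1, k, y :: rest => (del1 i k rest).map (y :: ·)

noncomputable def run : List (ℕ × ℕ) → List ℕ → Option (List ℕ)
  | [], l => some l
  | s :: r, l =>
    match del1 c s.1 s.2 l with
    | none => none
    | some l' => run r l'

noncomputable def chk (cert : List (ℕ × ℕ)) (l : List ℕ) : Bool :=
  match run c cert l with
  | some [] => true
  | _ => false

variable {Γ G : Type*} [Group Γ] [Group G] {σ : Γ →* G} {z : G} {ζ : Γ}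
  (t : ℕ → G) (n : ℕ)

/-- the value of a word -/
noncomputable def ev (σ : Γ →* G) (z : G) (ζ : Γ) (t : ℕ → G) (l : List ℕ) : Γ :=
  (l.map fun v => Lc σ z ζ (t v)).prod

theorem ev_nil : ev σ z ζ t [] = 1 := rfl

theorem ev_cons (v : ℕ) (l : List ℕ) : ev σ z ζ t (v :: l) = Lc σ z ζ (t v) * ev σ z ζ t l := by
  rw [ev, List.map_cons, List.prod_cons]; rfl

theorem ev_append (l l' : List ℕ) : ev σ z ζ t (l ++ l') = ev σ z ζ t l * ev σ z ζ t l' := by
  rw [ev, List.map_append, List.prod_append]; rfl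

theorem ev_rep (l : List ℕ) : ∀ k : ℕ, ev σ z ζ t (List.replicate k l).flatten = ev σ z ζ t l ^ k
  | 0 => by simp [ev_nil]
  | k + 1 => by
    rw [List.replicate_succ, List.flatten_cons, ev_append, ev_rep l k, pow_succ']

variable {c t n}

theorem cross_sound (H : Hyp σ z ζ) (ht : ∀ v, IsT σ z (t v))
    (hc : ∀ m x, m < n → x < n → c m x < n ∧ (t m)⁻¹ * t x * t m = t (c m x)) :
    ∀ (k x : ℕ) (rest r : List ℕ), x < n → (∀ v ∈ rest, v < n) → cross c k x rest = some r →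
      Lc σ z ζ (t x) * ev σ z ζ t rest = ζ * ζ * ev σ z ζ t r ∧ ∀ v ∈ r, v < n
  | _, _, [], _, _, _, h => by simp [cross] at h
  | 0, x, y :: rest, r, _, hr, h => by
    rw [cross] at h
    cases hxy : Nat.beq x y
    · rw [hxy] at h; simp at h
    · rw [hxy] at h
      simp only [cond_true, Option.some.injEq] at h
      subst h
      have : x = y := Nat.eq_of_beq_eq_true hxy
      subst this
      refine ⟨?_, fun v hv => hr v (List.mem_cons_of_mem _ hv)⟩
      rw [ev_cons, ← mul_assoc, Lc_sq H (ht x)]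
  | k + 1, x, m :: rest, r, hx, hr, h => by
    rw [cross, strict_eq] at h
    cases h' : cross c k (c m x) rest with
    | none => rw [h'] at h; simp at h
    | some r' =>
      rw [h'] at h
      simp only [Option.map_some, Option.some.injEq] at h
      subst h
      have hm : m < n := hr m List.mem_cons_self
      obtain ⟨h1, h2⟩ := hc m x hm hx
      obtain ⟨h3, h4⟩ := cross_sound H ht hc k (c m x) rest r' h1
        (fun v hv => hr v (List.mem_cons_of_mem _ hv)) h'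
      refine ⟨?_, ?_⟩
      · rw [ev_cons, ev_cons, ← mul_assoc, hur H (ht x) (ht m), h2, mul_assoc, h3,
          ← mul_assoc, ← mul_assoc (ζ * ζ), w_comm H]
      · intro v hv
        rcases List.mem_cons.mp hv with rfl | hv
        · exact hm
        · exact h4 v hv

theorem del1_sound (H : Hyp σ z ζ) (ht : ∀ v, IsT σ z (t v))
    (hc : ∀ m x, m < n → x < n → c m x < n ∧ (t m)⁻¹ * t x * t m = t (c m x)) :
    ∀ (i k : ℕ) (l r : List ℕ), (∀ v ∈ l, v < n) → del1 c i k l = some r →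
      ev σ z ζ t l = ζ * ζ * ev σ z ζ t r ∧ ∀ v ∈ r, v < n
  | _, _, [], _, _, h => by simp [del1] at h
  | 0, k, x :: rest, r, hl, h => by
    rw [del1] at h
    rw [ev_cons]
    exact cross_sound H ht hc k x rest r (hl x List.mem_cons_self)
      (fun v hv => hl v (List.mem_cons_of_mem _ hv)) h
  | i + 1, k, y :: rest, r, hl, h => by
    rw [del1] at h
    cases h' : del1 c i k rest with
    | none => rw [h'] at h; simp at h
    | some r' =>
      rw [h'] at h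
      simp only [Option.map_some, Option.some.injEq] at h
      subst h
      obtain ⟨h3, h4⟩ := del1_sound H ht hc i k rest r'
        (fun v hv => hl v (List.mem_cons_of_mem _ hv)) h'
      refine ⟨?_, ?_⟩
      · rw [ev_cons, ev_cons, h3, ← mul_assoc, ← mul_assoc (ζ * ζ), w_comm H]
      · intro v hv
        rcases List.mem_cons.mp hv with rfl | hv
        · exact hl _ List.mem_cons_self
        · exact h4 v hv

theorem run_sound (H : Hyp σ z ζ) (ht : ∀ v, IsT σ z (t v))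
    (hc : ∀ m x, m < n → x < n → c m x < n ∧ (t m)⁻¹ * t x * t m = t (c m x)) :
    ∀ (cert : List (ℕ × ℕ)) (l r : List ℕ), (∀ v ∈ l, v < n) → run c cert l = some r →
      ev σ z ζ t l = (ζ * ζ) ^ cert.length * ev σ z ζ t r
  | [], l, r, _, h => by
    rw [run, Option.some.injEq] at h
    subst h
    simp
  | s :: cert, l, r, hl, h => by
    rw [run] at h
    cases h' : del1 c s.1 s.2 l with
    | none => rw [h'] at h; simp at h
    | some l' =>
      rw [h'] at h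
      obtain ⟨h3, h4⟩ := del1_sound H ht hc s.1 s.2 l l' hl h'
      have h5 : run c cert l' = some r := h
      rw [h3, run_sound H ht hc cert l' r h4 h5, List.length_cons, pow_succ', mul_assoc (ζ * ζ)]

theorem chk_sound (H : Hyp σ z ζ) (ht : ∀ v, IsT σ z (t v))
    (hc : ∀ m x, m < n → x < n → c m x < n ∧ (t m)⁻¹ * t x * t m = t (c m x))
    (cert : List (ℕ × ℕ)) (l : List ℕ) (hl : ∀ v ∈ l, v < n) (h : chk c cert l = true) :
    ev σ z ζ t l = (ζ * ζ) ^ cert.length := by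
  rw [chk] at h
  cases h' : run c cert l with
  | none => rw [h'] at h; simp at h
  | some r =>
    rw [h'] at h
    cases r with
    | nil => rw [run_sound H ht hc cert l [] hl h', ev_nil, mul_one]
    | cons a b => simp at h

theorem ev_map (H : Hyp σ z ζ) (ht : ∀ v, IsT σ z (t v))
    (hc : ∀ m x, m < n → x < n → c m x < n ∧ (t m)⁻¹ * t x * t m = t (c m x))
    (m : ℕ) (hm : m < n) : ∀ l : List ℕ, (∀ v ∈ l, v < n) →
      ev σ z ζ t (l.map (c m)) = (Lc σ z ζ (t m))⁻¹ * ev σ z ζ t l * Lc σ z ζ (t m)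
  | [], _ => by simp [ev_nil]
  | x :: l, hl => by
    rw [List.map_cons, ev_cons, ev_cons, ev_map H ht hc m hm l
      (fun v hv => hl v (List.mem_cons_of_mem _ hv)), ← (hc m x hm (hl x List.mem_cons_self)).2]
    have h := conj_Lc H (ht x) (Lc σ z ζ (t m))⁻¹
    rw [map_inv, sig_Lc H (ht m), inv_inv] at h
    rw [h]
    group

theorem sig_ev (H : Hyp σ z ζ) (ht : ∀ v, IsT σ z (t v)) :
    ∀ l : List ℕ, σ (ev σ z ζ t l) = (l.map t).prod
  | [] => by simp [ev_nil]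
  | x :: l => by rw [ev_cons, map_mul, sig_Lc H (ht x), sig_ev H ht l, List.map_cons, List.prod_cons]

end red

/-! ### lifting the centraliser -/

section kap

variable {Γ G : Type*} [Group Γ] [Group G] (σ : Γ →* G) (hk : σ.ker ≤ Subgroup.center Γ) (ζ : Γ)

/-- the commutator with `ζ`, a homomorphism on the preimage of the centraliser of `σ ζ` -/
noncomputable def kap : (Subgroup.centralizer {σ ζ}).comap σ →* Subgroup.center Γ :=
  MonoidHom.mk' (fun γ => ⟨γ.1 * ζ * γ.1⁻¹ * ζ⁻¹, hk (by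
    have h := Subgroup.mem_centralizer_singleton_iff.mp (Subgroup.mem_comap.mp γ.2)
    rw [MonoidHom.mem_ker, map_mul, map_mul, map_mul, map_inv, map_inv, h]
    group)⟩) (by
    intro a b
    apply Subtype.ext
    have hb : b.1 * ζ * b.1⁻¹ * ζ⁻¹ ∈ Subgroup.center Γ := hk (by
      have h := Subgroup.mem_centralizer_singleton_iff.mp (Subgroup.mem_comap.mp b.2)
      rw [MonoidHom.mem_ker, map_mul, map_mul, map_mul, map_inv, map_inv, h]
      group)
    have hb' := Subgroup.mem_center_iff.mp hb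
    show (a.1 * b.1) * ζ * (a.1 * b.1)⁻¹ * ζ⁻¹ = (a.1 * ζ * a.1⁻¹ * ζ⁻¹) * (b.1 * ζ * b.1⁻¹ * ζ⁻¹)
    rw [hb' (a.1 * ζ * a.1⁻¹ * ζ⁻¹)]
    calc (a.1 * b.1) * ζ * (a.1 * b.1)⁻¹ * ζ⁻¹
        = a.1 * (b.1 * ζ * b.1⁻¹ * ζ⁻¹) * (ζ * a.1⁻¹ * ζ⁻¹) := by group
      _ = (b.1 * ζ * b.1⁻¹ * ζ⁻¹) * a.1 * (ζ * a.1⁻¹ * ζ⁻¹) := by rw [hb' a.1]
      _ = _ := by group)

theorem kap_coe (γ : (Subgroup.centralizer {σ ζ}).comap σ) :
    ((kap σ hk ζ γ : Subgroup.center Γ) : Γ) = γ.1 * ζ * γ.1⁻¹ * ζ⁻¹ := rfl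

theorem kap_ker (γ : (Subgroup.centralizer {σ ζ}).comap σ) (h : σ γ.1 = 1) :
    kap σ hk ζ γ = 1 := by
  apply Subtype.ext
  rw [kap_coe]
  have h1 := Subgroup.mem_center_iff.mp (hk (MonoidHom.mem_ker.mpr h)) ζ
  rw [← h1]
  simp

theorem comm_of_kap (γ : (Subgroup.centralizer {σ ζ}).comap σ) (h : kap σ hk ζ γ = 1) :
    γ.1 * ζ = ζ * γ.1 := by
  have h1 := congrArg Subtype.val h
  rw [kap_coe] at h1
  have h2 : γ.1 * ζ * γ.1⁻¹ * ζ⁻¹ = 1 := h1
  calc γ.1 * ζ = (γ.1 * ζ * γ.1⁻¹ * ζ⁻¹) * (ζ * γ.1) := by group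
    _ = ζ * γ.1 := by rw [h2, one_mul]

include hk in
theorem cen_of_closure (hs : Function.Surjective σ) (S : Set G)
    (hS : Subgroup.centralizer {σ ζ} ≤ Subgroup.closure S)
    (hl : ∀ s ∈ S, ∃ γ, σ γ = s ∧ γ * ζ = ζ * γ) (γ : Γ) (h : σ γ * σ ζ = σ ζ * σ γ) :
    γ * ζ = ζ * γ := by
  have key : ∀ g ∈ Subgroup.closure S, ∀ γ, σ γ = g → γ * ζ = ζ * γ := by
    intro g hg
    induction hg using Subgroup.closure_induction with
    | mem s hs' =>
      intro γ hγ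
      obtain ⟨γ₀, h0, h1⟩ := hl s hs'
      have h2 : γ₀⁻¹ * γ ∈ Subgroup.center Γ := hk (by
        rw [MonoidHom.mem_ker, map_mul, map_inv, h0, hγ, inv_mul_cancel])
      have h3 := Subgroup.mem_center_iff.mp h2 ζ
      calc γ * ζ = γ₀ * ((γ₀⁻¹ * γ) * ζ) := by group
        _ = γ₀ * (ζ * (γ₀⁻¹ * γ)) := by rw [h3]
        _ = (γ₀ * ζ) * (γ₀⁻¹ * γ) := by group
        _ = (ζ * γ₀) * (γ₀⁻¹ * γ) := by rw [h1]
        _ = ζ * γ := by group
    | one =>
      intro γ hγ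
      exact (Subgroup.mem_center_iff.mp (hk (MonoidHom.mem_ker.mpr hγ)) ζ).symm
    | mul x y _ _ hx hy =>
      intro γ hγ
      obtain ⟨γ₁, h1⟩ := hs x
      have h2 : σ (γ₁⁻¹ * γ) = y := by rw [map_mul, map_inv, h1, hγ]; group
      have h3 := hx γ₁ h1
      have h4 := hy _ h2
      calc γ * ζ = γ₁ * ((γ₁⁻¹ * γ) * ζ) := by group
        _ = γ₁ * (ζ * (γ₁⁻¹ * γ)) := by rw [h4]
        _ = (γ₁ * ζ) * (γ₁⁻¹ * γ) := by group
        _ = (ζ * γ₁) * (γ₁⁻¹ * γ) := by rw [h3]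
        _ = ζ * γ := by group
    | inv x _ hx =>
      intro γ hγ
      have h1 : σ γ⁻¹ = x := by rw [map_inv, hγ, inv_inv]
      have h2 := hx _ h1
      calc γ * ζ = γ * (ζ * γ⁻¹) * γ := by group
        _ = γ * (γ⁻¹ * ζ) * γ := by rw [h2]
        _ = ζ * γ := by group
  exact key _ (hS (Subgroup.mem_centralizer_singleton_iff.mpr h)) γ rfl

end kap

theorem eq_of_edge {A : Type*} [Group A] {x y : A} (hxy : x * y = y * x) (hx : x * x = 1)
    (hy : y * y = 1) (h : (x * y) ^ 3 = 1) : x = y := by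
  have h1 : (x * y) ^ 3 = x ^ 3 * y ^ 3 := Commute.mul_pow hxy 3
  have h2 : x ^ 3 = x := by rw [pow_succ, pow_two, hx, one_mul]
  have h3 : y ^ 3 = y := by rw [pow_succ, pow_two, hy, one_mul]
  rw [h1, h2, h3] at h
  calc x = x * (y * y) := by rw [hy, mul_one]
    _ = (x * y) * y := by rw [mul_assoc]
    _ = y := by rw [h, one_mul]

theorem center_comm {Γ : Type*} [Group Γ] (x y : Subgroup.center Γ) : x * y = y * x :=
  Subtype.ext (Subgroup.mem_center_iff.mp y.2 x.1)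

/-! ### splitting -/

theorem ker_bot_of_section {α : Type*} {rels : Set (FreeGroup α)} {Γ : Type*} [Group Γ]
    (σ : Γ →* PresentedGroup rels) (hσ : Cfsg.IsStemExtension σ) (f : α → Γ)
    (hf : ∀ a, σ (f a) = PresentedGroup.of a) (hr : ∀ r ∈ rels, FreeGroup.lift f r = 1) :
    σ.ker = ⊥ := by
  obtain ⟨-, hc, hd⟩ := hσ
  let τ : PresentedGroup rels →* Γ := PresentedGroup.toGroup hr
  have hτ : ∀ g, σ (τ g) = g := by
    intro g
    have : σ.comp τ = MonoidHom.id _ := by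
      apply PresentedGroup.ext
      intro a
      rw [MonoidHom.comp_apply, PresentedGroup.toGroup.of, hf, MonoidHom.id_apply]
    exact DFunLike.congr_fun this g
  have hdec : ∀ γ : Γ, ∃ a ∈ Subgroup.center Γ, γ = τ (σ γ) * a := by
    intro γ
    refine ⟨(τ (σ γ))⁻¹ * γ, hc ?_, by group⟩
    rw [MonoidHom.mem_ker, map_mul, map_inv, hτ, inv_mul_cancel]
  have hcomm : commutator Γ ≤ τ.range := by
    rw [commutator_eq_closure, Subgroup.closure_le]
    rintro _ ⟨γ₁, γ₂, rfl⟩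
    obtain ⟨a₁, ha₁, h₁⟩ := hdec γ₁
    obtain ⟨a₂, ha₂, h₂⟩ := hdec γ₂
    refine ⟨σ γ₁ * σ γ₂ * (σ γ₁)⁻¹ * (σ γ₂)⁻¹, ?_⟩
    rw [map_mul, map_mul, map_mul, map_inv, map_inv]
    generalize τ (σ γ₁) = u₁ at h₁
    generalize τ (σ γ₂) = u₂ at h₂
    rw [h₁, h₂, commutatorElement_def]
    have c₁ := Subgroup.mem_center_iff.mp ha₁
    have c₂ := Subgroup.mem_center_iff.mp ha₂
    calc u₁ * u₂ * u₁⁻¹ * u₂⁻¹ = u₁ * u₂ * u₁⁻¹ * u₂⁻¹ * (a₁ * a₁⁻¹) * (a₂ * a₂⁻¹) := by group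
      _ = u₁ * a₁ * (u₂ * a₂) * (u₁ * a₁)⁻¹ * (u₂ * a₂)⁻¹ := by
        rw [mul_inv_rev, mul_inv_rev]
        have e1 : u₁ * a₁ * (u₂ * a₂) * (a₁⁻¹ * u₁⁻¹) * (a₂⁻¹ * u₂⁻¹)
            = u₁ * (a₁ * u₂) * (a₂ * a₁⁻¹) * u₁⁻¹ * a₂⁻¹ * u₂⁻¹ := by group
        rw [e1, ← c₁ u₂, ← c₂ a₁⁻¹]
        have e2 : u₁ * (u₂ * a₁) * (a₁⁻¹ * a₂) * u₁⁻¹ * a₂⁻¹ * u₂⁻¹
            = u₁ * u₂ * (a₂ * u₁⁻¹) * a₂⁻¹ * u₂⁻¹ := by group
        rw [e2, ← c₂ u₁⁻¹]
        group
  rw [eq_bot_iff]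
  intro a ha
  obtain ⟨g, rfl⟩ := hcomm (hd ha)
  rw [MonoidHom.mem_ker, hτ] at ha
  rw [ha, map_one]
  exact Subgroup.one_mem _

end Cfsg.Agent.Lib.Helper47StemA
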