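import Cfsg.Agent.Lib.Helper69Schur
import Cfsg.Prelude.Def_Classical

set_option autoImplicit false

/-! Transport of the Schur multiplier along an isomorphism between groups in different universes,
and the isomorphism of the groups `PΩ(Q)` induced by an isomorphism of fields. -/

namespace Cfsg.Agent.Lib.Helper47StemD

open Cfsg.Agent.Lib.Helper69Schur Matrix

universe u v w

theorem ker_comp_equiv {Γ : Type*} {G : Type*} {G' : Type*} [Group Γ] [Group G] [Group G']
    (σ : Γ →* G) (e : G ≃* G') : (e.toMonoidHom.comp σ).ker = σ.ker := by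
  ext γ
  rw [MonoidHom.mem_ker, MonoidHom.mem_ker, MonoidHom.comp_apply]
  exact e.map_eq_one_iff

/-- a surjection from `A` onto the kernel of a stem extension of an isomorphic group -/
theorem surj_of_equiv {G : Type u} {G' : Type v} [Group G] [Group G'] [Finite G] (e : G ≃* G')
    {A : Type w} [CommGroup A] (h : Cfsg.HasSchurMultiplier G A) {Γ : Type*} [Group Γ]
    (σ : Γ →* G') (hσ : Cfsg.IsStemExtension σ) : ∃ π : A →* σ.ker, Function.Surjective π := by
  have hk := ker_comp_equiv σ e.symm
  obtain ⟨f, hf⟩ := exists_surj_of_hasSchurMultiplier h (e.symm.toMonoidHom.comp σ)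
    (e.symm.surjective.comp hσ.1) (by rw [hk]; exact hσ.2.1)
  have hk2 : (e.symm.toMonoidHom.comp σ).ker ⊓ commutator Γ = σ.ker := by
    rw [hk]; exact inf_eq_left.mpr hσ.2.2
  exact ⟨(MulEquiv.subgroupCongr hk2).toMonoidHom.comp f,
    (MulEquiv.subgroupCongr hk2).surjective.comp hf⟩

theorem transport {G : Type u} {G' : Type v} [Group G] [Group G'] [Finite G] (e : G ≃* G')
    {A : Type w} [CommGroup A] (h : Cfsg.HasSchurMultiplier G A) :
    Cfsg.HasSchurMultiplier G' A := by
  have : Finite G' := Finite.of_equiv _ e.toEquiv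
  have hA : Finite A := finite_of_hasSchurMultiplier h
  have h' := hasSchurMultiplier_mult (piQ G') (piQ_surjective G')
  have hM : Finite (mult (piQ G')) := finite_mult _
  obtain ⟨⟨Γ', i1, i2, σ', hσ', ⟨e'⟩⟩, -⟩ := id h'
  obtain ⟨⟨Γ, j1, j2, σ, hσ, ⟨e₀⟩⟩, -⟩ := id h
  obtain ⟨f, hf⟩ := surj_of_equiv e h σ' hσ'
  obtain ⟨g, hg⟩ := surj_of_equiv e.symm h' σ hσ
  let f' : A →* mult (piQ G') := e'.toMonoidHom.comp f
  have hf' : Function.Surjective f' := e'.surjective.comp hf
  have hle : Nat.card (mult (piQ G')) ≤ Nat.card A := Nat.card_le_card_of_surjective f' hf'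
  have hle2 : Nat.card A ≤ Nat.card (mult (piQ G')) :=
    Nat.card_le_card_of_surjective (e₀.toMonoidHom.comp g) (e₀.surjective.comp hg)
  have hbij : Function.Bijective f' :=
    (Nat.bijective_iff_surjective_and_card f').2 ⟨hf', le_antisymm hle2 hle⟩
  exact hasSchurMultiplier_congr (MulEquiv.ofBijective f' hbij).symm h'

/-! ### isomorphic groups have isomorphic `commutator / centre` -/

noncomputable def commEquiv {A B : Type*} [Group A] [Group B] (E : A ≃* B) :
    commutator A ≃* commutator B :=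
  (E.subgroupMap (commutator A)).trans (MulEquiv.subgroupCongr (by
    rw [commutator_def, commutator_def]
    show Subgroup.map E.toMonoidHom _ = _
    rw [Subgroup.map_commutator, Subgroup.map_top_of_surjective _ E.surjective]))

noncomputable def centerQuot {A B : Type*} [Group A] [Group B] (E : A ≃* B) :
    A ⧸ Subgroup.center A ≃* B ⧸ Subgroup.center B :=
  QuotientGroup.congr _ _ E (by
    ext b
    constructor
    · rintro ⟨a, ha, rfl⟩
      rw [Subgroup.mem_center_iff]
      intro b'
      obtain ⟨a', rfl⟩ := E.surjective b'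
      have := Subgroup.mem_center_iff.mp ha a'
      show E a' * E a = E a * E a'
      rw [← map_mul, ← map_mul, this]
    · intro hb
      refine ⟨E.symm b, ?_, E.apply_symm_apply b⟩
      show E.symm b ∈ Subgroup.center A
      rw [Subgroup.mem_center_iff]
      intro a'
      have := Subgroup.mem_center_iff.mp hb (E a')
      apply E.injective
      rw [map_mul, map_mul, E.apply_symm_apply, this])

/-! ### change of field -/

section field

variable {ι : Type} [Fintype ι] [DecidableEq ι] {F : Type u} {F' : Type v} [Field F] [Field F']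

noncomputable def glEquiv (e : F ≃+* F') :
    Matrix.GeneralLinearGroup ι F ≃* Matrix.GeneralLinearGroup ι F' :=
  Units.mapEquiv (RingEquiv.mapMatrix e).toMulEquiv

theorem glEquiv_val (e : F ≃+* F') (g : Matrix.GeneralLinearGroup ι F) :
    (glEquiv e g).val = g.val.map e := rfl

theorem map_mulVec' (e : F ≃+* F') (M : Matrix ι ι F) (x : ι → F) :
    (M.map e) *ᵥ (fun i => e (x i)) = fun i => e ((M *ᵥ x) i) := by
  ext i
  simp [Matrix.mulVec, dotProduct, map_sum, map_mul]

theorem mem_iso_iff (e : F ≃+* F') (Q : (ι → F) → F) (Q' : (ι → F') → F')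
    (hQ : ∀ x, Q' (fun i => e (x i)) = e (Q x)) (g : Matrix.GeneralLinearGroup ι F) :
    glEquiv e g ∈ Cfsg.isometryGroup F' Q' ↔ g ∈ Cfsg.isometryGroup F Q := by
  have hsurj : ∀ y : ι → F', ∃ x : ι → F, y = fun i => e (x i) := fun y =>
    ⟨fun i => e.symm (y i), by ext i; simp⟩
  constructor
  · intro h x _
    have h1 := h (fun i => e (x i)) (fun i => e (x i))
    have h2 : Q' ((glEquiv e g).val *ᵥ fun i => e (x i)) = Q' (fun i => e (x i)) := h1
    rw [glEquiv_val, map_mulVec', hQ, hQ] at h2
    exact e.injective h2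
  · intro h y _
    obtain ⟨x, rfl⟩ := hsurj y
    have h1 : Q (g.val *ᵥ x) = Q x := h x x
    show Q' ((glEquiv e g).val *ᵥ fun i => e (x i)) = Q' (fun i => e (x i))
    rw [glEquiv_val, map_mulVec', hQ, hQ, h1]

noncomputable def isoEquiv (e : F ≃+* F') (Q : (ι → F) → F) (Q' : (ι → F') → F')
    (hQ : ∀ x, Q' (fun i => e (x i)) = e (Q x)) :
    Cfsg.isometryGroup F Q ≃* Cfsg.isometryGroup F' Q' :=
  ((glEquiv e).subgroupMap (Cfsg.isometryGroup F Q)).trans (MulEquiv.subgroupCongr (by
    ext g'
    constructor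
    · rintro ⟨g, hg, rfl⟩
      exact (mem_iso_iff e Q Q' hQ g).mpr hg
    · intro hg'
      obtain ⟨g, rfl⟩ := (glEquiv (ι := ι) e).surjective g'
      exact ⟨g, (mem_iso_iff e Q Q' hQ g).mp hg', rfl⟩))

noncomputable def pOmegaEquiv (e : F ≃+* F') (Q : (ι → F) → F) (Q' : (ι → F') → F')
    (hQ : ∀ x, Q' (fun i => e (x i)) = e (Q x)) : Cfsg.POmega F Q ≃* Cfsg.POmega F' Q' :=
  centerQuot (commEquiv (isoEquiv e Q Q' hQ))

theorem quadFormOdd_map (m : ℕ) (e : F ≃+* F') (x : Unit ⊕ (Fin m ⊕ Fin m) → F) :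
    Cfsg.quadFormOdd m F' (fun i => e (x i)) = e (Cfsg.quadFormOdd m F x) := by
  simp [Cfsg.quadFormOdd, map_add, map_pow, map_sum, map_mul]

end field

end Cfsg.Agent.Lib.Helper47StemD
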