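import Cfsg.Agent.Lib.Helper47SuzM3

set_option autoImplicit false
set_option maxRecDepth 100000

/-! A stem extension of the sporadic Suzuki group with kernel of order three, as a group of
permutations of 5346 points. -/

namespace Cfsg.Agent.Lib.Helper47SuzM3B

open Cfsg.Agent.Lib.Helper35TC Cfsg.Agent.Lib.Helper47StemA Cfsg.Agent.Lib.Helper47StemB
  Cfsg.Agent.Lib.Helper47StemC Cfsg.Agent.Lib.Helper47SuzM3

noncomputable abbrev K := Cfsg.Agent.Lib.Helper35SuzA.K

theorem hInv (s : Gen) : ∀ j, j < 5346 → act s j < 5346 ∧ act s (act s j) = j := by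
  intro j hj
  have h := all_of_allD _ 13 5346 (by norm_num) (chkInv s) j hj
  rw [Bool.or_eq_true, Bool.and_eq_true, Nat.ble_eq, Nat.ble_eq, Nat.beq_eq] at h
  rcases h with h | h
  · omega
  · exact ⟨by omega, h.2⟩

noncomputable def vv (s : Gen) : Equiv.Perm (Fin 5346) := invPerm 5346 (act s) (hInv s)

theorem vv_apply (s : Gen) (j : Fin 5346) : (vv s j).val = act s j.val := rfl

theorem word_eq (w w' : List Gen) (h : chkEq w w' = true) : (w.map vv).prod = (w'.map vv).prod := by
  apply prod_eq_prod vv act vv_apply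
  intro j hj
  have h1 := all_of_allD _ 13 5346 (by norm_num) h j hj
  rw [Bool.or_eq_true, Nat.ble_eq, Nat.beq_eq] at h1
  rcases h1 with h1 | h1
  · omega
  · exact h1

theorem prod_rep {α M : Type*} [Monoid M] (f : α → M) (l : List α) :
    ∀ m : ℕ, (((List.replicate m l).flatten).map f).prod = ((l.map f).prod) ^ m
  | 0 => by simp
  | m + 1 => by
    rw [List.replicate_succ, List.flatten_cons, List.map_append, List.prod_append, prod_rep f l m,
      pow_succ']

noncomputable def Gam : Subgroup (Equiv.Perm (Fin 5346)) := Subgroup.closure (Set.range vv)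

noncomputable def v (s : Gen) : Gam := ⟨vv s, Subgroup.subset_closure ⟨s, rfl⟩⟩

theorem hgen : Subgroup.closure (Set.range v) = ⊤ := by
  have h := Subgroup.closure_closure_coe_preimage (k := Set.range vv)
  have e : (Set.range v) =
      ((↑) : Subgroup.closure (Set.range vv) → Equiv.Perm (Fin 5346)) ⁻¹' Set.range vv := by
    ext x
    constructor
    · rintro ⟨s, rfl⟩
      exact ⟨s, rfl⟩
    · rintro ⟨s, hs⟩
      exact ⟨s, Subtype.ext hs⟩
  rw [e]
  exact h

theorem v_prod : ∀ w : List Gen, ((w.map v).prod : Gam).1 = (w.map vv).prod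
  | [] => rfl
  | s :: w => by
    rw [List.map_cons, List.prod_cons, List.map_cons, List.prod_cons, ← v_prod w]
    rfl

theorem weq (w w' : List Gen) (h : chkEq w w' = true) : (w.map v).prod = (w'.map v).prod := by
  apply Subtype.ext
  rw [v_prod, v_prod]
  exact word_eq w w' h

theorem v_cox (x y : Gen) : (v x * v y) ^ lbl x y = 1 := by
  have h := weq _ _ (chkCox x y)
  rw [prod_rep] at h
  simpa using h

theorem lbl_self (s : Gen) : lbl s s = 1 := by cases s <;> decide

theorem v_sq (s : Gen) : v s * v s = 1 := by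
  have h := v_cox s s
  rwa [lbl_self, pow_one] at h

theorem r1 : (v .c * v .d) ^ 4 = v .a := by
  have h := weq _ _ chkR1
  simp only [List.map_cons, List.map_nil, List.prod_cons, List.prod_nil, mul_one] at h
  rw [← h]
  simp only [pow_succ, pow_zero, one_mul, mul_assoc]

theorem r2 : (v .f * v .g) ^ 2 = v .a := by
  have h := weq _ _ chkR2
  simp only [List.map_cons, List.map_nil, List.prod_cons, List.prod_nil, mul_one] at h
  rw [← h]
  simp only [pow_succ, pow_zero, one_mul, mul_assoc]

theorem r3 : (v .a * v .b * v .c * v .f) ^ 5 = 1 := by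
  have h := weq _ _ chkR3
  rw [prod_rep] at h
  simpa [mul_assoc] using h

theorem r5 : ((v .b * v .c * v .d * v .c * v .d) ^ 5 * v .e) ^ 3 = 1 := by
  have h := weq _ _ chkR5
  rw [prod_rep, List.map_append, List.prod_append, prod_rep] at h
  simpa [mul_assoc] using h

noncomputable def tt : Gam := (v .b * v .f * v .g) ^ 5

theorem tt_eq : tt = (wt.map v).prod := by
  rw [wt, prod_rep, tt]
  simp [mul_assoc]

theorem tt_cube : tt ^ 3 = 1 := by
  have h := weq _ _ chkT3
  rw [prod_rep, ← tt_eq] at h
  simpa using h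

theorem tt_comm (s : Gen) : tt * v s = v s * tt := by
  have h := weq _ _ (chkTc s)
  rw [List.map_append, List.prod_append, List.map_cons (a := s) (l := wt), List.prod_cons,
    ← tt_eq] at h
  simpa using h

theorem tt_ne : tt ≠ 1 := by
  intro h
  have h1 : ((wt.map v).prod : Gam).1 = 1 := by rw [← tt_eq, h]; rfl
  rw [v_prod] at h1
  have h2 := prod_apply vv act vv_apply wt ⟨0, by norm_num⟩
  rw [h1] at h2
  have h3 : walk act wt 0 = 0 := h2.symm
  have h4 := chkTne
  rw [h3] at h4
  simp at h4

theorem tt_order : orderOf tt = 3 := by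
  have : Fact (Nat.Prime 3) := ⟨Nat.prime_three⟩
  exact orderOf_eq_prime tt_cube tt_ne

theorem tt_central : tt ∈ Subgroup.center Gam := by
  have key : (⊤ : Subgroup Gam) ≤ Subgroup.centralizer {tt} := by
    rw [← hgen, Subgroup.closure_le]
    rintro _ ⟨s, rfl⟩
    rw [SetLike.mem_coe, Subgroup.mem_centralizer_singleton_iff]
    exact (tt_comm s).symm
  rw [Subgroup.mem_center_iff]
  intro g
  exact Subgroup.mem_centralizer_singleton_iff.mp (key (Subgroup.mem_top g))

noncomputable def ZZ : Subgroup Gam := Subgroup.zpowers tt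

theorem ZZ_le : ZZ ≤ Subgroup.center Gam := by
  rw [ZZ, Subgroup.zpowers_le]
  exact tt_central

theorem perfect : commutator Gam = ⊤ := by
  let ab : Gam →* Abelianization Gam := Abelianization.of
  have sq : ∀ s, ab (v s) * ab (v s) = 1 := by
    intro s
    rw [← map_mul, v_sq, map_one]
  have ed : ∀ s t, lbl s t = 3 → ab (v s) = ab (v t) := by
    intro s t hl
    apply eq_of_edge (mul_comm _ _) (sq s) (sq t)
    rw [← map_mul, ← map_pow]
    have h := v_cox s t
    rw [hl] at h
    rw [h, map_one]
  have ha : ab (v .a) = 1 := by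
    rw [← r1, map_pow, map_mul, mul_pow]
    have h4 : ∀ s, ab (v s) ^ 4 = 1 := by
      intro s
      have h2 : ab (v s) ^ 2 = 1 := by rw [pow_two, sq]
      rw [show (4 : ℕ) = 2 * 2 from rfl, pow_mul, h2, one_pow]
    rw [h4, h4, one_mul]
  have hb : ab (v .b) = 1 := by
    have h := congrArg ab (v_cox .a .b)
    rw [show lbl .a .b = 5 by decide, map_pow, map_mul, ha, one_mul, map_one] at h
    have h5 : ab (v .b) ^ 5 = ab (v .b) := by
      have h2 : ab (v .b) ^ 2 = 1 := by rw [pow_two, sq]
      rw [show (5 : ℕ) = 2 * 2 + 1 from rfl, pow_succ, pow_mul, h2, one_pow, one_mul]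
    rwa [h5] at h
  have hc : ab (v .c) = 1 := (ed .b .c (by decide)).symm.trans hb
  have hf : ab (v .f) = 1 := (ed .b .f (by decide)).symm.trans hb
  have hg : ab (v .g) = 1 := (ed .g .b (by decide)).trans hb
  have he : ab (v .e) = 1 := by
    have h := congrArg ab r5
    simp only [map_pow, map_mul, hb, hc, one_mul, mul_one, map_one, sq, one_pow] at h
    have h3 : ab (v .e) ^ 3 = ab (v .e) := by
      rw [pow_succ, pow_two, sq, one_mul]
    rwa [h3] at h
  have hd : ab (v .d) = 1 := (ed .d .e (by decide)).trans he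
  have all : ∀ s, ab (v s) = 1 := by
    intro s
    cases s
    · exact ha
    · exact hb
    · exact hc
    · exact hd
    · exact he
    · exact hf
    · exact hg
  have hker : ab.ker = ⊤ := by
    rw [eq_top_iff, ← hgen, Subgroup.closure_le]
    rintro _ ⟨s, rfl⟩
    exact all s
  have h2 : ab.ker = commutator Gam := QuotientGroup.ker_mk' _
  rw [← h2, hker]

theorem ZZ_ne : ZZ ≠ ⊤ := by
  intro h
  have hc : ∀ a b : Gam, a * b = b * a := by
    intro a b
    have : b ∈ Subgroup.center Gam := ZZ_le (by rw [h]; trivial)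
    exact Subgroup.mem_center_iff.mp this a
  have h1 : commutator Gam = ⊥ := by
    rw [commutator_eq_closure, Subgroup.closure_eq_bot_iff]
    rintro _ ⟨a, b, rfl⟩
    rw [Set.mem_singleton_iff, commutatorElement_def, hc a b]
    group
  rw [perfect] at h1
  have h2 : tt = 1 := by
    have : tt ∈ (⊤ : Subgroup Gam) := trivial
    rw [h1] at this
    exact this
  exact tt_ne h2

theorem hrel : ∀ r ∈ K.rels, FreeGroup.lift v r ∈ ZZ := by
  rintro r (⟨x, -, y, -, rfl⟩ | hr)
  · rw [map_pow, map_mul, FreeGroup.lift_apply_of, FreeGroup.lift_apply_of]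
    have h' : (v x * v y) ^ Cfsg.Spor.coxLabel Cfsg.Spor.Suz.edges x y = 1 := v_cox x y
    rw [h']
    exact Subgroup.one_mem _
  · have hr' : r ∈ Cfsg.Spor.Suz.extra := hr
    simp only [Cfsg.Spor.Suz.extra, List.mem_cons, List.not_mem_nil, or_false] at hr'
    rcases hr' with rfl | rfl | rfl | rfl | rfl
    · simp only [map_pow, map_mul, map_inv, FreeGroup.lift_apply_of]
      rw [r1, mul_inv_cancel]
      exact Subgroup.one_mem _
    · simp only [map_pow, map_mul, map_inv, FreeGroup.lift_apply_of]
      rw [r2, mul_inv_cancel]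
      exact Subgroup.one_mem _
    · simp only [map_pow, map_mul, FreeGroup.lift_apply_of]
      rw [r3]
      exact Subgroup.one_mem _
    · simp only [map_pow, map_mul, FreeGroup.lift_apply_of]
      exact Subgroup.mem_zpowers tt
    · simp only [map_pow, map_mul, FreeGroup.lift_apply_of]
      rw [r5]
      exact Subgroup.one_mem _

theorem exists_cover : ∃ σ : Gam →* K.Grp, Cfsg.IsStemExtension σ ∧ Nat.card σ.ker = 3 := by
  obtain ⟨σ, hσ, hker⟩ := stem_of_gens Cfsg.Agent.Lib.Helper35SuzFin.simple v hgen ZZ ZZ_le hrel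
    perfect ZZ_ne
  refine ⟨σ, hσ, ?_⟩
  rw [hker, ZZ, Nat.card_zpowers, tt_order]

end Cfsg.Agent.Lib.Helper47SuzM3B
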