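import Mathlib
import Cfsg.Agent.Lib.Helper48EigMat

set_option autoImplicit false
set_option linter.unusedSectionVars false

namespace Cfsg.Agent.Lib.Helper48Scal

open Polynomial Cfsg.Agent.Lib.Helper48Eig Cfsg.Agent.Lib.Helper48EigMat
  Cfsg.Agent.Lib.Helper45Semisimple

variable {K : Type*} [Field K] {L : Type*} [Field L] [Algebra K L] {r : ℕ} [NeZero r]
  {ι : Type*} [Fintype ι] [DecidableEq ι]

theorem charpoly_smul (c c' : K) (hc : c * c' = 1) (M : Matrix ι ι K) :
    (c • M).charpoly = C (c ^ Fintype.card ι) * M.charpoly.comp (C c' * X) := by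
  have h1 : M.charpoly.comp (C c' * X) =
      ((Polynomial.compRingHom (C c' * X)).mapMatrix (Matrix.charmatrix M)).det := by
    unfold Matrix.charpoly
    exact RingHom.map_det (Polynomial.compRingHom (C c' * X)) (Matrix.charmatrix M)
  have h2 : Matrix.charmatrix (c • M) =
      (C c : K[X]) • (Polynomial.compRingHom (C c' * X)).mapMatrix (Matrix.charmatrix M) := by
    ext1 i j
    by_cases hij : i = j
    · subst hij
      simp only [Matrix.charmatrix_apply_eq, Matrix.smul_apply, RingHom.mapMatrix_apply,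
        Matrix.map_apply, smul_eq_mul, coe_compRingHom_apply, sub_comp, X_comp, C_comp, mul_sub]
      rw [← mul_assoc, ← C_mul, hc, C_1, one_mul, C_mul]
    · simp [Matrix.charmatrix_apply_ne _ _ _ hij]
  rw [h1, Matrix.charpoly, h2, Matrix.det_smul, C_pow]

theorem PP_scale (ζ : L) (hζ : ζ ^ r = 1) (a : ZMod r → ℕ) (j : ZMod r) :
    C ((zp ζ j) ^ (∑ k, a k)) * (PP ζ a).comp (C (zp ζ (-j)) * X)
      = PP ζ (fun k => a (k - j)) := by
  rw [PP, PP, Polynomial.prod_comp, C_pow, ← Finset.prod_pow_eq_pow_sum, ← Finset.prod_mul_distrib]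
  refine Fintype.prod_equiv (Equiv.addRight j) _ _ fun k => ?_
  rw [Equiv.coe_addRight, add_sub_cancel_right, pow_comp, ← mul_pow, sub_comp, X_comp, C_comp,
    mul_sub, ← mul_assoc, ← C_mul, ← C_mul, mul_comm (zp ζ j) (zp ζ (-j)), zp_neg_mul ζ hζ, C_1,
    one_mul, zp_add ζ hζ, mul_comm (zp ζ j)]

theorem HasMult.smul {ζ : L} (hζ : ζ ^ r = 1) {M : Matrix ι ι K} {a : ZMod r → ℕ}
    (h : HasMult ζ M a) (j : ZMod r) (c : K) (hc : algebraMap K L c = zp ζ j) :
    HasMult ζ (c • M) (fun k => a (k - j)) := by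
  have hcr : c ^ r = 1 := by
    apply (algebraMap K L).injective
    rw [map_pow, hc, zp_pow ζ hζ, map_one]
  have hc0 : c ≠ 0 := by
    rintro rfl
    rw [zero_pow (NeZero.ne r)] at hcr
    exact zero_ne_one hcr
  refine ⟨by rw [_root_.smul_pow, hcr, h.1, one_smul], ?_⟩
  rw [charpoly_smul c c⁻¹ (mul_inv_cancel₀ hc0), Polynomial.map_mul, map_C, map_pow, hc,
    Polynomial.map_comp, h.2, Polynomial.map_mul, map_C, map_X, ← h.sum, ← PP_scale ζ hζ a j]
  congr 4
  rw [map_inv₀, hc]
  exact (eq_inv_of_mul_eq_one_left (zp_neg_mul ζ hζ j)).symm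

/-- a matrix killed by an irreducible polynomial has a power of it as characteristic polynomial -/
theorem charpoly_eq_pow (π : K[X]) (hπ : Irreducible π) (hm : π.Monic) (M : Matrix ι ι K)
    (h : aeval M π = 0) : ∃ k, M.charpoly = π ^ k := by
  classical
  set χ := M.charpoly with hχ
  have hχm : χ.Monic := Matrix.charpoly_monic M
  have hall : ∀ f ∈ UniqueFactorizationMonoid.normalizedFactors χ, f = π := by
    intro f hf
    have hfi := UniqueFactorizationMonoid.irreducible_of_normalized_factor f hf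
    have hfd := UniqueFactorizationMonoid.dvd_of_mem_normalizedFactors hf
    have hfn := UniqueFactorizationMonoid.normalize_normalized_factor f hf
    obtain ⟨v, hv0, hv⟩ := exists_ne_zero_aeval_eq_zero (Matrix.toLin' M) f hfi
      (by rw [Matrix.charpoly_toLin']; exact hfd)
    by_cases hd : f ∣ π
    · have h1 := hfi.associated_of_dvd hπ hd
      have h2 := normalize_eq_normalize_iff_associated.2 h1
      rwa [hfn, hm.normalize_eq_self] at h2
    · exfalso
      obtain ⟨u, w, huw⟩ := (hfi.coprime_iff_not_dvd).2 hd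
      have h3 : aeval (Matrix.toLin' M) π = 0 := by
        have := congrArg (Matrix.toLinAlgEquiv' (R := K) (n := ι)) h
        rw [← Polynomial.aeval_algHom_apply, map_zero] at this
        exact this
      have h4 := congrArg (fun g => aeval (Matrix.toLin' M) g v) huw
      simp only [map_add, map_mul, map_one, h3, mul_zero, add_zero, Module.End.mul_apply, hv,
        map_zero, Module.End.one_apply] at h4
      exact hv0 h4.symm
  refine ⟨(UniqueFactorizationMonoid.normalizedFactors χ).card, ?_⟩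
  have h5 := UniqueFactorizationMonoid.prod_normalizedFactors_eq hχm.ne_zero
  rw [hχm.normalize_eq_self, Multiset.eq_replicate_card.2 hall, Multiset.prod_replicate] at h5
  exact h5.symm

section typeII
variable [Fintype K] (p : ℕ) [Fact p.Prime] [CharP K p]

theorem aeval_pow_sub (c : K) (M : Matrix ι ι K) : aeval M (X ^ r - C c : K[X]) = M ^ r - c • 1 := by
  rw [map_sub, map_pow, aeval_X, aeval_C, Algebra.algebraMap_eq_smul_one]

theorem charpoly_of_pow_eq (hr : r.Prime) (c : K) (hc : ∀ b : K, b ^ r ≠ c) (M : Matrix ι ι K)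
    (hM : M ^ r = c • 1) :
    ∃ k, Fintype.card ι = k * r ∧ M.charpoly = (X ^ r - C c : K[X]) ^ k := by
  obtain ⟨k, hk⟩ := charpoly_eq_pow (X ^ r - C c : K[X]) (X_pow_sub_C_irreducible_of_prime hr hc)
    (monic_X_pow_sub_C c hr.ne_zero) M (by rw [aeval_pow_sub, hM, sub_self])
  refine ⟨k, ?_, hk⟩
  have := congrArg natDegree hk
  rwa [Matrix.charpoly_natDegree_eq_dim, natDegree_pow, natDegree_X_pow_sub_C] at this

theorem semisimple_of_pow_eq (hr : r.Prime) (hrp : r ≠ p) (c : K) (hc0 : c ≠ 0) (M : Matrix ι ι K)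
    (hM : M ^ r = c • 1) : Module.End.IsSemisimple (Matrix.toLin' M) := by
  have hp : p.Prime := Fact.out
  apply matrix_isSemisimple_of_pow_eq_one p M (r * (Fintype.card K - 1))
  · exact Nat.Coprime.mul_left ((Nat.coprime_primes hr hp).2 hrp) (coprime_card_sub_one p)
  · rw [pow_mul, hM, _root_.smul_pow, one_pow, FiniteField.pow_card_sub_one_eq_one c hc0, one_smul]

theorem conj_of_pow_eq (hr : r.Prime) (hrp : r ≠ p) (c : K) (hc : ∀ b : K, b ^ r ≠ c)
    (M M' : Matrix ι ι K) (hM : M ^ r = c • 1) (hM' : M' ^ r = c • 1) :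
    ∃ P : (Matrix ι ι K)ˣ, (P : Matrix ι ι K) * M = M' * P := by
  have hc0 : c ≠ 0 := fun h => hc 0 (by rw [zero_pow hr.ne_zero, h])
  obtain ⟨k, hk, hχ⟩ := charpoly_of_pow_eq hr c hc M hM
  obtain ⟨k', hk', hχ'⟩ := charpoly_of_pow_eq hr c hc M' hM'
  have hkk : k = k' := Nat.eq_of_mul_eq_mul_right hr.pos (hk.symm.trans hk')
  exact matrix_exists_conj M M' (semisimple_of_pow_eq p hr hrp c hc0 M hM)
    (semisimple_of_pow_eq p hr hrp c hc0 M' hM') (by rw [hχ, hχ', hkk])

include p in
theorem exists_of_dvd (hr : r.Prime) (c : K) (hc : ∀ b : K, b ^ r ≠ c) (n k : ℕ)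
    (hn : n = k * r) : ∃ M : Matrix (Fin n) (Fin n) K, M ^ r = c • 1 := by
  have hc0 : c ≠ 0 := fun h => hc 0 (by rw [zero_pow hr.ne_zero, h])
  have hπm : (X ^ r - C c : K[X]).Monic := monic_X_pow_sub_C c hr.ne_zero
  obtain ⟨M, m, hM, hm, hMm⟩ := exists_matrix_of_charpoly p n ((X ^ r - C c : K[X]) ^ k)
    (by rw [natDegree_pow, natDegree_X_pow_sub_C, hn]) (hπm.pow k) (by
      rw [coeff_zero_eq_eval_zero, eval_pow, eval_sub, eval_pow, eval_X, eval_C,
        zero_pow hr.ne_zero, zero_sub]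
      exact pow_ne_zero _ (neg_ne_zero.2 hc0))
  refine ⟨M, ?_⟩
  rcases Nat.eq_zero_or_pos k with rfl | hk
  · have : n = 0 := by rw [hn, zero_mul]
    subst this
    exact Subsingleton.elim _ _
  have hss := matrix_isSemisimple_of_pow_eq_one p M m hm hMm
  have hsq : Squarefree (minpoly K M) := by
    have h1 := hss.minpoly_squarefree
    rwa [Matrix.minpoly_toLin'] at h1
  have h1 : minpoly K M ∣ (X ^ r - C c : K[X]) ^ k := hM ▸ Matrix.minpoly_dvd_charpoly M
  rw [hsq.dvd_pow_iff_dvd hk.ne'] at h1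
  obtain ⟨d, hd⟩ := h1
  have h2 := congrArg (aeval M) hd
  rw [map_mul, minpoly.aeval, zero_mul, aeval_pow_sub, sub_eq_zero] at h2
  exact h2

end typeII

end Cfsg.Agent.Lib.Helper48Scal
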