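import Mathlib
import Cfsg.Agent.Lib.Helper48WallU
import Cfsg.Agent.Lib.Helper48Scal
import Cfsg.Agent.Lib.Helper48SpRegConj

set_option autoImplicit false
set_option linter.unusedSectionVars false

namespace Cfsg.Agent.Lib.Helper48Cube

open Matrix Cfsg.Agent.Lib.Helper48WallU

variable {F : Type*} [Field F]

/-- the quadratic extension generated by a primitive cube root of unity -/
abbrev KK (F : Type*) [Field F] : Type _ := QuadraticAlgebra F (-1) (-1)

section fin
variable [Fintype F] {q : ℕ}

theorem no_root (hF : Fintype.card F = q) (hq : q % 3 = 2) (r : F) : r ^ 2 ≠ -1 + -1 * r := by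
  intro h
  have h3 : r ^ 3 = 1 := by
    have : r ^ 3 = r * r ^ 2 := by ring
    rw [this, h]
    have : r * (-1 + -1 * r) = -r - r ^ 2 := by ring
    rw [this, h]
    ring
  have hr0 : r ≠ 0 := by
    rintro rfl
    simp at h3
  by_cases h1 : r = 1
  · subst h1
    have h30 : (3 : F) = 0 := by
      have : (3 : F) = 1 ^ 2 - (-1 + -1 * 1) := by norm_num
      rw [this, h, sub_self]
    obtain ⟨p, hchar⟩ := CharP.exists F
    have hp : p.Prime := CharP.char_is_prime F p
    have h4 : p ∣ 3 := by
      rw [← CharP.cast_eq_zero_iff F p]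
      exact_mod_cast h30
    have h5 : p = 3 := (Nat.prime_dvd_prime_iff_eq hp Nat.prime_three).1 h4
    obtain ⟨e, -, he⟩ := FiniteField.card F p
    rw [hF, h5] at he
    have : 3 ∣ q := by rw [he]; exact dvd_pow_self 3 e.ne_zero
    omega
  · have ho : orderOf (Units.mk0 r hr0) = 3 := by
      have _ : Fact (Nat.Prime 3) := ⟨Nat.prime_three⟩
      apply orderOf_eq_prime
      · apply Units.ext
        rw [Units.val_pow_eq_pow_val, Units.val_mk0, h3, Units.val_one]
      · intro h2
        exact h1 (congrArg Units.val h2)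
    have h6 : 3 ∣ Nat.card Fˣ := ho ▸ orderOf_dvd_natCard _
    rw [Nat.card_units, Nat.card_eq_fintype_card, hF] at h6
    have : 1 ≤ q := by rw [← hF]; exact Fintype.card_pos
    omega

end fin

section mats
variable {m : ℕ}

/-- the `F`-matrix of a `K`-matrix -/
def rho (T : Matrix (Fin m) (Fin m) (KK F)) : Matrix (Fin m ⊕ Fin m) (Fin m ⊕ Fin m) F :=
  fromBlocks (T.map QuadraticAlgebra.re) (-T.map QuadraticAlgebra.im) (T.map QuadraticAlgebra.im)
    (T.map QuadraticAlgebra.re - T.map QuadraticAlgebra.im)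

/-- multiplication by the cube root of unity -/
def x0 (m : ℕ) (F : Type*) [Field F] : Matrix (Fin m ⊕ Fin m) (Fin m ⊕ Fin m) F :=
  fromBlocks 0 (-1) 1 (-1)

theorem rho_injective : Function.Injective (rho (F := F) (m := m)) := by
  intro T T' h
  rw [rho, rho, fromBlocks_inj] at h
  ext i j
  · exact congrFun (congrFun h.1 i) j
  · exact congrFun (congrFun h.2.2.1 i) j

theorem commute_iff (X : Matrix (Fin m ⊕ Fin m) (Fin m ⊕ Fin m) F) :
    X * x0 m F = x0 m F * X ↔ ∃ T, rho T = X := by
  constructor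
  · intro h
    rw [← fromBlocks_toBlocks X, x0, fromBlocks_multiply, fromBlocks_multiply, fromBlocks_inj] at h
    simp only [mul_zero, mul_one, zero_add, mul_neg, zero_mul, neg_mul, one_mul] at h
    obtain ⟨h1, h2, h3, h4⟩ := h
    refine ⟨Matrix.of fun i j => ⟨X.toBlocks₁₁ i j, X.toBlocks₂₁ i j⟩, ?_⟩
    rw [← fromBlocks_toBlocks X, rho]
    congr 1
    · rw [h1]
      rfl
    · rw [h3, ← sub_eq_add_neg]
      rfl
  · rintro ⟨T, rfl⟩
    rw [rho, x0, fromBlocks_multiply, fromBlocks_multiply]
    simp only [mul_zero, mul_one, zero_add, mul_neg, zero_mul, neg_mul, one_mul]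
    congr 1
    · abel
    · abel

theorem x0_mem : x0 m F ∈ Matrix.symplecticGroup (Fin m) F := by
  rw [SymplecticGroup.mem_iff', x0, Matrix.J, fromBlocks_transpose, fromBlocks_multiply,
    fromBlocks_multiply]
  simp

variable [Fact (∀ r : F, r ^ 2 ≠ -1 + -1 * r)]

/-- `rho T` is symplectic iff `T` is unitary -/
theorem rho_mem_iff (φ : KK F →+* KK F) (hφ : ∀ z, φ z = star z)
    (T : Matrix (Fin m) (Fin m) (KK F)) :
    rho T ∈ Matrix.symplecticGroup (Fin m) F ↔ sth φ T * T = 1 := by
  set P := T.map QuadraticAlgebra.re with hP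
  set R := T.map QuadraticAlgebra.im with hR
  have hsum_re : ∀ (f : Fin m → KK F), (∑ k, f k).re = ∑ k, (f k).re := fun f =>
    map_sum (⟨⟨QuadraticAlgebra.re, rfl⟩, fun _ _ => rfl⟩ : KK F →+ F) f _
  have hsum_im : ∀ (f : Fin m → KK F), (∑ k, f k).im = ∑ k, (f k).im := fun f =>
    map_sum (⟨⟨QuadraticAlgebra.im, rfl⟩, fun _ _ => rfl⟩ : KK F →+ F) f _
  have hre : (sth φ T * T).map QuadraticAlgebra.re = Pᵀ * P - Rᵀ * P + Rᵀ * R := by
    ext i j
    simp only [Matrix.map_apply, Matrix.mul_apply, sth_apply, Matrix.transpose_apply, hφ,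
      Matrix.add_apply, Matrix.sub_apply, hP, hR, hsum_re]
    rw [← Finset.sum_sub_distrib, ← Finset.sum_add_distrib]
    refine Finset.sum_congr rfl fun k _ => ?_
    simp only [QuadraticAlgebra.re_mul, QuadraticAlgebra.re_star, QuadraticAlgebra.im_star]
    ring
  have him : (sth φ T * T).map QuadraticAlgebra.im = Pᵀ * R - Rᵀ * P := by
    ext i j
    simp only [Matrix.map_apply, Matrix.mul_apply, sth_apply, Matrix.transpose_apply, hφ,
      Matrix.sub_apply, hP, hR, hsum_im]
    rw [← Finset.sum_sub_distrib]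
    refine Finset.sum_congr rfl fun k _ => ?_
    simp only [QuadraticAlgebra.im_mul, QuadraticAlgebra.re_star, QuadraticAlgebra.im_star]
    ring
  have hone : sth φ T * T = 1 ↔ (sth φ T * T).map QuadraticAlgebra.re = 1 ∧
      (sth φ T * T).map QuadraticAlgebra.im = 0 := by
    constructor
    · intro h
      rw [h]
      constructor
      · ext i j
        by_cases hij : i = j
        · subst hij; simp; rfl
        · simp [Matrix.one_apply_ne hij]
      · ext i j
        by_cases hij : i = j
        · subst hij; simp; rfl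
        · simp [Matrix.one_apply_ne hij]
    · rintro ⟨h1, h2⟩
      ext i j
      · have := congrFun (congrFun h1 i) j
        rw [Matrix.map_apply] at this
        rw [this]
        by_cases hij : i = j
        · subst hij; simp; rfl
        · simp [Matrix.one_apply_ne hij]
      · have := congrFun (congrFun h2 i) j
        rw [Matrix.map_apply] at this
        rw [this]
        by_cases hij : i = j
        · subst hij; simp; rfl
        · simp [Matrix.one_apply_ne hij]
  rw [hone, hre, him, SymplecticGroup.mem_iff', rho, Matrix.J, fromBlocks_transpose,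
    fromBlocks_multiply, fromBlocks_multiply, fromBlocks_inj]
  simp only [mul_zero, zero_add, add_zero, mul_one, mul_neg, neg_mul, Matrix.transpose_neg,
    Matrix.transpose_sub, neg_neg]
  simp only [← hP, ← hR, mul_sub, sub_mul]
  constructor
  · rintro ⟨h1, h2, h3, h4⟩
    refine ⟨h3, ?_⟩
    have : Pᵀ * R - Rᵀ * P = -(Rᵀ * P + -(Pᵀ * R)) := by abel
    rw [this, h1, neg_zero]
  · rintro ⟨h1, h2⟩
    have h3 : Pᵀ * R = Rᵀ * P := sub_eq_zero.1 h2
    refine ⟨by rw [h3]; abel, ?_, h1, by rw [h3]; abel⟩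
    rw [← h1, h3]
    abel

end mats

section count
variable [Fintype F] {q : ℕ} [Fact (∀ r : F, r ^ 2 ≠ -1 + -1 * r)] [Fintype (KK F)]

theorem card_KK (hF : Fintype.card F = q) : Fintype.card (KK F) = q ^ 2 := by
  rw [Fintype.card_congr (QuadraticAlgebra.equivProd (-1 : F) (-1)), Fintype.card_prod, hF, sq]

theorem omega_cube : (QuadraticAlgebra.omega : KK F) ^ 3 = 1 := by
  have : (QuadraticAlgebra.omega : KK F) ^ 3
      = QuadraticAlgebra.omega * (QuadraticAlgebra.omega * QuadraticAlgebra.omega) := by ring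
  rw [this, QuadraticAlgebra.omega_mul_omega_eq_mk, QuadraticAlgebra.omega_mul_mk]
  ext <;> simp <;> rfl

theorem frob_eq_star (hF : Fintype.card F = q) (hq : q % 3 = 2) (φ : KK F →+* KK F)
    (hφ : ∀ z, φ z = z ^ q) (z : KK F) : φ z = star z := by
  have h1 : z = algebraMap F (KK F) z.re + algebraMap F (KK F) z.im * QuadraticAlgebra.omega := by
    ext <;> simp
  have h2 : ∀ a : F, φ (algebraMap F (KK F) a) = algebraMap F (KK F) a := by
    intro a
    rw [hφ, ← map_pow, ← hF, FiniteField.pow_card]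
  have h3 : φ QuadraticAlgebra.omega = QuadraticAlgebra.omega * QuadraticAlgebra.omega := by
    have : q = 3 * (q / 3) + 2 := by omega
    rw [hφ, this, pow_add, pow_mul, omega_cube, one_pow, one_mul, sq]
  conv_lhs => rw [h1]
  rw [map_add, map_mul, h2, h2, h3, QuadraticAlgebra.omega_mul_omega_eq_mk]
  ext <;> simp

theorem card_centralizer_x0 (hF : Fintype.card F = q) (hq : q % 3 = 2) (m : ℕ) :
    Nat.card (Subgroup.centralizer
      ({⟨x0 m F, x0_mem⟩} : Set (Matrix.symplecticGroup (Fin m) F)))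
      = Nat.card (Cfsg.GU m (KK F) q) := by
  have hK := card_KK (F := F) hF
  obtain ⟨φ, hφq, -, -⟩ := exists_frob hK
  have hφs := frob_eq_star hF hq φ hφq
  rw [Nat.card_congr (Cfsg.Agent.Lib.Helper7GU.guEquivIsU hK)]
  symm
  apply Nat.card_congr
  refine Equiv.ofBijective (fun T => ⟨⟨rho T.1, (rho_mem_iff φ hφs T.1).2
    ((isU_iff φ hφq _).1 T.2)⟩, ?_⟩) ⟨?_, ?_⟩
  · rw [Subgroup.mem_centralizer_singleton_iff]
    apply Subtype.ext
    exact ((commute_iff _).2 ⟨T.1, rfl⟩)
  · intro T T' h
    apply Subtype.ext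
    apply rho_injective
    exact congrArg (fun c => c.1.1) h
  · rintro ⟨⟨X, hX⟩, hc⟩
    rw [Subgroup.mem_centralizer_singleton_iff] at hc
    obtain ⟨T, rfl⟩ := (commute_iff X).1 (congrArg Subtype.val hc)
    exact ⟨⟨T, (isU_iff φ hφq _).2 ((rho_mem_iff φ hφs T).1 hX)⟩, rfl⟩

end count

end Cfsg.Agent.Lib.Helper48Cube
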