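import Mathlib
import Cfsg.Agent.Lib.Helper48Cyclic

set_option autoImplicit false

namespace Cfsg.Agent.Lib.Helper48CycConj

open Module Cfsg.Agent.Lib.Helper48RegNil Cfsg.Agent.Lib.Helper48Cyclic

variable {K V : Type*} [Field K] [AddCommGroup V] [Module K V] [FiniteDimensional K V]

theorem exists_intertwiner (N N' : End K V) {n : ℕ} (hV : finrank K V = n) (hnil : N ^ n = 0)
    (hnil' : N' ^ n = 0) (v v' : V) (hv : (N ^ (n - 1)) v ≠ 0) (hv' : (N' ^ (n - 1)) v' ≠ 0) :
    ∃ g : V ≃ₗ[K] V, ∀ x, g (N x) = N' (g x) := by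
  set b := cycBasis N hV hnil v hv with hb
  set b' := cycBasis N' hV hnil' v' hv' with hb'
  refine ⟨b.equiv b' (Equiv.refl _), ?_⟩
  intro x
  have : ((b.equiv b' (Equiv.refl _)).toLinearMap ∘ₗ N) = N' ∘ₗ (b.equiv b' (Equiv.refl _)).toLinearMap := by
    apply b.ext
    intro i
    simp only [LinearMap.comp_apply, LinearEquiv.coe_coe, Basis.equiv_apply, Equiv.refl_apply]
    have e1 : N (b i) = (N ^ ((i : ℕ) + 1)) v := by
      rw [hb, cycBasis_apply, pow_succ', Module.End.mul_apply]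
    have e2 : N' (b' i) = (N' ^ ((i : ℕ) + 1)) v' := by
      rw [hb', cycBasis_apply, pow_succ', Module.End.mul_apply]
    rw [e1, e2]
    by_cases hi : (i : ℕ) + 1 < n
    · have f1 : (N ^ ((i : ℕ) + 1)) v = b ⟨(i : ℕ) + 1, hi⟩ := by rw [hb, cycBasis_apply]
      have f2 : (N' ^ ((i : ℕ) + 1)) v' = b' ⟨(i : ℕ) + 1, hi⟩ := by rw [hb', cycBasis_apply]
      rw [f1, f2, Basis.equiv_apply, Equiv.refl_apply]
    · have : (i : ℕ) + 1 = n := by have := i.2; omega
      rw [this, hnil, hnil']; simp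
  exact congrArg (fun f : V →ₗ[K] V => f x) this

omit [FiniteDimensional K V] in
theorem psi_split (N : End K V) {n : ℕ} (a : Fin n.succ → K) :
    psi N a = a 0 • 1 + N * ∑ i : Fin n, a i.succ • N ^ (i : ℕ) := by
  unfold psi
  rw [Fin.sum_univ_succ, Finset.mul_sum]
  congr 1
  apply Finset.sum_congr rfl
  intro i _
  rw [Fin.val_succ, pow_succ', mul_smul_comm]

theorem det_smul_one_add_nilpotent (a : K) (Z : End K V) (hZ : IsNilpotent Z) :
    LinearMap.det (a • 1 + Z) = a ^ finrank K V := by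
  have h1 := LinearMap.eval_charpoly (-Z) a
  rw [IsNilpotent.charpoly_eq_X_pow_finrank hZ.neg] at h1
  simp only [Polynomial.eval_pow, Polynomial.eval_X, sub_neg_eq_add] at h1
  rw [h1, Algebra.algebraMap_eq_smul_one]

theorem det_psi (N : End K V) {n : ℕ} (hnil : N ^ n.succ = 0) (a : Fin n.succ → K) :
    LinearMap.det (psi N a) = a 0 ^ finrank K V := by
  rw [psi_split]
  apply det_smul_one_add_nilpotent
  have hc : Commute N (∑ i : Fin n, a i.succ • N ^ (i : ℕ)) := by
    apply Commute.sum_right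
    intro i _
    exact ((Commute.refl N).pow_right _).smul_right _
  exact hc.isNilpotent_mul_right ⟨n.succ, hnil⟩

theorem det_of_comm (N : End K V) {n : ℕ} (hV : finrank K V = n + 1)
    (hker : finrank K (LinearMap.ker N) ≤ 1) (hnil : N ^ (n + 1) = 0) (g : End K V)
    (hg : Commute g N) : ∃ a : K, LinearMap.det g = a ^ (n + 1) := by
  obtain ⟨v, hv⟩ := exists_cyclic N hker (by rw [hV]; exact hnil) (by omega)
  rw [hV] at hv
  have h1 := eq_psi_of_comm N hV hnil v hv g hg
  refine ⟨(cycBasis N hV hnil v hv).repr (g v) 0, ?_⟩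
  conv_lhs => rw [h1]
  rw [det_psi N hnil, hV]

section Mat

variable {ι : Type*} [Fintype ι] [DecidableEq ι]

theorem matrix_exists_conj (M M' : Matrix ι ι K) {n : ℕ} (hcard : Fintype.card ι = n + 1)
    (hnil : M ^ (n + 1) = 0) (hreg : M.rank = n) (hnil' : M' ^ (n + 1) = 0) (hreg' : M'.rank = n) :
    ∃ g : GL ι K, (g : Matrix ι ι K) * M = M' * (g : Matrix ι ι K) := by
  have hV : finrank K (ι → K) = n + 1 := by rw [Module.finrank_fintype_fun_eq_card, hcard]
  set N : End K (ι → K) := Matrix.mulVecLin M with hN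
  set N' : End K (ι → K) := Matrix.mulVecLin M' with hN'
  have hker : finrank K (LinearMap.ker N) ≤ 1 :=
    matrix_ker_le_one _ (by rw [hcard, Nat.add_sub_cancel]; exact hreg)
  have hker' : finrank K (LinearMap.ker N') ≤ 1 :=
    matrix_ker_le_one _ (by rw [hcard, Nat.add_sub_cancel]; exact hreg')
  have hn : N ^ (n + 1) = 0 := by rw [hN, ← mulVecLin_pow, hnil]; simp
  have hn' : N' ^ (n + 1) = 0 := by rw [hN', ← mulVecLin_pow, hnil']; simp
  obtain ⟨v, hv⟩ := exists_cyclic N hker (by rw [hV]; exact hn) (by omega)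
  obtain ⟨v', hv'⟩ := exists_cyclic N' hker' (by rw [hV]; exact hn') (by omega)
  rw [hV] at hv hv'
  obtain ⟨g, hg⟩ := exists_intertwiner N N' hV hn hn' v v' hv hv'
  let e : Matrix ι ι K ≃ₐ[K] End K (ι → K) := Matrix.toLinAlgEquiv'
  refine ⟨(Units.mapEquiv e.symm.toMulEquiv) (LinearMap.GeneralLinearGroup.ofLinearEquiv g), ?_⟩
  change e.symm (g : End K (ι → K)) * M = M' * e.symm (g : End K (ι → K))
  apply e.injective
  rw [map_mul, map_mul, AlgEquiv.apply_symm_apply]
  apply LinearMap.ext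
  intro x
  exact hg x

theorem matrix_det_of_comm (M : Matrix ι ι K) {n : ℕ} (hcard : Fintype.card ι = n + 1)
    (hnil : M ^ (n + 1) = 0) (hreg : M.rank = n) (c : Matrix ι ι K) (hc : Commute c M) :
    ∃ a : K, c.det = a ^ (n + 1) := by
  have hV : finrank K (ι → K) = n + 1 := by rw [Module.finrank_fintype_fun_eq_card, hcard]
  set N : End K (ι → K) := Matrix.mulVecLin M with hN
  have hker : finrank K (LinearMap.ker N) ≤ 1 :=
    matrix_ker_le_one _ (by rw [hcard, Nat.add_sub_cancel]; exact hreg)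
  have hn : N ^ (n + 1) = 0 := by rw [hN, ← mulVecLin_pow, hnil]; simp
  let e : Matrix ι ι K ≃ₐ[K] End K (ι → K) := Matrix.toLinAlgEquiv'
  have hc' : Commute (e c) N := hc.map e
  obtain ⟨a, ha⟩ := det_of_comm N hV hker hn (e c) hc'
  refine ⟨a, ?_⟩
  rw [← ha]
  exact (LinearMap.det_toLin' c).symm

end Mat

end Cfsg.Agent.Lib.Helper48CycConj
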