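import Mathlib
import Cfsg.Agent.Lib.Helper48Cyclic

set_option autoImplicit false

namespace Cfsg.Agent.Lib.Helper48CycCount

open Module Cfsg.Agent.Lib.Helper48RegNil Cfsg.Agent.Lib.Helper48Cyclic

variable {K V : Type*} [Field K] [AddCommGroup V] [Module K V] [FiniteDimensional K V]

theorem card_vec_ne_zero [Fintype K] (n : ℕ) :
    Nat.card {a : Fin (n + 1) → K // a 0 ≠ 0} = (Fintype.card K - 1) * Fintype.card K ^ n := by
  classical
  rw [Nat.card_eq_fintype_card, Fintype.card_subtype]
  have : (Finset.univ.filter (fun a : Fin (n + 1) → K => a 0 ≠ 0)) =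
      Fintype.piFinset (Fin.cons (Finset.univ.erase (0 : K)) (fun _ => Finset.univ) : Fin (n + 1) → Finset K) := by
    ext a
    simp only [Finset.mem_filter, Finset.mem_univ, true_and, Fintype.mem_piFinset]
    constructor
    · intro h i
      refine Fin.cases ?_ (fun j => ?_) i
      · simpa using h
      · simp
    · intro h
      simpa using h 0
  rw [this, Fintype.card_piFinset, Fin.prod_univ_succ]
  simp [Finset.card_erase_of_mem]

theorem card_comm_units [Fintype K] (N : End K V) {n : ℕ} (hV : finrank K V = n + 1)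
    (hker : finrank K (LinearMap.ker N) ≤ 1) (hnil : N ^ (n + 1) = 0) :
    Nat.card {g : (End K V)ˣ // Commute (g : End K V) N} =
      (Fintype.card K - 1) * Fintype.card K ^ n := by
  obtain ⟨v, hv⟩ := exists_cyclic N hker (by rw [hV]; exact hnil) (by omega)
  rw [hV, Nat.add_sub_cancel] at hv
  rw [← card_vec_ne_zero]
  symm
  have hv' : (N ^ (n + 1 - 1)) v ≠ 0 := by rwa [Nat.add_sub_cancel]
  apply Nat.card_congr
  refine Equiv.ofBijective (fun a => ⟨((psi_isUnit_iff N hV hnil v hv a.1).mpr a.2).unit, ?_⟩) ⟨?_, ?_⟩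
  · rw [IsUnit.unit_spec]; exact psi_comm N a.1
  · intro a a' h
    have h1 := congrArg (fun g => ((g.1 : (End K V)ˣ) : End K V)) h
    simp only [IsUnit.unit_spec] at h1
    exact Subtype.ext (psi_injective N hV hnil v hv' h1)
  · rintro ⟨g, hg⟩
    have h1 := eq_psi_of_comm N hV hnil v hv' g hg
    have h2 : IsUnit (psi N (fun i => (cycBasis N hV hnil v hv').repr ((g : End K V) v) i)) := by
      rw [← h1]; exact g.isUnit
    refine ⟨⟨_, (psi_isUnit_iff N hV hnil v hv _).mp h2⟩, ?_⟩
    apply Subtype.ext
    apply Units.ext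
    simp only [IsUnit.unit_spec]
    exact h1.symm

theorem card_centralizer_GL {ι : Type*} [Fintype ι] [DecidableEq ι] [Fintype K] (u : GL ι K) {n : ℕ}
    (hcard : Fintype.card ι = n + 1) (hnil : ((u : Matrix ι ι K) - 1) ^ (n + 1) = 0)
    (hreg : ((u : Matrix ι ι K) - 1).rank = n) :
    Nat.card ↥(Subgroup.centralizer ({u} : Set (GL ι K))) =
      (Fintype.card K - 1) * Fintype.card K ^ n := by
  set N : End K (ι → K) := Matrix.mulVecLin ((u : Matrix ι ι K) - 1) with hN
  have hV : finrank K (ι → K) = n + 1 := by rw [Module.finrank_fintype_fun_eq_card, hcard]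
  have hker : finrank K (LinearMap.ker N) ≤ 1 :=
    matrix_ker_le_one _ (by rw [hcard, Nat.add_sub_cancel]; exact hreg)
  have hnil' : N ^ (n + 1) = 0 := by rw [hN, ← mulVecLin_pow, hnil]; simp
  rw [← card_comm_units N hV hker hnil']
  apply Nat.card_congr
  let e : Matrix ι ι K ≃ₐ[K] End K (ι → K) := Matrix.toLinAlgEquiv'
  have heN : e ((u : Matrix ι ι K) - 1) = N := rfl
  refine Equiv.subtypeEquiv (Units.mapEquiv e.toMulEquiv).toEquiv (fun g => ?_)
  rw [Subgroup.mem_centralizer_singleton_iff]
  change _ ↔ Commute (e (g : Matrix ι ι K)) N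
  rw [← heN]
  constructor
  · intro h
    have h1 : (g : Matrix ι ι K) * (u : Matrix ι ι K) = (u : Matrix ι ι K) * (g : Matrix ι ι K) := by
      have := congrArg (fun x : GL ι K => (x : Matrix ι ι K)) h
      simpa using this
    have h2 : Commute (g : Matrix ι ι K) ((u : Matrix ι ι K) - 1) :=
      Commute.sub_right h1 (Commute.one_right _)
    exact h2.map e
  · intro h
    have h2 : Commute (g : Matrix ι ι K) ((u : Matrix ι ι K) - 1) := by
      have := h.map e.symm
      simpa using this
    have h3 : Commute (g : Matrix ι ι K) (u : Matrix ι ι K) := by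
      have := h2.add_right (Commute.one_right _)
      simpa using this
    apply Units.ext
    exact h3.eq

end Cfsg.Agent.Lib.Helper48CycCount
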