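import Mathlib
import Cfsg.Agent.Lib.Helper48UnipOrth

set_option autoImplicit false
set_option linter.unusedSectionVars false

namespace Cfsg.Agent.Lib.Helper48Dye

open Module Matrix Cfsg.Agent.Lib.Helper48AltForm
  Cfsg.Agent.Lib.Helper48UnipForm Cfsg.Agent.Lib.Helper48UnipEx Cfsg.Agent.Lib.Helper48UnipOrth

universe u
variable {F : Type u} [Field F]

/-- a skew matrix is a diagonal matrix plus a matrix of the shape `U - Uᵀ` -/
theorem decomp {n : ℕ} (M : Matrix (Fin n) (Fin n) F) (hM : Mᵀ = -M) :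
    ∃ U : Matrix (Fin n) (Fin n) F, M = Matrix.diagonal (fun i => M i i) + (U - Uᵀ) := by
  refine ⟨Matrix.of fun i j => if i < j then M i j else 0, ?_⟩
  ext i j
  have h := congrFun (congrFun hM i) j
  rw [Matrix.transpose_apply, Matrix.neg_apply] at h
  rw [Matrix.add_apply, Matrix.sub_apply, Matrix.transpose_apply, Matrix.of_apply, Matrix.of_apply]
  rcases lt_trichotomy i j with hij | rfl | hij
  · rw [Matrix.diagonal_apply_ne _ hij.ne, if_pos hij, if_neg hij.le.not_gt]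
    ring
  · rw [Matrix.diagonal_apply_eq, if_neg (lt_irrefl _)]
    ring
  · rw [Matrix.diagonal_apply_ne _ hij.ne', if_neg hij.le.not_gt, if_pos hij, h]
    ring

theorem diag_form {n : ℕ} (M : Matrix (Fin n) (Fin n) F) (hM : Mᵀ = -M) (x : Fin n → F) :
    x ⬝ᵥ M *ᵥ x = ∑ i, M i i * (x i * x i) := by
  obtain ⟨U, hU⟩ := decomp M hM
  conv_lhs => rw [hU]
  rw [Matrix.add_mulVec, dotProduct_add, alt_sub_transpose, add_zero, dotProduct]
  refine Finset.sum_congr rfl fun i _ => ?_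
  rw [Matrix.mulVec_diagonal]
  ring

theorem exists_sqrt [Finite F] [CharP F 2] (a : F) : ∃ c : F, c * c = a := by
  obtain ⟨c, hc⟩ := (Finite.injective_iff_surjective.1 (frobenius_inj F 2)) a
  exact ⟨c, by rw [← hc, frobenius_def, pow_two]⟩

theorem sum_sq [CharP F 2] {n : ℕ} (c x : Fin n → F) :
    ∑ i, (c i * c i) * (x i * x i) = (c ⬝ᵥ x) * (c ⬝ᵥ x) := by
  rw [dotProduct, ← pow_two, sum_pow_char 2]
  refine Finset.sum_congr rfl fun i _ => ?_
  ring

/-- a vector orthogonal to the kernel of `N` lies in the row space of `N` -/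
theorem exists_row {n : ℕ} (N : Matrix (Fin n) (Fin n) F) (c : Fin n → F)
    (h : ∀ v, N *ᵥ v = 0 → c ⬝ᵥ v = 0) : ∃ b : Fin n → F, ∀ x, c ⬝ᵥ x = b ⬝ᵥ N *ᵥ x := by
  let φ : Module.Dual F (Fin n → F) :=
    { toFun := fun x => c ⬝ᵥ x
      map_add' := fun x y => dotProduct_add _ _ _
      map_smul' := fun a x => dotProduct_smul _ _ _ }
  have h1 : φ ∈ (LinearMap.ker N.mulVecLin).dualAnnihilator := by
    rw [Submodule.mem_dualAnnihilator]
    intro v hv
    exact h v hv
  rw [← LinearMap.range_dualMap_eq_dualAnnihilator_ker] at h1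
  obtain ⟨ψ, hψ⟩ := h1
  refine ⟨fun i => ψ (Pi.single i 1), fun x => ?_⟩
  have h2 : c ⬝ᵥ x = ψ (N *ᵥ x) := by
    have := LinearMap.congr_fun hψ x
    rw [LinearMap.dualMap_apply] at this
    exact this.symm
  rw [h2]
  rw [LinearMap.pi_apply_eq_sum_univ ψ (N *ᵥ x), dotProduct]
  refine Finset.sum_congr rfl fun i _ => ?_
  rw [smul_eq_mul, mul_comm]
  congr 2
  funext j
  rw [Pi.single_apply]
  simp only [eq_comm]

/-- Dye: in characteristic two every isometry of a nondegenerate alternating form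
preserves a quadratic form polarising to it -/
theorem quadInv_of_altInv [Finite F] [CharP F 2] {n : ℕ} (A : Matrix (Fin n) (Fin n) F)
    (h : AltInv A) : QuadInv A := by
  obtain ⟨Y, Y', hYY', halt, hinv⟩ := h
  have hneg : ∀ a : F, -a = a := fun a => CharTwo.neg_eq a
  have hnegM : ∀ a : Matrix (Fin n) (Fin n) F, -a = a := fun a => by
    ext i j; exact hneg _
  have hYt := transpose_of_alt Y halt
  obtain ⟨U, hU⟩ := decomp Y hYt
  have hdiag : ∀ i, Y i i = 0 := by
    intro i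
    have := halt (Pi.single i 1)
    simpa using this
  have hY : Y = U + Uᵀ := by
    rw [hU]
    simp only [hdiag]
    rw [sub_eq_add_neg, hnegM]
    simp
  set M := Aᵀ * U * A - U with hM
  have hMt : Mᵀ = -M := by
    rw [hM, Matrix.transpose_sub, Matrix.transpose_mul, Matrix.transpose_mul,
      Matrix.transpose_transpose, ← mul_assoc]
    have e1 : Aᵀ * Uᵀ * A = Aᵀ * Y * A - Aᵀ * U * A := by
      rw [hY, mul_add, add_mul]; abel
    rw [e1, hinv]
    conv_lhs => rw [hY]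
    abel
  choose c hc using fun i => exists_sqrt (M i i)
  have hD : ∀ x, (A *ᵥ x) ⬝ᵥ U *ᵥ (A *ᵥ x) = x ⬝ᵥ U *ᵥ x + (c ⬝ᵥ x) * (c ⬝ᵥ x) := by
    intro x
    rw [← sum_sq]
    simp only [hc]
    rw [← diag_form M hMt, hM, Matrix.sub_mulVec, dotProduct_sub, ← Matrix.mulVec_mulVec,
      ← Matrix.mulVec_mulVec, Matrix.dotProduct_mulVec x Aᵀ, Matrix.vecMul_transpose]
    abel
  obtain ⟨b, hb⟩ := exists_row (A - 1) c (by
    intro v hv
    have hv' : A *ᵥ v = v := by
      rw [Matrix.sub_mulVec, Matrix.one_mulVec, sub_eq_zero] at hv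
      exact hv
    have := hD v
    rw [hv'] at this
    have h3 : (c ⬝ᵥ v) * (c ⬝ᵥ v) = 0 := by
      have h4 := this.symm
      rwa [add_eq_left] at h4
    exact mul_self_eq_zero.1 h3)
  refine ⟨U + Matrix.vecMulVec b b, ?_, ?_⟩
  · have : U + vecMulVec b b + (U + vecMulVec b b)ᵀ = Y := by
      rw [Matrix.transpose_add, Matrix.transpose_vecMulVec, hY]
      have : vecMulVec b b + vecMulVec b b = 0 := by
        rw [← two_smul F, CharTwo.two_eq_zero, zero_smul]
      calc U + vecMulVec b b + (Uᵀ + vecMulVec b b)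
          = U + Uᵀ + (vecMulVec b b + vecMulVec b b) := by abel
        _ = U + Uᵀ := by rw [this, add_zero]
    rw [this]
    exact IsUnit.of_mul_eq_one _ hYY'
  · intro x
    have hv : ∀ y : Fin n → F, y ⬝ᵥ (vecMulVec b b) *ᵥ y = (b ⬝ᵥ y) * (b ⬝ᵥ y) := by
      intro y
      rw [Matrix.vecMulVec_mulVec, dotProduct_smul, dotProduct_comm y b]
      rfl
    rw [Matrix.add_mulVec, Matrix.add_mulVec, dotProduct_add, dotProduct_add, hv, hv, hD]
    have e1 : b ⬝ᵥ A *ᵥ x = c ⬝ᵥ x + b ⬝ᵥ x := by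
      rw [hb, Matrix.sub_mulVec, Matrix.one_mulVec, dotProduct_sub]
      abel
    rw [e1]
    have e2 : ∀ s t : F, (s + t) * (s + t) = s * s + t * t := by
      intro s t
      rw [← pow_two, add_pow_char, pow_two, pow_two]
    rw [e2]
    have e3 : ∀ s : F, s + s = 0 := CharTwo.add_self_eq_zero
    calc _ = x ⬝ᵥ U *ᵥ x + b ⬝ᵥ x * b ⬝ᵥ x + (c ⬝ᵥ x * c ⬝ᵥ x + c ⬝ᵥ x * c ⬝ᵥ x) := by ring
      _ = _ := by rw [e3, add_zero]

end Cfsg.Agent.Lib.Helper48Dye
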