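import Mathlib

set_option autoImplicit false

namespace Cfsg.Agent.Lib.Helper48EigCount

/-- stars and bars -/
theorem card_sum_le (U : Type*) [Fintype U] (N : ℕ) :
    Nat.card {b : U → ℕ // ∑ x, b x ≤ N} = (N + Fintype.card U).choose (Fintype.card U) := by
  classical
  let e : {b : U → ℕ // ∑ x, b x ≤ N} ≃ {P : Option U → ℕ // ∑ i, P i = N} :=
    { toFun := fun b => ⟨fun o => o.elim (N - ∑ x, b.1 x) b.1, by
        rw [Fintype.sum_option]
        have := b.2
        simp only [Option.elim]
        omega⟩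
      invFun := fun P => ⟨fun x => P.1 (some x), by
        have := P.2
        rw [Fintype.sum_option] at this
        change ∑ x, P.1 (some x) ≤ N
        omega⟩
      left_inv := fun b => rfl
      right_inv := fun P => by
        apply Subtype.ext
        funext o
        have := P.2
        rw [Fintype.sum_option] at this
        cases o with
        | none => simp only [Option.elim]; omega
        | some x => rfl }
  rw [Nat.card_congr e, Nat.card_congr (Sym.equivNatSumOfFintype (Option U) N).symm,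
    Nat.card_eq_fintype_card, Sym.card_sym_eq_choose, Fintype.card_option]
  have h1 : Fintype.card U + 1 + N - 1 = N + Fintype.card U := by omega
  rw [h1, Nat.choose_symm_add]

theorem sum_mk {G : Type*} [Group G] [Fintype G] (S : Subgroup G) [Fintype (G ⧸ S)]
    (f : G ⧸ S → ℕ) :
    ∑ g : G, f (QuotientGroup.mk g) = Nat.card S * ∑ x, f x := by
  classical
  rw [← Fintype.sum_fiberwise' (QuotientGroup.mk : G → G ⧸ S) f, Finset.mul_sum]
  refine Finset.sum_congr rfl fun x _ => ?_
  rw [Finset.sum_const, Finset.card_univ, smul_eq_mul]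
  congr 1
  have h := QuotientGroup.card_preimage_mk S {x}
  have h1 : Nat.card ({x} : Set (G ⧸ S)) = 1 := by simp
  rw [h1, mul_one] at h
  rw [← h, ← Nat.card_eq_fintype_card]
  rfl

variable {r : ℕ} [Fact r.Prime]

theorem sum_units (a : ZMod r → ℕ) : ∑ k, a k = a 0 + ∑ g : (ZMod r)ˣ, a g.1 := by
  classical
  rw [Fintype.sum_eq_add_sum_subtype_ne a 0]
  congr 1
  exact (Fintype.sum_equiv unitsEquivNeZero _ _ fun g => rfl).symm

theorem invariant_pow (w : (ZMod r)ˣ) (a : ZMod r → ℕ) (ha : ∀ k, a (w.1 * k) = a k) (j : ℕ)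
    (k : ZMod r) : a ((w ^ j : (ZMod r)ˣ).1 * k) = a k := by
  induction j with
  | zero => simp
  | succ j ih => rw [pow_succ', Units.val_mul, mul_assoc, ha, ih]

theorem invariant_mem (w : (ZMod r)ˣ) (a : ZMod r → ℕ) (ha : ∀ k, a (w.1 * k) = a k)
    (s : (ZMod r)ˣ) (hs : s ∈ Subgroup.zpowers w) (k : ZMod r) : a (s.1 * k) = a k := by
  rw [← mem_powers_iff_mem_zpowers] at hs
  obtain ⟨j, rfl⟩ := hs
  exact invariant_pow w a ha j k

/-- the number of multiplicity functions invariant under a unit `w` of order `c` -/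
theorem card_invariant (w : (ZMod r)ˣ) (c u n : ℕ) (hc : orderOf w = c) (hu : u * c = r - 1) :
    Nat.card {a : ZMod r → ℕ // (∀ k, a (w.1 * k) = a k) ∧ ∑ k, a k = n}
      = (n / c + u).choose u := by
  classical
  set S := Subgroup.zpowers w with hS
  have _ : Fintype ((ZMod r)ˣ ⧸ S) := Fintype.ofFinite _
  have hcS : Nat.card S = c := by rw [hS, Nat.card_zpowers, hc]
  have hc0 : 0 < c := by rw [← hc]; exact orderOf_pos w
  have hU : Fintype.card ((ZMod r)ˣ ⧸ S) = u := by
    have h1 := Subgroup.card_eq_card_quotient_mul_card_subgroup S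
    rw [hcS, Nat.card_eq_fintype_card, ZMod.card_units, ← hu, Nat.card_eq_fintype_card] at h1
    exact (Nat.eq_of_mul_eq_mul_right hc0 h1).symm
  have hout : ∀ (a : ZMod r → ℕ), (∀ k, a (w.1 * k) = a k) → ∀ g : (ZMod r)ˣ,
      a ((QuotientGroup.mk g : (ZMod r)ˣ ⧸ S).out).1 = a g.1 := by
    intro a ha g
    obtain ⟨h, hh⟩ := QuotientGroup.mk_out_eq_mul S g
    rw [hh, mul_comm, Units.val_mul]
    exact invariant_mem w a ha h.1 h.2 _
  have hsum : ∀ (a : ZMod r → ℕ), (∀ k, a (w.1 * k) = a k) →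
      ∑ k, a k = a 0 + c * ∑ x : (ZMod r)ˣ ⧸ S, a x.out.1 := by
    intro a ha
    rw [sum_units, ← hcS, ← sum_mk S (fun x => a x.out.1)]
    congr 1
    exact Finset.sum_congr rfl fun g _ => (hout a ha g).symm
  let A : ((ZMod r)ˣ ⧸ S → ℕ) → ZMod r → ℕ := fun b k =>
    if h : k = 0 then n - c * ∑ x, b x else b (QuotientGroup.mk (Units.mk0 k h))
  have hA0 : ∀ b, A b 0 = n - c * ∑ x, b x := fun b => dif_pos rfl
  have hAu : ∀ b (g : (ZMod r)ˣ), A b g.1 = b (QuotientGroup.mk g) := by
    intro b g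
    simp only [A]
    rw [dif_neg g.ne_zero, Units.mk0_val]
  have hAinv : ∀ b k, A b (w.1 * k) = A b k := by
    intro b k
    by_cases hk : k = 0
    · rw [hk, mul_zero]
    · have h1 : w.1 * k = (w * Units.mk0 k hk : (ZMod r)ˣ).1 := rfl
      have h2 : k = (Units.mk0 k hk : (ZMod r)ˣ).1 := rfl
      rw [h1, hAu]
      conv_rhs => rw [h2, hAu]
      congr 1
      rw [QuotientGroup.eq, mul_comm w, mul_inv_rev, mul_assoc, inv_mul_cancel, mul_one]
      exact S.inv_mem (Subgroup.mem_zpowers w)
  let e : {a : ZMod r → ℕ // (∀ k, a (w.1 * k) = a k) ∧ ∑ k, a k = n} ≃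
      {b : (ZMod r)ˣ ⧸ S → ℕ // ∑ x, b x ≤ n / c} :=
    { toFun := fun a => ⟨fun x => a.1 x.out.1, by
        rw [Nat.le_div_iff_mul_le hc0, mul_comm]
        have := hsum a.1 a.2.1
        rw [a.2.2] at this
        change c * ∑ x : (ZMod r)ˣ ⧸ S, a.1 x.out.1 ≤ n
        omega⟩
      invFun := fun b => ⟨A b, hAinv b, by
        have h1 := b.2
        rw [Nat.le_div_iff_mul_le hc0, mul_comm] at h1
        rw [hsum _ (hAinv b), hA0]
        have h2 : ∀ x : (ZMod r)ˣ ⧸ S, A b.1 x.out.1 = b.1 x := by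
          intro x
          rw [hAu, QuotientGroup.out_eq']
        simp only [h2]
        omega⟩
      left_inv := fun a => by
        apply Subtype.ext
        funext k
        by_cases hk : k = 0
        · subst hk
          change A (fun x => a.1 x.out.1) 0 = _
          rw [hA0]
          have := hsum a.1 a.2.1
          rw [a.2.2] at this
          omega
        · have h2 : k = (Units.mk0 k hk : (ZMod r)ˣ).1 := rfl
          change A _ k = _
          rw [h2, hAu]
          exact hout a.1 a.2.1 _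
      right_inv := fun b => by
        apply Subtype.ext
        funext x
        change A b.1 x.out.1 = b.1 x
        rw [hAu, QuotientGroup.out_eq'] }
  rw [Nat.card_congr e, card_sum_le, hU]


theorem card_subtype_and_ne {α : Type*} (P : α → Prop) (a₀ : α) (h₀ : P a₀)
    (hfin : Nat.card {a // P a} ≠ 0) :
    Nat.card {a // P a ∧ a ≠ a₀} = Nat.card {a // P a} - 1 := by
  classical
  have _ : Finite {a // P a} := Nat.finite_of_card_ne_zero hfin
  have _ : Fintype {a // P a} := Fintype.ofFinite _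
  rw [← Nat.card_congr (Equiv.subtypeSubtypeEquivSubtypeInter P (fun a => a ≠ a₀))]
  have e : {x : {a // P a} // x.1 ≠ a₀} ≃ {x : {a // P a} // ¬ (x = ⟨a₀, h₀⟩)} :=
    Equiv.subtypeEquivRight fun x => by rw [Ne, Subtype.ext_iff]
  rw [Nat.card_congr e, Nat.card_eq_fintype_card, Fintype.card_subtype_compl,
    Fintype.card_subtype_eq, Nat.card_eq_fintype_card]

theorem card_invariant_ne (w : (ZMod r)ˣ) (c u n : ℕ) (hc : orderOf w = c) (hu : u * c = r - 1) :
    Nat.card {a : ZMod r → ℕ // ((∀ k, a (w.1 * k) = a k) ∧ ∑ k, a k = n) ∧ a ≠ Pi.single 0 n}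
      = (n / c + u).choose u - 1 := by
  classical
  have h := card_invariant w c u n hc hu
  rw [card_subtype_and_ne (fun a : ZMod r → ℕ => (∀ k, a (w.1 * k) = a k) ∧ ∑ k, a k = n)
    (Pi.single 0 n) ?_ ?_, h]
  · refine ⟨fun k => ?_, by simp⟩
    by_cases hk : k = 0
    · rw [hk, mul_zero]
    · rw [Pi.single_eq_of_ne hk, Pi.single_eq_of_ne (mul_ne_zero w.ne_zero hk)]
  · rw [h]
    exact (Nat.choose_pos (Nat.le_add_left _ _)).ne'

end Cfsg.Agent.Lib.Helper48EigCount
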