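import Mathlib
import Cfsg.Agent.Lib.Helper48EigCount

set_option autoImplicit false

namespace Cfsg.Agent.Lib.Helper48EigCount2

open Cfsg.Agent.Lib.Helper48EigCount

variable {r : ℕ} [Fact r.Prime]

/-- the number of invariant multiplicity functions without the eigenvalue `1` -/
theorem card_invariant_zero (w : (ZMod r)ˣ) (c u n : ℕ) (hc : orderOf w = c) (hu : u * c = r - 1) :
    Nat.card {a : ZMod r → ℕ // ((∀ k, a (w.1 * k) = a k) ∧ ∑ k, a k = n) ∧ a 0 = 0}
      = if c ∣ n then (n / c + u - 1).choose (u - 1) else 0 := by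
  classical
  set S := Subgroup.zpowers w with hS
  have _ : Fintype ((ZMod r)ˣ ⧸ S) := Fintype.ofFinite _
  have hcS : Nat.card S = c := by rw [hS, Nat.card_zpowers, hc]
  have hc0 : 0 < c := by rw [← hc]; exact orderOf_pos w
  have hU : Fintype.card ((ZMod r)ˣ ⧸ S) = u := by
    have h1 := Subgroup.card_eq_card_quotient_mul_card_subgroup S
    rw [hcS, Nat.card_eq_fintype_card, ZMod.card_units, ← hu, Nat.card_eq_fintype_card] at h1
    exact (Nat.eq_of_mul_eq_mul_right hc0 h1).symm
  have hu1 : 1 ≤ u := by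
    have := (Fact.out : r.Prime).two_le
    rcases Nat.eq_zero_or_pos u with h | h
    · rw [h, zero_mul] at hu; omega
    · exact h
  have hout : ∀ (a : ZMod r → ℕ), (∀ k, a (w.1 * k) = a k) → ∀ g : (ZMod r)ˣ,
      a ((QuotientGroup.mk g : (ZMod r)ˣ ⧸ S).out).1 = a g.1 := by
    intro a ha g
    obtain ⟨h, hh⟩ := QuotientGroup.mk_out_eq_mul S g
    rw [hh, mul_comm, Units.val_mul]
    exact invariant_mem w a ha h.1 h.2 _
  have hsum : ∀ (a : ZMod r → ℕ), (∀ k, a (w.1 * k) = a k) →
      ∑ k, a k = a 0 + c * ∑ x : (ZMod r)ˣ ⧸ S, a x.out.1 := by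
    intro a ha
    rw [sum_units, ← hcS, ← sum_mk S (fun x => a x.out.1)]
    congr 1
    exact Finset.sum_congr rfl fun g _ => (hout a ha g).symm
  let A : ((ZMod r)ˣ ⧸ S → ℕ) → ZMod r → ℕ := fun b k =>
    if h : k = 0 then 0 else b (QuotientGroup.mk (Units.mk0 k h))
  have hA0 : ∀ b, A b 0 = 0 := fun b => dif_pos rfl
  have hAu : ∀ b (g : (ZMod r)ˣ), A b g.1 = b (QuotientGroup.mk g) := by
    intro b g
    simp only [A]
    rw [dif_neg g.ne_zero, Units.mk0_val]
  have hAinv : ∀ b k, A b (w.1 * k) = A b k := by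
    intro b k
    by_cases hk : k = 0
    · rw [hk, mul_zero]
    · have h1 : w.1 * k = (w * Units.mk0 k hk : (ZMod r)ˣ).1 := rfl
      have h2 : k = (Units.mk0 k hk : (ZMod r)ˣ).1 := rfl
      rw [h1, hAu]
      conv_rhs => rw [h2, hAu]
      congr 1
      rw [QuotientGroup.eq, mul_comm w, mul_inv_rev, mul_assoc, inv_mul_cancel, mul_one]
      exact S.inv_mem (Subgroup.mem_zpowers w)
  let e : {a : ZMod r → ℕ // ((∀ k, a (w.1 * k) = a k) ∧ ∑ k, a k = n) ∧ a 0 = 0} ≃
      {b : (ZMod r)ˣ ⧸ S → ℕ // c * ∑ x, b x = n} :=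
    { toFun := fun a => ⟨fun x => a.1 x.out.1, by
        have := hsum a.1 a.2.1.1
        rw [a.2.1.2, a.2.2, zero_add] at this
        exact this.symm⟩
      invFun := fun b => ⟨A b, ⟨hAinv b, by
        have h1 := b.2
        rw [hsum _ (hAinv b), hA0]
        have h2 : ∀ x : (ZMod r)ˣ ⧸ S, A b.1 x.out.1 = b.1 x := by
          intro x
          rw [hAu, QuotientGroup.out_eq']
        simp only [h2]
        omega⟩, hA0 b⟩
      left_inv := fun a => by
        apply Subtype.ext
        funext k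
        by_cases hk : k = 0
        · subst hk
          exact (hA0 _).trans a.2.2.symm
        · have h2 : k = (Units.mk0 k hk : (ZMod r)ˣ).1 := rfl
          change A _ k = _
          rw [h2, hAu]
          exact hout a.1 a.2.1.1 _
      right_inv := fun b => by
        apply Subtype.ext
        funext x
        change A b.1 x.out.1 = b.1 x
        rw [hAu, QuotientGroup.out_eq'] }
  rw [Nat.card_congr e]
  split_ifs with hdvd
  · obtain ⟨s, rfl⟩ := hdvd
    have e2 : {b : (ZMod r)ˣ ⧸ S → ℕ // c * ∑ x, b x = c * s} ≃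
        {b : (ZMod r)ˣ ⧸ S → ℕ // ∑ x, b x = s} :=
      Equiv.subtypeEquivRight fun b =>
        ⟨fun h => Nat.eq_of_mul_eq_mul_left hc0 h, fun h => by rw [h]⟩
    rw [Nat.card_congr e2, Nat.card_congr (Sym.equivNatSumOfFintype _ s).symm,
      Nat.card_eq_fintype_card, Sym.card_sym_eq_choose, hU, Nat.mul_div_cancel_left s hc0]
    have h1 : u + s - 1 = s + u - 1 := by omega
    rw [h1]
    apply Nat.choose_symm_of_eq_add
    omega
  · rw [Nat.card_eq_zero]
    left
    exact ⟨fun b => hdvd ⟨_, b.2.symm⟩⟩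

/-- the count with the fixed-point-free functions removed unless `B` holds -/
theorem card_real (w : (ZMod r)ˣ) (c u n : ℕ) (hn : n ≠ 0) (hc : orderOf w = c)
    (hu : u * c = r - 1) (B : Prop) [Decidable B] :
    Nat.card {a : ZMod r → ℕ // a ≠ Pi.single 0 n ∧
        ((∀ k, a (w.1 * k) = a k) ∧ ∑ k, a k = n) ∧ (a 0 ≠ 0 ∨ B)}
      = (n / c + u).choose u - 1 -
        (if B then 0 else if c ∣ n then (n / c + u - 1).choose (u - 1) else 0) := by
  classical
  by_cases hB : B
  · rw [if_pos hB, Nat.sub_zero, ← card_invariant_ne w c u n hc hu]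
    exact Nat.card_congr (Equiv.subtypeEquivRight fun a => by tauto)
  · rw [if_neg hB, ← card_invariant_zero w c u n hc hu, ← card_invariant w c u n hc hu,
      Nat.sub_right_comm]
    set P : (ZMod r → ℕ) → Prop := fun a => (∀ k, a (w.1 * k) = a k) ∧ ∑ k, a k = n with hP
    have hfin : Nat.card {a // P a} ≠ 0 := by
      rw [card_invariant w c u n hc hu]
      exact (Nat.choose_pos (Nat.le_add_left _ _)).ne'
    have _ : Finite {a // P a} := Nat.finite_of_card_ne_zero hfin
    have hsingle : P (Pi.single 0 n) := by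
      refine ⟨fun k => ?_, by simp⟩
      by_cases hk : k = 0
      · rw [hk, mul_zero]
      · rw [Pi.single_eq_of_ne hk, Pi.single_eq_of_ne (mul_ne_zero w.ne_zero hk)]
    have h1 : Nat.card {a // P a ∧ a 0 ≠ 0} = Nat.card {a // P a} - Nat.card {a // P a ∧ a 0 = 0} := by
      have e1 : {a // P a} ≃ {a // P a ∧ a 0 = 0} ⊕ {a // P a ∧ a 0 ≠ 0} :=
        ((Equiv.sumCompl (fun x : {a // P a} => x.1 0 = 0)).symm).trans
          (Equiv.sumCongr (Equiv.subtypeSubtypeEquivSubtypeInter P (fun a => a 0 = 0))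
            (Equiv.subtypeSubtypeEquivSubtypeInter P (fun a => ¬ a 0 = 0)))
      have _ : Finite {a // P a ∧ a 0 = 0} :=
        Finite.of_equiv _ (Equiv.subtypeSubtypeEquivSubtypeInter P (fun a => a 0 = 0))
      have _ : Finite {a // P a ∧ a 0 ≠ 0} :=
        Finite.of_equiv _ (Equiv.subtypeSubtypeEquivSubtypeInter P (fun a => a 0 ≠ 0))
      rw [Nat.card_congr e1, Nat.card_sum]
      omega
    rw [← h1]
    have hfin2 : Nat.card {a // P a ∧ a 0 ≠ 0} ≠ 0 := by
      have _ : Finite {a // P a ∧ a 0 ≠ 0} :=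
        Finite.of_equiv _ (Equiv.subtypeSubtypeEquivSubtypeInter P (fun a => a 0 ≠ 0))
      have _ : Nonempty {a // P a ∧ a 0 ≠ 0} := ⟨⟨Pi.single 0 n, hsingle, by simpa using hn⟩⟩
      exact Nat.card_pos.ne'
    rw [← card_subtype_and_ne (fun a => P a ∧ a 0 ≠ 0) (Pi.single 0 n)
      ⟨hsingle, by simpa using hn⟩ hfin2]
    exact Nat.card_congr (Equiv.subtypeEquivRight fun a => by tauto)

end Cfsg.Agent.Lib.Helper48EigCount2
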