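import Mathlib
import Cfsg.Agent.Lib.Helper48Wall

set_option autoImplicit false

namespace Cfsg.Agent.Lib.Helper48GUCentA

open Matrix

section L1

variable {A : Type*} [Monoid A] (st : A → A) (hmul : ∀ a b, st (a * b) = st b * st a)
  (hone : st 1 = 1) (hst2 : ∀ a, st (st a) = a)

include hmul hone hst2 in
/-- units commuting = unitary ones times Hermitian ones -/
theorem card_units_split (C : A → Prop) (hCmul : ∀ a b, C a → C b → C (a * b))
    (hCinv : ∀ X : Aˣ, C X.1 → C (X⁻¹ : Aˣ).1) (hCst : ∀ a, C a → C (st a))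
    (hsurj : ∀ Y : Aˣ, C Y.1 ∧ st Y.1 = Y.1 → ∃ Z : Aˣ, C Z.1 ∧ st Z.1 * Z.1 = Y.1) :
    Nat.card {X : Aˣ // C X.1}
      = Nat.card {X : Aˣ // C X.1 ∧ st X.1 * X.1 = 1} * Nat.card {Y : Aˣ // C Y.1 ∧ st Y.1 = Y.1} := by
  classical
  choose! Z hZ using hsurj
  let stU : Aˣ → Aˣ := fun X => ⟨st X.1, st (X⁻¹ : Aˣ).1, by rw [← hmul, Units.inv_mul, hone],
    by rw [← hmul, Units.mul_inv, hone]⟩
  have hstU : ∀ X, (stU X).1 = st X.1 := fun X => rfl
  let h : Aˣ → Aˣ := fun X => stU X * X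
  have hh : ∀ X, (h X).1 = st X.1 * X.1 := fun X => rfl
  have hhC : ∀ X : Aˣ, C X.1 → C (h X).1 ∧ st (h X).1 = (h X).1 := by
    intro X hX
    refine ⟨hCmul _ _ (hCst _ hX) hX, ?_⟩
    rw [hh, hmul, hst2]
  rw [← Nat.card_prod]
  apply Nat.card_congr
  refine
    { toFun := fun X => (⟨X.1 * (Z (h X.1))⁻¹, ?_, ?_⟩, ⟨h X.1, hhC X.1 X.2⟩)
      invFun := fun p => ⟨p.1.1 * Z p.2.1, ?_⟩
      left_inv := ?_
      right_inv := ?_ }
  · exact hCmul _ _ X.2 (hCinv _ (hZ _ (hhC X.1 X.2)).1)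
  · have h1 := (hZ _ (hhC X.1 X.2)).2
    set W := Z (h X.1) with hW
    rw [Units.val_mul, hmul]
    calc st (W⁻¹ : Aˣ).1 * st X.1.1 * (X.1.1 * (W⁻¹ : Aˣ).1)
        = st (W⁻¹ : Aˣ).1 * (st X.1.1 * X.1.1) * (W⁻¹ : Aˣ).1 := by simp only [mul_assoc]
      _ = st (W⁻¹ : Aˣ).1 * (st W.1 * W.1) * (W⁻¹ : Aˣ).1 := by rw [h1, hh]
      _ = (st (W⁻¹ : Aˣ).1 * st W.1) * (W.1 * (W⁻¹ : Aˣ).1) := by simp only [mul_assoc]
      _ = 1 := by rw [← hmul, Units.mul_inv, hone, mul_one]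
  · exact hCmul _ _ p.1.2.1 (hZ _ p.2.2).1
  · intro X
    apply Subtype.ext
    simp
  · rintro ⟨⟨U, hU1, hU2⟩, ⟨Y, hY⟩⟩
    have h1 : h (U * Z Y) = Y := by
      apply Units.ext
      rw [hh, Units.val_mul, hmul]
      calc st (Z Y).1 * st U.1 * (U.1 * (Z Y).1) = st (Z Y).1 * (st U.1 * U.1) * (Z Y).1 := by
            simp only [mul_assoc]
        _ = Y.1 := by rw [hU2, mul_one, (hZ _ hY).2]
    apply Prod.ext
    · apply Subtype.ext
      simp only
      rw [h1]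
      simp
    · apply Subtype.ext
      exact h1

end L1

section L2

variable {K V : Type*} [Field K] [AddCommGroup V] [Module K V]

/-- fixed points of a semilinear involution -/
theorem card_fix_sq (φ : K →+* K) (hφ2 : ∀ x, φ (φ x) = x) (ω : K) (hω : φ ω ≠ ω)
    (τ : V →+ V) (hsmul : ∀ (c : K) (v : V), τ (c • v) = φ c • τ v) (hτ2 : ∀ v, τ (τ v) = v) :
    Nat.card {v : V // τ v = v} * Nat.card {v : V // τ v = v} = Nat.card V := by
  rw [← Nat.card_prod]
  apply Nat.card_congr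
  set δ := ω - φ ω with hδ
  have hδ0 : δ ≠ 0 := sub_ne_zero.2 hω.symm
  have hφδ : φ δ = -δ := by rw [hδ, map_sub, hφ2]; ring
  let b : V → V := fun v => δ⁻¹ • (v - τ v)
  have hb : ∀ v, τ (b v) = b v := by
    intro v
    simp only [b]
    rw [hsmul, map_inv₀, hφδ, map_sub, hτ2, inv_neg, neg_smul, ← smul_neg, neg_sub]
  have hδb : ∀ v, δ • b v = v - τ v := by
    intro v
    simp only [b]
    rw [smul_smul, mul_inv_cancel₀ hδ0, one_smul]
  have ha : ∀ v, τ (v - ω • b v) = v - ω • b v := by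
    intro v
    rw [map_sub, hsmul, hb]
    have h1 := hδb v
    rw [hδ, sub_smul] at h1
    have h2 : τ v = v - (ω • b v - φ ω • b v) := by rw [h1]; abel
    rw [h2]; abel
  refine
    { toFun := fun p => p.1.1 + ω • p.2.1
      invFun := fun v => (⟨v - ω • b v, ha v⟩, ⟨b v, hb v⟩)
      left_inv := ?_
      right_inv := ?_ }
  · rintro ⟨⟨x, hx⟩, ⟨y, hy⟩⟩
    have h1 : b (x + ω • y) = y := by
      simp only [b]
      rw [map_add, hsmul, hx, hy]
      have : x + ω • y - (x + φ ω • y) = δ • y := by rw [hδ, sub_smul]; abel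
      rw [this, smul_smul, inv_mul_cancel₀ hδ0, one_smul]
    apply Prod.ext
    · apply Subtype.ext
      simp only
      rw [h1]; abel
    · apply Subtype.ext
      exact h1
  · intro v
    simp

end L2

section cs

variable {K : Type*} [Field K] {ι κ : Type*}

/-- conjugate transpose -/
def cs (φ : K →+* K) : Matrix ι ι K →+ Matrix ι ι K where
  toFun X := (X.map φ)ᵀ
  map_zero' := by ext i j; simp
  map_add' X Y := by ext i j; simp

theorem cs_apply (φ : K →+* K) (X : Matrix ι ι K) (i j : ι) : cs φ X i j = φ (X j i) := rfl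

theorem cs_def (φ : K →+* K) (X : Matrix ι ι K) : cs φ X = (X.map φ)ᵀ := rfl

theorem cs_mul [Fintype ι] (φ : K →+* K) (X Y : Matrix ι ι K) :
    cs φ (X * Y) = cs φ Y * cs φ X := by
  rw [cs_def, cs_def, cs_def, Matrix.map_mul, Matrix.transpose_mul]

theorem cs_one [DecidableEq ι] (φ : K →+* K) : cs φ (1 : Matrix ι ι K) = 1 := by
  rw [cs_def, Matrix.map_one φ (map_zero φ) (map_one φ), Matrix.transpose_one]

theorem cs_smul (φ : K →+* K) (c : K) (X : Matrix ι ι K) :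
    cs φ (c • X) = φ c • cs φ X := by
  ext i j; simp [cs_apply]

theorem cs_cs (φ : K →+* K) (hφ : ∀ a, φ (φ a) = a) (X : Matrix ι ι K) :
    cs φ (cs φ X) = X := by
  ext i j; simp [cs_apply, hφ]

theorem cs_reindex (φ : K →+* K) (e : ι ≃ κ) (X : Matrix ι ι K) :
    cs φ (Matrix.reindex e e X) = Matrix.reindex e e (cs φ X) := by
  ext i j; simp [cs_apply]

end cs

end Cfsg.Agent.Lib.Helper48GUCentA
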