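import Mathlib
import Cfsg.Agent.Lib.Helper48GUCentA
import Cfsg.Agent.S2581

set_option autoImplicit false

namespace Cfsg.Agent.Lib.Helper48GUCentB

open Matrix Cfsg.Agent.Lib.Helper48GUCentA Cfsg.Agent.S2581

variable {K : Type*} [Field K] {t : ℕ} {d : Fin t → ℕ}

/-- reversal inside every block -/
def rho (x : II d) : II d := ⟨x.1, ⟨d x.1 - 1 - x.2.val, by have := x.2.2; omega⟩⟩

theorem rho_rho (x : II d) : rho (rho x) = x :=
  II_ext rfl (by have := x.2.2; simp only [rho]; omega)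

theorem eq_rho_iff (x y : II d) : y = rho x ↔ x = rho y := by
  constructor
  · rintro rfl; rw [rho_rho]
  · rintro rfl; rw [rho_rho]

/-- weighted reversal matrix -/
def WW (f : II d → K) : Matrix (II d) (II d) K := Matrix.of fun x y => if y = rho x then f x else 0

theorem WW_mul (f : II d → K) (M : Matrix (II d) (II d) K) (x y : II d) :
    (WW f * M) x y = f x * M (rho x) y := by
  rw [Matrix.mul_apply, Finset.sum_eq_single (rho x)]
  · simp [WW]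
  · intro b _ hb
    simp [WW, hb]
  · intro h; exact absurd (Finset.mem_univ _) h

theorem mul_WW (f : II d → K) (M : Matrix (II d) (II d) K) (x y : II d) :
    (M * WW f) x y = M x (rho y) * f (rho y) := by
  rw [Matrix.mul_apply, Finset.sum_eq_single (rho y)]
  · simp [WW, rho_rho]
  · intro b _ hb
    have : ¬ (y = rho b) := fun h => hb ((eq_rho_iff _ _).1 h)
    simp [WW, this]
  · intro h; exact absurd (Finset.mem_univ _) h

theorem WW_mul_WW (f g : II d → K) (h : ∀ x, f x * g (rho x) = 1) : WW f * WW g = 1 := by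
  ext x y
  rw [WW_mul, Matrix.one_apply]
  simp only [WW, Matrix.of_apply, rho_rho]
  by_cases hxy : x = y
  · subst hxy
    rw [if_pos rfl, if_pos rfl, h]
  · rw [if_neg (fun h => hxy h.symm), if_neg hxy, mul_zero]

theorem cs_WW (φ : K →+* K) (f : II d → K) : cs φ (WW f) = WW (fun x => φ (f (rho x))) := by
  ext x y
  rw [cs_apply]
  simp only [WW, Matrix.of_apply]
  by_cases h : y = rho x
  · rw [if_pos h, if_pos ((eq_rho_iff _ _).1 h), h]
  · rw [if_neg h, if_neg (fun h' => h ((eq_rho_iff _ _).1 h')), map_zero]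

variable (d) in
/-- the weights of the Hermitian form -/
def eta (ω₀ : K) (x : II d) : K := (if Even (d x.1) then ω₀ else 1) * (-1) ^ x.2.val

theorem eta_ne_zero (ω₀ : K) (h0 : ω₀ ≠ 0) (x : II d) : eta d ω₀ x ≠ 0 := by
  unfold eta
  apply mul_ne_zero
  · split_ifs
    · exact h0
    · exact one_ne_zero
  · exact pow_ne_zero _ (neg_ne_zero.2 one_ne_zero)

theorem eta_rho (φ : K →+* K) (ω₀ : K) (hω : φ ω₀ = -ω₀) (x : II d) :
    φ (eta d ω₀ x) = eta d ω₀ (rho x) := by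
  have e1 : eta d ω₀ (rho x)
      = (if Even (d x.1) then ω₀ else 1) * (-1) ^ (d x.1 - 1 - x.2.val) := rfl
  rw [e1]
  unfold eta
  have hx := x.2.2
  have h1 : ((-1 : K)) ^ (d x.1 - 1 - x.2.val) * (-1) ^ x.2.val = (-1) ^ (d x.1 - 1) := by
    rw [← pow_add]; congr 1; omega
  have h2 : ((-1 : K)) ^ x.2.val * (-1) ^ x.2.val = 1 := by
    rw [← mul_pow]; simp
  have h3 : ((-1 : K)) ^ (d x.1 - 1 - x.2.val) = (-1) ^ (d x.1 - 1) * (-1) ^ x.2.val := by
    calc ((-1 : K)) ^ (d x.1 - 1 - x.2.val)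
        = (-1) ^ (d x.1 - 1 - x.2.val) * ((-1) ^ x.2.val * (-1) ^ x.2.val) := by rw [h2, mul_one]
      _ = _ := by rw [← mul_assoc, h1]
  rw [h3, map_mul, map_pow, map_neg, map_one]
  by_cases he : Even (d x.1)
  · rw [if_pos he, hω]
    have : Odd (d x.1 - 1) := by
      obtain ⟨r, hr⟩ := he
      exact ⟨r - 1, by omega⟩
    rw [this.neg_one_pow]; ring
  · rw [if_neg he, map_one]
    have : Even (d x.1 - 1) := by
      obtain ⟨r, hr⟩ := Nat.not_even_iff_odd.1 he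
      exact ⟨r, by omega⟩
    rw [this.neg_one_pow]; ring

theorem eta_succ (ω₀ : K) (x y : II d) (h1 : x.1 = y.1) (h2 : x.2.val = y.2.val + 1) :
    eta d ω₀ x = - eta d ω₀ y := by
  unfold eta
  have h3 : d x.1 = d y.1 := by rw [h1]
  rw [h2, pow_succ]
  simp only [h3]
  ring

theorem eta_congr (ω₀ : K) (x y : II d) (h1 : d x.1 = d y.1) (h2 : x.2.val = y.2.val) :
    eta d ω₀ x = eta d ω₀ y := by
  unfold eta
  rw [h2]
  simp only [h1]

variable (d) in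
/-- the Hermitian form -/
def H0 (ω₀ : K) : Matrix (II d) (II d) K := WW (eta d ω₀)

variable (d) in
def H0' (ω₀ : K) : Matrix (II d) (II d) K := WW (fun x => (eta d ω₀ (rho x))⁻¹)

theorem H0_mul_H0' (ω₀ : K) (h0 : ω₀ ≠ 0) : H0 d ω₀ * H0' d ω₀ = 1 := by
  apply WW_mul_WW
  intro x
  rw [rho_rho, mul_inv_cancel₀ (eta_ne_zero ω₀ h0 x)]

theorem H0'_mul_H0 (ω₀ : K) (h0 : ω₀ ≠ 0) : H0' d ω₀ * H0 d ω₀ = 1 := by
  apply WW_mul_WW
  intro x
  rw [inv_mul_cancel₀ (eta_ne_zero ω₀ h0 _)]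

theorem cs_H0 (φ : K →+* K) (ω₀ : K) (hω : φ ω₀ = -ω₀) : cs φ (H0 d ω₀) = H0 d ω₀ := by
  unfold H0
  rw [cs_WW]
  congr 1
  funext x
  rw [eta_rho φ ω₀ hω, rho_rho]

theorem cs_H0' (φ : K →+* K) (ω₀ : K) (hω : φ ω₀ = -ω₀) : cs φ (H0' d ω₀) = H0' d ω₀ := by
  unfold H0'
  rw [cs_WW]
  congr 1
  funext x
  rw [map_inv₀, eta_rho φ ω₀ hω, rho_rho]

variable (d) in
/-- the adjoint for the Hermitian form -/
def dag (φ : K →+* K) (ω₀ : K) : Matrix (II d) (II d) K →+ Matrix (II d) (II d) K :=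
  (AddMonoidHom.mulLeft (H0' d ω₀)).comp ((AddMonoidHom.mulRight (H0 d ω₀)).comp (cs φ))

theorem dag_def (φ : K →+* K) (ω₀ : K) (X : Matrix (II d) (II d) K) :
    dag d φ ω₀ X = H0' d ω₀ * (cs φ X * H0 d ω₀) := rfl

theorem dag_apply (φ : K →+* K) (ω₀ : K) (X : Matrix (II d) (II d) K) (x y : II d) :
    dag d φ ω₀ X x y = (eta d ω₀ (rho x))⁻¹ * (φ (X (rho y) (rho x)) * eta d ω₀ (rho y)) := by
  rw [dag_def, H0', WW_mul, H0, mul_WW, cs_apply]

theorem dag_mul (φ : K →+* K) (ω₀ : K) (h0 : ω₀ ≠ 0) (X Y : Matrix (II d) (II d) K) :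
    dag d φ ω₀ (X * Y) = dag d φ ω₀ Y * dag d φ ω₀ X := by
  rw [dag_def, dag_def, dag_def, cs_mul]
  calc H0' d ω₀ * (cs φ Y * cs φ X * H0 d ω₀)
      = H0' d ω₀ * (cs φ Y * 1 * (cs φ X * H0 d ω₀)) := by simp only [mul_assoc, one_mul]
    _ = _ := by rw [← H0_mul_H0' ω₀ h0]; simp only [mul_assoc]

theorem dag_one (φ : K →+* K) (ω₀ : K) (h0 : ω₀ ≠ 0) : dag d φ ω₀ 1 = 1 := by
  rw [dag_def, cs_one, one_mul, H0'_mul_H0 ω₀ h0]

theorem dag_smul (φ : K →+* K) (ω₀ : K) (c : K) (X : Matrix (II d) (II d) K) :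
    dag d φ ω₀ (c • X) = φ c • dag d φ ω₀ X := by
  rw [dag_def, dag_def, cs_smul, smul_mul_assoc, mul_smul_comm]

theorem dag_dag (φ : K →+* K) (hφ : ∀ a, φ (φ a) = a) (ω₀ : K) (h0 : ω₀ ≠ 0) (hω : φ ω₀ = -ω₀)
    (X : Matrix (II d) (II d) K) : dag d φ ω₀ (dag d φ ω₀ X) = X := by
  rw [dag_def, dag_def, cs_mul, cs_mul, cs_cs φ hφ, cs_H0 φ ω₀ hω, cs_H0' φ ω₀ hω]
  calc H0' d ω₀ * (H0 d ω₀ * X * H0' d ω₀ * H0 d ω₀)
      = (H0' d ω₀ * H0 d ω₀) * X * (H0' d ω₀ * H0 d ω₀) := by simp only [mul_assoc]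
    _ = X := by rw [H0'_mul_H0 ω₀ h0, one_mul, mul_one]

theorem dag_mul_eq_one_iff (φ : K →+* K) (ω₀ : K) (h0 : ω₀ ≠ 0) (X : Matrix (II d) (II d) K) :
    dag d φ ω₀ X * X = 1 ↔ cs φ X * H0 d ω₀ * X = H0 d ω₀ := by
  rw [dag_def]
  constructor
  · intro h
    calc cs φ X * H0 d ω₀ * X = (H0 d ω₀ * H0' d ω₀) * (cs φ X * H0 d ω₀) * X := by
          rw [H0_mul_H0' ω₀ h0, one_mul]
      _ = H0 d ω₀ * (H0' d ω₀ * (cs φ X * H0 d ω₀) * X) := by simp only [mul_assoc]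
      _ = H0 d ω₀ := by rw [h, mul_one]
  · intro h
    calc H0' d ω₀ * (cs φ X * H0 d ω₀) * X = H0' d ω₀ * (cs φ X * H0 d ω₀ * X) := by
          simp only [mul_assoc]
      _ = 1 := by rw [h, H0'_mul_H0 ω₀ h0]

theorem dag_NN (φ : K →+* K) (ω₀ : K) (h0 : ω₀ ≠ 0) : dag d φ ω₀ (NN K d) = - NN K d := by
  ext x y
  rw [dag_apply, Matrix.neg_apply]
  have hx := x.2.2
  have hy := y.2.2
  by_cases h : x.1 = y.1 ∧ x.2.val = y.2.val + 1
  · have hd : d x.1 = d y.1 := by rw [h.1]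
    have h1 : NN K d (rho y) (rho x) = 1 := by
      simp only [NN, Matrix.of_apply, rho]
      rw [if_pos ⟨h.1.symm, by omega⟩]
    have h2 : NN K d x y = 1 := by
      simp only [NN, Matrix.of_apply]
      rw [if_pos h]
    have h3 : eta d ω₀ (rho y) = - eta d ω₀ (rho x) :=
      eta_succ ω₀ _ _ h.1.symm (by simp only [rho]; omega)
    rw [h1, h2, h3, map_one, one_mul, mul_neg, inv_mul_cancel₀ (eta_ne_zero ω₀ h0 _)]
  · have h1 : NN K d (rho y) (rho x) = 0 := by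
      simp only [NN, Matrix.of_apply, rho]
      rw [if_neg]
      rintro ⟨h2, h3⟩
      have hd : d x.1 = d y.1 := by rw [h2]
      exact h ⟨h2.symm, by omega⟩
    have h2 : NN K d x y = 0 := by
      simp only [NN, Matrix.of_apply]
      rw [if_neg h]
    rw [h1, h2, map_zero, zero_mul, mul_zero, neg_zero]

theorem dag_comm (φ : K →+* K) (ω₀ : K) (h0 : ω₀ ≠ 0) (X : Matrix (II d) (II d) K)
    (hX : X * NN K d = NN K d * X) : dag d φ ω₀ X * NN K d = NN K d * dag d φ ω₀ X := by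
  have h1 := congrArg (dag d φ ω₀) hX
  rw [dag_mul φ ω₀ h0, dag_mul φ ω₀ h0, dag_NN φ ω₀ h0, neg_mul, mul_neg, neg_inj] at h1
  exact h1.symm

end Cfsg.Agent.Lib.Helper48GUCentB
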