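import Mathlib
import Cfsg.Agent.Lib.Helper48GUCentB

set_option autoImplicit false

namespace Cfsg.Agent.Lib.Helper48GUCentC

open Matrix Cfsg.Agent.Lib.Helper48GUCentA Cfsg.Agent.Lib.Helper48GUCentB Cfsg.Agent.S2581

variable {K : Type*} [Field K] {t : ℕ} {d : Fin t → ℕ} (hd : ∀ k, 1 ≤ d k) (φ : K →+* K) (ω₀ : K)

/-- the adjoint on first columns -/
def dagc (c : Fin t → II d → K) : Fin t → II d → K := col hd (dag d φ ω₀ (XC c))

def kap (l : Fin t) (x : II d) : K :=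
  (eta d ω₀ (rho x))⁻¹ * eta d ω₀ (rho (⟨l, ⟨0, hd l⟩⟩ : II d))

theorem dagc_apply (c : Fin t → II d → K) (l : Fin t) (x : II d) (h : ¬ (x.2.val + d l < d x.1)) :
    dagc hd φ ω₀ c l x = kap hd ω₀ l x *
      φ (c x.1 ⟨l, ⟨x.2.val + d l - d x.1, by have := x.2.2; omega⟩⟩) := by
  have hx := x.2.2
  have hl := hd l
  unfold dagc S2581.col kap
  rw [dag_apply, XC_apply_of_le _ _ _ (by simp only [rho]; omega)]
  rw [mul_assoc, mul_comm (eta d ω₀ _) (φ _)]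
  congr 3
  show c x.1 _ = c x.1 _
  congr 1
  exact II_ext rfl (by simp only [rho]; omega)

/-- the index involution -/
def theta (p : RR d) : RR d :=
  ⟨(p.1.2.1, ⟨p.1.1, ⟨p.1.2.2.val + d p.1.1 - d p.1.2.1, by
      have := p.1.2.2.2; have := p.2.1; omega⟩⟩), by
    have := p.1.2.2.2; have h1 := p.2.1; have h2 := p.2.2
    simp only
    constructor
    · omega
    · rintro ⟨h3, h4⟩
      exact h2 ⟨by omega, h4.symm⟩⟩

/-- the adjoint on the radical parameters -/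
def tau : (RR d → K) →+ (RR d → K) where
  toFun r := fun p => kap hd ω₀ p.1.1 p.1.2 * φ (r (theta p))
  map_zero' := by funext p; simp
  map_add' r s := by funext p; simp [mul_add]

theorem tau_apply (r : RR d → K) (p : RR d) :
    tau hd φ ω₀ r p = kap hd ω₀ p.1.1 p.1.2 * φ (r (theta p)) := rfl

theorem tau_smul (c : K) (r : RR d → K) : tau hd φ ω₀ (c • r) = φ c • tau hd φ ω₀ r := by
  funext p
  rw [Pi.smul_apply, tau_apply, tau_apply, Pi.smul_apply, smul_eq_mul, smul_eq_mul, map_mul]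
  ring

theorem RR_dagc (c : Fin t → II d → K) :
    (fun p : RR d => dagc hd φ ω₀ c p.1.1 p.1.2) = tau hd φ ω₀ (fun p : RR d => c p.1.1 p.1.2) := by
  funext p
  rw [dagc_apply hd φ ω₀ c _ _ p.2.1, tau_apply]
  rfl

theorem MA_dagc (h0 : ω₀ ≠ 0) (c : Fin t → II d → K) (a : ℕ) :
    MA hd (dagc hd φ ω₀ c) a = cs φ (MA hd c a) := by
  ext k l
  rw [cs_apply]
  simp only [MA, Matrix.of_apply]
  have hk := k.2
  have hl := l.2
  rw [dagc_apply hd φ ω₀ c _ _ (by simp only; omega)]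
  have h1 : kap hd ω₀ l.1 (⟨k.1, ⟨0, hd k.1⟩⟩ : II d) = 1 := by
    unfold kap
    rw [eta_congr ω₀ (rho (⟨l.1, ⟨0, hd l.1⟩⟩ : II d)) (rho (⟨k.1, ⟨0, hd k.1⟩⟩ : II d))
      (by simp only [rho]; omega) (by simp only [rho]; omega),
      inv_mul_cancel₀ (eta_ne_zero ω₀ h0 _)]
  rw [h1, one_mul]
  congr 2
  exact II_ext rfl (by simp only; omega)

theorem XC_dagc (h0 : ω₀ ≠ 0) (c : Fin t → II d → K) (hc : Adm c) :
    XC (dagc hd φ ω₀ c) = dag d φ ω₀ (XC c) :=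
  (eq_XC hd _ (dag_comm φ ω₀ h0 _ (XC_comm c hc))).symm

theorem adm_dagc (h0 : ω₀ ≠ 0) (c : Fin t → II d → K) (hc : Adm c) : Adm (dagc hd φ ω₀ c) :=
  adm_col hd _ (dag_comm φ ω₀ h0 _ (XC_comm c hc))

theorem dagc_dagc (hφ : ∀ a, φ (φ a) = a) (h0 : ω₀ ≠ 0) (hω : φ ω₀ = -ω₀)
    (c : Fin t → II d → K) (hc : Adm c) : dagc hd φ ω₀ (dagc hd φ ω₀ c) = c := by
  have h1 : dagc hd φ ω₀ (dagc hd φ ω₀ c) = col hd (dag d φ ω₀ (XC (dagc hd φ ω₀ c))) := rfl
  rw [h1, XC_dagc hd φ ω₀ h0 c hc, dag_dag φ hφ ω₀ h0 hω, col_XC]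

theorem tau_tau (hφ : ∀ a, φ (φ a) = a) (h0 : ω₀ ≠ 0) (hω : φ ω₀ = -ω₀) (r : RR d → K) :
    tau hd φ ω₀ (tau hd φ ω₀ r) = r := by
  have hn : ∀ k, d k < Finset.univ.sup d + 1 :=
    fun k => Nat.lt_succ_of_le (Finset.le_sup (f := d) (Finset.mem_univ k))
  set c := build _ hn r (fun _ => 0) with hc
  have hr : r = fun p : RR d => c p.1.1 p.1.2 := by
    funext p
    exact (build_RR _ hn r _ p).symm
  have hadm : Adm c := build_adm _ _ _ _
  rw [hr, ← RR_dagc, ← RR_dagc, dagc_dagc hd φ ω₀ hφ h0 hω c hadm]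

theorem dag_eq_iff (h0 : ω₀ ≠ 0) (n : ℕ) (hn : ∀ k, d k < n) (c : Fin t → II d → K) (hc : Adm c) :
    dag d φ ω₀ (XC c) = XC c ↔
      tau hd φ ω₀ (fun p : RR d => c p.1.1 p.1.2) = (fun p : RR d => c p.1.1 p.1.2) ∧
      ∀ a : Fin n, cs φ (MA hd c a.val) = MA hd c a.val := by
  constructor
  · intro h
    have h1 : dagc hd φ ω₀ c = c := by
      unfold dagc
      rw [h, col_XC]
    constructor
    · rw [← RR_dagc, h1]
    · intro a
      rw [← MA_dagc hd φ ω₀ h0, h1]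
  · rintro ⟨h1, h2⟩
    have h3 : dagc hd φ ω₀ c = c := by
      rw [← build_self hd n hn _ (adm_dagc hd φ ω₀ h0 c hc), RR_dagc, h1]
      conv_rhs => rw [← build_self hd n hn c hc]
      congr 1
      funext a
      rw [MA_dagc hd φ ω₀ h0, h2]
    rw [← XC_dagc hd φ ω₀ h0 c hc, h3]

section count

include hd in
theorem card_comm (n : ℕ) (hn : ∀ k, d k < n) :
    Nat.card {X : (Matrix (II d) (II d) K)ˣ // X.1 * NN K d = NN K d * X.1}
      = Nat.card (RR d → K) * ∏ a : Fin n,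
        Nat.card {M : Matrix {k // d k = a.val} {k // d k = a.val} K // M.det ≠ 0} := by
  rw [← Nat.card_pi, ← Nat.card_prod]
  apply Nat.card_congr
  refine Equiv.trans ?_ ((commEquiv hd).trans (paramEquiv hd n hn))
  exact Equiv.subtypeEquivRight (fun X => (comm_iff X.1).symm)

theorem card_herm (h0 : ω₀ ≠ 0) (n : ℕ) (hn : ∀ k, d k < n) :
    Nat.card {Y : (Matrix (II d) (II d) K)ˣ // Y.1 * NN K d = NN K d * Y.1 ∧ dag d φ ω₀ Y.1 = Y.1}
      = Nat.card {r : RR d → K // tau hd φ ω₀ r = r} * ∏ a : Fin n,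
        Nat.card {M : {M : Matrix {k // d k = a.val} {k // d k = a.val} K // M.det ≠ 0} //
          cs φ M.1 = M.1} := by
  rw [← Nat.card_pi, ← Nat.card_prod]
  apply Nat.card_congr
  let E := (commEquiv (F := K) hd).trans (paramEquiv hd n hn)
  let e1 : {Y : (Matrix (II d) (II d) K)ˣ // Y.1 * NN K d = NN K d * Y.1 ∧ dag d φ ω₀ Y.1 = Y.1}
      ≃ {g : {g : GL (II d) K // (g : Matrix (II d) (II d) K) * Cfsg.jordanTypeMatrix d K
      = Cfsg.jordanTypeMatrix d K * (g : Matrix (II d) (II d) K)} // dag d φ ω₀ g.1.1 = g.1.1} :=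
    { toFun := fun Y => ⟨⟨Y.1, (comm_iff _).2 Y.2.1⟩, Y.2.2⟩
      invFun := fun g => ⟨g.1.1, (comm_iff _).1 g.1.2, g.2⟩
      left_inv := fun _ => rfl
      right_inv := fun _ => rfl }
  have hE : ∀ g : {g : GL (II d) K // (g : Matrix (II d) (II d) K) * Cfsg.jordanTypeMatrix d K
      = Cfsg.jordanTypeMatrix d K * (g : Matrix (II d) (II d) K)},
      dag d φ ω₀ g.1.1 = g.1.1 ↔ (tau hd φ ω₀ (E g).1 = (E g).1 ∧
        ∀ a : Fin n, cs φ ((E g).2 a).1 = ((E g).2 a).1) := by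
    intro g
    have h1 := (comm_iff _).1 g.2
    have h2 := dag_eq_iff hd φ ω₀ h0 n hn (col hd g.1.1) (adm_col hd _ h1)
    rw [← eq_XC hd _ h1] at h2
    exact h2
  refine e1.trans ((Equiv.subtypeEquiv (q := fun p => tau hd φ ω₀ p.1 = p.1 ∧
        ∀ a : Fin n, cs φ (p.2 a).1 = (p.2 a).1) E hE).trans ?_)
  refine (Equiv.subtypeProdEquivProd (p := fun r => tau hd φ ω₀ r = r)
    (q := fun M : (a : Fin n) → {M : Matrix {k // d k = a.val} {k // d k = a.val} K // M.det ≠ 0} =>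
      ∀ a : Fin n, cs φ (M a).1 = (M a).1)).trans ?_
  exact Equiv.prodCongr (Equiv.refl _) (Equiv.subtypePiEquivPi
    (β := fun a : Fin n => {M : Matrix {k // d k = a.val} {k // d k = a.val} K // M.det ≠ 0})
    (p := fun {a} M => cs φ M.1 = M.1))

end count

end Cfsg.Agent.Lib.Helper48GUCentC
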