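import Mathlib
import Cfsg.Agent.Lib.Helper48GUCentA
import Cfsg.Agent.Lib.Helper48WallU

set_option autoImplicit false

namespace Cfsg.Agent.Lib.Helper48GUCentD

open Matrix Cfsg.Agent.Lib.Helper48GUCentA Cfsg.Agent.Lib.Helper48Wall
  Cfsg.Agent.Lib.Helper48WallU

section G

variable {B : Type*} [Monoid B] (st : B → B) (hmul : ∀ a b, st (a * b) = st b * st a)
  (hone : st 1 = 1)

include hmul hone in
theorem conj_unitary_iff (Q Q' T : B) (h1 : Q * Q' = 1) (h2 : Q' * Q = 1) :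
    st (Q * T * Q') * (Q * T * Q') = 1 ↔ st T * (st Q * Q) * T = st Q * Q := by
  have h3 : st Q * st Q' = 1 := by rw [← hmul, h2, hone]
  have h4 : st Q' * st Q = 1 := by rw [← hmul, h1, hone]
  rw [hmul, hmul]
  constructor
  · intro h
    calc st T * (st Q * Q) * T
        = (st Q * st Q') * st T * st Q * Q * T * (Q' * Q) := by
          rw [h3, h2, one_mul, mul_one]; simp only [mul_assoc]
      _ = st Q * (st Q' * (st T * st Q) * (Q * T * Q')) * Q := by simp only [mul_assoc]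
      _ = st Q * Q := by rw [h, mul_one]
  · intro h
    calc st Q' * (st T * st Q) * (Q * T * Q')
        = st Q' * (st T * (st Q * Q) * T) * Q' := by simp only [mul_assoc]
      _ = (st Q' * st Q) * (Q * Q') := by rw [h]; simp only [mul_assoc]
      _ = 1 := by rw [h4, h1, one_mul]

end G

section cayley

variable {K : Type*} [Field K] {A : Type*} [Ring A] [Algebra K A]
  (φ : K →+* K) (st : A →+ A) (hmul : ∀ a b, st (a * b) = st b * st a) (hone : st 1 = 1)
  (hsmul : ∀ (c : K) (a : A), st (c • a) = φ c • st a)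

include hmul hone hsmul in
theorem exists_cayley (N : A) (hN : IsNilpotent N) (hstN : st N = -N) (α β : K) (hαβ : α + β = 1)
    (hφα : φ α = β) (hφβ : φ β = α) :
    ∃ Jp : Aˣ, ∃ b' : Aˣ, st Jp.1 * Jp.1 = 1 ∧ (∀ X : A, X * Jp.1 = Jp.1 * X ↔ X * N = N * X) ∧
      Jp.1 - 1 = N * b'.1 ∧ Commute N b'.1 := by
  set a : A := 1 + α • N with ha
  set b : A := 1 - β • N with hb
  obtain ⟨au, hau⟩ : IsUnit a := (hN.smul α).isUnit_one_add
  obtain ⟨bu, hbu⟩ : IsUnit b := (hN.smul β).isUnit_one_sub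
  have hNa : Commute N a := (Commute.one_right N).add_right ((Commute.refl N).smul_right α)
  have hNb : Commute N b := (Commute.one_right N).sub_right ((Commute.refl N).smul_right β)
  have hab : Commute a b := (Commute.one_left b).add_left (hNb.smul_left α)
  have hNab : N = a - b := by
    have : a - b = α • N + β • N := by rw [ha, hb]; abel
    rw [this, ← add_smul, hαβ, one_smul]
  have hsta : st a = b := by
    rw [ha, hb, map_add, hone, hsmul, hstN, hφα, smul_neg, sub_eq_add_neg]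
  have hstb : st b = a := by
    rw [ha, hb, map_sub, hone, hsmul, hstN, hφβ, smul_neg, sub_neg_eq_add]
  have hbb' : b * (bu⁻¹ : Aˣ).1 = 1 := by rw [← hbu, Units.mul_inv]
  have hb'b : (bu⁻¹ : Aˣ).1 * b = 1 := by rw [← hbu, Units.inv_mul]
  have haa' : a * (au⁻¹ : Aˣ).1 = 1 := by rw [← hau, Units.mul_inv]
  have ha'a : (au⁻¹ : Aˣ).1 * a = 1 := by rw [← hau, Units.inv_mul]
  have hstb' : st (bu⁻¹ : Aˣ).1 = (au⁻¹ : Aˣ).1 := by
    have h1 : st (bu⁻¹ : Aˣ).1 * a = 1 := by rw [← hstb, ← hmul, hbb', hone]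
    calc st (bu⁻¹ : Aˣ).1 = st (bu⁻¹ : Aˣ).1 * (a * (au⁻¹ : Aˣ).1) := by rw [haa', mul_one]
      _ = (au⁻¹ : Aˣ).1 := by rw [← mul_assoc, h1, one_mul]
  have hJ : (au * bu⁻¹ : Aˣ).1 = a * (bu⁻¹ : Aˣ).1 := by rw [Units.val_mul, hau]
  refine ⟨au * bu⁻¹, bu⁻¹, ?_, ?_, ?_, ?_⟩
  · rw [hJ, hmul, hstb', hsta]
    calc (au⁻¹ : Aˣ).1 * b * (a * (bu⁻¹ : Aˣ).1) = (au⁻¹ : Aˣ).1 * (b * a) * (bu⁻¹ : Aˣ).1 := by
          simp only [mul_assoc]
      _ = ((au⁻¹ : Aˣ).1 * a) * (b * (bu⁻¹ : Aˣ).1) := by rw [← hab.eq]; simp only [mul_assoc]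
      _ = 1 := by rw [ha'a, hbb', one_mul]
  · intro X
    rw [hJ]
    constructor
    · intro h
      have hXJ : Commute X (a * (bu⁻¹ : Aˣ).1) := h
      have hw : (bu⁻¹ : Aˣ).1 = α • 1 + β • (a * (bu⁻¹ : Aˣ).1) := by
        have h1 : (α • 1 + β • (a * (bu⁻¹ : Aˣ).1)) * b = 1 := by
          rw [add_mul, smul_mul_assoc, smul_mul_assoc, one_mul, mul_assoc, hb'b, mul_one, ha, hb,
            smul_sub, smul_add, smul_smul, smul_smul, mul_comm β α]
          have : α • (1 : A) - (α * β) • N + (β • 1 + (α * β) • N) = (α + β) • 1 := by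
            rw [add_smul]; abel
          rw [this, hαβ, one_smul]
        calc (bu⁻¹ : Aˣ).1 = ((α • 1 + β • (a * (bu⁻¹ : Aˣ).1)) * b) * (bu⁻¹ : Aˣ).1 := by
              rw [h1, one_mul]
          _ = _ := by rw [mul_assoc, hbb', mul_one]
      have hXb' : Commute X (bu⁻¹ : Aˣ).1 := by
        rw [hw]
        exact ((Commute.one_right X).smul_right α).add_right (hXJ.smul_right β)
      have hXb : Commute X b := by
        have := hXb'.units_inv_right
        rwa [inv_inv, hbu] at this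
      have hXa : Commute X a := by
        have h2 : a = a * (bu⁻¹ : Aˣ).1 * b := by rw [mul_assoc, hb'b, mul_one]
        rw [h2]
        exact hXJ.mul_right hXb
      have : Commute X N := by
        rw [hNab]
        exact hXa.sub_right hXb
      exact this.eq
    · intro h
      have hXN : Commute X N := h
      have hXa : Commute X a := (Commute.one_right X).add_right (hXN.smul_right α)
      have hXb : Commute X bu.1 := by
        rw [hbu]
        exact (Commute.one_right X).sub_right (hXN.smul_right β)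
      exact (hXa.mul_right hXb.units_inv_right).eq
  · rw [hJ]
    calc a * (bu⁻¹ : Aˣ).1 - 1 = a * (bu⁻¹ : Aˣ).1 - b * (bu⁻¹ : Aˣ).1 := by rw [hbb']
      _ = N * (bu⁻¹ : Aˣ).1 := by rw [← sub_mul, ← hNab]
  · have : Commute N bu.1 := by rw [hbu]; exact hNb
    exact this.units_inv_right

end cayley

section small

variable {K : Type*} [Field K] {κ : Type*} [Fintype κ] [DecidableEq κ]

def unitsDet : (Matrix κ κ K)ˣ ≃ {M : Matrix κ κ K // M.det ≠ 0} where
  toFun X := ⟨X.1, ((Matrix.isUnit_iff_isUnit_det X.1).1 X.isUnit).ne_zero⟩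
  invFun M := Matrix.GeneralLinearGroup.mkOfDetNeZero M.1 M.2
  left_inv X := Units.ext rfl
  right_inv M := rfl

theorem exists_sqrt [Fintype K] (φ : K →+* K) (hφ2 : ∀ x, φ (φ x) = x) (ω : K) (hω : φ ω ≠ ω)
    (Y : (Matrix κ κ K)ˣ) (hY : cs φ Y.1 = Y.1) :
    ∃ Z : (Matrix κ κ K)ˣ, cs φ Z.1 * Z.1 = Y.1 ∧ ∀ a, Commute Y.1 a → Commute Z.1 a := by
  obtain ⟨Z, Z', h1, h2, h3, h4⟩ := exists_herm_sqrt φ hφ2 ω hω (cs φ) (cs_mul φ) (cs_one φ)
    (cs_smul φ) Y.1 (Y⁻¹ : (Matrix κ κ K)ˣ).1 (Units.mul_inv Y) (Units.inv_mul Y) hY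
  exact ⟨⟨Z, Z', h1, h2⟩, h3, fun a ha => (h4 a ha).1⟩

theorem reindex_mul_eq_one_iff {m : ℕ} (e : κ ≃ Fin m) (X Y : Matrix κ κ K) :
    Matrix.reindex e e X * Matrix.reindex e e Y = 1 ↔ X * Y = 1 := by
  have h1 : ∀ X : Matrix κ κ K, Matrix.reindex e e X = Matrix.reindexAlgEquiv K K e X := fun _ => rfl
  rw [h1, h1, ← map_mul, EmbeddingLike.map_eq_one_iff]

theorem card_gl_split [Fintype K] {q : ℕ} (hK : Fintype.card K = q ^ 2) (φ : K →+* K)
    (hφq : ∀ x, φ x = x ^ q) (hφ2 : ∀ x, φ (φ x) = x) (ω : K) (hω : φ ω ≠ ω) (m : ℕ)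
    (hm : Fintype.card κ = m) :
    Nat.card {M : Matrix κ κ K // M.det ≠ 0} = Nat.card (Cfsg.GU m K q) *
      Nat.card {M : {M : Matrix κ κ K // M.det ≠ 0} // cs φ M.1 = M.1} := by
  have h := card_units_split (A := Matrix κ κ K) (cs φ) (cs_mul φ) (cs_one φ) (cs_cs φ hφ2)
    (fun _ => True) (fun _ _ _ _ => trivial) (fun _ _ => trivial) (fun _ _ => trivial)
    (by
      rintro Y ⟨-, hY⟩
      obtain ⟨Z, hZ, -⟩ := exists_sqrt φ hφ2 ω hω Y hY
      exact ⟨Z, trivial, hZ⟩)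
  have e1 : Nat.card {X : (Matrix κ κ K)ˣ // True} = Nat.card {M : Matrix κ κ K // M.det ≠ 0} :=
    Nat.card_congr ((Equiv.subtypeUnivEquiv (fun _ => trivial)).trans unitsDet)
  have e2 : Nat.card {Y : (Matrix κ κ K)ˣ // True ∧ cs φ Y.1 = Y.1}
      = Nat.card {M : {M : Matrix κ κ K // M.det ≠ 0} // cs φ M.1 = M.1} :=
    Nat.card_congr (Equiv.subtypeEquiv unitsDet (fun Y => by
      show (True ∧ cs φ Y.1 = Y.1) ↔ cs φ Y.1 = Y.1
      rw [true_and]))
  have e3 : Nat.card {X : (Matrix κ κ K)ˣ // True ∧ cs φ X.1 * X.1 = 1}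
      = Nat.card (Cfsg.GU m K q) := by
    let e : κ ≃ Fin m := Fintype.equivFinOfCardEq hm
    let R : (Matrix κ κ K)ˣ ≃* GL (Fin m) K :=
      Units.mapEquiv (Matrix.reindexAlgEquiv K K e).toMulEquiv
    apply Nat.card_congr
    refine Equiv.subtypeEquiv R.toEquiv (fun X => ?_)
    show (True ∧ cs φ X.1 * X.1 = 1) ↔ R X ∈ Cfsg.GU m K q
    rw [true_and, mem_GU_iff' hK φ hφq]
    have h1 : (R X).1 = Matrix.reindex e e X.1 := rfl
    have h2 : sth φ (R X).1 = Matrix.reindex e e (cs φ X.1) := by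
      rw [h1, ← cs_reindex]; rfl
    rw [h2, h1, reindex_mul_eq_one_iff]
  rw [← e1, h, e2, e3]

end small

end Cfsg.Agent.Lib.Helper48GUCentD
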