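import Mathlib
import Cfsg.Agent.Lib.Helper48GUCentC
import Cfsg.Agent.Lib.Helper48GUCentD
import Cfsg.Agent.Lib.Helper48RankSeq

set_option autoImplicit false

namespace Cfsg.Agent.Lib.Helper48GUCentE

open Matrix Cfsg.Agent.Lib.Helper48GUCentA Cfsg.Agent.Lib.Helper48GUCentB
  Cfsg.Agent.Lib.Helper48GUCentC Cfsg.Agent.Lib.Helper48GUCentD Cfsg.Agent.S2581
  Cfsg.Agent.Lib.Helper48WallU Cfsg.Agent.Lib.Helper48RankSeq

variable {K : Type*} [Field K] [Fintype K] {q n t : ℕ}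

theorem card_centralizer (hK : Fintype.card K = q ^ 2) (d : Fin t → ℕ) (hd : ∀ k, 1 ≤ d k)
    (e : II d ≃ Fin n) (u : ↥(Cfsg.GU n K q))
    (hu : IsConj (Matrix.reindex e e (Cfsg.jordanTypeMatrix d K))
      ((u : GL (Fin n) K) : Matrix (Fin n) (Fin n) K))
    (φ : K →+* K) (hφq : ∀ x, φ x = x ^ q) (hφ2 : ∀ x, φ (φ x) = x) (ω : K) (hω : φ ω ≠ ω)
    (ω₀ : K) (h0 : ω₀ ≠ 0) (hω₀ : φ ω₀ = -ω₀) :
    Nat.card ↥(Subgroup.centralizer ({u} : Set ↥(Cfsg.GU n K q)))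
      = Nat.card {X : (Matrix (II d) (II d) K)ˣ //
          X.1 * NN K d = NN K d * X.1 ∧ dag d φ ω₀ X.1 * X.1 = 1} := by
  classical
  -- scalars
  set δ := ω - φ ω with hδ
  have hδ0 : δ ≠ 0 := sub_ne_zero.2 hω.symm
  have hφδ : φ δ = -δ := by rw [hδ, map_sub, hφ2]; ring
  set α := ω * δ⁻¹ with hα
  set β := φ α with hβ
  have hβ' : β = - φ ω * δ⁻¹ := by rw [hβ, hα, map_mul, map_inv₀, hφδ, inv_neg]; ring
  have hαβ : α + β = 1 := by
    rw [hβ', hα]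
    have : ω * δ⁻¹ + -φ ω * δ⁻¹ = δ * δ⁻¹ := by rw [hδ]; ring
    rw [this, mul_inv_cancel₀ hδ0]
  -- the nilpotent
  set s : Multiset ℕ := Finset.univ.val.map d with hs
  have hs0 : 0 ∉ s := by
    intro h
    obtain ⟨k, -, hk⟩ := Multiset.mem_map.1 h
    have := hd k
    omega
  have hJs : RankSeq (Cfsg.jordanTypeMatrix d K) s := rankSeq_jordan d
  have hJN : Cfsg.jordanTypeMatrix d K - 1 = NN K d := by rw [JJ_eq]; abel
  have hNnil : IsNilpotent (NN K d) := by rw [← hJN]; exact hJs.nilpotent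
  obtain ⟨Jp, b', hJ1, hJ2, hJ3, hJ4⟩ := exists_cayley φ (dag d φ ω₀) (dag_mul φ ω₀ h0)
    (dag_one φ ω₀ h0) (dag_smul φ ω₀) (NN K d) hNnil (dag_NN φ ω₀ h0) α β hαβ rfl
    (by rw [hβ, hφ2])
  have hJps : RankSeq Jp.1 s := by
    intro k
    rw [hJ3, hJ4.mul_pow, Matrix.rank_mul_eq_left_of_isUnit_det, ← hJN, hJs k]
    rw [← Matrix.isUnit_iff_isUnit_det]
    exact b'.isUnit.pow k
  -- the square root of the form
  let H0u : (Matrix (II d) (II d) K)ˣ := ⟨H0 d ω₀, H0' d ω₀, H0_mul_H0' ω₀ h0, H0'_mul_H0 ω₀ h0⟩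
  obtain ⟨Z, hZ, -⟩ := exists_sqrt φ hφ2 ω hω H0u (cs_H0 φ ω₀ hω₀)
  have hZ' : cs φ Z.1 * Z.1 = H0 d ω₀ := hZ
  let RU : (Matrix (II d) (II d) K)ˣ ≃* GL (Fin n) K :=
    Units.mapEquiv (Matrix.reindexAlgEquiv K K e).toMulEquiv
  have hRU : ∀ X, (RU X).1 = Matrix.reindex e e X.1 := fun _ => rfl
  have hRmul : ∀ X Y : Matrix (II d) (II d) K,
      Matrix.reindex e e X * Matrix.reindex e e Y = Matrix.reindex e e (X * Y) := by
    intro X Y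
    exact (map_mul (Matrix.reindexAlgEquiv K K e) X Y).symm
  have hsth : ∀ X : Matrix (II d) (II d) K,
      sth φ (Matrix.reindex e e X) = Matrix.reindex e e (cs φ X) := fun X => cs_reindex φ e X
  -- general membership criterion
  have hmem : ∀ (Q : GL (Fin n) K), sth φ Q.1 * Q.1 = Matrix.reindex e e (H0 d ω₀) →
      ∀ X : (Matrix (II d) (II d) K)ˣ,
      (Q * RU X * Q⁻¹ ∈ Cfsg.GU n K q ↔ dag d φ ω₀ X.1 * X.1 = 1) := by
    intro Q hQ X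
    rw [mem_GU_iff' hK φ hφq, dag_mul_eq_one_iff φ ω₀ h0]
    have h1 : (Q * RU X * Q⁻¹ : GL (Fin n) K).1 = Q.1 * Matrix.reindex e e X.1 * (Q⁻¹ : GL (Fin n) K).1 :=
      rfl
    rw [h1, conj_unitary_iff (sth φ) (sth_mul φ) (sth_one φ) _ _ _ (Units.mul_inv Q)
      (Units.inv_mul Q), hQ, hsth, hRmul, hRmul]
    exact (Matrix.reindex e e).injective.eq_iff
  have hQ0 : sth φ (RU Z).1 * (RU Z).1 = Matrix.reindex e e (H0 d ω₀) := by
    rw [hRU, hsth, hRmul, hZ']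
  set u' : GL (Fin n) K := RU Z * RU Jp * (RU Z)⁻¹ with hu'
  have hu'mem : u' ∈ Cfsg.GU n K q := (hmem _ hQ0 Jp).2 hJ1
  have hu's : RankSeq u'.1 s := by
    have h1 : u'.1 = (RU Z).1 * Matrix.reindex e e Jp.1 * ((RU Z)⁻¹ : GL (Fin n) K).1 := rfl
    rw [h1]
    exact (hJps.reindex e).conj_units _ _ (Units.mul_inv _) (Units.inv_mul _)
  have hus : RankSeq u.1.1 s := (hJs.reindex e).of_isConj hu
  obtain ⟨c, hc⟩ := hu's.isConj hus hs0
  obtain ⟨y, hy, hyu⟩ := conj_GU hK u' u.1 hu'mem u.2 c (by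
    rw [mul_inv_eq_iff_eq_mul]
    apply Units.ext
    exact hc.eq)
  set Q : GL (Fin n) K := y * RU Z with hQdef
  have hQ : sth φ Q.1 * Q.1 = Matrix.reindex e e (H0 d ω₀) := by
    have h1 : Q.1 = y.1 * (RU Z).1 := rfl
    rw [mem_GU_iff' hK φ hφq] at hy
    rw [h1, sth_mul]
    calc sth φ (RU Z).1 * sth φ y.1 * (y.1 * (RU Z).1)
        = sth φ (RU Z).1 * (sth φ y.1 * y.1) * (RU Z).1 := by simp only [mul_assoc]
      _ = _ := by rw [hy, mul_one, hQ0]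
  let Ψ : (Matrix (II d) (II d) K)ˣ ≃* GL (Fin n) K := RU.trans (MulAut.conj Q)
  have hΨ : ∀ X, Ψ X = Q * RU X * Q⁻¹ := fun _ => rfl
  have hΨJ : Ψ Jp = u.1 := by
    rw [hΨ, ← hyu, hu', hQdef]
    group
  let e1 : ↥(Subgroup.centralizer ({u} : Set ↥(Cfsg.GU n K q)))
      ≃ {g : GL (Fin n) K // g * u.1 = u.1 * g ∧ g ∈ Cfsg.GU n K q} :=
    { toFun := fun z => ⟨z.1.1, by
        have := Subgroup.mem_centralizer_singleton_iff.1 z.2
        exact congrArg Subtype.val this, z.1.2⟩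
      invFun := fun g => ⟨⟨g.1, g.2.2⟩, by
        rw [Subgroup.mem_centralizer_singleton_iff]
        exact Subtype.ext g.2.1⟩
      left_inv := fun _ => rfl
      right_inv := fun _ => rfl }
  apply Nat.card_congr
  refine e1.trans (Equiv.subtypeEquiv Ψ.toEquiv (fun X => ?_)).symm
  show (X.1 * NN K d = NN K d * X.1 ∧ dag d φ ω₀ X.1 * X.1 = 1)
    ↔ (Ψ X * u.1 = u.1 * Ψ X ∧ Ψ X ∈ Cfsg.GU n K q)
  rw [hΨ X, hmem Q hQ X, ← hΨ X, ← hΨJ, ← map_mul, ← map_mul, Ψ.injective.eq_iff, Units.ext_iff,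
    Units.val_mul, Units.val_mul, hJ2]

end Cfsg.Agent.Lib.Helper48GUCentE
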