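import Mathlib
import Cfsg.Prelude.Def_LieClassical
import Cfsg.Agent.Lib.Helper7Herm

set_option autoImplicit false

namespace Cfsg.Agent.Lib.Helper48GUEmbed

open Module

section ident
variable {K : Type*} [Field K]

theorem pair_identity (σ : K →+* K) (hσσ : ∀ x, σ (σ x) = x) (l₁ l₂ ω : K)
    (h1 : l₁ * σ l₁ = -1) (h2 : l₂ * σ l₂ = -1) (hne : l₁ ≠ l₂) (hω : ω ≠ σ ω) :
    ∃ t₁ t₂ : K, ∀ x₁ x₂ y₁ y₂ : K, σ x₁ = x₁ → σ x₂ = x₂ → σ y₁ = y₁ → σ y₂ = y₂ →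
      ((x₁ + x₂ * ω) + (y₁ * t₁ + y₂ * t₂)) * σ ((x₁ + x₂ * ω) + (y₁ * t₁ + y₂ * t₂))
      + (l₁ * (x₁ + x₂ * ω) + l₂ * (y₁ * t₁ + y₂ * t₂))
        * σ (l₁ * (x₁ + x₂ * ω) + l₂ * (y₁ * t₁ + y₂ * t₂)) = x₁ * y₁ + x₂ * y₂ := by
  set μ := 1 + l₁ * σ l₂ with hμ
  set δ := ω - σ ω with hδ
  have hδ0 : δ ≠ 0 := sub_ne_zero.2 hω
  have hl2 : σ l₂ ≠ 0 := by
    intro h
    rw [h, mul_zero] at h2
    simp at h2
  have hμ0 : μ ≠ 0 := by
    intro h
    apply hne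
    have : l₁ * σ l₂ = l₂ * σ l₂ := by
      rw [h2]; linear_combination h
    exact mul_right_cancel₀ hl2 this
  set c₁ := -(σ ω) / (δ * μ) with hc₁
  set c₂ := 1 / (δ * μ) with hc₂
  have e1 : μ * δ * c₁ = -(σ ω) := by
    rw [hc₁]; field_simp
  have e2 : μ * δ * c₂ = 1 := by
    rw [hc₂]; field_simp
  have hσδ : σ δ = -δ := by
    rw [hδ, map_sub, hσσ]; ring
  have e1' : σ μ * δ * σ c₁ = ω := by
    have := congrArg σ e1
    rw [map_mul, map_mul, map_neg, hσσ, hσδ] at this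
    linear_combination -this
  have e2' : σ μ * δ * σ c₂ = -1 := by
    have := congrArg σ e2
    rw [map_mul, map_mul, map_one, hσδ] at this
    linear_combination -this
  have hσμ : σ μ = 1 + σ l₁ * l₂ := by
    rw [hμ, map_add, map_one, map_mul, hσσ]
  refine ⟨σ c₁, σ c₂, ?_⟩
  intro x₁ x₂ y₁ y₂ hx₁ hx₂ hy₁ hy₂
  apply mul_left_cancel₀ hδ0
  simp only [map_add, map_mul, hσσ, hx₁, hx₂, hy₁, hy₂]
  rw [hσμ] at e1' e2'
  rw [hμ] at e1 e2
  linear_combination δ * (x₁ + x₂ * ω) * (x₁ + x₂ * σ ω) * h1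
    + δ * (y₁ * σ c₁ + y₂ * σ c₂) * (y₁ * c₁ + y₂ * c₂) * h2
    + (x₁ + x₂ * ω) * y₁ * e1 + (x₁ + x₂ * ω) * y₂ * e2
    + (x₁ + x₂ * σ ω) * y₁ * e1' + (x₁ + x₂ * σ ω) * y₂ * e2' - (x₁ * y₁ + x₂ * y₂) * hδ

end ident


section finite
variable {K F : Type*} [Field K] [Fintype K] [Field F] [Algebra F K] {q : ℕ}

theorem exists_pair (hK : Fintype.card K = q ^ 2)
    (hfix : ∀ x : K, x ^ q = x ↔ x ∈ (algebraMap F K).range) :
    ∃ c d : Fin 4 → K, ∀ x₁ x₂ y₁ y₂ : F,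
      (x₁ • c 0 + x₂ • c 1 + y₁ • c 2 + y₂ • c 3) ^ (q + 1)
        + (x₁ • d 0 + x₂ • d 1 + y₁ • d 2 + y₂ • d 3) ^ (q + 1)
        = algebraMap F K (x₁ * y₁ + x₂ * y₂) := by
  classical
  obtain ⟨σ, hσ⟩ := Helper7Herm.exists_sigma hK
  have hq := Helper7Herm.two_le_q hK
  have hσσ : ∀ x, σ (σ x) = x := by
    intro x
    rw [hσ, hσ, ← pow_mul, ← sq, ← hK, FiniteField.pow_card]
  have hneg : ((-1 : K)) ^ q = -1 := by
    rw [hfix]
    exact ⟨-1, by simp⟩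
  have hcard := Helper7Herm.card_norm_fiber hK (-1 : K) hneg (by simp)
  have : Finite {x : K // x ^ (q + 1) = -1} := inferInstance
  have hlt : 1 < Nat.card {x : K // x ^ (q + 1) = -1} := by omega
  obtain ⟨⟨l₁, h1⟩, ⟨l₂, h2⟩, hne⟩ := Finite.one_lt_card_iff_nontrivial.1 hlt
  have hne' : l₁ ≠ l₂ := fun h => hne (Subtype.ext h)
  obtain ⟨ω, hω⟩ : ∃ ω : K, ω ≠ σ ω := by
    by_contra hcon
    push Not at hcon
    have h3 : (Polynomial.X ^ q - Polynomial.X : Polynomial K) = 0 := by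
      apply Polynomial.eq_zero_of_natDegree_lt_card_of_eval_eq_zero' _ Finset.univ
      · intro x _
        have := hcon x
        rw [hσ] at this
        simp [← this]
      · rw [FiniteField.X_pow_card_sub_X_natDegree_eq K (by omega), Finset.card_univ, hK]
        nlinarith
    exact FiniteField.X_pow_card_sub_X_ne_zero K (by omega) h3
  obtain ⟨t₁, t₂, ht⟩ := pair_identity σ hσσ l₁ l₂ ω (by rw [hσ, ← pow_succ', h1])
    (by rw [hσ, ← pow_succ', h2]) hne' hω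
  refine ⟨![1, ω, t₁, t₂], ![l₁, l₁ * ω, l₂ * t₁, l₂ * t₂], ?_⟩
  intro x₁ x₂ y₁ y₂
  have hf : ∀ a : F, σ (algebraMap F K a) = algebraMap F K a := by
    intro a
    rw [hσ, hfix]
    exact ⟨a, rfl⟩
  have := ht (algebraMap F K x₁) (algebraMap F K x₂) (algebraMap F K y₁) (algebraMap F K y₂)
    (hf _) (hf _) (hf _) (hf _)
  rw [map_add, map_mul, map_mul, ← this, pow_succ', pow_succ', ← hσ, ← hσ]
  simp only [Algebra.smul_def, Matrix.cons_val_zero, Matrix.cons_val_one, Matrix.cons_val]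
  congr 1
  · congr 1
    · ring
    · congr 1; ring
  · congr 1
    · ring
    · congr 1; ring

end finite

section embed
variable {K F : Type*} [Field K] [Field F] [Algebra F K] {q m : ℕ}

theorem embed {J : Type} [Fintype J] [DecidableEq J] (Q : (J → F) → F)
    (Ψ : (J → F) ≃ₗ[F] (Fin m → K))
    (hΨ : ∀ x, Cfsg.hermForm m K q (Ψ x) (Ψ x) = algebraMap F K (Q x)) :
    ∃ φ : ↥(Cfsg.GU m K q) →* ↥(Cfsg.isometryGroup F Q), Function.Injective φ := by
  classical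
  let A : Matrix (Fin m) (Fin m) K → Matrix J J F := fun g =>
    LinearMap.toMatrix' (Ψ.symm.toLinearMap ∘ₗ ((Matrix.toLin' g).restrictScalars F)
      ∘ₗ Ψ.toLinearMap)
  have hA : ∀ g x, Ψ (Matrix.mulVec (A g) x) = Matrix.mulVec g (Ψ x) := by
    intro g x
    simp only [A]
    rw [← Matrix.toLin'_apply, Matrix.toLin'_toMatrix']
    simp
  have hext : ∀ M N : Matrix J J F,
      (∀ x, Ψ (Matrix.mulVec M x) = Ψ (Matrix.mulVec N x)) → M = N := by
    intro M N h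
    apply Matrix.toLin'.injective
    apply LinearMap.ext
    intro x
    rw [Matrix.toLin'_apply, Matrix.toLin'_apply]
    exact Ψ.injective (h x)
  let f : ↥(Cfsg.GU m K q) →* Matrix J J F :=
    { toFun := fun g => A ((g : GL (Fin m) K) : Matrix (Fin m) (Fin m) K)
      map_one' := by
        apply hext
        intro x
        rw [hA]
        simp
      map_mul' := by
        intro g h
        apply hext
        intro x
        rw [hA, ← Matrix.mulVec_mulVec, hA, hA]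
        simp [Matrix.mulVec_mulVec] }
  have hmem : ∀ g, f.toHomUnits g ∈ Cfsg.isometryGroup F Q := by
    intro g x _
    change Q (Matrix.mulVec (f g) x) = Q x
    apply (algebraMap F K).injective
    rw [← hΨ, ← hΨ]
    have h3 : Ψ (Matrix.mulVec (f g) x)
        = Matrix.mulVec ((g : GL (Fin m) K) : Matrix (Fin m) (Fin m) K) (Ψ x) := hA _ x
    rw [h3]
    exact g.2 _ _
  refine ⟨f.toHomUnits.codRestrict (Cfsg.isometryGroup F Q) hmem, ?_⟩
  intro g h hgh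
  have h1 : f g = f h := congrArg (fun z => ((z : ↥(Cfsg.isometryGroup F Q)) : GL J F).1) hgh
  apply Subtype.ext
  apply Units.ext
  apply Matrix.toLin'.injective
  apply LinearMap.ext
  intro u
  obtain ⟨x, rfl⟩ := Ψ.surjective u
  rw [Matrix.toLin'_apply, Matrix.toLin'_apply, ← hA, ← hA]
  change Ψ (Matrix.mulVec (f g) x) = Ψ (Matrix.mulVec (f h) x)
  rw [h1]

/-- a coordinate of the hyperbolic part -/
def Lmap {I R : Type*} (c : Fin 4 → K) (e : I ≃ R ⊕ R) (j : R) : (I ⊕ I → F) →ₗ[F] K :=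
  (LinearMap.proj (Sum.inl (e.symm (Sum.inl j)))).smulRight (c 0)
  + (LinearMap.proj (Sum.inl (e.symm (Sum.inr j)))).smulRight (c 1)
  + (LinearMap.proj (Sum.inr (e.symm (Sum.inl j)))).smulRight (c 2)
  + (LinearMap.proj (Sum.inr (e.symm (Sum.inr j)))).smulRight (c 3)

theorem hyp_sum {I R : Type*} [Fintype I] [Fintype R] (c d : Fin 4 → K)
    (hcd : ∀ x₁ x₂ y₁ y₂ : F,
      (x₁ • c 0 + x₂ • c 1 + y₁ • c 2 + y₂ • c 3) ^ (q + 1)
        + (x₁ • d 0 + x₂ • d 1 + y₁ • d 2 + y₂ • d 3) ^ (q + 1)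
        = algebraMap F K (x₁ * y₁ + x₂ * y₂)) (e : I ≃ R ⊕ R) (x : I ⊕ I → F) :
    ∑ j, (Lmap c e j x) ^ (q + 1) + ∑ j, (Lmap d e j x) ^ (q + 1)
      = algebraMap F K (∑ i, x (.inl i) * x (.inr i)) := by
  rw [← Equiv.sum_comp e.symm, Fintype.sum_sum_type, ← Finset.sum_add_distrib,
    ← Finset.sum_add_distrib, map_sum]
  apply Finset.sum_congr rfl
  intro j _
  exact hcd _ _ _ _

end embed

end Cfsg.Agent.Lib.Helper48GUEmbed
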