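import Mathlib
import Cfsg.Agent.Lib.Helper48QuadEx
import Cfsg.Agent.Lib.Helper48JordanClass
import Cfsg.Agent.Lib.Helper48EigCount

set_option autoImplicit false
set_option linter.unusedSectionVars false
set_option linter.unusedVariables false

namespace Cfsg.Agent.Lib.Helper48OrthCount

open Matrix Cfsg.Agent.Lib.Helper48Eig Cfsg.Agent.Lib.Helper48EigMat
  Cfsg.Agent.Lib.Helper48EigMat2 Cfsg.Agent.Lib.Helper48OrthConj Cfsg.Agent.Lib.Helper49Orth
  Cfsg.Agent.Lib.Helper48QuadEx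

variable {F : Type*} [Field F] [Fintype F] {p : ℕ} [Fact p.Prime] [CharP F p]
  {ι : Type} [Fintype ι] [DecidableEq ι] (Q : QuadraticForm F (ι → F))
  {L : Type*} [Field L] [Algebra F L] {r : ℕ} [Fact r.Prime]

theorem iso_pow_eq_one (g : ↥(Cfsg.isometryGroup F ⇑Q)) (k : ℕ) :
    g ^ k = 1 ↔ ((g : Matrix.GeneralLinearGroup ι F) : Matrix ι ι F) ^ k = 1 := by
  rw [Subtype.ext_iff, Units.ext_iff]
  rfl

/-- the multiplicity function of an isometry is symmetric -/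
theorem hasMult_neg (hQ : (QuadraticMap.polarBilin Q).Nondegenerate) {ζ : L}
    (hζ : IsPrimitiveRoot ζ r) (g : ↥(Cfsg.isometryGroup F ⇑Q)) {a : ZMod r → ℕ}
    (h : HasMult ζ ((g : Matrix.GeneralLinearGroup ι F) : Matrix ι ι F) a) (k : ZMod r) :
    a (-k) = a k := by
  obtain ⟨Gu, hGu⟩ := GG_isUnit Q hQ
  have hG'G : Units.val Gu⁻¹ * GG Q = 1 := by rw [← hGu, Units.inv_mul]
  have hGG' : GG Q * Units.val Gu⁻¹ = 1 := by rw [← hGu, Units.mul_inv]
  have h1 := sg_mul_self Q _ hG'G g.1.1 (fun v => iso_apply g v)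
  have h2 := h.inv hζ.pow_eq_one (mul_eq_one_comm.1 h1)
  have h3 := Cfsg.Agent.Lib.Helper48EigMat2.HasMult.conj_units h.transpose _ _ hG'G hGG'
  have h4 := h2.unique hζ h3 1 (by
    rw [Units.val_one, one_mul, mul_one]
    rfl)
  exact congrFun h4 k

theorem card_classes_orth [IsAlgClosed L] (hQ : (QuadraticMap.polarBilin Q).Nondegenerate)
    (hr2 : r ≠ 2) (hrp : r ≠ p) {ζ : L} (hζ : IsPrimitiveRoot ζ r) :
    Nat.card {C : ConjClasses ↥(Cfsg.isometryGroup F ⇑Q) //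
      ∃ g : ↥(Cfsg.isometryGroup F ⇑Q), ConjClasses.mk g = C ∧ orderOf g = r}
      = Nat.card {a : ZMod r → ℕ // a ≠ Pi.single 0 (Fintype.card ι) ∧
          ∃ g : ↥(Cfsg.isometryGroup F ⇑Q),
            HasMult ζ ((g : Matrix.GeneralLinearGroup ι F) : Matrix ι ι F) a} := by
  have hp : p.Prime := Fact.out
  have hr : r.Prime := Fact.out
  have hrp' : r.Coprime p := (Nat.coprime_primes hr hp).2 hrp
  have hodd : Odd r := hr.odd_of_ne_two hr2
  have hrF : (r : F) ≠ 0 := by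
    intro h0
    rw [CharP.cast_eq_zero_iff F p] at h0
    exact hrp ((Nat.prime_dvd_prime_iff_eq hp hr).1 h0).symm
  apply Cfsg.Agent.Lib.Helper48JordanClass.card_classes
    (fun (g : ↥(Cfsg.isometryGroup F ⇑Q)) (a : ZMod r → ℕ) =>
      HasMult ζ ((g : Matrix.GeneralLinearGroup ι F) : Matrix ι ι F) a)
  · intro g hg
    exact exists_hasMult hζ g.1.1 ((iso_pow_eq_one Q g r).1 (by rw [← hg, pow_orderOf_eq_one]))
  · intro g g' a h h'
    obtain ⟨P, hP⟩ := h.conj p hrp' h'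
    obtain ⟨g₀, hg₀⟩ := core Q hQ g.1.1 g.1⁻¹.1 g'.1.1 g'.1⁻¹.1 P.1 P⁻¹.1 r hrF hodd
      (fun v => iso_apply g v) (fun v => iso_apply g' v) h.1 (Units.mul_inv _) (Units.inv_mul _)
      (Units.mul_inv _) (Units.inv_mul _) (Units.mul_inv _) (Units.inv_mul _) hP
    rw [isConj_iff]
    refine ⟨g₀, ?_⟩
    rw [mul_inv_eq_iff_eq_mul]
    apply Subtype.ext
    apply Units.ext
    exact hg₀
  · intro g g' a a' h h' hc
    rw [isConj_iff] at hc
    obtain ⟨P, hP⟩ := hc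
    rw [mul_inv_eq_iff_eq_mul] at hP
    exact h.unique hζ h' P.1 (congrArg (fun x : ↥(Cfsg.isometryGroup F ⇑Q) =>
      ((x : Matrix.GeneralLinearGroup ι F) : Matrix ι ι F)) hP)
  · rintro a ⟨_, g, hg⟩
    exact ⟨g, hg⟩
  · intro g a h
    have h1 : g = 1 ↔ a = Pi.single 0 (Fintype.card ι) := by
      rw [← h.eq_one_iff p hrp' hζ]
      exact ⟨fun hg => by rw [hg]; rfl, fun hg => Subtype.ext (Units.ext hg)⟩
    constructor
    · intro hg
      refine ⟨?_, g, h⟩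
      intro ha
      rw [h1.2 ha, orderOf_one] at hg
      exact hr.one_lt.ne hg
    · rintro ⟨hne, _⟩
      exact orderOf_eq_prime ((iso_pow_eq_one Q g r).2 h.1) (fun hg => hne (h1.1 hg))

end Cfsg.Agent.Lib.Helper48OrthCount
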