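import Mathlib
import Cfsg.Agent.Lib.Helper48QuadType
import Cfsg.Agent.Lib.Helper48QuadEx

set_option autoImplicit false
set_option linter.unusedSectionVars false
set_option linter.unusedVariables false

namespace Cfsg.Agent.Lib.Helper48OrthReal

open Matrix QuadraticMap Cfsg.Agent.Lib.Helper48Eig Cfsg.Agent.Lib.Helper48EigMat
  Cfsg.Agent.Lib.Helper48EigMat2 Cfsg.Agent.Lib.Helper48QuadEx Cfsg.Agent.Lib.Helper48QuadType
  Cfsg.Agent.Lib.Helper48SpEx Cfsg.Agent.Lib.Helper48AltForm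
  Cfsg.Agent.Lib.Helper7OPlus Cfsg.Agent.Lib.Helper7OMinus Cfsg.Agent.Lib.Helper7Norm2

section
variable {K : Type*} [Field K] {L : Type*} [Field L] [Algebra K L] {r : ℕ} [NeZero r]

/-- transport of an isometry with given eigenvalue multiplicities along an isometry of forms -/
theorem real_of_isom {ι ι' : Type} [Fintype ι] [DecidableEq ι] [Fintype ι'] [DecidableEq ι']
    (Q : QuadraticForm K (ι' → K)) (Q' : QuadraticForm K (ι → K)) (h : Isom Q' Q)
    (M M' : Matrix ι ι K) (hMM' : M * M' = 1) (hM : ∀ v, Q' (M *ᵥ v) = Q' v) {ζ : L}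
    {a : ZMod r → ℕ} (hmult : HasMult ζ M a) :
    ∃ g : ↥(Cfsg.isometryGroup K ⇑Q),
      HasMult ζ ((g : Matrix.GeneralLinearGroup ι' K) : Matrix ι' ι' K) a := by
  obtain ⟨T, hT⟩ := h
  have hcard : Fintype.card ι = Fintype.card ι' := by
    have := T.finrank_eq
    rwa [Module.finrank_fintype_fun_eq_card, Module.finrank_fintype_fun_eq_card] at this
  let e : ι ≃ ι' := Fintype.equivOfCardEq hcard
  let E : (ι' → K) ≃ₗ[K] (ι → K) := LinearEquiv.funCongrLeft K K e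
  have hE : ∀ v, E v = v ∘ e := fun v => rfl
  have hre : ∀ (N : Matrix ι ι K) (v : ι' → K), E (Matrix.reindex e e N *ᵥ v) = N *ᵥ E v := by
    intro N v
    rw [hE, hE, Matrix.reindex_apply, Matrix.submatrix_mulVec_equiv]
    funext i
    simp
  have h1 : Matrix.reindex e e M * Matrix.reindex e e M' = 1 := by
    have : Matrix.reindex e e M * Matrix.reindex e e M'
        = Matrix.reindexAlgEquiv K K e (M * M') := by rw [map_mul]; rfl
    rw [this, hMM', map_one]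
  obtain ⟨g, P, P', hPP', hP'P, hg⟩ := exists_iso_of_similar Q (Q'.comp E.toLinearMap)
    (E.trans T) 1 (fun v => by
      rw [one_mul, LinearEquiv.trans_apply, hT]
      rfl) (Matrix.reindex e e M) (Matrix.reindex e e M') h1 (fun v => by
      change Q' (E _) = Q' (E v)
      rw [hre, hM])
  refine ⟨g, ?_⟩
  rw [hg]
  exact Cfsg.Agent.Lib.Helper48EigMat2.HasMult.conj_units (hasMult_reindex e hmult) P P' hPP' hP'P

/-- an isometry acting trivially on the first summand of an orthogonal sum -/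
theorem real_block {κ : Type} [Fintype κ] [DecidableEq κ] (Q₀ : QuadraticForm K (κ → K)) {d : ℕ}
    {M Z : Matrix (Fin d) (Fin d) K} {ζ : L} {a : ZMod r → ℕ} (hM : HasMult ζ M a)
    (hinv : Mᵀ * Z * M = Z) {ι' : Type} [Fintype ι'] [DecidableEq ι']
    (Q : QuadraticForm K (ι' → K)) (h : Isom (Q₀.prod (qf Z)) Q) :
    ∃ g : ↥(Cfsg.isometryGroup K ⇑Q),
      HasMult ζ ((g : Matrix.GeneralLinearGroup ι' K) : Matrix ι' ι' K)
        (Pi.single 0 (Fintype.card κ) + a) := by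
  let E : (κ ⊕ Fin d → K) ≃ₗ[K] (κ → K) × (Fin d → K) :=
    LinearEquiv.sumArrowLequivProdArrow κ (Fin d) K K
  have hE : ∀ v, E v = (v ∘ Sum.inl, v ∘ Sum.inr) := fun v => rfl
  have hr1 : 1 ≤ r := NeZero.one_le
  have hM2 := hasMult_fromBlocks (κ := κ) hM
  have hMM' : fromBlocks (1 : Matrix κ κ K) 0 0 M * (fromBlocks (1 : Matrix κ κ K) 0 0 M) ^ (r - 1)
      = 1 := by rw [← pow_succ', Nat.sub_add_cancel hr1, hM2.1]
  refine real_of_isom Q ((Q₀.prod (qf Z)).comp E.toLinearMap) (Isom.trans ⟨E, fun v => rfl⟩ h)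
    _ _ hMM' (fun v => ?_) hM2
  change (Q₀.prod (qf Z)) (E _) = (Q₀.prod (qf Z)) (E v)
  rw [hE, hE, Matrix.fromBlocks_mulVec, QuadraticMap.prod_apply, QuadraticMap.prod_apply]
  have e1 : (Sum.elim ((1 : Matrix κ κ K) *ᵥ (v ∘ Sum.inl) + (0 : Matrix κ (Fin d) K) *ᵥ (v ∘ Sum.inr))
      ((0 : Matrix (Fin d) κ K) *ᵥ (v ∘ Sum.inl) + M *ᵥ (v ∘ Sum.inr))) ∘ Sum.inl = v ∘ Sum.inl := by
    funext i
    simp
  have e2 : (Sum.elim ((1 : Matrix κ κ K) *ᵥ (v ∘ Sum.inl) + (0 : Matrix κ (Fin d) K) *ᵥ (v ∘ Sum.inr))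
      ((0 : Matrix (Fin d) κ K) *ᵥ (v ∘ Sum.inl) + M *ᵥ (v ∘ Sum.inr))) ∘ Sum.inr
      = M *ᵥ (v ∘ Sum.inr) := by
    funext i
    simp
  rw [e1, e2, qf_inv Z M hinv]

end

section main
variable {K : Type*} [Field K] [Fintype K] {L : Type*} [Field L] [Algebra K L] {r : ℕ}
  [Fact r.Prime]

/-- every admissible multiplicity function occurs in one of the two orthogonal groups, and in both
of them if there are fixed vectors -/
theorem real_either_both (p : ℕ) [Fact p.Prime] [CharP K p] (hr : r.Coprime p) (hodd : Odd r)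
    {ζ : L} (hζ : IsPrimitiveRoot ζ r) (Φ : L →+* L) (hΦ : ∀ x, Φ x = x ^ Fintype.card K)
    (u : (ZMod r)ˣ) (hu : ((Fintype.card K : ℕ) : ZMod r) = u) (m : ℕ) (hm : 1 ≤ m) (α γ : K)
    (hαγ : Aniso α γ) (a : ZMod r → ℕ) (ha : ∀ k, a (u.1 * k) = a k) (hneg : ∀ k, a (-k) = a k)
    (hsum : ∑ k, a k = 2 * m) :
    ((∃ g : ↥(Cfsg.isometryGroup K ⇑(QP K m)), HasMult ζ g.1.1 a) ∨
      (∃ g : ↥(Cfsg.isometryGroup K ⇑(QM K (m - 1) α γ)), HasMult ζ g.1.1 a)) ∧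
    (a 0 ≠ 0 → (∃ g : ↥(Cfsg.isometryGroup K ⇑(QP K m)), HasMult ζ g.1.1 a) ∧
      (∃ g : ↥(Cfsg.isometryGroup K ⇑(QM K (m - 1) α γ)), HasMult ζ g.1.1 a)) := by
  obtain ⟨f0, fdec, fu, fneg, fsum⟩ := update_facts u a ha hneg
  obtain ⟨M, Z, hM, hZ, hinv⟩ := exists_nonfixed p hr hodd hζ Φ hΦ u hu _ f0 fu fneg
  obtain ⟨Y, Y', hYY', halt, _⟩ := exists_alt_of_hasMult p hr hodd hζ hM f0 fneg
  have heven := even_card_of_alt Y Y' hYY' halt
  rw [Fintype.card_fin] at heven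
  obtain ⟨d', hd'⟩ := heven
  obtain ⟨d₀, hd₀⟩ : ∃ d₀, a 0 = d₀ + d₀ := ⟨m - d', by omega⟩
  have hQ₁ := nondeg_qf Z hZ
  have hcP : Fintype.card (Fin d₀ ⊕ Fin d₀) = a 0 := by simp [hd₀]
  have hP : ∀ {ι' : Type} [Fintype ι'] [DecidableEq ι'] (Q : QuadraticForm K (ι' → K)),
      Isom ((QP K d₀).prod (qf Z)) Q → ∃ g : ↥(Cfsg.isometryGroup K ⇑Q), HasMult ζ g.1.1 a := by
    intro ι' _ _ Q h
    have h1 := real_block (QP K d₀) hM hinv Q h
    rwa [hcP, ← fdec] at h1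
  have hclP := classify hm (by
      rw [Module.finrank_prod, Module.finrank_fintype_fun_eq_card,
        Module.finrank_fintype_fun_eq_card, hcP, Fintype.card_fin]
      omega) ((QP K d₀).prod (qf Z)) (nondeg_prod _ _ (nondeg_QP d₀) hQ₁) α γ hαγ
  refine ⟨?_, ?_⟩
  · rcases hclP with h | h
    · exact Or.inl (hP _ h)
    · exact Or.inr (hP _ h)
  · intro h0
    have hd1 : 1 ≤ d₀ := by omega
    have hcM : Fintype.card ((Fin (d₀ - 1) ⊕ Fin (d₀ - 1)) ⊕ Fin 2) = a 0 := by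
      simp [hd₀]
      omega
    have hMi : ∀ {ι' : Type} [Fintype ι'] [DecidableEq ι'] (Q : QuadraticForm K (ι' → K)),
        Isom ((QM K (d₀ - 1) α γ).prod (qf Z)) Q →
          ∃ g : ↥(Cfsg.isometryGroup K ⇑Q), HasMult ζ g.1.1 a := by
      intro ι' _ _ Q h
      have h1 := real_block (QM K (d₀ - 1) α γ) hM hinv Q h
      rwa [hcM, ← fdec] at h1
    have hclM := classify hm (by
        rw [Module.finrank_prod, Module.finrank_fintype_fun_eq_card,
          Module.finrank_fintype_fun_eq_card, hcM, Fintype.card_fin]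
        omega) ((QM K (d₀ - 1) α γ).prod (qf Z))
        (nondeg_prod _ _ (nondeg_QM (d₀ - 1) α γ hαγ) hQ₁) α γ hαγ
    have hno : ¬ Isom ((QP K d₀).prod (qf Z)) ((QM K (d₀ - 1) α γ).prod (qf Z)) := fun h =>
      not_isom d₀ hd1 α γ hαγ (cancel _ _ _ (nondeg_QM (d₀ - 1) α γ hαγ) hQ₁ h)
    rcases hclP with h | h <;> rcases hclM with h' | h'
    · exact absurd (h.trans h'.symm) hno
    · exact ⟨hP _ h, hMi _ h'⟩
    · exact ⟨hMi _ h', hP _ h⟩
    · exact absurd (h.trans h'.symm) hno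

end main

end Cfsg.Agent.Lib.Helper48OrthReal
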