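import Mathlib
import Cfsg.Agent.Lib.Helper48OrthReal

set_option autoImplicit false
set_option linter.unusedSectionVars false
set_option linter.unusedVariables false

namespace Cfsg.Agent.Lib.Helper48OrthType

open Matrix QuadraticMap Cfsg.Agent.Lib.Helper48Eig Cfsg.Agent.Lib.Helper48EigMat
  Cfsg.Agent.Lib.Helper48EigMat2 Cfsg.Agent.Lib.Helper48QuadEx Cfsg.Agent.Lib.Helper48QuadType
  Cfsg.Agent.Lib.Helper48SpEx Cfsg.Agent.Lib.Helper48AltForm Cfsg.Agent.Lib.Helper48OrthReal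
  Cfsg.Agent.Lib.Helper7OPlus Cfsg.Agent.Lib.Helper7OMinus Cfsg.Agent.Lib.Helper7Norm2

section count
variable {K : Type*} [Field K] [Fintype K] {ι : Type*} [Fintype ι] [DecidableEq ι] {r : ℕ}
  [Fact r.Prime]

/-- an invariant set of vectors of a fixed-point-free matrix of prime order -/
theorem card_modEq_one (M : Matrix ι ι K) (hMr : M ^ r = 1) (hfix : ∀ v, M *ᵥ v = v → v = 0)
    (P : (ι → K) → Prop) (hP0 : P 0) (hP : ∀ v, P v → P (M *ᵥ v)) :
    Nat.card {v // P v} ≡ 1 [MOD r] := by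
  classical
  let f : Function.End {v // P v} := fun v => ⟨M *ᵥ v.1, hP v.1 v.2⟩
  have hf : ∀ (j : ℕ) (v : {v // P v}), ((f ^ j) v).1 = (M ^ j) *ᵥ v.1 := by
    intro j
    induction j with
    | zero => intro v; rw [pow_zero, pow_zero, Matrix.one_mulVec]; rfl
    | succ j ih =>
      intro v
      rw [pow_succ, pow_succ]
      change ((f ^ j) (f v)).1 = _
      rw [ih, ← Matrix.mulVec_mulVec]
  have hfr : f ^ r ^ 1 = 1 := by
    funext v
    apply Subtype.ext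
    rw [pow_one, hf, hMr, Matrix.one_mulVec]
    rfl
  have h1 := Equiv.Perm.card_fixedPoints_modEq hfr
  have h2 : Fintype.card (Function.fixedPoints f) = 1 := by
    rw [Fintype.card_eq_one_iff]
    refine ⟨⟨⟨0, hP0⟩, ?_⟩, ?_⟩
    · apply Subtype.ext
      exact Matrix.mulVec_zero M
    · rintro ⟨v, hv⟩
      apply Subtype.ext
      apply Subtype.ext
      exact hfix v.1 (congrArg Subtype.val hv)
  rw [h2] at h1
  rw [Nat.card_eq_fintype_card]
  exact h1

end count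

section arith
variable {r : ℕ} [Fact r.Prime]

theorem arith_plus (q m : ℕ) (hq : 1 ≤ q) (hm : 1 ≤ m) (h1 : q ^ (2 * m) ≡ 1 [MOD r])
    (h2 : q ^ (2 * m - 1) + q ^ m - q ^ (m - 1) ≡ 1 [MOD r]) :
    (q : ZMod r) ^ m = 1 ∨ (q : ZMod r) = 1 := by
  obtain ⟨m', rfl⟩ : ∃ m', m = m' + 1 := ⟨m - 1, by omega⟩
  rw [← ZMod.natCast_eq_natCast_iff] at h1 h2
  have e1 : 2 * (m' + 1) - 1 = 2 * m' + 1 := by omega
  have e2 : m' + 1 - 1 = m' := by omega
  rw [e1, e2, Nat.cast_sub (le_trans (Nat.pow_le_pow_right hq (by omega)) (Nat.le_add_left _ _))]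
    at h2
  push_cast at h1 h2
  set x : ZMod r := (q : ZMod r)
  have h3 : (1 - x ^ (m' + 1)) * (1 - x) = 0 := by
    have : x ^ (2 * (m' + 1)) = x * x ^ (2 * m' + 1) := by ring
    rw [this] at h1
    have h4 : x ^ (m' + 1) = x * x ^ m' := by ring
    rw [h4] at h2 ⊢
    linear_combination x * h2 - h1
  rcases mul_eq_zero.1 h3 with h | h
  · exact Or.inl (sub_eq_zero.1 h).symm
  · exact Or.inr (sub_eq_zero.1 h).symm

theorem arith_minus (q m : ℕ) (hq : 1 ≤ q) (hm : 1 ≤ m) (h1 : q ^ (2 * m) ≡ 1 [MOD r])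
    (h2 : q ^ (2 * m - 1) + q ^ (m - 1) - q ^ m ≡ 1 [MOD r]) :
    (q : ZMod r) ^ m = -1 ∨ (q : ZMod r) = 1 := by
  obtain ⟨m', rfl⟩ : ∃ m', m = m' + 1 := ⟨m - 1, by omega⟩
  rw [← ZMod.natCast_eq_natCast_iff] at h1 h2
  have e1 : 2 * (m' + 1) - 1 = 2 * m' + 1 := by omega
  have e2 : m' + 1 - 1 = m' := by omega
  rw [e1, e2, Nat.cast_sub (le_trans (Nat.pow_le_pow_right hq (by omega)) (Nat.le_add_right _ _))]
    at h2
  push_cast at h1 h2
  set x : ZMod r := (q : ZMod r)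
  have h3 : (1 + x ^ (m' + 1)) * (1 - x) = 0 := by
    have : x ^ (2 * (m' + 1)) = x * x ^ (2 * m' + 1) := by ring
    rw [this] at h1
    have h4 : x ^ (m' + 1) = x * x ^ m' := by ring
    rw [h4] at h2 ⊢
    linear_combination x * h2 - h1
  rcases mul_eq_zero.1 h3 with h | h
  · exact Or.inl (eq_neg_of_add_eq_zero_right h)
  · exact Or.inr (sub_eq_zero.1 h).symm

end arith

section types
variable {K : Type*} [Field K] [Fintype K] {L : Type*} [Field L] [Algebra K L] {r : ℕ}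
  [Fact r.Prime]

theorem fix_eq_zero {ι : Type*} [Fintype ι] [DecidableEq ι] {ζ : L} (hζ : IsPrimitiveRoot ζ r)
    {M : Matrix ι ι K} {a : ZMod r → ℕ} (h : HasMult ζ M a) (h0 : a 0 = 0) (v : ι → K)
    (hv : M *ᵥ v = v) : v = 0 := by
  obtain ⟨w, hw⟩ := (isUnit_one_sub hζ h h0).exists_left_inv
  have h1 : (1 - M) *ᵥ v = 0 := by rw [Matrix.sub_mulVec, Matrix.one_mulVec, hv, sub_self]
  have h2 := congrArg (fun x => w *ᵥ x) h1
  simpa [Matrix.mulVec_mulVec, hw] using h2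

theorem card_all {ι : Type*} [Fintype ι] [DecidableEq ι] :
    Nat.card {v : ι → K // True} = Fintype.card K ^ Fintype.card ι := by
  rw [Nat.card_congr (Equiv.subtypeUnivEquiv (fun _ => trivial)), Nat.card_eq_fintype_card,
    Fintype.card_fun]

theorem type_plus {ζ : L} (hζ : IsPrimitiveRoot ζ r) {m : ℕ} (hm : 1 ≤ m)
    (g : ↥(Cfsg.isometryGroup K ⇑(QP K m))) {a : ZMod r → ℕ} (h : HasMult ζ g.1.1 a)
    (h0 : a 0 = 0) :
    ((Fintype.card K : ℕ) : ZMod r) ^ m = 1 ∨ ((Fintype.card K : ℕ) : ZMod r) = 1 := by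
  have hfix := fix_eq_zero hζ h h0
  have h1 := card_modEq_one g.1.1 h.1 hfix (fun _ => True) trivial (fun _ _ => trivial)
  rw [card_all] at h1
  have h2 := card_modEq_one g.1.1 h.1 hfix (fun v => QP K m v = 0) (map_zero _) (fun v hv => by
    rw [← hv]
    exact Cfsg.Agent.Lib.Helper49Orth.iso_apply g v)
  simp only [QP_apply] at h2
  rw [Cfsg.Agent.S0289.result rfl m hm] at h2
  have hc : Fintype.card (Fin m ⊕ Fin m) = 2 * m := by simp [two_mul]
  rw [hc] at h1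
  exact arith_plus _ m Fintype.card_pos hm h1 h2

theorem type_minus {ζ : L} (hζ : IsPrimitiveRoot ζ r) {m : ℕ} (hm : 1 ≤ m) (α γ : K)
    (hαγ : Aniso α γ) (g : ↥(Cfsg.isometryGroup K ⇑(QM K (m - 1) α γ))) {a : ZMod r → ℕ}
    (h : HasMult ζ g.1.1 a) (h0 : a 0 = 0) :
    ((Fintype.card K : ℕ) : ZMod r) ^ m = -1 ∨ ((Fintype.card K : ℕ) : ZMod r) = 1 := by
  have hfix := fix_eq_zero hζ h h0
  have h1 := card_modEq_one g.1.1 h.1 hfix (fun _ => True) trivial (fun _ _ => trivial)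
  rw [card_all] at h1
  have h2 := card_modEq_one g.1.1 h.1 hfix (fun v => QM K (m - 1) α γ v = 0) (map_zero _)
    (fun v hv => by
      rw [← hv]
      exact Cfsg.Agent.Lib.Helper49Orth.iso_apply g v)
  simp only [QM_apply] at h2
  rw [Cfsg.Agent.S0290.result rfl m hm α γ hαγ] at h2
  have hc : Fintype.card ((Fin (m - 1) ⊕ Fin (m - 1)) ⊕ Fin 2) = 2 * m := by
    simp
    omega
  rw [hc] at h1
  exact arith_minus _ m Fintype.card_pos hm h1 h2

/-- two quadratic forms with fixed-point-free isometries of the same type are isometric -/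
theorem isom_of_same {ι ι' : Type} [Fintype ι] [DecidableEq ι] [Fintype ι'] [DecidableEq ι']
    (p : ℕ) [Fact p.Prime] [CharP K p] (hr : r.Coprime p) (hodd : Odd r) {ζ : L}
    (hζ : IsPrimitiveRoot ζ r) (Q : QuadraticForm K (ι → K)) (Q' : QuadraticForm K (ι' → K))
    (hQ : (polarBilin Q).Nondegenerate) (hQ' : (polarBilin Q').Nondegenerate)
    (g : ↥(Cfsg.isometryGroup K ⇑Q)) (g' : ↥(Cfsg.isometryGroup K ⇑Q')) {a : ZMod r → ℕ}
    (h : HasMult ζ g.1.1 a) (h' : HasMult ζ g'.1.1 a) (h0 : a 0 = 0) : Isom Q Q' := by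
  have hcard : Fintype.card ι' = Fintype.card ι := by rw [← h.sum, ← h'.sum]
  let e : ι' ≃ ι := Fintype.equivOfCardEq hcard
  let E : (ι → K) ≃ₗ[K] (ι' → K) := LinearEquiv.funCongrLeft K K e
  have hE : ∀ v, E v = v ∘ e := fun v => rfl
  have hre : ∀ (N : Matrix ι' ι' K) (v : ι → K), E (Matrix.reindex e e N *ᵥ v) = N *ᵥ E v := by
    intro N v
    rw [hE, hE, Matrix.reindex_apply, Matrix.submatrix_mulVec_equiv]
    funext i
    simp
  have hiso : Isom (Q'.comp E.toLinearMap) Q' := ⟨E, fun v => rfl⟩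
  have h'' := hasMult_reindex e h'
  obtain ⟨X, hX⟩ := h.conj p hr h''
  have hrK : (r : K) ≠ 0 := by
    intro h0
    rw [CharP.cast_eq_zero_iff K p] at h0
    have h1 : p ∣ 1 := by
      rw [← hr]
      exact Nat.dvd_gcd h0 dvd_rfl
    exact (Fact.out : p.Prime).one_lt.ne' (Nat.dvd_one.1 h1)
  obtain ⟨y, y', hyy', hy'y, hya, hy⟩ := Cfsg.Agent.Lib.Helper48OrthConj.semi_isometry Q
    (Q'.comp E.toLinearMap) hQ (hiso.symm.nondeg hQ') g.1.1 g.1⁻¹.1 _ X.1 X⁻¹.1 r hrK hodd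
    (fun v => Cfsg.Agent.Lib.Helper49Orth.iso_apply g v) (fun v => by
      change Q' (E _) = Q' (E v)
      rw [hre]
      exact Cfsg.Agent.Lib.Helper49Orth.iso_apply g' _) h.1 (Units.mul_inv _) (Units.inv_mul _)
    (Units.mul_inv _) (Units.inv_mul _) hX
  have hE0 : Cfsg.Agent.Lib.Helper48Good.EE K r g.1.1 = 0 := by
    obtain ⟨w, hw⟩ := (isUnit_one_sub hζ h h0).exists_left_inv
    have h5 : (1 - g.1.1) * Cfsg.Agent.Lib.Helper48Good.EE K r g.1.1 = 0 := by
      rw [sub_mul, one_mul, Cfsg.Agent.Lib.Helper48Good.mul_EE r _ h.1, sub_self]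
    calc Cfsg.Agent.Lib.Helper48Good.EE K r g.1.1
        = (w * (1 - g.1.1)) * Cfsg.Agent.Lib.Helper48Good.EE K r g.1.1 := by rw [hw, one_mul]
      _ = 0 := by rw [mul_assoc, h5, mul_zero]
  refine Isom.trans (isom_of_linear Q _ hQ (Matrix.mulVecLin y) (fun v => ?_) rfl) hiso
  exact hy v (by rw [hE0, sub_zero, Matrix.one_mulVec])

theorem fromBlocks_diag_pow {ι κ : Type*} [Fintype ι] [DecidableEq ι] [Fintype κ] [DecidableEq κ]
    (A : Matrix κ κ K) (B : Matrix ι ι K) (j : ℕ) :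
    (fromBlocks A 0 0 B) ^ j = fromBlocks (A ^ j) 0 0 (B ^ j) := by
  induction j with
  | zero => rw [pow_zero, pow_zero, pow_zero, fromBlocks_one]
  | succ j ih => rw [pow_succ, ih, fromBlocks_multiply, pow_succ, pow_succ]; simp

theorem hasMult_fromBlocks₂ {ι κ : Type*} [Fintype ι] [DecidableEq ι] [Fintype κ] [DecidableEq κ]
    {ζ : L} {A : Matrix κ κ K} {B : Matrix ι ι K} {a b : ZMod r → ℕ} (hA : HasMult ζ A a)
    (hB : HasMult ζ B b) : HasMult ζ (fromBlocks A 0 0 B) (a + b) := by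
  refine ⟨by rw [fromBlocks_diag_pow, hA.1, hB.1, fromBlocks_one], ?_⟩
  rw [Matrix.charpoly_fromBlocks_zero₁₂, Polynomial.map_mul, hA.2, hB.2, PP_add]

/-- the split case: a pair of dual totally singular subspaces -/
theorem exists_plus_split (p : ℕ) [Fact p.Prime] [CharP K p] (hodd : Odd r) {ζ : L}
    (hζ : IsPrimitiveRoot ζ r) (Φ : L →+* L) (hΦ : ∀ x, Φ x = x ^ Fintype.card K)
    (hu : ((Fintype.card K : ℕ) : ZMod r) = 1) (m : ℕ) (a : ZMod r → ℕ) (h0 : a 0 = 0)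
    (hneg : ∀ k, a (-k) = a k) (hsum : ∑ k, a k = 2 * m) :
    ∃ g : ↥(Cfsg.isometryGroup K ⇑(QP K m)), HasMult ζ g.1.1 a := by
  have hr : r.Prime := Fact.out
  set b : ZMod r → ℕ := fun k => if k.val < (-k).val then a k else 0 with hb
  have hne : ∀ k : ZMod r, k ≠ 0 → k.val ≠ (-k).val := by
    intro k hk h
    have h1 : k = -k := ZMod.val_injective r h
    have h2 : (2 : ZMod r) * k = 0 := by linear_combination h1
    rcases mul_eq_zero.1 h2 with h3 | h3
    · have h4 : ((2 : ℕ) : ZMod r) = 0 := by exact_mod_cast h3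
      rw [ZMod.natCast_eq_zero_iff] at h4
      have h5 := Nat.le_of_dvd (by norm_num) h4
      obtain ⟨j, hj⟩ := hodd
      have := hr.two_le
      omega
    · exact hk h3
  have hdec : a = b + fun k => b (-k) := by
    funext k
    simp only [Pi.add_apply, hb, neg_neg]
    by_cases hk : k = 0
    · subst hk
      simp [h0]
    · rcases lt_or_gt_of_ne (hne k hk) with h | h
      · rw [if_pos h, if_neg (by omega), add_zero]
      · rw [if_neg (by omega), if_pos h, hneg, zero_add]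
  have hbsum : ∑ k, b k = m := by
    have h1 : ∑ k, b (-k) = ∑ k, b k := Equiv.sum_comp (Equiv.neg (ZMod r)) b
    have h2 : ∑ k, a k = ∑ k, b k + ∑ k, b (-k) := by
      conv_lhs => rw [hdec]
      simp only [Pi.add_apply, Finset.sum_add_distrib]
    omega
  obtain ⟨M, hM⟩ := exists_matrix p ζ hζ.pow_eq_one Φ hΦ 1 (by rw [hu, Units.val_one]) m b
    (fun k => by rw [Units.val_one, one_mul]) hbsum
  set M' := M ^ (r - 1) with hM'
  have hMM' : M * M' = 1 := by rw [hM', ← pow_succ', Nat.sub_add_cancel hr.one_lt.le, hM.1]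
  have hM'M : M' * M = 1 := mul_eq_one_comm.1 hMM'
  have hB := (hM.inv hζ.pow_eq_one hMM').transpose
  have hG := hasMult_fromBlocks₂ hM hB
  rw [← hdec] at hG
  have ht1 : M'ᵀ * Mᵀ = 1 := by rw [← Matrix.transpose_mul, hMM', Matrix.transpose_one]
  have ht2 : Mᵀ * M'ᵀ = 1 := by rw [← Matrix.transpose_mul, hM'M, Matrix.transpose_one]
  let G : Matrix.GeneralLinearGroup (Fin m ⊕ Fin m) K :=
    ⟨fromBlocks M 0 0 M'ᵀ, fromBlocks M' 0 0 Mᵀ,
      by rw [fromBlocks_multiply]; simp [hMM', ht1],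
      by rw [fromBlocks_multiply]; simp [hM'M, ht2]⟩
  refine ⟨⟨G, ?_⟩, hG⟩
  rw [Cfsg.Agent.Lib.Helper49Orth.mem_iso]
  intro v
  change QP K m (fromBlocks M 0 0 M'ᵀ *ᵥ v) = QP K m v
  rw [QP_apply, QP_apply, Cfsg.quadFormPlus, Cfsg.quadFormPlus, Matrix.fromBlocks_mulVec]
  simp only [Sum.elim_inl, Sum.elim_inr, Matrix.zero_mulVec, add_zero, zero_add]
  change (M *ᵥ (v ∘ Sum.inl)) ⬝ᵥ (M'ᵀ *ᵥ (v ∘ Sum.inr)) = (v ∘ Sum.inl) ⬝ᵥ (v ∘ Sum.inr)
  rw [dotProduct_comm, Matrix.dotProduct_mulVec, ← Matrix.mulVec_transpose, Matrix.mulVec_mulVec,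
    ht2, Matrix.one_mulVec, dotProduct_comm]

end types

end Cfsg.Agent.Lib.Helper48OrthType
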