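import Mathlib
import Cfsg.Agent.S2568
import Cfsg.Agent.Lib.Helper48OrthType
import Cfsg.Agent.Lib.Helper48OrthCount
import Cfsg.Agent.Lib.Helper48EigCount2

set_option autoImplicit false
set_option linter.unusedSectionVars false
set_option linter.unusedVariables false

namespace Cfsg.Agent.Lib.Helper48OrthFinal

open Matrix QuadraticMap Cfsg.Agent.Lib.Helper48Eig Cfsg.Agent.Lib.Helper48EigMat
  Cfsg.Agent.Lib.Helper48EigMat2 Cfsg.Agent.Lib.Helper48QuadEx Cfsg.Agent.Lib.Helper48QuadType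
  Cfsg.Agent.Lib.Helper48OrthReal Cfsg.Agent.Lib.Helper48OrthType Cfsg.Agent.Lib.Helper48OrthCount
  Cfsg.Agent.Lib.Helper48EigCount Cfsg.Agent.Lib.Helper48EigCount2
  Cfsg.Agent.Lib.Helper7OPlus Cfsg.Agent.Lib.Helper7OMinus Cfsg.Agent.Lib.Helper7Norm2

section
variable {K : Type*} [Field K] [Fintype K] {L : Type*} [Field L] [Algebra K L] {r : ℕ}
  [Fact r.Prime]

theorem neg_one_ne_one (hodd : Odd r) : (-1 : ZMod r) ≠ 1 := by
  intro h
  have h2 : ((2 : ℕ) : ZMod r) = 0 := by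
    push_cast
    linear_combination -h
  rw [ZMod.natCast_eq_zero_iff] at h2
  have h5 := Nat.le_of_dvd (by norm_num) h2
  obtain ⟨j, hj⟩ := hodd
  have := (Fact.out : r.Prime).two_le
  omega

theorem tp {ζ : L} (hζ : IsPrimitiveRoot ζ r) {m : ℕ} (hm : 1 ≤ m) {a : ZMod r → ℕ}
    (h : ∃ g : ↥(Cfsg.isometryGroup K ⇑(QP K m)), HasMult ζ g.1.1 a) (h0 : a 0 = 0) :
    ((Fintype.card K : ℕ) : ZMod r) ^ m = 1 := by
  obtain ⟨g, hg⟩ := h
  rcases type_plus hζ hm g hg h0 with h1 | h1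
  · exact h1
  · rw [h1, one_pow]

theorem tm (p : ℕ) [Fact p.Prime] [CharP K p] (hr : r.Coprime p) (hodd : Odd r) {ζ : L}
    (hζ : IsPrimitiveRoot ζ r) (Φ : L →+* L) (hΦ : ∀ x, Φ x = x ^ Fintype.card K) {m : ℕ}
    (hm : 1 ≤ m) (α γ : K) (hαγ : Aniso α γ) {a : ZMod r → ℕ}
    (h : ∃ g : ↥(Cfsg.isometryGroup K ⇑(QM K (m - 1) α γ)), HasMult ζ g.1.1 a) (h0 : a 0 = 0) :
    ((Fintype.card K : ℕ) : ZMod r) ^ m ≠ 1 := by
  obtain ⟨g, hg⟩ := h
  rcases type_minus hζ hm α γ hαγ g hg h0 with h1 | h1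
  · rw [h1]
    exact neg_one_ne_one hodd
  · exfalso
    have hQM := nondeg_QM (m - 1) α γ hαγ
    have hsum : ∑ k, a k = 2 * m := by
      rw [hg.sum]
      simp
      omega
    obtain ⟨g', hg'⟩ := exists_plus_split p hodd hζ Φ hΦ h1 m a h0
      (hasMult_neg _ hQM hζ g hg) hsum
    exact not_isom m hm α γ hαγ
      (isom_of_same p hr hodd hζ _ _ (nondeg_QP m) hQM g' g hg' hg h0)

theorem real_plus_iff (p : ℕ) [Fact p.Prime] [CharP K p] (hr : r.Coprime p) (hodd : Odd r)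
    {ζ : L} (hζ : IsPrimitiveRoot ζ r) (Φ : L →+* L) (hΦ : ∀ x, Φ x = x ^ Fintype.card K)
    (u : (ZMod r)ˣ) (hu : ((Fintype.card K : ℕ) : ZMod r) = u) (m : ℕ) (hm : 1 ≤ m) (α γ : K)
    (hαγ : Aniso α γ) (a : ZMod r → ℕ) :
    (∃ g : ↥(Cfsg.isometryGroup K ⇑(QP K m)), HasMult ζ g.1.1 a) ↔
      (((∀ k, a (u.1 * k) = a k) ∧ ∀ k, a (-k) = a k) ∧ ∑ k, a k = 2 * m) ∧
        (a 0 ≠ 0 ∨ ((Fintype.card K : ℕ) : ZMod r) ^ m = 1) := by
  constructor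
  · intro h
    refine ⟨?_, ?_⟩
    · obtain ⟨g, hg⟩ := h
      refine ⟨⟨hg.invariant hζ Φ hΦ u hu, hasMult_neg _ (nondeg_QP m) hζ g hg⟩, ?_⟩
      rw [hg.sum]
      simp [two_mul]
    · by_cases h0 : a 0 = 0
      · exact Or.inr (tp hζ hm h h0)
      · exact Or.inl h0
  · rintro ⟨⟨⟨h1, h2⟩, h3⟩, h4⟩
    obtain ⟨e1, e2⟩ := real_either_both p hr hodd hζ Φ hΦ u hu m hm α γ hαγ a h1 h2 h3
    by_cases h0 : a 0 = 0
    · rcases e1 with e | e
      · exact e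
      · exact absurd (h4.resolve_left (not_not.2 h0)) (tm p hr hodd hζ Φ hΦ hm α γ hαγ e h0)
    · exact (e2 h0).1

theorem real_minus_iff (p : ℕ) [Fact p.Prime] [CharP K p] (hr : r.Coprime p) (hodd : Odd r)
    {ζ : L} (hζ : IsPrimitiveRoot ζ r) (Φ : L →+* L) (hΦ : ∀ x, Φ x = x ^ Fintype.card K)
    (u : (ZMod r)ˣ) (hu : ((Fintype.card K : ℕ) : ZMod r) = u) (m : ℕ) (hm : 1 ≤ m) (α γ : K)
    (hαγ : Aniso α γ) (a : ZMod r → ℕ) :
    (∃ g : ↥(Cfsg.isometryGroup K ⇑(QM K (m - 1) α γ)), HasMult ζ g.1.1 a) ↔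
      (((∀ k, a (u.1 * k) = a k) ∧ ∀ k, a (-k) = a k) ∧ ∑ k, a k = 2 * m) ∧
        (a 0 ≠ 0 ∨ ¬ ((Fintype.card K : ℕ) : ZMod r) ^ m = 1) := by
  constructor
  · intro h
    refine ⟨?_, ?_⟩
    · obtain ⟨g, hg⟩ := h
      refine ⟨⟨hg.invariant hζ Φ hΦ u hu,
        hasMult_neg _ (nondeg_QM (m - 1) α γ hαγ) hζ g hg⟩, ?_⟩
      rw [hg.sum]
      simp
      omega
    · by_cases h0 : a 0 = 0
      · exact Or.inr (tm p hr hodd hζ Φ hΦ hm α γ hαγ h h0)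
      · exact Or.inl h0
  · rintro ⟨⟨⟨h1, h2⟩, h3⟩, h4⟩
    obtain ⟨e1, e2⟩ := real_either_both p hr hodd hζ Φ hΦ u hu m hm α γ hαγ a h1 h2 h3
    by_cases h0 : a 0 = 0
    · rcases e1 with e | e
      · exact absurd (tp hζ hm e h0) (h4.resolve_left (not_not.2 h0))
      · exact e
    · exact (e2 h0).2

theorem exists_aniso : ∃ α γ : K, Aniso α γ := by
  have h1 : ¬ Function.Injective (fun t : K => t ^ 2 + t) := by
    intro h
    have h2 : (0 : K) = -1 := h (by ring)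
    have h3 : (1 : K) = 0 := by linear_combination h2
    exact one_ne_zero h3
  rw [Finite.injective_iff_surjective] at h1
  unfold Function.Surjective at h1
  push Not at h1
  obtain ⟨z, hz⟩ := h1
  refine ⟨1, -z, aniso_of_rootless (-z) fun t ht => hz t ?_⟩
  linear_combination ht

end

section final
variable {F : Type*} [Field F] [Fintype F] {p q : ℕ} [Fact p.Prime] [CharP F p]

theorem card_plus (hF : Fintype.card F = q) (m r c v : ℕ) (hm : 1 ≤ m) (hr : r.Prime)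
    (hr2 : r ≠ 2) (hrp : r ≠ p) (hcop : q.Coprime r) (w : (ZMod r)ˣ)
    (hw : ∀ a : ZMod r → ℕ, (∀ k, a (w.1 * k) = a k) ↔
      (∀ k, a ((ZMod.unitOfCoprime q hcop).1 * k) = a k) ∧ ∀ k, a (-k) = a k)
    (hc : orderOf w = c) (hv : v * c = r - 1) :
    Nat.card {C : ConjClasses ↥(Cfsg.isometryGroup F (Cfsg.quadFormPlus m F)) //
      ∃ g : ↥(Cfsg.isometryGroup F (Cfsg.quadFormPlus m F)), ConjClasses.mk g = C ∧ orderOf g = r}
      = Nat.choose (2 * m / c + v) v - 1 - (if orderOf (q : ZMod r) ∣ m then 0 else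
          if c ∣ 2 * m then Nat.choose (2 * m / c + v - 1) (v - 1) else 0) := by
  have hp : p.Prime := Fact.out
  have _ : Fact r.Prime := ⟨hr⟩
  obtain ⟨⟨ζ, hζ⟩, hfrob⟩ := Cfsg.Agent.S2568.exists_setup F p r hr hrp
  obtain ⟨e, _, he⟩ := FiniteField.card F p
  obtain ⟨Φ, hΦ⟩ := hfrob e
  rw [← he] at hΦ
  have hrp' : r.Coprime p := (Nat.coprime_primes hr hp).2 hrp
  have hodd : Odd r := hr.odd_of_ne_two hr2
  set u : (ZMod r)ˣ := ZMod.unitOfCoprime q hcop with hu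
  have huq : ((Fintype.card F : ℕ) : ZMod r) = u := by rw [hF]; rfl
  obtain ⟨α, γ, hαγ⟩ := exists_aniso (K := F)
  have hcoe : Cfsg.quadFormPlus m F = ⇑(QP F m) := by
    funext x
    rw [QP_apply]
  have hcard : Fintype.card (Fin m ⊕ Fin m) = 2 * m := by simp [two_mul]
  rw [hcoe, card_classes_orth (QP F m) (nondeg_QP m) hr2 hrp hζ, hcard,
    ← card_real w c v (2 * m) (by omega) hc hv]
  apply Nat.card_congr
  apply Equiv.subtypeEquivRight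
  intro a
  rw [real_plus_iff p hrp' hodd hζ Φ hΦ u huq m hm α γ hαγ a, hw a, hF,
    orderOf_dvd_iff_pow_eq_one]

theorem card_minus (hF : Fintype.card F = q) (m r c v : ℕ) (hm : 1 ≤ m) (α γ : F)
    (hαγ : ∀ z₁ z₂ : F, z₁ ^ 2 + α * z₁ * z₂ + γ * z₂ ^ 2 = 0 → z₁ = 0 ∧ z₂ = 0) (hr : r.Prime)
    (hr2 : r ≠ 2) (hrp : r ≠ p) (hcop : q.Coprime r) (w : (ZMod r)ˣ)
    (hw : ∀ a : ZMod r → ℕ, (∀ k, a (w.1 * k) = a k) ↔
      (∀ k, a ((ZMod.unitOfCoprime q hcop).1 * k) = a k) ∧ ∀ k, a (-k) = a k)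
    (hc : orderOf w = c) (hv : v * c = r - 1) :
    Nat.card {C : ConjClasses ↥(Cfsg.isometryGroup F (Cfsg.quadFormMinus (m - 1) F α γ)) //
      ∃ g : ↥(Cfsg.isometryGroup F (Cfsg.quadFormMinus (m - 1) F α γ)),
        ConjClasses.mk g = C ∧ orderOf g = r}
      = Nat.choose (2 * m / c + v) v - 1 - (if ¬ orderOf (q : ZMod r) ∣ m then 0 else
          if c ∣ 2 * m then Nat.choose (2 * m / c + v - 1) (v - 1) else 0) := by
  have hp : p.Prime := Fact.out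
  have _ : Fact r.Prime := ⟨hr⟩
  obtain ⟨⟨ζ, hζ⟩, hfrob⟩ := Cfsg.Agent.S2568.exists_setup F p r hr hrp
  obtain ⟨e, _, he⟩ := FiniteField.card F p
  obtain ⟨Φ, hΦ⟩ := hfrob e
  rw [← he] at hΦ
  have hrp' : r.Coprime p := (Nat.coprime_primes hr hp).2 hrp
  have hodd : Odd r := hr.odd_of_ne_two hr2
  set u : (ZMod r)ˣ := ZMod.unitOfCoprime q hcop with hu
  have huq : ((Fintype.card F : ℕ) : ZMod r) = u := by rw [hF]; rfl
  have hcoe : Cfsg.quadFormMinus (m - 1) F α γ = ⇑(QM F (m - 1) α γ) := by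
    funext x
    rw [QM_apply]
  have hcard : Fintype.card ((Fin (m - 1) ⊕ Fin (m - 1)) ⊕ Fin 2) = 2 * m := by
    simp
    omega
  rw [hcoe, card_classes_orth (QM F (m - 1) α γ) (nondeg_QM (m - 1) α γ hαγ) hr2 hrp hζ, hcard,
    ← card_real w c v (2 * m) (by omega) hc hv]
  apply Nat.card_congr
  apply Equiv.subtypeEquivRight
  intro a
  rw [real_minus_iff p hrp' hodd hζ Φ hΦ u huq m hm α γ hαγ a, hw a, hF,
    orderOf_dvd_iff_pow_eq_one]

end final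

end Cfsg.Agent.Lib.Helper48OrthFinal
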