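import Mathlib
import Cfsg.Agent.Lib.Helper48EigCount

set_option autoImplicit false
set_option linter.unusedSectionVars false

namespace Cfsg.Agent.Lib.Helper48Rot

open Cfsg.Agent.Lib.Helper48EigCount

variable (r n : ℕ) [Fact r.Prime]

/-- multiplicity functions with sum `n` -/
def AA : Type := {a : ZMod r → ℕ // ∑ k, a k = n}

theorem sum_shift (a : ZMod r → ℕ) (j : ZMod r) : ∑ k, a (k - j) = ∑ k, a k :=
  Fintype.sum_equiv (Equiv.subRight j) _ _ (fun _ => rfl)

instance : MulAction (Multiplicative (ZMod r)) (AA r n) where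
  smul j a := ⟨fun k => a.1 (k - Multiplicative.toAdd j), by rw [sum_shift]; exact a.2⟩
  one_smul a := by
    apply Subtype.ext
    funext k
    change a.1 (k - 0) = a.1 k
    rw [sub_zero]
  mul_smul j j' a := by
    apply Subtype.ext
    funext k
    change a.1 (k - (Multiplicative.toAdd j + Multiplicative.toAdd j'))
      = a.1 (k - Multiplicative.toAdd j - Multiplicative.toAdd j')
    rw [sub_add_eq_sub_sub]

theorem smul_val (j : Multiplicative (ZMod r)) (a : AA r n) (k : ZMod r) :
    (j • a).1 k = a.1 (k - Multiplicative.toAdd j) := rfl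

theorem card_AA : Nat.card (AA r n) = (n + r - 1).choose (r - 1) := by
  have hr : r.Prime := Fact.out
  have h := card_invariant (r := r) 1 1 (r - 1) n orderOf_one (mul_one _)
  rw [Nat.div_one] at h
  have e : n + (r - 1) = n + r - 1 := by have := hr.one_le; omega
  rw [← e, ← h]
  apply Nat.card_congr
  exact Equiv.subtypeEquivRight (fun a => by simp)

instance : Finite (AA r n) := by
  apply Nat.finite_of_card_ne_zero
  rw [card_AA]
  have hr : r.Prime := Fact.out
  have := hr.one_le
  exact (Nat.choose_pos (by omega)).ne'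

/-- a function invariant under a nontrivial rotation is constant -/
theorem const_of_fixed (a : ZMod r → ℕ) (j : ZMod r) (hj : j ≠ 0) (h : ∀ k, a (k - j) = a k)
    (k : ZMod r) : a k = a 0 := by
  have h1 : ∀ m : ℕ, a (-(m * j)) = a 0 := by
    intro m
    induction m with
    | zero => simp
    | succ m ih =>
      rw [← ih, ← h (-(m * j))]
      congr 1
      push_cast
      ring
  have h2 : k = -(((-k * j⁻¹).val : ℕ) * j) := by
    rw [ZMod.natCast_val, ZMod.cast_id', id, mul_assoc, inv_mul_cancel₀ hj]
    ring
  rw [h2, h1]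

theorem card_fixedBy (j : Multiplicative (ZMod r)) (hj : j ≠ 1) :
    Nat.card (MulAction.fixedBy (AA r n) j) = if r ∣ n then 1 else 0 := by
  have hj' : Multiplicative.toAdd j ≠ 0 := fun h => hj (by
    apply Multiplicative.toAdd.injective
    rw [h]; rfl)
  have hconst : ∀ a : AA r n, a ∈ MulAction.fixedBy (AA r n) j → ∀ k, a.1 k = a.1 0 := by
    intro a ha k
    apply const_of_fixed r a.1 _ hj'
    intro k
    rw [← smul_val, MulAction.mem_fixedBy.1 ha]
  have hsum : ∀ a : AA r n, a ∈ MulAction.fixedBy (AA r n) j → r * a.1 0 = n := by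
    intro a ha
    have h1 := a.2
    simp only [hconst a ha] at h1
    rw [Finset.sum_const, Finset.card_univ, ZMod.card, smul_eq_mul] at h1
    exact h1
  split_ifs with hrn
  · obtain ⟨c, hc⟩ := hrn
    rw [Nat.card_eq_one_iff_unique]
    refine ⟨⟨?_⟩, ⟨⟨⟨fun _ => c, by
      rw [Finset.sum_const, Finset.card_univ, ZMod.card, smul_eq_mul, hc]⟩, ?_⟩⟩⟩
    · intro a b
      apply Subtype.ext
      apply Subtype.ext
      funext k
      rw [hconst a.1 a.2, hconst b.1 b.2]
      have h1 := hsum a.1 a.2
      have h2 := hsum b.1 b.2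
      have hr : r.Prime := Fact.out
      exact Nat.eq_of_mul_eq_mul_left hr.pos (h1.trans h2.symm)
    · apply MulAction.mem_fixedBy.2
      apply Subtype.ext
      funext k
      rfl
  · rw [Nat.card_eq_zero]
    left
    refine ⟨fun a => hrn ⟨_, (hsum a.1 a.2).symm⟩⟩

/-- Burnside count of rotation orbits -/
theorem card_orbits :
    Nat.card (MulAction.orbitRel.Quotient (Multiplicative (ZMod r)) (AA r n)) * r
      = (n + r - 1).choose (r - 1) + (r - 1) * (if r ∣ n then 1 else 0) := by
  classical
  have _ : Fintype (AA r n) := Fintype.ofFinite _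
  have _ : Fintype (MulAction.orbitRel.Quotient (Multiplicative (ZMod r)) (AA r n)) :=
    Fintype.ofFinite _
  have h := MulAction.sum_card_fixedBy_eq_card_orbits_mul_card_group (Multiplicative (ZMod r))
    (AA r n)
  rw [Nat.card_eq_fintype_card]
  have hc : Fintype.card (Multiplicative (ZMod r)) = r := by
    rw [Fintype.card_multiplicative, ZMod.card]
  rw [hc] at h
  rw [← h, ← Finset.add_sum_erase _ _ (Finset.mem_univ (1 : Multiplicative (ZMod r)))]
  congr 1
  · rw [← card_AA, ← Nat.card_eq_fintype_card]
    apply Nat.card_congr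
    exact (Equiv.subtypeUnivEquiv (fun a => by rw [MulAction.mem_fixedBy, one_smul]))
  · rw [Finset.sum_congr rfl (fun j hj => by
      rw [← Nat.card_eq_fintype_card, card_fixedBy r n j (Finset.ne_of_mem_erase hj)]),
      Finset.sum_const, Finset.card_erase_of_mem (Finset.mem_univ _), Finset.card_univ, hc,
      smul_eq_mul]

end Cfsg.Agent.Lib.Helper48Rot
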