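import Mathlib
import Cfsg.Agent.Lib.Helper48Scal
import Cfsg.Agent.Lib.Helper48Rot
import Cfsg.Agent.Lib.Helper48JordanClass

set_option autoImplicit false
set_option linter.unusedSectionVars false

namespace Cfsg.Agent.Lib.Helper48Proj

open Polynomial Cfsg.Agent.Lib.Helper48Eig Cfsg.Agent.Lib.Helper48EigMat
  Cfsg.Agent.Lib.Helper48Scal Cfsg.Agent.Lib.Helper48Rot

section cyc
variable {C : Type*} [CommGroup C] [Finite C] (γ : C) (hγ : ∀ x, x ∈ Subgroup.zpowers γ)
  (r : ℕ) [NeZero r]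

include hγ in
theorem exists_rep (c : C) : ∃ (j : ZMod r) (d : C), c = γ ^ j.val * d ^ r := by
  obtain ⟨m, hm⟩ := mem_powers_iff_mem_zpowers.2 (hγ c)
  refine ⟨(m : ZMod r), γ ^ (m / r), ?_⟩
  rw [ZMod.val_natCast, ← pow_mul, ← pow_add, mul_comm (m / r), Nat.mod_add_div]
  exact hm.symm

include hγ in
theorem rep_unique (hr : r ∣ Nat.card C) (j j' : ZMod r) (d : C)
    (h : γ ^ j.val = γ ^ j'.val * d ^ r) : j = j' := by
  obtain ⟨t, ht⟩ := mem_powers_iff_mem_zpowers.2 (hγ d)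
  change γ ^ t = d at ht
  rw [← ht, ← pow_mul, ← pow_add, pow_eq_pow_iff_modEq,
    orderOf_eq_card_of_forall_mem_zpowers hγ] at h
  have h2 := h.of_dvd hr
  have h3 : j.val ≡ j'.val [MOD r] := by
    refine h2.trans ?_
    change (j'.val + t * r) % r = j'.val % r
    rw [Nat.add_mul_mod_self_right]
  apply ZMod.val_injective r
  rw [Nat.ModEq, Nat.mod_eq_of_lt (ZMod.val_lt j), Nat.mod_eq_of_lt (ZMod.val_lt j')] at h3
  exact h3

end cyc

theorem isConj_mk_iff {G : Type*} [Group G] (N : Subgroup G) [N.Normal] (g g' : G) :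
    IsConj (g : G ⧸ N) (g' : G ⧸ N) ↔ ∃ h : G, ∃ z ∈ N, h * g * h⁻¹ = g' * z := by
  rw [isConj_iff]
  constructor
  · rintro ⟨c, hc⟩
    obtain ⟨h, rfl⟩ := QuotientGroup.mk_surjective c
    rw [← QuotientGroup.mk_inv, ← QuotientGroup.mk_mul, ← QuotientGroup.mk_mul, eq_comm,
      QuotientGroup.eq] at hc
    exact ⟨h, _, hc, by group⟩
  · rintro ⟨h, z, hz, he⟩
    refine ⟨(h : G ⧸ N), ?_⟩
    rw [← QuotientGroup.mk_inv, ← QuotientGroup.mk_mul, ← QuotientGroup.mk_mul, he,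
      QuotientGroup.mk_mul, (QuotientGroup.eq_one_iff z).2 hz, mul_one]

theorem smul_one_inj {K : Type*} [Field K] {n : ℕ} (hn : 1 ≤ n) (a b : K)
    (h : a • (1 : Matrix (Fin n) (Fin n) K) = b • 1) : a = b := by
  have := congrFun (congrFun h ⟨0, hn⟩) ⟨0, hn⟩
  simpa using this

/-- rotation orbits of multiplicity functions -/
abbrev Orb (r n : ℕ) [Fact r.Prime] : Type :=
  MulAction.orbitRel.Quotient (Multiplicative (ZMod r)) (AA r n)

/-- the multiplicity function of the identity -/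
def single0 (r n : ℕ) [Fact r.Prime] : AA r n := ⟨Pi.single 0 n, by simp⟩

theorem mk_eq_iff (r n : ℕ) [Fact r.Prime] (a b : AA r n) :
    (Quotient.mk'' a : Orb r n) = Quotient.mk'' b ↔ ∃ j : ZMod r, ∀ k, a.1 k = b.1 (k - j) := by
  rw [Quotient.eq'', MulAction.orbitRel_apply, MulAction.mem_orbit_iff]
  constructor
  · rintro ⟨j, rfl⟩
    exact ⟨Multiplicative.toAdd j, fun k => rfl⟩
  · rintro ⟨j, hj⟩
    refine ⟨Multiplicative.ofAdd j, ?_⟩
    apply Subtype.ext
    funext k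
    exact (hj k).symm

/-- the invariants which occur -/
def QQ {r n : ℕ} [Fact r.Prime] : Orb r n ⊕ ZMod r → Prop
  | Sum.inl o => o ≠ Quotient.mk'' (single0 r n)
  | Sum.inr j => j ≠ 0 ∧ r ∣ n

theorem card_QQ (r n : ℕ) [Fact r.Prime] (hn : 1 ≤ n) :
    Nat.card {y : Orb r n ⊕ ZMod r // QQ y}
      = ((n + r - 1).choose (r - 1) - r - (if r ∣ n then 1 else 0)) / r
        + r * (if r ∣ n then 1 else 0) := by
  classical
  have hr : r.Prime := Fact.out
  have hA : Nat.card {o : Orb r n // QQ (Sum.inl o)} = Nat.card (Orb r n) - 1 := by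
    have _ : Fintype (Orb r n) := Fintype.ofFinite _
    change Nat.card {o : Orb r n // ¬ (o = Quotient.mk'' (single0 r n))} = _
    rw [Nat.card_eq_fintype_card, Fintype.card_subtype_compl, Fintype.card_subtype_eq,
      Nat.card_eq_fintype_card]
  have hB : Nat.card {j : ZMod r // QQ (n := n) (Sum.inr j)} = if r ∣ n then r - 1 else 0 := by
    change Nat.card {j : ZMod r // j ≠ 0 ∧ r ∣ n} = _
    split_ifs with h
    · have e : {j : ZMod r // j ≠ 0 ∧ r ∣ n} ≃ {j : ZMod r // ¬ (j = 0)} :=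
        Equiv.subtypeEquivRight fun j => by simp [h]
      rw [Nat.card_congr e, Nat.card_eq_fintype_card, Fintype.card_subtype_compl,
        Fintype.card_subtype_eq, ZMod.card]
    · rw [Nat.card_eq_zero]
      left
      exact ⟨fun j => h j.2.2⟩
  have hO := card_orbits r n
  have hO1 : 1 ≤ Nat.card (Orb r n) := by
    have : Nonempty (Orb r n) := ⟨Quotient.mk'' (single0 r n)⟩
    exact Nat.card_pos
  rw [Nat.card_congr (Equiv.subtypeSum), Nat.card_sum, hA, hB]
  split_ifs at hO ⊢ with h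
  · have hO2 : 1 ≤ Nat.card (Orb r n) - 1 := by
      rw [← hA]
      obtain ⟨c, hc⟩ := h
      have : Nonempty {o : Orb r n // QQ (Sum.inl o)} := by
        let a₁ : AA r n := ⟨fun _ => c, by
          rw [Finset.sum_const, Finset.card_univ, ZMod.card, smul_eq_mul, hc]⟩
        refine ⟨⟨Quotient.mk'' a₁, ?_⟩⟩
        intro hcon
        obtain ⟨j, hj⟩ := (mk_eq_iff r n a₁ (single0 r n)).1 hcon
        have h1 := hj j
        have h2 := hj (j + 1)
        change c = (Pi.single (0 : ZMod r) n : ZMod r → ℕ) (j - j) at h1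
        change c = (Pi.single (0 : ZMod r) n : ZMod r → ℕ) (j + 1 - j) at h2
        rw [sub_self, Pi.single_eq_same] at h1
        rw [add_sub_cancel_left, Pi.single_eq_of_ne one_ne_zero] at h2
        omega
      exact Nat.card_pos
    obtain ⟨O', hO'⟩ : ∃ O', Nat.card (Orb r n) = O' + 2 := ⟨Nat.card (Orb r n) - 2, by omega⟩
    rw [hO'] at hO ⊢
    have h3 : (n + r - 1).choose (r - 1) - r - 1 = O' * r := by
      have := hr.one_le
      have h4 : (O' + 2) * r = O' * r + r + r := by ring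
      omega
    rw [h3, Nat.mul_div_cancel _ hr.pos]
    have := hr.one_le
    omega
  · obtain ⟨O', hO'⟩ : ∃ O', Nat.card (Orb r n) = O' + 1 := ⟨Nat.card (Orb r n) - 1, by omega⟩
    rw [hO'] at hO ⊢
    have h3 : (n + r - 1).choose (r - 1) - r - 0 = O' * r := by
      have h4 : (O' + 1) * r = O' * r + r := by ring
      omega
    rw [h3, Nat.mul_div_cancel _ hr.pos]
    omega

section main
variable {K : Type*} [Field K] [Fintype K] (p : ℕ) [Fact p.Prime] [CharP K p]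
  {L : Type*} [Field L] [Algebra K L] [IsAlgClosed L]
  {r : ℕ} [Fact r.Prime] {n : ℕ}
  {G : Type*} [Group G] (ρ : G →* GL (Fin n) K) (hρ : Function.Injective ρ)
  (C : Subgroup Kˣ) (s : C → G)
  (hs : ∀ u : C, (ρ (s u)).1 = ((u : Kˣ) : K) • (1 : Matrix (Fin n) (Fin n) K))
  (hcen : ∀ g, g ∈ Subgroup.center G ↔ ∃ u, g = s u)
  (γ : C) (hγ : ∀ x, x ∈ Subgroup.zpowers γ) (hrC : r ∣ Nat.card C)
  (hconj : ∀ g g' : G, (∃ P : (Matrix (Fin n) (Fin n) K)ˣ,
    (P : Matrix (Fin n) (Fin n) K) * (ρ g).1 = (ρ g').1 * P) → IsConj g g')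
  (ζ : L) (hζ : IsPrimitiveRoot ζ r)
  (zc : ZMod r → C) (hzc : ∀ k, algebraMap K L ((zc k : Kˣ) : K) = zp ζ k)
  (hex1 : ∀ a : ZMod r → ℕ, ∑ k, a k = n → ∃ g, HasMult ζ (ρ g).1 a)
  (hnp : ∀ j : ZMod r, j ≠ 0 → ∀ b : K, b ^ r ≠ (((γ ^ j.val : C) : Kˣ) : K))
  (hex2 : r ∣ n → ∀ j : ZMod r, j ≠ 0 →
    ∃ g, (ρ g).1 ^ r = (((γ ^ j.val : C) : Kˣ) : K) • (1 : Matrix (Fin n) (Fin n) K))
  (hn : 1 ≤ n) (hrp : r ≠ p)

/-- the invariant of a projective class -/
def TT (x : G ⧸ Subgroup.center G) : Orb r n ⊕ ZMod r → Prop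
  | Sum.inl o => ∃ (g : G) (a : AA r n), (g : G ⧸ Subgroup.center G) = x ∧
      HasMult ζ (ρ g).1 a.1 ∧ (Quotient.mk'' a : Orb r n) = o
  | Sum.inr j => j ≠ 0 ∧ ∃ g : G, (g : G ⧸ Subgroup.center G) = x ∧
      (ρ g).1 ^ r = (((γ ^ j.val : C) : Kˣ) : K) • (1 : Matrix (Fin n) (Fin n) K)

include hcen in
theorem mk_mul_s (g : G) (u : C) : ((g * s u : G) : G ⧸ Subgroup.center G) = g := by
  rw [QuotientGroup.mk_mul, (QuotientGroup.eq_one_iff (s u)).2 ((hcen _).2 ⟨u, rfl⟩), mul_one]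

include hs in
theorem rho_mul_s (g : G) (u : C) : (ρ (g * s u)).1 = ((u : Kˣ) : K) • (ρ g).1 := by
  rw [map_mul, Units.val_mul, hs, Matrix.mul_smul, mul_one]

include hs in
theorem rho_mul_s_pow (g : G) (u : C) (m : ℕ) :
    (ρ (g * s u)).1 ^ m = (((u ^ m : C) : Kˣ) : K) • (ρ g).1 ^ m := by
  rw [rho_mul_s ρ C s hs, _root_.smul_pow, Subgroup.coe_pow, Units.val_pow_eq_pow_val]

include hs hzc hζ in
theorem hasMult_shift (g : G) (a : ZMod r → ℕ) (h : HasMult ζ (ρ g).1 a) (j : ZMod r) :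
    HasMult ζ (ρ (g * s (zc j))).1 (fun k => a (k - j)) := by
  rw [rho_mul_s ρ C s hs]
  exact HasMult.smul hζ.pow_eq_one h j _ (hzc j)

include hs hcen hγ hζ in
theorem TT_exists (x : G ⧸ Subgroup.center G) (hx : orderOf x = r) :
    ∃ y : Orb r n ⊕ ZMod r, TT ρ C γ ζ x y := by
  obtain ⟨g, rfl⟩ := QuotientGroup.mk_surjective x
  have h1 : ((g ^ r : G) : G ⧸ Subgroup.center G) = 1 := by
    rw [QuotientGroup.mk_pow, ← hx, pow_orderOf_eq_one]
  rw [QuotientGroup.eq_one_iff, hcen] at h1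
  obtain ⟨u, hu⟩ := h1
  obtain ⟨j, d, hd⟩ := exists_rep γ hγ r u
  have h2 : (ρ (g * s d⁻¹)).1 ^ r
      = (((γ ^ j.val : C) : Kˣ) : K) • (1 : Matrix (Fin n) (Fin n) K) := by
    rw [rho_mul_s_pow ρ C s hs, ← Units.val_pow_eq_pow_val, ← map_pow, hu, hs, smul_smul,
      ← Units.val_mul, ← Subgroup.coe_mul, hd]
    congr 3
    rw [inv_pow, mul_comm, mul_assoc, mul_inv_cancel, mul_one]
  by_cases hj : j = 0
  · subst hj
    rw [ZMod.val_zero, pow_zero, Subgroup.coe_one, Units.val_one, one_smul] at h2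
    obtain ⟨a, ha⟩ := exists_hasMult hζ _ h2
    exact ⟨Sum.inl (Quotient.mk'' ⟨a, by rw [ha.sum, Fintype.card_fin]⟩), g * s d⁻¹, _,
      mk_mul_s C s hcen _ _, ha, rfl⟩
  · exact ⟨Sum.inr j, hj, g * s d⁻¹, mk_mul_s C s hcen _ _, h2⟩

include hs hcen hζ hzc hconj hnp hrp in
theorem TT_conj (x x' : G ⧸ Subgroup.center G) (y : Orb r n ⊕ ZMod r) (h : TT ρ C γ ζ x y)
    (h' : TT ρ C γ ζ x' y) : IsConj x x' := by
  have hr : r.Prime := Fact.out
  have hp : p.Prime := Fact.out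
  have hrp' : r.Coprime p := (Nat.coprime_primes hr hp).2 hrp
  cases y with
  | inl o =>
    obtain ⟨g, a, rfl, ha, ho⟩ := h
    obtain ⟨g', a', rfl, ha', ho'⟩ := h'
    rw [← ho', mk_eq_iff] at ho
    obtain ⟨j, hj⟩ := ho
    have h3 := hasMult_shift ρ C s hs ζ hζ zc hzc g' a'.1 ha' j
    have h4 : (fun k => a'.1 (k - j)) = a.1 := funext fun k => (hj k).symm
    rw [h4] at h3
    have h5 := hconj g (g' * s (zc j)) (ha.conj p hrp' h3)
    have h6 := (QuotientGroup.mk' (Subgroup.center G)).map_isConj h5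
    rwa [QuotientGroup.mk'_apply, QuotientGroup.mk'_apply, mk_mul_s C s hcen] at h6
  | inr j =>
    obtain ⟨hj, g, rfl, hg⟩ := h
    obtain ⟨_, g', rfl, hg'⟩ := h'
    exact (QuotientGroup.mk' (Subgroup.center G)).map_isConj
      (hconj g g' (conj_of_pow_eq p hr hrp _ (hnp j hj) _ _ hg hg'))

include hs hn in
theorem type_eq (g g' h : G) (u : C) (j j' : ZMod r)
    (hg : (ρ g).1 ^ r = (((γ ^ j.val : C) : Kˣ) : K) • (1 : Matrix (Fin n) (Fin n) K))
    (hg' : (ρ g').1 ^ r = (((γ ^ j'.val : C) : Kˣ) : K) • (1 : Matrix (Fin n) (Fin n) K))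
    (he : h * g * h⁻¹ = g' * s u) : γ ^ j.val = γ ^ j'.val * u ^ r := by
  have e0 : (ρ ((h * g * h⁻¹) ^ r)).1 = (ρ ((g' * s u) ^ r)).1 := by rw [he]
  rw [conj_pow, map_mul, map_mul, map_pow, Units.val_mul, Units.val_mul,
    Units.val_pow_eq_pow_val, hg, Matrix.mul_smul, mul_one, Matrix.smul_mul, ← Units.val_mul,
    ← map_mul, mul_inv_cancel, map_one, Units.val_one, map_pow, Units.val_pow_eq_pow_val,
    rho_mul_s_pow ρ C s hs, hg', smul_smul, ← Units.val_mul, ← Subgroup.coe_mul] at e0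
  have e1 := smul_one_inj hn _ _ e0
  rw [mul_comm]
  exact Subtype.ext (Units.ext e1)

include hζ hzc in
theorem exists_zc (u : C) (hu : u ^ r = 1) : ∃ i, u = zc i := by
  have h1 : (algebraMap K L ((u : Kˣ) : K)) ^ r = 1 := by
    rw [← map_pow, ← Units.val_pow_eq_pow_val, ← Subgroup.coe_pow, hu, Subgroup.coe_one,
      Units.val_one, map_one]
  obtain ⟨i, hi⟩ := exists_zp hζ _ h1
  refine ⟨i, Subtype.ext (Units.ext ((algebraMap K L).injective ?_))⟩
  rw [hzc, hi]

theorem pow_zero_smul (M : Matrix (Fin n) (Fin n) K) (h : M ^ r = 1) :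
    M ^ r = (((γ ^ (0 : ZMod r).val : C) : Kˣ) : K) • (1 : Matrix (Fin n) (Fin n) K) := by
  rw [ZMod.val_zero, pow_zero, Subgroup.coe_one, Units.val_one, one_smul, h]

include hs hcen hγ hrC hζ hzc hn in
theorem TT_unique (x x' : G ⧸ Subgroup.center G) (y y' : Orb r n ⊕ ZMod r)
    (h : TT ρ C γ ζ x y) (h' : TT ρ C γ ζ x' y') (hc : IsConj x x') : y = y' := by
  cases y with
  | inl o =>
    obtain ⟨g, a, rfl, ha, ho⟩ := h
    cases y' with
    | inl o' =>
      obtain ⟨g', a', rfl, ha', ho'⟩ := h'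
      obtain ⟨t, z, hz, he⟩ := (isConj_mk_iff _ g g').1 hc
      obtain ⟨u, rfl⟩ := (hcen z).1 hz
      have h1 := type_eq ρ C s hs γ hn g g' t u 0 0 (pow_zero_smul C γ _ ha.1)
        (pow_zero_smul C γ _ ha'.1) he
      rw [ZMod.val_zero, pow_zero, one_mul] at h1
      obtain ⟨i, rfl⟩ := exists_zc C ζ hζ zc hzc u h1.symm
      have h3 := hasMult_shift ρ C s hs ζ hζ zc hzc g' a'.1 ha' i
      have hP : ((ρ t : GL (Fin n) K) : Matrix (Fin n) (Fin n) K) * (ρ g).1
          = (ρ (g' * s (zc i))).1 * (ρ t : GL (Fin n) K) := by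
        rw [← he, ← Units.val_mul, ← Units.val_mul, ← map_mul, ← map_mul]
        congr 2
        group
      have h4 := ha.unique hζ h3 (ρ t) hP
      rw [← ho, ← ho']
      congr 1
      rw [mk_eq_iff]
      exact ⟨i, fun k => congrFun h4 k⟩
    | inr j' =>
      exfalso
      obtain ⟨hj', g', rfl, hg'⟩ := h'
      obtain ⟨t, z, hz, he⟩ := (isConj_mk_iff _ g g').1 hc
      obtain ⟨u, rfl⟩ := (hcen z).1 hz
      have h1 := type_eq ρ C s hs γ hn g g' t u 0 j' (pow_zero_smul C γ _ ha.1) hg' he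
      exact hj' (rep_unique γ hγ r hrC _ _ _ h1).symm
  | inr j =>
    obtain ⟨hj, g, rfl, hg⟩ := h
    cases y' with
    | inl o' =>
      exfalso
      obtain ⟨g', a', rfl, ha', ho'⟩ := h'
      obtain ⟨t, z, hz, he⟩ := (isConj_mk_iff _ g g').1 hc
      obtain ⟨u, rfl⟩ := (hcen z).1 hz
      have h1 := type_eq ρ C s hs γ hn g g' t u j 0 hg (pow_zero_smul C γ _ ha'.1) he
      exact hj (rep_unique γ hγ r hrC _ _ _ h1)
    | inr j' =>
      obtain ⟨hj', g', rfl, hg'⟩ := h'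
      obtain ⟨t, z, hz, he⟩ := (isConj_mk_iff _ g g').1 hc
      obtain ⟨u, rfl⟩ := (hcen z).1 hz
      have h1 := type_eq ρ C s hs γ hn g g' t u j j' hg hg' he
      rw [rep_unique γ hγ r hrC _ _ _ h1]

include hex1 hex2 in
theorem TT_surj (y : Orb r n ⊕ ZMod r) (hy : QQ y) : ∃ x, TT ρ C γ ζ x y := by
  cases y with
  | inl o =>
    obtain ⟨a, rfl⟩ := Quotient.exists_rep o
    obtain ⟨g, hg⟩ := hex1 a.1 a.2
    exact ⟨g, g, a, rfl, hg, rfl⟩
  | inr j =>
    obtain ⟨g, hg⟩ := hex2 hy.2 j hy.1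
    exact ⟨g, hy.1, g, rfl, hg⟩

include hρ hs hcen hζ hzc hn hnp hrp in
theorem TT_order (x : G ⧸ Subgroup.center G) (y : Orb r n ⊕ ZMod r) (h : TT ρ C γ ζ x y) :
    orderOf x = r ↔ QQ y := by
  have hr : r.Prime := Fact.out
  have hp : p.Prime := Fact.out
  have hrp' : r.Coprime p := (Nat.coprime_primes hr hp).2 hrp
  cases y with
  | inl o =>
    obtain ⟨g, a, rfl, ha, ho⟩ := h
    have hgr : g ^ r = 1 := by
      apply hρ
      apply Units.ext
      rw [map_pow, Units.val_pow_eq_pow_val, ha.1, map_one, Units.val_one]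
    have h1 : orderOf (g : G ⧸ Subgroup.center G) = r ↔ (g : G ⧸ Subgroup.center G) ≠ 1 := by
      constructor
      · intro h2 h3
        rw [h3, orderOf_one] at h2
        exact hr.one_lt.ne h2
      · intro h2
        exact orderOf_eq_prime (by rw [← QuotientGroup.mk_pow, hgr, QuotientGroup.mk_one]) h2
    rw [h1]
    change _ ↔ o ≠ _
    rw [not_iff_not, QuotientGroup.eq_one_iff, hcen, ← ho, mk_eq_iff]
    constructor
    · rintro ⟨u, rfl⟩
      have h2 : u ^ r = 1 := by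
        have h3 := ha.1
        rw [hs, _root_.smul_pow, one_pow] at h3
        have h4 := smul_one_inj hn (((u : Kˣ) : K) ^ r) 1 (by rw [h3, one_smul])
        apply Subtype.ext
        apply Units.ext
        rw [Subgroup.coe_pow, Units.val_pow_eq_pow_val, h4, Subgroup.coe_one, Units.val_one]
      obtain ⟨i, rfl⟩ := exists_zc C ζ hζ zc hzc u h2
      have h5 : HasMult ζ (ρ (1 : G)).1 (Pi.single (0 : ZMod r) (Fintype.card (Fin n))) := by
        rw [map_one, Units.val_one]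
        exact hasMult_one ζ
      have h6 := hasMult_shift ρ C s hs ζ hζ zc hzc 1 _ h5 i
      rw [one_mul] at h6
      have h7 := ha.unique hζ h6 1 (by simp)
      refine ⟨i, fun k => ?_⟩
      rw [h7, Fintype.card_fin]
      rfl
    · rintro ⟨i, hi⟩
      have h6 := hasMult_shift ρ C s hs ζ hζ zc hzc g _ ha (-i)
      have h7 : (fun k => a.1 (k - -i)) = Pi.single (0 : ZMod r) (Fintype.card (Fin n)) := by
        funext k
        rw [hi, Fintype.card_fin]
        change (Pi.single (0 : ZMod r) n : ZMod r → ℕ) (k - -i - i) = _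
        congr 1
        ring
      rw [h7] at h6
      have h8 := (h6.eq_one_iff p hrp' hζ).2 rfl
      have h9 : g * s (zc (-i)) = 1 := by
        apply hρ
        apply Units.ext
        rw [h8, map_one, Units.val_one]
      have h10 : g ∈ Subgroup.center G := by
        rw [eq_inv_of_mul_eq_one_left h9]
        exact Subgroup.inv_mem _ ((hcen _).2 ⟨_, rfl⟩)
      exact (hcen g).1 h10
  | inr j =>
    obtain ⟨hj, g, rfl, hg⟩ := h
    obtain ⟨k, hk, -⟩ := charpoly_of_pow_eq hr _ (hnp j hj) _ hg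
    rw [Fintype.card_fin] at hk
    have hgr : g ^ r = s (γ ^ j.val) := by
      apply hρ
      apply Units.ext
      rw [map_pow, Units.val_pow_eq_pow_val, hg, hs]
    constructor
    · intro _
      exact ⟨hj, ⟨k, by rw [hk, mul_comm]⟩⟩
    · intro _
      apply orderOf_eq_prime
      · rw [← QuotientGroup.mk_pow, hgr, QuotientGroup.eq_one_iff, hcen]
        exact ⟨_, rfl⟩
      · rw [Ne, QuotientGroup.eq_one_iff, hcen]
        rintro ⟨u, rfl⟩
        rw [hs, _root_.smul_pow, one_pow] at hg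
        exact hnp j hj _ (smul_one_inj hn _ _ hg)

include hρ hs hcen hγ hrC hconj hζ hzc hex1 hnp hex2 hn hrp in
/-- the number of classes of elements of prime order `r` modulo scalars -/
theorem card_proj_classes :
    Nat.card {X : ConjClasses (G ⧸ Subgroup.center G) //
        ∃ g : G ⧸ Subgroup.center G, ConjClasses.mk g = X ∧ orderOf g = r}
      = ((n + r - 1).choose (r - 1) - r - (if r ∣ n then 1 else 0)) / r
        + r * (if r ∣ n then 1 else 0) := by
  rw [← card_QQ r n hn]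
  exact Cfsg.Agent.Lib.Helper48JordanClass.card_classes (TT ρ C γ ζ) (fun g => orderOf g = r) QQ
    (TT_exists ρ C s hs hcen γ hγ ζ hζ)
    (TT_conj p ρ C s hs hcen γ hconj ζ hζ zc hzc hnp hrp)
    (TT_unique ρ C s hs hcen γ hγ hrC ζ hζ zc hzc hn)
    (TT_surj ρ C γ ζ hex1 hex2)
    (TT_order p ρ hρ C s hs hcen γ ζ hζ zc hzc hnp hn hrp)

end main

end Cfsg.Agent.Lib.Helper48Proj
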