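import Mathlib
import Cfsg.Agent.Lib.Helper48SUConj

set_option autoImplicit false

namespace Cfsg.Agent.Lib.Helper48SUCount

open Matrix Polynomial Cfsg.Agent.Lib.Helper48WallU Cfsg.Agent.Lib.Helper48SUConj
  Cfsg.Agent.Lib.Helper45Semisimple

section Fix

variable {K : Type*} [Field K] [Fintype K] {q : ℕ}

/-- fixed points of a semilinear involution -/
theorem card_fix (hK : Fintype.card K = q ^ 2) (φ : K →+* K) (hφ2 : ∀ x, φ (φ x) = x) (ω : K)
    (hω : φ ω ≠ ω) {ι : Type*} [Fintype ι] (ρ : ι → ι) (hρ : ∀ i, ρ (ρ i) = i) (ε : K)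
    (hε : φ ε = ε) (hε2 : ε * ε = 1) :
    Nat.card {d : ι → K // ∀ i, d i = ε * φ (d (ρ i))} = q ^ Fintype.card ι := by
  classical
  set Fx := {d : ι → K // ∀ i, d i = ε * φ (d (ρ i))} with hFx
  have hδ : ω - φ ω ≠ 0 := sub_ne_zero.2 hω.symm
  let f : Fx × Fx → (ι → K) := fun x i => x.1.1 i + ω * x.2.1 i
  have hbij : Function.Bijective f := by
    constructor
    · rintro ⟨a, b⟩ ⟨a', b'⟩ h
      have h1 : ∀ i, a.1 i + ω * b.1 i = a'.1 i + ω * b'.1 i := fun i => congrFun h i
      have h2 : ∀ i, a.1 i + φ ω * b.1 i = a'.1 i + φ ω * b'.1 i := by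
        intro i
        have := congrArg (fun t => ε * φ t) (h1 (ρ i))
        simp only [map_add, map_mul, mul_add] at this
        rw [a.2 i, a'.2 i, b.2 i, b'.2 i]
        linear_combination this
      have hb : ∀ i, b.1 i = b'.1 i := by
        intro i
        have h3 : (ω - φ ω) * (b.1 i - b'.1 i) = 0 := by linear_combination h1 i - h2 i
        rcases mul_eq_zero.1 h3 with h4 | h4
        · exact absurd h4 hδ
        · exact sub_eq_zero.1 h4
      have ha : ∀ i, a.1 i = a'.1 i := by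
        intro i
        have := h1 i
        rw [hb i] at this
        exact add_right_cancel this
      exact Prod.ext (Subtype.ext (funext ha)) (Subtype.ext (funext hb))
    · intro c
      have hφδ : φ (ω - φ ω) = -(ω - φ ω) := by rw [map_sub, hφ2]; ring
      let b : ι → K := fun i => (ω - φ ω)⁻¹ * (c i - ε * φ (c (ρ i)))
      have hb : ∀ i, b i = ε * φ (b (ρ i)) := by
        intro i
        simp only [b]
        rw [map_mul, map_inv₀, hφδ, map_sub, map_mul, hφ2, hρ, hε]
        field_simp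
        linear_combination (-(c i)) * hε2
      let a : ι → K := fun i => c i - ω * b i
      have ha : ∀ i, a i = ε * φ (a (ρ i)) := by
        intro i
        have h1 : a i = c i - ω * b i := rfl
        have h2 : a (ρ i) = c (ρ i) - ω * b (ρ i) := rfl
        have h3 : (ω - φ ω) * b i = c i - ε * φ (c (ρ i)) := by
          simp only [b]
          rw [← mul_assoc, mul_inv_cancel₀ hδ, one_mul]
        rw [h1, h2, map_sub, map_mul]
        linear_combination (-1 : K) * h3 - φ ω * hb i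
      refine ⟨(⟨a, ha⟩, ⟨b, hb⟩), ?_⟩
      funext i
      simp only [f, a]
      ring
  have h1 := Nat.card_congr (Equiv.ofBijective f hbij)
  rw [Nat.card_prod, Nat.card_fun, Nat.card_eq_fintype_card (α := ι), Nat.card_eq_fintype_card (α := K), hK, ← pow_mul, mul_comm 2,
    pow_mul, ← sq] at h1
  exact Nat.pow_left_injective (n := 2) (by norm_num) h1

end Fix

section Poly

variable {K : Type*} [Field K]

theorem DD_coeff (φ : K →+* K) (χ : K[X]) (n : ℕ) (hn : χ.natDegree = n) (i : ℕ) (hi : i ≤ n) :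
    (DD φ χ).coeff i = (φ (χ.coeff 0))⁻¹ * φ (χ.coeff (n - i)) := by
  unfold DD
  rw [coeff_C_mul, coeff_reverse, natDegree_map, hn, revAt_le hi, coeff_map]

theorem DD_coeff_gt (φ : K →+* K) (χ : K[X]) (n : ℕ) (hn : χ.natDegree = n) (i : ℕ) (hi : n < i) :
    (DD φ χ).coeff i = 0 := by
  unfold DD
  rw [coeff_C_mul, coeff_reverse, natDegree_map, hn, revAt_eq_self_of_lt hi, coeff_map,
    coeff_eq_zero_of_natDegree_lt (p := χ) (n := i) (by omega), map_zero, mul_zero]

theorem DD_iff (φ : K →+* K) (ε : K) (hε : φ ε = ε) (hε2 : ε * ε = 1) (m : ℕ) (χ : K[X])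
    (hm : χ.Monic) (hn : χ.natDegree = m + 1) :
    (DD φ χ = χ ∧ χ.coeff 0 = ε) ↔
      (χ.coeff 0 = ε ∧ ∀ i : Fin m, χ.coeff ((i : ℕ) + 1) = ε * φ (χ.coeff ((Fin.rev i : ℕ) + 1))) := by
  have hinv : ε⁻¹ = ε := (eq_inv_of_mul_eq_one_left hε2).symm
  have htop : χ.coeff (m + 1) = 1 := by rw [← hn]; exact hm.coeff_natDegree
  constructor
  · rintro ⟨h1, h2⟩
    refine ⟨h2, fun i => ?_⟩
    have h3 := DD_coeff φ χ (m + 1) hn ((i : ℕ) + 1) (by omega)
    rw [h1, h2, hε, hinv] at h3
    rw [h3, Fin.val_rev]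
    congr 3
    omega
  · rintro ⟨h2, h3⟩
    refine ⟨?_, h2⟩
    ext j
    rcases Nat.lt_or_ge (m + 1) j with hj | hj
    · rw [DD_coeff_gt φ χ (m + 1) hn j hj, coeff_eq_zero_of_natDegree_lt (by omega)]
    rw [DD_coeff φ χ (m + 1) hn j hj, h2, hε, hinv]
    rcases Nat.eq_zero_or_pos j with rfl | hj0
    · rw [Nat.sub_zero, htop, map_one, mul_one, h2]
    rcases Nat.eq_or_lt_of_le hj with rfl | hj1
    · rw [Nat.sub_self, h2, hε, hε2, htop]
    have h4 := h3 ⟨j - 1, by omega⟩
    rw [Fin.val_rev] at h4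
    simp only at h4
    rw [show j - 1 + 1 = j by omega, show m - j + 1 = m + 1 - j by omega] at h4
    exact h4.symm

/-- self-dual monic polynomials correspond to fixed points -/
noncomputable def polyEquiv (φ : K →+* K) (ε : K) (hε : φ ε = ε) (hε2 : ε * ε = 1) (m : ℕ) :
    {χ : K[X] // χ.Monic ∧ χ.natDegree = m + 1 ∧ DD φ χ = χ ∧ χ.coeff 0 = ε} ≃
      {d : Fin m → K // ∀ i, d i = ε * φ (d (Fin.rev i))} :=
  calc {χ : K[X] // χ.Monic ∧ χ.natDegree = m + 1 ∧ DD φ χ = χ ∧ χ.coeff 0 = ε}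
      ≃ {χ : K[X] // (χ.Monic ∧ χ.natDegree = m + 1) ∧ (DD φ χ = χ ∧ χ.coeff 0 = ε)} :=
        Equiv.subtypeEquivRight (fun χ => by rw [and_assoc])
    _ ≃ {χ' : {χ : K[X] // χ.Monic ∧ χ.natDegree = m + 1} //
          DD φ χ'.1 = χ'.1 ∧ χ'.1.coeff 0 = ε} :=
        (Equiv.subtypeSubtypeEquivSubtypeInter _ _).symm
    _ ≃ {c : Fin (m + 1) → K // c 0 = ε ∧ ∀ i : Fin m, c i.succ = ε * φ (c (Fin.rev i).succ)} :=
        Equiv.subtypeEquiv (monicCoeffEquiv (m + 1)) (fun χ => by
          rw [DD_iff φ ε hε hε2 m χ.1 χ.2.1 χ.2.2]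
          simp only [monicCoeffEquiv_apply, Fin.val_zero, Fin.val_succ])
    _ ≃ {d : Fin m → K // ∀ i, d i = ε * φ (d (Fin.rev i))} :=
        { toFun := fun c => ⟨fun i => c.1 i.succ, c.2.2⟩
          invFun := fun d => ⟨Fin.cons ε d.1, by simp, by simpa using d.2⟩
          left_inv := by
            intro c
            apply Subtype.ext
            funext i
            refine Fin.cases ?_ (fun j => ?_) i
            · simp [c.2.1]
            · simp
          right_inv := by
            intro d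
            apply Subtype.ext
            funext i
            simp }

end Poly

end Cfsg.Agent.Lib.Helper48SUCount
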