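import Mathlib

set_option autoImplicit false

namespace Cfsg.Agent.Lib.Helper48Shift

open Module Matrix

variable {n F : Type*} [Fintype n] [DecidableEq n] [Field F]

theorem shift_pow (M : Matrix n n F) (l : n → ℕ)
    (h : ∀ a b, M a b ≠ 0 → l a + 1 = l b) (k : ℕ) :
    ∀ a b, (M ^ k) a b ≠ 0 → l a + k = l b := by
  induction k with
  | zero =>
    intro a b hab
    rw [pow_zero, Matrix.one_apply] at hab
    by_cases hh : a = b
    · rw [hh]; rfl
    · rw [if_neg hh] at hab; exact absurd rfl hab
  | succ k ih =>
    intro a b hab
    rw [pow_succ, Matrix.mul_apply] at hab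
    obtain ⟨c, -, hc⟩ := Finset.exists_ne_zero_of_sum_ne_zero hab
    have h1 := ih a c (left_ne_zero_of_mul hc)
    have h2 := h c b (right_ne_zero_of_mul hc)
    omega

theorem shift_nilpotent (M : Matrix n n F) (l : n → ℕ)
    (h : ∀ a b, M a b ≠ 0 → l a + 1 = l b) (d : ℕ) (hlt : ∀ b, l b < d) : M ^ d = 0 := by
  ext a b
  by_contra hab
  have h1 := shift_pow M l h d a b hab
  have h2 := hlt b
  omega

theorem shift_rank (M : Matrix n n F) (l : n → ℕ) (hinj : Function.Injective l)
    (hlt : ∀ b, l b < Fintype.card n) (h : ∀ a b, M a b ≠ 0 ↔ l a + 1 = l b)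
    (hpos : 0 < Fintype.card n) : M.rank = Fintype.card n - 1 := by
  have hsurj : ∀ k, k < Fintype.card n → ∃ a, l a = k := by
    intro k hk
    have h1 : Function.Injective (fun a => (⟨l a, hlt a⟩ : Fin (Fintype.card n))) := by
      intro a b hab
      exact hinj (congrArg Fin.val hab)
    have h2 := ((Fintype.bijective_iff_injective_and_card _).2 ⟨h1, by simp⟩).2 ⟨k, hk⟩
    obtain ⟨a, ha⟩ := h2
    exact ⟨a, congrArg Fin.val ha⟩
  obtain ⟨b₀, hb₀⟩ := hsurj 0 hpos
  have hker : LinearMap.ker M.mulVecLin = Submodule.span F {(Pi.single b₀ 1 : n → F)} := by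
    apply le_antisymm
    · intro v hv
      rw [LinearMap.mem_ker, Matrix.mulVecLin_apply] at hv
      have h1 : ∀ b, l b ≠ 0 → v b = 0 := by
        intro b hb
        obtain ⟨a, ha⟩ := hsurj (l b - 1) (by have := hlt b; omega)
        have h2 : (M *ᵥ v) a = M a b * v b := by
          rw [Matrix.mulVec, dotProduct]
          apply Finset.sum_eq_single b
          · intro b' _ hb'
            have h3 : M a b' = 0 := by
              by_contra h4
              have h5 := (h a b').1 h4
              apply hb'
              apply hinj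
              omega
            rw [h3, zero_mul]
          · intro h3; exact absurd (Finset.mem_univ b) h3
        rw [hv] at h2
        have h3 : M a b ≠ 0 := (h a b).2 (by omega)
        rcases mul_eq_zero.1 h2.symm with h4 | h4
        · exact absurd h4 h3
        · exact h4
      rw [Submodule.mem_span_singleton]
      refine ⟨v b₀, ?_⟩
      ext b
      by_cases hb : b = b₀
      · subst hb; simp
      · have h2 : l b ≠ 0 := by
          intro h3; apply hb; apply hinj; rw [h3, hb₀]
        simp [hb, h1 b h2]
    · rw [Submodule.span_singleton_le_iff_mem, LinearMap.mem_ker, Matrix.mulVecLin_apply,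
        Matrix.mulVec_single_one]
      ext a
      by_contra h1
      have h2 := (h a b₀).1 h1
      omega
  have h1 := LinearMap.finrank_range_add_finrank_ker M.mulVecLin
  rw [hker, finrank_span_singleton (by
    intro h3
    have := congrFun h3 b₀
    simp at this), Module.finrank_fintype_fun_eq_card] at h1
  rw [Matrix.rank]
  omega

end Cfsg.Agent.Lib.Helper48Shift
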