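import Mathlib
import Cfsg.Agent.Lib.Helper48SpReg
import Cfsg.Agent.Lib.Helper48Cayley
import Cfsg.Agent.Lib.Helper48Shift

set_option autoImplicit false

namespace Cfsg.Agent.Lib.Helper48SpRegEx

open Polynomial Module Matrix Cfsg.Agent.Lib.Helper48Trunc Cfsg.Agent.Lib.Helper48TruncRep
  Cfsg.Agent.Lib.Helper48SpReg Cfsg.Agent.Lib.Helper48Cayley Cfsg.Agent.Lib.Helper48Shift

variable (F : Type*) [Field F] (m : ℕ)

local notation "MM" => Matrix (Fin m ⊕ Fin m) (Fin m ⊕ Fin m) F
local notation "JJ" => Matrix.J (Fin m) F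

def NN : Matrix (Fin m) (Fin m) F := Matrix.of fun i j => if (i : ℕ) + 1 = j then 1 else 0

def BB : Matrix (Fin m) (Fin m) F :=
  Matrix.of fun i j => if (i : ℕ) + 1 = m ∧ (j : ℕ) + 1 = m then 1 else 0

def tt : MM := Matrix.fromBlocks (NN F m) (BB F m) 0 (-(NN F m)ᵀ)

def lev : Fin m ⊕ Fin m → ℕ := Sum.elim (fun i => (i : ℕ)) (fun i => 2 * m - 1 - (i : ℕ))

theorem BB_transpose : (BB F m)ᵀ = BB F m := by
  ext i j
  simp [BB, and_comm]

theorem st_tt : st (tt F m) = -(tt F m) := by
  rw [st_apply, tt, Matrix.J, Matrix.fromBlocks_transpose, Matrix.fromBlocks_neg,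
    Matrix.fromBlocks_multiply, Matrix.fromBlocks_multiply, Matrix.fromBlocks_neg, BB_transpose]
  simp

theorem tt_ne_zero_iff (a b : Fin m ⊕ Fin m) : tt F m a b ≠ 0 ↔ lev m a + 1 = lev m b := by
  rcases a with i | i <;> rcases b with j | j
  · simp [tt, NN, lev]
  · have hi := i.2
    have hj := j.2
    simp only [tt, BB, lev, Matrix.fromBlocks_apply₁₂, Matrix.of_apply, Sum.elim_inl, Sum.elim_inr,
      ne_eq, ite_eq_right_iff, one_ne_zero, imp_false, not_not]
    omega
  · have hi := i.2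
    have hj := j.2
    simp only [tt, lev, Matrix.fromBlocks_apply₂₁, Matrix.zero_apply, Sum.elim_inl, Sum.elim_inr,
      ne_eq, not_true_eq_false, false_iff]
    omega
  · have hi := i.2
    have hj := j.2
    simp only [tt, NN, lev, Matrix.fromBlocks_apply₂₂, Matrix.neg_apply, Matrix.transpose_apply,
      Matrix.of_apply, Sum.elim_inr, ne_eq, neg_eq_zero, ite_eq_right_iff, one_ne_zero, imp_false,
      not_not]
    omega

theorem lev_injective : Function.Injective (lev m) := by
  intro a b hab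
  rcases a with i | i <;> rcases b with j | j
  · simp only [lev, Sum.elim_inl] at hab
    rw [Fin.ext hab]
  · have hi := i.2
    have hj := j.2
    simp only [lev, Sum.elim_inl, Sum.elim_inr] at hab
    omega
  · have hi := i.2
    have hj := j.2
    simp only [lev, Sum.elim_inl, Sum.elim_inr] at hab
    omega
  · have hi := i.2
    have hj := j.2
    simp only [lev, Sum.elim_inr] at hab
    have : (i : ℕ) = j := by omega
    rw [Fin.ext this]

theorem lev_lt (b : Fin m ⊕ Fin m) : lev m b < 2 * m := by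
  rcases b with j | j
  · have hj := j.2
    simp only [lev, Sum.elim_inl]
    omega
  · have hj := j.2
    simp only [lev, Sum.elim_inr]
    omega

theorem tt_pow : (tt F m) ^ (2 * m) = 0 :=
  shift_nilpotent _ (lev m) (fun a b h => (tt_ne_zero_iff F m a b).1 h) _ (lev_lt m)

theorem tt_rank (hm : 1 ≤ m) : (tt F m).rank = 2 * m - 1 := by
  have hc : Fintype.card (Fin m ⊕ Fin m) = 2 * m := by simp [two_mul]
  have := shift_rank (tt F m) (lev m) (lev_injective m) (by rw [hc]; exact lev_lt m)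
    (tt_ne_zero_iff F m) (by rw [hc]; omega)
  rw [this, hc]

variable {F m}

/-- existence of a regular unipotent element in the symplectic group -/
theorem exists_regular (h2 : (2 : F) ≠ 0) (hm : 1 ≤ m) :
    ∃ u : Matrix.symplecticGroup (Fin m) F, ((u : MM) - 1) ^ (2 * m) = 0 ∧
      ((u : MM) - 1).rank = 2 * m - 1 := by
  have hn : 2 * m ≠ 0 := by omega
  set x := xx F (2 * m) with hx
  have hu : IsUnit (1 + x) := by
    apply isUnit_of_eps F (2 * m) hn
    rw [map_add, map_one, hx, eps_xx, add_zero]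
    exact one_ne_zero
  obtain ⟨d, hd⟩ := hu.exists_right_inv
  have hc := cay_mem (sig F (2 * m)).toRingHom x d (sig_xx F (2 * m)) hd
  change sig F (2 * m) ((1 - x) * d) * ((1 - x) * d) = 1 at hc
  let Λ : RR F (2 * m) →ₐ[F] MM := Lam (tt F m) (tt_pow F m)
  have hst : ∀ r, st (Λ r) = Λ (sig F (2 * m) r) :=
    star_Lam (F := F) st st_mul st_one (tt F m) (tt_pow F m) (st_tt F m)
  have hmem : Λ ((1 - x) * d) ∈ Matrix.symplecticGroup (Fin m) F := by
    rw [mem_iff_st, hst, ← map_mul, hc, map_one]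
  have hΛx : Λ x = tt F m := Lam_xx _ _
  have hsub' : Λ ((1 - x) * d) - 1 = Λ (x * (-2 * d)) := by
    rw [← map_one Λ, ← map_sub]
    apply congrArg Λ
    linear_combination hd
  have hsub : Λ ((1 - x) * d) - 1 = tt F m * Λ (-2 * d) := by
    rw [hsub', map_mul, hΛx]
  refine ⟨⟨Λ ((1 - x) * d), hmem⟩, ?_, ?_⟩
  · change (Λ ((1 - x) * d) - 1) ^ (2 * m) = 0
    rw [hsub', ← map_pow, mul_pow, hx, xx_pow, zero_mul, map_zero]
  · change (Λ ((1 - x) * d) - 1).rank = 2 * m - 1
    rw [hsub, Matrix.rank_mul_eq_left_of_isUnit_det, tt_rank F m hm]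
    rw [← Matrix.isUnit_iff_isUnit_det]
    apply IsUnit.map
    apply isUnit_of_eps F (2 * m) hn
    have h3 := congrArg (eps F (2 * m) hn) hd
    rw [map_mul, map_add, map_one, hx, eps_xx, add_zero, one_mul] at h3
    rw [map_mul, h3, mul_one, map_neg, map_ofNat]
    exact neg_ne_zero.2 h2

end Cfsg.Agent.Lib.Helper48SpRegEx
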