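import Mathlib
import Cfsg.Agent.Lib.Helper45SemisimpleCount
import Cfsg.Agent.Lib.Helper48UnipEx

set_option autoImplicit false
set_option linter.unusedSectionVars false

namespace Cfsg.Agent.Lib.Helper48SpSS

open Polynomial Matrix Cfsg.Agent.Lib.Helper45Semisimple

universe u
variable {F : Type u} [Field F]

/-- every monic polynomial is the characteristic polynomial of a matrix which is self-adjoint
for a nondegenerate symmetric form -/
theorem exists_sym (n : ℕ) (g : F[X]) (hg : g.Monic) (hd : g.natDegree = n) :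
    ∃ C S S' : Matrix (Fin n) (Fin n) F, C.charpoly = g ∧ S * S' = 1 ∧ Cᵀ * S = S * C ∧
      Sᵀ = S := by
  have _ : Module.Finite F (AdjoinRoot g) := (AdjoinRoot.powerBasis' hg).finite
  let b : Module.Basis (Fin n) F (AdjoinRoot g) :=
    (AdjoinRoot.powerBasis' hg).basis.reindex (finCongr hd)
  let lam : AdjoinRoot g →ₗ[F] F := (Polynomial.lcoeff F (n - 1)) ∘ₗ (AdjoinRoot.modByMonicHom hg)
  let B : LinearMap.BilinForm F (AdjoinRoot g) := (LinearMap.mul F (AdjoinRoot g)).compr₂ lam
  have hB : ∀ x y, B x y = lam (x * y) := fun x y => rfl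
  let f : AdjoinRoot g →ₗ[F] AdjoinRoot g := LinearMap.mulLeft F (AdjoinRoot.root g)
  have hkey : ∀ x, (∀ y, B x y = 0) → x = 0 := by
    intro x hx
    by_contra hx0
    set P := AdjoinRoot.modByMonicHom hg x with hP
    have hPx : AdjoinRoot.mk g P = x := AdjoinRoot.mk_leftInverse hg x
    have hP0 : P ≠ 0 := by
      intro h0
      rw [h0, map_zero] at hPx
      exact hx0 hPx.symm
    have hPdeg : P.natDegree < n := by
      have h1 : P = P %ₘ g := by
        conv_lhs => rw [hP, ← hPx, AdjoinRoot.modByMonicHom_mk]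
      rw [h1, ← hd]
      apply natDegree_modByMonic_lt _ hg
      intro h1'
      rw [h1', natDegree_one] at hd
      have : Subsingleton (AdjoinRoot g) := by
        rw [h1']
        exact (Ideal.Quotient.subsingleton_iff).2 (by simp)
      exact hx0 (Subsingleton.elim _ _)
    have h2 := hx (AdjoinRoot.mk g (X ^ (n - 1 - P.natDegree)))
    rw [hB, ← hPx, ← map_mul] at h2
    change ((P * X ^ (n - 1 - P.natDegree)) %ₘ g).coeff (n - 1) = 0 at h2
    rw [(modByMonic_eq_self_iff hg).2 ?_, coeff_mul_X_pow'] at h2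
    · rw [if_pos (by omega)] at h2
      have e : n - 1 - (n - 1 - P.natDegree) = P.natDegree := by omega
      rw [e] at h2
      exact hP0 (leadingCoeff_eq_zero.1 h2)
    · rw [degree_mul, degree_X_pow, degree_eq_natDegree hP0, degree_eq_natDegree hg.ne_zero, hd,
        ← Nat.cast_add, Nat.cast_lt]
      omega
  have hnd : B.Nondegenerate := by
    constructor
    · exact hkey
    · intro y hy
      apply hkey
      intro x
      rw [hB, mul_comm, ← hB]
      exact hy x
  have hdet : (LinearMap.BilinForm.toMatrix b B).det ≠ 0 := by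
    rw [← Matrix.nondegenerate_iff_det_ne_zero, LinearMap.BilinForm.nondegenerate_toMatrix_iff]
    exact hnd
  refine ⟨LinearMap.toMatrix b b f, LinearMap.BilinForm.toMatrix b B,
    (LinearMap.BilinForm.toMatrix b B)⁻¹, ?_, ?_, ?_, ?_⟩
  · rw [LinearMap.charpoly_toMatrix]
    exact charpoly_mulLeft_root g hg
  · exact Matrix.mul_nonsing_inv _ (isUnit_iff_ne_zero.2 hdet)
  · rw [← LinearMap.BilinForm.toMatrix_compLeft, ← LinearMap.BilinForm.toMatrix_compRight]
    congr 1
    ext x y
    change B (f x) y = B x (f y)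
    rw [hB, hB]
    congr 1
    change AdjoinRoot.root g * x * y = x * (AdjoinRoot.root g * y)
    ring
  · ext i j
    rw [Matrix.transpose_apply, LinearMap.BilinForm.toMatrix_apply,
      LinearMap.BilinForm.toMatrix_apply, hB, hB, mul_comm]

open Cfsg.Agent.Lib.Helper48AltForm in
/-- a symplectic matrix `x` with prescribed characteristic polynomial of `x + x⁻¹` -/
theorem exists_sp (n : ℕ) (g : F[X]) (hg : g.Monic) (hd : g.natDegree = n) :
    ∃ x : Matrix.symplecticGroup (Fin n) F, (x.1 + (x⁻¹).1).charpoly = g * g := by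
  obtain ⟨C, S, S', hC, hSS', hCS, hSt⟩ := exists_sym n g hg hd
  set M : Matrix (Fin n ⊕ Fin n) (Fin n ⊕ Fin n) F := fromBlocks 0 (-1) 1 C with hM
  set M' : Matrix (Fin n ⊕ Fin n) (Fin n ⊕ Fin n) F := fromBlocks C 1 (-1) 0 with hM'
  set Z : Matrix (Fin n ⊕ Fin n) (Fin n ⊕ Fin n) F := fromBlocks 0 S 0 0 with hZ
  have hY : Z - Zᵀ = fromBlocks 0 S (-S) 0 := by
    rw [hZ, fromBlocks_transpose, hSt]
    ext (i | i) (j | j) <;> simp
  have hMM' : M * M' = 1 := by
    rw [hM, hM', fromBlocks_multiply]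
    simp
  have hYY' : (Z - Zᵀ) * fromBlocks 0 (-S') S' 0 = 1 := by
    rw [hY, fromBlocks_multiply]
    simp [hSS']
  have hinv : Mᵀ * (Z - Zᵀ) * M = Z - Zᵀ := by
    rw [hY, hM, fromBlocks_transpose, fromBlocks_multiply, fromBlocks_multiply]
    simp [hCS]
  obtain ⟨Q, Q', hQQ', hQ'Q, hQ⟩ := conj_into_Sp M _ _ hYY' (alt_sub_transpose Z) hinv
  refine ⟨⟨_, hQ⟩, ?_⟩
  have h1 : ((⟨_, hQ⟩ : Matrix.symplecticGroup (Fin n) F)⁻¹).1 = Q * M' * Q' := by
    have h2 := Cfsg.Agent.Lib.Helper48SpRegConj.coe_inv_mul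
      (⟨_, hQ⟩ : Matrix.symplecticGroup (Fin n) F)
    have h3 : (Q * M * Q') * (Q * M' * Q') = 1 := by
      calc (Q * M * Q') * (Q * M' * Q') = Q * M * (Q' * Q) * M' * Q' := by
            simp only [Matrix.mul_assoc]
        _ = 1 := by rw [hQ'Q, mul_one, mul_assoc Q, hMM', mul_one, hQQ']
    exact (left_inv_eq_right_inv h2 h3)
  rw [h1]
  have h4 : Q * M * Q' + Q * M' * Q' = Q * ((M + M') * Q') := by
    rw [add_mul, mul_add, mul_assoc, mul_assoc]
  rw [h4, Matrix.charpoly_mul_comm, mul_assoc, hQ'Q, mul_one, hM, hM', fromBlocks_add]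
  simp only [zero_add, add_zero, neg_add_cancel, add_neg_cancel]
  rw [Matrix.charpoly_fromBlocks_zero₁₂, hC]

section fin
variable [Fintype F] (p : ℕ) [Fact p.Prime] [CharP F p]

theorem charpoly_pow_card_pow {ι : Type*} [Fintype ι] [DecidableEq ι] (A : Matrix ι ι F) (a : ℕ) :
    (A ^ (Fintype.card F ^ a)).charpoly = A.charpoly := by
  induction a with
  | zero => rw [pow_zero, pow_one]
  | succ a ih => rw [pow_succ, pow_mul, FiniteField.Matrix.charpoly_pow_card, ih]

include p in
theorem add_pow_card_pow {ι : Type*} [Fintype ι] [DecidableEq ι] (A B : Matrix ι ι F)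
    (h : Commute A B) (a : ℕ) :
    (A + B) ^ (Fintype.card F ^ a) = A ^ (Fintype.card F ^ a) + B ^ (Fintype.card F ^ a) := by
  rcases isEmpty_or_nonempty ι with hι | hι
  · exact Subsingleton.elim _ _
  obtain ⟨e, -, he⟩ := FiniteField.card F p
  rw [he, ← pow_mul]
  exact add_pow_char_pow_of_commute _ _ h

include p in
/-- passing to the `p'`-part does not change the characteristic polynomial of `x + x⁻¹` -/
theorem exists_semisimple {n : ℕ} (x : Matrix.symplecticGroup (Fin n) F) :
    ∃ s : Matrix.symplecticGroup (Fin n) F, (orderOf s).Coprime p ∧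
      (s.1 + (s⁻¹).1).charpoly = (x.1 + (x⁻¹).1).charpoly := by
  have hp : p.Prime := Fact.out
  obtain ⟨a, m, hm, ho⟩ := Nat.exists_eq_pow_mul_and_not_dvd (orderOf_pos x).ne' p hp.ne_one
  obtain ⟨e, -, he⟩ := FiniteField.card F p
  refine ⟨x ^ (Fintype.card F ^ a), ?_, ?_⟩
  · have h1 : orderOf (x ^ (Fintype.card F ^ a)) ∣ m := by
      apply orderOf_dvd_of_pow_eq_one
      rw [← pow_mul]
      apply orderOf_dvd_iff_pow_eq_one.1
      rw [ho]
      apply Nat.mul_dvd_mul_right
      rw [he]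
      exact pow_dvd_pow_of_dvd (dvd_pow_self p e.ne_zero) a
    exact Nat.Coprime.coprime_dvd_left h1 ((Nat.Prime.coprime_iff_not_dvd hp).2 hm).symm
  · rw [← inv_pow]
    change (x.1 ^ (Fintype.card F ^ a) + (x⁻¹).1 ^ (Fintype.card F ^ a)).charpoly = _
    rw [← add_pow_card_pow p, charpoly_pow_card_pow]
    change x.1 * (x⁻¹).1 = (x⁻¹).1 * x.1
    rw [Cfsg.Agent.Lib.Helper48SpRegConj.coe_mul_inv, Cfsg.Agent.Lib.Helper48SpRegConj.coe_inv_mul]

end fin

/-- the characteristic polynomial of a symplectic matrix is self-reciprocal -/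
theorem reverse_charpoly_sp {n : ℕ} (x : Matrix.symplecticGroup (Fin n) F) :
    x.1.charpoly.reverse = x.1.charpoly := by
  have h1 : (x.1⁻¹).charpoly = x.1.charpoly := by
    rw [SymplecticGroup.inv_eq_symplectic_inv x.1 x.2, mul_assoc, Matrix.charpoly_mul_comm,
      mul_assoc, Matrix.mul_neg, Matrix.J_squared, neg_neg, mul_one, Matrix.charpoly_transpose]
  have hu : IsUnit x.1 := IsUnit.of_mul_eq_one _ (Cfsg.Agent.Lib.Helper48SpRegConj.coe_mul_inv x)
  rw [Matrix.charpoly_inv x.1 hu, SymplecticGroup.det_eq_one x.2, ← Matrix.reverse_charpoly,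
    Ring.inverse_one, C_1, mul_one, Fintype.card_sum, ← two_mul, pow_mul, neg_one_sq, one_pow,
    one_mul] at h1
  exact h1

theorem eq_of_coeff (n : ℕ) (f f' : F[X]) (hf : f.Monic) (hf' : f'.Monic)
    (hd : f.natDegree = 2 * n) (hd' : f'.natDegree = 2 * n) (hr : f.reverse = f)
    (hr' : f'.reverse = f') (h : ∀ i : Fin n, f.coeff (i + 1) = f'.coeff (i + 1)) : f = f' := by
  have key : ∀ (P : F[X]), P.natDegree = 2 * n → P.reverse = P → ∀ j ≤ 2 * n,
      P.coeff j = P.coeff (2 * n - j) := by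
    intro P hP hPr j hj
    conv_lhs => rw [← hPr, coeff_reverse, hP, revAt_le hj]
  have htop : f.coeff (2 * n) = f'.coeff (2 * n) := by
    rw [← hd, hf.coeff_natDegree, hd, ← hd', hf'.coeff_natDegree]
  have hlow : ∀ j, 1 ≤ j → j ≤ n → f.coeff j = f'.coeff j := by
    intro j h1 h2
    have := h ⟨j - 1, by omega⟩
    simp only at this
    rwa [Nat.sub_add_cancel h1] at this
  ext j
  rcases Nat.lt_or_ge (2 * n) j with hj | hj
  · rw [coeff_eq_zero_of_natDegree_lt (by rw [hd]; exact hj),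
      coeff_eq_zero_of_natDegree_lt (by rw [hd']; exact hj)]
  rcases Nat.eq_zero_or_pos j with rfl | hj0
  · rw [key f hd hr 0 hj, key f' hd' hr' 0 hj, Nat.sub_zero, htop]
  rcases Nat.lt_or_ge n j with hjn | hjn
  · rcases Nat.lt_or_ge j (2 * n) with hj2 | hj2
    · rw [key f hd hr j hj, key f' hd' hr' j hj]
      exact hlow _ (by omega) (by omega)
    · have : j = 2 * n := by omega
      rw [this, htop]
  · exact hlow j hj0 hjn

end Cfsg.Agent.Lib.Helper48SpSS
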