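import Mathlib

set_option autoImplicit false

namespace Cfsg.Agent.Lib.Helper48Transv

open Module

variable {K V V' : Type*} [Field K] [AddCommGroup V] [Module K V] [AddCommGroup V'] [Module K V']

theorem glue (U C : Submodule K V) (U' C' : Submodule K V') (h : IsCompl U C) (h' : IsCompl U' C')
    (e₁ : U ≃ₗ[K] U') (e₂ : C ≃ₗ[K] C') :
    ∃ e : V ≃ₗ[K] V', (∀ u : U, e u = e₁ u) ∧ (∀ c : C, e c = e₂ c) := by
  refine ⟨(Submodule.prodEquivOfIsCompl U C h).symm ≪≫ₗ (e₁.prodCongr e₂) ≪≫ₗ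
    (Submodule.prodEquivOfIsCompl U' C' h'), ?_, ?_⟩
  · intro u; simp
  · intro c; simp

theorem exists_span_equiv (x : V) (x' : V') (hx : x ≠ 0) (hx' : x' ≠ 0) :
    ∃ e : (K ∙ x) ≃ₗ[K] (K ∙ x'), e ⟨x, Submodule.mem_span_singleton_self x⟩ =
      ⟨x', Submodule.mem_span_singleton_self x'⟩ := by
  refine ⟨(LinearEquiv.toSpanNonzeroSingleton K V x hx).symm ≪≫ₗ
    LinearEquiv.toSpanNonzeroSingleton K V' x' hx', ?_⟩
  rw [LinearEquiv.trans_apply]
  have : (LinearEquiv.toSpanNonzeroSingleton K V x hx).symm ⟨x, Submodule.mem_span_singleton_self x⟩ = 1 := by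
    rw [LinearEquiv.symm_apply_eq, LinearEquiv.toSpanNonzeroSingleton_one]
  rw [this, LinearEquiv.toSpanNonzeroSingleton_one]

theorem exists_equiv_vec [FiniteDimensional K V] [FiniteDimensional K V']
    (hfin : finrank K V = finrank K V') (v : V) (v' : V') (hv : v ≠ 0) (hv' : v' ≠ 0) :
    ∃ h : V ≃ₗ[K] V', h v = v' := by
  obtain ⟨D, hD⟩ := Submodule.exists_isCompl (K ∙ v)
  obtain ⟨D', hD'⟩ := Submodule.exists_isCompl (K ∙ v')
  have hc : finrank K D = finrank K D' := by
    have a1 := Submodule.finrank_add_eq_of_isCompl hD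
    have a2 := Submodule.finrank_add_eq_of_isCompl hD'
    rw [finrank_span_singleton hv] at a1
    rw [finrank_span_singleton hv'] at a2
    omega
  obtain ⟨e₁, he₁⟩ := exists_span_equiv (K := K) v v' hv hv'
  obtain ⟨e, he, -⟩ := glue _ _ _ _ hD hD' e₁ (LinearEquiv.ofFinrankEq _ _ hc)
  refine ⟨e, ?_⟩
  have := he ⟨v, Submodule.mem_span_singleton_self v⟩
  rw [he₁] at this
  exact this

/-- data of a rank one square zero endomorphism -/
theorem rank_one_data [FiniteDimensional K V] (N : End K V) (hr : finrank K (LinearMap.range N) = 1) :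
    ∃ x : V, N x ≠ 0 ∧ (∀ y, ∃ a : K, N y = a • N x) ∧ IsCompl (LinearMap.ker N) (K ∙ x) := by
  have hne : ∃ x, N x ≠ 0 := by
    by_contra h
    push Not at h
    have : LinearMap.range N = ⊥ := by
      rw [eq_bot_iff]
      rintro _ ⟨y, rfl⟩
      rw [h y]; exact Submodule.zero_mem _
    rw [this, finrank_bot] at hr
    omega
  obtain ⟨x, hx⟩ := hne
  have hspan : ∀ y, ∃ a : K, N y = a • N x := by
    intro y
    have h1 := (finrank_eq_one_iff_of_nonzero' (⟨N x, x, rfl⟩ : LinearMap.range N)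
      (by intro h; exact hx (congrArg Subtype.val h))).mp hr ⟨N y, y, rfl⟩
    obtain ⟨c, hc⟩ := h1
    exact ⟨c, (congrArg Subtype.val hc).symm⟩
  refine ⟨x, hx, hspan, ?_, ?_⟩
  · rw [Submodule.disjoint_def]
    intro y hy hy'
    obtain ⟨a, rfl⟩ := Submodule.mem_span_singleton.mp hy'
    rw [LinearMap.mem_ker, map_smul, smul_eq_zero] at hy
    rcases hy with h | h
    · rw [h, zero_smul]
    · exact absurd h hx
  · rw [codisjoint_iff, eq_top_iff]
    intro y _
    obtain ⟨a, ha⟩ := hspan y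
    rw [Submodule.mem_sup]
    refine ⟨y - a • x, ?_, a • x, Submodule.smul_mem _ _ (Submodule.mem_span_singleton_self x), by abel⟩
    rw [LinearMap.mem_ker, map_sub, map_smul, ha, sub_self]

theorem exists_conj [FiniteDimensional K V] (N N' : End K V)
    (hr : finrank K (LinearMap.range N) = 1) (hsq : N * N = 0)
    (hr' : finrank K (LinearMap.range N') = 1) (hsq' : N' * N' = 0) :
    ∃ g : V ≃ₗ[K] V, ∀ y, g (N y) = N' (g y) := by
  obtain ⟨x, hx, hspan, hc⟩ := rank_one_data N hr
  obtain ⟨x', hx', hspan', hc'⟩ := rank_one_data N' hr'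
  have hx0 : x ≠ 0 := by rintro rfl; exact hx (map_zero _)
  have hx0' : x' ≠ 0 := by rintro rfl; exact hx' (map_zero _)
  have hv : N x ∈ LinearMap.ker N := by
    rw [LinearMap.mem_ker, ← Module.End.mul_apply, hsq]; rfl
  have hv' : N' x' ∈ LinearMap.ker N' := by
    rw [LinearMap.mem_ker, ← Module.End.mul_apply, hsq']; rfl
  have hfin : finrank K (LinearMap.ker N) = finrank K (LinearMap.ker N') := by
    have a1 := LinearMap.finrank_range_add_finrank_ker N
    have a2 := LinearMap.finrank_range_add_finrank_ker N'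
    omega
  obtain ⟨h, hh⟩ := exists_equiv_vec hfin (⟨N x, hv⟩ : LinearMap.ker N) (⟨N' x', hv'⟩ : LinearMap.ker N')
    (by intro h; exact hx (congrArg Subtype.val h)) (by intro h; exact hx' (congrArg Subtype.val h))
  obtain ⟨e₂, he₂⟩ := exists_span_equiv (K := K) x x' hx0 hx0'
  obtain ⟨g, hg1, hg2⟩ := glue _ _ _ _ hc hc' h e₂
  refine ⟨g, ?_⟩
  have gx : g x = x' := by
    have := hg2 ⟨x, Submodule.mem_span_singleton_self x⟩
    rw [he₂] at this
    exact this
  have gv : g (N x) = N' x' := by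
    have := hg1 ⟨N x, hv⟩
    rw [hh] at this
    exact this
  intro y
  obtain ⟨a, ha⟩ := hspan y
  have hy : y - a • x ∈ LinearMap.ker N := by
    rw [LinearMap.mem_ker, map_sub, map_smul, ha, sub_self]
  have h1 : N' (g (y - a • x)) = 0 := by
    have := hg1 ⟨y - a • x, hy⟩
    simp only at this
    rw [this]
    exact (h ⟨y - a • x, hy⟩).2
  rw [map_sub, map_sub, map_smul, map_smul, gx, sub_eq_zero] at h1
  rw [h1, ha, map_smul, gv]

theorem exists_comm_det [FiniteDimensional K V] (N : End K V)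
    (hr : finrank K (LinearMap.range N) = 1) (hsq : N * N = 0) (hn : 3 ≤ finrank K V) (c : K) :
    ∃ d : End K V, LinearMap.det d = c ∧ Commute d N := by
  have hle : LinearMap.range N ≤ LinearMap.ker N := by
    rintro _ ⟨y, rfl⟩
    rw [LinearMap.mem_ker, ← Module.End.mul_apply, hsq]; rfl
  have hlt : LinearMap.range N < LinearMap.ker N := by
    apply lt_of_le_of_ne hle
    intro h
    have a1 := LinearMap.finrank_range_add_finrank_ker N
    rw [← h] at a1
    omega
  obtain ⟨z, hz, hz'⟩ := SetLike.exists_of_lt hlt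
  obtain ⟨ψ, hψ1, hψ2⟩ := Submodule.exists_dual_map_eq_bot_of_notMem hz' inferInstance
  have hψN : ∀ y, ψ (N y) = 0 := by
    intro y
    have : ψ (N y) ∈ (LinearMap.range N).map ψ := ⟨N y, ⟨y, rfl⟩, rfl⟩
    rw [hψ2] at this
    exact this
  refine ⟨LinearMap.transvection (((c - 1) * (ψ z)⁻¹) • ψ) z, ?_, ?_⟩
  · rw [LinearMap.transvection.det]
    simp [hψ1]
  · apply LinearMap.ext
    intro y
    rw [Module.End.mul_apply, Module.End.mul_apply, LinearMap.transvection.apply,
      LinearMap.transvection.apply, map_add, map_smul, LinearMap.mem_ker.mp hz]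
    simp [hψN]

end Cfsg.Agent.Lib.Helper48Transv
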