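import Mathlib
import Cfsg.Agent.Lib.Helper48Transv

set_option autoImplicit false

namespace Cfsg.Agent.Lib.Helper48TransvCount

open Module Matrix Cfsg.Agent.Lib.Helper48Transv

variable {K : Type*} [Field K]

theorem commute_single_iff {n : Type*} [Fintype n] [DecidableEq n] {i j : n} {M : Matrix n n K} :
    Commute (single i j (1 : K)) M ↔
      (∀ k, k ≠ j → M j k = 0) ∧ (∀ k, k ≠ i → M k i = 0) ∧ M i i = M j j := by
  constructor
  · intro h
    exact ⟨fun k hk => row_eq_zero_of_commute_single h hk,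
      fun k hk => col_eq_zero_of_commute_single h hk, diag_eq_of_commute_single h⟩
  · rintro ⟨h1, h2, h3⟩
    ext p r
    by_cases hp : p = i
    · subst hp
      rw [single_mul_apply_same, one_mul]
      by_cases hr : r = j
      · subst hr
        rw [mul_single_apply_same, mul_one, h3]
      · rw [mul_single_apply_of_ne _ _ _ _ _ hr, h1 r hr]
    · rw [single_mul_apply_of_ne _ _ _ _ _ hp]
      by_cases hr : r = j
      · subst hr
        rw [mul_single_apply_same, mul_one, h2 p hp]
      · rw [mul_single_apply_of_ne _ _ _ _ _ hr]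

abbrev II (k : ℕ) := Unit ⊕ (Fin k ⊕ Unit)

/-- the block matrix -/
def MM {k : ℕ} (c : K) (A : Matrix (Fin k) (Fin k) K) (r s : Fin k → K) (z : K) :
    Matrix (II k) (II k) K :=
  fromBlocks (of fun _ _ => c) (of fun _ j => Sum.elim r (fun _ => z) j) 0
    (fromBlocks A (of fun i _ => s i) 0 (of fun _ _ => c))

theorem det_MM {k : ℕ} (c : K) (A : Matrix (Fin k) (Fin k) K) (r s : Fin k → K) (z : K) :
    (MM c A r s z).det = c * (A.det * c) := by
  unfold MM
  rw [det_fromBlocks_zero₂₁, det_fromBlocks_zero₂₁,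
    det_unique (of fun (_ : Unit) (_ : Unit) => c)]
  rfl

abbrev ia (k : ℕ) : II k := Sum.inl ()
abbrev ib (k : ℕ) : II k := Sum.inr (Sum.inr ())

theorem MM_comm {k : ℕ} (c : K) (A : Matrix (Fin k) (Fin k) K) (r s : Fin k → K) (z : K) :
    Commute (single (ia k) (ib k) (1 : K)) (MM c A r s z) := by
  rw [commute_single_iff]
  refine ⟨?_, ?_, ?_⟩
  · rintro (_ | _ | _) h
    · rfl
    · rfl
    · exact absurd rfl h
  · rintro (_ | _ | _) h
    · exact absurd rfl h
    · rfl
    · rfl
  · rfl

theorem eq_MM {k : ℕ} (g : Matrix (II k) (II k) K) (h : Commute (single (ia k) (ib k) (1 : K)) g) :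
    g = MM (g (ia k) (ia k)) (of fun i j => g (Sum.inr (Sum.inl i)) (Sum.inr (Sum.inl j)))
      (fun j => g (ia k) (Sum.inr (Sum.inl j))) (fun i => g (Sum.inr (Sum.inl i)) (ib k))
      (g (ia k) (ib k)) := by
  rw [commute_single_iff] at h
  obtain ⟨h1, h2, h3⟩ := h
  ext p r
  rcases p with _ | p | _ <;> rcases r with _ | r | _
  · rfl
  · rfl
  · rfl
  · exact h2 _ (by simp)
  · rfl
  · rfl
  · exact h2 _ (by simp)
  · exact h1 _ (by simp)
  · exact h3.symm

theorem card_std [Fintype K] (k : ℕ) :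
    Nat.card {g : GL (II k) K // Commute (single (ia k) (ib k) (1 : K)) (g : Matrix (II k) (II k) K)} =
      (Fintype.card K - 1) * Nat.card (GL (Fin k) K) * Fintype.card K ^ k * Fintype.card K ^ k *
        Fintype.card K := by
  classical
  have hP : Nat.card (Kˣ × GL (Fin k) K × (Fin k → K) × (Fin k → K) × K) =
      (Fintype.card K - 1) * Nat.card (GL (Fin k) K) * Fintype.card K ^ k * Fintype.card K ^ k *
        Fintype.card K := by
    rw [Nat.card_prod, Nat.card_prod, Nat.card_prod, Nat.card_prod, Nat.card_eq_fintype_card (α := Kˣ),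
      Fintype.card_units, Nat.card_eq_fintype_card (α := Fin k → K), Fintype.card_fun,
      Fintype.card_fin, Nat.card_eq_fintype_card (α := K)]
    ring
  rw [← hP]
  symm
  apply Nat.card_congr
  have hdet : ∀ p : Kˣ × GL (Fin k) K × (Fin k → K) × (Fin k → K) × K,
      (MM (p.1 : K) (p.2.1 : Matrix (Fin k) (Fin k) K) p.2.2.1 p.2.2.2.1 p.2.2.2.2).det ≠ 0 := by
    intro p
    rw [det_MM]
    have h1 : (p.1 : K) ≠ 0 := p.1.ne_zero
    have h2 : (p.2.1 : Matrix (Fin k) (Fin k) K).det ≠ 0 :=
      ((Matrix.isUnit_iff_isUnit_det _).mp p.2.1.isUnit).ne_zero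
    exact mul_ne_zero h1 (mul_ne_zero h2 h1)
  refine Equiv.ofBijective (fun p => ⟨GeneralLinearGroup.mkOfDetNeZero _ (hdet p), MM_comm _ _ _ _ _⟩)
    ⟨?_, ?_⟩
  · rintro ⟨c, A, r, s, z⟩ ⟨c', A', r', s', z'⟩ h
    have h1 : MM (c : K) (A : Matrix (Fin k) (Fin k) K) r s z =
        MM (c' : K) (A' : Matrix (Fin k) (Fin k) K) r' s' z' :=
      congrArg (fun g => ((g.1 : GL (II k) K) : Matrix (II k) (II k) K)) h
    have hc : c = c' := Units.ext (congrFun (congrFun h1 (ia k)) (ia k))
    have hA : A = A' := by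
      apply Units.ext
      ext i j
      exact congrFun (congrFun h1 (Sum.inr (Sum.inl i))) (Sum.inr (Sum.inl j))
    have hr : r = r' := funext fun j => congrFun (congrFun h1 (ia k)) (Sum.inr (Sum.inl j))
    have hs : s = s' := funext fun i => congrFun (congrFun h1 (Sum.inr (Sum.inl i))) (ib k)
    have hz : z = z' := congrFun (congrFun h1 (ia k)) (ib k)
    rw [hc, hA, hr, hs, hz]
  · rintro ⟨g, hg⟩
    have h1 := eq_MM (g : Matrix (II k) (II k) K) hg
    have h2 : (g : Matrix (II k) (II k) K).det ≠ 0 :=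
      ((Matrix.isUnit_iff_isUnit_det _).mp g.isUnit).ne_zero
    rw [h1, det_MM] at h2
    have hc : (g : Matrix (II k) (II k) K) (ia k) (ia k) ≠ 0 := left_ne_zero_of_mul h2
    have hA : (of fun i j => (g : Matrix (II k) (II k) K) (Sum.inr (Sum.inl i)) (Sum.inr (Sum.inl j)) :
        Matrix (Fin k) (Fin k) K).det ≠ 0 := left_ne_zero_of_mul (right_ne_zero_of_mul h2)
    refine ⟨⟨Units.mk0 _ hc, GeneralLinearGroup.mkOfDetNeZero _ hA,
      (fun j => (g : Matrix (II k) (II k) K) (ia k) (Sum.inr (Sum.inl j))),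
      (fun i => (g : Matrix (II k) (II k) K) (Sum.inr (Sum.inl i)) (ib k)),
      (g : Matrix (II k) (II k) K) (ia k) (ib k)⟩, ?_⟩
    apply Subtype.ext
    apply Units.ext
    exact h1.symm

theorem card_comm_congr {A B : Type*} [Monoid A] [Monoid B] (E : A ≃* B) (a : A) :
    Nat.card {g : Aˣ // Commute (g : A) a} = Nat.card {g : Bˣ // Commute (g : B) (E a)} := by
  apply Nat.card_congr
  refine Equiv.subtypeEquiv (Units.mapEquiv E).toEquiv (fun g => ?_)
  change _ ↔ Commute (E (g : A)) (E a)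
  constructor
  · intro h; exact h.map E
  · intro h
    have := h.map E.symm
    simpa using this

theorem exists_conj' {V V' : Type*} [AddCommGroup V] [Module K V] [AddCommGroup V'] [Module K V']
    [FiniteDimensional K V] [FiniteDimensional K V'] (hVV : finrank K V = finrank K V')
    (N : End K V) (N' : End K V')
    (hr : finrank K (LinearMap.range N) = 1) (hsq : N * N = 0)
    (hr' : finrank K (LinearMap.range N') = 1) (hsq' : N' * N' = 0) :
    ∃ g : V ≃ₗ[K] V', ∀ y, g (N y) = N' (g y) := by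
  obtain ⟨x, hx, hspan, hc⟩ := rank_one_data N hr
  obtain ⟨x', hx', hspan', hc'⟩ := rank_one_data N' hr'
  have hx0 : x ≠ 0 := by rintro rfl; exact hx (map_zero _)
  have hx0' : x' ≠ 0 := by rintro rfl; exact hx' (map_zero _)
  have hv : N x ∈ LinearMap.ker N := by
    rw [LinearMap.mem_ker, ← Module.End.mul_apply, hsq]; rfl
  have hv' : N' x' ∈ LinearMap.ker N' := by
    rw [LinearMap.mem_ker, ← Module.End.mul_apply, hsq']; rfl
  have hfin : finrank K (LinearMap.ker N) = finrank K (LinearMap.ker N') := by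
    have a1 := LinearMap.finrank_range_add_finrank_ker N
    have a2 := LinearMap.finrank_range_add_finrank_ker N'
    omega
  obtain ⟨h, hh⟩ := exists_equiv_vec hfin (⟨N x, hv⟩ : LinearMap.ker N) (⟨N' x', hv'⟩ : LinearMap.ker N')
    (by intro h; exact hx (congrArg Subtype.val h)) (by intro h; exact hx' (congrArg Subtype.val h))
  obtain ⟨e₂, he₂⟩ := exists_span_equiv (K := K) x x' hx0 hx0'
  obtain ⟨g, hg1, hg2⟩ := glue _ _ _ _ hc hc' h e₂
  refine ⟨g, ?_⟩
  have gx : g x = x' := by
    have := hg2 ⟨x, Submodule.mem_span_singleton_self x⟩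
    rw [he₂] at this
    exact this
  have gv : g (N x) = N' x' := by
    have := hg1 ⟨N x, hv⟩
    rw [hh] at this
    exact this
  intro y
  obtain ⟨a, ha⟩ := hspan y
  have hy : y - a • x ∈ LinearMap.ker N := by
    rw [LinearMap.mem_ker, map_sub, map_smul, ha, sub_self]
  have h1 : N' (g (y - a • x)) = 0 := by
    have := hg1 ⟨y - a • x, hy⟩
    simp only at this
    rw [this]
    exact (h ⟨y - a • x, hy⟩).2
  rw [map_sub, map_sub, map_smul, map_smul, gx, sub_eq_zero] at h1
  rw [h1, ha, map_smul, gv]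

theorem rank_single {n : Type*} [Fintype n] [DecidableEq n] (i j : n) :
    finrank K (LinearMap.range (Matrix.toLinAlgEquiv' (single i j (1 : K)))) = 1 := by
  rw [finrank_eq_one_iff_of_nonzero' (⟨Pi.single i 1, Pi.single j 1, by
    rw [Matrix.toLinAlgEquiv'_apply, single_mulVec_eq]; simp⟩ :
      LinearMap.range (Matrix.toLinAlgEquiv' (single i j (1 : K))))]
  · rintro ⟨_, x, rfl⟩
    refine ⟨x j, ?_⟩
    apply Subtype.ext
    change x j • (Pi.single i 1 : n → K) = Matrix.toLinAlgEquiv' (single i j (1 : K)) x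
    rw [Matrix.toLinAlgEquiv'_apply, single_mulVec_eq, one_mul]
  · intro h
    have := congrFun (congrArg Subtype.val h) i
    simp at this

theorem card_centralizer_transvection [Fintype K] (k : ℕ) (t : GL (Fin (k + 2)) K)
    (hr : ((t : Matrix (Fin (k + 2)) (Fin (k + 2)) K) - 1).rank = 1)
    (hsq : ((t : Matrix (Fin (k + 2)) (Fin (k + 2)) K) - 1) * ((t : Matrix (Fin (k + 2)) (Fin (k + 2)) K) - 1) = 0) :
    Nat.card ↥(Subgroup.centralizer ({t} : Set (GL (Fin (k + 2)) K))) =
      (Fintype.card K - 1) * Nat.card (GL (Fin k) K) * Fintype.card K ^ k * Fintype.card K ^ k *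
        Fintype.card K := by
  have s1 : Nat.card ↥(Subgroup.centralizer ({t} : Set (GL (Fin (k + 2)) K))) =
      Nat.card {g : (Matrix (Fin (k + 2)) (Fin (k + 2)) K)ˣ //
        Commute (g : Matrix (Fin (k + 2)) (Fin (k + 2)) K) ((t : Matrix (Fin (k + 2)) (Fin (k + 2)) K) - 1)} := by
    apply Nat.card_congr
    refine Equiv.subtypeEquivRight (fun g => ?_)
    rw [Subgroup.mem_centralizer_singleton_iff]
    constructor
    · intro h
      exact Commute.sub_right (congrArg Units.val h) (Commute.one_right _)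
    · intro h
      have h3 : Commute (g : Matrix (Fin (k + 2)) (Fin (k + 2)) K) (t : Matrix (Fin (k + 2)) (Fin (k + 2)) K) := by
        have := h.add_right (Commute.one_right _)
        simpa using this
      exact Units.ext h3.eq
  let E1 : Matrix (Fin (k + 2)) (Fin (k + 2)) K ≃ₐ[K] End K (Fin (k + 2) → K) := Matrix.toLinAlgEquiv'
  let E3 : Matrix (II k) (II k) K ≃ₐ[K] End K (II k → K) := Matrix.toLinAlgEquiv'
  set N : End K (Fin (k + 2) → K) := E1 ((t : Matrix (Fin (k + 2)) (Fin (k + 2)) K) - 1) with hN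
  set N0 : End K (II k → K) := E3 (single (ia k) (ib k) (1 : K)) with hN0
  have hNr : finrank K (LinearMap.range N) = 1 := hr
  have hNsq : N * N = 0 := by rw [hN, ← map_mul, hsq, map_zero]
  have hN0r : finrank K (LinearMap.range N0) = 1 := rank_single _ _
  have hN0sq : N0 * N0 = 0 := by
    rw [hN0, ← map_mul, single_mul_single_of_ne _ _ _ _ (by simp), map_zero]
  have hVV : finrank K (Fin (k + 2) → K) = finrank K (II k → K) := by
    simp; omega
  obtain ⟨φ, hφ⟩ := exists_conj' hVV N N0 hNr hNsq hN0r hN0sq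
  have s2 := card_comm_congr E1.toMulEquiv ((t : Matrix (Fin (k + 2)) (Fin (k + 2)) K) - 1)
  have s3 := card_comm_congr (φ.conjAlgEquiv K).toMulEquiv N
  have hE2 : (φ.conjAlgEquiv K).toMulEquiv N = N0 := by
    change φ.conjAlgEquiv K N = N0
    rw [LinearEquiv.conjAlgEquiv_apply]
    apply LinearMap.ext
    intro y
    simp only [LinearMap.comp_apply, LinearEquiv.coe_coe]
    rw [hφ, LinearEquiv.apply_symm_apply]
  rw [hE2] at s3
  have s4 := card_comm_congr E3.symm.toMulEquiv N0
  have hE3 : E3.symm.toMulEquiv N0 = single (ia k) (ib k) (1 : K) := by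
    change E3.symm (E3 _) = _
    rw [AlgEquiv.symm_apply_apply]
  rw [hE3] at s4
  have s5 : Nat.card {g : (Matrix (II k) (II k) K)ˣ // Commute (g : Matrix (II k) (II k) K) (single (ia k) (ib k) (1 : K))} =
      Nat.card {g : GL (II k) K // Commute (single (ia k) (ib k) (1 : K)) (g : Matrix (II k) (II k) K)} :=
    Nat.card_congr (Equiv.subtypeEquivRight (fun g => ⟨Commute.symm, Commute.symm⟩))
  rw [s1, s2]
  change Nat.card {g : (End K (Fin (k + 2) → K))ˣ // Commute (g : End K (Fin (k + 2) → K)) N} = _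
  rw [s3, s4, s5, card_std]

end Cfsg.Agent.Lib.Helper48TransvCount
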