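import Mathlib

set_option autoImplicit false

namespace Cfsg.Agent.Lib.Helper48TwoPart

theorem val_two_pow_mul_odd (b m : ℕ) (hm : Odd m) : padicValNat 2 (2 ^ b * m) = b := by
  have hm0 : m ≠ 0 := by rintro rfl; simp at hm
  rw [padicValNat.mul (pow_ne_zero _ two_ne_zero) hm0, padicValNat.prime_pow,
    padicValNat.eq_zero_of_not_dvd (by rw [← even_iff_two_dvd, Nat.not_even_iff_odd]; exact hm),
    add_zero]

/-- an integer dividing `2N` but not `N` has larger 2-part than `N` -/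
theorem two_pow_dvd (o N : ℕ) (hN : N ≠ 0) (h1 : o ∣ 2 * N) (h2 : ¬ o ∣ N) :
    2 ^ (padicValNat 2 N + 1) ∣ o := by
  obtain ⟨b, N', hN', rfl⟩ := Nat.exists_eq_two_pow_mul_odd hN
  have ho : o ≠ 0 := by
    rintro rfl
    rw [zero_dvd_iff] at h1
    omega
  obtain ⟨s, o', ho', rfl⟩ := Nat.exists_eq_two_pow_mul_odd ho
  rw [val_two_pow_mul_odd b N' hN']
  have h3 : o' ∣ N' := by
    have h4 : o' ∣ 2 ^ (b + 1) * N' := by
      refine (Dvd.intro_left _ rfl).trans (h1.trans ?_)
      rw [pow_succ]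
      exact ⟨1, by ring⟩
    exact Nat.Coprime.dvd_of_dvd_mul_left (Nat.Coprime.pow_right _ ho'.coprime_two_right) h4
  by_contra hcon
  apply h2
  have hs : s ≤ b := by
    by_contra hsb
    exact hcon (Dvd.dvd.mul_right (pow_dvd_pow 2 (by omega)) _)
  exact Nat.mul_dvd_mul (pow_dvd_pow 2 hs) h3

section field
variable {F : Type*} [Field F] [Fintype F] {q : ℕ}

theorem neg_one_ne_one (hF : Fintype.card F = q) (hq : Odd q) : (-1 : F) ≠ 1 := by
  have h2 : ringChar F ≠ 2 := by
    intro h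
    have := FiniteField.even_card_of_char_two h
    rw [hF] at this
    exact (Nat.not_even_iff_odd.2 hq) (Nat.even_iff.2 this)
  exact Ring.neg_one_ne_one_of_char_ne_two h2

/-- when `-1` is an `n`-th power -/
theorem exists_pow_eq_neg_one_iff (hF : Fintype.card F = q) (hq : Odd q) (n : ℕ) (hn : 1 ≤ n) :
    (∃ c : F, c ^ n = -1) ↔ padicValNat 2 n < padicValNat 2 (q - 1) := by
  have hne := neg_one_ne_one hF hq
  have hq1 : q - 1 ≠ 0 := by
    have : 1 < Fintype.card F := Fintype.one_lt_card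
    omega
  constructor
  · rintro ⟨c, hc⟩
    have hc0 : c ≠ 0 := by
      rintro rfl
      rw [zero_pow (by omega)] at hc
      exact neg_ne_zero.2 one_ne_zero hc.symm
    have h1 : orderOf c ∣ 2 * n := by
      apply orderOf_dvd_of_pow_eq_one
      rw [mul_comm, pow_mul, hc, neg_one_sq]
    have h2 : ¬ orderOf c ∣ n := by
      intro h
      rw [orderOf_dvd_iff_pow_eq_one, hc] at h
      exact hne h
    have h3 := two_pow_dvd _ n (by omega) h1 h2
    have h4 : orderOf c ∣ q - 1 := by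
      apply orderOf_dvd_of_pow_eq_one
      rw [← hF]
      exact FiniteField.pow_card_sub_one_eq_one c hc0
    exact (padicValNat_dvd_iff_le hq1).1 (h3.trans h4)
  · intro h
    obtain ⟨b, n', hn', rfl⟩ := Nat.exists_eq_two_pow_mul_odd (show n ≠ 0 by omega)
    rw [val_two_pow_mul_odd b n' hn'] at h
    have h1 : 2 ^ (b + 1) ∣ q - 1 := (padicValNat_dvd_iff_le hq1).2 h
    obtain ⟨γ, hγ⟩ := IsCyclic.exists_generator (α := Fˣ)
    have hoγ : orderOf γ = q - 1 := by
      rw [orderOf_eq_card_of_forall_mem_zpowers hγ, Nat.card_units, Nat.card_eq_fintype_card, hF]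
    obtain ⟨t, ht⟩ := h1
    set c₀ : Fˣ := γ ^ t with hc₀
    have h2 : ((c₀ ^ 2 ^ b : Fˣ) : F) = -1 := by
      have h3 : ((c₀ ^ 2 ^ b : Fˣ) : F) * ((c₀ ^ 2 ^ b : Fˣ) : F) = 1 := by
        rw [← Units.val_mul, ← pow_add, ← two_mul, ← pow_succ', hc₀, ← pow_mul, mul_comm, ← ht,
          ← hoγ, pow_orderOf_eq_one, Units.val_one]
      rcases mul_self_eq_one_iff.1 h3 with h4 | h4
      · exfalso
        have h5 : c₀ ^ 2 ^ b = 1 := Units.ext h4
        rw [hc₀, ← pow_mul, ← orderOf_dvd_iff_pow_eq_one, hoγ, ht, pow_succ] at h5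
        have ht0 : 0 < t * 2 ^ b := by
          rcases Nat.eq_zero_or_pos t with rfl | h6
          · omega
          · positivity
        have := Nat.le_of_dvd ht0 h5
        nlinarith
      · exact h4
    refine ⟨(c₀ : F), ?_⟩
    rw [pow_mul, ← Units.val_pow_eq_pow_val, h2, hn'.neg_one_pow]

end field

end Cfsg.Agent.Lib.Helper48TwoPart
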