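import Mathlib
import Cfsg.Agent.Lib.Helper48GUCentD

set_option autoImplicit false

namespace Cfsg.Agent.Lib.Helper48UParA

open Matrix Cfsg.Agent.Lib.Helper48GUCentA Cfsg.Agent.Lib.Helper48GUCentD
  Cfsg.Agent.Lib.Helper48Wall Cfsg.Agent.Lib.Helper48Norm

section sqrt
variable {K : Type*} [Field K] [Finite K] {A : Type*} [Ring A] [Algebra K A] [Finite A]
  (φ : K →+* K) (hφ : ∀ a, φ (φ a) = a) (ω : K) (hω : φ ω ≠ ω)
  (st : A →+ A) (hmul : ∀ a b, st (a * b) = st b * st a) (hone : st 1 = 1)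
  (hsmul : ∀ (c : K) (a : A), st (c • a) = φ c • st a)

include hφ hω hmul hone hsmul in
/-- a Hermitian unit is a norm of a polynomial in itself -/
theorem exists_herm_sqrt_poly (H H' : A) (hHH' : H * H' = 1) (hH'H : H' * H = 1) (hst : st H = H) :
    ∃ (Z Z' : A) (p : Polynomial K), Z * Z' = 1 ∧ Z' * Z = 1 ∧ st Z * Z = H ∧
      Z = Polynomial.aeval H p := by
  let Hu : Aˣ := ⟨H, H', hHH', hH'H⟩
  set k := orderOf Hu with hk
  have hk0 : k ≠ 0 := (orderOf_pos Hu).ne'
  have hHk : H ^ k = 1 := by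
    have := congrArg Units.val (pow_orderOf_eq_one Hu)
    rwa [Units.val_pow_eq_pow_val, Units.val_one] at this
  have _ : Finite (CC K k) := finite_CC K k hk0
  have hσ2 : ∀ r, sgm K k φ 1 (sgm K k φ 1 r) = r := sgm_sgm K k φ hφ 1 (by rw [mul_one, pow_one])
  obtain ⟨z, hz⟩ := exists_norm (sgm K k φ 1) hσ2 (AdjoinRoot.of _ ω) (isUnit_omega K k φ 1 ω hω)
    (gg K k) (isUnit_gg K k hk0) (by rw [sgm_gg, pow_one])
  have hzu : IsUnit z := by
    have h1 : IsUnit (sgm K k φ 1 z * z) := by rw [hz]; exact isUnit_gg K k hk0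
    exact isUnit_of_mul_isUnit_right h1
  obtain ⟨z', hzz'⟩ := hzu.exists_right_inv
  obtain ⟨p, hp⟩ := AdjoinRoot.mk_surjective z
  refine ⟨Ev H hHk z, Ev H hHk z', p, ?_, ?_, ?_, ?_⟩
  · rw [← map_mul, hzz', map_one]
  · rw [← map_mul, mul_comm, hzz', map_one]
  · rw [st_Ev φ st hmul hone hsmul H hHk 1 (by rw [hst, pow_one]), ← map_mul, hz, Ev_gg]
  · rw [← hp, Ev_mk]

end sqrt

section model

variable {K : Type*} [Field K] {k r : ℕ}

abbrev JJ (k r : ℕ) := Fin k ⊕ (Fin r ⊕ Fin k)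

def sg : JJ k r → JJ k r
  | Sum.inl i => Sum.inr (Sum.inr i)
  | Sum.inr (Sum.inl j) => Sum.inr (Sum.inl j)
  | Sum.inr (Sum.inr i) => Sum.inl i

theorem sg_sg (x : JJ k r) : sg (sg x) = x := by
  rcases x with i | j | i <;> rfl

theorem eq_sg_iff (x y : JJ k r) : y = sg x ↔ x = sg y := by
  constructor
  · rintro rfl; rw [sg_sg]
  · rintro rfl; rw [sg_sg]

def lv : JJ k r → ℕ
  | Sum.inl _ => 0
  | Sum.inr (Sum.inl _) => 1
  | Sum.inr (Sum.inr _) => 2

theorem lv_sg (x : JJ k r) : lv (sg x) = 2 - lv x := by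
  rcases x with i | j | i <;> rfl

theorem lv_le (x : JJ k r) : lv x ≤ 2 := by
  rcases x with i | j | i <;> simp [lv]

variable (K k r) in
def HH : Matrix (JJ k r) (JJ k r) K := Matrix.of fun x y => if y = sg x then 1 else 0

theorem HH_mul (M : Matrix (JJ k r) (JJ k r) K) (x y : JJ k r) :
    (HH K k r * M) x y = M (sg x) y := by
  rw [Matrix.mul_apply, Finset.sum_eq_single (sg x)]
  · simp [HH]
  · intro b _ hb
    simp [HH, hb]
  · intro h; exact absurd (Finset.mem_univ _) h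

theorem mul_HH (M : Matrix (JJ k r) (JJ k r) K) (x y : JJ k r) :
    (M * HH K k r) x y = M x (sg y) := by
  rw [Matrix.mul_apply, Finset.sum_eq_single (sg y)]
  · simp [HH, sg_sg]
  · intro b _ hb
    have : ¬ (y = sg b) := fun h => hb ((eq_sg_iff _ _).1 h)
    simp [HH, this]
  · intro h; exact absurd (Finset.mem_univ _) h

theorem HH_mul_HH : HH K k r * HH K k r = 1 := by
  ext x y
  rw [HH_mul, Matrix.one_apply]
  simp only [HH, Matrix.of_apply, sg_sg]
  by_cases h : x = y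
  · rw [if_pos h.symm, if_pos h]
  · rw [if_neg (fun h' => h h'.symm), if_neg h]

theorem cs_HH (φ : K →+* K) : cs φ (HH K k r) = HH K k r := by
  ext x y
  rw [cs_apply]
  simp only [HH, Matrix.of_apply]
  by_cases h : y = sg x
  · rw [if_pos h, if_pos ((eq_sg_iff _ _).1 h), map_one]
  · rw [if_neg h, if_neg (fun h' => h ((eq_sg_iff _ _).1 h')), map_zero]

variable (k r) in
def dag (φ : K →+* K) : Matrix (JJ k r) (JJ k r) K →+ Matrix (JJ k r) (JJ k r) K :=
  (AddMonoidHom.mulLeft (HH K k r)).comp ((AddMonoidHom.mulRight (HH K k r)).comp (cs φ))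

theorem dag_def (φ : K →+* K) (X : Matrix (JJ k r) (JJ k r) K) :
    dag k r φ X = HH K k r * (cs φ X * HH K k r) := rfl

theorem dag_apply (φ : K →+* K) (X : Matrix (JJ k r) (JJ k r) K) (x y : JJ k r) :
    dag k r φ X x y = φ (X (sg y) (sg x)) := by
  rw [dag_def, HH_mul, mul_HH, cs_apply]

theorem dag_mul (φ : K →+* K) (X Y : Matrix (JJ k r) (JJ k r) K) :
    dag k r φ (X * Y) = dag k r φ Y * dag k r φ X := by
  rw [dag_def, dag_def, dag_def, cs_mul]
  calc HH K k r * (cs φ Y * cs φ X * HH K k r)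
      = HH K k r * (cs φ Y * 1 * (cs φ X * HH K k r)) := by simp only [mul_assoc, one_mul]
    _ = _ := by rw [← HH_mul_HH]; simp only [mul_assoc]

theorem dag_one (φ : K →+* K) : dag k r φ 1 = 1 := by
  rw [dag_def, cs_one, one_mul, HH_mul_HH]

theorem dag_smul (φ : K →+* K) (c : K) (X : Matrix (JJ k r) (JJ k r) K) :
    dag k r φ (c • X) = φ c • dag k r φ X := by
  rw [dag_def, dag_def, cs_smul, smul_mul_assoc, mul_smul_comm]

theorem dag_dag (φ : K →+* K) (hφ : ∀ a, φ (φ a) = a) (X : Matrix (JJ k r) (JJ k r) K) :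
    dag k r φ (dag k r φ X) = X := by
  ext x y
  rw [dag_apply, dag_apply, hφ, sg_sg, sg_sg]

theorem dag_mul_eq_one_iff (φ : K →+* K) (X : Matrix (JJ k r) (JJ k r) K) :
    dag k r φ X * X = 1 ↔ cs φ X * HH K k r * X = HH K k r := by
  rw [dag_def]
  constructor
  · intro h
    calc cs φ X * HH K k r * X = (HH K k r * HH K k r) * (cs φ X * HH K k r) * X := by
          rw [HH_mul_HH, one_mul]
      _ = HH K k r * (HH K k r * (cs φ X * HH K k r) * X) := by simp only [mul_assoc]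
      _ = HH K k r := by rw [h, mul_one]
  · intro h
    calc HH K k r * (cs φ X * HH K k r) * X = HH K k r * (cs φ X * HH K k r * X) := by
          simp only [mul_assoc]
      _ = 1 := by rw [h, HH_mul_HH]

theorem dag_BT (φ : K →+* K) (X : Matrix (JJ k r) (JJ k r) K) (hX : X.BlockTriangular lv) :
    (dag k r φ X).BlockTriangular lv := by
  intro x y hxy
  rw [dag_apply, hX, map_zero]
  rw [lv_sg, lv_sg]
  have := lv_le x
  omega

/-- block upper triangular matrices -/
def mk (A : Matrix (Fin k) (Fin k) K) (D : Matrix (Fin r) (Fin r) K) (G : Matrix (Fin k) (Fin k) K)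
    (B : Matrix (Fin k) (Fin r) K) (C : Matrix (Fin k) (Fin k) K) (E : Matrix (Fin r) (Fin k) K) :
    Matrix (JJ k r) (JJ k r) K :=
  Matrix.fromBlocks A (Matrix.of fun i y => Sum.elim (B i) (C i) y) 0 (Matrix.fromBlocks D E 0 G)

theorem det_mk (A : Matrix (Fin k) (Fin k) K) (D : Matrix (Fin r) (Fin r) K)
    (G : Matrix (Fin k) (Fin k) K) (B : Matrix (Fin k) (Fin r) K) (C : Matrix (Fin k) (Fin k) K)
    (E : Matrix (Fin r) (Fin k) K) : (mk A D G B C E).det = A.det * (D.det * G.det) := by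
  unfold mk
  rw [Matrix.det_fromBlocks_zero₂₁, Matrix.det_fromBlocks_zero₂₁]

theorem BT_mk (A : Matrix (Fin k) (Fin k) K) (D : Matrix (Fin r) (Fin r) K)
    (G : Matrix (Fin k) (Fin k) K) (B : Matrix (Fin k) (Fin r) K) (C : Matrix (Fin k) (Fin k) K)
    (E : Matrix (Fin r) (Fin k) K) : (mk A D G B C E).BlockTriangular lv := by
  intro x y hxy
  rcases x with i | i | i <;> rcases y with j | j | j <;> simp [lv] at hxy <;> simp [mk]

def pA (X : Matrix (JJ k r) (JJ k r) K) : Matrix (Fin k) (Fin k) K :=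
  Matrix.of fun i j => X (Sum.inl i) (Sum.inl j)
def pD (X : Matrix (JJ k r) (JJ k r) K) : Matrix (Fin r) (Fin r) K :=
  Matrix.of fun i j => X (Sum.inr (Sum.inl i)) (Sum.inr (Sum.inl j))
def pG (X : Matrix (JJ k r) (JJ k r) K) : Matrix (Fin k) (Fin k) K :=
  Matrix.of fun i j => X (Sum.inr (Sum.inr i)) (Sum.inr (Sum.inr j))
def pB (X : Matrix (JJ k r) (JJ k r) K) : Matrix (Fin k) (Fin r) K :=
  Matrix.of fun i j => X (Sum.inl i) (Sum.inr (Sum.inl j))
def pC (X : Matrix (JJ k r) (JJ k r) K) : Matrix (Fin k) (Fin k) K :=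
  Matrix.of fun i j => X (Sum.inl i) (Sum.inr (Sum.inr j))
def pE (X : Matrix (JJ k r) (JJ k r) K) : Matrix (Fin r) (Fin k) K :=
  Matrix.of fun i j => X (Sum.inr (Sum.inl i)) (Sum.inr (Sum.inr j))

theorem mk_p (X : Matrix (JJ k r) (JJ k r) K) (hX : X.BlockTriangular lv) :
    mk (pA X) (pD X) (pG X) (pB X) (pC X) (pE X) = X := by
  ext x y
  rcases x with i | i | i <;> rcases y with j | j | j <;>
    first
    | rfl
    | exact (hX (by simp [lv])).symm

end model

end Cfsg.Agent.Lib.Helper48UParA
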