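import Mathlib
import Cfsg.Agent.Lib.Helper48UParA

set_option autoImplicit false

namespace Cfsg.Agent.Lib.Helper48UParB

open Matrix Cfsg.Agent.Lib.Helper48GUCentA Cfsg.Agent.Lib.Helper48GUCentD
  Cfsg.Agent.Lib.Helper48UParA

variable {K : Type*} [Field K] {k r : ℕ}

theorem det_ne_of_unit (X : (Matrix (JJ k r) (JJ k r) K)ˣ) (hX : X.1.BlockTriangular lv) :
    (pA X.1).det ≠ 0 ∧ (pD X.1).det ≠ 0 ∧ (pG X.1).det ≠ 0 := by
  have h1 : X.1.det ≠ 0 := ((Matrix.isUnit_iff_isUnit_det X.1).1 X.isUnit).ne_zero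
  rw [← mk_p X.1 hX, det_mk] at h1
  exact ⟨left_ne_zero_of_mul h1, left_ne_zero_of_mul (right_ne_zero_of_mul h1),
    right_ne_zero_of_mul (right_ne_zero_of_mul h1)⟩

def equivBT : {X : (Matrix (JJ k r) (JJ k r) K)ˣ // X.1.BlockTriangular lv}
    ≃ {A : Matrix (Fin k) (Fin k) K // A.det ≠ 0} × {D : Matrix (Fin r) (Fin r) K // D.det ≠ 0} ×
      {G : Matrix (Fin k) (Fin k) K // G.det ≠ 0} ×
      (Matrix (Fin k) (Fin r) K × Matrix (Fin k) (Fin k) K × Matrix (Fin r) (Fin k) K) where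
  toFun X := (⟨pA X.1.1, (det_ne_of_unit X.1 X.2).1⟩, ⟨pD X.1.1, (det_ne_of_unit X.1 X.2).2.1⟩,
    ⟨pG X.1.1, (det_ne_of_unit X.1 X.2).2.2⟩, (pB X.1.1, pC X.1.1, pE X.1.1))
  invFun t := ⟨Matrix.GeneralLinearGroup.mkOfDetNeZero
      (mk t.1.1 t.2.1.1 t.2.2.1.1 t.2.2.2.1 t.2.2.2.2.1 t.2.2.2.2.2)
      (by rw [det_mk]; exact mul_ne_zero t.1.2 (mul_ne_zero t.2.1.2 t.2.2.1.2)), BT_mk _ _ _ _ _ _⟩
  left_inv X := by
    apply Subtype.ext
    apply Units.ext
    exact mk_p X.1.1 X.2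
  right_inv t := rfl

theorem card_mat [Fintype K] (m n : ℕ) :
    Nat.card (Matrix (Fin m) (Fin n) K) = Fintype.card K ^ (m * n) := by
  show Nat.card (Fin m → Fin n → K) = _
  rw [Nat.card_fun, Nat.card_fun, Nat.card_eq_fintype_card, Nat.card_eq_fintype_card,
    Nat.card_eq_fintype_card, Fintype.card_fin, Fintype.card_fin, ← pow_mul, mul_comm]

theorem card_BT [Fintype K] :
    Nat.card {X : (Matrix (JJ k r) (JJ k r) K)ˣ // X.1.BlockTriangular lv}
      = Nat.card {A : Matrix (Fin k) (Fin k) K // A.det ≠ 0} *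
        (Nat.card {D : Matrix (Fin r) (Fin r) K // D.det ≠ 0} *
        (Nat.card {A : Matrix (Fin k) (Fin k) K // A.det ≠ 0} *
        (Fintype.card K ^ (k * r) * (Fintype.card K ^ (k * k) * Fintype.card K ^ (r * k))))) := by
  rw [Nat.card_congr equivBT, Nat.card_prod, Nat.card_prod, Nat.card_prod, Nat.card_prod,
    Nat.card_prod, card_mat, card_mat, card_mat]

/-- rectangular conjugate transpose -/
def csr (φ : K →+* K) {m n : ℕ} (B : Matrix (Fin m) (Fin n) K) : Matrix (Fin n) (Fin m) K :=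
  Matrix.of fun i j => φ (B j i)

theorem dag_mk (φ : K →+* K) (A : Matrix (Fin k) (Fin k) K) (D : Matrix (Fin r) (Fin r) K)
    (G : Matrix (Fin k) (Fin k) K) (B : Matrix (Fin k) (Fin r) K) (C : Matrix (Fin k) (Fin k) K)
    (E : Matrix (Fin r) (Fin k) K) :
    dag k r φ (mk A D G B C E) = mk (cs φ G) (cs φ D) (cs φ A) (csr φ E) (cs φ C) (csr φ B) := by
  ext x y
  rw [dag_apply]
  rcases x with i | i | i <;> rcases y with j | j | j <;>
    first
    | rfl
    | exact map_zero φ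

theorem det_cs (φ : K →+* K) {m : ℕ} (A : Matrix (Fin m) (Fin m) K) : (cs φ A).det = φ A.det := by
  rw [cs_def, Matrix.det_transpose, RingHom.map_det]
  rfl

def equivHerm (φ : K →+* K) (hφ : ∀ a, φ (φ a) = a) :
    {Y : (Matrix (JJ k r) (JJ k r) K)ˣ // Y.1.BlockTriangular lv ∧ dag k r φ Y.1 = Y.1}
    ≃ {A : Matrix (Fin k) (Fin k) K // A.det ≠ 0} ×
      {D : {D : Matrix (Fin r) (Fin r) K // D.det ≠ 0} // cs φ D.1 = D.1} ×
      Matrix (Fin k) (Fin r) K × {C : Matrix (Fin k) (Fin k) K // cs φ C = C} where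
  toFun Y := (⟨pA Y.1.1, (det_ne_of_unit Y.1 Y.2.1).1⟩,
    ⟨⟨pD Y.1.1, (det_ne_of_unit Y.1 Y.2.1).2.1⟩, by
      ext i j
      have := congrFun (congrFun Y.2.2 (Sum.inr (Sum.inl i))) (Sum.inr (Sum.inl j))
      rw [dag_apply] at this
      exact this⟩, pB Y.1.1,
    ⟨pC Y.1.1, by
      ext i j
      have := congrFun (congrFun Y.2.2 (Sum.inl i)) (Sum.inr (Sum.inr j))
      rw [dag_apply] at this
      exact this⟩)
  invFun t := ⟨Matrix.GeneralLinearGroup.mkOfDetNeZero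
      (mk t.1.1 t.2.1.1.1 (cs φ t.1.1) t.2.2.1 t.2.2.2.1 (csr φ t.2.2.1))
      (by
        rw [det_mk, det_cs]
        exact mul_ne_zero t.1.2 (mul_ne_zero t.2.1.1.2 ((map_ne_zero φ).2 t.1.2))),
      BT_mk _ _ _ _ _ _, by
        show dag k r φ (mk t.1.1 t.2.1.1.1 (cs φ t.1.1) t.2.2.1 t.2.2.2.1 (csr φ t.2.2.1)) = _
        rw [dag_mk, cs_cs φ hφ, t.2.1.2, t.2.2.2.2]
        congr 1
        ext i j
        simp [csr, hφ]⟩
  left_inv Y := by
    apply Subtype.ext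
    apply Units.ext
    show mk (pA Y.1.1) (pD Y.1.1) (cs φ (pA Y.1.1)) (pB Y.1.1) (pC Y.1.1) (csr φ (pB Y.1.1)) = Y.1.1
    have h1 : cs φ (pA Y.1.1) = pG Y.1.1 := by
      ext i j
      have := congrFun (congrFun Y.2.2 (Sum.inr (Sum.inr i))) (Sum.inr (Sum.inr j))
      rw [dag_apply] at this
      exact this
    have h2 : csr φ (pB Y.1.1) = pE Y.1.1 := by
      ext i j
      have := congrFun (congrFun Y.2.2 (Sum.inr (Sum.inl i))) (Sum.inr (Sum.inr j))
      rw [dag_apply] at this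
      exact this
    rw [h1, h2, mk_p _ Y.2.1]
  right_inv t := rfl

theorem card_herm_mat [Fintype K] {q : ℕ} (hK : Fintype.card K = q ^ 2) (φ : K →+* K)
    (hφ : ∀ a, φ (φ a) = a) (ω : K) (hω : φ ω ≠ ω) :
    Nat.card {C : Matrix (Fin k) (Fin k) K // cs φ C = C} = q ^ (k * k) := by
  have h := card_fix_sq φ hφ ω hω (cs (ι := Fin k) φ) (cs_smul φ) (cs_cs φ hφ)
  rw [card_mat, hK, ← pow_mul, mul_comm 2, pow_mul, sq] at h
  exact Nat.mul_self_inj.1 h

theorem card_herm [Fintype K] {q : ℕ} (hK : Fintype.card K = q ^ 2) (φ : K →+* K)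
    (hφ : ∀ a, φ (φ a) = a) (ω : K) (hω : φ ω ≠ ω) :
    Nat.card {Y : (Matrix (JJ k r) (JJ k r) K)ˣ // Y.1.BlockTriangular lv ∧ dag k r φ Y.1 = Y.1}
      = Nat.card {A : Matrix (Fin k) (Fin k) K // A.det ≠ 0} *
        (Nat.card {D : {D : Matrix (Fin r) (Fin r) K // D.det ≠ 0} // cs φ D.1 = D.1} *
        (Fintype.card K ^ (k * r) * q ^ (k * k))) := by
  rw [Nat.card_congr (equivHerm φ hφ), Nat.card_prod, Nat.card_prod, Nat.card_prod, card_mat,
    card_herm_mat hK φ hφ ω hω]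

/-- the order of the model parabolic -/
theorem card_par [Fintype K] {q : ℕ} (hK : Fintype.card K = q ^ 2) (φ : K →+* K)
    (hφq : ∀ x, φ x = x ^ q) (hφ : ∀ a, φ (φ a) = a) (ω : K) (hω : φ ω ≠ ω) :
    Nat.card {X : (Matrix (JJ k r) (JJ k r) K)ˣ // X.1.BlockTriangular lv ∧ dag k r φ X.1 * X.1 = 1}
      = q ^ (k * (k + 2 * r)) * Nat.card {A : Matrix (Fin k) (Fin k) K // A.det ≠ 0} *
        Nat.card (Cfsg.GU r K q) := by
  classical
  have hq : 0 < q := by
    rcases Nat.eq_zero_or_pos q with rfl | h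
    · rw [zero_pow (by norm_num)] at hK
      exact absurd hK Fintype.card_ne_zero
    · exact h
  have hsplit := card_units_split (A := Matrix (JJ k r) (JJ k r) K) (dag k r φ) (dag_mul φ)
    (dag_one φ) (dag_dag φ hφ) (fun X => X.BlockTriangular lv)
    (fun a b ha hb => ha.mul hb)
    (by
      intro X hX
      have : Invertible X.1 := X.invertible
      rw [Matrix.coe_units_inv]
      exact Matrix.blockTriangular_inv_of_blockTriangular hX)
    (fun a ha => dag_BT φ a ha)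
    (by
      rintro Y ⟨hY1, hY2⟩
      obtain ⟨Z, Z', p, h1, h2, h3, h4⟩ := exists_herm_sqrt_poly φ hφ ω hω (dag k r φ) (dag_mul φ)
        (dag_one φ) (dag_smul φ) Y.1 (Y⁻¹ : (Matrix (JJ k r) (JJ k r) K)ˣ).1
        (Units.mul_inv Y) (Units.inv_mul Y) hY2
      refine ⟨⟨Z, Z', h1, h2⟩, ?_, h3⟩
      show Z.BlockTriangular lv
      rw [h4, ← Matrix.mem_blockTriangularSubalgebra (R := K)]
      have h5 : Algebra.adjoin K {Y.1} ≤ Matrix.blockTriangularSubalgebra K K lv := by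
        rw [Algebra.adjoin_le_iff]
        intro x hx
        rw [Set.mem_singleton_iff] at hx
        rw [hx]
        exact hY1
      exact h5 (Polynomial.aeval_mem_adjoin_singleton K Y.1))
  rw [card_BT, card_herm hK φ hφ ω hω,
    card_gl_split (κ := Fin r) hK φ hφq hφ ω hω r (Fintype.card_fin r), hK] at hsplit
  set gA := Nat.card {A : Matrix (Fin k) (Fin k) K // A.det ≠ 0} with hgA
  set hD := Nat.card {D : {D : Matrix (Fin r) (Fin r) K // D.det ≠ 0} // cs φ D.1 = D.1} with hhD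
  have hgApos : 0 < gA := by
    have : Nonempty {A : Matrix (Fin k) (Fin k) K // A.det ≠ 0} :=
      ⟨⟨1, by rw [Matrix.det_one]; exact one_ne_zero⟩⟩
    exact Nat.card_pos
  have hhDpos : 0 < hD := by
    have : Nonempty {D : {D : Matrix (Fin r) (Fin r) K // D.det ≠ 0} // cs φ D.1 = D.1} :=
      ⟨⟨⟨1, by rw [Matrix.det_one]; exact one_ne_zero⟩, cs_one φ⟩⟩
    exact Nat.card_pos
  have hP : 0 < gA * (hD * ((q ^ 2) ^ (k * r) * q ^ (k * k))) := by positivity
  apply Nat.eq_of_mul_eq_mul_right hP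
  rw [← hsplit]
  have e1 : q ^ (k * (k + 2 * r)) = q ^ (k * k) * (q ^ 2) ^ (k * r) := by
    rw [← pow_mul, ← pow_add]; congr 1; ring
  have e2 : (q ^ 2) ^ (k * k) = q ^ (k * k) * q ^ (k * k) := by
    rw [← pow_mul, ← pow_add]; congr 1; ring
  have e3 : (q ^ 2) ^ (r * k) = (q ^ 2) ^ (k * r) := by rw [mul_comm]
  rw [e1, e2, e3]
  ring

end Cfsg.Agent.Lib.Helper48UParB
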