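import Mathlib
import Cfsg.Agent.Lib.Helper48UParB
import Cfsg.Agent.Lib.Helper17UWitt
import Cfsg.Agent.Lib.Helper17Stab

set_option autoImplicit false

namespace Cfsg.Agent.Lib.Helper48UParC

open Matrix Cfsg.Agent.Lib.Helper48GUCentA Cfsg.Agent.Lib.Helper48GUCentD
  Cfsg.Agent.Lib.Helper48UParA Cfsg.Agent.Lib.Helper48UParB Cfsg.Agent.Lib.Helper48WallU
  Cfsg.Agent.Lib.Helper17UWitt Cfsg.Agent.Lib.Helper17Stab Cfsg.Agent.Lib.Helper7GU

variable {F : Type*} [Field F] [Fintype F] {q : ℕ}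

theorem exists_model (hF : Fintype.card F = q ^ 2) (n k r : ℕ) (e : JJ k r ≃ Fin n)
    (W : Submodule F (Fin n → F)) (hWk : Module.finrank F W = k)
    (hW : ∀ u ∈ W, ∀ v ∈ W, Cfsg.hermForm n F q u v = 0)
    (φ : F →+* F) (hφq : ∀ x, φ x = x ^ q) (hφ2 : ∀ x, φ (φ x) = x) (ω : F) (hω : φ ω ≠ ω) :
    ∃ Ψ : (Matrix (JJ k r) (JJ k r) F)ˣ ≃* GL (Fin n) F,
      (∀ X, Ψ X ∈ Cfsg.GU n F q ↔ dag k r φ X.1 * X.1 = 1) ∧
      (∀ X, dag k r φ X.1 * X.1 = 1 →
        (Ψ X ∈ Cfsg.stabilizing (Units.coeHom (Matrix (Fin n) (Fin n) F)) (W : Set (Fin n → F))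
          ↔ X.1.BlockTriangular lv)) ∧
      (∀ X, (Ψ X).1.det = X.1.det) := by
  classical
  let HHu : (Matrix (JJ k r) (JJ k r) F)ˣ := ⟨HH F k r, HH F k r, HH_mul_HH, HH_mul_HH⟩
  obtain ⟨Z, hZ, -⟩ := exists_sqrt φ hφ2 ω hω HHu (cs_HH φ)
  have hZ' : cs φ Z.1 * Z.1 = HH F k r := hZ
  let RU : (Matrix (JJ k r) (JJ k r) F)ˣ ≃* GL (Fin n) F :=
    Units.mapEquiv (Matrix.reindexAlgEquiv F F e).toMulEquiv
  have hRU : ∀ X, (RU X).1 = Matrix.reindex e e X.1 := fun _ => rfl
  have hRmul : ∀ X Y : Matrix (JJ k r) (JJ k r) F,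
      Matrix.reindex e e X * Matrix.reindex e e Y = Matrix.reindex e e (X * Y) := by
    intro X Y
    exact (map_mul (Matrix.reindexAlgEquiv F F e) X Y).symm
  have hsth : ∀ X : Matrix (JJ k r) (JJ k r) F,
      sth φ (Matrix.reindex e e X) = Matrix.reindex e e (cs φ X) := fun X => cs_reindex φ e X
  have hmem : ∀ (Q : GL (Fin n) F), sth φ Q.1 * Q.1 = Matrix.reindex e e (HH F k r) →
      ∀ X : (Matrix (JJ k r) (JJ k r) F)ˣ,
      (Q * RU X * Q⁻¹ ∈ Cfsg.GU n F q ↔ dag k r φ X.1 * X.1 = 1) := by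
    intro Q hQ X
    rw [mem_GU_iff' hF φ hφq, dag_mul_eq_one_iff φ]
    have h1 : (Q * RU X * Q⁻¹ : GL (Fin n) F).1
        = Q.1 * Matrix.reindex e e X.1 * (Q⁻¹ : GL (Fin n) F).1 := rfl
    rw [h1, conj_unitary_iff (sth φ) (sth_mul φ) (sth_one φ) _ _ _ (Units.mul_inv Q)
      (Units.inv_mul Q), hQ, hsth, hRmul, hRmul]
    exact (Matrix.reindex e e).injective.eq_iff
  have hQ0 : sth φ (RU Z).1 * (RU Z).1 = Matrix.reindex e e (HH F k r) := by
    rw [hRU, hsth, hRmul, hZ']
  -- the two families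
  let s : Fin k → (Fin n → F) := fun i => Pi.single (e (Sum.inl i)) 1
  let y : Fin k → (Fin n → F) := fun i => (RU Z).1 *ᵥ s i
  set b := Module.finBasisOfFinrankEq F W hWk with hb
  let w : Fin k → (Fin n → F) := fun i => (b i : Fin n → F)
  have hwW : ∀ i, w i ∈ W := fun i => (b i).2
  have hwLI : LinearIndependent F w := b.linearIndependent.map' W.subtype (Submodule.ker_subtype W)
  have hspan : Submodule.span F (Set.range w) = W := by
    have h1 : Set.range w = W.subtype '' (Set.range b) := by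
      rw [← Set.range_comp]; rfl
    rw [h1, ← Submodule.map_span, b.span_eq, Submodule.map_subtype_top]
  have hsLI : LinearIndependent F s := by
    have h1 := (Pi.basisFun F (Fin n)).linearIndependent.comp (fun i : Fin k => e (Sum.inl i))
      (fun i j hij => Sum.inl_injective (e.injective hij))
    have h2 : s = (Pi.basisFun F (Fin n)) ∘ (fun i : Fin k => e (Sum.inl i)) := by
      funext i
      simp [s]
    rw [h2]; exact h1
  have hyLI : LinearIndependent F y := by
    apply hsLI.map' (Matrix.mulVecLin (RU Z).1)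
    rw [LinearMap.ker_eq_bot]
    exact Matrix.mulVec_injective_of_isUnit (RU Z).isUnit
  have hyy : ∀ i j, Cfsg.hermForm n F q (y i) (y j) = 0 := by
    intro i j
    have h1 : ∀ i, y i = fun t => (RU Z).1 t (e (Sum.inl i)) := by
      intro i
      funext t
      simp [y, s]
    rw [h1, h1, ← entry_eq]
    have h2 : ((RU Z).1)ᵀ * ((RU Z).1).map (fun x => x ^ q) = (sth φ (RU Z).1 * (RU Z).1)ᵀ := by
      rw [Matrix.transpose_mul, sth_eq φ hφq, Matrix.transpose_transpose]
    rw [h2, hQ0, Matrix.transpose_apply]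
    simp [HH, sg]
  obtain ⟨g, hg, hgy⟩ := witt_fam_U hF n y w hyLI hwLI (by
    intro i j
    rw [hyy, hW _ (hwW i) _ (hwW j)])
  set Q : GL (Fin n) F := g * RU Z with hQdef
  have hQ : sth φ Q.1 * Q.1 = Matrix.reindex e e (HH F k r) := by
    have h1 : Q.1 = g.1 * (RU Z).1 := rfl
    rw [mem_GU_iff' hF φ hφq] at hg
    rw [h1, sth_mul]
    calc sth φ (RU Z).1 * sth φ g.1 * (g.1 * (RU Z).1)
        = sth φ (RU Z).1 * (sth φ g.1 * g.1) * (RU Z).1 := by simp only [mul_assoc]
      _ = _ := by rw [hg, mul_one, hQ0]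
  have hQs : ∀ i, Q.1 *ᵥ s i = w i := by
    intro i
    have h1 : Q.1 = g.1 * (RU Z).1 := rfl
    rw [h1, ← Matrix.mulVec_mulVec]
    exact hgy i
  have hQis : ∀ i, (Q⁻¹ : GL (Fin n) F).1 *ᵥ w i = s i := by
    intro i
    rw [← hQs i, Matrix.mulVec_mulVec, Units.inv_mul, Matrix.one_mulVec]
  have hs0 : ∀ i x, lv x ≠ 0 → s i (e x) = 0 := by
    intro i x hx
    have : e x ≠ e (Sum.inl i) := by
      intro h
      rw [e.injective h] at hx
      exact hx rfl
    simp [s, this]
  have hWiff : ∀ v, v ∈ W ↔ ∀ x, lv x ≠ 0 → ((Q⁻¹ : GL (Fin n) F).1 *ᵥ v) (e x) = 0 := by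
    intro v
    constructor
    · intro hv x hx
      rw [← hspan] at hv
      induction hv using Submodule.span_induction with
      | mem v hv =>
        obtain ⟨i, rfl⟩ := hv
        rw [hQis]; exact hs0 i x hx
      | zero => rw [Matrix.mulVec_zero]; rfl
      | add a c _ _ ha hc => rw [Matrix.mulVec_add, Pi.add_apply, ha, hc, add_zero]
      | smul a c _ hc => rw [Matrix.mulVec_smul, Pi.smul_apply, hc, smul_zero]
    · intro hv
      set v₀ := (Q⁻¹ : GL (Fin n) F).1 *ᵥ v with hv₀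
      have h1 : v = Q.1 *ᵥ v₀ := by
        rw [hv₀, Matrix.mulVec_mulVec, Units.mul_inv, Matrix.one_mulVec]
      have h2 : v₀ = ∑ i, v₀ (e (Sum.inl i)) • s i := by
        funext t
        obtain ⟨x, rfl⟩ := e.surjective t
        rw [Finset.sum_apply]
        by_cases hx : lv x = 0
        · rcases x with j | j | j
          · rw [Finset.sum_eq_single j]
            · simp [s]
            · intro i _ hij
              have : e (Sum.inl j) ≠ e (Sum.inl i) := by
                intro h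
                exact hij (Sum.inl_injective (e.injective h)).symm
              simp [s, this]
            · intro h; exact absurd (Finset.mem_univ _) h
          · simp [lv] at hx
          · simp [lv] at hx
        · rw [hv x hx]
          symm
          apply Finset.sum_eq_zero
          intro i _
          rw [Pi.smul_apply, hs0 i x hx, smul_zero]
      rw [h1, h2, Matrix.mulVec_sum]
      apply Submodule.sum_mem
      intro i _
      rw [Matrix.mulVec_smul, hQs]
      exact W.smul_mem _ (hwW i)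
  let Ψ : (Matrix (JJ k r) (JJ k r) F)ˣ ≃* GL (Fin n) F := RU.trans (MulAut.conj Q)
  have hΨ : ∀ X, Ψ X = Q * RU X * Q⁻¹ := fun _ => rfl
  have hRmv : ∀ (X : Matrix (JJ k r) (JJ k r) F) (u : Fin n → F) (x : JJ k r),
      (Matrix.reindex e e X *ᵥ u) (e x) = ∑ z, X x z * u (e z) := by
    intro X u x
    rw [Matrix.mulVec, dotProduct, ← Equiv.sum_comp e]
    simp
  have hkey : ∀ (X : (Matrix (JJ k r) (JJ k r) F)ˣ) (v : Fin n → F),
      (Q⁻¹ : GL (Fin n) F).1 *ᵥ ((Ψ X).1 *ᵥ v)
        = Matrix.reindex e e X.1 *ᵥ ((Q⁻¹ : GL (Fin n) F).1 *ᵥ v) := by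
    intro X v
    rw [Matrix.mulVec_mulVec, Matrix.mulVec_mulVec, ← hRU, ← Units.val_mul, ← Units.val_mul, hΨ]
    congr 2
    group
  have hcol : ∀ X : (Matrix (JJ k r) (JJ k r) F)ˣ,
      Ψ X ∈ Cfsg.stabilizing (Units.coeHom (Matrix (Fin n) (Fin n) F)) (W : Set (Fin n → F)) →
      ∀ x i, lv x ≠ 0 → X.1 x (Sum.inl i) = 0 := by
    intro X hX x i hx
    rw [mem_stabilizing_iff] at hX
    have h1 := (hWiff _).1 (hX _ (hwW i)) x hx
    rw [Units.coeHom_apply, hkey, hQis, hRmv, Finset.sum_eq_single (Sum.inl i)] at h1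
    · simpa [s] using h1
    · intro z _ hz
      have : e z ≠ e (Sum.inl i) := fun h => hz (e.injective h)
      simp [s, this]
    · intro h; exact absurd (Finset.mem_univ _) h
  refine ⟨Ψ, fun X => hmem Q hQ X, ?_, ?_⟩
  · intro X hU
    constructor
    · intro hX x z hxz
      rcases z with i | j | i
      · have h0 : lv (Sum.inl i : JJ k r) = 0 := rfl
        rw [h0] at hxz
        exact hcol X hX x i (by omega)
      · rcases x with i' | i' | i'
        · simp [lv] at hxz
        · simp [lv] at hxz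
        · have h1 : Ψ X⁻¹ ∈ Cfsg.stabilizing (Units.coeHom (Matrix (Fin n) (Fin n) F))
              (W : Set (Fin n → F)) := by
            rw [map_inv]; exact Subgroup.inv_mem _ hX
          have h2 := hcol X⁻¹ h1 (Sum.inr (Sum.inl j)) i' (by simp [lv])
          rw [Units.inv_eq_of_mul_eq_one_left hU, dag_apply] at h2
          exact (map_eq_zero φ).1 h2
      · have := lv_le x
        have h0 : lv (Sum.inr (Sum.inr i) : JJ k r) = 2 := rfl
        rw [h0] at hxz
        omega
    · intro hX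
      rw [mem_stabilizing_iff]
      intro v hv
      rw [hWiff]
      intro x hx
      rw [Units.coeHom_apply, hkey, hRmv]
      apply Finset.sum_eq_zero
      intro z _
      by_cases hz : lv z = 0
      · rw [hX (by omega), zero_mul]
      · rw [(hWiff v).1 hv z hz, mul_zero]
  · intro X
    have h1 : (Ψ X).1 = Q.1 * Matrix.reindex e e X.1 * (Q⁻¹ : GL (Fin n) F).1 := rfl
    rw [h1, Matrix.det_units_conj, Matrix.det_reindex_self]

end Cfsg.Agent.Lib.Helper48UParC
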