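import Mathlib
import Cfsg.Agent.Lib.Helper48JordanClass

set_option autoImplicit false

namespace Cfsg.Agent.Lib.Helper48UnipOrder

open Matrix Cfsg.Agent.Lib.Helper48JordanClass

variable {F : Type*} [Field F] {n : ℕ}

theorem sub_one_pow_char (p : ℕ) [Fact p.Prime] [CharP F p] (X : Matrix (Fin n) (Fin n) F) (k : ℕ) :
    (X - 1) ^ (p ^ k) = X ^ (p ^ k) - 1 := by
  rcases Nat.eq_zero_or_pos n with rfl | hn
  · exact Subsingleton.elim _ _
  · have : Nonempty (Fin n) := ⟨⟨0, hn⟩⟩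
    rw [sub_pow_char_pow_of_commute p k (Commute.one_right X), one_pow]

theorem pow_eq_one_iff (p : ℕ) [Fact p.Prime] [CharP F p] (g : GL (Fin n) F) (k : ℕ) :
    g ^ (p ^ k) = 1 ↔ (g.1 - 1) ^ (p ^ k) = 0 := by
  rw [sub_one_pow_char, sub_eq_zero, ← Units.val_pow_eq_pow_val]
  constructor
  · intro h; rw [h]; rfl
  · intro h; exact Units.ext h

theorem orderOf_pow_iff (p : ℕ) [Fact p.Prime] [CharP F p] (g : GL (Fin n) F) :
    (∃ k : ℕ, orderOf g = p ^ k) ↔ IsNilpotent (g.1 - 1) := by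
  constructor
  · rintro ⟨k, hk⟩
    exact ⟨p ^ k, (pow_eq_one_iff p g k).1 (by rw [← hk]; exact pow_orderOf_eq_one g)⟩
  · rintro ⟨m, hm⟩
    have h1 : (g.1 - 1) ^ (p ^ m) = 0 :=
      pow_eq_zero_of_le (Nat.lt_pow_self (Fact.out : p.Prime).one_lt).le hm
    have h2 := orderOf_dvd_of_pow_eq_one ((pow_eq_one_iff p g m).2 h1)
    obtain ⟨k, -, hk⟩ := (Nat.dvd_prime_pow (Fact.out : p.Prime)).1 h2
    exact ⟨k, hk⟩

theorem orderOf_eq_iff (p : ℕ) [Fact p.Prime] [CharP F p] (g : GL (Fin n) F) :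
    orderOf g = p ↔ (g.1 - 1) ^ p = 0 ∧ ¬ (g.1 - 1) ^ 1 = 0 := by
  have h0 := pow_eq_one_iff p g 1
  rw [pow_one] at h0
  constructor
  · intro h
    refine ⟨h0.1 (by rw [← h]; exact pow_orderOf_eq_one g), ?_⟩
    intro h1
    rw [pow_one, sub_eq_zero] at h1
    have h2 : g = 1 := Units.ext h1
    rw [h2, orderOf_one] at h
    exact (Fact.out : p.Prime).one_lt.ne h
  · rintro ⟨h1, h2⟩
    apply orderOf_eq_prime (h0.2 h1)
    rintro rfl
    apply h2
    simp

/-- the partition into ones -/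
def ones (n : ℕ) : Nat.Partition n where
  parts := Multiset.replicate n 1
  parts_pos := by
    intro i hi
    rw [Multiset.eq_of_mem_replicate hi]; exact Nat.one_pos
  parts_sum := by simp

theorem eq_ones_iff (μ : Nat.Partition n) : μ = ones n ↔ ∀ a ∈ μ.parts, a ≤ 1 := by
  constructor
  · rintro rfl a ha
    exact (Multiset.eq_of_mem_replicate ha).le
  · intro h
    apply Nat.Partition.ext
    have h1 : ∀ a ∈ μ.parts, a = 1 := fun a ha => le_antisymm (h a ha) (μ.parts_pos ha)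
    have h2 := Multiset.eq_replicate_card.2 h1
    have h3 := μ.parts_sum
    rw [h2, Multiset.sum_replicate, smul_eq_mul, mul_one] at h3
    rw [h2, h3]
    rfl

theorem card_partitions (n p : ℕ) (hp : 1 ≤ p) :
    Nat.card {μ : Nat.Partition n // (∀ a ∈ μ.parts, a ≤ p) ∧ ¬ ∀ a ∈ μ.parts, a ≤ 1} =
      (Finset.univ.filter (fun μ : Nat.Partition n => ∀ a ∈ μ.parts, a ≤ p)).card - 1 := by
  classical
  rw [Nat.card_eq_fintype_card, Fintype.card_subtype]
  have h1 : (Finset.univ.filter (fun μ : Nat.Partition n =>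
      (∀ a ∈ μ.parts, a ≤ p) ∧ ¬ ∀ a ∈ μ.parts, a ≤ 1)) =
      (Finset.univ.filter (fun μ : Nat.Partition n => ∀ a ∈ μ.parts, a ≤ p)).erase (ones n) := by
    ext μ
    simp only [Finset.mem_filter, Finset.mem_univ, true_and, Finset.mem_erase, ne_eq, eq_ones_iff]
    tauto
  rw [h1, Finset.card_erase_of_mem]
  simp only [Finset.mem_filter, Finset.mem_univ, true_and]
  intro a ha
  exact ((eq_ones_iff (ones n)).1 rfl a ha).trans hp

end Cfsg.Agent.Lib.Helper48UnipOrder
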