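import Mathlib
import Cfsg.Prelude.Def_Classical
import Cfsg.Prelude.Def_ClassicalGeometry
import Cfsg.Agent.Lib.Helper49Orth
import Cfsg.Agent.Lib.Helper49Forms
import Cfsg.Agent.Lib.Helper49CD
import Cfsg.Agent.Lib.Helper49Idx
import Cfsg.Agent.Lib.Helper49All
import Cfsg.Agent.Lib.Helper49Rank
import Cfsg.Agent.Lib.Helper49Fam
import Cfsg.Agent.Lib.Helper49Fam2
import Cfsg.Agent.Lib.Helper49Fam3
import Cfsg.Agent.Lib.Helper49Witt
import Cfsg.Agent.Lib.Helper49Hyp

set_option autoImplicit false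
set_option linter.unusedSectionVars false

namespace Cfsg.Agent.Lib.Helper49Fam4

open scoped Matrix
open Module
open Cfsg.Agent.Lib.Helper49Orth Cfsg.Agent.Lib.Helper18Hyp Cfsg.Agent.Lib.Helper18Hyp2
  Cfsg.Agent.Lib.Helper49Forms Cfsg.Agent.Lib.Helper49CD Cfsg.Agent.Lib.Helper49All
  Cfsg.Agent.Lib.Helper49Rank Cfsg.Agent.Lib.Helper49Fam Cfsg.Agent.Lib.Helper49Dickson
  Cfsg.Agent.Lib.Helper49Fam2 Cfsg.Agent.Lib.Helper49Fam3 Cfsg.Agent.Lib.Helper49Witt
  Cfsg.Agent.Lib.Helper49Hyp Cfsg.Agent.Lib.Helper49Idx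

variable {F : Type*} [Field F] [Fintype F]

theorem Omega_transitive_class {m : ℕ} (hm : 1 ≤ m) (h : Fintype.card F ≠ 2 ∨ m ≠ 2)
    {U W : Submodule F (Fin m ⊕ Fin m → F)} (hUm : finrank F U = m) (hWm : finrank F W = m)
    (hU : TS (QPlus m F) U) (hW : TS (QPlus m F) W)
    (he : Even (m - finrank F (U ⊓ W : Submodule F (Fin m ⊕ Fin m → F)))) :
    ∃ g : ↥(Cfsg.isometryGroup F ⇑(QPlus m F)), g ∈ Cfsg.Omega F ⇑(QPlus m F) ∧
      img (QPlus m F) g U = W := by
  have hq : Fintype.card F ≠ 2 ∨ Fintype.card (Fin m ⊕ Fin m) ≠ 4 := by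
    refine h.imp id fun h => ?_
    simp only [Fintype.card_sum, Fintype.card_fin]
    omega
  have hnd := QPlus_nondegenerate (F := F) m
  obtain ⟨g, hg⟩ := exists_img_eq_of_TS (QPlus m F) hnd hU hW (by rw [hUm, hWm])
  obtain ⟨vs, hvs, rfl⟩ := exists_list_refl_all (QPlus m F) hnd hq g
  rw [← hg, even_codim_iff hU hUm vs hvs] at he
  by_cases hsq : IsSquare (vs.map (fun v => QPlus m F v)).prod
  · exact ⟨_, prod_mem_Omega _ hnd hq vs hvs he hsq, hg⟩
  · have h2 : (2 : F) ≠ 0 := by
      intro h2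
      have : CharP F 2 := CharTwo.of_one_ne_zero_of_two_eq_zero one_ne_zero h2
      exact hsq (FiniteField.isSquare_of_char_two (ringChar.eq F 2) _)
    obtain ⟨c, hc⟩ := FiniteField.exists_nonsquare (ringChar_ne_two h2)
    have hc0 : c ≠ 0 := by
      rintro rfl
      exact hc IsSquare.zero
    have hU0 : U ≠ ⊥ := by
      rintro rfl
      rw [finrank_bot] at hUm
      omega
    obtain ⟨a, b, ha, hb, hab⟩ := exists_rot_stab (QPlus m F) hnd hU hU0 hc0
    refine ⟨((vs ++ [a, b]).map (reflO' (QPlus m F))).prod, ?_, ?_⟩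
    · apply prod_mem_Omega _ hnd hq
      · intro v hv
        simp only [List.mem_append, List.mem_cons, List.not_mem_nil, or_false] at hv
        rcases hv with hv | rfl | rfl
        · exact hvs v hv
        · rw [ha]; exact one_ne_zero
        · rw [hb]; exact hc0
      · rw [List.length_append]
        exact he.add ⟨1, rfl⟩
      · rw [List.map_append, List.prod_append]
        simp only [List.map_cons, List.map_nil, List.prod_cons, List.prod_nil, ha, hb, one_mul,
          mul_one]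
        exact isSquare_mul_of_not hsq hc
    · rw [List.map_append, List.prod_append, img_mul]
      simp only [List.map_cons, List.map_nil, List.prod_cons, List.prod_nil, mul_one]
      rw [hab, hg]

end Cfsg.Agent.Lib.Helper49Fam4
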