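import Mathlib
import Cfsg.Prelude.Def_Classical
import Cfsg.Prelude.Def_ClassicalGeometry
import Cfsg.Agent.Lib.Helper49Orth
import Cfsg.Agent.Lib.Helper49Hyp
import Cfsg.Agent.Lib.Helper49Fam
import Cfsg.Agent.Lib.Helper49Trans
import Cfsg.Agent.Lib.Helper49Eich
import Cfsg.Agent.Lib.Helper49Geo
import Cfsg.Agent.Lib.Helper49EichGen
import Cfsg.Agent.Lib.Helper49Witt2

/-!
# Stabilisers of nonsingular vectors in characteristic two are maximal in `Ω`
-/

set_option autoImplicit false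
set_option linter.unusedSectionVars false

namespace Cfsg.Agent.Lib.Helper49NS

open scoped Matrix
open Module
open Cfsg.Agent.Lib.Helper49Orth Cfsg.Agent.Lib.Helper49Hyp Cfsg.Agent.Lib.Helper18Hyp
  Cfsg.Agent.Lib.Helper49Eich Cfsg.Agent.Lib.Helper49Geo Cfsg.Agent.Lib.Helper49EichGen
  Cfsg.Agent.Lib.Helper49Fam Cfsg.Agent.Lib.Helper49Trans Cfsg.Agent.Lib.Helper49CharTwoA
  Cfsg.Agent.Lib.Helper49Witt2

variable {F : Type*} [Field F] [Fintype F] [CharP F 2]
variable {ι : Type} [Fintype ι] [DecidableEq ι] (Q : QuadraticForm F (ι → F))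

local notation "𝐁" => QuadraticMap.polar (DFunLike.coe Q)
local notation:max W "ᗮ" => LinearMap.BilinForm.orthogonal (QuadraticMap.polarBilin Q) W

theorem eq_one_of_mul_self_eq_one {l : F} (h : l * l = 1) : l = 1 := by
  have h1 : (l + 1) * (l + 1) = 0 := by
    have : (l + 1) * (l + 1) = l * l + 1 + (l + l) := by ring
    rw [this, h, CharTwo.add_self_eq_zero, CharTwo.add_self_eq_zero, add_zero]
  have h2 : l + 1 = 0 := mul_self_eq_zero.1 h1
  exact CharTwo.add_eq_zero.1 h2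

/-- Two vectors of the same nonzero norm on a line coincide. -/
theorem eq_of_mem_span {v u : ι → F} (hv : Q v ≠ 0) (hu : Q u = Q v)
    (h : u ∈ Submodule.span F {v}) : u = v := by
  obtain ⟨l, rfl⟩ := Submodule.mem_span_singleton.1 h
  rw [QuadraticMap.map_smul, smul_eq_mul] at hu
  have h1 : l * l = 1 := mul_right_cancel₀ hv (by rw [hu, one_mul])
  rw [eq_one_of_mul_self_eq_one h1, one_smul]

theorem mem_stab_span_iff {v : ι → F} (hv : Q v ≠ 0) (g : ↥(Cfsg.isometryGroup F ⇑Q)) :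
    g ∈ stab Q (Submodule.span F {v}) ↔
      ((g : Matrix.GeneralLinearGroup ι F) : Matrix ι ι F) *ᵥ v = v := by
  constructor
  · intro h
    rw [mem_stab] at h
    apply eq_of_mem_span Q hv (iso_apply (Q := ⇑Q) g v)
    rw [← h]
    exact (mem_img Q).2 ⟨v, Submodule.mem_span_singleton_self v, rfl⟩
  · intro h
    apply mem_stab_of_le
    intro x hx
    obtain ⟨c, rfl⟩ := Submodule.mem_span_singleton.1 hx
    rw [Matrix.mulVec_smul, h]
    exact Submodule.smul_mem _ _ (Submodule.mem_span_singleton_self v)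

/-- A vector with prescribed products with two independent vectors. -/
theorem exists_polar_eq_one (hQ : (QuadraticMap.polarBilin Q).Nondegenerate) {v u : ι → F}
    (h : v ∉ Submodule.span F {u}) : ∃ p, 𝐁 v p = 1 ∧ 𝐁 u p = 0 := by
  have hex : ∃ x, 𝐁 u x = 0 ∧ 𝐁 v x ≠ 0 := by
    by_contra hcon
    apply h
    apply mem_span_of_orth Q hQ
    intro y hy
    by_contra hne
    exact hcon ⟨y, hy, hne⟩
  obtain ⟨x, hux, hvx⟩ := hex
  refine ⟨(𝐁 v x)⁻¹ • x, ?_, ?_⟩
  · rw [QuadraticMap.polar_smul_right, smul_eq_mul, inv_mul_cancel₀ hvx]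
  · rw [QuadraticMap.polar_smul_right, hux, smul_zero]

/-- A common neighbour. -/
theorem exists_common (hQ : (QuadraticMap.polarBilin Q).Nondegenerate)
    (hn : 7 ≤ Fintype.card ι) {v u : ι → F} (hv : Q v ≠ 0) (hu : Q u = Q v) (huv : u ≠ v) (c : F) :
    ∃ x, Q x = Q v ∧ 𝐁 v x = c ∧ 𝐁 x u = c := by
  classical
  have h1 : u ∉ Submodule.span F {v} := fun h => huv (eq_of_mem_span Q hv hu h)
  have h2 : v ∉ Submodule.span F {u} := fun h =>
    huv (eq_of_mem_span Q (hu ▸ hv) hu.symm h).symm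
  obtain ⟨p, hvp, hup⟩ := exists_polar_eq_one Q hQ h2
  obtain ⟨p', hup', hvp'⟩ := exists_polar_eq_one Q hQ h1
  set x₀ := c • p + c • p' with hx₀
  obtain ⟨z, hz, hQz⟩ := exists_nonsingular_orth_finset Q hQ {v, u, x₀} (by
    have := Finset.card_le_three (a := v) (b := u) (c := x₀)
    omega)
  have hzv : 𝐁 v z = 0 := hz v (by simp)
  have hzu : 𝐁 u z = 0 := hz u (by simp)
  have hzx : 𝐁 x₀ z = 0 := hz x₀ (by simp)
  obtain ⟨t, ht⟩ := exists_sqrt ((Q v - Q x₀) / Q z)
  refine ⟨x₀ + t • z, ?_, ?_, ?_⟩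
  · rw [Q_add_smul', hzx, ht]
    field_simp
    ring
  · rw [QuadraticMap.polar_add_right, QuadraticMap.polar_smul_right, hzv, hx₀,
      QuadraticMap.polar_add_right, QuadraticMap.polar_smul_right, QuadraticMap.polar_smul_right,
      hvp, hvp']
    simp
  · rw [QuadraticMap.polar_comm, QuadraticMap.polar_add_right, QuadraticMap.polar_smul_right, hzu,
      hx₀, QuadraticMap.polar_add_right, QuadraticMap.polar_smul_right,
      QuadraticMap.polar_smul_right, hup, hup']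
    simp

/-- **Maximality of the stabiliser of a nonsingular vector** (characteristic two). -/
theorem nonsingular_maximal (hQ : (QuadraticMap.polarBilin Q).Nondegenerate)
    (hn : 7 ≤ Fintype.card ι) {v : ι → F} (hv : Q v ≠ 0)
    {M : Subgroup ↥(Cfsg.isometryGroup F ⇑Q)}
    (hM1 : stab Q (Submodule.span F {v}) ⊓ Cfsg.Omega F ⇑Q ≤ M) (hM0 : M ≤ Cfsg.Omega F ⇑Q)
    (hM2 : ¬ M ≤ stab Q (Submodule.span F {v})) : Cfsg.Omega F ⇑Q ≤ M := by
  have hq : Fintype.card F ≠ 2 ∨ Fintype.card ι ≠ 4 := Or.inr (by omega)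
  have hv0 : v ≠ 0 := by
    rintro rfl
    exact hv (map_zero Q)
  obtain ⟨g, hgM, hgv⟩ := SetLike.not_le_iff_exists.1 hM2
  rw [mem_stab_span_iff Q hv] at hgv
  set u := ((g : Matrix.GeneralLinearGroup ι F) : Matrix ι ι F) *ᵥ v with hu
  have hQu : Q u = Q v := iso_apply (Q := ⇑Q) g v
  have huv : u ∉ Submodule.span F {v} := fun h => hgv (eq_of_mem_span Q hv hQu h)
  set c := 𝐁 v u with hc
  -- the closure property of the orbit
  have key : ∀ m ∈ M, ∀ y, Q y = Q v →
      𝐁 (((m : Matrix.GeneralLinearGroup ι F) : Matrix ι ι F) *ᵥ v) y = c →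
      ∃ m' ∈ M, ((m' : Matrix.GeneralLinearGroup ι F) : Matrix ι ι F) *ᵥ v = y := by
    intro m hm y hy hmy
    set y' := ((m⁻¹ : ↥(Cfsg.isometryGroup F ⇑Q)) : Matrix.GeneralLinearGroup ι F).1 *ᵥ y with hy'
    have h1 : ((m : Matrix.GeneralLinearGroup ι F) : Matrix ι ι F) *ᵥ y' = y :=
      mulVec_inv_mulVec Q m y
    have hQy' : Q y' = Q v := by
      rw [← hy, ← iso_apply (Q := ⇑Q) m y', h1]
    have hvy' : 𝐁 v y' = c := by rw [← polar_iso Q m, h1]; exact hmy
    by_cases hyv : y' = v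
    · exact ⟨m, hm, by rw [← hyv]; exact h1⟩
    · have hy'v : y' ∉ Submodule.span F {v} := fun h => hyv (eq_of_mem_span Q hv hQy' h)
      obtain ⟨h, hhΩ, hhfix, hhu⟩ := witt_core_Omega Q hQ hq (Submodule.span F {v})
        (by rw [finrank_span_singleton hv0]; omega) huv hy'v (hQy'.trans hQu.symm) (by
          intro z hz
          obtain ⟨s, rfl⟩ := Submodule.mem_span_singleton.1 hz
          rw [QuadraticMap.polar_smul_left, QuadraticMap.polar_smul_left, hvy'])
      have hhv : ((h : Matrix.GeneralLinearGroup ι F) : Matrix ι ι F) *ᵥ v = v :=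
        hhfix v (Submodule.mem_span_singleton_self v)
      have hhM : h ∈ M := hM1 ⟨(mem_stab_span_iff Q hv h).2 hhv, hhΩ⟩
      refine ⟨m * h * g, M.mul_mem (M.mul_mem hm hhM) hgM, ?_⟩
      rw [mul_mulVec, mul_mulVec, ← hu, hhu, h1]
  -- transitivity
  have trans : ∀ y, Q y = Q v →
      ∃ m' ∈ M, ((m' : Matrix.GeneralLinearGroup ι F) : Matrix ι ι F) *ᵥ v = y := by
    intro y hy
    by_cases hyv : y = v
    · exact ⟨1, M.one_mem, by rw [one_mulVec', hyv]⟩
    · obtain ⟨x, hQx, hvx, hxy⟩ := exists_common Q hQ hn hv hy hyv c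
      obtain ⟨m₁, hm₁, hm₁v⟩ := key 1 M.one_mem x hQx (by rw [one_mulVec']; exact hvx)
      exact key m₁ hm₁ y hy (by rw [hm₁v]; exact hxy)
  intro k hk
  obtain ⟨m, hm, hmv⟩ := trans (((k : Matrix.GeneralLinearGroup ι F) : Matrix ι ι F) *ᵥ v)
    (iso_apply (Q := ⇑Q) k v)
  have h1 : m⁻¹ * k ∈ M := by
    apply hM1
    refine ⟨(mem_stab_span_iff Q hv _).2 ?_, Subgroup.mul_mem _ (Subgroup.inv_mem _ (hM0 hm)) hk⟩
    rw [mul_mulVec, ← hmv, inv_mulVec_mulVec]
  have h2 := M.mul_mem hm h1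
  rwa [mul_inv_cancel_left] at h2

theorem not_Omega_le_stab_nonsingular (hQ : (QuadraticMap.polarBilin Q).Nondegenerate)
    (hn : 5 ≤ Fintype.card ι) {v : ι → F} (hv : Q v ≠ 0) :
    ¬ Cfsg.Omega F ⇑Q ≤ stab Q (Submodule.span F {v}) := by
  intro hle
  have hv0 : v ≠ 0 := by
    rintro rfl
    exact hv (map_zero Q)
  obtain ⟨e', he'S, he'0, he'⟩ := exists_singular_orth Q hQ (S := Submodule.span F {v})
      (by have := finrank_span_singleton (K := F) hv0; omega)
  rw [mem_orth_span_singleton] at he'S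
  have hQ'' : Q v = Q (v + e') := by rw [Q_add, he', he'S]; simp
  obtain ⟨t, ht, htv⟩ := TT_transitive Q hQ hn hv hQ''
  rw [← Omega_eq_TT Q hQ hn] at ht
  have h1 := (mem_stab_span_iff Q hv t).1 (hle ht)
  rw [htv] at h1
  apply he'0
  simpa using h1

end Cfsg.Agent.Lib.Helper49NS
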