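import Cfsg.Agent.Lib.Helper49SDefs

/-!
# Vocabulary for PROJECT 51: `Sp(V₁) ⊗ O(V₂)` is maximal in `Sp(V₁ ⊗ V₂)` (`q` odd).

Everything of `Helper49TDefs` / `Helper49SDefs` is used (`tens`, `tsub`, `NN`, `KS`, `bf`, `NJ`,
`IsSympMat`, `IsIso`, `perpS`, `adjJ`, `ctr`).  New: `IsSymmMat J` (nondegenerate symmetric Gram
matrix), `fK J₁ J₂` (the form with Gram matrix `J₁ ⊗ J₂`), `IG J₁ J₂` (its isometry group),
`SoDat` (`J₁` alternating, `J₂` symmetric), `SG D = Sp(V)`, `EO J c w` (the Eichler/Siegel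
transformation of `O(V₂)`), `HasT` (`H` contains a transvection with centre `u ⊗ c`, `c` singular).
-/

set_option autoImplicit false
set_option linter.unusedSectionVars false
set_option linter.unusedSimpArgs false

namespace Cfsg.Agent.Lib.Helper49ODefs

open scoped Matrix Kronecker
open Matrix Cfsg.Agent.Lib.Helper49TDefs Cfsg.Agent.Lib.Helper49SDefs

variable {F : Type*} [Field F] {a b n : ℕ}

/-- `J` is the Gram matrix of a nondegenerate symmetric form -/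
structure IsSymmMat (J : Matrix (Fin n) (Fin n) F) : Prop where
  symm : ∀ x y, bf J x y = bf J y x
  unit : IsUnit J.det

namespace IsSymmMat
variable {J : Matrix (Fin n) (Fin n) F} (hJ : IsSymmMat J)
include hJ

/-- every linear functional is `bf J · w` -/
theorem exists_repr (φ : Fin n → F) : ∃ w, ∀ x, bf J x w = x ⬝ᵥ φ := by
  refine ⟨J⁻¹ *ᵥ φ, fun x => ?_⟩
  rw [bf, Matrix.mulVec_mulVec, Matrix.mul_nonsing_inv _ hJ.unit, Matrix.one_mulVec]

theorem eq_zero_of_right {w : Fin n → F} (h : ∀ x, bf J x w = 0) : w = 0 := by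
  have h1 : J *ᵥ w = 0 := by
    funext i
    have := h (Pi.single i 1)
    simpa [bf] using this
  have h2 : J⁻¹ *ᵥ (J *ᵥ w) = 0 := by rw [h1, Matrix.mulVec_zero]
  rwa [Matrix.mulVec_mulVec, Matrix.nonsing_inv_mul _ hJ.unit, Matrix.one_mulVec] at h2

theorem eq_zero_of_left {w : Fin n → F} (h : ∀ x, bf J w x = 0) : w = 0 :=
  hJ.eq_zero_of_right fun x => by rw [hJ.symm, h]

theorem exists_ne_zero {w : Fin n → F} (hw : w ≠ 0) : ∃ x, bf J x w = 1 := by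
  by_contra hcon
  apply hw
  apply hJ.eq_zero_of_right
  intro x
  by_contra hx
  exact hcon ⟨(bf J x w)⁻¹ • x, by rw [bf_smul_left, inv_mul_cancel₀ hx]⟩

theorem bf_adjJ (X : Matrix (Fin n) (Fin n) F) (x y : Fin n → F) :
    bf J (X *ᵥ x) y = bf J x (adjJ J X *ᵥ y) := by
  unfold bf adjJ
  rw [Matrix.mulVec_mulVec, ← mul_assoc, ← mul_assoc, Matrix.mul_nonsing_inv _ hJ.unit, one_mul,
    ← Matrix.mulVec_mulVec, Matrix.dotProduct_mulVec x, Matrix.vecMul_transpose]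

end IsSymmMat

/-! ### the form `J₁ ⊗ J₂` -/

/-- the bilinear form on `F^a ⊗ F^b` with Gram matrix `J₁ ⊗ J₂` -/
def fK (J₁ : Matrix (Fin a) (Fin a) F) (J₂ : Matrix (Fin b) (Fin b) F)
    (x y : Fin a × Fin b → F) : F := x ⬝ᵥ (J₁ ⊗ₖ J₂) *ᵥ y

section fKl
variable (J₁ : Matrix (Fin a) (Fin a) F) (J₂ : Matrix (Fin b) (Fin b) F)

@[simp] theorem fK_add_left (x y z : Fin a × Fin b → F) :
    fK J₁ J₂ (x + y) z = fK J₁ J₂ x z + fK J₁ J₂ y z := by simp [fK, add_dotProduct]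
@[simp] theorem fK_add_right (x y z : Fin a × Fin b → F) :
    fK J₁ J₂ x (y + z) = fK J₁ J₂ x y + fK J₁ J₂ x z := by
  simp [fK, Matrix.mulVec_add, dotProduct_add]
@[simp] theorem fK_sub_left (x y z : Fin a × Fin b → F) :
    fK J₁ J₂ (x - y) z = fK J₁ J₂ x z - fK J₁ J₂ y z := by simp [fK, sub_dotProduct]
@[simp] theorem fK_sub_right (x y z : Fin a × Fin b → F) :
    fK J₁ J₂ x (y - z) = fK J₁ J₂ x y - fK J₁ J₂ x z := by
  simp [fK, Matrix.mulVec_sub, dotProduct_sub]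
@[simp] theorem fK_smul_left (k : F) (x z : Fin a × Fin b → F) :
    fK J₁ J₂ (k • x) z = k * fK J₁ J₂ x z := by simp [fK, smul_dotProduct]
@[simp] theorem fK_smul_right (k : F) (x z : Fin a × Fin b → F) :
    fK J₁ J₂ x (k • z) = k * fK J₁ J₂ x z := by simp [fK, Matrix.mulVec_smul, dotProduct_smul]
@[simp] theorem fK_neg_left (x z : Fin a × Fin b → F) :
    fK J₁ J₂ (-x) z = - fK J₁ J₂ x z := by simp [fK, neg_dotProduct]
@[simp] theorem fK_neg_right (x z : Fin a × Fin b → F) :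
    fK J₁ J₂ x (-z) = - fK J₁ J₂ x z := by simp [fK, Matrix.mulVec_neg, dotProduct_neg]
@[simp] theorem fK_zero_left (z : Fin a × Fin b → F) : fK J₁ J₂ 0 z = 0 := by simp [fK]
@[simp] theorem fK_zero_right (z : Fin a × Fin b → F) : fK J₁ J₂ z 0 = 0 := by simp [fK]

theorem fK_tens (u u' : Fin a → F) (c c' : Fin b → F) :
    fK J₁ J₂ (tens u c) (tens u' c') = bf J₁ u u' * bf J₂ c c' := by
  rw [fK, kron_mulVec_tens, tens_dot]
  rfl

/-- the form against a pure tensor, via the contraction of the second factor -/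
theorem fK_eq_bf_ctr (w : Fin a × Fin b → F) (u : Fin a → F) (c : Fin b → F) :
    fK J₁ J₂ w (tens u c) = bf J₁ (ctr (J₂ *ᵥ c) w) u := by
  rw [fK, kron_mulVec_tens]
  simp only [bf, ctr, tens, dotProduct, Fintype.sum_prod_type, Finset.sum_mul]
  refine Finset.sum_congr rfl fun x _ => Finset.sum_congr rfl fun y _ => ?_
  ring

end fKl

/-- the isometry group of `J₁ ⊗ J₂` inside `GL` -/
def IG (J₁ : Matrix (Fin a) (Fin a) F) (J₂ : Matrix (Fin b) (Fin b) F) :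
    Subgroup (Matrix.GeneralLinearGroup (Fin a × Fin b) F) where
  carrier := {g | ∀ x y, fK J₁ J₂ ((g : Matrix (Fin a × Fin b) (Fin a × Fin b) F) *ᵥ x)
    ((g : Matrix (Fin a × Fin b) (Fin a × Fin b) F) *ᵥ y) = fK J₁ J₂ x y}
  mul_mem' := fun {g h} hg hh x y => by
    rw [Units.val_mul, ← Matrix.mulVec_mulVec, ← Matrix.mulVec_mulVec, hg, hh]
  one_mem' := fun x y => by simp
  inv_mem' := fun {g} hg x y => by
    have := hg (((g⁻¹ : Matrix.GeneralLinearGroup (Fin a × Fin b) F) :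
      Matrix (Fin a × Fin b) (Fin a × Fin b) F) *ᵥ x)
      (((g⁻¹ : Matrix.GeneralLinearGroup (Fin a × Fin b) F) :
      Matrix (Fin a × Fin b) (Fin a × Fin b) F) *ᵥ y)
    rw [Matrix.mulVec_mulVec, Matrix.mulVec_mulVec, ← Units.val_mul, mul_inv_cancel,
      Units.val_one, Matrix.one_mulVec, Matrix.one_mulVec] at this
    exact this.symm

theorem mem_IG {J₁ : Matrix (Fin a) (Fin a) F} {J₂ : Matrix (Fin b) (Fin b) F}
    {g : Matrix.GeneralLinearGroup (Fin a × Fin b) F} :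
    g ∈ IG J₁ J₂ ↔ ∀ x y, fK J₁ J₂ ((g : Matrix (Fin a × Fin b) (Fin a × Fin b) F) *ᵥ x)
      ((g : Matrix (Fin a × Fin b) (Fin a × Fin b) F) *ᵥ y) = fK J₁ J₂ x y := Iff.rfl

/-! ### the data -/

/-- `J₁` alternating, `J₂` symmetric, both nondegenerate; characteristic not `2` -/
structure SoDat (F : Type*) [Field F] (a b : ℕ) where
  J₁ : Matrix (Fin a) (Fin a) F
  J₂ : Matrix (Fin b) (Fin b) F
  h₁ : IsSympMat J₁
  h₂ : IsSymmMat J₂
  two : (2 : F) ≠ 0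

/-- `Sp(V₁ ⊗ V₂)` inside `GL` -/
abbrev SG (D : SoDat F a b) : Subgroup (Matrix.GeneralLinearGroup (Fin a × Fin b) F) :=
  IG D.J₁ D.J₂

/-- the form `f = f₁ ⊗ f₂` -/
abbrev SoDat.f (D : SoDat F a b) (x y : Fin a × Fin b → F) : F := fK D.J₁ D.J₂ x y

/-- the Eichler (Siegel) transformation `v ↦ v + f(v,w) c - f(v,c) w - f(w,w)/2 f(v,c) c`
of an orthogonal space (`c` singular, `w ⊥ c`) -/
def EO (J : Matrix (Fin n) (Fin n) F) (c w : Fin n → F) : Matrix (Fin n) (Fin n) F :=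
  1 + NJ J c w - NJ J w c - (bf J w w / 2) • NJ J c c

/-- `H` contains a transvection of `Sp(V)` with centre `u ⊗ c`, `c` singular -/
def HasT (D : SoDat F a b) (H : Subgroup (Matrix.GeneralLinearGroup (Fin a × Fin b) F)) : Prop :=
  ∃ (u : Fin a → F) (c : Fin b → F) (k : F), u ≠ 0 ∧ c ≠ 0 ∧ bf D.J₂ c c = 0 ∧ k ≠ 0 ∧
    (k • NJ D.J₁ u u) ⊗ₖ NJ D.J₂ c c ∈ NN H

/-- `H` contains `1 + ζ ⊗ N(c,c)`, `ζ ≠ 0`, `c` singular -/
def HasZ (D : SoDat F a b) (H : Subgroup (Matrix.GeneralLinearGroup (Fin a × Fin b) F)) : Prop :=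
  ∃ (c : Fin b → F) (ζ : Matrix (Fin a) (Fin a) F), c ≠ 0 ∧ bf D.J₂ c c = 0 ∧ ζ ≠ 0 ∧
    ζ ⊗ₖ NJ D.J₂ c c ∈ NN H

/-- `H` contains `1 + T_u ⊗ β`, `β` not a scalar -/
def HasS (D : SoDat F a b) (H : Subgroup (Matrix.GeneralLinearGroup (Fin a × Fin b) F)) : Prop :=
  ∃ (u : Fin a → F) (β : Matrix (Fin b) (Fin b) F), u ≠ 0 ∧ (∀ k : F, β ≠ k • 1) ∧
    NJ D.J₁ u u ⊗ₖ β ∈ NN H

/-- the good vectors: `x ⊗ c`, `c` singular -/
def IsGood (D : SoDat F a b) (y : Fin a × Fin b → F) : Prop :=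
  ∃ (x : Fin a → F) (c : Fin b → F), bf D.J₂ c c = 0 ∧ y = tens x c

end Cfsg.Agent.Lib.Helper49ODefs
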