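import Mathlib
import Cfsg.Prelude.Def_Classical
import Cfsg.Prelude.Def_ClassicalGeometry
import Cfsg.Prelude.Def_GeometricClasses
import Cfsg.Agent.Lib.Helper49Type

/-!
# The type of orthogonal sums: converse statements
-/

set_option autoImplicit false
set_option linter.unusedSectionVars false

namespace Cfsg.Agent.Lib.Helper49TypeB

open scoped Matrix
open Module
open Cfsg.Agent.Lib.Helper49Orth Cfsg.Agent.Lib.Helper49Hyp Cfsg.Agent.Lib.Helper18Hyp
  Cfsg.Agent.Lib.Helper49Eich Cfsg.Agent.Lib.Helper49Geo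
  Cfsg.Agent.Lib.Helper49Fam Cfsg.Agent.Lib.Helper49Trans Cfsg.Agent.Lib.Helper49CharTwoA
  Cfsg.Agent.Lib.Helper49Frame Cfsg.Agent.Lib.Helper49Sub Cfsg.Agent.Lib.Helper49DecA
  Cfsg.Agent.Lib.Helper49DecC Cfsg.Agent.Lib.Helper49Bridge Cfsg.Agent.Lib.Helper49NM
  Cfsg.Agent.Lib.Helper49Type

variable {F : Type*} [Field F]
variable {ι : Type} [Fintype ι] [DecidableEq ι] {Q : QuadraticForm F (ι → F)}

local notation "𝐁" => QuadraticMap.polar (DFunLike.coe Q)
local notation:max W "ᗮ" => LinearMap.BilinForm.orthogonal (QuadraticMap.polarBilin Q) W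
local notation:72 g:72 " ⋆ " x:73 => Matrix.mulVec (Units.val (Subtype.val g)) x

variable {t k : ℕ} {D : Fin t → Submodule F (ι → F)}

/-- If `P ⊔ X = ⊤`, `P` nondegenerate and `X ⊥ P`, then `X = Pᗮ`. -/
theorem orth_eq_of_sup_eq_top (hQ : (QuadraticMap.polarBilin Q).Nondegenerate)
    {P X : Submodule F (ι → F)} (hP : P ⊓ Pᗮ = ⊥) (hX : X ≤ Pᗮ) (htop : P ⊔ X = ⊤) : Pᗮ = X := by
  symm
  apply Submodule.eq_of_le_of_finrank_eq hX
  have hd : P ⊓ X = ⊥ := by
    rw [eq_bot_iff, ← hP]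
    exact inf_le_inf_left _ hX
  have h1 := finrank_sup_of_disj hd
  rw [htop, finrank_top, Module.finrank_fintype_fun_eq_card] at h1
  have h2 := finrank_orth_add Q hQ P
  omega

theorem le_orth_symm {X Y : Submodule F (ι → F)} (h : X ≤ Yᗮ) : Y ≤ Xᗮ := by
  intro y hy
  rw [mem_orth]
  intro x hx
  rw [QuadraticMap.polar_comm]
  exact mem_orth.1 (h hx) y hy

/-- An odd number of blocks (of even dimension, or `-1` a square): the type of the whole space is
the type of the blocks. -/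
theorem _root_.Cfsg.Agent.Lib.Helper49DecA.Dec.block_plus [Fintype F]
    (hQ : (QuadraticMap.polarBilin Q).Nondegenerate) (H : Dec Q k D)
    (hk : Even k ∨ IsSquare (-1 : F)) (ht : Odd t) (htop : Cfsg.Geo.IsPlusTypeOn ⇑Q ⊤)
    (i : Fin t) : Cfsg.Geo.IsPlusTypeOn ⇑Q (D i) := by
  obtain ⟨r, hr⟩ := ht
  have hcard : ((Finset.univ : Finset (Fin t)).erase i).card = 2 * r := by
    rw [Finset.card_erase_of_mem (Finset.mem_univ i), Finset.card_univ, Fintype.card_fin]
    omega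
  have hP := H.plus_even (fun i j hij => H.plus_pair hQ hk hij) r _ hcard
  have hnd := H.nondeg_finset ((Finset.univ : Finset (Fin t)).erase i)
  have h1 := plus_cancel hQ htop hnd hP
  have h2 : (((Finset.univ : Finset (Fin t)).erase i).sup D)ᗮ = D i := by
    apply orth_eq_of_sup_eq_top hQ hnd (le_orth_symm (H.sup_le_orth (Finset.notMem_erase i _)))
    rw [sup_comm, ← Finset.sup_insert, Finset.insert_erase (Finset.mem_univ i), H.top_eq]
  rwa [h2] at h1

theorem le_perp_sup_span (h2 : (2 : F) ≠ 0) {W : Submodule F (ι → F)} {b : ι → F} (hb : b ∈ W)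
    (hQb : Q b ≠ 0) : W ≤ (W ⊓ (Submodule.span F {b})ᗮ) ⊔ Submodule.span F {b} := by
  intro w hw
  have hbb : 𝐁 b b ≠ 0 := by
    rw [QuadraticMap.polar_self, two_smul, ← two_mul]
    exact mul_ne_zero h2 hQb
  refine Submodule.mem_sup.2 ⟨w - (𝐁 b w / 𝐁 b b) • b, ⟨W.sub_mem hw (W.smul_mem _ hb), ?_⟩,
    (𝐁 b w / 𝐁 b b) • b, Submodule.smul_mem _ _ (Submodule.mem_span_singleton_self b), by abel⟩
  rw [SetLike.mem_coe, mem_orth_span_singleton, QuadraticMap.polar_sub_right,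
    QuadraticMap.polar_smul_right, smul_eq_mul]
  field_simp
  ring

/-- `t ≡ 2 mod 4` isometric blocks of odd dimension: plus type forces `-1` to be a square. -/
theorem _root_.Cfsg.Agent.Lib.Helper49DecA.Dec.neg_one_sq [Fintype F]
    (hQ : (QuadraticMap.polarBilin Q).Nondegenerate) (H : Dec Q k D) (hk : Odd k)
    (ht : t % 4 = 2) (htop : Cfsg.Geo.IsPlusTypeOn ⇑Q ⊤) : IsSquare (-1 : F) := by
  by_contra hsq
  have h2 : (2 : F) ≠ 0 := by
    intro h2
    exact hsq ⟨1, by linear_combination -h2⟩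
  obtain ⟨i, hi⟩ : ∃ i : Fin t, i = ⟨0, by omega⟩ := ⟨_, rfl⟩
  obtain ⟨j, hj⟩ : ∃ i : Fin t, i = ⟨1, by omega⟩ := ⟨_, rfl⟩
  have hij : i ≠ j := by rw [hi, hj]; simp [Fin.ext_iff]
  obtain ⟨s₀, hs₀⟩ : ∃ s₀, s₀ = ((Finset.univ : Finset (Fin t)).erase i).erase j := ⟨_, rfl⟩
  have hjm : j ∈ (Finset.univ : Finset (Fin t)).erase i :=
    Finset.mem_erase.2 ⟨hij.symm, Finset.mem_univ j⟩
  have hcard : s₀.card = 4 * (t / 4) := by
    rw [hs₀, Finset.card_erase_of_mem hjm, Finset.card_erase_of_mem (Finset.mem_univ i),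
      Finset.card_univ, Fintype.card_fin]
    omega
  have hi₀ : i ∉ s₀ := by
    rw [hs₀]
    intro h
    exact Finset.notMem_erase i _ (Finset.mem_of_mem_erase h)
  have hj₀ : j ∉ s₀ := by
    rw [hs₀]
    exact Finset.notMem_erase j _
  have hP₀ := H.plus_four_mul hQ _ s₀ hcard
  have hP₀nd := H.nondeg_finset s₀
  obtain ⟨φ, hφ⟩ := H.iso i j
  obtain ⟨g, hg, hgi⟩ := Cfsg.Agent.Lib.Helper49Witt.witt_img Q hQ (D i) (D j) φ hφ
  obtain ⟨r, hr⟩ := hk
  have hne : D i ≠ ⊥ := by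
    intro h
    have := H.finrank_eq i
    rw [h, finrank_bot] at this
    omega
  obtain ⟨b, hb, hQb⟩ := exists_nonsingular_of_nondeg (H.nondeg i) hne
  obtain ⟨hW', -⟩ := perp_nondeg Q h2 (H.nondeg i) hb hQb
  have hk' := finrank_perp_eq h2 (H.nondeg i) hb hQb
  rw [H.finrank_eq] at hk'
  obtain ⟨W', hW'def⟩ : ∃ W', W' = D i ⊓ (Submodule.span F {b})ᗮ := ⟨_, rfl⟩
  rw [← hW'def] at hW' hk'
  have hW'D : W' ≤ D i := by rw [hW'def]; exact inf_le_left
  have hgD : ∀ v ∈ D i, g ⋆ v ∈ D j := by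
    intro v hv
    rw [← hgi]
    exact (mem_img Q).2 ⟨v, hv, rfl⟩
  have hgW' : img Q g W' ≤ D j := by
    rw [← hgi]
    exact Submodule.map_mono hW'D
  have hP₁ := plus_pair_even hQ h2 g r W' hW' (by omega)
    (fun u hu v hv => H.orth i j hij u (hW'D hu) _ (hgD v (hW'D hv)))
  have hP₁nd : (W' ⊔ img Q g W') ⊓ (W' ⊔ img Q g W')ᗮ = ⊥ :=
    nondeg_sup hW' (img_nondeg g hW')
      (fun u hu v hv => H.orth i j hij u (hW'D hu) v (hgW' hv))
  have hDij : D i ⊔ D j ≤ (s₀.sup D)ᗮ :=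
    sup_le (le_orth_symm (H.sup_le_orth hi₀)) (le_orth_symm (H.sup_le_orth hj₀))
  have hP₁le : W' ⊔ img Q g W' ≤ (s₀.sup D)ᗮ := (sup_le_sup hW'D hgW').trans hDij
  have hP := plus_sup' hP₀ hP₁ hP₀nd hP₁le
  have hPnd := nondeg_sup hP₀nd hP₁nd (fun u hu v hv => mem_orth.1 (hP₁le hv) u hu)
  have hX : Submodule.span F {b, g ⋆ b} ≤ (s₀.sup D ⊔ (W' ⊔ img Q g W'))ᗮ := by
    rw [Submodule.span_le]
    have hb1 : b ∈ (s₀.sup D ⊔ (W' ⊔ img Q g W'))ᗮ := by
      rw [orth_sup, orth_sup]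
      refine ⟨hDij (Submodule.mem_sup_left hb), ?_, ?_⟩
      · rw [SetLike.mem_coe, mem_orth]
        intro w hw
        rw [hW'def] at hw
        rw [QuadraticMap.polar_comm]
        exact (mem_orth_span_singleton Q).1 hw.2
      · rw [SetLike.mem_coe, mem_orth]
        intro w hw
        rw [QuadraticMap.polar_comm]
        exact H.orth i j hij b hb w (hgW' hw)
    have hb2 : g ⋆ b ∈ (s₀.sup D ⊔ (W' ⊔ img Q g W'))ᗮ := by
      rw [orth_sup, orth_sup]
      refine ⟨hDij (Submodule.mem_sup_right (hgD b hb)), ?_, ?_⟩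
      · rw [SetLike.mem_coe, mem_orth]
        intro w hw
        exact H.orth i j hij w (hW'D hw) _ (hgD b hb)
      · rw [SetLike.mem_coe, mem_orth]
        intro w hw
        obtain ⟨w', hw', rfl⟩ := (mem_img Q).1 hw
        rw [polar_iso, QuadraticMap.polar_comm]
        rw [hW'def] at hw'
        exact (mem_orth_span_singleton Q).1 hw'.2
    rintro x (hx | hx)
    · rw [hx]; exact hb1
    · rw [Set.mem_singleton_iff.1 hx]; exact hb2
  have htop' : (s₀.sup D ⊔ (W' ⊔ img Q g W')) ⊔ Submodule.span F {b, g ⋆ b} = ⊤ := by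
    rw [eq_top_iff, ← H.top_eq, ← Finset.insert_erase (Finset.mem_univ i),
      ← Finset.insert_erase hjm, Finset.sup_insert, Finset.sup_insert, ← hs₀]
    have hbX : b ∈ Submodule.span F {b, g ⋆ b} := Submodule.subset_span (by simp)
    have hgbX : g ⋆ b ∈ Submodule.span F {b, g ⋆ b} := Submodule.subset_span (by simp)
    have hDi : D i ≤ (s₀.sup D ⊔ (W' ⊔ img Q g W')) ⊔ Submodule.span F {b, g ⋆ b} := by
      refine (le_perp_sup_span h2 hb hQb).trans (sup_le_sup ?_ ?_)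
      · rw [← hW'def]
        exact le_sup_left.trans le_sup_right
      · exact (Submodule.span_singleton_le_iff_mem _ _).2 hbX
    refine sup_le hDi (sup_le ?_ (le_sup_left.trans le_sup_left))
    intro y hy
    rw [← hgi] at hy
    obtain ⟨w, hw, rfl⟩ := (mem_img Q).1 hy
    obtain ⟨w', hw', z, hz, rfl⟩ := Submodule.mem_sup.1 (le_perp_sup_span h2 hb hQb hw)
    obtain ⟨c, rfl⟩ := Submodule.mem_span_singleton.1 hz
    rw [Matrix.mulVec_add, Matrix.mulVec_smul]
    refine add_mem (Submodule.mem_sup_left (Submodule.mem_sup_right (Submodule.mem_sup_right ?_)))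
      (Submodule.mem_sup_right (Submodule.smul_mem _ _ hgbX))
    rw [← hW'def] at hw'
    exact (mem_img Q).2 ⟨w', hw', rfl⟩
  have hXeq := orth_eq_of_sup_eq_top hQ hPnd hX htop'
  have hXplus := plus_cancel hQ htop hPnd hP
  rw [hXeq] at hXplus
  obtain ⟨U, hUX, hU, hUk⟩ := hXplus
  have hb0 : b ≠ 0 := by
    rintro rfl
    simp at hQb
  have hXne : Submodule.span F {b, g ⋆ b} ≠ ⊥ := by
    intro h
    have : b ∈ Submodule.span F {b, g ⋆ b} := Submodule.subset_span (by simp)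
    rw [h, Submodule.mem_bot] at this
    exact hb0 this
  have hUne : U ≠ ⊥ := by
    rintro rfl
    rw [finrank_bot] at hUk
    exact hXne (Submodule.finrank_eq_zero.1 (by omega))
  obtain ⟨u, huU, hu0⟩ := Submodule.exists_mem_ne_zero_of_ne_bot hUne
  obtain ⟨α, β, rfl⟩ := Submodule.mem_span_pair.1 (hUX huU)
  have hQu := hU _ huU
  change Q (α • b + β • (g ⋆ b)) = 0 at hQu
  rw [Q_add, QuadraticMap.map_smul, QuadraticMap.map_smul, iso_apply (Q := ⇑Q),
    QuadraticMap.polar_smul_left, QuadraticMap.polar_smul_right,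
    H.orth i j hij b hb _ (hgD b hb)] at hQu
  simp only [smul_eq_mul, mul_zero, add_zero] at hQu
  have h3 : α * α + β * β = 0 := by
    have : (α * α + β * β) * Q b = 0 := by linear_combination hQu
    exact (mul_eq_zero.1 this).resolve_right hQb
  have hβ : β ≠ 0 := by
    rintro rfl
    have : α = 0 := by
      have : α * α = 0 := by linear_combination h3
      exact mul_self_eq_zero.1 this
    rw [this] at hu0
    simp at hu0
  apply hsq
  refine ⟨α / β, ?_⟩
  field_simp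
  linear_combination -h3

end Cfsg.Agent.Lib.Helper49TypeB
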