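import Mathlib
import Cfsg.Prelude.Def_Classical
import Cfsg.Prelude.Def_ClassicalGeometry
import Cfsg.Prelude.Def_GeometricClasses
import Cfsg.Agent.Lib.Helper49TypeB

/-!
# Nondegenerate subspaces of half the dimension (odd characteristic, odd dimension)
-/

set_option autoImplicit false
set_option linter.unusedSectionVars false

namespace Cfsg.Agent.Lib.Helper49TypeC

open scoped Matrix
open Module
open Cfsg.Agent.Lib.Helper49Orth Cfsg.Agent.Lib.Helper49Hyp Cfsg.Agent.Lib.Helper18Hyp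
  Cfsg.Agent.Lib.Helper49Eich Cfsg.Agent.Lib.Helper49Geo
  Cfsg.Agent.Lib.Helper49Fam Cfsg.Agent.Lib.Helper49Trans Cfsg.Agent.Lib.Helper49CharTwoA
  Cfsg.Agent.Lib.Helper49Frame Cfsg.Agent.Lib.Helper49Sub Cfsg.Agent.Lib.Helper49DecA
  Cfsg.Agent.Lib.Helper49DecC Cfsg.Agent.Lib.Helper49Bridge Cfsg.Agent.Lib.Helper49NM
  Cfsg.Agent.Lib.Helper49Type Cfsg.Agent.Lib.Helper49TypeB

variable {F : Type*} [Field F]
variable {ι : Type} [Fintype ι] [DecidableEq ι] {Q : QuadraticForm F (ι → F)}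

local notation "𝐁" => QuadraticMap.polar (DFunLike.coe Q)
local notation:max W "ᗮ" => LinearMap.BilinForm.orthogonal (QuadraticMap.polarBilin Q) W
local notation:72 g:72 " ⋆ " x:73 => Matrix.mulVec (Units.val (Subtype.val g)) x

theorem img_sup (g : ↥(Cfsg.isometryGroup F ⇑Q)) (X Y : Submodule F (ι → F)) :
    img Q g (X ⊔ Y) = img Q g X ⊔ img Q g Y := Submodule.map_sup _ _ _

theorem img_span_singleton' (g : ↥(Cfsg.isometryGroup F ⇑Q)) (x : ι → F) :
    img Q g (Submodule.span F {x}) = Submodule.span F {g ⋆ x} := by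
  unfold img
  rw [Submodule.map_span, Set.image_singleton]
  rfl

/-- Gluing: an isometry `X₂ → Y₂` can be modified so as to map a further vector `x₁ ⊥ X₂` to
`± y₁`, where `y₁ ⊥ Y₂` has the same norm. -/
theorem glue (h2 : (2 : F) ≠ 0) (g : ↥(Cfsg.isometryGroup F ⇑Q)) {X₂ Y₂ : Submodule F (ι → F)}
    (hg : img Q g X₂ = Y₂) {x₁ y₁ : ι → F} (hx : ∀ z ∈ X₂, 𝐁 x₁ z = 0) (hy : ∀ z ∈ Y₂, 𝐁 y₁ z = 0)
    (hQ₁ : Q x₁ = Q y₁) (hne : Q x₁ ≠ 0) :
    ∃ g' : ↥(Cfsg.isometryGroup F ⇑Q),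
      img Q g' (Submodule.span F {x₁} ⊔ X₂) = Submodule.span F {y₁} ⊔ Y₂ := by
  have hgx : ∀ z ∈ Y₂, 𝐁 (g ⋆ x₁) z = 0 := by
    intro z hz
    rw [← hg] at hz
    obtain ⟨w, hw, rfl⟩ := (mem_img Q).1 hz
    rw [polar_iso, hx w hw]
  have hQg : Q (g ⋆ x₁) = Q y₁ := by rw [iso_apply (Q := ⇑Q), hQ₁]
  have hfix : ∀ v : ι → F, (∀ z ∈ Y₂, 𝐁 v z = 0) → img Q (reflO' Q v * g) X₂ = Y₂ := by
    intro v hv
    rw [img_mul, hg]
    ext z
    rw [mem_img]
    constructor
    · rintro ⟨w, hw, rfl⟩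
      rwa [reflO'_of_orth Q (hv w hw)]
    · intro hz
      exact ⟨z, hz, reflO'_of_orth Q (hv z hz)⟩
  by_cases hd : Q (g ⋆ x₁ - y₁) = 0
  · have hs : Q (g ⋆ x₁ + y₁) ≠ 0 := by
      intro hs
      rw [Q_sub] at hd
      rw [Q_add] at hs
      have : 2 * (2 * Q y₁) = 0 := by
        rw [hQg] at hd hs
        linear_combination hd + hs
      rw [← hQ₁] at this
      exact (mul_ne_zero h2 (mul_ne_zero h2 hne)) this
    refine ⟨reflO' Q (g ⋆ x₁ + y₁) * g, ?_⟩
    rw [img_sup, hfix _ (fun z hz => by rw [QuadraticMap.polar_add_left, hgx z hz, hy z hz, add_zero]),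
      img_span_singleton', mul_mulVec, reflO'_add_apply Q hQg hs]
    congr 1
    rw [← neg_one_smul F y₁]
    exact Submodule.span_singleton_smul_eq (isUnit_iff_ne_zero.2 (neg_ne_zero.2 one_ne_zero)) _
  · refine ⟨reflO' Q (g ⋆ x₁ - y₁) * g, ?_⟩
    rw [img_sup, hfix _ (fun z hz => by rw [QuadraticMap.polar_sub_left, hgx z hz, hy z hz, sub_zero]),
      img_span_singleton', mul_mulVec, reflO'_sub_apply Q hQg hd]

/-- `X ⊓ xᗮ` for `x ∈ X ⊓ x₁ᗮ`. -/
theorem perp_split (h2 : (2 : F) ≠ 0) {X : Submodule F (ι → F)} {x₁ x : ι → F} (hx₁ : x₁ ∈ X)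
    (hQx₁ : Q x₁ ≠ 0) (hx : 𝐁 x₁ x = 0) :
    X ⊓ (Submodule.span F {x})ᗮ
      = Submodule.span F {x₁} ⊔ (X ⊓ (Submodule.span F {x₁})ᗮ ⊓ (Submodule.span F {x})ᗮ) := by
  apply le_antisymm
  · rintro z ⟨hzX, hzx⟩
    obtain ⟨z', hz', w, hw, rfl⟩ := Submodule.mem_sup.1 (le_perp_sup_span h2 hx₁ hQx₁ hzX)
    obtain ⟨c, rfl⟩ := Submodule.mem_span_singleton.1 hw
    rw [add_comm]
    refine Submodule.add_mem_sup hw ⟨hz', ?_⟩
    rw [SetLike.mem_coe, mem_orth_span_singleton] at hzx ⊢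
    rw [QuadraticMap.polar_add_right, QuadraticMap.polar_smul_right,
      QuadraticMap.polar_comm ⇑Q x x₁, hx, smul_zero, add_zero] at hzx
    exact hzx
  · apply sup_le
    · rw [Submodule.span_singleton_le_iff_mem]
      refine ⟨hx₁, ?_⟩
      rw [SetLike.mem_coe, mem_orth_span_singleton, QuadraticMap.polar_comm, hx]
    · exact inf_le_inf_right _ inf_le_left

/-- Any two nondegenerate spaces of the same positive dimension have isometric nondegenerate
hyperplanes. -/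
theorem exists_iso_hyperplane [Fintype F] (h2 : (2 : F) ≠ 0) :
    ∀ (m : ℕ) (X Y : Submodule F (ι → F)), X ⊓ Xᗮ = ⊥ → Y ⊓ Yᗮ = ⊥ → finrank F X = m + 1 →
      finrank F Y = m + 1 → ∃ x ∈ X, ∃ y ∈ Y, Q x ≠ 0 ∧ Q y ≠ 0 ∧
        ∃ g : ↥(Cfsg.isometryGroup F ⇑Q),
          img Q g (X ⊓ (Submodule.span F {x})ᗮ) = Y ⊓ (Submodule.span F {y})ᗮ := by
  intro m
  induction m with
  | zero =>
    intro X Y hX hY hXk hYk
    have hXne : X ≠ ⊥ := by
      rintro rfl
      rw [finrank_bot] at hXk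
      omega
    have hYne : Y ≠ ⊥ := by
      rintro rfl
      rw [finrank_bot] at hYk
      omega
    obtain ⟨x, hx, hQx⟩ := exists_nonsingular_of_nondeg hX hXne
    obtain ⟨y, hy, hQy⟩ := exists_nonsingular_of_nondeg hY hYne
    have h1 := finrank_perp_eq h2 hX hx hQx
    have h3 := finrank_perp_eq h2 hY hy hQy
    have e1 : X ⊓ (Submodule.span F {x})ᗮ = ⊥ := Submodule.finrank_eq_zero.1 (by omega)
    have e2 : Y ⊓ (Submodule.span F {y})ᗮ = ⊥ := Submodule.finrank_eq_zero.1 (by omega)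
    refine ⟨x, hx, y, hy, hQx, hQy, 1, ?_⟩
    rw [e1, e2, img_one]
  | succ m ih =>
    intro X Y hX hY hXk hYk
    obtain ⟨x₁, hx₁, hQx₁⟩ := exists_Q_eq_sub Q h2 hX (by omega) 1
    obtain ⟨y₁, hy₁, hQy₁⟩ := exists_Q_eq_sub Q h2 hY (by omega) 1
    have hx₁0 : Q x₁ ≠ 0 := by rw [hQx₁]; exact one_ne_zero
    have hy₁0 : Q y₁ ≠ 0 := by rw [hQy₁]; exact one_ne_zero
    obtain ⟨hX₁, -⟩ := perp_nondeg Q h2 hX hx₁ hx₁0
    obtain ⟨hY₁, -⟩ := perp_nondeg Q h2 hY hy₁ hy₁0
    have hXk₁ := finrank_perp_eq h2 hX hx₁ hx₁0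
    have hYk₁ := finrank_perp_eq h2 hY hy₁ hy₁0
    obtain ⟨x, hx, y, hy, hQx, hQy, g, hg⟩ := ih _ _ hX₁ hY₁ (by omega) (by omega)
    have hxx : 𝐁 x₁ x = 0 := (mem_orth_span_singleton Q).1 hx.2
    have hyy : 𝐁 y₁ y = 0 := (mem_orth_span_singleton Q).1 hy.2
    obtain ⟨g', hg'⟩ := glue h2 g hg (x₁ := x₁) (y₁ := y₁)
      (fun z hz => (mem_orth_span_singleton Q).1 hz.1.2)
      (fun z hz => (mem_orth_span_singleton Q).1 hz.1.2) (by rw [hQx₁, hQy₁]) hx₁0
    refine ⟨x, hx.1, y, hy.1, hQx, hQy, g', ?_⟩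
    rw [perp_split h2 hx₁ hx₁0 hxx, perp_split h2 hy₁ hy₁0 hyy, hg']

theorem orth_nondeg (hQ : (QuadraticMap.polarBilin Q).Nondegenerate) {W : Submodule F (ι → F)}
    (hW : W ⊓ Wᗮ = ⊥) : Wᗮ ⊓ Wᗮᗮ = ⊥ := by
  rw [LinearMap.BilinForm.orthogonal_orthogonal hQ (polarBilin_isRefl Q), inf_comm, hW]

theorem sup_orth_eq_top (hQ : (QuadraticMap.polarBilin Q).Nondegenerate)
    {W : Submodule F (ι → F)} (hW : W ⊓ Wᗮ = ⊥) : W ⊔ Wᗮ = ⊤ := by
  apply Submodule.eq_top_of_finrank_eq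
  rw [finrank_sup_of_disj hW, Module.finrank_fintype_fun_eq_card]
  have := finrank_orth_add Q hQ W
  omega

/-- The type of a plane spanned by two orthogonal nonsingular vectors. -/
theorem plus_span_pair_iff (hQ : (QuadraticMap.polarBilin Q).Nondegenerate) {x y : ι → F}
    (hx : Q x ≠ 0) (hy : Q y ≠ 0) (hxy : 𝐁 x y = 0)
    (hnd : Submodule.span F {x, y} ⊓ (Submodule.span F {x, y})ᗮ = ⊥) :
    Cfsg.Geo.IsPlusTypeOn ⇑Q (Submodule.span F {x, y}) ↔ IsSquare (-(Q y / Q x)) := by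
  have hQc : ∀ α β : F, Q (α • x + β • y) = α * α * Q x + β * β * Q y := by
    intro α β
    rw [Q_add, QuadraticMap.map_smul, QuadraticMap.map_smul, QuadraticMap.polar_smul_left,
      QuadraticMap.polar_smul_right, hxy]
    simp
  have hx0 : x ≠ 0 := by
    rintro rfl
    simp at hx
  constructor
  · rintro ⟨U, hUX, hU, hUk⟩
    have hXne : Submodule.span F {x, y} ≠ ⊥ := by
      intro h
      have : x ∈ Submodule.span F {x, y} := Submodule.subset_span (by simp)
      rw [h, Submodule.mem_bot] at this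
      exact hx0 this
    have hUne : U ≠ ⊥ := by
      rintro rfl
      rw [finrank_bot] at hUk
      exact hXne (Submodule.finrank_eq_zero.1 (by omega))
    obtain ⟨u, huU, hu0⟩ := Submodule.exists_mem_ne_zero_of_ne_bot hUne
    obtain ⟨α, β, rfl⟩ := Submodule.mem_span_pair.1 (hUX huU)
    have hQu : Q (α • x + β • y) = 0 := hU _ huU
    rw [hQc] at hQu
    have hα : α ≠ 0 := by
      rintro rfl
      have : β = 0 := by
        have : β * β * Q y = 0 := by linear_combination hQu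
        exact mul_self_eq_zero.1 ((mul_eq_zero.1 this).resolve_right hy)
      rw [this] at hu0
      simp at hu0
    have hβ : β ≠ 0 := by
      rintro rfl
      have : α * α * Q x = 0 := by linear_combination hQu
      exact hα (mul_self_eq_zero.1 ((mul_eq_zero.1 this).resolve_right hx))
    refine ⟨α / β, ?_⟩
    field_simp
    linear_combination -hQu
  · rintro ⟨c, hc⟩
    have hQu : Q (c • x + (1 : F) • y) = 0 := by
      rw [hQc, ← hc]
      field_simp
      ring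
    have hu0 : c • x + (1 : F) • y ≠ 0 := by
      intro h
      have h1 : 𝐁 y (c • x + (1 : F) • y) = 0 := by rw [h]; simp
      rw [QuadraticMap.polar_add_right, QuadraticMap.polar_smul_right,
        QuadraticMap.polar_smul_right, QuadraticMap.polar_comm ⇑Q y x, hxy,
        QuadraticMap.polar_self] at h1
      have h3 : 𝐁 x (c • x + (1 : F) • y) = 0 := by rw [h]; simp
      rw [QuadraticMap.polar_add_right, QuadraticMap.polar_smul_right,
        QuadraticMap.polar_smul_right, hxy, QuadraticMap.polar_self] at h3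
      simp only [smul_eq_mul, mul_zero, zero_add, one_mul, add_zero, nsmul_eq_mul,
        Nat.cast_ofNat] at h1 h3
      have h2' : (2 : F) = 0 := (mul_eq_zero.1 h1).resolve_right hy
      -- in characteristic two the plane would be degenerate
      have : x ∈ Submodule.span F {x, y} ⊓ (Submodule.span F {x, y})ᗮ := by
        refine ⟨Submodule.subset_span (by simp), ?_⟩
        rw [SetLike.mem_coe, mem_orth_span_pair, QuadraticMap.polar_self,
          QuadraticMap.polar_comm ⇑Q y x, hxy]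
        refine ⟨?_, rfl⟩
        rw [two_smul, ← two_mul, h2', zero_mul]
      rw [hnd, Submodule.mem_bot] at this
      exact hx0 this
    apply plus_of_le hQ hnd (U := Submodule.span F {c • x + (1 : F) • y})
    · rw [Submodule.span_singleton_le_iff_mem]
      exact Submodule.mem_span_pair.2 ⟨c, 1, rfl⟩
    · exact ts_span hQu
    · rw [finrank_span_singleton hu0]
      exact finrank_span_pair_le x y

/-- A nondegenerate subspace `W` of odd dimension `k` in a space of dimension `2k`, `q` odd: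
if (plus type iff `-1` is a square), then `W` and its orthogonal complement are isometric. -/
theorem half_iso [Fintype F] (hQ : (QuadraticMap.polarBilin Q).Nondegenerate) (h2 : (2 : F) ≠ 0)
    {W : Submodule F (ι → F)} (hW : W ⊓ Wᗮ = ⊥) {r : ℕ} (hk : finrank F W = 2 * r + 1)
    (hn : Fintype.card ι = 2 * (2 * r + 1))
    (h : Cfsg.Geo.IsPlusTypeOn ⇑Q ⊤ ↔ IsSquare (-1 : F)) :
    ∃ g : ↥(Cfsg.isometryGroup F ⇑Q), img Q g W = Wᗮ := by
  have hW' := orth_nondeg hQ hW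
  have hk' : finrank F (Wᗮ : Submodule F (ι → F)) = 2 * r + 1 := by
    have := finrank_orth_add Q hQ W
    omega
  obtain ⟨x, hx, y, hy, hQx, hQy, g, hg⟩ := exists_iso_hyperplane h2 (2 * r) W Wᗮ hW hW' hk hk'
  obtain ⟨hW₀, -⟩ := perp_nondeg Q h2 hW hx hQx
  have hk₀ := finrank_perp_eq h2 hW hx hQx
  obtain ⟨W₀, hW₀def⟩ : ∃ W₀, W₀ = W ⊓ (Submodule.span F {x})ᗮ := ⟨_, rfl⟩
  rw [← hW₀def] at hW₀ hk₀ hg
  have hW₀W : W₀ ≤ W := by rw [hW₀def]; exact inf_le_left
  have hgW₀ : img Q g W₀ ≤ Wᗮ := by rw [hg]; exact inf_le_left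
  have hxy : 𝐁 x y = 0 := mem_orth.1 hy x hx
  have horth₀ : ∀ u ∈ W₀, ∀ v ∈ img Q g W₀, 𝐁 u v = 0 :=
    fun u hu v hv => mem_orth.1 (hgW₀ hv) u (hW₀W hu)
  have hP := plus_pair_even hQ h2 g r W₀ hW₀ (by omega)
    (fun u hu v hv => horth₀ u hu _ ((mem_img Q).2 ⟨v, hv, rfl⟩))
  have hPnd := nondeg_sup hW₀ (img_nondeg g hW₀) horth₀
  have hxW₀ : ∀ z ∈ W₀, 𝐁 x z = 0 := by
    intro z hz
    rw [hW₀def] at hz
    exact (mem_orth_span_singleton Q).1 hz.2
  have hyW₀' : ∀ z ∈ img Q g W₀, 𝐁 y z = 0 := by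
    intro z hz
    rw [hg] at hz
    exact (mem_orth_span_singleton Q).1 hz.2
  have hX : Submodule.span F {x, y} ≤ (W₀ ⊔ img Q g W₀)ᗮ := by
    rw [Submodule.span_le, orth_sup]
    rintro z (hz | hz)
    · rw [hz]
      refine ⟨mem_orth.2 fun w hw => ?_, mem_orth.2 fun w hw => ?_⟩
      · rw [QuadraticMap.polar_comm]; exact hxW₀ w hw
      · rw [QuadraticMap.polar_comm]; exact mem_orth.1 (hgW₀ hw) x hx
    · rw [Set.mem_singleton_iff.1 hz]
      refine ⟨mem_orth.2 fun w hw => ?_, mem_orth.2 fun w hw => ?_⟩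
      · exact mem_orth.1 hy w (hW₀W hw)
      · rw [QuadraticMap.polar_comm]; exact hyW₀' w hw
  have hxX : x ∈ Submodule.span F {x, y} := Submodule.subset_span (by simp)
  have hyX : y ∈ Submodule.span F {x, y} := Submodule.subset_span (by simp)
  have htop : (W₀ ⊔ img Q g W₀) ⊔ Submodule.span F {x, y} = ⊤ := by
    rw [eq_top_iff, ← sup_orth_eq_top hQ hW]
    apply sup_le
    · refine (le_perp_sup_span h2 hx hQx).trans (sup_le_sup ?_ ?_)
      · rw [← hW₀def]; exact le_sup_left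
      · exact (Submodule.span_singleton_le_iff_mem _ _).2 hxX
    · refine (le_perp_sup_span h2 hy hQy).trans (sup_le_sup ?_ ?_)
      · rw [← hg]; exact le_sup_right
      · exact (Submodule.span_singleton_le_iff_mem _ _).2 hyX
  have hXeq := orth_eq_of_sup_eq_top hQ hPnd hX htop
  have hXnd : Submodule.span F {x, y} ⊓ (Submodule.span F {x, y})ᗮ = ⊥ := by
    rw [← hXeq]
    exact orth_nondeg hQ hPnd
  have hiff : Cfsg.Geo.IsPlusTypeOn ⇑Q ⊤ ↔ IsSquare (-(Q y / Q x)) := by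
    rw [← plus_span_pair_iff hQ hQx hQy hxy hXnd]
    constructor
    · intro ht
      have := plus_cancel hQ ht hPnd hP
      rwa [hXeq] at this
    · intro hp
      rw [← htop]
      exact plus_sup' hP hp hPnd hX
  -- so `Q y / Q x` is a square
  have hsq : IsSquare (Q y / Q x) := by
    have hne : Q y / Q x ≠ 0 := div_ne_zero hQy hQx
    by_contra hns
    by_cases h1 : IsSquare (-1 : F)
    · have h3 := hiff.1 (h.2 h1)
      obtain ⟨c, hc⟩ := h1
      obtain ⟨e, he⟩ := h3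
      apply hns
      have hc0 : c ≠ 0 := by
        rintro rfl
        simp at hc
      refine ⟨e / c, ?_⟩
      have h4 : Q y / Q x = (e * e) / (c * c) := by
        rw [← he, ← hc, neg_div_neg_eq, div_one]
      rw [h4]
      field_simp
    · have h3 : IsSquare (-(Q y / Q x)) := by
        have := (Cfsg.Agent.Lib.Helper49Disc.isSquare_mul_nonsquare_iff hne h1).2 hns
        rwa [mul_neg_one] at this
      exact h1 (h.1 (hiff.2 h3))
  obtain ⟨c, hc⟩ := hsq
  have hc0 : c ≠ 0 := by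
    rintro rfl
    rw [mul_zero] at hc
    exact (div_ne_zero hQy hQx) hc
  obtain ⟨g', hg'⟩ := glue h2 g rfl (x₁ := x) (y₁ := c⁻¹ • y) hxW₀
    (fun z hz => by rw [QuadraticMap.polar_smul_left, hyW₀' z hz, smul_zero])
    (by
      rw [QuadraticMap.map_smul, smul_eq_mul]
      have : Q y = c * c * Q x := by
        rw [← hc]
        field_simp
      rw [this]
      field_simp) hQx
  refine ⟨g', ?_⟩
  have e1 : Submodule.span F {x} ⊔ W₀ = W := by
    apply le_antisymm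
    · exact sup_le ((Submodule.span_singleton_le_iff_mem _ _).2 hx) hW₀W
    · rw [sup_comm, hW₀def]
      exact le_perp_sup_span h2 hx hQx
  have e2 : Submodule.span F {c⁻¹ • y} ⊔ img Q g W₀ = Wᗮ := by
    rw [Submodule.span_singleton_smul_eq (isUnit_iff_ne_zero.2 (inv_ne_zero hc0))]
    apply le_antisymm
    · exact sup_le ((Submodule.span_singleton_le_iff_mem _ _).2 hy) hgW₀
    · rw [sup_comm, hg]
      exact le_perp_sup_span h2 hy hQy
  conv_lhs => rw [← e1]
  rw [hg', e2]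

end Cfsg.Agent.Lib.Helper49TypeC
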