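import Mathlib
import Cfsg.Prelude.Def_Classical
import Cfsg.Prelude.Def_ClassicalGeometry
import Cfsg.Prelude.Def_GeometricClasses
import Cfsg.Agent.Lib.Helper49TypeC

/-!
# Type library: statements for an abstract nondegenerate quadratic form
-/

set_option autoImplicit false
set_option linter.unusedSectionVars false

namespace Cfsg.Agent.Lib.Helper49TypeD

open scoped Matrix
open Module
open Cfsg.Agent.Lib.Helper49Orth Cfsg.Agent.Lib.Helper49Hyp Cfsg.Agent.Lib.Helper18Hyp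
  Cfsg.Agent.Lib.Helper49Eich Cfsg.Agent.Lib.Helper49Geo
  Cfsg.Agent.Lib.Helper49Fam Cfsg.Agent.Lib.Helper49Trans Cfsg.Agent.Lib.Helper49CharTwoA
  Cfsg.Agent.Lib.Helper49Frame Cfsg.Agent.Lib.Helper49Sub Cfsg.Agent.Lib.Helper49DecA
  Cfsg.Agent.Lib.Helper49DecC Cfsg.Agent.Lib.Helper49Bridge Cfsg.Agent.Lib.Helper49NM
  Cfsg.Agent.Lib.Helper49Type Cfsg.Agent.Lib.Helper49TypeB Cfsg.Agent.Lib.Helper49TypeC

variable {F : Type*} [Field F]
variable {ι : Type} [Fintype ι] [DecidableEq ι]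

section QF

variable {Q : QuadraticForm F (ι → F)}

local notation "𝐁" => QuadraticMap.polar (DFunLike.coe Q)
local notation:max W "ᗮ" => LinearMap.BilinForm.orthogonal (QuadraticMap.polarBilin Q) W
local notation:72 g:72 " ⋆ " x:73 => Matrix.mulVec (Units.val (Subtype.val g)) x

theorem inf_orth_eq_bot_of {W : Submodule F (ι → F)}
    (hW : Cfsg.Geo.IsNondegenerateOn (QuadraticMap.polar ⇑Q) W) : W ⊓ Wᗮ = ⊥ := by
  rw [eq_bot_iff]
  rintro w ⟨hw, hw'⟩
  rw [Submodule.mem_bot]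
  by_contra h0
  obtain ⟨⟨y, hy, hyw⟩, -⟩ := hW w hw h0
  exact hyw (mem_orth.1 hw' y hy)

theorem nondegOn_of {W : Submodule F (ι → F)} (hW : W ⊓ Wᗮ = ⊥) :
    Cfsg.Geo.IsNondegenerateOn (QuadraticMap.polar ⇑Q) W := by
  intro w hw h0
  obtain ⟨y, hy, hwy⟩ := exists_polar_ne_zero_sub Q hW hw h0
  exact ⟨⟨y, hy, by rwa [QuadraticMap.polar_comm]⟩, ⟨y, hy, hwy⟩⟩

theorem img_orth (hQ : (QuadraticMap.polarBilin Q).Nondegenerate)
    (g : ↥(Cfsg.isometryGroup F ⇑Q)) (W : Submodule F (ι → F)) :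
    img Q g Wᗮ = (img Q g W)ᗮ := by
  apply Submodule.eq_of_le_of_finrank_eq
  · intro y hy
    obtain ⟨z, hz, rfl⟩ := (mem_img Q).1 hy
    rw [mem_orth]
    intro w' hw'
    obtain ⟨w, hw, rfl⟩ := (mem_img Q).1 hw'
    rw [polar_iso]
    exact mem_orth.1 hz w hw
  · have h1 := finrank_orth_add Q hQ W
    have h2 := finrank_orth_add Q hQ (img Q g W)
    rw [finrank_img] at h2 ⊢
    omega

theorem isometric_of_img (g : ↥(Cfsg.isometryGroup F ⇑Q)) (W : Submodule F (ι → F)) :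
    Cfsg.Geo.AreIsometricFor ⇑Q W (img Q g W) :=
  ⟨Submodule.equivMapOfInjective _ (mulVecLin_injective Q g) W, fun w =>
    iso_apply (Q := ⇑Q) g _⟩

/-- The decomposition `W ⊕ Wᗮ`. -/
theorem pair_decomp (hQ : (QuadraticMap.polarBilin Q).Nondegenerate) {W : Submodule F (ι → F)}
    (hW : W ⊓ Wᗮ = ⊥) {k : ℕ} (hk0 : 0 < k) (hk : finrank F W = k)
    (hn : Fintype.card ι = 2 * k) :
    Cfsg.Geo.IsNondegenerateMDecomposition (QuadraticMap.polar ⇑Q) k ![W, Wᗮ] where
  decomp :=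
    { two_le := le_rfl
      pos := hk0
      finrank_eq := by
        intro i
        have := finrank_orth_add Q hQ W
        fin_cases i
        · exact hk
        · change finrank F (Wᗮ : Submodule F (ι → F)) = k
          omega
      indep := by
        rw [iSupIndep_pair (i := (0 : Fin 2)) (j := 1) (by decide) (by decide)]
        exact disjoint_iff.2 hW
      iSup_eq_top := by
        rw [eq_top_iff, ← sup_orth_eq_top hQ hW]
        exact sup_le (le_iSup ![W, Wᗮ] 0) (le_iSup ![W, Wᗮ] 1) }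
  nondegenerate := by
    intro i
    fin_cases i
    · exact nondegOn_of hW
    · exact nondegOn_of (orth_nondeg hQ hW)
  orthogonal := by
    intro i j hij u hu v hv
    fin_cases i <;> fin_cases j
    · exact absurd rfl hij
    · exact mem_orth.1 hv u hu
    · rw [QuadraticMap.polar_comm]
      exact mem_orth.1 hu v hv
    · exact absurd rfl hij

theorem stab_le_dstab_pair (hQ : (QuadraticMap.polarBilin Q).Nondegenerate)
    (W : Submodule F (ι → F)) : stab Q W ≤ dstab Q ![W, Wᗮ] := by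
  intro g hg
  have hg' : img Q g W = W := hg
  refine ⟨1, fun i => ?_⟩
  fin_cases i
  · exact hg'
  · change img Q g Wᗮ = Wᗮ
    rw [img_orth hQ, hg']

end QF

section Abstract

variable [Fintype F] {Q : (ι → F) → F} {t k : ℕ} {D : Fin t → Submodule F (ι → F)}

theorem isSquare_neg_one_iff_mod (h2 : (2 : F) ≠ 0) :
    IsSquare (-1 : F) ↔ Fintype.card F % 4 = 1 := by
  rw [FiniteField.isSquare_neg_one_iff]
  have hodd : Fintype.card F % 2 = 1 :=
    FiniteField.odd_card_of_char_ne_two (Cfsg.Agent.Lib.Helper17SymmForm.ringChar_ne_two h2)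
  omega

/-- An isometric decomposition into two blocks from a nondegenerate one. -/
theorem orthogonal_of_isometric {D : Fin 2 → Submodule F (ι → F)}
    (hD : Cfsg.Geo.IsNondegenerateMDecomposition (QuadraticMap.polar Q) k D)
    (h : Cfsg.Geo.AreIsometricFor Q (D 0) (D 1)) : Cfsg.Geo.IsOrthogonalMDecomposition Q k D where
  decomp := hD
  isometric := by
    obtain ⟨e, he⟩ := h
    intro i j
    fin_cases i <;> fin_cases j
    · exact ⟨LinearEquiv.refl _ _, fun _ => rfl⟩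
    · exact ⟨e, he⟩
    · exact ⟨e.symm, fun w => by
        have := he (e.symm w)
        rw [LinearEquiv.apply_symm_apply] at this
        exact this.symm⟩
    · exact ⟨LinearEquiv.refl _ _, fun _ => rfl⟩

/-- `k` odd, `t ≡ 2 mod 4` isometric blocks: plus type iff `q ≡ 1 mod 4`. -/
theorem dec_odd_iff (hQ : Cfsg.Geo.IsNondegenerateQuadraticForm Q) (h2 : (2 : F) ≠ 0)
    (hD : Cfsg.Geo.IsOrthogonalMDecomposition Q k D) (hk : Odd k) (ht : t % 4 = 2) :
    Cfsg.Geo.IsPlusTypeOn Q ⊤ ↔ Fintype.card F % 4 = 1 := by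
  have hnd := toQF_nondegenerate hQ
  have hD' : Cfsg.Geo.IsOrthogonalMDecomposition (⇑(toQF hQ)) k D := hD
  have H := dec_of hD'
  rw [← isSquare_neg_one_iff_mod h2]
  constructor
  · intro h
    exact H.neg_one_sq hnd hk ht h
  · intro h
    exact H.plus_top hnd ⟨t / 2, by omega⟩ (Or.inr (Or.inl h))

/-- `k` even, `t` odd: if the space is of plus type then so are the blocks. -/
theorem dec_block_plus (hQ : Cfsg.Geo.IsNondegenerateQuadraticForm Q)
    (hD : Cfsg.Geo.IsOrthogonalMDecomposition Q k D) (hk : Even k) (ht : Odd t)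
    (htop : Cfsg.Geo.IsPlusTypeOn Q ⊤) (i : Fin t) : Cfsg.Geo.IsPlusTypeOn Q (D i) := by
  have hnd := toQF_nondegenerate hQ
  have hD' : Cfsg.Geo.IsOrthogonalMDecomposition (⇑(toQF hQ)) k D := hD
  exact (dec_of hD').block_plus hnd (Or.inl hk) ht htop i

/-- A nondegenerate subspace of odd dimension `k` in dimension `2k`, `q` odd. -/
theorem half_space (hQ : Cfsg.Geo.IsNondegenerateQuadraticForm Q) (h2 : (2 : F) ≠ 0)
    {W : Submodule F (ι → F)} (hW : Cfsg.Geo.IsNondegenerateOn (QuadraticMap.polar Q) W) {r : ℕ}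
    (hk : finrank F W = 2 * r + 1) (hn : Fintype.card ι = 2 * (2 * r + 1)) :
    ∃ D : Fin 2 → Submodule F (ι → F), D 0 = W ∧
      Cfsg.Geo.IsNondegenerateMDecomposition (QuadraticMap.polar Q) (2 * r + 1) D ∧
      Cfsg.Geo.subspaceStabilizer W ⊓ Cfsg.isometryGroup F Q
        ≤ Cfsg.Geo.decompositionStabilizer D ∧
      (Cfsg.Geo.AreIsometricFor Q (D 0) (D 1) ↔
        (Cfsg.Geo.IsPlusTypeOn Q ⊤ ↔ Fintype.card F % 4 = 1)) := by
  have hnd := toQF_nondegenerate hQ
  have hW' : W ⊓ LinearMap.BilinForm.orthogonal (QuadraticMap.polarBilin (toQF hQ)) W = ⊥ :=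
    inf_orth_eq_bot_of (Q := toQF hQ) hW
  have hdec := pair_decomp hnd hW' (by omega) hk hn
  refine ⟨_, rfl, hdec, ?_, ?_⟩
  · rintro g ⟨hgW, hgQ⟩
    exact stab_le_dstab_pair hnd W
      ((coe_mem_subspaceStabilizer_iff (toQF hQ) W ⟨g, hgQ⟩).1 hgW)
  · constructor
    · intro h
      exact dec_odd_iff hQ h2 (orthogonal_of_isometric hdec h) ⟨r, rfl⟩ (by norm_num)
    · intro h
      rw [← isSquare_neg_one_iff_mod h2] at h
      obtain ⟨g, hg⟩ := half_iso hnd h2 hW' hk hn h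
      have := isometric_of_img g W
      rw [hg] at this
      exact this

theorem card_ne_six : Fintype.card F ≠ 6 := by
  intro h
  have := FiniteField.isPrimePow_card F
  rw [h] at this
  revert this
  decide

/-- Blocks of dimension two, `q < 7`, plus type, an odd number `t ≥ 5` of blocks:
the stabiliser is not maximal. -/
theorem dec_two_not_max (hQ : Cfsg.Geo.IsNondegenerateQuadraticForm Q)
    (hD : Cfsg.Geo.IsOrthogonalMDecomposition Q 2 D) (ht : 5 ≤ t)
    (hpl : Fintype.card F = 3 ∨ ∀ i, Cfsg.Geo.IsPlusTypeOn Q (D i)) (hq : Fintype.card F < 7) :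
    ∃ K : Subgroup (Matrix.GeneralLinearGroup ι F),
      Cfsg.Geo.decompositionStabilizer D ⊓ Cfsg.Geo.omegaGL Q < K ∧ K < Cfsg.Geo.omegaGL Q := by
  classical
  have hnd := toQF_nondegenerate hQ
  have hD' : Cfsg.Geo.IsOrthogonalMDecomposition (⇑(toQF hQ)) 2 D := hD
  have hmul := mul_eq_card hD'
  have H := dec_of hD'
  have h1 : 1 < Fintype.card F := Fintype.one_lt_card
  have h6 := card_ne_six (F := F)
  rcases hpl with h3 | hpl
  · exact decomposition_not_max (toQF hQ) h3 hnd (by omega) (Or.inl rfl) D hD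
  · obtain h | h | h | h : Fintype.card F = 2 ∨ Fintype.card F = 3 ∨ Fintype.card F = 4 ∨
        Fintype.card F = 5 := by omega
    · exact not_max_two_two (Q := toQF hQ) h hnd (by omega) H (by omega) hpl
    · exact decomposition_not_max (toQF hQ) h hnd (by omega) (Or.inl rfl) D hD
    · exact not_max_two_four (Q := toQF hQ) h hnd (by omega) H (by omega) hpl
    · exact not_max_two_five (Q := toQF hQ) h hnd (by omega) H (by omega) hpl

/-- Plus type, dimension `2m`: the stabiliser in `Ω` of a totally singular `(m-1)`-space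
stabilises a totally singular `m`-space. -/
theorem ts_submax (hQ : Cfsg.Geo.IsNondegenerateQuadraticForm Q) {m : ℕ}
    (hn : Fintype.card ι = 2 * m) (h5 : 5 ≤ Fintype.card ι)
    (hplus : Cfsg.Geo.IsPlusTypeOn Q ⊤) {W : Submodule F (ι → F)}
    (hW : Cfsg.Geo.IsTotallySingularQuad Q W) (hWm : finrank F W + 1 = m) :
    ∃ U : Submodule F (ι → F), Cfsg.Geo.IsTotallySingularQuad Q U ∧ finrank F U = m ∧ W ≤ U ∧
      Cfsg.Geo.subspaceStabilizer W ⊓ Cfsg.Geo.omegaGL Q ≤ Cfsg.Geo.subspaceStabilizer U := by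
  have hnd := toQF_nondegenerate hQ
  have hdim' : finrank F (ι → F) = 2 * m := by rw [Module.finrank_fintype_fun_eq_card, hn]
  obtain ⟨X0, -, hX0, hX0d⟩ := hplus
  rw [finrank_top, hdim'] at hX0d
  obtain ⟨U, -, -, ⟨hU, hUm, hWU⟩, -⟩ := Cfsg.Agent.Lib.Helper18Hyp.two_max
    (Q := toQF hQ) hnd hdim' hX0 (by omega) hW hWm
  refine ⟨U, hU, hUm, hWU, ?_⟩
  rintro x ⟨hxW, hxΩ⟩
  obtain ⟨g, hg, rfl⟩ := exists_of_mem_omegaGL (toQF hQ) hxΩ
  rw [coe_mem_subspaceStabilizer_iff]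
  exact Cfsg.Agent.Lib.Helper49Par2.stab_submax_le _ hnd hn (Or.inr (by omega)) hU hUm hWU hWm
    ⟨(coe_mem_subspaceStabilizer_iff (toQF hQ) W g).1 hxW, hg⟩

/-- Two complementary totally singular subspaces of odd dimension are not interchanged by `Ω`. -/
theorem pair_fix (hQ : Cfsg.Geo.IsNondegenerateQuadraticForm Q) (hk : Odd k)
    (hn : Fintype.card ι = 2 * k) (h5 : 5 ≤ Fintype.card ι) {D : Fin 2 → Submodule F (ι → F)}
    (hD : Cfsg.Geo.IsMDecomposition k D) (hTS : ∀ i, Cfsg.Geo.IsTotallySingularQuad Q (D i)) :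
    Cfsg.Geo.decompositionStabilizer D ⊓ Cfsg.Geo.omegaGL Q
      ≤ Cfsg.Geo.subspaceStabilizer (D 0) := by
  have hnd := toQF_nondegenerate hQ
  rintro x ⟨⟨σ, hσ⟩, hxΩ⟩
  obtain ⟨g, hg, rfl⟩ := exists_of_mem_omegaGL (toQF hQ) hxΩ
  rw [coe_mem_subspaceStabilizer_iff]
  have h0 : img (toQF hQ) g (D 0) = D (σ 0) := hσ 0
  have hinf : D 0 ⊓ D 1 = ⊥ := disjoint_iff.1 (hD.indep.pairwiseDisjoint (by decide))
  have hne := Cfsg.Agent.Lib.Helper49Par2.pair_not_swap (toQF hQ) hnd hn (Or.inr (by omega)) hk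
    (D0 := D 0) (D1 := D 1) (hTS 0) (hD.finrank_eq 0) hinf hg
  change img (toQF hQ) g (D 0) = D 0
  rw [h0]
  obtain h | h : σ 0 = 0 ∨ σ 0 = 1 := by
    generalize σ 0 = a
    fin_cases a <;> simp
  · rw [h]
  · rw [h] at h0
    exact absurd h0 hne

end Abstract

end Cfsg.Agent.Lib.Helper49TypeD
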