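import Mathlib
import Cfsg.Prelude.Def_Classical
import Cfsg.Prelude.Def_ClassicalGeometry
import Cfsg.Prelude.Def_GeometricClasses
import Cfsg.Agent.Lib.Helper49TypeD

/-!
# ASCH-O piece `lalgodd`: the canonical quadratic extension of a self-adjoint field of degree `n/2`
-/

set_option autoImplicit false
set_option linter.unusedSectionVars false

namespace Cfsg.Agent.Lib.Helper49OLalgodd

open Cfsg Cfsg.Geo Matrix Module
open Cfsg.Agent.Lib.Helper49Bridge Cfsg.Agent.Lib.Helper49TypeD Cfsg.Agent.Lib.Helper49TypeC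
  Cfsg.Agent.Lib.Helper49TypeB Cfsg.Agent.Lib.Helper49Type Cfsg.Agent.Lib.Helper18Hyp
  Cfsg.Agent.Lib.Helper49Geo Cfsg.Agent.Lib.Helper49Orth
open scoped MatrixGroups

variable {ι : Type} [Fintype ι] [DecidableEq ι] {F : Type*} [Field F]

section Core

variable {Q : QuadraticForm F (ι → F)} {K : Subalgebra F (Matrix ι ι F)}

local notation "𝐁" => QuadraticMap.polar (DFunLike.coe Q)
local notation:max W "ᗮ" => LinearMap.BilinForm.orthogonal (QuadraticMap.polarBilin Q) W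

/-- Evaluation at a vector. -/
def ev (K : Subalgebra F (Matrix ι ι F)) (v : ι → F) : ↥K →ₗ[F] (ι → F) where
  toFun a := (a : Matrix ι ι F) *ᵥ v
  map_add' a b := by rw [Subalgebra.coe_add, Matrix.add_mulVec]
  map_smul' c a := by rw [Subalgebra.coe_smul, Matrix.smul_mulVec, RingHom.id_apply]

theorem ev_apply (v : ι → F) (a : ↥K) : ev K v a = (a : Matrix ι ι F) *ᵥ v := rfl

/-- The functional `a ↦ 𝐁 (a u) v`. -/
def tau (Q : QuadraticForm F (ι → F)) (K : Subalgebra F (Matrix ι ι F)) (u v : ι → F) :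
    ↥K →ₗ[F] F := ((QuadraticMap.polarBilin Q).flip v) ∘ₗ ev K u

theorem tau_apply (u v : ι → F) (a : ↥K) : tau Q K u v a = 𝐁 ((a : Matrix ι ι F) *ᵥ u) v := rfl

theorem eq_zero_of_tau (hc : ∀ a b : ↥K, a * b = b * a)
    (hinv : ∀ a : ↥K, a ≠ 0 → ∃ a' : ↥K, a * a' = 1) {τ : ↥K →ₗ[F] F} (hτ : τ ≠ 0) {α : ↥K}
    (h : ∀ a, τ (α * a) = 0) : α = 0 := by
  by_contra hα
  obtain ⟨α', hα'⟩ := hinv α hα
  apply hτ
  ext c
  have := h (α' * c)
  rwa [← mul_assoc, hα', one_mul] at this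

theorem exists_repr (hc : ∀ a b : ↥K, a * b = b * a)
    (hinv : ∀ a : ↥K, a ≠ 0 → ∃ a' : ↥K, a * a' = 1) {τ : ↥K →ₗ[F] F} (hτ : τ ≠ 0)
    (σ : ↥K →ₗ[F] F) : ∃ δ : ↥K, ∀ a, σ a = τ (δ * a) := by
  have hinj : Function.Injective ((LinearMap.mul F ↥K).compr₂ τ) := by
    rw [← LinearMap.ker_eq_bot, LinearMap.ker_eq_bot']
    intro α hα
    apply eq_zero_of_tau hc hinv hτ
    intro a
    have := LinearMap.congr_fun hα a
    simpa using this
  have hsurj := (LinearMap.injective_iff_surjective_of_finrank_eq_finrank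
    (f := (LinearMap.mul F ↥K).compr₂ τ) (Subspace.dual_finrank_eq (K := F) (V := ↥K)).symm).1 hinj
  obtain ⟨δ, hδ⟩ := hsurj σ
  refine ⟨δ, fun a => ?_⟩
  rw [← hδ]
  simp

theorem matrix_ext_mulVec {x y : Matrix ι ι F} (h : ∀ v, x *ᵥ v = y *ᵥ v) : x = y := by
  apply Matrix.toLin'.injective
  apply LinearMap.ext
  intro v
  rw [Matrix.toLin'_apply, Matrix.toLin'_apply, h]

theorem core (hQ : (QuadraticMap.polarBilin Q).Nondegenerate) (h2 : (2 : F) ≠ 0) {r : ℕ}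
    (hr : 0 < r) (hK : IsFieldSubalgebra r K)
    (hsa : IsSelfAdjointFor (QuadraticMap.polar ⇑Q) K) (hn : Fintype.card ι = 2 * r) :
    ∃ j : Matrix ι ι F, (∀ k ∈ K, j * k = k * j) ∧ (∀ u v, 𝐁 (j *ᵥ u) v = - 𝐁 u (j *ᵥ v)) ∧
      (∃ d ∈ K, j * j = d) ∧ j ≠ 0 ∧
      ∀ x : Matrix ι ι F, (∀ k ∈ K, x * k = k * x) → (∀ u v, 𝐁 (x *ᵥ u) v = - 𝐁 u (x *ᵥ v)) →
        ∃ c ∈ K, x = c * j := by
  have hc : ∀ a b : ↥K, a * b = b * a := fun a b => Subtype.ext (hK.comm a a.2 b b.2)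
  have hinv : ∀ a : ↥K, a ≠ 0 → ∃ a' : ↥K, a * a' = 1 := by
    intro a ha
    obtain ⟨y, hy, hay⟩ := hK.inv a a.2 (fun h => ha (Subtype.ext h))
    exact ⟨⟨y, hy⟩, Subtype.ext hay⟩
  have hmv : ∀ (a b : ↥K) (v : ι → F),
      ((a * b : ↥K) : Matrix ι ι F) *ᵥ v = (a : Matrix ι ι F) *ᵥ ((b : Matrix ι ι F) *ᵥ v) := by
    intro a b v
    rw [Matrix.mulVec_mulVec]
    rfl
  have hsa' : ∀ (a : ↥K) (u v : ι → F),
      𝐁 ((a : Matrix ι ι F) *ᵥ u) v = 𝐁 u ((a : Matrix ι ι F) *ᵥ v) := fun a u v => hsa a a.2 u v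
  -- `𝐁 (a u) (b w) = 𝐁 ((b a) u) w`
  have P1 : ∀ (a b : ↥K) (u w : ι → F), 𝐁 ((a : Matrix ι ι F) *ᵥ u) ((b : Matrix ι ι F) *ᵥ w)
      = tau Q K u w (b * a) := by
    intro a b u w
    rw [tau_apply, hmv, hsa' b]
  have hevinj : ∀ v : ι → F, v ≠ 0 → Function.Injective (ev K v) := by
    intro v hv
    rw [← LinearMap.ker_eq_bot, LinearMap.ker_eq_bot']
    intro a ha
    by_contra ha0
    obtain ⟨a', ha'⟩ := hinv a ha0
    apply hv
    have h1 : ((a' * a : ↥K) : Matrix ι ι F) *ᵥ v = 0 := by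
      rw [hmv]
      rw [ev_apply] at ha
      rw [ha, Matrix.mulVec_zero]
    rw [hc, ha'] at h1
    simpa using h1
  -- the first vector
  obtain ⟨v₁, -, hQv₁⟩ := exists_nonsingular_orth Q hQ (S := ⊥) (by rw [finrank_bot]; omega)
  have hv₁0 : v₁ ≠ 0 := by
    rintro rfl
    simp at hQv₁
  -- the second vector
  have hfr₁ : finrank F (LinearMap.range (ev K v₁)) = r := by
    rw [LinearMap.finrank_range_of_inj (hevinj v₁ hv₁0), hK.finrank_eq]
  have hne : (LinearMap.range (ev K v₁))ᗮ ≠ ⊥ := by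
    intro h
    have := finrank_orth_add Q hQ (LinearMap.range (ev K v₁))
    rw [h, finrank_bot] at this
    omega
  obtain ⟨v₂, hv₂, hv₂0⟩ := Submodule.exists_mem_ne_zero_of_ne_bot hne
  have h12 : ∀ c : ↥K, tau Q K v₁ v₂ c = 0 := by
    intro c
    rw [tau_apply]
    exact mem_orth.1 hv₂ _ ⟨c, rfl⟩
  have h21 : ∀ c : ↥K, tau Q K v₂ v₁ c = 0 := by
    intro c
    rw [tau_apply, hsa', QuadraticMap.polar_comm]
    exact h12 c
  obtain ⟨τ₁, hτ₁⟩ : ∃ τ₁, τ₁ = tau Q K v₁ v₁ := ⟨_, rfl⟩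
  obtain ⟨τ₂, hτ₂⟩ : ∃ τ₂, τ₂ = tau Q K v₂ v₂ := ⟨_, rfl⟩
  have hτ₁0 : τ₁ ≠ 0 := by
    intro h
    have h1 : τ₁ 1 = 0 := by rw [h]; rfl
    rw [hτ₁, tau_apply] at h1
    simp only [OneMemClass.coe_one, Matrix.one_mulVec, QuadraticMap.polar_self] at h1
    rw [two_smul, ← two_mul] at h1
    exact (mul_ne_zero h2 hQv₁) h1
  obtain ⟨Φ, hΦ⟩ : ∃ Φ : ↥K × ↥K →ₗ[F] (ι → F), ∀ a b : ↥K,
      Φ (a, b) = (a : Matrix ι ι F) *ᵥ v₁ + (b : Matrix ι ι F) *ᵥ v₂ :=
    ⟨(ev K v₁).coprod (ev K v₂), fun a b => rfl⟩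
  have hB : ∀ a b a' b' : ↥K, 𝐁 (Φ (a, b)) (Φ (a', b')) = τ₁ (a' * a) + τ₂ (b' * b) := by
    intro a b a' b'
    rw [hΦ, hΦ, QuadraticMap.polar_add_left, QuadraticMap.polar_add_right,
      QuadraticMap.polar_add_right, P1, P1, P1, P1, h12, h21, hτ₁, hτ₂]
    ring
  have hΦinj : Function.Injective Φ := by
    rw [← LinearMap.ker_eq_bot, LinearMap.ker_eq_bot']
    rintro ⟨a, b⟩ hab
    have ha : a = 0 := by
      apply eq_zero_of_tau hc hinv hτ₁0
      intro c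
      have := hB a b c 0
      rw [hab] at this
      simp only [QuadraticMap.polar_zero_left, zero_mul, map_zero, add_zero] at this
      rw [hc, ← this]
    rw [hΦ, ha] at hab
    simp only [ZeroMemClass.coe_zero, Matrix.zero_mulVec, zero_add] at hab
    have hb : b = 0 := hevinj v₂ hv₂0 (by rw [ev_apply, hab, map_zero])
    rw [ha, hb]
    rfl
  have hΦsurj : Function.Surjective Φ := by
    apply (LinearMap.injective_iff_surjective_of_finrank_eq_finrank ?_).1 hΦinj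
    rw [Module.finrank_prod, hK.finrank_eq, Module.finrank_fintype_fun_eq_card, hn]
    ring
  have hτ₂0 : τ₂ ≠ 0 := by
    intro h
    apply hv₂0
    have hz : ∀ y, 𝐁 y v₂ = 0 := by
      intro y
      obtain ⟨⟨a, b⟩, rfl⟩ := hΦsurj y
      have := hB a b 0 1
      rw [h] at this
      simp only [zero_mul, map_zero, LinearMap.zero_apply, add_zero] at this
      rw [← this, hΦ 0 1]
      simp
    by_contra h0
    obtain ⟨y, hy⟩ := Cfsg.Agent.Lib.Helper49CharTwoA.exists_polar_ne_zero Q hQ h0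
    exact hy (by rw [QuadraticMap.polar_comm]; exact hz y)
  obtain ⟨δ, hδ⟩ := exists_repr hc hinv hτ₁0 τ₂
  let _ : CommRing ↥K := { (inferInstance : Ring ↥K) with mul_comm := hc }
  obtain ⟨j, hj⟩ : ∃ j : Matrix ι ι F, ∀ a b : ↥K, j *ᵥ Φ (a, b) = Φ (δ * b, -a) := by
    refine ⟨LinearMap.toMatrix' (Φ ∘ₗ (LinearMap.prod ((LinearMap.mul F ↥K δ) ∘ₗ
      LinearMap.snd F ↥K ↥K) (-(LinearMap.fst F ↥K ↥K))) ∘ₗ
      (LinearEquiv.ofBijective Φ ⟨hΦinj, hΦsurj⟩).symm.toLinearMap), fun a b => ?_⟩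
    rw [LinearMap.toMatrix'_mulVec]
    have : (LinearEquiv.ofBijective Φ ⟨hΦinj, hΦsurj⟩).symm (Φ (a, b)) = (a, b) := by
      rw [LinearEquiv.symm_apply_eq]
      rfl
    simp only [LinearMap.comp_apply, LinearEquiv.coe_coe, this]
    rfl
  have hkΦ : ∀ k a b : ↥K, (k : Matrix ι ι F) *ᵥ Φ (a, b) = Φ (k * a, k * b) := by
    intro k a b
    rw [hΦ, hΦ, Matrix.mulVec_add, hmv, hmv]
  refine ⟨j, ?_, ?_, ⟨((-δ : ↥K) : Matrix ι ι F), (-δ : ↥K).2, ?_⟩, ?_, ?_⟩
  · intro k hk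
    apply matrix_ext_mulVec
    intro v
    obtain ⟨⟨a, b⟩, rfl⟩ := hΦsurj v
    rw [← Matrix.mulVec_mulVec, ← Matrix.mulVec_mulVec, hkΦ ⟨k, hk⟩, hj, hj, hkΦ ⟨k, hk⟩]
    congr 2 <;> ring
  · intro u v
    obtain ⟨⟨a, b⟩, rfl⟩ := hΦsurj u
    obtain ⟨⟨a', b'⟩, rfl⟩ := hΦsurj v
    rw [hj, hj, hB, hB, hδ, hδ]
    have e1 : δ * (b' * -a) = -(δ * b' * a) := by ring
    have e2 : δ * (-a' * b) = -(a' * (δ * b)) := by ring
    rw [e1, e2, map_neg, map_neg]
    ring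
  · apply matrix_ext_mulVec
    intro v
    obtain ⟨⟨a, b⟩, rfl⟩ := hΦsurj v
    rw [← Matrix.mulVec_mulVec, hj, hj, hkΦ]
    congr 2 <;> ring
  · intro h0
    have := hj 1 0
    rw [h0, Matrix.zero_mulVec, hΦ] at this
    simp only [mul_zero, ZeroMemClass.coe_zero, Matrix.zero_mulVec, zero_add, NegMemClass.coe_neg,
      OneMemClass.coe_one, Matrix.neg_mulVec, Matrix.one_mulVec] at this
    exact hv₂0 (neg_eq_zero.1 this.symm)
  · intro x hxK hxs
    obtain ⟨⟨α, β⟩, h1⟩ := hΦsurj (x *ᵥ v₁)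
    obtain ⟨⟨γ, ε⟩, h3⟩ := hΦsurj (x *ᵥ v₂)
    have hv₁Φ : ∀ a : ↥K, (a : Matrix ι ι F) *ᵥ v₁ = Φ (a, 0) := by
      intro a
      rw [hΦ]
      simp
    have hv₂Φ : ∀ a : ↥K, (a : Matrix ι ι F) *ᵥ v₂ = Φ (0, a) := by
      intro a
      rw [hΦ]
      simp
    have hx₁ : ∀ a : ↥K, x *ᵥ Φ (a, 0) = Φ (a * α, a * β) := by
      intro a
      rw [← hv₁Φ, Matrix.mulVec_mulVec, hxK a a.2, ← Matrix.mulVec_mulVec, ← h1, hkΦ]
    have hx₂ : ∀ a : ↥K, x *ᵥ Φ (0, a) = Φ (a * γ, a * ε) := by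
      intro a
      rw [← hv₂Φ, Matrix.mulVec_mulVec, hxK a a.2, ← Matrix.mulVec_mulVec, ← h3, hkΦ]
    have hα : α = 0 := by
      apply eq_zero_of_tau hc hinv hτ₁0
      intro a
      have := hxs (Φ (a, 0)) (Φ (1, 0))
      rw [hx₁, hx₁, hB, hB] at this
      simp only [one_mul, zero_mul, mul_zero, map_zero, add_zero] at this
      have e : α * a = a * α := by ring
      rw [e] at this ⊢
      have h4 : 2 * τ₁ (a * α) = 0 := by linear_combination this
      exact (mul_eq_zero.1 h4).resolve_left h2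
    have hε : ε = 0 := by
      apply eq_zero_of_tau hc hinv hτ₂0
      intro a
      have := hxs (Φ (0, a)) (Φ (0, 1))
      rw [hx₂, hx₂, hB, hB] at this
      simp only [one_mul, zero_mul, mul_zero, map_zero, zero_add] at this
      have e : ε * a = a * ε := by ring
      rw [e] at this ⊢
      have h4 : 2 * τ₂ (a * ε) = 0 := by linear_combination this
      exact (mul_eq_zero.1 h4).resolve_left h2
    have hγ : γ + δ * β = 0 := by
      apply eq_zero_of_tau hc hinv hτ₁0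
      intro a
      have := hxs (Φ (a, 0)) (Φ (0, 1))
      rw [hx₁, hx₂, hB, hB] at this
      simp only [one_mul, zero_mul, mul_zero, map_zero, zero_add, add_zero] at this
      rw [hδ] at this
      have e : (γ + δ * β) * a = δ * (a * β) + γ * a := by ring
      rw [e, map_add]
      linear_combination this
    refine ⟨((-β : ↥K) : Matrix ι ι F), (-β : ↥K).2, ?_⟩
    apply matrix_ext_mulVec
    intro v
    obtain ⟨⟨a, b⟩, rfl⟩ := hΦsurj v
    have hsplit : Φ (a, b) = Φ (a, 0) + Φ (0, b) := by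
      rw [← map_add]
      simp
    rw [← Matrix.mulVec_mulVec, hj, hkΦ]
    conv_lhs => rw [hsplit, Matrix.mulVec_add, hx₁, hx₂, ← map_add]
    have hγ' : γ = -(δ * β) := eq_neg_of_add_eq_zero_left hγ
    rw [hα, hε, hγ']
    congr 1
    ext1
    · simp only [Prod.mk_add_mk]
      ring
    · simp only [Prod.mk_add_mk]
      ring

theorem exists_L (hQ : (QuadraticMap.polarBilin Q).Nondegenerate) (h2 : (2 : F) ≠ 0) {r : ℕ}
    (hK : IsFieldSubalgebra r K) (hsa : IsSelfAdjointFor (QuadraticMap.polar ⇑Q) K)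
    (hn : Fintype.card ι = 2 * r) :
    ∃ L : Subalgebra F (Matrix ι ι F), (∀ x ∈ L, ∀ y ∈ L, x * y = y * x) ∧
      IsAdjointClosedFor (QuadraticMap.polar ⇑Q) L ∧ Module.finrank F L = 2 * r ∧
      ∀ g : GL ι F, g ∈ isometryGroup F ⇑Q → g ∈ subalgebraNormalizer K →
        ∀ x ∈ L, (g : Matrix ι ι F) * x * ((g⁻¹ : GL ι F) : Matrix ι ι F) ∈ L := by
  rcases Nat.eq_zero_or_pos r with hr | hr
  · refine ⟨K, hK.comm, fun k hk => ⟨k, hk, hsa k hk⟩, by rw [hK.finrank_eq, hr], ?_⟩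
    intro g _ hg x hx
    exact (hg x).1 hx
  obtain ⟨j, hjK, hjs, ⟨d, hd, hjj⟩, hj0, hS⟩ := core hQ h2 hr hK hsa hn
  have hmul : ∀ a b a' b' : Matrix ι ι F, a' ∈ K → b' ∈ K →
      (a + b * j) * (a' + b' * j) = (a * a' + b * b' * d) + (a * b' + b * a') * j := by
    intro a b a' b' ha' hb'
    have e1 : b * j * a' = b * a' * j := by rw [mul_assoc, hjK a' ha', ← mul_assoc]
    have e2 : b * j * (b' * j) = b * b' * d := by
      rw [mul_assoc, ← mul_assoc j b' j, hjK b' hb', mul_assoc b' j j, hjj, ← mul_assoc]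
    rw [add_mul, mul_add, mul_add, e1, e2, add_mul, ← mul_assoc]
    abel
  obtain ⟨L, hL⟩ : ∃ L : Subalgebra F (Matrix ι ι F),
      ∀ x, x ∈ L ↔ ∃ a ∈ K, ∃ b ∈ K, x = a + b * j := by
    refine ⟨{ carrier := {x | ∃ a ∈ K, ∃ b ∈ K, x = a + b * j}
              mul_mem' := ?_
              add_mem' := ?_
              algebraMap_mem' := ?_ }, fun x => Iff.rfl⟩
    · rintro _ _ ⟨a, ha, b, hb, rfl⟩ ⟨a', ha', b', hb', rfl⟩
      exact ⟨_, K.add_mem (K.mul_mem ha ha') (K.mul_mem (K.mul_mem hb hb') hd), _,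
        K.add_mem (K.mul_mem ha hb') (K.mul_mem hb ha'), hmul a b a' b' ha' hb'⟩
    · rintro _ _ ⟨a, ha, b, hb, rfl⟩ ⟨a', ha', b', hb', rfl⟩
      exact ⟨_, K.add_mem ha ha', _, K.add_mem hb hb', by rw [add_mul]; abel⟩
    · intro c
      exact ⟨_, K.algebraMap_mem c, 0, K.zero_mem, by simp⟩
  have hbj : ∀ b ∈ K, ∀ u v, 𝐁 ((b * j) *ᵥ u) v = - 𝐁 u ((b * j) *ᵥ v) := by
    intro b hb u v
    rw [← Matrix.mulVec_mulVec, hsa b hb, hjs, Matrix.mulVec_mulVec, hjK b hb]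
  refine ⟨L, ?_, ?_, ?_, ?_⟩
  · intro x hx y hy
    obtain ⟨a, ha, b, hb, rfl⟩ := (hL x).1 hx
    obtain ⟨a', ha', b', hb', rfl⟩ := (hL y).1 hy
    rw [hmul a b a' b' ha' hb', hmul a' b' a b ha hb, hK.comm a ha a' ha', hK.comm b hb b' hb',
      hK.comm a ha b' hb', hK.comm b hb a' ha', add_comm (b' * a)]
  · intro x hx
    obtain ⟨a, ha, b, hb, rfl⟩ := (hL x).1 hx
    refine ⟨a + (-b) * j, (hL _).2 ⟨a, ha, -b, K.neg_mem hb, rfl⟩, fun u v => ?_⟩
    rw [Matrix.add_mulVec, Matrix.add_mulVec, QuadraticMap.polar_add_left,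
      QuadraticMap.polar_add_right, hsa a ha, hbj b hb, neg_mul, Matrix.neg_mulVec,
      QuadraticMap.polar_neg_right]
  · obtain ⟨Ψ, hΨ⟩ : ∃ Ψ : ↥K × ↥K →ₗ[F] Matrix ι ι F, ∀ a b : ↥K,
        Ψ (a, b) = (a : Matrix ι ι F) + (b : Matrix ι ι F) * j :=
      ⟨(K.val.toLinearMap).coprod ((LinearMap.mulRight F j) ∘ₗ K.val.toLinearMap),
        fun a b => rfl⟩
    have hinj : Function.Injective Ψ := by
      rw [← LinearMap.ker_eq_bot, LinearMap.ker_eq_bot']
      rintro ⟨a, b⟩ hab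
      rw [hΨ] at hab
      have hbja : (b : Matrix ι ι F) * j = -(a : Matrix ι ι F) := by
        rw [eq_neg_iff_add_eq_zero, add_comm]
        exact hab
      have ha0 : (a : Matrix ι ι F) = 0 := by
        apply matrix_ext_mulVec
        intro u
        rw [Matrix.zero_mulVec]
        by_contra h0
        obtain ⟨y, hy⟩ := Cfsg.Agent.Lib.Helper49CharTwoA.exists_polar_ne_zero Q hQ h0
        apply hy
        have h3 := hbj b b.2 u y
        rw [hbja, Matrix.neg_mulVec, Matrix.neg_mulVec, QuadraticMap.polar_neg_left,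
          QuadraticMap.polar_neg_right, neg_neg, ← hsa a a.2] at h3
        have h4 : 2 * 𝐁 ((a : Matrix ι ι F) *ᵥ u) y = 0 := by linear_combination -h3
        exact (mul_eq_zero.1 h4).resolve_left h2
      have hb0 : (b : Matrix ι ι F) = 0 := by
        by_contra h0
        obtain ⟨b', hb', hbb'⟩ := hK.inv b b.2 h0
        apply hj0
        rw [ha0, neg_zero] at hbja
        have : b' * ((b : Matrix ι ι F) * j) = j := by
          rw [← mul_assoc, hK.comm b' hb' b b.2, hbb', one_mul]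
        rw [← this, hbja, mul_zero]
      exact Prod.ext (Subtype.ext ha0) (Subtype.ext hb0)
    have hrange : LinearMap.range Ψ = Subalgebra.toSubmodule L := by
      ext x
      rw [Subalgebra.mem_toSubmodule, hL]
      constructor
      · rintro ⟨⟨a, b⟩, rfl⟩
        exact ⟨a, a.2, b, b.2, hΨ a b⟩
      · rintro ⟨a, ha, b, hb, rfl⟩
        exact ⟨(⟨a, ha⟩, ⟨b, hb⟩), hΨ _ _⟩
    rw [← Subalgebra.finrank_toSubmodule, ← hrange, LinearMap.finrank_range_of_inj hinj,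
      Module.finrank_prod, hK.finrank_eq]
    ring
  · intro g hgQ hgK x hx
    obtain ⟨a, ha, b, hb, rfl⟩ := (hL x).1 hx
    obtain ⟨G, hG⟩ : ∃ G : Matrix ι ι F, G = (g : Matrix ι ι F) := ⟨_, rfl⟩
    obtain ⟨G', hG'⟩ : ∃ G' : Matrix ι ι F, G' = ((g⁻¹ : GL ι F) : Matrix ι ι F) := ⟨_, rfl⟩
    have hGG' : G * G' = 1 := by rw [hG, hG']; exact Units.mul_inv g
    have hG'G : G' * G = 1 := by rw [hG, hG']; exact Units.inv_mul g
    rw [← hG, ← hG']
    have hconj : ∀ k ∈ K, G * k * G' ∈ K := by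
      intro k hk
      rw [hG, hG']
      exact (hgK k).1 hk
    have hconj' : ∀ k ∈ K, G' * k * G ∈ K := by
      intro k hk
      have := ((subalgebraNormalizer K).inv_mem hgK k).1 hk
      rw [inv_inv] at this
      rw [hG, hG']
      exact this
    have hiso : ∀ u v, 𝐁 (G *ᵥ u) (G *ᵥ v) = 𝐁 u v := by
      intro u v
      rw [hG]
      exact polar_iso Q ⟨g, hgQ⟩ u v
    obtain ⟨c, hc, hcj⟩ := hS (G * j * G') (by
      intro k hk
      have hk' := hconj' k hk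
      have e : k = G * (G' * k * G) * G' := by
        have : G * (G' * k * G) * G' = (G * G') * k * (G * G') := by simp only [mul_assoc]
        rw [this, hGG', one_mul, mul_one]
      have e1 : G * j * G' * (G * (G' * k * G) * G') = G * (j * (G' * k * G)) * G' := by
        have : G * j * G' * (G * (G' * k * G) * G') = G * j * (G' * G) * (G' * k * G) * G' := by
          simp only [mul_assoc]
        rw [this, hG'G, mul_one]
        simp only [mul_assoc]
      have e2 : G * (G' * k * G) * G' * (G * j * G') = G * ((G' * k * G) * j) * G' := by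
        have : G * (G' * k * G) * G' * (G * j * G') = G * (G' * k * G) * (G' * G) * j * G' := by
          simp only [mul_assoc]
        rw [this, hG'G, mul_one]
        simp only [mul_assoc]
      conv_lhs => rw [e]
      conv_rhs => rw [e]
      rw [e1, e2, hjK _ hk']) (by
      intro u v
      have e1 : (G * j * G') *ᵥ u = G *ᵥ (j *ᵥ (G' *ᵥ u)) := by
        rw [Matrix.mulVec_mulVec, Matrix.mulVec_mulVec, mul_assoc]
      have e2 : (G * j * G') *ᵥ v = G *ᵥ (j *ᵥ (G' *ᵥ v)) := by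
        rw [Matrix.mulVec_mulVec, Matrix.mulVec_mulVec, mul_assoc]
      have e3 : ∀ w, G *ᵥ (G' *ᵥ w) = w := by
        intro w
        rw [Matrix.mulVec_mulVec, hGG', Matrix.one_mulVec]
      rw [e1, e2]
      conv_lhs => rw [← e3 v, hiso, hjs]
      conv_rhs => rw [← e3 u, hiso])
    refine (hL _).2 ⟨G * a * G', hconj a ha, G * b * G' * c, K.mul_mem (hconj b hb) hc, ?_⟩
    rw [mul_assoc (G * b * G') c j, ← hcj]
    have : G * b * G' * (G * j * G') = G * b * (G' * G) * j * G' := by simp only [mul_assoc]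
    rw [this, hG'G, mul_one, mul_add, add_mul]
    simp only [mul_assoc]

end Core

/-- [lalgodd] `q` odd, `K` self-adjoint of degree `n / 2`: the canonical commutative algebra
`L = K + {skew-adjoint elements of the centraliser of K}` of dimension `n`. -/
theorem exists_quadratic_ext_odd {Q : (ι → F) → F} (h2 : (2 : F) ≠ 0)
    (hQ : IsNondegenerateQuadraticForm Q)
    {r : ℕ} (K : Subalgebra F (Matrix ι ι F)) (hK : IsFieldSubalgebra r K)
    (hsa : IsSelfAdjointFor (QuadraticMap.polar Q) K) (hn : Fintype.card ι = 2 * r) :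
    ∃ L : Subalgebra F (Matrix ι ι F), (∀ x ∈ L, ∀ y ∈ L, x * y = y * x) ∧
      IsAdjointClosedFor (QuadraticMap.polar Q) L ∧ Module.finrank F L = 2 * r ∧
      ∀ g : GL ι F, g ∈ isometryGroup F Q → g ∈ subalgebraNormalizer K →
        ∀ x ∈ L, (g : Matrix ι ι F) * x * ((g⁻¹ : GL ι F) : Matrix ι ι F) ∈ L :=
  exists_L (Q := toQF hQ) (toQF_nondegenerate hQ) h2 hK hsa hn

end Cfsg.Agent.Lib.Helper49OLalgodd
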