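import Mathlib
import Cfsg.Prelude.Def_Classical
import Cfsg.Prelude.Def_ClassicalGeometry
import Cfsg.Prelude.Def_GeometricClasses
import Cfsg.Agent.Lib.Helper49TypeD
import Cfsg.Agent.Lib.Helper97OProper

/-!
# ASCH-O pieces `tsext`, `tsmax`, `pairfix`, `ppair`, `cancel`, `oddblocks`, `decsq`, `twononiso2`
and replacements for `planes23p`, `planes4p`, `planes5p`, `blocks4two`
-/

set_option autoImplicit false
set_option linter.unusedSectionVars false

namespace Cfsg.Agent.Lib.Helper49OPieces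

open Cfsg Cfsg.Geo Matrix
open Cfsg.Agent.Lib.Helper49Bridge Cfsg.Agent.Lib.Helper49TypeD Cfsg.Agent.Lib.Helper49TypeC
  Cfsg.Agent.Lib.Helper49TypeB Cfsg.Agent.Lib.Helper49Type
  Cfsg.Agent.Lib.Helper49DecA Cfsg.Agent.Lib.Helper49DecC Cfsg.Agent.Lib.Helper49NM
  Cfsg.Agent.Lib.Helper49Fam Cfsg.Agent.Lib.Helper49Trans
  Cfsg.Agent.Lib.Helper97OProper
open scoped MatrixGroups

variable {ι : Type} [Fintype ι] [DecidableEq ι] {F : Type*} [Field F]
variable {Q : (ι → F) → F} {H : Subgroup (GL ι F)}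

/-- [tsext] in a space of plus type every totally singular subspace lies in one of half the dimension. -/
theorem exists_max_ts (hQ : IsNondegenerateQuadraticForm Q) {l : ℕ} (hl : Fintype.card ι = 2 * l)
    (hplus : IsPlusTypeOn Q ⊤) {X : Submodule F (ι → F)} (hX : IsTotallySingularQuad Q X) :
    ∃ U : Submodule F (ι → F), X ≤ U ∧ IsTotallySingularQuad Q U ∧ Module.finrank F U = l := by
  obtain ⟨U, hXU, hU, hUk⟩ := exists_max_TS (Q := toQF hQ) (toQF_nondegenerate hQ) hplus hX
  exact ⟨U, hXU, hU, by omega⟩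

/-- [tsmax] a subgroup of `Ω` stabilising a totally singular subspace of dimension `l - 1` stabilises a
totally singular subspace of dimension `l`. -/
theorem stab_submax [Fintype F] (hQ : IsNondegenerateQuadraticForm Q) (hn : 5 ≤ Fintype.card ι) {l : ℕ}
    (hl : Fintype.card ι = 2 * l) (hplus : IsPlusTypeOn Q ⊤) (hH : H ≤ omegaGL Q)
    {W : Submodule F (ι → F)} (hW : IsTotallySingularQuad Q W) (hWl : Module.finrank F W + 1 = l)
    (hle : H ≤ subspaceStabilizer W) :
    ∃ U : Submodule F (ι → F), IsTotallySingularQuad Q U ∧ Module.finrank F U = l ∧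
      H ≤ subspaceStabilizer U := by
  obtain ⟨U, hU, hUl, -, hs⟩ := ts_submax hQ hl hn hplus hW hWl
  exact ⟨U, hU, hUl, (le_inf hle hH).trans hs⟩

theorem card_eq_of_two {k : ℕ} {D : Fin 2 → Submodule F (ι → F)} (hD : IsMDecomposition k D) :
    Fintype.card ι = 2 * k := by
  have h1 := finrank_sup_eq hD.indep Finset.univ
  rw [Finset.sup_univ_eq_iSup, hD.iSup_eq_top, finrank_top,
    Module.finrank_fintype_fun_eq_card] at h1
  simp only [hD.finrank_eq, Finset.sum_const, Finset.card_univ, Fintype.card_fin,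
    smul_eq_mul] at h1
  exact h1

/-- [pairfix] `Ω` does not interchange two complementary totally singular subspaces of odd dimension. -/
theorem pair_fix [Fintype F] (hQ : IsNondegenerateQuadraticForm Q) (hn : 5 ≤ Fintype.card ι)
    (hH : H ≤ omegaGL Q) {k : ℕ} (hk : Odd k) {D : Fin 2 → Submodule F (ι → F)}
    (hD : IsMDecomposition k D) (hTS : ∀ i, IsTotallySingularQuad Q (D i))
    (hle : H ≤ decompositionStabilizer D) : H ≤ subspaceStabilizer (D 0) :=
  (le_inf hle hH).trans (Cfsg.Agent.Lib.Helper49TypeD.pair_fix hQ hk (card_eq_of_two hD) hn hD hTS)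

/-- [ppair] `Ω` does not stabilise a pair of complementary totally singular subspaces. -/
theorem not_le_pair [Fintype F] (hQ : IsNondegenerateQuadraticForm Q) (hn : 5 ≤ Fintype.card ι) {k : ℕ}
    {D : Fin 2 → Submodule F (ι → F)} (hD : IsMDecomposition k D)
    (hTS : ∀ i, IsTotallySingularQuad Q (D i)) : ¬ omegaGL Q ≤ decompositionStabilizer D := by
  intro hle
  have hnd := toQF_nondegenerate hQ
  have hinf : D 0 ⊓ D 1 = ⊥ := disjoint_iff.1 (hD.indep.pairwiseDisjoint (by decide))
  obtain ⟨g, hg, hg0, hg1⟩ := Cfsg.Agent.Lib.Helper49Par2.exists_mem_stab_not_mem_stab_pair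
    (toQF hQ) hnd hn (card_eq_of_two hD) (D0 := D 0) (D1 := D 1) (hTS 0) (hTS 1)
    (hD.finrank_eq 0) (hD.finrank_eq 1) hinf
  obtain ⟨σ, hσ⟩ := hle ((coe_mem_omegaGL_iff (toQF hQ) g).2 hg)
  have h0 : img (toQF hQ) g (D 0) = D (σ 0) := hσ 0
  have h1 : img (toQF hQ) g (D 1) = D (σ 1) := hσ 1
  have hg0' : img (toQF hQ) g (D 0) = D 0 := hg0
  have hne : D 0 ≠ D 1 := by
    intro h
    rw [← h, inf_idem] at hinf
    have := hD.finrank_eq 0
    rw [hinf, finrank_bot] at this
    have := hD.pos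
    omega
  apply hg1
  change img (toQF hQ) g (D 1) = D 1
  rw [h1]
  have hσ0 : σ 0 = 0 := by
    rw [hg0'] at h0
    obtain h | h : σ 0 = 0 ∨ σ 0 = 1 := by
      generalize σ 0 = a
      fin_cases a <;> simp
    · exact h
    · rw [h] at h0
      exact absurd h0 hne
  have hσ1 : σ 1 = 1 := by
    obtain h | h : σ 1 = 0 ∨ σ 1 = 1 := by
      generalize σ 1 = a
      fin_cases a <;> simp
    · have := σ.injective (hσ0.trans h.symm)
      exact absurd this (by decide)
    · exact h
  rw [hσ1]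

/-- [cancel] the orthogonal complement of a subspace of plus type in a space of plus type. -/
theorem plus_orth_of_plus (hQ : IsNondegenerateQuadraticForm Q) (hplus : IsPlusTypeOn Q ⊤)
    {W : Submodule F (ι → F)} (hW : IsNondegenerateOn (QuadraticMap.polar Q) W)
    (hWp : IsPlusTypeOn Q W) : IsPlusTypeOn Q (orth hQ W) := by
  have h := plus_cancel (Q := toQF hQ) (toQF_nondegenerate hQ) hplus
    (inf_orth_eq_bot_of (Q := toQF hQ) hW) hWp
  have e : LinearMap.BilinForm.orthogonal (QuadraticMap.polarBilin (toQF hQ)) W = orth hQ W := by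
    ext x
    rw [Cfsg.Agent.Lib.Helper18Hyp.mem_orth, Cfsg.Agent.Lib.Helper97OProper.mem_orth]
    rfl
  rwa [e] at h

/-- [oddblocks] an odd number of isometric blocks of even dimension in a space of plus type. -/
theorem block_plus_of_odd [Fintype F] (hQ : IsNondegenerateQuadraticForm Q) {t k : ℕ}
    {D : Fin t → Submodule F (ι → F)} (hD : IsOrthogonalMDecomposition Q k D) (ht : Odd t) (hk : Even k)
    (hplus : IsPlusTypeOn Q ⊤) : ∀ i, IsPlusTypeOn Q (D i) :=
  dec_block_plus hQ hD hk ht hplus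

/-- [decsq] `q` odd: an even number of isometric blocks in a space of plus type: `(-1)^l` is a square. -/
theorem sq_of_dec_plus [Fintype F] (h2 : (2 : F) ≠ 0) (hQ : IsNondegenerateQuadraticForm Q) {t k : ℕ}
    {D : Fin t → Submodule F (ι → F)} (hD : IsOrthogonalMDecomposition Q k D) (ht : Even t) {l : ℕ}
    (hl : Fintype.card ι = 2 * l) (hplus : IsPlusTypeOn Q ⊤) : IsSquare ((-1 : F) ^ l) := by
  rcases Nat.even_or_odd l with hl' | hl'
  · rw [hl'.neg_one_pow]
    exact ⟨1, by ring⟩
  · rw [hl'.neg_one_pow]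
    have hnd := toQF_nondegenerate hQ
    have hD' : IsOrthogonalMDecomposition (⇑(toQF hQ)) k D := hD
    have hmul := mul_eq_card hD'
    obtain ⟨s, hs⟩ := ht
    have h3 : s * k = l := by
      have : (s + s) * k = 2 * (s * k) := by ring
      rw [hs, this] at hmul
      omega
    rw [← h3] at hl'
    have hsodd : Odd s := (Nat.odd_mul.1 hl').1
    have hkodd : Odd k := (Nat.odd_mul.1 hl').2
    obtain ⟨s', hs'⟩ := hsodd
    exact (dec_of hD').neg_one_sq hnd hkodd (by omega) hplus

/-- [twononiso2] (for ODD `k`) `q` odd: two non-isometric halves of a space of plus type: `(-1)^k` is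
not a square. -/
theorem not_sq_of_two_noniso [Fintype F] (h2 : (2 : F) ≠ 0) (hQ : IsNondegenerateQuadraticForm Q) {k : ℕ}
    (hk : Odd k)
    {D : Fin 2 → Submodule F (ι → F)} (hD : IsNondegenerateMDecomposition (QuadraticMap.polar Q) k D)
    (hniso : ¬ AreIsometricFor Q (D 0) (D 1)) (hplus : IsPlusTypeOn Q ⊤) :
    ¬ IsSquare ((-1 : F) ^ k) := by
  intro hsq
  apply hniso
  rw [hk.neg_one_pow] at hsq
  have hnd := toQF_nondegenerate hQ
  obtain ⟨r, hr⟩ := hk
  have hW' : D 0 ⊓ LinearMap.BilinForm.orthogonal (QuadraticMap.polarBilin (toQF hQ)) (D 0) = ⊥ :=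
    inf_orth_eq_bot_of (Q := toQF hQ) (hD.nondegenerate 0)
  have hle : D 1 ≤ LinearMap.BilinForm.orthogonal (QuadraticMap.polarBilin (toQF hQ)) (D 0) :=
    le_orth_of_forall (Q := toQF hQ) (hD.orthogonal 0 1 (by decide))
  have htop : D 0 ⊔ D 1 = ⊤ := by
    rw [eq_top_iff, ← hD.decomp.iSup_eq_top]
    apply iSup_le
    intro i
    fin_cases i
    · exact le_sup_left
    · exact le_sup_right
  have heq := orth_eq_of_sup_eq_top hnd hW' hle htop
  obtain ⟨g, hg⟩ := half_iso hnd h2 hW' (r := r) (by rw [hD.decomp.finrank_eq, hr])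
    (by rw [card_eq_of_two hD.decomp, hr]) ⟨fun _ => hsq, fun _ => hplus⟩
  have := isometric_of_img g (D 0)
  rw [hg, heq] at this
  exact this

/-- Replacement for [planes23p], [planes4p], [planes5p]: for `q < 7` a MAXIMAL subgroup of `Ω` does
not stabilise a decomposition into `t ≥ 5` isometric planes of plus type (for `q = 3`: of any type). -/
theorem planes_small_false [Fintype F] (hQ : IsNondegenerateQuadraticForm Q)
    (hH : IsMaximalIn (omegaGL Q) H) {t : ℕ} (ht : 5 ≤ t) (D : Fin t → Submodule F (ι → F))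
    (hD : IsOrthogonalMDecomposition Q 2 D)
    (hp : Fintype.card F = 3 ∨ ∀ i, IsPlusTypeOn Q (D i)) (hq : Fintype.card F < 7)
    (hle : H ≤ decompositionStabilizer D) : False := by
  obtain ⟨K, h1, h2⟩ := dec_two_not_max hQ hD ht hp hq
  have hHK : H ≤ K := (le_inf hle hH.1.le).trans h1.le
  rcases hH.2 K hHK h2.le with h | h
  · rw [h] at h1
    exact absurd (le_inf hle hH.1.le) (not_le_of_gt h1)
  · exact h2.ne h

/-- Replacement for [blocks4two]: for `q = 2` a MAXIMAL subgroup of `Ω` does not stabilise a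
decomposition into `t ≥ 3` isometric 4-spaces of plus type. -/
theorem blocks_four_two_false [Fintype F] (hq : Fintype.card F = 2)
    (hQ : IsNondegenerateQuadraticForm Q) (hH : IsMaximalIn (omegaGL Q) H) {t : ℕ} (ht : 3 ≤ t)
    (D : Fin t → Submodule F (ι → F)) (hD : IsOrthogonalMDecomposition Q 4 D)
    (hp : ∀ i, IsPlusTypeOn Q (D i)) (hle : H ≤ decompositionStabilizer D) : False := by
  have hnd := toQF_nondegenerate hQ
  have hD' : IsOrthogonalMDecomposition (⇑(toQF hQ)) 4 D := hD
  have hmul := mul_eq_card hD'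
  obtain ⟨K, h1, h2⟩ := not_max_four_two (Q := toQF hQ) hq hnd (by omega) (dec_of hD') ht hp
  have hHK : H ≤ K := (le_inf hle hH.1.le).trans h1.le
  rcases hH.2 K hHK h2.le with h | h
  · rw [h] at h1
    exact absurd (le_inf hle hH.1.le) (not_le_of_gt h1)
  · exact h2.ne h

end Cfsg.Agent.Lib.Helper49OPieces
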