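import Mathlib
import Cfsg.Prelude.Def_Classical
import Cfsg.Prelude.Def_ClassicalGeometry
import Cfsg.Prelude.Def_GeometricClasses
import Cfsg.Agent.Lib.Helper49TypeD

/-!
# ASCH-O pieces `twodec` and `twononiso`
-/

set_option autoImplicit false

namespace Cfsg.Agent.Lib.Helper49OTwodec

open Cfsg Cfsg.Geo Matrix
open Cfsg.Agent.Lib.Helper49Bridge Cfsg.Agent.Lib.Helper49TypeD Cfsg.Agent.Lib.Helper49TypeC
  Cfsg.Agent.Lib.Helper49TypeB Cfsg.Agent.Lib.Helper49Type Cfsg.Agent.Lib.Helper18Hyp
open scoped MatrixGroups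

variable {ι : Type} [Fintype ι] [DecidableEq ι] {F : Type*} [Field F]
variable {Q : (ι → F) → F} {H : Subgroup (GL ι F)}

theorem orthogonal_of_isometric' {k : ℕ} {D : Fin 2 → Submodule F (ι → F)}
    (hD : IsNondegenerateMDecomposition (QuadraticMap.polar Q) k D)
    (h : AreIsometricFor Q (D 0) (D 1)) : IsOrthogonalMDecomposition Q k D where
  decomp := hD
  isometric := by
    obtain ⟨e, he⟩ := h
    intro i j
    fin_cases i <;> fin_cases j
    · exact ⟨LinearEquiv.refl _ _, fun _ => rfl⟩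
    · exact ⟨e, he⟩
    · exact ⟨e.symm, fun w => by
        have := he (e.symm w)
        rw [LinearEquiv.apply_symm_apply] at this
        exact this.symm⟩
    · exact ⟨LinearEquiv.refl _ _, fun _ => rfl⟩

/-- [twodec] a non-degenerate subspace of half the dimension and its orthogonal complement. -/
theorem two_dec (hQ : IsNondegenerateQuadraticForm Q) (hH : H ≤ isometryGroup F Q)
    {W : Submodule F (ι → F)} (hW : IsNondegenerateOn (QuadraticMap.polar Q) W) {k : ℕ} (hk0 : 0 < k)
    (hk : Module.finrank F W = k) (hn : Fintype.card ι = 2 * k) (hle : H ≤ subspaceStabilizer W) :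
    ∃ D : Fin 2 → Submodule F (ι → F), D 0 = W ∧
      IsNondegenerateMDecomposition (QuadraticMap.polar Q) k D ∧ H ≤ decompositionStabilizer D ∧
      (AreIsometricFor Q (D 0) (D 1) → IsOrthogonalMDecomposition Q k D) := by
  have hnd := toQF_nondegenerate hQ
  have hW' : W ⊓ LinearMap.BilinForm.orthogonal (QuadraticMap.polarBilin (toQF hQ)) W = ⊥ :=
    inf_orth_eq_bot_of (Q := toQF hQ) hW
  have hdec := pair_decomp hnd hW' hk0 hk hn
  refine ⟨_, rfl, hdec, ?_, fun h => orthogonal_of_isometric' hdec h⟩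
  intro g hg
  exact stab_le_dstab_pair hnd W
    ((coe_mem_subspaceStabilizer_iff (toQF hQ) W ⟨g, hH hg⟩).1 (hle hg))

/-- [twononiso] `q` odd: two non-isometric orthogonal halves, `(-1)^k` not a square: plus type. -/
theorem plus_of_two_noniso [Fintype F] (h2 : (2 : F) ≠ 0) (hQ : IsNondegenerateQuadraticForm Q) {k : ℕ}
    {D : Fin 2 → Submodule F (ι → F)} (hD : IsNondegenerateMDecomposition (QuadraticMap.polar Q) k D)
    (hniso : ¬ AreIsometricFor Q (D 0) (D 1)) (hsq : ¬ IsSquare ((-1 : F) ^ k)) : IsPlusTypeOn Q ⊤ := by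
  by_contra hplus
  apply hniso
  have hnd := toQF_nondegenerate hQ
  have hkodd : Odd k := by
    rcases Nat.even_or_odd k with h | h
    · exfalso
      rw [h.neg_one_pow] at hsq
      exact hsq ⟨1, by ring⟩
    · exact h
  rw [hkodd.neg_one_pow] at hsq
  obtain ⟨r, hr⟩ := hkodd
  have hW' : D 0 ⊓ LinearMap.BilinForm.orthogonal (QuadraticMap.polarBilin (toQF hQ)) (D 0) = ⊥ :=
    inf_orth_eq_bot_of (Q := toQF hQ) (hD.nondegenerate 0)
  have hle : D 1 ≤ LinearMap.BilinForm.orthogonal (QuadraticMap.polarBilin (toQF hQ)) (D 0) :=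
    le_orth_of_forall (Q := toQF hQ) (hD.orthogonal 0 1 (by decide))
  have htop : D 0 ⊔ D 1 = ⊤ := by
    rw [eq_top_iff, ← hD.decomp.iSup_eq_top]
    apply iSup_le
    intro i
    fin_cases i
    · exact le_sup_left
    · exact le_sup_right
  have heq := orth_eq_of_sup_eq_top hnd hW' hle htop
  have hcard : Fintype.card ι = 2 * (2 * r + 1) := by
    have hd : D 0 ⊓ D 1 = ⊥ := by
      rw [eq_bot_iff, ← hW']
      exact inf_le_inf_left _ hle
    have h1 := finrank_sup_of_disj hd
    rw [htop, finrank_top, Module.finrank_fintype_fun_eq_card, hD.decomp.finrank_eq,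
      hD.decomp.finrank_eq] at h1
    omega
  obtain ⟨g, hg⟩ := half_iso hnd h2 hW' (r := r) (by rw [hD.decomp.finrank_eq, hr]) hcard
    ⟨fun h => absurd h hplus, fun h => absurd h hsq⟩
  have := isometric_of_img g (D 0)
  rw [hg, heq] at this
  exact this

end Cfsg.Agent.Lib.Helper49OTwodec
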