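import Mathlib
import Cfsg.Prelude.Def_Classical
import Cfsg.Prelude.Def_ClassicalGeometry
import Cfsg.Agent.Lib.Helper49Orth
import Cfsg.Agent.Lib.Helper49Hyp
import Cfsg.Agent.Lib.Helper49Eich
import Cfsg.Agent.Lib.Helper49Geo
import Cfsg.Agent.Lib.Helper49EichGen
import Cfsg.Agent.Lib.Helper49Perfect

set_option autoImplicit false
set_option linter.unusedSectionVars false

namespace Cfsg.Agent.Lib.Helper49Siegel

open scoped Matrix
open Module
open Cfsg.Agent.Lib.Helper49Orth Cfsg.Agent.Lib.Helper49Hyp Cfsg.Agent.Lib.Helper18Hyp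
  Cfsg.Agent.Lib.Helper49Eich Cfsg.Agent.Lib.Helper49Geo Cfsg.Agent.Lib.Helper49EichGen
  Cfsg.Agent.Lib.Helper49Perfect

variable {F : Type*} [Field F]
variable {ι : Type} [Fintype ι] [DecidableEq ι] (Q : QuadraticForm F (ι → F))

local notation "𝐁" => QuadraticMap.polar (DFunLike.coe Q)

theorem siegel_mulVec (u v : ι → F) (c : F) (x : ι → F) :
    Cfsg.siegelMatrix ⇑Q u v c *ᵥ x = x + c • (𝐁 u x • v - 𝐁 v x • u) := by
  unfold Cfsg.siegelMatrix
  rw [Matrix.add_mulVec, Matrix.one_mulVec, Matrix.smul_mulVec, Matrix.sub_mulVec,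
    Matrix.vecMulVec_mulVec, Matrix.vecMulVec_mulVec, polarVec_dot, polarVec_dot]
  congr 2
  funext k
  simp only [Pi.smul_apply, Pi.sub_apply, MulOpposite.smul_eq_mul_unop, MulOpposite.unop_op,
    smul_eq_mul]
  ring

theorem coe_E_eq_siegel {u v : ι → F} (hu : Q u = 0) (hv : Q v = 0) (huv : 𝐁 u v = 0) (c : F) :
    (((E Q u (-c • v) : ↥(Cfsg.isometryGroup F ⇑Q)) : Matrix.GeneralLinearGroup ι F) :
      Matrix ι ι F) = Cfsg.siegelMatrix ⇑Q u v c := by
  apply Matrix.mulVec_injective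
  funext x
  rw [E_apply Q hu (by rw [QuadraticMap.polar_smul_right, huv, smul_zero]), siegel_mulVec,
    QuadraticMap.map_smul, hv, QuadraticMap.polar_smul_right, QuadraticMap.polar_comm ⇑Q x v,
    QuadraticMap.polar_comm ⇑Q x u]
  funext k
  simp only [Pi.add_apply, Pi.sub_apply, Pi.smul_apply, smul_eq_mul]
  ring

variable [Fintype F]

theorem Omega_eq_closure_siegel (hQ : (QuadraticMap.polarBilin Q).Nondegenerate)
    (hn : 5 ≤ Fintype.card ι) :
    Cfsg.Omega F ⇑Q = Subgroup.closure {g : ↥(Cfsg.isometryGroup F ⇑Q) |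
      ∃ (u v : ι → F) (c : F), Q u = 0 ∧ Q v = 0 ∧ 𝐁 u v = 0 ∧
        ((g : Matrix.GeneralLinearGroup ι F) : Matrix ι ι F) = Cfsg.siegelMatrix ⇑Q u v c} := by
  apply le_antisymm
  · rw [Omega_eq_TT Q hQ hn]
    unfold TT
    rw [Subgroup.closure_le]
    rintro _ ⟨e, w, he, hw, rfl⟩
    have hsing : ∀ a, Q a = 0 → 𝐁 e a = 0 → E Q e a ∈ Subgroup.closure
        {g : ↥(Cfsg.isometryGroup F ⇑Q) |
      ∃ (u v : ι → F) (c : F), Q u = 0 ∧ Q v = 0 ∧ 𝐁 u v = 0 ∧
        ((g : Matrix.GeneralLinearGroup ι F) : Matrix ι ι F) = Cfsg.siegelMatrix ⇑Q u v c} := by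
      intro a ha hea
      apply Subgroup.subset_closure
      refine ⟨e, a, -1, he, ha, hea, ?_⟩
      rw [← coe_E_eq_siegel Q he ha hea]
      simp
    by_cases hQw : Q w = 0
    · exact hsing w hQw hw
    · by_cases he0 : e = 0
      · subst he0
        rw [E_zero_left]
        exact one_mem _
      · obtain ⟨a, b, ha, hb, hea, heb, rfl⟩ := exists_singular_add Q hQ hn he0 he hw hQw
        rw [← E_mul Q he hea heb]
        exact Subgroup.mul_mem _ (hsing a ha hea) (hsing b hb heb)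
  · rw [Subgroup.closure_le]
    rintro g ⟨u, v, c, hu, hv, huv, hg⟩
    have : g = E Q u (-c • v) := by
      apply iso_ext
      rw [hg, coe_E_eq_siegel Q hu hv huv]
    rw [this]
    exact E_mem_Omega Q hQ hn hu (by rw [QuadraticMap.polar_smul_right, huv, smul_zero])

end Cfsg.Agent.Lib.Helper49Siegel
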