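import Mathlib
import Cfsg.Prelude.Def_Classical
import Cfsg.Prelude.Def_ClassicalGeometry
import Cfsg.Agent.Lib.Helper49Orth
import Cfsg.Agent.Lib.Helper49Sum
import Cfsg.Agent.Lib.Helper49All

set_option autoImplicit false
set_option linter.unusedSectionVars false

namespace Cfsg.Agent.Lib.Helper49Sum2

open scoped Matrix commutatorElement
open Cfsg.Agent.Lib.Helper49Orth Cfsg.Agent.Lib.Helper49Sum Cfsg.Agent.Lib.Helper49All
  Cfsg.Agent.Lib.Helper49Dickson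

variable {F : Type*} [Field F]
variable {ι₁ ι₂ : Type} [Fintype ι₁] [DecidableEq ι₁] [Fintype ι₂] [DecidableEq ι₂]
variable (Q₁ : QuadraticForm F (ι₁ → F)) (Q₂ : QuadraticForm F (ι₂ → F))

theorem polar_QSum (x y : ι₁ ⊕ ι₂ → F) :
    QuadraticMap.polar ⇑(QSum Q₁ Q₂) x y
      = QuadraticMap.polar ⇑Q₁ (x ∘ Sum.inl) (y ∘ Sum.inl)
        + QuadraticMap.polar ⇑Q₂ (x ∘ Sum.inr) (y ∘ Sum.inr) := by
  unfold QuadraticMap.polar
  rw [QSum_apply, QSum_apply, QSum_apply]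
  have e1 : (x + y) ∘ Sum.inl = x ∘ Sum.inl + y ∘ (Sum.inl : ι₁ → ι₁ ⊕ ι₂) := rfl
  have e2 : (x + y) ∘ Sum.inr = x ∘ Sum.inr + y ∘ (Sum.inr : ι₂ → ι₁ ⊕ ι₂) := rfl
  rw [e1, e2]
  ring

theorem QSum_nondegenerate (h₁ : (QuadraticMap.polarBilin Q₁).Nondegenerate)
    (h₂ : (QuadraticMap.polarBilin Q₂).Nondegenerate) :
    (QuadraticMap.polarBilin (QSum Q₁ Q₂)).Nondegenerate := by
  have key : ∀ x : ι₁ ⊕ ι₂ → F, (∀ y, QuadraticMap.polar ⇑(QSum Q₁ Q₂) x y = 0) → x = 0 := by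
    intro x hx
    have a1 : x ∘ Sum.inl = 0 := by
      apply h₁.1
      intro y
      have := hx (Sum.elim y 0)
      rw [polar_QSum] at this
      simpa using this
    have a2 : x ∘ Sum.inr = 0 := by
      apply h₂.1
      intro y
      have := hx (Sum.elim 0 y)
      rw [polar_QSum] at this
      simpa using this
    funext k
    rcases k with k | k
    · exact congrFun a1 k
    · exact congrFun a2 k
  constructor
  · intro x hx
    exact key x hx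
  · intro y hy
    apply key
    intro x
    rw [QuadraticMap.polar_comm]
    exact hy x

theorem QSum_inl (v : ι₁ → F) : QSum Q₁ Q₂ (Sum.elim v 0) = Q₁ v := by
  rw [QSum_apply]
  simp

theorem diagO_reflO_inl {v : ι₁ → F} (hv : Q₁ v ≠ 0) :
    diagO Q₁ Q₂ (reflO Q₁ hv, 1)
      = reflO (QSum Q₁ Q₂) (v := Sum.elim v 0) (by rw [QSum_inl]; exact hv) := by
  apply iso_ext
  change Matrix.fromBlocks (Cfsg.reflectionMatrix ⇑Q₁ v) 0 0 (1 : Matrix ι₂ ι₂ F)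
    = Cfsg.reflectionMatrix ⇑(QSum Q₁ Q₂) (Sum.elim v 0)
  apply Matrix.mulVec_injective
  funext x
  rw [Matrix.fromBlocks_mulVec, refl_mulVec, refl_mulVec, QSum_inl, polar_QSum]
  simp only [Matrix.zero_mulVec, add_zero, zero_add,
    Matrix.one_mulVec, Sum.elim_comp_inl, Sum.elim_comp_inr,
    QuadraticMap.polar_zero_left]
  funext k
  rcases k with k | k
  · simp
  · simp

theorem diagO_prod_inl (vs : List (ι₁ → F)) (hvs : ∀ v ∈ vs, Q₁ v ≠ 0) :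
    diagO Q₁ Q₂ ((vs.map (reflO' Q₁)).prod, 1)
      = ((vs.map (fun v => (Sum.elim v 0 : ι₁ ⊕ ι₂ → F))).map (reflO' (QSum Q₁ Q₂))).prod := by
  induction vs with
  | nil =>
    simp only [List.map_nil, List.prod_nil]
    exact map_one _
  | cons v vs ih =>
    have hv := hvs v List.mem_cons_self
    simp only [List.map_cons, List.prod_cons]
    rw [← ih (fun w hw => hvs w (List.mem_cons_of_mem _ hw)), reflO'_eq Q₁ hv,
      reflO'_eq (QSum Q₁ Q₂) (v := Sum.elim v 0) (by rw [QSum_inl]; exact hv),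
      ← diagO_reflO_inl Q₁ Q₂ hv, ← map_mul]
    simp

variable [Fintype F]

/-- `g₁ ⊕ 1 ∈ Ω(Q₁ ⊕ Q₂)` iff `g₁ ∈ Ω(Q₁)`. -/
theorem diagO_inl_mem_iff (h : Fintype.card F ≠ 2 ∨
      (Fintype.card ι₁ ≠ 4 ∧ Fintype.card ι₁ + Fintype.card ι₂ ≠ 4))
    (h₁ : (QuadraticMap.polarBilin Q₁).Nondegenerate)
    (h₂ : (QuadraticMap.polarBilin Q₂).Nondegenerate) (g₁ : ↥(Cfsg.isometryGroup F ⇑Q₁)) :
    diagO Q₁ Q₂ (g₁, 1) ∈ Cfsg.Omega F ⇑(QSum Q₁ Q₂) ↔ g₁ ∈ Cfsg.Omega F ⇑Q₁ := by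
  have hq1 : Fintype.card F ≠ 2 ∨ Fintype.card ι₁ ≠ 4 := h.imp id And.left
  have hq : Fintype.card F ≠ 2 ∨ Fintype.card (ι₁ ⊕ ι₂) ≠ 4 := by
    rw [Fintype.card_sum]
    exact h.imp id And.right
  have hnd := QSum_nondegenerate Q₁ Q₂ h₁ h₂
  obtain ⟨vs, hvs, rfl⟩ := exists_list_refl_all Q₁ h₁ hq1 g₁
  rw [diagO_prod_inl Q₁ Q₂ vs hvs]
  have hvs' : ∀ w ∈ vs.map (fun v => (Sum.elim v 0 : ι₁ ⊕ ι₂ → F)), QSum Q₁ Q₂ w ≠ 0 := by
    intro w hw
    obtain ⟨v, hv, rfl⟩ := List.mem_map.1 hw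
    rw [QSum_inl]
    exact hvs v hv
  by_cases h2 : (2 : F) = 0
  · have : CharP F 2 := CharTwo.of_one_ne_zero_of_two_eq_zero one_ne_zero h2
    rw [char_two_criterion (QSum Q₁ Q₂) hnd hq _ hvs', char_two_criterion Q₁ h₁ hq1 vs hvs]
    simp
  · rw [spinor_criterion (QSum Q₁ Q₂) h2 _ _ hvs' (coe_prod_reflO' _ _ hvs'),
      spinor_criterion Q₁ h2 _ vs hvs (coe_prod_reflO' _ _ hvs)]
    have e : ((vs.map (fun v => (Sum.elim v 0 : ι₁ ⊕ ι₂ → F))).map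
        (fun v => QSum Q₁ Q₂ v)).prod = (vs.map (fun v => Q₁ v)).prod := by
      rw [List.map_map]
      congr 1
      apply List.map_congr_left
      intro v _
      simp [QSum_inl]
    rw [e]
    simp

end Cfsg.Agent.Lib.Helper49Sum2
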