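import Mathlib
import Cfsg.Prelude.Def_Classical
import Cfsg.Prelude.Def_ClassicalGeometry
import Cfsg.Agent.Lib.Helper49Orth
import Cfsg.Agent.Lib.Helper49Sum
import Cfsg.Agent.Lib.Helper49Sum2
import Cfsg.Agent.Lib.Helper49All

set_option autoImplicit false
set_option linter.unusedSectionVars false

namespace Cfsg.Agent.Lib.Helper49Sum3

open scoped Matrix commutatorElement
open Cfsg.Agent.Lib.Helper49Orth Cfsg.Agent.Lib.Helper49Sum Cfsg.Agent.Lib.Helper49All
  Cfsg.Agent.Lib.Helper49Sum2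

variable {F : Type*} [Field F]
variable {ι : Type} [Fintype ι] [DecidableEq ι]
variable (Q : QuadraticForm F (ι → F))

/-- The swap isometry of `Q ⊕ Q`. -/
noncomputable def swapO : ↥(Cfsg.isometryGroup F ⇑(QSum Q Q)) :=
  ⟨⟨Matrix.fromBlocks 0 1 1 0, Matrix.fromBlocks 0 1 1 0,
      by rw [Matrix.fromBlocks_multiply]; simp,
      by rw [Matrix.fromBlocks_multiply]; simp⟩,
    mem_iso.2 fun v => by
      rw [Matrix.fromBlocks_mulVec, QSum_apply, QSum_apply]
      simp only [Matrix.zero_mulVec, add_zero, zero_add, Matrix.one_mulVec,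
        Sum.elim_comp_inl, Sum.elim_comp_inr]
      exact add_comm _ _⟩

theorem coe_swapO : (((swapO Q : ↥(Cfsg.isometryGroup F ⇑(QSum Q Q))) :
      Matrix.GeneralLinearGroup (ι ⊕ ι) F) : Matrix (ι ⊕ ι) (ι ⊕ ι) F)
      = Matrix.fromBlocks 0 1 1 0 := rfl

theorem swapO_mul_self : swapO Q * swapO Q = 1 := by
  apply iso_ext
  simp only [Subgroup.coe_mul, Units.val_mul, coe_swapO]
  rw [Matrix.fromBlocks_multiply]
  simp

theorem swapO_inv : (swapO Q)⁻¹ = swapO Q := inv_eq_of_mul_eq_one_left (swapO_mul_self Q)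

theorem swapO_conj (g : ↥(Cfsg.isometryGroup F ⇑Q)) :
    swapO Q * diagO Q Q (g, 1) * (swapO Q)⁻¹ = diagO Q Q (1, g) := by
  rw [swapO_inv]
  apply iso_ext
  simp only [Subgroup.coe_mul, Units.val_mul, coe_swapO, coe_diagO]
  rw [Matrix.fromBlocks_multiply, Matrix.fromBlocks_multiply]
  simp

variable [Fintype F]

theorem diagO_diag_mem (h : Fintype.card F ≠ 2 ∨ Fintype.card ι ≠ 2)
    (hQ : (QuadraticMap.polarBilin Q).Nondegenerate) (g : ↥(Cfsg.isometryGroup F ⇑Q)) :
    diagO Q Q (g, g) ∈ Cfsg.Omega F ⇑(QSum Q Q) := by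
  have hq : Fintype.card F ≠ 2 ∨ Fintype.card (ι ⊕ ι) ≠ 4 := by
    rw [Fintype.card_sum]
    refine h.imp id fun h => ?_
    omega
  have hnd := QSum_nondegenerate Q Q hQ hQ
  set a := diagO Q Q (g, 1) with ha
  set s := swapO Q with hs
  have e : diagO Q Q (g, g) = ⁅a, s⁆ * (s * (a * a) * s⁻¹) := by
    have e1 : ((g, g) : ↥(Cfsg.isometryGroup F ⇑Q) × ↥(Cfsg.isometryGroup F ⇑Q))
      = (g, 1) * (1, g) := by simp
    rw [e1, map_mul, ← swapO_conj, commutatorElement_def, ← ha, ← hs]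
    group
  rw [e]
  apply Subgroup.mul_mem
  · exact Subgroup.commutator_mem_commutator (Subgroup.mem_top _) (Subgroup.mem_top _)
  · have hn : (Cfsg.Omega F ⇑(QSum Q Q)).Normal := by
      unfold Cfsg.Omega
      infer_instance
    exact hn.conj_mem _ (sq_mem_Omega _ hnd hq a) s

end Cfsg.Agent.Lib.Helper49Sum3
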