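import Cfsg.Prelude.Def_GeometricClasses
import Mathlib

/-!
# Vocabulary for the maximality of tensor product subgroups (project TENS, S5637)

`V = F^a ⊗ F^b` is realised as `Fin a × Fin b → F`; an endomorphism is a `b × b` matrix of
`a × a` blocks (`blk`).
-/

set_option autoImplicit false
set_option linter.unusedSectionVars false
set_option linter.unusedSimpArgs false

namespace Cfsg.Agent.Lib.Helper49TDefs

open scoped Matrix Kronecker
open Matrix

variable {F : Type*} [Field F] {a b : ℕ}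

/-- pure tensor `u ⊗ c` as a vector indexed by `Fin a × Fin b` -/
def tens (u : Fin a → F) (c : Fin b → F) : Fin a × Fin b → F := fun p => u p.1 * c p.2

/-- `y` is a pure tensor (zero allowed) -/
def IsPure (y : Fin a × Fin b → F) : Prop := ∃ (u : Fin a → F) (c : Fin b → F), y = tens u c

/-- the subspace `F^a ⊗ C` -/
def tsub (a : ℕ) (C : Submodule F (Fin b → F)) : Submodule F (Fin a × Fin b → F) where
  carrier := {v | ∀ s : Fin a, (fun j => v (s, j)) ∈ C}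
  add_mem' := fun hx hy s => C.add_mem (hx s) (hy s)
  zero_mem' := fun _ => C.zero_mem
  smul_mem' := fun c _ hx s => C.smul_mem c (hx s)

theorem mem_tsub {C : Submodule F (Fin b → F)} {v : Fin a × Fin b → F} :
    v ∈ tsub a C ↔ ∀ s : Fin a, (fun j => v (s, j)) ∈ C := Iff.rfl

/-- the `(i, j)` block (an `a × a` matrix) of an endomorphism of `F^a ⊗ F^b` -/
def blk (X : Matrix (Fin a × Fin b) (Fin a × Fin b) F) (i j : Fin b) :
    Matrix (Fin a) (Fin a) F :=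
  Matrix.of fun s s' => X (s, i) (s', j)

@[simp] theorem blk_apply (X : Matrix (Fin a × Fin b) (Fin a × Fin b) F) (i j : Fin b)
    (s s' : Fin a) : blk X i j s s' = X (s, i) (s', j) := rfl

/-- the square-zero matrices `B` with `1 + B ∈ H` -/
def NN (H : Subgroup (Matrix.GeneralLinearGroup (Fin a × Fin b) F)) :
    Set (Matrix (Fin a × Fin b) (Fin a × Fin b) F) :=
  {B | B * B = 0 ∧ ∃ g ∈ H, (g : Matrix (Fin a × Fin b) (Fin a × Fin b) F) = 1 + B}

/-- the coefficient set: all `β` such that the block-elementary matrices `1 + β ⊗ e_ij` are in `H` -/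
def BB (H : Subgroup (Matrix.GeneralLinearGroup (Fin a × Fin b) F)) :
    Set (Matrix (Fin a) (Fin a) F) :=
  {β | ∀ i j : Fin b, i ≠ j → β ⊗ₖ (Matrix.single i j (1 : F)) ∈ NN H}

/-- the Kronecker subgroup -/
abbrev KS (a b : ℕ) (F : Type*) [Field F] :
    Subgroup (Matrix.GeneralLinearGroup (Fin a × Fin b) F) := Cfsg.Geo.kroneckerSubgroup a b F

/-- the special linear group inside `GL` -/
abbrev SLn (a b : ℕ) (F : Type*) [Field F] :
    Subgroup (Matrix.GeneralLinearGroup (Fin a × Fin b) F) :=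
  Cfsg.Geo.specialLinear (Fin a × Fin b) F

theorem blk_mul (X Y : Matrix (Fin a × Fin b) (Fin a × Fin b) F) (i j : Fin b) :
    blk (X * Y) i j = ∑ l, blk X i l * blk Y l j := by
  ext s s'
  simp only [blk_apply, Matrix.mul_apply, Matrix.sum_apply, Fintype.sum_prod_type]
  rw [Finset.sum_comm]

theorem blk_kron (β : Matrix (Fin a) (Fin a) F) (T : Matrix (Fin b) (Fin b) F) (i j : Fin b) :
    blk (β ⊗ₖ T) i j = T i j • β := by
  ext s s'
  simp [blk_apply, Matrix.kroneckerMap_apply, mul_comm]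

theorem blk_ext {X Y : Matrix (Fin a × Fin b) (Fin a × Fin b) F}
    (h : ∀ i j, blk X i j = blk Y i j) : X = Y := by
  ext ⟨s, i⟩ ⟨s', j⟩
  exact congrFun (congrFun (h i j) s) s'

theorem blk_add (X Y : Matrix (Fin a × Fin b) (Fin a × Fin b) F) (i j : Fin b) :
    blk (X + Y) i j = blk X i j + blk Y i j := rfl

theorem blk_one (i j : Fin b) :
    blk (1 : Matrix (Fin a × Fin b) (Fin a × Fin b) F) i j = if i = j then 1 else 0 := by
  ext s s'
  by_cases h : i = j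
  · subst h
    by_cases h' : s = s'
    · subst h'; simp
    · simp [h', Matrix.one_apply]
  · simp [h, Matrix.one_apply]

theorem kron_mulVec_tens (A : Matrix (Fin a) (Fin a) F) (B : Matrix (Fin b) (Fin b) F)
    (u : Fin a → F) (c : Fin b → F) : (A ⊗ₖ B) *ᵥ tens u c = tens (A *ᵥ u) (B *ᵥ c) := by
  ext ⟨s, i⟩
  simp only [tens, Matrix.mulVec, dotProduct, Matrix.kroneckerMap_apply, Fintype.sum_prod_type,
    Finset.sum_mul_sum]
  refine Finset.sum_congr rfl fun x _ => Finset.sum_congr rfl fun y _ => ?_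
  ring

variable {H : Subgroup (Matrix.GeneralLinearGroup (Fin a × Fin b) F)}

/-- Tool (T): the commutator of `1 + B₁` and `1 + B₂` is `1 + B₁ B₂` when `B₂ B₁ = 0`. -/
theorem NN_mul {B₁ B₂ : Matrix (Fin a × Fin b) (Fin a × Fin b) F} (h₁ : B₁ ∈ NN H)
    (h₂ : B₂ ∈ NN H) (h : B₂ * B₁ = 0) : B₁ * B₂ ∈ NN H := by
  obtain ⟨s₁, g₁, hg₁, e₁⟩ := h₁
  obtain ⟨s₂, g₂, hg₂, e₂⟩ := h₂
  have i₁ : ((g₁⁻¹ : Matrix.GeneralLinearGroup (Fin a × Fin b) F) :
      Matrix (Fin a × Fin b) (Fin a × Fin b) F) = 1 - B₁ := by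
    rw [Units.inv_eq_of_mul_eq_one_right]
    rw [e₁]
    noncomm_ring
    rw [s₁]; simp
  have i₂ : ((g₂⁻¹ : Matrix.GeneralLinearGroup (Fin a × Fin b) F) :
      Matrix (Fin a × Fin b) (Fin a × Fin b) F) = 1 - B₂ := by
    rw [Units.inv_eq_of_mul_eq_one_right]
    rw [e₂]
    noncomm_ring
    rw [s₂]; simp
  refine ⟨by rw [mul_assoc, ← mul_assoc B₂, h]; simp, g₁ * g₂ * g₁⁻¹ * g₂⁻¹,
    H.mul_mem (H.mul_mem (H.mul_mem hg₁ hg₂) (H.inv_mem hg₁)) (H.inv_mem hg₂), ?_⟩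
  rw [Units.val_mul, Units.val_mul, Units.val_mul, i₁, i₂, e₁, e₂]
  have k1 : B₁ * B₂ * B₁ = 0 := by rw [mul_assoc, h, mul_zero]
  have k2 : B₂ * B₁ * B₂ = 0 := by rw [h, zero_mul]
  have k3 : B₁ * (B₁ * B₂) = 0 := by rw [← mul_assoc, s₁, zero_mul]
  have k4 : B₁ * B₂ * B₂ = 0 := by rw [mul_assoc, s₂, mul_zero]
  have : (1 + B₁) * (1 + B₂) * (1 - B₁) * (1 - B₂)
      = 1 + B₁ * B₂ - B₂ * B₁ - B₁ * B₁ - B₂ * B₂ - B₁ * B₂ * B₁ + B₂ * B₁ * B₂
        + B₁ * (B₁ * B₂) - B₁ * B₂ * B₂ + B₁ * B₂ * B₁ * B₂ := by noncomm_ring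
  rw [this, k1, k2, k3, k4, h, s₁, s₂]
  simp

theorem NN_add {B₁ B₂ : Matrix (Fin a × Fin b) (Fin a × Fin b) F} (h₁ : B₁ ∈ NN H)
    (h₂ : B₂ ∈ NN H) (h : B₁ * B₂ = 0) (h' : B₂ * B₁ = 0) : B₁ + B₂ ∈ NN H := by
  obtain ⟨s₁, g₁, hg₁, e₁⟩ := h₁
  obtain ⟨s₂, g₂, hg₂, e₂⟩ := h₂
  refine ⟨by rw [add_mul, mul_add, mul_add, s₁, s₂, h, h']; simp, g₁ * g₂, H.mul_mem hg₁ hg₂, ?_⟩
  rw [Units.val_mul, e₁, e₂, add_mul, mul_add, mul_add, h]
  simp only [mul_one, one_mul, add_zero]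
  abel

theorem NN_neg {B : Matrix (Fin a × Fin b) (Fin a × Fin b) F} (h : B ∈ NN H) : -B ∈ NN H := by
  obtain ⟨s, g, hg, e⟩ := h
  refine ⟨by simp [s], g⁻¹, H.inv_mem hg, ?_⟩
  rw [Units.inv_eq_of_mul_eq_one_right]
  rw [e]
  noncomm_ring
  rw [s]; simp

theorem NN_conj {B : Matrix (Fin a × Fin b) (Fin a × Fin b) F} (h : B ∈ NN H)
    {t : Matrix.GeneralLinearGroup (Fin a × Fin b) F} (ht : t ∈ H) :
    (t : Matrix (Fin a × Fin b) (Fin a × Fin b) F) * B *
      ((t⁻¹ : Matrix.GeneralLinearGroup (Fin a × Fin b) F) :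
        Matrix (Fin a × Fin b) (Fin a × Fin b) F) ∈ NN H := by
  obtain ⟨s, g, hg, e⟩ := h
  have hinv : ((t⁻¹ : Matrix.GeneralLinearGroup (Fin a × Fin b) F) :
        Matrix (Fin a × Fin b) (Fin a × Fin b) F) * (t : Matrix (Fin a × Fin b) (Fin a × Fin b) F)
        = 1 := by rw [← Units.val_mul, inv_mul_cancel, Units.val_one]
  have hinv' : (t : Matrix (Fin a × Fin b) (Fin a × Fin b) F) *
      ((t⁻¹ : Matrix.GeneralLinearGroup (Fin a × Fin b) F) :
        Matrix (Fin a × Fin b) (Fin a × Fin b) F) = 1 := by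
    rw [← Units.val_mul, mul_inv_cancel, Units.val_one]
  refine ⟨?_, t * g * t⁻¹, H.mul_mem (H.mul_mem ht hg) (H.inv_mem ht), ?_⟩
  · calc _ = (t : Matrix (Fin a × Fin b) (Fin a × Fin b) F) * (B * (((t⁻¹ :
          Matrix.GeneralLinearGroup (Fin a × Fin b) F) :
          Matrix (Fin a × Fin b) (Fin a × Fin b) F) * t) * B) * ((t⁻¹ :
          Matrix.GeneralLinearGroup (Fin a × Fin b) F) :
          Matrix (Fin a × Fin b) (Fin a × Fin b) F) := by noncomm_ring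
      _ = 0 := by rw [hinv, mul_one, s]; simp
  · rw [Units.val_mul, Units.val_mul, e, mul_add, add_mul, mul_one, hinv']

/-- block upper triangular with respect to the first `k` coordinates of `F^b`
(i.e. `X` stabilises `F^a ⊗ ⟨e_j : j < k⟩`) -/
def IsTri (k : ℕ) (X : Matrix (Fin a × Fin b) (Fin a × Fin b) F) : Prop :=
  ∀ i j : Fin b, j.val < k → k ≤ i.val → blk X i j = 0

/-- supported on the upper right block (rows `< k`, columns `≥ k`) -/
def IsUR (k : ℕ) (X : Matrix (Fin a × Fin b) (Fin a × Fin b) F) : Prop :=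
  ∀ i j : Fin b, ¬ (i.val < k ∧ k ≤ j.val) → blk X i j = 0

end Cfsg.Agent.Lib.Helper49TDefs
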