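import Mathlib

/-!
PROJECT 49 (TENS), piece `alg3` : an `SL_a`-invariant subalgebra of `M_a(F)` containing a non scalar
matrix is everything (`|F| ≥ 3`).  Also the reusable core `all_of_single`.
-/

set_option autoImplicit false

namespace Cfsg.Agent.Lib.Helper57TAlg3

open Matrix

variable {F : Type*} [Field F] {a : ℕ}


/-- conjugation by elementary transvections -/
theorem conj_transvection (S : Set (Matrix (Fin a) (Fin a) F))
    (hconj : ∀ x ∈ S, ∀ g : Matrix.SpecialLinearGroup (Fin a) F,
      (g : (Matrix (Fin a) (Fin a) F)) * x * ((g⁻¹ : Matrix.SpecialLinearGroup (Fin a) F) : (Matrix (Fin a) (Fin a) F)) ∈ S)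
    (x : (Matrix (Fin a) (Fin a) F)) (hx : x ∈ S) (k l : Fin a) (hkl : k ≠ l) (c : F) :
    (1 + single k l c) * x * (1 - single k l c) ∈ S := by
  let g : Matrix.SpecialLinearGroup (Fin a) F :=
    ⟨transvection k l c, det_transvection_of_ne k l hkl c⟩
  let g' : Matrix.SpecialLinearGroup (Fin a) F :=
    ⟨transvection k l (-c), det_transvection_of_ne k l hkl (-c)⟩
  have hgg : g * g' = 1 := by
    apply Subtype.ext
    change transvection k l c * transvection k l (-c) = 1
    rw [transvection_mul_transvection_same k l hkl, add_neg_cancel, transvection_zero]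
  have hinv : g⁻¹ = g' := inv_eq_of_mul_eq_one_right hgg
  have h := hconj x hx g
  rw [hinv] at h
  have e1 : (g : (Matrix (Fin a) (Fin a) F)) = 1 + single k l c := rfl
  have e2 : (g' : (Matrix (Fin a) (Fin a) F)) = 1 - single k l c := by
    change transvection k l (-c) = _
    rw [transvection, sub_eq_add_neg, single_neg]
  rwa [e1, e2] at h

section core

variable (S : Set (Matrix (Fin a) (Fin a) F))
    (hadd : ∀ x ∈ S, ∀ y ∈ S, x + y ∈ S) (hmul : ∀ x ∈ S, ∀ y ∈ S, x * y ∈ S)
    (hsc : ∀ c : F, c • (1 : (Matrix (Fin a) (Fin a) F)) ∈ S)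

include hmul hsc in
theorem smul_mem' (c : F) {x : (Matrix (Fin a) (Fin a) F)} (hx : x ∈ S) : c • x ∈ S := by
  have := hmul _ (hsc c) x hx
  rwa [smul_mul_assoc, one_mul] at this

include hmul hsc in
theorem neg_mem' {x : (Matrix (Fin a) (Fin a) F)} (hx : x ∈ S) : -x ∈ S := by
  have := smul_mem' S hmul hsc (-1) hx
  rwa [neg_smul, one_smul] at this

include hadd hmul hsc in
theorem sub_mem' {x y : (Matrix (Fin a) (Fin a) F)} (hx : x ∈ S) (hy : y ∈ S) : x - y ∈ S := by
  rw [sub_eq_add_neg]
  exact hadd _ hx _ (neg_mem' S hmul hsc hy)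

variable (hconj : ∀ x ∈ S, ∀ g : Matrix.SpecialLinearGroup (Fin a) F,
      (g : (Matrix (Fin a) (Fin a) F)) * x * ((g⁻¹ : Matrix.SpecialLinearGroup (Fin a) F) : (Matrix (Fin a) (Fin a) F)) ∈ S)

include hadd hmul hsc hconj in
theorem stepA {i j : Fin a} (hij : i ≠ j) (h : single i j (1 : F) ∈ S) :
    single j i (1 : F) ∈ S ∧ single i i (1 : F) ∈ S ∧ single j j (1 : F) ∈ S := by
  have hsub := fun {x y : (Matrix (Fin a) (Fin a) F)} => sub_mem' S hadd hmul hsc (x := x) (y := y)
  have hY := conj_transvection S hconj _ h j i hij.symm 1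
  have e1 : single j i (1 : F) * single i j (1 : F) = single j j 1 := by simp
  have e2 : single i j (1 : F) * single j i (1 : F) = single i i 1 := by simp
  have e3 : single j j (1 : F) * single j i (1 : F) = single j i 1 := by simp
  have e4 : single i j (1 : F) * single j j (1 : F) = single i j 1 := by simp
  have e5 : single i j (1 : F) * single i i (1 : F) = 0 :=
    single_mul_single_of_ne _ _ _ _ hij.symm _
  have e6 : single j j (1 : F) * single i j (1 : F) = 0 :=
    single_mul_single_of_ne _ _ _ _ hij.symm _
  have e7 : single i i (1 : F) * single i j (1 : F) = single i j 1 := by simp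
  have hYe : (1 + single j i (1 : F)) * single i j (1 : F) * (1 - single j i (1 : F)) =
      single i j 1 + single j j 1 - single i i 1 - single j i 1 := by
    calc _ = single i j (1 : F) + single j i (1 : F) * single i j (1 : F)
          - single i j (1 : F) * single j i (1 : F)
          - (single j i (1 : F) * single i j (1 : F)) * single j i (1 : F) := by noncomm_ring
      _ = _ := by rw [e1, e2, e3]
  rw [hYe] at hY
  set X : (Matrix (Fin a) (Fin a) F) := single j j 1 - single i i 1 - single j i 1 with hX
  have hXS : X ∈ S := by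
    have := hsub hY h
    have e : single i j (1 : F) + single j j 1 - single i i 1 - single j i 1 - single i j 1 = X := by
      rw [hX]; abel
    rwa [e] at this
  have hii : single i i (1 : F) ∈ S := by
    have h1 := hsub h (hmul _ h _ hXS)
    have e : single i j (1 : F) - single i j (1 : F) * X = single i i 1 := by
      rw [hX, mul_sub, mul_sub, e4, e5, e2]; abel
    rwa [e] at h1
  have hjj : single j j (1 : F) ∈ S := by
    have h1 := hsub (neg_mem' S hmul hsc (hmul _ hXS _ h)) h
    have e : -(X * single i j (1 : F)) - single i j (1 : F) = single j j 1 := by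
      rw [hX, sub_mul, sub_mul, e6, e7, e1]; abel
    rwa [e] at h1
  refine ⟨?_, hii, hjj⟩
  have h1 := hsub (hsub hjj hii) hXS
  have e : single j j (1 : F) - single i i 1 - X = single j i 1 := by
    rw [hX]; abel
  rwa [e] at h1

include hadd hmul hsc hconj in
theorem stepB {i j k : Fin a} (hki : k ≠ i) (hkj : k ≠ j) (h : single i j (1 : F) ∈ S) :
    single k j (1 : F) ∈ S := by
  have hY := conj_transvection S hconj _ h k i hki 1
  have e1 : single k i (1 : F) * single i j (1 : F) = single k j 1 := by simp
  have e2 : single i j (1 : F) * single k i (1 : F) = 0 :=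
    single_mul_single_of_ne _ _ _ _ hkj.symm _
  have e3 : single k j (1 : F) * single k i (1 : F) = 0 :=
    single_mul_single_of_ne _ _ _ _ hkj.symm _
  have hYe : (1 + single k i (1 : F)) * single i j (1 : F) * (1 - single k i (1 : F)) =
      single i j 1 + single k j 1 := by
    calc _ = single i j (1 : F) + single k i (1 : F) * single i j (1 : F)
          - single i j (1 : F) * single k i (1 : F)
          - (single k i (1 : F) * single i j (1 : F)) * single k i (1 : F) := by noncomm_ring
      _ = _ := by rw [e1, e2, e3]; abel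
  rw [hYe] at hY
  have := sub_mem' S hadd hmul hsc hY h
  rwa [add_sub_cancel_left] at this

include hadd hmul hsc hconj in
/-- the core: one off-diagonal matrix unit gives everything -/
theorem all_of_single {i j : Fin a} (hij : i ≠ j) (h : single i j (1 : F) ∈ S) :
    ∀ x : (Matrix (Fin a) (Fin a) F), x ∈ S := by
  obtain ⟨hji, hii, hjj⟩ := stepA S hadd hmul hsc hconj hij h
  have hcol : ∀ k, single k j (1 : F) ∈ S ∧ single j k (1 : F) ∈ S := by
    intro k
    by_cases hkj : k = j
    · subst hkj; exact ⟨hjj, hjj⟩
    · by_cases hki : k = i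
      · subst hki; exact ⟨h, hji⟩
      · have h1 := stepB S hadd hmul hsc hconj hki hkj h
        exact ⟨h1, (stepA S hadd hmul hsc hconj hkj h1).1⟩
  have hall : ∀ k l, single k l (1 : F) ∈ S := by
    intro k l
    have := hmul _ (hcol k).1 _ (hcol l).2
    rwa [single_mul_single_same, mul_one] at this
  intro x
  rw [matrix_eq_sum_single x]
  have h0 : (0 : (Matrix (Fin a) (Fin a) F)) ∈ S := by
    have := hsc 0
    rwa [zero_smul] at this
  refine Finset.sum_induction _ (· ∈ S) (fun x y hx hy => hadd x hx y hy) h0 fun k _ => ?_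
  refine Finset.sum_induction _ (· ∈ S) (fun x y hx hy => hadd x hx y hy) h0 fun l _ => ?_
  have := smul_mem' S hmul hsc (x k l) (hall k l)
  rwa [smul_single, smul_eq_mul, mul_one] at this

include hadd hmul hsc hconj in
/-- a diagonal non scalar matrix gives a matrix unit -/
theorem single_of_diag {β : (Matrix (Fin a) (Fin a) F)} (hβ : β ∈ S) (hd : ∀ i j, i ≠ j → β j i = 0) {i j : Fin a}
    (hij : i ≠ j) (hne : β i i ≠ β j j) : single i j (1 : F) ∈ S := by
  have hY := conj_transvection S hconj _ hβ i j hij 1
  have e1 : single i j (1 : F) * β = β j j • single i j (1 : F) := by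
    ext r s
    by_cases hr : r = i
    · subst hr
      rw [single_mul_apply_same, one_mul, Matrix.smul_apply, smul_eq_mul]
      by_cases hs : s = j
      · subst hs; simp
      · rw [hd s j hs, single_apply_of_col_ne _ _ (Ne.symm hs), mul_zero]
    · rw [single_mul_apply_of_ne _ _ _ _ _ hr, Matrix.smul_apply, single_apply_of_row_ne (Ne.symm hr),
        smul_zero]
  have e2 : β * single i j (1 : F) = β i i • single i j (1 : F) := by
    ext r s
    by_cases hs : s = j
    · subst hs
      rw [mul_single_apply_same, mul_one, Matrix.smul_apply, smul_eq_mul]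
      by_cases hr : r = i
      · subst hr; simp
      · rw [hd i r (Ne.symm hr), single_apply_of_row_ne (Ne.symm hr), mul_zero]
    · rw [mul_single_apply_of_ne _ _ _ _ _ hs, Matrix.smul_apply, single_apply_of_col_ne _ _ (Ne.symm hs),
        smul_zero]
  have e3 : single i j (1 : F) * β * single i j (1 : F) = 0 := by
    rw [single_mul_mul_single, hd i j hij]; simp
  have hYe : (1 + single i j (1 : F)) * β * (1 - single i j (1 : F)) - β =
      (β j j - β i i) • single i j (1 : F) := by
    calc _ = single i j (1 : F) * β - β * single i j (1 : F)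
          - single i j (1 : F) * β * single i j (1 : F) := by noncomm_ring
      _ = _ := by rw [e3, e1, e2, sub_zero, sub_smul]
  have h1 := sub_mem' S hadd hmul hsc hY hβ
  rw [hYe] at h1
  have h2 := smul_mem' S hmul hsc (β j j - β i i)⁻¹ h1
  rwa [smul_smul, inv_mul_cancel₀ (sub_ne_zero.mpr hne.symm), one_smul] at h2

end core

/-- a non scalar matrix has a non-zero off-diagonal entry or two different diagonal entries -/
theorem cases_of_nonscalar (ha : 0 < a) (β : (Matrix (Fin a) (Fin a) F)) (hns : ∀ c : F, β ≠ c • 1) :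
    (∃ i j, i ≠ j ∧ β j i ≠ 0) ∨ ((∀ i j, i ≠ j → β j i = 0) ∧ ∃ i j, i ≠ j ∧ β i i ≠ β j j) := by
  by_cases h : ∃ i j, i ≠ j ∧ β j i ≠ 0
  · exact Or.inl h
  · right
    push Not at h
    refine ⟨h, ?_⟩
    by_contra hcon
    push Not at hcon
    apply hns (β ⟨0, ha⟩ ⟨0, ha⟩)
    ext r s
    by_cases hrs : r = s
    · subst hrs
      rw [Matrix.smul_apply, one_apply_eq, smul_eq_mul, mul_one]
      by_cases hr : r = ⟨0, ha⟩
      · rw [hr]
      · exact hcon r _ hr
    · rw [Matrix.smul_apply, one_apply_ne hrs, smul_zero]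
      exact h s r (Ne.symm hrs)

/-- piece `alg3` (pure matrix algebra, `|F| ≥ 3`) -/
theorem alg_top_three [Fintype F] (h1 : 2 ≤ a) (hq : 3 ≤ Fintype.card F) (S : Set (Matrix (Fin a) (Fin a) F))
    (hadd : ∀ x ∈ S, ∀ y ∈ S, x + y ∈ S) (hmul : ∀ x ∈ S, ∀ y ∈ S, x * y ∈ S)
    (hsc : ∀ c : F, c • (1 : (Matrix (Fin a) (Fin a) F)) ∈ S)
    (hconj : ∀ x ∈ S, ∀ g : Matrix.SpecialLinearGroup (Fin a) F,
      (g : (Matrix (Fin a) (Fin a) F)) * x * ((g⁻¹ : Matrix.SpecialLinearGroup (Fin a) F) : (Matrix (Fin a) (Fin a) F)) ∈ S)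
    (β : (Matrix (Fin a) (Fin a) F)) (hβ : β ∈ S) (hns : ∀ c : F, β ≠ c • 1) : ∀ x : (Matrix (Fin a) (Fin a) F), x ∈ S := by
  classical
  rcases cases_of_nonscalar (by omega) β hns with ⟨i, j, hij, hγ⟩ | ⟨hd, i, j, hij, hne⟩
  · apply all_of_single S hadd hmul hsc hconj hij
    obtain ⟨l, hl0, hl1⟩ : ∃ l : F, l ≠ 0 ∧ l ≠ 1 := by
      by_contra hcon
      push Not at hcon
      have hsub : (Finset.univ : Finset F) ⊆ {0, 1} := by
        intro x _
        by_cases hx : x = 0
        · simp [hx]
        · simp [hcon x hx]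
      have := Finset.card_le_card hsub
      rw [Finset.card_univ] at this
      have h2 : ({0, 1} : Finset F).card ≤ 2 := Finset.card_le_two
      omega
    set N : (Matrix (Fin a) (Fin a) F) := single i j 1 with hN
    set γ := β j i with hγdef
    have hP : ∀ c : F, (1 + single i j c) * β * (1 - single i j c) =
        β + c • (N * β - β * N) - (c * c * γ) • N := by
      intro c
      have e0 : single i j c = c • N := by rw [hN, smul_single, smul_eq_mul, mul_one]
      have e1 : single i j c * β * single i j c = (c * c * γ) • N := by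
        rw [single_mul_mul_single, hN, smul_single, smul_eq_mul, mul_one]
        congr 1
        ring
      calc _ = β + (single i j c * β - β * single i j c) - single i j c * β * single i j c := by
            noncomm_ring
        _ = _ := by rw [e1, e0, smul_mul_assoc, mul_smul_comm, smul_sub]
    have hS1 := conj_transvection S hconj _ hβ i j hij 1
    have hSl := conj_transvection S hconj _ hβ i j hij l
    rw [hP] at hS1 hSl
    have hκ : ((l * l - l) * γ) • N ∈ S := by
      have h3 := sub_mem' S hadd hmul hsc
        (sub_mem' S hadd hmul hsc (smul_mem' S hmul hsc l hS1) hSl) (smul_mem' S hmul hsc (l - 1) hβ)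
      have e : l • (β + (1 : F) • (N * β - β * N) - (1 * 1 * γ) • N)
          - (β + l • (N * β - β * N) - (l * l * γ) • N) - (l - 1) • β = ((l * l - l) * γ) • N := by
        module
      rwa [e] at h3
    have hκ0 : (l * l - l) * γ ≠ 0 := by
      apply mul_ne_zero _ hγ
      have : l * l - l = l * (l - 1) := by ring
      rw [this]
      exact mul_ne_zero hl0 (sub_ne_zero.mpr hl1)
    have := smul_mem' S hmul hsc ((l * l - l) * γ)⁻¹ hκ
    rwa [smul_smul, inv_mul_cancel₀ hκ0, one_smul] at this
  · exact all_of_single S hadd hmul hsc hconj hij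
      (single_of_diag S hadd hmul hsc hconj hβ hd hij hne)

end Cfsg.Agent.Lib.Helper57TAlg3
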