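import Cfsg.Agent.Lib.Helper49TDefs

/-!
PROJECT 49 (TENS), piece `form` : a block triangular matrix such that the products of the diagonal
blocks of `t` and `t⁻¹` are scalar is `(1 + B) (g₁ ⊗ g₂)` with `B` in the upper right corner.
-/

set_option autoImplicit false
set_option linter.unusedSectionVars false
set_option linter.unusedVariables false

namespace Cfsg.Agent.Lib.Helper57TForm

open scoped Matrix Kronecker
open Matrix Cfsg.Agent.Lib.Helper49TDefs

variable {F : Type*} [Field F] {a b : ℕ}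

theorem lemA (ha : 0 < a) (k : ℕ) (hk0 : 0 < k) (hkb : k < b)
    (X Y : Matrix (Fin a × Fin b) (Fin a × Fin b) F) (hYX : Y * X = 1)
    (hX : IsTri k X) (hY : IsTri k Y)
    (hsc : ∀ i l k' m : Fin b, i.val < k → l.val < k → k ≤ k'.val → k ≤ m.val →
      ∃ c : F, blk X i l * blk Y k' m = c • 1) :
    ∃ α α' : Matrix (Fin a) (Fin a) F, α * α' = 1 ∧ α' * α = 1 ∧
      (∀ i l : Fin b, i.val < k → l.val < k → ∃ c : F, blk X i l = c • α) ∧
      (∀ i l : Fin b, k ≤ i.val → k ≤ l.val → ∃ c : F, blk Y i l = c • α') := by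
  have : Nonempty (Fin a) := ⟨⟨0, ha⟩⟩
  have hex : ∃ i l k' m : Fin b, i.val < k ∧ l.val < k ∧ k ≤ k'.val ∧ k ≤ m.val ∧
      ∃ c : F, c ≠ 0 ∧ blk X i l * blk Y k' m = c • 1 := by
    by_contra hcon
    have hz : ∀ i l k' m : Fin b, i.val < k → l.val < k → k ≤ k'.val → k ≤ m.val →
        blk X i l * blk Y k' m = 0 := by
      intro i l k' m hi hl hk' hm
      obtain ⟨c, hc⟩ := hsc i l k' m hi hl hk' hm
      by_cases h0 : c = 0
      · rw [hc, h0, zero_smul]
      · exact absurd ⟨i, l, k', m, hi, hl, hk', hm, c, h0, hc⟩ hcon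
    let l0 : Fin b := ⟨0, by omega⟩
    let m0 : Fin b := ⟨k, hkb⟩
    have e1 : (1 : Matrix (Fin a) (Fin a) F) = ∑ l, blk Y l0 l * blk X l l0 := by
      rw [← blk_mul, hYX, blk_one, if_pos rfl]
    have e2 : (1 : Matrix (Fin a) (Fin a) F) = ∑ m, blk Y m0 m * blk X m m0 := by
      rw [← blk_mul, hYX, blk_one, if_pos rfl]
    have e3 : (1 : Matrix (Fin a) (Fin a) F) = 0 := by
      calc (1 : Matrix (Fin a) (Fin a) F) = 1 * 1 := (one_mul 1).symm
        _ = (∑ l, blk Y l0 l * blk X l l0) * (∑ m, blk Y m0 m * blk X m m0) := by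
            rw [← e1, ← e2]
        _ = ∑ l, ∑ m, (blk Y l0 l * blk X l l0) * (blk Y m0 m * blk X m m0) :=
            Finset.sum_mul_sum _ _ _ _
        _ = 0 := by
            refine Finset.sum_eq_zero fun l _ => Finset.sum_eq_zero fun m _ => ?_
            by_cases hl : l.val < k
            · by_cases hm : m.val < k
              · rw [hY m0 m hm le_rfl, zero_mul, mul_zero]
              · have := hz l l0 m0 m hl hk0 le_rfl (not_lt.mp hm)
                calc _ = blk Y l0 l * (blk X l l0 * blk Y m0 m) * blk X m m0 := by noncomm_ring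
                  _ = 0 := by rw [this, mul_zero, zero_mul]
            · rw [hX l l0 hk0 (not_lt.mp hl), mul_zero, zero_mul]
    exact one_ne_zero e3
  obtain ⟨i0, l0, k0, m0, hi0, hl0, hk0', hm0, c0, hc0, h0⟩ := hex
  have h1 : blk X i0 l0 * (c0⁻¹ • blk Y k0 m0) = 1 := by
    rw [mul_smul_comm, h0, smul_smul, inv_mul_cancel₀ hc0, one_smul]
  have h2 : (c0⁻¹ • blk Y k0 m0) * blk X i0 l0 = 1 := mul_eq_one_comm.mp h1
  refine ⟨blk X i0 l0, c0⁻¹ • blk Y k0 m0, h1, h2, ?_, ?_⟩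
  · intro i l hi hl
    obtain ⟨c, hc⟩ := hsc i l k0 m0 hi hl hk0' hm0
    refine ⟨c0⁻¹ * c, ?_⟩
    calc blk X i l = blk X i l * ((c0⁻¹ • blk Y k0 m0) * blk X i0 l0) := by rw [h2, mul_one]
      _ = (c0⁻¹ • (blk X i l * blk Y k0 m0)) * blk X i0 l0 := by
          rw [← mul_assoc, mul_smul_comm]
      _ = (c0⁻¹ * c) • blk X i0 l0 := by rw [hc, smul_smul, smul_mul_assoc, one_mul]
  · intro i l hi hl
    obtain ⟨c, hc⟩ := hsc i0 l0 i l hi0 hl0 hi hl
    refine ⟨c, ?_⟩
    calc blk Y i l = ((c0⁻¹ • blk Y k0 m0) * blk X i0 l0) * blk Y i l := by rw [h2, one_mul]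
      _ = (c0⁻¹ • blk Y k0 m0) * (blk X i0 l0 * blk Y i l) := mul_assoc _ _ _
      _ = c • (c0⁻¹ • blk Y k0 m0) := by rw [hc, mul_smul_comm, mul_one]

theorem link (k : ℕ) (hk0 : 0 < k) (hkb : k < b)
    (X Y : Matrix (Fin a × Fin b) (Fin a × Fin b) F) (hXY : X * Y = 1) (hY : IsTri k Y)
    (α₁ α₂ : Matrix (Fin a) (Fin a) F)
    (h1 : ∀ i l : Fin b, i.val < k → l.val < k → ∃ c : F, blk X i l = c • α₁)
    (h2 : ∀ i l : Fin b, i.val < k → l.val < k → ∃ c : F, blk Y i l = c • α₂) :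
    ∃ s : F, s • (α₁ * α₂) = 1 := by
  let l0 : Fin b := ⟨0, by omega⟩
  have hterm : ∀ l : Fin b, ∃ c : F, blk X l0 l * blk Y l l0 = c • (α₁ * α₂) := by
    intro l
    by_cases hl : l.val < k
    · obtain ⟨c, hc⟩ := h1 l0 l hk0 hl
      obtain ⟨c', hc'⟩ := h2 l l0 hl hk0
      exact ⟨c * c', by rw [hc, hc', smul_mul_smul_comm]⟩
    · exact ⟨0, by rw [hY l l0 hk0 (not_lt.mp hl), mul_zero, zero_smul]⟩
  choose c hc using hterm
  refine ⟨∑ l, c l, ?_⟩
  rw [Finset.sum_smul, ← Finset.sum_congr rfl (fun l _ => hc l), ← blk_mul, hXY, blk_one,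
    if_pos rfl]

theorem blk_sub' (X Y : Matrix (Fin a × Fin b) (Fin a × Fin b) F) (i j : Fin b) :
    blk (X - Y) i j = blk X i j - blk Y i j := rfl

theorem lemB (ha : 0 < a) (k : ℕ)
    (X Y : Matrix (Fin a × Fin b) (Fin a × Fin b) F) (hXY : X * Y = 1)
    (hX : IsTri k X) (hY : IsTri k Y)
    (α α' : Matrix (Fin a) (Fin a) F) (h1 : α * α' = 1) (h2 : α' * α = 1)
    (hXs : ∀ i l : Fin b, (i.val < k ↔ l.val < k) → ∃ c : F, blk X i l = c • α)
    (hYs : ∀ i l : Fin b, (i.val < k ↔ l.val < k) → ∃ c : F, blk Y i l = c • α') :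
    ∃ (G G' : Matrix (Fin b) (Fin b) F) (B : Matrix (Fin a × Fin b) (Fin a × Fin b) F),
      G * G' = 1 ∧ IsUR k B ∧ X = (1 + B) * (α ⊗ₖ G) := by
  classical
  have hG : ∀ i l : Fin b, ∃ c : F, ((i.val < k ↔ l.val < k) → blk X i l = c • α) ∧
      (¬ (i.val < k ↔ l.val < k) → c = 0) := by
    intro i l
    by_cases h : (i.val < k ↔ l.val < k)
    · obtain ⟨c, hc⟩ := hXs i l h
      exact ⟨c, fun _ => hc, fun h' => absurd h h'⟩
    · exact ⟨0, fun h' => absurd h' h, fun _ => rfl⟩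
  have hG' : ∀ i l : Fin b, ∃ c : F, ((i.val < k ↔ l.val < k) → blk Y i l = c • α') ∧
      (¬ (i.val < k ↔ l.val < k) → c = 0) := by
    intro i l
    by_cases h : (i.val < k ↔ l.val < k)
    · obtain ⟨c, hc⟩ := hYs i l h
      exact ⟨c, fun _ => hc, fun h' => absurd h h'⟩
    · exact ⟨0, fun h' => absurd h' h, fun _ => rfl⟩
  choose G hGs hG0 using hG
  choose G' hGs' hG0' using hG'
  have hGG : (Matrix.of G) * (Matrix.of G') = (1 : Matrix (Fin b) (Fin b) F) := by
    ext i j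
    rw [Matrix.mul_apply]
    simp only [Matrix.of_apply]
    by_cases hij : (i.val < k ↔ j.val < k)
    · have hterm : ∀ l : Fin b, (G i l * G' l j) • (1 : Matrix (Fin a) (Fin a) F) =
          blk X i l * blk Y l j := by
        intro l
        by_cases hil : (i.val < k ↔ l.val < k)
        · have hlj : (l.val < k ↔ j.val < k) := hil.symm.trans hij
          rw [hGs i l hil, hGs' l j hlj, smul_mul_smul_comm, h1]
        · rw [hG0 i l hil, zero_mul, zero_smul]
          by_cases hi : i.val < k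
          · have hl : ¬ l.val < k := fun h => hil ⟨fun _ => h, fun _ => hi⟩
            rw [hY l j (hij.mp hi) (not_lt.mp hl), mul_zero]
          · have hl : l.val < k := by
              by_contra h
              exact hil ⟨fun h' => absurd h' hi, fun h' => absurd h' h⟩
            rw [hX i l hl (not_lt.mp hi), zero_mul]
      have hsum : (∑ l, G i l * G' l j) • (1 : Matrix (Fin a) (Fin a) F) =
          if i = j then 1 else 0 := by
        rw [Finset.sum_smul, Finset.sum_congr rfl (fun l _ => hterm l), ← blk_mul, hXY, blk_one]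
      have h00 := congrFun (congrFun hsum ⟨0, ha⟩) ⟨0, ha⟩
      rw [Matrix.smul_apply, Matrix.one_apply_eq, smul_eq_mul, mul_one] at h00
      rw [h00]
      by_cases hij' : i = j
      · rw [if_pos hij', hij', Matrix.one_apply_eq, Matrix.one_apply_eq]
      · rw [if_neg hij', Matrix.one_apply_ne hij', Matrix.zero_apply]
    · have hne : i ≠ j := fun h => hij (h ▸ Iff.rfl)
      rw [Matrix.one_apply_ne hne]
      refine Finset.sum_eq_zero fun l _ => ?_
      by_cases hil : (i.val < k ↔ l.val < k)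
      · have hlj : ¬ (l.val < k ↔ j.val < k) := fun h => hij (hil.trans h)
        rw [hG0' l j hlj, mul_zero]
      · rw [hG0 i l hil, zero_mul]
  have hGG' : (Matrix.of G') * (Matrix.of G) = (1 : Matrix (Fin b) (Fin b) F) :=
    mul_eq_one_comm.mp hGG
  have hDD : (α' ⊗ₖ Matrix.of G') * (α ⊗ₖ Matrix.of G) = 1 := by
    rw [← Matrix.mul_kronecker_mul, h2, hGG', Matrix.one_kronecker_one]
  refine ⟨Matrix.of G, Matrix.of G', (X - α ⊗ₖ Matrix.of G) * (α' ⊗ₖ Matrix.of G'), hGG, ?_, ?_⟩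
  · intro i j hnot
    rw [blk_mul]
    refine Finset.sum_eq_zero fun l _ => ?_
    rw [blk_sub', blk_kron, blk_kron]
    simp only [Matrix.of_apply]
    by_cases hil : (i.val < k ↔ l.val < k)
    · rw [hGs i l hil, sub_self, zero_mul]
    · by_cases hi : i.val < k
      · have hl : ¬ l.val < k := fun h => hil ⟨fun _ => h, fun _ => hi⟩
        have hj : j.val < k := by
          by_contra h
          exact hnot ⟨hi, not_lt.mp h⟩
        have hlj : ¬ (l.val < k ↔ j.val < k) := fun h => hl (h.mpr hj)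
        rw [hG0' l j hlj, zero_smul, mul_zero]
      · have hl : l.val < k := by
          by_contra h
          exact hil ⟨fun h' => absurd h' hi, fun h' => absurd h' h⟩
        rw [hX i l hl (not_lt.mp hi), hG0 i l hil, zero_smul, sub_self, zero_mul]
  · rw [add_mul, one_mul, mul_assoc, hDD, mul_one]
    abel

/-- piece `form` (linear algebra): block triangular with scalar products of blocks -/
theorem exists_kron_of_scalar (ha : 0 < a) (k : ℕ) (hk0 : 0 < k) (hkb : k < b)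
    (t : Matrix.GeneralLinearGroup (Fin a × Fin b) F)
    (ht : IsTri k (t : Matrix (Fin a × Fin b) (Fin a × Fin b) F))
    (ht' : IsTri k ((t⁻¹ : Matrix.GeneralLinearGroup (Fin a × Fin b) F) :
      Matrix (Fin a × Fin b) (Fin a × Fin b) F))
    (hsc : ∀ i l k' m : Fin b, i.val < k → l.val < k → k ≤ k'.val → k ≤ m.val →
      ∃ c : F, blk (t : Matrix (Fin a × Fin b) (Fin a × Fin b) F) i l *
        blk ((t⁻¹ : Matrix.GeneralLinearGroup (Fin a × Fin b) F) :
          Matrix (Fin a × Fin b) (Fin a × Fin b) F) k' m = c • 1)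
    (hsc' : ∀ i l k' m : Fin b, i.val < k → l.val < k → k ≤ k'.val → k ≤ m.val →
      ∃ c : F, blk ((t⁻¹ : Matrix.GeneralLinearGroup (Fin a × Fin b) F) :
          Matrix (Fin a × Fin b) (Fin a × Fin b) F) i l *
        blk (t : Matrix (Fin a × Fin b) (Fin a × Fin b) F) k' m = c • 1) :
    ∃ (g₁ : Matrix.GeneralLinearGroup (Fin a) F) (g₂ : Matrix.GeneralLinearGroup (Fin b) F)
      (B : Matrix (Fin a × Fin b) (Fin a × Fin b) F), IsUR k B ∧
        (t : Matrix (Fin a × Fin b) (Fin a × Fin b) F) =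
          (1 + B) * ((g₁ : Matrix (Fin a) (Fin a) F) ⊗ₖ (g₂ : Matrix (Fin b) (Fin b) F)) := by
  have : Nonempty (Fin a) := ⟨⟨0, ha⟩⟩
  set X : Matrix (Fin a × Fin b) (Fin a × Fin b) F := (t : Matrix (Fin a × Fin b) (Fin a × Fin b) F)
    with hXdef
  set Y : Matrix (Fin a × Fin b) (Fin a × Fin b) F :=
    ((t⁻¹ : Matrix.GeneralLinearGroup (Fin a × Fin b) F) :
      Matrix (Fin a × Fin b) (Fin a × Fin b) F) with hYdef
  have hXY : X * Y = 1 := by
    rw [hXdef, hYdef, ← Units.val_mul, mul_inv_cancel, Units.val_one]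
  have hYX : Y * X = 1 := by
    rw [hXdef, hYdef, ← Units.val_mul, inv_mul_cancel, Units.val_one]
  obtain ⟨α₁, α₁', p1, p2, p3, p4⟩ := lemA ha k hk0 hkb X Y hYX ht ht' hsc
  obtain ⟨α₂, α₂', q1, q2, q3, q4⟩ := lemA ha k hk0 hkb Y X hXY ht' ht hsc'
  obtain ⟨s, hs⟩ := link k hk0 hkb X Y hXY ht' α₁ α₂ p3 q3
  have hs0 : s ≠ 0 := by
    intro h
    rw [h, zero_smul] at hs
    exact one_ne_zero hs.symm
  have r1 : α₂' = s • α₁ := by
    calc α₂' = (s • (α₁ * α₂)) * α₂' := by rw [hs, one_mul]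
      _ = s • (α₁ * (α₂ * α₂')) := by rw [smul_mul_assoc, mul_assoc]
      _ = s • α₁ := by rw [q1, mul_one]
  have r2 : α₂ = s⁻¹ • α₁' := by
    have : α₁' = s • α₂ := by
      calc α₁' = α₁' * (s • (α₁ * α₂)) := by rw [hs, mul_one]
        _ = s • ((α₁' * α₁) * α₂) := by rw [mul_smul_comm, mul_assoc]
        _ = s • α₂ := by rw [p2, one_mul]
    rw [this, smul_smul, inv_mul_cancel₀ hs0, one_smul]
  obtain ⟨G, G', B, hGG, hUR, hX⟩ := lemB ha k X Y hXY ht ht' α₁ α₁' p1 p2
    (by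
      intro i l hil
      by_cases hi : i.val < k
      · exact p3 i l hi (hil.mp hi)
      · have hl : ¬ l.val < k := fun h => hi (hil.mpr h)
        obtain ⟨c, hc⟩ := q4 i l (not_lt.mp hi) (not_lt.mp hl)
        exact ⟨c * s, by rw [hc, r1, smul_smul]⟩)
    (by
      intro i l hil
      by_cases hi : i.val < k
      · obtain ⟨c, hc⟩ := q3 i l hi (hil.mp hi)
        exact ⟨c * s⁻¹, by rw [hc, r2, smul_smul]⟩
      · have hl : ¬ l.val < k := fun h => hi (hil.mpr h)
        exact p4 i l (not_lt.mp hi) (not_lt.mp hl))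
  exact ⟨⟨α₁, α₁', p1, p2⟩, ⟨G, G', hGG, mul_eq_one_comm.mp hGG⟩, B, hUR, hX⟩

end Cfsg.Agent.Lib.Helper57TForm
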