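import Cfsg.Agent.Lib.Helper49TDefs

/-!
# Project TENS, piece `geo` (with the piece `rank` as a hypothesis)
-/

set_option autoImplicit false
set_option linter.unusedSectionVars false
set_option linter.unusedVariables false

namespace Cfsg.Agent.Lib.Helper63TGeo0

open scoped Matrix Kronecker
open Matrix Cfsg.Agent.Lib.Helper49TDefs

variable {F : Type*} [Field F] {a b : ℕ}

local notation "GLn" => Matrix.GeneralLinearGroup (Fin a × Fin b) F
local notation "Mn" => Matrix (Fin a × Fin b) (Fin a × Fin b) F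
local notation "Ma" => Matrix (Fin a) (Fin a) F
local notation "Mb" => Matrix (Fin b) (Fin b) F

theorem one_kron_mulVec (w : Mb) (v : Fin a × Fin b → F) (s : Fin a) :
    (fun j => (((1 : Ma) ⊗ₖ w) *ᵥ v) (s, j)) = w *ᵥ (fun j => v (s, j)) := by
  funext j
  simp only [Matrix.mulVec, dotProduct, Matrix.kroneckerMap_apply, Fintype.sum_prod_type]
  rw [Finset.sum_eq_single s]
  · simp
  · intro s' _ hs'
    simp [Matrix.one_apply, Ne.symm hs']
  · simp

/-- the submodule of `F^b` -/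
def CC (T₀ : Subgroup GLn) : Submodule F (Fin b → F) where
  carrier := {c | ∀ w ∈ T₀, ((w : Mn) - 1).rank ≤ a → ∀ w₂ : Mb, (w : Mn) = (1 : Ma) ⊗ₖ w₂ →
    w₂ *ᵥ c = c}
  add_mem' := fun {x y} hx hy w hw hr w₂ e => by
    rw [Matrix.mulVec_add, hx w hw hr w₂ e, hy w hw hr w₂ e]
  zero_mem' := fun w hw hr w₂ e => by simp
  smul_mem' := fun c x hx w hw hr w₂ e => by
    rw [Matrix.mulVec_smul, hx w hw hr w₂ e]

theorem mem_tsub_CC_iff
    (hrank : ∀ g : GLn, g ∈ KS a b F → ((g : Mn) - 1).rank ≤ a →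
      ∃ w : Matrix.GeneralLinearGroup (Fin b) F, (g : Mn) = (1 : Ma) ⊗ₖ (w : Mb))
    (T₀ : Subgroup GLn) (hT : T₀ ≤ KS a b F) (v : Fin a × Fin b → F) :
    v ∈ tsub a (CC T₀) ↔ ∀ w ∈ T₀, ((w : Mn) - 1).rank ≤ a → (w : Mn) *ᵥ v = v := by
  constructor
  · intro hv w hw hr
    obtain ⟨w₂, e⟩ := hrank w (hT hw) hr
    funext ⟨s, j⟩
    have h1 := hv s w hw hr w₂ e
    have h2 := one_kron_mulVec (a := a) (w₂ : Mb) v s
    rw [h1] at h2
    rw [e]
    exact congrFun h2 j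
  · intro hv s w hw hr w₂ e
    have h2 := one_kron_mulVec (a := a) (w₂ : Mb) v s
    rw [← e, hv w hw hr] at h2
    exact h2.symm

theorem exists_tsub_stable_of
    (hrank : ∀ g : GLn, g ∈ KS a b F → ((g : Mn) - 1).rank ≤ a →
      ∃ w : Matrix.GeneralLinearGroup (Fin b) F, (g : Mn) = (1 : Ma) ⊗ₖ (w : Mb))
    (T₀ : Subgroup GLn) (hT : T₀ ≤ KS a b F) (t : GLn)
    (ht : ∀ w ∈ T₀, t⁻¹ * w * t ∈ T₀) (y : Fin a × Fin b → F) (hy : y ≠ 0)
    (hfix : ∀ w ∈ T₀, (w : Mn) *ᵥ y = y) (x : GLn) (hx : x ∈ T₀) (hx1 : x ≠ 1)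
    (hxr : ((x : Mn) - 1).rank ≤ a) :
    ∃ C : Submodule F (Fin b → F), C ≠ ⊥ ∧ C ≠ ⊤ ∧
      ∀ v ∈ tsub a C, (t : Mn) *ᵥ v ∈ tsub a C := by
  refine ⟨CC T₀, ?_, ?_, ?_⟩
  · intro h
    have hyW : y ∈ tsub a (CC T₀) :=
      (mem_tsub_CC_iff hrank T₀ hT y).2 fun w hw _ => hfix w hw
    rw [h] at hyW
    apply hy
    funext ⟨s, j⟩
    have := hyW s
    rw [Submodule.mem_bot] at this
    exact congrFun this j
  · intro h
    obtain ⟨x₂, e⟩ := hrank x (hT hx) hxr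
    have h1 : ∀ c : Fin b → F, (x₂ : Mb) *ᵥ c = c := by
      intro c
      have hc : c ∈ CC T₀ := by rw [h]; trivial
      exact hc x hx hxr x₂ e
    have h2 : (x₂ : Mb) = 1 := by
      apply Matrix.toLin'.injective
      apply LinearMap.ext
      intro c
      simp [h1]
    apply hx1
    apply Units.ext
    rw [e, h2]
    simp
  · intro v hv
    rw [mem_tsub_CC_iff hrank T₀ hT] at hv ⊢
    intro w hw hr
    have hinv' : (t : Mn) * ((t⁻¹ : GLn) : Mn) = 1 := by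
      rw [← Units.val_mul, mul_inv_cancel, Units.val_one]
    have hinv : ((t⁻¹ : GLn) : Mn) * (t : Mn) = 1 := by
      rw [← Units.val_mul, inv_mul_cancel, Units.val_one]
    have e1 : ((t⁻¹ * w * t : GLn) : Mn) - 1 = ((t⁻¹ : GLn) : Mn) * ((w : Mn) - 1) * (t : Mn) := by
      rw [Units.val_mul, Units.val_mul, mul_sub, sub_mul, mul_one, hinv]
    have hr' : (((t⁻¹ * w * t : GLn) : Mn) - 1).rank ≤ a := by
      rw [e1]
      exact ((Matrix.rank_mul_le_left _ _).trans (Matrix.rank_mul_le_right _ _)).trans hr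
    have h3 := hv _ (ht w hw) hr'
    rw [Units.val_mul, Units.val_mul] at h3
    have h4 : (t : Mn) *ᵥ ((((t⁻¹ : GLn) : Mn) * (w : Mn) * (t : Mn)) *ᵥ v) = (t : Mn) *ᵥ v := by
      rw [h3]
    rw [Matrix.mulVec_mulVec, ← mul_assoc, ← mul_assoc, hinv', one_mul, ← Matrix.mulVec_mulVec] at h4
    exact h4

end Cfsg.Agent.Lib.Helper63TGeo0
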