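import Cfsg.Agent.Lib.Helper49TDefs

/-!
# Project TENS, piece `fixroot`
-/

set_option autoImplicit false
set_option linter.unusedSectionVars false
set_option linter.unusedVariables false

namespace Cfsg.Agent.Lib.Helper70TFixroot

open scoped Matrix Kronecker
open Matrix Cfsg.Agent.Lib.Helper49TDefs

variable {F : Type*} [Field F] {a b : ℕ}

local notation "GLn" => Matrix.GeneralLinearGroup (Fin a × Fin b) F
local notation "Mn" => Matrix (Fin a × Fin b) (Fin a × Fin b) F
local notation "Ma" => Matrix (Fin a) (Fin a) F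
local notation "Mb" => Matrix (Fin b) (Fin b) F

theorem root_mulVec (c φ : Fin b → F) (v : Fin a × Fin b → F) (s : Fin a) (i : Fin b) :
    (((1 : Ma) ⊗ₖ Matrix.vecMulVec c φ) *ᵥ v) (s, i) = c i * (φ ⬝ᵥ fun j => v (s, j)) := by
  simp only [Matrix.mulVec, dotProduct, Matrix.kroneckerMap_apply, Fintype.sum_prod_type,
    Matrix.vecMulVec_apply, Matrix.one_apply, Finset.mul_sum]
  rw [Finset.sum_eq_single s]
  · refine Finset.sum_congr rfl fun j _ => ?_
    simp [mul_assoc]
  · intro s' _ hs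
    simp [Ne.symm hs]
  · simp

/-- piece `fixroot` -/
theorem pure_of_fixed (c : Fin b → F) (hc : c ≠ 0) (v : Fin a × Fin b → F)
    (hv : ∀ φ : Fin b → F, φ ⬝ᵥ c = 0 → ((1 : Ma) ⊗ₖ Matrix.vecMulVec c φ) *ᵥ v = 0) :
    ∃ u : Fin a → F, v = tens u c := by
  obtain ⟨i₀, hi₀⟩ : ∃ i, c i ≠ 0 := by
    by_contra h
    push Not at h
    exact hc (funext h)
  refine ⟨fun s => v (s, i₀) / c i₀, ?_⟩
  ext ⟨s, j⟩
  have h1 := congrFun (hv (c i₀ • Pi.single j 1 - c j • Pi.single i₀ 1) (by
    simp [sub_dotProduct, smul_dotProduct, mul_comm])) (s, i₀)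
  rw [root_mulVec] at h1
  simp only [Pi.zero_apply, mul_eq_zero, hi₀, false_or] at h1
  simp only [sub_dotProduct, smul_dotProduct, single_dotProduct, one_mul, smul_eq_mul] at h1
  simp only [tens]
  field_simp
  linear_combination h1

end Cfsg.Agent.Lib.Helper70TFixroot
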