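import Cfsg.Agent.Lib.Helper49TDefs
import Cfsg.Agent.Lib.Helper70TFixroot

/-!
# Project TENS, piece `killroot`
-/

set_option autoImplicit false
set_option linter.unusedSectionVars false
set_option linter.unusedVariables false

namespace Cfsg.Agent.Lib.Helper70TKillroot

open scoped Matrix Kronecker
open Matrix Cfsg.Agent.Lib.Helper49TDefs Cfsg.Agent.Lib.Helper70TFixroot

variable {F : Type*} [Field F] {a b : ℕ}

local notation "GLn" => Matrix.GeneralLinearGroup (Fin a × Fin b) F
local notation "Mn" => Matrix (Fin a × Fin b) (Fin a × Fin b) F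
local notation "Ma" => Matrix (Fin a) (Fin a) F
local notation "Mb" => Matrix (Fin b) (Fin b) F

/-- piece `killroot`: every vector is killed by some root element (`a < b`) -/
theorem exists_root_fix (h12 : a < b) (h2 : 2 ≤ b) (y : Fin a × Fin b → F) :
    ∃ c φ : Fin b → F, c ≠ 0 ∧ φ ≠ 0 ∧ φ ⬝ᵥ c = 0 ∧
      ((1 : Ma) ⊗ₖ Matrix.vecMulVec c φ) *ᵥ y = 0 := by
  let Y : Matrix (Fin a) (Fin b) F := Matrix.of fun s j => y (s, j)
  have hk : LinearMap.ker Y.mulVecLin ≠ ⊥ := by
    apply LinearMap.ker_ne_bot_of_finrank_lt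
    simpa using h12
  obtain ⟨φ, hφ, hφ0⟩ := (Submodule.ne_bot_iff _).mp hk
  have hk2 : LinearMap.ker (Matrix.of fun (_ : Fin 1) j => φ j).mulVecLin ≠ ⊥ := by
    apply LinearMap.ker_ne_bot_of_finrank_lt
    simp only [Module.finrank_fintype_fun_eq_card, Fintype.card_fin]
    omega
  obtain ⟨c, hcm, hc0⟩ := (Submodule.ne_bot_iff _).mp hk2
  refine ⟨c, φ, hc0, hφ0, ?_, ?_⟩
  · have := congrFun (LinearMap.mem_ker.mp hcm) 0
    simpa [Matrix.mulVec, dotProduct] using this
  · ext ⟨s, i⟩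
    rw [root_mulVec]
    have := congrFun (LinearMap.mem_ker.mp hφ) s
    simp only [Matrix.mulVecLin_apply, Matrix.mulVec, Pi.zero_apply] at this
    rw [dotProduct_comm]
    change c i * ((fun j => Y s j) ⬝ᵥ φ) = 0
    rw [this, mul_zero]

end Cfsg.Agent.Lib.Helper70TKillroot
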