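import Cfsg.Agent.Lib.Helper49TDefs

/-!
# Project TENS, piece `proper`
-/

set_option autoImplicit false
set_option linter.unusedSectionVars false
set_option linter.unusedVariables false

namespace Cfsg.Agent.Lib.Helper70TProper

open scoped Matrix Kronecker
open Matrix Cfsg.Agent.Lib.Helper49TDefs

variable {F : Type*} [Field F] {a b : ℕ}

local notation "GLn" => Matrix.GeneralLinearGroup (Fin a × Fin b) F
local notation "Mn" => Matrix (Fin a × Fin b) (Fin a × Fin b) F
local notation "Ma" => Matrix (Fin a) (Fin a) F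
local notation "Mb" => Matrix (Fin b) (Fin b) F

/-- piece `proper` -/
theorem proper (h1 : 2 ≤ a) (h2 : 2 ≤ b) : ¬ SLn a b F ≤ KS a b F := by
  intro hle
  let p : Fin a × Fin b := (⟨0, by omega⟩, ⟨0, by omega⟩)
  let q : Fin a × Fin b := (⟨0, by omega⟩, ⟨1, by omega⟩)
  have hpq : p ≠ q := by
    intro h
    have := congrArg (fun x => (x.2 : ℕ)) h
    simp [p, q] at this
  let X : Mn := Matrix.transvection p q (1 : F)
  have hX1 : X * Matrix.transvection p q (-1 : F) = 1 := by
    rw [Matrix.transvection_mul_transvection_same _ _ hpq]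
    simp
  have hX2 : Matrix.transvection p q (-1 : F) * X = 1 := by
    rw [Matrix.transvection_mul_transvection_same _ _ hpq]
    simp
  let g : GLn := ⟨X, _, hX1, hX2⟩
  have hg : g ∈ SLn a b F := by
    change _ ∈ (Matrix.GeneralLinearGroup.det : GLn →* Fˣ).ker
    rw [MonoidHom.mem_ker]
    ext
    rw [Matrix.GeneralLinearGroup.val_det_apply]
    change X.det = 1
    exact Matrix.det_transvection_of_ne _ _ hpq _
  obtain ⟨g₁, g₂, hgk⟩ := hle hg
  have hgk' : X = (g₁ : Ma) ⊗ₖ (g₂ : Mb) := hgk
  have e1 : X p q = 1 := by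
    simp [X, Matrix.transvection, Matrix.one_apply, hpq]
  have e2 : X (⟨1, by omega⟩, ⟨0, by omega⟩) (⟨1, by omega⟩, ⟨1, by omega⟩) = 0 := by
    simp [X, Matrix.transvection, Matrix.one_apply, Matrix.single_apply, p, q]
  have e3 : X (⟨1, by omega⟩, ⟨0, by omega⟩) (⟨1, by omega⟩, ⟨0, by omega⟩) = 1 := by
    simp [X, Matrix.transvection, Matrix.one_apply, Matrix.single_apply, p, q]
  rw [hgk', Matrix.kroneckerMap_apply] at e1 e2 e3
  rcases mul_eq_zero.mp e2 with h | h
  · rw [h, zero_mul] at e3
    exact zero_ne_one e3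
  · simp only [p, q] at e1
    rw [h, mul_zero] at e1
    exact zero_ne_one e1

end Cfsg.Agent.Lib.Helper70TProper
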