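import Cfsg.Agent.Lib.Helper49TDefs
import Cfsg.Agent.Lib.Helper99SubfieldSL

set_option autoImplicit false
set_option linter.unusedSectionVars false
set_option linter.unusedVariables false

namespace Cfsg.Agent.Lib.Helper76TTrans

open scoped Matrix Kronecker
open Matrix Cfsg.Agent.Lib.Helper49TDefs

variable {F : Type*} [Field F] {a b : ℕ}

local notation "GLn" => Matrix.GeneralLinearGroup (Fin a × Fin b) F
local notation "Mn" => Matrix (Fin a × Fin b) (Fin a × Fin b) F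
local notation "Ma" => Matrix (Fin a) (Fin a) F
local notation "Mb" => Matrix (Fin b) (Fin b) F

/-- `SL_n` is transitive on the non-zero vectors (`n ≥ 2`). -/
theorem sl_move {n : ℕ} (hn : 2 ≤ n) {u u' : Fin n → F} (hu : u ≠ 0) (hu' : u' ≠ 0) :
    ∃ g : Matrix.GeneralLinearGroup (Fin n) F, (g : Matrix (Fin n) (Fin n) F).det = 1 ∧
      (g : Matrix (Fin n) (Fin n) F) *ᵥ u = u' := by
  have hcard : 1 < Fintype.card (Fin n) := by rw [Fintype.card_fin]; omega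
  obtain ⟨h, hh, e1⟩ := Cfsg.Agent.Lib.Helper99Subfield.move (F₀ := (⊤ : Subfield F)) hcard
    (b := u) (fun i => Subfield.mem_top _) hu ⟨0, by omega⟩
  obtain ⟨h', hh', e2⟩ := Cfsg.Agent.Lib.Helper99Subfield.move (F₀ := (⊤ : Subfield F)) hcard
    (b := u') (fun i => Subfield.mem_top _) hu' ⟨0, by omega⟩
  refine ⟨h'⁻¹ * h, ?_, ?_⟩
  · have := (Cfsg.Geo.specialLinear (Fin n) F).mul_mem
      ((Cfsg.Geo.specialLinear (Fin n) F).inv_mem hh'.2) hh.2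
    exact (Cfsg.Agent.Lib.Helper95Basic.mem_specialLinear_iff _).1 this
  · rw [Units.val_mul, ← Matrix.mulVec_mulVec, e1, ← e2, Matrix.mulVec_mulVec, ← Units.val_mul,
      inv_mul_cancel, Units.val_one, Matrix.one_mulVec]

/-- local copy of piece `kmk` (first half) -/
theorem kron_mem' (g₁ : Matrix.GeneralLinearGroup (Fin a) F)
    (g₂ : Matrix.GeneralLinearGroup (Fin b) F)
    (h : (g₁ : Ma).det ^ b * (g₂ : Mb).det ^ a = 1) :
    ∃ m ∈ KS a b F ⊓ SLn a b F, (m : Mn) = (g₁ : Ma) ⊗ₖ (g₂ : Mb) := by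
  refine ⟨⟨(g₁ : Ma) ⊗ₖ (g₂ : Mb), ((g₁⁻¹ : Matrix.GeneralLinearGroup (Fin a) F) : Ma) ⊗ₖ
        ((g₂⁻¹ : Matrix.GeneralLinearGroup (Fin b) F) : Mb), ?_, ?_⟩, ⟨⟨g₁, g₂, rfl⟩, ?_⟩, rfl⟩
  · rw [← Matrix.mul_kronecker_mul, ← Units.val_mul, ← Units.val_mul, mul_inv_cancel,
      mul_inv_cancel, Units.val_one, Units.val_one, Matrix.one_kronecker_one]
  · rw [← Matrix.mul_kronecker_mul, ← Units.val_mul, ← Units.val_mul, inv_mul_cancel,
      inv_mul_cancel, Units.val_one, Units.val_one, Matrix.one_kronecker_one]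
  · apply (Cfsg.Agent.Lib.Helper95Basic.mem_specialLinear_iff _).2
    show ((g₁ : Ma) ⊗ₖ (g₂ : Mb)).det = 1
    rw [Matrix.det_kronecker, Fintype.card_fin, Fintype.card_fin, h]

/-- piece `trans` -/
theorem exists_move (h1 : 2 ≤ a) (h2 : 2 ≤ b) {u u' : Fin a → F} {c c' : Fin b → F}
    (hu : u ≠ 0) (hu' : u' ≠ 0) (hc : c ≠ 0) (hc' : c' ≠ 0) :
    ∃ m ∈ KS a b F ⊓ SLn a b F, (m : Mn) *ᵥ tens u c = tens u' c' := by
  obtain ⟨g₁, d1, e1⟩ := sl_move h1 hu hu'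
  obtain ⟨g₂, d2, e2⟩ := sl_move h2 hc hc'
  obtain ⟨m, hm, em⟩ := kron_mem' g₁ g₂ (by rw [d1, d2]; simp)
  exact ⟨m, hm, by rw [em, kron_mulVec_tens, e1, e2]⟩

end Cfsg.Agent.Lib.Helper76TTrans
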