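import Cfsg.Agent.Lib.Helper49TDefs
import Cfsg.Agent.Lib.Helper99SubfieldSL

/-!
# PROJECT TENS (S5637): piece `gen`.
-/

set_option autoImplicit false
set_option linter.unusedSectionVars false
set_option linter.unusedVariables false

namespace Cfsg.Agent.Lib.Helper94TGen

open scoped Matrix Kronecker
open Matrix Cfsg.Agent.Lib.Helper49TDefs

variable {F : Type*} [Field F] {a b : ℕ}

local notation "GLn" => Matrix.GeneralLinearGroup (Fin a × Fin b) F
local notation "Mn" => Matrix (Fin a × Fin b) (Fin a × Fin b) F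
local notation "Ma" => Matrix (Fin a) (Fin a) F
local notation "Mb" => Matrix (Fin b) (Fin b) F

theorem el_mem_of_NN {H : Subgroup GLn} {p q : Fin a × Fin b} (hpq : p ≠ q) (d : F)
    (h : Matrix.single p q d ∈ NN H) : Cfsg.Agent.Lib.Helper95SL.el p q hpq d ∈ H := by
  obtain ⟨_, g, hg, e⟩ := h
  have : g = Cfsg.Agent.Lib.Helper95SL.el p q hpq d := by
    rw [← Cfsg.Agent.Lib.Helper95SL.toGL_transvection]
    apply Units.ext
    rw [e]
    rfl
  rw [← this]; exact hg

theorem kron_single (s s' : Fin a) (i j : Fin b) (d : F) :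
    (Matrix.single s s' d) ⊗ₖ (Matrix.single i j (1 : F)) = Matrix.single (s, i) (s', j) d := by
  rw [Matrix.kroneckerMap_single_single _ _ _ _ _ (by simp) (by simp), mul_one]

/-- piece `gen` -/
theorem SL_le_of_BB (h1 : 2 ≤ a) (hb : 3 ≤ b) (H : Subgroup GLn) (h : ∀ β : Ma, β ∈ BB H) :
    SLn a b F ≤ H := by
  have : Nontrivial (Fin a × Fin b) :=
    ⟨(⟨0, by omega⟩, ⟨0, by omega⟩), (⟨1, by omega⟩, ⟨0, by omega⟩), by simp⟩
  apply Cfsg.Agent.Lib.Helper99SubfieldSL.specialLinear_le_of_el
  rintro ⟨s, i⟩ ⟨s', j⟩ hpq d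
  apply el_mem_of_NN
  by_cases hij : i = j
  · subst hij
    have hss : s ≠ s' := by
      intro e
      exact hpq (by rw [e])
    obtain ⟨l, hl⟩ : ∃ l : Fin b, l ≠ i := by
      by_cases h0 : (⟨0, by omega⟩ : Fin b) = i
      · refine ⟨⟨1, by omega⟩, ?_⟩
        rw [← h0]; simp
      · exact ⟨_, h0⟩
    have := NN_mul (h (Matrix.single s s' d) i l (Ne.symm hl)) (h (Matrix.single s' s' 1) l i hl) (by
      rw [← Matrix.mul_kronecker_mul]
      have : Matrix.single s' s' (1 : F) * Matrix.single s s' d = 0 := by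
        simp [Ne.symm hss]
      rw [this]; simp)
    rw [← Matrix.mul_kronecker_mul, Matrix.single_mul_single_same, Matrix.single_mul_single_same,
      mul_one, mul_one, kron_single] at this
    exact this
  · rw [← kron_single]
    exact h _ i j hij

end Cfsg.Agent.Lib.Helper94TGen
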