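import Cfsg.Agent.Lib.Helper49TDefs
import Cfsg.Agent.Lib.Helper95Basic

/-!
# PROJECT TENS (S5637): piece `ring` (with own copies of `kmk`, `root`).
-/

set_option autoImplicit false
set_option linter.unusedSectionVars false
set_option linter.unusedVariables false

namespace Cfsg.Agent.Lib.Helper94TRing

open scoped Matrix Kronecker
open Matrix Cfsg.Agent.Lib.Helper49TDefs

variable {F : Type*} [Field F] {a b : ℕ}

local notation "GLn" => Matrix.GeneralLinearGroup (Fin a × Fin b) F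
local notation "Mn" => Matrix (Fin a × Fin b) (Fin a × Fin b) F
local notation "Ma" => Matrix (Fin a) (Fin a) F
local notation "Mb" => Matrix (Fin b) (Fin b) F

theorem kron_mem (g₁ : Matrix.GeneralLinearGroup (Fin a) F) (g₂ : Matrix.GeneralLinearGroup (Fin b) F)
    (h : (g₁ : Ma).det ^ b * (g₂ : Mb).det ^ a = 1) :
    ∃ m ∈ KS a b F ⊓ SLn a b F, (m : Mn) = (g₁ : Ma) ⊗ₖ (g₂ : Mb) ∧
      ((m⁻¹ : GLn) : Mn) = ((g₁⁻¹ : Matrix.GeneralLinearGroup (Fin a) F) : Ma) ⊗ₖ
        ((g₂⁻¹ : Matrix.GeneralLinearGroup (Fin b) F) : Mb) := by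
  let m : GLn :=
    ⟨(g₁ : Ma) ⊗ₖ (g₂ : Mb), ((g₁⁻¹ : Matrix.GeneralLinearGroup (Fin a) F) : Ma) ⊗ₖ
        ((g₂⁻¹ : Matrix.GeneralLinearGroup (Fin b) F) : Mb),
      by rw [← Matrix.mul_kronecker_mul, Units.mul_inv, Units.mul_inv, Matrix.one_kronecker_one],
      by rw [← Matrix.mul_kronecker_mul, Units.inv_mul, Units.inv_mul, Matrix.one_kronecker_one]⟩
  refine ⟨m, ⟨⟨g₁, g₂, rfl⟩, ?_⟩, rfl, rfl⟩
  refine (Cfsg.Agent.Lib.Helper95Basic.mem_specialLinear_iff m).2 ?_
  show ((g₁ : Ma) ⊗ₖ (g₂ : Mb)).det = 1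
  rw [Matrix.det_kronecker, Fintype.card_fin, Fintype.card_fin, h]

theorem vmv_sq (c φ : Fin b → F) (h : φ ⬝ᵥ c = 0) :
    Matrix.vecMulVec c φ * Matrix.vecMulVec c φ = 0 := by
  ext i j
  simp only [Matrix.mul_apply, Matrix.vecMulVec_apply, Matrix.zero_apply]
  have : ∑ x, c i * φ x * (c x * φ j) = c i * φ j * (φ ⬝ᵥ c) := by
    rw [dotProduct, Finset.mul_sum]
    exact Finset.sum_congr rfl fun x _ => by ring
  rw [this, h, mul_zero]

theorem root_mem {H : Subgroup GLn} (hMH : KS a b F ⊓ SLn a b F ≤ H) (c φ : Fin b → F)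
    (h : φ ⬝ᵥ c = 0) : (1 : Ma) ⊗ₖ (Matrix.vecMulVec c φ) ∈ NN H := by
  have hsq := vmv_sq c φ h
  let g₂ : Matrix.GeneralLinearGroup (Fin b) F :=
    ⟨1 + Matrix.vecMulVec c φ, 1 - Matrix.vecMulVec c φ,
      by rw [add_mul, mul_sub, mul_sub, hsq]; simp,
      by rw [sub_mul, mul_add, mul_add, hsq]; simp⟩
  have hdet : (g₂ : Mb).det = 1 := by
    show (1 + Matrix.vecMulVec c φ).det = 1
    rw [Matrix.vecMulVec_eq Unit, Matrix.det_one_add_replicateCol_mul_replicateRow, h, add_zero]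
  obtain ⟨m, hm, hm1, _⟩ := kron_mem (a := a) (1 : Matrix.GeneralLinearGroup (Fin a) F) g₂
    (by rw [hdet]; simp)
  refine ⟨by rw [← Matrix.mul_kronecker_mul, hsq]; simp, m, hMH hm, ?_⟩
  rw [hm1]
  show (1 : Ma) ⊗ₖ (1 + Matrix.vecMulVec c φ) = _
  rw [Matrix.kronecker_add, Matrix.one_kronecker_one]

theorem ss_ne {i j k l : Fin b} (h : j ≠ k) :
    (Matrix.single i j (1 : F)) * Matrix.single k l 1 = 0 := by
  simp [h]

/-- piece `ring` -/
theorem BB_add {H : Subgroup GLn} {β γ : Ma} (h₁ : β ∈ BB H) (h₂ : γ ∈ BB H) : β + γ ∈ BB H := by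
  intro i j hij
  rw [Matrix.add_kronecker]
  refine NN_add (h₁ i j hij) (h₂ i j hij) ?_ ?_
  · rw [← Matrix.mul_kronecker_mul, ss_ne (Ne.symm hij)]; simp
  · rw [← Matrix.mul_kronecker_mul, ss_ne (Ne.symm hij)]; simp

theorem exists_third (hb : 3 ≤ b) (i j : Fin b) : ∃ l : Fin b, l ≠ i ∧ l ≠ j := by
  by_contra hcon
  push Not at hcon
  have h0 := hcon ⟨0, by omega⟩
  have h1 := hcon ⟨1, by omega⟩
  have h2 := hcon ⟨2, by omega⟩
  by_cases e0 : (⟨0, by omega⟩ : Fin b) = i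
  · by_cases e1 : (⟨1, by omega⟩ : Fin b) = i
    · have := e0.trans e1.symm
      simp at this
    · have f1 := h1 e1
      by_cases e2 : (⟨2, by omega⟩ : Fin b) = i
      · have := e0.trans e2.symm
        simp at this
      · have f2 := h2 e2
        have := f1.trans f2.symm
        simp at this
  · have f0 := h0 e0
    by_cases e1 : (⟨1, by omega⟩ : Fin b) = i
    · by_cases e2 : (⟨2, by omega⟩ : Fin b) = i
      · have := e1.trans e2.symm
        simp at this
      · have f2 := h2 e2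
        have := f0.trans f2.symm
        simp at this
    · have f1 := h1 e1
      have := f0.trans f1.symm
      simp at this

theorem BB_mul (hb : 3 ≤ b) {H : Subgroup GLn} {β γ : Ma} (h₁ : β ∈ BB H) (h₂ : γ ∈ BB H) :
    β * γ ∈ BB H := by
  intro i j hij
  obtain ⟨l, hli, hlj⟩ := exists_third hb i j
  have := NN_mul (h₁ i l (Ne.symm hli)) (h₂ l j hlj) (by
    rw [← Matrix.mul_kronecker_mul, ss_ne (Ne.symm hij)]; simp)
  rw [← Matrix.mul_kronecker_mul, Matrix.single_mul_single_same, mul_one] at this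
  exact this

theorem BB_scalar {H : Subgroup GLn} (hMH : KS a b F ⊓ SLn a b F ≤ H) (c : F) :
    c • (1 : Ma) ∈ BB H := by
  intro i j hij
  have := root_mem hMH (c • Pi.single i 1) (Pi.single j 1) (by
    simp [hij.symm])
  have e : (c • (1 : Ma)) ⊗ₖ (Matrix.single i j (1 : F)) =
      (1 : Ma) ⊗ₖ (Matrix.vecMulVec (c • Pi.single i 1) (Pi.single j 1)) := by
    rw [Matrix.smul_kronecker, ← Matrix.kronecker_smul]
    congr 1
    ext x y
    simp only [Matrix.smul_apply, Matrix.single_apply, Matrix.vecMulVec_apply, Pi.smul_apply,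
      Pi.single_apply, smul_eq_mul]
    by_cases hx : i = x
    · subst hx
      by_cases hy : j = y
      · subst hy; simp
      · simp [hy, Ne.symm hy]
    · simp [hx, Ne.symm hx]
  rw [e]; exact this

theorem BB_conj {H : Subgroup GLn} (hMH : KS a b F ⊓ SLn a b F ≤ H) {β : Ma} (h : β ∈ BB H)
    (g : Matrix.SpecialLinearGroup (Fin a) F) :
    (g : Ma) * β * ((g⁻¹ : Matrix.SpecialLinearGroup (Fin a) F) : Ma) ∈ BB H := by
  intro i j hij
  obtain ⟨m, hm, hm1, hm2⟩ := kron_mem (b := b) (Matrix.SpecialLinearGroup.toGL g)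
    (1 : Matrix.GeneralLinearGroup (Fin b) F) (by simp)
  have := NN_conj (h i j hij) (hMH hm)
  rw [hm1, hm2, ← Matrix.mul_kronecker_mul, ← Matrix.mul_kronecker_mul] at this
  have e1 : ((Matrix.SpecialLinearGroup.toGL g : Matrix.GeneralLinearGroup (Fin a) F) : Ma) = (g : Ma) := rfl
  have e2 : (((Matrix.SpecialLinearGroup.toGL g)⁻¹ : Matrix.GeneralLinearGroup (Fin a) F) : Ma)
      = ((g⁻¹ : Matrix.SpecialLinearGroup (Fin a) F) : Ma) := by
    rw [← map_inv]; rfl
  rw [e1, e2] at this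
  simpa using this

end Cfsg.Agent.Lib.Helper94TRing
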