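import Cfsg.Agent.Lib.Helper49TDefs
import Cfsg.Agent.Lib.Helper94TRing

/-!
# PROJECT TENS (S5637): piece `std`.
-/

set_option autoImplicit false
set_option linter.unusedSectionVars false
set_option linter.unusedVariables false

namespace Cfsg.Agent.Lib.Helper94TStd

open scoped Matrix Kronecker
open Matrix Module Cfsg.Agent.Lib.Helper49TDefs Cfsg.Agent.Lib.Helper95Basic

variable {F : Type*} [Field F] {a b : ℕ}

local notation "GLn" => Matrix.GeneralLinearGroup (Fin a × Fin b) F
local notation "Mn" => Matrix (Fin a × Fin b) (Fin a × Fin b) F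
local notation "Ma" => Matrix (Fin a) (Fin a) F
local notation "Mb" => Matrix (Fin b) (Fin b) F

/-- a linear automorphism carrying `C` onto the span of the first `finrank C` basis vectors -/
theorem exists_std_equiv (C : Submodule F (Fin b → F)) :
    ∃ e : (Fin b → F) ≃ₗ[F] (Fin b → F),
      ∀ c, c ∈ C ↔ ∀ j : Fin b, finrank F C ≤ j.val → e c j = 0 := by
  classical
  obtain ⟨C', hC'⟩ := C.exists_isCompl
  have hk : finrank F C + finrank F C' = b := by
    rw [Submodule.finrank_add_eq_of_isCompl hC']; simp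
  let bC := Module.finBasis F C
  let bC' := Module.finBasis F C'
  let P := Submodule.prodEquivOfIsCompl C C' hC'
  let B1 : Basis (Fin (finrank F C) ⊕ Fin (finrank F C')) F (Fin b → F) := (bC.prod bC').map P
  let σ : Fin (finrank F C) ⊕ Fin (finrank F C') ≃ Fin b := finSumFinEquiv.trans (finCongr hk)
  let B : Basis (Fin b) F (Fin b → F) := B1.reindex σ
  refine ⟨B.equivFun, fun c => ?_⟩
  have hrepr : ∀ i : Fin (finrank F C'), B.equivFun c (σ (Sum.inr i)) = bC'.repr (P.symm c).2 i := by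
    intro i
    simp only [B, B1, Basis.equivFun_apply, Basis.repr_reindex_apply, Equiv.symm_apply_apply,
      Basis.map_repr, LinearEquiv.trans_apply, Basis.prod_repr_inr]
  have hmem : c ∈ C ↔ (P.symm c).2 = 0 :=
    (Submodule.prodEquivOfIsCompl_symm_apply_snd_eq_zero C C' hC').symm
  rw [hmem]
  constructor
  · intro h0 j hj
    have hj' : j = σ (Sum.inr ⟨j.val - finrank F C, by omega⟩) := by
      apply Fin.ext
      simp [σ]
      omega
    rw [hj', hrepr, h0]
    simp
  · intro h
    apply bC'.repr.injective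
    ext i
    rw [← hrepr, map_zero]
    apply h
    simp [σ]

theorem exists_std_gl (hb : 0 < b) (C : Submodule F (Fin b → F)) :
    ∃ g : Matrix.GeneralLinearGroup (Fin b) F, (g : Mb).det = 1 ∧
      ∀ c, c ∈ C ↔ ∀ j : Fin b, finrank F C ≤ j.val → ((g : Mb) *ᵥ c) j = 0 := by
  classical
  obtain ⟨e, he⟩ := exists_std_equiv C
  let g0 : Matrix.GeneralLinearGroup (Fin b) F := mkGL e
  have hd0 : (g0 : Mb).det ≠ 0 := by
    have := g0.isUnit.map (Matrix.detMonoidHom (n := Fin b) (R := F))
    exact this.ne_zero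
  obtain ⟨d, hd⟩ : ∃ d, d = (g0 : Mb).det := ⟨_, rfl⟩
  rw [← hd] at hd0
  let j₀ : Fin b := ⟨0, hb⟩
  let w : Fin b → F := Function.update 1 j₀ d⁻¹
  let w' : Fin b → F := Function.update 1 j₀ d
  have hww : ∀ j, w j * w' j = 1 := by
    intro j
    by_cases hj : j = j₀
    · subst hj; simp [w, w', hd0]
    · simp [w, w', hj]
  have hw0 : ∀ j, w j ≠ 0 := fun j h => by
    have := hww j
    rw [h, zero_mul] at this
    exact zero_ne_one this
  let D : Matrix.GeneralLinearGroup (Fin b) F :=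
    ⟨Matrix.diagonal w, Matrix.diagonal w', by
      rw [Matrix.diagonal_mul_diagonal]
      have : (fun i => w i * w' i) = fun _ => 1 := funext hww
      rw [this, Matrix.diagonal_one], by
      rw [Matrix.diagonal_mul_diagonal]
      have : (fun i => w' i * w i) = fun _ => 1 := funext fun i => by rw [mul_comm, hww]
      rw [this, Matrix.diagonal_one]⟩
  refine ⟨D * g0, ?_, fun c => ?_⟩
  · rw [Units.val_mul, Matrix.det_mul, ← hd]
    show (Matrix.diagonal w).det * d = 1
    rw [Matrix.det_diagonal]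
    have : ∏ i, w i = d⁻¹ := by
      rw [Finset.prod_eq_single j₀]
      · simp [w]
      · intro j _ hj; simp [w, hj]
      · simp
    rw [this, inv_mul_cancel₀ hd0]
  · rw [he c]
    refine forall_congr' fun j => imp_congr_right fun _ => ?_
    rw [mul_mulVec]
    show _ ↔ (Matrix.diagonal w *ᵥ ((g0 : Mb) *ᵥ c)) j = 0
    rw [Matrix.mulVec_diagonal, mkGL_mulVec]
    constructor
    · intro h; rw [h, mul_zero]
    · intro h
      rcases mul_eq_zero.1 h with h | h
      · exact absurd h (hw0 j)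
      · exact h

theorem one_kron_mulVec (A : Mb) (v : Fin a × Fin b → F) (s : Fin a) (i : Fin b) :
    (((1 : Ma) ⊗ₖ A) *ᵥ v) (s, i) = (A *ᵥ fun j => v (s, j)) i := by
  simp only [Matrix.mulVec, dotProduct, Matrix.kroneckerMap_apply, Fintype.sum_prod_type,
    Matrix.one_apply]
  rw [Finset.sum_eq_single s]
  · simp
  · intro s' _ hs'
    simp [Ne.symm hs']
  · simp

/-- piece `std` -/
theorem exists_tri (H : Subgroup GLn) (hMH : KS a b F ⊓ SLn a b F ≤ H) (t : GLn) (ht : t ∈ H)
    (htK : t ∉ KS a b F) (C : Submodule F (Fin b → F)) (hC0 : C ≠ ⊥) (hC1 : C ≠ ⊤)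
    (hst : ∀ v ∈ tsub a C, (t : Mn) *ᵥ v ∈ tsub a C) :
    ∃ t' ∈ H, t' ∉ KS a b F ∧ ∃ k : ℕ, 0 < k ∧ k < b ∧ IsTri k (t' : Mn) := by
  classical
  have hk0 : 0 < finrank F C := by
    rcases Nat.eq_zero_or_pos (finrank F C) with h | h
    · exact absurd (Submodule.finrank_eq_zero.1 h) hC0
    · exact h
  have hkb : finrank F C < b := by
    have := Submodule.finrank_lt hC1
    simpa using this
  obtain ⟨g₂, hdet, hg₂⟩ := exists_std_gl (by omega) C
  obtain ⟨m, hm, hm1, hm2⟩ := Cfsg.Agent.Lib.Helper94TRing.kron_mem (a := a)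
    (1 : Matrix.GeneralLinearGroup (Fin a) F) g₂ (by rw [hdet]; simp)
  have hm1' : (m : Mn) = (1 : Ma) ⊗ₖ (g₂ : Mb) := by rw [hm1]; rfl
  refine ⟨m * t * m⁻¹, H.mul_mem (H.mul_mem (hMH hm) ht) (H.inv_mem (hMH hm)), ?_,
    finrank F C, hk0, hkb, ?_⟩
  · intro h
    apply htK
    have := (KS a b F).mul_mem ((KS a b F).mul_mem ((KS a b F).inv_mem hm.1) h) hm.1
    have e : m⁻¹ * (m * t * m⁻¹) * m = t := by group
    rwa [e] at this
  · intro i j hj hi
    ext s s'
    rw [blk_apply, Matrix.zero_apply]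
    have e1 : ((m * t * m⁻¹ : GLn) : Mn) (s, i) (s', j) =
        (((m * t * m⁻¹ : GLn) : Mn) *ᵥ Pi.single (s', j) 1) (s, i) := by
      rw [Matrix.mulVec_single_one]; rfl
    rw [e1, mul_mulVec, mul_mulVec]
    obtain ⟨y, hy⟩ : ∃ y, y = ((m⁻¹ : GLn) : Mn) *ᵥ Pi.single (s', j) 1 := ⟨_, rfl⟩
    rw [← hy]
    have hmy : (m : Mn) *ᵥ y = Pi.single (s', j) 1 := by rw [hy, mulVec_inv_mulVec]
    have hyC : y ∈ tsub a C := by
      intro s₀
      rw [hg₂]
      intro j' hj'
      rw [← one_kron_mulVec, ← hm1', hmy]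
      have : (s₀, j') ≠ (s', j) := by
        intro h
        have := congrArg (fun p => p.2.val) h
        simp at this
        omega
      simp [this]
    have h2 := hst y hyC s
    rw [hg₂] at h2
    rw [hm1', one_kron_mulVec]
    exact h2 i hi

end Cfsg.Agent.Lib.Helper94TStd
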