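import Cfsg.Agent.Lib.Helper49TDefs
import Cfsg.Agent.Lib.Helper70TKmk
import Cfsg.Agent.Lib.Helper70TRoot
import Cfsg.Agent.Lib.Helper13TPure
import Cfsg.Agent.Lib.Helper76TTrans
import Cfsg.Agent.Lib.Helper94TRank
import Cfsg.Agent.Lib.Helper70TFixroot
import Cfsg.Agent.Lib.Helper70TKillroot
import Cfsg.Agent.Lib.Helper70TRootrank
import Cfsg.Agent.Lib.Helper14TSylabs
import Cfsg.Agent.Lib.Helper14TPfix
import Cfsg.Agent.Lib.Helper95TStab
import Cfsg.Agent.Lib.Helper76TTriinv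
import Cfsg.Agent.Lib.Helper54TBbone
import Cfsg.Agent.Lib.Helper54TIso
import Cfsg.Agent.Lib.Helper57TForm
import Cfsg.Agent.Lib.Helper14TNonsc
import Cfsg.Agent.Lib.Helper94TRing
import Cfsg.Agent.Lib.Helper57TAlg3
import Cfsg.Agent.Lib.Helper42TAlg2
import Cfsg.Agent.Lib.Helper94TGen
import Cfsg.Agent.Lib.Helper70TProper
import Cfsg.Agent.Lib.Helper14TTransport
import Cfsg.Agent.Lib.Helper94TStd
import Cfsg.Agent.Lib.Helper63TGeo0
import Cfsg.Agent.Lib.Helper63TSylfix0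

/-!
# PROJECT TENS (S5637): assembly.

`(GL_a ⊗ GL_b) ∩ SL_{ab}` is maximal in `SL_{ab}(F)` for `2 ≤ a < b`, `(a, |F|) ≠ (2, 2)`.
-/

set_option autoImplicit false
set_option linter.unusedSectionVars false
set_option linter.unusedVariables false

namespace Cfsg.Agent.Lib.Helper49TMain

open scoped Matrix Kronecker
open Matrix Cfsg.Agent.Lib.Helper49TDefs

variable {F : Type*} [Field F] {a b : ℕ}

local notation "GLn" => Matrix.GeneralLinearGroup (Fin a × Fin b) F
local notation "Mn" => Matrix (Fin a × Fin b) (Fin a × Fin b) F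
local notation "Ma" => Matrix (Fin a) (Fin a) F
local notation "Mb" => Matrix (Fin b) (Fin b) F

theorem exists_stab [Fintype F] (h1 : 2 ≤ a) (h12 : a < b) (H : Subgroup GLn)
    (hMH : KS a b F ⊓ SLn a b F ≤ H) (hH : H ≤ SLn a b F) (hne : ¬ H ≤ KS a b F) :
    ∃ t ∈ H, t ∉ KS a b F ∧ ∃ C : Submodule F (Fin b → F), C ≠ ⊥ ∧ C ≠ ⊤ ∧
      ∀ v ∈ tsub a C, (t : Mn) *ᵥ v ∈ tsub a C :=
  Helper95TStab.exists_stab_of Helper70TRoot.root_mem Helper13TPure.mem_KS_of_pure
    Helper76TTrans.exists_move Helper70TKillroot.exists_root_fix Helper70TRootrank.rank_root_le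
    (fun p _ => Helper14TSylabs.sylow_step p) Helper14TPfix.exists_fixed
    (fun p _ _ h2 => Helper63TSylfix0.card_lt_of_fix_of p h2
      (Helper70TRoot.root_mem (H := KS a b F ⊓ SLn a b F) le_rfl)
      Helper70TFixroot.pure_of_fixed)
    (fun h12 => Helper63TGeo0.exists_tsub_stable_of (Helper94TRank.eq_one_kron_of_rank h12))
    h1 h12 H hMH hH hne

theorem exists_nonscalar (ha : 0 < a) (hb : 3 ≤ b) (H : Subgroup GLn)
    (hMH : KS a b F ⊓ SLn a b F ≤ H)
    (hH : H ≤ SLn a b F) (t : GLn) (ht : t ∈ H) (htK : t ∉ KS a b F) (k : ℕ) (hk0 : 0 < k)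
    (hkb : k < b) (htri : IsTri k (t : Mn)) :
    ∃ β ∈ BB H, ∀ c : F, β ≠ c • 1 :=
  Helper14TNonsc.exists_nonscalar_of ha hb H hMH hH t ht htK k hk0 hkb htri
    (fun h1 h2 h3 h4 => Helper57TForm.exists_kron_of_scalar ha k hk0 hkb t h1 h2 h3 h4)

open Helper94TRing in
/-- the core -/
theorem core [Fintype F] (h1 : 2 ≤ a) (h12 : a < b) (hex : ¬ (a = 2 ∧ Fintype.card F = 2))
    (H : Subgroup GLn) (hMH : KS a b F ⊓ SLn a b F ≤ H) (hH : H ≤ SLn a b F)
    (hne : ¬ H ≤ KS a b F) : H = SLn a b F := by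
  have hb : 3 ≤ b := by omega
  obtain ⟨t, ht, htK, C, hC0, hC1, hst⟩ := exists_stab h1 h12 H hMH hH hne
  obtain ⟨t', ht', htK', k, hk0, hkb, htri⟩ :=
    Helper94TStd.exists_tri H hMH t ht htK C hC0 hC1 hst
  obtain ⟨β, hβ, hns⟩ := exists_nonscalar (by omega) hb H hMH hH t' ht' htK' k hk0 hkb htri
  have hall : ∀ x : Ma, x ∈ BB H := by
    by_cases hq : 3 ≤ Fintype.card F
    · exact Helper57TAlg3.alg_top_three h1 hq (BB H) (fun x hx y hy => BB_add hx hy)
        (fun x hx y hy => BB_mul hb hx hy) (BB_scalar hMH) (fun x hx g => BB_conj hMH hx g) β hβ hns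
    · have hq2 : Fintype.card F = 2 := by
        have := Fintype.one_lt_card (α := F)
        omega
      have h3 : 3 ≤ a := by
        by_contra h
        exact hex ⟨by omega, hq2⟩
      exact Helper42TAlg2.alg_top_two h3 hq2 (BB H) (fun x hx y hy => BB_add hx hy)
        (fun x hx y hy => BB_mul hb hx hy) (BB_scalar hMH) (fun x hx g => BB_conj hMH hx g) β hβ hns
  exact le_antisymm hH (Helper94TGen.SL_le_of_BB h1 hb H hall)

theorem maximal_std [Fintype F] (h1 : 2 ≤ a) (h12 : a < b)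
    (hex : ¬ (a = 2 ∧ Fintype.card F = 2)) :
    Cfsg.Geo.IsMaximalIn (SLn a b F) (KS a b F ⊓ SLn a b F) := by
  refine ⟨lt_of_le_of_ne inf_le_right ?_, ?_⟩
  · intro h
    exact Helper70TProper.proper h1 (by omega) (h ▸ inf_le_left)
  · intro M hM hMS
    by_cases hK : M ≤ KS a b F
    · left
      exact le_antisymm (le_inf hK hMS) hM
    · right
      exact core h1 h12 hex M hM hMS hK

/-- the tensor product stabiliser is maximal in `SL_n(F)` -/
theorem tensor_maximal [Fintype F] {n : ℕ} (h1 : 2 ≤ a) (h12 : a < b)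
    (hex : ¬ (a = 2 ∧ Fintype.card F = 2)) (e : Fin n ≃ Fin a × Fin b)
    (P : Matrix.GeneralLinearGroup (Fin n) F) :
    Cfsg.Geo.IsMaximalIn (Cfsg.Geo.specialLinear (Fin n) F)
      (Cfsg.Geo.tensorProductSubgroup a b e P ⊓ Cfsg.Geo.specialLinear (Fin n) F) :=
  Helper14TTransport.maximal_of_std e P (maximal_std h1 h12 hex)

end Cfsg.Agent.Lib.Helper49TMain
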