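import Mathlib
import Cfsg.Prelude.Def_Classical
import Cfsg.Prelude.Def_ClassicalGeometry
import Cfsg.Prelude.Def_SporadicB
import Cfsg.Agent.Lib.Helper49Orth
import Cfsg.Agent.Lib.Helper49All
import Cfsg.Agent.Lib.Helper49Rank
import Cfsg.Agent.Lib.Helper49Transp

set_option autoImplicit false
set_option linter.unusedSectionVars false

namespace Cfsg.Agent.Lib.Helper49Transp2

open scoped Matrix
open Module
open Cfsg.Agent.Lib.Helper49Orth Cfsg.Agent.Lib.Helper49All Cfsg.Agent.Lib.Helper49Rank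
  Cfsg.Agent.Lib.Helper49CharTwoA Cfsg.Agent.Lib.Helper49CharTwoB Cfsg.Agent.Lib.Helper49Dickson
  Cfsg.Agent.Lib.Helper49Transp

variable {ι : Type} [Fintype ι] [DecidableEq ι] (Q : QuadraticForm (ZMod 2) (ι → ZMod 2))

local notation "𝐁" => QuadraticMap.polar (DFunLike.coe Q)

theorem zmod_two_cases (a : ZMod 2) : a = 0 ∨ a = 1 := by
  revert a
  decide

theorem three_transp (hQ : (QuadraticMap.polarBilin Q).Nondegenerate)
    (h1 : 1 ≤ Fintype.card ι) (h4 : Fintype.card ι ≠ 4) :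
    Cfsg.IsThreeTranspositionClass {g : ↥(Cfsg.isometryGroup (ZMod 2) ⇑Q) |
      (((g : Matrix.GeneralLinearGroup ι (ZMod 2)) : Matrix ι ι (ZMod 2)) - 1).rank = 1} := by
  have hset : {g : ↥(Cfsg.isometryGroup (ZMod 2) ⇑Q) |
      (((g : Matrix.GeneralLinearGroup ι (ZMod 2)) : Matrix ι ι (ZMod 2)) - 1).rank = 1}
      = {g | ∃ (v : ι → ZMod 2) (hv : Q v ≠ 0), g = reflO Q hv} := by
    ext g
    exact rank_one_iff Q hQ g
  rw [hset]
  refine ⟨⟨?_, ?_⟩, ?_, ?_⟩
  · rintro _ ⟨v, hv, rfl⟩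
    exact orderOf_reflO Q hQ hv
  · rintro _ ⟨u, hu, rfl⟩ _ ⟨v, hv, rfl⟩
    rcases zmod_two_cases (𝐁 u v) with h | h
    · left
      exact reflO_comm Q hu hv h
    · right
      apply pow_three_of_braid (reflO_mul_self Q hu) (reflO_mul_self Q hv)
      apply reflO_braid
      have hu1 : Q u = 1 := (zmod_two_cases _).resolve_left hu
      have hv1 : Q v = 1 := (zmod_two_cases _).resolve_left hv
      rw [refl_mulVec, refl_mulVec, QuadraticMap.polar_comm ⇑Q v u, h, hu1, hv1]
      simp only [inv_one, mul_one, one_smul]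
      rw [← refl_neg, neg_sub]
  · obtain ⟨u, hu⟩ := exists_nonsingular Q hQ h1
    refine ⟨reflO Q hu, ⟨u, hu, rfl⟩, ?_⟩
    ext g
    constructor
    · rintro ⟨v, hv, rfl⟩
      obtain ⟨g, -, hg⟩ := Omega_transitive_points Q hQ (Or.inr h4) hu hv
      change IsConj _ _
      rw [isConj_iff]
      refine ⟨g, ?_⟩
      rw [conj_reflO]
      apply reflO_congr
      have hmem : ((g : Matrix.GeneralLinearGroup ι (ZMod 2)) : Matrix ι ι (ZMod 2)) *ᵥ u
          ∈ Submodule.span (ZMod 2) {v} := by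
        rw [← hg]
        exact Submodule.mem_span_singleton_self _
      obtain ⟨c, hc⟩ := Submodule.mem_span_singleton.1 hmem
      have hc0 : c ≠ 0 := by
        rintro rfl
        have := Q_iso_ne Q g hu
        rw [← hc] at this
        simp at this
      rw [← hc, refl_smul Q hc0]
    · intro hg
      change IsConj _ _ at hg
      rw [isConj_iff] at hg
      obtain ⟨c, rfl⟩ := hg
      exact ⟨_, _, conj_reflO Q c hu⟩
  · rw [← closure_refl_eq_top Q hQ (Or.inr h4)]
    congr 1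
    ext g
    constructor
    · rintro ⟨v, hv, rfl⟩
      exact ⟨v, hv, rfl⟩
    · rintro ⟨v, hv, hg⟩
      exact ⟨v, hv, iso_ext hg⟩

end Cfsg.Agent.Lib.Helper49Transp2
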