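import Mathlib
import Cfsg.Prelude.Def_Classical
import Cfsg.Prelude.Def_ClassicalGeometry
import Cfsg.Prelude.Def_SporadicB
import Cfsg.Prelude.Def_FischerSpaces
import Cfsg.Agent.Lib.Helper49Orth
import Cfsg.Agent.Lib.Helper49All
import Cfsg.Agent.Lib.Helper49Idx
import Cfsg.Agent.Lib.Helper49Rank
import Cfsg.Agent.Lib.Helper49Transp
import Cfsg.Agent.Lib.Helper49Trans

set_option autoImplicit false
set_option linter.unusedSectionVars false

namespace Cfsg.Agent.Lib.Helper49Transp3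

open scoped Matrix
open Module
open Cfsg.Agent.Lib.Helper49Orth Cfsg.Agent.Lib.Helper49All Cfsg.Agent.Lib.Helper49Rank
  Cfsg.Agent.Lib.Helper49CharTwoA Cfsg.Agent.Lib.Helper49CharTwoB Cfsg.Agent.Lib.Helper49Dickson
  Cfsg.Agent.Lib.Helper49Transp Cfsg.Agent.Lib.Helper49Trans Cfsg.Agent.Lib.Helper49Idx
  Cfsg.Agent.Lib.Helper18Hyp

section General

variable {F : Type*} [Field F] [Fintype F]
variable {ι : Type} [Fintype ι] [DecidableEq ι] (Q : QuadraticForm F (ι → F))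

local notation "𝐁" => QuadraticMap.polar (DFunLike.coe Q)
local notation:max W "ᗮ" => LinearMap.BilinForm.orthogonal (QuadraticMap.polarBilin Q) W

/-- Two orthogonal vectors of the same nonzero norm are connected through a third one. -/
theorem exists_connect (h2 : (2 : F) ≠ 0) (hQ : (QuadraticMap.polarBilin Q).Nondegenerate)
    (hn : 4 ≤ Fintype.card ι) {u v : ι → F} {c : F} (hc : c ≠ 0) (hu : Q u = c) (hv : Q v = c)
    (huv : 𝐁 u v = 0) : ∃ w, Q w = c ∧ 𝐁 u w ≠ 0 ∧ 𝐁 v w ≠ 0 := by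
  classical
  set S : Submodule F (ι → F) := Submodule.span F {u, v} with hS
  have hSS : Sᗮᗮ = S := LinearMap.BilinForm.orthogonal_orthogonal hQ (polarBilin_isRefl Q) S
  have huS : u ∈ S := Submodule.subset_span (by simp)
  have hvS : v ∈ S := Submodule.subset_span (by simp)
  have huu : 𝐁 u u = 2 * c := by rw [QuadraticMap.polar_self, hu]; simp
  have hvv : 𝐁 v v = 2 * c := by rw [QuadraticMap.polar_self, hv]; simp
  have h2c : 2 * c ≠ 0 := mul_ne_zero h2 hc
  have hP : Sᗮ ⊓ Sᗮᗮ = ⊥ := by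
    rw [hSS, eq_bot_iff]
    rintro x ⟨hx1, hx2⟩
    rw [SetLike.mem_coe, mem_orth] at hx1
    obtain ⟨a, b, rfl⟩ := Submodule.mem_span_pair.1 hx2
    have e1 := hx1 u huS
    have e2 := hx1 v hvS
    rw [QuadraticMap.polar_add_right, QuadraticMap.polar_smul_right, QuadraticMap.polar_smul_right,
      huu, huv] at e1
    rw [QuadraticMap.polar_add_right, QuadraticMap.polar_smul_right, QuadraticMap.polar_smul_right,
      hvv, QuadraticMap.polar_comm ⇑Q v u, huv] at e2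
    simp only [smul_eq_mul, mul_zero, add_zero, zero_add] at e1 e2
    have ha : a = 0 := (mul_eq_zero.1 e1).resolve_right h2c
    have hb : b = 0 := (mul_eq_zero.1 e2).resolve_right h2c
    simp [ha, hb]
  have hd : 2 ≤ finrank F (Sᗮ : Submodule F (ι → F)) := by
    rw [LinearMap.BilinForm.finrank_orthogonal hQ, Module.finrank_fintype_fun_eq_card]
    have h3 : finrank F S ≤ 2 := by
      have := finrank_span_finset_le_card (R := F) ({u, v} : Finset (ι → F))
      have h4 : ({u, v} : Finset (ι → F)).card ≤ 2 := Finset.card_le_two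
      have h5 : Submodule.span F (({u, v} : Finset (ι → F)) : Set (ι → F)) = S := by
        rw [hS]; simp
      unfold Set.finrank at this
      rw [h5] at this
      omega
    omega
  obtain ⟨z, hzS, hz⟩ := exists_Q_eq_sub Q h2 hP hd (-c)
  rw [mem_orth] at hzS
  have hzu := hzS u huS
  have hzv := hzS v hvS
  refine ⟨u + v + z, ?_, ?_, ?_⟩
  · rw [Q_add, Q_add, hu, hv, hz, huv, QuadraticMap.polar_add_left, hzu, hzv]
    ring
  · rw [QuadraticMap.polar_add_right, QuadraticMap.polar_add_right, huu, huv, hzu]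
    simpa using h2c
  · rw [QuadraticMap.polar_add_right, QuadraticMap.polar_add_right, hvv,
      QuadraticMap.polar_comm ⇑Q v u, huv, hzv]
    simpa using h2c

end General

variable {ι : Type} [Fintype ι] [DecidableEq ι] (Q : QuadraticForm (ZMod 3) (ι → ZMod 3))

local notation "𝐁" => QuadraticMap.polar (DFunLike.coe Q)

theorem zmod_three_cases (a : ZMod 3) : a = 0 ∨ a = 1 ∨ a = -1 := by
  revert a
  decide

theorem braid_three {u v : ι → ZMod 3} {c : ZMod 3} (hc : c ≠ 0) (hu : Q u = c) (hv : Q v = c)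
    (huv : 𝐁 u v ≠ 0) :
    Cfsg.reflectionMatrix ⇑Q (Cfsg.reflectionMatrix ⇑Q u *ᵥ v)
      = Cfsg.reflectionMatrix ⇑Q (Cfsg.reflectionMatrix ⇑Q v *ᵥ u) := by
  rw [refl_mulVec, refl_mulVec, QuadraticMap.polar_comm ⇑Q v u, hu, hv]
  rcases zmod_three_cases (c⁻¹ * 𝐁 u v) with h | h | h
  · exact absurd h (mul_ne_zero (inv_ne_zero hc) huv)
  · rw [h, one_smul, one_smul, ← refl_neg, neg_sub]
  · rw [h, neg_one_smul, neg_one_smul, sub_neg_eq_add, sub_neg_eq_add, add_comm]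

theorem three_transp (hQ : (QuadraticMap.polarBilin Q).Nondegenerate)
    (hn : 4 ≤ Fintype.card ι) {c : ZMod 3} (hc : c ≠ 0) :
    Cfsg.IsThreeTranspositionClass {g : ↥(Cfsg.reflectionSubgroup (⇑Q) c) |
      (g : ↥(Cfsg.isometryGroup (ZMod 3) (⇑Q))) ∈ Cfsg.reflectionsOfNorm (⇑Q) c} := by
  have h2 : (2 : ZMod 3) ≠ 0 := by decide
  have hne : ∀ {v : ι → ZMod 3}, Q v = c → Q v ≠ 0 := fun h => by rw [h]; exact hc
  -- members of the set
  have hmem : ∀ g : ↥(Cfsg.isometryGroup (ZMod 3) (⇑Q)), g ∈ Cfsg.reflectionsOfNorm (⇑Q) c ↔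
      ∃ (v : ι → ZMod 3) (hv : Q v = c), g = reflO Q (hne hv) := by
    intro g
    constructor
    · rintro ⟨v, hv, hg⟩
      exact ⟨v, hv, iso_ext hg⟩
    · rintro ⟨v, hv, rfl⟩
      exact ⟨v, hv, rfl⟩
  have hR : ∀ {v : ι → ZMod 3} (hv : Q v = c), reflO Q (hne hv) ∈ Cfsg.reflectionSubgroup (⇑Q) c :=
    fun hv => Subgroup.subset_closure ((hmem _).2 ⟨_, hv, rfl⟩)
  -- conjugacy in `R` of non-orthogonal reflections
  have hconj1 : ∀ {u v : ι → ZMod 3} (hu : Q u = c) (hv : Q v = c), 𝐁 u v ≠ 0 →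
      IsConj (⟨reflO Q (hne hu), hR hu⟩ : ↥(Cfsg.reflectionSubgroup (⇑Q) c))
        ⟨reflO Q (hne hv), hR hv⟩ := by
    intro u v hu hv huv
    rw [isConj_iff]
    refine ⟨⟨reflO Q (hne hu), hR hu⟩ * ⟨reflO Q (hne hv), hR hv⟩, ?_⟩
    apply conj_of_braid
    · exact Subtype.ext (reflO_mul_self Q _)
    · exact Subtype.ext (reflO_mul_self Q _)
    · exact Subtype.ext (reflO_braid Q _ _ (braid_three Q hc hu hv huv))
  have hconj : ∀ {u v : ι → ZMod 3} (hu : Q u = c) (hv : Q v = c),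
      IsConj (⟨reflO Q (hne hu), hR hu⟩ : ↥(Cfsg.reflectionSubgroup (⇑Q) c))
        ⟨reflO Q (hne hv), hR hv⟩ := by
    intro u v hu hv
    by_cases huv : 𝐁 u v = 0
    · obtain ⟨w, hw, h1, h3⟩ := exists_connect Q h2 hQ hn hc hu hv huv
      exact (hconj1 hu hw h1).trans (hconj1 hw hv (by rw [QuadraticMap.polar_comm]; exact h3))
    · exact hconj1 hu hv huv
  refine ⟨⟨?_, ?_⟩, ?_, ?_⟩
  · rintro ⟨d, hdR⟩ hd
    obtain ⟨v, hv, rfl⟩ := (hmem _).1 hd
    rw [← Subgroup.orderOf_coe]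
    exact orderOf_reflO Q hQ _
  · rintro ⟨d, hdR⟩ hd ⟨e, heR⟩ he
    obtain ⟨u, hu, rfl⟩ := (hmem _).1 hd
    obtain ⟨v, hv, rfl⟩ := (hmem _).1 he
    by_cases huv : 𝐁 u v = 0
    · left
      exact Subtype.ext (reflO_comm Q _ _ huv)
    · right
      apply Subtype.ext
      exact pow_three_of_braid (reflO_mul_self Q _) (reflO_mul_self Q _)
        (reflO_braid Q _ _ (braid_three Q hc hu hv huv))
  · obtain ⟨u, hu⟩ := exists_Q_eq Q h2 hQ (by omega) c
    refine ⟨⟨reflO Q (hne hu), hR hu⟩, (hmem _).2 ⟨u, hu, rfl⟩, ?_⟩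
    ext ⟨g, hgR⟩
    constructor
    · intro hg
      obtain ⟨v, hv, rfl⟩ := (hmem _).1 hg
      exact hconj hu hv
    · intro hg
      change IsConj _ _ at hg
      rw [isConj_iff] at hg
      obtain ⟨⟨x, hxR⟩, hx⟩ := hg
      have hx' : x * reflO Q (hne hu) * x⁻¹ = g := congrArg Subtype.val hx
      apply (hmem _).2
      refine ⟨((x : Matrix.GeneralLinearGroup ι (ZMod 3)) : Matrix ι ι (ZMod 3)) *ᵥ u,
        by rw [iso_apply (Q := ⇑Q)]; exact hu, ?_⟩
      change g = _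
      rw [← hx', conj_reflO]
  · exact Subgroup.closure_closure_coe_preimage

end Cfsg.Agent.Lib.Helper49Transp3
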