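import Cfsg.Agent.Lib.Helper49ODefs

/-!
# More vocabulary for PROJECT 51 (part T2: `V₁` symplectic small, `V₂` orthogonal big).
`c` is a singular vector of `V₂`, `Y = V₁ ⊗ c ⊆ Y^⊥ = V₁ ⊗ c^⊥ = tsub a (perpS D.J₂ c)`.
-/

set_option autoImplicit false
set_option linter.unusedSectionVars false

namespace Cfsg.Agent.Lib.Helper49UDefs

open scoped Matrix Kronecker
open Matrix Cfsg.Agent.Lib.Helper49TDefs Cfsg.Agent.Lib.Helper49SDefs Cfsg.Agent.Lib.Helper49ODefs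

variable {F : Type*} [Field F] {a b n : ℕ}

/-- `X` lowers the filtration `0 ⊆ V₁ ⊗ c ⊆ V₁ ⊗ c^⊥ ⊆ V` -/
structure Fil (D : SoDat F a b) (c : Fin b → F)
    (X : Matrix (Fin a × Fin b) (Fin a × Fin b) F) : Prop where
  top : ∀ v, X *ᵥ v ∈ tsub a (perpS D.J₂ c)
  mid : ∀ v ∈ tsub a (perpS D.J₂ c), ∃ x, X *ᵥ v = tens x c
  bot : ∀ x, X *ᵥ tens x c = 0

/-- `t` stabilises `V₁ ⊗ c` (acting as `α`, with inverse `β`) and `V₁ ⊗ c^⊥` -/
structure LayO (D : SoDat F a b) (t : Matrix.GeneralLinearGroup (Fin a × Fin b) F)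
    (c : Fin b → F) (α β : Matrix (Fin a) (Fin a) F) : Prop where
  bot : ∀ x, (t : Matrix (Fin a × Fin b) (Fin a × Fin b) F) *ᵥ tens x c = tens (α *ᵥ x) c
  perp : ∀ w ∈ tsub a (perpS D.J₂ c),
    (t : Matrix (Fin a × Fin b) (Fin a × Fin b) F) *ᵥ w ∈ tsub a (perpS D.J₂ c)
  inv : α * β = 1

/-- `E(c,w) - 1` -/
abbrev XO (D : SoDat F a b) (c w : Fin b → F) : Matrix (Fin b) (Fin b) F := EO D.J₂ c w - 1

end Cfsg.Agent.Lib.Helper49UDefs
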