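import Cfsg.Agent.Lib.Helper4Blich
import Cfsg.Agent.Lib.Helper82Quot
import Mathlib

set_option autoImplicit false

/-! Blichfeldt's theorem: a linear group of degree `n` has an abelian Hall subgroup for the
set of primes `> n + 1`. -/

namespace Cfsg.Agent.Lib.Helper4Blich2

open Cfsg Cfsg.Agent.Lib.Helper4Char Cfsg.Agent.Lib.Helper4Char2 Cfsg.Agent.Lib.Helper4Char4
  Cfsg.Agent.Lib.Helper4Eigen Cfsg.Agent.Lib.Helper4Blich Cfsg.Agent.Lib.Helper82Quot
open Module

universe u

/-- `G` has an abelian Hall subgroup for the set of primes `> n + 1`. -/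
def HallAb (G : Type*) [Group G] (n : ℕ) : Prop :=
  ∃ A : Subgroup G, (∀ x ∈ A, ∀ y ∈ A, x * y = y * x) ∧
    (∀ q : ℕ, q.Prime → q ∣ Nat.card A → n + 1 < q) ∧ ∀ q : ℕ, q.Prime → q ∣ A.index → q ≤ n + 1

theorem HallAb.of_subgroup {G : Type*} [Group G] {n : ℕ} (H : Subgroup G)
    (hH : ∀ q : ℕ, q.Prime → q ∣ H.index → q ≤ n + 1) (h : HallAb H n) : HallAb G n := by
  obtain ⟨A, h1, h2, h3⟩ := h
  refine ⟨A.map H.subtype, ?_, ?_, ?_⟩
  · rintro _ ⟨x, hx, rfl⟩ _ ⟨y, hy, rfl⟩
    exact congrArg Subtype.val (h1 x hx y hy)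
  · intro q hq hdvd
    rw [Subgroup.card_map_of_injective H.subtype_injective] at hdvd
    exact h2 q hq hdvd
  · intro q hq hdvd
    rw [Subgroup.index_map_subtype] at hdvd
    rcases (Nat.Prime.dvd_mul hq).mp hdvd with h | h
    · exact h3 q hq h
    · exact hH q hq h

/-- Twisting an irreducible faithful character by a power of its determinant in order to put
the central elements of order `p` in the kernel. -/
theorem exists_twist {G : Type*} [Group G] [Finite G] {χ : G → ℂ} (hχ : IsIrrCharacter G χ)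
    (hf : ∀ g, χ g = χ 1 → g = 1) (d : ℕ) (hd : χ 1 = d) (p : ℕ) (hp : p.Prime) (hdp : d < p) :
    ∃ χ₀ : G → ℂ, IsCharacter G χ₀ ∧ χ₀ 1 = d ∧
      (∀ z ∈ Subgroup.center G, orderOf z = p → χ₀ z = χ₀ 1) ∧
      ∀ g, χ₀ g = χ₀ 1 → ∃ k : ℕ, g ^ p ^ k = 1 := by
  classical
  obtain ⟨m, ρ, hirr, rfl⟩ := hχ
  have hmd : m = d := by
    have : ρ.character 1 = (m : ℂ) := by simp
    rw [hd] at this
    exact_mod_cast this.symm
  subst hmd
  have hpos : 0 < m := by
    have := finrank_pos_of_irreducible ρ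
    simpa using this
  have hm0 : (m : ℂ) ≠ 0 := Nat.cast_ne_zero.mpr hpos.ne'
  have hfr : finrank ℂ (Fin m → ℂ) = m := by simp
  let δ : G →* ℂˣ := (LinearMap.det.comp ρ).toHomUnits
  have hδ : ∀ g, ((δ g : ℂˣ) : ℂ) = LinearMap.det (ρ g) := fun g => rfl
  have hcop : p.Coprime m := by
    rw [Nat.Prime.coprime_iff_not_dvd hp]
    intro h
    exact absurd (Nat.le_of_dvd hpos h) (by omega)
  have hN := Nat.ModEq.pow_totient hcop
  set N := m.totient with hNdef
  have hNpos : 0 < N := Nat.totient_pos.mpr hpos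
  have h1le : 1 ≤ p ^ N := Nat.one_le_pow _ _ hp.pos
  obtain ⟨k', hk'⟩ : m ∣ p ^ N - 1 := (Nat.modEq_iff_dvd' h1le).mp hN.symm
  have hk'' : m * k' + 1 = p ^ N := by omega
  let χ₀ : G → ℂ := ρ.character * (fun g => ((δ g : ℂˣ) : ℂ)) ^ k'
  have hχ₀ : ∀ g, χ₀ g = ρ.character g * (LinearMap.det (ρ g)) ^ k' := fun g => rfl
  have hscalar : ∀ (g : G) (ω : ℂ), ρ g = ω • LinearMap.id → χ₀ g = m * ω ^ p ^ N := by
    intro g ω h
    rw [hχ₀, Representation.character, h, LinearMap.det_smul, hfr, LinearMap.det_id, mul_one,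
      map_smul, LinearMap.trace_id, hfr, smul_eq_mul, ← hk'', pow_succ, pow_mul]
    ring
  have hone : χ₀ 1 = m := by
    rw [hscalar 1 1 (by rw [map_one, one_smul]; rfl)]
    simp
  have hpowscalar : ∀ (g : G) (ω : ℂ) (j : ℕ), ρ g = ω • LinearMap.id →
      ρ (g ^ j) = ω ^ j • LinearMap.id := by
    intro g ω j h
    rw [map_pow, h]
    induction j with
    | zero => simp; rfl
    | succ j ih =>
      rw [pow_succ, ih, pow_succ]
      ext v
      simp [mul_smul]
      ring
  have hid : ∀ ω : ℂ, ω • (LinearMap.id : (Fin m → ℂ) →ₗ[ℂ] (Fin m → ℂ)) = 1 → ω = 1 := by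
    intro ω h
    have := congrArg (LinearMap.trace ℂ (Fin m → ℂ)) h
    rw [map_smul, LinearMap.trace_id, LinearMap.trace_one, hfr, smul_eq_mul] at this
    exact mul_right_cancel₀ hm0 (by rw [this, one_mul])
  refine ⟨χ₀, ?_, hone, ?_, ?_⟩
  · exact IsCharacter.mul (isCharacter_of_rep ρ) (IsCharacter.pow k'
      (IsIrrCharacter.isCharacter (Cfsg.Agent.Lib.Helper82Linear.isIrrCharacter_of_hom δ)))
  · intro z hz hzp
    obtain ⟨ω, hω⟩ := schur_scalar ρ (ρ z) (by
      intro g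
      have h1 : ρ z * ρ g = ρ g * ρ z := by
        rw [← map_mul, ← map_mul, Subgroup.mem_center_iff.mp hz g]
      exact h1)
    have h2 : ω ^ p = 1 := by
      apply hid
      rw [← hpowscalar z ω p hω, ← hzp, pow_orderOf_eq_one, map_one]
    rw [hscalar z ω hω, hone]
    obtain ⟨N', hN'⟩ : ∃ N', N = N' + 1 := ⟨N - 1, by omega⟩
    rw [hN', pow_succ', pow_mul, h2, one_pow, mul_one]
  · intro g hg
    rw [hone] at hg
    have hnorm : ‖LinearMap.det (ρ g)‖ = 1 := by
      apply Complex.norm_eq_one_of_pow_eq_one (n := orderOf g) _ (orderOf_pos g).ne'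
      rw [← map_pow, ← map_pow, pow_orderOf_eq_one, map_one, map_one]
    have h1 : ‖ρ.character g‖ = (finrank ℂ (Fin m → ℂ) : ℝ) := by
      have := congrArg norm hg
      rw [hχ₀, norm_mul, norm_pow, hnorm, one_pow, mul_one] at this
      rw [this, hfr]
      simp
    obtain ⟨ω, hω⟩ := (norm_char_eq_finrank_iff ρ g).mp h1
    rw [hscalar g ω hω] at hg
    have h2 : ω ^ p ^ N = 1 := mul_left_cancel₀ hm0 (by rw [hg, mul_one])
    refine ⟨N, hf _ ?_⟩
    unfold Representation.character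
    rw [hpowscalar g ω _ hω, h2, one_smul, map_one]
    rfl

/-- The induction hypothesis of Blichfeldt's theorem. -/
def IHyp (G : Type u) [Group G] : Prop :=
  ∀ (H : Type u) [Group H] [Finite H], Nat.card H < Nat.card G → ∀ χ : H → ℂ,
    IsCharacter H χ → (∀ g, χ g = χ 1 → g = 1) → ∀ d n : ℕ, χ 1 = d → d ≤ n → HallAb H n

/-- Subgroups whose order involves only primes `> n` are abelian. -/
theorem subgroup_comm {G : Type*} [Group G] [Finite G] {χ : G → ℂ} (hχ : IsCharacter G χ)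
    (hf : ∀ g, χ g = χ 1 → g = 1) (d n : ℕ) (hd : χ 1 = d) (hdn : d ≤ n) (M : Subgroup G)
    (hM : ∀ q : ℕ, q.Prime → q ∣ Nat.card M → n < q) : ∀ x ∈ M, ∀ y ∈ M, x * y = y * x := by
  intro x hx y hy
  have := comm_of_large_primes (G := M) (IsCharacter.restrict M hχ)
    (fun g hg => Subtype.ext (hf g hg)) d n hd hdn hM ⟨x, hx⟩ ⟨y, hy⟩
  exact congrArg Subtype.val this

theorem IHyp.subgroup {G : Type u} [Group G] [Finite G] (IH : IHyp G) {χ : G → ℂ}
    (hχ : IsCharacter G χ) (hf : ∀ g, χ g = χ 1 → g = 1) (d n : ℕ) (hd : χ 1 = d) (hdn : d ≤ n)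
    (H : Subgroup G) (hH : H ≠ ⊤) : HallAb H n := by
  refine IH H ?_ _ (IsCharacter.restrict H hχ) (fun g hg => Subtype.ext (hf g hg)) d n hd hdn
  rcases lt_or_eq_of_le (Subgroup.card_le_card_group H) with h | h
  · exact h
  · exact absurd (Subgroup.eq_top_of_card_eq H h) hH

theorem IHyp.quotient {G : Type u} [Group G] [Finite G] (IH : IHyp G) {χ₀ : G → ℂ}
    (hχ₀ : IsCharacter G χ₀) (d n : ℕ) (hd : χ₀ 1 = d) (hdn : d ≤ n)
    (hK : ∃ g, g ≠ 1 ∧ χ₀ g = χ₀ 1) : HallAb (G ⧸ charKer hχ₀) n := by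
  obtain ⟨ψ, hψ, hψ2⟩ := exists_deflate_char (charKer hχ₀) hχ₀ (fun n hn => hn)
  refine IH _ ?_ ψ hψ ?_ d n ?_ hdn
  · have h1 := Subgroup.card_eq_card_quotient_mul_card_subgroup (charKer hχ₀)
    have h2 : 1 < Nat.card (charKer hχ₀) := by
      obtain ⟨g, hg1, hg2⟩ := hK
      rw [Finite.one_lt_card_iff_nontrivial]
      exact ⟨⟨⟨g, hg2⟩, 1, fun h => hg1 (congrArg Subtype.val h)⟩⟩
    have h3 : 0 < Nat.card (G ⧸ charKer hχ₀) := Nat.card_pos
    rw [h1]
    nlinarith
  · intro x hx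
    obtain ⟨g, rfl⟩ := QuotientGroup.mk_surjective x
    have h1 : ψ 1 = χ₀ 1 := hψ2 1
    rw [hψ2, h1] at hx
    exact (QuotientGroup.eq_one_iff g).mpr hx
  · rw [← hd]
    exact hψ2 1

theorem card_comap_mk {G : Type*} [Group G] [Finite G] (K : Subgroup G) [K.Normal]
    (A : Subgroup (G ⧸ K)) :
    Nat.card (A.comap (QuotientGroup.mk' K)) = Nat.card A * Nat.card K := by
  have h1 := Subgroup.card_mul_index (A.comap (QuotientGroup.mk' K))
  rw [Subgroup.index_comap_of_surjective A (QuotientGroup.mk'_surjective K)] at h1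
  have h2 := Subgroup.card_mul_index A
  have h3 := Subgroup.card_eq_card_quotient_mul_card_subgroup K
  have h4 : 0 < A.index := Nat.pos_of_ne_zero Subgroup.index_ne_zero_of_finite
  apply Nat.eq_of_mul_eq_mul_right h4
  rw [h1, h3, ← h2]
  ring

/-- The case of a central element of large prime order. -/
theorem hallAb_of_central {G : Type u} [Group G] [Finite G] (IH : IHyp G) {χ : G → ℂ}
    (hχ : IsIrrCharacter G χ) (hf : ∀ g, χ g = χ 1 → g = 1) (d n : ℕ) (hd : χ 1 = d)
    (hdn : d ≤ n) (p : ℕ) (hp : p.Prime) (hnp : n + 1 < p) (z : G) (hz : z ∈ Subgroup.center G)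
    (hzp : orderOf z = p) : HallAb G n := by
  have := Fact.mk hp
  obtain ⟨χ₀, h1, h2, h3, h4⟩ := exists_twist hχ hf d hd p hp (by omega)
  have hz1 : z ≠ 1 := by
    intro h
    rw [h, orderOf_one] at hzp
    exact hp.one_lt.ne hzp
  obtain ⟨A, hA1, hA2, hA3⟩ := IH.quotient h1 d n h2 hdn ⟨z, hz1, h3 z hz hzp⟩
  have hKp : IsPGroup p (charKer h1) := by
    intro g
    obtain ⟨k, hk⟩ := h4 g g.2
    exact ⟨k, Subtype.ext hk⟩
  obtain ⟨k, hk⟩ := IsPGroup.iff_card.mp hKp
  have hprimes : ∀ q : ℕ, q.Prime →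
      q ∣ Nat.card (A.comap (QuotientGroup.mk' (charKer h1))) → n + 1 < q := by
    intro q hq hdvd
    rw [card_comap_mk, hk] at hdvd
    rcases (Nat.Prime.dvd_mul hq).mp hdvd with h | h
    · exact hA2 q hq h
    · rw [(Nat.prime_dvd_prime_iff_eq hq hp).mp (hq.dvd_of_dvd_pow h)]
      exact hnp
  refine ⟨A.comap (QuotientGroup.mk' (charKer h1)), ?_, hprimes, ?_⟩
  · exact subgroup_comm (IsIrrCharacter.isCharacter hχ) hf d n hd hdn _
      (fun q hq h => by have := hprimes q hq h; omega)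
  · intro q hq hdvd
    rw [Subgroup.index_comap_of_surjective A (QuotientGroup.mk'_surjective _)] at hdvd
    exact hA3 q hq hdvd

/-- The irreducible case of Blichfeldt's theorem. -/
theorem hallAb_of_irr {G : Type u} [Group G] [Finite G] (IH : IHyp G) {χ : G → ℂ}
    (hχ : IsIrrCharacter G χ) (hf : ∀ g, χ g = χ 1 → g = 1) (d n : ℕ) (hd : χ 1 = d)
    (hdn : d ≤ n) : HallAb G n := by
  classical
  cases nonempty_fintype G
  have hχc := IsIrrCharacter.isCharacter hχ
  by_cases hcen : ∃ p : ℕ, p.Prime ∧ n + 1 < p ∧ ∃ z ∈ Subgroup.center G, orderOf z = p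
  · obtain ⟨p, hp, hnp, z, hz, hzp⟩ := hcen
    exact hallAb_of_central IH hχ hf d n hd hdn p hp hnp z hz hzp
  push Not at hcen
  let S : Set (Subgroup G) := {M | ∀ q : ℕ, q.Prime → q ∣ Nat.card M → n + 1 < q}
  have hbot : (⊥ : Subgroup G) ∈ S := by
    intro q hq hdvd
    rw [Subgroup.card_bot] at hdvd
    exact absurd (Nat.dvd_one.mp hdvd) hq.ne_one
  obtain ⟨M, hMS, hmax⟩ := Set.Finite.exists_maximalFor (fun M : Subgroup G => Nat.card M) S
    (Set.toFinite S) ⟨⊥, hbot⟩
  have hmax' : ∀ M' ∈ S, Nat.card M' ≤ Nat.card M := by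
    intro M' hM'
    by_contra hlt
    push Not at hlt
    exact absurd (hmax hM' hlt.le) (by simp only; omega)
  have hMab : ∀ x ∈ M, ∀ y ∈ M, x * y = y * x :=
    subgroup_comm hχc hf d n hd hdn M (fun q hq h => by have := hMS q hq h; omega)
  -- (a)
  have hA : ∀ x ∈ M, (orderOf x).Prime → ∃ j : ℕ,
      Nat.card (Subgroup.centralizer ({x} : Set G)) = Nat.card M * j ∧
        ∀ r : ℕ, r.Prime → r ∣ j → r ≤ n + 1 := by
    intro x hx hxp
    have hxbig : n + 1 < orderOf x := by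
      apply hMS _ hxp
      have := orderOf_dvd_natCard (⟨x, hx⟩ : M)
      rwa [Subgroup.orderOf_mk] at this
    have hCtop : Subgroup.centralizer ({x} : Set G) ≠ ⊤ := by
      intro h
      apply hcen _ hxp hxbig x _ rfl
      rw [Subgroup.mem_center_iff]
      intro g
      have : g ∈ Subgroup.centralizer ({x} : Set G) := h ▸ Subgroup.mem_top g
      exact (Subgroup.mem_centralizer_singleton_iff.mp this)
    obtain ⟨A, hA1, hA2, hA3⟩ := IH.subgroup hχc hf d n hd hdn _ hCtop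
    have hle : Nat.card A ≤ Nat.card M := by
      have := hmax' (A.map (Subgroup.centralizer ({x} : Set G)).subtype) (by
        intro q hq hdvd
        rw [Subgroup.card_map_of_injective (Subgroup.subtype_injective _)] at hdvd
        exact hA2 q hq hdvd)
      rwa [Subgroup.card_map_of_injective (Subgroup.subtype_injective _)] at this
    have hMC : M ≤ Subgroup.centralizer ({x} : Set G) := by
      intro y hy
      rw [Subgroup.mem_centralizer_singleton_iff]
      exact hMab y hy x hx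
    have hdvd : Nat.card M ∣ Nat.card A * A.index := by
      rw [Subgroup.card_mul_index]
      exact Subgroup.card_dvd_of_le hMC
    have hcop : (Nat.card M).Coprime A.index := by
      apply Nat.Coprime.symm
      apply Nat.coprime_of_dvd
      intro r hr h1 h2
      have := hA3 r hr h1
      have := hMS r hr h2
      omega
    have hdvd2 : Nat.card M ∣ Nat.card A := hcop.dvd_of_dvd_mul_right hdvd
    have heq : Nat.card A = Nat.card M :=
      le_antisymm hle (Nat.le_of_dvd Nat.card_pos hdvd2)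
    exact ⟨A.index, by rw [← heq, Subgroup.card_mul_index], hA3⟩
  -- (b)
  have hB : ∀ r : ℕ, r.Prime → r ∣ Nat.card M → ¬ r ∣ M.index := by
    intro r hr hrM
    have := Fact.mk hr
    obtain ⟨x, hx⟩ := exists_prime_orderOf_dvd_card' (G := M) r hrM
    have hx' : orderOf (x : G) = r := by rw [← hx]; exact Subgroup.orderOf_coe x
    obtain ⟨j, hj1, hj2⟩ := hA x x.2 (hx' ▸ hr)
    have hrbig := hMS r hr hrM
    have hzp : IsPGroup r (Subgroup.zpowers (x : G)) := by
      apply IsPGroup.of_card (n := 1)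
      rw [Nat.card_zpowers, hx', pow_one]
    obtain ⟨R, hR⟩ := hzp.exists_le_sylow
    obtain ⟨k, hk⟩ := IsPGroup.iff_card.mp R.2
    have hRab : ∀ a ∈ (R : Subgroup G), ∀ b ∈ (R : Subgroup G), a * b = b * a := by
      apply subgroup_comm hχc hf d n hd hdn
      intro q hq hdvd
      rw [hk] at hdvd
      rw [(Nat.prime_dvd_prime_iff_eq hq hr).mp (hq.dvd_of_dvd_pow hdvd)]
      omega
    have hRC : (R : Subgroup G) ≤ Subgroup.centralizer ({(x : G)} : Set G) := by
      intro y hy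
      rw [Subgroup.mem_centralizer_singleton_iff]
      exact hRab y hy x (hR (Subgroup.mem_zpowers _))
    have h1 : ¬ r ∣ (Subgroup.centralizer ({(x : G)} : Set G)).index := fun h =>
      R.not_dvd_index (h.trans (Subgroup.index_dvd_of_le hRC))
    have h2 : M.index = j * (Subgroup.centralizer ({(x : G)} : Set G)).index := by
      have e1 := Subgroup.card_mul_index M
      have e2 := Subgroup.card_mul_index (Subgroup.centralizer ({(x : G)} : Set G))
      rw [hj1, ← e1, mul_assoc] at e2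
      exact (Nat.eq_of_mul_eq_mul_left Nat.card_pos e2).symm
    rw [h2]
    intro h
    rcases (Nat.Prime.dvd_mul hr).mp h with h | h
    · have := hj2 r hr h
      omega
    · exact h1 h
  refine ⟨M, hMab, hMS, ?_⟩
  intro q hq hqM
  by_contra hqbig
  push Not at hqbig
  have := Fact.mk hq
  have hqM' : ¬ q ∣ Nat.card M := fun h => hB q hq h hqM
  have hqG : q ∣ Nat.card G := hqM.trans (Subgroup.index_dvd_card M)
  have hM1 : Nat.card M ≠ 1 := by
    intro h1
    obtain ⟨y, hy⟩ := exists_prime_orderOf_dvd_card' (G := G) q hqG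
    have := hmax' (Subgroup.zpowers y) (by
      intro r hr hdvd
      rw [Nat.card_zpowers, hy] at hdvd
      rw [(Nat.prime_dvd_prime_iff_eq hr hq).mp hdvd]
      exact hqbig)
    rw [Nat.card_zpowers, hy, h1] at this
    exact absurd this (by have := hq.one_lt; omega)
  obtain ⟨p, hp, hpM⟩ := Nat.exists_prime_and_dvd hM1
  have := Fact.mk hp
  have hpbig := hMS p hp hpM
  have hpG : p ∣ Nat.card G := hpM.trans (Subgroup.card_subgroup_dvd_card M)
  obtain ⟨g, hg1, hg2⟩ := exists_orderOf_dvd hχ hf d hd p q hp hq (by omega) (by omega) hpG hqG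
  have hg0 : orderOf g ≠ 0 := (orderOf_pos g).ne'
  set x' := g ^ (orderOf g / p) with hx'
  set y' := g ^ (orderOf g / q) with hy'
  have hx'o : orderOf x' = p := orderOf_pow_orderOf_div hg0 hg1
  have hy'o : orderOf y' = q := orderOf_pow_orderOf_div hg0 hg2
  have hcomm : x' * y' = y' * x' := by
    rw [hx', hy', ← pow_add, ← pow_add, add_comm]
  -- conjugate `x'` into `M`
  have hzp : IsPGroup p (Subgroup.zpowers x') := by
    apply IsPGroup.of_card (n := 1)
    rw [Nat.card_zpowers, hx'o, pow_one]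
  obtain ⟨a, ha⟩ := hzp.nonempty_fixed_point_of_prime_not_dvd_card (G ⧸ M) (hB p hp hpM)
  obtain ⟨g0, rfl⟩ := QuotientGroup.mk_surjective a
  have hfix : (⟨x', Subgroup.mem_zpowers x'⟩ : Subgroup.zpowers x') • (g0 : G ⧸ M) = g0 := ha _
  have hxM : g0⁻¹ * x' * g0 ∈ M := by
    have h1 : ((x' * g0 : G) : G ⧸ M) = g0 := hfix
    have h2 := QuotientGroup.eq.mp h1.symm
    rwa [← mul_assoc] at h2
  have hxo : orderOf (g0⁻¹ * x' * g0) = p := by
    have := orderOf_injective (MulAut.conj g0⁻¹).toMonoidHom (MulAut.conj g0⁻¹).injective x'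
    simp only [MulEquiv.coe_toMonoidHom, MulAut.conj_apply, inv_inv] at this
    rw [this, hx'o]
  have hyo : orderOf (g0⁻¹ * y' * g0) = q := by
    have := orderOf_injective (MulAut.conj g0⁻¹).toMonoidHom (MulAut.conj g0⁻¹).injective y'
    simp only [MulEquiv.coe_toMonoidHom, MulAut.conj_apply, inv_inv] at this
    rw [this, hy'o]
  obtain ⟨j, hj1, hj2⟩ := hA _ hxM (hxo ▸ hp)
  have hyC : g0⁻¹ * y' * g0 ∈ Subgroup.centralizer ({g0⁻¹ * x' * g0} : Set G) := by
    rw [Subgroup.mem_centralizer_singleton_iff]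
    calc g0⁻¹ * y' * g0 * (g0⁻¹ * x' * g0) = g0⁻¹ * (y' * x') * g0 := by group
      _ = g0⁻¹ * (x' * y') * g0 := by rw [hcomm]
      _ = _ := by group
  have hqC : q ∣ Nat.card (Subgroup.centralizer ({g0⁻¹ * x' * g0} : Set G)) := by
    have := orderOf_dvd_natCard
      (⟨_, hyC⟩ : Subgroup.centralizer ({g0⁻¹ * x' * g0} : Set G))
    rwa [Subgroup.orderOf_mk, hyo] at this
  rw [hj1] at hqC
  rcases (Nat.Prime.dvd_mul hq).mp hqC with h | h
  · exact hqM' h
  · have := hj2 q hq h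
    omega

/-- Passing to the quotient by the (nontrivial) kernel of a character of small degree. -/
theorem step_quot {G : Type u} [Group G] [Finite G] (IH : IHyp G) {χ : G → ℂ}
    (hχ : IsCharacter G χ) (hf : ∀ g, χ g = χ 1 → g = 1) (d n : ℕ) (hd : χ 1 = d) (hdn : d ≤ n)
    {ψ : G → ℂ} (hψ : IsCharacter G ψ) (k : ℕ) (hk : ψ 1 = k) (hkn : k ≤ n)
    (hK : ∃ g, g ≠ 1 ∧ ψ g = ψ 1) :
    HallAb G n ∨ ((∀ a b : G ⧸ charKer hψ, a * b = b * a) ∧
      ∀ q : ℕ, q.Prime → q ∣ Nat.card (G ⧸ charKer hψ) → n + 1 < q) := by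
  obtain ⟨A, hA1, hA2, hA3⟩ := IH.quotient hψ k n hk hkn hK
  by_cases hH : A.comap (QuotientGroup.mk' (charKer hψ)) = ⊤
  · right
    have hAtop : A = ⊤ := by
      rw [eq_top_iff]
      intro a _
      obtain ⟨g, rfl⟩ := QuotientGroup.mk_surjective a
      have : g ∈ A.comap (QuotientGroup.mk' (charKer hψ)) := hH ▸ Subgroup.mem_top g
      exact this
    subst hAtop
    refine ⟨fun a b => hA1 a (Subgroup.mem_top a) b (Subgroup.mem_top b), ?_⟩
    intro q hq hdvd
    apply hA2 q hq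
    rwa [Subgroup.card_top]
  · left
    apply HallAb.of_subgroup _ _ (IH.subgroup hχ hf d n hd hdn _ hH)
    intro q hq hdvd
    rw [Subgroup.index_comap_of_surjective A (QuotientGroup.mk'_surjective _)] at hdvd
    exact hA3 q hq hdvd

theorem blichfeldt_aux (N : ℕ) : ∀ (G : Type u) [Group G] [Finite G], Nat.card G = N →
    ∀ χ : G → ℂ, IsCharacter G χ → (∀ g, χ g = χ 1 → g = 1) → ∀ d n : ℕ, χ 1 = d → d ≤ n →
      HallAb G n := by
  classical
  induction N using Nat.strong_induction_on with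
  | _ N ih =>
  intro G _ _ hN χ hχ hf d n hd hdn
  cases nonempty_fintype G
  have IH : IHyp G := by
    intro H _ _ hlt
    exact ih (Nat.card H) (hN ▸ hlt) H rfl
  obtain ⟨m, hm, -⟩ := IsCharacter.eq_sum_nat hχ
  choose k hk0 hk using fun ψ : IrrCharacter G => IsIrrCharacter.exists_degree ψ.2
  have hdsum : d = ∑ ψ : IrrCharacter G, m ψ * k ψ := by
    have : (d : ℂ) = ∑ ψ : IrrCharacter G, (m ψ : ℂ) * (k ψ : ℂ) := by
      rw [← hd, hm]
      simp only [Finset.sum_apply, Pi.smul_apply, smul_eq_mul, hk]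
    exact_mod_cast this
  have hkd : ∀ ψ : IrrCharacter G, m ψ ≠ 0 → k ψ ≤ n := by
    intro ψ hψ
    refine le_trans ?_ hdn
    rw [hdsum]
    calc k ψ ≤ m ψ * k ψ := Nat.le_mul_of_pos_left _ (Nat.pos_of_ne_zero hψ)
      _ ≤ _ := Finset.single_le_sum (f := fun ψ => m ψ * k ψ) (fun _ _ => Nat.zero_le _)
        (Finset.mem_univ ψ)
  by_contra hno
  have hnf : ∀ ψ : IrrCharacter G, m ψ ≠ 0 → ∃ g, g ≠ 1 ∧ (ψ : G → ℂ) g = (ψ : G → ℂ) 1 := by
    intro ψ hψ
    by_contra h
    push Not at h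
    apply hno
    exact hallAb_of_irr IH ψ.2 (fun g hg => by_contra fun hg1 => h g hg1 hg) (k ψ) n (hk ψ)
      (hkd ψ hψ)
  have hstep : ∀ ψ : IrrCharacter G, m ψ ≠ 0 →
      ((∀ a b : G ⧸ charKer (IsIrrCharacter.isCharacter ψ.2), a * b = b * a) ∧
      ∀ q : ℕ, q.Prime → q ∣ Nat.card (G ⧸ charKer (IsIrrCharacter.isCharacter ψ.2)) →
        n + 1 < q) := by
    intro ψ hψ
    rcases step_quot IH hχ hf d n hd hdn (IsIrrCharacter.isCharacter ψ.2) (k ψ) (hk ψ)
      (hkd ψ hψ) (hnf ψ hψ) with h | h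
    · exact absurd h hno
    · exact h
  have hker : ∀ g : G, (∀ ψ : IrrCharacter G, m ψ ≠ 0 → (ψ : G → ℂ) g = (ψ : G → ℂ) 1) →
      g = 1 := by
    intro g hg
    apply hf
    rw [hm]
    simp only [Finset.sum_apply, Pi.smul_apply, smul_eq_mul]
    refine Finset.sum_congr rfl fun ψ _ => ?_
    by_cases hψ : m ψ = 0
    · rw [hψ]; simp
    · rw [hg ψ hψ]
  apply hno
  refine ⟨⊤, ?_, ?_, ?_⟩
  · intro x _ y _
    have : x * y * x⁻¹ * y⁻¹ = 1 := by
      apply hker
      intro ψ hψ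
      have h1 := (hstep ψ hψ).1 (x : G ⧸ charKer (IsIrrCharacter.isCharacter ψ.2)) y
      have h2 : ((x * y * x⁻¹ * y⁻¹ : G) : G ⧸ charKer (IsIrrCharacter.isCharacter ψ.2)) = 1 := by
        rw [QuotientGroup.mk_mul, QuotientGroup.mk_mul, QuotientGroup.mk_mul, h1,
          QuotientGroup.mk_inv, QuotientGroup.mk_inv]
        group
      exact (QuotientGroup.eq_one_iff _).mp h2
    calc x * y = (x * y * x⁻¹ * y⁻¹) * (y * x) := by group
      _ = y * x := by rw [this, one_mul]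
  · intro q hq hdvd
    rw [Subgroup.card_top] at hdvd
    have := Fact.mk hq
    obtain ⟨g, hg⟩ := exists_prime_orderOf_dvd_card' (G := G) q hdvd
    have hg1 : g ≠ 1 := by
      intro h
      rw [h, orderOf_one] at hg
      exact hq.one_lt.ne hg
    obtain ⟨ψ, hψ, hψg⟩ : ∃ ψ : IrrCharacter G, m ψ ≠ 0 ∧ (ψ : G → ℂ) g ≠ (ψ : G → ℂ) 1 := by
      by_contra h
      push Not at h
      exact hg1 (hker g h)
    apply (hstep ψ hψ).2 q hq
    have h1 : orderOf (g : G ⧸ charKer (IsIrrCharacter.isCharacter ψ.2)) = q := by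
      apply orderOf_eq_prime
      · rw [← QuotientGroup.mk_pow, ← hg, pow_orderOf_eq_one]
        rfl
      · intro h
        exact hψg ((QuotientGroup.eq_one_iff g).mp h)
    rw [← h1]
    exact orderOf_dvd_natCard _
  · intro q hq hdvd
    rw [Subgroup.index_top] at hdvd
    exact absurd (Nat.dvd_one.mp hdvd) hq.ne_one

/-- **Blichfeldt's theorem.** -/
theorem blichfeldt {G : Type u} [Group G] [Finite G] (χ : G → ℂ) (hχ : IsCharacter G χ)
    (hf : ∀ g, χ g = χ 1 → g = 1) (d n : ℕ) (hd : χ 1 = d) (hdn : d ≤ n) : HallAb G n :=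
  blichfeldt_aux (Nat.card G) G rfl χ hχ hf d n hd hdn

end Cfsg.Agent.Lib.Helper4Blich2
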