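import Cfsg.Agent.Lib.Helper23CA0
import Cfsg.Agent.Lib.Helper7CEY1
import Cfsg.Agent.Lib.Helper23CAX
import Cfsg.Agent.Lib.Helper28CAK1
import Cfsg.Agent.Lib.Helper78CAA1
import Cfsg.Agent.Lib.Helper78CAA2

set_option autoImplicit false

namespace Cfsg.Agent.Lib.Helper4CAA3

open Subgroup Matrix Cfsg.Agent.Lib.Helper23CE Cfsg.Agent.Lib.Helper23CA

variable {F : Type*} [Field F] {G : Type*} [Group G] {n : ℕ}

theorem comm_conj {w x c : G} (h : (w * x * w⁻¹) * c = c * (w * x * w⁻¹)) :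
    x * (w⁻¹ * c * w) = (w⁻¹ * c * w) * x := by
  have h1 : x * (w⁻¹ * c * w) = w⁻¹ * ((w * x * w⁻¹) * c) * w := by group
  rw [h1, h]
  group

/-- A3. -/
theorem l2_comm_c (A : Fam F G n) (m : ℕ) (hm : m < n) (a : ℕ) (ha : a < m) (t u : F) :
    A.φ m (l2 u) * A.c m a t = A.c m a t * A.φ m (l2 u) := by
  induction m generalizing a t u with
  | zero => omega
  | succ m ih =>
    have hcoh := A.coh m hm
    obtain ⟨hi1, hi2⟩ := Cfsg.Agent.Lib.Helper28CAK1.coh_iota _ _ _ hcoh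
    obtain ⟨c1, c2, c3, c4⟩ := hcoh
    rw [Fam.c]
    split_ifs with h
    · rw [← c4, ← c1, ← map_mul, ← map_mul]
      exact congrArg _ (Cfsg.Agent.Lib.Helper7CEY1.E3_comm (by decide) (by decide) (by decide)
        (by decide) t u)
    · have ha' : a < m := by omega
      apply comm_conj
      have hX : A.W m * A.φ (m + 1) (l2 u) * (A.W m)⁻¹ =
          A.φ (m + 1) (l2 u) * A.φ m (l2 1) * A.φ (m + 1) (l2 (-u)) * A.φ m (l2 (-1)) := by
        unfold Fam.W
        rw [← hi1, ← c4, ← c4, ← c2, ← c2, ← map_inv, ← map_mul, ← map_mul, ← map_mul, ← map_mul,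
          ← map_mul, Cfsg.Agent.Lib.Helper23CAX.x_e20]
      rw [hX]
      have f1 : ∀ g, A.φ (m + 1) g * A.c m a t = A.c m a t * A.φ (m + 1) g := fun g =>
        Cfsg.Agent.Lib.Helper78CAA2.far_comm A m (m + 1) (by omega) hm _
          (Cfsg.Agent.Lib.Helper78CAA1.c_mem A m a t) g
      have f2 : ∀ v, A.φ m (l2 v) * A.c m a t = A.c m a t * A.φ m (l2 v) := fun v =>
        ih (by omega) a ha' t v
      calc A.φ (m + 1) (l2 u) * A.φ m (l2 1) * A.φ (m + 1) (l2 (-u)) * A.φ m (l2 (-1)) * A.c m a t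
          = A.φ (m + 1) (l2 u) * A.φ m (l2 1) * A.φ (m + 1) (l2 (-u)) * (A.φ m (l2 (-1)) * A.c m a t) := by
            simp only [mul_assoc]
        _ = A.φ (m + 1) (l2 u) * A.φ m (l2 1) * (A.φ (m + 1) (l2 (-u)) * A.c m a t) * A.φ m (l2 (-1)) := by
            rw [f2]; simp only [mul_assoc]
        _ = A.φ (m + 1) (l2 u) * (A.φ m (l2 1) * A.c m a t) * A.φ (m + 1) (l2 (-u)) * A.φ m (l2 (-1)) := by
            rw [f1]; simp only [mul_assoc]
        _ = (A.φ (m + 1) (l2 u) * A.c m a t) * A.φ m (l2 1) * A.φ (m + 1) (l2 (-u)) * A.φ m (l2 (-1)) := by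
            rw [f2]; simp only [mul_assoc]
        _ = A.c m a t * (A.φ (m + 1) (l2 u) * A.φ m (l2 1) * A.φ (m + 1) (l2 (-u)) * A.φ m (l2 (-1))) := by
            rw [f1]; simp only [mul_assoc]

end Cfsg.Agent.Lib.Helper4CAA3
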