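import Cfsg.Agent.Lib.Helper23CA0
import Cfsg.Agent.Lib.Helper1CAXA2
import Cfsg.Agent.Lib.Helper4CAA3

set_option autoImplicit false

namespace Cfsg.Agent.Lib.Helper4CAA4

open Subgroup Matrix Cfsg.Agent.Lib.Helper23CE Cfsg.Agent.Lib.Helper23CA

variable {F : Type*} [Field F] {G : Type*} [Group G] {n : ℕ}

theorem conj_comm {w x y : G} (h : x * y = y * x) :
    (w⁻¹ * x * w) * (w⁻¹ * y * w) = (w⁻¹ * y * w) * (w⁻¹ * x * w) := by
  have h1 : (w⁻¹ * x * w) * (w⁻¹ * y * w) = w⁻¹ * (x * y) * w := by group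
  rw [h1, h]
  group

theorem mixed (A : Fam F G n) (m : ℕ) (hm : m < n) (a : ℕ) (ha : a < m) (t u : F) :
    A.φ m (u2 u) * ((A.W m)⁻¹ * A.c m a t * A.W m) = ((A.W m)⁻¹ * A.c m a t * A.W m) * A.φ m (u2 u) := by
  apply Cfsg.Agent.Lib.Helper4CAA3.comm_conj
  have hX : A.W m * A.φ m (u2 u) * (A.W m)⁻¹ = A.φ m (l2 (-u)) := by
    unfold Fam.W
    rw [← map_inv, ← map_mul, ← map_mul, Cfsg.Agent.Lib.Helper1CAXA2.w0_conj.1]
  rw [hX]
  exact Cfsg.Agent.Lib.Helper4CAA3.l2_comm_c A m hm a ha t (-u)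

/-- A4. -/
theorem c_comm (A : Fam F G n) (m : ℕ) (hm : m ≤ n) (a b : ℕ) (ha : a < m) (hb : b < m) (t u : F) :
    A.c m a t * A.c m b u = A.c m b u * A.c m a t := by
  induction m generalizing a b t u with
  | zero => omega
  | succ m ih =>
    have hm' : m < n := by omega
    rw [Fam.c, Fam.c]
    split_ifs with h1 h2 h2
    · rw [← map_mul, ← map_mul]
      congr 1
      unfold u2
      rw [← Matrix.SpecialLinearGroup.transvection_add, ← Matrix.SpecialLinearGroup.transvection_add,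
        add_comm]
    · exact mixed A m hm' b (by omega) u t
    · exact (mixed A m hm' a (by omega) t u).symm
    · exact conj_comm (ih (by omega) a b (by omega) (by omega) t u)

end Cfsg.Agent.Lib.Helper4CAA4
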