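import Mathlib
import Cfsg.Agent.Lib.Helper41Dk1
import Cfsg.Agent.Lib.Helper41Dk5

/-!
# Primitive linear groups of degree two: the abstract class equation

A finite non-abelian group in which commuting is transitive on non-central elements, in which
the centralizer of a non-central element has index at most two in its normalizer, and in which
no such normalizer is the whole group, has central index 12, 24 or 60.
-/

set_option autoImplicit false

namespace Cfsg.Agent.Lib.Helper4Deg2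

open Cfsg.Agent.Lib.Helper41Dk

variable {G : Type*} [Group G]

/-- data of a class -/
structure Dd (x : G) (a n : ℕ) : Prop where
  nc : x ∉ Subgroup.center G
  ha : 2 ≤ a
  lt : n * a < (Subgroup.center G).index
  mass : mass (⊤ : Subgroup G) x = (1 - 1 / (a : ℚ)) / n
  hn : n = 1 ∨ n = 2

theorem exists_Dd [Finite G]
    (h2 : ∀ x : G, x ∉ Subgroup.center G →
      NN (⊤ : Subgroup G) x = AA ⊤ x ∨ (AA (⊤ : Subgroup G) x).relIndex (NN ⊤ x) = 2)
    (hN : ∀ x : G, x ∉ Subgroup.center G → NN (⊤ : Subgroup G) x ≠ ⊤)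
    {x : G} (hx : x ∉ Subgroup.center G) : ∃ a n, Dd x a n := by
  have hle := center_le_AA (G := (⊤ : Subgroup G)) le_top x
  obtain ⟨a, ha⟩ := Subgroup.card_dvd_of_le hle
  have hepos : 0 < Nat.card (Subgroup.center G) := Nat.card_pos
  have hApos : 0 < Nat.card (AA (⊤ : Subgroup G) x) := Nat.card_pos
  have ha2 : 2 ≤ a := by
    by_contra hlt
    have h01 : a = 0 ∨ a = 1 := by omega
    rcases h01 with rfl | rfl
    · simp at ha; omega
    · have := Subgroup.eq_of_le_of_card_ge hle (by rw [ha, mul_one])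
      apply hx
      rw [this]
      exact mem_AA.mpr ⟨Commute.refl x, Subgroup.mem_top x⟩
  have hlt : Nat.card (NN (⊤ : Subgroup G) x) < Nat.card G := by
    by_contra hge
    exact hN x hx (Subgroup.eq_top_of_le_card _ (not_lt.mp hge))
  rw [← Subgroup.card_mul_index (Subgroup.center G)] at hlt
  have he : (Nat.card (Subgroup.center G) : ℚ) ≠ 0 := by positivity
  have ha0 : (a : ℚ) ≠ 0 := by positivity
  rcases h2 x hx with h | h
  · refine ⟨a, 1, hx, ha2, ?_, ?_, Or.inl rfl⟩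
    · rw [h, ha] at hlt
      rw [one_mul]
      exact Nat.lt_of_mul_lt_mul_left hlt
    · rw [Helper41Dk.mass, h, ha]
      push_cast
      field_simp
  · have hc := Subgroup.relIndex_mul_relIndex ⊥ _ _ bot_le (AA_le_NN (⊤ : Subgroup G) x)
    rw [Subgroup.relIndex_bot_left, Subgroup.relIndex_bot_left, h, ha, mul_comm] at hc
    refine ⟨a, 2, hx, ha2, ?_, ?_, Or.inr rfl⟩
    · rw [← hc] at hlt
      have : Nat.card (Subgroup.center G) * (2 * a) <
          Nat.card (Subgroup.center G) * (Subgroup.center G).index := by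
        calc Nat.card (Subgroup.center G) * (2 * a) = 2 * (Nat.card (Subgroup.center G) * a) := by
              ring
          _ < _ := hlt
      exact Nat.lt_of_mul_lt_mul_left this
    · rw [Helper41Dk.mass, ← hc, ha]
      push_cast
      field_simp

theorem Dd.mass_ge {x : G} {a n : ℕ} (d : Dd x a n) :
    1 / 4 ≤ Helper41Dk.mass (⊤ : Subgroup G) x := by
  have h1 := inv_le_half d.ha
  rw [d.mass]
  rcases d.hn with rfl | rfl
  · push_cast; linarith
  · push_cast; linarith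

theorem Dd.mass_ge_one {x : G} {a : ℕ} (d : Dd x a 1) :
    1 / 2 ≤ Helper41Dk.mass (⊤ : Subgroup G) x := by
  have h1 := inv_le_half d.ha
  rw [d.mass]
  push_cast; linarith

theorem card_le_of_sum {S : Finset G}
    (hS : ∀ x ∈ S, ∃ a n, Dd x a n) :
    (S.card : ℚ) / 4 ≤ ∑ x ∈ S, Helper41Dk.mass (⊤ : Subgroup G) x := by
  have := Finset.card_nsmul_le_sum S (fun x => Helper41Dk.mass (⊤ : Subgroup G) x) (1 / 4) (by
    intro x hx
    obtain ⟨a, n, d⟩ := hS x hx
    exact d.mass_ge)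
  rw [nsmul_eq_mul] at this
  linarith

/-- total mass `< 1` -/
theorem sum_lt_one' [DecidableEq G] {S : Finset G}
    (hS : ∀ x ∈ S, ∃ a n, Dd x a n)
    (h : ∑ x ∈ S, Helper41Dk.mass (⊤ : Subgroup G) x < 1) :
    S = ∅ ∨ (∃ x a n, S = {x} ∧ Dd x a n) ∨
      (∃ x1 x2 a1 a2 n, x1 ≠ x2 ∧ S = {x1, x2} ∧ Dd x1 a1 n ∧ Dd x2 a2 2) ∨
      (∃ x1 x2 x3 a1 a2 a3, x1 ≠ x2 ∧ x1 ≠ x3 ∧ x2 ≠ x3 ∧ S = {x1, x2, x3} ∧ Dd x1 a1 2 ∧
        Dd x2 a2 2 ∧ Dd x3 a3 2) := by
  have h1 := card_le_of_sum hS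
  have h2 : (S.card : ℚ) < 4 := by linarith
  have h3 : S.card < 4 := by exact_mod_cast h2
  have h4 : S.card = 0 ∨ S.card = 1 ∨ S.card = 2 ∨ S.card = 3 := by omega
  rcases h4 with h4 | h4 | h4 | h4
  · exact Or.inl (Finset.card_eq_zero.mp h4)
  · right; left
    obtain ⟨x, rfl⟩ := Finset.card_eq_one.mp h4
    obtain ⟨a, n, d⟩ := hS x (Finset.mem_singleton_self x)
    exact ⟨x, a, n, rfl, d⟩
  · right; right; left
    obtain ⟨x1, x2, hne, rfl⟩ := Finset.card_eq_two.mp h4
    obtain ⟨a1, n1, d1⟩ := hS x1 (by simp)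
    obtain ⟨a2, n2, d2⟩ := hS x2 (by simp)
    rw [Finset.sum_pair hne] at h
    rcases d2.hn with rfl | rfl
    · rcases d1.hn with rfl | rfl
      · exfalso
        have := d1.mass_ge_one
        have := d2.mass_ge_one
        linarith
      · exact ⟨x2, x1, a2, a1, 1, hne.symm, Finset.pair_comm _ _, d2, d1⟩
    · exact ⟨x1, x2, a1, a2, n1, hne, rfl, d1, d2⟩
  · right; right; right
    obtain ⟨x1, x2, x3, h12, h13, h23, rfl⟩ := Finset.card_eq_three.mp h4
    obtain ⟨a1, n1, d1⟩ := hS x1 (by simp)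
    obtain ⟨a2, n2, d2⟩ := hS x2 (by simp)
    obtain ⟨a3, n3, d3⟩ := hS x3 (by simp)
    rw [Finset.sum_insert (by simp [h12, h13]), Finset.sum_pair h23] at h
    have m1 := d1.mass_ge
    have m2 := d2.mass_ge
    have m3 := d3.mass_ge
    rcases d1.hn with rfl | rfl
    · exfalso
      have := d1.mass_ge_one
      linarith
    rcases d2.hn with rfl | rfl
    · exfalso
      have := d2.mass_ge_one
      linarith
    rcases d3.hn with rfl | rfl
    · exfalso
      have := d3.mass_ge_one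
      linarith
    exact ⟨x1, x2, x3, a1, a2, a3, h12, h13, h23, rfl, d1, d2, d3⟩

theorem case3 {g : ℕ} (hg : g = (Subgroup.center G).index)
    (hg1 : 1 ≤ g) {x1 x2 x3 : G} {a1 a2 a3 : ℕ} (d1 : Dd x1 a1 2) (d2 : Dd x2 a2 2)
    (d3 : Dd x3 a3 2)
    (hsum : Helper41Dk.mass (⊤ : Subgroup G) x1 + Helper41Dk.mass (⊤ : Subgroup G) x2 +
      Helper41Dk.mass (⊤ : Subgroup G) x3 = 1 - 1 / (g : ℚ)) (h12 : a1 ≤ a2) (h23 : a2 ≤ a3) :
    g = 12 ∨ g = 24 ∨ g = 60 := by
  rw [d1.mass, d2.mass, d3.mass] at hsum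
  have E := num_222_eq d1.ha d2.ha d3.ha hg1 (by exact_mod_cast hsum)
  obtain ⟨rfl, ⟨rfl, h⟩ | ⟨rfl, rfl, h⟩ | ⟨rfl, rfl, h⟩ | ⟨rfl, rfl, h⟩⟩ :=
    num_222_sorted d1.ha h12 h23 hg1 E
  · exfalso
    have := d3.lt
    omega
  · exact Or.inl h
  · exact Or.inr (Or.inl h)
  · exact Or.inr (Or.inr h)

/-- The abstract classification. -/
theorem index_center [Finite G] (hCT : CT G) (hnab : ∃ x : G, x ∉ Subgroup.center G)
    (h2 : ∀ x : G, x ∉ Subgroup.center G →
      NN (⊤ : Subgroup G) x = AA ⊤ x ∨ (AA (⊤ : Subgroup G) x).relIndex (NN ⊤ x) = 2)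
    (hN : ∀ x : G, x ∉ Subgroup.center G → NN (⊤ : Subgroup G) x ≠ ⊤) :
    (Subgroup.center G).index = 12 ∨ (Subgroup.center G).index = 24 ∨
      (Subgroup.center G).index = 60 := by
  classical
  obtain ⟨R, hR1, hR2, hR3, hsum⟩ := exists_reps' hCT (G := (⊤ : Subgroup G)) le_top
  obtain ⟨g, hg⟩ : ∃ g, g = (Subgroup.center G).index := ⟨_, rfl⟩
  have hg1 : 1 ≤ g := by
    rw [hg]
    exact Nat.one_le_iff_ne_zero.mpr Subgroup.index_ne_zero_of_finite
  have hgq : 1 - (Nat.card (Subgroup.center G) : ℚ) / Nat.card (⊤ : Subgroup G) =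
      1 - 1 / (g : ℚ) := by
    rw [Subgroup.card_top, ← Subgroup.card_mul_index (Subgroup.center G), ← hg]
    have h1 : (Nat.card (Subgroup.center G) : ℚ) ≠ 0 := by
      have : 0 < Nat.card (Subgroup.center G) := Nat.card_pos
      positivity
    have h2 : (g : ℚ) ≠ 0 := by positivity
    push_cast
    field_simp
  rw [hgq] at hsum
  rw [← hg]
  have hS : ∀ x ∈ R, ∃ a n, Dd x a n := fun x hx => exists_Dd h2 hN (hR1 x hx).2
  have hgpos := inv_pos' hg1
  rcases sum_lt_one' hS (by rw [hsum]; linarith) with rfl | ⟨x, a, n, rfl, d⟩ |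
    ⟨x1, x2, a1, a2, n, hne, rfl, d1, d2⟩ | ⟨x1, x2, x3, a1, a2, a3, h12, h13, h23, rfl, d1, d2, d3⟩
  · exfalso
    obtain ⟨z, hz⟩ := hnab
    obtain ⟨x, hx, -⟩ := hR3 z (Subgroup.mem_top z) hz
    simp at hx
  · exfalso
    rw [Finset.sum_singleton, d.mass] at hsum
    have hlt := d.lt
    rw [← hg] at hlt
    rcases d.hn with rfl | rfl
    · have h1 := num_1 d.ha hg1 (by simpa using hsum)
      omega
    · have h2 : (4 : ℚ) ≤ g := by
        have : 4 ≤ g := by have := d.ha; omega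
        exact_mod_cast this
      have h3 : 1 / (g : ℚ) ≤ 1 / 4 := one_div_le_one_div_of_le (by norm_num) h2
      have h4 := inv_pos' (show 1 ≤ a by have := d.ha; omega)
      push_cast at hsum
      linarith
  · rw [Finset.sum_pair hne, d1.mass, d2.mass] at hsum
    have l1 := d1.lt
    have l2 := d2.lt
    rw [← hg] at l1 l2
    rcases d1.hn with rfl | rfl
    · rcases num_12 d1.ha d2.ha hg1 (by simpa using hsum) with ⟨rfl, h⟩ | ⟨rfl, rfl, h⟩
      · omega
      · exact Or.inl h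
    · exfalso
      have p1 : (0 : ℚ) < a1 := by have := d1.ha; positivity
      have p2 : (0 : ℚ) < a2 := by have := d2.ha; positivity
      have pg : (0 : ℚ) < g := by positivity
      have q1 : 1 / (g : ℚ) ≤ 1 / (2 * a1 : ℚ) :=
        one_div_le_one_div_of_le (by positivity) (by exact_mod_cast l1.le)
      have q2 : 1 / (g : ℚ) ≤ 1 / (2 * a2 : ℚ) :=
        one_div_le_one_div_of_le (by positivity) (by exact_mod_cast l2.le)
      have e1 : 1 / (2 * a1 : ℚ) = (1 / (a1 : ℚ)) / 2 := by field_simp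
      have e2 : 1 / (2 * a2 : ℚ) = (1 / (a2 : ℚ)) / 2 := by field_simp
      push_cast at hsum
      rw [e1] at q1
      rw [e2] at q2
      linarith
  · rw [Finset.sum_insert (by simp [h12, h13]), Finset.sum_pair h23, ← add_assoc] at hsum
    rcases le_total a1 a2 with l12 | l12 <;> rcases le_total a2 a3 with l23 | l23 <;>
      rcases le_total a1 a3 with l13 | l13
    · exact case3 hg hg1 d1 d2 d3 hsum l12 l23
    · exact case3 hg hg1 d1 d2 d3 hsum l12 l23
    · exact case3 hg hg1 d1 d3 d2 (by linarith) l13 l23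
    · exact case3 hg hg1 d3 d1 d2 (by linarith) l13 l12
    · exact case3 hg hg1 d2 d1 d3 (by linarith) l12 l13
    · exact case3 hg hg1 d2 d3 d1 (by linarith) l23 l13
    · exact case3 hg hg1 d3 d2 d1 (by linarith) l23 l12
    · exact case3 hg hg1 d3 d2 d1 (by linarith) l23 l12

end Cfsg.Agent.Lib.Helper4Deg2
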