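import Cfsg.Agent.S0176
import Cfsg.Agent.Lib.Helper4Char4
import Cfsg.Agent.Lib.Helper19Ind
import Mathlib

set_option autoImplicit false

/-! Nilpotent linear groups of degree `n` have an abelian subgroup of index dividing `n!`. -/

namespace Cfsg.Agent.Lib.Helper4Mono

open Cfsg Cfsg.Agent.Lib.Helper4Char Cfsg.Agent.Lib.Helper4Char2 Cfsg.Agent.Lib.Helper4Char4
  Cfsg.Agent.Lib.Helper19Ind

variable {G : Type*} [Group G] [Fintype G]

/-- value of a monomial character on an element all of whose conjugates lie in `ker lam`. -/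
theorem indFun_hom_eq_index (U : Subgroup G) (lam : U →* ℂˣ) (c : G)
    (hc : ∀ x : G, ∃ h : x⁻¹ * c * x ∈ U, lam ⟨_, h⟩ = 1) :
    indFun U (fun h => (lam h : ℂ)) c = (U.index : ℂ) := by
  rw [indFun_apply]
  have : ∀ x : G, extendByZero U (fun h => (lam h : ℂ)) (x⁻¹ * c * x) = 1 := by
    intro x
    obtain ⟨h, h1⟩ := hc x
    rw [extendByZero_of_mem U _ h, h1]
    rfl
  simp only [this]
  rw [Finset.sum_const, Finset.card_univ, nsmul_eq_mul, mul_one, ← Nat.card_eq_fintype_card,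
    ← Subgroup.card_mul_index U]
  push_cast
  rw [← mul_assoc, inv_mul_cancel₀ (card_ne_zero U), one_mul]

theorem exists_abelian_index_dvd_factorial [Group.IsNilpotent G] {χ : G → ℂ}
    (hχ : IsCharacter G χ) (hf : ∀ g, χ g = χ 1 → g = 1) (n : ℕ) (hn : χ 1 = n) :
    ∃ H : Subgroup G, (∀ x ∈ H, ∀ y ∈ H, x * y = y * x) ∧ H.index ∣ n.factorial := by
  classical
  obtain ⟨m, hm, -⟩ := IsCharacter.eq_sum_nat hχ
  choose U lam hU using fun ψ : IrrCharacter G => Cfsg.Agent.S0176.result (ψ : G → ℂ) ψ.2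
  have hdeg : ∀ ψ : IrrCharacter G, (ψ : G → ℂ) 1 = ((U ψ).index : ℂ) := by
    intro ψ
    conv_lhs => rw [hU ψ]
    apply indFun_hom_eq_index
    intro x
    have h1 : x⁻¹ * 1 * x = 1 := by group
    have h2 : x⁻¹ * 1 * x ∈ U ψ := by rw [h1]; exact (U ψ).one_mem
    refine ⟨h2, ?_⟩
    have : (⟨x⁻¹ * 1 * x, h2⟩ : U ψ) = 1 := Subtype.ext h1
    rw [this, map_one]
  let S := {ψ : IrrCharacter G // m ψ ≠ 0}
  let Ω := Σ ψ : S, G ⧸ U ψ.1
  let H : Subgroup G := (MulAction.toPermHom G Ω).ker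
  have hcard : Nat.card Ω ≤ n := by
    rw [Nat.card_sigma]
    have h1 : n = ∑ ψ : IrrCharacter G, m ψ * (U ψ).index := by
      have : (n : ℂ) = ∑ ψ : IrrCharacter G, (m ψ : ℂ) * ((U ψ).index : ℂ) := by
        rw [← hn, hm]
        simp only [Finset.sum_apply, Pi.smul_apply, smul_eq_mul, hdeg]
      exact_mod_cast this
    rw [h1]
    have h2 : ∑ a : S, Nat.card (G ⧸ U a.1) =
        ∑ ψ ∈ Finset.univ.filter (fun ψ : IrrCharacter G => m ψ ≠ 0), (U ψ).index := by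
      rw [Finset.sum_subtype (Finset.univ.filter (fun ψ : IrrCharacter G => m ψ ≠ 0))
        (p := fun ψ => m ψ ≠ 0) (by simp)]
      rfl
    rw [h2]
    calc ∑ ψ ∈ Finset.univ.filter (fun ψ : IrrCharacter G => m ψ ≠ 0), (U ψ).index
        ≤ ∑ ψ ∈ Finset.univ.filter (fun ψ : IrrCharacter G => m ψ ≠ 0), m ψ * (U ψ).index := by
          apply Finset.sum_le_sum
          intro ψ hψ
          rw [Finset.mem_filter] at hψ
          exact Nat.le_mul_of_pos_left _ (Nat.pos_of_ne_zero hψ.2)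
      _ ≤ _ := Finset.sum_le_sum_of_subset (Finset.filter_subset _ _)
  have hmem : ∀ h ∈ H, ∀ ψ : IrrCharacter G, m ψ ≠ 0 → ∀ x : G, x⁻¹ * h * x ∈ U ψ := by
    intro h hh ψ hψ x
    have h1 : MulAction.toPermHom G Ω h = 1 := hh
    have h2 := congrArg (fun σ : Equiv.Perm Ω => σ ⟨⟨ψ, hψ⟩, (x : G ⧸ U ψ)⟩) h1
    simp only [MulAction.toPermHom_apply, MulAction.toPerm_apply, Equiv.Perm.coe_one, id_eq] at h2
    have h3 : ((h * x : G) : G ⧸ U ψ) = x := by
      have := (Sigma.mk.inj_iff.mp h2).2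
      exact eq_of_heq this
    have h4 := QuotientGroup.eq.mp h3.symm
    rwa [← mul_assoc] at h4
  refine ⟨H, ?_, ?_⟩
  · intro a ha b hb
    have hcomm : χ (a * b * a⁻¹ * b⁻¹) = χ 1 := by
      rw [hm]
      simp only [Finset.sum_apply, Pi.smul_apply, smul_eq_mul]
      refine Finset.sum_congr rfl fun ψ _ => ?_
      by_cases hψ : m ψ = 0
      · rw [hψ]; simp
      · congr 1
        rw [hdeg ψ]
        conv_lhs => rw [hU ψ]
        apply indFun_hom_eq_index
        intro x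
        have ha' := hmem a ha ψ hψ x
        have hb' := hmem b hb ψ hψ x
        have e : x⁻¹ * (a * b * a⁻¹ * b⁻¹) * x =
            (x⁻¹ * a * x) * (x⁻¹ * b * x) * (x⁻¹ * a * x)⁻¹ * (x⁻¹ * b * x)⁻¹ := by group
        have hmemU : x⁻¹ * (a * b * a⁻¹ * b⁻¹) * x ∈ U ψ := by
          rw [e]
          exact (U ψ).mul_mem ((U ψ).mul_mem ((U ψ).mul_mem ha' hb') ((U ψ).inv_mem ha'))
            ((U ψ).inv_mem hb')
        refine ⟨hmemU, ?_⟩
        have e2 : (⟨_, hmemU⟩ : U ψ) =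
            (⟨_, ha'⟩ : U ψ) * ⟨_, hb'⟩ * (⟨_, ha'⟩ : U ψ)⁻¹ * (⟨_, hb'⟩ : U ψ)⁻¹ :=
          Subtype.ext e
        rw [e2, map_mul, map_mul, map_mul, map_inv, map_inv,
          mul_comm (lam ψ ⟨_, ha'⟩) (lam ψ ⟨_, hb'⟩)]
        group
    have := hf _ hcomm
    calc a * b = (a * b * a⁻¹ * b⁻¹) * (b * a) := by group
      _ = b * a := by rw [this, one_mul]
  · have h1 : H.index = Nat.card (MulAction.toPermHom G Ω).range := Subgroup.index_ker _
    rw [h1]
    refine (Subgroup.card_subgroup_dvd_card _).trans ?_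
    rw [Nat.card_perm]
    exact Nat.factorial_dvd_factorial hcard

end Cfsg.Agent.Lib.Helper4Mono
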