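import Mathlib

set_option autoImplicit false
set_option linter.unusedSectionVars false

/-!
# The principal ideal theorem: the algebraic core
-/

namespace Cfsg.Agent.Lib.Helper4PIT

open scoped BigOperators
open MonoidAlgebra

/-- determinant trick -/
theorem det_smul_eq_zero {R V ι : Type*} [CommRing R] [AddCommGroup V] [Module R V] [Fintype ι]
    [DecidableEq ι] (Γ : Matrix ι ι R) (x : ι → V) (h : ∀ k, ∑ g, Γ k g • x g = 0) (j : ι) :
    Γ.det • x j = 0 := by
  have h1 : ∑ k, Γ.adjugate j k • ∑ g, Γ k g • x g = 0 := by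
    simp [h]
  have h2 : ∑ k, Γ.adjugate j k • ∑ g, Γ k g • x g = ∑ g, (Γ.adjugate * Γ) j g • x g := by
    simp_rw [Finset.smul_sum, smul_smul]
    rw [Finset.sum_comm]
    refine Finset.sum_congr rfl fun g _ => ?_
    rw [Matrix.mul_apply, Finset.sum_smul]
  rw [h2, Matrix.adjugate_mul] at h1
  rw [← h1, Finset.sum_eq_single j]
  · simp
  · intro b _ hb
    simp [hb.symm]
  · intro h; exact absurd (Finset.mem_univ _) h

/-- a lattice of relations -/
theorem exists_relation_matrix {ι A : Type*} [Fintype ι] [DecidableEq ι] [AddCommGroup A] [Finite A]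
    (π : (ι → ℤ) →ₗ[ℤ] A) (hπ : Function.Surjective π) :
    ∃ E : Matrix ι ι ℤ, (∀ k, π (E k) = 0) ∧ E.det.natAbs = Nat.card A := by
  classical
  set L : Submodule ℤ (ι → ℤ) := LinearMap.ker π with hL
  have e1 : ((ι → ℤ) ⧸ L) ≃ₗ[ℤ] A := π.quotKerEquivOfSurjective hπ
  have hcard : Nat.card ((ι → ℤ) ⧸ L) = Nat.card A := Nat.card_congr e1.toEquiv
  have hidx : L.toAddSubgroup.index ≠ 0 := by
    have : L.toAddSubgroup.index = Nat.card ((ι → ℤ) ⧸ L) := rfl
    rw [this, hcard]
    exact Nat.card_pos.ne'
  obtain ⟨e⟩ := Int.submodule_toAddSubgroup_index_ne_zero_iff.mp hidx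
  let bL : Module.Basis ι ℤ L := Module.Basis.ofEquivFun e
  refine ⟨fun k => (bL k : ι → ℤ), fun k => (bL k).2, ?_⟩
  have h1 := Submodule.natAbs_det_basis_change (Pi.basisFun ℤ ι) L bL
  rw [hcard] at h1
  rw [← h1, Module.Basis.det_apply]
  congr 1
  rw [← Matrix.det_transpose]
  rfl

variable {Q : Type*} [CommGroup Q]

/-- the augmentation. -/
noncomputable def aug (Q : Type*) [CommGroup Q] : MonoidAlgebra ℤ Q →ₐ[ℤ] ℤ :=
  MonoidAlgebra.lift ℤ ℤ Q 1

theorem aug_of (x : Q) : aug Q (of ℤ Q x) = 1 := by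
  simp [aug]

theorem aug_of_sub_one (x : Q) : aug Q (of ℤ Q x - 1) = 0 := by
  rw [map_sub, aug_of, map_one, sub_self]

/-- the norm element. -/
noncomputable def nrm (Q : Type*) [CommGroup Q] [Fintype Q] : MonoidAlgebra ℤ Q :=
  ∑ x : Q, of ℤ Q x

theorem eq_smul_nrm [Fintype Q] (δ : MonoidAlgebra ℤ Q) (h : ∀ x : Q, δ * (of ℤ Q x - 1) = 0) :
    δ = (δ.coeff 1) • nrm Q := by
  classical
  have h1 : ∀ x : Q, δ.coeff x = δ.coeff 1 := by
    intro x
    have h2 : δ * of ℤ Q x⁻¹ = δ := by
      have := h x⁻¹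
      rw [mul_sub, mul_one, sub_eq_zero] at this
      exact this
    have h3 := congrArg (fun f : MonoidAlgebra ℤ Q => f.coeff 1) h2
    simp only [of_apply, coeff_mul_single_apply, inv_inv, one_mul, mul_one] at h3
    exact h3
  apply MonoidAlgebra.ext
  ext y
  rw [coeff_smul, Finsupp.smul_apply, nrm, coeff_sum, Finsupp.finsetSum_apply, h1 y]
  simp [of_apply, coeff_single, Finsupp.single_apply]

theorem aug_nrm [Fintype Q] : aug Q (nrm Q) = Fintype.card Q := by
  rw [nrm, map_sum, Finset.sum_congr rfl fun x _ => aug_of x]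
  simp

/-- functions on `Q` with the translation action. -/
def Fn (Q B : Type*) := Q → B

instance (B : Type*) [AddCommGroup B] : AddCommGroup (Fn Q B) :=
  inferInstanceAs (AddCommGroup (Q → B))

variable {B : Type*} [AddCommGroup B]

/-- translation. -/
def trans (Q B : Type*) [CommGroup Q] [AddCommGroup B] : Q →* Module.End ℤ (Fn Q B) where
  toFun x :=
    { toFun := fun F q => F (x⁻¹ * q)
      map_add' := fun _ _ => rfl
      map_smul' := fun _ _ => rfl }
  map_one' := by
    apply LinearMap.ext; intro F; funext q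
    change F (1⁻¹ * q) = F q
    simp
  map_mul' x y := by
    apply LinearMap.ext; intro F; funext q
    change F ((x * y)⁻¹ * q) = F (y⁻¹ * (x⁻¹ * q))
    congr 1
    simp [mul_assoc, mul_comm]

noncomputable instance : Module (MonoidAlgebra ℤ Q) (Fn Q B) :=
  Module.compHom _ (MonoidAlgebra.lift ℤ (Module.End ℤ (Fn Q B)) Q (trans Q B)).toRingHom

theorem of_smul_apply (x : Q) (F : Fn Q B) (q : Q) : (of ℤ Q x • F) q = F (x⁻¹ * q) := by
  change (MonoidAlgebra.lift ℤ (Module.End ℤ (Fn Q B)) Q (trans Q B) (of ℤ Q x)) F q = _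
  rw [lift_of]
  rfl

/-- a function regarded as an element of the module. -/
def Fn.mk (f : Q → B) : Fn Q B := f

theorem Fn.mk_apply (f : Q → B) (q : Q) : Fn.mk f q = f q := rfl

theorem Fn.add_apply (F F' : Fn Q B) (q : Q) : (F + F') q = F q + F' q := rfl

theorem Fn.sum_apply {ι : Type*} (s : Finset ι) (F : ι → Fn Q B) (q : Q) :
    (∑ i ∈ s, F i) q = ∑ i ∈ s, F i q :=
  Finset.sum_apply (M := fun _ : Q => B) q s F

theorem nrm_smul_apply [Fintype Q] (F : Fn Q B) (q : Q) : (nrm Q • F) q = ∑ x : Q, F x := by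
  rw [nrm, Finset.sum_smul, Fn.sum_apply]
  simp_rw [of_smul_apply]
  exact Fintype.sum_equiv ((Equiv.inv Q).trans (Equiv.mulRight q)) _ _ (fun x => rfl)


theorem key {G : Type*} [Group G] [Finite G] {B : Type*} [AddCommGroup B]
    [Fintype (Abelianization G)] (F : G → Abelianization G → B)
    (hF : ∀ g h q, F (g * h) q = F g q + F h ((Abelianization.of g)⁻¹ * q)) (g : G) :
    ∑ q, F g q = 0 := by
  classical
  have := Fintype.ofFinite G
  let x : G → Fn (Abelianization G) B × MonoidAlgebra ℤ (Abelianization G) :=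
    fun g => (Fn.mk (F g), of ℤ _ (Abelianization.of g) - 1)
  have hx : ∀ g h, x (g * h) = x g + of ℤ _ (Abelianization.of g) • x h := by
    intro g h
    apply Prod.ext
    · funext q
      change F (g * h) q = F g q + (of ℤ _ (Abelianization.of g) • Fn.mk (F h)) q
      rw [of_smul_apply, hF]
      rfl
    · change of ℤ _ (Abelianization.of (g * h)) - 1 = (of ℤ _ (Abelianization.of g) - 1) +
        of ℤ _ (Abelianization.of g) * (of ℤ _ (Abelianization.of h) - 1)
      rw [map_mul, map_mul]
      ring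
  let S : Submodule (MonoidAlgebra ℤ (Abelianization G))
      (Fn (Abelianization G) B × MonoidAlgebra ℤ (Abelianization G)) :=
    (RingHom.ker (aug (Abelianization G))) • Submodule.span _ (Set.range x)
  let dbar : G →* Multiplicative (_ ⧸ S) :=
    MonoidHom.mk' (fun g => Multiplicative.ofAdd (S.mkQ (x g))) (by
      intro g h
      rw [← ofAdd_add, ← map_add]
      congr 1
      rw [Submodule.mkQ_apply, Submodule.mkQ_apply, Submodule.Quotient.eq]
      have h1 : x (g * h) - (x g + x h) = (of ℤ _ (Abelianization.of g) - 1) • x h := by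
        rw [hx, sub_smul, one_smul]; abel
      rw [h1]
      exact Submodule.smul_mem_smul (by rw [RingHom.mem_ker]; exact aug_of_sub_one _)
        (Submodule.subset_span (Set.mem_range_self h)))
  let D : Additive (Abelianization G) →+ (_ ⧸ S) :=
    MonoidHom.toAdditiveLeft (Abelianization.lift dbar)
  have hD : ∀ g, D (Additive.ofMul (Abelianization.of g)) = S.mkQ (x g) := by
    intro g
    change Multiplicative.toAdd (Abelianization.lift dbar (Abelianization.of g)) = _
    rw [Abelianization.lift_apply_of]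
    rfl
  let π : (G → ℤ) →ₗ[ℤ] Additive (Abelianization G) :=
    Fintype.linearCombination ℤ (fun g => Additive.ofMul (Abelianization.of g))
  have hπ : Function.Surjective π := by
    intro q
    obtain ⟨g, hg⟩ := QuotientGroup.mk_surjective (Additive.toMul q)
    refine ⟨Pi.single g 1, ?_⟩
    rw [Fintype.linearCombination_apply_single, one_smul]
    exact congrArg Additive.ofMul hg
  obtain ⟨E, hE, hdet⟩ := exists_relation_matrix π hπ
  have hmem : ∀ k, ∑ g, (E k g : MonoidAlgebra ℤ (Abelianization G)) • x g ∈ S := by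
    intro k
    rw [← Submodule.Quotient.mk_eq_zero, ← Submodule.mkQ_apply, map_sum]
    have h1 : ∀ g, S.mkQ ((E k g : MonoidAlgebra ℤ (Abelianization G)) • x g) =
        E k g • D (Additive.ofMul (Abelianization.of g)) := by
      intro g
      rw [Int.cast_smul_eq_zsmul, map_zsmul, hD]
    rw [Finset.sum_congr rfl fun g _ => h1 g]
    have h2 := hE k
    rw [Fintype.linearCombination_apply] at h2
    rw [← map_zero D, ← h2, map_sum]
    refine Finset.sum_congr rfl fun g _ => ?_
    rw [map_zsmul]
  choose a ha hsum using fun k =>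
    (Submodule.mem_ideal_smul_span_iff_exists_sum _ x _).mp (hmem k)
  let Γ : Matrix G G (MonoidAlgebra ℤ (Abelianization G)) :=
    fun k g => (E k g : MonoidAlgebra ℤ (Abelianization G)) - a k g
  have hΓ : ∀ k, ∑ g, Γ k g • x g = 0 := by
    intro k
    simp only [Γ, sub_smul, Finset.sum_sub_distrib]
    rw [← hsum k, Finsupp.sum_fintype (a k) (fun i c => c • x i) (fun i => zero_smul _ _), sub_self]
  have hδ := det_smul_eq_zero Γ x hΓ
  have haug : aug (Abelianization G) Γ.det = E.det := by
    have h1 := RingHom.map_det (aug (Abelianization G)).toRingHom Γ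
    have h2 : (aug (Abelianization G)).toRingHom.mapMatrix Γ = E := by
      ext k g
      change aug (Abelianization G) ((E k g : MonoidAlgebra ℤ (Abelianization G)) - a k g) = E k g
      rw [map_sub, map_intCast, (RingHom.mem_ker).mp (ha k g), sub_zero]
      simp
    rw [h2] at h1
    exact h1
  have hc := eq_smul_nrm Γ.det (by
    intro q
    obtain ⟨j, rfl⟩ := QuotientGroup.mk_surjective q
    exact congrArg Prod.snd (hδ j))
  set c := Γ.det.coeff 1 with hcdef
  have hc1 : c.natAbs = 1 := by
    rw [hc, map_zsmul, aug_nrm, smul_eq_mul] at haug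
    have h1 := congrArg Int.natAbs haug
    rw [hdet, Int.natAbs_mul, Int.natAbs_natCast] at h1
    have h2 : Nat.card (Additive (Abelianization G)) = Fintype.card (Abelianization G) := by
      rw [← Nat.card_eq_fintype_card]; rfl
    rw [h2] at h1
    have h3 : 0 < Fintype.card (Abelianization G) := Fintype.card_pos
    exact Nat.eq_of_mul_eq_mul_right h3 (by rw [h1, one_mul])
  have h1 : Γ.det • Fn.mk (F g) = 0 := congrArg Prod.fst (hδ g)
  rw [hc, smul_assoc] at h1
  have h2 : nrm (Abelianization G) • Fn.mk (F g) = 0 := by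
    rcases Int.natAbs_eq c with h | h
    · rw [h, hc1] at h1
      simpa using h1
    · rw [h, hc1] at h1
      simpa using h1
  have h3 := nrm_smul_apply (Fn.mk (F g)) 1
  rw [h2] at h3
  exact h3.symm

end Cfsg.Agent.Lib.Helper4PIT
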