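import Cfsg.Agent.Lib.Helper4TI7

set_option autoImplicit false
set_option linter.unusedSectionVars false
set_option linter.unusedSimpArgs false

/-!
# Groups with a self-centralizing element of prime order
-/

namespace Cfsg.Agent.Lib.Helper4SelfC

open Subgroup Cfsg Cfsg.Agent.Lib.Helper4TI1 Cfsg.Agent.Lib.Helper4TI2 Cfsg.Agent.Lib.Helper4TI3
  Cfsg.Agent.Lib.Helper4TI4 Cfsg.Agent.Lib.Helper4TI5 Cfsg.Agent.Lib.Helper4TI6
  Cfsg.Agent.Lib.Helper4TI7 Cfsg.Agent.Lib.Helper4Eigen
  Cfsg.Agent.Lib.Helper4Char Cfsg.Agent.Lib.Helper4Char2 Cfsg.Agent.Lib.Helper4Char4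
  Cfsg.Agent.Lib.Helper19Lin Cfsg.Agent.Lib.Helper32Virt
open scoped ComplexConjugate
open Module

section S1

variable {G : Type*} [Group G] [Finite G] {p : ℕ} [hp : Fact p.Prime]

theorem zpowers_eq_of_mem {x u : G} (hx : orderOf x = p) (hu : u ∈ zpowers x) (hu1 : u ≠ 1) :
    zpowers u = zpowers x := by
  have h1 : zpowers u ≤ zpowers x := zpowers_le.mpr hu
  have hcard : Nat.card (zpowers x) = p := by rw [Nat.card_zpowers, hx]
  have h2 : Nat.card (zpowers u) ∣ p := by
    rw [← hcard]; exact Subgroup.card_dvd_of_le h1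
  rcases (Nat.dvd_prime hp.out).mp h2 with h | h
  · exfalso
    rw [Nat.card_zpowers, orderOf_eq_one_iff] at h
    exact hu1 h
  · exact Subgroup.eq_of_le_of_card_ge h1 (by rw [h, hcard])

theorem centralizer_eq_of_mem {x u : G} (hx : orderOf x = p) (hu : u ∈ zpowers x) (hu1 : u ≠ 1) :
    centralizer ({u} : Set G) = centralizer ({x} : Set G) := by
  rw [← centralizer_closure ({u} : Set G), ← centralizer_closure ({x} : Set G),
    ← zpowers_eq_closure, ← zpowers_eq_closure, zpowers_eq_of_mem hx hu hu1]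

theorem exists_sylow {x : G} (hx : orderOf x = p)
    (hC : centralizer ({x} : Set G) = zpowers x) : ∃ P : Sylow p G, (P : Subgroup G) = zpowers x := by
  have hQ : IsPGroup p (zpowers x) := by
    apply IsPGroup.of_card (n := 1)
    rw [Nat.card_zpowers, hx, pow_one]
  obtain ⟨S, hS⟩ := hQ.exists_le_sylow
  refine ⟨S, le_antisymm ?_ hS⟩
  have hx1 : x ≠ 1 := by
    intro h; rw [h, orderOf_one] at hx; exact hp.out.one_lt.ne hx
  have hnt : Nontrivial (S : Subgroup G) :=
    ⟨⟨⟨x, hS (mem_zpowers x)⟩, 1, fun h => hx1 (congrArg Subtype.val h)⟩⟩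
  have := IsPGroup.center_nontrivial S.2
  obtain ⟨z, hz⟩ := exists_ne (1 : center (S : Subgroup G))
  have hz1 : ((z : (S : Subgroup G)) : G) ≠ 1 := by
    intro h
    apply hz
    apply Subtype.ext
    apply Subtype.ext
    simpa using h
  have hzx : ((z : (S : Subgroup G)) : G) ∈ zpowers x := by
    rw [← hC, mem_centralizer_singleton_iff]
    have h1 := (Subgroup.mem_center_iff.mp z.2) ⟨x, hS (mem_zpowers x)⟩
    exact (congrArg Subtype.val h1).symm
  rw [← hC, ← centralizer_eq_of_mem hx hzx hz1]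
  intro s hs
  rw [mem_centralizer_singleton_iff]
  have h1 := (Subgroup.mem_center_iff.mp z.2) ⟨s, hs⟩
  exact congrArg Subtype.val h1

theorem tiData' {x : G} (hx : orderOf x = p)
    (hC : centralizer ({x} : Set G) = zpowers x) : TIData p (zpowers x) (zpowers x) := by
  obtain ⟨P, hP⟩ := exists_sylow hx hC
  have hx1 : x ≠ 1 := by
    intro h; rw [h, orderOf_one] at hx; exact hp.out.one_lt.ne hx
  have hcP : centralizer ((P : Subgroup G) : Set G) = zpowers x := by
    rw [hP, zpowers_eq_closure, centralizer_closure, hC, zpowers_eq_closure]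
  have h := tiData P (by
    rw [hP]; intro h
    exact hx1 (by simpa using h)) (by
    intro u hu hu1
    rw [hP] at hu
    rw [hcP, centralizer_eq_of_mem hx hu hu1, hC])
  rw [hcP, hP] at h
  exact h

end S1

section S2

variable {G : Type*} [Group G] {p : ℕ} {P : Subgroup G}

theorem nt_hom (D : TIData p P P) {ν : P →* ℂˣ} (hν : ν ≠ 1) : NT D (homFun ν) ν :=
  ⟨isIrr_homFun ν, hasWt_hom D (fun u => by congr 1), hν⟩

theorem eq_one_of_not_dvd [Finite G] (hp : p.Prime) (hcard : Nat.card P = p) (c : P)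
    (hc : ¬ p ∣ orderOf (c : G)) : c = 1 := by
  have h1 : orderOf c ∣ p := by rw [← hcard]; exact orderOf_dvd_natCard c
  rw [Subgroup.orderOf_coe] at hc
  rcases (Nat.dvd_prime hp).mp h1 with h | h
  · exact orderOf_eq_one_iff.mp h
  · exact absurd (by rw [h]) hc

variable [Fintype G] [Fintype P]
  [Fintype (normalizer (P : Set G))] [Fintype (P →* ℂˣ)] [DecidableEq (P →* ℂˣ)]

theorem res_one_eq_zero_or (D : TIData p P P) (hp : p.Prime) (hcard : Nat.card P = p)
    (χ : IrrCharacter G) (hdeg : (χ : G → ℂ) 1 + 1 = (p : ℂ)) (hp2 : 2 < p) :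
    classInner (fun u : P => (χ : G → ℂ) u) (fun _ => 1) = 0 ∨ eIdx P = 1 := by
  classical
  have hχc := IsIrrCharacter.isClassFunction χ.2
  have hχch := IsIrrCharacter.isCharacter χ.2
  choose a ha using fun ν : P →* ℂˣ => IsCharacter.classInner_nat
    (IsCharacter.restrict P hχch) (IsIrrCharacter.isCharacter (isIrr_homFun ν))
  have hone : homFun (1 : P →* ℂˣ) = fun _ => (1 : ℂ) := by funext u; simp [homFun_apply]
  have hsum : ∑ ν : P →* ℂˣ, a ν + 1 = p := by
    have h1 := sum_classInner_hom (comm_P D) (fun u : P => (χ : G → ℂ) u)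
    simp only [ha] at h1
    have h2 : ((∑ ν : P →* ℂˣ, a ν + 1 : ℕ) : ℂ) = (p : ℂ) := by
      push_cast
      rw [h1, ← hdeg]; rfl
    exact_mod_cast h2
  have hcardhom : (Finset.univ : Finset (P →* ℂˣ)).card = p := by
    rw [Finset.card_univ, ← Nat.card_eq_fintype_card, card_hom (comm_P D), hcard]
  have hsplit : ∑ ν : P →* ℂˣ, a ν = a 1 + ∑ ν ∈ Finset.univ.erase (1 : P →* ℂˣ), a ν :=
    (Finset.add_sum_erase _ _ (Finset.mem_univ _)).symm
  have hcerase : (Finset.univ.erase (1 : P →* ℂˣ)).card = p - 1 := by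
    rw [Finset.card_erase_of_mem (Finset.mem_univ _), hcardhom]
  have hreg : ∀ (ν ν' : P →* ℂˣ) (c : P), ¬ p ∣ orderOf (c : G) → homFun ν c = homFun ν' c := by
    intro ν ν' c hc
    have : Finite G := Finite.of_fintype _
    rw [eq_one_of_not_dvd hp hcard c hc]
    simp [homFun_apply]
  by_cases hex : ∃ ν₀ : P →* ℂˣ, ν₀ ≠ 1 ∧ a ν₀ = 0
  · right
    obtain ⟨ν₀, hν₀, ha₀⟩ := hex
    have hle1 : ∀ ν : P →* ℂˣ, ν ≠ 1 → a ν ≤ 1 := by
      intro ν hν
      by_contra hcon
      have hne : a ν ≠ 0 := by omega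
      obtain ⟨Λ, hΛ, hind⟩ := K1 D χ (nt_hom D hν) (nt_hom D hν₀) (hreg ν ν₀)
        (by rw [ha]; exact_mod_cast hne) (by rw [ha, ha₀]; simp)
      have h1 := inner_ind_irr (C := P) (homFun ν - homFun ν₀) hχc
      rw [hind, classInner_sub_left, classInner_irr_self χ.2,
        classInner_irr_ne Λ.2 χ.2 (fun h => hΛ (Subtype.ext h)), classInner_sub_right, ha, ha,
        ha₀] at h1
      simp at h1
      have : a ν = 1 := by exact_mod_cast h1.symm
      omega
    have horb : ∀ ν ∈ orb D ν₀, a ν = 0 := by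
      intro ν hν
      obtain ⟨n, rfl⟩ := (mem_orb D ν₀ ν).mp hν
      have := classInner_res_act D hχc n ν₀
      rw [ha, ha, ha₀] at this
      exact_mod_cast this
    have hfin : Finite P := Finite.of_fintype _
    have horbcard := le_card_orb D hν₀
    have h1orb : (1 : P →* ℂˣ) ∉ orb D ν₀ := by
      intro h
      obtain ⟨n, hn⟩ := (mem_orb D ν₀ 1).mp h
      apply hν₀
      ext u
      have := congrArg (fun f : P →* ℂˣ => f ((kap D n).symm u)) hn
      simp only [act_apply, MulEquiv.apply_symm_apply, MonoidHom.one_apply] at this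
      rw [this]; simp
    have horbsub : orb D ν₀ ⊆ Finset.univ.erase (1 : P →* ℂˣ) := by
      intro ν hν
      exact Finset.mem_erase.mpr ⟨fun h => h1orb (h ▸ hν), Finset.mem_univ _⟩
    have hbound : ∑ ν ∈ Finset.univ.erase (1 : P →* ℂˣ), a ν + eIdx P ≤ p - 1 := by
      rw [← Finset.sum_sdiff horbsub, Finset.sum_eq_zero horb, add_zero]
      have h1 : ∑ ν ∈ Finset.univ.erase (1 : P →* ℂˣ) \ orb D ν₀, a ν ≤
          ∑ ν ∈ Finset.univ.erase (1 : P →* ℂˣ) \ orb D ν₀, 1 := by
        apply Finset.sum_le_sum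
        intro ν hν
        exact hle1 ν (Finset.ne_of_mem_erase (Finset.mem_sdiff.mp hν).1)
      rw [Finset.sum_const, smul_eq_mul, mul_one, Finset.card_sdiff_of_subset horbsub,
        hcerase] at h1
      have := Finset.card_le_card horbsub
      rw [hcerase] at this
      omega
    have hge : eIdx P ≤ a 1 := by omega
    -- Bessel
    have hnt := nt_hom D hν₀
    have hirr1 : IsIrrCharacter P (fun _ : P => (1 : ℂ)) := Cfsg.Agent.Lib.Helper83Char.isIrr_one
    set Θ := indFun P ((fun _ : P => (1 : ℂ)) - homFun ν₀) with hΘ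
    have hgen : IsGeneralizedCharacter G Θ := gen_ind (gen_sub (gen_of_irr hirr1) (gen_of_irr hnt.irr))
    have hnorm : classInner Θ Θ = (eIdx P : ℂ) + 1 := by
      rw [hΘ, classInner_ind_ind D _ _ (fun c hc => by
        have h1 := hreg 1 ν₀ c hc
        rw [hone] at h1
        rw [Pi.sub_apply, ← h1, sub_self])]
      rw [Bf_sub_left, Bf_sub_right, Bf_sub_right, hnt.Bf_self, Bf_one_one,
        Bf_zero hirr1 hnt.irr (not_cnj_one D hnt),
        Bf_zero hnt.irr hirr1 (fun h => not_cnj_one D hnt h.symm)]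
      ring
    obtain ⟨m, hm1, hm2⟩ := gen_coord hgen
    have hs : ∑ ψ : IrrCharacter G, m ψ * m ψ = (eIdx P : ℤ) + 1 := by
      have := gen_norm_eq_sum hgen m hm2
      rw [hnorm] at this
      exact_mod_cast this.symm
    let one : IrrCharacter G := ⟨fun _ => 1, Cfsg.Agent.Lib.Helper83Char.isIrr_one⟩
    have hmone : m one = 1 := by
      have h1 := inner_ind_irr (C := P) ((fun _ : P => (1 : ℂ)) - homFun ν₀)
        (IsIrrCharacter.isClassFunction one.2)
      rw [← hΘ, hm2 one, classInner_sub_right] at h1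
      have h2 : classInner (fun c : P => (one : G → ℂ) c) (fun _ : P => (1 : ℂ)) = 1 :=
        classInner_irr_self hirr1
      have h3 : classInner (fun c : P => (one : G → ℂ) c) (homFun ν₀) = 0 :=
        classInner_irr_ne hirr1 hnt.irr (fun h => not_cnj_one D hnt (cnj_of_eq h))
      rw [h2, h3] at h1
      simp at h1
      exact_mod_cast h1
    have hmχ : m χ = a 1 := by
      have h1 := inner_ind_irr (C := P) ((fun _ : P => (1 : ℂ)) - homFun ν₀) hχc
      rw [← hΘ, hm2 χ, classInner_sub_right, ← hone, ha, ha, ha₀] at h1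
      simp at h1
      exact_mod_cast h1
    have hne : χ ≠ one := by
      intro h
      rw [h] at hdeg
      have h1 : (one : G → ℂ) 1 = 1 := rfl
      have : ((1 + 1 : ℕ) : ℂ) = (p : ℂ) := by rw [← hdeg, h1]; norm_num
      have : 1 + 1 = p := by exact_mod_cast this
      omega
    have hbes : m χ * m χ + m one * m one ≤ (eIdx P : ℤ) + 1 := by
      rw [← hs, ← Finset.add_sum_erase _ _ (Finset.mem_univ χ),
        ← Finset.add_sum_erase _ _ (Finset.mem_erase.mpr ⟨hne.symm, Finset.mem_univ one⟩),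
        ← add_assoc]
      have : 0 ≤ ∑ ψ ∈ (Finset.univ.erase χ).erase one, m ψ * m ψ :=
        Finset.sum_nonneg fun ψ _ => mul_self_nonneg _
      linarith
    rw [hmχ, hmone] at hbes
    have hbes' : a 1 * a 1 ≤ eIdx P := by
      have : ((a 1 * a 1 : ℕ) : ℤ) ≤ (eIdx P : ℤ) := by push_cast; linarith
      exact_mod_cast this
    have hpos : eIdx P ≠ 0 := by
      have : Finite (normalizer (P : Set G)) := Finite.of_fintype _
      exact Subgroup.index_ne_zero_of_finite
    have h5 : eIdx P * eIdx P ≤ eIdx P := le_trans (Nat.mul_le_mul hge hge) hbes'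
    have h6 : eIdx P ≤ 1 := by
      by_contra hcon
      have : 2 ≤ eIdx P := by omega
      nlinarith
    omega
  · left
    push Not at hex
    have h1 : ∑ ν ∈ Finset.univ.erase (1 : P →* ℂˣ), 1 ≤
        ∑ ν ∈ Finset.univ.erase (1 : P →* ℂˣ), a ν := by
      apply Finset.sum_le_sum
      intro ν hν
      exact Nat.one_le_iff_ne_zero.mpr (hex ν (Finset.ne_of_mem_erase hν))
    rw [Finset.sum_const, smul_eq_mul, mul_one, hcerase] at h1
    have : a 1 = 0 := by omega
    rw [← hone, ha, this]; simp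

end S2

section S3

variable {G : Type*} [Group G] {p : ℕ} {P : Subgroup G}

theorem sum_coset_eq_zero [Fintype P] {χ : G → ℂ} (hχ : IsCharacter G χ)
    (h0 : classInner (fun u : P => χ u) (fun _ => 1) = 0) (z : G) :
    ∑ u : P, χ (z * u) = 0 := by
  obtain ⟨n, ρ, rfl⟩ := hχ
  rw [classInner_res_one ρ P] at h0
  have h1 : finrank ℂ (inv ρ P) = 0 := by exact_mod_cast h0
  have h2 : inv ρ P = ⊥ := Submodule.finrank_eq_zero.mp h1
  have h3 : ∑ u : P, ρ (u : G) = 0 := by
    apply LinearMap.ext; intro v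
    have hv : (∑ u : P, ρ (u : G)) v ∈ inv ρ P := by
      rw [mem_inv]
      intro h hh
      rw [LinearMap.sum_apply, map_sum]
      rw [← Equiv.sum_comp (Equiv.mulLeft (⟨h, hh⟩ : P)) (fun u : P => ρ (u : G) v)]
      refine Finset.sum_congr rfl fun u _ => ?_
      simp [map_mul]
    rw [h2, Submodule.mem_bot] at hv
    rw [hv]; rfl
  have h4 : ∑ u : P, ρ.character (z * u) = LinearMap.trace ℂ _ (ρ z * ∑ u : P, ρ (u : G)) := by
    rw [Finset.mul_sum, map_sum]
    refine Finset.sum_congr rfl fun u _ => ?_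
    rw [← map_mul]; rfl
  rw [h4, h3, mul_zero, map_zero]

theorem vanish [Fintype P] (D : TIData p P P) {χ : G → ℂ} (hχ : IsCharacter G χ)
    (h0 : classInner (fun u : P => χ u) (fun _ => 1) = 0) (z : G)
    (hz : z ∈ normalizer (P : Set G)) (hzP : z ∉ P) : χ z = 0 := by
  classical
  have hcl := IsCharacter.isClassFunction hχ
  -- the map w ↦ z⁻¹ w z w⁻¹
  let φ : P → P := fun w => ⟨z⁻¹ * w * z * (w : G)⁻¹, by
    apply P.mul_mem _ (P.inv_mem w.2)
    have := D.normP z⁻¹ (inv_mem hz) w w.2
    simpa using this⟩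
  have hinj : Function.Injective φ := by
    intro w w' h
    have h1 : z⁻¹ * (w : G) * z * (w : G)⁻¹ = z⁻¹ * w' * z * (w' : G)⁻¹ := congrArg Subtype.val h
    by_contra hne
    set d : G := (w' : G)⁻¹ * w with hd
    have hdP : d ∈ P := P.mul_mem (P.inv_mem w'.2) w.2
    have hd1 : d ≠ 1 := by
      intro h
      apply hne
      apply Subtype.ext
      rw [hd, inv_mul_eq_one] at h
      exact h.symm
    have hcomm : (w' : G)⁻¹ * w = w * (w' : G)⁻¹ :=
      D.central _ (P.inv_mem w'.2) _ w.2
    have h2 : z⁻¹ * d * z⁻¹⁻¹ = d := by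
      have e1 : z⁻¹ * (w : G) * z = z⁻¹ * w' * z * (w' : G)⁻¹ * w := by
        rw [← h1]; group
      calc z⁻¹ * d * z⁻¹⁻¹ = (z⁻¹ * (w' : G) * z)⁻¹ * (z⁻¹ * (w : G) * z) := by rw [hd]; group
        _ = (z⁻¹ * (w' : G) * z)⁻¹ * (z⁻¹ * w' * z * (w' : G)⁻¹ * w) := by rw [e1]
        _ = d := by rw [hd]; group
    have := D.free z⁻¹ (inv_mem hz) d hdP hd1 h2
    exact hzP (by simpa using P.inv_mem this)
  have hbij : Function.Bijective φ := Finite.injective_iff_bijective.mp hinj
  have h1 := sum_coset_eq_zero hχ h0 z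
  rw [← Equiv.sum_comp (Equiv.ofBijective φ hbij)] at h1
  have h2 : ∀ w : P, χ (z * ((Equiv.ofBijective φ hbij) w : P)) = χ z := by
    intro w
    have : z * ((Equiv.ofBijective φ hbij w : P) : G) = w * z * (w : G)⁻¹ := by
      change z * (z⁻¹ * w * z * (w : G)⁻¹) = _
      group
    rw [this, hcl]
  rw [Finset.sum_congr rfl fun w _ => h2 w, Finset.sum_const, Finset.card_univ, nsmul_eq_mul] at h1
  rcases mul_eq_zero.mp h1 with h | h
  · exfalso
    have : Fintype.card P = 0 := by exact_mod_cast h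
    exact Fintype.card_ne_zero this
  · exact h

end S3

section S4

theorem prod_nthRoots_even (N : ℕ) (hN : 0 < N) (hev : Even N) :
    ∏ ω ∈ Polynomial.nthRootsFinset N (1 : ℂ), ω = -1 := by
  have hprim := Complex.isPrimitiveRoot_exp N hN.ne'
  have h1 := Polynomial.X_pow_sub_one_eq_prod hN hprim
  have h2 := congrArg (Polynomial.eval 0) h1
  rw [Polynomial.eval_prod] at h2
  simp only [Polynomial.eval_sub, Polynomial.eval_pow, Polynomial.eval_X, Polynomial.eval_one,
    Polynomial.eval_C, zero_sub, zero_pow hN.ne'] at h2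
  rw [Finset.prod_neg, hprim.card_nthRootsFinset, hev.neg_one_pow, one_mul] at h2
  exact h2.symm

theorem geom_root (N : ℕ) (ζ : ℂ) (hζ : ζ ^ N = 1) :
    ∑ k ∈ Finset.range N, ζ ^ k = if ζ = 1 then (N : ℂ) else 0 := by
  split_ifs with h
  · simp [h]
  · rw [geom_sum_eq h, hζ, sub_self, zero_div]

theorem det_eq_prod_of_eigenbasis {V : Type*} [AddCommGroup V] [Module ℂ V]
    {ι : Type*} [Fintype ι] [DecidableEq ι]
    (f : Module.End ℂ V) (b : Basis ι ℂ V) (μ : ι → ℂ) (h : ∀ i, f (b i) = μ i • b i) :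
    LinearMap.det f = ∏ i, μ i := by
  rw [← LinearMap.det_toMatrix b]
  have : LinearMap.toMatrix b b f = Matrix.diagonal μ := by
    ext i j
    rw [LinearMap.toMatrix_apply, h j, map_smul, Finsupp.smul_apply, Basis.repr_self,
      Matrix.diagonal_apply]
    by_cases hij : i = j
    · subst hij; simp
    · rw [if_neg hij, Finsupp.single_apply, if_neg (fun h => hij h.symm)]; simp
  rw [this, Matrix.det_diagonal]

variable {G : Type*} [Group G] [Finite G] {V : Type*} [AddCommGroup V] [Module ℂ V]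
  [FiniteDimensional ℂ V]

theorem det_eq_neg_one (ρ : Representation ℂ G V) (y : G) (N m : ℕ) (hN : 0 < N) (hev : Even N)
    (hy : orderOf y = N) (hdim : finrank ℂ V = N * m) (hm : Odd m)
    (hvan : ∀ k, 0 < k → k < N → ρ.character (y ^ k) = 0) : LinearMap.det (ρ y) = -1 := by
  classical
  obtain ⟨b, μ, h1, h2, h3⟩ := exists_eigenbasis_rep ρ y
  rw [hy] at h2
  rw [det_eq_prod_of_eigenbasis _ b μ h1]
  have hchar : ∀ k : ℕ, ρ.character (y ^ k) = ∑ i, μ i ^ k := by
    intro k
    exact trace_eq_sum_of_eigenbasis _ b _ (fun i => rep_pow_apply_eigen ρ y (b i) (μ i) (h1 i) k)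
  have hmem : ∀ i ∈ (Finset.univ : Finset (Fin (finrank ℂ V))),
      μ i ∈ Polynomial.nthRootsFinset N (1 : ℂ) := by
    intro i _
    rw [Polynomial.mem_nthRootsFinset hN]
    exact h2 i
  rw [← Finset.prod_fiberwise_of_maps_to hmem]
  have hcount : ∀ ω ∈ Polynomial.nthRootsFinset N (1 : ℂ),
      (Finset.univ.filter (fun i => μ i = ω)).card = m := by
    intro ω hω
    rw [Polynomial.mem_nthRootsFinset hN] at hω
    have hω0 : ω ≠ 0 := by
      intro h; rw [h, zero_pow hN.ne'] at hω; exact zero_ne_one hω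
    have e1 : ∑ k ∈ Finset.range N, (ω⁻¹) ^ k * ρ.character (y ^ k) = (N * m : ℕ) := by
      rw [Finset.sum_eq_single 0]
      · rw [pow_zero, pow_zero, one_mul, ← hdim]
        simp [Representation.character]
      · intro k hk hk0
        rw [hvan k (Nat.pos_of_ne_zero hk0) (Finset.mem_range.mp hk), mul_zero]
      · intro h; exact absurd (Finset.mem_range.mpr hN) h
    have e2 : ∑ k ∈ Finset.range N, (ω⁻¹) ^ k * ρ.character (y ^ k) =
        ∑ i, ∑ k ∈ Finset.range N, (μ i * ω⁻¹) ^ k := by
      rw [Finset.sum_comm]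
      refine Finset.sum_congr rfl fun k _ => ?_
      rw [hchar, Finset.mul_sum]
      refine Finset.sum_congr rfl fun i _ => ?_
      rw [mul_pow, mul_comm]
    have e3 : ∀ i, ∑ k ∈ Finset.range N, (μ i * ω⁻¹) ^ k = if μ i = ω then (N : ℂ) else 0 := by
      intro i
      rw [geom_root N _ (by rw [mul_pow, h2 i, inv_pow, hω]; simp)]
      have : μ i * ω⁻¹ = 1 ↔ μ i = ω := by
        rw [mul_inv_eq_one₀ hω0]
      simp only [this]
    rw [e2, Finset.sum_congr rfl fun i _ => e3 i, ← Finset.sum_filter, Finset.sum_const,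
      nsmul_eq_mul] at e1
    have e4 : (Finset.univ.filter (fun i => μ i = ω)).card * N = N * m := by exact_mod_cast e1
    rw [mul_comm] at e4
    exact Nat.eq_of_mul_eq_mul_left hN e4
  have hprod : ∀ ω ∈ Polynomial.nthRootsFinset N (1 : ℂ),
      ∏ i ∈ Finset.univ.filter (fun i => μ i = ω), μ i = ω ^ m := by
    intro ω hω
    rw [Finset.prod_congr rfl (fun i hi => (Finset.mem_filter.mp hi).2), Finset.prod_const,
      hcount ω hω]
  rw [Finset.prod_congr rfl hprod, Finset.prod_pow, prod_nthRoots_even N hN hev, hm.neg_one_pow]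

end S4

section S5

variable {G : Type*} [Group G] [Finite G] {p : ℕ} {P : Subgroup G}

/-- there is a `2`-element of the normalizer whose order is the full `2`-part of `|N : P|`. -/
theorem exists_two_elt (D : TIData p P P) (hp : p.Prime) (hcard : Nat.card P = p) (hp2 : 2 < p) :
    ∃ y ∈ normalizer (P : Set G), orderOf y = 2 ^ (eIdx P).factorization 2 := by
  classical
  have := Fintype.ofFinite (normalizer (P : Set G))
  have := Fintype.ofFinite P
  have := Fintype.ofFinite G
  have : Fact p.Prime := ⟨hp⟩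
  have : Fact (Nat.Prime 2) := ⟨Nat.prime_two⟩
  have hcyc : IsCyclic P := isCyclic_of_prime_card hcard
  have hcycA : IsCyclic (MulAut P) := by
    have e := IsCyclic.mulAutMulEquiv P
    rw [hcard] at e
    exact isCyclic_of_injective e.toMonoidHom e.injective
  obtain ⟨S⟩ : Nonempty (Sylow 2 (normalizer (P : Set G))) := inferInstance
  let κ : (S : Subgroup (normalizer (P : Set G))) →* MulAut P :=
    (P.normalizerMonoidHom).comp (S : Subgroup (normalizer (P : Set G))).subtype
  obtain ⟨u, hu⟩ : ∃ u : P, u ≠ 1 := by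
    have : Nontrivial P := by
      rw [← Finite.one_lt_card_iff_nontrivial, hcard]; omega
    exact exists_ne 1
  have hinj : Function.Injective κ := by
    rw [injective_iff_map_eq_one]
    intro s hs
    have h1 : ((s : normalizer (P : Set G)) : G) * u * ((s : normalizer (P : Set G)) : G)⁻¹ = u := by
      have := congrArg (fun f : MulAut P => ((f u : P) : G)) hs
      exact this
    have h2 : ((s : normalizer (P : Set G)) : G) ∈ P :=
      D.free _ (s : normalizer (P : Set G)).2 u u.2 (fun h => hu (Subtype.ext h)) h1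
    -- order divides p and is a power of 2
    obtain ⟨k, hk⟩ := (IsPGroup.iff_orderOf.mp S.2) s
    have h3 : orderOf s ∣ p := by
      have e1 : orderOf s = orderOf (⟨_, h2⟩ : P) := by
        rw [← Subgroup.orderOf_coe, ← Subgroup.orderOf_coe, ← Subgroup.orderOf_coe (⟨_, h2⟩ : P)]
      rw [e1, ← hcard]
      exact orderOf_dvd_natCard _
    rw [hk] at h3
    have h4 : k = 0 := by
      by_contra hk0
      have : 2 ∣ p := dvd_trans (dvd_pow_self 2 hk0) h3
      rcases (Nat.dvd_prime hp).mp this with h | h <;> omega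
    rw [h4, pow_zero, orderOf_eq_one_iff] at hk
    exact hk
  have hScyc : IsCyclic (S : Subgroup (normalizer (P : Set G))) := isCyclic_of_injective κ hinj
  obtain ⟨y, hy⟩ := hScyc.exists_generator
  refine ⟨((y : normalizer (P : Set G)) : G), (y : normalizer (P : Set G)).2, ?_⟩
  rw [Subgroup.orderOf_coe, Subgroup.orderOf_coe, orderOf_eq_card_of_forall_mem_zpowers hy,
    S.card_eq_multiplicity, card_normalizer_eq, hcard]
  congr 1
  have he : eIdx P ≠ 0 := Subgroup.index_ne_zero_of_finite
  rw [Nat.factorization_mul hp.ne_zero he, Finsupp.add_apply, hp.factorization,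
    Finsupp.single_apply, if_neg (by omega), zero_add]

end S5

section S6

variable {G : Type*} [Group G] {p : ℕ} {P : Subgroup G}

theorem kap_mul (D : TIData p P P) (n m : normalizer (P : Set G)) (u : P) :
    kap D (n * m) u = kap D n (kap D m u) := by
  apply Subtype.ext
  simp [kap_coe, mul_assoc]

theorem kap_of_mem (D : TIData p P P) (n : normalizer (P : Set G)) (hn : (n : G) ∈ P) (u : P) :
    kap D n u = u := by
  apply Subtype.ext
  rw [kap_coe, D.central n hn u u.2, mul_inv_cancel_right]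

variable [Fintype (normalizer (P : Set G))] [DecidableEq P]

/-- the orbit of an element of `P` under the normalizer. -/
noncomputable def orbP (D : TIData p P P) (u : P) : Finset P :=
  Finset.univ.image (fun n : normalizer (P : Set G) => kap D n u)

theorem mem_orbP (D : TIData p P P) (u u' : P) :
    u' ∈ orbP D u ↔ ∃ n : normalizer (P : Set G), kap D n u = u' := by
  simp [orbP]

theorem card_orbP (D : TIData p P P) {u : P} (hu : u ≠ 1) : (orbP D u).card = eIdx P := by
  classical
  have : Finite (normalizer (P : Set G)) := Finite.of_fintype _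
  have := Fintype.ofFinite (normalizer (P : Set G) ⧸ P.subgroupOf (normalizer (P : Set G)))
  have heq : orbP D u = Finset.univ.image
      (fun q : normalizer (P : Set G) ⧸ P.subgroupOf (normalizer (P : Set G)) =>
        kap D q.out u) := by
    ext u'
    rw [mem_orbP, Finset.mem_image]
    constructor
    · rintro ⟨n, rfl⟩
      refine ⟨(n : normalizer (P : Set G) ⧸ P.subgroupOf (normalizer (P : Set G))),
        Finset.mem_univ _, ?_⟩
      obtain ⟨c, hc⟩ := QuotientGroup.mk_out_eq_mul (P.subgroupOf (normalizer (P : Set G))) n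
      rw [hc, kap_mul, kap_of_mem D c (mem_subgroupOf.mp c.2)]
    · rintro ⟨q, -, rfl⟩
      exact ⟨q.out, rfl⟩
  have hinj : Function.Injective
      (fun q : normalizer (P : Set G) ⧸ P.subgroupOf (normalizer (P : Set G)) =>
        kap D q.out u) := by
    intro q q' h
    simp only at h
    have h1 : kap D (q.out⁻¹ * q'.out) u = u := by
      rw [kap_mul, ← h, ← kap_mul, inv_mul_cancel]
      exact kap_of_mem D 1 P.one_mem u
    have h2 : ((q.out⁻¹ * q'.out : normalizer (P : Set G)) : G) ∈ P :=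
      D.free _ (q.out⁻¹ * q'.out).2 u u.2 (fun h => hu (Subtype.ext h))
        (congrArg Subtype.val h1)
    rw [← q.out_eq', ← q'.out_eq']
    apply QuotientGroup.eq.mpr
    rw [mem_subgroupOf]
    exact h2
  rw [heq, Finset.card_image_of_injective _ hinj, Finset.card_univ, ← Nat.card_eq_fintype_card]
  rfl

omit [Fintype (normalizer (P : Set G))] [DecidableEq P] in
theorem card_classes [Finite G] (D : TIData p P P) [hp : Fact p.Prime] (hcard : Nat.card P = p)
    (hSyl : ∃ S : Sylow p G, (S : Subgroup G) = P) :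
    eIdx P * Nat.card {C : ConjClasses G // ∃ g ∈ C.carrier, orderOf g = p} = p - 1 := by
  classical
  have := Fintype.ofFinite G
  have := Fintype.ofFinite P
  have := Fintype.ofFinite (normalizer (P : Set G))
  set X : Finset P := Finset.univ.erase 1 with hX
  have hXcard : X.card = p - 1 := by
    rw [hX, Finset.card_erase_of_mem (Finset.mem_univ _), Finset.card_univ,
      ← Nat.card_eq_fintype_card, hcard]
  set T : Finset (ConjClasses G) := X.image (fun u : P => ConjClasses.mk (u : G)) with hT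
  have hord : ∀ u : P, u ≠ 1 → orderOf (u : G) = p := by
    intro u hu
    have h1 : orderOf u ∣ p := by rw [← hcard]; exact orderOf_dvd_natCard u
    rw [Subgroup.orderOf_coe]
    rcases (Nat.dvd_prime hp.out).mp h1 with h | h
    · exact absurd (orderOf_eq_one_iff.mp h) hu
    · exact h
  have hmemT : ∀ C : ConjClasses G, C ∈ T ↔ ∃ g ∈ C.carrier, orderOf g = p := by
    intro C
    rw [hT, Finset.mem_image]
    constructor
    · rintro ⟨u, hu, rfl⟩
      exact ⟨u, ConjClasses.mem_carrier_mk, hord u (Finset.ne_of_mem_erase hu)⟩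
    · rintro ⟨g, hg, hgo⟩
      obtain ⟨S, hS⟩ := hSyl
      have hQ : IsPGroup p (zpowers g) := by
        apply IsPGroup.of_card (n := 1)
        rw [Nat.card_zpowers, hgo, pow_one]
      obtain ⟨Q, hQ'⟩ := hQ.exists_le_sylow
      obtain ⟨h, hh⟩ := MulAction.exists_smul_eq G Q S
      have h1 : h * g * h⁻¹ ∈ (S : Subgroup G) := by
        rw [← hh, Sylow.coe_subgroup_smul]
        exact ⟨g, hQ' (mem_zpowers g), rfl⟩
      rw [hS] at h1
      refine ⟨⟨_, h1⟩, ?_, ?_⟩
      · rw [hX, Finset.mem_erase]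
        refine ⟨?_, Finset.mem_univ _⟩
        intro h2
        have h3 : h * g * h⁻¹ = 1 := congrArg Subtype.val h2
        have h4 : g = 1 := by
          have : g = h⁻¹ * (h * g * h⁻¹) * h := by group
          rw [this, h3]; group
        rw [h4, orderOf_one] at hgo
        exact hp.out.one_lt.ne hgo
      · rw [ConjClasses.mem_carrier_iff_mk_eq] at hg
        rw [← hg]
        apply ConjClasses.mk_eq_mk_iff_isConj.mpr
        exact (isConj_iff.mpr ⟨h, rfl⟩).symm
  have hcardT : Nat.card {C : ConjClasses G // ∃ g ∈ C.carrier, orderOf g = p} = T.card := by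
    rw [← Nat.card_congr (Equiv.subtypeEquivRight hmemT), Nat.card_eq_fintype_card,
      Fintype.card_coe]
  have hfib : ∀ C ∈ T, (X.filter (fun u : P => ConjClasses.mk (u : G) = C)).card = eIdx P := by
    intro C hC
    obtain ⟨u₀, hu₀, rfl⟩ := Finset.mem_image.mp hC
    have hu₀1 := Finset.ne_of_mem_erase hu₀
    rw [← card_orbP D hu₀1]
    congr 1
    ext u
    rw [Finset.mem_filter, mem_orbP]
    constructor
    · rintro ⟨hu, hconj⟩
      obtain ⟨c, hc⟩ := isConj_iff.mp (ConjClasses.mk_eq_mk_iff_isConj.mp hconj)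
      -- c * u * c⁻¹ = u₀
      have hcN : c ∈ normalizer (P : Set G) := by
        apply D.ti u₀ u₀.2 (by rw [hord u₀ hu₀1])
        rw [← hc]
        have : c⁻¹ * (c * ↑u * c⁻¹) * c = u := by group
        rw [this]; exact u.2
      refine ⟨⟨c, hcN⟩⁻¹, ?_⟩
      apply Subtype.ext
      rw [kap_coe, ← hc]
      simp [mul_assoc]
    · rintro ⟨n, rfl⟩
      refine ⟨?_, ?_⟩
      · rw [hX, Finset.mem_erase]
        refine ⟨?_, Finset.mem_univ _⟩
        intro h
        apply hu₀1
        have := (kap D n).injective (h.trans (map_one (kap D n)).symm)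
        exact this
      · apply ConjClasses.mk_eq_mk_iff_isConj.mpr
        rw [kap_coe]
        exact (isConj_iff.mpr ⟨(n : G), rfl⟩).symm
  rw [hcardT, ← hXcard, Finset.card_eq_sum_card_fiberwise (f := fun u : P => ConjClasses.mk (u : G))
    (t := T) (fun u hu => Finset.mem_image_of_mem _ hu), Finset.sum_congr rfl hfib,
    Finset.sum_const, smul_eq_mul, mul_comm]

end S6

end Cfsg.Agent.Lib.Helper4SelfC
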