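import Mathlib

set_option autoImplicit false

/-!
# Group theory of a Sylow subgroup all of whose nonidentity elements have the same centralizer
-/

namespace Cfsg.Agent.Lib.Helper4TI1

open Subgroup

/-- The abstract data used by the theory of exceptional characters: a central subgroup `P` of `C`
such that the `p`-singular elements of `C` form a trivial intersection set. -/
structure TIData {G : Type*} [Group G] (p : ℕ) (P C : Subgroup G) : Prop where
  one_lt : 1 < p
  le : P ≤ C
  central : ∀ u ∈ P, ∀ c ∈ C, u * c = c * u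
  ti : ∀ c ∈ C, p ∣ orderOf c → ∀ g : G, g⁻¹ * c * g ∈ C → g ∈ normalizer (C : Set G)
  normP : ∀ g ∈ normalizer (C : Set G), ∀ u ∈ P, g * u * g⁻¹ ∈ P
  free : ∀ g ∈ normalizer (C : Set G), ∀ u ∈ P, u ≠ 1 → g * u * g⁻¹ = u → g ∈ C
  ext : ∀ ν : P →* ℂˣ, ∃ μ : C →* ℂˣ, (∀ u : P, μ (Subgroup.inclusion le u) = ν u) ∧
    ∀ c : C, ¬ p ∣ orderOf (c : G) → μ c = 1

variable {G : Type*} [Group G] [Finite G] {p : ℕ} [hp : Fact p.Prime] (P : Sylow p G)

/-- `P` is contained in its centralizer. -/
theorem le_centralizer_of_star (hne : (P : Subgroup G) ≠ ⊥)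
    (hstar : ∀ x ∈ (P : Subgroup G), x ≠ 1 →
      centralizer ({x} : Set G) = centralizer ((P : Subgroup G) : Set G)) :
    (P : Subgroup G) ≤ centralizer ((P : Subgroup G) : Set G) := by
  have hnt : Nontrivial (P : Subgroup G) := (Subgroup.nontrivial_iff_ne_bot _).mpr hne
  have := IsPGroup.center_nontrivial P.2
  obtain ⟨z, hz⟩ := exists_ne (1 : center (P : Subgroup G))
  have hz1 : ((z : (P : Subgroup G)) : G) ≠ 1 := by
    intro h
    apply hz
    apply Subtype.ext
    apply Subtype.ext
    simpa using h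
  rw [← hstar _ (z : (P : Subgroup G)).2 hz1]
  intro u hu
  rw [mem_centralizer_singleton_iff]
  have h1 := (Subgroup.mem_center_iff.mp z.2) ⟨u, hu⟩
  exact congrArg Subtype.val h1

/-- a `p`-element of the centralizer of `P` lies in `P`. -/
theorem mem_of_mem_centralizer
    (hle : (P : Subgroup G) ≤ centralizer ((P : Subgroup G) : Set G)) {x : G}
    (hx : x ∈ centralizer ((P : Subgroup G) : Set G)) {k : ℕ} (hk : orderOf x = p ^ k) :
    x ∈ (P : Subgroup G) := by
  set C := centralizer ((P : Subgroup G) : Set G) with hC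
  have hnorm : ((P.subtype hle : Sylow p C) : Subgroup C).Normal := by
    rw [Sylow.coe_subtype]
    constructor
    intro n hn g
    rw [mem_subgroupOf] at hn ⊢
    have h1 : ((g * n * g⁻¹ : C) : G) = (n : G) := by
      have h2 := (mem_centralizer_iff.mp g.2) (n : G) hn
      push_cast
      rw [← h2, mul_inv_cancel_right]
    rw [h1]; exact hn
  have huniq := Sylow.unique_of_normal (P.subtype hle) hnorm
  have hQ : IsPGroup p (zpowers (⟨x, hx⟩ : C)) := by
    apply IsPGroup.of_card (n := k)
    rw [Nat.card_zpowers, ← hk]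
    exact Subgroup.orderOf_mk x hx
  obtain ⟨S, hS⟩ := hQ.exists_le_sylow
  have hSP : S = P.subtype hle := Subsingleton.elim _ _
  have h1 : (⟨x, hx⟩ : C) ∈ (S : Subgroup C) := hS (mem_zpowers _)
  rw [hSP, Sylow.coe_subtype, mem_subgroupOf] at h1
  exact h1

omit hp in
/-- a `p`-singular element has a power of order `p`. -/
theorem exists_pow_orderOf_eq {c : G} (hc : p ∣ orderOf c) :
    orderOf (c ^ (orderOf c / p)) = p :=
  orderOf_pow_orderOf_div (orderOf_pos c).ne' hc

omit [Finite G] in
theorem orderOf_conj' (g c : G) : orderOf (g * c * g⁻¹) = orderOf c := by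
  have := (MulAut.conj g).toMonoidHom
  exact orderOf_injective (MulAut.conj g).toMonoidHom (MulAut.conj g).injective c

theorem tiData (hne : (P : Subgroup G) ≠ ⊥)
    (hstar : ∀ x ∈ (P : Subgroup G), x ≠ 1 →
      centralizer ({x} : Set G) = centralizer ((P : Subgroup G) : Set G)) :
    TIData p (P : Subgroup G) (centralizer ((P : Subgroup G) : Set G)) := by
  have hle := le_centralizer_of_star P hne hstar
  have hmem := fun {x : G} hx {k : ℕ} hk => mem_of_mem_centralizer P hle (x := x) hx (k := k) hk
  set C := centralizer ((P : Subgroup G) : Set G) with hC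
  have hnormP : ∀ g ∈ normalizer (C : Set G), ∀ u ∈ (P : Subgroup G),
      g * u * g⁻¹ ∈ (P : Subgroup G) := by
    intro g hg u hu
    obtain ⟨k, hk⟩ := (IsPGroup.iff_orderOf.mp P.2) ⟨u, hu⟩
    rw [Subgroup.orderOf_mk] at hk
    exact hmem ((mem_normalizer_iff.mp hg u).mp (hle hu)) (k := k) (by rw [orderOf_conj', hk])
  refine ⟨hp.out.one_lt, hle, ?_, ?_, hnormP, ?_, ?_⟩
  · intro u hu c hc
    exact (mem_centralizer_iff.mp hc) u hu
  · intro c hc hpc g hg
    set m := orderOf c / p with hm
    have ho : orderOf (c ^ m) = p := exists_pow_orderOf_eq hpc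
    have hu : c ^ m ∈ (P : Subgroup G) := hmem (C.pow_mem hc m) (k := 1) (by rw [ho, pow_one])
    have hu1 : c ^ m ≠ 1 := by
      intro h
      rw [h, orderOf_one] at ho
      exact hp.out.one_lt.ne ho
    have hconj : g⁻¹ * c ^ m * g = (g⁻¹ * c * g) ^ m := by
      have := conj_pow (a := g⁻¹) (b := c) (i := m)
      simpa using this.symm
    have ho' : orderOf (g⁻¹ * c ^ m * g) = p := by
      have := orderOf_conj' g⁻¹ (c ^ m)
      rw [inv_inv] at this
      rw [this, ho]
    have hu' : g⁻¹ * c ^ m * g ∈ (P : Subgroup G) :=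
      hmem (by rw [hconj]; exact C.pow_mem hg m) (k := 1) (by rw [ho', pow_one])
    have hu1' : g⁻¹ * c ^ m * g ≠ 1 := by
      intro h
      rw [h, orderOf_one] at ho'
      exact hp.out.one_lt.ne ho'
    have h1 := hstar _ hu hu1
    have h2 := hstar _ hu' hu1'
    rw [mem_normalizer_iff]
    intro y
    rw [← h1]
    conv_lhs => rw [h1, ← h2]
    rw [mem_centralizer_singleton_iff, mem_centralizer_singleton_iff]
    constructor
    · intro h
      have : g * (y * (g⁻¹ * c ^ m * g)) * g⁻¹ = g * (g⁻¹ * c ^ m * g * y) * g⁻¹ := by rw [h]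
      simpa [mul_assoc] using this
    · intro h
      have : g⁻¹ * (g * y * g⁻¹ * c ^ m) * g = g⁻¹ * (c ^ m * (g * y * g⁻¹)) * g := by rw [h]
      simpa [mul_assoc] using this
  · intro g _ u hu hu1 h
    rw [← hstar u hu hu1, mem_centralizer_singleton_iff]
    rw [mul_inv_eq_iff_eq_mul] at h
    exact h
  · intro ν
    -- the transfer into the central Sylow subgroup
    set P' : Sylow p C := P.subtype hle with hP'
    have hcen : normalizer ((P' : Subgroup C) : Set C) ≤ centralizer ((P' : Subgroup C) : Set C) := by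
      intro g _
      rw [mem_centralizer_iff]
      intro h hh
      have hh' : (h : G) ∈ (P : Subgroup G) := by
        have : h ∈ (P' : Subgroup C) := hh
        rw [hP', Sylow.coe_subtype, mem_subgroupOf] at this
        exact this
      apply Subtype.ext
      exact (mem_centralizer_iff.mp g.2) (h : G) hh'
    set τ := MonoidHom.transferSylow P' hcen with hτ
    set k := (P' : Subgroup C).index with hk
    have hkp : ¬ p ∣ k := P'.not_dvd_index
    obtain ⟨n, hn⟩ := P.2.exists_card_eq
    have hcop : Nat.Coprime k (Nat.card (P : Subgroup G)) := by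
      rw [hn]
      exact Nat.Coprime.pow_right _ ((Nat.Prime.coprime_iff_not_dvd hp.out).mpr hkp).symm
    have hcard1 : 1 < Nat.card (P : Subgroup G) := by
      have hnt : Nontrivial (P : Subgroup G) := (Subgroup.nontrivial_iff_ne_bot _).mpr hne
      exact Finite.one_lt_card
    obtain ⟨j, -, hj⟩ := Nat.exists_mul_mod_eq_one_of_coprime hcop hcard1
    let e : (P' : Subgroup C) ≃* (P : Subgroup G) :=
      (MulEquiv.subgroupCongr (Sylow.coe_subtype P hle)).trans (subgroupOfEquivOfLe hle)
    have he : ∀ y : (P' : Subgroup C), ((e y : (P : Subgroup G)) : G) = ((y : C) : G) := by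
      intro y; rfl
    refine ⟨(ν ^ j).comp (e.toMonoidHom.comp τ), ?_, ?_⟩
    · intro u
      have hu' : Subgroup.inclusion hle u ∈ (P' : Subgroup C) := by
        rw [hP', Sylow.coe_subtype, mem_subgroupOf]; exact u.2
      have h1 := MonoidHom.transferSylow_eq_pow P' hcen (Subgroup.inclusion hle u) hu'
      have h2 : e (τ (Subgroup.inclusion hle u)) = u ^ k := by
        apply Subtype.ext
        rw [he, hτ, h1]
        rfl
      rw [MonoidHom.comp_apply, MonoidHom.comp_apply]
      change (ν ^ j) (e (τ (Subgroup.inclusion hle u))) = ν u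
      rw [h2, MonoidHom.pow_apply, ← map_pow, ← pow_mul, ← pow_mod_natCard, hj, pow_one]
    · intro c hc
      have h1 : orderOf (τ c) ∣ orderOf c := orderOf_map_dvd τ c
      rw [Subgroup.orderOf_coe] at hc
      obtain ⟨i, hi⟩ := (IsPGroup.iff_orderOf.mp P'.2) (τ c)
      have h2 : τ c = 1 := by
        rcases Nat.eq_zero_or_pos i with h0 | h0
        · rw [h0, pow_zero, orderOf_eq_one_iff] at hi; exact hi
        · exfalso
          apply hc
          refine dvd_trans ?_ h1
          rw [hi]
          exact dvd_pow_self p h0.ne'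
      rw [MonoidHom.comp_apply, MonoidHom.comp_apply, h2]
      simp

end Cfsg.Agent.Lib.Helper4TI1
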