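import Cfsg.Agent.Lib.Helper4TI1
import Cfsg.Agent.Lib.Helper5Ker
import Cfsg.Agent.Lib.Helper83Char

set_option autoImplicit false
set_option linter.unusedSectionVars false
set_option linter.unusedSimpArgs false

/-!
# Induction from the centralizer of a Sylow subgroup: the inner product formula
-/

namespace Cfsg.Agent.Lib.Helper4TI2

open Subgroup Cfsg Cfsg.Agent.Lib.Helper4TI1 Cfsg.Agent.Lib.Helper19Ind
  Cfsg.Agent.Lib.Helper4Char Cfsg.Agent.Lib.Helper4Char4 Cfsg.Agent.Lib.Helper5Ind
open scoped ComplexConjugate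

variable {G : Type*} [Group G] {p : ℕ} {P C : Subgroup G}

/-- conjugation of `C` by an element of its normalizer. -/
noncomputable abbrev cj (n : normalizer (C : Set G)) : C ≃* C := C.normalizerMonoidHom n

theorem cj_coe (n : normalizer (C : Set G)) (c : C) : ((cj n c : C) : G) = n * c * (n : G)⁻¹ := rfl

theorem cj_inv_cj (n : normalizer (C : Set G)) (c : C) : cj n⁻¹ (cj n c) = c := by
  apply Subtype.ext
  simp [cj_coe, mul_assoc]

theorem cj_cj_inv (n : normalizer (C : Set G)) (c : C) : cj n (cj n⁻¹ c) = c := by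
  apply Subtype.ext
  simp [cj_coe, mul_assoc]

theorem cj_mul (n m : normalizer (C : Set G)) (c : C) : cj (n * m) c = cj n (cj m c) := by
  apply Subtype.ext
  simp [cj_coe, mul_assoc]

theorem comp_cj_of_mem {ζ : C → ℂ} (hζ : IsClassFunction C ζ) (n : normalizer (C : Set G))
    (hn : (n : G) ∈ C) : ζ ∘ cj n = ζ := by
  funext c
  have : cj n c = (⟨n, hn⟩ : C) * c * (⟨n, hn⟩ : C)⁻¹ := by
    apply Subtype.ext; simp [cj_coe]
  rw [Function.comp_apply, this, hζ]

theorem irr_comp_cj {ζ : C → ℂ} (hζ : IsIrrCharacter C ζ) (n : normalizer (C : Set G)) :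
    IsIrrCharacter C (ζ ∘ cj n) :=
  Cfsg.Agent.Lib.Helper83Char.irr_comp_mulEquiv (cj n) hζ

theorem eq_comp_cj_symm {ζ₁ ζ₂ : C → ℂ} {n : normalizer (C : Set G)} (h : ζ₁ = ζ₂ ∘ cj n) :
    ζ₂ = ζ₁ ∘ cj n⁻¹ := by
  funext c
  rw [h, Function.comp_apply, Function.comp_apply, cj_cj_inv]

variable [Fintype G] [Fintype C] [Fintype (normalizer (C : Set G))]

theorem indFun_sub' (H : Subgroup G) (θ φ : H → ℂ) :
    indFun H (θ - φ) = indFun H θ - indFun H φ := by
  have : θ - φ = θ + (-1 : ℂ) • φ := by funext x; simp [sub_eq_add_neg]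
  rw [this, indFun_add, indFun_smul]
  funext x; simp [sub_eq_add_neg]

/-- the value of an induced function at a `p`-singular element of `C`. -/
theorem indFun_of_sing (D : TIData p P C) (β : C → ℂ) (c : C) (hc : p ∣ orderOf (c : G)) :
    indFun C β c = (Nat.card C : ℂ)⁻¹ * ∑ n : normalizer (C : Set G), β (cj n⁻¹ c) := by
  classical
  rw [indFun_apply]
  congr 1
  have h1 := Cfsg.Agent.Lib.Helper83Char.sum_subgroup (normalizer (C : Set G))
    (fun x => extendByZero C β (x⁻¹ * c * x))
  have h2 : ∑ x : G, extendByZero C β (x⁻¹ * c * x) =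
      ∑ g : G, if g ∈ normalizer (C : Set G) then extendByZero C β (g⁻¹ * c * g) else 0 := by
    refine Finset.sum_congr rfl fun x _ => ?_
    split_ifs with hx
    · rfl
    · rw [extendByZero_of_not_mem]
      intro h
      exact hx (D.ti c c.2 hc x h)
  rw [h2, ← h1]
  refine Finset.sum_congr rfl fun n _ => ?_
  have : ((n : G)⁻¹ * c * n) = ((cj n⁻¹ c : C) : G) := by simp [cj_coe]
  rw [this, extendByZero_coe]

/-- the averaged inner product over the normalizer. -/
noncomputable def Bf (α β : C → ℂ) : ℂ :=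
  (Nat.card C : ℂ)⁻¹ * ∑ n : normalizer (C : Set G), classInner α (β ∘ cj n)

theorem classInner_ind_ind (D : TIData p P C) (α β : C → ℂ)
    (hα : ∀ c : C, ¬ p ∣ orderOf (c : G) → α c = 0) :
    classInner (indFun C α) (indFun C β) = Bf α β := by
  rw [Cfsg.Agent.Lib.Helper32Ind.frobenius C α _ (indFun_isClassFunction C β)]
  unfold Bf classInner
  have h1 : ∀ c : C, α c * conj (indFun C β c) =
      α c * conj ((Nat.card C : ℂ)⁻¹ * ∑ n : normalizer (C : Set G), β (cj n⁻¹ c)) := by
    intro c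
    by_cases hc : p ∣ orderOf (c : G)
    · rw [indFun_of_sing D β c hc]
    · rw [hα c hc, zero_mul, zero_mul]
  rw [Finset.sum_congr rfl fun c _ => h1 c]
  congr 1
  rw [← Finset.mul_sum, Finset.sum_comm]
  rw [Finset.mul_sum]
  refine Finset.sum_congr rfl fun c _ => ?_
  rw [map_mul, map_inv₀, Complex.conj_natCast, map_sum, Finset.mul_sum, Finset.mul_sum,
    Finset.mul_sum]
  rw [← Equiv.sum_comp (Equiv.inv (normalizer (C : Set G)))]
  refine Finset.sum_congr rfl fun n _ => ?_
  simp only [Equiv.inv_apply, Function.comp_apply, inv_inv]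
  ring

theorem Bf_add_left (α α' β : C → ℂ) : Bf (α + α') β = Bf α β + Bf α' β := by
  unfold Bf
  simp only [classInner_add_left, Finset.sum_add_distrib, mul_add]

theorem Bf_sub_left (α α' β : C → ℂ) : Bf (α - α') β = Bf α β - Bf α' β := by
  unfold Bf
  simp only [classInner_sub_left, Finset.sum_sub_distrib, mul_sub]

theorem Bf_add_right (α β β' : C → ℂ) : Bf α (β + β') = Bf α β + Bf α β' := by
  unfold Bf
  have : ∀ n : normalizer (C : Set G), (β + β') ∘ cj n = β ∘ cj n + β' ∘ cj n := fun n => rfl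
  simp only [this, classInner_add_right, Finset.sum_add_distrib, mul_add]

theorem Bf_sub_right (α β β' : C → ℂ) : Bf α (β - β') = Bf α β - Bf α β' := by
  unfold Bf
  have : ∀ n : normalizer (C : Set G), (β - β') ∘ cj n = β ∘ cj n - β' ∘ cj n := fun n => rfl
  simp only [this, classInner_sub_right, Finset.sum_sub_distrib, mul_sub]

theorem Bf_eq_zero {ζ₁ ζ₂ : C → ℂ} (h₁ : IsIrrCharacter C ζ₁) (h₂ : IsIrrCharacter C ζ₂)
    (h : ∀ n : normalizer (C : Set G), ζ₁ ≠ ζ₂ ∘ cj n) : Bf ζ₁ ζ₂ = 0 := by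
  unfold Bf
  rw [Finset.sum_eq_zero, mul_zero]
  intro n _
  exact classInner_irr_ne h₁ (irr_comp_cj h₂ n) (h n)

theorem card_mem_eq : Nat.card {n : normalizer (C : Set G) // (n : G) ∈ C} = Nat.card C :=
  Nat.card_congr (subgroupOfEquivOfLe (le_normalizer (H := C))).toEquiv

theorem Bf_self_eq_one {ζ : C → ℂ} (h : IsIrrCharacter C ζ)
    (hst : ∀ n : normalizer (C : Set G), ζ ∘ cj n = ζ → (n : G) ∈ C) : Bf ζ ζ = 1 := by
  classical
  unfold Bf
  have h1 : ∀ n : normalizer (C : Set G),
      classInner ζ (ζ ∘ cj n) = if (n : G) ∈ C then 1 else 0 := by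
    intro n
    split_ifs with hn
    · rw [comp_cj_of_mem (IsIrrCharacter.isClassFunction h) n hn, classInner_irr_self h]
    · exact classInner_irr_ne h (irr_comp_cj h n) (fun h' => hn (hst n h'.symm))
  rw [Finset.sum_congr rfl fun n _ => h1 n, Finset.sum_boole, ← Fintype.card_subtype,
    ← Nat.card_eq_fintype_card, card_mem_eq]
  exact inv_mul_cancel₀ (card_ne_zero C)

/-- the index of `C` in its normalizer. -/
noncomputable def eIdx (C : Subgroup G) : ℕ := (C.subgroupOf (normalizer (C : Set G))).index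

theorem card_normalizer_eq : Nat.card (normalizer (C : Set G)) = Nat.card C * eIdx C := by
  unfold eIdx
  rw [← card_mul_index (C.subgroupOf (normalizer (C : Set G)))]
  congr 1
  exact (Nat.card_congr (subgroupOfEquivOfLe (le_normalizer (H := C))).toEquiv)

theorem Bf_one_one : Bf (fun _ : C => (1 : ℂ)) (fun _ : C => (1 : ℂ)) = (eIdx C : ℂ) := by
  unfold Bf
  have h1 : ∀ n : normalizer (C : Set G),
      classInner (fun _ : C => (1 : ℂ)) ((fun _ : C => (1 : ℂ)) ∘ cj n) = 1 := by
    intro n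
    exact classInner_irr_self Cfsg.Agent.Lib.Helper83Char.isIrr_one
  rw [Finset.sum_congr rfl fun n _ => h1 n, Finset.sum_const, Finset.card_univ, nsmul_eq_mul,
    mul_one, ← Nat.card_eq_fintype_card, card_normalizer_eq]
  push_cast
  rw [← mul_assoc, inv_mul_cancel₀ (card_ne_zero C), one_mul]

/-- restriction of a class function of `G` to `C` is invariant under the normalizer. -/
theorem classInner_res_comp_cj {ψ : G → ℂ} (hψ : IsClassFunction G ψ) (ζ : C → ℂ)
    (n : normalizer (C : Set G)) :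
    classInner (fun c : C => ψ c) (ζ ∘ cj n) = classInner (fun c : C => ψ c) ζ := by
  unfold classInner
  congr 1
  rw [← Equiv.sum_comp (cj n).toEquiv (fun c : C => ψ c * conj (ζ c))]
  refine Finset.sum_congr rfl fun c _ => ?_
  have : ψ ((cj n c : C) : G) = ψ c := by rw [cj_coe, hψ]
  simp only [MulEquiv.toEquiv_eq_coe, EquivLike.coe_coe, Function.comp_apply, this]

end Cfsg.Agent.Lib.Helper4TI2
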