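import Cfsg.Agent.Lib.Helper4TI4

set_option autoImplicit false
set_option linter.unusedSectionVars false
set_option linter.unusedSimpArgs false

/-!
# Exceptional characters: the basic norm computations
-/

namespace Cfsg.Agent.Lib.Helper4TI5

open Subgroup Cfsg Cfsg.Agent.Lib.Helper4TI1 Cfsg.Agent.Lib.Helper4TI2 Cfsg.Agent.Lib.Helper4TI3
  Cfsg.Agent.Lib.Helper4TI4
  Cfsg.Agent.Lib.Helper4Char Cfsg.Agent.Lib.Helper4Char2 Cfsg.Agent.Lib.Helper4Char4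
  Cfsg.Agent.Lib.Helper19Lin Cfsg.Agent.Lib.Helper32Virt
open scoped ComplexConjugate

variable {G : Type*} [Group G] {p : ℕ} {P C : Subgroup G}

/-- conjugacy of functions on `C` under the normalizer. -/
def Cnj (ζ₁ ζ₂ : C → ℂ) : Prop := ∃ n : normalizer (C : Set G), ζ₁ = ζ₂ ∘ cj n

theorem Cnj.symm {ζ₁ ζ₂ : C → ℂ} (h : Cnj ζ₁ ζ₂) : Cnj ζ₂ ζ₁ := by
  obtain ⟨n, hn⟩ := h
  exact ⟨n⁻¹, eq_comp_cj_symm hn⟩

/-- an irreducible character of `C` with a nonprincipal weight. -/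
structure NT (D : TIData p P C) (ζ : C → ℂ) (ν : P →* ℂˣ) : Prop where
  irr : IsIrrCharacter C ζ
  wt : HasWt D ζ ν
  ne : ν ≠ 1

variable [Fintype G] [Fintype C] [Fintype P]
  [Fintype (normalizer (C : Set G))] [Fintype (P →* ℂˣ)] [DecidableEq (P →* ℂˣ)]

theorem Cnj.pres {ζ₁ ζ₂ : C → ℂ} (h : Cnj ζ₁ ζ₂) {ψ : G → ℂ} (hψ : IsClassFunction G ψ) :
    classInner (fun c : C => ψ c) ζ₁ = classInner (fun c : C => ψ c) ζ₂ := by
  obtain ⟨n, rfl⟩ := h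
  exact classInner_res_comp_cj hψ ζ₂ n

theorem Cnj.wt_mem {D : TIData p P C} {ζ₁ ζ₂ : C → ℂ} (h : Cnj ζ₁ ζ₂) {ν₁ ν₂ : P →* ℂˣ}
    (w₁ : HasWt D ζ₁ ν₁) (w₂ : HasWt D ζ₂ ν₂) (h1 : ζ₁ 1 ≠ 0) : ν₁ ∈ orb D ν₂ := by
  obtain ⟨n, rfl⟩ := h
  exact (mem_orb D ν₂ ν₁).mpr ⟨n, (w₂.comp_cj n).unique w₁ h1⟩

theorem Bf_zero {ζ₁ ζ₂ : C → ℂ} (h₁ : IsIrrCharacter C ζ₁) (h₂ : IsIrrCharacter C ζ₂)
    (h : ¬ Cnj ζ₁ ζ₂) : Bf ζ₁ ζ₂ = 0 :=
  Bf_eq_zero h₁ h₂ fun n hn => h ⟨n, hn⟩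

theorem NT.Bf_self {D : TIData p P C} {ζ : C → ℂ} {ν : P →* ℂˣ} (h : NT D ζ ν) : Bf ζ ζ = 1 :=
  Bf_self_eq_one h.irr (mem_of_comp_cj_eq D h.irr h.wt h.ne)

theorem not_dvd_orderOf_one (D : TIData p P C) : ¬ p ∣ orderOf (((1 : C) : C) : G) := by
  rw [Subgroup.coe_one, orderOf_one, Nat.dvd_one]
  exact D.one_lt.ne'

theorem gen_ind {α : C → ℂ} (h : IsGeneralizedCharacter C α) :
    IsGeneralizedCharacter G (indFun C α) := by
  obtain ⟨a, b, ha, hb, rfl⟩ := h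
  rw [indFun_sub']
  exact gen_sub (gen_of_char (Cfsg.Agent.S0148.result C a ha))
    (gen_of_char (Cfsg.Agent.S0148.result C b hb))

theorem ind_one_eq_zero {α : C → ℂ} (h : α 1 = 0) : indFun C α 1 = 0 := by
  rw [Cfsg.Agent.Lib.Helper5Ker.indFun_one, h, mul_zero]

/-- Frobenius reciprocity in the form used below. -/
theorem inner_ind_irr (α : C → ℂ) {ψ : G → ℂ} (hψ : IsClassFunction G ψ) :
    classInner (indFun C α) ψ = conj (classInner (fun c : C => ψ c) α) := by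
  rw [Cfsg.Agent.Lib.Helper32Ind.frobenius C α ψ hψ, classInner_conj_symm]

theorem K1 (D : TIData p P C) (ψ : IrrCharacter G) {ζ₁ ζ₂ : C → ℂ} {ν₁ ν₂ : P →* ℂˣ}
    (h₁ : NT D ζ₁ ν₁) (h₂ : NT D ζ₂ ν₂)
    (hreg : ∀ c : C, ¬ p ∣ orderOf (c : G) → ζ₁ c = ζ₂ c)
    (hm₁ : classInner (fun c : C => (ψ : G → ℂ) c) ζ₁ ≠ 0)
    (hm₂ : classInner (fun c : C => (ψ : G → ℂ) c) ζ₂ = 0) :
    ∃ Λ : IrrCharacter G, Λ ≠ ψ ∧ indFun C (ζ₁ - ζ₂) = (ψ : G → ℂ) - Λ := by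
  have hψc := IsIrrCharacter.isClassFunction ψ.2
  have hnc : ¬ Cnj ζ₁ ζ₂ := fun h => hm₁ ((h.pres hψc).trans hm₂)
  have hnc' : ¬ Cnj ζ₂ ζ₁ := fun h => hnc h.symm
  obtain ⟨k, hk⟩ := IsCharacter.classInner_nat
    (IsCharacter.restrict C (IsIrrCharacter.isCharacter ψ.2)) (IsIrrCharacter.isCharacter h₁.irr)
  apply norm_two (gen_ind (gen_sub (gen_of_irr h₁.irr) (gen_of_irr h₂.irr))) ?_ ?_ ψ k ?_ ?_
  · rw [classInner_ind_ind D _ _ (fun c hc => by rw [Pi.sub_apply, hreg c hc, sub_self])]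
    rw [Bf_sub_left, Bf_sub_right, Bf_sub_right, h₁.Bf_self, h₂.Bf_self,
      Bf_zero h₁.irr h₂.irr hnc, Bf_zero h₂.irr h₁.irr hnc']
    norm_num
  · apply ind_one_eq_zero
    rw [Pi.sub_apply, hreg 1 (not_dvd_orderOf_one D), sub_self]
  · intro h0
    apply hm₁
    rw [hk, h0]; simp
  · rw [inner_ind_irr _ hψc, classInner_sub_right, hm₂, hk]
    simp

theorem K2 (D : TIData p P C) (ψ : IrrCharacter G) {ζ₁ ζ₂ ζ₃ ζ₄ : C → ℂ}
    {ν₁ ν₂ ν₃ ν₄ : P →* ℂˣ}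
    (h₁ : NT D ζ₁ ν₁) (h₂ : NT D ζ₂ ν₂) (h₃ : NT D ζ₃ ν₃) (h₄ : NT D ζ₄ ν₄)
    (hreg₁ : ∀ c : C, ¬ p ∣ orderOf (c : G) → ζ₁ c = ζ₃ c)
    (hreg₂ : ∀ c : C, ¬ p ∣ orderOf (c : G) → ζ₂ c = ζ₄ c)
    (hm₁ : classInner (fun c : C => (ψ : G → ℂ) c) ζ₁ ≠ 0)
    (hm₂ : classInner (fun c : C => (ψ : G → ℂ) c) ζ₂ ≠ 0)
    (hm₃ : classInner (fun c : C => (ψ : G → ℂ) c) ζ₃ = 0)
    (hm₄ : classInner (fun c : C => (ψ : G → ℂ) c) ζ₄ = 0)
    (h12 : ¬ Cnj ζ₁ ζ₂) (h34 : ¬ Cnj ζ₃ ζ₄) : False := by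
  have hψc := IsIrrCharacter.isClassFunction ψ.2
  have h21 : ¬ Cnj ζ₂ ζ₁ := fun h => h12 h.symm
  have h43 : ¬ Cnj ζ₄ ζ₃ := fun h => h34 h.symm
  have h13 : ¬ Cnj ζ₁ ζ₃ := fun h => hm₁ ((h.pres hψc).trans hm₃)
  have h31 : ¬ Cnj ζ₃ ζ₁ := fun h => h13 h.symm
  have h14 : ¬ Cnj ζ₁ ζ₄ := fun h => hm₁ ((h.pres hψc).trans hm₄)
  have h41 : ¬ Cnj ζ₄ ζ₁ := fun h => h14 h.symm
  have h23 : ¬ Cnj ζ₂ ζ₃ := fun h => hm₂ ((h.pres hψc).trans hm₃)
  have h32 : ¬ Cnj ζ₃ ζ₂ := fun h => h23 h.symm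
  have h24 : ¬ Cnj ζ₂ ζ₄ := fun h => hm₂ ((h.pres hψc).trans hm₄)
  have h42 : ¬ Cnj ζ₄ ζ₂ := fun h => h24 h.symm
  obtain ⟨k₁, hk₁⟩ := IsCharacter.classInner_nat
    (IsCharacter.restrict C (IsIrrCharacter.isCharacter ψ.2)) (IsIrrCharacter.isCharacter h₁.irr)
  obtain ⟨k₂, hk₂⟩ := IsCharacter.classInner_nat
    (IsCharacter.restrict C (IsIrrCharacter.isCharacter ψ.2)) (IsIrrCharacter.isCharacter h₂.irr)
  have hk₁0 : k₁ ≠ 0 := by
    intro h0; apply hm₁; rw [hk₁, h0]; simp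
  have hk₂0 : k₂ ≠ 0 := by
    intro h0; apply hm₂; rw [hk₂, h0]; simp
  apply norm_four (Θ := indFun C ((ζ₁ - ζ₃) + (ζ₂ - ζ₄)))
    (gen_ind (gen_add (gen_sub (gen_of_irr h₁.irr) (gen_of_irr h₃.irr))
      (gen_sub (gen_of_irr h₂.irr) (gen_of_irr h₄.irr)))) ?_ ?_ ψ (k₁ + k₂) (by omega) ?_
  · rw [classInner_ind_ind D _ _ (fun c hc => by
      rw [Pi.add_apply, Pi.sub_apply, Pi.sub_apply, hreg₁ c hc, hreg₂ c hc, sub_self, sub_self,
        add_zero])]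
    simp only [Bf_add_left, Bf_add_right, Bf_sub_left, Bf_sub_right, h₁.Bf_self, h₂.Bf_self,
      h₃.Bf_self, h₄.Bf_self, Bf_zero h₁.irr h₂.irr h12, Bf_zero h₂.irr h₁.irr h21,
      Bf_zero h₃.irr h₄.irr h34, Bf_zero h₄.irr h₃.irr h43, Bf_zero h₁.irr h₃.irr h13,
      Bf_zero h₃.irr h₁.irr h31, Bf_zero h₁.irr h₄.irr h14, Bf_zero h₄.irr h₁.irr h41,
      Bf_zero h₂.irr h₃.irr h23, Bf_zero h₃.irr h₂.irr h32, Bf_zero h₂.irr h₄.irr h24,
      Bf_zero h₄.irr h₂.irr h42]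
    norm_num
  · apply ind_one_eq_zero
    rw [Pi.add_apply, Pi.sub_apply, Pi.sub_apply, hreg₁ 1 (not_dvd_orderOf_one D),
      hreg₂ 1 (not_dvd_orderOf_one D), sub_self, sub_self, add_zero]
  · rw [inner_ind_irr _ hψc, classInner_add_right, classInner_sub_right, classInner_sub_right,
      hm₃, hm₄, hk₁, hk₂]
    simp

/-- the set of weights of `χ χ̄`. -/
noncomputable def wts (P : Subgroup G) [Fintype P] [Fintype (P →* ℂˣ)] (R : G → ℂ) :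
    Finset (P →* ℂˣ) :=
  open scoped Classical in
  Finset.univ.filter (fun ν => classInner (fun u : P => R u) (homFun ν) ≠ 0)

theorem mem_wts (R : G → ℂ) (ν : P →* ℂˣ) :
    ν ∈ wts P R ↔ classInner (fun u : P => R u) (homFun ν) ≠ 0 := by
  simp [wts]

theorem card_wts_le (D : TIData p P C) {χ : G → ℂ} (hχ : IsCharacter G χ) (x : ℕ)
    (hx : χ 1 = x) : (wts P (fun g => χ g * conj (χ g))).card + x ≤ x ^ 2 + 1 := by
  classical
  set R : G → ℂ := fun g => χ g * conj (χ g) with hR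
  have hRc : IsCharacter G R := IsCharacter.mul hχ (IsCharacter.conj hχ)
  have hcomm := comm_P D
  choose a ha using fun ν : P →* ℂˣ => IsCharacter.classInner_nat (IsCharacter.restrict P hRc)
    (IsIrrCharacter.isCharacter (isIrr_homFun ν))
  have hsum : ∑ ν : P →* ℂˣ, a ν = x ^ 2 := by
    have h1 := sum_classInner_hom hcomm (fun u : P => R u)
    simp only [ha] at h1
    have h2 : R ((1 : P) : G) = (x : ℂ) ^ 2 := by
      simp only [hR, Subgroup.coe_one, hx, Complex.conj_natCast]; ring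
    rw [h2] at h1
    exact_mod_cast h1
  have : IsMulCommutative P := ⟨⟨hcomm⟩⟩
  obtain ⟨N, m0, hN, hm0, hle, -, -⟩ :=
    Cfsg.Agent.Lib.Helper44Ab.abelian_char_numerics (fun u : P => χ u) (IsCharacter.restrict P hχ)
  have hm0x : m0 = x := by
    have : (m0 : ℂ) = x := by rw [← hm0, ← hx]; rfl
    exact_mod_cast this
  have ha1 : a 1 = N := by
    have h1 : classInner (fun u : P => R u) (homFun 1) =
        classInner (fun u : P => χ u) (fun u : P => χ u) := by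
      unfold classInner
      congr 1
      refine Finset.sum_congr rfl fun u _ => ?_
      simp [hR, homFun_apply]
    rw [ha, hN] at h1
    exact_mod_cast h1
  have h1 : ((wts P R).erase 1).card ≤ ∑ ν ∈ (wts P R).erase 1, a ν := by
    have := Finset.card_nsmul_le_sum ((wts P R).erase 1) a 1 (by
      intro ν hν
      have h2 := (mem_wts R ν).mp (Finset.mem_of_mem_erase hν)
      rw [ha] at h2
      have : a ν ≠ 0 := by
        intro h0; apply h2; rw [h0]; simp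
      omega)
    simpa using this
  have h2 : ∑ ν ∈ (wts P R).erase 1, a ν ≤ ∑ ν ∈ Finset.univ.erase 1, a ν :=
    Finset.sum_le_sum_of_subset (Finset.erase_subset_erase _ (Finset.subset_univ _))
  have h3 := Finset.add_sum_erase Finset.univ a (Finset.mem_univ (1 : P →* ℂˣ))
  have h4 := Finset.pred_card_le_card_erase (s := wts P R) (a := (1 : P →* ℂˣ))
  rw [hsum, ha1] at h3
  omega

theorem eIdx_le (D : TIData p P C) {χ : G → ℂ} (hχ : IsCharacter G χ) (x : ℕ)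
    (hx : χ 1 = x) {ν₁ : P →* ℂˣ} (hν₁ : ν₁ ≠ 1)
    (h : classInner (fun u : P => χ u) (homFun ν₁) ≠ 0) : eIdx C ≤ x := by
  classical
  have hcomm := comm_P D
  choose a ha using fun ν : P →* ℂˣ => IsCharacter.classInner_nat (IsCharacter.restrict P hχ)
    (IsIrrCharacter.isCharacter (isIrr_homFun ν))
  have hsum : ∑ ν : P →* ℂˣ, a ν = x := by
    have h1 := sum_classInner_hom hcomm (fun u : P => χ u)
    simp only [ha] at h1
    have h2 : χ ((1 : P) : G) = (x : ℂ) := by rw [Subgroup.coe_one, hx]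
    rw [h2] at h1
    exact_mod_cast h1
  have h1 : (orb D ν₁).card ≤ ∑ ν ∈ orb D ν₁, a ν := by
    have := Finset.card_nsmul_le_sum (orb D ν₁) a 1 (by
      intro ν hν
      obtain ⟨n, rfl⟩ := (mem_orb D ν₁ ν).mp hν
      have h2 := classInner_res_act D (IsCharacter.isClassFunction hχ) n ν₁
      rw [ha, ha] at h2
      have h3 : a (act D n ν₁) = a ν₁ := by exact_mod_cast h2
      have h4 : a ν₁ ≠ 0 := by
        intro h0; apply h; rw [ha, h0]; simp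
      omega)
    simpa using this
  have h2 : ∑ ν ∈ orb D ν₁, a ν ≤ ∑ ν : P →* ℂˣ, a ν :=
    Finset.sum_le_sum_of_subset (Finset.subset_univ _)
  have h3 := le_card_orb D hν₁
  omega

theorem exists_wt_of_sq (D : TIData p P C) (χ : G → ℂ) {ν' : P →* ℂˣ} (hν' : ν' ≠ 1)
    (h : classInner (fun u : P => χ u * conj (χ u)) (homFun ν') ≠ 0) :
    ∃ ν₁ : P →* ℂˣ, ν₁ ≠ 1 ∧ classInner (fun u : P => χ u) (homFun ν₁) ≠ 0 := by
  classical
  by_contra hcon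
  push Not at hcon
  apply h
  have hcomm := comm_P D
  have h1 : ∀ u : P, χ u = classInner (fun u : P => χ u) (homFun 1) := by
    intro u
    have h2 := fourier hcomm (fun u : P => χ u) u
    rw [Finset.sum_eq_single 1] at h2
    · simpa using h2
    · intro ν _ hν
      rw [hcon ν hν, zero_mul]
    · intro h; exact absurd (Finset.mem_univ _) h
  set r := classInner (fun u : P => χ u) (homFun 1) with hr
  have h2 : (fun u : P => χ u * conj (χ u)) = (r * conj r) • homFun (1 : P →* ℂˣ) := by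
    funext u
    rw [h1 u]; simp [homFun_apply]
  rw [h2, classInner_smul_left, classInner_irr_ne (isIrr_homFun 1) (isIrr_homFun ν'), mul_zero]
  intro h3
  exact hν' (homFun_injective h3).symm

end Cfsg.Agent.Lib.Helper4TI5
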