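import Cfsg.Agent.Lib.Helper4TI6
import Cfsg.Agent.Lib.Helper4Eigen

set_option autoImplicit false
set_option linter.unusedSectionVars false
set_option linter.unusedSimpArgs false

/-!
# Small degree forces the normal closure of the Sylow subgroup to act commutatively
-/

namespace Cfsg.Agent.Lib.Helper4TI7

open Subgroup Cfsg Cfsg.Agent.Lib.Helper4TI1 Cfsg.Agent.Lib.Helper4TI6
  Cfsg.Agent.Lib.Helper4Char Cfsg.Agent.Lib.Helper4Char2 Cfsg.Agent.Lib.Helper4Char4
  Cfsg.Agent.Lib.Helper4Eigen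
open scoped ComplexConjugate
open Module

variable {G : Type*} [Group G]

section Rep

variable {W : Type*} [AddCommGroup W] [Module ℂ W]

/-- the subgroup fixing a vector. -/
def fixer (σ : Representation ℂ G W) (v : W) : Subgroup G where
  carrier := {g | σ g v = v}
  one_mem' := by simp
  mul_mem' := by
    intro a b ha hb
    simp only [Set.mem_ofPred_eq] at ha hb ⊢
    rw [map_mul, Module.End.mul_apply, hb, ha]
  inv_mem' := by
    intro a ha
    simp only [Set.mem_ofPred_eq] at ha ⊢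
    conv_lhs => rw [← ha]
    rw [← Module.End.mul_apply, ← map_mul, inv_mul_cancel, map_one, Module.End.one_apply]

theorem mem_fixer (σ : Representation ℂ G W) (v : W) (g : G) : g ∈ fixer σ v ↔ σ g v = v :=
  Iff.rfl

/-- the invariants of a subgroup. -/
noncomputable abbrev inv (σ : Representation ℂ G W) (H : Subgroup G) : Submodule ℂ W :=
  Representation.invariants (σ.comp H.subtype)

theorem mem_inv (σ : Representation ℂ G W) (H : Subgroup G) (v : W) :
    v ∈ inv σ H ↔ ∀ h ∈ H, σ h v = v := by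
  rw [Representation.mem_invariants]
  exact ⟨fun h g hg => h ⟨g, hg⟩, fun h g => h g g.2⟩

theorem inv_anti (σ : Representation ℂ G W) {H K : Subgroup G} (h : H ≤ K) :
    inv σ K ≤ inv σ H := by
  intro v hv
  rw [mem_inv] at hv ⊢
  exact fun g hg => hv g (h hg)

theorem inv_sup (σ : Representation ℂ G W) (L H : Subgroup G) (hL : ∀ l ∈ L, σ l = 1) :
    inv σ (L ⊔ H) = inv σ H := by
  apply le_antisymm (inv_anti σ le_sup_right)
  intro v hv
  rw [mem_inv] at hv ⊢
  have h1 : L ⊔ H ≤ fixer σ v := by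
    apply sup_le
    · intro l hl
      rw [mem_fixer, hL l hl, Module.End.one_apply]
    · intro h hh
      exact hv h hh
  exact fun g hg => h1 hg

theorem classInner_res_one [FiniteDimensional ℂ W] (σ : Representation ℂ G W) (H : Subgroup G)
    [Fintype H] :
    classInner (fun h : H => σ.character h) (fun _ => 1) = (finrank ℂ (inv σ H) : ℂ) := by
  have : Invertible (Nat.card H : ℂ) := invertibleOfNonzero card_ne_zero
  rw [← Representation.card_inv_mul_sum_char_eq_finrank (σ.comp H.subtype)]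
  unfold classInner
  congr 1
  refine Finset.sum_congr rfl fun h _ => ?_
  simp [Representation.character]

end Rep

section Comm

variable {V : Type*} [AddCommGroup V] [Module ℂ V]

/-- the elements whose image commutes with the image of `L`. -/
def commer (ρ : Representation ℂ G V) (L : Subgroup G) : Subgroup G where
  carrier := {y | ∀ l ∈ L, ρ y * ρ l = ρ l * ρ y}
  one_mem' := by intro l _; simp
  mul_mem' := by
    intro a b ha hb l hl
    rw [map_mul, mul_assoc, hb l hl, ← mul_assoc, ha l hl, mul_assoc]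
  inv_mem' := by
    intro a ha l hl
    have h1 : ρ a⁻¹ * ρ a = 1 := by rw [← map_mul, inv_mul_cancel, map_one]
    have h2 : ρ a * ρ a⁻¹ = 1 := by rw [← map_mul, mul_inv_cancel, map_one]
    calc ρ a⁻¹ * ρ l = ρ a⁻¹ * (ρ l * ρ a) * ρ a⁻¹ := by
          rw [mul_assoc, mul_assoc, h2, mul_one]
      _ = ρ a⁻¹ * (ρ a * ρ l) * ρ a⁻¹ := by rw [ha l hl]
      _ = ρ l * ρ a⁻¹ := by rw [← mul_assoc, h1, one_mul]

theorem mem_commer (ρ : Representation ℂ G V) (L : Subgroup G) (y : G) :
    y ∈ commer ρ L ↔ ∀ l ∈ L, ρ y * ρ l = ρ l * ρ y := Iff.rfl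

theorem commer_normal (ρ : Representation ℂ G V) (L : Subgroup G) [hL : L.Normal] :
    (commer ρ L).Normal := by
  constructor
  intro y hy g l hl
  have h1 := hy (g⁻¹ * l * g) (by
    have := hL.conj_mem l hl g⁻¹
    simpa using this)
  have h2 : ρ l = ρ g * ρ (g⁻¹ * l * g) * ρ g⁻¹ := by
    rw [← map_mul, ← map_mul]; congr 1; group
  have h3 : ρ g⁻¹ * ρ g = 1 := by rw [← map_mul, inv_mul_cancel, map_one]
  rw [h2, map_mul, map_mul]
  calc ρ g * ρ y * ρ g⁻¹ * (ρ g * ρ (g⁻¹ * l * g) * ρ g⁻¹)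
      = ρ g * (ρ y * (ρ g⁻¹ * ρ g) * ρ (g⁻¹ * l * g)) * ρ g⁻¹ := by simp only [mul_assoc]
    _ = ρ g * (ρ (g⁻¹ * l * g) * ρ y) * ρ g⁻¹ := by rw [h3, mul_one, h1]
    _ = ρ g * (ρ (g⁻¹ * l * g) * (ρ g⁻¹ * ρ g) * ρ y) * ρ g⁻¹ := by rw [h3, mul_one]
    _ = ρ g * ρ (g⁻¹ * l * g) * ρ g⁻¹ * (ρ g * ρ y * ρ g⁻¹) := by simp only [mul_assoc]

end Comm

variable [Fintype G] {p : ℕ} {P C : Subgroup G}

theorem core (D : TIData p P C) {χ : G → ℂ} (hχ : IsCharacter G χ) (x : ℕ) (hx : χ 1 = x)
    (hq : x ^ 2 + 1 < Nat.card P) (a b : G) (ha : a ∈ normalClosure (P : Set G))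
    (hb : b ∈ normalClosure (P : Set G)) : χ (a * b * a⁻¹ * b⁻¹) = χ 1 := by
  classical
  let _ := Fintype.ofFinite (P →* ℂˣ)
  set L := normalClosure (P : Set G) with hL
  set R : G → ℂ := fun g => χ g * conj (χ g) with hR
  have hRc : IsCharacter G R := IsCharacter.mul hχ (IsCharacter.conj hχ)
  obtain ⟨n, ρ, hρ⟩ := id hχ
  set τ := Representation.linHom ρ ρ with hτ
  have hτR : τ.character = R := by
    funext g
    rw [hτ, Representation.char_linHom, hρ, IsCharacter.apply_inv hχ, hR]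
    ring
  obtain ⟨m, hm1, hm2⟩ := IsCharacter.eq_sum_nat hRc
  have hsum : ∀ (H : Subgroup G), classInner (fun h : H => R h) (fun _ => 1) =
      ∑ ψ : IrrCharacter G, (m ψ : ℂ) * classInner (fun h : H => (ψ : G → ℂ) h) (fun _ => 1) := by
    intro H
    have h1 : (fun h : H => R h) =
        ∑ ψ : IrrCharacter G, (m ψ : ℂ) • (fun h : H => (ψ : G → ℂ) h) := by
      funext h
      conv_lhs => rw [hm1]
      simp [Finset.sum_apply]
    rw [h1, classInner_sum_left]
    exact Finset.sum_congr rfl fun ψ _ => classInner_smul_left _ _ _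
  have hψ : ∀ ψ : IrrCharacter G, ∃ aC aJ : ℕ,
      classInner (fun h : C => (ψ : G → ℂ) h) (fun _ => 1) = aC ∧
      classInner (fun h : (L ⊔ C : Subgroup G) => (ψ : G → ℂ) h) (fun _ => 1) = aJ ∧
      (m ψ ≠ 0 → aC ≤ aJ) := by
    intro ψ
    obtain ⟨k, σ, hirr, hσ⟩ := ψ.2
    refine ⟨finrank ℂ (inv σ C), finrank ℂ (inv σ (L ⊔ C)), ?_, ?_, ?_⟩
    · rw [← hσ]; exact classInner_res_one σ C
    · rw [← hσ]; exact classInner_res_one σ (L ⊔ C)
    · intro hmψ
      by_cases h0 : finrank ℂ (inv σ C) = 0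
      · rw [h0]; exact Nat.zero_le _
      · have hf : classInner (fun c : C => (ψ : G → ℂ) c) (fun _ => 1) ≠ 0 := by
          rw [← hσ, classInner_res_one σ C]
          exact_mod_cast h0
        have hψR : classInner R ψ ≠ 0 := by
          rw [hm2]; exact_mod_cast hmψ
        have hker := key D hχ x hx hq ψ hψR hf
        have hPker : (P : Set G) ⊆ (σ.ker : Subgroup G) := by
          intro u hu
          have h1 := hker u hu
          rw [← hσ, Representation.char_one, char_eq_finrank_iff] at h1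
          exact h1
        have hLker : L ≤ σ.ker := normalClosure_le_normal hPker
        rw [inv_sup σ L C (fun l hl => hLker hl)]
  choose aC aJ haC haJ hle using hψ
  have hfin : finrank ℂ (inv τ C) ≤ finrank ℂ (inv τ (L ⊔ C)) := by
    have h1 := classInner_res_one τ C
    have h2 := classInner_res_one τ (L ⊔ C)
    rw [hτR] at h1 h2
    rw [hsum C] at h1
    rw [hsum (L ⊔ C)] at h2
    simp only [haC] at h1
    simp only [haJ] at h2
    have h1' : ∑ ψ : IrrCharacter G, m ψ * aC ψ = finrank ℂ (inv τ C) := by exact_mod_cast h1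
    have h2' : ∑ ψ : IrrCharacter G, m ψ * aJ ψ = finrank ℂ (inv τ (L ⊔ C)) := by
      exact_mod_cast h2
    rw [← h1', ← h2']
    apply Finset.sum_le_sum
    intro ψ _
    by_cases h0 : m ψ = 0
    · rw [h0]; simp
    · exact Nat.mul_le_mul_left _ (hle ψ h0)
  have heq : inv τ (L ⊔ C) = inv τ C :=
    Submodule.eq_of_le_of_finrank_le (inv_anti τ le_sup_right) hfin
  have hPc : (P : Set G) ⊆ (commer ρ L : Subgroup G) := by
    intro u hu
    have h1 : ρ u ∈ inv τ C := by
      rw [mem_inv]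
      intro c hc
      rw [hτ, Representation.linHom_apply]
      change ρ c * (ρ u * ρ c⁻¹) = ρ u
      rw [← map_mul, ← map_mul, D.central u hu c⁻¹ (C.inv_mem hc), mul_inv_cancel_left]
    rw [← heq, mem_inv] at h1
    intro l hl
    have h2 := h1 l (le_sup_left (a := L) (b := C) hl)
    rw [hτ, Representation.linHom_apply] at h2
    have h3 : ρ l * (ρ u * ρ l⁻¹) = ρ u := h2
    have h4 : ρ l⁻¹ * ρ l = 1 := by rw [← map_mul, inv_mul_cancel, map_one]
    calc ρ u * ρ l = ρ l * (ρ u * ρ l⁻¹) * ρ l := by rw [h3]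
      _ = ρ l * ρ u := by rw [mul_assoc, mul_assoc, h4, mul_one]
  have := commer_normal ρ L
  have hLc : L ≤ commer ρ L := normalClosure_le_normal hPc
  have hab := hLc ha b hb
  have h1 : ρ (a * b * a⁻¹ * b⁻¹) = ρ 1 := by
    rw [map_mul, map_mul, map_mul, hab, mul_assoc (ρ b), ← map_mul ρ a, mul_inv_cancel, map_one,
      mul_one, ← map_mul, mul_inv_cancel, map_one]
  rw [← hρ]
  unfold Representation.character
  rw [h1]

end Cfsg.Agent.Lib.Helper4TI7
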