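import Mathlib
import Cfsg.Agent.Lib.Helper23CA0
import Cfsg.Agent.Lib.Helper6SL

set_option autoImplicit false

namespace Cfsg.Agent.Lib.Helper50CAM10

open Subgroup Matrix Cfsg.Agent.Lib.Helper23CE Cfsg.Agent.Lib.Helper23CA

variable {F : Type*} [Field F]

theorem EN_commutator (N i k j : ℕ) (hi : i < N) (hk : k < N) (hj : j < N) (hij : i ≠ j) (hik : i ≠ k)
    (hkj : k ≠ j) (a b : F) :
    EN N i k a * EN N k j b * (EN N i k a)⁻¹ * (EN N k j b)⁻¹ = EN N i j (a * b) := by
  unfold EN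
  rw [dif_pos ⟨hi, hk, hik⟩, dif_pos ⟨hk, hj, hkj⟩, dif_pos ⟨hi, hj, hij⟩]
  rw [← Cfsg.Agent.Lib.Helper6SL.commutator_transvection (i := (⟨i, hi⟩ : Fin N)) (j := ⟨j, hj⟩)
    (k := ⟨k, hk⟩) (fun e => hij (congrArg Fin.val e)) (fun e => hik (congrArg Fin.val e))
    (fun e => hkj (congrArg Fin.val e)) a b, commutatorElement_def]

/-- M10.  `EN a b t` for `a < b` by induction on `b - a`: `E_{a,b+1}(t) = [E_{a,b}(t), E_{b,b+1}(1)]`; same for `a > b`. -/
theorem gen_simple (N : ℕ) (a b : ℕ) (t : F) :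
    EN N a b t ∈ closure {x : SL N F | ∃ i t, x = EN N i (i + 1) t ∨ x = EN N (i + 1) i t} := by
  set K := closure {x : SL N F | ∃ i t, x = EN N i (i + 1) t ∨ x = EN N (i + 1) i t} with hK
  have hU : ∀ (d a : ℕ) (t : F), a + d + 1 < N → EN N a (a + d + 1) t ∈ K := by
    intro d
    induction d with
    | zero =>
      intro a t _
      exact subset_closure ⟨a, t, Or.inl rfl⟩
    | succ d ih =>
      intro a t h
      have h1 := EN_commutator N a (a + d + 1) (a + (d + 1) + 1) (by omega) (by omega) h (by omega)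
        (by omega) (by omega) t (1 : F)
      rw [mul_one] at h1
      rw [← h1]
      have h2 := ih a t (by omega)
      have h3 : EN N (a + d + 1) (a + (d + 1) + 1) (1 : F) ∈ K :=
        subset_closure ⟨a + d + 1, 1, Or.inl rfl⟩
      exact K.mul_mem (K.mul_mem (K.mul_mem h2 h3) (K.inv_mem h2)) (K.inv_mem h3)
  have hL : ∀ (d a : ℕ) (t : F), a + d + 1 < N → EN N (a + d + 1) a t ∈ K := by
    intro d
    induction d with
    | zero =>
      intro a t _
      exact subset_closure ⟨a, t, Or.inr rfl⟩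
    | succ d ih =>
      intro a t h
      have h1 := EN_commutator N (a + (d + 1) + 1) (a + d + 1) a h (by omega) (by omega) (by omega)
        (by omega) (by omega) (1 : F) t
      rw [one_mul] at h1
      rw [← h1]
      have h2 := ih a t (by omega)
      have h3 : EN N (a + (d + 1) + 1) (a + d + 1) (1 : F) ∈ K :=
        subset_closure ⟨a + d + 1, 1, Or.inr rfl⟩
      exact K.mul_mem (K.mul_mem (K.mul_mem h3 h2) (K.inv_mem h3)) (K.inv_mem h2)
  by_cases h : a < N ∧ b < N ∧ a ≠ b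
  · obtain ⟨ha, hb, hab⟩ := h
    rcases Nat.lt_or_gt_of_ne hab with hlt | hgt
    · obtain ⟨d, rfl⟩ : ∃ d, b = a + d + 1 := ⟨b - a - 1, by omega⟩
      exact hU d a t hb
    · obtain ⟨d, rfl⟩ : ∃ d, a = b + d + 1 := ⟨a - b - 1, by omega⟩
      exact hL d b t ha
  · unfold EN
    rw [dif_neg h]
    exact K.one_mem

end Cfsg.Agent.Lib.Helper50CAM10
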