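import Mathlib
import Cfsg.Prelude
import Cfsg.Agent.Lib.Helper50Form

set_option autoImplicit false
open Cfsg
open scoped MatrixGroups Matrix

/-! Gram matrices of the standard forms. (helper50) -/

namespace Cfsg.Agent.Lib.Helper50FormStd

open Cfsg.Agent.Lib.Helper50Form

variable {F : Type*} [Field F] (m : ℕ)

/-- `Σ x_i y_i = vᵀ B v` -/
def BPlus (F : Type*) [Field F] (m : ℕ) : Matrix (Fin m ⊕ Fin m) (Fin m ⊕ Fin m) F :=
  Matrix.fromBlocks 0 1 0 0

def APlus (F : Type*) [Field F] (m : ℕ) : Matrix (Fin m ⊕ Fin m) (Fin m ⊕ Fin m) F :=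
  Matrix.fromBlocks 0 1 1 0

theorem BPlus_add : BPlus F m + (BPlus F m)ᵀ = APlus F m := by
  unfold BPlus APlus
  rw [Matrix.fromBlocks_transpose, Matrix.fromBlocks_add]
  simp

theorem quadFormPlus_eq (v : Fin m ⊕ Fin m → F) : quadFormPlus m F v = v ⬝ᵥ BPlus F m *ᵥ v := by
  unfold quadFormPlus BPlus
  simp [dotProduct, Fintype.sum_sum_type, Matrix.fromBlocks_mulVec]

theorem APlus_transpose : (APlus F m)ᵀ = APlus F m := by
  unfold APlus
  rw [Matrix.fromBlocks_transpose]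
  simp

theorem det_APlus : (APlus F m).det = (-1) ^ m := by
  have h1 : (Matrix.fromBlocks 1 1 0 1 : Matrix (Fin m ⊕ Fin m) (Fin m ⊕ Fin m) F) * APlus F m
      = Matrix.fromBlocks 1 1 1 0 := by
    unfold APlus
    rw [Matrix.fromBlocks_multiply]
    simp
  have h2 := congrArg Matrix.det h1
  rw [Matrix.det_mul, Matrix.det_fromBlocks_zero₂₁, Matrix.det_one, one_mul, one_mul,
    Matrix.det_fromBlocks_one₁₁] at h2
  rw [h2]
  simp [Matrix.det_neg]

/-- odd dimension -/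
def BOdd (F : Type*) [Field F] (m : ℕ) : Matrix (Unit ⊕ (Fin m ⊕ Fin m)) (Unit ⊕ (Fin m ⊕ Fin m)) F :=
  Matrix.fromBlocks 1 0 0 (BPlus F m)

def AOdd (F : Type*) [Field F] (m : ℕ) : Matrix (Unit ⊕ (Fin m ⊕ Fin m)) (Unit ⊕ (Fin m ⊕ Fin m)) F :=
  Matrix.fromBlocks ((2 : F) • (1 : Matrix Unit Unit F)) 0 0 (APlus F m)

theorem BOdd_add : BOdd F m + (BOdd F m)ᵀ = AOdd F m := by
  unfold BOdd AOdd
  rw [Matrix.fromBlocks_transpose, Matrix.fromBlocks_add, BPlus_add]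
  simp [two_smul]

theorem quadFormOdd_eq (v : Unit ⊕ (Fin m ⊕ Fin m) → F) :
    quadFormOdd m F v = v ⬝ᵥ BOdd F m *ᵥ v := by
  unfold quadFormOdd BOdd BPlus
  simp [dotProduct, Fintype.sum_sum_type, Matrix.fromBlocks_mulVec, pow_two]

theorem AOdd_transpose : (AOdd F m)ᵀ = AOdd F m := by
  unfold AOdd
  rw [Matrix.fromBlocks_transpose, APlus_transpose]
  simp

theorem det_AOdd : (AOdd F m).det = 2 * (-1) ^ m := by
  unfold AOdd
  rw [Matrix.det_fromBlocks_zero₂₁, det_APlus, Matrix.det_unique]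
  simp

/-- minus type -/
def BMinus (m : ℕ) (a b : F) :
    Matrix ((Fin m ⊕ Fin m) ⊕ Fin 2) ((Fin m ⊕ Fin m) ⊕ Fin 2) F :=
  Matrix.fromBlocks (BPlus F m) 0 0 !![1, a; 0, b]

def AMinus (m : ℕ) (a b : F) :
    Matrix ((Fin m ⊕ Fin m) ⊕ Fin 2) ((Fin m ⊕ Fin m) ⊕ Fin 2) F :=
  Matrix.fromBlocks (APlus F m) 0 0 !![2, a; a, 2 * b]

theorem BMinus_add (a b : F) : BMinus m a b + (BMinus m a b)ᵀ = AMinus m a b := by
  unfold BMinus AMinus
  rw [Matrix.fromBlocks_transpose, Matrix.fromBlocks_add, BPlus_add]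
  congr 1
  · simp
  · simp
  · ext i j
    fin_cases i <;> fin_cases j <;> simp [one_add_one_eq_two, two_mul]

theorem quadFormMinus_eq (a b : F) (v : (Fin m ⊕ Fin m) ⊕ Fin 2 → F) :
    quadFormMinus m F a b v = v ⬝ᵥ BMinus m a b *ᵥ v := by
  unfold quadFormMinus BMinus BPlus
  simp [dotProduct, Fintype.sum_sum_type, Matrix.fromBlocks_mulVec, pow_two, Fin.sum_univ_two,
    Matrix.cons_mulVec, Matrix.vecHead, Matrix.vecTail]
  ring

theorem AMinus_transpose (a b : F) : (AMinus m a b)ᵀ = AMinus m a b := by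
  unfold AMinus
  rw [Matrix.fromBlocks_transpose, APlus_transpose]
  congr 1
  ext i j
  fin_cases i <;> fin_cases j <;> simp

theorem det_AMinus (a b : F) : (AMinus m a b).det = (-1) ^ m * (4 * b - a ^ 2) := by
  unfold AMinus
  rw [Matrix.det_fromBlocks_zero₂₁, det_APlus, Matrix.det_fin_two_of]
  ring

/-! ### the groups -/

theorem PGO_plus (h2 : (2 : F) ≠ 0) :
    Geo.quadSimilarityGroup (F := F) (quadFormPlus m F) = simT (APlus F m) := by
  rw [quadSim_eq_simT h2 _ _ (quadFormPlus_eq m), BPlus_add]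

theorem PGO_odd (h2 : (2 : F) ≠ 0) :
    Geo.quadSimilarityGroup (F := F) (quadFormOdd m F) = simT (AOdd F m) := by
  rw [quadSim_eq_simT h2 _ _ (quadFormOdd_eq m), BOdd_add]

theorem PGO_minus (h2 : (2 : F) ≠ 0) (a b : F) :
    Geo.quadSimilarityGroup (F := F) (quadFormMinus m F a b) = simT (AMinus m a b) := by
  rw [quadSim_eq_simT h2 _ _ (quadFormMinus_eq m a b), BMinus_add]

theorem GSp_eq : GSp m F = simT (Matrix.J (Fin m) F) :=
  similarity_eq_simT _ _ (fun _ _ => rfl)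

theorem det_J_ne_zero : (Matrix.J (Fin m) F).det ≠ 0 := by
  intro h
  have := Matrix.J_det_mul_J_det (Fin m) F
  rw [h, mul_zero] at this
  exact zero_ne_one this

end Cfsg.Agent.Lib.Helper50FormStd
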