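import Mathlib
import Cfsg.Prelude
import Cfsg.Agent.Lib.Helper50Form
import Cfsg.Agent.Lib.Helper50FormCl
import Cfsg.Agent.Lib.Helper50FormStd
import Cfsg.Agent.Lib.Helper17Symp

set_option autoImplicit false
open Cfsg
open scoped MatrixGroups Matrix

/-! Characteristic two: similitudes modulo scalars are isometries; `O(J + uuᵀ)` is the centraliser
of a transvection in `Sp`. (helper50) -/

namespace Cfsg.Agent.Lib.Helper50FormTwo

open Cfsg.Agent.Lib.Helper50Form Cfsg.Agent.Lib.Helper50FormCl Cfsg.Agent.Lib.Helper50FormStd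

variable {ι : Type} [Fintype ι] [DecidableEq ι] {F : Type*} [Field F]

theorem exists_scalar (c : Fˣ) :
    ∃ z : GL ι F, z ∈ Geo.scalars ι F ∧ (z : Matrix ι ι F) = (c : F) • (1 : Matrix ι ι F) :=
  ⟨Units.map (Matrix.scalar ι : F →+* Matrix ι ι F).toMonoidHom c, ⟨c, rfl⟩,
    by simp [Matrix.smul_one_eq_diagonal]⟩

theorem vecMulVec_mulVec' (u v w : ι → F) : Matrix.vecMulVec u v *ᵥ w = (v ⬝ᵥ w) • u := by
  ext i
  simp only [Matrix.mulVec, dotProduct, Matrix.vecMulVec_apply, Pi.smul_apply, smul_eq_mul,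
    Finset.sum_mul]
  apply Finset.sum_congr rfl
  intro j _
  ring

section chartwo

variable [CharP F 2]

theorem sq_inj {x y : F} (h : x * x = y * y) : x = y := by
  have h1 : (x - y) * (x - y) = 0 := by
    have : (x - y) * (x - y) = x * x + y * y - (x * y + x * y) := by ring
    rw [this, add_self', h, add_self', sub_zero]
  have := mul_self_eq_zero.1 h1
  exact sub_eq_zero.1 this

theorem neg_eq' (a : F) : -a = a := by
  rw [neg_eq_iff_add_eq_zero, add_self']

theorem neg_eq_mat (M : Matrix ι ι F) : -M = M := by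
  ext i j
  exact neg_eq' _

theorem projQuot_equiv_isoT (hsq : ∀ a : F, ∃ b, b * b = a) (A : Matrix ι ι F) (hA : A ≠ 0) :
    Nonempty (projQuot (simT A) ≃* isoT A) := by
  let Ψ : isoT A →* projQuot (simT A) :=
    (QuotientGroup.mk' _).comp (Subgroup.inclusion (isoT_le_simT A))
  have hinj : Function.Injective Ψ := by
    rw [injective_iff_map_eq_one]
    intro g hg
    have h1 : (Subgroup.inclusion (isoT_le_simT A) g) ∈ (Geo.scalars ι F).subgroupOf (simT A) :=
      (QuotientGroup.eq_one_iff _).1 hg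
    rw [Subgroup.mem_subgroupOf] at h1
    obtain ⟨c, hc⟩ := (Geo.mem_scalars_iff _).1 h1
    have hc' : ((g : GL ι F) : Matrix ι ι F) = (c : F) • 1 := hc
    have h2 : ((g : GL ι F) : Matrix ι ι F)ᵀ * A * ((g : GL ι F) : Matrix ι ι F) = A := g.2
    rw [hc', Matrix.transpose_smul, Matrix.transpose_one, smul_mul_assoc, one_mul, mul_smul_comm, mul_one,
      smul_smul] at h2
    have h3 : (c : F) * c = 1 := by
      by_contra hne
      have h3 : ((c : F) * c - 1) • A = 0 := by rw [sub_smul, one_smul, h2, sub_self]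
      rcases smul_eq_zero.1 h3 with h4 | h4
      · exact hne (sub_eq_zero.1 h4)
      · exact hA h4
    have h4 : (c : F) = 1 := sq_inj (by rw [h3, one_mul])
    apply Subtype.ext
    apply Units.ext
    rw [hc', h4, one_smul]
    rfl
  have hsurj : Function.Surjective Ψ := by
    intro x
    obtain ⟨g, rfl⟩ := QuotientGroup.mk_surjective x
    obtain ⟨c, hc⟩ := g.2
    obtain ⟨s, hs⟩ := hsq c
    have hs0 : s ≠ 0 := by
      rintro rfl
      rw [mul_zero] at hs
      exact c.ne_zero hs.symm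
    obtain ⟨z, hz, hzc⟩ := exists_scalar (ι := ι) (Units.mk0 s⁻¹ (inv_ne_zero hs0))
    have hmem : (g : GL ι F) * z ∈ isoT A := by
      rw [mem_isoT, Units.val_mul, hzc, Units.val_mk0, mul_smul_comm, mul_one, Matrix.transpose_smul,
        smul_mul_assoc, mul_smul_comm, smul_mul_assoc, hc, smul_smul, smul_smul, ← hs]
      have : s⁻¹ * s⁻¹ * (s * s) = 1 := by field_simp
      rw [this, one_smul]
    refine ⟨⟨_, hmem⟩, ?_⟩
    show (QuotientGroup.mk (Subgroup.inclusion (isoT_le_simT A) ⟨_, hmem⟩) : projQuot (simT A))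
      = QuotientGroup.mk g
    rw [eq_comm, QuotientGroup.eq, Subgroup.mem_subgroupOf]
    show (g : GL ι F)⁻¹ * ((g : GL ι F) * z) ∈ Geo.scalars ι F
    rw [inv_mul_cancel_left]
    exact hz
  exact ⟨(MulEquiv.ofBijective Ψ ⟨hinj, hsurj⟩).symm⟩

end chartwo

/-! ### the symplectic group -/

variable (m : ℕ)

/-- `Sp → GL` -/
def spToGL : Matrix.symplecticGroup (Fin m) F →* GL (Fin m ⊕ Fin m) F :=
  (Units.map (Matrix.symplecticGroup (Fin m) F).subtype).comp
    (toUnits (G := Matrix.symplecticGroup (Fin m) F)).toMonoidHom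

theorem spToGL_coe (s : Matrix.symplecticGroup (Fin m) F) :
    (spToGL m s : Matrix (Fin m ⊕ Fin m) (Fin m ⊕ Fin m) F) = s := rfl

theorem spToGL_injective : Function.Injective (spToGL (F := F) m) := by
  intro a b h
  apply Subtype.ext
  rw [← spToGL_coe, h, spToGL_coe]

theorem spToGL_mem (s : Matrix.symplecticGroup (Fin m) F) :
    spToGL m s ∈ isoT (Matrix.J (Fin m) F) := by
  rw [mem_isoT, spToGL_coe]
  exact SymplecticGroup.mem_iff'.1 s.2

theorem exists_sp (g : GL (Fin m ⊕ Fin m) F) (hg : g ∈ isoT (Matrix.J (Fin m) F)) :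
    ∃ s, spToGL m s = g :=
  ⟨⟨g, SymplecticGroup.mem_iff'.2 hg⟩, Units.ext rfl⟩

theorem sp_equiv_isoT : Nonempty (Matrix.symplecticGroup (Fin m) F ≃* isoT (Matrix.J (Fin m) F)) := by
  let Ψ : Matrix.symplecticGroup (Fin m) F →* isoT (Matrix.J (Fin m) F) :=
    (spToGL m).codRestrict _ (spToGL_mem m)
  refine ⟨MulEquiv.ofBijective Ψ ⟨?_, ?_⟩⟩
  · intro a b h
    exact spToGL_injective m (congrArg Subtype.val h)
  · intro g
    obtain ⟨s, hs⟩ := exists_sp m g.1 g.2
    exact ⟨s, Subtype.ext hs⟩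

theorem rank_vecMulVec_eq_one (e u : ι → F) (he : e ≠ 0) (hu : u ≠ 0) :
    (Matrix.vecMulVec e u).rank = 1 := by
  apply le_antisymm (Matrix.rank_vecMulVec_le e u)
  rw [Nat.one_le_iff_ne_zero]
  intro h0
  unfold Matrix.rank at h0
  rw [Submodule.finrank_eq_zero, LinearMap.range_eq_bot] at h0
  obtain ⟨k, hk⟩ := Function.ne_iff.1 hu
  have h1 := congrArg (fun f => f (Pi.single k 1)) h0
  simp only [Matrix.mulVecLin_apply, vecMulVec_mulVec', LinearMap.zero_apply, dotProduct_single,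
    mul_one] at h1
  rcases smul_eq_zero.1 h1 with h2 | h2
  · exact hk h2
  · exact he h2

local notation "JJ" => Matrix.J (Fin m) F
local notation "M2" => Matrix (Fin m ⊕ Fin m) (Fin m ⊕ Fin m) F

theorem J_isAlt : IsAltM (JJ) := by
  refine ⟨Matrix.J_transpose _ _, ?_⟩
  intro i
  rcases i with i | i <;> simp [Matrix.J]

theorem J_mulVec_inj {x y : Fin m ⊕ Fin m → F} (h : JJ *ᵥ x = JJ *ᵥ y) : x = y := by
  have h1 := congrArg (fun z => JJ *ᵥ z) h
  simp only [Matrix.mulVec_mulVec, Matrix.J_squared, Matrix.neg_mulVec, Matrix.one_mulVec] at h1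
  exact neg_injective h1

/-- the non-alternating symmetric form attached to `e` -/
def AEv (e : Fin m ⊕ Fin m → F) : M2 := JJ + Matrix.vecMulVec (JJ *ᵥ e) (JJ *ᵥ e)

theorem vecMul_of_fix (g : M2) (hg : gᵀ * JJ * g = JJ) (e : Fin m ⊕ Fin m → F) (he : g *ᵥ e = e) :
    (JJ *ᵥ e) ᵥ* g = JJ *ᵥ e := by
  rw [← Matrix.mulVec_transpose, Matrix.mulVec_mulVec]
  conv_lhs => rw [← he]
  rw [Matrix.mulVec_mulVec, hg]

theorem conj_vecMulVec (g : M2) (u : Fin m ⊕ Fin m → F) :
    gᵀ * Matrix.vecMulVec u u * g = Matrix.vecMulVec (u ᵥ* g) (u ᵥ* g) := by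
  rw [Matrix.mul_vecMulVec, Matrix.vecMulVec_mul, Matrix.mulVec_transpose]

section ev

variable [CharP F 2]

theorem mem_isoT_AEv (e : Fin m ⊕ Fin m → F) (g : GL (Fin m ⊕ Fin m) F) :
    g ∈ isoT (AEv m e) ↔ g ∈ isoT (JJ) ∧ (g : M2) *ᵥ e = e := by
  rw [mem_isoT, mem_isoT]
  constructor
  · intro h
    have hq : ∀ v : Fin m ⊕ Fin m → F, v ⬝ᵥ AEv m e *ᵥ v = ((JJ *ᵥ e) ⬝ᵥ v) * ((JJ *ᵥ e) ⬝ᵥ v) := by
      intro v
      unfold AEv
      rw [Matrix.add_mulVec, dotProduct_add, (J_isAlt m).dot_self, zero_add, vecMulVec_mulVec',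
        dotProduct_smul, smul_eq_mul, dotProduct_comm v]
    have h1 : (JJ *ᵥ e) ᵥ* (g : M2) = JJ *ᵥ e := by
      apply dotProduct_eq
      intro v
      rw [← Matrix.dotProduct_mulVec]
      apply sq_inj
      rw [← hq, ← hq, bil_conj, h]
    have h2 : (g : M2)ᵀ * JJ * (g : M2) = JJ := by
      unfold AEv at h
      rw [mul_add, add_mul, conj_vecMulVec, h1] at h
      exact add_right_cancel h
    refine ⟨h2, ?_⟩
    have h3 : JJ *ᵥ (((g⁻¹ : GL (Fin m ⊕ Fin m) F) : M2) *ᵥ e) = JJ *ᵥ e := by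
      conv_lhs => rw [← h2]
      rw [Matrix.mulVec_mulVec, mul_assoc, gl_mul_inv', mul_one, ← Matrix.mulVec_mulVec,
        Matrix.mulVec_transpose, h1]
    have h4 := J_mulVec_inj m h3
    conv_lhs => rw [← h4]
    rw [Matrix.mulVec_mulVec, gl_mul_inv', Matrix.one_mulVec]
  · rintro ⟨h2, he⟩
    unfold AEv
    rw [mul_add, add_mul, conj_vecMulVec, vecMul_of_fix m _ h2 e he, h2]

theorem sympTransvection_eq (e : Fin m ⊕ Fin m → F) :
    sympTransvection m e 1 = 1 + Matrix.vecMulVec e (JJ *ᵥ e) := by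
  unfold sympTransvection
  rw [one_smul]

theorem commute_iff (e : Fin m ⊕ Fin m → F) (he : e ≠ 0) (g : GL (Fin m ⊕ Fin m) F)
    (hg : g ∈ isoT (JJ)) :
    (g : M2) * sympTransvection m e 1 = sympTransvection m e 1 * (g : M2) ↔ (g : M2) *ᵥ e = e := by
  rw [mem_isoT] at hg
  rw [sympTransvection_eq, mul_add, add_mul, mul_one, one_mul, add_right_inj, Matrix.mul_vecMulVec,
    Matrix.vecMulVec_mul]
  constructor
  · intro h
    have hu : JJ *ᵥ e ≠ 0 := by
      intro h0
      apply he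
      apply J_mulVec_inj m
      rw [h0, Matrix.mulVec_zero]
    obtain ⟨k, hk⟩ := Function.ne_iff.1 hu
    have hk' : (JJ *ᵥ e) k ≠ 0 := hk
    have hyy : (JJ *ᵥ ((g : M2) *ᵥ e)) ᵥ* (g : M2) = JJ *ᵥ e := by
      rw [← Matrix.mulVec_transpose, Matrix.mulVec_mulVec, Matrix.mulVec_mulVec, hg]
    obtain ⟨y, hy⟩ : ∃ y, y = (JJ *ᵥ e) ᵥ* (g : M2) := ⟨_, rfl⟩
    obtain ⟨u, hu'⟩ : ∃ u, u = JJ *ᵥ e := ⟨_, rfl⟩
    rw [← hy, ← hu'] at h
    rw [← hu'] at hk' hu
    have hx : (g : M2) *ᵥ e = (y k / u k) • e := by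
      ext i
      have := congrFun (congrFun h i) k
      rw [Matrix.vecMulVec_apply, Matrix.vecMulVec_apply] at this
      rw [Pi.smul_apply, smul_eq_mul]
      field_simp
      linear_combination this
    have hy2 : u = (y k / u k) • y := by
      rw [hx, Matrix.mulVec_smul, Matrix.smul_vecMul, ← hy, ← hu'] at hyy
      exact hyy.symm
    have hy0 : y ≠ 0 := by
      intro h0
      rw [h0, smul_zero] at hy2
      exact hu hy2
    obtain ⟨i, hi⟩ := Function.ne_iff.1 he
    obtain ⟨j, hj⟩ := Function.ne_iff.1 hy0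
    have hi' : e i ≠ 0 := hi
    have hj' : y j ≠ 0 := hj
    have h5 := congrFun (congrFun h i) j
    rw [hx, Matrix.vecMulVec_apply, Matrix.vecMulVec_apply] at h5
    have h6 := congrFun hy2 j
    simp only [Pi.smul_apply, smul_eq_mul] at h5 h6
    rw [h6] at h5
    have h7 : (y k / u k) * (y k / u k) = 1 * 1 := by
      apply mul_right_cancel₀ (mul_ne_zero hi' hj')
      linear_combination h5
    rw [hx, sq_inj h7, one_smul]
  · intro h
    rw [h, vecMul_of_fix m _ hg e h]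

/-- the transvection as an element of `Sp` -/
def tSp (e : Fin m ⊕ Fin m → F) : Matrix.symplecticGroup (Fin m) F :=
  ⟨sympTransvection m e 1, Cfsg.Agent.Lib.Helper17Symp.sympTransvection_mem m e 1⟩

omit [CharP F 2] in
theorem tSp_isTransvection (e : Fin m ⊕ Fin m → F) (he : e ≠ 0) :
    Cfsg.IsTransvection (tSp m e : M2) := by
  have hu : JJ *ᵥ e ≠ 0 := by
    intro h0
    apply he
    apply J_mulVec_inj m
    rw [h0, Matrix.mulVec_zero]
  have h1 : (tSp m e : M2) - 1 = Matrix.vecMulVec e (JJ *ᵥ e) := by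
    show sympTransvection m e 1 - 1 = _
    unfold sympTransvection
    rw [one_smul, add_sub_cancel_left]
  unfold Cfsg.IsTransvection
  rw [h1]
  refine ⟨rank_vecMulVec_eq_one _ _ he hu, ?_⟩
  rw [Matrix.vecMulVec_mul_vecMulVec, dotProduct_comm, (J_isAlt m).dot_self, zero_smul]
  ext i j
  simp [Matrix.vecMulVec_apply]

theorem isoT_AEv_equiv (e : Fin m ⊕ Fin m → F) (he : e ≠ 0) :
    Nonempty (isoT (AEv m e) ≃* ↥(Subgroup.centralizer ({tSp m e} : Set (Matrix.symplecticGroup (Fin m) F)))) := by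
  have hmem : ∀ s : Matrix.symplecticGroup (Fin m) F,
      s ∈ Subgroup.centralizer ({tSp m e} : Set (Matrix.symplecticGroup (Fin m) F)) ↔
        spToGL m s ∈ isoT (AEv m e) := by
    intro s
    rw [Subgroup.mem_centralizer_singleton_iff, mem_isoT_AEv, ← commute_iff m e he _ (spToGL_mem m s)]
    constructor
    · intro h
      exact ⟨spToGL_mem m s, congrArg Subtype.val h⟩
    · rintro ⟨-, h⟩
      exact Subtype.ext h
  let Ψ : ↥(Subgroup.centralizer ({tSp m e} : Set (Matrix.symplecticGroup (Fin m) F))) →* isoT (AEv m e) :=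
    ((spToGL m).comp (Subgroup.subtype _)).codRestrict _ (fun s => (hmem s.1).1 s.2)
  refine ⟨(MulEquiv.ofBijective Ψ ⟨?_, ?_⟩).symm⟩
  · intro a b h
    exact Subtype.ext (spToGL_injective m (congrArg Subtype.val h))
  · intro g
    obtain ⟨s, hs⟩ := exists_sp m g.1 ((mem_isoT_AEv m e g.1).1 g.2).1
    refine ⟨⟨s, (hmem s).2 (by rw [hs]; exact g.2)⟩, Subtype.ext hs⟩

theorem AEv_transpose (e : Fin m ⊕ Fin m → F) : (AEv m e)ᵀ = AEv m e := by
  unfold AEv
  rw [Matrix.transpose_add, Matrix.J_transpose, neg_eq_mat, Matrix.transpose_vecMulVec]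

theorem AEv_eq (e : Fin m ⊕ Fin m → F) : AEv m e = JJ * sympTransvection m e 1 := by
  rw [sympTransvection_eq, mul_add, mul_one, Matrix.mul_vecMulVec]
  rfl

theorem det_AEv (e : Fin m ⊕ Fin m → F) : (AEv m e).det ≠ 0 := by
  rw [AEv_eq, Matrix.det_mul]
  apply mul_ne_zero (det_J_ne_zero m)
  have h := (SymplecticGroup.mem_iff'.1 (Cfsg.Agent.Lib.Helper17Symp.sympTransvection_mem m e (1 : F)))
  intro h0
  have h1 := congrArg Matrix.det h
  rw [Matrix.det_mul, h0, mul_zero] at h1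
  exact det_J_ne_zero m h1.symm

theorem AEv_diag (e : Fin m ⊕ Fin m → F) (he : e ≠ 0) : ∃ i, AEv m e i i ≠ 0 := by
  have hu : JJ *ᵥ e ≠ 0 := by
    intro h0
    apply he
    apply J_mulVec_inj m
    rw [h0, Matrix.mulVec_zero]
  obtain ⟨k, hk⟩ := Function.ne_iff.1 hu
  refine ⟨k, ?_⟩
  unfold AEv
  rw [Matrix.add_apply, (J_isAlt m).2 k, zero_add, Matrix.vecMulVec_apply]
  exact mul_ne_zero hk hk

end ev

end Cfsg.Agent.Lib.Helper50FormTwo
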