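import Mathlib
import Cfsg.Prelude
import Cfsg.Agent.Lib.Helper50Form
import Cfsg.Agent.Lib.Helper50FormCl
import Cfsg.Agent.Lib.Helper50FormStd
import Cfsg.Agent.Lib.Helper50FormTwo
import Cfsg.Agent.S0269

set_option autoImplicit false
open Cfsg
open scoped MatrixGroups Matrix

/-! Determinants and multipliers of similitudes; `PGO_{2m}^±(q)` is not isomorphic to `PGSp_{2m}(q)`.
(helper50) -/

namespace Cfsg.Agent.Lib.Helper50FormDet

open Cfsg.Agent.Lib.Helper50Form Cfsg.Agent.Lib.Helper50FormCl Cfsg.Agent.Lib.Helper50FormStd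
  Cfsg.Agent.Lib.Helper50FormTwo

variable {ι : Type} [Fintype ι] [DecidableEq ι] {F : Type*} [Field F]

theorem det_sq (A : Matrix ι ι F) (hA : A.det ≠ 0) (g : Matrix ι ι F) (c : F)
    (h : gᵀ * A * g = c • A) : g.det * g.det = c ^ Fintype.card ι := by
  have := congrArg Matrix.det h
  rw [Matrix.det_mul, Matrix.det_mul, Matrix.det_transpose, Matrix.det_smul] at this
  exact mul_right_cancel₀ hA (by linear_combination this)

theorem exists_aniso (h2 : (2 : F) ≠ 0) (A : Matrix ι ι F) (hs : Aᵀ = A) (hA : A ≠ 0) :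
    ∃ v : ι → F, v ⬝ᵥ A *ᵥ v ≠ 0 := by
  by_contra hcon
  push Not at hcon
  have h1 := (isAltM_of_dot_self hcon).1
  rw [hs] at h1
  have h3 : (2 : F) • A = 0 := by
    rw [two_smul]
    nth_rewrite 1 [h1]
    exact neg_add_cancel _
  rcases smul_eq_zero.1 h3 with h4 | h4
  · exact h2 h4
  · exact hA h4

theorem exists_refl (h2 : (2 : F) ≠ 0) (A : Matrix ι ι F) (hs : Aᵀ = A) (hA : A ≠ 0) :
    ∃ r : GL ι F, r ∈ isoT A ∧ (r : Matrix ι ι F).det = -1 := by
  obtain ⟨v, hv⟩ := exists_aniso h2 A hs hA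
  obtain ⟨k, hk⟩ : ∃ k : F, k = 2 / (v ⬝ᵥ A *ᵥ v) := ⟨_, rfl⟩
  have hk1 : k * (v ⬝ᵥ A *ᵥ v) = 2 := by rw [hk, div_mul_cancel₀ _ hv]
  obtain ⟨W, hW⟩ : ∃ W, W = Matrix.vecMulVec v (A *ᵥ v) := ⟨_, rfl⟩
  have hWW : W * W = (v ⬝ᵥ A *ᵥ v) • W := by
    rw [hW, Matrix.vecMulVec_mul_vecMulVec, Matrix.vecMulVec_smul, dotProduct_comm]
  have hrr : (1 - k • W) * (1 - k • W) = 1 := by
    rw [sub_mul, mul_sub, mul_sub, one_mul, mul_one, one_mul, smul_mul_assoc, mul_smul_comm, hWW,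
      smul_smul, smul_smul, mul_assoc, hk1]
    rw [mul_two, add_smul]
    abel
  refine ⟨⟨1 - k • W, 1 - k • W, hrr, hrr⟩, ?_, ?_⟩
  · rw [mem_isoT]
    show (1 - k • W)ᵀ * A * (1 - k • W) = A
    have hWT : Wᵀ = Matrix.vecMulVec (A *ᵥ v) v := by rw [hW, Matrix.transpose_vecMulVec]
    have e1 : A * W = Matrix.vecMulVec (A *ᵥ v) (A *ᵥ v) := by rw [hW, Matrix.mul_vecMulVec]
    have e2 : Wᵀ * A = Matrix.vecMulVec (A *ᵥ v) (A *ᵥ v) := by
      rw [hWT, Matrix.vecMulVec_mul, ← Matrix.mulVec_transpose, hs]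
    have e3 : Matrix.vecMulVec (A *ᵥ v) (A *ᵥ v) * W
        = (v ⬝ᵥ A *ᵥ v) • Matrix.vecMulVec (A *ᵥ v) (A *ᵥ v) := by
      rw [hW, Matrix.vecMulVec_mul_vecMulVec, Matrix.vecMulVec_smul, dotProduct_comm]
    rw [Matrix.transpose_sub, Matrix.transpose_one, Matrix.transpose_smul, sub_mul, one_mul, sub_mul,
      mul_sub, mul_sub, mul_one, mul_one, smul_mul_assoc, mul_smul_comm, smul_mul_assoc, mul_smul_comm,
      e1, e2, e3, smul_smul, smul_smul, mul_assoc, hk1, mul_two, add_smul]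
    abel
  · show (1 - k • W).det = -1
    have e4 : 1 - k • W = 1 + Matrix.replicateCol Unit (-k • v) * Matrix.replicateRow Unit (A *ᵥ v) := by
      rw [← Matrix.vecMulVec_eq, Matrix.smul_vecMulVec, ← hW, neg_smul, sub_eq_add_neg]
    rw [e4, Matrix.det_one_add_replicateCol_mul_replicateRow, dotProduct_smul, dotProduct_comm,
      smul_eq_mul, neg_mul, hk1]
    ring

theorem exists_mult [Finite F] (h2 : (2 : F) ≠ 0) {n m : ℕ} (hnm : n = 2 * m)
    (A : Matrix (Fin n) (Fin n) F) (hs : Aᵀ = A) (hA : A.det ≠ 0) (c : F) (hc : c ≠ 0) :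
    ∃ g : GL (Fin n) F, (g : Matrix (Fin n) (Fin n) F)ᵀ * A * (g : Matrix (Fin n) (Fin n) F) = c • A := by
  have hdet : (c • A).det = c ^ n * A.det := by rw [Matrix.det_smul, Fintype.card_fin]
  apply sym_congr h2 A (c • A) hs (by rw [Matrix.transpose_smul, hs]) hA
    (by rw [hdet]; exact mul_ne_zero (pow_ne_zero _ hc) hA)
  rw [hdet]
  refine ⟨c ^ m * A.det, ?_⟩
  generalize A.det = x
  rw [hnm]
  ring

/-! ### symplectic similitudes -/

section symp

variable (m : ℕ)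

local notation "JJ" => Matrix.J (Fin m) F
local notation "M2" => Matrix (Fin m ⊕ Fin m) (Fin m ⊕ Fin m) F

theorem det_sp [Fintype F] (hm : 2 ≤ m) (hq : 3 ≤ Fintype.card F)
    (s : Matrix.symplecticGroup (Fin m) F) : (s : M2).det = 1 := by
  have hperf := Cfsg.Agent.S0269.result (F := F) m (by
    rcases Nat.lt_or_ge 2 m with h | h
    · exact Or.inl h
    · exact Or.inr (Or.inl ⟨by omega, hq⟩))
  have h1 := Abelianization.commutator_subset_ker
    ((Matrix.GeneralLinearGroup.det : GL (Fin m ⊕ Fin m) F →* Fˣ).comp (spToGL m))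
  rw [hperf] at h1
  have h2 := h1 (Subgroup.mem_top s)
  rw [MonoidHom.mem_ker, MonoidHom.comp_apply] at h2
  have h3 := congrArg Units.val h2
  rwa [Matrix.GeneralLinearGroup.val_det_apply, spToGL_coe, Units.val_one] at h3

/-- `diag(c,…,c,1,…,1)` -/
def dC (c : Fˣ) : GL (Fin m ⊕ Fin m) F :=
  ⟨Matrix.fromBlocks ((c : F) • 1) 0 0 1, Matrix.fromBlocks (((c⁻¹ : Fˣ) : F) • 1) 0 0 1,
    by
      rw [Matrix.fromBlocks_multiply]
      simp [smul_smul],
    by
      rw [Matrix.fromBlocks_multiply]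
      simp [smul_smul]⟩

theorem dC_coe (c : Fˣ) : (dC m c : M2) = Matrix.fromBlocks ((c : F) • 1) 0 0 1 := rfl

theorem dC_sim (c : Fˣ) : (dC m c : M2)ᵀ * JJ * (dC m c : M2) = (c : F) • JJ := by
  rw [dC_coe, Matrix.J, Matrix.fromBlocks_transpose, Matrix.fromBlocks_multiply,
    Matrix.fromBlocks_multiply, Matrix.fromBlocks_smul]
  simp

theorem det_dC (c : Fˣ) : (dC m c : M2).det = (c : F) ^ m := by
  rw [dC_coe, Matrix.det_fromBlocks_zero₂₁, Matrix.det_smul, Matrix.det_one,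
    Fintype.card_fin, mul_one, mul_one]

theorem det_simT_J [Fintype F] (hm : 2 ≤ m) (hq : 3 ≤ Fintype.card F) (g : GL (Fin m ⊕ Fin m) F)
    (c : Fˣ) (hg : (g : M2)ᵀ * JJ * (g : M2) = (c : F) • JJ) : (g : M2).det = (c : F) ^ m := by
  have h1 : g * dC m c⁻¹ ∈ isoT (JJ) := by
    rw [mem_isoT, Units.val_mul, Matrix.transpose_mul]
    calc (dC m c⁻¹ : M2)ᵀ * (g : M2)ᵀ * JJ * ((g : M2) * (dC m c⁻¹ : M2))
        = (dC m c⁻¹ : M2)ᵀ * ((g : M2)ᵀ * JJ * (g : M2)) * (dC m c⁻¹ : M2) := by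
          simp only [mul_assoc]
      _ = JJ := by
          rw [hg, mul_smul_comm, smul_mul_assoc, dC_sim, smul_smul, Units.mul_inv, one_smul]
  obtain ⟨s, hs⟩ := exists_sp m _ h1
  have h2 := det_sp m hm hq s
  rw [← spToGL_coe, hs, Units.val_mul, Matrix.det_mul, det_dC, Units.val_inv_eq_inv_val, inv_pow] at h2
  field_simp at h2
  exact h2

end symp

/-! ### the multiplier -/

theorem smul_inj_of_ne (A : Matrix ι ι F) (hA : A ≠ 0) {c d : F} (h : c • A = d • A) : c = d := by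
  by_contra hne
  have h3 : (c - d) • A = 0 := by rw [sub_smul, h, sub_self]
  rcases smul_eq_zero.1 h3 with h4 | h4
  · exact hne (sub_eq_zero.1 h4)
  · exact hA h4

noncomputable def muF (A : Matrix ι ι F) (g : simT A) : Fˣ := Classical.choose g.2

theorem muF_spec (A : Matrix ι ι F) (g : simT A) :
    ((g : GL ι F) : Matrix ι ι F)ᵀ * A * ((g : GL ι F) : Matrix ι ι F) = ((muF A g : Fˣ) : F) • A :=
  Classical.choose_spec g.2

/-- the multiplier homomorphism -/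
noncomputable def mu (A : Matrix ι ι F) (hA : A ≠ 0) : simT A →* Fˣ :=
  MonoidHom.mk' (muF A) (by
    intro a b
    apply Units.ext
    apply smul_inj_of_ne A hA
    rw [← muF_spec A (a * b)]
    show (((a : GL ι F) * (b : GL ι F) : GL ι F) : Matrix ι ι F)ᵀ * A
      * (((a : GL ι F) * (b : GL ι F) : GL ι F) : Matrix ι ι F) = _
    rw [Units.val_mul, Matrix.transpose_mul]
    calc ((b : GL ι F) : Matrix ι ι F)ᵀ * ((a : GL ι F) : Matrix ι ι F)ᵀ * A
          * (((a : GL ι F) : Matrix ι ι F) * ((b : GL ι F) : Matrix ι ι F))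
        = ((b : GL ι F) : Matrix ι ι F)ᵀ * (((a : GL ι F) : Matrix ι ι F)ᵀ * A
          * ((a : GL ι F) : Matrix ι ι F)) * ((b : GL ι F) : Matrix ι ι F) := by simp only [mul_assoc]
      _ = _ := by rw [muF_spec A a, mul_smul_comm, smul_mul_assoc, muF_spec A b, smul_smul, Units.val_mul])

theorem mu_spec (A : Matrix ι ι F) (hA : A ≠ 0) (g : simT A) :
    ((g : GL ι F) : Matrix ι ι F)ᵀ * A * ((g : GL ι F) : Matrix ι ι F) = ((mu A hA g : Fˣ) : F) • A :=
  muF_spec A g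

theorem mu_eq (A : Matrix ι ι F) (hA : A ≠ 0) (g : simT A) (c : Fˣ)
    (h : ((g : GL ι F) : Matrix ι ι F)ᵀ * A * ((g : GL ι F) : Matrix ι ι F) = (c : F) • A) :
    mu A hA g = c := by
  apply Units.ext
  apply smul_inj_of_ne A hA
  rw [← h, mu_spec]

/-! ### abstract non-isomorphism -/

theorem no_iso {X Y P C : Type*} [Group X] [Group Y] [Group P] [CommGroup C] (Φ : X ≃* Y)
    (f : X →* C) (x₁ x₂ : X) (h1 : f x₁ ≠ 1) (h2 : f x₂ ≠ 1) (h12 : f x₁ ≠ f x₂)
    (ρ : P →* Y) (hP : commutator P = ⊤)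
    (hρ : ∀ y₁ y₂ : Y, y₁ ∉ ρ.range → y₂ ∉ ρ.range → y₁⁻¹ * y₂ ∈ ρ.range) : False := by
  let f' : Y →* C := f.comp Φ.symm.toMonoidHom
  have hk : ∀ y ∈ ρ.range, f' y = 1 := by
    rintro _ ⟨s, rfl⟩
    have := Abelianization.commutator_subset_ker (f'.comp ρ)
    rw [hP] at this
    exact this (Subgroup.mem_top s)
  have hf : ∀ x, f' (Φ x) = f x := by
    intro x
    show f (Φ.symm (Φ x)) = f x
    rw [Φ.symm_apply_apply]
  have k1 : Φ x₁ ∉ ρ.range := fun h => h1 (by rw [← hf]; exact hk _ h)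
  have k2 : Φ x₂ ∉ ρ.range := fun h => h2 (by rw [← hf]; exact hk _ h)
  have k3 := hk _ (hρ _ _ k1 k2)
  rw [map_mul, map_inv, hf, hf, inv_mul_eq_one] at k3
  exact h12 k3

theorem nonsq_mul_nonsq [Fintype F] {x y : F} (hx : ¬ IsSquare x) (hy : ¬ IsSquare y) :
    IsSquare (x * y) := by
  classical
  have hx0 : x ≠ 0 := by
    rintro rfl
    exact hx ⟨0, by simp⟩
  have hy0 : y ≠ 0 := by
    rintro rfl
    exact hy ⟨0, by simp⟩
  rw [← quadraticChar_one_iff_isSquare (mul_ne_zero hx0 hy0), map_mul,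
    quadraticChar_neg_one_iff_not_isSquare.2 hx, quadraticChar_neg_one_iff_not_isSquare.2 hy]
  norm_num

/-- `Sp → PGSp` -/
noncomputable def rhoSp (m : ℕ) :
    Matrix.symplecticGroup (Fin m) F →* projQuot (simT (Matrix.J (Fin m) F)) :=
  (QuotientGroup.mk' _).comp ((spToGL m).codRestrict (simT (Matrix.J (Fin m) F))
    (fun s => isoT_le_simT _ (spToGL_mem m s)))

theorem mk_mem_range_rhoSp (m : ℕ) (g : simT (Matrix.J (Fin m) F)) (s : F) (hs0 : s ≠ 0)
    (hg : ((g : GL (Fin m ⊕ Fin m) F) : Matrix (Fin m ⊕ Fin m) (Fin m ⊕ Fin m) F)ᵀ * Matrix.J (Fin m) F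
      * ((g : GL (Fin m ⊕ Fin m) F) : Matrix (Fin m ⊕ Fin m) (Fin m ⊕ Fin m) F)
      = (s * s) • Matrix.J (Fin m) F) :
    (QuotientGroup.mk g : projQuot (simT (Matrix.J (Fin m) F))) ∈ (rhoSp (F := F) m).range := by
  obtain ⟨z, hz, hzc⟩ := exists_scalar (ι := Fin m ⊕ Fin m) (Units.mk0 s⁻¹ (inv_ne_zero hs0))
  have hmem : (g : GL (Fin m ⊕ Fin m) F) * z ∈ isoT (Matrix.J (Fin m) F) := by
    rw [mem_isoT, Units.val_mul, hzc, Units.val_mk0, mul_smul_comm, mul_one, Matrix.transpose_smul,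
      smul_mul_assoc, mul_smul_comm, smul_mul_assoc, hg, smul_smul, smul_smul]
    have : s⁻¹ * s⁻¹ * (s * s) = 1 := by field_simp
    rw [this, one_smul]
  obtain ⟨t, ht⟩ := exists_sp m _ hmem
  refine ⟨t, ?_⟩
  show (QuotientGroup.mk ((spToGL m).codRestrict (simT (Matrix.J (Fin m) F))
    (fun s => isoT_le_simT _ (spToGL_mem m s)) t) : projQuot (simT (Matrix.J (Fin m) F)))
      = QuotientGroup.mk g
  rw [eq_comm, QuotientGroup.eq, Subgroup.mem_subgroupOf]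
  show (g : GL (Fin m ⊕ Fin m) F)⁻¹ * spToGL m t ∈ Geo.scalars (Fin m ⊕ Fin m) F
  rw [ht, inv_mul_cancel_left]
  exact hz

theorem J_ne_zero (m : ℕ) (hm : 0 < m) : Matrix.J (Fin m) F ≠ 0 := by
  intro h
  apply det_J_ne_zero (F := F) m
  rw [h]
  haveI : Nonempty (Fin m ⊕ Fin m) := ⟨Sum.inl ⟨0, hm⟩⟩
  exact Matrix.det_zero

theorem not_iso_PGSp [Fintype F] (h2 : (2 : F) ≠ 0) {n m : ℕ} (hm : 2 ≤ m) (hnm : n = 2 * m)
    (A : Matrix (Fin n) (Fin n) F) (hs : Aᵀ = A) (hA : A.det ≠ 0) :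
    ¬ Nonempty (projQuot (simT A) ≃* PGSp m F) := by
  rintro ⟨Φ₀⟩
  obtain ⟨e2⟩ := projQuot_of_eq _ _ (GSp_eq (F := F) m)
  have hA0 : A ≠ 0 := by
    rintro rfl
    apply hA
    haveI : Nonempty (Fin n) := ⟨⟨0, by omega⟩⟩
    exact Matrix.det_zero
  have hchar : ringChar F ≠ 2 := by
    intro h
    apply h2
    have := ringChar.Nat.cast_ringChar (R := F)
    rw [h] at this
    exact_mod_cast this
  have hq : 3 ≤ Fintype.card F := by
    have h1 := Fintype.one_lt_card (α := F)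
    by_contra hlt
    have h3 : Fintype.card F = 2 := by omega
    apply h2
    have := Nat.cast_card_eq_zero F
    rw [h3] at this
    exact_mod_cast this
  obtain ⟨α, hα⟩ := FiniteField.exists_nonsquare hchar
  have hα0 : α ≠ 0 := by
    rintro rfl
    exact hα ⟨0, by simp⟩
  let R : Subgroup (Fˣ × Fˣ) := ((powMonoidHom 2 : Fˣ →* Fˣ).prod (powMonoidHom n)).range
  let F₀ : simT A →* Fˣ × Fˣ :=
    (mu A hA0).prod ((Matrix.GeneralLinearGroup.det : GL (Fin n) F →* Fˣ).comp (simT A).subtype)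
  have hker : ∀ g ∈ (Geo.scalars (Fin n) F).subgroupOf (simT A), ((QuotientGroup.mk' R).comp F₀) g = 1 := by
    intro g hg
    rw [Subgroup.mem_subgroupOf] at hg
    obtain ⟨y, hy⟩ := (Geo.mem_scalars_iff _).1 hg
    rw [MonoidHom.comp_apply, QuotientGroup.mk'_apply, QuotientGroup.eq_one_iff]
    refine ⟨y, ?_⟩
    apply Prod.ext
    · show y ^ 2 = mu A hA0 g
      symm
      apply mu_eq
      rw [hy, Matrix.transpose_smul, Matrix.transpose_one, smul_mul_assoc, one_mul, mul_smul_comm, mul_one,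
        smul_smul, Units.val_pow_eq_pow_val, pow_two]
    · show y ^ n = Matrix.GeneralLinearGroup.det (g : GL (Fin n) F)
      apply Units.ext
      rw [Matrix.GeneralLinearGroup.val_det_apply, hy, Matrix.det_smul, Matrix.det_one, mul_one,
        Fintype.card_fin, Units.val_pow_eq_pow_val]
  let f : projQuot (simT A) →* (Fˣ × Fˣ) ⧸ R :=
    QuotientGroup.lift _ ((QuotientGroup.mk' R).comp F₀) hker
  have hf : ∀ g : simT A, f (QuotientGroup.mk g) = QuotientGroup.mk (F₀ g) := fun g => rfl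
  obtain ⟨r, hr, hrdet⟩ := exists_refl h2 A hs hA0
  obtain ⟨g, hg⟩ := exists_mult h2 hnm A hs hA α hα0
  have hgm : g ∈ simT A := ⟨Units.mk0 α hα0, hg⟩
  have hmur : mu A hA0 ⟨r, isoT_le_simT A hr⟩ = 1 := by
    apply mu_eq
    rw [Units.val_one, one_smul]
    exact hr
  have hmug : mu A hA0 ⟨g, hgm⟩ = Units.mk0 α hα0 := mu_eq _ _ _ _ hg
  have hnotR : ∀ d : Fˣ, (Units.mk0 α hα0, d) ∉ R := by
    rintro d ⟨y, hy⟩
    apply hα
    have := congrArg (fun z => ((Prod.fst z : Fˣ) : F)) hy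
    refine ⟨y, ?_⟩
    simpa [pow_two] using this.symm
  refine no_iso (C := (Fˣ × Fˣ) ⧸ R) (Φ₀.trans e2) f (QuotientGroup.mk ⟨r, isoT_le_simT A hr⟩) (QuotientGroup.mk ⟨g, hgm⟩)
    ?_ ?_ ?_ (rhoSp m) (Cfsg.Agent.S0269.result (F := F) m (by
      rcases Nat.lt_or_ge 2 m with h | h
      · exact Or.inl h
      · exact Or.inr (Or.inl ⟨by omega, hq⟩))) ?_
  · rw [hf, Ne, QuotientGroup.eq_one_iff]
    rintro ⟨y, hy⟩
    have h1 : y ^ 2 = 1 := by
      have := congrArg Prod.fst hy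
      exact this.trans hmur
    have h3 : y ^ n = Matrix.GeneralLinearGroup.det r := congrArg Prod.snd hy
    have h4 := congrArg Units.val h3
    have h5 : y ^ n = 1 := by rw [hnm, pow_mul, h1, one_pow]
    rw [h5, Matrix.GeneralLinearGroup.val_det_apply, hrdet, Units.val_one] at h4
    apply h2
    linear_combination h4
  · rw [hf, Ne, QuotientGroup.eq_one_iff]
    have : F₀ ⟨g, hgm⟩ = (Units.mk0 α hα0, Matrix.GeneralLinearGroup.det g) := Prod.ext hmug rfl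
    rw [this]
    exact hnotR _
  · rw [hf, hf, Ne, QuotientGroup.eq]
    have : (F₀ ⟨r, isoT_le_simT A hr⟩)⁻¹ * F₀ ⟨g, hgm⟩
        = (Units.mk0 α hα0, (Matrix.GeneralLinearGroup.det r)⁻¹ * Matrix.GeneralLinearGroup.det g) := by
      apply Prod.ext
      · show (mu A hA0 ⟨r, isoT_le_simT A hr⟩)⁻¹ * mu A hA0 ⟨g, hgm⟩ = _
        rw [hmur, hmug, inv_one, one_mul]
      · rfl
    rw [this]
    exact hnotR _
  · intro y₁ y₂ h1 h3
    obtain ⟨g₁, rfl⟩ := QuotientGroup.mk_surjective y₁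
    obtain ⟨g₂, rfl⟩ := QuotientGroup.mk_surjective y₂
    have hJ0 := J_ne_zero (F := F) m (by omega)
    have key : ∀ g' : simT (Matrix.J (Fin m) F),
        (QuotientGroup.mk g' : projQuot (simT (Matrix.J (Fin m) F))) ∉ (rhoSp (F := F) m).range →
        ¬ IsSquare ((mu _ hJ0 g' : Fˣ) : F) := by
      rintro g' hg' ⟨s, hs'⟩
      apply hg'
      apply mk_mem_range_rhoSp m g' s
      · rintro rfl
        rw [mul_zero] at hs'
        exact (mu _ hJ0 g').ne_zero hs'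
      · rw [← hs']
        exact mu_spec _ hJ0 g'
    have k1 := key g₁ h1
    have k2 := key g₂ h3
    have k1' : ¬ IsSquare (((mu _ hJ0 g₁ : Fˣ) : F)⁻¹) := by rwa [isSquare_inv]
    obtain ⟨s, hs'⟩ := nonsq_mul_nonsq k1' k2
    rw [← QuotientGroup.mk_inv, ← QuotientGroup.mk_mul]
    apply mk_mem_range_rhoSp m _ s
    · rintro rfl
      rw [mul_zero] at hs'
      exact (mul_ne_zero (inv_ne_zero (mu _ hJ0 g₁).ne_zero) (mu _ hJ0 g₂).ne_zero) hs'
    · rw [← hs', mu_spec _ hJ0, map_mul, map_inv, Units.val_mul, Units.val_inv_eq_inv_val]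

end Cfsg.Agent.Lib.Helper50FormDet
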