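import Mathlib
import Cfsg.Prelude
import Cfsg.Agent.Lib.Helper50Form
import Cfsg.Agent.Lib.Helper50FormCl
import Cfsg.Agent.Lib.Helper50FormStd
import Cfsg.Agent.Lib.Helper50FormTwo

set_option autoImplicit false
open Cfsg
open scoped MatrixGroups Matrix

/-! Characteristic two, odd dimension: the conformal group of `x₀² + Σ x_i y_i` modulo scalars is
isomorphic to the conformal group of the symmetric bilinear form `x₀ x₀' + Σ (x_i y_i' + x_i' y_i)`
modulo scalars. (helper50) -/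

namespace Cfsg.Agent.Lib.Helper50FormTheta

open Cfsg.Agent.Lib.Helper50Form Cfsg.Agent.Lib.Helper50FormCl Cfsg.Agent.Lib.Helper50FormStd
  Cfsg.Agent.Lib.Helper50FormTwo

variable {ι : Type} [Fintype ι] [DecidableEq ι] {F : Type*} [Field F]

structure Setup (B : Matrix ι ι F) (i₀ : ι) : Prop where
  h1 : (B + Bᵀ) *ᵥ Pi.single i₀ 1 = 0
  h2 : ∀ x : ι → F, (B + Bᵀ) *ᵥ x = 0 → x = x i₀ • Pi.single i₀ 1
  h3 : B i₀ i₀ = 1

/-- the quadratic form of `B` -/
def qf (B : Matrix ι ι F) (v : ι → F) : F := v ⬝ᵥ B *ᵥ v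

theorem qf_add (B : Matrix ι ι F) (u w : ι → F) :
    qf B (u + w) = qf B u + qf B w + u ⬝ᵥ (B + Bᵀ) *ᵥ w := by
  unfold qf
  rw [Matrix.add_mulVec, Matrix.mulVec_transpose, dotProduct_add u, dotProduct_comm u (w ᵥ* B),
    ← Matrix.dotProduct_mulVec]
  simp only [Matrix.mulVec_add, dotProduct_add, add_dotProduct]
  ring

theorem qf_smul (B : Matrix ι ι F) (a : F) (v : ι → F) : qf B (a • v) = a * a * qf B v := by
  unfold qf
  rw [Matrix.mulVec_smul, dotProduct_smul, smul_dotProduct, smul_eq_mul, smul_eq_mul, mul_assoc]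

theorem polar_symm (B : Matrix ι ι F) : (B + Bᵀ)ᵀ = B + Bᵀ := by
  rw [Matrix.transpose_add, Matrix.transpose_transpose, add_comm]

theorem quad_polar (B : Matrix ι ι F) (g : Matrix ι ι F) (c : F)
    (hc : ∀ v, qf B (g *ᵥ v) = c * qf B v) : gᵀ * (B + Bᵀ) * g = c • (B + Bᵀ) := by
  have h1 : ∀ v : ι → F, v ⬝ᵥ ((gᵀ * B * g - c • B) *ᵥ v) = 0 := by
    intro v
    have := hc v
    unfold qf at this
    rw [Matrix.sub_mulVec, dotProduct_sub, ← dot_mulVec_conj, this, Matrix.smul_mulVec,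
      dotProduct_smul, smul_eq_mul, sub_self]
  have h2 := add_transpose_eq_zero _ h1
  rw [Matrix.transpose_sub, Matrix.transpose_smul, Matrix.transpose_mul, Matrix.transpose_mul,
    Matrix.transpose_transpose] at h2
  rw [mul_add, add_mul, smul_add]
  have h3 : gᵀ * B * g + gᵀ * Bᵀ * g - (c • B + c • Bᵀ) = 0 := by
    rw [← h2, mul_assoc gᵀ Bᵀ]
    abel
  exact sub_eq_zero.1 h3

variable {B : Matrix ι ι F} {i₀ : ι}

local notation "e₀" => (Pi.single i₀ (1 : F) : ι → F)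

theorem Setup.dot_left (S : Setup B i₀) (x : ι → F) : e₀ ⬝ᵥ (B + Bᵀ) *ᵥ x = 0 := by
  rw [Matrix.dotProduct_mulVec, ← Matrix.mulVec_transpose, polar_symm, S.h1, zero_dotProduct]

theorem Setup.qf_e (S : Setup B i₀) : qf B e₀ = 1 := by
  unfold qf
  simp [S.h3]

theorem Setup.qf_add_smul (S : Setup B i₀) (v : ι → F) (s : F) :
    qf B (v + s • e₀) = qf B v + s * s := by
  rw [qf_add, qf_smul, S.qf_e, Matrix.mulVec_smul, S.h1, smul_zero, dotProduct_zero, mul_one, add_zero]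

/-- a similitude of the polar form fixes the radical -/
theorem Setup.fix_line (S : Setup B i₀) (X : GL ι F) (c : F)
    (hX : (X : Matrix ι ι F)ᵀ * (B + Bᵀ) * (X : Matrix ι ι F) = c • (B + Bᵀ)) :
    (X : Matrix ι ι F) *ᵥ e₀ = (X : Matrix ι ι F) i₀ i₀ • e₀ := by
  have k1 : (X : Matrix ι ι F)ᵀ *ᵥ ((B + Bᵀ) *ᵥ ((X : Matrix ι ι F) *ᵥ e₀)) = 0 := by
    rw [Matrix.mulVec_mulVec, Matrix.mulVec_mulVec, hX, Matrix.smul_mulVec, S.h1, smul_zero]
  have k2 : (B + Bᵀ) *ᵥ ((X : Matrix ι ι F) *ᵥ e₀) = 0 := by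
    have := congrArg (fun z => ((X⁻¹ : GL ι F) : Matrix ι ι F)ᵀ *ᵥ z) k1
    simp only [Matrix.mulVec_zero] at this
    rwa [Matrix.mulVec_mulVec, glT_inv_mul, Matrix.one_mulVec] at this
  have k3 := S.h2 _ k2
  have k4 : ((X : Matrix ι ι F) *ᵥ e₀) i₀ = (X : Matrix ι ι F) i₀ i₀ := by
    rw [Matrix.mulVec_single_one]
    rfl
  rwa [k4] at k3

/-- the row correction -/
def rr (i₀ : ι) (g : Matrix ι ι F) : ι → F :=
  g i₀ i₀ • (Pi.single i₀ (1 : F) : ι → F) - (Pi.single i₀ (1 : F) : ι → F) ᵥ* g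

/-- replace the row `i₀` of `g` by `g i₀ i₀ • e₀` -/
def th (i₀ : ι) (g : Matrix ι ι F) : Matrix ι ι F :=
  g + Matrix.vecMulVec (Pi.single i₀ (1 : F) : ι → F) (rr i₀ g)

theorem th_one : th i₀ (1 : Matrix ι ι F) = 1 := by
  unfold th rr
  rw [Matrix.vecMul_one, Matrix.one_apply_eq, one_smul, sub_self]
  ext i j
  simp [Matrix.vecMulVec_apply]

theorem rr_dot (g : Matrix ι ι F) (v : ι → F) :
    rr i₀ g ⬝ᵥ v = g i₀ i₀ * v i₀ - (g *ᵥ v) i₀ := by
  unfold rr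
  rw [sub_dotProduct, smul_dotProduct, single_one_dotProduct, ← Matrix.dotProduct_mulVec,
    single_one_dotProduct, smul_eq_mul]

theorem th_mulVec (g : Matrix ι ι F) (v : ι → F) :
    th i₀ g *ᵥ v = g *ᵥ v + (g i₀ i₀ * v i₀ - (g *ᵥ v) i₀) • e₀ := by
  unfold th
  rw [Matrix.add_mulVec, vecMulVec_mulVec', rr_dot]

theorem th_mulVec_apply (g : Matrix ι ι F) (v : ι → F) : (th i₀ g *ᵥ v) i₀ = g i₀ i₀ * v i₀ := by
  rw [th_mulVec]
  simp

theorem th_mul (g h : Matrix ι ι F) (hg : g *ᵥ e₀ = g i₀ i₀ • e₀) (hh : h *ᵥ e₀ = h i₀ i₀ • e₀) :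
    th i₀ (g * h) = th i₀ g * th i₀ h := by
  have hgh : (g * h) i₀ i₀ = g i₀ i₀ * h i₀ i₀ := by
    have : ((g * h) *ᵥ e₀) i₀ = g i₀ i₀ * h i₀ i₀ := by
      rw [← Matrix.mulVec_mulVec, hh, Matrix.mulVec_smul, hg]
      simp [mul_comm]
    rw [Matrix.mulVec_single_one] at this
    exact this
  have h0 : rr i₀ g ⬝ᵥ e₀ = 0 := by
    rw [rr_dot, hg]
    simp
  have h1 : rr i₀ (g * h) = g i₀ i₀ • rr i₀ h + rr i₀ g ᵥ* h := by
    unfold rr
    rw [hgh, Matrix.sub_vecMul, Matrix.smul_vecMul, Matrix.vecMul_vecMul, smul_sub, smul_smul]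
    abel
  unfold th
  rw [add_mul, mul_add, mul_add, Matrix.mul_vecMulVec, Matrix.vecMulVec_mul,
    Matrix.vecMulVec_mul_vecMulVec, h0, zero_smul, hg, h1, Matrix.smul_vecMulVec]
  ext i j
  simp only [Matrix.add_apply, Matrix.vecMulVec_apply, Matrix.smul_apply, Pi.add_apply, Pi.smul_apply,
    smul_eq_mul, Pi.zero_apply]
  ring

/-- Gram matrix of the symmetric form -/
def A2 (B : Matrix ι ι F) (i₀ : ι) : Matrix ι ι F :=
  Matrix.vecMulVec (Pi.single i₀ (1 : F) : ι → F) (Pi.single i₀ (1 : F) : ι → F) + (B + Bᵀ)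

theorem A2_bil (u v : ι → F) : u ⬝ᵥ A2 B i₀ *ᵥ v = u i₀ * v i₀ + u ⬝ᵥ (B + Bᵀ) *ᵥ v := by
  unfold A2
  rw [Matrix.add_mulVec, dotProduct_add, vecMulVec_mulVec', dotProduct_smul, single_one_dotProduct,
    dotProduct_single_one, smul_eq_mul, mul_comm]

theorem Setup.data (S : Setup B i₀) (g : GL ι F) (c : F)
    (hc : ∀ v, qf B ((g : Matrix ι ι F) *ᵥ v) = c * qf B v) :
    (g : Matrix ι ι F)ᵀ * (B + Bᵀ) * (g : Matrix ι ι F) = c • (B + Bᵀ) ∧
      (g : Matrix ι ι F) *ᵥ e₀ = (g : Matrix ι ι F) i₀ i₀ • e₀ ∧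
      (g : Matrix ι ι F) i₀ i₀ * (g : Matrix ι ι F) i₀ i₀ = c := by
  have h1 := quad_polar B _ c hc
  have h2 := S.fix_line g c h1
  refine ⟨h1, h2, ?_⟩
  have h3 := hc e₀
  rw [h2, qf_smul, S.qf_e, mul_one, mul_one] at h3
  exact h3

theorem Setup.polar_add_smul (S : Setup B i₀) (x y : ι → F) (s t : F) :
    (x + s • e₀) ⬝ᵥ (B + Bᵀ) *ᵥ (y + t • e₀) = x ⬝ᵥ (B + Bᵀ) *ᵥ y := by
  rw [Matrix.mulVec_add, Matrix.mulVec_smul, S.h1, smul_zero, add_zero, add_dotProduct, smul_dotProduct,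
    S.dot_left, smul_zero, add_zero]

theorem Setup.th_sim (S : Setup B i₀) (g : GL ι F) (c : F)
    (hc : ∀ v, qf B ((g : Matrix ι ι F) *ᵥ v) = c * qf B v) :
    (th i₀ (g : Matrix ι ι F))ᵀ * A2 B i₀ * th i₀ (g : Matrix ι ι F) = c • A2 B i₀ := by
  obtain ⟨h1, h2, h3⟩ := S.data g c hc
  apply ext_bil
  intro u v
  rw [← bil_conj, A2_bil, th_mulVec_apply, th_mulVec_apply, th_mulVec, th_mulVec, S.polar_add_smul,
    bil_conj, h1, Matrix.smul_mulVec, Matrix.smul_mulVec, dotProduct_smul, dotProduct_smul, A2_bil,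
    smul_eq_mul, smul_eq_mul, ← h3]
  ring

theorem Setup.fixl (S : Setup B i₀) (g : GL ι F) (hg : g ∈ Geo.quadSimilarityGroup (F := F) (qf B)) :
    (g : Matrix ι ι F) *ᵥ e₀ = (g : Matrix ι ι F) i₀ i₀ • e₀ := by
  obtain ⟨c, hc⟩ := hg
  exact (S.data g c hc).2.1

/-- the homomorphism -/
noncomputable def thHom (S : Setup B i₀) :
    ↥(Geo.quadSimilarityGroup (F := F) (qf B)) →* ↥(simT (A2 B i₀)) :=
  MonoidHom.mk' (fun g => ⟨⟨th i₀ ((g : GL ι F) : Matrix ι ι F), th i₀ (((g : GL ι F)⁻¹ : GL ι F) : Matrix ι ι F),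
      by rw [← th_mul _ _ (S.fixl _ g.2) (S.fixl _ (inv_mem g.2)), gl_mul_inv', th_one],
      by rw [← th_mul _ _ (S.fixl _ (inv_mem g.2)) (S.fixl _ g.2), gl_inv_mul', th_one]⟩,
      by
        obtain ⟨c, hc⟩ := g.2
        exact ⟨c, S.th_sim _ c hc⟩⟩)
    (fun g h => Subtype.ext (Units.ext (th_mul _ _ (S.fixl _ g.2) (S.fixl _ h.2))))

theorem thHom_coe (S : Setup B i₀) (g : ↥(Geo.quadSimilarityGroup (F := F) (qf B))) :
    (((thHom S g : ↥(simT (A2 B i₀))) : GL ι F) : Matrix ι ι F) = th i₀ ((g : GL ι F) : Matrix ι ι F) := rfl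

theorem thHom_injective (S : Setup B i₀) : Function.Injective (thHom S) := by
  rw [injective_iff_map_eq_one]
  intro g hg
  have h1 : th i₀ ((g : GL ι F) : Matrix ι ι F) = 1 := by
    rw [← thHom_coe S, hg]
    rfl
  obtain ⟨c, hc⟩ := g.2
  obtain ⟨-, k2, k3⟩ := S.data g c hc
  have ha : ((g : GL ι F) : Matrix ι ι F) i₀ i₀ = 1 := by
    have := th_mulVec_apply (i₀ := i₀) ((g : GL ι F) : Matrix ι ι F) e₀
    rw [h1, Matrix.one_mulVec] at this
    simpa using this.symm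
  rw [ha, mul_one] at k3
  have hv : ∀ v : ι → F, ((g : GL ι F) : Matrix ι ι F) *ᵥ v = v := by
    intro v
    have h2 := th_mulVec (i₀ := i₀) ((g : GL ι F) : Matrix ι ι F) v
    rw [h1, Matrix.one_mulVec] at h2
    obtain ⟨s, hs⟩ : ∃ s, s = ((g : GL ι F) : Matrix ι ι F) i₀ i₀ * v i₀
      - (((g : GL ι F) : Matrix ι ι F) *ᵥ v) i₀ := ⟨_, rfl⟩
    rw [← hs] at h2
    have h3 : qf B v = qf B (((g : GL ι F) : Matrix ι ι F) *ᵥ v) + s * s := by
      conv_lhs => rw [h2]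
      rw [S.qf_add_smul]
    rw [hc, ← k3, one_mul] at h3
    have h4 : s = 0 := by
      have : s * s = 0 := by linear_combination -h3
      exact mul_self_eq_zero.1 this
    rw [h4, zero_smul, add_zero] at h2
    exact h2.symm
  apply Subtype.ext
  apply Units.ext
  show ((g : GL ι F) : Matrix ι ι F) = 1
  apply Matrix.ext_of_mulVec_single
  intro i
  rw [hv, Matrix.one_mulVec]

section chartwo

variable [CharP F 2]

theorem polar_dot_self (B : Matrix ι ι F) (v : ι → F) : v ⬝ᵥ (B + Bᵀ) *ᵥ v = 0 := by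
  rw [Matrix.add_mulVec, dotProduct_add, Matrix.mulVec_transpose, dotProduct_comm v (v ᵥ* B),
    ← Matrix.dotProduct_mulVec, add_self']

/-- data of a similitude of the symmetric form -/
theorem Setup.data' (S : Setup B i₀) (h : GL ι F) (c : F)
    (hc : (h : Matrix ι ι F)ᵀ * A2 B i₀ * (h : Matrix ι ι F) = c • A2 B i₀) :
    (h : Matrix ι ι F) i₀ i₀ * (h : Matrix ι ι F) i₀ i₀ = c ∧
      (∀ v, ((h : Matrix ι ι F) *ᵥ v) i₀ = (h : Matrix ι ι F) i₀ i₀ * v i₀) ∧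
      (h : Matrix ι ι F)ᵀ * (B + Bᵀ) * (h : Matrix ι ι F) = c • (B + Bᵀ) ∧
      (h : Matrix ι ι F) *ᵥ e₀ = (h : Matrix ι ι F) i₀ i₀ • e₀ := by
  have hbil : ∀ u v : ι → F, ((h : Matrix ι ι F) *ᵥ u) ⬝ᵥ A2 B i₀ *ᵥ ((h : Matrix ι ι F) *ᵥ v)
      = c * (u ⬝ᵥ A2 B i₀ *ᵥ v) := by
    intro u v
    rw [bil_conj, hc, Matrix.smul_mulVec, dotProduct_smul, smul_eq_mul]
  have hq : ∀ v : ι → F, ((h : Matrix ι ι F) *ᵥ v) i₀ * ((h : Matrix ι ι F) *ᵥ v) i₀
      = c * (v i₀ * v i₀) := by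
    intro v
    have := hbil v v
    rwa [A2_bil, A2_bil, polar_dot_self, polar_dot_self, add_zero, add_zero] at this
  have ha : (h : Matrix ι ι F) i₀ i₀ * (h : Matrix ι ι F) i₀ i₀ = c := by
    have := hq e₀
    rw [Matrix.mulVec_single_one] at this
    simpa using this
  have hrow : ∀ v, ((h : Matrix ι ι F) *ᵥ v) i₀ = (h : Matrix ι ι F) i₀ i₀ * v i₀ := by
    intro v
    apply sq_inj
    rw [hq, ← ha]
    ring
  have hJ : (h : Matrix ι ι F)ᵀ * (B + Bᵀ) * (h : Matrix ι ι F) = c • (B + Bᵀ) := by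
    apply ext_bil
    intro u v
    have := hbil u v
    rw [A2_bil, A2_bil, hrow, hrow, bil_conj] at this
    rw [Matrix.smul_mulVec, dotProduct_smul, smul_eq_mul]
    have e1 : (h : Matrix ι ι F) i₀ i₀ * u i₀ * ((h : Matrix ι ι F) i₀ i₀ * v i₀) = c * (u i₀ * v i₀) := by
      rw [← ha]; ring
    rw [e1, mul_add (c : F) (u i₀ * v i₀)] at this
    exact add_left_cancel this
  exact ⟨ha, hrow, hJ, S.fix_line h c hJ⟩

theorem thHom_surjective (hsq : ∀ a : F, ∃ b, b * b = a) (S : Setup B i₀) :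
    Function.Surjective (thHom S) := by
  intro h
  obtain ⟨c, hc⟩ := h.2
  obtain ⟨ha, hrow, hJ, hcol⟩ := S.data' h c hc
  obtain ⟨a, haa⟩ : ∃ a, a = ((h : GL ι F) : Matrix ι ι F) i₀ i₀ := ⟨_, rfl⟩
  rw [← haa] at ha hrow hcol
  have ha0 : a ≠ 0 := by
    rintro rfl
    rw [mul_zero] at ha
    exact c.ne_zero ha.symm
  -- the defect
  let Δ : (ι → F) → F := fun v => (c : F) * qf B v + qf B (((h : GL ι F) : Matrix ι ι F) *ᵥ v)
  have hΔadd : ∀ u w, Δ (u + w) = Δ u + Δ w := by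
    intro u w
    show (c : F) * qf B (u + w) + qf B (((h : GL ι F) : Matrix ι ι F) *ᵥ (u + w)) = _
    rw [Matrix.mulVec_add, qf_add, qf_add, bil_conj, hJ, Matrix.smul_mulVec, dotProduct_smul, smul_eq_mul]
    show _ = (c : F) * qf B u + qf B (((h : GL ι F) : Matrix ι ι F) *ᵥ u)
      + ((c : F) * qf B w + qf B (((h : GL ι F) : Matrix ι ι F) *ᵥ w))
    have := add_self' ((c : F) * (u ⬝ᵥ (B + Bᵀ) *ᵥ w))
    linear_combination this
  have hΔsmul : ∀ (x : F) v, Δ (x • v) = x * x * Δ v := by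
    intro x v
    show (c : F) * qf B (x • v) + qf B (((h : GL ι F) : Matrix ι ι F) *ᵥ (x • v)) = _
    rw [Matrix.mulVec_smul, qf_smul, qf_smul]
    show _ = x * x * ((c : F) * qf B v + qf B (((h : GL ι F) : Matrix ι ι F) *ᵥ v))
    ring
  choose φ hφ using fun i : ι => hsq (Δ (Pi.single i 1))
  have hφv : ∀ v : ι → F, (φ ⬝ᵥ v) * (φ ⬝ᵥ v) = Δ v := by
    intro v
    rw [additive_eq Δ hΔadd v, ← pow_two, dotProduct, sum_pow_char 2]
    apply Finset.sum_congr rfl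
    intro i _
    have : (Pi.single i (v i) : ι → F) = v i • Pi.single i 1 := by
      ext j
      by_cases hj : j = i
      · subst hj; simp
      · simp [hj]
    rw [this, hΔsmul, ← hφ]
    ring
  have hφ0 : φ ⬝ᵥ e₀ = 0 := by
    have h1 := hφv e₀
    have h2 : Δ e₀ = 0 := by
      show (c : F) * qf B e₀ + qf B (((h : GL ι F) : Matrix ι ι F) *ᵥ e₀) = 0
      rw [hcol, qf_smul, S.qf_e, ha, mul_one, add_self']
    rw [h2] at h1
    exact mul_self_eq_zero.1 h1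
  -- the unipotent correction
  have hNN : (a⁻¹ • Matrix.vecMulVec e₀ φ) * (a⁻¹ • Matrix.vecMulVec e₀ φ) = 0 := by
    rw [smul_mul_assoc, mul_smul_comm, Matrix.vecMulVec_mul_vecMulVec, hφ0, zero_smul]
    ext i j
    simp [Matrix.vecMulVec_apply]
  let u : GL ι F := ⟨1 + a⁻¹ • Matrix.vecMulVec e₀ φ, 1 - a⁻¹ • Matrix.vecMulVec e₀ φ,
    by rw [add_mul, mul_sub, mul_sub, hNN]; simp, by rw [sub_mul, mul_add, mul_add, hNN]; simp⟩
  have hg : (((h : GL ι F) * u : GL ι F) : Matrix ι ι F)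
      = ((h : GL ι F) : Matrix ι ι F) + Matrix.vecMulVec e₀ φ := by
    show ((h : GL ι F) : Matrix ι ι F) * (1 + a⁻¹ • Matrix.vecMulVec e₀ φ) = _
    rw [mul_add, mul_one, mul_smul_comm, Matrix.mul_vecMulVec, hcol, Matrix.smul_vecMulVec, smul_smul,
      inv_mul_cancel₀ ha0, one_smul]
  have hmem : (h : GL ι F) * u ∈ Geo.quadSimilarityGroup (F := F) (qf B) := by
    refine ⟨c, ?_⟩
    intro v
    rw [hg, Matrix.add_mulVec, vecMulVec_mulVec', S.qf_add_smul, hφv]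
    show qf B (((h : GL ι F) : Matrix ι ι F) *ᵥ v)
      + ((c : F) * qf B v + qf B (((h : GL ι F) : Matrix ι ι F) *ᵥ v)) = _
    have := add_self' (qf B (((h : GL ι F) : Matrix ι ι F) *ᵥ v))
    linear_combination this
  refine ⟨⟨_, hmem⟩, ?_⟩
  apply Subtype.ext
  apply Units.ext
  rw [thHom_coe]
  show th i₀ (((h : GL ι F) * u : GL ι F) : Matrix ι ι F) = ((h : GL ι F) : Matrix ι ι F)
  rw [hg]
  apply Matrix.ext_of_mulVec_single
  intro i
  rw [th_mulVec, Matrix.add_mulVec, vecMulVec_mulVec']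
  have hφi : φ i₀ = 0 := by
    rw [dotProduct_single_one] at hφ0
    exact hφ0
  have e1 : (((h : GL ι F) : Matrix ι ι F) + Matrix.vecMulVec e₀ φ) i₀ i₀ = a := by
    rw [Matrix.add_apply, Matrix.vecMulVec_apply, hφi, mul_zero, add_zero, haa]
  rw [e1, Pi.add_apply, hrow, Pi.smul_apply, Pi.single_eq_same, smul_eq_mul, mul_one, sub_add_cancel_left,
    neg_smul, add_neg_cancel_right]

theorem th_scalar (c : F) : th i₀ (c • (1 : Matrix ι ι F)) = c • 1 := by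
  unfold th rr
  rw [Matrix.vecMul_smul, Matrix.vecMul_one, Matrix.smul_apply, Matrix.one_apply_eq, smul_eq_mul, mul_one,
    sub_self]
  ext i j
  simp [Matrix.vecMulVec_apply]

theorem scalars_le_quadSim (B : Matrix ι ι F) :
    Geo.scalars ι F ≤ Geo.quadSimilarityGroup (F := F) (qf B) := by
  intro g hg
  obtain ⟨c, hc⟩ := (Geo.mem_scalars_iff g).1 hg
  refine ⟨c * c, ?_⟩
  intro v
  rw [hc, Matrix.smul_mulVec, Matrix.one_mulVec, qf_smul, Units.val_mul]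

theorem theta_equiv (hsq : ∀ a : F, ∃ b, b * b = a) (S : Setup B i₀) :
    Nonempty (projQuot (Geo.quadSimilarityGroup (F := F) (qf B)) ≃* projQuot (simT (A2 B i₀))) := by
  refine projQuot_congr' _ _ (MulEquiv.ofBijective (thHom S) ⟨thHom_injective S, thHom_surjective hsq S⟩) ?_
  intro g
  show (g : GL ι F) ∈ Geo.scalars ι F ↔ ((thHom S g : ↥(simT (A2 B i₀))) : GL ι F) ∈ Geo.scalars ι F
  constructor
  · intro hg
    obtain ⟨c, hc⟩ := (Geo.mem_scalars_iff _).1 hg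
    rw [Geo.mem_scalars_iff]
    exact ⟨c, by rw [thHom_coe, hc, th_scalar]⟩
  · intro hg
    obtain ⟨c, hc⟩ := (Geo.mem_scalars_iff _).1 hg
    obtain ⟨z, hz, hzc⟩ := exists_scalar (ι := ι) c
    have h1 : thHom S ⟨z, scalars_le_quadSim B hz⟩ = thHom S g := by
      apply Subtype.ext
      apply Units.ext
      rw [hc, thHom_coe]
      show th i₀ (z : Matrix ι ι F) = _
      rw [hzc, th_scalar]
    have h2 := thHom_injective S h1
    rw [← h2]
    exact hz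

end chartwo

/-! ### the standard form -/

section std

variable [CharP F 2] (m : ℕ)

/-- Gram matrix `[1] ⊕ [[0,1],[1,0]]` -/
def AOdd2 (F : Type*) [Field F] (m : ℕ) :
    Matrix (Unit ⊕ (Fin m ⊕ Fin m)) (Unit ⊕ (Fin m ⊕ Fin m)) F :=
  Matrix.fromBlocks 1 0 0 (APlus F m)

theorem polar_BOdd : BOdd F m + (BOdd F m)ᵀ = Matrix.fromBlocks 0 0 0 (APlus F m) := by
  rw [BOdd_add]
  unfold AOdd
  rw [two_eq_zero', zero_smul]

theorem APlus_mul_self : APlus F m * APlus F m = 1 := by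
  unfold APlus
  rw [Matrix.fromBlocks_multiply]
  simp

theorem setup_BOdd : Setup (BOdd F m) (Sum.inl ()) := by
  refine ⟨?_, ?_, ?_⟩
  · rw [polar_BOdd, Matrix.mulVec_single_one]
    ext i
    rcases i with i | i <;> simp [Matrix.col_apply]
  · intro x hx
    rw [polar_BOdd, Matrix.fromBlocks_mulVec] at hx
    have h1 : APlus F m *ᵥ (x ∘ Sum.inr) = 0 := by
      ext i
      have := congrFun hx (Sum.inr i)
      simpa using this
    have h2 : x ∘ Sum.inr = 0 := by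
      have := congrArg (fun z => APlus F m *ᵥ z) h1
      simp only [Matrix.mulVec_mulVec, APlus_mul_self, Matrix.one_mulVec, Matrix.mulVec_zero] at this
      exact this
    ext i
    rcases i with i | i
    · simp
    · have := congrFun h2 i
      simpa using this
  · simp [BOdd]

theorem A2_BOdd : A2 (BOdd F m) (Sum.inl ()) = AOdd2 F m := by
  unfold A2 AOdd2
  rw [polar_BOdd]
  ext i j
  rcases i with i | i <;> rcases j with j | j <;> simp [Matrix.vecMulVec_apply, Matrix.one_apply]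

theorem qf_BOdd : qf (BOdd F m) = quadFormOdd m F := by
  funext v
  exact (quadFormOdd_eq m v).symm

theorem PGO_odd_two (hsq : ∀ a : F, ∃ b, b * b = a) :
    Nonempty (PGO F (quadFormOdd m F) ≃* projQuot (simT (AOdd2 F m))) := by
  have := theta_equiv hsq (setup_BOdd (F := F) m)
  rwa [qf_BOdd, A2_BOdd] at this

omit [CharP F 2] in
theorem AOdd2_transpose : (AOdd2 F m)ᵀ = AOdd2 F m := by
  unfold AOdd2
  rw [Matrix.fromBlocks_transpose, APlus_transpose]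
  simp

omit [CharP F 2] in
theorem det_AOdd2 : (AOdd2 F m).det ≠ 0 := by
  unfold AOdd2
  rw [Matrix.det_fromBlocks_zero₂₁, det_APlus, Matrix.det_one, one_mul]
  exact pow_ne_zero _ (by simp)

end std

end Cfsg.Agent.Lib.Helper50FormTheta
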