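import Mathlib
import Cfsg.Prelude
import Cfsg.Agent.Lib.Helper50Form
import Cfsg.Agent.Lib.Helper50Cent
import Cfsg.Agent.Lib.Helper50GF

set_option autoImplicit false
open Cfsg
open scoped MatrixGroups Matrix

/-! Graph automorphisms `gam A = c(A⁻¹) ι` of `PSL_n(F)`. (helper50) -/

namespace Cfsg.Agent.Lib.Helper50Gam

open Cfsg.Agent.Lib.Helper50Aut Cfsg.Agent.Lib.Helper50AutStr Cfsg.Agent.Lib.Helper50Twist
  Cfsg.Agent.Lib.Helper50Cent Cfsg.Agent.Lib.Helper50GF Cfsg.Agent.Lib.Helper50Form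
  Cfsg.Agent.Lib.Helper50Split

variable {F : Type*} [Field F] {n : ℕ}

local notation "Mn" => Matrix (Fin n) (Fin n) F
local notation "AutP" => MulAut (Matrix.ProjectiveSpecialLinearGroup (Fin n) F)

/-- the graph automorphism attached to the bilinear form with Gram matrix `A` -/
noncomputable def gam (A : GL (Fin n) F) : AutP := cHom A⁻¹ * iota

theorem isGraph_iff (hn : 3 ≤ n) (β : AutP) : Cfsg.IsGraphAutClassPSL β ↔ ∃ A, β = gam A := by
  constructor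
  · rintro ⟨-, δ, γ, hδ, hγ, rfl⟩
    obtain ⟨g, rfl⟩ := (isInnerDiagonal_iff δ).1 hδ
    rw [(isInvT_iff γ).1 hγ]
    exact ⟨g⁻¹, by rw [gam, inv_inv]⟩
  · rintro ⟨A, rfl⟩
    exact ⟨hn, cHom A⁻¹, iota, (isInnerDiagonal_iff _).2 ⟨_, rfl⟩, (isInvT_iff _).2 rfl, rfl⟩

theorem invTGL_coe (g : GL (Fin n) F) : (invTGL g : Mn) = ((g⁻¹ : GL (Fin n) F) : Mn)ᵀ := rfl

theorem invTGL_inv_coe (g : GL (Fin n) F) : (((invTGL g)⁻¹ : GL (Fin n) F) : Mn) = (g : Mn)ᵀ := rfl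

theorem invTGL_inv (g : GL (Fin n) F) : invTGL g⁻¹ = (invTGL g)⁻¹ := by
  apply Units.ext
  rw [invTGL_coe, invTGL_inv_coe, inv_inv]

theorem gam_mul_cHom (A g : GL (Fin n) F) :
    gam A * cHom g = cHom (A⁻¹ * invTGL g * A) * gam A := by
  unfold gam
  rw [mul_assoc, iota_mul_cHom, ← mul_assoc, ← mul_assoc, ← map_mul, ← map_mul]
  congr 2
  group

theorem mem_centralizer_gam (hn : 2 ≤ n) (A g : GL (Fin n) F) :
    cHom g ∈ Subgroup.centralizer {gam A} ↔ g ∈ simT (A : Mn) := by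
  rw [mem_centralizer_iff_of_twist hn _ g _ (gam_mul_cHom A g), mem_simT]
  constructor
  · rintro ⟨z, hz, e⟩
    refine ⟨Units.mk0 z⁻¹ (inv_ne_zero hz), ?_⟩
    rw [Units.val_mul, Units.val_mul, invTGL_coe] at e
    have e1 : ((g⁻¹ : GL (Fin n) F) : Mn)ᵀ * (A : Mn) = z • ((A : Mn) * (g : Mn)) := by
      calc ((g⁻¹ : GL (Fin n) F) : Mn)ᵀ * (A : Mn)
          = (A : Mn) * (((A⁻¹ : GL (Fin n) F) : Mn) * ((g⁻¹ : GL (Fin n) F) : Mn)ᵀ * (A : Mn)) := by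
            rw [← mul_assoc, ← mul_assoc, gl_mul_inv', one_mul]
        _ = _ := by rw [e, mul_smul_comm]
    have e2 : (A : Mn) = z • ((g : Mn)ᵀ * (A : Mn) * (g : Mn)) := by
      calc (A : Mn) = (g : Mn)ᵀ * (((g⁻¹ : GL (Fin n) F) : Mn)ᵀ * (A : Mn)) := by
            rw [← mul_assoc, glT_mul_inv, one_mul]
        _ = _ := by rw [e1, mul_smul_comm, mul_assoc]
    show (g : Mn)ᵀ * (A : Mn) * (g : Mn) = z⁻¹ • (A : Mn)
    conv_rhs => rw [e2]
    rw [smul_smul, inv_mul_cancel₀ hz, one_smul]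
  · rintro ⟨c, hc⟩
    refine ⟨(c : F)⁻¹, inv_ne_zero c.ne_zero, ?_⟩
    rw [Units.val_mul, Units.val_mul, invTGL_coe]
    have e1 : ((g⁻¹ : GL (Fin n) F) : Mn)ᵀ * (A : Mn) = (c : F)⁻¹ • ((A : Mn) * (g : Mn)) := by
      have : (A : Mn) * (g : Mn) = (c : F) • (((g⁻¹ : GL (Fin n) F) : Mn)ᵀ * (A : Mn)) := by
        rw [← mul_smul_comm, ← hc, ← mul_assoc, ← mul_assoc, glT_inv_mul, one_mul]
      rw [this, smul_smul, inv_mul_cancel₀ c.ne_zero, one_smul]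
    rw [mul_assoc, e1, mul_smul_comm, ← mul_assoc, gl_inv_mul', one_mul]

theorem centralizer_equiv (hn : 2 ≤ n) (A : GL (Fin n) F) :
    Nonempty (↥(Cfsg.inndiagPSL n F ⊓ Subgroup.centralizer {gam A}) ≃* projQuot (simT (A : Mn))) := by
  rw [inndiag_eq]
  let Ψ : ↥(simT (A : Mn)) →* AutP := cHom.comp (simT (A : Mn)).subtype
  have hrange : Ψ.range = (cHom : GL (Fin n) F →* AutP).range ⊓ Subgroup.centralizer {gam A} := by
    ext y
    constructor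
    · rintro ⟨h, rfl⟩
      exact ⟨⟨_, rfl⟩, (mem_centralizer_gam hn A h.1).2 h.2⟩
    · rintro ⟨⟨g, rfl⟩, hg⟩
      exact ⟨⟨g, (mem_centralizer_gam hn A g).1 hg⟩, rfl⟩
  have hker : Ψ.ker = (Cfsg.Geo.scalars (Fin n) F).subgroupOf (simT (A : Mn)) := by
    ext h
    rw [MonoidHom.mem_ker, Subgroup.mem_subgroupOf]
    have h1 : Cfsg.Geo.scalars (Fin n) F = Subgroup.center (GL (Fin n) F) := by
      rw [Matrix.GeneralLinearGroup.center_eq_range_scalar]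
      rfl
    rw [h1, ← ker_cHom hn, MonoidHom.mem_ker]
    rfl
  exact ⟨(((QuotientGroup.quotientMulEquivOfEq hker.symm).trans
    (QuotientGroup.quotientKerEquivRange Ψ)).trans (MulEquiv.subgroupCongr hrange)).symm⟩

theorem cHom_eq_iff (hn : 2 ≤ n) (g h : GL (Fin n) F) :
    (cHom g : AutP) = cHom h ↔ ∃ c : F, c ≠ 0 ∧ (h : Mn) = c • (g : Mn) := by
  constructor
  · intro e
    have h2 : h * g⁻¹ ∈ (cHom : GL (Fin n) F →* AutP).ker := by
      rw [MonoidHom.mem_ker, map_mul, map_inv, e, mul_inv_cancel]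
    rw [ker_cHom hn, Matrix.GeneralLinearGroup.center_eq_range_scalar] at h2
    obtain ⟨z, hz⟩ := h2
    refine ⟨z, z.ne_zero, ?_⟩
    have h3 : h = Matrix.GeneralLinearGroup.scalar (Fin n) z * g := by
      rw [hz, inv_mul_cancel_right]
    rw [h3, scalar_mul_coe]
  · rintro ⟨c, hc, e⟩
    exact (cHom_smul c hc g h e).symm

theorem inv_smul_coe (c : F) (hc : c ≠ 0) (g h : GL (Fin n) F) (e : (h : Mn) = c • (g : Mn)) :
    ((h⁻¹ : GL (Fin n) F) : Mn) = c⁻¹ • ((g⁻¹ : GL (Fin n) F) : Mn) := by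
  have h1 : (h : Mn) * (c⁻¹ • ((g⁻¹ : GL (Fin n) F) : Mn)) = 1 := by
    rw [e, smul_mul_assoc, mul_smul_comm, smul_smul, mul_inv_cancel₀ hc, one_smul, gl_mul_inv']
  calc ((h⁻¹ : GL (Fin n) F) : Mn) = ((h⁻¹ : GL (Fin n) F) : Mn) * ((h : Mn) * (c⁻¹ • ((g⁻¹ : GL (Fin n) F) : Mn))) := by
        rw [h1, mul_one]
    _ = _ := by rw [← mul_assoc, gl_inv_mul', one_mul]

theorem gam_eq_iff (hn : 2 ≤ n) (A A' : GL (Fin n) F) :
    gam A = gam A' ↔ ∃ c : F, c ≠ 0 ∧ (A' : Mn) = c • (A : Mn) := by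
  unfold gam
  rw [mul_left_inj, cHom_eq_iff hn]
  constructor
  · rintro ⟨c, hc, e⟩
    refine ⟨c⁻¹, inv_ne_zero hc, ?_⟩
    have := inv_smul_coe c hc _ _ e
    rwa [inv_inv, inv_inv] at this
  · rintro ⟨c, hc, e⟩
    exact ⟨c⁻¹, inv_ne_zero hc, inv_smul_coe c hc _ _ e⟩

/-- the congruence action -/
def cong (P A : GL (Fin n) F) : GL (Fin n) F := (invTGL P)⁻¹ * A * P

theorem cong_coe (P A : GL (Fin n) F) : (cong P A : Mn) = (P : Mn)ᵀ * (A : Mn) * (P : Mn) := rfl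

theorem conj_gam (P A : GL (Fin n) F) :
    cHom P⁻¹ * gam A * (cHom P⁻¹ : AutP)⁻¹ = gam (cong P A) := by
  rw [← map_inv, inv_inv, mul_assoc, gam_mul_cHom, ← mul_assoc, ← map_mul]
  unfold gam cong
  rw [← mul_assoc, ← map_mul]
  congr 2
  group

theorem isConj_gam_iff (hn : 2 ≤ n) (A A' : GL (Fin n) F) :
    Cfsg.IsConjUnder (Cfsg.inndiagPSL n F) (gam A) (gam A') ↔
      ∃ (P : GL (Fin n) F) (c : F), c ≠ 0 ∧ (A' : Mn) = c • ((P : Mn)ᵀ * (A : Mn) * (P : Mn)) := by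
  rw [inndiag_eq]
  constructor
  · rintro ⟨_, ⟨g, rfl⟩, e⟩
    have h1 := conj_gam g⁻¹ A
    rw [inv_inv] at h1
    rw [h1, gam_eq_iff hn] at e
    obtain ⟨c, hc, e⟩ := e
    refine ⟨g⁻¹, c⁻¹, inv_ne_zero hc, ?_⟩
    rw [← cong_coe, e, smul_smul, inv_mul_cancel₀ hc, one_smul]
  · rintro ⟨P, c, hc, e⟩
    refine ⟨cHom P⁻¹, ⟨_, rfl⟩, ?_⟩
    rw [conj_gam, gam_eq_iff hn]
    exact ⟨c⁻¹, inv_ne_zero hc, by rw [cong_coe, e, smul_smul, inv_mul_cancel₀ hc, one_smul]⟩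

theorem gam_ne_one (hn : 3 ≤ n) (A : GL (Fin n) F) : gam A ≠ 1 := by
  intro h
  apply cHom_mul_fHom_ne_iota hn A 1
  rw [map_one, mul_one]
  unfold gam at h
  rw [map_inv, inv_mul_eq_one] at h
  exact h

theorem gam_mul_self (A : GL (Fin n) F) : gam A * gam A = cHom (A⁻¹ * (invTGL A)⁻¹) := by
  unfold gam
  rw [mul_assoc, ← mul_assoc iota, iota_mul_cHom, mul_assoc, iota_mul_self, mul_one, ← map_mul,
    invTGL_inv]

theorem coe_ne_zero (hn : 0 < n) (A : GL (Fin n) F) : (A : Mn) ≠ 0 := by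
  intro h
  have h1 := gl_mul_inv' A
  rw [h, zero_mul] at h1
  have := congrFun (congrFun h1 ⟨0, hn⟩) ⟨0, hn⟩
  simp at this

theorem orderOf_gam (hn : 3 ≤ n) (A : GL (Fin n) F) :
    orderOf (gam A) = 2 ↔ ((A : Mn)ᵀ = (A : Mn) ∨ (A : Mn)ᵀ = -(A : Mn)) := by
  have key : gam A * gam A = 1 ↔ ∃ c : F, c ≠ 0 ∧ (A : Mn)ᵀ = c • (A : Mn) := by
    rw [gam_mul_self, ← map_one (cHom : GL (Fin n) F →* AutP), eq_comm, cHom_eq_iff (by omega)]
    constructor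
    · rintro ⟨c, hc, e⟩
      refine ⟨c, hc, ?_⟩
      rw [Units.val_mul, invTGL_inv_coe, Units.val_one] at e
      calc (A : Mn)ᵀ = (A : Mn) * (((A⁻¹ : GL (Fin n) F) : Mn) * (A : Mn)ᵀ) := by
            rw [← mul_assoc, gl_mul_inv', one_mul]
        _ = _ := by rw [e, mul_smul_comm, mul_one]
    · rintro ⟨c, hc, e⟩
      refine ⟨c, hc, ?_⟩
      rw [Units.val_mul, invTGL_inv_coe, Units.val_one, e, mul_smul_comm, gl_inv_mul']
  constructor
  · intro h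
    have h1 : gam A * gam A = 1 := by rw [← pow_two, ← h, pow_orderOf_eq_one]
    obtain ⟨c, hc, e⟩ := key.1 h1
    have e2 : (A : Mn) = (c * c) • (A : Mn) := by
      calc (A : Mn) = ((A : Mn)ᵀ)ᵀ := (Matrix.transpose_transpose _).symm
        _ = _ := by rw [e, Matrix.transpose_smul, e, smul_smul]
    have e3 : c * c = 1 := by
      by_contra hne
      have h3 : (c * c - 1) • (A : Mn) = 0 := by rw [sub_smul, one_smul, ← e2, sub_self]
      rcases smul_eq_zero.1 h3 with h4 | h4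
      · exact hne (sub_eq_zero.1 h4)
      · exact coe_ne_zero (by omega) A h4
    rcases mul_self_eq_one_iff.1 e3 with rfl | rfl
    · left; rw [e, one_smul]
    · right; rw [e, neg_smul, one_smul]
  · intro h
    apply orderOf_eq_prime
    · rw [pow_two, key]
      rcases h with h | h
      · exact ⟨1, one_ne_zero, by rw [h, one_smul]⟩
      · exact ⟨-1, by simp, by rw [h, neg_smul, one_smul]⟩
    · exact gam_ne_one hn A

end Cfsg.Agent.Lib.Helper50Gam
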