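import Mathlib
import Cfsg.Prelude
import Cfsg.Agent.Lib.Helper50Form
import Cfsg.Agent.Lib.Helper50FormCl
import Cfsg.Agent.Lib.Helper50FormStd
import Cfsg.Agent.Lib.Helper50FormTwo
import Cfsg.Agent.Lib.Helper50FormTheta
import Cfsg.Agent.Lib.Helper50Gam

set_option autoImplicit false
open Cfsg
open scoped MatrixGroups Matrix

/-! Classes of involutory graph automorphisms of `PSL_n(F)`. (helper50) -/

namespace Cfsg.Agent.Lib.Helper50GamCl

open Cfsg.Agent.Lib.Helper50Aut Cfsg.Agent.Lib.Helper50AutStr Cfsg.Agent.Lib.Helper50Twist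
  Cfsg.Agent.Lib.Helper50Cent Cfsg.Agent.Lib.Helper50GF Cfsg.Agent.Lib.Helper50Form
  Cfsg.Agent.Lib.Helper50Split Cfsg.Agent.Lib.Helper50Gam Cfsg.Agent.Lib.Helper50FormCl
  Cfsg.Agent.Lib.Helper50FormStd Cfsg.Agent.Lib.Helper50FormTwo Cfsg.Agent.Lib.Helper50FormTheta

variable {F : Type*} [Field F] {n : ℕ} {ι : Type} [Fintype ι] [DecidableEq ι]

local notation "Mn" => Matrix (Fin n) (Fin n) F
local notation "AutP" => MulAut (Matrix.ProjectiveSpecialLinearGroup (Fin n) F)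

/-- a standard Gram matrix transported to `Fin n` -/
noncomputable def stdGL (e : ι ≃ Fin n) (A₀ : Matrix ι ι F) (h : A₀.det ≠ 0) : GL (Fin n) F :=
  Matrix.GeneralLinearGroup.mkOfDetNeZero (A₀.submatrix e.symm e.symm)
    (by rwa [Matrix.det_submatrix_equiv_self])

theorem stdGL_coe (e : ι ≃ Fin n) (A₀ : Matrix ι ι F) (h : A₀.det ≠ 0) :
    (stdGL e A₀ h : Mn) = A₀.submatrix e.symm e.symm := rfl

theorem det_stdGL (e : ι ≃ Fin n) (A₀ : Matrix ι ι F) (h : A₀.det ≠ 0) :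
    (stdGL e A₀ h : Mn).det = A₀.det := by
  rw [stdGL_coe, Matrix.det_submatrix_equiv_self]

theorem stdGL_transpose (e : ι ≃ Fin n) (A₀ : Matrix ι ι F) (h : A₀.det ≠ 0) (hs : A₀ᵀ = A₀) :
    (stdGL e A₀ h : Mn)ᵀ = (stdGL e A₀ h : Mn) := by
  rw [stdGL_coe, Matrix.transpose_submatrix, hs]

theorem cent_std (hn : 2 ≤ n) (e : ι ≃ Fin n) (A₀ : Matrix ι ι F) (h : A₀.det ≠ 0) :
    Nonempty (↥(Cfsg.inndiagPSL n F ⊓ Subgroup.centralizer {gam (stdGL e A₀ h)})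
      ≃* projQuot (simT A₀)) := by
  obtain ⟨e1⟩ := centralizer_equiv hn (stdGL e A₀ h)
  obtain ⟨e2⟩ := simT_reindex e A₀
  exact ⟨e1.trans e2.symm⟩

theorem cent_of_isConj [Fintype F] (hn : 2 ≤ n) (γ γ' : AutP)
    (h : Cfsg.IsConjUnder (Cfsg.inndiagPSL n F) γ γ') :
    Nonempty (↥(Cfsg.inndiagPSL n F ⊓ Subgroup.centralizer {γ})
      ≃* ↥(Cfsg.inndiagPSL n F ⊓ Subgroup.centralizer {γ'})) := by
  obtain ⟨α, -, rfl⟩ := h
  haveI : (Cfsg.inndiagPSL n F).Normal := by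
    rw [inndiag_eq]
    exact normal_range_cHom hn
  exact centralizer_conj_equiv _ α γ

theorem det_ne_zero (A : GL (Fin n) F) : (A : Mn).det ≠ 0 := by
  intro h
  have h1 := congrArg Matrix.det (gl_mul_inv' A)
  rw [Matrix.det_mul, h, zero_mul, Matrix.det_one] at h1
  exact zero_ne_one h1

theorem conj_of_sq [Finite F] (h2 : (2 : F) ≠ 0) (hn : 2 ≤ n) (A A' : GL (Fin n) F)
    (hA : (A : Mn)ᵀ = A) (hA' : (A' : Mn)ᵀ = A') (c : F) (hc : c ≠ 0)
    (hsq : IsSquare (c ^ n * (A : Mn).det * (A' : Mn).det)) :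
    Cfsg.IsConjUnder (Cfsg.inndiagPSL n F) (gam A) (gam A') := by
  rw [isConj_gam_iff hn]
  have hdet : (c • (A : Mn)).det = c ^ n * (A : Mn).det := by
    rw [Matrix.det_smul, Fintype.card_fin]
  obtain ⟨P, hP⟩ := sym_congr h2 (c • (A : Mn)) (A' : Mn) (by rw [Matrix.transpose_smul, hA]) hA'
    (by rw [hdet]; exact mul_ne_zero (pow_ne_zero _ hc) (det_ne_zero A)) (det_ne_zero A')
    (by rw [hdet]; exact hsq)
  refine ⟨P, c, hc, ?_⟩
  rw [← hP, mul_smul_comm, smul_mul_assoc]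

theorem conj_of_alt (hn : 2 ≤ n) (A A' : GL (Fin n) F) (hA : IsAltM (A : Mn)) (hA' : IsAltM (A' : Mn)) :
    Cfsg.IsConjUnder (Cfsg.inndiagPSL n F) (gam A) (gam A') := by
  rw [isConj_gam_iff hn]
  obtain ⟨P, hP⟩ := alt_congr (A : Mn) (A' : Mn) hA hA' (det_ne_zero A) (det_ne_zero A')
  exact ⟨P, 1, one_ne_zero, by rw [hP, one_smul]⟩

theorem conj_of_two [CharP F 2] (hsq : ∀ a : F, ∃ b, b * b = a) (hn : 2 ≤ n) (A A' : GL (Fin n) F)
    (hA : (A : Mn)ᵀ = A) (hA' : (A' : Mn)ᵀ = A') (hna : ∃ i, (A : Mn) i i ≠ 0)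
    (hna' : ∃ i, (A' : Mn) i i ≠ 0) :
    Cfsg.IsConjUnder (Cfsg.inndiagPSL n F) (gam A) (gam A') := by
  rw [isConj_gam_iff hn]
  obtain ⟨P, hP⟩ := sym_congr_two hsq (A : Mn) (A' : Mn) hA hA' (det_ne_zero A) (det_ne_zero A') hna hna'
  exact ⟨P, 1, one_ne_zero, by rw [hP, one_smul]⟩

theorem even_card_of_alt (M : Matrix ι ι F) (hM : IsAltM M) (hd : M.det ≠ 0) :
    Even (Fintype.card ι) := by
  obtain ⟨m, k, b, -, -, -, h4⟩ := Cfsg.Agent.S0752.result (Matrix.toBilin' M)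
    (fun v => by rw [Matrix.toBilin'_apply']; exact hM.dot_self v)
  have hk : k = 0 := by
    by_contra hk
    have h5 : b (Sum.inr ⟨0, Nat.pos_of_ne_zero hk⟩) ∈ LinearMap.ker (Matrix.toBilin' M) := by
      rw [LinearMap.mem_ker]
      ext v
      simpa using h4 ⟨0, Nat.pos_of_ne_zero hk⟩ (Pi.single v 1)
    rw [toBilin'_ker M hd, Submodule.mem_bot] at h5
    exact b.ne_zero _ h5
  have h6 := Module.finrank_eq_card_basis b
  rw [Module.finrank_fintype_fun_eq_card] at h6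
  simp only [Fintype.card_sum, Fintype.card_fin] at h6
  exact ⟨m, by omega⟩

theorem not_conj_alt (hn : 2 ≤ n) (A A' : GL (Fin n) F) (hA : IsAltM (A : Mn))
    (hA' : ¬ IsAltM (A' : Mn)) :
    ¬ Cfsg.IsConjUnder (Cfsg.inndiagPSL n F) (gam A) (gam A') := by
  rw [isConj_gam_iff hn]
  rintro ⟨P, c, -, e⟩
  apply hA'
  rw [e]
  exact hA.congr _ c

theorem isAltM_submatrix (e : ι ≃ Fin n) (A₀ : Matrix ι ι F) (h : IsAltM A₀) :
    IsAltM (A₀.submatrix e.symm e.symm) := by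
  refine ⟨?_, fun i => h.2 _⟩
  rw [Matrix.transpose_submatrix, h.1]
  rfl

theorem isAltM_of_skew (h2 : (2 : F) ≠ 0) (M : Matrix ι ι F) (h : Mᵀ = -M) : IsAltM M := by
  refine ⟨h, fun i => ?_⟩
  have := congrFun (congrFun h i) i
  rw [Matrix.transpose_apply, Matrix.neg_apply] at this
  have h3 : 2 * M i i = 0 := by linear_combination this
  rcases mul_eq_zero.1 h3 with h4 | h4
  · exact absurd h4 h2
  · exact h4

theorem not_alt_of_sym (h2 : (2 : F) ≠ 0) (hn : 0 < n) (A : GL (Fin n) F) (h : (A : Mn)ᵀ = A) :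
    ¬ IsAltM (A : Mn) := by
  intro hA
  have h1 := hA.1
  rw [h] at h1
  have h3 : (2 : F) • (A : Mn) = 0 := by
    rw [two_smul]
    nth_rewrite 1 [h1]
    exact neg_add_cancel _
  rcases smul_eq_zero.1 h3 with h4 | h4
  · exact h2 h4
  · exact coe_ne_zero hn A h4

end Cfsg.Agent.Lib.Helper50GamCl
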