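import Mathlib
import Cfsg.Prelude
import Cfsg.Agent.Lib.Helper50GamCl

set_option autoImplicit false
open Cfsg
open scoped MatrixGroups Matrix

/-! Involutory graph automorphisms of `PSL_{2m}(F)`, `|F|` odd: the three classes. (helper50) -/

namespace Cfsg.Agent.Lib.Helper50GamEven

open Cfsg.Agent.Lib.Helper50Aut Cfsg.Agent.Lib.Helper50AutStr Cfsg.Agent.Lib.Helper50Twist
  Cfsg.Agent.Lib.Helper50Cent Cfsg.Agent.Lib.Helper50GF Cfsg.Agent.Lib.Helper50Form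
  Cfsg.Agent.Lib.Helper50Split Cfsg.Agent.Lib.Helper50Gam Cfsg.Agent.Lib.Helper50FormCl
  Cfsg.Agent.Lib.Helper50FormStd Cfsg.Agent.Lib.Helper50FormTwo Cfsg.Agent.Lib.Helper50FormTheta
  Cfsg.Agent.Lib.Helper50GamCl

variable {F : Type*} [Field F] {n m : ℕ}

local notation "Mn" => Matrix (Fin n) (Fin n) F
local notation "AutP" => MulAut (Matrix.ProjectiveSpecialLinearGroup (Fin n) F)

theorem ringChar_ne_two [Fintype F] (hodd : Odd (Fintype.card F)) : ringChar F ≠ 2 := by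
  intro h
  have := FiniteField.even_card_iff_char_two.1 h
  rw [Nat.odd_iff] at hodd
  omega

theorem two_ne_zero_of_odd [Fintype F] (hodd : Odd (Fintype.card F)) : (2 : F) ≠ 0 :=
  Ring.two_ne_zero (ringChar_ne_two hodd)

theorem isSquare_mul_of_not [Fintype F] {x y : F} (hx : ¬ IsSquare x) (hy : ¬ IsSquare y) :
    IsSquare (x * y) := by
  classical
  have hx0 : x ≠ 0 := by
    rintro rfl
    exact hx ⟨0, by simp⟩
  have hy0 : y ≠ 0 := by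
    rintro rfl
    exact hy ⟨0, by simp⟩
  rw [← quadraticChar_one_iff_isSquare (mul_ne_zero hx0 hy0), map_mul,
    quadraticChar_neg_one_iff_not_isSquare.2 hx, quadraticChar_neg_one_iff_not_isSquare.2 hy]
  norm_num

theorem aniso (α : F) (hα : ¬ IsSquare α) :
    ∀ z₁ z₂ : F, z₁ ^ 2 + 0 * z₁ * z₂ + (-α) * z₂ ^ 2 = 0 → z₁ = 0 ∧ z₂ = 0 := by
  intro z₁ z₂ h
  have hz2 : z₂ = 0 := by
    by_contra hz
    apply hα
    refine ⟨z₁ / z₂, ?_⟩
    field_simp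
    linear_combination -h
  subst hz2
  refine ⟨?_, rfl⟩
  have : z₁ ^ 2 = 0 := by linear_combination h
  exact pow_eq_zero_iff (two_ne_zero) |>.1 this

noncomputable def eP (hnm : n = 2 * m) : Fin m ⊕ Fin m ≃ Fin n :=
  Fintype.equivFinOfCardEq (by simp only [Fintype.card_sum, Fintype.card_fin]; omega)

noncomputable def eM (hm : 1 ≤ m) (hnm : n = 2 * m) : (Fin (m - 1) ⊕ Fin (m - 1)) ⊕ Fin 2 ≃ Fin n :=
  Fintype.equivFinOfCardEq (by simp only [Fintype.card_sum, Fintype.card_fin]; omega)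

theorem det_APlus_ne : (APlus F m).det ≠ 0 := by
  rw [det_APlus]
  exact pow_ne_zero _ (by simp)

theorem det_AMinus_ne (h2 : (2 : F) ≠ 0) (k : ℕ) (α : F) (hα : α ≠ 0) : (AMinus k 0 (-α)).det ≠ 0 := by
  rw [det_AMinus]
  apply mul_ne_zero (pow_ne_zero _ (by simp))
  have : (4 : F) * -α - 0 ^ 2 = -(2 * 2 * α) := by ring
  rw [this]
  exact neg_ne_zero.2 (mul_ne_zero (mul_ne_zero h2 h2) hα)

noncomputable def G1 (hnm : n = 2 * m) : GL (Fin n) F :=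
  stdGL (eP hnm) (Matrix.J (Fin m) F) (det_J_ne_zero m)

noncomputable def G2 (hnm : n = 2 * m) : GL (Fin n) F :=
  stdGL (eP hnm) (APlus F m) det_APlus_ne

noncomputable def G3 (h2 : (2 : F) ≠ 0) (hm : 1 ≤ m) (hnm : n = 2 * m) (α : F) (hα : α ≠ 0) :
    GL (Fin n) F :=
  stdGL (eM hm hnm) (AMinus (m - 1) 0 (-α)) (det_AMinus_ne h2 _ α hα)

theorem G1_alt (hnm : n = 2 * m) : IsAltM ((G1 hnm : GL (Fin n) F) : Mn) :=
  isAltM_submatrix _ _ (J_isAlt m)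

theorem G2_sym (hnm : n = 2 * m) : ((G2 hnm : GL (Fin n) F) : Mn)ᵀ = (G2 hnm : GL (Fin n) F) :=
  stdGL_transpose _ _ _ (APlus_transpose m)

theorem G3_sym (h2 : (2 : F) ≠ 0) (hm : 1 ≤ m) (hnm : n = 2 * m) (α : F) (hα : α ≠ 0) :
    ((G3 h2 hm hnm α hα : GL (Fin n) F) : Mn)ᵀ = (G3 h2 hm hnm α hα : GL (Fin n) F) :=
  stdGL_transpose _ _ _ (AMinus_transpose _ _ _)

theorem det_G2 (hnm : n = 2 * m) : ((G2 hnm : GL (Fin n) F) : Mn).det = (-1) ^ m := by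
  unfold G2
  rw [det_stdGL, det_APlus]

theorem det_G3 (h2 : (2 : F) ≠ 0) (hm : 1 ≤ m) (hnm : n = 2 * m) (α : F) (hα : α ≠ 0) :
    ((G3 h2 hm hnm α hα : GL (Fin n) F) : Mn).det = (-1) ^ m * (2 * 2 * α) := by
  unfold G3
  rw [det_stdGL, det_AMinus]
  obtain ⟨k, rfl⟩ : ∃ k, m = k + 1 := ⟨m - 1, by omega⟩
  rw [Nat.add_sub_cancel, pow_succ]
  ring

theorem order_G1 (hn : 3 ≤ n) (hnm : n = 2 * m) : orderOf (gam (G1 hnm : GL (Fin n) F)) = 2 :=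
  (orderOf_gam hn _).2 (Or.inr (G1_alt hnm).1)

theorem order_G2 (hn : 3 ≤ n) (hnm : n = 2 * m) : orderOf (gam (G2 hnm : GL (Fin n) F)) = 2 :=
  (orderOf_gam hn _).2 (Or.inl (G2_sym hnm))

theorem order_G3 (hn : 3 ≤ n) (h2 : (2 : F) ≠ 0) (hm : 1 ≤ m) (hnm : n = 2 * m) (α : F) (hα : α ≠ 0) :
    orderOf (gam (G3 h2 hm hnm α hα : GL (Fin n) F)) = 2 :=
  (orderOf_gam hn _).2 (Or.inl (G3_sym h2 hm hnm α hα))

theorem cent_G1 (hn : 2 ≤ n) (hnm : n = 2 * m) :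
    Nonempty (↥(Cfsg.inndiagPSL n F ⊓ Subgroup.centralizer {gam (G1 hnm : GL (Fin n) F)})
      ≃* Cfsg.PGSp m F) := by
  obtain ⟨e1⟩ := cent_std hn (eP hnm) (Matrix.J (Fin m) F) (det_J_ne_zero m)
  obtain ⟨e2⟩ := projQuot_of_eq _ _ (GSp_eq (F := F) m)
  exact ⟨e1.trans e2.symm⟩

theorem cent_G2 (h2 : (2 : F) ≠ 0) (hn : 2 ≤ n) (hnm : n = 2 * m) :
    Nonempty (↥(Cfsg.inndiagPSL n F ⊓ Subgroup.centralizer {gam (G2 hnm : GL (Fin n) F)})
      ≃* Cfsg.PGO F (Cfsg.quadFormPlus m F)) := by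
  obtain ⟨e1⟩ := cent_std hn (eP hnm) (APlus F m) det_APlus_ne
  obtain ⟨e2⟩ := projQuot_of_eq _ _ (PGO_plus (F := F) m h2)
  exact ⟨e1.trans e2.symm⟩

theorem cent_G3 (h2 : (2 : F) ≠ 0) (hn : 2 ≤ n) (hm : 1 ≤ m) (hnm : n = 2 * m) (α : F) (hα : α ≠ 0) :
    Nonempty (↥(Cfsg.inndiagPSL n F ⊓ Subgroup.centralizer {gam (G3 h2 hm hnm α hα : GL (Fin n) F)})
      ≃* Cfsg.PGO F (Cfsg.quadFormMinus (m - 1) F 0 (-α))) := by
  obtain ⟨e1⟩ := cent_std hn (eM hm hnm) (AMinus (m - 1) 0 (-α)) (det_AMinus_ne h2 _ α hα)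
  obtain ⟨e2⟩ := projQuot_of_eq _ _ (PGO_minus (F := F) (m - 1) h2 0 (-α))
  exact ⟨e1.trans e2.symm⟩

theorem isSquare_of_conj (hn : 2 ≤ n) (hnm : n = 2 * m) (A A' : GL (Fin n) F)
    (h : Cfsg.IsConjUnder (Cfsg.inndiagPSL n F) (gam A) (gam A')) :
    IsSquare ((A : Mn).det * (A' : Mn).det) := by
  obtain ⟨P, c, -, e⟩ := (isConj_gam_iff hn A A').1 h
  rw [e, Matrix.det_smul, Fintype.card_fin, Matrix.det_mul, Matrix.det_mul, Matrix.det_transpose]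
  refine ⟨c ^ m * (P : Mn).det * (A : Mn).det, ?_⟩
  generalize (P : Mn).det = x
  generalize (A : Mn).det = y
  rw [hnm]
  ring

theorem not_isSquare_four_mul (h2 : (2 : F) ≠ 0) (α : F) (hα : ¬ IsSquare α) (x : F) (hx : x ≠ 0) :
    ¬ IsSquare (x * (x * (2 * 2 * α))) := by
  rintro ⟨s, hs⟩
  apply hα
  refine ⟨s / (2 * x), ?_⟩
  field_simp
  linear_combination hs

/-- a symmetric form is of plus or of minus type -/
theorem sym_class [Fintype F] (h2 : (2 : F) ≠ 0) (hn : 2 ≤ n) (hm : 1 ≤ m) (hnm : n = 2 * m) (α : F)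
    (hα : ¬ IsSquare α) (hα0 : α ≠ 0) (A : GL (Fin n) F) (hA : (A : Mn)ᵀ = A) :
    (IsSquare ((-1) ^ m * (A : Mn).det) →
      Cfsg.IsConjUnder (Cfsg.inndiagPSL n F) (gam (G2 hnm)) (gam A)) ∧
    (¬ IsSquare ((-1) ^ m * (A : Mn).det) →
      Cfsg.IsConjUnder (Cfsg.inndiagPSL n F) (gam (G3 h2 hm hnm α hα0)) (gam A)) := by
  constructor
  · intro h
    apply conj_of_sq h2 hn _ _ (G2_sym hnm) hA 1 one_ne_zero
    rw [one_pow, one_mul, det_G2]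
    exact h
  · intro h
    apply conj_of_sq h2 hn _ _ (G3_sym h2 hm hnm α hα0) hA 1 one_ne_zero
    rw [one_pow, one_mul, det_G3]
    have h4 : ¬ IsSquare (2 * 2 * α) := by
      rintro ⟨s, hs⟩
      apply hα
      refine ⟨s / 2, ?_⟩
      field_simp
      linear_combination hs
    have := isSquare_mul_of_not h4 h
    have e : (-1 : F) ^ m * (2 * 2 * α) * (A : Mn).det = 2 * 2 * α * ((-1) ^ m * (A : Mn).det) := by ring
    rw [e]
    exact this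

theorem not_conj_G2_G3 (h2 : (2 : F) ≠ 0) (hn : 2 ≤ n) (hm : 1 ≤ m) (hnm : n = 2 * m) (α : F)
    (hα : ¬ IsSquare α) (hα0 : α ≠ 0) :
    ¬ Cfsg.IsConjUnder (Cfsg.inndiagPSL n F) (gam (G2 hnm : GL (Fin n) F)) (gam (G3 h2 hm hnm α hα0)) := by
  intro h
  have := isSquare_of_conj hn hnm _ _ h
  rw [det_G2, det_G3] at this
  exact not_isSquare_four_mul h2 α hα _ (pow_ne_zero m (by simp)) this

end Cfsg.Agent.Lib.Helper50GamEven
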