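import Mathlib
import Cfsg.Prelude
import Cfsg.Agent.Lib.Helper50GamEven
import Cfsg.Agent.Lib.Helper50FormDet

set_option autoImplicit false
open Cfsg
open scoped MatrixGroups Matrix

/-! Splitting of the classes of involutory graph automorphisms of `PSL_n(F)`. (helper50) -/

namespace Cfsg.Agent.Lib.Helper50GamSplit

open Cfsg.Agent.Lib.Helper50Aut Cfsg.Agent.Lib.Helper50AutStr Cfsg.Agent.Lib.Helper50Twist
  Cfsg.Agent.Lib.Helper50Cent Cfsg.Agent.Lib.Helper50GF Cfsg.Agent.Lib.Helper50Form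
  Cfsg.Agent.Lib.Helper50Split Cfsg.Agent.Lib.Helper50Gam Cfsg.Agent.Lib.Helper50FormCl
  Cfsg.Agent.Lib.Helper50FormStd Cfsg.Agent.Lib.Helper50FormTwo Cfsg.Agent.Lib.Helper50FormTheta
  Cfsg.Agent.Lib.Helper50GamCl Cfsg.Agent.Lib.Helper50GamEven Cfsg.Agent.Lib.Helper50FormDet

variable {F : Type*} [Field F] {n m : ℕ}

local notation "Mn" => Matrix (Fin n) (Fin n) F
local notation "AutP" => MulAut (Matrix.ProjectiveSpecialLinearGroup (Fin n) F)
local notation "detG" => (Matrix.GeneralLinearGroup.det : GL (Fin n) F →* Fˣ)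

theorem card_units' [Fintype F] : Nat.card Fˣ = Fintype.card F - 1 := by
  classical
  rw [Nat.card_eq_fintype_card, Fintype.card_units]

theorem split_trivial [Fintype F] (hn : 2 ≤ n) (A : GL (Fin n) F)
    (h : ∀ g ∈ simT (A : Mn), detG g ∈ (powMonoidHom n : Fˣ →* Fˣ).range) :
    Cfsg.splitClassCount (Cfsg.inndiagPSL n F) (Cfsg.Inn (Matrix.ProjectiveSpecialLinearGroup (Fin n) F))
      (gam A) = Nat.gcd n (Fintype.card F - 1) := by
  rw [split_count hn (gam A) ⊥, Subgroup.index_bot, card_units']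
  · intro g hg
    exact Subgroup.mem_sup_left (h g ((mem_centralizer_gam hn A g).1 hg))
  · intro a ha
    rw [Subgroup.mem_bot] at ha
    subst ha
    exact ⟨1, by rw [map_one]; exact Subgroup.one_mem _, map_one _⟩

theorem detG_sq (A : GL (Fin n) F) (g : GL (Fin n) F) (c : Fˣ)
    (h : (g : Mn)ᵀ * (A : Mn) * (g : Mn) = (c : F) • (A : Mn)) : detG g * detG g = c ^ n := by
  apply Units.ext
  rw [Units.val_mul, Matrix.GeneralLinearGroup.val_det_apply, Units.val_pow_eq_pow_val,
    det_sq (A : Mn) (det_ne_zero A) _ _ h, Fintype.card_fin]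

theorem det_mem_of_odd {k : ℕ} (hnk : n = 2 * k + 1) (A : GL (Fin n) F) (g : GL (Fin n) F)
    (hg : g ∈ simT (A : Mn)) : detG g ∈ (powMonoidHom n : Fˣ →* Fˣ).range := by
  obtain ⟨c, hc⟩ := hg
  have hd := detG_sq A g c hc
  generalize detG g = d at hd
  refine ⟨d * (c ^ k)⁻¹, ?_⟩
  rw [powMonoidHom_apply, mul_pow, inv_pow, ← pow_mul]
  have h1 : d ^ n = c ^ (k * n) * d := by
    conv_lhs => rw [hnk]
    rw [pow_succ, pow_mul, pow_two, hd, ← pow_mul, mul_comm n k]
  rw [h1, mul_right_comm, mul_inv_cancel, one_mul]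

theorem det_mem_of_two [CharP F 2] (hsq : ∀ a : F, ∃ b, b * b = a) (A : GL (Fin n) F)
    (g : GL (Fin n) F) (hg : g ∈ simT (A : Mn)) : detG g ∈ (powMonoidHom n : Fˣ →* Fˣ).range := by
  obtain ⟨c, hc⟩ := hg
  have hd := detG_sq A g c hc
  obtain ⟨s, hs⟩ := hsq c
  have hs0 : s ≠ 0 := by
    rintro rfl
    rw [mul_zero] at hs
    exact c.ne_zero hs.symm
  refine ⟨Units.mk0 s hs0, ?_⟩
  rw [powMonoidHom_apply]
  apply Units.ext
  apply sq_inj
  have h1 := congrArg Units.val hd
  rw [Units.val_mul, Units.val_pow_eq_pow_val] at h1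
  rw [h1, ← hs, Units.val_pow_eq_pow_val, Units.val_mk0, mul_pow]

/-! ### symplectic type -/

theorem sim_reGL {ι : Type} [Fintype ι] [DecidableEq ι] (e : ι ≃ Fin n) (A : Matrix ι ι F) (g : GL ι F)
    (c : F) : (g : Matrix ι ι F)ᵀ * A * (g : Matrix ι ι F) = c • A ↔
      (reGL e g : Mn)ᵀ * A.submatrix e.symm e.symm * (reGL e g : Mn) = c • A.submatrix e.symm e.symm := by
  have key : (reGL e g : Mn)ᵀ * A.submatrix e.symm e.symm * (reGL e g : Mn)
      = ((g : Matrix ι ι F)ᵀ * A * (g : Matrix ι ι F)).submatrix e.symm e.symm := by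
    rw [reGL_coe, Matrix.transpose_submatrix, Matrix.submatrix_mul_equiv, Matrix.submatrix_mul_equiv]
  rw [key]
  constructor
  · intro h
    rw [h, submatrix_smul']
  · intro h
    apply submatrix_inj e
    rw [h, submatrix_smul']

theorem det_reGL {ι : Type} [Fintype ι] [DecidableEq ι] (e : ι ≃ Fin n) (g : GL ι F) :
    (reGL e g : Mn).det = (g : Matrix ι ι F).det := by
  rw [reGL_coe, Matrix.det_submatrix_equiv_self]

theorem split_G1 [Fintype F] (hm : 2 ≤ m) (hq : 3 ≤ Fintype.card F) (hnm : n = 2 * m) :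
    Cfsg.splitClassCount (Cfsg.inndiagPSL n F) (Cfsg.Inn (Matrix.ProjectiveSpecialLinearGroup (Fin n) F))
      (gam (G1 hnm : GL (Fin n) F)) = Nat.gcd m (Fintype.card F - 1) := by
  have hn : 2 ≤ n := by omega
  rw [split_count hn (gam (G1 hnm)) (powMonoidHom m : Fˣ →* Fˣ).range, IsCyclic.index_powMonoidHom_range,
    card_units']
  · rw [Nat.gcd_comm (Fintype.card F - 1) m, ← Nat.gcd_assoc, hnm,
      Nat.gcd_eq_right (Dvd.intro_left 2 rfl)]
  · intro g hg
    obtain ⟨c, hc⟩ := (mem_centralizer_gam hn _ g).1 hg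
    apply Subgroup.mem_sup_right
    refine ⟨c, ?_⟩
    obtain ⟨g', rfl⟩ := (reGL (F := F) (eP hnm)).surjective g
    have h1 := (sim_reGL (eP hnm) (Matrix.J (Fin m) F) g' c).2 hc
    have h2 := det_simT_J m hm hq g' c h1
    rw [powMonoidHom_apply]
    apply Units.ext
    rw [Matrix.GeneralLinearGroup.val_det_apply, det_reGL, h2, Units.val_pow_eq_pow_val]
  · rintro _ ⟨x, rfl⟩
    refine ⟨reGL (eP hnm) (dC m x), ?_, ?_⟩
    · rw [mem_centralizer_gam hn]
      exact ⟨x, (sim_reGL (eP hnm) (Matrix.J (Fin m) F) (dC m x) x).1 (dC_sim m x)⟩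
    · rw [powMonoidHom_apply]
      apply Units.ext
      rw [Matrix.GeneralLinearGroup.val_det_apply, det_reGL, det_dC, Units.val_pow_eq_pow_val]

/-! ### orthogonal type -/

theorem index_of_sq {C : Type*} [CommGroup C] [IsCyclic C] [Finite C] (n m : ℕ) (hnm : n = 2 * m)
    (hm : 0 < m) (hN : Even (Nat.card C)) (E : Subgroup C) (z : C)
    (hz : ∀ x : C, x * x = 1 → x = 1 ∨ x = z)
    (h1 : (powMonoidHom n : C →* C).range ≤ E)
    (h2 : ∀ x ∈ E, x * x ∈ (powMonoidHom n : C →* C).range) (hzE : z ∈ E)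
    (h3 : ∀ c : C, c ^ m ∈ E ∨ z * c ^ m ∈ E) : (Nat.card C).gcd n = 2 * E.index := by
  have hPi := IsCyclic.index_powMonoidHom_range C n
  have he0 : 0 < E.index := Nat.pos_of_ne_zero Subgroup.index_ne_zero_of_finite
  have hd0 : 0 < (Nat.card C).gcd n := Nat.gcd_pos_of_pos_right _ (by omega)
  have ha : E.index ∣ (Nat.card C).gcd n := by
    rw [← hPi]
    exact Subgroup.index_dvd_of_le h1
  have hb : (Nat.card C).gcd n ∣ 2 * E.index := by
    have h4 : (powMonoidHom (2 * E.index) : C →* C).range ≤ (powMonoidHom n : C →* C).range := by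
      rintro _ ⟨x, rfl⟩
      rw [powMonoidHom_apply, two_mul, pow_add]
      apply h2
      have : x ^ E.index ∈ (powMonoidHom E.index : C →* C).range := ⟨x, rfl⟩
      rwa [← eq_range_pow E] at this
    have h5 := Subgroup.index_dvd_of_le h4
    rw [hPi, IsCyclic.index_powMonoidHom_range] at h5
    exact h5.trans (Nat.gcd_dvd_right _ _)
  have hc : E.index ≠ (Nat.card C).gcd n := by
    intro he
    have hEP : E = (powMonoidHom n : C →* C).range := by
      rw [eq_range_pow E, eq_range_pow (powMonoidHom n : C →* C).range, hPi, he]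
    rw [hEP] at hzE h3
    have k1 : (powMonoidHom m : C →* C).range ≤ (powMonoidHom n : C →* C).range := by
      rintro _ ⟨c, rfl⟩
      rw [powMonoidHom_apply]
      rcases h3 c with h | h
      · exact h
      · have := Subgroup.mul_mem _ (Subgroup.inv_mem _ hzE) h
        rwa [inv_mul_cancel_left] at this
    have k2 : (powMonoidHom (Nat.card C / 2) : C →* C).range ≤ (powMonoidHom n : C →* C).range := by
      rintro _ ⟨x, rfl⟩
      rw [powMonoidHom_apply]
      have : x ^ (Nat.card C / 2) * x ^ (Nat.card C / 2) = 1 := by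
        rw [← pow_add, ← two_mul, Nat.mul_div_cancel' hN.two_dvd, pow_card_eq_one']
      rcases hz _ this with h | h
      · rw [h]; exact Subgroup.one_mem _
      · rw [h]; exact hzE
    have k3 := Subgroup.index_dvd_of_le k1
    have k4 := Subgroup.index_dvd_of_le k2
    rw [hPi, IsCyclic.index_powMonoidHom_range] at k3 k4
    have k5 : (Nat.card C).gcd n ∣ m := k3.trans (Nat.gcd_dvd_right _ _)
    have k6 : (Nat.card C).gcd n ∣ Nat.card C / 2 := k4.trans (Nat.gcd_dvd_right _ _)
    have k7 : 2 * (Nat.card C).gcd n ∣ n := by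
      have := Nat.mul_dvd_mul_left 2 k5
      rwa [← hnm] at this
    have k8 : 2 * (Nat.card C).gcd n ∣ Nat.card C := by
      have := Nat.mul_dvd_mul_left 2 k6
      rwa [Nat.mul_div_cancel' hN.two_dvd] at this
    have k9 := Nat.le_of_dvd hd0 (Nat.dvd_gcd k8 k7)
    omega
  obtain ⟨j, hj⟩ := ha
  rw [hj] at hb hc ⊢
  rw [mul_comm 2] at hb
  have hj2 : j ∣ 2 := Nat.dvd_of_mul_dvd_mul_left he0 hb
  rcases (Nat.dvd_prime Nat.prime_two).1 hj2 with rfl | rfl
  · rw [mul_one] at hc
    exact absurd rfl hc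
  · rw [mul_comm]

theorem split_sym [Fintype F] (h2 : (2 : F) ≠ 0) (hm : 1 ≤ m) (hnm : n = 2 * m) (A : GL (Fin n) F)
    (hA : (A : Mn)ᵀ = A) :
    Cfsg.splitClassCount (Cfsg.inndiagPSL n F) (Cfsg.Inn (Matrix.ProjectiveSpecialLinearGroup (Fin n) F))
      (gam A) = Nat.gcd n (Fintype.card F - 1) / 2 := by
  have hn : 2 ≤ n := by omega
  rw [split_count hn (gam A) ((simT (A : Mn)).map detG)]
  · have hN : Even (Nat.card Fˣ) := by
      rw [card_units']
      have hodd : Odd (Fintype.card F) := by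
        rw [Nat.odd_iff]
        apply FiniteField.odd_card_of_char_ne_two
        intro h
        apply h2
        have := ringChar.Nat.cast_ringChar (R := F)
        rw [h] at this
        exact_mod_cast this
      obtain ⟨t, ht⟩ := hodd
      exact ⟨t, by omega⟩
    have key := index_of_sq (C := Fˣ) n m hnm hm hN ((simT (A : Mn)).map detG) (-1) ?_ ?_ ?_ ?_ ?_
    · rw [card_units'] at key
      rw [Nat.gcd_comm n (Fintype.card F - 1), key, Nat.mul_div_cancel_left _ (by norm_num)]
      apply Nat.gcd_eq_right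
      have : ((simT (A : Mn)).map detG).index ∣ (Fintype.card F - 1).gcd n := by
        rw [key]
        exact Dvd.intro_left 2 rfl
      exact this.trans (Nat.gcd_dvd_right _ _)
    · intro x hx
      have h1 := congrArg Units.val hx
      rw [Units.val_mul, Units.val_one] at h1
      rcases mul_self_eq_one_iff.1 h1 with h | h
      · left; exact Units.ext h
      · right; exact Units.ext (by rw [h]; simp)
    · rintro _ ⟨y, rfl⟩
      obtain ⟨z, hz, hzc⟩ := exists_scalar (ι := Fin n) y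
      refine ⟨z, scalars_le_simT _ hz, ?_⟩
      apply Units.ext
      rw [Matrix.GeneralLinearGroup.val_det_apply, hzc, Matrix.det_smul, Matrix.det_one, mul_one,
        Fintype.card_fin, powMonoidHom_apply, Units.val_pow_eq_pow_val]
    · rintro _ ⟨g, ⟨c, hc⟩, rfl⟩
      exact ⟨c, (detG_sq A g c hc).symm⟩
    · obtain ⟨r, hr, hrd⟩ := exists_refl h2 (A : Mn) hA (coe_ne_zero (by omega) A)
      refine ⟨r, isoT_le_simT _ hr, ?_⟩
      apply Units.ext
      rw [Matrix.GeneralLinearGroup.val_det_apply, hrd]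
      simp
    · intro c
      obtain ⟨g, hg⟩ := exists_mult h2 hnm (A : Mn) hA (det_ne_zero A) c c.ne_zero
      have h1 := detG_sq A g c hg
      have h3 : ((detG g : Fˣ) : F) * ((detG g : Fˣ) : F) = ((c : F) ^ m) * ((c : F) ^ m) := by
        have := congrArg Units.val h1
        rw [Units.val_mul, Units.val_pow_eq_pow_val] at this
        rw [this, hnm, two_mul, pow_add]
      rcases mul_self_eq_mul_self_iff.1 h3 with h | h
      · left
        refine ⟨g, ⟨c, hg⟩, ?_⟩
        apply Units.ext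
        rw [h, Units.val_pow_eq_pow_val]
      · right
        refine ⟨g, ⟨c, hg⟩, ?_⟩
        apply Units.ext
        rw [h]
        simp
  · intro g hg
    exact Subgroup.mem_sup_right ⟨g, (mem_centralizer_gam hn A g).1 hg, rfl⟩
  · rintro _ ⟨g, hg, rfl⟩
    exact ⟨g, (mem_centralizer_gam hn A g).2 hg, rfl⟩

end Cfsg.Agent.Lib.Helper50GamSplit
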