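import Mathlib

set_option autoImplicit false

namespace Cfsg.Agent.Lib.Helper50Mono

/-! Abstract part: odd order automorphisms stabilising a chain. -/

theorem step {G : Type*} [Group G] (hG : IsPGroup 2 G) (α : MulAut G) (r : ℕ) (hr : Odd r)
    (hα : α ^ r = 1) (Q : G → Prop) (hQ : ∀ x, Q x → α x = x) (x : G) (hx : Q (x⁻¹ * α x)) :
    α x = x := by
  have hn : α (x⁻¹ * α x) = x⁻¹ * α x := hQ _ hx
  have hax : α x = x * (x⁻¹ * α x) := by group
  generalize x⁻¹ * α x = n at hn hax
  have h1 : ∀ i : ℕ, (α ^ i) x = x * n ^ i := by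
    intro i
    induction i with
    | zero => simp
    | succ k ih =>
      rw [pow_succ', MulAut.mul_apply, ih, map_mul, map_pow, hn, hax, pow_succ', mul_assoc]
  have h2 : n ^ r = 1 := by
    have := h1 r
    rw [hα] at this
    simpa using this.symm
  obtain ⟨k, hk⟩ := hG n
  have h3 : n = 1 := by
    have hcop : Nat.Coprime r (2 ^ k) := Nat.Coprime.pow_right k (Nat.coprime_two_right.mpr hr)
    have := pow_gcd_eq_one.mpr ⟨h2, hk⟩
    rwa [hcop, pow_one] at this
  rw [hax, h3, mul_one]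

theorem AT {G : Type*} [Group G] (hG : IsPGroup 2 G) (α : MulAut G) (r : ℕ) (hr : Odd r)
    (hα : α ^ r = 1) (D : G → Prop) (z : G)
    (hc : ∀ x, ¬ D x → x ^ 4 = 1)
    (hd : ∃ d, d ^ 4 ≠ 1 ∧ ∀ x, ¬ D x → x * d ≠ d * x)
    (ha : ∀ x y, D x → D y → x * y = y * x)
    (ha' : ∀ x y, D x → D y → D (x⁻¹ * y))
    (hb : ∀ x y, ¬ D x → ¬ D y → D (x⁻¹ * y))
    (he : ∀ x, D x → ∀ i : ℕ, x ^ (2 ^ (i + 2)) = 1 →
      x ^ (2 ^ (i + 1)) = 1 ∨ x ^ (2 ^ (i + 1)) = z)
    (hf : ∀ x y, D x → D y → x ^ 2 = 1 → y ^ 2 = 1 →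
      (x = 1 ∨ x = z) ∨ (y = 1 ∨ y = z) ∨ (x⁻¹ * y = 1 ∨ x⁻¹ * y = z))
    (hg : ∃ c, D c ∧ c ^ 2 = z) (hz1 : z ≠ 1) (hz2 : z ^ 2 = 1) : α = 1 := by
  have hDchar : ∀ x, D x ↔ ∀ y, y ^ 4 ≠ 1 → x * y = y * x := by
    intro x
    constructor
    · intro hx y hy
      have hyD : D y := by
        by_contra h
        exact hy (hc y h)
      exact ha x y hx hyD
    · intro h
      by_contra hx
      obtain ⟨d, hd4, hd⟩ := hd
      exact hd x hx (h d hd4)
  have h0 : ∀ β : MulAut G, ∀ x, D x → D (β x) := by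
    intro β x hx
    rw [hDchar] at hx ⊢
    intro y hy
    have h1 : (β⁻¹ y) ^ 4 ≠ 1 := by
      intro h
      apply hy
      have : β ((β⁻¹ y) ^ 4) = 1 := by rw [h, map_one]
      simpa using this
    have h2 := hx _ h1
    have h3 := congrArg β h2
    simpa using h3
  have h0' : ∀ x, ¬ D x → ¬ D (α x) := by
    intro x hx h
    apply hx
    have := h0 α⁻¹ _ h
    simpa using this
  have hz : α z = z := by
    obtain ⟨c, hcD, hcz⟩ := hg
    have h1 : (α c) ^ (2 ^ (0 + 2)) = 1 := by
      rw [← map_pow]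
      have : c ^ (2 ^ (0 + 2)) = 1 := by
        have : c ^ (2 ^ (0 + 2)) = (c ^ 2) ^ 2 := by rw [← pow_mul]; norm_num
        rw [this, hcz, hz2]
      rw [this, map_one]
    have h2 := he _ (h0 α c hcD) 0 h1
    have h3 : (α c) ^ (2 ^ (0 + 1)) = α z := by
      rw [← hcz, map_pow]; norm_num
    rw [h3] at h2
    rcases h2 with h2 | h2
    · exfalso
      apply hz1
      have : α z = α 1 := by rw [h2, map_one]
      exact α.injective this
    · exact h2
  have hQ1 : ∀ x, (x = 1 ∨ x = z) → α x = x := by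
    rintro x (rfl | rfl)
    · exact map_one α
    · exact hz
  have hO1 : ∀ x, D x → x ^ 2 = 1 → α x = x := by
    intro x hx hx2
    apply step hG α r hr hα (fun y => y = 1 ∨ y = z) hQ1
    have hy2 : (α x) ^ 2 = 1 := by rw [← map_pow, hx2, map_one]
    rcases hf x (α x) hx (h0 α x hx) hx2 hy2 with h | h | h
    · left; rw [hQ1 x h]; group
    · have : α x = x := by
        rcases h with h | h
        · have : α x = α 1 := by rw [h, map_one]
          have := α.injective this
          rw [this, map_one]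
        · have : α x = α z := by rw [h, hz]
          have := α.injective this
          rw [this, hz]
      left; rw [this]; group
    · exact h
  have hOi : ∀ i : ℕ, ∀ x, D x → x ^ (2 ^ (i + 1)) = 1 → α x = x := by
    intro i
    induction i with
    | zero => intro x hx h; exact hO1 x hx (by simpa using h)
    | succ i ih =>
      intro x hx h
      apply step hG α r hr hα (fun y => D y ∧ y ^ (2 ^ (i + 1)) = 1) (fun y hy => ih y hy.1 hy.2)
      refine ⟨ha' _ _ hx (h0 α x hx), ?_⟩
      have hcomm : Commute x⁻¹ (α x) := by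
        have := ha x (α x) hx (h0 α x hx)
        exact (Commute.inv_left (show Commute x (α x) from this))
      rw [hcomm.mul_pow, ← map_pow, hQ1 _ (he x hx i h), inv_pow, inv_mul_cancel]
  have hDfix : ∀ x, D x → α x = x := by
    intro x hx
    obtain ⟨k, hk⟩ := hG x
    apply hOi k x hx
    rw [pow_succ, pow_mul, hk, one_pow]
  ext x
  by_cases hx : D x
  · simpa using hDfix x hx
  · have := step hG α r hr hα D hDfix x (hb _ _ hx (h0' x hx))
    simpa using this

theorem AT2 {G : Type*} [Group G] (hG : IsPGroup 2 G) (α : MulAut G) (r : ℕ) (hr : Odd r)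
    (hα : α ^ r = 1) (z : G)
    (h2 : ∀ x : G, x ^ 2 = 1 ∨ x ^ 2 = z) (hz1 : z ≠ 1) (hf : ∃ f : G, f ^ 2 = z)
    (h1 : ∀ x y : G, x ^ 2 = z → y ^ 2 = z → (x⁻¹ * y = 1 ∨ x⁻¹ * y = z))
    (h3 : ∀ x y : G, x ^ 2 = 1 → y ^ 2 = 1 → (x = 1 ∨ x = z) ∨ (y = 1 ∨ y = z) ∨
      ((x⁻¹ * y = 1 ∨ x⁻¹ * y = z) ∨ (x⁻¹ * y) ^ 2 = z)) : α = 1 := by
  have hz : α z = z := by
    obtain ⟨f, hf⟩ := hf
    rcases h2 (α f) with h | h
    · exfalso
      apply hz1
      rw [← map_pow, hf] at h
      have : α z = α 1 := by rw [h, map_one]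
      exact α.injective this
    · rw [← map_pow, hf] at h
      exact h
  have hQ1 : ∀ x, (x = 1 ∨ x = z) → α x = x := by
    rintro x (rfl | rfl)
    · exact map_one α
    · exact hz
  have hQ2 : ∀ x, ((x = 1 ∨ x = z) ∨ x ^ 2 = z) → α x = x := by
    rintro x (h | h)
    · exact hQ1 x h
    · apply step hG α r hr hα (fun y => y = 1 ∨ y = z) hQ1
      exact h1 _ _ h (by rw [← map_pow, h, hz])
  ext x
  show α x = x
  rcases h2 x with hx | hx
  · apply step hG α r hr hα _ hQ2
    rcases h3 x (α x) hx (by rw [← map_pow, hx, map_one]) with h | h | h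
    · left; left; rw [hQ1 x h]; group
    · have : α x = x := by
        rcases h with h | h
        · have : α x = α 1 := by rw [h, map_one]
          have := α.injective this
          rw [this, map_one]
        · have : α x = α z := by rw [h, hz]
          have := α.injective this
          rw [this, hz]
      left; left; rw [this]; group
    · exact h
  · exact hQ2 x (Or.inr hx)

/-- reduction to odd order automorphisms -/
theorem isPGroup_of_odd {G : Type*} [Group G] [Finite G]
    (h : ∀ (α : MulAut G) (r : ℕ), Odd r → α ^ r = 1 → α = 1) : IsPGroup 2 (MulAut G) := by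
  intro α
  haveI : Finite (MulAut G) :=
    Finite.of_injective (fun α : MulAut G => (α : G → G)) DFunLike.coe_injective
  have hpos : orderOf α ≠ 0 := (orderOf_pos α).ne'
  obtain ⟨k, r, hr, hkr⟩ := Nat.exists_eq_two_pow_mul_odd hpos
  refine ⟨k, h _ r hr ?_⟩
  rw [← pow_mul, ← hkr, pow_orderOf_eq_one]

end Cfsg.Agent.Lib.Helper50Mono
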