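import Mathlib

set_option autoImplicit false

namespace Cfsg.Agent.Lib.Helper50MonoA

variable {K : Type*} [Field K]

def Dg (x : (Fin 2 → K) ≃ₗ[K] (Fin 2 → K)) (a b : K) : Prop := ∀ v, x v = ![a * v 0, b * v 1]
def An (x : (Fin 2 → K) ≃ₗ[K] (Fin 2 → K)) (a b : K) : Prop := ∀ v, x v = ![a * v 1, b * v 0]

variable {x y : (Fin 2 → K) ≃ₗ[K] (Fin 2 → K)} {a b c d : K}

theorem Dg.mul (hx : Dg x a b) (hy : Dg y c d) : Dg (x * y) (a * c) (b * d) := by
  intro v
  rw [LinearEquiv.mul_apply, hy, hx]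
  simp [mul_assoc]

theorem Dg.mul_An (hx : Dg x a b) (hy : An y c d) : An (x * y) (a * c) (b * d) := by
  intro v
  rw [LinearEquiv.mul_apply, hy, hx]
  simp [mul_assoc]

theorem An.mul_Dg (hx : An x a b) (hy : Dg y c d) : An (x * y) (a * d) (b * c) := by
  intro v
  rw [LinearEquiv.mul_apply, hy, hx]
  simp [mul_assoc]

theorem An.mul (hx : An x a b) (hy : An y c d) : Dg (x * y) (a * d) (b * c) := by
  intro v
  rw [LinearEquiv.mul_apply, hy, hx]
  simp [mul_assoc]

theorem Dg.one : Dg (1 : (Fin 2 → K) ≃ₗ[K] (Fin 2 → K)) 1 1 := by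
  intro v
  ext i
  fin_cases i <;> simp

theorem Dg.inv (hx : Dg x a b) (ha : a ≠ 0) (hb : b ≠ 0) : Dg x⁻¹ a⁻¹ b⁻¹ := by
  intro v
  have : x⁻¹ v = x.symm v := rfl
  rw [this, LinearEquiv.symm_apply_eq, hx]
  ext i
  fin_cases i <;> simp [ha, hb]

theorem An.inv (hx : An x a b) (ha : a ≠ 0) (hb : b ≠ 0) : An x⁻¹ b⁻¹ a⁻¹ := by
  intro v
  have : x⁻¹ v = x.symm v := rfl
  rw [this, LinearEquiv.symm_apply_eq, hx]
  ext i
  fin_cases i <;> simp [ha, hb]

theorem Dg.pow (hx : Dg x a b) (n : ℕ) : Dg (x ^ n) (a ^ n) (b ^ n) := by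
  induction n with
  | zero => simpa using Dg.one
  | succ n ih => rw [pow_succ, pow_succ, pow_succ]; exact ih.mul hx

theorem Dg.ext (hx : Dg x a b) (hy : Dg y a b) : x = y := by
  ext v : 1
  rw [hx, hy]

theorem An.ext (hx : An x a b) (hy : An y a b) : x = y := by
  ext v : 1
  rw [hx, hy]

theorem Dg.unique (hx : Dg x a b) (hy : Dg x c d) : a = c ∧ b = d := by
  have h1 := hx ![1, 1]
  rw [hy] at h1
  have h2 := congrFun h1 0
  have h3 := congrFun h1 1
  simp at h2 h3
  exact ⟨h2.symm, h3.symm⟩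

theorem An.unique (hx : An x a b) (hy : An x c d) : a = c ∧ b = d := by
  have h1 := hx ![1, 1]
  rw [hy] at h1
  have h2 := congrFun h1 0
  have h3 := congrFun h1 1
  simp at h2 h3
  exact ⟨h2.symm, h3.symm⟩

theorem An.not_Dg (hx : An x a b) (hb : b ≠ 0) (hy : Dg x c d) : False := by
  have h1 := hx ![1, 0]
  rw [hy] at h1
  have h3 := congrFun h1 1
  simp at h3
  exact hb h3.symm

theorem exists_Dg (a b : K) (ha : a ≠ 0) (hb : b ≠ 0) :
    ∃ x : (Fin 2 → K) ≃ₗ[K] (Fin 2 → K), Dg x a b := by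
  refine ⟨{ toFun := fun v => ![a * v 0, b * v 1]
            invFun := fun v => ![a⁻¹ * v 0, b⁻¹ * v 1]
            map_add' := ?_
            map_smul' := ?_
            left_inv := ?_
            right_inv := ?_ }, fun v => rfl⟩
  · intro u v; ext i; fin_cases i <;> simp [mul_add]
  · intro u v; ext i; fin_cases i <;> simp [mul_left_comm]
  · intro v; ext i; fin_cases i <;> simp [ha, hb]
  · intro v; ext i; fin_cases i <;> simp [ha, hb]

theorem exists_An (a b : K) (ha : a ≠ 0) (hb : b ≠ 0) :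
    ∃ x : (Fin 2 → K) ≃ₗ[K] (Fin 2 → K), An x a b := by
  refine ⟨{ toFun := fun v => ![a * v 1, b * v 0]
            invFun := fun v => ![b⁻¹ * v 1, a⁻¹ * v 0]
            map_add' := ?_
            map_smul' := ?_
            left_inv := ?_
            right_inv := ?_ }, fun v => rfl⟩
  · intro u v; ext i; fin_cases i <;> simp [mul_add]
  · intro u v; ext i; fin_cases i <;> simp [mul_left_comm]
  · intro v; ext i; fin_cases i <;> simp [ha, hb]
  · intro v; ext i; fin_cases i <;> simp [ha, hb]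

end Cfsg.Agent.Lib.Helper50MonoA
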