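import Cfsg.Agent.Lib.Helper50Mono
import Cfsg.Agent.Lib.Helper50MonoA

set_option autoImplicit false

namespace Cfsg.Agent.Lib.Helper50MonoB

open Cfsg.Agent.Lib.Helper50Mono Cfsg.Agent.Lib.Helper50MonoA

variable {K : Type*} [Field K]

theorem nz {a b : K} (h : a * b = 1 ∨ a * b = -1) : a ≠ 0 ∧ b ≠ 0 := by
  constructor
  · rintro rfl
    rcases h with h | h <;> simp at h
  · rintro rfl
    rcases h with h | h <;> simp at h

theorem pm {s t : K} (hs : s = 1 ∨ s = -1) (ht : t = 1 ∨ t = -1) : s⁻¹ * t = 1 ∨ s⁻¹ * t = -1 := by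
  rcases hs with rfl | rfl <;> rcases ht with rfl | rfl <;> simp [inv_neg]

theorem sq_pm {a : K} (h : a ^ 2 = 1) : a = 1 ∨ a = -1 := by
  have : (a - 1) * (a + 1) = 0 := by linear_combination h
  rcases mul_eq_zero.mp this with h | h
  · left; linear_combination h
  · right; linear_combination h

theorem big (T : Subgroup ((Fin 2 → K) ≃ₗ[K] (Fin 2 → K)))
    (hT : ∀ f, f ∈ T ↔ ∃ a b : K, (a * b = 1 ∨ a * b = -1) ∧ (Dg f a b ∨ An f a b))
    (hG : IsPGroup 2 T) (h24 : (2 : K) ^ 4 ≠ 1) (h20 : (2 : K) ≠ 0) (hi : ∃ i : K, i * i = -1)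
    (α : MulAut T) (r : ℕ) (hr : Odd r) (hα : α ^ r = 1) : α = 1 := by
  have h11 : (-1 : K) ≠ 1 := by
    intro h
    apply h20
    linear_combination (-1 : K) * h
  obtain ⟨z0, hz0⟩ := exists_Dg (-1 : K) (-1) (by simp) (by simp)
  have hz0T : z0 ∈ T := (hT z0).mpr ⟨-1, -1, Or.inl (by ring), Or.inl hz0⟩
  have hnD : ∀ x : T, ¬ (∃ a b : K, (a * b = 1 ∨ a * b = -1) ∧ Dg (x : (Fin 2 → K) ≃ₗ[K] (Fin 2 → K)) a b) →
      ∃ a b : K, (a * b = 1 ∨ a * b = -1) ∧ An (x : (Fin 2 → K) ≃ₗ[K] (Fin 2 → K)) a b := by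
    intro x hx
    obtain ⟨a, b, hab, h | h⟩ := (hT x).mp x.2
    · exact absurd ⟨a, b, hab, h⟩ hx
    · exact ⟨a, b, hab, h⟩
  have heq1 : ∀ x : T, Dg (x : (Fin 2 → K) ≃ₗ[K] (Fin 2 → K)) 1 1 → x = 1 := by
    intro x hx
    apply Subtype.ext
    exact hx.ext Dg.one
  have heqz : ∀ x : T, Dg (x : (Fin 2 → K) ≃ₗ[K] (Fin 2 → K)) (-1) (-1) → x = ⟨z0, hz0T⟩ := by
    intro x hx
    apply Subtype.ext
    exact hx.ext hz0
  apply AT hG α r hr hα
    (fun x => ∃ a b : K, (a * b = 1 ∨ a * b = -1) ∧ Dg (x : (Fin 2 → K) ≃ₗ[K] (Fin 2 → K)) a b)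
    ⟨z0, hz0T⟩
  · -- hc
    intro x hx
    obtain ⟨a, b, hab, h⟩ := hnD x hx
    apply heq1
    have h2 := (h.mul h).pow 2
    have e : ((x ^ 4 : T) : (Fin 2 → K) ≃ₗ[K] (Fin 2 → K)) = ((x : (Fin 2 → K) ≃ₗ[K] (Fin 2 → K)) * x) ^ 2 := by
      rw [Subgroup.coe_pow, ← sq, ← pow_mul]
    rw [e]
    have e1 : (a * b) ^ 2 = 1 := by rcases hab with h | h <;> rw [h] <;> ring
    have e2 : (b * a) ^ 2 = 1 := by rw [mul_comm]; exact e1
    rwa [e1, e2] at h2
  · -- hd
    obtain ⟨d, hd⟩ := exists_Dg (2 : K) 2⁻¹ h20 (inv_ne_zero h20)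
    have hdT : d ∈ T := (hT d).mpr ⟨2, 2⁻¹, Or.inl (mul_inv_cancel₀ h20), Or.inl hd⟩
    refine ⟨⟨d, hdT⟩, ?_, ?_⟩
    · intro h
      have h1 := congrArg Subtype.val h
      simp only [Subgroup.coe_pow, Subgroup.coe_one] at h1
      have h2 := hd.pow 4
      rw [h1] at h2
      exact h24 (h2.unique Dg.one).1
    · intro x hx h
      obtain ⟨a, b, hab, hA⟩ := hnD x hx
      have h1 := congrArg Subtype.val h
      simp only [Subgroup.coe_mul] at h1
      have h2 := hA.mul_Dg hd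
      have h3 := hd.mul_An hA
      rw [h1] at h2
      have h4 := (h2.unique h3).2
      have hb := (nz hab).2
      apply h24
      have h5 : (2 : K) * 2 = 1 := by
        have : b * 2 = 2⁻¹ * b := h4
        field_simp at this
        linear_combination this
      calc (2 : K) ^ 4 = (2 * 2) * (2 * 2) := by ring
        _ = 1 := by rw [h5]; ring
  · -- ha
    rintro x y ⟨a, b, hab, hx⟩ ⟨c, d, hcd, hy⟩
    apply Subtype.ext
    simp only [Subgroup.coe_mul]
    have h1 := hx.mul hy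
    have h2 := hy.mul hx
    rw [mul_comm c a, mul_comm d b] at h2
    exact h1.ext h2
  · -- ha'
    rintro x y ⟨a, b, hab, hx⟩ ⟨c, d, hcd, hy⟩
    refine ⟨a⁻¹ * c, b⁻¹ * d, ?_, ?_⟩
    · have := pm hab hcd
      have e : a⁻¹ * c * (b⁻¹ * d) = (a * b)⁻¹ * (c * d) := by rw [mul_inv]; ring
      rwa [e]
    · simp only [Subgroup.coe_mul, Subgroup.coe_inv]
      exact (hx.inv (nz hab).1 (nz hab).2).mul hy
  · -- hb
    intro x y hx hy
    obtain ⟨a, b, hab, hx⟩ := hnD x hx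
    obtain ⟨c, d, hcd, hy⟩ := hnD y hy
    refine ⟨b⁻¹ * d, a⁻¹ * c, ?_, ?_⟩
    · have := pm hab hcd
      have e : b⁻¹ * d * (a⁻¹ * c) = (a * b)⁻¹ * (c * d) := by rw [mul_inv]; ring
      rwa [e]
    · simp only [Subgroup.coe_mul, Subgroup.coe_inv]
      exact (hx.inv (nz hab).1 (nz hab).2).mul hy
  · -- he
    rintro x ⟨a, b, hab, hx⟩ i h
    have h1 := hx.pow (2 ^ (i + 1))
    have hAB : a ^ (2 ^ (i + 1)) * b ^ (2 ^ (i + 1)) = 1 := by
      rw [← mul_pow, pow_succ', pow_mul]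
      have : (a * b) ^ 2 = 1 := by rcases hab with h | h <;> rw [h] <;> ring
      rw [this, one_pow]
    have hA2 : (a ^ (2 ^ (i + 1))) ^ 2 = 1 := by
      have h2 := hx.pow (2 ^ (i + 2))
      have h3 := congrArg Subtype.val h
      simp only [Subgroup.coe_pow, Subgroup.coe_one] at h3
      rw [h3] at h2
      have := (h2.unique Dg.one).1
      rw [← pow_mul, ← pow_succ]
      exact this
    generalize a ^ (2 ^ (i + 1)) = A at h1 hAB hA2
    generalize b ^ (2 ^ (i + 1)) = B at h1 hAB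
    rcases sq_pm hA2 with rfl | rfl
    · left
      apply heq1
      have : B = 1 := by simpa using hAB
      rw [this] at h1
      simpa using h1
    · right
      apply heqz
      have : B = -1 := by linear_combination (-1 : K) * hAB
      rw [this] at h1
      simpa using h1
  · -- hf
    have key : ∀ x : T, (∃ a b : K, (a * b = 1 ∨ a * b = -1) ∧ Dg (x : (Fin 2 → K) ≃ₗ[K] (Fin 2 → K)) a b) →
        x ^ 2 = 1 → (x = 1 ∨ x = ⟨z0, hz0T⟩) ∨
          (Dg (x : (Fin 2 → K) ≃ₗ[K] (Fin 2 → K)) 1 (-1) ∨ Dg (x : (Fin 2 → K) ≃ₗ[K] (Fin 2 → K)) (-1) 1) := by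
      rintro x ⟨a, b, hab, hx⟩ h
      have h2 := hx.pow 2
      have h3 := congrArg Subtype.val h
      simp only [Subgroup.coe_pow, Subgroup.coe_one] at h3
      rw [h3] at h2
      obtain ⟨ha, hb⟩ := h2.unique Dg.one
      rcases sq_pm ha with rfl | rfl <;> rcases sq_pm hb with rfl | rfl
      · left; left; exact heq1 x hx
      · right; left; exact hx
      · right; right; exact hx
      · left; right; exact heqz x hx
    intro x y hx hy hx2 hy2
    rcases key x hx hx2 with h | hx'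
    · left; exact h
    rcases key y hy hy2 with h | hy'
    · right; left; exact h
    right; right
    rcases hx' with hx' | hx' <;> rcases hy' with hy' | hy'
    · left
      apply heq1
      have := (hx'.inv (by simp) (by simp)).mul hy'
      simpa [inv_neg] using this
    · right
      apply heqz
      have := (hx'.inv (by simp) (by simp)).mul hy'
      simpa [inv_neg] using this
    · right
      apply heqz
      have := (hx'.inv (by simp) (by simp)).mul hy'
      simpa [inv_neg] using this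
    · left
      apply heq1
      have := (hx'.inv (by simp) (by simp)).mul hy'
      simpa [inv_neg] using this
  · -- hg
    obtain ⟨i, hi⟩ := hi
    have hi0 : i ≠ 0 := by
      rintro rfl
      simp at hi
    obtain ⟨c, hc⟩ := exists_Dg i i⁻¹ hi0 (inv_ne_zero hi0)
    have hcT : c ∈ T := (hT c).mpr ⟨i, i⁻¹, Or.inl (mul_inv_cancel₀ hi0), Or.inl hc⟩
    refine ⟨⟨c, hcT⟩, ⟨i, i⁻¹, Or.inl (mul_inv_cancel₀ hi0), hc⟩, ?_⟩
    apply heqz
    have h2 := hc.pow 2
    have e1 : i ^ 2 = -1 := by rw [sq]; exact hi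
    have e2 : i⁻¹ ^ 2 = -1 := by rw [inv_pow, e1, inv_neg, inv_one]
    rw [e1, e2] at h2
    simpa using h2
  · -- hz1
    intro h
    have h1 := congrArg Subtype.val h
    simp only [Subgroup.coe_one] at h1
    rw [h1] at hz0
    exact h11 (hz0.unique Dg.one).1
  · -- hz2
    apply heq1
    have h2 := hz0.pow 2
    simpa using h2

end Cfsg.Agent.Lib.Helper50MonoB
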