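import Cfsg.Agent.Lib.Helper50MonoB

set_option autoImplicit false

namespace Cfsg.Agent.Lib.Helper50MonoC

open Cfsg.Agent.Lib.Helper50Mono Cfsg.Agent.Lib.Helper50MonoA Cfsg.Agent.Lib.Helper50MonoB

theorem inv3 (a : ZMod 3) (ha : a ≠ 0) : a⁻¹ = a := by
  have h : a * a = 1 := by
    revert a; decide
  exact inv_eq_of_mul_eq_one_left h

theorem d1 : ∀ a b c d : ZMod 3, a * b = -1 → c * d = -1 →
    (b * d = 1 ∧ a * c = 1) ∨ (b * d = -1 ∧ a * c = -1) := by decide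

theorem d2 : ∀ a b c d : ZMod 3, a * b = 1 → c * d = 1 →
    (b * d = 1 ∧ a * c = 1) ∨ (b * d = -1 ∧ a * c = -1) := by decide

theorem d3 : ∀ a b c d : ZMod 3, (a * b = 1 ∨ a * b = -1) → (c * d = 1 ∨ c * d = -1) →
    ((a = 1 ∧ b = 1) ∨ (a = -1 ∧ b = -1)) ∨ ((c = 1 ∧ d = 1) ∨ (c = -1 ∧ d = -1)) ∨
      ((a * c = 1 ∧ b * d = 1) ∨ (a * c = -1 ∧ b * d = -1)) := by decide

theorem d4 : ∀ a b : ZMod 3, a * b = 1 → (a = 1 ∧ b = 1) ∨ (a = -1 ∧ b = -1) := by decide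

theorem d5 : ∀ a : ZMod 3, a ≠ 0 → a ^ 2 = 1 := by decide

theorem small3 (T : Subgroup ((Fin 2 → ZMod 3) ≃ₗ[ZMod 3] (Fin 2 → ZMod 3)))
    (hT : ∀ f, f ∈ T ↔ ∃ a b : ZMod 3, (a * b = 1 ∨ a * b = -1) ∧ (Dg f a b ∨ An f a b))
    (α : MulAut T) (r : ℕ) (hr : Odd r) (hα : α ^ r = 1) : α = 1 := by
  obtain ⟨z0, hz0⟩ := exists_Dg (-1 : ZMod 3) (-1) (by decide) (by decide)
  have hz0T : z0 ∈ T := (hT z0).mpr ⟨-1, -1, Or.inl (by decide), Or.inl hz0⟩
  have heq1 : ∀ x : T, Dg (x : (Fin 2 → ZMod 3) ≃ₗ[ZMod 3] (Fin 2 → ZMod 3)) 1 1 → x = 1 := by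
    intro x hx
    apply Subtype.ext
    exact hx.ext Dg.one
  have heqz : ∀ x : T, Dg (x : (Fin 2 → ZMod 3) ≃ₗ[ZMod 3] (Fin 2 → ZMod 3)) (-1) (-1) →
      x = ⟨z0, hz0T⟩ := by
    intro x hx
    apply Subtype.ext
    exact hx.ext hz0
  have cls : ∀ (x : T) (p q : ZMod 3), Dg (x : (Fin 2 → ZMod 3) ≃ₗ[ZMod 3] (Fin 2 → ZMod 3)) p q →
      ((p = 1 ∧ q = 1) ∨ (p = -1 ∧ q = -1)) → x = 1 ∨ x = ⟨z0, hz0T⟩ := by
    rintro x p q hx (⟨rfl, rfl⟩ | ⟨rfl, rfl⟩)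
    · left; exact heq1 x hx
    · right; exact heqz x hx
  have hz1 : (⟨z0, hz0T⟩ : T) ≠ 1 := by
    intro h
    have h1 := congrArg Subtype.val h
    simp only [Subgroup.coe_one] at h1
    rw [h1] at hz0
    have := (hz0.unique Dg.one).1
    revert this; decide
  have sqD : ∀ (x : T) (a b : ZMod 3), (a * b = 1 ∨ a * b = -1) →
      Dg (x : (Fin 2 → ZMod 3) ≃ₗ[ZMod 3] (Fin 2 → ZMod 3)) a b → x ^ 2 = 1 := by
    intro x a b hab hx
    apply heq1
    have h2 := hx.pow 2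
    rw [d5 a (nz hab).1, d5 b (nz hab).2] at h2
    simpa using h2
  have sqA1 : ∀ (x : T) (a b : ZMod 3), a * b = 1 →
      An (x : (Fin 2 → ZMod 3) ≃ₗ[ZMod 3] (Fin 2 → ZMod 3)) a b → x ^ 2 = 1 := by
    intro x a b hab hx
    apply heq1
    have h2 := hx.mul hx
    rw [mul_comm b a, hab] at h2
    simpa [sq] using h2
  have sqA2 : ∀ (x : T) (a b : ZMod 3), a * b = -1 →
      An (x : (Fin 2 → ZMod 3) ≃ₗ[ZMod 3] (Fin 2 → ZMod 3)) a b → x ^ 2 = ⟨z0, hz0T⟩ := by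
    intro x a b hab hx
    apply heqz
    have h2 := hx.mul hx
    rw [mul_comm b a, hab] at h2
    simpa [sq] using h2
  have h2 : ∀ x : T, x ^ 2 = 1 ∨ x ^ 2 = ⟨z0, hz0T⟩ := by
    intro x
    obtain ⟨a, b, hab, h | h⟩ := (hT x).mp x.2
    · left; exact sqD x a b hab h
    · rcases hab with hab | hab
      · left; exact sqA1 x a b hab h
      · right; exact sqA2 x a b hab h
  have hz2 : (⟨z0, hz0T⟩ : T) ^ 2 = 1 := sqD _ (-1) (-1) (Or.inl (by decide)) hz0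
  have hG : IsPGroup 2 T := by
    intro x
    refine ⟨2, ?_⟩
    have : x ^ 2 ^ 2 = (x ^ 2) ^ 2 := by rw [← pow_mul]; norm_num
    rw [this]
    rcases h2 x with h | h <;> rw [h]
    · simp
    · exact hz2
  have clz : ∀ x : T, x ^ 2 = ⟨z0, hz0T⟩ → ∃ a b : ZMod 3, a * b = -1 ∧
      An (x : (Fin 2 → ZMod 3) ≃ₗ[ZMod 3] (Fin 2 → ZMod 3)) a b := by
    intro x hx
    obtain ⟨a, b, hab, h | h⟩ := (hT x).mp x.2
    · exact absurd ((sqD x a b hab h).symm.trans hx).symm hz1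
    · rcases hab with hab | hab
      · exact absurd ((sqA1 x a b hab h).symm.trans hx).symm hz1
      · exact ⟨a, b, hab, h⟩
  have cl1 : ∀ x : T, x ^ 2 = 1 → (∃ a b : ZMod 3, (a * b = 1 ∨ a * b = -1) ∧
      Dg (x : (Fin 2 → ZMod 3) ≃ₗ[ZMod 3] (Fin 2 → ZMod 3)) a b) ∨ (∃ a b : ZMod 3, a * b = 1 ∧
      An (x : (Fin 2 → ZMod 3) ≃ₗ[ZMod 3] (Fin 2 → ZMod 3)) a b) := by
    intro x hx
    obtain ⟨a, b, hab, h | h⟩ := (hT x).mp x.2
    · left; exact ⟨a, b, hab, h⟩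
    · rcases hab with hab | hab
      · right; exact ⟨a, b, hab, h⟩
      · exact absurd ((sqA2 x a b hab h).symm.trans hx) hz1
  apply AT2 hG α r hr hα ⟨z0, hz0T⟩ h2 hz1
  · obtain ⟨f, hf⟩ := exists_An (-1 : ZMod 3) 1 (by decide) (by decide)
    have hfT : f ∈ T := (hT f).mpr ⟨-1, 1, Or.inr (by decide), Or.inr hf⟩
    exact ⟨⟨f, hfT⟩, sqA2 _ (-1) 1 (by decide) hf⟩
  · intro x y hx hy
    obtain ⟨a, b, hab, hx⟩ := clz x hx
    obtain ⟨c, d, hcd, hy⟩ := clz y hy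
    have hn := nz (Or.inr hab)
    have h := (hx.inv hn.1 hn.2).mul hy
    rw [inv3 a hn.1, inv3 b hn.2] at h
    exact cls _ _ _ (by simpa using h) (d1 a b c d hab hcd)
  · intro x y hx hy
    rcases cl1 x hx with ⟨a, b, hab, hx⟩ | ⟨a, b, hab, hx⟩ <;>
      rcases cl1 y hy with ⟨c, d, hcd, hy⟩ | ⟨c, d, hcd, hy⟩
    · have hn := nz hab
      have h := (hx.inv hn.1 hn.2).mul hy
      rw [inv3 a hn.1, inv3 b hn.2] at h
      rcases d3 a b c d hab hcd with h' | h' | h'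
      · left; exact cls _ _ _ hx h'
      · right; left; exact cls _ _ _ hy h'
      · right; right; left; exact cls _ _ _ (by simpa using h) h'
    · have hn := nz hab
      have h := (hx.inv hn.1 hn.2).mul_An hy
      rw [inv3 a hn.1, inv3 b hn.2] at h
      rcases hab with hab | hab
      · left; exact cls _ _ _ hx (d4 a b hab)
      · right; right; right
        apply sqA2 _ (a * c) (b * d) _ (by simpa using h)
        calc a * c * (b * d) = (a * b) * (c * d) := by ring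
          _ = -1 := by rw [hab, hcd]; ring
    · have hn := nz (Or.inl hab)
      have h := (hx.inv hn.1 hn.2).mul_Dg hy
      rw [inv3 a hn.1, inv3 b hn.2] at h
      rcases hcd with hcd | hcd
      · right; left; exact cls _ _ _ hy (d4 c d hcd)
      · right; right; right
        apply sqA2 _ (b * d) (a * c) _ (by simpa using h)
        calc b * d * (a * c) = (a * b) * (c * d) := by ring
          _ = -1 := by rw [hab, hcd]; ring
    · have hn := nz (Or.inl hab)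
      have h := (hx.inv hn.1 hn.2).mul hy
      rw [inv3 a hn.1, inv3 b hn.2] at h
      right; right; left
      exact cls _ _ _ (by simpa using h) (d2 a b c d hab hcd)

theorem small2 (T : Subgroup ((Fin 2 → ZMod 2) ≃ₗ[ZMod 2] (Fin 2 → ZMod 2)))
    (hT : ∀ f, f ∈ T ↔ ∃ a b : ZMod 2, (a * b = 1 ∨ a * b = -1) ∧ (Dg f a b ∨ An f a b))
    (α : MulAut T) : α = 1 := by
  have e1 : ∀ a : ZMod 2, a ≠ 0 → a = 1 := by decide
  have key : ∀ x : T, x = 1 ∨ An (x : (Fin 2 → ZMod 2) ≃ₗ[ZMod 2] (Fin 2 → ZMod 2)) 1 1 := by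
    intro x
    obtain ⟨a, b, hab, h | h⟩ := (hT x).mp x.2
    · left
      rw [e1 a (nz hab).1, e1 b (nz hab).2] at h
      apply Subtype.ext
      exact h.ext Dg.one
    · right
      rwa [e1 a (nz hab).1, e1 b (nz hab).2] at h
  ext x : 1
  show α x = x
  rcases key x with rfl | hx
  · exact map_one α
  · rcases key (α x) with h | h
    · have : α x = α 1 := by rw [h, map_one]
      have := α.injective this
      rw [this, map_one]
    · apply Subtype.ext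
      exact h.ext hx

end Cfsg.Agent.Lib.Helper50MonoC
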