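import Cfsg.Agent.Lib.Helper50UClosed

set_option autoImplicit false

/-!
Two unipotent radicals of the special unitary group which are self-centralising modulo scalars.
-/

namespace Cfsg.Agent.Lib.Helper50UCen

open Module Cfsg.Agent.Lib.Helper95Herm Cfsg.Agent.Lib.Helper95SU Cfsg.Agent.Lib.Helper95CU
  Cfsg.Agent.Lib.Helper50UGeom Cfsg.Agent.Lib.Helper50UGrp Cfsg.Agent.Lib.Helper50UPar
  Cfsg.Agent.Lib.Helper50URoot Cfsg.Agent.Lib.Helper50UStab Cfsg.Agent.Lib.Helper50USim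
  Cfsg.Agent.Lib.Helper50UT Cfsg.Agent.Lib.Helper50UTau Cfsg.Agent.Lib.Helper50UTheta
  Cfsg.Agent.Lib.Helper50UFin Cfsg.Agent.Lib.Helper50UMain Cfsg.Agent.Lib.Helper50UFx
  Cfsg.Agent.Lib.Helper50UGen Cfsg.Agent.Lib.Helper50UClosed

variable {K V : Type*} [Field K] [AddCommGroup V] [Module K V] {σ : K →+* K} {f : V → V → K}

/-- the radical of the stabiliser of the plane spanned by `u`, `w` -/
def R2 (f : V → V → K) (u w : V) : Subgroup (SUg f) where
  carrier := {e | e.1 u = u ∧ e.1 w = w ∧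
    ∀ x, f x u = 0 → f x w = 0 → ∃ a b : K, e.1 x = x + a • u + b • w}
  mul_mem' {a b} ha hb := by
    refine ⟨by rw [mul_app, hb.1, ha.1], by rw [mul_app, hb.2.1, ha.2.1], fun x h1 h2 => ?_⟩
    obtain ⟨a1, b1, e1⟩ := hb.2.2 x h1 h2
    obtain ⟨a2, b2, e2⟩ := ha.2.2 x h1 h2
    refine ⟨a1 + a2, b1 + b2, ?_⟩
    rw [mul_app, e1, map_add, map_add, map_smul, map_smul, ha.1, ha.2.1, e2]
    module
  one_mem' := ⟨rfl, rfl, fun x _ _ => ⟨0, 0, by simp⟩⟩
  inv_mem' {a} ha := by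
    refine ⟨inv_app_eq ha.1, inv_app_eq ha.2.1, fun x h1 h2 => ?_⟩
    obtain ⟨a1, b1, e1⟩ := ha.2.2 x h1 h2
    refine ⟨-a1, -b1, ?_⟩
    apply inv_app_eq
    rw [map_add, map_add, map_smul, map_smul, ha.1, ha.2.1, e1]
    module

lemma mem_R2 (u w : V) (e : SUg f) : e ∈ R2 f u w ↔ e.1 u = u ∧ e.1 w = w ∧
    ∀ x, f x u = 0 → f x w = 0 → ∃ a b : K, e.1 x = x + a • u + b • w := Iff.rfl

variable [FiniteDimensional K V] (h : Herm σ f)

section charp

variable (p : ℕ) [Fact p.Prime] [CharP K p]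

omit [FiniteDimensional K V] in
include p in
/-- a unipotent map has determinant one -/
lemma unip_det [Nontrivial V] (A : Module.End K V) (hN : (A - 1) ^ 3 = 0) :
    LinearMap.det A = 1 := by
  haveI : CharP (Module.End K V) p :=
    charP_of_injective_algebraMap (algebraMap K (Module.End K V)).injective p
  have h1 : A = 1 + (A - 1) := by abel
  have hp : 3 ≤ p ^ 2 := by
    have := (Fact.out : p.Prime).two_le
    nlinarith
  have h2 : A ^ (p ^ 2) = 1 := by
    rw [h1, add_pow_char_pow_of_commute p 2 (Commute.one_left _), one_pow,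
      pow_eq_zero_of_le hp hN, add_zero]
  have h3 : (LinearMap.det A) ^ (p ^ 2) = 1 := by rw [← map_pow, h2, map_one]
  exact pow_p_eq_one p 2 _ h3

include h in
lemma comm_of_central {u v : V} (F : Frame f u v) {s r : SUg f} {k : ℕ} (hr : r ^ (p ^ k) = 1)
    (hz : s * r * s⁻¹ * r⁻¹ ∈ Subgroup.center (SUg f)) : s * r = r * s := by
  obtain ⟨ξ, hξ⟩ := center_scalar h F _ hz
  set z := s * r * s⁻¹ * r⁻¹ with hzdef
  have e1 : z * r = s * r * s⁻¹ := by rw [hzdef]; group
  have hc : Commute z r := (Subgroup.mem_center_iff.1 hz r).symm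
  have e2 : z ^ (p ^ k) = 1 := by
    have e3 : (z * r) ^ (p ^ k) = 1 := by
      rw [e1, conj_pow, hr]; group
    rw [hc.mul_pow, hr, mul_one] at e3
    exact e3
  have e4 : ∀ n : ℕ, (z ^ n).1 u = ξ ^ n • u := by
    intro n
    induction n with
    | zero => simp
    | succ n ih => rw [pow_succ, mul_app, hξ, map_smul, ih, smul_smul, pow_succ, mul_comm]
  have e5 := e4 (p ^ k)
  rw [e2, one_app] at e5
  have e6 : ξ ^ (p ^ k) = 1 := by
    have : (ξ ^ (p ^ k) - 1) • u = 0 := by rw [sub_smul, one_smul, ← e5, sub_self]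
    rcases smul_eq_zero.1 this with h3 | h3
    · exact sub_eq_zero.1 h3
    · exact absurd h3 (F.u_ne h)
  have e7 := pow_p_eq_one p k ξ e6
  have e8 : z = 1 := by
    apply G_ext
    intro x
    rw [hξ, e7, one_smul, one_app]
  rw [e8, one_mul] at e1
  calc s * r = (s * r * s⁻¹) * s := by group
    _ = r * s := by rw [← e1]

include h p in
/-- splitting off a scalar -/
lemma split_of {u v : V} (F : Frame f u v) (s : SUg f) (c : K) (hsu : s.1 u = c • u)
    (hN : c * σ c = 1) (D : V → Prop)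
    (hD : ∀ x, f x u = 0 → D x → ∃ κ : K, s.1 x = c • x + κ • u)
    (hDN : ∀ x, D (c⁻¹ • s.1 x - x)) :
    ∃ z ∈ Subgroup.center (SUg f), ∃ r : SUg f, s = z * r ∧ ∀ x, r.1 x = c⁻¹ • s.1 x := by
  have hc0 : c ≠ 0 := by
    rintro rfl
    rw [zero_mul] at hN
    exact zero_ne_one hN
  have hσc : σ c = c⁻¹ := by field_simp; linear_combination hN
  haveI : Nontrivial V := ⟨u, 0, F.u_ne h⟩
  set A : Module.End K V := c⁻¹ • (s.1 : V →ₗ[K] V) with hA
  have hAx : ∀ x, (A - 1) x = c⁻¹ • s.1 x - x := fun x => rfl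
  have h1 : ∀ x, f (c⁻¹ • s.1 x - x) u = 0 := by
    intro x
    have e1 := G_iso s x u
    rw [hsu, h.smul_right, hσc] at e1
    rw [h.sub_left, h.smul_left, ← e1]
    ring
  have hN3 : (A - 1) ^ 3 = 0 := by
    ext x
    rw [pow_succ, pow_succ, pow_one, Module.End.mul_apply, Module.End.mul_apply, hAx x]
    obtain ⟨κ, hκ⟩ := hD _ (h1 x) (hDN x)
    have e2 : (A - 1) (c⁻¹ • s.1 x - x) = (c⁻¹ * κ) • u := by
      rw [hAx, hκ, smul_add, smul_smul, smul_smul, inv_mul_cancel₀ hc0, one_smul]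
      abel
    rw [e2, hAx, map_smul, hsu, smul_smul, smul_smul]
    have : c⁻¹ * (c⁻¹ * κ) * c = c⁻¹ * κ := by field_simp
    rw [this, sub_self]
    rfl
  have hdet := unip_det p A hN3
  rw [hA, LinearMap.det_smul, G_det s, mul_one, inv_pow] at hdet
  have hn : c ^ finrank K V = 1 := by
    rw [← inv_inv (c ^ finrank K V), hdet, inv_one]
  obtain ⟨z, hz⟩ := exists_scalar h c hN hn
  have hzi : ∀ y, (z⁻¹).1 y = c⁻¹ • y := by
    intro y
    apply inv_app_eq
    rw [hz, smul_smul, mul_inv_cancel₀ hc0, one_smul]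
  exact ⟨z, mem_center_of_scalar z c hz, z⁻¹ * s, by group, fun x => by rw [mul_app, hzi]⟩

end charp

/-- a vector whose transvection commutes with `s` spans an `s`-invariant line -/
lemma tv_line {y z : V} (F : Frame f y z) (s : SUg f) {b : K} (hb : b + σ b = 0) (hb0 : b ≠ 0)
    (hcomm : s * tv h y b = tv h y b * s) : ∃ c : K, s.1 y = c • y := by
  have e1 := conj_tv h s F.uu hb
  rw [hcomm, mul_assoc, mul_inv_cancel, mul_one] at e1
  have e2 := congrArg (fun g : SUg f => g.1 z) e1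
  simp only [tv_apply h F.uu hb, tv_apply h (show f (s.1 y) (s.1 y) = 0 by rw [G_iso s, F.uu]) hb,
    F.vu h, mul_one] at e2
  have e3 : b • y = (b * f z (s.1 y)) • s.1 y := add_left_cancel e2
  have h0 : f z (s.1 y) ≠ 0 := by
    intro h0
    rw [h0, mul_zero, zero_smul] at e3
    rcases smul_eq_zero.1 e3 with h3 | h3
    · exact hb0 h3
    · exact F.u_ne h h3
  refine ⟨(f z (s.1 y))⁻¹, ?_⟩
  have e4 : y = f z (s.1 y) • s.1 y := by
    have := congrArg (fun x => b⁻¹ • x) e3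
    simp only [smul_smul] at this
    rw [inv_mul_cancel₀ hb0, one_smul, ← mul_assoc, inv_mul_cancel₀ hb0, one_mul] at this
    exact this
  rw [eq_comm, inv_smul_eq_iff₀ h0]
  exact e4

lemma norm_one {u v : V} (F : Frame f u v) (s : SUg f) {c : K} (hsu : s.1 u = c • u) {b : K}
    (hb : b + σ b = 0) (hb0 : b ≠ 0) (hcomm : s * tv h u b = tv h u b * s) : c * σ c = 1 := by
  have e1 := conj_tv h s F.uu hb
  rw [hcomm, mul_assoc, mul_inv_cancel, mul_one, hsu, tv_smul h c F.uu hb] at e1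
  have e2 := congrArg (fun g : SUg f => g.1 v) e1
  simp only [tv_apply h F.uu hb, tv_apply h F.uu (show b * (c * σ c) + σ (b * (c * σ c)) = 0 by
    rw [map_mul, map_mul, h.invol]; linear_combination (c * σ c) * hb), F.vu h, mul_one] at e2
  have e3 : (b - b * (c * σ c)) • u = 0 := by
    rw [sub_smul, add_left_cancel e2, sub_self]
  rcases smul_eq_zero.1 e3 with h3 | h3
  · have : b * (1 - c * σ c) = 0 := by linear_combination h3
    rcases mul_eq_zero.1 this with h4 | h4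
    · exact absurd h4 hb0
    · linear_combination -h4
  · exact absurd h3 (F.u_ne h)

lemma key_lemma {u v : V} (F : Frame f u v) (s : SUg f) {c : K} (hsu : s.1 u = c • u)
    (hN : c * σ c = 1) {w : V} {c' : K} (hwu : f w u = 0) (hwv : f w v = 0)
    (hc' : c' + σ c' = - f w w) (hcomm : s * sg h u w c' = sg h u w c' * s) :
    ∃ κ : K, s.1 w = c • w + κ • u := by
  have hc0 : c ≠ 0 := by
    rintro rfl
    rw [zero_mul] at hN
    exact zero_ne_one hN
  have hσ0 := sig_ne h hc0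
  have hsw : f (s.1 w) u = 0 := by
    have := G_iso s w u
    rw [hsu, h.smul_right, hwu] at this
    exact (mul_eq_zero.1 this).resolve_left hσ0
  have e1 := conj_sg h s F.uu hwu hc'
  rw [hcomm, mul_assoc, mul_inv_cancel, mul_one, hsu,
    sg_smul h c F.uu hsw (by rw [G_iso s]; exact hc'), hN, mul_one] at e1
  have e2 := congrArg (fun g : SUg f => g.1 v) e1
  simp only [sg_v h F hwu hwv hc'] at e2
  rw [sg_apply h F.uu (by rw [h.smul_left, hsw, mul_zero]) (by
    rw [h.smul_left, h.smul_right, h.invol, G_iso s]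
    linear_combination hc' + f w w * hN), F.vu h] at e2
  refine ⟨c * f v (σ c • s.1 w), ?_⟩
  have e3 : σ c • s.1 w = w + f v (σ c • s.1 w) • u := by
    have e4 : v + w + c' • u = v + (σ c • s.1 w - f v (σ c • s.1 w) • u) + c' • u := by
      rw [e2]; module
    have e5 := add_left_cancel (add_right_cancel e4)
    exact (sub_eq_iff_eq_add.1 e5.symm)
  have e6 := congrArg (fun x => c • x) e3
  simp only [smul_smul, hN, one_smul, smul_add] at e6
  exact e6

section main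

variable (p : ℕ) [Fact p.Prime] [CharP K p]

include h p in
/-- `Q u` is self-centralising modulo scalars -/
theorem centric_Q {u v : V} (F : Frame f u v) (s : SUg f)
    (hs : ∀ r ∈ Q f u, s * r * s⁻¹ * r⁻¹ ∈ Subgroup.center (SUg f)) :
    ∃ z ∈ Subgroup.center (SUg f), ∃ r ∈ Q f u, s = z * r := by
  have hcomm : ∀ r ∈ Q f u, s * r = r * s := fun r hr =>
    comm_of_central h p F (Q_pow h p F r hr) (hs r hr)
  have hsu : s.1 u = f (s.1 u) v • u := by
    apply fix_Q h F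
    intro e he
    have := congrArg (fun g : SUg f => g.1 u) (hcomm e he)
    simp only [mul_app, he.1] at this
    exact this.symm
  set c := f (s.1 u) v with hc
  obtain ⟨b, hb0, hb⟩ := h.exists_z
  have hN := norm_one h F s hsu hb hb0 (hcomm _ (tv_mem_Q h F.uu hb))
  have hc0 : c ≠ 0 := by
    intro h0
    rw [h0, zero_mul] at hN
    exact zero_ne_one hN
  have hD : ∀ x, f x u = 0 → True → ∃ κ : K, s.1 x = c • x + κ • u := by
    intro x hx _
    obtain ⟨c', hc'⟩ := exists_c h (pr f u v x)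
    obtain ⟨κ, hκ⟩ := key_lemma h F s hsu hN (pr_u h F x) (pr_v h F x) hc'
      (hcomm _ (sg_mem_Q h F.uu (pr_u h F x) hc'))
    refine ⟨κ, ?_⟩
    have e := decomp (f := f) u v x
    rw [hx, zero_smul, add_zero] at e
    conv_lhs => rw [e]
    rw [map_add, map_smul, hsu, hκ]
    conv_rhs => rw [e]
    module
  obtain ⟨z, hz, r, e, hr⟩ := split_of h p F s c hsu hN (fun _ => True) hD (fun _ => trivial)
  refine ⟨z, hz, r, ⟨?_, fun x hx => ?_⟩, e⟩
  · rw [hr, hsu, smul_smul, inv_mul_cancel₀ hc0, one_smul]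
  · obtain ⟨κ, hκ⟩ := hD x hx trivial
    refine ⟨c⁻¹ * κ, ?_⟩
    rw [hr, hκ, smul_add, smul_smul, smul_smul, inv_mul_cancel₀ hc0, one_smul]

lemma tv_mem_R2 {u w y : V} {b : K} (hyy : f y y = 0) (hb : b + σ b = 0) (hu : f u y = 0)
    (hw : f w y = 0) (hy : ∀ x, f x u = 0 → f x w = 0 → f x y = 0) : tv h y b ∈ R2 f u w := by
  refine ⟨by rw [tv_apply h hyy hb, hu]; simp, by rw [tv_apply h hyy hb, hw]; simp,
    fun x h1 h2 => ⟨0, 0, by rw [tv_apply h hyy hb, hy x h1 h2]; simp⟩⟩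

lemma sg_mem_R2 {u w₁ w : V} {c : K} (hu : f u u = 0) (hwu : f w u = 0) (hc : c + σ c = - f w w)
    (h1 : f w₁ u = 0) (h2 : f w₁ w = 0) : sg h u w c ∈ R2 f u w₁ := by
  refine ⟨(sg_mem_Q h hu hwu hc).1, by rw [sg_apply h hu hwu hc, h1, h2]; simp,
    fun x hx _ => ⟨- f x w, 0, by rw [sg_apply h hu hwu hc, hx]; module⟩⟩

include h in
/-- `R2 u w₁` is self-centralising modulo scalars -/
theorem centric_R2 {u v w₁ w₂ : V} (F : Frame f u v) (F' : Frame f w₁ w₂) (w1u : f w₁ u = 0)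
    (w1v : f w₁ v = 0) (w2u : f w₂ u = 0)
    (hpow : ∀ r ∈ R2 f u w₁, ∃ k : ℕ, r ^ (p ^ k) = 1) (s : SUg f)
    (hs : ∀ r ∈ R2 f u w₁, s * r * s⁻¹ * r⁻¹ ∈ Subgroup.center (SUg f)) :
    ∃ z ∈ Subgroup.center (SUg f), ∃ r ∈ R2 f u w₁, s = z * r := by
  have hcomm : ∀ r ∈ R2 f u w₁, s * r = r * s := fun r hr => by
    obtain ⟨k, hk⟩ := hpow r hr
    exact comm_of_central h p F hk (hs r hr)
  have uw1 := h.swap_zero w1u
  obtain ⟨b, hb0, hb⟩ := h.exists_z
  have m1 : tv h u b ∈ R2 f u w₁ := tv_mem_R2 h F.uu hb F.uu w1u (fun x h1 _ => h1)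
  have m2 : tv h w₁ b ∈ R2 f u w₁ := tv_mem_R2 h F'.uu hb uw1 F'.uu (fun x _ h2 => h2)
  have F3 : Frame f (u + w₁) v := by
    refine ⟨?_, F.vv, ?_⟩
    · simp only [h.add_left, h.add_right, F.uu, F'.uu, w1u, uw1]; ring
    · rw [h.add_left, F.uv, w1v, add_zero]
  have m3 : tv h (u + w₁) b ∈ R2 f u w₁ := tv_mem_R2 h F3.uu hb
    (by rw [h.add_right, F.uu, uw1, add_zero]) (by rw [h.add_right, w1u, F'.uu, add_zero])
    (fun x h1 h2 => by rw [h.add_right, h1, h2, add_zero])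
  obtain ⟨c, hsu⟩ := tv_line h F s hb hb0 (hcomm _ m1)
  obtain ⟨c1, hsw⟩ := tv_line h F' s hb hb0 (hcomm _ m2)
  obtain ⟨c2, hs3⟩ := tv_line h F3 s hb hb0 (hcomm _ m3)
  rw [map_add, hsu, hsw] at hs3
  have e1 : c = c2 := by
    have := congrArg (fun x => f x v) hs3
    simpa [h.add_left, h.smul_left, F.uv, w1v] using this
  have e2 : c1 = c2 := by
    have := congrArg (fun x => f x w₂) hs3
    simpa [h.add_left, h.smul_left, F'.uv, h.swap_zero w2u] using this
  rw [e2, ← e1] at hsw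
  have hN := norm_one h F s hsu hb hb0 (hcomm _ m1)
  have hc0 : c ≠ 0 := by
    intro h0
    rw [h0, zero_mul] at hN
    exact zero_ne_one hN
  have hσc : σ c = c⁻¹ := by field_simp; linear_combination hN
  have hD : ∀ x, f x u = 0 → f x w₁ = 0 → ∃ κ : K, s.1 x = c • x + κ • u := by
    intro x hx hx1
    obtain ⟨c', hc'⟩ := exists_c h (pr f u v x)
    have h3 : f w₁ (pr f u v x) = 0 := by
      apply h.swap_zero
      rw [f_pr_left h x w₁ uw1 (h.swap_zero w1v), hx1]
    obtain ⟨κ, hκ⟩ := key_lemma h F s hsu hN (pr_u h F x) (pr_v h F x) hc'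
      (hcomm _ (sg_mem_R2 h F.uu (pr_u h F x) hc' w1u h3))
    refine ⟨κ, ?_⟩
    have e := decomp (f := f) u v x
    rw [hx, zero_smul, add_zero] at e
    conv_lhs => rw [e]
    rw [map_add, map_smul, hsu, hκ]
    conv_rhs => rw [e]
    module
  obtain ⟨z, hz, r, e, hr⟩ := split_of h p F s c hsu hN (fun x => f x w₁ = 0) hD (by
    intro x
    have e1 := G_iso s x w₁
    rw [hsw, h.smul_right, hσc] at e1
    rw [h.sub_left, h.smul_left, ← e1]
    ring)
  refine ⟨z, hz, r, ⟨?_, ?_, fun x hx hx1 => ?_⟩, e⟩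
  · rw [hr, hsu, smul_smul, inv_mul_cancel₀ hc0, one_smul]
  · rw [hr, hsw, smul_smul, inv_mul_cancel₀ hc0, one_smul]
  · obtain ⟨κ, hκ⟩ := hD x hx hx1
    refine ⟨c⁻¹ * κ, 0, ?_⟩
    rw [hr, hκ, smul_add, smul_smul, smul_smul, inv_mul_cancel₀ hc0, one_smul, zero_smul, add_zero]

end main

end Cfsg.Agent.Lib.Helper50UCen
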