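import Cfsg.Agent.Lib.Helper50UGen

set_option autoImplicit false

/-!
A Sylow `p`-subgroup of the special unitary group (dimension at least four, defining
characteristic) has no proper nontrivial strongly closed subgroup.
-/

namespace Cfsg.Agent.Lib.Helper50UClosed

open Module Cfsg.Agent.Lib.Helper95Herm Cfsg.Agent.Lib.Helper95SU Cfsg.Agent.Lib.Helper95CU
  Cfsg.Agent.Lib.Helper50UGeom Cfsg.Agent.Lib.Helper50UGrp Cfsg.Agent.Lib.Helper50UPar
  Cfsg.Agent.Lib.Helper50URoot Cfsg.Agent.Lib.Helper50UStab Cfsg.Agent.Lib.Helper50USim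
  Cfsg.Agent.Lib.Helper50UT Cfsg.Agent.Lib.Helper50UTau Cfsg.Agent.Lib.Helper50UTheta
  Cfsg.Agent.Lib.Helper50UFin Cfsg.Agent.Lib.Helper50UMain Cfsg.Agent.Lib.Helper50UFx
  Cfsg.Agent.Lib.Helper50UGen

/-- a nontrivial normal subgroup of a `p`-group meets the centre (ambient form) -/
theorem exists_central {G : Type*} [Group G] [Finite G] (p : ℕ) [Fact p.Prime] (P T : Subgroup G)
    (hP : IsPGroup p P) (hT : T ≤ P) (hne : T ≠ ⊥) (hn : ∀ g ∈ P, ∀ t ∈ T, g * t * g⁻¹ ∈ T) :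
    ∃ t ∈ T, t ≠ 1 ∧ ∀ g ∈ P, g * t = t * g := by
  letI : MulAction P T :=
    { smul := fun g t => ⟨g.1 * t.1 * g.1⁻¹, hn g.1 g.2 t.1 t.2⟩
      one_smul := fun t => Subtype.ext (by show (1 : G) * t.1 * (1 : G)⁻¹ = t.1; group)
      mul_smul := fun a b t => Subtype.ext (by
        show (a.1 * b.1) * t.1 * (a.1 * b.1)⁻¹ = a.1 * (b.1 * t.1 * b.1⁻¹) * a.1⁻¹
        group) }
  have dvd : p ∣ Nat.card T := by
    rcases (hP.to_le hT).card_eq_or_dvd with h1 | h1
    · exact absurd (Subgroup.card_eq_one.mp h1) hne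
    · exact h1
  obtain ⟨b, hb, hb1⟩ := hP.exists_fixed_point_of_prime_dvd_card_of_fixed_point T dvd (a := 1) (by
    intro g
    apply Subtype.ext
    show g.1 * (1 : G) * g.1⁻¹ = 1
    group)
  refine ⟨b.1, b.2, fun h0 => hb1 (Subtype.ext h0.symm), fun g hg => ?_⟩
  have h1 : g * b.1 * g⁻¹ = b.1 := congrArg Subtype.val (hb ⟨g, hg⟩)
  calc g * b.1 = (g * b.1 * g⁻¹) * g := by group
    _ = b.1 * g := by rw [h1]

variable {K V : Type*} [Field K] [AddCommGroup V] [Module K V] {σ : K →+* K} {f : V → V → K}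

lemma Q_map (g e : SUg f) {u : V} (he : e ∈ Q f u) : g * e * g⁻¹ ∈ Q f (g.1 u) := by
  refine ⟨?_, fun x hx => ?_⟩
  · rw [mul_app, mul_app, inv_app_app, he.1]
  · obtain ⟨κ, hκ⟩ := he.2 ((g⁻¹).1 x) (by rw [G_iso_inv g]; exact hx)
    exact ⟨κ, by rw [mul_app, mul_app, hκ, map_add, app_inv_app, map_smul]⟩

lemma mem_perp_bot (h : Herm σ f) (x : V) : x ∈ h.perp ((⊥ : Submodule K V) : Set V) := by
  intro y hy
  have : y = 0 := by simpa using hy
  rw [this, h.zero_right]

lemma mem_perp1 (h : Herm σ f) {u v x : V} (h1 : f x u = 0) (h2 : f x v = 0) :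
    x ∈ h.perp (ext (⊥ : Submodule K V) u v : Set V) :=
  (mem_perp_ext h ⊥ u v x).2 ⟨mem_perp_bot h x, h1, h2⟩

variable [FiniteDimensional K V] (h : Herm σ f)

include h in
lemma aniso_line_in [Finite K] {Y : Submodule K V}
    (han : ∀ u ∈ h.perp (Y : Set V), f u u = 0 → u = 0) {d : V} (hdM : d ∈ h.perp (Y : Set V))
    (hd0 : d ≠ 0) : ∀ x ∈ h.perp (Y : Set V), x = (f x d / f d d) • d := by
  have hdd : f d d ≠ 0 := fun h0 => hd0 (han d hdM h0)
  intro x hx
  set x' := x - (f x d / f d d) • d with hx'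
  have hx'M : x' ∈ h.perp (Y : Set V) := Submodule.sub_mem _ hx (Submodule.smul_mem _ _ hdM)
  have h1 : f x' d = 0 := by
    rw [hx', h.sub_left, h.smul_left]; field_simp; ring
  by_cases h2 : x' = 0
  · exact sub_eq_zero.1 h2
  · exfalso
    have h3 : f x' x' ≠ 0 := fun h0 => h2 (han x' hx'M h0)
    obtain ⟨c, hc⟩ := h.norm_surj (- f d d / f x' x') (by
      rw [map_div₀, map_neg, h.self_fix, h.self_fix])
    have h4 : f (d + c • x') (d + c • x') = 0 := by
      simp only [h.add_left, h.add_right, h.smul_left, h.smul_right, h1, h.swap_zero h1]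
      have : c * (σ c * f x' x') = - f d d := by
        rw [← mul_assoc, hc]; field_simp
      rw [this]; ring
    have h5 := han _ (Submodule.add_mem _ hdM (Submodule.smul_mem _ _ hx'M)) h4
    have h6 : f (d + c • x') d = f d d := by
      rw [h.add_left, h.smul_left, h1]; ring
    rw [h5, h.zero_left] at h6
    exact hdd h6.symm

include h in
lemma exists_iso_in [Finite K] {Y : Submodule K V} (hd : 2 ≤ finrank K (h.perp (Y : Set V))) :
    ∃ y ∈ h.perp (Y : Set V), y ≠ 0 ∧ f y y = 0 := by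
  by_contra hcon
  push Not at hcon
  have han : ∀ u ∈ h.perp (Y : Set V), f u u = 0 → u = 0 := by
    intro u hu huu
    by_contra h0
    exact hcon u hu h0 huu
  have hM : h.perp (Y : Set V) ≠ ⊥ := by
    intro h0
    rw [h0] at hd
    simp at hd
  obtain ⟨d, hdM, hd0⟩ := Submodule.exists_mem_ne_zero_of_ne_bot hM
  have hle : h.perp (Y : Set V) ≤ Submodule.span K {d} := by
    intro x hx
    rw [aniso_line_in h han hdM hd0 x hx]
    exact Submodule.smul_mem _ _ (Submodule.mem_span_singleton_self d)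
  have h1 := Submodule.finrank_mono hle
  have h2 : finrank K (Submodule.span K {d}) ≤ 1 := by
    have := finrank_span_le_card (R := K) ({d} : Set V)
    simpa using this
  omega

include h in
lemma finrank_perp1 (u v : V) :
    finrank K V ≤ finrank K (h.perp (ext (⊥ : Submodule K V) u v : Set V)) + 2 := by
  classical
  have h1 := h.finrank_perp_ge {u, v}
  have h2 : h.perp (({u, v} : Finset V) : Set V) ≤ h.perp (ext (⊥ : Submodule K V) u v : Set V) := by
    intro x hx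
    exact mem_perp1 h (hx u (by simp)) (hx v (by simp))
  have h3 := Submodule.finrank_mono h2
  have h4 : ({u, v} : Finset V).card ≤ 2 := Finset.card_le_two
  omega

/-- the configuration attached to a Sylow subgroup -/
structure Cfg (f : V → V → K) (p : ℕ) (P : Subgroup (SUg f)) (u v w₁ w₂ : V) : Prop where
  F : Frame f u v
  F' : Frame f w₁ w₂
  w1u : f w₁ u = 0
  w1v : f w₁ v = 0
  w2u : f w₂ u = 0
  w2v : f w₂ v = 0
  hP : MaxP p ⊥ P
  fixu : ∀ r ∈ P, r.1 u = u
  fixw : ∀ r ∈ P ⊓ Fx f (ext ⊥ u v), r.1 w₁ = w₁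

section pgroup

variable [Finite K] (p : ℕ) [Fact p.Prime] [CharP K p]

include h in
theorem exists_cfg (hdim : 4 ≤ finrank K V) (P : Sylow p (SUg f)) :
    ∃ u v w₁ w₂, Cfg f p (P : Subgroup (SUg f)) u v w₁ w₂ := by
  have hP := maxP_sylow (K := K) (V := V) (f := f) p P
  obtain ⟨u, hu0, huu, hfix⟩ := exists_fixed_iso h p (by omega) (P : Subgroup (SUg f)) P.isPGroup'
  obtain ⟨v, F⟩ := exists_frame h u hu0 huu
  have hu := mem_perp_bot h u
  have hv := mem_perp_bot h v
  have hG := good_ext h (good_bot h) F hu hv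
  have hP1 := step_max h p hP F hu hv hfix
  have hd := finrank_perp1 h u v
  rcases fixed_cases h p hG _ hP1.1 hP1.2.1 with ⟨w₁, hw₁, hw0, hww, hfixw⟩ | hbot
  · obtain ⟨w₂, hw₂, F'⟩ := exists_frame_in h hG hw₁ hw0 hww
    obtain ⟨-, a1, a2⟩ := (mem_perp_ext h ⊥ u v w₁).1 hw₁
    obtain ⟨-, b1, b2⟩ := (mem_perp_ext h ⊥ u v w₂).1 hw₂
    exact ⟨u, v, w₁, w₂, F, F', a1, a2, b1, b2, hP, hfix, hfixw⟩
  · exfalso
    obtain ⟨y, hy, hy0, hyy⟩ := exists_iso_in h (Y := ext ⊥ u v) (by omega)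
    obtain ⟨z, Fy⟩ := exists_frame h y hy0 hyy
    obtain ⟨a, ha0, ha⟩ := h.exists_z
    have h1 : Q f y ⊓ Fx f (ext ⊥ u v) ≤ (P : Subgroup (SUg f)) ⊓ Fx f (ext ⊥ u v) :=
      hP1.2.2 _ ((Q_isPGroup h p Fy).to_le inf_le_left) inf_le_right (by rw [hbot]; exact bot_le)
    have h2 : tv h y a ∈ (P : Subgroup (SUg f)) ⊓ Fx f (ext ⊥ u v) :=
      h1 ⟨tv_mem_Q h hyy ha, tv_mem_Fx h hy hyy ha⟩
    rw [hbot, Subgroup.mem_bot] at h2
    have h3 := congrArg (fun g : SUg f => g.1 z) h2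
    simp only [tv_apply h hyy ha, Fy.vu h, one_app, mul_one] at h3
    have h4 : a • y = 0 := by simpa using h3
    rcases smul_eq_zero.1 h4 with h5 | h5
    · exact ha0 h5
    · exact hy0 h5

variable {p} {P : Subgroup (SUg f)} {u v w₁ w₂ : V}

namespace Cfg

omit [FiniteDimensional K V] in
lemma hw1 (C : Cfg f p P u v w₁ w₂) : w₁ ∈ h.perp (ext (⊥ : Submodule K V) u v : Set V) :=
  mem_perp1 h C.w1u C.w1v

omit [FiniteDimensional K V] in
lemma hw2 (C : Cfg f p P u v w₁ w₂) : w₂ ∈ h.perp (ext (⊥ : Submodule K V) u v : Set V) :=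
  mem_perp1 h C.w2u C.w2v

omit [FiniteDimensional K V] in
include h in
lemma good1 (C : Cfg f p P u v w₁ w₂) : Good h (ext (⊥ : Submodule K V) u v) :=
  good_ext h (good_bot h) C.F (mem_perp_bot h u) (mem_perp_bot h v)

omit [Finite K] [Fact p.Prime] in
include h in
lemma Q_le (C : Cfg f p P u v w₁ w₂) : Q f u ≤ P := by
  have := QFx_le h p C.hP C.F C.fixu
  rwa [Fx_bot, inf_top_eq] at this

omit [Finite K] [Fact p.Prime] in
include h in
lemma max1 (C : Cfg f p P u v w₁ w₂) : MaxP p (ext ⊥ u v) (P ⊓ Fx f (ext ⊥ u v)) :=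
  step_max h p C.hP C.F (mem_perp_bot h u) (mem_perp_bot h v) C.fixu

omit [Finite K] [Fact p.Prime] in
include h in
lemma Q1_le (C : Cfg f p P u v w₁ w₂) : Q f w₁ ⊓ Fx f (ext ⊥ u v) ≤ P :=
  le_trans (QFx_le h p (C.max1 h) C.F' C.fixw) inf_le_left

include h in
lemma ne_bot1 (C : Cfg f p P u v w₁ w₂) : h.perp (ext (⊥ : Submodule K V) u v : Set V) ≠ ⊥ := by
  intro h0
  have := C.hw1 h
  rw [h0, Submodule.mem_bot] at this
  exact C.F'.u_ne h this

end Cfg

include h in
/-- product formula for Siegel elements with isotropic parameter -/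
lemma sg_eq_tv (hu : f u u = 0) (hw : f w₁ w₁ = 0) (hwu : f w₁ u = 0) {b : K} (hb : b + σ b = 0)
    (α : K) :
    sg h u ((b * σ α) • w₁) 0 =
      tv h (w₁ + α • u) b * tv h w₁ (-b) * tv h u (-(b * (α * σ α))) := by
  have huw := h.swap_zero hwu
  have hσb : σ b = -b := by linear_combination hb
  apply G_ext
  intro x
  rw [mul_app, mul_app, sg_apply h hu (by rw [h.smul_left, hwu, mul_zero]) (by
      rw [h.smul_left, h.smul_right, hw]; simp),
    tv_apply h hu (by rw [map_neg, map_mul, map_mul, h.invol, hσb]; ring),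
    tv_apply h hw (by rw [map_neg, hσb]; ring),
    tv_apply h (by
      simp only [h.add_left, h.add_right, h.smul_left, h.smul_right, hu, hw, hwu, huw]; ring) hb]
  simp only [h.add_left, h.add_right, h.smul_left, h.smul_right, hu, hw, hwu, huw, map_mul,
    h.invol, hσb]
  module

include h in
/-- **no proper nontrivial strongly closed subgroup** -/
theorem closed_top (C : Cfg f p P u v w₁ w₂)
    (hgen : P ≤ Subgroup.closure {x | x ∈ P ∧ ∃ y, y ≠ 0 ∧ f y y = 0 ∧ x ∈ Q f y})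
    (T : Subgroup (SUg f)) (hT : T ≤ P) (hne : T ≠ ⊥)
    (hcl : ∀ t ∈ T, ∀ c : SUg f, c * t * c⁻¹ ∈ P → c * t * c⁻¹ ∈ T) : T = P := by
  have F := C.F
  have F' := C.F'
  have hQP := C.Q_le h
  have hub := mem_perp_bot h u
  have hvb := mem_perp_bot h v
  -- a central transvection
  obtain ⟨t0, ht0, ht01, hcen⟩ := exists_central p P T C.hP.2.1 hT hne
    (fun g hg t ht => hcl t ht g (P.mul_mem (P.mul_mem hg (hT ht)) (P.inv_mem hg)))
  obtain ⟨a0, ha0, rfl⟩ := mem_X_of_centralizes h F t0 (C.fixu t0 (hT ht0))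
    (fun e he => (hcen e (hQP he)).symm)
  have ha00 : a0 ≠ 0 := by
    rintro rfl
    exact ht01 (tv_zero h u)
  -- all transvections of `P`
  have hTv : ∀ (y : V) (b : K), y ≠ 0 → f y y = 0 → b + σ b = 0 → tv h y b ∈ P → tv h y b ∈ T := by
    intro y b hy0 hyy hb hmem
    by_cases hb0 : b = 0
    · rw [hb0, tv_zero]; exact T.one_mem
    obtain ⟨c, hc⟩ := h.norm_surj (b / a0) (by
      rw [map_div₀]
      have e1 : σ b = -b := by linear_combination hb
      have e2 : σ a0 = -a0 := by linear_combination ha0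
      rw [e1, e2, neg_div_neg_eq])
    have hc0 : c ≠ 0 := by
      rintro rfl
      rw [zero_mul] at hc
      exact (div_ne_zero hb0 ha00) hc.symm
    obtain ⟨g, -, hg⟩ := trans_vec h (good_bot h) (y := c • y) F hub hvb (C.ne_bot1 h)
      (mem_perp_bot h _) (smul_ne_zero hc0 hy0) (by rw [h.smul_left, h.smul_right, hyy]; ring)
    have e : g * tv h u a0 * g⁻¹ = tv h y b := by
      rw [conj_tv h g F.uu ha0, hg, tv_smul h c hyy ha0, hc]
      congr 1
      field_simp
    rw [← e]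
    exact hcl _ ht0 g (by rw [e]; exact hmem)
  have hTu : ∀ b, b + σ b = 0 → tv h u b ∈ T := fun b hb =>
    hTv u b (F.u_ne h) F.uu hb (hQP (tv_mem_Q h F.uu hb))
  have hPw : ∀ b, b + σ b = 0 → tv h w₁ b ∈ P := fun b hb =>
    C.Q1_le h ⟨tv_mem_Q h F'.uu hb, tv_mem_Fx h (C.hw1 h) F'.uu hb⟩
  have hw1u' := h.swap_zero C.w1u
  -- Siegel elements with parameter on the line of `w₁`
  have hS1 : ∀ (μ c : K), c + σ c = 0 → sg h u (μ • w₁) c ∈ T := by
    intro μ c hc
    have hσa : σ a0 ≠ 0 := sig_ne h ha00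
    obtain ⟨α, e1⟩ : ∃ α, a0 * σ α = μ := ⟨σ (μ / a0), by rw [h.invol]; field_simp⟩
    have hy0 : w₁ + α • u ≠ 0 := by
      intro h0
      have := congrArg (fun x => f x w₂) h0
      simp only [h.add_left, h.smul_left, F'.uv, h.swap_zero C.w2u, h.zero_left] at this
      simp at this
    have hyy : f (w₁ + α • u) (w₁ + α • u) = 0 := by
      simp only [h.add_left, h.add_right, h.smul_left, h.smul_right, F.uu, F'.uu, C.w1u, hw1u']
      ring
    have hval : (0 : K) + σ 0 = - f ((-σ α) • w₂) ((-σ α) • w₂) := by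
      rw [h.smul_left, h.smul_right, F'.vv]; simp
    have hwu2 : f ((-σ α) • w₂) u = 0 := by rw [h.smul_left, C.w2u, mul_zero]
    have hmem : tv h (w₁ + α • u) a0 ∈ P := by
      have e2 : (sg h u ((-σ α) • w₂) 0).1 w₁ = w₁ + α • u := by
        rw [sg_apply h F.uu hwu2 hval, C.w1u, h.smul_right, F'.uv, map_neg, h.invol]
        module
      have e3 := conj_tv h (sg h u ((-σ α) • w₂) 0) F'.uu ha0
      rw [e2] at e3
      rw [← e3]
      have h1 : sg h u ((-σ α) • w₂) 0 ∈ P := hQP (sg_mem_Q h F.uu hwu2 hval)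
      exact P.mul_mem (P.mul_mem h1 (hPw a0 ha0)) (P.inv_mem h1)
    have hna : -a0 + σ (-a0) = 0 := by rw [map_neg]; linear_combination -ha0
    have e4 := sg_eq_tv h F.uu F'.uu C.w1u ha0 α
    rw [e1] at e4
    have h5 : sg h u (μ • w₁) 0 ∈ T := by
      rw [e4]
      refine T.mul_mem (T.mul_mem (hTv _ _ hy0 hyy ha0 hmem)
        (hTv _ _ (F'.u_ne h) F'.uu hna (hPw _ hna))) (hTu _ ?_)
      rw [map_neg, map_mul, map_mul, h.invol]
      linear_combination -(α * σ α) * ha0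
    have e6 := sg_mul_tv h (w := μ • w₁) (c := 0) (a := c) F.uu
      (by rw [h.smul_left, C.w1u, mul_zero]) (by rw [h.smul_left, h.smul_right, F'.uu]; simp) hc
    rw [zero_add] at e6
    rw [← e6]
    exact T.mul_mem h5 (hTu c hc)
  -- all Siegel elements
  have hS : ∀ w ∈ h.perp (ext (⊥ : Submodule K V) u v : Set V),
      ∀ c, c + σ c = - f w w → sg h u w c ∈ T := by
    apply iso_ind_in h _ F' (C.hw1 h) (C.hw2 h)
    · intro a b ha hb Pa Pb c hc
      obtain ⟨-, hau, -⟩ := (mem_perp_ext h ⊥ u v a).1 ha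
      obtain ⟨-, hbu, -⟩ := (mem_perp_ext h ⊥ u v b).1 hb
      obtain ⟨c1, hc1⟩ := exists_c h a
      obtain ⟨c2, hc2⟩ := exists_c h b
      have e1 := sg_mul h F.uu hau hc1 hbu hc2
      have hv1 : (c1 + c2 - f b a) + σ (c1 + c2 - f b a) = - f (a + b) (a + b) := by
        rw [map_sub, map_add, ← h.herm a b, h.add_left, h.add_right, h.add_right]
        linear_combination hc1 + hc2
      have hv2 : (c - (c1 + c2 - f b a)) + σ (c - (c1 + c2 - f b a)) = 0 := by
        rw [map_sub]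
        linear_combination hc - hv1
      have e2 := sg_mul_tv h F.uu (by rw [h.add_left, hau, hbu, add_zero]) hv1 hv2
      have e3 : c1 + c2 - f b a + (c - (c1 + c2 - f b a)) = c := by ring
      rw [e3, ← e1] at e2
      rw [← e2]
      exact T.mul_mem (T.mul_mem (Pa c1 hc1) (Pb c2 hc2)) (hTu _ hv2)
    · intro w hw hww c hc
      rw [hww, neg_zero] at hc
      by_cases hw0 : w = 0
      · rw [hw0, sg_zero h F.uu hc]
        exact hTu c hc
      obtain ⟨n, hn, c', hc'0, e⟩ := relC h (C.good1 h) (C.hw1 h) hw F'.uu hww (F'.u_ne h) hw0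
      have hnF := (mem_Fx_ext ⊥ u v n).1 (NN_le_Fx _ hn)
      have hval : c + σ c = - f (c'⁻¹ • w₁) (c'⁻¹ • w₁) := by
        rw [h.smul_left, h.smul_right, F'.uu]; linear_combination hc
      have e1 := conj_sg h n F.uu (w := c'⁻¹ • w₁) (by rw [h.smul_left, C.w1u, mul_zero]) hval
      rw [hnF.2.1, map_smul, e, smul_smul, inv_mul_cancel₀ hc'0, one_smul] at e1
      obtain ⟨-, hwu, -⟩ := (mem_perp_ext h ⊥ u v w).1 hw
      rw [← e1]
      apply hcl _ (hS1 _ c hc) n
      rw [e1]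
      exact hQP (sg_mem_Q h F.uu hwu (by rw [hww]; linear_combination hc))
  have hQT : Q f u ≤ T := by
    intro e he
    obtain ⟨w, c, hwu, hwv, hc, rfl⟩ := Q_exists h F e he
    exact hS w (mem_perp1 h hwu hwv) c hc
  apply le_antisymm hT
  refine le_trans hgen ?_
  rw [Subgroup.closure_le]
  rintro x ⟨hxP, y, hy0, hyy, hxQ⟩
  obtain ⟨g, -, hg⟩ := trans_vec h (good_bot h) F hub hvb (C.ne_bot1 h) (mem_perp_bot h y) hy0 hyy
  have h1 : g⁻¹ * x * g⁻¹⁻¹ ∈ Q f u := by
    have := Q_map g⁻¹ x hxQ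
    rwa [← hg, inv_app_app] at this
  have e : g * (g⁻¹ * x * g⁻¹⁻¹) * g⁻¹ = x := by group
  have h2 := hcl _ (hQT h1) g (by rw [e]; exact hxP)
  rwa [e] at h2

end pgroup

end Cfsg.Agent.Lib.Helper50UClosed
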