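import Mathlib
import Cfsg.Prelude
import Cfsg.Agent.Lib.Helper50UTw
import Cfsg.Agent.Lib.Helper50Gam

set_option autoImplicit false
open Cfsg
open scoped MatrixGroups Matrix

/-! Graph automorphisms `gamU A = c(A⁻¹) φ_q` of `PSU_n(q)`. (helper50) -/

namespace Cfsg.Agent.Lib.Helper50UGam

open Cfsg.Agent.Lib.Helper7GU Cfsg.Agent.Lib.Helper7Herm Cfsg.Agent.Lib.Helper50UAut
  Cfsg.Agent.Lib.Helper50UOut Cfsg.Agent.Lib.Helper50UH90 Cfsg.Agent.Lib.Helper50UTw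
  Cfsg.Agent.Lib.Helper50Form Cfsg.Agent.Lib.Helper50GF Cfsg.Agent.Lib.Helper50AutStr
  Cfsg.Agent.Lib.Helper50Gam Cfsg.Agent.Lib.Helper50Cent

variable {F : Type*} [Field F] [Fintype F] {q n : ℕ} (hF : Fintype.card F = q ^ 2)

local notation "Mn" => Matrix (Fin n) (Fin n) F
local notation "AutU" => MulAut (Cfsg.PSU n F q)

/-- the graph automorphism attached to the unitary matrix `A` -/
noncomputable def gamU (A : Cfsg.GU n F q) : AutU := cU A⁻¹ * fU (sigE hF)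

theorem isU_iff' (M : Mn) : IsU n F q M ↔ Mᵀ * M.map (sigE hF) = 1 := by
  have : M.map (fun x => x ^ q) = M.map (sigE hF) := by ext a b; simp [sigE_apply]
  unfold IsU
  rw [this]

theorem mapGU_sig (g : Cfsg.GU n F q) : (mapGU (sigE hF) g).1 = invTGL g.1 := by
  apply Units.ext
  rw [mapGU_coe, invTGL_coe]
  have h1 := (isU_iff' hF _).1 (isU_coe hF g)
  calc (g.1 : Mn).map (sigE hF)
      = ((g.1⁻¹ : GL (Fin n) F) : Mn)ᵀ * ((g.1 : Mn)ᵀ * (g.1 : Mn).map (sigE hF)) := by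
        rw [← mul_assoc, glT_inv_mul, one_mul]
    _ = _ := by rw [h1, mul_one]

omit [Fintype F] in
theorem cU_eq_of_smul (g h : Cfsg.GU n F q) (c : F) (e : (h.1 : Mn) = c • (g.1 : Mn)) :
    (cU h : AutU) = cU g := by
  have h1 : (cU (h * g⁻¹) : AutU) = 1 := by
    apply cU_eq_one_of_scalar _ c
    intro x
    rw [Subgroup.coe_mul, Units.val_mul, e, smul_mul_assoc, Subgroup.coe_inv, gl_mul_inv',
      Matrix.smul_mulVec, Matrix.one_mulVec]
  rw [map_mul, map_inv, mul_inv_eq_one] at h1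
  exact h1

include hF in
theorem cU_eq_iff (hn : 3 ≤ n) (g h : Cfsg.GU n F q) :
    (cU g : AutU) = cU h ↔ ∃ c : F, c ≠ 0 ∧ (h.1 : Mn) = c • (g.1 : Mn) := by
  constructor
  · intro e
    have h2 : h * g⁻¹ ∈ (cU : Cfsg.GU n F q →* AutU).ker := by
      rw [MonoidHom.mem_ker, map_mul, map_inv, e, mul_inv_cancel]
    rw [ker_cU hF hn] at h2
    obtain ⟨z, hz⟩ := h2
    refine ⟨z.1, z.1.ne_zero, ?_⟩
    have h3 : h = scU z * g := by rw [hz, inv_mul_cancel_right]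
    rw [h3, Subgroup.coe_mul, Units.val_mul, scU_coe, smul_mul_assoc, one_mul]
  · rintro ⟨c, -, e⟩
    exact (cU_eq_of_smul g h c e).symm

theorem gamU_mul_cU (A g : Cfsg.GU n F q) :
    gamU hF A * cU g = cU (A⁻¹ * mapGU (sigE hF) g * A) * gamU hF A := by
  unfold gamU
  rw [mul_assoc, fU_mul_cU, ← mul_assoc, ← mul_assoc, ← map_mul, ← map_mul]
  congr 2
  group

theorem mem_centralizer_gamU (hn : 3 ≤ n) (A g : Cfsg.GU n F q) :
    cU g ∈ Subgroup.centralizer {gamU hF A} ↔ g.1 ∈ simT (A.1 : Mn) := by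
  rw [← mem_centralizer_gam (by omega) A.1 g.1,
    mem_centralizer_iff_of_twist (by omega) _ g.1 _ (gam_mul_cHom A.1 g.1),
    Subgroup.mem_centralizer_singleton_iff, gamU_mul_cU]
  have h1 : ((A⁻¹ * mapGU (sigE hF) g * A : Cfsg.GU n F q)).1 = A.1⁻¹ * invTGL g.1 * A.1 := by
    rw [Subgroup.coe_mul, Subgroup.coe_mul, mapGU_sig, Subgroup.coe_inv]
  rw [← h1, ← cU_eq_iff hF hn]
  constructor
  · intro h
    exact mul_right_cancel h
  · intro h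
    rw [← h]

include hF in
theorem mem_scalars_iff (hn : 3 ≤ n) (g : Cfsg.GU n F q) :
    g.1 ∈ Cfsg.Geo.scalars (Fin n) F ↔ (cU g : AutU) = 1 := by
  rw [Cfsg.Geo.mem_scalars_iff]
  constructor
  · rintro ⟨c, hc⟩
    apply cU_eq_one_of_scalar _ (c : F)
    intro x
    rw [hc, Matrix.smul_mulVec, Matrix.one_mulVec]
  · intro h
    have h2 : g ∈ (cU : Cfsg.GU n F q →* AutU).ker := h
    rw [ker_cU hF hn] at h2
    obtain ⟨z, rfl⟩ := h2
    exact ⟨z.1, scU_coe z⟩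

theorem centralizer_equiv_U (hn : 3 ≤ n) (A : Cfsg.GU n F q) :
    Nonempty (↥(Cfsg.inndiagPSU n F q ⊓ Subgroup.centralizer {gamU hF A})
      ≃* projQuot (Cfsg.GU n F q ⊓ simT (A.1 : Mn))) := by
  rw [inndiag_eq]
  let Ψ : ↥(Cfsg.GU n F q ⊓ simT (A.1 : Mn)) →* AutU :=
    cU.comp (Subgroup.inclusion inf_le_left)
  have hrange : Ψ.range = (cU : Cfsg.GU n F q →* AutU).range ⊓ Subgroup.centralizer {gamU hF A} := by
    ext y
    constructor
    · rintro ⟨h, rfl⟩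
      exact ⟨⟨_, rfl⟩, (mem_centralizer_gamU hF hn A ⟨h.1, h.2.1⟩).2 h.2.2⟩
    · rintro ⟨⟨g, rfl⟩, hg⟩
      exact ⟨⟨g.1, g.2, (mem_centralizer_gamU hF hn A g).1 hg⟩, rfl⟩
  have hker : Ψ.ker = (Cfsg.Geo.scalars (Fin n) F).subgroupOf (Cfsg.GU n F q ⊓ simT (A.1 : Mn)) := by
    ext h
    rw [MonoidHom.mem_ker, Subgroup.mem_subgroupOf]
    exact (mem_scalars_iff hF hn ⟨h.1, h.2.1⟩).symm
  exact ⟨(((QuotientGroup.quotientMulEquivOfEq hker.symm).trans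
    (QuotientGroup.quotientKerEquivRange Ψ)).trans (MulEquiv.subgroupCongr hrange)).symm⟩

theorem gamU_eq_iff (hn : 3 ≤ n) (A A' : Cfsg.GU n F q) :
    gamU hF A = gamU hF A' ↔ ∃ c : F, c ≠ 0 ∧ (A'.1 : Mn) = c • (A.1 : Mn) := by
  unfold gamU
  rw [mul_left_inj, cU_eq_iff hF hn]
  constructor
  · rintro ⟨c, hc, e⟩
    refine ⟨c⁻¹, inv_ne_zero hc, ?_⟩
    rw [Subgroup.coe_inv, Subgroup.coe_inv] at e
    have := inv_smul_coe c hc _ _ e
    rwa [inv_inv, inv_inv] at this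
  · rintro ⟨c, hc, e⟩
    rw [Subgroup.coe_inv, Subgroup.coe_inv]
    exact ⟨c⁻¹, inv_ne_zero hc, inv_smul_coe c hc _ _ e⟩

/-- the congruence action -/
noncomputable def congU (P A : Cfsg.GU n F q) : Cfsg.GU n F q := (mapGU (sigE hF) P)⁻¹ * A * P

theorem congU_coe (P A : Cfsg.GU n F q) :
    ((congU hF P A).1 : Mn) = (P.1 : Mn)ᵀ * (A.1 : Mn) * (P.1 : Mn) := by
  unfold congU
  rw [Subgroup.coe_mul, Subgroup.coe_mul, Subgroup.coe_inv, mapGU_sig]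
  rfl

theorem conj_gamU (P A : Cfsg.GU n F q) :
    cU P⁻¹ * gamU hF A * (cU P⁻¹ : AutU)⁻¹ = gamU hF (congU hF P A) := by
  rw [← map_inv, inv_inv, mul_assoc, gamU_mul_cU, ← mul_assoc, ← map_mul]
  unfold gamU congU
  rw [← mul_assoc, ← map_mul]
  congr 2
  group

theorem isConj_gamU_iff (hn : 3 ≤ n) (A A' : Cfsg.GU n F q) :
    Cfsg.IsConjUnder (Cfsg.inndiagPSU n F q) (gamU hF A) (gamU hF A') ↔
      ∃ (P : Cfsg.GU n F q) (c : F), c ≠ 0 ∧
        (A'.1 : Mn) = c • ((P.1 : Mn)ᵀ * (A.1 : Mn) * (P.1 : Mn)) := by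
  rw [inndiag_eq]
  constructor
  · rintro ⟨_, ⟨g, rfl⟩, e⟩
    have h1 := conj_gamU hF g⁻¹ A
    rw [inv_inv] at h1
    rw [h1, gamU_eq_iff hF hn] at e
    obtain ⟨c, hc, e⟩ := e
    refine ⟨g⁻¹, c⁻¹, inv_ne_zero hc, ?_⟩
    rw [← congU_coe hF, e, smul_smul, inv_mul_cancel₀ hc, one_smul]
  · rintro ⟨P, c, hc, e⟩
    refine ⟨cU P⁻¹, ⟨_, rfl⟩, ?_⟩
    rw [conj_gamU, gamU_eq_iff hF hn]
    exact ⟨c⁻¹, inv_ne_zero hc, by rw [congU_coe, e, smul_smul, inv_mul_cancel₀ hc, one_smul]⟩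

theorem sigE_mul_self : sigE hF * sigE hF = 1 := by
  ext x
  exact sigE_sigE hF x

theorem orderOf_sigE : orderOf (sigE hF) = 2 := by
  apply orderOf_eq_prime
  · rw [pow_two, sigE_mul_self]
  · exact sigE_ne_one hF

theorem gamU_ne_one (hn : 3 ≤ n) (A : Cfsg.GU n F q) : gamU hF A ≠ 1 := by
  intro h
  exact sigE_ne_one hF (cU_mul_fU_eq_one hF hn _ _ h).1

theorem gamU_mul_self (A : Cfsg.GU n F q) :
    gamU hF A * gamU hF A = cU (A⁻¹ * (mapGU (sigE hF) A)⁻¹) := by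
  unfold gamU
  rw [mul_assoc, ← mul_assoc (fU (sigE hF)), fU_mul_cU, mul_assoc, ← map_mul, sigE_mul_self, map_one,
    mul_one, ← map_mul, map_inv]

theorem orderOf_gamU (hn : 3 ≤ n) (A : Cfsg.GU n F q) :
    orderOf (gamU hF A) = 2 ↔ ((A.1 : Mn)ᵀ = (A.1 : Mn) ∨ (A.1 : Mn)ᵀ = -(A.1 : Mn)) := by
  have key : gamU hF A * gamU hF A = 1 ↔ ∃ c : F, c ≠ 0 ∧ (A.1 : Mn)ᵀ = c • (A.1 : Mn) := by
    rw [gamU_mul_self, ← map_one (cU : Cfsg.GU n F q →* AutU), eq_comm, cU_eq_iff hF hn]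
    have h0 : ((A⁻¹ * (mapGU (sigE hF) A)⁻¹ : Cfsg.GU n F q).1 : Mn)
        = ((A.1⁻¹ : GL (Fin n) F) : Mn) * (A.1 : Mn)ᵀ := by
      rw [Subgroup.coe_mul, Subgroup.coe_inv, Subgroup.coe_inv, mapGU_sig]
      rfl
    rw [h0]
    constructor
    · rintro ⟨c, hc, e⟩
      refine ⟨c, hc, ?_⟩
      rw [Subgroup.coe_one, Units.val_one] at e
      calc (A.1 : Mn)ᵀ = (A.1 : Mn) * (((A.1⁻¹ : GL (Fin n) F) : Mn) * (A.1 : Mn)ᵀ) := by
            rw [← mul_assoc, gl_mul_inv', one_mul]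
        _ = _ := by rw [e, mul_smul_comm, mul_one]
    · rintro ⟨c, hc, e⟩
      refine ⟨c, hc, ?_⟩
      rw [Subgroup.coe_one, Units.val_one, e, mul_smul_comm, gl_inv_mul']
  constructor
  · intro h
    have h1 : gamU hF A * gamU hF A = 1 := by rw [← pow_two, ← h, pow_orderOf_eq_one]
    obtain ⟨c, hc, e⟩ := key.1 h1
    have e2 : (A.1 : Mn) = (c * c) • (A.1 : Mn) := by
      calc (A.1 : Mn) = ((A.1 : Mn)ᵀ)ᵀ := (Matrix.transpose_transpose _).symm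
        _ = _ := by rw [e, Matrix.transpose_smul, e, smul_smul]
    have e3 : c * c = 1 := by
      by_contra hne
      have h3 : (c * c - 1) • (A.1 : Mn) = 0 := by rw [sub_smul, one_smul, ← e2, sub_self]
      rcases smul_eq_zero.1 h3 with h4 | h4
      · exact hne (sub_eq_zero.1 h4)
      · exact coe_ne_zero (by omega) A.1 h4
    rcases mul_self_eq_one_iff.1 e3 with rfl | rfl
    · left; rw [e, one_smul]
    · right; rw [e, neg_smul, one_smul]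
  · intro h
    apply orderOf_eq_prime
    · rw [pow_two, key]
      rcases h with h | h
      · exact ⟨1, one_ne_zero, by rw [h, one_smul]⟩
      · exact ⟨-1, by simp, by rw [h, neg_smul, one_smul]⟩
    · exact gamU_ne_one hF hn A

theorem isGraph_gamU (hn : 3 ≤ n) (A : Cfsg.GU n F q) : Cfsg.IsGraphAutClassPSU (gamU hF A) :=
  ⟨hn, cU A⁻¹, fU (sigE hF), sigE hF, by rw [orderOf_sigE]; exact even_two,
    (isInnerDiagonal_iff _).2 ⟨_, rfl⟩, (isField_iff _ _).2 rfl, rfl⟩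

theorem exists_gamU (β : AutU) (hβ : Cfsg.IsGraphAutClassPSU β) (h2 : orderOf β = 2) :
    ∃ A, β = gamU hF A := by
  obtain ⟨hn, δ, φ, τ, hτ, hδ, hφ, rfl⟩ := hβ
  obtain ⟨g, rfl⟩ := (isInnerDiagonal_iff δ).1 hδ
  rw [(isField_iff τ φ).1 hφ] at h2 ⊢
  have h3 : (cU g * fU τ : AutU) ^ 2 = 1 := by rw [← h2, pow_orderOf_eq_one]
  rw [pow_cU_fU, ← map_pow] at h3
  have h4 : τ ^ 2 = 1 := (cU_mul_fU_eq_one hF hn _ _ h3).1
  have h5 : τ ≠ 1 := by
    rintro rfl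
    rw [orderOf_one] at hτ
    exact absurd hτ (by decide)
  have h6 : τ = sigE hF := by
    ext a
    rw [involution_eq_pow hF τ h5 (by rw [← pow_two, h4]) a, sigE_apply]
  exact ⟨g⁻¹, by rw [gamU, inv_inv, h6]⟩

theorem fU_sigE_eq : (fU (sigE hF) : AutU) = gamU hF 1 := by
  rw [gamU, inv_one, map_one, one_mul]

end Cfsg.Agent.Lib.Helper50UGam
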