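import Mathlib
import Cfsg.Prelude
import Cfsg.Agent.Lib.Helper50UGam

set_option autoImplicit false
open Cfsg
open scoped MatrixGroups Matrix

/-! Descent of symmetric / skew unitary matrices to the fixed field `F₀` of `x ↦ x^q`. (helper50) -/

namespace Cfsg.Agent.Lib.Helper50UDesc

open Cfsg.Agent.Lib.Helper7GU Cfsg.Agent.Lib.Helper7Herm Cfsg.Agent.Lib.Helper50UAut
  Cfsg.Agent.Lib.Helper50UOut Cfsg.Agent.Lib.Helper50UH90 Cfsg.Agent.Lib.Helper50UTw
  Cfsg.Agent.Lib.Helper50Form Cfsg.Agent.Lib.Helper50GF Cfsg.Agent.Lib.Helper50AutStr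
  Cfsg.Agent.Lib.Helper50Gam Cfsg.Agent.Lib.Helper50Cent Cfsg.Agent.Lib.Helper50UGam
  Cfsg.Agent.Lib.Helper50H90 Cfsg.Agent.Lib.Helper50HermM

section pure

variable {F : Type*} [Field F] {n : ℕ}

local notation "Mn" => Matrix (Fin n) (Fin n) F

theorem sand (a b c a₂ b₂ c₂ B₁ B₂ B₃ B₄ : Mn) (h1 : aᵀ * B₁ * a₂ = B₂) (h2 : bᵀ * B₂ * b₂ = B₃)
    (h3 : cᵀ * B₃ * c₂ = B₄) : (a * b * c)ᵀ * B₁ * (a₂ * b₂ * c₂) = B₄ := by
  rw [← h3, ← h2, ← h1, Matrix.transpose_mul, Matrix.transpose_mul]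
  simp only [mul_assoc]

theorem inv_sand (y y' y₂ y₂' B G : Mn) (h : yᵀ * B * y₂ = G) (h1 : y * y' = 1) (h2 : y₂ * y₂' = 1) :
    y'ᵀ * G * y₂' = B := by
  rw [← h]
  calc y'ᵀ * (yᵀ * B * y₂) * y₂' = (y * y')ᵀ * B * (y₂ * y₂') := by
        rw [Matrix.transpose_mul]; simp only [mul_assoc]
    _ = B := by rw [h1, h2, Matrix.transpose_one, one_mul, mul_one]

theorem map_smulE (τ : F ≃+* F) (c : F) (M : Mn) : (c • M).map τ = τ c • M.map τ := by
  ext a b
  simp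

theorem map_smulJ {F₀ : Type*} [Field F₀] (j : F₀ →+* F) (c : F₀) (M : Matrix (Fin n) (Fin n) F₀) :
    (c • M).map j = j c • M.map j := by
  ext a b
  simp

theorem det_mapE (τ : F ≃+* F) (M : Mn) : (M.map τ).det = τ M.det := by
  have := RingHom.map_det (τ : F →+* F) M
  exact this.symm

theorem det_mapJ {F₀ : Type*} [Field F₀] (j : F₀ →+* F) (M : Matrix (Fin n) (Fin n) F₀) :
    (M.map j).det = j M.det := by
  have := RingHom.map_det j M
  exact this.symm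

end pure

variable {F : Type*} [Field F] [Fintype F] {q n : ℕ} (hF : Fintype.card F = q ^ 2)
  {F₀ : Type*} [Field F₀] (j : F₀ →+* F)

local notation "Mn" => Matrix (Fin n) (Fin n) F
local notation "M₀" => Matrix (Fin n) (Fin n) F₀
local notation "AutU" => MulAut (Cfsg.PSU n F q)

theorem map_map_sig (M : Mn) : (M.map (sigE hF)).map (sigE hF) = M := by
  ext a b
  exact sigE_sigE hF _

/-- the scalar parameters of the descent for the sign `ε₀` -/
structure Par (ε₀ : F₀) (κ η : F) : Prop where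
  eps : ε₀ * ε₀ = 1
  kap0 : κ ≠ 0
  kap : sigE hF κ = j ε₀ * κ
  eta : η * sigE hF η = j ε₀

theorem Par.eta0 {ε₀ : F₀} {κ η : F} (h : Par hF j ε₀ κ η) : η ≠ 0 := by
  rintro rfl
  have h1 := h.eta
  rw [zero_mul] at h1
  have h2 := congrArg j h.eps
  rw [map_mul, ← h1, zero_mul, map_one] at h2
  exact zero_ne_one h2

theorem par_one : Par hF j 1 1 1 :=
  ⟨one_mul 1, one_ne_zero, by simp, by simp⟩

theorem Nk_two (z : F) : Nk (sigE hF) z 2 = z * sigE hF z := by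
  simp [Nk]

theorem NkM_two (g : Mn) : NkM (sigE hF) g 2 = g * g.map (sigE hF) := by
  simp only [NkM]
  rw [map_oneE, mul_one]

variable (hj : ∀ a, sigE hF a = a ↔ a ∈ Set.range j)

include hj in
theorem exists_par (ε₀ : F₀) (h : ε₀ * ε₀ = 1) : ∃ κ η, Par hF j ε₀ κ η := by
  have hfix : sigE hF (j ε₀) = j ε₀ := (hj _).2 ⟨_, rfl⟩
  have hsq : j ε₀ * j ε₀ = 1 := by rw [← map_mul, h, map_one]
  have h0 : j ε₀ ≠ 0 := by
    intro h0
    rw [h0, zero_mul] at hsq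
    exact zero_ne_one hsq
  obtain ⟨κ, hκ0, hκ⟩ := hilbert90_scalar (sigE hF) 2 (orderOf_sigE hF) two_pos (j ε₀)
    (by rw [Nk_two, hfix, hsq])
  obtain ⟨η, -, hη⟩ := norm_surj (sigE hF) 2 (orderOf_sigE hF) two_pos (j ε₀) h0 hfix
  rw [Nk_two] at hη
  refine ⟨κ, η, h, hκ0, ?_, hη⟩
  calc sigE hF κ = (j ε₀ * j ε₀) * sigE hF κ := by rw [hsq, one_mul]
    _ = j ε₀ * κ := by rw [mul_assoc, hκ]

/-- `A` is obtained from the form `A₀` over `F₀` by the base change `x` -/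
structure Desc (κ η : F) (A x x' : Mn) (A₀ : M₀) : Prop where
  inv1 : x * x' = 1
  inv2 : x' * x = 1
  herm : xᵀ * 1 * x.map (sigE hF) = κ • A₀.map j
  rel : A * x = η • x.map (sigE hF)

variable {hF j}

theorem Desc.form {κ η : F} {A x x' : Mn} {A₀ : M₀} (D : Desc hF j κ η A x x' A₀) :
    xᵀ * A * x = (η * κ) • A₀.map j := by
  rw [mul_assoc, D.rel, mul_smul_comm, mul_smul, ← D.herm, mul_one]

theorem Desc.inv1σ {κ η : F} {A x x' : Mn} {A₀ : M₀} (D : Desc hF j κ η A x x' A₀) :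
    x.map (sigE hF) * x'.map (sigE hF) = 1 := by
  rw [← map_mulE, D.inv1, map_oneE]

theorem Desc.inv2σ {κ η : F} {A x x' : Mn} {A₀ : M₀} (D : Desc hF j κ η A x x' A₀) :
    x'.map (sigE hF) * x.map (sigE hF) = 1 := by
  rw [← map_mulE, D.inv2, map_oneE]

theorem Desc.isUnit {κ η : F} {A x x' : Mn} {A₀ : M₀} (D : Desc hF j κ η A x x' A₀) :
    IsUnit (A₀.map j).det := by
  have h1 : (κ • A₀.map j) * (x'.map (sigE hF) * x'ᵀ) = 1 := by
    rw [← D.herm, mul_one]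
    calc xᵀ * x.map (sigE hF) * (x'.map (sigE hF) * x'ᵀ)
        = xᵀ * (x.map (sigE hF) * x'.map (sigE hF)) * x'ᵀ := by simp only [mul_assoc]
      _ = 1 := by rw [D.inv1σ, mul_one, ← Matrix.transpose_mul, D.inv2, Matrix.transpose_one]
  rw [smul_mul_assoc, ← mul_smul_comm] at h1
  have h2 := congrArg Matrix.det h1
  rw [Matrix.det_mul, Matrix.det_one] at h2
  exact IsUnit.of_mul_eq_one _ h2

theorem Desc.det_ne {κ η : F} {A x x' : Mn} {A₀ : M₀} (D : Desc hF j κ η A x x' A₀) :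
    A₀.det ≠ 0 := by
  intro h
  have := D.isUnit
  rw [det_mapJ, h, map_zero] at this
  exact not_isUnit_zero this

include hj in
/-- from a similitude between the descended forms to a unitary matrix -/
theorem K1 {κ η : F} {A x x' A' y y' : Mn} {A₀ A₀' : M₀} (D : Desc hF j κ η A x x' A₀)
    (D' : Desc hF j κ η A' y y' A₀') (P₀ : M₀) (c₀ : F₀) (hP : P₀ᵀ * A₀ * P₀ = c₀ • A₀')
    (μ : F) (hμ : μ * sigE hF μ * j c₀ = 1) :
    IsU n F q (μ • (x * P₀.map j * y')) ∧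
      (μ • (x * P₀.map j * y'))ᵀ * A * (μ • (x * P₀.map j * y')) = (μ * μ * j c₀) • A' := by
  have hY : (P₀.map j)ᵀ * A₀.map j * P₀.map j = j c₀ • A₀'.map j := by
    rw [← map_smulJ, ← hP, Matrix.map_mul, Matrix.map_mul]
    rfl
  have hYσ : (P₀.map j).map (sigE hF) = P₀.map j := map_j_fixed _ j hj P₀
  constructor
  · rw [isU_iff' hF, map_smulE, Matrix.transpose_smul, smul_mul_assoc, mul_smul_comm, smul_smul,
      map_mulE, map_mulE, hYσ]
    have h1 := sand x (P₀.map j) y' (x.map (sigE hF)) (P₀.map j) (y'.map (sigE hF)) 1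
      (κ • A₀.map j) (j c₀ • (κ • A₀'.map j)) (j c₀ • 1) D.herm
      (by rw [mul_smul_comm, smul_mul_assoc, hY, smul_comm])
      (by rw [mul_smul_comm, smul_mul_assoc, inv_sand y y' _ _ 1 _ D'.herm D'.inv1 D'.inv1σ])
    rw [mul_one] at h1
    rw [h1, smul_smul, hμ, one_smul]
  · rw [Matrix.transpose_smul, smul_mul_assoc, smul_mul_assoc, mul_smul_comm, smul_smul]
    have h1 := sand x (P₀.map j) y' x (P₀.map j) y' A
      ((η * κ) • A₀.map j) (j c₀ • ((η * κ) • A₀'.map j)) (j c₀ • A') D.form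
      (by rw [mul_smul_comm, smul_mul_assoc, hY, smul_comm])
      (by rw [mul_smul_comm, smul_mul_assoc, inv_sand y y' _ _ A' _ D'.form D'.inv1 D'.inv1])
    rw [h1, smul_smul]

include hj in
/-- from a unitary congruence to a similitude between the descended forms -/
theorem K2 (hn : 0 < n) {κ η : F} (hκ : κ ≠ 0) (hη : η ≠ 0) {A x x' A' y y' : Mn} {A₀ A₀' : M₀}
    (D : Desc hF j κ η A x x' A₀)
    (D' : Desc hF j κ η A' y y' A₀') (P : Mn) (hU : IsU n F q P) (c : F)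
    (hP : Pᵀ * A * P = c • A') :
    ∃ (l : F) (P₀ : M₀) (c₀ : F₀), l ≠ 0 ∧ P₀.map j = l • (x' * P * y) ∧
      P₀ᵀ * A₀ * P₀ = c₀ • A₀' ∧ l * sigE hF l = j c₀ := by
  haveI : Nonempty (Fin n) := ⟨⟨0, hn⟩⟩
  rw [isU_iff' hF] at hU
  set h : Mn := x' * P * y with hh
  have hσ : h.map (sigE hF) = x'.map (sigE hF) * P.map (sigE hF) * y.map (sigE hF) := by
    rw [hh, map_mulE, map_mulE]
  have e1 : hᵀ * (κ • A₀.map j) * h.map (sigE hF) = κ • A₀'.map j := by
    rw [hσ]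
    exact sand x' P y _ _ _ _ 1 1 _ (inv_sand x x' _ _ 1 _ D.herm D.inv1 D.inv1σ)
      (by rw [mul_one, hU]) D'.herm
  have e2 : hᵀ * ((η * κ) • A₀.map j) * h = c • ((η * κ) • A₀'.map j) := by
    refine sand x' P y _ _ _ _ A (c • A') _ (inv_sand x x' _ _ A _ D.form D.inv1 D.inv1) hP ?_
    rw [mul_smul_comm, smul_mul_assoc, D'.form]
  have e1' : hᵀ * A₀.map j * h.map (sigE hF) = A₀'.map j := by
    rw [mul_smul_comm, smul_mul_assoc] at e1
    exact smul_right_injective _ hκ e1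
  have e2' : hᵀ * A₀.map j * h = c • A₀'.map j := by
    rw [mul_smul_comm, smul_mul_assoc, smul_comm] at e2
    exact smul_right_injective _ (mul_ne_zero hη hκ) e2
  have hunit : IsUnit (hᵀ * A₀.map j) := by
    rw [Matrix.isUnit_iff_isUnit_det]
    have h1 := D'.isUnit
    rw [← e1', Matrix.det_mul] at h1
    exact isUnit_of_mul_isUnit_left h1
  have e3 : h = c • h.map (sigE hF) := by
    apply hunit.mul_left_cancel
    rw [e2', mul_smul_comm, e1']
  have hne : h ≠ 0 := by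
    intro h0
    rw [h0, Matrix.transpose_zero, zero_mul] at hunit
    exact not_isUnit_zero hunit
  have e4 : h.map (sigE hF) = sigE hF c • h := by
    conv_lhs => rw [e3]
    rw [map_smulE, map_map_sig]
  have e5 : c * sigE hF c = 1 := by
    by_contra hne'
    have h3 : (c * sigE hF c - 1) • h = 0 := by
      rw [sub_smul, one_smul, mul_smul, ← e4, ← e3, sub_self]
    rcases smul_eq_zero.1 h3 with h4 | h4
    · exact hne' (sub_eq_zero.1 h4)
    · exact hne h4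
  obtain ⟨l, hl0, hl⟩ := hilbert90_scalar (sigE hF) 2 (orderOf_sigE hF) two_pos (sigE hF c)
    (by rw [Nk_two, sigE_sigE, mul_comm, e5])
  have e6 : (l • h).map (sigE hF) = l • h := by
    rw [map_smulE, e4, smul_smul, mul_comm, hl]
  obtain ⟨P₀, hP₀⟩ := descend (sigE hF) j hj _ e6
  have hfix : sigE hF (l * sigE hF l) = l * sigE hF l := by
    rw [map_mul, sigE_sigE, mul_comm]
  obtain ⟨c₀, hc₀⟩ := (hj _).1 hfix
  refine ⟨l, P₀, c₀, hl0, hP₀, ?_, hc₀.symm⟩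
  apply Matrix.map_injective j.injective
  show (P₀ᵀ * A₀ * P₀).map j = (c₀ • A₀').map j
  rw [map_smulJ, Matrix.map_mul, Matrix.map_mul, hc₀]
  show (P₀.map j)ᵀ * A₀.map j * P₀.map j = _
  nth_rewrite 2 [hP₀]
  rw [← e6, hP₀, map_smulE, Matrix.transpose_smul, smul_mul_assoc, smul_mul_assoc, mul_smul_comm,
    e1', smul_smul]

omit hj

theorem Par.jsq {ε₀ : F₀} {κ η : F} (hp : Par hF j ε₀ κ η) : j ε₀ * j ε₀ = 1 := by
  rw [← map_mul, hp.eps, map_one]

theorem Par.j0 {ε₀ : F₀} {κ η : F} (hp : Par hF j ε₀ κ η) : j ε₀ ≠ 0 := by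
  intro h0
  have := hp.jsq
  rw [h0, zero_mul] at this
  exact zero_ne_one this

theorem Desc.eq_form {κ η : F} {A x x' : Mn} {A₀ : M₀} (D : Desc hF j κ η A x x' A₀) :
    A = (η * κ) • (x'ᵀ * A₀.map j * x') := by
  rw [← smul_mul_assoc, ← mul_smul_comm]
  exact (inv_sand x x' x x' A _ D.form D.inv1 D.inv1).symm

theorem Desc.transpose {κ η : F} {A x x' : Mn} {A₀ : M₀} (D : Desc hF j κ η A x x' A₀) (ε₀ : F₀)
    (h : A₀ᵀ = ε₀ • A₀) : Aᵀ = j ε₀ • A := by
  have h1 : (A₀.map j)ᵀ = j ε₀ • A₀.map j := by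
    rw [← map_smulJ, ← h]
    rfl
  conv_lhs => rw [D.eq_form]
  rw [Matrix.transpose_smul, Matrix.transpose_mul, Matrix.transpose_mul, Matrix.transpose_transpose,
    h1]
  conv_rhs => rw [D.eq_form]
  rw [smul_mul_assoc, mul_smul_comm, smul_comm, mul_assoc]

end Cfsg.Agent.Lib.Helper50UDesc
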