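import Mathlib
import Cfsg.Prelude
import Cfsg.Agent.Lib.Helper50UDesc
import Cfsg.Agent.Lib.Helper50FormTwo

set_option autoImplicit false
open Cfsg
open scoped MatrixGroups Matrix

/-! Involutory graph automorphisms of `PSU_n(q)` and forms over `F₀ = GF(q)`. (helper50) -/

namespace Cfsg.Agent.Lib.Helper50URep

open Cfsg.Agent.Lib.Helper7GU Cfsg.Agent.Lib.Helper7Herm Cfsg.Agent.Lib.Helper50UAut
  Cfsg.Agent.Lib.Helper50UOut Cfsg.Agent.Lib.Helper50UH90 Cfsg.Agent.Lib.Helper50UTw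
  Cfsg.Agent.Lib.Helper50Form Cfsg.Agent.Lib.Helper50GF Cfsg.Agent.Lib.Helper50AutStr
  Cfsg.Agent.Lib.Helper50Gam Cfsg.Agent.Lib.Helper50Cent Cfsg.Agent.Lib.Helper50UGam
  Cfsg.Agent.Lib.Helper50H90 Cfsg.Agent.Lib.Helper50HermM Cfsg.Agent.Lib.Helper50UDesc
  Cfsg.Agent.Lib.Helper50FormTwo

theorem projQuot_of_sup_eq {ι : Type} [Fintype ι] [DecidableEq ι] {F : Type*} [Field F]
    (H H' : Subgroup (GL ι F)) (h : H ⊔ Geo.scalars ι F = H' ⊔ Geo.scalars ι F) :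
    Nonempty (projQuot H ≃* projQuot H') := by
  obtain ⟨e⟩ := projQuot_of_eq _ _ h
  exact ⟨((QuotientGroup.quotientInfEquivProdNormalQuotient H (Geo.scalars ι F)).trans e).trans
    (QuotientGroup.quotientInfEquivProdNormalQuotient H' (Geo.scalars ι F)).symm⟩

theorem det_ne_of_sim {ι : Type} [Fintype ι] [DecidableEq ι] {F : Type*} [Field F]
    (A A' P : Matrix ι ι F) (c : F) (hc : c ≠ 0) (hA' : A'.det ≠ 0) (h : Pᵀ * A * P = c • A') :
    P.det ≠ 0 := by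
  intro h0
  have := congrArg Matrix.det h
  rw [Matrix.det_mul, h0, mul_zero, Matrix.det_smul] at this
  exact mul_ne_zero (pow_ne_zero _ hc) hA' this.symm

theorem map_mem_scalars_iff {F F₀ : Type*} [Field F] [Field F₀] (j : F₀ →+* F) {n : ℕ} (hn : 0 < n)
    (g : GL (Fin n) F₀) :
    Matrix.GeneralLinearGroup.map j g ∈ Geo.scalars (Fin n) F ↔ g ∈ Geo.scalars (Fin n) F₀ := by
  rw [Geo.mem_scalars_iff, Geo.mem_scalars_iff]
  constructor
  · rintro ⟨z, hz⟩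
    have e : ∀ a b, ((z : F) • (1 : Matrix (Fin n) (Fin n) F)) a b
        = j ((g : Matrix (Fin n) (Fin n) F₀) a b) := by
      intro a b
      rw [← hz]
      rfl
    have h00 : (g : Matrix (Fin n) (Fin n) F₀) ⟨0, hn⟩ ⟨0, hn⟩ ≠ 0 := by
      intro h0
      have := e ⟨0, hn⟩ ⟨0, hn⟩
      rw [h0, map_zero] at this
      simp at this
    refine ⟨Units.mk0 _ h00, ?_⟩
    ext a b
    apply j.injective
    rw [← e]
    by_cases hab : a = b
    · subst hab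
      have := e ⟨0, hn⟩ ⟨0, hn⟩
      simp only [Matrix.smul_apply, Matrix.one_apply_eq, smul_eq_mul, mul_one, Units.val_mk0] at this ⊢
      exact this
    · simp [Matrix.one_apply_ne hab]
  · rintro ⟨w, hw⟩
    refine ⟨Units.map (j : F₀ →* F) w, ?_⟩
    show (g : Matrix (Fin n) (Fin n) F₀).map j = _
    rw [hw, map_smulJ, map_oneH]
    rfl

variable {F : Type*} [Field F] [Fintype F] {q n : ℕ} {hF : Fintype.card F = q ^ 2}
  {F₀ : Type*} [Field F₀] {j : F₀ →+* F}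

local notation "Mn" => Matrix (Fin n) (Fin n) F
local notation "M₀" => Matrix (Fin n) (Fin n) F₀
local notation "AutU" => MulAut (Cfsg.PSU n F q)

variable (hj : ∀ a, sigE hF a = a ↔ a ∈ Set.range j)

include hj in
theorem exists_desc_of_form {ε₀ : F₀} {κ η : F} (hp : Par hF j ε₀ κ η) (A₀ : M₀)
    (hA₀ : A₀ᵀ = ε₀ • A₀) (hd : A₀.det ≠ 0) :
    ∃ A x x' : Mn, IsU n F q A ∧ Desc hF j κ η A x x' A₀ := by
  have hT : (A₀.map j)ᵀ = j ε₀ • A₀.map j := by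
    rw [← map_smulJ, ← hA₀]
    rfl
  have hH : (κ • A₀.map j) * (κ⁻¹ • (A₀⁻¹).map j) = 1 := by
    rw [smul_mul_assoc, mul_smul_comm, smul_smul, mul_inv_cancel₀ hp.kap0, one_smul, ← Matrix.map_mul,
      Matrix.mul_nonsing_inv A₀ (isUnit_iff_ne_zero.2 hd), map_oneH]
  have hherm : ((κ • A₀.map j).map (sigE hF))ᵀ = κ • A₀.map j := by
    rw [map_smulE, map_j_fixed _ j hj, Matrix.transpose_smul, hT, smul_smul, hp.kap,
      mul_right_comm, hp.jsq, one_mul]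
  obtain ⟨h, h', h1, h2, h3⟩ := hermitian_matrix_eq (sigE hF) (sigE_ne_one hF) (sigE_sigE hF) _ _
    hH hherm
  have i1 : hᵀ * h'ᵀ = 1 := by rw [← Matrix.transpose_mul, h2, Matrix.transpose_one]
  have i2 : h'ᵀ * hᵀ = 1 := by rw [← Matrix.transpose_mul, h1, Matrix.transpose_one]
  have D : Desc hF j κ η (η • ((hᵀ).map (sigE hF) * h'ᵀ)) hᵀ h'ᵀ A₀ := by
    refine ⟨i1, i2, ?_, ?_⟩
    · rw [Matrix.transpose_transpose, mul_one, h3]
      rfl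
    · rw [smul_mul_assoc, mul_assoc, i2, mul_one]
  refine ⟨_, _, _, ?_, D⟩
  rw [isU_iff' hF, D.transpose ε₀ hA₀, map_smulE, map_mulE, map_map_sig, smul_mul_assoc,
    smul_mul_assoc, mul_smul_comm, smul_smul, smul_smul]
  have e1 : (hᵀ).map (sigE hF) * h'ᵀ * (hᵀ * (h'ᵀ).map (sigE hF)) = 1 := by
    calc (hᵀ).map (sigE hF) * h'ᵀ * (hᵀ * (h'ᵀ).map (sigE hF))
        = (hᵀ).map (sigE hF) * (h'ᵀ * hᵀ) * (h'ᵀ).map (sigE hF) := by simp only [mul_assoc]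
      _ = 1 := by rw [i2, mul_one, ← map_mulE, i1, map_oneE]
  rw [e1, mul_assoc, hp.eta, hp.jsq, one_smul]

include hj in
theorem exists_desc_of_unitary {ε₀ : F₀} {κ η : F} (hp : Par hF j ε₀ κ η) (A : Mn)
    (hU : IsU n F q A) (hA : Aᵀ = j ε₀ • A) :
    ∃ (x x' : Mn) (A₀ : M₀), A₀ᵀ = ε₀ • A₀ ∧ Desc hF j κ η A x x' A₀ := by
  rw [isU_iff' hF, hA, smul_mul_assoc] at hU
  have hAA : A * A.map (sigE hF) = j ε₀ • 1 := by
    rw [← hU, smul_smul, hp.jsq, one_smul]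
  have hN : NkM (sigE hF) (η⁻¹ • A) 2 = 1 := by
    rw [NkM_two, map_smulE, smul_mul_assoc, mul_smul_comm, hAA, smul_smul, smul_smul, map_inv₀,
      ← mul_inv, hp.eta, inv_mul_cancel₀ hp.j0, one_smul]
  obtain ⟨M, M', m1, m2, m3⟩ := hilbert90_matrix (sigE hF) 2 (orderOf_sigE hF) two_pos _ hN
  set x : Mn := M.map (sigE hF) with hx
  have hxσ : x.map (sigE hF) = M := map_map_sig hF M
  have hrel : A * x = η • x.map (sigE hF) := by
    rw [hxσ, ← m3, smul_mul_assoc, smul_smul, mul_inv_cancel₀ hp.eta0, one_smul]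
  set H : Mn := xᵀ * x.map (sigE hF) with hH
  have hH1 : H = η⁻¹ • (xᵀ * A * x) := by
    rw [mul_assoc, hrel, mul_smul_comm, smul_smul, inv_mul_cancel₀ hp.eta0, one_smul]
  have hHT : Hᵀ = j ε₀ • H := by
    rw [hH1, Matrix.transpose_smul, Matrix.transpose_mul, Matrix.transpose_mul,
      Matrix.transpose_transpose, hA, smul_mul_assoc, mul_smul_comm, smul_comm, mul_assoc]
  have hHσ : H.map (sigE hF) = Hᵀ := by
    rw [hH, map_mulE, map_map_sig, Matrix.transpose_mul, Matrix.transpose_transpose]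
    rfl
  have hfix : (κ⁻¹ • H).map (sigE hF) = κ⁻¹ • H := by
    rw [map_smulE, hHσ, hHT, smul_smul, map_inv₀, hp.kap, mul_inv, mul_right_comm,
      inv_mul_cancel₀ hp.j0, one_mul]
  obtain ⟨A₀, hA₀⟩ := descend (sigE hF) j hj _ hfix
  refine ⟨x, M'.map (sigE hF), A₀, ?_, ?_, ?_, ?_, hrel⟩
  · apply Matrix.map_injective j.injective
    show (A₀.map j)ᵀ = (ε₀ • A₀).map j
    rw [map_smulJ, hA₀, Matrix.transpose_smul, hHT, smul_comm]
  · rw [hx, ← map_mulE, m1, map_oneE]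
  · rw [hx, ← map_mulE, m2, map_oneE]
  · rw [hA₀, smul_smul, mul_inv_cancel₀ hp.kap0, one_smul, mul_one]

variable (hF j) in
/-- `γ` is the graph automorphism attached to the form `A₀` over `F₀` -/
def Rep (κ η : F) (γ : AutU) (A₀ : M₀) : Prop :=
  ∃ (A : Cfsg.GU n F q) (x x' : Mn), γ = gamU hF A ∧ Desc hF j κ η (A.1 : Mn) x x' A₀

theorem Rep.det_ne {κ η : F} {γ : AutU} {A₀ : M₀} (h : Rep hF j κ η γ A₀) : A₀.det ≠ 0 := by
  obtain ⟨A, x, x', -, D⟩ := h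
  exact D.det_ne

theorem Rep.isGraph (hn : 3 ≤ n) {κ η : F} {γ : AutU} {A₀ : M₀} (h : Rep hF j κ η γ A₀) :
    Cfsg.IsGraphAutClassPSU γ := by
  obtain ⟨A, x, x', rfl, D⟩ := h
  exact isGraph_gamU hF hn A

theorem Rep.order (hn : 3 ≤ n) {κ η : F} {γ : AutU} {A₀ : M₀} (h : Rep hF j κ η γ A₀)
    (hA₀ : A₀ᵀ = A₀ ∨ A₀ᵀ = -A₀) : orderOf γ = 2 := by
  obtain ⟨A, x, x', rfl, D⟩ := h
  rw [orderOf_gamU hF hn]
  rcases hA₀ with h | h
  · left
    have := D.transpose 1 (by rw [h, one_smul])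
    rwa [map_one, one_smul] at this
  · right
    have := D.transpose (-1) (by rw [h, neg_smul, one_smul])
    rwa [map_neg, map_one, neg_smul, one_smul] at this

include hj in
theorem exists_rep {ε₀ : F₀} {κ η : F} (hp : Par hF j ε₀ κ η) (A₀ : M₀)
    (hA₀ : A₀ᵀ = ε₀ • A₀) (hd : A₀.det ≠ 0) : ∃ γ : AutU, Rep hF j κ η γ A₀ := by
  obtain ⟨A, x, x', hU, D⟩ := exists_desc_of_form hj hp A₀ hA₀ hd
  exact ⟨gamU hF (mkU hF A hU), mkU hF A hU, x, x', rfl, D⟩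

include hj in
theorem exists_rep_of_graph {κ₁ η₁ κ₂ η₂ : F} (hp1 : Par hF j 1 κ₁ η₁) (hp2 : Par hF j (-1) κ₂ η₂)
    (γ : AutU) (hγ : Cfsg.IsGraphAutClassPSU γ) (h2 : orderOf γ = 2) :
    (∃ A₀ : M₀, A₀ᵀ = A₀ ∧ Rep hF j κ₁ η₁ γ A₀) ∨ (∃ A₀ : M₀, A₀ᵀ = -A₀ ∧ Rep hF j κ₂ η₂ γ A₀) := by
  have hn := hγ.1
  obtain ⟨A, rfl⟩ := exists_gamU hF γ hγ h2
  rcases (orderOf_gamU hF hn A).1 h2 with h | h
  · left
    obtain ⟨x, x', A₀, h1, D⟩ := exists_desc_of_unitary hj hp1 (A.1 : Mn) (isU_coe hF A)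
      (by rw [h, map_one, one_smul])
    exact ⟨A₀, by rw [h1, one_smul], A, x, x', rfl, D⟩
  · right
    obtain ⟨x, x', A₀, h1, D⟩ := exists_desc_of_unitary hj hp2 (A.1 : Mn) (isU_coe hF A)
      (by rw [h, map_neg, map_one, neg_smul, one_smul])
    exact ⟨A₀, by rw [h1, neg_smul, one_smul], A, x, x', rfl, D⟩

include hj in
theorem exists_norm (c₀ : F₀) (hc : c₀ ≠ 0) : ∃ μ : F, μ ≠ 0 ∧ μ * sigE hF μ = j c₀ := by
  obtain ⟨μ, h0, h⟩ := norm_surj (sigE hF) 2 (orderOf_sigE hF) two_pos (j c₀)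
    ((map_ne_zero j).2 hc) ((hj _).2 ⟨_, rfl⟩)
  rw [Nk_two] at h
  exact ⟨μ, h0, h⟩

include hj in
theorem Rep.conj_iff (hn : 3 ≤ n) {κ η : F} (hκ : κ ≠ 0) (hη : η ≠ 0) {γ γ' : AutU} {A₀ A₀' : M₀}
    (h : Rep hF j κ η γ A₀) (h' : Rep hF j κ η γ' A₀') :
    Cfsg.IsConjUnder (Cfsg.inndiagPSU n F q) γ γ' ↔
      ∃ (P₀ : GL (Fin n) F₀) (c₀ : F₀), c₀ ≠ 0 ∧ A₀' = c₀ • ((P₀ : M₀)ᵀ * A₀ * (P₀ : M₀)) := by
  obtain ⟨A, x, x', rfl, D⟩ := h
  obtain ⟨A', y, y', rfl, D'⟩ := h'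
  rw [isConj_gamU_iff hF hn]
  constructor
  · rintro ⟨P, c, hc, e⟩
    have e1 : (P.1 : Mn)ᵀ * (A.1 : Mn) * (P.1 : Mn) = c⁻¹ • (A'.1 : Mn) := by
      rw [e, smul_smul, inv_mul_cancel₀ hc, one_smul]
    obtain ⟨l, P₀, c₀, hl, -, e2, e3⟩ := K2 hj (by omega) hκ hη D D' _ (isU_coe hF P) _ e1
    have hc₀ : c₀ ≠ 0 := by
      rintro rfl
      rw [map_zero] at e3
      rcases mul_eq_zero.1 e3 with h | h
      · exact hl h
      · exact hl ((map_eq_zero _).1 h)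
    refine ⟨Matrix.GeneralLinearGroup.mkOfDetNeZero P₀ (det_ne_of_sim _ _ _ c₀ hc₀ D'.det_ne e2),
      c₀⁻¹, inv_ne_zero hc₀, ?_⟩
    show A₀' = c₀⁻¹ • (P₀ᵀ * A₀ * P₀)
    rw [e2, smul_smul, inv_mul_cancel₀ hc₀, one_smul]
  · rintro ⟨P₀, c₀, hc₀, e⟩
    have e1 : (P₀ : M₀)ᵀ * A₀ * (P₀ : M₀) = c₀⁻¹ • A₀' := by
      rw [e, smul_smul, inv_mul_cancel₀ hc₀, one_smul]
    obtain ⟨μ, hμ0, hμ⟩ := exists_norm hj c₀ hc₀
    have hjc : j c₀ ≠ 0 := (map_ne_zero j).2 hc₀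
    obtain ⟨hU, e2⟩ := K1 hj D D' _ _ e1 μ (by rw [hμ, map_inv₀, mul_inv_cancel₀ hjc])
    refine ⟨mkU hF _ hU, (μ * μ * j c₀⁻¹)⁻¹, ?_, ?_⟩
    · exact inv_ne_zero (mul_ne_zero (mul_ne_zero hμ0 hμ0) ((map_ne_zero j).2 (inv_ne_zero hc₀)))
    · rw [mkU_coe, e2, smul_smul, inv_mul_cancel₀
        (mul_ne_zero (mul_ne_zero hμ0 hμ0) ((map_ne_zero j).2 (inv_ne_zero hc₀))), one_smul]

theorem Rep.not_conj (hn : 3 ≤ n) (h2 : (2 : F) ≠ 0) {κ₁ η₁ κ₂ η₂ : F} {γ γ' : AutU} {A₀ A₀' : M₀}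
    (h : Rep hF j κ₁ η₁ γ A₀) (h' : Rep hF j κ₂ η₂ γ' A₀') (hs : A₀ᵀ = -A₀) (hs' : A₀'ᵀ = A₀') :
    ¬ Cfsg.IsConjUnder (Cfsg.inndiagPSU n F q) γ γ' := by
  obtain ⟨A, x, x', rfl, D⟩ := h
  obtain ⟨A', y, y', rfl, D'⟩ := h'
  rw [isConj_gamU_iff hF hn]
  rintro ⟨P, c, hc, e⟩
  have t1 : (A.1 : Mn)ᵀ = -(A.1 : Mn) := by
    have := D.transpose (-1) (by rw [hs, neg_smul, one_smul])
    rwa [map_neg, map_one, neg_smul, one_smul] at this
  have t2 : (A'.1 : Mn)ᵀ = (A'.1 : Mn) := by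
    have := D'.transpose 1 (by rw [hs', one_smul])
    rwa [map_one, one_smul] at this
  have t3 : (A'.1 : Mn)ᵀ = -(A'.1 : Mn) := by
    rw [e, Matrix.transpose_smul, Matrix.transpose_mul, Matrix.transpose_mul,
      Matrix.transpose_transpose, t1, ← mul_assoc]
    simp
  rw [t2] at t3
  have h3 : (2 : F) • (A'.1 : Mn) = 0 := by
    rw [two_smul]
    nth_rewrite 1 [t3]
    exact neg_add_cancel _
  rcases smul_eq_zero.1 h3 with h4 | h4
  · exact h2 h4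
  · exact coe_ne_zero (by omega) A'.1 h4

include hj in
theorem Rep.cent (hn : 3 ≤ n) {κ η : F} (hκ : κ ≠ 0) (hη : η ≠ 0) {γ : AutU} {A₀ : M₀}
    (h : Rep hF j κ η γ A₀) :
    Nonempty (↥(Cfsg.inndiagPSU n F q ⊓ Subgroup.centralizer {γ}) ≃* projQuot (simT A₀)) := by
  obtain ⟨A, x, x', rfl, D⟩ := h
  obtain ⟨e1⟩ := centralizer_equiv_U hF hn A
  let X : GL (Fin n) F := ⟨x, x', D.inv1, D.inv2⟩
  let Φ : GL (Fin n) F₀ →* GL (Fin n) F :=
    (MulAut.conj X).toMonoidHom.comp (Matrix.GeneralLinearGroup.map j)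
  have hΦ : ∀ g : GL (Fin n) F₀, (Φ g : Mn) = x * (g : M₀).map j * x' := fun g => rfl
  have hinj : Function.Injective Φ := by
    intro a b hab
    have h1 : Matrix.GeneralLinearGroup.map j a = Matrix.GeneralLinearGroup.map j b :=
      (MulAut.conj X).injective hab
    apply Units.ext
    apply Matrix.map_injective j.injective
    exact congrArg Units.val h1
  have hsc : ∀ g : GL (Fin n) F₀, g ∈ Geo.scalars (Fin n) F₀ ↔ Φ g ∈ Geo.scalars (Fin n) F := by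
    intro g
    rw [← map_mem_scalars_iff j (by omega : 0 < n) g]
    constructor
    · intro h
      exact Subgroup.Normal.conj_mem inferInstance _ h X
    · intro h
      have := Subgroup.Normal.conj_mem (inferInstance : (Geo.scalars (Fin n) F).Normal) _ h X⁻¹
      have e : X⁻¹ * Φ g * X⁻¹⁻¹ = Matrix.GeneralLinearGroup.map j g := by
        show X⁻¹ * (X * Matrix.GeneralLinearGroup.map j g * X⁻¹) * X⁻¹⁻¹ = _
        group
      rwa [e] at this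
  have hsup : (Cfsg.GU n F q ⊓ simT (A.1 : Mn)) ⊔ Geo.scalars (Fin n) F
      = (simT A₀).map Φ ⊔ Geo.scalars (Fin n) F := by
    apply le_antisymm
    · refine sup_le ?_ le_sup_right
      rintro g ⟨hgU, c, hc⟩
      obtain ⟨l, P₀, c₀, hl, e2, e3, e4⟩ := K2 hj (by omega) hκ hη D D _
        (isU_coe hF ⟨g, hgU⟩) _ hc
      have hc₀ : c₀ ≠ 0 := by
        rintro rfl
        rw [map_zero] at e4
        rcases mul_eq_zero.1 e4 with h | h
        · exact hl h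
        · exact hl ((map_eq_zero _).1 h)
      obtain ⟨z, hz, hzc⟩ := exists_scalar (ι := Fin n) (Units.mk0 l⁻¹ (inv_ne_zero hl))
      have hg : g = Φ (Matrix.GeneralLinearGroup.mkOfDetNeZero P₀
          (det_ne_of_sim _ _ _ c₀ hc₀ D.det_ne e3)) * z := by
        apply Units.ext
        rw [Units.val_mul, hΦ, hzc]
        show (g : Mn) = x * P₀.map j * x' * (l⁻¹ • 1)
        rw [e2, mul_smul_comm, mul_one, mul_smul_comm, smul_mul_assoc, smul_smul, inv_mul_cancel₀ hl,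
          one_smul]
        calc (g : Mn) = (x * x') * (g : Mn) * (x * x') := by rw [D.inv1, one_mul, mul_one]
          _ = _ := by simp only [mul_assoc]
      rw [hg]
      exact Subgroup.mul_mem_sup (Subgroup.mem_map_of_mem _ ⟨Units.mk0 c₀ hc₀, e3⟩) hz
    · refine sup_le ?_ le_sup_right
      rintro _ ⟨g₀, ⟨c₀, hc₀⟩, rfl⟩
      obtain ⟨μ, hμ0, hμ⟩ := exists_norm hj (c₀ : F₀)⁻¹ (inv_ne_zero c₀.ne_zero)
      have hjc : j (c₀ : F₀) ≠ 0 := (map_ne_zero j).2 c₀.ne_zero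
      obtain ⟨hU, e2⟩ := K1 hj D D _ _ hc₀ μ (by rw [hμ, map_inv₀, inv_mul_cancel₀ hjc])
      obtain ⟨z, hz, hzc⟩ := exists_scalar (ι := Fin n) (Units.mk0 μ⁻¹ (inv_ne_zero hμ0))
      have hg : Φ g₀ = (mkU hF _ hU).1 * z := by
        apply Units.ext
        rw [Units.val_mul, hΦ, hzc, mkU_coe, mul_smul_comm, mul_one, Units.val_mk0, smul_smul,
          inv_mul_cancel₀ hμ0, one_smul]
      rw [hg]
      refine Subgroup.mul_mem_sup ⟨(mkU hF _ hU).2, Units.mk0 (μ * μ * j c₀)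
        (mul_ne_zero (mul_ne_zero hμ0 hμ0) hjc), ?_⟩ hz
      rw [mkU_coe]
      exact e2
  obtain ⟨e2⟩ := projQuot_of_sup_eq _ _ hsup
  obtain ⟨e3⟩ := projQuot_congr' (simT A₀) ((simT A₀).map Φ)
    ((simT A₀).equivMapOfInjective Φ hinj) (fun h => hsc h.1)
  exact ⟨(e1.trans e2).trans e3.symm⟩

end Cfsg.Agent.Lib.Helper50URep
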