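import Mathlib
import Cfsg.Prelude
import Cfsg.Agent.Lib.Helper50URep
import Cfsg.Agent.Lib.Helper50GamCl

set_option autoImplicit false
open Cfsg
open scoped MatrixGroups Matrix

/-! The correspondence between involutory graph automorphisms of `PSU_n(q)` and of `PSL_n(q)`.
(helper50) -/

namespace Cfsg.Agent.Lib.Helper50UCor

open Cfsg.Agent.Lib.Helper7GU Cfsg.Agent.Lib.Helper7Herm Cfsg.Agent.Lib.Helper50UAut
  Cfsg.Agent.Lib.Helper50UOut Cfsg.Agent.Lib.Helper50UH90 Cfsg.Agent.Lib.Helper50UTw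
  Cfsg.Agent.Lib.Helper50Form Cfsg.Agent.Lib.Helper50GF Cfsg.Agent.Lib.Helper50AutStr
  Cfsg.Agent.Lib.Helper50Gam Cfsg.Agent.Lib.Helper50Cent Cfsg.Agent.Lib.Helper50UGam
  Cfsg.Agent.Lib.Helper50H90 Cfsg.Agent.Lib.Helper50HermM Cfsg.Agent.Lib.Helper50UDesc
  Cfsg.Agent.Lib.Helper50FormTwo Cfsg.Agent.Lib.Helper50URep Cfsg.Agent.Lib.Helper50GamCl
  Cfsg.Agent.Lib.Helper50FormCl

variable {F : Type*} [Field F] [Fintype F] {q n : ℕ} (hF : Fintype.card F = q ^ 2)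
  {F₀ : Type*} [Field F₀]

local notation "Mn" => Matrix (Fin n) (Fin n) F
local notation "M₀" => Matrix (Fin n) (Fin n) F₀
local notation "AutU" => MulAut (Cfsg.PSU n F q)
local notation "AutP" => MulAut (Matrix.ProjectiveSpecialLinearGroup (Fin n) F₀)

theorem exists_j [Fintype F₀] (hF₀ : Fintype.card F₀ = q) :
    ∃ j : F₀ →+* F, ∀ a, sigE hF a = a ↔ a ∈ Set.range j := by
  obtain ⟨k, hp, hk⟩ := FiniteField.card F₀ (ringChar F₀)
  haveI : Fact (ringChar F₀).Prime := ⟨hp⟩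
  have hF' : Fintype.card F = ringChar F₀ ^ (2 * (k : ℕ)) := by
    rw [hF, ← hF₀, hk, ← pow_mul, mul_comm]
  exact exists_embedding hF' (sigE hF) (orderOf_sigE hF) F₀
    (by rw [hk, Nat.mul_div_cancel_left _ (by norm_num)])

variable (j : F₀ →+* F)

/-- the correspondence -/
def Cor (κ η : F) (γ : AutU) (β : AutP) : Prop :=
  ∃ A₀ : GL (Fin n) F₀, β = gam A₀ ∧
    (((A₀ : M₀)ᵀ = (A₀ : M₀) ∧ Rep hF j 1 1 γ (A₀ : M₀)) ∨
      ((A₀ : M₀)ᵀ = -(A₀ : M₀) ∧ Rep hF j κ η γ (A₀ : M₀)))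

variable {hF j} (hj : ∀ a, sigE hF a = a ↔ a ∈ Set.range j)

include hj in
theorem exists_par' : ∃ κ η : F, Par hF j (-1) κ η ∧ ((2 : F₀) = 0 → κ = 1 ∧ η = 1) := by
  by_cases h2 : (2 : F₀) = 0
  · refine ⟨1, 1, ?_, fun _ => ⟨rfl, rfl⟩⟩
    have : (-1 : F₀) = 1 := by linear_combination -h2
    rw [this]
    exact par_one hF j
  · obtain ⟨κ, η, h⟩ := exists_par hF j hj (-1) (by ring)
    exact ⟨κ, η, h, fun h => absurd h h2⟩

theorem Cor.graphU (hn : 3 ≤ n) {κ η : F} {γ : AutU} {β : AutP} (h : Cor hF j κ η γ β) :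
    Cfsg.IsGraphAutClassPSU γ ∧ orderOf γ = 2 := by
  obtain ⟨A₀, -, ⟨h1, h2⟩ | ⟨h1, h2⟩⟩ := h
  · exact ⟨h2.isGraph hn, h2.order hn (Or.inl h1)⟩
  · exact ⟨h2.isGraph hn, h2.order hn (Or.inr h1)⟩

theorem Cor.graphL (hn : 3 ≤ n) {κ η : F} {γ : AutU} {β : AutP} (h : Cor hF j κ η γ β) :
    Cfsg.IsGraphAutClassPSL β ∧ orderOf β = 2 := by
  obtain ⟨A₀, rfl, h⟩ := h
  refine ⟨(isGraph_iff hn _).2 ⟨_, rfl⟩, (orderOf_gam hn _).2 ?_⟩
  rcases h with ⟨h1, -⟩ | ⟨h1, -⟩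
  · exact Or.inl h1
  · exact Or.inr h1

include hj in
theorem exists_corU (hn : 3 ≤ n) {κ η : F} (hp : Par hF j (-1) κ η) (β : AutP)
    (hβ : Cfsg.IsGraphAutClassPSL β) (h2 : orderOf β = 2) : ∃ γ : AutU, Cor hF j κ η γ β := by
  obtain ⟨A₀, rfl⟩ := (isGraph_iff hn β).1 hβ
  rcases (orderOf_gam hn A₀).1 h2 with h | h
  · obtain ⟨γ, hγ⟩ := exists_rep (n := n) hj (par_one hF j) (A₀ : M₀) (by rw [h, one_smul])
      (det_ne_zero A₀)
    exact ⟨γ, A₀, rfl, Or.inl ⟨h, hγ⟩⟩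
  · obtain ⟨γ, hγ⟩ := exists_rep (n := n) hj hp (A₀ : M₀) (by rw [h, neg_smul, one_smul])
      (det_ne_zero A₀)
    exact ⟨γ, A₀, rfl, Or.inr ⟨h, hγ⟩⟩

include hj in
theorem exists_corL {κ η : F} (hp : Par hF j (-1) κ η) (γ : AutU)
    (hγ : Cfsg.IsGraphAutClassPSU γ) (h2 : orderOf γ = 2) : ∃ β : AutP, Cor hF j κ η γ β := by
  rcases exists_rep_of_graph hj (par_one hF j) hp γ hγ h2 with ⟨A₀, h1, h3⟩ | ⟨A₀, h1, h3⟩
  · exact ⟨_, Matrix.GeneralLinearGroup.mkOfDetNeZero A₀ h3.det_ne, rfl, Or.inl ⟨h1, h3⟩⟩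
  · exact ⟨_, Matrix.GeneralLinearGroup.mkOfDetNeZero A₀ h3.det_ne, rfl, Or.inr ⟨h1, h3⟩⟩

include hj in
theorem Cor.cent (hn : 3 ≤ n) {κ η : F} (hp : Par hF j (-1) κ η) {γ : AutU} {β : AutP}
    (h : Cor hF j κ η γ β) :
    Nonempty (↥(Cfsg.inndiagPSU n F q ⊓ Subgroup.centralizer {γ})
      ≃* ↥(Cfsg.inndiagPSL n F₀ ⊓ Subgroup.centralizer {β})) := by
  obtain ⟨A₀, rfl, h⟩ := h
  obtain ⟨e2⟩ := centralizer_equiv (by omega : 2 ≤ n) A₀
  rcases h with ⟨-, h⟩ | ⟨-, h⟩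
  · obtain ⟨e1⟩ := h.cent hj hn one_ne_zero one_ne_zero
    exact ⟨e1.trans e2.symm⟩
  · obtain ⟨e1⟩ := h.cent hj hn hp.kap0 hp.eta0
    exact ⟨e1.trans e2.symm⟩

include hj in
theorem Cor.conj_iff (hn : 3 ≤ n) {κ η : F} (hp : Par hF j (-1) κ η)
    (hp2 : (2 : F₀) = 0 → κ = 1 ∧ η = 1) {γ γ' : AutU} {β β' : AutP}
    (h : Cor hF j κ η γ β) (h' : Cor hF j κ η γ' β') :
    Cfsg.IsConjUnder (Cfsg.inndiagPSU n F q) γ γ' ↔ Cfsg.IsConjUnder (Cfsg.inndiagPSL n F₀) β β' := by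
  obtain ⟨A₀, rfl, h⟩ := h
  obtain ⟨A₀', rfl, h'⟩ := h'
  rw [isConj_gam_iff (by omega : 2 ≤ n)]
  by_cases h2 : (2 : F₀) = 0
  · obtain ⟨rfl, rfl⟩ := hp2 h2
    have r : Rep hF j 1 1 γ (A₀ : M₀) := by
      rcases h with ⟨-, h⟩ | ⟨-, h⟩ <;> exact h
    have r' : Rep hF j 1 1 γ' (A₀' : M₀) := by
      rcases h' with ⟨-, h⟩ | ⟨-, h⟩ <;> exact h
    exact r.conj_iff hj hn one_ne_zero one_ne_zero r'
  · have h2F : (2 : F) ≠ 0 := by
      intro h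
      apply h2
      apply j.injective
      rw [map_ofNat, h, map_zero]
    rcases h with ⟨s, r⟩ | ⟨s, r⟩ <;> rcases h' with ⟨s', r'⟩ | ⟨s', r'⟩
    · exact r.conj_iff hj hn one_ne_zero one_ne_zero r'
    · constructor
      · intro hc
        exact absurd (Cfsg.Agent.Lib.Helper50Split.isConjUnder_symm _ hc) (r'.not_conj hn h2F r s' s)
      · intro hc
        rw [← isConj_gam_iff (by omega : 2 ≤ n)] at hc
        exact absurd (Cfsg.Agent.Lib.Helper50Split.isConjUnder_symm _ hc)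
          (not_conj_alt (by omega) _ _ (isAltM_of_skew h2 _ s') (not_alt_of_sym h2 (by omega) _ s))
    · constructor
      · intro hc
        exact absurd hc (r.not_conj hn h2F r' s s')
      · intro hc
        rw [← isConj_gam_iff (by omega : 2 ≤ n)] at hc
        exact absurd hc
          (not_conj_alt (by omega) _ _ (isAltM_of_skew h2 _ s) (not_alt_of_sym h2 (by omega) _ s'))
    · exact r.conj_iff hj hn hp.kap0 hp.eta0 r'

theorem rep_one : Rep hF j 1 1 (fU (sigE hF) : AutU) (1 : M₀) := by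
  refine ⟨1, 1, 1, fU_sigE_eq hF, one_mul 1, one_mul 1, ?_, ?_⟩
  · rw [Matrix.transpose_one, one_mul, one_mul, map_oneE, map_oneH, one_smul]
  · rw [mul_one, map_oneE, one_smul]
    rfl

theorem cor_one (κ η : F) :
    Cor hF j κ η (fU (sigE hF) : AutU) (gam (1 : GL (Fin n) F₀)) :=
  ⟨1, rfl, Or.inl ⟨by rw [Units.val_one, Matrix.transpose_one], by
    rw [Units.val_one]; exact rep_one⟩⟩

end Cfsg.Agent.Lib.Helper50UCor
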