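import Cfsg.Agent.Lib.Helper50UFx

set_option autoImplicit false

/-!
The pointwise stabiliser `Fx Y` of a non-degenerate subspace in the special unitary group is
generated by its intersections with the unipotent radicals `Q y`.
-/

namespace Cfsg.Agent.Lib.Helper50UGen

open Module Cfsg.Agent.Lib.Helper95Herm Cfsg.Agent.Lib.Helper95SU Cfsg.Agent.Lib.Helper95CU
  Cfsg.Agent.Lib.Helper50UGeom Cfsg.Agent.Lib.Helper50UGrp Cfsg.Agent.Lib.Helper50UPar
  Cfsg.Agent.Lib.Helper50URoot Cfsg.Agent.Lib.Helper50UStab Cfsg.Agent.Lib.Helper50USim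
  Cfsg.Agent.Lib.Helper50UT Cfsg.Agent.Lib.Helper50UTau Cfsg.Agent.Lib.Helper50UTheta
  Cfsg.Agent.Lib.Helper50UFin Cfsg.Agent.Lib.Helper50UMain Cfsg.Agent.Lib.Helper50UFx

variable {K V : Type*} [Field K] [AddCommGroup V] [Module K V] {σ : K →+* K} {f : V → V → K}

/-- the subgroup of `Fx Y` generated by unipotent radical elements -/
noncomputable def NN (f : V → V → K) (Y : Submodule K V) : Subgroup (SUg f) :=
  Subgroup.closure {x | x ∈ Fx f Y ∧ ∃ y, y ≠ 0 ∧ f y y = 0 ∧ x ∈ Q f y}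

lemma NN_le_Fx (Y : Submodule K V) : NN f Y ≤ Fx f Y := by
  rw [NN, Subgroup.closure_le]
  exact fun x hx => hx.1

lemma mem_NN {Y : Submodule K V} {x : SUg f} {y : V} (hx : x ∈ Q f y ⊓ Fx f Y) (hy : y ≠ 0)
    (hyy : f y y = 0) : x ∈ NN f Y :=
  Subgroup.subset_closure ⟨hx.2, y, hy, hyy, hx.1⟩

lemma NN_ext_le (Y : Submodule K V) (u v : V) : NN f (ext Y u v) ≤ NN f Y := by
  apply Subgroup.closure_mono
  rintro x ⟨hx1, hx2⟩
  exact ⟨Fx_ext_le Y u v hx1, hx2⟩

/-- two vectors are related when `NN Y` maps the point of the first to that of the second -/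
def Rel (f : V → V → K) (Y : Submodule K V) (y y' : V) : Prop :=
  ∃ n ∈ NN f Y, ∃ c : K, c ≠ 0 ∧ n.1 y = c • y'

lemma Rel.symm {Y : Submodule K V} {y y' : V} (hr : Rel f Y y y') : Rel f Y y' y := by
  obtain ⟨n, hn, c, hc, e⟩ := hr
  refine ⟨n⁻¹, (NN f Y).inv_mem hn, c⁻¹, inv_ne_zero hc, ?_⟩
  apply inv_app_eq
  rw [map_smul, e, smul_smul, inv_mul_cancel₀ hc, one_smul]

lemma Rel.trans {Y : Submodule K V} {y y' y'' : V} (hr : Rel f Y y y') (hr' : Rel f Y y' y'') :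
    Rel f Y y y'' := by
  obtain ⟨n, hn, c, hc, e⟩ := hr
  obtain ⟨n', hn', c', hc', e'⟩ := hr'
  refine ⟨n' * n, (NN f Y).mul_mem hn' hn, c * c', mul_ne_zero hc hc', ?_⟩
  rw [mul_app, e, map_smul, e', smul_smul]

lemma Rel.smul {Y : Submodule K V} {y : V} {c : K} (hc : c ≠ 0) : Rel f Y (c • y) y :=
  ⟨1, (NN f Y).one_mem, c, hc, rfl⟩

variable [FiniteDimensional K V] (h : Herm σ f)

include h in
lemma frame_of_ne {y y' : V} (hy : f y y = 0) (hy' : f y' y' = 0) (hne : f y' y ≠ 0) :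
    Frame f y ((f y' y)⁻¹ • y') := by
  refine ⟨hy, ?_, ?_⟩
  · rw [h.smul_left, h.smul_right, hy']; ring
  · rw [h.herm, h.smul_left, inv_mul_cancel₀ hne, map_one]

include h in
lemma relA {Y : Submodule K V} {y y' y'' : V} (hyY : y ∈ h.perp (Y : Set V))
    (hy'Y : y' ∈ h.perp (Y : Set V)) (hy''Y : y'' ∈ h.perp (Y : Set V)) (hy : f y y = 0)
    (hy' : f y' y' = 0) (hy'' : f y'' y'' = 0) (h1 : f y' y ≠ 0) (h2 : f y'' y ≠ 0) :
    Rel f Y y' y'' := by
  have F := frame_of_ne h hy hy' h1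
  obtain ⟨E, hE, hEv⟩ := move_in h (y := (f y'' y)⁻¹ • y'') F hyY (Submodule.smul_mem _ _ hy'Y)
    (Submodule.smul_mem _ _ hy''Y) (by rw [h.smul_left, h.smul_right, hy'']; ring)
    (by rw [h.smul_left, inv_mul_cancel₀ h2])
  refine ⟨E, mem_NN hE (F.u_ne h) hy, f y' y * (f y'' y)⁻¹, mul_ne_zero h1 (inv_ne_zero h2), ?_⟩
  have e1 : y' = f y' y • ((f y' y)⁻¹ • y') := by
    rw [smul_smul, mul_inv_cancel₀ h1, one_smul]
  conv_lhs => rw [e1]
  rw [map_smul, hEv, smul_smul]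

include h in
lemma relB {Y : Submodule K V} {y y' : V} (hyY : y ∈ h.perp (Y : Set V))
    (hy'Y : y' ∈ h.perp (Y : Set V)) (hy : f y y = 0) (hy' : f y' y' = 0) (h1 : f y' y ≠ 0) :
    Rel f Y y y' := by
  have F := frame_of_ne h hy hy' h1
  set z := (f y' y)⁻¹ • y' with hz
  have hzY : z ∈ h.perp (Y : Set V) := Submodule.smul_mem _ _ hy'Y
  obtain ⟨a, ha0, ha⟩ := h.exists_z
  have h3Y : y + a • z ∈ h.perp (Y : Set V) := Submodule.add_mem _ hyY (Submodule.smul_mem _ _ hzY)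
  have h3 : f (y + a • z) (y + a • z) = 0 := by
    simp only [h.add_left, h.add_right, h.smul_left, h.smul_right, F.uu, F.vv, F.uv, F.vu h]
    linear_combination ha
  have h4 : f (y + a • z) y = a := by
    simp only [h.add_left, h.smul_left, F.uu, F.vu h]; ring
  have h5 : f (y + a • z) z = 1 := by
    simp only [h.add_left, h.smul_left, F.vv, F.uv]; ring
  have r1 : Rel f Y (y + a • z) z := relA h hyY h3Y hzY hy h3 F.vv (by rw [h4]; exact ha0)
    (by rw [F.vu h]; exact one_ne_zero)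
  have r2 : Rel f Y (y + a • z) y := relA h hzY h3Y hyY F.vv h3 hy (by rw [h5]; exact one_ne_zero)
    (by rw [F.uv]; exact one_ne_zero)
  exact (r2.symm.trans r1).trans (Rel.smul (inv_ne_zero h1))

include h in
/-- `NN Y` is transitive on the isotropic points of `Y^⊥` -/
lemma relC {Y : Submodule K V} (hY : Good h Y) {y y' : V} (hyY : y ∈ h.perp (Y : Set V))
    (hy'Y : y' ∈ h.perp (Y : Set V)) (hy : f y y = 0) (hy' : f y' y' = 0) (hy0 : y ≠ 0)
    (hy'0 : y' ≠ 0) : Rel f Y y y' := by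
  by_cases h1 : f y' y = 0
  swap
  · exact relB h hyY hy'Y hy hy' h1
  obtain ⟨z0, hz0Y, F0⟩ := exists_frame_in h hY hyY hy0 hy
  by_cases h2 : f z0 y' = 0
  swap
  · exact (relB h hyY hz0Y hy F0.vv (by rw [F0.vu h]; exact one_ne_zero)).trans
      (relB h hz0Y hy'Y F0.vv hy' (h.swap_ne h2))
  have hy'E : y' ∈ h.perp (ext Y y z0 : Set V) :=
    (mem_perp_ext h Y y z0 y').2 ⟨hy'Y, h1, h.swap_zero h2⟩
  obtain ⟨z1, hz1E, F1⟩ := exists_frame_in h (good_ext h hY F0 hyY hz0Y) hy'E hy'0 hy'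
  obtain ⟨hz1Y, hz1y, hz1z0⟩ := (mem_perp_ext h Y y z0 z1).1 hz1E
  have hzY : z0 + z1 ∈ h.perp (Y : Set V) := Submodule.add_mem _ hz0Y hz1Y
  have hzz : f (z0 + z1) (z0 + z1) = 0 := by
    simp only [h.add_left, h.add_right, F0.vv, F1.vv, hz1z0, h.swap_zero hz1z0]; ring
  have hzy : f (z0 + z1) y = 1 := by
    simp only [h.add_left, F0.vu h, hz1y]; ring
  have hzy' : f (z0 + z1) y' = 1 := by
    simp only [h.add_left, F1.vu h, h2]; ring
  exact (relB h hyY hzY hy hzz (by rw [hzy]; exact one_ne_zero)).trans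
    (relB h hzY hy'Y hzz hy' (h.swap_ne (by rw [hzy']; exact one_ne_zero)))

include h in
/-- Weyl-type elements -/
lemma exists_m {Y : Submodule K V} {u v w : V} {c : K} (F : Frame f u v)
    (hu : u ∈ h.perp (Y : Set V)) (hv : v ∈ h.perp (Y : Set V))
    (hw : w ∈ h.perp (ext Y u v : Set V)) (hc0 : c ≠ 0) (hc : c + σ c = - f w w) :
    ∃ m ∈ NN f Y, m.1 v = c • u ∧ m.1 u = (σ c)⁻¹ • v := by
  obtain ⟨hwY, hwu, hwv⟩ := (mem_perp_ext h Y u v w).1 hw
  have hσc := sig_ne h hc0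
  set x := sg h u w c with hx
  have hxm : x ∈ Q f u ⊓ Fx f Y := ⟨sg_mem_Q h F.uu hwu hc, sg_mem_Fx h hu hwY F.uu hwu hc⟩
  have hxv : x.1 v = v + w + c • u := sg_v h F hwu hwv hc
  have F2 := frame_shift h F w c hwu hwv hc
  have hyY : v + w + c • u ∈ h.perp (Y : Set V) :=
    Submodule.add_mem _ (Submodule.add_mem _ hv hwY) (Submodule.smul_mem _ _ hu)
  have hyv : f (v + w + c • u) v = c := by
    simp only [h.add_left, h.smul_left, F.vv, F.uv, hwv]; ring
  obtain ⟨E', hE', hE'u⟩ := move_in h (y := c⁻¹ • (v + w + c • u)) (F.symm h) hv hu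
    (Submodule.smul_mem _ _ hyY) (by rw [h.smul_left, h.smul_right, F2.uu]; ring)
    (by rw [h.smul_left, hyv, inv_mul_cancel₀ hc0])
  have hm1v : (E'⁻¹ * x).1 v = c • u := by
    rw [mul_app, hxv]
    apply inv_app_eq
    rw [map_smul, hE'u, smul_smul, mul_inv_cancel₀ hc0, one_smul]
  have hm1u : (E'⁻¹ * x).1 u = (E'⁻¹).1 u := by rw [mul_app, hxm.1.1]
  set y2 := (E'⁻¹).1 u with hy2
  have hy2Y : y2 ∈ h.perp (Y : Set V) := Fx_perp h ((Fx f Y).inv_mem hE'.2) hu
  have hy2u : f y2 u = (σ c)⁻¹ := by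
    have := G_iso (E'⁻¹ * x) u v
    rw [hm1u, hm1v, h.smul_right, F.uv] at this
    field_simp
    linear_combination this
  obtain ⟨E'', hE'', hE''v⟩ := move_in h (y := σ c • y2) F hu hv (Submodule.smul_mem _ _ hy2Y)
    (by rw [h.smul_left, h.smul_right, hy2, G_iso E'⁻¹, F.uu]; ring)
    (by rw [h.smul_left, hy2u, mul_inv_cancel₀ hσc])
  refine ⟨E''⁻¹ * (E'⁻¹ * x), ?_, ?_, ?_⟩
  · exact (NN f Y).mul_mem ((NN f Y).inv_mem (mem_NN hE'' (F.u_ne h) F.uu))
      ((NN f Y).mul_mem ((NN f Y).inv_mem (mem_NN hE' (F.v_ne h) F.vv)) (mem_NN hxm (F.u_ne h) F.uu))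
  · rw [mul_app, hm1v]
    apply inv_app_eq
    rw [map_smul, hE''.1.1]
  · rw [mul_app, hm1u]
    apply inv_app_eq
    rw [map_smul, hE''v, smul_smul, inv_mul_cancel₀ hσc, one_smul]

include h in
lemma exists_torus_aux {Y : Submodule K V} {u v w0 w1 : V} {c0 c1 : K} (F : Frame f u v)
    (hu : u ∈ h.perp (Y : Set V)) (hv : v ∈ h.perp (Y : Set V))
    (hw0 : w0 ∈ h.perp (ext Y u v : Set V)) (hc00 : c0 ≠ 0) (hc0 : c0 + σ c0 = - f w0 w0)
    (hw1 : w1 ∈ h.perp (ext Y u v : Set V)) (hc10 : c1 ≠ 0) (hc1 : c1 + σ c1 = - f w1 w1) :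
    ∃ t ∈ NN f Y, t.1 u = (c1 / c0) • u ∧ t.1 v = (σ (c1 / c0))⁻¹ • v := by
  obtain ⟨m0, hm0, hm0v, hm0u⟩ := exists_m h F hu hv hw0 hc00 hc0
  obtain ⟨m1, hm1, hm1v, hm1u⟩ := exists_m h F hu hv hw1 hc10 hc1
  have hσ0 := sig_ne h hc00
  have hσ1 := sig_ne h hc10
  refine ⟨m1 * m0⁻¹, (NN f Y).mul_mem hm1 ((NN f Y).inv_mem hm0), ?_, ?_⟩
  · have e1 : (m0⁻¹).1 u = c0⁻¹ • v := by
      apply inv_app_eq
      rw [map_smul, hm0v, smul_smul, inv_mul_cancel₀ hc00, one_smul]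
    rw [mul_app, e1, map_smul, hm1v, smul_smul]
    congr 1
    field_simp
  · have e1 : (m0⁻¹).1 v = σ c0 • u := by
      apply inv_app_eq
      rw [map_smul, hm0u, smul_smul, mul_inv_cancel₀ hσ0, one_smul]
    rw [mul_app, e1, map_smul, hm1u, smul_smul, map_div₀]
    congr 1
    field_simp

include h in
/-- torus elements -/
lemma exists_torus [Finite K] {Y : Submodule K V} (hY : Good h Y) {u v : V} {c : K}
    (F : Frame f u v) (hu : u ∈ h.perp (Y : Set V)) (hv : v ∈ h.perp (Y : Set V)) (hc0 : c ≠ 0)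
    (hcase : h.perp (ext Y u v : Set V) ≠ ⊥ ∨ σ c = c) :
    ∃ t ∈ NN f Y, t.1 u = c • u ∧ t.1 v = (σ c)⁻¹ • v := by
  rcases hcase with hne | hσ
  · have hG := good_ext h hY F hu hv
    obtain ⟨w1, hw1, e1⟩ := exists_norm_in h hG hne (-(c + σ c)) (by
      rw [map_neg, map_add, h.invol]; ring)
    obtain ⟨w0, hw0, e0⟩ := exists_norm_in h hG hne (-(1 + σ 1)) (by
      rw [map_neg, map_add, h.invol]; ring)
    obtain ⟨t, ht, h1, h2⟩ := exists_torus_aux h (c0 := 1) (c1 := c) F hu hv hw0 one_ne_zero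
      (by rw [e0]; ring) hw1 hc0 (by rw [e1]; ring)
    rw [div_one] at h1 h2
    exact ⟨t, ht, h1, h2⟩
  · obtain ⟨a, ha0, ha⟩ := h.exists_z
    obtain ⟨t, ht, h1, h2⟩ := exists_torus_aux h (c0 := a) (c1 := c * a) (w0 := 0) (w1 := 0) F hu hv
      (Submodule.zero_mem _) ha0 (by rw [h.zero_left]; linear_combination ha)
      (Submodule.zero_mem _) (mul_ne_zero hc0 ha0) (by
        rw [h.zero_left, map_mul, hσ]; linear_combination c * ha)
    have e : c * a / a = c := by field_simp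
    rw [e] at h1 h2
    exact ⟨t, ht, h1, h2⟩

include h in
/-- reduction of an element of `Fx Y` to a Levi element -/
lemma exists_levi {Y : Submodule K V} (hY : Good h Y) {u v : V} (F : Frame f u v)
    (hu : u ∈ h.perp (Y : Set V)) (hv : v ∈ h.perp (Y : Set V)) (g : SUg f) (hg : g ∈ Fx f Y) :
    ∃ n ∈ NN f Y, ∃ c : K, c ≠ 0 ∧ (n * g).1 u = c • u ∧ (n * g).1 v = (σ c)⁻¹ • v := by
  have hgu0 : g.1 u ≠ 0 := by
    intro h0
    have := inv_app_app g u
    rw [h0, map_zero] at this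
    exact F.u_ne h this.symm
  obtain ⟨n, hn, c, hc0, e⟩ := relC h hY (Fx_perp h hg hu) hu (by rw [G_iso g, F.uu]) F.uu hgu0
    (F.u_ne h)
  have hσc := sig_ne h hc0
  have hg1 : n * g ∈ Fx f Y := (Fx f Y).mul_mem (NN_le_Fx Y hn) hg
  have hg1u : (n * g).1 u = c • u := by rw [mul_app, e]
  have h1 : f ((n * g).1 v) u = (σ c)⁻¹ := by
    have := G_iso (n * g) v u
    rw [hg1u, h.smul_right, F.vu h] at this
    field_simp
    linear_combination this
  obtain ⟨E, hE, hEv⟩ := move_in h (y := σ c • (n * g).1 v) F hu hv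
    (Submodule.smul_mem _ _ (Fx_perp h hg1 hv)) (by
      rw [h.smul_left, h.smul_right, G_iso (n * g), F.vv]; ring) (by
      rw [h.smul_left, h1, mul_inv_cancel₀ hσc])
  refine ⟨E⁻¹ * n, (NN f Y).mul_mem ((NN f Y).inv_mem (mem_NN hE (F.u_ne h) F.uu)) hn, c, hc0,
    ?_, ?_⟩
  · rw [mul_assoc, mul_app, hg1u]
    apply inv_app_eq
    rw [map_smul, hE.1.1]
  · rw [mul_assoc, mul_app]
    apply inv_app_eq
    rw [map_smul, hEv, smul_smul, inv_mul_cancel₀ hσc, one_smul]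

include h in
lemma sigma_fix_of_bot {Y : Submodule K V} (hY : Good h Y) {u v : V} (F : Frame f u v)
    (hu : u ∈ h.perp (Y : Set V)) (hv : v ∈ h.perp (Y : Set V))
    (hbot : h.perp (ext Y u v : Set V) = ⊥) {l : SUg f} (hl : l ∈ Fx f Y) {c : K} (hc0 : c ≠ 0)
    (hlu : l.1 u = c • u) (hlv : l.1 v = (σ c)⁻¹ • v) : σ c = c := by
  have hσc := sig_ne h hc0
  have e : (l.1 : V →ₗ[K] V) = dd h u v c := by
    ext x
    obtain ⟨y', hy', b, hb, rfl⟩ := good_ext h hY F hu hv x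
    rw [hbot, Submodule.mem_bot] at hb
    subst hb
    obtain ⟨y, hy, a, b, rfl⟩ := (mem_ext Y u v y').1 hy'
    have e1 : dd h u v c y = y := dd_perp h F c (h.swap_zero (hu y hy)) (h.swap_zero (hv y hy))
    simp only [map_add, map_smul, map_zero, LinearEquiv.coe_coe, hl y hy, hlu, hlv, e1, dd_u h F,
      dd_v h F]
  have h1 := G_det l
  rw [e, dd_det h F] at h1
  field_simp at h1
  exact h1.symm

include h in
/-- `Fx Y` is trivial when `Y^⊥` is anisotropic -/
lemma eq_one_of_aniso [Finite K] {Y : Submodule K V} (hY : Good h Y)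
    (han : ∀ u ∈ h.perp (Y : Set V), f u u = 0 → u = 0) (g : SUg f) (hg : g ∈ Fx f Y) : g = 1 := by
  by_cases hM : h.perp (Y : Set V) = ⊥
  · apply eq_one_of_perp_fix h hY hg
    intro x hx
    rw [hM, Submodule.mem_bot] at hx
    rw [hx, map_zero]
  obtain ⟨d, hdM, hd0⟩ := Submodule.exists_mem_ne_zero_of_ne_bot hM
  have hdd : f d d ≠ 0 := fun h0 => hd0 (han d hdM h0)
  have hline : ∀ x ∈ h.perp (Y : Set V), x = (f x d / f d d) • d := by
    intro x hx
    set x' := x - (f x d / f d d) • d with hx'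
    have hx'M : x' ∈ h.perp (Y : Set V) := Submodule.sub_mem _ hx (Submodule.smul_mem _ _ hdM)
    have h1 : f x' d = 0 := by
      rw [hx', h.sub_left, h.smul_left]; field_simp; ring
    by_cases h2 : x' = 0
    · exact sub_eq_zero.1 h2
    · exfalso
      have h3 : f x' x' ≠ 0 := fun h0 => h2 (han x' hx'M h0)
      obtain ⟨c, hc⟩ := h.norm_surj (- f d d / f x' x') (by
        rw [map_div₀, map_neg, h.self_fix, h.self_fix])
      have h4 : f (d + c • x') (d + c • x') = 0 := by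
        simp only [h.add_left, h.add_right, h.smul_left, h.smul_right, h1, h.swap_zero h1]
        have : c * (σ c * f x' x') = - f d d := by
          rw [← mul_assoc, hc]; field_simp
        rw [this]; ring
      have h5 := han _ (Submodule.add_mem _ hdM (Submodule.smul_mem _ _ hx'M)) h4
      have h6 : f (d + c • x') d = f d d := by
        rw [h.add_left, h.smul_left, h1]; ring
      rw [h5, h.zero_left] at h6
      exact hdd h6.symm
  set ξ := f (g.1 d) d / f d d with hξ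
  have hgd : g.1 d = ξ • d := hline _ (Fx_perp h hg hdM)
  have hξ0 : ξ ≠ 0 := by
    intro h0
    rw [h0, zero_smul] at hgd
    have := inv_app_app g d
    rw [hgd, map_zero] at this
    exact hd0 this.symm
  have e : (g.1 : V →ₗ[K] V) = ((qr h d ξ hdd hξ0 : V ≃ₗ[K] V) : V →ₗ[K] V) := by
    ext x
    obtain ⟨y, hy, b, hb, rfl⟩ := hY x
    rw [hline b hb]
    simp only [map_add, map_smul, LinearEquiv.coe_coe, hg y hy, hgd, qr_self,
      qr_fix h d ξ hdd hξ0 y (h.swap_zero (hdM y hy))]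
  have h1 := G_det g
  rw [e, qr_det] at h1
  apply eq_one_of_perp_fix h hY hg
  intro x hx
  rw [hline x hx, map_smul, hgd, h1, one_smul]

include h in
/-- `Fx Y` is generated by unipotent radical elements -/
theorem gen2_aux [Finite K] : ∀ (d : ℕ) (Y : Submodule K V), Good h Y →
    finrank K (h.perp (Y : Set V)) = d → Fx f Y ≤ NN f Y := by
  intro d
  induction d using Nat.strong_induction_on with
  | _ d ih =>
    intro Y hY hd g hg
    by_cases hiso : ∃ u ∈ h.perp (Y : Set V), u ≠ 0 ∧ f u u = 0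
    · obtain ⟨u, hu, hu0, huu⟩ := hiso
      obtain ⟨v, hv, F⟩ := exists_frame_in h hY hu hu0 huu
      obtain ⟨n, hn, c, hc0, hlu, hlv⟩ := exists_levi h hY F hu hv g hg
      have hl : n * g ∈ Fx f Y := (Fx f Y).mul_mem (NN_le_Fx Y hn) hg
      have hσc := sig_ne h hc0
      obtain ⟨t, ht, htu, htv⟩ := exists_torus h hY F hu hv hc0 (by
        by_cases hb : h.perp (ext Y u v : Set V) = ⊥
        · exact Or.inr (sigma_fix_of_bot h hY F hu hv hb hl hc0 hlu hlv)
        · exact Or.inl hb)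
      have h1 : t⁻¹ * (n * g) ∈ Fx f (ext Y u v) := by
        rw [mem_Fx_ext]
        refine ⟨(Fx f Y).mul_mem ((Fx f Y).inv_mem (NN_le_Fx Y ht)) hl, ?_, ?_⟩
        · rw [mul_app, hlu]
          exact inv_app_eq htu
        · rw [mul_app, hlv]
          exact inv_app_eq htv
      have h2 := NN_ext_le Y u v (ih _ (by rw [← hd]; exact finrank_perp_ext_lt h Y F hu)
        (ext Y u v) (good_ext h hY F hu hv) rfl h1)
      have e : g = n⁻¹ * (t * (t⁻¹ * (n * g))) := by group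
      rw [e]
      exact (NN f Y).mul_mem ((NN f Y).inv_mem hn) ((NN f Y).mul_mem ht h2)
    · push Not at hiso
      rw [eq_one_of_aniso h hY (fun u hu huu => by
        by_contra h0
        exact hiso u hu h0 huu) g hg]
      exact (NN f Y).one_mem

include h in
theorem Fx_le_NN [Finite K] {Y : Submodule K V} (hY : Good h Y) : Fx f Y ≤ NN f Y :=
  gen2_aux h _ Y hY rfl

include h in
/-- transitivity on isotropic vectors -/
theorem trans_vec [Finite K] {Y : Submodule K V} (hY : Good h Y) {u v y : V} (F : Frame f u v)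
    (hu : u ∈ h.perp (Y : Set V)) (hv : v ∈ h.perp (Y : Set V))
    (hne : h.perp (ext Y u v : Set V) ≠ ⊥) (hyY : y ∈ h.perp (Y : Set V)) (hy0 : y ≠ 0)
    (hyy : f y y = 0) : ∃ g ∈ NN f Y, g.1 u = y := by
  obtain ⟨n, hn, c, hc0, e⟩ := relC h hY hu hyY F.uu hyy (F.u_ne h) hy0
  obtain ⟨t, ht, htu, -⟩ := exists_torus h hY F hu hv (inv_ne_zero hc0) (Or.inl hne)
  refine ⟨n * t, (NN f Y).mul_mem hn ht, ?_⟩
  rw [mul_app, htu, map_smul, e, smul_smul, inv_mul_cancel₀ hc0, one_smul]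

end Cfsg.Agent.Lib.Helper50UGen
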