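import Mathlib
import Cfsg.Prelude
import Cfsg.Agent.Lib.Helper50UCor
import Cfsg.Agent.Lib.Helper50GamSplit

set_option autoImplicit false
open Cfsg
open scoped MatrixGroups Matrix

/-! Splitting of the classes of involutory graph automorphisms of `PSU_n(q)`. (helper50) -/

namespace Cfsg.Agent.Lib.Helper50USplit

open Cfsg.Agent.Lib.Helper7GU Cfsg.Agent.Lib.Helper7Herm Cfsg.Agent.Lib.Helper50UAut
  Cfsg.Agent.Lib.Helper50UOut Cfsg.Agent.Lib.Helper50UH90 Cfsg.Agent.Lib.Helper50UTw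
  Cfsg.Agent.Lib.Helper50Form Cfsg.Agent.Lib.Helper50GF Cfsg.Agent.Lib.Helper50AutStr
  Cfsg.Agent.Lib.Helper50Gam Cfsg.Agent.Lib.Helper50Cent Cfsg.Agent.Lib.Helper50UGam
  Cfsg.Agent.Lib.Helper50H90 Cfsg.Agent.Lib.Helper50HermM Cfsg.Agent.Lib.Helper50UDesc
  Cfsg.Agent.Lib.Helper50FormTwo Cfsg.Agent.Lib.Helper50URep Cfsg.Agent.Lib.Helper50GamCl
  Cfsg.Agent.Lib.Helper50FormCl Cfsg.Agent.Lib.Helper50UCor Cfsg.Agent.Lib.Helper50GamSplit
  Cfsg.Agent.Lib.Helper50GamEven Cfsg.Agent.Lib.Helper50FormDet Cfsg.Agent.Lib.Helper50FormStd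

variable {F : Type*} [Field F] [Fintype F] {q n m : ℕ} {hF : Fintype.card F = q ^ 2}
  {F₀ : Type*} [Field F₀] {j : F₀ →+* F}

local notation "Mn" => Matrix (Fin n) (Fin n) F
local notation "M₀" => Matrix (Fin n) (Fin n) F₀
local notation "AutU" => MulAut (Cfsg.PSU n F q)

variable (hF) in
/-- an element of the norm one group -/
noncomputable def toCC (w : F) (h : w * sigE hF w = 1) : CC F q :=
  ⟨Units.mk0 w (left_ne_zero_of_mul_eq_one h), by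
    rw [mem_CC, Units.val_mk0, pow_succ', ← sigE_apply hF, h]⟩

theorem toCC_coe (w : F) (h : w * sigE hF w = 1) : ((toCC hF w h).1 : F) = w := rfl

theorem CC_norm (c : CC F q) : (c.1 : F) * sigE hF (c.1 : F) = 1 := by
  rw [sigE_apply, ← pow_succ']
  exact (mem_CC c.1).1 c.2

theorem DU_val (hn : 1 ≤ n) (g : Cfsg.GU n F q) : ((DU hF hn g).1 : F) = (g.1 : Mn).det := rfl

theorem CC_ext {a b : CC F q} (h : (a.1 : F) = (b.1 : F)) : a = b := Subtype.ext (Units.ext h)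

variable (hj : ∀ a, sigE hF a = a ↔ a ∈ Set.range j)

include hj in
theorem sig_j (c : F₀) : sigE hF (j c) = j c := (hj _).2 ⟨_, rfl⟩

include hj in
theorem det_of_cent (hn : 3 ≤ n) {κ η : F} (hκ : κ ≠ 0) (hη : η ≠ 0) {A : Cfsg.GU n F q} {x x' : Mn}
    {A₀ : M₀} (D : Desc hF j κ η (A.1 : Mn) x x' A₀) (g : Cfsg.GU n F q)
    (hg : cU g ∈ Subgroup.centralizer {gamU hF A}) :
    ∃ (g₀ : M₀) (c₀ : F₀) (μ : F), c₀ ≠ 0 ∧ g₀ᵀ * A₀ * g₀ = c₀ • A₀ ∧ μ * sigE hF μ * j c₀ = 1 ∧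
      (g.1 : Mn).det = μ ^ n * j g₀.det := by
  obtain ⟨c, hc⟩ := (mem_centralizer_gamU hF hn A g).1 hg
  obtain ⟨l, P₀, c₀, hl, e2, e3, e4⟩ := K2 hj (by omega) hκ hη D D _ (isU_coe hF g) _ hc
  have hσl : sigE hF l ≠ 0 := (map_ne_zero _).2 hl
  have hc₀ : c₀ ≠ 0 := by
    rintro rfl
    rw [map_zero] at e4
    exact mul_ne_zero hl hσl e4
  refine ⟨P₀, c₀, l⁻¹, hc₀, e3, ?_, ?_⟩
  · rw [map_inv₀, ← e4]
    field_simp
  · have h1 := congrArg Matrix.det e2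
    have h2 := congrArg Matrix.det D.inv2
    rw [Matrix.det_mul, Matrix.det_one] at h2
    rw [det_mapJ, Matrix.det_smul, Fintype.card_fin, Matrix.det_mul, Matrix.det_mul] at h1
    rw [h1, inv_pow]
    have hln : l ^ n ≠ 0 := pow_ne_zero _ hl
    field_simp
    linear_combination (-(g.1 : Mn).det) * h2

include hj in
theorem exists_cent (hn : 3 ≤ n) {κ η : F} {A : Cfsg.GU n F q} {x x' : Mn}
    {A₀ : M₀} (D : Desc hF j κ η (A.1 : Mn) x x' A₀) (g₀ : M₀) (c₀ : F₀) (μ : F)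
    (h : g₀ᵀ * A₀ * g₀ = c₀ • A₀) (hμ : μ * sigE hF μ * j c₀ = 1) :
    ∃ g : Cfsg.GU n F q, cU g ∈ Subgroup.centralizer {gamU hF A} ∧
      (g.1 : Mn).det = μ ^ n * j g₀.det := by
  obtain ⟨hU, e2⟩ := K1 hj D D _ _ h μ hμ
  have hμ0 : μ ≠ 0 := left_ne_zero_of_mul_eq_one (by rw [← mul_assoc]; exact hμ)
  have hjc : j c₀ ≠ 0 := right_ne_zero_of_mul_eq_one hμ
  refine ⟨mkU hF _ hU, ?_, ?_⟩
  · rw [mem_centralizer_gamU hF hn]
    exact ⟨Units.mk0 (μ * μ * j c₀) (mul_ne_zero (mul_ne_zero hμ0 hμ0) hjc), e2⟩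
  · have h2 := congrArg Matrix.det D.inv1
    rw [Matrix.det_mul, Matrix.det_one] at h2
    rw [mkU_coe, Matrix.det_smul, Fintype.card_fin, Matrix.det_mul, Matrix.det_mul, det_mapJ]
    linear_combination (μ ^ n * j g₀.det) * h2

include hj in
theorem split_trivial_U (hn : 3 ≤ n) {κ η : F} (hκ : κ ≠ 0) (hη : η ≠ 0) {γ : AutU} {A₀ : M₀}
    (h : Rep hF j κ η γ A₀)
    (hd : ∀ (g₀ : M₀) (c₀ : F₀), c₀ ≠ 0 → g₀ᵀ * A₀ * g₀ = c₀ • A₀ →
      ∃ d : F₀, d * d = c₀ ∧ d ^ n = g₀.det) :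
    Cfsg.splitClassCount (Cfsg.inndiagPSU n F q) (Cfsg.Inn (Cfsg.PSU n F q)) γ = Nat.gcd n (q + 1) := by
  obtain ⟨A, x, x', rfl, D⟩ := h
  rw [split_count_U hF hn (gamU hF A) ⊥, Subgroup.index_bot, card_CC hF]
  · intro g hg
    apply Subgroup.mem_sup_left
    obtain ⟨g₀, c₀, μ, hc₀, e1, e2, e3⟩ := det_of_cent hj hn hκ hη D g hg
    obtain ⟨d, hd1, hd2⟩ := hd g₀ c₀ hc₀ e1
    refine ⟨toCC hF (μ * j d) ?_, ?_⟩
    · rw [map_mul, sig_j hj, ← e2, ← hd1, map_mul]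
      ring
    · rw [powMonoidHom_apply]
      apply CC_ext
      rw [DU_val, e3, ← hd2, map_pow, ← mul_pow]
      rfl
  · intro a ha
    rw [Subgroup.mem_bot] at ha
    subst ha
    exact ⟨1, by rw [map_one]; exact Subgroup.one_mem _, map_one _⟩

theorem hd_odd {k : ℕ} (hnk : n = 2 * k + 1) (A₀ : M₀) (hA₀ : A₀.det ≠ 0) (g₀ : M₀) (c₀ : F₀)
    (hc₀ : c₀ ≠ 0) (h : g₀ᵀ * A₀ * g₀ = c₀ • A₀) : ∃ d : F₀, d * d = c₀ ∧ d ^ n = g₀.det := by
  have h1 := det_sq A₀ hA₀ g₀ c₀ h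
  rw [Fintype.card_fin] at h1
  generalize g₀.det = y at h1
  have hck : c₀ ^ k ≠ 0 := pow_ne_zero _ hc₀
  refine ⟨y / c₀ ^ k, ?_, ?_⟩
  · rw [div_mul_div_comm, h1, hnk, div_eq_iff (mul_ne_zero hck hck)]
    ring
  · rw [div_pow, div_eq_iff (pow_ne_zero _ hck)]
    have h2 : y ^ n = y * (y * y) ^ k := by
      rw [hnk]; ring
    rw [h2, h1, ← pow_mul, ← pow_mul, mul_comm n k]

theorem hd_two [CharP F₀ 2] (hsq : ∀ a : F₀, ∃ b, b * b = a) (A₀ : M₀) (hA₀ : A₀.det ≠ 0) (g₀ : M₀)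
    (c₀ : F₀) (h : g₀ᵀ * A₀ * g₀ = c₀ • A₀) : ∃ d : F₀, d * d = c₀ ∧ d ^ n = g₀.det := by
  have h1 := det_sq A₀ hA₀ g₀ c₀ h
  rw [Fintype.card_fin] at h1
  obtain ⟨d, hd⟩ := hsq c₀
  refine ⟨d, hd, ?_⟩
  apply sq_inj
  rw [h1, ← hd, mul_pow]

include hj in
/-- Hilbert 90 in the form needed here -/
theorem exists_mu (w : CC F q) : ∃ (μ : F) (c₀ : F₀), c₀ ≠ 0 ∧ μ * sigE hF μ * j c₀ = 1 ∧
    μ * μ * j c₀ = (w.1 : F) := by
  obtain ⟨μ, hμ0, hμ⟩ := hilbert90_scalar (sigE hF) 2 (orderOf_sigE hF) two_pos (w.1 : F)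
    (by rw [Nk_two, CC_norm])
  have hσμ : sigE hF μ ≠ 0 := (map_ne_zero _).2 hμ0
  have hfix : sigE hF (μ * sigE hF μ)⁻¹ = (μ * sigE hF μ)⁻¹ := by
    rw [map_inv₀, map_mul, sigE_sigE, mul_comm]
  obtain ⟨c₀, hc₀⟩ := (hj _).1 hfix
  refine ⟨μ, c₀, ?_, ?_, ?_⟩
  · rintro rfl
    rw [map_zero] at hc₀
    exact inv_ne_zero (mul_ne_zero hμ0 hσμ) hc₀.symm
  · rw [hc₀, mul_inv_cancel₀ (mul_ne_zero hμ0 hσμ)]
  · rw [hc₀]
    field_simp
    rw [mul_comm]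
    exact hμ.symm

include hj in
theorem norm_mmc (μ : F) (c₀ : F₀) (h : μ * sigE hF μ * j c₀ = 1) :
    (μ * μ * j c₀) * sigE hF (μ * μ * j c₀) = 1 := by
  rw [map_mul, map_mul, sig_j hj]
  linear_combination (μ * sigE hF μ * j c₀ + 1) * h

include hj in
theorem split_G1_U [Fintype F₀] (hm : 2 ≤ m) (hq3 : 3 ≤ Fintype.card F₀) (hnm : n = 2 * m)
    {κ η : F} (hκ : κ ≠ 0) (hη : η ≠ 0) {γ : AutU}
    (h : Rep hF j κ η γ ((G1 hnm : GL (Fin n) F₀) : M₀)) :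
    Cfsg.splitClassCount (Cfsg.inndiagPSU n F q) (Cfsg.Inn (Cfsg.PSU n F q)) γ = Nat.gcd m (q + 1) := by
  have hn : 3 ≤ n := by omega
  obtain ⟨A, x, x', rfl, D⟩ := h
  rw [split_count_U hF hn (gamU hF A) (powMonoidHom m : CC F q →* CC F q).range,
    IsCyclic.index_powMonoidHom_range, card_CC hF]
  · rw [Nat.gcd_comm (q + 1) m, ← Nat.gcd_assoc, hnm, Nat.gcd_eq_right (Dvd.intro_left 2 rfl)]
  · intro g hg
    apply Subgroup.mem_sup_right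
    obtain ⟨g₀, c₀, μ, hc₀, e1, e2, e3⟩ := det_of_cent hj hn hκ hη D g hg
    obtain ⟨g', hg'⟩ := (reGL (F := F₀) (eP hnm)).surjective
      (Matrix.GeneralLinearGroup.mkOfDetNeZero g₀ (det_ne_of_sim _ _ _ c₀ hc₀ D.det_ne e1))
    have hg'c : (reGL (eP hnm) g' : M₀) = g₀ := by rw [hg']; rfl
    have h1 := (sim_reGL (eP hnm) (Matrix.J (Fin m) F₀) g' c₀).2 (by rw [hg'c]; exact e1)
    have h2 := det_simT_J m hm hq3 g' (Units.mk0 c₀ hc₀) h1
    rw [← det_reGL (eP hnm), hg'c, Units.val_mk0] at h2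
    refine ⟨toCC hF (μ * μ * j c₀) (norm_mmc hj μ c₀ e2), ?_⟩
    rw [powMonoidHom_apply]
    apply CC_ext
    rw [DU_val, e3, h2, map_pow]
    show (μ * μ * j c₀) ^ m = _
    generalize j c₀ = y
    rw [hnm]
    ring
  · rintro _ ⟨w, rfl⟩
    obtain ⟨μ, c₀, hc₀, e1, e2⟩ := exists_mu hj w
    obtain ⟨g, hg, hdet⟩ := exists_cent hj hn D (reGL (eP hnm) (dC m (Units.mk0 c₀ hc₀)) : M₀) c₀ μ
      ((sim_reGL (eP hnm) (Matrix.J (Fin m) F₀) (dC m (Units.mk0 c₀ hc₀)) c₀).1 (dC_sim m _)) e1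
    refine ⟨g, hg, ?_⟩
    rw [powMonoidHom_apply]
    apply CC_ext
    rw [DU_val, hdet, det_reGL, det_dC, Units.val_mk0, map_pow]
    show _ = (w.1 : F) ^ m
    rw [← e2]
    generalize j c₀ = y
    rw [hnm]
    ring

include hj in
theorem split_sym_U [Finite F₀] (h2 : (2 : F₀) ≠ 0) (hodd : Odd q) (hm : 2 ≤ m) (hnm : n = 2 * m)
    {κ η : F} (hκ : κ ≠ 0) (hη : η ≠ 0) {γ : AutU} {A₀ : M₀} (hs : A₀ᵀ = A₀)
    (h : Rep hF j κ η γ A₀) :
    Cfsg.splitClassCount (Cfsg.inndiagPSU n F q) (Cfsg.Inn (Cfsg.PSU n F q)) γ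
      = Nat.gcd n (q + 1) / 2 := by
  have hn : 3 ≤ n := by omega
  have hn1 : 1 ≤ n := by omega
  obtain ⟨A, x, x', rfl, D⟩ := h
  have hA0 : A₀ ≠ 0 := by
    rintro rfl
    apply D.det_ne
    haveI : Nonempty (Fin n) := ⟨⟨0, by omega⟩⟩
    exact Matrix.det_zero
  set E : Subgroup (CC F q) := ((Subgroup.centralizer {gamU hF A}).comap cU).map (DU hF hn1) with hE
  rw [split_count_U hF hn (gamU hF A) E]
  · have hN : Even (Nat.card (CC F q)) := by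
      rw [card_CC hF]
      exact hodd.add_one
    have hneg : (-1 : F) * sigE hF (-1) = 1 := by rw [map_neg, map_one]; ring
    have key := index_of_sq (C := CC F q) n m hnm (by omega) hN E (toCC hF (-1) hneg) ?_ ?_ ?_ ?_ ?_
    · rw [card_CC hF] at key
      rw [Nat.gcd_comm n (q + 1), key, Nat.mul_div_cancel_left _ (by norm_num)]
      apply Nat.gcd_eq_right
      have : E.index ∣ (q + 1).gcd n := by
        rw [key]
        exact Dvd.intro_left 2 rfl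
      exact this.trans (Nat.gcd_dvd_right _ _)
    · intro y hy
      have h1 : (y.1 : F) * (y.1 : F) = 1 := congrArg (fun t : CC F q => (t.1 : F)) hy
      rcases mul_self_eq_one_iff.1 h1 with h | h
      · left; exact CC_ext h
      · right; exact CC_ext h
    · rintro _ ⟨y, rfl⟩
      refine ⟨scU y, ?_, DU_scU hF hn1 y⟩
      show cU (scU y) ∈ Subgroup.centralizer _
      rw [cU_scU]
      exact Subgroup.one_mem _
    · rintro _ ⟨g, hg, rfl⟩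
      obtain ⟨g₀, c₀, μ, hc₀, e1, e2, e3⟩ := det_of_cent hj hn hκ hη D g hg
      have h1 := det_sq A₀ D.det_ne g₀ c₀ e1
      rw [Fintype.card_fin] at h1
      refine ⟨toCC hF (μ * μ * j c₀) (norm_mmc hj μ c₀ e2), ?_⟩
      rw [powMonoidHom_apply]
      apply CC_ext
      show (μ * μ * j c₀) ^ n = (g.1 : Mn).det * (g.1 : Mn).det
      rw [e3, mul_mul_mul_comm, ← map_mul, h1, map_pow, mul_pow, mul_pow]
    · obtain ⟨r, hr, hrd⟩ := exists_refl h2 A₀ hs hA0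
      obtain ⟨g, hg, hdet⟩ := exists_cent hj hn D (r : M₀) 1 1
        (by rw [one_smul]; exact hr) (by simp)
      refine ⟨g, hg, ?_⟩
      apply CC_ext
      rw [DU_val, hdet, hrd, toCC_coe]
      simp
    · intro c
      obtain ⟨μ, c₀, hc₀, e1, e2⟩ := exists_mu hj c
      obtain ⟨g₀, hg₀⟩ := exists_mult h2 hnm A₀ hs D.det_ne c₀ hc₀
      obtain ⟨g, hg, hdet⟩ := exists_cent hj hn D (g₀ : M₀) c₀ μ hg₀ e1
      have h1 := det_sq A₀ D.det_ne _ c₀ hg₀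
      rw [Fintype.card_fin] at h1
      have h3 : (g₀ : M₀).det * (g₀ : M₀).det = c₀ ^ m * c₀ ^ m := by
        rw [h1, hnm, two_mul, pow_add]
      have h4 : μ ^ n * j c₀ ^ m = (c.1 : F) ^ m := by
        rw [← e2]
        generalize j c₀ = y
        rw [hnm]
        ring
      rcases mul_self_eq_mul_self_iff.1 h3 with h | h
      · left
        refine ⟨g, hg, ?_⟩
        apply CC_ext
        rw [DU_val, hdet, h, map_pow, h4]
        rfl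
      · right
        refine ⟨g, hg, ?_⟩
        apply CC_ext
        rw [DU_val, hdet, h, map_neg, map_pow, mul_neg, h4]
        show _ = (-1 : F) * (c.1 : F) ^ m
        ring
  · intro g hg
    exact Subgroup.mem_sup_right ⟨g, hg, rfl⟩
  · rintro _ ⟨g, hg, rfl⟩
    exact ⟨g, hg, rfl⟩

end Cfsg.Agent.Lib.Helper50USplit
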