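import Mathlib

/-!
# Abstract group theory for outer automorphism groups
-/

set_option autoImplicit false

namespace Cfsg.Agent.Lib.Helper51OutA

/-- A subgroup generated by an element of order `N` is `ZMod N`. -/
theorem zpowers_equiv {G : Type*} [Group G] (x : G) {N : ℕ} (hx : orderOf x = N) :
    Nonempty (↥(Subgroup.zpowers x) ≃* Multiplicative (ZMod N)) := by
  have h1 : IsCyclic ↥(Subgroup.zpowers x) := inferInstance
  have h2 : Nat.card ↥(Subgroup.zpowers x) = N := by rw [Nat.card_zpowers, hx]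
  have e := zmodCyclicMulEquiv h1
  rw [h2] at e
  exact ⟨e.symm⟩

/-- Two commuting generators of orders `2` and `N`. -/
theorem mulEquiv_of_two_gens {G : Type*} [Group G] [Finite G] {N : ℕ} (a x : G)
    (hax : Commute a x) (ha : orderOf a = 2) (hx : orderOf x = N)
    (hnot : a ∉ Subgroup.zpowers x) (hcard : Nat.card G = 2 * N) :
    Nonempty (G ≃* Multiplicative (ZMod 2 × ZMod N)) := by
  have hcomm : ∀ (m : ↥(Subgroup.zpowers a)) (n : ↥(Subgroup.zpowers x)),
      Commute ((Subgroup.zpowers a).subtype m) ((Subgroup.zpowers x).subtype n) := by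
    rintro ⟨_, i, rfl⟩ ⟨_, j, rfl⟩
    exact (hax.zpow_left i).zpow_right j
  let f := MonoidHom.noncommCoprod (Subgroup.zpowers a).subtype (Subgroup.zpowers x).subtype hcomm
  have hinj : Function.Injective f := by
    rw [injective_iff_map_eq_one]
    rintro ⟨⟨u, hu⟩, ⟨v, hv⟩⟩ huv
    change u * v = 1 at huv
    have hu' : u ∈ Subgroup.zpowers x := by
      rw [eq_inv_of_mul_eq_one_left huv]
      exact Subgroup.inv_mem _ hv
    have hu1 : u = 1 := by
      obtain ⟨i, rfl⟩ := hu
      have h2 : a ^ (2 : ℤ) = 1 := by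
        have := pow_orderOf_eq_one a
        rw [ha] at this
        exact_mod_cast this
      rcases Int.even_or_odd' i with ⟨k, hk | hk⟩
      · change a ^ i = 1
        rw [hk, zpow_mul, h2, one_zpow]
      · exfalso
        apply hnot
        have h3 : a ^ i = a := by
          rw [hk, zpow_add, zpow_mul, h2, one_zpow, one_mul, zpow_one]
        change a ^ i ∈ _ at hu'
        rwa [h3] at hu'
    subst hu1
    rw [one_mul] at huv
    subst huv
    rfl
  have hbij : Function.Bijective f := by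
    rw [Nat.bijective_iff_injective_and_card]
    refine ⟨hinj, ?_⟩
    rw [Nat.card_prod, Nat.card_zpowers, Nat.card_zpowers, ha, hx, hcard]
  obtain ⟨e1⟩ := zpowers_equiv a ha
  obtain ⟨e2⟩ := zpowers_equiv x hx
  exact ⟨(MulEquiv.ofBijective f hbij).symm.trans ((e1.prodCongr e2).trans
    (MulEquiv.prodMultiplicative (G := ZMod 2) (H := ZMod N)).symm)⟩

theorem orderOf_eq_two_mul {G : Type*} [Group G] {x : G} {f : ℕ} (hf : 0 < f)
    (h1 : f ∣ orderOf x) (h2 : x ^ f ≠ 1) (h3 : x ^ (2 * f) = 1) : orderOf x = 2 * f := by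
  obtain ⟨t, ht⟩ := h1
  have h4 : orderOf x ∣ 2 * f := orderOf_dvd_of_pow_eq_one h3
  rw [ht, mul_comm 2 f] at h4
  have h5 : t ∣ 2 := Nat.dvd_of_mul_dvd_mul_left hf h4
  have h6 : t = 1 ∨ t = 2 := (Nat.dvd_prime Nat.prime_two).1 h5
  rcases h6 with rfl | rfl
  · exfalso
    apply h2
    rw [mul_one] at ht
    rw [← ht, pow_orderOf_eq_one]
  · rw [ht, mul_comm]

end Cfsg.Agent.Lib.Helper51OutA
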