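import Mathlib
import Cfsg.Agent.Lib.Helper18GamA
import Cfsg.Agent.Lib.Helper18GamB
import Cfsg.Agent.Lib.Helper18GamC
import Cfsg.Agent.Lib.Helper51OutA

/-!
# The outer automorphism group of `PΩ` as a quotient of the semisimilarity group
-/

set_option autoImplicit false
set_option linter.unusedSectionVars false

namespace Cfsg.Agent.Lib.Helper51OutB

open Cfsg Matrix Module
open scoped MatrixGroups
open Cfsg.Agent.Lib.Helper49Orth Cfsg.Agent.Lib.Helper49Hyp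
  Cfsg.Agent.Lib.Helper51OrthAut Cfsg.Agent.Lib.Helper51OrthKer Cfsg.Agent.Lib.Helper51OrthIdx
  Cfsg.Agent.Lib.Helper18GamA Cfsg.Agent.Lib.Helper18GamB Cfsg.Agent.Lib.Helper18GamC

variable {F : Type*} [Field F] [Fintype F]
variable {ι : Type} [Fintype ι] [DecidableEq ι] (Q : QuadraticForm F (ι → F))

/-- The map from the semisimilarity group to `Out(PΩ)`. -/
noncomputable def oc : ↥(GamO ⇑Q) →* Cfsg.Out (POmega F ⇑Q) :=
  (QuotientGroup.mk' (Inn (POmega F ⇑Q))).comp (sAut ⇑Q)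

theorem ker_oc (hQ : (QuadraticMap.polarBilin Q).Nondegenerate) (hn : 5 ≤ Fintype.card ι) :
    (oc Q).ker = (Om' Q ⊔ ZZ Q).map (inlO ⇑Q) := by
  have h1 : Inn (POmega F ⇑Q) = ((Om' Q).map (inlO ⇑Q)).map (sAut ⇑Q) := by
    rw [inn_eq, Subgroup.map_map]
    congr 1
  unfold oc
  rw [← MonoidHom.comap_ker, QuotientGroup.ker_mk', h1, Subgroup.comap_map_eq, ker_sAut Q hQ hn,
    ← Subgroup.map_sup]

theorem oc_surjective (hsurj : Function.Surjective (sAut ⇑Q)) : Function.Surjective (oc Q) :=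
  (QuotientGroup.mk'_surjective _).comp hsurj

theorem oc_eq_one_iff (hQ : (QuadraticMap.polarBilin Q).Nondegenerate) (hn : 5 ≤ Fintype.card ι)
    (x : ↥(GamO ⇑Q)) : oc Q x = 1 ↔ ∃ g ∈ Om' Q ⊔ ZZ Q, inlO ⇑Q g = x := by
  rw [← MonoidHom.mem_ker, ker_oc Q hQ hn]
  rfl

theorem prO_eq_one_of_oc (hQ : (QuadraticMap.polarBilin Q).Nondegenerate)
    (hn : 5 ≤ Fintype.card ι) {x : ↥(GamO ⇑Q)} (h : oc Q x = 1) : prO ⇑Q x = 1 := by
  obtain ⟨g, -, rfl⟩ := (oc_eq_one_iff Q hQ hn x).1 h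
  rfl

theorem oc_inlO_eq_one_iff (hQ : (QuadraticMap.polarBilin Q).Nondegenerate)
    (hn : 5 ≤ Fintype.card ι) (g : ↥(GO Q)) : oc Q (inlO ⇑Q g) = 1 ↔ g ∈ Om' Q ⊔ ZZ Q := by
  rw [oc_eq_one_iff Q hQ hn]
  constructor
  · rintro ⟨g', hg', h⟩
    rwa [← inlO_injective ⇑Q h]
  · intro h
    exact ⟨g, h, rfl⟩

theorem card_Out (hQ : (QuadraticMap.polarBilin Q).Nondegenerate) (hn : 5 ≤ Fintype.card ι)
    (hsurj : Function.Surjective (sAut ⇑Q)) (hpr : Function.Surjective (prO ⇑Q)) :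
    Nat.card (Cfsg.Out (POmega F ⇑Q)) = (Om' Q ⊔ ZZ Q).index * Nat.card (F ≃+* F) :=
  index_Inn Q hQ hn hsurj hpr

/-- The induced map `Out(PΩ) → Aut(F)`. -/
theorem exists_prOut (hQ : (QuadraticMap.polarBilin Q).Nondegenerate) (hn : 5 ≤ Fintype.card ι)
    (hsurj : Function.Surjective (sAut ⇑Q)) :
    ∃ ρ : Cfsg.Out (POmega F ⇑Q) →* (F ≃+* F), ∀ x, ρ (oc Q x) = prO ⇑Q x := by
  have hle : (oc Q).ker ≤ (prO ⇑Q).ker := fun x hx => prO_eq_one_of_oc Q hQ hn hx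
  refine ⟨(oc Q).liftOfSurjective (oc_surjective Q hsurj) ⟨prO ⇑Q, hle⟩, fun x => ?_⟩
  exact MonoidHom.liftOfRightInverse_comp_apply _ _ _ _ x

end Cfsg.Agent.Lib.Helper51OutB
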