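import Mathlib
import Cfsg.Agent.Lib.Helper18GamD
import Cfsg.Agent.Lib.Helper51OrthIdx4
import Cfsg.Agent.Lib.Helper51OutB

/-!
# The action of semisimilarities on the conformal group and the characters `psi`
-/

set_option autoImplicit false
set_option linter.unusedSectionVars false

namespace Cfsg.Agent.Lib.Helper51OutC

open Cfsg Matrix Module
open scoped MatrixGroups
open Cfsg.Agent.Lib.Helper49Orth Cfsg.Agent.Lib.Helper49Hyp
  Cfsg.Agent.Lib.Helper51OrthAut Cfsg.Agent.Lib.Helper51OrthKer Cfsg.Agent.Lib.Helper51OrthIdx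
  Cfsg.Agent.Lib.Helper51OrthIdx2 Cfsg.Agent.Lib.Helper51OrthIdx3 Cfsg.Agent.Lib.Helper51OrthIdx4
  Cfsg.Agent.Lib.Helper18GamA Cfsg.Agent.Lib.Helper18GamB Cfsg.Agent.Lib.Helper18GamC
  Cfsg.Agent.Lib.Helper51OutA Cfsg.Agent.Lib.Helper51OutB

variable {F : Type*} [Field F] [Fintype F]
variable {ι : Type} [Fintype ι] [DecidableEq ι] (Q : QuadraticForm F (ι → F))

theorem conj_inl (x : GamL ι F) (g : GL ι F) :
    x * SemidirectProduct.inl g * x⁻¹ = SemidirectProduct.inl (cj x g) := by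
  apply SemidirectProduct.ext
  · simp only [SemidirectProduct.mul_left, SemidirectProduct.mul_right, SemidirectProduct.inv_left,
      SemidirectProduct.left_inl, SemidirectProduct.right_inl, mul_one, cj_apply]
    congr 1
    rw [← MulAut.mul_apply, ← map_mul, mul_inv_cancel, map_one, MulAut.one_apply]
  · simp

theorem Q_cj (hx : ∃ x, Q x = 1) (X : ↥(GamO ⇑Q)) (h : ↥(GO Q)) (w : ι → F) :
    Q (((cj (X : GamL ι F) (h : GL ι F) : GL ι F) : Matrix ι ι F) *ᵥ w)
      = (X : GamL ι F).right (mu Q hx h : Fˣ) * Q w := by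
  obtain ⟨c, hc⟩ := (mem_GamO' ⇑Q).1 X.2
  have hw : w = act (X : GamL ι F) (act (X : GamL ι F)⁻¹ w) := (act_act_inv _ _).symm
  conv_lhs => rw [hw]
  rw [cj_act, hc, mu_spec Q hx, map_mul]
  conv_rhs => rw [hw, hc]
  ring

/-- Conjugation by a semisimilarity, on the conformal group. -/
noncomputable def cjGO (hx : ∃ x, Q x = 1) (X : ↥(GamO ⇑Q)) (h : ↥(GO Q)) : ↥(GO Q) :=
  ⟨cj (X : GamL ι F) (h : GL ι F),
    ⟨Units.map ((X : GamL ι F).right : F →* F) (mu Q hx h), fun w => Q_cj Q hx X h w⟩⟩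

theorem inlO_cjGO (hx : ∃ x, Q x = 1) (X : ↥(GamO ⇑Q)) (h : ↥(GO Q)) :
    inlO ⇑Q (cjGO Q hx X h) = X * inlO ⇑Q h * X⁻¹ := by
  apply Subtype.ext
  rw [Subgroup.coe_mul, Subgroup.coe_mul, Subgroup.coe_inv, coe_inlO, coe_inlO, conj_inl]
  rfl

theorem mu_cjGO (hx : ∃ x, Q x = 1) (X : ↥(GamO ⇑Q)) (h : ↥(GO Q)) :
    mu Q hx (cjGO Q hx X h) = Units.map ((X : GamL ι F).right : F →* F) (mu Q hx h) :=
  mu_eq Q hx _ _ (fun w => Q_cj Q hx X h w)

theorem det_cjGO (hx : ∃ x, Q x = 1) (X : ↥(GamO ⇑Q)) (h : ↥(GO Q)) :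
    Matrix.GeneralLinearGroup.det ((cjGO Q hx X h : ↥(GO Q)) : GL ι F)
      = Units.map ((X : GamL ι F).right : F →* F) (Matrix.GeneralLinearGroup.det (h : GL ι F)) := by
  change Matrix.GeneralLinearGroup.det (cj (X : GamL ι F) (h : GL ι F)) = _
  rw [cj_apply, map_mul, map_mul, map_inv, mul_comm, inv_mul_cancel_left]
  apply Units.ext
  rw [Matrix.GeneralLinearGroup.val_det_apply, coe_mapAut]
  change _ = (X : GamL ι F).right (Matrix.det ((h : GL ι F) : Matrix ι ι F))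
  exact (RingHom.map_det ((X : GamL ι F).right : F →+* F) _).symm

theorem delta_cjGO (hx : ∃ x, Q x = 1) (m : ℕ) (X : ↥(GamO ⇑Q)) (h : ↥(GO Q)) :
    delta Q hx m (cjGO Q hx X h) = Units.map ((X : GamL ι F).right : F →* F) (delta Q hx m h) := by
  rw [delta_apply, delta_apply, mu_cjGO, det_cjGO, map_mul, map_pow, map_inv]

theorem units_eq_of_iff {a b : ℤˣ} (h : a = 1 ↔ b = 1) : a = b := by
  rcases Int.units_eq_one_or a with ha | ha <;> rcases Int.units_eq_one_or b with hb | hb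
  · rw [ha, hb]
  · exact absurd (h.1 ha) (by rw [hb]; decide)
  · exact absurd (h.2 hb) (by rw [ha]; decide)
  · rw [ha, hb]

theorem psi_cjGO (G : Good Q) {m : ℕ} (hm : Fintype.card ι = 2 * m) (X : ↥(GamO ⇑Q))
    (h : ↥(GO Q)) : psi Q G hm (cjGO Q G.exists_one X h) = psi Q G hm h := by
  apply Prod.ext
  · apply units_eq_of_iff
    change sqChar (mu Q G.exists_one _) = 1 ↔ sqChar (mu Q G.exists_one _) = 1
    rw [sqChar_eq_one_iff, sqChar_eq_one_iff, mu_cjGO]
    change IsSquare ((X : GamL ι F).right (mu Q G.exists_one h : Fˣ)) ↔ _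
    constructor
    · rintro ⟨r, hr⟩
      refine ⟨(X : GamL ι F).right.symm r, ?_⟩
      apply (X : GamL ι F).right.injective
      rw [hr, map_mul, RingEquiv.apply_symm_apply]
    · rintro ⟨r, hr⟩
      exact ⟨(X : GamL ι F).right r, by rw [hr, map_mul]⟩
  · apply units_eq_of_iff
    change sgnHom _ _ _ _ = 1 ↔ sgnHom _ _ _ _ = 1
    rw [sgnHom_eq_one_iff, sgnHom_eq_one_iff, delta_cjGO]
    constructor
    · intro h1
      apply Units.ext
      have h2 := congrArg (fun u : Fˣ => (u : F)) h1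
      simp only [Units.coe_map, Units.val_one] at h2
      apply (X : GamL ι F).right.injective
      rw [Units.val_one, map_one]
      exact h2
    · intro h1
      rw [h1, map_one]

theorem oc_conj (hx : ∃ x, Q x = 1) (X : ↥(GamO ⇑Q)) (h : ↥(GO Q)) :
    oc Q X * oc Q (inlO ⇑Q h) * (oc Q X)⁻¹ = oc Q (inlO ⇑Q (cjGO Q hx X h)) := by
  rw [inlO_cjGO, map_mul, map_mul, map_inv]

end Cfsg.Agent.Lib.Helper51OutC
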