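import Mathlib
import Cfsg.Agent.Lib.Helper51OutC

/-!
# `Out(PΩ)` in even dimension, odd characteristic, given a semisimilarity `X` over a generator
of `Aut(F)` whose `f`-th power has determinant `-1`
-/

set_option autoImplicit false
set_option linter.unusedSectionVars false

namespace Cfsg.Agent.Lib.Helper51OutD

open Cfsg Matrix Module
open scoped MatrixGroups
open Cfsg.Agent.Lib.Helper49Orth Cfsg.Agent.Lib.Helper49Hyp Cfsg.Agent.Lib.Helper49Idx
  Cfsg.Agent.Lib.Helper51OrthAut Cfsg.Agent.Lib.Helper51OrthKer Cfsg.Agent.Lib.Helper51OrthIdx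
  Cfsg.Agent.Lib.Helper51OrthIdx2 Cfsg.Agent.Lib.Helper51OrthIdx3 Cfsg.Agent.Lib.Helper51OrthIdx4
  Cfsg.Agent.Lib.Helper18GamA Cfsg.Agent.Lib.Helper18GamB Cfsg.Agent.Lib.Helper18GamC
  Cfsg.Agent.Lib.Helper51OutA Cfsg.Agent.Lib.Helper51OutB Cfsg.Agent.Lib.Helper51OutC

variable {F : Type*} [Field F] [Fintype F]
variable {ι : Type} [Fintype ι] [DecidableEq ι] (Q : QuadraticForm F (ι → F))

/-- Direct product decomposition from a centralising cyclic complement. -/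
theorem mulEquiv_prod_zpowers {G : Type*} [Group G] [Finite G] (K : Subgroup G) (y : G) {f : ℕ}
    (hcomm : ∀ k ∈ K, Commute k y) (hy : orderOf y = f)
    (hint : ∀ i : ℤ, y ^ i ∈ K → y ^ i = 1) (hcard : Nat.card G = Nat.card K * f) :
    Nonempty (G ≃* ↥K × Multiplicative (ZMod f)) := by
  have hc : ∀ (k : ↥K) (n : ↥(Subgroup.zpowers y)),
      Commute (K.subtype k) ((Subgroup.zpowers y).subtype n) := by
    rintro ⟨k, hk⟩ ⟨_, j, rfl⟩
    exact (hcomm k hk).zpow_right j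
  let φ := MonoidHom.noncommCoprod K.subtype (Subgroup.zpowers y).subtype hc
  have hinj : Function.Injective φ := by
    rw [injective_iff_map_eq_one]
    rintro ⟨⟨u, hu⟩, ⟨_, j, rfl⟩⟩ huv
    change u * y ^ j = 1 at huv
    have h1 : y ^ j ∈ K := by
      rw [eq_inv_of_mul_eq_one_right huv]
      exact K.inv_mem hu
    have h2 := hint j h1
    have h3 : u = 1 := by rwa [h2, mul_one] at huv
    apply Prod.ext
    · exact Subtype.ext h3
    · exact Subtype.ext h2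
  have hbij : Function.Bijective φ := by
    rw [Nat.bijective_iff_injective_and_card]
    refine ⟨hinj, ?_⟩
    rw [Nat.card_prod, Nat.card_zpowers, hy, hcard]
  obtain ⟨e2⟩ := zpowers_equiv y hy
  exact ⟨(MulEquiv.ofBijective φ hbij).symm.trans ((MulEquiv.refl _).prodCongr e2)⟩

section E4

variable (G : Good Q) {m : ℕ} (hm : Fintype.card ι = 2 * m)

theorem K0_eq_ker (hneg : ¬ NegIn Q) : Om' Q ⊔ ZZ Q = (psi Q G hm).ker := by
  rw [ker_psi]
  apply le_antisymm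
  · exact sup_le_sup_right (Om'_le_SO' Q) _
  · exact sup_le (SO'_le_K0 Q G hm hneg) le_sup_right

theorem out_E4 (hn : 5 ≤ Fintype.card ι) (hneg : ¬ NegIn Q)
    (hsurj : Function.Surjective (sAut ⇑Q)) (hpr : Function.Surjective (prO ⇑Q)) {f : ℕ}
    (hf : 1 ≤ f) (hcardF : Nat.card (F ≃+* F) = f) (X : ↥(GamO ⇑Q))
    (hX : orderOf (prO ⇑Q X) = f) (N : ↥(GO Q)) (hXf : X ^ f = inlO ⇑Q N)
    (hN : psi Q G hm N = (1, -1)) :
    Nonempty (Cfsg.Out (POmega F ⇑Q) ≃* Multiplicative (ZMod 2 × ZMod (2 * f))) := by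
  have hQ := G.nondeg
  have hK0 := K0_eq_ker Q G hm hneg
  have hidx : (Om' Q ⊔ ZZ Q).index = 4 := by
    rw [hK0, Subgroup.index_ker, MonoidHom.range_eq_top.2 (psi_surjective Q G hm), card_top_klein]
  have hcO := card_Out Q hQ hn hsurj hpr
  rw [hidx, hcardF] at hcO
  have hone : ∀ g, oc Q (inlO ⇑Q g) = 1 ↔ psi Q G hm g = 1 := by
    intro g
    rw [oc_inlO_eq_one_iff Q hQ hn, hK0, MonoidHom.mem_ker]
  have heq : ∀ g₁ g₂, psi Q G hm g₁ = psi Q G hm g₂ → oc Q (inlO ⇑Q g₁) = oc Q (inlO ⇑Q g₂) := by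
    intro g₁ g₂ h
    rw [← mul_inv_eq_one, ← map_inv, ← map_inv, ← map_mul, ← map_mul, hone, map_mul, map_inv, h,
      mul_inv_cancel]
  obtain ⟨g, hg⟩ := psi_surjective Q G hm (-1, 1)
  obtain ⟨ρ, hρ⟩ := exists_prOut Q hQ hn hsurj
  have hfin : Finite (Cfsg.Out (POmega F ⇑Q)) := by
    apply Nat.finite_of_card_ne_zero
    rw [hcO]; omega
  have ha1 : oc Q (inlO ⇑Q g) ≠ 1 := by
    rw [Ne, hone, hg]
    decide
  apply mulEquiv_of_two_gens (oc Q (inlO ⇑Q g)) (oc Q X)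
  · have h1 := oc_conj Q G.exists_one X g
    rw [heq _ _ (psi_cjGO Q G hm X g)] at h1
    exact (mul_inv_eq_iff_eq_mul.1 h1).symm
  · apply orderOf_eq_prime _ ha1
    rw [pow_two, ← map_mul, ← map_mul, hone, map_mul, hg]
    decide
  · apply orderOf_eq_two_mul (by omega)
    · have h3 := orderOf_map_dvd ρ (oc Q X)
      rwa [hρ, hX] at h3
    · rw [← map_pow, hXf, Ne, hone, hN]
      decide
    · rw [mul_comm, pow_mul, ← map_pow, hXf, pow_two, ← map_mul, ← map_mul, hone, map_mul, hN]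
      decide
  · rintro ⟨k, hk⟩
    have hk' : oc Q X ^ k = oc Q (inlO ⇑Q g) := hk
    have h1 := congrArg ρ hk'
    rw [map_zpow, hρ, hρ] at h1
    have h2 : prO ⇑Q X ^ k = 1 := h1
    rw [← orderOf_dvd_iff_zpow_eq_one, hX] at h2
    obtain ⟨j, rfl⟩ := h2
    rw [_root_.zpow_mul, zpow_natCast, ← map_pow, hXf, ← map_zpow, ← map_zpow, ← mul_inv_eq_one,
      ← map_inv, ← map_inv, ← map_mul, ← map_mul, hone, map_mul, map_inv, map_zpow, hN, hg] at hk'
    have h3 := congrArg Prod.fst hk'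
    simp at h3
  · rw [hcO]; ring

end E4

section D8

theorem card_quot_D8 (G : Good Q) {m : ℕ} (hm : Fintype.card ι = 2 * m) (hneg : NegIn Q) : (Om' Q ⊔ ZZ Q).index = 8 := by
  have hle : Om' Q ⊔ ZZ Q ≤ SO' Q ⊔ ZZ Q := sup_le_sup_right (Om'_le_SO' Q) _
  have h1 := Subgroup.relIndex_mul_index hle
  rw [relIndex_K0_K1 Q G hm hneg, ← ker_psi Q G hm, Subgroup.index_ker,
    MonoidHom.range_eq_top.2 (psi_surjective Q G hm), card_top_klein] at h1
  exact h1.symm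

theorem quot_D8 (G : Good Q) {m : ℕ} (hm : Fintype.card ι = 2 * m) (hneg : NegIn Q) [(Om' Q ⊔ ZZ Q).Normal] :
    Nonempty ((↥(GO Q) ⧸ (Om' Q ⊔ ZZ Q)) ≃* DihedralGroup 4) := by
  have hle : Om' Q ⊔ ZZ Q ≤ SO' Q ⊔ ZZ Q := sup_le_sup_right (Om'_le_SO' Q) _
  have hcard : Nat.card (↥(GO Q) ⧸ (Om' Q ⊔ ZZ Q)) = 8 := card_quot_D8 Q G hm hneg
  let f : (↥(GO Q) ⧸ (Om' Q ⊔ ZZ Q)) →* ℤˣ × ℤˣ :=
    QuotientGroup.lift (Om' Q ⊔ ZZ Q) (psi Q G hm) (fun x hx => by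
      have := hle hx
      rw [← ker_psi Q G hm] at this
      exact this)
  have hf : Function.Surjective f := fun y => by
    obtain ⟨x, hx⟩ := psi_surjective Q G hm y
    exact ⟨QuotientGroup.mk x, hx⟩
  obtain ⟨v, hv⟩ := G.exists_one
  have hv0 : Q v ≠ 0 := by rw [hv]; exact one_ne_zero
  obtain ⟨c, hc⟩ := FiniteField.exists_nonsquare (ringChar_ne_two G.two)
  have hc0 : c ≠ 0 := by rintro rfl; exact hc IsSquare.zero
  obtain ⟨g, hg⟩ := exists_mu_eq Q G hm (Units.mk0 c hc0)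
  have hrr : incO Q (reflO Q hv0) * incO Q (reflO Q hv0) = 1 := by
    rw [← map_mul, reflO_mul_self, map_one]
  have hrinv : (incO Q (reflO Q hv0))⁻¹ = incO Q (reflO Q hv0) := inv_eq_of_mul_eq_one_left hrr
  exact dihedral_of_hom hcard f hf (QuotientGroup.mk (incO Q (reflO Q hv0))) (QuotientGroup.mk g)
    (by rw [← QuotientGroup.mk_mul, hrr, QuotientGroup.mk_one]) (by
      rw [← QuotientGroup.mk_mul, ← QuotientGroup.mk_mul]
      intro h
      rw [QuotientGroup.eq] at h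
      have e1 : (incO Q (reflO Q hv0) * g)⁻¹ * (g * incO Q (reflO Q hv0)) =
          (g⁻¹ * incO Q (reflO Q hv0) * g⁻¹⁻¹) * incO Q (reflO Q hv0) := by
        rw [_root_.mul_inv_rev, hrinv, inv_inv]
        group
      rw [e1, conj_incO_refl Q G.exists_one, ← map_mul] at h
      have h2 : incO Q (reflO Q (Q_sim_ne Q G.exists_one g⁻¹ hv0) * reflO Q hv0) ∈ SO' Q := by
        rw [incO_mem_SO', map_mul, detO_reflO, detO_reflO]
        simp
      have h3 : incO Q (reflO Q (Q_sim_ne Q G.exists_one g⁻¹ hv0) * reflO Q hv0) ∈ Om' Q := by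
        rw [← K0_inf_SO' Q G hm hneg]
        exact ⟨h, h2⟩
      rw [incO_mem_Om'] at h3
      refine refl_refl_not_mem Q G.two _ _ ?_ h3
      rw [mu_spec Q G.exists_one, map_inv, hg, hv, mul_one, mul_one]
      intro hsq
      apply hc
      have : c = ((Units.mk0 c hc0)⁻¹ : Fˣ) * (c * c) := by
        rw [Units.val_inv_eq_inv_val, Units.val_mk0]
        field_simp
      rw [this]
      exact hsq.mul ⟨c, rfl⟩)

theorem mul_mem_K0_iff (G : Good Q) {m : ℕ} (hm : Fintype.card ι = 2 * m) (hneg : NegIn Q) {s t : ↥(GO Q)} (hs : psi Q G hm s = 1)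
    (ht : psi Q G hm t = 1) :
    s * t ∈ Om' Q ⊔ ZZ Q ↔ (s ∈ Om' Q ⊔ ZZ Q ↔ t ∈ Om' Q ⊔ ZZ Q) := by
  have h1 : ((Om' Q ⊔ ZZ Q).subgroupOf (SO' Q ⊔ ZZ Q)).index = 2 := relIndex_K0_K1 Q G hm hneg
  have hs' : s ∈ SO' Q ⊔ ZZ Q := by rw [← ker_psi Q G hm]; exact hs
  have ht' : t ∈ SO' Q ⊔ ZZ Q := by rw [← ker_psi Q G hm]; exact ht
  have h2 := Subgroup.mul_mem_iff_of_index_two h1 (a := ⟨s, hs'⟩) (b := ⟨t, ht'⟩)
  exact h2

theorem out_D8 (G : Good Q) {m : ℕ} (hm : Fintype.card ι = 2 * m) (hn : 5 ≤ Fintype.card ι) (hneg : NegIn Q)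
    (hsurj : Function.Surjective (sAut ⇑Q)) (hpr : Function.Surjective (prO ⇑Q)) {f : ℕ}
    (hf : Odd f) (hcardF : Nat.card (F ≃+* F) = f) (X : ↥(GamO ⇑Q))
    (hX : orderOf (prO ⇑Q X) = f) (N : ↥(GO Q)) (hXf : X ^ f = inlO ⇑Q N)
    (hNN : N * N = 1) :
    Nonempty (Cfsg.Out (POmega F ⇑Q) ≃* DihedralGroup 4 × Multiplicative (ZMod f)) := by
  have hQ := G.nondeg
  haveI := K0_normal Q G
  have hf0 : 0 < f := hf.pos
  have hidx := card_quot_D8 Q G hm hneg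
  have hcO := card_Out Q hQ hn hsurj hpr
  rw [hidx, hcardF] at hcO
  obtain ⟨ρ, hρ⟩ := exists_prOut Q hQ hn hsurj
  have hfin : Finite (Cfsg.Out (POmega F ⇑Q)) := by
    apply Nat.finite_of_card_ne_zero
    rw [hcO]; omega
  set κ : ↥(GO Q) →* Cfsg.Out (POmega F ⇑Q) := (oc Q).comp (inlO ⇑Q) with hκ
  have hκ1 : ∀ g, κ g = 1 ↔ g ∈ Om' Q ⊔ ZZ Q := fun g => oc_inlO_eq_one_iff Q hQ hn g
  have hker : κ.ker = Om' Q ⊔ ZZ Q := by
    ext g
    rw [MonoidHom.mem_ker, hκ1]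
  obtain ⟨e0⟩ := quot_D8 Q G hm hneg
  have e1 : ↥κ.range ≃* DihedralGroup 4 :=
    ((QuotientGroup.quotientKerEquivRange κ).symm.trans
      (QuotientGroup.quotientMulEquivOfEq hker)).trans e0
  have hcardK : Nat.card ↥κ.range = 8 := by
    rw [Nat.card_congr e1.toEquiv, DihedralGroup.nat_card]
  have hconj : ∀ h, oc Q X * κ h * (oc Q X)⁻¹ = κ (cjGO Q G.exists_one X h) :=
    fun h => oc_conj Q G.exists_one X h
  -- elements of the kernel of `psi`
  have hZ1 : ∀ t, psi Q G hm t = 1 → κ t * κ t = 1 := by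
    intro t ht
    rw [← map_mul, hκ1, mul_mem_K0_iff Q G hm hneg ht ht]
  have hZ2 : ∀ t, psi Q G hm t = 1 → oc Q X * κ t * (oc Q X)⁻¹ = κ t := by
    intro t ht
    rw [hconj, ← mul_inv_eq_one, ← map_inv, ← map_mul, hκ1,
      mul_mem_K0_iff Q G hm hneg (by rw [psi_cjGO, ht]) (by rw [map_inv, ht, inv_one]),
      Subgroup.inv_mem_iff, ← hκ1, ← hκ1, ← hconj, conj_eq_one_iff]
  have hcomm2 : ∀ h, (oc Q X) ^ 2 * κ h * ((oc Q X) ^ 2)⁻¹ = κ h := by
    intro h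
    set t := h⁻¹ * cjGO Q G.exists_one X h with ht
    have hpt : psi Q G hm t = 1 := by
      rw [ht, map_mul, map_inv, psi_cjGO, inv_mul_cancel]
    have h1 : oc Q X * κ h * (oc Q X)⁻¹ = κ h * κ t := by
      rw [hconj, ← map_mul, ht, mul_inv_cancel_left]
    calc (oc Q X) ^ 2 * κ h * ((oc Q X) ^ 2)⁻¹
        = oc Q X * (oc Q X * κ h * (oc Q X)⁻¹) * (oc Q X)⁻¹ := by
          rw [pow_two, _root_.mul_inv_rev]; simp only [mul_assoc]
      _ = oc Q X * (κ h * κ t) * (oc Q X)⁻¹ := by rw [h1]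
      _ = (oc Q X * κ h * (oc Q X)⁻¹) * (oc Q X * κ t * (oc Q X)⁻¹) := by
          simp only [mul_assoc, inv_mul_cancel_left]
      _ = κ h := by rw [h1, hZ2 t hpt, mul_assoc, hZ1 t hpt, mul_one]
  have hyf : ((oc Q X) ^ 2) ^ f = 1 := by
    rw [← pow_mul, mul_comm, pow_mul, ← map_pow, hXf, pow_two]
    change κ N * κ N = 1
    rw [← map_mul, hNN, map_one]
  have hρy : orderOf (ρ ((oc Q X) ^ 2)) = f := by
    rw [map_pow, hρ, Nat.Coprime.orderOf_pow, hX]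
    rw [hX]
    exact hf.coprime_two_right
  have hy : orderOf ((oc Q X) ^ 2) = f := by
    apply Nat.dvd_antisymm (orderOf_dvd_of_pow_eq_one hyf)
    rw [← hρy]
    exact orderOf_map_dvd ρ _
  obtain ⟨e2⟩ := mulEquiv_prod_zpowers κ.range ((oc Q X) ^ 2) (f := f)
    (by
      rintro _ ⟨h, rfl⟩
      exact (mul_inv_eq_iff_eq_mul.1 (hcomm2 h)).symm) hy
    (by
      rintro i ⟨h, hh⟩
      have h1 := congrArg ρ hh
      have h2 : ρ (κ h) = 1 := by
        change ρ (oc Q (inlO ⇑Q h)) = 1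
        rw [hρ]
        rfl
      rw [h2, map_zpow] at h1
      have h3 := (orderOf_dvd_iff_zpow_eq_one.2 h1.symm)
      rw [hρy, ← hy] at h3
      exact orderOf_dvd_iff_zpow_eq_one.1 h3)
    (by rw [hcO, hcardK])
  exact ⟨e2.trans (e1.prodCongr (MulEquiv.refl _))⟩

end D8

end Cfsg.Agent.Lib.Helper51OutD
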