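import Cfsg.Agent.Lib.Helper52FF3
import Cfsg.Agent.Lib.Helper24Section

set_option autoImplicit false

namespace Cfsg.Agent.Lib.Helper52FF6

open Subgroup
open Cfsg.Agent.Lib.Helper52FF2 Cfsg.Agent.Lib.Helper52FF3 Cfsg.Agent.Lib.Helper52S4

theorem surjective_of_hom {X : Type*} [Group X] (σ : X →* Equiv.Perm (Fin 3)) (d t : X)
    (hd : ∃ n : ℕ, Odd n ∧ d ^ n = 1) (hσd : σ d ≠ 1) (ht : ∃ k : ℕ, t ^ 2 ^ k = 1)
    (hσt : σ t ≠ 1) : Function.Surjective σ := by
  obtain ⟨n, hn, hd⟩ := hd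
  obtain ⟨kt, ht⟩ := ht
  have hσdpow : σ d ^ n = 1 := by rw [← map_pow, hd, map_one]
  have hσtpow : σ t ^ 2 ^ kt = 1 := by rw [← map_pow, ht, map_one]
  have hsd : Equiv.Perm.sign (σ d) = 1 := by
    have h1 : (Equiv.Perm.sign (σ d)) ^ n = 1 := by rw [← map_pow, hσdpow, map_one]
    have h2 : (Equiv.Perm.sign (σ d)) ^ 2 = 1 := by
      rcases Int.units_eq_one_or (Equiv.Perm.sign (σ d)) with h | h <;> rw [h] <;> simp
    exact eq_one_of_pow_pow (Nat.coprime_two_right.mpr hn) h1 h2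
  have hσd3 : σ d ^ 3 = 1 := perm3_b _ hsd
  have hst : Equiv.Perm.sign (σ t) = -1 := by
    rcases Int.units_eq_one_or (Equiv.Perm.sign (σ t)) with h | h
    · exfalso
      apply hσt
      exact eq_one_of_pow_pow (by
        apply Nat.Coprime.pow_right; decide) (perm3_b _ h) hσtpow
    · exact h
  intro x
  rcases perm3_c (σ d) (σ t) hσd hσd3 hst x with h | h | h | h | h | h <;> rw [h]
  · exact ⟨1, map_one _⟩
  · exact ⟨d, rfl⟩
  · exact ⟨d ^ 2, map_pow _ _ _⟩
  · exact ⟨t, rfl⟩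
  · exact ⟨d * t, map_mul _ _ _⟩
  · exact ⟨d ^ 2 * t, by rw [map_mul, map_pow]⟩

/-- `S₃` is involved in `M` as soon as some four-subgroup `W` admits a nontrivial action of a
element of odd order and of a `2`-element of `N_M(W)`. -/
theorem involves_S3 {G : Type*} [Group G] [Finite G] (M W : Subgroup G) (hcard : Nat.card W = 4)
    (d t : G) (hdM : d ∈ M) (htM : t ∈ M)
    (hdN : d ∈ normalizer (W : Set G)) (htN : t ∈ normalizer (W : Set G))
    (hd : ∃ n : ℕ, Odd n ∧ d ^ n = 1) (hdW : d ∉ centralizer (W : Set G))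
    (ht : ∃ k : ℕ, t ^ 2 ^ k = 1) (htW : t ∉ centralizer (W : Set G)) :
    Cfsg.Involves (Equiv.Perm (Fin 3)) M := by
  set N := normalizer (W : Set G) with hN
  have hWN : W ≤ N := le_normalizer
  have hn : (W.subgroupOf N).Normal := normal_in_normalizer
  have hc : Nat.card (W.subgroupOf N) = 4 := by
    rw [Nat.card_congr (subgroupOfEquivOfLe hWN).toEquiv, hcard]
  have hcent : ∀ x : N, x ∈ centralizer ((W.subgroupOf N : Subgroup N) : Set N) →
      (x : G) ∈ centralizer (W : Set G) := by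
    intro x hx
    rw [mem_centralizer_iff] at hx ⊢
    intro w hw
    have := hx ⟨w, hWN hw⟩ (by
      change _ ∈ W.subgroupOf N
      rw [mem_subgroupOf]; exact hw)
    exact congrArg Subtype.val this
  let e : {w : W.subgroupOf N // w ≠ 1} ≃ Fin 3 := Finite.equivFinOfCardEq (card_ne_one _ hc)
  let σ : N →* Equiv.Perm (Fin 3) := e.permCongrHom.toMonoidHom.comp (sigma0 (W.subgroupOf N))
  have hσker : σ.ker = centralizer ((W.subgroupOf N : Subgroup N) : Set N) := by
    rw [← sigma0_ker (W.subgroupOf N)]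
    ext x
    simp only [σ, MonoidHom.mem_ker, MonoidHom.comp_apply]
    exact e.permCongrHom.map_eq_one_iff
  rw [Cfsg.Agent.Lib.Helper24Section.involves_iff]
  let K : Subgroup M := N.subgroupOf M
  let ι : K →* N :=
    { toFun := fun x => ⟨((x : M) : G), x.2⟩
      map_one' := rfl
      map_mul' := fun _ _ => rfl }
  refine ⟨K, σ.comp ι, ?_⟩
  obtain ⟨kd, hodd, hd⟩ := hd
  obtain ⟨kt, ht⟩ := ht
  refine surjective_of_hom (σ.comp ι) ⟨⟨d, hdM⟩, hdN⟩ ⟨⟨t, htM⟩, htN⟩ ⟨kd, hodd, ?_⟩ ?_ ⟨kt, ?_⟩ ?_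
  · apply Subtype.ext; apply Subtype.ext; simpa using hd
  · intro h
    apply hdW
    have h1 : (⟨d, hdN⟩ : N) ∈ σ.ker := h
    rw [hσker] at h1
    exact hcent _ h1
  · apply Subtype.ext; apply Subtype.ext; simpa using ht
  · intro h
    apply htW
    have h1 : (⟨t, htN⟩ : N) ∈ σ.ker := h
    rw [hσker] at h1
    exact hcent _ h1

section Ambient

open scoped IsMulCommutative
open scoped commutatorElement

variable {G : Type*} [Group G]

/-- The configuration produced by `core'`, in an ambient group. -/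
theorem ff2_config [Finite G] (V B Y : Subgroup G) (hV : Cfsg.IsElementaryAbelian 2 V)
    (hBV : B ≤ normalizer (V : Set G)) (hYV : Y ≤ normalizer (V : Set G))
    (hBsq : ∀ b ∈ B, b * b ∈ centralizer (V : Set G))
    (hYodd : Odd (Nat.card Y))
    (hBY : ∀ b ∈ B, ∀ y ∈ Y, ∃ y' ∈ Y, y'⁻¹ * (b * y * b⁻¹) ∈ centralizer (V : Set G))
    (hne : ∃ b ∈ B, ∃ y ∈ Y, y⁻¹ * (b * y * b⁻¹) ∉ centralizer (V : Set G))
    (hbest : ∀ B' ≤ B, B'.relIndex B = 2 → Nat.card ↥(V ⊓ centralizer (B' : Set G)) ≤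
      2 * Nat.card ↥(V ⊓ centralizer (B : Set G))) :
    ∃ W : Subgroup G, Nat.card W = 4 ∧ ∃ y ∈ Y, ∃ b ∈ B, y ∈ normalizer (W : Set G) ∧
      b ∈ normalizer (W : Set G) ∧ y ∉ centralizer (W : Set G) ∧
      b ∉ centralizer (W : Set G) := by
  obtain ⟨hVc, hVe⟩ := hV
  set N := normalizer (V : Set G) with hN
  let ρ : N →* MulAut V := V.normalizerMonoidHom
  have hρ : ∀ (x : N) (v : V), ((ρ x v : V) : G) = x * v * (x : G)⁻¹ := by
    intro x v
    exact normalizerMonoidHom_apply_apply_coe V x v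
  have hρ1 : ∀ x : N, ρ x = 1 ↔ (x : G) ∈ centralizer (V : Set G) := by
    intro x
    rw [← MonoidHom.mem_ker, normalizerMonoidHom_ker, mem_subgroupOf]
  have hρeq : ∀ x x' : N, ρ x = ρ x' ↔ (x' : G)⁻¹ * x ∈ centralizer (V : Set G) := by
    intro x x'
    have := hρ1 (x'⁻¹ * x)
    rw [map_mul, map_inv, inv_mul_eq_one] at this
    rw [eq_comm, this]
    rfl
  let fB : B →* MulAut V := ρ.comp (inclusion hBV)
  let fY : Y →* MulAut V := ρ.comp (inclusion hYV)
  have hfix : ∀ B' ≤ fB.range, Nat.card (fix B') =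
      Nat.card ↥(V ⊓ centralizer (((B'.comap fB).map B.subtype : Subgroup G) : Set G)) := by
    intro B' hB'
    rw [← card_map_of_injective V.subtype_injective]
    congr 2
    ext v
    constructor
    · rintro ⟨v, hv, rfl⟩
      refine ⟨v.2, ?_⟩
      change (v : G) ∈ centralizer _
      rw [mem_centralizer_iff]
      rintro _ ⟨b, hb, rfl⟩
      have h1 : fB b v = v := hv _ hb
      have h2 := congrArg Subtype.val h1
      have h3 : ((fB b v : V) : G) = b * v * (b : G)⁻¹ := hρ _ v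
      rw [h3] at h2
      change (b : G) * v = v * b
      calc (b : G) * v = b * v * (b : G)⁻¹ * b := by group
        _ = v * b := by rw [h2]
    · rintro ⟨hvV, hvc⟩
      refine ⟨⟨v, hvV⟩, ?_, rfl⟩
      intro s hs
      obtain ⟨b, rfl⟩ := hB' hs
      apply Subtype.ext
      have h3 : ((fB b ⟨v, hvV⟩ : V) : G) = b * v * (b : G)⁻¹ := hρ _ _
      rw [h3]
      have h4 : (b : G) * v = v * b := (mem_centralizer_iff.mp hvc) b ⟨b, hs, rfl⟩
      rw [h4]; group
  have hcore := core' (V := V) (fun v => by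
      apply Subtype.ext
      have := hVe v v.2
      rw [pow_two] at this
      exact this) fB.range fY.range ?_ ?_ ?_ ?_ ?_
  · obtain ⟨W, hW4, _, ⟨y, rfl⟩, _, ⟨b, rfl⟩, hyW, hbW, ⟨w₁, hw₁, hyw₁⟩, ⟨w₂, hw₂, hbw₂⟩⟩ := hcore
    have hfYa : ∀ v : V, ((fY y v : V) : G) = y * v * (y : G)⁻¹ := fun v => hρ _ v
    have hfBa : ∀ v : V, ((fB b v : V) : G) = b * v * (b : G)⁻¹ := fun v => hρ _ v
    refine ⟨W.map V.subtype, by rw [card_map_of_injective V.subtype_injective, hW4],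
      y, y.2, b, b.2, ?_, ?_, ?_, ?_⟩
    · apply mem_normalizer_of_forall_conj_mem
      rintro _ ⟨w, hw, rfl⟩
      exact ⟨_, hyW w hw, hfYa w⟩
    · apply mem_normalizer_of_forall_conj_mem
      rintro _ ⟨w, hw, rfl⟩
      exact ⟨_, hbW w hw, hfBa w⟩
    · intro h
      apply hyw₁
      apply Subtype.ext
      rw [hfYa]
      have := (mem_centralizer_iff.mp h) w₁ ⟨w₁, hw₁, rfl⟩
      change (w₁ : G) * y = y * w₁ at this
      rw [← this]; group
    · intro h
      apply hbw₂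
      apply Subtype.ext
      rw [hfBa]
      have := (mem_centralizer_iff.mp h) w₂ ⟨w₂, hw₂, rfl⟩
      change (w₂ : G) * b = b * w₂ at this
      rw [← this]; group
  · rintro _ ⟨b, rfl⟩
    rw [← map_mul]
    exact (hρ1 _).mpr (hBsq b b.2)
  · exact Odd.of_dvd_nat hYodd (card_range_dvd fY)
  · rintro _ ⟨b, rfl⟩ _ ⟨y, rfl⟩
    obtain ⟨y', hy', h⟩ := hBY b b.2 y y.2
    refine ⟨⟨y', hy'⟩, ?_⟩
    change ρ _ = ρ _ * ρ _ * (ρ _)⁻¹
    rw [← map_inv, ← map_mul, ← map_mul, eq_comm]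
    exact (hρeq _ _).mpr h
  · obtain ⟨b, hb, y, hy, h⟩ := hne
    refine ⟨_, ⟨⟨b, hb⟩, rfl⟩, _, ⟨⟨y, hy⟩, rfl⟩, ?_⟩
    intro h2
    apply h
    change ρ _ * ρ _ * (ρ _)⁻¹ = ρ _ at h2
    rw [← map_inv, ← map_mul, ← map_mul] at h2
    exact (hρeq _ _).mp h2
  · intro B' hB' hidx
    rw [hfix B' hB', hfix _ le_rfl]
    have htop : ((fB.range.comap fB).map B.subtype : Subgroup G) = B := by
      have : fB.range.comap fB = ⊤ := by
        rw [eq_top_iff]
        intro x _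
        exact ⟨x, rfl⟩
      rw [this, ← MonoidHom.range_eq_map, range_subtype]
    rw [htop]
    set B'' : Subgroup G := (B'.comap fB).map B.subtype with hB''
    have hB''B : B'' ≤ B := map_subtype_le _
    have h1 : (B'.comap fB).index = 2 := by rw [index_comap, hidx]
    apply hbest B'' hB''B
    rw [relIndex, hB'', subgroupOf, comap_map_eq_self_of_injective B.subtype_injective, h1]

end Ambient

end Cfsg.Agent.Lib.Helper52FF6
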