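import Cfsg.Agent.Lib.LeadAutDefs
import Cfsg.Agent.Lib.LeadChevMisc
import Cfsg.Agent.Lib.Helper22ChevBruhat
import Cfsg.Agent.Lib.Helper23RG2

set_option autoImplicit false

namespace Cfsg.Agent.Lib.Helper53AutA8

open Subgroup Cfsg.Agent.Lib.Helper23Grp Cfsg.Agent.Lib.Helper23RG Cfsg.Agent.Lib.Helper23RG.RG
  Cfsg.Agent.Lib.Helper23Weyl Cfsg.Agent.Lib.LeadAutDefs

variable {𝔾 K R I : Type*} [Group 𝔾] [Field K] [Fintype R] [DecidableEq R] {S : RG 𝔾 K R I}

/-- A8 -/
theorem opp_simple (h : AData S) {n0 : 𝔾} (hn0 : n0 ∈ S.N) {π0 : Equiv.Perm R} (hM : S.Mon n0 π0)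
    (h0 : ∀ r, S.pos r → ¬ S.pos (π0 r)) :
    ∃ τ : Equiv.Perm I, ∀ i, π0 (S.neg (S.simple i)) = S.simple (τ i) := by
  classical
  obtain ⟨rf, pr, hW⟩ := h.hW
  have ok := h.ok
  obtain ⟨π, hπW, hπM⟩ := Mon_N' ok (rf := rf) (pr := pr) n0 hn0
  have hππ : π = π0 := Mon_unique ok h.hBV hπM hM
  subst hππ
  have key : ∀ i, ∃ j, π (S.neg (S.simple i)) = S.simple j := by
    intro i
    have hsW : reflPerm ok i ∈ (ws ok rf pr).WJ Set.univ := WS.s_mem_WJ (W := ws ok rf pr) (Set.mem_univ i)
    have hwW : π * reflPerm ok i * π⁻¹ ∈ (ws ok rf pr).WJ Set.univ :=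
      mul_mem (mul_mem hπW hsW) (inv_mem hπW)
    have hw1 : π * reflPerm ok i * π⁻¹ ≠ 1 := by
      intro h1
      have h2 : reflPerm ok i = 1 := by
        have := congrArg (fun z => π⁻¹ * z * π) h1
        simpa [mul_assoc] using this
      have h3 := congrArg (fun z : Equiv.Perm R => z (S.simple i)) h2
      simp only [reflPerm_apply, Equiv.Perm.coe_one, id_eq] at h3
      rw [ok.refl_simple] at h3
      have h4 := ok.pos_simple i
      rw [← h3, ok.pos_neg] at h4
      exact h4 (ok.pos_simple i)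
    obtain ⟨j, -, hj⟩ := WS.exists_descent hW hwW hw1
    have hj' : ¬ S.pos (π (S.refl i (π⁻¹ (S.simple j)))) := hj
    refine ⟨j, ?_⟩
    set r := π⁻¹ (S.simple j) with hr
    have hπr : π r = S.simple j := by rw [hr]; simp
    have hrneg : ¬ S.pos r := by
      intro hp
      apply h0 r hp
      rw [hπr]
      exact ok.pos_simple j
    have hsr : S.pos (S.refl i r) := by
      by_contra hn
      have h1 : S.pos (S.neg (S.refl i r)) := (ok.pos_neg _).2 hn
      have h2 := h0 _ h1
      rw [hM.1, ok.pos_neg] at h2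
      exact hj' (not_not.1 h2)
    have hnr : S.pos (S.neg r) := (ok.pos_neg _).2 hrneg
    have hnri : S.neg r = S.simple i := by
      by_contra hne
      have h1 := ok.refl_pos i _ hnr hne
      rw [ok.refl_neg, ok.pos_neg] at h1
      exact h1 hsr
    have hri : r = S.neg (S.simple i) := by rw [← hnri, ok.neg_neg]
    rw [← hri, hπr]
  choose τ hτ using key
  have hinj : Function.Injective τ := by
    intro i i' hii
    have h1 : π (S.neg (S.simple i)) = π (S.neg (S.simple i')) := by rw [hτ, hτ, hii]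
    have h2 := π.injective h1
    have h3 : S.simple i = S.simple i' := by
      rw [← ok.neg_neg (S.simple i), h2, ok.neg_neg]
    exact h.inj h3
  haveI : Finite I := Finite.of_injective S.simple h.inj
  exact ⟨Equiv.ofBijective τ (Finite.injective_iff_bijective.1 hinj), hτ⟩

end Cfsg.Agent.Lib.Helper53AutA8
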