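import Cfsg.Agent.Lib.LeadAutDefs
import Cfsg.Agent.Lib.LeadChevMisc
import Cfsg.Agent.Lib.Helper22ChevBruhat
import Cfsg.Agent.Lib.Helper23RG2

set_option autoImplicit false

namespace Cfsg.Agent.Lib.Helper53AutA9

open Subgroup Cfsg.Agent.Lib.Helper23Grp Cfsg.Agent.Lib.Helper23RG Cfsg.Agent.Lib.Helper23RG.RG
  Cfsg.Agent.Lib.Helper23Weyl Cfsg.Agent.Lib.LeadAutDefs

variable {𝔾 K R I : Type*} [Group 𝔾] [Field K] [Fintype R] [DecidableEq R] {S : RG 𝔾 K R I}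

theorem conj_mem_XS_iff {n : 𝔾} {π : Equiv.Perm R} (hM : S.Mon n π) {Ψ Ψ' : R → Prop}
    (hΨ : ∀ r, Ψ r ↔ Ψ' (π r)) (g : 𝔾) : n * g * n⁻¹ ∈ S.XS Ψ' ↔ g ∈ S.XS Ψ := by
  constructor
  · intro hg
    have h1 := hM.inv.conj_XS (Ψ := Ψ') (Ψ' := Ψ) (fun r hr => by
      rw [hΨ]; simpa using hr) _ hg
    have e : n⁻¹ * (n * g * n⁻¹) * n⁻¹⁻¹ = g := by group
    rwa [e] at h1
  · intro hg
    exact hM.conj_XS (fun r hr => (hΨ r).1 hr) g hg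

theorem conj_mem_X_iff {n : 𝔾} {π : Equiv.Perm R} (hM : S.Mon n π) (r : R) (g : 𝔾) :
    n * g * n⁻¹ ∈ S.X (π r) ↔ g ∈ S.X r :=
  conj_mem_XS_iff hM (Ψ := fun s => s = r) (Ψ' := fun s => s = π r)
    (fun s => π.injective.eq_iff.symm) g

/-- A9 (uses `neg_perm` and A8 as hypotheses) -/
theorem pos_perm (h : AData S)
    (hneg : ∀ θ : 𝔾 ≃* 𝔾, Nrm S θ →
      ∃ ρ : Equiv.Perm I, ∀ i g, θ g ∈ S.X (S.neg (S.simple (ρ i))) ↔ g ∈ S.X (S.neg (S.simple i)))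
    (hopp : ∀ n0 ∈ S.N, ∀ π0 : Equiv.Perm R, S.Mon n0 π0 → (∀ r, S.pos r → ¬ S.pos (π0 r)) →
      ∃ τ : Equiv.Perm I, ∀ i, π0 (S.neg (S.simple i)) = S.simple (τ i))
    {θ : 𝔾 ≃* 𝔾} (hθ : Nrm S θ) :
    ∃ ρ : Equiv.Perm I, ∀ i g, θ g ∈ S.X (S.simple (ρ i)) ↔ g ∈ S.X (S.simple i) := by
  have ok := h.ok
  obtain ⟨n0, hn0, π0, hM, h0⟩ := h.n0
  obtain ⟨τ, hτ⟩ := hopp n0 hn0 π0 hM h0
  have h0' : ∀ r, S.pos r ↔ ¬ S.pos (π0 r) := by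
    intro r
    refine ⟨h0 r, fun hr => ?_⟩
    by_contra hn
    have h1 := h0 _ ((ok.pos_neg r).2 hn)
    rw [hM.1, ok.pos_neg] at h1
    exact h1 hr
  have hUV : ∀ g, n0 * g * n0⁻¹ ∈ S.V ↔ g ∈ S.U :=
    conj_mem_XS_iff hM (Ψ := S.pos) (Ψ' := fun r => ¬ S.pos r) h0'
  have hVU : ∀ g, n0 * g * n0⁻¹ ∈ S.U ↔ g ∈ S.V :=
    conj_mem_XS_iff hM (Ψ := fun r => ¬ S.pos r) (Ψ' := S.pos) (fun r => by
      rw [h0' r, not_not])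
  let θ' : 𝔾 ≃* 𝔾 := ((MulAut.conj n0).trans θ).trans (MulAut.conj n0⁻¹)
  have hθ'a : ∀ g, θ' g = n0⁻¹ * θ (n0 * g * n0⁻¹) * n0 := by
    intro g
    simp [θ', MulAut.conj_apply]
  have hback : ∀ g, n0 * θ' g * n0⁻¹ = θ (n0 * g * n0⁻¹) := by
    intro g
    rw [hθ'a]; group
  have hθ' : Nrm S θ' := by
    constructor
    · intro g
      rw [← hUV, hback, hθ.2, hUV]
    · intro g
      rw [← hVU, hback, hθ.1, hVU]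
  obtain ⟨ρ', hρ'⟩ := hneg θ' hθ'
  refine ⟨τ * ρ' * τ⁻¹, ?_⟩
  intro i g
  obtain ⟨k, rfl⟩ : ∃ k, τ k = i := ⟨τ⁻¹ i, by simp⟩
  have e1 : (τ * ρ' * τ⁻¹) (τ k) = τ (ρ' k) := by simp
  have e2 : g = n0 * (n0⁻¹ * g * n0) * n0⁻¹ := by group
  rw [e1, ← hτ, ← hτ]
  conv_lhs => rw [e2, ← hback]
  conv_rhs => rw [e2]
  rw [conj_mem_X_iff hM, conj_mem_X_iff hM, hρ']

end Cfsg.Agent.Lib.Helper53AutA9
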