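import Mathlib
import Cfsg.Prelude.Def_GeometricClasses
import Cfsg.Agent.Lib.Helper76ImpDefs

set_option autoImplicit false

/-! Project 94 wave 3 (S5958), piece I-C1B. -/

namespace Cfsg.Agent.Lib.Helper53ImpC1B

open Module Cfsg.Geo Cfsg.Agent.Lib.Helper76ImpDefs
open scoped MatrixGroups

variable {F : Type*} [Field F] {n : ℕ}

/-- a linear automorphism of `F^n` as an element of `GL_n(F)`. -/
theorem exists_GL (e : (Fin n → F) ≃ₗ[F] (Fin n → F)) :
    ∃ g : GL (Fin n) F, Matrix.toLin' (g : Matrix (Fin n) (Fin n) F) = e.toLinearMap := by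
  refine ⟨⟨LinearMap.toMatrix' e.toLinearMap, LinearMap.toMatrix' e.symm.toLinearMap, ?_, ?_⟩, ?_⟩
  · rw [← LinearMap.toMatrix'_comp]
    simp
  · rw [← LinearMap.toMatrix'_comp]
    simp
  · exact Matrix.toLin'_toMatrix' _

/- piece I-C1B -/
theorem dec_trans (a t : ℕ) (D D' : Fin t → Submodule F (Fin n → F)) (hD : IsMDecomposition a D)
    (hD' : IsMDecomposition a D') :
    ∃ g : GL (Fin n) F, ∀ j, (D j).map (Matrix.toLin' (g : Matrix (Fin n) (Fin n) F)) = D' j := by
  classical
  have hI := DirectSum.isInternal_submodule_of_iSupIndep_of_iSup_eq_top hD.indep hD.iSup_eq_top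
  have hI' := DirectSum.isInternal_submodule_of_iSupIndep_of_iSup_eq_top hD'.indep hD'.iSup_eq_top
  let b : ∀ j, Basis (Fin a) F (D j) := fun j => finBasisOfFinrankEq F (D j) (hD.finrank_eq j)
  let b' : ∀ j, Basis (Fin a) F (D' j) := fun j => finBasisOfFinrankEq F (D' j) (hD'.finrank_eq j)
  let B := hI.collectedBasis b
  let B' := hI'.collectedBasis b'
  let e : (Fin n → F) ≃ₗ[F] (Fin n → F) := B.equiv B' (Equiv.refl _)
  have he : ∀ j k, e ((b j k : D j) : Fin n → F) = ((b' j k : D' j) : Fin n → F) := by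
    intro j k
    have h1 : B ⟨j, k⟩ = ((b j k : D j) : Fin n → F) := by
      simp [B, DirectSum.IsInternal.collectedBasis_coe]
    have h2 : B' ⟨j, k⟩ = ((b' j k : D' j) : Fin n → F) := by
      simp [B', DirectSum.IsInternal.collectedBasis_coe]
    rw [← h1, ← h2]
    simp [e]
  obtain ⟨g, hg⟩ := exists_GL e
  refine ⟨g, fun j => ?_⟩
  rw [hg]
  apply Submodule.eq_of_le_of_finrank_eq
  · rintro _ ⟨x, hx, rfl⟩
    have h1 := (b j).sum_repr ⟨x, hx⟩
    have h2 : x = ∑ k, (b j).repr ⟨x, hx⟩ k • ((b j k : D j) : Fin n → F) := by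
      have h3 := congrArg (D j).subtype h1
      rw [map_sum] at h3
      simp only [map_smul, Submodule.subtype_apply] at h3
      exact h3.symm
    rw [h2]
    simp only [LinearEquiv.coe_coe, map_sum, map_smul, he]
    exact Submodule.sum_mem _ fun k _ => Submodule.smul_mem _ _ (b' j k).2
  · rw [← (Submodule.equivMapOfInjective e.toLinearMap e.injective (D j)).finrank_eq,
      hD.finrank_eq, hD'.finrank_eq]

end Cfsg.Agent.Lib.Helper53ImpC1B
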