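import Mathlib
import Cfsg.Prelude.Def_GeometricClasses
import Cfsg.Agent.Lib.Helper99Blocks
import Cfsg.Agent.Lib.Helper76ImpDefs

set_option autoImplicit false

/-! Project 94 wave 3 (S5958), piece I-LABEL. -/

namespace Cfsg.Agent.Lib.Helper53ImpLABEL

open Module Cfsg.Geo Cfsg.Agent.Lib.Helper76ImpDefs Cfsg.Agent.Lib.Helper99Blocks

variable {F : Type*} [Field F] {n : ℕ}

/-- the rotation of `Fin r`. -/
theorem exists_rot (r : ℕ) (hr : 0 < r) : ∃ rot : Equiv.Perm (Fin r),
    ∀ j : Fin r, ((j : ℕ) + 1 < r → ((rot j : Fin r) : ℕ) = j + 1) ∧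
      ((j : ℕ) + 1 = r → ((rot j : Fin r) : ℕ) = 0) := by
  obtain ⟨m, rfl⟩ : ∃ m, r = m + 1 := ⟨r - 1, by omega⟩
  refine ⟨finRotate (m + 1), fun j => ⟨fun h => ?_, fun h => ?_⟩⟩
  · apply coe_finRotate_of_ne_last
    intro hj
    rw [hj] at h
    simp at h
  · have hj : j = Fin.last m := by
      apply Fin.ext
      simp only [Fin.val_last]
      omega
    rw [hj, finRotate_last]
    rfl

/- piece I-LABEL -/
theorem stab_of_mono (r : ℕ) (hr : 0 < r) (g : Module.End F (Fin n → F))
    (hinj : Function.Injective g) (z : F) (hg : g ^ r = z • 1) (s : ℕ) (v : Fin s → (Fin n → F))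
    (hli : LinearIndependent F (fun p : Fin s × Fin r => (g ^ (p.2 : ℕ)) (v p.1)))
    (hspan : Submodule.span F (Set.range fun p : Fin s × Fin r => (g ^ (p.2 : ℕ)) (v p.1)) = ⊤)
    (a t : ℕ) (ha : 1 ≤ a) (ht : 2 ≤ t) (hn : n = a * t) (hrt : r ∣ t) : Stab a t g := by
  classical
  obtain ⟨t', ht'⟩ := hrt
  have hsr : s * r = n := by
    have h1 := finrank_span_eq_card hli
    rw [hspan, finrank_top, Module.finrank_fin_fun] at h1
    rw [h1]
    simp
  have hs : s = t' * a := by
    apply Nat.eq_of_mul_eq_mul_right hr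
    rw [hsr, hn, ht']
    ring
  have ht2 : t' * r = t := by rw [ht', mul_comm]
  let e : Fin s ≃ Fin t' × Fin a := (finCongr hs).trans finProdFinEquiv.symm
  let e' : Fin t' × Fin r ≃ Fin t := finProdFinEquiv.trans (finCongr ht2)
  obtain ⟨rot, hrot⟩ := exists_rot r hr
  let γ : Fin s × Fin r → Fin t := fun p => e' ((e p.1).1, p.2)
  let σ : Equiv.Perm (Fin t) := e'.permCongr (Equiv.prodCongr (Equiv.refl (Fin t')) rot)
  set b : Fin s × Fin r → (Fin n → F) := fun p => (g ^ (p.2 : ℕ)) (v p.1) with hb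
  have hσγ : ∀ p : Fin s × Fin r, σ (γ p) = γ (p.1, rot p.2) := by
    intro p
    simp [σ, γ, Equiv.permCongr_apply]
  have hcard : ∀ j : Fin t, (Finset.univ.filter (fun i => γ i = j)).card = a := by
    intro j
    have h1 : Finset.univ.filter (fun i => γ i = j) =
        (Finset.univ : Finset (Fin a)).map
          ⟨fun x => (e.symm ((e'.symm j).1, x), (e'.symm j).2), by
            intro x y hxy
            have h2 := congrArg Prod.fst hxy
            have h3 := e.symm.injective h2
            exact congrArg Prod.snd h3⟩ := by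
      ext p
      simp only [Finset.mem_filter, Finset.mem_univ, true_and, Finset.mem_map]
      constructor
      · intro hp
        have h2 : ((e p.1).1, p.2) = e'.symm j := by rw [← hp]; simp [γ]
        refine ⟨(e p.1).2, ?_⟩
        rw [← h2]
        show (e.symm ((e p.1).1, (e p.1).2), p.2) = p
        simp
      · rintro ⟨x, rfl⟩
        show e' ((e (e.symm ((e'.symm j).1, x))).1, (e'.symm j).2) = j
        simp
    rw [h1, Finset.card_map, Finset.card_univ, Fintype.card_fin]
  refine ⟨blockSpan b γ, ⟨ht, ha, fun j => by rw [finrank_blockSpan hli, hcard],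
    iSupIndep_blockSpan hli γ, iSup_blockSpan hspan γ⟩, σ,
    fun j => map_blockSpan hli γ a hcard g hinj σ ?_ j⟩
  intro p
  rw [hσγ]
  have hgp : g (b p) = (g ^ ((p.2 : ℕ) + 1)) (v p.1) := by
    rw [pow_succ', Module.End.mul_apply]
  rcases Nat.lt_or_ge ((p.2 : ℕ) + 1) r with h | h
  · have h1 : g (b p) = b (p.1, rot p.2) := by
      rw [hgp, hb]
      simp only
      rw [(hrot p.2).1 h]
    rw [h1]
    exact mem_blockSpan b γ _
  · have h' : (p.2 : ℕ) + 1 = r := by have := p.2.2; omega
    have h1 : g (b p) = z • b (p.1, rot p.2) := by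
      rw [hgp, hb]
      simp only
      rw [(hrot p.2).2 h', h', hg]
      simp
    rw [h1]
    exact Submodule.smul_mem _ _ (mem_blockSpan b γ _)

end Cfsg.Agent.Lib.Helper53ImpLABEL
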