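import Mathlib
import Cfsg.Agent.Lib.Helper65CSDefs

set_option autoImplicit false

namespace Cfsg.Agent.Lib.Helper54CSB4

open Cfsg.Agent.Lib.Helper65CSDefs
open scoped commutatorElement

section abs
variable {P : Type*} [Group P] [Finite P] {p : ℕ}

theorem abs_b4 [hp : Fact p.Prime] (hP : IsPGroup p P) (A : Subgroup P)
    (hA : ∀ a ∈ A, ∀ b ∈ A, Commute a b) (hidx : A.index = p)
    (hcard : Nat.card A = p * Nat.card (A ⊓ Subgroup.center P : Subgroup P)) :
    Nat.card (commutator P) = p := by
  -- A is normal
  have hAn : A.Normal := by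
    apply Subgroup.normal_of_index_eq_minFac_card
    obtain ⟨k, hk⟩ := IsPGroup.iff_card.1 hP
    have hk0 : k ≠ 0 := by
      rintro rfl
      have h1 : A.index ∣ Nat.card P := A.index_dvd_card
      rw [hk, hidx, pow_zero] at h1
      exact hp.out.one_lt.ne' (Nat.dvd_one.1 h1)
    rw [hidx, hk, hp.out.pow_minFac hk0]
  -- an element outside A
  have hne : A ≠ ⊤ := by
    intro h
    rw [← Subgroup.index_eq_one, hidx] at h
    exact hp.out.one_lt.ne' h
  obtain ⟨t, htA⟩ : ∃ t : P, t ∉ A := by
    by_contra hcon
    push Not at hcon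
    exact hne (eq_top_iff.2 fun x _ => hcon x)
  -- generation
  have hgen : A ⊔ Subgroup.zpowers t = ⊤ := by
    have h1 : A ≤ A ⊔ Subgroup.zpowers t := le_sup_left
    have h2 := Subgroup.relIndex_mul_index h1
    rw [hidx] at h2
    have h3 : (A ⊔ Subgroup.zpowers t).index ∣ p := Dvd.intro_left _ h2
    rcases (Nat.dvd_prime hp.out).1 h3 with h | h
    · exact Subgroup.index_eq_one.1 h
    · exfalso
      rw [h] at h2
      have h4 : A.relIndex (A ⊔ Subgroup.zpowers t) = 1 := by
        have := hp.out.pos
        nlinarith [Nat.eq_of_mul_eq_mul_right this (by rw [h2, one_mul] :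
          A.relIndex (A ⊔ Subgroup.zpowers t) * p = 1 * p)]
      rw [Subgroup.relIndex_eq_one] at h4
      exact htA (h4 (le_sup_right (a := A) (Subgroup.mem_zpowers t)))
  have hconj : ∀ a ∈ A, t * a * t⁻¹ ∈ A := fun a ha => hAn.conj_mem a ha t
  have hconj' : ∀ a ∈ A, t⁻¹ * a * t ∈ A := fun a ha => by
    simpa using hAn.conj_mem a ha t⁻¹
  -- the homomorphism
  let φ : A →* P :=
    { toFun := fun a => (a : P)⁻¹ * (t * a * t⁻¹)
      map_one' := by simp
      map_mul' := by
        intro a b
        have h1 : Commute (b : P)⁻¹ ((a : P)⁻¹ * (t * a * t⁻¹)) :=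
          hA _ (A.inv_mem b.2) _ (A.mul_mem (A.inv_mem a.2) (hconj _ a.2))
        show ((a : P) * b)⁻¹ * (t * ((a : P) * b) * t⁻¹) = _
        calc ((a : P) * b)⁻¹ * (t * ((a : P) * b) * t⁻¹)
            = ((b : P)⁻¹ * ((a : P)⁻¹ * (t * a * t⁻¹))) * (t * b * t⁻¹) := by group
          _ = (((a : P)⁻¹ * (t * a * t⁻¹)) * (b : P)⁻¹) * (t * b * t⁻¹) := by rw [h1.eq]
          _ = _ := by group }
  have hφ : ∀ a : A, φ a = (a : P)⁻¹ * (t * a * t⁻¹) := fun _ => rfl
  have hφA : ∀ a : A, φ a ∈ A := fun a => A.mul_mem (A.inv_mem a.2) (hconj _ a.2)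
  set I : Subgroup P := φ.range with hI
  have hIA : I ≤ A := by
    rintro _ ⟨a, rfl⟩
    exact hφA a
  -- kernel
  have hker : φ.ker = (A ⊓ Subgroup.center P).subgroupOf A := by
    ext a
    rw [MonoidHom.mem_ker, Subgroup.mem_subgroupOf, Subgroup.mem_inf, hφ]
    constructor
    · intro h
      refine ⟨a.2, ?_⟩
      have hta : Commute t (a : P) := by
        have : (a : P) = t * a * t⁻¹ := by
          rw [inv_mul_eq_one] at h; exact h
        show t * a = a * t
        calc t * (a : P) = (t * a * t⁻¹) * t := by group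
          _ = a * t := by rw [← this]
      have hle : A ⊔ Subgroup.zpowers t ≤ Subgroup.centralizer {(a : P)} := by
        apply sup_le
        · intro b hb
          rw [Subgroup.mem_centralizer_singleton_iff]
          exact (hA _ hb _ a.2).eq
        · rw [Subgroup.zpowers_le, Subgroup.mem_centralizer_singleton_iff]
          exact hta.eq
      rw [hgen] at hle
      rw [Subgroup.mem_center_iff]
      intro g
      have := hle (Subgroup.mem_top g)
      rw [Subgroup.mem_centralizer_singleton_iff] at this
      exact this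
    · rintro ⟨-, h⟩
      rw [Subgroup.mem_center_iff] at h
      rw [h t]
      group
  have hcardI : Nat.card I = p := by
    have h1 := Subgroup.card_mul_index φ.ker
    rw [Subgroup.index_ker, hker,
      Nat.card_congr (Subgroup.subgroupOfEquivOfLe (inf_le_left : A ⊓ Subgroup.center P ≤ A)).toEquiv,
      hcard, mul_comm p] at h1
    exact Nat.eq_of_mul_eq_mul_left Nat.card_pos h1
  -- I is normal
  have hIn : I.Normal := by
    rw [← Subgroup.normalizer_eq_top_iff, eq_top_iff, ← hgen]
    apply sup_le
    · intro b hb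
      rw [Subgroup.mem_normalizer_iff]
      intro h
      constructor
      · intro hh
        have : b * h * b⁻¹ = h := by
          rw [(hA b hb h (hIA hh)).eq]; group
        rw [this]; exact hh
      · intro hh
        have hhA : h ∈ A := by
          have := hAn.conj_mem _ (hIA hh) b⁻¹
          simpa [mul_assoc] using this
        have : b * h * b⁻¹ = h := by
          rw [(hA b hb h hhA).eq]; group
        rw [← this]; exact hh
    · rw [Subgroup.zpowers_le, Subgroup.mem_normalizer_iff]
      intro h
      constructor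
      · rintro ⟨a, rfl⟩
        refine ⟨⟨t * a * t⁻¹, hconj _ a.2⟩, ?_⟩
        rw [hφ, hφ]
        group
      · rintro ⟨a, ha⟩
        refine ⟨⟨t⁻¹ * a * t, hconj' _ a.2⟩, ?_⟩
        rw [hφ] at ha ⊢
        have : h = t⁻¹ * (t * h * t⁻¹) * t := by group
        rw [this, ← ha]
        group
  -- the quotient is commutative
  have hle : commutator P ≤ I := by
    let π := QuotientGroup.mk' I
    have hat : ∀ a ∈ A, Commute (π a) (π t) := by
      intro a ha
      have h1 : π ((a : P)⁻¹ * (t * a * t⁻¹)) = 1 := by
        rw [QuotientGroup.mk'_apply, QuotientGroup.eq_one_iff]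
        exact ⟨⟨a, ha⟩, rfl⟩
      rw [map_mul, map_inv, inv_mul_eq_one, map_mul, map_mul, map_inv, eq_mul_inv_iff_mul_eq] at h1
      exact h1
    have hcen : A ⊔ Subgroup.zpowers t ≤ (Subgroup.center (P ⧸ I)).comap π := by
      apply sup_le
      · intro a ha
        rw [Subgroup.mem_comap, Subgroup.mem_center_iff]
        have hle : A ⊔ Subgroup.zpowers t ≤ (Subgroup.centralizer {π a}).comap π := by
          apply sup_le
          · intro b hb
            rw [Subgroup.mem_comap, Subgroup.mem_centralizer_singleton_iff]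
            exact ((hA _ hb _ ha).map π).eq
          · rw [Subgroup.zpowers_le, Subgroup.mem_comap, Subgroup.mem_centralizer_singleton_iff]
            exact (hat a ha).symm.eq
        rw [hgen] at hle
        intro g
        obtain ⟨g, rfl⟩ := QuotientGroup.mk'_surjective I g
        have := hle (Subgroup.mem_top g)
        rw [Subgroup.mem_comap, Subgroup.mem_centralizer_singleton_iff] at this
        exact this
      · rw [Subgroup.zpowers_le, Subgroup.mem_comap, Subgroup.mem_center_iff]
        have hle : A ⊔ Subgroup.zpowers t ≤ (Subgroup.centralizer {π t}).comap π := by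
          apply sup_le
          · intro b hb
            rw [Subgroup.mem_comap, Subgroup.mem_centralizer_singleton_iff]
            exact (hat b hb).eq
          · rw [Subgroup.zpowers_le, Subgroup.mem_comap, Subgroup.mem_centralizer_singleton_iff]
        rw [hgen] at hle
        intro g
        obtain ⟨g, rfl⟩ := QuotientGroup.mk'_surjective I g
        have := hle (Subgroup.mem_top g)
        rw [Subgroup.mem_comap, Subgroup.mem_centralizer_singleton_iff] at this
        exact this
    rw [hgen] at hcen
    rw [commutator_def, Subgroup.commutator_le]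
    intro x _ y _
    have hx := hcen (Subgroup.mem_top x)
    rw [Subgroup.mem_comap, Subgroup.mem_center_iff] at hx
    have : π ⁅x, y⁆ = 1 := by
      rw [map_commutatorElement, commutatorElement_eq_one_iff_mul_comm]
      exact (hx (π y)).symm
    rw [QuotientGroup.mk'_apply, QuotientGroup.eq_one_iff] at this
    exact this
  have hge : I ≤ commutator P := by
    rintro _ ⟨a, rfl⟩
    rw [hφ]
    have : (a : P)⁻¹ * (t * a * t⁻¹) = ⁅(a : P)⁻¹, t⁆ := by
      rw [commutatorElement_def]; group
    rw [this]
    exact Subgroup.commutator_mem_commutator (Subgroup.mem_top _) (Subgroup.mem_top _)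
  rw [le_antisymm hle hge, hcardI]

end abs

variable {G : Type*} [Group G] [Finite G] {p : ℕ}

theorem b4 [Fact p.Prime] : B4Stmt G p := by
  intro P A hP hAP hA hidx hcard
  apply abs_b4 hP (A.subgroupOf P)
  · intro a ha b hb
    have := hA _ ha _ hb
    exact Subtype.ext this.eq
  · exact hidx
  · rw [Nat.card_congr (Subgroup.subgroupOfEquivOfLe hAP).toEquiv, hcard]
    congr 1
    have : (A.subgroupOf P ⊓ Subgroup.center P : Subgroup P) =
        (A ⊓ Subgroup.centralizer (P : Set G)).subgroupOf P := by
      ext x
      rw [Subgroup.mem_inf, Subgroup.mem_subgroupOf, Subgroup.mem_subgroupOf, Subgroup.mem_inf,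
        Subgroup.mem_center_iff, Subgroup.mem_centralizer_iff]
      constructor
      · rintro ⟨h1, h2⟩
        refine ⟨h1, fun g hg => ?_⟩
        exact congrArg Subtype.val (h2 ⟨g, hg⟩)
      · rintro ⟨h1, h2⟩
        refine ⟨h1, fun g => ?_⟩
        exact Subtype.ext (h2 g g.2)
    rw [this]
    exact (Nat.card_congr (Subgroup.subgroupOfEquivOfLe
      (inf_le_left.trans hAP : A ⊓ Subgroup.centralizer (P : Set G) ≤ P)).toEquiv).symm

end Cfsg.Agent.Lib.Helper54CSB4
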