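import Cfsg.Agent.Lib.Helper81KulDefs

set_option autoImplicit false
set_option linter.unusedVariables false
set_option linter.unusedSectionVars false

namespace Cfsg.Agent.Lib.Helper54KulCODIM

open Cfsg.Agent.Lib.Helper81KulDefs

variable {k : Type*} [Field k] {R : Type*} [Ring R] [Algebra k R] [Module.Finite k R]

theorem mul_mem' {i a b : R} (ha : a ∈ Cor (k := k) i) (hb : b ∈ Cor (k := k) i) :
    a * b ∈ Cor (k := k) i :=
  ⟨by rw [← mul_assoc, ha.1], by rw [mul_assoc, hb.2]⟩

theorem codim_le {i e : R} (hJC : Jc (k := k) i ≤ Cor i)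
    (hC : Cor (k := k) i ≤ Submodule.span k {i} ⊔ Jc i) (hi : i * i = i)
    (hext : ∀ f : R →ₗ[k] k,
      (∀ a ∈ Cor (k := k) i, ∀ b ∈ Cor (k := k) i, f (a * b) = f (b * a)) →
      ∃ F : R →ₗ[k] k, (∀ a b, F (a * b) = F (b * a)) ∧ (∀ a, F (e * a) = F a) ∧
        ∀ a ∈ Cor (k := k) i, F a = f a)
    (z : ℕ) (hT : ∀ (n : ℕ) (F : Fin n → (R →ₗ[k] k)), (∀ j a b, F j (a * b) = F j (b * a)) →
      (∀ j a, F j (e * a) = F j a) → LinearIndependent k F → n ≤ z) :
    Module.finrank k (Cor (k := k) i) ≤ Module.finrank k (Kc (Jc (k := k) i)) + z := by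
  obtain ⟨C, hCdef⟩ : ∃ C, C = Cor (k := k) i := ⟨_, rfl⟩
  obtain ⟨K, hKdef⟩ : ∃ K, K = Kc (Jc (k := k) i) := ⟨_, rfl⟩
  have hKC : K ≤ C := by
    rw [hKdef, hCdef]
    unfold Kc
    rw [Submodule.span_le]
    rintro _ ⟨a, ha, b, hb, rfl⟩
    exact (Cor i).sub_mem (mul_mem' (hJC ha) (hJC hb)) (mul_mem' (hJC hb) (hJC ha))
  have hcomm : ∀ a ∈ C, ∀ b ∈ C, a * b - b * a ∈ K := by
    intro a ha b hb
    rw [hCdef] at ha hb
    obtain ⟨x, hx, u, hu, rfl⟩ := Submodule.mem_sup.1 (hC ha)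
    obtain ⟨y, hy, v, hv, rfl⟩ := Submodule.mem_sup.1 (hC hb)
    obtain ⟨c, rfl⟩ := Submodule.mem_span_singleton.1 hx
    obtain ⟨d, rfl⟩ := Submodule.mem_span_singleton.1 hy
    have hu1 := (hJC hu).1
    have hu2 := (hJC hu).2
    have hv1 := (hJC hv).1
    have hv2 := (hJC hv).2
    have : (c • i + u) * (d • i + v) - (d • i + v) * (c • i + u) = u * v - v * u := by
      simp only [add_mul, mul_add, smul_mul_assoc, mul_smul_comm, hu1, hu2, hv1, hv2, smul_add]
      rw [smul_comm c d]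
      abel
    rw [this, hKdef]
    exact Submodule.subset_span ⟨u, hu, v, hv, rfl⟩
  rw [← hCdef, ← hKdef]
  rw [← hCdef] at hext
  let φ : C →ₗ[k] R ⧸ K := K.mkQ.comp C.subtype
  have hrk := LinearMap.finrank_range_add_finrank_ker φ
  have hker : Module.finrank k (LinearMap.ker φ) = Module.finrank k K := by
    have : LinearMap.ker φ = K.comap C.subtype := by
      rw [LinearMap.ker_comp, Submodule.ker_mkQ]
    rw [this]
    exact (Submodule.comapSubtypeEquivOfLe hKC).finrank_eq
  let b := Module.finBasis k (LinearMap.range φ)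
  have hlift : ∀ j, ∃ a : C, φ a = (b j : R ⧸ K) := fun j => (b j).2
  choose a ha using hlift
  have hg : ∀ j, ∃ g : (R ⧸ K) →ₗ[k] k, g.comp (LinearMap.range φ).subtype = b.coord j :=
    fun j => LinearMap.exists_extend (b.coord j)
  choose g hg using hg
  have hfa : ∀ j l, (g j).comp K.mkQ (a l : R) = if j = l then 1 else 0 := by
    intro j l
    have h1 : K.mkQ (a l : R) = (b l : R ⧸ K) := ha l
    have h2 := LinearMap.congr_fun (hg j) (b l)
    rw [LinearMap.comp_apply, h1]
    rw [LinearMap.comp_apply, Submodule.subtype_apply] at h2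
    rw [h2, Module.Basis.coord_apply, Module.Basis.repr_self, Finsupp.single_apply]
    simp only [eq_comm]
  have hF : ∀ j, ∃ F : R →ₗ[k] k, (∀ a b, F (a * b) = F (b * a)) ∧ (∀ a, F (e * a) = F a) ∧
        ∀ a ∈ C, F a = (g j).comp K.mkQ a := by
    intro j
    apply hext
    intro x hx y hy
    rw [← sub_eq_zero, ← map_sub, LinearMap.comp_apply]
    have : K.mkQ (x * y - y * x) = 0 := by
      rw [Submodule.mkQ_apply, Submodule.Quotient.mk_eq_zero]
      exact hcomm x hx y hy
    rw [this, map_zero]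
  choose F hF1 hF2 hF3 using hF
  have hli : LinearIndependent k F := by
    rw [Fintype.linearIndependent_iff]
    intro c hc l
    have h1 := LinearMap.congr_fun hc (a l : R)
    rw [LinearMap.sum_apply, LinearMap.zero_apply] at h1
    simp only [LinearMap.smul_apply, hF3 _ _ (a l).2, hfa, smul_eq_mul, mul_ite, mul_one,
      mul_zero, Finset.sum_ite_eq', Finset.mem_univ, if_true] at h1
    exact h1
  have := hT _ F hF1 hF2 hli
  omega

end Cfsg.Agent.Lib.Helper54KulCODIM
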