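import Mathlib

set_option autoImplicit false

namespace Cfsg.Agent.Lib.Helper54MilA

open Subgroup

/-- fibrewise divisibility -/
theorem dvd_card_of_fibres {X Y : Type*} [Finite X] [Finite Y] (f : X → Y) (d : ℕ)
    (h : ∀ y, d ∣ Nat.card {x // f x = y}) : d ∣ Nat.card X := by
  classical
  have := Fintype.ofFinite Y
  rw [← Nat.card_congr (Equiv.sigmaFiberEquiv f), Nat.card_sigma]
  exact Finset.dvd_sum fun y _ => h y

/-- number of generators of a cyclic subgroup -/
theorem card_gen {G : Type*} [Group G] (U : Subgroup G) [Finite U] (hU : IsCyclic U) :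
    Nat.card {x : G // zpowers x = U} = Nat.totient (Nat.card U) := by
  classical
  have := Fintype.ofFinite U
  have h1 := IsCyclic.card_orderOf_eq_totient (α := U) (d := Fintype.card U) dvd_rfl
  rw [Nat.card_eq_fintype_card (α := U), ← h1, ← Fintype.card_subtype, ← Nat.card_eq_fintype_card]
  refine Nat.card_congr ⟨fun x => ⟨⟨x.1, by
    have := mem_zpowers x.1; rw [x.2] at this; exact this⟩, ?_⟩, fun a => ⟨a.1.1, ?_⟩, ?_, ?_⟩
  · rw [Subgroup.orderOf_mk, ← Nat.card_eq_fintype_card, ← Nat.card_zpowers, x.2]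
  · have h2 : zpowers (a.1 : G) ≤ U := by rw [zpowers_le]; exact a.1.2
    refine Subgroup.eq_of_le_of_card_ge h2 ?_
    rw [Nat.card_zpowers, Subgroup.orderOf_coe, a.2, Nat.card_eq_fintype_card]
  · intro x; rfl
  · intro a; rfl

/-- counting pairs through the cyclic subgroup generated by the first coordinate -/
theorem card_pairs {G W : Type*} [Group G] [Finite G] [Finite W] (n : ℕ)
    (Y : Set (Subgroup G × W)) (hY : ∀ y ∈ Y, IsCyclic y.1 ∧ Nat.card y.1 = n) :
    Nat.card {x : G × W // (zpowers x.1, x.2) ∈ Y} = Nat.totient n * Nat.card Y := by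
  classical
  have := Fintype.ofFinite Y
  let f : {x : G × W // (zpowers x.1, x.2) ∈ Y} → Y := fun x => ⟨_, x.2⟩
  rw [← Nat.card_congr (Equiv.sigmaFiberEquiv f), Nat.card_sigma]
  have h1 : ∀ y : Y, Nat.card {x // f x = y} = Nat.totient n := by
    intro y
    rw [← (hY y.1 y.2).2, ← card_gen y.1.1 (hY y.1 y.2).1]
    refine Nat.card_congr ⟨fun x => ⟨x.1.1.1, ?_⟩, fun u => ⟨⟨(u.1, y.1.2), ?_⟩, ?_⟩, ?_, ?_⟩
    · have := congrArg (fun z : Y => z.1.1) x.2
      exact this
    · show (zpowers u.1, y.1.2) ∈ Y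
      rw [u.2]; exact y.2
    · apply Subtype.ext
      show (zpowers u.1, y.1.2) = y.1
      rw [u.2]
    · intro x
      apply Subtype.ext
      apply Subtype.ext
      have := congrArg (fun z : Y => z.1.2) x.2
      exact Prod.ext rfl this.symm
    · intro u; rfl
  rw [Finset.sum_congr rfl fun y _ => h1 y, Finset.sum_const, Finset.card_univ, smul_eq_mul,
    Nat.card_eq_fintype_card, mul_comm]

/-- an invariant set without fixed points under a `p`-group has cardinality divisible by `p` -/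
theorem dvd_card_of_no_fixed {p : ℕ} [Fact p.Prime] {Q Ω : Type*} [Group Q] [MulAction Q Ω]
    [Finite Ω] (hQ : IsPGroup p Q) (S : Set Ω) (hinv : ∀ g : Q, ∀ x ∈ S, g • x ∈ S)
    (hnf : ∀ x ∈ S, ∃ g : Q, g • x ≠ x) : p ∣ Nat.card S := by
  classical
  let A : SubMulAction Q Ω := ⟨S, fun g x hx => hinv g x hx⟩
  have h1 := hQ.card_modEq_card_fixedPoints A
  have h2 : IsEmpty (MulAction.fixedPoints Q A) := by
    constructor
    rintro ⟨x, hx⟩
    obtain ⟨g, hg⟩ := hnf x.1 x.2
    exact hg (congrArg Subtype.val (hx g))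
  rw [Nat.card_of_isEmpty (α := MulAction.fixedPoints Q A)] at h1
  exact (Nat.modEq_zero_iff_dvd.1 h1)

end Cfsg.Agent.Lib.Helper54MilA
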