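import Mathlib
import Cfsg.Agent.Lib.Helper3RankTwo
import Cfsg.Agent.Lib.Helper89RkLine
import Cfsg.Agent.Lib.Helper54MilA

set_option autoImplicit false

namespace Cfsg.Agent.Lib.Helper54MilB

open Subgroup Cfsg.Agent.Lib.Helper54MilA
open scoped commutatorElement

variable {R : Type*} [Group R] [Finite R] {p : ℕ} [hp : Fact p.Prime]

/-- multiplying by an element of a normal elementary abelian subgroup of order `p ^ 2` does not
change `p`-th powers (`p` odd) -/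
theorem mul_pow_eq (hp2 : p ≠ 2) (hR : IsPGroup p R) (E : Subgroup R) (hEn : E.Normal)
    (hE : Cfsg.IsElementaryAbelian p E) (hcard : Nat.card E = p ^ 2) (y e : R) (he : e ∈ E) :
    (y * e) ^ p = y ^ p := by
  have hT : IsPGroup p (⊤ : Subgroup R) := hR.to_subgroup _
  obtain ⟨L, hLE, hLc, hLcen, hL⟩ := Cfsg.Agent.Lib.Helper89Rk.exists_line (T := ⊤) (W := E) hT le_top
    (fun t _ w hw => hEn.conj_mem w hw t) hcard
  have hc : ⁅e, y⁆ ∈ L := by
    have := hL y (mem_top y) e⁻¹ (E.inv_mem he)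
    rw [inv_inv] at this
    rw [commutatorElement_def]
    simpa [mul_assoc] using this
  have hcomm : ∀ t : R, Commute ⁅e, y⁆ t := by
    intro t
    have := hLcen t (mem_top t) _ hc
    show ⁅e, y⁆ * t = t * ⁅e, y⁆
    conv_lhs => rw [← this]
    group
  rw [Cfsg.Agent.Lib.Helper3Class2.mul_pow_prime_class2 hp.out hp2 y e (hcomm y) (hcomm e)
    (hE.2 _ (hLE hc)), hE.2 e he, mul_one]

omit [Finite R] in
theorem orderOf_eq_mul (hR : IsPGroup p R) (x : R) (hx : x ^ p ≠ 1) :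
    orderOf x = p * orderOf (x ^ p) := by
  obtain ⟨k, hk⟩ := hR x
  have h1 : p ∣ orderOf x := by
    obtain ⟨j, _, hj⟩ := (Nat.dvd_prime_pow hp.out).1 (orderOf_dvd_of_pow_eq_one hk)
    rcases Nat.eq_zero_or_pos j with rfl | hj0
    · rw [pow_zero, orderOf_eq_one_iff] at hj
      exact absurd (by rw [hj, one_pow]) hx
    · rw [hj]; exact dvd_pow_self p hj0.ne'
  rw [orderOf_pow_of_dvd hp.out.ne_zero h1, Nat.mul_div_cancel' h1]

/-- if the images of `x`, `x₀` generate the same subgroup modulo `E` then the `p`-th powers generate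
the same subgroup -/
theorem pow_mem_zpowers (hp2 : p ≠ 2) (hR : IsPGroup p R) (E : Subgroup R) [hEn : E.Normal]
    (hE : Cfsg.IsElementaryAbelian p E) (hcard : Nat.card E = p ^ 2) (x x₀ : R)
    (h : (x : R ⧸ E) ∈ zpowers (x₀ : R ⧸ E)) : x ^ p ∈ zpowers (x₀ ^ p) := by
  obtain ⟨k, hk⟩ := mem_zpowers_iff.1 h
  have h1 : (x₀ ^ k)⁻¹ * x ∈ E := by
    rw [← QuotientGroup.eq, QuotientGroup.mk_zpow]; exact hk
  have h2 : x = x₀ ^ k * ((x₀ ^ k)⁻¹ * x) := by group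
  rw [h2, mul_pow_eq hp2 hR E hEn hE hcard _ _ h1, mem_zpowers_iff]
  refine ⟨k, ?_⟩
  rw [← zpow_natCast, ← zpow_natCast, ← zpow_mul, ← zpow_mul, mul_comm]

theorem orderOf_eq_of_zpowers_eq (hp2 : p ≠ 2) (hR : IsPGroup p R) (E : Subgroup R) [hEn : E.Normal]
    (hE : Cfsg.IsElementaryAbelian p E) (hcard : Nat.card E = p ^ 2) (x x₀ : R)
    (h : zpowers (x : R ⧸ E) = zpowers (x₀ : R ⧸ E)) (h0 : x₀ ^ p ≠ 1) :
    orderOf x = orderOf x₀ := by
  have h1 : zpowers (x ^ p) = zpowers (x₀ ^ p) := by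
    apply le_antisymm
    · rw [zpowers_le]
      exact pow_mem_zpowers hp2 hR E hE hcard x x₀ (h ▸ mem_zpowers _)
    · rw [zpowers_le]
      exact pow_mem_zpowers hp2 hR E hE hcard x₀ x (h ▸ mem_zpowers _)
  have h2 : orderOf (x ^ p) = orderOf (x₀ ^ p) := by
    rw [← Nat.card_zpowers, ← Nat.card_zpowers, h1]
  have h3 : x ^ p ≠ 1 := by
    intro h4
    rw [h4, orderOf_one] at h2
    exact h0 (orderOf_eq_one_iff.1 h2.symm)
  rw [orderOf_eq_mul hR x h3, orderOf_eq_mul hR x₀ h0, h2]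

/-- **Miller**: in a noncyclic `p`-group, `p` odd, the number of elements of order `p ^ s`, `s > 1`,
is divisible by `p ^ s`. -/
theorem dvd_card_orderOf (hp2 : p ≠ 2) (hR : IsPGroup p R) (hnc : ¬ IsCyclic R) (s : ℕ) (hs : 1 < s) :
    p ^ s ∣ Nat.card {x : R // orderOf x = p ^ s} := by
  obtain ⟨E, hEn, hE, hcard⟩ := Cfsg.Agent.Lib.Helper3RankTwo.main hp2 (Nat.card R) R le_rfl hR hnc
  refine dvd_card_of_fibres (fun x : {x : R // orderOf x = p ^ s} => zpowers (x.1 : R ⧸ E)) _ ?_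
  intro C
  rcases isEmpty_or_nonempty {x : {x : R // orderOf x = p ^ s} // zpowers (x.1 : R ⧸ E) = C} with
    hemp | ⟨⟨⟨x₀, hx₀⟩, hx₀C⟩⟩
  · rw [Nat.card_of_isEmpty]; exact dvd_zero _
  have hx₀C' : zpowers (x₀ : R ⧸ E) = C := hx₀C
  have h0 : x₀ ^ p ≠ 1 := by
    intro h
    have h1 := orderOf_dvd_of_pow_eq_one h
    rw [hx₀] at h1
    have h2 := (Nat.pow_dvd_pow_iff_le_right hp.out.one_lt).1 (by simpa using h1 : p ^ s ∣ p ^ 1)
    omega
  have e1 : {x : {x : R // orderOf x = p ^ s} // zpowers (x.1 : R ⧸ E) = C} ≃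
      ((QuotientGroup.mk : R → R ⧸ E) ⁻¹' {q : R ⧸ E | zpowers q = C}) :=
    ⟨fun x => ⟨x.1.1, x.2⟩, fun x => ⟨⟨x.1, by
      rw [← hx₀]
      exact orderOf_eq_of_zpowers_eq hp2 hR E hE hcard x.1 x₀ (x.2.trans hx₀C'.symm) h0⟩, x.2⟩,
      fun x => rfl, fun x => rfl⟩
  rw [Nat.card_congr e1, Nat.card_congr (QuotientGroup.preimageMkEquivSubgroupProdSet _ _),
    Nat.card_prod, hcard]
  have h3 : Nat.card {q : R ⧸ E | zpowers q = C} = Nat.totient (Nat.card C) :=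
    card_gen C (hx₀C' ▸ inferInstance)
  rw [h3]
  have h4 : p ^ (s - 1) ∣ Nat.card C := by
    rw [← hx₀C', Nat.card_zpowers]
    have h5 : x₀ ^ (orderOf (x₀ : R ⧸ E)) ∈ E := by
      rw [← QuotientGroup.eq_one_iff, QuotientGroup.mk_pow, pow_orderOf_eq_one]
    have h6 := hE.2 _ h5
    rw [← pow_mul] at h6
    have h7 := orderOf_dvd_of_pow_eq_one h6
    rw [hx₀, show s = (s - 1) + 1 by omega, pow_succ] at h7
    exact Nat.dvd_of_mul_dvd_mul_right hp.out.pos h7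
  have h8 := Nat.totient_dvd_of_dvd h4
  rw [Nat.totient_prime_pow hp.out (by omega : 0 < s - 1)] at h8
  have h9 : p ^ (s - 2) ∣ Nat.totient (Nat.card C) := by
    rw [show s - 1 - 1 = s - 2 by omega] at h8
    exact (Dvd.intro _ rfl).trans h8
  rw [show s = 2 + (s - 2) by omega, pow_add]
  exact Nat.mul_dvd_mul_left _ h9

end Cfsg.Agent.Lib.Helper54MilB
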