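import Mathlib

set_option autoImplicit false

namespace Cfsg.Agent.Lib.Helper54MilC

open Subgroup

/-- elements of order `a * b`, `a`, `b` coprime, correspond to commuting pairs of elements of orders
`a` and `b`. -/
theorem card_order_mul {G : Type*} [Group G] (a b : ℕ) (ha : 0 < a) (hb : 0 < b)
    (hab : a.Coprime b) :
    Nat.card {g : G // orderOf g = a * b} =
      Nat.card {x : G × G // orderOf x.1 = a ∧ orderOf x.2 = b ∧ Commute x.1 x.2} := by
  obtain ⟨e₁, h11, h12⟩ := Nat.chineseRemainder hab 1 0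
  obtain ⟨e₂, h21, h22⟩ := Nat.chineseRemainder hab 0 1
  have hsum : e₁ + e₂ ≡ 1 [MOD a * b] := by
    rw [← Nat.modEq_and_modEq_iff_modEq_mul hab]
    exact ⟨by simpa using h11.add h21, by simpa using h12.add h22⟩
  have hb1 : b ∣ e₁ := (Nat.modEq_zero_iff_dvd).1 h12
  have ha2 : a ∣ e₂ := (Nat.modEq_zero_iff_dvd).1 h21
  have key : ∀ g : G, orderOf g = a * b → orderOf (g ^ e₁) = a ∧ orderOf (g ^ e₂) = b := by
    intro g hg
    have hu : orderOf (g ^ e₁) ∣ a := by
      apply orderOf_dvd_of_pow_eq_one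
      rw [← pow_mul]
      apply (orderOf_dvd_iff_pow_eq_one).1
      rw [hg, mul_comm a b]
      exact Nat.mul_dvd_mul_right hb1 a
    have hw : orderOf (g ^ e₂) ∣ b := by
      apply orderOf_dvd_of_pow_eq_one
      rw [← pow_mul]
      apply (orderOf_dvd_iff_pow_eq_one).1
      rw [hg]
      exact Nat.mul_dvd_mul_right ha2 b
    have hc : Commute (g ^ e₁) (g ^ e₂) := (Commute.refl g).pow_pow _ _
    have hg2 : g ^ e₁ * g ^ e₂ = g := by
      rw [← pow_add]
      conv_rhs => rw [← pow_one g]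
      rw [pow_eq_pow_iff_modEq, hg]
      exact hsum
    have h3 : orderOf (g ^ e₁) * orderOf (g ^ e₂) = a * b := by
      rw [← hc.orderOf_mul_eq_mul_orderOf_of_coprime (Nat.Coprime.of_dvd hu hw hab), hg2, hg]
    have h4 := Nat.le_of_dvd ha hu
    have h5 := Nat.le_of_dvd hb hw
    constructor
    · by_contra hne
      have h6 : orderOf (g ^ e₁) < a := lt_of_le_of_ne h4 hne
      have : orderOf (g ^ e₁) * orderOf (g ^ e₂) < a * b :=
        Nat.mul_lt_mul_of_lt_of_le h6 h5 hb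
      omega
    · by_contra hne
      have h6 : orderOf (g ^ e₂) < b := lt_of_le_of_ne h5 hne
      have : orderOf (g ^ e₁) * orderOf (g ^ e₂) < a * b :=
        Nat.mul_lt_mul_of_le_of_lt h4 h6 ha
      omega
  refine Nat.card_congr ⟨fun g => ⟨(g.1 ^ e₁, g.1 ^ e₂), (key g.1 g.2).1, (key g.1 g.2).2,
    (Commute.refl g.1).pow_pow _ _⟩, fun x => ⟨x.1.1 * x.1.2, ?_⟩, ?_, ?_⟩
  · obtain ⟨⟨u, w⟩, h1, h2, h3⟩ := x
    simp only at h1 h2 h3 ⊢
    rw [h3.orderOf_mul_eq_mul_orderOf_of_coprime (by rw [h1, h2]; exact hab), h1, h2]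
  · intro g
    apply Subtype.ext
    show g.1 ^ e₁ * g.1 ^ e₂ = g.1
    rw [← pow_add]
    conv_rhs => rw [← pow_one g.1]
    rw [pow_eq_pow_iff_modEq, g.2]
    exact hsum
  · rintro ⟨⟨u, w⟩, h1, h2, h3⟩
    apply Subtype.ext
    simp only at h1 h2 h3
    show ((u * w) ^ e₁, (u * w) ^ e₂) = (u, w)
    have q1 : u ^ e₁ = u := by
      conv_rhs => rw [← pow_one u]
      rw [pow_eq_pow_iff_modEq, h1]; exact h11
    have q2 : w ^ e₁ = 1 := by
      rw [← orderOf_dvd_iff_pow_eq_one, h2]; exact hb1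
    have q3 : u ^ e₂ = 1 := by
      rw [← orderOf_dvd_iff_pow_eq_one, h1]; exact ha2
    have q4 : w ^ e₂ = w := by
      conv_rhs => rw [← pow_one w]
      rw [pow_eq_pow_iff_modEq, h2]; exact h22
    rw [h3.mul_pow, h3.mul_pow, q1, q2, q3, q4, mul_one, one_mul]

end Cfsg.Agent.Lib.Helper54MilC
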