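import Mathlib
import Cfsg.Agent.Lib.Helper54MilA
import Cfsg.Agent.Lib.Helper54MilB
import Cfsg.Agent.Lib.Helper54MilC

set_option autoImplicit false

namespace Cfsg.Agent.Lib.Helper54MilD

open Subgroup Cfsg.Agent.Lib.Helper54MilA Cfsg.Agent.Lib.Helper54MilB Cfsg.Agent.Lib.Helper54MilC
open scoped Pointwise

variable {G : Type*} [Group G]

/-- pairs (cyclic subgroup of order `n`, element of order `m` centralizing it) -/
def pairs (G : Type*) [Group G] (n m : ℕ) : Set (Subgroup G × G) :=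
  {y | IsCyclic y.1 ∧ Nat.card y.1 = n ∧ orderOf y.2 = m ∧ ∀ u ∈ y.1, Commute u y.2}

/-- pairs inside `P` and its centralizer -/
def inner (P : Subgroup G) : Set (Subgroup G × G) :=
  {y | y.1 ≤ P ∧ ∀ h ∈ P, Commute h y.2}

/-- conjugation action of `P` on pairs -/
@[reducible] noncomputable def act (P : Subgroup G) : MulAction P (Subgroup G × G) :=
  MulAction.compHom (Subgroup G × G) ((MulAut.conj : G →* MulAut G).comp P.subtype)

theorem act_def (P : Subgroup G) (g : P) (y : Subgroup G × G) :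
    (act P).smul g y = (MulAut.conj (g : G) • y.1, (g : G) * y.2 * (g : G)⁻¹) := rfl

theorem pairs_inv (n m : ℕ) (g : G) (y : Subgroup G × G) (hy : y ∈ pairs G n m) :
    (MulAut.conj g • y.1, g * y.2 * g⁻¹) ∈ pairs G n m := by
  obtain ⟨h1, h2, h3, h4⟩ := hy
  refine ⟨?_, ?_, ?_, ?_⟩
  · exact (Subgroup.equivSMul (MulAut.conj g) y.1).isCyclic.1 h1
  · exact (Nat.card_congr (Subgroup.equivSMul (MulAut.conj g) y.1).toEquiv).symm.trans h2
  · exact ((MulAut.conj g).orderOf_eq y.2).trans h3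
  · intro u hu
    obtain ⟨v, hv, rfl⟩ := (Subgroup.mem_smul_pointwise_iff_exists _ _ _).1 hu
    exact (h4 v hv).map (MulAut.conj g)

theorem inner_inv (P : Subgroup G) (g : G) (hg : g ∈ P) (y : Subgroup G × G) (hy : y ∈ inner P) :
    (MulAut.conj g • y.1, g * y.2 * g⁻¹) ∈ inner P := by
  obtain ⟨h1, h2⟩ := hy
  refine ⟨?_, ?_⟩
  · exact Subgroup.conj_smul_le_of_le h1 ⟨g, hg⟩
  · intro h hh
    have : g * y.2 * g⁻¹ = y.2 := by rw [(h2 g hg).eq, mul_inv_cancel_right]
    show Commute h (g * y.2 * g⁻¹)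
    rw [this]; exact h2 h hh

theorem dvd_card_diff [Finite G] {p : ℕ} [hp : Fact p.Prime] (P : Sylow p G) (s m : ℕ) :
    p ∣ Nat.card (pairs G (p ^ s) m \ inner (P : Subgroup G) : Set (Subgroup G × G)) := by
  let _ := act (P : Subgroup G)
  refine dvd_card_of_no_fixed (Q := (P : Subgroup G)) P.2 _ ?_ ?_
  · rintro g y ⟨hy1, hy2⟩
    refine ⟨pairs_inv _ _ g.1 y hy1, fun h => hy2 ?_⟩
    have h2 := inner_inv (P : Subgroup G) (g.1)⁻¹ (inv_mem g.2) _ h
    have h3 : (g⁻¹ : (P : Subgroup G)) • (g • y) = y := inv_smul_smul g y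
    rw [← h3]
    exact h2
  · rintro y ⟨hy1, hy2⟩
    by_contra hcon
    push Not at hcon
    apply hy2
    have hU : ∀ g ∈ (P : Subgroup G), MulAut.conj g • y.1 = y.1 := fun g hg =>
      congrArg Prod.fst (hcon ⟨g, hg⟩)
    have hw : ∀ g ∈ (P : Subgroup G), g * y.2 * g⁻¹ = y.2 := fun g hg =>
      congrArg Prod.snd (hcon ⟨g, hg⟩)
    refine ⟨?_, ?_⟩
    · have hUp : IsPGroup p y.1 := IsPGroup.of_card hy1.2.1
      have hn : (P : Subgroup G) ≤ normalizer (y.1 : Set G) := by
        intro g hg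
        rw [Subgroup.mem_normalizer_iff]
        intro u
        constructor
        · intro hu
          have := Subgroup.smul_mem_pointwise_smul (a := MulAut.conj g) u y.1 hu
          rw [hU g hg] at this
          exact this
        · intro hu
          rw [← hU g hg] at hu
          exact (Subgroup.smul_mem_pointwise_smul_iff (a := MulAut.conj g)).1 hu
      have hsup := IsPGroup.to_sup_of_normal_left' hUp P.2 hn
      have := P.is_maximal' hsup le_sup_right
      rw [← this]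
      exact le_sup_left
    · intro h hh
      show h * y.2 = y.2 * h
      have := hw h hh
      conv_rhs => rw [← this]
      group

theorem dvd_card_inner [Finite G] {p : ℕ} [hp : Fact p.Prime] (hp2 : p ≠ 2) (P : Sylow p G)
    (hP : ¬ IsCyclic (P : Subgroup G)) (s m : ℕ) (hs : 1 < s) :
    p ^ s ∣ Nat.totient (p ^ s) *
      Nat.card (pairs G (p ^ s) m ∩ inner (P : Subgroup G) : Set (Subgroup G × G)) := by
  rw [← card_pairs (p ^ s) _ (fun y hy => ⟨hy.1.1, hy.1.2.1⟩)]
  have e : {x : G × G // (zpowers x.1, x.2) ∈ pairs G (p ^ s) m ∩ inner (P : Subgroup G)} ≃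
      {u : (P : Subgroup G) // orderOf u = p ^ s} ×
        {w : G // orderOf w = m ∧ ∀ h ∈ (P : Subgroup G), Commute h w} :=
    ⟨fun x => (⟨⟨x.1.1, x.2.2.1 (mem_zpowers _)⟩, by
        rw [Subgroup.orderOf_mk, ← Nat.card_zpowers]; exact x.2.1.2.1⟩, ⟨x.1.2, x.2.1.2.2.1, x.2.2.2⟩),
      fun z => ⟨(z.1.1.1, z.2.1), ⟨inferInstanceAs (IsCyclic (zpowers z.1.1.1)), by
        show Nat.card (zpowers z.1.1.1) = p ^ s
        rw [Nat.card_zpowers, Subgroup.orderOf_coe]; exact z.1.2, z.2.2.1, by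
        intro u hu
        have : zpowers z.1.1.1 ≤ (P : Subgroup G) := by rw [zpowers_le]; exact z.1.1.2
        exact z.2.2.2 u (this hu)⟩, by
        show zpowers z.1.1.1 ≤ (P : Subgroup G)
        rw [zpowers_le]; exact z.1.1.2, z.2.2.2⟩,
      fun x => rfl, fun z => rfl⟩
  rw [Nat.card_congr e, Nat.card_prod]
  exact Dvd.dvd.mul_right (dvd_card_orderOf hp2 P.2 hP s hs) _

theorem main [Finite G] {p : ℕ} [hp : Fact p.Prime] (hp2 : p ≠ 2) (P : Sylow p G)
    (hP : ¬ IsCyclic (P : Subgroup G)) (s m : ℕ) (hs : 1 < s) (hm : Nat.Coprime p m) :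
    p ^ s ∣ Nat.card {g : G // orderOf g = p ^ s * m} := by
  classical
  have hm0 : 0 < m := by
    rcases Nat.eq_zero_or_pos m with rfl | h
    · rw [Nat.coprime_zero_right] at hm
      exact absurd hm hp.out.one_lt.ne'
    · exact h
  rw [card_order_mul (p ^ s) m (pow_pos hp.out.pos s) hm0 (Nat.Coprime.pow_left s hm)]
  have e : {x : G × G // orderOf x.1 = p ^ s ∧ orderOf x.2 = m ∧ Commute x.1 x.2} ≃
      {x : G × G // (zpowers x.1, x.2) ∈ pairs G (p ^ s) m} := by
    refine Equiv.subtypeEquivRight fun x => ?_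
    constructor
    · rintro ⟨h1, h2, h3⟩
      refine ⟨inferInstanceAs (IsCyclic (zpowers x.1)), ?_, h2, ?_⟩
      · show Nat.card (zpowers x.1) = p ^ s
        rw [Nat.card_zpowers, h1]
      · intro u hu
        obtain ⟨k, rfl⟩ := mem_zpowers_iff.1 hu
        exact h3.zpow_left k
    · rintro ⟨_, h2, h3, h4⟩
      refine ⟨?_, h3, h4 _ (mem_zpowers _)⟩
      rw [← Nat.card_zpowers]; exact h2
  rw [Nat.card_congr e, card_pairs (p ^ s) _ (fun y hy => ⟨hy.1, hy.2.1⟩)]
  have hsplit : Nat.card (pairs G (p ^ s) m) =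
      Nat.card (pairs G (p ^ s) m ∩ inner (P : Subgroup G) : Set (Subgroup G × G)) +
      Nat.card (pairs G (p ^ s) m \ inner (P : Subgroup G) : Set (Subgroup G × G)) := by
    rw [Nat.card_coe_set_eq, Nat.card_coe_set_eq, Nat.card_coe_set_eq]
    exact (Set.ncard_inter_add_ncard_sdiff_eq_ncard _ _ (Set.toFinite _)).symm
  rw [hsplit, mul_add]
  refine dvd_add (dvd_card_inner hp2 P hP s m hs) ?_
  rw [Nat.totient_prime_pow hp.out (by omega : 0 < s)]
  obtain ⟨k, hk⟩ := dvd_card_diff P s m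
  rw [hk]
  refine ⟨(p - 1) * k, ?_⟩
  conv_lhs => rw [show p ^ (s - 1) * (p - 1) * (p * k) = (p ^ (s - 1) * p) * ((p - 1) * k) by ring]
  rw [← pow_succ, show s - 1 + 1 = s by omega]

end Cfsg.Agent.Lib.Helper54MilD
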