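import Cfsg.Agent.Lib.Helper17SymmForm

set_option autoImplicit false

namespace Cfsg.Agent.Lib.Helper54OSim

open Matrix Cfsg.Agent.Lib.Helper17SymmForm

variable {F : Type*} [Field F]

/-- the diagonal matrix `diag(1,…,1,δ)` -/
def DD (k : ℕ) (δ : F) : Matrix (Fin (k + 1)) (Fin (k + 1)) F :=
  Matrix.diagonal (Fin.snoc (fun _ => (1 : F)) δ)

theorem det_DD (k : ℕ) (δ : F) : (DD k δ).det = δ := by
  simp [DD, Matrix.det_diagonal, Fin.prod_univ_castSucc]

theorem isSymm_toBilin' {d : ℕ} (G : Matrix (Fin d) (Fin d) F) (hG : Gᵀ = G) :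
    (Matrix.toBilin' G).IsSymm := by
  refine ⟨fun x y => ?_⟩
  simp only [Matrix.toBilin'_apply']
  rw [Matrix.dotProduct_mulVec, ← Matrix.mulVec_transpose, hG, dotProduct_comm]

theorem nondeg_toBilin' {d : ℕ} (G : Matrix (Fin d) (Fin d) F) (hu : IsUnit G.det) :
    (Matrix.toBilin' G).Nondegenerate :=
  (Matrix.nondegenerate_of_det_ne_zero hu.ne_zero).toBilin'

/-- orthonormal families of every length `j` with `j + 1 ≤ dim`. -/
theorem exists_on [Finite F] (h2 : (2 : F) ≠ 0) {V : Type*} [AddCommGroup V] [Module F V]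
    [FiniteDimensional F V] {B : LinearMap.BilinForm F V} (hS : B.IsSymm) (hB : B.Nondegenerate)
    (j : ℕ) (hj : j + 1 ≤ Module.finrank F V) :
    ∃ e : Fin j → V, OG B e ∧ ∀ i, B (e i) (e i) = 1 := by
  induction j with
  | zero => exact ⟨Fin.elim0, ⟨fun i => i.elim0, fun i => i.elim0⟩, fun i => i.elim0⟩
  | succ j ih =>
    obtain ⟨e, he, h1⟩ := ih (by omega)
    obtain ⟨v, hv, hvv⟩ := exists_perp_norm h2 hS hB he (by omega) 1 one_ne_zero
    refine ⟨Fin.snoc e v, he.snoc hS v hv (by rw [hvv]; exact one_ne_zero), fun i => ?_⟩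
    refine Fin.lastCases ?_ (fun i => ?_) i
    · simpa using hvv
    · simpa using h1 i

/-- normal form -/
theorem normal_form [Finite F] (h2 : (2 : F) ≠ 0) {k : ℕ} (G : Matrix (Fin (k + 1)) (Fin (k + 1)) F)
    (hG : Gᵀ = G) (hu : IsUnit G.det) :
    ∃ (A : Matrix (Fin (k + 1)) (Fin (k + 1)) F) (δ : F), δ ≠ 0 ∧ Aᵀ * G * A = DD k δ := by
  have hS := isSymm_toBilin' G hG
  have hB := nondeg_toBilin' G hu
  obtain ⟨e, he, h1⟩ := exists_on h2 hS hB k (by simp)
  obtain ⟨v, hv, hvv⟩ := he.exists_perp h2 hS hB (by simp)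
  have hO := he.snoc hS v hv hvv
  refine ⟨Matrix.of (fun i j => (Fin.snoc e v : Fin (k + 1) → (Fin (k + 1) → F)) j i),
    Matrix.toBilin' G v v, hvv, ?_⟩
  ext i j
  have key : ((Matrix.of (fun i j => (Fin.snoc e v : Fin (k + 1) → (Fin (k + 1) → F)) j i))ᵀ * G *
      (Matrix.of (fun i j => (Fin.snoc e v : Fin (k + 1) → (Fin (k + 1) → F)) j i))) i j =
      Matrix.toBilin' G ((Fin.snoc e v : Fin (k + 1) → (Fin (k + 1) → F)) i)
        ((Fin.snoc e v : Fin (k + 1) → (Fin (k + 1) → F)) j) := by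
    rw [Matrix.toBilin'_apply']
    simp only [Matrix.mul_apply, Matrix.transpose_apply, Matrix.of_apply, dotProduct, Matrix.mulVec,
      Finset.mul_sum, Finset.sum_mul]
    rw [Finset.sum_comm]
    refine Finset.sum_congr rfl fun a _ => Finset.sum_congr rfl fun b _ => by ring
  rw [key, DD, Matrix.diagonal_apply]
  split_ifs with hij
  · subst hij
    refine Fin.lastCases ?_ (fun i => ?_) i
    · simp
    · simpa using h1 i
  · exact hO.1 i j hij

theorem two_ne_zero_of_odd [Fintype F] (hoddF : Odd (Fintype.card F)) : (2 : F) ≠ 0 := by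
  intro h
  have h1 : ringChar F ∣ 2 := by
    apply ringChar.dvd
    exact_mod_cast h
  have h2 : ringChar F = 2 := by
    rcases (Nat.dvd_prime Nat.prime_two).1 h1 with h3 | h3
    · exact absurd h3 (CharP.ringChar_ne_one)
    · exact h3
  have h3 := FiniteField.even_card_of_char_two h2
  rcases hoddF with ⟨m, hm⟩
  omega

theorem DD_mul (k : ℕ) (δ s : F) : (DD k s)ᵀ * DD k δ * DD k s = DD k (δ * s ^ 2) := by
  simp only [DD, Matrix.diagonal_transpose, Matrix.diagonal_mul_diagonal]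
  congr 1
  ext i
  refine Fin.lastCases ?_ (fun i => ?_) i
  · simp; ring
  · simp

/-- [osim] over a finite field of odd order two non-degenerate symmetric forms of the same odd dimension are
similar. -/
theorem sym_similar [Fintype F] (hoddF : Odd (Fintype.card F)) {d : ℕ} (hd : Odd d)
    (G G' : Matrix (Fin d) (Fin d) F) (hG : Gᵀ = G) (hG' : G'ᵀ = G') (hu : IsUnit G.det)
    (hu' : IsUnit G'.det) :
    ∃ (c : F) (A : GL (Fin d) F), c ≠ 0 ∧
      G' = c • ((A : Matrix (Fin d) (Fin d) F)ᵀ * G * (A : Matrix (Fin d) (Fin d) F)) := by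
  obtain ⟨m, rfl⟩ := hd
  have h2 := two_ne_zero_of_odd hoddF
  set c : F := G'.det * G.det with hc
  have hc0 : c ≠ 0 := mul_ne_zero hu'.ne_zero hu.ne_zero
  have hdetc : (c • G).det = c ^ (2 * m + 1) * G.det := by
    rw [Matrix.det_smul, Fintype.card_fin]
  obtain ⟨Y, ε, hε, hY⟩ := normal_form h2 (c • G) (by rw [Matrix.transpose_smul, hG])
    (by rw [hdetc]; exact (mul_ne_zero (pow_ne_zero _ hc0) hu.ne_zero).isUnit)
  obtain ⟨A₂, δ, hδ, hA₂⟩ := normal_form h2 G' hG' hu'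
  have e1 : Y.det ^ 2 * (c ^ (2 * m + 1) * G.det) = ε := by
    have := congrArg Matrix.det hY
    rw [Matrix.det_mul, Matrix.det_mul, Matrix.det_transpose, hdetc, det_DD] at this
    rw [← this]; ring
  have e2 : A₂.det ^ 2 * G'.det = δ := by
    have := congrArg Matrix.det hA₂
    rw [Matrix.det_mul, Matrix.det_mul, Matrix.det_transpose, det_DD] at this
    rw [← this]; ring
  have hA₂0 : A₂.det ≠ 0 := by
    intro h; rw [h] at e2; apply hδ; rw [← e2]; ring
  have hY0 : Y.det ≠ 0 := by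
    intro h; rw [h] at e1; apply hε; rw [← e1]; ring
  set s : F := Y.det * c ^ m * G.det / A₂.det with hs
  have hs0 : s ≠ 0 := div_ne_zero (mul_ne_zero (mul_ne_zero hY0 (pow_ne_zero _ hc0)) hu.ne_zero) hA₂0
  have e3 : ε = δ * s ^ 2 := by
    rw [← e1, ← e2, hs]
    field_simp
    rw [hc]; ring
  set X : Matrix (Fin (2 * m + 1)) (Fin (2 * m + 1)) F := A₂ * DD (2 * m) s with hX
  have hXdet : IsUnit X.det := by
    rw [hX, Matrix.det_mul, det_DD]
    exact (mul_ne_zero hA₂0 hs0).isUnit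
  have h : Yᵀ * (c • G) * Y = Xᵀ * G' * X := by
    rw [hY, e3, ← DD_mul, ← hA₂, hX, Matrix.transpose_mul]
    simp only [Matrix.mul_assoc]
  have hdet : (Y * X⁻¹).det ≠ 0 := by
    rw [Matrix.det_mul, Matrix.det_nonsing_inv]
    exact mul_ne_zero hY0 (by simpa using hXdet.ne_zero)
  refine ⟨c, Matrix.GeneralLinearGroup.mkOfDetNeZero (Y * X⁻¹) hdet, hc0, ?_⟩
  have hcoe : ((Matrix.GeneralLinearGroup.mkOfDetNeZero (Y * X⁻¹) hdet : GL (Fin (2 * m + 1)) F) :
      Matrix (Fin (2 * m + 1)) (Fin (2 * m + 1)) F) = Y * X⁻¹ := rfl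
  rw [hcoe]
  calc G' = (X * X⁻¹)ᵀ * G' * (X * X⁻¹) := by rw [Matrix.mul_nonsing_inv _ hXdet]; simp
    _ = (X⁻¹)ᵀ * (Xᵀ * G' * X) * X⁻¹ := by simp only [Matrix.transpose_mul, Matrix.mul_assoc]
    _ = (X⁻¹)ᵀ * (Yᵀ * (c • G) * Y) * X⁻¹ := by rw [h]
    _ = c • ((Y * X⁻¹)ᵀ * G * (Y * X⁻¹)) := by
      simp only [Matrix.transpose_mul, Matrix.mul_assoc, Matrix.mul_smul, Matrix.smul_mul]

end Cfsg.Agent.Lib.Helper54OSim
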