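import Cfsg.Agent.Lib.Helper98AschGDefs

set_option autoImplicit false

namespace Cfsg.Agent.Lib.Helper58GWnorm

open Cfsg Cfsg.Geo Matrix
open Cfsg.Agent.Lib.Helper98AschGDefs
open scoped MatrixGroups

variable {F : Type*} [Field F] {k m : ℕ}

/-- pure tensor of matrices -/
def pt (A : Fin k → Matrix (Fin m) (Fin m) F) : Matrix (Fin k → Fin m) (Fin k → Fin m) F :=
  fun x y => ∏ j, A j (x j) (y j)

lemma pt_apply (A : Fin k → Matrix (Fin m) (Fin m) F) (x y : Fin k → Fin m) :
    pt A x y = ∏ j, A j (x j) (y j) := rfl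

lemma pt_mul (A B : Fin k → Matrix (Fin m) (Fin m) F) :
    pt A * pt B = pt (fun j => A j * B j) := by
  ext x y
  simp only [pt_apply, Matrix.mul_apply]
  rw [Finset.prod_univ_sum]
  simp [Fintype.piFinset_univ, Finset.prod_mul_distrib]

lemma pt_one : pt (fun _ : Fin k => (1 : Matrix (Fin m) (Fin m) F)) = 1 := by
  ext x y
  simp only [pt_apply, Matrix.one_apply]
  rw [Finset.prod_boole]
  simp [funext_iff]

lemma factor_eq_pt (i : Fin k) (a : Matrix (Fin m) (Fin m) F) :
    factor i a = pt (Function.update (fun _ => 1) i a) := by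
  ext x y
  simp only [factor, pt_apply]
  rw [← Finset.mul_prod_erase Finset.univ _ (Finset.mem_univ i), Function.update_self]
  have h1 : ∏ j ∈ Finset.univ.erase i,
      (Function.update (fun _ => (1 : Matrix (Fin m) (Fin m) F)) i a j) (x j) (y j) =
      ∏ j ∈ Finset.univ.erase i, (if x j = y j then (1 : F) else 0) := by
    apply Finset.prod_congr rfl
    intro j hj
    rw [Function.update_of_ne (Finset.ne_of_mem_erase hj), Matrix.one_apply]
  rw [h1, Finset.prod_boole]
  simp only [Finset.mem_erase, Finset.mem_univ, and_true]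
  split_ifs <;> simp

lemma factor_mul (i : Fin k) (a b : Matrix (Fin m) (Fin m) F) :
    factor i (a * b) = factor i a * factor i b := by
  rw [factor_eq_pt, factor_eq_pt, factor_eq_pt, pt_mul]
  congr 1
  funext j
  by_cases h : j = i
  · subst h; simp
  · simp [Function.update_of_ne h]

lemma factor_one (i : Fin k) : factor i (1 : Matrix (Fin m) (Fin m) F) = 1 := by
  rw [factor_eq_pt, Function.update_eq_self_iff.mpr rfl, pt_one]

lemma factor_add (i : Fin k) (a b : Matrix (Fin m) (Fin m) F) :
    factor i (a + b) = factor i a + factor i b := by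
  ext x y
  simp only [factor, Matrix.add_apply]
  split_ifs <;> simp

lemma factor_smul (i : Fin k) (c : F) (a : Matrix (Fin m) (Fin m) F) :
    factor i (c • a) = c • factor i a := by
  ext x y
  simp only [factor, Matrix.smul_apply]
  split_ifs <;> simp

lemma factor_injective (i : Fin k) :
    Function.Injective (factor i : Matrix (Fin m) (Fin m) F → _) := by
  intro a b h
  ext c d
  have h1 := congrFun (congrFun h (fun _ => c)) (Function.update (fun _ => c) i d)
  simp only [factor] at h1
  rw [if_pos (fun j hj => by rw [Function.update_of_ne hj]),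
    if_pos (fun j hj => by rw [Function.update_of_ne hj]), Function.update_self] at h1
  exact h1

lemma factor_comm {i j : Fin k} (hij : i ≠ j) (a b : Matrix (Fin m) (Fin m) F) :
    factor i a * factor j b = factor j b * factor i a := by
  rw [factor_eq_pt, factor_eq_pt, pt_mul, pt_mul]
  congr 1
  funext l
  by_cases h : l = i
  · subst h; simp [Function.update_of_ne hij]
  · simp [Function.update_of_ne h]

/-- permutation of the tensor factors -/
def pm (σ : Equiv.Perm (Fin k)) : Matrix (Fin k → Fin m) (Fin k → Fin m) F :=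
  fun x y => if y = x ∘ σ then 1 else 0

lemma pm_mul_apply (σ : Equiv.Perm (Fin k)) (M : Matrix (Fin k → Fin m) (Fin k → Fin m) F)
    (x y : Fin k → Fin m) :
    ((pm σ : Matrix (Fin k → Fin m) (Fin k → Fin m) F) * M) x y = M (x ∘ σ) y := by
  simp [Matrix.mul_apply, pm]

lemma mul_pm_apply (σ : Equiv.Perm (Fin k)) (M : Matrix (Fin k → Fin m) (Fin k → Fin m) F)
    (x y : Fin k → Fin m) :
    (M * (pm σ : Matrix (Fin k → Fin m) (Fin k → Fin m) F)) x y = M x (y ∘ σ.symm) := by
  have h : ∀ z : Fin k → Fin m, (y = z ∘ σ) ↔ (z = y ∘ σ.symm) := by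
    intro z
    constructor
    · rintro rfl; funext j; simp
    · rintro rfl; funext j; simp
  simp [Matrix.mul_apply, pm, h]

lemma pm_mul_pm_symm (σ : Equiv.Perm (Fin k)) :
    (pm σ : Matrix (Fin k → Fin m) (Fin k → Fin m) F) * pm σ.symm = 1 := by
  ext x y
  rw [pm_mul_apply, Matrix.one_apply]
  simp only [pm]
  have h : (y = (x ∘ σ) ∘ σ.symm) ↔ x = y := by
    constructor
    · intro h; rw [h]; funext j; simp
    · rintro rfl; funext j; simp
  simp [h]

/-- the factor permutation as an invertible matrix -/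
def pmGL (σ : Equiv.Perm (Fin k)) : GL (Fin k → Fin m) F :=
  ⟨pm σ, pm σ.symm, pm_mul_pm_symm σ, by simpa using pm_mul_pm_symm (F := F) (m := m) σ.symm⟩

lemma pmGL_isFactorPermutation (σ : Equiv.Perm (Fin k)) :
    IsFactorPermutation m k (pmGL σ : GL (Fin k → Fin m) F) := ⟨σ, fun _ _ => rfl⟩

lemma pm_factor (σ : Equiv.Perm (Fin k)) (i : Fin k) (a : Matrix (Fin m) (Fin m) F) :
    pm σ * factor i a = factor (σ i) a * pm σ := by
  ext x y
  rw [pm_mul_apply, mul_pm_apply]
  simp only [factor, Function.comp_apply, Equiv.symm_apply_apply]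
  have h : (∀ j, j ≠ i → x (σ j) = y j) ↔ (∀ j, j ≠ σ i → x j = y (σ.symm j)) := by
    constructor
    · intro h j hj
      have := h (σ.symm j) (by rintro rfl; simp at hj)
      simpa using this
    · intro h j hj
      have := h (σ j) (by simpa using hj)
      simpa using this
  simp [h]

/-- Skolem-Noether for matrix algebras. -/
theorem skolem_noether (α : Matrix (Fin m) (Fin m) F ≃ₐ[F] Matrix (Fin m) (Fin m) F) :
    ∃ u : GL (Fin m) F, ∀ X : Matrix (Fin m) (Fin m) F,
      α X = (u : Matrix (Fin m) (Fin m) F) * X * ((u⁻¹ : GL (Fin m) F) : Matrix (Fin m) (Fin m) F) := by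
  let e : Matrix (Fin m) (Fin m) F ≃ₐ[F] Module.End F (Fin m → F) := Matrix.toLinAlgEquiv'
  obtain ⟨T, hT⟩ := AlgEquiv.eq_linearEquivConjAlgEquiv (e.symm.trans (α.trans e))
  have h1 : e.symm (T : (Fin m → F) →ₗ[F] (Fin m → F)) * e.symm (T.symm : (Fin m → F) →ₗ[F] (Fin m → F)) = 1 := by
    rw [← map_mul]
    have : (T : Module.End F (Fin m → F)) * (T.symm : (Fin m → F) →ₗ[F] (Fin m → F)) = 1 := by
      ext v; simp
    rw [this, map_one]
  have h2 : e.symm (T.symm : (Fin m → F) →ₗ[F] (Fin m → F)) * e.symm (T : (Fin m → F) →ₗ[F] (Fin m → F)) = 1 := by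
    rw [← map_mul]
    have : (T.symm : Module.End F (Fin m → F)) * (T : (Fin m → F) →ₗ[F] (Fin m → F)) = 1 := by
      ext v; simp
    rw [this, map_one]
  refine ⟨⟨_, _, h1, h2⟩, ?_⟩
  intro X
  have h3 := congrArg (fun f => f (e X)) hT
  simp only [AlgEquiv.trans_apply, AlgEquiv.symm_apply_apply, LinearEquiv.conjAlgEquiv_apply] at h3
  have h4 : α X = e.symm (e (α X)) := (e.symm_apply_apply _).symm
  rw [h4, h3]
  show _ = e.symm (T : (Fin m → F) →ₗ[F] (Fin m → F)) * X * e.symm (T.symm : (Fin m → F) →ₗ[F] (Fin m → F))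
  have h5 : X = e.symm (e X) := (e.symm_apply_apply _).symm
  conv_rhs => rw [h5]
  rw [← map_mul, ← map_mul]
  rfl

lemma commute_pt (z : Matrix (Fin k → Fin m) (Fin k → Fin m) F)
    (hz : ∀ i (a : Matrix (Fin m) (Fin m) F), z * factor i a = factor i a * z)
    (A : Fin k → Matrix (Fin m) (Fin m) F) : z * pt A = pt A * z := by
  classical
  have H : ∀ s : Finset (Fin k), z * pt (fun j => if j ∈ s then A j else 1) =
      pt (fun j => if j ∈ s then A j else 1) * z := by
    intro s
    induction s using Finset.induction_on with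
    | empty => simp [pt_one]
    | insert i s hi ih =>
      have h1 : pt (fun j => if j ∈ insert i s then A j else 1) =
          factor i (A i) * pt (fun j => if j ∈ s then A j else 1) := by
        rw [factor_eq_pt, pt_mul]
        congr 1
        funext j
        by_cases h : j = i
        · subst h; simp [hi]
        · simp [Finset.mem_insert, h]
      rw [h1, ← mul_assoc, hz, mul_assoc, ih, mul_assoc]
  simpa using H Finset.univ

lemma pt_single (x y : Fin k → Fin m) :
    pt (fun j => Matrix.single (x j) (y j) (1 : F)) = Matrix.single x y 1 := by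
  ext x' y'
  simp only [pt_apply, Matrix.single_apply]
  rw [Finset.prod_boole]
  simp only [Finset.mem_univ, forall_const, funext_iff, forall_and]

lemma scalar_of_commute (z : Matrix (Fin k → Fin m) (Fin k → Fin m) F)
    (hz : ∀ i (a : Matrix (Fin m) (Fin m) F), z * factor i a = factor i a * z) :
    ∃ c : F, z = c • (1 : Matrix (Fin k → Fin m) (Fin k → Fin m) F) := by
  obtain ⟨c, hc⟩ := Matrix.mem_range_scalar_of_commute_single (M := z) (by
    intro x y _
    show Matrix.single x y 1 * z = z * Matrix.single x y 1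
    rw [← pt_single, commute_pt z hz])
  refine ⟨c, ?_⟩
  rw [← hc]
  ext x y
  simp [Matrix.one_apply, Matrix.diagonal_apply]

/-- the pure tensor of invertible matrices -/
def ptGL (u : Fin k → GL (Fin m) F) : GL (Fin k → Fin m) F :=
  ⟨pt (fun j => (u j : Matrix (Fin m) (Fin m) F)),
   pt (fun j => ((u j)⁻¹ : GL (Fin m) F)),
   by rw [pt_mul]; simp [pt_one], by rw [pt_mul]; simp [pt_one]⟩

lemma ptGL_isPureTensor (u : Fin k → GL (Fin m) F) : IsPureTensor m k (ptGL u) :=
  ⟨u, fun _ _ => rfl⟩

lemma pt_factor (u : Fin k → GL (Fin m) F) (j : Fin k) (a : Matrix (Fin m) (Fin m) F) :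
    pt (fun l => (u l : Matrix (Fin m) (Fin m) F)) * factor j a =
      factor j ((u j : Matrix (Fin m) (Fin m) F) * a *
          (((u j)⁻¹ : GL (Fin m) F) : Matrix (Fin m) (Fin m) F)) *
        pt (fun l => (u l : Matrix (Fin m) (Fin m) F)) := by
  rw [factor_eq_pt, factor_eq_pt, pt_mul, pt_mul]
  congr 1
  funext l
  by_cases h : l = j
  · subst h; simp [mul_assoc]
  · simp [Function.update_of_ne h]

/-- [wnorm] an invertible matrix permuting the tensor factor algebras lies in the standard tensor
wreath subgroup. -/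
theorem wreath_norm {k m : ℕ} (hm : 2 ≤ m) (hk : 1 ≤ k) (g : GL (Fin k → Fin m) F)
    (hg : ∀ i, ∃ j, ∀ a : Matrix (Fin m) (Fin m) F, ∃ b : Matrix (Fin m) (Fin m) F,
      (g : Matrix (Fin k → Fin m) (Fin k → Fin m) F) * factor i a *
        ((g⁻¹ : GL (Fin k → Fin m) F) : Matrix (Fin k → Fin m) (Fin k → Fin m) F) = factor j b) :
    g ∈ tensorWreathStandard m k F := by
  classical
  choose π hπ using hg
  choose β hβ using hπ
  set G : Matrix (Fin k → Fin m) (Fin k → Fin m) F :=
    (g : Matrix (Fin k → Fin m) (Fin k → Fin m) F) with hG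
  set G' : Matrix (Fin k → Fin m) (Fin k → Fin m) F :=
    ((g⁻¹ : GL (Fin k → Fin m) F) : Matrix (Fin k → Fin m) (Fin k → Fin m) F) with hG'
  have hGG' : G * G' = 1 := by rw [hG, hG', ← Units.val_mul, mul_inv_cancel, Units.val_one]
  have hG'G : G' * G = 1 := by rw [hG, hG', ← Units.val_mul, inv_mul_cancel, Units.val_one]
  -- β i is an algebra homomorphism
  have hadd : ∀ i a b, β i (a + b) = β i a + β i b := by
    intro i a b
    apply factor_injective (π i)
    rw [factor_add, ← hβ, ← hβ, ← hβ, factor_add, mul_add, add_mul]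
  have hsmul : ∀ i (c : F) a, β i (c • a) = c • β i a := by
    intro i c a
    apply factor_injective (π i)
    rw [factor_smul, ← hβ, ← hβ, factor_smul, mul_smul_comm, smul_mul_assoc]
  have hone : ∀ i, β i 1 = 1 := by
    intro i
    apply factor_injective (π i)
    rw [← hβ, factor_one, factor_one, mul_one, hGG']
  have hmul : ∀ i a b, β i (a * b) = β i a * β i b := by
    intro i a b
    apply factor_injective (π i)
    rw [factor_mul, ← hβ, ← hβ, ← hβ, factor_mul]
    calc G * (factor i a * factor i b) * G' = G * factor i a * 1 * factor i b * G' := by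
          simp only [mul_one, mul_assoc]
      _ = G * factor i a * G' * (G * factor i b * G') := by
          rw [← hG'G]; simp only [mul_assoc]
  have hinj : ∀ i, Function.Injective (β i) := by
    intro i a b hab
    apply factor_injective i
    have h1 : G * factor i a * G' = G * factor i b * G' := by rw [hβ, hβ, hab]
    calc factor i a = G' * (G * factor i a * G') * G := by
          rw [mul_assoc, mul_assoc, hG'G, mul_one, ← mul_assoc, hG'G, one_mul]
      _ = G' * (G * factor i b * G') * G := by rw [h1]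
      _ = factor i b := by
          rw [mul_assoc, mul_assoc, hG'G, mul_one, ← mul_assoc, hG'G, one_mul]
  let L : ∀ i, Matrix (Fin m) (Fin m) F →ₗ[F] Matrix (Fin m) (Fin m) F := fun i =>
    { toFun := β i, map_add' := hadd i, map_smul' := hsmul i }
  have hsurj : ∀ i, Function.Surjective (β i) := fun i =>
    LinearMap.injective_iff_surjective.mp (show Function.Injective (L i) from hinj i)
  let α : ∀ i, Matrix (Fin m) (Fin m) F ≃ₐ[F] Matrix (Fin m) (Fin m) F := fun i =>
    AlgEquiv.ofBijective (AlgHom.ofLinearMap (L i) (hone i) (hmul i)) ⟨hinj i, hsurj i⟩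
  have hα : ∀ i a, α i a = β i a := fun i a => rfl
  choose u hu using fun i => skolem_noether (α i)
  -- π is injective
  have hπinj : Function.Injective π := by
    intro i i' hii
    by_contra hne
    have hc : ∀ a b : Matrix (Fin m) (Fin m) F, a * b = b * a := by
      intro a b
      obtain ⟨a', rfl⟩ := hsurj i a
      obtain ⟨b', rfl⟩ := hsurj i' b
      apply factor_injective (π i)
      rw [factor_mul, factor_mul, ← hβ]
      conv_lhs => rw [hii, ← hβ]
      conv_rhs => rw [hii, ← hβ]
      calc G * factor i a' * G' * (G * factor i' b' * G')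
          = G * (factor i a' * (G' * G) * factor i' b') * G' := by simp only [mul_assoc]
        _ = G * (factor i' b' * (G' * G) * factor i a') * G' := by
            rw [hG'G, mul_one, mul_one, factor_comm hne]
        _ = G * factor i' b' * G' * (G * factor i a' * G') := by simp only [mul_assoc]
    have h0 := hc (Matrix.single ⟨0, by omega⟩ ⟨1, by omega⟩ 1)
      (Matrix.single ⟨1, by omega⟩ ⟨0, by omega⟩ 1)
    have h1 := congrFun (congrFun h0 ⟨0, by omega⟩) ⟨0, by omega⟩
    simp at h1
  let σ : Equiv.Perm (Fin k) := Equiv.ofBijective π (Finite.injective_iff_bijective.mp hπinj)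
  have hσ : ∀ i, σ i = π i := fun i => rfl
  let w : Fin k → GL (Fin m) F := fun j => u (σ.symm j)
  set Q : GL (Fin k → Fin m) F := ptGL w * pmGL σ with hQ
  set Qm : Matrix (Fin k → Fin m) (Fin k → Fin m) F :=
    (Q : Matrix (Fin k → Fin m) (Fin k → Fin m) F) with hQm
  set Q' : Matrix (Fin k → Fin m) (Fin k → Fin m) F :=
    ((Q⁻¹ : GL (Fin k → Fin m) F) : Matrix (Fin k → Fin m) (Fin k → Fin m) F) with hQ'
  have hQQ' : Qm * Q' = 1 := by rw [hQm, hQ', ← Units.val_mul, mul_inv_cancel, Units.val_one]
  have hQ'Q : Q' * Qm = 1 := by rw [hQm, hQ', ← Units.val_mul, inv_mul_cancel, Units.val_one]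
  have hQf : ∀ i a, Qm * factor i a = factor (π i) (β i a) * Qm := by
    intro i a
    have h1 : Qm = pt (fun l => (w l : Matrix (Fin m) (Fin m) F)) * pm σ := rfl
    rw [h1, mul_assoc, pm_factor, ← mul_assoc, pt_factor, mul_assoc]
    have h2 : w (σ i) = u i := by simp [w]
    rw [h2, ← hu, hα, hσ]
  have hGf : ∀ i a, G * factor i a = factor (π i) (β i a) * G := by
    intro i a
    rw [← hβ, mul_assoc, mul_assoc, hG'G, mul_one]
  have hQ'f : ∀ i a, Q' * factor (π i) (β i a) = factor i a * Q' := by
    intro i a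
    calc Q' * factor (π i) (β i a) = Q' * (factor (π i) (β i a) * Qm) * Q' := by
          rw [mul_assoc, mul_assoc, hQQ', mul_one]
      _ = Q' * (Qm * factor i a) * Q' := by rw [hQf]
      _ = factor i a * Q' := by rw [← mul_assoc, hQ'Q, one_mul]
  set z : GL (Fin k → Fin m) F := Q⁻¹ * g with hz
  have hzm : (z : Matrix (Fin k → Fin m) (Fin k → Fin m) F) = Q' * G := by
    rw [hz, Units.val_mul]
  have hzc : ∀ i (a : Matrix (Fin m) (Fin m) F),
      (z : Matrix (Fin k → Fin m) (Fin k → Fin m) F) * factor i a =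
        factor i a * (z : Matrix (Fin k → Fin m) (Fin k → Fin m) F) := by
    intro i a
    rw [hzm, mul_assoc, hGf, ← mul_assoc, hQ'f, mul_assoc]
  obtain ⟨c, hc⟩ := scalar_of_commute _ hzc
  have hc0 : c ≠ 0 := by
    rintro rfl
    rw [zero_smul] at hc
    have h1 : (z : Matrix (Fin k → Fin m) (Fin k → Fin m) F) *
        ((z⁻¹ : GL (Fin k → Fin m) F) : Matrix (Fin k → Fin m) (Fin k → Fin m) F) = 1 := by
      rw [← Units.val_mul, mul_inv_cancel, Units.val_one]
    rw [hc, zero_mul] at h1
    have h2 := congrFun (congrFun h1 (fun _ => ⟨0, by omega⟩)) (fun _ => ⟨0, by omega⟩)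
    simp at h2
  let C : GL (Fin m) F :=
    Units.map (algebraMap F (Matrix (Fin m) (Fin m) F)).toMonoidHom (Units.mk0 c hc0)
  have hC : (C : Matrix (Fin m) (Fin m) F) = c • 1 := by
    show algebraMap F (Matrix (Fin m) (Fin m) F) c = c • 1
    rw [Algebra.algebraMap_eq_smul_one]
  have hzp : IsPureTensor m k z := by
    refine ⟨Function.update (fun _ => 1) ⟨0, by omega⟩ C, ?_⟩
    intro x y
    have h1 : (z : Matrix (Fin k → Fin m) (Fin k → Fin m) F) =
        pt (Function.update (fun _ => 1) ⟨0, by omega⟩ (c • 1)) := by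
      rw [← factor_eq_pt, factor_smul, factor_one, hc]
    rw [h1, pt_apply]
    apply Finset.prod_congr rfl
    intro j _
    by_cases h : j = ⟨0, by omega⟩
    · subst h; simp [hC]
    · simp [Function.update_of_ne h]
  have hgz : g = ptGL w * pmGL σ * z := by
    rw [hz, ← hQ, mul_inv_cancel_left]
  rw [hgz]
  unfold tensorWreathStandard
  refine Subgroup.mul_mem _ (Subgroup.mul_mem _ ?_ ?_) ?_
  · exact Subgroup.subset_closure (Or.inl (ptGL_isPureTensor w))
  · exact Subgroup.subset_closure (Or.inr (pmGL_isFactorPermutation σ))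
  · exact Subgroup.subset_closure (Or.inl hzp)

end Cfsg.Agent.Lib.Helper58GWnorm
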