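import Cfsg.Agent.Lib.Helper58ODefs
import Cfsg.Agent.Lib.Helper96SpBasic
import Cfsg.Agent.Lib.Helper58GWnorm
import Cfsg.Agent.Lib.Helper97OBase
import Cfsg.Agent.Lib.Helper54OSim

set_option autoImplicit false

/-! PROJECT 5 = ASCH-O, piece `othree`. -/

namespace Cfsg.Agent.Lib.Helper54OThree

open Cfsg Cfsg.Geo Matrix
open Cfsg.Agent.Lib.Helper58ODefs Cfsg.Agent.Lib.Helper58GWnorm Cfsg.Agent.Lib.Helper96SpDefs
open Cfsg.Agent.Lib.Helper97OBase
open scoped MatrixGroups Kronecker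


section normalform

variable {F : Type*} [Field F] {k m : ℕ}

lemma pt_mul_pm (u : Fin k → Matrix (Fin m) (Fin m) F) (σ : Equiv.Perm (Fin k)) :
    pt u * pm σ = pm σ * pt (u ∘ σ) := by
  ext x y
  rw [pm_mul_apply, mul_pm_apply, pt_apply, pt_apply]
  exact (Equiv.prod_comp σ (fun j => u j (x j) (y (σ.symm j)))).symm.trans
    (Finset.prod_congr rfl fun j _ => by simp)

lemma pm_mul_pm (σ τ : Equiv.Perm (Fin k)) :
    (pm σ : Matrix (Fin k → Fin m) (Fin k → Fin m) F) * pm τ = pm (σ * τ) := by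
  ext x y
  rw [pm_mul_apply]
  rfl

lemma ptGL_mul_pmGL (u : Fin k → GL (Fin m) F) (σ : Equiv.Perm (Fin k)) :
    ptGL u * pmGL σ = pmGL σ * ptGL (u ∘ σ) :=
  Units.ext (pt_mul_pm (fun j => (u j : Matrix (Fin m) (Fin m) F)) σ)

lemma pmGL_mul (σ τ : Equiv.Perm (Fin k)) :
    (pmGL σ : GL (Fin k → Fin m) F) * pmGL τ = pmGL (σ * τ) :=
  Units.ext (pm_mul_pm σ τ)

lemma ptGL_mul (u w : Fin k → GL (Fin m) F) : ptGL u * ptGL w = ptGL (u * w) :=
  Units.ext (pt_mul _ _)

lemma pmGL_inv (σ : Equiv.Perm (Fin k)) : (pmGL σ : GL (Fin k → Fin m) F)⁻¹ = pmGL σ⁻¹ := rfl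

lemma ptGL_inv (u : Fin k → GL (Fin m) F) : (ptGL u)⁻¹ = ptGL u⁻¹ := by
  apply Units.ext
  rfl

lemma pmGL_one : (pmGL 1 : GL (Fin k → Fin m) F) = 1 := by
  apply Units.ext
  ext x y
  simp [pmGL, pm, Matrix.one_apply, eq_comm]

lemma ptGL_one : (ptGL 1 : GL (Fin k → Fin m) F) = 1 :=
  Units.ext pt_one

theorem normal_form {s : GL (Fin k → Fin m) F} (hs : s ∈ tensorWreathStandard m k F) :
    ∃ (σ : Equiv.Perm (Fin k)) (u : Fin k → GL (Fin m) F), s = pmGL σ * ptGL u := by
  induction hs using Subgroup.closure_induction with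
  | mem x hx =>
    rcases hx with ⟨gs, hgs⟩ | ⟨σ, hσ⟩
    · refine ⟨1, gs, ?_⟩
      rw [pmGL_one, one_mul]
      apply Units.ext
      ext x y
      exact hgs x y
    · refine ⟨σ, 1, ?_⟩
      rw [ptGL_one, mul_one]
      apply Units.ext
      ext x y
      exact hσ x y
  | one => exact ⟨1, 1, by rw [pmGL_one, ptGL_one, one_mul]⟩
  | mul x y _ _ hx hy =>
    obtain ⟨σ, u, rfl⟩ := hx
    obtain ⟨τ, w, rfl⟩ := hy
    refine ⟨σ * τ, (u ∘ τ) * w, ?_⟩
    rw [← pmGL_mul, ← ptGL_mul, mul_assoc, ← mul_assoc (ptGL u), ptGL_mul_pmGL, mul_assoc, mul_assoc]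
  | inv x _ hx =>
    obtain ⟨σ, u, rfl⟩ := hx
    refine ⟨σ⁻¹, u⁻¹ ∘ (σ⁻¹ : Equiv.Perm (Fin k)), ?_⟩
    rw [_root_.mul_inv_rev, pmGL_inv, ptGL_inv, ptGL_mul_pmGL]

end normalform



section frame

variable {ι : Type} [Fintype ι] [DecidableEq ι] {F : Type*} [Field F]
variable {Q : (ι → F) → F} {H : Subgroup (GL ι F)}

/-- an orthogonal basis of vectors of the same norm, permuted up to scalars by `H`. -/
theorem decOne_of_frame (hQ : IsNondegenerateQuadraticForm Q) (h2 : (2 : F) ≠ 0)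
    (hH : H ≤ isometryGroup F Q) {κ : Type} [Fintype κ] [DecidableEq κ]
    (hκ : 2 ≤ Fintype.card κ) (b : Module.Basis κ F (ι → F)) (d : F) (hd : d ≠ 0)
    (hb : ∀ x y, QuadraticMap.polar Q (b x) (b y) = if x = y then d else 0)
    (hmono : ∀ h ∈ H, ∀ y, ∃ (x : κ) (c : F), c ≠ 0 ∧ (h : Matrix ι ι F) *ᵥ b y = c • b x) :
    ODecOne Q H := by
  classical
  set E : Fin (Fintype.card κ) ≃ κ := (Fintype.equivFin κ).symm with hE
  have hB := hQ.polar_bilinear
  have hQb : ∀ x, Q (b x) = d / 2 := by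
    intro x
    have h1 := hb x x
    rw [if_pos rfl, QuadraticMap.polar] at h1
    have h3 : b x + b x = (2 : F) • b x := by rw [two_smul]
    rw [h3, hQ.smul] at h1
    field_simp
    linear_combination h1
  refine ⟨Fintype.card κ, fun i => Submodule.span F {b (E i)}, ⟨⟨⟨hκ, one_pos, ?_, ?_, ?_⟩, ?_, ?_⟩, ?_⟩, ?_⟩
  · intro i
    exact finrank_span_singleton (b.ne_zero _)
  · exact (b.linearIndependent.comp E E.injective).iSupIndep_span_singleton
  · rw [← Submodule.span_range_eq_iSup]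
    have : Set.range (fun i => b (E i)) = Set.range b := by
      rw [show (fun i => b (E i)) = b ∘ E from rfl, Set.range_comp, E.surjective.range_eq, Set.image_univ]
    rw [this, b.span_eq]
  · intro i w hw hw0
    obtain ⟨c, rfl⟩ := Submodule.mem_span_singleton.1 hw
    have hc : c ≠ 0 := by
      rintro rfl
      exact hw0 (zero_smul _ _)
    refine ⟨⟨b (E i), Submodule.mem_span_singleton_self _, ?_⟩, ⟨b (E i), Submodule.mem_span_singleton_self _, ?_⟩⟩
    · rw [hB.smul_right, hb, if_pos rfl]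
      exact mul_ne_zero hc hd
    · rw [hB.smul_left, hb, if_pos rfl]
      exact mul_ne_zero hc hd
  · intro i j hij u hu v hv
    obtain ⟨c, rfl⟩ := Submodule.mem_span_singleton.1 hu
    obtain ⟨c', rfl⟩ := Submodule.mem_span_singleton.1 hv
    rw [hB.smul_right, hB.smul_left, hb, if_neg (fun h => hij (E.injective h))]
    simp
  · intro i j
    refine ⟨(LinearEquiv.toSpanNonzeroSingleton F (ι → F) (b (E i)) (b.ne_zero _)).symm.trans
      (LinearEquiv.toSpanNonzeroSingleton F (ι → F) (b (E j)) (b.ne_zero _)), ?_⟩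
    rintro ⟨w, hw⟩
    obtain ⟨c, rfl⟩ := Submodule.mem_span_singleton.1 hw
    have h1 : (LinearEquiv.toSpanNonzeroSingleton F (ι → F) (b (E i)) (b.ne_zero _)).symm
        ⟨c • b (E i), hw⟩ = c := by
      rw [LinearEquiv.symm_apply_eq]
      apply Subtype.ext
      simp
    rw [LinearEquiv.trans_apply, h1]
    simp only [LinearEquiv.toSpanNonzeroSingleton_apply]
    rw [hQ.smul, hQ.smul, hQb, hQb]
  · intro h hh
    choose π c hc hπ using hmono h hh
    have hinj : Function.Injective π := by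
      intro y y' hy
      by_contra hne
      have h1 := polar_iso (hH hh) (b y) (b y')
      rw [hπ, hπ, hy, hB.smul_left, hB.smul_right, hb, hb, if_pos rfl, if_neg hne] at h1
      exact mul_ne_zero (hc y) (mul_ne_zero (hc y') hd) h1
    have hbij : Function.Bijective π := Finite.injective_iff_bijective.1 hinj
    refine ⟨(E.trans (Equiv.ofBijective π hbij)).trans E.symm, fun i => ?_⟩
    rw [Submodule.map_span, Set.image_singleton, Matrix.toLin'_apply, hπ,
      Submodule.span_singleton_smul_eq (hc _).isUnit]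
    simp

end frame



section mats

variable {F : Type*} [Field F] {k m : ℕ}

lemma pt_update (X : Fin k → Matrix (Fin m) (Fin m) F) (a₀ b₀ a b : Fin m) (i : Fin k) :
    pt X (Function.update (fun _ => a₀) i a) (Function.update (fun _ => b₀) i b) =
      X i a b * ∏ j ∈ Finset.univ.erase i, X j a₀ b₀ := by
  rw [pt_apply, ← Finset.mul_prod_erase Finset.univ _ (Finset.mem_univ i), Function.update_self,
    Function.update_self]
  congr 1
  apply Finset.prod_congr rfl
  intro j hj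
  rw [Function.update_of_ne (Finset.ne_of_mem_erase hj), Function.update_of_ne (Finset.ne_of_mem_erase hj)]

/-- uniqueness of the factors of a pure tensor, up to scalars -/
lemma pt_eq_const (X : Fin k → Matrix (Fin m) (Fin m) F) (G : Matrix (Fin m) (Fin m) F)
    (hG : G ≠ 0) (h : pt X = pt (fun _ => G)) (i : Fin k) : ∃ μ : F, X i = μ • G := by
  have : ∃ a₀ b₀, G a₀ b₀ ≠ 0 := by
    by_contra hcon
    push Not at hcon
    exact hG (by ext a b; exact hcon a b)
  obtain ⟨a₀, b₀, h0⟩ := this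
  have key : ∀ a b, X i a b * ∏ j ∈ Finset.univ.erase i, X j a₀ b₀ =
      G a b * ∏ j ∈ Finset.univ.erase i, G a₀ b₀ := by
    intro a b
    rw [← pt_update, h, pt_update]
  have hg : ∏ j ∈ Finset.univ.erase i, G a₀ b₀ ≠ 0 := Finset.prod_ne_zero_iff.2 fun _ _ => h0
  have hp : ∏ j ∈ Finset.univ.erase i, X j a₀ b₀ ≠ 0 := by
    intro hp
    have := key a₀ b₀
    rw [hp, mul_zero] at this
    exact mul_ne_zero h0 hg this.symm
  refine ⟨(∏ j ∈ Finset.univ.erase i, G a₀ b₀) / ∏ j ∈ Finset.univ.erase i, X j a₀ b₀, ?_⟩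
  ext a b
  rw [Matrix.smul_apply, smul_eq_mul]
  field_simp
  linear_combination key a b

lemma pt_transpose (A : Fin k → Matrix (Fin m) (Fin m) F) : (pt A)ᵀ = pt (fun i => (A i)ᵀ) := rfl

lemma pm_transpose_mul_apply (σ : Equiv.Perm (Fin k)) (M : Matrix (Fin k → Fin m) (Fin k → Fin m) F)
    (x y : Fin k → Fin m) :
    ((pm σ : Matrix (Fin k → Fin m) (Fin k → Fin m) F)ᵀ * M) x y = M (x ∘ σ.symm) y := by
  have h : ∀ z : Fin k → Fin m, (x = z ∘ σ) ↔ (z = x ∘ σ.symm) := by
    intro z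
    constructor
    · rintro rfl; funext j; simp
    · rintro rfl; funext j; simp
  simp [Matrix.mul_apply, pm, h]

lemma pm_conj_const (σ : Equiv.Perm (Fin k)) (G : Matrix (Fin m) (Fin m) F) :
    (pm σ : Matrix (Fin k → Fin m) (Fin k → Fin m) F)ᵀ * pt (fun _ => G) * pm σ = pt (fun _ => G) := by
  ext x y
  rw [mul_pm_apply, pm_transpose_mul_apply, pt_apply, pt_apply]
  exact Equiv.prod_comp σ.symm (fun j => G (x j) (y j))

end mats

section three

variable {F : Type*} [Field F] [Fintype F]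

lemma three_eq_zero (hq : Fintype.card F = 3) : (3 : F) = 0 := by
  have := Nat.cast_card_eq_zero F
  rw [hq] at this
  exact_mod_cast this

lemma sq_eq_one (hq : Fintype.card F = 3) {c : F} (hc : c ≠ 0) : c ^ 2 = 1 := by
  have := FiniteField.pow_card_sub_one_eq_one c hc
  rwa [hq] at this

lemma cube_eq (hq : Fintype.card F = 3) (c : F) : c ^ 3 = c := by
  have := FiniteField.pow_card c
  rwa [hq] at this

lemma one_nonzero (hq : Fintype.card F = 3) (v : Fin 3 → F) (h : ∑ a, v a * v a = 1) :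
    ∃ a, v a ≠ 0 ∧ ∀ a', a' ≠ a → v a' = 0 := by
  have h3 := three_eq_zero hq
  have hs : ∀ c : F, c = 0 ∨ c * c = 1 := by
    intro c
    by_cases hc : c = 0
    · exact Or.inl hc
    · right
      rw [← sq]
      exact sq_eq_one hq hc
  rw [Fin.sum_univ_three] at h
  have hne : ∀ c : F, c * c = 1 → c ≠ 0 := by
    rintro c hc rfl
    simp at hc
  rcases hs (v 0) with h0 | h0 <;> rcases hs (v 1) with h1 | h1 <;> rcases hs (v 2) with h2 | h2
  · rw [h0, h1, h2] at h; simp at h
  · refine ⟨2, hne _ h2, fun a' ha' => ?_⟩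
    fin_cases a' <;> simp_all
  · refine ⟨1, hne _ h1, fun a' ha' => ?_⟩
    fin_cases a' <;> simp_all
  · exfalso
    rw [h0, h1, h2] at h
    have : (1 : F) = 0 := by linear_combination h
    exact one_ne_zero this
  · refine ⟨0, hne _ h0, fun a' ha' => ?_⟩
    fin_cases a' <;> simp_all
  · exfalso
    rw [h0, h1, h2] at h
    have : (1 : F) = 0 := by linear_combination h
    exact one_ne_zero this
  · exfalso
    rw [h0, h1, h2] at h
    have : (1 : F) = 0 := by linear_combination h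
    exact one_ne_zero this
  · exfalso
    rw [h0, h1, h2] at h
    have : (1 : F) = 0 := by linear_combination h3 - h
    exact one_ne_zero this

end three

section mono

variable {F : Type*} [Field F]

/-- monomial matrices -/
def Mono {κ : Type*} [Fintype κ] [DecidableEq κ] (M : Matrix κ κ F) : Prop :=
  ∀ y, ∃ (x : κ) (c : F), c ≠ 0 ∧ M *ᵥ Pi.single y 1 = c • Pi.single x 1

lemma Mono.mul {κ : Type*} [Fintype κ] [DecidableEq κ] {M N : Matrix κ κ F} (hM : Mono M)
    (hN : Mono N) : Mono (M * N) := by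
  intro y
  obtain ⟨x, c, hc, h⟩ := hN y
  obtain ⟨x', c', hc', h'⟩ := hM x
  refine ⟨x', c * c', mul_ne_zero hc hc', ?_⟩
  rw [← Matrix.mulVec_mulVec, h, Matrix.mulVec_smul, h', smul_smul]

lemma mono_pm {k m : ℕ} (σ : Equiv.Perm (Fin k)) :
    Mono (pm σ : Matrix (Fin k → Fin m) (Fin k → Fin m) F) := by
  intro y
  refine ⟨y ∘ σ.symm, 1, one_ne_zero, ?_⟩
  ext x
  have h : (y = x ∘ σ) ↔ (x = y ∘ σ.symm) := by
    constructor
    · rintro rfl; funext j; simp
    · rintro rfl; funext j; simp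
  rw [one_smul, Matrix.mulVec_single_one]
  simp [pm, Pi.single_apply, h]

lemma mono_pt {k m : ℕ} (C : Fin k → Matrix (Fin m) (Fin m) F) (hC : ∀ i, Mono (C i)) :
    Mono (pt C) := by
  intro y
  choose π c hc h using fun i => hC i (y i)
  refine ⟨π, ∏ i, c i, Finset.prod_ne_zero_iff.2 fun i _ => hc i, ?_⟩
  ext x
  rw [Matrix.mulVec_single_one]
  have h1 : ∀ i, C i (x i) (y i) = c i * (if x i = π i then 1 else 0) := by
    intro i
    have := congrFun (h i) (x i)
    rw [Matrix.mulVec_single_one] at this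
    simpa [Pi.single_apply] using this
  simp only [Matrix.col_apply, pt_apply, h1, Finset.prod_mul_distrib, Pi.smul_apply, smul_eq_mul,
    Pi.single_apply]
  congr 1
  rw [Finset.prod_boole]
  simp [funext_iff]

lemma mono_of_orth [Fintype F] (hq : Fintype.card F = 3) (C : Matrix (Fin 3) (Fin 3) F)
    (h : Cᵀ * C = 1) : Mono C := by
  intro b
  have h1 : ∑ a, C a b * C a b = 1 := by
    have := congrFun (congrFun h b) b
    simpa [Matrix.mul_apply] using this
  obtain ⟨a, ha, ha'⟩ := one_nonzero hq (fun a => C a b) h1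
  refine ⟨a, C a b, ha, ?_⟩
  ext a'
  rw [Matrix.mulVec_single_one]
  by_cases h : a' = a
  · subst h; simp
  · simp [h, ha' a' h]

end mono

section gram

variable {F : Type*} [Field F] {κ : Type} [Fintype κ] [DecidableEq κ]

lemma gram_det {f : (κ → F) → (κ → F) → F} (hf : IsSymmetricForm f) : IsUnit (gramMatrix f).det := by
  rw [isUnit_iff_ne_zero]
  intro h0
  obtain ⟨v, hv, hv0⟩ := Matrix.exists_mulVec_eq_zero_iff.2 h0
  obtain ⟨⟨x, hx⟩, _⟩ := hf.nondegenerate v hv
  apply hx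
  have h1 := form_eq_gramIn hf.bilinear (Equiv.refl κ) (1 : GL κ F) x v
  have h2 : gramIn f (Equiv.refl κ) (1 : GL κ F) = gramMatrix f := by
    ext a b
    simp only [gramIn, gramMatrix, Equiv.coe_refl, Function.comp_id, Units.val_one, Matrix.one_mulVec]
  rw [h2] at h1
  simp only [Equiv.coe_refl, Function.comp_id, Units.val_one, Matrix.one_mulVec] at h1
  rw [h1]
  apply Finset.sum_eq_zero
  intro a _
  have h3 := congrFun hv0 a
  simp only [Matrix.mulVec, dotProduct, Pi.zero_apply] at h3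
  simp only [mul_assoc]
  rw [← Finset.mul_sum, h3, mul_zero]

omit [DecidableEq κ] in
lemma dot_conj (M S : Matrix κ κ F) (x y : κ → F) :
    (S *ᵥ x) ⬝ᵥ (M *ᵥ (S *ᵥ y)) = x ⬝ᵥ ((Sᵀ * M * S) *ᵥ y) := by
  rw [← Matrix.mulVec_mulVec, ← Matrix.mulVec_mulVec, Matrix.dotProduct_mulVec x,
    Matrix.vecMul_transpose]

lemma eq_of_dot {M N : Matrix κ κ F} (h : ∀ x y : κ → F, x ⬝ᵥ (M *ᵥ y) = x ⬝ᵥ (N *ᵥ y)) : M = N := by
  ext a b
  have := h (Pi.single a 1) (Pi.single b 1)
  simpa using this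

end gram

section main

variable {ι : Type} [Fintype ι] [DecidableEq ι] {F : Type*} [Field F]
variable {Q : (ι → F) → F} {H : Subgroup (GL ι F)}

/-- [othree] `q = 3`, factors of dimension 3: the isometries in the tensor wreath subgroup are monomial in the
tensor basis of an orthogonal basis of `f₁`: class 2 with blocks of dimension 1. -/
theorem o_three [Fintype F] (hq : Fintype.card F = 3) (hQ : IsNondegenerateQuadraticForm Q)
    (hH : H ≤ isometryGroup F Q) {k : ℕ} (hk : 1 ≤ k) (e : ι ≃ (Fin k → Fin 3)) (P : GL ι F)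
    (hle : H ≤ tensorWreathSubgroup 3 k e P) (f₁ : (Fin 3 → F) → (Fin 3 → F) → F)
    (hf₁ : IsSymmetricForm f₁) (hstr : IsTensorPowerFormStructure id (QuadraticMap.polar Q) f₁ e P) :
    ODecOne Q H := by
  classical
  obtain ⟨c, hc, hform⟩ := hstr
  set G₁ := gramMatrix f₁ with hG₁
  have hsymm : G₁ᵀ = G₁ := by
    ext a b
    exact hf₁.symm _ _
  have hdet : IsUnit G₁.det := gram_det hf₁
  have hoddF : Odd (Fintype.card F) := by rw [hq]; decide
  have h2 : (2 : F) ≠ 0 := Cfsg.Agent.Lib.Helper54OSim.two_ne_zero_of_odd hoddF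
  obtain ⟨c₁, B, hc₁, hB⟩ := Cfsg.Agent.Lib.Helper54OSim.sym_similar hoddF (by decide : Odd 3) 1 G₁
    Matrix.transpose_one hsymm (by simp) hdet
  rw [mul_one] at hB
  set Bm : Matrix (Fin 3) (Fin 3) F := (B : Matrix (Fin 3) (Fin 3) F) with hBm
  set Bi : Matrix (Fin 3) (Fin 3) F := ((B⁻¹ : GL (Fin 3) F) : Matrix (Fin 3) (Fin 3) F) with hBi
  have hBB : Bm * Bi = 1 := by rw [hBm, hBi, ← Units.val_mul, mul_inv_cancel, Units.val_one]
  have hBB' : Bi * Bm = 1 := by rw [hBm, hBi, ← Units.val_mul, inv_mul_cancel, Units.val_one]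
  set GG : Matrix (Fin k → Fin 3) (Fin k → Fin 3) F := pt (fun _ => G₁) with hGG
  set N : Matrix (Fin k → Fin 3) (Fin k → Fin 3) F := pt (fun _ => Bi) with hN
  set N' : Matrix (Fin k → Fin 3) (Fin k → Fin 3) F := pt (fun _ => Bm) with hN'
  have hNN' : N * N' = 1 := by rw [hN, hN', pt_mul]; simp only [hBB', pt_one]
  have hN'N : N' * N = 1 := by rw [hN, hN', pt_mul]; simp only [hBB, pt_one]
  have hform' : ∀ x y : (Fin k → Fin 3) → F,
      QuadraticMap.polar Q ((P : Matrix ι ι F) *ᵥ (x ∘ e)) ((P : Matrix ι ι F) *ᵥ (y ∘ e)) =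
        c * (x ⬝ᵥ (GG *ᵥ y)) := by
    intro x y
    rw [hform]
    congr 1
    simp only [dotProduct, Matrix.mulVec, Finset.mul_sum, id, mul_assoc]
    rfl
  have hPP : (P : Matrix ι ι F) * ((P⁻¹ : GL ι F) : Matrix ι ι F) = 1 := by
    rw [← Units.val_mul, mul_inv_cancel, Units.val_one]
  have hPP' : ((P⁻¹ : GL ι F) : Matrix ι ι F) * (P : Matrix ι ι F) = 1 := by
    rw [← Units.val_mul, inv_mul_cancel, Units.val_one]
  set L : ((Fin k → Fin 3) → F) ≃ₗ[F] (ι → F) :=
    ((Matrix.toLin'OfInv hN'N hNN').trans (LinearEquiv.funCongrLeft F F e)).trans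
      (Matrix.toLin'OfInv hPP' hPP) with hL
  have hLapp : ∀ x, L x = (P : Matrix ι ι F) *ᵥ ((N *ᵥ x) ∘ e) := by
    intro x
    rfl
  set b : Module.Basis (Fin k → Fin 3) F (ι → F) := (Pi.basisFun F (Fin k → Fin 3)).map L with hb
  have hbapp : ∀ y, b y = (P : Matrix ι ι F) *ᵥ ((N *ᵥ Pi.single y 1) ∘ e) := by
    intro y
    rw [hb, Module.Basis.map_apply, Pi.basisFun_apply, hLapp]
  have hNGN : Nᵀ * GG * N = pt (fun _ => c₁ • (1 : Matrix (Fin 3) (Fin 3) F)) := by
    rw [hN, hGG, pt_transpose, pt_mul, pt_mul]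
    congr 1
    funext _
    rw [hB, Matrix.mul_smul, Matrix.smul_mul]
    congr 1
    rw [← Matrix.mul_assoc, ← Matrix.transpose_mul, hBB, Matrix.transpose_one, Matrix.one_mul, hBB]
  have hcard : 2 ≤ Fintype.card (Fin k → Fin 3) := by
    simp only [Fintype.card_pi, Fintype.card_fin, Finset.prod_const, Finset.card_univ]
    calc 2 ≤ 3 ^ 1 := by norm_num
      _ ≤ 3 ^ k := Nat.pow_le_pow_right (by norm_num) hk
  refine decOne_of_frame hQ h2 hH hcard b (c * c₁ ^ k) (mul_ne_zero hc (pow_ne_zero _ hc₁)) ?_ ?_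
  · intro x y
    rw [hbapp, hbapp, hform', dot_conj, hNGN]
    simp only [Matrix.mulVec_single_one, single_one_dotProduct, Matrix.col_apply, pt_apply,
      Matrix.smul_apply, Matrix.one_apply, smul_eq_mul, Finset.prod_mul_distrib, Finset.prod_const,
      Finset.card_univ, Fintype.card_fin]
    rw [Finset.prod_boole]
    by_cases hxy : x = y
    · subst hxy; simp
    · have : ¬ ∀ i ∈ Finset.univ, x i = y i := fun h => hxy (funext fun i => h i (Finset.mem_univ i))
      rw [if_neg this, if_neg hxy]; simp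
  · intro h hh y
    obtain ⟨_, ⟨s, hs, rfl⟩, rfl⟩ := hle hh
    obtain ⟨σ, u, rfl⟩ := normal_form hs
    set A : Fin k → Matrix (Fin 3) (Fin 3) F := fun i => (u i : Matrix (Fin 3) (Fin 3) F) with hA
    set S : Matrix (Fin k → Fin 3) (Fin k → Fin 3) F := pm σ * pt A with hS
    have hact : ∀ x : (Fin k → Fin 3) → F,
        (((MulAut.conj P).toMonoidHom ((glReindex e.symm).toMonoidHom (pmGL σ * ptGL u)) : GL ι F) :
          Matrix ι ι F) *ᵥ ((P : Matrix ι ι F) *ᵥ (x ∘ e)) = (P : Matrix ι ι F) *ᵥ ((S *ᵥ x) ∘ e) := by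
      intro x
      exact conj_reindex_mulVec e P S x
    have hiso : Sᵀ * GG * S = GG := by
      apply eq_of_dot
      intro x y
      have h1 := polar_iso (hH hh) ((P : Matrix ι ι F) *ᵥ (x ∘ e)) ((P : Matrix ι ι F) *ᵥ (y ∘ e))
      rw [hact, hact, hform', hform', dot_conj] at h1
      exact mul_left_cancel₀ hc h1
    have hpt : pt (fun i => (A i)ᵀ * G₁ * A i) = pt (fun _ => G₁) := by
      rw [← hGG, ← hiso, hS, Matrix.transpose_mul, Matrix.mul_assoc, Matrix.mul_assoc,
        ← Matrix.mul_assoc GG, ← Matrix.mul_assoc (pm σ)ᵀ, ← Matrix.mul_assoc (pm σ)ᵀ, hGG,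
        pm_conj_const, pt_transpose, pt_mul, pt_mul]
      congr 1
      funext i
      rw [Matrix.mul_assoc]
    have hG₁0 : G₁ ≠ 0 := by
      rintro h0
      rw [h0] at hdet
      simp at hdet
    have hAi : ∀ i, (A i)ᵀ * G₁ * A i = G₁ := by
      intro i
      obtain ⟨μ, hμ⟩ := pt_eq_const _ G₁ hG₁0 hpt i
      have hd := congrArg Matrix.det hμ
      rw [Matrix.det_mul, Matrix.det_mul, Matrix.det_transpose, Matrix.det_smul, Fintype.card_fin,
        cube_eq hq] at hd
      have hdA : (A i).det ≠ 0 := by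
        have : IsUnit (A i).det := (Matrix.isUnit_iff_isUnit_det _).1 (u i).isUnit
        exact this.ne_zero
      have h1 : (A i).det ^ 2 = 1 := sq_eq_one hq hdA
      have h3 : μ = 1 := by
        apply mul_right_cancel₀ hdet.ne_zero
        rw [← hd, one_mul]
        linear_combination G₁.det * h1
      rw [hμ, h3, one_smul]
    have hG0 : ∀ i, (A i)ᵀ * (Bmᵀ * Bm) * A i = Bmᵀ * Bm := by
      intro i
      have h1 := hAi i
      rw [hB, Matrix.mul_smul, Matrix.smul_mul] at h1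
      exact smul_right_injective _ hc₁ h1
    set C : Fin k → Matrix (Fin 3) (Fin 3) F := fun i => Bm * A i * Bi with hC
    have hCorth : ∀ i, (C i)ᵀ * C i = 1 := by
      intro i
      have h1 : (C i)ᵀ * C i = Biᵀ * ((A i)ᵀ * (Bmᵀ * Bm) * A i) * Bi := by
        simp only [hC, Matrix.transpose_mul, Matrix.mul_assoc]
      rw [h1, hG0, ← Matrix.mul_assoc, ← Matrix.transpose_mul, hBB, Matrix.transpose_one,
        Matrix.one_mul, hBB]
    have hmono : Mono (pm σ * pt C) := (mono_pm σ).mul (mono_pt C fun i => mono_of_orth hq _ (hCorth i))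
    have hSN : S * N = N * (pm σ * pt C) := by
      have h1 : N * pm σ = pm σ * N := by
        rw [hN, pt_mul_pm]
        rfl
      rw [← Matrix.mul_assoc, h1, hS, Matrix.mul_assoc, Matrix.mul_assoc, hN, pt_mul, pt_mul]
      congr 2
      funext i
      simp only [hC]
      rw [← Matrix.mul_assoc, ← Matrix.mul_assoc, hBB', Matrix.one_mul]
    obtain ⟨x, c', hc', hx⟩ := hmono y
    refine ⟨x, c', hc', ?_⟩
    rw [hbapp, hbapp, hact, Matrix.mulVec_mulVec, hSN, ← Matrix.mulVec_mulVec, hx, ← hLapp, ← hLapp,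
      map_smul]

end main
end Cfsg.Agent.Lib.Helper54OThree
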