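import Mathlib
import Cfsg.Agent.Lib.Helper54Ord168b

set_option autoImplicit false

namespace Cfsg.Agent.Lib.Helper54Ord168c

open Subgroup Cfsg.Agent.Lib.Helper21Simple Cfsg.Agent.Lib.Helper6Syl
  Cfsg.Agent.Lib.Helper54Ord168a Cfsg.Agent.Lib.Helper54Ord168b
open scoped Pointwise

section d4

theorem d4_sq_central : ∀ x y : DihedralGroup 4, x ^ 2 * y = y * x ^ 2 := by decide

theorem d4_pow_four : ∀ x : DihedralGroup 4, x ^ 4 = 1 := by decide

theorem d4_card_sq_ne : (Finset.univ.filter (fun x : DihedralGroup 4 => x ^ 2 ≠ 1)).card = 2 := by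
  decide

theorem d4_card_cent : ∀ x : DihedralGroup 4, x ^ 2 ≠ 1 →
    (Finset.univ.filter (fun y : DihedralGroup 4 => y * x = x * y)).card = 4 := by decide

theorem d4_center : ∀ x y : DihedralGroup 4, (∀ t, t * x = x * t) → (∀ t, t * y = y * t) →
    x ≠ 1 → y ≠ 1 → x = y := by decide

theorem orderOf_eq_four_iff {K : Type*} [Group K] (x : K) (h4 : x ^ 4 = 1) :
    orderOf x = 4 ↔ x ^ 2 ≠ 1 := by
  constructor
  · intro h h2
    have := orderOf_dvd_of_pow_eq_one h2
    rw [h] at this
    omega
  · intro h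
    exact orderOf_eq_prime_pow (p := 2) (n := 1) (by simpa using h) (by simpa using h4)

theorem d4_card_order4 : Nat.card {x : DihedralGroup 4 // orderOf x = 4} = 2 := by
  rw [Nat.card_eq_fintype_card, Fintype.card_subtype, ← d4_card_sq_ne]
  congr 1
  ext x
  simp only [Finset.mem_filter, Finset.mem_univ, true_and]
  exact orderOf_eq_four_iff x (d4_pow_four x)

end d4

section main

set_option linter.unusedSectionVars false

variable {G : Type*} [Group G] [Finite G] [IsSimpleGroup G]

attribute [local instance] fact7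

/-- squares of elements of a Sylow `2`-subgroup are central in it. -/
theorem sq_central (h : Nat.card G = 168) (T : Sylow 2 G) (x y : G) (hx : x ∈ (T : Subgroup G))
    (hy : y ∈ (T : Subgroup G)) : y * x ^ 2 = x ^ 2 * y := by
  obtain ⟨e⟩ := syl2_dihedral h T
  have h1 := d4_sq_central (e ⟨x, hx⟩) (e ⟨y, hy⟩)
  rw [← map_pow, ← map_mul, ← map_mul] at h1
  have h2 := e.injective h1
  exact (congrArg Subtype.val h2).symm

theorem card_order4_in (h : Nat.card G = 168) (T : Sylow 2 G) :
    Nat.card {g : G // g ∈ (T : Subgroup G) ∧ orderOf g = 4} = 2 := by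
  obtain ⟨e⟩ := syl2_dihedral h T
  refine Eq.trans ?_ d4_card_order4
  have e1 : {g : G // g ∈ (T : Subgroup G) ∧ orderOf g = 4}
      ≃ {x : (T : Subgroup G) // orderOf x = 4} :=
    { toFun := fun g => ⟨⟨g.1, g.2.1⟩, by rw [Subgroup.orderOf_mk]; exact g.2.2⟩
      invFun := fun x => ⟨x.1.1, x.1.2, by rw [Subgroup.orderOf_coe]; exact x.2⟩
      left_inv := fun g => rfl
      right_inv := fun x => rfl }
  rw [Nat.card_congr e1]
  exact Nat.card_congr (e.toEquiv.subtypeEquiv (fun x => by
    rw [MulEquiv.toEquiv_eq_coe, MulEquiv.coe_toEquiv, e.orderOf_eq]))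

theorem exists_sylow_of_dvd (g : G) (hg : orderOf g ∣ 8) :
    ∃ P : Sylow 2 G, g ∈ (P : Subgroup G) := by
  have h1 : IsPGroup 2 (zpowers g) := by
    obtain ⟨k, -, hk⟩ := (Nat.dvd_prime_pow Nat.prime_two (m := 3)).1 hg
    apply IsPGroup.of_card (n := k)
    rw [Nat.card_zpowers, hk]
  obtain ⟨P, hle⟩ := h1.exists_le_sylow
  exact ⟨P, hle (mem_zpowers g)⟩

/-- an element of order four determines its Sylow `2`-subgroup. -/
theorem centralizer_sq (h : Nat.card G = 168) (T : Sylow 2 G) (c : G) (hc : orderOf c = 4)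
    (hcT : c ∈ (T : Subgroup G)) : centralizer ({c ^ 2} : Set G) = T := by
  apply centralizer_central h T (c ^ 2) (pow_mem hcT 2)
  · intro h2
    have := orderOf_dvd_of_pow_eq_one h2
    rw [hc] at this
    omega
  · intro t ht
    exact sq_central h T c t hcT ht

theorem card_order4 (h : Nat.card G = 168) : Nat.card {g : G // orderOf g = 4} = 42 := by
  rw [card_sigma_sylow (p := 2) (fun g : G => orderOf g = 4) 2 (card_order4_in h), card_syl2 h]
  · intro g hg
    exact exists_sylow_of_dvd g (by rw [hg]; norm_num)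
  · intro P P' g hg h1 h2
    exact Sylow.ext ((centralizer_sq h P g hg h1).symm.trans (centralizer_sq h P' g hg h2))

theorem card_order1 : Nat.card {g : G // orderOf g = 1} = 1 := by
  rw [Nat.card_eq_one_iff_unique]
  refine ⟨⟨?_⟩, ⟨⟨1, orderOf_one⟩⟩⟩
  rintro ⟨a, ha⟩ ⟨b, hb⟩
  apply Subtype.ext
  rw [orderOf_eq_one_iff] at ha hb
  exact ha.trans hb.symm

theorem card_order2 (h : Nat.card G = 168) : Nat.card {g : G // orderOf g = 2} = 21 := by
  classical
  have : Fintype G := Fintype.ofFinite G
  have h1 := Finset.card_eq_sum_card_fiberwise (s := (Finset.univ : Finset G))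
    (t := ({1, 2, 3, 4, 7} : Finset ℕ)) (f := orderOf) (by
      intro g _
      have := orders h g
      simp only [Finset.coe_insert, Finset.coe_singleton, Set.mem_insert_iff,
        Set.mem_singleton_iff]
      exact this)
  have conv : ∀ n : ℕ, (Finset.univ.filter (fun g : G => orderOf g = n)).card
      = Nat.card {g : G // orderOf g = n} := by
    intro n
    rw [Nat.card_eq_fintype_card, Fintype.card_subtype]
  simp only [conv] at h1
  rw [Finset.card_univ, ← Nat.card_eq_fintype_card, h] at h1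
  rw [Finset.sum_insert (by decide), Finset.sum_insert (by decide), Finset.sum_insert (by decide),
    Finset.sum_insert (by decide), Finset.sum_singleton, card_order1, card_order3 h,
    card_order4 h, card_order7 h] at h1
  omega

/-- class sizes. -/
theorem card_class (h : Nat.card G = 168) (x : G) (m : ℕ)
    (hm : Nat.card (centralizer ({x} : Set G)) = m) :
    Nat.card {g : G // IsConj x g} * m = 168 := by
  rw [← hm, card_conj_mul_card_centralizer, h]

theorem exists_central_involution (h : Nat.card G = 168) (T : Sylow 2 G) :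
    ∃ z : G, orderOf z = 2 ∧ centralizer ({z} : Set G) = T := by
  have h2 := card_order4_in h T
  have : Nonempty {g : G // g ∈ (T : Subgroup G) ∧ orderOf g = 4} := by
    by_contra hne
    rw [not_nonempty_iff] at hne
    rw [Nat.card_of_isEmpty] at h2
    omega
  obtain ⟨c, hcT, hc⟩ := this
  refine ⟨c ^ 2, ?_, centralizer_sq h T c hc hcT⟩
  rw [orderOf_pow, hc]; norm_num

theorem isConj_order2 (h : Nat.card G = 168) (s t : G) (hs : orderOf s = 2) (ht : orderOf t = 2) :
    IsConj s t := by
  obtain ⟨T⟩ : Nonempty (Sylow 2 G) := inferInstance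
  obtain ⟨z, hz, hzc⟩ := exists_central_involution h T
  have h1 : Nat.card {g : G // IsConj z g} = 21 := by
    have := card_class h z 8 (by rw [hzc, card_P2 h T])
    omega
  have h2 := isConj_of_card 2 21 (card_order2 h) z hz h1
  exact (h2 s hs).symm.trans (h2 t ht)

theorem isConj_order3 (h : Nat.card G = 168) (s t : G) (hs : orderOf s = 3) (ht : orderOf t = 3) :
    IsConj s t := by
  have h1 : Nat.card {g : G // IsConj s g} = 56 := by
    have := card_class h s 3 (by rw [cent3 h s hs, Nat.card_zpowers, hs])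
    omega
  exact isConj_of_card 3 56 (card_order3 h) s hs h1 t ht

theorem card_class7 (h : Nat.card G = 168) (x : G) (hx : orderOf x = 7) :
    Nat.card {g : G // IsConj x g} = 24 := by
  have := card_class h x 7 (by rw [cent7 h x hx, Nat.card_zpowers, hx])
  omega

theorem card_centralizer_order4 (h : Nat.card G = 168) (c : G) (hc : orderOf c = 4) :
    Nat.card (centralizer ({c} : Set G)) = 4 := by
  classical
  obtain ⟨T, hcT⟩ := exists_sylow_of_dvd c (by rw [hc]; norm_num)
  obtain ⟨e⟩ := syl2_dihedral h T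
  have hle : ∀ g : G, g * c = c * g → g ∈ (T : Subgroup G) := by
    intro g hg
    rw [← centralizer_sq h T c hc hcT, mem_centralizer_singleton_iff]
    have : Commute g c := hg
    exact (this.pow_right 2).eq
  have e1 : centralizer ({c} : Set G)
      ≃ {x : (T : Subgroup G) // x * ⟨c, hcT⟩ = ⟨c, hcT⟩ * x} :=
    { toFun := fun g => ⟨⟨g.1, hle g.1 (mem_centralizer_singleton_iff.1 g.2)⟩,
        Subtype.ext (mem_centralizer_singleton_iff.1 g.2)⟩
      invFun := fun x => ⟨x.1.1, mem_centralizer_singleton_iff.2 (congrArg Subtype.val x.2)⟩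
      left_inv := fun g => rfl
      right_inv := fun x => rfl }
  have e2 : {x : (T : Subgroup G) // x * ⟨c, hcT⟩ = ⟨c, hcT⟩ * x}
      ≃ {y : DihedralGroup 4 // y * e ⟨c, hcT⟩ = e ⟨c, hcT⟩ * y} :=
    e.toEquiv.subtypeEquiv (fun x => by
      rw [MulEquiv.toEquiv_eq_coe, MulEquiv.coe_toEquiv, ← map_mul, ← map_mul]
      exact e.injective.eq_iff.symm)
  rw [Nat.card_congr e1, Nat.card_congr e2, Nat.card_eq_fintype_card, Fintype.card_subtype]
  apply d4_card_cent
  rw [← map_pow]
  intro h2
  have h3 : (⟨c, hcT⟩ : (T : Subgroup G)) ^ 2 = 1 := e.injective (by rw [h2, map_one])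
  have h4 : c ^ 2 = 1 := congrArg Subtype.val h3
  have := orderOf_dvd_of_pow_eq_one h4
  rw [hc] at this
  omega

theorem isConj_order4 (h : Nat.card G = 168) (s t : G) (hs : orderOf s = 4) (ht : orderOf t = 4) :
    IsConj s t := by
  have h1 : Nat.card {g : G // IsConj s g} = 42 := by
    have := card_class h s 4 (card_centralizer_order4 h s hs)
    omega
  exact isConj_of_card 4 42 (card_order4 h) s hs h1 t ht

theorem not_isConj_inv (h : Nat.card G = 168) (x : G) (hx : orderOf x = 7) : ¬ IsConj x x⁻¹ := by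
  intro hcon
  obtain ⟨g, hg⟩ := isConj_iff.1 hcon
  obtain ⟨P, hP⟩ := exists_sylow_eq_zpowers (card_P7 h) x hx
  have hgN : g ∈ normalizer ((P : Subgroup G) : Set G) := by
    rw [hP, mem_normalizer_iff]
    have hg' : g⁻¹ * x * g = x⁻¹ := by
      have h0 : g * x⁻¹ * g⁻¹ = x := by
        calc g * x⁻¹ * g⁻¹ = (g * x * g⁻¹)⁻¹ := by group
          _ = x := by rw [hg, inv_inv]
      calc g⁻¹ * x * g = g⁻¹ * (g * x⁻¹ * g⁻¹) * g := by rw [h0]
        _ = x⁻¹ := by group
    intro y
    constructor
    · intro hy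
      obtain ⟨k, rfl⟩ := mem_zpowers_iff.1 hy
      rw [← conj_zpow, hg]
      exact zpow_mem (inv_mem (mem_zpowers x)) k
    · intro hy
      obtain ⟨k, hk⟩ := mem_zpowers_iff.1 hy
      have : y = g⁻¹ * x ^ k * g := by rw [hk]; group
      rw [this]
      have h5 := conj_zpow (a := g⁻¹) (b := x) (i := k)
      rw [inv_inv] at h5
      rw [← h5, hg']
      exact zpow_mem (inv_mem (mem_zpowers x)) k
  have hodd : Odd (orderOf g) := by
    have h1 : orderOf g ∣ 21 := by
      have := orderOf_dvd_natCard (⟨g, hgN⟩ : normalizer ((P : Subgroup G) : Set G))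
      rwa [Subgroup.orderOf_mk, card_N7 h P] at this
    exact Odd.of_dvd_nat (by decide) h1
  have h1 : SemiconjBy g x x⁻¹ := Cfsg.Agent.Lib.Helper6Inv.semiconj_iff.2 hg
  have h2 := Cfsg.Agent.Lib.Helper6Inv.semiconj_odd_pow h1 hodd
  rw [pow_orderOf_eq_one] at h2
  have h3 : x = x⁻¹ := by
    have := h2.eq
    rwa [one_mul, mul_one] at this
  have h4 : x ^ 2 = 1 := by
    rw [pow_two]
    nth_rewrite 2 [h3]
    exact mul_inv_cancel x
  have := orderOf_dvd_of_pow_eq_one h4
  rw [hx] at this
  omega

end main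

end Cfsg.Agent.Lib.Helper54Ord168c
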