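import Mathlib
import Cfsg.Agent.Lib.Helper54Ord168c
import Cfsg.Agent.S0076
import Cfsg.Agent.S1012

set_option autoImplicit false

namespace Cfsg.Agent.Lib.Helper54Ord168d

open Subgroup Cfsg.Agent.Lib.Helper21Simple Cfsg.Agent.Lib.Helper6Syl
  Cfsg.Agent.Lib.Helper54Ord168a Cfsg.Agent.Lib.Helper54Ord168b Cfsg.Agent.Lib.Helper54Ord168c
open scoped Pointwise

section klein

theorem isKleinFour_of_equiv {A B : Type*} [Group A] [Group B] (e : A ≃* B) (h : IsKleinFour A) :
    IsKleinFour B :=
  ⟨by rw [← Nat.card_congr e.toEquiv]; exact h.card_four,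
    by rw [← Monoid.exponent_eq_of_mulEquiv e]; exact h.exponent_two⟩

theorem isKleinFour_map_iff {A B : Type*} [Group A] [Group B] (f : A →* B)
    (hf : Function.Injective f) (V : Subgroup A) : IsKleinFour (V.map f) ↔ IsKleinFour V :=
  ⟨fun h => isKleinFour_of_equiv (V.equivMapOfInjective f hf).symm h,
    fun h => isKleinFour_of_equiv (V.equivMapOfInjective f hf) h⟩

theorem isKleinFour_of_card_of_sq {K : Type*} [Group K] (hK : Nat.card K = 4)
    (h2 : ∀ x : K, x * x = 1) : IsKleinFour K := by
  refine ⟨hK, ?_⟩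
  have h1 : Monoid.exponent K ∣ 2 :=
    Monoid.exponent_dvd_of_forall_pow_eq_one (fun x => by rw [pow_two, h2])
  rcases (Nat.dvd_prime Nat.prime_two).1 h1 with h | h
  · exfalso
    rw [Monoid.exp_eq_one_iff] at h
    have := Nat.card_eq_one_iff_unique.2 ⟨h, ⟨1⟩⟩
    omega
  · exact h

theorem card_klein_le {G : Type*} [Group G] (H : Subgroup G) :
    Nat.card {U : Subgroup G // U ≤ H ∧ IsKleinFour U}
      = Nat.card {V : Subgroup H // IsKleinFour V} := by
  symm
  apply Nat.card_congr
  exact
    { toFun := fun V => ⟨V.1.map H.subtype, map_subtype_le V.1,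
        (isKleinFour_map_iff H.subtype H.subtype_injective V.1).2 V.2⟩
      invFun := fun U => ⟨U.1.subgroupOf H, by
        rw [← isKleinFour_map_iff H.subtype H.subtype_injective, map_subgroupOf_eq_of_le U.2.1]
        exact U.2.2⟩
      left_inv := fun V => Subtype.ext (comap_map_eq_self_of_injective H.subtype_injective V.1)
      right_inv := fun U => Subtype.ext (map_subgroupOf_eq_of_le U.2.1) }

theorem card_klein_equiv {K K' : Type*} [Group K] [Group K'] (e : K ≃* K') :
    Nat.card {V : Subgroup K // IsKleinFour V} = Nat.card {V : Subgroup K' // IsKleinFour V} := by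
  apply Nat.card_congr
  exact e.mapSubgroup.toEquiv.subtypeEquiv (fun V =>
    (isKleinFour_map_iff e.toMonoidHom e.injective V).symm)

open DihedralGroup

def S₁ : Finset (DihedralGroup 4) := {1, r 2, sr 0, sr 2}

def S₂ : Finset (DihedralGroup 4) := {1, r 2, sr 1, sr 3}

theorem d4_key : ∀ S : Finset (DihedralGroup 4), S.card = 4 → (∀ x ∈ S, x * x = 1) →
    (∀ x ∈ S, ∀ y ∈ S, x * y ∈ S) → S = S₁ ∨ S = S₂ := by
  decide +kernel

theorem S₁_mul : ∀ a b : DihedralGroup 4, a ∈ S₁ → b ∈ S₁ → a * b ∈ S₁ := by decide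
theorem S₂_mul : ∀ a b : DihedralGroup 4, a ∈ S₂ → b ∈ S₂ → a * b ∈ S₂ := by decide
theorem S₁_inv : ∀ a : DihedralGroup 4, a ∈ S₁ → a⁻¹ ∈ S₁ := by decide
theorem S₂_inv : ∀ a : DihedralGroup 4, a ∈ S₂ → a⁻¹ ∈ S₂ := by decide
theorem S₁_sq : ∀ a : DihedralGroup 4, a ∈ S₁ → a * a = 1 := by decide
theorem S₂_sq : ∀ a : DihedralGroup 4, a ∈ S₂ → a * a = 1 := by decide

def V₁ : Subgroup (DihedralGroup 4) where
  carrier := {x | x ∈ S₁}
  mul_mem' := fun {a b} ha hb => S₁_mul a b ha hb
  one_mem' := by decide
  inv_mem' := fun {a} ha => S₁_inv a ha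

def V₂ : Subgroup (DihedralGroup 4) where
  carrier := {x | x ∈ S₂}
  mul_mem' := fun {a b} ha hb => S₂_mul a b ha hb
  one_mem' := by decide
  inv_mem' := fun {a} ha => S₂_inv a ha

theorem V₁_klein : IsKleinFour V₁ := by
  apply isKleinFour_of_card_of_sq
  · change Nat.card {x // x ∈ S₁} = 4
    rw [Nat.card_eq_fintype_card, Fintype.card_coe]
    decide
  · rintro ⟨x, hx⟩
    exact Subtype.ext (S₁_sq x hx)

theorem V₂_klein : IsKleinFour V₂ := by
  apply isKleinFour_of_card_of_sq
  · change Nat.card {x // x ∈ S₂} = 4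
    rw [Nat.card_eq_fintype_card, Fintype.card_coe]
    decide
  · rintro ⟨x, hx⟩
    exact Subtype.ext (S₂_sq x hx)

theorem d4_card_klein : Nat.card {V : Subgroup (DihedralGroup 4) // IsKleinFour V} = 2 := by
  classical
  rw [Nat.card_eq_two_iff]
  refine ⟨⟨V₁, V₁_klein⟩, ⟨V₂, V₂_klein⟩, ?_, ?_⟩
  · intro h
    have h1 : V₁ = V₂ := congrArg Subtype.val h
    have h2 : (sr 0 : DihedralGroup 4) ∈ V₁ := by
      change sr 0 ∈ S₁
      decide
    rw [h1] at h2
    revert h2
    change ¬ (sr 0 ∈ S₂)
    decide
  · rw [Set.eq_univ_iff_forall]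
    rintro ⟨V, hV⟩
    have hS := d4_key (Finset.univ.filter (fun x => x ∈ V)) (by
        rw [← Fintype.card_subtype, ← Nat.card_eq_fintype_card]
        exact hV.card_four)
      (by
        intro x hx
        rw [Finset.mem_filter] at hx
        exact congrArg Subtype.val (IsKleinFour.mul_self (⟨x, hx.2⟩ : V)))
      (by
        intro x hx y hy
        rw [Finset.mem_filter] at hx hy ⊢
        exact ⟨Finset.mem_univ _, mul_mem hx.2 hy.2⟩)
    rcases hS with hS | hS
    · left
      apply Subtype.ext
      ext x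
      change x ∈ V ↔ x ∈ S₁
      rw [← hS]
      simp
    · right
      apply Subtype.ext
      ext x
      change x ∈ V ↔ x ∈ S₂
      rw [← hS]
      simp

end klein

section main

set_option linter.unusedSectionVars false

variable {G : Type*} [Group G] [Finite G] [IsSimpleGroup G]

attribute [local instance] fact7

theorem card_klein_in (h : Nat.card G = 168) (T : Sylow 2 G) :
    Nat.card {U : Subgroup G // U ≤ (T : Subgroup G) ∧ IsKleinFour U} = 2 := by
  obtain ⟨e⟩ := syl2_dihedral h T
  rw [card_klein_le, card_klein_equiv e, d4_card_klein]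

omit [IsSimpleGroup G] in
/-- a subgroup of index two is normalized. -/
theorem le_normalizer_of_card (U H : Subgroup G) (hle : U ≤ H) (hU : Nat.card U = 4)
    (hH : Nat.card H = 8) : H ≤ normalizer (U : Set G) := by
  have h1 : (U.subgroupOf H).index = 2 := by
    have h2 := (U.subgroupOf H).card_mul_index
    rw [Nat.card_congr (subgroupOfEquivOfLe hle).toEquiv, hU, hH] at h2
    omega
  have h3 : (U.subgroupOf H).Normal := normal_of_index_eq_two h1
  exact (normal_subgroupOf_iff_le_normalizer hle).1 h3

theorem card_centralizer_involution (h : Nat.card G = 168) (u : G) (hu : orderOf u = 2) :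
    Nat.card (centralizer ({u} : Set G)) = 8 := by
  have h1 : Nat.card {g : G // IsConj u g} = 21 := by
    rw [← card_order2 h]
    apply Nat.card_congr
    apply Equiv.subtypeEquivRight
    intro g
    constructor
    · intro hg
      obtain ⟨c, hc⟩ := isConj_iff.1 hg
      rw [← hc, orderOf_conj, hu]
    · intro hg
      exact isConj_order2 h u g hu hg
  have h2 := card_conj_mul_card_centralizer u
  rw [h1, h] at h2
  omega

theorem center_unique (h : Nat.card G = 168) (T : Sylow 2 G) (x y : G)
    (hx : x ∈ (T : Subgroup G)) (hy : y ∈ (T : Subgroup G))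
    (hxc : ∀ t ∈ (T : Subgroup G), t * x = x * t) (hyc : ∀ t ∈ (T : Subgroup G), t * y = y * t)
    (hx1 : x ≠ 1) (hy1 : y ≠ 1) : x = y := by
  obtain ⟨e⟩ := syl2_dihedral h T
  have key := d4_center (e ⟨x, hx⟩) (e ⟨y, hy⟩) (by
      intro t
      obtain ⟨s, rfl⟩ := e.surjective t
      rw [← map_mul, ← map_mul]
      exact congrArg e (Subtype.ext (hxc s s.2)))
    (by
      intro t
      obtain ⟨s, rfl⟩ := e.surjective t
      rw [← map_mul, ← map_mul]
      exact congrArg e (Subtype.ext (hyc s s.2)))
    (by
      intro h1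
      apply hx1
      have : (⟨x, hx⟩ : (T : Subgroup G)) = 1 := e.injective (by rw [h1, map_one])
      exact congrArg Subtype.val this)
    (by
      intro h1
      apply hy1
      have : (⟨y, hy⟩ : (T : Subgroup G)) = 1 := e.injective (by rw [h1, map_one])
      exact congrArg Subtype.val this)
  exact congrArg Subtype.val (e.injective key)

theorem exists_sylow_of_klein (U : Subgroup G) (hU : IsKleinFour U) :
    ∃ T : Sylow 2 G, U ≤ (T : Subgroup G) := by
  have h1 : IsPGroup 2 U := by
    apply IsPGroup.of_card (n := 2)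
    rw [hU.card_four]; norm_num
  exact h1.exists_le_sylow

theorem card_normalizer_klein (h : Nat.card G = 168) (U : Subgroup G) (hU : IsKleinFour U) :
    Nat.card (normalizer (U : Set G)) = 24 := by
  classical
  obtain ⟨T, hUT⟩ := exists_sylow_of_klein U hU
  have hT : (T : Subgroup G) ≤ normalizer (U : Set G) :=
    le_normalizer_of_card U T hUT hU.card_four (card_P2 h T)
  -- a non-central element
  obtain ⟨u, huU, hu1, hunc⟩ : ∃ u ∈ U, u ≠ 1 ∧ ¬ ∀ t ∈ (T : Subgroup G), t * u = u * t := by
    by_contra hcon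
    push Not at hcon
    have : Finite U := Nat.finite_of_card_ne_zero (by rw [hU.card_four]; norm_num)
    have : Fintype U := Fintype.ofFinite _
    have h3 : 2 < Fintype.card U := by
      rw [← Nat.card_eq_fintype_card, hU.card_four]; norm_num
    obtain ⟨a, b, c, hab, hac, hbc⟩ := Fintype.two_lt_card_iff.1 h3
    have aux : ∀ x y : U, x ≠ 1 → y ≠ 1 → x = y := by
      intro x y hx hy
      apply Subtype.ext
      exact center_unique h T x y (hUT x.2) (hUT y.2)
        (hcon x x.2 (fun h' => hx (Subtype.ext h'))) (hcon y y.2 (fun h' => hy (Subtype.ext h')))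
        (fun h' => hx (Subtype.ext h')) (fun h' => hy (Subtype.ext h'))
    by_cases ha : a = 1
    · exact hbc (aux b c (fun h' => hab (ha.trans h'.symm)) (fun h' => hac (ha.trans h'.symm)))
    · by_cases hb : b = 1
      · exact hac (aux a c ha (fun h' => hbc (hb.trans h'.symm)))
      · exact hab (aux a b ha hb)
  have hu2 : orderOf u = 2 := by
    apply orderOf_eq_prime
    · rw [pow_two]
      exact congrArg Subtype.val (IsKleinFour.mul_self (⟨u, huU⟩ : U))
    · exact hu1
  have hC8 := card_centralizer_involution h u hu2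
  have hUC : U ≤ centralizer ({u} : Set G) := by
    intro x hx
    rw [mem_centralizer_singleton_iff]
    have := (IsKleinFour.isMulCommutative (G := U)).is_comm.comm ⟨x, hx⟩ ⟨u, huU⟩
    exact congrArg Subtype.val this
  have hC : centralizer ({u} : Set G) ≤ normalizer (U : Set G) :=
    le_normalizer_of_card U _ hUC hU.card_four hC8
  have hne : (T : Subgroup G) ≠ normalizer (U : Set G) := by
    intro heq
    apply hunc
    have h4 : centralizer ({u} : Set G) = T := by
      apply eq_of_le_of_card_ge (by rw [heq]; exact hC)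
      rw [hC8, card_P2 h T]
    intro t ht
    rw [← h4] at ht
    exact mem_centralizer_singleton_iff.1 ht
  have h8 : 8 ∣ Nat.card (normalizer (U : Set G)) := by
    rw [← card_P2 h T]
    exact card_dvd_of_le hT
  have hne8 : Nat.card (normalizer (U : Set G)) ≠ 8 := by
    intro h9
    exact hne (eq_of_le_of_card_ge hT (by rw [h9, card_P2 h T]))
  have hd : Nat.card (normalizer (U : Set G)) ∣ 168 := h ▸ card_subgroup_dvd_card _
  have hne168 : Nat.card (normalizer (U : Set G)) ≠ 168 := by
    intro h9
    have htop : normalizer (U : Set G) = ⊤ := eq_top_of_card_eq _ (by rw [h9, h])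
    have hn : U.Normal := normalizer_eq_top_iff.1 htop
    rcases hn.eq_bot_or_eq_top with hb | ht
    · have := hU.card_four
      rw [hb, card_bot] at this
      omega
    · have := hU.card_four
      rw [ht, card_top, h] at this
      omega
  have hne56 : Nat.card (normalizer (U : Set G)) ≠ 56 := by
    intro h9
    have hidx : (normalizer (U : Set G)).index = 3 := by
      have := (normalizer (U : Set G)).card_mul_index
      rw [h9, h] at this
      omega
    have h10 := two_mul_card_dvd_factorial (not_comm h) (normalizer (U : Set G)) (by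
      intro ht
      rw [ht, index_top] at hidx
      omega)
    rw [hidx, h] at h10
    revert h10
    decide
  have key : ∀ n ∈ Nat.divisors 168, 8 ∣ n → n ≠ 8 → n ≠ 168 → n ≠ 56 → n = 24 := by decide
  exact key _ (Nat.mem_divisors.2 ⟨hd, by norm_num⟩) h8 hne8 hne168 hne56

theorem s4_of_card (h : Nat.card G = 168) (M : Subgroup G) (hM : Nat.card M = 24) :
    Nonempty (M ≃* Equiv.Perm (Fin 4)) := by
  apply Cfsg.Agent.S1012.result hM
  intro g hg
  rw [← Subgroup.orderOf_coe] at hg
  rcases orders h (g : G) with h' | h' | h' | h' | h' <;> omega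

theorem normalizer_klein (h : Nat.card G = 168) (U : Subgroup G) (hU : IsKleinFour U) :
    Nonempty (normalizer (U : Set G) ≃* Equiv.Perm (Fin 4)) :=
  s4_of_card h _ (card_normalizer_klein h U hU)

theorem klein_not_conj (h : Nat.card G = 168) (T : Sylow 2 G) (U W : Subgroup G)
    (hUT : U ≤ (T : Subgroup G)) (hWT : W ≤ (T : Subgroup G)) (hU : IsKleinFour U)
    (hW : IsKleinFour W) (hne : U ≠ W) (g : G) : U.map (MulAut.conj g).toMonoidHom ≠ W := by
  intro hg
  have inv : ∀ V : Subgroup G, V ≤ (T : Subgroup G) → IsKleinFour V →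
      ∀ x ∈ (T : Subgroup G), (fun y => x * y * x⁻¹) '' (V : Set G) = V := by
    intro V hVT hV x hx
    have hxN := le_normalizer_of_card V T hVT hV.card_four (card_P2 h T) hx
    ext y
    constructor
    · rintro ⟨v, hv, rfl⟩
      exact (mem_normalizer_iff.1 hxN v).1 hv
    · intro hy
      refine ⟨x⁻¹ * y * x, ?_, by group⟩
      have := (mem_normalizer_iff.1 (inv_mem hxN) y).1 hy
      rwa [inv_inv] at this
  obtain ⟨n, hn, hnU⟩ := Cfsg.Agent.S0076.result T (U : Set G) (W : Set G) hUT hWT
    (inv U hUT hU) (inv W hWT hW) g (by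
      rw [← hg]
      ext y
      simp)
  have hnT : n ∈ (T : Subgroup G) := by
    have : n ∈ normalizer ((T : Subgroup G) : Set G) := hn
    rwa [normalizer_syl2 h T] at this
  rw [inv U hUT hU n hnT] at hnU
  exact hne (SetLike.coe_injective hnU)

end main

end Cfsg.Agent.Lib.Helper54Ord168d
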