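import Mathlib
import Cfsg.Agent.Lib.Helper54Ord168d

set_option autoImplicit false

namespace Cfsg.Agent.Lib.Helper54Ord168e

open Subgroup Cfsg.Agent.Lib.Helper21Simple Cfsg.Agent.Lib.Helper6Syl
  Cfsg.Agent.Lib.Helper54Ord168a Cfsg.Agent.Lib.Helper54Ord168b Cfsg.Agent.Lib.Helper54Ord168c
  Cfsg.Agent.Lib.Helper54Ord168d
open scoped Pointwise

section general

variable {G : Type*} [Group G] [Finite G]

/-- a subgroup with a unique Sylow `p`-subgroup normalizes it. -/
theorem exists_normal_sylow (M : Subgroup G) {p a r : ℕ} [Fact p.Prime]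
    (hm : Nat.card M = p ^ a * r) (hr : ¬ p ∣ r) (hn : ∀ n, n ∣ r → n % p = 1 → n = 1) :
    ∃ X : Subgroup G, X ≤ M ∧ M ≤ normalizer (X : Set G) ∧ Nat.card X = p ^ a := by
  have hp : p.Prime := Fact.out
  obtain ⟨Q⟩ : Nonempty (Sylow p M) := inferInstance
  obtain ⟨h1, h2⟩ := sylow_card_index hm hr Q
  have h3 : Nat.card (Sylow p M) = 1 := by
    apply hn
    · rw [← h2]; exact Q.card_dvd_index
    · have := card_sylow_modEq_one p M
      unfold Nat.ModEq at this
      rw [this, Nat.mod_eq_of_lt hp.one_lt]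
  have hs : Subsingleton (Sylow p M) := (Nat.card_eq_one_iff_unique.mp h3).1
  have hQ : (Q : Subgroup M).Normal := Q.normal_of_subsingleton
  refine ⟨(Q : Subgroup M).map M.subtype, map_subtype_le _, ?_, ?_⟩
  · rw [← normal_subgroupOf_iff_le_normalizer (map_subtype_le _)]
    have : ((Q : Subgroup M).map M.subtype).subgroupOf M = Q :=
      comap_map_eq_self_of_injective M.subtype_injective _
    rw [this]; exact hQ
  · rw [card_map_of_injective M.subtype_injective, h1]

theorem exists_sylow_eq_of_card {p : ℕ} [Fact p.Prime]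
    (hP : ∀ P : Sylow p G, Nat.card (P : Subgroup G) = p) (X : Subgroup G) (hX : Nat.card X = p) :
    ∃ P : Sylow p G, (P : Subgroup G) = X := by
  have h1 : IsPGroup p X := IsPGroup.of_card (n := 1) (by rw [hX, pow_one])
  obtain ⟨P, hle⟩ := h1.exists_le_sylow
  exact ⟨P, (eq_of_le_of_card_ge hle (by rw [hP P, hX])).symm⟩

omit [Finite G] in
theorem coe_smul_sylow {p : ℕ} (g : G) (P : Sylow p G) :
    ((g • P : Sylow p G) : Subgroup G) = (P : Subgroup G).map (MulAut.conj g).toMonoidHom := rfl

omit [Finite G] in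
theorem normalizer_map_conj (g : G) (H : Subgroup G) :
    normalizer ((H.map (MulAut.conj g).toMonoidHom : Subgroup G) : Set G)
      = (normalizer (H : Set G)).map (MulAut.conj g).toMonoidHom :=
  (map_equiv_normalizer_eq H (MulAut.conj g)).symm

omit [Finite G] in
theorem card_map_conj (g : G) (H : Subgroup G) :
    Nat.card (H.map (MulAut.conj g).toMonoidHom) = Nat.card H :=
  card_map_of_injective (MulAut.conj g).injective

omit [Finite G] in
theorem map_conj_map_conj_inv (g : G) (H : Subgroup G) :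
    (H.map (MulAut.conj g⁻¹).toMonoidHom).map (MulAut.conj g).toMonoidHom = H := by
  rw [map_map]
  have : (MulAut.conj g).toMonoidHom.comp (MulAut.conj g⁻¹).toMonoidHom = MonoidHom.id G := by
    ext x
    simp only [MonoidHom.comp_apply, MulEquiv.coe_toMonoidHom, MulAut.conj_apply, inv_inv,
      MonoidHom.id_apply]
    group
  rw [this, map_id]

end general

section main

set_option linter.unusedSectionVars false

variable {G : Type*} [Group G] [Finite G] [IsSimpleGroup G]

attribute [local instance] fact7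

theorem exists_klein_le (h : Nat.card G = 168) (T : Sylow 2 G) :
    ∃ U : Subgroup G, U ≤ (T : Subgroup G) ∧ IsKleinFour U := by
  have h2 := card_klein_in h T
  have : Nonempty {U : Subgroup G // U ≤ (T : Subgroup G) ∧ IsKleinFour U} := by
    by_contra hne
    rw [not_nonempty_iff] at hne
    rw [Nat.card_of_isEmpty] at h2
    omega
  obtain ⟨U, hU⟩ := this
  exact ⟨U, hU⟩

theorem ne_top_of_card (h : Nat.card G = 168) (H : Subgroup G) {n : ℕ} (hn : Nat.card H = n)
    (hn' : n ≠ 168) : H ≠ ⊤ := by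
  rintro rfl
  rw [card_top, h] at hn
  exact hn' hn.symm

/-- the normalizer of some Sylow `3`-subgroup lies in the normalizer of a given four-group. -/
theorem exists_N3_le (h : Nat.card G = 168) (U : Subgroup G) (hU : IsKleinFour U) :
    ∃ P : Sylow 3 G, normalizer ((P : Subgroup G) : Set G) ≤ normalizer (U : Set G) := by
  set H := normalizer (U : Set G) with hH
  have hH24 : Nat.card H = 24 := card_normalizer_klein h U hU
  obtain ⟨Q⟩ : Nonempty (Sylow 3 H) := inferInstance
  obtain ⟨h1, h2⟩ := sylow_card_index (p := 3) (a := 1) (m := 8) (by rw [hH24]; norm_num)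
    (by norm_num) Q
  rw [pow_one] at h1
  obtain ⟨P, hP⟩ := exists_sylow_eq_of_card (card_P3 h) ((Q : Subgroup H).map H.subtype)
    (by rw [card_map_of_injective H.subtype_injective, h1])
  refine ⟨P, ?_⟩
  have h3 : (normalizer ((Q : Subgroup H) : Set H)).map H.subtype
      ≤ normalizer ((P : Subgroup G) : Set G) := by
    rw [hP]
    exact le_normalizer_map _
  have h4 := card_normalizer_mul_card_sylow Q
  rw [hH24] at h4
  have h5 : Nat.card (Sylow 3 H) ∣ 8 := h2 ▸ Q.card_dvd_index
  have h6 := card_sylow_modEq_one 3 H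
  have h7 : Nat.card (normalizer ((Q : Subgroup H) : Set H)) ≤ 6 := by
    rw [← card_N3 h P, ← card_map_of_injective H.subtype_injective]
    exact Nat.le_of_dvd Nat.card_pos (card_dvd_of_le h3)
  have h8 : Nat.card (normalizer ((Q : Subgroup H) : Set H)) = 6 := by
    have h9 : Nat.card (Sylow 3 H) ≤ 8 := Nat.le_of_dvd (by norm_num) h5
    unfold Nat.ModEq at h6
    interval_cases (Nat.card (Sylow 3 H)) <;> omega
  have h9 : (normalizer ((Q : Subgroup H) : Set H)).map H.subtype
      = normalizer ((P : Subgroup G) : Set G) :=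
    eq_of_le_of_card_ge h3 (by rw [card_N3 h P, card_map_of_injective H.subtype_injective, h8])
  rw [← h9]
  exact map_subtype_le _

theorem exists_klein_N3 (h : Nat.card G = 168) (P : Sylow 3 G) :
    ∃ U : Subgroup G, IsKleinFour U ∧
      normalizer ((P : Subgroup G) : Set G) ≤ normalizer (U : Set G) := by
  obtain ⟨T⟩ : Nonempty (Sylow 2 G) := inferInstance
  obtain ⟨U₀, -, hU₀⟩ := exists_klein_le h T
  obtain ⟨P₀, hP₀⟩ := exists_N3_le h U₀ hU₀
  obtain ⟨g, rfl⟩ := MulAction.exists_smul_eq G P₀ P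
  refine ⟨U₀.map (MulAut.conj g).toMonoidHom,
    (isKleinFour_map_iff _ (MulAut.conj g).injective U₀).2 hU₀, ?_⟩
  rw [coe_smul_sylow, normalizer_map_conj, normalizer_map_conj]
  exact map_mono hP₀

/-- a subgroup of order four is a four-group or cyclic. -/
theorem klein_or_cyclic (X : Subgroup G) (hX : Nat.card X = 4) :
    IsKleinFour X ∨ ∃ c : G, orderOf c = 4 ∧ X = zpowers c := by
  by_cases hsq : ∀ x : X, x * x = 1
  · left
    exact isKleinFour_of_card_of_sq hX hsq
  · right
    push Not at hsq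
    obtain ⟨c, hc⟩ := hsq
    have h1 : orderOf c ∣ 4 := hX ▸ orderOf_dvd_natCard c
    have h2 : ¬ orderOf c ∣ 2 := by
      intro h
      apply hc
      rw [← pow_two]
      exact orderOf_dvd_iff_pow_eq_one.1 h
    have h3 : orderOf c = 4 := by
      have : orderOf c ≤ 4 := Nat.le_of_dvd (by norm_num) h1
      interval_cases (orderOf c) <;> omega
    rw [← Subgroup.orderOf_coe] at h3
    refine ⟨c, h3, ?_⟩
    symm
    apply eq_of_le_of_card_ge (by rw [zpowers_le]; exact c.2)
    rw [hX, Nat.card_zpowers, h3]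

theorem normalizer_cyclic_le (c : G) (hc : orderOf c = 4) :
    normalizer ((zpowers c : Subgroup G) : Set G) ≤ centralizer ({c ^ 2} : Set G) := by
  classical
  intro g hg
  rw [mem_centralizer_singleton_iff]
  have h1 : g * c * g⁻¹ ∈ zpowers c := (mem_normalizer_iff.1 hg c).1 (mem_zpowers c)
  have hc4 : c ^ 4 = 1 := by rw [← hc, pow_orderOf_eq_one]
  have h2 : orderOf (g * c * g⁻¹) = 4 := by rw [orderOf_conj, hc]
  have h3 : (g * c * g⁻¹) ^ 2 = c ^ 2 := by
    rw [mem_zpowers_iff_mem_range_orderOf, hc] at h1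
    simp only [Finset.mem_image, Finset.mem_range] at h1
    obtain ⟨k, hk, hk'⟩ := h1
    rw [← hk'] at h2 ⊢
    interval_cases k
    · rw [pow_zero, orderOf_one] at h2; omega
    · rw [pow_one]
    · rw [orderOf_pow, hc] at h2; norm_num at h2
    · rw [← pow_mul]
      calc c ^ (3 * 2) = c ^ 4 * c ^ 2 := by rw [← pow_add]
        _ = c ^ 2 := by rw [hc4, one_mul]
  rw [conj_pow] at h3
  calc g * c ^ 2 = g * c ^ 2 * g⁻¹ * g := by group
    _ = c ^ 2 * g := by rw [h3]


omit [IsSimpleGroup G] in
theorem le_normalizer_of_card_sylow (M : Subgroup G) {p : ℕ} [Fact p.Prime] (Q : Sylow p M)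
    (hn : Nat.card (Sylow p M) = 1) :
    M ≤ normalizer (((Q : Subgroup M).map M.subtype : Subgroup G) : Set G) := by
  have hs : Subsingleton (Sylow p M) := (Nat.card_eq_one_iff_unique.mp hn).1
  have hQ : (Q : Subgroup M).Normal := Q.normal_of_subsingleton
  rw [← normal_subgroupOf_iff_le_normalizer (map_subtype_le _)]
  have : ((Q : Subgroup M).map M.subtype).subgroupOf M = Q :=
    comap_map_eq_self_of_injective M.subtype_injective _
  rw [this]; exact hQ

/-- a subgroup of order twelve has a normal subgroup of order four. -/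
theorem exists_normal_four (h : Nat.card G = 168) (M : Subgroup G) (hM : Nat.card M = 12) :
    ∃ X : Subgroup G, X ≤ M ∧ M ≤ normalizer (X : Set G) ∧ Nat.card X = 4 := by
  have hP3 : ∀ Q : Sylow 3 M, Nat.card (Q : Subgroup M) = 3 := by
    intro Q
    simpa using (sylow_card_index (p := 3) (a := 1) (m := 4) (by rw [hM]; norm_num)
      (by norm_num) Q).1
  have hP2 : ∀ Q : Sylow 2 M, Nat.card (Q : Subgroup M) = 4 := by
    intro Q
    simpa using (sylow_card_index (p := 2) (a := 2) (m := 3) (by rw [hM]; norm_num)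
      (by norm_num) Q).1
  obtain ⟨Q₃⟩ : Nonempty (Sylow 3 M) := inferInstance
  have hn3 : Nat.card (Sylow 3 M) = 4 := by
    have h1 : Nat.card (Sylow 3 M) ≠ 1 := by
      intro h1
      have h2 := le_normalizer_of_card_sylow M Q₃ h1
      obtain ⟨P, hP⟩ := exists_sylow_eq_of_card (card_P3 h) ((Q₃ : Subgroup M).map M.subtype)
        (by rw [card_map_of_injective M.subtype_injective, hP3])
      rw [← hP] at h2
      have h3 := card_dvd_of_le h2
      rw [hM, card_N3 h P] at h3
      omega
    have h2 := (sylow_card_index (p := 3) (a := 1) (m := 4) (by rw [hM]; norm_num)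
      (by norm_num) Q₃).2
    have h3 : Nat.card (Sylow 3 M) ∣ 4 := h2 ▸ Q₃.card_dvd_index
    have h4 := card_sylow_modEq_one 3 M
    have h5 : Nat.card (Sylow 3 M) ≤ 4 := Nat.le_of_dvd (by norm_num) h3
    unfold Nat.ModEq at h4
    interval_cases (Nat.card (Sylow 3 M)) <;> omega
  have h8 : Nat.card {g : M // orderOf g = 3} = 8 := by
    rw [card_orderOf_eq_prime hP3, hn3]
  have hR : ({g : M | orderOf g = 3}ᶜ).ncard = 4 := by
    rw [Set.ncard_compl, hM]
    change 12 - Nat.card {g : M // orderOf g = 3} = 4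
    rw [h8]
  have hQR : ∀ Q : Sylow 2 M, ((Q : Subgroup M) : Set M) = {g : M | orderOf g = 3}ᶜ := by
    intro Q
    apply Set.eq_of_subset_of_ncard_le
    · intro g hg h3
      have h4 : orderOf g ∣ 4 := by
        have := orderOf_dvd_natCard (⟨g, hg⟩ : (Q : Subgroup M))
        rwa [Subgroup.orderOf_mk, hP2 Q] at this
      have h5 : orderOf g = 3 := h3
      rw [h5] at h4
      omega
    · rw [hR]
      change 4 ≤ Nat.card (Q : Subgroup M)
      rw [hP2 Q]
    · exact Set.toFinite _
  have hn2 : Nat.card (Sylow 2 M) = 1 := by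
    rw [Nat.card_eq_one_iff_unique]
    refine ⟨⟨fun Q Q' => ?_⟩, inferInstance⟩
    apply Sylow.ext
    apply SetLike.coe_injective
    rw [hQR Q, hQR Q']
  obtain ⟨Q₂⟩ : Nonempty (Sylow 2 M) := inferInstance
  exact ⟨(Q₂ : Subgroup M).map M.subtype, map_subtype_le _,
    le_normalizer_of_card_sylow M Q₂ hn2, by
      rw [card_map_of_injective M.subtype_injective, hP2]⟩

theorem card_le_of_ne_top (h : Nat.card G = 168) (M : Subgroup G) (hM : M ≠ ⊤) :
    Nat.card M ≤ 24 := by
  have h1 := two_mul_card_dvd_factorial (not_comm h) M hM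
  rw [h] at h1
  have h2 := M.card_mul_index
  rw [h] at h2
  have h3 : 7 ≤ M.index := by
    by_contra hlt
    push Not at hlt
    have h4 : (M.index).factorial ∣ (6 : ℕ).factorial := Nat.factorial_dvd_factorial (by omega)
    have h5 := h1.trans h4
    revert h5
    decide
  nlinarith

theorem card_coatom (h : Nat.card G = 168) (M : Subgroup G) (hM : IsCoatom M) :
    Nat.card M = 21 ∨ Nat.card M = 24 := by
  have hmax : ∀ H : Subgroup G, M ≤ H → H ≠ ⊤ → H = M :=
    fun H hle hne => (hM.le_iff.1 hle).resolve_left hne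
  have hle := card_le_of_ne_top h M hM.1
  have hd : Nat.card M ∣ 168 := h ▸ card_subgroup_dvd_card M
  have key : ∀ m ∈ Nat.divisors 168, m ≤ 24 → m ∣ 8 ∨ m = 3 ^ 1 * 1 ∨ m = 3 ^ 1 * 2 ∨ m = 12 ∨
      m = 7 ^ 1 * 1 ∨ m = 7 ^ 1 * 2 ∨ m = 21 ∨ m = 24 := by decide
  have klein : ∀ U : Subgroup G, IsKleinFour U → M ≤ normalizer (U : Set G) →
      Nat.card M = 24 := by
    intro U hU hle
    have h24 := card_normalizer_klein h U hU
    rw [← hmax _ hle (ne_top_of_card h _ h24 (by norm_num)), h24]
  have three : ∀ r : ℕ, Nat.card M = 3 ^ 1 * r → r ≤ 2 → ¬ 3 ∣ r → Nat.card M = 24 := by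
    intro r hr hr2 hr3
    obtain ⟨X, -, hMX, hX⟩ := exists_normal_sylow M (p := 3) hr hr3 (by
      intro n hn hn3
      have : r ≠ 0 := by rintro rfl; simp at hr3
      have := Nat.le_of_dvd (by omega) hn
      have hn2 : n ≤ 2 := by omega
      interval_cases n <;> omega)
    obtain ⟨P, hP⟩ := exists_sylow_eq_of_card (card_P3 h) X (by rw [hX, pow_one])
    obtain ⟨U, hU, hPU⟩ := exists_klein_N3 h P
    exact klein U hU (by rw [hP] at hPU; exact hMX.trans hPU)
  have seven : ∀ r : ℕ, Nat.card M = 7 ^ 1 * r → r ≤ 3 → r ≠ 0 → Nat.card M = 21 := by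
    intro r hr hr2 hr0
    obtain ⟨X, -, hMX, hX⟩ := exists_normal_sylow M (p := 7) hr (by omega) (by
      intro n hn hn3
      have := Nat.le_of_dvd (by omega) hn
      have hn2 : n ≤ 3 := by omega
      interval_cases n <;> omega)
    obtain ⟨P, hP⟩ := exists_sylow_eq_of_card (card_P7 h) X (by rw [hX, pow_one])
    rw [← hP] at hMX
    rw [← hmax _ hMX (ne_top_of_card h _ (card_N7 h P) (by norm_num)), card_N7 h P]
  rcases key _ (Nat.mem_divisors.2 ⟨hd, by norm_num⟩) hle with h' | h' | h' | h' | h' | h' | h' | h'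
  · right
    obtain ⟨k, -, hk⟩ := (Nat.dvd_prime_pow Nat.prime_two (m := 3)).1 h'
    obtain ⟨T, hT⟩ := (IsPGroup.of_card hk).exists_le_sylow
    obtain ⟨U, hUT, hU⟩ := exists_klein_le h T
    exact klein U hU (hT.trans (le_normalizer_of_card U T hUT hU.card_four (card_P2 h T)))
  · right; exact three 1 h' (by norm_num) (by norm_num)
  · right; exact three 2 h' (by norm_num) (by norm_num)
  · right
    obtain ⟨X, -, hMX, hX⟩ := exists_normal_four h M h'
    rcases klein_or_cyclic X hX with hK | ⟨c, hc, rfl⟩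
    · exact klein X hK hMX
    · exfalso
      have h1 := card_dvd_of_le (hMX.trans (normalizer_cyclic_le c hc))
      rw [h', card_centralizer_involution h (c ^ 2) (by rw [orderOf_pow, hc]; norm_num)] at h1
      omega
  · left; exact seven 1 h' (by norm_num) (by norm_num)
  · left; exact seven 2 h' (by norm_num) (by norm_num)
  · left; exact h'
  · right; exact h'

theorem eq_normalizer_of_card21 (h : Nat.card G = 168) (M : Subgroup G) (hM : Nat.card M = 21) :
    ∃ P : Sylow 7 G, M = normalizer ((P : Subgroup G) : Set G) := by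
  obtain ⟨X, -, hMX, hX⟩ := exists_normal_sylow M (p := 7) (a := 1) (r := 3)
    (by rw [hM]; norm_num) (by norm_num) (by
      intro n hn hn3
      have := Nat.le_of_dvd (by omega) hn
      interval_cases n <;> omega)
  obtain ⟨P, hP⟩ := exists_sylow_eq_of_card (card_P7 h) X (by rw [hX, pow_one])
  rw [← hP] at hMX
  exact ⟨P, eq_of_le_of_card_ge hMX (by rw [card_N7 h P, hM])⟩

theorem not_comm_of_card21 (h : Nat.card G = 168) (M : Subgroup G) (hM : Nat.card M = 21) :
    ¬ IsMulCommutative M := by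
  intro hc
  obtain ⟨P, rfl⟩ := eq_normalizer_of_card21 h M hM
  apply not_normalizer_le_centralizer (not_comm h) P (by rw [h]; norm_num)
  intro n hn
  rw [mem_centralizer_iff]
  intro x hx
  have := hc.is_comm.comm (⟨x, le_normalizer hx⟩ : normalizer ((P : Subgroup G) : Set G)) ⟨n, hn⟩
  exact congrArg Subtype.val this

theorem conj_of_card21 (h : Nat.card G = 168) (M M' : Subgroup G) (hM : Nat.card M = 21)
    (hM' : Nat.card M' = 21) : ∃ g : G, M' = M.map (MulAut.conj g).toMonoidHom := by
  obtain ⟨P, rfl⟩ := eq_normalizer_of_card21 h M hM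
  obtain ⟨P', rfl⟩ := eq_normalizer_of_card21 h M' hM'
  obtain ⟨g, rfl⟩ := MulAction.exists_smul_eq G P P'
  exact ⟨g, by rw [coe_smul_sylow, normalizer_map_conj]⟩

end main

end Cfsg.Agent.Lib.Helper54Ord168e
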