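import Mathlib
import Cfsg.Agent.Lib.Helper54Ord168e

set_option autoImplicit false

namespace Cfsg.Agent.Lib.Helper54Ord168f

open Subgroup Cfsg.Agent.Lib.Helper21Simple Cfsg.Agent.Lib.Helper6Syl
  Cfsg.Agent.Lib.Helper54Ord168a Cfsg.Agent.Lib.Helper54Ord168b Cfsg.Agent.Lib.Helper54Ord168c
  Cfsg.Agent.Lib.Helper54Ord168d Cfsg.Agent.Lib.Helper54Ord168e
open scoped Pointwise

section perm

open Equiv

def SV : Finset (Perm (Fin 4)) :=
  {1, swap 0 1 * swap 2 3, swap 0 2 * swap 1 3, swap 0 3 * swap 1 2}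

theorem SV_mul : ∀ a b : Perm (Fin 4), a ∈ SV → b ∈ SV → a * b ∈ SV := by decide
theorem SV_inv : ∀ a : Perm (Fin 4), a ∈ SV → a⁻¹ ∈ SV := by decide
theorem SV_sq : ∀ a : Perm (Fin 4), a ∈ SV → a * a = 1 := by decide
theorem SV_conj : ∀ a g : Perm (Fin 4), a ∈ SV → g * a * g⁻¹ ∈ SV := by decide

def VP : Subgroup (Perm (Fin 4)) where
  carrier := {x | x ∈ SV}
  mul_mem' := fun {a b} ha hb => SV_mul a b ha hb
  one_mem' := by decide
  inv_mem' := fun {a} ha => SV_inv a ha

theorem VP_klein : IsKleinFour VP := by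
  apply isKleinFour_of_card_of_sq
  · change Nat.card {x // x ∈ SV} = 4
    rw [Nat.card_eq_fintype_card, Fintype.card_coe]
    decide
  · rintro ⟨x, hx⟩
    exact Subtype.ext (SV_sq x hx)

theorem VP_normal : VP.Normal := ⟨fun a ha g => SV_conj a g ha⟩

end perm

section main

set_option linter.unusedSectionVars false

variable {G : Type*} [Group G] [Finite G] [IsSimpleGroup G]

attribute [local instance] fact7

theorem eq_normalizer_klein (h : Nat.card G = 168) (M : Subgroup G)
    (e : M ≃* Equiv.Perm (Fin 4)) : ∃ K : Subgroup G, IsKleinFour K ∧ M = normalizer (K : Set G) := by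
  have hM : Nat.card M = 24 := by
    rw [Nat.card_congr e.toEquiv, Nat.card_eq_fintype_card, Fintype.card_perm, Fintype.card_fin]
    rfl
  set K' : Subgroup M := VP.map e.symm.toMonoidHom with hK'
  have hK'n : K'.Normal := VP_normal.map _ e.symm.surjective
  have hK'k : IsKleinFour K' := (isKleinFour_map_iff _ e.symm.injective VP).2 VP_klein
  have hKk : IsKleinFour (K'.map M.subtype) :=
    (isKleinFour_map_iff _ M.subtype_injective K').2 hK'k
  refine ⟨K'.map M.subtype, hKk, ?_⟩
  apply eq_of_le_of_card_ge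
  · rw [← normal_subgroupOf_iff_le_normalizer (map_subtype_le _)]
    have : (K'.map M.subtype).subgroupOf M = K' :=
      comap_map_eq_self_of_injective M.subtype_injective _
    rw [this]; exact hK'n
  · rw [card_normalizer_klein h _ hKk, hM]

theorem isCoatom_normalizer_klein (h : Nat.card G = 168) (U : Subgroup G) (hU : IsKleinFour U) :
    IsCoatom (normalizer (U : Set G)) := by
  have h24 := card_normalizer_klein h U hU
  refine ⟨ne_top_of_card h _ h24 (by norm_num), fun H hlt => ?_⟩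
  by_contra hne
  have h1 := card_le_of_ne_top h H hne
  exact hlt.ne (eq_of_le_of_card_ge hlt.le (by rw [h24]; exact h1))

theorem klein_eq_of_normalizer_eq (h : Nat.card G = 168) (U U' : Subgroup G) (hU : IsKleinFour U)
    (hU' : IsKleinFour U') (hN : normalizer (U : Set G) = normalizer (U' : Set G)) : U = U' := by
  by_contra hne
  set N := normalizer (U : Set G) with hNdef
  have h24 : Nat.card N = 24 := card_normalizer_klein h U hU
  have hUN : U ≤ N := le_normalizer
  have hU'N : U' ≤ N := by rw [hN]; exact le_normalizer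
  have n1 : (U.subgroupOf N).Normal := (normal_subgroupOf_iff_le_normalizer hUN).2 le_rfl
  have n2 : (U'.subgroupOf N).Normal :=
    (normal_subgroupOf_iff_le_normalizer hU'N).2 (by rw [hN])
  have n3 : ((U ⊔ U').subgroupOf N).Normal := by
    rw [subgroupOf_sup hUN hU'N]
    infer_instance
  have hle : N ≤ normalizer ((U ⊔ U' : Subgroup G) : Set G) :=
    (normal_subgroupOf_iff_le_normalizer (sup_le hUN hU'N)).1 n3
  have p1 : IsPGroup 2 U := IsPGroup.of_card (n := 2) (by rw [hU.card_four]; norm_num)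
  have p2 : IsPGroup 2 U' := IsPGroup.of_card (n := 2) (by rw [hU'.card_four]; norm_num)
  have p3 : IsPGroup 2 (U ⊔ U' : Subgroup G) :=
    IsPGroup.to_sup_of_normal_right' p1 p2 (by rw [← hN]; exact hUN)
  obtain ⟨T, hT⟩ := p3.exists_le_sylow
  have hlt : U < U ⊔ U' := by
    refine lt_of_le_of_ne le_sup_left ?_
    intro heq
    apply hne
    have : U' ≤ U := by rw [heq]; exact le_sup_right
    exact (eq_of_le_of_card_ge this (by rw [hU.card_four, hU'.card_four])).symm
  have c1 : 4 < Nat.card (U ⊔ U' : Subgroup G) := by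
    rw [← hU.card_four]
    exact Set.ncard_lt_ncard (s := (U : Set G)) (t := ((U ⊔ U' : Subgroup G) : Set G)) hlt
      (Set.toFinite _)
  have c2 : Nat.card (U ⊔ U' : Subgroup G) ∣ 8 := by
    rw [← card_P2 h T]
    exact card_dvd_of_le hT
  have c3 : Nat.card (U ⊔ U' : Subgroup G) = 8 := by
    have : Nat.card (U ⊔ U' : Subgroup G) ≤ 8 := Nat.le_of_dvd (by norm_num) c2
    interval_cases (Nat.card (U ⊔ U' : Subgroup G)) <;> omega
  have hTeq : (U ⊔ U' : Subgroup G) = T := eq_of_le_of_card_ge hT (by rw [c3, card_P2 h T])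
  rw [hTeq, normalizer_syl2 h T] at hle
  have := card_dvd_of_le hle
  rw [h24, card_P2 h T] at this
  omega

theorem main (h : Nat.card G = 168) :
    (∀ M : Subgroup G, IsCoatom M → Nonempty (↥M ≃* Equiv.Perm (Fin 4)) ∨
      (Nat.card ↥M = 21 ∧ ¬ IsMulCommutative ↥M)) ∧
    (∀ M M' : Subgroup G, IsCoatom M → IsCoatom M' → Nat.card ↥M = 21 → Nat.card ↥M' = 21 →
      ∃ g : G, M' = M.map (MulAut.conj g).toMonoidHom) ∧
    ∃ M₁ M₂ : Subgroup G, IsCoatom M₁ ∧ IsCoatom M₂ ∧ Nonempty (↥M₁ ≃* Equiv.Perm (Fin 4)) ∧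
      Nonempty (↥M₂ ≃* Equiv.Perm (Fin 4)) ∧
      (∀ g : G, M₂ ≠ M₁.map (MulAut.conj g).toMonoidHom) ∧
      ∀ M : Subgroup G, IsCoatom M → Nonempty (↥M ≃* Equiv.Perm (Fin 4)) →
        ∃ g : G, M = M₁.map (MulAut.conj g).toMonoidHom ∨
          M = M₂.map (MulAut.conj g).toMonoidHom := by
  refine ⟨?_, ?_, ?_⟩
  · intro M hM
    rcases card_coatom h M hM with h' | h'
    · right; exact ⟨h', not_comm_of_card21 h M h'⟩
    · left; exact s4_of_card h M h'
  · intro M M' _ _ hM hM'
    exact conj_of_card21 h M M' hM hM'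
  · obtain ⟨T⟩ : Nonempty (Sylow 2 G) := inferInstance
    obtain ⟨⟨U₁, hU₁T, hU₁⟩, ⟨U₂, hU₂T, hU₂⟩, hne, huniv⟩ :=
      Nat.card_eq_two_iff.1 (card_klein_in h T)
    have hne' : U₁ ≠ U₂ := fun h' => hne (Subtype.ext h')
    refine ⟨normalizer (U₁ : Set G), normalizer (U₂ : Set G), isCoatom_normalizer_klein h U₁ hU₁,
      isCoatom_normalizer_klein h U₂ hU₂, normalizer_klein h U₁ hU₁, normalizer_klein h U₂ hU₂,
      ?_, ?_⟩
    · intro g hg
      rw [← normalizer_map_conj] at hg
      have h1 := klein_eq_of_normalizer_eq h U₂ _ hU₂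
        ((isKleinFour_map_iff _ (MulAut.conj g).injective U₁).2 hU₁) hg
      exact klein_not_conj h T U₁ U₂ hU₁T hU₂T hU₁ hU₂ hne' g h1.symm
    · rintro M - ⟨e⟩
      obtain ⟨K, hK, rfl⟩ := eq_normalizer_klein h M e
      obtain ⟨T', hT'⟩ := exists_sylow_of_klein K hK
      obtain ⟨g, rfl⟩ := MulAction.exists_smul_eq G T T'
      rw [coe_smul_sylow] at hT'
      have h1 : K.map (MulAut.conj g⁻¹).toMonoidHom ≤ (T : Subgroup G) := by
        have h2 := map_mono (f := (MulAut.conj g⁻¹).toMonoidHom) hT'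
        have h3 := map_conj_map_conj_inv g⁻¹ (T : Subgroup G)
        rw [inv_inv] at h3
        rwa [h3] at h2
      have h2 : IsKleinFour (K.map (MulAut.conj g⁻¹).toMonoidHom) :=
        (isKleinFour_map_iff _ (MulAut.conj g⁻¹).injective K).2 hK
      have h3 : (⟨K.map (MulAut.conj g⁻¹).toMonoidHom, h1, h2⟩ :
          {U : Subgroup G // U ≤ (T : Subgroup G) ∧ IsKleinFour U}) ∈
          ({⟨U₁, hU₁T, hU₁⟩, ⟨U₂, hU₂T, hU₂⟩} : Set _) := by
        rw [huniv]; trivial
      refine ⟨g, ?_⟩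
      rw [← normalizer_map_conj, ← normalizer_map_conj]
      rcases h3 with h3 | h3
      · left
        have h4 : K.map (MulAut.conj g⁻¹).toMonoidHom = U₁ := congrArg Subtype.val h3
        rw [← h4, map_conj_map_conj_inv]
      · right
        have h4 : K.map (MulAut.conj g⁻¹).toMonoidHom = U₂ := congrArg Subtype.val h3
        rw [← h4, map_conj_map_conj_inv]

end main

end Cfsg.Agent.Lib.Helper54Ord168f
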