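import Cfsg.Agent.Lib.Helper55FF
import Cfsg.Agent.Lib.Helper55SL2
import Cfsg.Agent.Lib.Helper54Parabolic

set_option autoImplicit false

/-! Failure of factorization (Kurzweil–Stellmacher 9.3.4): `⟨A, A^x⟩ ≅ SL(2,p)`. -/

namespace Cfsg.Agent.Lib.Helper55FF

open Subgroup Cfsg.Agent.Lib.Helper55Act Cfsg.Agent.Lib.Helper55SL2
open scoped commutatorElement

variable {G : Type*} [Group G]

theorem isPGroup_of_card_prime {p : ℕ} {A : Subgroup G} (h : Nat.card A = p) : IsPGroup p A :=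
  IsPGroup.of_card (n := 1) (by rw [h, pow_one])

theorem ne_bot_of_card_prime {p : ℕ} [hp : Fact p.Prime] {A : Subgroup G} (h : Nat.card A = p) :
    A ≠ ⊥ := by
  rintro rfl
  have : p = 1 := by rw [← h]; simp
  exact hp.out.one_lt.ne' this

/-- a subgroup of a group of prime order is trivial or everything -/
theorem eq_bot_or_eq_of_le_card_prime [Finite G] {p : ℕ} [hp : Fact p.Prime] {A B : Subgroup G}
    (h : Nat.card A = p) (hBA : B ≤ A) : B = ⊥ ∨ B = A := by
  have h1 : Nat.card B ∣ p := h ▸ card_dvd_of_le hBA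
  rcases (Nat.dvd_prime hp.out).1 h1 with h2 | h2
  · exact Or.inl ((Subgroup.card_eq_one).1 h2)
  · exact Or.inr (Subgroup.eq_of_le_of_card_ge hBA (by rw [h, h2]))

theorem inf_eq_bot_of_card_prime [Finite G] {p : ℕ} [hp : Fact p.Prime] {A B : Subgroup G}
    (h : Nat.card A = p) (hAB : ¬ A ≤ B) : A ⊓ B = ⊥ := by
  rcases eq_bot_or_eq_of_le_card_prime h (inf_le_left : A ⊓ B ≤ A) with h1 | h1
  · exact h1
  · exact absurd (inf_eq_left.1 h1) hAB

/-- a `p`-group acting on a group of order `p` acts trivially. -/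
theorem le_centralizer_of_card_prime [Finite G] {p : ℕ} [hp : Fact p.Prime] {A X : Subgroup G}
    (hA : IsPGroup p A) (hX : Nat.card X = p) (hAX : A ≤ normalizer (X : Set G)) :
    A ≤ centralizer (X : Set G) := by
  have h1 := Cfsg.Agent.Lib.Helper54Parabolic.inf_centralizer_ne_bot hA (isPGroup_of_card_prime hX)
    (ne_bot_of_card_prime hX) hAX
  rcases eq_bot_or_eq_of_le_card_prime hX (inf_le_left : X ⊓ centralizer (A : Set G) ≤ X) with h2 | h2
  · exact absurd h2 h1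
  · exact le_centralizer_iff.1 (inf_eq_left.1 h2)

namespace FF

variable {p : ℕ} [hp : Fact p.Prime] {V H : Subgroup G}

theorem card_dvd_of_isPGroup_le [Finite G] (_h : FF p V H) {A P : Subgroup G} (hAH : A ≤ H)
    (hA : IsPGroup p A) (hP : IsPGroup p P) (hPle : P ≤ Qof p H ⊔ A) : Nat.card P ∣ Nat.card A := by
  have hQA : Qof p H ⊔ A ≤ H := sup_le (Qof_le p H) hAH
  have h1 := Cfsg.Agent.Lib.Helper30SZ.card_sup ((hPle.trans hQA).trans (le_normalizer_Qof p H))
    (coprime_card_of_isPGroup hP (card_Qof_coprime p H))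
  have h2 := Cfsg.Agent.Lib.Helper30SZ.card_sup (hAH.trans (le_normalizer_Qof p H))
    (coprime_card_of_isPGroup hA (card_Qof_coprime p H))
  have h3 : Nat.card ↥(Qof p H ⊔ P) ∣ Nat.card ↥(Qof p H ⊔ A) :=
    card_dvd_of_le (sup_le le_sup_left hPle)
  rw [h1, h2] at h3
  exact Nat.dvd_of_mul_dvd_mul_left Nat.card_pos h3

/-- two distinct subgroups of order `p` in `QA` generate a group without normal `p`-subgroups. -/
theorem eq_bot_of_normal_pgroup [Finite G] (h : FF p V H) {A A' N : Subgroup G} (hAH : A ≤ H)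
    (hA : Nat.card A = p) (hA' : Nat.card A' = p) (hne : A ≠ A') (hA'le : A' ≤ Qof p H ⊔ A)
    (hN : IsPGroup p N) (hNle : N ≤ A ⊔ A') (hnorm : A ⊔ A' ≤ normalizer (N : Set G)) : N = ⊥ := by
  have hLle : A ⊔ A' ≤ Qof p H ⊔ A := sup_le le_sup_right hA'le
  have key : ∀ B : Subgroup G, Nat.card B = p → B ≤ A ⊔ A' → N ≤ B := by
    intro B hB hBL
    have h1 : IsPGroup p (N ⊔ B : Subgroup G) :=
      hN.to_sup_of_normal_left' (isPGroup_of_card_prime hB) (hBL.trans hnorm)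
    have h2 := h.card_dvd_of_isPGroup_le hAH (isPGroup_of_card_prime hA) h1
      ((sup_le hNle hBL).trans hLle)
    rw [hA] at h2
    have h3 : B = N ⊔ B := by
      apply Subgroup.eq_of_le_of_card_ge le_sup_right
      rw [hB]
      exact Nat.le_of_dvd hp.out.pos h2
    rw [h3]
    exact le_sup_left
  have h1 : N ≤ A ⊓ A' := le_inf (key A hA le_sup_left) (key A' hA' le_sup_right)
  have h2 : ¬ A ≤ A' := fun hle => hne (Subgroup.eq_of_le_of_card_ge hle (by rw [hA, hA']))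
  rw [inf_eq_bot_of_card_prime hA h2] at h1
  exact eq_bot_iff.2 h1

omit hp in
theorem isPGroup_of_stab (h : FF p V H) {N W : Subgroup G} (hNH : N ≤ H) (hWV : W ≤ V)
    (h1 : ⁅V, N⁆ ≤ W) (h2 : N ≤ centralizer (W : Set G)) : IsPGroup p N := by
  intro g
  refine ⟨1, ?_⟩
  rw [pow_one]
  apply Subtype.ext
  have h3 := pow_mem_centralizer_of_stab (p := p) (V := V) (W := W) (g := g)
    (fun w hw => h.hV.2 w (hWV hw)) (fun v hv => h1 (commutator_mem_commutator hv g.2)) (h2 g.2)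
  exact h.eq_one_of_centralizes (H.pow_mem (hNH g.2) _) h3

end FF

/-- The conjugate `x A x⁻¹`. -/
abbrev cjg (x : G) (A : Subgroup G) : Subgroup G := A.map (MulAut.conj x).toMonoidHom

theorem card_cjg (x : G) (A : Subgroup G) : Nat.card (cjg x A) = Nat.card A :=
  card_map_of_injective (MulAut.conj x).injective

theorem cjg_eq_of_mem_normalizer {x : G} {V : Subgroup G} (hx : x ∈ normalizer (V : Set G)) :
    cjg x V = V := by
  ext y
  constructor
  · rintro ⟨v, hv, rfl⟩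
    exact conj_mem_of_mem_normalizer hx hv
  · intro hy
    exact ⟨x⁻¹ * y * x, conj_mem_of_mem_normalizer' hx hy, by simp [MulAut.conj_apply, mul_assoc]⟩

theorem cjg_commutator (x : G) (V A : Subgroup G) : cjg x ⁅V, A⁆ = ⁅cjg x V, cjg x A⁆ :=
  map_commutator _ _ _

namespace FF

variable {p : ℕ} [hp : Fact p.Prime] {V H : Subgroup G}

omit hp in
theorem cjg_le_sup (_h : FF p V H) {A : Subgroup G} (hAH : A ≤ H) {x : G} (hx : x ∈ Qof p H) :
    cjg x A ≤ Qof p H ⊔ A := by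
  rintro _ ⟨a, ha, rfl⟩
  have h1 : a * x⁻¹ * a⁻¹ ∈ Qof p H :=
    conj_mem_of_mem_normalizer (le_normalizer_Qof p H (hAH ha)) (inv_mem hx)
  have h2 : (MulAut.conj x).toMonoidHom a = (x * (a * x⁻¹ * a⁻¹)) * a := by
    simp only [MulEquiv.coe_toMonoidHom, MulAut.conj_apply]; group
  rw [h2]
  exact mul_mem (le_sup_left (a := Qof p H) (mul_mem hx h1)) (le_sup_right (a := Qof p H) ha)

omit hp in
theorem cjg_ne [Finite G] (_h : FF p V H) {A : Subgroup G} (hAH : A ≤ H) (hA : IsPGroup p A) {x : G}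
    (hx : x ∈ Qof p H) (hxA : x ∉ centralizer (A : Set G)) : A ≠ cjg x A := by
  intro heq
  apply hxA
  rw [mem_centralizer_iff]
  intro a ha
  have h1 : x * a * x⁻¹ ∈ A := by
    rw [heq]
    exact ⟨a, ha, rfl⟩
  have h2 : a * x⁻¹ * a⁻¹ ∈ Qof p H :=
    conj_mem_of_mem_normalizer (le_normalizer_Qof p H (hAH ha)) (inv_mem hx)
  have h3 : x * a * x⁻¹ * a⁻¹ = 1 := by
    apply eq_one_of_mem_of_coprime hA (card_Qof_coprime p H) (A.mul_mem h1 (A.inv_mem ha))
    have : x * a * x⁻¹ * a⁻¹ = x * (a * x⁻¹ * a⁻¹) := by group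
    rw [this]
    exact mul_mem hx h2
  have h4 : x * a = a * x := by
    have := mul_inv_eq_one.1 h3
    exact mul_inv_eq_iff_eq_mul.1 this
  exact h4.symm

/-- The package of facts about `L = ⟨A, A'⟩` for two distinct "transvection subgroups" in `QA`. -/
structure Pair (p : ℕ) (V H A A' : Subgroup G) : Prop where
  hAH : A ≤ H
  hA'H : A' ≤ H
  hA : Nat.card A = p
  hA' : Nat.card A' = p
  hne : A ≠ A'
  hle : A' ≤ Qof p H ⊔ A
  hX : Nat.card ↥(⁅V, A⁆) = p
  hX' : Nat.card ↥(⁅V, A'⁆) = p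

theorem pair_of_conj [Finite G] (h : FF p V H) {A : Subgroup G} (hAH : A ≤ H)
    (hA : Cfsg.IsBestOffenderOn p V A) (hc : Nat.card A = p) {x : G} (hx : x ∈ Qof p H)
    (hxA : x ∉ centralizer (A : Set G)) : Pair p V H A (cjg x A) where
  hAH := hAH
  hA'H := (h.cjg_le_sup hAH hx).trans (sup_le (Qof_le p H) hAH)
  hA := hc
  hA' := by rw [card_cjg, hc]
  hne := h.cjg_ne hAH (isPGroup_of_card_prime hc) hx hxA
  hle := h.cjg_le_sup hAH hx
  hX := (h.transvection hAH hA hc).1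
  hX' := by
    have h1 : cjg x V = V := cjg_eq_of_mem_normalizer (h.hHV (Qof_le p H hx))
    have h2 := cjg_commutator x V A
    rw [h1] at h2
    rw [← h2, card_cjg]
    exact (h.transvection hAH hA hc).1

namespace Pair

variable {A A' : Subgroup G}

omit hp in
theorem le_H (P : Pair p V H A A') : A ⊔ A' ≤ H := sup_le P.hAH P.hA'H

omit hp in
theorem commutator_eq (h : FF p V H) (P : Pair p V H A A') : ⁅V, A ⊔ A'⁆ = ⁅V, A⁆ ⊔ ⁅V, A'⁆ :=
  commutator_sup_eq (P.hAH.trans h.hHV) (P.hA'H.trans h.hHV)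

omit hp in
theorem commutator_le (h : FF p V H) (P : Pair p V H A A') : ⁅V, A ⊔ A'⁆ ≤ V :=
  commutator_le_left (P.le_H.trans h.hHV)

omit hp in
theorem le_normalizer_commutator (h : FF p V H) (P : Pair p V H A A') :
    A ⊔ A' ≤ normalizer ((⁅V, A ⊔ A'⁆ : Subgroup G) : Set G) :=
  Cfsg.Agent.Lib.Helper30SZ.le_normalizer_commutator (P.le_H.trans h.hHV) le_normalizer

theorem not_isPGroup [Finite G] (h : FF p V H) (P : Pair p V H A A') : ¬ IsPGroup p ↥(A ⊔ A') := by
  intro hL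
  have := h.eq_bot_of_normal_pgroup P.hAH P.hA P.hA' P.hne P.hle hL le_rfl le_normalizer
  exact ne_bot_of_card_prime P.hA (eq_bot_iff.2 (this ▸ le_sup_left))

theorem commutator_ne [Finite G] (h : FF p V H) (P : Pair p V H A A') : ⁅V, A⁆ ≠ ⁅V, A'⁆ := by
  intro heq
  apply P.not_isPGroup h
  have h1 : A ≤ centralizer ((⁅V, A⁆ : Subgroup G) : Set G) :=
    le_centralizer_of_card_prime (isPGroup_of_card_prime P.hA) P.hX
      (Cfsg.Agent.Lib.Helper30SZ.le_normalizer_commutator (P.hAH.trans h.hHV) le_normalizer)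
  have h2 : A' ≤ centralizer ((⁅V, A'⁆ : Subgroup G) : Set G) :=
    le_centralizer_of_card_prime (isPGroup_of_card_prime P.hA') P.hX'
      (Cfsg.Agent.Lib.Helper30SZ.le_normalizer_commutator (P.hA'H.trans h.hHV) le_normalizer)
  apply h.isPGroup_of_stab P.le_H (commutator_le_left (P.hAH.trans h.hHV) : ⁅V, A⁆ ≤ V)
  · rw [P.commutator_eq h, ← heq, sup_idem]
  · exact sup_le h1 (heq ▸ h2)

theorem card_commutator [Finite G] (h : FF p V H) (P : Pair p V H A A') :
    Nat.card ↥(⁅V, A ⊔ A'⁆) = p ^ 2 := by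
  have hXV : ⁅V, A⁆ ≤ V := commutator_le_left (P.hAH.trans h.hHV)
  have hX'V : ⁅V, A'⁆ ≤ V := commutator_le_left (P.hA'H.trans h.hHV)
  have hn : ⁅V, A'⁆ ≤ normalizer ((⁅V, A⁆ : Subgroup G) : Set G) :=
    ((hX'V.trans (le_centralizer_of_elemAb h.hV)).trans (centralizer_le hXV)).trans
      (centralizer_le_normalizer _)
  rw [P.commutator_eq h, Cfsg.Agent.Lib.Helper27Core.card_sup_eq hn, P.hX, pow_two]
  congr 1
  have h1 : (⁅V, A⁆ : Subgroup G).relIndex ⁅V, A'⁆ ∣ p := P.hX' ▸ relIndex_dvd_card _ _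
  rcases (Nat.dvd_prime hp.out).1 h1 with h2 | h2
  · exfalso
    rw [relIndex_eq_one] at h2
    exact P.commutator_ne h (Subgroup.eq_of_le_of_card_ge h2 (by rw [P.hX, P.hX'])).symm
  · exact h2

theorem inf_centralizer_eq_bot [Finite G] (h : FF p V H) (P : Pair p V H A A') :
    (A ⊔ A') ⊓ centralizer ((⁅V, A ⊔ A'⁆ : Subgroup G) : Set G) = ⊥ := by
  apply h.eq_bot_of_normal_pgroup P.hAH P.hA P.hA' P.hne P.hle _ inf_le_left
  · apply le_normalizer_of_conj_mem
    rintro g hg d ⟨hd1, hd2⟩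
    refine Subgroup.mem_inf.2 ⟨mul_mem (mul_mem hg hd1) (inv_mem hg), ?_⟩
    rw [mem_centralizer_iff]
    intro w hw
    have hw' : g⁻¹ * w * g ∈ ⁅V, A ⊔ A'⁆ :=
      conj_mem_of_mem_normalizer' (P.le_normalizer_commutator h hg) hw
    have h1 := (mem_centralizer_iff.1 hd2) _ hw'
    calc w * (g * d * g⁻¹) = g * ((g⁻¹ * w * g) * d) * g⁻¹ := by group
      _ = g * (d * (g⁻¹ * w * g)) * g⁻¹ := by rw [h1]
      _ = g * d * g⁻¹ * w := by group
  · exact h.isPGroup_of_stab (inf_le_left.trans P.le_H) (P.commutator_le h)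
      (commutator_mono le_rfl inf_le_left) inf_le_right

omit hp in
theorem le_closure (_h : FF p V H) (P : Pair p V H A A') :
    A ⊔ A' ≤ closure {g | g ∈ A ⊔ A' ∧ g ^ p = 1} := by
  have key : ∀ B : Subgroup G, Nat.card B = p → B ≤ A ⊔ A' →
      B ≤ closure {g | g ∈ A ⊔ A' ∧ g ^ p = 1} := by
    intro B hB hBL g hg
    apply Subgroup.subset_closure
    refine ⟨hBL hg, ?_⟩
    have := pow_card_eq_one' (G := B) (x := ⟨g, hg⟩)
    rw [hB] at this
    exact congrArg Subtype.val this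
  exact sup_le (key A P.hA le_sup_left) (key A' P.hA' le_sup_right)

omit hp in
/-- `L ∩ Q` is a normal `p`-complement of `L`. -/
theorem sup_eq [Finite G] (P : Pair p V H A A') : ((A ⊔ A') ⊓ Qof p H) ⊔ A = A ⊔ A' := by
  apply le_antisymm (sup_le inf_le_left le_sup_left)
  intro g hg
  have hg' : g ∈ Qof p H ⊔ A := sup_le le_sup_right P.hle hg
  obtain ⟨q, hq, a, ha, rfl⟩ := (Cfsg.Agent.Lib.Helper30SZ.mem_sup_iff
    (P.hAH.trans (le_normalizer_Qof p H))).1 hg'
  have hqL : q ∈ A ⊔ A' := by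
    have := mul_mem hg (inv_mem (le_sup_left (b := A') ha))
    simpa using this
  exact mul_mem (le_sup_left (b := A) (Subgroup.mem_inf.2 ⟨hqL, hq⟩)) (le_sup_right (b := A) ha)

omit hp in
theorem le_normalizer_inf (P : Pair p V H A A') :
    A ⊔ A' ≤ normalizer (((A ⊔ A') ⊓ Qof p H : Subgroup G) : Set G) := by
  apply le_normalizer_of_conj_mem
  rintro g hg d ⟨hd1, hd2⟩
  exact Subgroup.mem_inf.2 ⟨mul_mem (mul_mem hg hd1) (inv_mem hg),
    conj_mem_of_mem_normalizer (le_normalizer_Qof p H (P.le_H hg)) hd2⟩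

omit hp in
theorem card_inf_coprime [Finite G] (_P : Pair p V H A A') :
    (Nat.card ↥((A ⊔ A') ⊓ Qof p H)).Coprime p :=
  Nat.Coprime.coprime_dvd_left (card_dvd_of_le inf_le_right) (card_Qof_coprime p H)

theorem card_eq [Finite G] (P : Pair p V H A A') :
    Nat.card ↥(A ⊔ A') = Nat.card ↥((A ⊔ A') ⊓ Qof p H) * p := by
  have h1 := Cfsg.Agent.Lib.Helper30SZ.card_sup (N := (A ⊔ A') ⊓ Qof p H) (A := A)
    (le_sup_left.trans P.le_normalizer_inf)
    (coprime_card_of_isPGroup (isPGroup_of_card_prime P.hA) P.card_inf_coprime)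
  rw [P.sup_eq, P.hA] at h1
  exact h1

theorem exists_equiv [Finite G] (h : FF p V H) (P : Pair p V H A A') :
    (p = 2 ∨ p = 3) ∧ Nonempty (↥(A ⊔ A') ≃* SL2 p) := by
  obtain ⟨F, hF⟩ := exists_injective_hom (W := ⁅V, A ⊔ A'⁆) (L := A ⊔ A')
    (Cfsg.Agent.Lib.Helper14ElemAb.elemAb_mono (P.commutator_le h) h.hV) (P.card_commutator h)
    (P.le_normalizer_commutator h) (P.inf_centralizer_eq_bot h) (P.le_closure h)
  have h1 := surjective_of_two F hF (A.subgroupOf (A ⊔ A')) (A'.subgroupOf (A ⊔ A'))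
    (by rw [Cfsg.Agent.Lib.Helper30SZ.card_subgroupOf_of_le le_sup_left, P.hA]) (by rw [Cfsg.Agent.Lib.Helper30SZ.card_subgroupOf_of_le le_sup_right, P.hA'])
    (by
      intro heq
      apply P.hne
      have := congrArg (fun K : Subgroup ↥(A ⊔ A') => K.map (A ⊔ A').subtype) heq
      simpa [subgroupOf_map_subtype] using this)
  have h2 : A.subgroupOf (A ⊔ A') ⊔ A'.subgroupOf (A ⊔ A') = ⊤ := by
    rw [← subgroupOf_sup le_sup_left le_sup_right, subgroupOf_self]
  rw [h2, ← MonoidHom.range_eq_map, MonoidHom.range_eq_top] at h1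
  let e : ↥(A ⊔ A') ≃* SL2 p := MulEquiv.ofBijective F ⟨hF, h1⟩
  refine ⟨?_, ⟨e⟩⟩
  set T : Subgroup ↥(A ⊔ A') := ((A ⊔ A') ⊓ Qof p H).subgroupOf (A ⊔ A') with hT
  have hTn : T.Normal := normal_subgroupOf_of_le_normalizer P.le_normalizer_inf
  have hTc : Nat.card T = Nat.card ↥((A ⊔ A') ⊓ Qof p H) :=
    Cfsg.Agent.Lib.Helper30SZ.card_subgroupOf_of_le inf_le_left
  have hN : (T.map F).Normal := hTn.map F h1
  have hNc : Nat.card (T.map F) = Nat.card ↥((A ⊔ A') ⊓ Qof p H) := by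
    rw [card_map_of_injective hF, hTc]
  apply eq_two_or_three (T.map F)
  · rw [hNc]; exact P.card_inf_coprime
  · have h3 := Subgroup.card_mul_index (T.map F)
    rw [hNc, ← Nat.card_congr e.toEquiv, P.card_eq] at h3
    exact Nat.eq_of_mul_eq_mul_left Nat.card_pos h3

end Pair

end FF

end Cfsg.Agent.Lib.Helper55FF
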