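import Cfsg.Agent.Lib.Helper55FF2
import Cfsg.Agent.S0007
import Cfsg.Agent.S0023

set_option autoImplicit false

/-! Failure of factorization (Kurzweil–Stellmacher 9.3.5): `[Q, A]` is an `r`-group. -/

namespace Cfsg.Agent.Lib.Helper55FF

open Subgroup Cfsg.Agent.Lib.Helper55Act Cfsg.Agent.Lib.Helper55SL2
open scoped commutatorElement

variable {G : Type*} [Group G]

theorem card_SL2' (p : ℕ) [Fact p.Prime] : Nat.card (SL2 p) = p * (p ^ 2 - 1) := by
  have := Cfsg.Agent.Lib.Helper6SL2Syl.card_SL2 (F := ZMod p)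
  rwa [ZMod.card] at this

theorem cjg_le_sup_of_normalizes {S A : Subgroup G} (hAS : A ≤ normalizer (S : Set G)) {x : G}
    (hx : x ∈ S) : cjg x A ≤ S ⊔ A := by
  rintro _ ⟨a, ha, rfl⟩
  have h1 : a * x⁻¹ * a⁻¹ ∈ S := conj_mem_of_mem_normalizer (hAS ha) (inv_mem hx)
  have h2 : (MulAut.conj x).toMonoidHom a = (x * (a * x⁻¹ * a⁻¹)) * a := by
    simp only [MulEquiv.coe_toMonoidHom, MulAut.conj_apply]; group
  rw [h2]
  exact mul_mem (le_sup_left (a := S) (mul_mem hx h1)) (le_sup_right (a := S) ha)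

namespace FF

variable {p : ℕ} [hp : Fact p.Prime] {V H : Subgroup G}

omit hp in
/-- a nontrivial `p`-subgroup of `H` is moved by some element of `Q`. -/
theorem exists_not_mem_centralizer [Finite G] (h : FF p V H) {A : Subgroup G} (hAH : A ≤ H)
    (hA : IsPGroup p A) (hA1 : A ≠ ⊥) : ∃ x ∈ Qof p H, x ∉ centralizer (A : Set G) := by
  obtain ⟨a, haA, ha1⟩ := exists_ne_one_of_ne_bot hA1
  have h1 := h.not_mem_centralizer_Qof hAH hA haA ha1
  by_contra hcon
  push Not at hcon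
  apply h1
  rw [mem_centralizer_iff]
  intro q hq
  exact ((mem_centralizer_iff.1 (hcon q hq)) a haA).symm

theorem card_pair [Finite G] (h : FF p V H) {A A' : Subgroup G} (P : Pair p V H A A') :
    Nat.card ↥(A ⊔ A') = p * (p ^ 2 - 1) := by
  obtain ⟨e⟩ := (P.exists_equiv h).2
  rw [Nat.card_congr e.toEquiv, card_SL2']

/-- an `A`-invariant `s`-subgroup of `Q` is centralized by `A` unless `s = r`. -/
theorem le_centralizer_of_invariant [Finite G] (h : FF p V H) {A : Subgroup G} (hAH : A ≤ H)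
    (hA : Cfsg.IsBestOffenderOn p V A) (hc : Nat.card A = p) {r s : ℕ} (hr : r.Prime)
    (hrp : r ∣ p ^ 2 - 1) (hs : s.Prime) (hsr : s ≠ r) {S : Subgroup G} (hSQ : S ≤ Qof p H)
    (hS : IsPGroup s S) (hAS : A ≤ normalizer (S : Set G)) : S ≤ centralizer (A : Set G) := by
  intro x hxS
  by_contra hxA
  have P := h.pair_of_conj hAH hA hc (hSQ hxS) hxA
  have h1 : A ⊔ cjg x A ≤ S ⊔ A := sup_le le_sup_right (cjg_le_sup_of_normalizes hAS hxS)
  have hcop : (Nat.card A).Coprime (Nat.card S) :=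
    coprime_card_of_isPGroup (isPGroup_of_card_prime hc)
      (Nat.Coprime.coprime_dvd_left (card_dvd_of_le hSQ) (card_Qof_coprime p H))
  have h2 := card_dvd_of_le h1
  rw [h.card_pair P, Cfsg.Agent.Lib.Helper30SZ.card_sup hAS hcop, hc, mul_comm] at h2
  have h3 : p ^ 2 - 1 ∣ Nat.card S := Nat.dvd_of_mul_dvd_mul_right hp.out.pos h2
  haveI : Fact s.Prime := ⟨hs⟩
  obtain ⟨k, hk⟩ := IsPGroup.iff_card.1 hS
  rw [hk] at h3
  have h4 : r ∣ s := hr.dvd_of_dvd_pow (hrp.trans h3)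
  exact hsr ((Nat.prime_dvd_prime_iff_eq hr hs).1 h4).symm

theorem isPGroup_commutator [Finite G] (h : FF p V H) {A : Subgroup G} (hAH : A ≤ H)
    (hA : Cfsg.IsBestOffenderOn p V A) (hc : Nat.card A = p) {r : ℕ} [hr : Fact r.Prime]
    (hrp : r ∣ p ^ 2 - 1) : IsPGroup r ↥(⁅Qof p H, A⁆) := by
  set Q := Qof p H with hQ
  have hAQ : A ≤ normalizer (Q : Set G) := hAH.trans (le_normalizer_Qof p H)
  have hAp := isPGroup_of_card_prime hc
  have hcop : (Nat.card A).Coprime (Nat.card Q) := coprime_card_of_isPGroup hAp (card_Qof_coprime p H)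
  have hsolv : Group.IsSolvable A ∨ Group.IsSolvable Q := Or.inl (by
    haveI := hAp.isNilpotent
    infer_instance)
  obtain ⟨Pr, hPr⟩ := Cfsg.Agent.S0023.result A Q hAQ hcop hsolv r
  set C : Subgroup Q := (centralizer (A : Set G)).subgroupOf Q with hC
  have hidx : (Pr : Subgroup Q).index.Coprime C.index := by
    apply Nat.coprime_of_dvd
    intro s hs hs1 hs2
    by_cases hsr : s = r
    · subst hsr
      exact Pr.not_dvd_index hs1
    · haveI : Fact s.Prime := ⟨hs⟩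
      obtain ⟨Ps, hPs⟩ := Cfsg.Agent.S0023.result A Q hAQ hcop hsolv s
      have h1 : (Ps : Subgroup Q).map Q.subtype ≤ centralizer (A : Set G) :=
        h.le_centralizer_of_invariant hAH hA hc hr.out hrp hs hsr (map_subtype_le _)
          (Ps.isPGroup'.map _) hPs
      have h2 : (Ps : Subgroup Q) ≤ C := by
        intro y hy
        exact h1 ⟨y, hy, rfl⟩
      exact Ps.not_dvd_index (hs2.trans (index_dvd_of_le h2))
  have hfac := (Cfsg.Agent.S0007.result (Pr : Subgroup Q) C hidx).2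
  have hle : ⁅Q, A⁆ ≤ (Pr : Subgroup Q).map Q.subtype := by
    rw [commutator_le]
    intro q hq a ha
    obtain ⟨u, hu, c, hcC, huc⟩ := hfac ⟨q, hq⟩
    have hq' : q = (u : G) * c := congrArg Subtype.val huc
    have hca : (c : G) * a = a * c := ((mem_centralizer_iff.1 hcC) a ha).symm
    have huS : (u : G) ∈ (Pr : Subgroup Q).map Q.subtype := ⟨u, hu, rfl⟩
    have h1 : a * (u : G)⁻¹ * a⁻¹ ∈ (Pr : Subgroup Q).map Q.subtype :=
      conj_mem_of_mem_normalizer (hPr ha) (inv_mem huS)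
    have h2 : ⁅q, a⁆ = (u : G) * (a * (u : G)⁻¹ * a⁻¹) := by
      rw [hq', commutatorElement_def]
      calc (u : G) * c * a * ((u : G) * c)⁻¹ * a⁻¹ = u * (c * a) * (c : G)⁻¹ * (u : G)⁻¹ * a⁻¹ := by group
        _ = u * (a * c) * (c : G)⁻¹ * (u : G)⁻¹ * a⁻¹ := by rw [hca]
        _ = _ := by group
    rw [h2]
    exact mul_mem huS h1
  exact (Pr.isPGroup'.map Q.subtype).to_le hle

omit hp in
theorem le_normalizer_commutator_Qof (_h : FF p V H) {A : Subgroup G} (hAH : A ≤ H) :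
    A ≤ normalizer ((⁅Qof p H, A⁆ : Subgroup G) : Set G) :=
  Cfsg.Agent.Lib.Helper30SZ.le_normalizer_commutator (hAH.trans (le_normalizer_Qof p H)) le_normalizer

omit hp in
theorem cjg_le_commutator_sup {Q A : Subgroup G} {x : G} (hx : x ∈ Q) : cjg x A ≤ ⁅Q, A⁆ ⊔ A := by
  rintro _ ⟨a, ha, rfl⟩
  have h2 : (MulAut.conj x).toMonoidHom a = ⁅x, a⁆ * a := by
    simp only [MulEquiv.coe_toMonoidHom, MulAut.conj_apply, commutatorElement_def]; group
  rw [h2]
  exact mul_mem (le_sup_left (a := ⁅Q, A⁆) (commutator_mem_commutator hx ha))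
    (le_sup_right (a := ⁅Q, A⁆) ha)

end FF

def qi : SL2 3 := ⟨!![0, -1; 1, 0], by simp [Matrix.det_fin_two]⟩
def qj : SL2 3 := ⟨!![1, 1; 1, -1], by simp [Matrix.det_fin_two]; decide⟩

theorem qi_pow : qi ^ 4 = 1 := by decide
theorem qj_pow : qj ^ 4 = 1 := by decide
theorem qi_qj : qi * qj ≠ qj * qi := by decide

theorem FF.not_comm_of_three [Finite G] {V H : Subgroup G} (h : FF 3 V H) {A : Subgroup G} (hAH : A ≤ H)
    (hA : Cfsg.IsBestOffenderOn 3 V A) (hc : Nat.card A = 3) :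
    ¬ IsMulCommutative ↥(⁅Qof 3 H, A⁆) := by
  intro hcomm
  obtain ⟨x, hxQ, hxA⟩ := h.exists_not_mem_centralizer hAH (isPGroup_of_card_prime hc)
    (ne_bot_of_card_prime hc)
  have P := h.pair_of_conj hAH hA hc hxQ hxA
  obtain ⟨e⟩ := (P.exists_equiv h).2
  set R : Subgroup G := ⁅Qof 3 H, A⁆ with hR
  have hAR : A ≤ normalizer (R : Set G) := h.le_normalizer_commutator_Qof hAH
  have hLle : A ⊔ cjg x A ≤ R ⊔ A := sup_le le_sup_right (FF.cjg_le_commutator_sup hxQ)
  have key : ∀ g : ↥(A ⊔ cjg x A), g ^ 4 = 1 → (g : G) ∈ R := by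
    intro g hg
    obtain ⟨ρ, hρ, a, ha, hga⟩ := (Cfsg.Agent.Lib.Helper30SZ.mem_sup_iff hAR).1 (hLle g.2)
    have ha3 : a ^ 3 = 1 := by
      have := pow_card_eq_one' (G := A) (x := ⟨a, ha⟩)
      rw [hc] at this
      exact congrArg Subtype.val this
    have h1 : (g : G) ^ 3 = ρ * (a * ρ * a⁻¹) * (a ^ 2 * ρ * (a ^ 2)⁻¹) * a ^ 3 := by
      rw [hga, pow_succ, pow_succ, pow_one]; group
    have h2 : (g : G) ^ 3 ∈ R := by
      rw [h1, ha3, mul_one]
      exact mul_mem (mul_mem hρ (conj_mem_of_mem_normalizer (hAR ha) hρ))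
        (conj_mem_of_mem_normalizer (hAR (A.pow_mem ha 2)) hρ)
    have h3 : (g : G) ^ 4 = 1 := congrArg Subtype.val hg
    have h4 : (g : G) = ((g : G) ^ 3)⁻¹ := by
      rw [eq_inv_iff_mul_eq_one, ← pow_succ', h3]
    rw [h4]
    exact inv_mem h2
  have h1 := key (e.symm qi) (by rw [← map_pow, qi_pow, map_one])
  have h2 := key (e.symm qj) (by rw [← map_pow, qj_pow, map_one])
  have h3 := (isMulCommutative_iff.1 hcomm) ⟨_, h1⟩ ⟨_, h2⟩
  have h4 : ((e.symm qi : ↥(A ⊔ cjg x A)) : G) * (e.symm qj : ↥(A ⊔ cjg x A))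
      = (e.symm qj : ↥(A ⊔ cjg x A)) * (e.symm qi : ↥(A ⊔ cjg x A)) := congrArg Subtype.val h3
  have h5 : e.symm qi * e.symm qj = e.symm qj * e.symm qi := Subtype.ext h4
  rw [← map_mul, ← map_mul] at h5
  exact qi_qj (e.symm.injective h5)

end Cfsg.Agent.Lib.Helper55FF
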