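import Cfsg.Agent.Lib.Helper55FF3

set_option autoImplicit false

/-! Failure of factorization (Kurzweil–Stellmacher 9.3.7, first part): `[Q,A]A = ⟨A, A^x⟩`. -/

namespace Cfsg.Agent.Lib.Helper55FF

open Subgroup Cfsg.Agent.Lib.Helper55Act Cfsg.Agent.Lib.Helper55SL2
open scoped commutatorElement

variable {G : Type*} [Group G]

theorem cjg_cjg (x y : G) (A : Subgroup G) : cjg x (cjg y A) = cjg (x * y) A := by
  ext z
  constructor
  · rintro ⟨_, ⟨a, ha, rfl⟩, rfl⟩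
    exact ⟨a, ha, by simp [MulAut.conj_apply, mul_assoc]⟩
  · rintro ⟨a, ha, rfl⟩
    exact ⟨_, ⟨a, ha, rfl⟩, by simp [MulAut.conj_apply, mul_assoc]⟩

theorem cjg_le_of_mem {K A : Subgroup G} (hA : A ≤ K) {x : G} (hx : x ∈ K) : cjg x A ≤ K := by
  rintro _ ⟨a, ha, rfl⟩
  exact K.mul_mem (K.mul_mem hx (hA ha)) (K.inv_mem hx)

theorem le_centralizer_zpowers_iff {A : Subgroup G} {v : G} :
    A ≤ centralizer (zpowers v : Set G) ↔ ∀ a ∈ A, a * v = v * a := by
  constructor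
  · intro h a ha
    exact ((mem_centralizer_iff.1 (h ha)) v (mem_zpowers v)).symm
  · intro h
    rw [le_centralizer_iff, zpowers_le, mem_centralizer_iff]
    intro a ha
    exact h a ha

namespace FF

variable {p : ℕ} [hp : Fact p.Prime] {V H : Subgroup G}

namespace Pair

variable {A A' : Subgroup G}

omit hp in
theorem symm [Finite G] (P : Pair p V H A A') (hle : A ≤ Qof p H ⊔ A') : Pair p V H A' A :=
  ⟨P.hA'H, P.hAH, P.hA', P.hA, P.hne.symm, hle, P.hX', P.hX⟩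

theorem le_centralizer_left [Finite G] (h : FF p V H) (P : Pair p V H A A') :
    A ≤ centralizer ((⁅V, A⁆ : Subgroup G) : Set G) :=
  le_centralizer_of_card_prime (isPGroup_of_card_prime P.hA) P.hX
    (Cfsg.Agent.Lib.Helper30SZ.le_normalizer_commutator (P.hAH.trans h.hHV) le_normalizer)

/-- `A` does not centralize the centre `[V,A']` of `A'`. -/
theorem not_le_centralizer [Finite G] (h : FF p V H) (P : Pair p V H A A') :
    ¬ A ≤ centralizer ((⁅V, A'⁆ : Subgroup G) : Set G) := by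
  intro hc
  have h1 : A ≤ (A ⊔ A') ⊓ centralizer ((⁅V, A ⊔ A'⁆ : Subgroup G) : Set G) := by
    refine le_inf le_sup_left ?_
    rw [P.commutator_eq h, le_centralizer_iff]
    exact sup_le (le_centralizer_iff.1 (P.le_centralizer_left h)) (le_centralizer_iff.1 hc)
  rw [P.inf_centralizer_eq_bot h] at h1
  exact ne_bot_of_card_prime P.hA (eq_bot_iff.2 h1)

theorem not_commute [Finite G] (h : FF p V H) (P : Pair p V H A A') {a v : G} (ha : a ∈ A)
    (ha1 : a ≠ 1) (hv : v ∈ ⁅V, A'⁆) (hv1 : v ≠ 1) : a * v ≠ v * a := by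
  intro hcomm
  apply P.not_le_centralizer h
  rw [eq_zpowers_of_card_prime P.hX' hv hv1, eq_zpowers_of_card_prime P.hA ha ha1,
    le_centralizer_zpowers_iff]
  rintro _ ⟨k, rfl⟩
  exact ((Commute.zpow_left (show Commute a v from hcomm) k)).eq

end Pair

/-- the family of "transvection subgroups" in `QA`. -/
def Tv (p : ℕ) (H A D : Subgroup G) : Prop := D ≤ Qof p H ⊔ A ∧ Nat.card D = p

/-- data on the base offender -/
structure Base (p : ℕ) (V H A : Subgroup G) : Prop where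
  hAH : A ≤ H
  hA : Cfsg.IsBestOffenderOn p V A
  hc : Nat.card A = p

namespace Base

variable {A : Subgroup G}

omit hp in
theorem sup_le (B : Base p V H A) : Qof p H ⊔ A ≤ H := _root_.sup_le (Qof_le p H) B.hAH

omit hp in
theorem tv_self (B : Base p V H A) : Tv p H A A := ⟨le_sup_right, B.hc⟩

omit hp in
theorem tv_cjg (_B : Base p V H A) {D : Subgroup G} (hD : Tv p H A D) {y : G}
    (hy : y ∈ Qof p H ⊔ A) : Tv p H A (cjg y D) :=
  ⟨cjg_le_of_mem hD.1 hy, by rw [card_cjg, hD.2]⟩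

theorem exists_conj [Finite G] (B : Base p V H A) {D : Subgroup G} (hD : Tv p H A D) :
    ∃ q ∈ Qof p H, D = cjg q A := by
  have hAp := isPGroup_of_card_prime B.hc
  obtain ⟨n, hn, hnD⟩ := Cfsg.Agent.Lib.Helper30SZ.sz_conj (N := Qof p H) (A := A) (B := D)
    (B.hAH.trans (le_normalizer_Qof p H)) (coprime_card_of_isPGroup hAp (card_Qof_coprime p H))
    (Or.inl (by haveI := hAp.isNilpotent; infer_instance)) hD.1 (by rw [hD.2, B.hc])
  refine ⟨n, hn, ?_⟩
  ext x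
  rw [hnD]
  constructor
  · intro hx
    exact ⟨_, hx, by simp [MulAut.conj_apply, mul_assoc]⟩
  · rintro ⟨a, ha, rfl⟩
    simpa [MulAut.conj_apply, mul_assoc] using ha

theorem card_commutator [Finite G] (h : FF p V H) (B : Base p V H A) {D : Subgroup G}
    (hD : Tv p H A D) : Nat.card ↥(⁅V, D⁆) = p := by
  obtain ⟨q, hq, rfl⟩ := B.exists_conj hD
  have h1 : cjg q V = V := cjg_eq_of_mem_normalizer (h.hHV (Qof_le p H hq))
  have h2 := cjg_commutator q V A
  rw [h1] at h2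
  rw [← h2, card_cjg]
  exact (h.transvection B.hAH B.hA B.hc).1

theorem le_sup_of_tv [Finite G] (B : Base p V H A) {D : Subgroup G} (hD : Tv p H A D) :
    Qof p H ⊔ A ≤ Qof p H ⊔ D := by
  obtain ⟨q, hq, rfl⟩ := B.exists_conj hD
  refine _root_.sup_le le_sup_left ?_
  intro a ha
  have h1 : q * a * q⁻¹ ∈ cjg q A := ⟨a, ha, rfl⟩
  have h2 : a = q⁻¹ * (q * a * q⁻¹) * q := by group
  rw [h2]
  exact mul_mem (mul_mem (le_sup_left (a := Qof p H) (inv_mem hq)) (le_sup_right (a := Qof p H) h1))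
    (le_sup_left (a := Qof p H) hq)

theorem pair [Finite G] (h : FF p V H) (B : Base p V H A) {D D' : Subgroup G} (hD : Tv p H A D)
    (hD' : Tv p H A D') (hne : D ≠ D') : Pair p V H D D' :=
  ⟨hD.1.trans B.sup_le, hD'.1.trans B.sup_le, hD.2, hD'.2, hne, hD'.1.trans (B.le_sup_of_tv hD),
    B.card_commutator h hD, B.card_commutator h hD'⟩

/-- Geometry of the transvection subgroups: all centres lie in the plane spanned by two of them. -/
theorem commutator_le_sup [Finite G] (h : FF p V H) (B : Base p V H A) {D₁ D₂ D₃ : Subgroup G}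
    (h₁ : Tv p H A D₁) (h₂ : Tv p H A D₂) (h₃ : Tv p H A D₃) (hne : D₁ ≠ D₂) :
    ⁅V, D₃⁆ ≤ ⁅V, D₁⁆ ⊔ ⁅V, D₂⁆ := by
  by_cases h31 : D₃ = D₁
  · rw [h31]; exact le_sup_left
  by_cases h32 : D₃ = D₂
  · rw [h32]; exact le_sup_right
  have hVc : ∀ v ∈ V, ∀ w ∈ V, v * w = w * v := fun v hv w hw => comm_of_elemAb h.hV hv hw
  have P12 := B.pair h h₁ h₂ hne
  have P23 := B.pair h h₂ h₃ (Ne.symm h32)
  obtain ⟨a₁, ha₁, ha₁1⟩ := exists_ne_one_of_ne_bot (ne_bot_of_card_prime h₁.2)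
  obtain ⟨d₂, hd₂, hd₂1⟩ := exists_ne_one_of_ne_bot (ne_bot_of_card_prime h₂.2)
  obtain ⟨v₃, hv₃, hv₃1⟩ := exists_ne_one_of_ne_bot (ne_bot_of_card_prime (B.card_commutator h h₃))
  have hD₁N : D₁ ≤ normalizer (V : Set G) := P12.hAH.trans h.hHV
  have hD₂N : D₂ ≤ normalizer (V : Set G) := P12.hA'H.trans h.hHV
  have hD₃N : D₃ ≤ normalizer (V : Set G) := P23.hA'H.trans h.hHV
  have hv₃V : v₃ ∈ V := commutator_le_left hD₃N hv₃
  set z : G := ⁅v₃⁻¹, d₂⁆ with hz
  have hzX : z ∈ ⁅V, D₂⁆ := commutator_mem_commutator (V.inv_mem hv₃V) hd₂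
  have hzV : z ∈ V := commutator_le_left hD₂N hzX
  have hconj : d₂ * v₃ * d₂⁻¹ = v₃ * z := by rw [hz, commutatorElement_def]; group
  have hz1 : z ≠ 1 := by
    intro hz1
    rw [hz1, mul_one] at hconj
    exact P23.not_commute h hd₂ hd₂1 hv₃ hv₃1 (mul_inv_eq_iff_eq_mul.1 hconj)
  have hdz : Commute d₂ z := ((mem_centralizer_iff.1 (P23.le_centralizer_left h hd₂)) z hzX).symm
  let φ := commHom hVc (hD₁N ha₁)
  have hφ : ∀ v : V, ((φ v : V) : G) = ⁅(v : G), a₁⁆ := fun v => rfl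
  set c : G := ⁅z, a₁⁆ with hc
  have hcX : c ∈ ⁅V, D₁⁆ := commutator_mem_commutator hzV ha₁
  have hc1 : c ≠ 1 := by
    intro hc1
    rw [hc, commutatorElement_eq_one_iff_mul_comm] at hc1
    exact P12.not_commute h ha₁ ha₁1 hzX hz1 hc1.symm
  have hXz := eq_zpowers_of_card_prime (B.card_commutator h h₁) hcX hc1
  have hmem : (⁅v₃, a₁⁆)⁻¹ ∈ zpowers c := by
    rw [← hXz]
    exact inv_mem (commutator_mem_commutator hv₃V ha₁)
  obtain ⟨k, hk⟩ := (mem_powers_iff_mem_zpowers).2 hmem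
  have hk' : c ^ k = (⁅v₃, a₁⁆)⁻¹ := hk
  have hconjk := Cfsg.Agent.Lib.Helper30Coprime.conj_pow_of_commute hconj hdz k
  set y : G := d₂ ^ k with hy
  have hyD : y ∈ D₂ := D₂.pow_mem hd₂ k
  -- `a₁` centralizes `y v₃ y⁻¹`
  have hfix : ⁅y * v₃ * y⁻¹, a₁⁆ = 1 := by
    rw [hconjk]
    have h1 : φ (⟨v₃, hv₃V⟩ * ⟨z, hzV⟩ ^ k) = φ ⟨v₃, hv₃V⟩ * (φ ⟨z, hzV⟩) ^ k := by
      rw [map_mul, map_pow]
    have h2 := congrArg (fun w : V => (w : G)) h1
    simp only [Subgroup.coe_mul, Subgroup.coe_pow, hφ] at h2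
    rw [h2, ← hc, hk', mul_inv_cancel]
  have hcomm : a₁ * (y * v₃ * y⁻¹) = (y * v₃ * y⁻¹) * a₁ :=
    (commutatorElement_eq_one_iff_mul_comm.1 hfix).symm
  set D : Subgroup G := cjg y⁻¹ D₁ with hD
  have hDtv : Tv p H A D := B.tv_cjg h₁ (inv_mem (h₂.1 hyD))
  have hDD₃ : D = D₃ := by
    by_contra hne'
    have P := B.pair h hDtv h₃ hne'
    have hb : y⁻¹ * a₁ * y ∈ D := ⟨a₁, ha₁, by simp [MulAut.conj_apply]⟩
    have hb1 : y⁻¹ * a₁ * y ≠ 1 := by
      intro hb1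
      apply ha₁1
      have : a₁ = y * (y⁻¹ * a₁ * y) * y⁻¹ := by group
      rw [this, hb1]; group
    apply P.not_commute h hb hb1 hv₃ hv₃1
    calc y⁻¹ * a₁ * y * v₃ = y⁻¹ * (a₁ * (y * v₃ * y⁻¹)) * y := by group
      _ = y⁻¹ * ((y * v₃ * y⁻¹) * a₁) * y := by rw [hcomm]
      _ = v₃ * (y⁻¹ * a₁ * y) := by group
  rw [← hDD₃, hD]
  have h1 : cjg y⁻¹ V = V := cjg_eq_of_mem_normalizer (inv_mem (hD₂N hyD))
  have h2 := cjg_commutator y⁻¹ V D₁
  rw [h1] at h2
  rw [← h2]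
  rintro _ ⟨w, hw, rfl⟩
  have hwV : w ∈ V := commutator_le_left hD₁N hw
  have h3 : (MulAut.conj y⁻¹).toMonoidHom w = w * ⁅w⁻¹, y⁻¹⁆ := by
    simp only [MulEquiv.coe_toMonoidHom, MulAut.conj_apply, commutatorElement_def]; group
  rw [h3]
  exact mul_mem (le_sup_left (a := ⁅V, D₁⁆) hw)
    (le_sup_right (a := ⁅V, D₁⁆) (commutator_mem_commutator (V.inv_mem hwV) (D₂.inv_mem hyD)))

omit hp in
theorem conj_mem_E {Q : Subgroup G} {q a : G} (hq : q ∈ Q) (ha : a ∈ A) :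
    q * a * q⁻¹ ∈ ⁅Q, A⁆ ⊔ A := by
  have : q * a * q⁻¹ = ⁅q, a⁆ * a := by rw [commutatorElement_def]; group
  rw [this]
  exact mul_mem (le_sup_left (a := ⁅Q, A⁆) (commutator_mem_commutator hq ha))
    (le_sup_right (a := ⁅Q, A⁆) ha)

omit hp in
theorem E_le (B : Base p V H A) : ⁅Qof p H, A⁆ ⊔ A ≤ Qof p H ⊔ A :=
  sup_le_sup_right (commutator_le_left (B.hAH.trans (le_normalizer_Qof p H))) _

theorem tv_le_E [Finite G] (B : Base p V H A) {D : Subgroup G} (hD : Tv p H A D) :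
    D ≤ ⁅Qof p H, A⁆ ⊔ A := by
  obtain ⟨q, hq, rfl⟩ := B.exists_conj hD
  rintro _ ⟨a, ha, rfl⟩
  exact conj_mem_E hq ha

/-- if `K` contains all the conjugates of `A` under `Q` then it contains `[Q,A]A`. -/
theorem E_le_of_tv [Finite G] (B : Base p V H A) {K : Subgroup G}
    (hK : ∀ D, Tv p H A D → D ≤ K) : ⁅Qof p H, A⁆ ⊔ A ≤ K := by
  refine _root_.sup_le ?_ (hK A B.tv_self)
  rw [commutator_le]
  intro q hq a ha
  have h1 : q * a * q⁻¹ ∈ K :=
    hK _ (B.tv_cjg B.tv_self (le_sup_left (a := Qof p H) hq)) ⟨a, ha, rfl⟩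
  have h2 : ⁅q, a⁆ = (q * a * q⁻¹) * a⁻¹ := by rw [commutatorElement_def]
  rw [h2]
  exact K.mul_mem h1 (K.inv_mem (hK A B.tv_self ha))

theorem E_eq [Finite G] (h : FF p V H) (B : Base p V H A) {A' : Subgroup G} (hA' : Tv p H A A')
    (hne : A ≠ A') : ⁅Qof p H, A⁆ ⊔ A = A ⊔ A' := by
  have P := B.pair h B.tv_self hA' hne
  set E : Subgroup G := ⁅Qof p H, A⁆ ⊔ A with hE
  set W : Subgroup G := ⁅V, A ⊔ A'⁆ with hW
  have hWV : W ≤ V := P.commutator_le h
  have hLE : A ⊔ A' ≤ E := _root_.sup_le le_sup_right (B.tv_le_E hA')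
  have hEH : E ≤ H := B.E_le.trans B.sup_le
  have hact : E ≤ actTriv V W := by
    apply B.E_le_of_tv
    intro D hD
    have h1 : ⁅V, D⁆ ≤ W := by
      rw [hW, P.commutator_eq h]
      exact B.commutator_le_sup h B.tv_self hA' hD hne
    refine le_actTriv ?_ h1
    apply le_normalizer_of_conj_mem
    intro d hd w hw
    have h2 : d * w * d⁻¹ = (⁅w, d⁆)⁻¹ * w := by rw [commutatorElement_def]; group
    rw [h2]
    exact W.mul_mem (W.inv_mem (h1 (commutator_mem_commutator (hWV hw) hd))) hw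
  have hVE : ⁅V, E⁆ ≤ W := commutator_le_of_le_actTriv hact
  have hEW : E ≤ normalizer (W : Set G) := fun g hg => (hact hg).1
  have hfaith : E ⊓ centralizer (W : Set G) = ⊥ := by
    set N : Subgroup G := E ⊓ centralizer (W : Set G) with hN
    have hNp : IsPGroup p N := h.isPGroup_of_stab (inf_le_left.trans hEH) hWV
      ((commutator_mono le_rfl inf_le_left).trans hVE) inf_le_right
    have hNd := h.card_dvd_of_isPGroup_le B.hAH (isPGroup_of_card_prime B.hc) hNp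
      (inf_le_left.trans B.E_le)
    rw [B.hc] at hNd
    rcases (Nat.dvd_prime hp.out).1 hNd with h1 | h1
    · exact (Subgroup.card_eq_one).1 h1
    · exfalso
      have hNtv : Tv p H A N := ⟨inf_le_left.trans B.E_le, h1⟩
      have hEN : E ≤ normalizer (N : Set G) := by
        apply le_normalizer_of_conj_mem
        rintro g hg d ⟨hd1, hd2⟩
        refine Subgroup.mem_inf.2 ⟨mul_mem (mul_mem hg hd1) (inv_mem hg), ?_⟩
        rw [mem_centralizer_iff]
        intro w hw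
        have hw' : g⁻¹ * w * g ∈ W := conj_mem_of_mem_normalizer' (hEW hg) hw
        have h1 := (mem_centralizer_iff.1 hd2) _ hw'
        calc w * (g * d * g⁻¹) = g * ((g⁻¹ * w * g) * d) * g⁻¹ := by group
          _ = g * (d * (g⁻¹ * w * g)) * g⁻¹ := by rw [h1]
          _ = g * d * g⁻¹ * w := by group
      have key : ∀ D, Tv p H A D → D ≤ E → N ≠ D → False := by
        intro D hD hDE hND
        have P' := B.pair h hNtv hD hND
        have := h.eq_bot_of_normal_pgroup P'.hAH P'.hA P'.hA' P'.hne P'.hle hNp le_sup_left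
          ((_root_.sup_le inf_le_left hDE).trans hEN)
        exact ne_bot_of_card_prime h1 this
      by_cases hNA : N = A
      · exact key A' hA' (le_sup_right.trans hLE) (hNA ▸ hne)
      · exact key A B.tv_self le_sup_right hNA
  have hgen : E ≤ closure {g | g ∈ E ∧ g ^ p = 1} := by
    apply B.E_le_of_tv
    intro D hD g hg
    apply Subgroup.subset_closure
    refine ⟨B.tv_le_E hD hg, ?_⟩
    have := pow_card_eq_one' (G := D) (x := ⟨g, hg⟩)
    rw [hD.2] at this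
    exact congrArg Subtype.val this
  obtain ⟨F, hF⟩ := exists_injective_hom (W := W) (L := E)
    (Cfsg.Agent.Lib.Helper14ElemAb.elemAb_mono hWV h.hV) (P.card_commutator h) hEW hfaith hgen
  symm
  apply Subgroup.eq_of_le_of_card_ge hLE
  rw [h.card_pair P, ← card_SL2']
  exact Nat.card_le_card_of_injective F hF

end Base

end FF

end Cfsg.Agent.Lib.Helper55FF
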