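import Cfsg.Agent.Lib.Helper55FF4
import Cfsg.Agent.Lib.Helper55Core
import Cfsg.Agent.S0055

set_option autoImplicit false

/-! Failure of factorization (Kurzweil–Stellmacher 9.3.7): structure of `E = [Q,A]A`. -/

namespace Cfsg.Agent.Lib.Helper55FF

open Subgroup Cfsg.Agent.Lib.Helper55Act Cfsg.Agent.Lib.Helper55SL2
open scoped commutatorElement

variable {G : Type*} [Group G]

/-- `[Q,A]` -/
abbrev Rof (p : ℕ) (H A : Subgroup G) : Subgroup G := ⁅Qof p H, A⁆
/-- `[Q,A]A` -/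
abbrev Eof (p : ℕ) (H A : Subgroup G) : Subgroup G := ⁅Qof p H, A⁆ ⊔ A

/-- elements normalizing a subgroup of order `p` act on it with order dividing `p - 1`. -/
theorem pow_mem_centralizer_of_card_prime [Finite G] {p : ℕ} [hp : Fact p.Prime] {I : Subgroup G}
    (hI : Nat.card I = p) {t : G} (ht : t ∈ normalizer (I : Set G)) :
    t ^ (p - 1) ∈ centralizer (I : Set G) := by
  haveI : IsCyclic I := isCyclic_of_prime_card hI
  have h1 : Nat.card (MulAut I) = p - 1 := by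
    rw [IsCyclic.card_mulAut, hI, Nat.totient_prime hp.out]
  have h2 : (I.normalizerMonoidHom ⟨t, ht⟩) ^ (p - 1) = 1 := by
    rw [← h1]; exact pow_card_eq_one'
  rw [← map_pow] at h2
  rw [mem_centralizer_iff]
  intro i hi
  have h3 := congrArg (fun f : MulAut I => ((f ⟨i, hi⟩ : I) : G)) h2
  have h4 : t ^ (p - 1) * i * (t ^ (p - 1))⁻¹ = i := h3
  exact (mul_inv_eq_iff_eq_mul.1 h4).symm

namespace FF

variable {p : ℕ} [hp : Fact p.Prime] {V H : Subgroup G}

namespace Base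

variable {A : Subgroup G}

theorem exists_tv_ne [Finite G] (h : FF p V H) (B : Base p V H A) : ∃ A', Tv p H A A' ∧ A ≠ A' := by
  obtain ⟨x, hxQ, hxA⟩ := h.exists_not_mem_centralizer B.hAH (isPGroup_of_card_prime B.hc)
    (ne_bot_of_card_prime B.hc)
  exact ⟨cjg x A, B.tv_cjg B.tv_self (le_sup_left (a := Qof p H) hxQ),
    h.cjg_ne B.hAH (isPGroup_of_card_prime B.hc) hxQ hxA⟩

omit hp in
theorem E_le_H (B : Base p V H A) : Eof p H A ≤ H := B.E_le.trans B.sup_le

omit hp in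
theorem R_le_Q (B : Base p V H A) : Rof p H A ≤ Qof p H :=
  commutator_le_left (B.hAH.trans (le_normalizer_Qof p H))

theorem card_W [Finite G] (h : FF p V H) (B : Base p V H A) :
    Nat.card ↥(⁅V, Eof p H A⁆) = p ^ 2 := by
  obtain ⟨A', hA', hne⟩ := B.exists_tv_ne h
  rw [Eof, B.E_eq h hA' hne]
  exact (B.pair h B.tv_self hA' hne).card_commutator h

theorem E_faithful [Finite G] (h : FF p V H) (B : Base p V H A) :
    Eof p H A ⊓ centralizer ((⁅V, Eof p H A⁆ : Subgroup G) : Set G) = ⊥ := by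
  obtain ⟨A', hA', hne⟩ := B.exists_tv_ne h
  rw [Eof, B.E_eq h hA' hne]
  exact (B.pair h B.tv_self hA' hne).inf_centralizer_eq_bot h

theorem E_equiv [Finite G] (h : FF p V H) (B : Base p V H A) :
    (p = 2 ∨ p = 3) ∧ Nonempty (↥(Eof p H A) ≃* SL2 p) := by
  obtain ⟨A', hA', hne⟩ := B.exists_tv_ne h
  rw [Eof, B.E_eq h hA' hne]
  exact (B.pair h B.tv_self hA' hne).exists_equiv h

theorem card_E [Finite G] (h : FF p V H) (B : Base p V H A) :
    Nat.card ↥(Eof p H A) = Nat.card (SL2 p) := by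
  obtain ⟨e⟩ := (B.E_equiv h).2
  exact Nat.card_congr e.toEquiv

theorem E_le_closure [Finite G] (h : FF p V H) (B : Base p V H A) :
    Eof p H A ≤ closure {g | g ∈ Eof p H A ∧ g ^ p = 1} := by
  obtain ⟨A', hA', hne⟩ := B.exists_tv_ne h
  rw [Eof, B.E_eq h hA' hne]
  exact (B.pair h B.tv_self hA' hne).le_closure h

omit hp in
theorem W_le (h : FF p V H) (B : Base p V H A) : ⁅V, Eof p H A⁆ ≤ V :=
  commutator_le_left (B.E_le_H.trans h.hHV)

omit hp in
theorem E_le_normalizer_W (h : FF p V H) (B : Base p V H A) :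
    Eof p H A ≤ normalizer ((⁅V, Eof p H A⁆ : Subgroup G) : Set G) :=
  Cfsg.Agent.Lib.Helper30SZ.le_normalizer_commutator (B.E_le_H.trans h.hHV) le_normalizer

omit hp in
theorem E_le_normalizer_R (_B : Base p V H A) :
    Eof p H A ≤ normalizer ((Rof p H A : Subgroup G) : Set G) :=
  _root_.sup_le le_normalizer (Cfsg.Agent.Lib.Helper55Core.le_normalizer_commutator_right _ _)

omit hp in
theorem Q_le_normalizer_R (p : ℕ) (H A : Subgroup G) :
    Qof p H ≤ normalizer ((Rof p H A : Subgroup G) : Set G) :=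
  Cfsg.Agent.Lib.Helper55Core.le_normalizer_commutator_left _ _

theorem card_R_coprime [Finite G] (h : FF p V H) (B : Base p V H A) :
    (Nat.card (Rof p H A)).Coprime (Nat.card V) :=
  (coprime_card_of_isPGroup (isPGroup_of_elemAb h.hV)
    (Nat.Coprime.coprime_dvd_left (card_dvd_of_le B.R_le_Q) (card_Qof_coprime p H))).symm

/-- `C_V(R) = C_V(E)`. -/
theorem centralizer_R_eq [Finite G] (h : FF p V H) (B : Base p V H A) :
    V ⊓ centralizer (Rof p H A : Set G) = V ⊓ centralizer (Eof p H A : Set G) := by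
  have hRE : Rof p H A ≤ Eof p H A := le_sup_left
  apply le_antisymm _ (inf_le_inf_left _ (centralizer_le hRE))
  set C : Subgroup G := V ⊓ centralizer (Rof p H A : Set G) with hC
  obtain ⟨A', hA', hne⟩ := B.exists_tv_ne h
  have hAV : A ≤ normalizer (V : Set G) := B.hAH.trans h.hHV
  have hX : ⁅V, A⁆ ⊓ centralizer (Rof p H A : Set G) = ⊥ := by
    apply inf_eq_bot_of_card_prime (B.card_commutator h B.tv_self)
    intro hle
    have P := B.pair h hA' B.tv_self hne.symm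
    apply P.not_le_centralizer h
    refine (B.tv_le_E hA').trans ?_
    refine _root_.sup_le (le_centralizer_iff.1 hle) ?_
    exact (B.pair h B.tv_self hA' hne).le_centralizer_left h
  have hAC : A ≤ normalizer (C : Set G) :=
    Cfsg.Agent.Lib.Helper55Core.le_normalizer_inf_centralizer hAV
      (le_sup_right.trans B.E_le_normalizer_R)
  have h1 : ⁅C, A⁆ = ⊥ := by
    rw [eq_bot_iff, ← hX]
    exact le_inf (commutator_mono inf_le_left le_rfl)
      ((commutator_le_left hAC).trans inf_le_right)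
  have h2 : A ≤ centralizer (C : Set G) := commutator_eq_bot_iff.1 h1
  refine le_inf inf_le_left ?_
  rw [le_centralizer_iff]
  exact _root_.sup_le (le_centralizer_iff.1 inf_le_right) h2

/-- `[V,R] = [V,E]`. -/
theorem commutator_R_eq [Finite G] (h : FF p V H) (B : Base p V H A) :
    ⁅V, Rof p H A⁆ = ⁅V, Eof p H A⁆ := by
  apply le_antisymm (commutator_mono le_rfl le_sup_left)
  haveI := h.hV.1
  have hRV : Rof p H A ≤ normalizer (V : Set G) := (le_sup_left.trans B.E_le_H).trans h.hHV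
  have h0 := (Cfsg.Agent.S0055.result (Rof p H A) V hRV (B.card_R_coprime h)).2
  set U : Subgroup G := ⁅V, Rof p H A⁆ with hU
  have hUV : U ≤ V := commutator_le_left hRV
  have hEU : Eof p H A ≤ normalizer (U : Set G) :=
    Cfsg.Agent.Lib.Helper30SZ.le_normalizer_commutator (B.E_le_H.trans h.hHV) B.E_le_normalizer_R
  conv_lhs => rw [← h0]
  apply Cfsg.Agent.Lib.Helper54Coprime.commutator_sup_le
  · rw [B.centralizer_R_eq h]
    have : ⁅V ⊓ centralizer (Eof p H A : Set G), Eof p H A⁆ = ⊥ := by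
      rw [commutator_eq_bot_iff_le_centralizer]
      exact inf_le_right
    rw [this]; exact bot_le
  · exact commutator_le_left hEU
  · rw [h0]
    exact ((le_centralizer_of_elemAb h.hV).trans (centralizer_le hUV)).trans
      (centralizer_le_normalizer _)

theorem W_inf [Finite G] (h : FF p V H) (B : Base p V H A) :
    ⁅V, Eof p H A⁆ ⊓ (V ⊓ centralizer (Eof p H A : Set G)) = ⊥ := by
  haveI := h.hV.1
  have hRV : Rof p H A ≤ normalizer (V : Set G) := (le_sup_left.trans B.E_le_H).trans h.hHV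
  have h0 := (Cfsg.Agent.S0055.result (Rof p H A) V hRV (B.card_R_coprime h)).1
  rw [B.centralizer_R_eq h, B.commutator_R_eq h, inf_comm] at h0
  exact h0

theorem W_sup [Finite G] (h : FF p V H) (B : Base p V H A) :
    ⁅V, Eof p H A⁆ ⊔ (V ⊓ centralizer (Eof p H A : Set G)) = V := by
  haveI := h.hV.1
  have hRV : Rof p H A ≤ normalizer (V : Set G) := (le_sup_left.trans B.E_le_H).trans h.hHV
  have h0 := (Cfsg.Agent.S0055.result (Rof p H A) V hRV (B.card_R_coprime h)).2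
  rw [B.centralizer_R_eq h, B.commutator_R_eq h, sup_comm] at h0
  exact h0

theorem Q_le_normalizer_W [Finite G] (h : FF p V H) (B : Base p V H A) :
    Qof p H ≤ normalizer ((⁅V, Eof p H A⁆ : Subgroup G) : Set G) := by
  rw [← B.commutator_R_eq h]
  exact Cfsg.Agent.Lib.Helper30SZ.le_normalizer_commutator ((Qof_le p H).trans h.hHV)
    (Q_le_normalizer_R p H A)

end Base

end FF

theorem pow_mem_of_mem_sup {R A : Subgroup G} (hAR : A ≤ normalizer (R : Set G)) {n : ℕ}
    (hA : ∀ a ∈ A, a ^ n = 1) {g : G} (hg : g ∈ R ⊔ A) : g ^ n ∈ R := by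
  obtain ⟨ρ, hρ, a, ha, rfl⟩ := (Cfsg.Agent.Lib.Helper30SZ.mem_sup_iff hAR).1 hg
  have key : ∀ m : ℕ, ∃ σ ∈ R, (ρ * a) ^ m = σ * a ^ m := by
    intro m
    induction m with
    | zero => exact ⟨1, R.one_mem, by simp⟩
    | succ m ih =>
      obtain ⟨σ, hσ, hm⟩ := ih
      refine ⟨σ * (a ^ m * ρ * (a ^ m)⁻¹), R.mul_mem hσ
        (conj_mem_of_mem_normalizer (hAR (A.pow_mem ha m)) hρ), ?_⟩
      rw [pow_succ, hm, pow_succ]; group
  obtain ⟨σ, hσ, hm⟩ := key n
  rw [hm, hA a ha, mul_one]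
  exact hσ

theorem qi_sq : qi ^ 2 ≠ 1 := by decide

namespace FF

variable {p : ℕ} [hp : Fact p.Prime] {V H : Subgroup G}

namespace Base

variable {A : Subgroup G}

theorem exists_pow_ne_one [Finite G] (h : FF p V H) (B : Base p V H A) :
    ∃ t ∈ Rof p H A, t ^ (p - 1) ≠ 1 := by
  obtain ⟨h23, ⟨e⟩⟩ := B.E_equiv h
  rcases h23 with rfl | rfl
  · have hR : Rof 2 H A ≠ ⊥ := by
      intro hR
      obtain ⟨A', hA', hne⟩ := B.exists_tv_ne h
      have h1 := B.tv_le_E hA'
      rw [show (⁅Qof 2 H, A⁆ : Subgroup G) = ⊥ from hR, bot_sup_eq] at h1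
      exact hne (Subgroup.eq_of_le_of_card_ge h1 (by rw [hA'.2, B.hc])).symm
    obtain ⟨t, ht, ht1⟩ := exists_ne_one_of_ne_bot hR
    exact ⟨t, ht, by simpa using ht1⟩
  · have hA3 : ∀ a ∈ A, a ^ 3 = 1 := by
      intro a ha
      have := pow_card_eq_one' (G := A) (x := ⟨a, ha⟩)
      rw [B.hc] at this
      exact congrArg Subtype.val this
    have h3 : ((e.symm qi : ↥(Eof 3 H A)) : G) ^ 3 ∈ Rof 3 H A :=
      pow_mem_of_mem_sup (le_sup_right.trans B.E_le_normalizer_R) hA3 (e.symm qi).2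
    have h4 : ((e.symm qi : ↥(Eof 3 H A)) : G) ^ 4 = 1 := by
      have : (e.symm qi) ^ 4 = 1 := by rw [← map_pow, qi_pow, map_one]
      exact congrArg Subtype.val this
    refine ⟨_, inv_mem h3, ?_⟩
    have h5 : (((e.symm qi : ↥(Eof 3 H A)) : G) ^ 3)⁻¹ = ((e.symm qi : ↥(Eof 3 H A)) : G) := by
      rw [inv_eq_iff_mul_eq_one, ← pow_succ, h4]
    rw [h5]
    intro h6
    apply qi_sq
    apply e.symm.injective
    rw [map_pow, map_one]
    exact Subtype.ext h6

/-- `R` acts irreducibly on `W`. -/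
theorem no_invariant_line [Finite G] (h : FF p V H) (B : Base p V H A) {I : Subgroup G}
    (hIW : I ≤ ⁅V, Eof p H A⁆) (hI : Nat.card I = p) : ¬ Rof p H A ≤ normalizer (I : Set G) := by
  intro hRI
  set R := Rof p H A with hR
  set E := Eof p H A with hE
  set W : Subgroup G := ⁅V, E⁆ with hW
  set T₁ : Subgroup G := closure {y | ∃ t ∈ R, y = t ^ (p - 1)} with hT₁
  have hT₁I : T₁ ≤ centralizer (I : Set G) := by
    rw [hT₁, closure_le]
    rintro _ ⟨t, ht, rfl⟩
    exact pow_mem_centralizer_of_card_prime hI (hRI ht)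
  have hT₁R : T₁ ≤ R := by
    rw [hT₁, closure_le]
    rintro _ ⟨t, ht, rfl⟩
    exact R.pow_mem ht _
  have hET₁ : E ≤ normalizer (T₁ : Set G) := by
    rw [hT₁, le_normalizer_closure_iff]
    rintro g hg _ ⟨t, ht, rfl⟩
    apply Subgroup.subset_closure
    exact ⟨g * t * g⁻¹, conj_mem_of_mem_normalizer (B.E_le_normalizer_R hg) ht, (conj_pow).symm⟩
  set J : Subgroup G := W ⊓ centralizer (T₁ : Set G) with hJ
  have hIJ : I ≤ J := le_inf hIW (le_centralizer_iff.1 hT₁I)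
  have hEJ : E ≤ normalizer (J : Set G) :=
    Cfsg.Agent.Lib.Helper55Core.le_normalizer_inf_centralizer (B.E_le_normalizer_W h) hET₁
  have hJd : Nat.card J ∣ p ^ 2 := (B.card_W h) ▸ card_dvd_of_le inf_le_left
  obtain ⟨j, hj2, hj⟩ := (Nat.dvd_prime_pow hp.out).1 hJd
  have hj0 : j ≠ 0 := by
    rintro rfl
    rw [pow_zero, Subgroup.card_eq_one] at hj
    exact ne_bot_of_card_prime hI (eq_bot_iff.2 (hj ▸ hIJ))
  have hj' : j = 1 ∨ j = 2 := by omega
  rcases hj' with rfl | rfl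
  · rw [pow_one] at hj
    have h1 : E ≤ centralizer (J : Set G) := by
      apply B.E_le_of_tv
      intro D hD
      exact le_centralizer_of_card_prime (isPGroup_of_card_prime hD.2) hj ((B.tv_le_E hD).trans hEJ)
    have h2 : J ≤ W ⊓ (V ⊓ centralizer (E : Set G)) :=
      le_inf inf_le_left (le_inf (inf_le_left.trans (B.W_le h)) (le_centralizer_iff.1 h1))
    rw [B.W_inf h] at h2
    exact ne_bot_of_card_prime hj (eq_bot_iff.2 h2)
  · have h1 : J = W := Subgroup.eq_of_le_of_card_ge inf_le_left (by rw [hj, B.card_W h])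
    have h2 : T₁ ≤ E ⊓ centralizer (W : Set G) := by
      refine le_inf (hT₁R.trans le_sup_left) ?_
      rw [le_centralizer_iff, ← h1]
      exact inf_le_right
    rw [B.E_faithful h] at h2
    obtain ⟨t, ht, ht1⟩ := B.exists_pow_ne_one h
    exact ht1 (h2 (Subgroup.subset_closure ⟨t, ht, rfl⟩))

variable {A₁ A₂ : Subgroup G}

theorem E_eq_of_W_eq [Finite G] (h : FF p V H) (B₁ : Base p V H A₁) (B₂ : Base p V H A₂)
    (hW : ⁅V, Eof p H A₁⁆ = ⁅V, Eof p H A₂⁆) : Eof p H A₁ = Eof p H A₂ := by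
  haveI := h.hV.1
  set W : Subgroup G := ⁅V, Eof p H A₁⁆ with hW₁
  set S : Subgroup G := Rof p H A₁ ⊔ Rof p H A₂ with hS
  have hSQ : S ≤ Qof p H := _root_.sup_le B₁.R_le_Q B₂.R_le_Q
  have hSV : S ≤ normalizer (V : Set G) := (hSQ.trans (Qof_le p H)).trans h.hHV
  have hcop : (Nat.card S).Coprime (Nat.card V) :=
    (coprime_card_of_isPGroup (isPGroup_of_elemAb h.hV)
      (Nat.Coprime.coprime_dvd_left (card_dvd_of_le hSQ) (card_Qof_coprime p H))).symm
  have hVS : ⁅V, S⁆ = W := by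
    rw [hS, commutator_sup_eq (le_sup_left.trans hSV) (le_sup_right.trans hSV), B₁.commutator_R_eq h,
      B₂.commutator_R_eq h, ← hW, sup_idem]
  have hdec := (Cfsg.Agent.S0055.result S V hSV hcop).2
  rw [hVS] at hdec
  set C : Subgroup G := V ⊓ centralizer (S : Set G) with hC
  have hC₁ : Eof p H A₁ ≤ centralizer (C : Set G) := by
    rw [le_centralizer_iff]
    have : C ≤ V ⊓ centralizer (Rof p H A₁ : Set G) :=
      inf_le_inf_left _ (centralizer_le (le_sup_left : Rof p H A₁ ≤ S))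
    rw [B₁.centralizer_R_eq h] at this
    exact this.trans inf_le_right
  have hC₂ : Eof p H A₂ ≤ centralizer (C : Set G) := by
    rw [le_centralizer_iff]
    have : C ≤ V ⊓ centralizer (Rof p H A₂ : Set G) :=
      inf_le_inf_left _ (centralizer_le (le_sup_right : Rof p H A₂ ≤ S))
    rw [B₂.centralizer_R_eq h] at this
    exact this.trans inf_le_right
  set M : Subgroup G := Eof p H A₁ ⊔ Eof p H A₂ with hM
  have hMH : M ≤ H := _root_.sup_le B₁.E_le_H B₂.E_le_H
  have hMW : M ≤ normalizer (W : Set G) :=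
    _root_.sup_le (B₁.E_le_normalizer_W h) (hW ▸ B₂.E_le_normalizer_W h)
  have hfaith : M ⊓ centralizer (W : Set G) = ⊥ := by
    apply h.eq_bot_of_le_centralizer (inf_le_left.trans hMH)
    rw [le_centralizer_iff, ← hdec]
    exact _root_.sup_le (le_centralizer_iff.1 (inf_le_left.trans (_root_.sup_le hC₁ hC₂)))
      (le_centralizer_iff.1 inf_le_right)
  have hgen : M ≤ closure {g | g ∈ M ∧ g ^ p = 1} := by
    apply _root_.sup_le
    · exact (B₁.E_le_closure h).trans (closure_mono fun g hg => ⟨le_sup_left (b := Eof p H A₂) hg.1, hg.2⟩)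
    · exact (B₂.E_le_closure h).trans (closure_mono fun g hg => ⟨le_sup_right (a := Eof p H A₁) hg.1, hg.2⟩)
  obtain ⟨F, hF⟩ := exists_injective_hom (W := W) (L := M)
    (Cfsg.Agent.Lib.Helper14ElemAb.elemAb_mono (B₁.W_le h) h.hV) (B₁.card_W h) hMW hfaith hgen
  have hcard := Nat.card_le_card_of_injective F hF
  have h1 : Eof p H A₁ = M := Subgroup.eq_of_le_of_card_ge le_sup_left (by rw [B₁.card_E h]; exact hcard)
  have h2 : Eof p H A₂ = M := Subgroup.eq_of_le_of_card_ge le_sup_right (by rw [B₂.card_E h]; exact hcard)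
  rw [h1, h2]

theorem W_inf_W_eq_bot [Finite G] (h : FF p V H) (B₁ : Base p V H A₁) (B₂ : Base p V H A₂)
    (hW : ⁅V, Eof p H A₁⁆ ≠ ⁅V, Eof p H A₂⁆) : ⁅V, Eof p H A₁⁆ ⊓ ⁅V, Eof p H A₂⁆ = ⊥ := by
  set I : Subgroup G := ⁅V, Eof p H A₁⁆ ⊓ ⁅V, Eof p H A₂⁆ with hI
  have hRI : Rof p H A₁ ≤ normalizer (I : Set G) :=
    (B₁.R_le_Q.trans (le_inf (B₁.Q_le_normalizer_W h) (B₂.Q_le_normalizer_W h))).trans
      Subgroup.inf_normalizer_le_normalizer_inf
  have hId : Nat.card I ∣ p ^ 2 := (B₁.card_W h) ▸ card_dvd_of_le inf_le_left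
  obtain ⟨j, hj2, hj⟩ := (Nat.dvd_prime_pow hp.out).1 hId
  have hj' : j = 0 ∨ j = 1 ∨ j = 2 := by omega
  rcases hj' with rfl | rfl | rfl
  · rwa [pow_zero, Subgroup.card_eq_one] at hj
  · rw [pow_one] at hj
    exact absurd hRI (B₁.no_invariant_line h inf_le_left hj)
  · exfalso
    have h1 : I = ⁅V, Eof p H A₁⁆ := Subgroup.eq_of_le_of_card_ge inf_le_left (by rw [hj, B₁.card_W h])
    have h2 : ⁅V, Eof p H A₁⁆ ≤ ⁅V, Eof p H A₂⁆ := h1 ▸ inf_le_right
    exact hW (Subgroup.eq_of_le_of_card_ge h2 (by rw [B₁.card_W h, B₂.card_W h]))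

theorem le_centralizer_W_of_ne [Finite G] (h : FF p V H) (B₁ : Base p V H A₁) (B₂ : Base p V H A₂)
    (hW : ⁅V, Eof p H A₁⁆ ≠ ⁅V, Eof p H A₂⁆) :
    Eof p H A₂ ≤ centralizer ((⁅V, Eof p H A₁⁆ : Subgroup G) : Set G) := by
  have h1 : ⁅⁅V, Eof p H A₁⁆, Rof p H A₂⁆ = ⊥ := by
    rw [eq_bot_iff, ← B₁.W_inf_W_eq_bot h B₂ hW]
    refine le_inf (commutator_le_left (B₂.R_le_Q.trans (B₁.Q_le_normalizer_W h))) ?_
    rw [← B₂.commutator_R_eq h]
    exact commutator_mono (B₁.W_le h) le_rfl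
  have h2 : ⁅V, Eof p H A₁⁆ ≤ V ⊓ centralizer (Rof p H A₂ : Set G) :=
    le_inf (B₁.W_le h) (commutator_eq_bot_iff_le_centralizer.1 h1)
  rw [B₂.centralizer_R_eq h] at h2
  exact le_centralizer_iff.1 (h2.trans inf_le_right)

theorem commutator_E_eq_bot [Finite G] (h : FF p V H) (B₁ : Base p V H A₁) (B₂ : Base p V H A₂)
    (hW : ⁅V, Eof p H A₁⁆ ≠ ⁅V, Eof p H A₂⁆) : ⁅Eof p H A₁, Eof p H A₂⁆ = ⊥ := by
  have h1 : ⁅⁅Eof p H A₂, V⁆, Eof p H A₁⁆ = ⊥ := by
    rw [commutator_comm (Eof p H A₂) V, Cfsg.Agent.Lib.Helper55Act.commutator_eq_bot_iff]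
    exact B₂.le_centralizer_W_of_ne h B₁ hW.symm
  have h2 : ⁅⁅V, Eof p H A₁⁆, Eof p H A₂⁆ = ⊥ := by
    rw [Cfsg.Agent.Lib.Helper55Act.commutator_eq_bot_iff]
    exact B₁.le_centralizer_W_of_ne h B₂ hW
  have h3 := commutator_commutator_eq_bot_of_rotate h1 h2
  apply h.eq_bot_of_le_centralizer
  · rw [commutator_le]
    intro x hx y hy
    rw [commutatorElement_def]
    exact H.mul_mem (H.mul_mem (H.mul_mem (B₁.E_le_H hx) (B₂.E_le_H hy)) (H.inv_mem (B₁.E_le_H hx)))
      (H.inv_mem (B₂.E_le_H hy))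
  · exact commutator_eq_bot_iff_le_centralizer.1 h3

end Base

/-- `H` is generated by its best offenders of order `p`. -/
theorem le_of_bases [Finite G] (h : FF p V H)
    (hS3 : H = ⨆ A : {A : Subgroup G // A ≤ H ∧ Cfsg.IsBestOffenderOn p V A}, (A : Subgroup G))
    {K : Subgroup G} (hK : ∀ A, Base p V H A → A ≤ K) : H ≤ K := by
  calc H = ⨆ A : {A : Subgroup G // A ≤ H ∧ Cfsg.IsBestOffenderOn p V A}, (A : Subgroup G) := hS3
    _ ≤ K := by
      refine iSup_le ?_
      rintro ⟨A, hAH, hA⟩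
      obtain ⟨k, F, hF, -, hsup⟩ := h.exists_decomp _ A rfl hAH hA
      show A ≤ K
      rw [← hsup]
      exact iSup_le fun i => hK _ ⟨(hF i).1.trans hAH, (hF i).2.1, (hF i).2.2⟩

namespace Base

variable {A : Subgroup G}

theorem H_le_normalizer_E [Finite G] (h : FF p V H)
    (hS3 : H = ⨆ A : {A : Subgroup G // A ≤ H ∧ Cfsg.IsBestOffenderOn p V A}, (A : Subgroup G))
    (B : Base p V H A) : H ≤ normalizer (Eof p H A : Set G) := by
  apply h.le_of_bases hS3
  intro A₂ B₂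
  refine (le_sup_right : A₂ ≤ Eof p H A₂).trans ?_
  by_cases hW : ⁅V, Eof p H A⁆ = ⁅V, Eof p H A₂⁆
  · exact (B.E_eq_of_W_eq h B₂ hW).symm.le.trans le_normalizer
  · have := B.commutator_E_eq_bot h B₂ hW
    rw [commutator_eq_bot_iff_le_centralizer, le_centralizer_iff] at this
    exact this.trans (centralizer_le_normalizer _)

theorem E_sup_eq [Finite G] (h : FF p V H)
    (hS3 : H = ⨆ A : {A : Subgroup G // A ≤ H ∧ Cfsg.IsBestOffenderOn p V A}, (A : Subgroup G))
    (B : Base p V H A) :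
    Eof p H A ⊔ (H ⊓ centralizer ((⁅V, Eof p H A⁆ : Subgroup G) : Set G)) = H := by
  apply le_antisymm (_root_.sup_le B.E_le_H inf_le_left)
  apply h.le_of_bases hS3
  intro A₂ B₂
  refine (le_sup_right : A₂ ≤ Eof p H A₂).trans ?_
  by_cases hW : ⁅V, Eof p H A⁆ = ⁅V, Eof p H A₂⁆
  · exact (B.E_eq_of_W_eq h B₂ hW).symm.le.trans le_sup_left
  · exact (le_inf B₂.E_le_H (B.le_centralizer_W_of_ne h B₂ hW)).trans le_sup_right

theorem H_le_normalizer_W [Finite G] (h : FF p V H)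
    (hS3 : H = ⨆ A : {A : Subgroup G // A ≤ H ∧ Cfsg.IsBestOffenderOn p V A}, (A : Subgroup G))
    (B : Base p V H A) : H ≤ normalizer ((⁅V, Eof p H A⁆ : Subgroup G) : Set G) :=
  Cfsg.Agent.Lib.Helper30SZ.le_normalizer_commutator h.hHV (B.H_le_normalizer_E h hS3)

theorem commutator_E_C [Finite G] (h : FF p V H)
    (hS3 : H = ⨆ A : {A : Subgroup G // A ≤ H ∧ Cfsg.IsBestOffenderOn p V A}, (A : Subgroup G))
    (B : Base p V H A) :
    ⁅Eof p H A, H ⊓ centralizer ((⁅V, Eof p H A⁆ : Subgroup G) : Set G)⁆ = ⊥ := by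
  rw [eq_bot_iff, ← B.E_faithful h]
  refine le_inf (commutator_le_left (inf_le_left.trans (B.H_le_normalizer_E h hS3))) ?_
  rw [commutator_comm]
  have h1 : Eof p H A ≤ normalizer
      ((H ⊓ centralizer ((⁅V, Eof p H A⁆ : Subgroup G) : Set G) : Subgroup G) : Set G) :=
    B.E_le_H.trans (Cfsg.Agent.Lib.Helper55Core.le_normalizer_inf_centralizer le_normalizer
      (B.H_le_normalizer_W h hS3))
  exact (commutator_le_left h1).trans inf_le_right

theorem commutator_V_C [Finite G] (h : FF p V H)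
    (hS3 : H = ⨆ A : {A : Subgroup G // A ≤ H ∧ Cfsg.IsBestOffenderOn p V A}, (A : Subgroup G))
    (B : Base p V H A) :
    ⁅V, H ⊓ centralizer ((⁅V, Eof p H A⁆ : Subgroup G) : Set G)⁆ ≤
      V ⊓ centralizer (Eof p H A : Set G) := by
  refine le_inf (commutator_le_left (inf_le_left.trans h.hHV)) ?_
  rw [← commutator_eq_bot_iff_le_centralizer]
  apply commutator_commutator_eq_bot_of_rotate
  · rw [commutator_comm _ (Eof p H A), B.commutator_E_C h hS3, commutator_bot_left]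
  · rw [commutator_comm (Eof p H A) V, Cfsg.Agent.Lib.Helper55Act.commutator_eq_bot_iff]
    exact inf_le_right

end Base

end FF

end Cfsg.Agent.Lib.Helper55FF
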