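import Cfsg.Agent.Lib.Helper55FF6
import Cfsg.Agent.Lib.Helper55HH
import Cfsg.Agent.Lib.Helper38PSolv

set_option autoImplicit false

/-! Transfer kit: the action of `G` on a normal elementary abelian subgroup `V`, realised faithfully inside
the holomorph `V ⋊ Aut(V)`, so that the failure-of-factorization theory (stated for subgroups `V, H` of one
ambient group with `H ∩ C(V) = 1`) applies to `G / C_G(V)`. -/

namespace Cfsg.Agent.Lib.Helper55Hol

open Subgroup Cfsg.Agent.Lib.Helper55FF
open scoped commutatorElement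

variable {G : Type*} [Group G] (V : Subgroup G) [hVn : V.Normal]

/-- the holomorph of `V` -/
abbrev Hol := ↥V ⋊[MonoidHom.id (MulAut ↥V)] MulAut ↥V

instance [Finite G] : Finite (Hol V) :=
  Finite.of_equiv _ (SemidirectProduct.equivProd (φ := MonoidHom.id (MulAut ↥V))).symm

/-- the copy of `V` in the holomorph -/
def VV : Subgroup (Hol V) := (SemidirectProduct.inl : ↥V →* Hol V).range

/-- the action of `G` on `V`, as a homomorphism to the holomorph -/
def act : G →* Hol V := (SemidirectProduct.inr : MulAut ↥V →* Hol V).comp MulAut.conjNormal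

/-- inclusion of `V` -/
abbrev il : ↥V →* Hol V := SemidirectProduct.inl

variable {V}

theorem act_conj (g : G) (v : V) :
    act V g * il V v * (act V g)⁻¹ = il V ⟨g * v * g⁻¹, hVn.conj_mem v v.2 g⟩ := by
  have h := SemidirectProduct.inl_aut (φ := MonoidHom.id (MulAut ↥V)) (MulAut.conjNormal g) v
  rw [map_inv] at h
  have h2 : (MonoidHom.id (MulAut ↥V)) (MulAut.conjNormal g) v = ⟨g * v * g⁻¹, hVn.conj_mem v v.2 g⟩ :=
    Subtype.ext (MulAut.conjNormal_apply g v)
  rw [h2] at h
  exact h.symm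

theorem act_eq_one_iff {g : G} : act V g = 1 ↔ g ∈ centralizer (V : Set G) := by
  constructor
  · intro h
    rw [mem_centralizer_iff]
    intro v hv
    have h1 := act_conj g ⟨v, hv⟩
    rw [h, one_mul, inv_one, mul_one] at h1
    have h2 := congrArg Subtype.val (SemidirectProduct.inl_injective h1)
    have h3 : v = g * v * g⁻¹ := h2
    exact eq_mul_inv_iff_mul_eq.1 h3
  · intro h
    have h1 : (MulAut.conjNormal g : MulAut V) = 1 := by
      ext v
      rw [MulAut.conjNormal_apply]
      have := (mem_centralizer_iff.1 h) v v.2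
      rw [← this]; simp
    show SemidirectProduct.inr (MulAut.conjNormal g) = 1
    rw [h1, map_one]

theorem ker_act : (act V).ker = centralizer (V : Set G) := by
  ext g
  rw [MonoidHom.mem_ker, act_eq_one_iff]

instance VV_normal : (VV V).Normal := by
  unfold VV
  rw [SemidirectProduct.range_inl_eq_ker_rightHom]
  infer_instance

omit hVn in
theorem mem_VV {y : Hol V} : y ∈ VV V ↔ ∃ v : V, il V v = y := Iff.rfl

omit hVn in
theorem VV_elemAb {p : ℕ} (hV : Cfsg.IsElementaryAbelian p V) : Cfsg.IsElementaryAbelian p (VV V) := by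
  refine ⟨?_, ?_⟩
  · rw [isMulCommutative_iff]
    rintro ⟨_, v, rfl⟩ ⟨_, w, rfl⟩
    apply Subtype.ext
    show il V v * il V w = il V w * il V v
    rw [← map_mul, ← map_mul, (isMulCommutative_iff.1 hV.1) v w]
  · rintro _ ⟨v, rfl⟩
    rw [← map_pow]
    have : v ^ p = 1 := Subtype.ext (hV.2 v v.2)
    rw [this, map_one]

omit hVn in
theorem card_VV : Nat.card (VV V) = Nat.card V := by
  unfold VV
  rw [MonoidHom.range_eq_map, card_map_of_injective SemidirectProduct.inl_injective, card_top]

theorem map_act_inf_centralizer (A : Subgroup G) : A.map (act V) ⊓ centralizer (VV V : Set (Hol V)) = ⊥ := by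
  rw [eq_bot_iff]
  rintro _ ⟨⟨a, -, rfl⟩, hc⟩
  rw [mem_bot, act_eq_one_iff, mem_centralizer_iff]
  intro v hv
  have h1 := (mem_centralizer_iff.1 hc) (il V ⟨v, hv⟩) ⟨_, rfl⟩
  have h2 := act_conj a ⟨v, hv⟩
  rw [← h1, mul_assoc, mul_inv_cancel, mul_one] at h2
  have h3 : v = a * v * a⁻¹ := congrArg Subtype.val (SemidirectProduct.inl_injective h2)
  exact eq_mul_inv_iff_mul_eq.1 h3

/-- fixed points correspond -/
theorem VV_inf_centralizer (A : Subgroup G) :
    VV V ⊓ centralizer (A.map (act V) : Set (Hol V)) =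
      ((V ⊓ centralizer (A : Set G)).subgroupOf V).map (il V) := by
  ext y
  constructor
  · rintro ⟨⟨v, rfl⟩, hc⟩
    refine ⟨v, ?_, rfl⟩
    rw [SetLike.mem_coe, mem_subgroupOf]
    refine ⟨v.2, ?_⟩
    show (v : G) ∈ centralizer (A : Set G)
    rw [mem_centralizer_iff]
    intro a ha
    have h1 := (mem_centralizer_iff.1 hc) (act V a) ⟨a, ha, rfl⟩
    have h2 := act_conj a v
    rw [h1, mul_assoc, mul_inv_cancel, mul_one] at h2
    have h3 : (v : G) = a * v * a⁻¹ := congrArg Subtype.val (SemidirectProduct.inl_injective h2)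
    exact (eq_mul_inv_iff_mul_eq.1 h3).symm
  · rintro ⟨v, hv, rfl⟩
    rw [SetLike.mem_coe, mem_subgroupOf] at hv
    refine ⟨⟨v, rfl⟩, ?_⟩
    show il V v ∈ centralizer (A.map (act V) : Set (Hol V))
    rw [mem_centralizer_iff]
    rintro _ ⟨a, ha, rfl⟩
    have h1 := (mem_centralizer_iff.1 hv.2) a ha
    have h2 := act_conj a v
    have h3 : (⟨a * v * a⁻¹, hVn.conj_mem v v.2 a⟩ : V) = v := by
      apply Subtype.ext
      show a * (v : G) * a⁻¹ = v
      rw [h1]; group
    rw [h3] at h2
    exact mul_inv_eq_iff_eq_mul.1 h2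

theorem card_VV_inf_centralizer (A : Subgroup G) :
    Nat.card ↥(VV V ⊓ centralizer (A.map (act V) : Set (Hol V))) =
      Nat.card ↥(V ⊓ centralizer (A : Set G)) := by
  rw [VV_inf_centralizer, card_map_of_injective SemidirectProduct.inl_injective,
    Cfsg.Agent.Lib.Helper30SZ.card_subgroupOf_of_le inf_le_left]

theorem card_map_mul {G' : Type*} [Group G'] (f : G →* G') (A : Subgroup G) :
    Nat.card (A.map f) * Nat.card ↥(A ⊓ f.ker) = Nat.card A := by
  have h1 : (f.comp A.subtype).range = A.map f := by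
    rw [MonoidHom.range_eq_map, ← Subgroup.map_map, ← MonoidHom.range_eq_map, A.range_subtype]
  have h2 : (f.comp A.subtype).ker = (A ⊓ f.ker).subgroupOf A := by
    ext x
    rw [MonoidHom.mem_ker, mem_subgroupOf, mem_inf, MonoidHom.mem_ker]
    exact ⟨fun h => ⟨x.2, h⟩, fun h => h.2⟩
  have h3 := Subgroup.card_mul_index (f.comp A.subtype).ker
  rw [Subgroup.index_ker, h1, h2, Cfsg.Agent.Lib.Helper30SZ.card_subgroupOf_of_le inf_le_left,
    mul_comm] at h3
  exact h3

theorem card_map_act (A : Subgroup G) :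
    Nat.card (A.map (act V)) * Nat.card ↥(A ⊓ centralizer (V : Set G)) = Nat.card A := by
  rw [← ker_act]; exact card_map_mul _ _

/-- best offenders go to best offenders -/
theorem bestOffender_map [Finite G] {p : ℕ} {A : Subgroup G} (hA : Cfsg.IsBestOffenderOn p V A) :
    Cfsg.IsBestOffenderOn p (VV V) (A.map (act V)) := by
  refine ⟨?_, ?_, ?_⟩
  · intro B' hB'
    set B : Subgroup G := A ⊓ B'.comap (act V) with hB
    have hBmap : B.map (act V) = B' := by
      apply le_antisymm
      · rintro _ ⟨b, hb, rfl⟩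
        exact hb.2
      · intro y hy
        obtain ⟨a, ha, rfl⟩ := hB' hy
        exact ⟨a, ⟨ha, hy⟩, rfl⟩
    have hBC : B ⊓ centralizer (V : Set G) = A ⊓ centralizer (V : Set G) := by
      apply le_antisymm (inf_le_inf_right _ inf_le_left)
      rintro x ⟨hx1, hx2⟩
      refine ⟨⟨hx1, ?_⟩, hx2⟩
      show act V x ∈ B'
      rw [act_eq_one_iff.2 hx2]
      exact B'.one_mem
    have h1 := hA.1 B inf_le_left
    rw [← card_map_act (V := V) B, ← card_map_act (V := V) A, hBC, hBmap] at h1
    rw [← hBmap, card_VV_inf_centralizer, card_VV_inf_centralizer, hBmap]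
    have hpos : 0 < Nat.card ↥(A ⊓ centralizer (V : Set G)) := Nat.card_pos
    have h2 : Nat.card ↥(A ⊓ centralizer (V : Set G)) *
        (Nat.card B' * Nat.card ↥(V ⊓ centralizer (B : Set G))) ≤
        Nat.card ↥(A ⊓ centralizer (V : Set G)) *
        (Nat.card (A.map (act V)) * Nat.card ↥(V ⊓ centralizer (A : Set G))) := by
      calc _ = Nat.card B' * Nat.card ↥(A ⊓ centralizer (V : Set G)) *
            Nat.card ↥(V ⊓ centralizer (B : Set G)) := by ring
        _ ≤ _ := h1
        _ = _ := by ring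
    exact Nat.le_of_mul_le_mul_left h2 hpos
  · rw [← map_commutator]
    rintro _ ⟨x, hx, rfl⟩
    rw [act_eq_one_iff.2 (hA.2.1 hx)]
    exact one_mem _
  · rintro _ ⟨a, ha, rfl⟩
    rw [← map_pow, act_eq_one_iff.2 (hA.2.2 a ha)]
    exact one_mem _

theorem FF_map [Finite G] {p : ℕ} [Fact p.Prime] (hV : Cfsg.IsElementaryAbelian p V) (K : Subgroup G)
    (hsol : Cfsg.IsPSolvable p ↥K)
    (hOp : ∀ D : Subgroup G, D ≤ K → K ≤ normalizer (D : Set G) →
      (∀ d ∈ D, ∃ k : ℕ, d ^ (p ^ k) ∈ centralizer (V : Set G)) → D ≤ centralizer (V : Set G)) :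
    FF p (VV V) (K.map (act V)) where
  hV := VV_elemAb hV
  hHV := by
    rw [normalizer_eq_top_iff.2 (VV_normal (V := V))]
    exact le_top
  hf := map_act_inf_centralizer K
  hS1 := by
    apply Cfsg.Agent.Lib.Helper55HH.centralizer_pPrimeCore_le
    · exact Cfsg.Agent.Lib.Helper38PSolv.isPSolvable_of_surjective ((act V).subgroupMap K)
        ((act V).subgroupMap_surjective K) hsol
    · set X : Subgroup (Hol V) := K.map (act V) with hX
      set P : Subgroup X := Cfsg.pCore p X with hP
      haveI hPn : P.Normal := Cfsg.Agent.Lib.Helper40Cores.pCore_normal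
      have hPp : IsPGroup p P := Cfsg.Agent.Lib.Helper40Cores.pCore_isPGroup
      set D : Subgroup G := K ⊓ (P.map X.subtype).comap (act V) with hD
      have h1 : D ≤ centralizer (V : Set G) := by
        apply hOp D inf_le_left
        · apply Cfsg.Agent.Lib.Helper55Act.le_normalizer_of_conj_mem
          rintro k hk d ⟨hd1, hd2⟩
          refine ⟨K.mul_mem (K.mul_mem hk hd1) (K.inv_mem hk), ?_⟩
          show act V (k * d * k⁻¹) ∈ P.map X.subtype
          rw [map_mul, map_mul, map_inv]
          exact Cfsg.Agent.Lib.Helper55Act.conj_mem_of_mem_normalizer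
            (le_normalizer_map_subtype P ⟨k, hk, rfl⟩) hd2
        · rintro d ⟨-, y, hy, hyd⟩
          obtain ⟨k, hk⟩ := hPp ⟨y, hy⟩
          refine ⟨k, ?_⟩
          rw [← act_eq_one_iff, map_pow, ← hyd]
          have := congrArg (fun z : P => ((z : X) : Hol V)) hk
          simpa using this
      rw [eq_bot_iff]
      intro y hy
      obtain ⟨k, hk, hky⟩ := y.2
      have hkD : k ∈ D := ⟨hk, ⟨y, hy, hky.symm⟩⟩
      rw [mem_bot]
      apply Subtype.ext
      rw [← hky, act_eq_one_iff.2 (h1 hkD)]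
      rfl

theorem hS3_map [Finite G] {p : ℕ} {K : Subgroup G} {𝒜 : Set (Subgroup G)}
    (h𝒜 : ∀ A ∈ 𝒜, A ≤ K ∧ Cfsg.IsBestOffenderOn p V A)
    (hK : K ≤ sSup 𝒜 ⊔ centralizer (V : Set G)) :
    K.map (act V) = ⨆ A' : {A' : Subgroup (Hol V) // A' ≤ K.map (act V) ∧
      Cfsg.IsBestOffenderOn p (VV V) A'}, (A' : Subgroup (Hol V)) := by
  apply le_antisymm
  · refine (map_mono hK).trans ?_
    rw [Subgroup.map_sup]
    apply sup_le
    · rw [sSup_eq_iSup', Subgroup.map_iSup]
      refine iSup_le fun A => ?_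
      exact le_iSup (fun A' : {A' : Subgroup (Hol V) // A' ≤ K.map (act V) ∧
        Cfsg.IsBestOffenderOn p (VV V) A'} => (A' : Subgroup (Hol V)))
        ⟨(A : Subgroup G).map (act V), map_mono (h𝒜 A A.2).1, bestOffender_map (h𝒜 A A.2).2⟩
    · rintro _ ⟨c, hc, rfl⟩
      rw [act_eq_one_iff.2 hc]
      exact one_mem _
  · exact iSup_le fun A' => A'.2.1

/-- the quotient of the full preimage of `E'` by `C_G(V)` is isomorphic to `E'`. -/
theorem exists_quotient_equiv {E' : Subgroup (Hol V)} (hE' : E' ≤ (act V).range) :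
    ∃ hn : ((centralizer (V : Set G)).subgroupOf (E'.comap (act V))).Normal,
      Nonempty ((↥(E'.comap (act V)) ⧸ (centralizer (V : Set G)).subgroupOf (E'.comap (act V))) ≃* ↥E') := by
  set E : Subgroup G := E'.comap (act V) with hE
  let f : ↥E →* ↥E' := ((act V).comp E.subtype).codRestrict E' (fun x => x.2)
  have hker : f.ker = (centralizer (V : Set G)).subgroupOf E := by
    ext x
    rw [MonoidHom.mem_ker, mem_subgroupOf, ← act_eq_one_iff]
    constructor
    · intro h
      exact congrArg Subtype.val h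
    · intro h
      exact Subtype.ext h
  have hsurj : Function.Surjective f := by
    rintro ⟨y, hy⟩
    obtain ⟨g, rfl⟩ := hE' hy
    exact ⟨⟨g, hy⟩, rfl⟩
  have hn : ((centralizer (V : Set G)).subgroupOf E).Normal := hker ▸ f.normal_ker
  refine ⟨hn, ⟨?_⟩⟩
  exact (QuotientGroup.quotientMulEquivOfEq hker.symm).trans
    (QuotientGroup.quotientKerEquivOfSurjective f hsurj)

end Cfsg.Agent.Lib.Helper55Hol
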