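import Cfsg.Agent.Lib.Helper55FF4
import Cfsg.Agent.Lib.Helper55Core
import Cfsg.Agent.Lib.Helper58Subnormal

set_option autoImplicit false

/-! Subnormal subgroups of a faithful group on an elementary abelian `p`-group
(Kurzweil–Stellmacher 9.3.1 and 9.3.6). -/

namespace Cfsg.Agent.Lib.Helper55Sub

open Subgroup Cfsg.Agent.Lib.Helper55Act Cfsg.Agent.Lib.Helper55FF Cfsg.Agent.Lib.Helper58Subnormal
open scoped commutatorElement

variable {G : Type*} [Group G]

theorem isPGroup_of_stab' {p : ℕ} {V H N W : Subgroup G} (hV : Cfsg.IsElementaryAbelian p V)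
    (hf : H ⊓ centralizer (V : Set G) = ⊥) (hNH : N ≤ H) (hWV : W ≤ V)
    (h1 : ⁅V, N⁆ ≤ W) (h2 : N ≤ centralizer (W : Set G)) : IsPGroup p N := by
  intro g
  refine ⟨1, ?_⟩
  rw [pow_one]
  apply Subtype.ext
  have h3 := pow_mem_centralizer_of_stab (p := p) (V := V) (W := W) (g := g)
    (fun w hw => hV.2 w (hWV hw)) (fun v hv => h1 (commutator_mem_commutator hv g.2)) (h2 g.2)
  have h4 : (g : G) ^ p ∈ H ⊓ centralizer (V : Set G) := ⟨H.pow_mem (hNH g.2) _, h3⟩
  rw [hf] at h4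
  exact h4

theorem normalizer_inf_le_normalizer_actTriv (V W : Subgroup G) :
    normalizer (V : Set G) ⊓ normalizer (W : Set G) ≤ normalizer (actTriv V W : Set G) := by
  apply le_normalizer_of_conj_mem
  rintro g ⟨hgV, hgW⟩ x ⟨hx1, hx2⟩
  refine ⟨mul_mem (mul_mem hgW hx1) (inv_mem hgW), fun v hv => ?_⟩
  have h1 : ⁅v, g * x * g⁻¹⁆ = g * ⁅g⁻¹ * v * g, x⁆ * g⁻¹ := by
    simp only [commutatorElement_def]; group
  rw [h1]
  exact Cfsg.Agent.Lib.Helper55Act.conj_mem_of_mem_normalizer hgW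
    (hx2 _ (conj_mem_of_mem_normalizer' hgV hv))

/-- K–S 9.3.1. -/
theorem commutator_le_pgroup [Finite G] {p : ℕ} {V H E₁ E₂ : Subgroup G}
    (hV : Cfsg.IsElementaryAbelian p V) (hN : H ≤ normalizer (V : Set G))
    (hf : H ⊓ centralizer (V : Set G) = ⊥) (h₁ : Sn E₁ H) (h₂ : Sn E₂ H)
    (hc : ⁅⁅V, E₁⁆, E₂⁆ = ⊥) : ∃ P, Sn P H ∧ IsPGroup p P ∧ ⁅E₁, E₂⁆ ≤ P := by
  set W : Subgroup G := ⁅V, E₁⁆ with hW
  set E : Subgroup G := E₁ ⊔ E₂ with hE
  have hEsn : Sn E H := h₁.sup h₂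
  have hEH : E ≤ H := hEsn.le
  have hWV : W ≤ V := commutator_le_left (h₁.le.trans hN)
  have h₁W : E₁ ≤ normalizer (W : Set G) :=
    Cfsg.Agent.Lib.Helper30SZ.le_normalizer_commutator (h₁.le.trans hN) le_normalizer
  have h₂C : E₂ ≤ centralizer (W : Set G) := Cfsg.Agent.Lib.Helper55Act.commutator_eq_bot_iff.1 hc
  have hEW : E ≤ normalizer (W : Set G) := sup_le h₁W (h₂C.trans (centralizer_le_normalizer _))
  set C : Subgroup G := centralizer (W : Set G) with hC
  set D : Subgroup G := actTriv V W with hD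
  have hEC : E ≤ normalizer (C : Set G) :=
    hEW.trans (Cfsg.Agent.Lib.Helper55Core.normalizer_le_normalizer_centralizer W)
  have hED : E ≤ normalizer (D : Set G) :=
    (le_inf (hEH.trans hN) hEW).trans (normalizer_inf_le_normalizer_actTriv V W)
  have h₁D : E₁ ≤ D := le_actTriv h₁W le_rfl
  refine ⟨E ⊓ (C ⊓ D), ?_, ?_, ?_⟩
  · refine Sn.trans (NormIn.sn ⟨inf_le_left, ?_⟩) hEsn
    refine (le_inf le_normalizer ((le_inf hEC hED).trans inf_normalizer_le_normalizer_inf)).trans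
      inf_normalizer_le_normalizer_inf
  · apply isPGroup_of_stab' hV hf (inf_le_left.trans hEH) hWV
    · exact commutator_le_of_le_actTriv (inf_le_right.trans inf_le_right)
    · exact inf_le_right.trans inf_le_left
  · refine le_inf ?_ (le_inf ?_ ?_)
    · rw [commutator_le]
      intro x hx y hy
      rw [commutatorElement_def]
      have hx' : x ∈ E := le_sup_left (b := E₂) hx
      have hy' : y ∈ E := le_sup_right (a := E₁) hy
      exact E.mul_mem (E.mul_mem (E.mul_mem hx' hy') (E.inv_mem hx')) (E.inv_mem hy')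
    · rw [commutator_comm]
      exact (commutator_mono h₂C le_rfl).trans (commutator_le_left (le_sup_left.trans hEC))
    · exact (commutator_mono h₁D le_rfl).trans (commutator_le_left (le_sup_right.trans hED))

theorem le_pCore_map_of_sn [Finite G] {p : ℕ} {H P : Subgroup G} (hP : Sn P H) (hp : IsPGroup p P) :
    P ≤ (Cfsg.pCore p H).map H.subtype := by
  have h1 : (P.subgroupOf H).IsSubnormal := (sn_iff_subgroupOf hP.le).1 hP
  have h2 : IsPGroup p (P.subgroupOf H) := hp.comap_subtype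
  have h3 := Cfsg.Agent.Lib.Helper27Core.subnormal_le_pCore h1 h2
  intro x hx
  exact ⟨⟨x, hP.le hx⟩, h3 hx, rfl⟩

end Cfsg.Agent.Lib.Helper55Sub
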