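import Cfsg.Agent.Lib.Helper55Hol
import Cfsg.Agent.Lib.Helper55Sub
import Cfsg.Agent.Lib.Helper73PCompl
import Cfsg.Agent.S0602
import Cfsg.Agent.S0606

set_option autoImplicit false

/-! The failure-of-factorization setting for `J(G) C_G(V) / C_G(V)`. -/

namespace Cfsg.Agent.Lib.Helper55Hol

open Subgroup Cfsg.Agent.Lib.Helper55FF Cfsg.Agent.Lib.Helper58Subnormal
open scoped commutatorElement

variable {G : Type*} [Group G] {V : Subgroup G} [hVn : V.Normal]

/-- `J(G) C_G(V)` -/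
abbrev JC (p : ℕ) (V : Subgroup G) : Subgroup G :=
  Cfsg.thompsonSubgroup p G ⊔ centralizer (V : Set G)

theorem JC_normal [Finite G] (p : ℕ) [Fact p.Prime] : (JC p V).Normal := by
  haveI : (Cfsg.thompsonSubgroup p G).Characteristic := (Cfsg.Agent.S0602.result (G := G) (p := p)).1
  infer_instance

/-- no normal `p`-subgroups modulo `C_G(V)` in a normal subgroup `K`. -/
theorem hOp_of_pCore [Finite G] {p : ℕ} [Fact p.Prime]
    (hO : Cfsg.pCore p (G ⧸ centralizer (V : Set G)) = ⊥) {K : Subgroup G} (hK : K.Normal)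
    (D : Subgroup G) (hDK : D ≤ K) (hn : K ≤ normalizer (D : Set G))
    (hp : ∀ d ∈ D, ∃ k : ℕ, d ^ (p ^ k) ∈ centralizer (V : Set G)) : D ≤ centralizer (V : Set G) := by
  have h1 : D.IsSubnormal := by
    rw [← sn_top_iff]
    exact (NormIn.sn ⟨hDK, hn⟩).trans (NormIn.sn (normIn_top_iff.2 hK))
  have h2 : (D.map (QuotientGroup.mk' (centralizer (V : Set G)))).IsSubnormal :=
    h1.map (QuotientGroup.mk'_surjective _)
  have h3 : IsPGroup p (D.map (QuotientGroup.mk' (centralizer (V : Set G)))) := by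
    rintro ⟨_, d, hd, rfl⟩
    obtain ⟨k, hk⟩ := hp d hd
    refine ⟨k, ?_⟩
    apply Subtype.ext
    show (QuotientGroup.mk' (centralizer (V : Set G)) d) ^ (p ^ k) = 1
    rw [← map_pow]
    exact (QuotientGroup.eq_one_iff _).2 hk
  have h4 := Cfsg.Agent.Lib.Helper27Core.subnormal_le_pCore h2 h3
  rw [hO] at h4
  intro d hd
  have h5 : QuotientGroup.mk' (centralizer (V : Set G)) d ∈ (⊥ : Subgroup (G ⧸ centralizer (V : Set G))) :=
    h4 ⟨d, hd, rfl⟩
  exact (QuotientGroup.eq_one_iff _).1 h5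

theorem FF_thompson [Finite G] {p : ℕ} [Fact p.Prime] (hsep : Cfsg.IsPSolvable p G)
    (hV : Cfsg.IsElementaryAbelian p V) (hO : Cfsg.pCore p (G ⧸ centralizer (V : Set G)) = ⊥) :
    FF p (VV V) ((JC p V).map (act V)) :=
  FF_map hV (JC p V) (Cfsg.Agent.Lib.Helper73PCompl.isPSolvable_subgroup _ hsep)
    (hOp_of_pCore hO (JC_normal p))

theorem hS3_thompson [Finite G] {p : ℕ} [Fact p.Prime] (hV : Cfsg.IsElementaryAbelian p V) :
    (JC p V).map (act V) = ⨆ A' : {A' : Subgroup (Hol V) // A' ≤ (JC p V).map (act V) ∧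
      Cfsg.IsBestOffenderOn p (VV V) A'}, (A' : Subgroup (Hol V)) :=
  hS3_map (𝒜 := Cfsg.maxElementaryAbelianSubgroups p G)
    (fun A hA => ⟨(le_sSup hA).trans le_sup_left, Cfsg.Agent.S0606.result V hV A hA⟩) le_rfl

theorem map_ne_bot {p : ℕ} (hJ : ¬ Cfsg.thompsonSubgroup p G ≤ centralizer (V : Set G)) :
    (JC p V).map (act V) ≠ ⊥ := by
  intro h
  apply hJ
  intro x hx
  have h1 : act V x ∈ (JC p V).map (act V) := ⟨x, le_sup_left (a := Cfsg.thompsonSubgroup p G) hx, rfl⟩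
  rw [h] at h1
  exact act_eq_one_iff.1 h1

/-- K–S 9.3.8 in general form. -/
theorem exists_SL2_section [Finite G] {p : ℕ} [Fact p.Prime] (hsep : Cfsg.IsPSolvable p G)
    (hV : Cfsg.IsElementaryAbelian p V) (hO : Cfsg.pCore p (G ⧸ centralizer (V : Set G)) = ⊥)
    (hJ : ¬ Cfsg.thompsonSubgroup p G ≤ centralizer (V : Set G)) :
    (p = 2 ∨ p = 3) ∧ ∃ E : Subgroup G, centralizer (V : Set G) ≤ E ∧ E ≤ JC p V ∧
      JC p V ≤ normalizer (E : Set G) ∧
      ∃ hn : ((centralizer (V : Set G)).subgroupOf E).Normal,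
        Nonempty ((↥E ⧸ (centralizer (V : Set G)).subgroupOf E) ≃*
          Matrix.SpecialLinearGroup (Fin 2) (ZMod p)) := by
  have h := FF_thompson hsep hV hO
  have hS3 := hS3_thompson (p := p) hV
  obtain ⟨A', B⟩ := h.exists_base hS3 (map_ne_bot hJ)
  obtain ⟨h23, ⟨e⟩⟩ := B.E_equiv h
  refine ⟨h23, (Eof p ((JC p V).map (act V)) A').comap (act V), ?_, ?_, ?_, ?_⟩
  · intro c hc
    rw [mem_comap, act_eq_one_iff.2 hc]
    exact one_mem _
  · intro x hx
    obtain ⟨k, hk, hkx⟩ := B.E_le_H hx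
    have h1 : k⁻¹ * x ∈ centralizer (V : Set G) := by
      rw [← act_eq_one_iff, map_mul, map_inv, hkx, inv_mul_cancel]
    have h2 : x = k * (k⁻¹ * x) := by group
    rw [h2]
    exact mul_mem hk (le_sup_right (a := Cfsg.thompsonSubgroup p G) h1)
  · apply Cfsg.Agent.Lib.Helper55Act.le_normalizer_of_conj_mem
    intro k hk x hx
    rw [mem_comap, map_mul, map_mul, map_inv]
    exact Cfsg.Agent.Lib.Helper55Act.conj_mem_of_mem_normalizer
      (B.H_le_normalizer_E h hS3 ⟨k, hk, rfl⟩) hx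
  · obtain ⟨hn, ⟨e'⟩⟩ := exists_quotient_equiv (V := V)
      (E' := Eof p ((JC p V).map (act V)) A') (B.E_le_H.trans (map_le_range _ _))
    exact ⟨hn, ⟨e'.trans e⟩⟩

end Cfsg.Agent.Lib.Helper55Hol
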