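import Cfsg.Agent.Lib.Helper55Hol2
import Cfsg.Agent.Lib.Helper14ElemAb

set_option autoImplicit false

/-! K–S 9.3.9: `[Ω₁(Z(J(C_G(V)))), J(G)] ≤ V`. -/

namespace Cfsg.Agent.Lib.Helper55Hol

open Subgroup Cfsg.Agent.Lib.Helper55FF Cfsg.Agent.Lib.Helper58Subnormal
open scoped commutatorElement

variable {G : Type*} [Group G] {V : Subgroup G} [hVn : V.Normal]

theorem card_sup_mul_card_inf (X : Subgroup G) :
    Nat.card (V ⊔ X : Subgroup G) * Nat.card ↥(V ⊓ X) = Nat.card V * Nat.card X := by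
  have hX : X ≤ normalizer (V : Set G) := by
    rw [normalizer_eq_top]; exact le_top
  rw [Cfsg.Agent.Lib.Helper27Core.card_sup_eq hX, mul_assoc, ← inf_relIndex_right, mul_comm (_ : ℕ) (Nat.card ↥(V ⊓ X)),
    Cfsg.Agent.Lib.Helper27Core.card_mul_relIndex inf_le_right]

theorem elemAb_sup {p : ℕ} {X Y : Subgroup G} (hX : Cfsg.IsElementaryAbelian p X)
    (hY : Cfsg.IsElementaryAbelian p Y) (hc : X ≤ centralizer (Y : Set G)) :
    Cfsg.IsElementaryAbelian p (X ⊔ Y) := by
  have h : X ⊔ Y = closure ((X : Set G) ∪ Y) := by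
    rw [Subgroup.closure_union, closure_eq, closure_eq]
  rw [h]
  apply Cfsg.Agent.Lib.Helper14ElemAb.elemAb_closure
  · rintro x (hx | hx) y (hy | hy)
    · exact comm_of_elemAb hX hx hy
    · exact ((mem_centralizer_iff.1 (hc hx)) y hy).symm
    · exact (mem_centralizer_iff.1 (hc hy)) x hx
    · exact comm_of_elemAb hY hx hy
  · rintro x (hx | hx)
    · exact hX.2 x hx
    · exact hY.2 x hx

/-- the replacement `C_A(V) V` of `A ∈ 𝒜(G)` is again in `𝒜(G)`. -/
theorem replace_mem [Finite G] {p : ℕ} [Fact p.Prime] (hsep : Cfsg.IsPSolvable p G)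
    (hV : Cfsg.IsElementaryAbelian p V) (hO : Cfsg.pCore p (G ⧸ centralizer (V : Set G)) = ⊥)
    {A : Subgroup G} (hA : A ∈ Cfsg.maxElementaryAbelianSubgroups p G) :
    V ⊔ (A ⊓ centralizer (V : Set G)) ∈ Cfsg.maxElementaryAbelianSubgroups p G := by
  have h := FF_thompson hsep hV hO
  have hoff := bestOffender_map (Cfsg.Agent.S0606.result V hV A hA)
  have hle : A.map (act V) ≤ (JC p V).map (act V) :=
    map_mono ((le_sSup hA).trans le_sup_left)
  have hm := h.mm_eq_card _ _ rfl hle hoff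
  unfold mm at hm
  rw [card_VV_inf_centralizer, card_VV] at hm
  have h1 := card_map_act (V := V) A
  have h2 := card_sup_mul_card_inf (V := V) (A ⊓ centralizer (V : Set G))
  have hel : Cfsg.IsElementaryAbelian p (V ⊔ (A ⊓ centralizer (V : Set G))) := by
    apply elemAb_sup hV (Cfsg.Agent.Lib.Helper14ElemAb.elemAb_mono inf_le_left hA.1)
    intro v hv
    rw [mem_centralizer_iff]
    intro c hc
    exact ((mem_centralizer_iff.1 hc.2) v hv).symm
  have h3 : Nat.card ↥(V ⊓ (A ⊓ centralizer (V : Set G))) ≤ Nat.card ↥(V ⊓ centralizer (A : Set G)) := by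
    apply card_le_of_le
    exact inf_le_inf_left _ (inf_le_left.trans (le_centralizer_of_elemAb hA.1))
  have h4 : Nat.card A ≤ Nat.card (V ⊔ (A ⊓ centralizer (V : Set G)) : Subgroup G) := by
    have hpos : 0 < Nat.card ↥(V ⊓ centralizer (A : Set G)) := Nat.card_pos
    apply Nat.le_of_mul_le_mul_right _ hpos
    calc Nat.card A * Nat.card ↥(V ⊓ centralizer (A : Set G))
        = Nat.card V * Nat.card ↥(A ⊓ centralizer (V : Set G)) := by
          rw [← h1, ← hm]; ring
      _ = Nat.card (V ⊔ (A ⊓ centralizer (V : Set G)) : Subgroup G) *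
            Nat.card ↥(V ⊓ (A ⊓ centralizer (V : Set G))) := h2.symm
      _ ≤ _ := Nat.mul_le_mul_left _ h3
  exact ⟨hel, fun B hB => (hA.2 B hB).trans h4⟩

/-- members of `𝒜(G)` inside a subgroup `C` lie in `J(C)`. -/
theorem le_thompsonSubgroupOf {p : ℕ} {B C : Subgroup G}
    (hB : B ∈ Cfsg.maxElementaryAbelianSubgroups p G) (hBC : B ≤ C) :
    B ≤ Cfsg.thompsonSubgroupOf p C := by
  have h1 : B.subgroupOf C ∈ Cfsg.maxElementaryAbelianSubgroups p ↥C := by
    refine ⟨⟨?_, ?_⟩, ?_⟩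
    · rw [isMulCommutative_iff]
      rintro ⟨x, hx⟩ ⟨y, hy⟩
      apply Subtype.ext
      apply Subtype.ext
      exact comm_of_elemAb hB.1 hx hy
    · intro a ha
      apply Subtype.ext
      exact hB.1.2 a ha
    · intro D hD
      have hD' : Cfsg.IsElementaryAbelian p (D.map C.subtype) := by
        refine ⟨?_, ?_⟩
        · rw [isMulCommutative_iff]
          rintro ⟨_, x, hx, rfl⟩ ⟨_, y, hy, rfl⟩
          apply Subtype.ext
          exact congrArg (Subtype.val : ↥C → G) (comm_of_elemAb hD hx hy)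
        · rintro _ ⟨x, hx, rfl⟩
          exact congrArg Subtype.val (hD.2 x hx)
      have := hB.2 _ hD'
      rwa [card_map_of_injective C.subtype_injective,
        ← Cfsg.Agent.Lib.Helper30SZ.card_subgroupOf_of_le hBC] at this
  intro b hb
  exact ⟨⟨b, hBC hb⟩, (le_sSup h1 : B.subgroupOf C ≤ _) hb, rfl⟩

/-- K–S 9.3.9 -/
theorem commutator_omega_le [Finite G] {p : ℕ} [Fact p.Prime] (hsep : Cfsg.IsPSolvable p G)
    (hV : Cfsg.IsElementaryAbelian p V) (hO : Cfsg.pCore p (G ⧸ centralizer (V : Set G)) = ⊥) :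
    ⁅Cfsg.omegaOne p (Cfsg.centerThompsonOf p (centralizer (V : Set G))),
      Cfsg.thompsonSubgroup p G⁆ ≤ V := by
  apply Cfsg.Agent.Lib.Helper55Act.commutator_le_of_le_actTriv
  unfold Cfsg.thompsonSubgroup
  apply sSup_le
  intro A hA
  have hN : A ≤ normalizer (V : Set G) := by
    rw [normalizer_eq_top]; exact le_top
  apply Cfsg.Agent.Lib.Helper55Act.le_actTriv hN
  have hB := replace_mem hsep hV hO hA
  set B : Subgroup G := V ⊔ (A ⊓ centralizer (V : Set G)) with hBdef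
  have hBC : B ≤ centralizer (V : Set G) := sup_le (le_centralizer_of_elemAb hV) inf_le_right
  have hBJ := le_thompsonSubgroupOf hB hBC
  have hZ : Cfsg.omegaOne p (Cfsg.centerThompsonOf p (centralizer (V : Set G))) ≤ B := by
    unfold Cfsg.omegaOne
    rw [closure_le]
    rintro x ⟨hx, hxp⟩
    apply Cfsg.Agent.Lib.Helper14ElemAb.mem_of_mem_centralizer_maxElemAb hB _ hxp
    exact centralizer_le hBJ hx.2
  refine (commutator_mono hZ le_rfl).trans ?_
  rw [commutator_le]
  intro b hb a ha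
  have hAC : A ⊓ centralizer (V : Set G) ≤ normalizer (V : Set G) := inf_le_left.trans hN
  obtain ⟨v, hv, c, hc, rfl⟩ := (Cfsg.Agent.Lib.Helper30SZ.mem_sup_iff hAC).1 hb
  have hca : c * a = a * c := comm_of_elemAb hA.1 hc.1 ha
  have h1 : ⁅v * c, a⁆ = v * (a * v⁻¹ * a⁻¹) := by
    rw [commutatorElement_def]
    have : v * c * a * (v * c)⁻¹ * a⁻¹ = v * (c * a) * c⁻¹ * v⁻¹ * a⁻¹ := by group
    rw [this, hca]
    group
  rw [h1]
  exact V.mul_mem hv (hVn.conj_mem _ (V.inv_mem hv) a)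

end Cfsg.Agent.Lib.Helper55Hol
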