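import Cfsg.Agent.Lib.Helper55JStruct
import Cfsg.Agent.Lib.Helper52Sol5
import Cfsg.Agent.Lib.Helper55Act

set_option autoImplicit false

/-! Transport of `J(T)`-components along injective homomorphisms. -/

namespace Cfsg.Agent.Lib.Helper55JT

open Subgroup Cfsg Cfsg.Agent.Lib.Helper40Sylow Cfsg.Agent.Lib.Helper55Core
open scoped commutatorElement

variable {G G' : Type*} [Group G] [Group G'] {f : G →* G'}

theorem thompsonOf_map (hf : Function.Injective f) (T : Subgroup G) :
    thompsonSubgroupOf 2 (T.map f) = (thompsonSubgroupOf 2 T).map f :=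
  Cfsg.Agent.Lib.Helper52Sol5.thompsonOf_map_of_injOn f
    (fun x _ h => hf (by rw [h, map_one]))

theorem map_le_normalizer_map {A B : Subgroup G} (h : A ≤ normalizer (B : Set G)) :
    A.map f ≤ normalizer ((B.map f : Subgroup G') : Set G') := by
  apply Cfsg.Agent.Lib.Helper55Act.le_normalizer_of_conj_mem
  rintro _ ⟨a, ha, rfl⟩ _ ⟨b, hb, rfl⟩
  exact ⟨a * b * a⁻¹, Cfsg.Agent.Lib.Helper55Act.conj_mem_of_mem_normalizer (h ha) hb, by simp⟩

theorem le_normalizer_comap {A : Subgroup G} {B : Subgroup G'}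
    (h : A.map f ≤ normalizer (B : Set G')) : A ≤ normalizer ((B.comap f : Subgroup G) : Set G) := by
  apply Cfsg.Agent.Lib.Helper55Act.le_normalizer_of_conj_mem
  intro a ha b hb
  rw [mem_comap, map_mul, map_mul, map_inv]
  exact Cfsg.Agent.Lib.Helper55Act.conj_mem_of_mem_normalizer (h ⟨a, ha, rfl⟩) hb

theorem pCoreOf_map [Finite G] [Finite G'] (hf : Function.Injective f) (K : Subgroup G) :
    pCoreOf 2 (K.map f) = (pCoreOf 2 K).map f := by
  apply le_antisymm
  · have h1 : pCoreOf 2 (K.map f) ≤ f.range := (pCoreOf_le _).trans (map_le_range f K)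
    rw [← map_comap_eq_self h1]
    apply map_mono
    apply le_pCoreOf
    · conv_rhs => rw [← comap_map_eq_self_of_injective hf K]
      exact comap_mono (pCoreOf_le _)
    · exact le_normalizer_comap (le_normalizer_pCoreOf _)
    · exact (isPGroup_pCoreOf (K.map f)).comap_of_injective f hf
  · exact le_pCoreOf (map_mono (pCoreOf_le _)) (map_le_normalizer_map (le_normalizer_pCoreOf _))
      ((isPGroup_pCoreOf K).map f)

theorem omegaCenterOf_map (hf : Function.Injective f) (X : Subgroup G) :
    omegaCenterOf (X.map f) = (omegaCenterOf X).map f := by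
  unfold omegaCenterOf omegaOne
  rw [MonoidHom.map_closure]
  congr 1
  ext y
  constructor
  · rintro ⟨⟨⟨x, hx, rfl⟩, h2⟩, h3⟩
    refine ⟨x, ⟨⟨hx, ?_⟩, ?_⟩, rfl⟩
    · show x ∈ centralizer (X : Set G)
      rw [mem_centralizer_iff]
      intro z hz
      apply hf
      rw [map_mul, map_mul]
      exact (mem_centralizer_iff.1 h2) (f z) ⟨z, hz, rfl⟩
    · apply hf; rw [map_pow, h3, map_one]
  · rintro ⟨x, ⟨⟨hx, h2⟩, h3⟩, rfl⟩
    refine ⟨⟨⟨x, hx, rfl⟩, ?_⟩, ?_⟩
    · show f x ∈ centralizer ((X.map f : Subgroup G') : Set G')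
      rw [mem_centralizer_iff]
      rintro _ ⟨z, hz, rfl⟩
      rw [← map_mul, ← map_mul, (mem_centralizer_iff.1 h2) z hz]
    · rw [← map_pow, h3, map_one]

theorem wOf_map [Finite G] [Finite G'] (hf : Function.Injective f) (K : Subgroup G) :
    wOf (K.map f) = (wOf K).map f := by
  unfold wOf
  rw [pCoreOf_map hf, omegaCenterOf_map hf, map_commutator]

theorem isSylowTwoIn_map (hf : Function.Injective f) {S L : Subgroup G} :
    IsSylowTwoIn (S.map f) (L.map f) ↔ IsSylowTwoIn S L := by
  unfold IsSylowTwoIn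
  rw [map_le_map_iff_of_injective hf, relIndex_map_map_of_injective _ _ hf]
  constructor
  · rintro ⟨h1, h2, h3⟩
    refine ⟨h1, ?_, h3⟩
    have := h2.comap_of_injective f hf
    rwa [comap_map_eq_self_of_injective hf] at this
  · rintro ⟨h1, h2, h3⟩
    exact ⟨h1, h2.map f, h3⟩

theorem closure_odd_map (hf : Function.Injective f) (K : Subgroup G) :
    closure {g : G' | g ∈ K.map f ∧ Odd (orderOf g)}
      = (closure {g : G | g ∈ K ∧ Odd (orderOf g)}).map f := by
  rw [MonoidHom.map_closure]
  congr 1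
  ext y
  constructor
  · rintro ⟨⟨x, hx, rfl⟩, h2⟩
    rw [orderOf_injective f hf] at h2
    exact ⟨x, ⟨hx, h2⟩, rfl⟩
  · rintro ⟨x, ⟨hx, h2⟩, rfl⟩
    refine ⟨⟨x, hx, rfl⟩, ?_⟩
    rwa [orderOf_injective f hf]

theorem isJComponent_map [Finite G] [Finite G'] (hf : Function.Injective f) {T K : Subgroup G} :
    IsJComponent (T.map f) (K.map f) ↔ IsJComponent T K := by
  unfold IsJComponent
  rw [closure_odd_map hf, thompsonOf_map hf, ← map_commutator, pCoreOf_map hf, wOf_map hf,
    relIndex_map_map_of_injective _ _ hf, (map_injective hf).eq_iff, (map_injective hf).eq_iff,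
    Nat.card_congr (equivMapOfInjective (wOf K) f hf).symm.toEquiv, ← Subgroup.map_sup]
  refine and_congr Iff.rfl (and_congr Iff.rfl (and_congr Iff.rfl (and_congr ?_
    (and_congr Iff.rfl ?_))))
  · constructor
    · intro h S hS hJS
      have := h (S.map f) ((isSylowTwoIn_map hf).2 hS) (map_mono hJS)
      rw [thompsonOf_map hf] at this
      exact map_injective hf this
    · intro h S hS hJS
      have h1 : S ≤ f.range := hS.1.trans (map_le_range f _)
      rw [← map_comap_eq_self h1] at hS hJS ⊢
      rw [thompsonOf_map hf, h _ ((isSylowTwoIn_map hf).1 hS)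
        ((map_le_map_iff_of_injective hf).1 hJS)]
  · constructor
    · intro h w hw
      apply hf
      rw [map_mul, map_one]
      exact h _ ⟨w, hw, rfl⟩
    · rintro h _ ⟨w, hw, rfl⟩
      rw [← map_mul, h w hw, map_one]

theorem isJComponent_cj [Finite G] {T K : Subgroup G} (g : G) :
    IsJComponent (cj g T) (cj g K) ↔ IsJComponent T K :=
  isJComponent_map (f := (MulAut.conj g).toMonoidHom) (MulAut.conj g).injective

theorem isJComponent_congr {T T' K : Subgroup G}
    (h : thompsonSubgroupOf 2 T = thompsonSubgroupOf 2 T') :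
    IsJComponent T K ↔ IsJComponent T' K := by
  unfold IsJComponent
  rw [h]

theorem wOf_cj [Finite G] (g : G) (K : Subgroup G) : wOf (cj g K) = cj g (wOf K) :=
  wOf_map (f := (MulAut.conj g).toMonoidHom) (MulAut.conj g).injective K

/-- pulling back a component into a subgroup containing it. -/
theorem isJComponent_subgroupOf [Finite G] {T K L : Subgroup G} (hT : T ≤ L) (hK : K ≤ L) :
    IsJComponent (T.subgroupOf L) (K.subgroupOf L) ↔ IsJComponent T K := by
  rw [← isJComponent_map (f := L.subtype) L.subtype_injective, subgroupOf_map_subtype,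
    subgroupOf_map_subtype, inf_eq_left.2 hT, inf_eq_left.2 hK]

end Cfsg.Agent.Lib.Helper55JT
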