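import Cfsg.Agent.Lib.Helper55JG3
import Cfsg.Agent.Lib.Helper55JT
import Cfsg.Agent.Lib.Helper55PSolv

set_option autoImplicit false

/-! Bridge: members of `jOvergroups T` satisfy the `Setup` of `Helper55JG`. -/

namespace Cfsg.Agent.Lib.Helper55JB

open Subgroup Cfsg Cfsg.Agent.Lib.Helper40Sylow Cfsg.Agent.Lib.Helper55Core
  Cfsg.Agent.Lib.Helper55JG Cfsg.Agent.Lib.Helper55JT Cfsg.Agent.Lib.Helper55JStruct
open scoped commutatorElement

variable {G : Type*} [Group G] [Finite G]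

theorem pCoreOf_ne_bot {T L : Subgroup G} (hT1 : T ≠ ⊥)
    (hC : centralizer (pCoreOf 2 L : Set G) ≤ pCoreOf 2 L) : pCoreOf 2 L ≠ ⊥ := by
  intro h
  apply hT1
  rw [h] at hC
  rw [eq_bot_iff]
  refine le_trans ?_ hC
  intro x _
  rw [mem_centralizer_iff]
  intro y hy
  have : y = 1 := hy
  rw [this]; simp

theorem isSolvable_of_pCoreOf_ne_bot
    (hN : ∀ N : Subgroup G, IsTwoLocal N → Group.IsSolvable ↥N) {L : Subgroup G}
    (h : pCoreOf 2 L ≠ ⊥) : Group.IsSolvable ↥L := by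
  have h1 := hN _ ⟨pCoreOf 2 L, isPGroup_pCoreOf L, h, rfl⟩
  exact solvable_of_solvable_injective (inclusion_injective (le_normalizer_pCoreOf (p := 2) L))

theorem setup (hN : ∀ N : Subgroup G, IsTwoLocal N → Group.IsSolvable ↥N)
    (hZ : ∀ S : Sylow 2 G, centralizer (omegaCenterOf (S : Subgroup G) : Set G) ≤
      normalizer ((S : Subgroup G) : Set G)) {T L : Subgroup G} (hT1 : T ≠ ⊥)
    (hLT : L ∈ jOvergroups T) : Setup (T.subgroupOf L) := by
  obtain ⟨hSyl, -, hC⟩ := hLT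
  rw [isSylowTwoIn_iff] at hSyl
  have hO1 := pCoreOf_ne_bot hT1 hC
  have hsolv := isSolvable_of_pCoreOf_ne_bot hN hO1
  obtain ⟨S₀, hTS⟩ := hSyl.2.1.exists_le_sylow
  have hOT : pCoreOf 2 L ≤ T :=
    le_of_isSylowIn_of_normal hSyl (pCoreOf_le L) (le_normalizer_pCoreOf L) (isPGroup_pCoreOf L)
  have hZO : omegaCenterOf (S₀ : Subgroup G) ≤ pCoreOf 2 L := by
    refine le_trans ?_ hC
    exact ((omegaCenterOf_le _).trans inf_le_right).trans (centralizer_le (hOT.trans hTS))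
  set X : Subgroup G := (VG ↥L).map L.subtype with hX
  have hZX : omegaCenterOf (S₀ : Subgroup G) ≤ X := by
    conv_lhs => unfold omegaCenterOf omegaOne
    rw [closure_le]
    rintro x ⟨hx1, hx2⟩
    have hxO : x ∈ pCoreOf 2 L := hZO (Subgroup.subset_closure ⟨hx1, hx2⟩)
    have hxT : x ∈ T := hOT hxO
    have hxL : x ∈ L := hSyl.1 hxT
    refine ⟨⟨x, hxL⟩, ?_, rfl⟩
    have h1 : omegaOne 2 ((hSyl.toSylow : Subgroup ↥L) ⊓
        centralizer ((hSyl.toSylow : Subgroup ↥L) : Set ↥L)) ≤ VG ↥L :=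
      le_iSup (fun S : Sylow 2 ↥L => omegaOne 2 ((S : Subgroup ↥L) ⊓
        centralizer ((S : Subgroup ↥L) : Set ↥L))) hSyl.toSylow
    apply h1
    apply Subgroup.subset_closure
    refine ⟨Subgroup.mem_inf.2 ⟨hxT, ?_⟩, Subtype.ext hx2⟩
    rw [mem_centralizer_iff]
    intro y hy
    apply Subtype.ext
    exact (mem_centralizer_iff.1 hx1.2) y (hTS hy)
  set CL : Subgroup G := (centralizer (VG ↥L : Set ↥L)).map L.subtype with hCL
  have hCLL : CL ≤ L := map_subtype_le _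
  have hLCL : L ≤ normalizer (CL : Set G) := Cfsg.Agent.Lib.Helper55FF.le_normalizer_map_subtype _
  have hCLX : CL ≤ centralizer (X : Set G) := by
    rintro _ ⟨c, hc, rfl⟩
    rw [mem_centralizer_iff]
    rintro _ ⟨v, hv, rfl⟩
    exact congrArg Subtype.val ((mem_centralizer_iff.1 hc) v hv)
  have hCLS : CL ≤ normalizer ((S₀ : Subgroup G) : Set G) :=
    (hCLX.trans (centralizer_le hZX)).trans (hZ S₀)
  have hU : (S₀ : Subgroup G) ⊓ CL ≤ pCoreOf 2 L :=
    le_pCoreOf_of_normal_normal hCLL hLCL inf_le_right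
      ((le_inf hCLS le_normalizer).trans Subgroup.inf_normalizer_le_normalizer_inf)
      (S₀.2.to_le inf_le_left)
  refine ⟨Cfsg.Agent.Lib.Helper55PSolv.isPSolvable_of_isSolvable 2 hsolv, ?_, ?_, ?_, ?_⟩
  · refine ⟨le_top, hSyl.2.1.comap_subtype, ?_⟩
    rw [relIndex_top_right]
    exact hSyl.2.2
  · rw [charPGroup_iff]
    exact inf_le_right.trans hC
  · intro c hc t ht
    rw [← mem_pCoreOf_iff]
    apply hU
    refine Subgroup.mem_inf.2 ⟨?_, ⟨⁅c, t⁆, ?_, rfl⟩⟩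
    · have h1 : (c : G) ∈ normalizer ((S₀ : Subgroup G) : Set G) := hCLS ⟨c, hc, rfl⟩
      have h2 : (t : G) ∈ (S₀ : Subgroup G) := hTS ht
      have h3 : ((⁅c, t⁆ : ↥L) : G) = ((c : G) * t * (c : G)⁻¹) * (t : G)⁻¹ := by
        simp [commutatorElement_def]
      rw [h3]
      exact mul_mem (Cfsg.Agent.Lib.Helper55Act.conj_mem_of_mem_normalizer h1 h2) (inv_mem h2)
    · have hn : (centralizer (VG ↥L : Set ↥L)).Normal := inferInstance
      have h3 : ⁅c, t⁆ = c * (t * c⁻¹ * t⁻¹) := by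
        simp only [commutatorElement_def]; group
      rw [h3]
      exact mul_mem hc (hn.conj_mem _ (inv_mem hc) t)
  · rintro x ⟨hx1, hx2⟩
    rw [← mem_pCoreOf_iff]
    exact hU (Subgroup.mem_inf.2 ⟨hTS hx1, ⟨x, hx2, rfl⟩⟩)

end Cfsg.Agent.Lib.Helper55JB
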