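import Cfsg.Agent.Lib.Helper55Hol3

set_option autoImplicit false

/-! An `S₃`-lemma: a module on which an element of order 3 acts fixed-point-freely, inverted by
an involution `a` of a maximal elementary abelian subgroup `⟨a⟩ × A₀`, has order at most 4. -/

namespace Cfsg.Agent.Lib.Helper55S3L

open Subgroup Cfsg Cfsg.Agent.Lib.Helper55FF Cfsg.Agent.Lib.Helper55Hol Cfsg.Agent.Lib.Helper55Act
open scoped commutatorElement

variable {G : Type*} [Group G]

theorem card_sup_mul_card_inf' {V X : Subgroup G} (hX : X ≤ normalizer (V : Set G)) :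
    Nat.card (V ⊔ X : Subgroup G) * Nat.card ↥(V ⊓ X) = Nat.card V * Nat.card X := by
  rw [Cfsg.Agent.Lib.Helper27Core.card_sup_eq hX, mul_assoc, ← inf_relIndex_right,
    mul_comm (_ : ℕ) (Nat.card ↥(V ⊓ X)), Cfsg.Agent.Lib.Helper27Core.card_mul_relIndex inf_le_right]

structure Cfg (N A₀ : Subgroup G) (x a : G) : Prop where
  hN : IsElementaryAbelian 2 N
  hxN : x ∈ normalizer (N : Set G)
  haN : a ∈ normalizer (N : Set G)
  hAN : A₀ ≤ normalizer (N : Set G)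
  hax : a * x * a⁻¹ = x⁻¹
  ha2 : a * a = 1
  hx3 : x ^ 3 = 1
  htau : ∀ n ∈ N, n * (x * n * x⁻¹) * (x * (x * n * x⁻¹) * x⁻¹) = 1
  hA : IsElementaryAbelian 2 A₀
  haA : ∀ q ∈ A₀, a * q = q * a
  hqx : ∀ q ∈ A₀, ∀ n ∈ N, q * (x * n * x⁻¹) * q⁻¹ = x * (q * n * q⁻¹) * x⁻¹
  hmax : ∀ E : Subgroup G, IsElementaryAbelian 2 E → Nat.card E ≤ 2 * Nat.card A₀

/-- the fixed points of `B` and `a` on `N` -/
def Fx (N B : Subgroup G) (a : G) : Subgroup G := N ⊓ centralizer (B : Set G) ⊓ centralizer {a}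

theorem mem_Fx {N B : Subgroup G} {a n : G} :
    n ∈ Fx N B a ↔ n ∈ N ∧ (∀ b ∈ B, b * n = n * b) ∧ a * n = n * a := by
  unfold Fx
  rw [mem_inf, mem_inf, mem_centralizer_iff, mem_centralizer_singleton_iff, and_assoc,
    eq_comm (a := n * a)]
  rfl

theorem sq_eq_one {N : Subgroup G} (hN : IsElementaryAbelian 2 N) {n : G} (hn : n ∈ N) : n * n = 1 := by
  rw [← pow_two]; exact hN.2 n hn

theorem inv_eq_self' {N : Subgroup G} (hN : IsElementaryAbelian 2 N) {n : G} (hn : n ∈ N) : n⁻¹ = n :=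
  inv_eq_of_mul_eq_one_left (sq_eq_one hN hn)

namespace Cfg

variable {N A₀ : Subgroup G} {x a : G}

theorem fix (c : Cfg N A₀ x a) {n : G} (hn : n ∈ N) (h : x * n * x⁻¹ = n) : n = 1 := by
  have h1 := c.htau n hn
  rw [h, h, sq_eq_one c.hN hn, one_mul] at h1
  exact h1

theorem hax' (c : Cfg N A₀ x a) : a * x⁻¹ * a⁻¹ = x := by
  have := congrArg (·⁻¹) c.hax
  simpa [mul_assoc] using this

theorem eq_one_of_comm (c : Cfg N A₀ x a) {n : G} (hn : n ∈ N) (h1 : Commute n a)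
    (h2 : Commute n (x * a * x⁻¹)) : n = 1 := by
  apply c.fix hn
  have hxx : x * a * x⁻¹ * a⁻¹ = x * x := by
    calc x * a * x⁻¹ * a⁻¹ = x * (a * x⁻¹ * a⁻¹) := by group
      _ = x * x := by rw [c.hax']
  have h3 : Commute n (x * x) := by
    rw [← hxx]; exact h2.mul_right h1.inv_right
  have hx4 : (x * x) * (x * x) = x := by
    calc (x * x) * (x * x) = x ^ 3 * x := by simp only [pow_succ, pow_zero, one_mul, mul_assoc]
      _ = x := by rw [c.hx3, one_mul]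
  have h4 : Commute n x := by
    have := h3.mul_right h3
    rwa [hx4] at this
  rw [← h4.eq, mul_inv_cancel_right]

theorem le_normalizer_of_le (c : Cfg N A₀ x a) {D : Subgroup G} (hD : D ≤ N) :
    N ≤ normalizer (D : Set G) := by
  apply le_normalizer_of_conj_mem
  intro n hn d hd
  rw [comm_of_elemAb c.hN hn (hD hd), mul_inv_cancel_right]; exact hd

theorem key [Finite G] (c : Cfg N A₀ x a) {B : Subgroup G} (hB : B ≤ A₀) :
    Nat.card (Fx N B a) ^ 2 * Nat.card B ≤ 2 * Nat.card A₀ * Nat.card (Fx N A₀ a) := by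
  set NB : Subgroup G := N ⊓ centralizer (B : Set G) with hNB
  have hF1 : Fx N B a ≤ NB := inf_le_left
  have hF2 : cjg x (Fx N B a) ≤ NB := by
    rintro _ ⟨n, hn, rfl⟩
    obtain ⟨hnN, hnB, -⟩ := mem_Fx.1 hn
    refine mem_inf.2 ⟨conj_mem_of_mem_normalizer c.hxN hnN, ?_⟩
    rw [mem_centralizer_iff]
    intro b hb
    have h1 := c.hqx b (hB hb) n hnN
    have h2 : b * n * b⁻¹ = n := by rw [hnB b hb, mul_inv_cancel_right]
    rw [h2] at h1
    exact mul_inv_eq_iff_eq_mul.1 h1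
  have hdisj : Fx N B a ⊓ cjg x (Fx N B a) = ⊥ := by
    rw [eq_bot_iff]
    rintro _ ⟨hn1, m, hm, rfl⟩
    obtain ⟨h1, -, h2⟩ := mem_Fx.1 hn1
    obtain ⟨-, -, h3⟩ := mem_Fx.1 hm
    rw [mem_bot]
    apply c.eq_one_of_comm h1 h2.symm
    show (x * m * x⁻¹) * (x * a * x⁻¹) = (x * a * x⁻¹) * (x * m * x⁻¹)
    calc (x * m * x⁻¹) * (x * a * x⁻¹) = x * (m * a) * x⁻¹ := by group
      _ = x * (a * m) * x⁻¹ := by rw [h3]
      _ = _ := by group
  have h1 := card_sup_mul_card_inf'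
    ((hF2.trans inf_le_left).trans (c.le_normalizer_of_le (hF1.trans inf_le_left)))
  rw [hdisj, Subgroup.card_bot, mul_one, card_cjg] at h1
  have h2 : Nat.card (Fx N B a) ^ 2 ≤ Nat.card NB := by
    rw [pow_two, ← h1]; exact card_le_of_le (sup_le hF1 hF2)
  have hBN : B ≤ normalizer (NB : Set G) := by
    apply le_normalizer_of_conj_mem
    intro b hb n hn
    have := (mem_centralizer_iff.1 hn.2) b hb
    rw [this, mul_inv_cancel_right]; exact hn
  have h3 := card_sup_mul_card_inf' hBN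
  have hel : IsElementaryAbelian 2 (NB ⊔ B) :=
    elemAb_sup (Cfsg.Agent.Lib.Helper14ElemAb.elemAb_mono inf_le_left c.hN)
      (Cfsg.Agent.Lib.Helper14ElemAb.elemAb_mono hB c.hA) inf_le_right
  have h4 := c.hmax _ hel
  have h5 : Nat.card ↥(NB ⊓ B) ≤ Nat.card (Fx N A₀ a) := by
    apply card_le_of_le
    rintro n ⟨hn1, hn2⟩
    exact mem_Fx.2 ⟨hn1.1, fun b hb => comm_of_elemAb c.hA hb (hB hn2), c.haA n (hB hn2)⟩
  calc Nat.card (Fx N B a) ^ 2 * Nat.card B ≤ Nat.card NB * Nat.card B := Nat.mul_le_mul_right _ h2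
    _ = Nat.card (NB ⊔ B : Subgroup G) * Nat.card ↥(NB ⊓ B) := h3.symm
    _ ≤ (2 * Nat.card A₀) * Nat.card (Fx N A₀ a) := Nat.mul_le_mul h4 h5

theorem Fx_le (N B : Subgroup G) (a : G) : Fx N B a ≤ N := inf_le_left.trans inf_le_left

/-- `A₀` centralizes `C_N(a)`. -/
theorem Na_le [Finite G] (c : Cfg N A₀ x a) : Fx N ⊥ a ≤ Fx N A₀ a := by
  by_contra hcon
  obtain ⟨u₀, hu₀, hu₀'⟩ := SetLike.not_le_iff_exists.1 hcon
  obtain ⟨u, ⟨hu, hu'⟩, hmaxu⟩ := Set.exists_max_image {u : G | u ∈ Fx N ⊥ a ∧ u ∉ Fx N A₀ a}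
    (fun u => Nat.card ↥(A₀ ⊓ centralizer {u})) (Set.toFinite _) ⟨u₀, hu₀, hu₀'⟩
  obtain ⟨huN, -, hua⟩ := mem_Fx.1 hu
  set D₀ : Subgroup G := A₀ ⊓ centralizer {u} with hD₀
  have hall : ∀ q ∈ A₀, q * u * q⁻¹ * u⁻¹ ∈ Fx N A₀ a := by
    intro q hq
    by_contra hq'
    have hw : q * u * q⁻¹ ∈ N := conj_mem_of_mem_normalizer (c.hAN hq) huN
    have hN' : q * u * q⁻¹ * u⁻¹ ∈ N := mul_mem hw (inv_mem huN)
    have hqa : Commute a q := c.haA q hq
    have hua' : Commute a u := hua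
    have h1 : q * u * q⁻¹ * u⁻¹ ∈ Fx N ⊥ a := by
      refine mem_Fx.2 ⟨hN', ?_, ?_⟩
      · intro b hb
        rw [mem_bot.1 hb, one_mul, mul_one]
      · exact (((hqa.mul_right hua').mul_right hqa.inv_right).mul_right hua'.inv_right).eq
    have h2 := hmaxu _ ⟨h1, hq'⟩
    have hqq : q * (q * u * q⁻¹ * u⁻¹) = (q * u * q⁻¹ * u⁻¹) * q := by
      have e1 : q * (q * u * q⁻¹) * q⁻¹ = u := by
        have : q * (q * u * q⁻¹) * q⁻¹ = (q * q) * u * (q * q)⁻¹ := by group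
        rw [this, sq_eq_one c.hA hq]; simp
      have e2 : q * (q * u * q⁻¹ * u⁻¹) * q⁻¹ = q * u * q⁻¹ * u⁻¹ := by
        calc q * (q * u * q⁻¹ * u⁻¹) * q⁻¹ = (q * (q * u * q⁻¹) * q⁻¹) * (q * u * q⁻¹)⁻¹ := by group
          _ = u * (q * u * q⁻¹) := by rw [e1, inv_eq_self' c.hN hw]
          _ = (q * u * q⁻¹) * u := comm_of_elemAb c.hN huN hw
          _ = _ := by rw [inv_eq_self' c.hN huN]
      exact mul_inv_eq_iff_eq_mul.1 e2
    have hle : D₀ ≤ A₀ ⊓ centralizer {q * u * q⁻¹ * u⁻¹} := by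
      intro d hd
      obtain ⟨hd1, hd2⟩ := mem_inf.1 hd
      refine mem_inf.2 ⟨hd1, ?_⟩
      rw [mem_centralizer_singleton_iff] at hd2 ⊢
      have hdq : Commute d q := comm_of_elemAb c.hA hd1 hq
      have hdu : Commute d u := hd2
      exact (((hdq.mul_right hdu).mul_right hdq.inv_right).mul_right hdu.inv_right).eq
    have heq : D₀ = A₀ ⊓ centralizer {q * u * q⁻¹ * u⁻¹} := Subgroup.eq_of_le_of_card_ge hle h2
    have hqD : q ∈ D₀ := by
      rw [heq]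
      exact mem_inf.2 ⟨hq, mem_centralizer_singleton_iff.2 hqq⟩
    have hqu : q * u = u * q := mem_centralizer_singleton_iff.1 hqD.2
    apply hq'
    have : q * u * q⁻¹ * u⁻¹ = 1 := by rw [hqu]; group
    rw [this]; exact one_mem _
  let φ : A₀ →* Fx N A₀ a :=
    { toFun := fun q => ⟨q * u * q⁻¹ * u⁻¹, hall q q.2⟩
      map_one' := by
        apply Subtype.ext
        show ((1 : A₀) : G) * u * ((1 : A₀) : G)⁻¹ * u⁻¹ = 1
        simp
      map_mul' := by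
        intro q q'
        apply Subtype.ext
        show ((q : G) * q') * u * ((q : G) * q')⁻¹ * u⁻¹
          = ((q : G) * u * (q : G)⁻¹ * u⁻¹) * ((q' : G) * u * (q' : G)⁻¹ * u⁻¹)
        have h1 := (mem_Fx.1 (hall q' q'.2)).2.1 q q.2
        have h2 : (q : G) * ((q' : G) * u * (q' : G)⁻¹ * u⁻¹) * (q : G)⁻¹
            = (q' : G) * u * (q' : G)⁻¹ * u⁻¹ := by rw [h1, mul_inv_cancel_right]
        calc ((q : G) * q') * u * ((q : G) * q')⁻¹ * u⁻¹
            = ((q : G) * ((q' : G) * u * (q' : G)⁻¹ * u⁻¹) * (q : G)⁻¹) * ((q : G) * u * (q : G)⁻¹ * u⁻¹) := by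
              group
          _ = ((q' : G) * u * (q' : G)⁻¹ * u⁻¹) * ((q : G) * u * (q : G)⁻¹ * u⁻¹) := by rw [h2]
          _ = _ := comm_of_elemAb c.hN (Fx_le _ _ _ (hall q' q'.2)) (Fx_le _ _ _ (hall q q.2)) }
  have hker : Nat.card φ.ker ≤ Nat.card D₀ := by
    rw [← card_map_of_injective A₀.subtype_injective]
    apply card_le_of_le
    rintro _ ⟨q, hq, rfl⟩
    refine mem_inf.2 ⟨q.2, ?_⟩
    rw [mem_centralizer_singleton_iff]
    have h1 : (q : G) * u * (q : G)⁻¹ * u⁻¹ = 1 := congrArg Subtype.val (MonoidHom.mem_ker.1 hq)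
    have h2 : (q : G) * u * (q : G)⁻¹ = u := by
      rwa [mul_inv_eq_one] at h1
    exact mul_inv_eq_iff_eq_mul.1 h2
  have hidx : Nat.card A₀ ≤ Nat.card D₀ * Nat.card (Fx N A₀ a) := by
    rw [← Subgroup.card_mul_index φ.ker, Subgroup.index_ker]
    exact Nat.mul_le_mul hker (Subgroup.card_le_card_group _)
  have hlt : Fx N A₀ a < Fx N D₀ a := by
    refine lt_of_le_of_ne ?_ ?_
    · intro n hn
      obtain ⟨h1, h2, h3⟩ := mem_Fx.1 hn
      exact mem_Fx.2 ⟨h1, fun b hb => h2 b hb.1, h3⟩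
    · intro h
      apply hu'
      rw [h]
      exact mem_Fx.2 ⟨huN, fun b hb => mem_centralizer_singleton_iff.1 hb.2, hua⟩
  have h2f := mul_card_le_of_lt (p := 2) ((isPGroup_of_elemAb c.hN).to_le (Fx_le _ _ _)) hlt
  have hk := c.key (B := D₀) inf_le_left
  have hf : 0 < Nat.card (Fx N A₀ a) := Nat.card_pos
  have hd : 0 < Nat.card D₀ := Nat.card_pos
  set f := Nat.card (Fx N A₀ a)
  set f' := Nat.card (Fx N D₀ a)
  set d := Nat.card D₀
  have h3 : (2 * f) ^ 2 * d ≤ f' ^ 2 * d := Nat.mul_le_mul_right _ (Nat.pow_le_pow_left h2f 2)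
  have h4 : 2 * Nat.card A₀ * f ≤ 2 * (d * f) * f :=
    Nat.mul_le_mul_right _ (Nat.mul_le_mul_left _ hidx)
  have h5 : (2 * f) ^ 2 * d ≤ 2 * (d * f) * f := (h3.trans hk).trans h4
  have h6 : 0 < f * f * d := Nat.mul_pos (Nat.mul_pos hf hf) hd
  nlinarith

theorem le_sup (c : Cfg N A₀ x a) : N ≤ Fx N ⊥ a ⊔ cjg x (Fx N ⊥ a) := by
  intro n hn
  have hx' : x⁻¹ ∈ normalizer (N : Set G) := inv_mem c.hxN
  set m : G := x⁻¹ * n * x with hm
  have hmN : m ∈ N := by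
    have := conj_mem_of_mem_normalizer hx' hn
    rwa [inv_inv] at this
  have hm1 : x * m * x⁻¹ = n := by rw [hm]; group
  set m₂ : G := x * n * x⁻¹ with hm₂
  have hm₂N : m₂ ∈ N := conj_mem_of_mem_normalizer c.hxN hn
  set am : G := a * m * a⁻¹ with ham
  have hamN : am ∈ N := conj_mem_of_mem_normalizer c.haN hmN
  have htau := c.htau m hmN
  rw [hm1] at htau
  have hainv : a⁻¹ = a := inv_eq_of_mul_eq_one_left c.ha2
  have haam : a * am * a⁻¹ = m := by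
    have : a * am * a⁻¹ = (a * a) * m * (a * a)⁻¹ := by rw [ham]; group
    rw [this, c.ha2]; simp
  have hbot : ∀ y : G, ∀ b ∈ (⊥ : Subgroup G), b * y = y * b := by
    intro y b hb
    rw [mem_bot.1 hb, one_mul, mul_one]
  -- first factor
  have hs : am * m ∈ Fx N ⊥ a := by
    refine mem_Fx.2 ⟨mul_mem hamN hmN, hbot _, ?_⟩
    have : a * (am * m) * a⁻¹ = am * m := by
      calc a * (am * m) * a⁻¹ = (a * am * a⁻¹) * (a * m * a⁻¹) := by group
        _ = m * am := by rw [haam]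
        _ = am * m := comm_of_elemAb c.hN hmN hamN
    exact mul_inv_eq_iff_eq_mul.1 this
  -- second factor
  have hy : x⁻¹ * am * x ∈ N := by
    have := conj_mem_of_mem_normalizer hx' hamN
    rwa [inv_inv] at this
  have e1 : a * (x⁻¹ * am * x) * a⁻¹ = n := by
    calc a * (x⁻¹ * am * x) * a⁻¹ = (a * x⁻¹ * a⁻¹) * (a * am * a⁻¹) * (a * x * a⁻¹) := by group
      _ = x * m * x⁻¹ := by rw [c.hax', haam, c.hax]
      _ = n := hm1
  have e2 : a * n * a⁻¹ = x⁻¹ * am * x := by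
    calc a * n * a⁻¹ = a * (x * m * x⁻¹) * a⁻¹ := by rw [hm1]
      _ = (a * x * a⁻¹) * (a * m * a⁻¹) * (a * x⁻¹ * a⁻¹) := by group
      _ = x⁻¹ * am * x := by rw [c.hax', c.hax]
  have ht : x⁻¹ * am * x * n ∈ Fx N ⊥ a := by
    refine mem_Fx.2 ⟨mul_mem hy hn, hbot _, ?_⟩
    have : a * (x⁻¹ * am * x * n) * a⁻¹ = x⁻¹ * am * x * n := by
      calc a * (x⁻¹ * am * x * n) * a⁻¹ = (a * (x⁻¹ * am * x) * a⁻¹) * (a * n * a⁻¹) := by group
        _ = n * (x⁻¹ * am * x) := by rw [e1, e2]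
        _ = _ := comm_of_elemAb c.hN hn hy
    exact mul_inv_eq_iff_eq_mul.1 this
  have ht' : am * m₂ ∈ cjg x (Fx N ⊥ a) := by
    refine ⟨_, ht, ?_⟩
    show x * (x⁻¹ * am * x * n) * x⁻¹ = am * m₂
    rw [hm₂]; group
  have hfin : n = (am * m) * (am * m₂) := by
    have h1 : m * m₂ = n := by
      have h2 : m * m₂ * n = 1 := by
        rw [mul_assoc, comm_of_elemAb c.hN hm₂N hn, ← mul_assoc]; exact htau
      rw [← inv_eq_self' c.hN hn]
      exact eq_inv_of_mul_eq_one_left h2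
    calc n = m * m₂ := h1.symm
      _ = (am * am) * (m * m₂) := by rw [sq_eq_one c.hN hamN, one_mul]
      _ = am * (am * m) * m₂ := by group
      _ = am * (m * am) * m₂ := by rw [comm_of_elemAb c.hN hamN hmN]
      _ = _ := by group
  rw [hfin]
  exact mul_mem (le_sup_left (b := cjg x (Fx N ⊥ a)) hs) (le_sup_right (a := Fx N ⊥ a) ht')

/-- the `S₃`-lemma -/
theorem card_le [Finite G] (c : Cfg N A₀ x a) : Nat.card N ≤ 4 := by
  have h1 := c.key (B := A₀) le_rfl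
  have hf : 0 < Nat.card (Fx N A₀ a) := Nat.card_pos
  have hA : 0 < Nat.card A₀ := Nat.card_pos
  have h2 : Nat.card (Fx N A₀ a) ≤ 2 := by
    by_contra h
    push Not at h
    have h3 : 3 * Nat.card (Fx N A₀ a) * Nat.card A₀ ≤ Nat.card (Fx N A₀ a) ^ 2 * Nat.card A₀ := by
      apply Nat.mul_le_mul_right
      rw [pow_two]
      exact Nat.mul_le_mul_right _ h
    have h4 : 0 < Nat.card (Fx N A₀ a) * Nat.card A₀ := Nat.mul_pos hf hA
    nlinarith
  have h3 : Nat.card (Fx N ⊥ a) ≤ 2 := (card_le_of_le c.Na_le).trans h2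
  have h4 := card_le_of_le c.le_sup
  have h5 := card_sup_mul_card_inf' (V := Fx N ⊥ a) (X := cjg x (Fx N ⊥ a)) (by
    refine le_trans ?_ (c.le_normalizer_of_le (Fx_le N ⊥ a))
    rintro _ ⟨n, hn, rfl⟩
    exact conj_mem_of_mem_normalizer c.hxN (Fx_le _ _ _ hn))
  rw [card_cjg] at h5
  have h6 : 0 < Nat.card ↥(Fx N ⊥ a ⊓ cjg x (Fx N ⊥ a)) := Nat.card_pos
  have h7 : Nat.card ↥(Fx N ⊥ a ⊔ cjg x (Fx N ⊥ a)) ≤ Nat.card (Fx N ⊥ a) * Nat.card (Fx N ⊥ a) := by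
    rw [← h5]; exact Nat.le_mul_of_pos_right _ h6
  calc Nat.card N ≤ _ := h4
    _ ≤ _ := h7
    _ ≤ 2 * 2 := Nat.mul_le_mul h3 h3

end Cfg

end Cfsg.Agent.Lib.Helper55S3L
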