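import Cfsg.Agent.Lib.Helper55JG3
import Cfsg.Agent.Lib.Helper55S3L

set_option autoImplicit false

/-! Existence of `J(T)`-components in a solvable group of characteristic 2 (K–S 12.1), I. -/

namespace Cfsg.Agent.Lib.Helper55JG

open Subgroup Cfsg Cfsg.Agent.Lib.Helper55FF Cfsg.Agent.Lib.Helper55Hol
  Cfsg.Agent.Lib.Helper40Sylow Cfsg.Agent.Lib.Helper13Thompson2 Cfsg.Agent.Lib.Helper58Subnormal
  Cfsg.Agent.Lib.Helper55S3L
open scoped commutatorElement

variable {G : Type*} [Group G]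

namespace Setup

variable [Finite G] {T : Subgroup G}

/-- replacement: a member of `𝒜(T)` whose image is a given minimal offender. -/
theorem exists_relMax_map_eq (s : Setup T) {A₀ : Subgroup G} (hA₀ : A₀ ∈ relMax 2 T)
    {B : Subgroup (Hol (VG G))} (hB : FF.Base 2 (VV (VG G)) (HG G) B) (hBA : B ≤ A₀.map (ac G)) :
    ∃ A, A ∈ relMax 2 T ∧ A.map (ac G) = B := by
  set JB : Subgroup G := A₀ ⊓ B.comap (ac G) with hJB
  have hJBmap : JB.map (ac G) = B := by
    apply le_antisymm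
    · rintro _ ⟨x, hx, rfl⟩; exact hx.2
    · intro b hb
      obtain ⟨a, ha, rfl⟩ := hBA hb
      exact ⟨a, ⟨ha, hb⟩, rfl⟩
  set VB : Subgroup G := VG G ⊓ centralizer (JB : Set G) with hVB
  have hJBel : IsElementaryAbelian 2 JB := Cfsg.Agent.Lib.Helper14ElemAb.elemAb_mono inf_le_left hA₀.2.1
  have hVBel : IsElementaryAbelian 2 VB := Cfsg.Agent.Lib.Helper14ElemAb.elemAb_mono inf_le_left s.hV
  have hcent : JB ≤ centralizer (VB : Set G) := by
    rw [le_centralizer_iff]; exact inf_le_right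
  have hel : IsElementaryAbelian 2 (JB ⊔ VB) := elemAb_sup hJBel hVBel hcent
  have hle : JB ⊔ VB ≤ T :=
    sup_le (inf_le_left.trans hA₀.1) (inf_le_left.trans (s.V_le_Q.trans s.Q_le_T))
  have hmap : (JB ⊔ VB).map (ac G) = B := by
    rw [Subgroup.map_sup, hJBmap]
    have : VB.map (ac G) = ⊥ := by
      rw [Subgroup.map_eq_bot_iff, ker_act]
      exact inf_le_left.trans (le_centralizer_of_elemAb s.hV)
    rw [this, sup_bot_eq]
  refine ⟨JB ⊔ VB, ⟨hle, hel, ?_⟩, hmap⟩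
  have hcard : Nat.card A₀ ≤ Nat.card (JB ⊔ VB : Subgroup G) := by
    obtain ⟨hle0, hoff0⟩ := s.map_relMax hA₀
    have hm0 := s.ff.mm_eq_card _ _ rfl hle0 hoff0
    have hm1 := s.ff.mm_eq_card _ _ rfl hB.hAH hB.hA
    unfold mm at hm0 hm1
    rw [card_VV_inf_centralizer, card_VV] at hm0
    rw [← hJBmap, card_VV_inf_centralizer, card_VV] at hm1
    have h1 := card_map_act (V := VG G) A₀
    have h2 := card_map_act (V := VG G) JB
    have h3 : JB ⊓ CG G = A₀ ⊓ CG G := by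
      apply le_antisymm (inf_le_inf_right _ inf_le_left)
      rintro x ⟨hx1, hx2⟩
      refine ⟨⟨hx1, ?_⟩, hx2⟩
      show ac G x ∈ B
      rw [act_eq_one_iff.2 hx2]; exact one_mem _
    rw [h3] at h2
    have h4 := card_sup_mul_card_inf' (V := JB) (X := VB) (by
      have : VB ≤ centralizer (JB : Set G) := inf_le_right
      exact this.trans (centralizer_le_normalizer _))
    have h5 : Nat.card ↥(JB ⊓ VB) ≤ Nat.card ↥(VG G ⊓ centralizer (A₀ : Set G)) := by
      apply card_le_of_le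
      rintro x ⟨hx1, hx2⟩
      exact ⟨hx2.1, le_centralizer_of_elemAb hA₀.2.1 hx1.1⟩
    have hpos : 0 < Nat.card ↥(VG G ⊓ centralizer (A₀ : Set G)) := Nat.card_pos
    apply Nat.le_of_mul_le_mul_right _ hpos
    calc Nat.card A₀ * Nat.card ↥(VG G ⊓ centralizer (A₀ : Set G))
        = Nat.card (VG G) * Nat.card ↥(A₀ ⊓ CG G) := by rw [← h1, ← hm0]; ring
      _ = Nat.card JB * Nat.card VB := by rw [← h2, ← hm1]; ring
      _ = Nat.card (JB ⊔ VB : Subgroup G) * Nat.card ↥(JB ⊓ VB) := h4.symm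
      _ ≤ _ := Nat.mul_le_mul_left _ h5
  intro D hD hDel
  exact (hA₀.2.2 D hD hDel).trans hcard

theorem mem_of_card_three {X : Type*} [Group X] [Finite X] {R : Subgroup X} (h : Nat.card R = 3) {r t : X}
    (hr : r ∈ R) (hr1 : r ≠ 1) (ht : t ∈ R) : t = 1 ∨ t = r ∨ t = r⁻¹ := by
  haveI : Fact (Nat.Prime 3) := ⟨Nat.prime_three⟩
  have h1 := eq_zpowers_of_card_prime (p := 3) h hr hr1
  rw [h1] at ht
  obtain ⟨k, rfl⟩ := mem_zpowers_iff.1 ht
  have hr3 : r ^ (3 : ℤ) = 1 := by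
    have := pow_card_eq_one' (G := R) (x := ⟨r, hr⟩)
    rw [h] at this
    have h2 : r ^ 3 = 1 := congrArg Subtype.val this
    exact_mod_cast h2
  have hk : r ^ k = r ^ (k % 3) := by
    conv_lhs => rw [← Int.mul_ediv_add_emod k 3, zpow_add, zpow_mul, hr3, one_zpow, one_mul]
  have h2 : 0 ≤ k % 3 := Int.emod_nonneg _ (by norm_num)
  have h3 : k % 3 < 3 := Int.emod_lt_of_pos _ (by norm_num)
  rw [hk]
  interval_cases (k % 3)
  · left; simp
  · right; left; simp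
  · right; right
    rw [eq_inv_iff_mul_eq_one, ← zpow_add_one]
    exact hr3

/-- an element of order three inverted by an involution of `A`. -/
theorem exists_inverted (s : Setup T) {A : Subgroup G} (hA : A ∈ relMax 2 T)
    {B : Subgroup (Hol (VG G))} (hB : FF.Base 2 (VV (VG G)) (HG G) B) (hAB : A.map (ac G) = B) :
    ∃ x a, a ∈ A ∧ x ^ 3 = 1 ∧ ac G x ∈ Rof 2 (HG G) B ∧ ac G x ≠ 1 ∧ a * x * a⁻¹ = x⁻¹ := by
  have hRB : ⁅Rof 2 (HG G) B, B⁆ = Rof 2 (HG G) B := by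
    have hBp := isPGroup_of_card_prime hB.hc
    apply Cfsg.Agent.S0027.result B (Qof 2 (HG G)) (hB.hAH.trans (le_normalizer_Qof 2 (HG G)))
      (coprime_card_of_isPGroup hBp (card_Qof_coprime 2 (HG G)))
    exact Or.inl (by
      have := hBp.isNilpotent
      infer_instance)
  have hR3 := card_R s.ff hB
  have hex : ∃ ρ ∈ Rof 2 (HG G) B, ∃ β ∈ B, ⁅ρ, β⁆ ≠ 1 := by
    by_contra hcon
    push Not at hcon
    have h1 : ⁅Rof 2 (HG G) B, B⁆ = ⊥ := by
      rw [eq_bot_iff, commutator_le]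
      intro ρ hρ β hβ
      rw [mem_bot]; exact hcon ρ hρ β hβ
    rw [hRB] at h1
    rw [h1, Subgroup.card_bot] at hR3
    omega
  obtain ⟨ρ, hρ, β, hβ, hne⟩ := hex
  rw [← hAB] at hβ
  obtain ⟨a, ha, rfl⟩ := hβ
  obtain ⟨y, hy, rfl⟩ := (hB.R_le_Q.trans (Qof_le 2 (HG G))) hρ
  have ha2 : a * a = 1 := sq_eq_one hA.2.1 ha
  have hainv : a⁻¹ = a := inv_eq_of_mul_eq_one_left ha2
  set d : G := ⁅y, a⁆ with hd
  have hdR : ac G d ∈ Rof 2 (HG G) B := by
    rw [hd, map_commutatorElement, ← hRB]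
    exact commutator_mem_commutator hρ (hAB ▸ ⟨a, ha, rfl⟩)
  have hd1 : ac G d ≠ 1 := by rw [hd, map_commutatorElement]; exact hne
  have hinv : a * d * a⁻¹ = d⁻¹ := by
    have e1 : a * d * a⁻¹ = a * y * a * y⁻¹ * (a⁻¹ * a⁻¹) := by
      rw [hd, commutatorElement_def]; group
    have e2 : d⁻¹ = a * y * a⁻¹ * y⁻¹ := by
      rw [hd, commutatorElement_def]; group
    rw [e1, e2, hainv, ha2, mul_one]
  have hd3 : ac G d ^ 3 = 1 := by
    have := pow_card_eq_one' (G := Rof 2 (HG G) B) (x := ⟨_, hdR⟩)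
    rw [hR3] at this
    exact congrArg Subtype.val this
  have hd3C : d ^ 3 ∈ CG G := by rw [← act_eq_one_iff, map_pow]; exact hd3
  have hd6 : d ^ 6 ∈ pCore 2 G := by
    have h1 := s.hCT _ hd3C a (hA.1 ha)
    have e : ⁅d ^ 3, a⁆ = d ^ 6 := by
      rw [commutatorElement_def]
      have : d ^ 3 * a * (d ^ 3)⁻¹ * a⁻¹ = d ^ 3 * ((a * d * a⁻¹) ^ 3)⁻¹ := by
        rw [conj_pow]; group
      rw [this, hinv, inv_pow, inv_inv, ← pow_add]
    rwa [e] at h1
  obtain ⟨k, hk⟩ := (Cfsg.Agent.Lib.Helper55Core.isPGroup_pCore (G := G) (p := 2)) ⟨_, hd6⟩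
  have hk' : (d ^ 6) ^ (2 ^ k) = 1 := congrArg Subtype.val hk
  refine ⟨d ^ (2 ^ (k + 1)), a, ha, ?_, ?_, ?_, ?_⟩
  · rw [← pow_mul, ← hk', ← pow_mul]
    congr 1
    rw [pow_succ]; ring
  · rw [map_pow]; exact pow_mem hdR _
  · rw [map_pow]
    intro h
    apply hd1
    exact Cfsg.Agent.Lib.Helper55Core.eq_one_of_coprime_pow (a := 2 ^ (k + 1)) (b := 3)
      (Nat.Coprime.pow_left _ (by norm_num)) h hd3
  · rw [← conj_pow, hinv, inv_pow]

end Setup

end Cfsg.Agent.Lib.Helper55JG
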