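import Cfsg.Agent.Lib.Helper55JL

set_option autoImplicit false

/-! `N_G(K) = N_G(W_K)` for components in `jComponentsZero`. -/

namespace Cfsg.Agent.Lib.Helper55JL

open Subgroup Cfsg Cfsg.Agent.Lib.Helper40Sylow Cfsg.Agent.Lib.Helper55Core
  Cfsg.Agent.Lib.Helper55JG Cfsg.Agent.Lib.Helper55JT Cfsg.Agent.Lib.Helper55JStruct
  Cfsg.Agent.Lib.Helper55JB Cfsg.Agent.Lib.Helper13Thompson2
open scoped commutatorElement

variable {G : Type*} [Group G] [Finite G] {T L K K' : Subgroup G}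

/-- 2-locals have characteristic 2 in the ambient form. -/
theorem ZN.centralizer_pCoreOf_le (z : ZN G) {R : Subgroup G} (hR : IsPGroup 2 R) (hR1 : R ≠ ⊥) :
    centralizer (pCoreOf 2 (normalizer (R : Set G)) : Set G) ≤ pCoreOf 2 (normalizer (R : Set G)) := by
  have h1 : centralizer (pCore 2 ↥(normalizer (R : Set G)) : Set ↥(normalizer (R : Set G))) ≤
      pCore 2 ↥(normalizer (R : Set G)) := z.hL.2 R hR hR1
  rw [charPGroup_iff] at h1
  refine le_trans (le_inf ?_ le_rfl) h1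
  have h2 : R ≤ pCoreOf 2 (normalizer (R : Set G)) := le_pCoreOf le_normalizer le_rfl hR
  exact (centralizer_le h2).trans (centralizer_le_normalizer _)

theorem J_ne_bot (hK : IsJComponent T K) : thompsonSubgroupOf 2 T ≠ ⊥ := by
  intro h
  apply Setup.not_isPGroup_comp hK
  have h1 := hK.2.1
  rw [h, commutator_bot_right] at h1
  rw [← h1]
  exact IsPGroup.of_bot

theorem not_J_le_pCoreOf (hK : IsJComponent T K) (hKL : K ≤ L) :
    ¬ thompsonSubgroupOf 2 T ≤ pCoreOf 2 L := by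
  intro h
  apply Setup.not_isPGroup_comp hK
  have h1 : K ≤ pCoreOf 2 L := by
    conv_lhs => rw [← hK.2.1]
    refine (commutator_mono hKL h).trans ?_
    rw [commutator_comm]
    exact Cfsg.Agent.Lib.Helper55Act.commutator_le_left (le_normalizer_pCoreOf L)
  exact (isPGroup_pCoreOf L).to_le h1

theorem card_relMax_eq {T S A B : Subgroup G}
    (hJ : thompsonSubgroupOf 2 T = thompsonSubgroupOf 2 S) (hA : A ∈ relMax 2 T)
    (hB : B ∈ relMax 2 S) : Nat.card A = Nat.card B := by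
  apply le_antisymm
  · apply hB.2.2 A _ hA.2.1
    refine le_trans ?_ (thompsonOf_le_self 2 S)
    rw [← hJ, thompsonOf_eq]
    exact le_sSup hA
  · apply hA.2.2 B _ hB.2.1
    refine le_trans ?_ (thompsonOf_le_self 2 T)
    rw [hJ, thompsonOf_eq]
    exact le_sSup hB

theorem J_le_J_of_card {T S A B : Subgroup G} (hJ : thompsonSubgroupOf 2 T ≤ S)
    (hA : A ∈ relMax 2 T) (hB : B ∈ relMax 2 S) (hc : Nat.card B ≤ Nat.card A) :
    thompsonSubgroupOf 2 T ≤ thompsonSubgroupOf 2 S := by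
  conv_lhs => rw [thompsonOf_eq]
  apply sSup_le
  intro A' hA'
  rw [thompsonOf_eq]
  apply le_sSup
  refine ⟨?_, hA'.2.1, ?_⟩
  · refine le_trans ?_ hJ
    rw [thompsonOf_eq]; exact le_sSup hA'
  · intro D hD hDe
    exact ((hB.2.2 D hD hDe).trans hc).trans (hA'.2.2 A hA.1 hA.2.1)

theorem isPGroup_wOf (hK : IsJComponent T K) : IsPGroup 2 (wOf K) :=
  IsPGroup.of_card (n := 2) (by rw [hK.2.2.2.2.1]; norm_num)

theorem wOf_ne_bot (hK : IsJComponent T K) : wOf K ≠ ⊥ := by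
  intro h
  have := hK.2.2.2.2.1
  rw [h, card_bot] at this
  omega

/-- data attached to `K ∈ jComponentsZero T`. -/
theorem ZN.exists_sylow_normalizer_wOf (z : ZN G) (hT : IsPGroup 2 T) (hK : K ∈ jComponentsZero T) :
    ∃ S, S ≠ ⊥ ∧ thompsonSubgroupOf 2 S = thompsonSubgroupOf 2 T ∧
      normalizer (wOf K : Set G) ∈ jOvergroups S ∧ IsJComponent S K := by
  obtain ⟨hK1, hK2⟩ := hK
  have hJN : thompsonSubgroupOf 2 T ≤ normalizer (wOf K : Set G) :=
    le_sup_right.trans (X_le_normalizer_wOf hK1)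
  have hKN : K ≤ normalizer (wOf K : Set G) := le_sup_left.trans (X_le_normalizer_wOf hK1)
  obtain ⟨S, hS, hJS⟩ := exists_isSylowIn_ge (hT.to_le (thompsonOf_le_self 2 T)) hJN
  have hJ := hK2 S hJS (isSylowTwoIn_iff.2 hS)
  have hKS : IsJComponent S K := (isJComponent_congr hJ).2 hK1
  refine ⟨S, ?_, hJ, ⟨isSylowTwoIn_iff.2 hS, not_J_le_pCoreOf hKS hKN,
    z.centralizer_pCoreOf_le (isPGroup_wOf hK1) (wOf_ne_bot hK1)⟩, hKS⟩
  intro h
  apply J_ne_bot hK1
  rw [eq_bot_iff, ← h]; exact hJS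

theorem ZN.normalizer_eq (z : ZN G) (hT : IsPGroup 2 T) (hK : K ∈ jComponentsZero T) :
    normalizer (K : Set G) = normalizer (wOf K : Set G) := by
  apply le_antisymm (normalizer_le_normalizer_wOf K)
  obtain ⟨S, hS1, hJ, hN, hKS⟩ := z.exists_sylow_normalizer_wOf hT hK
  have hKN : K ≤ normalizer (wOf K : Set G) := le_sup_left.trans (X_le_normalizer_wOf hKS)
  intro g hg
  rw [mem_normalizer_iff_cj]
  symm
  apply z.eq_of_wOf_inf_ne_bot hS1 hN hKS hKN (z.isJComponent_conj hS1 hN hKS hKN hg)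
  · rintro _ ⟨k, hk, rfl⟩
    exact mul_mem (mul_mem hg (hKN hk)) (inv_mem hg)
  · rw [wOf_cj, mem_normalizer_iff_cj.1 hg, inf_idem]
    exact wOf_ne_bot hKS

theorem ZN.isJComponent_of_le_normalizer (z : ZN G) (hT : IsPGroup 2 T)
    (hK : K ∈ jComponentsZero T) (g : G)
    (hg : thompsonSubgroupOf 2 (cj g T) ≤ normalizer (wOf K : Set G)) :
    IsJComponent (cj g T) K := by
  obtain ⟨S, hS1, hJ, hN, hKS⟩ := z.exists_sylow_normalizer_wOf hT hK
  have hSyl : IsSylowIn 2 S (normalizer (wOf K : Set G)) := isSylowTwoIn_iff.1 hN.1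
  obtain ⟨x, hx, hle⟩ := hSyl.exists_conj_le
    ((isPGroup_cj hT g).to_le (thompsonOf_le_self 2 (cj g T))) hg
  -- `J(T^{xg}) ≤ S`
  rw [← thompsonOf_cj, ← cj_mul] at hle
  obtain ⟨A, hA⟩ := exists_relMax 2 T
  obtain ⟨B, hB⟩ := exists_relMax 2 S
  have hc : Nat.card B = Nat.card A := card_relMax_eq hJ hB hA
  have h1 : thompsonSubgroupOf 2 (cj (x * g) T) ≤ thompsonSubgroupOf 2 S :=
    J_le_J_of_card hle (relMax_cj hA (x * g)) hB (by rw [card_cj, hc])
  have h2 : thompsonSubgroupOf 2 (cj (x * g) T) = thompsonSubgroupOf 2 S := by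
    apply Subgroup.eq_of_le_of_card_ge h1
    rw [hJ, thompsonOf_cj, card_cj]
  -- conjugate back by `x⁻¹`
  have h3 : IsJComponent (cj (x * g) T) K := (isJComponent_congr h2).2 hKS
  have h4 : IsJComponent (cj x⁻¹ (cj (x * g) T)) (cj x⁻¹ K) := (isJComponent_cj x⁻¹).2 h3
  have hxK : x⁻¹ ∈ normalizer (K : Set G) := by
    rw [z.normalizer_eq hT hK]; exact inv_mem hx
  rw [mem_normalizer_iff_cj.1 hxK, ← cj_mul] at h4
  have e : x⁻¹ * (x * g) = g := by group
  rwa [e] at h4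

end Cfsg.Agent.Lib.Helper55JL
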