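import Cfsg.Agent.Lib.Helper55JE
import Cfsg.Agent.Lib.Helper55JN

set_option autoImplicit false
set_option linter.unusedSectionVars false
set_option linter.style.haveILetI false

/-! Existence of `J(T)`-components in a solvable group of characteristic 2 (K–S 12.1), II. -/

namespace Cfsg.Agent.Lib.Helper55JG

open Subgroup Cfsg Cfsg.Agent.Lib.Helper55FF Cfsg.Agent.Lib.Helper55Hol
  Cfsg.Agent.Lib.Helper40Sylow Cfsg.Agent.Lib.Helper13Thompson2 Cfsg.Agent.Lib.Helper58Subnormal
  Cfsg.Agent.Lib.Helper55S3L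
open scoped commutatorElement

variable {G : Type*} [Group G]

/-- the subgroup generated by the elements of odd order -/
def oddGen (Y : Subgroup G) : Subgroup G := closure {g : G | g ∈ Y ∧ Odd (orderOf g)}

theorem oddGen_le (Y : Subgroup G) : oddGen Y ≤ Y := by
  unfold oddGen
  rw [closure_le]; exact fun g hg => hg.1

theorem mem_oddGen {Y : Subgroup G} {g : G} (hg : g ∈ Y) (ho : Odd (orderOf g)) : g ∈ oddGen Y :=
  Subgroup.subset_closure ⟨hg, ho⟩

theorem oddGen_oddGen (Y : Subgroup G) :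
    closure {g : G | g ∈ oddGen Y ∧ Odd (orderOf g)} = oddGen Y := by
  apply le_antisymm
  · rw [closure_le]; exact fun g hg => hg.1
  · conv_lhs => unfold oddGen
    rw [closure_le]
    intro g hg
    exact Subgroup.subset_closure ⟨mem_oddGen hg.1 hg.2, hg.2⟩

theorem normalizer_le_normalizer_oddGen [Finite G] (Y : Subgroup G) :
    normalizer (Y : Set G) ≤ normalizer (oddGen Y : Set G) := by
  intro g hg
  rw [mem_normalizer_iff_cj]
  apply cj_eq_of_le
  conv_lhs => unfold oddGen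
  rw [cj, MonoidHom.map_closure, closure_le]
  rintro _ ⟨y, ⟨hy, hodd⟩, rfl⟩
  apply mem_oddGen
  · exact Cfsg.Agent.Lib.Helper55Act.conj_mem_of_mem_normalizer hg hy
  · have : orderOf ((MulAut.conj g).toMonoidHom y) = orderOf y :=
      orderOf_injective _ (MulAut.conj g).injective y
    rwa [this]

structure XData (T A : Subgroup G) (B : Subgroup (Hol (VG G))) (x a : G) : Prop where
  hA : A ∈ relMax 2 T
  hB : FF.Base 2 (VV (VG G)) (HG G) B
  hAB : A.map (ac G) = B
  ha : a ∈ A
  hx3 : x ^ 3 = 1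
  hxR : ac G x ∈ Rof 2 (HG G) B
  hx1 : ac G x ≠ 1
  hax : a * x * a⁻¹ = x⁻¹

abbrev YX (x : G) : Subgroup G := zpowers x ⊔ pCore 2 G
abbrev KX (x : G) : Subgroup G := oddGen (YX x)

namespace XData

variable [Finite G] {T A : Subgroup G} {B : Subgroup (Hol (VG G))} {x a : G}

theorem hax' (D : XData T A B x a) : a * x⁻¹ * a⁻¹ = x := by
  have := congrArg (·⁻¹) D.hax
  simpa [mul_assoc] using this

theorem ha2 (D : XData T A B x a) : a * a = 1 := sq_eq_one D.hA.2.1 D.ha

theorem x4 (D : XData T A B x a) : (x * x) * (x * x) = x := by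
  calc (x * x) * (x * x) = x ^ 3 * x := by simp only [pow_succ, pow_zero, one_mul, mul_assoc]
    _ = x := by rw [D.hx3, one_mul]

theorem comm_xa (D : XData T A B x a) : ⁅x, a⁆ = x * x := by
  rw [commutatorElement_def]
  calc x * a * x⁻¹ * a⁻¹ = x * (a * x⁻¹ * a⁻¹) := by group
    _ = x * x := by rw [D.hax']

theorem x_ne_one (D : XData T A B x a) : x ≠ 1 := by
  intro h; apply D.hx1; rw [h, map_one]

theorem orderOf_x (D : XData T A B x a) : orderOf x = 3 :=
  orderOf_eq_prime D.hx3 D.x_ne_one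

theorem isPGroup_a (D : XData T A B x a) : IsPGroup 2 (zpowers a) :=
  (isPGroup_of_elemAb D.hA.2.1).to_le (zpowers_le.2 D.ha)

theorem comm_x_C (s : Setup T) (D : XData T A B x a) {c : G} (hc : c ∈ CG G) : ⁅x, c⁆ ∈ pCore 2 G := by
  have h := Cfsg.Agent.Lib.Helper40Chief.three_subgroups_mod (pCore 2 G) (zpowers x) (zpowers a) (CG G)
    (le_normalizer_of_normal' _ _) (le_normalizer_of_normal' _ _) (le_normalizer_of_normal' _ _)
    ?_ ?_
  · apply h
    apply commutator_mem_commutator _ hc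
    have h1 : ⁅x, a⁆ ∈ ⁅zpowers x, zpowers a⁆ :=
      commutator_mem_commutator (mem_zpowers x) (mem_zpowers a)
    rw [D.comm_xa] at h1
    have h2 := mul_mem h1 h1
    rwa [D.x4] at h2
  · have h1 : ⁅zpowers a, CG G⁆ ≤ pCore 2 G := by
      rw [commutator_comm]; exact s.commutator_C_le D.isPGroup_a
    exact (commutator_mono h1 le_rfl).trans (commutator_le_left _ _)
  · have h1 : ⁅CG G, zpowers x⁆ ≤ CG G := commutator_le_left _ _
    exact (commutator_mono h1 le_rfl).trans (s.commutator_C_le D.isPGroup_a)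

theorem conj_same (s : Setup T) (D : XData T A B x a) {t : G} (ht : t ∈ T)
    (h : ac G (t * x * t⁻¹) = ac G x) : x⁻¹ * (t * x * t⁻¹) ∈ pCore 2 G := by
  set z : G := x⁻¹ * (t * x * t⁻¹) with hz
  have hzC : z ∈ CG G := by
    rw [← act_eq_one_iff, hz, map_mul, h, map_inv, inv_mul_cancel]
  set π := QuotientGroup.mk' (pCore 2 G) with hπ
  have hker : ∀ g : G, π g = 1 ↔ g ∈ pCore 2 G := fun g => QuotientGroup.eq_one_iff g
  have h1 : π t * π x * (π t)⁻¹ = π x * π z := by
    rw [← map_inv, ← map_mul, ← map_mul, ← map_mul, hz]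
    congr 1; group
  have h2 : Commute (π t) (π z) := by
    have := (hker _).2 (s.hCT z hzC t ht)
    rw [map_commutatorElement, commutatorElement_eq_one_iff_commute] at this
    exact this.symm
  have h3 : Commute (π x) (π z) := by
    have := (hker _).2 (D.comm_x_C s hzC)
    rwa [map_commutatorElement, commutatorElement_eq_one_iff_commute] at this
  obtain ⟨k, hk⟩ := s.hT2 ⟨t, ht⟩
  have hk' : t ^ (2 ^ k) = 1 := congrArg Subtype.val hk
  have h4 := Cfsg.Agent.Lib.Helper55Core.conj_pow_eq h1 h2 (2 ^ k)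
  rw [← map_pow, hk', map_one] at h4
  have h5 : π z ^ (2 ^ k) = 1 := by simpa using h4.symm
  have h6 : π z ^ 3 = 1 := by
    have e1 : (π x * π z) ^ 3 = 1 := by
      rw [← h1, conj_pow, ← map_pow, D.hx3, map_one]; simp
    rw [h3.mul_pow, ← map_pow, D.hx3, map_one, one_mul] at e1
    exact e1
  rw [← hker]
  exact Cfsg.Agent.Lib.Helper55Core.eq_one_of_coprime_pow (a := 2 ^ k) (b := 3)
    (Nat.Coprime.pow_left _ (by norm_num)) h5 h6

theorem x_mem_Y : x ∈ YX x := le_sup_left (b := pCore 2 G) (mem_zpowers x)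

theorem conj_mem_Y (s : Setup T) (D : XData T A B x a) {t : G} (ht : t ∈ T)
    (hn : ac G t ∈ normalizer (Rof 2 (HG G) B : Set (Hol (VG G)))) : t * x * t⁻¹ ∈ YX x := by
  have h1 : ac G (t * x * t⁻¹) ∈ Rof 2 (HG G) B := by
    rw [map_mul, map_mul, map_inv]
    exact Cfsg.Agent.Lib.Helper55Act.conj_mem_of_mem_normalizer hn D.hxR
  rcases Setup.mem_of_card_three (card_R s.ff D.hB) D.hxR D.hx1 h1 with h2 | h2 | h2
  · exfalso
    apply D.hx1
    rw [map_mul, map_mul, map_inv] at h2
    have := conj_eq_one_iff.1 h2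
    exact this
  · have h3 := D.conj_same s ht h2
    have e : t * x * t⁻¹ = x * (x⁻¹ * (t * x * t⁻¹)) := by group
    rw [e]
    exact mul_mem x_mem_Y (le_sup_right (a := zpowers x) h3)
  · have hta : t * a ∈ T := mul_mem ht (D.hA.1 D.ha)
    have e0 : (t * a) * x * (t * a)⁻¹ = (t * x * t⁻¹)⁻¹ := by
      calc (t * a) * x * (t * a)⁻¹ = t * (a * x * a⁻¹) * t⁻¹ := by group
        _ = _ := by rw [D.hax]; group
    have h3 : ac G ((t * a) * x * (t * a)⁻¹) = ac G x := by
      rw [e0, map_inv, h2, inv_inv]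
    have h4 := D.conj_same s hta h3
    rw [e0] at h4
    have e : t * x * t⁻¹ = (x * (x⁻¹ * (t * x * t⁻¹)⁻¹))⁻¹ := by group
    rw [e]
    exact inv_mem (mul_mem x_mem_Y (le_sup_right (a := zpowers x) h4))

theorem J_le_normalizer_Y (s : Setup T) (D : XData T A B x a) :
    JT T ≤ normalizer (YX x : Set G) := by
  apply Cfsg.Agent.Lib.Helper55Act.le_normalizer_of_conj_mem
  intro t ht
  have htT : t ∈ T := Cfsg.Agent.Lib.Helper55JComp.thompsonSubgroupOf_le 2 T ht
  have hn : ac G t ∈ normalizer (Rof 2 (HG G) B : Set (Hol (VG G))) :=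
    D.hB.H_le_normalizer_R s.ff s.hS3 (Setup.map_le_HG s.J_le ⟨t, ht, rfl⟩)
  have h1 : YX x ≤ (YX x).comap (MulAut.conj t).toMonoidHom := by
    apply sup_le
    · rw [zpowers_le]
      exact D.conj_mem_Y s htT hn
    · intro q hq
      exact le_sup_right (a := zpowers x) ((inferInstance : (pCore 2 G).Normal).conj_mem q hq t)
  intro y hy
  exact h1 hy

theorem x_mem_K (D : XData T A B x a) : x ∈ KX x :=
  mem_oddGen x_mem_Y (by rw [D.orderOf_x]; decide)

theorem Q_le_normalizer_K : pCore 2 G ≤ normalizer (KX x : Set G) :=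
  (le_sup_right.trans le_normalizer).trans (normalizer_le_normalizer_oddGen _)

theorem J_le_normalizer_K (s : Setup T) (D : XData T A B x a) :
    JT T ≤ normalizer (KX x : Set G) :=
  (D.J_le_normalizer_Y s).trans (normalizer_le_normalizer_oddGen _)

theorem map_Y (D : XData T A B x a) : (YX x).map (ac G) ≤ Rof 2 (HG G) B := by
  rw [Subgroup.map_sup]
  apply sup_le
  · rw [MonoidHom.map_zpowers, zpowers_le]; exact D.hxR
  · have : (pCore 2 G).map (ac G) = ⊥ := by
      rw [Subgroup.map_eq_bot_iff, ker_act]; exact Setup.Q_le_C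
    rw [this]; exact bot_le

theorem map_K (s : Setup T) (D : XData T A B x a) : (KX x).map (ac G) = Rof 2 (HG G) B := by
  have hle : (KX x).map (ac G) ≤ Rof 2 (HG G) B := (map_mono (oddGen_le _)).trans D.map_Y
  haveI : Fact (Nat.Prime 3) := ⟨Nat.prime_three⟩
  rcases eq_bot_or_eq_of_le_card_prime (p := 3) (card_R s.ff D.hB) hle with h | h
  · exfalso
    apply D.hx1
    have : ac G x ∈ (KX x).map (ac G) := ⟨x, D.x_mem_K, rfl⟩
    rw [h] at this
    exact this
  · exact h

theorem Y_inf_C (D : XData T A B x a) : YX x ⊓ CG G ≤ pCore 2 G := by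
  intro y hy'
  obtain ⟨hy, hyC⟩ := mem_inf.1 hy'
  rw [mem_sup_of_normal_right] at hy
  obtain ⟨z, hz, q, hq, rfl⟩ := hy
  have hzC : z ∈ CG G := by
    have := mul_mem hyC (inv_mem (Setup.Q_le_C hq))
    rwa [mul_inv_cancel_right] at this
  haveI : Fact (Nat.Prime 3) := ⟨Nat.prime_three⟩
  have h3 : Nat.card (zpowers x) = 3 := by rw [Nat.card_zpowers, D.orderOf_x]
  have h4 : zpowers x ⊓ CG G = ⊥ := by
    apply inf_eq_bot_of_card_prime (p := 3) h3
    intro h
    exact D.hx1 (act_eq_one_iff.2 (h (mem_zpowers x)))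
  have h5 : z ∈ zpowers x ⊓ CG G := ⟨hz, hzC⟩
  rw [h4, mem_bot] at h5
  rw [h5, one_mul]; exact hq

end XData

end Cfsg.Agent.Lib.Helper55JG
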