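import Cfsg.Agent.Lib.Helper55JE2

set_option autoImplicit false
set_option linter.unusedSectionVars false
set_option linter.style.haveILetI false

/-! Existence of `J(T)`-components in a solvable group of characteristic 2 (K–S 12.1), III. -/

namespace Cfsg.Agent.Lib.Helper55JG

open Subgroup Cfsg Cfsg.Agent.Lib.Helper55FF Cfsg.Agent.Lib.Helper55Hol
  Cfsg.Agent.Lib.Helper40Sylow Cfsg.Agent.Lib.Helper13Thompson2 Cfsg.Agent.Lib.Helper58Subnormal
  Cfsg.Agent.Lib.Helper55S3L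
open scoped commutatorElement

variable {G : Type*} [Group G]

theorem elemAb_omegaCenterOf (Q : Subgroup G) : IsElementaryAbelian 2 (omegaCenterOf Q) := by
  refine ⟨?_, ?_⟩
  · rw [isMulCommutative_iff]
    rintro ⟨u, hu⟩ ⟨v, hv⟩
    apply Subtype.ext
    have h1 := Cfsg.Agent.Lib.Helper55JStruct.omegaCenterOf_le Q hu
    have h2 := Cfsg.Agent.Lib.Helper55JStruct.omegaCenterOf_le Q hv
    exact (mem_centralizer_iff.1 h2.2) u h1.1
  · intro u hu
    rw [pow_two]; exact Cfsg.Agent.Lib.Helper55JStruct.sq_of_mem_omegaCenterOf hu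

theorem tau_wOf [Finite G] {K : Subgroup G} {x : G} (hxK : x ∈ K)
    (hK : K ≤ zpowers x ⊔ pCoreOf 2 K) (hx3 : x ^ 3 = 1) :
    ∀ n ∈ wOf K, n * (x * n * x⁻¹) * (x * (x * n * x⁻¹) * x⁻¹) = 1 := by
  set U : Subgroup G := omegaCenterOf (pCoreOf 2 K) with hU
  have hel := elemAb_omegaCenterOf (pCoreOf 2 K)
  have hKU : K ≤ normalizer (U : Set G) := (Cfsg.Agent.Lib.Helper55Core.le_normalizer_pCoreOf K).trans
    (Cfsg.Agent.Lib.Helper55JStruct.normalizer_le_normalizer_omegaCenterOf _)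
  have hxU : x ∈ normalizer (U : Set G) := hKU hxK
  have hPU : pCoreOf 2 K ≤ centralizer (U : Set G) := by
    rw [le_centralizer_iff]
    exact (Cfsg.Agent.Lib.Helper55JStruct.omegaCenterOf_le _).trans inf_le_right
  have h1 : wOf K ≤ ⁅U, zpowers x⁆ := by
    unfold wOf
    refine (commutator_mono le_rfl hK).trans ?_
    rw [Cfsg.Agent.Lib.Helper55Act.commutator_sup_eq (zpowers_le.2 hxU)
      ((Cfsg.Agent.Lib.Helper55Core.pCoreOf_le K).trans hKU),
      Cfsg.Agent.Lib.Helper55Act.commutator_eq_bot_iff.2 hPU, sup_bot_eq]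
  intro n hn
  have hn' := h1 hn
  rw [← Cfsg.Agent.Lib.Helper55Act.commHom_range (fun v hv w hw => comm_of_elemAb hel hv hw) hxU] at hn'
  obtain ⟨_, ⟨v, rfl⟩, rfl⟩ := hn'
  have hv2 : (v : G) * v = 1 := sq_eq_one hel v.2
  have hvinv : (v : G)⁻¹ = v := inv_eq_of_mul_eq_one_left hv2
  show ⁅(v : G), x⁆ * (x * ⁅(v : G), x⁆ * x⁻¹) * (x * (x * ⁅(v : G), x⁆ * x⁻¹) * x⁻¹) = 1
  have e : ⁅(v : G), x⁆ = v * (x * v * x⁻¹) := by
    rw [commutatorElement_def]
    conv_lhs => rw [hvinv]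
    group
  rw [e]
  have hx3' : x * x * x = 1 := by rw [← hx3]; simp only [pow_succ, pow_zero, one_mul]
  calc (v : G) * (x * v * x⁻¹) * (x * ((v : G) * (x * v * x⁻¹)) * x⁻¹)
        * (x * (x * ((v : G) * (x * v * x⁻¹)) * x⁻¹) * x⁻¹)
      = v * (x * ((v : G) * v) * x⁻¹) * (x * x * ((v : G) * v) * x⁻¹ * x⁻¹)
          * ((x * x * x) * v * (x * x * x)⁻¹) := by group
    _ = 1 := by rw [hv2, hx3']; simp [hv2]

namespace Setup

variable [Finite G] {T : Subgroup G}

/-- every 2-subgroup containing `J(T)` has Thompson subgroup `J(T)`. -/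
theorem thompson_eq_of_le (s : Setup T) {S : Subgroup G} (hS : IsPGroup 2 S) (hJ : JT T ≤ S) :
    JT S = JT T := by
  obtain ⟨A, hA⟩ := exists_relMax 2 T
  obtain ⟨B, hB⟩ := exists_relMax 2 S
  have h1 : JT T ≤ JT S :=
    Cfsg.Agent.Lib.Helper55JL.J_le_J_of_card hJ hA hB ((s.relMax_mem hA).2 B hB.2.1)
  obtain ⟨g, -, hg⟩ := s.hT.exists_conj_le hS le_top
  obtain ⟨B', hB'⟩ := exists_relMax 2 (cj g S)
  have h2 : JT (cj g S) ≤ JT T := by
    apply Cfsg.Agent.Lib.Helper55JL.J_le_J_of_card ((thompsonOf_le_self 2 _).trans hg) hB' hA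
    rw [← card_cj g A]
    exact hB'.2.2 _ (cj_mono ((relMax_le_J hA).trans hJ)) (Cfsg.Agent.Lib.Helper13Thompson.el_map hA.2.1 _)
  symm
  apply Subgroup.eq_of_le_of_card_ge h1
  have h3 := card_le_of_le h2
  rwa [JT, thompsonOf_cj, card_cj] at h3

end Setup

namespace XData

variable [Finite G] {T A : Subgroup G} {B : Subgroup (Hol (VG G))} {x a : G}

theorem K_inf_C (D : XData T A B x a) : KX x ⊓ CG G = KX x ⊓ pCore 2 G :=
  le_antisymm (le_inf inf_le_left ((inf_le_inf_right _ (oddGen_le _)).trans D.Y_inf_C))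
    (inf_le_inf_left _ Setup.Q_le_C)

theorem pCoreOf_K (s : Setup T) (D : XData T A B x a) : pCoreOf 2 (KX x) = KX x ⊓ pCore 2 G := by
  apply le_antisymm
  · refine le_inf (Cfsg.Agent.Lib.Helper55Core.pCoreOf_le _) ?_
    apply s.le_Q_of_le_C (Cfsg.Agent.Lib.Helper55Core.isPGroup_pCoreOf _)
    intro g hg
    rw [← act_eq_one_iff]
    have hcop : (Nat.card (Rof 2 (HG G) B)).Coprime 2 := by rw [card_R s.ff D.hB]; decide
    refine eq_one_of_mem_of_coprime (A := (pCoreOf 2 (KX x)).map (ac G))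
      ((Cfsg.Agent.Lib.Helper55Core.isPGroup_pCoreOf _).map _) hcop ⟨g, hg, rfl⟩ ?_
    rw [← D.map_K s]
    exact ⟨g, Cfsg.Agent.Lib.Helper55Core.pCoreOf_le _ hg, rfl⟩
  · apply Cfsg.Agent.Lib.Helper55Core.le_pCoreOf inf_le_left
    · apply Cfsg.Agent.Lib.Helper55Act.le_normalizer_of_conj_mem
      intro k hk y hy
      exact mem_inf.2 ⟨mul_mem (mul_mem hk hy.1) (inv_mem hk),
        (inferInstance : (pCore 2 G).Normal).conj_mem y hy.2 k⟩
    · exact Cfsg.Agent.Lib.Helper55Core.isPGroup_pCore.to_le inf_le_right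

theorem relIndex_K (s : Setup T) (D : XData T A B x a) : (pCoreOf 2 (KX x)).relIndex (KX x) = 3 := by
  have h1 := card_map_act (V := VG G) (KX x)
  rw [D.map_K s, card_R s.ff D.hB, D.K_inf_C, ← D.pCoreOf_K s] at h1
  have h2 := Cfsg.Agent.Lib.Helper27Core.card_mul_relIndex
    (Cfsg.Agent.Lib.Helper55Core.pCoreOf_le (p := 2) (KX x))
  have hpos : 0 < Nat.card (pCoreOf 2 (KX x)) := Nat.card_pos
  apply Nat.eq_of_mul_eq_mul_left hpos
  rw [h2, ← h1, mul_comm]

theorem a_mem_J (D : XData T A B x a) : a ∈ JT T := Setup.relMax_le_J D.hA D.ha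

theorem commutator_K (s : Setup T) (D : XData T A B x a) : ⁅KX x, JT T⁆ = KX x := by
  apply le_antisymm (Cfsg.Agent.Lib.Helper55Act.commutator_le_left (D.J_le_normalizer_K s))
  set M : Subgroup G := ⁅KX x, JT T⁆ with hM
  have hxM : x ∈ M := by
    have h1 : ⁅x, a⁆ ∈ M := commutator_mem_commutator D.x_mem_K D.a_mem_J
    rw [D.comm_xa] at h1
    have h2 := mul_mem h1 h1
    rwa [D.x4] at h2
  have hQM : pCore 2 G ≤ normalizer (M : Set G) :=
    Cfsg.Agent.Lib.Helper55JStruct.le_normalizer_commutator Q_le_normalizer_K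
      (s.Q_le_T.trans (le_normalizer.trans (normalizer_le_normalizer_thompsonOf 2 T)))
  conv_lhs => unfold KX oddGen
  rw [closure_le]
  rintro g ⟨hg, hodd⟩
  have hg' : g ∈ M ⊔ pCore 2 G := (sup_le_sup_right (zpowers_le.2 hxM) _) hg
  exact Cfsg.Agent.Lib.Helper55JComp.mem_of_mem_sup_of_coprime hQM
    Cfsg.Agent.Lib.Helper55Core.isPGroup_pCore hg' (Nat.coprime_two_right.2 hodd) (pow_orderOf_eq_one g)

theorem K_le_sup (s : Setup T) (D : XData T A B x a) : KX x ≤ zpowers x ⊔ pCoreOf 2 (KX x) := by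
  intro k hk
  have h1 := oddGen_le _ hk
  rw [mem_sup_of_normal_right] at h1
  obtain ⟨z, hz, q, hq, rfl⟩ := h1
  have hzK : z ∈ KX x := (zpowers_le.2 D.x_mem_K) hz
  have hqK : q ∈ KX x := by
    have := mul_mem (inv_mem hzK) hk
    rwa [inv_mul_cancel_left] at this
  refine mul_mem (le_sup_left (b := pCoreOf 2 (KX x)) hz) (le_sup_right (a := zpowers x) ?_)
  rw [D.pCoreOf_K s]
  exact ⟨hqK, hq⟩

theorem A_inf (s : Setup T) (D : XData T A B x a) : A ⊓ CG G = A ⊓ pCore 2 G :=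
  le_antisymm (le_inf inf_le_left ((inf_le_inf_right _ D.hA.1).trans s.hCQ))
    (inf_le_inf_left _ Setup.Q_le_C)

theorem cfg (s : Setup T) (D : XData T A B x a) : Cfg (wOf (KX x)) (A ⊓ pCore 2 G) x a where
  hN := Cfsg.Agent.Lib.Helper14ElemAb.elemAb_mono
    (Cfsg.Agent.Lib.Helper55JStruct.wOf_le_omegaCenterOf _) (elemAb_omegaCenterOf _)
  hxN := Cfsg.Agent.Lib.Helper55JStruct.normalizer_le_normalizer_wOf _ (le_normalizer D.x_mem_K)
  haN := Cfsg.Agent.Lib.Helper55JStruct.normalizer_le_normalizer_wOf _ (D.J_le_normalizer_K s D.a_mem_J)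
  hAN := (inf_le_right.trans Q_le_normalizer_K).trans
    (Cfsg.Agent.Lib.Helper55JStruct.normalizer_le_normalizer_wOf _)
  hax := D.hax
  ha2 := D.ha2
  hx3 := D.hx3
  htau := tau_wOf D.x_mem_K (D.K_le_sup s) D.hx3
  hA := Cfsg.Agent.Lib.Helper14ElemAb.elemAb_mono inf_le_left D.hA.2.1
  haA := fun q hq => comm_of_elemAb D.hA.2.1 D.ha hq.1
  hqx := by
    intro q hq n hn
    have hc : x⁻¹ * q * x * q⁻¹ ∈ pCoreOf 2 (KX x) := by
      rw [D.pCoreOf_K s]
      refine mem_inf.2 ⟨?_, ?_⟩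
      · have h1 : q * x * q⁻¹ ∈ KX x :=
          Cfsg.Agent.Lib.Helper55Act.conj_mem_of_mem_normalizer (Q_le_normalizer_K hq.2) D.x_mem_K
        have e : x⁻¹ * q * x * q⁻¹ = x⁻¹ * (q * x * q⁻¹) := by group
        rw [e]; exact mul_mem (inv_mem D.x_mem_K) h1
      · have h1 := (inferInstance : (pCore 2 G).Normal).conj_mem q hq.2 x⁻¹
        rw [inv_inv] at h1
        exact mul_mem h1 (inv_mem hq.2)
    have hqn : q * n * q⁻¹ ∈ wOf (KX x) :=
      Cfsg.Agent.Lib.Helper55Act.conj_mem_of_mem_normalizer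
        (Cfsg.Agent.Lib.Helper55JStruct.normalizer_le_normalizer_wOf _ (Q_le_normalizer_K hq.2)) hn
    have h2 := (mem_centralizer_iff.1
      (Cfsg.Agent.Lib.Helper55JStruct.pCoreOf_le_centralizer_wOf _ hc)) _ hqn
    calc q * (x * n * x⁻¹) * q⁻¹
        = x * ((x⁻¹ * q * x * q⁻¹) * (q * n * q⁻¹)) * (x⁻¹ * q * x * q⁻¹)⁻¹ * x⁻¹ := by group
      _ = x * ((q * n * q⁻¹) * (x⁻¹ * q * x * q⁻¹)) * (x⁻¹ * q * x * q⁻¹)⁻¹ * x⁻¹ := by rw [h2]
      _ = _ := by group
  hmax := by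
    intro E hE
    have h1 := (s.relMax_mem D.hA).2 E hE
    have h2 := card_map_act (V := VG G) A
    rw [D.hAB, D.hB.hc, D.A_inf s] at h2
    rw [h2]; exact h1

theorem card_wOf (s : Setup T) (D : XData T A B x a) : Nat.card (wOf (KX x)) = 4 := by
  have hKB := D.map_K s
  set K : Subgroup G := KX x with hK
  set U : Subgroup G := ⁅VG G, K⁆ with hU
  have hUV : U ≤ VG G := commutator_le_left _ _
  have hVK : VG G ≤ normalizer (K : Set G) := s.V_le_Q.trans Q_le_normalizer_K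
  have hUK : U ≤ K := by
    rw [hU, commutator_comm]
    exact Cfsg.Agent.Lib.Helper55Act.commutator_le_left hVK
  have hpush : push (VG G) U = ⁅VV (VG G), Eof 2 (HG G) B⁆ := s.push_comm D.hB hKB
  have hcard : Nat.card U = 4 := by
    rw [← card_push hUV, hpush, D.hB.card_W s.ff]; norm_num
  have hUU : ⁅U, K⁆ = U := by
    apply eq_of_push_eq ((commutator_mono hUV le_rfl).trans (commutator_le_left _ _)) hUV
    rw [push_commutator hUV, hpush, hKB, D.hB.commutator_W_R s.ff]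
  have hKU : K ≤ normalizer (U : Set G) :=
    Cfsg.Agent.Lib.Helper55JStruct.le_normalizer_commutator (le_normalizer_of_normal' _ _)
      le_normalizer
  have hU2 : IsPGroup 2 U := (isPGroup_of_elemAb s.hV).to_le hUV
  have hUO : U ≤ pCoreOf 2 K := Cfsg.Agent.Lib.Helper55Core.le_pCoreOf hUK hKU hU2
  have hUZ : U ≤ omegaCenterOf (pCoreOf 2 K) := by
    intro u hu
    apply Cfsg.Agent.Lib.Helper55JStruct.mem_omegaCenterOf (hUO hu)
    · have h1 : VG G ≤ centralizer (pCoreOf 2 K : Set G) := by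
        rw [le_centralizer_iff, D.pCoreOf_K s]; exact inf_le_right.trans Setup.Q_le_C
      exact h1 (hUV hu)
    · have := s.hV.2 u (hUV hu)
      rw [← pow_two]
      exact this
  have hle : U ≤ wOf K := by
    conv_lhs => rw [← hUU]
    exact commutator_mono hUZ le_rfl
  apply le_antisymm (D.cfg s).card_le
  rw [← hcard]; exact card_le_of_le hle

/-- existence of the component -/
theorem isJComponent (s : Setup T) (D : XData T A B x a) : IsJComponent T (KX x) := by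
  refine ⟨oddGen_oddGen _, D.commutator_K s, D.relIndex_K s, ?_, D.card_wOf s, ?_⟩
  · intro S hS hJ
    exact s.thompson_eq_of_le hS.2.1 hJ
  · intro w hw
    exact Cfsg.Agent.Lib.Helper55JStruct.sq_of_mem_omegaCenterOf
      (Cfsg.Agent.Lib.Helper55JStruct.wOf_le_omegaCenterOf _ hw)

end XData

namespace Setup

variable [Finite G] {T : Subgroup G}

/-- K–S 12.1: every minimal offender in the image of a member of `𝒜(T)` comes from a component. -/
theorem exists_comp (s : Setup T) {A₀ : Subgroup G} (hA₀ : A₀ ∈ relMax 2 T)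
    {B : Subgroup (Hol (VG G))} (hB : FF.Base 2 (VV (VG G)) (HG G) B) (hBA : B ≤ A₀.map (ac G)) :
    ∃ K, IsJComponent T K ∧ K.map (ac G) = Rof 2 (HG G) B := by
  obtain ⟨A, hA, hAB⟩ := s.exists_relMax_map_eq hA₀ hB hBA
  obtain ⟨x, a, ha, hx3, hxR, hx1, hax⟩ := s.exists_inverted hA hB hAB
  have D : XData T A B x a := ⟨hA, hB, hAB, ha, hx3, hxR, hx1, hax⟩
  exact ⟨KX x, D.isJComponent s, D.map_K s⟩

/-- if `J(T)` is not contained in `O₂(G)`, there is a component. -/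
theorem exists_comp' (s : Setup T) (hJ : ¬ JT T ≤ pCore 2 G) : ∃ K, IsJComponent T K := by
  have h1 : ∃ A ∈ relMax 2 T, A.map (ac G) ≠ ⊥ := by
    by_contra hcon
    push Not at hcon
    apply hJ
    rw [JT, thompsonOf_eq]
    apply sSup_le
    intro A hA
    have h2 := hcon A hA
    rw [Subgroup.map_eq_bot_iff, ker_act] at h2
    exact (le_inf hA.1 h2).trans s.hCQ
  obtain ⟨A, hA, hne⟩ := h1
  obtain ⟨hle, hoff⟩ := s.map_relMax hA
  obtain ⟨k, F, hF, -, hsup⟩ := s.ff.exists_decomp _ (A.map (ac G)) rfl hle hoff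
  have hk : ∃ i : Fin k, True := by
    by_contra hcon
    push Not at hcon
    apply hne
    rw [← hsup, eq_bot_iff]
    exact iSup_le fun i => (hcon i).elim
  obtain ⟨i, -⟩ := hk
  have B : FF.Base 2 (VV (VG G)) (HG G) (F i) := ⟨(hF i).1.trans hle, (hF i).2.1, (hF i).2.2⟩
  obtain ⟨K, hK, -⟩ := s.exists_comp hA B (hF i).1
  exact ⟨K, hK⟩

end Setup

end Cfsg.Agent.Lib.Helper55JG
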