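import Cfsg.Agent.Lib.Helper55JM

set_option autoImplicit false

/-! Uniqueness of the maximal 2-local containing `⟨K, J(T)⟩` (Kurzweil–Stellmacher 12.1). -/

namespace Cfsg.Agent.Lib.Helper55JL

open Subgroup Cfsg Cfsg.Agent.Lib.Helper40Sylow Cfsg.Agent.Lib.Helper55Core
  Cfsg.Agent.Lib.Helper55JG Cfsg.Agent.Lib.Helper55JT Cfsg.Agent.Lib.Helper55JStruct
  Cfsg.Agent.Lib.Helper55JB Cfsg.Agent.Lib.Helper13Thompson2 Cfsg.Agent.Lib.Helper13Thompson
open scoped commutatorElement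

variable {G : Type*} [Group G] [Finite G] {M T T₁ T₂ L L₁ L₂ K K' : Subgroup G}

/-- the product of the four-groups of the components inside `L` -/
def WL (T L : Subgroup G) : Subgroup G :=
  ⨆ K : {K : Subgroup G // IsJComponent T K ∧ K ≤ L}, wOf (K : Subgroup G)

theorem ZN.eq_normalizer_WL (z : ZN G) (hT1 : T ≠ ⊥) (hLT : L ∈ jOvergroups T)
    (hmax : IsMaximalTwoLocal L) (hK : IsJComponent T K) (hKL : K ≤ L) :
    normalizer (WL T L : Set G) = L := by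
  apply hmax.2
  · obtain ⟨V, hV, hle⟩ := z.exists_wOf_le hT1 hLT
    refine ⟨WL T L, hV.to_le (iSup_le fun K' => hle _ K'.2.1 K'.2.2), ?_, rfl⟩
    intro h
    apply wOf_ne_bot hK
    rw [eq_bot_iff, ← h]
    exact le_iSup (fun K : {K : Subgroup G // IsJComponent T K ∧ K ≤ L} => wOf (K : Subgroup G))
      ⟨K, hK, hKL⟩
  · intro g hg
    rw [mem_normalizer_iff_cj]
    apply cj_eq_of_le
    unfold WL
    rw [cj, Subgroup.map_iSup]
    refine iSup_le fun K' => ?_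
    have h1 : IsJComponent T (cj g K'.1) := z.isJComponent_conj hT1 hLT K'.2.1 K'.2.2 hg
    have h2 : cj g K'.1 ≤ L := by
      rintro _ ⟨k, hk, rfl⟩
      exact mul_mem (mul_mem hg (K'.2.2 hk)) (inv_mem hg)
    have h3 : (wOf K'.1).map (MulAut.conj g).toMonoidHom = wOf (cj g K'.1) := (wOf_cj g K'.1).symm
    rw [h3]
    exact le_iSup (fun K : {K : Subgroup G // IsJComponent T K ∧ K ≤ L} => wOf (K : Subgroup G))
      ⟨cj g K'.1, h1, h2⟩

theorem WL_congr (h : thompsonSubgroupOf 2 T₁ = thompsonSubgroupOf 2 T₂)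
    (hL : ∀ K, IsJComponent T₁ K → (K ≤ L₁ ↔ K ≤ L₂)) : WL T₁ L₁ = WL T₂ L₂ := by
  apply le_antisymm
  · refine iSup_le fun K' => ?_
    exact le_iSup (fun K : {K : Subgroup G // IsJComponent T₂ K ∧ K ≤ L₂} => wOf (K : Subgroup G))
      ⟨K'.1, (isJComponent_congr h).1 K'.2.1, (hL _ K'.2.1).1 K'.2.2⟩
  · refine iSup_le fun K' => ?_
    have h1 := (isJComponent_congr h).2 K'.2.1
    exact le_iSup (fun K : {K : Subgroup G // IsJComponent T₁ K ∧ K ≤ L₁} => wOf (K : Subgroup G))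
      ⟨K'.1, h1, (hL _ h1).2 K'.2.2⟩

theorem ZN.le_normalizer_wOf_of_comp (z : ZN G) (hT1 : T ≠ ⊥) (hLT : L ∈ jOvergroups T)
    (hK : IsJComponent T K) (hKL : K ≤ L) (hK' : IsJComponent T K') (hK'L : K' ≤ L) :
    K' ≤ normalizer (wOf K : Set G) := by
  by_cases h : K = K'
  · rw [← h]
    exact le_sup_left.trans (X_le_normalizer_wOf hK)
  · exact (z.le_centralizer_wOf hT1 hLT hK hKL hK' hK'L h).trans (centralizer_le_normalizer _)

theorem ZN.maximal_unique (z : ZN G) (h1 : T₁ ≠ ⊥) (h2 : T₂ ≠ ⊥)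
    (hJ : thompsonSubgroupOf 2 T₁ = thompsonSubgroupOf 2 T₂)
    (hL₁ : L₁ ∈ jOvergroups T₁) (hL₂ : L₂ ∈ jOvergroups T₂) (hm₁ : IsMaximalTwoLocal L₁)
    (hm₂ : IsMaximalTwoLocal L₂) (hK : IsJComponent T₁ K) (hK₁ : K ≤ L₁)
    (hN : normalizer (wOf K : Set G) ≤ L₂) : L₁ = L₂ := by
  have hK' : IsJComponent T₂ K := (isJComponent_congr hJ).1 hK
  have hK₂ : K ≤ L₂ := (le_sup_left.trans (X_le_normalizer_wOf hK)).trans hN
  have h12 : ∀ K', IsJComponent T₁ K' → K' ≤ L₁ → K' ≤ L₂ := fun K' hc hle =>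
    (z.le_normalizer_wOf_of_comp h1 hL₁ hK hK₁ hc hle).trans hN
  have h21 : ∀ K', IsJComponent T₁ K' → K' ≤ L₂ → K' ≤ L₁ := by
    intro K'' hc hle
    rw [← z.eq_normalizer_WL h1 hL₁ hm₁ hK hK₁]
    apply Cfsg.Agent.Lib.Helper55FF.le_normalizer_iSup
    intro K'
    exact z.le_normalizer_wOf_of_comp h2 hL₂ ((isJComponent_congr hJ).1 K'.2.1)
      (h12 _ K'.2.1 K'.2.2) ((isJComponent_congr hJ).1 hc) hle
  rw [← z.eq_normalizer_WL h1 hL₁ hm₁ hK hK₁, ← z.eq_normalizer_WL h2 hL₂ hm₂ hK' hK₂,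
    WL_congr hJ (fun K' hc => ⟨h12 K' hc, h21 K' hc⟩)]

end Cfsg.Agent.Lib.Helper55JL
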