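import Cfsg.Agent.Lib.Helper55JE3
import Cfsg.Agent.Lib.Helper55JU

set_option autoImplicit false

/-! Existence of `J(T)`-components: ambient form. -/

namespace Cfsg.Agent.Lib.Helper55JL

open Subgroup Cfsg Cfsg.Agent.Lib.Helper40Sylow Cfsg.Agent.Lib.Helper55Core
  Cfsg.Agent.Lib.Helper55JG Cfsg.Agent.Lib.Helper55JT Cfsg.Agent.Lib.Helper55JStruct
  Cfsg.Agent.Lib.Helper55JB Cfsg.Agent.Lib.Helper13Thompson2 Cfsg.Agent.Lib.Helper13Thompson
open scoped commutatorElement

variable {G : Type*} [Group G] [Finite G] {M T T₀ L K : Subgroup G}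

theorem map_thompson_subgroupOf (hTL : T ≤ L) :
    (thompsonSubgroupOf 2 (T.subgroupOf L)).map L.subtype = thompsonSubgroupOf 2 T := by
  rw [← thompsonOf_map L.subtype_injective, subgroupOf_map_subtype, inf_eq_left.2 hTL]

theorem ZN.exists_comp (z : ZN G) (hT1 : T ≠ ⊥) (hLT : L ∈ jOvergroups T) :
    ∃ K, IsJComponent T K ∧ K ≤ L := by
  have s := z.setup hT1 hLT
  have hJ : ¬ JT (T.subgroupOf L) ≤ pCore 2 ↥L := by
    intro h
    apply hLT.2.1
    rw [← map_thompson_subgroupOf hLT.1.1]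
    exact map_mono h
  obtain ⟨K', hK'⟩ := s.exists_comp' hJ
  refine ⟨K'.map L.subtype, ?_, map_subtype_le _⟩
  rw [← isJComponent_map (f := L.subtype) L.subtype_injective, subgroupOf_map_subtype,
    inf_eq_left.2 hLT.1.1] at hK'
  exact hK'

end Cfsg.Agent.Lib.Helper55JL
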