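import Cfsg.Agent.Lib.Helper55JE4

set_option autoImplicit false
set_option linter.unusedSectionVars false

/-! Generation by `J(T)`-components (K–S 12.1) and components outside `M`. -/

namespace Cfsg.Agent.Lib.Helper55JG

open Subgroup Cfsg Cfsg.Agent.Lib.Helper55FF Cfsg.Agent.Lib.Helper55Hol
  Cfsg.Agent.Lib.Helper40Sylow Cfsg.Agent.Lib.Helper13Thompson2 Cfsg.Agent.Lib.Helper58Subnormal
  Cfsg.Agent.Lib.Helper55JT
open scoped commutatorElement

variable {G : Type*} [Group G]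

namespace Setup

variable [Finite G] {T : Subgroup G}

/-- `J(G) C_G(V)` is generated by the components, `J(T)` and `C_G(V)`. -/
theorem JC_le (s : Setup T) {M' : Subgroup G} (hK : ∀ K, IsJComponent T K → K ≤ M') (hJ : JT T ≤ M')
    (hC : CG G ≤ M') : JC 2 (VG G) ≤ M' := by
  set 𝓕 : Set (Subgroup (Hol (VG G))) :=
    {F | FF.Base 2 (VV (VG G)) (HG G) F ∧ ∃ A ∈ relMax 2 T, F ≤ A.map (ac G)} with h𝓕
  set H₀ : Subgroup (Hol (VG G)) := ⨆ F : 𝓕, Eof 2 (HG G) (F : Subgroup (Hol (VG G))) with hH₀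
  have hnorm : HG G ≤ normalizer (H₀ : Set (Hol (VG G))) :=
    le_normalizer_iSup (fun F => F.2.1.H_le_normalizer_E s.ff s.hS3)
  have hJH : (JT T).map (ac G) ≤ H₀ := by
    rw [JT, thompsonOf_eq, map_le_iff_le_comap]
    apply sSup_le
    intro A hA
    rw [← map_le_iff_le_comap]
    obtain ⟨hle, hoff⟩ := s.map_relMax hA
    obtain ⟨k, F, hF, -, hsup⟩ := s.ff.exists_decomp _ (A.map (ac G)) rfl hle hoff
    rw [← hsup]
    refine iSup_le fun i => ?_
    have B : FF.Base 2 (VV (VG G)) (HG G) (F i) := ⟨(hF i).1.trans hle, (hF i).2.1, (hF i).2.2⟩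
    exact le_sup_right.trans
      (le_iSup (fun F : 𝓕 => Eof 2 (HG G) (F : Subgroup (Hol (VG G)))) ⟨F i, B, A, hA, (hF i).1⟩)
  have hH₀M : H₀ ≤ M'.map (ac G) := by
    refine iSup_le fun F => ?_
    obtain ⟨hB, A, hA, hFA⟩ := F.2
    obtain ⟨K, hKc, hKm⟩ := s.exists_comp hA hB hFA
    apply sup_le
    · exact hKm.symm.le.trans (map_mono (hK K hKc))
    · exact hFA.trans (map_mono ((relMax_le_J hA).trans hJ))
  set D : Subgroup G := H₀.comap (ac G) with hD
  have hDM : D ≤ M' := by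
    have : D ≤ (M'.map (ac G)).comap (ac G) := comap_mono hH₀M
    rwa [← sup_C_eq, sup_eq_left.2 hC] at this
  have hJD : JT T ≤ D := map_le_iff_le_comap.1 hJH
  have hJCD : JC 2 (VG G) ≤ normalizer (D : Set G) := le_normalizer_comap hnorm
  refine le_trans (sup_le ?_ ?_) hDM
  · unfold thompsonSubgroup
    apply sSup_le
    intro A' hA'
    obtain ⟨g, -, hg⟩ := s.hT.exists_conj_le (isPGroup_of_elemAb hA'.1) le_top
    have hA'' : cj g A' ∈ relMax 2 T :=
      ⟨hg, Cfsg.Agent.Lib.Helper13Thompson.el_map hA'.1 _, fun E _ hE => by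
        rw [card_cj]; exact hA'.2 E hE⟩
    obtain ⟨x, hx, n, hn, hgx⟩ := s.exists_mul g⁻¹
    have h1 : cj n (cj g A') ≤ D := by
      refine le_trans (cj_mono (relMax_le_J hA'')) ?_
      rw [mem_normalizer_iff_cj.1 hn]; exact hJD
    have h2 : A' = cj x (cj n (cj g A')) := by
      rw [← cj_mul, ← hgx, cj_inv_cj]
    rw [h2, ← mem_normalizer_iff_cj.1 (hJCD hx)]
    exact cj_mono h1
  · intro c hc
    show ac G c ∈ H₀
    rw [act_eq_one_iff.2 hc]; exact one_mem _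

theorem eq_top (s : Setup T) {M' : Subgroup G} (hK : ∀ K, IsJComponent T K → K ≤ M')
    (hC : CG G ≤ M') (hN : normalizer (JT T : Set G) ≤ M') : M' = ⊤ := by
  rw [eq_top_iff]
  intro g _
  obtain ⟨x, hx, n, hn, rfl⟩ := s.exists_mul g
  exact mul_mem (s.JC_le hK (le_normalizer.trans hN) hC hx) (hN hn)

end Setup

end Cfsg.Agent.Lib.Helper55JG

namespace Cfsg.Agent.Lib.Helper55JL

open Subgroup Cfsg Cfsg.Agent.Lib.Helper40Sylow Cfsg.Agent.Lib.Helper55Core
  Cfsg.Agent.Lib.Helper55JG Cfsg.Agent.Lib.Helper55JT Cfsg.Agent.Lib.Helper55JStruct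
  Cfsg.Agent.Lib.Helper55JB Cfsg.Agent.Lib.Helper13Thompson2 Cfsg.Agent.Lib.Helper13Thompson
open scoped commutatorElement

variable {G : Type*} [Group G] [Finite G] {M T T₀ L K : Subgroup G}

/-- `C_L(V_L)` normalizes every Sylow 2-subgroup of `G` containing `T`. -/
theorem ZN.CL_le_normalizer (z : ZN G) (hLT : L ∈ jOvergroups T) (S₀ : Sylow 2 G)
    (hTS : T ≤ (S₀ : Subgroup G)) :
    (centralizer (VG ↥L : Set ↥L)).map L.subtype ≤ normalizer ((S₀ : Subgroup G) : Set G) := by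
  obtain ⟨hSyl, -, hC⟩ := hLT
  rw [isSylowTwoIn_iff] at hSyl
  have hOT : pCoreOf 2 L ≤ T :=
    le_of_isSylowIn_of_normal hSyl (pCoreOf_le L) (le_normalizer_pCoreOf L) (isPGroup_pCoreOf L)
  have hZO : omegaCenterOf (S₀ : Subgroup G) ≤ pCoreOf 2 L := by
    refine le_trans ?_ hC
    exact ((omegaCenterOf_le _).trans inf_le_right).trans (centralizer_le (hOT.trans hTS))
  set X : Subgroup G := (VG ↥L).map L.subtype with hX
  have hZX : omegaCenterOf (S₀ : Subgroup G) ≤ X := by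
    conv_lhs => unfold omegaCenterOf omegaOne
    rw [closure_le]
    rintro x ⟨hx1, hx2⟩
    have hxO : x ∈ pCoreOf 2 L := hZO (Subgroup.subset_closure ⟨hx1, hx2⟩)
    have hxT : x ∈ T := hOT hxO
    have hxL : x ∈ L := hSyl.1 hxT
    refine ⟨⟨x, hxL⟩, ?_, rfl⟩
    have h1 : omegaOne 2 ((hSyl.toSylow : Subgroup ↥L) ⊓
        centralizer ((hSyl.toSylow : Subgroup ↥L) : Set ↥L)) ≤ VG ↥L :=
      le_iSup (fun S : Sylow 2 ↥L => omegaOne 2 ((S : Subgroup ↥L) ⊓
        centralizer ((S : Subgroup ↥L) : Set ↥L))) hSyl.toSylow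
    apply h1
    apply Subgroup.subset_closure
    refine ⟨Subgroup.mem_inf.2 ⟨hxT, ?_⟩, Subtype.ext hx2⟩
    rw [mem_centralizer_iff]
    intro y hy
    apply Subtype.ext
    exact (mem_centralizer_iff.1 hx1.2) y (hTS hy)
  have hCLX : (centralizer (VG ↥L : Set ↥L)).map L.subtype ≤ centralizer (X : Set G) := by
    rintro _ ⟨c, hc, rfl⟩
    rw [mem_centralizer_iff]
    rintro _ ⟨v, hv, rfl⟩
    exact congrArg Subtype.val ((mem_centralizer_iff.1 hc) v hv)
  exact (hCLX.trans (centralizer_le hZX)).trans (z.hZ S₀)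

/-- a Sylow 2-subgroup of `G` containing `T` whose normalizer lies in `M`. -/
theorem exists_sylow_ge (S : Sylow 2 G)
    (hMJ : normalizer (thompsonSubgroupOf 2 (S : Subgroup G) : Set G) ≤ M)
    (hT2 : IsPGroup 2 T) (hTM : T ≤ M) :
    ∃ S₁ : Sylow 2 G, T ≤ (S₁ : Subgroup G) ∧ normalizer ((S₁ : Subgroup G) : Set G) ≤ M := by
  have hSN : normalizer ((S : Subgroup G) : Set G) ≤ M :=
    (normalizer_le_normalizer_thompsonOf 2 _).trans hMJ
  have hSM : (S : Subgroup G) ≤ M := le_normalizer.trans hSN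
  obtain ⟨m, hm, hle⟩ := (isSylowIn_of_le S hSM).exists_conj_le hT2 hTM
  rw [cj_le_iff] at hle
  have hMm : cj m⁻¹ M = M := cj_eq_self_of_mem (inv_mem hm)
  refine ⟨m⁻¹ • S, ?_, ?_⟩
  · rw [sylow_smul_eq_cj]; exact hle
  · rw [sylow_smul_eq_cj, normalizer_cj, ← hMm]
    exact cj_mono hSN

theorem ZN.exists_comp_not_le (z : ZN G) (S : Sylow 2 G)
    (hMJ : normalizer (thompsonSubgroupOf 2 (S : Subgroup G) : Set G) ≤ M)
    (hT : T ∈ maxStraddlingTwoSubgroups M) (hL2 : IsTwoLocal L) (hLM : ¬ L ≤ M) (hTL : T ≤ L) :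
    L ∈ jOvergroups T ∧ ∃ K, IsJComponent T K ∧ K ≤ L ∧ ¬ K ≤ M := by
  have hNJ := normalizer_J_le S hMJ hT
  have h2 := isSylowIn_of_le_local hNJ hT hL2 hLM hTL
  have hLT := z.mem_jOvergroups hNJ hT hL2 hLM h2 (thompsonOf_le_self 2 T)
  refine ⟨hLT, ?_⟩
  have s := z.setup hT.1.2.1 hLT
  by_contra hcon
  push Not at hcon
  apply hLM
  rw [← subgroupOf_eq_top]
  apply s.eq_top
  · intro K' hK'
    rw [← isJComponent_map (f := L.subtype) L.subtype_injective, subgroupOf_map_subtype,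
      inf_eq_left.2 hTL] at hK'
    have h3 := hcon _ hK' (map_subtype_le _)
    intro k hk
    exact h3 ⟨k, hk, rfl⟩
  · obtain ⟨S₁, hTS₁, hS₁M⟩ := exists_sylow_ge S hMJ hT.1.1 hT.1.2.2.1
    have h3 := (z.CL_le_normalizer hLT S₁ hTS₁).trans hS₁M
    intro c hc
    exact h3 ⟨c, hc, rfl⟩
  · intro n hn
    apply hNJ
    rw [← map_thompson_subgroupOf hTL]
    exact map_le_normalizer_map (f := L.subtype) (le_refl _) ⟨n, hn, rfl⟩

end Cfsg.Agent.Lib.Helper55JL
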