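import Cfsg.Agent.Lib.Helper55Hol3
import Cfsg.Agent.Lib.Helper55FF7
import Cfsg.Agent.Lib.Helper55JStruct
import Cfsg.Agent.Lib.Helper40Chief
import Cfsg.Agent.S0600
import Cfsg.Agent.S0601

set_option autoImplicit false

/-! `J(T)`-components in a solvable group of characteristic 2 (Kurzweil–Stellmacher 12.1). -/

namespace Cfsg.Agent.Lib.Helper55JG

open Subgroup Cfsg Cfsg.Agent.Lib.Helper55FF Cfsg.Agent.Lib.Helper55Hol
  Cfsg.Agent.Lib.Helper40Sylow Cfsg.Agent.Lib.Helper13Thompson2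
open scoped commutatorElement

variable {G : Type*} [Group G]

/-- the normal closure of `Ω₁(Z(S))` -/
def VG (G : Type*) [Group G] : Subgroup G :=
  ⨆ S : Sylow 2 G, omegaOne 2 ((S : Subgroup G) ⊓ centralizer ((S : Subgroup G) : Set G))

instance VG_normal : (VG G).Normal := iSup_Om_normal 2

abbrev CG (G : Type*) [Group G] : Subgroup G := centralizer (VG G : Set G)
abbrev ac (G : Type*) [Group G] : G →* Hol (VG G) := act (VG G)
abbrev HG (G : Type*) [Group G] : Subgroup (Hol (VG G)) := (JC 2 (VG G)).map (act (VG G))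
abbrev JT (T : Subgroup G) : Subgroup G := thompsonSubgroupOf 2 T

structure Setup (T : Subgroup G) : Prop where
  hsol : IsPSolvable 2 G
  hT : IsSylowIn 2 T ⊤
  hc : centralizer (pCore 2 G : Set G) ≤ pCore 2 G
  hCT : ∀ c ∈ centralizer (VG G : Set G), ∀ t ∈ T, ⁅c, t⁆ ∈ pCore 2 G
  hCQ : T ⊓ centralizer (VG G : Set G) ≤ pCore 2 G

theorem le_normalizer_of_normal' (A N : Subgroup G) [N.Normal] : A ≤ normalizer (N : Set G) := by
  rw [normalizer_eq_top]; exact le_top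

namespace Setup

variable [Finite G] {T : Subgroup G}

theorem hV (s : Setup T) : IsElementaryAbelian 2 (VG G) := (Cfsg.Agent.S0601.result s.hc).2.1

theorem hO (s : Setup T) : pCore 2 (G ⧸ CG G) = ⊥ := by
  apply Cfsg.Agent.S0600.result (VG G) s.hV
  apply le_antisymm
  · conv_lhs => rw [VG]
    refine iSup_le fun S => le_trans ?_
      (le_iSup (fun S : Sylow 2 G => VG G ⊓ centralizer ((S : Subgroup G) : Set G)) S)
    refine le_inf (le_iSup (fun S : Sylow 2 G =>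
      omegaOne 2 ((S : Subgroup G) ⊓ centralizer ((S : Subgroup G) : Set G))) S) ?_
    exact (Om_le 2 (S : Subgroup G)).trans inf_le_right
  · exact iSup_le fun S => inf_le_left

theorem ff (s : Setup T) : FF 2 (VV (VG G)) (HG G) := FF_thompson s.hsol s.hV s.hO

theorem hS3 (s : Setup T) : HG G = ⨆ A' : {A' : Subgroup (Hol (VG G)) // A' ≤ HG G ∧
    IsBestOffenderOn 2 (VV (VG G)) A'}, (A' : Subgroup (Hol (VG G))) := hS3_thompson s.hV

theorem Q_le_T (s : Setup T) : pCore 2 G ≤ T :=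
  Cfsg.Agent.Lib.Helper55JStruct.le_of_isSylowIn_of_normal s.hT le_top
    (le_normalizer_of_normal' _ _) Cfsg.Agent.Lib.Helper55Core.isPGroup_pCore

omit [Finite G] in
theorem Q_le_C [Finite G] : pCore 2 G ≤ CG G := by
  rw [le_centralizer_iff]
  refine iSup_le fun S => ((Om_le 2 (S : Subgroup G)).trans inf_le_right).trans ?_
  exact centralizer_le (Cfsg.Agent.Lib.Helper55Core.pCore_le_sylow S)

theorem relMax_mem (s : Setup T) {A : Subgroup G} (hA : A ∈ relMax 2 T) :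
    A ∈ maxElementaryAbelianSubgroups 2 G := by
  refine ⟨hA.2.1, fun D hD => ?_⟩
  obtain ⟨x, -, hx⟩ := s.hT.exists_conj_le (isPGroup_of_elemAb hD) le_top
  rw [← card_cj x D]
  exact hA.2.2 _ hx (Cfsg.Agent.Lib.Helper13Thompson.el_map hD _)

theorem J_le (s : Setup T) : JT T ≤ thompsonSubgroup 2 G := by
  rw [JT, thompsonOf_eq]
  exact sSup_le fun A hA => le_sSup (s.relMax_mem hA)

theorem JG_normal : (thompsonSubgroup 2 G).Normal := by
  haveI : (thompsonSubgroup 2 G).Characteristic := (Cfsg.Agent.S0602.result (G := G) (p := 2)).1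
  infer_instance

theorem comm_conj (s : Setup T) {c : G} (hc : c ∈ CG G) (g : G) {t : G} (ht : t ∈ T) :
    ⁅c, g * t * g⁻¹⁆ ∈ pCore 2 G := by
  have h1 : g⁻¹ * c * g ∈ CG G := by
    have := (inferInstance : (CG G).Normal).conj_mem c hc g⁻¹
    simpa using this
  have h2 := (inferInstance : (pCore 2 G).Normal).conj_mem _ (s.hCT _ h1 t ht) g
  have e : g * ⁅g⁻¹ * c * g, t⁆ * g⁻¹ = ⁅c, g * t * g⁻¹⁆ := by
    simp only [commutatorElement_def]; group
  rwa [e] at h2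

/-- `[C, P] ≤ Q` for every 2-subgroup `P`. -/
theorem commutator_C_le (s : Setup T) {P : Subgroup G} (hP : IsPGroup 2 P) :
    ⁅CG G, P⁆ ≤ pCore 2 G := by
  obtain ⟨x, -, hx⟩ := s.hT.exists_conj_le hP le_top
  rw [commutator_le]
  intro c hc a ha
  have h1 : x * a * x⁻¹ ∈ T := hx (conj_mem_cj ha)
  have h2 := s.comm_conj hc x⁻¹ h1
  have e : x⁻¹ * (x * a * x⁻¹) * x⁻¹⁻¹ = a := by group
  rwa [e] at h2

theorem commutator_C_JG (s : Setup T) : ⁅CG G, thompsonSubgroup 2 G⁆ ≤ pCore 2 G := by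
  apply Cfsg.Agent.Lib.Helper55Act.commutator_le_of_le_actTriv
  unfold thompsonSubgroup
  apply sSup_le
  intro A hA
  exact Cfsg.Agent.Lib.Helper55Act.le_actTriv (le_normalizer_of_normal' _ _)
    (s.commutator_C_le (isPGroup_of_elemAb hA.1))

/-- 2-subgroups of `C` lie in `Q`. -/
theorem le_Q_of_le_C (s : Setup T) {P : Subgroup G} (hP : IsPGroup 2 P) (hPC : P ≤ CG G) :
    P ≤ pCore 2 G := by
  obtain ⟨x, -, hx⟩ := s.hT.exists_conj_le hP le_top
  intro a ha
  have h1 : x * a * x⁻¹ ∈ T := hx (conj_mem_cj ha)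
  have h2 : x * a * x⁻¹ ∈ CG G := (inferInstance : (CG G).Normal).conj_mem a (hPC ha) x
  have h3 := s.hCQ ⟨h1, h2⟩
  have h4 := (inferInstance : (pCore 2 G).Normal).conj_mem _ h3 x⁻¹
  have e : x⁻¹ * (x * a * x⁻¹) * x⁻¹⁻¹ = a := by group
  rwa [e] at h4

theorem map_le_HG {A : Subgroup G} (hA : A ≤ thompsonSubgroup 2 G) : A.map (ac G) ≤ HG G :=
  map_mono (hA.trans le_sup_left)

end Setup

/-- local form of S2941 -/
theorem le_normalizer_comp [Finite G] {T K : Subgroup G} (hT : IsPGroup 2 ↥T) (hK : IsJComponent T K)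
    (Q : Subgroup G) (hQ1 : K ≤ normalizer (Q : Set G)) (hQ2 : Q ≤ normalizer (JT T : Set G)) :
    Q ≤ normalizer (K : Set G) := by
  set J := JT T with hJ
  have hJ2 : IsPGroup 2 ↥J := hT.to_le (Cfsg.Agent.Lib.Helper55JComp.thompsonSubgroupOf_le 2 T)
  obtain ⟨hK1, hK2, -⟩ := hK
  have hJK : J ≤ normalizer (K : Set G) := by
    have := Cfsg.Agent.Lib.Helper55Core.le_normalizer_commutator_right K J
    rwa [hK2] at this
  have h2 : ∀ q ∈ Q, ∀ x ∈ K, q * x * q⁻¹ ∈ K ⊔ J := by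
    intro q hq
    have h3 : (⁅K, J⁆).map (MulAut.conj q).toMonoidHom ≤ K ⊔ J := by
      rw [Subgroup.commutator_def, MonoidHom.map_closure, closure_le]
      rintro _ ⟨_, ⟨k, hk, j, hj, rfl⟩, rfl⟩
      have hq' : k⁻¹ * q * k ∈ Q := (mem_normalizer_iff''.1 (hQ1 hk) q).1 hq
      have h4 : (k⁻¹ * q * k) * j * (k⁻¹ * q * k)⁻¹ ∈ J := (le_normalizer_iff.1 hQ2) _ hq' j hj
      have h5 : q * j⁻¹ * q⁻¹ ∈ J := (le_normalizer_iff.1 hQ2) _ hq _ (J.inv_mem hj)
      have e : (MulAut.conj q).toMonoidHom ⁅k, j⁆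
          = k * ((k⁻¹ * q * k) * j * (k⁻¹ * q * k)⁻¹) * k⁻¹ * (q * j⁻¹ * q⁻¹) := by
        simp only [MulEquiv.coe_toMonoidHom, MulAut.conj_apply, commutatorElement_def]
        group
      rw [e]
      have hkS : k ∈ K ⊔ J := le_sup_left (b := J) hk
      exact (K ⊔ J).mul_mem ((K ⊔ J).mul_mem ((K ⊔ J).mul_mem hkS (le_sup_right (a := K) h4))
        ((K ⊔ J).inv_mem hkS)) (le_sup_right (a := K) h5)
    intro x hx
    rw [hK2] at h3
    exact h3 ⟨x, hx, rfl⟩
  rw [le_normalizer_iff]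
  intro q hq
  have h6 : K.map (MulAut.conj q).toMonoidHom ≤ K := by
    conv_lhs => rw [← hK1]
    rw [MonoidHom.map_closure, closure_le]
    rintro _ ⟨g, ⟨hgK, hgodd⟩, rfl⟩
    have h7 : q * g * q⁻¹ ∈ K ⊔ J := h2 q hq g hgK
    have h8 : (q * g * q⁻¹) ^ orderOf g = 1 := by
      rw [conj_pow, pow_orderOf_eq_one]; simp
    exact Cfsg.Agent.Lib.Helper55JComp.mem_of_mem_sup_of_coprime hJK hJ2 h7
      (Nat.coprime_two_right.2 hgodd) h8
  intro x hx
  exact h6 ⟨x, hx, rfl⟩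

/-- a subgroup generated by odd order elements inside `K ⊔ P`, `P` a 2-group normalizing `K`. -/
theorem le_of_le_sup {K K' P : Subgroup G} (hP : IsPGroup 2 P) (hPK : P ≤ normalizer (K : Set G))
    (hK' : closure {g : G | g ∈ K' ∧ Odd (orderOf g)} = K') (hle : K' ≤ K ⊔ P) : K' ≤ K := by
  conv_lhs => rw [← hK']
  rw [closure_le]
  rintro g ⟨hg, hodd⟩
  exact Cfsg.Agent.Lib.Helper55JComp.mem_of_mem_sup_of_coprime hPK hP (hle hg)
    (Nat.coprime_two_right.2 hodd) (pow_orderOf_eq_one g)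

namespace Setup

variable [Finite G] {T K : Subgroup G}

theorem hT2 (s : Setup T) : IsPGroup 2 T := s.hT.2.1

theorem K_le_JG (s : Setup T) (hK : IsJComponent T K) : K ≤ thompsonSubgroup 2 G := by
  haveI := JG_normal (G := G)
  conv_lhs => rw [← hK.2.1]
  exact (commutator_mono le_rfl s.J_le).trans (commutator_le_right _ _)

theorem map_K_le_Qof (s : Setup T) (hK : IsJComponent T K) : K.map (ac G) ≤ Qof 2 (HG G) := by
  conv_lhs => rw [← hK.1]
  rw [MonoidHom.map_closure, closure_le]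
  rintro _ ⟨g, ⟨hgK, hodd⟩, rfl⟩
  have h1 : ac G g ∈ HG G := map_le_HG (s.K_le_JG hK) ⟨g, hgK, rfl⟩
  have h2 := s.ff.pow_mem_Qof s.hS3 h1
  obtain ⟨m, hm⟩ := hodd
  have h3 : ac G g = (ac G g ^ 2) ^ (m + 1) := by
    rw [← pow_mul, ← map_pow]
    have : g ^ (2 * (m + 1)) = g := by
      have e : 2 * (m + 1) = orderOf g + 1 := by omega
      rw [e, pow_succ, pow_orderOf_eq_one, one_mul]
    rw [this]
  show ac G g ∈ Qof 2 (HG G)
  rw [h3]
  exact pow_mem h2 _

theorem pCoreOf_le_C (s : Setup T) (hK : IsJComponent T K) : pCoreOf 2 K ≤ CG G := by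
  intro x hx
  rw [← act_eq_one_iff]
  exact eq_one_of_mem_of_coprime (A := (pCoreOf 2 K).map (ac G))
    ((Cfsg.Agent.Lib.Helper55Core.isPGroup_pCoreOf K).map _) (card_Qof_coprime 2 (HG G))
    ⟨x, hx, rfl⟩ (s.map_K_le_Qof hK ⟨x, Cfsg.Agent.Lib.Helper55Core.pCoreOf_le K hx, rfl⟩)

theorem pCoreOf_le_Q (s : Setup T) (hK : IsJComponent T K) : pCoreOf 2 K ≤ pCore 2 G :=
  s.le_Q_of_le_C (Cfsg.Agent.Lib.Helper55Core.isPGroup_pCoreOf K) (s.pCoreOf_le_C hK)

theorem not_isPGroup_comp (hK : IsJComponent T K) : ¬ IsPGroup 2 K := by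
  intro h
  have h1 : K ≤ pCoreOf 2 K := Cfsg.Agent.Lib.Helper55Core.le_pCoreOf le_rfl le_normalizer h
  have h2 := relIndex_eq_one.2 h1
  rw [hK.2.2.1] at h2
  omega

theorem not_K_le_C (s : Setup T) (hK : IsJComponent T K) : ¬ K ≤ CG G := by
  intro h
  apply not_isPGroup_comp hK
  have h1 : K ≤ pCore 2 G := by
    conv_lhs => rw [← hK.2.1]
    exact (commutator_mono h le_rfl).trans
      (s.commutator_C_le (s.hT2.to_le (Cfsg.Agent.Lib.Helper55JComp.thompsonSubgroupOf_le 2 T)))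
  exact Cfsg.Agent.Lib.Helper55Core.isPGroup_pCore.to_le h1

theorem card_map_K (s : Setup T) (hK : IsJComponent T K) : Nat.card (K.map (ac G)) = 3 := by
  have h1 := card_map_act (V := VG G) K
  have h2 := Cfsg.Agent.Lib.Helper27Core.card_mul_relIndex
    (Cfsg.Agent.Lib.Helper55Core.pCoreOf_le (p := 2) K)
  rw [hK.2.2.1] at h2
  have h3 : Nat.card (pCoreOf 2 K) ∣ Nat.card ↥(K ⊓ CG G) :=
    card_dvd_of_le (le_inf (Cfsg.Agent.Lib.Helper55Core.pCoreOf_le K) (s.pCoreOf_le_C hK))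
  obtain ⟨k, hk⟩ := h3
  have hpos : 0 < Nat.card (pCoreOf 2 K) := Nat.card_pos
  have h4 : Nat.card (K.map (ac G)) * k = 3 := by
    have : Nat.card (pCoreOf 2 K) * (Nat.card (K.map (ac G)) * k) = Nat.card (pCoreOf 2 K) * 3 := by
      rw [h2, ← h1, hk]; ring
    exact Nat.eq_of_mul_eq_mul_left hpos this
  have h5 : Nat.card (K.map (ac G)) ∣ 3 := ⟨k, h4.symm⟩
  rcases (Nat.dvd_prime Nat.prime_three).1 h5 with h6 | h6
  · exfalso
    apply s.not_K_le_C hK
    intro x hx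
    rw [← act_eq_one_iff]
    have h7 := (Subgroup.card_eq_one).1 h6
    have h8 : ac G x ∈ K.map (ac G) := ⟨x, hx, rfl⟩
    rw [h7] at h8
    exact h8
  · exact h6

theorem J_le_normalizer (hK : IsJComponent T K) : JT T ≤ normalizer (K : Set G) :=
  Cfsg.Agent.Lib.Helper55JStruct.J_le_normalizer hK

/-- `[K, C] ≤ Q`. -/
theorem commutator_K_C (s : Setup T) (hK : IsJComponent T K) : ⁅K, CG G⁆ ≤ pCore 2 G := by
  have hJ2 : IsPGroup 2 (JT T) := s.hT2.to_le (Cfsg.Agent.Lib.Helper55JComp.thompsonSubgroupOf_le 2 T)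
  have h := Cfsg.Agent.Lib.Helper40Chief.three_subgroups_mod (pCore 2 G) K (JT T) (CG G)
    (le_normalizer_of_normal' _ _) (le_normalizer_of_normal' _ _) (le_normalizer_of_normal' _ _)
    ?_ ?_
  · rwa [hK.2.1] at h
  · have h1 : ⁅JT T, CG G⁆ ≤ pCore 2 G := by
      rw [commutator_comm]; exact s.commutator_C_le hJ2
    exact (commutator_mono h1 le_rfl).trans (commutator_le_left _ _)
  · have h1 : ⁅CG G, K⁆ ≤ CG G := commutator_le_left _ _
    exact (commutator_mono h1 le_rfl).trans (s.commutator_C_le hJ2)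

theorem Q_le_normalizer (s : Setup T) (hK : IsJComponent T K) :
    pCore 2 G ≤ normalizer (K : Set G) :=
  le_normalizer_comp s.hT2 hK _ (le_normalizer_of_normal' _ _)
    (s.Q_le_T.trans (le_normalizer.trans (normalizer_le_normalizer_thompsonOf 2 T)))

end Setup

end Cfsg.Agent.Lib.Helper55JG
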