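import Cfsg.Agent.Lib.Helper55JG
import Cfsg.Agent.Lib.Helper55Hol4

set_option autoImplicit false

/-! `J(T)`-components in a solvable group of characteristic 2, II: identification with the
structure theorem, subnormality, uniqueness. -/

namespace Cfsg.Agent.Lib.Helper55JG

open Subgroup Cfsg Cfsg.Agent.Lib.Helper55FF Cfsg.Agent.Lib.Helper55Hol
  Cfsg.Agent.Lib.Helper40Sylow Cfsg.Agent.Lib.Helper13Thompson2 Cfsg.Agent.Lib.Helper58Subnormal
open scoped commutatorElement

theorem card_R {X : Type*} [Group X] [Finite X] {V H A : Subgroup X} (h : FF 2 V H)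
    (B : FF.Base 2 V H A) : Nat.card (Rof 2 H A) = 3 := by
  have h1 := B.card_E_eq h
  rw [B.card_E h, card_SL2'] at h1
  omega

variable {G : Type*} [Group G]

namespace Setup

variable [Finite G] {T K K' : Subgroup G}

theorem map_relMax (s : Setup T) {A : Subgroup G} (hA : A ∈ relMax 2 T) :
    A.map (ac G) ≤ HG G ∧ IsBestOffenderOn 2 (VV (VG G)) (A.map (ac G)) :=
  ⟨map_le_HG (le_sSup (s.relMax_mem hA)),
    bestOffender_map (Cfsg.Agent.S0606.result (VG G) s.hV A (s.relMax_mem hA))⟩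

theorem relMax_le_J {A : Subgroup G} (hA : A ∈ relMax 2 T) : A ≤ JT T := by
  rw [JT, thompsonOf_eq]; exact le_sSup hA

/-- the image of a `J(T)`-component is `[O(H), B]` for a minimal offender `B` in the image of `J(T)`. -/
theorem exists_base (s : Setup T) (hK : IsJComponent T K) :
    ∃ A B, A ∈ relMax 2 T ∧ FF.Base 2 (VV (VG G)) (HG G) B ∧ B ≤ A.map (ac G) ∧
      K.map (ac G) = Rof 2 (HG G) B := by
  by_contra hcon
  push Not at hcon
  have hJK : JT T ≤ (centralizer (K.map (ac G) : Set (Hol (VG G)))).comap (ac G) := by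
    rw [JT, thompsonOf_eq]
    apply sSup_le
    intro A hA
    rw [← map_le_iff_le_comap]
    obtain ⟨hle, hoff⟩ := s.map_relMax hA
    obtain ⟨k, F, hF, -, hsup⟩ := s.ff.exists_decomp _ (A.map (ac G)) rfl hle hoff
    rw [← hsup]
    refine iSup_le fun i => ?_
    have B : FF.Base 2 (VV (VG G)) (HG G) (F i) := ⟨(hF i).1.trans hle, (hF i).2.1, (hF i).2.2⟩
    have hne := hcon A (F i) hA B (hF i).1
    by_contra hnc
    apply hne
    -- some commutator is nontrivial
    have h1 : ¬ ⁅K.map (ac G), F i⁆ = ⊥ := by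
      intro h
      rw [commutator_eq_bot_iff_le_centralizer, le_centralizer_iff] at h
      exact hnc h
    have hFN : F i ≤ normalizer (K.map (ac G) : Set (Hol (VG G))) := by
      refine ((hF i).1.trans (map_mono (relMax_le_J hA))).trans ?_
      apply Cfsg.Agent.Lib.Helper55Act.le_normalizer_of_conj_mem
      rintro _ ⟨j, hj, rfl⟩ _ ⟨x, hx, rfl⟩
      exact ⟨j * x * j⁻¹, Cfsg.Agent.Lib.Helper55Act.conj_mem_of_mem_normalizer
        (J_le_normalizer hK hj) hx, by simp⟩
    have h2 : ⁅K.map (ac G), F i⁆ ≤ K.map (ac G) ⊓ Rof 2 (HG G) (F i) :=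
      le_inf (Cfsg.Agent.Lib.Helper55Act.commutator_le_left hFN)
        (commutator_mono (s.map_K_le_Qof hK) le_rfl)
    have h3 : K.map (ac G) ≤ Rof 2 (HG G) (F i) := by
      by_contra h4
      have h5 := inf_eq_bot_of_card_prime (p := 3) (s.card_map_K hK) h4
      rw [h5, le_bot_iff] at h2
      exact h1 h2
    exact Subgroup.eq_of_le_of_card_ge h3 (by rw [s.card_map_K hK, card_R s.ff B])
  apply s.not_K_le_C hK
  have h1 : ⁅K, JT T⁆.map (ac G) = ⊥ := by
    rw [map_commutator, commutator_eq_bot_iff_le_centralizer, le_centralizer_iff,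
      map_le_iff_le_comap]
    exact hJK
  rw [hK.2.1] at h1
  intro x hx
  rw [← act_eq_one_iff]
  have h2 : ac G x ∈ K.map (ac G) := ⟨x, hx, rfl⟩
  rw [h1] at h2
  exact h2

theorem sup_C_eq (K : Subgroup G) : K ⊔ CG G = (K.map (ac G)).comap (ac G) := by
  rw [comap_map_eq, ker_act]

theorem C_le_normalizer_sup (s : Setup T) (hK : IsJComponent T K) :
    CG G ≤ normalizer ((K ⊔ pCore 2 G : Subgroup G) : Set G) := by
  apply Cfsg.Agent.Lib.Helper55Act.le_normalizer_of_conj_mem
  intro c hc x hx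
  rw [mem_sup_of_normal_right] at hx
  obtain ⟨k, hk, q, hq, rfl⟩ := hx
  have h1 : ⁅k, c⁆ ∈ pCore 2 G := s.commutator_K_C hK (commutator_mem_commutator hk hc)
  have h2 : c * (k * q) * c⁻¹ = k * ((k⁻¹ * (⁅k, c⁆)⁻¹ * k) * (c * q * c⁻¹)) := by
    simp only [commutatorElement_def]; group
  rw [h2]
  refine mul_mem (le_sup_left (b := pCore 2 G) hk) (le_sup_right (a := K) ?_)
  refine mul_mem ?_ ((inferInstance : (pCore 2 G).Normal).conj_mem _ hq c)
  have := (inferInstance : (pCore 2 G).Normal).conj_mem _ (inv_mem h1) k⁻¹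
  simpa using this

/-- anything normalizing `K Q` normalizes `K`. -/
theorem normalizer_sup_le (s : Setup T) (hK : IsJComponent T K) :
    normalizer ((K ⊔ pCore 2 G : Subgroup G) : Set G) ≤ normalizer (K : Set G) := by
  intro g hg
  rw [mem_normalizer_iff_cj]
  apply cj_eq_of_le
  apply le_of_le_sup Cfsg.Agent.Lib.Helper55Core.isPGroup_pCore (s.Q_le_normalizer hK)
  · -- the conjugate is generated by its elements of odd order
    apply le_antisymm
    · rw [closure_le]; exact fun x hx => hx.1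
    · conv_lhs => rw [← hK.1]
      rw [cj, MonoidHom.map_closure, closure_le]
      rintro _ ⟨x, ⟨hx, hodd⟩, rfl⟩
      apply Subgroup.subset_closure
      refine ⟨⟨x, hx, rfl⟩, ?_⟩
      have : orderOf ((MulAut.conj g).toMonoidHom x) = orderOf x :=
        orderOf_injective _ (MulAut.conj g).injective x
      rwa [this]
  · have h1 : cj g (K ⊔ pCore 2 G) = K ⊔ pCore 2 G := mem_normalizer_iff_cj.1 hg
    rw [← h1]
    exact cj_mono le_sup_left

theorem C_le_normalizer (s : Setup T) (hK : IsJComponent T K) : CG G ≤ normalizer (K : Set G) :=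
  (s.C_le_normalizer_sup hK).trans (s.normalizer_sup_le hK)

theorem JC_le_normalizer_sup_C (s : Setup T) (hK : IsJComponent T K) :
    JC 2 (VG G) ≤ normalizer ((K ⊔ CG G : Subgroup G) : Set G) := by
  obtain ⟨A, B, -, hB, -, hKB⟩ := s.exists_base hK
  rw [sup_C_eq, hKB]
  apply Cfsg.Agent.Lib.Helper55Act.le_normalizer_of_conj_mem
  intro x hx y hy
  rw [mem_comap, map_mul, map_mul, map_inv]
  exact Cfsg.Agent.Lib.Helper55Act.conj_mem_of_mem_normalizer
    (hB.H_le_normalizer_R s.ff s.hS3 ⟨x, hx, rfl⟩) hy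

/-- K–S 12.1: components are subnormal -/
theorem isSubnormal (s : Setup T) (hK : IsJComponent T K) : K.IsSubnormal := by
  rw [← sn_top_iff]
  have h1 : NormIn K (K ⊔ pCore 2 G) := ⟨le_sup_left, sup_le le_normalizer (s.Q_le_normalizer hK)⟩
  have h2 : NormIn (K ⊔ pCore 2 G) (K ⊔ CG G) :=
    ⟨sup_le_sup_left Q_le_C _, sup_le (le_sup_left.trans le_normalizer) (s.C_le_normalizer_sup hK)⟩
  have h3 : NormIn (K ⊔ CG G) (JC 2 (VG G)) :=
    ⟨sup_le ((s.K_le_JG hK).trans le_sup_left) le_sup_right, s.JC_le_normalizer_sup_C hK⟩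
  have h4 : NormIn (JC 2 (VG G)) ⊤ := normIn_top_iff.2 (JC_normal 2)
  exact ((h1.sn.trans h2.sn).trans h3.sn).trans h4.sn

theorem le_of_map_le (s : Setup T) (hK : IsJComponent T K) (hK' : IsJComponent T K')
    (h : K'.map (ac G) ≤ K.map (ac G)) : K' ≤ K := by
  have hJ2 : IsPGroup 2 (JT T) := s.hT2.to_le (Cfsg.Agent.Lib.Helper55JComp.thompsonSubgroupOf_le 2 T)
  have h1 : K' ≤ K ⊔ CG G := by
    rw [sup_C_eq, ← map_le_iff_le_comap]; exact h
  apply le_of_le_sup Cfsg.Agent.Lib.Helper55Core.isPGroup_pCore (s.Q_le_normalizer hK) hK'.1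
  conv_lhs => rw [← hK'.2.1]
  refine (commutator_mono h1 le_rfl).trans ?_
  rw [commutator_le]
  intro x hx j hj
  rw [mem_sup_of_normal_right] at hx
  obtain ⟨k, hk, c, hc, rfl⟩ := hx
  have e : ⁅k * c, j⁆ = (k * ⁅c, j⁆ * k⁻¹) * ⁅k, j⁆ := by
    simp only [commutatorElement_def]; group
  rw [e]
  refine mul_mem (le_sup_right (a := K) ?_) (le_sup_left (b := pCore 2 G) ?_)
  · exact (inferInstance : (pCore 2 G).Normal).conj_mem _
      (s.commutator_C_le hJ2 (commutator_mem_commutator hc hj)) k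
  · have : ⁅k, j⁆ ∈ ⁅K, JT T⁆ := commutator_mem_commutator hk hj
    rwa [hK.2.1] at this

theorem eq_of_map_eq (s : Setup T) (hK : IsJComponent T K) (hK' : IsJComponent T K')
    (h : K.map (ac G) = K'.map (ac G)) : K = K' :=
  le_antisymm (s.le_of_map_le hK' hK h.le) (s.le_of_map_le hK hK' h.symm.le)

end Setup

end Cfsg.Agent.Lib.Helper55JG
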