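import Cfsg.Agent.Lib.Helper55JG2
import Cfsg.Agent.S0027

set_option autoImplicit false

/-! `J(T)`-components in a solvable group of characteristic 2, III: the four-groups `W_K`,
and `J(G) C_G(V)` normalizes every component. -/

namespace Cfsg.Agent.Lib.Helper55JG

open Subgroup Cfsg Cfsg.Agent.Lib.Helper55FF Cfsg.Agent.Lib.Helper55Hol
  Cfsg.Agent.Lib.Helper40Sylow Cfsg.Agent.Lib.Helper13Thompson2 Cfsg.Agent.Lib.Helper58Subnormal
open scoped commutatorElement

variable {G : Type*} [Group G]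

namespace Setup

variable [Finite G] {T K K' : Subgroup G}

theorem V_le_Q (s : Setup T) : VG G ≤ pCore 2 G :=
  Cfsg.Agent.Lib.Helper55Core.le_pCore _ inferInstance (isPGroup_of_elemAb s.hV)

theorem push_comm (s : Setup T) {B : Subgroup (Hol (VG G))}
    (hB : FF.Base 2 (VV (VG G)) (HG G) B) (hKB : K.map (ac G) = Rof 2 (HG G) B) :
    push (VG G) ⁅VG G, K⁆ = ⁅VV (VG G), Eof 2 (HG G) B⁆ := by
  rw [push_commutator le_rfl, push_self, hKB, hB.commutator_R_eq s.ff]

theorem wOf_eq (s : Setup T) (hK : IsJComponent T K) : wOf K = ⁅VG G, K⁆ := by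
  obtain ⟨A, B, -, hB, -, hKB⟩ := s.exists_base hK
  set U : Subgroup G := ⁅VG G, K⁆ with hU
  have hUV : U ≤ VG G := commutator_le_left _ _
  have hVK : VG G ≤ normalizer (K : Set G) := s.V_le_Q.trans (s.Q_le_normalizer hK)
  have hUK : U ≤ K := by
    rw [hU, commutator_comm]
    exact Cfsg.Agent.Lib.Helper55Act.commutator_le_left hVK
  have hpush : push (VG G) U = ⁅VV (VG G), Eof 2 (HG G) B⁆ := s.push_comm hB hKB
  have hcard : Nat.card U = 4 := by
    rw [← card_push hUV, hpush, hB.card_W s.ff]; norm_num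
  have hUU : ⁅U, K⁆ = U := by
    apply eq_of_push_eq ((commutator_mono hUV le_rfl).trans (commutator_le_left _ _)) hUV
    rw [push_commutator hUV, hpush, hKB, hB.commutator_W_R s.ff]
  have hKU : K ≤ normalizer (U : Set G) :=
    Cfsg.Agent.Lib.Helper55JStruct.le_normalizer_commutator (le_normalizer_of_normal' _ _)
      le_normalizer
  have hU2 : IsPGroup 2 U := (isPGroup_of_elemAb s.hV).to_le hUV
  have hUO : U ≤ pCoreOf 2 K := Cfsg.Agent.Lib.Helper55Core.le_pCoreOf hUK hKU hU2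
  have hUZ : U ≤ omegaCenterOf (pCoreOf 2 K) := by
    intro u hu
    apply Cfsg.Agent.Lib.Helper55JStruct.mem_omegaCenterOf (hUO hu)
    · have h1 : VG G ≤ centralizer (pCoreOf 2 K : Set G) := by
        rw [le_centralizer_iff]; exact s.pCoreOf_le_C hK
      exact h1 (hUV hu)
    · have := s.hV.2 u (hUV hu)
      rw [← pow_two]
      exact this
  have hle : U ≤ wOf K := by
    conv_lhs => rw [← hUU]
    exact commutator_mono hUZ le_rfl
  exact (Subgroup.eq_of_le_of_card_ge hle (by rw [hcard, hK.2.2.2.2.1])).symm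

theorem wOf_le_V (s : Setup T) (hK : IsJComponent T K) : wOf K ≤ VG G := by
  rw [s.wOf_eq hK]; exact commutator_le_left _ _

theorem push_wOf (s : Setup T) (hK : IsJComponent T K) {B : Subgroup (Hol (VG G))}
    (hB : FF.Base 2 (VV (VG G)) (HG G) B) (hKB : K.map (ac G) = Rof 2 (HG G) B) :
    push (VG G) (wOf K) = ⁅VV (VG G), Eof 2 (HG G) B⁆ := by
  rw [s.wOf_eq hK, s.push_comm hB hKB]

theorem W_ne_of_ne (s : Setup T) (hK : IsJComponent T K) (hK' : IsJComponent T K') (hne : K ≠ K')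
    {B B' : Subgroup (Hol (VG G))}
    (hB : FF.Base 2 (VV (VG G)) (HG G) B) (hKB : K.map (ac G) = Rof 2 (HG G) B)
    (hB' : FF.Base 2 (VV (VG G)) (HG G) B') (hKB' : K'.map (ac G) = Rof 2 (HG G) B') :
    ⁅VV (VG G), Eof 2 (HG G) B⁆ ≠ ⁅VV (VG G), Eof 2 (HG G) B'⁆ := by
  intro h
  apply hne
  apply s.eq_of_map_eq hK hK'
  rw [hKB, hKB']
  exact hB.R_eq_of_E_eq hB' (hB.E_eq_of_W_eq s.ff hB' h)

/-- different components centralize each other's four-groups. -/
theorem le_centralizer_wOf (s : Setup T) (hK : IsJComponent T K) (hK' : IsJComponent T K')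
    (hne : K ≠ K') : K' ≤ centralizer (wOf K : Set G) := by
  obtain ⟨A, B, -, hB, -, hKB⟩ := s.exists_base hK
  obtain ⟨A', B', -, hB', -, hKB'⟩ := s.exists_base hK'
  apply le_centralizer_of_map_le (s.wOf_le_V hK)
  rw [s.push_wOf hK hB hKB, hKB']
  exact le_sup_left.trans (hB.le_centralizer_W_of_ne s.ff hB' (s.W_ne_of_ne hK hK' hne hB hKB hB' hKB'))

/-- components with intersecting four-groups coincide. -/
theorem eq_of_wOf_inf_ne_bot (s : Setup T) (hK : IsJComponent T K) (hK' : IsJComponent T K')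
    (h : wOf K ⊓ wOf K' ≠ ⊥) : K = K' := by
  by_contra hne
  apply h
  obtain ⟨A, B, -, hB, -, hKB⟩ := s.exists_base hK
  obtain ⟨A', B', -, hB', -, hKB'⟩ := s.exists_base hK'
  have h1 := hB.W_inf_W_eq_bot s.ff hB' (s.W_ne_of_ne hK hK' hne hB hKB hB' hKB')
  rw [← s.push_wOf hK hB hKB, ← s.push_wOf hK' hB' hKB'] at h1
  rw [eq_bot_iff]
  rintro x ⟨hx1, hx2⟩
  have hxV : x ∈ VG G := s.wOf_le_V hK hx1
  have h2 : il (VG G) ⟨x, hxV⟩ ∈ push (VG G) (wOf K) ⊓ push (VG G) (wOf K') :=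
    ⟨mem_push.2 hx1, mem_push.2 hx2⟩
  rw [h1, mem_bot] at h2
  have h3 : (⟨x, hxV⟩ : VG G) = 1 := SemidirectProduct.inl_injective (by rw [h2, map_one])
  exact congrArg Subtype.val h3

theorem K_inf_C (s : Setup T) (hK : IsJComponent T K) : K ⊓ CG G = pCoreOf 2 K := by
  symm
  apply Subgroup.eq_of_le_of_card_ge
    (le_inf (Cfsg.Agent.Lib.Helper55Core.pCoreOf_le K) (s.pCoreOf_le_C hK))
  have h1 := card_map_act (V := VG G) K
  have h2 := Cfsg.Agent.Lib.Helper27Core.card_mul_relIndex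
    (Cfsg.Agent.Lib.Helper55Core.pCoreOf_le (p := 2) K)
  rw [hK.2.2.1] at h2
  rw [s.card_map_K hK] at h1
  have h3 : 3 * Nat.card ↥(K ⊓ CG G) = Nat.card ↥(pCoreOf 2 K) * 3 := h1.trans h2.symm
  show Nat.card ↥(K ⊓ CG G) ≤ Nat.card ↥(pCoreOf 2 K)
  omega

/-- `J(G) C_G(V)` normalizes every `J(T)`-component. -/
theorem JC_le_normalizer (s : Setup T) (hK : IsJComponent T K) :
    JC 2 (VG G) ≤ normalizer (K : Set G) := by
  obtain ⟨A, B, hA, hB, hBA, hKB⟩ := s.exists_base hK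
  set JB : Subgroup G := A ⊓ B.comap (ac G) with hJB
  have hJBmap : JB.map (ac G) = B := by
    apply le_antisymm
    · rintro _ ⟨x, hx, rfl⟩; exact hx.2
    · intro b hb
      obtain ⟨a, ha, rfl⟩ := hBA hb
      exact ⟨a, ⟨ha, hb⟩, rfl⟩
  have hJB2 : IsPGroup 2 JB := (isPGroup_of_elemAb hA.2.1).to_le inf_le_left
  have hJBJ : JB ≤ JT T := inf_le_left.trans (relMax_le_J hA)
  have hJBK : JB ≤ normalizer (K : Set G) := hJBJ.trans (J_le_normalizer hK)
  set CH : Subgroup (Hol (VG G)) :=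
    HG G ⊓ centralizer ((⁅VV (VG G), Eof 2 (HG G) B⁆ : Subgroup (Hol (VG G))) : Set (Hol (VG G)))
    with hCH
  set D : Subgroup G := CH.comap (ac G) with hD
  have hDmap : D.map (ac G) = CH := by
    apply map_comap_eq_self
    exact inf_le_left.trans (map_le_range _ _)
  have hEC : ⁅Eof 2 (HG G) B, CH⁆ = ⊥ := hB.commutator_E_C s.ff s.hS3
  have hker : ∀ X Y : Subgroup G, X.map (ac G) ≤ Eof 2 (HG G) B → Y.map (ac G) ≤ CH →
      ⁅X, Y⁆ ≤ CG G := by
    intro X Y hX hY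
    have h0 : CG G = (ac G).ker := ker_act.symm
    rw [h0, ← Subgroup.map_eq_bot_iff, map_commutator, eq_bot_iff, ← hEC]
    exact commutator_mono hX hY
  have hKE : K.map (ac G) ≤ Eof 2 (HG G) B := by rw [hKB]; exact le_sup_left
  have hJE : JB.map (ac G) ≤ Eof 2 (HG G) B := by rw [hJBmap]; exact le_sup_right
  -- three subgroups
  have h3 : ⁅⁅K, JB⁆, D⁆ ≤ pCore 2 G := by
    apply Cfsg.Agent.Lib.Helper40Chief.three_subgroups_mod (pCore 2 G) K JB D
      (le_normalizer_of_normal' _ _) (le_normalizer_of_normal' _ _) (le_normalizer_of_normal' _ _)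
    · refine (commutator_mono (hker JB D hJE hDmap.le) le_rfl).trans ?_
      rw [commutator_comm]; exact s.commutator_K_C hK
    · have h1 : ⁅D, K⁆ ≤ CG G := by rw [commutator_comm]; exact hker K D hKE hDmap.le
      exact (commutator_mono h1 le_rfl).trans (s.commutator_C_le hJB2)
  -- `K = [K, JB] O₂(K)`
  have hRB : ⁅Rof 2 (HG G) B, B⁆ = Rof 2 (HG G) B := by
    have hBp := isPGroup_of_card_prime hB.hc
    apply Cfsg.Agent.S0027.result B (Qof 2 (HG G)) (hB.hAH.trans (le_normalizer_Qof 2 (HG G)))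
      (coprime_card_of_isPGroup hBp (card_Qof_coprime 2 (HG G)))
    exact Or.inl (by
      have := hBp.isNilpotent
      infer_instance)
  have hKle : K ≤ ⁅K, JB⁆ ⊔ pCore 2 G := by
    have h1 : K.map (ac G) ≤ (⁅K, JB⁆).map (ac G) := by
      rw [map_commutator, hKB, hJBmap, hRB]
    have h2 : ⁅K, JB⁆ ≤ K := Cfsg.Agent.Lib.Helper55Act.commutator_le_left hJBK
    intro k hk
    obtain ⟨y, hy, hyk⟩ := h1 ⟨k, hk, rfl⟩
    have h4 : y⁻¹ * k ∈ K ⊓ CG G := by
      refine Subgroup.mem_inf.2 ⟨mul_mem (inv_mem (h2 hy)) hk, ?_⟩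
      rw [← act_eq_one_iff, map_mul, map_inv, hyk, inv_mul_cancel]
    rw [s.K_inf_C hK] at h4
    have h5 : k = y * (y⁻¹ * k) := by group
    rw [h5]
    exact mul_mem (le_sup_left (b := pCore 2 G) hy)
      (le_sup_right (a := ⁅K, JB⁆) (s.pCoreOf_le_Q hK h4))
  have hKD : ⁅K, D⁆ ≤ pCore 2 G := by
    refine (commutator_mono hKle le_rfl).trans ?_
    exact Cfsg.Agent.Lib.Helper54Coprime.commutator_sup_le h3 (commutator_le_left _ _)
      (le_normalizer_of_normal' _ _)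
  have hDN : D ≤ normalizer (K : Set G) := by
    refine le_trans ?_ (s.normalizer_sup_le hK)
    apply Cfsg.Agent.Lib.Helper55Act.le_normalizer_of_conj_mem
    intro d hd x hx
    rw [mem_sup_of_normal_right] at hx
    obtain ⟨k, hk, q, hq, rfl⟩ := hx
    have h1 : ⁅k, d⁆ ∈ pCore 2 G := hKD (commutator_mem_commutator hk hd)
    have h2 : d * (k * q) * d⁻¹ = k * ((k⁻¹ * (⁅k, d⁆)⁻¹ * k) * (d * q * d⁻¹)) := by
      simp only [commutatorElement_def]; group
    rw [h2]
    refine mul_mem (le_sup_left (b := pCore 2 G) hk) (le_sup_right (a := K) ?_)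
    refine mul_mem ?_ ((inferInstance : (pCore 2 G).Normal).conj_mem _ hq d)
    have := (inferInstance : (pCore 2 G).Normal).conj_mem _ (inv_mem h1) k⁻¹
    simpa using this
  -- assemble
  have hmap : (JC 2 (VG G)).map (ac G) = ((K ⊔ JB) ⊔ D).map (ac G) := by
    rw [Subgroup.map_sup (K ⊔ JB) D, Subgroup.map_sup K JB, hKB, hJBmap, hDmap]
    exact (hB.E_sup_eq s.ff s.hS3).symm
  have hle : JC 2 (VG G) ≤ ((K ⊔ JB) ⊔ D) ⊔ CG G := by
    rw [sup_C_eq, ← map_le_iff_le_comap, hmap]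
  exact hle.trans (sup_le (sup_le (sup_le le_normalizer hJBK) hDN) (s.C_le_normalizer hK))

end Setup

end Cfsg.Agent.Lib.Helper55JG
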