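import Cfsg.Agent.Lib.Helper55JB

set_option autoImplicit false

/-! `J(T)`-components inside a member `L` of `jOvergroups T`: ambient forms. -/

namespace Cfsg.Agent.Lib.Helper55JG

open Subgroup Cfsg Cfsg.Agent.Lib.Helper55FF Cfsg.Agent.Lib.Helper55Hol
  Cfsg.Agent.Lib.Helper40Sylow Cfsg.Agent.Lib.Helper13Thompson2 Cfsg.Agent.Lib.Helper55JT
open scoped commutatorElement

variable {G : Type*} [Group G]

namespace Setup

variable [Finite G] {T K K' : Subgroup G}

/-- Frattini: `G = J(G) C_G(V) N_G(J(T))`. -/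
theorem exists_mul (s : Setup T) (g : G) :
    ∃ x ∈ JC 2 (VG G), ∃ n ∈ normalizer (JT T : Set G), g = x * n := by
  haveI := JC_normal (V := VG G) 2
  have hidx : ¬ 2 ∣ T.index := by
    have := s.hT.2.2
    rwa [relIndex_top_right] at this
  obtain ⟨x, hx, n, hn, rfl⟩ := frattini_elt (JC 2 (VG G)) (IsPGroup.toSylow s.hT2 hidx) g
  refine ⟨x, hx, n, ?_, rfl⟩
  have h1 : thompsonSubgroupOf 2 (T ⊓ JC 2 (VG G)) = JT T :=
    thompsonOf_eq_of_le inf_le_left
      (le_inf (thompsonOf_le_self 2 T) (s.J_le.trans le_sup_left))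
  rw [← h1]
  exact normalizer_le_normalizer_thompsonOf 2 _ hn

/-- conjugates of components are components (for the same `T`). -/
theorem isJComponent_conj (s : Setup T) (hK : IsJComponent T K) (g : G) :
    IsJComponent T (cj g K) := by
  obtain ⟨x, hx, n, hn, rfl⟩ := s.exists_mul g
  have h1 : IsJComponent T (cj n K) := by
    have h2 : IsJComponent (cj n T) (cj n K) := (isJComponent_cj n).2 hK
    refine (isJComponent_congr ?_).1 h2
    rw [thompsonOf_cj]
    exact mem_normalizer_iff_cj.1 hn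
  rw [cj_mul, mem_normalizer_iff_cj.1 (s.JC_le_normalizer h1 hx)]
  exact h1

end Setup

end Cfsg.Agent.Lib.Helper55JG

namespace Cfsg.Agent.Lib.Helper55JL

open Subgroup Cfsg Cfsg.Agent.Lib.Helper40Sylow Cfsg.Agent.Lib.Helper55Core
  Cfsg.Agent.Lib.Helper55JG Cfsg.Agent.Lib.Helper55JT Cfsg.Agent.Lib.Helper55JStruct
  Cfsg.Agent.Lib.Helper55JB
open scoped commutatorElement

/-- the standing hypotheses -/
structure ZN (G : Type*) [Group G] : Prop where
  hL : IsCharacteristicTwoType G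
  hN : ∀ N : Subgroup G, IsTwoLocal N → Group.IsSolvable ↥N
  hZ : ∀ S : Sylow 2 G, centralizer (omegaCenterOf (S : Subgroup G) : Set G) ≤
      normalizer ((S : Subgroup G) : Set G)

variable {G : Type*} [Group G] [Finite G] {T L K K' : Subgroup G}

theorem map_wOf_subgroupOf (hKL : K ≤ L) : (wOf (K.subgroupOf L)).map L.subtype = wOf K := by
  rw [← wOf_map L.subtype_injective, subgroupOf_map_subtype, inf_eq_left.2 hKL]

theorem map_cj_subtype (g : ↥L) (X : Subgroup ↥L) :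
    (cj g X).map L.subtype = cj (g : G) (X.map L.subtype) := by
  ext y
  constructor
  · rintro ⟨_, ⟨x, hx, rfl⟩, rfl⟩
    exact ⟨x, ⟨x, hx, rfl⟩, by simp⟩
  · rintro ⟨_, ⟨x, hx, rfl⟩, rfl⟩
    exact ⟨_, ⟨x, hx, rfl⟩, by simp⟩

namespace ZN

theorem setup (z : ZN G) (hT1 : T ≠ ⊥) (hLT : L ∈ jOvergroups T) : Setup (T.subgroupOf L) :=
  Cfsg.Agent.Lib.Helper55JB.setup z.hN z.hZ hT1 hLT

theorem isSubnormal (z : ZN G) (hT1 : T ≠ ⊥) (hLT : L ∈ jOvergroups T) (hK : IsJComponent T K)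
    (hKL : K ≤ L) : (K.subgroupOf L).IsSubnormal :=
  (z.setup hT1 hLT).isSubnormal ((isJComponent_subgroupOf hLT.1.1 hKL).2 hK)

theorem eq_of_wOf_inf_ne_bot (z : ZN G) (hT1 : T ≠ ⊥) (hLT : L ∈ jOvergroups T)
    (hK : IsJComponent T K) (hKL : K ≤ L) (hK' : IsJComponent T K') (hK'L : K' ≤ L)
    (h : wOf K ⊓ wOf K' ≠ ⊥) : K = K' := by
  have h1 : K.subgroupOf L = K'.subgroupOf L := by
    apply (z.setup hT1 hLT).eq_of_wOf_inf_ne_bot ((isJComponent_subgroupOf hLT.1.1 hKL).2 hK)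
      ((isJComponent_subgroupOf hLT.1.1 hK'L).2 hK')
    intro hbot
    apply h
    rw [eq_bot_iff]
    rintro x ⟨hx1, hx2⟩
    rw [SetLike.mem_coe, ← map_wOf_subgroupOf hKL] at hx1
    rw [SetLike.mem_coe, ← map_wOf_subgroupOf hK'L] at hx2
    obtain ⟨y, hy, rfl⟩ := hx1
    obtain ⟨y', hy', hyy⟩ := hx2
    have e : y' = y := Subtype.ext hyy
    rw [e] at hy'
    have h2 : y ∈ wOf (K.subgroupOf L) ⊓ wOf (K'.subgroupOf L) := ⟨hy, hy'⟩
    rw [hbot, mem_bot] at h2
    rw [h2]; exact one_mem _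
  have h2 := congrArg (Subgroup.map L.subtype) h1
  rwa [subgroupOf_map_subtype, subgroupOf_map_subtype, inf_eq_left.2 hKL, inf_eq_left.2 hK'L] at h2

theorem le_centralizer_wOf (z : ZN G) (hT1 : T ≠ ⊥) (hLT : L ∈ jOvergroups T)
    (hK : IsJComponent T K) (hKL : K ≤ L) (hK' : IsJComponent T K') (hK'L : K' ≤ L)
    (hne : K ≠ K') : K' ≤ centralizer (wOf K : Set G) := by
  have h1 := (z.setup hT1 hLT).le_centralizer_wOf ((isJComponent_subgroupOf hLT.1.1 hKL).2 hK)
      ((isJComponent_subgroupOf hLT.1.1 hK'L).2 hK') (by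
        intro h1
        apply hne
        have h2 := congrArg (Subgroup.map L.subtype) h1
        rwa [subgroupOf_map_subtype, subgroupOf_map_subtype, inf_eq_left.2 hKL,
          inf_eq_left.2 hK'L] at h2)
  intro k hk
  rw [mem_centralizer_iff, ← map_wOf_subgroupOf hKL]
  rintro _ ⟨w, hw, rfl⟩
  exact congrArg Subtype.val
    ((mem_centralizer_iff.1 (h1 (show (⟨k, hK'L hk⟩ : ↥L) ∈ K'.subgroupOf L from hk))) w hw)

theorem isJComponent_conj (z : ZN G) (hT1 : T ≠ ⊥) (hLT : L ∈ jOvergroups T)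
    (hK : IsJComponent T K) (hKL : K ≤ L) {g : G} (hg : g ∈ L) : IsJComponent T (cj g K) := by
  have h1 := (z.setup hT1 hLT).isJComponent_conj ((isJComponent_subgroupOf hLT.1.1 hKL).2 hK)
    ⟨g, hg⟩
  rw [← isJComponent_map (f := L.subtype) L.subtype_injective, map_cj_subtype,
    subgroupOf_map_subtype, subgroupOf_map_subtype, inf_eq_left.2 hKL, inf_eq_left.2 hLT.1.1] at h1
  exact h1

/-- all the four-groups of components in `L` lie in one 2-subgroup. -/
theorem exists_wOf_le (z : ZN G) (hT1 : T ≠ ⊥) (hLT : L ∈ jOvergroups T) :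
    ∃ V : Subgroup G, IsPGroup 2 V ∧ ∀ K, IsJComponent T K → K ≤ L → wOf K ≤ V := by
  refine ⟨(VG ↥L).map L.subtype,
    (Cfsg.Agent.Lib.Helper55FF.isPGroup_of_elemAb (z.setup hT1 hLT).hV).map _, ?_⟩
  intro K hK hKL
  rw [← map_wOf_subgroupOf hKL]
  exact map_mono ((z.setup hT1 hLT).wOf_le_V ((isJComponent_subgroupOf hLT.1.1 hKL).2 hK))

end ZN

end Cfsg.Agent.Lib.Helper55JL
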