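import Cfsg.Agent.Lib.Helper55JN
import Cfsg.Agent.Lib.Helper40Alperin

set_option autoImplicit false

/-! The maximal straddling 2-subgroups `𝒯*(M)` (Kurzweil–Stellmacher 12.1). -/

namespace Cfsg.Agent.Lib.Helper55JL

open Subgroup Cfsg Cfsg.Agent.Lib.Helper40Sylow Cfsg.Agent.Lib.Helper55Core
  Cfsg.Agent.Lib.Helper55JG Cfsg.Agent.Lib.Helper55JT Cfsg.Agent.Lib.Helper55JStruct
  Cfsg.Agent.Lib.Helper55JB Cfsg.Agent.Lib.Helper13Thompson2 Cfsg.Agent.Lib.Helper13Thompson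
open scoped commutatorElement

variable {G : Type*} [Group G] [Finite G] {M T T₀ T₂ L K K' : Subgroup G}

omit [Finite G] in
theorem maxElemAbelianOrder_eq {A : Subgroup G} (hA : A ∈ relMax 2 T) :
    maxElemAbelianOrder T = Nat.card A := by
  unfold maxElemAbelianOrder
  have h1 : A.subgroupOf T ∈ maxElementaryAbelianSubgroups 2 ↥T := by
    refine ⟨el_subgroupOf hA.2.1 T, ?_⟩
    intro B hB
    rw [card_subgroupOf_of_le hA.1, ← card_map_of_injective T.subtype_injective]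
    exact hA.2.2 _ (map_subtype_le _) (el_map hB _)
  have h2 : (fun A : Subgroup ↥T => Nat.card ↥A) '' maxElementaryAbelianSubgroups 2 ↥T
      = {Nat.card A} := by
    ext n
    constructor
    · rintro ⟨B, hB, rfl⟩
      show Nat.card B = Nat.card A
      rw [← card_subgroupOf_of_le hA.1]
      exact le_antisymm (h1.2 B hB.1) (hB.2 _ h1.1)
    · rintro rfl
      exact ⟨_, h1, card_subgroupOf_of_le hA.1⟩
  rw [h2, csSup_singleton]

theorem thompsonOf_ne_bot (hT : IsPGroup 2 T) (hT1 : T ≠ ⊥) : thompsonSubgroupOf 2 T ≠ ⊥ := by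
  have h1 : 2 ∣ Nat.card ↥T := by
    obtain ⟨n, hn⟩ := (IsPGroup.iff_card).1 hT
    rw [hn]
    rcases n with _ | n
    · exfalso
      apply hT1
      rw [pow_zero] at hn
      exact (Subgroup.card_eq_one).1 hn
    · exact dvd_pow_self 2 (Nat.succ_ne_zero n)
  have h2 := (Cfsg.Agent.S0602.result (G := ↥T) (p := 2)).2 h1
  intro h
  apply h2
  unfold thompsonSubgroupOf at h
  exact (map_eq_bot_iff_of_injective _ T.subtype_injective).1 h

theorem a_le_of_J_le (h : thompsonSubgroupOf 2 T ≤ T₂) :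
    maxElemAbelianOrder T ≤ maxElemAbelianOrder T₂ := by
  obtain ⟨A, hA⟩ := exists_relMax 2 T
  obtain ⟨B, hB⟩ := exists_relMax 2 T₂
  rw [maxElemAbelianOrder_eq hA, maxElemAbelianOrder_eq hB]
  apply hB.2.2 A _ hA.2.1
  refine le_trans ?_ h
  rw [thompsonOf_eq]; exact le_sSup hA

theorem key (hT : T ∈ maxStraddlingTwoSubgroups M) (hT₂ : T₂ ∈ straddlingTwoSubgroups M)
    (hJ : thompsonSubgroupOf 2 T ≤ T₂) :
    thompsonSubgroupOf 2 T₂ = thompsonSubgroupOf 2 T ∧ Nat.card T₂ ≤ Nat.card T := by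
  obtain ⟨h1, h2⟩ := hT.2 T₂ hT₂
  have ha : maxElemAbelianOrder T₂ = maxElemAbelianOrder T := le_antisymm h1 (a_le_of_J_le hJ)
  obtain ⟨h3, h4⟩ := h2 ha
  obtain ⟨A, hA⟩ := exists_relMax 2 T
  obtain ⟨B, hB⟩ := exists_relMax 2 T₂
  have h5 : thompsonSubgroupOf 2 T ≤ thompsonSubgroupOf 2 T₂ :=
    J_le_J_of_card hJ hA hB (by rw [← maxElemAbelianOrder_eq hA, ← maxElemAbelianOrder_eq hB, ha])
  have h6 : thompsonSubgroupOf 2 T = thompsonSubgroupOf 2 T₂ := Subgroup.eq_of_le_of_card_ge h5 h3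
  exact ⟨h6.symm, h4 (by rw [h6])⟩

theorem eq_of_inf_normalizer_le {P Q : Subgroup G} (hP : IsPGroup 2 P) (hQP : Q ≤ P)
    (h : P ⊓ normalizer (Q : Set G) ≤ Q) : Q = P := by
  by_contra hne
  have h1 := Cfsg.Agent.Lib.Helper40Alperin.card_lt_card_inf_normalizer hP (lt_of_le_of_ne hQP hne)
  exact absurd (Subgroup.card_le_of_le h) (not_le.2 h1)

/-- `N_G(J(T)) ≤ M` for `T ∈ 𝒯*(M)`. -/
theorem normalizer_J_le (S : Sylow 2 G)
    (hMJ : normalizer (thompsonSubgroupOf 2 (S : Subgroup G) : Set G) ≤ M)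
    (hT : T ∈ maxStraddlingTwoSubgroups M) :
    normalizer (thompsonSubgroupOf 2 T : Set G) ≤ M := by
  by_contra hcon
  obtain ⟨hT2, hT1, hTM, -⟩ := hT.1
  have hSM : (S : Subgroup G) ≤ M :=
    (le_normalizer.trans (normalizer_le_normalizer_thompsonOf 2 _)).trans hMJ
  obtain ⟨m, hm, hle⟩ := (isSylowIn_of_le S hSM).exists_conj_le hT2 hTM
  rw [cj_le_iff] at hle
  set S₁ := cj m⁻¹ (S : Subgroup G) with hS₁
  have hMm : cj m⁻¹ M = M := cj_eq_self_of_mem (inv_mem hm)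
  have hS₁M : S₁ ≤ M := by rw [← hMm]; exact cj_mono hSM
  have hS₁2 : IsPGroup 2 S₁ := isPGroup_cj S.2 _
  set T₂ := S₁ ⊓ normalizer (thompsonSubgroupOf 2 T : Set G) with hT₂
  have hTT₂ : T ≤ T₂ := le_inf hle (le_normalizer.trans (normalizer_le_normalizer_thompsonOf 2 T))
  have hmem : T₂ ∈ straddlingTwoSubgroups M := by
    refine ⟨hS₁2.to_le inf_le_left, ?_, inf_le_left.trans hS₁M,
      normalizer (thompsonSubgroupOf 2 T : Set G),
      ⟨_, hT2.to_le (thompsonOf_le_self 2 T), thompsonOf_ne_bot hT2 hT1, rfl⟩, inf_le_right, hcon⟩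
    intro h
    apply hT1
    rw [eq_bot_iff, ← h]; exact hTT₂
  have hk := key hT hmem ((thompsonOf_le_self 2 T).trans hTT₂)
  have hTeq : T = T₂ := Subgroup.eq_of_le_of_card_ge hTT₂ hk.2
  have hTS : T = S₁ := by
    apply eq_of_inf_normalizer_le hS₁2 hle
    conv_rhs => rw [hTeq]
    exact inf_le_inf_left _ (normalizer_le_normalizer_thompsonOf 2 T)
  apply hcon
  rw [hTS, hS₁, thompsonOf_cj, normalizer_cj, ← hMm]
  exact cj_mono hMJ

/-- Sylow 2-subgroups of 2-locals outside `M` which contain `J(T)`. -/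
theorem sylow_of_local (hNJ : normalizer (thompsonSubgroupOf 2 T : Set G) ≤ M)
    (hT : T ∈ maxStraddlingTwoSubgroups M) (hL2 : IsTwoLocal L) (hLM : ¬ L ≤ M)
    (hT₀ : IsSylowIn 2 T₀ L) (hJ : thompsonSubgroupOf 2 T ≤ T₀) :
    thompsonSubgroupOf 2 T₀ = thompsonSubgroupOf 2 T ∧ T₀ ∈ straddlingTwoSubgroups M := by
  obtain ⟨hT2, hT1, hTM, -⟩ := hT.1
  set T₂ := T₀ ⊓ normalizer (thompsonSubgroupOf 2 T : Set G) with hT₂
  have hJT₂ : thompsonSubgroupOf 2 T ≤ T₂ := le_inf hJ le_normalizer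
  have hmem : T₂ ∈ straddlingTwoSubgroups M := by
    refine ⟨hT₀.2.1.to_le inf_le_left, ?_, inf_le_right.trans hNJ, L, hL2,
      inf_le_left.trans hT₀.1, hLM⟩
    intro h
    apply thompsonOf_ne_bot hT2 hT1
    rw [eq_bot_iff, ← h]; exact hJT₂
  have hk := key hT hmem hJT₂
  have heq : T₂ = T₀ := by
    apply eq_of_inf_normalizer_le hT₀.2.1 inf_le_left
    refine le_inf inf_le_left ?_
    have h3 := normalizer_le_normalizer_thompsonOf 2 T₂
    rw [hk.1] at h3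
    exact inf_le_right.trans h3
  rw [← heq]
  exact ⟨hk.1, hmem⟩

theorem ZN.mem_jOvergroups (z : ZN G) (hNJ : normalizer (thompsonSubgroupOf 2 T : Set G) ≤ M)
    (hT : T ∈ maxStraddlingTwoSubgroups M) (hL2 : IsTwoLocal L) (hLM : ¬ L ≤ M)
    (hT₀ : IsSylowIn 2 T₀ L) (hJ : thompsonSubgroupOf 2 T ≤ T₀) : L ∈ jOvergroups T₀ := by
  have h1 := (sylow_of_local hNJ hT hL2 hLM hT₀ hJ).1
  refine ⟨isSylowTwoIn_iff.2 hT₀, ?_, ?_⟩
  · intro h
    apply hLM
    refine le_trans ?_ hNJ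
    have hOT : pCoreOf 2 L ≤ T₀ :=
      le_of_isSylowIn_of_normal hT₀ (pCoreOf_le L) (le_normalizer_pCoreOf L) (isPGroup_pCoreOf L)
    have h2 := thompsonOf_eq_of_le hOT h
    rw [← h1, ← h2]
    exact (le_normalizer_pCoreOf L).trans (normalizer_le_normalizer_thompsonOf 2 _)
  · obtain ⟨R, hR, hR1, rfl⟩ := hL2
    exact z.centralizer_pCoreOf_le hR hR1

theorem isSylowIn_of_le_local (hNJ : normalizer (thompsonSubgroupOf 2 T : Set G) ≤ M)
    (hT : T ∈ maxStraddlingTwoSubgroups M) (hL2 : IsTwoLocal L) (hLM : ¬ L ≤ M) (hTL : T ≤ L) :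
    IsSylowIn 2 T L := by
  obtain ⟨T₀, hT₀, hTT₀⟩ := exists_isSylowIn_ge hT.1.1 hTL
  have h1 := sylow_of_local hNJ hT hL2 hLM hT₀ ((thompsonOf_le_self 2 T).trans hTT₀)
  have h2 := key hT h1.2 ((thompsonOf_le_self 2 T).trans hTT₀)
  rw [Subgroup.eq_of_le_of_card_ge hTT₀ h2.2]
  exact hT₀

theorem exists_maximalTwoLocal_ge {N : Subgroup G} (hN : IsTwoLocal N) :
    ∃ L, IsMaximalTwoLocal L ∧ N ≤ L := by
  haveI : Nonempty {L : Subgroup G // IsTwoLocal L ∧ N ≤ L} := ⟨⟨N, hN, le_rfl⟩⟩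
  obtain ⟨L, hL⟩ := Finite.exists_max
    (fun L : {L : Subgroup G // IsTwoLocal L ∧ N ≤ L} => Nat.card L.1)
  refine ⟨L.1, ⟨L.2.1, ?_⟩, L.2.2⟩
  intro N' hN' hle
  exact (Subgroup.eq_of_le_of_card_ge hle (hL ⟨N', hN', L.2.2.trans hle⟩)).symm

end Cfsg.Agent.Lib.Helper55JL
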