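import Mathlib
import Cfsg.Prelude.Def_LocalEven
import Cfsg.Agent.Lib.Helper6SL2Syl

/-! # Natural `SL₂(F)`-modules inside an ambient group: normalised coordinates (helper55) -/

set_option autoImplicit false

namespace Cfsg.Agent.Lib.Helper55Nat

open Matrix Cfsg.Agent.Lib.Helper6SL2Syl
open scoped Pointwise

variable {G : Type*} [Group G] {F : Type*} [Field F]

/-- normalised coordinates: the Sylow subgroup `T` corresponds to the upper unitriangular group. -/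
def IsDat (V L T : Subgroup G) (ρ : L →* SpecialLinearGroup (Fin 2) F)
    (ψ : Additive V ≃+ (Fin 2 → F)) : Prop :=
  Function.Surjective ρ ∧ Function.Injective ρ ∧
    (∀ (l : L) (v : V), ∃ w : V, (w : G) = (l : G) * (v : G) * (l : G)⁻¹ ∧
      ψ (Additive.ofMul w) = ((ρ l : SpecialLinearGroup (Fin 2) F) : Matrix (Fin 2) (Fin 2) F).mulVec
        (ψ (Additive.ofMul v))) ∧
    (∀ l : L, (l : G) ∈ T ↔ ρ l ∈ (U : Subgroup (SpecialLinearGroup (Fin 2) F))) ∧ T ≤ L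

theorem exists_dat [Finite G] [Fintype F] {p : ℕ} [Fact p.Prime] (n : ℕ)
    (hF : Fintype.card F = p ^ n) (V L : Subgroup G) (hnat : Cfsg.IsNaturalSL2Module F V L)
    (hf : L ⊓ Subgroup.centralizer (V : Set G) = ⊥) (S : Sylow p ↥L) (T : Subgroup G)
    (hT : T = ((S : Subgroup ↥L).map L.subtype)) :
    ∃ (ρ : L →* SpecialLinearGroup (Fin 2) F) (ψ : Additive V ≃+ (Fin 2 → F)),
      IsDat V L T ρ ψ := by
  obtain ⟨-, ρ₀, ψ₀, hsurj, hker, hact⟩ := hnat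
  have hchar : CharP F p := charP_of_card_eq_prime_pow hF
  have hinj : Function.Injective ρ₀ := by
    rw [← MonoidHom.ker_eq_bot_iff, hker, Subgroup.subgroupOf_eq_bot]
    exact (disjoint_iff.2 hf).symm
  have hUp : IsPGroup p ↥((U : Subgroup (SpecialLinearGroup (Fin 2) F)).comap ρ₀) :=
    (isPGroup_U p).comap_of_injective ρ₀ hinj
  have hUi : ¬ p ∣ ((U : Subgroup (SpecialLinearGroup (Fin 2) F)).comap ρ₀).index := by
    rw [Subgroup.index_comap_of_surjective _ hsurj]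
    exact not_dvd_index_U p
  obtain ⟨g, hg⟩ := MulAction.exists_smul_eq L (hUp.toSylow hUi) S
  have hS : ∀ l : L, l ∈ S ↔ ρ₀ (g⁻¹ * l * g) ∈ (U : Subgroup (SpecialLinearGroup (Fin 2) F)) := by
    intro l
    have hS' : (S : Subgroup L)
        = MulAut.conj g • ((U : Subgroup (SpecialLinearGroup (Fin 2) F)).comap ρ₀) := by
      rw [← hg]; rfl
    show l ∈ (S : Subgroup L) ↔ _
    rw [hS', Subgroup.mem_pointwise_smul_iff_inv_smul_mem]
    rw [Subgroup.mem_comap]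
    have : (MulAut.conj g)⁻¹ • l = g⁻¹ * l * g := by
      rw [← map_inv, MulAut.smul_def, MulAut.conj_apply, inv_inv]
    rw [this]
  refine ⟨ρ₀.comp (MulAut.conj g⁻¹).toMonoidHom,
    ψ₀.trans (SpecialLinearGroup.toLin' (ρ₀ g)⁻¹).toAddEquiv, ?_, ?_, ?_, ?_, ?_⟩
  · exact hsurj.comp (MulAut.conj g⁻¹).surjective
  · exact hinj.comp (MulAut.conj g⁻¹).injective
  · intro l v
    obtain ⟨w, hw, hw'⟩ := hact l v
    refine ⟨w, hw, ?_⟩
    show SpecialLinearGroup.toLin' (ρ₀ g)⁻¹ (ψ₀ (Additive.ofMul w))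
      = ((ρ₀ (MulAut.conj g⁻¹ l) : SpecialLinearGroup (Fin 2) F) : Matrix (Fin 2) (Fin 2) F).mulVec
        (SpecialLinearGroup.toLin' (ρ₀ g)⁻¹ (ψ₀ (Additive.ofMul v)))
    rw [hw', SpecialLinearGroup.toLin'_apply, SpecialLinearGroup.toLin'_apply, Matrix.toLin'_apply,
      Matrix.toLin'_apply, Matrix.mulVec_mulVec, Matrix.mulVec_mulVec, MulAut.conj_apply, inv_inv,
      map_mul, map_mul, map_inv]
    have e : ((((ρ₀ g)⁻¹ : SpecialLinearGroup (Fin 2) F) : Matrix (Fin 2) (Fin 2) F)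
          * ((ρ₀ l : SpecialLinearGroup (Fin 2) F) : Matrix (Fin 2) (Fin 2) F))
        = (((ρ₀ g)⁻¹ * ρ₀ l * ρ₀ g : SpecialLinearGroup (Fin 2) F) : Matrix (Fin 2) (Fin 2) F)
          * (((ρ₀ g)⁻¹ : SpecialLinearGroup (Fin 2) F) : Matrix (Fin 2) (Fin 2) F) :=
      congrArg Subtype.val (show (ρ₀ g)⁻¹ * ρ₀ l = ((ρ₀ g)⁻¹ * ρ₀ l * ρ₀ g) * (ρ₀ g)⁻¹ by group)
    rw [e]
  · intro l
    rw [hT]
    have h1 : (l : G) ∈ (S : Subgroup ↥L).map L.subtype ↔ l ∈ S := by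
      constructor
      · rintro ⟨l', hl', h⟩
        have : l' = l := Subtype.ext h
        rw [← this]; exact hl'
      · intro h; exact ⟨l, h, rfl⟩
    rw [h1, hS]
    show _ ↔ ρ₀ (MulAut.conj g⁻¹ l) ∈ _
    rw [MulAut.conj_apply, inv_inv]
  · rw [hT]
    rintro _ ⟨l, _, rfl⟩
    exact l.2

section coords

variable {V L T : Subgroup G} {ρ : L →* SpecialLinearGroup (Fin 2) F}
  {ψ : Additive V ≃+ (Fin 2 → F)}

/-- coordinates of an element of `V` -/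
def co (ψ : Additive V ≃+ (Fin 2 → F)) (v : V) : Fin 2 → F := ψ (Additive.ofMul v)

theorem co_inj {v w : V} (h : co ψ v = co ψ w) : v = w :=
  Additive.ofMul.injective (ψ.injective h)

theorem co_surj (c : Fin 2 → F) : ∃ v : V, co ψ v = c := by
  obtain ⟨a, ha⟩ := ψ.surjective c
  exact ⟨a.toMul, ha⟩

theorem co_mul (v w : V) : co ψ (v * w) = co ψ v + co ψ w := by
  unfold co
  rw [ofMul_mul, map_add]

theorem co_one : co ψ (1 : V) = 0 := by
  unfold co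
  rw [ofMul_one, map_zero]

theorem co_inv (v : V) : co ψ v⁻¹ = - co ψ v := by
  unfold co
  rw [ofMul_inv, map_neg]

theorem conj_elt (h : IsDat V L T ρ ψ) (l : L) (v : V) :
    ∃ w : V, (w : G) = (l : G) * v * (l : G)⁻¹ ∧ co ψ w = (ρ l).1.mulVec (co ψ v) :=
  h.2.2.1 l v

theorem comm_iff (h : IsDat V L T ρ ψ) (l : L) (v : V) :
    (l : G) * v = v * l ↔ (ρ l).1.mulVec (co ψ v) = co ψ v := by
  obtain ⟨w, hw, hw'⟩ := conj_elt h l v
  rw [← hw']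
  constructor
  · intro h1
    have : w = v := Subtype.ext (by rw [hw, h1]; group)
    rw [this]
  · intro h1
    have h2 := congrArg Subtype.val (co_inj h1)
    rw [hw] at h2
    exact mul_inv_eq_iff_eq_mul.1 h2

theorem comm_elt (h : IsDat V L T ρ ψ) (l : L) (v : V) :
    ∃ w : V, (w : G) = (v : G) * l * (v : G)⁻¹ * (l : G)⁻¹ ∧
      co ψ w = co ψ v - (ρ l).1.mulVec (co ψ v) := by
  obtain ⟨w, hw, hw'⟩ := conj_elt h l v
  refine ⟨v * w⁻¹, ?_, ?_⟩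
  · rw [Subgroup.coe_mul, Subgroup.coe_inv, hw]; group
  · rw [co_mul, co_inv, hw', sub_eq_add_neg]

theorem t_mulVec (b : F) (c : Fin 2 → F) :
    (t b : SpecialLinearGroup (Fin 2) F).1.mulVec c = ![c 0 + b * c 1, c 1] := by
  rw [show (t b : SpecialLinearGroup (Fin 2) F).1 = !![1, b; 0, 1] from rfl]
  ext i
  fin_cases i <;> simp [Matrix.mulVec, dotProduct, Fin.sum_univ_two]

theorem exists_T (h : IsDat V L T ρ ψ) (b : F) : ∃ l : L, (l : G) ∈ T ∧ ρ l = t b := by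
  obtain ⟨l, hl⟩ := h.1 (t b)
  exact ⟨l, (h.2.2.2.1 l).2 (by rw [hl, mem_U]; exact ⟨b, rfl⟩), hl⟩

theorem of_mem_T (h : IsDat V L T ρ ψ) {s : G} (hs : s ∈ T) :
    ∃ (l : L) (b : F), (l : G) = s ∧ ρ l = t b ∧ (s ≠ 1 → b ≠ 0) := by
  have h1 := (h.2.2.2.1 ⟨s, h.2.2.2.2 hs⟩).1 hs
  rw [mem_U] at h1
  obtain ⟨b, hb⟩ := h1
  refine ⟨⟨s, h.2.2.2.2 hs⟩, b, rfl, hb.symm, ?_⟩
  rintro hs1 rfl
  apply hs1
  rw [t_zero] at hb
  have h2 : (⟨s, h.2.2.2.2 hs⟩ : L) = 1 := h.2.1 (by rw [← hb, map_one])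
  exact congrArg Subtype.val h2

theorem fix_t_iff (b : F) (hb : b ≠ 0) (c : Fin 2 → F) :
    (t b : SpecialLinearGroup (Fin 2) F).1.mulVec c = c ↔ c 1 = 0 := by
  rw [t_mulVec]
  constructor
  · intro h
    have h0 := congrFun h 0
    simp only [Matrix.cons_val_zero] at h0
    have : b * c 1 = 0 := by linear_combination h0
    rcases mul_eq_zero.1 this with h1 | h1
    · exact absurd h1 hb
    · exact h1
  · intro h
    ext i
    fin_cases i <;> simp [h]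

theorem mem_cent_single (h : IsDat V L T ρ ψ) {s : G} (hs : s ∈ T) (hs1 : s ≠ 1) (x : G) :
    x ∈ V ⊓ Subgroup.centralizer ({s} : Set G) ↔ ∃ hx : x ∈ V, co ψ ⟨x, hx⟩ 1 = 0 := by
  obtain ⟨l, b, hl, hρ, hb⟩ := of_mem_T h hs
  rw [Subgroup.mem_inf, Subgroup.mem_centralizer_singleton_iff]
  constructor
  · rintro ⟨hx, hc⟩
    refine ⟨hx, ?_⟩
    have h1 := (comm_iff h l ⟨x, hx⟩).1 (by rw [hl]; exact hc.symm)
    rw [hρ] at h1
    exact (fix_t_iff b (hb hs1) _).1 h1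
  · rintro ⟨hx, hc⟩
    refine ⟨hx, ?_⟩
    have h1 := (comm_iff h l ⟨x, hx⟩).2 (by rw [hρ]; exact (fix_t_iff b (hb hs1) _).2 hc)
    rw [hl] at h1
    exact h1.symm

theorem mem_C0 (h : IsDat V L T ρ ψ) (x : G) :
    x ∈ V ⊓ Subgroup.centralizer (T : Set G) ↔ ∃ hx : x ∈ V, co ψ ⟨x, hx⟩ 1 = 0 := by
  rw [Subgroup.mem_inf, Subgroup.mem_centralizer_iff]
  constructor
  · rintro ⟨hx, hc⟩
    refine ⟨hx, ?_⟩
    obtain ⟨l, hl, hρ⟩ := exists_T h (1 : F)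
    have h1 := (comm_iff h l ⟨x, hx⟩).1 (hc _ hl)
    rw [hρ] at h1
    exact (fix_t_iff 1 one_ne_zero _).1 h1
  · rintro ⟨hx, hc⟩
    refine ⟨hx, fun s hs => ?_⟩
    obtain ⟨l, b, hl, hρ, -⟩ := of_mem_T h hs
    have h1 := (comm_iff h l ⟨x, hx⟩).2 (by
      rw [hρ, t_mulVec]
      ext i
      fin_cases i <;> simp [hc])
    rw [hl] at h1
    exact h1

theorem comm_mem_C0 (h : IsDat V L T ρ ψ) {v s : G} (hv : v ∈ V) (hs : s ∈ T) :
    v * s * v⁻¹ * s⁻¹ ∈ V ⊓ Subgroup.centralizer (T : Set G) := by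
  obtain ⟨l, b, hl, hρ, -⟩ := of_mem_T h hs
  obtain ⟨w, hw, hw'⟩ := comm_elt h l ⟨v, hv⟩
  rw [mem_C0 h]
  rw [hl] at hw
  refine ⟨hw ▸ w.2, ?_⟩
  have : (⟨v * s * v⁻¹ * s⁻¹, hw ▸ w.2⟩ : V) = w := Subtype.ext hw.symm
  rw [this, hw', hρ, t_mulVec]
  simp

/-- every element of `C_V(T)` is a commutator `[v, s]` as soon as the product of the relevant
coordinates can be prescribed. -/
theorem eq_comm_of (h : IsDat V L T ρ ψ) {x : G} (hx : x ∈ V ⊓ Subgroup.centralizer (T : Set G))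
    (v : V) (l : L) (b : F) (hρ : ρ l = t b)
    (hb : ∀ hx' : x ∈ V, - (b * co ψ v 1) = co ψ ⟨x, hx'⟩ 0) :
    x = (v : G) * l * (v : G)⁻¹ * (l : G)⁻¹ := by
  obtain ⟨hxV, hx1⟩ := (mem_C0 h x).1 hx
  obtain ⟨w, hw, hw'⟩ := comm_elt h l v
  rw [← hw]
  have : (⟨x, hxV⟩ : V) = w := by
    apply co_inj (ψ := ψ)
    rw [hw', hρ, t_mulVec]
    ext i
    fin_cases i
    · simp [← hb hxV]
    · simp [hx1]
  exact congrArg Subtype.val this

end coords

end Cfsg.Agent.Lib.Helper55Nat
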