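import Mathlib
import Cfsg.Agent.Lib.Helper55Nat

/-! # Natural `SL₂(F)`-modules, part 2 (helper55) -/

set_option autoImplicit false

namespace Cfsg.Agent.Lib.Helper55Nat2

open Matrix Cfsg.Agent.Lib.Helper6SL2Syl Cfsg.Agent.Lib.Helper55Nat

variable {G : Type*} [Group G] {F : Type*} [Field F]

/-- an element of `SL₂(F)` fixing a nonzero vector is unipotent. -/
theorem pow_char_eq_one (p : ℕ) [Fact p.Prime] [CharP F p] (A : SpecialLinearGroup (Fin 2) F)
    (c : Fin 2 → F) (hc : c ≠ 0) (hA : A.1.mulVec c = c) : A ^ p = 1 := by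
  have hdet := det_eq A
  have hN : (A.1 - 1).det = 0 := by
    rw [← Matrix.exists_mulVec_eq_zero_iff]
    exact ⟨c, hc, by rw [Matrix.sub_mulVec, hA, Matrix.one_mulVec, sub_self]⟩
  rw [Matrix.det_fin_two] at hN
  simp only [Matrix.sub_apply, Matrix.one_apply_eq, Matrix.one_apply_ne (zero_ne_one : (0 : Fin 2) ≠ 1),
    Matrix.one_apply_ne (one_ne_zero : (1 : Fin 2) ≠ 0), sub_zero] at hN
  have htr : A.1 0 0 + A.1 1 1 = 2 := by linear_combination hdet - hN
  have hNN : (A.1 - 1) * (A.1 - 1) = 0 := by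
    ext i j
    fin_cases i <;> fin_cases j <;>
      simp [Matrix.mul_apply, Fin.sum_univ_two]
    · linear_combination -hN + (A.1 0 0 - 1) * htr
    · linear_combination (A.1 0 1) * htr
    · linear_combination (A.1 1 0) * htr
    · linear_combination -hN + (A.1 1 1 - 1) * htr
  have hp2 : 2 ≤ p := (Fact.out : p.Prime).two_le
  have hNp : (A.1 - 1) ^ p = 0 := by
    obtain ⟨k, rfl⟩ := Nat.exists_eq_add_of_le hp2
    rw [pow_add, pow_two, hNN, zero_mul]
  have e1 : (A ^ p).1 = A.1 ^ p := Matrix.SpecialLinearGroup.coe_pow A p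
  apply Subtype.ext
  refine e1.trans ?_
  have h1 : A.1 = (A.1 - 1) + 1 := by abel
  rw [h1, add_pow_char_of_commute _ (Commute.one_right _), hNp, one_pow, zero_add]
  rfl

/-- the diagonal element -/
def dg (a : F) (ha : a ≠ 0) : SpecialLinearGroup (Fin 2) F :=
  ⟨!![a, 0; 0, a⁻¹], by simp [Matrix.det_fin_two, ha]⟩

theorem dg_mulVec (a : F) (ha : a ≠ 0) (c : Fin 2 → F) :
    (dg a ha).1.mulVec c = ![a * c 0, a⁻¹ * c 1] := by
  rw [show (dg a ha).1 = !![a, 0; 0, a⁻¹] from rfl]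
  ext i
  fin_cases i <;> simp [Matrix.mulVec, dotProduct, Fin.sum_univ_two]

section coords

variable {V L T : Subgroup G} {ρ : L →* SpecialLinearGroup (Fin 2) F}
  {ψ : Additive V ≃+ (Fin 2 → F)}

theorem V_comm (ψ : Additive V ≃+ (Fin 2 → F)) (a b : V) : a * b = b * a := by
  apply co_inj (ψ := ψ)
  rw [co_mul, co_mul, add_comm]

theorem mem_normalizer_T (h : IsDat V L T ρ ψ) (l : L) (h10 : (ρ l).1 1 0 = 0) :
    (l : G) ∈ Subgroup.normalizer (T : Set G) := by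
  have hN := mem_normalizer_of_entry_zero (ρ l) h10
  rw [Subgroup.mem_normalizer_iff] at hN ⊢
  intro x
  by_cases hx : x ∈ L
  · have h1 := h.2.2.2.1 ⟨x, hx⟩
    have h2 := h.2.2.2.1 (l * ⟨x, hx⟩ * l⁻¹)
    have h3 := hN (ρ ⟨x, hx⟩)
    rw [map_mul, map_mul, map_inv] at h2
    exact h1.trans (h3.trans h2.symm)
  · constructor
    · intro hxT; exact absurd (h.2.2.2.2 hxT) hx
    · intro hxT
      exfalso; apply hx
      have h1 := h.2.2.2.2 hxT
      have h2 := L.mul_mem (L.mul_mem (L.inv_mem l.2) h1) l.2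
      have e : (l : G)⁻¹ * ((l : G) * x * (l : G)⁻¹) * l = x := by group
      rwa [e] at h2

theorem exists_dg (h : IsDat V L T ρ ψ) (a : F) (ha : a ≠ 0) :
    ∃ l : L, (l : G) ∈ L ⊓ Subgroup.normalizer (T : Set G) ∧ ρ l = dg a ha := by
  obtain ⟨l, hl⟩ := h.1 (dg a ha)
  exact ⟨l, Subgroup.mem_inf.2 ⟨l.2, mem_normalizer_T h l (by rw [hl]; rfl)⟩, hl⟩

theorem mem_Cg (h : IsDat V L T ρ ψ) (g : L) (x : G) :
    x ∈ V ⊓ Subgroup.centralizer ((T.map (MulAut.conj (g : G)).toMonoidHom : Subgroup G) : Set G) ↔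
      ∃ hx : x ∈ V, (ρ g).1 0 0 * co ψ ⟨x, hx⟩ 1 = (ρ g).1 1 0 * co ψ ⟨x, hx⟩ 0 := by
  have key : ∀ hx : x ∈ V, (x ∈ Subgroup.centralizer
      ((T.map (MulAut.conj (g : G)).toMonoidHom : Subgroup G) : Set G) ↔
      (ρ g).1 0 0 * co ψ ⟨x, hx⟩ 1 = (ρ g).1 1 0 * co ψ ⟨x, hx⟩ 0) := by
    intro hx
    obtain ⟨w, hw, hw'⟩ := conj_elt h g⁻¹ ⟨x, hx⟩
    have h1 : x ∈ Subgroup.centralizer
        ((T.map (MulAut.conj (g : G)).toMonoidHom : Subgroup G) : Set G) ↔
        (w : G) ∈ V ⊓ Subgroup.centralizer (T : Set G) := by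
      rw [Subgroup.mem_inf, Subgroup.mem_centralizer_iff, Subgroup.mem_centralizer_iff]
      constructor
      · intro hc
        refine ⟨w.2, fun s hs => ?_⟩
        have h2 := hc ((g : G) * s * (g : G)⁻¹) ⟨s, hs, by simp⟩
        rw [hw]
        simp only [Subgroup.coe_inv, inv_inv]
        calc s * ((g : G)⁻¹ * x * g) = (g : G)⁻¹ * ((g : G) * s * (g : G)⁻¹ * x) * g := by group
          _ = (g : G)⁻¹ * (x * ((g : G) * s * (g : G)⁻¹)) * g := by rw [h2]
          _ = (g : G)⁻¹ * x * g * s := by group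
      · rintro ⟨-, hc⟩ _ ⟨s, hs, rfl⟩
        have h2 := hc s hs
        rw [hw] at h2
        simp only [Subgroup.coe_inv, inv_inv] at h2
        show (g : G) * s * (g : G)⁻¹ * x = x * ((g : G) * s * (g : G)⁻¹)
        calc (g : G) * s * (g : G)⁻¹ * x = g * (s * ((g : G)⁻¹ * x * g)) * (g : G)⁻¹ := by group
          _ = g * ((g : G)⁻¹ * x * g * s) * (g : G)⁻¹ := by rw [h2]
          _ = x * ((g : G) * s * (g : G)⁻¹) := by group
    rw [h1, mem_C0 h]
    have h3 : co ψ w 1 = - (ρ g).1 1 0 * co ψ ⟨x, hx⟩ 0 + (ρ g).1 0 0 * co ψ ⟨x, hx⟩ 1 := by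
      have e2 : ((ρ g)⁻¹).1 = Matrix.adjugate (ρ g).1 := Matrix.SpecialLinearGroup.coe_inv _
      rw [hw', map_inv, e2, Matrix.adjugate_fin_two]
      simp [Matrix.mulVec, dotProduct, Fin.sum_univ_two]
    constructor
    · rintro ⟨hw2, hw3⟩
      have : (⟨(w : G), hw2⟩ : V) = w := rfl
      rw [this, h3] at hw3
      linear_combination hw3
    · intro h4
      refine ⟨w.2, ?_⟩
      show co ψ w 1 = 0
      rw [h3]; linear_combination h4
  rw [Subgroup.mem_inf]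
  constructor
  · rintro ⟨hx, hc⟩; exact ⟨hx, (key hx).1 hc⟩
  · rintro ⟨hx, hc⟩; exact ⟨hx, (key hx).2 hc⟩

end coords

end Cfsg.Agent.Lib.Helper55Nat2
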