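import Cfsg.Agent.Lib.Helper55FF3

set_option autoImplicit false

/-! The Sylow 2-subgroups of a group with a section `SL₂(3)` are not abelian. -/

namespace Cfsg.Agent.Lib.Helper55FF

open Subgroup Cfsg.Agent.Lib.Helper55SL2

theorem q8_step : ∀ y : SL2 3, y ^ 4 = 1 → (qi * y) ^ 4 = 1 ∧ (qi ^ 3 * y) ^ 4 = 1 ∧
    (qj * y) ^ 4 = 1 ∧ (qj ^ 3 * y) ^ 4 = 1 := by decide

theorem qi_inv : qi⁻¹ = qi ^ 3 := by
  rw [inv_eq_iff_mul_eq_one, ← pow_succ', qi_pow]

theorem qj_inv : qj⁻¹ = qj ^ 3 := by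
  rw [inv_eq_iff_mul_eq_one, ← pow_succ', qj_pow]

theorem pow_four_of_mem_closure {x : SL2 3} (hx : x ∈ Subgroup.closure ({qi, qj} : Set (SL2 3))) :
    x ^ 4 = 1 := by
  induction hx using closure_induction_left with
  | one => simp
  | mul_left x hx y _ ih =>
    rcases hx with rfl | rfl
    · exact (q8_step y ih).1
    · exact (q8_step y ih).2.2.1
  | inv_mul_cancel x hx y _ ih =>
    rcases hx with rfl | rfl
    · rw [qi_inv]; exact (q8_step y ih).2.1
    · rw [qj_inv]; exact (q8_step y ih).2.2.2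

theorem isPGroup_q8 : IsPGroup 2 (Subgroup.closure ({qi, qj} : Set (SL2 3))) := by
  intro x
  refine ⟨2, ?_⟩
  apply Subtype.ext
  exact pow_four_of_mem_closure x.2

/-- a finite group with abelian Sylow 2-subgroups has no section `SL₂(3)`. -/
theorem false_of_section {G : Type*} [Group G] [Finite G] (h2 : ∀ T : Sylow 2 G, IsMulCommutative T)
    (E : Subgroup G) (f : ↥E →* SL2 3) (hf : Function.Surjective f) : False := by
  obtain ⟨T', hT'⟩ := isPGroup_q8.exists_le_sylow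
  obtain ⟨T, hT⟩ := Sylow.mapSurjective_surjective hf 2 T'
  have hT2 : (T : Subgroup ↥E).map f = T' := by
    rw [← hT, Sylow.coe_mapSurjective]
  have h1 : IsPGroup 2 ((T : Subgroup ↥E).map E.subtype) := T.2.map _
  obtain ⟨S, hS⟩ := h1.exists_le_sylow
  have hcomm := isMulCommutative_iff.1 (h2 S)
  have hi : qi ∈ (T : Subgroup ↥E).map f := by
    rw [hT2]; exact hT' (subset_closure (by simp))
  have hj : qj ∈ (T : Subgroup ↥E).map f := by
    rw [hT2]; exact hT' (subset_closure (by simp))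
  obtain ⟨x, hx, hxi⟩ := hi
  obtain ⟨y, hy, hyj⟩ := hj
  have h3 := hcomm ⟨(x : G), hS ⟨x, hx, rfl⟩⟩ ⟨(y : G), hS ⟨y, hy, rfl⟩⟩
  have h4 : (x : G) * y = y * x := congrArg Subtype.val h3
  have h5 : x * y = y * x := Subtype.ext h4
  apply qi_qj
  rw [← hxi, ← hyj, ← map_mul, ← map_mul, h5]

end Cfsg.Agent.Lib.Helper55FF
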