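import Cfsg.Agent.S0622
import Cfsg.Agent.S0623
import Cfsg.Agent.S0607
import Cfsg.Agent.Lib.Helper55JStruct
import Cfsg.Agent.Lib.Helper55Act
import Cfsg.Agent.Lib.Helper55FF
import Cfsg.Agent.Lib.Helper3MetaAut

set_option autoImplicit false

/-! The stable normal closure `W(S)` is normal in action-`p`-stable groups of characteristic `p`
(Kurzweil–Stellmacher 9.4.4). -/

namespace Cfsg.Agent.Lib.Helper55WS

open Subgroup Cfsg Cfsg.Agent.Lib.Helper40Sylow Cfsg.Agent.Lib.Helper13Thompson2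
  Cfsg.Agent.Lib.Helper14Quad Cfsg.Agent.Lib.Helper55Core Cfsg.Agent.Lib.Helper55Act
open scoped commutatorElement

variable {G : Type*} [Group G]

/-- the kernel of the action on `Q / Φ(Q)` is a `p`-group when `C_G(Q) ≤ Q`. -/
theorem isPGroup_of_trivial_mod_frattini [Finite G] {p : ℕ} [Fact p.Prime] {Q : Subgroup G} [hQn : Q.Normal]
    (hQ : IsPGroup p Q) (hc : centralizer (Q : Set G) ≤ Q) (K : Subgroup G)
    (hK : ∀ x ∈ K, ∀ q ∈ Q, q⁻¹ * (x * q * x⁻¹) ∈ (frattini ↥Q).map Q.subtype) : IsPGroup p K := by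
  apply isPGroup_of_forall_coprime
  intro x hx k hk hxk
  set α : MulAut ↥Q := MulAut.conjNormal x with hα
  have hαk : α ^ k = 1 := by rw [hα, ← map_pow, hxk, map_one]
  have hord : (orderOf α).Coprime p := Nat.Coprime.coprime_dvd_left (orderOf_dvd_of_pow_eq_one hαk) hk
  have h1 : α = 1 := by
    apply Cfsg.Agent.Lib.Helper3MetaAut.eq_one_of_trivial_mod_frattini hQ α hord
    intro q
    obtain ⟨f, hf, hfe⟩ := hK x hx q q.2
    have : q⁻¹ * α q = f := by
      apply Subtype.ext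
      have hfe' : (f : G) = (q : G)⁻¹ * (x * q * x⁻¹) := hfe
      rw [hfe']
      simp [hα, MulAut.conjNormal_apply]
    rw [this]; exact hf
  have h2 : x ∈ centralizer (Q : Set G) := by
    rw [mem_centralizer_iff]
    intro q hq
    have h3 : α ⟨q, hq⟩ = ⟨q, hq⟩ := by rw [h1]; rfl
    have h4 : x * q * x⁻¹ = q := by
      have := congrArg Subtype.val h3
      simpa [hα, MulAut.conjNormal_apply] using this
    exact (mul_inv_eq_iff_eq_mul.1 h4).symm
  obtain ⟨j, hj⟩ := hQ ⟨x, hc h2⟩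
  have hj' : x ^ (p ^ j) = 1 := congrArg Subtype.val hj
  exact eq_one_of_coprime_pow (Nat.Coprime.pow_right j hk) hxk hj'

theorem elemAb_omegaOne_center (p : ℕ) (X : Subgroup G) :
    IsElementaryAbelian p (omegaOne p (X ⊓ centralizer (X : Set G))) := by
  have hc : ∀ a ∈ X ⊓ centralizer (X : Set G), ∀ b ∈ X ⊓ centralizer (X : Set G), a * b = b * a :=
    fun a ha b hb => ((mem_centralizer_iff.1 hb.2) a ha.1)
  refine ⟨?_, ?_⟩
  · rw [isMulCommutative_iff]
    rintro ⟨u, hu⟩ ⟨v, hv⟩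
    apply Subtype.ext
    exact hc _ (Cfsg.Agent.Lib.Helper52Basic.mem_omegaOne_of_comm hc hu).1 _
      (Cfsg.Agent.Lib.Helper52Basic.mem_omegaOne_of_comm hc hv).1
  · intro u hu
    exact (Cfsg.Agent.Lib.Helper52Basic.mem_omegaOne_of_comm hc hu).2

structure WData (p : ℕ) (S W : Subgroup G) : Prop where
  hWS : W ≤ S
  hnorm : S ≤ normalizer (W : Set G)
  hel : IsElementaryAbelian p W
  hP : ∀ a ∈ S, ⁅⁅W, zpowers a⁆, zpowers a⁆ = ⊥ → ∀ w ∈ W, w * a = a * w

namespace WData

variable {p : ℕ} {S W : Subgroup G}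

theorem cj (D : WData p S W) (g : G) : WData p (cj g S) (cj g W) where
  hWS := cj_mono D.hWS
  hnorm := by rw [normalizer_cj]; exact cj_mono D.hnorm
  hel := Cfsg.Agent.Lib.Helper13Thompson.el_map D.hel _
  hP := by
    rintro _ ⟨a, ha, rfl⟩ hq _ ⟨w, hw, rfl⟩
    have h1 := (quad_map_iff (τ := (MulAut.conj g).toMonoidHom) (MulAut.conj g).injective W a).1 hq
    have h2 := D.hP a ha h1 w hw
    rw [← map_mul, ← map_mul, h2]

theorem comm (D : WData p S W) {u v : G} (hu : u ∈ W) (hv : v ∈ W) : u * v = v * u :=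
  Cfsg.Agent.Lib.Helper55FF.comm_of_elemAb D.hel hu hv

/-- `W ≤ O_p(G)`. -/
theorem le_pCore [Finite G] [Fact p.Prime] (D : WData p S W)
    (hQS : pCore p G ≤ S)
    (hc : centralizer (pCore p G : Set G) ≤ pCore p G)
    (hst : IsPStableOnSection p (pCore p G) ((frattini ↥(pCore p G)).map (pCore p G).subtype)) :
    W ≤ pCore p G := by
  intro a ha
  have hq : ⁅⁅pCore p G, zpowers a⁆, zpowers a⁆ = ⊥ := by
    rw [quad_iff]
    intro v hv
    have h1 : ⁅v, a⁆ ∈ W := by
      rw [commutatorElement_def]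
      exact mul_mem (conj_mem_of_mem_normalizer (D.hnorm (hQS hv)) ha) (inv_mem ha)
    exact D.comm h1 ha
  obtain ⟨E, hEn, hle, ⟨k, hk⟩, haE⟩ := hst a (by rw [hq]; exact bot_le)
  have hKp : IsPGroup p (sectionKernel (pCore p G) ((frattini ↥(pCore p G)).map (pCore p G).subtype)) := by
    apply isPGroup_of_trivial_mod_frattini isPGroup_pCore hc
    intro x hx q hq
    have h1 := (mem_centralizer_iff.1 hx) _ ⟨q, hq, rfl⟩
    rw [← QuotientGroup.eq_one_iff]
    have h2 : ((q⁻¹ * (x * q * x⁻¹) : G) : G ⧸ (frattini ↥(pCore p G)).map (pCore p G).subtype)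
        = (QuotientGroup.mk' _ q)⁻¹ * (QuotientGroup.mk' _ x * QuotientGroup.mk' _ q
            * (QuotientGroup.mk' _ x)⁻¹) := rfl
    rw [h2, ← h1]
    group
  have hEp : IsPGroup p E := by
    obtain ⟨j, hj⟩ := IsPGroup.iff_card.1 hKp
    have h1 := Cfsg.Agent.Lib.Helper27Core.card_mul_relIndex hle
    rw [hj, hk, ← pow_add] at h1
    exact IsPGroup.of_card h1.symm
  exact Cfsg.Agent.Lib.Helper55Core.le_pCore E hEn hEp haE

/-- `W` commutes with its conjugates. -/
theorem comm_cj [Finite G] (D : WData p S W) (hWQ : W ≤ pCore p G) (hQS : pCore p G ≤ S) (k : G)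
    {w u : G} (hw : w ∈ W) (hu : u ∈ Helper40Sylow.cj k W) : w * u = u * w := by
  have hQk : Helper40Sylow.cj k (pCore p G) = pCore p G :=
    mem_normalizer_iff_cj.1 (by rw [normalizer_eq_top]; exact mem_top k)
  have huQ : u ∈ pCore p G := by rw [← hQk]; exact cj_mono hWQ hu
  apply D.hP u (hQS huQ) _ w hw
  rw [quad_iff]
  intro v hv
  have hvk : v ∈ Helper40Sylow.cj k S := by
    have : pCore p G ≤ Helper40Sylow.cj k S := by rw [← hQk]; exact cj_mono hQS
    exact this (hWQ hv)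
  have h1 : ⁅v, u⁆ ∈ Helper40Sylow.cj k W := by
    rw [commutatorElement_def]
    exact mul_mem (conj_mem_of_mem_normalizer ((D.cj k).hnorm hvk) hu) (inv_mem hu)
  exact (D.cj k).comm h1 hu

/-- the normal closure of `W` -/
abbrev XW (W : Subgroup G) : Subgroup G := normalClosure (W : Set G)

theorem cj_le_XW (W : Subgroup G) (g : G) : Helper40Sylow.cj g W ≤ XW W := by
  rintro _ ⟨w, hw, rfl⟩
  exact (normalClosure_normal (s := (W : Set G))).conj_mem w (subset_normalClosure hw) g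

theorem elemAb_XW [Finite G] (D : WData p S W) (hWQ : W ≤ pCore p G) (hQS : pCore p G ≤ S) :
    IsElementaryAbelian p (XW W) := by
  unfold XW normalClosure
  apply Cfsg.Agent.Lib.Helper14ElemAb.elemAb_closure
  · intro x hx y hy
    rw [Group.mem_conjugatesOfSet_iff] at hx hy
    obtain ⟨w, hw, hwx⟩ := hx
    obtain ⟨w', hw', hwy⟩ := hy
    obtain ⟨g, rfl⟩ := isConj_iff.1 hwx
    obtain ⟨h, rfl⟩ := isConj_iff.1 hwy
    have h1 : (g⁻¹ * h) * w' * (g⁻¹ * h)⁻¹ ∈ Helper40Sylow.cj (g⁻¹ * h) W := conj_mem_cj hw'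
    have h2 := D.comm_cj hWQ hQS (g⁻¹ * h) hw h1
    calc g * w * g⁻¹ * (h * w' * h⁻¹) = g * (w * ((g⁻¹ * h) * w' * (g⁻¹ * h)⁻¹)) * g⁻¹ := by group
      _ = g * (((g⁻¹ * h) * w' * (g⁻¹ * h)⁻¹) * w) * g⁻¹ := by rw [h2]
      _ = _ := by group
  · intro x hx
    rw [Group.mem_conjugatesOfSet_iff] at hx
    obtain ⟨w, hw, hwx⟩ := hx
    obtain ⟨g, rfl⟩ := isConj_iff.1 hwx
    rw [conj_pow, D.hel.2 w hw]; simp

theorem normalClosure_le_normal_of_subset_conj {W : Subgroup G} (a : G)
    (key : ∀ g : G, ∀ w ∈ Helper40Sylow.cj g W, w * a = a * w) : XW W ≤ centralizer {a} := by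
  unfold XW normalClosure
  rw [closure_le]
  intro x hx
  rw [Group.mem_conjugatesOfSet_iff] at hx
  obtain ⟨w, hw, hwx⟩ := hx
  obtain ⟨g, rfl⟩ := isConj_iff.1 hwx
  rw [SetLike.mem_coe, mem_centralizer_singleton_iff]
  exact key g _ (conj_mem_cj hw)

/-- an element acting quadratically on `X` centralizes `X`. -/
theorem mem_centralizer_of_quad [Finite G] [Fact p.Prime] {S : Sylow p G}
    (D : WData p (S : Subgroup G) W) (hst : IsPStableOn p (XW W)) {a : G}
    (ha : ⁅⁅XW W, zpowers a⁆, zpowers a⁆ = ⊥) : a ∈ centralizer (XW W : Set G) := by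
  have h1 := hst a ha
  set C := centralizer (XW W : Set G) with hC
  have key : ∀ g : G, ∀ w ∈ Helper40Sylow.cj g W, w * a = a * w := by
    intro g w hw
    have h2 : pCore p (G ⧸ C) ≤ ((g • S : Sylow p G) : Subgroup G).map (QuotientGroup.mk' C) := by
      apply sSup_le
      rintro N ⟨hN, hNp⟩
      exact hNp.le_sylow_of_normal ((g • S : Sylow p G).mapSurjective (QuotientGroup.mk'_surjective C))
    obtain ⟨y, hy, hya⟩ := h2 h1
    rw [SetLike.mem_coe, sylow_smul_eq_cj] at hy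
    have hc : a⁻¹ * y ∈ C := by
      rw [← QuotientGroup.eq]; exact hya.symm
    have hy' : y = a * (a⁻¹ * y) := by group
    have h3 : ⁅⁅XW W, zpowers y⁆, zpowers y⁆ = ⊥ := by
      rw [hy']; exact quad_mul_centralizer (XW W) hc ha
    have h4 : ⁅⁅Helper40Sylow.cj g W, zpowers y⁆, zpowers y⁆ = ⊥ := by
      rw [eq_bot_iff, ← h3]
      exact commutator_mono (commutator_mono (cj_le_XW W g) le_rfl) le_rfl
    have h5 := (D.cj g).hP y hy h4 w hw
    have h6 : w * (a⁻¹ * y) = (a⁻¹ * y) * w := (mem_centralizer_iff.1 hc) w (cj_le_XW W g hw)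
    have h7 : a = y * (a⁻¹ * y)⁻¹ := by group
    have h8 : w * (a⁻¹ * y)⁻¹ = (a⁻¹ * y)⁻¹ * w := by
      have : Commute w (a⁻¹ * y) := h6
      exact this.inv_right.eq
    calc w * a = w * (y * (a⁻¹ * y)⁻¹) := by rw [← h7]
      _ = (w * y) * (a⁻¹ * y)⁻¹ := by group
      _ = y * (w * (a⁻¹ * y)⁻¹) := by rw [h5]; group
      _ = (y * (a⁻¹ * y)⁻¹) * w := by rw [h8]; group
      _ = a * w := by rw [← h7]
  have h9 : XW W ≤ centralizer {a} := by
    apply normalClosure_le_normal_of_subset_conj a key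
  rw [hC, mem_centralizer_iff]
  intro x hx
  exact (mem_centralizer_singleton_iff.1 (h9 hx))

theorem relMax_mem_max [Finite G] [Fact p.Prime] (S : Sylow p G) {A : Subgroup G}
    (hA : A ∈ relMax p (S : Subgroup G)) : A ∈ maxElementaryAbelianSubgroups p G := by
  refine ⟨hA.2.1, fun E hE => ?_⟩
  obtain ⟨x, -, hx⟩ := (isSylowIn_top S).exists_conj_le
    (Cfsg.Agent.Lib.Helper55FF.isPGroup_of_elemAb hE) le_top
  rw [← card_cj x E]
  exact hA.2.2 _ hx (Cfsg.Agent.Lib.Helper13Thompson.el_map hE _)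

/-- `J(S)` centralizes the normal closure of `W`. -/
theorem J_le_centralizer [Finite G] [Fact p.Prime] {S : Sylow p G}
    (D : WData p (S : Subgroup G) W) (hX : IsElementaryAbelian p (XW W))
    (hst : IsPStableOn p (XW W)) :
    thompsonSubgroupOf p (S : Subgroup G) ≤ centralizer (XW W : Set G) := by
  rw [thompsonOf_eq]
  apply sSup_le
  intro A hA
  obtain ⟨-, h2, h3⟩ := Cfsg.Agent.S0607.result (XW W) hX A (relMax_mem_max S hA)
  set A₀ : Subgroup G := ⁅XW W, A⁆ ⊔ (A ⊓ centralizer ((⁅XW W, A⁆ : Subgroup G) : Set G)) with hA₀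
  have h4 : A₀ ≤ centralizer (XW W : Set G) := by
    intro a ha
    apply D.mem_centralizer_of_quad hst
    rw [eq_bot_iff, ← h2]
    exact commutator_mono (commutator_mono le_rfl (zpowers_le.2 ha)) (zpowers_le.2 ha)
  have h5 : ⁅XW W, A₀⁆ = ⊥ := commutator_eq_bot_iff.2 h4
  by_contra hcon
  exact h3 (fun h => hcon (commutator_eq_bot_iff.1 h)) h5

/-- the final Frattini argument -/
theorem normal [Finite G] [Fact p.Prime] {S : Sylow p G}
    (hJ : thompsonSubgroupOf p (S : Subgroup G) ≤ centralizer (XW W : Set G))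
    (hN : normalizer (thompsonSubgroupOf p (S : Subgroup G) : Set G) ≤ normalizer (W : Set G)) :
    W.Normal := by
  constructor
  intro w hw g
  obtain ⟨c, hc, n, hn, rfl⟩ := frattini_elt (centralizer (XW W : Set G)) S g
  have h1 : thompsonSubgroupOf p ((S : Subgroup G) ⊓ centralizer (XW W : Set G))
      = thompsonSubgroupOf p (S : Subgroup G) :=
    thompsonOf_eq_of_le inf_le_left (le_inf (thompsonOf_le_self p _) hJ)
  have hn' : n ∈ normalizer (W : Set G) := by
    apply hN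
    rw [← h1]
    exact normalizer_le_normalizer_thompsonOf p _ hn
  have h2 : n * w * n⁻¹ ∈ W := conj_mem_of_mem_normalizer hn' hw
  have h3 := (mem_centralizer_iff.1 hc) _ (subset_normalClosure h2)
  have e : c * n * w * (c * n)⁻¹ = c * (n * w * n⁻¹) * c⁻¹ := by group
  rw [e, ← h3, mul_inv_cancel_right]
  exact h2

end WData

/-- Kurzweil–Stellmacher 9.4.4 -/
theorem stableNormalClosure_normal [Finite G] {p : ℕ} [Fact p.Prime] (hst : IsActionPStable p G)
    (hc : centralizer (pCore p G : Set G) ≤ pCore p G) (S : Sylow p G) :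
    ((stableNormalClosure p ↥(S : Subgroup G)).map (S : Subgroup G).subtype).Normal := by
  set WS := stableNormalClosure p ↥(S : Subgroup G) with hWS
  set W : Subgroup G := WS.map (S : Subgroup G).subtype with hW
  obtain ⟨hchar, -, hle, -, -⟩ := Cfsg.Agent.S0622.result (S := ↥(S : Subgroup G)) (p := p) S.2
  have hWn : WS.Normal := inferInstance
  have D : WData p (S : Subgroup G) W := by
    refine ⟨map_subtype_le _, Cfsg.Agent.Lib.Helper55FF.le_normalizer_map_subtype WS, ?_, ?_⟩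
    · apply Cfsg.Agent.Lib.Helper13Thompson.el_map
      exact Cfsg.Agent.Lib.Helper14ElemAb.elemAb_mono hle (elemAb_omegaOne_center p _)
    · rintro a ha hq _ ⟨w, hw, rfl⟩
      have h1 := (quad_map_iff (τ := (S : Subgroup G).subtype) (S : Subgroup G).subtype_injective
        WS ⟨a, ha⟩).1 hq
      have h2 := Cfsg.Agent.S0623.result S.2 ⟨a, ha⟩ h1
      rw [comm_eq_bot_iff] at h2
      exact congrArg Subtype.val (h2 w hw)
  have hQS : pCore p G ≤ (S : Subgroup G) := pCore_le_sylow S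
  have hWQ := D.le_pCore hQS hc hst.2.1
  have hX := D.elemAb_XW hWQ hQS
  have hJ := D.J_le_centralizer hX (hst.1 (WData.XW W) hX)
  apply WData.normal hJ
  -- the normalizer of `J(S)` is a stable embedding
  set N : Subgroup G := normalizer (thompsonSubgroupOf p (S : Subgroup G) : Set G) with hN
  have hSN : (S : Subgroup G) ≤ N := le_normalizer.trans (normalizer_le_normalizer_thompsonOf p _)
  set τ : ↥(S : Subgroup G) →* ↥N := inclusion hSN with hτ
  have hcomp : N.subtype.comp τ = (S : Subgroup G).subtype := rfl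
  have hstab : IsStableEmbedding p τ := by
    refine ⟨inclusion_injective hSN, inferInstance, ⟨S.subtype hSN, ?_⟩, ?_, ?_, ?_⟩
    · rw [Sylow.coe_subtype, hτ, Subgroup.inclusion_range]
    · rw [charPGroup_iff]
      have h1 : pCore p G ≤ pCoreOf p N :=
        le_pCoreOf (hQS.trans hSN) (by rw [normalizer_eq_top]; exact le_top) isPGroup_pCore
      exact (inf_le_right.trans (centralizer_le h1)).trans (hc.trans h1)
    · constructor
      rintro _ ⟨j, hj, rfl⟩ g
      have h1 : ((j : ↥(S : Subgroup G)) : G) ∈ thompsonSubgroupOf p (S : Subgroup G) := ⟨j, hj, rfl⟩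
      obtain ⟨j', hj', hjj⟩ := conj_mem_of_mem_normalizer g.2 h1
      exact ⟨j', hj', Subtype.ext hjj⟩
    · intro V _ hV
      apply hst.2.2 S V
      have := map_mono (f := N.subtype) hV
      rwa [Subgroup.map_map, hcomp] at this
  have hnorm := Cfsg.Agent.S0623.stableNormalClosure_map_normal hstab
  have h2 := Cfsg.Agent.Lib.Helper55FF.le_normalizer_map_subtype (WS.map τ)
  rwa [Subgroup.map_map, hcomp] at h2

end Cfsg.Agent.Lib.Helper55WS
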