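import Cfsg.Agent.Lib.Helper55WS
import Cfsg.Agent.S0624
import Cfsg.Agent.S0625
import Cfsg.Agent.S0626
import Cfsg.Agent.S2005
import Cfsg.Agent.Lib.Helper24Star
import Cfsg.Agent.Lib.Helper24Functor
import Cfsg.Agent.Lib.Helper14HH
import Cfsg.Agent.Lib.Helper14PSolvQ

set_option autoImplicit false
set_option linter.unusedSectionVars false
set_option linter.style.haveILetI false

/-! Consequences of the normality of `W(S)`: the factorisation `G = O_{p'}(G) N_G(W(S))` for
`p`-separable groups (`p ≥ 5`) and Thompson's normal `p`-complement theorem. -/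

namespace Cfsg.Agent.Lib.Helper55WS2

open Subgroup Cfsg
open Cfsg.Agent.Lib.Helper11Frobenius Cfsg.Agent.Lib.Helper24Functor Cfsg.Agent.Lib.Helper24Star
open Cfsg.Agent.Lib.Helper40Sylow
open scoped commutatorElement

universe u

theorem isCharPFunctor_W (p : ℕ) [Fact p.Prime] :
    IsCharPFunctor.{u} p (fun (Q : Type u) [Group Q] => stableNormalClosure p Q) := by
  refine ⟨?_, ?_⟩
  · intro Q _ _ hQ hn
    exact (Cfsg.Agent.S0622.result hQ).2.2.2.1 hn
  · intro Q R _ _ _ hQ φ
    exact (Cfsg.Agent.S0622.result hQ).2.2.2.2 R φ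

/-- In the `Star` configuration with `p` odd, Sylow `2`-subgroups are abelian. -/
theorem Star.sylow_two_comm {X : Type*} [Group X] [Finite X] {p : ℕ} [Fact p.Prime] (hp : p ≠ 2)
    {H K : Subgroup X} (h : Star p H K) (R : Sylow 2 X) : IsMulCommutative R := by
  have hpp : p.Prime := Fact.out
  have hK := h.normal
  have hcop : Nat.Coprime 2 p := (Nat.coprime_primes Nat.prime_two hpp).2 (Ne.symm hp)
  have hRK : (R : Subgroup X) ≤ K := by
    intro x hx
    obtain ⟨k, hk⟩ := h.index
    obtain ⟨n, hn⟩ := (IsPGroup.iff_orderOf.1 R.2) ⟨x, hx⟩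
    have hn' : orderOf x = 2 ^ n := by rw [← hn]; exact (Subgroup.orderOf_mk x hx).symm
    have h1 : (QuotientGroup.mk' K x) ^ (2 ^ n) = 1 := by
      rw [← map_pow, ← hn', pow_orderOf_eq_one, map_one]
    have h2 : (QuotientGroup.mk' K x) ^ (p ^ k) = 1 := by
      rw [← hk, Subgroup.index_eq_card]; exact pow_card_eq_one'
    have h3 : QuotientGroup.mk' K x = 1 := by
      have h4 : orderOf (QuotientGroup.mk' K x) ∣ Nat.gcd (2 ^ n) (p ^ k) :=
        Nat.dvd_gcd (orderOf_dvd_of_pow_eq_one h1) (orderOf_dvd_of_pow_eq_one h2)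
      rw [Nat.Coprime.pow n k hcop] at h4
      exact orderOf_eq_one_iff.1 (Nat.dvd_one.1 h4)
    exact (QuotientGroup.eq_one_iff x).1 h3
  have hRH : (R : Subgroup X) ⊓ H = ⊥ := by
    obtain ⟨a, ha⟩ := IsPGroup.iff_card.1 R.2
    obtain ⟨b, hb⟩ := IsPGroup.iff_card.1 h.hp
    apply (Subgroup.disjoint_of_coprime_natCard _).eq_bot
    rw [ha, hb]
    exact Nat.Coprime.pow a b hcop
  have hcomm : ⁅(R : Subgroup X), (R : Subgroup X)⁆ = ⊥ := by
    rw [eq_bot_iff, ← hRH]
    exact le_inf (commutator_le_self _) ((commutator_mono hRK hRK).trans h.comm)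
  refine ⟨⟨fun x y => ?_⟩⟩
  have h1 : ⁅(x : X), (y : X)⁆ ∈ ⁅(R : Subgroup X), (R : Subgroup X)⁆ :=
    commutator_mem_commutator x.2 y.2
  rw [hcomm, mem_bot, commutatorElement_eq_one_iff_mul_comm] at h1
  exact Subtype.ext h1

theorem thompson_npc {G : Type u} [Group G] [Finite G] {p : ℕ} [Fact p.Prime] (hp : p ≠ 2)
    (S : Sylow p G)
    (hN : HasNormalPComplement p ↥(normalizer
      (((stableNormalClosure p ↥(S : Subgroup G)).map (S : Subgroup G).subtype) : Set G))) :
    HasNormalPComplement p G := by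
  apply Cfsg.Agent.S2005.result (fun (Q : Type u) [Group Q] => stableNormalClosure p Q)
    (isCharPFunctor_W p) S hN
  intro K R hR hc hq T hT
  have hTall : ∀ T' : Sylow p (↥K ⧸ R.subgroupOf K),
      IsCoatom (T' : Subgroup (↥K ⧸ R.subgroupOf K)) := by
    intro T'
    obtain ⟨g, hg⟩ := MulAction.exists_smul_eq (↥K ⧸ R.subgroupOf K) T T'
    rw [← hg, sylow_smul_eq_cj]
    exact (OrderIso.isCoatom_iff (MulEquiv.mapSubgroup (MulAut.conj g)) _).mpr hT
  obtain ⟨K₁, hK₁⟩ := exists_star (pCore p (↥K ⧸ R.subgroupOf K)) Helper40Cores.pCore_isPGroup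
    (hasNPC_iff.mpr hq) hTall
  exact Cfsg.Agent.S0624.result (Cfsg.Agent.S0626.result hp (Star.sylow_two_comm hp hK₁)) hc T

theorem sup_normalizer_eq_top {G : Type u} [Group G] [Finite G] {p : ℕ} [Fact p.Prime] (hp : 5 ≤ p)
    (hsep : IsPSolvable p G) (S : Sylow p G) :
    pPrimeCore p G ⊔ normalizer
      (((stableNormalClosure p ↥(S : Subgroup G)).map (S : Subgroup G).subtype) : Set G) = ⊤ := by
  set M := pPrimeCore p G with hM
  have hMn : M.Normal := Helper40Cores.pPrimeCore_normal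
  have hMc : (Nat.card M).Coprime p := Helper40Cores.pPrimeCore_coprime
  set π := QuotientGroup.mk' M with hπ
  have hπs : Function.Surjective π := QuotientGroup.mk'_surjective M
  have hsepq : IsPSolvable p (G ⧸ M) := Helper14PSolvQ.isPSolvable_quotient M hsep
  have hbot : pPrimeCore p (G ⧸ M) = ⊥ := Helper14CoreB.pPrimeCore_quotient_eq_bot p
  have hc := Helper14HH.centralizer_pCore_le hsepq hbot
  have hst := Cfsg.Agent.S0625.result hp hsepq
  have hnorm := Cfsg.Agent.S0624.result hst hc (S.mapSurjective hπs)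
  set W : Subgroup G := (stableNormalClosure p ↥(S : Subgroup G)).map (S : Subgroup G).subtype
    with hW
  have hWS : W ≤ S := by
    rintro _ ⟨x, _, rfl⟩
    exact x.2
  have hWp : IsPGroup p W := S.2.to_le hWS
  have hinj : Set.InjOn π (S : Subgroup G) := by
    intro x hx y hy hxy
    have h3 : x⁻¹ * y ∈ M := QuotientGroup.eq.mp hxy
    have hx' : x ∈ (S : Subgroup G) := hx
    have hy' : y ∈ (S : Subgroup G) := hy
    have h4 : x⁻¹ * y ∈ (S : Subgroup G) ⊓ M :=
      ⟨(S : Subgroup G).mul_mem ((S : Subgroup G).inv_mem hx') hy', h3⟩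
    rw [inf_eq_bot_of_pgroup_coprime S.2 hMc, Subgroup.mem_bot] at h4
    exact (inv_mul_eq_one.mp h4)
  have hmap : (W.map π).Normal := by
    have h1 := ind_map (isCharPFunctor_W p) π (S : Subgroup G) S.2 hinj
    have h2 : W.map π = inducedFunctor (fun (Q : Type u) [Group Q] => stableNormalClosure p Q)
        ((S : Subgroup G).map π) := h1.symm
    rw [h2]
    exact hnorm
  rw [eq_top_iff]
  have h1 := normalizer_map_le M hMc W hWp
  rw [normalizer_eq_top_iff.2 hmap] at h1
  intro g _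
  obtain ⟨n, hn, hng⟩ := h1 (mem_top (π g))
  have h2 : n⁻¹ * g ∈ M := QuotientGroup.eq.mp hng
  have h3 : g * n⁻¹ ∈ M := by
    have := hMn.conj_mem _ h2 n
    simpa [mul_assoc] using this
  have h4 : g = (g * n⁻¹) * n := by group
  rw [h4]
  exact mul_mem (mem_sup_left h3) (mem_sup_right hn)

end Cfsg.Agent.Lib.Helper55WS2
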