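import Cfsg.Prelude

/-!
PROJECT 15 (Bender-Glauberman Section 15): vocabulary for the pure form of Theorem 15.2.
-/

set_option autoImplicit false
open Cfsg

namespace Cfsg.Agent.Lib.Helper56BG15Defs

open Subgroup

universe u
variable {G : Type u} [Group G]

/-- the pure hypotheses of B-G 15.2 -/
structure P1Data (M Ms K : Subgroup G) (q : ℕ) : Prop where
  sol : Group.IsSolvable M
  odd : Odd (Nat.card M)
  le : Ms ≤ M
  norm : M ≤ normalizer (Ms : Set G)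
  Kle : K ≤ M
  sup : Ms ⊔ K = M
  cop : (Nat.card K).Coprime (Nat.card Ms)
  K1 : K ≠ ⊥
  card : Nat.card ↥(Ms ⊓ centralizer (K : Set G)) = q
  qp : q.Prime
  pr : ∀ k ∈ K, k ≠ 1 → Ms ⊓ centralizer ({k} : Set G) = Ms ⊓ centralizer (K : Set G)
  fit : Ms ⊓ centralizer (K : Set G) ≤ fittingOf Ms
  nn : ¬ Group.IsNilpotent Ms

/-- the normal Sylow `q`-subgroup -/
structure QData (M Ms K : Subgroup G) (q : ℕ) (Q : Subgroup G) : Prop where
  le : Q ≤ Ms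
  norm : M ≤ normalizer (Q : Set G)
  pg : IsPGroup q Q
  syl : ¬ q ∣ Q.relIndex Ms
  Ks : Ms ⊓ centralizer (K : Set G) ≤ Q

/-- the conclusions of B-G 15.2 about a complement `D` of `Q` in `M_σ` -/
def Concl (M K : Subgroup G) (q : ℕ) (Q D : Subgroup G) : Prop :=
  Group.IsNilpotent D ∧ M ≤ normalizer ((Q ⊓ centralizer (D : Set G) : Subgroup G) : Set G) ∧
  Q ⊓ centralizer (D : Set G) < Q ∧
  Nat.card Q = Nat.card ↥(Q ⊓ centralizer (D : Set G)) * q ^ Nat.card K ∧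
  (∀ a ∈ Q, ∀ b ∈ Q, a ^ q ∈ Q ⊓ centralizer (D : Set G) ∧
    a * b * a⁻¹ * b⁻¹ ∈ Q ⊓ centralizer (D : Set G)) ∧
  (∀ N : Subgroup G, Q ⊓ centralizer (D : Set G) < N → N < Q → ¬ M ≤ normalizer (N : Set G)) ∧
  ⁅D, D⁆ ≤ centralizer (Q : Set G)

end Cfsg.Agent.Lib.Helper56BG15Defs
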