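import Mathlib
import Cfsg.Agent.Lib.Helper97AschBase
import Cfsg.Agent.Lib.Helper57AschA

set_option autoImplicit false

/-! Class six, step three: an absolutely irreducible 2-group of class two modulo scalars whose only scalars
are `±1` fixes a non degenerate symmetric or alternating bilinear form (averaging argument). -/

namespace Cfsg.Agent.Lib.Helper57AschD

open Cfsg Cfsg.Geo Matrix
open Cfsg.Agent.Lib.Helper97AschBase Cfsg.Agent.Lib.Helper57AschA
open scoped MatrixGroups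

variable {n : ℕ} {F : Type*} [Field F]

lemma natCast_ne_zero_of_absIrred [NeZero n] {R : Subgroup (GL (Fin n) F)}
    (habs : ActsAbsolutelyIrreducibly (matrixSet R)) (hcomm : ⁅R, R⁆ ≤ scalars (Fin n) F) : (n : F) ≠ 0 := by
  intro h0
  have h1 : ∀ X ∈ Submodule.span F (matrixSet R), Matrix.trace X = 0 := by
    intro X hX
    induction hX using Submodule.span_induction with
    | mem x hx =>
      obtain ⟨g, hg, rfl⟩ := hx
      by_cases hgs : g ∈ scalars (Fin n) F
      · show Matrix.trace (g : Matrix (Fin n) (Fin n) F) = 0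
        rw [eq_cv_smul hgs, Matrix.trace_smul, Matrix.trace_one, Fintype.card_fin, h0, smul_zero]
      · exact trace_eq_zero habs hcomm hg hgs
    | zero => simp
    | add x y _ _ hx hy => rw [Matrix.trace_add, hx, hy, add_zero]
    | smul c x _ hx => rw [Matrix.trace_smul, hx, smul_zero]
  have h2 := h1 (Matrix.single 0 0 1) (by rw [span_eq_top habs]; trivial)
  simp at h2

theorem exists_bilinear [Finite F] [NeZero n] {R : Subgroup (GL (Fin n) F)}
    (habs : ActsAbsolutelyIrreducibly (matrixSet R)) (hcomm : ⁅R, R⁆ ≤ scalars (Fin n) F)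
    (h2 : (2 : F) ≠ 0) (hp : IsPGroup 2 R) (hZ : ∀ z ∈ R, z ∈ scalars (Fin n) F → z ^ 2 = 1) :
    ∃ Bm : Matrix (Fin n) (Fin n) F, IsUnit Bm ∧
      (∀ g ∈ R, (g : Matrix (Fin n) (Fin n) F)ᵀ * Bm * (g : Matrix (Fin n) (Fin n) F) = Bm) ∧
      (Bmᵀ = Bm ∨ Bmᵀ = -Bm) := by
  classical
  have : Fintype R := Fintype.ofFinite _
  have hn0 := natCast_ne_zero_of_absIrred habs hcomm
  let L : Matrix (Fin n) (Fin n) F → Matrix (Fin n) (Fin n) F := fun C =>
    ∑ x : R, ((x : GL (Fin n) F) : Matrix (Fin n) (Fin n) F)ᵀ * C * ((x : GL (Fin n) F) : Matrix (Fin n) (Fin n) F)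
  have hinv : ∀ C, ∀ g ∈ R, (g : Matrix (Fin n) (Fin n) F)ᵀ * L C * (g : Matrix (Fin n) (Fin n) F) = L C := by
    intro C g hg
    simp only [L, Finset.mul_sum, Finset.sum_mul]
    conv_rhs => rw [← Equiv.sum_comp (Equiv.mulRight (⟨g, hg⟩ : R))]
    apply Finset.sum_congr rfl
    intro x _
    simp only [Equiv.coe_mulRight, Subgroup.coe_mul, Units.val_mul, Matrix.transpose_mul, mul_assoc]
  -- the trace sum
  have hsum : ∑ i, ∑ j, L (Matrix.single i j (1 : F)) i j =
      ∑ x : R, (Matrix.trace ((x : GL (Fin n) F) : Matrix (Fin n) (Fin n) F)) ^ 2 := by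
    simp only [L, Matrix.sum_apply]
    rw [Finset.sum_congr rfl (fun i _ => Finset.sum_comm), Finset.sum_comm]
    apply Finset.sum_congr rfl
    intro x _
    have : ∀ i j : Fin n, (((x : GL (Fin n) F) : Matrix (Fin n) (Fin n) F)ᵀ *
        (Matrix.single i j (1 : F) : Matrix (Fin n) (Fin n) F) *
        ((x : GL (Fin n) F) : Matrix (Fin n) (Fin n) F)) i j =
        ((x : GL (Fin n) F) : Matrix (Fin n) (Fin n) F) i i * ((x : GL (Fin n) F) : Matrix (Fin n) (Fin n) F) j j := by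
      intro i j
      rw [Matrix.mul_apply, Finset.sum_eq_single j]
      · rw [Matrix.mul_apply, Finset.sum_eq_single i]
        · simp
        · intro b _ hb
          simp [Matrix.single_apply, Ne.symm hb]
        · intro h; exact absurd (Finset.mem_univ i) h
      · intro b _ hb
        rw [Matrix.mul_apply]
        have : ∀ k, (Matrix.single i j (1 : F) : Matrix (Fin n) (Fin n) F) k b = 0 := by
          intro k
          simp [Matrix.single_apply, Ne.symm hb]
        simp [this]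
      · intro h; exact absurd (Finset.mem_univ j) h
    simp only [this]
    rw [sq, Matrix.trace, Finset.sum_mul_sum]
    rfl
  have hsum2 : ∑ x : R, (Matrix.trace ((x : GL (Fin n) F) : Matrix (Fin n) (Fin n) F)) ^ 2 =
      (Nat.card ((scalars (Fin n) F).subgroupOf R) : F) * (n : F) ^ 2 := by
    have h1 : ∀ x : R, (Matrix.trace ((x : GL (Fin n) F) : Matrix (Fin n) (Fin n) F)) ^ 2 =
        if x ∈ (scalars (Fin n) F).subgroupOf R then (n : F) ^ 2 else 0 := by
      intro x
      split_ifs with hx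
      · have hx' : (x : GL (Fin n) F) ∈ scalars (Fin n) F := Subgroup.mem_subgroupOf.mp hx
        have h3 := hZ x x.2 hx'
        have h4 : cv (x : GL (Fin n) F) ^ 2 = 1 := by
          have := congrArg cv h3
          rwa [pow_two, cv_mul hx', cv_one, ← pow_two] at this
        rw [eq_cv_smul hx', Matrix.trace_smul, Matrix.trace_one, Fintype.card_fin, smul_eq_mul, mul_pow, h4,
          one_mul]
      · have hx' : (x : GL (Fin n) F) ∉ scalars (Fin n) F := fun h => hx (Subgroup.mem_subgroupOf.mpr h)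
        rw [trace_eq_zero habs hcomm x.2 hx']
        simp
    simp only [h1]
    rw [Finset.sum_ite, Finset.sum_const_zero, add_zero, Finset.sum_const, nsmul_eq_mul]
    congr 2
    rw [Nat.card_eq_fintype_card, Fintype.card_subtype]
  have hk : (Nat.card ((scalars (Fin n) F).subgroupOf R) : F) ≠ 0 := by
    obtain ⟨k, hk⟩ := (IsPGroup.iff_card (p := 2)).mp (hp.to_subgroup ((scalars (Fin n) F).subgroupOf R))
    rw [hk]
    push_cast
    exact pow_ne_zero _ h2
  obtain ⟨C, hC⟩ : ∃ C, L C ≠ 0 := by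
    by_contra hcon
    push Not at hcon
    have : ∑ i, ∑ j, L (Matrix.single i j (1 : F)) i j = 0 := by
      simp [hcon]
    rw [hsum, hsum2] at this
    exact (mul_ne_zero hk (pow_ne_zero _ hn0)) this
  set Bm := L C with hBm
  have hBinv := hinv C
  rw [← hBm] at hBinv
  -- non degeneracy
  have hinj : ∀ v, Bm *ᵥ v = 0 → v = 0 := by
    let W : Submodule F (Fin n → F) := LinearMap.ker (Matrix.toLin' Bm)
    have hW : Inv R W := by
      intro g hg w hw
      rw [LinearMap.mem_ker, Matrix.toLin'_apply] at hw ⊢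
      have h3 := hBinv g hg
      have h4 : (g : Matrix (Fin n) (Fin n) F)ᵀ *ᵥ (Bm *ᵥ ((g : Matrix (Fin n) (Fin n) F) *ᵥ w)) = 0 := by
        rw [Matrix.mulVec_mulVec, Matrix.mulVec_mulVec, h3, hw]
      have h5 : ((g⁻¹ : GL (Fin n) F) : Matrix (Fin n) (Fin n) F)ᵀ * (g : Matrix (Fin n) (Fin n) F)ᵀ = 1 := by
        rw [← Matrix.transpose_mul, val_mul_inv, Matrix.transpose_one]
      have h6 := congrArg (fun u => ((g⁻¹ : GL (Fin n) F) : Matrix (Fin n) (Fin n) F)ᵀ *ᵥ u) h4
      simp only [Matrix.mulVec_zero] at h6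
      rwa [Matrix.mulVec_mulVec, h5, Matrix.one_mulVec] at h6
    rcases (actsIrreducibly_iff.mp habs.1) W hW with h | h
    · intro v hv
      have : v ∈ W := by rw [LinearMap.mem_ker, Matrix.toLin'_apply]; exact hv
      rw [h, Submodule.mem_bot] at this
      exact this
    · exfalso
      apply hC
      apply Matrix.toLin'.injective
      rw [map_zero]
      exact LinearMap.ker_eq_top.mp h
  have hunit : IsUnit Bm := by
    rw [← Matrix.mulVec_injective_iff_isUnit]
    intro u v huv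
    have : Bm *ᵥ (u - v) = 0 := by rw [Matrix.mulVec_sub, huv, sub_self]
    exact sub_eq_zero.mp (hinj _ this)
  refine ⟨Bm, hunit, hBinv, ?_⟩
  obtain ⟨Bu, hBu⟩ := hunit
  have hBinvT : ∀ g ∈ R, (g : Matrix (Fin n) (Fin n) F)ᵀ * Bmᵀ * (g : Matrix (Fin n) (Fin n) F) = Bmᵀ := by
    intro g hg
    have := congrArg Matrix.transpose (hBinv g hg)
    simpa [Matrix.transpose_mul, mul_assoc] using this
  obtain ⟨c, hc⟩ := habs.2 (((Bu⁻¹ : (Matrix (Fin n) (Fin n) F)ˣ) : Matrix (Fin n) (Fin n) F) * Bmᵀ) (by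
    rintro _ ⟨g, hg, rfl⟩
    -- X g = g X
    have e1 : Bmᵀ * (g : Matrix (Fin n) (Fin n) F) =
        ((g⁻¹ : GL (Fin n) F) : Matrix (Fin n) (Fin n) F)ᵀ * Bmᵀ := by
      conv_rhs => rw [← hBinvT g hg]
      rw [← mul_assoc, ← mul_assoc, ← Matrix.transpose_mul, val_mul_inv, Matrix.transpose_one, one_mul]
    have e2 : Bm * (g : Matrix (Fin n) (Fin n) F) =
        ((g⁻¹ : GL (Fin n) F) : Matrix (Fin n) (Fin n) F)ᵀ * Bm := by
      conv_rhs => rw [← hBinv g hg]
      rw [← mul_assoc, ← mul_assoc, ← Matrix.transpose_mul, val_mul_inv, Matrix.transpose_one, one_mul]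
    have e3 : (g : Matrix (Fin n) (Fin n) F) * ((Bu⁻¹ : (Matrix (Fin n) (Fin n) F)ˣ) : Matrix (Fin n) (Fin n) F) =
        ((Bu⁻¹ : (Matrix (Fin n) (Fin n) F)ˣ) : Matrix (Fin n) (Fin n) F) *
          ((g⁻¹ : GL (Fin n) F) : Matrix (Fin n) (Fin n) F)ᵀ := by
      have h7 : ((Bu⁻¹ : (Matrix (Fin n) (Fin n) F)ˣ) : Matrix (Fin n) (Fin n) F) * Bm = 1 := by
        rw [← hBu, Units.inv_mul]
      have h8 : Bm * ((Bu⁻¹ : (Matrix (Fin n) (Fin n) F)ˣ) : Matrix (Fin n) (Fin n) F) = 1 := by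
        rw [← hBu, Units.mul_inv]
      calc (g : Matrix (Fin n) (Fin n) F) * ((Bu⁻¹ : (Matrix (Fin n) (Fin n) F)ˣ) : Matrix (Fin n) (Fin n) F)
          = (((Bu⁻¹ : (Matrix (Fin n) (Fin n) F)ˣ) : Matrix (Fin n) (Fin n) F) * Bm) *
            (g : Matrix (Fin n) (Fin n) F) * ((Bu⁻¹ : (Matrix (Fin n) (Fin n) F)ˣ) : Matrix (Fin n) (Fin n) F) := by
            rw [h7, one_mul]
        _ = ((Bu⁻¹ : (Matrix (Fin n) (Fin n) F)ˣ) : Matrix (Fin n) (Fin n) F) * (Bm *
            (g : Matrix (Fin n) (Fin n) F)) * ((Bu⁻¹ : (Matrix (Fin n) (Fin n) F)ˣ) : Matrix (Fin n) (Fin n) F) := by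
            simp only [mul_assoc]
        _ = ((Bu⁻¹ : (Matrix (Fin n) (Fin n) F)ˣ) : Matrix (Fin n) (Fin n) F) *
          ((g⁻¹ : GL (Fin n) F) : Matrix (Fin n) (Fin n) F)ᵀ := by
            rw [e2]
            simp only [mul_assoc]
            rw [h8, mul_one]
    show ((Bu⁻¹ : (Matrix (Fin n) (Fin n) F)ˣ) : Matrix (Fin n) (Fin n) F) * Bmᵀ * (g : Matrix (Fin n) (Fin n) F) =
      (g : Matrix (Fin n) (Fin n) F) * (((Bu⁻¹ : (Matrix (Fin n) (Fin n) F)ˣ) : Matrix (Fin n) (Fin n) F) * Bmᵀ)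
    rw [mul_assoc, e1, ← mul_assoc, ← mul_assoc, e3])
  have hT : Bmᵀ = c • Bm := by
    have h8 : Bm * ((Bu⁻¹ : (Matrix (Fin n) (Fin n) F)ˣ) : Matrix (Fin n) (Fin n) F) = 1 := by
      rw [← hBu, Units.mul_inv]
    have := congrArg (fun X => Bm * X) hc
    simp only [← mul_assoc, h8, one_mul] at this
    rw [this]
    simp
  have hcc : c ^ 2 = 1 := by
    have h9 : Bm = (c ^ 2) • Bm := by
      conv_lhs => rw [← Matrix.transpose_transpose Bm, hT, Matrix.transpose_smul, hT, smul_smul, ← pow_two]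
    obtain ⟨a, b, hab⟩ : ∃ a b, Bm a b ≠ 0 := by
      by_contra hcon
      push Not at hcon
      apply hC
      ext a b
      exact hcon a b
    have h10 := congrFun (congrFun h9 a) b
    rw [Matrix.smul_apply, smul_eq_mul] at h10
    have : (c ^ 2 - 1) * Bm a b = 0 := by rw [sub_mul, ← h10]; ring
    rcases mul_eq_zero.mp this with h | h
    · exact sub_eq_zero.mp h
    · exact absurd h hab
  rw [pow_two] at hcc
  rcases mul_self_eq_one_iff.mp hcc with h | h
  · left; rw [hT, h, one_smul]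
  · right; rw [hT, h, neg_smul, one_smul]

/-! ### forms given by Gram matrices -/

/-- the bilinear form with Gram matrix `Bm` -/
def formOf (Bm : Matrix (Fin n) (Fin n) F) (u v : Fin n → F) : F := u ⬝ᵥ (Bm *ᵥ v)

lemma isBilinear_formOf (Bm : Matrix (Fin n) (Fin n) F) : IsBilinearForm (formOf Bm) where
  add_left x y v := by simp [formOf, add_dotProduct]
  smul_left c x v := by simp [formOf]
  add_right v x y := by simp [formOf, Matrix.mulVec_add, dotProduct_add]
  smul_right c v x := by simp [formOf, Matrix.mulVec_smul]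

lemma formOf_swap (Bm : Matrix (Fin n) (Fin n) F) (u v : Fin n → F) : formOf Bm u v = formOf Bmᵀ v u := by
  unfold formOf
  rw [Matrix.mulVec_transpose, Matrix.dotProduct_mulVec, dotProduct_comm]

lemma formOf_single_left (Bm : Matrix (Fin n) (Fin n) F) (j : Fin n) (v : Fin n → F) :
    formOf Bm (Pi.single j 1) v = (Bm *ᵥ v) j := by
  simp [formOf]

lemma nondeg_formOf {Bm : Matrix (Fin n) (Fin n) F} (h : IsUnit Bm) : IsNondegenerateForm (formOf Bm) := by
  have key : ∀ C : Matrix (Fin n) (Fin n) F, IsUnit C → ∀ v : Fin n → F, v ≠ 0 → ∃ x, formOf C x v ≠ 0 := by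
    intro C hC v hv
    have h1 : C *ᵥ v ≠ 0 := by
      intro h0
      apply hv
      apply (Matrix.mulVec_injective_iff_isUnit.mpr hC)
      simpa using h0
    obtain ⟨j, hj⟩ := Function.ne_iff.mp h1
    exact ⟨Pi.single j 1, by rw [formOf_single_left]; exact hj⟩
  intro v hv
  refine ⟨key Bm h v hv, ?_⟩
  obtain ⟨x, hx⟩ := key Bmᵀ (by
    rw [Matrix.isUnit_iff_isUnit_det] at h ⊢
    rwa [Matrix.det_transpose]) v hv
  exact ⟨x, by rw [formOf_swap]; exact hx⟩

lemma formOf_mulVec (Bm g : Matrix (Fin n) (Fin n) F) (u v : Fin n → F) :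
    formOf Bm (g *ᵥ u) (g *ᵥ v) = formOf (gᵀ * Bm * g) u v := by
  unfold formOf
  rw [← Matrix.mulVec_mulVec, ← Matrix.mulVec_mulVec, Matrix.mulVec_transpose g,
    dotProduct_comm u, ← Matrix.dotProduct_mulVec, dotProduct_comm]

lemma fixes_formOf {R : Subgroup (GL (Fin n) F)} {Bm : Matrix (Fin n) (Fin n) F}
    (h : ∀ g ∈ R, (g : Matrix (Fin n) (Fin n) F)ᵀ * Bm * (g : Matrix (Fin n) (Fin n) F) = Bm) :
    FixesForm (matrixSet R) (formOf Bm) := by
  rintro _ ⟨g, hg, rfl⟩ u v
  rw [formOf_mulVec, h g hg]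

lemma symplectic_of_skew {Bm : Matrix (Fin n) (Fin n) F} (h2 : (2 : F) ≠ 0) (hu : IsUnit Bm)
    (hT : Bmᵀ = -Bm) : IsSymplecticForm (formOf Bm) := by
  have hskew : ∀ v w, formOf Bm v w = - formOf Bm w v := by
    intro v w
    rw [formOf_swap, hT]
    simp [formOf, Matrix.neg_mulVec]
  refine ⟨isBilinear_formOf Bm, hskew, ?_, nondeg_formOf hu⟩
  intro v
  have h1 := hskew v v
  have h3 : (2 : F) * formOf Bm v v = 0 := by
    rw [two_mul]
    nth_rewrite 1 [h1]
    ring
  exact (mul_eq_zero.mp h3).resolve_left h2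

lemma quadratic_of_symm {Bm : Matrix (Fin n) (Fin n) F} (h2 : (2 : F) ≠ 0) (hu : IsUnit Bm)
    (hT : Bmᵀ = Bm) : IsNondegenerateQuadraticForm (fun v => formOf Bm v v) := by
  have hb := isBilinear_formOf Bm
  have hsymm : ∀ v w, formOf Bm v w = formOf Bm w v := by
    intro v w
    rw [formOf_swap, hT]
  have hpolar : ∀ u v, QuadraticMap.polar (fun v => formOf Bm v v) u v = 2 * formOf Bm u v := by
    intro u v
    unfold QuadraticMap.polar
    simp only []
    rw [hb.add_left, hb.add_right, hb.add_right, hsymm v u]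
    ring
  refine ⟨?_, ⟨?_, ?_, ?_, ?_⟩, ?_⟩
  · intro c v
    rw [hb.smul_left, hb.smul_right]; ring
  · intro x y v
    rw [hpolar, hpolar, hpolar, hb.add_left]; ring
  · intro c x v
    rw [hpolar, hpolar, hb.smul_left]; ring
  · intro v x y
    rw [hpolar, hpolar, hpolar, hb.add_right]; ring
  · intro c v x
    rw [hpolar, hpolar, hb.smul_right]; ring
  · intro v hv
    obtain ⟨⟨x, hx⟩, ⟨y, hy⟩⟩ := nondeg_formOf hu v hv
    exact ⟨⟨x, by rw [hpolar]; exact mul_ne_zero h2 hx⟩, ⟨y, by rw [hpolar]; exact mul_ne_zero h2 hy⟩⟩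

/-- the form alternative of class six -/
theorem exists_form [Finite F] [NeZero n] {R : Subgroup (GL (Fin n) F)}
    (habs : ActsAbsolutelyIrreducibly (matrixSet R)) (hcomm : ⁅R, R⁆ ≤ scalars (Fin n) F)
    (h2 : (2 : F) ≠ 0) (hp : IsPGroup 2 R) (hZ : ∀ z ∈ R, z ∈ scalars (Fin n) F → z ^ 2 = 1) :
    (∃ Q : (Fin n → F) → F, IsNondegenerateQuadraticForm Q ∧ FixesQuadForm (matrixSet R) Q) ∨
    (∃ f : (Fin n → F) → (Fin n → F) → F, IsSymplecticForm f ∧ FixesForm (matrixSet R) f) := by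
  obtain ⟨Bm, hu, hinv, hT | hT⟩ := exists_bilinear habs hcomm h2 hp hZ
  · left
    exact ⟨_, quadratic_of_symm h2 hu hT, fun s hs v => fixes_formOf hinv s hs v v⟩
  · right
    exact ⟨_, symplectic_of_skew h2 hu hT, fixes_formOf hinv⟩

end Cfsg.Agent.Lib.Helper57AschD
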