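import Cfsg.Agent.Lib.Helper97AschMain
import Cfsg.Agent.Lib.Helper98AschAlt

set_option autoImplicit false

/-! PART D of ASCH-GEN, piece D3. -/

namespace Cfsg.Agent.Lib.Helper67AschD3

open Cfsg Cfsg.Geo Matrix
open Cfsg.Agent.Lib.Helper97AschBase Cfsg.Agent.Lib.Helper98AschDefs Cfsg.Agent.Lib.Helper98AschBasic
open scoped MatrixGroups Kronecker

variable {n : ℕ} {F : Type*} [Field F]

/-- an elementary transvection in arbitrary coordinates, transported to `Fin n` and conjugated, is in `SL` -/
theorem exists_SL_transvection {κ : Type} [Fintype κ] [DecidableEq κ] (e : Fin n ≃ κ) (P : GL (Fin n) F)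
    (a b : κ) (hab : a ≠ b) :
    ∃ g ∈ specialLinear (Fin n) F, (g : Matrix (Fin n) (Fin n) F) =
      conjAlg P (Matrix.reindexAlgEquiv F F e.symm (Matrix.transvection a b (1 : F))) := by
  let T : GL κ F :=
    ⟨Matrix.transvection a b 1, Matrix.transvection a b (-1),
      by rw [Matrix.transvection_mul_transvection_same _ _ hab]; simp,
      by rw [Matrix.transvection_mul_transvection_same _ _ hab]; simp⟩
  refine ⟨P * (glReindex e.symm) T * P⁻¹, ?_, rfl⟩
  rw [mem_specialLinear_iff, Units.val_mul, Units.val_mul, Matrix.det_mul, Matrix.det_mul]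
  have h1 : ((glReindex e.symm) T : Matrix (Fin n) (Fin n) F).det = 1 := by
    show (Matrix.reindexAlgEquiv F F e.symm (Matrix.transvection a b (1 : F))).det = 1
    rw [Matrix.det_reindexAlgEquiv, Matrix.det_transvection_of_ne _ _ hab]
  rw [h1, mul_one, ← Matrix.det_mul, ← Units.val_mul, mul_inv_cancel, Units.val_one, Matrix.det_one]

/-- [D3] -/
theorem notSL_tensor {d s : ℕ} (hd : 2 ≤ d) (hs : 2 ≤ s) (e : Fin n ≃ Fin d × Fin s) (P : GL (Fin n) F) :
    ¬ specialLinear (Fin n) F ≤ tensorProductSubgroup d s e P := by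
  intro hle
  let d0 : Fin d := ⟨0, by omega⟩
  let d1 : Fin d := ⟨1, by omega⟩
  let s0 : Fin s := ⟨0, by omega⟩
  let s1 : Fin s := ⟨1, by omega⟩
  have hd01 : d0 ≠ d1 := by
    intro h
    have := congrArg Fin.val h
    simp [d0, d1] at this
  have hs01 : s0 ≠ s1 := by
    intro h
    have := congrArg Fin.val h
    simp [s0, s1] at this
  have hab : ((d0, s0) : Fin d × Fin s) ≠ (d1, s1) := by
    intro h
    exact hd01 (congrArg Prod.fst h)
  obtain ⟨g, hg, hgv⟩ := exists_SL_transvection e P (d0, s0) (d1, s1) hab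
  obtain ⟨a, b, hab'⟩ := (mem_tensorProductSubgroup_iff e P g).mp (hle hg)
  rw [hgv, tens_eq] at hab'
  have hT := tens_injective e P hab'
  have h1 := congrFun (congrFun hT (d0, s0)) (d1, s1)
  have h2 := congrFun (congrFun hT (d0, s0)) (d0, s1)
  have h3 := congrFun (congrFun hT (d0, s0)) (d0, s0)
  simp only [Matrix.transvection, Matrix.add_apply, Matrix.one_apply, Matrix.single_apply,
    Matrix.kroneckerMap_apply, Prod.mk.injEq] at h1 h2 h3
  simp [hd01, hs01, hd01.symm, hs01.symm] at h1 h2 h3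
  rcases h2 with h2 | h2
  · rw [h2] at h3
    simp at h3
  · rw [h2] at h1
    simp at h1

end Cfsg.Agent.Lib.Helper67AschD3
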