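import Mathlib
import Cfsg.Agent.Lib.Helper97AschBase
import Cfsg.Agent.Lib.Helper97AschTransv

set_option autoImplicit false

/-! ASCH-GEN piece `D5`: `SL_n` does not normalise an irreducible `p'`-group. -/

namespace Cfsg.Agent.Lib.Helper94AschD5

open Cfsg Cfsg.Geo Matrix
open Cfsg.Agent.Lib.Helper97AschBase Cfsg.Agent.Lib.Helper97AschTransv
open scoped MatrixGroups

variable {n : ℕ} {F : Type*} [Field F]

/-- general form: an irreducible `r`-subgroup, `r` prime to the characteristic `p`, is not normalised by `SL_n`,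
`n ≥ 3`. -/
theorem notSL_normalizer_of_pGroup (hn : 3 ≤ n) {r p : ℕ} [CharP F p] (hp : p.Prime) (hr : r.Prime)
    (hrp : r ≠ p) {R : Subgroup (GL (Fin n) F)} (hR : IsPGroup r R)
    (hirr : ActsIrreducibly (matrixSet R)) :
    ¬ specialLinear (Fin n) F ≤ Subgroup.normalizer (R : Set (GL (Fin n) F)) := by
  intro hle
  rw [actsIrreducibly_iff] at hirr
  let u : Fin n → F := Pi.single ⟨0, by omega⟩ 1
  have hu : u ≠ 0 := by
    intro h0
    have := congrFun h0 ⟨0, by omega⟩
    simp [u] at this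
  -- a non-invariant line
  obtain ⟨x, hx, hxu⟩ : ∃ x ∈ R, (x : Matrix (Fin n) (Fin n) F) *ᵥ u ∉ Submodule.span F {u} := by
    by_contra hcon
    push Not at hcon
    have hinv : Inv R (Submodule.span F {u}) := by
      intro t ht w hw
      obtain ⟨c, rfl⟩ := Submodule.mem_span_singleton.mp hw
      rw [Matrix.mulVec_smul]
      exact Submodule.smul_mem _ _ (hcon t ht)
    rcases hirr _ hinv with h0 | h1
    · rw [Submodule.span_singleton_eq_bot] at h0
      exact hu h0
    · have h2 : Module.finrank F (Submodule.span F {u}) = 1 := finrank_span_singleton hu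
      rw [h1, finrank_top, Module.finrank_fin_fun] at h2
      omega
  set X : Matrix (Fin n) (Fin n) F := (x : Matrix (Fin n) (Fin n) F) with hX
  set X' : Matrix (Fin n) (Fin n) F := ((x⁻¹ : GL (Fin n) F) : Matrix (Fin n) (Fin n) F) with hX'
  have hXX' : X * X' = 1 := by rw [hX, hX', ← Units.val_mul, mul_inv_cancel, Units.val_one]
  have hX'X : X' * X = 1 := by rw [hX, hX', ← Units.val_mul, inv_mul_cancel, Units.val_one]
  set w : Fin n → F := X *ᵥ u with hw
  -- a functional killing `u` and `x u`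
  obtain ⟨w0, hw0⟩ : ∃ w0, w0 ∉ Submodule.span F ({u, w} : Set (Fin n → F)) := by
    by_contra hcon
    push Not at hcon
    have htop : Submodule.span F ({u, w} : Set (Fin n → F)) = ⊤ := eq_top_iff.mpr fun y _ => hcon y
    have h1 : Module.finrank F (Submodule.span F ({u, w} : Set (Fin n → F))) ≤ 2 := by
      classical
      have := finrank_span_finset_le_card (R := F) ({u, w} : Finset (Fin n → F))
      unfold Set.finrank at this
      rw [Finset.coe_insert, Finset.coe_singleton] at this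
      exact this.trans Finset.card_le_two
    rw [htop, finrank_top, Module.finrank_fin_fun] at h1
    omega
  obtain ⟨φ, hφ0, hφ1⟩ := exists_functional hw0
  have hφu : φ ⬝ᵥ u = 0 := hφ0 u (Submodule.subset_span (by simp))
  have hφw : φ ⬝ᵥ w = 0 := hφ0 w (Submodule.subset_span (by simp))
  set ψ : Fin n → F := φ ᵥ* X' with hψ
  have hψw : ψ ⬝ᵥ w = 0 := by
    rw [hψ, hw, ← Matrix.dotProduct_mulVec, Matrix.mulVec_mulVec, hX'X, Matrix.one_mulVec, hφu]
  set t : GL (Fin n) F := tv u φ hφu with ht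
  have htR : t * x * t⁻¹ ∈ R :=
    (Subgroup.mem_normalizer_iff.mp (hle (tv_mem_SL u φ hφu)) x).mp hx
  have hyR : t * x * t⁻¹ * x⁻¹ ∈ R := R.mul_mem htR (R.inv_mem hx)
  set N : Matrix (Fin n) (Fin n) F := vecMulVec u φ - vecMulVec w ψ with hN
  have hy : ((t * x * t⁻¹ * x⁻¹ : GL (Fin n) F) : Matrix (Fin n) (Fin n) F) = 1 + N := by
    have h1 : ((t⁻¹ : GL (Fin n) F) : Matrix (Fin n) (Fin n) F) = 1 - vecMulVec u φ := rfl
    rw [Units.val_mul, Units.val_mul, Units.val_mul, h1, ht, tv_val, ← hX, ← hX']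
    have h2 : X * (1 - vecMulVec u φ) * X' = 1 - vecMulVec w ψ := by
      rw [Matrix.mul_sub, Matrix.sub_mul, Matrix.mul_one, hXX', Matrix.mul_vecMulVec,
        Matrix.vecMulVec_mul]
    rw [Matrix.mul_assoc (1 + vecMulVec u φ) X, Matrix.mul_assoc (1 + vecMulVec u φ),
      h2, Matrix.add_mul, Matrix.mul_sub, Matrix.mul_sub, Matrix.vecMulVec_mul_vecMulVec, hφw, hN]
    simp only [Matrix.one_mul, Matrix.mul_one, zero_smul, Matrix.vecMulVec_zero, sub_zero]
    abel
  have hN3 : N ^ 3 = 0 := by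
    have hN2 : N * N = - ((ψ ⬝ᵥ u) • vecMulVec w φ) := by
      rw [hN, Matrix.sub_mul, Matrix.mul_sub, Matrix.mul_sub]
      simp only [Matrix.vecMulVec_mul_vecMulVec, hφu, hφw, hψw, zero_smul, Matrix.vecMulVec_zero,
        Matrix.vecMulVec_smul]
      abel
    rw [pow_succ, pow_two, hN2, hN, Matrix.neg_mul, Matrix.smul_mul, Matrix.mul_sub]
    simp only [Matrix.vecMulVec_mul_vecMulVec, hφu, hφw, zero_smul, Matrix.vecMulVec_zero, sub_zero,
      smul_zero, neg_zero]
  have hfact : Fact p.Prime := ⟨hp⟩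
  have hne : Nonempty (Fin n) := ⟨⟨0, by omega⟩⟩
  have hpow : (t * x * t⁻¹ * x⁻¹) ^ (p ^ 2) = 1 := by
    apply Units.ext
    rw [Units.val_pow_eq_pow_val, hy, Units.val_one,
      add_pow_char_pow_of_commute (R := Matrix (Fin n) (Fin n) F) (p := p) (n := 2) (h := Commute.one_left N), one_pow]
    have h4 : 3 ≤ p ^ 2 := by nlinarith [hp.two_le]
    rw [← Nat.sub_add_cancel h4, pow_add, hN3, mul_zero, add_zero]
  obtain ⟨k, hk⟩ := hR ⟨_, hyR⟩
  have hk' : (t * x * t⁻¹ * x⁻¹) ^ (r ^ k) = 1 := by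
    have := congrArg Subtype.val hk
    simpa using this
  have hone : t * x * t⁻¹ * x⁻¹ = 1 := by
    have h1 := orderOf_dvd_of_pow_eq_one hpow
    have h2 := orderOf_dvd_of_pow_eq_one hk'
    have hcop : Nat.Coprime (p ^ 2) (r ^ k) :=
      Nat.Coprime.pow _ _ ((Nat.coprime_primes hp hr).2 (Ne.symm hrp))
    exact orderOf_eq_one_iff.mp (Nat.eq_one_of_dvd_coprimes hcop h1 h2)
  have hN0 : N = 0 := by
    have := hy
    rw [hone, Units.val_one] at this
    simpa using this.symm
  have h5 := congrArg (· *ᵥ w0) hN0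
  simp only [hN, Matrix.sub_mulVec, Matrix.vecMulVec_mulVec, hφ1, Matrix.zero_mulVec, MulOpposite.op_one,
    one_smul] at h5
  have h6 : u = (ψ ⬝ᵥ w0) • w := by
    have := sub_eq_zero.mp h5
    rw [this]
    ext i
    simp [mul_comm]
  by_cases hc : ψ ⬝ᵥ w0 = 0
  · rw [hc, zero_smul] at h6
    exact hu h6
  · apply hxu
    have : w = (ψ ⬝ᵥ w0)⁻¹ • u := by
      rw [h6, smul_smul, inv_mul_cancel₀ hc, one_smul]
    rw [this]
    exact Submodule.smul_mem _ _ (Submodule.mem_span_singleton_self u)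

/-- [D5] -/
theorem notSL_c6 [Fintype F] (hn : 3 ≤ n) {r : ℕ} {R : Subgroup (GL (Fin n) F)}
    (h : IsLinearSymplecticTypeData r R) : ¬ specialLinear (Fin n) F ≤ subgroupNormalizer R := by
  obtain ⟨p, e, hrp, ⟨hp, hchar, -⟩, -⟩ := h.field
  exact notSL_normalizer_of_pGroup hn hp h.symplecticType.prime hrp h.symplecticType.pGroup h.absIrred.1

end Cfsg.Agent.Lib.Helper94AschD5
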