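import Cfsg.Agent.Lib.Helper98AschMainAux
import Cfsg.Agent.Lib.Helper7AschC6
import Cfsg.Agent.Lib.Helper67AschD
import Cfsg.Agent.Lib.Helper67AschD3
import Cfsg.Agent.Lib.Helper12AschNotSLWreath
import Cfsg.Agent.Lib.Helper94AschD5
import Cfsg.Agent.Lib.Helper97AschProper
import Cfsg.Agent.Lib.Helper97AschMono

set_option autoImplicit false

/-! The general theorem for the MAXIMAL subgroups of `SL_n(q)`, `n ≥ 3`: every geometric alternative
is an equality `H = X ⊓ SL`, together with the arithmetic of the parameters.  Interface for the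
fixed dimension statements. -/

namespace Cfsg.Agent.Lib.Helper57AschMax

open Cfsg Cfsg.Geo Matrix
open Cfsg.Agent.Lib.Helper97AschBase Cfsg.Agent.Lib.Helper97AschTransv
  Cfsg.Agent.Lib.Helper97AschProper Cfsg.Agent.Lib.Helper97AschForms
  Cfsg.Agent.Lib.Helper97AschSubfield Cfsg.Agent.Lib.Helper98AschAlt
open scoped MatrixGroups

variable {n : ℕ} {F : Type*} [Field F]

section concl

variable {H : Subgroup (GL (Fin n) F)}

lemma concl_sub (hH : IsMaximalIn (specialLinear (Fin n) F) H) {W : Submodule F (Fin n → F)}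
    (h0 : W ≠ ⊥) (h1 : W ≠ ⊤) (hle : H ≤ subspaceStabilizer W) :
    ∃ W : Submodule F (Fin n → F), W ≠ ⊥ ∧ W ≠ ⊤ ∧
      H = subspaceStabilizer W ⊓ specialLinear (Fin n) F :=
  ⟨W, h0, h1, eq_inf_of_le hH hle (not_SL_le_subspaceStabilizer W h0 h1)⟩

lemma concl_dec (hH : IsMaximalIn (specialLinear (Fin n) F) H) {t m : ℕ}
    {D : Fin t → Submodule F (Fin n → F)} (hD : IsMDecomposition m D)
    (hle : H ≤ decompositionStabilizer D) :
    ∃ D : Fin t → Submodule F (Fin n → F), IsMDecomposition m D ∧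
      H = decompositionStabilizer D ⊓ specialLinear (Fin n) F :=
  ⟨D, hD, eq_inf_of_le hH hle (Cfsg.Agent.Lib.Helper67AschD.notSL_decomp D hD)⟩

lemma concl_field (hn : 3 ≤ n) (hH : IsMaximalIn (specialLinear (Fin n) F) H) {r : ℕ} (hr : 1 < r)
    {K : Subalgebra F (Matrix (Fin n) (Fin n) F)} (hK : IsFieldSubalgebra r K)
    (hle : H ≤ subalgebraNormalizer K) :
    ∃ K : Subalgebra F (Matrix (Fin n) (Fin n) F), IsFieldSubalgebra r K ∧
      H = subalgebraNormalizer K ⊓ specialLinear (Fin n) F :=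
  ⟨K, hK, eq_inf_of_le hH hle (Cfsg.Agent.Lib.Helper67AschD.notSL_subalg hn hr K hK)⟩

lemma concl_tensor (hH : IsMaximalIn (specialLinear (Fin n) F) H) {d s : ℕ} (hd : 2 ≤ d)
    (hs : 2 ≤ s) {e : Fin n ≃ Fin d × Fin s} {P : GL (Fin n) F}
    (hle : H ≤ tensorProductSubgroup d s e P) :
    ∃ (e : Fin n ≃ Fin d × Fin s) (P : GL (Fin n) F),
      H = tensorProductSubgroup d s e P ⊓ specialLinear (Fin n) F :=
  ⟨e, P, eq_inf_of_le hH hle (Cfsg.Agent.Lib.Helper67AschD3.notSL_tensor hd hs e P)⟩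

lemma concl_subfield [Fintype F] (hn : 2 ≤ n) (hH : IsMaximalIn (specialLinear (Fin n) F) H)
    {F₀ : Subfield F} {r : ℕ} {P : GL (Fin n) F} (hr : r.Prime)
    (hcard : Fintype.card F = Nat.card F₀ ^ r) (hle : H ≤ subfieldSubgroup F₀ P) :
    ∃ (F₀ : Subfield F) (r : ℕ) (P : GL (Fin n) F), r.Prime ∧ Fintype.card F = Nat.card F₀ ^ r ∧
      H = subfieldSubgroup F₀ P ⊓ specialLinear (Fin n) F :=
  ⟨F₀, r, P, hr, hcard, eq_inf_of_le hH hle
    (not_SL_le_subfieldSubgroup hn F₀ (subfield_ne_top_of_card hr hcard) P)⟩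

lemma concl_c6 [Fintype F] (hn : 3 ≤ n) (hH : IsMaximalIn (specialLinear (Fin n) F) H) {r : ℕ}
    {R : Subgroup (GL (Fin n) F)} (hR : IsLinearSymplecticTypeData r R)
    (hle : H ≤ subgroupNormalizer R) :
    ∃ R : Subgroup (GL (Fin n) F), IsLinearSymplecticTypeData r R ∧
      H = subgroupNormalizer R ⊓ specialLinear (Fin n) F :=
  ⟨R, hR, eq_inf_of_le hH hle (Cfsg.Agent.Lib.Helper94AschD5.notSL_c6 hn hR)⟩

lemma concl_wreath (hH : IsMaximalIn (specialLinear (Fin n) F) H) {m k : ℕ} (hm : 2 ≤ m)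
    (hk : 2 ≤ k) {e : Fin n ≃ (Fin k → Fin m)} {P : GL (Fin n) F}
    (hle : H ≤ tensorWreathSubgroup m k e P) :
    ∃ (e : Fin n ≃ (Fin k → Fin m)) (P : GL (Fin n) F),
      H = tensorWreathSubgroup m k e P ⊓ specialLinear (Fin n) F :=
  ⟨e, P, eq_inf_of_le hH hle (Cfsg.Agent.Lib.Helper12AschNotSLWreath.notSL_wreath hm hk e P)⟩

lemma concl_symp (hn : 3 ≤ n) (hH : IsMaximalIn (specialLinear (Fin n) F) H)
    {f : (Fin n → F) → (Fin n → F) → F} (hf : IsSymplecticForm f) (hle : H ≤ similarityGroup f) :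
    ∃ f : (Fin n → F) → (Fin n → F) → F, IsSymplecticForm f ∧
      H = similarityGroup f ⊓ specialLinear (Fin n) F :=
  ⟨f, hf, eq_inf_of_le hH hle (not_SL_similarity hn f hf.bilinear.add_left hf.nondegenerate)⟩

lemma concl_unit (hn : 3 ≤ n) (hH : IsMaximalIn (specialLinear (Fin n) F) H) {σ : F ≃+* F}
    {f : (Fin n → F) → (Fin n → F) → F} (hf : IsUnitaryForm σ f) (hle : H ≤ similarityGroup f) :
    ∃ (σ : F ≃+* F) (f : (Fin n → F) → (Fin n → F) → F), IsUnitaryForm σ f ∧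
      H = similarityGroup f ⊓ specialLinear (Fin n) F :=
  ⟨σ, f, hf, eq_inf_of_le hH hle (not_SL_le_similarityGroup hn σ f hf)⟩

lemma concl_quad [Fintype F] (hn : 3 ≤ n) (hH : IsMaximalIn (specialLinear (Fin n) F) H)
    (hodd : Odd (Fintype.card F))
    {Q : (Fin n → F) → F} (hQ : IsNondegenerateQuadraticForm Q) (hle : H ≤ quadSimilarityGroup Q) :
    Odd (Fintype.card F) ∧ ∃ Q : (Fin n → F) → F, IsNondegenerateQuadraticForm Q ∧
      H = quadSimilarityGroup Q ⊓ specialLinear (Fin n) F :=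
  ⟨hodd, Q, hQ, eq_inf_of_le hH hle (not_SL_le_quadSimilarityGroup hn Q hQ)⟩

end concl

/-- the general theorem -/
theorem main [Fintype F] (hn : 3 ≤ n) (H : Subgroup (GL (Fin n) F)) :
    GeomAlt n F H ∨ InLinearResidualClass H :=
  Cfsg.Agent.Lib.Helper98AschMainAux.main_aux (n := n) (F := F) (by omega)
    (fun h1 h2 h3 h4 h5 => Cfsg.Agent.Lib.Helper7AschC6.c6_alt hn h1 h2 h3 h4 h5) H

/-- arithmetic of class six, `r = 2`. -/
lemma c6_two [Fintype F] (hn : 3 ≤ n) {R : Subgroup (GL (Fin n) F)}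
    (h : IsLinearSymplecticTypeData 2 R) :
    ∃ p : ℕ, p.Prime ∧ Fintype.card F = p ∧ p % 4 = 1 := by
  obtain ⟨p, e, _, ⟨hp, _, hcard, hdvd, _⟩, hcases⟩ := h.field
  rcases hcases with ⟨h2, _⟩ | ⟨_, he, hc, _⟩ | ⟨_, _, h2, _⟩
  · exact absurd h2 (by decide)
  · subst he
    rw [hc, pow_one] at hdvd
    rw [pow_one] at hcard
    have := hp.two_le
    exact ⟨p, hp, hcard, by omega⟩
  · rw [Fintype.card_fin] at h2
    omega

/-- arithmetic of class six, `r = 3`. -/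
lemma c6_three [Fintype F] {R : Subgroup (GL (Fin n) F)}
    (h : IsLinearSymplecticTypeData 3 R) :
    ∃ p : ℕ, p.Prime ∧ Fintype.card F = p ∧ p % 3 = 1 := by
  obtain ⟨p, e, hne, ⟨hp, _, hcard, hdvd, hmin⟩, hcases⟩ := h.field
  rcases hcases with ⟨_, he, hc, _⟩ | ⟨h2, _⟩ | ⟨h2, _⟩
  · rw [hc] at hdvd hmin
    have hp2 := hp.two_le
    have hp3 : p % 3 ≠ 0 := by
      intro h0
      have : 3 ∣ p := Nat.dvd_of_mod_eq_zero h0
      exact hne ((Nat.prime_dvd_prime_iff_eq Nat.prime_three hp).mp this)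
    have h2 : 3 ∣ p ^ 2 - 1 := by
      have h1 : p ^ 2 % 3 = 1 := by
        rw [Nat.pow_mod]
        have : p % 3 = 1 ∨ p % 3 = 2 := by omega
        rcases this with h | h <;> rw [h]
      have h3 : 1 ≤ p ^ 2 := Nat.one_le_pow _ _ (by omega)
      omega
    have he2 : e ≤ 2 := by
      by_contra hcon
      exact hmin 2 (by omega) (by omega) h2
    have he1 : e = 1 := by
      obtain ⟨k, hk⟩ := he
      omega
    subst he1
    rw [pow_one] at hdvd hcard
    exact ⟨p, hp, hcard, by omega⟩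
  · omega
  · omega

end Cfsg.Agent.Lib.Helper57AschMax
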