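import Cfsg.Agent.Lib.LeadAutConc
import Cfsg.Agent.Lib.Helper22ChevRC
import Cfsg.Agent.Lib.Helper22ChevPar

set_option autoImplicit false

/-! PROJECT 100 (CHEV-AUT), piece C4 : characters of the root lattice with prescribed values on the
fundamental roots. -/

namespace Cfsg.Agent.Lib.Helper57AutC4

open Cfsg Cfsg.Lie Cfsg.Lie.ChevalleyDatum

variable {F : Type*} [Field F] {D : ChevalleyDatum}

/-- C4 -/
theorem exists_char (hD : D ∈ [chevG2, chevB2, chevD4, chevF4, chevE6, chevE7, chevE8])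
    (c : Fin D.rank → Fˣ) : ∃ χ : ℕ → Fˣ, D.IsRootCharacter χ ∧ ∀ i : Fin D.rank, χ (D.simple i) = c i := by
  classical
  obtain ⟨a, ha⟩ := Helper22ChevRC.exists_rc hD
  refine ⟨fun r => ∏ i : Fin D.rank, c i ^ (a r i), ⟨?_, ?_⟩, ?_⟩
  · intro r hr
    change ∏ i : Fin D.rank, c i ^ (a (D.neg r) i) = (∏ i : Fin D.rank, c i ^ (a r i))⁻¹
    rw [← Finset.prod_inv_distrib]
    refine Finset.prod_congr rfl fun i _ => ?_
    rw [ha.neg r hr i i.2, zpow_neg]
  · intro r s k _ _ hk
    change ∏ i : Fin D.rank, c i ^ (a k i) =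
      (∏ i : Fin D.rank, c i ^ (a r i)) * ∏ i : Fin D.rank, c i ^ (a s i)
    rw [← Finset.prod_mul_distrib]
    refine Finset.prod_congr rfl fun i _ => ?_
    obtain ⟨_, h2⟩ := Helper22ChevPar.chainRoot_coef ha hk
    rw [h2 i i.2, ← zpow_add]
    congr 1
    push_cast
    ring
  · intro i
    change ∏ j : Fin D.rank, c j ^ (a (D.simple i) j) = c i
    rw [Finset.prod_eq_single i]
    · rw [ha.simple i i.2 i i.2, if_pos rfl, zpow_one]
    · intro j _ hj
      rw [ha.simple i i.2 j j.2, if_neg (fun h => hj (Fin.ext h)), zpow_zero]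
    · intro h
      exact absurd (Finset.mem_univ i) h

end Cfsg.Agent.Lib.Helper57AutC4
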