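import Cfsg.Agent.Lib.LeadAutConc
import Cfsg.Agent.S2157

set_option autoImplicit false

/-! PROJECT 100 (CHEV-AUT), piece C5 : diagonal automorphisms. -/

namespace Cfsg.Agent.Lib.Helper57AutC5

open Cfsg Cfsg.Lie Cfsg.Lie.ChevalleyDatum
open Subgroup Cfsg.Agent.Lib.Helper23Grp Cfsg.Agent.Lib.Helper23RG Cfsg.Agent.Lib.Helper23RG.RG
  Cfsg.Agent.Lib.Helper23Weyl Cfsg.Agent.Lib.LeadAutDefs
  Cfsg.Agent.Lib.Helper23Table Cfsg.Agent.Lib.Helper23Chev Cfsg.Agent.Lib.LeadAutConc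
open scoped MatrixGroups Matrix

variable {F : Type*} [Field F] {D : ChevalleyDatum}

theorem charDiag_mul_inv (χ : ℕ → Fˣ) :
    D.charDiag F χ * D.charDiag F (fun r => (χ r)⁻¹) = 1 := by
  unfold charDiag
  rw [Matrix.diagonal_mul_diagonal, ← Matrix.diagonal_one]
  congr 1
  funext a
  rcases a with a | a <;> simp

theorem charDiag_inv_mul (χ : ℕ → Fˣ) :
    D.charDiag F (fun r => (χ r)⁻¹) * D.charDiag F χ = 1 := by
  unfold charDiag
  rw [Matrix.diagonal_mul_diagonal, ← Matrix.diagonal_one]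
  congr 1
  funext a
  rcases a with a | a <;> simp

/-- the diagonal matrix of `χ` as a unit -/
def dU (D : ChevalleyDatum) (χ : ℕ → Fˣ) : GL D.Idx F :=
  ⟨D.charDiag F χ, D.charDiag F (fun r => (χ r)⁻¹), charDiag_mul_inv χ, charDiag_inv_mul χ⟩

theorem isRootCharacter_inv {χ : ℕ → Fˣ} (hχ : D.IsRootCharacter χ) :
    D.IsRootCharacter (fun r => (χ r)⁻¹) := by
  refine ⟨fun r hr => ?_, fun r s k hr hs hk => ?_⟩
  · change (χ (D.neg r))⁻¹ = ((χ r)⁻¹)⁻¹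
    rw [hχ.1 r hr]
  · change (χ k)⁻¹ = (χ r)⁻¹ * (χ s)⁻¹
    rw [hχ.2 r s k hr hs hk, mul_inv]

theorem conj_mem (hD : D ∈ [chevG2, chevB2, chevD4, chevF4, chevE6, chevE7, chevE8])
    (χ : ℕ → Fˣ) (hχ : D.IsRootCharacter χ) {g : GL D.Idx F} (hg : g ∈ D.group F) :
    dU D χ * g * (dU D χ)⁻¹ ∈ D.group F := by
  have h1 : (D.group F).map (MulAut.conj (dU D χ)).toMonoidHom ≤ D.group F := by
    conv_lhs => unfold ChevalleyDatum.group
    rw [MonoidHom.map_closure, Subgroup.closure_le]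
    rintro _ ⟨g, ⟨r, t, hg⟩, rfl⟩
    apply Subgroup.subset_closure
    refine ⟨r, (χ r : F) * t, ?_⟩
    have h := Cfsg.Agent.S2157.result D hD χ hχ r r.2 t
    have e : ∀ u : F, D.x F r u = D.xMat F r u := by
      intro u
      simp [ChevalleyDatum.x, r.2]
    rw [e, e] at h
    rw [← h, ← hg]
    rfl
  exact h1 ⟨g, hg, rfl⟩

theorem conj_mem' (hD : D ∈ [chevG2, chevB2, chevD4, chevF4, chevE6, chevE7, chevE8])
    (χ : ℕ → Fˣ) (hχ : D.IsRootCharacter χ) {g : GL D.Idx F} (hg : g ∈ D.group F) :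
    (dU D χ)⁻¹ * g * dU D χ ∈ D.group F := by
  have h := conj_mem hD _ (isRootCharacter_inv hχ) hg
  have e : dU D (fun r => (χ r)⁻¹) = (dU D χ)⁻¹ := by
    apply Units.ext
    rfl
  rw [e, inv_inv] at h
  exact h

/-- C5 -/
theorem diagAut (hD : D ∈ [chevG2, chevB2, chevD4, chevF4, chevE6, chevE7, chevE8])
    (hT : TableOK D) (hR : Rel D F) (χ : ℕ → Fˣ) (hχ : D.IsRootCharacter χ) :
    ∃ d : ↥(D.group F) ≃* ↥(D.group F), D.IsDiagonalAut d ∧
      ∀ (r : Fin D.nroots) (t : F), d ((SG hT hR).x r t) = (SG hT hR).x r (χ r * t) := by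
  let d : ↥(D.group F) ≃* ↥(D.group F) :=
    { toFun := fun g => ⟨dU D χ * g * (dU D χ)⁻¹, conj_mem hD χ hχ g.2⟩
      invFun := fun g => ⟨(dU D χ)⁻¹ * g * dU D χ, conj_mem' hD χ hχ g.2⟩
      left_inv := fun g => Subtype.ext (by
        change (dU D χ)⁻¹ * (dU D χ * g * (dU D χ)⁻¹) * dU D χ = g
        group)
      right_inv := fun g => Subtype.ext (by
        change dU D χ * ((dU D χ)⁻¹ * g * dU D χ) * (dU D χ)⁻¹ = g
        group)
      map_mul' := fun g h => Subtype.ext (by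
        change dU D χ * ((g : GL D.Idx F) * h) * (dU D χ)⁻¹ =
          (dU D χ * g * (dU D χ)⁻¹) * (dU D χ * h * (dU D χ)⁻¹)
        group) }
  have hd : ∀ g : ↥(D.group F), ((d g : GL D.Idx F) : Matrix D.Idx D.Idx F) =
      D.charDiag F χ * ((g : GL D.Idx F) : Matrix D.Idx D.Idx F) * D.charDiag F (fun r => (χ r)⁻¹) :=
    fun g => rfl
  refine ⟨d, ⟨χ, hχ, hd⟩, ?_⟩
  intro r t
  rw [← eq_SG_x_iff, hd, coe_SG_x]
  exact Cfsg.Agent.S2157.result D hD χ hχ r r.2 t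

end Cfsg.Agent.Lib.Helper57AutC5
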