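import Mathlib
import Cfsg.Agent.Lib.Helper92HupDefs

/-!
PROJECT 92, piece `family`: coset representatives of `Z(B)` are linearly independent.
-/

set_option autoImplicit false

namespace Cfsg.Agent.Lib.Helper57HupFamily

open Subgroup
open scoped commutatorElement
open Cfsg.Agent.Lib.Helper92HupDefs

universe u v w

/-- elements of `B` in different cosets of `A = Z(B)` are linearly independent over `L` -/
theorem family_indep {G : Type u} {V : Type v} {L : Type w} [Group G] [AddCommGroup V]
    [Nontrivial V] [DistribMulAction G V] [FaithfulSMul G V] [Field L] [Module L V]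
    {A B : Subgroup G} (hA : A ≤ scal G V L)
    (hB : B ≤ lin G V L) (hcomm : ∀ x ∈ B, ∀ y ∈ B, ⁅x, y⁆ ∈ A)
    (hZ : ∀ x ∈ B, (∀ y ∈ B, x * y = y * x) → x ∈ A)
    {ι : Type*} (b : ι → G) (hb : ∀ i, b i ∈ B) (hdist : ∀ i j, (b i)⁻¹ * b j ∈ A → i = j) :
    LinearIndependent L (fun i => linMap (⟨b i, hB (hb i)⟩ : lin G V L)) := by
  classical
  have hlin : ∀ y ∈ B, ∀ (l : L) (v : V), y • (l • v) = l • (y • v) := fun y hy => hB hy
  have hex : ∀ (i : ι) (y : B), ∃ l : L, ∀ u : V, (y : G) • b i • u = l • b i • (y : G) • u := by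
    intro i y
    obtain ⟨l, hl⟩ := hA (hcomm y y.2 (b i) (hb i))
    refine ⟨l, fun u => ?_⟩
    have := hl (b i • (y : G) • u)
    rw [← this, commutatorElement_def]
    simp [mul_smul]
  choose χ hχ using hex
  obtain ⟨v0, hv0⟩ := exists_ne (0 : V)
  have huniq : ∀ (i : ι) (y : G) (l l' : L),
      (∀ u : V, l • b i • y • u = l' • b i • y • u) → l = l' := by
    intro i y l l' h
    have hne : b i • y • v0 ≠ 0 := by
      rw [smul_ne_zero_iff_ne, smul_ne_zero_iff_ne]; exact hv0
    exact smul_left_injective L hne (h v0)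
  let X : ι → (B →* L) := fun i =>
    { toFun := χ i
      map_one' := by
        apply huniq i 1
        intro u
        have := hχ i 1
        simp only [OneMemClass.coe_one, one_smul] at this ⊢
        exact (this u).symm
      map_mul' := by
        intro y y'
        apply huniq i ((y : G) * y')
        intro u
        have e1 := hχ i (y * y') u
        rw [Subgroup.coe_mul] at e1
        rw [← e1, mul_smul, hχ i y', hlin y y.2, hχ i y, mul_comm, mul_smul (χ i y'),
          mul_smul (y : G)] }
  have hX : ∀ i y, X i y = χ i y := fun i y => rfl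
  have hXinj : Function.Injective X := by
    intro i j hij
    apply hdist
    apply hZ _ (B.mul_mem (B.inv_mem (hb i)) (hb j))
    intro y hy
    apply FaithfulSMul.eq_of_smul_eq_smul (α := V)
    intro v
    have hl : χ i ⟨y, hy⟩ = χ j ⟨y, hy⟩ := by rw [← hX, ← hX, hij]
    have e1 := hχ i ⟨y, hy⟩ ((b i)⁻¹ • b j • v)
    have e2 := hχ j ⟨y, hy⟩ v
    simp only [smul_inv_smul] at e1
    rw [e1, hl] at e2
    have hne : χ j ⟨y, hy⟩ ≠ 0 := by
      intro h0
      have e3 := hχ j ⟨y, hy⟩ v0
      rw [h0, zero_smul] at e3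
      simp only [smul_eq_zero_iff_eq] at e3
      exact hv0 e3
    have e3 := smul_right_injective V hne e2
    simp only [mul_smul]
    rw [← e3, inv_smul_smul]
  have hind : LinearIndependent L (fun i => (X i : B → L)) :=
    (linearIndependent_monoidHom B L).comp X hXinj
  rw [linearIndependent_iff'] at hind ⊢
  intro s c hc i hi
  have happ : ∀ u : V, ∑ i ∈ s, c i • b i • u = 0 := by
    intro u
    have := LinearMap.congr_fun hc u
    simpa [LinearMap.sum_apply] using this
  have key : ∀ (y : B) (v : V), ∑ i ∈ s, (c i * χ i y) • b i • v = 0 := by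
    intro y v
    have h0 := happ ((y : G)⁻¹ • v)
    have h1 := congrArg (fun w => (y : G) • w) h0
    simp only [Finset.smul_sum, smul_zero] at h1
    rw [← h1]
    refine Finset.sum_congr rfl fun i _ => ?_
    rw [hlin y y.2, hχ, smul_inv_smul, smul_smul]
  have hne : b i • v0 ≠ 0 := by
    rw [smul_ne_zero_iff_ne]; exact hv0
  obtain ⟨f, hf⟩ : ∃ f : Module.Dual L V, f (b i • v0) ≠ 0 := by
    by_contra hcon
    push Not at hcon
    exact hne ((Module.forall_dual_apply_eq_zero_iff L _).mp hcon)
  have hsum : ∑ i ∈ s, (c i * f (b i • v0)) • (X i : B → L) = 0 := by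
    ext y
    have := congrArg f (key y v0)
    simp only [map_sum, map_smul, smul_eq_mul, map_zero] at this
    simp only [Finset.sum_apply, Pi.smul_apply, smul_eq_mul, Pi.zero_apply, hX]
    rw [← this]
    refine Finset.sum_congr rfl fun i _ => ?_
    ring
  have := hind s _ hsum i hi
  exact (mul_eq_zero.mp this).resolve_right hf

end Cfsg.Agent.Lib.Helper57HupFamily
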