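import Mathlib

/-!
PROJECT 92, piece `inj`: an invariant commutative subring of `End V` acts without zero divisors
when the group is transitive on the non-zero vectors.
-/

set_option autoImplicit false

namespace Cfsg.Agent.Lib.Helper57HupInj

universe u v

theorem inj_of_invariant {G : Type u} {V : Type v} [Group G] [AddCommGroup V] [Finite V]
    [DistribMulAction G V] (htrans : ∀ v w : V, v ≠ 0 → w ≠ 0 → ∃ g : G, g • v = w)
    (R : Subring (AddMonoid.End V)) (hcomm : ∀ a ∈ R, ∀ b ∈ R, a * b = b * a)
    (hinv : ∀ (g : G), ∀ a ∈ R, ∃ b ∈ R, ∀ v : V, b (g • v) = g • a v) :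
    ∀ a ∈ R, a ≠ 0 → ∀ v : V, a v = 0 → v = 0 := by
  classical
  have : Finite (AddMonoid.End V) :=
    Finite.of_injective (fun f : AddMonoid.End V => (f : V → V)) DFunLike.coe_injective
  set I : V → Set (AddMonoid.End V) := fun v => {a | a ∈ R ∧ a v = 0} with hI
  -- step 1
  have h1 : ∀ (g : G) (v : V), (I v).ncard ≤ (I (g • v)).ncard := by
    intro g v
    choose! f hfR hf using hinv g
    refine Set.ncard_le_ncard_of_injOn f ?_ ?_ (Set.toFinite _)
    · rintro a ⟨haR, hav⟩
      refine ⟨hfR a haR, ?_⟩
      rw [hf a haR, hav, smul_zero]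
    · rintro a ⟨haR, _⟩ a' ⟨haR', _⟩ haa
      ext x
      have e1 := hf a haR x
      have e2 := hf a' haR' x
      rw [haa] at e1
      exact smul_left_cancel g (e1.symm.trans e2)
  have h1' : ∀ v w : V, v ≠ 0 → w ≠ 0 → (I v).ncard ≤ (I w).ncard := by
    intro v w hv hw
    obtain ⟨g, rfl⟩ := htrans v w hv hw
    exact h1 g v
  -- step 2
  have h2 : ∀ v w : V, v ≠ 0 → w ≠ 0 → I v ⊆ I w → I v = I w := by
    intro v w hv hw hsub
    exact Set.eq_of_subset_of_ncard_le hsub (h1' w v hw hv) (Set.toFinite _)
  -- step 3
  have h3 : ∀ v w : V, v ≠ 0 → w ≠ 0 → I v = I w := by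
    intro v w hv hw
    by_cases hsub : I v ⊆ I w
    · exact h2 v w hv hw hsub
    · obtain ⟨a0, ha0, ha0w⟩ := Set.not_subset.mp hsub
      have hu : v + w ≠ 0 := by
        intro hu
        apply ha0w
        refine ⟨ha0.1, ?_⟩
        have : w = -v := (neg_eq_of_add_eq_zero_right hu).symm
        rw [this, map_neg, ha0.2, neg_zero]
      have key : ∀ a ∈ I (v + w), a v = 0 := by
        rintro a ⟨haR, hau⟩
        by_contra hx
        have hvw : a v = -(a w) := by
          rw [map_add] at hau
          exact eq_neg_of_add_eq_zero_left hau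
        have e1 : I v = I (a v) := by
          refine h2 v (a v) hv hx ?_
          rintro c ⟨hcR, hcv⟩
          refine ⟨hcR, ?_⟩
          have : c (a v) = a (c v) := congrArg (fun f : AddMonoid.End V => f v) (hcomm c hcR a haR)
          rw [this, hcv, map_zero]
        have e2 : I w = I (a v) := by
          refine h2 w (a v) hw hx ?_
          rintro c ⟨hcR, hcw⟩
          refine ⟨hcR, ?_⟩
          have : c (a w) = a (c w) := congrArg (fun f : AddMonoid.End V => f w) (hcomm c hcR a haR)
          rw [hvw, map_neg, this, hcw, map_zero, neg_zero]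
        exact hsub (e1.trans e2.symm).le
      have e1 : I (v + w) = I v := by
        refine h2 _ _ hu hv ?_
        intro a ha
        exact ⟨ha.1, key a ha⟩
      have e2 : I (v + w) = I w := by
        refine h2 _ _ hu hw ?_
        intro a ha
        refine ⟨ha.1, ?_⟩
        have h := ha.2
        rw [map_add, key a ha, zero_add] at h
        exact h
      exact e1.symm.trans e2
  intro a haR ha0 v hav
  by_contra hv
  apply ha0
  ext w
  by_cases hw : w = 0
  · rw [hw, map_zero, map_zero]
  · have : a ∈ I w := by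
      rw [← h3 v w hv hw]
      exact ⟨haR, hav⟩
    simpa using this.2

end Cfsg.Agent.Lib.Helper57HupInj
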