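import Mathlib
import Cfsg.Agent.Lib.Helper92HupDefs
import Cfsg.Agent.Lib.Helper57HupInj

/-!
PROJECT 92, piece `field`: the subring of `End V` generated by an abelian normal subgroup of a
group transitive on the non-zero vectors is a field, normalised by the group.
-/

set_option autoImplicit false

namespace Cfsg.Agent.Lib.Helper57HupField

open Subgroup
open Cfsg.Agent.Lib.Helper92HupDefs

universe u v

theorem exists_subring {G : Type u} {V : Type v} [Group G] [AddCommGroup V] [Finite V]
    [Nontrivial V]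
    [DistribMulAction G V] (htrans : ∀ v w : V, v ≠ 0 → w ≠ 0 → ∃ g : G, g • v = w)
    (A : Subgroup G) [A.Normal] (hAc : ∀ a ∈ A, ∀ b ∈ A, a * b = b * a) :
    ∃ (R : Subring (AddMonoid.End V)) (σ : G →* (R ≃+* R)), IsField R ∧
      (∀ (g : G) (l : R) (v : V), g • ((l : AddMonoid.End V) v) =
        ((σ g l : R) : AddMonoid.End V) (g • v)) ∧
      (∀ a ∈ A, DistribMulAction.toAddMonoidEnd G V a ∈ R) ∧
      (∀ g ∈ centralizer (A : Set G), σ g = 1) := by
  classical
  have hfin : Finite (AddMonoid.End V) :=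
    Finite.of_injective (fun f : AddMonoid.End V => (f : V → V)) DFunLike.coe_injective
  set T := DistribMulAction.toAddMonoidEnd G V with hT
  have hTapp : ∀ (g : G) (v : V), T g v = g • v := fun g v => rfl
  have hT1 : ∀ g : G, T g⁻¹ * T g = 1 := fun g => by rw [← map_mul, inv_mul_cancel, map_one]
  have hT2 : ∀ g : G, T g * T g⁻¹ = 1 := fun g => by rw [← map_mul, mul_inv_cancel, map_one]
  set R := Subring.closure (T '' (A : Set G)) with hR
  have hcomm : ∀ a ∈ R, ∀ b ∈ R, a * b = b * a := by
    have hc := Subring.isMulCommutative_closure (s := T '' (A : Set G)) (by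
      rintro _ ⟨x, hx, rfl⟩ _ ⟨y, hy, rfl⟩
      rw [← map_mul, ← map_mul, hAc x hx y hy])
    intro a ha b hb
    have := hc.is_comm.comm (⟨a, ha⟩ : Subring.closure (T '' (A : Set G))) ⟨b, hb⟩
    exact congrArg Subtype.val this
  have hmem : ∀ (g : G), ∀ a ∈ R, T g * a * T g⁻¹ ∈ R := by
    intro g a ha
    induction ha using Subring.closure_induction with
    | mem x hx =>
      obtain ⟨y, hy, rfl⟩ := hx
      rw [← map_mul, ← map_mul]
      exact Subring.subset_closure ⟨_, ‹A.Normal›.conj_mem y hy g, rfl⟩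
    | zero => simp
    | one => rw [mul_one, hT2]; exact R.one_mem
    | add x y _ _ hx hy =>
      rw [mul_add, add_mul]; exact R.add_mem hx hy
    | neg x _ hx => rw [mul_neg, neg_mul]; exact R.neg_mem hx
    | mul x y _ _ hx hy =>
      have : T g * (x * y) * T g⁻¹ = (T g * x * T g⁻¹) * (T g * y * T g⁻¹) := by
        calc T g * (x * y) * T g⁻¹ = T g * x * 1 * y * T g⁻¹ := by noncomm_ring
          _ = T g * x * (T g⁻¹ * T g) * y * T g⁻¹ := by rw [hT1]
          _ = _ := by noncomm_ring
      rw [this]; exact R.mul_mem hx hy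
  have hmem' : ∀ (g : G), ∀ a ∈ R, T g⁻¹ * a * T g ∈ R := by
    intro g a ha
    have := hmem g⁻¹ a ha
    rwa [inv_inv] at this
  have hinj := Helper57HupInj.inj_of_invariant htrans R hcomm (by
    intro g a ha
    refine ⟨_, hmem g a ha, fun v => ?_⟩
    change T g (a (T g⁻¹ (g • v))) = g • a v
    rw [hTapp, hTapp, inv_smul_smul])
  let σ0 : G → (R ≃+* R) := fun g =>
    { toFun := fun x => ⟨T g * x * T g⁻¹, hmem g x x.2⟩
      invFun := fun x => ⟨T g⁻¹ * x * T g, hmem' g x x.2⟩
      left_inv := by
        intro x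
        apply Subtype.ext
        change T g⁻¹ * (T g * x * T g⁻¹) * T g = x
        calc T g⁻¹ * (T g * x * T g⁻¹) * T g = (T g⁻¹ * T g) * x * (T g⁻¹ * T g) := by noncomm_ring
          _ = x := by rw [hT1, one_mul, mul_one]
      right_inv := by
        intro x
        apply Subtype.ext
        change T g * (T g⁻¹ * x * T g) * T g⁻¹ = x
        calc T g * (T g⁻¹ * x * T g) * T g⁻¹ = (T g * T g⁻¹) * x * (T g * T g⁻¹) := by noncomm_ring
          _ = x := by rw [hT2, one_mul, mul_one]
      map_mul' := by
        intro x y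
        apply Subtype.ext
        change T g * ((x : AddMonoid.End V) * y) * T g⁻¹ = (T g * x * T g⁻¹) * (T g * y * T g⁻¹)
        calc T g * ((x : AddMonoid.End V) * y) * T g⁻¹ = T g * x * 1 * y * T g⁻¹ := by noncomm_ring
          _ = T g * x * (T g⁻¹ * T g) * y * T g⁻¹ := by rw [hT1]
          _ = _ := by noncomm_ring
      map_add' := by
        intro x y
        apply Subtype.ext
        change T g * ((x : AddMonoid.End V) + y) * T g⁻¹ = (T g * x * T g⁻¹) + (T g * y * T g⁻¹)
        noncomm_ring }
  have hσ0 : ∀ (g : G) (x : R), ((σ0 g x : R) : AddMonoid.End V) = T g * x * T g⁻¹ :=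
    fun g x => rfl
  let σ : G →* (R ≃+* R) :=
    { toFun := σ0
      map_one' := by
        ext x : 1
        apply Subtype.ext
        rw [hσ0, inv_one, map_one, one_mul, mul_one]
        rfl
      map_mul' := by
        intro g h
        ext x : 1
        apply Subtype.ext
        rw [hσ0, RingAut.mul_apply, hσ0, hσ0, mul_inv_rev, map_mul, map_mul]
        noncomm_ring }
  have hσ : ∀ (g : G) (x : R), ((σ g x : R) : AddMonoid.End V) = T g * x * T g⁻¹ :=
    fun g x => rfl
  refine ⟨R, σ, ?_, ?_, ?_, ?_⟩
  · refine ⟨⟨0, 1, ?_⟩, ?_, ?_⟩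
    · intro h01
      obtain ⟨v, hv⟩ := exists_ne (0 : V)
      have : (0 : AddMonoid.End V) v = (1 : AddMonoid.End V) v :=
        congrArg (fun f : R => (f : AddMonoid.End V) v) h01
      exact hv this.symm
    · intro x y
      exact Subtype.ext (hcomm x x.2 y y.2)
    · intro a ha
      have ha' : (a : AddMonoid.End V) ≠ 0 := fun h => ha (Subtype.ext h)
      have hi : Function.Injective (fun x : R => a * x) := by
        intro x y hxy
        apply Subtype.ext
        ext v
        have h1 : (a : AddMonoid.End V) ((x : AddMonoid.End V) v) =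
            (a : AddMonoid.End V) ((y : AddMonoid.End V) v) :=
          congrArg (fun f : R => (f : AddMonoid.End V) v) hxy
        have h2 : (a : AddMonoid.End V) ((x : AddMonoid.End V) v - (y : AddMonoid.End V) v) = 0 := by
          rw [map_sub, h1, sub_self]
        exact sub_eq_zero.mp (hinj a a.2 ha' _ h2)
      exact (Finite.injective_iff_surjective.mp hi) 1
  · intro g l v
    rw [hσ]
    change g • _ = T g ((l : AddMonoid.End V) (T g⁻¹ (g • v)))
    rw [hTapp, hTapp, inv_smul_smul]
  · intro a ha
    exact Subring.subset_closure ⟨a, ha, rfl⟩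
  · intro g hg
    have hle : R ≤ Subring.centralizer {T g} := by
      rw [hR, Subring.closure_le]
      rintro _ ⟨x, hx, rfl⟩
      rw [SetLike.mem_coe, Subring.mem_centralizer_iff]
      rintro _ rfl
      rw [← map_mul, ← map_mul, (mem_centralizer_iff.mp hg x hx)]
    ext x : 1
    apply Subtype.ext
    rw [hσ]
    have := Subring.mem_centralizer_iff.mp (hle x.2) (T g) rfl
    rw [this, mul_assoc, hT2, mul_one]
    rfl

theorem exists_field {G : Type u} {V : Type v} [Group G] [AddCommGroup V] [Finite V] [Nontrivial V]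
    [DistribMulAction G V] (htrans : ∀ v w : V, v ≠ 0 → w ≠ 0 → ∃ g : G, g • v = w)
    (A : Subgroup G) [A.Normal] (hAc : ∀ a ∈ A, ∀ b ∈ A, a * b = b * a) :
    ∃ (L : Type v) (_ : Field L) (_ : Finite L) (_ : Module L V) (σ : G →* (L ≃+* L)),
      (∀ (g : G) (l : L) (v : V), g • (l • v) = σ g l • g • v) ∧
      A ≤ scal G V L ∧ centralizer (A : Set G) ≤ σ.ker := by
  have hfin : Finite (AddMonoid.End V) :=
    Finite.of_injective (fun f : AddMonoid.End V => (f : V → V)) DFunLike.coe_injective
  obtain ⟨R, σ, hF, h1, h2, h3⟩ := exists_subring htrans A hAc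
  refine ⟨R, hF.toField, inferInstance, (inferInstance : Module R V), σ, ?_, ?_, ?_⟩
  · intro g l v
    exact h1 g l v
  · intro a ha
    exact ⟨⟨_, h2 a ha⟩, fun v => rfl⟩
  · intro g hg
    exact h3 g hg

end Cfsg.Agent.Lib.Helper57HupField
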