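import Mathlib
import Cfsg.Agent.Lib.Helper92HupDefs
import Cfsg.Agent.Lib.Helper57HupFamily

/-!
PROJECT 92, pieces `indep` and `span`.
-/

set_option autoImplicit false

namespace Cfsg.Agent.Lib.Helper57HupSpan

open Subgroup
open scoped commutatorElement
open Cfsg.Agent.Lib.Helper92HupDefs

universe u v w

theorem out_family {G : Type u} {V : Type v} {L : Type w} [Group G] [AddCommGroup V]
    [Nontrivial V] [DistribMulAction G V] [FaithfulSMul G V] [Field L] [Module L V]
    {A B : Subgroup G} (hA : A ≤ scal G V L)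
    (hB : B ≤ lin G V L) (hcomm : ∀ x ∈ B, ∀ y ∈ B, ⁅x, y⁆ ∈ A)
    (hZ : ∀ x ∈ B, (∀ y ∈ B, x * y = y * x) → x ∈ A) :
    LinearIndependent L (fun i : B ⧸ A.subgroupOf B =>
      linMap (⟨(i.out : G), hB i.out.2⟩ : lin G V L)) := by
  refine Helper57HupFamily.family_indep hA hB hcomm hZ
    (fun i : B ⧸ A.subgroupOf B => (i.out : G)) (fun i => i.out.2) ?_
  intro i j hij
  have : (i.out : B ⧸ A.subgroupOf B) = (j.out : B ⧸ A.subgroupOf B) := by
    rw [QuotientGroup.eq, Subgroup.mem_subgroupOf]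
    simpa using hij
  simpa using this

theorem relIndex_le_sq {G : Type u} {V : Type v} {L : Type w} [Group G] [Finite G] [AddCommGroup V]
    [Nontrivial V] [DistribMulAction G V] [FaithfulSMul G V] [Field L] [Module L V]
    [Module.Finite L V] {A B : Subgroup G} (hAB : A ≤ B) (hA : A ≤ scal G V L)
    (hB : B ≤ lin G V L) (hcomm : ∀ x ∈ B, ∀ y ∈ B, ⁅x, y⁆ ∈ A)
    (hZ : ∀ x ∈ B, (∀ y ∈ B, x * y = y * x) → x ∈ A) :
    A.relIndex B ≤ (Module.finrank L V) ^ 2 := by
  classical
  have := Fintype.ofFinite (B ⧸ A.subgroupOf B)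
  have h := (out_family hA hB hcomm hZ).fintype_card_le_finrank
  rw [Module.finrank_linearMap, ← Nat.card_eq_fintype_card] at h
  rw [sq]
  exact h

theorem scalar_of_commute {G : Type u} {V : Type v} {L : Type w} [Group G] [Finite G]
    [AddCommGroup V] [Nontrivial V] [DistribMulAction G V] [FaithfulSMul G V] [Field L] [Module L V]
    [Module.Finite L V] {A B : Subgroup G} (hAB : A ≤ B) (hA : A ≤ scal G V L)
    (hB : B ≤ lin G V L) (hcomm : ∀ x ∈ B, ∀ y ∈ B, ⁅x, y⁆ ∈ A)
    (hZ : ∀ x ∈ B, (∀ y ∈ B, x * y = y * x) → x ∈ A)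
    (heq : A.relIndex B = (Module.finrank L V) ^ 2) {g : G} (hg : g ∈ lin G V L)
    (hgB : ∀ b ∈ B, g * b = b * g) : g ∈ scal G V L := by
  classical
  have := Fintype.ofFinite (B ⧸ A.subgroupOf B)
  have hspan := (out_family hA hB hcomm hZ).span_eq_top_of_card_eq_finrank' (by
    rw [Module.finrank_linearMap, ← Nat.card_eq_fintype_card, ← sq]
    exact heq)
  set T : V →ₗ[L] V := linMap (⟨g, hg⟩ : lin G V L) with hT
  have hall : ∀ f : V →ₗ[L] V, f ∈ (Subalgebra.centralizer L {T}).toSubmodule := by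
    intro f
    have hle : Submodule.span L (Set.range (fun i : B ⧸ A.subgroupOf B =>
      linMap (⟨(i.out : G), hB i.out.2⟩ : lin G V L))) ≤
        (Subalgebra.centralizer L {T}).toSubmodule := by
      rw [Submodule.span_le]
      rintro _ ⟨i, rfl⟩
      rw [SetLike.mem_coe, Subalgebra.mem_toSubmodule, Subalgebra.mem_centralizer_iff]
      rintro _ rfl
      ext v
      simp only [Module.End.mul_apply, linMap_apply, hT]
      rw [← mul_smul, ← mul_smul, hgB _ i.out.2]
    apply hle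
    rw [hspan]
    trivial
  have hc : ∀ f : V →ₗ[L] V, ∀ v, T (f v) = f (T v) := by
    intro f v
    have := (Subalgebra.mem_centralizer_iff L).mp ((Subalgebra.mem_toSubmodule _).mp (hall f)) T rfl
    exact LinearMap.congr_fun this v
  obtain ⟨v0, hv0⟩ := exists_ne (0 : V)
  obtain ⟨φ, hφ⟩ : ∃ f : Module.Dual L V, f v0 ≠ 0 := by
    by_contra hcon
    push Not at hcon
    exact hv0 ((Module.forall_dual_apply_eq_zero_iff L _).mp hcon)
  refine ⟨(φ v0)⁻¹ * φ (T v0), fun w => ?_⟩
  have h1 := hc (φ.smulRight w) v0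
  simp only [LinearMap.smulRight_apply, map_smul] at h1
  have h2 : T w = g • w := rfl
  rw [← h2, mul_smul, ← h1, smul_smul, inv_mul_cancel₀ hφ, one_smul]

end Cfsg.Agent.Lib.Helper57HupSpan
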