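import Mathlib

set_option autoImplicit false

/-! ASCH-O, piece `lalgeven`, abstract part.  `K/F` finite fields of characteristic 2, `V` a `K`-space of
dimension 2, `Q` an `F`-quadratic form on `V` with non-degenerate polar form `f` for which `K` is self-adjoint.
There is a `K`-linear `J` with `f (a² v) (J v) = Q (a v)`, unique modulo `K`. -/

namespace Cfsg.Agent.Lib.Helper57OLalgA

/-- the data -/
structure Dat {F V : Type*} [Field F] [AddCommGroup V] [Module F V] (K : Type*) [SMul K V]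
    (Q : V → F) (f : V → V → F) : Prop where
  two : (2 : F) = 0
  smul : ∀ (c : F) (v : V), Q (c • v) = c ^ 2 * Q v
  polar : ∀ u v : V, Q (u + v) = Q u + Q v + f u v
  addl : ∀ x y v : V, f (x + y) v = f x v + f y v
  smull : ∀ (c : F) (x v : V), f (c • x) v = c * f x v
  symm : ∀ u v : V, f u v = f v u
  nondeg : ∀ v : V, v ≠ 0 → ∃ x, f x v ≠ 0
  sa : ∀ (k : K) (u v : V), f (k • u) v = f u (k • v)

variable {F K V : Type*} [Field F] [Field K] [Algebra F K] [Finite K]

omit [Finite K] in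
lemma two_K (h2 : (2 : F) = 0) : (2 : K) = 0 := by
  have := congrArg (algebraMap F K) h2
  rwa [map_ofNat, map_zero] at this

lemma sq_surj (h2 : (2 : F) = 0) (b : K) : ∃ a : K, b = a * a := by
  have h2K : (2 : K) = 0 := two_K h2
  have : CharP K 2 := CharTwo.of_one_ne_zero_of_two_eq_zero one_ne_zero h2K
  exact FiniteField.isSquare_of_char_two (ringChar.eq K 2) b

omit [Field K] [Algebra F K] [Finite K] in
lemma sq_surj_F [Finite F] (h2 : (2 : F) = 0) (b : F) : ∃ a : F, b = a * a := by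
  have : CharP F 2 := CharTwo.of_one_ne_zero_of_two_eq_zero one_ne_zero h2
  exact FiniteField.isSquare_of_char_two (ringChar.eq F 2) b

lemma sq_inj (h2 : (2 : F) = 0) {a b : K} (h : a * a = b * b) : a = b := by
  have h2K : (2 : K) = 0 := two_K h2
  have h1 : (a - b) * (a - b) = 0 := by
    have : (a - b) * (a - b) = a * a + b * b - 2 * (a * b) := by ring
    rw [this, h2K, h]
    have : b * b + b * b = 2 * (b * b) := by ring
    rw [this, h2K]; ring
  have := mul_self_eq_zero.mp h1
  exact sub_eq_zero.mp this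

/-- every functional is `τ (· α)` -/
lemma exists_repr (τ : K →ₗ[F] F) (hτ : τ ≠ 0) (φ : K →ₗ[F] F) : ∃ α : K, ∀ b, φ b = τ (b * α) := by
  have : FiniteDimensional F K := Module.Finite.of_finite
  let Φ : K →ₗ[F] (K →ₗ[F] F) := (LinearMap.mul F K).compr₂ τ
  have hΦ : ∀ a b, Φ a b = τ (a * b) := fun a b => rfl
  have hinj : Function.Injective Φ := by
    rw [← LinearMap.ker_eq_bot, LinearMap.ker_eq_bot']
    intro a ha
    by_contra hne
    apply hτ
    ext b
    have := congrArg (fun g => g (a⁻¹ * b)) ha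
    simp only [hΦ] at this
    rw [mul_inv_cancel_left₀ hne] at this
    simpa using this
  have hsurj : Function.Surjective Φ := by
    apply (LinearMap.injective_iff_surjective_of_finrank_eq_finrank _).mp hinj
    exact (Subspace.dual_finrank_eq).symm
  obtain ⟨α, hα⟩ := hsurj φ
  exact ⟨α, fun b => by rw [← hα, hΦ, mul_comm]⟩

omit [Finite K] in
lemma repr_nondeg (τ : K →ₗ[F] F) (hτ : τ ≠ 0) {x : K} (h : ∀ b, τ (b * x) = 0) : x = 0 := by
  by_contra hne
  apply hτ
  ext b
  have := h (b * x⁻¹)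
  rw [mul_assoc, inv_mul_cancel₀ hne, mul_one] at this
  simpa using this

variable [AddCommGroup V] [Module F V] [Module K V] [IsScalarTower F K V]
  {Q : V → F} {f : V → V → F}

namespace Dat

omit [Finite K] [Algebra F K] [IsScalarTower F K V] in
lemma addr (hD : Dat K Q f) (v x y : V) : f v (x + y) = f v x + f v y := by
  rw [hD.symm, hD.addl, hD.symm x, hD.symm y]

omit [Finite K] [Algebra F K] [IsScalarTower F K V] in
lemma smulr (hD : Dat K Q f) (c : F) (v x : V) : f v (c • x) = c * f v x := by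
  rw [hD.symm, hD.smull, hD.symm x]

omit [Finite K] [Algebra F K] [IsScalarTower F K V] in
lemma Q_zero (hD : Dat K Q f) : Q 0 = 0 := by
  have := hD.smul 0 0
  simpa using this

omit [Finite K] [Algebra F K] [IsScalarTower F K V] in
lemma alt (hD : Dat K Q f) (v : V) : f v v = 0 := by
  have h1 := hD.polar v v
  have h2 : v + v = 0 := by
    rw [← two_smul F v, hD.two, zero_smul]
  rw [h2, hD.Q_zero] at h1
  have h3 : Q v + Q v = 0 := by rw [← two_mul, hD.two, zero_mul]
  rw [h3, zero_add] at h1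
  exact h1.symm

omit [IsScalarTower F K V] in
lemma kalt (hD : Dat K Q f) (k : K) (v : V) : f (k • v) v = 0 := by
  obtain ⟨a, rfl⟩ := sq_surj hD.two k
  rw [mul_smul, hD.sa, hD.alt]

omit [IsScalarTower F K V] in
lemma kalt2 (hD : Dat K Q f) (a b : K) (v : V) : f (a • v) (b • v) = 0 := by
  rw [← hD.sa, smul_smul, hD.kalt]

end Dat

/-- the functional `b ↦ Q (√b v)` -/
lemma exists_Qfun (hD : Dat K Q f) (v : V) : ∃ φ : K →ₗ[F] F, ∀ a : K, φ (a * a) = Q (a • v) := by
  have := Finite.of_injective _ (algebraMap F K).injective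
  choose s hs using sq_surj (K := K) hD.two
  have hs' : ∀ a : K, s (a * a) = a := fun a => sq_inj hD.two (hs (a * a)).symm
  refine ⟨{ toFun := fun b => Q (s b • v), map_add' := ?_, map_smul' := ?_ }, ?_⟩
  · intro x y
    have h1 : s (x + y) = s x + s y := by
      apply sq_inj hD.two
      rw [← hs]
      have : (s x + s y) * (s x + s y) = s x * s x + s y * s y + 2 * (s x * s y) := by ring
      rw [this, two_K hD.two, ← hs, ← hs]; ring
    show Q (s (x + y) • v) = _
    rw [h1, add_smul, hD.polar, hD.kalt2, add_zero]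
  · intro c x
    obtain ⟨d, rfl⟩ := sq_surj_F hD.two c
    have h1 : s ((d * d) • x) = d • s x := by
      apply sq_inj hD.two
      rw [← hs, smul_mul_smul_comm, ← hs]
    show Q (s ((d * d) • x) • v) = _
    rw [h1, smul_assoc, hD.smul]
    simp [pow_two]
  · intro a
    show Q (s (a * a) • v) = _
    rw [hs']

theorem abs_main (hD : Dat K Q f) (hdim : Module.finrank K V = 2) :
    ∃ J : V →ₗ[F] V, (∀ (κ : K) (v : V), J (κ • v) = κ • J v) ∧
      (∀ (a : K) (v : V), f ((a * a) • v) (J v) = Q (a • v)) ∧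
      ∀ x : V →ₗ[F] V, (∀ (κ : K) (v : V), x (κ • v) = κ • x v) →
        (∀ (b : K) (v : V), f (b • v) (x v) = 0) → ∃ k : K, ∀ v, x v = k • v := by
  have : Module.Finite K V := Module.finite_of_finrank_pos (by rw [hdim]; norm_num)
  have bs : Module.Basis (Fin 2) K V := Module.finBasisOfFinrankEq K V hdim
  obtain ⟨v₁, hv₁⟩ : ∃ v, v = bs 0 := ⟨_, rfl⟩
  obtain ⟨v₂, hv₂⟩ : ∃ v, v = bs 1 := ⟨_, rfl⟩
  have hrep : ∀ v, ∃ a c : K, v = a • v₁ + c • v₂ := fun v => ⟨bs.repr v 0, bs.repr v 1, by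
    conv_lhs => rw [← bs.sum_repr v]
    rw [Fin.sum_univ_two, hv₁, hv₂]⟩
  let τ : K →ₗ[F] F :=
    { toFun := fun c => f (c • v₁) v₂
      map_add' := fun x y => by rw [add_smul, hD.addl]
      map_smul' := fun c x => by rw [smul_assoc, hD.smull]; rfl }
  have hτ : ∀ c, τ c = f (c • v₁) v₂ := fun _ => rfl
  have hform : ∀ a c a' c' : K, f (a • v₁ + c • v₂) (a' • v₁ + c' • v₂) = τ (a * c' + a' * c) := by
    intro a c a' c'
    rw [hD.addl, hD.addr, hD.addr, hD.kalt2, hD.kalt2, zero_add, add_zero, map_add, hτ, hτ,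
      ← hD.sa c', smul_smul, hD.symm (c • v₂), ← hD.sa c, smul_smul, mul_comm a, mul_comm a']
  have hτ0 : τ ≠ 0 := by
    intro h0
    have hne : v₂ ≠ 0 := hv₂ ▸ bs.ne_zero 1
    obtain ⟨x, hx⟩ := hD.nondeg v₂ hne
    obtain ⟨a, c, rfl⟩ := hrep x
    apply hx
    rw [hD.addl, hD.kalt, add_zero, ← hτ, h0]
    rfl
  obtain ⟨φ₁, hφ₁⟩ := exists_Qfun hD v₁
  obtain ⟨φ₂, hφ₂⟩ := exists_Qfun hD v₂
  obtain ⟨α, hα⟩ := exists_repr τ hτ0 φ₁
  obtain ⟨γ, hγ⟩ := exists_repr τ hτ0 φ₂
  have hQ : ∀ a c : K, Q (a • v₁ + c • v₂) = τ (a * a * α + c * c * γ + a * c) := by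
    intro a c
    rw [hD.polar, ← hφ₁, ← hφ₂, hα, hγ, map_add, map_add, hτ (a * c), ← hD.sa c, smul_smul, mul_comm a c]
  let JK : V →ₗ[K] V := bs.constr K ![α • v₂, γ • v₁ + v₂]
  have hJ1 : JK v₁ = α • v₂ := by
    conv_lhs => rw [hv₁]
    simp [JK]
  have hJ2 : JK v₂ = γ • v₁ + v₂ := by
    conv_lhs => rw [hv₂]
    simp [JK]
  refine ⟨JK.restrictScalars F, fun κ v => by simp, ?_, ?_⟩
  · intro a v
    obtain ⟨p, q, rfl⟩ := hrep v
    have h1 : (JK.restrictScalars F) (p • v₁ + q • v₂) = (q * γ) • v₁ + (p * α + q) • v₂ := by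
      rw [LinearMap.restrictScalars_apply, map_add, map_smul, map_smul, hJ1, hJ2, smul_add, smul_smul,
        smul_smul, add_smul]
      abel
    rw [h1, smul_add, smul_smul, smul_smul, hform, smul_add, smul_smul, smul_smul, hQ]
    congr 1
    ring
  · intro x hxK hx
    obtain ⟨p, q, h1⟩ := hrep (x v₁)
    obtain ⟨p', q', h2⟩ := hrep (x v₂)
    have hq : q = 0 := by
      apply repr_nondeg τ hτ0
      intro b
      have := hx b v₁
      rw [h1, show b • v₁ = b • v₁ + (0 : K) • v₂ by simp, hform] at this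
      simpa using this
    have hp' : p' = 0 := by
      apply repr_nondeg τ hτ0
      intro b
      have := hx b v₂
      rw [h2, show b • v₂ = (0 : K) • v₁ + b • v₂ by simp, hform] at this
      simpa [mul_comm] using this
    have hpq : q' + p = 0 := by
      apply repr_nondeg τ hτ0
      intro b
      have := hx b (v₁ + v₂)
      rw [map_add, h1, h2, hq, hp', smul_add, zero_smul, zero_smul, add_zero, zero_add, hform] at this
      rw [← this]
      congr 1
      ring
    have hq' : q' = p := by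
      have h3 : p + p = 0 := by rw [← two_mul, two_K hD.two, zero_mul]
      have : q' = q' + (p + p) := by rw [h3, add_zero]
      rw [this, ← add_assoc, hpq, zero_add]
    refine ⟨p, fun v => ?_⟩
    obtain ⟨a, c, rfl⟩ := hrep v
    rw [map_add, hxK, hxK, h1, h2, hq, hp', hq', zero_smul, zero_smul, add_zero, zero_add, smul_add,
      smul_comm a, smul_comm c]

/-- the abstract theorem with the dimension given by cardinalities -/
theorem abs_card (hD : Dat K Q f) (hV : Nat.card V = Nat.card K ^ 2) :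
    (∀ b : K, ∃ a : K, b = a * a) ∧
    ∃ J : V →ₗ[F] V, (∀ (κ : K) (v : V), J (κ • v) = κ • J v) ∧
      (∀ (a : K) (v : V), f ((a * a) • v) (J v) = Q (a • v)) ∧
      ∀ x : V →ₗ[F] V, (∀ (κ : K) (v : V), x (κ • v) = κ • x v) →
        (∀ (b : K) (v : V), f (b • v) (x v) = 0) → ∃ k : K, ∀ v, x v = k • v := by
  refine ⟨sq_surj hD.two, abs_main hD ?_⟩
  have : Finite V := Nat.finite_of_card_ne_zero (by rw [hV]; exact pow_ne_zero _ Nat.card_pos.ne')
  have : FiniteDimensional K V := Module.Finite.of_finite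
  have h1 := Module.natCard_eq_pow_finrank (K := K) (V := V)
  rw [hV] at h1
  exact (Nat.pow_right_injective (Finite.one_lt_card (α := K)) h1).symm

/-- the same for a ring which is a field -/
theorem abs_ring {F L V : Type*} [Field F] [Ring L] [iA : Algebra F L] [Finite L]
    [AddCommGroup V] [Module F V] [iM : Module L V] [iT : IsScalarTower F L V]
    (hL : IsField L) {Q : V → F} {f : V → V → F} (hD : Dat L Q f)
    (hV : Nat.card V = Nat.card L ^ 2) :
    (∀ b : L, ∃ a : L, b = a * a) ∧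
    ∃ J : V →ₗ[F] V, (∀ (κ : L) (v : V), J (κ • v) = κ • J v) ∧
      (∀ (a : L) (v : V), f ((a * a) • v) (J v) = Q (a • v)) ∧
      ∀ x : V →ₗ[F] V, (∀ (κ : L) (v : V), x (κ • v) = κ • x v) →
        (∀ (b : L) (v : V), f (b • v) (x v) = 0) → ∃ k : L, ∀ v, x v = k • v :=
  @abs_card F L V _ hL.toField iA _ _ _ iM iT Q f hD hV

end Cfsg.Agent.Lib.Helper57OLalgA
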