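import Cfsg.Agent.Lib.Helper57OLalgA
import Cfsg.Prelude.Def_GeometricClasses
import Cfsg.Prelude.Def_Classical

set_option autoImplicit false

/-! ASCH-O, piece `lalgeven`: characteristic 2, `K` a self-adjoint field of degree `n / 2`: the canonical
commutative algebra `L = K + K J` of dimension `n`. -/

namespace Cfsg.Agent.Lib.Helper57OLalgEven

open Cfsg Cfsg.Geo Matrix
open Cfsg.Agent.Lib.Helper57OLalgA
open scoped MatrixGroups

variable {ι : Type} [Fintype ι] [DecidableEq ι] {F : Type*} [Field F] {Q : (ι → F) → F}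

omit [DecidableEq ι] in
lemma mat_ext' {A B : Matrix ι ι F} (h : ∀ v, A *ᵥ v = B *ᵥ v) : A = B := by
  classical
  exact Matrix.toLin'.injective (LinearMap.ext h)

/-- the matrix `J` -/
theorem exists_J [Fintype F] [Nonempty ι] (h2 : (2 : F) = 0) (hQ : IsNondegenerateQuadraticForm Q)
    {r : ℕ} (K : Subalgebra F (Matrix ι ι F)) (hK : IsFieldSubalgebra r K)
    (hsa : IsSelfAdjointFor (QuadraticMap.polar Q) K) (hn : Fintype.card ι = 2 * r) :
    (∀ b ∈ K, ∃ a ∈ K, b = a * a) ∧ ∃ J : Matrix ι ι F, (∀ k ∈ K, J * k = k * J) ∧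
      (∀ a ∈ K, ∀ v, QuadraticMap.polar Q ((a * a) *ᵥ v) (J *ᵥ v) = Q (a *ᵥ v)) ∧
      ∀ x : Matrix ι ι F, (∀ k ∈ K, x * k = k * x) →
        (∀ b ∈ K, ∀ v, QuadraticMap.polar Q (b *ᵥ v) (x *ᵥ v) = 0) → x ∈ K := by
  have hsmul : ∀ (κ : K) (v : ι → F), κ • v = (κ : Matrix ι ι F) *ᵥ v := fun κ v => rfl
  have iT : IsScalarTower F K (ι → F) := ⟨fun a κ v => by
    rw [hsmul, hsmul]
    simp [Matrix.smul_mulVec]⟩
  have hKf : IsField K := by
    refine ⟨exists_pair_ne K, fun a b => Subtype.ext (hK.comm a a.2 b b.2), ?_⟩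
    intro a ha
    obtain ⟨y, hy, hxy⟩ := hK.inv a a.2 (fun h => ha (Subtype.ext h))
    exact ⟨⟨y, hy⟩, Subtype.ext hxy⟩
  have hD : Dat K Q (QuadraticMap.polar Q) :=
    { two := h2
      smul := hQ.smul
      polar := fun u v => by unfold QuadraticMap.polar; ring
      addl := hQ.polar_bilinear.add_left
      smull := hQ.polar_bilinear.smul_left
      symm := QuadraticMap.polar_comm Q
      nondeg := fun v hv => (hQ.nondegenerate v hv).1
      sa := fun k u v => hsa k k.2 u v }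
  have hV : Nat.card (ι → F) = Nat.card K ^ 2 := by
    rw [Module.natCard_eq_pow_finrank (K := F) (V := K), hK.finrank_eq, Nat.card_eq_fintype_card,
      Fintype.card_fun, hn, Nat.card_eq_fintype_card, ← pow_mul, mul_comm]
  obtain ⟨hsq, J, hJK, hJQ, hJx⟩ := abs_ring (L := K) (iT := iT) hKf hD hV
  refine ⟨fun b hb => ?_, LinearMap.toMatrix' J, ?_, ?_, ?_⟩
  · obtain ⟨a, ha⟩ := hsq ⟨b, hb⟩
    exact ⟨a, a.2, congrArg Subtype.val ha⟩
  · intro k hk
    apply mat_ext'
    intro v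
    rw [← Matrix.mulVec_mulVec, ← Matrix.mulVec_mulVec, LinearMap.toMatrix'_mulVec,
      LinearMap.toMatrix'_mulVec]
    exact hJK ⟨k, hk⟩ v
  · intro a ha v
    rw [LinearMap.toMatrix'_mulVec]
    exact hJQ ⟨a, ha⟩ v
  · intro x hxK hx
    obtain ⟨k, hk⟩ := hJx (Matrix.toLin' x) (fun κ v => by
      rw [hsmul, hsmul, Matrix.toLin'_apply, Matrix.toLin'_apply, Matrix.mulVec_mulVec,
        Matrix.mulVec_mulVec, hxK κ κ.2]) (fun b v => hx b b.2 v)
    have : x = k := mat_ext' (fun v => hk v)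
    rw [this]
    exact k.2

/-- the algebra `K + K J` -/
def Lalg (K : Subalgebra F (Matrix ι ι F)) (J d : Matrix ι ι F)
    (hd : d ∈ K) (hJK : ∀ k ∈ K, J * k = k * J) (hJJ : J * J = J + d) : Subalgebra F (Matrix ι ι F) where
  carrier := {x | ∃ k ∈ K, ∃ k' ∈ K, x = k + k' * J}
  mul_mem' := by
    rintro _ _ ⟨k, hk, k', hk', rfl⟩ ⟨m, hm, m', hm', rfl⟩
    refine ⟨k * m + k' * m' * d, K.add_mem (K.mul_mem hk hm) (K.mul_mem (K.mul_mem hk' hm') hd),
      k * m' + k' * m + k' * m', K.add_mem (K.add_mem (K.mul_mem hk hm') (K.mul_mem hk' hm))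
        (K.mul_mem hk' hm'), ?_⟩
    have h1 : (k + k' * J) * (m + m' * J) = k * m + k * m' * J + k' * (J * m) + k' * (J * m') * J := by
      noncomm_ring
    rw [h1, hJK m hm, hJK m' hm']
    have h2 : k' * (m' * J) * J = k' * m' * (J * J) := by noncomm_ring
    rw [h2, hJJ]
    noncomm_ring
  add_mem' := by
    rintro _ _ ⟨k, hk, k', hk', rfl⟩ ⟨m, hm, m', hm', rfl⟩
    exact ⟨k + m, K.add_mem hk hm, k' + m', K.add_mem hk' hm', by noncomm_ring⟩
  algebraMap_mem' := fun c => ⟨algebraMap F _ c, K.algebraMap_mem c, 0, K.zero_mem, by simp⟩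

lemma mem_Lalg {K : Subalgebra F (Matrix ι ι F)} {J d : Matrix ι ι F}
    {hd : d ∈ K} {hJK : ∀ k ∈ K, J * k = k * J} {hJJ : J * J = J + d} {x : Matrix ι ι F} :
    x ∈ Lalg K J d hd hJK hJJ ↔ ∃ k ∈ K, ∃ k' ∈ K, x = k + k' * J := Iff.rfl

/-- [lalgeven] -/
theorem exists_quadratic_ext_even [Fintype F] (h2 : (2 : F) = 0) (hQ : IsNondegenerateQuadraticForm Q)
    {r : ℕ} (K : Subalgebra F (Matrix ι ι F)) (hK : IsFieldSubalgebra r K)
    (hsa : IsSelfAdjointFor (QuadraticMap.polar Q) K) (hn : Fintype.card ι = 2 * r) :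
    ∃ L : Subalgebra F (Matrix ι ι F), (∀ x ∈ L, ∀ y ∈ L, x * y = y * x) ∧
      IsAdjointClosedFor (QuadraticMap.polar Q) L ∧ Module.finrank F L = 2 * r ∧
      ∀ g : GL ι F, g ∈ isometryGroup F Q → g ∈ subalgebraNormalizer K →
        ∀ x ∈ L, (g : Matrix ι ι F) * x * ((g⁻¹ : GL ι F) : Matrix ι ι F) ∈ L := by
  rcases isEmpty_or_nonempty ι with hι | hι
  · have hr : r = 0 := by
      rw [Fintype.card_eq_zero] at hn
      omega
    refine ⟨K, hK.comm, fun k hk => ⟨k, hk, hsa k hk⟩, by rw [hK.finrank_eq, hr], ?_⟩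
    intro g _ hg x hx
    exact (hg x).mp hx
  obtain ⟨hsq, J, hJK, hJQ, hJx⟩ := exists_J h2 hQ K hK hsa hn
  obtain ⟨f, hf⟩ : ∃ f, f = QuadraticMap.polar Q := ⟨_, rfl⟩
  rw [← hf] at hsa hJQ hJx ⊢
  have hb : IsBilinearForm f := hf ▸ hQ.polar_bilinear
  have hsymm : ∀ u v, f u v = f v u := fun u v => by rw [hf]; exact QuadraticMap.polar_comm Q u v
  have hpol : ∀ u v, Q (u + v) = Q u + Q v + f u v := fun u v => by
    rw [hf]; unfold QuadraticMap.polar; ring
  have hneg : ∀ c : F, -c = c := fun c => by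
    have : c + c = 0 := by rw [← two_mul, h2, zero_mul]
    exact neg_eq_of_add_eq_zero_left this
  have hsub : ∀ u v w, f u (v - w) = f u v - f u w := fun u v w => by
    have := hb.add_right u (v - w) w
    rw [sub_add_cancel] at this
    rw [this]; ring
  have hQ0 : Q 0 = 0 := by simpa using hQ.smul 0 0
  have halt : ∀ v, f v v = 0 := fun v => by
    have h1 := hpol v v
    have h3 : v + v = 0 := by rw [← two_smul F v, h2, zero_smul]
    rw [h3, hQ0, ← two_mul, h2, zero_mul, zero_add] at h1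
    exact h1.symm
  have hkalt : ∀ k ∈ K, ∀ v, f (k *ᵥ v) v = 0 := fun k hk v => by
    obtain ⟨a, ha, rfl⟩ := hsq k hk
    rw [← Matrix.mulVec_mulVec, hsa a ha, halt]
  have hJ1 : ∀ v, f v (J *ᵥ v) = Q v := fun v => by
    have := hJQ 1 K.one_mem v
    simpa using this
  have hJpol : ∀ u v, f u v = f u (J *ᵥ v) + f v (J *ᵥ u) := fun u v => by
    have h1 := hJ1 (u + v)
    rw [Matrix.mulVec_add, hb.add_left, hb.add_right, hb.add_right, hJ1, hJ1, hpol] at h1
    linear_combination -h1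
  have hadj : ∀ u v, f (J *ᵥ u) v = f u ((1 + J) *ᵥ v) := fun u v => by
    rw [Matrix.add_mulVec, Matrix.one_mulVec, hb.add_right, hsymm (J *ᵥ u), hJpol u v]
    have := hneg (f u (J *ᵥ v))
    linear_combination this
  -- `J * J - J ∈ K`
  have hd : J * J - J ∈ K := by
    apply hJx
    · intro k hk
      rw [sub_mul, mul_sub, mul_assoc, hJK k hk, ← mul_assoc, hJK k hk, mul_assoc]
    · intro b hb' v
      rw [Matrix.sub_mulVec, hsub, ← Matrix.mulVec_mulVec, hsymm _ (J *ᵥ J *ᵥ v), hadj,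
        Matrix.add_mulVec, Matrix.one_mulVec, hb.add_right, Matrix.mulVec_mulVec v J b, hJK b hb',
        ← Matrix.mulVec_mulVec, hsymm _ (b *ᵥ J *ᵥ v), hkalt b hb', hsymm (J *ᵥ v)]
      ring
  have hJJ : J * J = J + (J * J - J) := by abel
  have hJnot : J ∉ K := by
    intro hJ
    obtain ⟨i⟩ := hι
    have hne : (Pi.single i 1 : ι → F) ≠ 0 := by
      intro h
      have := congrFun h i
      simp at this
    obtain ⟨x, hx⟩ := (hQ.nondegenerate _ hne).1
    apply hx
    rw [← hf]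
    have h1 := hadj x (Pi.single i 1)
    rw [hsa J hJ, Matrix.add_mulVec, Matrix.one_mulVec, hb.add_right] at h1
    linear_combination -h1
  refine ⟨Lalg K J _ hd hJK hJJ, ?_, ?_, ?_, ?_⟩
  · rintro _ ⟨k, hk, k', hk', rfl⟩ _ ⟨m, hm, m', hm', rfl⟩
    have h1 : ∀ k k' m m' : Matrix ι ι F, m ∈ K → m' ∈ K →
        (k + k' * J) * (m + m' * J) = k * m + (k * m' + k' * m) * J + k' * m' * (J * J) := by
      intro k k' m m' hm hm'
      have h1 : (k + k' * J) * (m + m' * J) = k * m + k * m' * J + k' * (J * m) + k' * (J * m') * J := by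
        noncomm_ring
      rw [h1, hJK m hm, hJK m' hm']
      noncomm_ring
    rw [h1 _ _ _ _ hm hm', h1 _ _ _ _ hk hk', hK.comm k hk m hm, hK.comm k hk m' hm',
      hK.comm k' hk' m hm, hK.comm k' hk' m' hm', add_comm (m' * k)]
  · rintro _ ⟨k, hk, k', hk', rfl⟩
    refine ⟨(k + k') + k' * J, ⟨k + k', K.add_mem hk hk', k', hk', rfl⟩, fun u v => ?_⟩
    rw [Matrix.add_mulVec, hb.add_left, hsa k hk, ← Matrix.mulVec_mulVec, hsa k' hk', hadj,
      Matrix.mulVec_mulVec, ← hb.add_right, ← Matrix.add_mulVec, add_mul, one_mul, hJK k' hk', add_assoc]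
  · let φ : (K × K) →ₗ[F] Matrix ι ι F :=
      K.val.toLinearMap.coprod ((LinearMap.mulRight F J).comp K.val.toLinearMap)
    have hφ : ∀ p : K × K, φ p = (p.1 : Matrix ι ι F) + (p.2 : Matrix ι ι F) * J := fun p => rfl
    have hinj : Function.Injective φ := by
      rw [← LinearMap.ker_eq_bot, LinearMap.ker_eq_bot']
      rintro ⟨k, k'⟩ h
      rw [hφ] at h
      have hk' : k' = 0 := by
        by_contra hne
        obtain ⟨y, hy, hxy⟩ := hK.inv k' k'.2 (fun h => hne (Subtype.ext h))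
        apply hJnot
        have : J = -(y * k) := by
          have h3 : y * ((k : Matrix ι ι F) + k' * J) = 0 := by rw [h, mul_zero]
          rw [mul_add, ← mul_assoc, hK.comm y hy k' k'.2, hxy, one_mul] at h3
          exact eq_neg_of_add_eq_zero_right h3
        rw [this]
        exact K.neg_mem (K.mul_mem hy k.2)
      subst hk'
      have hk : k = 0 := by
        apply Subtype.ext
        simpa using h
      rw [hk]
      rfl
    have hrange : Subalgebra.toSubmodule (Lalg K J _ hd hJK hJJ) = LinearMap.range φ := by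
      ext x
      constructor
      · rintro ⟨k, hk, k', hk', rfl⟩
        exact ⟨(⟨k, hk⟩, ⟨k', hk'⟩), rfl⟩
      · rintro ⟨p, rfl⟩
        exact ⟨p.1, p.1.2, p.2, p.2.2, hφ p⟩
    have h0 : Module.finrank F (Lalg K J _ hd hJK hJJ) =
        Module.finrank F (Subalgebra.toSubmodule (Lalg K J _ hd hJK hJJ)) := rfl
    rw [h0, hrange, LinearMap.finrank_range_of_inj hinj, Module.finrank_prod, hK.finrank_eq]
    ring
  · intro g hgQ hgK
    obtain ⟨G, hG⟩ : ∃ G : Matrix ι ι F, G = g := ⟨_, rfl⟩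
    obtain ⟨Gi, hGi⟩ : ∃ Gi : Matrix ι ι F, Gi = ((g⁻¹ : GL ι F) : Matrix ι ι F) := ⟨_, rfl⟩
    rw [← hG, ← hGi]
    have h1 : G * Gi = 1 := by rw [hG, hGi, ← Units.val_mul, mul_inv_cancel, Units.val_one]
    have h1' : Gi * G = 1 := by rw [hG, hGi, ← Units.val_mul, inv_mul_cancel, Units.val_one]
    have hKG : ∀ k ∈ K, G * k * Gi ∈ K := fun k hk => by rw [hG, hGi]; exact (hgK k).mp hk
    have hKGi : ∀ k ∈ K, Gi * k * G ∈ K := fun k hk => by
      apply (hgK (Gi * k * G)).mpr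
      rw [← hG, ← hGi]
      have : G * (Gi * k * G) * Gi = (G * Gi) * k * (G * Gi) := by noncomm_ring
      rw [this, h1, one_mul, mul_one]
      exact hk
    have hQG : ∀ v, Q (G *ᵥ v) = Q v := fun v => by rw [hG]; exact hgQ v v
    have hQGi : ∀ v, Q (Gi *ᵥ v) = Q v := fun v => by
      rw [← hQG (Gi *ᵥ v), Matrix.mulVec_mulVec, h1, Matrix.one_mulVec]
    have hfGi : ∀ u v, f (Gi *ᵥ u) (Gi *ᵥ v) = f u v := by
      intro u v
      have := hpol (Gi *ᵥ u) (Gi *ᵥ v)
      rw [← Matrix.mulVec_add, hQGi, hQGi, hQGi, hpol] at this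
      linear_combination -this
    have hfG : ∀ u v, f u (G *ᵥ v) = f (Gi *ᵥ u) v := by
      intro u v
      rw [← hfGi u, Matrix.mulVec_mulVec, h1', Matrix.one_mulVec]
    have he : G * J * Gi - J ∈ K := by
      apply hJx
      · intro k hk
        have h3 : G * J * Gi * k = G * (J * (Gi * k * G)) * Gi := by
          calc G * J * Gi * k = G * J * Gi * k * (G * Gi) := by rw [h1, mul_one]
            _ = _ := by noncomm_ring
        have h4 : G * ((Gi * k * G) * J) * Gi = k * (G * J * Gi) := by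
          calc G * ((Gi * k * G) * J) * Gi = (G * Gi) * k * (G * J * Gi) := by noncomm_ring
            _ = _ := by rw [h1, one_mul]
        rw [sub_mul, mul_sub, h3, hJK _ (hKGi k hk), h4, hJK k hk]
      · intro b hb' v
        obtain ⟨a, ha, rfl⟩ := hsq b hb'
        rw [Matrix.sub_mulVec, hsub, hJQ a ha, mul_assoc G, ← Matrix.mulVec_mulVec v G, hfG,
          ← Matrix.mulVec_mulVec v J]
        have h5 : Gi *ᵥ (a * a) *ᵥ v = ((Gi * a * G) * (Gi * a * G)) *ᵥ (Gi *ᵥ v) := by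
          rw [Matrix.mulVec_mulVec, Matrix.mulVec_mulVec]
          congr 1
          calc Gi * (a * a) = Gi * a * (G * Gi) * a * (G * Gi) := by rw [h1]; noncomm_ring
            _ = _ := by noncomm_ring
        rw [h5, hJQ _ (hKGi a ha), Matrix.mulVec_mulVec]
        have h6 : Gi * a * G * Gi = Gi * a := by rw [mul_assoc, h1, mul_one]
        rw [h6, ← Matrix.mulVec_mulVec, hQGi, sub_self]
    rintro _ ⟨k, hk, k', hk', rfl⟩
    refine ⟨G * k * Gi + G * k' * Gi * (G * J * Gi - J),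
      K.add_mem (hKG k hk) (K.mul_mem (hKG k' hk') he), G * k' * Gi, hKG k' hk', ?_⟩
    have : G * k' * Gi * (G * J * Gi) = G * k' * J * Gi := by
      calc G * k' * Gi * (G * J * Gi) = G * k' * (Gi * G) * J * Gi := by noncomm_ring
        _ = _ := by rw [h1', mul_one]
    rw [mul_sub, this]
    noncomm_ring

end Cfsg.Agent.Lib.Helper57OLalgEven
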