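import Cfsg.Agent.Lib.Helper94OKdim
import Cfsg.Agent.Lib.Helper42ON

set_option autoImplicit false

/-! ASCH-O, piece `notplusu`: a unitary structure of odd dimension: not of plus type. -/

namespace Cfsg.Agent.Lib.Helper57ONotplusu

open Cfsg Cfsg.Geo Matrix
open Cfsg.Agent.Lib.Helper97OBase Cfsg.Agent.Lib.Helper97OProper
open scoped MatrixGroups

variable {ι : Type} [Fintype ι] [DecidableEq ι] {F : Type*} [Field F]
variable {Q : (ι → F) → F}

/-- a field of degree 2 is spanned by `1` and any non-scalar element -/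
lemma exists_repr2 [Nonempty ι] {K : Subalgebra F (Matrix ι ι F)} (hK : IsFieldSubalgebra 2 K)
    {θ : Matrix ι ι F} (hθ : θ ∈ K) (hθs : ∀ c : F, θ ≠ c • (1 : Matrix ι ι F)) :
    ∀ k ∈ K, ∃ x y : F, k = x • (1 : Matrix ι ι F) + y • θ := by
  have : Module.Finite F K := Module.finite_of_finrank_pos (by rw [hK.finrank_eq]; norm_num)
  let φ : (F × F) →ₗ[F] K :=
    (LinearMap.toSpanSingleton F K 1).coprod (LinearMap.toSpanSingleton F K ⟨θ, hθ⟩)
  have hφ : ∀ p : F × F, φ p = p.1 • (1 : K) + p.2 • (⟨θ, hθ⟩ : K) := fun p => rfl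
  have hinj : Function.Injective φ := by
    rw [← LinearMap.ker_eq_bot, LinearMap.ker_eq_bot']
    rintro ⟨x, y⟩ h
    rw [hφ] at h
    have h1 : x • (1 : Matrix ι ι F) + y • θ = 0 := congrArg Subtype.val h
    have hy : y = 0 := by
      by_contra hy
      apply hθs (-(y⁻¹ * x))
      have h2 : y⁻¹ • (x • (1 : Matrix ι ι F) + y • θ) = 0 := by rw [h1, smul_zero]
      rw [smul_add, smul_smul, smul_smul, inv_mul_cancel₀ hy, one_smul] at h2
      rw [neg_smul]
      exact eq_neg_of_add_eq_zero_right h2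
    subst hy
    rw [zero_smul, add_zero] at h1
    have hx : x = 0 := by
      by_contra hx
      exact one_ne_zero ((smul_eq_zero.mp h1).resolve_left hx)
    rw [hx]
    rfl
  have hsurj : Function.Surjective φ := by
    apply (LinearMap.injective_iff_surjective_of_finrank_eq_finrank _).mp hinj
    rw [hK.finrank_eq, Module.finrank_prod, Module.finrank_self]
  intro k hk
  obtain ⟨p, hp⟩ := hsurj ⟨k, hk⟩
  refine ⟨p.1, p.2, ?_⟩
  rw [hφ] at hp
  exact (congrArg Subtype.val hp).symm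

/-- [notplusu] a unitary structure of odd dimension: not of plus type. -/
theorem not_plus_of_unitary [Fintype F] (hQ : IsNondegenerateQuadraticForm Q) {m : ℕ}
    (hn : Fintype.card ι = 2 * m) (hm : Odd m) (K : Subalgebra F (Matrix ι ι F))
    (hK : IsFieldSubalgebra 2 K) (hadj : IsAdjointClosedFor (QuadraticMap.polar Q) K)
    (hnsa : ¬ IsSelfAdjointFor (QuadraticMap.polar Q) K)
    (hsim : ∀ k ∈ K, ∃ c : F, ∀ v : ι → F, Q (k *ᵥ v) = c * Q v) : ¬ IsPlusTypeOn Q ⊤ := by
  classical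
  rintro ⟨U, -, hU, hdim⟩
  have : Nonempty ι := by
    apply Fintype.card_pos_iff.mp
    obtain ⟨j, rfl⟩ := hm
    omega
  have hUm : Module.finrank F U = m := by
    rw [finrank_top, Module.finrank_fintype_fun_eq_card, hn] at hdim
    omega
  obtain ⟨f, hf⟩ : ∃ f, f = QuadraticMap.polar Q := ⟨_, rfl⟩
  rw [← hf] at hadj hnsa
  have hfQ : ∀ u v, f u v = Q (u + v) - Q u - Q v := fun u v => by rw [hf]; rfl
  have hb : IsBilinearForm f := hf ▸ hQ.polar_bilinear
  have hsymm : ∀ u v, f u v = f v u := fun u v => by rw [hf]; exact QuadraticMap.polar_comm Q u v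
  have hUU : ∀ u ∈ U, ∀ v ∈ U, f u v = 0 := fun u hu v hv => by
    rw [hfQ, hU _ (U.add_mem hu hv), hU u hu, hU v hv]; ring
  have hperp : ∀ x, (∀ u ∈ U, f u x = 0) → x ∈ U := by
    have h1 : U ≤ orth hQ U := fun x hx => mem_orth.mpr (fun w hw => by rw [← hf]; exact hUU w hw x hx)
    have h2 : Module.finrank F (orth hQ U) = Module.finrank F U := by
      have := finrank_orth hQ U
      omega
    have h3 : U = orth hQ U := Submodule.eq_of_le_of_finrank_eq h1 h2.symm
    intro x hx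
    rw [h3]
    exact mem_orth.mpr (fun w hw => by rw [← hf]; exact hx w hw)
  obtain ⟨θ, hθ, hθns⟩ : ∃ θ ∈ K, ¬ ∀ u v, f (θ *ᵥ u) v = f u (θ *ᵥ v) := by
    by_contra hcon
    push Not at hcon
    exact hnsa (fun k hk => hcon k hk)
  have hθs : ∀ c : F, θ ≠ c • (1 : Matrix ι ι F) := by
    rintro c rfl
    apply hθns
    intro u v
    rw [Matrix.smul_mulVec, Matrix.one_mulVec, Matrix.smul_mulVec, Matrix.one_mulVec, hb.smul_left,
      hb.smul_right]
  have hrepr := exists_repr2 hK hθ hθs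
  obtain ⟨θ', hθ', hadjθ⟩ := hadj θ hθ
  have hQk : ∀ k ∈ K, ∀ u ∈ U, Q (k *ᵥ u) = 0 := fun k hk u hu => by
    obtain ⟨c, hc⟩ := hsim k hk
    rw [hc, hU u hu, mul_zero]
  have hgalt : ∀ u ∈ U, f (θ *ᵥ u) u = 0 := fun u hu => by
    have h1 : θ *ᵥ u + u = (θ + 1) *ᵥ u := by rw [Matrix.add_mulVec, Matrix.one_mulVec]
    rw [hfQ, h1, hQk _ (K.add_mem hθ K.one_mem) u hu, hQk θ hθ u hu, hU u hu]; ring
  let R : Submodule F (ι → F) := U ⊓ U.comap (Matrix.toLin' θ)
  have hR : ∀ x, x ∈ R ↔ x ∈ U ∧ θ *ᵥ x ∈ U := fun x => Iff.rfl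
  have hkU : ∀ k ∈ K, ∀ w ∈ R, k *ᵥ w ∈ U := fun k hk w hw => by
    obtain ⟨x, y, rfl⟩ := hrepr k hk
    rw [Matrix.add_mulVec, Matrix.smul_mulVec, Matrix.smul_mulVec, Matrix.one_mulVec]
    exact U.add_mem (U.smul_mem _ ((hR w).1 hw).1) (U.smul_mem _ ((hR w).1 hw).2)
  have hRK : ∀ k ∈ K, ∀ w ∈ R, k *ᵥ w ∈ R := by
    intro k hk w hw
    rw [hR]
    refine ⟨hkU k hk w hw, ?_⟩
    rw [Matrix.mulVec_mulVec]
    exact hkU _ (K.mul_mem hθ hk) w hw
  have hReven : 2 ∣ Module.finrank F R :=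
    Cfsg.Agent.Lib.Helper94OKdim.finrank_dvd_of_invariant K hK R hRK
  obtain ⟨C, hC⟩ := Submodule.exists_isCompl (R.comap U.subtype)
  have hfr := Submodule.finrank_add_eq_of_isCompl hC
  have hfr1 : Module.finrank F (R.comap U.subtype) = Module.finrank F R :=
    (Submodule.comapSubtypeEquivOfLe (inf_le_left : R ≤ U)).finrank_eq
  let β : LinearMap.BilinForm F C := LinearMap.mk₂ F
    (fun c c' : C => f (θ *ᵥ ((c : U) : ι → F)) ((c' : U) : ι → F))
    (fun x y z => by simp only [Submodule.coe_add, Matrix.mulVec_add, hb.add_left])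
    (fun c x y => by simp only [Submodule.coe_smul, Matrix.mulVec_smul, hb.smul_left, smul_eq_mul])
    (fun x y z => by simp only [Submodule.coe_add, hb.add_right])
    (fun c x y => by simp only [Submodule.coe_smul, hb.smul_right, smul_eq_mul])
  have hβ : ∀ c c' : C, β c c' = f (θ *ᵥ ((c : U) : ι → F)) ((c' : U) : ι → F) := fun _ _ => rfl
  have hβalt : LinearMap.BilinForm.IsAlt β := fun c => by rw [hβ]; exact hgalt _ (c : U).2
  have hleft : ∀ c : C, (∀ c' : C, β c c' = 0) → c = 0 := by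
    intro c hc
    have h1 : θ *ᵥ ((c : U) : ι → F) ∈ U := by
      apply hperp
      intro u hu
      obtain ⟨r, c', hr, hc', hrc⟩ := Submodule.codisjoint_iff_exists_add_eq.mp hC.codisjoint (⟨u, hu⟩ : U)
      have hu' : u = (r : ι → F) + (c' : ι → F) := by
        have := congrArg Subtype.val hrc
        exact this.symm
      have hr' : (r : ι → F) ∈ R := hr
      rw [hu', hb.add_left, hsymm, hadjθ, hUU _ (c : U).2 _ (hkU θ' hθ' _ hr'), zero_add, hsymm]
      exact hc ⟨c', hc'⟩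
    have h2 : (c : U) ∈ R.comap U.subtype := (hR _).2 ⟨(c : U).2, h1⟩
    have h3 : (c : U) ∈ R.comap U.subtype ⊓ C := ⟨h2, c.2⟩
    rw [hC.inf_eq_bot, Submodule.mem_bot] at h3
    exact Subtype.ext h3
  have hnd : β.Nondegenerate := by
    refine ⟨hleft, fun c hc => hleft c (fun c' => ?_)⟩
    have := hβalt.neg_eq c c'
    rw [hc c'] at this
    exact neg_eq_zero.mp this
  have hCeven := Cfsg.Agent.Lib.Helper42ON.even_finrank_of_alt (W := C) β hnd hβalt
  rw [hfr1, hUm] at hfr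
  have : Even m := by
    rw [← hfr]
    exact (even_iff_two_dvd.mpr hReven).add hCeven
  exact (Nat.not_even_iff_odd.mpr hm) this

end Cfsg.Agent.Lib.Helper57ONotplusu
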