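import Mathlib
import Cfsg.Agent.Lib.Helper97GForms

set_option autoImplicit false

/-! ASCH-O piece [gramdet] (helper70). -/

namespace Cfsg.Agent.Lib.Helper70OGramdet

open Cfsg Cfsg.Geo Matrix
open Cfsg.Agent.Lib.Helper97GForms

variable {ι : Type} [Fintype ι] [DecidableEq ι] {F : Type*} [Field F]
variable {Q : (ι → F) → F}

theorem formOfGram_single {κ : Type} [Fintype κ] [DecidableEq κ] (M : Matrix κ κ F) (a b : κ) :
    formOfGram id M (Pi.single a 1) (Pi.single b 1) = M a b := by
  unfold formOfGram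
  rw [Finset.sum_eq_single a, Finset.sum_eq_single b]
  · simp
  · intro c _ hc
    simp [Pi.single_eq_of_ne hc]
  · simp
  · intro c _ hc
    simp [Pi.single_eq_of_ne hc]
  · simp

/-- the Gram matrix of a bilinear form in another basis -/
theorem gram_eq_of_form {f : (ι → F) → (ι → F) → F} (hf : IsBilinearForm f)
    {κ : Type} [Fintype κ] [DecidableEq κ]
    (e : ι ≃ κ) (P : Matrix ι ι F) (M : Matrix κ κ F)
    (hM : ∀ x y : κ → F, f (P *ᵥ (x ∘ e)) (P *ᵥ (y ∘ e)) = formOfGram id M x y) :
    M = Matrix.reindex e e (Pᵀ * gramMatrix f * P) := by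
  ext a b
  rw [← formOfGram_single M a b, ← hM, (sesq_of_bilinear hf).eq_gram]
  have h1 : ∀ c : κ, ((Pi.single c 1 : κ → F) ∘ e) = Pi.single (e.symm c) 1 := by
    intro c
    ext i
    by_cases h : i = e.symm c
    · subst h; simp
    · have : e i ≠ c := fun h' => h (by rw [← h', Equiv.symm_apply_apply])
      simp [Pi.single_eq_of_ne h, Pi.single_eq_of_ne this]
  rw [h1, h1]
  have h2 : gram f = gramMatrix f := rfl
  simp only [RingEquiv.refl_apply, h2]
  rw [Matrix.reindex_apply, Matrix.submatrix_apply, Matrix.mulVec_mulVec,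
    Matrix.dotProduct_mulVec, Matrix.vecMul_mulVec]
  simp [Matrix.mul_assoc]

/-- [gramdet] the discriminant in another basis. -/
theorem gram_det_of_form {κ : Type} [Fintype κ] [DecidableEq κ] (hQ : IsNondegenerateQuadraticForm Q)
    (e : ι ≃ κ) (P : GL ι F) (M : Matrix κ κ F)
    (hM : ∀ x y : κ → F, QuadraticMap.polar Q ((P : Matrix ι ι F) *ᵥ (x ∘ e))
      ((P : Matrix ι ι F) *ᵥ (y ∘ e)) = formOfGram id M x y) :
    (gramMatrix (QuadraticMap.polar Q)).det * (P : Matrix ι ι F).det ^ 2 = M.det := by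
  rw [gram_eq_of_form hQ.polar_bilinear e (P : Matrix ι ι F) M hM, Matrix.det_reindex_self,
    Matrix.det_mul, Matrix.det_mul, Matrix.det_transpose]
  ring

end Cfsg.Agent.Lib.Helper70OGramdet
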