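import Cfsg.Agent.Lib.Helper95SpTenstwo
import Cfsg.Agent.Lib.Helper12SpTensform
import Cfsg.Agent.Lib.Helper70OGramdet
import Cfsg.Agent.Lib.Helper97OBase

set_option autoImplicit false
set_option linter.unusedSectionVars false

/-! ASCH-O, piece `o34`: `q` odd, plus type: `O₃ ⊗ O₄⁺ ≤ Sp₂ ⊗ Sp₆`. -/

namespace Cfsg.Agent.Lib.Helper57OTens34

open Cfsg Cfsg.Geo Matrix
open Cfsg.Agent.Lib.Helper97GBase Cfsg.Agent.Lib.Helper98AschGDefs Cfsg.Agent.Lib.Helper98AschGBasic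
  Cfsg.Agent.Lib.Helper96SpDefs Cfsg.Agent.Lib.Helper95SpTensodd Cfsg.Agent.Lib.Helper95SpTenstwo
  Cfsg.Agent.Lib.Helper97OBase
open scoped MatrixGroups Kronecker

variable {ι : Type} [Fintype ι] [DecidableEq ι] {F : Type*} [Field F]
variable {Q : (ι → F) → F} {H : Subgroup (GL ι F)}

section regroup

variable {α β γ δ ε : Type} [Fintype α] [Fintype β] [Fintype γ] [Fintype δ] [Fintype ε]
  [DecidableEq α] [DecidableEq β] [DecidableEq γ] [DecidableEq δ] [DecidableEq ε]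

/-- the bijection `α × δ ≃ β × ε` induced by `δ ≃ β × γ`, `α × γ ≃ ε` -/
def sig (τ : δ ≃ β × γ) (ρ : α × γ ≃ ε) : α × δ ≃ β × ε where
  toFun p := ((τ p.2).1, ρ (p.1, (τ p.2).2))
  invFun p := ((ρ.symm p.2).1, τ.symm (p.1, (ρ.symm p.2).2))
  left_inv p := by simp
  right_inv p := by simp

lemma regroup (τ : δ ≃ β × γ) (ρ : α × γ ≃ ε) (a : Matrix α α F) (a₁ : Matrix β β F)
    (a₂ : Matrix γ γ F) :
    Matrix.reindex (sig τ ρ).symm (sig τ ρ).symm (a₁ ⊗ₖ Matrix.reindex ρ ρ (a ⊗ₖ a₂)) =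
      a ⊗ₖ Matrix.reindex τ.symm τ.symm (a₁ ⊗ₖ a₂) := by
  ext ⟨i, m⟩ ⟨i', m'⟩
  simp [sig, Matrix.kroneckerMap_apply]
  ring

end regroup

section change

variable {κ κ' : Type} [Fintype κ] [DecidableEq κ] [Fintype κ'] [DecidableEq κ']

lemma formOfGram_comp (σ : κ ≃ κ') (G : Matrix κ' κ' F) (x y : κ' → F) :
    formOfGram id (Matrix.reindex σ.symm σ.symm G) (x ∘ σ) (y ∘ σ) = formOfGram id G x y := by
  unfold formOfGram
  rw [← Equiv.sum_comp σ]
  refine Finset.sum_congr rfl fun a _ => ?_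
  rw [← Equiv.sum_comp σ]
  rfl

/-- the new change of basis -/
def newP (e : ι ≃ κ) (P : GL ι F) (T : GL κ F) : GL ι F := P * glReindex e.symm T

lemma newP_val (e : ι ≃ κ) (P : GL ι F) (T : GL κ F) :
    ((newP e P T : GL ι F) : Matrix ι ι F) =
      (P : Matrix ι ι F) * Matrix.reindex e.symm e.symm (T : Matrix κ κ F) := rfl

lemma newP_inv_val (e : ι ≃ κ) (P : GL ι F) (T : GL κ F) :
    (((newP e P T)⁻¹ : GL ι F) : Matrix ι ι F) =
      Matrix.reindex e.symm e.symm ((T⁻¹ : GL κ F) : Matrix κ κ F) * ((P⁻¹ : GL ι F) : Matrix ι ι F) := by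
  unfold newP
  rw [_root_.mul_inv_rev, Units.val_mul, ← map_inv]
  rfl

lemma newP_mulVec (e : ι ≃ κ) (σ : κ ≃ κ') (P : GL ι F) (T : GL κ F) (x : κ' → F) :
    ((newP e P T : GL ι F) : Matrix ι ι F) *ᵥ (x ∘ (e.trans σ)) =
      (P : Matrix ι ι F) *ᵥ (((T : Matrix κ κ F) *ᵥ (x ∘ σ)) ∘ e) := by
  rw [newP_val, ← Matrix.mulVec_mulVec]
  congr 1
  rw [Matrix.reindex_apply, Equiv.symm_symm, Matrix.submatrix_mulVec_equiv]
  congr 2
  funext p
  simp

lemma newP_conj (e : ι ≃ κ) (σ : κ ≃ κ') (P : GL ι F) (T : GL κ F) (M : Matrix κ' κ' F) :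
    ((newP e P T : GL ι F) : Matrix ι ι F) * Matrix.reindex (e.trans σ).symm (e.trans σ).symm M *
      (((newP e P T)⁻¹ : GL ι F) : Matrix ι ι F) =
    (P : Matrix ι ι F) * Matrix.reindex e.symm e.symm ((T : Matrix κ κ F) *
      Matrix.reindex σ.symm σ.symm M * ((T⁻¹ : GL κ F) : Matrix κ κ F)) *
      ((P⁻¹ : GL ι F) : Matrix ι ι F) := by
  rw [newP_val, newP_inv_val]
  have h1 : Matrix.reindex (e.trans σ).symm (e.trans σ).symm M =
      Matrix.reindex e.symm e.symm (Matrix.reindex σ.symm σ.symm M) := by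
    ext i j
    simp
  have h2 : ∀ A B : Matrix κ κ F, Matrix.reindex e.symm e.symm (A * B) =
      Matrix.reindex e.symm e.symm A * Matrix.reindex e.symm e.symm B := fun A B =>
    map_mul (Matrix.reindexAlgEquiv F F e.symm) A B
  rw [h1, h2, h2]
  simp only [Matrix.mul_assoc]

end change

lemma det_tens {κ₁ κ₂ : Type} [Fintype κ₁] [Fintype κ₂] [DecidableEq κ₁] [DecidableEq κ₂]
    (e : ι ≃ κ₁ × κ₂) (P : GL ι F) (a : Matrix κ₁ κ₁ F) (b : Matrix κ₂ κ₂ F) :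
    (tens e P a b).det = a.det ^ Fintype.card κ₂ * b.det ^ Fintype.card κ₁ := by
  unfold tens
  rw [Matrix.det_mul, Matrix.det_mul, Matrix.det_reindex_self, Matrix.det_kronecker]
  have h1 : (P : Matrix ι ι F).det * ((P⁻¹ : GL ι F) : Matrix ι ι F).det = 1 := by
    rw [← Matrix.det_mul, iv, Matrix.det_one]
  linear_combination (a.det ^ Fintype.card κ₂ * b.det ^ Fintype.card κ₁) * h1

/-- `o34` from the other pieces -/
theorem o34_aux (hQ : IsNondegenerateQuadraticForm Q)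
    (hH : H ≤ omegaGL Q) (e : ι ≃ Fin 3 × Fin 4) (P : GL ι F)
    (G₁ : Matrix (Fin 3) (Fin 3) F) (G₂ : Matrix (Fin 4) (Fin 4) F)
    (h₁ : IsUnit G₁.det) (h₂ : IsUnit G₂.det)
    (hG : ∀ x y : Fin 3 × Fin 4 → F, QuadraticMap.polar Q ((P : Matrix ι ι F) *ᵥ (x ∘ e))
      ((P : Matrix ι ι F) *ᵥ (y ∘ e)) = formOfGram id (G₁ ⊗ₖ G₂) x y)
    (hs₁ : G₁ᵀ = G₁) (hs₂ : G₂ᵀ = G₂) (hle : H ≤ tensorProductSubgroup 3 4 e P)
    (hdisc : IsSquare ((-1 : F) ^ 6 * (gramMatrix (QuadraticMap.polar Q)).det))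
    (hcong : ∀ G G' : Matrix (Fin 4) (Fin 4) F, Gᵀ = G → G'ᵀ = G' → IsUnit G.det → IsUnit G'.det →
      IsSquare (G.det * G'.det) →
      ∃ A : GL (Fin 4) F, (A : Matrix (Fin 4) (Fin 4) F)ᵀ * G * (A : Matrix (Fin 4) (Fin 4) F) = G')
    (hsim : ∀ (b : Matrix (Fin 2 × Fin 2) (Fin 2 × Fin 2) F) (ν : F), ν ≠ 0 →
      bᵀ * (J0 F ⊗ₖ J0 F) * b = ν • (J0 F ⊗ₖ J0 F) → b.det = ν ^ 2 →
      ∃ a₁ a₂ : Matrix (Fin 2) (Fin 2) F, b = a₁ ⊗ₖ a₂) :
    ∃ (e' : ι ≃ Fin 2 × Fin 6) (P' : GL ι F) (G₁' : Matrix (Fin 2) (Fin 2) F)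
      (G₂' : Matrix (Fin 6) (Fin 6) F), IsUnit G₁'.det ∧ IsUnit G₂'.det ∧ G₁'ᵀ = -G₁' ∧ G₂'ᵀ = -G₂' ∧
      (∀ x y : Fin 2 × Fin 6 → F, QuadraticMap.polar Q ((P' : Matrix ι ι F) *ᵥ (x ∘ e'))
        ((P' : Matrix ι ι F) *ᵥ (y ∘ e')) = formOfGram id (G₁' ⊗ₖ G₂') x y) ∧
      H ≤ tensorProductSubgroup 2 6 e' P' := by
  classical
  obtain ⟨τ⟩ : Nonempty (Fin 4 ≃ Fin 2 × Fin 2) := ⟨(finProdFinEquiv (m := 2) (n := 2)).symm⟩
  obtain ⟨ρ⟩ : Nonempty (Fin 3 × Fin 2 ≃ Fin 6) := ⟨finProdFinEquiv (m := 3) (n := 2)⟩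
  obtain ⟨JJ, hJJ⟩ : ∃ JJ : Matrix (Fin 4) (Fin 4) F,
    JJ = Matrix.reindex τ.symm τ.symm (J0 F ⊗ₖ J0 F) := ⟨_, rfl⟩
  have hdetJ : (J0 F).det = 1 := by simp [J0, Matrix.det_fin_two]
  have hJJt : JJᵀ = JJ := by
    rw [hJJ, Matrix.transpose_reindex, ← Matrix.kroneckerMap_transpose, transpose_J0]
    congr 1
    ext ⟨i, j⟩ ⟨k, l⟩
    simp [Matrix.kroneckerMap_apply]
  have hJJdet : JJ.det = 1 := by
    rw [hJJ, Matrix.det_reindex_self, Matrix.det_kronecker, hdetJ]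
    simp
  have hg1 := h₁.ne_zero
  have hg2 := h₂.ne_zero
  have hsq : IsSquare (G₂.det * JJ.det) := by
    rw [hJJdet, mul_one]
    have h3 := Cfsg.Agent.Lib.Helper70OGramdet.gram_det_of_form hQ e P _ hG
    rw [Matrix.det_kronecker] at h3
    simp only [Fintype.card_fin] at h3
    obtain ⟨s, hs⟩ := hdisc
    refine ⟨s * (P : Matrix ι ι F).det / (G₁.det ^ 2 * G₂.det), ?_⟩
    field_simp
    have h4 : (gramMatrix (QuadraticMap.polar Q)).det = s * s := by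
      rw [← hs]; ring
    rw [h4] at h3
    linear_combination -h3
  obtain ⟨B, hB⟩ := hcong G₂ JJ hs₂ hJJt h₂ (by rw [hJJdet]; exact isUnit_one) hsq
  obtain ⟨Bm, hBm⟩ : ∃ Bm : Matrix (Fin 4) (Fin 4) F, Bm = B := ⟨_, rfl⟩
  obtain ⟨Bi, hBi⟩ : ∃ Bi : Matrix (Fin 4) (Fin 4) F, Bi = ((B⁻¹ : GL (Fin 4) F) : Matrix _ _ F) :=
    ⟨_, rfl⟩
  have hBB : Bm * Bi = 1 := by rw [hBm, hBi, iv]
  have hBB' : Bi * Bm = 1 := by rw [hBm, hBi, vi]
  rw [← hBm] at hB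
  let T : GL (Fin 3 × Fin 4) F :=
    ⟨(1 : Matrix (Fin 3) (Fin 3) F) ⊗ₖ Bm, (1 : Matrix (Fin 3) (Fin 3) F) ⊗ₖ Bi,
      by rw [← Matrix.mul_kronecker_mul, hBB, one_mul, Matrix.one_kronecker_one],
      by rw [← Matrix.mul_kronecker_mul, hBB', one_mul, Matrix.one_kronecker_one]⟩
  have hT : (T : Matrix (Fin 3 × Fin 4) (Fin 3 × Fin 4) F) = (1 : Matrix (Fin 3) (Fin 3) F) ⊗ₖ Bm := rfl
  have hTi : ((T⁻¹ : GL (Fin 3 × Fin 4) F) : Matrix (Fin 3 × Fin 4) (Fin 3 × Fin 4) F) =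
      (1 : Matrix (Fin 3) (Fin 3) F) ⊗ₖ Bi := rfl
  refine ⟨e.trans (sig τ ρ), newP e P T, J0 F, Matrix.reindex ρ ρ (G₁ ⊗ₖ J0 F), ?_, ?_, transpose_J0,
    ?_, ?_, ?_⟩
  · rw [hdetJ]; exact isUnit_one
  · rw [Matrix.det_reindex_self, Matrix.det_kronecker, hdetJ, one_pow, mul_one]
    exact h₁.pow _
  · rw [Matrix.transpose_reindex, ← Matrix.kroneckerMap_transpose, transpose_J0, hs₁]
    ext i j
    simp [Matrix.kroneckerMap_apply]
  · intro x y
    rw [newP_mulVec, newP_mulVec, hG, formOfGram_mulVec_left, formOfGram_mulVec_right,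
      ← formOfGram_comp (sig τ ρ) _ x y, regroup, ← hJJ, hT, ← Matrix.kroneckerMap_transpose,
      ← Matrix.mul_kronecker_mul, ← Matrix.mul_kronecker_mul, Matrix.transpose_one, one_mul, mul_one, hB]
  · intro h hh
    obtain ⟨a, b, hab⟩ := (mem_tensorProductSubgroup_iff e P h).1 (hle hh)
    obtain ⟨am, ham⟩ : ∃ am : Matrix (Fin 3) (Fin 3) F, am = a := ⟨_, rfl⟩
    obtain ⟨bm, hbm⟩ : ∃ bm : Matrix (Fin 4) (Fin 4) F, bm = b := ⟨_, rfl⟩
    rw [← ham, ← hbm] at hab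
    have hiso := isometry_tens e P _ hG (am ⊗ₖ bm) (by
      intro u v
      have := polar_iso (omega_le_iso (hH hh)) u v
      rw [hab] at this
      exact this)
    rw [← Matrix.kroneckerMap_transpose, ← Matrix.mul_kronecker_mul, ← Matrix.mul_kronecker_mul] at hiso
    obtain ⟨c, hc0, hca, hcb⟩ := Cfsg.Agent.Lib.Helper12SpTensform.tens_form_sim (by norm_num)
      (by norm_num) G₁ G₂ h₁ h₂ am bm hiso
    have hdeth : (h : Matrix ι ι F).det = 1 := by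
      have h1 := omega_le_SL (hH hh)
      have h2 : Matrix.GeneralLinearGroup.det h = 1 := h1
      have h3 := congrArg Units.val h2
      simpa using h3
    rw [hab, det_tens] at hdeth
    simp only [Fintype.card_fin] at hdeth
    have hda : am.det ^ 2 = c ^ 3 := by
      have := congrArg Matrix.det hca
      rw [Matrix.det_mul, Matrix.det_mul, Matrix.det_transpose, Matrix.det_smul] at this
      simp only [Fintype.card_fin] at this
      apply mul_right_cancel₀ hg1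
      linear_combination this
    have hdb : bm.det ^ 2 = c⁻¹ ^ 4 := by
      have := congrArg Matrix.det hcb
      rw [Matrix.det_mul, Matrix.det_mul, Matrix.det_transpose, Matrix.det_smul] at this
      simp only [Fintype.card_fin] at this
      apply mul_right_cancel₀ hg2
      linear_combination this
    have hdb' : bm.det = c⁻¹ ^ 2 := by
      have h5 : am.det ^ 4 = c ^ 6 := by
        calc am.det ^ 4 = (am.det ^ 2) ^ 2 := by ring
          _ = _ := by rw [hda]; ring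
      have h6 : bm.det ^ 3 = bm.det * c⁻¹ ^ 4 := by
        calc bm.det ^ 3 = bm.det * bm.det ^ 2 := by ring
          _ = _ := by rw [hdb]
      rw [h5, h6] at hdeth
      field_simp at hdeth ⊢
      linear_combination hdeth
    obtain ⟨b', hb'⟩ : ∃ b' : Matrix (Fin 2 × Fin 2) (Fin 2 × Fin 2) F,
      b' = Matrix.reindex τ τ (Bi * bm * Bm) := ⟨_, rfl⟩
    have hr : Matrix.reindex τ.symm τ.symm b' = Bi * bm * Bm := by
      rw [hb']; ext i j; simp
    have h7 : (Bi * bm * Bm)ᵀ * JJ * (Bi * bm * Bm) = c⁻¹ • JJ := by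
      rw [← hB]
      have h71 : (Bi * bm * Bm)ᵀ * (Bmᵀ * G₂ * Bm) * (Bi * bm * Bm) =
          Bmᵀ * bmᵀ * (Bm * Bi)ᵀ * G₂ * (Bm * Bi) * bm * Bm := by
        simp only [Matrix.transpose_mul, Matrix.mul_assoc]
      rw [h71, hBB, Matrix.transpose_one, mul_one, mul_one]
      have h72 : Bmᵀ * bmᵀ * G₂ * bm * Bm = Bmᵀ * (bmᵀ * G₂ * bm) * Bm := by
        simp only [Matrix.mul_assoc]
      rw [h72, hcb, Matrix.mul_smul, Matrix.smul_mul]
    have hre : ∀ A B : Matrix (Fin 4) (Fin 4) F, Matrix.reindex τ τ (A * B) =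
        Matrix.reindex τ τ A * Matrix.reindex τ τ B := fun A B =>
      map_mul (Matrix.reindexAlgEquiv F F τ) A B
    have hJ' : J0 F ⊗ₖ J0 F = Matrix.reindex τ τ JJ := by
      rw [hJJ]; ext i j; simp
    have h8 : b'ᵀ * (J0 F ⊗ₖ J0 F) * b' = c⁻¹ • (J0 F ⊗ₖ J0 F) := by
      rw [hb', hJ', Matrix.transpose_reindex, ← hre, ← hre, h7]
      rfl
    have h9 : b'.det = c⁻¹ ^ 2 := by
      rw [hb', Matrix.det_reindex_self, Matrix.det_mul, Matrix.det_mul, hdb']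
      have : Bi.det * Bm.det = 1 := by rw [← Matrix.det_mul, hBB', Matrix.det_one]
      linear_combination c⁻¹ ^ 2 * this
    obtain ⟨a₁, a₂, h12⟩ := hsim b' c⁻¹ (inv_ne_zero hc0) h8 h9
    have h10 : a₁.det ^ 2 * a₂.det ^ 2 ≠ 0 := by
      have := h9
      rw [h12, Matrix.det_kronecker] at this
      simp only [Fintype.card_fin] at this
      rw [this]
      exact pow_ne_zero _ (inv_ne_zero hc0)
    have hu1 : IsUnit a₁ := by
      rw [Matrix.isUnit_iff_isUnit_det, isUnit_iff_ne_zero]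
      intro h0
      apply h10
      rw [h0]; ring
    have hu2 : IsUnit (Matrix.reindex ρ ρ (am ⊗ₖ a₂)) := by
      rw [Matrix.isUnit_iff_isUnit_det, isUnit_iff_ne_zero, Matrix.det_reindex_self,
        Matrix.det_kronecker]
      apply mul_ne_zero
      · apply pow_ne_zero
        rw [ham]
        exact ((Matrix.isUnit_iff_isUnit_det _).1 a.isUnit).ne_zero
      · apply pow_ne_zero
        intro h0
        apply h10
        rw [h0]; ring
    have hbm' : bm = Bm * Matrix.reindex τ.symm τ.symm (a₁ ⊗ₖ a₂) * Bi := by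
      rw [← h12, hr]
      have : Bm * (Bi * bm * Bm) * Bi = (Bm * Bi) * bm * (Bm * Bi) := by
        simp only [Matrix.mul_assoc]
      rw [this, hBB, one_mul, mul_one]
    rw [mem_tensorProductSubgroup_iff]
    refine ⟨hu1.unit, hu2.unit, ?_⟩
    rw [IsUnit.unit_spec, IsUnit.unit_spec, hab]
    unfold tens
    rw [newP_conj, regroup, hT, hTi, ← Matrix.mul_kronecker_mul, ← Matrix.mul_kronecker_mul, one_mul,
      mul_one, ← hbm']

end Cfsg.Agent.Lib.Helper57OTens34
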