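import Cfsg.Agent.Lib.Helper96SpDefs
import Cfsg.Agent.Lib.Helper58GWnorm

set_option autoImplicit false

/-! ASCH-SP, pieces `wrform`, `wrodd`, `wreven`: coordinates and the structure of the Gram matrix. -/

namespace Cfsg.Agent.Lib.Helper57SpWrBase

open Cfsg Cfsg.Geo Matrix
open Cfsg.Agent.Lib.Helper97GBase Cfsg.Agent.Lib.Helper97GForms
  Cfsg.Agent.Lib.Helper98AschGDefs Cfsg.Agent.Lib.Helper98AschGBasic Cfsg.Agent.Lib.Helper96SpDefs
  Cfsg.Agent.Lib.Helper58GWnorm
open scoped MatrixGroups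

section coords

variable {ι κ : Type} [Fintype ι] [DecidableEq ι] [Fintype κ] [DecidableEq κ] {F : Type*} [Field F]

/-- the vector with coordinates `x` -/
def co (e : ι ≃ κ) (P : GL ι F) (x : κ → F) : ι → F := (P : Matrix ι ι F) *ᵥ (x ∘ e)

/-- the coordinates of a vector -/
def oc (e : ι ≃ κ) (P : GL ι F) (v : ι → F) : κ → F :=
  (((P⁻¹ : GL ι F) : Matrix ι ι F) *ᵥ v) ∘ e.symm

variable (e : ι ≃ κ) (P : GL ι F)

lemma co_add (x y : κ → F) : co e P (x + y) = co e P x + co e P y := by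
  unfold co
  rw [← Matrix.mulVec_add]
  rfl

lemma co_smul (c : F) (x : κ → F) : co e P (c • x) = c • co e P x := by
  unfold co
  rw [← Matrix.mulVec_smul]
  rfl

lemma co_oc (v : ι → F) : co e P (oc e P v) = v := by
  unfold co oc
  have : ((((P⁻¹ : GL ι F) : Matrix ι ι F) *ᵥ v) ∘ e.symm) ∘ e = ((P⁻¹ : GL ι F) : Matrix ι ι F) *ᵥ v := by
    funext i
    simp
  rw [this, Matrix.mulVec_mulVec, iv, Matrix.one_mulVec]

lemma oc_co (x : κ → F) : oc e P (co e P x) = x := by
  unfold co oc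
  rw [Matrix.mulVec_mulVec, vi, Matrix.one_mulVec]
  funext i
  simp

lemma co_injective : Function.Injective (co e P : (κ → F) → ι → F) := by
  intro x y h
  rw [← oc_co e P x, h, oc_co]

lemma co_zero : co e P (0 : κ → F) = 0 := by
  unfold co
  have : (0 : κ → F) ∘ e = 0 := rfl
  rw [this, Matrix.mulVec_zero]

lemma oc_add (u v : ι → F) : oc e P (u + v) = oc e P u + oc e P v := by
  apply co_injective e P
  rw [co_add, co_oc, co_oc, co_oc]

lemma oc_smul (c : F) (v : ι → F) : oc e P (c • v) = c • oc e P v := by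
  apply co_injective e P
  rw [co_smul, co_oc, co_oc]

/-- transport of a matrix -/
def trm (M : Matrix κ κ F) : Matrix ι ι F :=
  (P : Matrix ι ι F) * Matrix.reindex e.symm e.symm M * ((P⁻¹ : GL ι F) : Matrix ι ι F)

lemma reindex_mulVec (M : Matrix κ κ F) (x : κ → F) :
    Matrix.reindex e.symm e.symm M *ᵥ (x ∘ e) = (M *ᵥ x) ∘ e := by
  funext i
  simp only [Matrix.mulVec, dotProduct, Matrix.reindex_apply, Matrix.submatrix_apply,
    Function.comp_apply, Equiv.symm_symm]
  exact Equiv.sum_comp e (fun j => M (e i) j * x j)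

lemma trm_mulVec_co (M : Matrix κ κ F) (x : κ → F) : trm e P M *ᵥ co e P x = co e P (M *ᵥ x) := by
  unfold trm co
  rw [Matrix.mulVec_mulVec, mul_assoc, vi, mul_one, ← Matrix.mulVec_mulVec, reindex_mulVec]

/-- the matrix of `g` in the coordinates -/
def cm (g : GL ι F) : GL κ F := glReindex e (P⁻¹ * g * P)

lemma trm_cm (g : GL ι F) : trm e P (cm e P g : Matrix κ κ F) = (g : Matrix ι ι F) := by
  unfold trm cm
  have h1 : Matrix.reindex e.symm e.symm ((glReindex e (P⁻¹ * g * P) : GL κ F) : Matrix κ κ F) =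
      ((P⁻¹ * g * P : GL ι F) : Matrix ι ι F) := by
    ext i j
    simp [glReindex]
  rw [h1, Units.val_mul, Units.val_mul]
  calc (P : Matrix ι ι F) * (((P⁻¹ : GL ι F) : Matrix ι ι F) * (g : Matrix ι ι F) * (P : Matrix ι ι F)) *
        ((P⁻¹ : GL ι F) : Matrix ι ι F)
      = ((P : Matrix ι ι F) * ((P⁻¹ : GL ι F) : Matrix ι ι F)) * (g : Matrix ι ι F) *
        ((P : Matrix ι ι F) * ((P⁻¹ : GL ι F) : Matrix ι ι F)) := by simp only [mul_assoc]
    _ = (g : Matrix ι ι F) := by rw [iv, one_mul, mul_one]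

lemma val_mulVec_co (g : GL ι F) (x : κ → F) :
    (g : Matrix ι ι F) *ᵥ co e P x = co e P ((cm e P g : Matrix κ κ F) *ᵥ x) := by
  rw [← trm_mulVec_co, trm_cm]

lemma trm_mul (M N : Matrix κ κ F) : trm e P (M * N) = trm e P M * trm e P N := by
  unfold trm
  have h : Matrix.reindex e.symm e.symm (M * N) =
      Matrix.reindex e.symm e.symm M * Matrix.reindex e.symm e.symm N := by
    simp only [Matrix.reindex_apply]
    rw [Matrix.submatrix_mul_equiv]
  rw [h]
  calc (P : Matrix ι ι F) * (Matrix.reindex e.symm e.symm M * Matrix.reindex e.symm e.symm N) *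
        ((P⁻¹ : GL ι F) : Matrix ι ι F)
      = (P : Matrix ι ι F) * Matrix.reindex e.symm e.symm M * 1 * Matrix.reindex e.symm e.symm N *
        ((P⁻¹ : GL ι F) : Matrix ι ι F) := by simp only [mul_one, mul_assoc]
    _ = _ := by rw [← vi P]; simp only [mul_assoc]

lemma trm_injective : Function.Injective (trm e P : Matrix κ κ F → Matrix ι ι F) := by
  intro M N h
  ext a b
  have h1 : ∀ x : κ → F, M *ᵥ x = N *ᵥ x := by
    intro x
    apply co_injective e P
    rw [← trm_mulVec_co, ← trm_mulVec_co, h]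
  have h2 := congrFun (h1 (Pi.single b 1)) a
  simpa using h2

lemma cm_inv (g : GL ι F) : cm e P g⁻¹ = (cm e P g)⁻¹ := by
  unfold cm
  rw [← map_inv]
  congr 1
  group

/-- the form in coordinates -/
def pb (f : (ι → F) → (ι → F) → F) (x y : κ → F) : F := f (co e P x) (co e P y)

lemma pb_bilinear {f : (ι → F) → (ι → F) → F} (hf : IsBilinearForm f) : IsBilinearForm (pb e P f) where
  add_left x y v := by unfold pb; rw [co_add, hf.add_left]
  smul_left c x v := by unfold pb; rw [co_smul, hf.smul_left]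
  add_right v x y := by unfold pb; rw [co_add, hf.add_right]
  smul_right c v x := by unfold pb; rw [co_smul, hf.smul_right]

lemma pb_nondeg {f : (ι → F) → (ι → F) → F} (hnd : IsNondegenerateForm f) :
    IsNondegenerateForm (pb e P f) := by
  intro v hv
  have hv' : co e P v ≠ 0 := by
    intro h
    apply hv
    apply co_injective e P
    rw [h, co_zero]
  obtain ⟨⟨x, hx⟩, ⟨y, hy⟩⟩ := hnd _ hv'
  refine ⟨⟨oc e P x, ?_⟩, ⟨oc e P y, ?_⟩⟩
  · unfold pb; rwa [co_oc]
  · unfold pb; rwa [co_oc]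

lemma pb_eq {f : (ι → F) → (ι → F) → F} (hf : IsBilinearForm f) (x y : κ → F) :
    f (co e P x) (co e P y) = x ⬝ᵥ (gram (pb e P f) *ᵥ y) :=
  (sesq_of_bilinear (pb_bilinear e P hf)).eq_gram x y

end coords

lemma matrix_ext_form {κ : Type} [Fintype κ] [DecidableEq κ] {F : Type*} [Field F] {A A' : Matrix κ κ F}
    (h : ∀ x y : κ → F, x ⬝ᵥ (A *ᵥ y) = x ⬝ᵥ (A' *ᵥ y)) : A = A' := by
  ext a b
  have := h (Pi.single a 1) (Pi.single b 1)
  simpa using this

end Cfsg.Agent.Lib.Helper57SpWrBase
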