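import Cfsg.Agent.Lib.Helper57SpWrform

set_option autoImplicit false

/-! ASCH-SP, pieces `wrodd`, `wreven`: the Gram matrices of the tensor factors are similar. -/

namespace Cfsg.Agent.Lib.Helper57SpWrGram

open Cfsg Cfsg.Geo Matrix
open Cfsg.Agent.Lib.Helper97GBase Cfsg.Agent.Lib.Helper97GForms
  Cfsg.Agent.Lib.Helper98AschGDefs Cfsg.Agent.Lib.Helper98AschGBasic Cfsg.Agent.Lib.Helper96SpDefs
  Cfsg.Agent.Lib.Helper58GWnorm Cfsg.Agent.Lib.Helper57SpWrBase Cfsg.Agent.Lib.Helper57SpWrform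
open scoped MatrixGroups

variable {F : Type*} [Field F] {k m : ℕ}

/-- the transpose of an invertible matrix -/
def tG {κ : Type} [Fintype κ] [DecidableEq κ] (g : GL κ F) : GL κ F :=
  ⟨(g : Matrix κ κ F)ᵀ, ((g⁻¹ : GL κ F) : Matrix κ κ F)ᵀ,
    by rw [← Matrix.transpose_mul, vi, Matrix.transpose_one],
    by rw [← Matrix.transpose_mul, iv, Matrix.transpose_one]⟩

lemma tG_val {κ : Type} [Fintype κ] [DecidableEq κ] (g : GL κ F) :
    ((tG g : GL κ F) : Matrix κ κ F) = (g : Matrix κ κ F)ᵀ := rfl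

lemma tG_inv_val {κ : Type} [Fintype κ] [DecidableEq κ] (g : GL κ F) :
    (((tG g)⁻¹ : GL κ F) : Matrix κ κ F) = ((g⁻¹ : GL κ F) : Matrix κ κ F)ᵀ := rfl

lemma factor_mul_pt (l : Fin k) (X : Matrix (Fin m) (Fin m) F) (G : Fin k → Matrix (Fin m) (Fin m) F) :
    factor l X * pt G = pt (Function.update G l (X * G l)) := by
  rw [factor_eq_pt, pt_mul]
  congr 1
  funext j
  by_cases h : j = l
  · subst h; simp
  · simp [Function.update_of_ne h]

lemma pt_mul_factor (l : Fin k) (Y : Matrix (Fin m) (Fin m) F) (G : Fin k → Matrix (Fin m) (Fin m) F) :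
    pt G * factor l Y = pt (Function.update G l (G l * Y)) := by
  rw [factor_eq_pt, pt_mul]
  congr 1
  funext j
  by_cases h : j = l
  · subst h; simp
  · simp [Function.update_of_ne h]

lemma pt_transpose (G : Fin k → Matrix (Fin m) (Fin m) F) : (pt G)ᵀ = pt (fun i => (G i)ᵀ) := rfl

/-- in coordinates: an isometry of `pt G` carrying the factor `i` to the factor `j`. -/
theorem gram_trans (G : Fin k → GL (Fin m) F) (h : GL (Fin k → Fin m) F) (i j : Fin k)
    (hiso : (h : Matrix (Fin k → Fin m) (Fin k → Fin m) F)ᵀ * pt (fun l => (G l : Matrix (Fin m) (Fin m) F)) *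
      (h : Matrix (Fin k → Fin m) (Fin k → Fin m) F) = pt (fun l => (G l : Matrix (Fin m) (Fin m) F)))
    (hh : ∀ a : Matrix (Fin m) (Fin m) F, ∃ b : Matrix (Fin m) (Fin m) F,
      (h : Matrix (Fin k → Fin m) (Fin k → Fin m) F) * factor i a *
        ((h⁻¹ : GL (Fin k → Fin m) F) : Matrix (Fin k → Fin m) (Fin k → Fin m) F) = factor j b) :
    ∃ (g : GL (Fin m) F) (c : F), (g : Matrix (Fin m) (Fin m) F)ᵀ * (G j : Matrix (Fin m) (Fin m) F) *
      (g : Matrix (Fin m) (Fin m) F) = c • (G i : Matrix (Fin m) (Fin m) F) := by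
  classical
  obtain ⟨g, hg⟩ := exists_conj h i j hh
  refine ⟨g, ?_⟩
  set B : Matrix (Fin k → Fin m) (Fin k → Fin m) F := pt (fun l => (G l : Matrix (Fin m) (Fin m) F)) with hB
  set Bu : GL (Fin k → Fin m) F := ptGL G with hBu
  have hBv : (Bu : Matrix (Fin k → Fin m) (Fin k → Fin m) F) = B := rfl
  -- adjoints of the factors
  have hadj : ∀ (l : Fin k) (X : Matrix (Fin m) (Fin m) F), factor l X * B =
      B * factor l ((((G l)⁻¹ : GL (Fin m) F) : Matrix (Fin m) (Fin m) F) * X * (G l : Matrix (Fin m) (Fin m) F)) := by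
    intro l X
    rw [hB, factor_mul_pt, pt_mul_factor]
    congr 2
    simp [mul_assoc]
  have h1 : ∀ a : Matrix (Fin m) (Fin m) F, (h : Matrix (Fin k → Fin m) (Fin k → Fin m) F) * factor i a =
      factor j ((g : Matrix (Fin m) (Fin m) F) * a * ((g⁻¹ : GL (Fin m) F) : Matrix (Fin m) (Fin m) F)) *
        (h : Matrix (Fin k → Fin m) (Fin k → Fin m) F) := by
    intro a
    rw [← hg, mul_assoc, mul_assoc, vi, mul_one]
  have hiso' : ((tG h : GL _ F) : Matrix (Fin k → Fin m) (Fin k → Fin m) F) * B =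
      B * ((h⁻¹ : GL (Fin k → Fin m) F) : Matrix (Fin k → Fin m) (Fin k → Fin m) F) := by
    rw [tG_val]
    conv_rhs => rw [← hiso]
    rw [mul_assoc _ (h : Matrix (Fin k → Fin m) (Fin k → Fin m) F), iv, mul_one]
  -- the key identity
  have key : ∀ A : Matrix (Fin m) (Fin m) F,
      (g : Matrix (Fin m) (Fin m) F) * ((((G i)⁻¹ : GL (Fin m) F) : Matrix (Fin m) (Fin m) F) * A *
        (G i : Matrix (Fin m) (Fin m) F)) * ((g⁻¹ : GL (Fin m) F) : Matrix (Fin m) (Fin m) F) =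
      (((G j)⁻¹ : GL (Fin m) F) : Matrix (Fin m) (Fin m) F) *
        ((((tG g)⁻¹ : GL (Fin m) F) : Matrix (Fin m) (Fin m) F) * A * ((tG g : GL (Fin m) F) : Matrix (Fin m) (Fin m) F)) *
        (G j : Matrix (Fin m) (Fin m) F) := by
    intro A
    apply factor_injective j
    rw [← hg]
    -- transpose of `h1`
    have h2 := congrArg Matrix.transpose (h1 Aᵀ)
    rw [Matrix.transpose_mul, Matrix.transpose_mul, factor_transpose, factor_transpose,
      Matrix.transpose_transpose, Matrix.transpose_mul, Matrix.transpose_mul,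
      Matrix.transpose_transpose, ← tG_inv_val g, ← tG_val g, ← tG_val h, ← mul_assoc] at h2
    -- `factor i A * hᵀ = hᵀ * factor j (..)`
    have h3 : factor i A * B = (tG h : GL _ F).val * factor j
        ((((tG g)⁻¹ : GL (Fin m) F) : Matrix (Fin m) (Fin m) F) * A * ((tG g : GL (Fin m) F) : Matrix (Fin m) (Fin m) F)) *
        B * (h : Matrix (Fin k → Fin m) (Fin k → Fin m) F) := by
      rw [← h2]
      conv_lhs => rw [← hiso]
      rw [tG_val]
      simp only [mul_assoc]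
    rw [hadj i, mul_assoc (tG h : GL _ F).val, hadj j, ← mul_assoc (tG h : GL _ F).val, hiso', ← hBv] at h3
    have h4 := congrArg (fun X => ((Bu⁻¹ : GL _ F) : Matrix (Fin k → Fin m) (Fin k → Fin m) F) * X) h3
    simp only [mul_assoc, Units.inv_mul_cancel_left] at h4
    simp only [mul_assoc]
    rw [h4]
    simp only [mul_assoc, Units.mul_inv_cancel_left, iv, mul_one]
  set M : Matrix (Fin m) (Fin m) F := ((tG g : GL (Fin m) F) : Matrix (Fin m) (Fin m) F) *
    (G j : Matrix (Fin m) (Fin m) F) * (g : Matrix (Fin m) (Fin m) F) *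
    (((G i)⁻¹ : GL (Fin m) F) : Matrix (Fin m) (Fin m) F) with hM
  have hcomm : ∀ A : Matrix (Fin m) (Fin m) F, M * A = A * M := by
    intro A
    have := congrArg (fun X => ((tG g : GL (Fin m) F) : Matrix (Fin m) (Fin m) F) *
      (G j : Matrix (Fin m) (Fin m) F) * X * ((g : Matrix (Fin m) (Fin m) F) *
      (((G i)⁻¹ : GL (Fin m) F) : Matrix (Fin m) (Fin m) F))) (key A)
    simp only [mul_assoc, Units.inv_mul_cancel_left, Units.mul_inv_cancel_left, iv, mul_one] at this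
    rw [hM]
    simp only [mul_assoc]
    exact this
  obtain ⟨c, hc⟩ := Matrix.mem_range_scalar_of_commute_single (M := M) (by
    intro x y _
    exact (hcomm _).symm)
  refine ⟨c, ?_⟩
  have h5 : M * (G i : Matrix (Fin m) (Fin m) F) = c • (G i : Matrix (Fin m) (Fin m) F) := by
    rw [← hc]
    ext x y
    simp [Matrix.scalar_apply, Matrix.diagonal_mul]
  rw [← h5, hM, tG_val]
  simp only [mul_assoc, vi, mul_one]

variable {ι : Type} [Fintype ι] [DecidableEq ι] {f : (ι → F) → (ι → F) → F} {H : Subgroup (GL ι F)}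

lemma form_eq {e : ι ≃ (Fin k → Fin m)} {P : GL ι F} {G : Fin k → Matrix (Fin m) (Fin m) F}
    (hG : ∀ x y : (Fin k → Fin m) → F, f ((P : Matrix ι ι F) *ᵥ (x ∘ e)) ((P : Matrix ι ι F) *ᵥ (y ∘ e)) =
        ∑ a, ∑ b, x a * (∏ i, G i (a i) (b i)) * y b) (x y : (Fin k → Fin m) → F) :
    f (co e P x) (co e P y) = x ⬝ᵥ (pt G *ᵥ y) := by
  unfold co
  rw [hG]
  simp only [dotProduct, Matrix.mulVec, pt_apply, Finset.mul_sum, mul_assoc]

lemma dot_conj {κ : Type} [Fintype κ] (B g : Matrix κ κ F) (x y : κ → F) :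
    (g *ᵥ x) ⬝ᵥ (B *ᵥ (g *ᵥ y)) = x ⬝ᵥ ((gᵀ * B * g) *ᵥ y) := by
  rw [← Matrix.mulVec_mulVec, ← Matrix.mulVec_mulVec, Matrix.dotProduct_mulVec x gᵀ,
    Matrix.vecMul_transpose]

/-- isometries in coordinates -/
lemma iso_coord {e : ι ≃ (Fin k → Fin m)} {P : GL ι F} {G : Fin k → Matrix (Fin m) (Fin m) F}
    (hG : ∀ x y : (Fin k → Fin m) → F, f ((P : Matrix ι ι F) *ᵥ (x ∘ e)) ((P : Matrix ι ι F) *ᵥ (y ∘ e)) =
        ∑ a, ∑ b, x a * (∏ i, G i (a i) (b i)) * y b)
    {h : GL ι F} (hh : ∀ u v, f ((h : Matrix ι ι F) *ᵥ u) ((h : Matrix ι ι F) *ᵥ v) = f u v) :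
    (cm e P h : Matrix (Fin k → Fin m) (Fin k → Fin m) F)ᵀ * pt G *
      (cm e P h : Matrix (Fin k → Fin m) (Fin k → Fin m) F) = pt G := by
  apply matrix_ext_form
  intro x y
  rw [← dot_conj, ← form_eq hG, ← form_eq hG, ← val_mulVec_co, ← val_mulVec_co, hh]

lemma factor_coord {e : ι ≃ (Fin k → Fin m)} {P : GL ι F} {h : GL ι F} {i j : Fin k}
    {a b : Matrix (Fin m) (Fin m) F}
    (hab : (h : Matrix ι ι F) * fac e P i a * ((h⁻¹ : GL ι F) : Matrix ι ι F) = fac e P j b) :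
    (cm e P h : Matrix (Fin k → Fin m) (Fin k → Fin m) F) * factor i a *
      (((cm e P h)⁻¹ : GL (Fin k → Fin m) F) : Matrix (Fin k → Fin m) (Fin k → Fin m) F) = factor j b := by
  apply trm_injective e P
  rw [trm_mul, trm_mul, ← cm_inv, trm_cm, trm_cm, ← fac_eq, ← fac_eq, hab]

/-- the Gram matrices of the factors are pairwise similar. -/
theorem gram_similar (hm : 0 < m) (hH : FixesForm (matrixSet H) f)
    (e : ι ≃ (Fin k → Fin m)) (P : GL ι F)
    (htrans : ∀ i j : Fin k, ∃ h ∈ H, ∀ a : Matrix (Fin m) (Fin m) F, ∃ b : Matrix (Fin m) (Fin m) F,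
      (h : Matrix ι ι F) * fac e P i a * ((h⁻¹ : GL ι F) : Matrix ι ι F) = fac e P j b)
    (G : Fin k → Matrix (Fin m) (Fin m) F) (hGu : ∀ i, IsUnit (G i).det)
    (hG : ∀ x y : (Fin k → Fin m) → F, f ((P : Matrix ι ι F) *ᵥ (x ∘ e)) ((P : Matrix ι ι F) *ᵥ (y ∘ e)) =
        ∑ a, ∑ b, x a * (∏ i, G i (a i) (b i)) * y b) (i j : Fin k) :
    ∃ (g : GL (Fin m) F) (c : F), c ≠ 0 ∧
      (g : Matrix (Fin m) (Fin m) F)ᵀ * G j * (g : Matrix (Fin m) (Fin m) F) = c • G i := by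
  have hGu' : ∀ i, ∃ u : GL (Fin m) F, (u : Matrix (Fin m) (Fin m) F) = G i := fun i =>
    (Matrix.isUnit_iff_isUnit_det _).mpr (hGu i)
  choose Gu hGu2 using hGu'
  have hpt : (fun l => (Gu l : Matrix (Fin m) (Fin m) F)) = G := funext hGu2
  obtain ⟨h, hhH, hh⟩ := htrans i j
  have hiso := iso_coord hG (h := h) (fun u v => hH _ ⟨h, hhH, rfl⟩ u v)
  obtain ⟨g, c, hc⟩ := gram_trans Gu (cm e P h) i j (by rw [hpt]; exact hiso) (fun a => by
    obtain ⟨b, hb⟩ := hh a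
    exact ⟨b, factor_coord hb⟩)
  rw [hGu2, hGu2] at hc
  refine ⟨g, c, ?_, hc⟩
  rintro rfl
  rw [zero_smul] at hc
  have h1 := congrArg Matrix.det hc
  rw [Matrix.det_mul, Matrix.det_mul, Matrix.det_transpose] at h1
  have : Nonempty (Fin m) := ⟨⟨0, hm⟩⟩
  rw [Matrix.det_zero] at h1
  have h2 : (g : Matrix (Fin m) (Fin m) F).det ≠ 0 :=
    ((Matrix.isUnit_iff_isUnit_det _).mp g.isUnit).ne_zero
  have h3 := (hGu j).ne_zero
  exact (mul_ne_zero (mul_ne_zero h2 h3) h2) h1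

end Cfsg.Agent.Lib.Helper57SpWrGram
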