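import Cfsg.Agent.Lib.Helper96SpDefs

set_option autoImplicit false

/-! PROJECT 3 = ASCH-SP, piece `quadspan`. -/

namespace Cfsg.Agent.Lib.Helper63SpQuadspan

open Cfsg Cfsg.Geo Matrix
open scoped MatrixGroups Kronecker

variable {ι : Type} [Fintype ι] [DecidableEq ι] {F : Type*} [Field F]

/-- [quadspan] a quadratic form vanishing on a spanning set `S` is fixed by every isometry of its polar form
that maps `S` into itself. -/
theorem quad_fixed_of_span {Q : (ι → F) → F} (hQ : IsNondegenerateQuadraticForm Q) {S : Set (ι → F)}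
    (hS : Submodule.span F S = ⊤) (hQS : ∀ v ∈ S, Q v = 0) (g : Matrix ι ι F)
    (hg : ∀ u v, QuadraticMap.polar Q (g *ᵥ u) (g *ᵥ v) = QuadraticMap.polar Q u v)
    (hgS : ∀ v ∈ S, g *ᵥ v ∈ S) : ∀ v, Q (g *ᵥ v) = Q v := by
  have hadd : ∀ u v, Q (u + v) = Q u + Q v + QuadraticMap.polar Q u v := by
    intro u v
    unfold QuadraticMap.polar
    ring
  let W : Submodule F (ι → F) :=
    { carrier := {v | Q (g *ᵥ v) = Q v}
      add_mem' := by
        intro u v hu hv
        simp only [Set.mem_setOf_eq] at hu hv ⊢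
        rw [Matrix.mulVec_add, hadd, hadd, hu, hv, hg]
      zero_mem' := by
        simp only [Set.mem_setOf_eq]
        rw [Matrix.mulVec_zero]
      smul_mem' := by
        intro c v hv
        simp only [Set.mem_setOf_eq] at hv ⊢
        rw [Matrix.mulVec_smul, hQ.smul, hQ.smul, hv] }
  have hSW : S ⊆ W := by
    intro v hv
    show Q (g *ᵥ v) = Q v
    rw [hQS v hv, hQS _ (hgS v hv)]
  have hW : W = ⊤ := by
    rw [eq_top_iff, ← hS]
    exact Submodule.span_le.2 hSW
  intro v
  have : v ∈ W := by rw [hW]; trivial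
  exact this

end Cfsg.Agent.Lib.Helper63SpQuadspan
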