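import Cfsg.Agent.Lib.Helper96SpDefs
import Cfsg.Agent.Lib.Helper63SpQuadspan

set_option autoImplicit false

/-! PROJECT 3 = ASCH-SP, piece `tenseven`. -/

namespace Cfsg.Agent.Lib.Helper63SpTenseven

open Cfsg Cfsg.Geo Matrix
open Cfsg.Agent.Lib.Helper97GBase Cfsg.Agent.Lib.Helper98AschGDefs Cfsg.Agent.Lib.Helper98AschGBasic
  Cfsg.Agent.Lib.Helper96SpDefs
open scoped MatrixGroups Kronecker

variable {ι : Type} [Fintype ι] [DecidableEq ι] {F : Type*} [Field F]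

section coords

variable {κ : Type} [Fintype κ] [DecidableEq κ]

/-- from coordinates to vectors -/
def up (e : ι ≃ κ) (P : GL ι F) : (κ → F) →ₗ[F] (ι → F) :=
  (Matrix.mulVecLin (P : Matrix ι ι F)) ∘ₗ (LinearMap.funLeft F F e)

lemma up_apply (e : ι ≃ κ) (P : GL ι F) (x : κ → F) : up e P x = (P : Matrix ι ι F) *ᵥ (x ∘ e) := rfl

/-- coordinates of a vector, as a linear map -/
def co (e : ι ≃ κ) (P : GL ι F) : (ι → F) →ₗ[F] (κ → F) :=
  (LinearMap.funLeft F F e.symm) ∘ₗ (Matrix.mulVecLin ((P⁻¹ : GL ι F) : Matrix ι ι F))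

lemma co_apply (e : ι ≃ κ) (P : GL ι F) (v : ι → F) :
    co e P v = (((P⁻¹ : GL ι F) : Matrix ι ι F) *ᵥ v) ∘ e.symm := rfl

lemma up_co (e : ι ≃ κ) (P : GL ι F) (v : ι → F) : up e P (co e P v) = v := by
  rw [up_apply, co_apply]
  have : ((((P⁻¹ : GL ι F) : Matrix ι ι F) *ᵥ v) ∘ e.symm) ∘ e = ((P⁻¹ : GL ι F) : Matrix ι ι F) *ᵥ v := by
    funext i; simp
  rw [this, Matrix.mulVec_mulVec, iv, Matrix.one_mulVec]

lemma co_up (e : ι ≃ κ) (P : GL ι F) (x : κ → F) : co e P (up e P x) = x := by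
  rw [up_apply, co_apply, Matrix.mulVec_mulVec, vi, Matrix.one_mulVec]
  funext i; simp

lemma formOfGram_eq (B : Matrix κ κ F) (x y : κ → F) : formOfGram id B x y = x ⬝ᵥ B *ᵥ y := by
  simp [formOfGram, dotProduct, mulVec, Finset.mul_sum, mul_assoc]

lemma dot_transpose (U : Matrix κ κ F) (x y : κ → F) : y ⬝ᵥ U *ᵥ x = x ⬝ᵥ Uᵀ *ᵥ y := by
  rw [Matrix.mulVec_transpose, Matrix.dotProduct_mulVec, dotProduct_comm]

lemma polar_qf (U : Matrix κ κ F) (x y : κ → F) :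
    QuadraticMap.polar (fun x : κ → F => x ⬝ᵥ U *ᵥ x) x y = x ⬝ᵥ (U + Uᵀ) *ᵥ y := by
  unfold QuadraticMap.polar
  simp only [Matrix.mulVec_add, add_dotProduct, dotProduct_add, Matrix.add_mulVec]
  rw [dot_transpose U x y]; ring

lemma qf_smul (U : Matrix κ κ F) (c : F) (x : κ → F) :
    (c • x) ⬝ᵥ U *ᵥ (c • x) = c ^ 2 * (x ⬝ᵥ U *ᵥ x) := by
  rw [Matrix.mulVec_smul, smul_dotProduct, dotProduct_smul, smul_eq_mul, smul_eq_mul]; ring

lemma single_dot_single (U : Matrix κ κ F) (p q : κ) :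
    (Pi.single p (1 : F)) ⬝ᵥ U *ᵥ (Pi.single q (1 : F)) = U p q := by
  simp

/-- the action of a conjugated reindexed matrix in coordinates -/
lemma conj_mulVec_up (e : ι ≃ κ) (P : GL ι F) (M : Matrix κ κ F) (x : κ → F) :
    ((P : Matrix ι ι F) * Matrix.reindex e.symm e.symm M * ((P⁻¹ : GL ι F) : Matrix ι ι F)) *ᵥ up e P x =
      up e P (M *ᵥ x) := by
  rw [up_apply, up_apply, Matrix.mulVec_mulVec, mul_assoc, vi, mul_one, ← Matrix.mulVec_mulVec]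
  congr 1
  funext i
  simp [Matrix.mulVec, dotProduct, Matrix.reindex_apply]
  exact (Equiv.sum_comp e (fun j => M (e i) j * x j))

/-- the kernel of the "diagonal" quadratic form of a symmetric matrix in characteristic 2 -/
def qk (G : Matrix κ κ F) (hG : Gᵀ = G) (h2 : (2 : F) = 0) : Submodule F (κ → F) where
  carrier := {z | z ⬝ᵥ G *ᵥ z = 0}
  add_mem' := by
    intro u v hu hv
    simp only [Set.mem_setOf_eq] at hu hv ⊢
    simp only [Matrix.mulVec_add, add_dotProduct, dotProduct_add]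
    rw [hu, hv, dot_transpose G u v, hG]
    have : u ⬝ᵥ G *ᵥ v + u ⬝ᵥ G *ᵥ v = 2 * (u ⬝ᵥ G *ᵥ v) := by ring
    rw [zero_add, add_zero, this, h2, zero_mul]
  zero_mem' := by simp
  smul_mem' := by
    intro c v hv
    simp only [Set.mem_setOf_eq] at hv ⊢
    rw [qf_smul, hv, mul_zero]

lemma mem_qk {G : Matrix κ κ F} {hG : Gᵀ = G} {h2 : (2 : F) = 0} {z : κ → F} :
    z ∈ qk G hG h2 ↔ z ⬝ᵥ G *ᵥ z = 0 := Iff.rfl

lemma qk_eq_top {G : Matrix κ κ F} {hG : Gᵀ = G} {h2 : (2 : F) = 0} (hd : ∀ b, G b b = 0) :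
    qk G hG h2 = ⊤ := by
  rw [eq_top_iff, ← (Pi.basisFun F κ).span_eq, Submodule.span_le]
  rintro _ ⟨b, rfl⟩
  show _ ∈ qk G hG h2
  rw [mem_qk, Pi.basisFun_apply, single_dot_single, hd]

lemma exists_mem_qk [Finite F] {G : Matrix κ κ F} {hG : Gᵀ = G} {h2 : (2 : F) = 0}
    (hc : 2 ≤ Fintype.card κ) : ∃ z ∈ qk G hG h2, z ≠ 0 := by
  obtain ⟨b0, b1, hne⟩ := Fintype.one_lt_card_iff.1 hc
  by_cases h0 : G b0 b0 = 0
  · refine ⟨Pi.single b0 1, ?_, ?_⟩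
    · rw [mem_qk, single_dot_single, h0]
    · intro h
      have := congrFun h b0
      simp at this
  · haveI := Fintype.ofFinite F
    haveI : CharP F 2 := CharTwo.of_one_ne_zero_of_two_eq_zero one_ne_zero h2
    obtain ⟨α, hα⟩ := FiniteField.isSquare_of_char_two (ringChar.eq F 2) (G b1 b1 / G b0 b0)
    refine ⟨α • Pi.single b0 1 + Pi.single b1 1, ?_, ?_⟩
    · rw [mem_qk]
      simp only [Matrix.mulVec_add, add_dotProduct, dotProduct_add, Matrix.mulVec_smul, smul_dotProduct,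
        dotProduct_smul, single_dot_single, smul_eq_mul]
      have hs : G b1 b0 = G b0 b1 := by
        conv_lhs => rw [← hG]
        rfl
      rw [hs]
      have h3 : α * (α * G b0 b0) = G b1 b1 := by
        rw [← mul_assoc, ← hα]; field_simp
      have : α * (α * G b0 b0 + G b0 b1) + (α * G b0 b1 + G b1 b1) =
          α * (α * G b0 b0) + G b1 b1 + 2 * (α * G b0 b1) := by ring
      rw [this, h3, h2, zero_mul, add_zero]
      have : G b1 b1 + G b1 b1 = 2 * G b1 b1 := by ring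
      rw [this, h2, zero_mul]
    · intro h
      have := congrFun h b1
      simp [hne] at this

end coords

section pure

variable {κ₁ κ₂ : Type} [Fintype κ₁] [Fintype κ₂] [DecidableEq κ₁] [DecidableEq κ₂]

/-- pure tensors -/
def pt (y : κ₁ → F) (z : κ₂ → F) : κ₁ × κ₂ → F := fun p => y p.1 * z p.2

lemma kron_mulVec_pt (A : Matrix κ₁ κ₁ F) (B : Matrix κ₂ κ₂ F) (y : κ₁ → F) (z : κ₂ → F) :
    (A ⊗ₖ B) *ᵥ pt y z = pt (A *ᵥ y) (B *ᵥ z) := by
  funext ⟨a, b⟩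
  simp only [Matrix.mulVec, dotProduct, pt, Matrix.kroneckerMap_apply, Fintype.sum_prod_type,
    Finset.sum_mul_sum]
  refine Finset.sum_congr rfl fun a' _ => Finset.sum_congr rfl fun b' _ => by ring

lemma pt_dot_pt (y y' : κ₁ → F) (z z' : κ₂ → F) : pt y z ⬝ᵥ pt y' z' = (y ⬝ᵥ y') * (z ⬝ᵥ z') := by
  simp only [dotProduct, pt, Fintype.sum_prod_type, Finset.sum_mul_sum]
  refine Finset.sum_congr rfl fun a' _ => Finset.sum_congr rfl fun b' _ => by ring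

lemma form_pt (G₁ : Matrix κ₁ κ₁ F) (G₂ : Matrix κ₂ κ₂ F) (y y' : κ₁ → F) (z z' : κ₂ → F) :
    pt y z ⬝ᵥ (G₁ ⊗ₖ G₂) *ᵥ pt y' z' = (y ⬝ᵥ G₁ *ᵥ y') * (z ⬝ᵥ G₂ *ᵥ z') := by
  rw [kron_mulVec_pt, pt_dot_pt]

lemma single_eq_pt (a : κ₁) (b : κ₂) :
    (Pi.single (a, b) 1 : κ₁ × κ₂ → F) = pt (Pi.single a 1) (Pi.single b 1) := by
  funext ⟨a', b'⟩
  by_cases ha : a' = a
  · by_cases hb : b' = b
    · subst ha; subst hb; simp [pt]
    · subst ha; simp [pt, Pi.single_apply, hb]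
  · simp [pt, Pi.single_apply, ha]

lemma span_pt : Submodule.span F {x : κ₁ × κ₂ → F | ∃ y z, x = pt y z} = ⊤ := by
  rw [eq_top_iff, ← (Pi.basisFun F (κ₁ × κ₂)).span_eq, Submodule.span_le]
  rintro _ ⟨⟨a, b⟩, rfl⟩
  apply Submodule.subset_span
  exact ⟨_, _, by rw [Pi.basisFun_apply, single_eq_pt]⟩

lemma exists_ne_zero {κ : Type} {G : Matrix κ κ F} (h : G ≠ 0) : ∃ a a', G a a' ≠ 0 := by
  by_contra hc
  push Not at hc
  exact h (by ext a a'; exact hc a a')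

lemma sym_of_kron (h2 : (2 : F) = 0) {G₁ : Matrix κ₁ κ₁ F} {G₂ : Matrix κ₂ κ₂ F} (hne₁ : G₁ ≠ 0) (hne₂ : G₂ ≠ 0)
    (h : ∀ a a' b b', G₁ a a' * G₂ b b' = G₁ a' a * G₂ b' b) : G₂ᵀ = G₂ := by
  obtain ⟨a0, a0', hg⟩ := exists_ne_zero hne₁
  obtain ⟨b0, b0', hb⟩ := exists_ne_zero hne₂
  have e1 := h a0 a0' b0 b0'
  have e2 := h a0' a0 b0 b0'
  have e3 : (G₁ a0 a0' + G₁ a0' a0) ^ 2 * G₂ b0 b0' = 0 := by
    have : (G₁ a0 a0' + G₁ a0' a0) ^ 2 * G₂ b0 b0' =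
        G₁ a0 a0' * (G₁ a0 a0' * G₂ b0 b0') + G₁ a0' a0 * (G₁ a0' a0 * G₂ b0 b0')
          + 2 * (G₁ a0 a0' * G₁ a0' a0 * G₂ b0 b0') := by ring
    rw [this, e1, e2, h2, zero_mul, add_zero]
    have : G₁ a0 a0' * (G₁ a0' a0 * G₂ b0' b0) + G₁ a0' a0 * (G₁ a0 a0' * G₂ b0' b0) =
        2 * (G₁ a0 a0' * (G₁ a0' a0 * G₂ b0' b0)) := by ring
    rw [this, h2, zero_mul]
  have e4 : G₁ a0 a0' + G₁ a0' a0 = 0 := by
    rcases mul_eq_zero.1 e3 with h' | h'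
    · exact pow_eq_zero_iff (two_ne_zero) |>.1 h'
    · exact absurd h' hb
  have e5 : G₁ a0' a0 = G₁ a0 a0' := by
    have : G₁ a0' a0 = (G₁ a0 a0' + G₁ a0' a0) + G₁ a0 a0' - 2 * G₁ a0 a0' := by ring
    rw [this, e4, h2]; ring
  ext b b'
  have := h a0 a0' b' b
  rw [e5] at this
  exact (mul_left_cancel₀ hg this).symm ▸ rfl

/-- tensor decomposition data -/
structure TD (f : (ι → F) → (ι → F) → F) (H : Subgroup (GL ι F)) (e : ι ≃ κ₁ × κ₂) (P : GL ι F)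
    (G₁ : Matrix κ₁ κ₁ F) (G₂ : Matrix κ₂ κ₂ F) : Prop where
  act : ∀ h ∈ H, ∃ (A : GL κ₁ F) (B : GL κ₂ F),
    (h : Matrix ι ι F) = tens e P (A : Matrix κ₁ κ₁ F) (B : Matrix κ₂ κ₂ F)
  form : ∀ x y, f (up e P x) (up e P y) = x ⬝ᵥ (G₁ ⊗ₖ G₂) *ᵥ y
  ne₁ : G₁ ≠ 0
  ne₂ : G₂ ≠ 0

variable {f : (ι → F) → (ι → F) → F} {H : Subgroup (GL ι F)} {e : ι ≃ κ₁ × κ₂} {P : GL ι F}
    {G₁ : Matrix κ₁ κ₁ F} {G₂ : Matrix κ₂ κ₂ F}

lemma TD.swap (T : TD f H e P G₁ G₂) : TD f H (e.trans (Equiv.prodComm κ₁ κ₂)) P G₂ G₁ where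
  act := by
    intro h hh
    obtain ⟨A, B, hAB⟩ := T.act h hh
    refine ⟨B, A, ?_⟩
    rw [hAB]
    unfold tens
    congr 2
    ext i j
    simp [Matrix.reindex_apply, Matrix.kroneckerMap_apply, mul_comm]
  form := by
    intro x y
    have hx : ∀ x : κ₂ × κ₁ → F, up (e.trans (Equiv.prodComm κ₁ κ₂)) P x = up e P (x ∘ Equiv.prodComm κ₁ κ₂) := by
      intro x; rfl
    rw [hx, hx, T.form]
    simp only [dotProduct, Matrix.mulVec, Fintype.sum_prod_type, Matrix.kroneckerMap_apply, Function.comp,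
      Equiv.prodComm_apply, Prod.swap_prod_mk]
    rw [Finset.sum_comm]
    refine Finset.sum_congr rfl fun b _ => Finset.sum_congr rfl fun a _ => ?_
    congr 1
    rw [Finset.sum_comm]
    refine Finset.sum_congr rfl fun b _ => Finset.sum_congr rfl fun a _ => by ring
  ne₁ := T.ne₂
  ne₂ := T.ne₁

lemma TD.entry (T : TD f H e P G₁ G₂) (a a' : κ₁) (b b' : κ₂) :
    f (up e P (Pi.single (a, b) 1)) (up e P (Pi.single (a', b') 1)) = G₁ a a' * G₂ b b' := by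
  rw [T.form, single_dot_single, Matrix.kroneckerMap_apply]

lemma TD.sym₂ (T : TD f H e P G₁ G₂) (h2 : (2 : F) = 0) (hf : IsSymplecticForm f) : G₂ᵀ = G₂ := by
  refine sym_of_kron h2 T.ne₁ T.ne₂ fun a a' b b' => ?_
  rw [← T.entry, ← T.entry, hf.skew]
  have : ∀ x : F, -x = x := by
    intro x
    have : x + x = 0 := by rw [← two_mul, h2, zero_mul]
    exact neg_eq_of_add_eq_zero_left this
  rw [this]

lemma tens_mulVec_up (A : Matrix κ₁ κ₁ F) (B : Matrix κ₂ κ₂ F) (y : κ₁ → F) (z : κ₂ → F) :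
    tens e P A B *ᵥ up e P (pt y z) = up e P (pt (A *ᵥ y) (B *ᵥ z)) := by
  unfold tens
  rw [conj_mulVec_up, kron_mulVec_pt]

lemma TD.diag₂ [Finite F] (T : TD f H e P G₁ G₂) (h2 : (2 : F) = 0) (hH : FixesForm (matrixSet H) f)
    (hirr : ActsIrreducibly (matrixSet H)) (hs : 2 ≤ Fintype.card κ₂) (hG₂ : G₂ᵀ = G₂) :
    ∀ b, G₂ b b = 0 := by
  by_contra hcon
  push Not at hcon
  obtain ⟨b1, hb1⟩ := hcon
  obtain ⟨a0, a0', hg⟩ := exists_ne_zero T.ne₁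
  have hpres : ∀ h ∈ H, ∀ (A : GL κ₁ F) (B : GL κ₂ F),
      (h : Matrix ι ι F) = tens e P (A : Matrix κ₁ κ₁ F) (B : Matrix κ₂ κ₂ F) →
      ∀ z ∈ qk G₂ hG₂ h2, (B : Matrix κ₂ κ₂ F) *ᵥ z ∈ qk G₂ hG₂ h2 := by
    intro h hh A B hAB z hz
    have key := hH h ⟨h, hh, rfl⟩
      (up e P (pt (((A⁻¹ : GL κ₁ F) : Matrix κ₁ κ₁ F) *ᵥ Pi.single a0 1) z))
      (up e P (pt (((A⁻¹ : GL κ₁ F) : Matrix κ₁ κ₁ F) *ᵥ Pi.single a0' 1) z))
    have hA : ∀ w : κ₁ → F, (A : Matrix κ₁ κ₁ F) *ᵥ (((A⁻¹ : GL κ₁ F) : Matrix κ₁ κ₁ F) *ᵥ w) = w := by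
      intro w
      rw [Matrix.mulVec_mulVec, iv, Matrix.one_mulVec]
    rw [hAB, tens_mulVec_up, tens_mulVec_up, T.form, T.form, form_pt, form_pt, hA, hA, single_dot_single,
      mem_qk.1 hz, mul_zero] at key
    exact mem_qk.2 ((mul_eq_zero.1 key).resolve_left hg)
  obtain ⟨U, hUdef⟩ : ∃ U : Submodule F (ι → F),
      U = Submodule.span F {v | ∃ y z, z ∈ qk G₂ hG₂ h2 ∧ v = up e P (pt y z)} := ⟨_, rfl⟩
  have hinv : ∀ s ∈ matrixSet H, U.map (Matrix.toLin' s) ≤ U := by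
    rintro _ ⟨h, hh, rfl⟩
    rw [hUdef, Submodule.map_span_le]
    rintro _ ⟨y, z, hz, rfl⟩
    obtain ⟨A, B, hAB⟩ := T.act h hh
    apply Submodule.subset_span
    refine ⟨(A : Matrix κ₁ κ₁ F) *ᵥ y, (B : Matrix κ₂ κ₂ F) *ᵥ z, hpres h hh A B hAB z hz, ?_⟩
    rw [Matrix.toLin'_apply]
    show (h : Matrix ι ι F) *ᵥ _ = _
    rw [hAB, tens_mulVec_up]
  rcases hirr U hinv with hU | hU
  · obtain ⟨z, hz, hz0⟩ := exists_mem_qk (G := G₂) (hG := hG₂) (h2 := h2) hs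
    have hmem : up e P (pt (Pi.single a0 1) z) ∈ U := by
      rw [hUdef]
      exact Submodule.subset_span ⟨_, _, hz, rfl⟩
    rw [hU, Submodule.mem_bot] at hmem
    have h3 := congrArg (co e P) hmem
    rw [co_up, map_zero] at h3
    apply hz0
    funext b
    have := congrFun h3 (a0, b)
    simpa [pt] using this
  · obtain ⟨U', hU'⟩ : ∃ U' : Submodule F (ι → F), U' = ⨅ a : κ₁, (qk G₂ hG₂ h2).comap
        ((LinearMap.funLeft F F (fun b : κ₂ => (a, b))) ∘ₗ co e P) := ⟨_, rfl⟩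
    have hUU' : U ≤ U' := by
      rw [hUdef, Submodule.span_le]
      rintro _ ⟨y, z, hz, rfl⟩
      rw [hU']
      simp only [SetLike.mem_coe, Submodule.mem_iInf, Submodule.mem_comap, LinearMap.comp_apply, co_up]
      intro a
      have : LinearMap.funLeft F F (fun b : κ₂ => (a, b)) (pt y z) = y a • z := by
        funext b; simp [pt, LinearMap.funLeft_apply]
      rw [this]
      exact Submodule.smul_mem _ _ hz
    have hmem : up e P (Pi.single (a0, b1) 1) ∈ U' := hUU' (by rw [hU]; trivial)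
    rw [hU'] at hmem
    simp only [Submodule.mem_iInf, Submodule.mem_comap, LinearMap.comp_apply, co_up] at hmem
    have h4 := hmem a0
    have : LinearMap.funLeft F F (fun b : κ₂ => (a0, b)) (Pi.single (a0, b1) 1) = Pi.single b1 1 := by
      rw [single_eq_pt]
      funext b; simp [pt, LinearMap.funLeft_apply]
    rw [this, mem_qk, single_dot_single] at h4
    exact hb1 h4

end pure

/-- [tenseven] characteristic 2: a tensor decomposition of the form gives an invariant quadratic form. -/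
theorem sp_tensor_even [Finite F] {f : (ι → F) → (ι → F) → F} {H : Subgroup (GL ι F)}
    (h2 : (2 : F) = 0) (hf : IsSymplecticForm f) (hH : FixesForm (matrixSet H) f)
    (hirr : ActsIrreducibly (matrixSet H)) {d s : ℕ} (hd : 2 ≤ d) (hs : 2 ≤ s)
    (e : ι ≃ Fin d × Fin s) (P : GL ι F) (hle : H ≤ tensorProductSubgroup d s e P)
    (G₁ : Matrix (Fin d) (Fin d) F) (G₂ : Matrix (Fin s) (Fin s) F) (h₁ : IsUnit G₁.det) (h₂ : IsUnit G₂.det)
    (hG : ∀ x y : Fin d × Fin s → F, f ((P : Matrix ι ι F) *ᵥ (x ∘ e)) ((P : Matrix ι ι F) *ᵥ (y ∘ e)) =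
        formOfGram id (G₁ ⊗ₖ G₂) x y) : AltQuad f H := by
  haveI : Nonempty (Fin d) := ⟨⟨0, by omega⟩⟩
  haveI : Nonempty (Fin s) := ⟨⟨0, by omega⟩⟩
  have T : TD f H e P G₁ G₂ :=
    { act := fun h hh => (mem_tensorProductSubgroup_iff e P h).1 (hle hh)
      form := fun x y => by rw [← formOfGram_eq]; exact hG x y
      ne₁ := by
        rintro rfl
        rw [Matrix.det_zero] at h₁
        exact not_isUnit_zero h₁
      ne₂ := by
        rintro rfl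
        rw [Matrix.det_zero] at h₂
        exact not_isUnit_zero h₂ }
  have hs₂ := T.sym₂ h2 hf
  have hs₁ := T.swap.sym₂ h2 hf
  have hd₂ := T.diag₂ h2 hH hirr (by simpa using hs) hs₂
  have hd₁ := T.swap.diag₂ h2 hH hirr (by simpa using hd) hs₁
  obtain ⟨Tm, hTmdef⟩ : ∃ Tm : Matrix (Fin d) (Fin d) F, Tm = fun a a' => if a < a' then G₁ a a' else 0 :=
    ⟨_, rfl⟩
  have hTm : Tm + Tmᵀ = G₁ := by
    ext a a'
    rw [Matrix.add_apply, Matrix.transpose_apply, hTmdef]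
    rcases lt_trichotomy a a' with h | h | h
    · simp [h, not_lt.2 h.le]
    · subst h; simp [hd₁]
    · simp only [h, not_lt.2 h.le, if_true, if_false, zero_add]
      conv_rhs => rw [← hs₁]
      rfl
  obtain ⟨Q, hQdef⟩ : ∃ Q : (ι → F) → F, Q = fun v => co e P v ⬝ᵥ (Tm ⊗ₖ G₂) *ᵥ co e P v := ⟨_, rfl⟩
  have hpolar : ∀ u v, QuadraticMap.polar Q u v = f u v := by
    intro u v
    have : QuadraticMap.polar Q u v =
        QuadraticMap.polar (fun x : Fin d × Fin s → F => x ⬝ᵥ (Tm ⊗ₖ G₂) *ᵥ x) (co e P u) (co e P v) := by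
      simp only [QuadraticMap.polar, hQdef, map_add]
    rw [this, polar_qf, ← Matrix.kroneckerMap_transpose, hs₂, ← Matrix.add_kronecker, hTm, ← T.form, up_co, up_co]
  have hpf : QuadraticMap.polar Q = f := by
    funext u v; exact hpolar u v
  have hQ : IsNondegenerateQuadraticForm Q :=
    { smul := by
        intro c v
        rw [hQdef]
        simp only [map_smul]
        exact qf_smul _ _ _
      polar_bilinear := by rw [hpf]; exact hf.bilinear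
      nondegenerate := by rw [hpf]; exact hf.nondegenerate }
  refine ⟨Q, hQ, hpolar, ?_⟩
  intro h hh
  refine ⟨1, fun v => ?_⟩
  rw [Units.val_one, one_mul]
  refine Cfsg.Agent.Lib.Helper63SpQuadspan.quad_fixed_of_span hQ
    (S := {v | ∃ y z, v = up e P (pt y z)}) ?_ ?_ (h : Matrix ι ι F) ?_ ?_ v
  · have : {v | ∃ y z, v = up e P (pt y z)} = (up e P) '' {x : Fin d × Fin s → F | ∃ y z, x = pt y z} := by
      ext v
      constructor
      · rintro ⟨y, z, rfl⟩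
        exact ⟨_, ⟨y, z, rfl⟩, rfl⟩
      · rintro ⟨_, ⟨y, z, rfl⟩, rfl⟩
        exact ⟨y, z, rfl⟩
    rw [this, ← Submodule.map_span, span_pt, Submodule.map_top, LinearMap.range_eq_top]
    intro v
    exact ⟨_, up_co e P v⟩
  · rintro _ ⟨y, z, rfl⟩
    rw [hQdef]
    simp only [co_up]
    rw [form_pt]
    have : z ∈ qk G₂ hs₂ h2 := by rw [qk_eq_top hd₂]; trivial
    rw [mem_qk.1 this, mul_zero]
  · intro u v
    rw [hpolar, hpolar]
    exact hH h ⟨h, hh, rfl⟩ u v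
  · rintro _ ⟨y, z, rfl⟩
    obtain ⟨A, B, hAB⟩ := T.act h hh
    exact ⟨_, _, by rw [hAB, tens_mulVec_up]⟩

end Cfsg.Agent.Lib.Helper63SpTenseven
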