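import Cfsg.Agent.Lib.Helper57SpWrGram
import Cfsg.Agent.Lib.Helper63SpQuadspan
import Cfsg.Agent.Lib.Helper63SpTenseven
import Cfsg.Agent.Lib.Helper12AschNotSLWreath

set_option autoImplicit false

/-! ASCH-SP, piece `wreven`. -/

namespace Cfsg.Agent.Lib.Helper57SpWreven

open Cfsg Cfsg.Geo Matrix
open Cfsg.Agent.Lib.Helper97GBase Cfsg.Agent.Lib.Helper97GForms
  Cfsg.Agent.Lib.Helper98AschGDefs Cfsg.Agent.Lib.Helper98AschGBasic Cfsg.Agent.Lib.Helper96SpDefs
  Cfsg.Agent.Lib.Helper58GWnorm Cfsg.Agent.Lib.Helper57SpWrBase Cfsg.Agent.Lib.Helper57SpWrform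
  Cfsg.Agent.Lib.Helper57SpWrGram
open Cfsg.Agent.Lib.Helper12AschNotSLWreath (Pure pure_iff_of_mem)
open scoped MatrixGroups

variable {F : Type*} [Field F] {k m : ℕ}

/-- pure vectors -/
def pv (x : Fin k → Fin m → F) : (Fin k → Fin m) → F := fun a => ∏ i, x i (a i)

lemma pt_mulVec_pv (A : Fin k → Matrix (Fin m) (Fin m) F) (x : Fin k → Fin m → F) :
    pt A *ᵥ pv x = pv (fun i => A i *ᵥ x i) := by
  funext a
  simp only [Matrix.mulVec, dotProduct, pt_apply, pv]
  rw [Finset.prod_univ_sum, Fintype.piFinset_univ]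
  exact Finset.sum_congr rfl fun p _ => (Finset.prod_mul_distrib).symm

lemma pv_dot_pv (x y : Fin k → Fin m → F) : pv x ⬝ᵥ pv y = ∏ i, x i ⬝ᵥ y i := by
  simp only [dotProduct, pv]
  rw [Finset.prod_univ_sum, Fintype.piFinset_univ]
  exact Finset.sum_congr rfl fun p _ => (Finset.prod_mul_distrib).symm

lemma pv_form (A : Fin k → Matrix (Fin m) (Fin m) F) (x y : Fin k → Fin m → F) :
    pv x ⬝ᵥ (pt A *ᵥ pv y) = ∏ i, x i ⬝ᵥ (A i *ᵥ y i) := by
  rw [pt_mulVec_pv, pv_dot_pv]

lemma pure_iff {v : (Fin k → Fin m) → F} : Pure v ↔ ∃ x, v = pv x :=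
  ⟨fun ⟨x, hx⟩ => ⟨x, funext hx⟩, fun ⟨x, hx⟩ => ⟨x, fun a => by rw [hx]; rfl⟩⟩

lemma pure_single (a : Fin k → Fin m) : Pure (Pi.single a (1 : F)) := by
  classical
  refine ⟨fun i => Pi.single (a i) 1, fun b => ?_⟩
  simp only [Pi.single_apply]
  rw [Finset.prod_boole]
  simp [funext_iff]

lemma span_pure : Submodule.span F {v : (Fin k → Fin m) → F | Pure v} = ⊤ := by
  classical
  rw [eq_top_iff, ← (Pi.basisFun F (Fin k → Fin m)).span_eq]
  apply Submodule.span_mono
  rintro _ ⟨a, rfl⟩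
  rw [Pi.basisFun_apply]
  exact pure_single a

variable {ι : Type} [Fintype ι] [DecidableEq ι] {f : (ι → F) → (ι → F) → F} {H : Subgroup (GL ι F)}

/-- coordinates as a linear map -/
def coL {κ : Type} (e : ι ≃ κ) (P : GL ι F) : (κ → F) →ₗ[F] (ι → F) where
  toFun := co e P
  map_add' := by
    intro x y
    unfold co
    rw [← Matrix.mulVec_add]
    rfl
  map_smul' := by
    intro c x
    unfold co
    rw [RingHom.id_apply, ← Matrix.mulVec_smul]
    rfl

/-- [wreven] characteristic 2: invariant quadratic form vanishing on the pure tensors. -/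
theorem sp_wreath_even [Finite F] (h2 : (2 : F) = 0) (hf : IsSymplecticForm f) (hH : FixesForm (matrixSet H) f)
    (hirr : ActsIrreducibly (matrixSet H))
    {k m : ℕ} (hm : 2 ≤ m) (hk : 2 ≤ k) (e : ι ≃ (Fin k → Fin m)) (P : GL ι F)
    (hle : H ≤ tensorWreathSubgroup m k e P)
    (htrans : ∀ i j : Fin k, ∃ h ∈ H, ∀ a : Matrix (Fin m) (Fin m) F, ∃ b : Matrix (Fin m) (Fin m) F,
      (h : Matrix ι ι F) * fac e P i a * ((h⁻¹ : GL ι F) : Matrix ι ι F) = fac e P j b)
    (G : Fin k → Matrix (Fin m) (Fin m) F) (hGu : ∀ i, IsUnit (G i).det)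
    (hG : ∀ x y : (Fin k → Fin m) → F, f ((P : Matrix ι ι F) *ᵥ (x ∘ e)) ((P : Matrix ι ι F) *ᵥ (y ∘ e)) =
        ∑ a, ∑ b, x a * (∏ i, G i (a i) (b i)) * y b) : AltQuad f H := by
  classical
  have hm0 : 0 < m := by omega
  let i0 : Fin k := ⟨0, by omega⟩
  let i1 : Fin k := ⟨1, by omega⟩
  have h01 : i1 ≠ i0 := by
    intro h
    have := congrArg Fin.val h
    simp [i0, i1] at this
  have hform := form_eq hG
  -- one factor is alternating
  have hone : ∃ j, ∀ x : Fin m → F, x ⬝ᵥ (G j *ᵥ x) = 0 := by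
    by_contra hcon
    push Not at hcon
    choose x hx using hcon
    have h1 := hf.alternating (co e P (pv x))
    rw [hform, pv_form] at h1
    exact (Finset.prod_ne_zero_iff.mpr fun i _ => hx i) h1
  obtain ⟨j, hj⟩ := hone
  -- all factors are alternating
  have hall : ∀ i, ∀ x : Fin m → F, x ⬝ᵥ (G i *ᵥ x) = 0 := by
    intro i x
    obtain ⟨g, c, hc0, hc⟩ := gram_similar hm0 hH e P htrans G hGu hG i j
    have h1 := hj ((g : Matrix (Fin m) (Fin m) F) *ᵥ x)
    rw [dot_conj, hc, Matrix.smul_mulVec, dotProduct_smul, smul_eq_mul] at h1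
    exact (mul_eq_zero.mp h1).resolve_left hc0
  have hdiag : ∀ s, G i0 s s = 0 := by
    intro s
    have := hall i0 (Pi.single s 1)
    simpa using this
  set B := pt G with hB
  have hBsymm : ∀ a b, B a b = B b a := by
    intro a b
    have h1 := hf.skew (co e P (Pi.single a 1)) (co e P (Pi.single b 1))
    rw [hform, hform] at h1
    simp only [Matrix.mulVec_single_one, single_one_dotProduct, Matrix.col_apply] at h1
    rw [h1]
    have : B b a + B b a = 0 := by rw [← two_mul, h2, zero_mul]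
    linear_combination -this
  obtain ⟨up, hup⟩ : ∃ up : Matrix (Fin m) (Fin m) F, up = fun s t => if s < t then G i0 s t else 0 :=
    ⟨_, rfl⟩
  set U := pt (Function.update G i0 up) with hU
  have hUapp : ∀ a b, U a b = if a i0 < b i0 then B a b else 0 := by
    intro a b
    have h1 : U a b = up (a i0) (b i0) * ∏ l ∈ Finset.univ.erase i0, G l (a l) (b l) := by
      rw [hU, pt_apply, ← Finset.mul_prod_erase Finset.univ _ (Finset.mem_univ i0), Function.update_self]
      congr 1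
      apply Finset.prod_congr rfl
      intro l hl
      rw [Function.update_of_ne (Finset.ne_of_mem_erase hl)]
    have h2' : B a b = G i0 (a i0) (b i0) * ∏ l ∈ Finset.univ.erase i0, G l (a l) (b l) := by
      rw [hB, pt_apply, ← Finset.mul_prod_erase Finset.univ _ (Finset.mem_univ i0)]
    rw [h1, h2', hup]
    by_cases h : a i0 < b i0
    · simp only [h, if_true]
    · simp only [h, if_false, zero_mul]
  have hUU : U + Uᵀ = B := by
    ext a b
    rw [Matrix.add_apply, Matrix.transpose_apply, hUapp, hUapp]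
    rcases lt_trichotomy (a i0) (b i0) with h | h | h
    · simp [h, not_lt.2 h.le]
    · simp only [h, lt_irrefl, if_false, add_zero]
      rw [hB, pt_apply]
      symm
      apply Finset.prod_eq_zero (Finset.mem_univ i0)
      rw [h, hdiag]
    · simp only [h, not_lt.2 h.le, if_true, if_false, zero_add]
      exact hBsymm b a
  obtain ⟨Q, hQdef⟩ : ∃ Q : (ι → F) → F, Q = fun v => oc e P v ⬝ᵥ (U *ᵥ oc e P v) := ⟨_, rfl⟩
  have hpolar : ∀ u v, QuadraticMap.polar Q u v = f u v := by
    intro u v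
    have : QuadraticMap.polar Q u v =
        QuadraticMap.polar (fun x : (Fin k → Fin m) → F => x ⬝ᵥ U *ᵥ x) (oc e P u) (oc e P v) := by
      simp only [QuadraticMap.polar, hQdef, oc_add]
    rw [this, Cfsg.Agent.Lib.Helper63SpTenseven.polar_qf, hUU, ← hform, co_oc, co_oc]
  have hpf : QuadraticMap.polar Q = f := by
    funext u v; exact hpolar u v
  have hQ : IsNondegenerateQuadraticForm Q :=
    { smul := by
        intro c v
        rw [hQdef]
        simp only [oc_smul]
        exact Cfsg.Agent.Lib.Helper63SpTenseven.qf_smul _ _ _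
      polar_bilinear := by rw [hpf]; exact hf.bilinear
      nondegenerate := by rw [hpf]; exact hf.nondegenerate }
  refine ⟨Q, hQ, hpolar, ?_⟩
  intro h hh
  refine ⟨1, fun v => ?_⟩
  rw [Units.val_one, one_mul]
  refine Cfsg.Agent.Lib.Helper63SpQuadspan.quad_fixed_of_span hQ
    (S := (coL e P) '' {w : (Fin k → Fin m) → F | Pure w}) ?_ ?_ (h : Matrix ι ι F) ?_ ?_ v
  · rw [← Submodule.map_span, span_pure, Submodule.map_top, LinearMap.range_eq_top]
    intro v
    exact ⟨oc e P v, co_oc e P v⟩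
  · rintro _ ⟨w, hw, rfl⟩
    obtain ⟨x, rfl⟩ := pure_iff.mp hw
    rw [hQdef]
    show oc e P (co e P (pv x)) ⬝ᵥ (U *ᵥ oc e P (co e P (pv x))) = 0
    rw [oc_co, hU, pv_form]
    apply Finset.prod_eq_zero (Finset.mem_univ i1)
    rw [Function.update_of_ne h01]
    exact hall i1 _
  · intro u v
    rw [hpolar, hpolar]
    exact hH h ⟨h, hh, rfl⟩ u v
  · rintro _ ⟨w, hw, rfl⟩
    refine ⟨(cm e P h : Matrix (Fin k → Fin m) (Fin k → Fin m) F) *ᵥ w, ?_, ?_⟩
    · exact (pure_iff_of_mem ((mem_tensorWreathSubgroup_iff e P h).mp (hle hh)) w).mp hw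
    · exact (val_mulVec_co e P h w).symm

end Cfsg.Agent.Lib.Helper57SpWreven
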