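import Cfsg.Agent.Lib.Helper57SpWrBase

set_option autoImplicit false

/-! ASCH-SP, piece `wrform`. -/

namespace Cfsg.Agent.Lib.Helper57SpWrform

open Cfsg Cfsg.Geo Matrix
open Cfsg.Agent.Lib.Helper97GBase Cfsg.Agent.Lib.Helper97GForms
  Cfsg.Agent.Lib.Helper98AschGDefs Cfsg.Agent.Lib.Helper98AschGBasic Cfsg.Agent.Lib.Helper96SpDefs
  Cfsg.Agent.Lib.Helper58GWnorm Cfsg.Agent.Lib.Helper57SpWrBase
open scoped MatrixGroups

variable {F : Type*} [Field F] {k m : ℕ}

/-- an invertible matrix carrying the `i`-th factor algebra into the `j`-th one induces an inner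
automorphism of the matrix algebra. -/
theorem exists_conj (g : GL (Fin k → Fin m) F) (i j : Fin k)
    (hg : ∀ a : Matrix (Fin m) (Fin m) F, ∃ b : Matrix (Fin m) (Fin m) F,
      (g : Matrix (Fin k → Fin m) (Fin k → Fin m) F) * factor i a *
        ((g⁻¹ : GL (Fin k → Fin m) F) : Matrix (Fin k → Fin m) (Fin k → Fin m) F) = factor j b) :
    ∃ u : GL (Fin m) F, ∀ a : Matrix (Fin m) (Fin m) F,
      (g : Matrix (Fin k → Fin m) (Fin k → Fin m) F) * factor i a *
        ((g⁻¹ : GL (Fin k → Fin m) F) : Matrix (Fin k → Fin m) (Fin k → Fin m) F) =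
      factor j ((u : Matrix (Fin m) (Fin m) F) * a * ((u⁻¹ : GL (Fin m) F) : Matrix (Fin m) (Fin m) F)) := by
  classical
  choose β hβ using hg
  set G : Matrix (Fin k → Fin m) (Fin k → Fin m) F :=
    (g : Matrix (Fin k → Fin m) (Fin k → Fin m) F) with hG
  set G' : Matrix (Fin k → Fin m) (Fin k → Fin m) F :=
    ((g⁻¹ : GL (Fin k → Fin m) F) : Matrix (Fin k → Fin m) (Fin k → Fin m) F) with hG'
  have hGG' : G * G' = 1 := by rw [hG, hG', ← Units.val_mul, mul_inv_cancel, Units.val_one]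
  have hG'G : G' * G = 1 := by rw [hG, hG', ← Units.val_mul, inv_mul_cancel, Units.val_one]
  have hadd : ∀ a b, β (a + b) = β a + β b := by
    intro a b
    apply factor_injective j
    rw [factor_add, ← hβ, ← hβ, ← hβ, factor_add, mul_add, add_mul]
  have hsmul : ∀ (c : F) a, β (c • a) = c • β a := by
    intro c a
    apply factor_injective j
    rw [factor_smul, ← hβ, ← hβ, factor_smul, mul_smul_comm, smul_mul_assoc]
  have hone : β 1 = 1 := by
    apply factor_injective j
    rw [← hβ, factor_one, factor_one, mul_one, hGG']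
  have hmul : ∀ a b, β (a * b) = β a * β b := by
    intro a b
    apply factor_injective j
    rw [factor_mul, ← hβ, ← hβ, ← hβ, factor_mul]
    calc G * (factor i a * factor i b) * G' = G * factor i a * 1 * factor i b * G' := by
          simp only [mul_one, mul_assoc]
      _ = G * factor i a * G' * (G * factor i b * G') := by
          rw [← hG'G]; simp only [mul_assoc]
  have hinj : Function.Injective β := by
    intro a b hab
    apply factor_injective i
    have h1 : G * factor i a * G' = G * factor i b * G' := by rw [hβ, hβ, hab]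
    calc factor i a = G' * (G * factor i a * G') * G := by
          rw [mul_assoc, mul_assoc, hG'G, mul_one, ← mul_assoc, hG'G, one_mul]
      _ = G' * (G * factor i b * G') * G := by rw [h1]
      _ = factor i b := by
          rw [mul_assoc, mul_assoc, hG'G, mul_one, ← mul_assoc, hG'G, one_mul]
  let L : Matrix (Fin m) (Fin m) F →ₗ[F] Matrix (Fin m) (Fin m) F :=
    { toFun := β, map_add' := hadd, map_smul' := hsmul }
  have hsurj : Function.Surjective β :=
    LinearMap.injective_iff_surjective.mp (show Function.Injective L from hinj)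
  let α : Matrix (Fin m) (Fin m) F ≃ₐ[F] Matrix (Fin m) (Fin m) F :=
    AlgEquiv.ofBijective (AlgHom.ofLinearMap L hone hmul) ⟨hinj, hsurj⟩
  have hα : ∀ a, α a = β a := fun a => rfl
  obtain ⟨u, hu⟩ := skolem_noether α
  exact ⟨u, fun a => by rw [hβ, ← hu, hα]⟩

/-- an invertible matrix normalising every factor algebra is a pure tensor. -/
theorem pure_of_normalizes (hk : 0 < k) (g : GL (Fin k → Fin m) F)
    (hg : ∀ (i : Fin k) (a : Matrix (Fin m) (Fin m) F), ∃ b : Matrix (Fin m) (Fin m) F,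
      (g : Matrix (Fin k → Fin m) (Fin k → Fin m) F) * factor i a *
        ((g⁻¹ : GL (Fin k → Fin m) F) : Matrix (Fin k → Fin m) (Fin k → Fin m) F) = factor i b) :
    ∃ u : Fin k → GL (Fin m) F,
      (g : Matrix (Fin k → Fin m) (Fin k → Fin m) F) = pt (fun i => (u i : Matrix (Fin m) (Fin m) F)) := by
  classical
  rcases Nat.eq_zero_or_pos m with rfl | hm
  · refine ⟨fun _ => 1, ?_⟩
    ext x
    exact (x ⟨0, hk⟩).elim0
  choose u hu using fun i => exists_conj g i i (hg i)
  set G : Matrix (Fin k → Fin m) (Fin k → Fin m) F :=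
    (g : Matrix (Fin k → Fin m) (Fin k → Fin m) F) with hG
  set G' : Matrix (Fin k → Fin m) (Fin k → Fin m) F :=
    ((g⁻¹ : GL (Fin k → Fin m) F) : Matrix (Fin k → Fin m) (Fin k → Fin m) F) with hG'
  have hGG' : G * G' = 1 := by rw [hG, hG', ← Units.val_mul, mul_inv_cancel, Units.val_one]
  have hG'G : G' * G = 1 := by rw [hG, hG', ← Units.val_mul, inv_mul_cancel, Units.val_one]
  set Q : GL (Fin k → Fin m) F := ptGL u with hQ
  set Qm : Matrix (Fin k → Fin m) (Fin k → Fin m) F :=
    (Q : Matrix (Fin k → Fin m) (Fin k → Fin m) F) with hQm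
  set Q' : Matrix (Fin k → Fin m) (Fin k → Fin m) F :=
    ((Q⁻¹ : GL (Fin k → Fin m) F) : Matrix (Fin k → Fin m) (Fin k → Fin m) F) with hQ'
  have hQQ' : Qm * Q' = 1 := by rw [hQm, hQ', ← Units.val_mul, mul_inv_cancel, Units.val_one]
  have hQ'Q : Q' * Qm = 1 := by rw [hQm, hQ', ← Units.val_mul, inv_mul_cancel, Units.val_one]
  have hQf : ∀ i a, Qm * factor i a = factor i ((u i : Matrix (Fin m) (Fin m) F) * a *
      (((u i)⁻¹ : GL (Fin m) F) : Matrix (Fin m) (Fin m) F)) * Qm := by
    intro i a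
    exact pt_factor u i a
  have hGf : ∀ i a, G * factor i a = factor i ((u i : Matrix (Fin m) (Fin m) F) * a *
      (((u i)⁻¹ : GL (Fin m) F) : Matrix (Fin m) (Fin m) F)) * G := by
    intro i a
    rw [← hu, mul_assoc, mul_assoc, hG'G, mul_one]
  have hQ'f : ∀ i a, Q' * factor i ((u i : Matrix (Fin m) (Fin m) F) * a *
      (((u i)⁻¹ : GL (Fin m) F) : Matrix (Fin m) (Fin m) F)) = factor i a * Q' := by
    intro i a
    calc Q' * factor i ((u i : Matrix (Fin m) (Fin m) F) * a *
          (((u i)⁻¹ : GL (Fin m) F) : Matrix (Fin m) (Fin m) F))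
        = Q' * (factor i ((u i : Matrix (Fin m) (Fin m) F) * a *
          (((u i)⁻¹ : GL (Fin m) F) : Matrix (Fin m) (Fin m) F)) * Qm) * Q' := by
          rw [mul_assoc Q', mul_assoc (factor i _), hQQ', mul_one]
      _ = Q' * (Qm * factor i a) * Q' := by rw [hQf]
      _ = factor i a * Q' := by rw [← mul_assoc, hQ'Q, one_mul]
  have hzc : ∀ i (a : Matrix (Fin m) (Fin m) F), (Q' * G) * factor i a = factor i a * (Q' * G) := by
    intro i a
    rw [mul_assoc, hGf, ← mul_assoc, hQ'f, mul_assoc]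
  obtain ⟨c, hc⟩ := scalar_of_commute _ hzc
  have hGc : G = c • Qm := by
    calc G = Qm * (Q' * G) := by rw [← mul_assoc, hQQ', one_mul]
      _ = c • Qm := by rw [hc, mul_smul_comm, mul_one]
  have hc0 : c ≠ 0 := by
    rintro rfl
    rw [zero_smul] at hGc
    rw [hGc, zero_mul] at hGG'
    have h2 := congrFun (congrFun hGG' (fun _ => ⟨0, hm⟩)) (fun _ => ⟨0, hm⟩)
    simp at h2
  let C : GL (Fin m) F :=
    Units.map (algebraMap F (Matrix (Fin m) (Fin m) F)).toMonoidHom (Units.mk0 c hc0)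
  have hC : (C : Matrix (Fin m) (Fin m) F) = c • 1 := by
    show algebraMap F (Matrix (Fin m) (Fin m) F) c = c • 1
    rw [Algebra.algebraMap_eq_smul_one]
  refine ⟨fun i => if i = ⟨0, hk⟩ then C * u i else u i, ?_⟩
  have h1 : c • Qm = factor ⟨0, hk⟩ (c • 1) * Qm := by
    rw [factor_smul, factor_one, smul_mul_assoc, one_mul]
  rw [hGc, h1, factor_eq_pt]
  have h2 : Qm = pt (fun l => (u l : Matrix (Fin m) (Fin m) F)) := rfl
  rw [h2, pt_mul]
  congr 1
  funext l
  by_cases h : l = ⟨0, hk⟩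
  · subst h
    simp [hC]
  · simp [h]

lemma factor_transpose (i : Fin k) (a : Matrix (Fin m) (Fin m) F) :
    (factor i a)ᵀ = factor i aᵀ := by
  ext x y
  simp only [Matrix.transpose_apply, factor]
  have : (∀ j, j ≠ i → y j = x j) ↔ (∀ j, j ≠ i → x j = y j) :=
    ⟨fun h j hj => (h j hj).symm, fun h j hj => (h j hj).symm⟩
  simp only [this]

variable {ι : Type} [Fintype ι] [DecidableEq ι] {f : (ι → F) → (ι → F) → F}

lemma fac_eq (e : ι ≃ (Fin k → Fin m)) (P : GL ι F) (i : Fin k) (a : Matrix (Fin m) (Fin m) F) :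
    fac e P i a = trm e P (factor i a) := rfl

/-- adjoints in coordinates -/
lemma isAdj_trm_iff (hf : IsBilinearForm f) {κ : Type} [Fintype κ] [DecidableEq κ] (e : ι ≃ κ) (P : GL ι F)
    (M M' : Matrix κ κ F) :
    IsAdj f (trm e P M) (trm e P M') ↔ Mᵀ * gram (pb e P f) = gram (pb e P f) * M' := by
  constructor
  · intro h
    apply matrix_ext_form
    intro x y
    have h1 := h (co e P x) (co e P y)
    rw [trm_mulVec_co, trm_mulVec_co, pb_eq e P hf, pb_eq e P hf] at h1
    rw [← Matrix.mulVec_mulVec, ← Matrix.mulVec_mulVec, ← h1, Matrix.dotProduct_mulVec,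
      Matrix.vecMul_transpose]
  · intro h u v
    rw [← co_oc e P u, ← co_oc e P v, trm_mulVec_co, trm_mulVec_co, pb_eq e P hf, pb_eq e P hf,
      Matrix.mulVec_mulVec, ← h, ← Matrix.mulVec_mulVec, Matrix.dotProduct_mulVec _ Mᵀ,
      Matrix.vecMul_transpose]

/-- [wrform] if every tensor factor algebra is closed under adjoints, the form is a tensor product of `k` forms. -/
theorem wr_form (hf : IsBilinearForm f) (hnd : IsNondegenerateForm f) {k m : ℕ} (hk : 0 < k)
    (e : ι ≃ (Fin k → Fin m)) (P : GL ι F)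
    (hadj : ∀ (i : Fin k) (a : Matrix (Fin m) (Fin m) F), ∃ a' : Matrix (Fin m) (Fin m) F,
      IsAdj f (fac e P i a) (fac e P i a')) :
    ∃ G : Fin k → Matrix (Fin m) (Fin m) F, (∀ i, IsUnit (G i).det) ∧
      ∀ x y : (Fin k → Fin m) → F, f ((P : Matrix ι ι F) *ᵥ (x ∘ e)) ((P : Matrix ι ι F) *ᵥ (y ∘ e)) =
        ∑ a, ∑ b, x a * (∏ i, G i (a i) (b i)) * y b := by
  classical
  set B := gram (pb e P f) with hB
  have hBu : IsUnit B.det :=
    (sesq_of_bilinear (pb_bilinear e P hf)).isUnit_det_gram (fun v hv => (pb_nondeg e P hnd v hv).1)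
  have hBu' : IsUnit B := (Matrix.isUnit_iff_isUnit_det B).mpr hBu
  obtain ⟨b, hb⟩ := hBu'
  have hnorm : ∀ (i : Fin k) (a : Matrix (Fin m) (Fin m) F), ∃ a' : Matrix (Fin m) (Fin m) F,
      ((b⁻¹ : GL (Fin k → Fin m) F) : Matrix (Fin k → Fin m) (Fin k → Fin m) F) * factor i a *
        (((b⁻¹)⁻¹ : GL (Fin k → Fin m) F) : Matrix (Fin k → Fin m) (Fin k → Fin m) F) = factor i a' := by
    intro i a
    obtain ⟨a', ha'⟩ := hadj i aᵀ
    rw [fac_eq, fac_eq, isAdj_trm_iff hf, factor_transpose, Matrix.transpose_transpose, ← hB, ← hb] at ha'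
    refine ⟨a', ?_⟩
    rw [inv_inv, mul_assoc, ha', ← mul_assoc, vi, one_mul]
  obtain ⟨u, hu⟩ := pure_of_normalizes hk b⁻¹ hnorm
  refine ⟨fun i => (((u i)⁻¹ : GL (Fin m) F) : Matrix (Fin m) (Fin m) F), fun i => ?_, fun x y => ?_⟩
  · exact (Matrix.isUnit_iff_isUnit_det _).mp ((u i)⁻¹).isUnit
  · have hBpt : B = pt (fun i => (((u i)⁻¹ : GL (Fin m) F) : Matrix (Fin m) (Fin m) F)) := by
      have h1 : ((b⁻¹ : GL (Fin k → Fin m) F) : Matrix (Fin k → Fin m) (Fin k → Fin m) F) *
          pt (fun i => (((u i)⁻¹ : GL (Fin m) F) : Matrix (Fin m) (Fin m) F)) = 1 := by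
        rw [hu, pt_mul]
        simp [pt_one]
      calc B = (b : Matrix (Fin k → Fin m) (Fin k → Fin m) F) *
            (((b⁻¹ : GL (Fin k → Fin m) F) : Matrix (Fin k → Fin m) (Fin k → Fin m) F) *
              pt (fun i => (((u i)⁻¹ : GL (Fin m) F) : Matrix (Fin m) (Fin m) F))) := by
            rw [h1, mul_one, hb]
        _ = _ := by rw [← mul_assoc, iv, one_mul]
    have h2 := pb_eq e P hf x y
    unfold co at h2
    rw [h2, ← hB, hBpt]
    simp only [dotProduct, Matrix.mulVec, pt_apply, Finset.mul_sum, mul_assoc]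

end Cfsg.Agent.Lib.Helper57SpWrform
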