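import Cfsg.Agent.Lib.Helper57SpWrGram
import Cfsg.Agent.Lib.Helper57AschD

set_option autoImplicit false

/-! ASCH-SP, piece `wrodd`. -/

namespace Cfsg.Agent.Lib.Helper57SpWrodd

open Cfsg Cfsg.Geo Matrix
open Cfsg.Agent.Lib.Helper97GBase Cfsg.Agent.Lib.Helper97GForms
  Cfsg.Agent.Lib.Helper98AschGDefs Cfsg.Agent.Lib.Helper98AschGBasic Cfsg.Agent.Lib.Helper96SpDefs
  Cfsg.Agent.Lib.Helper58GWnorm Cfsg.Agent.Lib.Helper57SpWrBase Cfsg.Agent.Lib.Helper57SpWrform
  Cfsg.Agent.Lib.Helper57SpWrGram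
open scoped MatrixGroups

variable {F : Type*} [Field F] {k m : ℕ}

lemma pt_smul (c : Fin k → F) (A : Fin k → Matrix (Fin m) (Fin m) F) :
    pt (fun i => c i • A i) = (∏ i, c i) • pt A := by
  ext x y
  simp only [pt_apply, Matrix.smul_apply, smul_eq_mul, Finset.prod_mul_distrib]

lemma prod_update (A : Matrix (Fin m) (Fin m) F) (i0 : Fin k) (s t s' t' : Fin m) :
    ∏ i, A (Function.update (fun _ => s) i0 s' i) (Function.update (fun _ => t) i0 t' i) =
      A s' t' * A s t ^ (k - 1) := by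
  classical
  rw [← Finset.mul_prod_erase Finset.univ _ (Finset.mem_univ i0), Function.update_self,
    Function.update_self]
  congr 1
  have : ∀ i ∈ Finset.univ.erase i0,
      A (Function.update (fun _ => s) i0 s' i) (Function.update (fun _ => t) i0 t' i) = A s t := by
    intro i hi
    rw [Function.update_of_ne (Finset.ne_of_mem_erase hi), Function.update_of_ne (Finset.ne_of_mem_erase hi)]
  rw [Finset.prod_congr rfl this, Finset.prod_const, Finset.card_erase_of_mem (Finset.mem_univ i0),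
    Finset.card_univ, Fintype.card_fin]

/-- symmetry type of the factor of a skew-symmetric tensor power. -/
theorem skew_of_power (h2 : (2 : F) ≠ 0) (hk : 0 < k) (A : Matrix (Fin m) (Fin m) F) (hA : A ≠ 0)
    (hT : ∀ a b : Fin k → Fin m, ∏ i, A (a i) (b i) = - ∏ i, A (b i) (a i)) :
    Aᵀ = -A ∧ Odd k := by
  classical
  obtain ⟨s, t, hst⟩ : ∃ s t, A s t ≠ 0 := by
    by_contra hcon
    push Not at hcon
    exact hA (by ext s t; exact hcon s t)
  let i0 : Fin k := ⟨0, hk⟩
  set p := A s t with hp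
  set r := A t s with hr
  have h1 : p ^ k = - r ^ k := by
    have := hT (fun _ => s) (fun _ => t)
    simpa using this
  have hr0 : r ≠ 0 := by
    intro h0
    rw [h0, zero_pow hk.ne', neg_zero] at h1
    exact hst (pow_eq_zero_iff hk.ne' |>.mp h1)
  have h3 : ∀ s' t', A s' t' * p ^ (k - 1) = - (A t' s' * r ^ (k - 1)) := by
    intro s' t'
    have := hT (Function.update (fun _ => s) i0 s') (Function.update (fun _ => t) i0 t')
    rwa [prod_update, prod_update] at this
  set ε : F := - (r ^ (k - 1) / p ^ (k - 1)) with hε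
  have hpk : p ^ (k - 1) ≠ 0 := pow_ne_zero _ hst
  have h4 : ∀ s' t', A s' t' = ε * A t' s' := by
    intro s' t'
    have := h3 s' t'
    rw [hε]
    field_simp
    linear_combination this
  have h5 : ε ^ 2 = 1 := by
    have h6 : p = ε * (ε * p) := by
      conv_lhs => rw [hp, h4 s t, h4 t s]
    have h7 : p * (ε ^ 2 - 1) = 0 := by linear_combination -h6
    rcases mul_eq_zero.mp h7 with h | h
    · exact absurd h hst
    · linear_combination h
  have h6 : ε = 1 ∨ ε = -1 := by
    have h7 : (ε - 1) * (ε + 1) = 0 := by linear_combination h5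
    rcases mul_eq_zero.mp h7 with h | h
    · left; linear_combination h
    · right; linear_combination h
  rcases h6 with h6 | h6
  · exfalso
    rw [h6] at h4
    have h7 : p ^ k = - p ^ k := by
      have h8 : r = p := by rw [hr, h4 t s, one_mul]
      rw [h8] at h1
      exact h1
    have h8 : (2 : F) * p ^ k = 0 := by linear_combination h7
    rcases mul_eq_zero.mp h8 with h | h
    · exact h2 h
    · exact hst (pow_eq_zero_iff hk.ne' |>.mp h)
  · rw [h6] at h4
    refine ⟨?_, ?_⟩
    · ext s' t'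
      rw [Matrix.transpose_apply, Matrix.neg_apply, h4 s' t']
      ring
    · by_contra hodd
      rw [Nat.not_odd_iff_even] at hodd
      have h8 : r = - p := by rw [hr, h4 t s]; ring
      rw [h8, hodd.neg_pow] at h1
      have h9 : (2 : F) * p ^ k = 0 := by linear_combination h1
      rcases mul_eq_zero.mp h9 with h | h
      · exact h2 h
      · exact hst (pow_eq_zero_iff hk.ne' |>.mp h)

variable {ι : Type} [Fintype ι] [DecidableEq ι] {f : (ι → F) → (ι → F) → F} {H : Subgroup (GL ι F)}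

lemma glReindex_symm {κ : Type} [Fintype κ] [DecidableEq κ] (e : ι ≃ κ) (X : GL κ F) :
    glReindex e (glReindex e.symm X) = X := by
  apply Units.ext
  ext i j
  simp [glReindex]

lemma co_mul {κ : Type} [Fintype κ] [DecidableEq κ] (e : ι ≃ κ) (P : GL ι F) (X : GL κ F) (x : κ → F) :
    co e (P * glReindex e.symm X) x = co e P ((X : Matrix κ κ F) *ᵥ x) := by
  unfold co
  rw [Units.val_mul, ← Matrix.mulVec_mulVec]
  congr 1
  exact reindex_mulVec e (X : Matrix κ κ F) x

/-- changing the coordinates by a pure tensor does not change the tensor wreath subgroup. -/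
lemma wreath_le_of_pure (e : ι ≃ (Fin k → Fin m)) (P : GL ι F) (u : Fin k → GL (Fin m) F) :
    tensorWreathSubgroup m k e P ≤ tensorWreathSubgroup m k e (P * glReindex e.symm (ptGL u)) := by
  intro g hg
  rw [mem_tensorWreathSubgroup_iff] at hg ⊢
  have h1 : (P * glReindex e.symm (ptGL u))⁻¹ * g * (P * glReindex e.symm (ptGL u)) =
      (glReindex e.symm (ptGL u))⁻¹ * (P⁻¹ * g * P) * glReindex e.symm (ptGL u) := by
    group
  rw [h1, map_mul, map_mul, map_inv, glReindex_symm]
  have hu : ptGL u ∈ tensorWreathStandard m k F :=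
    Subgroup.subset_closure (Or.inl (ptGL_isPureTensor u))
  exact Subgroup.mul_mem _ (Subgroup.mul_mem _ (Subgroup.inv_mem _ hu) hg) hu

/-- [wrodd] odd characteristic: class 7. -/
theorem sp_wreath_odd [Fintype F] (h2 : (2 : F) ≠ 0) (hf : IsSymplecticForm f) (hH : FixesForm (matrixSet H) f)
    {k m : ℕ} (hm : 2 ≤ m) (hk : 2 ≤ k) (e : ι ≃ (Fin k → Fin m)) (P : GL ι F)
    (hle : H ≤ tensorWreathSubgroup m k e P)
    (htrans : ∀ i j : Fin k, ∃ h ∈ H, ∀ a : Matrix (Fin m) (Fin m) F, ∃ b : Matrix (Fin m) (Fin m) F,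
      (h : Matrix ι ι F) * fac e P i a * ((h⁻¹ : GL ι F) : Matrix ι ι F) = fac e P j b)
    (hns : ¬ (Fintype.card F = 3 ∧ m = 2))
    (G : Fin k → Matrix (Fin m) (Fin m) F) (hGu : ∀ i, IsUnit (G i).det)
    (hG : ∀ x y : (Fin k → Fin m) → F, f ((P : Matrix ι ι F) *ᵥ (x ∘ e)) ((P : Matrix ι ι F) *ᵥ (y ∘ e)) =
        ∑ a, ∑ b, x a * (∏ i, G i (a i) (b i)) * y b) : AltWreath f H := by
  classical
  have hm0 : 0 < m := by omega
  have hk0 : 0 < k := by omega
  let i0 : Fin k := ⟨0, hk0⟩
  choose u c hc0 hu using fun i => gram_similar hm0 hH e P htrans G hGu hG i0 i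
  set A := G i0 with hA
  set P' : GL ι F := P * glReindex e.symm (ptGL u) with hP'
  set C : F := ∏ i, c i with hC
  have hC0 : C ≠ 0 := Finset.prod_ne_zero_iff.mpr fun i _ => hc0 i
  have hform : ∀ x y, f (co e P' x) (co e P' y) = C * (x ⬝ᵥ (pt (fun _ : Fin k => A) *ᵥ y)) := by
    intro x y
    rw [hP', co_mul, co_mul, form_eq hG, dot_conj]
    have h1 : (ptGL u : Matrix (Fin k → Fin m) (Fin k → Fin m) F)ᵀ * pt G *
        (ptGL u : Matrix (Fin k → Fin m) (Fin k → Fin m) F) = C • pt (fun _ : Fin k => A) := by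
      have h2 : (ptGL u : Matrix (Fin k → Fin m) (Fin k → Fin m) F) =
        pt (fun j => (u j : Matrix (Fin m) (Fin m) F)) := rfl
      rw [h2, pt_transpose, pt_mul, pt_mul, ← pt_smul]
      congr 1
      funext i
      exact hu i
    rw [h1, Matrix.smul_mulVec, dotProduct_smul, smul_eq_mul]
  have hT : ∀ a b : Fin k → Fin m, ∏ i, A (a i) (b i) = - ∏ i, A (b i) (a i) := by
    intro a b
    have h1 := hf.skew (co e P' (Pi.single a 1)) (co e P' (Pi.single b 1))
    rw [hform, hform] at h1
    simp only [Matrix.mulVec_single_one, single_one_dotProduct, Matrix.col_apply, pt_apply] at h1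
    have h3 : C * (∏ i, A (a i) (b i) + ∏ i, A (b i) (a i)) = 0 := by linear_combination h1
    rcases mul_eq_zero.mp h3 with h | h
    · exact absurd h hC0
    · linear_combination h
  have hAu : IsUnit A := (Matrix.isUnit_iff_isUnit_det _).mpr (hGu i0)
  have hA0 : A ≠ 0 := by
    intro h0
    have : Nontrivial (Matrix (Fin m) (Fin m) F) := by
      have : Nonempty (Fin m) := ⟨⟨0, hm0⟩⟩
      infer_instance
    rw [h0] at hAu
    exact not_isUnit_zero hAu
  obtain ⟨hAT, hodd⟩ := skew_of_power h2 hk0 A hA0 hT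
  have h3 : 3 ≤ k := by
    obtain ⟨l, hl⟩ := hodd
    omega
  refine ⟨m, k, e, P', Cfsg.Agent.Lib.Helper57AschD.formOf A, hodd, h3, hns,
    Cfsg.Agent.Lib.Helper57AschD.symplectic_of_skew h2 hAu hAT, ⟨C, hC0, fun x y => ?_⟩,
    hle.trans (wreath_le_of_pure e P u)⟩
  have h4 := hform x y
  unfold co at h4
  rw [h4]
  congr 1
  have h5 : ∀ s t, gramMatrix (Cfsg.Agent.Lib.Helper57AschD.formOf A) s t = A s t := by
    intro s t
    simp [gramMatrix, Cfsg.Agent.Lib.Helper57AschD.formOf]
  simp only [dotProduct, Matrix.mulVec, pt_apply, Finset.mul_sum, mul_assoc, h5, id]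

end Cfsg.Agent.Lib.Helper57SpWrodd
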