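import Cfsg.Agent.Lib.Helper13UDefs
import Cfsg.Agent.Lib.Helper12UPtensor
import Cfsg.Agent.Lib.Helper63SpTenseven

set_option autoImplicit false

/-! ASCH-U, piece `tensor2`. -/

namespace Cfsg.Agent.Lib.Helper57UTensor2

open Cfsg Cfsg.Geo Matrix
open Cfsg.Agent.Lib.Helper97AschBase Cfsg.Agent.Lib.Helper97UBase
  Cfsg.Agent.Lib.Helper98AschDefs Cfsg.Agent.Lib.Helper98AschBasic Cfsg.Agent.Lib.Helper13UDefs
  Cfsg.Agent.Lib.Helper12UPtensor
open Cfsg.Agent.Lib.Helper63SpTenseven (pt kron_mulVec_pt)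
open scoped MatrixGroups Kronecker

variable {n : ℕ} {F : Type*} [Field F] {σ : F ≃+* F} {f : (Fin n → F) → (Fin n → F) → F}

/-- the vector `P (x ⊗ y)` -/
def Psi {d s : ℕ} (e : Fin n ≃ Fin d × Fin s) (P : GL (Fin n) F) (x : Fin d → F) (y : Fin s → F) : Fin n → F :=
  (P : Matrix (Fin n) (Fin n) F) *ᵥ (pt x y ∘ e)

lemma form_Psi {d s : ℕ} (e : Fin n ≃ Fin d × Fin s) {P : GL (Fin n) F} (hP : IsON σ f P)
    (x x' : Fin d → F) (y y' : Fin s → F) :
    f (Psi e P x y) (Psi e P x' y') = (∑ a, x a * σ (x' a)) * (∑ b, y b * σ (y' b)) := by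
  unfold Psi
  rw [on_apply e hP]
  simp only [pt, Fintype.sum_prod_type, Finset.sum_mul_sum, map_mul]
  refine Finset.sum_congr rfl fun a' _ => Finset.sum_congr rfl fun b' _ => by ring

lemma tens_mulVec_Psi {d s : ℕ} (e : Fin n ≃ Fin d × Fin s) (P : GL (Fin n) F)
    (A : Matrix (Fin d) (Fin d) F) (B : Matrix (Fin s) (Fin s) F) (x : Fin d → F) (y : Fin s → F) :
    tens e P A B *ᵥ Psi e P x y = Psi e P (A *ᵥ x) (B *ᵥ y) := by
  unfold Psi tens
  rw [conj_reindex_mulVec, kron_mulVec_pt]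

/-- the block `P (e_i ⊗ F^s)` -/
def Phi {d s : ℕ} (e : Fin n ≃ Fin d × Fin s) (P : GL (Fin n) F) (i : Fin d) : (Fin s → F) →ₗ[F] (Fin n → F) where
  toFun y := Psi e P (Pi.single i 1) y
  map_add' y z := by
    unfold Psi
    rw [← Matrix.mulVec_add]
    congr 1
    funext k
    simp [pt, mul_add]
  map_smul' c y := by
    unfold Psi
    rw [RingHom.id_apply, ← Matrix.mulVec_smul]
    congr 1
    funext k
    simp [pt, mul_left_comm]

lemma Phi_apply {d s : ℕ} (e : Fin n ≃ Fin d × Fin s) (P : GL (Fin n) F) (i : Fin d) (y : Fin s → F) :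
    Phi e P i y = Psi e P (Pi.single i 1) y := rfl

lemma Phi_injective {d s : ℕ} (e : Fin n ≃ Fin d × Fin s) (P : GL (Fin n) F) (i : Fin d) :
    Function.Injective (Phi e P i) := by
  intro y z h
  have h1 := coords_injective e P h
  funext b
  have := congrFun h1 (i, b)
  simpa [pt] using this

lemma form_Phi {d s : ℕ} (e : Fin n ≃ Fin d × Fin s) {P : GL (Fin n) F} (hP : IsON σ f P)
    (i j : Fin d) (y z : Fin s → F) :
    f (Phi e P i y) (Phi e P j z) = if i = j then ∑ b, y b * σ (z b) else 0 := by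
  rw [Phi_apply, Phi_apply, form_Psi e hP]
  by_cases h : i = j
  · subst h
    rw [if_pos rfl, Finset.sum_eq_single i]
    · simp
    · intro a _ ha
      simp [Pi.single_apply, ha]
    · intro h
      exact absurd (Finset.mem_univ i) h
  · rw [if_neg h]
    have : ∑ a, (Pi.single i 1 : Fin d → F) a * σ ((Pi.single j 1 : Fin d → F) a) = 0 := by
      apply Finset.sum_eq_zero
      intro a _
      by_cases h1 : a = i
      · subst h1
        simp [Pi.single_apply, h]
      · simp [Pi.single_apply, h1]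
    rw [this, zero_mul]

/-- every vector is a sum of block components -/
lemma eq_sum_Phi {d s : ℕ} (e : Fin n ≃ Fin d × Fin s) (P : GL (Fin n) F) (v : Fin n → F) :
    v = ∑ i, Phi e P i (fun b => (((P⁻¹ : GL (Fin n) F) : Matrix (Fin n) (Fin n) F) *ᵥ v) (e.symm (i, b))) := by
  have h1 : v = (P : Matrix (Fin n) (Fin n) F) *ᵥ
      (((fun p => (((P⁻¹ : GL (Fin n) F) : Matrix (Fin n) (Fin n) F) *ᵥ v) (e.symm p)) : Fin d × Fin s → F) ∘ e) := by
    have : (((fun p => (((P⁻¹ : GL (Fin n) F) : Matrix (Fin n) (Fin n) F) *ᵥ v) (e.symm p)) : Fin d × Fin s → F) ∘ e) =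
        ((P⁻¹ : GL (Fin n) F) : Matrix (Fin n) (Fin n) F) *ᵥ v := by
      funext k
      simp
    rw [this, Matrix.mulVec_mulVec, iv, Matrix.one_mulVec]
  conv_lhs => rw [h1]
  simp only [Phi_apply, Psi]
  rw [← Matrix.mulVec_sum]
  congr 1
  funext k
  simp only [Function.comp_apply, Finset.sum_apply, pt]
  rw [Finset.sum_eq_single (e k).1]
  · simp
  · intro a _ ha
    simp [Pi.single_apply, Ne.symm ha]
  · intro h
    exact absurd (Finset.mem_univ _) h

/-- the `i`-th block coordinates -/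
def Cc {d s : ℕ} (e : Fin n ≃ Fin d × Fin s) (P : GL (Fin n) F) (i : Fin d) : (Fin n → F) →ₗ[F] (Fin s → F) where
  toFun v := fun b => (((P⁻¹ : GL (Fin n) F) : Matrix (Fin n) (Fin n) F) *ᵥ v) (e.symm (i, b))
  map_add' u v := by
    funext b
    simp [Matrix.mulVec_add]
  map_smul' c v := by
    funext b
    simp [Matrix.mulVec_smul]

lemma Cc_Phi {d s : ℕ} (e : Fin n ≃ Fin d × Fin s) (P : GL (Fin n) F) (i j : Fin d) (y : Fin s → F) :
    Cc e P i (Phi e P j y) = if i = j then y else 0 := by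
  funext b
  show (((P⁻¹ : GL (Fin n) F) : Matrix (Fin n) (Fin n) F) *ᵥ
    ((P : Matrix (Fin n) (Fin n) F) *ᵥ (pt (Pi.single j 1) y ∘ e))) (e.symm (i, b)) = _
  rw [Matrix.mulVec_mulVec, vi, Matrix.one_mulVec]
  by_cases h : i = j
  · subst h
    simp [pt]
  · simp [pt, h]

/-- the decomposition into the blocks `P (e_i ⊗ F^s)` -/
theorem block_decomp {d s : ℕ} (hd : 2 ≤ d) (hs : 0 < s) (e : Fin n ≃ Fin d × Fin s) {P : GL (Fin n) F}
    (hP : IsON σ f P) :
    IsNondegenerateMDecomposition f s (fun i => LinearMap.range (Phi e P i)) := by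
  refine ⟨⟨hd, hs, fun i => ?_, ?_, ?_⟩, ?_, ?_⟩
  · rw [LinearMap.finrank_range_of_inj (Phi_injective e P i), Module.finrank_fin_fun]
  · rw [iSupIndep_def]
    intro i
    rw [Submodule.disjoint_def]
    intro x hx hx'
    have h1 : (⨆ j, ⨆ (_ : j ≠ i), LinearMap.range (Phi e P j)) ≤ LinearMap.ker (Cc e P i) := by
      refine iSup₂_le fun j hj => ?_
      rintro _ ⟨y, rfl⟩
      rw [LinearMap.mem_ker, Cc_Phi, if_neg (Ne.symm hj)]
    have h2 := h1 hx'
    obtain ⟨y, rfl⟩ := hx
    rw [LinearMap.mem_ker, Cc_Phi, if_pos rfl] at h2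
    rw [h2, map_zero]
  · rw [eq_top_iff]
    intro v _
    rw [eq_sum_Phi e P v]
    exact Submodule.sum_mem _ fun i _ =>
      Submodule.mem_iSup_of_mem (p := fun i => LinearMap.range (Phi e P i)) i ⟨_, rfl⟩
  · rintro i _ ⟨y, rfl⟩ hy
    have hy0 : y ≠ 0 := by
      rintro rfl
      exact hy (map_zero _)
    obtain ⟨b, hb⟩ : ∃ b, y b ≠ 0 := by
      by_contra hcon
      push Not at hcon
      exact hy0 (funext hcon)
    refine ⟨⟨Phi e P i (Pi.single b 1), ⟨_, rfl⟩, ?_⟩, ⟨Phi e P i (Pi.single b 1), ⟨_, rfl⟩, ?_⟩⟩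
    · rw [form_Phi e hP, if_pos rfl, Finset.sum_eq_single b]
      · simpa using hb
      · intro c _ hc
        simp [hc]
      · intro h
        exact absurd (Finset.mem_univ b) h
    · rw [form_Phi e hP, if_pos rfl, Finset.sum_eq_single b]
      · simpa using hb
      · intro c _ hc
        simp [hc]
      · intro h
        exact absurd (Finset.mem_univ b) h
  · rintro i j hij _ ⟨y, rfl⟩ _ ⟨z, rfl⟩
    rw [form_Phi e hP, if_neg hij]

/-- a monomial first factor permutes the blocks -/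
theorem mem_stab_of_monomial {d s : ℕ} (e : Fin n ≃ Fin d × Fin s) (P g : GL (Fin n) F)
    (A : Matrix (Fin d) (Fin d) F) (B : Matrix (Fin s) (Fin s) F)
    (hg : (g : Matrix (Fin n) (Fin n) F) = tens e P A B) (π : Equiv.Perm (Fin d))
    (hA : ∀ i r, r ≠ π i → A r i = 0) :
    g ∈ decompositionStabilizer (fun i => LinearMap.range (Phi e P i)) := by
  refine ⟨π, fun i => ?_⟩
  have hle : (LinearMap.range (Phi e P i)).map (Matrix.toLin' (g : Matrix (Fin n) (Fin n) F)) ≤
      LinearMap.range (Phi e P (π i)) := by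
    rintro _ ⟨_, ⟨y, rfl⟩, rfl⟩
    rw [Matrix.toLin'_apply, hg, Phi_apply, tens_mulVec_Psi]
    refine ⟨A (π i) i • (B *ᵥ y), ?_⟩
    rw [map_smul, Phi_apply]
    unfold Psi
    rw [← Matrix.mulVec_smul]
    congr 1
    funext k
    simp only [Function.comp_apply, pt, Pi.smul_apply, smul_eq_mul, Matrix.mulVec_single_one,
      Matrix.col_apply]
    by_cases h : (e k).1 = π i
    · rw [h]
      simp
    · rw [hA i _ h]
      simp [h]
  apply Submodule.eq_of_le_of_finrank_eq hle
  have hinj : Function.Injective (Matrix.toLin' (g : Matrix (Fin n) (Fin n) F)) := by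
    intro u v huv
    rw [Matrix.toLin'_apply, Matrix.toLin'_apply] at huv
    exact mulVec_injective g huv
  rw [← (Submodule.equivMapOfInjective _ hinj _).finrank_eq,
    LinearMap.finrank_range_of_inj (Phi_injective e P i),
    LinearMap.finrank_range_of_inj (Phi_injective e P (π i))]

lemma two_eq_zero_of_card [Fintype F] (h : Fintype.card F = 2 ^ 2) : (2 : F) = 0 := by
  have h2 : ringChar F = 2 := FiniteField.even_card_iff_char_two.mpr (by rw [h]; norm_num)
  have h3 : ((ringChar F : ℕ) : F) = 0 := ringChar.Nat.cast_ringChar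
  rw [h2] at h3
  exact_mod_cast h3

/-- the norm of a non-zero element of the field with four elements -/
lemma norm_eq_one [Fintype F] (hU : US σ f 2) {t : F} (ht : t ≠ 0) : t * σ t = 1 := by
  rw [hU.pow]
  have := FiniteField.pow_card_sub_one_eq_one t ht
  rw [hU.card] at this
  calc t * t ^ 2 = t ^ (2 ^ 2 - 1) := by ring
    _ = 1 := this

/-- [tensor2] `q = 2`: if `a ⊗ b` is an isometry then `a` is a similarity of the standard form on `F^2`, so it permutes the two
non-singular points `⟨e₀⟩, ⟨e₁⟩`; hence `a ⊗ b` permutes `D' i = P (e_i ⊗ F^s)`. -/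
theorem tensor_two_u [Fintype F] (hU : US σ f 2) {s : ℕ} (hs : 0 < s) (e : Fin n ≃ Fin 2 × Fin s)
    {P : GL (Fin n) F} (hP : IsON σ f P) :
    ∃ D' : Fin 2 → Submodule F (Fin n → F), IsNondegenerateMDecomposition f s D' ∧
      tensorProductSubgroup 2 s e P ⊓ Iso f ≤ decompositionStabilizer D' := by
  refine ⟨_, block_decomp (le_refl 2) hs e hP, ?_⟩
  rintro g ⟨hg1, hg2⟩
  obtain ⟨a, b, hab⟩ := (mem_tensorProductSubgroup_iff e P g).mp hg1
  have h2 := two_eq_zero_of_card hU.card
  set A : Matrix (Fin 2) (Fin 2) F := (a : Matrix (Fin 2) (Fin 2) F) with hA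
  set B : Matrix (Fin s) (Fin s) F := (b : Matrix (Fin s) (Fin s) F) with hB
  let y0 : Fin s → F := Pi.single ⟨0, hs⟩ 1
  set c : F := ∑ k, (B *ᵥ y0) k * σ ((B *ᵥ y0) k) with hc
  have hy0 : ∑ k, y0 k * σ (y0 k) = 1 := by
    rw [Finset.sum_eq_single (⟨0, hs⟩ : Fin s)]
    · simp [y0]
    · intro k _ hk
      simp [y0, hk]
    · intro h
      exact absurd (Finset.mem_univ _) h
  have key : ∀ x x' : Fin 2 → F, (∑ r, (A *ᵥ x) r * σ ((A *ᵥ x') r)) * c = ∑ r, x r * σ (x' r) := by
    intro x x'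
    have h1 := hg2 (Psi e P x y0) (Psi e P x' y0)
    simp only [Units.coeHom_apply] at h1
    rw [hab, tens_mulVec_Psi, tens_mulVec_Psi, form_Psi e hP, form_Psi e hP, hy0, mul_one] at h1
    exact h1
  have k00 := key (Pi.single 0 1) (Pi.single 0 1)
  have k11 := key (Pi.single 1 1) (Pi.single 1 1)
  have k01 := key (Pi.single 0 1) (Pi.single 1 1)
  simp only [Matrix.mulVec_single_one, Matrix.col_apply, Fin.sum_univ_two, Pi.single_eq_same, map_one,
    mul_one, ne_eq, one_ne_zero, not_false_eq_true, Pi.single_eq_of_ne, zero_ne_one, map_zero, mul_zero,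
    add_zero, zero_add, zero_mul, Fin.isValue] at k00 k11 k01
  have hc0 : c ≠ 0 := by
    rintro h0
    rw [h0, mul_zero] at k00
    exact zero_ne_one k00
  have k01' : A 0 0 * σ (A 0 1) + A 1 0 * σ (A 1 1) = 0 := (mul_eq_zero.mp k01).resolve_right hc0
  have hcol : ∀ u v : F, (u * σ u + v * σ v) * c = 1 → (u ≠ 0 ∧ v = 0) ∨ (u = 0 ∧ v ≠ 0) := by
    intro u v huv
    by_cases hu : u = 0
    · by_cases hv : v = 0
      · subst hu; subst hv
        simp at huv
      · exact Or.inr ⟨hu, hv⟩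
    · by_cases hv : v = 0
      · exact Or.inl ⟨hu, hv⟩
      · exfalso
        rw [norm_eq_one hU hu, norm_eq_one hU hv, one_add_one_eq_two, h2, zero_mul] at huv
        exact zero_ne_one huv
  have hσ0 : ∀ t : F, t ≠ 0 → σ t ≠ 0 := fun t ht => by simpa using ht
  rcases hcol _ _ k00 with ⟨h00, h10⟩ | ⟨h00, h10⟩
  · have h01 : A 0 1 = 0 := by
      rw [h10, zero_mul, add_zero] at k01'
      rcases mul_eq_zero.mp k01' with h | h
      · exact absurd h h00
      · simpa using h
    refine mem_stab_of_monomial e P g A B hab 1 ?_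
    intro i r hr
    fin_cases i <;> fin_cases r
    · exact absurd rfl hr
    · exact h10
    · exact h01
    · exact absurd rfl hr
  · have h11 : A 1 1 = 0 := by
      rw [h00, zero_mul, zero_add] at k01'
      rcases mul_eq_zero.mp k01' with h | h
      · exact absurd h h10
      · simpa using h
    refine mem_stab_of_monomial e P g A B hab (Equiv.swap 0 1) ?_
    intro i r hr
    fin_cases i <;> fin_cases r
    · exact h00
    · exact absurd (by simp) hr
    · exact absurd (by simp) hr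
    · exact h11

end Cfsg.Agent.Lib.Helper57UTensor2
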