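import Cfsg.Agent.Lib.Helper60UPsubalg

set_option autoImplicit false

/-! PROJECT 4 = ASCH-U, piece `pdecomp`: `SU_n(q)` stabilises no decomposition with blocks of dimension `≥ 2`. -/

namespace Cfsg.Agent.Lib.Helper60UPdecomp

open Cfsg Cfsg.Geo Matrix Cfsg.Agent.Lib.Helper97AschBase Cfsg.Agent.Lib.Helper97AschForms
  Cfsg.Agent.Lib.Helper97AschTransv Cfsg.Agent.Lib.Helper95Herm Cfsg.Agent.Lib.Helper97UBase
  Cfsg.Agent.Lib.Helper97UProper Cfsg.Agent.Lib.Helper97UProper2 Cfsg.Agent.Lib.Helper60UPsubalg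
open scoped MatrixGroups

variable {n : ℕ} {F : Type*} [Field F] {σ : F ≃+* F} {f : (Fin n → F) → (Fin n → F) → F}

/-- a subspace of dimension at least 2 meets every hyperplane -/
lemma exists_mem_ker {W : Submodule F (Fin n → F)} (hW : 2 ≤ Module.finrank F W)
    (L : (Fin n → F) →ₗ[F] F) : ∃ v ∈ W, v ≠ 0 ∧ L v = 0 := by
  have h1 := LinearMap.finrank_range_add_finrank_ker (L.domRestrict W)
  have h2 := Submodule.finrank_le (LinearMap.range (L.domRestrict W))
  rw [Module.finrank_self] at h2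
  have h3 : LinearMap.ker (L.domRestrict W) ≠ ⊥ := by
    intro hb
    rw [hb, finrank_bot] at h1
    omega
  obtain ⟨v, hv, hv0⟩ := Submodule.exists_mem_ne_zero_of_ne_bot h3
  rw [LinearMap.mem_ker] at hv
  exact ⟨v, v.2, fun h => hv0 (Subtype.ext h), hv⟩

/-- a singular vector lies in a block and is orthogonal to the other blocks -/
lemma singular_mem_block (hf : IsUnitaryForm σ f) {t m : ℕ} (hm : 2 ≤ m)
    (D : Fin t → Submodule F (Fin n → F)) (hD : IsMDecomposition m D)
    (hle : Iso f ⊓ specialLinear (Fin n) F ≤ decompositionStabilizer D)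
    {u : Fin n → F} (hu0 : u ≠ 0) (hu : f u u = 0) :
    ∃ i, u ∈ D i ∧ ∀ j, j ≠ i → ∀ v ∈ D j, f v u = 0 := by
  have h := herm_of_unitary hf
  obtain ⟨a, ha0, ha⟩ := h.exists_z
  obtain ⟨π, hπ⟩ := hle (utv_mem hf u a hu ha)
  have hdis := hD.indep.pairwiseDisjoint
  have hfix : ∀ i, π i = i := by
    intro i
    obtain ⟨v, hv, hv0, hvu⟩ := exists_mem_ker (W := D i) (by rw [hD.finrank_eq i]; exact hm) (h.fl u)
    rw [h.fl_apply] at hvu
    have h1 : v ∈ D (π i) := by
      rw [← hπ i]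
      refine ⟨v, hv, ?_⟩
      rw [Matrix.toLin'_apply, utv_mulVec, hvu, mul_zero, zero_smul, add_zero]
    by_contra hne
    exact hv0 ((Submodule.disjoint_def.mp (hdis hne)) v h1 hv)
  have hkey : ∀ i, ∀ v ∈ D i, f v u ≠ 0 → u ∈ D i := by
    intro i v hv hvu
    have h1 : v + (a * f v u) • u ∈ D i := by
      have h2 : v + (a * f v u) • u ∈ D (π i) := by
        rw [← hπ i]
        refine ⟨v, hv, ?_⟩
        rw [Matrix.toLin'_apply, utv_mulVec]
      rwa [hfix i] at h2
    have h2 := ((D i).add_mem_iff_right hv).mp h1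
    exact ((D i).smul_mem_iff (mul_ne_zero ha0 hvu)).mp h2
  have hex : ∃ i, ∃ v ∈ D i, f v u ≠ 0 := by
    by_contra hcon
    push Not at hcon
    obtain ⟨x, hx⟩ := (hf.nondegenerate u hu0).1
    apply hx
    have h1 : iSup D ≤ LinearMap.ker (h.fl u) := iSup_le (fun i v hv => by
      rw [LinearMap.mem_ker, h.fl_apply]
      exact hcon i v hv)
    rw [hD.iSup_eq_top] at h1
    have h2 := h1 (Submodule.mem_top (x := x))
    rwa [LinearMap.mem_ker, h.fl_apply] at h2
  obtain ⟨i, v, hv, hvu⟩ := hex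
  have hui := hkey i v hv hvu
  refine ⟨i, hui, ?_⟩
  intro j hj w hw
  by_contra hwu
  exact hu0 ((Submodule.disjoint_def.mp (hdis hj)) u (hkey j w hw hwu) hui)

/-- [pdecomp] -/
theorem notSU_decomp [Finite F] (hf : IsUnitaryForm σ f) {t m : ℕ} (hm : 2 ≤ m)
    (D : Fin t → Submodule F (Fin n → F)) (hD : IsMDecomposition m D) :
    ¬ Iso f ⊓ specialLinear (Fin n) F ≤ decompositionStabilizer D := by
  intro hle
  have h := herm_of_unitary hf
  have hdis := hD.indep.pairwiseDisjoint
  have ht := hD.two_le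
  let i0 : Fin t := ⟨0, by omega⟩
  let i1 : Fin t := ⟨1, by omega⟩
  have h01 : i0 ≠ i1 := by
    intro hcon
    have := congrArg Fin.val hcon
    simp [i0, i1] at this
  -- the dimension is at least 3
  have hn : 3 ≤ n := by
    have h1 := Submodule.finrank_sup_add_finrank_inf_eq (D i0) (D i1)
    rw [disjoint_iff.mp (hdis h01), finrank_bot, add_zero, hD.finrank_eq, hD.finrank_eq] at h1
    have h2 := Submodule.finrank_le (D i0 ⊔ D i1)
    rw [Module.finrank_fin_fun] at h2
    omega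
  obtain ⟨u, hu0, hu⟩ := exists_singular hf hn
  obtain ⟨i, hui, hiorth⟩ := singular_mem_block hf hm D hD hle hu0 hu
  obtain ⟨u', hu', huu'⟩ := exists_partner hf hu0 hu
  have hu'0 : u' ≠ 0 := by
    rintro rfl
    exact huu' (h.zero_right u)
  obtain ⟨i', hui', hi'orth⟩ := singular_mem_block hf hm D hD hle hu'0 hu'
  have hii' : i = i' := by
    by_contra hne
    exact huu' (hi'orth i hne u hui)
  subst hii'
  obtain ⟨j, hj⟩ : ∃ j : Fin t, j ≠ i := by
    by_cases h0 : i0 = i
    · exact ⟨i1, fun h1 => h01 (h0.trans h1.symm)⟩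
    · exact ⟨i0, h0⟩
  have hDj : D j ≠ ⊥ := by
    intro hb
    have := hD.finrank_eq j
    rw [hb, finrank_bot] at this
    omega
  obtain ⟨w, hw, hw0⟩ := Submodule.exists_mem_ne_zero_of_ne_bot hDj
  have hwu : f w u = 0 := hiorth j hj w hw
  have hwu' : f w u' = 0 := hi'orth j hj w hw
  have huw := h.swap_zero hwu
  have hu'w := h.swap_zero hwu'
  have hu'u : f u' u ≠ 0 := h.swap_ne huu'
  obtain ⟨c', hc'⟩ := h.trace_surj (- f w w) (by rw [map_neg, h.self_fix])
  obtain ⟨x, hx⟩ : ∃ x, x = u + (c' / f u' u) • u' := ⟨_, rfl⟩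
  have hxi : x ∈ D i := by
    rw [hx]
    exact (D i).add_mem hui ((D i).smul_mem _ hui')
  have hxx : f x x = - f w w := by
    rw [hx, h.add_left, h.add_right, h.add_right, h.smul_left, h.smul_left, h.smul_right, h.smul_right,
      hu, hu']
    have e1 : (σ : F →+* F) (c' / f u' u) * f u u' = (σ : F →+* F) c' := by
      rw [h.herm u u', ← map_mul, div_mul_cancel₀ _ hu'u]
    have e2 : c' / f u' u * f u' u = c' := div_mul_cancel₀ _ hu'u
    rw [e1, e2]
    linear_combination hc'
  have hx0 : x ≠ 0 := by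
    intro h0
    apply huu'
    have e1 : f x u' = f u u' := by
      rw [hx, h.add_left, h.smul_left, hu', mul_zero, add_zero]
    rw [← e1, h0, h.zero_left]
  have hxw : f x w = 0 := by
    rw [hx, h.add_left, h.smul_left, huw, hu'w, mul_zero, add_zero]
  have hwx := h.swap_zero hxw
  have hyy : f (x + w) (x + w) = 0 := by
    rw [h.add_left, h.add_right, h.add_right, hxx, hxw, hwx]
    ring
  have hy0 : x + w ≠ 0 := by
    intro h0
    have h1 : x = -w := eq_neg_of_add_eq_zero_left h0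
    apply hx0
    exact (Submodule.disjoint_def.mp (hdis hj)) x (by rw [h1]; exact (D j).neg_mem hw) hxi
  obtain ⟨l, hyl, _⟩ := singular_mem_block hf hm D hD hle hy0 hyy
  by_cases hl : l = i
  · subst hl
    have h1 := ((D l).add_mem_iff_right hxi).mp hyl
    exact hw0 ((Submodule.disjoint_def.mp (hdis hj)) w hw h1)
  · have h1 := (iSupIndep_def.mp hD.indep) i
    apply hx0
    refine (Submodule.disjoint_def.mp h1) x hxi ?_
    have h2 : x = (x + w) - w := by abel
    rw [h2]
    refine Submodule.sub_mem _ ?_ ?_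
    · exact (le_iSup₂ (f := fun k (_ : k ≠ i) => D k) l hl) hyl
    · exact (le_iSup₂ (f := fun k (_ : k ≠ i) => D k) j hj) hw

end Cfsg.Agent.Lib.Helper60UPdecomp
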