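import Cfsg.Agent.Lib.Helper13UDefs
import Cfsg.Agent.Lib.Helper97UProper2

set_option autoImplicit false

/-! PROJECT 4 = ASCH-U, piece `psubalg`: `SU_n(q)` normalises no field of degree `r > 1`. -/

namespace Cfsg.Agent.Lib.Helper60UPsubalg

open Cfsg Cfsg.Geo Matrix Cfsg.Agent.Lib.Helper97AschBase Cfsg.Agent.Lib.Helper97AschForms
  Cfsg.Agent.Lib.Helper97AschTransv Cfsg.Agent.Lib.Helper95Herm Cfsg.Agent.Lib.Helper97UBase
  Cfsg.Agent.Lib.Helper97UProper Cfsg.Agent.Lib.Helper97UProper2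
open scoped MatrixGroups

variable {n : ℕ} {F : Type*} [Field F]

lemma tv_not_mem_subalgebraNormalizer' (hn : 3 ≤ n) {r : ℕ} (hr : 1 < r)
    (K : Subalgebra F (Matrix (Fin n) (Fin n) F))
    (hK : IsFieldSubalgebra r K) (u φ : Fin n → F) (hφu : φ ⬝ᵥ u = 0) (hu0 : u ≠ 0) (hφ0 : φ ≠ 0) :
    tv u φ hφu ∉ subalgebraNormalizer K := by
  intro ht
  have hzero : ∀ k ∈ K, ∀ v : Fin n → F, v ≠ 0 → k *ᵥ v = 0 → k = 0 := by
    intro k hk v hv hkv
    by_contra hk0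
    obtain ⟨k', hk', hkk'⟩ := hK.inv k hk hk0
    rw [hK.comm k hk k' hk'] at hkk'
    apply hv
    have := congrArg (fun M => M *ᵥ v) hkk'
    simp only [← Matrix.mulVec_mulVec, hkv, Matrix.mulVec_zero, Matrix.one_mulVec] at this
    exact this.symm
  have hcomm : ∀ k ∈ K, ∀ v, (tv u φ hφu : Matrix (Fin n) (Fin n) F) *ᵥ (k *ᵥ v) =
      k *ᵥ ((tv u φ hφu : Matrix (Fin n) (Fin n) F) *ᵥ v) := by
    intro k hk
    have hk2 := (ht k).mp hk
    obtain ⟨v, hv0, hv1, hv2⟩ := exists_ker_two hn (dotL φ) ((dotL φ) ∘ₗ Matrix.toLin' k)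
    simp only [dotL_apply, LinearMap.comp_apply, Matrix.toLin'_apply] at hv1 hv2
    have htv : (tv u φ hφu : Matrix (Fin n) (Fin n) F) *ᵥ v = v := by
      rw [tv_mulVec, hv1, zero_smul, add_zero]
    have htv' : (((tv u φ hφu)⁻¹ : GL (Fin n) F) : Matrix (Fin n) (Fin n) F) *ᵥ v = v := by
      conv_lhs => rw [← htv]
      simp
    have h3 : ((tv u φ hφu : Matrix (Fin n) (Fin n) F) * k *
        (((tv u φ hφu)⁻¹ : GL (Fin n) F) : Matrix (Fin n) (Fin n) F) - k) *ᵥ v = 0 := by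
      rw [Matrix.sub_mulVec, ← Matrix.mulVec_mulVec, htv', ← Matrix.mulVec_mulVec, tv_mulVec, hv2,
        zero_smul, add_zero, sub_self]
    have h4 := sub_eq_zero.mp (hzero _ (K.sub_mem hk2 hk) v hv0 h3)
    intro w
    conv_rhs => rw [← h4]
    rw [← Matrix.mulVec_mulVec, ← Matrix.mulVec_mulVec, inv_mulVec_mulVec]
  obtain ⟨v₁, hv₁⟩ := exists_dot_eq_one hφ0
  have hsc : ∀ k ∈ K, k ∈ (⊥ : Subalgebra F (Matrix (Fin n) (Fin n) F)) := by
    intro k hk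
    have h1 := hcomm k hk v₁
    rw [tv_mulVec, tv_mulVec, Matrix.mulVec_add, Matrix.mulVec_smul, hv₁, one_smul] at h1
    have h3 : k *ᵥ u = (φ ⬝ᵥ k *ᵥ v₁) • u := (add_left_cancel h1).symm
    have h4 : (k - algebraMap F _ (φ ⬝ᵥ k *ᵥ v₁)) *ᵥ u = 0 := by
      rw [Matrix.sub_mulVec, h3, Algebra.algebraMap_eq_smul_one, Matrix.smul_mulVec, Matrix.one_mulVec,
        sub_self]
    have h5 := sub_eq_zero.mp (hzero _ (K.sub_mem hk (K.algebraMap_mem _)) u hu0 h4)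
    rw [h5]
    exact Subalgebra.algebraMap_mem _ _
  have hbot : K = ⊥ := eq_bot_iff.mpr hsc
  have hfr := hK.finrank_eq
  have : Nonempty (Fin n) := ⟨⟨0, by omega⟩⟩
  rw [hbot, Subalgebra.finrank_bot] at hfr
  omega

variable {σ : F ≃+* F} {f : (Fin n → F) → (Fin n → F) → F}

/-- a non-zero singular vector -/
lemma exists_singular [Finite F] (hf : IsUnitaryForm σ f) (hn : 3 ≤ n) :
    ∃ u : Fin n → F, u ≠ 0 ∧ f u u = 0 := by
  classical
  have h := herm_of_unitary hf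
  have hfr : Module.finrank F (Fin n → F) = n := Module.finrank_fin_fun F
  obtain ⟨y₁, _, hy₁⟩ := h.exists_perp ∅ (by rw [hfr]; simp; omega) 1 (map_one _)
  obtain ⟨y₂, hp₂, hy₂⟩ := h.exists_perp {y₁} (by rw [hfr]; simp; omega) (-1) (by simp)
  have h21 : f y₂ y₁ = 0 := hp₂ y₁ (by simp)
  have h12 := h.swap_zero h21
  refine ⟨y₁ + y₂, ?_, ?_⟩
  · intro h0
    have e1 := congrArg (fun v => f v y₁) h0
    simp only [h.add_left, hy₁, h21, h.zero_left] at e1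
    simp at e1
  · rw [h.add_left, h.add_right, h.add_right, hy₁, hy₂, h12, h21]; ring

/-- [psubalg] -/
theorem notSU_subalg [Finite F] (hf : IsUnitaryForm σ f) (hn : 3 ≤ n) {r : ℕ} (hr : 1 < r)
    (K : Subalgebra F (Matrix (Fin n) (Fin n) F)) (hK : IsFieldSubalgebra r K) :
    ¬ Iso f ⊓ specialLinear (Fin n) F ≤ subalgebraNormalizer K := by
  intro hle
  have h := herm_of_unitary hf
  obtain ⟨u, hu0, hu⟩ := exists_singular hf hn
  obtain ⟨a, ha0, ha⟩ := h.exists_z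
  exact tv_not_mem_subalgebraNormalizer' hn hr K hK u (uφ f u a) _ hu0 (uφ_ne_zero hf hu0 ha0)
    (hle (utv_mem hf u a hu ha))

end Cfsg.Agent.Lib.Helper60UPsubalg
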