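import Cfsg.Agent.Lib.Helper57UConv
import Cfsg.Agent.Lib.Helper67AschD
import Cfsg.Agent.Lib.Helper13UMain
import Cfsg.Agent.Lib.Helper60UPdecomp
import Cfsg.Agent.Lib.Helper60UPsubalg
import Cfsg.Agent.Lib.Helper15UPc6
import Cfsg.Agent.Lib.Helper12UPtensor
import Cfsg.Agent.Lib.Helper12UPwreath
import Cfsg.Agent.Lib.Helper57UTensor2

set_option autoImplicit false

/-! ASCH-U: the general theorem for the MAXIMAL subgroups of `SU_n(q)`, `n ≥ 7`: every geometric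
alternative is an equality `H = X ⊓ SU`.  Interface for the fixed dimension statements. -/

namespace Cfsg.Agent.Lib.Helper57UMax

open Cfsg Cfsg.Geo Matrix
open Cfsg.Agent.Lib.Helper97AschBase Cfsg.Agent.Lib.Helper97UBase
  Cfsg.Agent.Lib.Helper13UDefs Cfsg.Agent.Lib.Helper57UConv
open Cfsg.Agent.Lib.Helper13UMain (umain)
open Cfsg.Agent.Lib.Helper60UPdecomp (notSU_decomp)
open Cfsg.Agent.Lib.Helper60UPsubalg (notSU_subalg)
open Cfsg.Agent.Lib.Helper15UPc6 (notSU_c6)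
open Cfsg.Agent.Lib.Helper12UPtensor (notSU_tensor)
open Cfsg.Agent.Lib.Helper12UPwreath (notSU_wreath)
open Cfsg.Agent.Lib.Helper57UTensor2 (tensor_two_u)
open scoped MatrixGroups Kronecker

lemma eq_inf_of_le' {G : Type*} [Group G] {K H X : Subgroup G} (hH : IsMaximalIn K H) (hle : H ≤ X)
    (hX : ¬ K ≤ X) : H = X ⊓ K := by
  rcases hH.2 (X ⊓ K) (le_inf hle hH.1.le) inf_le_right with h | h
  · exact h.symm
  · exact absurd (inf_eq_right.mp h) hX

variable {n : ℕ} {F : Type*} [Field F] {σ : F ≃+* F} {f : (Fin n → F) → (Fin n → F) → F}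

/-- the list of alternatives for a maximal subgroup -/
def UMaxAlt [Fintype F] (σ : F ≃+* F) (f : (Fin n → F) → (Fin n → F) → F) (q : ℕ)
    (H : Subgroup (GL (Fin n) F)) : Prop :=
  (∃ W : Submodule F (Fin n → F), W ≠ ⊥ ∧ IsTotallySingularFor f W ∧
      H = subspaceStabilizer W ⊓ (Iso f ⊓ specialLinear (Fin n) F)) ∨
  (∃ W : Submodule F (Fin n → F), W ≠ ⊥ ∧ IsNondegenerateOn f W ∧ 2 * Module.finrank F W < n ∧
      H = subspaceStabilizer W ⊓ (Iso f ⊓ specialLinear (Fin n) F)) ∨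
  (∃ (t k : ℕ) (D : Fin t → Submodule F (Fin n → F)), n = t * k ∧ 2 ≤ t ∧ 0 < k ∧ (k = 2 → 3 ≤ q) ∧
      IsNondegenerateMDecomposition f k D ∧
      H = decompositionStabilizer D ⊓ (Iso f ⊓ specialLinear (Fin n) F)) ∨
  (∃ (k : ℕ) (D : Fin 2 → Submodule F (Fin n → F)), 2 * k = n ∧ IsMDecomposition k D ∧
      (∀ i, IsTotallySingularFor f (D i)) ∧
      H = decompositionStabilizer D ⊓ (Iso f ⊓ specialLinear (Fin n) F)) ∨
  (∃ (r : ℕ) (K : Subalgebra F (Matrix (Fin n) (Fin n) F)), r.Prime ∧ Odd r ∧ r ∣ n ∧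
      IsFieldSubalgebra r K ∧ IsAdjointClosedFor f K ∧
      H = subalgebraNormalizer K ⊓ (Iso f ⊓ specialLinear (Fin n) F)) ∨
  (∃ (n₁ n₂ : ℕ) (e : Fin n ≃ Fin n₁ × Fin n₂) (P : GL (Fin n) F)
      (f₁ : (Fin n₁ → F) → (Fin n₁ → F) → F) (f₂ : (Fin n₂ → F) → (Fin n₂ → F) → F),
      n = n₁ * n₂ ∧ 2 ≤ n₁ ∧ n₁ < n₂ ∧ (n₁ = 2 → 3 ≤ q) ∧ IsUnitaryFormPow q f₁ ∧ IsUnitaryFormPow q f₂ ∧
      IsTensorFormStructure (fun x : F => x ^ q) f f₁ f₂ e P ∧
      H = tensorProductSubgroup n₁ n₂ e P ⊓ (Iso f ⊓ specialLinear (Fin n) F)) ∨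
  (∃ (F₀ : Subfield F) (r : ℕ) (P : GL (Fin n) F), r.Prime ∧ Odd r ∧ Fintype.card F = Nat.card F₀ ^ r ∧
      IsFormRationalStructure f F₀ 1 P ∧
      H = subfieldSubgroup F₀ P ⊓ (Iso f ⊓ specialLinear (Fin n) F)) ∨
  (Odd q ∧ ∃ (F₀ : Subfield F) (P : GL (Fin n) F), Fintype.card F = Nat.card F₀ ^ 2 ∧
      IsFormRationalStructure f F₀ 1 P ∧
      H = subfieldSubgroup F₀ P ⊓ (Iso f ⊓ specialLinear (Fin n) F)) ∨
  (Even n ∧ ∃ (F₀ : Subfield F) (P : GL (Fin n) F) (ζ : F), Fintype.card F = Nat.card F₀ ^ 2 ∧ ζ ≠ 0 ∧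
      ζ + ζ ^ q = 0 ∧ IsFormRationalStructure f F₀ ζ P ∧
      (∀ u : Fin n → F, (∀ i, u i ∈ F₀) →
        f ((P : Matrix (Fin n) (Fin n) F) *ᵥ u) ((P : Matrix (Fin n) (Fin n) F) *ᵥ u) = 0) ∧
      H = subfieldSubgroup F₀ P ⊓ (Iso f ⊓ specialLinear (Fin n) F)) ∨
  (∃ (r : ℕ) (R : Subgroup (GL (Fin n) F)) (p e k : ℕ), IsSymplecticTypeGroup r R ∧
      ActsAbsolutelyIrreducibly (matrixSet R) ∧ R ≤ similarityGroup f ∧ r ≠ p ∧
      IsMinimalFieldFor (Nat.card (Subgroup.center R)) p e F ∧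
      ((Odd r ∧ Nat.card (Subgroup.center R) = r ∧ 1 ≤ k ∧ Nat.card R = r ^ (1 + 2 * k)) ∨
       (r = 2 ∧ e = 2 ∧ Nat.card (Subgroup.center R) = 4 ∧ Nat.card R = 2 ^ (2 + 2 * k))) ∧
      n = r ^ k ∧ H = subgroupNormalizer R ⊓ (Iso f ⊓ specialLinear (Fin n) F)) ∨
  (∃ (k t : ℕ) (e : Fin n ≃ (Fin t → Fin k)) (P : GL (Fin n) F), n = k ^ t ∧ 3 ≤ k ∧ 2 ≤ t ∧
      IsON σ f P ∧ H ≤ tensorWreathSubgroup k t e P)

/-- the statement of the piece `planes2` -/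
def Planes2 (f : (Fin n → F) → (Fin n → F) → F) : Prop :=
  ∀ {t : ℕ} (D : Fin t → Submodule F (Fin n → F)), IsNondegenerateMDecomposition f 2 D →
    ∃ D' : Fin n → Submodule F (Fin n → F), IsNondegenerateMDecomposition f 1 D' ∧
      decompositionStabilizer D ⊓ Iso f ≤ decompositionStabilizer D'

lemma two_le_q [Fintype F] {q : ℕ} (hq : Fintype.card F = q ^ 2) : 2 ≤ q := by
  have h1 : 1 < Fintype.card F := Fintype.one_lt_card
  rw [hq] at h1
  by_contra hcon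
  have : q = 0 ∨ q = 1 := by omega
  rcases this with rfl | rfl <;> simp at h1

theorem umax [Fintype F] {q : ℕ} (hU : US σ f q) (hn : 7 ≤ n) (hpl : q = 2 → Planes2 f)
    (H : Subgroup (GL (Fin n) F)) (hH : IsMaximalIn (Iso f ⊓ specialLinear (Fin n) F) H) :
    UMaxAlt σ f q H ∨ InUnitaryResidualClass H := by
  have hf := hU.unitary
  have hq2 := two_le_q hU.card
  have hHI : H ≤ Iso f := hH.1.le.trans inf_le_left
  rcases umain hU (by omega) H hHI with h | h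
  swap
  · exact Or.inr h
  left
  -- non-degenerate decompositions
  have hdec : ∀ {t k : ℕ} {D : Fin t → Submodule F (Fin n → F)}, IsNondegenerateMDecomposition f k D →
      (k = 2 → 3 ≤ q) → H ≤ decompositionStabilizer D → UMaxAlt σ f q H := by
    intro t k D hD hk2 hle
    have hcard := Cfsg.Agent.Lib.Helper67AschD.decomp_card D hD.decomp
    refine Or.inr (Or.inr (Or.inl ⟨t, k, D, hcard, hD.decomp.two_le, hD.decomp.pos, hk2, hD,
      eq_inf_of_le' hH hle ?_⟩))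
    have hk0 := hD.decomp.pos
    by_cases hk1 : k = 1
    · subst hk1
      obtain rfl : t = n := by omega
      exact Cfsg.Agent.Lib.Helper97UProper.not_le_decomp hf (by omega) D hD
    · exact notSU_decomp hf (by omega) D hD.decomp
  rcases h with ⟨W, h0, h1, h⟩ | ⟨W, h0, h1, h2, h⟩ | ⟨t, k, D, hD, h⟩ | ⟨k, D, hk, hD, hs, h⟩ |
    ⟨r, K, hr, hodd, hK, hs, h⟩ | ⟨n₁, n₂, e, P, h1, h2, hP, h⟩ | ⟨F₀, r, P, hr, hodd, hc, hP, h⟩ |
    ⟨F₀, P, hodd, hc, hP, h⟩ | ⟨F₀, P, ζ, hev, hc, h0, h1, hP, ha, h⟩ |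
    ⟨r, R, p, e, k, h1, h2, h3, h3', h4, h5, h6, h7, h⟩ | ⟨k, t, e, P, hk, ht, hP, h⟩
  · exact Or.inl ⟨W, h0, h1, eq_inf_of_le' hH h
      (Cfsg.Agent.Lib.Helper97UProper.not_le_stab_singular hf h0 h1)⟩
  · refine Or.inr (Or.inl ⟨W, h0, h1, h2, eq_inf_of_le' hH h
      (Cfsg.Agent.Lib.Helper97UProper.not_le_stab_nondeg hf h0 ?_ h1)⟩)
    rintro rfl
    rw [finrank_top, Module.finrank_fin_fun] at h2
    omega
  · by_cases hk2 : k = 2 ∧ q = 2
    · obtain ⟨rfl, rfl⟩ := hk2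
      obtain ⟨D', hD', hle'⟩ := hpl rfl D hD
      exact hdec hD' (by omega) ((le_inf h hHI).trans hle')
    · exact hdec hD (by omega) h
  · refine Or.inr (Or.inr (Or.inr (Or.inl ⟨k, D, hk, hD, hs, eq_inf_of_le' hH h
      (notSU_decomp hf (by omega) D hD)⟩)))
  · exact Or.inr (Or.inr (Or.inr (Or.inr (Or.inl ⟨r, K, hr, hodd,
      Cfsg.Agent.Lib.Helper67AschD.field_dvd K hK, hK, hs, eq_inf_of_le' hH h
      (notSU_subalg hf (by omega) hr.one_lt K hK)⟩))))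
  · have hcard := Fintype.card_congr e
    simp only [Fintype.card_fin, Fintype.card_prod] at hcard
    by_cases hk2 : n₁ = 2 ∧ q = 2
    · obtain ⟨rfl, rfl⟩ := hk2
      obtain ⟨D', hD', hle'⟩ := tensor_two_u hU (by omega) e hP
      exact hdec hD' (by omega) ((le_inf h hHI).trans hle')
    · exact Or.inr (Or.inr (Or.inr (Or.inr (Or.inr (Or.inl ⟨n₁, n₂, e, P, hermForm n₁ F q,
        hermForm n₂ F q, hcard, h1, h2, by omega, unitaryPow_herm hU.card n₁, unitaryPow_herm hU.card n₂,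
        tensorForm_of_ON hU e hP, eq_inf_of_le' hH h (notSU_tensor hU h1 (by omega) e hP)⟩)))))
  · exact Or.inr (Or.inr (Or.inr (Or.inr (Or.inr (Or.inr (Or.inl ⟨F₀, r, P, hr, hodd, hc, hP,
      eq_inf_of_le' hH h (Cfsg.Agent.Lib.Helper97UProper4.not_le_subfieldSubgroup hf hn
        (Cfsg.Agent.Lib.Helper97AschSubfield.subfield_ne_top_of_card hr hc) P)⟩))))))
  · exact Or.inr (Or.inr (Or.inr (Or.inr (Or.inr (Or.inr (Or.inr (Or.inl ⟨hodd, F₀, P, hc, hP,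
      eq_inf_of_le' hH h (Cfsg.Agent.Lib.Helper97UProper4.not_le_subfieldSubgroup hf hn
        (Cfsg.Agent.Lib.Helper97AschSubfield.subfield_ne_top_of_card Nat.prime_two hc) P)⟩)))))))
  · exact Or.inr (Or.inr (Or.inr (Or.inr (Or.inr (Or.inr (Or.inr (Or.inr (Or.inl ⟨hev, F₀, P, ζ, hc, h0,
      h1, hP, ha, eq_inf_of_le' hH h (Cfsg.Agent.Lib.Helper97UProper4.not_le_subfieldSubgroup hf hn
        (Cfsg.Agent.Lib.Helper97AschSubfield.subfield_ne_top_of_card Nat.prime_two hc) P)⟩))))))))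
  · exact Or.inr (Or.inr (Or.inr (Or.inr (Or.inr (Or.inr (Or.inr (Or.inr (Or.inr (Or.inl ⟨r, R, p, e, k,
      h1, h2, h3.trans Iso_le_similarityGroup, h4, h5, h6, h7, eq_inf_of_le' hH h
      (notSU_c6 hf (by omega) h2 h3')⟩)))))))))
  · have hcard := Fintype.card_congr e
    simp only [Fintype.card_fin, Fintype.card_fun] at hcard
    exact Or.inr (Or.inr (Or.inr (Or.inr (Or.inr (Or.inr (Or.inr (Or.inr (Or.inr (Or.inr
      ⟨k, t, e, P, hcard, hk, ht, hP, h⟩)))))))))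

/-- class 7 for `q ≥ 3` -/
theorem uwreath [Fintype F] {q : ℕ} (hU : US σ f q) (hq3 : 3 ≤ q) {H : Subgroup (GL (Fin n) F)}
    (hH : IsMaximalIn (Iso f ⊓ specialLinear (Fin n) F) H) {k t : ℕ} (hk : 3 ≤ k) (ht : 2 ≤ t)
    {e : Fin n ≃ (Fin t → Fin k)} {P : GL (Fin n) F} (hP : IsON σ f P)
    (h : H ≤ tensorWreathSubgroup k t e P) :
    ∃ (e : Fin n ≃ (Fin t → Fin k)) (P : GL (Fin n) F) (f₁ : (Fin k → F) → (Fin k → F) → F),
      IsUnitaryFormPow q f₁ ∧ IsTensorPowerFormStructure (fun x : F => x ^ q) f f₁ e P ∧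
      H = tensorWreathSubgroup k t e P ⊓ (Iso f ⊓ specialLinear (Fin n) F) :=
  ⟨e, P, hermForm k F q, unitaryPow_herm hU.card k, tensorPower_of_ON hU e hP,
    eq_inf_of_le' hH h (notSU_wreath hU hq3 (by omega) ht e hP)⟩

/-- arithmetic of class six, centre of order four -/
lemma c6U_two [Fintype F] {q p : ℕ} (hq : Fintype.card F = q ^ 2) (h : IsMinimalFieldFor 4 p 2 F) :
    p.Prime ∧ q = p ∧ p % 4 = 3 := by
  obtain ⟨hp, _, hcard, hdvd, hmin⟩ := h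
  have hqp : q = p := by
    rw [hq] at hcard
    exact Nat.pow_left_injective (n := 2) (by norm_num) hcard
  refine ⟨hp, hqp, ?_⟩
  have h1 := hmin 1 (by norm_num) (by norm_num)
  rw [pow_one] at h1
  have hp2 := hp.two_le
  have h2 : p % 4 = 0 ∨ p % 4 = 1 ∨ p % 4 = 2 ∨ p % 4 = 3 := by omega
  have h3 : p ^ 2 % 4 = 1 := by
    have : 1 ≤ p ^ 2 := Nat.one_le_pow _ _ (by omega)
    omega
  rw [Nat.pow_mod] at h3
  rcases h2 with h | h | h | h
  · rw [h] at h3; norm_num at h3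
  · exfalso; apply h1; omega
  · rw [h] at h3; norm_num at h3
  · exact h

/-- arithmetic of class six, centre of order three -/
lemma c6U_three [Fintype F] {q p e : ℕ} (hq : Fintype.card F = q ^ 2) (hne : 3 ≠ p)
    (h : IsMinimalFieldFor 3 p e F) : p.Prime ∧ q = p ∧ p % 3 = 2 := by
  obtain ⟨hp, _, hcard, hdvd, hmin⟩ := h
  have hp2 := hp.two_le
  have hp3 : p % 3 ≠ 0 := by
    intro h0
    have : 3 ∣ p := Nat.dvd_of_mod_eq_zero h0
    exact hne ((Nat.prime_dvd_prime_iff_eq Nat.prime_three hp).mp this)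
  have h2 : 3 ∣ p ^ 2 - 1 := by
    have h1 : p ^ 2 % 3 = 1 := by
      rw [Nat.pow_mod]
      have : p % 3 = 1 ∨ p % 3 = 2 := by omega
      rcases this with h | h <;> rw [h]
    have h3 : 1 ≤ p ^ 2 := Nat.one_le_pow _ _ (by omega)
    omega
  have he2 : e ≤ 2 := by
    by_contra hcon
    exact hmin 2 (by omega) (by omega) h2
  have he : e = 2 := by
    have hdvdq : q ∣ p ^ e := by
      rw [← hcard, hq]
      exact dvd_pow_self q two_ne_zero
    obtain ⟨k, _, hk⟩ := (Nat.dvd_prime_pow hp).mp hdvdq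
    rw [hq, hk, ← pow_mul] at hcard
    have := Nat.pow_right_injective hp.two_le hcard
    have he0 : e ≠ 0 := by
      rintro rfl
      have h1 : 1 < Fintype.card F := Fintype.one_lt_card
      rw [hq, hk, ← pow_mul, this] at h1
      simp at h1
    omega
  subst he
  have hqp : q = p := by
    rw [hq] at hcard
    exact Nat.pow_left_injective (n := 2) (by norm_num) hcard
  refine ⟨hp, hqp, ?_⟩
  have h1 := hmin 1 (by norm_num) (by norm_num)
  rw [pow_one] at h1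
  omega

end Cfsg.Agent.Lib.Helper57UMax
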