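import Cfsg.Agent.Lib.Helper97OBase
import Cfsg.Agent.Lib.Helper96OrthStd

set_option autoImplicit false
set_option linter.unusedSectionVars false

/-! PROJECT 5 = ASCH-O, piece `rrall`. -/

namespace Cfsg.Agent.Lib.Helper95ORrall

open Cfsg Cfsg.Geo Matrix Cfsg.Agent.Lib.Helper97GBase Cfsg.Agent.Lib.Helper97GForms
  Cfsg.Agent.Lib.Helper95Quad Cfsg.Agent.Lib.Helper95Form Cfsg.Agent.Lib.Helper95Basic
  Cfsg.Agent.Lib.Helper97OBase
open scoped MatrixGroups

variable {ι : Type} [Fintype ι] [DecidableEq ι] {F : Type*} [Field F] {Q : (ι → F) → F}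

/-- [rrall] products of two reflections in vectors of the same norm lie in `Ω` (all characteristics). -/
theorem rr_mem_all [Fintype F] (hQ : IsNondegenerateQuadraticForm Q) (hn : 5 ≤ Fintype.card ι)
    (u v : ι → F) (hu : Q u ≠ 0) (hv : Q v ≠ 0) (huv : Q u = Q v) :
    rf hQ u hu * rf hQ v hv ∈ omegaGL Q := by
  have hb := hQ.polar_bilinear
  have h := qf hQ
  have hsub : Q (u - v) = Q u + Q v - QuadraticMap.polar Q u v := h.sub u v
  have hsubl : ∀ a b x, QuadraticMap.polar Q (a - b) x
      = QuadraticMap.polar Q a x - QuadraticMap.polar Q b x := by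
    intro a b x
    have := hb.add_left (a - b) b x
    rw [sub_add_cancel] at this
    rw [this]; ring
  have hsubr : ∀ x a b, QuadraticMap.polar Q x (a - b)
      = QuadraticMap.polar Q x a - QuadraticMap.polar Q x b := by
    intro x a b
    have := hb.add_right x (a - b) b
    rw [sub_add_cancel] at this
    rw [this]; ring
  by_cases hm : Q (u - v) = 0
  · -- an Eichler transformation
    have huv2 : QuadraticMap.polar Q u v = 2 * Q u := by
      rw [hsub] at hm
      linear_combination -hm - huv
    have hw : Cfsg.Agent.Lib.Helper96OrthStd.stdB hQ (u - v) ((-(Q u)⁻¹) • u) = 0 := by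
      rw [Cfsg.Agent.Lib.Helper96OrthStd.stdB_apply, hb.smul_right, hsubl, polar_self hQ,
        QuadraticMap.polar_comm Q v u, huv2]
      ring
    have heq : rf hQ u hu * rf hQ v hv
        = mkGL (Cfsg.Agent.Lib.Helper96Orth.ei (Cfsg.Agent.Lib.Helper96OrthStd.stdQF hQ) (u - v)
            ((-(Q u)⁻¹) • u)) := by
      apply gl_ext
      intro x
      rw [mul_mulVec, mkGL_mulVec, Cfsg.Agent.Lib.Helper96Orth.ei_apply _ hm hw, rf_mulVec, rf_mulVec]
      simp only [Cfsg.Agent.Lib.Helper96OrthStd.stdB_apply]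
      rw [hsubr, hb.smul_right, hb.smul_right, hsubr, hQ.smul, huv2, ← huv,
        QuadraticMap.polar_comm Q x u, QuadraticMap.polar_comm Q x v]
      have hc : (Q u)⁻¹ * Q u = 1 := inv_mul_cancel₀ hu
      set c' := (Q u)⁻¹ with hc'
      set a := QuadraticMap.polar Q u x
      set b := QuadraticMap.polar Q v x
      have e1 : c' * (a - c' * b * (2 * Q u)) = c' * a - 2 * c' * b := by
        linear_combination (-2 * c' * b) * hc
      have e2 : (-c') ^ 2 * Q u * (a - b) = c' * (a - b) := by
        linear_combination (c' * (a - b)) * hc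
      rw [e1, e2]
      module
    rw [heq]
    exact Cfsg.Agent.Lib.Helper96OrthStd.mkGL_ei_mem hQ hn _ _
  · have hg := rf_mem hQ (u - v) hm
    have hguv : (rf hQ (u - v) hm : Matrix ι ι F) *ᵥ u = v := by
      rw [rf_mulVec]
      have e : QuadraticMap.polar Q (u - v) u = Q (u - v) := by
        rw [hsubl, polar_self hQ, hsub, QuadraticMap.polar_comm Q v u, ← huv]
        ring
      rw [e, inv_mul_cancel₀ hm, one_smul]
      abel
    have e := comm_mem (rf_mem hQ u hu) hg
    rw [rf_inv] at e
    rw [← conj_rf hQ hg u v hu hv (Or.inl hguv)]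
    simpa [mul_assoc] using e

end Cfsg.Agent.Lib.Helper95ORrall
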