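import Cfsg.Agent.Lib.Helper95OPdec
import Cfsg.Agent.Lib.Helper95ORrall

set_option autoImplicit false
set_option linter.unusedSectionVars false

/-! PROJECT 5 = ASCH-O, piece `pdecall`: `Ω` stabilises no non-degenerate decomposition with blocks
of dimension at least two (all characteristics). -/

namespace Cfsg.Agent.Lib.Helper60OPdecall

open Cfsg Cfsg.Geo Matrix Cfsg.Agent.Lib.Helper97GBase Cfsg.Agent.Lib.Helper97GForms
  Cfsg.Agent.Lib.Helper95Quad Cfsg.Agent.Lib.Helper95Form Cfsg.Agent.Lib.Helper95Basic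
  Cfsg.Agent.Lib.Helper97OBase Cfsg.Agent.Lib.Helper97OProper Cfsg.Agent.Lib.Helper95ORrall
  Cfsg.Agent.Lib.Helper95OPdec
open scoped MatrixGroups

variable {ι : Type} [Fintype ι] [DecidableEq ι] {F : Type*} [Field F] {Q : (ι → F) → F}

/-- a non-zero vector of a subspace of dimension at least three orthogonal to two given vectors -/
theorem exists_perp_in_two (hQ : IsNondegenerateQuadraticForm Q) (W : Submodule F (ι → F))
    (hW : 2 < Module.finrank F W) (u v : ι → F) :
    ∃ x ∈ W, x ≠ 0 ∧ QuadraticMap.polar Q u x = 0 ∧ QuadraticMap.polar Q v x = 0 := by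
  let φ : W →ₗ[F] F × F := ((bil hQ u).domRestrict W).prod ((bil hQ v).domRestrict W)
  have hker : LinearMap.ker φ ≠ ⊥ := LinearMap.ker_ne_bot_of_finrank_lt (by
    rw [Module.finrank_prod, Module.finrank_self]; exact hW)
  obtain ⟨x, hx, hx0⟩ := Submodule.exists_mem_ne_zero_of_ne_bot hker
  have hx' : φ x = 0 := hx
  refine ⟨x.1, x.2, fun h => hx0 (Subtype.ext h), ?_, ?_⟩
  · exact congrArg Prod.fst hx'
  · exact congrArg Prod.snd hx'

/-- `Q` is not constant on the non-zero vectors of a non-degenerate subspace of dimension `≥ 3` -/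
theorem exists_ne_val (hQ : IsNondegenerateQuadraticForm Q) {U : Submodule F (ι → F)}
    (hU : IsNondegenerateOn (QuadraticMap.polar Q) U) (h3 : 2 < Module.finrank F U) (d : F) :
    ∃ w ∈ U, w ≠ 0 ∧ Q w ≠ d := by
  by_contra hcon
  push Not at hcon
  have hb := hQ.polar_bilinear
  have hU0 : U ≠ ⊥ := by
    rintro rfl
    rw [finrank_bot] at h3
    omega
  obtain ⟨w₀, hw₀, hw₀0⟩ := Submodule.exists_mem_ne_zero_of_ne_bot hU0
  obtain ⟨w₁, hw₁, h01⟩ := (hU w₀ hw₀ hw₀0).2
  obtain ⟨w₂, hw₂, hw₂0, h02, h12⟩ := exists_perp_in_two hQ U h3 w₀ w₁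
  have hpz : ∀ v, QuadraticMap.polar Q v 0 = 0 := by
    intro v
    have := hb.smul_right 0 v 0
    simpa using this
  have hs : w₀ + w₂ ≠ 0 := by
    intro h
    have e : QuadraticMap.polar Q w₁ (w₀ + w₂) = 0 := by rw [h]; exact hpz _
    rw [hb.add_right, h12, add_zero, QuadraticMap.polar_comm] at e
    exact h01 e
  have e1 := hcon _ (U.add_mem hw₀ hw₂) hs
  have e2 := (qf hQ).add w₀ w₂
  rw [bil_apply, h02, e1, hcon _ hw₀ hw₀0, hcon _ hw₂ hw₂0] at e2
  have hd : d = 0 := by linear_combination -e2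
  have hw₁0 : w₁ ≠ 0 := by
    rintro rfl
    exact h01 (hpz _)
  have e3 := (qf hQ).add w₀ w₁
  rw [bil_apply, hcon _ hw₀ hw₀0, hcon _ hw₁ hw₁0, hd] at e3
  have hs' : w₀ + w₁ ≠ 0 := by
    intro h
    rw [h, (qf hQ).zero] at e3
    apply h01
    linear_combination -e3
  rw [hcon _ (U.add_mem hw₀ hw₁) hs', hd] at e3
  apply h01
  linear_combination -e3

/-- [pdecall] -/
theorem not_le_decomp_all [Fintype F] (hQ : IsNondegenerateQuadraticForm Q) (hn : 7 ≤ Fintype.card ι)
    {t k : ℕ} (hk : 1 < k) (D : Fin t → Submodule F (ι → F))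
    (hD : IsNondegenerateMDecomposition (QuadraticMap.polar Q) k D) :
    ¬ omegaGL Q ≤ decompositionStabilizer D := by
  by_cases h2 : (2 : F) = 0
  swap
  · exact not_le_decomp_big hQ h2 hn hk D hD
  intro hle
  have hb := hQ.polar_bilinear
  have hq := qf hQ
  have ht := hD.decomp.two_le
  let i0 : Fin t := ⟨0, by omega⟩
  let i1 : Fin t := ⟨1, by omega⟩
  have h01 : i0 ≠ i1 := by
    intro h
    have := congrArg Fin.val h
    simp [i0, i1] at this
  have hfr : ∀ i, Module.finrank F (D i) = k := hD.decomp.finrank_eq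
  have hne : ∀ i, D i ≠ ⊥ := by
    intro i h
    have := hfr i
    rw [h, finrank_bot] at this
    omega
  have hinf := inf_orth_eq_bot_of_nondegOn hQ (hD.nondegenerate i0)
  have hinf' : orth hQ (D i0) ⊓ orth hQ (orth hQ (D i0)) = ⊥ := by
    rw [orth_orth, inf_comm]; exact hinf
  have hUnd := nondegOn_of_inf_eq_bot hQ hinf'
  have hDU : ∀ j, j ≠ i0 → D j ≤ orth hQ (D i0) := by
    intro j hj v hv
    rw [mem_orth]
    intro w hw
    exact hD.orthogonal i0 j (Ne.symm hj) w hw v hv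
  have hUfr : 2 < Module.finrank F (orth hQ (D i0)) := by
    have e1 := finrank_orth hQ (D i0)
    have e2 := Submodule.finrank_mono (hDU i1 (Ne.symm h01))
    rw [hfr] at e1 e2
    omega
  obtain ⟨x, hx, hx0⟩ := Submodule.exists_mem_ne_zero_of_ne_bot (hne i0)
  obtain ⟨u, hu, hux⟩ := (hD.nondegenerate i0 x hx hx0).1
  obtain ⟨w, hw, hw0, hQw⟩ := exists_ne_val hQ hUnd hUfr (-Q u)
  have huw : QuadraticMap.polar Q u w = 0 := mem_orth.mp hw u hu
  have hxw : QuadraticMap.polar Q x w = 0 := mem_orth.mp hw x hx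
  obtain ⟨a, ha⟩ : ∃ a, a = u + w := ⟨_, rfl⟩
  have hQa : Q a ≠ 0 := by
    have := hq.add u w
    rw [bil_apply, huw, add_zero] at this
    rw [ha, this]
    intro h
    apply hQw
    linear_combination h
  obtain ⟨y, hyx, -, hQy⟩ := exists_perp_two hQ hn x x (Q a)
  have hQy0 : Q y ≠ 0 := by rw [hQy]; exact hQa
  obtain ⟨π, hπ⟩ := hle (rr_mem_all hQ (by omega) a y hQa hQy0 hQy.symm)
  have hz : ((rf hQ a hQa * rf hQ y hQy0 : GL ι F) : Matrix ι ι F) *ᵥ x ∈ D (π i0) := by
    rw [← hπ i0]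
    exact ⟨x, hx, by simp [Matrix.toLin'_apply]⟩
  have hax : QuadraticMap.polar Q a x = QuadraticMap.polar Q u x := by
    rw [ha, hb.add_left, QuadraticMap.polar_comm Q w x, hxw, add_zero]
  rw [mul_mulVec, rf_fix hQ y hQy0 hyx, rf_mulVec, hax] at hz
  set lam : F := (Q a)⁻¹ * QuadraticMap.polar Q u x with hlam
  have hlam0 : lam ≠ 0 := mul_ne_zero (inv_ne_zero hQa) hux
  by_cases hj : π i0 = i0
  · rw [hj] at hz
    have h1 : lam • w ∈ D i0 := by
      have := (D i0).sub_mem ((D i0).sub_mem hx ((D i0).smul_mem lam hu)) hz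
      have e : x - lam • u - (x - lam • a) = lam • w := by
        rw [ha, smul_add]; abel
      rwa [e] at this
    have h3 : w ∈ D i0 := by
      have := (D i0).smul_mem lam⁻¹ h1
      rwa [smul_smul, inv_mul_cancel₀ hlam0, one_smul] at this
    have : w ∈ D i0 ⊓ orth hQ (D i0) := ⟨h3, hw⟩
    rw [hinf] at this
    exact hw0 this
  · have hz' := hDU _ hj hz
    have h1 : x - lam • u ∈ orth hQ (D i0) := by
      have := (orth hQ (D i0)).add_mem hz' ((orth hQ (D i0)).smul_mem lam hw)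
      have e : x - lam • a + lam • w = x - lam • u := by
        rw [ha, smul_add]; abel
      rwa [e] at this
    have : x - lam • u ∈ D i0 ⊓ orth hQ (D i0) :=
      ⟨(D i0).sub_mem hx ((D i0).smul_mem lam hu), h1⟩
    rw [hinf] at this
    have hxu : x = lam • u := sub_eq_zero.mp this
    apply hux
    rw [hxu, hb.smul_right, polar_self hQ, h2]
    ring

end Cfsg.Agent.Lib.Helper60OPdecall
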