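import Cfsg.Agent.Lib.Helper11OField
import Cfsg.Agent.Lib.Helper95ORrall

set_option autoImplicit false
set_option linter.unusedSectionVars false

/-! PROJECT 5 = ASCH-O, piece `pfieldall` (core, relative to `rr_mem_all`). -/

namespace Cfsg.Agent.Lib.Helper60OPfieldall

open Cfsg Cfsg.Geo Matrix Cfsg.Agent.Lib.Helper97GBase Cfsg.Agent.Lib.Helper97GForms
  Cfsg.Agent.Lib.Helper95Quad Cfsg.Agent.Lib.Helper95Form Cfsg.Agent.Lib.Helper95Basic
  Cfsg.Agent.Lib.Helper97OBase Cfsg.Agent.Lib.Helper97OProper Cfsg.Agent.Lib.Helper97OProper3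
  Cfsg.Agent.Lib.Helper11OField
open scoped MatrixGroups

variable {ι : Type} [Fintype ι] [DecidableEq ι] {F : Type*} [Field F] {Q : (ι → F) → F}

/-- the statement of the piece `rrall` -/
def RR (hQ : IsNondegenerateQuadraticForm Q) : Prop :=
  ∀ (u v : ι → F) (hu : Q u ≠ 0) (hv : Q v ≠ 0), Q u = Q v → rf hQ u hu * rf hQ v hv ∈ omegaGL Q

/-- `Ω` normalises no field properly containing the scalars (all characteristics). -/
theorem not_le_field_core [Finite F] (hQ : IsNondegenerateQuadraticForm Q) (hrr : RR hQ)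
    (hn : 7 ≤ Fintype.card ι)
    {r : ℕ} (hr : 1 < r) (K : Subalgebra F (Matrix ι ι F)) (hK : IsFieldSubalgebra r K) :
    ¬ omegaGL Q ≤ subalgebraNormalizer K := by
  intro hle
  have hbl := hQ.polar_bilinear
  obtain ⟨a, -, -, hQa⟩ := exists_perp_two hQ hn 0 0 1
  have ha : Q a ≠ 0 := by rw [hQa]; exact one_ne_zero
  have ha0 : a ≠ 0 := by
    rintro rfl
    exact ha (qf hQ).zero
  obtain ⟨x, hax⟩ := (hQ.nondegenerate a ha0).2
  obtain ⟨b, hbx, -, hQb⟩ := exists_perp_two hQ hn x x 1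
  have hb : Q b ≠ 0 := by rw [hQb]; exact one_ne_zero
  have hb0 : b ≠ 0 := by
    rintro rfl
    exact hb (qf hQ).zero
  obtain ⟨z, hbz⟩ := (hQ.nondegenerate b hb0).2
  obtain ⟨c, hcx, hcz, hQc⟩ := exists_perp_two hQ hn x z 1
  have hc : Q c ≠ 0 := by rw [hQc]; exact one_ne_zero
  have hc0 : c ≠ 0 := by
    rintro rfl
    exact hc (qf hQ).zero
  -- the key computation
  have key : ∀ (b : ι → F) (hb : Q b ≠ 0), Q b = 1 → QuadraticMap.polar Q b x = 0 →
      ∀ k ∈ K, ∃ l m : F, k *ᵥ a = l • a + m • b := by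
    intro b hb hQb hbx k hk
    have hg := hle (hrr a b ha hb (hQa.trans hQb.symm))
    have e := commute_rr hQ (by omega) hK a b ha hb hg hk x
    have e1 : ((rf hQ a ha * rf hQ b hb : GL ι F) : Matrix ι ι F) *ᵥ x =
        x - QuadraticMap.polar Q a x • a := by
      rw [mul_mulVec, rf_fix hQ b hb hbx, rf_mulVec, hQa]
      simp only [inv_one, one_mul]
    rw [e1, Matrix.mulVec_sub, Matrix.mulVec_smul, mul_mulVec, rf_mulVec hQ b hb, rf_mulVec hQ a ha,
      hQa, hQb] at e
    simp only [inv_one, one_mul] at e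
    generalize QuadraticMap.polar Q a (k *ᵥ x - QuadraticMap.polar Q b (k *ᵥ x) • b) = s at e
    generalize QuadraticMap.polar Q b (k *ᵥ x) = t at e
    refine ⟨s / QuadraticMap.polar Q a x, t / QuadraticMap.polar Q a x, ?_⟩
    have e2 : QuadraticMap.polar Q a x • (k *ᵥ a) = s • a + t • b := by
      have e3 : QuadraticMap.polar Q a x • (k *ᵥ a) =
          k *ᵥ x - (k *ᵥ x - QuadraticMap.polar Q a x • (k *ᵥ a)) := by abel
      rw [e3, ← e]
      abel
    calc k *ᵥ a = (QuadraticMap.polar Q a x)⁻¹ • (QuadraticMap.polar Q a x • (k *ᵥ a)) := by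
          rw [smul_smul, inv_mul_cancel₀ hax, one_smul]
      _ = _ := by
          rw [e2, smul_add, smul_smul, smul_smul, div_eq_inv_mul, div_eq_inv_mul]
  have hsc : ∀ k ∈ K, ∃ α : F, k = α • (1 : Matrix ι ι F) := by
    intro k hk
    obtain ⟨l, m, k1⟩ := key b hb hQb hbx k hk
    obtain ⟨l', m', k2⟩ := key c hc hQc hcx k hk
    have e : l • a + m • b = l' • a + m' • c := k1.symm.trans k2
    -- pair with `x`
    have e1 := congrArg (fun v => QuadraticMap.polar Q v x) e
    simp only [hbl.add_left, hbl.smul_left, hbx, hcx, mul_zero, add_zero] at e1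
    have hl : l = l' := mul_right_cancel₀ hax e1
    subst hl
    have e2 : m • b = m' • c := add_left_cancel e
    have e3 := congrArg (fun v => QuadraticMap.polar Q v z) e2
    simp only [hbl.smul_left, hcz, mul_zero] at e3
    have hm : m = 0 := (mul_eq_zero.mp e3).resolve_right hbz
    subst hm
    rw [zero_smul, add_zero] at k1
    refine ⟨l, ?_⟩
    have hmem : k - l • (1 : Matrix ι ι F) ∈ K := K.sub_mem hk (K.smul_mem K.one_mem _)
    have hz : (k - l • (1 : Matrix ι ι F)) *ᵥ a = 0 := by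
      rw [Matrix.sub_mulVec, Matrix.smul_mulVec, Matrix.one_mulVec, k1, sub_self]
    exact sub_eq_zero.mp (eq_zero_of_mulVec hK hmem ha0 hz)
  have hbot : K = ⊥ := by
    rw [eq_bot_iff]
    intro k hk
    obtain ⟨α, rfl⟩ := hsc k hk
    rw [Algebra.mem_bot]
    exact ⟨α, by rw [Algebra.algebraMap_eq_smul_one]⟩
  have hfr := hK.finrank_eq
  have : Nonempty ι := by
    apply Fintype.card_pos_iff.mp
    omega
  rw [hbot, Subalgebra.finrank_bot] at hfr
  omega

/-- `rr_mem_all` in the form `RR`. -/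
theorem rr_all [Fintype F] (hQ : IsNondegenerateQuadraticForm Q) (hn : 5 ≤ Fintype.card ι) : RR hQ :=
  fun u v hu hv h => Cfsg.Agent.Lib.Helper95ORrall.rr_mem_all hQ hn u v hu hv h

/-- [pfieldall] -/
theorem not_le_field_all [Fintype F] (hQ : IsNondegenerateQuadraticForm Q) (hn : 7 ≤ Fintype.card ι)
    {r : ℕ} (hr : 1 < r) (K : Subalgebra F (Matrix ι ι F)) (hK : IsFieldSubalgebra r K) :
    ¬ omegaGL Q ≤ subalgebraNormalizer K :=
  not_le_field_core hQ (rr_all hQ (by omega)) hn hr K hK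

end Cfsg.Agent.Lib.Helper60OPfieldall
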