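import Cfsg.Agent.Lib.Helper97OProper
import Cfsg.Agent.Lib.Helper95ORrall

set_option autoImplicit false
set_option linter.unusedSectionVars false

/-! PROJECT 5 = ASCH-O, piece `pirr`: `Ω` is irreducible (all characteristics). -/

namespace Cfsg.Agent.Lib.Helper60OPirr

open Cfsg Cfsg.Geo Matrix Cfsg.Agent.Lib.Helper97GBase Cfsg.Agent.Lib.Helper97GForms
  Cfsg.Agent.Lib.Helper95Quad Cfsg.Agent.Lib.Helper95Form Cfsg.Agent.Lib.Helper95Basic
  Cfsg.Agent.Lib.Helper97OBase Cfsg.Agent.Lib.Helper97OProper Cfsg.Agent.Lib.Helper95ORrall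
open scoped MatrixGroups

variable {ι : Type} [Fintype ι] [DecidableEq ι] {F : Type*} [Field F] {Q : (ι → F) → F}

/-- a non-singular vector not orthogonal to an element of an invariant subspace lies in it -/
theorem mem_of_polar_ne [Fintype F] (hQ : IsNondegenerateQuadraticForm Q) (hn : 7 ≤ Fintype.card ι)
    {W : Submodule F (ι → F)} (hle : omegaGL Q ≤ subspaceStabilizer W)
    {w a : ι → F} (hw : w ∈ W) (ha : Q a ≠ 0) (haw : QuadraticMap.polar Q a w ≠ 0) : a ∈ W := by
  obtain ⟨b, hbw, -, hQb⟩ := exists_perp_two hQ hn w w (Q a)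
  have hb : Q b ≠ 0 := by rw [hQb]; exact ha
  have hg := hle (rr_mem_all hQ (by omega) a b ha hb hQb.symm)
  have h1 := (mem_subspaceStabilizer_iff.mp hg w).mp hw
  rw [mul_mulVec, rf_fix hQ b hb hbw, rf_mulVec hQ a ha] at h1
  have h3 : ((Q a)⁻¹ * QuadraticMap.polar Q a w) • a ∈ W := by
    have := W.sub_mem hw h1
    simpa using this
  have h4 : (Q a)⁻¹ * QuadraticMap.polar Q a w ≠ 0 := mul_ne_zero (inv_ne_zero ha) haw
  have := W.smul_mem ((Q a)⁻¹ * QuadraticMap.polar Q a w)⁻¹ h3
  rwa [smul_smul, inv_mul_cancel₀ h4, one_smul] at this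

/-- two non-orthogonal non-singular vectors orthogonal to a given singular vector -/
theorem exists_pair_perp [Finite F] (hQ : IsNondegenerateQuadraticForm Q) (hn : 7 ≤ Fintype.card ι)
    (c : ι → F) (hc : Q c = 0) :
    ∃ a a', QuadraticMap.polar Q a c = 0 ∧ QuadraticMap.polar Q a' c = 0 ∧ Q a ≠ 0 ∧ Q a' ≠ 0 ∧
      QuadraticMap.polar Q a a' ≠ 0 := by
  have hb := hQ.polar_bilinear
  obtain ⟨a, hac, -, hQa⟩ := exists_perp_two hQ hn c c 1
  have ha : Q a ≠ 0 := by rw [hQa]; exact one_ne_zero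
  obtain ⟨x, hxc, hax⟩ : ∃ x, QuadraticMap.polar Q x c = 0 ∧ QuadraticMap.polar Q a x ≠ 0 := by
    by_contra hcon
    push Not at hcon
    have h1 : a ∈ orth hQ (orth hQ (Submodule.span F {c})) := by
      rw [mem_orth]
      intro x hx
      rw [QuadraticMap.polar_comm]
      apply hcon
      rw [QuadraticMap.polar_comm]
      exact (mem_orth.mp hx) c (Submodule.mem_span_singleton_self c)
    rw [orth_orth, Submodule.mem_span_singleton] at h1
    obtain ⟨t, rfl⟩ := h1
    apply ha
    rw [(qf hQ).smul, hc, mul_zero]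
  by_cases hQx : Q x = 0
  · obtain ⟨z, hzc, hzx, hQz⟩ := exists_perp_two hQ hn c x 1
    have hz : Q z ≠ 0 := by rw [hQz]; exact one_ne_zero
    by_cases haz : QuadraticMap.polar Q a z = 0
    · refine ⟨a, x + z, hac, ?_, ha, ?_, ?_⟩
      · rw [hb.add_left, hxc, hzc, add_zero]
      · have := (qf hQ).add x z
        rw [this, bil_apply, hQx, hQz, QuadraticMap.polar_comm, hzx]
        simp
      · rw [hb.add_right, haz, add_zero]
        exact hax
    · exact ⟨a, z, hac, hzc, ha, hz, haz⟩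
  · exact ⟨a, x, hac, hxc, ha, hQx, hax⟩

/-- [pirr] -/
theorem not_le_stab_all [Fintype F] (hQ : IsNondegenerateQuadraticForm Q) (hn : 7 ≤ Fintype.card ι)
    {W : Submodule F (ι → F)} (h0 : W ≠ ⊥) (h1 : W ≠ ⊤) : ¬ omegaGL Q ≤ subspaceStabilizer W := by
  intro hle
  have hb := hQ.polar_bilinear
  -- non-singular vectors lie in `W` or in its orthogonal complement
  have key : ∀ a, Q a ≠ 0 → a ∈ W ∨ a ∈ orth hQ W := by
    intro a ha
    by_cases h : a ∈ orth hQ W
    · exact Or.inr h
    · left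
      rw [mem_orth] at h
      push Not at h
      obtain ⟨w, hw, hwa⟩ := h
      exact mem_of_polar_ne hQ hn hle hw ha (by rw [QuadraticMap.polar_comm]; exact hwa)
  -- a vector outside both
  obtain ⟨c, hcW, hcO⟩ : ∃ c, c ∉ W ∧ c ∉ orth hQ W := by
    obtain ⟨x, hx⟩ : ∃ x, x ∉ W := by
      by_contra hcon
      push Not at hcon
      exact h1 (eq_top_iff.mpr fun x _ => hcon x)
    obtain ⟨y, hy⟩ : ∃ y, y ∉ orth hQ W := by
      obtain ⟨w, hw, hw0⟩ := Submodule.exists_mem_ne_zero_of_ne_bot h0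
      obtain ⟨y, hy⟩ := (hQ.nondegenerate w hw0).2
      exact ⟨y, fun h => hy (mem_orth.mp h w hw)⟩
    by_cases hx' : x ∈ orth hQ W
    · by_cases hy' : y ∈ W
      · refine ⟨x + y, fun h => hx ?_, fun h => hy ?_⟩
        · have := W.sub_mem h hy'
          simpa using this
        · have := (orth hQ W).sub_mem h hx'
          simpa using this
      · exact ⟨y, hy', hy⟩
    · exact ⟨x, hx, hx'⟩
  have hQc : Q c = 0 := by
    by_contra h
    rcases key c h with h | h
    · exact hcW h
    · exact hcO h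
  obtain ⟨a, a', hac, hac', ha, ha', haa⟩ := exists_pair_perp hQ hn c hQc
  have typ : ∀ a, QuadraticMap.polar Q a c = 0 → Q a ≠ 0 →
      (a ∈ W ∧ c + a ∈ orth hQ W) ∨ (a ∈ orth hQ W ∧ c + a ∈ W) := by
    intro a hac ha
    have hca : Q (c + a) ≠ 0 := by
      have := (qf hQ).add c a
      rw [this, bil_apply, hQc, QuadraticMap.polar_comm, hac]
      simpa using ha
    rcases key a ha with h | h
    · rcases key _ hca with h' | h'
      · exfalso
        apply hcW
        have := W.sub_mem h' h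
        simpa using this
      · exact Or.inl ⟨h, h'⟩
    · rcases key _ hca with h' | h'
      · exact Or.inr ⟨h, h'⟩
      · exfalso
        apply hcO
        have := (orth hQ W).sub_mem h' h
        simpa using this
  apply haa
  have hca' : QuadraticMap.polar Q c a' = 0 := by rw [QuadraticMap.polar_comm]; exact hac'
  rcases typ a hac ha with ⟨h1, h2⟩ | ⟨h1, h2⟩
  · rcases typ a' hac' ha' with ⟨h3, h4⟩ | ⟨h3, h4⟩
    · have := mem_orth.mp h2 a' h3
      rw [hb.add_right, hac', zero_add, QuadraticMap.polar_comm] at this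
      exact this
    · exact mem_orth.mp h3 a h1
  · rcases typ a' hac' ha' with ⟨h3, h4⟩ | ⟨h3, h4⟩
    · rw [QuadraticMap.polar_comm]
      exact mem_orth.mp h1 a' h3
    · have := mem_orth.mp h3 _ h2
      rw [hb.add_left, hca', zero_add] at this
      exact this

end Cfsg.Agent.Lib.Helper60OPirr
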