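import Cfsg.Agent.Lib.Helper97OProper3
import Cfsg.Agent.Lib.Helper95ORrall

set_option autoImplicit false
set_option linter.unusedSectionVars false

/-! PROJECT 5 = ASCH-O, piece `psuball`: `Ω` lies in no subfield subgroup (all characteristics). -/

namespace Cfsg.Agent.Lib.Helper60OPsuball

open Cfsg Cfsg.Geo Matrix Cfsg.Agent.Lib.Helper97GBase Cfsg.Agent.Lib.Helper97GForms
  Cfsg.Agent.Lib.Helper95Quad Cfsg.Agent.Lib.Helper95Form Cfsg.Agent.Lib.Helper95Basic
  Cfsg.Agent.Lib.Helper97OBase Cfsg.Agent.Lib.Helper97OProper Cfsg.Agent.Lib.Helper97GClifford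
  Cfsg.Agent.Lib.Helper97GSubfield Cfsg.Agent.Lib.Helper97OProper3 Cfsg.Agent.Lib.Helper95ORrall
open scoped MatrixGroups

variable {ι : Type} [Fintype ι] [DecidableEq ι] {F : Type*} [Field F] {Q : (ι → F) → F}

/-- two vectors of norm `1` with prescribed inner product -/
theorem exists_pair_polar [Finite F] (hQ : IsNondegenerateQuadraticForm Q) (hn : 7 ≤ Fintype.card ι)
    (t : F) : ∃ u v, Q u = 1 ∧ Q v = 1 ∧ QuadraticMap.polar Q u v = t := by
  have hb := hQ.polar_bilinear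
  obtain ⟨u, -, -, hQu⟩ := exists_perp_two hQ hn 0 0 1
  have hu0 : u ≠ 0 := by
    rintro rfl
    rw [(qf hQ).zero] at hQu
    exact zero_ne_one hQu
  obtain ⟨x, hx⟩ := (hQ.nondegenerate u hu0).2
  obtain ⟨w, hwu, hwx, hQw⟩ := exists_perp_two hQ hn u ((t / QuadraticMap.polar Q u x) • x)
    (1 - Q ((t / QuadraticMap.polar Q u x) • x))
  refine ⟨u, (t / QuadraticMap.polar Q u x) • x + w, hQu, ?_, ?_⟩
  · have := (qf hQ).add ((t / QuadraticMap.polar Q u x) • x) w
    rw [this, bil_apply, hQw, QuadraticMap.polar_comm Q _ w, hwx]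
    ring
  · rw [hb.add_right, hb.smul_right, QuadraticMap.polar_comm Q u w, hwu]
    field_simp
    ring

/-- [psuball] -/
theorem not_le_subfield_all [Fintype F] (hQ : IsNondegenerateQuadraticForm Q)
    (hn : 7 ≤ Fintype.card ι)
    {F₁ : Subfield F} (hF₁ : F₁ ≠ ⊤) (C : GL ι F) : ¬ omegaGL Q ≤ subfieldSubgroup F₁ C := by
  intro hle
  have hb := hQ.polar_bilinear
  obtain ⟨τ, F₂, r, hr, hcard, hτ0, hτ1⟩ := Cfsg.Agent.Lib.Helper97USub.exists_aut' hF₁
  obtain ⟨l, hl⟩ : ∃ l, τ l ≠ l := by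
    by_contra hcon
    push Not at hcon
    apply subfield_ne_top_of_card hr hcard
    rw [eq_top_iff]
    intro a _
    exact (hτ1 a).mp (hcon a)
  obtain ⟨t, ht⟩ : ∃ t, τ (t ^ 2) ≠ t ^ 2 := by
    by_contra hcon
    push Not at hcon
    apply hl
    by_cases h2 : (2 : F) = 0
    · have e1 := hcon l
      rw [map_pow] at e1
      have e2 : (τ l - l) ^ 2 = 0 := by
        have : (τ l - l) ^ 2 = (τ l) ^ 2 + l ^ 2 - 2 * (τ l * l) := by ring
        rw [this, e1, h2]
        have : l ^ 2 + l ^ 2 = 2 * l ^ 2 := by ring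
        rw [this, h2]
        ring
      exact sub_eq_zero.mp (pow_eq_zero_iff (two_ne_zero) |>.mp e2)
    · have e : l = ((l + 1) / 2) ^ 2 - ((l - 1) / 2) ^ 2 := by field_simp; ring
      rw [e, map_sub, hcon, hcon]
  obtain ⟨u, v, hQu, hQv, huv⟩ := exists_pair_polar hQ hn t
  have hu : Q u ≠ 0 := by rw [hQu]; exact one_ne_zero
  have hv : Q v ≠ 0 := by rw [hQv]; exact one_ne_zero
  have hg := hle (rr_mem_all hQ (by omega) u v hu hv (hQu.trans hQv.symm))
  have h3 := trace_fixed (by omega) τ hτ0 C _ (cov Q u) (cov Q v) (by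
    intro x h1 h2
    rw [cov_dot hQ] at h1 h2
    rw [mul_mulVec, rf_fix hQ _ hv h2, rf_fix hQ _ hu h1]) hg
  rw [trace_rr, huv, hQu, hQv] at h3
  apply ht
  simp only [inv_one, one_mul, map_add, map_sub, map_natCast] at h3
  have e4 : τ 4 = 4 := map_ofNat τ 4
  rw [e4] at h3
  exact add_left_cancel h3

end Cfsg.Agent.Lib.Helper60OPsuball
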