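import Cfsg.Agent.Lib.Helper58ODefs
import Cfsg.Agent.Lib.Helper95SpTensodd
import Cfsg.Agent.Lib.Helper58GTenscases

set_option autoImplicit false

/-! PROJECT 5 = ASCH-O, piece `otens`. -/

namespace Cfsg.Agent.Lib.Helper63OTens

open Cfsg Cfsg.Geo Matrix
open Cfsg.Agent.Lib.Helper97GBase Cfsg.Agent.Lib.Helper98AschGDefs Cfsg.Agent.Lib.Helper96SpDefs
  Cfsg.Agent.Lib.Helper58ODefs Cfsg.Agent.Lib.Helper95SpTensodd Cfsg.Agent.Lib.Helper58GTenscases
open scoped MatrixGroups Kronecker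

variable {ι : Type} [Fintype ι] [DecidableEq ι] {F : Type*} [Field F]
variable {f : (ι → F) → (ι → F) → F} {Q : (ι → F) → F} {H : Subgroup (GL ι F)}

/-- [otens] class 4. -/
theorem o_tensor_lt {d s : ℕ} (hd : 3 ≤ d) (hds : d < s)
    (e : ι ≃ Fin d × Fin s) (P : GL ι F) (hle : H ≤ tensorProductSubgroup d s e P)
    (G₁ : Matrix (Fin d) (Fin d) F) (G₂ : Matrix (Fin s) (Fin s) F) (h₁ : IsUnit G₁.det) (h₂ : IsUnit G₂.det)
    (hG : ∀ x y : Fin d × Fin s → F, QuadraticMap.polar Q ((P : Matrix ι ι F) *ᵥ (x ∘ e))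
      ((P : Matrix ι ι F) *ᵥ (y ∘ e)) = formOfGram id (G₁ ⊗ₖ G₂) x y)
    (hs₁ : G₁ᵀ = G₁) (hs₂ : G₂ᵀ = G₂) : OTensor Q H := by
  refine ⟨d, s, e, P, formOfGram id G₁, formOfGram id G₂, hd, hds, formOfGram_symmetric G₁ h₁ hs₁,
    formOfGram_symmetric G₂ h₂ hs₂, ⟨1, one_ne_zero, fun x y => ?_⟩, hle⟩
  rw [hG, gramMatrix_formOfGram, gramMatrix_formOfGram, one_mul]

/-- [otens] swapping the two factors. -/
theorem tens_form_swap {d s : ℕ}
    (e : ι ≃ Fin d × Fin s) (P : GL ι F) (hle : H ≤ tensorProductSubgroup d s e P)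
    (G₁ : Matrix (Fin d) (Fin d) F) (G₂ : Matrix (Fin s) (Fin s) F)
    (hG : ∀ x y : Fin d × Fin s → F, f ((P : Matrix ι ι F) *ᵥ (x ∘ e))
      ((P : Matrix ι ι F) *ᵥ (y ∘ e)) = formOfGram id (G₁ ⊗ₖ G₂) x y) :
    ∃ e' : ι ≃ Fin s × Fin d, H ≤ tensorProductSubgroup s d e' P ∧
      ∀ x y : Fin s × Fin d → F, f ((P : Matrix ι ι F) *ᵥ (x ∘ e'))
        ((P : Matrix ι ι F) *ᵥ (y ∘ e')) = formOfGram id (G₂ ⊗ₖ G₁) x y := by
  refine ⟨e.trans (Equiv.prodComm _ _), hle.trans ?_, fun x y => ?_⟩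
  · unfold tensorProductSubgroup
    apply Subgroup.map_mono
    rintro _ ⟨g, ⟨a, b, hg⟩, rfl⟩
    refine ⟨glReindex (Equiv.prodComm (Fin d) (Fin s)) g, ⟨b, a, ?_⟩, ?_⟩
    · ext ⟨j, i⟩ ⟨j', i'⟩
      rw [glReindex_apply, hg]
      simp [Matrix.kroneckerMap_apply, mul_comm]
    · apply Units.ext
      ext i j
      simp only [MulEquiv.coe_toMonoidHom]
      rw [glReindex_apply, glReindex_apply, glReindex_apply]
      rfl
  · have hx : ∀ x : Fin s × Fin d → F, x ∘ (e.trans (Equiv.prodComm (Fin d) (Fin s))) =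
        (x ∘ Equiv.prodComm (Fin d) (Fin s)) ∘ e := fun x => rfl
    rw [hx, hx, hG]
    simp only [formOfGram, id, Fintype.sum_prod_type, Matrix.kroneckerMap_apply, Function.comp,
      Equiv.prodComm_apply, Prod.swap_prod_mk]
    rw [Finset.sum_comm]
    refine Finset.sum_congr rfl fun b _ => Finset.sum_congr rfl fun a _ => ?_
    rw [Finset.sum_comm]
    refine Finset.sum_congr rfl fun b _ => Finset.sum_congr rfl fun a _ => by ring

/-- [otens] equal dimensions: pass to the tensor wreath subgroup with two factors. -/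
theorem tens_form_eq {d : ℕ}
    (e : ι ≃ Fin d × Fin d) (P : GL ι F) (hle : H ≤ tensorProductSubgroup d d e P)
    (G₁ G₂ : Matrix (Fin d) (Fin d) F)
    (hG : ∀ x y : Fin d × Fin d → F, f ((P : Matrix ι ι F) *ᵥ (x ∘ e))
      ((P : Matrix ι ι F) *ᵥ (y ∘ e)) = formOfGram id (G₁ ⊗ₖ G₂) x y) :
    ∃ e' : ι ≃ (Fin 2 → Fin d), H ≤ tensorWreathSubgroup d 2 e' P ∧
      ∀ x y : (Fin 2 → Fin d) → F, f ((P : Matrix ι ι F) *ᵥ (x ∘ e'))
        ((P : Matrix ι ι F) *ᵥ (y ∘ e')) = ∑ a, ∑ b, x a * (∏ i, (![G₁, G₂] i) (a i) (b i)) * y b := by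
  refine ⟨e.trans (finTwoArrowEquiv (Fin d)).symm, hle.trans ?_, fun x y => ?_⟩
  · unfold tensorProductSubgroup tensorWreathSubgroup
    apply Subgroup.map_mono
    rintro _ ⟨g, ⟨a, b, hg⟩, rfl⟩
    refine ⟨glReindex (finTwoArrowEquiv (Fin d)).symm g, ?_, ?_⟩
    · apply Subgroup.subset_closure
      left
      refine ⟨![a, b], ?_⟩
      intro x y
      rw [glReindex_apply, hg, Fin.prod_univ_two]
      simp [Matrix.kroneckerMap_apply, finTwoArrowEquiv]
    · apply Units.ext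
      ext i j
      simp only [MulEquiv.coe_toMonoidHom]
      rw [glReindex_apply, glReindex_apply, glReindex_apply]
      simp
  · have hx : ∀ x : (Fin 2 → Fin d) → F, x ∘ (e.trans (finTwoArrowEquiv (Fin d)).symm) =
        (x ∘ (finTwoArrowEquiv (Fin d)).symm) ∘ e := fun x => rfl
    rw [hx, hx, hG]
    unfold formOfGram
    rw [← Equiv.sum_comp (finTwoArrowEquiv (Fin d)).symm]
    refine Finset.sum_congr rfl fun a _ => ?_
    rw [← Equiv.sum_comp (finTwoArrowEquiv (Fin d)).symm]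
    refine Finset.sum_congr rfl fun b _ => ?_
    rw [Fin.prod_univ_two]
    simp [Matrix.kroneckerMap_apply, finTwoArrowEquiv]

end Cfsg.Agent.Lib.Helper63OTens
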