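import Mathlib
import Cfsg.Agent.Lib.Helper42Quad
import Cfsg.Agent.Lib.Helper49Gram
import Cfsg.Agent.Lib.Helper49Disc
import Cfsg.Agent.Lib.Helper96OrthStd
import Cfsg.Agent.Lib.Helper70OWitt
import Cfsg.Agent.Lib.Helper70OWittplus

set_option autoImplicit false

/-! ASCH-O piece [disc] (helper70). -/

namespace Cfsg.Agent.Lib.Helper70ODisc

open Cfsg Cfsg.Geo Matrix

variable {ι : Type} [Fintype ι] [DecidableEq ι] {F : Type*} [Field F]
variable {Q : (ι → F) → F}

/-- [disc] `q` odd, dimension `2l`: if `(-1)^l disc(Q)` is a square then `Q` is of plus type. -/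
theorem plus_of_disc [Fintype F] (h2 : (2 : F) ≠ 0) (hQ : IsNondegenerateQuadraticForm Q) {l : ℕ}
    (hl : Fintype.card ι = 2 * l)
    (hsq : IsSquare ((-1 : F) ^ l * (gramMatrix (QuadraticMap.polar Q)).det)) : IsPlusTypeOn Q ⊤ := by
  cases l with
  | zero =>
    refine ⟨⊥, bot_le, ?_, ?_⟩
    · intro w hw
      rw [Submodule.mem_bot] at hw
      subst hw
      have := hQ.smul 0 0
      simpa using this
    · rw [finrank_bot, finrank_top, Module.finrank_fintype_fun_eq_card, hl]
  | succ l' =>
    obtain ⟨e, f, a, b, he, hf, hee, hff, hef, hea, heb, hfa, hfb, hab⟩ :=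
      Cfsg.Agent.Lib.Helper70OWitt.witt_dec hQ (l := l') (by omega)
    obtain ⟨Q', rfl⟩ := Cfsg.Agent.Lib.Helper96OrthStd.exists_quad hQ
    set β := QuadraticMap.polar Q' a b with hβ
    have haa : QuadraticMap.polar Q' a a = 2 * Q' a := by
      rw [QuadraticMap.polar_self, two_smul, two_mul]
    have hbb : QuadraticMap.polar Q' b b = 2 * Q' b := by
      rw [QuadraticMap.polar_self, two_smul, two_mul]
    have hba : QuadraticMap.polar Q' b a = β := QuadraticMap.polar_comm _ _ _
    have hli : LinearIndependent F ![a, b] := by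
      rw [LinearIndependent.pair_iff]
      intro s t hst
      have h1 : QuadraticMap.polar Q' (s • a + t • b) a = 0 := by rw [hst]; simp
      have h3 : QuadraticMap.polar Q' (s • a + t • b) b = 0 := by rw [hst]; simp
      rw [QuadraticMap.polar_add_left, QuadraticMap.polar_smul_left, QuadraticMap.polar_smul_left,
        haa, hba, smul_eq_mul, smul_eq_mul] at h1
      rw [QuadraticMap.polar_add_left, QuadraticMap.polar_smul_left, QuadraticMap.polar_smul_left,
        hbb, ← hβ, smul_eq_mul, smul_eq_mul] at h3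
      constructor
      · have : s * (β ^ 2 - 4 * Q' a * Q' b) = 0 := by linear_combination β * h3 - 2 * Q' b * h1
        exact (mul_eq_zero.mp this).resolve_right hab
      · have : t * (β ^ 2 - 4 * Q' a * Q' b) = 0 := by linear_combination β * h1 - 2 * Q' a * h3
        exact (mul_eq_zero.mp this).resolve_right hab
    have hperp : ∀ j, Cfsg.Agent.Lib.Helper42Quad.Perp Q' e f (![a, b] j) := by
      intro j i
      fin_cases j
      · exact ⟨hea i, hfa i⟩
      · exact ⟨heb i, hfb i⟩
    obtain ⟨bas, hb1, hb2, hb3⟩ := Cfsg.Agent.Lib.Helper42Quad.exists_basis_sum Q' e f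
      ⟨he, hf, hef, hee, hff⟩ ![a, b] hperp hli
      (by rw [Module.finrank_fintype_fun_eq_card, hl]; simp; ring)
    obtain ⟨d, hd, hdet⟩ := Cfsg.Agent.Lib.Helper49Gram.det_gram_basis Q' bas
    have hfe : ∀ i j, QuadraticMap.polar Q' (f i) (e j) = if i = j then 1 else 0 := by
      intro i j
      rw [QuadraticMap.polar_comm, hef]
      simp [eq_comm]
    have hmat : Matrix.of (fun k l => QuadraticMap.polar Q' (bas k) (bas l))
        = Matrix.fromBlocks (Matrix.fromBlocks (0 : Matrix (Fin l') (Fin l') F) 1 1 0) 0 0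
          !![2 * Q' a, β; β, 2 * Q' b] := by
      ext i j
      rcases i with (i | i) | i <;> rcases j with (j | j) | j
      · simp [hb1, hee]
      · simp [hb1, hb2, hef, Matrix.one_apply]
      · fin_cases j <;> simp [hb1, hb3, hea, heb]
      · simp [hb1, hb2, hfe, Matrix.one_apply]
      · simp [hb2, hff]
      · fin_cases j <;> simp [hb2, hb3, hfa, hfb]
      · fin_cases i <;> simp [hb1, hb3, QuadraticMap.polar_comm Q' _ (e j), hea, heb]
      · fin_cases i <;> simp [hb2, hb3, QuadraticMap.polar_comm Q' _ (f j), hfa, hfb]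
      · fin_cases i <;> fin_cases j <;> simp [hb3, haa, hbb, hba, ← hβ]
    rw [hmat, Matrix.det_fromBlocks_zero₂₁, Cfsg.Agent.Lib.Helper49Disc.det_swap_blocks,
      Matrix.det_fin_two_of] at hdet
    have hG : (gramMatrix (QuadraticMap.polar Q')).det = (Cfsg.Agent.Lib.Helper49Gram.gram Q').det :=
      rfl
    rw [hG] at hsq
    obtain ⟨r, hr⟩ := hsq
    -- δ = d * r
    have hpm : ((-1 : F) ^ l') * ((-1 : F) ^ l') = 1 := by
      rw [← mul_pow]; simp
    have hδ : (d * r) ^ 2 = β ^ 2 - 4 * Q' a * Q' b := by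
      have : (d * r) ^ 2 = d * d * (r * r) := by ring
      rw [this, ← hr, pow_succ]
      have h5 : d * d * ((-1 : F) ^ l' * -1 * (Cfsg.Agent.Lib.Helper49Gram.gram Q').det)
          = - ((-1 : F) ^ l') * (d * d * (Cfsg.Agent.Lib.Helper49Gram.gram Q').det) := by ring
      rw [h5, ← hdet]
      linear_combination (-(2 * Q' a * (2 * Q' b) - β * β)) * hpm
    set δ := d * r with hδdef
    have hδ0 : δ ≠ 0 := by
      intro h0
      rw [h0] at hδ
      apply hab
      rw [← hδ]; simp
    have hQlin : ∀ x y : F, Q' (x • a + y • b) = Q' a * x ^ 2 + β * x * y + Q' b * y ^ 2 := by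
      intro x y
      have : Q' (x • a + y • b) = Q' (x • a) + Q' (y • b) + QuadraticMap.polar Q' (x • a) (y • b) := by
        simp [QuadraticMap.polar]
      rw [this, QuadraticMap.map_smul, QuadraticMap.map_smul, QuadraticMap.polar_smul_left,
        QuadraticMap.polar_smul_right, ← hβ]
      simp only [smul_eq_mul]
      ring
    have hlin : ∀ (x y : F) (u : ι → F), QuadraticMap.polar Q' u a = 0 → QuadraticMap.polar Q' u b = 0 →
        QuadraticMap.polar Q' u (x • a + y • b) = 0 := by
      intro x y u h1 h3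
      rw [QuadraticMap.polar_add_right, QuadraticMap.polar_smul_right, QuadraticMap.polar_smul_right,
        h1, h3]
      simp
    have hs : ∃ x y : F, x • a + y • b ≠ 0 ∧ Q' (x • a + y • b) = 0 := by
      rw [LinearIndependent.pair_iff] at hli
      by_cases hQa : Q' a = 0
      · refine ⟨1, 0, fun h0 => one_ne_zero (hli 1 0 h0).1, ?_⟩
        rw [hQlin, hQa]
        ring
      · refine ⟨-β + δ, 2 * Q' a, fun h0 => mul_ne_zero h2 hQa (hli _ _ h0).2, ?_⟩
        rw [hQlin]
        linear_combination Q' a * hδ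
    obtain ⟨x, y, hs0, hsQ⟩ := hs
    exact Cfsg.Agent.Lib.Helper70OWittplus.plus_of_witt hQ (l := l') (by omega) e f
      (x • a + y • b) he hee hef (fun i => hlin _ _ _ (hea i) (heb i))
      (fun i => hlin _ _ _ (hfa i) (hfb i)) hs0 hsQ

end Cfsg.Agent.Lib.Helper70ODisc
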