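import Mathlib
import Cfsg.Prelude.Def_GeometricClasses

set_option autoImplicit false
set_option linter.unusedSectionVars false

/-! PROJECT 5 = ASCH-O, piece `c6dec`: class 6 inside `O(Q)`: a non-scalar involution gives two isometric
orthogonal halves. Self-contained (Mathlib and the definitions only). -/

namespace Cfsg.Agent.Lib.Helper73OC6dec

open Cfsg Cfsg.Geo Matrix
open scoped MatrixGroups Kronecker commutatorElement

variable {ι : Type} [Fintype ι] [DecidableEq ι] {F : Type*} [Field F]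
variable {Q : (ι → F) → F}

lemma mem_iso {g : GL ι F} : g ∈ isometryGroup F Q ↔ ∀ u, Q ((g : Matrix ι ι F) *ᵥ u) = Q u :=
  ⟨fun h u => h u u, fun h u _ => h u⟩

lemma exists_ne [Nonempty ι] (hQ : IsNondegenerateQuadraticForm Q) : ∃ v, Q v ≠ 0 := by
  by_contra hcon
  push Not at hcon
  obtain ⟨i⟩ := ‹Nonempty ι›
  have hv : (Pi.single i 1 : ι → F) ≠ 0 := by
    intro h
    have := congrFun h i
    simp at this
  obtain ⟨⟨x, hx⟩, _⟩ := hQ.nondegenerate _ hv
  apply hx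
  simp [QuadraticMap.polar, hcon]

lemma scalar_pm [Nonempty ι] (hQ : IsNondegenerateQuadraticForm Q) {c : F}
    (h : ∀ v, Q (c • v) = Q v) : c = 1 ∨ c = -1 := by
  obtain ⟨v, hv⟩ := exists_ne hQ
  have h1 := h v
  rw [hQ.smul] at h1
  have h2 : c * c = 1 := by
    have h4 : (c ^ 2 - 1) * Q v = 0 := by rw [sub_mul, h1, one_mul, sub_self]
    rcases mul_eq_zero.mp h4 with h3 | h3
    · rw [← sq]; exact sub_eq_zero.mp h3
    · exact absurd h3 hv
  exact mul_self_eq_one_iff.mp h2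

/-- the fixed space of a matrix -/
def Ep (T : Matrix ι ι F) : Submodule F (ι → F) where
  carrier := {v | T *ᵥ v = v}
  add_mem' {a b} ha hb := by
    simp only [Set.mem_ofPred_eq] at *
    rw [Matrix.mulVec_add, ha, hb]
  zero_mem' := by simp
  smul_mem' c v hv := by
    simp only [Set.mem_ofPred_eq] at *
    rw [Matrix.mulVec_smul, hv]

lemma mem_Ep {T : Matrix ι ι F} {v : ι → F} : v ∈ Ep T ↔ T *ᵥ v = v := Iff.rfl

lemma polar_inv {T : Matrix ι ι F} (hT : ∀ v, Q (T *ᵥ v) = Q v) (u v : ι → F) :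
    QuadraticMap.polar Q (T *ᵥ u) (T *ᵥ v) = QuadraticMap.polar Q u v := by
  simp only [QuadraticMap.polar, ← Matrix.mulVec_add, hT]

lemma orth (hQ : IsNondegenerateQuadraticForm Q) (h2 : (2 : F) ≠ 0) {T : Matrix ι ι F}
    (hT : ∀ v, Q (T *ᵥ v) = Q v) {u v : ι → F} (hu : u ∈ Ep T) (hv : v ∈ Ep (-T)) :
    QuadraticMap.polar Q u v = 0 := by
  have h1 := polar_inv hT u v
  rw [mem_Ep] at hu hv
  have hv' : T *ᵥ v = (-1 : F) • v := by
    rw [Matrix.neg_mulVec] at hv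
    rw [neg_one_smul]; exact neg_eq_iff_eq_neg.mp hv
  rw [hu, hv', hQ.polar_bilinear.smul_right] at h1
  have h3 : (2 : F) * QuadraticMap.polar Q u v = 0 := by linear_combination -h1
  exact (mul_eq_zero.mp h3).resolve_left h2

lemma split (h2 : (2 : F) ≠ 0) {T : Matrix ι ι F} (hTT : T * T = 1) (v : ι → F) :
    ∃ p ∈ Ep T, ∃ q ∈ Ep (-T), v = p + q := by
  refine ⟨(2 : F)⁻¹ • (v + T *ᵥ v), ?_, (2 : F)⁻¹ • (v - T *ᵥ v), ?_, ?_⟩
  · rw [mem_Ep, Matrix.mulVec_smul, Matrix.mulVec_add, Matrix.mulVec_mulVec, hTT, Matrix.one_mulVec,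
      add_comm]
  · rw [mem_Ep, Matrix.mulVec_smul, Matrix.mulVec_sub, Matrix.neg_mulVec, Matrix.neg_mulVec,
      Matrix.mulVec_mulVec, hTT, Matrix.one_mulVec]
    congr 1; abel
  · rw [← smul_add]
    have h : v + T *ᵥ v + (v - T *ᵥ v) = (2 : F) • v := by rw [two_smul]; abel
    rw [h, smul_smul, inv_mul_cancel₀ h2, one_smul]

lemma nondeg (hQ : IsNondegenerateQuadraticForm Q) (h2 : (2 : F) ≠ 0) {T : Matrix ι ι F}
    (hT : ∀ v, Q (T *ᵥ v) = Q v) (hTT : T * T = 1) :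
    IsNondegenerateOn (QuadraticMap.polar Q) (Ep T) := by
  intro w hw hw0
  obtain ⟨⟨x, hx⟩, _⟩ := hQ.nondegenerate w hw0
  obtain ⟨p, hp, q, hq, rfl⟩ := split h2 hTT x
  have h0 : QuadraticMap.polar Q q w = 0 := by
    rw [QuadraticMap.polar_comm]; exact orth hQ h2 hT hw hq
  rw [hQ.polar_bilinear.add_left, h0, add_zero] at hx
  exact ⟨⟨p, hp, hx⟩, ⟨p, hp, by rwa [QuadraticMap.polar_comm]⟩⟩

lemma areIso {g : GL ι F} (hg : g ∈ isometryGroup F Q) {W W' : Submodule F (ι → F)}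
    (h1 : ∀ v ∈ W, (g : Matrix ι ι F) *ᵥ v ∈ W')
    (h2 : ∀ v ∈ W', ((g⁻¹ : GL ι F) : Matrix ι ι F) *ᵥ v ∈ W) : AreIsometricFor Q W W' := by
  refine ⟨{ toFun := fun w => ⟨(g : Matrix ι ι F) *ᵥ w, h1 w w.2⟩
            map_add' := fun a b => Subtype.ext (by simp [Matrix.mulVec_add])
            map_smul' := fun c a => Subtype.ext (by simp [Matrix.mulVec_smul])
            invFun := fun w => ⟨((g⁻¹ : GL ι F) : Matrix ι ι F) *ᵥ w, h2 w w.2⟩
            left_inv := fun w => Subtype.ext (by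
              show ((g⁻¹ : GL ι F) : Matrix ι ι F) *ᵥ ((g : Matrix ι ι F) *ᵥ (w : ι → F)) = w
              rw [Matrix.mulVec_mulVec, ← Units.val_mul, inv_mul_cancel, Units.val_one,
                Matrix.one_mulVec])
            right_inv := fun w => Subtype.ext (by
              show (g : Matrix ι ι F) *ᵥ (((g⁻¹ : GL ι F) : Matrix ι ι F) *ᵥ (w : ι → F)) = w
              rw [Matrix.mulVec_mulVec, ← Units.val_mul, mul_inv_cancel, Units.val_one,
                Matrix.one_mulVec]) }, fun w => ?_⟩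
  exact mem_iso.mp hg w

lemma swap {T Y : Matrix ι ι F} (h : T * Y = -(Y * T)) :
    (∀ v ∈ Ep T, Y *ᵥ v ∈ Ep (-T)) ∧ (∀ v ∈ Ep (-T), Y *ᵥ v ∈ Ep T) := by
  constructor
  · intro v hv
    rw [mem_Ep] at hv ⊢
    rw [Matrix.mulVec_mulVec, neg_mul, h, neg_neg, ← Matrix.mulVec_mulVec, hv]
  · intro v hv
    rw [mem_Ep] at hv ⊢
    rw [Matrix.mulVec_mulVec, h, ← mul_neg, ← Matrix.mulVec_mulVec, hv]

lemma dec_of_invol [Nonempty ι] (hQ : IsNondegenerateQuadraticForm Q) (h2 : (2 : F) ≠ 0)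
    {t y : GL ι F} (ht : t ∈ isometryGroup F Q) (hy : y ∈ isometryGroup F Q)
    (hTT : (t : Matrix ι ι F) * t = 1)
    (hty : (t : Matrix ι ι F) * y = -((y : Matrix ι ι F) * t)) :
    ∃ (k : ℕ) (D : Fin 2 → Submodule F (ι → F)), IsOrthogonalMDecomposition Q k D := by
  have hT : ∀ v, Q ((t : Matrix ι ι F) *ᵥ v) = Q v := mem_iso.mp ht
  have hT' : ∀ v, Q ((-(t : Matrix ι ι F)) *ᵥ v) = Q v := by
    intro v
    rw [Matrix.neg_mulVec, ← neg_one_smul F, hQ.smul, hT]; ring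
  have hTT' : (-(t : Matrix ι ι F)) * (-(t : Matrix ι ι F)) = 1 := by rw [neg_mul_neg, hTT]
  have e1 : (y : Matrix ι ι F) * ((y⁻¹ : GL ι F) : Matrix ι ι F) = 1 := by
    rw [← Units.val_mul, mul_inv_cancel, Units.val_one]
  have e2 : ((y⁻¹ : GL ι F) : Matrix ι ι F) * (y : Matrix ι ι F) = 1 := by
    rw [← Units.val_mul, inv_mul_cancel, Units.val_one]
  have htyi : (t : Matrix ι ι F) * ((y⁻¹ : GL ι F) : Matrix ι ι F)
      = -(((y⁻¹ : GL ι F) : Matrix ι ι F) * t) := by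
    calc (t : Matrix ι ι F) * ((y⁻¹ : GL ι F) : Matrix ι ι F)
        = (((y⁻¹ : GL ι F) : Matrix ι ι F) * (y : Matrix ι ι F))
            * ((t : Matrix ι ι F) * ((y⁻¹ : GL ι F) : Matrix ι ι F)) := by rw [e2, one_mul]
      _ = ((y⁻¹ : GL ι F) : Matrix ι ι F) * ((y : Matrix ι ι F) * t)
            * ((y⁻¹ : GL ι F) : Matrix ι ι F) := by simp only [mul_assoc]
      _ = ((y⁻¹ : GL ι F) : Matrix ι ι F) * (-((t : Matrix ι ι F) * y))
            * ((y⁻¹ : GL ι F) : Matrix ι ι F) := by rw [hty, neg_neg]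
      _ = -(((y⁻¹ : GL ι F) : Matrix ι ι F) * t
            * ((y : Matrix ι ι F) * ((y⁻¹ : GL ι F) : Matrix ι ι F))) := by
          simp only [mul_neg, neg_mul, mul_assoc]
      _ = -(((y⁻¹ : GL ι F) : Matrix ι ι F) * t) := by rw [e1, mul_one]
  obtain ⟨s01, s10⟩ := swap hty
  obtain ⟨i01, i10⟩ := swap htyi
  have iso01 : AreIsometricFor Q (Ep (t : Matrix ι ι F)) (Ep (-(t : Matrix ι ι F))) :=
    areIso hy s01 i10
  have iso10 : AreIsometricFor Q (Ep (-(t : Matrix ι ι F))) (Ep (t : Matrix ι ι F)) :=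
    areIso hy s10 i01
  have hfr : Module.finrank F (Ep (-(t : Matrix ι ι F))) = Module.finrank F (Ep (t : Matrix ι ι F)) := by
    obtain ⟨e, _⟩ := iso10
    exact e.finrank_eq
  have hdisj : Disjoint (Ep (t : Matrix ι ι F)) (Ep (-(t : Matrix ι ι F))) := by
    rw [Submodule.disjoint_def]
    intro x hx hx'
    rw [mem_Ep] at hx hx'
    rw [Matrix.neg_mulVec, hx] at hx'
    have h3 : (2 : F) • x = 0 := by
      rw [two_smul]
      nth_rewrite 1 [← hx']
      exact neg_add_cancel x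
    exact (smul_eq_zero.mp h3).resolve_left h2
  have htop : ∀ v : ι → F, v ∈ iSup ![Ep (t : Matrix ι ι F), Ep (-(t : Matrix ι ι F))] := by
    intro v
    obtain ⟨p, hp, q, hq, rfl⟩ := split h2 hTT v
    exact Submodule.add_mem _
      (Submodule.mem_iSup_of_mem (p := ![Ep (t : Matrix ι ι F), Ep (-(t : Matrix ι ι F))]) 0 hp)
      (Submodule.mem_iSup_of_mem (p := ![Ep (t : Matrix ι ι F), Ep (-(t : Matrix ι ι F))]) 1 hq)
  have hpos : 0 < Module.finrank F (Ep (t : Matrix ι ι F)) := by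
    rw [Nat.pos_iff_ne_zero]
    intro h0
    have b0 : Ep (t : Matrix ι ι F) = ⊥ := Submodule.finrank_eq_zero.mp h0
    have b1 : Ep (-(t : Matrix ι ι F)) = ⊥ := Submodule.finrank_eq_zero.mp (hfr.trans h0)
    obtain ⟨v, hv⟩ := exists_ne hQ
    obtain ⟨p, hp, q, hq, rfl⟩ := split h2 hTT v
    rw [b0, Submodule.mem_bot] at hp
    rw [b1, Submodule.mem_bot] at hq
    apply hv
    rw [hp, hq, add_zero]
    have := hQ.smul 0 0
    simpa using this
  refine ⟨Module.finrank F (Ep (t : Matrix ι ι F)), ![Ep (t : Matrix ι ι F), Ep (-(t : Matrix ι ι F))],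
    ⟨⟨⟨le_refl 2, hpos, ?_, ?_, ?_⟩, ?_, ?_⟩, ?_⟩⟩
  · exact Fin.forall_fin_two.mpr ⟨rfl, hfr⟩
  · rw [iSupIndep_pair (i := 0) (j := 1) (by decide) (by decide)]
    exact hdisj
  · exact eq_top_iff.mpr fun v _ => htop v
  · refine Fin.forall_fin_two.mpr ⟨nondeg hQ h2 hT hTT, nondeg hQ h2 hT' hTT'⟩
  · intro i j hij
    fin_cases i <;> fin_cases j
    · exact absurd rfl hij
    · intro u hu v hv
      exact orth hQ h2 hT hu hv
    · intro u hu v hv
      rw [QuadraticMap.polar_comm]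
      exact orth hQ h2 hT hv hu
    · exact absurd rfl hij
  · intro i j
    fin_cases i <;> fin_cases j
    · exact ⟨LinearEquiv.refl _ _, fun _ => rfl⟩
    · exact iso01
    · exact iso10
    · exact ⟨LinearEquiv.refl _ _, fun _ => rfl⟩

lemma comm_or_anti [Nonempty ι] (hQ : IsNondegenerateQuadraticForm Q) {N : Subgroup (GL ι F)}
    (hN : N ≤ isometryGroup F Q) (hcomm : ⁅N, N⁆ ≤ scalars ι F) {x y : GL ι F} (hx : x ∈ N) (hy : y ∈ N) :
    (x : Matrix ι ι F) * y = y * x ∨ (x : Matrix ι ι F) * y = -((y : Matrix ι ι F) * x) := by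
  have h1 : ⁅x, y⁆ ∈ scalars ι F := hcomm (Subgroup.commutator_mem_commutator hx hy)
  obtain ⟨c, hc⟩ := (mem_scalars_iff _).mp h1
  have h2 : ⁅x, y⁆ ∈ isometryGroup F Q := hN (by
    rw [commutatorElement_def]
    exact N.mul_mem (N.mul_mem (N.mul_mem hx hy) (N.inv_mem hx)) (N.inv_mem hy))
  have h3 : ∀ v, Q ((c : F) • v) = Q v := by
    intro v
    have := mem_iso.mp h2 v
    rwa [hc, Matrix.smul_mulVec, Matrix.one_mulVec] at this
  have h4 : x * y = ⁅x, y⁆ * (y * x) := by rw [commutatorElement_def]; group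
  have h5 : (x : Matrix ι ι F) * y = (c : F) • ((y : Matrix ι ι F) * x) := by
    rw [← Units.val_mul, h4, Units.val_mul, hc, Units.val_mul, Matrix.smul_mul, Matrix.one_mul]
  rcases scalar_pm hQ h3 with h | h
  · left; rw [h5, h, one_smul]
  · right; rw [h5, h, neg_one_smul]

lemma sq_pm [Nonempty ι] (hQ : IsNondegenerateQuadraticForm Q) {N : Subgroup (GL ι F)}
    (hN : N ≤ isometryGroup F Q) (hcomm : ⁅N, N⁆ ≤ scalars ι F)
    (habs : ActsAbsolutelyIrreducibly (matrixSet N)) {x : GL ι F} (hx : x ∈ N) :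
    (x : Matrix ι ι F) * x = 1 ∨ (x : Matrix ι ι F) * x = -1 := by
  have hc : ∀ s ∈ matrixSet N, ((x : Matrix ι ι F) * x) * s = s * ((x : Matrix ι ι F) * x) := by
    rintro s ⟨y, hy, rfl⟩
    show ((x : Matrix ι ι F) * x) * (y : Matrix ι ι F) = (y : Matrix ι ι F) * ((x : Matrix ι ι F) * x)
    rcases comm_or_anti hQ hN hcomm hx hy with h | h
    · rw [mul_assoc, h, ← mul_assoc, h, mul_assoc]
    · rw [mul_assoc, h, mul_neg, ← mul_assoc, h, neg_mul, neg_neg, mul_assoc]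
  obtain ⟨c, hc'⟩ := habs.2 _ hc
  have h3 : ∀ v, Q (c • v) = Q v := by
    intro v
    have := mem_iso.mp (hN (N.mul_mem hx hx)) v
    rwa [Units.val_mul, hc', Matrix.smul_mulVec, Matrix.one_mulVec] at this
  rcases scalar_pm hQ h3 with h | h
  · left; rw [hc', h, one_smul]
  · right; rw [hc', h, neg_one_smul]

lemma no_small_inv (h3 : 3 ≤ Fintype.card ι) {S : Set (Matrix ι ι F)} (hirr : ActsIrreducibly S)
    (p q u : ι → F) (hu : u ∈ Submodule.span F {p, q}) (hu0 : u ≠ 0)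
    (hinv : ∀ s ∈ S, ∀ v ∈ Submodule.span F {p, q}, s *ᵥ v ∈ Submodule.span F {p, q}) : False := by
  classical
  rcases hirr (Submodule.span F {p, q}) (by
    rintro s hs _ ⟨v, hv, rfl⟩
    rw [Matrix.toLin'_apply]
    exact hinv s hs v hv) with h | h
  · rw [h, Submodule.mem_bot] at hu
    exact hu0 hu
  · have h1 := finrank_span_finset_le_card (R := F) ({p, q} : Finset (ι → F))
    rw [Finset.coe_pair, Set.finrank, h, finrank_top, Module.finrank_fintype_fun_eq_card] at h1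
    have h2 : ({p, q} : Finset (ι → F)).card ≤ 2 := Finset.card_le_two
    omega

lemma exists_noncomm (h3 : 3 ≤ Fintype.card ι) {N : Subgroup (GL ι F)}
    (habs : ActsAbsolutelyIrreducibly (matrixSet N)) :
    ∃ x ∈ N, ∃ y ∈ N, (x : Matrix ι ι F) * y ≠ y * x := by
  by_contra hcon
  push Not at hcon
  have hsc : ∀ x ∈ N, ∃ c : F, (x : Matrix ι ι F) = c • 1 := fun x hx => habs.2 _ (by
    rintro s ⟨y, hy, rfl⟩; exact hcon x hx y hy)
  obtain ⟨i⟩ : Nonempty ι := Fintype.card_pos_iff.mp (by omega)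
  have hv : (Pi.single i 1 : ι → F) ≠ 0 := by
    intro h
    have := congrFun h i
    simp at this
  refine no_small_inv h3 habs.1 (Pi.single i 1) (Pi.single i 1) (Pi.single i 1)
    (Submodule.subset_span (by simp)) hv ?_
  rintro s ⟨x, hx, rfl⟩ v hv
  obtain ⟨c, hc⟩ := hsc x hx
  show (x : Matrix ι ι F) *ᵥ v ∈ _
  rw [hc, Matrix.smul_mulVec, Matrix.one_mulVec]
  exact Submodule.smul_mem _ _ hv

lemma exists_sq_add_sq [Fintype F] (h2 : (2 : F) ≠ 0) : ∃ a b : F, a ^ 2 + b ^ 2 + 1 = 0 := by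
  classical
  have hodd : Fintype.card F % 2 = 1 := FiniteField.odd_card_of_char_ne_two (by
    intro h
    have h1 := ringChar.Nat.cast_ringChar (R := F)
    rw [h] at h1
    exact h2 (by exact_mod_cast h1))
  obtain ⟨a, b, hab⟩ := FiniteField.exists_root_sum_quadratic
    (f := (Polynomial.X ^ 2 : Polynomial F)) (g := Polynomial.X ^ 2 - Polynomial.C (-1))
    (Polynomial.degree_X_pow 2) (Polynomial.degree_X_pow_sub_C (by decide) _) hodd
  refine ⟨a, b, ?_⟩
  simp only [Polynomial.eval_pow, Polynomial.eval_X, Polynomial.eval_sub, Polynomial.eval_C] at hab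
  linear_combination hab

/-- membership in the span of `1, X, Y, XY` -/
def InSpan (X Y Z : Matrix ι ι F) : Prop :=
  ∃ a b c d : F, Z = a • (1 : Matrix ι ι F) + b • X + c • Y + d • (X * Y)

lemma span_mul_X {X Y Z : Matrix ι ι F} (hXX : X * X = -1) (hYX : Y * X = -(X * Y))
    (h : InSpan X Y (Z * X)) : InSpan X Y Z := by
  obtain ⟨a, b, c, d, h⟩ := h
  have hZ : Z = -((Z * X) * X) := by rw [mul_assoc, hXX, mul_neg, mul_one, neg_neg]
  have hPX : X * Y * X = Y := by rw [mul_assoc, hYX, mul_neg, ← mul_assoc, hXX, neg_mul, one_mul, neg_neg]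
  refine ⟨b, -a, -d, c, ?_⟩
  rw [hZ, h]
  simp only [add_mul, smul_mul_assoc, one_mul, hXX, hYX, hPX]
  module

lemma span_mul_Y {X Y Z : Matrix ι ι F} (hYY : Y * Y = -1)
    (h : InSpan X Y (Z * Y)) : InSpan X Y Z := by
  obtain ⟨a, b, c, d, h⟩ := h
  have hZ : Z = -((Z * Y) * Y) := by rw [mul_assoc, hYY, mul_neg, mul_one, neg_neg]
  have hPY : X * Y * Y = -X := by rw [mul_assoc, hYY, mul_neg, mul_one]
  refine ⟨c, d, -a, -b, ?_⟩
  rw [hZ, h]
  simp only [add_mul, smul_mul_assoc, one_mul, hYY, hPY]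
  module

lemma inv_of_gen (M : Matrix ι ι F) {p q : ι → F} (hp : M *ᵥ p ∈ Submodule.span F {p, q})
    (hq : M *ᵥ q ∈ Submodule.span F {p, q}) :
    ∀ v ∈ Submodule.span F {p, q}, M *ᵥ v ∈ Submodule.span F {p, q} := by
  have h : Submodule.span F {p, q} ≤ (Submodule.span F {p, q}).comap (Matrix.toLin' M) := by
    rw [Submodule.span_le]
    rintro w (rfl | rfl)
    · simpa using hp
    · simpa using hq
  intro v hv
  simpa using h hv

lemma exists_outside [Fintype F] (h3 : 3 ≤ Fintype.card ι) (h2 : (2 : F) ≠ 0) {N : Subgroup (GL ι F)}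
    (habs : ActsAbsolutelyIrreducibly (matrixSet N)) {X Y : Matrix ι ι F} (hXX : X * X = -1)
    (hYY : Y * Y = -1) (hYX : Y * X = -(X * Y)) : ∃ z ∈ N, ¬ InSpan X Y (z : Matrix ι ι F) := by
  by_contra hcon
  push Not at hcon
  haveI : Nonempty ι := Fintype.card_pos_iff.mp (by omega)
  obtain ⟨a, b, hab⟩ := exists_sq_add_sq (F := F) h2
  have hab1 : (1 : F) = -(a ^ 2 + b ^ 2) := by linear_combination hab
  have hXP : X * (X * Y) = -Y := by rw [← mul_assoc, hXX, neg_mul, one_mul]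
  have hYP : Y * (X * Y) = X := by
    rw [← mul_assoc, hYX, neg_mul, mul_assoc, hYY, mul_neg, mul_one, neg_neg]
  have hPX : X * Y * X = Y := by
    rw [mul_assoc, hYX, mul_neg, ← mul_assoc, hXX, neg_mul, one_mul, neg_neg]
  have hPY : X * Y * Y = -X := by rw [mul_assoc, hYY, mul_neg, mul_one]
  obtain ⟨W, hW⟩ : ∃ W : Matrix ι ι F, W = a • X + b • Y + X * Y := ⟨_, rfl⟩
  have hXW : X * W = (-a) • (1 : Matrix ι ι F) + b • (X * Y) - Y := by
    rw [hW]
    simp only [mul_add, mul_smul_comm, hXX, hXP]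
    module
  have hYW : Y * W = (-a) • (X * Y) + (-b) • (1 : Matrix ι ι F) + X := by
    rw [hW]
    simp only [mul_add, mul_smul_comm, hYY, hYX, hYP]
    module
  have hWX : W * X = (-a) • (1 : Matrix ι ι F) + (-b) • (X * Y) + Y := by
    rw [hW]
    simp only [add_mul, smul_mul_assoc, hXX, hYX, hPX]
    module
  have hWY : W * Y = a • (X * Y) + (-b) • (1 : Matrix ι ι F) - X := by
    rw [hW]
    simp only [add_mul, smul_mul_assoc, hYY, hPY]
    module
  have hone : (1 : Matrix ι ι F) ≠ 0 := one_ne_zero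
  have hW0 : W ≠ 0 := by
    intro h0
    have ha : a = 0 := by
      have h : (-(2 * a)) • (1 : Matrix ι ι F) = 0 := by
        have h' : X * W + W * X = 0 := by rw [h0]; simp
        rw [hXW, hWX] at h'
        rw [← h']; module
      rcases smul_eq_zero.mp h with h | h
      · have : 2 * a = 0 := neg_eq_zero.mp h
        exact (mul_eq_zero.mp this).resolve_left h2
      · exact absurd h hone
    have hb : b = 0 := by
      have h : (-(2 * b)) • (1 : Matrix ι ι F) = 0 := by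
        have h' : Y * W + W * Y = 0 := by rw [h0]; simp
        rw [hYW, hWY] at h'
        rw [← h']; module
      rcases smul_eq_zero.mp h with h | h
      · have : 2 * b = 0 := neg_eq_zero.mp h
        exact (mul_eq_zero.mp this).resolve_left h2
      · exact absurd h hone
    rw [ha, hb] at hab
    simp at hab
  have I1 : W = (-b) • (X * W) + a • (Y * W) := by
    have key : X * Y = (-(a ^ 2 + b ^ 2)) • (X * Y) := by rw [← hab1, one_smul]
    rw [hXW, hYW, hW]
    calc a • X + b • Y + X * Y = a • X + b • Y + (-(a ^ 2 + b ^ 2)) • (X * Y) := by rw [← key]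
      _ = _ := by module
  have I2 : X * (Y * W) = (-a) • (X * W) + (-b) • (Y * W) := by
    have key : (1 : Matrix ι ι F) = (-(a ^ 2 + b ^ 2)) • (1 : Matrix ι ι F) := by rw [← hab1, one_smul]
    rw [hXW, hYW]
    simp only [mul_add, mul_smul_comm, hXX, hXP, mul_one]
    calc (-a) • (-Y) + (-b) • X + -1 = (-a) • (-Y) + (-b) • X + -((-(a ^ 2 + b ^ 2)) • (1 : Matrix ι ι F)) := by
          rw [← key]
      _ = _ := by module
  obtain ⟨v, hv⟩ : ∃ v, W *ᵥ v ≠ 0 := by
    by_contra hall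
    push Not at hall
    apply hW0
    have : Matrix.toLin' W = 0 := LinearMap.ext (fun v => by simpa using hall v)
    exact (LinearEquiv.map_eq_zero_iff _).mp this
  obtain ⟨u, hu⟩ : ∃ u, u = W *ᵥ v := ⟨_, rfl⟩
  have J1 : u = (-b) • (X *ᵥ u) + a • (Y *ᵥ u) := by
    have := congrArg (fun M : Matrix ι ι F => M *ᵥ v) I1
    simp only [Matrix.add_mulVec, Matrix.smul_mulVec, ← Matrix.mulVec_mulVec, ← hu] at this
    exact this
  have J2 : X *ᵥ (Y *ᵥ u) = (-a) • (X *ᵥ u) + (-b) • (Y *ᵥ u) := by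
    have := congrArg (fun M : Matrix ι ι F => M *ᵥ v) I2
    simp only [Matrix.add_mulVec, Matrix.smul_mulVec, ← Matrix.mulVec_mulVec, ← hu] at this
    exact this
  have hp : X *ᵥ u ∈ Submodule.span F {X *ᵥ u, Y *ᵥ u} := Submodule.subset_span (by simp)
  have hq : Y *ᵥ u ∈ Submodule.span F {X *ᵥ u, Y *ᵥ u} := Submodule.subset_span (by simp)
  have humem : u ∈ Submodule.span F {X *ᵥ u, Y *ᵥ u} := by
    have h := Submodule.add_mem _ (Submodule.smul_mem _ (-b) hp) (Submodule.smul_mem _ a hq)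
    rwa [← J1] at h
  have hXYmem : X *ᵥ (Y *ᵥ u) ∈ Submodule.span F {X *ᵥ u, Y *ᵥ u} := by
    rw [J2]
    exact Submodule.add_mem _ (Submodule.smul_mem _ _ hp) (Submodule.smul_mem _ _ hq)
  have invX := inv_of_gen X (p := X *ᵥ u) (q := Y *ᵥ u)
    (by rw [Matrix.mulVec_mulVec, hXX, Matrix.neg_mulVec, Matrix.one_mulVec]
        exact Submodule.neg_mem _ humem) hXYmem
  have invY := inv_of_gen Y (p := X *ᵥ u) (q := Y *ᵥ u)
    (by rw [Matrix.mulVec_mulVec, hYX, Matrix.neg_mulVec, ← Matrix.mulVec_mulVec]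
        exact Submodule.neg_mem _ hXYmem)
    (by rw [Matrix.mulVec_mulVec, hYY, Matrix.neg_mulVec, Matrix.one_mulVec]
        exact Submodule.neg_mem _ humem)
  refine no_small_inv h3 habs.1 (X *ᵥ u) (Y *ᵥ u) u humem (by rw [hu]; exact hv) ?_
  rintro s ⟨z, hz, rfl⟩ w hw
  obtain ⟨α, β, γ, δ, hz'⟩ := hcon z hz
  show (z : Matrix ι ι F) *ᵥ w ∈ _
  rw [hz']
  simp only [Matrix.add_mulVec, Matrix.smul_mulVec, Matrix.one_mulVec, ← Matrix.mulVec_mulVec]
  exact Submodule.add_mem _ (Submodule.add_mem _ (Submodule.add_mem _ (Submodule.smul_mem _ _ hw)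
    (Submodule.smul_mem _ _ (invX w hw))) (Submodule.smul_mem _ _ (invY w hw)))
    (Submodule.smul_mem _ _ (invX _ (invY w hw)))

lemma exists_invol [Fintype F] [Nonempty ι] (h3 : 3 ≤ Fintype.card ι) (h2 : (2 : F) ≠ 0)
    (hQ : IsNondegenerateQuadraticForm Q) {N : Subgroup (GL ι F)} (hN : N ≤ isometryGroup F Q)
    (hcomm : ⁅N, N⁆ ≤ scalars ι F) (habs : ActsAbsolutelyIrreducibly (matrixSet N)) :
    ∃ t ∈ N, ∃ y ∈ N, (t : Matrix ι ι F) * t = 1 ∧
      (t : Matrix ι ι F) * y = -((y : Matrix ι ι F) * t) := by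
  obtain ⟨x, hx, y, hy, hxy⟩ := exists_noncomm h3 habs
  have hXY : (x : Matrix ι ι F) * y = -((y : Matrix ι ι F) * x) :=
    (comm_or_anti hQ hN hcomm hx hy).resolve_left hxy
  have hYX : (y : Matrix ι ι F) * x = -((x : Matrix ι ι F) * y) := by rw [hXY, neg_neg]
  rcases sq_pm hQ hN hcomm habs hx with hXX | hXX
  · exact ⟨x, hx, y, hy, hXX, hXY⟩
  rcases sq_pm hQ hN hcomm habs hy with hYY | hYY
  · exact ⟨y, hy, x, hx, hYY, hYX⟩
  obtain ⟨z, hz, hzs⟩ := exists_outside h3 h2 habs hXX hYY hYX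
  -- step 1
  obtain ⟨z1, hz1, hz1s, hz1x⟩ : ∃ z1 ∈ N, ¬ InSpan (x : Matrix ι ι F) y (z1 : Matrix ι ι F) ∧
      (z1 : Matrix ι ι F) * x = x * z1 := by
    rcases comm_or_anti hQ hN hcomm hz hx with h | h
    · exact ⟨z, hz, hzs, h⟩
    · refine ⟨z * y, N.mul_mem hz hy, fun hs => hzs (span_mul_Y hYY (by rwa [Units.val_mul] at hs)), ?_⟩
      rw [Units.val_mul, mul_assoc, hYX, mul_neg, ← mul_assoc, h, neg_mul, neg_neg, mul_assoc]
  obtain ⟨z2, hz2, hz2s, hz2x, hz2y⟩ : ∃ z2 ∈ N, ¬ InSpan (x : Matrix ι ι F) y (z2 : Matrix ι ι F) ∧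
      (z2 : Matrix ι ι F) * x = x * z2 ∧ (z2 : Matrix ι ι F) * y = y * z2 := by
    rcases comm_or_anti hQ hN hcomm hz1 hy with h | h
    · exact ⟨z1, hz1, hz1s, hz1x, h⟩
    · refine ⟨z1 * x, N.mul_mem hz1 hx,
        fun hs => hz1s (span_mul_X hXX hYX (by rwa [Units.val_mul] at hs)), ?_, ?_⟩
      · rw [Units.val_mul, hz1x, mul_assoc, hz1x]
      · rw [Units.val_mul, mul_assoc, hXY, mul_neg, ← mul_assoc, h, neg_mul, neg_neg, mul_assoc]
  rcases sq_pm hQ hN hcomm habs hz2 with hZZ | hZZ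
  · -- `z2` is a non-scalar involution
    have hns : ∃ s ∈ N, (z2 : Matrix ι ι F) * s ≠ s * z2 := by
      by_contra hall
      push Not at hall
      obtain ⟨c, hc⟩ := habs.2 (z2 : Matrix ι ι F) (by
        rintro s ⟨w, hw, rfl⟩; exact hall w hw)
      exact hz2s ⟨c, 0, 0, 0, by rw [hc]; simp⟩
    obtain ⟨s, hs, hne⟩ := hns
    exact ⟨z2, hz2, s, hs, hZZ, (comm_or_anti hQ hN hcomm hz2 hs).resolve_left hne⟩
  · refine ⟨z2 * x, N.mul_mem hz2 hx, y, hy, ?_, ?_⟩
    · rw [Units.val_mul]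
      calc (z2 : Matrix ι ι F) * x * ((z2 : Matrix ι ι F) * x)
          = (z2 : Matrix ι ι F) * ((x : Matrix ι ι F) * z2) * x := by simp only [mul_assoc]
        _ = (z2 : Matrix ι ι F) * z2 * ((x : Matrix ι ι F) * x) := by rw [← hz2x]; simp only [mul_assoc]
        _ = 1 := by rw [hZZ, hXX]; simp
    · rw [Units.val_mul, mul_assoc, hXY, mul_neg, ← mul_assoc, hz2y, mul_assoc]

/-- [c6dec] class 6 inside `O(Q)`: a non-scalar involution gives two isometric orthogonal halves. -/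
theorem c6_dec [Fintype F] (h3 : 3 ≤ Fintype.card ι) (hQ : IsNondegenerateQuadraticForm Q)
    {N : Subgroup (GL ι F)} (hN : N ≤ isometryGroup F Q) (hcomm : ⁅N, N⁆ ≤ scalars ι F)
    (habs : ActsAbsolutelyIrreducibly (matrixSet N)) :
    ∃ (k : ℕ) (D : Fin 2 → Submodule F (ι → F)), IsOrthogonalMDecomposition Q k D := by
  haveI : Nonempty ι := Fintype.card_pos_iff.mp (by omega)
  by_cases h2 : (2 : F) = 0
  · exfalso
    obtain ⟨x, hx, y, hy, hxy⟩ := exists_noncomm h3 habs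
    have h := (comm_or_anti hQ hN hcomm hx hy).resolve_left hxy
    apply hxy
    rw [h]
    have h' : (y : Matrix ι ι F) * x + (y : Matrix ι ι F) * x = 0 := by
      rw [← two_smul F, h2, zero_smul]
    exact neg_eq_of_add_eq_zero_left h'
  · obtain ⟨t, ht, y, hy, hTT, hty⟩ := exists_invol h3 h2 hQ hN hcomm habs
    exact dec_of_invol hQ h2 (hN ht) (hN hy) hTT hty

end Cfsg.Agent.Lib.Helper73OC6dec
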