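import Cfsg.Agent.Lib.Helper97GForms

set_option autoImplicit false

/-! PROJECT 5 = ASCH-O, piece `evendim2`. -/

namespace Cfsg.Agent.Lib.Helper76OEvendim2

open Cfsg Cfsg.Geo Matrix
open scoped MatrixGroups

variable {ι : Type} [Fintype ι] [DecidableEq ι] {F : Type*} [Field F]
variable {Q : (ι → F) → F}

/-- [evendim2] characteristic 2: non-degenerate subspaces have even dimension. -/
theorem even_finrank_of_nondeg (h2 : (2 : F) = 0) (hQ : IsNondegenerateQuadraticForm Q)
    {W : Submodule F (ι → F)} (hW : IsNondegenerateOn (QuadraticMap.polar Q) W) :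
    Even (Module.finrank F W) := by
  classical
  by_contra hodd
  rw [Nat.not_even_iff_odd] at hodd
  have hb := hQ.polar_bilinear
  let B : (ι → F) →ₗ[F] (ι → F) →ₗ[F] F :=
    LinearMap.mk₂ F (QuadraticMap.polar Q) hb.add_left hb.smul_left hb.add_right hb.smul_right
  have hB : ∀ x y, B x y = QuadraticMap.polar Q x y := fun _ _ => rfl
  have hQ0 : Q 0 = 0 := by
    have := hQ.smul 0 0
    simpa using this
  have hneg : ∀ a : F, -a = a := by
    intro a
    linear_combination (-a) * h2
  have hdiag : ∀ v, QuadraticMap.polar Q v v = 0 := by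
    intro v
    have hvv : v + v = 0 := by
      rw [← two_smul F v, h2, zero_smul]
    unfold QuadraticMap.polar
    rw [hvv, hQ0]
    linear_combination (-Q v) * h2
  let b := Module.finBasis F W
  let G : Matrix (Fin (Module.finrank F W)) (Fin (Module.finrank F W)) F :=
    Matrix.of fun i j => B (b i : ι → F) (b j : ι → F)
  have hdet : G.det = 0 := by
    apply Cfsg.Agent.Lib.Helper97GForms.det_alt_eq_zero' (by rwa [Fintype.card_fin]) G
    · intro i j
      rw [hneg]
      exact QuadraticMap.polar_comm Q _ _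
    · intro i
      exact hdiag _
  obtain ⟨c, hc0, hc⟩ := Matrix.exists_mulVec_eq_zero_iff.mpr hdet
  let w : W := ∑ j, c j • b j
  have hw0 : w ≠ 0 := by
    intro h
    apply hc0
    funext j
    exact (Fintype.linearIndependent_iff.mp b.linearIndependent c h j)
  have hw0' : (w : ι → F) ≠ 0 := fun h => hw0 (Subtype.ext h)
  have hwv : (w : ι → F) = ∑ j, c j • (b j : ι → F) := by
    simp [w]
  obtain ⟨⟨x, hx, hxw⟩, -⟩ := hW w w.2 hw0'
  apply hxw
  have hxr : x = ∑ i, (b.repr ⟨x, hx⟩ i) • (b i : ι → F) := by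
    have h5 := congrArg (fun z : W => (z : ι → F)) (b.sum_repr ⟨x, hx⟩)
    simp only [AddSubmonoidClass.coe_finset_sum, Submodule.coe_smul] at h5
    exact h5.symm
  rw [← hB, hxr, map_sum, LinearMap.sum_apply]
  apply Finset.sum_eq_zero
  intro i _
  rw [map_smul, LinearMap.smul_apply, hwv, map_sum]
  have h3 := congrFun hc i
  simp only [Matrix.mulVec, dotProduct, G, Matrix.of_apply, Pi.zero_apply] at h3
  have h4 : ∑ j, B (b i : ι → F) (c j • (b j : ι → F)) = 0 := by
    rw [← h3]
    apply Finset.sum_congr rfl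
    intro j _
    rw [map_smul, smul_eq_mul, mul_comm]
  rw [h4, smul_zero]

end Cfsg.Agent.Lib.Helper76OEvendim2
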