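import Cfsg.Agent.Lib.Helper97OBase

set_option autoImplicit false

/-! PROJECT 5 = ASCH-O, piece `plane2`. -/

namespace Cfsg.Agent.Lib.Helper76OPlane2

open Cfsg Cfsg.Geo Matrix
open Cfsg.Agent.Lib.Helper97GBase Cfsg.Agent.Lib.Helper97OBase
open scoped MatrixGroups

variable {ι : Type} [Fintype ι] [DecidableEq ι] {F : Type*} [Field F]
variable {Q : (ι → F) → F} {H : Subgroup (GL ι F)}

/-- [plane2] `q = 2`: a plane of plus type contains exactly one non-singular vector. -/
theorem plus_plane_two [Fintype F] (hQ : IsNondegenerateQuadraticForm Q) (hq : Fintype.card F = 2)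
    (hH : H ≤ isometryGroup F Q) {U : Submodule F (ι → F)} (hU : H ≤ subspaceStabilizer U)
    (hfr : Module.finrank F U = 2) (hnd : IsNondegenerateOn (QuadraticMap.polar Q) U)
    (hplus : IsPlusTypeOn Q U) : ∃ a, Q a ≠ 0 ∧ H ≤ subspaceStabilizer (Submodule.span F {a}) := by
  classical
  have hb := hQ.polar_bilinear
  have h01 : ∀ c : F, c ≠ 0 → c = 1 := by
    intro c hc
    have := FiniteField.pow_card_sub_one_eq_one c hc
    rw [hq] at this
    simpa using this
  have h2 : (2 : F) = 0 := by
    have := Nat.cast_card_eq_zero F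
    rw [hq] at this
    exact_mod_cast this
  obtain ⟨T, hTU, hTs, hTr⟩ := hplus
  have hT1 : Module.finrank F T = 1 := by omega
  have hTne : T ≠ ⊥ := by
    intro h
    rw [h, finrank_bot] at hT1
    omega
  obtain ⟨e, heT, he0⟩ := Submodule.exists_mem_ne_zero_of_ne_bot hTne
  have hQe : Q e = 0 := hTs e heT
  have heU : e ∈ U := hTU heT
  obtain ⟨⟨x, hx, hxe⟩, -⟩ := hnd e heU he0
  have hxe1 : QuadraticMap.polar Q x e = 1 := h01 _ hxe
  have hex1 : QuadraticMap.polar Q e x = 1 := by rw [QuadraticMap.polar_comm]; exact hxe1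
  have hee : QuadraticMap.polar Q e e = 0 := by
    unfold QuadraticMap.polar
    rw [← two_smul F e, hQ.smul, hQe]
    simp
  have hQab : ∀ a b : F, Q (a • e + b • x) = b ^ 2 * Q x + a * b := by
    intro a b
    have h1 : QuadraticMap.polar Q (a • e) (b • x) = a * b := by
      rw [hb.smul_left, hb.smul_right, hex1]
      ring
    unfold QuadraticMap.polar at h1
    rw [hQ.smul, hQ.smul, hQe] at h1
    linear_combination h1
  have hli : LinearIndependent F ![e, x] := by
    rw [LinearIndependent.pair_iff]
    intro s t hst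
    have h1 : QuadraticMap.polar Q (s • e + t • x) e = t := by
      rw [hb.add_left, hb.smul_left, hb.smul_left, hee, hxe1]
      ring
    have h3 : QuadraticMap.polar Q (0 : ι → F) e = 0 := by
      have := hb.smul_left 0 0 e
      simpa using this
    rw [hst, h3] at h1
    have ht : t = 0 := h1.symm
    rw [ht, zero_smul, add_zero] at hst
    exact ⟨(smul_eq_zero.mp hst).resolve_right he0, ht⟩
  have hspan : Submodule.span F {e, x} = U := by
    apply Submodule.eq_of_le_of_finrank_eq
    · rw [Submodule.span_le]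
      rintro v (rfl | rfl)
      · exact heU
      · exact hx
    · have h1 := finrank_span_eq_card hli
      have h3 : Set.range ![e, x] = {e, x} := by
        ext v
        simp only [Set.mem_range, Set.mem_insert_iff, Set.mem_singleton_iff]
        constructor
        · rintro ⟨i, rfl⟩
          fin_cases i
          · exact Or.inl rfl
          · exact Or.inr rfl
        · rintro (rfl | rfl)
          · exact ⟨0, rfl⟩
          · exact ⟨1, rfl⟩
      rw [h3, Fintype.card_fin] at h1
      rw [hfr, h1]
  have hrep : ∀ u ∈ U, ∃ a b : F, a • e + b • x = u := by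
    intro u hu
    rw [← hspan] at hu
    exact Submodule.mem_span_pair.mp hu
  obtain ⟨a₀, ha₀U, ha₀Q, huniq⟩ : ∃ a₀ ∈ U, Q a₀ ≠ 0 ∧ ∀ u ∈ U, Q u ≠ 0 → u = a₀ := by
    by_cases hQx : Q x = 0
    · refine ⟨e + x, U.add_mem heU hx, ?_, ?_⟩
      · have := hQab 1 1
        rw [one_smul, one_smul, hQx] at this
        rw [this]
        simp
      · intro u hu hQu
        obtain ⟨a, b, rfl⟩ := hrep u hu
        rw [hQab, hQx, mul_zero, zero_add] at hQu
        rw [h01 a (left_ne_zero_of_mul hQu), h01 b (right_ne_zero_of_mul hQu), one_smul, one_smul]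
    · refine ⟨x, hx, hQx, ?_⟩
      intro u hu hQu
      obtain ⟨a, b, rfl⟩ := hrep u hu
      rw [hQab, h01 _ hQx] at hQu
      have hb0 : b ≠ 0 := by
        rintro rfl
        simp at hQu
      have hb1 := h01 b hb0
      rw [hb1] at hQu ⊢
      have ha0 : a = 0 := by
        by_contra ha
        rw [h01 a ha] at hQu
        apply hQu
        linear_combination h2
      rw [ha0, zero_smul, zero_add, one_smul]
  refine ⟨a₀, ha₀Q, ?_⟩
  apply le_subspaceStabilizer_of_Inv
  intro h hh w hw
  obtain ⟨c, rfl⟩ := Submodule.mem_span_singleton.mp hw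
  have h1 : (h : Matrix ι ι F) *ᵥ a₀ = a₀ := by
    apply huniq
    · exact (mem_subspaceStabilizer_iff.mp (hU hh) a₀).mp ha₀U
    · rw [mem_iso.mp (hH hh)]
      exact ha₀Q
  rw [Matrix.mulVec_smul, h1]
  exact Submodule.smul_mem _ _ (Submodule.mem_span_singleton_self a₀)

end Cfsg.Agent.Lib.Helper76OPlane2
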