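import Cfsg.Prelude.Def_GeometricClasses

set_option autoImplicit false

/-! PROJECT 5 = ASCH-O, piece `pureplus`. -/

namespace Cfsg.Agent.Lib.Helper76OPureplus

open Cfsg Cfsg.Geo Matrix
open scoped MatrixGroups

variable {ι : Type} [Fintype ι] [DecidableEq ι] {F : Type*} [Field F]
variable {Q : (ι → F) → F}

/-- [pureplus] `Q` vanishes on the pure tensors of `F² ⊗ F^s`: plus type. -/
theorem plus_of_pure {s : ℕ} (e : ι ≃ Fin 2 × Fin s) (P : GL ι F)
    (hpure : ∀ (x₁ : Fin 2 → F) (x₂ : Fin s → F),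
      Q ((P : Matrix ι ι F) *ᵥ ((fun a : Fin 2 × Fin s => x₁ a.1 * x₂ a.2) ∘ e)) = 0) :
    IsPlusTypeOn Q ⊤ := by
  let L : (Fin s → F) →ₗ[F] (ι → F) :=
    { toFun := fun y => (P : Matrix ι ι F) *ᵥ
        ((fun a : Fin 2 × Fin s => (Pi.single 0 1 : Fin 2 → F) a.1 * y a.2) ∘ e)
      map_add' := by
        intro y y'
        rw [← Matrix.mulVec_add]
        congr 1
        funext i
        simp [mul_add]
      map_smul' := by
        intro c y
        rw [RingHom.id_apply, ← Matrix.mulVec_smul]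
        congr 1
        funext i
        simp only [Function.comp_apply, Pi.smul_apply, smul_eq_mul]
        ring }
  have hL : Function.Injective L := by
    intro y y' h
    have h1 : (P : Matrix ι ι F) *ᵥ
        ((fun a : Fin 2 × Fin s => (Pi.single 0 1 : Fin 2 → F) a.1 * y a.2) ∘ e) =
        (P : Matrix ι ι F) *ᵥ
        ((fun a : Fin 2 × Fin s => (Pi.single 0 1 : Fin 2 → F) a.1 * y' a.2) ∘ e) := h
    have h2 := congrArg (fun v => ((P⁻¹ : GL ι F) : Matrix ι ι F) *ᵥ v) h1
    simp only [Matrix.mulVec_mulVec, ← Units.val_mul, inv_mul_cancel, Units.val_one,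
      Matrix.one_mulVec] at h2
    funext j
    have h3 := congrFun h2 (e.symm (0, j))
    simpa using h3
  refine ⟨LinearMap.range L, le_top, ?_, ?_⟩
  · rintro _ ⟨y, rfl⟩
    exact hpure _ y
  · rw [LinearMap.finrank_range_of_inj hL, finrank_top, Module.finrank_fin_fun, Module.finrank_fintype_fun_eq_card,
      Fintype.card_congr e, Fintype.card_prod, Fintype.card_fin, Fintype.card_fin]

end Cfsg.Agent.Lib.Helper76OPureplus
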