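import Mathlib

set_option autoImplicit false

/-! PROJECT 5 = ASCH-O, piece `quadroot`. -/

namespace Cfsg.Agent.Lib.Helper76OQuadroot

open Polynomial

lemma t1 {F : Type*} [Field F] [Fintype F] {F₀ : Subfield F} (hcard : Fintype.card F = Nat.card F₀ ^ 2)
    (g : F₀[X]) (hg : Irreducible g) (hgdeg : g.natDegree ∣ 2) : g ∣ X ^ Fintype.card F - X := by
  have hdvd := hg.natDegree_dvd_iff_dvd_X_pow_card_pow_sub_X.mp hgdeg
  rw [← hcard] at hdvd
  exact hdvd

lemma t2 {F : Type*} [Field F] [Fintype F] {F₀ : Subfield F} :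
    ((X ^ Fintype.card F - X : F₀[X]).map (algebraMap F₀ F)).Splits :=
  (FiniteField.isSplittingField_sub F F₀).splits

lemma t3 {F : Type*} [Field F] [Fintype F] {F₀ : Subfield F} :
    (X ^ Fintype.card F - X : F₀[X]).map (algebraMap F₀ F) ≠ 0 := by
  apply Polynomial.map_ne_zero
  exact FiniteField.X_pow_card_sub_X_ne_zero F₀ Fintype.one_lt_card

lemma t4 {F : Type*} [Field F] [Fintype F] {F₀ : Subfield F} (hcard : Fintype.card F = Nat.card F₀ ^ 2)
    (g : F₀[X]) (hg : Irreducible g) (hgdeg : g.natDegree ∣ 2) : (g.map (algebraMap F₀ F)).Splits :=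
  Splits.of_dvd t2 t3 (Polynomial.map_dvd _ (t1 hcard g hg hgdeg))

lemma t5 {F : Type*} [Field F] [Fintype F] {F₀ : Subfield F} (hcard : Fintype.card F = Nat.card F₀ ^ 2)
    (g : F₀[X]) (hg : Irreducible g) (hgdeg : g.natDegree ∣ 2) :
    ∃ z : F, (g.map (algebraMap F₀ F)).eval z = 0 := by
  have hgd : (g.map (algebraMap F₀ F)).degree ≠ 0 := by
    rw [degree_map]
    exact (hg.degree_pos).ne'
  exact (t4 hcard g hg hgdeg).exists_eval_eq_zero hgd

lemma quad_root_aux {F : Type*} [Field F] [Fintype F] {F₀ : Subfield F}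
    (hcard : Fintype.card F = Nat.card F₀ ^ 2)
    (a b c : F₀) (ha : a ≠ 0) : ∃ z : F, (a : F) * z ^ 2 + (b : F) * z + (c : F) = 0 := by
  obtain ⟨p, hp⟩ : ∃ p : F₀[X], p = C a * X ^ 2 + C b * X + C c := ⟨_, rfl⟩
  have hdeg : p.natDegree = 2 := by rw [hp]; exact natDegree_quadratic ha
  have hp0 : p ≠ 0 := by
    intro h
    rw [h] at hdeg
    simp at hdeg
  have hnu : ¬ IsUnit p := by
    intro h
    have := natDegree_eq_zero_of_isUnit h
    omega
  obtain ⟨g, hg, hgp⟩ := WfDvdMonoid.exists_irreducible_factor hnu hp0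
  have hgdeg : g.natDegree ∣ 2 := by
    have h1 : g.natDegree ≤ 2 := hdeg ▸ natDegree_le_of_dvd hgp hp0
    have h2 : 0 < g.natDegree := hg.natDegree_pos
    obtain h | h : g.natDegree = 1 ∨ g.natDegree = 2 := by omega
    · rw [h]; norm_num
    · rw [h]
  obtain ⟨z, hz⟩ := t5 hcard g hg hgdeg
  have hpz : (p.map (algebraMap F₀ F)).eval z = 0 := by
    obtain ⟨r, hr⟩ := hgp
    rw [hr, Polynomial.map_mul, eval_mul, hz, zero_mul]
  refine ⟨z, ?_⟩
  rw [hp] at hpz
  simp only [Polynomial.map_add, Polynomial.map_mul, Polynomial.map_pow, map_C, map_X, eval_add,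
    eval_mul, eval_pow, eval_C, eval_X] at hpz
  exact hpz

/-- [quadroot] a binary quadratic form over `F₀` has a non-trivial zero over the quadratic extension. -/
theorem quad_root {F : Type*} [Field F] [Fintype F] {F₀ : Subfield F}
    (hcard : Fintype.card F = Nat.card F₀ ^ 2)
    {α β γ : F} (hα : α ∈ F₀) (hβ : β ∈ F₀) (hγ : γ ∈ F₀) :
    ∃ x y : F, (x ≠ 0 ∨ y ≠ 0) ∧ α * x ^ 2 + β * x * y + γ * y ^ 2 = 0 := by
  by_cases h0 : α = 0
  · exact ⟨1, 0, Or.inl one_ne_zero, by simp [h0]⟩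
  obtain ⟨z, hz⟩ := quad_root_aux hcard ⟨α, hα⟩ ⟨β, hβ⟩ ⟨γ, hγ⟩ (fun h => h0 (congrArg Subtype.val h))
  refine ⟨z, 1, Or.inr one_ne_zero, ?_⟩
  have hz' : α * z ^ 2 + β * z + γ = 0 := hz
  linear_combination hz'

end Cfsg.Agent.Lib.Helper76OQuadroot
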