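import Cfsg.Agent.Lib.Helper57SpWrBase
import Cfsg.Agent.Lib.Helper58GTensnorm

set_option autoImplicit false
set_option linter.unusedSectionVars false

/-! ASCH-O part 2b, piece `wrregroup`. -/

namespace Cfsg.Agent.Lib.Helper91OWrregroup

open Cfsg Cfsg.Geo Matrix
open Cfsg.Agent.Lib.Helper97GBase Cfsg.Agent.Lib.Helper97GCore
  Cfsg.Agent.Lib.Helper98AschGDefs Cfsg.Agent.Lib.Helper98AschGBasic Cfsg.Agent.Lib.Helper96SpDefs
  Cfsg.Agent.Lib.Helper58GWnorm Cfsg.Agent.Lib.Helper57SpWrBase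
open scoped MatrixGroups Kronecker

variable {ι : Type} [Fintype ι] [DecidableEq ι] {F : Type*} [Field F]

/-- an invertible matrix of the shape `P (a ⊗ b) P⁻¹` lies in the tensor product subgroup
(no invertibility hypothesis on `a`, `b`). -/
lemma mem_tensorProductSubgroup_of_tens {d s : ℕ} (e : ι ≃ Fin d × Fin s) (P g : GL ι F)
    (a : Matrix (Fin d) (Fin d) F) (b : Matrix (Fin s) (Fin s) F)
    (h : (g : Matrix ι ι F) = tens e P a b) : g ∈ tensorProductSubgroup d s e P := by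
  by_cases hι : IsEmpty ι
  · have : g = 1 := by
      apply Units.ext
      ext i j
      exact (hι.false i).elim
    rw [this]
    exact Subgroup.one_mem _
  · rw [not_isEmpty_iff] at hι
    obtain ⟨i0⟩ := hι
    have hd : d ≠ 0 := by
      rintro rfl
      exact (e i0).1.elim0
    have hs : s ≠ 0 := by
      rintro rfl
      exact (e i0).2.elim0
    have hdet : IsUnit (g : Matrix ι ι F).det := (Matrix.isUnit_iff_isUnit_det _).1 g.isUnit
    rw [h, Cfsg.Agent.Lib.Helper58GTensnorm.det_tens, Fintype.card_fin, Fintype.card_fin,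
      IsUnit.mul_iff, isUnit_pow_iff hs, isUnit_pow_iff hd] at hdet
    obtain ⟨a', ha'⟩ := (Matrix.isUnit_iff_isUnit_det a).2 hdet.1
    obtain ⟨b', hb'⟩ := (Matrix.isUnit_iff_isUnit_det b).2 hdet.2
    exact Cfsg.Agent.Lib.Helper58GTensnorm.mem_tensorProductSubgroup_of_eq e P g a' b'
      (by rw [ha', hb', h])

variable {k m : ℕ}

/-- `(Fin (k+1) → Fin m) ≃ Fin m × Fin (m^k)` -/
def rg (k m : ℕ) : (Fin (k + 1) → Fin m) ≃ Fin m × Fin (m ^ k) :=
  (Fin.consEquiv (fun _ => Fin m)).symm.trans (Equiv.prodCongr (Equiv.refl _) finFunctionFinEquiv)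

lemma rg_fst (u : Fin (k + 1) → Fin m) : (rg k m u).1 = u 0 := rfl

lemma rg_snd (u : Fin (k + 1) → Fin m) :
    (rg k m u).2 = finFunctionFinEquiv (fun j : Fin k => u j.succ) := rfl

/-- the second Gram matrix -/
def G2 (G : Fin (k + 1) → Matrix (Fin m) (Fin m) F) : Matrix (Fin (m ^ k)) (Fin (m ^ k)) F :=
  Matrix.reindex finFunctionFinEquiv finFunctionFinEquiv (pt (fun j : Fin k => G j.succ))

lemma kron_rg (a : Matrix (Fin m) (Fin m) F) (M : Matrix (Fin k → Fin m) (Fin k → Fin m) F)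
    (u v : Fin (k + 1) → Fin m) :
    (a ⊗ₖ Matrix.reindex finFunctionFinEquiv finFunctionFinEquiv M) (rg k m u) (rg k m v) =
      a (u 0) (v 0) * M (fun j => u j.succ) (fun j => v j.succ) := by
  rw [Matrix.kroneckerMap_apply, rg_fst, rg_fst, rg_snd, rg_snd]
  simp

lemma isUnit_pt {A : Fin k → Matrix (Fin m) (Fin m) F} (hA : ∀ i, IsUnit (A i).det) :
    IsUnit (pt A).det := by
  rw [← Matrix.isUnit_iff_isUnit_det]
  have h1 : pt A * pt (fun j => (A j)⁻¹) = 1 := by
    rw [pt_mul]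
    have : (fun j => A j * (A j)⁻¹) = fun _ => (1 : Matrix (Fin m) (Fin m) F) := by
      funext j
      exact Matrix.mul_nonsing_inv _ (hA j)
    rw [this, pt_one]
  have h2 : pt (fun j => (A j)⁻¹) * pt A = 1 := by
    rw [pt_mul]
    have : (fun j => (A j)⁻¹ * A j) = fun _ => (1 : Matrix (Fin m) (Fin m) F) := by
      funext j
      exact Matrix.nonsing_inv_mul _ (hA j)
    rw [this, pt_one]
  exact ⟨⟨_, _, h1, h2⟩, rfl⟩

lemma factor_zero_eq (a : Matrix (Fin m) (Fin m) F) (u v : Fin (k + 1) → Fin m) :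
    factor 0 a u v = a (u 0) (v 0) * (1 : Matrix (Fin k → Fin m) (Fin k → Fin m) F)
      (fun j => u j.succ) (fun j => v j.succ) := by
  simp only [factor, Matrix.one_apply]
  have : (∀ j : Fin (k + 1), j ≠ 0 → u j = v j) ↔
      ((fun j : Fin k => u j.succ) = fun j : Fin k => v j.succ) := by
    constructor
    · intro h
      funext j
      exact h _ (Fin.succ_ne_zero j)
    · intro h j hj
      obtain ⟨i, rfl⟩ := Fin.exists_succ_eq.2 hj
      exact congrFun h i
  simp only [this]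
  split_ifs <;> simp

lemma factor_succ_eq (i : Fin k) (a : Matrix (Fin m) (Fin m) F) (u v : Fin (k + 1) → Fin m) :
    factor i.succ a u v = (1 : Matrix (Fin m) (Fin m) F) (u 0) (v 0) *
      factor i a (fun j => u j.succ) (fun j => v j.succ) := by
  simp only [factor, Matrix.one_apply]
  have : (∀ j : Fin (k + 1), j ≠ i.succ → u j = v j) ↔
      (u 0 = v 0 ∧ ∀ j : Fin k, j ≠ i → u j.succ = v j.succ) := by
    constructor
    · intro h
      exact ⟨h 0 (Fin.succ_ne_zero i).symm, fun j hj => h _ (fun h' => hj (Fin.succ_injective _ h'))⟩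
    · intro h j hj
      by_cases hj0 : j = 0
      · rw [hj0]; exact h.1
      · obtain ⟨l, rfl⟩ := Fin.exists_succ_eq.2 hj0
        exact h.2 l (fun h' => hj (by rw [h']))
  simp only [this]
  by_cases h0 : u 0 = v 0 <;> simp [h0]

lemma fac_eq_tens (e : ι ≃ (Fin (k + 1) → Fin m)) (P : GL ι F) (i : Fin (k + 1))
    (a : Matrix (Fin m) (Fin m) F)
    (a' : Matrix (Fin m) (Fin m) F) (M : Matrix (Fin k → Fin m) (Fin k → Fin m) F)
    (h : ∀ u v : Fin (k + 1) → Fin m, factor i a u v =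
      a' (u 0) (v 0) * M (fun j => u j.succ) (fun j => v j.succ)) :
    fac e P i a = tens (e.trans (rg k m)) P a'
      (Matrix.reindex finFunctionFinEquiv finFunctionFinEquiv M) := by
  unfold fac tens
  congr 2
  ext x y
  simp only [Matrix.reindex_apply, Matrix.submatrix_apply, Equiv.symm_symm, Equiv.trans_apply]
  rw [h]
  have := kron_rg a' M (e x) (e y)
  simp only [Matrix.reindex_apply] at this
  rw [this]

variable {Q : (ι → F) → F}

/-- [wrregroup] `F^m ⊗ ... ⊗ F^m` (`k + 1` factors) regrouped as `F^m ⊗ F^(m^k)`. -/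
theorem wr_regroup (e : ι ≃ (Fin (k + 1) → Fin m)) (P : GL ι F)
    (G : Fin (k + 1) → Matrix (Fin m) (Fin m) F) (hGu : ∀ i, IsUnit (G i).det)
    (hG : ∀ x y : (Fin (k + 1) → Fin m) → F, QuadraticMap.polar Q ((P : Matrix ι ι F) *ᵥ (x ∘ e))
      ((P : Matrix ι ι F) *ᵥ (y ∘ e)) = ∑ a, ∑ b, x a * (∏ i, G i (a i) (b i)) * y b) :
    ∃ (e' : ι ≃ Fin m × Fin (m ^ k)) (G₂ : Matrix (Fin (m ^ k)) (Fin (m ^ k)) F), IsUnit G₂.det ∧
      (∀ x y : Fin m × Fin (m ^ k) → F, QuadraticMap.polar Q ((P : Matrix ι ι F) *ᵥ (x ∘ e'))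
        ((P : Matrix ι ι F) *ᵥ (y ∘ e')) = formOfGram id (G 0 ⊗ₖ G₂) x y) ∧
      ∀ (g : GL ι F) (i : Fin (k + 1)) (a : Matrix (Fin m) (Fin m) F),
        (g : Matrix ι ι F) = fac e P i a → g ∈ tensorProductSubgroup m (m ^ k) e' P := by
  refine ⟨e.trans (rg k m), G2 G, ?_, ?_, ?_⟩
  · unfold G2
    rw [Matrix.det_reindex_self]
    exact isUnit_pt fun i => hGu _
  · intro x y
    have h1 := hG (x ∘ rg k m) (y ∘ rg k m)
    have h2 : ∀ z : Fin m × Fin (m ^ k) → F, z ∘ (e.trans (rg k m)) = (z ∘ rg k m) ∘ e := fun z => rfl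
    rw [h2, h2, h1]
    unfold formOfGram
    rw [← Equiv.sum_comp (rg k m)]
    refine Finset.sum_congr rfl fun a _ => ?_
    rw [← Equiv.sum_comp (rg k m)]
    refine Finset.sum_congr rfl fun b _ => ?_
    unfold G2
    rw [kron_rg, pt_apply, Fin.prod_univ_succ]
    rfl
  · intro g i a hg
    by_cases hi : i = 0
    · subst hi
      exact mem_tensorProductSubgroup_of_tens _ P g _ _
        (hg.trans (fac_eq_tens e P 0 a a 1 (factor_zero_eq a)))
    · obtain ⟨j, rfl⟩ := Fin.exists_succ_eq.2 hi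
      exact mem_tensorProductSubgroup_of_tens _ P g _ _
        (hg.trans (fac_eq_tens e P j.succ a 1 (factor j a) (factor_succ_eq j a)))

end Cfsg.Agent.Lib.Helper91OWrregroup
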