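import Cfsg.Agent.Lib.Helper96SpTv
import Cfsg.Agent.Lib.Helper98AschGBasic

set_option autoImplicit false

/-! PROJECT 3 = ASCH-SP, PART D, piece `D_tensor`: some symplectic transvection lies outside a tensor product
subgroup (`2 ≠ 0`).  The lemma `core` is shared with `D_wreath`. -/

namespace Cfsg.Agent.Lib.Helper92SpDTensor

open Cfsg Cfsg.Geo Matrix
open Cfsg.Agent.Lib.Helper97GBase Cfsg.Agent.Lib.Helper97GCore
  Cfsg.Agent.Lib.Helper98AschGDefs Cfsg.Agent.Lib.Helper98AschGBasic Cfsg.Agent.Lib.Helper96SpDefs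
  Cfsg.Agent.Lib.Helper96SpTv
open scoped MatrixGroups Kronecker

variable {ι : Type} [Fintype ι] [DecidableEq ι] {F : Type*} [Field F]
variable {f : (ι → F) → (ι → F) → F}

lemma emb_injective {κ : Type} (e : ι ≃ κ) (P : GL ι F) {x y : κ → F}
    (h : (P : Matrix ι ι F) *ᵥ (x ∘ e) = (P : Matrix ι ι F) *ᵥ (y ∘ e)) : x = y := by
  have h1 := congrArg (fun z => ((P⁻¹ : GL ι F) : Matrix ι ι F) *ᵥ z) h
  simp only [Matrix.mulVec_mulVec, vi, Matrix.one_mulVec] at h1
  funext a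
  have := congrFun h1 (e.symm a)
  simpa using this

/-- abstract form of the argument: `X` preserves a class `Pu` of "pure" vectors (in the coordinates `e`, `P`)
containing the basis vectors, and `w ≠ 0` is such that no `e_a + w` is pure. -/
theorem core (hf : IsSymplecticForm f) {κ : Type} [Fintype κ] [DecidableEq κ] (e : ι ≃ κ) (P : GL ι F)
    (Pu : (κ → F) → Prop) (w : κ → F) (hw : w ≠ 0)
    (h1 : ∀ a, Pu (Pi.single a 1)) (h2 : ∀ a, ¬ Pu (Pi.single a 1 + w))
    (X : Subgroup (GL ι F))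
    (hX : ∀ g ∈ X, ∀ u, Pu u → ∃ u', Pu u' ∧
      (g : Matrix ι ι F) *ᵥ ((P : Matrix ι ι F) *ᵥ (u ∘ e)) = (P : Matrix ι ι F) *ᵥ (u' ∘ e)) :
    ∃ v c, tv hf v c ∉ X := by
  set v : ι → F := (P : Matrix ι ι F) *ᵥ (w ∘ e) with hv
  have hv0 : v ≠ 0 := by
    intro h
    apply hw
    apply emb_injective e P
    rw [← hv, h]
    have : ((0 : κ → F) ∘ e) = 0 := by ext i; simp
    rw [this, Matrix.mulVec_zero]
  obtain ⟨x, hx⟩ := (hf.nondegenerate v hv0).1
  obtain ⟨u, rfl⟩ := exists_coords e P x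
  have hex : ∃ a, f ((P : Matrix ι ι F) *ᵥ ((Pi.single a 1 : κ → F) ∘ e)) v ≠ 0 := by
    by_contra hcon
    push Not at hcon
    apply hx
    rw [comp_eq_sum e u, Matrix.mulVec_sum, bil_sum_left hf.bilinear]
    apply Finset.sum_eq_zero
    intro a _
    rw [Matrix.mulVec_smul, hf.bilinear.smul_left, hcon a, mul_zero]
  obtain ⟨a, ha⟩ := hex
  refine ⟨v, (f ((P : Matrix ι ι F) *ᵥ ((Pi.single a 1 : κ → F) ∘ e)) v)⁻¹, fun hmem => ?_⟩
  obtain ⟨u', hu', h3⟩ := hX _ hmem _ (h1 a)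
  rw [tv_mulVec, inv_mul_cancel₀ ha, one_smul, hv, ← Matrix.mulVec_add] at h3
  have h4 : ((Pi.single a 1 : κ → F) ∘ e) + w ∘ e = ((Pi.single a 1 : κ → F) + w) ∘ e := by
    ext i; simp
  rw [h4] at h3
  have := emb_injective e P h3
  rw [← this] at hu'
  exact h2 a hu'

/-- pure vectors of a tensor product -/
def Pure2 {n₁ n₂ : ℕ} (u : Fin n₁ × Fin n₂ → F) : Prop :=
  ∃ (x : Fin n₁ → F) (y : Fin n₂ → F), ∀ a, u a = x a.1 * y a.2

lemma pure2_kronecker {n₁ n₂ : ℕ} (a : Matrix (Fin n₁) (Fin n₁) F) (b : Matrix (Fin n₂) (Fin n₂) F)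
    {u : Fin n₁ × Fin n₂ → F} (hu : Pure2 u) : Pure2 ((a ⊗ₖ b) *ᵥ u) := by
  obtain ⟨x, y, hxy⟩ := hu
  refine ⟨a *ᵥ x, b *ᵥ y, fun c => ?_⟩
  simp only [Matrix.mulVec, dotProduct, Matrix.kroneckerMap_apply, hxy]
  rw [Fintype.sum_prod_type, Finset.sum_mul_sum]
  apply Finset.sum_congr rfl
  intro i _
  apply Finset.sum_congr rfl
  intro j _
  ring

/-- [D_tensor] -/
theorem notSp_tensor (hf : IsSymplecticForm f) (h2 : (2 : F) ≠ 0) {n₁ n₂ : ℕ} (h₁ : 2 ≤ n₁) (h₂ : 2 ≤ n₂)
    (e : ι ≃ Fin n₁ × Fin n₂) (P : GL ι F) : ∃ v c, tv hf v c ∉ tensorProductSubgroup n₁ n₂ e P := by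
  set z1 : Fin n₁ := ⟨0, by omega⟩ with hz1
  set o1 : Fin n₁ := ⟨1, by omega⟩ with ho1
  set z2 : Fin n₂ := ⟨0, by omega⟩ with hz2
  set o2 : Fin n₂ := ⟨1, by omega⟩ with ho2
  have hzo1 : z1 ≠ o1 := by
    intro h
    simpa [hz1, ho1] using congrArg Fin.val h
  have hzo2 : z2 ≠ o2 := by
    intro h
    simpa [hz2, ho2] using congrArg Fin.val h
  set w : Fin n₁ × Fin n₂ → F := Pi.single (z1, z2) 1 + Pi.single (o1, o2) 1 with hw
  apply core hf e P Pure2 w
  · intro h
    have := congrFun h (z1, z2)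
    simp [hw, Pi.single_apply, hzo1] at this
  · intro a
    refine ⟨Pi.single a.1 1, Pi.single a.2 1, fun c => ?_⟩
    simp only [Pi.single_apply]
    by_cases h1 : c.1 = a.1
    · by_cases h2 : c.2 = a.2
      · have : c = a := Prod.ext h1 h2
        simp [this]
      · have : c ≠ a := fun h => h2 (by rw [h])
        simp [this, h2]
    · have : c ≠ a := fun h => h1 (by rw [h])
      simp [this, h1]
  · rintro a ⟨x, y, hxy⟩
    have e00 := hxy (z1, z2)
    have e11 := hxy (o1, o2)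
    have e01 := hxy (z1, o2)
    have e10 := hxy (o1, z2)
    simp only [hw, Pi.add_apply, Pi.single_apply, Prod.mk.injEq, hzo1, hzo1.symm, hzo2, hzo2.symm, and_true,
      true_and, and_false, false_and, if_true, if_false, add_zero, zero_add] at e00 e11 e01 e10
    have key : (x z1 * y o2) * (x o1 * y z2) = (x z1 * y z2) * (x o1 * y o2) := by ring
    rw [← e00, ← e11, ← e01, ← e10] at key
    by_cases c1 : (z1, o2) = a
    · have c2 : (o1, z2) ≠ a := by
        rw [← c1]; intro h; exact hzo1 (congrArg Prod.fst h).symm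
      have c3 : (z1, z2) ≠ a := by
        rw [← c1]; intro h; exact hzo2 (congrArg Prod.snd h)
      have c4 : (o1, o2) ≠ a := by
        rw [← c1]; intro h; exact hzo1 (congrArg Prod.fst h).symm
      simp [c2, c3, c4] at key
    · by_cases c3 : (z1, z2) = a
      · have c4 : (o1, o2) ≠ a := by
          rw [← c3]; intro h; exact hzo1 (congrArg Prod.fst h).symm
        simp only [if_neg c1, if_pos c3, if_neg c4, zero_mul, zero_add, mul_one] at key
        apply h2
        rw [← one_add_one_eq_two]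
        exact key.symm
      · by_cases c4 : (o1, o2) = a
        · simp only [if_neg c1, if_neg c3, if_pos c4, zero_mul, zero_add, one_mul] at key
          apply h2
          rw [← one_add_one_eq_two]
          exact key.symm
        · simp [c1, c3, c4] at key
  · intro g hg u hu
    rw [mem_tensorProductSubgroup_iff] at hg
    obtain ⟨a, b, hab⟩ := hg
    refine ⟨_, pure2_kronecker (a : Matrix (Fin n₁) (Fin n₁) F) (b : Matrix (Fin n₂) (Fin n₂) F) hu, ?_⟩
    rw [hab]
    exact conj_reindex_mulVec e P _ u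

end Cfsg.Agent.Lib.Helper92SpDTensor
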