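import Cfsg.Agent.Lib.Helper15OPwreath
import Cfsg.Agent.Lib.Helper92SpDTensor

set_option autoImplicit false

/-! PROJECT 5 = ASCH-O, PART 2b, piece `ptens`. -/

namespace Cfsg.Agent.Lib.Helper92OPtens

open Cfsg Cfsg.Geo Matrix
open Cfsg.Agent.Lib.Helper97GBase Cfsg.Agent.Lib.Helper97GForms
  Cfsg.Agent.Lib.Helper98AschGDefs Cfsg.Agent.Lib.Helper98AschGBasic
  Cfsg.Agent.Lib.Helper97OBase Cfsg.Agent.Lib.Helper97OProper
open Cfsg.Agent.Lib.Helper15OPwreath (form_eq_gram exists_functional exists_xy)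
open Cfsg.Agent.Lib.Helper92SpDTensor (Pure2 pure2_kronecker emb_injective)
open scoped MatrixGroups Kronecker

variable {ι : Type} [Fintype ι] [DecidableEq ι] {F : Type*} [Field F]
variable {Q : (ι → F) → F}

/-- the tensor product form on pure tensors -/
lemma form_pure2 {d s : ℕ} {f₁ : (Fin d → F) → (Fin d → F) → F} {f₂ : (Fin s → F) → (Fin s → F) → F}
    (hb₁ : IsBilinearForm f₁) (hb₂ : IsBilinearForm f₂) (x₁ y₁ : Fin d → F) (x₂ y₂ : Fin s → F) :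
    formOfGram id (gramMatrix f₁ ⊗ₖ gramMatrix f₂) (fun a : Fin d × Fin s => x₁ a.1 * x₂ a.2)
      (fun a : Fin d × Fin s => y₁ a.1 * y₂ a.2) = f₁ x₁ y₁ * f₂ x₂ y₂ := by
  rw [form_eq_gram hb₁, form_eq_gram hb₂]
  unfold formOfGram
  simp only [Fintype.sum_prod_type, Matrix.kroneckerMap_apply, id]
  rw [Finset.sum_mul_sum]
  refine Finset.sum_congr rfl fun i _ => Finset.sum_congr rfl fun j _ => ?_
  rw [mul_mul_mul_comm, Finset.sum_mul_sum, Finset.mul_sum]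
  refine Finset.sum_congr rfl fun k _ => ?_
  rw [Finset.mul_sum]
  refine Finset.sum_congr rfl fun l _ => ?_
  ring

lemma contract2 {d s : ℕ} (φ₁ z₁ : Fin d → F) (φ₂ z₂ : Fin s → F) :
    ∑ a : Fin d × Fin s, (φ₁ a.1 * φ₂ a.2) * (z₁ a.1 * z₂ a.2) =
      (∑ p, φ₁ p * z₁ p) * ∑ p, φ₂ p * z₂ p := by
  rw [Fintype.sum_prod_type, Finset.sum_mul_sum]
  refine Finset.sum_congr rfl fun i _ => Finset.sum_congr rfl fun j _ => ?_
  ring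

/-- `x₁ ⊗ x₂ - λ y₁ ⊗ y₂` is not pure -/
lemma not_pure2_sub {d s : ℕ} {x₁ y₁ : Fin d → F} {x₂ y₂ : Fin s → F}
    (hx₁ : x₁ ∉ Submodule.span F {y₁}) (hy₁ : y₁ ∉ Submodule.span F {x₁})
    (hx₂ : x₂ ∉ Submodule.span F {y₂}) (hy₂ : y₂ ∉ Submodule.span F {x₂}) {l : F} (hl : l ≠ 0) :
    ¬ Pure2 (fun a : Fin d × Fin s => x₁ a.1 * x₂ a.2 - l * (y₁ a.1 * y₂ a.2)) := by
  rintro ⟨z₁, z₂, hz⟩
  obtain ⟨φ₁, hφx₁, hφy₁⟩ := exists_functional hx₁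
  obtain ⟨ψ₁, hψy₁, hψx₁⟩ := exists_functional hy₁
  obtain ⟨φ₂, hφx₂, hφy₂⟩ := exists_functional hx₂
  obtain ⟨ψ₂, hψy₂, hψx₂⟩ := exists_functional hy₂
  have key : ∀ (Φ₁ : Fin d → F) (Φ₂ : Fin s → F),
      (∑ p, Φ₁ p * x₁ p) * (∑ p, Φ₂ p * x₂ p) - l * ((∑ p, Φ₁ p * y₁ p) * ∑ p, Φ₂ p * y₂ p) =
      (∑ p, Φ₁ p * z₁ p) * ∑ p, Φ₂ p * z₂ p := by
    intro Φ₁ Φ₂
    rw [← contract2 Φ₁ z₁ Φ₂ z₂, ← contract2 Φ₁ x₁ Φ₂ x₂, ← contract2 Φ₁ y₁ Φ₂ y₂, Finset.mul_sum,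
      ← Finset.sum_sub_distrib]
    refine Finset.sum_congr rfl fun a _ => ?_
    rw [← hz a]
    ring
  have h1 := key φ₁ φ₂
  have h2 := key ψ₁ ψ₂
  have h3 := key ψ₁ φ₂
  rw [hφy₁, zero_mul, mul_zero, sub_zero] at h1
  rw [hψx₁, zero_mul, zero_sub] at h2
  rw [hψx₁, hφy₂, zero_mul, mul_zero, mul_zero, sub_zero] at h3
  have n1 : (∑ p, φ₁ p * z₁ p) * ∑ p, φ₂ p * z₂ p ≠ 0 := by
    rw [← h1]; exact mul_ne_zero hφx₁ hφx₂
  have n2 : (∑ p, ψ₁ p * z₁ p) * ∑ p, ψ₂ p * z₂ p ≠ 0 := by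
    rw [← h2]; exact neg_ne_zero.2 (mul_ne_zero hl (mul_ne_zero hψy₁ hψy₂))
  exact mul_ne_zero (left_ne_zero_of_mul n2) (right_ne_zero_of_mul n1) h3.symm

/-- [ptens] `q` odd: `Ω` stabilises no tensor decomposition of the polar form into symmetric forms. -/
theorem not_le_tensor [Fintype F] (hQ : IsNondegenerateQuadraticForm Q) (h2 : (2 : F) ≠ 0)
    (hn : 7 ≤ Fintype.card ι) {d s : ℕ} (hd : 2 ≤ d) (hs : 2 ≤ s) (e : ι ≃ Fin d × Fin s) (P : GL ι F)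
    (f₁ : (Fin d → F) → (Fin d → F) → F) (f₂ : (Fin s → F) → (Fin s → F) → F)
    (hf₁ : IsSymmetricForm f₁) (hf₂ : IsSymmetricForm f₂)
    (hstr : IsTensorFormStructure id (QuadraticMap.polar Q) f₁ f₂ e P) :
    ¬ omegaGL Q ≤ tensorProductSubgroup d s e P := by
  intro hle
  obtain ⟨c, hc, hform⟩ := hstr
  obtain ⟨x₁, y₁, hyy₁, hyx₁, hx₁, hy₁⟩ := exists_xy hd h2 hf₁
  obtain ⟨x₂, y₂, hyy₂, hyx₂, hx₂, hy₂⟩ := exists_xy hs h2 hf₂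
  set X : Fin d × Fin s → F := fun a => x₁ a.1 * x₂ a.2 with hX
  set Y : Fin d × Fin s → F := fun a => y₁ a.1 * y₂ a.2 with hY
  set a : ι → F := (P : Matrix ι ι F) *ᵥ (Y ∘ e) with ha
  set v : ι → F := (P : Matrix ι ι F) *ᵥ (X ∘ e) with hv
  have haa : QuadraticMap.polar Q a a = c * (f₁ y₁ y₁ * f₂ y₂ y₂) := by
    rw [ha, hform, hY, form_pure2 hf₁.bilinear hf₂.bilinear]
  have hav : QuadraticMap.polar Q a v = c * (f₁ y₁ x₁ * f₂ y₂ x₂) := by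
    rw [ha, hv, hform, hY, hX, form_pure2 hf₁.bilinear hf₂.bilinear]
  have hQa : Q a ≠ 0 := by
    intro h0
    rw [polar_self hQ, h0, mul_zero] at haa
    exact mul_ne_zero hc (mul_ne_zero hyy₁ hyy₂) haa.symm
  have hav0 : QuadraticMap.polar Q a v ≠ 0 := by
    rw [hav]
    exact mul_ne_zero hc (mul_ne_zero hyx₁ hyx₂)
  obtain ⟨b, hbv, -, hQb⟩ := exists_perp_two hQ hn v v (Q a)
  have hQb0 : Q b ≠ 0 := by rw [hQb]; exact hQa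
  have hg := hle (rr_mem hQ h2 a b hQa hQb0 hQb.symm)
  rw [mem_tensorProductSubgroup_iff] at hg
  obtain ⟨A, B, hAB⟩ := hg
  have hpure := pure2_kronecker (A : Matrix (Fin d) (Fin d) F) (B : Matrix (Fin s) (Fin s) F)
    (u := X) ⟨x₁, x₂, fun _ => rfl⟩
  set l : F := (Q a)⁻¹ * QuadraticMap.polar Q a v with hl
  have hl0 : l ≠ 0 := mul_ne_zero (inv_ne_zero hQa) hav0
  apply not_pure2_sub hx₁ hy₁ hx₂ hy₂ hl0
  convert hpure using 1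
  apply emb_injective e P
  have h3 := Cfsg.Agent.Lib.Helper96SpDefs.conj_reindex_mulVec e P
    ((A : Matrix (Fin d) (Fin d) F) ⊗ₖ (B : Matrix (Fin s) (Fin s) F)) X
  rw [← h3]
  have h4 : (P : Matrix ι ι F) * Matrix.reindex e.symm e.symm
      ((A : Matrix (Fin d) (Fin d) F) ⊗ₖ (B : Matrix (Fin s) (Fin s) F)) * ((P⁻¹ : GL ι F) : Matrix ι ι F) =
      ((rf hQ a hQa * rf hQ b hQb0 : GL ι F) : Matrix ι ι F) := hAB.symm
  rw [h4, Units.val_mul, ← Matrix.mulVec_mulVec, ← hv, rf_fix hQ b hQb0 hbv, rf_mulVec, ← hl, hv, ha,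
    ← Matrix.mulVec_smul, ← Matrix.mulVec_sub]
  congr 1

end Cfsg.Agent.Lib.Helper92OPtens
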