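import Cfsg.Agent.Lib.Helper63SpTenseven
import Cfsg.Agent.Lib.Helper97OBase

set_option autoImplicit false
set_option linter.unusedSectionVars false

/-! PROJECT 5 = ASCH-O, piece `tens2`. -/

namespace Cfsg.Agent.Lib.Helper95OTens2

open Cfsg Cfsg.Geo Matrix
open Cfsg.Agent.Lib.Helper97GBase Cfsg.Agent.Lib.Helper97GForms
  Cfsg.Agent.Lib.Helper98AschGDefs Cfsg.Agent.Lib.Helper98AschGBasic Cfsg.Agent.Lib.Helper96SpDefs
  Cfsg.Agent.Lib.Helper97OBase Cfsg.Agent.Lib.Helper63SpTenseven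
open scoped MatrixGroups Kronecker

variable {ι : Type} [Fintype ι] [DecidableEq ι] {F : Type*} [Field F]
variable {Q : (ι → F) → F} {H : Subgroup (GL ι F)}

/-- in characteristic 2 the polar form is symplectic -/
lemma symplectic_polar (h2 : (2 : F) = 0) (hQ : IsNondegenerateQuadraticForm Q) :
    IsSymplecticForm (QuadraticMap.polar Q) where
  bilinear := hQ.polar_bilinear
  skew v w := by
    rw [QuadraticMap.polar_comm Q v w]
    have : QuadraticMap.polar Q w v + QuadraticMap.polar Q w v = 0 := by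
      rw [← two_mul, h2, zero_mul]
    exact eq_neg_of_add_eq_zero_left this
  alternating v := by rw [polar_self hQ, h2, zero_mul]
  nondegenerate := hQ.nondegenerate

/-- two quadratic forms with the same polar form, fixed by an irreducible group, in characteristic 2 -/
lemma quad_unique [Fintype F] (h2 : (2 : F) = 0) (hc : 2 ≤ Fintype.card ι) {Q₀ : (ι → F) → F}
    (hsm : ∀ (c : F) v, Q (c • v) = c ^ 2 * Q v) (hsm₀ : ∀ (c : F) v, Q₀ (c • v) = c ^ 2 * Q₀ v)
    (hpol : ∀ u v, QuadraticMap.polar Q u v = QuadraticMap.polar Q₀ u v)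
    (hfix : ∀ h ∈ H, ∀ v, Q ((h : Matrix ι ι F) *ᵥ v) = Q v)
    (hfix₀ : ∀ h ∈ H, ∀ v, Q₀ ((h : Matrix ι ι F) *ᵥ v) = Q₀ v)
    (hirr : ActsIrreducibly (matrixSet H)) : ∀ v, Q v = Q₀ v := by
  have hadd : ∀ u v, Q (u + v) - Q₀ (u + v) = (Q u - Q₀ u) + (Q v - Q₀ v) := by
    intro u v
    have := hpol u v
    unfold QuadraticMap.polar at this
    linear_combination this
  let W : Submodule F (ι → F) :=
    { carrier := {v | Q v - Q₀ v = 0}
      add_mem' := by
        intro u v hu hv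
        simp only [Set.mem_setOf_eq] at hu hv ⊢
        rw [hadd, hu, hv, add_zero]
      zero_mem' := by
        simp only [Set.mem_setOf_eq]
        have a := hsm 0 0
        have b := hsm₀ 0 0
        simp only [zero_smul] at a b
        rw [a, b]; ring
      smul_mem' := by
        intro c v hv
        simp only [Set.mem_setOf_eq] at hv ⊢
        rw [hsm, hsm₀, ← mul_sub, hv, mul_zero] }
  have hWmem : ∀ v, v ∈ W ↔ Q v - Q₀ v = 0 := fun v => Iff.rfl
  have hinv : ∀ s ∈ matrixSet H, W.map (Matrix.toLin' s) ≤ W := by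
    rintro _ ⟨h, hh, rfl⟩ _ ⟨v, hv, rfl⟩
    rw [Matrix.toLin'_apply, hWmem]
    show Q ((h : Matrix ι ι F) *ᵥ v) - Q₀ ((h : Matrix ι ι F) *ᵥ v) = 0
    rw [hfix h hh, hfix₀ h hh]
    exact hv
  rcases hirr W hinv with hW | hW
  · exfalso
    obtain ⟨i0, i1, hne⟩ := Fintype.one_lt_card_iff.1 hc
    have key : ∃ v ∈ W, v ≠ 0 := by
      by_cases h0 : Q (Pi.single i0 1) - Q₀ (Pi.single i0 1) = 0
      · refine ⟨Pi.single i0 1, h0, ?_⟩
        intro h
        have := congrFun h i0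
        simp at this
      · haveI : CharP F 2 := CharTwo.of_one_ne_zero_of_two_eq_zero one_ne_zero h2
        obtain ⟨α, hα⟩ := FiniteField.isSquare_of_char_two (ringChar.eq F 2)
          ((Q (Pi.single i1 1) - Q₀ (Pi.single i1 1)) / (Q (Pi.single i0 1) - Q₀ (Pi.single i0 1)))
        refine ⟨α • Pi.single i0 1 + Pi.single i1 1, ?_, ?_⟩
        · rw [hWmem, hadd, hsm, hsm₀, ← mul_sub, pow_two, ← hα, div_mul_cancel₀ _ h0, ← two_mul, h2,
            zero_mul]
        · intro h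
          have := congrFun h i1
          simp [hne] at this
    obtain ⟨v, hv, hv0⟩ := key
    rw [hW, Submodule.mem_bot] at hv
    exact hv0 hv
  · intro v
    have : v ∈ W := by rw [hW]; trivial
    exact sub_eq_zero.1 this

/-- [tens2] characteristic 2, `H` irreducible: both factors are alternating and `Q` vanishes on the pure
tensors. -/
theorem tens_char_two [Fintype F] (h2 : (2 : F) = 0) (hQ : IsNondegenerateQuadraticForm Q)
    (hH : H ≤ isometryGroup F Q) (hirr : ActsIrreducibly (matrixSet H)) {d s : ℕ} (hd : 2 ≤ d) (hs : 2 ≤ s)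
    (e : ι ≃ Fin d × Fin s) (P : GL ι F) (G₁ : Matrix (Fin d) (Fin d) F) (G₂ : Matrix (Fin s) (Fin s) F)
    (h₁ : IsUnit G₁.det) (h₂ : IsUnit G₂.det)
    (hG : ∀ x y : Fin d × Fin s → F, QuadraticMap.polar Q ((P : Matrix ι ι F) *ᵥ (x ∘ e))
      ((P : Matrix ι ι F) *ᵥ (y ∘ e)) = formOfGram id (G₁ ⊗ₖ G₂) x y)
    (hle : H ≤ tensorProductSubgroup d s e P) :
    G₁ᵀ = G₁ ∧ G₂ᵀ = G₂ ∧ (∀ i, G₁ i i = 0) ∧ (∀ i, G₂ i i = 0) ∧
    ∀ (x₁ : Fin d → F) (x₂ : Fin s → F),
      Q ((P : Matrix ι ι F) *ᵥ ((fun a : Fin d × Fin s => x₁ a.1 * x₂ a.2) ∘ e)) = 0 := by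
  haveI : Nonempty (Fin d) := ⟨⟨0, by omega⟩⟩
  haveI : Nonempty (Fin s) := ⟨⟨0, by omega⟩⟩
  have hf := symplectic_polar h2 hQ
  have hHf : FixesForm (matrixSet H) (QuadraticMap.polar Q) := by
    rintro _ ⟨g, hg, rfl⟩ u v
    exact polar_iso (hH hg) u v
  have T : TD (QuadraticMap.polar Q) H e P G₁ G₂ :=
    { act := fun h hh => (mem_tensorProductSubgroup_iff e P h).1 (hle hh)
      form := fun x y => by rw [← Helper63SpTenseven.formOfGram_eq]; exact hG x y
      ne₁ := by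
        rintro rfl
        rw [Matrix.det_zero] at h₁
        exact not_isUnit_zero h₁
      ne₂ := by
        rintro rfl
        rw [Matrix.det_zero] at h₂
        exact not_isUnit_zero h₂ }
  have hs₂ := T.sym₂ h2 hf
  have hs₁ := T.swap.sym₂ h2 hf
  have hd₂ := T.diag₂ h2 hHf hirr (by simpa using hs) hs₂
  have hd₁ := T.swap.diag₂ h2 hHf hirr (by simpa using hd) hs₁
  refine ⟨hs₁, hs₂, hd₁, hd₂, ?_⟩
  obtain ⟨Tm, hTmdef⟩ : ∃ Tm : Matrix (Fin d) (Fin d) F, Tm = fun a a' => if a < a' then G₁ a a' else 0 :=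
    ⟨_, rfl⟩
  have hTm : Tm + Tmᵀ = G₁ := by
    ext a a'
    rw [Matrix.add_apply, Matrix.transpose_apply, hTmdef]
    rcases lt_trichotomy a a' with h | h | h
    · simp [h, not_lt.2 h.le]
    · subst h; simp [hd₁]
    · simp only [h, not_lt.2 h.le, if_true, if_false, zero_add]
      conv_rhs => rw [← hs₁]
      rfl
  obtain ⟨Q₀, hQdef⟩ : ∃ Q₀ : (ι → F) → F, Q₀ = fun v => co e P v ⬝ᵥ (Tm ⊗ₖ G₂) *ᵥ co e P v := ⟨_, rfl⟩
  have hpolar : ∀ u v, QuadraticMap.polar Q₀ u v = QuadraticMap.polar Q u v := by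
    intro u v
    have : QuadraticMap.polar Q₀ u v =
        QuadraticMap.polar (fun x : Fin d × Fin s → F => x ⬝ᵥ (Tm ⊗ₖ G₂) *ᵥ x) (co e P u) (co e P v) := by
      simp only [QuadraticMap.polar, hQdef, map_add]
    rw [this, polar_qf, ← Matrix.kroneckerMap_transpose, hs₂, ← Matrix.add_kronecker, hTm, ← T.form, up_co, up_co]
  have hpf : QuadraticMap.polar Q₀ = QuadraticMap.polar Q := by
    funext u v; exact hpolar u v
  have hQ₀ : IsNondegenerateQuadraticForm Q₀ :=
    { smul := by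
        intro c v
        rw [hQdef]
        simp only [map_smul]
        exact qf_smul _ _ _
      polar_bilinear := by rw [hpf]; exact hf.bilinear
      nondegenerate := by rw [hpf]; exact hf.nondegenerate }
  have hpure₀ : ∀ y z, Q₀ (up e P (pt y z)) = 0 := by
    intro y z
    rw [hQdef]
    simp only [co_up]
    rw [form_pt]
    have : z ∈ qk G₂ hs₂ h2 := by rw [qk_eq_top hd₂]; trivial
    rw [mem_qk.1 this, mul_zero]
  have hfix₀ : ∀ h ∈ H, ∀ v, Q₀ ((h : Matrix ι ι F) *ᵥ v) = Q₀ v := by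
    intro h hh v
    refine Cfsg.Agent.Lib.Helper63SpQuadspan.quad_fixed_of_span hQ₀
      (S := {v | ∃ y z, v = up e P (pt y z)}) ?_ ?_ (h : Matrix ι ι F) ?_ ?_ v
    · have : {v | ∃ y z, v = up e P (pt y z)} = (up e P) '' {x : Fin d × Fin s → F | ∃ y z, x = pt y z} := by
        ext v
        constructor
        · rintro ⟨y, z, rfl⟩
          exact ⟨_, ⟨y, z, rfl⟩, rfl⟩
        · rintro ⟨_, ⟨y, z, rfl⟩, rfl⟩
          exact ⟨y, z, rfl⟩
      rw [this, ← Submodule.map_span, span_pt, Submodule.map_top, LinearMap.range_eq_top]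
      intro v
      exact ⟨_, up_co e P v⟩
    · rintro _ ⟨y, z, rfl⟩
      exact hpure₀ y z
    · intro u v
      rw [hpolar, hpolar]
      exact hHf h ⟨h, hh, rfl⟩ u v
    · rintro _ ⟨y, z, rfl⟩
      obtain ⟨A, B, hAB⟩ := T.act h hh
      exact ⟨_, _, by rw [hAB, tens_mulVec_up]⟩
  have hcard : 2 ≤ Fintype.card ι := by
    rw [Fintype.card_congr e, Fintype.card_prod, Fintype.card_fin, Fintype.card_fin]
    nlinarith
  have heq := quad_unique h2 hcard hQ.smul hQ₀.smul (fun u v => (hpolar u v).symm)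
    (fun h hh v => mem_iso.1 (hH hh) v) hfix₀ hirr
  intro x₁ x₂
  rw [heq]
  exact hpure₀ x₁ x₂

end Cfsg.Agent.Lib.Helper95OTens2
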