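import Cfsg.Agent.Lib.Helper95OTensDisc
import Cfsg.Agent.Lib.Helper70ODisc

set_option autoImplicit false
set_option linter.unusedSectionVars false

/-! PROJECT 5 = ASCH-O, piece `tensplusodd`. -/

namespace Cfsg.Agent.Lib.Helper95OTensplusodd

open Cfsg Cfsg.Geo Matrix
open scoped MatrixGroups Kronecker

variable {ι : Type} [Fintype ι] [DecidableEq ι] {F : Type*} [Field F]
variable {Q : (ι → F) → F}

/-- [tensplusodd] `q` odd: `polar Q = G₁ ⊗ G₂` with both dimensions even. -/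
theorem plus_of_tens_odd [Fintype F] (h2 : (2 : F) ≠ 0) (hQ : IsNondegenerateQuadraticForm Q) {d s : ℕ}
    (e : ι ≃ Fin d × Fin s) (P : GL ι F) (G₁ : Matrix (Fin d) (Fin d) F) (G₂ : Matrix (Fin s) (Fin s) F)
    (hG : ∀ x y : Fin d × Fin s → F, QuadraticMap.polar Q ((P : Matrix ι ι F) *ᵥ (x ∘ e))
      ((P : Matrix ι ι F) *ᵥ (y ∘ e)) = formOfGram id (G₁ ⊗ₖ G₂) x y)
    (hd : Even d) (hs : Even s) {l : ℕ} (hl : Fintype.card ι = 2 * l) (hsq : IsSquare ((-1 : F) ^ l)) :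
    IsPlusTypeOn Q ⊤ :=
  Cfsg.Agent.Lib.Helper70ODisc.plus_of_disc h2 hQ hl
    (Cfsg.Agent.Lib.Helper95OTensDisc.isSquare_disc_of_tens hQ e P G₁ G₂ hG hd hs hsq)

end Cfsg.Agent.Lib.Helper95OTensplusodd
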