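import Cfsg.Agent.Lib.Helper97OCliff

set_option autoImplicit false
set_option linter.unusedSectionVars false

namespace Cfsg.Agent.Lib.Helper97OCliff2

open Cfsg Cfsg.Geo Matrix Cfsg.Agent.Lib.Helper97GBase Cfsg.Agent.Lib.Helper97GForms
  Cfsg.Agent.Lib.Helper97OBase Cfsg.Agent.Lib.Helper97OProper Cfsg.Agent.Lib.Helper97GClifford
  Cfsg.Agent.Lib.Helper97GSchur Cfsg.Agent.Lib.Helper97OCliff
open scoped MatrixGroups

variable {ι : Type} [Fintype ι] [DecidableEq ι] {F : Type*} [Field F] {Q : (ι → F) → F}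

/-- the reducible case -/
lemma reducible_case (hQ : IsNondegenerateQuadraticForm Q) (h2 : (2 : F) ≠ 0)
    (hodd : Odd (Fintype.card ι)) {H : Subgroup (GL ι F)}
    (hH : H ≤ isometryGroup F Q) {W : Submodule F (ι → F)} (hW : Inv H W) (h0 : W ≠ ⊥) (h1 : W ≠ ⊤) :
    (∃ U : Submodule F (ι → F), U ≠ ⊥ ∧ IsTotallySingularQuad Q U ∧ Inv H U) ∨
    (∃ U : Submodule F (ι → F), U ≠ ⊥ ∧ U ≠ ⊤ ∧ Even (Module.finrank F U) ∧
      IsNondegenerateOn (QuadraticMap.polar Q) U ∧ Inv H U) := by
  have hWp := Inv_orth hQ hH hW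
  by_cases hU : W ⊓ orth hQ W = ⊥
  · right
    have hd := finrank_orth hQ W
    have hWpos : 0 < Module.finrank F W := Submodule.one_le_finrank_iff.mpr h0
    have hWlt : Module.finrank F W < Fintype.card ι := by
      have := Submodule.finrank_lt h1
      rwa [finrank_fun] at this
    rcases Nat.even_or_odd (Module.finrank F W) with he | ho
    · exact ⟨W, h0, h1, he, nondegOn_of_inf_eq_bot hQ hU, hW⟩
    · refine ⟨orth hQ W, ?_, ?_, ?_, nondegOn_of_inf_eq_bot hQ (by rw [orth_orth, inf_comm]; exact hU),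
        hWp⟩
      · intro hb
        rw [hb, finrank_bot] at hd
        omega
      · intro ht
        rw [ht, finrank_top, finrank_fun] at hd
        omega
      · rw [← hd] at hodd
        by_contra hne
        rw [Nat.not_even_iff_odd] at hne
        exact (Nat.not_even_iff_odd.mpr hodd) (hne.add_odd ho)
  · left
    refine ⟨W ⊓ orth hQ W, hU, ?_, Inv_inf hW hWp⟩
    rintro u ⟨hu, hu'⟩
    have h3 : QuadraticMap.polar Q u u = 0 := hu' u hu
    rw [polar_self hQ] at h3
    exact (mul_eq_zero.mp h3).resolve_left h2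

/-- a plus type plane over the field with three elements has an invariant non-singular line -/
lemma plus_plane_case [Fintype F] (hQ : IsNondegenerateQuadraticForm Q) (hq : Fintype.card F = 3)
    {H : Subgroup (GL ι F)} (hH : H ≤ isometryGroup F Q) {U : Submodule F (ι → F)} (hU : Inv H U)
    (hfr : Module.finrank F U = 2) (hnd : IsNondegenerateOn (QuadraticMap.polar Q) U)
    (hplus : IsPlusTypeOn Q U) : ∃ a, Q a ≠ 0 ∧ Inv H (Submodule.span F {a}) := by
  have hb := hQ.polar_bilinear
  obtain ⟨U₀, hU₀, hsing, hfr₀⟩ := hplus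
  have hU₀ne : U₀ ≠ ⊥ := by
    intro h
    rw [h, finrank_bot, hfr] at hfr₀
    omega
  obtain ⟨e, he, he0⟩ := Submodule.exists_mem_ne_zero_of_ne_bot hU₀ne
  have hQe : Q e = 0 := hsing e he
  obtain ⟨x, hx, hex⟩ := (hnd e (hU₀ he) he0).2
  -- `e`, `x` span `U`
  have hind : LinearIndependent F ![e, x] := by
    rw [LinearIndependent.pair_iff]
    intro s t hst
    have h1 := congrArg (fun w => QuadraticMap.polar Q e w) hst
    simp only [hb.add_right, hb.smul_right, polar_self hQ, hQe] at h1
    have h0 : QuadraticMap.polar Q e 0 = 0 := by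
      have := hb.smul_right 0 e 0
      simpa using this
    rw [h0] at h1
    have ht : t = 0 := by
      have : t * QuadraticMap.polar Q e x = 0 := by linear_combination h1
      exact (mul_eq_zero.mp this).resolve_right hex
    rw [ht, zero_smul, add_zero] at hst
    exact ⟨(smul_eq_zero.mp hst).resolve_right he0, ht⟩
  have hspan : Submodule.span F {e, x} = U := by
    apply Submodule.eq_of_le_of_finrank_eq
    · rw [Submodule.span_le]
      rintro w (rfl | rfl)
      · exact hU₀ he
      · exact hx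
    · have := finrank_span_eq_card hind
      rw [Matrix.range_cons, Matrix.range_cons, Matrix.range_empty, Set.union_empty] at this
      have e2 : ({e} ∪ {x} : Set (ι → F)) = {e, x} := rfl
      rw [e2] at this
      rw [this, hfr]
      simp
  obtain ⟨b, hbdef⟩ : ∃ b, b = QuadraticMap.polar Q e x := ⟨_, rfl⟩
  rw [← hbdef] at hex
  have hQsx : ∀ s t : F, Q (s • e + t • x) = t ^ 2 * Q x + s * t * b := by
    intro s t
    have := (qf hQ).add (s • e) (t • x)
    rw [this, bil_apply, hQ.smul, hQ.smul, hb.smul_left, hb.smul_right, hQe, ← hbdef]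
    ring
  obtain ⟨a, hadef⟩ : ∃ a, a = ((1 - Q x) / b) • e + (1 : F) • x := ⟨_, rfl⟩
  have hQa : Q a = 1 := by
    rw [hadef, hQsx]
    field_simp
    ring
  have haU : a ∈ U := by
    rw [hadef]
    exact U.add_mem (U.smul_mem _ (hU₀ he)) (U.smul_mem _ hx)
  have key : ∀ v ∈ U, Q v = 1 → ∃ t : F, v = t • a := by
    intro v hv hQv
    rw [← hspan, Submodule.mem_span_pair] at hv
    obtain ⟨s, t, rfl⟩ := hv
    rw [hQsx] at hQv
    have ht0 : t ≠ 0 := by
      rintro rfl
      simp at hQv
    have ht2 : t ^ 2 = 1 := by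
      have := FiniteField.pow_card_sub_one_eq_one t ht0
      rwa [hq] at this
    refine ⟨t, ?_⟩
    rw [hadef, smul_add, smul_smul, smul_smul, mul_one]
    congr 2
    rw [ht2] at hQv
    field_simp
    linear_combination t * hQv + (- s * b) * ht2
  refine ⟨a, by rw [hQa]; exact one_ne_zero, ?_⟩
  intro g hg w hw
  obtain ⟨k, rfl⟩ := Submodule.mem_span_singleton.mp hw
  obtain ⟨t, ht⟩ := key _ (hU g hg a haU) (by rw [mem_iso.mp (hH hg), hQa])
  rw [Matrix.mulVec_smul, ht]
  exact Submodule.smul_mem _ _ (Submodule.smul_mem _ _ (Submodule.mem_span_singleton_self a))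

/-- the orthogonal complement of a non-singular vector -/
lemma orth_span_singleton (hQ : IsNondegenerateQuadraticForm Q) (h2 : (2 : F) ≠ 0) {a : ι → F}
    (ha : Q a ≠ 0) : Module.finrank F (orth hQ (Submodule.span F {a})) + 1 = Fintype.card ι ∧
      IsNondegenerateOn (QuadraticMap.polar Q) (orth hQ (Submodule.span F {a})) := by
  have hb := hQ.polar_bilinear
  have ha0 : a ≠ 0 := by
    rintro rfl
    exact ha (qf hQ).zero
  constructor
  · have := finrank_orth hQ (Submodule.span F {a})
    rwa [finrank_span_singleton ha0] at this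
  · apply nondegOn_of_inf_eq_bot hQ
    rw [orth_orth, eq_bot_iff]
    rintro w ⟨hw1, hw2⟩
    obtain ⟨k, rfl⟩ := Submodule.mem_span_singleton.mp hw2
    have h3 : QuadraticMap.polar Q a (k • a) = 0 := hw1 a (Submodule.mem_span_singleton_self a)
    rw [hb.smul_right, polar_self hQ] at h3
    have hk : k = 0 := (mul_eq_zero.mp h3).resolve_right (mul_ne_zero h2 ha)
    rw [hk, zero_smul]
    exact Submodule.zero_mem _

/-- irreducible groups of isometries in odd prime dimension are absolutely irreducible -/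
lemma absIrred_of_irred [Finite F] (hQ : IsNondegenerateQuadraticForm Q) (h2 : (2 : F) ≠ 0)
    (hn : (Fintype.card ι).Prime) (hodd : Odd (Fintype.card ι)) {T : Subgroup (GL ι F)}
    (hT : T ≤ isometryGroup F Q) (hirr : ActsIrreducibly (matrixSet T)) :
    ActsAbsolutelyIrreducibly (matrixSet T) := by
  rcases absIrred_or_field hn hirr with h | hK
  · exact h
  exfalso
  have hb := hQ.polar_bilinear
  obtain ⟨i₀⟩ : Nonempty ι := Fintype.card_pos_iff.mp hn.pos
  set K := Subalgebra.centralizer F (matrixSet T) with hKdef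
  let v : ι → F := Pi.single i₀ 1
  have hv0 : v ≠ 0 := by
    intro h0
    have := congrFun h0 i₀
    simp [v] at this
  let φ : K →ₗ[F] (ι → F) :=
    { toFun := fun c => (c : Matrix ι ι F) *ᵥ v
      map_add' := fun a b => by simp [Matrix.add_mulVec]
      map_smul' := fun a b => by simp [Matrix.smul_mulVec] }
  have hφinj : Function.Injective φ := by
    rw [← LinearMap.ker_eq_bot, LinearMap.ker_eq_bot']
    intro c hc
    by_contra hc0
    have hc0' : (c : Matrix ι ι F) ≠ 0 := fun h => hc0 (Subtype.ext h)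
    obtain ⟨y, hy, hxy⟩ := hK.inv c c.2 hc0'
    have hyx : y * (c : Matrix ι ι F) = 1 := by rw [hK.comm y hy c c.2, hxy]
    apply hv0
    have h3 : y *ᵥ ((c : Matrix ι ι F) *ᵥ v) = 0 := by
      have : (c : Matrix ι ι F) *ᵥ v = 0 := hc
      rw [this, Matrix.mulVec_zero]
    rwa [Matrix.mulVec_mulVec, hyx, Matrix.one_mulVec] at h3
  have hφsurj : Function.Surjective φ := by
    apply (LinearMap.injective_iff_surjective_of_finrank_eq_finrank _).mp hφinj
    rw [hK.finrank_eq, finrank_fun]
  have hTK : ∀ t ∈ T, (t : Matrix ι ι F) ∈ K := by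
    intro t ht
    obtain ⟨k, hk⟩ := hφsurj ((t : Matrix ι ι F) *ᵥ v)
    have hk' : (k : Matrix ι ι F) *ᵥ v = (t : Matrix ι ι F) *ᵥ v := hk
    have : (t : Matrix ι ι F) = k := by
      apply matrix_eq_of_mulVec_eq
      intro w
      obtain ⟨k', hk'w⟩ := hφsurj w
      have hk'w' : (k' : Matrix ι ι F) *ᵥ v = w := hk'w
      have hcomm : (t : Matrix ι ι F) * k' = k' * (t : Matrix ι ι F) :=
        (Subalgebra.mem_centralizer_iff F).mp k'.2 _ ⟨t, ht, rfl⟩
      rw [← hk'w', Matrix.mulVec_mulVec, hcomm, ← Matrix.mulVec_mulVec, ← hk', Matrix.mulVec_mulVec,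
        Matrix.mulVec_mulVec, hK.comm _ k'.2 _ k.2]
    rw [this]
    exact k.2
  -- every element of `T` is an involution
  have hsq : ∀ t ∈ T, (t : Matrix ι ι F) = ((t⁻¹ : GL ι F) : Matrix ι ι F) := by
    intro t ht
    by_contra hne
    have hs0 : (t : Matrix ι ι F) - ((t⁻¹ : GL ι F) : Matrix ι ι F) ≠ 0 := sub_ne_zero.mpr hne
    have hsK : (t : Matrix ι ι F) - ((t⁻¹ : GL ι F) : Matrix ι ι F) ∈ K :=
      K.sub_mem (hTK t ht) (hTK _ (T.inv_mem ht))
    obtain ⟨y, hy, hsy⟩ := hK.inv _ hsK hs0
    have hys : y * ((t : Matrix ι ι F) - ((t⁻¹ : GL ι F) : Matrix ι ι F)) = 1 := by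
      rw [hK.comm y hy _ hsK, hsy]
    set s := (t : Matrix ι ι F) - ((t⁻¹ : GL ι F) : Matrix ι ι F) with hs
    have hmove : ∀ u w, QuadraticMap.polar Q (s *ᵥ u) w = - QuadraticMap.polar Q u (s *ᵥ w) := by
      intro u w
      have e1 : QuadraticMap.polar Q ((t : Matrix ι ι F) *ᵥ u) w =
          QuadraticMap.polar Q u (((t⁻¹ : GL ι F) : Matrix ι ι F) *ᵥ w) := by
        rw [← polar_iso (hT ht) u, Helper97GBase.mulVec_inv_mulVec]
      have e2 : QuadraticMap.polar Q (((t⁻¹ : GL ι F) : Matrix ι ι F) *ᵥ u) w =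
          QuadraticMap.polar Q u ((t : Matrix ι ι F) *ᵥ w) := by
        rw [← polar_iso (hT ht) _ w, Helper97GBase.mulVec_inv_mulVec]
      have hsubl : ∀ a b w, QuadraticMap.polar Q (a - b) w =
          QuadraticMap.polar Q a w - QuadraticMap.polar Q b w := by
        intro a b w
        have := hb.add_left (a - b) b w
        rw [sub_add_cancel] at this
        rw [this]; ring
      have hsubr : ∀ a b w, QuadraticMap.polar Q w (a - b) =
          QuadraticMap.polar Q w a - QuadraticMap.polar Q w b := by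
        intro a b w
        have := hb.add_right w (a - b) b
        rw [sub_add_cancel] at this
        rw [this]; ring
      rw [hs, Matrix.sub_mulVec, Matrix.sub_mulVec, hsubl, hsubr, e1, e2]
      ring
    have hskew : ∀ u w, QuadraticMap.polar Q (s *ᵥ u) w = - QuadraticMap.polar Q (s *ᵥ w) u := by
      intro u w
      rw [hmove, QuadraticMap.polar_comm Q u]
    apply no_symplectic hodd (fun u w => QuadraticMap.polar Q (s *ᵥ u) w)
    refine ⟨⟨?_, ?_, ?_, ?_⟩, hskew, ?_, ?_⟩
    · intro a b w
      simp only [Matrix.mulVec_add, hb.add_left]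
    · intro c a w
      simp only [Matrix.mulVec_smul, hb.smul_left]
    · intro w a b
      exact hb.add_right _ _ _
    · intro c w a
      exact hb.smul_right _ _ _
    · intro u
      have := hskew u u
      have h3 : 2 * QuadraticMap.polar Q (s *ᵥ u) u = 0 := by linear_combination this
      exact (mul_eq_zero.mp h3).resolve_left h2
    · intro u hu
      have hsu : s *ᵥ u ≠ 0 := by
        intro h0
        apply hu
        have := congrArg (fun w => y *ᵥ w) h0
        simpa [Matrix.mulVec_mulVec, hys] using this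
      constructor
      · obtain ⟨x, hx⟩ := (hQ.nondegenerate _ hsu).1
        refine ⟨x, ?_⟩
        simp only
        rw [hskew]
        rw [QuadraticMap.polar_comm] at hx
        exact neg_ne_zero.mpr hx
      · exact (hQ.nondegenerate _ hsu).2
  apply not_irred_of_le_scalars hn.two_le _ hirr
  intro t ht
  have h3 : ((t : Matrix ι ι F) - 1) * ((t : Matrix ι ι F) + 1) = 0 := by
    have h4 : (t : Matrix ι ι F) * (t : Matrix ι ι F) = 1 := by
      calc (t : Matrix ι ι F) * (t : Matrix ι ι F) = ((t⁻¹ : GL ι F) : Matrix ι ι F) * (t : Matrix ι ι F) := by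
            rw [← hsq t ht]
        _ = 1 := by rw [← Units.val_mul, inv_mul_cancel, Units.val_one]
    rw [sub_mul, mul_add, mul_one, one_mul, h4]
    abel
  rw [mem_scalars_iff]
  by_cases h5 : (t : Matrix ι ι F) - 1 = 0
  · exact ⟨1, by rw [sub_eq_zero.mp h5]; simp⟩
  · obtain ⟨y, hy, hsy⟩ := hK.inv _ (K.sub_mem (hTK t ht) K.one_mem) h5
    have hys : y * ((t : Matrix ι ι F) - 1) = 1 := by
      rw [hK.comm y hy _ (K.sub_mem (hTK t ht) K.one_mem), hsy]
    have h6 : (t : Matrix ι ι F) + 1 = 0 := by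
      have := congrArg (fun M => y * M) h3
      simpa [← mul_assoc, hys] using this
    refine ⟨-1, ?_⟩
    rw [eq_neg_of_add_eq_zero_left h6]
    simp

end Cfsg.Agent.Lib.Helper97OCliff2
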