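import Cfsg.Agent.Lib.Helper95Herm
import Cfsg.Agent.Lib.Helper97GForms
import Cfsg.Agent.Lib.Helper97GClifford

set_option autoImplicit false
set_option linter.unusedSectionVars false

namespace Cfsg.Agent.Lib.Helper97GQF

open Cfsg Cfsg.Geo Matrix Cfsg.Agent.Lib.Helper97GBase Cfsg.Agent.Lib.Helper97GForms
  Cfsg.Agent.Lib.Helper95Herm Cfsg.Agent.Lib.Helper97GClifford
open scoped MatrixGroups

variable {ι : Type} [Fintype ι] [DecidableEq ι] {F : Type*} [Field F]

/-- a basis inside a spanning set, as an invertible matrix -/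
lemma exists_GL_of_span {S : Set (ι → F)} (hS : Submodule.span F S = ⊤) :
    ∃ D : GL ι F, ∀ j, (D : Matrix ι ι F) *ᵥ Pi.single j 1 ∈ S := by
  classical
  let b := Module.Basis.ofSpan hS.ge
  have hfin := Module.Finite.finite_basis b
  have hcard := Module.finrank_eq_nat_card_basis b
  rw [Module.finrank_fintype_fun_eq_card] at hcard
  have hcard' : Nat.card ι = Nat.card _ := (Nat.card_eq_fintype_card (α := ι)).trans hcard
  let e := (Finite.card_eq.mp hcard').some
  let M : Matrix ι ι F := Matrix.of (fun i j => b (e j) i)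
  have hMcol : ∀ j : ι, M *ᵥ Pi.single j 1 = b (e j) := by
    intro j
    rw [Matrix.mulVec_single_one]
    rfl
  have hind : LinearIndependent F M.col := b.linearIndependent.comp e e.injective
  obtain ⟨D, hD⟩ := Matrix.linearIndependent_cols_iff_isUnit.mp hind
  refine ⟨D, fun j => ?_⟩
  rw [hD, hMcol]
  exact Module.Basis.ofSpan_subset hS.ge ⟨_, rfl⟩

variable {σ : F ≃+* F}

/-- Galois descent along a semilinear involution -/
lemma realisable_of_semilinear (hσ : ∃ z, σ z ≠ z) (J : (ι → F) → (ι → F))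
    (hadd : ∀ u v, J (u + v) = J u + J v) (hsmul : ∀ (c : F) v, J (c • v) = σ c • J v)
    (hJJ : ∀ v, J (J v) = v) {P : Subgroup (GL ι F)}
    (hcomm : ∀ x ∈ P, ∀ v, J ((x : Matrix ι ι F) *ᵥ v) = (x : Matrix ι ι F) *ᵥ J v)
    {F₁ : Subfield F} (hF₁ : ∀ a, σ a = a → a ∈ F₁) : RealisableOver F₁ (matrixSet P) := by
  obtain ⟨z, hz⟩ := hσ
  have hspan : Submodule.span F {v | J v = v} = ⊤ := by
    rw [eq_top_iff]
    intro v _
    have ha : v + J v ∈ Submodule.span F {v | J v = v} := by
      apply Submodule.subset_span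
      show J (v + J v) = v + J v
      rw [hadd, hJJ, add_comm]
    have hb : z • v + σ z • J v ∈ Submodule.span F {v | J v = v} := by
      apply Submodule.subset_span
      show J (z • v + σ z • J v) = z • v + σ z • J v
      have e : σ (σ z) • v = z • v := by
        have h1 := hJJ (z • v)
        rw [hsmul, hsmul, hJJ] at h1
        exact h1
      rw [hadd, hsmul, hsmul, hJJ, e, add_comm]
    have hc : (z - σ z) • v = (z • v + σ z • J v) - σ z • (v + J v) := by
      rw [sub_smul, smul_add]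
      abel
    have hd : (z - σ z) • v ∈ Submodule.span F {v | J v = v} := by
      rw [hc]
      exact Submodule.sub_mem _ hb (Submodule.smul_mem _ _ ha)
    have hne : z - σ z ≠ 0 := sub_ne_zero.mpr (Ne.symm hz)
    have := Submodule.smul_mem _ (z - σ z)⁻¹ hd
    rwa [smul_smul, inv_mul_cancel₀ hne, one_smul] at this
  obtain ⟨D, hD⟩ := exists_GL_of_span hspan
  let JA : (ι → F) →+ (ι → F) :=
    { toFun := J
      map_zero' := by
        have := hsmul 0 0
        simpa using this
      map_add' := hadd }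
  have hJD : ∀ a : ι → F, J ((D : Matrix ι ι F) *ᵥ a) =
      (D : Matrix ι ι F) *ᵥ (fun k => σ (a k)) := by
    intro a
    have e1 : ∀ c : ι → F, (D : Matrix ι ι F) *ᵥ c =
        ∑ k, c k • ((D : Matrix ι ι F) *ᵥ Pi.single k 1) := by
      intro c
      conv_lhs => rw [pi_eq_sum_univ' c]
      rw [Matrix.mulVec_sum]
      apply Finset.sum_congr rfl
      intro k _
      rw [Matrix.mulVec_smul]
    rw [e1 a, e1 (fun k => σ (a k))]
    show JA _ = _
    rw [map_sum]
    apply Finset.sum_congr rfl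
    intro k _
    show J _ = _
    rw [hsmul, hD k]
  have hfixed : ∀ w, J w = w → ∀ i, σ ((((D⁻¹ : GL ι F) : Matrix ι ι F) *ᵥ w) i) =
      (((D⁻¹ : GL ι F) : Matrix ι ι F) *ᵥ w) i := by
    intro w hw i
    have e1 := hJD (((D⁻¹ : GL ι F) : Matrix ι ι F) *ᵥ w)
    rw [mulVec_inv_mulVec, hw] at e1
    have e2 : ((D⁻¹ : GL ι F) : Matrix ι ι F) *ᵥ w =
        fun k => σ ((((D⁻¹ : GL ι F) : Matrix ι ι F) *ᵥ w) k) := by
      conv_lhs => rw [e1]
      rw [inv_mulVec_mulVec]
    exact (congrFun e2 i).symm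
  refine ⟨D⁻¹, ?_⟩
  rintro _ ⟨x, hx, rfl⟩ i j
  apply hF₁
  rw [inv_inv]
  have e : (((D⁻¹ : GL ι F) : Matrix ι ι F) * (x : Matrix ι ι F) *
      (D : Matrix ι ι F)) i j = (((D⁻¹ : GL ι F) : Matrix ι ι F) *ᵥ
        ((x : Matrix ι ι F) *ᵥ ((D : Matrix ι ι F) *ᵥ Pi.single j 1))) i := by
    rw [Matrix.mulVec_mulVec, Matrix.mulVec_mulVec, Matrix.mulVec_single_one, mul_assoc]
    rfl
  rw [e]
  apply hfixed
  rw [hcomm x hx, hD j]

variable {f : (ι → F) → (ι → F) → F}

lemma herm_of_unitary (hf : IsUnitaryForm σ f) : Herm (σ : F →+* F) f where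
  ne_id := by
    intro h
    apply hf.ne_refl
    ext a
    exact congrArg (fun τ : F →+* F => τ a) h
  invol := hf.involutive
  add_left := hf.add_left
  smul_left := hf.smul_left
  herm := hf.herm
  nondeg := fun v hv => (hf.nondegenerate v hv).1

/-- a group fixing a unitary and a bilinear form is realisable over the fixed field -/
lemma realisable_of_bilinear [Finite F] [Nonempty ι] (hf : IsUnitaryForm σ f)
    {P : Subgroup (GL ι F)} (hP : FixesForm (matrixSet P) f) (habs : ActsAbsolutelyIrreducibly (matrixSet P))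
    {β : (ι → F) → (ι → F) → F} (hβ : IsBilinearForm β) (hnd : IsNondegenerateForm β)
    (hfix : FixesForm (matrixSet P) β) {F₁ : Subfield F} (hF₁ : ∀ a, σ a = a → a ∈ F₁) :
    RealisableOver F₁ (matrixSet P) := by
  have hs := sesq_of_unitary hf
  have h := herm_of_unitary hf
  have hs' : Sesq σ (fun u v => σ (β v (fun i => σ (u i)))) :=
    { add_left := fun x y v => by
        have e : (fun i => σ ((x + y) i)) = (fun i => σ (x i)) + (fun i => σ (y i)) := by
          ext i; simp
        simp only [e, hβ.add_right, map_add]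
      smul_left := fun c x v => by
        have e : (fun i => σ ((c • x) i)) = σ c • (fun i => σ (x i)) := by
          ext i; simp
        simp only [e, hβ.smul_right, map_mul, hf.involutive]
      add_right := fun v x y => by simp only [hβ.add_left, map_add]
      smul_right := fun c v x => by simp only [hβ.smul_left, map_mul] }
  obtain ⟨A, hA⟩ := hs.exists_adjoint hs' (fun v hv => (hf.nondegenerate v hv).1)
  let J : (ι → F) → (ι → F) := fun w => A *ᵥ (fun i => σ (w i))
  have hJ : ∀ v w, f v (J w) = β v w := by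
    intro v w
    have e := hA (fun i => σ (w i)) v
    simp only [hf.involutive] at e
    rw [hf.herm v (J w)]
    show σ (f (A *ᵥ (fun i => σ (w i))) v) = _
    rw [← e, hf.involutive]
  have hJadd : ∀ u v, J (u + v) = J u + J v := by
    intro u v
    show A *ᵥ _ = A *ᵥ _ + A *ᵥ _
    rw [← Matrix.mulVec_add]
    congr 1
    ext i; simp
  have hJsmul : ∀ (c : F) v, J (c • v) = σ c • J v := by
    intro c v
    show A *ᵥ _ = σ c • A *ᵥ _
    rw [← Matrix.mulVec_smul]
    congr 1
    ext i; simp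
  have hsub : ∀ a b c, f a (b - c) = f a b - f a c := by
    intro a b c
    have e := hs.add_right a (b - c) c
    rw [sub_add_cancel] at e
    rw [e, add_sub_cancel_right]
  have hJcomm : ∀ x ∈ P, ∀ v, J ((x : Matrix ι ι F) *ᵥ v) =
      (x : Matrix ι ι F) *ᵥ J v := by
    intro x hx v
    by_contra hne
    obtain ⟨u, hu⟩ := (hf.nondegenerate _ (sub_ne_zero.mpr hne)).1
    apply hu
    rw [hsub, sub_eq_zero, hJ]
    have e1 : u = (x : Matrix ι ι F) *ᵥ (((x⁻¹ : GL ι F) : Matrix ι ι F) *ᵥ u) := by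
      simp
    have e2 : ∀ a b, f ((x : Matrix ι ι F) *ᵥ a) ((x : Matrix ι ι F) *ᵥ b) = f a b :=
      fun a b => hP _ ⟨x, hx, rfl⟩ a b
    rw [e1, hfix _ ⟨x, hx, rfl⟩, e2, hJ]
  have hJJ : ∀ w, J (J w) = (A * A.map σ) *ᵥ w := by
    intro w
    show A *ᵥ (fun i => σ ((A *ᵥ (fun i => σ (w i))) i)) = _
    rw [← Matrix.mulVec_mulVec]
    congr 1
    ext i
    simp only [Matrix.mulVec, dotProduct, map_sum, map_mul, hf.involutive, Matrix.map_apply]
  obtain ⟨ν, hν⟩ := habs.2 (A * A.map σ) (by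
    rintro _ ⟨x, hx, rfl⟩
    show (A * A.map σ) * (x : Matrix ι ι F) = (x : Matrix ι ι F) * (A * A.map σ)
    apply matrix_eq_of_mulVec_eq
    intro v
    rw [← Matrix.mulVec_mulVec _ (A * A.map σ), ← Matrix.mulVec_mulVec _ (x : Matrix ι ι F),
      ← hJJ, ← hJJ, hJcomm x hx, hJcomm x hx])
  have hJJ' : ∀ w, J (J w) = ν • w := by
    intro w
    rw [hJJ, hν, Matrix.smul_mulVec, Matrix.one_mulVec]
  have hJinj : ∀ w, w ≠ 0 → J w ≠ 0 := by
    intro w hw h0
    obtain ⟨x, hx⟩ := (hnd w hw).1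
    apply hx
    rw [← hJ, h0, h.zero_right]
  obtain ⟨i₀⟩ := (inferInstance : Nonempty ι)
  let w₀ : ι → F := Pi.single i₀ 1
  have hw₀ : w₀ ≠ 0 := by
    intro h0
    have := congrFun h0 i₀
    simp [w₀] at this
  have hν0 : ν ≠ 0 := by
    rintro rfl
    have := hJJ' w₀
    rw [zero_smul] at this
    exact hJinj _ (hJinj _ hw₀) this
  have hσν : σ ν = ν := by
    have e1 := hJJ' (J w₀)
    have e2 := congrArg J (hJJ' w₀)
    rw [hJsmul] at e2
    rw [e2] at e1
    have e3 : (σ ν - ν) • J w₀ = 0 := by rw [sub_smul, e1, sub_self]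
    rcases smul_eq_zero.mp e3 with h5 | h5
    · exact sub_eq_zero.mp h5
    · exact absurd h5 (hJinj _ hw₀)
  obtain ⟨μ, hμ⟩ := h.norm_surj ν⁻¹ (by
    show σ ν⁻¹ = ν⁻¹
    rw [map_inv₀, hσν])
  have hμ' : μ * σ μ = ν⁻¹ := hμ
  obtain ⟨z, hz⟩ : ∃ z, σ z ≠ z := by
    by_contra hcon
    push Not at hcon
    apply hf.ne_refl
    ext a
    exact hcon a
  apply realisable_of_semilinear ⟨z, hz⟩ (fun w => μ • J w) _ _ _ _ hF₁
  · intro u v
    simp only [hJadd, smul_add]
  · intro c v
    simp only [hJsmul, smul_smul, mul_comm]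
  · intro v
    simp only [hJsmul, hJJ', smul_smul]
    rw [← mul_assoc, hμ', inv_mul_cancel₀ hν0, one_smul]
  · intro x hx v
    simp only [hJcomm x hx, Matrix.mulVec_smul]

end Cfsg.Agent.Lib.Helper97GQF
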