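import Cfsg.Agent.Lib.Helper97OProper2

set_option autoImplicit false
set_option linter.unusedSectionVars false

namespace Cfsg.Agent.Lib.Helper97OMono

open Cfsg Cfsg.Geo Matrix Cfsg.Agent.Lib.Helper97GBase Cfsg.Agent.Lib.Helper97GForms
  Cfsg.Agent.Lib.Helper95Quad Cfsg.Agent.Lib.Helper95Form Cfsg.Agent.Lib.Helper95Basic
  Cfsg.Agent.Lib.Helper97OBase Cfsg.Agent.Lib.Helper97OProper Cfsg.Agent.Lib.Helper97OProper2
open scoped MatrixGroups

variable {ι : Type} [Fintype ι] [DecidableEq ι] {F : Type*} [Field F] {Q : (ι → F) → F}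

/-- a group of isometries permuting an orthogonal frame of isometric lines consists of signed
permutation matrices in a suitable basis, hence is realisable over every subfield -/
lemma realisable_of_monomial (hQ : IsNondegenerateQuadraticForm Q) {n : ℕ} (hn : 0 < n)
    (hcard : Fintype.card ι = n) {D : Fin n → Submodule F (ι → F)}
    (hD : IsOrthogonalMDecomposition Q 1 D) {H : Subgroup (GL ι F)} (hH : H ≤ isometryGroup F Q)
    (hle : H ≤ decompositionStabilizer D) (F₀ : Subfield F) : RealisableOver F₀ (matrixSet H) := by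
  classical
  obtain ⟨d, c, hc, hdD, hdQ, _⟩ := exists_generators hQ hn hD
  have hQ0 : Q 0 = 0 := by
    have := hQ.smul 0 0
    simpa using this
  have hd0 : ∀ i, d i ≠ 0 := by
    intro i h0
    apply hc
    rw [← hdQ i, h0, hQ0]
  have hspan : ∀ i, ∀ x ∈ D i, ∃ a : F, x = a • d i := by
    intro i x hx
    have h1 := (finrank_eq_one_iff_of_nonzero' (⟨d i, hdD i⟩ : D i)
      (by intro h; exact hd0 i (congrArg Subtype.val h))).mp (hD.decomp.decomp.finrank_eq i) ⟨x, hx⟩
    obtain ⟨a, ha⟩ := h1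
    exact ⟨a, (congrArg Subtype.val ha).symm⟩
  let e : ι ≃ Fin n := Fintype.equivFinOfCardEq hcard
  let M : Matrix ι ι F := Matrix.of (fun i j => d (e j) i)
  have hMcol : ∀ j : ι, M *ᵥ Pi.single j 1 = d (e j) := by
    intro j
    rw [Matrix.mulVec_single_one]
    rfl
  have hind0 : LinearIndependent F d := hD.decomp.decomp.indep.linearIndependent D hdD hd0
  have hind : LinearIndependent F M.col := hind0.comp e e.injective
  obtain ⟨C, hC⟩ := Matrix.linearIndependent_cols_iff_isUnit.mp hind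
  refine ⟨C⁻¹, ?_⟩
  rintro s ⟨h, hh, rfl⟩ i j
  obtain ⟨π, hπ⟩ := hle hh
  have hx : (h : Matrix ι ι F) *ᵥ d (e j) ∈ D (π (e j)) := by
    rw [← hπ (e j)]
    exact ⟨d (e j), hdD _, by simp [Matrix.toLin'_apply]⟩
  obtain ⟨a, ha⟩ := hspan _ _ hx
  have hiso : Q ((h : Matrix ι ι F) *ᵥ d (e j)) = Q (d (e j)) := (mem_iso.mp (hH hh)) _
  have ha2 : a ^ 2 = 1 := by
    rw [ha, hQ.smul, hdQ, hdQ] at hiso
    exact mul_right_cancel₀ hc (hiso.trans (one_mul c).symm)
  have haF : a ∈ F₀ := by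
    rcases sq_eq_one_iff.mp ha2 with h | h
    · rw [h]; exact F₀.one_mem
    · rw [h]; exact F₀.neg_mem F₀.one_mem
  have hcol : (((C⁻¹ : GL ι F) : Matrix ι ι F) * (h : Matrix ι ι F) *
      (((C⁻¹ : GL ι F)⁻¹ : GL ι F) : Matrix ι ι F)) *ᵥ Pi.single j 1 =
      a • Pi.single (e.symm (π (e j))) 1 := by
    rw [inv_inv, ← Matrix.mulVec_mulVec, ← Matrix.mulVec_mulVec, hC, hMcol, ha, Matrix.mulVec_smul]
    congr 1
    have h1 := hMcol (e.symm (π (e j)))
    rw [Equiv.apply_symm_apply] at h1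
    rw [← h1, ← hC, Matrix.mulVec_mulVec, ← Units.val_mul, inv_mul_cancel, Units.val_one,
      Matrix.one_mulVec]
  have hentry := congrFun hcol i
  rw [Matrix.mulVec_single_one] at hentry
  change _ = _ at hentry
  have h3 : (((C⁻¹ : GL ι F) : Matrix ι ι F) * (h : Matrix ι ι F) *
      (((C⁻¹ : GL ι F)⁻¹ : GL ι F) : Matrix ι ι F)) i j = (a • Pi.single (e.symm (π (e j))) 1 : ι → F) i :=
    hentry
  rw [h3, Pi.smul_apply, Pi.single_apply]
  split_ifs
  · simpa using haF
  · simp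

end Cfsg.Agent.Lib.Helper97OMono
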