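import Cfsg.Agent.Lib.Helper97OCliff2
import Cfsg.Agent.Lib.Helper97GSubfield
import Cfsg.Agent.Lib.Helper97GCore
import Cfsg.Agent.Lib.Helper97USub

set_option autoImplicit false
set_option linter.unusedSectionVars false

namespace Cfsg.Agent.Lib.Helper97OSub

open Cfsg Cfsg.Geo Matrix Cfsg.Agent.Lib.Helper97GBase Cfsg.Agent.Lib.Helper97GForms
  Cfsg.Agent.Lib.Helper97OBase Cfsg.Agent.Lib.Helper97OProper Cfsg.Agent.Lib.Helper97GClifford
  Cfsg.Agent.Lib.Helper97GSubfield Cfsg.Agent.Lib.Helper97GCore Cfsg.Agent.Lib.Helper97OCliff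
open scoped MatrixGroups

variable {ι : Type} [Fintype ι] [DecidableEq ι] {F : Type*} [Field F]

/-- the semilinear map attached to a rational structure -/
def semi (τ : F ≃+* F) (B : GL ι F) (v : ι → F) : ι → F :=
  ((B⁻¹ : GL ι F) : Matrix ι ι F) *ᵥ
    (fun i => τ (((B : Matrix ι ι F) *ᵥ v) i))

lemma semi_add (τ : F ≃+* F) (B : GL ι F) (u v : ι → F) :
    semi τ B (u + v) = semi τ B u + semi τ B v := by
  unfold semi
  rw [← Matrix.mulVec_add]
  congr 1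
  ext i
  simp [Matrix.mulVec_add]

lemma semi_smul (τ : F ≃+* F) (B : GL ι F) (c : F) (v : ι → F) :
    semi τ B (c • v) = τ c • semi τ B v := by
  unfold semi
  rw [← Matrix.mulVec_smul]
  congr 1
  ext i
  simp [Matrix.mulVec_smul]

lemma map_mulVec_of_fixed (τ : F ≃+* F) {M : Matrix ι ι F} (hM : ∀ i j, τ (M i j) = M i j)
    (w : ι → F) : (fun i => τ ((M *ᵥ w) i)) = M *ᵥ (fun i => τ (w i)) := by
  ext i
  simp only [Matrix.mulVec, dotProduct, map_sum, map_mul, hM]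

lemma semi_comm (τ : F ≃+* F) (B x : GL ι F)
    (hx : ∀ i j, τ (((B * x * B⁻¹ : GL ι F) : Matrix ι ι F) i j) =
      ((B * x * B⁻¹ : GL ι F) : Matrix ι ι F) i j) (v : ι → F) :
    semi τ B ((x : Matrix ι ι F) *ᵥ v) = (x : Matrix ι ι F) *ᵥ semi τ B v := by
  unfold semi
  have e1 : (B : Matrix ι ι F) *ᵥ ((x : Matrix ι ι F) *ᵥ v) =
      ((B * x * B⁻¹ : GL ι F) : Matrix ι ι F) *ᵥ ((B : Matrix ι ι F) *ᵥ v) := by
    rw [Matrix.mulVec_mulVec, Matrix.mulVec_mulVec, ← Units.val_mul, ← Units.val_mul]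
    congr 2
    group
  rw [e1, map_mulVec_of_fixed τ hx, Matrix.mulVec_mulVec, Matrix.mulVec_mulVec, ← Units.val_mul,
    ← Units.val_mul]
  congr 2
  group

lemma semi_fixed (τ : F ≃+* F) (B : GL ι F) {u : ι → F} (hu : ∀ i, τ (u i) = u i) :
    semi τ B (((B⁻¹ : GL ι F) : Matrix ι ι F) *ᵥ u) =
      ((B⁻¹ : GL ι F) : Matrix ι ι F) *ᵥ u := by
  unfold semi
  rw [mulVec_inv_mulVec]
  congr 1
  ext i
  exact hu i

/-- a scalar matrix -/
lemma exists_scalar {l : F} (hl : l ≠ 0) : ∃ z : GL ι F, z ∈ scalars ι F ∧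
    (z : Matrix ι ι F) = l • (1 : Matrix ι ι F) := by
  refine ⟨Units.map (Matrix.scalar ι : F →+* Matrix ι ι F).toMonoidHom (Units.mk0 l hl),
    ⟨_, rfl⟩, ?_⟩
  simp [Matrix.smul_one_eq_diagonal]


variable {Q : (ι → F) → F}

/-- the polar form is semi-invariant under the semilinear map -/
lemma semi_polar (hQ : IsNondegenerateQuadraticForm Q) (τ : F ≃+* F)
    {P : Subgroup (GL ι F)} (hP : P ≤ isometryGroup F Q)
    (habs : ActsAbsolutelyIrreducibly (matrixSet P)) (B : GL ι F)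
    (hB : ∀ x ∈ P, ∀ i j, τ (((B * x * B⁻¹ : GL ι F) : Matrix ι ι F) i j) =
      ((B * x * B⁻¹ : GL ι F) : Matrix ι ι F) i j) :
    ∃ c : F, ∀ u v, QuadraticMap.polar Q (semi τ B u) (semi τ B v) = c * τ (QuadraticMap.polar Q u v) := by
  have hb := hQ.polar_bilinear
  have hs := sesq_of_bilinear hb
  have hs₂ : Sesq (RingEquiv.refl F)
      (fun u v => τ.symm (QuadraticMap.polar Q (semi τ B u) (semi τ B v))) :=
    { add_left := fun x y v => by simp only [semi_add, hb.add_left, map_add]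
      smul_left := fun c x v => by
        simp only [semi_smul, hb.smul_left, map_mul, RingEquiv.symm_apply_apply]
      add_right := fun v x y => by simp only [semi_add, hb.add_right, map_add]
      smul_right := fun c v x => by
        simp only [semi_smul, hb.smul_right, map_mul, RingEquiv.symm_apply_apply, RingEquiv.refl_apply] }
  have hfix₂ : FixesForm (matrixSet P)
      (fun u v => τ.symm (QuadraticMap.polar Q (semi τ B u) (semi τ B v))) := by
    rintro _ ⟨x, hx, rfl⟩ u v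
    simp only
    rw [semi_comm τ B x (hB x hx), semi_comm τ B x (hB x hx), polar_iso (hP hx)]
  obtain ⟨c, hc⟩ := schur_form habs hs hs₂ hQ.nondegenerate (fixes_polar hP) hfix₂
  refine ⟨τ c, fun u v => ?_⟩
  have := congrArg τ (hc u v)
  simpa using this

lemma gram_comp {f : (ι → F) → (ι → F) → F} (hf : IsBilinearForm f) (M : Matrix ι ι F) :
    Helper97GForms.gram (fun u v => f (M *ᵥ u) (M *ᵥ v)) = Mᵀ * Helper97GForms.gram f * M := by
  ext i j
  have e1 : (Mᵀ * Helper97GForms.gram f * M) i j =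
      (Pi.single i 1 : ι → F) ⬝ᵥ ((Mᵀ * Helper97GForms.gram f * M) *ᵥ Pi.single j 1) := by
    simp
  rw [e1, ← Matrix.mulVec_mulVec, ← Matrix.mulVec_mulVec, Matrix.dotProduct_mulVec,
    Matrix.vecMul_transpose]
  simp only [Helper97GForms.gram, Matrix.of_apply]
  rw [(sesq_of_bilinear hf).eq_gram]
  rfl

/-- rescaling makes the structure rational -/
lemma rational_of_aut (hQ : IsNondegenerateQuadraticForm Q) (h2 : (2 : F) ≠ 0)
    (hodd : Odd (Fintype.card ι)) (τ : F ≃+* F)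
    (hstd : ∀ i j, τ (QuadraticMap.polar Q (Pi.single i 1) (Pi.single j 1)) =
      QuadraticMap.polar Q (Pi.single i 1) (Pi.single j 1))
    {P : Subgroup (GL ι F)} (hP : P ≤ isometryGroup F Q)
    (habs : ActsAbsolutelyIrreducibly (matrixSet P)) (B : GL ι F)
    (hB : ∀ x ∈ P, ∀ i j, τ (((B * x * B⁻¹ : GL ι F) : Matrix ι ι F) i j) =
      ((B * x * B⁻¹ : GL ι F) : Matrix ι ι F) i j) :
    ∃ l : F, l ≠ 0 ∧ ∀ u : ι → F, (∀ i, τ (u i) = u i) →
      τ (Q (((B⁻¹ : GL ι F) : Matrix ι ι F) *ᵥ (l • u))) = Q (((B⁻¹ : GL ι F) : Matrix ι ι F) *ᵥ (l • u)) := by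
  have hb := hQ.polar_bilinear
  obtain ⟨c, hc⟩ := semi_polar hQ τ hP habs B hB
  obtain ⟨M, hM⟩ : ∃ M, M = ((B⁻¹ : GL ι F) : Matrix ι ι F) := ⟨_, rfl⟩
  rw [← hM]
  have hfixed : ∀ u v : ι → F, (∀ i, τ (u i) = u i) → (∀ i, τ (v i) = v i) →
      QuadraticMap.polar Q (M *ᵥ u) (M *ᵥ v) = c * τ (QuadraticMap.polar Q (M *ᵥ u) (M *ᵥ v)) := by
    intro u v hu hv
    have := hc (M *ᵥ u) (M *ᵥ v)
    rw [hM, semi_fixed τ B hu, semi_fixed τ B hv] at this
    rw [hM]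
    exact this
  have hsingle : ∀ (j i : ι), τ ((Pi.single j 1 : ι → F) i) = (Pi.single j 1 : ι → F) i := by
    intro j i
    by_cases hij : i = j
    · subst hij; simp
    · simp [hij]
  set G := Helper97GForms.gram (QuadraticMap.polar Q) with hG
  set G₁ := Helper97GForms.gram (fun u v => QuadraticMap.polar Q (M *ᵥ u) (M *ᵥ v)) with hG₁
  have hG₁eq : G₁ = Mᵀ * G * M := gram_comp hb M
  have hDne : G.det ≠ 0 :=
    ((sesq_of_bilinear hb).isUnit_det_gram (fun v hv => (hQ.nondegenerate v hv).1)).ne_zero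
  have hδne : M.det ≠ 0 := by
    rw [hM]
    exact ((Matrix.isUnit_iff_isUnit_det _).mp (B⁻¹).isUnit).ne_zero
  have hentry : ∀ i j, G₁ i j = c * τ (G₁ i j) := fun i j => hfixed _ _ (hsingle i) (hsingle j)
  have hdetG₁ : G₁.det = M.det ^ 2 * G.det := by
    rw [hG₁eq, Matrix.det_mul, Matrix.det_mul, Matrix.det_transpose]
    ring
  have hG₁ne : G₁.det ≠ 0 := by rw [hdetG₁]; exact mul_ne_zero (pow_ne_zero _ hδne) hDne
  have hc0 : c ≠ 0 := by
    rintro rfl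
    apply hG₁ne
    have : G₁ = 0 := by
      ext i j
      rw [hentry i j, zero_mul]
      rfl
    have : Nonempty ι := Fintype.card_pos_iff.mp hodd.pos
    rw [‹G₁ = 0›, Matrix.det_zero]
  have hτG : τ G.det = G.det := by
    have e := (τ : F →+* F).map_det G
    have e2 : (τ : F →+* F).mapMatrix G = G := by
      ext i j
      exact hstd i j
    rw [e2] at e
    exact e
  have hτG₁ : τ G₁.det = (c⁻¹) ^ (Fintype.card ι) * G₁.det := by
    have e := (τ : F →+* F).map_det G₁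
    have e2 : (τ : F →+* F).mapMatrix G₁ = c⁻¹ • G₁ := by
      ext i j
      show τ (G₁ i j) = c⁻¹ * G₁ i j
      conv_rhs => rw [hentry i j]
      field_simp
    rw [e2, Matrix.det_smul] at e
    exact e
  have hrel : τ M.det ^ 2 = (c⁻¹) ^ (Fintype.card ι) * M.det ^ 2 := by
    rw [hdetG₁, map_mul, map_pow, hτG] at hτG₁
    apply mul_right_cancel₀ hDne
    rw [hτG₁]
    ring
  -- a non-zero entry
  obtain ⟨i, j, hij⟩ : ∃ i j, G₁ i j ≠ 0 := by
    by_contra hcon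
    push Not at hcon
    apply hG₁ne
    have : G₁ = 0 := by
      ext i j
      exact hcon i j
    have : Nonempty ι := Fintype.card_pos_iff.mp hodd.pos
    rw [‹G₁ = 0›, Matrix.det_zero]
  obtain ⟨g₀, hg₀⟩ : ∃ g₀, g₀ = G₁ i j := ⟨_, rfl⟩
  rw [← hg₀] at hij
  have hg₀c : τ g₀ = c⁻¹ * g₀ := by
    have := hentry i j
    rw [← hg₀] at this
    conv_rhs => rw [this]
    field_simp
  obtain ⟨k, hk⟩ := hodd
  have hτδne : τ M.det ≠ 0 := by
    intro h0
    exact hδne ((map_eq_zero τ).mp h0)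
  have hl : τ ((g₀ ^ k / M.det) ^ 2) = c * (g₀ ^ k / M.det) ^ 2 := by
    rw [div_pow, map_div₀, map_pow, map_pow, map_pow, hrel, hg₀c, hk, mul_pow, mul_pow, inv_pow, inv_pow,
      inv_pow, ← pow_mul, pow_succ c (2 * k), mul_comm k 2]
    field_simp
  refine ⟨g₀ ^ k / M.det, div_ne_zero (pow_ne_zero _ hij) hδne, fun u hu => ?_⟩
  have hx := hfixed u u hu hu
  rw [polar_self hQ, map_mul] at hx
  have hτ2 : τ 2 = 2 := map_ofNat τ 2
  rw [hτ2] at hx
  have hx' : Q (M *ᵥ u) = c * τ (Q (M *ᵥ u)) := by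
    apply mul_left_cancel₀ h2
    rw [hx]
    ring
  rw [Matrix.mulVec_smul, hQ.smul, map_mul, hl]
  conv_rhs => rw [hx']
  ring

lemma structure_of_aut [Nonempty ι] (hQ : IsNondegenerateQuadraticForm Q) (h2 : (2 : F) ≠ 0)
    (hodd : Odd (Fintype.card ι)) (τ : F ≃+* F)
    (hstd : ∀ i j, τ (QuadraticMap.polar Q (Pi.single i 1) (Pi.single j 1)) =
      QuadraticMap.polar Q (Pi.single i 1) (Pi.single j 1)) {F₀ F₁ : Subfield F}
    (hτ0 : ∀ a ∈ F₀, τ a = a) (hτ1 : ∀ a, τ a = a ↔ a ∈ F₁)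
    {H P : Subgroup (GL ι F)} (hnorm : Nz H P) (hP : P ≤ isometryGroup F Q)
    (habs : ActsAbsolutelyIrreducibly (matrixSet P)) (B : GL ι F)
    (hB : ∀ s ∈ matrixSet P, ∀ i j,
      ((B : Matrix ι ι F) * s * ((B⁻¹ : GL ι F) : Matrix ι ι F)) i j ∈ F₀) :
    ∃ C : GL ι F, IsQuadFormRationalStructure Q F₁ C ∧ H ≤ subfieldSubgroup F₁ C := by
  have hB' : ∀ x ∈ P, ∀ i j, ((B * x * B⁻¹ : GL ι F) : Matrix ι ι F) i j ∈ F₀ := by
    intro x hx i j
    have := hB _ ⟨x, hx, rfl⟩ i j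
    simpa [Units.val_mul] using this
  obtain ⟨l, hl0, hl⟩ := rational_of_aut hQ h2 hodd τ hstd hP habs B
    (fun x hx i j => hτ0 _ (hB' x hx i j))
  obtain ⟨z, hz, hzl⟩ := exists_scalar (ι := ι) hl0
  have hzc := Subgroup.mem_center_iff.mp (scalars_le_center hz)
  have hC : ∀ u : ι → F, ((B⁻¹ * z : GL ι F) : Matrix ι ι F) *ᵥ u =
      ((B⁻¹ : GL ι F) : Matrix ι ι F) *ᵥ (l • u) := by
    intro u
    rw [Units.val_mul, ← Matrix.mulVec_mulVec, hzl, Matrix.smul_mulVec, Matrix.one_mulVec]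
  refine ⟨B⁻¹ * z, ?_, ?_⟩
  · intro u hu
    rw [hC, ← hτ1]
    exact hl u (fun i => (hτ1 _).mpr (hu i))
  · have := key (τ : F →+* F) hτ0 (fun a ha => (hτ1 a).mp ha) hnorm habs (B⁻¹ * z)⁻¹ (by
      rintro _ ⟨x, hx, rfl⟩ i j
      have e : (B⁻¹ * z)⁻¹ * x * (B⁻¹ * z)⁻¹⁻¹ = B * x * B⁻¹ := by
        rw [inv_inv, _root_.mul_inv_rev, inv_inv]
        calc z⁻¹ * B * x * (B⁻¹ * z) = z⁻¹ * ((B * x * B⁻¹) * z) := by group
          _ = z⁻¹ * (z * (B * x * B⁻¹)) := by rw [hzc]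
          _ = B * x * B⁻¹ := by group
      rw [← Units.val_mul, ← Units.val_mul, e]
      exact hB' x hx i j)
    rwa [inv_inv] at this

lemma subfield_case [Fintype F] [Nonempty ι] (hQ : IsNondegenerateQuadraticForm Q) (h2 : (2 : F) ≠ 0)
    (hodd : Odd (Fintype.card ι))
    (hstd : ∀ (τ : F ≃+* F) i j, τ (QuadraticMap.polar Q (Pi.single i 1) (Pi.single j 1)) =
      QuadraticMap.polar Q (Pi.single i 1) (Pi.single j 1))
    {H P : Subgroup (GL ι F)} (hnorm : Nz H P) (hP : P ≤ isometryGroup F Q)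
    (habs : ActsAbsolutelyIrreducibly (matrixSet P)) {F₀ : Subfield F} (hF₀ : F₀ ≠ ⊤)
    (hreal : RealisableOver F₀ (matrixSet P)) :
    ∃ (F₁ : Subfield F) (r : ℕ) (C : GL ι F), r.Prime ∧ Fintype.card F = Nat.card F₁ ^ r ∧
      IsQuadFormRationalStructure Q F₁ C ∧ H ≤ subfieldSubgroup F₁ C := by
  obtain ⟨B, hB⟩ := hreal
  obtain ⟨τ, F₁, r, hr, hcard, hτ0, hτ1⟩ := Cfsg.Agent.Lib.Helper97USub.exists_aut' hF₀
  obtain ⟨C, hC, hle⟩ := structure_of_aut hQ h2 hodd τ (hstd τ) hτ0 hτ1 hnorm hP habs B hB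
  exact ⟨F₁, r, C, hr, hcard, hC, hle⟩


end Cfsg.Agent.Lib.Helper97OSub
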