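import Cfsg.Agent.Lib.Helper97OProper3
import Cfsg.Agent.Lib.Helper97OSub
import Cfsg.Agent.Lib.Helper97OMono
import Cfsg.Agent.Lib.Helper97GQF
import Cfsg.Agent.Lib.Helper97AschC6

set_option autoImplicit false
set_option linter.unusedSectionVars false

namespace Cfsg.Agent.Lib.Helper97OMain

open Cfsg Cfsg.Geo Matrix Cfsg.Agent.Lib.Helper97GBase Cfsg.Agent.Lib.Helper97GForms
  Cfsg.Agent.Lib.Helper97OBase Cfsg.Agent.Lib.Helper97OProper Cfsg.Agent.Lib.Helper97GClifford
  Cfsg.Agent.Lib.Helper97GSubfield Cfsg.Agent.Lib.Helper97GCore Cfsg.Agent.Lib.Helper97OCliff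
  Cfsg.Agent.Lib.Helper97OCliff2 Cfsg.Agent.Lib.Helper97OProper2 Cfsg.Agent.Lib.Helper97OProper3
  Cfsg.Agent.Lib.Helper97OSub Cfsg.Agent.Lib.Helper97OMono Cfsg.Agent.Lib.Helper97GQF
open scoped MatrixGroups commutatorElement

variable {ι : Type} [Fintype ι] [DecidableEq ι] {F : Type*} [Field F] {Q : (ι → F) → F}

lemma eq_inf_of_le'' {G H X : Subgroup (GL ι F)} (hH : IsMaximalIn G H) (hle : H ≤ X)
    (hX : ¬ G ≤ X) : H = X ⊓ G := by
  rcases hH.2 (X ⊓ G) (le_inf hle hH.1.le) inf_le_right with h | h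
  · exact h.symm
  · exact absurd (inf_eq_right.mp h) hX

lemma exists_proper_subfield [Fintype F] (h : ¬ (Fintype.card F).Prime) :
    ∃ F₀ : Subfield F, F₀ ≠ ⊤ := by
  obtain ⟨p, hchar, e, hp, hcard⟩ := FiniteField.card' F
  have : Fact p.Prime := ⟨hp⟩
  have he1 : (e : ℕ) ≠ 1 := by
    intro h1
    rw [h1, pow_one] at hcard
    exact h (hcard ▸ hp)
  have he0 := e.pos
  obtain ⟨a, ha⟩ := Cfsg.Agent.Lib.Helper97AschC6.exists_not_fixed hp hcard Nat.one_pos
    (by omega : 1 < (e : ℕ))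
  refine ⟨RingHom.eqLocusField (frobenius F p) (RingHom.id F), fun htop => ha ?_⟩
  have hmem : a ∈ RingHom.eqLocusField (frobenius F p) (RingHom.id F) := htop ▸ Subfield.mem_top a
  have h1 : frobenius F p a = a := hmem
  rw [pow_one]
  exact h1

/-- a scalar isometry of determinant one in odd dimension is trivial -/
lemma scalar_iso_eq_one (hQ : IsNondegenerateQuadraticForm Q) [Nonempty ι]
    (hodd : Odd (Fintype.card ι)) {g : GL ι F} (hs : g ∈ scalars ι F) (hiso : g ∈ isometryGroup F Q)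
    (hdet : g ∈ specialLinear ι F) : g = 1 := by
  obtain ⟨c, hc⟩ := (mem_scalars_iff g).mp hs
  obtain ⟨a, -, ha⟩ := exists_nonsingular hQ (W := ⊤) (by
      intro h
      have h1 : Module.finrank F (⊤ : Submodule F (ι → F)) = 0 := by rw [h]; exact finrank_bot F _
      rw [finrank_top, finrank_fun] at h1
      exact Fintype.card_ne_zero h1) (by
      intro v _ hv
      obtain ⟨⟨x, hx⟩, ⟨y, hy⟩⟩ := hQ.nondegenerate v hv
      exact ⟨⟨x, Submodule.mem_top, hx⟩, ⟨y, Submodule.mem_top, hy⟩⟩)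
  have h1 := mem_iso.mp hiso a
  rw [hc, Matrix.smul_mulVec, Matrix.one_mulVec, hQ.smul] at h1
  have hc2 : (c : F) ^ 2 = 1 := mul_right_cancel₀ ha (h1.trans (one_mul _).symm)
  have h2 := mem_specialLinear_iff.mp hdet
  rw [hc, Matrix.det_smul, Matrix.det_one, mul_one] at h2
  obtain ⟨k, hk⟩ := hodd
  rw [hk, pow_succ, pow_mul, hc2, one_pow, one_mul] at h2
  apply Units.ext
  rw [hc, h2, one_smul, Units.val_one]

/-- Aschbacher's theorem for the maximal subgroups of `Ω_n(q)`, `n ≥ 7` a prime, `q` odd. -/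
theorem omain [Fintype F] {n : ℕ} (hcard : Fintype.card ι = n) (hn : n.Prime) (h7 : 7 ≤ n)
    (hQ : IsNondegenerateQuadraticForm Q) (hoddF : Odd (Fintype.card F))
    (hstd : ∀ (τ : F ≃+* F) i j, τ (QuadraticMap.polar Q (Pi.single i 1) (Pi.single j 1)) =
      QuadraticMap.polar Q (Pi.single i 1) (Pi.single j 1))
    (H : Subgroup (GL ι F)) (hH : IsMaximalIn (omegaGL Q) H) :
    (∃ W : Submodule F (ι → F), W ≠ ⊥ ∧ IsTotallySingularQuad Q W ∧
      H = subspaceStabilizer W ⊓ omegaGL Q) ∨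
    (∃ W : Submodule F (ι → F), W ≠ ⊥ ∧ Even (Module.finrank F W) ∧
      IsNondegenerateOn (QuadraticMap.polar Q) W ∧
      ¬ (Fintype.card F = 3 ∧ Module.finrank F W = 2 ∧ IsPlusTypeOn Q W) ∧
      H = subspaceStabilizer W ⊓ omegaGL Q) ∨
    ((Fintype.card F).Prime ∧ ∃ D : Fin n → Submodule F (ι → F),
      IsOrthogonalMDecomposition Q 1 D ∧ H = decompositionStabilizer D ⊓ omegaGL Q) ∨
    (∃ (F₀ : Subfield F) (r : ℕ) (P : GL ι F), r.Prime ∧ Fintype.card F = Nat.card F₀ ^ r ∧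
      IsQuadFormRationalStructure Q F₀ P ∧ H = subfieldSubgroup F₀ P ⊓ omegaGL Q) ∨
    InOrthogonalResidualClass H := by
  subst hcard
  have hn2 : 2 ≤ Fintype.card ι := hn.two_le
  have hne : Nonempty ι := Fintype.card_pos_iff.mp hn.pos
  have hoddn : Odd (Fintype.card ι) := hn.odd_of_ne_two (by omega)
  have h2 : (2 : F) ≠ 0 := two_ne_zero_of_odd hoddF
  have hHI : H ≤ isometryGroup F Q := hH.1.le.trans omega_le_iso
  have hHSL : H ≤ specialLinear ι F := hH.1.le.trans omega_le_SL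
  -- the subfield conclusion
  have concl5 : ∀ (P : Subgroup (GL ι F)), P ≤ H → Nz H P →
      ActsAbsolutelyIrreducibly (matrixSet P) →
      ∀ F₀ : Subfield F, F₀ ≠ ⊤ → RealisableOver F₀ (matrixSet P) →
      (∃ (F₀ : Subfield F) (r : ℕ) (P : GL ι F), r.Prime ∧ Fintype.card F = Nat.card F₀ ^ r ∧
        IsQuadFormRationalStructure Q F₀ P ∧ H = subfieldSubgroup F₀ P ⊓ omegaGL Q) := by
    intro P hPH hnorm habs F₀ hF₀ hreal
    obtain ⟨F₁, r, C, hr, hcard, hC, hle⟩ :=
      subfield_case hQ h2 hoddn hstd hnorm (hPH.trans hHI) habs hF₀ hreal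
    exact ⟨F₁, r, C, hr, hcard, hC, eq_inf_of_le'' hH hle
      (not_le_subfieldSubgroup hQ h2 h7 (subfield_ne_top_of_card hr hcard) C)⟩
  -- reducible case
  by_cases hirr : ActsIrreducibly (matrixSet H)
  swap
  · rw [actsIrreducibly_iff] at hirr
    push Not at hirr
    obtain ⟨W, hW, h0, h1⟩ := hirr
    rcases reducible_case hQ h2 hoddn hHI hW h0 h1 with ⟨U, hU0, hU, hinv⟩ |
      ⟨U, hU0, hU1, heven, hU, hinv⟩
    · left
      exact ⟨U, hU0, hU, eq_inf_of_le'' hH (le_subspaceStabilizer_of_Inv hinv)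
        (not_le_stab_singular hQ h2 h7 hU0 hU)⟩
    · right; left
      by_cases hex : Fintype.card F = 3 ∧ Module.finrank F U = 2 ∧ IsPlusTypeOn Q U
      · obtain ⟨hq3, hfr, hplus⟩ := hex
        obtain ⟨a, ha, hinva⟩ := plus_plane_case hQ hq3 hHI hinv hfr hU hplus
        obtain ⟨hfr', hnd'⟩ := orth_span_singleton hQ h2 ha
        have hinv' := Inv_orth hQ hHI hinva
        have hb : orth hQ (Submodule.span F {a}) ≠ ⊥ := by
          intro hb
          rw [hb, finrank_bot] at hfr'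
          omega
        have ht : orth hQ (Submodule.span F {a}) ≠ ⊤ := by
          intro ht
          rw [ht, finrank_top, finrank_fun] at hfr'
          omega
        refine ⟨_, hb, ?_, hnd', ?_, eq_inf_of_le'' hH (le_subspaceStabilizer_of_Inv hinv')
          (not_le_stab_nondeg hQ h2 h7 hb ht hnd')⟩
        · obtain ⟨k, hk⟩ := hoddn
          exact ⟨k, by omega⟩
        · rintro ⟨_, h, _⟩
          omega
      · exact ⟨U, hU0, heven, hU, hex, eq_inf_of_le'' hH (le_subspaceStabilizer_of_Inv hinv)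
          (not_le_stab_nondeg hQ h2 h7 hU0 hU1 hU)⟩
  have habsH : ActsAbsolutelyIrreducibly (matrixSet H) := absIrred_of_irred hQ h2 hn hoddn hHI hirr
  have hNzH : Nz H H := fun h hh x hx => H.mul_mem (H.mul_mem hh hx) (H.inv_mem hh)
  -- imprimitive case
  by_cases himp : ∃ D : Fin (Fintype.card ι) → Submodule F (ι → F),
      IsOrthogonalMDecomposition Q 1 D ∧ H ≤ decompositionStabilizer D
  · obtain ⟨D, hD, hle⟩ := himp
    by_cases hprime : (Fintype.card F).Prime
    · right; right; left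
      exact ⟨hprime, D, hD, eq_inf_of_le'' hH hle (not_le_decomp hQ h2 (by omega) D hD)⟩
    · right; right; right; left
      obtain ⟨F₀, hF₀⟩ := exists_proper_subfield hprime
      exact concl5 H le_rfl hNzH habsH F₀ hF₀ (realisable_of_monomial hQ hn.pos rfl hD hHI hle F₀)
  -- dichotomy for normal subgroups
  have hdich : ∀ T : Subgroup (GL ι F), T ≤ H → Nz H T →
      T ≤ scalars ι F ∨ ActsAbsolutelyIrreducibly (matrixSet T) := by
    intro T hTH hnorm
    rcases clifford hn hirr hnorm with h | h | ⟨D, hD, hle, _, hχ⟩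
    · exact Or.inl h
    · exact Or.inr (absIrred_of_irred hQ h2 hn hoddn (hTH.trans hHI) h)
    · exact absurd ⟨D, orth_decomp hQ hoddn hHI hirr (hTH.trans hHI) hD hle hχ, hle⟩ himp
  have hns : ¬ H ≤ scalars ι F := fun h => not_irred_of_le_scalars hn2 h hirr
  have h6 : ∀ T : Subgroup (GL ι F), T ≤ H → Nz H T → ⁅T, T⁆ ≤ scalars ι F → T ≤ scalars ι F := by
    intro T hTH hnorm hcomm
    refine (hdich T hTH hnorm).resolve_right (not_absIrred_of_comm hn2 ?_)
    intro a ha b hb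
    have hmem : ⁅a, b⁆ ∈ ⁅T, T⁆ := Subgroup.commutator_mem_commutator ha hb
    have hmemH : ⁅a, b⁆ ∈ H := by
      rw [commutatorElement_def]
      exact H.mul_mem (H.mul_mem (H.mul_mem (hTH ha) (hTH hb)) (H.inv_mem (hTH ha)))
        (H.inv_mem (hTH hb))
    have h1 := scalar_iso_eq_one hQ hoddn (hcomm hmem) (hHI hmemH) (hHSL hmemH)
    exact commutatorElement_eq_one_iff_mul_comm.mp h1
  obtain ⟨P, hPH, hnorm, hperf, hsimple, hnonab, habs⟩ := exists_core hn hns hdich h6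
  by_cases hsub : ∃ F₀ : Subfield F, F₀ ≠ ⊤ ∧ RealisableOver F₀ (matrixSet P)
  · obtain ⟨F₀, hF₀, hreal⟩ := hsub
    exact Or.inr (Or.inr (Or.inr (Or.inl (concl5 P hPH hnorm habs F₀ hF₀ hreal))))
  right; right; right; right
  refine ⟨P, ⟨hPH, hnorm, hperf, hsimple, hnonab, ?_, habs, ?_⟩, ?_⟩
  · intro h _ hh
    exact centralizer_scalar_of_perfect hperf habs h hh
  · intro F₀ hF₀ hreal
    exact hsub ⟨F₀, hF₀, hreal⟩
  · rintro ⟨σ, f, hf, hfix⟩
    obtain ⟨F₁, hF₁, hcard⟩ := Cfsg.Agent.Lib.Helper97USub.fix_sigma σ hf.ne_refl hf.involutive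
    apply hsub
    exact ⟨F₁, subfield_ne_top_of_card Nat.prime_two hcard,
      realisable_of_bilinear hf hfix habs hQ.polar_bilinear hQ.nondegenerate
        (fixes_polar (hPH.trans hHI)) (fun a ha => (hF₁ a).mp ha)⟩

end Cfsg.Agent.Lib.Helper97OMain
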