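import Cfsg.Agent.Lib.Helper58EMain
import Cfsg.Agent.Lib.Helper36ORed
import Cfsg.Agent.Lib.Helper97OMain
import Cfsg.Agent.Lib.Helper97OCliff2
import Cfsg.Agent.Lib.Helper63OTens
import Cfsg.Agent.Lib.Helper12OTsymm
import Cfsg.Agent.Lib.Helper95ORrall
import Cfsg.Agent.Lib.Helper60OPirr
import Cfsg.Agent.Lib.Helper60OPfieldall
import Cfsg.Agent.Lib.Helper60OPsuball
import Cfsg.Agent.Lib.Helper60OPdecall
import Cfsg.Agent.Lib.Helper92OPtens
import Cfsg.Agent.Lib.Helper70OWitt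
import Cfsg.Agent.Lib.Helper70OWittplus
import Cfsg.Agent.Lib.Helper70ODisc
import Cfsg.Agent.Lib.Helper70OGramdet
import Cfsg.Agent.Lib.Helper11ODecplus2
import Cfsg.Agent.Lib.Helper11ODecplusodd
import Cfsg.Agent.Lib.Helper76OBlocksplus
import Cfsg.Agent.Lib.Helper95OTensplusodd
import Cfsg.Agent.Lib.Helper95OTens2
import Cfsg.Agent.Lib.Helper76OPureplus
import Cfsg.Agent.Lib.Helper73OC6dec
import Cfsg.Agent.Lib.Helper91OWrregroup
import Cfsg.Agent.Lib.Helper91OFacirr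
import Cfsg.Agent.Lib.Helper76OQuadroot
import Cfsg.Agent.Lib.Helper40OSubplus
import Cfsg.Agent.Lib.Helper76OEvendim2
import Cfsg.Agent.Lib.Helper76OPlane2

set_option autoImplicit false

/-! PROJECT 5 = ASCH-O, PART 2b: tools for the even-dimensional targets (all q): hub restating the landed
pieces in one namespace. -/

namespace Cfsg.Agent.Lib.Helper58AschF

open Cfsg Cfsg.Geo Matrix
open Cfsg.Agent.Lib.Helper97GBase Cfsg.Agent.Lib.Helper97GCore Cfsg.Agent.Lib.Helper97GForms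
  Cfsg.Agent.Lib.Helper98AschGDefs Cfsg.Agent.Lib.Helper98AschGBasic Cfsg.Agent.Lib.Helper96SpDefs
  Cfsg.Agent.Lib.Helper58ODefs Cfsg.Agent.Lib.Helper58EDefs Cfsg.Agent.Lib.Helper97OBase
open scoped MatrixGroups Kronecker commutatorElement

variable {ι : Type} [Fintype ι] [DecidableEq ι] {F : Type*} [Field F]
variable {Q : (ι → F) → F} {H : Subgroup (GL ι F)}

/-! ## A. `Ω` is not contained in the members of the classes (all characteristics) -/

/-- [rrall] products of two reflections in vectors of the same norm lie in `Ω` (all characteristics). -/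
theorem rr_mem_all [Fintype F] (hQ : IsNondegenerateQuadraticForm Q) (hn : 5 ≤ Fintype.card ι)
    (u v : ι → F) (hu : Q u ≠ 0) (hv : Q v ≠ 0) (huv : Q u = Q v) :
    rf hQ u hu * rf hQ v hv ∈ omegaGL Q :=
  Cfsg.Agent.Lib.Helper95ORrall.rr_mem_all hQ hn u v hu hv huv

/-- [pirr] `Ω` is irreducible. -/
theorem not_le_stab_all [Fintype F] (hQ : IsNondegenerateQuadraticForm Q) (hn : 7 ≤ Fintype.card ι)
    {W : Submodule F (ι → F)} (h0 : W ≠ ⊥) (h1 : W ≠ ⊤) : ¬ omegaGL Q ≤ subspaceStabilizer W :=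
  Cfsg.Agent.Lib.Helper60OPirr.not_le_stab_all hQ hn h0 h1

/-- [pfieldall] `Ω` normalises no field properly containing the scalars. -/
theorem not_le_field_all [Fintype F] (hQ : IsNondegenerateQuadraticForm Q) (hn : 7 ≤ Fintype.card ι)
    {r : ℕ} (hr : 1 < r) (K : Subalgebra F (Matrix ι ι F)) (hK : IsFieldSubalgebra r K) :
    ¬ omegaGL Q ≤ subalgebraNormalizer K :=
  Cfsg.Agent.Lib.Helper60OPfieldall.not_le_field_all hQ hn hr K hK

/-- [psuball] `Ω` lies in no subfield subgroup. -/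
theorem not_le_subfield_all [Fintype F] (hQ : IsNondegenerateQuadraticForm Q) (hn : 7 ≤ Fintype.card ι)
    {F₁ : Subfield F} (hF₁ : F₁ ≠ ⊤) (C : GL ι F) : ¬ omegaGL Q ≤ subfieldSubgroup F₁ C :=
  Cfsg.Agent.Lib.Helper60OPsuball.not_le_subfield_all hQ hn hF₁ C

/-- [pdecall] `Ω` stabilises no orthogonal decomposition into blocks of dimension at least 2. -/
theorem not_le_decomp_all [Fintype F] (hQ : IsNondegenerateQuadraticForm Q) (hn : 7 ≤ Fintype.card ι)
    {t k : ℕ} (hk : 1 < k) (D : Fin t → Submodule F (ι → F))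
    (hD : IsNondegenerateMDecomposition (QuadraticMap.polar Q) k D) :
    ¬ omegaGL Q ≤ decompositionStabilizer D :=
  Cfsg.Agent.Lib.Helper60OPdecall.not_le_decomp_all hQ hn hk D hD

/-- [ptens] `q` odd: `Ω` stabilises no tensor decomposition of the polar form into symmetric forms. -/
theorem not_le_tensor [Fintype F] (hQ : IsNondegenerateQuadraticForm Q) (h2 : (2 : F) ≠ 0)
    (hn : 7 ≤ Fintype.card ι) {d s : ℕ} (hd : 2 ≤ d) (hs : 2 ≤ s) (e : ι ≃ Fin d × Fin s) (P : GL ι F)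
    (f₁ : (Fin d → F) → (Fin d → F) → F) (f₂ : (Fin s → F) → (Fin s → F) → F)
    (hf₁ : IsSymmetricForm f₁) (hf₂ : IsSymmetricForm f₂)
    (hstr : IsTensorFormStructure id (QuadraticMap.polar Q) f₁ f₂ e P) :
    ¬ omegaGL Q ≤ tensorProductSubgroup d s e P :=
  Cfsg.Agent.Lib.Helper92OPtens.not_le_tensor hQ h2 hn hd hs e P f₁ f₂ hf₁ hf₂ hstr

/-! ## B. criteria for plus type -/

/-- [witt] Witt decomposition: `l` hyperbolic pairs and a non-degenerate plane. -/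
theorem witt_dec [Finite F] (hQ : IsNondegenerateQuadraticForm Q) {l : ℕ}
    (hl : Fintype.card ι = 2 * l + 2) :
    ∃ (e f : Fin l → ι → F) (a b : ι → F), (∀ i, Q (e i) = 0) ∧ (∀ i, Q (f i) = 0) ∧
      (∀ i j, QuadraticMap.polar Q (e i) (e j) = 0) ∧ (∀ i j, QuadraticMap.polar Q (f i) (f j) = 0) ∧
      (∀ i j, QuadraticMap.polar Q (e i) (f j) = if i = j then 1 else 0) ∧
      (∀ i, QuadraticMap.polar Q (e i) a = 0) ∧ (∀ i, QuadraticMap.polar Q (e i) b = 0) ∧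
      (∀ i, QuadraticMap.polar Q (f i) a = 0) ∧ (∀ i, QuadraticMap.polar Q (f i) b = 0) ∧
      QuadraticMap.polar Q a b ^ 2 - 4 * Q a * Q b ≠ 0 :=
  Cfsg.Agent.Lib.Helper70OWitt.witt_dec hQ hl

/-- [wittplus] a Witt decomposition whose plane contains a non-zero singular vector: plus type. -/
theorem plus_of_witt (hQ : IsNondegenerateQuadraticForm Q) {l : ℕ}
    (hl : Fintype.card ι = 2 * l + 2) (e f : Fin l → ι → F) (s : ι → F) (he : ∀ i, Q (e i) = 0)
    (hee : ∀ i j, QuadraticMap.polar Q (e i) (e j) = 0)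
    (hef : ∀ i j, QuadraticMap.polar Q (e i) (f j) = if i = j then 1 else 0)
    (hes : ∀ i, QuadraticMap.polar Q (e i) s = 0) (hfs : ∀ i, QuadraticMap.polar Q (f i) s = 0)
    (hs0 : s ≠ 0) (hs : Q s = 0) : IsPlusTypeOn Q ⊤ :=
  Cfsg.Agent.Lib.Helper70OWittplus.plus_of_witt hQ hl e f s he hee hef hes hfs hs0 hs

/-- [disc] `q` odd, dimension `2l`: if `(-1)^l disc(Q)` is a square then `Q` is of plus type. -/
theorem plus_of_disc [Fintype F] (h2 : (2 : F) ≠ 0) (hQ : IsNondegenerateQuadraticForm Q) {l : ℕ}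
    (hl : Fintype.card ι = 2 * l)
    (hsq : IsSquare ((-1 : F) ^ l * (gramMatrix (QuadraticMap.polar Q)).det)) : IsPlusTypeOn Q ⊤ :=
  Cfsg.Agent.Lib.Helper70ODisc.plus_of_disc h2 hQ hl hsq

/-- [gramdet] the discriminant in another basis. -/
theorem gram_det_of_form {κ : Type} [Fintype κ] [DecidableEq κ] (hQ : IsNondegenerateQuadraticForm Q)
    (e : ι ≃ κ) (P : GL ι F) (M : Matrix κ κ F)
    (hM : ∀ x y : κ → F, QuadraticMap.polar Q ((P : Matrix ι ι F) *ᵥ (x ∘ e))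
      ((P : Matrix ι ι F) *ᵥ (y ∘ e)) = formOfGram id M x y) :
    (gramMatrix (QuadraticMap.polar Q)).det * (P : Matrix ι ι F).det ^ 2 = M.det :=
  Cfsg.Agent.Lib.Helper70OGramdet.gram_det_of_form hQ e P M hM

/-- [decplus2] characteristic 2: an even number of isometric orthogonal blocks. -/
theorem plus_of_dec_two (h2 : (2 : F) = 0) (hQ : IsNondegenerateQuadraticForm Q) {t k : ℕ}
    {D : Fin t → Submodule F (ι → F)} (hD : IsOrthogonalMDecomposition Q k D) (ht : Even t) :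
    IsPlusTypeOn Q ⊤ :=
  Cfsg.Agent.Lib.Helper11ODecplus2.plus_of_dec_two h2 hQ hD ht

/-- [decplusodd] `q` odd: an even number of isometric orthogonal blocks, `(-1)^l` a square. -/
theorem plus_of_dec_odd [Fintype F] (h2 : (2 : F) ≠ 0) (hQ : IsNondegenerateQuadraticForm Q) {t k : ℕ}
    {D : Fin t → Submodule F (ι → F)} (hD : IsOrthogonalMDecomposition Q k D) (ht : Even t) {l : ℕ}
    (hl : Fintype.card ι = 2 * l) (hsq : IsSquare ((-1 : F) ^ l)) : IsPlusTypeOn Q ⊤ :=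
  Cfsg.Agent.Lib.Helper11ODecplusodd.plus_of_dec_odd h2 hQ hD ht hl hsq

/-- [blocksplus] orthogonal sum of blocks of plus type; transport of the type by isometries. -/
theorem plus_of_blocks (hQ : IsNondegenerateQuadraticForm Q) {t k : ℕ}
    {D : Fin t → Submodule F (ι → F)} (hD : IsNondegenerateMDecomposition (QuadraticMap.polar Q) k D)
    (hplus : ∀ i, IsPlusTypeOn Q (D i)) : IsPlusTypeOn Q ⊤ :=
  Cfsg.Agent.Lib.Helper76OBlocksplus.plus_of_blocks hQ hD hplus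

theorem plus_of_isometric {W W' : Submodule F (ι → F)} (h : AreIsometricFor Q W W')
    (hW : IsPlusTypeOn Q W) : IsPlusTypeOn Q W' :=
  Cfsg.Agent.Lib.Helper76OBlocksplus.plus_of_isometric h hW

/-- [tensplusodd] `q` odd: `polar Q = G₁ ⊗ G₂` with both dimensions even. -/
theorem plus_of_tens_odd [Fintype F] (h2 : (2 : F) ≠ 0) (hQ : IsNondegenerateQuadraticForm Q) {d s : ℕ}
    (e : ι ≃ Fin d × Fin s) (P : GL ι F) (G₁ : Matrix (Fin d) (Fin d) F) (G₂ : Matrix (Fin s) (Fin s) F)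
    (hG : ∀ x y : Fin d × Fin s → F, QuadraticMap.polar Q ((P : Matrix ι ι F) *ᵥ (x ∘ e))
      ((P : Matrix ι ι F) *ᵥ (y ∘ e)) = formOfGram id (G₁ ⊗ₖ G₂) x y)
    (hd : Even d) (hs : Even s) {l : ℕ} (hl : Fintype.card ι = 2 * l) (hsq : IsSquare ((-1 : F) ^ l)) :
    IsPlusTypeOn Q ⊤ :=
  Cfsg.Agent.Lib.Helper95OTensplusodd.plus_of_tens_odd h2 hQ e P G₁ G₂ hG hd hs hl hsq

/-- [tens2] characteristic 2, `H` irreducible: both factors are alternating and `Q` vanishes on the pure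
tensors. -/
theorem tens_char_two [Fintype F] (h2 : (2 : F) = 0) (hQ : IsNondegenerateQuadraticForm Q)
    (hH : H ≤ isometryGroup F Q) (hirr : ActsIrreducibly (matrixSet H)) {d s : ℕ} (hd : 2 ≤ d) (hs : 2 ≤ s)
    (e : ι ≃ Fin d × Fin s) (P : GL ι F) (G₁ : Matrix (Fin d) (Fin d) F) (G₂ : Matrix (Fin s) (Fin s) F)
    (h₁ : IsUnit G₁.det) (h₂ : IsUnit G₂.det)
    (hG : ∀ x y : Fin d × Fin s → F, QuadraticMap.polar Q ((P : Matrix ι ι F) *ᵥ (x ∘ e))
      ((P : Matrix ι ι F) *ᵥ (y ∘ e)) = formOfGram id (G₁ ⊗ₖ G₂) x y)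
    (hle : H ≤ tensorProductSubgroup d s e P) :
    G₁ᵀ = G₁ ∧ G₂ᵀ = G₂ ∧ (∀ i, G₁ i i = 0) ∧ (∀ i, G₂ i i = 0) ∧
    ∀ (x₁ : Fin d → F) (x₂ : Fin s → F),
      Q ((P : Matrix ι ι F) *ᵥ ((fun a : Fin d × Fin s => x₁ a.1 * x₂ a.2) ∘ e)) = 0 :=
  Cfsg.Agent.Lib.Helper95OTens2.tens_char_two h2 hQ hH hirr hd hs e P G₁ G₂ h₁ h₂ hG hle

/-- [pureplus] `Q` vanishes on the pure tensors of `F² ⊗ F^s`: plus type. -/
theorem plus_of_pure {s : ℕ} (e : ι ≃ Fin 2 × Fin s) (P : GL ι F)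
    (hpure : ∀ (x₁ : Fin 2 → F) (x₂ : Fin s → F),
      Q ((P : Matrix ι ι F) *ᵥ ((fun a : Fin 2 × Fin s => x₁ a.1 * x₂ a.2) ∘ e)) = 0) :
    IsPlusTypeOn Q ⊤ :=
  Cfsg.Agent.Lib.Helper76OPureplus.plus_of_pure e P hpure

/-- an alternating matrix of odd size is singular (any characteristic). -/
theorem not_alt_of_odd {d : ℕ} (hd : Odd d) (G : Matrix (Fin d) (Fin d) F) (hs : Gᵀ = -G)
    (h0 : ∀ i, G i i = 0) : ¬ IsUnit G.det := by
  rw [det_alt_eq_zero' (by rwa [Fintype.card_fin]) G (fun i j => by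
    have := congrFun (congrFun hs j) i
    simpa using this) h0]
  exact not_isUnit_zero

/-- [c6dec] class 6 inside `O(Q)`: a non-scalar involution gives two isometric orthogonal halves. -/
theorem c6_dec [Fintype F] (h3 : 3 ≤ Fintype.card ι) (hQ : IsNondegenerateQuadraticForm Q)
    {N : Subgroup (GL ι F)} (hN : N ≤ isometryGroup F Q) (hcomm : ⁅N, N⁆ ≤ scalars ι F)
    (habs : ActsAbsolutelyIrreducibly (matrixSet N)) :
    ∃ (k : ℕ) (D : Fin 2 → Submodule F (ι → F)), IsOrthogonalMDecomposition Q k D :=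
  Cfsg.Agent.Lib.Helper73OC6dec.c6_dec h3 hQ hN hcomm habs

/-- [wrregroup] `F^m ⊗ ... ⊗ F^m` (`k + 1` factors) regrouped as `F^m ⊗ F^(m^k)`. -/
theorem wr_regroup {k m : ℕ} (e : ι ≃ (Fin (k + 1) → Fin m)) (P : GL ι F)
    (G : Fin (k + 1) → Matrix (Fin m) (Fin m) F) (hGu : ∀ i, IsUnit (G i).det)
    (hG : ∀ x y : (Fin (k + 1) → Fin m) → F, QuadraticMap.polar Q ((P : Matrix ι ι F) *ᵥ (x ∘ e))
      ((P : Matrix ι ι F) *ᵥ (y ∘ e)) = ∑ a, ∑ b, x a * (∏ i, G i (a i) (b i)) * y b) :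
    ∃ (e' : ι ≃ Fin m × Fin (m ^ k)) (G₂ : Matrix (Fin (m ^ k)) (Fin (m ^ k)) F), IsUnit G₂.det ∧
      (∀ x y : Fin m × Fin (m ^ k) → F, QuadraticMap.polar Q ((P : Matrix ι ι F) *ᵥ (x ∘ e'))
        ((P : Matrix ι ι F) *ᵥ (y ∘ e')) = formOfGram id (G 0 ⊗ₖ G₂) x y) ∧
      ∀ (g : GL ι F) (i : Fin (k + 1)) (a : Matrix (Fin m) (Fin m) F),
        (g : Matrix ι ι F) = fac e P i a → g ∈ tensorProductSubgroup m (m ^ k) e' P :=
  Cfsg.Agent.Lib.Helper91OWrregroup.wr_regroup e P G hGu hG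

/-- [facirr] a group whose enveloping algebra contains all the factor algebras is absolutely irreducible. -/
theorem absIrred_of_fac {k m : ℕ} (e : ι ≃ (Fin k → Fin m)) (P : GL ι F) {N : Subgroup (GL ι F)}
    (h : ∀ (i : Fin k) (a : Matrix (Fin m) (Fin m) F), fac e P i a ∈ env N) :
    ActsAbsolutelyIrreducibly (matrixSet N) :=
  Cfsg.Agent.Lib.Helper91OFacirr.absIrred_of_fac e P h

/-- [quadroot] a binary quadratic form over `F₀` has a non-trivial zero over the quadratic extension. -/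
theorem quad_root [Fintype F] {F₀ : Subfield F} (hcard : Fintype.card F = Nat.card F₀ ^ 2)
    {α β γ : F} (hα : α ∈ F₀) (hβ : β ∈ F₀) (hγ : γ ∈ F₀) :
    ∃ x y : F, (x ≠ 0 ∨ y ≠ 0) ∧ α * x ^ 2 + β * x * y + γ * y ^ 2 = 0 :=
  Cfsg.Agent.Lib.Helper76OQuadroot.quad_root hcard hα hβ hγ

/-- [subplus] a rational structure over the subfield of index 2: plus type. -/
theorem plus_of_sub_two [Fintype F] (hQ : IsNondegenerateQuadraticForm Q) {l : ℕ}
    (hl : Fintype.card ι = 2 * l) {F₀ : Subfield F} (hcard : Fintype.card F = Nat.card F₀ ^ 2)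
    (P : GL ι F) {ζ : F} (hζ : ζ ≠ 0)
    (hrat : IsQuadFormRationalStructure (fun v : ι → F => ζ * Q v) F₀ P) : IsPlusTypeOn Q ⊤ :=
  Cfsg.Agent.Lib.Helper40OSubplus.plus_of_sub_two hQ hl hcard P hζ hrat

/-! ## C. refinement of the reducible case -/

/-- [evendim2] characteristic 2: non-degenerate subspaces have even dimension. -/
theorem even_finrank_of_nondeg (h2 : (2 : F) = 0) (hQ : IsNondegenerateQuadraticForm Q)
    {W : Submodule F (ι → F)} (hW : IsNondegenerateOn (QuadraticMap.polar Q) W) :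
    Even (Module.finrank F W) :=
  Cfsg.Agent.Lib.Helper76OEvendim2.even_finrank_of_nondeg h2 hQ hW

/-- [plane2] `q = 2`: a plane of plus type contains exactly one non-singular vector. -/
theorem plus_plane_two [Fintype F] (hQ : IsNondegenerateQuadraticForm Q) (hq : Fintype.card F = 2)
    (hH : H ≤ isometryGroup F Q) {U : Submodule F (ι → F)} (hU : H ≤ subspaceStabilizer U)
    (hfr : Module.finrank F U = 2) (hnd : IsNondegenerateOn (QuadraticMap.polar Q) U)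
    (hplus : IsPlusTypeOn Q U) : ∃ a, Q a ≠ 0 ∧ H ≤ subspaceStabilizer (Submodule.span F {a}) :=
  Cfsg.Agent.Lib.Helper76OPlane2.plus_plane_two hQ hq hH hU hfr hnd hplus

end Cfsg.Agent.Lib.Helper58AschF
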