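import Cfsg.Agent.Lib.Helper58AschF
import Cfsg.Agent.Lib.Helper97GSubfield

set_option autoImplicit false

/-! PROJECT 5 = ASCH-O, PART 2c: common part of the assemblies of the even-dimensional targets. -/

namespace Cfsg.Agent.Lib.Helper58AschG

open Cfsg Cfsg.Geo Matrix
open Cfsg.Agent.Lib.Helper97GBase Cfsg.Agent.Lib.Helper97GCore Cfsg.Agent.Lib.Helper97GForms
  Cfsg.Agent.Lib.Helper98AschGDefs Cfsg.Agent.Lib.Helper98AschGBasic Cfsg.Agent.Lib.Helper96SpDefs
  Cfsg.Agent.Lib.Helper58ODefs Cfsg.Agent.Lib.Helper58EDefs Cfsg.Agent.Lib.Helper97OBase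
  Cfsg.Agent.Lib.Helper58EMain Cfsg.Agent.Lib.Helper36ORed Cfsg.Agent.Lib.Helper58AschF Cfsg.Agent.Lib.Helper97OProper
  Cfsg.Agent.Lib.Helper97OCliff2 Cfsg.Agent.Lib.Helper97OMain Cfsg.Agent.Lib.Helper58GD
open scoped MatrixGroups Kronecker commutatorElement

variable {ι : Type} [Fintype ι] [DecidableEq ι] {F : Type*} [Field F]
variable {Q : (ι → F) → F} {H : Subgroup (GL ι F)}

lemma inv_of_le {W : Submodule F (ι → F)} (hle : H ≤ subspaceStabilizer W) : Inv H W :=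
  fun g hg w hw => ((mem_subspaceStabilizer_iff.1 (hle hg)) w).1 hw

lemma nondeg_orth (hQ : IsNondegenerateQuadraticForm Q) {W : Submodule F (ι → F)}
    (hW : IsNondegenerateOn (QuadraticMap.polar Q) W) :
    IsNondegenerateOn (QuadraticMap.polar Q) (orth hQ W) := by
  apply nondegOn_of_inf_eq_bot hQ
  rw [orth_orth, inf_comm]
  exact inf_orth_eq_bot_of_nondegOn hQ hW

lemma two_eq_zero_of_not_odd [Fintype F] (h : ¬ Odd (Fintype.card F)) : (2 : F) = 0 := by
  rw [Nat.not_odd_iff_even] at h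
  have hchar : ringChar F = 2 := FiniteField.even_card_iff_char_two.mpr (Nat.even_iff.1 h)
  have := ringChar.Nat.cast_ringChar (R := F)
  rw [hchar] at this
  exact_mod_cast this

lemma not_odd_of_two_eq_zero [Fintype F] (h : (2 : F) = 0) : ¬ Odd (Fintype.card F) :=
  fun hodd => two_ne_zero_of_odd hodd h

/-- a non-degenerate invariant subspace may be taken of dimension at most `n / 2` -/
lemma nd_small (hQ : IsNondegenerateQuadraticForm Q) (hH : H ≤ isometryGroup F Q)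
    {W : Submodule F (ι → F)} (h0 : W ≠ ⊥) (h1 : W ≠ ⊤)
    (hW : IsNondegenerateOn (QuadraticMap.polar Q) W) (hle : H ≤ subspaceStabilizer W) :
    ∃ W' : Submodule F (ι → F), W' ≠ ⊥ ∧ W' ≠ ⊤ ∧ IsNondegenerateOn (QuadraticMap.polar Q) W' ∧
      H ≤ subspaceStabilizer W' ∧ 2 * Module.finrank F W' ≤ Fintype.card ι := by
  by_cases hd : 2 * Module.finrank F W ≤ Fintype.card ι
  · exact ⟨W, h0, h1, hW, hle, hd⟩
  · have hfr := finrank_orth hQ W
    refine ⟨orth hQ W, ?_, ?_, nondeg_orth hQ hW,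
      le_subspaceStabilizer_of_Inv (Inv_orth hQ hH (inv_of_le hle)), by omega⟩
    · intro hb
      apply h1
      rw [← orth_orth hQ W, hb]
      apply Submodule.eq_top_of_finrank_eq
      have := finrank_orth hQ (⊥ : Submodule F (ι → F))
      rw [finrank_bot] at this
      rw [finrank_fun]
      omega
    · intro ht
      rw [ht, finrank_top, finrank_fun] at hfr
      apply h0
      exact Submodule.finrank_eq_zero.1 (by omega)

/-- the span of a non-singular vector, `q` odd -/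
lemma span_nondeg (hQ : IsNondegenerateQuadraticForm Q) (h2 : (2 : F) ≠ 0) {a : ι → F} (ha : Q a ≠ 0) :
    IsNondegenerateOn (QuadraticMap.polar Q) (Submodule.span F {a}) := by
  have := nondeg_orth hQ (orth_span_singleton hQ h2 ha).2
  rwa [orth_orth] at this

lemma ne_zero_of_Q (hQ : IsNondegenerateQuadraticForm Q) {a : ι → F} (ha : Q a ≠ 0) : a ≠ 0 := by
  rintro rfl
  apply ha
  have := hQ.smul 0 0
  simpa using this

lemma span_ne_bot (hQ : IsNondegenerateQuadraticForm Q) {a : ι → F} (ha : Q a ≠ 0) :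
    Submodule.span F {a} ≠ ⊥ := by
  rw [Ne, Submodule.span_singleton_eq_bot]
  exact ne_zero_of_Q hQ ha

lemma span_ne_top (hQ : IsNondegenerateQuadraticForm Q) (hn : 2 ≤ Fintype.card ι) {a : ι → F}
    (ha : Q a ≠ 0) : Submodule.span F {a} ≠ ⊤ := by
  intro h
  have h1 := finrank_span_singleton (K := F) (ne_zero_of_Q hQ ha)
  rw [h, finrank_top, finrank_fun] at h1
  omega

/-- the four possibilities for an invariant non-degenerate plane -/
lemma plane_cases [Fintype F] (hQ : IsNondegenerateQuadraticForm Q) (hn : 7 ≤ Fintype.card ι)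
    (hH : IsMaximalIn (omegaGL Q) H) {W : Submodule F (ι → F)} (hfr : Module.finrank F W = 2)
    (hW : IsNondegenerateOn (QuadraticMap.polar Q) W) (hle : H ≤ subspaceStabilizer W) :
    (∃ W : Submodule F (ι → F), Module.finrank F W = 2 ∧ IsNondegenerateOn (QuadraticMap.polar Q) W ∧
      ¬ IsPlusTypeOn Q W ∧ H = subspaceStabilizer W ⊓ omegaGL Q) ∨
    (4 ≤ Fintype.card F ∧ ∃ W : Submodule F (ι → F), Module.finrank F W = 2 ∧
      IsNondegenerateOn (QuadraticMap.polar Q) W ∧ IsPlusTypeOn Q W ∧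
      H = subspaceStabilizer W ⊓ omegaGL Q) ∨
    (Odd (Fintype.card F) ∧ ∃ W : Submodule F (ι → F), W ≠ ⊥ ∧ W ≠ ⊤ ∧ Module.finrank F W = 1 ∧
      IsNondegenerateOn (QuadraticMap.polar Q) W ∧ H = subspaceStabilizer W ⊓ omegaGL Q) ∨
    (¬ Odd (Fintype.card F) ∧ ∃ v : ι → F, Q v ≠ 0 ∧
      H = subspaceStabilizer (Submodule.span F {v}) ⊓ omegaGL Q) := by
  have hHI : H ≤ isometryGroup F Q := hH.1.le.trans omega_le_iso
  have h0 : W ≠ ⊥ := by
    rintro rfl
    rw [finrank_bot] at hfr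
    omega
  have h1 : W ≠ ⊤ := by
    rintro rfl
    rw [finrank_top, finrank_fun] at hfr
    omega
  have heq := eq_inf_of_le'' hH hle (not_le_stab_all hQ hn h0 h1)
  by_cases hplus : IsPlusTypeOn Q W
  swap
  · exact Or.inl ⟨W, hfr, hW, hplus, heq⟩
  by_cases hq4 : 4 ≤ Fintype.card F
  · exact Or.inr (Or.inl ⟨hq4, W, hfr, hW, hplus, heq⟩)
  have hq1 : 1 < Fintype.card F := Fintype.one_lt_card
  obtain hq | hq : Fintype.card F = 3 ∨ Fintype.card F = 2 := by omega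
  · have hodd : Odd (Fintype.card F) := by rw [hq]; exact ⟨1, rfl⟩
    have h2 := two_ne_zero_of_odd hodd
    obtain ⟨a, ha, hinv⟩ := plus_plane_case hQ hq hHI (inv_of_le hle) hfr hW hplus
    exact Or.inr (Or.inr (Or.inl ⟨hodd, _, span_ne_bot hQ ha, span_ne_top hQ (by omega) ha,
      finrank_span_singleton (ne_zero_of_Q hQ ha), span_nondeg hQ h2 ha,
      eq_inf_of_le'' hH (le_subspaceStabilizer_of_Inv hinv)
        (not_le_stab_all hQ hn (span_ne_bot hQ ha) (span_ne_top hQ (by omega) ha))⟩))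
  · have hodd : ¬ Odd (Fintype.card F) := by rw [hq]; decide
    obtain ⟨a, ha, hle'⟩ := plus_plane_two hQ hq hHI hle hfr hW hplus
    exact Or.inr (Or.inr (Or.inr ⟨hodd, a, ha, eq_inf_of_le'' hH hle'
      (not_le_stab_all hQ hn (span_ne_bot hQ ha) (span_ne_top hQ (by omega) ha))⟩))

/-- a pair of complementary totally singular subspaces: plus type -/
lemma plus_of_pair (h : OPair Q H) : IsPlusTypeOn Q ⊤ := by
  obtain ⟨k, D, hD, hTS, -⟩ := h
  have := decomp_card D hD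
  exact ⟨D 0, le_top, hTS 0, by rw [hD.finrank_eq, finrank_top, finrank_fun]; omega⟩

/-- an even number of isometric blocks -/
lemma plus_of_dec [Fintype F] (hQ : IsNondegenerateQuadraticForm Q) {t k : ℕ}
    {D : Fin t → Submodule F (ι → F)} (hD : IsOrthogonalMDecomposition Q k D) (ht : Even t) {l : ℕ}
    (hl : Fintype.card ι = 2 * l) (hsq : IsSquare ((-1 : F) ^ l)) : IsPlusTypeOn Q ⊤ := by
  by_cases h2 : (2 : F) = 0
  · exact plus_of_dec_two h2 hQ hD ht
  · exact plus_of_dec_odd h2 hQ hD ht hl hsq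

/-- tensor decompositions with a factor of dimension 2 and the other factor of even dimension -/
lemma plus_of_tens_two [Fintype F] (hQ : IsNondegenerateQuadraticForm Q) (hH : H ≤ isometryGroup F Q)
    (hirr : ActsIrreducibly (matrixSet H)) {s : ℕ} (hs : 2 ≤ s) (hs2 : Even s)
    (e : ι ≃ Fin 2 × Fin s) (P : GL ι F) (G₁ : Matrix (Fin 2) (Fin 2) F) (G₂ : Matrix (Fin s) (Fin s) F)
    (h₁ : IsUnit G₁.det) (h₂ : IsUnit G₂.det)
    (hG : ∀ x y : Fin 2 × Fin s → F, QuadraticMap.polar Q ((P : Matrix ι ι F) *ᵥ (x ∘ e))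
      ((P : Matrix ι ι F) *ᵥ (y ∘ e)) = formOfGram id (G₁ ⊗ₖ G₂) x y)
    (hle : H ≤ tensorProductSubgroup 2 s e P) {l : ℕ} (hl : Fintype.card ι = 2 * l)
    (hsq : IsSquare ((-1 : F) ^ l)) : IsPlusTypeOn Q ⊤ := by
  by_cases h2 : (2 : F) = 0
  · exact plus_of_pure e P (tens_char_two h2 hQ hH hirr le_rfl hs e P G₁ G₂ h₁ h₂ hG hle).2.2.2.2
  · exact plus_of_tens_odd h2 hQ e P G₁ G₂ hG ⟨1, rfl⟩ hs2 hl hsq

/-- tensor powers `F² ⊗ F² ⊗ F²` -/
lemma plus_of_wr [Fintype F] (hQ : IsNondegenerateQuadraticForm Q) (hH : H ≤ isometryGroup F Q)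
    {k : ℕ} (e : ι ≃ (Fin (k + 1) → Fin 2)) (P : GL ι F) (G : Fin (k + 1) → Matrix (Fin 2) (Fin 2) F)
    (T : Subgroup (GL ι F)) (hh : Fin (k + 1) → H) (hk : 1 ≤ k) (hGu : ∀ i, IsUnit (G i).det)
    (hG : ∀ x y : (Fin (k + 1) → Fin 2) → F, QuadraticMap.polar Q ((P : Matrix ι ι F) *ᵥ (x ∘ e))
      ((P : Matrix ι ι F) *ᵥ (y ∘ e)) = ∑ a, ∑ b, x a * (∏ i, G i (a i) (b i)) * y b)
    (hTH : T ≤ H)
    (hmem : ∀ (i : Fin (k + 1)) (M : Matrix ι ι F), M ∈ env (cj (hh i : GL ι F) T) ↔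
      ∃ a : Matrix (Fin 2) (Fin 2) F, M = fac e P i a) {l : ℕ} (hl : Fintype.card ι = 2 * l)
    (hsq : IsSquare ((-1 : F) ^ l)) : IsPlusTypeOn Q ⊤ := by
  obtain ⟨e', G₂, hG₂, hG', hfac⟩ := wr_regroup e P G hGu hG
  set N : Subgroup (GL ι F) := ⨆ i, cj (hh i : GL ι F) T with hN
  have hcjH : ∀ i, cj (hh i : GL ι F) T ≤ H := by
    intro i x hx
    rw [mem_cj] at hx
    have h1 := H.mul_mem (H.mul_mem (hh i).2 (hTH hx)) (H.inv_mem (hh i).2)
    have h2 : (hh i : GL ι F) * ((hh i : GL ι F)⁻¹ * x * (hh i : GL ι F)) * (hh i : GL ι F)⁻¹ = x := by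
      group
    rwa [h2] at h1
  have hNH : N ≤ H := iSup_le hcjH
  have hNt : N ≤ tensorProductSubgroup 2 (2 ^ k) e' P := by
    apply iSup_le
    intro i x hx
    obtain ⟨a, ha⟩ := (hmem i _).1 (val_mem_env hx)
    exact hfac x i a ha
  have habs : ActsAbsolutelyIrreducibly (matrixSet N) := by
    apply absIrred_of_fac e P
    intro i a
    have h1 : fac e P i a ∈ env (cj (hh i : GL ι F) T) := (hmem i _).2 ⟨a, rfl⟩
    exact env_le (fun t ht => val_mem_env (le_iSup (fun i => cj (hh i : GL ι F) T) i ht)) h1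
  have h2k : 2 ≤ 2 ^ k := by
    calc 2 = 2 ^ 1 := rfl
      _ ≤ 2 ^ k := Nat.pow_le_pow_right (by omega) hk
  exact plus_of_tens_two hQ (hNH.trans hH) habs.1 h2k
    (Nat.even_pow.2 ⟨⟨1, rfl⟩, by omega⟩) e' P (G 0) G₂ (hGu 0) hG₂ hG' hNt hl hsq

end Cfsg.Agent.Lib.Helper58AschG
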