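import Cfsg.Agent.Lib.Helper58ODefs

set_option autoImplicit false

/-! PROJECT 5 = ASCH-O, PART 2. Vocabulary for the general (any dimension, any characteristic) form of the
Aschbacher theorem for orthogonal groups. -/

namespace Cfsg.Agent.Lib.Helper58EDefs

open Cfsg Cfsg.Geo Matrix
open Cfsg.Agent.Lib.Helper97GBase Cfsg.Agent.Lib.Helper97GCore Cfsg.Agent.Lib.Helper98AschGDefs
  Cfsg.Agent.Lib.Helper96SpDefs Cfsg.Agent.Lib.Helper58ODefs
open scoped MatrixGroups Kronecker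

variable {ι : Type} [Fintype ι] [DecidableEq ι] {F : Type*} [Field F]

/-- class 1, characteristic 2: a non-singular vector -/
def ONS (Q : (ι → F) → F) (H : Subgroup (GL ι F)) : Prop :=
  (2 : F) = 0 ∧ ∃ v : ι → F, Q v ≠ 0 ∧ H ≤ subspaceStabilizer (Submodule.span F {v})

/-- class 2, a pair of complementary totally singular subspaces -/
def OPair (Q : (ι → F) → F) (H : Subgroup (GL ι F)) : Prop :=
  ∃ (k : ℕ) (D : Fin 2 → Submodule F (ι → F)), IsMDecomposition k D ∧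
    (∀ i, IsTotallySingularQuad Q (D i)) ∧ H ≤ decompositionStabilizer D

/-- class 3, an adjoint-closed field of prime degree -/
def OFieldA (Q : (ι → F) → F) (H : Subgroup (GL ι F)) : Prop :=
  ∃ (r : ℕ) (K : Subalgebra F (Matrix ι ι F)), r.Prime ∧ IsFieldSubalgebra r K ∧
    IsAdjointClosedFor (QuadraticMap.polar Q) K ∧ H ≤ subalgebraNormalizer K

/-- class 4, raw data: the polar form is `G₁ ⊗ G₂` -/
def OTensG (Q : (ι → F) → F) (H : Subgroup (GL ι F)) : Prop :=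
  ∃ (d s : ℕ) (e : ι ≃ Fin d × Fin s) (P : GL ι F) (G₁ : Matrix (Fin d) (Fin d) F)
    (G₂ : Matrix (Fin s) (Fin s) F), 2 ≤ d ∧ 2 ≤ s ∧ IsUnit G₁.det ∧ IsUnit G₂.det ∧
    (∀ x y : Fin d × Fin s → F, QuadraticMap.polar Q ((P : Matrix ι ι F) *ᵥ (x ∘ e))
      ((P : Matrix ι ι F) *ᵥ (y ∘ e)) = formOfGram id (G₁ ⊗ₖ G₂) x y) ∧
    H ≤ tensorProductSubgroup d s e P

/-- class 6, raw data: a minimal normalised non-scalar subgroup with scalar commutators -/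
def OC6 (H : Subgroup (GL ι F)) : Prop :=
  ∃ N : Subgroup (GL ι F), N ≤ H ∧ Nz H N ∧ ¬ N ≤ scalars ι F ∧ ⁅N, N⁆ ≤ scalars ι F ∧
    ActsAbsolutelyIrreducibly (matrixSet N) ∧
    ∀ N' : Subgroup (GL ι F), N' ≤ N → Nz H N' → N' ≤ scalars ι F ∨ N' = N

/-- class 7, raw data: the polar form is `G 0 ⊗ ... ⊗ G (k-1)`, the factor algebras are the enveloping
algebras of the `H`-conjugates of a perfect non-scalar subgroup `T` of `H` -/
def OWrG (Q : (ι → F) → F) (H : Subgroup (GL ι F)) : Prop :=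
  ∃ (k m : ℕ) (e : ι ≃ (Fin k → Fin m)) (P : GL ι F) (G : Fin k → Matrix (Fin m) (Fin m) F)
    (T : Subgroup (GL ι F)) (hh : Fin k → H), 2 ≤ m ∧ 2 ≤ k ∧ (∀ i, IsUnit (G i).det) ∧
    (∀ x y : (Fin k → Fin m) → F, QuadraticMap.polar Q ((P : Matrix ι ι F) *ᵥ (x ∘ e))
      ((P : Matrix ι ι F) *ᵥ (y ∘ e)) = ∑ a, ∑ b, x a * (∏ i, G i (a i) (b i)) * y b) ∧
    H ≤ tensorWreathSubgroup m k e P ∧ T ≤ H ∧ ⁅T, T⁆ = T ∧ ¬ T ≤ scalars ι F ∧
    ∀ (i : Fin k) (M : Matrix ι ι F), M ∈ env (cj (hh i : GL ι F) T) ↔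
      ∃ a : Matrix (Fin m) (Fin m) F, M = fac e P i a

/-- class 5, a subfield structure carrying a non-zero multiple of `Q` -/
def OSubZ [Fintype F] (Q : (ι → F) → F) (H : Subgroup (GL ι F)) : Prop :=
  ∃ (F₀ : Subfield F) (r : ℕ) (P : GL ι F) (ζ : F), r.Prime ∧ Fintype.card F = Nat.card F₀ ^ r ∧ ζ ≠ 0 ∧
    IsQuadFormRationalStructure (fun v : ι → F => ζ * Q v) F₀ P ∧ H ≤ subfieldSubgroup F₀ P

/-- THE INTERFACE of the general theorem
(`o_main_gen : H ≤ isometryGroup F Q → GenAlt Q H ∨ InOrthogonalResidualClass H`). -/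
def GenAlt [Fintype F] (Q : (ι → F) → F) (H : Subgroup (GL ι F)) : Prop :=
  OTS Q H ∨ OND Q H ∨ ONS Q H ∨ ODec Q H ∨ OPair Q H ∨ OFieldA Q H ∨ OTensG Q H ∨ OC6 H ∨ OWrG Q H ∨
  OSubZ Q H

end Cfsg.Agent.Lib.Helper58EDefs
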