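import Cfsg.Agent.Lib.Helper54OThree
import Cfsg.Agent.Lib.Helper58EDefs

set_option autoImplicit false
set_option linter.unusedSectionVars false

/-! PROJECT 5 = ASCH-O, piece `tensthree`. -/

namespace Cfsg.Agent.Lib.Helper7OTensthree

open Cfsg Cfsg.Geo Matrix
open Cfsg.Agent.Lib.Helper97GBase Cfsg.Agent.Lib.Helper96SpDefs
  Cfsg.Agent.Lib.Helper58ODefs Cfsg.Agent.Lib.Helper58EDefs Cfsg.Agent.Lib.Helper97OBase
  Cfsg.Agent.Lib.Helper54OThree
open scoped MatrixGroups Kronecker commutatorElement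

section blocks

variable {ι : Type} [Fintype ι] [DecidableEq ι] {F : Type*} [Field F] {t s : ℕ}

/-- the embedding of the `i`-th block -/
def J (i : Fin t) : (Fin s → F) →ₗ[F] (Fin t × Fin s → F) where
  toFun w := fun p => if p.1 = i then w p.2 else 0
  map_add' w w' := by
    funext p
    by_cases h : p.1 = i <;> simp [h]
  map_smul' c w := by
    funext p
    by_cases h : p.1 = i <;> simp [h]

lemma J_apply (i : Fin t) (w : Fin s → F) (p : Fin t × Fin s) :
    J i w p = if p.1 = i then w p.2 else 0 := rfl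

lemma J_inj (i : Fin t) : Function.Injective (J (F := F) (s := s) i) := by
  intro w w' h
  funext b
  have := congrFun h (i, b)
  simpa [J_apply] using this

lemma sum_J (x : Fin t × Fin s → F) : x = ∑ i, J i (fun b => x (i, b)) := by
  funext p
  obtain ⟨a, b⟩ := p
  rw [Finset.sum_apply]
  simp [J_apply]

/-- the `i`-th block -/
def blk (L : (Fin t × Fin s → F) ≃ₗ[F] (ι → F)) (i : Fin t) : Submodule F (ι → F) :=
  LinearMap.range (L.toLinearMap ∘ₗ J i)

lemma LJ_inj (L : (Fin t × Fin s → F) ≃ₗ[F] (ι → F)) (i : Fin t) :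
    Function.Injective (L.toLinearMap ∘ₗ J i) := by
  intro w w' h
  exact J_inj i (L.injective h)

/-- the parametrisation of the `i`-th block -/
noncomputable def blkEquiv (L : (Fin t × Fin s → F) ≃ₗ[F] (ι → F)) (i : Fin t) :
    (Fin s → F) ≃ₗ[F] blk L i :=
  LinearEquiv.ofInjective _ (LJ_inj L i)

lemma blkEquiv_apply (L : (Fin t × Fin s → F) ≃ₗ[F] (ι → F)) (i : Fin t) (w : Fin s → F) :
    ((blkEquiv L i w : blk L i) : ι → F) = L (J i w) := rfl

lemma mem_blk (L : (Fin t × Fin s → F) ≃ₗ[F] (ι → F)) (i : Fin t) (w : Fin s → F) :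
    L (J i w) ∈ blk L i := ⟨w, rfl⟩

theorem isM_blk (ht : 2 ≤ t) (hs : 1 ≤ s) (L : (Fin t × Fin s → F) ≃ₗ[F] (ι → F)) :
    IsMDecomposition s (blk L) where
  two_le := ht
  pos := hs
  finrank_eq i := by
    rw [blk, LinearMap.finrank_range_of_inj (LJ_inj L i)]
    simp
  indep := by
    rw [iSupIndep_def]
    intro i
    let E : Submodule F (ι → F) :=
      { carrier := {v | ∀ b, L.symm v (i, b) = 0}
        add_mem' := by
          intro a b ha hb c
          rw [map_add, Pi.add_apply, ha c, hb c, add_zero]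
        zero_mem' := by
          intro c
          rw [map_zero, Pi.zero_apply]
        smul_mem' := by
          intro a v hv c
          rw [map_smul, Pi.smul_apply, hv c, smul_zero] }
    have hle : (⨆ j, ⨆ (_ : j ≠ i), blk L j) ≤ E := by
      apply iSup₂_le
      rintro j hj _ ⟨w, rfl⟩ b
      simp only [LinearMap.comp_apply, LinearEquiv.coe_coe, LinearEquiv.symm_apply_apply, J_apply]
      rw [if_neg hj.symm]
    rw [Submodule.disjoint_def]
    rintro _ ⟨w, rfl⟩ hv'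
    have hE := hle hv'
    have hw : w = 0 := by
      funext b
      have := hE b
      simpa [J_apply] using this
    rw [hw, map_zero]
  iSup_eq_top := by
    rw [eq_top_iff]
    intro v _
    obtain ⟨x, rfl⟩ := L.surjective v
    rw [sum_J x, map_sum]
    apply Submodule.sum_mem
    intro j _
    exact Submodule.mem_iSup_of_mem j (mem_blk L j _)

lemma toLin'_inj (g : GL ι F) : Function.Injective (Matrix.toLin' (g : Matrix ι ι F)) := by
  intro x y hxy
  rw [Matrix.toLin'_apply, Matrix.toLin'_apply] at hxy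
  have := congrArg (fun v => ((g⁻¹ : GL ι F) : Matrix ι ι F) *ᵥ v) hxy
  simpa [Matrix.mulVec_mulVec] using this

theorem mem_stab_of_le' {m : ℕ} {D : Fin t → Submodule F (ι → F)} (hD : IsMDecomposition m D)
    (g : GL ι F) (h : ∀ i, ∃ j, ∀ v ∈ D i, (g : Matrix ι ι F) *ᵥ v ∈ D j) :
    g ∈ decompositionStabilizer D := by
  classical
  choose φ hφ using h
  have hginj := toLin'_inj g
  have hmap : ∀ i, (D i).map (Matrix.toLin' (g : Matrix ι ι F)) = D (φ i) := by
    intro i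
    apply Submodule.eq_of_le_of_finrank_eq
    · rintro _ ⟨v, hv, rfl⟩
      rw [Matrix.toLin'_apply]
      exact hφ i v hv
    · rw [← (Submodule.equivMapOfInjective _ hginj (D i)).finrank_eq, hD.finrank_eq, hD.finrank_eq]
  have hne : ∀ i, D i ≠ ⊥ := by
    intro i hb
    have h1 := hD.finrank_eq i
    rw [hb, finrank_bot] at h1
    have := hD.pos
    omega
  have hDinj : Function.Injective D := hD.indep.injective hne
  have hφinj : Function.Injective φ := by
    intro i i' hii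
    apply hDinj
    apply Submodule.map_injective_of_injective hginj
    rw [hmap, hmap, hii]
  exact ⟨Equiv.ofBijective φ (Finite.injective_iff_bijective.mp hφinj), hmap⟩

lemma dot_J (G : Matrix (Fin s) (Fin s) F) (i j : Fin t) (w w' : Fin s → F) :
    J i w ⬝ᵥ (((1 : Matrix (Fin t) (Fin t) F) ⊗ₖ G) *ᵥ J j w') =
      if i = j then w ⬝ᵥ (G *ᵥ w') else 0 := by
  simp only [dotProduct, Matrix.mulVec, Fintype.sum_prod_type, J_apply, Matrix.kroneckerMap_apply,
    Matrix.one_apply]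
  by_cases hij : i = j
  · subst hij
    simp
  · rw [if_neg hij]
    apply Finset.sum_eq_zero
    intro a _
    apply Finset.sum_eq_zero
    intro b _
    by_cases ha : a = i
    · subst ha
      simp [hij]
    · simp [ha]

lemma kron_J (C : Matrix (Fin t) (Fin t) F) (B : Matrix (Fin s) (Fin s) F) (i j : Fin t) (c : F)
    (hC : C *ᵥ Pi.single i 1 = c • Pi.single j 1) (w : Fin s → F) :
    (C ⊗ₖ B) *ᵥ J i w = J j (c • (B *ᵥ w)) := by
  funext p
  obtain ⟨a, b⟩ := p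
  have h1 : C a i = if a = j then c else 0 := by
    have := congrFun hC a
    rw [Matrix.mulVec_single_one] at this
    simpa [Pi.single_apply] using this
  simp only [dotProduct, Matrix.mulVec, Fintype.sum_prod_type, J_apply, Matrix.kroneckerMap_apply]
  rw [Finset.sum_eq_single i]
  · simp only [if_true, h1]
    by_cases ha : a = j
    · simp [ha, Matrix.mulVec, dotProduct, Finset.mul_sum, mul_assoc]
    · simp [ha]
  · intro a' _ ha'
    simp [ha']
  · intro h
    exact absurd (Finset.mem_univ i) h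

variable {Q : (ι → F) → F}

theorem orth_blk (hQ : IsNondegenerateQuadraticForm Q) (h2 : (2 : F) ≠ 0) (ht : 2 ≤ t) (hs : 1 ≤ s)
    (L : (Fin t × Fin s → F) ≃ₗ[F] (ι → F)) (G : Matrix (Fin s) (Fin s) F) (hG : IsUnit G.det)
    (hform : ∀ x y, QuadraticMap.polar Q (L x) (L y) =
      x ⬝ᵥ (((1 : Matrix (Fin t) (Fin t) F) ⊗ₖ G) *ᵥ y)) :
    IsOrthogonalMDecomposition Q s (blk L) := by
  have hQv : ∀ v, Q v = QuadraticMap.polar Q v v / 2 := by
    intro v
    have h3 : v + v = (2 : F) • v := by rw [two_smul]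
    rw [QuadraticMap.polar, h3, hQ.smul]
    field_simp
    ring
  refine ⟨⟨isM_blk ht hs L, ?_, ?_⟩, ?_⟩
  · rintro i _ ⟨w, rfl⟩ hw0
    have hw : w ≠ 0 := by
      rintro rfl
      exact hw0 (map_zero _)
    have hGw : G *ᵥ w ≠ 0 := by
      intro h0
      exact hG.ne_zero (Matrix.exists_mulVec_eq_zero_iff.1 ⟨w, hw, h0⟩)
    obtain ⟨b, hb⟩ : ∃ b, (G *ᵥ w) b ≠ 0 := by
      by_contra hcon
      push Not at hcon
      exact hGw (funext hcon)
    have key : QuadraticMap.polar Q (L (J i (Pi.single b 1))) (L (J i w)) ≠ 0 := by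
      rw [hform, dot_J, if_pos rfl, single_one_dotProduct]
      exact hb
    refine ⟨⟨_, mem_blk L i (Pi.single b 1), key⟩, ⟨_, mem_blk L i (Pi.single b 1), ?_⟩⟩
    rw [QuadraticMap.polar_comm]
    exact key
  · rintro i j hij _ ⟨w, rfl⟩ _ ⟨w', rfl⟩
    simp only [LinearMap.comp_apply, LinearEquiv.coe_coe]
    rw [hform, dot_J, if_neg hij]
  · intro i j
    refine ⟨(blkEquiv L i).symm.trans (blkEquiv L j), ?_⟩
    intro v
    obtain ⟨w, rfl⟩ := (blkEquiv L i).surjective v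
    rw [LinearEquiv.trans_apply, LinearEquiv.symm_apply_apply, blkEquiv_apply, blkEquiv_apply,
      hQv, hQv (L (J i w)), hform, hform, dot_J, dot_J, if_pos rfl, if_pos rfl]

end blocks

section main

variable {ι : Type} [Fintype ι] [DecidableEq ι] {F : Type*} [Field F]
variable {Q : (ι → F) → F} {H : Subgroup (GL ι F)}

lemma kron_eq_left {d s : ℕ} (X G₁ : Matrix (Fin d) (Fin d) F) (Y G₂ : Matrix (Fin s) (Fin s) F)
    (hG₁ : G₁ ≠ 0) (hG₂ : G₂ ≠ 0) (h : X ⊗ₖ Y = G₁ ⊗ₖ G₂) : ∃ μ : F, X = μ • G₁ := by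
  have ex1 : ∃ a₀ b₀, G₁ a₀ b₀ ≠ 0 := by
    by_contra hcon
    push Not at hcon
    exact hG₁ (by ext a b; exact hcon a b)
  have ex2 : ∃ a₀ b₀, G₂ a₀ b₀ ≠ 0 := by
    by_contra hcon
    push Not at hcon
    exact hG₂ (by ext a b; exact hcon a b)
  obtain ⟨a₁, b₁, h1⟩ := ex1
  obtain ⟨a₂, b₂, h2⟩ := ex2
  have key : ∀ a b, X a b * Y a₂ b₂ = G₁ a b * G₂ a₂ b₂ := by
    intro a b
    have := congrFun (congrFun h (a, a₂)) (b, b₂)
    simpa [Matrix.kroneckerMap_apply] using this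
  have hY : Y a₂ b₂ ≠ 0 := by
    intro h0
    have := key a₁ b₁
    rw [h0, mul_zero] at this
    exact mul_ne_zero h1 h2 this.symm
  refine ⟨G₂ a₂ b₂ / Y a₂ b₂, ?_⟩
  ext a b
  rw [Matrix.smul_apply, smul_eq_mul]
  field_simp
  linear_combination key a b

/-- [tensthree] `q = 3`: `O₃(3) ⊗ O_s(3)` stabilises a decomposition into three isometric blocks. -/
theorem tens_three [Fintype F] (hq : Fintype.card F = 3) (hQ : IsNondegenerateQuadraticForm Q)
    (hH : H ≤ isometryGroup F Q) {s : ℕ} (hs : 1 ≤ s) (e : ι ≃ Fin 3 × Fin s) (P : GL ι F)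
    (G₁ : Matrix (Fin 3) (Fin 3) F) (G₂ : Matrix (Fin s) (Fin s) F)
    (h₁ : IsUnit G₁.det) (h₂ : IsUnit G₂.det)
    (hG : ∀ x y : Fin 3 × Fin s → F, QuadraticMap.polar Q ((P : Matrix ι ι F) *ᵥ (x ∘ e))
      ((P : Matrix ι ι F) *ᵥ (y ∘ e)) = formOfGram id (G₁ ⊗ₖ G₂) x y)
    (hs₁ : G₁ᵀ = G₁) (hs₂ : G₂ᵀ = G₂) (hle : H ≤ tensorProductSubgroup 3 s e P) :
    ∃ D : Fin 3 → Submodule F (ι → F), IsOrthogonalMDecomposition Q s D ∧
      H ≤ decompositionStabilizer D := by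
  classical
  have hoddF : Odd (Fintype.card F) := by rw [hq]; decide
  have h2 : (2 : F) ≠ 0 := Cfsg.Agent.Lib.Helper54OSim.two_ne_zero_of_odd hoddF
  obtain ⟨c₁, B, hc₁, hB⟩ := Cfsg.Agent.Lib.Helper54OSim.sym_similar hoddF (by decide : Odd 3) 1 G₁
    Matrix.transpose_one hs₁ (by simp) h₁
  rw [mul_one] at hB
  set Bm : Matrix (Fin 3) (Fin 3) F := (B : Matrix (Fin 3) (Fin 3) F) with hBm
  set Bi : Matrix (Fin 3) (Fin 3) F := ((B⁻¹ : GL (Fin 3) F) : Matrix (Fin 3) (Fin 3) F) with hBi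
  have hBB : Bm * Bi = 1 := by rw [hBm, hBi, ← Units.val_mul, mul_inv_cancel, Units.val_one]
  have hBB' : Bi * Bm = 1 := by rw [hBm, hBi, ← Units.val_mul, inv_mul_cancel, Units.val_one]
  set GG : Matrix (Fin 3 × Fin s) (Fin 3 × Fin s) F := G₁ ⊗ₖ G₂ with hGG
  set N : Matrix (Fin 3 × Fin s) (Fin 3 × Fin s) F := Bi ⊗ₖ (1 : Matrix (Fin s) (Fin s) F) with hN
  set N' : Matrix (Fin 3 × Fin s) (Fin 3 × Fin s) F := Bm ⊗ₖ (1 : Matrix (Fin s) (Fin s) F) with hN'
  have hNN' : N * N' = 1 := by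
    rw [hN, hN', ← Matrix.mul_kronecker_mul, hBB', one_mul, Matrix.one_kronecker_one]
  have hN'N : N' * N = 1 := by
    rw [hN, hN', ← Matrix.mul_kronecker_mul, hBB, one_mul, Matrix.one_kronecker_one]
  have hform' : ∀ x y : Fin 3 × Fin s → F,
      QuadraticMap.polar Q ((P : Matrix ι ι F) *ᵥ (x ∘ e)) ((P : Matrix ι ι F) *ᵥ (y ∘ e)) =
        x ⬝ᵥ (GG *ᵥ y) := by
    intro x y
    rw [hG]
    simp only [formOfGram, dotProduct, Matrix.mulVec, Finset.mul_sum, id, mul_assoc]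
  have hPP : (P : Matrix ι ι F) * ((P⁻¹ : GL ι F) : Matrix ι ι F) = 1 := by
    rw [← Units.val_mul, mul_inv_cancel, Units.val_one]
  have hPP' : ((P⁻¹ : GL ι F) : Matrix ι ι F) * (P : Matrix ι ι F) = 1 := by
    rw [← Units.val_mul, inv_mul_cancel, Units.val_one]
  set L : (Fin 3 × Fin s → F) ≃ₗ[F] (ι → F) :=
    ((Matrix.toLin'OfInv hN'N hNN').trans (LinearEquiv.funCongrLeft F F e)).trans
      (Matrix.toLin'OfInv hPP' hPP) with hL
  have hLapp : ∀ x, L x = (P : Matrix ι ι F) *ᵥ ((N *ᵥ x) ∘ e) := by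
    intro x
    rfl
  have hNGN : Nᵀ * GG * N = (1 : Matrix (Fin 3) (Fin 3) F) ⊗ₖ (c₁ • G₂) := by
    rw [hN, hGG, ← Matrix.kroneckerMap_transpose, ← Matrix.mul_kronecker_mul,
      ← Matrix.mul_kronecker_mul, Matrix.transpose_one, one_mul, mul_one, hB, Matrix.mul_smul,
      Matrix.smul_mul, ← Matrix.mul_assoc, ← Matrix.transpose_mul, hBB, Matrix.transpose_one,
      Matrix.one_mul, hBB, Matrix.smul_kronecker, Matrix.kronecker_smul]
  have hdet : IsUnit (c₁ • G₂).det := by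
    rw [Matrix.det_smul]
    exact (IsUnit.mk0 _ (pow_ne_zero _ hc₁)).mul h₂
  have hLform : ∀ x y, QuadraticMap.polar Q (L x) (L y) =
      x ⬝ᵥ (((1 : Matrix (Fin 3) (Fin 3) F) ⊗ₖ (c₁ • G₂)) *ᵥ y) := by
    intro x y
    rw [hLapp, hLapp, hform', dot_conj, hNGN]
  have hD := orth_blk hQ h2 (by norm_num) hs L (c₁ • G₂) hdet hLform
  refine ⟨blk L, hD, ?_⟩
  intro h hh
  obtain ⟨_, ⟨k, ⟨a, b, hk⟩, rfl⟩, rfl⟩ := hle hh
  set A : Matrix (Fin 3) (Fin 3) F := (a : Matrix (Fin 3) (Fin 3) F) with hA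
  set Bb : Matrix (Fin s) (Fin s) F := (b : Matrix (Fin s) (Fin s) F) with hBb
  set S : Matrix (Fin 3 × Fin s) (Fin 3 × Fin s) F := A ⊗ₖ Bb with hS
  have hact : ∀ x : Fin 3 × Fin s → F,
      (((MulAut.conj P).toMonoidHom ((glReindex e.symm).toMonoidHom k) : GL ι F) :
        Matrix ι ι F) *ᵥ ((P : Matrix ι ι F) *ᵥ (x ∘ e)) = (P : Matrix ι ι F) *ᵥ ((S *ᵥ x) ∘ e) := by
    intro x
    rw [← hk]
    exact conj_reindex_mulVec e P _ x
  have hiso : Sᵀ * GG * S = GG := by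
    apply eq_of_dot
    intro x y
    have h1 := polar_iso (hH hh) ((P : Matrix ι ι F) *ᵥ (x ∘ e)) ((P : Matrix ι ι F) *ᵥ (y ∘ e))
    rw [hact, hact, hform', hform', dot_conj] at h1
    exact h1
  have hkr : (Aᵀ * G₁ * A) ⊗ₖ (Bbᵀ * G₂ * Bb) = G₁ ⊗ₖ G₂ := by
    rw [← hGG, ← hiso, hS, hGG, ← Matrix.kroneckerMap_transpose, ← Matrix.mul_kronecker_mul,
      ← Matrix.mul_kronecker_mul]
  have hG₁0 : G₁ ≠ 0 := by
    rintro h0
    rw [h0] at h₁
    simp at h₁
  have hG₂0 : G₂ ≠ 0 := by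
    rintro h0
    rw [h0] at h₂
    haveI : Nonempty (Fin s) := ⟨⟨0, hs⟩⟩
    simp at h₂
  have hAi : Aᵀ * G₁ * A = G₁ := by
    obtain ⟨μ, hμ⟩ := kron_eq_left _ G₁ _ G₂ hG₁0 hG₂0 hkr
    have hd := congrArg Matrix.det hμ
    rw [Matrix.det_mul, Matrix.det_mul, Matrix.det_transpose, Matrix.det_smul, Fintype.card_fin,
      cube_eq hq] at hd
    have hdA : A.det ≠ 0 := by
      have : IsUnit A.det := (Matrix.isUnit_iff_isUnit_det _).1 a.isUnit
      exact this.ne_zero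
    have h1 : A.det ^ 2 = 1 := sq_eq_one hq hdA
    have h3 : μ = 1 := by
      apply mul_right_cancel₀ h₁.ne_zero
      rw [← hd, one_mul]
      linear_combination G₁.det * h1
    rw [hμ, h3, one_smul]
  have hG0 : Aᵀ * (Bmᵀ * Bm) * A = Bmᵀ * Bm := by
    have h1 := hAi
    rw [hB, Matrix.mul_smul, Matrix.smul_mul] at h1
    exact smul_right_injective _ hc₁ h1
  set C : Matrix (Fin 3) (Fin 3) F := Bm * A * Bi with hC
  have hCorth : Cᵀ * C = 1 := by
    have h1 : Cᵀ * C = Biᵀ * (Aᵀ * (Bmᵀ * Bm) * A) * Bi := by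
      simp only [hC, Matrix.transpose_mul, Matrix.mul_assoc]
    rw [h1, hG0, ← Matrix.mul_assoc, ← Matrix.transpose_mul, hBB, Matrix.transpose_one,
      Matrix.one_mul, hBB]
  have hmono : Mono C := mono_of_orth hq _ hCorth
  have hSN : S * N = N * (C ⊗ₖ Bb) := by
    rw [hS, hN, ← Matrix.mul_kronecker_mul, ← Matrix.mul_kronecker_mul, hC, ← Matrix.mul_assoc,
      ← Matrix.mul_assoc, hBB', Matrix.one_mul, mul_one, one_mul]
  apply mem_stab_of_le' hD.decomp.decomp
  intro i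
  obtain ⟨j, c', _, hj⟩ := hmono i
  refine ⟨j, ?_⟩
  rintro _ ⟨w, rfl⟩
  simp only [LinearMap.comp_apply, LinearEquiv.coe_coe]
  rw [hLapp, hact, Matrix.mulVec_mulVec, hSN, ← Matrix.mulVec_mulVec, kron_J C Bb i j c' hj, ← hLapp]
  exact mem_blk L j _

end main

end Cfsg.Agent.Lib.Helper7OTensthree
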