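import Cfsg.Agent.Lib.Helper97OBase

set_option autoImplicit false

/-! PROJECT 5 = ASCH-O, piece `tensplus`. -/

namespace Cfsg.Agent.Lib.Helper92OTensplus

open Cfsg Cfsg.Geo Matrix
open Cfsg.Agent.Lib.Helper97OBase
open scoped MatrixGroups Kronecker

variable {ι : Type} [Fintype ι] [DecidableEq ι] {F : Type*} [Field F]
variable {Q : (ι → F) → F}

lemma fog_add_left {s : ℕ} (G : Matrix (Fin s) (Fin s) F) (x x' y : Fin s → F) :
    formOfGram id G (x + x') y = formOfGram id G x y + formOfGram id G x' y := by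
  simp only [formOfGram, Pi.add_apply, add_mul, Finset.sum_add_distrib]

lemma fog_add_right {s : ℕ} (G : Matrix (Fin s) (Fin s) F) (x y y' : Fin s → F) :
    formOfGram id G x (y + y') = formOfGram id G x y + formOfGram id G x y' := by
  simp only [formOfGram, Pi.add_apply, mul_add, id, Finset.sum_add_distrib]

lemma fog_symm {s : ℕ} (G : Matrix (Fin s) (Fin s) F) (hG : Gᵀ = G) (x y : Fin s → F) :
    formOfGram id G x y = formOfGram id G y x := by
  simp only [formOfGram, id]
  rw [Finset.sum_comm]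
  refine Finset.sum_congr rfl fun a _ => Finset.sum_congr rfl fun b _ => ?_
  have : G b a = G a b := by
    conv_lhs => rw [← hG]
    rfl
  rw [this]; ring

lemma fog_kron {d s : ℕ} (G₁ : Matrix (Fin d) (Fin d) F) (G₂ : Matrix (Fin s) (Fin s) F)
    (u v : Fin d → Fin s → F) :
    formOfGram id (G₁ ⊗ₖ G₂) (fun ab : Fin d × Fin s => u ab.1 ab.2) (fun ab => v ab.1 ab.2) =
      ∑ a, ∑ a', G₁ a a' * formOfGram id G₂ (u a) (v a') := by
  simp only [formOfGram, id, Fintype.sum_prod_type, Matrix.kroneckerMap_apply, Finset.mul_sum]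
  refine Finset.sum_congr rfl fun a _ => ?_
  rw [Finset.sum_comm]
  refine Finset.sum_congr rfl fun a' _ => Finset.sum_congr rfl fun b _ =>
    Finset.sum_congr rfl fun b' _ => ?_
  ring

/-- [tensplus] `q` odd, `polar Q = G₁ ⊗ G₂`, `G₂` symmetric of plus type: `Q` is of plus type. -/
theorem plus_of_tens_plus (h2 : (2 : F) ≠ 0) (hQ : IsNondegenerateQuadraticForm Q) {d s : ℕ}
    (e : ι ≃ Fin d × Fin s) (P : GL ι F) (G₁ : Matrix (Fin d) (Fin d) F) (G₂ : Matrix (Fin s) (Fin s) F)
    (hG : ∀ x y : Fin d × Fin s → F, QuadraticMap.polar Q ((P : Matrix ι ι F) *ᵥ (x ∘ e))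
      ((P : Matrix ι ι F) *ᵥ (y ∘ e)) = formOfGram id (G₁ ⊗ₖ G₂) x y) (hs₂ : G₂ᵀ = G₂)
    (hplus : IsPlusTypeOn (fun v : Fin s → F => formOfGram id G₂ v v) ⊤) : IsPlusTypeOn Q ⊤ := by
  obtain ⟨U₂, -, hU₂, hfr⟩ := hplus
  have hB : ∀ u ∈ U₂, ∀ v ∈ U₂, formOfGram id G₂ u v = 0 := by
    intro u hu v hv
    have h1 : formOfGram id G₂ (u + v) (u + v) = 0 := hU₂ _ (U₂.add_mem hu hv)
    have h3 : formOfGram id G₂ u u = 0 := hU₂ _ hu
    have h4 : formOfGram id G₂ v v = 0 := hU₂ _ hv
    rw [fog_add_left, fog_add_right, fog_add_right, h3, h4, fog_symm G₂ hs₂ v u] at h1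
    have : 2 * formOfGram id G₂ u v = 0 := by linear_combination h1
    exact (mul_eq_zero.mp this).resolve_left h2
  let L : (Fin d → U₂) →ₗ[F] (ι → F) :=
    { toFun := fun u => (P : Matrix ι ι F) *ᵥ ((fun ab : Fin d × Fin s => (u ab.1 : Fin s → F) ab.2) ∘ e)
      map_add' := by
        intro u v
        rw [← Matrix.mulVec_add]
        congr 1
      map_smul' := by
        intro c u
        rw [RingHom.id_apply, ← Matrix.mulVec_smul]
        congr 1 }
  have hLinj : Function.Injective L := by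
    intro u v huv
    have h1 : ((fun ab : Fin d × Fin s => (u ab.1 : Fin s → F) ab.2) ∘ e) =
        ((fun ab : Fin d × Fin s => (v ab.1 : Fin s → F) ab.2) ∘ e) := by
      have := congrArg (fun w => ((P⁻¹ : GL ι F) : Matrix ι ι F) *ᵥ w) huv
      simpa [L, Matrix.mulVec_mulVec, ← Units.val_mul] using this
    funext a
    apply Subtype.ext
    funext b
    have := congrFun h1 (e.symm (a, b))
    simpa using this
  refine ⟨LinearMap.range L, le_top, ?_, ?_⟩
  · rintro _ ⟨u, rfl⟩
    have h1 : QuadraticMap.polar Q (L u) (L u) = 0 := by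
      show QuadraticMap.polar Q ((P : Matrix ι ι F) *ᵥ _) ((P : Matrix ι ι F) *ᵥ _) = 0
      rw [hG, fog_kron G₁ G₂ (fun a => (u a : Fin s → F)) (fun a => (u a : Fin s → F))]
      refine Finset.sum_eq_zero fun a _ => Finset.sum_eq_zero fun a' _ => ?_
      rw [hB _ (u a).2 _ (u a').2, mul_zero]
    have h3 : Q (L u + L u) = 4 * Q (L u) := by
      rw [← two_smul F (L u), hQ.smul]; norm_num
    have h4 : 2 * Q (L u) = 0 := by
      rw [QuadraticMap.polar, h3] at h1
      linear_combination h1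
    exact (mul_eq_zero.mp h4).resolve_left h2
  · rw [LinearMap.finrank_range_of_inj hLinj, Module.finrank_pi_fintype, finrank_top,
      Module.finrank_fintype_fun_eq_card, Fintype.card_congr e]
    rw [finrank_top, Module.finrank_fintype_fun_eq_card, Fintype.card_fin] at hfr
    simp only [Finset.sum_const, Finset.card_univ, Fintype.card_fin, smul_eq_mul, Fintype.card_prod]
    calc 2 * (d * Module.finrank F U₂) = d * (2 * Module.finrank F U₂) := by ring
      _ = d * s := by rw [hfr]

end Cfsg.Agent.Lib.Helper92OTensplus
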