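import Cfsg.Agent.Lib.Helper58AschG
import Cfsg.Agent.Lib.Helper92OTensplus
import Cfsg.Agent.Lib.Helper7OTensthree

set_option autoImplicit false

/-! PROJECT 5 = ASCH-O, PART 2d: two more pieces for `Ω₁₂⁻(q)`. -/

namespace Cfsg.Agent.Lib.Helper58AschH

open Cfsg Cfsg.Geo Matrix
open Cfsg.Agent.Lib.Helper97GBase Cfsg.Agent.Lib.Helper96SpDefs
  Cfsg.Agent.Lib.Helper58ODefs Cfsg.Agent.Lib.Helper58EDefs Cfsg.Agent.Lib.Helper97OBase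
open scoped MatrixGroups Kronecker commutatorElement

variable {ι : Type} [Fintype ι] [DecidableEq ι] {F : Type*} [Field F]
variable {Q : (ι → F) → F} {H : Subgroup (GL ι F)}

/-- [tensplus] `q` odd, `polar Q = G₁ ⊗ G₂`, `G₂` symmetric of plus type: `Q` is of plus type. -/
theorem plus_of_tens_plus (h2 : (2 : F) ≠ 0) (hQ : IsNondegenerateQuadraticForm Q) {d s : ℕ}
    (e : ι ≃ Fin d × Fin s) (P : GL ι F) (G₁ : Matrix (Fin d) (Fin d) F) (G₂ : Matrix (Fin s) (Fin s) F)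
    (hG : ∀ x y : Fin d × Fin s → F, QuadraticMap.polar Q ((P : Matrix ι ι F) *ᵥ (x ∘ e))
      ((P : Matrix ι ι F) *ᵥ (y ∘ e)) = formOfGram id (G₁ ⊗ₖ G₂) x y) (hs₂ : G₂ᵀ = G₂)
    (hplus : IsPlusTypeOn (fun v : Fin s → F => formOfGram id G₂ v v) ⊤) : IsPlusTypeOn Q ⊤ :=
  Cfsg.Agent.Lib.Helper92OTensplus.plus_of_tens_plus h2 hQ e P G₁ G₂ hG hs₂ hplus

/-- [tensthree] `q = 3`: `O₃(3) ⊗ O_s(3)` stabilises a decomposition into three isometric blocks. -/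
theorem tens_three [Fintype F] (hq : Fintype.card F = 3) (hQ : IsNondegenerateQuadraticForm Q)
    (hH : H ≤ isometryGroup F Q) {s : ℕ} (hs : 1 ≤ s) (e : ι ≃ Fin 3 × Fin s) (P : GL ι F)
    (G₁ : Matrix (Fin 3) (Fin 3) F) (G₂ : Matrix (Fin s) (Fin s) F)
    (h₁ : IsUnit G₁.det) (h₂ : IsUnit G₂.det)
    (hG : ∀ x y : Fin 3 × Fin s → F, QuadraticMap.polar Q ((P : Matrix ι ι F) *ᵥ (x ∘ e))
      ((P : Matrix ι ι F) *ᵥ (y ∘ e)) = formOfGram id (G₁ ⊗ₖ G₂) x y)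
    (hs₁ : G₁ᵀ = G₁) (hs₂ : G₂ᵀ = G₂) (hle : H ≤ tensorProductSubgroup 3 s e P) :
    ∃ D : Fin 3 → Submodule F (ι → F), IsOrthogonalMDecomposition Q s D ∧
      H ≤ decompositionStabilizer D :=
  Cfsg.Agent.Lib.Helper7OTensthree.tens_three hq hQ hH hs e P G₁ G₂ h₁ h₂ hG hs₁ hs₂ hle

end Cfsg.Agent.Lib.Helper58AschH
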