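import Cfsg.Agent.Lib.Helper95OFrame3

set_option autoImplicit false
set_option linter.unusedSectionVars false

/-! PROJECT 5 = ASCH-O, PART 3: piece `planes3m`. -/

namespace Cfsg.Agent.Lib.Helper94OPlanes3m

open Cfsg Cfsg.Geo Matrix Cfsg.Agent.Lib.Helper97GBase Cfsg.Agent.Lib.Helper97GForms
  Cfsg.Agent.Lib.Helper95Quad Cfsg.Agent.Lib.Helper95Form Cfsg.Agent.Lib.Helper95Basic
  Cfsg.Agent.Lib.Helper97OBase Cfsg.Agent.Lib.Helper97OProper Cfsg.Agent.Lib.Helper58ODefs
  Cfsg.Agent.Lib.Helper95O3 Cfsg.Agent.Lib.Helper95OFrame3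
open scoped MatrixGroups

variable {ι : Type} [Fintype ι] [DecidableEq ι] {F : Type*} [Field F]
variable {Q : (ι → F) → F} {H : Subgroup (GL ι F)}

lemma Q_add (u w : ι → F) : Q (u + w) = Q u + Q w + QuadraticMap.polar Q u w := by
  unfold QuadraticMap.polar; ring

/-- a plane which is not of plus type is anisotropic -/
lemma aniso (hQ : IsNondegenerateQuadraticForm Q) {W : Submodule F (ι → F)}
    (hW : Module.finrank F W = 2) (hminus : ¬ IsPlusTypeOn Q W) : ∀ v ∈ W, v ≠ 0 → Q v ≠ 0 := by
  intro v hv hv0 hQv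
  apply hminus
  refine ⟨Submodule.span F {v}, ?_, ?_, ?_⟩
  · rw [Submodule.span_singleton_le_iff_mem]; exact hv
  · intro w hw
    obtain ⟨c, rfl⟩ := Submodule.mem_span_singleton.1 hw
    rw [hQ.smul, hQv, mul_zero]
  · rw [finrank_span_singleton hv0, hW]

/-- an orthogonal frame of constant norm in an anisotropic plane over `F_3` -/
lemma exists_frame2 [Fintype F] (hq : Fintype.card F = 3) (hQ : IsNondegenerateQuadraticForm Q)
    {W : Submodule F (ι → F)} (hW : Module.finrank F W = 2) (hminus : ¬ IsPlusTypeOn Q W) :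
    ∃ (ε : F) (a b : ι → F), ε ≠ 0 ∧ a ∈ W ∧ b ∈ W ∧ Q a = ε ∧ Q b = ε ∧
      QuadraticMap.polar Q a b = 0 := by
  have h2 : (2 : F) ≠ 0 := two_ne_zero3 hq
  have hb := hQ.polar_bilinear
  have han := aniso hQ hW hminus
  have hWne : W ≠ ⊥ := by
    rintro rfl
    rw [finrank_bot] at hW
    omega
  obtain ⟨a, ha, ha0⟩ := Submodule.exists_mem_ne_zero_of_ne_bot hWne
  have hε := han a ha ha0
  obtain ⟨w, hw, hwa⟩ : ∃ w ∈ W, w ∉ Submodule.span F {a} := by
    by_contra h
    push Not at h
    have h1 : W ≤ Submodule.span F {a} := h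
    have h3 := Submodule.finrank_mono h1
    rw [finrank_span_singleton ha0, hW] at h3
    omega
  obtain ⟨c, hc⟩ : ∃ c : F, c = QuadraticMap.polar Q a w / (2 * Q a) := ⟨_, rfl⟩
  have hbW : w - c • a ∈ W := W.sub_mem hw (W.smul_mem c ha)
  have hb0 : w - c • a ≠ 0 := by
    intro h
    apply hwa
    rw [sub_eq_zero.1 h]
    exact Submodule.smul_mem _ _ (Submodule.mem_span_singleton_self a)
  have hab : QuadraticMap.polar Q a (w - c • a) = 0 := by
    rw [sub_eq_add_neg, ← neg_smul, hb.add_right, hb.smul_right, polar_self hQ, hc]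
    field_simp
    ring
  have hQb := han _ hbW hb0
  have hcase : Q (w - c • a) = Q a ∨ Q (w - c • a) = - Q a := by
    rcases cases3 hq (Q a) with h | h | h
    · exact absurd h hε
    · rcases cases3 hq (Q (w - c • a)) with h' | h' | h'
      · exact absurd h' hQb
      · left; rw [h, h']
      · right; rw [h, h']
    · rcases cases3 hq (Q (w - c • a)) with h' | h' | h'
      · exact absurd h' hQb
      · right; rw [h, h']; ring
      · left; rw [h, h']
  rcases hcase with h | h
  · exact ⟨Q a, a, w - c • a, hε, ha, hbW, rfl, h, hab⟩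
  · exfalso
    have h1 : Q (a + (w - c • a)) = 0 := by rw [Q_add (Q := Q), h, hab]; ring
    have h3 : a + (w - c • a) ≠ 0 := by
      intro h0
      have h4 : w - c • a = (-1 : F) • a := by rw [neg_one_smul]; exact (neg_eq_of_add_eq_zero_right h0).symm
      rw [h4, hb.smul_right, polar_self hQ] at hab
      exact mul_ne_zero (neg_ne_zero.2 one_ne_zero) (mul_ne_zero h2 hε) hab
    exact han _ (W.add_mem ha hbW) h3 h1

/-- the vectors of norm `ε` are `± a`, `± b` -/
lemma frame2_unique [Fintype F] (hq : Fintype.card F = 3) (hQ : IsNondegenerateQuadraticForm Q)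
    {W : Submodule F (ι → F)} (hW : Module.finrank F W = 2) {ε : F} {a b : ι → F} (hε : ε ≠ 0)
    (ha : a ∈ W) (hbW : b ∈ W) (hQa : Q a = ε) (hQb : Q b = ε) (hab : QuadraticMap.polar Q a b = 0)
    {v : ι → F} (hv : v ∈ W) (hQv : Q v = ε) : v = a ∨ v = -a ∨ v = b ∨ v = -b := by
  have h2 : (2 : F) ≠ 0 := two_ne_zero3 hq
  have h3 := three_eq_zero hq
  have hb := hQ.polar_bilinear
  have hli : LinearIndependent F ![a, b] := by
    rw [LinearIndependent.pair_iff]
    intro s t hst
    have h1 : QuadraticMap.polar Q a (s • a + t • b) = 0 := by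
      rw [hst]
      have := hb.smul_right 0 a 0
      rwa [zero_smul, zero_mul] at this
    have h4 : QuadraticMap.polar Q (s • a + t • b) b = 0 := by
      rw [hst]
      have := hb.smul_left 0 0 b
      rwa [zero_smul, zero_mul] at this
    rw [hb.add_right, hb.smul_right, hb.smul_right, hab, polar_self hQ, hQa] at h1
    rw [hb.add_left, hb.smul_left, hb.smul_left, hab, polar_self hQ, hQb] at h4
    constructor
    · have : s * (2 * ε) = 0 := by linear_combination h1
      exact (mul_eq_zero.1 this).resolve_right (mul_ne_zero h2 hε)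
    · have : t * (2 * ε) = 0 := by linear_combination h4
      exact (mul_eq_zero.1 this).resolve_right (mul_ne_zero h2 hε)
  have hspan : Submodule.span F (Set.range ![a, b]) = W := by
    apply Submodule.eq_of_le_of_finrank_eq
    · rw [Submodule.span_le]
      rintro _ ⟨i, rfl⟩
      fin_cases i
      · exact ha
      · exact hbW
    · rw [finrank_span_eq_card hli, hW, Fintype.card_fin]
  rw [← hspan, Matrix.range_cons, Matrix.range_cons, Matrix.range_empty, Set.union_empty,
    Set.singleton_union, Submodule.mem_span_pair] at hv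
  obtain ⟨x, y, rfl⟩ := hv
  rw [Q_add (Q := Q), hQ.smul, hQ.smul, hb.smul_left, hb.smul_right, hab, hQa, hQb] at hQv
  have hxy : x ^ 2 + y ^ 2 = 1 := by
    apply mul_right_cancel₀ hε
    linear_combination hQv
  rcases cases3 hq x with hx | hx | hx <;> rcases cases3 hq y with hy | hy | hy <;>
    subst hx <;> subst hy
  · exfalso; apply one_ne_zero (α := F); linear_combination -hxy
  · right; right; left; simp
  · right; right; right; simp
  · left; simp
  · exfalso; apply one_ne_zero (α := F); linear_combination hxy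
  · exfalso; apply one_ne_zero (α := F); linear_combination hxy
  · right; left; simp
  · exfalso; apply one_ne_zero (α := F); linear_combination hxy
  · exfalso; apply one_ne_zero (α := F); linear_combination hxy

/-- [planes3m] `q = 3`: isometric anisotropic planes split canonically into two lines. -/
theorem planes_three_minus [Fintype F] (hq : Fintype.card F = 3) (hQ : IsNondegenerateQuadraticForm Q)
    (hH : H ≤ isometryGroup F Q) {t : ℕ} (D : Fin t → Submodule F (ι → F))
    (hD : IsOrthogonalMDecomposition Q 2 D) (hminus : ∀ i, ¬ IsPlusTypeOn Q (D i))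
    (hle : H ≤ decompositionStabilizer D) : ODecOne Q H := by
  classical
  have h2 : (2 : F) ≠ 0 := two_ne_zero3 hq
  have hb := hQ.polar_bilinear
  have ht := hD.decomp.decomp.two_le
  have hsymm : ∀ x y, QuadraticMap.polar Q x y = QuadraticMap.polar Q y x :=
    fun x y => QuadraticMap.polar_comm Q x y
  let i0 : Fin t := ⟨0, by omega⟩
  have hfr : ∀ i, Module.finrank F (D i) = 2 := hD.decomp.decomp.finrank_eq
  obtain ⟨ε, x, y, hε, hx, hy, hQx, hQy, hxy⟩ := exists_frame2 hq hQ (hfr i0) (hminus i0)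
  choose e he using fun i => hD.isometric i0 i
  have hpol : ∀ i (u v : D i0), QuadraticMap.polar Q (e i u : ι → F) (e i v : ι → F)
      = QuadraticMap.polar Q (u : ι → F) (v : ι → F) := by
    intro i u v
    unfold QuadraticMap.polar
    rw [← Submodule.coe_add, ← map_add, he, he, he]
    rfl
  let v2 : Fin 2 → D i0 := ![⟨x, hx⟩, ⟨y, hy⟩]
  let b : Fin t × Fin 2 → ι → F := fun p => (e p.1 (v2 p.2) : ι → F)
  have hbD : ∀ p, b p ∈ D p.1 := fun p => (e p.1 (v2 p.2)).2
  have hv2Q : ∀ j, Q (v2 j : ι → F) = ε := by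
    intro j
    fin_cases j
    · exact hQx
    · exact hQy
  have hv2 : ∀ j j', j ≠ j' → QuadraticMap.polar Q (v2 j : ι → F) (v2 j' : ι → F) = 0 := by
    intro j j' hne
    fin_cases j <;> fin_cases j'
    · exact absurd rfl hne
    · exact hxy
    · exact (hsymm _ _).trans hxy
    · exact absurd rfl hne
  have hbQ : ∀ p, Q (b p) = ε := by
    intro p
    show Q (e p.1 (v2 p.2) : ι → F) = ε
    rw [he, hv2Q]
  have hbo : ∀ p p', p ≠ p' → QuadraticMap.polar Q (b p) (b p') = 0 := by
    rintro ⟨i, j⟩ ⟨i', j'⟩ hne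
    by_cases hi : i = i'
    · subst hi
      have hj : j ≠ j' := fun h => hne (by rw [h])
      show QuadraticMap.polar Q (e i (v2 j) : ι → F) (e i (v2 j') : ι → F) = 0
      rw [hpol, hv2 j j' hj]
    · exact hD.decomp.orthogonal i i' hi _ (hbD (i, j)) _ (hbD (i', j'))
  have huniq : ∀ i, ∀ v ∈ D i, Q v = ε → ∃ j, v = b (i, j) ∨ v = - b (i, j) := by
    intro i v hv hvv
    rcases frame2_unique hq hQ (hfr i) hε (hbD (i, 0)) (hbD (i, 1)) (hbQ (i, 0)) (hbQ (i, 1))
      (hbo (i, 0) (i, 1) (by simp)) hv hvv with h | h | h | h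
    · exact ⟨0, Or.inl h⟩
    · exact ⟨0, Or.inr h⟩
    · exact ⟨1, Or.inl h⟩
    · exact ⟨1, Or.inr h⟩
  let b' : Fin (t * 2) → ι → F := fun a => b (finProdFinEquiv.symm a)
  have hb'o : ∀ a a', a ≠ a' → QuadraticMap.polar Q (b' a) (b' a') = 0 := fun a a' hne =>
    hbo _ _ (fun h => hne (finProdFinEquiv.symm.injective h))
  refine ⟨t * 2, fun a => Submodule.span F {b' a},
    lines_of_family hQ h2 (by omega) (decomp_cardG D hD.decomp.decomp).symm b' ε hε
      (fun a => hbQ _) hb'o, ?_⟩
  intro h hh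
  apply mem_stab_of_perm hQ h2 b' ε hε (fun a => hbQ _) hb'o
  intro a
  obtain ⟨σ, hσ⟩ := hle hh
  have h1 : (h : Matrix ι ι F) *ᵥ b' a ∈ D (σ (finProdFinEquiv.symm a).1) := by
    rw [← hσ]
    exact ⟨b' a, hbD _, by simp [Matrix.toLin'_apply]⟩
  obtain ⟨j, hj⟩ := huniq _ _ h1 (by rw [mem_iso.1 (hH hh)]; exact hbQ _)
  refine ⟨finProdFinEquiv (σ (finProdFinEquiv.symm a).1, j), ?_⟩
  show _ = b (finProdFinEquiv.symm (finProdFinEquiv _)) ∨ _ = - b (finProdFinEquiv.symm (finProdFinEquiv _))
  rw [Equiv.symm_apply_apply]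
  exact hj

end Cfsg.Agent.Lib.Helper94OPlanes3m
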