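import Cfsg.Agent.Lib.Helper94OKdim

set_option autoImplicit false

/-! PROJECT 5 = ASCH-O, PART 3: piece `saeven`. -/

namespace Cfsg.Agent.Lib.Helper94OSaeven

open Cfsg Cfsg.Geo Matrix
open Cfsg.Agent.Lib.Helper97OBase Cfsg.Agent.Lib.Helper97OProper Cfsg.Agent.Lib.Helper94OKdim
open scoped MatrixGroups

variable {ι : Type} [Fintype ι] [DecidableEq ι] {F : Type*} [Field F]
variable {Q : (ι → F) → F}

/-- [saeven] characteristic 2, `K` self-adjoint of degree `r`: `2r` divides the dimension. -/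
theorem two_mul_dvd_of_selfAdjoint [Fintype F] (h2 : (2 : F) = 0) (hQ : IsNondegenerateQuadraticForm Q)
    {r : ℕ} (K : Subalgebra F (Matrix ι ι F)) (hK : IsFieldSubalgebra r K)
    (hsa : IsSelfAdjointFor (QuadraticMap.polar Q) K) : 2 * r ∣ Fintype.card ι := by
  classical
  have halt := selfAdjoint_alt h2 hQ K hK hsa
  have hb := hQ.polar_bilinear
  have hsym : ∀ u v, QuadraticMap.polar Q u v = QuadraticMap.polar Q v u := QuadraticMap.polar_comm Q
  -- a maximal invariant totally isotropic subspace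
  let S : Set (Submodule F (ι → F)) :=
    {U | (∀ k ∈ K, ∀ w ∈ U, k *ᵥ w ∈ U) ∧ ∀ u ∈ U, ∀ w ∈ U, QuadraticMap.polar Q u w = 0}
  have hS : S.Nonempty := by
    refine ⟨⊥, ?_, ?_⟩
    · intro k _ w hw
      rw [Submodule.mem_bot] at hw ⊢
      rw [hw, Matrix.mulVec_zero]
    · intro u hu w _
      rw [Submodule.mem_bot] at hu
      rw [hu]
      have := hb.smul_left 0 0 w
      rwa [zero_smul, zero_mul] at this
  obtain ⟨U, hUS, hmax⟩ := (wellFounded_gt (α := Submodule F (ι → F))).has_min S hS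
  obtain ⟨hUinv, hUiso⟩ := hUS
  have hle : U ≤ orth hQ U := by
    intro u hu
    rw [mem_orth]
    intro w hw
    exact hUiso w hw u hu
  have heq : orth hQ U = U := by
    apply le_antisymm _ hle
    intro v hv
    rw [mem_orth] at hv
    by_contra hvU
    -- the subspace `K v`
    let T : Matrix ι ι F →ₗ[F] (ι → F) :=
      { toFun := fun k => k *ᵥ v
        map_add' := fun a b => Matrix.add_mulVec a b v
        map_smul' := fun c a => Matrix.smul_mulVec c a v }
    let Kv : Submodule F (ι → F) := (Subalgebra.toSubmodule K).map T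
    have hKv : ∀ x, x ∈ Kv ↔ ∃ k ∈ K, k *ᵥ v = x := by
      intro x
      exact Submodule.mem_map
    have hmem : U ⊔ Kv ∈ S := by
      constructor
      · intro k hk w hw
        obtain ⟨u, hu, x, hx, rfl⟩ := Submodule.mem_sup.1 hw
        obtain ⟨a, ha, rfl⟩ := (hKv x).1 hx
        rw [Matrix.mulVec_add, Matrix.mulVec_mulVec]
        exact Submodule.add_mem_sup (hUinv k hk u hu) ((hKv _).2 ⟨k * a, K.mul_mem hk ha, rfl⟩)
      · intro x hx y hy
        obtain ⟨u, hu, x', hx', rfl⟩ := Submodule.mem_sup.1 hx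
        obtain ⟨a, ha, rfl⟩ := (hKv x').1 hx'
        obtain ⟨w, hw, y', hy', rfl⟩ := Submodule.mem_sup.1 hy
        obtain ⟨c, hc, rfl⟩ := (hKv y').1 hy'
        rw [hb.add_left, hb.add_right, hb.add_right, hUiso u hu w hw, ← hsa c hc u v,
          hv _ (hUinv c hc u hu), hsa a ha v w, hsym v, hv _ (hUinv a ha w hw), ← hsa c hc,
          Matrix.mulVec_mulVec, halt _ (K.mul_mem hc ha)]
        simp
    have hlt : U < U ⊔ Kv := by
      apply lt_of_le_of_ne le_sup_left
      intro h
      apply hvU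
      rw [h]
      exact Submodule.mem_sup_right ((hKv v).2 ⟨1, K.one_mem, Matrix.one_mulVec v⟩)
    exact hmax _ hmem hlt
  have h1 := finrank_orth hQ U
  rw [heq] at h1
  obtain ⟨a, ha⟩ := finrank_dvd_of_invariant K hK U hUinv
  refine ⟨a, ?_⟩
  rw [← h1, ha]
  ring

end Cfsg.Agent.Lib.Helper94OSaeven
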