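import Cfsg.Agent.Lib.Helper95SpTenstwo
import Cfsg.Agent.Lib.Helper97OBase

set_option autoImplicit false
set_option linter.unusedSectionVars false

/-! PROJECT 5 = ASCH-O, piece `tenstwosym`. -/

namespace Cfsg.Agent.Lib.Helper95OTenstwosym

open Cfsg Cfsg.Geo Matrix
open Cfsg.Agent.Lib.Helper97GBase Cfsg.Agent.Lib.Helper98AschGDefs Cfsg.Agent.Lib.Helper98AschGBasic
  Cfsg.Agent.Lib.Helper96SpDefs Cfsg.Agent.Lib.Helper95SpTensodd Cfsg.Agent.Lib.Helper95SpTenstwo
  Cfsg.Agent.Lib.Helper97OBase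
open scoped MatrixGroups Kronecker

variable {ι : Type} [Fintype ι] [DecidableEq ι] {F : Type*} [Field F]
variable {Q : (ι → F) → F} {H : Subgroup (GL ι F)}

/-- the algebra `F + F z` when `z ^ 2` is a scalar -/
def quadAlg (z : Matrix ι ι F) (δ : F) (hz : z * z = δ • (1 : Matrix ι ι F)) :
    Subalgebra F (Matrix ι ι F) where
  carrier := {x | ∃ α β : F, x = α • (1 : Matrix ι ι F) + β • z}
  mul_mem' := by
    rintro _ _ ⟨α, β, rfl⟩ ⟨α', β', rfl⟩
    refine ⟨α * α' + β * β' * δ, α * β' + β * α', ?_⟩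
    simp only [add_mul, mul_add, smul_mul_assoc, mul_smul_comm, one_mul, mul_one, hz]
    module
  add_mem' := by
    rintro _ _ ⟨α, β, rfl⟩ ⟨α', β', rfl⟩
    exact ⟨α + α', β + β', by module⟩
  algebraMap_mem' := fun r => ⟨r, 0, by simp [Algebra.algebraMap_eq_smul_one]⟩

lemma mem_quadAlg {z : Matrix ι ι F} {δ : F} {hz : z * z = δ • (1 : Matrix ι ι F)} {x : Matrix ι ι F} :
    x ∈ quadAlg z δ hz ↔ ∃ α β : F, x = α • (1 : Matrix ι ι F) + β • z := Iff.rfl

lemma quadAlg_comm {z : Matrix ι ι F} {δ : F} {hz : z * z = δ • (1 : Matrix ι ι F)} :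
    ∀ x ∈ quadAlg z δ hz, ∀ y ∈ quadAlg z δ hz, x * y = y * x := by
  rintro _ ⟨α, β, rfl⟩ _ ⟨α', β', rfl⟩
  simp only [add_mul, mul_add, smul_mul_assoc, mul_smul_comm, one_mul, mul_one, hz]
  module

lemma finrank_quadAlg [Nonempty ι] {z : Matrix ι ι F} {δ : F} {hz : z * z = δ • (1 : Matrix ι ι F)}
    (hns : ∀ c : F, z ≠ c • (1 : Matrix ι ι F)) : Module.finrank F (quadAlg z δ hz) = 2 := by
  let φ : (F × F) →ₗ[F] quadAlg z δ hz :=
    { toFun := fun p => ⟨p.1 • (1 : Matrix ι ι F) + p.2 • z, p.1, p.2, rfl⟩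
      map_add' := by
        intro p p'
        apply Subtype.ext
        show (p.1 + p'.1) • (1 : Matrix ι ι F) + (p.2 + p'.2) • z
          = (p.1 • (1 : Matrix ι ι F) + p.2 • z) + (p'.1 • (1 : Matrix ι ι F) + p'.2 • z)
        module
      map_smul' := by
        intro c p
        apply Subtype.ext
        show (c * p.1) • (1 : Matrix ι ι F) + (c * p.2) • z
          = c • (p.1 • (1 : Matrix ι ι F) + p.2 • z)
        module }
  have hinj : Function.Injective φ := by
    rw [injective_iff_map_eq_zero]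
    rintro ⟨α, β⟩ h
    have h1 : α • (1 : Matrix ι ι F) + β • z = 0 := congrArg Subtype.val h
    have hβ : β = 0 := by
      by_contra hβ
      apply hns (- α / β)
      have : β • z = β • ((- α / β) • (1 : Matrix ι ι F)) := by
        rw [smul_smul, mul_div_cancel₀ _ hβ]
        linear_combination (norm := module) h1
      exact smul_right_injective _ hβ this
    rw [hβ, zero_smul, add_zero] at h1
    have hα : α = 0 := by
      rcases smul_eq_zero.1 h1 with h | h
      · exact h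
      · exact absurd h one_ne_zero
    rw [hα, hβ]
    rfl
  have hsurj : Function.Surjective φ := by
    rintro ⟨_, α, β, rfl⟩
    exact ⟨(α, β), rfl⟩
  rw [← (LinearEquiv.ofBijective φ ⟨hinj, hsurj⟩).finrank_eq, Module.finrank_prod, Module.finrank_self]

lemma J0_mul_J0 : J0 F * J0 F = (-1 : F) • (1 : Matrix (Fin 2) (Fin 2) F) := by
  ext i j
  fin_cases i <;> fin_cases j <;> simp [J0, Matrix.mul_apply, Fin.sum_univ_two]

/-- [tenstwosym] `q` odd, `polar Q = G₁ ⊗ G₂` with `G₁` symmetric of size 2: `H` normalises the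
commutative algebra `F[G₁⁻¹ J] ⊗ 1`. -/
theorem tens_two_sym [Fintype F] (h2 : (2 : F) ≠ 0) (hQ : IsNondegenerateQuadraticForm Q)
    (hH : H ≤ isometryGroup F Q) {s : ℕ} (hs : 1 ≤ s) (e : ι ≃ Fin 2 × Fin s) (P : GL ι F)
    (G₁ : Matrix (Fin 2) (Fin 2) F) (G₂ : Matrix (Fin s) (Fin s) F)
    (h₁ : IsUnit G₁.det) (h₂ : IsUnit G₂.det)
    (hG : ∀ x y : Fin 2 × Fin s → F, QuadraticMap.polar Q ((P : Matrix ι ι F) *ᵥ (x ∘ e))
      ((P : Matrix ι ι F) *ᵥ (y ∘ e)) = formOfGram id (G₁ ⊗ₖ G₂) x y)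
    (hs₁ : G₁ᵀ = G₁) (hle : H ≤ tensorProductSubgroup 2 s e P) :
    ∃ C : Subalgebra F (Matrix ι ι F), NzA H C ∧ (∀ x ∈ C, ∀ y ∈ C, x * y = y * x) ∧
      IsAdjointClosedFor (QuadraticMap.polar Q) C ∧ Module.finrank F C = 2 := by
  classical
  have hb := hQ.polar_bilinear
  have hs0 : 0 < s := hs
  have : Nonempty ι := ⟨e.symm (0, ⟨0, hs0⟩)⟩
  set j : Matrix (Fin 2) (Fin 2) F := G₁⁻¹ * J0 F with hj
  have hGj : G₁ * j = J0 F := by
    rw [hj, ← Matrix.mul_assoc, Matrix.mul_nonsing_inv _ h₁, Matrix.one_mul]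
  have hjG : jᵀ * G₁ = - J0 F := by
    rw [hj, Matrix.transpose_mul, Matrix.transpose_nonsing_inv, hs₁, Matrix.mul_assoc,
      Matrix.nonsing_inv_mul _ h₁, Matrix.mul_one, transpose_J0]
  have hjj : j * j = (- (G₁⁻¹).det) • (1 : Matrix (Fin 2) (Fin 2) F) := by
    have h1 := transpose_mul_J0_mul (G₁⁻¹)
    rw [Matrix.transpose_nonsing_inv, hs₁] at h1
    rw [hj, ← Matrix.mul_assoc, h1, Matrix.smul_mul, J0_mul_J0, smul_smul]
    congr 1
    ring
  set z : Matrix ι ι F := tens e P j 1 with hz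
  have hzz : z * z = (- (G₁⁻¹).det) • (1 : Matrix ι ι F) := by
    rw [hz, tens_mul, hjj, Matrix.one_mul, tens_smul_left, tens_one]
  have hzadj : ∀ u v, QuadraticMap.polar Q (z *ᵥ u) v
      = QuadraticMap.polar Q u (((-1 : F) • z) *ᵥ v) := by
    intro u v
    obtain ⟨x, rfl⟩ := Helper95SpTenstwo.exists_coords e P u
    obtain ⟨y, rfl⟩ := Helper95SpTenstwo.exists_coords e P v
    rw [hz, ← tens_smul_left]
    unfold tens
    rw [conj_reindex_mulVec, conj_reindex_mulVec, hG, hG, formOfGram_mulVec_left,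
      formOfGram_mulVec_right, ← Matrix.kroneckerMap_transpose, ← Matrix.mul_kronecker_mul,
      ← Matrix.mul_kronecker_mul, hjG, Matrix.mul_smul, hGj, Matrix.transpose_one, Matrix.one_mul,
      Matrix.mul_one, neg_one_smul]
  refine ⟨quadAlg z _ hzz, ?_, quadAlg_comm, ?_, finrank_quadAlg ?_⟩
  · -- normalised
    rintro h hh _ ⟨α', β', rfl⟩
    obtain ⟨a, b, hab⟩ := (mem_tensorProductSubgroup_iff e P h).1 (hle hh)
    have hiso := isometry_tens e P _ hG ((a : Matrix (Fin 2) (Fin 2) F) ⊗ₖ (b : Matrix (Fin s) (Fin s) F))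
      (by
        intro u v
        have := polar_iso (hH hh) u v
        rw [hab] at this
        exact this)
    rw [← Matrix.kroneckerMap_transpose, ← Matrix.mul_kronecker_mul, ← Matrix.mul_kronecker_mul] at hiso
    obtain ⟨i, i', hii⟩ := exists_ne_zero_of_isUnit_det (by norm_num) G₁ h₁
    obtain ⟨k, l, hkl⟩ := exists_ne_zero_of_isUnit_det hs0 G₂ h₂
    have hent : ∀ i i', ((a : Matrix (Fin 2) (Fin 2) F)ᵀ * G₁ * (a : Matrix (Fin 2) (Fin 2) F)) i i' *
        ((b : Matrix (Fin s) (Fin s) F)ᵀ * G₂ * (b : Matrix (Fin s) (Fin s) F)) k l = G₁ i i' * G₂ k l := by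
      intro i i'
      have := congrFun (congrFun hiso (i, k)) (i', l)
      simpa [Matrix.kroneckerMap_apply] using this
    set α := ((b : Matrix (Fin s) (Fin s) F)ᵀ * G₂ * (b : Matrix (Fin s) (Fin s) F)) k l with hα
    have hα0 : α ≠ 0 := by
      intro h0
      have := hent i i'
      rw [h0, mul_zero] at this
      exact mul_ne_zero hii hkl this.symm
    have haG : (a : Matrix (Fin 2) (Fin 2) F)ᵀ * G₁ * (a : Matrix (Fin 2) (Fin 2) F) = (G₂ k l / α) • G₁ := by
      ext i i'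
      rw [Matrix.smul_apply, smul_eq_mul, div_mul_eq_mul_div, eq_div_iff hα0, mul_comm (G₂ k l)]
      exact hent i i'
    have hda : (a : Matrix (Fin 2) (Fin 2) F).det ≠ 0 :=
      ((Matrix.isUnit_iff_isUnit_det _).1 a.isUnit).ne_zero
    set lam : F := (G₂ k l / α) / (a : Matrix (Fin 2) (Fin 2) F).det with hlam
    have haj : (a : Matrix (Fin 2) (Fin 2) F) * j = lam • (j * (a : Matrix (Fin 2) (Fin 2) F)) := by
      have hu : IsUnit ((a : Matrix (Fin 2) (Fin 2) F)ᵀ * G₁) := by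
        rw [Matrix.isUnit_iff_isUnit_det, Matrix.det_mul, Matrix.det_transpose]
        exact ((Matrix.isUnit_iff_isUnit_det _).1 a.isUnit).mul h₁
      apply hu.mul_left_cancel
      rw [← Matrix.mul_assoc, haG, Matrix.smul_mul, hGj, Matrix.mul_smul, Matrix.mul_assoc,
        ← Matrix.mul_assoc G₁, hGj, ← Matrix.mul_assoc, transpose_mul_J0_mul, smul_smul, hlam,
        div_mul_cancel₀ _ hda]
    have hconj : (h : Matrix ι ι F) * z * ((h⁻¹ : GL ι F) : Matrix ι ι F) = lam • z := by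
      have h1 : (h : Matrix ι ι F) * z = lam • (z * (h : Matrix ι ι F)) := by
        rw [hab, hz, tens_mul, tens_mul, Matrix.mul_one, Matrix.one_mul, haj, tens_smul_left]
      rw [h1, Matrix.smul_mul, Matrix.mul_assoc, iv, Matrix.mul_one]
    refine ⟨α', β' * lam, ?_⟩
    rw [Matrix.mul_add, Matrix.add_mul, Matrix.mul_smul, Matrix.mul_smul, Matrix.smul_mul,
      Matrix.smul_mul, hconj, Matrix.mul_one, iv, smul_smul]
  · rintro _ ⟨α, β, rfl⟩
    refine ⟨α • (1 : Matrix ι ι F) + (-β) • z, ⟨α, -β, rfl⟩, fun u v => ?_⟩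
    rw [Matrix.add_mulVec, Matrix.add_mulVec, Matrix.smul_mulVec, Matrix.smul_mulVec,
      Matrix.smul_mulVec, Matrix.smul_mulVec, Matrix.one_mulVec, Matrix.one_mulVec, hb.add_left,
      hb.add_right, hb.smul_left, hb.smul_left, hb.smul_right, hb.smul_right, hzadj,
      Matrix.smul_mulVec, hb.smul_right]
    ring
  · intro c hc
    have h1 : tens e P j (1 : Matrix (Fin s) (Fin s) F) = tens e P (c • (1 : Matrix (Fin 2) (Fin 2) F)) 1 := by
      rw [tens_smul_left, tens_one]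
      exact hc
    rw [tens_eq, tens_eq] at h1
    have h3 := tens_injective e P h1
    have h4 : j = c • (1 : Matrix (Fin 2) (Fin 2) F) := by
      ext k l
      have := congrFun (congrFun h3 (k, ⟨0, hs0⟩)) (l, ⟨0, hs0⟩)
      simpa [Matrix.kroneckerMap_apply] using this
    have h5 : J0 F = c • G₁ := by
      rw [← hGj, h4, Matrix.mul_smul, Matrix.mul_one]
    have h6 : (J0 F)ᵀ = J0 F := by
      rw [h5, Matrix.transpose_smul, hs₁]
    have h7 := congrFun (congrFun h6 0) 1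
    simp [J0] at h7
    apply h2
    linear_combination -h7

end Cfsg.Agent.Lib.Helper95OTenstwosym
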