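import Cfsg.Agent.Lib.Helper7SpC6
import Cfsg.Agent.Lib.Helper97OBase

set_option autoImplicit false

/-! PROJECT 5 = ASCH-O, piece `c6pow2`. -/

namespace Cfsg.Agent.Lib.Helper97OC6Pow

open Cfsg Cfsg.Geo Matrix
open Cfsg.Agent.Lib.Helper97GBase Cfsg.Agent.Lib.Helper97GCore Cfsg.Agent.Lib.Helper97OBase
  Cfsg.Agent.Lib.Helper7C6Card Cfsg.Agent.Lib.Helper7C6Asm
open scoped MatrixGroups commutatorElement

variable {ι : Type} [Fintype ι] [DecidableEq ι] {F : Type*} [Field F]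
variable {Q : (ι → F) → F}

/-- a scalar isometry squares to one -/
lemma scalar_sq [Nonempty ι] (hQ : IsNondegenerateQuadraticForm Q) {x : GL ι F}
    (hx : x ∈ isometryGroup F Q) (hs : x ∈ scalars ι F) : x * x = 1 := by
  obtain ⟨c, hc⟩ := (mem_scalars_iff x).mp hs
  obtain ⟨i⟩ := ‹Nonempty ι›
  have hv0 : (Pi.single i 1 : ι → F) ≠ 0 := by
    intro h
    have := congrFun h i
    simp at this
  obtain ⟨⟨w, hw⟩, -⟩ := hQ.nondegenerate _ hv0
  -- some vector has non-zero norm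
  have hex : ∃ v, Q v ≠ 0 := by
    by_contra hcon
    push Not at hcon
    apply hw
    unfold QuadraticMap.polar
    rw [hcon, hcon, hcon]
    ring
  obtain ⟨v, hv⟩ := hex
  have h1 := mem_iso.mp hx v
  rw [hc, Matrix.smul_mulVec, Matrix.one_mulVec, hQ.smul] at h1
  have h2 : (c : F) ^ 2 = 1 := by
    have : ((c : F) ^ 2 - 1) * Q v = 0 := by rw [sub_mul, h1, one_mul, sub_self]
    rcases mul_eq_zero.mp this with h | h
    · exact sub_eq_zero.mp h
    · exact absurd h hv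
  apply Units.ext
  rw [Units.val_mul, hc, Units.val_one, Matrix.smul_mul, Matrix.one_mul, smul_smul, ← pow_two, h2,
    one_smul]

/-- [c6pow2] class 6 inside `O(Q)`: the dimension is a power of 2. -/
theorem c6_pow_two [Fintype F] [Nonempty ι] (hQ : IsNondegenerateQuadraticForm Q)
    {N : Subgroup (GL ι F)} (hN : N ≤ isometryGroup F Q) (hcomm : ⁅N, N⁆ ≤ scalars ι F)
    (habs : ActsAbsolutelyIrreducibly (matrixSet N)) : ∃ j : ℕ, Fintype.card ι = 2 ^ j := by
  have hfin : Finite (GL ι F) := inferInstance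
  -- squares are central
  have hsq : ∀ x ∈ N, x * x ∈ scalars ι F := by
    intro x hx
    apply mem_scalars_of_comm habs
    intro y hy
    -- `z = [y, x]` is a scalar isometry
    have hz : ⁅y, x⁆ ∈ scalars ι F := hcomm (Subgroup.commutator_mem_commutator hy hx)
    have hzi : ⁅y, x⁆ ∈ isometryGroup F Q :=
      hN ((Subgroup.commutator_le_self N) (Subgroup.commutator_mem_commutator hy hx))
    have hz2 := scalar_sq hQ hzi hz
    have hzc : ∀ g : GL ι F, ⁅y, x⁆ * g = g * ⁅y, x⁆ := fun g =>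
      (Subgroup.mem_center_iff.mp (scalars_le_center hz) g).symm
    have e1 : y * x = ⁅y, x⁆ * (x * y) := by
      rw [commutatorElement_def]; group
    calc x * x * y = x * (x * y) := mul_assoc _ _ _
      _ = (⁅y, x⁆ * ⁅y, x⁆) * (x * (x * y)) := by rw [hz2, one_mul]
      _ = ⁅y, x⁆ * (x * (⁅y, x⁆ * (x * y))) := by
          rw [mul_assoc, ← mul_assoc ⁅y, x⁆ x, hzc x, mul_assoc x]
      _ = ⁅y, x⁆ * (x * (y * x)) := by rw [← e1]
      _ = (⁅y, x⁆ * (x * y)) * x := by simp only [mul_assoc]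
      _ = y * (x * x) := by rw [← e1, mul_assoc]
  have hp : IsPGroup 2 N := by
    intro x
    refine ⟨2, ?_⟩
    apply Subtype.ext
    have h1 := scalar_sq hQ ((isometryGroup F Q).mul_mem (hN x.2) (hN x.2)) (hsq x x.2)
    show (x : GL ι F) ^ (2 ^ 2) = 1
    calc (x : GL ι F) ^ (2 ^ 2) = (x : GL ι F) * x * (x * x) := by
          norm_num [pow_succ, mul_assoc]
      _ = 1 := h1
  obtain ⟨a, ha⟩ := IsPGroup.iff_card.mp hp
  have hc := Cfsg.Agent.Lib.Helper7SpC6.c6_card habs hcomm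
  rw [ha] at hc
  have hd : Fintype.card ι ∣ 2 ^ a := by
    rw [hc, pow_two]
    exact Dvd.intro_left _ rfl |>.trans (Dvd.intro_left _ rfl)
  obtain ⟨j, -, hj⟩ := (Nat.dvd_prime_pow Nat.prime_two).mp hd
  exact ⟨j, hj⟩

end Cfsg.Agent.Lib.Helper97OC6Pow
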