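import Cfsg.Agent.Lib.Helper97OMain
import Cfsg.Agent.Lib.Helper58EDefs
import Cfsg.Agent.Lib.Helper58GD
import Cfsg.Agent.Lib.Helper95Subfield

set_option autoImplicit false
set_option linter.unusedSectionVars false

/-! PROJECT 5 = ASCH-O, piece `monosub`. -/

namespace Cfsg.Agent.Lib.Helper97OMonoSub

open Cfsg Cfsg.Geo Matrix Cfsg.Agent.Lib.Helper97GBase Cfsg.Agent.Lib.Helper97GForms
  Cfsg.Agent.Lib.Helper95Quad Cfsg.Agent.Lib.Helper95Form Cfsg.Agent.Lib.Helper95Basic
  Cfsg.Agent.Lib.Helper97OBase Cfsg.Agent.Lib.Helper97OProper Cfsg.Agent.Lib.Helper97OProper2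
  Cfsg.Agent.Lib.Helper58ODefs Cfsg.Agent.Lib.Helper58EDefs
open scoped MatrixGroups

variable {ι : Type} [Fintype ι] [DecidableEq ι] {F : Type*} [Field F] {Q : (ι → F) → F}

/-- the value of a quadratic form on a combination of pairwise orthogonal vectors -/
lemma Q_sum (hQ : IsNondegenerateQuadraticForm Q) {α : Type*} [DecidableEq α] (s : Finset α)
    (d : α → ι → F) (u : α → F)
    (ho : ∀ i ∈ s, ∀ j ∈ s, i ≠ j → QuadraticMap.polar Q (d i) (d j) = 0) :
    Q (∑ i ∈ s, u i • d i) = ∑ i ∈ s, u i ^ 2 * Q (d i) := by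
  induction s using Finset.induction_on with
  | empty => simpa using (qf hQ).zero
  | insert a s ha ih =>
    rw [Finset.sum_insert ha, Finset.sum_insert ha, (qf hQ).add, hQ.smul,
      ih (fun i hi j hj => ho i (Finset.mem_insert_of_mem hi) j (Finset.mem_insert_of_mem hj))]
    have h0 : bil hQ (u a • d a) (∑ i ∈ s, u i • d i) = 0 := by
      rw [map_sum]
      apply Finset.sum_eq_zero
      intro i hi
      rw [map_smul, map_smul, LinearMap.smul_apply, bil_apply,
        ho a (Finset.mem_insert_self a s) i (Finset.mem_insert_of_mem hi)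
          (fun h => ha (h ▸ hi))]
      simp
    rw [h0, add_zero]

/-- the monomial structure in coordinates -/
lemma monomial_struct (hQ : IsNondegenerateQuadraticForm Q) {n : ℕ} (hn : 0 < n)
    (hcard : Fintype.card ι = n) {D : Fin n → Submodule F (ι → F)}
    (hD : IsOrthogonalMDecomposition Q 1 D) {H : Subgroup (GL ι F)} (hH : H ≤ isometryGroup F Q)
    (hle : H ≤ decompositionStabilizer D) :
    ∃ (C : GL ι F) (c : F), c ≠ 0 ∧ (∀ u : ι → F, Q ((C : Matrix ι ι F) *ᵥ u) = c * ∑ i, u i ^ 2) ∧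
      ∀ h ∈ H, ∀ j : ι, ∃ (a : F) (j' : ι), (a = 1 ∨ a = -1) ∧
        (h : Matrix ι ι F) *ᵥ ((C : Matrix ι ι F) *ᵥ Pi.single j 1) =
          (C : Matrix ι ι F) *ᵥ (a • Pi.single j' 1) := by
  classical
  obtain ⟨d, c, hc, hdD, hdQ, hdo⟩ := exists_generators hQ hn hD
  have hQ0 : Q 0 = 0 := (qf hQ).zero
  have hd0 : ∀ i, d i ≠ 0 := by
    intro i h0
    apply hc
    rw [← hdQ i, h0, hQ0]
  have hspan : ∀ i, ∀ x ∈ D i, ∃ a : F, x = a • d i := by
    intro i x hx
    have h1 := (finrank_eq_one_iff_of_nonzero' (⟨d i, hdD i⟩ : D i)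
      (by intro h; exact hd0 i (congrArg Subtype.val h))).mp (hD.decomp.decomp.finrank_eq i) ⟨x, hx⟩
    obtain ⟨a, ha⟩ := h1
    exact ⟨a, (congrArg Subtype.val ha).symm⟩
  let e : ι ≃ Fin n := Fintype.equivFinOfCardEq hcard
  let M : Matrix ι ι F := Matrix.of (fun i j => d (e j) i)
  have hMcol : ∀ j : ι, M *ᵥ Pi.single j 1 = d (e j) := by
    intro j
    rw [Matrix.mulVec_single_one]
    rfl
  have hind0 : LinearIndependent F d := hD.decomp.decomp.indep.linearIndependent D hdD hd0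
  have hind : LinearIndependent F M.col := hind0.comp e e.injective
  obtain ⟨C, hC⟩ := Matrix.linearIndependent_cols_iff_isUnit.mp hind
  refine ⟨C, c, hc, ?_, ?_⟩
  · intro u
    have h1 : (C : Matrix ι ι F) *ᵥ u = ∑ j, u j • d (e j) := by
      rw [hC]
      ext i
      rw [Matrix.mulVec, dotProduct, Finset.sum_apply]
      apply Finset.sum_congr rfl
      intro j _
      rw [Pi.smul_apply, smul_eq_mul, mul_comm]
      rfl
    rw [h1, Q_sum hQ Finset.univ (fun j => d (e j)) u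
      (fun i _ j _ hij => hdo _ _ (fun h => hij (e.injective h))), Finset.mul_sum]
    apply Finset.sum_congr rfl
    intro j _
    rw [hdQ, mul_comm]
  · intro h hh j
    obtain ⟨π, hπ⟩ := hle hh
    have hx : (h : Matrix ι ι F) *ᵥ d (e j) ∈ D (π (e j)) := by
      rw [← hπ (e j)]
      exact ⟨d (e j), hdD _, by simp [Matrix.toLin'_apply]⟩
    obtain ⟨a, ha⟩ := hspan _ _ hx
    have hiso : Q ((h : Matrix ι ι F) *ᵥ d (e j)) = Q (d (e j)) := (mem_iso.mp (hH hh)) _
    have ha2 : a ^ 2 = 1 := by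
      rw [ha, hQ.smul, hdQ, hdQ] at hiso
      exact mul_right_cancel₀ hc (hiso.trans (one_mul c).symm)
    refine ⟨a, e.symm (π (e j)), sq_eq_one_iff.mp ha2, ?_⟩
    rw [hC, hMcol, ha, Matrix.mulVec_smul, hMcol, Equiv.apply_symm_apply]

/-- [monosub] a monomial group over a non-prime field lies in a subfield group. -/
theorem sub_of_lines [Fintype F] {H : Subgroup (GL ι F)} (hQ : IsNondegenerateQuadraticForm Q)
    (hH : H ≤ isometryGroup F Q) (hD : ODecOne Q H) (hp : ¬ (Fintype.card F).Prime) : OSubZ Q H := by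
  classical
  obtain ⟨t, D, hD, hle⟩ := hD
  have ht := hD.decomp.decomp.two_le
  have hcard : Fintype.card ι = t := by
    have := Cfsg.Agent.Lib.Helper58GD.decomp_card D hD.decomp.decomp
    omega
  obtain ⟨C, c, hc, hQC, hmono⟩ := monomial_struct hQ (by omega) hcard hD hH hle
  obtain ⟨F₀, hF₀⟩ := Cfsg.Agent.Lib.Helper97OMain.exists_proper_subfield hp
  obtain ⟨-, F₁, r, hr, hcF, -, -⟩ := Cfsg.Agent.Lib.Helper97GSubfield.exists_aut hF₀
  refine ⟨F₁, r, C, c⁻¹, hr, hcF, inv_ne_zero hc, ?_, ?_⟩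
  · intro u hu
    show c⁻¹ * Q ((C : Matrix ι ι F) *ᵥ u) ∈ F₁
    rw [hQC, ← mul_assoc, inv_mul_cancel₀ hc, one_mul]
    exact F₁.sum_mem (fun i _ => F₁.pow_mem (hu i) 2)
  · intro h hh
    apply Cfsg.Agent.Lib.Helper95Subfield.mem_subfieldSubgroup_of h 1 one_ne_zero
    rintro _ ⟨u, hu, rfl⟩
    choose a j' ha hj' using hmono h hh
    refine ⟨(C : Matrix ι ι F) *ᵥ (∑ j, u j • (a j • Pi.single (j' j) 1)), ⟨_, ?_, rfl⟩, ?_⟩
    · intro i
      rw [Finset.sum_apply]
      apply F₁.sum_mem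
      intro j _
      rw [Pi.smul_apply, Pi.smul_apply, smul_eq_mul, smul_eq_mul]
      apply F₁.mul_mem (hu j)
      apply F₁.mul_mem
      · rcases ha j with h | h
        · rw [h]; exact F₁.one_mem
        · rw [h]; exact F₁.neg_mem F₁.one_mem
      · rw [Pi.single_apply]
        split_ifs
        · exact F₁.one_mem
        · exact F₁.zero_mem
    · rw [one_smul]
      have hu' : u = ∑ j, u j • (Pi.single j 1 : ι → F) := by
        ext i
        simp [Finset.sum_apply, Pi.single_apply]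
      conv_lhs => rw [hu']
      rw [Matrix.mulVec_sum, Matrix.mulVec_sum, Matrix.mulVec_sum]
      apply Finset.sum_congr rfl
      intro j _
      rw [Matrix.mulVec_smul, Matrix.mulVec_smul, Matrix.mulVec_smul, hj']

end Cfsg.Agent.Lib.Helper97OMonoSub
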