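import Cfsg.Agent.Lib.Helper97OProper

set_option autoImplicit false
set_option linter.unusedSectionVars false

namespace Cfsg.Agent.Lib.Helper97OProper2

open Cfsg Cfsg.Geo Matrix Cfsg.Agent.Lib.Helper97GBase Cfsg.Agent.Lib.Helper97GForms
  Cfsg.Agent.Lib.Helper95Quad Cfsg.Agent.Lib.Helper95Form Cfsg.Agent.Lib.Helper95Basic
  Cfsg.Agent.Lib.Helper97OBase Cfsg.Agent.Lib.Helper97OProper
open scoped MatrixGroups

variable {ι : Type} [Fintype ι] [DecidableEq ι] {F : Type*} [Field F] {Q : (ι → F) → F}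

/-- generators of equal norm of an isometric decomposition into lines -/
lemma exists_generators (hQ : IsNondegenerateQuadraticForm Q) {n : ℕ} (hn : 0 < n)
    {D : Fin n → Submodule F (ι → F)} (hD : IsOrthogonalMDecomposition Q 1 D) :
    ∃ (d : Fin n → (ι → F)) (c : F), c ≠ 0 ∧ (∀ i, d i ∈ D i) ∧ (∀ i, Q (d i) = c) ∧
      ∀ i j, i ≠ j → QuadraticMap.polar Q (d i) (d j) = 0 := by
  have hne : D ⟨0, hn⟩ ≠ ⊥ := by
    intro hb
    have := hD.decomp.decomp.finrank_eq ⟨0, hn⟩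
    rw [hb, finrank_bot] at this
    omega
  obtain ⟨d₀, hd₀, hQd₀⟩ := exists_nonsingular hQ hne (hD.decomp.nondegenerate _)
  choose e he using fun i => hD.isometric ⟨0, hn⟩ i
  refine ⟨fun i => (e i ⟨d₀, hd₀⟩ : ι → F), Q d₀, hQd₀, fun i => (e i ⟨d₀, hd₀⟩).2,
    fun i => he i ⟨d₀, hd₀⟩, fun i j hij => ?_⟩
  exact hD.decomp.orthogonal i j hij _ (e i ⟨d₀, hd₀⟩).2 _ (e j ⟨d₀, hd₀⟩).2

lemma not_le_decomp (hQ : IsNondegenerateQuadraticForm Q) (h2 : (2 : F) ≠ 0) {n : ℕ} (hn : 5 ≤ n)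
    (D : Fin n → Submodule F (ι → F)) (hD : IsOrthogonalMDecomposition Q 1 D) :
    ¬ omegaGL Q ≤ decompositionStabilizer D := by
  intro hle
  have hb := hQ.polar_bilinear
  obtain ⟨d, c, hc, hdD, hdQ, hdo⟩ := exists_generators hQ (by omega) hD
  let i0 : Fin n := ⟨0, by omega⟩
  let i1 : Fin n := ⟨1, by omega⟩
  let i2 : Fin n := ⟨2, by omega⟩
  let i3 : Fin n := ⟨3, by omega⟩
  let i4 : Fin n := ⟨4, by omega⟩
  have hne : ∀ (a b : ℕ) (ha : a < n) (hb : b < n), a ≠ b → (⟨a, ha⟩ : Fin n) ≠ ⟨b, hb⟩ := by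
    intro a b ha hb hab h
    exact hab (congrArg Fin.val h)
  have o : ∀ (a b : ℕ) (ha : a < n) (hb : b < n), a ≠ b →
      QuadraticMap.polar Q (d ⟨a, ha⟩) (d ⟨b, hb⟩) = 0 :=
    fun a b ha hb hab => hdo _ _ (hne a b ha hb hab)
  have s : ∀ i, QuadraticMap.polar Q (d i) (d i) = 2 * c := fun i => by rw [polar_self hQ, hdQ]
  obtain ⟨u, hu⟩ : ∃ u, u = d i0 + d i1 + d i2 + d i3 := ⟨_, rfl⟩
  have hQu : Q u = 4 * c := by
    have h := qf hQ
    rw [hu, h.add, h.add, h.add]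
    simp only [bil_apply, hb.add_left, hdQ]
    rw [o 0 1, o 0 2, o 1 2, o 0 3, o 1 3, o 2 3] <;> first | omega | skip
    ring
  have h4 : (4 : F) ≠ 0 := by
    have : (4 : F) = 2 * 2 := by norm_num
    rw [this]
    exact mul_ne_zero h2 h2
  have hu0 : Q u ≠ 0 := by rw [hQu]; exact mul_ne_zero h4 hc
  have hQv : Q ((2 : F) • d i4) = Q u := by
    rw [hQ.smul, hdQ, hQu]
    ring
  have hv0 : Q ((2 : F) • d i4) ≠ 0 := by rw [hQv]; exact hu0
  have hv : ∀ (a : ℕ) (ha : a < n), a ≠ 4 → QuadraticMap.polar Q ((2 : F) • d i4) (d ⟨a, ha⟩) = 0 := by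
    intro a ha h4a
    rw [hb.smul_left, o 4 a _ ha (Ne.symm h4a), mul_zero]
  have hvu : QuadraticMap.polar Q ((2 : F) • d i4) u = 0 := by
    rw [hu, hb.add_right, hb.add_right, hb.add_right, hv 0, hv 1, hv 2, hv 3] <;>
      first | omega | skip
    ring
  obtain ⟨π, hπ⟩ := hle (rr_mem hQ h2 _ u hv0 hu0 hQv)
  have hx : ((rf hQ _ hv0 * rf hQ u hu0 : GL ι F) : Matrix ι ι F) *ᵥ d i0 ∈ D (π i0) := by
    rw [← hπ i0]
    exact ⟨d i0, hdD i0, by simp [Matrix.toLin'_apply]⟩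
  have e1 : QuadraticMap.polar Q u (d i0) = 2 * c := by
    rw [hu, hb.add_left, hb.add_left, hb.add_left, s, o 1 0, o 2 0, o 3 0] <;> first | omega | skip
    ring
  rw [mul_mulVec, rf_mulVec hQ u hu0, Matrix.mulVec_sub, Matrix.mulVec_smul, rf_fix hQ _ hv0 (hv 0 _ (by omega)),
    rf_fix hQ _ hv0 hvu, e1, hQu] at hx
  have hk : (4 * c)⁻¹ * (2 * c) = 2⁻¹ := by
    field_simp
    norm_num
  rw [hk] at hx
  have hsubl : ∀ a b w, QuadraticMap.polar Q (a - b) w = QuadraticMap.polar Q a w - QuadraticMap.polar Q b w := by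
    intro a b w
    have := hb.add_left (a - b) b w
    rw [sub_add_cancel] at this
    rw [this]; ring
  -- pairing with the first generator
  have p0 : QuadraticMap.polar Q (d i0 - (2 : F)⁻¹ • u) (d i0) ≠ 0 := by
    rw [hsubl, hb.smul_left, e1, s]
    have : 2 * c - 2⁻¹ * (2 * c) = c := by field_simp; ring
    rw [this]
    exact hc
  have e2 : QuadraticMap.polar Q u (d i1) = 2 * c := by
    rw [hu, hb.add_left, hb.add_left, hb.add_left, s, o 0 1, o 2 1, o 3 1] <;> first | omega | skip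
    ring
  have p1 : QuadraticMap.polar Q (d i0 - (2 : F)⁻¹ • u) (d i1) ≠ 0 := by
    rw [hsubl, hb.smul_left, e2, o 0 1 _ _ (by omega)]
    have : 0 - 2⁻¹ * (2 * c) = -c := by field_simp; ring
    rw [this]
    exact neg_ne_zero.mpr hc
  have j0 : π i0 = i0 := by
    by_contra hne'
    exact p0 (hD.decomp.orthogonal _ _ hne' _ hx _ (hdD i0))
  have j1 : π i0 = i1 := by
    by_contra hne'
    exact p1 (hD.decomp.orthogonal _ _ hne' _ hx _ (hdD i1))
  exact hne 0 1 _ _ (by omega) (j0.symm.trans j1)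

end Cfsg.Agent.Lib.Helper97OProper2
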