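import Cfsg.Agent.Lib.Helper58AschH
import Cfsg.Agent.Lib.Helper17OSaodd
import Cfsg.Agent.Lib.Helper94OKdim
import Cfsg.Agent.Lib.Helper94OSaeven
import Cfsg.Agent.Lib.Helper49OLalgodd
import Cfsg.Agent.Lib.Helper57OLalgEven
import Cfsg.Agent.Lib.Helper17OUtype
import Cfsg.Agent.Lib.Helper97OMonoSub
import Cfsg.Agent.Lib.Helper49OTwodec
import Cfsg.Agent.Lib.Helper94OPlanes3m
import Cfsg.Agent.Lib.Helper95OTenstwosym
import Cfsg.Agent.Lib.Helper97OC6Pow
import Cfsg.Agent.Lib.Helper58EField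
import Cfsg.Agent.Lib.Helper97OProper2

set_option autoImplicit false

/-! PROJECT 5 = ASCH-O, PART 3: pieces for `Ω₁₀⁻(q)` (most of them are used again for `Ω₁₀⁺`, `Ω₁₂⁺`). -/

namespace Cfsg.Agent.Lib.Helper58AschI

open Cfsg Cfsg.Geo Matrix
open Cfsg.Agent.Lib.Helper97GBase Cfsg.Agent.Lib.Helper96SpDefs Cfsg.Agent.Lib.Helper98AschGDefs
  Cfsg.Agent.Lib.Helper58ODefs Cfsg.Agent.Lib.Helper58EDefs Cfsg.Agent.Lib.Helper97OBase
open scoped MatrixGroups Kronecker commutatorElement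

variable {ι : Type} [Fintype ι] [DecidableEq ι] {F : Type*} [Field F]
variable {f : (ι → F) → (ι → F) → F} {Q : (ι → F) → F} {H : Subgroup (GL ι F)}

/-! ## fields -/

/-- [saodd] an adjoint-closed field of odd degree is self-adjoint (all characteristics). -/
theorem selfAdjoint_of_odd_degree [Finite F] (hf : IsSymmetricForm f) {r : ℕ} (hr : Odd r)
    (K : Subalgebra F (Matrix ι ι F)) (hK : IsFieldSubalgebra r K) (hadj : IsAdjointClosedFor f K) :
    IsSelfAdjointFor f K :=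
  Cfsg.Agent.Lib.Helper17OSaodd.selfAdjoint_of_odd_degree hf hr K hK hadj

/-- [kdim] the dimension of a `K`-invariant subspace is a multiple of the degree of `K`. -/
theorem finrank_dvd_of_invariant [Finite F] {r : ℕ} (K : Subalgebra F (Matrix ι ι F))
    (hK : IsFieldSubalgebra r K) (W : Submodule F (ι → F)) (hW : ∀ k ∈ K, ∀ w ∈ W, k *ᵥ w ∈ W) :
    r ∣ Module.finrank F W :=
  Cfsg.Agent.Lib.Helper94OKdim.finrank_dvd_of_invariant K hK W hW

/-- [kalt] characteristic 2, `K` self-adjoint: `polar Q (k v) v = 0`. -/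
theorem selfAdjoint_alt [Fintype F] (h2 : (2 : F) = 0) (hQ : IsNondegenerateQuadraticForm Q) {r : ℕ}
    (K : Subalgebra F (Matrix ι ι F)) (hK : IsFieldSubalgebra r K)
    (hsa : IsSelfAdjointFor (QuadraticMap.polar Q) K) :
    ∀ k ∈ K, ∀ v, QuadraticMap.polar Q (k *ᵥ v) v = 0 :=
  Cfsg.Agent.Lib.Helper94OKdim.selfAdjoint_alt h2 hQ K hK hsa

/-- [saeven] characteristic 2, `K` self-adjoint of degree `r`: `2r` divides the dimension. -/
theorem two_mul_dvd_of_selfAdjoint [Fintype F] (h2 : (2 : F) = 0) (hQ : IsNondegenerateQuadraticForm Q)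
    {r : ℕ} (K : Subalgebra F (Matrix ι ι F)) (hK : IsFieldSubalgebra r K)
    (hsa : IsSelfAdjointFor (QuadraticMap.polar Q) K) : 2 * r ∣ Fintype.card ι :=
  Cfsg.Agent.Lib.Helper94OSaeven.two_mul_dvd_of_selfAdjoint h2 hQ K hK hsa

/-- [lalgodd] `q` odd, `K` self-adjoint of degree `n / 2`: the canonical commutative algebra
`L = K + {skew-adjoint elements of the centraliser of K}` of dimension `n`. -/
theorem exists_quadratic_ext_odd [Fintype F] (h2 : (2 : F) ≠ 0) (hQ : IsNondegenerateQuadraticForm Q)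
    {r : ℕ} (K : Subalgebra F (Matrix ι ι F)) (hK : IsFieldSubalgebra r K)
    (hsa : IsSelfAdjointFor (QuadraticMap.polar Q) K) (hn : Fintype.card ι = 2 * r) :
    ∃ L : Subalgebra F (Matrix ι ι F), (∀ x ∈ L, ∀ y ∈ L, x * y = y * x) ∧
      IsAdjointClosedFor (QuadraticMap.polar Q) L ∧ Module.finrank F L = 2 * r ∧
      ∀ g : GL ι F, g ∈ isometryGroup F Q → g ∈ subalgebraNormalizer K →
        ∀ x ∈ L, (g : Matrix ι ι F) * x * ((g⁻¹ : GL ι F) : Matrix ι ι F) ∈ L :=
  Cfsg.Agent.Lib.Helper49OLalgodd.exists_quadratic_ext_odd h2 hQ K hK hsa hn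

/-- [lalgeven] the same in characteristic 2. -/
theorem exists_quadratic_ext_even [Fintype F] (h2 : (2 : F) = 0) (hQ : IsNondegenerateQuadraticForm Q)
    {r : ℕ} (K : Subalgebra F (Matrix ι ι F)) (hK : IsFieldSubalgebra r K)
    (hsa : IsSelfAdjointFor (QuadraticMap.polar Q) K) (hn : Fintype.card ι = 2 * r) :
    ∃ L : Subalgebra F (Matrix ι ι F), (∀ x ∈ L, ∀ y ∈ L, x * y = y * x) ∧
      IsAdjointClosedFor (QuadraticMap.polar Q) L ∧ Module.finrank F L = 2 * r ∧
      ∀ g : GL ι F, g ∈ isometryGroup F Q → g ∈ subalgebraNormalizer K →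
        ∀ x ∈ L, (g : Matrix ι ι F) * x * ((g⁻¹ : GL ι F) : Matrix ι ι F) ∈ L :=
  Cfsg.Agent.Lib.Helper57OLalgEven.exists_quadratic_ext_even h2 hQ K hK hsa hn

/-- [utype] a field of degree 2, adjoint-closed and not self-adjoint, normalised by an irreducible group
of isometries, consists of similarities of `Q`. -/
theorem unitary_similarity [Fintype F] (h2n : 2 ≤ Fintype.card ι) (hQ : IsNondegenerateQuadraticForm Q)
    (hH : H ≤ isometryGroup F Q) (hirr : ActsIrreducibly (matrixSet H))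
    (K : Subalgebra F (Matrix ι ι F)) (hK : IsFieldSubalgebra 2 K)
    (hadj : IsAdjointClosedFor (QuadraticMap.polar Q) K)
    (hnsa : ¬ IsSelfAdjointFor (QuadraticMap.polar Q) K) (hle : H ≤ subalgebraNormalizer K) :
    ∀ k ∈ K, ∃ c : F, ∀ v : ι → F, Q (k *ᵥ v) = c * Q v :=
  Cfsg.Agent.Lib.Helper17OUtype.unitary_similarity h2n hQ hH hirr K hK hadj hnsa hle

/-! ## decompositions -/

/-- [monosub] a monomial group over a non-prime field lies in a subfield group. -/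
theorem sub_of_lines [Fintype F] (hQ : IsNondegenerateQuadraticForm Q) (hH : H ≤ isometryGroup F Q)
    (hD : ODecOne Q H) (hp : ¬ (Fintype.card F).Prime) : OSubZ Q H :=
  Cfsg.Agent.Lib.Helper97OMonoSub.sub_of_lines hQ hH hD hp

/-- [twodec] a non-degenerate subspace of half the dimension and its orthogonal complement. -/
theorem two_dec (hQ : IsNondegenerateQuadraticForm Q) (hH : H ≤ isometryGroup F Q)
    {W : Submodule F (ι → F)} (hW : IsNondegenerateOn (QuadraticMap.polar Q) W) {k : ℕ} (hk0 : 0 < k)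
    (hk : Module.finrank F W = k) (hn : Fintype.card ι = 2 * k) (hle : H ≤ subspaceStabilizer W) :
    ∃ D : Fin 2 → Submodule F (ι → F), D 0 = W ∧
      IsNondegenerateMDecomposition (QuadraticMap.polar Q) k D ∧ H ≤ decompositionStabilizer D ∧
      (AreIsometricFor Q (D 0) (D 1) → IsOrthogonalMDecomposition Q k D) :=
  Cfsg.Agent.Lib.Helper49OTwodec.two_dec hQ hH hW hk0 hk hn hle

/-- [twononiso] `q` odd: two non-isometric orthogonal halves, `(-1)^k` not a square: plus type. -/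
theorem plus_of_two_noniso [Fintype F] (h2 : (2 : F) ≠ 0) (hQ : IsNondegenerateQuadraticForm Q) {k : ℕ}
    {D : Fin 2 → Submodule F (ι → F)} (hD : IsNondegenerateMDecomposition (QuadraticMap.polar Q) k D)
    (hniso : ¬ AreIsometricFor Q (D 0) (D 1)) (hsq : ¬ IsSquare ((-1 : F) ^ k)) : IsPlusTypeOn Q ⊤ :=
  Cfsg.Agent.Lib.Helper49OTwodec.plus_of_two_noniso h2 hQ hD hniso hsq

/-- [planes3m] `q = 3`: isometric anisotropic planes split canonically into two lines. -/
theorem planes_three_minus [Fintype F] (hq : Fintype.card F = 3) (hQ : IsNondegenerateQuadraticForm Q)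
    (hH : H ≤ isometryGroup F Q) {t : ℕ} (D : Fin t → Submodule F (ι → F))
    (hD : IsOrthogonalMDecomposition Q 2 D) (hminus : ∀ i, ¬ IsPlusTypeOn Q (D i))
    (hle : H ≤ decompositionStabilizer D) : ODecOne Q H :=
  Cfsg.Agent.Lib.Helper94OPlanes3m.planes_three_minus hq hQ hH D hD hminus hle

/-! ## tensor products, class 6 -/

/-- [tenstwosym] `q` odd, `polar Q = G₁ ⊗ G₂` with `G₁` symmetric of size 2: `H` normalises the
commutative algebra `F[G₁⁻¹ J] ⊗ 1`. -/
theorem tens_two_sym [Fintype F] (h2 : (2 : F) ≠ 0) (hQ : IsNondegenerateQuadraticForm Q)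
    (hH : H ≤ isometryGroup F Q) {s : ℕ} (hs : 1 ≤ s) (e : ι ≃ Fin 2 × Fin s) (P : GL ι F)
    (G₁ : Matrix (Fin 2) (Fin 2) F) (G₂ : Matrix (Fin s) (Fin s) F)
    (h₁ : IsUnit G₁.det) (h₂ : IsUnit G₂.det)
    (hG : ∀ x y : Fin 2 × Fin s → F, QuadraticMap.polar Q ((P : Matrix ι ι F) *ᵥ (x ∘ e))
      ((P : Matrix ι ι F) *ᵥ (y ∘ e)) = formOfGram id (G₁ ⊗ₖ G₂) x y)
    (hs₁ : G₁ᵀ = G₁) (hle : H ≤ tensorProductSubgroup 2 s e P) :
    ∃ C : Subalgebra F (Matrix ι ι F), NzA H C ∧ (∀ x ∈ C, ∀ y ∈ C, x * y = y * x) ∧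
      IsAdjointClosedFor (QuadraticMap.polar Q) C ∧ Module.finrank F C = 2 :=
  Cfsg.Agent.Lib.Helper95OTenstwosym.tens_two_sym h2 hQ hH hs e P G₁ G₂ h₁ h₂ hG hs₁ hle

/-- [c6pow2] class 6 inside `O(Q)`: the dimension is a power of 2. -/
theorem c6_pow_two [Fintype F] [Nonempty ι] (hQ : IsNondegenerateQuadraticForm Q)
    {N : Subgroup (GL ι F)} (hN : N ≤ isometryGroup F Q) (hcomm : ⁅N, N⁆ ≤ scalars ι F)
    (habs : ActsAbsolutelyIrreducibly (matrixSet N)) : ∃ j : ℕ, Fintype.card ι = 2 ^ j :=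
  Cfsg.Agent.Lib.Helper97OC6Pow.c6_pow_two hQ hN hcomm habs

end Cfsg.Agent.Lib.Helper58AschI
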