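import Mathlib
import Cfsg.Agent.Lib.Helper54OSim

set_option autoImplicit false

/-! ASCH-O piece [cong] (helper70). -/

namespace Cfsg.Agent.Lib.Helper70OCong

open Matrix Cfsg.Agent.Lib.Helper54OSim
open scoped MatrixGroups

variable {F : Type*} [Field F]

theorem sym_congruent_fin [Fintype F] (h2 : (2 : F) ≠ 0) {k : ℕ}
    (G G' : Matrix (Fin (k + 1)) (Fin (k + 1)) F) (hG : Gᵀ = G) (hG' : G'ᵀ = G')
    (hu : IsUnit G.det) (hu' : IsUnit G'.det) (hsq : IsSquare (G.det * G'.det)) :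
    ∃ A : Matrix (Fin (k + 1)) (Fin (k + 1)) F, A.det ≠ 0 ∧ Aᵀ * G * A = G' := by
  obtain ⟨A₁, δ, hδ, hA₁⟩ := normal_form h2 G hG hu
  obtain ⟨A₂, δ', hδ', hA₂⟩ := normal_form h2 G' hG' hu'
  have e1 : A₁.det ^ 2 * G.det = δ := by
    have := congrArg Matrix.det hA₁
    rw [Matrix.det_mul, Matrix.det_mul, Matrix.det_transpose, det_DD] at this
    rw [← this]; ring
  have e2 : A₂.det ^ 2 * G'.det = δ' := by
    have := congrArg Matrix.det hA₂
    rw [Matrix.det_mul, Matrix.det_mul, Matrix.det_transpose, det_DD] at this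
    rw [← this]; ring
  have hA₁0 : A₁.det ≠ 0 := by
    intro h; rw [h] at e1; apply hδ; rw [← e1]; ring
  have hA₂0 : A₂.det ≠ 0 := by
    intro h; rw [h] at e2; apply hδ'; rw [← e2]; ring
  obtain ⟨t, ht⟩ := hsq
  set s : F := A₁.det * A₂.det * t / δ with hs
  have ht0 : t ≠ 0 := by
    rintro rfl
    rw [mul_zero] at ht
    exact (mul_ne_zero hu.ne_zero hu'.ne_zero) ht
  have hs0 : s ≠ 0 := div_ne_zero (mul_ne_zero (mul_ne_zero hA₁0 hA₂0) ht0) hδ
  have e3 : δ' = δ * s ^ 2 := by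
    rw [hs]
    field_simp
    rw [← e1, ← e2]
    linear_combination (A₁.det ^ 2 * A₂.det ^ 2) * ht
  have hA₂u : IsUnit A₂.det := hA₂0.isUnit
  refine ⟨A₁ * DD k s * A₂⁻¹, ?_, ?_⟩
  · rw [Matrix.det_mul, Matrix.det_mul, det_DD, Matrix.det_nonsing_inv]
    exact mul_ne_zero (mul_ne_zero hA₁0 hs0) (by simpa using hA₂0)
  · have h : (A₁ * DD k s)ᵀ * G * (A₁ * DD k s) = A₂ᵀ * G' * A₂ := by
      rw [hA₂, e3, ← DD_mul, ← hA₁, Matrix.transpose_mul]
      simp only [Matrix.mul_assoc]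
    calc (A₁ * DD k s * A₂⁻¹)ᵀ * G * (A₁ * DD k s * A₂⁻¹)
        = (A₂⁻¹)ᵀ * ((A₁ * DD k s)ᵀ * G * (A₁ * DD k s)) * A₂⁻¹ := by
          rw [Matrix.transpose_mul (A₁ * DD k s)]
          simp only [Matrix.mul_assoc]
      _ = (A₂⁻¹)ᵀ * (A₂ᵀ * G' * A₂) * A₂⁻¹ := by rw [h]
      _ = ((A₂⁻¹)ᵀ * A₂ᵀ) * G' * (A₂ * A₂⁻¹) := by simp only [Matrix.mul_assoc]
      _ = G' := by
          rw [← Matrix.transpose_mul, Matrix.mul_nonsing_inv _ hA₂u, Matrix.transpose_one,
            Matrix.one_mul, Matrix.mul_one]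

/-- [cong] `q` odd: symmetric matrices of the same size with the same discriminant are congruent. -/
theorem sym_congruent [Fintype F] (h2 : (2 : F) ≠ 0) {κ : Type} [Fintype κ] [DecidableEq κ]
    (G G' : Matrix κ κ F) (hG : Gᵀ = G) (hG' : G'ᵀ = G') (hu : IsUnit G.det) (hu' : IsUnit G'.det)
    (hsq : IsSquare (G.det * G'.det)) : ∃ A : GL κ F, (A : Matrix κ κ F)ᵀ * G * (A : Matrix κ κ F) = G' := by
  rcases Nat.eq_zero_or_pos (Fintype.card κ) with h0 | h0
  · have : IsEmpty κ := Fintype.card_eq_zero_iff.1 h0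
    exact ⟨1, Subsingleton.elim _ _⟩
  · obtain ⟨k, hk⟩ : ∃ k, Fintype.card κ = k + 1 := ⟨Fintype.card κ - 1, by omega⟩
    let e : κ ≃ Fin (k + 1) := Fintype.equivFinOfCardEq hk
    obtain ⟨A, hA0, hA⟩ := sym_congruent_fin h2 (G.submatrix e.symm e.symm)
      (G'.submatrix e.symm e.symm)
      (by rw [Matrix.transpose_submatrix, hG]) (by rw [Matrix.transpose_submatrix, hG'])
      (by rw [Matrix.det_submatrix_equiv_self]; exact hu)
      (by rw [Matrix.det_submatrix_equiv_self]; exact hu')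
      (by rw [Matrix.det_submatrix_equiv_self, Matrix.det_submatrix_equiv_self]; exact hsq)
    have hdet : (A.submatrix e e).det ≠ 0 := by
      rw [Matrix.det_submatrix_equiv_self]; exact hA0
    refine ⟨Matrix.GeneralLinearGroup.mkOfDetNeZero (A.submatrix e e) hdet, ?_⟩
    have h1 := congrArg (fun M => M.submatrix e e) hA
    simp only [← Matrix.submatrix_mul_equiv _ _ e e e, Matrix.submatrix_submatrix,
      Equiv.symm_comp_self, Matrix.submatrix_id_id, ← Matrix.transpose_submatrix] at h1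
    exact h1

end Cfsg.Agent.Lib.Helper70OCong
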