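import Mathlib
import Cfsg.Agent.Lib.Helper49Gram
import Cfsg.Agent.Lib.Helper49Disc
import Cfsg.Agent.Lib.Helper96OrthStd

set_option autoImplicit false

/-! ASCH-O piece [discconv] (helper70). -/

namespace Cfsg.Agent.Lib.Helper70ODiscconv

open Cfsg Cfsg.Geo Matrix

variable {ι : Type} [Fintype ι] [DecidableEq ι] {F : Type*} [Field F]
variable {Q : (ι → F) → F}

/-- [discconv] `q` odd: in a space of plus type `(-1)^l disc(Q)` is a square. -/
theorem disc_of_plus [Fintype F] (h2 : (2 : F) ≠ 0) (hQ : IsNondegenerateQuadraticForm Q) {l : ℕ}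
    (hl : Fintype.card ι = 2 * l) (hplus : IsPlusTypeOn Q ⊤) :
    IsSquare ((-1 : F) ^ l * (gramMatrix (QuadraticMap.polar Q)).det) := by
  obtain ⟨U, -, hU, hdim⟩ := hplus
  obtain ⟨Q', rfl⟩ := Cfsg.Agent.Lib.Helper96OrthStd.exists_quad hQ
  rw [finrank_top, Module.finrank_fintype_fun_eq_card, hl] at hdim
  have hdU : Module.finrank F U = l := by omega
  obtain ⟨U', hc⟩ := Submodule.exists_isCompl U
  have hdU' : Module.finrank F U' = l := by
    have := Submodule.finrank_add_eq_of_isCompl hc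
    rw [Module.finrank_fintype_fun_eq_card, hl, hdU] at this
    omega
  let bU : Module.Basis (Fin l) F U := Module.finBasisOfFinrankEq F U hdU
  let bU' : Module.Basis (Fin l) F U' := Module.finBasisOfFinrankEq F U' hdU'
  let bas : Module.Basis (Fin l ⊕ Fin l) F (ι → F) :=
    (bU.prod bU').map (Submodule.prodEquivOfIsCompl U U' hc)
  have hb1 : ∀ i, bas (Sum.inl i) = (bU i : ι → F) := by
    intro i
    simp [bas]
  have hb2 : ∀ i, bas (Sum.inr i) = (bU' i : ι → F) := by
    intro i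
    simp [bas]
  have hUU : ∀ u ∈ U, ∀ u' ∈ U, QuadraticMap.polar Q' u u' = 0 := by
    intro u hu u' hu'
    unfold QuadraticMap.polar
    rw [hU _ (U.add_mem hu hu'), hU u hu, hU u' hu']
    simp
  obtain ⟨d, hd, hdet⟩ := Cfsg.Agent.Lib.Helper49Gram.det_gram_basis Q' bas
  set A : Matrix (Fin l) (Fin l) F :=
    Matrix.of (fun i j => QuadraticMap.polar Q' (bU i : ι → F) (bU' j : ι → F)) with hA
  set B : Matrix (Fin l) (Fin l) F :=
    Matrix.of (fun i j => QuadraticMap.polar Q' (bU' i : ι → F) (bU' j : ι → F)) with hB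
  have hmat : Matrix.of (fun k l => QuadraticMap.polar Q' (bas k) (bas l))
      = Matrix.fromBlocks 0 A Aᵀ B := by
    ext i j
    rcases i with i | i <;> rcases j with j | j
    · simp [hb1, hUU _ (bU i).2 _ (bU j).2]
    · simp [hb1, hb2, hA]
    · simp [hb1, hb2, hA, QuadraticMap.polar_comm Q' (bU' i : ι → F)]
    · simp [hb2, hB]
  have hswap : Matrix.fromBlocks 0 A Aᵀ B *
      Matrix.fromBlocks (0 : Matrix (Fin l) (Fin l) F) 1 1 0 = Matrix.fromBlocks A 0 B Aᵀ := by
    rw [Matrix.fromBlocks_multiply]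
    simp
  have hdet2 := congrArg Matrix.det hswap
  rw [Matrix.det_mul, Cfsg.Agent.Lib.Helper49Disc.det_swap_blocks, Matrix.det_fromBlocks_zero₁₂,
    Matrix.det_transpose, ← hmat, hdet] at hdet2
  have hG : (gramMatrix (QuadraticMap.polar Q')).det = (Cfsg.Agent.Lib.Helper49Gram.gram Q').det :=
    rfl
  rw [hG]
  refine ⟨A.det / d, ?_⟩
  field_simp
  linear_combination hdet2

end Cfsg.Agent.Lib.Helper70ODiscconv
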