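import Mathlib
import Cfsg.Agent.Lib.Helper95SpTensodd

set_option autoImplicit false

/-! ASCH-O piece [sympl] (helper70). -/

namespace Cfsg.Agent.Lib.Helper70OSympl

open Cfsg Cfsg.Geo Matrix
open Cfsg.Agent.Lib.Helper95SpTensodd
open scoped MatrixGroups Kronecker

variable {ι : Type} [Fintype ι] [DecidableEq ι] {F : Type*} [Field F]
variable {Q : (ι → F) → F}

theorem formOfGram_self_alt {κ : Type} [Fintype κ] [DecidableEq κ] (G : Matrix κ κ F)
    (hs : Gᵀ = -G) (h0 : ∀ i, G i i = 0) (v : κ → F) : formOfGram id G v v = 0 := by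
  have hs' : ∀ a b, G b a = - G a b := fun a b => by
    have := congrFun (congrFun hs a) b
    simpa using this
  unfold formOfGram
  rw [← Finset.sum_product' (s := Finset.univ) (t := Finset.univ)
    (f := fun a b => v a * G a b * id (v b))]
  refine Finset.sum_involution (fun p _ => (p.2, p.1)) ?_ ?_ ?_ ?_
  · rintro ⟨a, b⟩ _
    simp only [id]
    rw [hs' a b]
    ring
  · rintro ⟨a, b⟩ _ hne heq
    simp only [Prod.mk.injEq] at heq
    obtain ⟨rfl, -⟩ := heq
    apply hne
    simp [h0]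
  · intro p _
    simp
  · intro p _
    rfl

/-- [sympl] alternating matrices give symplectic forms (all characteristics); `q` odd: `Q` vanishes on the
pure tensors of a product of two skew forms. -/
theorem formOfGram_symplectic_alt {κ : Type} [Fintype κ] [DecidableEq κ] (G : Matrix κ κ F)
    (hG : IsUnit G.det) (hs : Gᵀ = -G) (h0 : ∀ i, G i i = 0) : IsSymplecticForm (formOfGram id G) where
  bilinear := formOfGram_bilinear G
  skew u v := by rw [formOfGram_flip, hs, formOfGram_neg]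
  alternating v := formOfGram_self_alt G hs h0 v
  nondegenerate := formOfGram_nondegenerate G hG

theorem formOfGram_kron_pure {m n : ℕ} (G₁ : Matrix (Fin m) (Fin m) F) (G₂ : Matrix (Fin n) (Fin n) F)
    (x x' : Fin m → F) (w w' : Fin n → F) :
    formOfGram id (G₁ ⊗ₖ G₂) (fun a : Fin m × Fin n => x a.1 * w a.2)
      (fun a : Fin m × Fin n => x' a.1 * w' a.2) =
      formOfGram id G₁ x x' * formOfGram id G₂ w w' := by
  simp only [formOfGram, id, Matrix.kroneckerMap_apply, Fintype.sum_prod_type]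
  rw [Finset.sum_mul_sum]
  refine Finset.sum_congr rfl fun i _ => Finset.sum_congr rfl fun j _ => ?_
  rw [Finset.sum_mul_sum]
  refine Finset.sum_congr rfl fun i' _ => Finset.sum_congr rfl fun j' _ => ?_
  ring

theorem pure_zero_of_skew (h2 : (2 : F) ≠ 0) (hQ : IsNondegenerateQuadraticForm Q) {d s : ℕ}
    (e : ι ≃ Fin d × Fin s) (P : GL ι F) (G₁ : Matrix (Fin d) (Fin d) F) (G₂ : Matrix (Fin s) (Fin s) F)
    (hG : ∀ x y : Fin d × Fin s → F, QuadraticMap.polar Q ((P : Matrix ι ι F) *ᵥ (x ∘ e))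
      ((P : Matrix ι ι F) *ᵥ (y ∘ e)) = formOfGram id (G₁ ⊗ₖ G₂) x y) (hs₁ : G₁ᵀ = -G₁) :
    ∀ (x₁ : Fin d → F) (x₂ : Fin s → F),
      Q ((P : Matrix ι ι F) *ᵥ ((fun a : Fin d × Fin s => x₁ a.1 * x₂ a.2) ∘ e)) = 0 := by
  intro x₁ x₂
  have h1 := hG (fun a : Fin d × Fin s => x₁ a.1 * x₂ a.2) (fun a : Fin d × Fin s => x₁ a.1 * x₂ a.2)
  rw [formOfGram_kron_pure] at h1
  have h3 : formOfGram id G₁ x₁ x₁ = 0 := by
    have h : formOfGram id G₁ x₁ x₁ = - formOfGram id G₁ x₁ x₁ := by
      conv_lhs => rw [formOfGram_flip, hs₁, formOfGram_neg]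
    have h3 : (2 : F) * formOfGram id G₁ x₁ x₁ = 0 := by linear_combination h
    rcases mul_eq_zero.1 h3 with h | h
    · exact absurd h h2
    · exact h
  rw [h3, zero_mul] at h1
  set v := (P : Matrix ι ι F) *ᵥ ((fun a : Fin d × Fin s => x₁ a.1 * x₂ a.2) ∘ e) with hv
  have h4 : QuadraticMap.polar Q v v = 2 * Q v := by
    unfold QuadraticMap.polar
    have : v + v = (2 : F) • v := (two_smul F v).symm
    rw [this, hQ.smul]
    ring
  rw [h4] at h1
  rcases mul_eq_zero.1 h1 with h | h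
  · exact absurd h h2
  · exact h

end Cfsg.Agent.Lib.Helper70OSympl
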