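import Cfsg.Agent.Lib.Helper92OPtens
import Cfsg.Agent.Lib.Helper95ORrall

set_option autoImplicit false

/-! PROJECT 5 = ASCH-O, PART 4, piece `ptensalt`. -/

namespace Cfsg.Agent.Lib.Helper86OPtensalt

open Cfsg Cfsg.Geo Matrix
open Cfsg.Agent.Lib.Helper97GBase Cfsg.Agent.Lib.Helper97GForms
  Cfsg.Agent.Lib.Helper98AschGDefs Cfsg.Agent.Lib.Helper98AschGBasic
  Cfsg.Agent.Lib.Helper97OBase Cfsg.Agent.Lib.Helper97OProper
open Cfsg.Agent.Lib.Helper92SpDTensor (Pure2 pure2_kronecker emb_injective)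
open Cfsg.Agent.Lib.Helper95ORrall (rr_mem_all)
open scoped MatrixGroups Kronecker

variable {ι : Type} [Fintype ι] [DecidableEq ι] {F : Type*} [Field F]
variable {Q : (ι → F) → F}

/-- the `2 × 2` minors of a pure tensor vanish -/
lemma pure2_minor {d s : ℕ} {u : Fin d × Fin s → F} (hu : Pure2 u) (i k : Fin d) (j m : Fin s) :
    u (i, j) * u (k, m) = u (i, m) * u (k, j) := by
  obtain ⟨x, y, h⟩ := hu
  rw [h, h, h, h]
  ring

/-- [ptensalt] `Ω` stabilises no tensor decomposition all of whose pure tensors are singular. -/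
theorem not_le_tensor_pure [Fintype F] (hQ : IsNondegenerateQuadraticForm Q) (hn : 7 ≤ Fintype.card ι)
    {d s : ℕ} (hd : 2 ≤ d) (hs : 3 ≤ s) (e : ι ≃ Fin d × Fin s) (P : GL ι F)
    (hpure : ∀ (x₁ : Fin d → F) (x₂ : Fin s → F),
      Q ((P : Matrix ι ι F) *ᵥ ((fun a : Fin d × Fin s => x₁ a.1 * x₂ a.2) ∘ e)) = 0) :
    ¬ omegaGL Q ≤ tensorProductSubgroup d s e P := by
  intro hle
  have hb := hQ.polar_bilinear
  set E : (Fin d × Fin s → F) → (ι → F) := fun u => (P : Matrix ι ι F) *ᵥ (u ∘ e) with hE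
  have Eadd : ∀ u w, E (u + w) = E u + E w := by
    intro u w
    simp only [hE]
    rw [← Matrix.mulVec_add]
    rfl
  have Esmul : ∀ (c : F) u, E (c • u) = c • E u := by
    intro c u
    simp only [hE]
    rw [← Matrix.mulVec_smul]
    rfl
  set T : (Fin d → F) → (Fin s → F) → (Fin d × Fin s → F) := fun x y a => x a.1 * y a.2 with hT
  have hQT : ∀ x y, Q (E (T x y)) = 0 := hpure
  have hB1 : ∀ x x' y, QuadraticMap.polar Q (E (T x y)) (E (T x' y)) = 0 := by
    intro x x' y
    have h1 : T x y + T x' y = T (x + x') y := by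
      funext a
      simp only [hT, Pi.add_apply]
      ring
    unfold QuadraticMap.polar
    rw [← Eadd, h1, hQT, hQT, hQT]
    simp
  have hB2 : ∀ x y y', QuadraticMap.polar Q (E (T x y)) (E (T x y')) = 0 := by
    intro x y y'
    have h1 : T x y + T x y' = T x (y + y') := by
      funext a
      simp only [hT, Pi.add_apply]
      ring
    unfold QuadraticMap.polar
    rw [← Eadd, h1, hQT, hQT, hQT]
    simp
  have hsingle : ∀ a : Fin d × Fin s, (Pi.single a 1 : Fin d × Fin s → F)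
      = T (Pi.single a.1 1) (Pi.single a.2 1) := by
    intro a
    funext c
    simp only [hT, Pi.single_apply]
    by_cases h1 : c.1 = a.1
    · by_cases h2 : c.2 = a.2
      · have : c = a := Prod.ext h1 h2
        simp [this]
      · have : c ≠ a := fun h => h2 (by rw [h])
        simp [this, h2]
    · have : c ≠ a := fun h => h1 (by rw [h])
      simp [this, h1]
  have hE0 : E 0 = 0 := by
    simp only [hE]
    have : ((0 : Fin d × Fin s → F) ∘ e) = 0 := by ext i; simp
    rw [this, Matrix.mulVec_zero]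
  have hex : ∃ a b : Fin d × Fin s,
      QuadraticMap.polar Q (E (Pi.single a 1)) (E (Pi.single b 1)) ≠ 0 := by
    let b₀ : Fin d × Fin s := (⟨0, by omega⟩, ⟨0, by omega⟩)
    have hv0 : E (Pi.single b₀ 1) ≠ 0 := by
      intro h
      have h0 : E (Pi.single b₀ 1) = E 0 := by rw [h, hE0]
      have h1 := emb_injective e P h0
      have h2 := congrFun h1 b₀
      simp at h2
    obtain ⟨x, hx⟩ := (hQ.nondegenerate _ hv0).1
    obtain ⟨u, rfl⟩ := Cfsg.Agent.Lib.Helper96SpDefs.exists_coords e P x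
    by_contra hcon
    push Not at hcon
    apply hx
    rw [Cfsg.Agent.Lib.Helper96SpDefs.comp_eq_sum e u, Matrix.mulVec_sum,
      Cfsg.Agent.Lib.Helper96SpDefs.bil_sum_left hb]
    apply Finset.sum_eq_zero
    intro a _
    rw [Matrix.mulVec_smul, hb.smul_left]
    have := hcon a b₀
    simp only [hE] at this
    rw [this, mul_zero]
  obtain ⟨⟨i, j⟩, ⟨k, l⟩, hab⟩ := hex
  have hik : i ≠ k := by
    rintro rfl
    apply hab
    rw [hsingle, hsingle]
    exact hB2 _ _ _
  have hjl : j ≠ l := by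
    rintro rfl
    apply hab
    rw [hsingle, hsingle]
    exact hB1 _ _ _
  obtain ⟨m, hmj, hml⟩ : ∃ m : Fin s, m ≠ j ∧ m ≠ l := by
    by_contra hcon
    push Not at hcon
    have h1 : (Finset.univ : Finset (Fin s)) ⊆ {j, l} := by
      intro m _
      by_cases h : m = j
      · simp [h]
      · simp [hcon m h]
    have h2 := Finset.card_le_card h1
    have h3 := Finset.card_le_two (a := j) (b := l)
    simp only [Finset.card_univ, Fintype.card_fin] at h2
    omega
  have hQs : ∀ c : Fin d × Fin s, Q (E (Pi.single c 1)) = 0 := by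
    intro c
    rw [hsingle]
    exact hQT _ _
  set a : ι → F := E (Pi.single (i, j) 1) + E (Pi.single (k, l) 1) with ha
  have hQa' : Q a = QuadraticMap.polar Q (E (Pi.single (i, j) 1)) (E (Pi.single (k, l) 1)) := by
    unfold QuadraticMap.polar
    rw [hQs, hQs, ha]
    simp
  have hQa : Q a ≠ 0 := by rw [hQa']; exact hab
  have hakl : QuadraticMap.polar Q a (E (Pi.single (k, l) 1)) ≠ 0 := by
    have h1 : QuadraticMap.polar Q (E (Pi.single (k, l) 1)) (E (Pi.single (k, l) 1)) = 0 := by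
      rw [hsingle]
      exact hB1 _ _ _
    rw [ha, hb.add_left, h1, add_zero]
    exact hab
  obtain ⟨c, hc⟩ : ∃ c : F, QuadraticMap.polar Q a
      (E (c • Pi.single (k, l) 1 + Pi.single (k, m) 1)) ≠ 0 := by
    by_cases h : QuadraticMap.polar Q a (E (Pi.single (k, m) 1)) = 0
    · refine ⟨1, ?_⟩
      rw [Eadd, hb.add_right, h, add_zero, one_smul]
      exact hakl
    · refine ⟨0, ?_⟩
      rw [zero_smul, zero_add]
      exact h
  set X : Fin d × Fin s → F := c • Pi.single (k, l) 1 + Pi.single (k, m) 1 with hX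
  have hXpure : Pure2 X := by
    refine ⟨Pi.single k 1, c • Pi.single l 1 + Pi.single m 1, fun z => ?_⟩
    rw [hX, hsingle, hsingle]
    simp only [hT, Pi.add_apply, Pi.smul_apply, smul_eq_mul]
    ring
  set v : ι → F := E X with hv
  obtain ⟨b, hbv, -, hQb⟩ := exists_perp_two hQ hn v v (Q a)
  have hQb0 : Q b ≠ 0 := by rw [hQb]; exact hQa
  have hg := hle (rr_mem_all hQ (by omega) a b hQa hQb0 hQb.symm)
  rw [mem_tensorProductSubgroup_iff] at hg
  obtain ⟨A, B, hAB⟩ := hg
  have hpure' := pure2_kronecker (A : Matrix (Fin d) (Fin d) F) (B : Matrix (Fin s) (Fin s) F) hXpure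
  set t : F := (Q a)⁻¹ * QuadraticMap.polar Q a v with ht
  have ht0 : t ≠ 0 := mul_ne_zero (inv_ne_zero hQa) hc
  have hval : ((A : Matrix (Fin d) (Fin d) F) ⊗ₖ (B : Matrix (Fin s) (Fin s) F)) *ᵥ X
      = X - t • (Pi.single (i, j) 1 + Pi.single (k, l) 1) := by
    apply emb_injective e P
    have h3 := Cfsg.Agent.Lib.Helper96SpDefs.conj_reindex_mulVec e P
      ((A : Matrix (Fin d) (Fin d) F) ⊗ₖ (B : Matrix (Fin s) (Fin s) F)) X
    rw [← h3]
    have h4 : (P : Matrix ι ι F) * Matrix.reindex e.symm e.symm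
        ((A : Matrix (Fin d) (Fin d) F) ⊗ₖ (B : Matrix (Fin s) (Fin s) F)) * ((P⁻¹ : GL ι F) : Matrix ι ι F) =
        ((rf hQ a hQa * rf hQ b hQb0 : GL ι F) : Matrix ι ι F) := hAB.symm
    have h5 : (P : Matrix ι ι F) *ᵥ (X ∘ e) = v := rfl
    rw [h4, Units.val_mul, ← Matrix.mulVec_mulVec, h5, rf_fix hQ b hQb0 hbv, rf_mulVec, ← ht]
    have h6 : E (X - t • (Pi.single (i, j) 1 + Pi.single (k, l) 1)) = v - t • a := by
      rw [sub_eq_add_neg, ← neg_smul, Eadd X, Esmul, Eadd (Pi.single (i, j) 1), ← ha, neg_smul,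
        ← sub_eq_add_neg]
    exact h6.symm
  have hmin := pure2_minor hpure' i k j m
  rw [hval] at hmin
  simp [hX, Pi.single_apply, hik, hik.symm, hmj, hmj.symm, hml, hml.symm, hjl, hjl.symm] at hmin
  exact ht0 hmin

end Cfsg.Agent.Lib.Helper86OPtensalt
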