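import Cfsg.Agent.Lib.Helper95SpTenstwo

set_option autoImplicit false

/-! PROJECT 5 = ASCH-O, PART 4: piece `simjj`. -/

namespace Cfsg.Agent.Lib.Helper94OSimjj

open Cfsg Cfsg.Geo Matrix Cfsg.Agent.Lib.Helper95SpTenstwo
open scoped MatrixGroups Kronecker

variable {F : Type*} [Field F]

lemma entries (b : Matrix (Fin 2 × Fin 2) (Fin 2 × Fin 2) F) (p q : Fin 2 × Fin 2) :
    (bᵀ * (J0 F ⊗ₖ J0 F) * b) p q = b (0, 0) p * b (1, 1) q + b (1, 1) p * b (0, 0) q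
      - b (0, 1) p * b (1, 0) q - b (1, 0) p * b (0, 1) q := by
  simp [Matrix.mul_apply, Fintype.sum_prod_type, Fin.sum_univ_two, J0, Matrix.kroneckerMap_apply]
  ring

lemma eqs {b : Matrix (Fin 2 × Fin 2) (Fin 2 × Fin 2) F} {ν : F}
    (hb : bᵀ * (J0 F ⊗ₖ J0 F) * b = ν • (J0 F ⊗ₖ J0 F)) (p q : Fin 2 × Fin 2) :
    b (0, 0) p * b (1, 1) q + b (1, 1) p * b (0, 0) q
      - b (0, 1) p * b (1, 0) q - b (1, 0) p * b (0, 1) q = ν * (J0 F p.1 q.1 * J0 F p.2 q.2) := by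
  rw [← entries, hb]
  rfl

/-- the normalised case: the first column is the first basis vector -/
lemma sim_norm (h2 : (2 : F) ≠ 0) (b : Matrix (Fin 2 × Fin 2) (Fin 2 × Fin 2) F) {ν : F} (hν : ν ≠ 0)
    (hb : bᵀ * (J0 F ⊗ₖ J0 F) * b = ν • (J0 F ⊗ₖ J0 F)) (hdet : b.det = ν ^ 2)
    (h00 : b (0, 0) (0, 0) = 1) (h01 : b (0, 1) (0, 0) = 0) (h10 : b (1, 0) (0, 0) = 0)
    (h11 : b (1, 1) (0, 0) = 0) :
    ∃ a₁ a₂ : Matrix (Fin 2) (Fin 2) F, b = a₁ ⊗ₖ a₂ := by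
  have e12 := eqs hb (0, 0) (0, 1)
  have e13 := eqs hb (0, 0) (1, 0)
  have e14 := eqs hb (0, 0) (1, 1)
  have e22 := eqs hb (0, 1) (0, 1)
  have e33 := eqs hb (1, 0) (1, 0)
  have e23 := eqs hb (0, 1) (1, 0)
  have e24 := eqs hb (0, 1) (1, 1)
  have e34 := eqs hb (1, 0) (1, 1)
  have e44 := eqs hb (1, 1) (1, 1)
  simp only [h00, h01, h10, h11, J0, Matrix.of_apply, Matrix.cons_val', Matrix.cons_val_zero,
    Matrix.cons_val_one, Matrix.cons_val_fin_one] at e12 e13 e14 e22 e33 e23 e24 e34 e44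
  have d2 : b (1, 1) (0, 1) = 0 := by linear_combination e12
  have d3 : b (1, 1) (1, 0) = 0 := by linear_combination e13
  have d4 : b (1, 1) (1, 1) = ν := by linear_combination e14
  rw [d2] at e22 e23 e24
  rw [d3] at e33 e23 e34
  rw [d4] at e24 e34 e44
  have f22 : b (0, 1) (0, 1) * b (1, 0) (0, 1) = 0 := by
    have : 2 * (b (0, 1) (0, 1) * b (1, 0) (0, 1)) = 0 := by linear_combination -e22
    exact (mul_eq_zero.1 this).resolve_left h2
  have f33 : b (0, 1) (1, 0) * b (1, 0) (1, 0) = 0 := by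
    have : 2 * (b (0, 1) (1, 0) * b (1, 0) (1, 0)) = 0 := by linear_combination -e33
    exact (mul_eq_zero.1 this).resolve_left h2
  have f23 : b (0, 1) (0, 1) * b (1, 0) (1, 0) + b (1, 0) (0, 1) * b (0, 1) (1, 0) = ν := by
    linear_combination -e23
  have f24 : b (0, 0) (0, 1) * ν = b (0, 1) (0, 1) * b (1, 0) (1, 1) + b (1, 0) (0, 1) * b (0, 1) (1, 1) := by
    linear_combination e24
  have f34 : b (0, 0) (1, 0) * ν = b (0, 1) (1, 0) * b (1, 0) (1, 1) + b (1, 0) (1, 0) * b (0, 1) (1, 1) := by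
    linear_combination e34
  have f44 : b (0, 0) (1, 1) * ν = b (0, 1) (1, 1) * b (1, 0) (1, 1) := by
    have : 2 * (b (0, 0) (1, 1) * ν - b (0, 1) (1, 1) * b (1, 0) (1, 1)) = 0 := by linear_combination e44
    exact sub_eq_zero.1 ((mul_eq_zero.1 this).resolve_left h2)
  by_cases hβ : b (0, 1) (0, 1) = 0
  · -- the improper case
    exfalso
    rw [hβ] at f23 f24
    have hν' : b (1, 0) (0, 1) * b (0, 1) (1, 0) = ν := by linear_combination f23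
    have hγ2 : b (1, 0) (0, 1) ≠ 0 := by
      intro h; rw [h, zero_mul] at hν'; exact hν hν'.symm
    have hβ3 : b (0, 1) (1, 0) ≠ 0 := by
      intro h; rw [h, mul_zero] at hν'; exact hν hν'.symm
    have g3 : b (1, 0) (1, 0) = 0 := (mul_eq_zero.1 f33).resolve_left hβ3
    have β4 : b (0, 1) (1, 1) = b (0, 0) (0, 1) * b (0, 1) (1, 0) := by
      apply mul_left_cancel₀ hγ2
      linear_combination -f24 - b (0, 0) (0, 1) * hν'
    have γ4 : b (1, 0) (1, 1) = b (1, 0) (0, 1) * b (0, 0) (1, 0) := by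
      apply mul_left_cancel₀ hβ3
      rw [g3] at f34
      linear_combination -f34 - b (0, 0) (1, 0) * hν'
    have α4 : b (0, 0) (1, 1) = b (0, 0) (0, 1) * b (0, 0) (1, 0) := by
      apply mul_right_cancel₀ hν
      rw [f44, β4, γ4]
      linear_combination (b (0, 0) (0, 1) * b (0, 0) (1, 0)) * hν'
    have hbb : b = ((!![1, b (0, 0) (0, 1); 0, b (1, 0) (0, 1)] : Matrix (Fin 2) (Fin 2) F) ⊗ₖ
        (!![1, b (0, 0) (1, 0); 0, b (0, 1) (1, 0)] : Matrix (Fin 2) (Fin 2) F)).submatrix id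
          (Equiv.prodComm (Fin 2) (Fin 2)) := by
      rw [← Matrix.ext_iff]
      simp only [Prod.forall, Fin.forall_fin_two, Matrix.submatrix_apply, Matrix.kroneckerMap_apply]
      simp [h00, h01, h10, h11, d2, d3, d4, g3, hβ, γ4, β4, α4, hν']
    have hsign : Equiv.Perm.sign (Equiv.prodComm (Fin 2) (Fin 2)) = -1 := by decide
    rw [hbb, Matrix.det_permute', Matrix.det_kronecker, hsign] at hdet
    simp [Matrix.det_fin_two] at hdet
    have h4 : 2 * ν ^ 2 = 0 := by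
      linear_combination -hdet - (b (1, 0) (0, 1) * b (0, 1) (1, 0) + ν) * hν'
    exact (mul_ne_zero h2 (pow_ne_zero 2 hν)) h4
  · have g2 : b (1, 0) (0, 1) = 0 := (mul_eq_zero.1 f22).resolve_left hβ
    rw [g2] at f23 f24
    have hν' : b (0, 1) (0, 1) * b (1, 0) (1, 0) = ν := by linear_combination f23
    have hγ3 : b (1, 0) (1, 0) ≠ 0 := by
      intro h; rw [h, mul_zero] at hν'; exact hν hν'.symm
    have b3 : b (0, 1) (1, 0) = 0 := (mul_eq_zero.1 f33).resolve_right hγ3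
    have γ4 : b (1, 0) (1, 1) = b (1, 0) (1, 0) * b (0, 0) (0, 1) := by
      apply mul_left_cancel₀ hβ
      linear_combination -f24 - b (0, 0) (0, 1) * hν'
    have β4 : b (0, 1) (1, 1) = b (0, 0) (1, 0) * b (0, 1) (0, 1) := by
      apply mul_left_cancel₀ hγ3
      rw [b3] at f34
      linear_combination -f34 - b (0, 0) (1, 0) * hν'
    have α4 : b (0, 0) (1, 1) = b (0, 0) (1, 0) * b (0, 0) (0, 1) := by
      apply mul_right_cancel₀ hν
      rw [f44, β4, γ4]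
      linear_combination (b (0, 0) (0, 1) * b (0, 0) (1, 0)) * hν'
    refine ⟨!![1, b (0, 0) (1, 0); 0, b (1, 0) (1, 0)], !![1, b (0, 0) (0, 1); 0, b (0, 1) (0, 1)], ?_⟩
    rw [← Matrix.ext_iff]
    simp only [Prod.forall, Fin.forall_fin_two, Matrix.kroneckerMap_apply]
    simp [h00, h01, h10, h11, d2, d3, d4, g2, b3, γ4, β4, α4]
    linear_combination -hν'

lemma exists_det_one (x : Fin 2 → F) (hx : x ≠ 0) :
    ∃ a : Matrix (Fin 2) (Fin 2) F, a.det = 1 ∧ ∀ i, a i 0 = x i := by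
  by_cases h0 : x 0 = 0
  · have h1 : x 1 ≠ 0 := by
      intro h1
      apply hx
      ext i
      fin_cases i
      · exact h0
      · exact h1
    refine ⟨!![x 0, -(x 1)⁻¹; x 1, 0], ?_, ?_⟩
    · rw [Matrix.det_fin_two_of]
      field_simp
      ring
    · intro i
      fin_cases i <;> rfl
  · refine ⟨!![x 0, 0; x 1, (x 0)⁻¹], ?_, ?_⟩
    · rw [Matrix.det_fin_two_of]
      field_simp
      ring
    · intro i
      fin_cases i <;> rfl

lemma exists_pure (c : Fin 2 × Fin 2 → F) (hc : c ≠ 0)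
    (hs : c (0, 0) * c (1, 1) - c (0, 1) * c (1, 0) = 0) :
    ∃ x y : Fin 2 → F, x ≠ 0 ∧ y ≠ 0 ∧ ∀ i j, c (i, j) = x i * y j := by
  obtain ⟨⟨i0, j0⟩, h0⟩ := Function.ne_iff.1 hc
  have h0' : c (i0, j0) ≠ 0 := h0
  have key : ∀ i j i' j' : Fin 2, c (i, j) * c (i', j') = c (i, j') * c (i', j) := by
    intro i j i' j'
    fin_cases i <;> fin_cases j <;> fin_cases i' <;> fin_cases j' <;>
      first
      | rfl
      | exact mul_comm _ _
      | (simp only [Fin.zero_eta, Fin.mk_one, Fin.isValue]; linear_combination hs)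
      | (simp only [Fin.zero_eta, Fin.mk_one, Fin.isValue]; linear_combination -hs)
  refine ⟨fun i => c (i, j0), fun j => c (i0, j) / c (i0, j0), ?_, ?_, ?_⟩
  · intro h
    exact h0' (congrFun h i0)
  · intro h
    have := congrFun h j0
    simp only [Pi.zero_apply] at this
    rw [div_self h0'] at this
    exact one_ne_zero this
  · intro i j
    show c (i, j) = c (i, j0) * (c (i0, j) / c (i0, j0))
    rw [mul_div_assoc', eq_div_iff h0']
    exact key i j i0 j0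

/-- [simjj] the proper similarities of the form `J ⊗ J` on `F² ⊗ F²` are the Kronecker products. -/
theorem sim_JJ [Fintype F] (h2 : (2 : F) ≠ 0) (b : Matrix (Fin 2 × Fin 2) (Fin 2 × Fin 2) F) {ν : F} (hν : ν ≠ 0)
    (hb : bᵀ * (J0 F ⊗ₖ J0 F) * b = ν • (J0 F ⊗ₖ J0 F)) (hdet : b.det = ν ^ 2) :
    ∃ a₁ a₂ : Matrix (Fin 2) (Fin 2) F, b = a₁ ⊗ₖ a₂ := by
  have hc : (fun p => b p (0, 0)) ≠ 0 := by
    intro h
    have h1 := Matrix.det_eq_zero_of_column_eq_zero (A := b) (0, 0) (fun i => congrFun h i)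
    rw [hdet] at h1
    exact pow_ne_zero 2 hν h1
  have hs : b (0, 0) (0, 0) * b (1, 1) (0, 0) - b (0, 1) (0, 0) * b (1, 0) (0, 0) = 0 := by
    have e11 := eqs hb (0, 0) (0, 0)
    simp only [J0, Matrix.of_apply, Matrix.cons_val', Matrix.cons_val_zero,
      Matrix.cons_val_fin_one] at e11
    have : 2 * (b (0, 0) (0, 0) * b (1, 1) (0, 0) - b (0, 1) (0, 0) * b (1, 0) (0, 0)) = 0 := by
      linear_combination e11
    exact (mul_eq_zero.1 this).resolve_left h2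
  obtain ⟨x, y, hx, hy, hxy⟩ := exists_pure (fun p => b p (0, 0)) hc hs
  obtain ⟨a₁, hd₁, ha₁⟩ := exists_det_one x hx
  obtain ⟨a₂, hd₂, ha₂⟩ := exists_det_one y hy
  have hu₁ : IsUnit a₁.det := by rw [hd₁]; exact isUnit_one
  have hu₂ : IsUnit a₂.det := by rw [hd₂]; exact isUnit_one
  have hi₁ : (a₁⁻¹).det = 1 := by rw [Matrix.det_nonsing_inv, hd₁, Ring.inverse_one]
  have hi₂ : (a₂⁻¹).det = 1 := by rw [Matrix.det_nonsing_inv, hd₂, Ring.inverse_one]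
  have hAA : (a₁⁻¹ ⊗ₖ a₂⁻¹) * (a₁ ⊗ₖ a₂) = 1 := by
    rw [← Matrix.mul_kronecker_mul, Matrix.nonsing_inv_mul _ hu₁, Matrix.nonsing_inv_mul _ hu₂,
      Matrix.one_kronecker_one]
  have hAA' : (a₁ ⊗ₖ a₂) * (a₁⁻¹ ⊗ₖ a₂⁻¹) = 1 := by
    rw [← Matrix.mul_kronecker_mul, Matrix.mul_nonsing_inv _ hu₁, Matrix.mul_nonsing_inv _ hu₂,
      Matrix.one_kronecker_one]
  have hG : (a₁⁻¹ ⊗ₖ a₂⁻¹)ᵀ * (J0 F ⊗ₖ J0 F) * (a₁⁻¹ ⊗ₖ a₂⁻¹) = J0 F ⊗ₖ J0 F := by
    rw [← Matrix.kroneckerMap_transpose, ← Matrix.mul_kronecker_mul, ← Matrix.mul_kronecker_mul,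
      transpose_mul_J0_mul, transpose_mul_J0_mul, hi₁, hi₂, one_smul]
  have hcol : ∀ p, ((a₁⁻¹ ⊗ₖ a₂⁻¹) * b) p (0, 0) = (1 : Matrix (Fin 2 × Fin 2) (Fin 2 × Fin 2) F) p (0, 0) := by
    intro p
    rw [← hAA, Matrix.mul_apply, Matrix.mul_apply]
    apply Finset.sum_congr rfl
    rintro ⟨i, j⟩ _
    have h5 : (a₁ ⊗ₖ a₂) (i, j) (0, 0) = a₁ i 0 * a₂ j 0 := rfl
    rw [h5, ha₁, ha₂, ← hxy]
  obtain ⟨c₁, c₂, hcc⟩ := sim_norm h2 ((a₁⁻¹ ⊗ₖ a₂⁻¹) * b) hν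
    (by
      have h6 : ((a₁⁻¹ ⊗ₖ a₂⁻¹) * b)ᵀ * (J0 F ⊗ₖ J0 F) * ((a₁⁻¹ ⊗ₖ a₂⁻¹) * b) =
          bᵀ * ((a₁⁻¹ ⊗ₖ a₂⁻¹)ᵀ * (J0 F ⊗ₖ J0 F) * (a₁⁻¹ ⊗ₖ a₂⁻¹)) * b := by
        rw [Matrix.transpose_mul]
        simp only [Matrix.mul_assoc]
      rw [h6, hG, hb])
    (by rw [Matrix.det_mul, Matrix.det_kronecker, hi₁, hi₂, hdet]; simp)
    (by rw [hcol]; rfl) (by rw [hcol]; rfl) (by rw [hcol]; rfl) (by rw [hcol]; rfl)
  refine ⟨a₁ * c₁, a₂ * c₂, ?_⟩
  rw [Matrix.mul_kronecker_mul, ← hcc, ← Matrix.mul_assoc, hAA', Matrix.one_mul]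

end Cfsg.Agent.Lib.Helper94OSimjj
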