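import Cfsg.Agent.Lib.Helper48QuadType
import Cfsg.Agent.Lib.Helper97OBase

set_option autoImplicit false
set_option linter.unusedSectionVars false

/-! PROJECT 5 = ASCH-O, piece `isotype` (through helper48's classification of quadratic spaces). -/

namespace Cfsg.Agent.Lib.Helper97OIsotype

open Cfsg Cfsg.Geo Matrix QuadraticMap
open Cfsg.Agent.Lib.Helper97GBase Cfsg.Agent.Lib.Helper97OBase Cfsg.Agent.Lib.Helper48QuadType
  Cfsg.Agent.Lib.Helper42Quad Cfsg.Agent.Lib.Helper7OPlus Cfsg.Agent.Lib.Helper7OMinus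
  Cfsg.Agent.Lib.Helper7Norm2
open scoped MatrixGroups

section abstract

variable {F : Type*} [Field F] {V : Type*} [AddCommGroup V] [Module F V]

/-- a totally singular subspace of half the dimension against a smaller totally singular subspace -/
lemma exists_singular_perp [FiniteDimensional F V] (Q : QuadraticForm F V)
    (hQ : (polarBilin Q).Nondegenerate) (U E : Submodule F V) (hU : ∀ u ∈ U, Q u = 0)
    (hUV : 2 * Module.finrank F U = Module.finrank F V)
    (hE : Module.finrank F E < Module.finrank F U) :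
    ∃ u, Q u = 0 ∧ u ∉ E ∧ ∀ ε ∈ E, polar Q ε u = 0 := by
  obtain ⟨B, hB⟩ : ∃ B : LinearMap.BilinForm F V, B = polarBilin Q := ⟨_, rfl⟩
  have hBa : ∀ x y, B x y = polar Q x y := fun x y => by rw [hB]; rfl
  rw [← hB] at hQ
  have hUU : U ≤ B.orthogonal U := by
    intro u hu
    rw [LinearMap.BilinForm.mem_orthogonal_iff]
    intro n hn
    rw [hBa]
    unfold polar
    rw [hU _ (U.add_mem hn hu), hU _ hn, hU _ hu]
    ring
  have hUeq : B.orthogonal U = U := by
    symm
    apply Submodule.eq_of_le_of_finrank_eq hUU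
    rw [LinearMap.BilinForm.finrank_orthogonal hQ]
    omega
  have h1 := LinearMap.BilinForm.finrank_orthogonal hQ (U ⊔ E)
  have h2 := Submodule.finrank_sup_add_finrank_inf_eq U E
  have h3 : Module.finrank F (U ⊔ E : Submodule F V) ≤ Module.finrank F V := Submodule.finrank_le _
  by_contra hcon
  push Not at hcon
  have hle : B.orthogonal (U ⊔ E) ≤ U ⊓ E := by
    intro u hu
    have huU : u ∈ U := by
      rw [← hUeq]
      exact LinearMap.BilinForm.orthogonal_le le_sup_left hu
    refine ⟨huU, ?_⟩
    by_contra huE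
    obtain ⟨ε, hε, hne⟩ := hcon u (hU u huU) huE
    apply hne
    rw [← hBa]
    exact LinearMap.BilinForm.orthogonal_le le_sup_right hu ε hε
  have h4 := Submodule.finrank_mono hle
  omega

end abstract

section std

variable {F : Type*} [Field F]

/-- the first coordinates of the hyperbolic space -/
def inP (F : Type*) [Field F] (m : ℕ) : (Fin m → F) →ₗ[F] (Fin m ⊕ Fin m → F) where
  toFun x := Sum.elim x 0
  map_add' x y := by
    funext i
    rcases i with i | i <;> simp
  map_smul' c x := by
    funext i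
    rcases i with i | i <;> simp

lemma inP_injective (m : ℕ) : Function.Injective (inP F m) := by
  intro x y h
  funext i
  exact congrFun h (Sum.inl i)

lemma QP_inP (m : ℕ) (x : Fin m → F) : QP F m (inP F m x) = 0 := by
  rw [QP_apply, Cfsg.quadFormPlus]
  apply Finset.sum_eq_zero
  intro i _
  simp [inP]

/-- the first coordinates of the elliptic space -/
def inM (F : Type*) [Field F] (k : ℕ) : (Fin k → F) →ₗ[F] ((Fin k ⊕ Fin k) ⊕ Fin 2 → F) where
  toFun x := Sum.elim (Sum.elim x 0) 0
  map_add' x y := by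
    funext i
    rcases i with (i | i) | i <;> simp
  map_smul' c x := by
    funext i
    rcases i with (i | i) | i <;> simp

lemma inM_injective (k : ℕ) : Function.Injective (inM F k) := by
  intro x y h
  funext i
  exact congrFun h (Sum.inl (Sum.inl i))

/-- the elliptic space has no totally singular subspace of half the dimension -/
lemma no_half_QM [Finite F] (k : ℕ) (a c : F) (hac : Aniso a c)
    (U : Submodule F ((Fin k ⊕ Fin k) ⊕ Fin 2 → F)) (hU : ∀ u ∈ U, QM F k a c u = 0) :
    Module.finrank F U ≠ k + 1 := by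
  intro hfr
  have hE : Module.finrank F (LinearMap.range (inM F k)) = k := by
    rw [LinearMap.finrank_range_of_inj (inM_injective k), Module.finrank_fin_fun]
  obtain ⟨u, hu0, huE, hperp⟩ := exists_singular_perp (QM F k a c) (nondeg_QM k a c hac) U
    (LinearMap.range (inM F k)) hU (by
      rw [hfr, Module.finrank_fintype_fun_eq_card]
      simp
      ring) (by omega)
  have hy : ∀ i, u (Sum.inl (Sum.inr i)) = 0 := by
    intro i
    have h := hperp (inM F k (Pi.single i 1)) ⟨_, rfl⟩
    rw [polar_QM, Finset.sum_eq_single i] at h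
    · simpa [inM] using h
    · intro b _ hb
      simp [inM, hb]
    · simp
  rw [QM_apply, Cfsg.quadFormMinus, Finset.sum_eq_zero (fun i _ => by rw [hy i, mul_zero]),
    zero_add] at hu0
  obtain ⟨h0, h1⟩ := hac _ _ hu0
  apply huE
  refine ⟨fun i => u (Sum.inl (Sum.inl i)), ?_⟩
  funext j
  rcases j with (i | i) | i
  · simp [inM]
  · simp [inM, hy i]
  · fin_cases i
    · simp [inM, h0]
    · simp [inM, h1]

end std

variable {ι : Type} [Fintype ι] [DecidableEq ι] {F : Type*} [Field F]
variable {Q : (ι → F) → F}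

/-- the restriction of `Q` to a subspace as a Mathlib quadratic form -/
noncomputable def resQ (hQ : IsNondegenerateQuadraticForm Q) (W : Submodule F (ι → F)) :
    QuadraticForm F W := ((qf hQ).toQuad).comp W.subtype

lemma resQ_apply (hQ : IsNondegenerateQuadraticForm Q) (W : Submodule F (ι → F)) (w : W) :
    resQ hQ W w = Q (w : ι → F) := rfl

lemma polar_resQ (hQ : IsNondegenerateQuadraticForm Q) (W : Submodule F (ι → F)) (x y : W) :
    polar (resQ hQ W) x y = polar Q (x : ι → F) (y : ι → F) := rfl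

lemma nondeg_resQ (hQ : IsNondegenerateQuadraticForm Q) {W : Submodule F (ι → F)}
    (hW : IsNondegenerateOn (QuadraticMap.polar Q) W) : (polarBilin (resQ hQ W)).Nondegenerate := by
  rw [nondeg_iff]
  intro x hx
  by_contra hne
  obtain ⟨-, ⟨y, hy, hxy⟩⟩ := hW x x.2 (fun h => hne (Subtype.ext h))
  exact hxy (hx ⟨y, hy⟩)

lemma isometric_iff (hQ : IsNondegenerateQuadraticForm Q) (W W' : Submodule F (ι → F)) :
    AreIsometricFor Q W W' ↔ Isom (resQ hQ W) (resQ hQ W') := Iff.rfl

/-- plus type from the hyperbolic normal form -/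
lemma plus_of_isom (hQ : IsNondegenerateQuadraticForm Q) {W : Submodule F (ι → F)} {m : ℕ}
    (hfr : Module.finrank F W = 2 * m) (h : Isom (resQ hQ W) (QP F m)) : IsPlusTypeOn Q W := by
  obtain ⟨T, hT⟩ := h
  let ψ : (Fin m → F) →ₗ[F] (ι → F) := W.subtype ∘ₗ T.symm.toLinearMap ∘ₗ inP F m
  have hψ : ∀ x, ψ x = ((T.symm (inP F m x) : W) : ι → F) := fun x => rfl
  have hinj : Function.Injective ψ := by
    intro x y hxy
    exact inP_injective m (T.symm.injective (Subtype.ext hxy))
  refine ⟨LinearMap.range ψ, ?_, ?_, ?_⟩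
  · rintro _ ⟨x, rfl⟩
    exact (T.symm (inP F m x)).2
  · rintro _ ⟨x, rfl⟩
    rw [hψ, ← resQ_apply hQ, ← hT, LinearEquiv.apply_symm_apply, QP_inP]
  · rw [LinearMap.finrank_range_of_inj hinj, Module.finrank_fin_fun, hfr]

/-- plus type excludes the elliptic normal form -/
lemma not_isom_of_plus [Finite F] (hQ : IsNondegenerateQuadraticForm Q) {W : Submodule F (ι → F)}
    {k : ℕ} (hfr : Module.finrank F W = 2 * (k + 1)) (hp : IsPlusTypeOn Q W) (a c : F)
    (hac : Aniso a c) : ¬ Isom (resQ hQ W) (QM F k a c) := by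
  rintro ⟨T, hT⟩
  obtain ⟨U, hUW, hTS, hU⟩ := hp
  let U' : Submodule F ((Fin k ⊕ Fin k) ⊕ Fin 2 → F) := (U.comap W.subtype).map T.toLinearMap
  apply no_half_QM k a c hac U'
  · rintro _ ⟨u, hu, rfl⟩
    show QM F k a c (T u) = 0
    rw [hT, resQ_apply]
    exact hTS _ hu
  · have h1 : Module.finrank F U' = Module.finrank F (U.comap W.subtype) :=
      LinearEquiv.finrank_map_eq T _
    have h2 : Module.finrank F (U.comap W.subtype) = Module.finrank F U := by
      have := (Submodule.comapSubtypeEquivOfLe hUW).finrank_eq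
      exact this
    rw [h1, h2]
    omega

/-- [isotype] non-degenerate subspaces of the same even dimension and the same type are isometric. -/
theorem isometric_of_type [Fintype F] (hQ : IsNondegenerateQuadraticForm Q)
    {W W' : Submodule F (ι → F)} (hW : IsNondegenerateOn (QuadraticMap.polar Q) W)
    (hW' : IsNondegenerateOn (QuadraticMap.polar Q) W')
    (hfr : Module.finrank F W = Module.finrank F W') (hev : Even (Module.finrank F W))
    (hiff : IsPlusTypeOn Q W ↔ IsPlusTypeOn Q W') : AreIsometricFor Q W W' := by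
  obtain ⟨m, hm⟩ := hev
  have hm2 : Module.finrank F W = 2 * m := by omega
  have hm2' : Module.finrank F W' = 2 * m := by omega
  rcases Nat.eq_zero_or_pos m with rfl | hmpos
  · have hb : W = ⊥ := Submodule.finrank_eq_zero.mp (by omega)
    have hb' : W' = ⊥ := Submodule.finrank_eq_zero.mp (by omega)
    subst hb hb'
    exact ⟨LinearEquiv.refl F _, fun _ => rfl⟩
  obtain ⟨k, rfl⟩ : ∃ k, m = k + 1 := ⟨m - 1, by omega⟩
  rw [isometric_iff hQ]
  rcases isom_std (by omega) hm2 (resQ hQ W) (nondeg_resQ hQ hW) with h | ⟨ζ, hζ, h⟩ <;>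
    rcases isom_std (by omega) hm2' (resQ hQ W') (nondeg_resQ hQ hW') with h' | ⟨ζ', hζ', h'⟩
  · exact h.trans h'.symm
  · exact absurd h' (not_isom_of_plus hQ hm2' (hiff.mp (plus_of_isom hQ hm2 h)) 1 ζ'
      (aniso_of_rootless ζ' hζ'))
  · exact absurd h (not_isom_of_plus hQ hm2 (hiff.mpr (plus_of_isom hQ hm2' h')) 1 ζ
      (aniso_of_rootless ζ hζ))
  · exact (h.trans (isom_QM_param _ ζ ζ' hζ hζ')).trans h'.symm

end Cfsg.Agent.Lib.Helper97OIsotype
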