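import Cfsg.Agent.Lib.Helper97OBase

set_option autoImplicit false
set_option linter.unusedSectionVars false

/-! PROJECT 5 = ASCH-O, piece `restrict`. -/

namespace Cfsg.Agent.Lib.Helper97ORestrict

open Cfsg Cfsg.Geo Matrix
open Cfsg.Agent.Lib.Helper97GBase Cfsg.Agent.Lib.Helper97OBase
open scoped MatrixGroups

variable {ι : Type} [Fintype ι] [DecidableEq ι] {F : Type*} [Field F]
variable {Q : (ι → F) → F}

lemma polar_comp {κ : Type} (φ : (κ → F) →ₗ[F] (ι → F)) (x y : κ → F) :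
    QuadraticMap.polar (fun x => Q (φ x)) x y = QuadraticMap.polar Q (φ x) (φ y) := by
  unfold QuadraticMap.polar
  show Q (φ (x + y)) - Q (φ x) - Q (φ y) = _
  rw [map_add]

/-- [restrict] a non-degenerate subspace as a quadratic space of its own. -/
theorem exists_restrict (hQ : IsNondegenerateQuadraticForm Q) {W : Submodule F (ι → F)}
    (hW : IsNondegenerateOn (QuadraticMap.polar Q) W) {d : ℕ} (hd : Module.finrank F W = d) :
    ∃ φ : (Fin d → F) →ₗ[F] (ι → F), Function.Injective φ ∧ LinearMap.range φ = W ∧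
      IsNondegenerateQuadraticForm (fun x => Q (φ x)) := by
  have e : (Fin d → F) ≃ₗ[F] W := by
    apply LinearEquiv.ofFinrankEq
    rw [Module.finrank_fin_fun, hd]
  let φ : (Fin d → F) →ₗ[F] (ι → F) := W.subtype ∘ₗ e.toLinearMap
  have hφ : ∀ x, φ x = (e x : ι → F) := fun x => rfl
  have hinj : Function.Injective φ := by
    intro x y hxy
    exact e.injective (Subtype.ext hxy)
  have hrange : LinearMap.range φ = W := by
    ext w
    constructor
    · rintro ⟨x, rfl⟩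
      exact (e x).2
    · intro hw
      exact ⟨e.symm ⟨w, hw⟩, by rw [hφ, LinearEquiv.apply_symm_apply]⟩
  refine ⟨φ, hinj, hrange, ⟨?_, ⟨?_, ?_, ?_, ?_⟩, ?_⟩⟩
  · intro c v
    show Q (φ (c • v)) = c ^ 2 * Q (φ v)
    rw [map_smul, hQ.smul]
  · intro x y v
    rw [polar_comp, polar_comp, polar_comp, map_add, hQ.polar_bilinear.add_left]
  · intro c x v
    rw [polar_comp, polar_comp, map_smul, hQ.polar_bilinear.smul_left]
  · intro x y v
    rw [polar_comp, polar_comp, polar_comp, map_add, hQ.polar_bilinear.add_right]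
  · intro c x v
    rw [polar_comp, polar_comp, map_smul, hQ.polar_bilinear.smul_right]
  · intro v hv
    have hv' : φ v ≠ 0 := fun h => hv (hinj (by rw [h, map_zero]))
    obtain ⟨⟨x, hx, hx'⟩, ⟨y, hy, hy'⟩⟩ := hW (φ v) (e v).2 hv'
    refine ⟨⟨e.symm ⟨x, hx⟩, ?_⟩, ⟨e.symm ⟨y, hy⟩, ?_⟩⟩
    · rw [polar_comp, hφ (e.symm _), LinearEquiv.apply_symm_apply]
      exact hx'
    · rw [polar_comp, hφ (e.symm _), LinearEquiv.apply_symm_apply]
      exact hy'

lemma finrank_map {κ : Type} [Fintype κ] (φ : (κ → F) →ₗ[F] (ι → F))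
    (hφ : Function.Injective φ) (X : Submodule F (κ → F)) :
    Module.finrank F (X.map φ) = Module.finrank F X :=
  (Submodule.equivMapOfInjective φ hφ X).finrank_eq.symm

theorem plus_restrict {κ : Type} [Fintype κ] [DecidableEq κ] (φ : (κ → F) →ₗ[F] (ι → F))
    (hφ : Function.Injective φ) (X : Submodule F (κ → F)) :
    IsPlusTypeOn (fun x => Q (φ x)) X ↔ IsPlusTypeOn Q (X.map φ) := by
  constructor
  · rintro ⟨U, hUX, hTS, hfr⟩
    refine ⟨U.map φ, Submodule.map_mono hUX, ?_, ?_⟩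
    · rintro _ ⟨u, hu, rfl⟩
      exact hTS u hu
    · rw [finrank_map φ hφ, finrank_map φ hφ, hfr]
  · rintro ⟨U, hUX, hTS, hfr⟩
    have hmap : (U.comap φ).map φ = U := by
      rw [Submodule.map_comap_eq, inf_eq_right]
      exact hUX.trans (LinearMap.map_le_range)
    refine ⟨U.comap φ, ?_, ?_, ?_⟩
    · intro u hu
      obtain ⟨x, hx, hxu⟩ := hUX hu
      rw [← hφ hxu]
      exact hx
    · intro u hu
      exact hTS _ hu
    · rw [← finrank_map φ hφ, hmap, hfr, finrank_map φ hφ]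

theorem nondeg_restrict {κ : Type} [Fintype κ] [DecidableEq κ] (φ : (κ → F) →ₗ[F] (ι → F))
    (hφ : Function.Injective φ) (X : Submodule F (κ → F)) :
    IsNondegenerateOn (QuadraticMap.polar (fun x => Q (φ x))) X ↔
      IsNondegenerateOn (QuadraticMap.polar Q) (X.map φ) := by
  constructor
  · rintro h _ ⟨w, hw, rfl⟩ hw0
    have hw0' : w ≠ 0 := fun h0 => hw0 (by rw [h0, map_zero])
    obtain ⟨⟨x, hx, hx'⟩, ⟨y, hy, hy'⟩⟩ := h w hw hw0'
    rw [polar_comp] at hx' hy'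
    exact ⟨⟨φ x, ⟨x, hx, rfl⟩, hx'⟩, ⟨φ y, ⟨y, hy, rfl⟩, hy'⟩⟩
  · intro h w hw hw0
    have hw0' : φ w ≠ 0 := fun h0 => hw0 (hφ (by rw [h0, map_zero]))
    obtain ⟨⟨_, ⟨x, hx, rfl⟩, hx'⟩, ⟨_, ⟨y, hy, rfl⟩, hy'⟩⟩ := h (φ w) ⟨w, hw, rfl⟩ hw0'
    refine ⟨⟨x, hx, ?_⟩, ⟨y, hy, ?_⟩⟩
    · rw [polar_comp]; exact hx'
    · rw [polar_comp]; exact hy'

theorem isometric_restrict {κ : Type} [Fintype κ] [DecidableEq κ] (φ : (κ → F) →ₗ[F] (ι → F))
    (hφ : Function.Injective φ) (X Y : Submodule F (κ → F)) :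
    AreIsometricFor (fun x => Q (φ x)) X Y ↔ AreIsometricFor Q (X.map φ) (Y.map φ) := by
  let eX := Submodule.equivMapOfInjective φ hφ X
  let eY := Submodule.equivMapOfInjective φ hφ Y
  have hX : ∀ x : X, ((eX x : X.map φ) : ι → F) = φ x := fun x => rfl
  have hY : ∀ y : Y, ((eY y : Y.map φ) : ι → F) = φ y := fun y => rfl
  constructor
  · rintro ⟨e, he⟩
    have he' : ∀ w : X, Q (φ (e w)) = Q (φ w) := he
    refine ⟨(eX.symm.trans e).trans eY, ?_⟩
    intro w
    show Q ((eY (e (eX.symm w)) : Y.map φ) : ι → F) = Q w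
    rw [hY, he', ← hX, LinearEquiv.apply_symm_apply]
  · rintro ⟨e, he⟩
    refine ⟨(eX.trans e).trans eY.symm, ?_⟩
    intro w
    show Q (φ (eY.symm (e (eX w)) : Y)) = Q (φ w)
    rw [← hY, LinearEquiv.apply_symm_apply, he, hX]

end Cfsg.Agent.Lib.Helper97ORestrict
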