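import Cfsg.Agent.Lib.Helper58AschI
import Cfsg.Agent.Lib.Helper95SpTenstwo
import Cfsg.Agent.Lib.Helper49OPieces
import Cfsg.Agent.Lib.Helper97ORestrict
import Cfsg.Agent.Lib.Helper36OPlaneiso
import Cfsg.Agent.Lib.Helper97OIsotype
import Cfsg.Agent.Lib.Helper70OCong
import Cfsg.Agent.Lib.Helper94OSimjj
import Cfsg.Agent.Lib.Helper36OTens2field
import Cfsg.Agent.Lib.Helper86OPtensalt
import Cfsg.Agent.Lib.Helper70OSympl
import Cfsg.Agent.Lib.Helper70ODiscconv
import Cfsg.Agent.Lib.Helper57ONotplusu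
import Cfsg.Agent.Lib.Helper57OTens34

set_option autoImplicit false

/-! PROJECT 5 = ASCH-O, PART 4: pieces for `Ω₁₀⁺(q)` and `Ω₁₂⁺(q)`. -/

namespace Cfsg.Agent.Lib.Helper58AschJ

open Cfsg Cfsg.Geo Matrix
open Cfsg.Agent.Lib.Helper97GBase Cfsg.Agent.Lib.Helper96SpDefs Cfsg.Agent.Lib.Helper98AschGDefs
  Cfsg.Agent.Lib.Helper58ODefs Cfsg.Agent.Lib.Helper58EDefs Cfsg.Agent.Lib.Helper97OBase
  Cfsg.Agent.Lib.Helper97OProper Cfsg.Agent.Lib.Helper95SpTenstwo
open scoped MatrixGroups Kronecker commutatorElement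

variable {ι : Type} [Fintype ι] [DecidableEq ι] {F : Type*} [Field F]
variable {f : (ι → F) → (ι → F) → F} {Q : (ι → F) → F} {H : Subgroup (GL ι F)}

/-! ## A. totally singular subspaces of a space of plus type -/

/-- [tsext] in a space of plus type every totally singular subspace lies in one of half the dimension. -/
theorem exists_max_ts (hQ : IsNondegenerateQuadraticForm Q) {l : ℕ} (hl : Fintype.card ι = 2 * l)
    (hplus : IsPlusTypeOn Q ⊤) {X : Submodule F (ι → F)} (hX : IsTotallySingularQuad Q X) :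
    ∃ U : Submodule F (ι → F), X ≤ U ∧ IsTotallySingularQuad Q U ∧ Module.finrank F U = l :=
  Cfsg.Agent.Lib.Helper49OPieces.exists_max_ts hQ hl hplus hX

/-- [tsmax] a subgroup of `Ω` stabilising a totally singular subspace of dimension `l - 1` stabilises a
totally singular subspace of dimension `l`. -/
theorem stab_submax [Fintype F] (hQ : IsNondegenerateQuadraticForm Q) (hn : 5 ≤ Fintype.card ι) {l : ℕ}
    (hl : Fintype.card ι = 2 * l) (hplus : IsPlusTypeOn Q ⊤) (hH : H ≤ omegaGL Q)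
    {W : Submodule F (ι → F)} (hW : IsTotallySingularQuad Q W) (hWl : Module.finrank F W + 1 = l)
    (hle : H ≤ subspaceStabilizer W) :
    ∃ U : Submodule F (ι → F), IsTotallySingularQuad Q U ∧ Module.finrank F U = l ∧
      H ≤ subspaceStabilizer U :=
  Cfsg.Agent.Lib.Helper49OPieces.stab_submax hQ hn hl hplus hH hW hWl hle

/-- [pairfix] `Ω` does not interchange two complementary totally singular subspaces of odd dimension. -/
theorem pair_fix [Fintype F] (hQ : IsNondegenerateQuadraticForm Q) (hn : 5 ≤ Fintype.card ι)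
    (hH : H ≤ omegaGL Q) {k : ℕ} (hk : Odd k) {D : Fin 2 → Submodule F (ι → F)}
    (hD : IsMDecomposition k D) (hTS : ∀ i, IsTotallySingularQuad Q (D i))
    (hle : H ≤ decompositionStabilizer D) : H ≤ subspaceStabilizer (D 0) :=
  Cfsg.Agent.Lib.Helper49OPieces.pair_fix hQ hn hH hk hD hTS hle

/-- [ppair] `Ω` does not stabilise a pair of complementary totally singular subspaces. -/
theorem not_le_pair [Fintype F] (hQ : IsNondegenerateQuadraticForm Q) (hn : 5 ≤ Fintype.card ι) {k : ℕ}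
    {D : Fin 2 → Submodule F (ι → F)} (hD : IsMDecomposition k D)
    (hTS : ∀ i, IsTotallySingularQuad Q (D i)) : ¬ omegaGL Q ≤ decompositionStabilizer D :=
  Cfsg.Agent.Lib.Helper49OPieces.not_le_pair hQ hn hD hTS

/-! ## B. calculus of types -/

/-- [cancel] the orthogonal complement of a subspace of plus type in a space of plus type. -/
theorem plus_orth_of_plus (hQ : IsNondegenerateQuadraticForm Q) (hplus : IsPlusTypeOn Q ⊤)
    {W : Submodule F (ι → F)} (hW : IsNondegenerateOn (QuadraticMap.polar Q) W)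
    (hWp : IsPlusTypeOn Q W) : IsPlusTypeOn Q (orth hQ W) :=
  Cfsg.Agent.Lib.Helper49OPieces.plus_orth_of_plus hQ hplus hW hWp

/-- [restrict] a non-degenerate subspace as a quadratic space of its own. -/
theorem exists_restrict (hQ : IsNondegenerateQuadraticForm Q) {W : Submodule F (ι → F)}
    (hW : IsNondegenerateOn (QuadraticMap.polar Q) W) {d : ℕ} (hd : Module.finrank F W = d) :
    ∃ φ : (Fin d → F) →ₗ[F] (ι → F), Function.Injective φ ∧ LinearMap.range φ = W ∧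
      IsNondegenerateQuadraticForm (fun x => Q (φ x)) :=
  Cfsg.Agent.Lib.Helper97ORestrict.exists_restrict hQ hW hd

theorem plus_restrict {κ : Type} [Fintype κ] [DecidableEq κ] (φ : (κ → F) →ₗ[F] (ι → F))
    (hφ : Function.Injective φ) (X : Submodule F (κ → F)) :
    IsPlusTypeOn (fun x => Q (φ x)) X ↔ IsPlusTypeOn Q (X.map φ) :=
  Cfsg.Agent.Lib.Helper97ORestrict.plus_restrict φ hφ X

theorem nondeg_restrict {κ : Type} [Fintype κ] [DecidableEq κ] (φ : (κ → F) →ₗ[F] (ι → F))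
    (hφ : Function.Injective φ) (X : Submodule F (κ → F)) :
    IsNondegenerateOn (QuadraticMap.polar (fun x => Q (φ x))) X ↔
      IsNondegenerateOn (QuadraticMap.polar Q) (X.map φ) :=
  Cfsg.Agent.Lib.Helper97ORestrict.nondeg_restrict φ hφ X

theorem isometric_restrict {κ : Type} [Fintype κ] [DecidableEq κ] (φ : (κ → F) →ₗ[F] (ι → F))
    (hφ : Function.Injective φ) (X Y : Submodule F (κ → F)) :
    AreIsometricFor (fun x => Q (φ x)) X Y ↔ AreIsometricFor Q (X.map φ) (Y.map φ) :=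
  Cfsg.Agent.Lib.Helper97ORestrict.isometric_restrict φ hφ X Y

/-- [oddblocks] an odd number of isometric blocks of even dimension in a space of plus type. -/
theorem block_plus_of_odd [Fintype F] (hQ : IsNondegenerateQuadraticForm Q) {t k : ℕ}
    {D : Fin t → Submodule F (ι → F)} (hD : IsOrthogonalMDecomposition Q k D) (ht : Odd t) (hk : Even k)
    (hplus : IsPlusTypeOn Q ⊤) : ∀ i, IsPlusTypeOn Q (D i) :=
  Cfsg.Agent.Lib.Helper49OPieces.block_plus_of_odd hQ hD ht hk hplus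

/-- [planeiso] classification of the non-degenerate binary quadratic forms over a finite field. -/
theorem binary_equiv [Fintype F] {α β γ α' β' γ' : F} (h : β ^ 2 - 4 * α * γ ≠ 0)
    (h' : β' ^ 2 - 4 * α' * γ' ≠ 0)
    (hiff : (∃ x y : F, (x ≠ 0 ∨ y ≠ 0) ∧ α * x ^ 2 + β * x * y + γ * y ^ 2 = 0) ↔
      (∃ x y : F, (x ≠ 0 ∨ y ≠ 0) ∧ α' * x ^ 2 + β' * x * y + γ' * y ^ 2 = 0)) :
    ∃ p q r s : F, p * s - q * r ≠ 0 ∧ ∀ x y : F,
      α' * (p * x + r * y) ^ 2 + β' * (p * x + r * y) * (q * x + s * y) + γ' * (q * x + s * y) ^ 2 =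
        α * x ^ 2 + β * x * y + γ * y ^ 2 :=
  Cfsg.Agent.Lib.Helper36OPlaneiso.binary_equiv h h' hiff

/-- [isotype] non-degenerate subspaces of the same even dimension and the same type are isometric. -/
theorem isometric_of_type [Fintype F] (hQ : IsNondegenerateQuadraticForm Q)
    {W W' : Submodule F (ι → F)} (hW : IsNondegenerateOn (QuadraticMap.polar Q) W)
    (hW' : IsNondegenerateOn (QuadraticMap.polar Q) W')
    (hfr : Module.finrank F W = Module.finrank F W') (hev : Even (Module.finrank F W))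
    (hiff : IsPlusTypeOn Q W ↔ IsPlusTypeOn Q W') : AreIsometricFor Q W W' :=
  Cfsg.Agent.Lib.Helper97OIsotype.isometric_of_type hQ hW hW' hfr hev hiff

/-- [discconv] `q` odd: in a space of plus type `(-1)^l disc(Q)` is a square. -/
theorem disc_of_plus [Fintype F] (h2 : (2 : F) ≠ 0) (hQ : IsNondegenerateQuadraticForm Q) {l : ℕ}
    (hl : Fintype.card ι = 2 * l) (hplus : IsPlusTypeOn Q ⊤) :
    IsSquare ((-1 : F) ^ l * (gramMatrix (QuadraticMap.polar Q)).det) :=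
  Cfsg.Agent.Lib.Helper70ODiscconv.disc_of_plus h2 hQ hl hplus

/-- [decsq] `q` odd: an even number of isometric blocks in a space of plus type: `(-1)^l` is a square. -/
theorem sq_of_dec_plus [Fintype F] (h2 : (2 : F) ≠ 0) (hQ : IsNondegenerateQuadraticForm Q) {t k : ℕ}
    {D : Fin t → Submodule F (ι → F)} (hD : IsOrthogonalMDecomposition Q k D) (ht : Even t) {l : ℕ}
    (hl : Fintype.card ι = 2 * l) (hplus : IsPlusTypeOn Q ⊤) : IsSquare ((-1 : F) ^ l) :=
  Cfsg.Agent.Lib.Helper49OPieces.sq_of_dec_plus h2 hQ hD ht hl hplus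

/-- [twononiso2] `q` odd: two non-isometric halves of a space of plus type: `(-1)^k` is not a square. -/
theorem not_sq_of_two_noniso [Fintype F] (h2 : (2 : F) ≠ 0) (hQ : IsNondegenerateQuadraticForm Q) {k : ℕ}
    (hk : Odd k)
    {D : Fin 2 → Submodule F (ι → F)} (hD : IsNondegenerateMDecomposition (QuadraticMap.polar Q) k D)
    (hniso : ¬ AreIsometricFor Q (D 0) (D 1)) (hplus : IsPlusTypeOn Q ⊤) :
    ¬ IsSquare ((-1 : F) ^ k) :=
  Cfsg.Agent.Lib.Helper49OPieces.not_sq_of_two_noniso h2 hQ hk hD hniso hplus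

/-- [notplusu] a unitary structure of odd dimension: not of plus type. -/
theorem not_plus_of_unitary [Fintype F] (hQ : IsNondegenerateQuadraticForm Q) {m : ℕ}
    (hn : Fintype.card ι = 2 * m) (hm : Odd m) (K : Subalgebra F (Matrix ι ι F))
    (hK : IsFieldSubalgebra 2 K) (hadj : IsAdjointClosedFor (QuadraticMap.polar Q) K)
    (hnsa : ¬ IsSelfAdjointFor (QuadraticMap.polar Q) K)
    (hsim : ∀ k ∈ K, ∃ c : F, ∀ v : ι → F, Q (k *ᵥ v) = c * Q v) : ¬ IsPlusTypeOn Q ⊤ :=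
  Cfsg.Agent.Lib.Helper57ONotplusu.not_plus_of_unitary hQ hn hm K hK hadj hnsa hsim

/-! ## C. decompositions over small fields -/

/-- [planes23p, planes4p, planes5p] `q < 7`: a maximal subgroup of `Ω` stabilises no decomposition into
planes of plus type. -/
theorem planes_small_false [Fintype F] (hQ : IsNondegenerateQuadraticForm Q)
    (hH : IsMaximalIn (omegaGL Q) H) {t : ℕ} (ht : 5 ≤ t) (D : Fin t → Submodule F (ι → F))
    (hD : IsOrthogonalMDecomposition Q 2 D)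
    (hp : Fintype.card F = 3 ∨ ∀ i, IsPlusTypeOn Q (D i)) (hq : Fintype.card F < 7)
    (hle : H ≤ decompositionStabilizer D) : False :=
  Cfsg.Agent.Lib.Helper49OPieces.planes_small_false hQ hH ht D hD hp hq hle

/-- [blocks4two] `q = 2`: a maximal subgroup of `Ω` stabilises no decomposition into 4-spaces of plus
type. -/
theorem blocks_four_two_false [Fintype F] (hq : Fintype.card F = 2)
    (hQ : IsNondegenerateQuadraticForm Q) (hH : IsMaximalIn (omegaGL Q) H) {t : ℕ} (ht : 3 ≤ t)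
    (D : Fin t → Submodule F (ι → F)) (hD : IsOrthogonalMDecomposition Q 4 D)
    (hp : ∀ i, IsPlusTypeOn Q (D i)) (hle : H ≤ decompositionStabilizer D) : False :=
  Cfsg.Agent.Lib.Helper49OPieces.blocks_four_two_false hq hQ hH ht D hD hp hle

/-! ## D. tensor products -/

/-- [cong] `q` odd: symmetric matrices of the same size with the same discriminant are congruent. -/
theorem sym_congruent [Fintype F] (h2 : (2 : F) ≠ 0) {κ : Type} [Fintype κ] [DecidableEq κ]
    (G G' : Matrix κ κ F) (hG : Gᵀ = G) (hG' : G'ᵀ = G') (hu : IsUnit G.det) (hu' : IsUnit G'.det)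
    (hsq : IsSquare (G.det * G'.det)) : ∃ A : GL κ F, (A : Matrix κ κ F)ᵀ * G * (A : Matrix κ κ F) = G' :=
  Cfsg.Agent.Lib.Helper70OCong.sym_congruent h2 G G' hG hG' hu hu' hsq

/-- [simjj] the proper similarities of the form `J ⊗ J` on `F² ⊗ F²` are the Kronecker products. -/
theorem sim_JJ [Fintype F] (h2 : (2 : F) ≠ 0) (b : Matrix (Fin 2 × Fin 2) (Fin 2 × Fin 2) F) {ν : F} (hν : ν ≠ 0)
    (hb : bᵀ * (J0 F ⊗ₖ J0 F) * b = ν • (J0 F ⊗ₖ J0 F)) (hdet : b.det = ν ^ 2) :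
    ∃ a₁ a₂ : Matrix (Fin 2) (Fin 2) F, b = a₁ ⊗ₖ a₂ :=
  Cfsg.Agent.Lib.Helper94OSimjj.sim_JJ h2 b hν hb hdet

/-- [o34] `q` odd, plus type: `O₃ ⊗ O₄⁺ ≤ Sp₂ ⊗ Sp₆`. -/
theorem tens_three_four_plus [Fintype F] (h2 : (2 : F) ≠ 0) (hQ : IsNondegenerateQuadraticForm Q)
    (hH : H ≤ omegaGL Q) (e : ι ≃ Fin 3 × Fin 4) (P : GL ι F)
    (G₁ : Matrix (Fin 3) (Fin 3) F) (G₂ : Matrix (Fin 4) (Fin 4) F)
    (h₁ : IsUnit G₁.det) (h₂ : IsUnit G₂.det)
    (hG : ∀ x y : Fin 3 × Fin 4 → F, QuadraticMap.polar Q ((P : Matrix ι ι F) *ᵥ (x ∘ e))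
      ((P : Matrix ι ι F) *ᵥ (y ∘ e)) = formOfGram id (G₁ ⊗ₖ G₂) x y)
    (hs₁ : G₁ᵀ = G₁) (hs₂ : G₂ᵀ = G₂) (hle : H ≤ tensorProductSubgroup 3 4 e P)
    (hplus : IsPlusTypeOn Q ⊤) :
    ∃ (e' : ι ≃ Fin 2 × Fin 6) (P' : GL ι F) (G₁' : Matrix (Fin 2) (Fin 2) F)
      (G₂' : Matrix (Fin 6) (Fin 6) F), IsUnit G₁'.det ∧ IsUnit G₂'.det ∧ G₁'ᵀ = -G₁' ∧ G₂'ᵀ = -G₂' ∧
      (∀ x y : Fin 2 × Fin 6 → F, QuadraticMap.polar Q ((P' : Matrix ι ι F) *ᵥ (x ∘ e'))
        ((P' : Matrix ι ι F) *ᵥ (y ∘ e')) = formOfGram id (G₁' ⊗ₖ G₂') x y) ∧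
      H ≤ tensorProductSubgroup 2 6 e' P' :=
  Cfsg.Agent.Lib.Helper57OTens34.o34_aux hQ hH e P G₁ G₂ h₁ h₂ hG hs₁ hs₂ hle
    (disc_of_plus h2 hQ (l := 6) (by rw [Fintype.card_congr e]; simp) hplus)
    (fun G G' hG hG' hu hu' hsq => sym_congruent h2 G G' hG hG' hu hu' hsq)
    (fun b ν hν hb hdet => sim_JJ h2 b hν hb hdet)

/-- [tens2field] `q = 2`: `GL₂(2) ⊗ GL_s(2)` normalises a field of degree 2. -/
theorem tens_two_field [Fintype F] (hq : Fintype.card F = 2) {s : ℕ} (hs : 1 ≤ s)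
    (e : ι ≃ Fin 2 × Fin s) (P : GL ι F) (hle : H ≤ tensorProductSubgroup 2 s e P) :
    ∃ K : Subalgebra F (Matrix ι ι F), IsFieldSubalgebra 2 K ∧ H ≤ subalgebraNormalizer K :=
  Cfsg.Agent.Lib.Helper36OTens2field.tens_two_field hq hs e P hle

/-- [ptensalt] `Ω` stabilises no tensor decomposition all of whose pure tensors are singular. -/
theorem not_le_tensor_pure [Fintype F] (hQ : IsNondegenerateQuadraticForm Q) (hn : 7 ≤ Fintype.card ι)
    {d s : ℕ} (hd : 2 ≤ d) (hs : 3 ≤ s) (e : ι ≃ Fin d × Fin s) (P : GL ι F)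
    (hpure : ∀ (x₁ : Fin d → F) (x₂ : Fin s → F),
      Q ((P : Matrix ι ι F) *ᵥ ((fun a : Fin d × Fin s => x₁ a.1 * x₂ a.2) ∘ e)) = 0) :
    ¬ omegaGL Q ≤ tensorProductSubgroup d s e P :=
  Cfsg.Agent.Lib.Helper86OPtensalt.not_le_tensor_pure hQ hn hd hs e P hpure

/-- [sympl] alternating matrices give symplectic forms (all characteristics); `q` odd: `Q` vanishes on the
pure tensors of a product of two skew forms. -/
theorem formOfGram_symplectic_alt {κ : Type} [Fintype κ] [DecidableEq κ] (G : Matrix κ κ F)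
    (hG : IsUnit G.det) (hs : Gᵀ = -G) (h0 : ∀ i, G i i = 0) : IsSymplecticForm (formOfGram id G) :=
  Cfsg.Agent.Lib.Helper70OSympl.formOfGram_symplectic_alt G hG hs h0

theorem pure_zero_of_skew (h2 : (2 : F) ≠ 0) (hQ : IsNondegenerateQuadraticForm Q) {d s : ℕ}
    (e : ι ≃ Fin d × Fin s) (P : GL ι F) (G₁ : Matrix (Fin d) (Fin d) F) (G₂ : Matrix (Fin s) (Fin s) F)
    (hG : ∀ x y : Fin d × Fin s → F, QuadraticMap.polar Q ((P : Matrix ι ι F) *ᵥ (x ∘ e))
      ((P : Matrix ι ι F) *ᵥ (y ∘ e)) = formOfGram id (G₁ ⊗ₖ G₂) x y) (hs₁ : G₁ᵀ = -G₁) :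
    ∀ (x₁ : Fin d → F) (x₂ : Fin s → F),
      Q ((P : Matrix ι ι F) *ᵥ ((fun a : Fin d × Fin s => x₁ a.1 * x₂ a.2) ∘ e)) = 0 :=
  Cfsg.Agent.Lib.Helper70OSympl.pure_zero_of_skew h2 hQ e P G₁ G₂ hG hs₁

end Cfsg.Agent.Lib.Helper58AschJ
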