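import Cfsg.Agent.Lib.Helper58AschJ

set_option autoImplicit false

/-! PROJECT 5 = ASCH-O, PART 4b: small lemmas of the assemblies of `Ω₁₀⁺(q)`, `Ω₁₂⁺(q)`. -/

namespace Cfsg.Agent.Lib.Helper58AschK

open Cfsg Cfsg.Geo Matrix
open Cfsg.Agent.Lib.Helper97GBase Cfsg.Agent.Lib.Helper97OBase Cfsg.Agent.Lib.Helper97OProper
  Cfsg.Agent.Lib.Helper58GD Cfsg.Agent.Lib.Helper58AschJ
open scoped MatrixGroups

lemma card_ne_six {F : Type*} [Field F] [Fintype F] : Fintype.card F ≠ 6 := by
  intro h
  have hp := Fintype.isPrimePow_card_of_field (α := F)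
  rw [h, isPrimePow_iff_unique_prime_dvd] at hp
  obtain ⟨p, -, hu⟩ := hp
  have h2 := hu 2 ⟨Nat.prime_two, by norm_num⟩
  have h3 := hu 3 ⟨Nat.prime_three, by norm_num⟩
  omega

variable {ι : Type} [Fintype ι] [DecidableEq ι] {F : Type*} [Field F]
variable {Q : (ι → F) → F}

/-- in a decomposition into two orthogonal blocks each block is the orthogonal complement of the other -/
lemma orth_eq_of_two (hQ : IsNondegenerateQuadraticForm Q) {k : ℕ} {D : Fin 2 → Submodule F (ι → F)}
    (hD : IsNondegenerateMDecomposition (QuadraticMap.polar Q) k D) {i j : Fin 2} (hij : i ≠ j) :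
    orth hQ (D i) = D j := by
  symm
  apply Submodule.eq_of_le_of_finrank_eq
  · intro x hx
    rw [mem_orth]
    intro w hw
    exact hD.orthogonal i j hij w hw x hx
  · have h1 := finrank_orth hQ (D i)
    have h2 := decomp_card D hD.decomp
    rw [hD.decomp.finrank_eq] at h1 ⊢
    omega

/-- the two halves of a space of plus type, of even dimension, are isometric -/
lemma halves_iso [Fintype F] (hQ : IsNondegenerateQuadraticForm Q) (hplus : IsPlusTypeOn Q ⊤) {k : ℕ}
    {D : Fin 2 → Submodule F (ι → F)}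
    (hD : IsNondegenerateMDecomposition (QuadraticMap.polar Q) k D) (hk : Even k) :
    AreIsometricFor Q (D 0) (D 1) := by
  refine isometric_of_type hQ (hD.nondegenerate 0) (hD.nondegenerate 1)
    (by rw [hD.decomp.finrank_eq, hD.decomp.finrank_eq]) (by rwa [hD.decomp.finrank_eq]) ⟨?_, ?_⟩
  · intro h
    have := plus_orth_of_plus hQ hplus (hD.nondegenerate 0) h
    rwa [orth_eq_of_two hQ hD (by decide : (0 : Fin 2) ≠ 1)] at this
  · intro h
    have := plus_orth_of_plus hQ hplus (hD.nondegenerate 1) h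
    rwa [orth_eq_of_two hQ hD (by decide : (1 : Fin 2) ≠ 0)] at this

end Cfsg.Agent.Lib.Helper58AschK
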