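import Cfsg.Agent.Lib.Helper63OEfield

set_option autoImplicit false

/-! ASCH-O: subfields of any prescribed prime degree dividing the degree (variant of helper63's `efield`). -/

namespace Cfsg.Agent.Lib.Helper58EField

open Cfsg Cfsg.Geo Matrix
open Cfsg.Agent.Lib.Helper97GBase Cfsg.Agent.Lib.Helper97GForms
  Cfsg.Agent.Lib.Helper98AschGDefs Cfsg.Agent.Lib.Helper98AschGBasic Cfsg.Agent.Lib.Helper96SpDefs
  Cfsg.Agent.Lib.Helper96GField
open scoped MatrixGroups Kronecker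

variable {ι : Type} [Fintype ι] [DecidableEq ι] {F : Type*} [Field F]
variable {f : (ι → F) → (ι → F) → F} {H : Subgroup (GL ι F)}

/-- refinement of `field_c3'` (helper67/helper96/helper12): the subfield of prime degree is the fixed
field of `x ↦ x ^ (q ^ r)` in `K`. -/
theorem field_c3_prime [Fintype F] [Nonempty ι] {H : Subgroup (GL ι F)}
    {K : Subalgebra F (Matrix ι ι F)} (hK : NzA H K)
    (hcomm : ∀ x ∈ K, ∀ y ∈ K, x * y = y * x) (hinv : ∀ x ∈ K, x ≠ 0 → ∃ y ∈ K, x * y = 1)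
    {r : ℕ} (hrp : r.Prime) (hrk : r ∣ Module.finrank F K) :
    ∃ (K' : Subalgebra F (Matrix ι ι F)), IsFieldSubalgebra r K' ∧
      (∀ x, x ∈ K' ↔ x ∈ K ∧ x ^ (Fintype.card F ^ r) = x) ∧ NzA H K' := by
  classical
  set q := Fintype.card F with hq
  have hq1 : 1 < q := Fintype.one_lt_card
  set k := Module.finrank F K with hk
  obtain ⟨p, hpc⟩ := CharP.exists F
  obtain ⟨f, hp, hqf⟩ := FiniteField.card F p
  have : Fact p.Prime := ⟨hp⟩
  have hN : q ^ r = p ^ ((f : ℕ) * r) := by rw [hq, hqf, pow_mul]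
  let K' : Subalgebra F (Matrix ι ι F) :=
    { carrier := {x | x ∈ K ∧ x ^ (q ^ r) = x}
      mul_mem' := by
        rintro a b ⟨ha, ha'⟩ ⟨hb, hb'⟩
        refine ⟨K.mul_mem ha hb, ?_⟩
        rw [(show Commute a b from hcomm a ha b hb).mul_pow, ha', hb']
      add_mem' := by
        rintro a b ⟨ha, ha'⟩ ⟨hb, hb'⟩
        refine ⟨K.add_mem ha hb, ?_⟩
        rw [hN] at ha' hb' ⊢
        rw [add_pow_char_pow_of_commute _ _ (show Commute a b from hcomm a ha b hb), ha', hb']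
      algebraMap_mem' := by
        intro c
        refine ⟨K.algebraMap_mem c, ?_⟩
        rw [← map_pow, hq, FiniteField.pow_card_pow] }
  have hmem : ∀ x, x ∈ K' ↔ x ∈ K ∧ x ^ (q ^ r) = x := fun x => Iff.rfl
  refine ⟨K', ⟨?_, ?_, ?_⟩, hmem, ?_⟩
  · intro x hx y hy
    exact hcomm x hx.1 y hy.1
  · intro x hx hx0
    obtain ⟨y, hy, hxy⟩ := hinv x hx.1 hx0
    refine ⟨y, ⟨hy, ?_⟩, hxy⟩
    have h1 : x * y ^ (q ^ r) = 1 := by
      have h2 : (x * y) ^ (q ^ r) = 1 := by rw [hxy, one_pow]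
      rwa [(show Commute x y from hcomm x hx.1 y hy).mul_pow, hx.2] at h2
    have hyx : y * x = 1 := by rw [hcomm y hy x hx.1, hxy]
    calc y ^ (q ^ r) = (y * x) * y ^ (q ^ r) := by rw [hyx, one_mul]
      _ = y * (x * y ^ (q ^ r)) := by rw [mul_assoc]
      _ = y := by rw [h1, mul_one]
  · -- the dimension
    have hKcard : Nat.card K = q ^ k := by
      rw [Module.natCard_eq_pow_finrank (K := F), Nat.card_eq_fintype_card]
    have hfix : Nat.card {x : K // x ^ (q ^ r) = x} = q ^ r := by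
      apply card_fix (fun a b => Subtype.ext (hcomm a a.2 b b.2)) _ q k r hq1 hKcard hrk hrp.pos
      intro a ha
      obtain ⟨y, hy, hxy⟩ := hinv a a.2 (fun h => ha (Subtype.ext h))
      exact ⟨⟨y, hy⟩, Subtype.ext hxy⟩
    have e : K' ≃ {x : K // x ^ (q ^ r) = x} :=
      { toFun := fun x => ⟨⟨x.1, x.2.1⟩, Subtype.ext x.2.2⟩
        invFun := fun x => ⟨x.1.1, x.1.2, congrArg Subtype.val x.2⟩
        left_inv := fun x => rfl
        right_inv := fun x => rfl }
    have h1 : Nat.card K' = q ^ r := by rw [Nat.card_congr e, hfix]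
    rw [Module.natCard_eq_pow_finrank (K := F), Nat.card_eq_fintype_card] at h1
    exact Nat.pow_right_injective hq1 h1
  · intro g hg x hx
    refine ⟨hK g hg x hx.1, ?_⟩
    rw [Units.conj_pow, hx.2]

/-- an adjoint-closed normalised field contains an adjoint-closed normalised field of every prime degree
dividing its degree. -/
theorem o_field_prime [Fintype F] [Nonempty ι] (hf : IsSymmetricForm f)
    {K : Subalgebra F (Matrix ι ι F)} (hK : NzA H K)
    (hcomm : ∀ x ∈ K, ∀ y ∈ K, x * y = y * x) (hinv : ∀ x ∈ K, x ≠ 0 → ∃ y ∈ K, x * y = 1)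
    (hadj : IsAdjointClosedFor f K) {r : ℕ} (hr : r.Prime) (hrk : r ∣ Module.finrank F K) :
    ∃ (K' : Subalgebra F (Matrix ι ι F)), IsFieldSubalgebra r K' ∧
      IsAdjointClosedFor f K' ∧ H ≤ subalgebraNormalizer K' := by
  obtain ⟨K', hK', hmem, hnorm⟩ := field_c3_prime hK hcomm hinv hr hrk
  refine ⟨K', hK', ?_, NzA_le_subalgebraNormalizer hnorm⟩
  intro k hk
  obtain ⟨hkK, hkp⟩ := (hmem k).1 hk
  obtain ⟨k', hk'K, hkk'⟩ := hadj k hkK
  replace hkk' : IsAdj f k k' := hkk'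
  refine ⟨k', (hmem k').2 ⟨hk'K, ?_⟩, hkk'⟩
  have h1 := hkk'.pow (Fintype.card F ^ r)
  rw [hkp] at h1
  exact h1.unique hf.bilinear hf.nondegenerate hkk'

end Cfsg.Agent.Lib.Helper58EField
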