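import Cfsg.Agent.Lib.Helper58ODefs
import Cfsg.Agent.Lib.Helper95SpTensodd
import Cfsg.Agent.Lib.Helper58GWnorm

set_option autoImplicit false

/-! PROJECT 5 = ASCH-O, piece `ownorm`. -/

namespace Cfsg.Agent.Lib.Helper63OWnorm

open Cfsg Cfsg.Geo Matrix
open Cfsg.Agent.Lib.Helper97GBase Cfsg.Agent.Lib.Helper98AschGDefs Cfsg.Agent.Lib.Helper98AschGBasic
  Cfsg.Agent.Lib.Helper96SpDefs
  Cfsg.Agent.Lib.Helper58ODefs Cfsg.Agent.Lib.Helper95SpTensodd Cfsg.Agent.Lib.Helper58GWnorm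
open scoped MatrixGroups Kronecker

variable {ι : Type} [Fintype ι] [DecidableEq ι] {F : Type*} [Field F]
variable {f : (ι → F) → (ι → F) → F}

lemma pt_transpose {k m : ℕ} (A : Fin k → Matrix (Fin m) (Fin m) F) :
    (pt A)ᵀ = pt (fun i => (A i)ᵀ) := by
  ext x y
  rfl

lemma pt_smul {k m : ℕ} (c : Fin k → F) (A : Fin k → Matrix (Fin m) (Fin m) F) :
    pt (fun i => c i • A i) = (∏ i, c i) • pt A := by
  ext x y
  simp only [pt_apply, Matrix.smul_apply, smul_eq_mul, Finset.prod_mul_distrib]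

lemma sum_eq_dot {κ : Type} [Fintype κ] (B : Matrix κ κ F) (x y : κ → F) :
    ∑ a, ∑ b, x a * B a b * y b = x ⬝ᵥ B *ᵥ y := by
  simp [dotProduct, Matrix.mulVec, Finset.mul_sum, mul_assoc]

lemma glReindex_symm_mulVec {κ : Type} [Fintype κ] [DecidableEq κ] (e : ι ≃ κ) (T : GL κ F) (x : κ → F) :
    ((glReindex e.symm T : GL ι F) : Matrix ι ι F) *ᵥ (x ∘ e) = ((T : Matrix κ κ F) *ᵥ x) ∘ e := by
  funext i
  simp only [Matrix.mulVec, dotProduct, Function.comp]
  rw [← Equiv.sum_comp e]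
  refine Finset.sum_congr rfl fun j _ => ?_
  simp [glReindex]

/-- [ownorm] change of basis by a pure tensor: if every `G i` is similar to `G₀`, the form is a tensor power
of `G₀` in new coordinates with the SAME tensor wreath subgroup. -/
theorem wr_normalize {k m : ℕ} (e : ι ≃ (Fin k → Fin m)) (P : GL ι F)
    (G : Fin k → Matrix (Fin m) (Fin m) F) (G₀ : Matrix (Fin m) (Fin m) F)
    (c : Fin k → F) (hc : ∀ i, c i ≠ 0) (A : Fin k → GL (Fin m) F)
    (hA : ∀ i, G i = c i • ((A i : Matrix (Fin m) (Fin m) F)ᵀ * G₀ * (A i : Matrix (Fin m) (Fin m) F)))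
    (hG : ∀ x y : (Fin k → Fin m) → F, f ((P : Matrix ι ι F) *ᵥ (x ∘ e)) ((P : Matrix ι ι F) *ᵥ (y ∘ e)) =
        ∑ a, ∑ b, x a * (∏ i, G i (a i) (b i)) * y b) :
    ∃ P' : GL ι F, tensorWreathSubgroup m k e P' = tensorWreathSubgroup m k e P ∧
      IsTensorPowerFormStructure id f (formOfGram id G₀) e P' := by
  obtain ⟨T, hT⟩ : ∃ T : GL (Fin k → Fin m) F, T = ptGL (fun i => (A i)⁻¹) := ⟨_, rfl⟩
  have hTmem : T ∈ tensorWreathStandard m k F := by
    rw [hT]
    exact Subgroup.subset_closure (Or.inl (ptGL_isPureTensor _))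
  have hTval : (T : Matrix (Fin k → Fin m) (Fin k → Fin m) F) =
      pt (fun i => (((A i)⁻¹ : GL (Fin m) F) : Matrix (Fin m) (Fin m) F)) := by
    rw [hT]; rfl
  refine ⟨P * glReindex e.symm T, ?_, ∏ i, c i, Finset.prod_ne_zero_iff.2 (fun i _ => hc i), fun x y => ?_⟩
  · ext g
    rw [mem_tensorWreathSubgroup_iff, mem_tensorWreathSubgroup_iff]
    have h1 : (glReindex e) ((P * glReindex e.symm T)⁻¹ * g * (P * glReindex e.symm T)) =
        T⁻¹ * (glReindex e) (P⁻¹ * g * P) * T := by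
      have h2 : (glReindex e) (glReindex e.symm T) = T := by
        apply Units.ext
        ext i j
        simp [glReindex]
      have h3 : (P * glReindex e.symm T)⁻¹ * g * (P * glReindex e.symm T) =
          (glReindex e.symm T)⁻¹ * (P⁻¹ * g * P) * glReindex e.symm T := by group
      rw [h3, map_mul, map_mul, map_inv, h2]
    rw [h1, Subgroup.mul_mem_cancel_right _ hTmem, Subgroup.mul_mem_cancel_left _ (inv_mem hTmem)]
  · rw [Units.val_mul, ← Matrix.mulVec_mulVec, ← Matrix.mulVec_mulVec, glReindex_symm_mulVec,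
      glReindex_symm_mulVec, hG, gramMatrix_formOfGram]
    have e1 : ∀ (B : Fin k → Matrix (Fin m) (Fin m) F) (x y : (Fin k → Fin m) → F),
        ∑ a, ∑ b, x a * (∏ i, B i (a i) (b i)) * y b = x ⬝ᵥ pt B *ᵥ y := fun B x y => sum_eq_dot (pt B) x y
    simp only [id]
    rw [e1, e1, hTval, Matrix.mulVec_mulVec, Matrix.dotProduct_mulVec, Matrix.vecMul_mulVec,
      ← Matrix.dotProduct_mulVec, pt_transpose, pt_mul, pt_mul]
    have e2 : (fun j => ((((A j)⁻¹ : GL (Fin m) F) : Matrix (Fin m) (Fin m) F))ᵀ *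
        (G j * (((A j)⁻¹ : GL (Fin m) F) : Matrix (Fin m) (Fin m) F))) = fun j => c j • G₀ := by
      funext j
      rw [hA j, Matrix.smul_mul, Matrix.mul_smul]
      congr 1
      rw [mul_assoc, iv, mul_one, ← mul_assoc, ← Matrix.transpose_mul, iv, Matrix.transpose_one, one_mul]
    rw [e2, pt_smul, Matrix.smul_mulVec, dotProduct_smul, smul_eq_mul]

end Cfsg.Agent.Lib.Helper63OWnorm
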