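import Cfsg.Agent.Lib.Helper97OProper
import Cfsg.Agent.Lib.Helper97GClifford
import Cfsg.Agent.Lib.Helper97GSchur

set_option autoImplicit false
set_option linter.unusedSectionVars false

namespace Cfsg.Agent.Lib.Helper97OCliff

open Cfsg Cfsg.Geo Matrix Cfsg.Agent.Lib.Helper97GBase Cfsg.Agent.Lib.Helper97GForms
  Cfsg.Agent.Lib.Helper97OBase Cfsg.Agent.Lib.Helper97OProper Cfsg.Agent.Lib.Helper97GClifford
  Cfsg.Agent.Lib.Helper97GSchur
open scoped MatrixGroups

variable {ι : Type} [Fintype ι] [DecidableEq ι] {F : Type*} [Field F]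

section general

variable {σ : F ≃+* F} {f : (ι → F) → (ι → F) → F}

/-- two weight vectors which are not orthogonal have dual characters -/
lemma char_dual (hs : Sesq σ f) {T : Subgroup (GL ι F)} (hT : FixesForm (matrixSet T) f)
    {χ ψ : T → F} {u v : ι → F} (hu : u ∈ Wt T χ) (hv : v ∈ Wt T ψ) (huv : f u v ≠ 0) (t : T) :
    χ t * σ (ψ t) = 1 := by
  have h2 := hT _ ⟨t, t.2, rfl⟩ u v
  simp only at h2
  rw [hu t, hv t, hs.smul_left, hs.smul_right, ← mul_assoc] at h2
  exact mul_right_cancel₀ huv (by rw [h2, one_mul])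

lemma zero_right (hs : Sesq σ f) (u : ι → F) : f u 0 = 0 := by
  have := hs.smul_right 0 u 0
  simpa using this

/-- a decomposition into weight lines of a normal subgroup is orthogonal, in odd dimension -/
lemma orth_decomp_gen (hs : Sesq σ f) (hnd : IsNondegenerateForm f)
    (hswap : ∀ u v, f u v ≠ 0 → f v u ≠ 0) {n : ℕ} (hodd : Odd n) {H T : Subgroup (GL ι F)}
    (hH : FixesForm (matrixSet H) f) (hirr : ActsIrreducibly (matrixSet H))
    (hT : FixesForm (matrixSet T) f)
    {D : Fin n → Submodule F (ι → F)} (hD : IsMDecomposition 1 D)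
    (hle : H ≤ decompositionStabilizer D) (hχ : ∀ i, ∃ χ : T → F, D i = Wt T χ) :
    IsNondegenerateMDecomposition f 1 D := by
  classical
  choose χ hχ using hχ
  have hne : ∀ i, D i ≠ ⊥ := by
    intro i hb
    have := hD.finrank_eq i
    rw [hb, finrank_bot] at this
    omega
  have hinj : Function.Injective D := hD.indep.injective hne
  have huniq : ∀ i j k, (∃ u ∈ D i, ∃ v ∈ D j, f u v ≠ 0) → (∃ u ∈ D i, ∃ v ∈ D k, f u v ≠ 0) →
      j = k := by
    rintro i j k ⟨u, hu, v, hv, huv⟩ ⟨u', hu', v', hv', huv'⟩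
    apply hinj
    rw [hχ j, hχ k]
    congr 1
    funext t
    rw [hχ i] at hu hu'
    rw [hχ j] at hv
    rw [hχ k] at hv'
    have e1 := char_dual hs hT hu hv huv t
    have e2 := char_dual hs hT hu' hv' huv' t
    have h0 : χ i t ≠ 0 := by
      intro h0
      rw [h0, zero_mul] at e1
      exact zero_ne_one e1
    apply σ.injective
    exact mul_left_cancel₀ h0 (e1.trans e2.symm)
  have hex : ∀ i, ∃ j, ∃ u ∈ D i, ∃ v ∈ D j, f u v ≠ 0 := by
    intro i
    obtain ⟨u, hu, hu0⟩ := Submodule.exists_mem_ne_zero_of_ne_bot (hne i)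
    by_contra hcon
    push Not at hcon
    obtain ⟨x, hx⟩ := (hnd u hu0).2
    apply hx
    have key : ∀ x ∈ iSup D, f u x = 0 := by
      intro x hx'
      induction hx' using Submodule.iSup_induction' with
      | mem j v hv => exact hcon j u hu v hv
      | zero => exact zero_right hs u
      | add a b _ _ ha hb => rw [hs.add_right, ha, hb, add_zero]
    apply key
    rw [hD.iSup_eq_top]
    trivial
  choose s hsp using hex
  have hinv : Function.Involutive s := by
    intro i
    obtain ⟨u, hu, v, hv, huv⟩ := hsp i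
    exact huniq (s i) _ _ (hsp (s i)) ⟨v, hv, u, hu, hswap _ _ huv⟩
  obtain ⟨i₀, hi₀⟩ : ∃ i, s i = i := by
    have : Fact (Nat.Prime 2) := ⟨Nat.prime_two⟩
    have h2 : ¬ 2 ∣ Fintype.card (Fin n) := by
      rw [Fintype.card_fin]
      exact hodd.not_two_dvd_nat
    have h3 : (hinv.toPerm s) ^ 2 ^ 1 = 1 := by
      ext i
      simp [pow_two, hinv i]
    exact Equiv.Perm.exists_fixed_point_of_prime h2 h3
  let I : Set (Fin n) := {i | s i = i}
  let U : Submodule F (ι → F) := ⨆ i ∈ I, D i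
  have hUinv : Inv H U := by
    intro g hg x hx
    obtain ⟨π, hπ⟩ := hle hg
    have h1 : U.map (Matrix.toLin' (g : Matrix ι ι F)) ≤ U := by
      simp only [U, Submodule.map_iSup]
      apply iSup₂_le
      intro i hi
      rw [hπ i]
      refine le_iSup₂_of_le (f := fun i (_ : i ∈ I) => D i) (π i) ?_ le_rfl
      obtain ⟨u, hu, v, hv, huv⟩ := hsp i
      rw [show s i = i from hi] at hv
      have hgu : (g : Matrix ι ι F) *ᵥ u ∈ D (π i) := by
        rw [← hπ i]
        exact ⟨u, hu, by simp [Matrix.toLin'_apply]⟩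
      have hgv : (g : Matrix ι ι F) *ᵥ v ∈ D (π i) := by
        rw [← hπ i]
        exact ⟨v, hv, by simp [Matrix.toLin'_apply]⟩
      have e : f ((g : Matrix ι ι F) *ᵥ u) ((g : Matrix ι ι F) *ᵥ v) = f u v :=
        hH _ ⟨g, hg, rfl⟩ u v
      exact huniq (π i) _ _ (hsp (π i)) ⟨_, hgu, _, hgv, by rw [e]; exact huv⟩
    have h2 := h1 (Submodule.mem_map_of_mem hx)
    simpa [Matrix.toLin'_apply] using h2
  have hU0 : U ≠ ⊥ := by
    intro hb
    apply hne i₀
    rw [eq_bot_iff, ← hb]
    exact le_iSup₂_of_le i₀ hi₀ le_rfl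
  have hUtop : U = ⊤ := ((actsIrreducibly_iff.mp hirr) U hUinv).resolve_left hU0
  have hall : ∀ i, s i = i := by
    intro j
    by_contra hj
    apply hne j
    have h1 : U ≤ ⨆ i, ⨆ (_ : i ≠ j), D i := by
      apply iSup₂_le
      intro i hi
      refine le_iSup₂_of_le (f := fun i (_ : i ≠ j) => D i) i ?_ le_rfl
      rintro rfl
      exact hj hi
    apply (hD.indep j).eq_bot_of_le
    rw [hUtop] at h1
    exact le_top.trans h1
  refine ⟨hD, ?_, ?_⟩
  · intro i w hw hw0
    obtain ⟨u, hu, v, hv, huv⟩ := hsp i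
    rw [hall i] at hv
    have hfr := hD.finrank_eq i
    have hspan := (finrank_eq_one_iff_of_nonzero' (⟨w, hw⟩ : D i) (by
      intro h0; exact hw0 (congrArg Subtype.val h0))).mp hfr
    obtain ⟨a, ha⟩ := hspan ⟨u, hu⟩
    obtain ⟨b, hb⟩ := hspan ⟨v, hv⟩
    have ha' : a • w = u := congrArg Subtype.val ha
    have hb' : b • w = v := congrArg Subtype.val hb
    have hww : f w w ≠ 0 := by
      intro h0
      apply huv
      rw [← ha', ← hb', hs.smul_left, hs.smul_right, h0, mul_zero, mul_zero]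
    exact ⟨⟨w, hw, hww⟩, ⟨w, hw, hww⟩⟩
  · intro i j hij u hu v hv
    by_contra huv
    apply hij
    have h1 := huniq i _ _ (hsp i) ⟨u, hu, v, hv, huv⟩
    rw [← h1, hall i]

/-- an irreducible group permuting a decomposition is transitive on it -/
lemma transitive_decomp {n m : ℕ} {H : Subgroup (GL ι F)} (hirr : ActsIrreducibly (matrixSet H))
    {D : Fin n → Submodule F (ι → F)} (hD : IsMDecomposition m D)
    (hle : H ≤ decompositionStabilizer D) (i j : Fin n) :
    ∃ g ∈ H, (D i).map (Matrix.toLin' (g : Matrix ι ι F)) = D j := by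
  classical
  have hne : ∀ i, D i ≠ ⊥ := by
    intro i hb
    have := hD.finrank_eq i
    have := hD.pos
    rw [hb, finrank_bot] at *
    omega
  let I : Set (Fin n) := {j | ∃ g ∈ H, (D i).map (Matrix.toLin' (g : Matrix ι ι F)) = D j}
  let U : Submodule F (ι → F) := ⨆ j ∈ I, D j
  have hUinv : Inv H U := by
    intro g hg x hx
    obtain ⟨π, hπ⟩ := hle hg
    have h1 : U.map (Matrix.toLin' (g : Matrix ι ι F)) ≤ U := by
      simp only [U, Submodule.map_iSup]
      apply iSup₂_le
      rintro k ⟨g', hg', hk⟩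
      rw [hπ k]
      refine le_iSup₂_of_le (f := fun i (_ : i ∈ I) => D i) (π k) ?_ le_rfl
      refine ⟨g * g', H.mul_mem hg hg', ?_⟩
      rw [Units.val_mul, Matrix.toLin'_mul, Submodule.map_comp, hk, hπ k]
    have h2 := h1 (Submodule.mem_map_of_mem hx)
    simpa [Matrix.toLin'_apply] using h2
  have hiI : i ∈ I := ⟨1, H.one_mem, by simp⟩
  have hU0 : U ≠ ⊥ := by
    intro hb
    apply hne i
    rw [eq_bot_iff, ← hb]
    exact le_iSup₂_of_le i hiI le_rfl
  have hUtop : U = ⊤ := ((actsIrreducibly_iff.mp hirr) U hUinv).resolve_left hU0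
  by_contra hj
  apply hne j
  have h1 : U ≤ ⨆ k, ⨆ (_ : k ≠ j), D k := by
    apply iSup₂_le
    intro k hk
    refine le_iSup₂_of_le (f := fun i (_ : i ≠ j) => D i) k ?_ le_rfl
    rintro rfl
    exact hj hk
  apply (hD.indep j).eq_bot_of_le
  rw [hUtop] at h1
  exact le_top.trans h1

end general

variable {Q : (ι → F) → F}

lemma fixes_polar {H : Subgroup (GL ι F)} (hH : H ≤ isometryGroup F Q) :
    FixesForm (matrixSet H) (QuadraticMap.polar Q) := by
  rintro _ ⟨g, hg, rfl⟩ u v
  exact polar_iso (hH hg) u v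

lemma orth_decomp (hQ : IsNondegenerateQuadraticForm Q) {n : ℕ} (hodd : Odd n)
    {H T : Subgroup (GL ι F)} (hH : H ≤ isometryGroup F Q) (hirr : ActsIrreducibly (matrixSet H))
    (hT : T ≤ isometryGroup F Q) {D : Fin n → Submodule F (ι → F)} (hD : IsMDecomposition 1 D)
    (hle : H ≤ decompositionStabilizer D) (hχ : ∀ i, ∃ χ : T → F, D i = Wt T χ) :
    IsOrthogonalMDecomposition Q 1 D := by
  refine ⟨orth_decomp_gen (sesq_of_bilinear hQ.polar_bilinear) hQ.nondegenerate
    (fun u v h => by rw [QuadraticMap.polar_comm]; exact h) hodd (fixes_polar hH) hirr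
    (fixes_polar hT) hD hle hχ, ?_⟩
  intro i j
  obtain ⟨g, hg, hgij⟩ := transitive_decomp hirr hD hle i j
  refine ⟨(Submodule.equivMapOfInjective _ (toLin'_injective g) (D i)).trans
    (LinearEquiv.ofEq _ _ hgij), ?_⟩
  intro w
  have : (((Submodule.equivMapOfInjective _ (toLin'_injective g) (D i)).trans
    (LinearEquiv.ofEq _ _ hgij) w : D j) : ι → F) = (g : Matrix ι ι F) *ᵥ (w : ι → F) := by
    simp [Matrix.toLin'_apply]
  rw [this]
  exact (mem_iso.mp (hH hg)) _

end Cfsg.Agent.Lib.Helper97OCliff
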