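import Cfsg.Agent.Lib.Helper58ODefs
import Cfsg.Agent.Lib.Helper97OCliff

set_option autoImplicit false

/-! PROJECT 5 = ASCH-O, piece `odeciso`. -/

namespace Cfsg.Agent.Lib.Helper84ODeciso

open Cfsg Cfsg.Geo Matrix
open Cfsg.Agent.Lib.Helper97GBase Cfsg.Agent.Lib.Helper97GForms Cfsg.Agent.Lib.Helper97OBase
  Cfsg.Agent.Lib.Helper97OProper Cfsg.Agent.Lib.Helper97OCliff Cfsg.Agent.Lib.Helper97GClifford
  Cfsg.Agent.Lib.Helper96SpDefs Cfsg.Agent.Lib.Helper58ODefs
open scoped MatrixGroups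

variable {ι : Type} [Fintype ι] [DecidableEq ι] {F : Type*} [Field F]
variable {Q : (ι → F) → F} {H : Subgroup (GL ι F)}

/-- [odeciso] the blocks of a non-degenerate decomposition stabilised by an irreducible group of
isometries are isometric. -/
theorem odec_of_altDec (hH : H ≤ isometryGroup F Q) (hirr : ActsIrreducibly (matrixSet H))
    (h : AltDec (QuadraticMap.polar Q) H) : ODec Q H := by
  obtain ⟨t, k, D, hD, hle⟩ := h
  refine ⟨t, k, D, ⟨hD, ?_⟩, hle⟩
  intro i j
  obtain ⟨g, hg, hgij⟩ := transitive_decomp hirr hD.decomp hle i j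
  refine ⟨(Submodule.equivMapOfInjective _ (toLin'_injective g) (D i)).trans
    (LinearEquiv.ofEq _ _ hgij), ?_⟩
  intro w
  have : (((Submodule.equivMapOfInjective _ (toLin'_injective g) (D i)).trans
    (LinearEquiv.ofEq _ _ hgij) w : D j) : ι → F) = (g : Matrix ι ι F) *ᵥ (w : ι → F) := by
    simp [Matrix.toLin'_apply]
  rw [this]
  exact (mem_iso.mp (hH hg)) _

end Cfsg.Agent.Lib.Helper84ODeciso
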