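import Cfsg.Agent.Lib.Helper58ODefs
import Cfsg.Agent.Lib.Helper96SpBasic
import Cfsg.Agent.Lib.Helper97GSchur

set_option autoImplicit false

/-! PROJECT 5 = ASCH-O, piece `oschur`. -/

namespace Cfsg.Agent.Lib.Helper84OSchur

open Cfsg Cfsg.Geo Matrix
open Cfsg.Agent.Lib.Helper97GBase Cfsg.Agent.Lib.Helper97GSchur Cfsg.Agent.Lib.Helper96SpDefs
open scoped MatrixGroups

variable {ι : Type} [Fintype ι] [DecidableEq ι] {F : Type*} [Field F]
variable {f : (ι → F) → (ι → F) → F}

/-- [oschur] Schur + Wedderburn: the centraliser algebra of an irreducible group is a field. -/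
theorem centralizer_field [Finite F] {T : Subgroup (GL ι F)} (hT : ActsIrreducibly (matrixSet T)) :
    (∀ x ∈ Subalgebra.centralizer F (matrixSet T), ∀ y ∈ Subalgebra.centralizer F (matrixSet T),
      x * y = y * x) ∧
    (∀ x ∈ Subalgebra.centralizer F (matrixSet T), x ≠ 0 →
      ∃ y ∈ Subalgebra.centralizer F (matrixSet T), x * y = 1) := by
  classical
  set C := Subalgebra.centralizer F (matrixSet T) with hC
  have hinvC : ∀ x ∈ C, x ≠ 0 → ∃ y ∈ C, x * y = 1 := by
    intro x hx hx0
    have hu := isUnit_of_mem_centralizer hT hx hx0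
    exact ⟨x⁻¹, inv_mem_centralizer hx hu,
      Matrix.mul_nonsing_inv x ((Matrix.isUnit_iff_isUnit_det x).mp hu)⟩
  refine ⟨?_, hinvC⟩
  rcases isEmpty_or_nonempty ι with hι | hι
  · intro x _ y _
    exact Subsingleton.elim _ _
  have : Nontrivial C := ⟨0, 1, by
    intro h
    have := congrArg Subtype.val h
    simp at this⟩
  have : NoZeroDivisors C := ⟨by
    intro a b hab
    by_cases ha : a = 0
    · exact Or.inl ha
    · right
      have ha' : (a : Matrix ι ι F) ≠ 0 := fun h => ha (Subtype.ext h)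
      have hu := isUnit_of_mem_centralizer hT a.2 ha'
      have hab' : (a : Matrix ι ι F) * b = 0 := congrArg Subtype.val hab
      apply Subtype.ext
      exact (hu.mul_right_eq_zero).mp hab'⟩
  have : IsDomain C := NoZeroDivisors.to_isDomain C
  have hfield : IsField C := Finite.isDomain_to_isField C
  intro x hx y hy
  exact congrArg Subtype.val (hfield.mul_comm ⟨x, hx⟩ ⟨y, hy⟩)

/-- [oschur] the centraliser algebra of a group of isometries is closed under adjoints. -/
theorem adjClosed_centralizer (hf : IsBilinearForm f) (hnd : IsNondegenerateForm f)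
    {T : Subgroup (GL ι F)} (hT : FixesForm (matrixSet T) f) :
    IsAdjointClosedFor f (Subalgebra.centralizer F (matrixSet T)) := by
  intro a ha
  obtain ⟨b, hb⟩ := exists_adj hf hnd a
  refine ⟨b, ?_, hb⟩
  rw [Subalgebra.mem_centralizer_iff] at ha ⊢
  rintro _ ⟨t, ht, rfl⟩
  have h1 := IsAdj.conj (fixes_apply hT ht) hb
  have h2 : (t : Matrix ι ι F) * a * ((t⁻¹ : GL ι F) : Matrix ι ι F) = a := by
    rw [ha _ ⟨t, ht, rfl⟩, mul_assoc]
    have : (t : Matrix ι ι F) * ((t⁻¹ : GL ι F) : Matrix ι ι F) = 1 := by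
      rw [← Units.val_mul, mul_inv_cancel, Units.val_one]
    rw [this, mul_one]
  rw [h2] at h1
  have h3 := h1.unique hf hnd hb
  have h4 : ((t⁻¹ : GL ι F) : Matrix ι ι F) * (t : Matrix ι ι F) = 1 := by
    rw [← Units.val_mul, inv_mul_cancel, Units.val_one]
  calc (t : Matrix ι ι F) * b
      = (t : Matrix ι ι F) * b * (((t⁻¹ : GL ι F) : Matrix ι ι F) * (t : Matrix ι ι F)) := by
        rw [h4, mul_one]
    _ = ((t : Matrix ι ι F) * b * ((t⁻¹ : GL ι F) : Matrix ι ι F)) * (t : Matrix ι ι F) := by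
        simp only [mul_assoc]
    _ = b * (t : Matrix ι ι F) := by rw [h3]

end Cfsg.Agent.Lib.Helper84OSchur
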