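import Cfsg.Agent.Lib.Helper95UComm

set_option autoImplicit false

/-! PROJECT 5 = ASCH-O, piece `ocomm`. -/

namespace Cfsg.Agent.Lib.Helper95OComm

open Cfsg Cfsg.Geo Matrix
open Cfsg.Agent.Lib.Helper98AschGDefs Cfsg.Agent.Lib.Helper96SpDefs Cfsg.Agent.Lib.Helper95UComm
open scoped MatrixGroups

variable {ι : Type} [Fintype ι] [DecidableEq ι] {F : Type*} [Field F]
variable {f : (ι → F) → (ι → F) → F} {H : Subgroup (GL ι F)}

lemma rf_of_symmetric (hf : IsSymmetricForm f) : RF f where
  add_left := hf.bilinear.add_left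
  add_right := hf.bilinear.add_right
  nondegenerate := hf.nondegenerate
  refl := ⟨id, hf.symm⟩

/-- [ocomm] commutative adjoint-closed normalised subalgebra: field, or imprimitive
(the symmetric analogue of helper96's `sp_comm`; same proof). -/
theorem o_comm [Finite F] [Nonempty ι] (hf : IsSymmetricForm f) (hH : FixesForm (matrixSet H) f)
    (hirr : ActsIrreducibly (matrixSet H)) {C : Subalgebra F (Matrix ι ι F)} (hC : NzA H C)
    (hcomm : ∀ x ∈ C, ∀ y ∈ C, x * y = y * x) (hadj : IsAdjointClosedFor f C) :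
    (∀ x ∈ C, x ≠ 0 → ∃ y ∈ C, x * y = 1) ∨ AltDec f H ∨ AltPair f H :=
  rf_comm (rf_of_symmetric hf) hH hirr hC hcomm hadj

end Cfsg.Agent.Lib.Helper95OComm
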