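import Cfsg.Agent.Lib.Helper58ODefs
import Cfsg.Agent.Lib.Helper97OMain

set_option autoImplicit false
set_option linter.unusedSectionVars false

/-! PROJECT 5 = ASCH-O, pieces `oprime` and `osimple` (adapted from `Helper97OMain.omain`). -/

namespace Cfsg.Agent.Lib.Helper95OPrime

open Cfsg Cfsg.Geo Matrix Cfsg.Agent.Lib.Helper97GBase Cfsg.Agent.Lib.Helper97GForms
  Cfsg.Agent.Lib.Helper97OBase Cfsg.Agent.Lib.Helper97OProper Cfsg.Agent.Lib.Helper97GClifford
  Cfsg.Agent.Lib.Helper97GSubfield Cfsg.Agent.Lib.Helper97GCore Cfsg.Agent.Lib.Helper97OCliff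
  Cfsg.Agent.Lib.Helper97OCliff2 Cfsg.Agent.Lib.Helper97OProper2 Cfsg.Agent.Lib.Helper97OProper3
  Cfsg.Agent.Lib.Helper97OSub Cfsg.Agent.Lib.Helper97OMono Cfsg.Agent.Lib.Helper97GQF
  Cfsg.Agent.Lib.Helper97OMain Cfsg.Agent.Lib.Helper58ODefs
open scoped MatrixGroups commutatorElement

variable {ι : Type} [Fintype ι] [DecidableEq ι] {F : Type*} [Field F]
variable {Q : (ι → F) → F} {H : Subgroup (GL ι F)}

/-- [osimple] the almost simple case (copy the end of the proof of `Helper97OMain.omain`). -/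
theorem o_simple [Fintype F] [Nonempty ι] (hQ : IsNondegenerateQuadraticForm Q) (h2 : (2 : F) ≠ 0)
    (hodd : Odd (Fintype.card ι))
    (hstd : ∀ (τ : F ≃+* F) i j, τ (QuadraticMap.polar Q (Pi.single i 1) (Pi.single j 1)) =
      QuadraticMap.polar Q (Pi.single i 1) (Pi.single j 1))
    (hH : H ≤ isometryGroup F Q)
    {N : Subgroup (GL ι F)} (hNH : N ≤ H) (hnorm : Nz H N)
    (habs : ActsAbsolutelyIrreducibly (matrixSet N)) (hperf : ⁅N, N⁆ = N) (hNs : ¬ N ≤ scalars ι F)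
    (hmin : ∀ T' : Subgroup (GL ι F), T' ≤ N → NzG N T' → T' ≤ scalars ι F ∨ T' = N) :
    OSub Q H ∨ InOrthogonalResidualClass H := by
  by_cases hsub : ∃ F₀ : Subfield F, F₀ ≠ ⊤ ∧ RealisableOver F₀ (matrixSet N)
  · obtain ⟨F₀, hF₀, hreal⟩ := hsub
    left
    obtain ⟨F₁, r, C, hr, hcard, hC, hle⟩ :=
      subfield_case hQ h2 hodd hstd hnorm (hNH.trans hH) habs hF₀ hreal
    exact ⟨F₁, r, C, hr, hcard, hC, hle⟩
  right
  refine ⟨N, ⟨hNH, hnorm, hperf, simple_quotient _ N hNs hmin, not_comm_quotient _ N hNs hperf, ?_,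
    habs, ?_⟩, ?_⟩
  · intro h _ hh
    exact centralizer_scalar_of_perfect hperf habs h hh
  · intro F₀ hF₀ hreal
    exact hsub ⟨F₀, hF₀, hreal⟩
  · rintro ⟨σ, f, hf, hfix⟩
    obtain ⟨F₁, hF₁, hcard⟩ := Cfsg.Agent.Lib.Helper97USub.fix_sigma σ hf.ne_refl hf.involutive
    apply hsub
    exact ⟨F₁, subfield_ne_top_of_card Nat.prime_two hcard,
      realisable_of_bilinear hf hfix habs hQ.polar_bilinear hQ.nondegenerate
        (fixes_polar (hNH.trans hH)) (fun a ha => (hF₁ a).mp ha)⟩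

/-- [oprime] prime dimension: helper97's `Helper97OMain.omain` for ARBITRARY subgroups. -/
theorem o_prime [Fintype F] (hn : (Fintype.card ι).Prime) (hodd : Odd (Fintype.card ι))
    (hQ : IsNondegenerateQuadraticForm Q) (hoddF : Odd (Fintype.card F))
    (hstd : ∀ (τ : F ≃+* F) i j, τ (QuadraticMap.polar Q (Pi.single i 1) (Pi.single j 1)) =
      QuadraticMap.polar Q (Pi.single i 1) (Pi.single j 1))
    (hHI : H ≤ isometryGroup F Q) (hHSL : H ≤ specialLinear ι F) :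
    OddAlt Q H ∨ InOrthogonalResidualClass H := by
  have hn2 : 2 ≤ Fintype.card ι := hn.two_le
  have hne : Nonempty ι := Fintype.card_pos_iff.mp hn.pos
  have hoddn := hodd
  have h2 : (2 : F) ≠ 0 := two_ne_zero_of_odd hoddF
  have osub : OSub Q H → OddAlt Q H ∨ InOrthogonalResidualClass H := fun h =>
    Or.inl (Or.inr (Or.inr (Or.inr (Or.inr (Or.inr (Or.inr (Or.inl h)))))))
  -- the subfield conclusion
  have concl5 : ∀ (P : Subgroup (GL ι F)), P ≤ H → Nz H P →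
      ActsAbsolutelyIrreducibly (matrixSet P) →
      ∀ F₀ : Subfield F, F₀ ≠ ⊤ → RealisableOver F₀ (matrixSet P) → OSub Q H := by
    intro P hPH hnorm habs F₀ hF₀ hreal
    obtain ⟨F₁, r, C, hr, hcard, hC, hle⟩ :=
      subfield_case hQ h2 hoddn hstd hnorm (hPH.trans hHI) habs hF₀ hreal
    exact ⟨F₁, r, C, hr, hcard, hC, hle⟩
  -- reducible case
  by_cases hirr : ActsIrreducibly (matrixSet H)
  swap
  · rw [actsIrreducibly_iff] at hirr
    push Not at hirr
    obtain ⟨W, hW, h0, h1⟩ := hirr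
    rcases reducible_case hQ h2 hoddn hHI hW h0 h1 with ⟨U, hU0, hU, hinv⟩ |
      ⟨U, hU0, hU1, heven, hU, hinv⟩
    · exact Or.inl (Or.inl ⟨U, hU0, hU, le_subspaceStabilizer_of_Inv hinv⟩)
    · exact Or.inl (Or.inr (Or.inl ⟨U, hU0, hU1, hU, le_subspaceStabilizer_of_Inv hinv⟩))
  have habsH : ActsAbsolutelyIrreducibly (matrixSet H) := absIrred_of_irred hQ h2 hn hoddn hHI hirr
  have hNzH : Nz H H := fun h hh x hx => H.mul_mem (H.mul_mem hh hx) (H.inv_mem hh)
  -- imprimitive case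
  by_cases himp : ∃ D : Fin (Fintype.card ι) → Submodule F (ι → F),
      IsOrthogonalMDecomposition Q 1 D ∧ H ≤ decompositionStabilizer D
  · obtain ⟨D, hD, hle⟩ := himp
    by_cases hprime : (Fintype.card F).Prime
    · exact Or.inl (Or.inr (Or.inr (Or.inr (Or.inl ⟨hprime, _, D, hD, hle⟩))))
    · obtain ⟨F₀, hF₀⟩ := exists_proper_subfield hprime
      exact osub (concl5 H le_rfl hNzH habsH F₀ hF₀ (realisable_of_monomial hQ hn.pos rfl hD hHI hle F₀))
  -- dichotomy for normal subgroups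
  have hdich : ∀ T : Subgroup (GL ι F), T ≤ H → Nz H T →
      T ≤ scalars ι F ∨ ActsAbsolutelyIrreducibly (matrixSet T) := by
    intro T hTH hnorm
    rcases clifford hn hirr hnorm with h | h | ⟨D, hD, hle, _, hχ⟩
    · exact Or.inl h
    · exact Or.inr (absIrred_of_irred hQ h2 hn hoddn (hTH.trans hHI) h)
    · exact absurd ⟨D, orth_decomp hQ hoddn hHI hirr (hTH.trans hHI) hD hle hχ, hle⟩ himp
  have hns : ¬ H ≤ scalars ι F := fun h => not_irred_of_le_scalars hn2 h hirr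
  have h6 : ∀ T : Subgroup (GL ι F), T ≤ H → Nz H T → ⁅T, T⁆ ≤ scalars ι F → T ≤ scalars ι F := by
    intro T hTH hnorm hcomm
    refine (hdich T hTH hnorm).resolve_right (not_absIrred_of_comm hn2 ?_)
    intro a ha b hb
    have hmem : ⁅a, b⁆ ∈ ⁅T, T⁆ := Subgroup.commutator_mem_commutator ha hb
    have hmemH : ⁅a, b⁆ ∈ H := by
      rw [commutatorElement_def]
      exact H.mul_mem (H.mul_mem (H.mul_mem (hTH ha) (hTH hb)) (H.inv_mem (hTH ha)))
        (H.inv_mem (hTH hb))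
    have h1 := scalar_iso_eq_one hQ hoddn (hcomm hmem) (hHI hmemH) (hHSL hmemH)
    exact commutatorElement_eq_one_iff_mul_comm.mp h1
  obtain ⟨P, hPH, hnorm, hperf, hsimple, hnonab, habs⟩ := exists_core hn hns hdich h6
  by_cases hsub : ∃ F₀ : Subfield F, F₀ ≠ ⊤ ∧ RealisableOver F₀ (matrixSet P)
  · obtain ⟨F₀, hF₀, hreal⟩ := hsub
    exact osub (concl5 P hPH hnorm habs F₀ hF₀ hreal)
  right
  refine ⟨P, ⟨hPH, hnorm, hperf, hsimple, hnonab, ?_, habs, ?_⟩, ?_⟩
  · intro h _ hh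
    exact centralizer_scalar_of_perfect hperf habs h hh
  · intro F₀ hF₀ hreal
    exact hsub ⟨F₀, hF₀, hreal⟩
  · rintro ⟨σ, f, hf, hfix⟩
    obtain ⟨F₁, hF₁, hcard⟩ := Cfsg.Agent.Lib.Helper97USub.fix_sigma σ hf.ne_refl hf.involutive
    apply hsub
    exact ⟨F₁, subfield_ne_top_of_card Nat.prime_two hcard,
      realisable_of_bilinear hf hfix habs hQ.polar_bilinear hQ.nondegenerate
        (fixes_polar (hPH.trans hHI)) (fun a ha => (hF₁ a).mp ha)⟩

end Cfsg.Agent.Lib.Helper95OPrime
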