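import Cfsg.Agent.Lib.Helper58ODefs
import Cfsg.Agent.Lib.Helper96SpBasic
import Cfsg.Agent.Lib.Helper95SpTensodd
import Cfsg.Agent.Lib.Helper58GC7
import Cfsg.Agent.Lib.Helper58GTensnorm
import Cfsg.Agent.Lib.Helper58GD
import Cfsg.Agent.Lib.Helper58GCore
import Cfsg.Agent.Lib.Helper97OMain
import Cfsg.Agent.Lib.Helper95OComm
import Cfsg.Agent.Lib.Helper84ODeciso
import Cfsg.Agent.Lib.Helper12OField
import Cfsg.Agent.Lib.Helper95OPrime
import Cfsg.Agent.Lib.Helper84OSchur
import Cfsg.Agent.Lib.Helper54OSim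
import Cfsg.Agent.Lib.Helper63OTens
import Cfsg.Agent.Lib.Helper12OTsymm
import Cfsg.Agent.Lib.Helper63OWnorm
import Cfsg.Agent.Lib.Helper12SpTensform
import Cfsg.Agent.Lib.Helper57SpWrform
import Cfsg.Agent.Lib.Helper54OThree

set_option autoImplicit false

/-! PROJECT 5 = ASCH-O, PART 1: Aschbacher's theorem for subgroups of `SO_n(q)`, `n` odd, `q` odd.
Assembly of the pieces proved by helper12, helper54, helper57, helper63, helper84, helper95 (and the libraries of
helper96, helper97, helper98). -/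

namespace Cfsg.Agent.Lib.Helper58OMain

open Cfsg Cfsg.Geo Matrix
open Cfsg.Agent.Lib.Helper97GBase Cfsg.Agent.Lib.Helper97GCore Cfsg.Agent.Lib.Helper97GForms
  Cfsg.Agent.Lib.Helper98AschGDefs Cfsg.Agent.Lib.Helper98AschGBasic Cfsg.Agent.Lib.Helper96SpDefs
  Cfsg.Agent.Lib.Helper58ODefs
open Cfsg.Agent.Lib.Helper95OComm Cfsg.Agent.Lib.Helper84ODeciso Cfsg.Agent.Lib.Helper12OField
  Cfsg.Agent.Lib.Helper95OPrime Cfsg.Agent.Lib.Helper84OSchur Cfsg.Agent.Lib.Helper54OSim
  Cfsg.Agent.Lib.Helper63OTens Cfsg.Agent.Lib.Helper12OTsymm Cfsg.Agent.Lib.Helper63OWnorm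
  Cfsg.Agent.Lib.Helper12SpTensform Cfsg.Agent.Lib.Helper57SpWrform Cfsg.Agent.Lib.Helper54OThree
open scoped MatrixGroups Kronecker commutatorElement

variable {ι : Type} [Fintype ι] [DecidableEq ι] {F : Type*} [Field F]
variable {f : (ι → F) → (ι → F) → F} {Q : (ι → F) → F} {H : Subgroup (GL ι F)}

open Cfsg.Agent.Lib.Helper97OBase Cfsg.Agent.Lib.Helper97OCliff Cfsg.Agent.Lib.Helper97OCliff2
  Cfsg.Agent.Lib.Helper97OSub Cfsg.Agent.Lib.Helper97OMono Cfsg.Agent.Lib.Helper97OMain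
  Cfsg.Agent.Lib.Helper58GStruct Cfsg.Agent.Lib.Helper58GC7 Cfsg.Agent.Lib.Helper58GD

lemma symm_polar (hQ : IsNondegenerateQuadraticForm Q) : IsSymmetricForm (QuadraticMap.polar Q) :=
  ⟨hQ.polar_bilinear, fun u v => QuadraticMap.polar_comm Q u v, hQ.nondegenerate⟩

/-- tensor wreath data with a form: class 7 or (q = m = 3) class 2. -/
theorem o_wreath [Fintype F] [Nonempty ι] (hoddF : Odd (Fintype.card F)) (hQ : IsNondegenerateQuadraticForm Q)
    (hodd : Odd (Fintype.card ι)) (hH : H ≤ isometryGroup F Q) {k m : ℕ} (hm : 2 ≤ m) (hk : 2 ≤ k)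
    (e : ι ≃ (Fin k → Fin m)) (P : GL ι F) (hle : H ≤ tensorWreathSubgroup m k e P)
    (G : Fin k → Matrix (Fin m) (Fin m) F) (hGu : ∀ i, IsUnit (G i).det)
    (hG : ∀ x y : (Fin k → Fin m) → F, QuadraticMap.polar Q ((P : Matrix ι ι F) *ᵥ (x ∘ e))
      ((P : Matrix ι ι F) *ᵥ (y ∘ e)) = ∑ a, ∑ b, x a * (∏ i, G i (a i) (b i)) * y b) :
    OddAlt Q H := by
  have h2 : (2 : F) ≠ 0 := Cfsg.Agent.Lib.Helper97OBase.two_ne_zero_of_odd hoddF
  have hcard : Fintype.card ι = m ^ k := by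
    rw [Fintype.card_congr e]
    simp
  have hmodd : Odd m := by
    rw [hcard] at hodd
    exact (Nat.odd_pow_iff (by omega)).1 hodd
  have hm3 : 3 ≤ m := by
    obtain ⟨j, hj⟩ := hmodd
    omega
  have hsymG : ∀ i, (G i)ᵀ = G i := fun i =>
    (wr_form_symm (symm_polar hQ).symm e P G hGu hG i).resolve_right (not_skew_of_odd h2 hmodd _ (hGu i))
  let i0 : Fin k := ⟨0, by omega⟩
  choose c A hc hA using fun i => sym_similar hoddF hmodd (G i0) (G i) (hsymG i0) (hsymG i) (hGu i0) (hGu i)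
  obtain ⟨P', hP', hstr⟩ := wr_normalize e P G (G i0) c hc A hA hG
  have hf₁ := Cfsg.Agent.Lib.Helper95SpTensodd.formOfGram_symmetric (G i0) (hGu i0) (hsymG i0)
  rw [← hP'] at hle
  by_cases h33 : Fintype.card F = 3 ∧ m = 3
  · obtain ⟨hq, rfl⟩ := h33
    exact Or.inr (Or.inr (Or.inr (Or.inl ⟨by rw [hq]; norm_num,
      o_three hq hQ hH (by omega) e P' hle _ hf₁ hstr⟩)))
  · exact Or.inr (Or.inr (Or.inr (Or.inr (Or.inr (Or.inr (Or.inr
      ⟨m, k, e, P', _, hm3, hk, h33, hf₁, hstr, hle⟩))))))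

/-- tensor product data with a form: class 4, class 7 or class 2. -/
theorem o_tensor [Fintype F] [Nonempty ι] (hoddF : Odd (Fintype.card F)) (hQ : IsNondegenerateQuadraticForm Q)
    (hodd : Odd (Fintype.card ι)) (hH : H ≤ isometryGroup F Q) {d s : ℕ} (hd : 2 ≤ d) (hs : 2 ≤ s)
    (e : ι ≃ Fin d × Fin s) (P : GL ι F) (hle : H ≤ tensorProductSubgroup d s e P)
    (G₁ : Matrix (Fin d) (Fin d) F) (G₂ : Matrix (Fin s) (Fin s) F) (h₁ : IsUnit G₁.det) (h₂ : IsUnit G₂.det)
    (hG : ∀ x y : Fin d × Fin s → F, QuadraticMap.polar Q ((P : Matrix ι ι F) *ᵥ (x ∘ e))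
      ((P : Matrix ι ι F) *ᵥ (y ∘ e)) = formOfGram id (G₁ ⊗ₖ G₂) x y) :
    OddAlt Q H := by
  have h2 : (2 : F) ≠ 0 := Cfsg.Agent.Lib.Helper97OBase.two_ne_zero_of_odd hoddF
  have hcard : Fintype.card ι = d * s := by
    rw [Fintype.card_congr e]
    simp
  rw [hcard, Nat.odd_mul] at hodd
  obtain ⟨hdo, hso⟩ := hodd
  have hd3 : 3 ≤ d := by
    obtain ⟨j, hj⟩ := hdo
    omega
  have hs3 : 3 ≤ s := by
    obtain ⟨j, hj⟩ := hso
    omega
  obtain ⟨hs₁, hs₂⟩ : G₁ᵀ = G₁ ∧ G₂ᵀ = G₂ := by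
    rcases tens_form_symm (symm_polar hQ).symm e P G₁ G₂ h₁ h₂ hG with h | h
    · exact h
    · exact absurd h.1 (not_skew_of_odd h2 hdo _ h₁)
  rcases lt_trichotomy d s with hlt | rfl | hgt
  · exact Or.inr (Or.inr (Or.inr (Or.inr (Or.inr (Or.inl
      (o_tensor_lt hd3 hlt e P hle G₁ G₂ h₁ h₂ hG hs₁ hs₂))))))
  · obtain ⟨e', hle', hG'⟩ := tens_form_eq e P hle G₁ G₂ hG
    refine o_wreath hoddF hQ (by rw [hcard, Nat.odd_mul]; exact ⟨hdo, hso⟩) hH hd le_rfl e' P hle'
      ![G₁, G₂] ?_ hG'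
    intro i
    fin_cases i
    · exact h₁
    · exact h₂
  · obtain ⟨e', hle', hG'⟩ := tens_form_swap e P hle G₁ G₂ hG
    exact Or.inr (Or.inr (Or.inr (Or.inr (Or.inr (Or.inl
      (o_tensor_lt hs3 hgt e' P hle' G₂ G₁ h₂ h₁ hG' hs₂ hs₁))))))

/-- **Aschbacher's theorem for subgroups of `SO_n(q)`, `n` odd, `q` odd.** -/
theorem o_main_odd [Fintype F] (hodd : Odd (Fintype.card ι)) (h3 : 3 ≤ Fintype.card ι)
    (hQ : IsNondegenerateQuadraticForm Q) (hoddF : Odd (Fintype.card F))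
    (hstd : ∀ (τ : F ≃+* F) i j, τ (QuadraticMap.polar Q (Pi.single i 1) (Pi.single j 1)) =
      QuadraticMap.polar Q (Pi.single i 1) (Pi.single j 1))
    (hHI : H ≤ isometryGroup F Q) (hHSL : H ≤ specialLinear ι F) :
    OddAlt Q H ∨ InOrthogonalResidualClass H := by
  by_cases hn : (Fintype.card ι).Prime
  · exact o_prime hn hodd hQ hoddF hstd hHI hHSL
  by_cases hgeo : OddAlt Q H
  · exact Or.inl hgeo
  have hne : Nonempty ι := Fintype.card_pos_iff.mp (by omega)
  have h2 : (2 : F) ≠ 0 := Cfsg.Agent.Lib.Helper97OBase.two_ne_zero_of_odd hoddF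
  have hsym : IsSymmetricForm (QuadraticMap.polar Q) := symm_polar hQ
  have hfix : FixesForm (matrixSet H) (QuadraticMap.polar Q) := fixes_polar hHI
  have hrefl : ∀ a b : Matrix ι ι F, IsAdj (QuadraticMap.polar Q) a b → IsAdj (QuadraticMap.polar Q) b a :=
    fun a b h => h.symm_of_symm hsym.symm
  have hNzH : Nz H H := fun h hh x hx => H.mul_mem (H.mul_mem hh hx) (H.inv_mem hh)
  -- irreducible
  have hirr : ActsIrreducibly (matrixSet H) := by
    by_contra hirr
    rw [actsIrreducibly_iff] at hirr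
    push Not at hirr
    obtain ⟨W, hW, h0, h1⟩ := hirr
    rcases reducible_case hQ h2 hodd hHI hW h0 h1 with ⟨U, hU0, hU, hinv⟩ | ⟨U, hU0, hU1, _, hU, hinv⟩
    · exact hgeo (Or.inl ⟨U, hU0, hU, le_subspaceStabilizer_of_Inv hinv⟩)
    · exact hgeo (Or.inr (Or.inl ⟨U, hU0, hU1, hU, le_subspaceStabilizer_of_Inv hinv⟩))
  -- normalised adjoint-closed fields are scalar
  have hfield : ∀ K : Subalgebra F (Matrix ι ι F), NzA H K → (∀ x ∈ K, ∀ y ∈ K, x * y = y * x) →
      (∀ x ∈ K, x ≠ 0 → ∃ y ∈ K, x * y = 1) → IsAdjointClosedFor (QuadraticMap.polar Q) K →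
      ∀ x ∈ K, ∃ c : F, x = c • (1 : Matrix ι ι F) := by
    intro K hK hcomm hinv hadj x hx
    by_contra hcon
    push Not at hcon
    obtain ⟨r, K', hr, hK', hsa, hle⟩ := o_field h2 hsym hodd hK hcomm hinv hadj ⟨x, hx, hcon⟩
    exact hgeo (Or.inr (Or.inr (Or.inr (Or.inr (Or.inl ⟨r, K', hr, fun h => hn (h ▸ hr), hK', hsa, hle⟩)))))
  -- absolutely irreducible
  have habsH : ActsAbsolutelyIrreducibly (matrixSet H) := by
    refine ⟨hirr, fun M hM => ?_⟩
    obtain ⟨hc, hi⟩ := centralizer_field hirr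
    refine hfield (Subalgebra.centralizer F (matrixSet H)) ?_ hc hi
      (adjClosed_centralizer hsym.bilinear hsym.nondegenerate hfix) M ?_
    · intro h hh a ha
      have h1 : (h : Matrix ι ι F) * a = a * (h : Matrix ι ι F) :=
        (Subalgebra.mem_centralizer_iff F).1 ha _ ⟨h, hh, rfl⟩
      rw [h1, mul_assoc, iv, mul_one]
      exact ha
    · rw [Subalgebra.mem_centralizer_iff]
      intro s hs
      exact (hM s hs).symm
  -- normalised adjoint-closed commutative algebras are scalar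
  have hcommalg : ∀ C : Subalgebra F (Matrix ι ι F), NzA H C → (∀ x ∈ C, ∀ y ∈ C, x * y = y * x) →
      IsAdjointClosedFor (QuadraticMap.polar Q) C → ∀ x ∈ C, ∃ c : F, x = c • (1 : Matrix ι ι F) := by
    intro C hC hcomm hadj
    rcases o_comm hsym hfix hirr hC hcomm hadj with hinv | hdec | ⟨k, D, hD, _, _⟩
    · exact hfield C hC hcomm hinv hadj
    · exfalso
      obtain ⟨t, k, D, hD, hle⟩ := odec_of_altDec hHI hirr hdec
      by_cases hk : 1 < k
      · exact hgeo (Or.inr (Or.inr (Or.inl ⟨t, k, D, hk, hD, hle⟩)))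
      · have hk1 : k = 1 := by
          have := hD.decomp.decomp.pos
          omega
        subst hk1
        by_cases hp : (Fintype.card F).Prime
        · exact hgeo (Or.inr (Or.inr (Or.inr (Or.inl ⟨hp, t, D, hD, hle⟩))))
        · obtain ⟨F₀, hF₀⟩ := exists_proper_subfield hp
          have hcard : Fintype.card ι = t := by
            have := decomp_card D hD.decomp.decomp
            omega
          have hreal := realisable_of_monomial hQ (n := t) (by omega) hcard hD hHI hle F₀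
          obtain ⟨F₁, r, B, hr, hc, hB, hle'⟩ := subfield_case hQ h2 hodd hstd hNzH hHI habsH hF₀ hreal
          exact hgeo (Or.inr (Or.inr (Or.inr (Or.inr (Or.inr (Or.inr (Or.inl ⟨F₁, r, B, hr, hc, hB, hle'⟩)))))))
    · exfalso
      have := decomp_card D hD
      rw [this] at hodd
      exact (Nat.not_odd_iff_even.2 (even_two_mul k)) hodd
  -- dichotomy
  have hdich : ∀ T : Subgroup (GL ι F), T ≤ H → Nz H T →
      T ≤ scalars ι F ∨ ActsAbsolutelyIrreducibly (matrixSet T) := by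
    intro T hTH hT
    have hA : NzA H (env T) := NzA_env hT
    have hadjA : IsAdjointClosedFor (QuadraticMap.polar Q) (env T) :=
      adjClosed_env hsym.bilinear (fixes_mono hfix hTH)
    have hcen : ∀ z ∈ env T, (∀ a ∈ env T, z * a = a * z) → ∃ c : F, z = c • (1 : Matrix ι ι F) := by
      intro z hz hza
      exact hcommalg (cen (env T)) (NzA_cen hA) cen_comm
        (adjClosed_cen hsym.bilinear hsym.nondegenerate hrefl hadjA) z (mem_cen.2 ⟨hz, hza⟩)
    obtain ⟨d, s, hd, e, P, hmem⟩ := struct hirr hA hcen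
    have hle : H ≤ tensorProductSubgroup d s e P := fun g hg =>
      Cfsg.Agent.Lib.Helper58GTensnorm.mem_tensorProductSubgroup_of_normalizes e P g
        (fun a => (hmem _).1 (hA g hg _ ((hmem _).2 ⟨a, rfl⟩)))
    have hd0 : d ≠ 0 := NeZero.ne d
    have hs0 : s ≠ 0 := by
      rintro rfl
      have h1 := Fintype.card_congr e
      simp at h1
    by_cases hd1 : d = 1
    · left
      subst hd1
      intro t ht
      obtain ⟨a, ha⟩ := (hmem _).1 (val_mem_env ht)
      have ha1 : a = a 0 0 • (1 : Matrix (Fin 1) (Fin 1) F) := by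
        ext i j
        rw [Subsingleton.elim i 0, Subsingleton.elim j 0]
        simp
      rw [ha1, tens_smul_left, tens_one] at ha
      rw [mem_scalars_iff]
      have hne : a 0 0 ≠ 0 := by
        intro h0
        rw [h0, zero_smul] at ha
        have := t.isUnit
        rw [ha] at this
        exact not_isUnit_zero this
      exact ⟨Units.mk0 _ hne, ha⟩
    by_cases hs1 : s = 1
    · right
      subst hs1
      apply absIrred_of_env
      intro M
      exact (hmem M).2 (exists_tens_of_one e P M)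
    · exfalso
      have hadj' : ∀ a : Matrix (Fin d) (Fin d) F, ∃ a' : Matrix (Fin d) (Fin d) F,
          IsAdj (QuadraticMap.polar Q) (tens e P a 1) (tens e P a' 1) := by
        intro a
        obtain ⟨b, hb, hab⟩ := hadjA _ ((hmem _).2 ⟨a, rfl⟩)
        obtain ⟨a', rfl⟩ := (hmem _).1 hb
        exact ⟨a', hab⟩
      obtain ⟨G₁, G₂, h₁, h₂, hG⟩ := tens_form hsym.bilinear hsym.nondegenerate e P hadj'
      exact hgeo (o_tensor hoddF hQ hodd hHI (by omega) (by omega) e P hle G₁ G₂ h₁ h₂ hG)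
  have hns : ¬ H ≤ scalars ι F := fun h => not_irred_of_le_scalars (by omega) h hirr
  obtain ⟨N, hNH, hnorm, hNs, hmin, hcase⟩ :=
    Cfsg.Agent.Lib.Helper58GCore.core_general (scalars ι F) scalars_le_center H hns
  have habs : ActsAbsolutelyIrreducibly (matrixSet N) := (hdich N hNH hnorm).resolve_left hNs
  rcases hcase with hcomm | ⟨hperf, T, hTN, hTnorm, hTs, hTperf, hTmin, hTconj, hsup⟩
  · exfalso
    refine not_absIrred_of_comm (by omega) ?_ habs
    intro a ha b hb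
    have hmem : ⁅a, b⁆ ∈ ⁅N, N⁆ := Subgroup.commutator_mem_commutator ha hb
    have hmemH : ⁅a, b⁆ ∈ H := by
      rw [commutatorElement_def]
      exact H.mul_mem (H.mul_mem (H.mul_mem (hNH ha) (hNH hb)) (H.inv_mem (hNH ha)))
        (H.inv_mem (hNH hb))
    have h1 := scalar_iso_eq_one hQ hodd (hcomm hmem) (hHI hmemH) (hHSL hmemH)
    exact commutatorElement_eq_one_iff_mul_comm.mp h1
  by_cases hall : ∀ h ∈ H, cj h T = T
  swap
  · exfalso
    push Not at hall
    obtain ⟨k, m, e, P, hh, hm, hk, hle, hmem⟩ := c7_data habs hTnorm hTs hTconj hsup hall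
    have hadj' : ∀ (i : Fin k) (a : Matrix (Fin m) (Fin m) F), ∃ a' : Matrix (Fin m) (Fin m) F,
        IsAdj (QuadraticMap.polar Q) (fac e P i a) (fac e P i a') := by
      intro i a
      have hTi : cj (hh i : GL ι F) T ≤ H := by
        intro x hx
        rw [mem_cj] at hx
        have h1 := H.mul_mem (H.mul_mem (hh i).2 (hNH (hTN hx))) (H.inv_mem (hh i).2)
        have h2 : (hh i : GL ι F) * ((hh i : GL ι F)⁻¹ * x * (hh i : GL ι F)) * (hh i : GL ι F)⁻¹ = x := by
          group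
        rwa [h2] at h1
      obtain ⟨b, hb, hab⟩ := adjClosed_env hsym.bilinear (fixes_mono hfix hTi) _ ((hmem i _).2 ⟨a, rfl⟩)
      obtain ⟨a', rfl⟩ := (hmem i _).1 hb
      exact ⟨a', hab⟩
    obtain ⟨G, hGu, hG⟩ := wr_form hsym.bilinear hsym.nondegenerate (by omega) e P hadj'
    exact hgeo (o_wreath hoddF hQ hodd hHI hm hk e P hle G hGu hG)
  have hTN' : T = N := by
    rw [← hsup]
    apply le_antisymm
    · exact le_iSup_of_le (1 : H) (by simp [cj_one])
    · apply iSup_le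
      intro h
      rw [hall h h.2]
  subst hTN'
  rcases o_simple hQ h2 hodd hstd hHI hNH hnorm habs hTperf hTs hTmin with h | h
  · exact absurd (Or.inr (Or.inr (Or.inr (Or.inr (Or.inr (Or.inr (Or.inl h))))))) hgeo
  · exact Or.inr h

end Cfsg.Agent.Lib.Helper58OMain
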