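import Cfsg.Agent.Lib.Helper58EDefs
import Cfsg.Agent.Lib.Helper97OMain

set_option autoImplicit false
set_option linter.unusedSectionVars false

/-! PROJECT 5 = ASCH-O, part 2a, piece `esimple` (relative to the statement of piece `esub`, which is
passed as the hypothesis `hsubf`). -/

namespace Cfsg.Agent.Lib.Helper63OEsimple

open Cfsg Cfsg.Geo Matrix Cfsg.Agent.Lib.Helper97GBase Cfsg.Agent.Lib.Helper97GForms
  Cfsg.Agent.Lib.Helper97OBase Cfsg.Agent.Lib.Helper97OProper Cfsg.Agent.Lib.Helper97GClifford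
  Cfsg.Agent.Lib.Helper97GSubfield Cfsg.Agent.Lib.Helper97GCore Cfsg.Agent.Lib.Helper97OCliff
  Cfsg.Agent.Lib.Helper97OCliff2 Cfsg.Agent.Lib.Helper97OProper2 Cfsg.Agent.Lib.Helper97OProper3
  Cfsg.Agent.Lib.Helper97OSub Cfsg.Agent.Lib.Helper97OMono Cfsg.Agent.Lib.Helper97GQF
  Cfsg.Agent.Lib.Helper97OMain Cfsg.Agent.Lib.Helper58ODefs Cfsg.Agent.Lib.Helper58EDefs
open scoped MatrixGroups commutatorElement

variable {ι : Type} [Fintype ι] [DecidableEq ι] {F : Type*} [Field F]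
variable {Q : (ι → F) → F} {H : Subgroup (GL ι F)}

/-- [esimple] the almost simple case, with the conclusion of [esub] for `N` as a hypothesis:
`o_simple_gen h2 hQ hH hNH hnorm habs hperf hNs hmin :=
  o_simple_gen_of h2 hQ hH hNH hnorm habs hperf hNs hmin
    (fun F₀ h h' => o_subfield_gen h2 hQ hnorm (hNH.trans hH) habs h h')`. -/
theorem o_simple_gen_of [Fintype F] (h2 : 2 ≤ Fintype.card ι) (hQ : IsNondegenerateQuadraticForm Q)
    (hH : H ≤ isometryGroup F Q)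
    {N : Subgroup (GL ι F)} (hNH : N ≤ H) (hnorm : Nz H N)
    (habs : ActsAbsolutelyIrreducibly (matrixSet N)) (hperf : ⁅N, N⁆ = N) (hNs : ¬ N ≤ scalars ι F)
    (hmin : ∀ T' : Subgroup (GL ι F), T' ≤ N → NzG N T' → T' ≤ scalars ι F ∨ T' = N)
    (hsubf : ∀ F₀ : Subfield F, F₀ ≠ ⊤ → RealisableOver F₀ (matrixSet N) → OSubZ Q H) :
    OSubZ Q H ∨ InOrthogonalResidualClass H := by
  have hne : Nonempty ι := Fintype.card_pos_iff.mp (by omega)
  by_cases hsub : ∃ F₀ : Subfield F, F₀ ≠ ⊤ ∧ RealisableOver F₀ (matrixSet N)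
  · obtain ⟨F₀, hF₀, hreal⟩ := hsub
    exact Or.inl (hsubf F₀ hF₀ hreal)
  right
  refine ⟨N, ⟨hNH, hnorm, hperf, simple_quotient _ N hNs hmin, not_comm_quotient _ N hNs hperf, ?_,
    habs, ?_⟩, ?_⟩
  · intro h _ hh
    exact centralizer_scalar_of_perfect hperf habs h hh
  · intro F₀ hF₀ hreal
    exact hsub ⟨F₀, hF₀, hreal⟩
  · rintro ⟨σ, f, hf, hfix⟩
    obtain ⟨F₁, hF₁, hcard⟩ := Cfsg.Agent.Lib.Helper97USub.fix_sigma σ hf.ne_refl hf.involutive
    apply hsub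
    exact ⟨F₁, subfield_ne_top_of_card Nat.prime_two hcard,
      realisable_of_bilinear hf hfix habs hQ.polar_bilinear hQ.nondegenerate
        (fixes_polar (hNH.trans hH)) (fun a ha => (hF₁ a).mp ha)⟩

end Cfsg.Agent.Lib.Helper63OEsimple
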