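import Cfsg.Agent.Lib.Helper58EDefs
import Cfsg.Agent.Lib.Helper97OSub

set_option autoImplicit false
set_option linter.unusedSectionVars false

/-! PROJECT 5 = ASCH-O, PART 2a, piece `esub`: a normal absolutely irreducible subgroup realisable over a
proper subfield gives class 5, with the rationality of a multiple of `Q` (all characteristics). -/

namespace Cfsg.Agent.Lib.Helper7OEsub

open Cfsg Cfsg.Geo Matrix
open Cfsg.Agent.Lib.Helper97GBase Cfsg.Agent.Lib.Helper97GCore Cfsg.Agent.Lib.Helper97GForms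
  Cfsg.Agent.Lib.Helper98AschGDefs Cfsg.Agent.Lib.Helper96SpDefs
  Cfsg.Agent.Lib.Helper58ODefs Cfsg.Agent.Lib.Helper58EDefs Cfsg.Agent.Lib.Helper97OSub
  Cfsg.Agent.Lib.Helper97OBase Cfsg.Agent.Lib.Helper97GSubfield
open scoped MatrixGroups Kronecker

variable {ι : Type} [Fintype ι] [DecidableEq ι] {F : Type*} [Field F]
variable {Q : (ι → F) → F} {H : Subgroup (GL ι F)}

lemma Q_add (Q : (ι → F) → F) (u v : ι → F) : Q (u + v) = Q u + Q v + QuadraticMap.polar Q u v := by
  unfold QuadraticMap.polar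
  ring

/-- the quadratic form itself is semi-invariant under the semilinear map -/
lemma semi_quad [Finite F] (h2 : 2 ≤ Fintype.card ι) (hQ : IsNondegenerateQuadraticForm Q)
    (τ : F ≃+* F) {N : Subgroup (GL ι F)} (hN : N ≤ isometryGroup F Q)
    (habs : ActsAbsolutelyIrreducibly (matrixSet N)) (B : GL ι F)
    (hB : ∀ x ∈ N, ∀ i j, τ (((B * x * B⁻¹ : GL ι F) : Matrix ι ι F) i j) =
      ((B * x * B⁻¹ : GL ι F) : Matrix ι ι F) i j) :
    ∃ c : F, ∀ v, Q (semi τ B v) = c * τ (Q v) := by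
  obtain ⟨c, hc⟩ := semi_polar hQ τ hN habs B hB
  refine ⟨c, ?_⟩
  obtain ⟨D, hD⟩ : ∃ D : (ι → F) → F, D = fun v => Q (semi τ B v) - c * τ (Q v) := ⟨_, rfl⟩
  have hDadd : ∀ u v, D (u + v) = D u + D v := by
    intro u v
    simp only [hD]
    rw [semi_add, Q_add Q (semi τ B u), Q_add Q u v, hc, map_add, map_add]
    ring
  have hDsmul : ∀ (a : F) v, D (a • v) = τ a ^ 2 * D v := by
    intro a v
    simp only [hD]
    rw [semi_smul, hQ.smul, hQ.smul, map_mul, map_pow]
    ring
  have hDinv : ∀ x ∈ N, ∀ v, D ((x : Matrix ι ι F) *ᵥ v) = D v := by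
    intro x hx v
    simp only [hD]
    rw [semi_comm τ B x (hB x hx), mem_iso.mp (hN hx), mem_iso.mp (hN hx)]
  have hD0 : D 0 = 0 := by
    have := hDadd 0 0
    rw [add_zero] at this
    exact left_eq_add.mp this
  let W : Submodule F (ι → F) :=
    { carrier := {v | D v = 0}
      add_mem' := fun {u v} hu hv => by
        show D (u + v) = 0
        rw [hDadd, show D u = 0 from hu, show D v = 0 from hv, add_zero]
      zero_mem' := hD0
      smul_mem' := fun a v hv => by
        show D (a • v) = 0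
        rw [hDsmul, show D v = 0 from hv, mul_zero] }
  have hW : ∀ s ∈ matrixSet N, W.map (Matrix.toLin' s) ≤ W := by
    rintro _ ⟨x, hx, rfl⟩ _ ⟨v, hv, rfl⟩
    show D _ = 0
    rw [Matrix.toLin'_apply, hDinv x hx]
    exact hv
  rcases habs.1 W hW with hbot | htop
  · exfalso
    have hneg : ∀ v, D (-v) = - D v := by
      intro v
      have := hDadd v (-v)
      rw [add_neg_cancel, hD0] at this
      exact eq_neg_of_add_eq_zero_right this.symm
    have hinj : Function.Injective D := by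
      intro u v huv
      have h1 : u - v ∈ W := by
        show D (u - v) = 0
        rw [sub_eq_add_neg, hDadd, hneg, huv, add_neg_cancel]
      rw [hbot, Submodule.mem_bot, sub_eq_zero] at h1
      exact h1
    have : Fintype F := Fintype.ofFinite F
    have h3 := Fintype.card_le_of_injective D hinj
    rw [Fintype.card_fun] at h3
    have h4 : 1 < Fintype.card F := Fintype.one_lt_card
    have h5 : Fintype.card F ^ 2 ≤ Fintype.card F ^ Fintype.card ι :=
      Nat.pow_le_pow_right (by omega) h2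
    nlinarith
  · intro v
    have h1 : v ∈ W := by rw [htop]; trivial
    have h2 : D v = 0 := h1
    rw [hD] at h2
    exact sub_eq_zero.mp h2

/-- [esub] a normal absolutely irreducible subgroup realisable over a proper subfield: class 5, with the
rationality of a multiple of `Q` (all characteristics). -/
theorem o_subfield_gen [Fintype F] (h2 : 2 ≤ Fintype.card ι) (hQ : IsNondegenerateQuadraticForm Q)
    {N : Subgroup (GL ι F)} (hnorm : Nz H N) (hN : N ≤ isometryGroup F Q)
    (habs : ActsAbsolutelyIrreducibly (matrixSet N))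
    {F₀ : Subfield F} (hF₀ : F₀ ≠ ⊤) (hreal : RealisableOver F₀ (matrixSet N)) : OSubZ Q H := by
  have hne : Nonempty ι := Fintype.card_pos_iff.mp (by omega)
  obtain ⟨B, hB⟩ := hreal
  obtain ⟨τ, F₁, r, hr, hcard, hτ0, hτ1⟩ := Cfsg.Agent.Lib.Helper97USub.exists_aut' hF₀
  have hB' : ∀ x ∈ N, ∀ i j, ((B * x * B⁻¹ : GL ι F) : Matrix ι ι F) i j ∈ F₀ := by
    intro x hx i j
    have := hB _ ⟨x, hx, rfl⟩ i j
    simpa [Units.val_mul] using this
  obtain ⟨c, hc⟩ := semi_quad h2 hQ τ hN habs B (fun x hx i j => hτ0 _ (hB' x hx i j))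
  obtain ⟨M, hM⟩ : ∃ M, M = ((B⁻¹ : GL ι F) : Matrix ι ι F) := ⟨_, rfl⟩
  have hfixed : ∀ u : ι → F, (∀ i, τ (u i) = u i) → Q (M *ᵥ u) = c * τ (Q (M *ᵥ u)) := by
    intro u hu
    have := hc (M *ᵥ u)
    rw [hM, semi_fixed τ B hu] at this
    rw [hM]
    exact this
  have hsingle : ∀ (j i : ι), τ ((Pi.single j 1 : ι → F) i) = (Pi.single j 1 : ι → F) i := by
    intro j i
    by_cases hij : i = j
    · subst hij; simp
    · simp [hij]
  -- a rational non-singular vector
  obtain ⟨u₀, hu₀, hQu₀⟩ : ∃ u₀ : ι → F, (∀ i, τ (u₀ i) = u₀ i) ∧ Q (M *ᵥ u₀) ≠ 0 := by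
    by_contra hcon
    push Not at hcon
    have hb := hQ.polar_bilinear
    have hpol : ∀ i j, QuadraticMap.polar Q (M *ᵥ Pi.single i 1) (M *ᵥ Pi.single j 1) = 0 := by
      intro i j
      unfold QuadraticMap.polar
      rw [← Matrix.mulVec_add, hcon _ (hsingle i), hcon _ (hsingle j), hcon _ (fun k => by
        rw [Pi.add_apply, map_add, hsingle, hsingle])]
      ring
    have hG : Helper97GForms.gram (fun u v => QuadraticMap.polar Q (M *ᵥ u) (M *ᵥ v)) = 0 := by
      ext i j
      exact hpol i j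
    rw [gram_comp hb M] at hG
    have hdet := congrArg Matrix.det hG
    rw [Matrix.det_mul, Matrix.det_mul, Matrix.det_transpose, Matrix.det_zero] at hdet
    have hDne : (Helper97GForms.gram (QuadraticMap.polar Q)).det ≠ 0 :=
      ((sesq_of_bilinear hb).isUnit_det_gram (fun v hv => (hQ.nondegenerate v hv).1)).ne_zero
    have hδne : M.det ≠ 0 := by
      rw [hM]
      exact ((Matrix.isUnit_iff_isUnit_det _).mp (B⁻¹).isUnit).ne_zero
    exact mul_ne_zero (mul_ne_zero hδne hDne) hδne hdet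
  have hτne : τ (Q (M *ᵥ u₀)) ≠ 0 := fun h0 => hQu₀ ((map_eq_zero τ).mp h0)
  have hcval : c = Q (M *ᵥ u₀) / τ (Q (M *ᵥ u₀)) := by
    rw [eq_div_iff hτne]
    exact (hfixed u₀ hu₀).symm
  refine ⟨F₁, r, B⁻¹, (Q (M *ᵥ u₀))⁻¹, hr, hcard, inv_ne_zero hQu₀, ?_, ?_⟩
  · intro u hu
    show (Q (M *ᵥ u₀))⁻¹ * Q (((B⁻¹ : GL ι F) : Matrix ι ι F) *ᵥ u) ∈ F₁
    rw [← hM, ← hτ1, map_mul, map_inv₀]
    have h3 := hfixed u (fun i => (hτ1 _).mpr (hu i))
    conv_rhs => rw [h3, hcval]
    field_simp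
  · exact key (τ : F →+* F) hτ0 (fun a ha => (hτ1 a).mp ha) hnorm habs B hB

end Cfsg.Agent.Lib.Helper7OEsub
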