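import Cfsg.Agent.Lib.Helper58EDefs
import Cfsg.Agent.Lib.Helper58OMain
import Cfsg.Agent.Lib.Helper36ORed
import Cfsg.Agent.Lib.Helper63OEfield
import Cfsg.Agent.Lib.Helper63OEsimple
import Cfsg.Agent.Lib.Helper7OEsub

set_option autoImplicit false

/-! PROJECT 5 = ASCH-O, PART 2a: the GENERAL theorem (any dimension ≥ 3, any finite field, any `H ≤ O(Q)`).
Pieces: helper36 (ered, epair), helper63 (efield, esimple), helper7 (esub). -/

namespace Cfsg.Agent.Lib.Helper58EMain

open Cfsg Cfsg.Geo Matrix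
open Cfsg.Agent.Lib.Helper97GBase Cfsg.Agent.Lib.Helper97GCore Cfsg.Agent.Lib.Helper97GForms
  Cfsg.Agent.Lib.Helper98AschGDefs Cfsg.Agent.Lib.Helper98AschGBasic Cfsg.Agent.Lib.Helper96SpDefs
  Cfsg.Agent.Lib.Helper58ODefs Cfsg.Agent.Lib.Helper58EDefs
open scoped MatrixGroups Kronecker commutatorElement

variable {ι : Type} [Fintype ι] [DecidableEq ι] {F : Type*} [Field F]
variable {f : (ι → F) → (ι → F) → F} {Q : (ι → F) → F} {H : Subgroup (GL ι F)}

/-! ## ASSEMBLY (helper58) -/

open Cfsg.Agent.Lib.Helper97OBase Cfsg.Agent.Lib.Helper97OCliff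
  Cfsg.Agent.Lib.Helper58GStruct Cfsg.Agent.Lib.Helper58GC7 Cfsg.Agent.Lib.Helper58GD
  Cfsg.Agent.Lib.Helper58OMain Cfsg.Agent.Lib.Helper95OComm Cfsg.Agent.Lib.Helper84ODeciso
  Cfsg.Agent.Lib.Helper12SpTensform Cfsg.Agent.Lib.Helper57SpWrform
  Cfsg.Agent.Lib.Helper36ORed Cfsg.Agent.Lib.Helper63OEfield Cfsg.Agent.Lib.Helper63OEsimple
  Cfsg.Agent.Lib.Helper7OEsub

/-- **Aschbacher's theorem for subgroups of `O(Q)`**, raw form. -/
theorem o_main_gen [Fintype F] (h3 : 3 ≤ Fintype.card ι) (hQ : IsNondegenerateQuadraticForm Q)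
    (hHI : H ≤ isometryGroup F Q) : GenAlt Q H ∨ InOrthogonalResidualClass H := by
  by_cases hgeo : GenAlt Q H
  · exact Or.inl hgeo
  have hne : Nonempty ι := Fintype.card_pos_iff.mp (by omega)
  have hsym : IsSymmetricForm (QuadraticMap.polar Q) := symm_polar hQ
  have hfix : FixesForm (matrixSet H) (QuadraticMap.polar Q) := fixes_polar hHI
  have hrefl : ∀ a b : Matrix ι ι F, IsAdj (QuadraticMap.polar Q) a b → IsAdj (QuadraticMap.polar Q) b a :=
    fun a b h => h.symm_of_symm hsym.symm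
  -- irreducible
  have hirr : ActsIrreducibly (matrixSet H) := by
    by_contra hirr
    rcases o_reducible hQ hHI hirr with h | h | h
    · exact hgeo (Or.inl h)
    · exact hgeo (Or.inr (Or.inl h))
    · exact hgeo (Or.inr (Or.inr (Or.inl h)))
  -- normalised adjoint-closed commutative algebras are scalar
  have hcommalg : ∀ C : Subalgebra F (Matrix ι ι F), NzA H C → (∀ x ∈ C, ∀ y ∈ C, x * y = y * x) →
      IsAdjointClosedFor (QuadraticMap.polar Q) C → ∀ x ∈ C, ∃ c : F, x = c • (1 : Matrix ι ι F) := by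
    intro C hC hcomm hadj x hx
    rcases o_comm hsym hfix hirr hC hcomm hadj with hinv | hdec | hpair
    · by_contra hcon
      push Not at hcon
      exact hgeo (Or.inr (Or.inr (Or.inr (Or.inr (Or.inr (Or.inl
        (o_field_gen hsym hC hcomm hinv hadj ⟨x, hx, hcon⟩)))))))
    · exact absurd (Or.inr (Or.inr (Or.inr (Or.inl (odec_of_altDec hHI hirr hdec))))) hgeo
    · exact absurd (Or.inr (Or.inr (Or.inr (Or.inr (Or.inl (o_pair h3 hQ hHI hirr hpair)))))) hgeo
  -- dichotomy
  have hdich : ∀ T : Subgroup (GL ι F), T ≤ H → Nz H T →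
      T ≤ scalars ι F ∨ ActsAbsolutelyIrreducibly (matrixSet T) := by
    intro T hTH hT
    have hA : NzA H (env T) := NzA_env hT
    have hadjA : IsAdjointClosedFor (QuadraticMap.polar Q) (env T) :=
      adjClosed_env hsym.bilinear (fixes_mono hfix hTH)
    have hcen : ∀ z ∈ env T, (∀ a ∈ env T, z * a = a * z) → ∃ c : F, z = c • (1 : Matrix ι ι F) := by
      intro z hz hza
      exact hcommalg (cen (env T)) (NzA_cen hA) cen_comm
        (adjClosed_cen hsym.bilinear hsym.nondegenerate hrefl hadjA) z (mem_cen.2 ⟨hz, hza⟩)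
    obtain ⟨d, s, hd, e, P, hmem⟩ := struct hirr hA hcen
    have hle : H ≤ tensorProductSubgroup d s e P := fun g hg =>
      Cfsg.Agent.Lib.Helper58GTensnorm.mem_tensorProductSubgroup_of_normalizes e P g
        (fun a => (hmem _).1 (hA g hg _ ((hmem _).2 ⟨a, rfl⟩)))
    have hd0 : d ≠ 0 := NeZero.ne d
    have hs0 : s ≠ 0 := by
      rintro rfl
      have h1 := Fintype.card_congr e
      simp at h1
    by_cases hd1 : d = 1
    · left
      subst hd1
      intro t ht
      obtain ⟨a, ha⟩ := (hmem _).1 (val_mem_env ht)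
      have ha1 : a = a 0 0 • (1 : Matrix (Fin 1) (Fin 1) F) := by
        ext i j
        rw [Subsingleton.elim i 0, Subsingleton.elim j 0]
        simp
      rw [ha1, tens_smul_left, tens_one] at ha
      rw [mem_scalars_iff]
      have hne : a 0 0 ≠ 0 := by
        intro h0
        rw [h0, zero_smul] at ha
        have := t.isUnit
        rw [ha] at this
        exact not_isUnit_zero this
      exact ⟨Units.mk0 _ hne, ha⟩
    by_cases hs1 : s = 1
    · right
      subst hs1
      apply absIrred_of_env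
      intro M
      exact (hmem M).2 (exists_tens_of_one e P M)
    · exfalso
      have hadj' : ∀ a : Matrix (Fin d) (Fin d) F, ∃ a' : Matrix (Fin d) (Fin d) F,
          IsAdj (QuadraticMap.polar Q) (tens e P a 1) (tens e P a' 1) := by
        intro a
        obtain ⟨b, hb, hab⟩ := hadjA _ ((hmem _).2 ⟨a, rfl⟩)
        obtain ⟨a', rfl⟩ := (hmem _).1 hb
        exact ⟨a', hab⟩
      obtain ⟨G₁, G₂, h₁, h₂, hG⟩ := tens_form hsym.bilinear hsym.nondegenerate e P hadj'
      exact hgeo (Or.inr (Or.inr (Or.inr (Or.inr (Or.inr (Or.inr (Or.inl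
        ⟨d, s, e, P, G₁, G₂, by omega, by omega, h₁, h₂, hG, hle⟩)))))))
  have hns : ¬ H ≤ scalars ι F := fun h => not_irred_of_le_scalars (by omega) h hirr
  obtain ⟨N, hNH, hnorm, hNs, hmin, hcase⟩ :=
    Cfsg.Agent.Lib.Helper58GCore.core_general (scalars ι F) scalars_le_center H hns
  have habs : ActsAbsolutelyIrreducibly (matrixSet N) := (hdich N hNH hnorm).resolve_left hNs
  rcases hcase with hcomm | ⟨hperf, T, hTN, hTnorm, hTs, hTperf, hTmin, hTconj, hsup⟩
  · exact absurd (Or.inr (Or.inr (Or.inr (Or.inr (Or.inr (Or.inr (Or.inr (Or.inl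
      ⟨N, hNH, hnorm, hNs, hcomm, habs, hmin⟩)))))))) hgeo
  by_cases hall : ∀ h ∈ H, cj h T = T
  swap
  · exfalso
    push Not at hall
    obtain ⟨k, m, e, P, hh, hm, hk, hle, hmem⟩ := c7_data habs hTnorm hTs hTconj hsup hall
    have hadj' : ∀ (i : Fin k) (a : Matrix (Fin m) (Fin m) F), ∃ a' : Matrix (Fin m) (Fin m) F,
        IsAdj (QuadraticMap.polar Q) (fac e P i a) (fac e P i a') := by
      intro i a
      have hTi : cj (hh i : GL ι F) T ≤ H := by
        intro x hx
        rw [mem_cj] at hx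
        have h1 := H.mul_mem (H.mul_mem (hh i).2 (hNH (hTN hx))) (H.inv_mem (hh i).2)
        have h2 : (hh i : GL ι F) * ((hh i : GL ι F)⁻¹ * x * (hh i : GL ι F)) * (hh i : GL ι F)⁻¹ = x := by
          group
        rwa [h2] at h1
      obtain ⟨b, hb, hab⟩ := adjClosed_env hsym.bilinear (fixes_mono hfix hTi) _ ((hmem i _).2 ⟨a, rfl⟩)
      obtain ⟨a', rfl⟩ := (hmem i _).1 hb
      exact ⟨a', hab⟩
    obtain ⟨G, hGu, hG⟩ := wr_form hsym.bilinear hsym.nondegenerate (by omega) e P hadj'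
    exact hgeo (Or.inr (Or.inr (Or.inr (Or.inr (Or.inr (Or.inr (Or.inr (Or.inr (Or.inl
      ⟨k, m, e, P, G, T, hh, hm, hk, hGu, hG, hle, hTN.trans hNH, hTperf, hTs, hmem⟩)))))))))
  have hTN' : T = N := by
    rw [← hsup]
    apply le_antisymm
    · exact le_iSup_of_le (1 : H) (by simp [cj_one])
    · apply iSup_le
      intro h
      rw [hall h h.2]
  subst hTN'
  rcases o_simple_gen_of (by omega) hQ hHI hNH hnorm habs hTperf hTs hTmin
      (fun F₀ h h' => o_subfield_gen (by omega) hQ hnorm (hNH.trans hHI) habs h h') with h | h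
  · exact absurd (Or.inr (Or.inr (Or.inr (Or.inr (Or.inr (Or.inr (Or.inr (Or.inr (Or.inr h))))))))) hgeo
  · exact Or.inr h

end Cfsg.Agent.Lib.Helper58EMain
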