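import Cfsg.Agent.Lib.Helper98AschGDefs

set_option autoImplicit false

/-! Piece `semisimple` of the ASCH-GEN project: a subalgebra of the matrix algebra normalised by an
irreducible group is a semisimple ring. -/

namespace Cfsg.Agent.Lib.Helper58GSemisimple

open Cfsg Cfsg.Geo Matrix
open Cfsg.Agent.Lib.Helper97GBase Cfsg.Agent.Lib.Helper98AschGDefs
open scoped MatrixGroups

variable {ι : Type} [Fintype ι] [DecidableEq ι] {F : Type*} [Field F]

lemma val_mul_inv_val (h : GL ι F) :
    (h : Matrix ι ι F) * ((h⁻¹ : GL ι F) : Matrix ι ι F) = 1 := by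
  rw [← Units.val_mul, mul_inv_cancel, Units.val_one]

lemma inv_val_mul_val (h : GL ι F) :
    ((h⁻¹ : GL ι F) : Matrix ι ι F) * (h : Matrix ι ι F) = 1 := by
  rw [← Units.val_mul, inv_mul_cancel, Units.val_one]

/-- conjugation by an element of `H` as a ring endomorphism of the normalised subalgebra. -/
def conjHom {H : Subgroup (GL ι F)} {A : Subalgebra F (Matrix ι ι F)}
    (hA : NzA H A) (h : GL ι F) (hh : h ∈ H) : A →+* A where
  toFun a := ⟨(h : Matrix ι ι F) * a *
    ((h⁻¹ : GL ι F) : Matrix ι ι F), hA h hh a a.2⟩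
  map_one' := by
    apply Subtype.ext
    simp
  map_mul' a b := by
    apply Subtype.ext
    show (h : Matrix ι ι F) * ((a : Matrix ι ι F) * b) * _ =
      ((h : Matrix ι ι F) * a * _) * ((h : Matrix ι ι F) * b * _)
    calc (h : Matrix ι ι F) * ((a : Matrix ι ι F) * b) *
          ((h⁻¹ : GL ι F) : Matrix ι ι F)
        = (h : Matrix ι ι F) * a * 1 * b *
          ((h⁻¹ : GL ι F) : Matrix ι ι F) := by
          simp only [mul_one, mul_assoc]
      _ = _ := by
          rw [← inv_val_mul_val h]
          simp only [mul_assoc]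
  map_zero' := by
    apply Subtype.ext
    simp
  map_add' a b := by
    apply Subtype.ext
    simp [mul_add, add_mul]

lemma conjHom_surjective {H : Subgroup (GL ι F)}
    {A : Subalgebra F (Matrix ι ι F)}
    (hA : NzA H A) (h : GL ι F) (hh : h ∈ H) : Function.Surjective (conjHom hA h hh) := by
  intro a
  refine ⟨conjHom hA h⁻¹ (H.inv_mem hh) a, ?_⟩
  apply Subtype.ext
  show (h : Matrix ι ι F) * (((h⁻¹ : GL ι F) : Matrix ι ι F) * a *
    (((h⁻¹)⁻¹ : GL ι F) : Matrix ι ι F)) *
      ((h⁻¹ : GL ι F) : Matrix ι ι F) = a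
  rw [inv_inv]
  calc _ = ((h : Matrix ι ι F) * ((h⁻¹ : GL ι F) : Matrix ι ι F)) * a *
      ((h : Matrix ι ι F) * ((h⁻¹ : GL ι F) : Matrix ι ι F)) := by
        simp only [mul_assoc]
    _ = a := by rw [val_mul_inv_val]; simp

lemma conj_mem_jacobson {H : Subgroup (GL ι F)}
    {A : Subalgebra F (Matrix ι ι F)}
    (hA : NzA H A) (h : GL ι F) (hh : h ∈ H) {x : A} (hx : x ∈ Ring.jacobson A) :
    conjHom hA h hh x ∈ Ring.jacobson A := by
  have : RingHomSurjective (conjHom hA h hh) := ⟨conjHom_surjective hA h hh⟩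
  exact Ring.le_comap_jacobson (conjHom hA h hh) hx

/-- [semisimple] a subalgebra normalised by an irreducible group is a semisimple ring. -/
theorem semisimple [Finite F] [Nonempty ι] {H : Subgroup (GL ι F)}
    (hirr : ActsIrreducibly (matrixSet H))
    {A : Subalgebra F (Matrix ι ι F)} (hA : NzA H A) : IsSemisimpleRing A := by
  classical
  have : Finite A := Subtype.finite
  have : IsArtinianRing A := inferInstance
  rw [IsArtinianRing.isSemisimpleRing_iff_jacobson]
  set J : Ideal A := Ring.jacobson A with hJ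
  -- the common kernel of `J`
  let K : Submodule F (ι → F) :=
    { carrier := {v | ∀ x ∈ J, (x : Matrix ι ι F) *ᵥ v = 0}
      add_mem' := by
        intro u v hu hv x hx
        rw [Matrix.mulVec_add, hu x hx, hv x hx, add_zero]
      zero_mem' := by
        intro x _
        simp
      smul_mem' := by
        intro c v hv x hx
        rw [Matrix.mulVec_smul, hv x hx, smul_zero] }
  have hKinv : Inv H K := by
    intro h hh v hv x hx
    have h1 := hv _ (conj_mem_jacobson hA h⁻¹ (H.inv_mem hh) hx)
    have h2 : ((conjHom hA h⁻¹ (H.inv_mem hh) x : A) : Matrix ι ι F) =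
        ((h⁻¹ : GL ι F) : Matrix ι ι F) * x * (h : Matrix ι ι F) := by
      show ((h⁻¹ : GL ι F) : Matrix ι ι F) * x *
        (((h⁻¹)⁻¹ : GL ι F) : Matrix ι ι F) = _
      rw [inv_inv]
    rw [h2, ← Matrix.mulVec_mulVec, ← Matrix.mulVec_mulVec] at h1
    have h3 := congrArg (fun w => (h : Matrix ι ι F) *ᵥ w) h1
    simpa using h3
  have hKne : K ≠ ⊥ := by
    obtain ⟨k0, hk0⟩ : IsNilpotent J := by
      have := IsArtinianRing.isNilpotent_jacobson_bot (R := A)
      rwa [Ideal.jacobson_bot] at this
    let Pr : ℕ → Prop := fun k => ∀ y ∈ J ^ k, ∀ v : ι → F,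
      (y : Matrix ι ι F) *ᵥ v = 0
    have hP0 : ∃ k, Pr k := by
      refine ⟨k0, ?_⟩
      intro y hy v
      rw [hk0] at hy
      have : y = 0 := by simpa using hy
      simp [this]
    have hmin : ∀ m, m < Nat.find hP0 → ¬ Pr m := fun m hm => Nat.find_min hP0 hm
    have hspec := Nat.find_spec hP0
    generalize Nat.find hP0 = k at hmin hspec
    have hkpos : k ≠ 0 := by
      intro h0
      rw [h0] at hspec
      have := hspec 1 (by rw [Submodule.pow_zero, Ideal.one_eq_top]; exact Submodule.mem_top) (fun _ => 1)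
      have h1 := congrFun this (Classical.arbitrary ι)
      simp at h1
    obtain ⟨k', rfl⟩ : ∃ k', k = k' + 1 := ⟨k - 1, by omega⟩
    have hnot := hmin k' (by omega)
    simp only [Pr, not_forall] at hnot
    obtain ⟨y, hy, v, hv⟩ := hnot
    intro hbot
    apply hv
    have : (y : Matrix ι ι F) *ᵥ v ∈ K := by
      intro x hx
      rw [Matrix.mulVec_mulVec]
      have hxy : x * y ∈ J ^ (k' + 1) := by
        rw [Ideal.IsTwoSided.pow_succ]
        exact Ideal.mul_mem_mul hx hy
      exact hspec _ hxy v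
    rw [hbot] at this
    simpa using this
  have hKtop : K = ⊤ := by
    rcases actsIrreducibly_iff.mp hirr K hKinv with h | h
    · exact absurd h hKne
    · exact h
  rw [eq_bot_iff]
  intro x hx
  have h0 : ∀ v : ι → F, (x : Matrix ι ι F) *ᵥ v = 0 := by
    intro v
    have : v ∈ K := by rw [hKtop]; trivial
    exact this x hx
  have : (x : Matrix ι ι F) = 0 := by
    apply Matrix.toLin'.injective
    apply LinearMap.ext
    intro v
    simp [h0]
  exact Subtype.ext this

end Cfsg.Agent.Lib.Helper58GSemisimple
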