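import Cfsg.Agent.Lib.Helper98AschGBasic
import Cfsg.Agent.Lib.Helper58GSemisimple
import Cfsg.Agent.Lib.Helper58GWa
import Cfsg.Agent.Lib.Helper58GEnf

set_option autoImplicit false

/-! Structure of a subalgebra with trivial centre normalised by an irreducible group. -/

namespace Cfsg.Agent.Lib.Helper58GStruct

open Cfsg Cfsg.Geo Matrix
open Cfsg.Agent.Lib.Helper97GBase Cfsg.Agent.Lib.Helper97GCore
  Cfsg.Agent.Lib.Helper98AschGDefs Cfsg.Agent.Lib.Helper98AschGBasic
open scoped MatrixGroups Kronecker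

variable {ι : Type} [Fintype ι] [DecidableEq ι] {F : Type*} [Field F]

/-- a subalgebra with trivial centre normalised by an irreducible group is the image of a full
matrix algebra. -/
theorem exists_hom [Finite F] [Nonempty ι] {H : Subgroup (GL ι F)}
    (hirr : ActsIrreducibly (matrixSet H))
    {A : Subalgebra F (Matrix ι ι F)} (hA : NzA H A)
    (hcen : ∀ z ∈ A, (∀ a ∈ A, z * a = a * z) → ∃ c : F, z = c • (1 : Matrix ι ι F)) :
    ∃ (d : ℕ) (_ : NeZero d) (φ : Matrix (Fin d) (Fin d) F →ₐ[F] Matrix ι ι F),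
      ∀ M : Matrix ι ι F, M ∈ A ↔ ∃ a, M = φ a := by
  obtain ⟨d, hd, ⟨ψ⟩⟩ := Cfsg.Agent.Lib.Helper58GWa.wa
    (Cfsg.Agent.Lib.Helper58GSemisimple.semisimple hirr hA) hcen
  refine ⟨d, hd, A.val.comp ψ.toAlgHom, fun M => ⟨fun hM => ⟨ψ.symm ⟨M, hM⟩, ?_⟩, ?_⟩⟩
  · simp
  · rintro ⟨a, rfl⟩
    exact (ψ a).2

theorem struct [Finite F] [Nonempty ι] {H : Subgroup (GL ι F)}
    (hirr : ActsIrreducibly (matrixSet H))
    {A : Subalgebra F (Matrix ι ι F)} (hA : NzA H A)
    (hcen : ∀ z ∈ A, (∀ a ∈ A, z * a = a * z) → ∃ c : F, z = c • (1 : Matrix ι ι F)) :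
    ∃ (d s : ℕ) (_ : NeZero d) (e : ι ≃ Fin d × Fin s) (P : GL ι F),
      ∀ M : Matrix ι ι F, M ∈ A ↔ ∃ a : Matrix (Fin d) (Fin d) F, M = tens e P a 1 := by
  obtain ⟨d, hd, φ, hφ⟩ := exists_hom hirr hA hcen
  have : Nonempty (Fin d) := ⟨⟨0, Nat.pos_of_ne_zero (NeZero.ne d)⟩⟩
  obtain ⟨s, e, P, h⟩ := Cfsg.Agent.Lib.Helper58GEnf.enf φ
  refine ⟨d, s, hd, e, P, fun M => ?_⟩
  rw [hφ]
  simp only [h]

/-- every matrix is `tens e P a 1` when the second factor has dimension one -/
lemma exists_tens_of_one {d : ℕ} (e : ι ≃ Fin d × Fin 1) (P : GL ι F)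
    (M : Matrix ι ι F) : ∃ a : Matrix (Fin d) (Fin d) F, M = tens e P a 1 := by
  set M' : Matrix ι ι F := (conjAlg P).symm M with hM'
  refine ⟨Matrix.of fun i j => M' (e.symm (i, 0)) (e.symm (j, 0)), ?_⟩
  rw [tens_eq]
  have : Matrix.reindexAlgEquiv F F e.symm
      ((Matrix.of fun i j => M' (e.symm (i, 0)) (e.symm (j, 0)) : Matrix (Fin d) (Fin d) F) ⊗ₖ
        (1 : Matrix (Fin 1) (Fin 1) F)) = M' := by
    ext x y
    simp only [Matrix.reindexAlgEquiv_apply, Matrix.reindex_apply, Matrix.submatrix_apply,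
      Equiv.symm_symm, Matrix.kroneckerMap_apply, Matrix.of_apply]
    have h1 : ((e x).1, (0 : Fin 1)) = e x := by
      ext
      · rfl
      · simp [Subsingleton.elim (e x).2 0]
    have h2 : ((e y).1, (0 : Fin 1)) = e y := by
      ext
      · rfl
      · simp [Subsingleton.elim (e y).2 0]
    rw [h1, h2, Equiv.symm_apply_apply, Equiv.symm_apply_apply,
      Subsingleton.elim (e x).2 (e y).2, Matrix.one_apply_eq, mul_one]
  rw [this, hM', AlgEquiv.apply_symm_apply]

/-- a group whose enveloping algebra is everything is absolutely irreducible -/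
lemma absIrred_of_env {T : Subgroup (GL ι F)}
    (h : ∀ M : Matrix ι ι F, M ∈ env T) : ActsAbsolutelyIrreducibly (matrixSet T) := by
  constructor
  · rw [actsIrreducibly_iff]
    intro W hW
    -- W is invariant under env T
    have hinv : ∀ M ∈ env T, ∀ w ∈ W, M *ᵥ w ∈ W := by
      intro M hM
      induction hM using Algebra.adjoin_induction with
      | mem x hx =>
        obtain ⟨t, ht, rfl⟩ := hx
        exact hW t ht
      | algebraMap c =>
        intro w hw
        rw [Algebra.algebraMap_eq_smul_one, Matrix.smul_mulVec, Matrix.one_mulVec]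
        exact W.smul_mem c hw
      | add x y _ _ hx hy =>
        intro w hw
        rw [Matrix.add_mulVec]
        exact W.add_mem (hx w hw) (hy w hw)
      | mul x y _ _ hx hy =>
        intro w hw
        rw [← Matrix.mulVec_mulVec]
        exact hx _ (hy w hw)
    by_cases hW0 : W = ⊥
    · exact Or.inl hW0
    right
    obtain ⟨w, hw, hw0⟩ := (Submodule.ne_bot_iff W).1 hW0
    obtain ⟨i, hi⟩ : ∃ i, w i ≠ 0 := by
      by_contra hcon
      push Not at hcon
      exact hw0 (funext hcon)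
    rw [eq_top_iff]
    intro v _
    have := hinv (Matrix.vecMulVec v (Pi.single i (w i)⁻¹)) (h _) w hw
    rw [Matrix.vecMulVec_mulVec] at this
    have e1 : (Pi.single i (w i)⁻¹ : ι → F) ⬝ᵥ w = 1 := by
      rw [single_dotProduct, inv_mul_cancel₀ hi]
    simpa [e1] using this
  · intro M hM
    have hall : ∀ a : Matrix ι ι F, M * a = a * M := fun a => commute_env_of_commute hM (h a)
    have : M ∈ Set.range (Matrix.scalar ι : F → Matrix ι ι F) := by
      rw [Matrix.mem_range_scalar_iff_commute_single']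
      intro i j
      exact (hall _).symm
    obtain ⟨c, rfl⟩ := this
    exact ⟨c, by simp [Matrix.smul_one_eq_diagonal]⟩

end Cfsg.Agent.Lib.Helper58GStruct
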