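import Cfsg.Agent.Lib.Helper13Tensor

set_option autoImplicit false

namespace Cfsg.Agent.Lib.Helper58GTensor2

open Cfsg Cfsg.Geo Matrix Cfsg.Agent.Lib.Helper13Tensor
open scoped MatrixGroups

variable {m t : ℕ} {ι : Type} [Fintype ι] [DecidableEq ι] {F : Type*} [Field F]

lemma mulVec_eq_sum_col (B : Matrix ι ι F) (v : ι → F) :
    B *ᵥ v = ∑ j, v j • Bᵀ j := by
  funext r
  simp [Matrix.mulVec, dotProduct, mul_comm]

/-- an irreducible system of matrix units is standard in a suitable basis -/
theorem exists_basis_of_units {X : Type} [Fintype X] [DecidableEq X]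
    (E : X → X → Matrix ι ι F)
    (hmul : ∀ x y y' z, E x y * E y' z = if y = y' then E x z else 0)
    (hone : ∑ x, E x x = 1) (hn : Nonempty ι)
    (hirr : ∀ W : Submodule F (ι → F), (∀ x y, ∀ w ∈ W, E x y *ᵥ w ∈ W) → W = ⊥ ∨ W = ⊤) :
    ∃ (e : ι ≃ X) (B : GL ι F), ∀ M : Matrix X X F,
      ∑ x, ∑ y, M x y • E x y = (B : Matrix ι ι F) * (Matrix.reindexAlgEquiv F F e.symm M) *
        ((B⁻¹ : GL ι F) : Matrix ι ι F) := by
  obtain ⟨x0, hx0⟩ : ∃ x0, E x0 x0 ≠ 0 := by
    by_contra hcon
    push Not at hcon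
    simp only [hcon, Finset.sum_const_zero] at hone
    exact zero_ne_one hone
  obtain ⟨w, hw⟩ : ∃ w, E x0 x0 *ᵥ w ≠ 0 := by
    by_contra hcon
    push Not at hcon
    apply hx0
    apply Matrix.ext_iff_mulVec.mpr
    intro v
    rw [hcon v, Matrix.zero_mulVec]
  set v0 := E x0 x0 *ᵥ w with hv0
  let b : X → (ι → F) := fun x => E x x0 *ᵥ v0
  have hE : ∀ y z x, E y z *ᵥ b x = if z = x then b y else 0 := by
    intro y z x
    show E y z *ᵥ (E x x0 *ᵥ v0) = _
    rw [Matrix.mulVec_mulVec, hmul]
    split_ifs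
    · rfl
    · rw [Matrix.zero_mulVec]
  have hbx0 : b x0 = v0 := by
    show E x0 x0 *ᵥ v0 = v0
    rw [hv0, Matrix.mulVec_mulVec, hmul, if_pos rfl]
  have hli : LinearIndependent F b := by
    rw [Fintype.linearIndependent_iff]
    intro c hc y
    have h1 := congrArg (fun v => E x0 y *ᵥ v) hc
    simp only [Matrix.mulVec_sum, Matrix.mulVec_smul, hE, Matrix.mulVec_zero] at h1
    simp only [smul_ite, smul_zero, Finset.sum_ite_eq, Finset.mem_univ, if_true] at h1
    rw [hbx0] at h1
    exact (smul_eq_zero.mp h1).resolve_right hw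
  have hsp : ⊤ ≤ Submodule.span F (Set.range b) := by
    rcases hirr (Submodule.span F (Set.range b)) (by
      intro x y w hw
      induction hw using Submodule.span_induction with
      | mem v hv =>
        obtain ⟨z, rfl⟩ := hv
        rw [hE]
        split_ifs
        · exact Submodule.subset_span ⟨x, rfl⟩
        · exact Submodule.zero_mem _
      | zero => rw [Matrix.mulVec_zero]; exact Submodule.zero_mem _
      | add u v _ _ hu hv => rw [Matrix.mulVec_add]; exact Submodule.add_mem _ hu hv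
      | smul c u _ hu => rw [Matrix.mulVec_smul]; exact Submodule.smul_mem _ _ hu) with h | h
    · exfalso
      apply hw
      have : v0 ∈ Submodule.span F (Set.range b) := Submodule.subset_span ⟨x0, hbx0⟩
      rw [h] at this
      exact (Submodule.mem_bot F).mp this
    · exact h.ge
  let bb : Module.Basis X F (ι → F) := Module.Basis.mk hli hsp
  have hcard : Fintype.card ι = Fintype.card X := by
    rw [← Module.finrank_eq_card_basis bb, Module.finrank_fintype_fun_eq_card]
  let e : ι ≃ X := Fintype.equivOfCardEq hcard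
  let bb' : Module.Basis ι F (ι → F) := bb.reindex e.symm
  let B : GL ι F := ⟨(Pi.basisFun F ι).toMatrix bb', bb'.toMatrix (Pi.basisFun F ι),
    Module.Basis.toMatrix_mul_toMatrix_flip _ _, Module.Basis.toMatrix_mul_toMatrix_flip _ _⟩
  have hBcol : ∀ j, (B : Matrix ι ι F)ᵀ j = b (e j) := by
    intro j
    funext r
    show (Pi.basisFun F ι).toMatrix bb' r j = _
    rw [Module.Basis.toMatrix_apply]
    simp [bb', bb]
  refine ⟨e, B, fun M => ?_⟩
  have key : (∑ x, ∑ y, M x y • E x y) * (B : Matrix ι ι F) =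
      (B : Matrix ι ι F) * (Matrix.reindexAlgEquiv F F e.symm M) := by
    apply Matrix.ext_iff_mulVec.mpr
    intro v
    rw [← Matrix.mulVec_mulVec, ← Matrix.mulVec_mulVec]
    rw [mulVec_eq_sum_col (B : Matrix ι ι F) v,
      mulVec_eq_sum_col (B : Matrix ι ι F)]
    simp only [hBcol, Matrix.mulVec_sum, Matrix.mulVec_smul, Matrix.sum_mulVec, Matrix.smul_mulVec, hE]
    simp only [smul_ite, smul_zero, Finset.sum_ite_eq', Finset.mem_univ, if_true]
    simp only [Matrix.mulVec, dotProduct, Matrix.coe_reindexAlgEquiv, Matrix.reindex_apply,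
      Matrix.submatrix_apply, Equiv.symm_symm, Finset.sum_smul, Finset.smul_sum]
    rw [Finset.sum_comm]
    rw [← Equiv.sum_comp e]
    apply Finset.sum_congr rfl
    intro j _
    apply Finset.sum_congr rfl
    intro j' _
    rw [smul_smul, mul_comm]
  rw [← key, mul_assoc, ← Units.val_mul, mul_inv_cancel, Units.val_one, mul_one]

section Phi

variable (φ : Fin t → Matrix (Fin m) (Fin m) F →ₐ[F] Matrix ι ι F)
  (hc : Pairwise fun i j => ∀ a b, Commute (φ i a) (φ j b))

/-- the product of pairwise commuting algebra maps, as a monoid homomorphism -/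
def Phi : (Fin t → Matrix (Fin m) (Fin m) F) →* Matrix ι ι F :=
  MonoidHom.noncommPiCoprod (fun i => ((φ i).toRingHom.toMonoidHom)) hc

lemma Phi_mulSingle (i : Fin t) (a : Matrix (Fin m) (Fin m) F) :
    Phi φ hc (Pi.mulSingle i a) = φ i a :=
  MonoidHom.noncommPiCoprod_mulSingle _ _ _

lemma Phi_update (f : Fin t → Matrix (Fin m) (Fin m) F) (i : Fin t) (a : Matrix (Fin m) (Fin m) F) :
    Phi φ hc (Function.update f i a) = φ i a * Phi φ hc (Function.update f i 1) := by
  rw [update_eq_mulSingle_mul, map_mul, Phi_mulSingle]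

/-- `Phi` as a multilinear map -/
def PhiML : MultilinearMap F (fun _ : Fin t => Matrix (Fin m) (Fin m) F) (Matrix ι ι F) where
  toFun := Phi φ hc
  map_update_add' := by
    intro inst f i a b
    have : inst = instDecidableEqFin t := Subsingleton.elim _ _
    subst this
    rw [Phi_update, Phi_update φ hc f i a, Phi_update φ hc f i b, map_add, add_mul]
  map_update_smul' := by
    intro inst f i c a
    have : inst = instDecidableEqFin t := Subsingleton.elim _ _
    subst this
    rw [Phi_update, Phi_update φ hc f i a, map_smul, smul_mul_assoc]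

/-- the matrix units attached to the family -/
def EE (x y : Fin t → Fin m) : Matrix ι ι F :=
  Phi φ hc (fun i => Matrix.single (x i) (y i) 1)

lemma Phi_eq_zero (f : Fin t → Matrix (Fin m) (Fin m) F) (i : Fin t) (h : f i = 0) :
    Phi φ hc f = 0 := by
  have : f = Function.update f i 0 := by rw [← h, Function.update_eq_self]
  rw [this, Phi_update, map_zero, zero_mul]

lemma EE_mul (x y y' z : Fin t → Fin m) :
    EE φ hc x y * EE φ hc y' z = if y = y' then EE φ hc x z else 0 := by
  unfold EE
  rw [← map_mul]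
  split_ifs with h
  · subst h
    congr 1
    funext i
    simp
  · obtain ⟨i, hi⟩ := Function.ne_iff.mp h
    apply Phi_eq_zero φ hc _ i
    simp only [Pi.mul_apply]
    exact Matrix.single_mul_single_of_ne _ _ _ _ hi _

lemma Phi_eq_sum (g : Fin t → Matrix (Fin m) (Fin m) F) :
    Phi φ hc g = ∑ x, ∑ y, PT g x y • EE φ hc x y := by
  have h1 : g = fun i => ∑ p : Fin m × Fin m, g i p.1 p.2 • Matrix.single p.1 p.2 (1 : F) := by
    funext i
    conv_lhs => rw [Matrix.matrix_eq_sum_single (g i)]
    rw [Fintype.sum_prod_type]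
    simp [Matrix.smul_single]
  have h2 : Phi φ hc g = PhiML φ hc g := rfl
  rw [h2]
  conv_lhs => rw [h1]
  rw [MultilinearMap.map_sum]
  simp only [MultilinearMap.map_smul_univ]
  rw [← Equiv.sum_comp (Equiv.arrowProdEquivProdArrow (Fin t) (fun _ => Fin m) (fun _ => Fin m)).symm,
    Fintype.sum_prod_type]
  rfl

lemma sum_EE : ∑ x, EE φ hc x x = 1 := by
  have h := Phi_eq_sum φ hc 1
  rw [map_one, PT_one] at h
  rw [h]
  apply Finset.sum_congr rfl
  intro x _
  simp [Matrix.one_apply]

theorem exists_std (hn : Nonempty ι)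
    (hirr : ∀ W : Submodule F (ι → F), (∀ i a, ∀ w ∈ W, φ i a *ᵥ w ∈ W) → W = ⊥ ∨ W = ⊤) :
    ∃ (e : ι ≃ (Fin t → Fin m)) (B : GL ι F), ∀ g,
      Phi φ hc g = (B : Matrix ι ι F) * (Matrix.reindexAlgEquiv F F e.symm (PT g)) *
        ((B⁻¹ : GL ι F) : Matrix ι ι F) := by
  obtain ⟨e, B, h⟩ := exists_basis_of_units (EE φ hc) (EE_mul φ hc) (sum_EE φ hc) hn (by
    intro W hW
    apply hirr W
    intro i a w hw
    rw [← Phi_mulSingle φ hc, Phi_eq_sum]
    simp only [Matrix.sum_mulVec, Matrix.smul_mulVec]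
    exact Submodule.sum_mem _ fun x _ => Submodule.sum_mem _ fun y _ =>
      Submodule.smul_mem _ _ (hW x y w hw))
  exact ⟨e, B, fun g => by rw [Phi_eq_sum, h]⟩

end Phi

end Cfsg.Agent.Lib.Helper58GTensor2
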