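import Cfsg.Agent.Lib.Helper96SpDefs

set_option autoImplicit false

/-! PROJECT 5 = ASCH-O. Vocabulary for the Aschbacher theorem for the orthogonal groups
(general index type `ι`, abstract quadratic form `Q`). -/

namespace Cfsg.Agent.Lib.Helper58ODefs

open Cfsg Cfsg.Geo Matrix
open scoped MatrixGroups Kronecker

variable {ι : Type} [Fintype ι] [DecidableEq ι] {F : Type*} [Field F]

/-- class 1, totally singular subspace -/
def OTS (Q : (ι → F) → F) (H : Subgroup (GL ι F)) : Prop :=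
  ∃ W : Submodule F (ι → F), W ≠ ⊥ ∧ IsTotallySingularQuad Q W ∧ H ≤ subspaceStabilizer W

/-- class 1, proper non-degenerate subspace -/
def OND (Q : (ι → F) → F) (H : Subgroup (GL ι F)) : Prop :=
  ∃ W : Submodule F (ι → F), W ≠ ⊥ ∧ W ≠ ⊤ ∧ IsNondegenerateOn (QuadraticMap.polar Q) W ∧
    H ≤ subspaceStabilizer W

/-- class 2, orthogonal decomposition into isometric blocks (any block dimension) -/
def ODec (Q : (ι → F) → F) (H : Subgroup (GL ι F)) : Prop :=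
  ∃ (t k : ℕ) (D : Fin t → Submodule F (ι → F)), IsOrthogonalMDecomposition Q k D ∧
    H ≤ decompositionStabilizer D

/-- class 2, blocks of dimension at least 2 -/
def ODecBig (Q : (ι → F) → F) (H : Subgroup (GL ι F)) : Prop :=
  ∃ (t k : ℕ) (D : Fin t → Submodule F (ι → F)), 1 < k ∧ IsOrthogonalMDecomposition Q k D ∧
    H ≤ decompositionStabilizer D

/-- class 2, blocks of dimension 1 -/
def ODecOne (Q : (ι → F) → F) (H : Subgroup (GL ι F)) : Prop :=
  ∃ (t : ℕ) (D : Fin t → Submodule F (ι → F)), IsOrthogonalMDecomposition Q 1 D ∧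
    H ≤ decompositionStabilizer D

/-- class 3, self-adjoint field of prime degree -/
def OField (Q : (ι → F) → F) (H : Subgroup (GL ι F)) : Prop :=
  ∃ (r : ℕ) (K : Subalgebra F (Matrix ι ι F)), r.Prime ∧ Fintype.card ι ≠ r ∧ IsFieldSubalgebra r K ∧
    IsSelfAdjointFor (QuadraticMap.polar Q) K ∧ H ≤ subalgebraNormalizer K

/-- class 4, two symmetric factors of dimensions `3 ≤ n₁ < n₂` -/
def OTensor (Q : (ι → F) → F) (H : Subgroup (GL ι F)) : Prop :=
  ∃ (n₁ n₂ : ℕ) (e : ι ≃ Fin n₁ × Fin n₂) (P : GL ι F)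
    (f₁ : (Fin n₁ → F) → (Fin n₁ → F) → F) (f₂ : (Fin n₂ → F) → (Fin n₂ → F) → F),
    3 ≤ n₁ ∧ n₁ < n₂ ∧ IsSymmetricForm f₁ ∧ IsSymmetricForm f₂ ∧
    IsTensorFormStructure id (QuadraticMap.polar Q) f₁ f₂ e P ∧ H ≤ tensorProductSubgroup n₁ n₂ e P

/-- class 5 -/
def OSub [Fintype F] (Q : (ι → F) → F) (H : Subgroup (GL ι F)) : Prop :=
  ∃ (F₀ : Subfield F) (r : ℕ) (P : GL ι F), r.Prime ∧ Fintype.card F = Nat.card F₀ ^ r ∧
    IsQuadFormRationalStructure Q F₀ P ∧ H ≤ subfieldSubgroup F₀ P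

/-- class 7, tensor power of a symmetric form of dimension `k ≥ 3` -/
def OWreath [Fintype F] (Q : (ι → F) → F) (H : Subgroup (GL ι F)) : Prop :=
  ∃ (k t : ℕ) (e : ι ≃ (Fin t → Fin k)) (P : GL ι F) (f₁ : (Fin k → F) → (Fin k → F) → F),
    3 ≤ k ∧ 2 ≤ t ∧ ¬ (Fintype.card F = 3 ∧ k = 3) ∧ IsSymmetricForm f₁ ∧
    IsTensorPowerFormStructure id (QuadraticMap.polar Q) f₁ e P ∧ H ≤ tensorWreathSubgroup k t e P

/-- THE INTERFACE of the general theorem in odd dimension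
(`o_main_odd : ... → OddAlt Q H ∨ InOrthogonalResidualClass H`). -/
def OddAlt [Fintype F] (Q : (ι → F) → F) (H : Subgroup (GL ι F)) : Prop :=
  OTS Q H ∨ OND Q H ∨ ODecBig Q H ∨ ((Fintype.card F).Prime ∧ ODecOne Q H) ∨ OField Q H ∨
  OTensor Q H ∨ OSub Q H ∨ OWreath Q H

end Cfsg.Agent.Lib.Helper58ODefs
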