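import Mathlib

set_option autoImplicit false

namespace Cfsg.Agent.Lib.Helper59BLArith

theorem aux_pm (q a c : ℤ) (hq : 16 ≤ q) (ha : 0 ≤ a) (hc : 0 ≤ c)
    (h : 2 * (a ^ 2 + a * c + c ^ 2) = q * (a * c * (a - c))) : a = 0 ∧ c = 0 := by
  rcases ha.eq_or_lt with rfl | ha'
  · simp at h
    exact ⟨rfl, h⟩
  rcases hc.eq_or_lt with rfl | hc'
  · simp at h
    omega
  exfalso
  have hac : 0 < a * c := mul_pos ha' hc'
  have hpos : 0 < q * (a * c * (a - c)) := by rw [← h]; positivity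
  have hk : 0 < a - c := by
    by_contra hle
    have : a - c ≤ 0 := by omega
    have : a * c * (a - c) ≤ 0 := mul_nonpos_of_nonneg_of_nonpos hac.le this
    nlinarith
  obtain ⟨k, rfl⟩ : ∃ k, a = c + k := ⟨a - c, by ring⟩
  have hk1 : 1 ≤ k := by omega
  have hc1 : 1 ≤ c := by omega
  have e1 : c ^ 2 ≤ c ^ 2 * k := by nlinarith [sq_nonneg c]
  have e2 : k ^ 2 ≤ c * k ^ 2 := by nlinarith [sq_nonneg k]
  have e3 : c * k ≤ c ^ 2 * k := by nlinarith [mul_pos hc' (by omega : 0 < k)]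
  have e4 : 16 * ((c + k) * c * k) ≤ q * ((c + k) * c * k) := by
    have : 0 ≤ (c + k) * c * k := by positivity
    nlinarith
  have e5 : (c + k) * c * (c + k - c) = (c + k) * c * k := by ring
  rw [e5] at h
  nlinarith

theorem arith_ab (q a b : ℤ) (hq : 16 ≤ q)
    (h : 2 * (a ^ 2 - a * b + b ^ 2) + q * (a * b * (a + b)) = 0) : a = 0 ∧ b = 0 := by
  rcases le_total 0 a with ha | ha <;> rcases le_total 0 b with hb | hb
  · have h1 : 0 ≤ q * (a * b * (a + b)) := by positivity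
    have h2 : a ^ 2 + b ^ 2 + (a - b) ^ 2 ≤ 0 := by nlinarith
    have h3 : a ^ 2 ≤ 0 := by nlinarith [sq_nonneg b, sq_nonneg (a - b)]
    have h4 : b ^ 2 ≤ 0 := by nlinarith [sq_nonneg a, sq_nonneg (a - b)]
    exact ⟨by nlinarith [sq_nonneg a], by nlinarith [sq_nonneg b]⟩
  · obtain ⟨h1, h2⟩ := aux_pm q a (-b) hq ha (by omega) (by nlinarith)
    exact ⟨h1, by omega⟩
  · obtain ⟨h1, h2⟩ := aux_pm q b (-a) hq hb (by omega) (by nlinarith)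
    exact ⟨by omega, h1⟩
  · obtain ⟨a', rfl⟩ : ∃ a', a = -a' := ⟨-a, by ring⟩
    obtain ⟨b', rfl⟩ : ∃ b', b = -b' := ⟨-b, by ring⟩
    have ha' : 0 ≤ a' := by omega
    have hb' : 0 ≤ b' := by omega
    have h' : 2 * (a' ^ 2 - a' * b' + b' ^ 2) = q * (a' * b' * (a' + b')) := by nlinarith
    rcases ha'.eq_or_lt with rfl | ha''
    · simp at h'
      exact ⟨by simp, by simp [h']⟩
    rcases hb'.eq_or_lt with rfl | hb''
    · simp at h'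
      omega
    exfalso
    have e1 : a' ^ 2 ≤ a' ^ 2 * b' := by nlinarith [sq_nonneg a']
    have e2 : b' ^ 2 ≤ a' * b' ^ 2 := by nlinarith [sq_nonneg b']
    have e4 : 16 * (a' * b' * (a' + b')) ≤ q * (a' * b' * (a' + b')) := by
      have : 0 ≤ a' * b' * (a' + b') := by positivity
      nlinarith
    nlinarith [mul_pos ha'' hb'']

theorem arith_two (q x y : ℤ) (hq : 16 ≤ q) (hx : q ∣ x - 1) (hy : q ∣ y - 1)
    (h : (x - 1) ^ 2 * y * (1 + x + y) + (y - 1) ^ 2 * x * (1 + x + y)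
      - (x + y - 2) ^ 2 * x * y = 0) : x = 1 ∧ y = 1 := by
  obtain ⟨a, ha⟩ := hx
  obtain ⟨b, hb⟩ := hy
  obtain rfl : x = 1 + q * a := by linarith
  obtain rfl : y = 1 + q * b := by linarith
  have h1 : q ^ 2 * (2 * (a ^ 2 - a * b + b ^ 2) + q * (a * b * (a + b))) = 0 := by
    linear_combination h
  have hq2 : q ^ 2 ≠ 0 := by positivity
  have h2 := (mul_eq_zero.mp h1).resolve_left hq2
  obtain ⟨rfl, rfl⟩ := arith_ab q a b hq h2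
  simp

theorem arith_signs (q f₂ f₃ f a₂ a₃ δ : ℤ) (hq : 16 ≤ q) (h2 : 0 < f₂) (h3 : 0 < f₃)
    (ha₂ : a₂ = 1 ∨ a₂ = -1) (ha₃ : a₃ = 1 ∨ a₃ = -1) (hδ : δ = 1 ∨ δ = -1)
    (c₂ : q ∣ f₂ - a₂) (c₃ : q ∣ f₃ - a₃)
    (E1 : 1 + a₂ * f₂ + a₃ * f₃ - δ * f = 0)
    (E3 : a₂ * (f₂ - a₂) ^ 2 * (f₃ * f) + a₃ * (f₃ - a₃) ^ 2 * (f₂ * f)
      - δ * (f - 3 * δ) ^ 2 * (f₂ * f₃) = 0) :
    f₂ = 1 ∧ a₂ = 1 ∧ f₃ = 1 ∧ a₃ = 1 := by
  have hx : q ∣ a₂ * f₂ - 1 := by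
    rcases ha₂ with rfl | rfl
    · simpa using c₂
    · have := (dvd_neg.mpr c₂)
      have e : -(f₂ - -1) = -1 * f₂ - 1 := by ring
      rwa [e] at this
  have hy : q ∣ a₃ * f₃ - 1 := by
    rcases ha₃ with rfl | rfl
    · simpa using c₃
    · have := (dvd_neg.mpr c₃)
      have e : -(f₃ - -1) = -1 * f₃ - 1 := by ring
      rwa [e] at this
  have key := arith_two q (a₂ * f₂) (a₃ * f₃) hq hx hy (by
    rcases ha₂ with rfl | rfl <;> rcases ha₃ with rfl | rfl <;> rcases hδ with rfl | rfl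
    all_goals
      first
      | (obtain rfl : f = 1 + 1 * f₂ + 1 * f₃ := by linarith
         first | linear_combination E3 | linear_combination -E3)
      | (obtain rfl : f = -(1 + 1 * f₂ + 1 * f₃) := by linarith
         first | linear_combination E3 | linear_combination -E3)
      | (obtain rfl : f = 1 + 1 * f₂ + -1 * f₃ := by linarith
         first | linear_combination E3 | linear_combination -E3)
      | (obtain rfl : f = -(1 + 1 * f₂ + -1 * f₃) := by linarith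
         first | linear_combination E3 | linear_combination -E3)
      | (obtain rfl : f = 1 + -1 * f₂ + 1 * f₃ := by linarith
         first | linear_combination E3 | linear_combination -E3)
      | (obtain rfl : f = -(1 + -1 * f₂ + 1 * f₃) := by linarith
         first | linear_combination E3 | linear_combination -E3)
      | (obtain rfl : f = 1 + -1 * f₂ + -1 * f₃ := by linarith
         first | linear_combination E3 | linear_combination -E3)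
      | (obtain rfl : f = -(1 + -1 * f₂ + -1 * f₃) := by linarith
         first | linear_combination E3 | linear_combination -E3))
  obtain ⟨k1, k2⟩ := key
  rcases ha₂ with rfl | rfl <;> rcases ha₃ with rfl | rfl
  · exact ⟨by linarith, rfl, by linarith, rfl⟩
  · exfalso; linarith
  · exfalso; linarith
  · exfalso; linarith


theorem isSquare_of_mul_sq (D w y : ℤ) (hy : y ≠ 0) (h : w ^ 2 = y ^ 2 * D) : IsSquare D := by
  have h1 : y ^ 2 ∣ w ^ 2 := ⟨D, h⟩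
  have h2 : y ∣ w := (Int.pow_dvd_pow_iff (by norm_num)).mp h1
  obtain ⟨k, rfl⟩ := h2
  refine ⟨k, ?_⟩
  have h3 : y ^ 2 * (k * k) = y ^ 2 * D := by rw [← h]; ring
  exact (mul_left_cancel₀ (pow_ne_zero 2 hy) h3).symm

/-- the pattern `(+,-,-)`. -/
theorem square_pmm (d₁ d₂ d₃ y₁ y₂ y₃ : ℤ) (hy₃ : y₃ ≠ 0)
    (E1 : 1 + d₁ - d₂ - d₃ = 0) (E2 : y₁ - y₂ - y₃ = 0)
    (E3 : y₁ ^ 2 * (d₂ * d₃) - y₂ ^ 2 * (d₁ * d₃) - y₃ ^ 2 * (d₁ * d₂) = 0) :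
    IsSquare (d₁ * d₂ * d₃) := by
  obtain rfl : d₁ = d₂ + d₃ - 1 := by linarith
  obtain rfl : y₁ = y₂ + y₃ := by linarith
  apply isSquare_of_mul_sq _ (y₂ * (d₃ ^ 2 - d₃) - y₃ * (d₂ * d₃)) y₃ hy₃
  linear_combination (-(d₃ ^ 2 - d₃)) * E3

/-- the pattern `(+,+,-)` is impossible. -/
theorem no_ppm (d₁ d₂ d₃ y₁ y₂ y₃ : ℤ) (hd₁ : 0 < d₁) (hd₂ : 0 < d₂) (hy₁ : y₁ ≠ 0)
    (E1 : 1 + d₁ + d₂ - d₃ = 0) (E2 : y₁ + y₂ - y₃ = 0)
    (E3 : y₁ ^ 2 * (d₂ * d₃) + y₂ ^ 2 * (d₁ * d₃) - y₃ ^ 2 * (d₁ * d₂) = 0) : False := by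
  obtain rfl : d₃ = 1 + d₁ + d₂ := by linarith
  obtain rfl : y₃ = y₁ + y₂ := by linarith
  have h1 : y₁ ^ 2 * d₂ + y₂ ^ 2 * d₁ + (y₁ * d₂ - y₂ * d₁) ^ 2 = 0 := by
    linear_combination E3
  have h2 : 0 ≤ y₂ ^ 2 * d₁ := by positivity
  have h3 : 0 ≤ (y₁ * d₂ - y₂ * d₁) ^ 2 := by positivity
  have h4 : 0 < y₁ ^ 2 * d₂ := by positivity
  linarith

theorem arith_odd (d₁ d₂ d₃ y₁ y₂ y₃ δ₁ δ₂ δ₃ : ℤ) (hd₁ : 0 < d₁) (hd₂ : 0 < d₂) (hd₃ : 0 < d₃)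
    (hδ₁ : δ₁ = 1 ∨ δ₁ = -1) (hδ₂ : δ₂ = 1 ∨ δ₂ = -1) (hδ₃ : δ₃ = 1 ∨ δ₃ = -1)
    (hy₁ : y₁ ≠ 0) (hy₂ : y₂ ≠ 0) (hy₃ : y₃ ≠ 0)
    (E1 : 1 + δ₁ * d₁ + δ₂ * d₂ + δ₃ * d₃ = 0)
    (E2 : δ₁ * y₁ + δ₂ * y₂ + δ₃ * y₃ = 0)
    (E3 : δ₁ * y₁ ^ 2 * (d₂ * d₃) + δ₂ * y₂ ^ 2 * (d₁ * d₃) + δ₃ * y₃ ^ 2 * (d₁ * d₂) = 0) :
    δ₁ + δ₂ + δ₃ = -1 ∧ IsSquare (d₁ * d₂ * d₃) := by
  rcases hδ₁ with rfl | rfl <;> rcases hδ₂ with rfl | rfl <;> rcases hδ₃ with rfl | rfl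
  · exfalso; linarith
  · exfalso
    exact no_ppm d₁ d₂ d₃ y₁ y₂ y₃ hd₁ hd₂ hy₁ (by linarith) (by linarith) (by linarith)
  · exfalso
    exact no_ppm d₁ d₃ d₂ y₁ y₃ y₂ hd₁ hd₃ hy₁ (by linarith) (by linarith) (by linarith)
  · refine ⟨by norm_num, ?_⟩
    exact square_pmm d₁ d₂ d₃ y₁ y₂ y₃ hy₃ (by linarith) (by linarith) (by linarith)
  · exfalso
    exact no_ppm d₂ d₃ d₁ y₂ y₃ y₁ hd₂ hd₃ hy₂ (by linarith) (by linarith) (by linarith)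
  · refine ⟨by norm_num, ?_⟩
    have := square_pmm d₂ d₁ d₃ y₂ y₁ y₃ hy₃ (by linarith) (by linarith) (by linarith)
    rwa [mul_comm d₂ d₁] at this
  · refine ⟨by norm_num, ?_⟩
    have := square_pmm d₃ d₁ d₂ y₃ y₁ y₂ hy₂ (by linarith) (by linarith) (by linarith)
    have e : d₃ * d₁ * d₂ = d₁ * d₂ * d₃ := by ring
    rwa [e] at this
  · exfalso
    have h2 : 0 < y₁ ^ 2 * (d₂ * d₃) := by positivity
    have h3 : 0 < y₂ ^ 2 * (d₁ * d₃) := by positivity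
    have h4 : 0 < y₃ ^ 2 * (d₁ * d₂) := by positivity
    linarith

end Cfsg.Agent.Lib.Helper59BLArith
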