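import Mathlib
import Cfsg.Prelude.Def_Blocks
import Cfsg.Agent.Lib.Helper59BLFin
import Cfsg.Agent.Lib.Helper81Section

set_option autoImplicit false
set_option linter.unusedSectionVars false

namespace Cfsg.Agent.Lib.Helper59BLInv

open Cfsg Subgroup
open Cfsg.Agent.Lib.Helper59BSGrp
  Cfsg.Agent.Lib.Helper59BLGram Cfsg.Agent.Lib.Helper59BLTw
  Cfsg.Agent.Lib.Helper81Orth Cfsg.Agent.Lib.Helper81Second2 Cfsg.Agent.Lib.Helper81Section

section aut

variable {G : Type*} [Group G] {p : ℕ} [Fact p.Prime] (P : Sylow p G)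

theorem ker_actHom : (actHom P).ker = (centralizer ((P : Subgroup G) : Set G)).subgroupOf
    (normalizer ((P : Subgroup G) : Set G)) := by
  ext n
  rw [MonoidHom.mem_ker, mem_subgroupOf]
  constructor
  · intro h
    rw [mem_centralizer_iff]
    intro x hx
    have h1 : actHom P n ⟨x, hx⟩ = ⟨x, hx⟩ := by rw [h]; rfl
    have h2 := congrArg Subtype.val h1
    rw [actHom_apply] at h2
    exact (mul_inv_eq_iff_eq_mul.mp h2).symm
  · intro h
    ext x
    rw [act_of_mem_centralizer n h x]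
    rfl

theorem card_range (m : ℕ) (hm : (centralizer ((P : Subgroup G) : Set G)).relIndex
      (normalizer ((P : Subgroup G) : Set G)) = m) : Nat.card (actHom P).range = m := by
  rw [← Subgroup.index_ker, ker_actHom]
  exact hm

theorem act_pow_three (hm : (centralizer ((P : Subgroup G) : Set G)).relIndex
      (normalizer ((P : Subgroup G) : Set G)) = 3) (n : normalizer ((P : Subgroup G) : Set G)) :
    (actHom P n) ^ 3 = 1 := by
  have h1 := card_range P 3 hm
  have h2 : (⟨actHom P n, n, rfl⟩ : (actHom P).range) ^ 3 = 1 := by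
    rw [← h1]; exact pow_card_eq_one'
  exact congrArg Subtype.val h2

end aut

section odd

variable {G : Type*} [Group G] [Fintype G] {p : ℕ} [Fact p.Prime] {M : Ideal AlgInt}
  {P : Sylow p G}

theorem not_conj_inv (h : BL p M P) (hm : (centralizer ((P : Subgroup G) : Set G)).relIndex
      (normalizer ((P : Subgroup G) : Set G)) = 3) (hp : p ≠ 2) (y : ↥(P : Subgroup G))
    (hy : y ≠ 1) : ¬ IsConj (y : G) ((y : G)⁻¹) := by
  intro hc
  obtain ⟨n, hn⟩ := exists_act_of_isConj P h.hab y y⁻¹ hc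
  have h2 : actHom P (n * n) y = y := by
    rw [map_mul, MulAut.mul_apply, hn, map_inv, hn, inv_inv]
  have h3 := mem_centralizer_of_fix h (n * n) y hy h2
  have h4 : actHom P n * actHom P n = 1 := by
    rw [← map_mul]
    ext x
    rw [act_of_mem_centralizer _ h3 x]
    rfl
  have h5 := act_pow_three P hm n
  have h6 : actHom P n = 1 := by
    rw [pow_succ, pow_two, h4, one_mul] at h5
    exact h5
  rw [h6] at hn
  have h7 : y = y⁻¹ := hn
  have h8 : y ^ 2 = 1 := by
    rw [pow_two]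
    nth_rewrite 1 [h7]
    exact inv_mul_cancel y
  obtain ⟨k, hk⟩ := (IsPGroup.iff_orderOf.mp P.isPGroup') y
  have h9 : orderOf y ∣ 2 := orderOf_dvd_of_pow_eq_one h8
  rw [hk] at h9
  rcases k with _ | k
  · rw [pow_zero, orderOf_eq_one_iff] at hk
    exact hy hk
  · have : p ∣ 2 := (dvd_pow_self p (Nat.succ_ne_zero k)).trans h9
    exact hp ((Nat.prime_dvd_prime_iff_eq Fact.out Nat.prime_two).mp this)

omit [Fintype G] in
theorem conj_invol_mul (t g : G) (ht : t * t = 1) :
    t * (t * (g * t * g⁻¹)) * t⁻¹ = (t * (g * t * g⁻¹))⁻¹ := by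
  have h1 : t⁻¹ = t := inv_eq_of_mul_eq_one_left ht
  rw [← mul_assoc t t, ht, one_mul, mul_inv_rev, mul_inv_rev, mul_inv_rev, inv_inv, h1]
  group

theorem ppart_inverted (t g x : G) (ht : t * t = 1) (hx : IsPPart p (t * (g * t * g⁻¹)) x) :
    t * x * t⁻¹ = x⁻¹ := by
  have h1 := isPPart_conj hx t
  rw [conj_invol_mul t g ht] at h1
  exact isPPart_unique Fact.out h1 (isPPart_inv hx)

/-- for odd `p` the products of two conjugate involutions are `p`-regular. -/
theorem regular_of_invol (h : BL p M P) (hm : (centralizer ((P : Subgroup G) : Set G)).relIndex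
      (normalizer ((P : Subgroup G) : Set G)) = 3) (hp : p ≠ 2) (t g : G) (ht : t * t = 1) :
    ¬ p ∣ orderOf (t * (g * t * g⁻¹)) := by
  intro hdvd
  obtain ⟨x, hx⟩ := exists_ppart (p := p) Fact.out (t * (g * t * g⁻¹))
  have hinv := ppart_inverted t g x ht hx
  have hx1 : x ≠ 1 := by
    rintro rfl
    obtain ⟨y, h1, _, _, h4⟩ := hx
    rw [one_mul] at h1
    rw [h1] at h4
    exact h4 hdvd
  obtain ⟨y, _, _, ⟨k, hk⟩, _⟩ := id hx
  have hK : IsPGroup p (zpowers x) := IsPGroup.of_card (n := k) (by rw [Nat.card_zpowers, hk])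
  obtain ⟨c, hc⟩ := exists_conj_le P (zpowers x) hK
  have hcx := hc x (mem_zpowers x)
  apply not_conj_inv h hm hp ⟨c * x * c⁻¹, hcx⟩
    (fun h' => hx1 (by
      have := congrArg Subtype.val h'
      simpa using this))
  show IsConj (c * x * c⁻¹) (c * x * c⁻¹)⁻¹
  rw [isConj_iff]
  refine ⟨c * t * c⁻¹, ?_⟩
  have : (c * x * c⁻¹)⁻¹ = c * (t * x * t⁻¹) * c⁻¹ := by rw [hinv]; group
  rw [this]; group

end odd

section two

variable {G : Type*} [Group G] [Fintype G] {M : Ideal AlgInt} {P : Sylow 2 G}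

open Cfsg.Agent.Lib.Helper59BLDual

/-- a nontrivial linear character of `P` trivial on the `N`-orbit of an involution. -/
theorem exists_psi (h : BL 2 M P) (hm : (centralizer ((P : Subgroup G) : Set G)).relIndex
      (normalizer ((P : Subgroup G) : Set G)) = 3) (hP : 4 < Nat.card ↥(P : Subgroup G))
    (t : ↥(P : Subgroup G)) (ht : t * t = 1) :
    ∃ ψ : ↥(P : Subgroup G) →* ℂˣ, ψ ≠ 1 ∧ ∀ n, ψ (actHom P n t) = 1 := by
  have hcomm : ∀ a b : ↥(P : Subgroup G), a * b = b * a := h.hab.is_comm.comm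
  have hcard := card_range P 3 hm
  have : Fact (Nat.Prime 3) := ⟨Nat.prime_three⟩
  have : Nontrivial (actHom P).range := by
    apply (Finite.one_lt_card_iff_nontrivial (α := (actHom P).range)).mp
    · rw [hcard]; norm_num
  obtain ⟨⟨σ, n₀, hn₀⟩, hσ⟩ := exists_ne (1 : (actHom P).range)
  have hσ1 : σ ≠ 1 := fun h' => hσ (Subtype.ext h')
  have hσ3 : σ ^ 3 = 1 := by rw [← hn₀]; exact act_pow_three P hm n₀
  have hfix : ∀ x : ↥(P : Subgroup G), σ x = x → x = 1 := by
    intro x hx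
    by_contra hx1
    apply hσ1
    rw [← hn₀] at hx ⊢
    have h3 := mem_centralizer_of_fix h n₀ x hx1 hx
    ext z
    rw [act_of_mem_centralizer _ h3 z]
    rfl
  have hσ3' : ∀ x, σ (σ (σ x)) = x := by
    intro x
    have : (σ ^ 3) x = x := by rw [hσ3]; rfl
    exact this
  have hprod : t * σ t * σ (σ t) = 1 := by
    apply hfix
    rw [map_mul, map_mul, hσ3', hcomm (σ t * σ (σ t)) t, mul_assoc]
  obtain ⟨V, hV1, hV2, hV3⟩ := exists_four h.hab t (σ t) ht (by rw [← map_mul, ht, map_one])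
  have hVtop : V ≠ ⊤ := by
    rintro rfl
    rw [Subgroup.card_top] at hV3
    omega
  obtain ⟨ψ, hψ1, hψ⟩ := exists_hom_trivial_on h.hab V hVtop
  refine ⟨ψ, hψ1, fun n => hψ _ ?_⟩
  have hV4 : σ (σ t) ∈ V := by
    have : σ (σ t) = (t * σ t)⁻¹ := eq_inv_of_mul_eq_one_right hprod
    rw [this]
    exact V.inv_mem (V.mul_mem hV1 hV2)
  have hmem : (⟨actHom P n, n, rfl⟩ : (actHom P).range) ∈
      Submonoid.powers (⟨σ, n₀, hn₀⟩ : (actHom P).range) := mem_powers_of_prime_card hcard hσ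
  obtain ⟨k, hk⟩ := hmem
  have hk' : σ ^ k = actHom P n := congrArg Subtype.val hk
  rw [← hk', pow_eq_pow_mod k hσ3]
  have hk3 : k % 3 = 0 ∨ k % 3 = 1 ∨ k % 3 = 2 := by omega
  rcases hk3 with h' | h' | h' <;> rw [h']
  · exact hV1
  · exact hV2
  · exact hV4

/-- the `2`-part of a product of two conjugates of an involution `t ∈ P`. -/
theorem two_part (h : BL 2 M P) (t : ↥(P : Subgroup G)) (ht : t * t = 1) (g : G) :
    (¬ 2 ∣ orderOf ((t : G) * (g * t * g⁻¹))) ∨
      ∃ (c : G) (y : ↥(P : Subgroup G)) (n₁ n₂ : normalizer ((P : Subgroup G) : Set G)),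
        y ≠ 1 ∧ IsPPart 2 (c * ((t : G) * (g * t * g⁻¹)) * c⁻¹) (y : G) ∧
          y = actHom P n₁ t * actHom P n₂ t := by
  by_cases hd : 2 ∣ orderOf ((t : G) * (g * t * g⁻¹))
  swap
  · exact Or.inl hd
  right
  have ht' : (t : G) * (t : G) = 1 := congrArg Subtype.val ht
  have hti : (t : G)⁻¹ = t := inv_eq_of_mul_eq_one_left ht'
  obtain ⟨x, hx⟩ := exists_ppart (p := 2) Nat.prime_two ((t : G) * (g * t * g⁻¹))
  have hinv := ppart_inverted (p := 2) (t : G) g x ht' hx
  have hx1 : x ≠ 1 := by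
    rintro rfl
    obtain ⟨y, h1, _, _, h4⟩ := hx
    rw [one_mul] at h1
    rw [h1] at h4
    exact h4 hd
  obtain ⟨v, hxv, hcv, ⟨k, hk⟩, hv⟩ := id hx
  have hK : IsPGroup 2 (zpowers x ⊔ zpowers (t : G) : Subgroup G) := by
    apply IsPGroup.to_sup_of_normal_left'
    · exact IsPGroup.of_card (n := k) (by rw [Nat.card_zpowers, hk])
    · obtain ⟨k', hk'⟩ := (IsPGroup.iff_orderOf.mp P.isPGroup') t
      exact IsPGroup.of_card (n := k') (by rw [Nat.card_zpowers, Subgroup.orderOf_coe, hk'])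
    · rw [zpowers_le]
      rw [mem_normalizer_iff]
      intro z
      constructor
      · intro hz
        obtain ⟨j, rfl⟩ := mem_zpowers_iff.mp hz
        have : (t : G) * x ^ j * (t : G)⁻¹ = (x⁻¹) ^ j := by
          rw [← hinv, conj_zpow]
        rw [this]
        exact zpow_mem (inv_mem (mem_zpowers x)) j
      · intro hz
        obtain ⟨j, hj⟩ := mem_zpowers_iff.mp hz
        have : z = (x⁻¹) ^ j := by
          have h1 : z = (t : G)⁻¹ * ((t : G) * z * (t : G)⁻¹) * (t : G) := by group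
          rw [h1, ← hj, hti]
          have h2 : (t : G) * x ^ j * (t : G) = (t : G) * x ^ j * (t : G)⁻¹ := by rw [hti]
          rw [h2, ← conj_zpow, hinv]
        rw [this]
        exact zpow_mem (inv_mem (mem_zpowers x)) j
  obtain ⟨c, hc⟩ := exists_conj_le P _ hK
  have hcx := hc x (mem_sup_left (mem_zpowers x))
  have hct := hc t (mem_sup_right (mem_zpowers (t : G)))
  have hcomm : (t : G) * x = x * t := by
    have := congrArg Subtype.val (h.hab.is_comm.comm ⟨_, hct⟩ ⟨_, hcx⟩)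
    have h2 : c * ((t : G) * x) * c⁻¹ = c * (x * t) * c⁻¹ := by
      have e1 : c * ((t : G) * x) * c⁻¹ = (c * t * c⁻¹) * (c * x * c⁻¹) := by group
      have e2 : c * (x * (t : G)) * c⁻¹ = (c * x * c⁻¹) * (c * t * c⁻¹) := by group
      rw [e1, e2]; exact this
    exact mul_left_cancel (mul_right_cancel h2)
  have hxx : x⁻¹ = x := by
    rw [← hinv, hcomm, mul_inv_cancel_right]
  -- `t` inverts `v`
  have hvinv : (t : G) * v * (t : G)⁻¹ = v⁻¹ := by
    have h1 := conj_invol_mul (t : G) g ht'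
    rw [← hxv] at h1
    have h2 : (t : G) * (x * v) * (t : G)⁻¹ = ((t : G) * x * (t : G)⁻¹) * ((t : G) * v * (t : G)⁻¹) := by
      group
    rw [h2, hinv, mul_inv_rev, ← hcv.inv_inv.eq] at h1
    exact mul_left_cancel h1
  -- a square root of `v`
  have hodd : Odd (orderOf v) := Nat.odd_iff.mpr (Nat.two_dvd_ne_zero.mp hv)
  obtain ⟨j, hj⟩ := hodd
  set w := v ^ (j + 1) with hw
  have hww : w * w = v := by
    rw [hw, ← pow_add]
    have : j + 1 + (j + 1) = orderOf v + 1 := by omega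
    rw [this, pow_succ, pow_orderOf_eq_one, one_mul]
  have hwinv : (t : G) * w * (t : G)⁻¹ = w⁻¹ := by
    rw [hw, ← conj_pow, hvinv, inv_pow]
  have hxw : x * w = w * x := by
    rw [hw]; exact (hcv.pow_right (j + 1)).eq
  -- `t x` is conjugate to `t`
  have hconj : IsConj (t : G) ((t : G) * x) := by
    rw [isConj_iff]
    refine ⟨w * g, ?_⟩
    have h1 : g * (t : G) * g⁻¹ = (t : G) * x * v := by
      have : (t : G) * ((t : G) * (g * t * g⁻¹)) = (t : G) * (x * v) := by rw [hxv]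
      rw [← mul_assoc, ht', one_mul] at this
      rw [this, mul_assoc]
    have h2 : w * g * (t : G) * (w * g)⁻¹ = w * (g * (t : G) * g⁻¹) * w⁻¹ := by group
    rw [h2, h1, ← hww]
    have h3 : (t : G) * w = w⁻¹ * t := by
      have := hwinv
      rw [mul_inv_eq_iff_eq_mul] at this
      exact this
    calc w * ((t : G) * x * (w * w)) * w⁻¹ = w * ((t : G) * (x * w)) := by group
      _ = w * ((t : G) * (w * x)) := by rw [hxw]
      _ = w * (((t : G) * w) * x) := by group
      _ = w * ((w⁻¹ * t) * x) := by rw [h3]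
      _ = (t : G) * x := by group
  have hctx : c * ((t : G) * x) * c⁻¹ ∈ (P : Subgroup G) := by
    have : c * ((t : G) * x) * c⁻¹ = (c * t * c⁻¹) * (c * x * c⁻¹) := by group
    rw [this]
    exact mul_mem hct hcx
  obtain ⟨n₁, hn₁⟩ := exists_act_of_isConj P h.hab t ⟨_, hct⟩ (isConj_iff.mpr ⟨c, rfl⟩)
  obtain ⟨n₂, hn₂⟩ := exists_act_of_isConj P h.hab t ⟨_, hctx⟩
    (hconj.trans (isConj_iff.mpr ⟨c, rfl⟩))
  refine ⟨c, ⟨_, hcx⟩, n₁, n₂, ?_, isPPart_conj hx c, ?_⟩
  · intro h'
    apply hx1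
    have := congrArg Subtype.val h'
    simpa using this
  · rw [hn₁, hn₂]
    apply Subtype.ext
    show c * x * c⁻¹ = (c * t * c⁻¹) * (c * ((t : G) * x) * c⁻¹)
    have : (c * t * c⁻¹) * (c * ((t : G) * x) * c⁻¹) = c * (((t : G) * t) * x) * c⁻¹ := by group
    rw [this, ht', one_mul]

end two

end Cfsg.Agent.Lib.Helper59BLInv
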