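import Mathlib
import Cfsg.Prelude.Def_Blocks
import Cfsg.Agent.Lib.Helper59BLInv

set_option autoImplicit false
set_option linter.unusedSectionVars false

namespace Cfsg.Agent.Lib.Helper59BLThree

open Cfsg Subgroup
open Cfsg.Agent.Lib.Helper81Base Cfsg.Agent.Lib.Helper81Block Cfsg.Agent.Lib.Helper82Linear
  Cfsg.Agent.Lib.Helper59BLDual
  Cfsg.Agent.Lib.Helper59BLGram Cfsg.Agent.Lib.Helper59BLTw Cfsg.Agent.Lib.Helper59BLStruct
  Cfsg.Agent.Lib.Helper59BLSec Cfsg.Agent.Lib.Helper59BLFin Cfsg.Agent.Lib.Helper59BLInv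
open scoped ComplexConjugate

variable {G : Type*} [Group G] [Fintype G] {p : ℕ} [Fact p.Prime] {M : Ideal AlgInt}
  {P : Sylow p G} [Fintype ↥(P : Subgroup G)] [Fintype (normalizer ((P : Subgroup G) : Set G))]
  [Fintype (↥(P : Subgroup G) →* ℂˣ)]

variable {m : ℕ} {δ d : ℤ} {ζ : (↥(P : Subgroup G) →* ℂˣ) → IrrCharacter G}
  {A : IrrCharacter G → ℤ}

/-- when `m = 3` and `d = 0` there are exactly three non-exceptional characters. -/
theorem exists_X_three (h : BL p M P) (hP : 1 < Nat.card ↥(P : Subgroup G))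
    (D : BLData M P 3 δ 0 ζ A) :
    ∃ χ₂ χ₃ : IrrCharacter G, χ₂ ≠ irrOne G ∧ χ₃ ≠ irrOne G ∧ χ₂ ≠ χ₃ ∧
      Xset M ζ = {irrOne G, χ₂, χ₃} ∧ (A χ₂ = 1 ∨ A χ₂ = -1) ∧ (A χ₃ = 1 ∨ A χ₃ = -1) := by
  classical
  have hn := norm_eq D
  simp only [ne_eq, OfNat.ofNat_ne_zero, not_false_eq_true, zero_pow, mul_zero, add_zero,
    Nat.cast_ofNat] at hn
  set Xf : Finset (IrrCharacter G) := Finset.univ.filter (fun χ => χ ∈ Xset M ζ) with hXf
  rw [← Finset.sum_filter, ← hXf] at hn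
  have h1 : irrOne G ∈ Xf := by
    rw [hXf, Finset.mem_filter]; exact ⟨Finset.mem_univ _, one_mem_X h D⟩
  rw [← Finset.add_sum_erase _ _ h1, D.hAone] at hn
  have hn2 : ∑ χ ∈ Xf.erase (irrOne G), A χ ^ 2 = 2 := by linarith
  have hpos : ∀ χ ∈ Xf.erase (irrOne G), 1 ≤ A χ ^ 2 := by
    intro χ hχ
    have hχX : χ ∈ Xset M ζ := (Finset.mem_filter.mp (Finset.mem_of_mem_erase hχ)).2
    have h0 := X_ne_zero h D hP hχX
    have : 0 < A χ ^ 2 := by positivity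
    omega
  have hcard : ((Xf.erase (irrOne G)).card : ℤ) ≤ 2 := by
    rw [← hn2]
    have := Finset.card_nsmul_le_sum (Xf.erase (irrOne G)) (fun χ => A χ ^ 2) 1 hpos
    simpa using this
  have hcard' : (Xf.erase (irrOne G)).card ≤ 2 := by exact_mod_cast hcard
  have hc2 : (Xf.erase (irrOne G)).card = 2 := by
    interval_cases hc : (Xf.erase (irrOne G)).card
    · rw [Finset.card_eq_zero] at hc
      rw [hc] at hn2
      simp at hn2
    · obtain ⟨χ, hχ⟩ := Finset.card_eq_one.mp hc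
      rw [hχ, Finset.sum_singleton] at hn2
      exfalso
      have h3 : A χ < 2 := by nlinarith
      have h4 : -2 < A χ := by nlinarith
      interval_cases A χ <;> omega
    · rfl
  obtain ⟨χ₂, χ₃, h23, hE⟩ := Finset.card_eq_two.mp hc2
  have m2 : χ₂ ∈ Xf.erase (irrOne G) := by rw [hE]; simp
  have m3 : χ₃ ∈ Xf.erase (irrOne G) := by rw [hE]; simp
  rw [hE, Finset.sum_pair h23] at hn2
  have p2 := hpos χ₂ m2
  have p3 := hpos χ₃ m3
  have sq1 : ∀ a : ℤ, a ^ 2 = 1 → a = 1 ∨ a = -1 := by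
    intro a ha
    have h3 : a < 2 := by nlinarith
    have h4 : -2 < a := by nlinarith
    interval_cases a <;> simp_all
  refine ⟨χ₂, χ₃, Finset.ne_of_mem_erase m2, Finset.ne_of_mem_erase m3, h23, ?_,
    sq1 _ (by omega), sq1 _ (by omega)⟩
  ext χ
  have e1 : χ ∈ Xset M ζ ↔ χ ∈ Xf := by rw [hXf, Finset.mem_filter]; simp
  rw [e1, ← Finset.insert_erase h1, hE]
  simp

/-- the coefficient vector of the virtual character vanishing on `p`-regular elements. -/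
noncomputable def cvec (δ : ℤ) (ζ : (↥(P : Subgroup G) →* ℂˣ) → IrrCharacter G)
    (A : IrrCharacter G → ℤ) (ψ : ↥(P : Subgroup G) →* ℂˣ) (χ : IrrCharacter G) : ℂ :=
  (A χ : ℂ) - (δ : ℂ) * ind (χ = ζ ψ)

theorem sum_cvec (F : IrrCharacter G → ℂ) (ψ : ↥(P : Subgroup G) →* ℂˣ) :
    ∑ χ, cvec δ ζ A ψ χ * F χ = ∑ χ, (A χ : ℂ) * F χ - (δ : ℂ) * F (ζ ψ) := by
  classical
  unfold cvec
  simp only [sub_mul, Finset.sum_sub_distrib]
  congr 1
  rw [Finset.sum_eq_single (ζ ψ)]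
  · rw [ind_pos rfl, mul_one]
  · intro χ _ hχ
    rw [ind_neg hχ]; ring
  · intro h'; exact absurd (Finset.mem_univ _) h'

theorem theta_regular (D : BLData M P m δ d ζ A) (ψ : ↥(P : Subgroup G) →* ℂˣ) (hψ : ψ ≠ 1)
    (g : G) (hg : ¬ p ∣ orderOf g) : ∑ χ, cvec δ ζ A ψ χ * (χ : G → ℂ) g = 0 := by
  rw [sum_cvec, D.hreg ψ hψ g hg, sub_self]

/-- explicit form of sums against `A` when `X = {1, χ₂, χ₃}` and `d = 0`. -/
theorem sum_A_three (D : BLData M P m δ 0 ζ A) {χ₂ χ₃ : IrrCharacter G}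
    (h2 : χ₂ ≠ irrOne G) (h3 : χ₃ ≠ irrOne G) (h23 : χ₂ ≠ χ₃)
    (hX : Xset M ζ = {irrOne G, χ₂, χ₃}) (F : IrrCharacter G → ℂ) :
    ∑ χ, (A χ : ℂ) * F χ = F (irrOne G) + (A χ₂ : ℂ) * F χ₂ + (A χ₃ : ℂ) * F χ₃ := by
  classical
  rw [sum_split D (fun χ => (A χ : ℂ) * F χ) (fun χ hχ => by rw [D.hout χ hχ]; simp)]
  have e2 : (∑ χ : IrrCharacter G, if χ ∈ Yset ζ then (A χ : ℂ) * F χ else 0) = 0 := by
    apply Finset.sum_eq_zero
    intro χ _
    split_ifs with hY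
    · rw [A_of_mem_Y D hY]; simp
    · rfl
  rw [e2, add_zero]
  have e4 : (∑ χ : IrrCharacter G, if χ ∈ Xset M ζ then (A χ : ℂ) * F χ else 0)
      = ∑ χ : IrrCharacter G, if χ ∈ ({irrOne G, χ₂, χ₃} : Finset (IrrCharacter G))
          then (A χ : ℂ) * F χ else 0 := by
    apply Finset.sum_congr rfl
    intro χ _
    by_cases hχ : χ ∈ Xset M ζ
    · rw [if_pos hχ, if_pos]
      rw [hX] at hχ
      simpa using hχ
    · rw [if_neg hχ, if_neg]
      intro h'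
      apply hχ
      rw [hX]
      simpa using h'
  rw [e4]
  rw [Finset.sum_ite_mem, Finset.univ_inter, Finset.sum_insert, Finset.sum_pair h23, D.hAone]
  · push_cast; ring
  · simp only [Finset.mem_insert, Finset.mem_singleton, not_or]
    exact ⟨h2.symm, h3.symm⟩

/-- degrees of the non-exceptional characters. -/
theorem X_degree_congr (D : BLData M P m δ d ζ A) {χ : IrrCharacter G} (hχ : χ ∈ Xset M ζ) :
    (Nat.card ↥(P : Subgroup G) : ℤ) ∣ (charDegree (χ : G → ℂ) : ℤ) - A χ := by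
  classical
  have hP : (Nat.card ↥(P : Subgroup G) : ℂ) ≠ 0 := by exact_mod_cast Nat.card_pos.ne'
  have h1 := mu_eq (P := P) χ 1
  unfold mu classInner at h1
  simp only [MonoidHom.one_apply, Units.val_one, map_one, mul_one] at h1
  rw [← Finset.add_sum_erase _ _ (Finset.mem_univ (1 : ↥(P : Subgroup G)))] at h1
  have h2 : ∑ x ∈ Finset.univ.erase (1 : ↥(P : Subgroup G)), (χ : G → ℂ) x
      = ((Nat.card ↥(P : Subgroup G) : ℂ) - 1) * A χ := by
    rw [Finset.sum_congr rfl (fun x hx => X_val D hχ x (Finset.ne_of_mem_erase hx)),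
      Finset.sum_const, Finset.card_erase_of_mem (Finset.mem_univ _), Finset.card_univ,
      ← Nat.card_eq_fintype_card, nsmul_eq_mul, Nat.cast_sub Nat.card_pos]
    simp
  rw [h2] at h1
  have h3 : ((charDegree (χ : G → ℂ) : ℤ) : ℂ) - (A χ : ℂ)
      = (Nat.card ↥(P : Subgroup G) : ℂ) * ((muZ χ (1 : ↥(P : Subgroup G) →* ℂˣ) : ℂ) - A χ) := by
    rw [← h1]
    have : ((charDegree (χ : G → ℂ) : ℤ) : ℂ) = (χ : G → ℂ) 1 := by
      rw [← charDegree_eq]; simp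
    rw [this]
    simp only [OneMemClass.coe_one]
    field_simp
    ring
  refine ⟨muZ χ (1 : ↥(P : Subgroup G) →* ℂˣ) - A χ, ?_⟩
  exact_mod_cast h3

end Cfsg.Agent.Lib.Helper59BLThree
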