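import Mathlib
import Cfsg.Prelude.Def_Blocks
import Cfsg.Agent.Lib.Helper59BLThree
import Cfsg.Agent.Lib.Helper59BLArith

set_option autoImplicit false
set_option linter.unusedSectionVars false

namespace Cfsg.Agent.Lib.Helper59BLTwo

open Cfsg Subgroup
open Cfsg.Agent.Lib.Helper81Base Cfsg.Agent.Lib.Helper81Block Cfsg.Agent.Lib.Helper82Linear
  Cfsg.Agent.Lib.Helper59BLDual Cfsg.Agent.Lib.Helper59BSChar
  Cfsg.Agent.Lib.Helper59BLGram Cfsg.Agent.Lib.Helper59BLTw Cfsg.Agent.Lib.Helper59BLStruct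
  Cfsg.Agent.Lib.Helper59BLSec Cfsg.Agent.Lib.Helper59BLFin Cfsg.Agent.Lib.Helper59BLInv
  Cfsg.Agent.Lib.Helper59BLThree Cfsg.Agent.Lib.Helper59BLArith
open scoped ComplexConjugate

section general

variable {G : Type*} [Group G] [Fintype G] {p : ℕ} [Fact p.Prime] {M : Ideal AlgInt}
  {P : Sylow p G} [Fintype ↥(P : Subgroup G)] [Fintype (normalizer ((P : Subgroup G) : Set G))]
  [Fintype (↥(P : Subgroup G) →* ℂˣ)]

variable {m : ℕ} {δ d : ℤ} {ζ : (↥(P : Subgroup G) →* ℂˣ) → IrrCharacter G}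
  {A : IrrCharacter G → ℤ}

open scoped Classical in
theorem one_le_sum_X (h : BL p M P) (D : BLData M P m δ d ζ A) :
    1 ≤ ∑ χ, if χ ∈ Xset M ζ then A χ ^ 2 else 0 := by
  have h1 := Finset.single_le_sum (f := fun χ => if χ ∈ Xset M ζ then A χ ^ 2 else 0)
    (s := Finset.univ) (fun χ _ => by
      split_ifs
      · positivity
      · exact le_refl _) (Finset.mem_univ (irrOne G))
  beta_reduce at h1
  rw [if_pos (one_mem_X h D), D.hAone] at h1
  simpa using h1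

theorem d_eq_zero_of_large (h : BL p M P) (D : BLData M P 3 δ d ζ A)
    (hr : 5 ≤ Nat.card (Yset ζ)) : d = 0 := by
  classical
  have h1 := norm_eq D
  have h2 := one_le_sum_X h D
  have hδ2 : δ ^ 2 = 1 := by rcases D.hδ with h' | h' <;> rw [h'] <;> norm_num
  have hr' : (5 : ℤ) ≤ (Nat.card (Yset ζ) : ℤ) := by exact_mod_cast hr
  have h3 : 0 ≤ (d - δ) ^ 2 := sq_nonneg _
  have h4 : 5 * d ^ 2 ≤ (Nat.card (Yset ζ) : ℤ) * d ^ 2 := by nlinarith [sq_nonneg d]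
  have h5 : 4 * d ^ 2 ≤ 3 := by
    push_cast at h1
    nlinarith
  have h6 : d ^ 2 ≤ 0 := by omega
  nlinarith [sq_nonneg d]

/-- the virtual character vanishes at elements of `P` killed by all conjugates of `ψ`. -/
theorem theta_special (h : BL p M P)
    (hm : (centralizer ((P : Subgroup G) : Set G)).relIndex
      (normalizer ((P : Subgroup G) : Set G)) = 3) (D : BLData M P 3 δ 0 ζ A)
    {χ₂ χ₃ : IrrCharacter G}
    (h2 : χ₂ ≠ irrOne G) (h3 : χ₃ ≠ irrOne G) (h23 : χ₂ ≠ χ₃)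
    (hX : Xset M ζ = {irrOne G, χ₂, χ₃}) (hA2 : A χ₂ = 1 ∨ A χ₂ = -1)
    (hA3 : A χ₃ = 1 ∨ A χ₃ = -1) (ψ : ↥(P : Subgroup G) →* ℂˣ) (hψ : ψ ≠ 1)
    (y : ↥(P : Subgroup G)) (hy : y ≠ 1) (hk : ∀ n, ψ ((actHom P n).symm y) = 1) :
    (ζ ψ : G → ℂ) y = 3 * δ ∧ ∑ χ, cvec δ ζ A ψ χ * (χ : G → ℂ) y = 0 := by
  classical
  have m2 : χ₂ ∈ Xset M ζ := by rw [hX]; simp
  have m3 : χ₃ ∈ Xset M ζ := by rw [hX]; simp
  have hv : (ζ ψ : G → ℂ) y = 3 * δ := by
    rw [Y_val D ψ hψ y hy]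
    have e : ∑ ψ' : ↥(P : Subgroup G) →* ℂˣ, (if Rel P ψ ψ' then ((ψ' y : ℂˣ) : ℂ) else 0)
        = ∑ ψ' : ↥(P : Subgroup G) →* ℂˣ, (if Rel P ψ ψ' then (1 : ℂ) else 0) := by
      apply Finset.sum_congr rfl
      intro ψ' _
      split_ifs with hr
      · obtain ⟨n, rfl⟩ := hr
        rw [twHom_apply, hk n]; simp
      · rfl
    rw [e, Finset.sum_boole]
    have := card_orbit h 3 hm ψ hψ
    rw [Nat.card_eq_fintype_card, Fintype.card_subtype] at this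
    rw [this]
    push_cast; ring
  refine ⟨hv, ?_⟩
  rw [sum_cvec, sum_A_three D h2 h3 h23 hX, hv, X_val D m2 y hy, X_val D m3 y hy]
  have e1 : ((irrOne G : IrrCharacter G) : G → ℂ) y = 1 := rfl
  rw [e1]
  have hδ2 : (δ : ℂ) * δ = 1 := by
    rcases D.hδ with h' | h' <;> rw [h'] <;> norm_num
  have a2 : (A χ₂ : ℂ) * A χ₂ = 1 := by
    rcases hA2 with h' | h' <;> rw [h'] <;> norm_num
  have a3 : (A χ₃ : ℂ) * A χ₃ = 1 := by
    rcases hA3 with h' | h' <;> rw [h'] <;> norm_num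
  linear_combination a2 + a3 - 3 * hδ2

end general

section two

variable {G : Type*} [Group G] [Fintype G] {M : Ideal AlgInt}
  {P : Sylow 2 G} [Fintype ↥(P : Subgroup G)] [Fintype (normalizer ((P : Subgroup G) : Set G))]
  [Fintype (↥(P : Subgroup G) →* ℂˣ)]

/-- **The case `p = 2`**: there is a nonprincipal linear character trivial on `P`. -/
theorem two_case (h : BL 2 M P)
    (hm : (centralizer ((P : Subgroup G) : Set G)).relIndex
      (normalizer ((P : Subgroup G) : Set G)) = 3) (hP : 4 < Nat.card ↥(P : Subgroup G)) :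
    ∃ χ : IrrCharacter G, χ ≠ irrOne G ∧ (χ : G → ℂ) 1 = 1 ∧
      ∀ y ∈ (P : Subgroup G), (χ : G → ℂ) y = 1 := by
  classical
  obtain ⟨δ, d, ζ, A, D⟩ := exists_data h 3 hm (by omega)
  have hcY := card_Y h D hm
  obtain ⟨k, hk⟩ := IsPGroup.iff_card.mp P.isPGroup'
  have hk' : Nat.card ↥(P : Subgroup G) = 2 ^ k := hk
  have h16 : 16 ≤ Nat.card ↥(P : Subgroup G) := by
    rw [hk'] at hP hcY ⊢
    rcases k with _ | _ | _ | _ | k
    · norm_num at hP
    · norm_num at hP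
    · norm_num at hP
    · exfalso; omega
    · have : 2 ^ (k + 1 + 1 + 1 + 1) = 16 * 2 ^ k := by ring
      rw [this]
      have : 0 < 2 ^ k := by positivity
      omega
  obtain rfl : d = 0 := d_eq_zero_of_large h D (by omega)
  obtain ⟨χ₂, χ₃, h2, h3, h23, hX, hA2, hA3⟩ := exists_X_three h (by omega) D
  have m2 : χ₂ ∈ Xset M ζ := by rw [hX]; simp
  have m3 : χ₃ ∈ Xset M ζ := by rw [hX]; simp
  have h2dvd : 2 ∣ Nat.card ↥(P : Subgroup G) := by
    rw [hk']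
    apply dvd_pow_self
    rintro rfl
    norm_num at hk'
    omega
  obtain ⟨t, ht⟩ := exists_prime_orderOf_dvd_card' 2 h2dvd
  have ht2 : t * t = 1 := by
    have := pow_orderOf_eq_one t
    rw [ht, pow_two] at this
    exact this
  have ht1 : t ≠ 1 := by
    rintro rfl
    rw [orderOf_one] at ht
    norm_num at ht
  obtain ⟨ψ, hψ1, hψ⟩ := exists_psi h hm hP t ht2
  have hsymm : ∀ (n n' : normalizer ((P : Subgroup G) : Set G)),
      (actHom P n).symm (actHom P n' t) = actHom P (n⁻¹ * n') t := by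
    intro n n'
    rw [map_mul, map_inv]
    rfl
  have spec := fun y hy hk => theta_special h hm D h2 h3 h23 hX hA2 hA3 ψ hψ1 y hy hk
  have htk : ∀ n, ψ ((actHom P n).symm t) = 1 := by
    intro n
    have : (actHom P n).symm t = actHom P n⁻¹ t := by rw [map_inv]; rfl
    rw [this]; exact hψ _
  obtain ⟨hvt, hΘt⟩ := spec t ht1 htk
  have hp1 : ¬ 2 ∣ orderOf (1 : G) := by rw [orderOf_one]; norm_num
  have hΘ1 := theta_regular D ψ hψ1 1 hp1
  have hΘprod : ∀ x : G, ∑ χ, cvec δ ζ A ψ χ * (χ : G → ℂ) ((t : G) * (x * t * x⁻¹)) = 0 := by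
    intro g
    rcases two_part h t ht2 g with hreg | ⟨c, y, n₁, n₂, hy1, hpp, hy⟩
    · exact theta_regular D ψ hψ1 _ hreg
    · have hyk : ∀ n, ψ ((actHom P n).symm y) = 1 := by
        intro n
        rw [hy, map_mul, hsymm, hsymm, map_mul, hψ, hψ, one_mul]
      rw [← (spec y hy1 hyk).2]
      apply Finset.sum_congr rfl
      intro χ _
      by_cases hχ : χ ∈ principalBlock M G
      · rw [← section_const h χ hχ _ y hpp y.2 (fun h' => hy1 (Subtype.ext h')), irr_conj]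
      · have : cvec δ ζ A ψ χ = 0 := by
          unfold cvec
          rw [D.hout χ hχ, ind_neg (fun h' : χ = ζ ψ => hχ (h' ▸ D.hmem ψ hψ1))]
          simp
        rw [this, zero_mul, zero_mul]
  have hrel := theta_relation (cvec δ ζ A ψ) (t : G) hΘ1 hΘt hΘprod
  rw [sum_cvec, sum_A_three D h2 h3 h23 hX] at hrel hΘ1
  rw [hvt, X_val D m2 t ht1, X_val D m3 t ht1] at hrel
  have e1 : ∀ g : G, ((irrOne G : IrrCharacter G) : G → ℂ) g = 1 := fun g => rfl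
  rw [e1, e1] at hrel
  rw [e1] at hΘ1
  set f₂ := charDegree (χ₂ : G → ℂ) with hf₂
  set f₃ := charDegree (χ₃ : G → ℂ) with hf₃
  set f := charDegree (ζ ψ : G → ℂ) with hf
  rw [← charDegree_eq χ₂, ← charDegree_eq χ₃, ← charDegree_eq (ζ ψ), ← hf₂, ← hf₃, ← hf]
    at hrel hΘ1
  have p2 : 0 < f₂ := charDegree_pos χ₂
  have p3 : 0 < f₃ := charDegree_pos χ₃
  have pf : 0 < f := charDegree_pos (ζ ψ)
  have E1 : 1 + A χ₂ * (f₂ : ℤ) + A χ₃ * (f₃ : ℤ) - δ * (f : ℤ) = 0 := by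
    exact_mod_cast hΘ1
  have E3 : A χ₂ * ((f₂ : ℤ) - A χ₂) ^ 2 * ((f₃ : ℤ) * f) + A χ₃ * ((f₃ : ℤ) - A χ₃) ^ 2 * ((f₂ : ℤ) * f)
      - δ * ((f : ℤ) - 3 * δ) ^ 2 * ((f₂ : ℤ) * f₃) = 0 := by
    have c2 : (f₂ : ℂ) ≠ 0 := by exact_mod_cast p2.ne'
    have c3 : (f₃ : ℂ) ≠ 0 := by exact_mod_cast p3.ne'
    have cf : (f : ℂ) ≠ 0 := by exact_mod_cast pf.ne'
    have hc : (A χ₂ : ℂ) * ((f₂ : ℂ) - A χ₂) ^ 2 * ((f₃ : ℂ) * f)
        + (A χ₃ : ℂ) * ((f₃ : ℂ) - A χ₃) ^ 2 * ((f₂ : ℂ) * f)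
        - (δ : ℂ) * ((f : ℂ) - 3 * δ) ^ 2 * ((f₂ : ℂ) * f₃) = 0 := by
      have := congrArg (fun z => z * ((f₂ : ℂ) * f₃ * f)) hrel
      simp only [zero_mul] at this
      rw [← this]
      field_simp
      ring
    exact_mod_cast hc
  obtain ⟨r1, r2, -, -⟩ := arith_signs (Nat.card ↥(P : Subgroup G) : ℤ) f₂ f₃ f (A χ₂) (A χ₃) δ
    (by exact_mod_cast h16) (by exact_mod_cast p2) (by exact_mod_cast p3) hA2 hA3 D.hδ
    (X_degree_congr D m2) (X_degree_congr D m3) E1 E3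
  refine ⟨χ₂, h2, ?_, ?_⟩
  · rw [← charDegree_eq χ₂, ← hf₂]
    exact_mod_cast r1
  · intro y hy
    by_cases hy1 : y = 1
    · rw [hy1, ← charDegree_eq χ₂, ← hf₂]
      exact_mod_cast r1
    · have := X_val D m2 ⟨y, hy⟩ (fun h' => hy1 (congrArg Subtype.val h'))
      rw [r2] at this
      simpa using this

end two

end Cfsg.Agent.Lib.Helper59BLTwo
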