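import Mathlib
import Cfsg.Prelude.Def_Blocks
import Cfsg.Agent.Lib.Helper59BLTwo

set_option autoImplicit false
set_option linter.unusedSectionVars false

namespace Cfsg.Agent.Lib.Helper59BLNorm

open Cfsg Subgroup
open Cfsg.Agent.Lib.Helper81Base Cfsg.Agent.Lib.Helper81Block Cfsg.Agent.Lib.Helper82Linear
  Cfsg.Agent.Lib.Helper59BLDual Cfsg.Agent.Lib.Helper59BSChar
  Cfsg.Agent.Lib.Helper59BLGram Cfsg.Agent.Lib.Helper59BLTw Cfsg.Agent.Lib.Helper59BLStruct
  Cfsg.Agent.Lib.Helper59BLSec Cfsg.Agent.Lib.Helper59BLFin Cfsg.Agent.Lib.Helper59BLInv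
  Cfsg.Agent.Lib.Helper59BLThree Cfsg.Agent.Lib.Helper59BLTwo
open scoped ComplexConjugate

variable {G : Type*} [Group G] [Fintype G] {p : ℕ} [Fact p.Prime] {M : Ideal AlgInt}
  {P : Sylow p G} [Fintype ↥(P : Subgroup G)] [Fintype (normalizer ((P : Subgroup G) : Set G))]
  [Fintype (↥(P : Subgroup G) →* ℂˣ)]

variable {δ d : ℤ} {ζ : (↥(P : Subgroup G) →* ℂˣ) → IrrCharacter G}
  {A : IrrCharacter G → ℤ}

open scoped Classical in
/-- when there are exactly two exceptional characters and `d = δ`, relabel. -/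
theorem swap (h : BL p M P) (hm : (centralizer ((P : Subgroup G) : Set G)).relIndex
      (normalizer ((P : Subgroup G) : Set G)) = 3) (hP : 4 < Nat.card ↥(P : Subgroup G))
    (D : BLData M P 3 δ δ ζ A) (hr : Nat.card (Yset ζ) = 2) :
    ∃ (ζ' : (↥(P : Subgroup G) →* ℂˣ) → IrrCharacter G) (A' : IrrCharacter G → ℤ),
      BLData M P 3 (-δ) 0 ζ' A' := by
  obtain ⟨ψ₁, hψ₁⟩ := exists_ne_one h (by omega)
  obtain ⟨ψ₂, hψ₂, h12⟩ := exists_not_rel h 3 hm (by omega) ψ₁ hψ₁
  set η₁ := ζ ψ₁ with hη₁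
  set η₂ := ζ ψ₂ with hη₂
  have hne : η₁ ≠ η₂ := fun h' => h12 ((D.hζ ψ₁ ψ₂ hψ₁ hψ₂).mp h')
  have hY1 : η₁ ∈ Yset ζ := ⟨ψ₁, hψ₁, rfl⟩
  have hY2 : η₂ ∈ Yset ζ := ⟨ψ₂, hψ₂, rfl⟩
  have hYeq : ∀ χ, χ ∈ Yset ζ → χ = η₁ ∨ χ = η₂ := by
    intro χ hχ
    by_contra hcon
    push Not at hcon
    have h3 : ({η₁, η₂, χ} : Finset (IrrCharacter G)).card = 3 := by
      rw [Finset.card_insert_of_notMem, Finset.card_pair hcon.2.symm]
      simp only [Finset.mem_insert, Finset.mem_singleton, not_or]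
      exact ⟨hne, hcon.1.symm⟩
    have h4 : ({η₁, η₂, χ} : Finset (IrrCharacter G)) ⊆ (Yset ζ).toFinset := by
      intro x hx
      simp only [Finset.mem_insert, Finset.mem_singleton] at hx
      rw [Set.mem_toFinset]
      rcases hx with rfl | rfl | rfl
      · exact hY1
      · exact hY2
      · exact hχ
    have h5 := Finset.card_le_card h4
    rw [Set.toFinset_card, ← Nat.card_eq_fintype_card, hr, h3] at h5
    omega
  have hζY : ∀ ψ, ψ ≠ 1 → ζ ψ = η₁ ∨ ζ ψ = η₂ := fun ψ hψ => hYeq _ ⟨ψ, hψ, rfl⟩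
  set sw : IrrCharacter G → IrrCharacter G := fun χ => if χ = η₁ then η₂ else η₁ with hsw
  have sw1 : sw η₁ = η₂ := by simp [hsw]
  have sw2 : sw η₂ = η₁ := by simp [hsw, hne.symm]
  have hswY : ∀ ψ, ψ ≠ 1 → sw (ζ ψ) ∈ Yset ζ := by
    intro ψ hψ
    rcases hζY ψ hψ with h' | h' <;> rw [h']
    · rw [sw1]; exact hY2
    · rw [sw2]; exact hY1
  have hδ2 : δ ^ 2 = 1 := by rcases D.hδ with h' | h' <;> rw [h'] <;> norm_num
  have hnotY1 : irrOne G ∉ Yset ζ := (one_mem_X h D).2
  have hA' : ∀ χ, (if χ ∈ Yset ζ then (0 : ℤ) else A χ) = if χ ∈ Xset M ζ then A χ else 0 := by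
    intro χ
    by_cases hY : χ ∈ Yset ζ
    · rw [if_pos hY, if_neg (fun h' : χ ∈ Xset M ζ => h'.2 hY)]
    · rw [if_neg hY]
      by_cases hB : χ ∈ principalBlock M G
      · rw [if_pos (show χ ∈ Xset M ζ from ⟨hB, hY⟩)]
      · rw [if_neg (fun h' : χ ∈ Xset M ζ => hB h'.1), D.hout χ hB]
  refine ⟨fun ψ => sw (ζ ψ), fun χ => if χ ∈ Yset ζ then 0 else A χ, ?_, ?_, ?_, ?_, ?_, ?_, ?_,
    ?_, ?_, ?_⟩
  · rcases D.hδ with h' | h' <;> rw [h'] <;> norm_num
  · intro ψ ψ' hψ hψ'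
    rw [← D.hζ ψ ψ' hψ hψ']
    rcases hζY ψ hψ with h' | h' <;> rcases hζY ψ' hψ' with h'' | h'' <;> rw [h', h'']
    · simp
    · rw [sw1, sw2]
      exact ⟨fun e => absurd e.symm hne, fun e => absurd e hne⟩
    · rw [sw1, sw2]
      exact ⟨fun e => absurd e hne, fun e => absurd e.symm hne⟩
    · simp
  · intro ψ hψ
    exact Yset_sub D (hswY ψ hψ)
  · intro ψ hψ
    exact if_pos (hswY ψ hψ)
  · intro χ hχ
    rw [hA', if_neg (fun h' : χ ∈ Xset M ζ => hχ h'.1)]
  · intro ψ hψ h'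
    exact hnotY1 (h' ▸ hswY ψ hψ)
  · rw [if_neg hnotY1, D.hAone]
  · have h1 := norm_eq D
    rw [hr] at h1
    have e : ∑ χ, (if χ ∈ Yset ζ then (0 : ℤ) else A χ) ^ 2
        = ∑ χ, if χ ∈ Xset M ζ then A χ ^ 2 else 0 := by
      apply Finset.sum_congr rfl
      intro χ _
      rw [hA']
      split_ifs
      · rfl
      · ring
    rw [e]
    push_cast at h1 ⊢
    nlinarith
  · intro χ hχ y hy
    by_cases hY : χ ∈ Yset ζ
    · rw [if_pos hY, D.hval χ hχ y hy, A_of_mem_Y D hY]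
      have hsum := sum_dual_eq_zero h.hab hy
      have e : ∀ ψ : ↥(P : Subgroup G) →* ℂˣ, ((ψ y : ℂˣ) : ℂ)
          = (if ψ = 1 then (1 : ℂ) else 0)
            + (if ψ ≠ 1 ∧ ζ ψ = χ then ((ψ y : ℂˣ) : ℂ) else 0)
            + (if ψ ≠ 1 ∧ sw (ζ ψ) = χ then ((ψ y : ℂˣ) : ℂ) else 0) := by
        intro ψ
        by_cases hψ : ψ = 1
        · subst hψ
          simp
        · rw [if_neg hψ]
          rcases hζY ψ hψ with h' | h' <;> rcases hYeq χ hY with h'' | h''
          · rw [if_pos ⟨hψ, h'.trans h''.symm⟩, if_neg]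
            · ring
            · rintro ⟨-, h3⟩
              rw [h', sw1, h''] at h3
              exact hne h3.symm
          · rw [if_neg, if_pos]
            · ring
            · exact ⟨hψ, by rw [h', sw1, h'']⟩
            · rintro ⟨-, h3⟩
              rw [h', h''] at h3
              exact hne h3
          · rw [if_neg, if_pos]
            · ring
            · exact ⟨hψ, by rw [h', sw2, h'']⟩
            · rintro ⟨-, h3⟩
              rw [h', h''] at h3
              exact hne h3.symm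
          · rw [if_pos ⟨hψ, h'.trans h''.symm⟩, if_neg]
            · ring
            · rintro ⟨-, h3⟩
              rw [h', sw2, h''] at h3
              exact hne h3
      rw [Finset.sum_congr rfl (fun ψ _ => e ψ), Finset.sum_add_distrib, Finset.sum_add_distrib,
        Finset.sum_ite_eq' Finset.univ, if_pos (Finset.mem_univ _)] at hsum
      push_cast
      linear_combination (δ : ℂ) * hsum
    · rw [if_neg hY, D.hval χ hχ y hy]
      rw [Finset.sum_eq_zero, Finset.sum_eq_zero]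
      · simp
      · intro ψ _
        rw [if_neg]
        rintro ⟨h1, h2⟩
        exact hY (h2 ▸ hswY ψ h1)
      · intro ψ _
        rw [if_neg]
        rintro ⟨h1, h2⟩
        exact hY ⟨ψ, h1, h2⟩
  · intro ψ hψ g hg
    have h1 := reg_rel D (hswY ψ hψ) g hg
    rw [hr] at h1
    have e : ∑ χ : IrrCharacter G, (((if χ ∈ Yset ζ then (0 : ℤ) else A χ) : ℤ) : ℂ) * (χ : G → ℂ) g
        = ∑ χ, (if χ ∈ Xset M ζ then (A χ : ℂ) * (χ : G → ℂ) g else 0) := by
      apply Finset.sum_congr rfl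
      intro χ _
      rw [hA']
      split_ifs
      · rfl
      · simp
    rw [e]
    push_cast at h1 ⊢
    linear_combination h1


/-- normalised data for `m = 3`: one can always arrange `d = 0`. -/
theorem exists_data_three (h : BL p M P)
    (hm : (centralizer ((P : Subgroup G) : Set G)).relIndex
      (normalizer ((P : Subgroup G) : Set G)) = 3) (hP : 4 < Nat.card ↥(P : Subgroup G)) :
    ∃ (δ : ℤ) (ζ : (↥(P : Subgroup G) →* ℂˣ) → IrrCharacter G) (A : IrrCharacter G → ℤ),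
      BLData M P 3 δ 0 ζ A := by
  classical
  obtain ⟨δ, d, ζ, A, D⟩ := exists_data h 3 hm (by omega)
  by_cases hd : d = 0
  · subst hd
    exact ⟨δ, ζ, A, D⟩
  have hcY := card_Y h D hm
  set r := Nat.card (Yset ζ) with hr
  have hr2 : 2 ≤ r := by omega
  have h1 := norm_eq D
  rw [← hr] at h1
  have h2 := one_le_sum_X h D
  have hδ2 : δ ^ 2 = 1 := by rcases D.hδ with h' | h' <;> rw [h'] <;> norm_num
  have hr' : (2 : ℤ) ≤ (r : ℤ) := by exact_mod_cast hr2
  push_cast at h1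
  -- `d = δ`
  have hd1 : d ^ 2 ≤ 1 := by
    by_contra hlt
    have h4 : 4 ≤ d ^ 2 := by
      have : 2 ≤ d ^ 2 := by omega
      have h5 : 2 ≤ |d| := by
        by_contra h6
        have : |d| ≤ 1 := by omega
        have : d ^ 2 ≤ 1 := by
          rw [← sq_abs]; nlinarith [abs_nonneg d]
        omega
      rw [← sq_abs]; nlinarith
    have h5 : 0 ≤ (d - 2 * δ) ^ 2 := sq_nonneg _
    nlinarith
  have hd2 : d ^ 2 = 1 := by
    have : 0 < d ^ 2 := by positivity
    omega
  have hdδ : d = δ := by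
    have h3 : (d - δ) * (d + δ) = 0 := by nlinarith
    rcases mul_eq_zero.mp h3 with h' | h'
    · linarith
    · exfalso
      have : d = -δ := by linarith
      subst this
      nlinarith
  subst hdδ
  have hr4 : (r : ℤ) ≤ 4 := by nlinarith
  have hr4' : r ≤ 4 := by exact_mod_cast hr4
  obtain ⟨k, hk⟩ := IsPGroup.iff_card.mp P.isPGroup'
  have hk' : Nat.card ↥(P : Subgroup G) = p ^ k := hk
  have hpp : p.Prime := Fact.out
  interval_cases r
  · exact ⟨-d, swap h hm hP D hr.symm⟩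
  · exfalso
    rw [hk'] at hcY
    have a1 : p = 2 := by
      have : 2 ∣ p ^ k := by rw [← hcY]; norm_num
      exact ((Nat.prime_dvd_prime_iff_eq Nat.prime_two hpp).mp
        (Nat.prime_two.dvd_of_dvd_pow this)).symm
    have a2 : p = 5 := by
      have : 5 ∣ p ^ k := by rw [← hcY]; norm_num
      exact ((Nat.prime_dvd_prime_iff_eq Nat.prime_five hpp).mp
        (Nat.prime_five.dvd_of_dvd_pow this)).symm
    omega
  · exfalso
    have hS : (∑ χ, if χ ∈ Xset M ζ then A χ ^ 2 else 0) = 1 := by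
      push_cast at h1
      linear_combination h1 - 2 * hd2
    obtain ⟨ψ₁, hψ₁⟩ := exists_ne_one h (by omega)
    have hp1 : ¬ p ∣ orderOf (1 : G) := by
      rw [orderOf_one]; exact hpp.one_lt.ne' ∘ Nat.dvd_one.mp
    have h3 := reg_rel D (η := ζ ψ₁) ⟨ψ₁, hψ₁, rfl⟩ 1 hp1
    rw [← hr] at h3
    have h4 : ∑ χ, (if χ ∈ Xset M ζ then (A χ : ℂ) * (χ : G → ℂ) 1 else 0) = 1 := by
      rw [Finset.sum_eq_single (irrOne G)]
      · rw [if_pos (one_mem_X h D), D.hAone]
        simp [irrOne]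
      · intro χ _ hχ
        rw [if_neg]
        intro hX
        have h0 := X_ne_zero h D (by omega) hX
        have h5 : 0 < A χ ^ 2 := by positivity
        have h6 := Finset.add_le_sum (f := fun χ => if χ ∈ Xset M ζ then A χ ^ 2 else 0)
          (s := Finset.univ) (fun χ _ => by
            split_ifs
            · positivity
            · exact le_refl _) (Finset.mem_univ (irrOne G)) (Finset.mem_univ χ) hχ.symm
        beta_reduce at h6
        rw [if_pos (one_mem_X h D), if_pos hX, D.hAone, hS] at h6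
        omega
      · intro h'; exact absurd (Finset.mem_univ _) h'
    rw [h4, ← charDegree_eq] at h3
    have h5 : (4 * d - d) * (charDegree (ζ ψ₁ : G → ℂ) : ℤ) + 1 = 0 := by
      exact_mod_cast h3
    rcases D.hδ with h' | h' <;> rw [h'] at h5 <;> omega

end Cfsg.Agent.Lib.Helper59BLNorm
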