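import Mathlib
import Cfsg.Prelude.Def_Blocks
import Cfsg.Agent.Lib.Helper59BLIdx2

set_option autoImplicit false
set_option linter.unusedSectionVars false

/-!
# Multiplicities of principal block characters, self-centralising Sylow subgroup
-/

namespace Cfsg.Agent.Lib.Helper59BLMult

open Cfsg Subgroup
open Cfsg.Agent.Lib.Helper81Base Cfsg.Agent.Lib.Helper81Block Cfsg.Agent.Lib.Helper82Linear
  Cfsg.Agent.Lib.Helper59BLDual
  Cfsg.Agent.Lib.Helper59BLGram Cfsg.Agent.Lib.Helper59BLTw Cfsg.Agent.Lib.Helper59BLStruct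
  Cfsg.Agent.Lib.Helper59BLSec Cfsg.Agent.Lib.Helper59BLFin
open scoped ComplexConjugate

/-- a combination of linear characters vanishing off the identity has constant coefficients. -/
theorem coeff_const {A : Type*} [Group A] [Fintype A] [Fintype (A →* ℂˣ)]
    (b : (A →* ℂˣ) → ℂ) (hb : ∀ y : A, y ≠ 1 → ∑ ψ : A →* ℂˣ, b ψ * ((ψ y : ℂˣ) : ℂ) = 0)
    (ψ ψ' : A →* ℂˣ) : b ψ = b ψ' := by
  classical
  have hc : (Nat.card A : ℂ) ≠ 0 := by exact_mod_cast Nat.card_pos.ne'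
  have key : ∀ φ : A →* ℂˣ, b φ * (Nat.card A : ℂ) = ∑ ψ : A →* ℂˣ, b ψ := by
    intro φ
    have h1 : ∑ y : A, (∑ ψ : A →* ℂˣ, b ψ * ((ψ y : ℂˣ) : ℂ)) * conj ((φ y : ℂˣ) : ℂ)
        = b φ * (Nat.card A : ℂ) := by
      simp only [Finset.sum_mul]
      rw [Finset.sum_comm]
      simp only [mul_assoc, ← Finset.mul_sum, orth_hom]
      rw [Finset.sum_eq_single φ]
      · rw [if_pos rfl]
      · intro ψ _ hψ
        rw [if_neg hψ, mul_zero]
      · intro h'; exact absurd (Finset.mem_univ _) h'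
    rw [← h1, Finset.sum_eq_single (1 : A)]
    · simp
    · intro y _ hy
      rw [hb y hy, zero_mul]
    · intro h'; exact absurd (Finset.mem_univ _) h'
  have := (key ψ).trans (key ψ').symm
  exact mul_right_cancel₀ hc this

variable {G : Type*} [Group G] [Fintype G] {p : ℕ} [Fact p.Prime] {M : Ideal AlgInt}
  {P : Sylow p G} [Fintype ↥(P : Subgroup G)] [Fintype (normalizer ((P : Subgroup G) : Set G))]
  [Fintype (↥(P : Subgroup G) →* ℂˣ)]

variable {m : ℕ} {δ d : ℤ} {ζ : (↥(P : Subgroup G) →* ℂˣ) → IrrCharacter G}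
  {A : IrrCharacter G → ℤ}

/-- characters outside the principal block vanish on `P#` if `P` is self-centralising. -/
theorem out_vanish (h : BL p M P)
    (hC : ∀ y : G, y ∈ (P : Subgroup G) → y ≠ 1 →
      Nat.card (centralizer ({y} : Set G)) = Nat.card ↥(P : Subgroup G))
    (χ : IrrCharacter G) (hχ : χ ∉ principalBlock M G) (y : ↥(P : Subgroup G)) (hy : y ≠ 1) :
    (χ : G → ℂ) y = 0 := by
  classical
  have hy1 : (y : G) ≠ 1 := fun h1 => hy (Subtype.ext h1)
  have h1 := Cfsg.Agent.Lib.Helper4Char2.col_orth (y : G) (y : G)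
  rw [if_pos (IsConj.refl _), hC y y.2 hy1] at h1
  have h2 := gram_elem h y y hy
  rw [if_pos (IsConj.refl _)] at h2
  have h3 : ∑ χ : IrrCharacter G, (if χ ∈ principalBlock M G then (0 : ℝ)
      else Complex.normSq ((χ : G → ℂ) y)) = 0 := by
    have : ((∑ χ : IrrCharacter G, (if χ ∈ principalBlock M G then (0 : ℝ)
      else Complex.normSq ((χ : G → ℂ) y)) : ℝ) : ℂ) = 0 := by
      push_cast
      have e : ∀ χ : IrrCharacter G, ((if χ ∈ principalBlock M G then (0 : ℝ)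
          else Complex.normSq ((χ : G → ℂ) y) : ℝ) : ℂ)
          = (χ : G → ℂ) y * conj ((χ : G → ℂ) y) - (if χ ∈ principalBlock M G then
            (χ : G → ℂ) y * conj ((χ : G → ℂ) y) else 0) := by
        intro χ
        split_ifs
        · simp
        · rw [Complex.mul_conj]; simp
      rw [Finset.sum_congr rfl (fun χ _ => e χ), Finset.sum_sub_distrib, h1, h2, sub_self]
    exact_mod_cast this
  have h4 := (Finset.sum_eq_zero_iff_of_nonneg (fun χ _ => by
    split_ifs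
    · exact le_refl _
    · exact Complex.normSq_nonneg _)).mp h3 χ (Finset.mem_univ _)
  rw [if_neg hχ] at h4
  exact Complex.normSq_eq_zero.mp h4

open scoped Classical in
/-- uniform value formula on `P#`. -/
theorem val_all (h : BL p M P)
    (hC : ∀ y : G, y ∈ (P : Subgroup G) → y ≠ 1 →
      Nat.card (centralizer ({y} : Set G)) = Nat.card ↥(P : Subgroup G))
    (D : BLData M P m δ d ζ A) (χ : IrrCharacter G) (y : ↥(P : Subgroup G)) (hy : y ≠ 1) :
    (χ : G → ℂ) y = (A χ : ℂ) + (δ : ℂ) *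
      ∑ ψ : ↥(P : Subgroup G) →* ℂˣ, (if ψ ≠ 1 ∧ ζ ψ = χ then ((ψ y : ℂˣ) : ℂ) else 0) := by
  by_cases hχ : χ ∈ principalBlock M G
  · exact D.hval χ hχ y hy
  · rw [out_vanish h hC χ hχ y hy, D.hout χ hχ, Finset.sum_eq_zero]
    · simp
    · intro ψ _
      rw [if_neg]
      rintro ⟨h1, h2⟩
      exact hχ (h2 ▸ D.hmem ψ h1)

open scoped Classical in
/-- the key relation between multiplicities. -/
theorem key (h : BL p M P)
    (hC : ∀ y : G, y ∈ (P : Subgroup G) → y ≠ 1 →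
      Nat.card (centralizer ({y} : Set G)) = Nat.card ↥(P : Subgroup G))
    (D : BLData M P m δ d ζ A) (Ξ : G → ℂ) (hΞ : IsClassFunction G Ξ) (v w : ℂ)
    (ψ₀ : ↥(P : Subgroup G) →* ℂˣ) (hψ₀ : ψ₀ ≠ 1)
    (hval : ∀ y : ↥(P : Subgroup G), y ≠ 1 → Ξ y = v + w *
      ∑ ψ' : ↥(P : Subgroup G) →* ℂˣ, (if Rel P ψ₀ ψ' then ((ψ' y : ℂˣ) : ℂ) else 0))
    (ψ : ↥(P : Subgroup G) →* ℂˣ) (hψ : ψ ≠ 1) :
    (δ : ℂ) * classInner Ξ (ζ ψ : G → ℂ)
      = (∑ χ : IrrCharacter G, (A χ : ℂ) * classInner Ξ (χ : G → ℂ)) - v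
        + w * ind (Rel P ψ₀ ψ) := by
  set S : ℂ := ∑ χ : IrrCharacter G, (A χ : ℂ) * classInner Ξ (χ : G → ℂ) with hS
  set b : (↥(P : Subgroup G) →* ℂˣ) → ℂ := fun ψ => if ψ = 1 then 0 else
    (δ : ℂ) * classInner Ξ (ζ ψ : G → ℂ) - (S - v) - w * ind (Rel P ψ₀ ψ) with hb
  have hnr : ¬ Rel P ψ₀ 1 := fun hr => (ne_one_of_rel P hr hψ₀) rfl
  have hb0 : ∀ y : ↥(P : Subgroup G), y ≠ 1 →
      ∑ ψ : ↥(P : Subgroup G) →* ℂˣ, b ψ * ((ψ y : ℂˣ) : ℂ) = 0 := by
    intro y hy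
    have e1 : Ξ y = S + (δ : ℂ) * ∑ ψ : ↥(P : Subgroup G) →* ℂˣ,
        (if ψ ≠ 1 then classInner Ξ (ζ ψ : G → ℂ) * ((ψ y : ℂˣ) : ℂ) else 0) := by
      conv_lhs => rw [Cfsg.Agent.Lib.Helper4Char.classFunction_eq_sum Ξ hΞ]
      rw [Finset.sum_apply]
      simp only [Pi.smul_apply, smul_eq_mul]
      rw [Finset.sum_congr rfl (fun χ _ => by rw [val_all h hC D χ y hy, mul_add])]
      rw [Finset.sum_add_distrib, hS]
      congr 1
      · apply Finset.sum_congr rfl
        intro χ _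
        ring
      · have e2 : ∀ χ : IrrCharacter G, classInner Ξ (χ : G → ℂ) * ((δ : ℂ) *
            ∑ ψ : ↥(P : Subgroup G) →* ℂˣ, (if ψ ≠ 1 ∧ ζ ψ = χ then ((ψ y : ℂˣ) : ℂ) else 0))
            = (δ : ℂ) * ∑ ψ : ↥(P : Subgroup G) →* ℂˣ, (if ζ ψ = χ then
              (if ψ ≠ 1 then classInner Ξ (ζ ψ : G → ℂ) * ((ψ y : ℂˣ) : ℂ) else 0) else 0) := by
          intro χ
          rw [mul_left_comm, Finset.mul_sum]
          congr 1
          apply Finset.sum_congr rfl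
          intro ψ _
          by_cases h1 : ζ ψ = χ
          · by_cases h2 : ψ ≠ 1
            · rw [if_pos ⟨h2, h1⟩, if_pos h1, if_pos h2, h1]
            · rw [if_neg (fun h' => h2 h'.1), if_pos h1, if_neg h2, mul_zero]
          · rw [if_neg (fun h' => h1 h'.2), if_neg h1, mul_zero]
        rw [Finset.sum_congr rfl (fun χ _ => e2 χ), ← Finset.mul_sum, Finset.sum_comm]
        congr 1
        apply Finset.sum_congr rfl
        intro ψ _
        rw [Finset.sum_ite_eq, if_pos (Finset.mem_univ _)]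
    have e3 : ∀ ψ : ↥(P : Subgroup G) →* ℂˣ, b ψ * ((ψ y : ℂˣ) : ℂ)
        = (δ : ℂ) * (if ψ ≠ 1 then classInner Ξ (ζ ψ : G → ℂ) * ((ψ y : ℂˣ) : ℂ) else 0)
          - (S - v) * (((ψ y : ℂˣ) : ℂ) - (if ψ = 1 then 1 else 0))
          - w * (if Rel P ψ₀ ψ then ((ψ y : ℂˣ) : ℂ) else 0) := by
      intro ψ
      by_cases h1 : ψ = 1
      · subst h1
        simp [hb, hnr]
      · simp only [hb, if_neg h1, ne_eq, h1, not_false_eq_true, if_true, if_false]
        by_cases h2 : Rel P ψ₀ ψ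
        · rw [ind_pos h2, if_pos h2]; ring
        · rw [ind_neg h2, if_neg h2]; ring
    rw [Finset.sum_congr rfl (fun ψ _ => e3 ψ), Finset.sum_sub_distrib, Finset.sum_sub_distrib,
      ← Finset.mul_sum, ← Finset.mul_sum, ← Finset.mul_sum, Finset.sum_sub_distrib,
      sum_dual_eq_zero h.hab hy, Finset.sum_ite_eq' Finset.univ, if_pos (Finset.mem_univ _)]
    have e4 := hval y hy
    rw [e1] at e4
    linear_combination e4
  have h1 := coeff_const b hb0 ψ 1
  simp only [hb, if_neg hψ, if_true] at h1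
  linear_combination h1

open scoped Classical in
/-- splitting a sum over all irreducible characters in three parts. -/
theorem sum_split3 {β : Type*} [AddCommMonoid β] (f : IrrCharacter G → β) :
    ∑ χ, f χ = (∑ χ, if χ ∈ Xset M ζ then f χ else 0) + (∑ χ, if χ ∈ Yset ζ then f χ else 0)
      + ∑ χ, if χ ∈ Xset M ζ ∨ χ ∈ Yset ζ then 0 else f χ := by
  rw [← Finset.sum_add_distrib, ← Finset.sum_add_distrib]
  apply Finset.sum_congr rfl
  intro χ _
  by_cases hY : χ ∈ Yset ζ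
  · rw [if_pos hY, if_neg (fun h' : χ ∈ Xset M ζ => h'.2 hY), if_pos (Or.inr hY)]
    simp
  · by_cases hX : χ ∈ Xset M ζ
    · rw [if_pos hX, if_neg hY, if_pos (Or.inl hX)]
      simp
    · rw [if_neg hX, if_neg hY, if_neg (by tauto)]
      simp

open scoped Classical in
theorem sum_X_two {β : Type*} [AddCommMonoid β] {χ₁ : IrrCharacter G} (h1 : χ₁ ≠ irrOne G)
    (hX : Xset M ζ = {irrOne G, χ₁}) (F : IrrCharacter G → β) :
    (∑ χ, if χ ∈ Xset M ζ then F χ else 0) = F (irrOne G) + F χ₁ := by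
  have e4 : (∑ χ : IrrCharacter G, if χ ∈ Xset M ζ then F χ else 0)
      = ∑ χ : IrrCharacter G, if χ ∈ ({irrOne G, χ₁} : Finset (IrrCharacter G))
          then F χ else 0 := by
    apply Finset.sum_congr rfl
    intro χ _
    by_cases hχ : χ ∈ Xset M ζ
    · rw [if_pos hχ, if_pos]
      rw [hX] at hχ
      simpa using hχ
    · rw [if_neg hχ, if_neg]
      intro h'
      apply hχ
      rw [hX]
      simpa using h'
  rw [e4, Finset.sum_ite_mem, Finset.univ_inter, Finset.sum_pair h1.symm]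

open scoped Classical in
theorem sum_Y_eq {β : Type*} [AddCommMonoid β] (F : IrrCharacter G → β) (c : β)
    (hF : ∀ χ ∈ Yset ζ, F χ = c) :
    (∑ χ : IrrCharacter G, if χ ∈ Yset ζ then F χ else 0) = Nat.card (Yset ζ) • c := by
  rw [← sum_Y_const]
  apply Finset.sum_congr rfl
  intro χ _
  split_ifs with hY
  · exact hF χ hY
  · rfl

/-- sums against `A` when `X = {1, χ₁}` and `d = 0`. -/
theorem sum_A_two (D : BLData M P m δ 0 ζ A) {χ₁ : IrrCharacter G}
    (h1 : χ₁ ≠ irrOne G) (hX : Xset M ζ = {irrOne G, χ₁}) (F : IrrCharacter G → ℂ) :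
    ∑ χ, (A χ : ℂ) * F χ = F (irrOne G) + (A χ₁ : ℂ) * F χ₁ := by
  classical
  rw [sum_split D (fun χ => (A χ : ℂ) * F χ) (fun χ hχ => by rw [D.hout χ hχ]; simp)]
  have e2 : (∑ χ : IrrCharacter G, if χ ∈ Yset ζ then (A χ : ℂ) * F χ else 0) = 0 := by
    apply Finset.sum_eq_zero
    intro χ _
    split_ifs with hY
    · rw [A_of_mem_Y D hY]; simp
    · rfl
  rw [e2, add_zero, sum_X_two h1 hX, D.hAone]
  simp

end Cfsg.Agent.Lib.Helper59BLMult
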