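import Mathlib
import Cfsg.Prelude.Def_Blocks
import Cfsg.Agent.Lib.Helper59BLNorm
import Cfsg.Agent.Lib.Helper78Klein

set_option autoImplicit false
set_option linter.unusedSectionVars false

namespace Cfsg.Agent.Lib.Helper59BLOdd

open Cfsg Subgroup
open Cfsg.Agent.Lib.Helper81Base Cfsg.Agent.Lib.Helper81Block Cfsg.Agent.Lib.Helper82Linear
  Cfsg.Agent.Lib.Helper59BLDual Cfsg.Agent.Lib.Helper59BSChar
  Cfsg.Agent.Lib.Helper59BLGram Cfsg.Agent.Lib.Helper59BLTw Cfsg.Agent.Lib.Helper59BLStruct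
  Cfsg.Agent.Lib.Helper59BLSec Cfsg.Agent.Lib.Helper59BLFin Cfsg.Agent.Lib.Helper59BLInv
  Cfsg.Agent.Lib.Helper59BLThree Cfsg.Agent.Lib.Helper59BLTwo Cfsg.Agent.Lib.Helper59BLArith
open scoped ComplexConjugate

variable {G : Type*} [Group G] [Fintype G] {p : ℕ} [Fact p.Prime] {M : Ideal AlgInt}
  {P : Sylow p G} [Fintype ↥(P : Subgroup G)] [Fintype (normalizer ((P : Subgroup G) : Set G))]
  [Fintype (↥(P : Subgroup G) →* ℂˣ)]

variable {δ : ℤ} {ζ : (↥(P : Subgroup G) →* ℂˣ) → IrrCharacter G}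
  {A : IrrCharacter G → ℤ}

/-- an element lying in no proper normal subgroup is outside the kernel of every nonprincipal
irreducible character. -/
theorem ne_of_no_proper (t : G) (hK : ∀ K : Subgroup G, K.Normal → t ∈ K → K = ⊤)
    (χ : IrrCharacter G) (hχ : χ ≠ irrOne G) : (χ : G → ℂ) t ≠ (χ : G → ℂ) 1 := by
  classical
  intro heq
  have htop := hK (Cfsg.Agent.Lib.Helper82Quot.charKer (Cfsg.Agent.Lib.Helper82Irr.irr_isCharacter χ))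
    inferInstance heq
  have hall : ∀ g : G, (χ : G → ℂ) g = (χ : G → ℂ) 1 := by
    intro g
    have : g ∈ Cfsg.Agent.Lib.Helper82Quot.charKer
        (Cfsg.Agent.Lib.Helper82Irr.irr_isCharacter χ) := by rw [htop]; exact mem_top g
    exact this
  have h1 := irr_orth χ (irrOne G)
  rw [if_neg hχ] at h1
  have e : ∀ g : G, (χ : G → ℂ) g * conj (((irrOne G : IrrCharacter G) : G → ℂ) g)
      = (χ : G → ℂ) 1 := by
    intro g
    rw [hall g]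
    simp [irrOne]
  simp only [e, Finset.sum_const, Finset.card_univ, nsmul_eq_mul] at h1
  rcases mul_eq_zero.mp h1 with h2 | h2
  · have : (Fintype.card G : ℂ) ≠ 0 := by exact_mod_cast Fintype.card_ne_zero
    exact this h2
  · exact irr_one_ne_zero χ h2

/-- **The case of odd `p`.** -/
theorem odd_case (h : BL p M P)
    (hm : (centralizer ((P : Subgroup G) : Set G)).relIndex
      (normalizer ((P : Subgroup G) : Set G)) = 3) (hp : p ≠ 2) (D : BLData M P 3 δ 0 ζ A)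
    {χ₂ χ₃ : IrrCharacter G}
    (h2 : χ₂ ≠ irrOne G) (h3 : χ₃ ≠ irrOne G) (h23 : χ₂ ≠ χ₃)
    (hX : Xset M ζ = {irrOne G, χ₂, χ₃}) (hA2 : A χ₂ = 1 ∨ A χ₂ = -1)
    (hA3 : A χ₃ = 1 ∨ A χ₃ = -1) (t : G) (ht : orderOf t = 2)
    (hK : ∀ K : Subgroup G, K.Normal → t ∈ K → K = ⊤)
    (ψ : ↥(P : Subgroup G) →* ℂˣ) (hψ : ψ ≠ 1) :
    A χ₂ + A χ₃ + -δ = -1 ∧ IsSquare ((charDegree (χ₂ : G → ℂ) : ℤ) * charDegree (χ₃ : G → ℂ)
      * charDegree (ζ ψ : G → ℂ)) := by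
  classical
  have hpp : p.Prime := Fact.out
  have ht2 : t * t = 1 := by
    have := pow_orderOf_eq_one t
    rw [ht, pow_two] at this
    exact this
  have hp1 : ¬ p ∣ orderOf (1 : G) := by
    rw [orderOf_one]; exact hpp.one_lt.ne' ∘ Nat.dvd_one.mp
  have hpt : ¬ p ∣ orderOf t := by
    rw [ht]
    intro hd
    exact hp ((Nat.prime_dvd_prime_iff_eq hpp Nat.prime_two).mp hd)
  have hΘ1 := theta_regular D ψ hψ 1 hp1
  have hΘt := theta_regular D ψ hψ t hpt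
  have hΘprod : ∀ x : G, ∑ χ, cvec δ ζ A ψ χ * (χ : G → ℂ) (t * (x * t * x⁻¹)) = 0 :=
    fun x => theta_regular D ψ hψ _ (regular_of_invol h hm hp t x ht2)
  have hrel := theta_relation (cvec δ ζ A ψ) t hΘ1 hΘt hΘprod
  rw [sum_cvec, sum_A_three D h2 h3 h23 hX] at hrel hΘ1 hΘt
  obtain ⟨τ₂, hτ₂⟩ := Cfsg.Agent.Lib.Helper78Klein.exists_int_involution χ₂ ht
  obtain ⟨τ₃, hτ₃⟩ := Cfsg.Agent.Lib.Helper78Klein.exists_int_involution χ₃ ht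
  obtain ⟨τ, hτ⟩ := Cfsg.Agent.Lib.Helper78Klein.exists_int_involution (ζ ψ) ht
  have n2 := ne_of_no_proper t hK χ₂ h2
  have n3 := ne_of_no_proper t hK χ₃ h3
  have nf := ne_of_no_proper t hK (ζ ψ) (D.hone ψ hψ)
  have e1 : ∀ g : G, ((irrOne G : IrrCharacter G) : G → ℂ) g = 1 := fun g => rfl
  rw [e1, e1] at hrel
  rw [e1] at hΘ1 hΘt
  set f₂ := charDegree (χ₂ : G → ℂ) with hf₂
  set f₃ := charDegree (χ₃ : G → ℂ) with hf₃
  set f := charDegree (ζ ψ : G → ℂ) with hf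
  rw [← charDegree_eq χ₂, ← hf₂, hτ₂] at n2
  rw [← charDegree_eq χ₃, ← hf₃, hτ₃] at n3
  rw [← charDegree_eq (ζ ψ), ← hf, hτ] at nf
  rw [← charDegree_eq χ₂, ← charDegree_eq χ₃, ← charDegree_eq (ζ ψ), ← hf₂, ← hf₃, ← hf]
    at hrel hΘ1
  rw [hτ₂, hτ₃, hτ] at hrel hΘt
  have p2 : 0 < f₂ := charDegree_pos χ₂
  have p3 : 0 < f₃ := charDegree_pos χ₃
  have pf : 0 < f := charDegree_pos (ζ ψ)
  have E1 : 1 + A χ₂ * (f₂ : ℤ) + A χ₃ * (f₃ : ℤ) + -δ * (f : ℤ) = 0 := by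
    have : (1 : ℂ) + (A χ₂ : ℂ) * f₂ + (A χ₃ : ℂ) * f₃ + -(δ : ℂ) * f = 0 := by
      linear_combination hΘ1
    exact_mod_cast this
  have E2 : A χ₂ * ((f₂ : ℤ) - τ₂) + A χ₃ * ((f₃ : ℤ) - τ₃) + -δ * ((f : ℤ) - τ) = 0 := by
    have : (A χ₂ : ℂ) * ((f₂ : ℂ) - τ₂) + (A χ₃ : ℂ) * ((f₃ : ℂ) - τ₃) + -(δ : ℂ) * ((f : ℂ) - τ)
        = 0 := by
      linear_combination hΘ1 - hΘt
    exact_mod_cast this
  have E3 : A χ₂ * ((f₂ : ℤ) - τ₂) ^ 2 * ((f₃ : ℤ) * f) + A χ₃ * ((f₃ : ℤ) - τ₃) ^ 2 * ((f₂ : ℤ) * f)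
      + -δ * ((f : ℤ) - τ) ^ 2 * ((f₂ : ℤ) * f₃) = 0 := by
    have c2 : (f₂ : ℂ) ≠ 0 := by exact_mod_cast p2.ne'
    have c3 : (f₃ : ℂ) ≠ 0 := by exact_mod_cast p3.ne'
    have cf : (f : ℂ) ≠ 0 := by exact_mod_cast pf.ne'
    have hc : (A χ₂ : ℂ) * ((f₂ : ℂ) - τ₂) ^ 2 * ((f₃ : ℂ) * f)
        + (A χ₃ : ℂ) * ((f₃ : ℂ) - τ₃) ^ 2 * ((f₂ : ℂ) * f)
        + -(δ : ℂ) * ((f : ℂ) - τ) ^ 2 * ((f₂ : ℂ) * f₃) = 0 := by
      have := congrArg (fun z => z * ((f₂ : ℂ) * f₃ * f)) hrel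
      simp only [zero_mul] at this
      rw [← this]
      field_simp
      ring
    exact_mod_cast hc
  have hδ' : -δ = 1 ∨ -δ = -1 := by
    rcases D.hδ with h' | h' <;> rw [h'] <;> norm_num
  exact arith_odd f₂ f₃ f ((f₂ : ℤ) - τ₂) ((f₃ : ℤ) - τ₃) ((f : ℤ) - τ) (A χ₂) (A χ₃) (-δ)
    (by exact_mod_cast p2) (by exact_mod_cast p3) (by exact_mod_cast pf) hA2 hA3 hδ'
    (fun h' => n2 (by
      have : (τ₂ : ℤ) = f₂ := by linarith
      exact_mod_cast this))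
    (fun h' => n3 (by
      have : (τ₃ : ℤ) = f₃ := by linarith
      exact_mod_cast this))
    (fun h' => nf (by
      have : (τ : ℤ) = f := by linarith
      exact_mod_cast this)) E1 E2 E3

end Cfsg.Agent.Lib.Helper59BLOdd
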