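import Mathlib
import Cfsg.Prelude.Def_Blocks
import Cfsg.Agent.Lib.Helper59BLMult

set_option autoImplicit false
set_option linter.unusedSectionVars false

/-!
# Sylow `p`-subgroup of order `p`, self-centralising, with `|N(P)| = 2p`
-/

namespace Cfsg.Agent.Lib.Helper59E2

open Cfsg Subgroup
open Cfsg.Agent.Lib.Helper81Base Cfsg.Agent.Lib.Helper81Block Cfsg.Agent.Lib.Helper82Linear
  Cfsg.Agent.Lib.Helper59BLDual
  Cfsg.Agent.Lib.Helper59BLGram Cfsg.Agent.Lib.Helper59BLTw Cfsg.Agent.Lib.Helper59BLStruct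
  Cfsg.Agent.Lib.Helper59BLSec Cfsg.Agent.Lib.Helper59BLFin Cfsg.Agent.Lib.Helper59BLMult
  Cfsg.Agent.Lib.Helper4Char Cfsg.Agent.Lib.Helper4Char4
open scoped ComplexConjugate

variable {G : Type*} [Group G] [Fintype G] {p : ℕ} [Fact p.Prime] {M : Ideal AlgInt}
  {P : Sylow p G} [Fintype ↥(P : Subgroup G)] [Fintype (normalizer ((P : Subgroup G) : Set G))]
  [Fintype (↥(P : Subgroup G) →* ℂˣ)]

theorem bl_of_prime_card (hM : IsPModular p M) (P : Sylow p G)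
    (hP : Nat.card (P : Subgroup G) = p) : BL p M P := by
  have hcyc : IsCyclic (P : Subgroup G) := isCyclic_of_prime_card hP
  refine ⟨hM, ?_, ?_⟩
  · exact hcyc.isMulCommutative
  · intro y hy hy1
    apply le_antisymm
    · intro g hg
      have hg1 : g ∈ centralizer ({y} : Set G) := (Subgroup.mem_inf.mp hg).1
      rw [mem_centralizer_iff]
      intro x hx
      have hmem : (⟨x, hx⟩ : (P : Subgroup G)) ∈ zpowers (⟨y, hy⟩ : (P : Subgroup G)) :=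
        mem_zpowers_of_prime_card hP (fun h => hy1 (congrArg Subtype.val h))
      obtain ⟨k, hk⟩ := hmem
      have hk' : y ^ k = x := by
        have := congrArg Subtype.val hk
        simpa using this
      rw [mem_centralizer_singleton_iff] at hg1
      have hc : Commute g y := hg1
      rw [← hk']
      exact (hc.zpow_right k).eq.symm
    · exact le_inf (centralizer_le (Set.singleton_subset_iff.mpr hy)) centralizer_le_normalizer'

/-- the context. -/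
structure Ctx (M : Ideal AlgInt) (P : Sylow p G) [Fintype ↥(P : Subgroup G)]
    [Fintype (↥(P : Subgroup G) →* ℂˣ)] (δ : ℤ)
    (ζ : (↥(P : Subgroup G) →* ℂˣ) → IrrCharacter G) (A : IrrCharacter G → ℤ)
    (χ₁ : IrrCharacter G) : Prop where
  h : BL p M P
  hC : ∀ y : G, y ∈ (P : Subgroup G) → y ≠ 1 →
      Nat.card (centralizer ({y} : Set G)) = Nat.card ↥(P : Subgroup G)
  D : BLData M P 2 δ 0 ζ A
  hχ₁ : χ₁ ≠ irrOne G
  hX : Xset M ζ = {irrOne G, χ₁}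
  hP : 1 < Nat.card ↥(P : Subgroup G)

variable {δ : ℤ} {ζ : (↥(P : Subgroup G) →* ℂˣ) → IrrCharacter G}
  {A : IrrCharacter G → ℤ} {χ₁ : IrrCharacter G}

open scoped Classical in
/-- the sum of the exceptional characters. -/
noncomputable def YS (ζ : (↥(P : Subgroup G) →* ℂˣ) → IrrCharacter G) (g : G) : ℂ :=
  ∑ χ : IrrCharacter G, if χ ∈ Yset ζ then (χ : G → ℂ) g else 0

theorem YS_regular (c : Ctx M P δ ζ A χ₁) {η₀ : IrrCharacter G} (hη₀ : η₀ ∈ Yset ζ) (g : G)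
    (hg : ¬ p ∣ orderOf g) : YS ζ g = (Nat.card (Yset ζ) : ℂ) * (η₀ : G → ℂ) g := by
  classical
  unfold YS
  rw [sum_Y_eq (fun χ => (χ : G → ℂ) g) ((η₀ : G → ℂ) g)
    (fun χ hχ => Y_agree c.D hχ hη₀ g hg), nsmul_eq_mul]

/-- the relation on `p`-regular elements. -/
theorem rel_regular (c : Ctx M P δ ζ A χ₁) {η₀ : IrrCharacter G} (hη₀ : η₀ ∈ Yset ζ) (g : G)
    (hg : ¬ p ∣ orderOf g) :
    (δ : ℂ) * (η₀ : G → ℂ) g = 1 + (A χ₁ : ℂ) * (χ₁ : G → ℂ) g := by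
  classical
  have h1 := reg_rel c.D hη₀ g hg
  rw [sum_X_two c.hχ₁ c.hX (fun χ => (A χ : ℂ) * (χ : G → ℂ) g), c.D.hAone] at h1
  have h2 : ((irrOne G : IrrCharacter G) : G → ℂ) g = 1 := rfl
  rw [h2] at h1
  push_cast at h1
  linear_combination -h1

theorem exists_Y (c : Ctx M P δ ζ A χ₁) : ∃ η₀, η₀ ∈ Yset ζ := by
  obtain ⟨ψ, hψ⟩ := exists_ne_one c.h c.hP
  exact ⟨ζ ψ, ψ, hψ, rfl⟩

open scoped Classical in
/-- decomposition of a character which is constant on `P#`. -/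
theorem decomp (c : Ctx M P δ ζ A χ₁) {Ξ : G → ℂ} (hΞ : IsCharacter G Ξ) (v : ℂ)
    (hv : ∀ y : ↥(P : Subgroup G), y ≠ 1 → Ξ y = v) :
    ∃ (n1 nχ k out : ℕ) (Out : G → ℂ),
      classInner Ξ (irrOne G : G → ℂ) = n1 ∧ classInner Ξ (χ₁ : G → ℂ) = nχ ∧
      (∀ η ∈ Yset ζ, classInner Ξ (η : G → ℂ) = k) ∧
      (δ : ℂ) * k = n1 + (A χ₁ : ℂ) * nχ - v ∧
      Out 1 = out ∧ (out = 0 → ∀ g, Out g = 0) ∧
      ∀ g, Ξ g = n1 + nχ * (χ₁ : G → ℂ) g + k * YS ζ g + Out g := by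
  obtain ⟨m, hm1, hm2⟩ := IsCharacter.eq_sum_nat hΞ
  obtain ⟨ψ₀, hψ₀⟩ := exists_ne_one c.h c.hP
  have hδ0 : (δ : ℂ) ≠ 0 := by
    rcases c.D.hδ with h' | h' <;> rw [h'] <;> norm_num
  have hkey : ∀ ψ, ψ ≠ 1 → (δ : ℂ) * (m (ζ ψ) : ℂ)
      = (m (irrOne G) : ℂ) + (A χ₁ : ℂ) * (m χ₁ : ℂ) - v := by
    intro ψ hψ
    have h1 := key c.h c.hC c.D Ξ (IsCharacter.isClassFunction hΞ) v 0 ψ₀ hψ₀
      (fun y hy => by rw [hv y hy]; ring) ψ hψ
    rw [sum_A_two c.D c.hχ₁ c.hX (fun χ => classInner Ξ (χ : G → ℂ)), hm2, hm2, hm2] at h1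
    linear_combination h1
  have hk : ∀ η ∈ Yset ζ, m η = m (ζ ψ₀) := by
    rintro η ⟨ψ, hψ, rfl⟩
    have h1 := (hkey ψ hψ).trans (hkey ψ₀ hψ₀).symm
    exact_mod_cast mul_left_cancel₀ hδ0 h1
  refine ⟨m (irrOne G), m χ₁, m (ζ ψ₀),
    ∑ χ, (if χ ∈ Xset M ζ ∨ χ ∈ Yset ζ then 0 else m χ * charDegree (χ : G → ℂ)),
    fun g => ∑ χ, (if χ ∈ Xset M ζ ∨ χ ∈ Yset ζ then 0 else (m χ : ℂ) * (χ : G → ℂ) g),
    hm2 _, hm2 _, fun η hη => by rw [hm2, hk η hη], hkey ψ₀ hψ₀, ?_, ?_, ?_⟩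
  · push_cast
    apply Finset.sum_congr rfl
    intro χ _
    split_ifs
    · rfl
    · rw [charDegree_eq]
  · intro h0 g
    apply Finset.sum_eq_zero
    intro χ _
    split_ifs with hχ
    · rfl
    · have h1 := (Finset.sum_eq_zero_iff.mp h0) χ (Finset.mem_univ _)
      rw [if_neg hχ] at h1
      rcases Nat.mul_eq_zero.mp h1 with h2 | h2
      · rw [h2]; simp
      · exact absurd h2 (Cfsg.Agent.Lib.Helper82Irr.irr_charDegree_pos χ).ne'
  · intro g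
    conv_lhs => rw [hm1]
    rw [Finset.sum_apply]
    simp only [Pi.smul_apply, smul_eq_mul]
    rw [sum_split3 (M := M) (ζ := ζ) (fun χ => (m χ : ℂ) * (χ : G → ℂ) g),
      sum_X_two c.hχ₁ c.hX (fun χ => (m χ : ℂ) * (χ : G → ℂ) g)]
    have h2 : ((irrOne G : IrrCharacter G) : G → ℂ) g = 1 := rfl
    rw [h2, mul_one]
    congr 2
    unfold YS
    rw [Finset.mul_sum]
    apply Finset.sum_congr rfl
    intro χ _
    split_ifs with hχ
    · rw [hk χ hχ]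
    · simp

end Cfsg.Agent.Lib.Helper59E2
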