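import Mathlib
import Cfsg.Prelude.Def_Blocks
import Cfsg.Agent.Lib.Helper59E2
import Cfsg.Agent.Lib.Helper59BSGrp
import Cfsg.Agent.Lib.Helper81Orth
import Cfsg.Agent.Lib.Helper79GalConj
import Cfsg.Agent.Lib.Helper4Char3

set_option autoImplicit false
set_option linter.unusedSectionVars false

/-!
# `|P| = p`, `C(P) = P`, `|N(P)| = 2p`: values on `p`-singular elements, integrality
-/

namespace Cfsg.Agent.Lib.Helper59E2Int

open Cfsg Subgroup
open Cfsg.Agent.Lib.Helper81Base Cfsg.Agent.Lib.Helper81Block Cfsg.Agent.Lib.Helper82Linear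
  Cfsg.Agent.Lib.Helper59BLDual
  Cfsg.Agent.Lib.Helper59BLGram Cfsg.Agent.Lib.Helper59BLTw Cfsg.Agent.Lib.Helper59BLStruct
  Cfsg.Agent.Lib.Helper59BLSec Cfsg.Agent.Lib.Helper59BLFin Cfsg.Agent.Lib.Helper59BLMult
  Cfsg.Agent.Lib.Helper4Char Cfsg.Agent.Lib.Helper4Char4 Cfsg.Agent.Lib.Helper59E2
open scoped ComplexConjugate

variable {G : Type*} [Group G] [Fintype G] {p : ℕ} [Fact p.Prime] {M : Ideal AlgInt}
  {P : Sylow p G} [Fintype ↥(P : Subgroup G)] [Fintype (normalizer ((P : Subgroup G) : Set G))]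
  [Fintype (↥(P : Subgroup G) →* ℂˣ)]
  {δ : ℤ} {ζ : (↥(P : Subgroup G) →* ℂˣ) → IrrCharacter G}
  {A : IrrCharacter G → ℤ} {χ₁ : IrrCharacter G}

/-- values of the characters of the principal block on `p`-singular elements. -/
theorem sing_val (h : BL p M P) (g : G) (hg : p ∣ orderOf g) :
    ∃ y : ↥(P : Subgroup G), y ≠ 1 ∧ ∀ χ : IrrCharacter G, χ ∈ principalBlock M G →
      (χ : G → ℂ) g = (χ : G → ℂ) y := by
  have hp : p.Prime := Fact.out
  obtain ⟨x, hx⟩ := Cfsg.Agent.Lib.Helper81Orth.exists_ppart hp g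
  have hx1 : x ≠ 1 := by
    rintro rfl
    obtain ⟨y, h1, _, _, h4⟩ := hx
    rw [one_mul] at h1
    rw [h1] at h4
    exact h4 hg
  obtain ⟨v, hxv, hcv, ⟨k, hk⟩, hv⟩ := hx
  have hK : IsPGroup p (zpowers x) := IsPGroup.of_card (n := k) (by rw [Nat.card_zpowers, hk])
  obtain ⟨c, hc⟩ := Cfsg.Agent.Lib.Helper59BSGrp.exists_conj_le P _ hK
  have hcx := hc x (mem_zpowers x)
  refine ⟨⟨c * x * c⁻¹, hcx⟩, ?_, ?_⟩
  · intro h1
    have h2 : c * x * c⁻¹ = 1 := congrArg Subtype.val h1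
    apply hx1
    have : x = c⁻¹ * (c * x * c⁻¹) * c := by group
    rw [this, h2]; group
  · intro χ hχ
    have hcl := IsCharacter.isClassFunction (IsIrrCharacter.isCharacter χ.2) g c
    rw [← hcl]
    apply section_const h χ hχ _ _ _ hcx
    · intro h2
      apply hx1
      have : x = c⁻¹ * (c * x * c⁻¹) * c := by group
      rw [this, h2]; group
    · refine ⟨c * v * c⁻¹, ?_, ?_, ⟨k, ?_⟩, ?_⟩
      · rw [← hxv]; group
      · show c * x * c⁻¹ * (c * v * c⁻¹) = c * v * c⁻¹ * (c * x * c⁻¹)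
        have e1 : c * x * c⁻¹ * (c * v * c⁻¹) = c * (x * v) * c⁻¹ := by group
        have e2 : c * v * c⁻¹ * (c * x * c⁻¹) = c * (v * x) * c⁻¹ := by group
        rw [e1, e2, hcv.eq]
      · rw [Cfsg.Agent.Lib.Helper59BSGrp.orderOf_conj', hk]
      · rw [Cfsg.Agent.Lib.Helper59BSGrp.orderOf_conj']; exact hv

/-- the sum of the exceptional characters on `P#`. -/
theorem YS_P (c : Ctx M P δ ζ A χ₁) (y : ↥(P : Subgroup G)) (hy : y ≠ 1) :
    YS ζ (y : G) = -(δ : ℂ) := by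
  classical
  unfold YS
  have e1 : ∀ χ : IrrCharacter G, (if χ ∈ Yset ζ then (χ : G → ℂ) y else 0)
      = (δ : ℂ) * ∑ ψ : ↥(P : Subgroup G) →* ℂˣ,
        (if ζ ψ = χ then (if ψ ≠ 1 then ((ψ y : ℂˣ) : ℂ) else 0) else 0) := by
    intro χ
    split_ifs with hχ
    · rw [val_all c.h c.hC c.D χ y hy, A_of_mem_Y c.D hχ]
      simp only [Int.cast_zero, zero_add]
      congr 1
      apply Finset.sum_congr rfl
      intro ψ _
      by_cases h1 : ζ ψ = χ
      · by_cases h2 : ψ ≠ 1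
        · rw [if_pos ⟨h2, h1⟩, if_pos h1, if_pos h2]
        · rw [if_neg (fun h' => h2 h'.1), if_pos h1, if_neg h2]
      · rw [if_neg (fun h' => h1 h'.2), if_neg h1]
    · rw [Finset.sum_eq_zero, mul_zero]
      intro ψ _
      by_cases h1 : ζ ψ = χ
      · by_cases h2 : ψ ≠ 1
        · exact absurd ⟨ψ, h2, h1⟩ hχ
        · rw [if_pos h1, if_neg h2]
      · rw [if_neg h1]
  rw [Finset.sum_congr rfl (fun χ _ => e1 χ), ← Finset.mul_sum, Finset.sum_comm]
  have e2 : ∀ ψ : ↥(P : Subgroup G) →* ℂˣ, ∑ χ : IrrCharacter G,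
      (if ζ ψ = χ then (if ψ ≠ 1 then ((ψ y : ℂˣ) : ℂ) else 0) else 0)
      = ((ψ y : ℂˣ) : ℂ) - (if ψ = 1 then 1 else 0) := by
    intro ψ
    rw [Finset.sum_ite_eq, if_pos (Finset.mem_univ _)]
    by_cases h2 : ψ = 1
    · subst h2; simp
    · simp [h2]
  rw [Finset.sum_congr rfl (fun ψ _ => e2 ψ), Finset.sum_sub_distrib,
    sum_dual_eq_zero c.h.hab hy, Finset.sum_ite_eq' Finset.univ, if_pos (Finset.mem_univ _)]
  ring

theorem chi_sing (c : Ctx M P δ ζ A χ₁) (g : G) (hg : p ∣ orderOf g) :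
    (χ₁ : G → ℂ) g = (A χ₁ : ℂ) := by
  obtain ⟨y, hy, hval⟩ := sing_val c.h g hg
  have hX1 : χ₁ ∈ Xset M ζ := by rw [c.hX]; simp
  rw [hval χ₁ hX1.1, X_val c.D hX1 y hy]

theorem YS_sing (c : Ctx M P δ ζ A χ₁) (g : G) (hg : p ∣ orderOf g) :
    YS ζ g = -(δ : ℂ) := by
  classical
  obtain ⟨y, hy, hval⟩ := sing_val c.h g hg
  rw [← YS_P c y hy]
  unfold YS
  apply Finset.sum_congr rfl
  intro χ _
  split_ifs with hχ
  · exact hval χ (Yset_sub c.D hχ)
  · rfl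

/-- a character invariant under all power maps with exponent prime to the order is
integer valued. -/
theorem int_of_twist (χ : IrrCharacter G)
    (hfix : ∀ m : ℕ, m.Coprime (Nat.card G) → ∀ g : G, (χ : G → ℂ) (g ^ m) = (χ : G → ℂ) g)
    (g : G) : ∃ n : ℤ, (χ : G → ℂ) g = n := by
  obtain ⟨k, ρ, -, hρ⟩ := χ.2
  have hn : 0 < Nat.card G := Nat.card_pos
  have hG : ∀ g : G, g ^ Nat.card G = 1 := fun g => pow_card_eq_one'
  obtain ⟨q, hq⟩ := Cfsg.Agent.Lib.Helper5Galois.exists_rat_of_fixed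
    (Cfsg.Agent.Lib.Helper5Galois.charK ρ g) (by
      intro ψ
      obtain ⟨m, hm, hpow⟩ := Cfsg.Agent.Lib.Helper5Galois.exists_pow_of_ringHom (Nat.card G) hn ψ
      rw [Cfsg.Agent.Lib.Helper5Galois.apply_charK ρ (Nat.card G) hn hG ψ m hpow g,
        Cfsg.Agent.Lib.Helper5Galois.charK_coe, hρ]
      exact hfix m hm g)
  rw [Cfsg.Agent.Lib.Helper5Galois.charK_coe, hρ] at hq
  have hint : IsIntegral ℤ ((q : ℚ) : ℂ) := by
    rw [← hq, ← hρ]
    exact Cfsg.Agent.Lib.Helper4Eigen.char_isIntegral ρ g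
  obtain ⟨y, hy⟩ := Cfsg.Agent.Lib.Helper4Char3.exists_int_of_isIntegral_rat q hint
  refine ⟨y, ?_⟩
  rw [hq, ← hy]
  simp

theorem norm_le_degree (χ : IrrCharacter G) (g : G) :
    ‖(χ : G → ℂ) g‖ ≤ (charDegree (χ : G → ℂ) : ℝ) := by
  obtain ⟨k, ρ, -, hρ⟩ := χ.2
  have h1 := Cfsg.Agent.Lib.Helper4Eigen.norm_char_le ρ g
  have h2 : ((charDegree (χ : G → ℂ) : ℕ) : ℂ) = (Module.finrank ℂ (Fin k → ℂ) : ℂ) := by
    rw [charDegree_eq, ← hρ]
    simp [Representation.character]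
  have h3 : charDegree (χ : G → ℂ) = Module.finrank ℂ (Fin k → ℂ) := by exact_mod_cast h2
  rw [h3, ← hρ]
  exact h1

/-- the non-exceptional character is invariant under Galois twists. -/
theorem twist_eq (c : Ctx M P δ ζ A χ₁) (hdeg1 : charDegree (χ₁ : G → ℂ) ≠ 1)
    (hdegY : ∀ η ∈ Yset ζ, charDegree (η : G → ℂ) ≠ charDegree (χ₁ : G → ℂ))
    (m : ℕ) (hm : m.Coprime (Nat.card G)) (g : G) :
    (χ₁ : G → ℂ) (g ^ m) = (χ₁ : G → ℂ) g := by
  set τ : IrrCharacter G := ⟨fun g => (χ₁ : G → ℂ) (g ^ m),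
    Cfsg.Agent.Lib.Helper79GalConj.isIrrCharacter_pow χ₁.2 m hm⟩ with hτ
  have hτv : ∀ g, (τ : G → ℂ) g = (χ₁ : G → ℂ) (g ^ m) := fun _ => rfl
  have hX1 : χ₁ ∈ Xset M ζ := by rw [c.hX]; simp
  have hdeg : charDegree (τ : G → ℂ) = charDegree (χ₁ : G → ℂ) := by
    have : ((charDegree (τ : G → ℂ) : ℕ) : ℂ) = ((charDegree (χ₁ : G → ℂ) : ℕ) : ℂ) := by
      rw [charDegree_eq, charDegree_eq, hτv, one_pow]
    exact_mod_cast this
  have hmem : τ ∈ principalBlock M G := by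
    by_contra hcon
    have : Nontrivial ↥(P : Subgroup G) := Finite.one_lt_card_iff_nontrivial.mp c.hP
    obtain ⟨y, hy⟩ := exists_ne (1 : ↥(P : Subgroup G))
    have h1 := out_vanish c.h c.hC τ hcon y hy
    have hym : y ^ m ≠ 1 := by
      intro h2
      have h3 : orderOf y ∣ m := orderOf_dvd_of_pow_eq_one h2
      have h4 : orderOf y ∣ Nat.card G :=
        (orderOf_dvd_natCard y).trans (Subgroup.card_subgroup_dvd_card _)
      have h5 : orderOf y = 1 := Nat.eq_one_of_dvd_coprimes hm h3 h4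
      exact hy (orderOf_eq_one_iff.mp h5)
    have h2 := X_val c.D hX1 (y ^ m) hym
    rw [hτv] at h1
    have h3 : ((y ^ m : ↥(P : Subgroup G)) : G) = (y : G) ^ m := rfl
    rw [h3, h1] at h2
    exact X_ne_zero c.h c.D c.hP hX1 (by exact_mod_cast h2.symm)
  rw [union_eq c.D, c.hX] at hmem
  rcases hmem with h1 | h1
  · rcases h1 with h1 | h1
    · exfalso
      apply hdeg1
      rw [← hdeg, h1]
      have : ((charDegree ((irrOne G : IrrCharacter G) : G → ℂ) : ℕ) : ℂ) = ((1 : ℕ) : ℂ) := by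
        rw [charDegree_eq]; simp; rfl
      exact_mod_cast this
    · have h2 : τ = χ₁ := h1
      rw [← hτv, h2]
  · exact absurd hdeg (hdegY τ h1)

end Cfsg.Agent.Lib.Helper59E2Int
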