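import Mathlib
import Cfsg.Agent.Lib.Helper59Perm2

set_option autoImplicit false
set_option linter.unusedSectionVars false

/-!
# Permutation groups of prime degree: elementary facts
-/

namespace Cfsg.Agent.Lib.Helper59PrimeDeg

open Cfsg Subgroup Cfsg.Agent.Lib.Helper59Perm2

variable {α : Type*} [Fintype α] [DecidableEq α] {p : ℕ} [Fact p.Prime]

theorem no_fixed (hα : Fintype.card α = p) (σ : Equiv.Perm α) (hσ : orderOf σ = p) (a : α) :
    σ a ≠ a := by
  have hp : p.Prime := Fact.out
  have hc : σ.IsCycle := Equiv.Perm.isCycle_of_prime_order'' (by rw [hα]; exact hp)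
    (by rw [hσ, hα])
  have h1 := hc.orderOf
  rw [hσ, ← hα] at h1
  have h2 : σ.support = Finset.univ := Finset.eq_univ_of_card _ h1.symm
  exact Equiv.Perm.mem_support.mp (h2 ▸ Finset.mem_univ a)

theorem mem_zpowers_of_commute (hα : Fintype.card α = p) (σ c : Equiv.Perm α)
    (hσ : orderOf σ = p) (hc : Commute c σ) : c ∈ zpowers σ := by
  have hp : p.Prime := Fact.out
  have hcyc : σ.IsCycle := Equiv.Perm.isCycle_of_prime_order'' (by rw [hα]; exact hp)
    (by rw [hσ, hα])
  have hne : Nonempty α := by
    rw [← Fintype.card_pos_iff, hα]; exact hp.pos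
  obtain ⟨a⟩ := hne
  obtain ⟨i, hi⟩ := hcyc.sameCycle (no_fixed hα σ hσ a) (no_fixed hα σ hσ (c a))
  refine ⟨i, ?_⟩
  ext x
  obtain ⟨j, hj⟩ := hcyc.sameCycle (no_fixed hα σ hσ a) (no_fixed hα σ hσ x)
  beta_reduce
  rw [← hj, ← Equiv.Perm.mul_apply, ← Equiv.Perm.mul_apply, ← zpow_add, add_comm, zpow_add,
    (hc.zpow_right j).eq, Equiv.Perm.mul_apply, Equiv.Perm.mul_apply, hi]

variable (G : Subgroup (Equiv.Perm α))

theorem smul_eq (g : G) (a : α) : g • a = (g : Equiv.Perm α) a := rfl

theorem fx_eq_zero (hα : Fintype.card α = p) (g : G) (hg : p ∣ orderOf g) : fx α g = 0 := by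
  have h0 : orderOf g ≠ 0 := (orderOf_pos g).ne'
  have h1 : orderOf (g ^ (orderOf g / p)) = p := orderOf_pow_orderOf_div h0 hg
  have h2 : orderOf ((g ^ (orderOf g / p) : G) : Equiv.Perm α) = p := by
    rw [Subgroup.orderOf_coe, h1]
  unfold fx
  have : IsEmpty (MulAction.fixedBy α g) := by
    constructor
    rintro ⟨a, ha⟩
    have h3 : a ∈ MulAction.fixedBy α (g ^ (orderOf g / p)) := by
      have := MulAction.mem_fixedBy_zpow ha (orderOf g / p : ℕ)
      rwa [zpow_natCast] at this
    exact no_fixed hα _ h2 a h3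
  simp

theorem fx_le (g : G) : fx α g ≤ Fintype.card α := by
  unfold fx
  rw [← Nat.card_eq_fintype_card]
  exact Nat.card_le_card_of_injective _ Subtype.val_injective

theorem eq_one_of_fx (g : G) (hg : fx α g = Fintype.card α) : g = 1 := by
  unfold fx at hg
  rw [Nat.card_coe_set_eq, ← Nat.card_eq_fintype_card, ← Set.ncard_univ] at hg
  have h1 : MulAction.fixedBy α g = Set.univ :=
    Set.eq_of_subset_of_ncard_le (Set.subset_univ _) hg.ge
  apply Subtype.ext
  ext a
  have : a ∈ MulAction.fixedBy α g := h1 ▸ Set.mem_univ a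
  exact this

theorem fx_one : fx α (1 : G) = Fintype.card α := by
  unfold fx
  have : MulAction.fixedBy α (1 : G) = Set.univ := by
    ext a; simp
  rw [this, Nat.card_coe_set_eq, Set.ncard_univ, Nat.card_eq_fintype_card]

theorem fx_le_sq (g : G) : fx α g ≤ fx α (g * g) := by
  unfold fx
  apply Nat.card_le_card_of_injective (fun x => (⟨x.1, ?_⟩ : MulAction.fixedBy α (g * g)))
  · intro x y hxy
    have h1 : (x : α) = (y : α) := congrArg (fun z : MulAction.fixedBy α (g * g) => (z : α)) hxy
    exact Subtype.ext h1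
  · have := x.2
    rw [MulAction.mem_fixedBy] at this ⊢
    rw [mul_smul, this, this]

theorem centralizer_eq (hα : Fintype.card α = p) (y : G) (hy : orderOf y = p) :
    centralizer ({y} : Set G) = zpowers y := by
  apply le_antisymm
  · intro c hc
    rw [mem_centralizer_singleton_iff] at hc
    have h1 : Commute (c : Equiv.Perm α) (y : Equiv.Perm α) := by
      have := congrArg (Subtype.val) hc
      exact this
    obtain ⟨i, hi⟩ := mem_zpowers_of_commute hα _ _ (by rw [Subgroup.orderOf_coe, hy]) h1
    exact ⟨i, Subtype.ext (by simpa using hi)⟩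
  · intro c hc
    obtain ⟨i, rfl⟩ := hc
    rw [mem_centralizer_singleton_iff]
    exact ((Commute.refl y).zpow_left i).eq

/-- the basic set-up. -/
theorem setup (hp2 : 2 < p) (hα : Fintype.card α = p) (P : Sylow p G)
    (hN : Nat.card (normalizer ((P : Subgroup G) : Set G)) = 2 * p) :
    Nat.card (P : Subgroup G) = p ∧
    (centralizer ((P : Subgroup G) : Set G)).relIndex (normalizer ((P : Subgroup G) : Set G)) = 2 ∧
    (∀ y : G, y ∈ (P : Subgroup G) → y ≠ 1 →
      Nat.card (centralizer ({y} : Set G)) = Nat.card ↥(P : Subgroup G)) := by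
  have hp : p.Prime := Fact.out
  have hPc : Nat.card (P : Subgroup G) = p := by
    have h1 := P.card_eq_multiplicity
    have h2 : p ∣ Nat.card G := by
      have : 2 * p ∣ Nat.card G := hN ▸ Subgroup.card_subgroup_dvd_card _
      exact (dvd_mul_left p 2).trans this
    have h3 : 1 ≤ (Nat.card G).factorization p :=
      (hp.dvd_iff_one_le_factorization Nat.card_pos.ne').mp h2
    have h4 : Nat.card (P : Subgroup G) ∣ 2 * p := by
      rw [← hN]
      exact Subgroup.card_dvd_of_le le_normalizer
    set k := (Nat.card G).factorization p with hk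
    rw [h1] at h4 ⊢
    have h5 : k ≤ 1 := by
      by_contra hcon
      have h6 : p ^ 2 ∣ 2 * p := (pow_dvd_pow p (by omega)).trans h4
      rw [sq, mul_comm 2 p] at h6
      have h7 : p ∣ 2 := Nat.dvd_of_mul_dvd_mul_left hp.pos h6
      have := Nat.le_of_dvd (by norm_num) h7
      omega
    have : k = 1 := by omega
    rw [this, pow_one]
  have hord : ∀ y : G, y ∈ (P : Subgroup G) → y ≠ 1 → orderOf y = p := by
    intro y hy hy1
    have h1 : orderOf (⟨y, hy⟩ : (P : Subgroup G)) ∣ p := by
      have := orderOf_dvd_natCard (⟨y, hy⟩ : (P : Subgroup G))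
      rwa [hPc] at this
    rw [Subgroup.orderOf_mk] at h1
    rcases (Nat.dvd_prime hp).mp h1 with h | h
    · exact absurd (orderOf_eq_one_iff.mp h) hy1
    · exact h
  have hC : ∀ y : G, y ∈ (P : Subgroup G) → y ≠ 1 →
      Nat.card (centralizer ({y} : Set G)) = Nat.card ↥(P : Subgroup G) := by
    intro y hy hy1
    rw [centralizer_eq G hα y (hord y hy hy1), Nat.card_zpowers, hord y hy hy1, hPc]
  refine ⟨hPc, ?_, hC⟩
  have hnt : Nontrivial (P : Subgroup G) := by
    rw [← Finite.one_lt_card_iff_nontrivial, hPc]; exact hp.one_lt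
  obtain ⟨y, hy⟩ := exists_ne (1 : (P : Subgroup G))
  have hy1 : (y : G) ≠ 1 := fun h => hy (Subtype.ext h)
  have hzP : zpowers (y : G) = (P : Subgroup G) := by
    apply Subgroup.eq_of_le_of_card_ge
    · rw [zpowers_le]; exact y.2
    · rw [Nat.card_zpowers, hord y y.2 hy1, hPc]
  have hCP : centralizer ((P : Subgroup G) : Set G) = (P : Subgroup G) := by
    apply le_antisymm
    · intro c hc
      have h1 : c ∈ centralizer ({(y : G)} : Set G) :=
        Subgroup.centralizer_le (by simp) hc
      rw [centralizer_eq G hα y (hord y y.2 hy1), hzP] at h1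
      exact h1
    · intro c hc
      rw [← hzP] at hc ⊢
      obtain ⟨i, rfl⟩ := hc
      rw [mem_centralizer_iff]
      intro x hx
      obtain ⟨j, rfl⟩ := hx
      beta_reduce
      rw [← zpow_add, ← zpow_add, add_comm]
  have h1 := Subgroup.relIndex_mul_relIndex (H := (⊥ : Subgroup G))
    (K := centralizer ((P : Subgroup G) : Set G))
    (L := normalizer ((P : Subgroup G) : Set G)) bot_le (by rw [hCP]; exact le_normalizer)
  rw [relIndex_bot_left, relIndex_bot_left, hN] at h1
  rw [hCP] at h1 ⊢
  rw [hPc, mul_comm] at h1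
  exact Nat.eq_of_mul_eq_mul_right hp.pos h1

theorem three_trans (hα : Fintype.card α = p) (hcard : Nat.card G = p * (p - 1) * (p - 2))
    (hfix : ∀ g : G, 3 ≤ fx α g → g = 1) : MulAction.IsMultiplyPretransitive G α 3 := by
  classical
  rw [MulAction.isMultiplyPretransitive_iff]
  intro x y
  have hstab : MulAction.stabilizer G x = ⊥ := by
    rw [eq_bot_iff]
    intro g hg
    rw [MulAction.mem_stabilizer_iff] at hg
    rw [Subgroup.mem_bot]
    apply hfix
    have hi : ∀ i, x i ∈ MulAction.fixedBy α g := by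
      intro i
      rw [MulAction.mem_fixedBy]
      conv_rhs => rw [← hg]
      rfl
    have : 2 < (MulAction.fixedBy α g).ncard := by
      rw [Set.two_lt_ncard_iff]
      refine ⟨x 0, x 1, x 2, hi 0, hi 1, hi 2, ?_, ?_, ?_⟩ <;>
        · intro h
          have := x.injective h
          revert this
          decide
    unfold fx
    rw [Nat.card_coe_set_eq]
    omega
  have h1 := MulAction.card_orbit_mul_card_stabilizer_eq_card_group G x
  have h2 : Fintype.card (MulAction.stabilizer G x) = 1 := by
    rw [← Nat.card_eq_fintype_card, hstab]; simp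
  rw [h2, mul_one, ← Nat.card_eq_fintype_card (α := G), hcard] at h1
  have h3 : Fintype.card (Fin 3 ↪ α) = p * (p - 1) * (p - 2) := by
    rw [Fintype.card_embedding_eq, hα, Fintype.card_fin]
    simp [Nat.descFactorial]
    ring
  have h4 : MulAction.orbit G x = Set.univ := by
    apply Set.eq_of_subset_of_ncard_le (Set.subset_univ _)
    rw [Set.ncard_univ, Nat.card_eq_fintype_card, h3, ← h1, ← Nat.card_eq_fintype_card,
      Nat.card_coe_set_eq]
    exact le_refl _
  have h5 : y ∈ MulAction.orbit G x := h4 ▸ Set.mem_univ y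
  exact h5

end Cfsg.Agent.Lib.Helper59PrimeDeg
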