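import Mathlib
import Cfsg.Prelude.Def_Blocks
import Cfsg.Agent.Lib.Helper59E2
import Cfsg.Agent.Lib.Helper59PrimeDeg

set_option autoImplicit false
set_option linter.unusedSectionVars false

/-!
# Permutation groups of prime degree `p` with `|N(P)| = 2p`
-/

namespace Cfsg.Agent.Lib.Helper59E2Perm

open Cfsg Subgroup
open Cfsg.Agent.Lib.Helper81Base Cfsg.Agent.Lib.Helper81Block Cfsg.Agent.Lib.Helper82Linear
  Cfsg.Agent.Lib.Helper59BLDual
  Cfsg.Agent.Lib.Helper59BLGram Cfsg.Agent.Lib.Helper59BLTw Cfsg.Agent.Lib.Helper59BLStruct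
  Cfsg.Agent.Lib.Helper59BLSec Cfsg.Agent.Lib.Helper59BLFin Cfsg.Agent.Lib.Helper59BLMult
  Cfsg.Agent.Lib.Helper59BLThree
  Cfsg.Agent.Lib.Helper4Char Cfsg.Agent.Lib.Helper4Char4 Cfsg.Agent.Lib.Helper59E2
  Cfsg.Agent.Lib.Helper59Perm2 Cfsg.Agent.Lib.Helper59PrimeDeg
open scoped ComplexConjugate

/-- positivity of an averaged sum. -/
theorem one_le_of_avg {H : Type*} [Group H] [Fintype H] (F : H → ℝ) (hF : ∀ g, 0 ≤ F g)
    (h1 : 0 < F 1) (n : ℕ) (hn : (Nat.card H : ℂ)⁻¹ * ∑ g : H, (F g : ℂ) = n) : 1 ≤ n := by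
  by_contra hcon
  have h0 : n = 0 := by omega
  subst h0
  have hc : (Nat.card H : ℂ) ≠ 0 := by exact_mod_cast Nat.card_pos.ne'
  have h2 : ∑ g : H, (F g : ℂ) = 0 := by
    rw [Nat.cast_zero] at hn
    rcases mul_eq_zero.mp hn with h | h
    · exact absurd (inv_eq_zero.mp h) hc
    · exact h
  have h3 : ∑ g : H, F g = 0 := by exact_mod_cast h2
  have h4 := (Finset.sum_eq_zero_iff_of_nonneg (fun g _ => hF g)).mp h3 1 (Finset.mem_univ _)
  linarith

theorem sum_of_inner {H : Type*} [Group H] [Fintype H] {a b : H → ℂ} {n : ℂ}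
    (h : classInner a b = n) : ∑ g : H, a g * conj (b g) = n * Nat.card H := by
  have hc : (Nat.card H : ℂ) ≠ 0 := by exact_mod_cast Nat.card_pos.ne'
  unfold classInner at h
  rw [← h]
  field_simp

theorem cube_ineq (n : ℕ) : 3 * n ^ 2 ≤ n ^ 3 + 2 * n := by
  rcases n with _ | _ | _ | n
  · norm_num
  · norm_num
  · norm_num
  · nlinarith [sq_nonneg n, Nat.zero_le n, Nat.zero_le (n^2), Nat.zero_le (n^3)]

theorem cube_ineq' (n : ℕ) (hn : 3 ≤ n) : 3 * n ^ 2 < n ^ 3 + 2 * n := by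
  have : 3 * n ^ 2 ≤ n ^ 3 := by
    have : n ^ 3 = n * n ^ 2 := by ring
    rw [this]
    exact Nat.mul_le_mul_right _ hn
  omega

theorem moments {H : Type*} [Group H] [Fintype H] (φ φ₂ : H → ℕ) (p : ℕ) (hp : 3 ≤ p)
    (h1 : φ 1 = p) (h2 : φ₂ 1 = p)
    (S1 : ∑ g : H, (φ g : ℂ) = Nat.card H) (S2 : ∑ g : H, (φ g : ℂ) ^ 2 = 2 * Nat.card H)
    (c1 s1 cθ sθ : ℕ)
    (a1 : ∑ x, ((φ x : ℂ) ^ 2 - (φ₂ x : ℂ)) / 2 = (c1 : ℂ) * Nat.card H)
    (b1 : ∑ x, ((φ x : ℂ) ^ 2 + (φ₂ x : ℂ)) / 2 = (s1 : ℂ) * Nat.card H)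
    (a2 : ∑ x, ((φ x : ℂ) ^ 2 - (φ₂ x : ℂ)) / 2 * ((φ x : ℂ) - 1) = (cθ : ℂ) * Nat.card H)
    (b2 : ∑ x, ((φ x : ℂ) ^ 2 + (φ₂ x : ℂ)) / 2 * ((φ x : ℂ) - 1) = (sθ : ℂ) * Nat.card H) :
    c1 = 0 ∧ s1 = 2 ∧ ∑ g : H, (φ₂ g : ℂ) = 2 * Nat.card H ∧ 3 ≤ cθ + sθ := by
  set N := Nat.card H with hN
  have hNpos : 0 < N := Nat.card_pos
  have e1 : ∑ g : H, (φ g : ℂ) ^ 2 = (c1 + s1) * N := by
    rw [add_mul, ← a1, ← b1, ← Finset.sum_add_distrib]
    apply Finset.sum_congr rfl
    intro g _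
    ring
  have e2 : ∑ g : H, (φ₂ g : ℂ) + c1 * N = s1 * N := by
    rw [← a1, ← b1, ← Finset.sum_add_distrib]
    apply Finset.sum_congr rfl
    intro g _
    ring
  have e3 : ∑ g : H, (φ g : ℂ) ^ 3 = (cθ + sθ) * N + 2 * N := by
    rw [add_mul, ← a2, ← b2, ← S2, ← Finset.sum_add_distrib, ← Finset.sum_add_distrib]
    apply Finset.sum_congr rfl
    intro g _
    ring
  have S1' : ∑ g : H, φ g = N := by exact_mod_cast S1
  have S2' : ∑ g : H, φ g ^ 2 = 2 * N := by exact_mod_cast S2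
  have e1' : ∑ g : H, φ g ^ 2 = (c1 + s1) * N := by exact_mod_cast e1
  have e2' : ∑ g : H, φ₂ g + c1 * N = s1 * N := by exact_mod_cast e2
  have e3' : ∑ g : H, φ g ^ 3 = (cθ + sθ) * N + 2 * N := by exact_mod_cast e3
  have hcs : c1 + s1 = 2 := by
    rw [S2'] at e1'
    exact (Nat.eq_of_mul_eq_mul_right hNpos e1').symm
  have hT : 0 < ∑ g : H, φ₂ g := by
    have := Finset.single_le_sum (f := φ₂) (fun g _ => Nat.zero_le _) (Finset.mem_univ (1 : H))
    omega
  have hlt : c1 < s1 := by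
    have : c1 * N < s1 * N := by omega
    exact Nat.lt_of_mul_lt_mul_right this
  have hc1 : c1 = 0 := by omega
  have hs1 : s1 = 2 := by omega
  refine ⟨hc1, hs1, ?_, ?_⟩
  · rw [hc1, hs1] at e2
    simpa using e2
  · have h3 : ∑ g : H, 3 * φ g ^ 2 < ∑ g : H, (φ g ^ 3 + 2 * φ g) := by
      apply Finset.sum_lt_sum
      · intro g _
        exact cube_ineq _
      · exact ⟨1, Finset.mem_univ _, cube_ineq' _ (by omega)⟩
    rw [Finset.sum_add_distrib, ← Finset.mul_sum, ← Finset.mul_sum, S1', S2', e3'] at h3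
    have h4 : 2 * N < (cθ + sθ) * N := by omega
    have := Nat.lt_of_mul_lt_mul_right h4
    omega

theorem count_final {H : Type*} [Group H] [Fintype H] [DecidableEq H] (φ φ₂ : H → ℕ) (p : ℕ)
    (hp : 3 ≤ p)
    (S1 : ∑ g : H, (φ g : ℂ) = Nat.card H) (S2 : ∑ g : H, (φ g : ℂ) ^ 2 = 2 * Nat.card H)
    (S3 : ∑ g : H, (φ₂ g : ℂ) = 2 * Nat.card H)
    (hf : ∀ g : H, (φ₂ g : ℤ) - φ g = (p - 1) * φ g * (2 - φ g)
      + if g = 1 then (p : ℤ) * (p - 1) * (p - 2) else 0) :
    Nat.card H = p * (p - 1) * (p - 2) := by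
  set N := Nat.card H with hN
  have S1' : ∑ g : H, (φ g : ℤ) = N := by exact_mod_cast S1
  have S2' : ∑ g : H, (φ g : ℤ) ^ 2 = 2 * N := by exact_mod_cast S2
  have S3' : ∑ g : H, (φ₂ g : ℤ) = 2 * N := by exact_mod_cast S3
  have h1 : ∑ g : H, ((φ₂ g : ℤ) - φ g) = ∑ g : H, ((p - 1) * (2 * (φ g : ℤ) - (φ g : ℤ) ^ 2)
      + if g = 1 then (p : ℤ) * (p - 1) * (p - 2) else 0) := by
    apply Finset.sum_congr rfl
    intro g _
    rw [hf g]
    ring
  rw [Finset.sum_sub_distrib, Finset.sum_add_distrib, ← Finset.mul_sum, Finset.sum_sub_distrib,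
    ← Finset.mul_sum, S1', S2', S3', Finset.sum_ite_eq' Finset.univ (1 : H)] at h1
  simp only [Finset.mem_univ, if_true] at h1
  obtain ⟨q, rfl⟩ : ∃ q, p = q + 2 := ⟨p - 2, by omega⟩
  have h2 : (N : ℤ) = ((q + 2) * (q + 2 - 1) * (q + 2 - 2) : ℕ) := by
    have e1 : q + 2 - 1 = q + 1 := by omega
    have e2 : q + 2 - 2 = q := by omega
    rw [e1, e2]
    push_cast
    push_cast at h1
    linear_combination h1
  exact_mod_cast h2

theorem arithS (z r s out : ℕ) (hr2 : 2 * r = z + 1)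
    (h : (z + 2) ^ 2 + (z + 2) = 2 * (2 + (2 + s) * (z + 1) + s * (r * z) + out)) : s = 0 := by
  by_contra hcon
  have h1 : 1 ≤ s := by omega
  have h2 : 2 * (s * (r * z)) = s * ((z + 1) * z) := by
    rw [← hr2]; ring
  have h3 : 1 * ((z + 1) * z) ≤ s * ((z + 1) * z) := Nat.mul_le_mul_right _ h1
  have h4 : 1 * (z + 1) ≤ s * (z + 1) := Nat.mul_le_mul_right _ h1
  nlinarith

theorem arithL (z r c out : ℕ) (hr2 : 2 * r = z + 1) (h1 : 1 ≤ c)
    (h : (z + 2) ^ 2 = (z + 2) + 2 * (0 + c * (z + 1) + c * (r * z) + out)) :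
    c = 1 ∧ out = 0 := by
  have h2 : 2 * (c * (r * z)) = c * ((z + 1) * z) := by
    rw [← hr2]; ring
  have hc : c = 1 := by
    by_contra hcon
    have h1 : 2 ≤ c := by omega
    have h3 : 2 * ((z + 1) * z) ≤ c * ((z + 1) * z) := Nat.mul_le_mul_right _ h1
    have h4 : 2 * (z + 1) ≤ c * (z + 1) := Nat.mul_le_mul_right _ h1
    nlinarith
  refine ⟨hc, ?_⟩
  subst hc
  nlinarith

variable {α : Type*} [Fintype α] [DecidableEq α] {p : ℕ} [Fact p.Prime]
  {G : Subgroup (Equiv.Perm α)} [Fintype G] {M : Ideal AlgInt}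
  {P : Sylow p G} [Fintype ↥(P : Subgroup G)] [Fintype (normalizer ((P : Subgroup G) : Set G))]
  [Fintype (↥(P : Subgroup G) →* ℂˣ)]
  {δ : ℤ} {ζ : (↥(P : Subgroup G) →* ℂˣ) → IrrCharacter G}
  {A : IrrCharacter G → ℤ} {χ₁ : IrrCharacter G}

theorem orderOf_of_mem (hPc : Nat.card (P : Subgroup G) = p) (y : ↥(P : Subgroup G))
    (hy : y ≠ 1) : orderOf (y : G) = p := by
  have hp : p.Prime := Fact.out
  have h1 : orderOf y ∣ p := by
    have := orderOf_dvd_natCard y
    rwa [hPc] at this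
  rw [Subgroup.orderOf_coe]
  rcases (Nat.dvd_prime hp).mp h1 with h | h
  · exact absurd (orderOf_eq_one_iff.mp h) hy
  · exact h

theorem fx_P (hα : Fintype.card α = p) (hPc : Nat.card (P : Subgroup G) = p)
    (y : ↥(P : Subgroup G)) (hy : y ≠ 1) : fx α (y : G) = 0 :=
  fx_eq_zero G hα y (by rw [orderOf_of_mem hPc y hy])

theorem not_dvd_one : ¬ p ∣ orderOf (1 : G) := by
  rw [orderOf_one]
  exact (Fact.out : p.Prime).one_lt.ne' ∘ Nat.dvd_one.mp

/-- first case: the second non-exceptional character has sign `+1`. -/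
theorem normal_of_pos (c : Ctx M P δ ζ A χ₁) (hA : A χ₁ = 1) (hα : Fintype.card α = p)
    (hPc : Nat.card (P : Subgroup G) = p)
    (hidx : (centralizer ((P : Subgroup G) : Set G)).relIndex
      (normalizer ((P : Subgroup G) : Set G)) = 2) : (P : Subgroup G).Normal := by
  classical
  have hp : p.Prime := Fact.out
  obtain ⟨η₀, hη₀⟩ := exists_Y c
  have hcY := card_Y c.h c.D hidx
  rw [hPc] at hcY
  set r := Nat.card (Yset ζ) with hr
  set f := charDegree (χ₁ : G → ℂ) with hf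
  set z := charDegree (η₀ : G → ℂ) with hz
  have hf1 : (χ₁ : G → ℂ) 1 = f := (charDegree_eq χ₁).symm
  have hz1 : (η₀ : G → ℂ) 1 = z := (charDegree_eq η₀).symm
  have hfpos : 0 < f := Cfsg.Agent.Lib.Helper82Irr.irr_charDegree_pos χ₁
  have hzpos : 0 < z := Cfsg.Agent.Lib.Helper82Irr.irr_charDegree_pos η₀
  have hrel1 := rel_regular c hη₀ 1 not_dvd_one
  rw [hf1, hz1, hA] at hrel1
  have hrel1' : δ * z = 1 + f := by
    have : ((δ * z : ℤ) : ℂ) = ((1 + f : ℤ) : ℂ) := by push_cast; linear_combination hrel1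
    exact_mod_cast this
  obtain ⟨n1, nχ, k, out, Out, e1, e2, e3, e4, e5, e6, e7⟩ :=
    decomp c (isCharacter_fx (G := G) α) 0
      (fun y hy => by rw [fx_P hα hPc y hy]; simp)
  have hn1 : 1 ≤ n1 := by
    apply one_le_of_avg (fun g : G => (fx α g : ℝ)) (fun g => Nat.cast_nonneg _)
    · rw [fx_one, hα]; exact_mod_cast hp.pos
    · rw [← e1]
      unfold classInner
      congr 1
      apply Finset.sum_congr rfl
      intro g _
      have : ((irrOne G : IrrCharacter G) : G → ℂ) g = 1 := rfl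
      rw [this]; simp
  have hdeg := e7 1
  rw [fx_one, hα, hf1, YS_regular c hη₀ 1 not_dvd_one, hz1, e5, ← hr] at hdeg
  have hdeg' : p = n1 + nχ * f + k * (r * z) + out := by exact_mod_cast hdeg
  rw [hA] at e4
  have e4' : δ * k = n1 + nχ := by
    have : ((δ * k : ℤ) : ℂ) = ((n1 + nχ : ℤ) : ℂ) := by push_cast; linear_combination e4
    exact_mod_cast this
  have hδ : δ = 1 := by
    rcases c.D.hδ with h' | h'
    · exact h'
    · rw [h'] at hrel1'
      have : (0 : ℤ) < z := by exact_mod_cast hzpos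
      have : (0 : ℤ) < f := by exact_mod_cast hfpos
      omega
  rw [hδ, one_mul] at hrel1' e4'
  have hz2 : z = 1 + f := by exact_mod_cast hrel1'
  have hk2 : k = n1 + nχ := by exact_mod_cast e4'
  have hk1 : 1 ≤ k := by omega
  have hr1 : 1 ≤ r := by
    have := hp.two_le
    by_contra hcon
    have : r = 0 := by omega
    rw [this] at hcY
    omega
  have hkf : k * (1 + f) ≤ 2 := by
    by_contra hcon
    have h3 : 3 ≤ k * (1 + f) := by omega
    have h4 : r * 3 ≤ r * (k * (1 + f)) := Nat.mul_le_mul_left r h3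
    have h5 : k * (r * z) = r * (k * (1 + f)) := by rw [hz2]; ring
    omega
  have hf' : f = 1 := by
    have : 1 * (1 + f) ≤ k * (1 + f) := Nat.mul_le_mul_right _ hk1
    omega
  have hk' : k = 1 := by
    rw [hf'] at hkf
    omega
  have hn1' : n1 = 1 := by omega
  have hnχ : nχ = 0 := by omega
  have hout : out = 0 := by
    rw [hk', hz2, hf', hn1', hnχ] at hdeg'
    omega
  have hlin : (χ₁ : G → ℂ) 1 = 1 := by rw [hf1, hf']; simp
  -- the kernel of `χ₁`
  have claim1 : ∀ g : G, (χ₁ : G → ℂ) g = 1 → ¬ p ∣ orderOf g → g = 1 := by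
    intro g hg1 hg
    apply eq_one_of_fx G
    have h1 := e7 g
    have h2 := rel_regular c hη₀ g hg
    rw [hδ, hA, hg1] at h2
    rw [YS_regular c hη₀ g hg, e6 hout g, hn1', hnχ, hk', ← hr] at h1
    have h3 : (η₀ : G → ℂ) g = 2 := by
      push_cast at h2
      linear_combination h2
    rw [h3] at h1
    have h4 : ((fx α g : ℕ) : ℂ) = ((1 + r * 2 : ℕ) : ℂ) := by
      push_cast
      push_cast at h1
      linear_combination h1
    have h5 : fx α g = 1 + r * 2 := by exact_mod_cast h4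
    rw [h5, hα]
    omega
  set K : Subgroup G := (homOfLinear χ₁ hlin).ker with hK
  have hmemK : ∀ g : G, g ∈ K ↔ (χ₁ : G → ℂ) g = 1 := by
    intro g
    rw [hK, MonoidHom.mem_ker, ← homOfLinear_apply χ₁ hlin g]
    constructor
    · intro h; rw [h]; rfl
    · intro h; exact Units.ext h
  have hKp : IsPGroup p K := by
    rintro ⟨g, hg⟩
    obtain ⟨a, m, hm, hn⟩ := Nat.exists_eq_pow_mul_and_not_dvd (orderOf_pos g).ne' p hp.ne_one
    refine ⟨a, ?_⟩
    apply Subtype.ext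
    show g ^ p ^ a = 1
    apply claim1
    · exact (hmemK _).mp (K.pow_mem hg _)
    · have h1 : orderOf (g ^ p ^ a) = m := by
        rw [orderOf_pow_of_dvd (pow_ne_zero _ hp.ne_zero) (by rw [hn]; exact dvd_mul_right _ _), hn]
        exact Nat.mul_div_cancel_left _ (pow_pos hp.pos _)
      rw [h1]
      exact hm
  have hPK : (P : Subgroup G) ≤ K := by
    intro y hy
    rw [hmemK]
    by_cases hy1 : y = 1
    · rw [hy1, hlin]
    · have hX1 : χ₁ ∈ Xset M ζ := by rw [c.hX]; simp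
      have := X_val c.D hX1 ⟨y, hy⟩ (fun h => hy1 (congrArg Subtype.val h))
      rw [hA] at this
      simpa using this
  have hKP : K = (P : Subgroup G) := P.is_maximal' hKp hPK
  rw [← hKP, hK]
  exact MonoidHom.normal_ker _

theorem dvd_orderOf_sq (hp2 : 2 < p) (g : G) (hg : p ∣ orderOf g) : p ∣ orderOf (g * g) := by
  have hp : p.Prime := Fact.out
  rw [← sq, orderOf_pow]
  have h1 : (orderOf g).gcd 2 ∣ 2 := Nat.gcd_dvd_right _ _
  have h2 : (orderOf g).gcd 2 ∣ orderOf g := Nat.gcd_dvd_left _ _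
  obtain ⟨m, hm⟩ := h2
  have hpos : 0 < (orderOf g).gcd 2 := Nat.gcd_pos_of_pos_right _ (by norm_num)
  have h3 : orderOf g / (orderOf g).gcd 2 = m := Nat.div_eq_of_eq_mul_right hpos hm
  rw [h3]
  rw [hm] at hg
  rcases (hp.dvd_mul).mp hg with h | h
  · exfalso
    have := Nat.le_of_dvd (by norm_num) (h.trans h1)
    omega
  · exact h

/-- second case: the second non-exceptional character has sign `-1`. -/
theorem neg_case (c : Ctx M P δ ζ A χ₁) (hA : A χ₁ = -1) (hα : Fintype.card α = p)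
    (hPc : Nat.card (P : Subgroup G) = p)
    (hidx : (centralizer ((P : Subgroup G) : Set G)).relIndex
      (normalizer ((P : Subgroup G) : Set G)) = 2) (hp5 : 5 ≤ p) :
    Nat.card G = p * (p - 1) * (p - 2) ∧ ∀ g : G, 3 ≤ fx α g → g = 1 := by
  classical
  have hp : p.Prime := Fact.out
  obtain ⟨η₀, hη₀⟩ := exists_Y c
  have hcY := card_Y c.h c.D hidx
  rw [hPc] at hcY
  set r := Nat.card (Yset ζ) with hr
  set f := charDegree (χ₁ : G → ℂ) with hf
  set z := charDegree (η₀ : G → ℂ) with hz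
  have hf1 : (χ₁ : G → ℂ) 1 = f := (charDegree_eq χ₁).symm
  have hz1 : (η₀ : G → ℂ) 1 = z := (charDegree_eq η₀).symm
  have hfpos : 0 < f := Cfsg.Agent.Lib.Helper82Irr.irr_charDegree_pos χ₁
  have hzpos : 0 < z := Cfsg.Agent.Lib.Helper82Irr.irr_charDegree_pos η₀
  have hcG : (Nat.card G : ℂ) ≠ 0 := by exact_mod_cast Nat.card_pos.ne'
  have hone : ∀ g : G, ((irrOne G : IrrCharacter G) : G → ℂ) g = 1 := fun _ => rfl
  have hrel1 := rel_regular c hη₀ 1 not_dvd_one
  rw [hf1, hz1, hA] at hrel1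
  have hrel1' : δ * z = 1 - f := by
    have : ((δ * z : ℤ) : ℂ) = ((1 - f : ℤ) : ℂ) := by push_cast; linear_combination hrel1
    exact_mod_cast this
  have hX1 : χ₁ ∈ Xset M ζ := by rw [c.hX]; simp
  have hfp : p ≤ f + 1 := by
    have h1 := X_degree_congr c.D hX1
    rw [hPc, hA, ← hf] at h1
    have h2 : (p : ℤ) ∣ ((f + 1 : ℕ) : ℤ) := by
      push_cast
      have : (f : ℤ) - -1 = f + 1 := by ring
      rwa [this] at h1
    exact Nat.le_of_dvd (by omega) (by exact_mod_cast h2)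
  have hδ : δ = -1 := by
    rcases c.D.hδ with h' | h'
    · rw [h'] at hrel1'
      have : (0 : ℤ) < z := by exact_mod_cast hzpos
      have : (p : ℤ) ≤ f + 1 := by exact_mod_cast hfp
      have : (5 : ℤ) ≤ p := by exact_mod_cast hp5
      omega
    · exact h'
  rw [hδ] at hrel1'
  have hzf : z + 1 = f := by
    have : (z : ℤ) + 1 = f := by linarith
    exact_mod_cast this
  have hπc := isCharacter_fx (G := G) α
  obtain ⟨n1, nχ, k, out, Out, e1, e2, e3, e4, e5, e6, e7⟩ :=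
    decomp c hπc 0 (fun y hy => by rw [fx_P hα hPc y hy]; simp)
  have hn1 : 1 ≤ n1 := by
    apply one_le_of_avg (fun g : G => (fx α g : ℝ)) (fun g => Nat.cast_nonneg _)
    · rw [fx_one, hα]; exact_mod_cast hp.pos
    · rw [← e1]
      unfold classInner
      congr 1
      apply Finset.sum_congr rfl
      intro g _
      rw [hone]; simp
  have hdeg := e7 1
  rw [fx_one, hα, hf1, YS_regular c hη₀ 1 not_dvd_one, hz1, e5, ← hr] at hdeg
  have hdeg' : p = n1 + nχ * f + k * (r * z) + out := by exact_mod_cast hdeg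
  rw [hA, hδ] at e4
  have e4' : nχ = n1 + k := by
    have : ((nχ : ℤ) : ℂ) = ((n1 + k : ℤ) : ℂ) := by push_cast; push_cast at e4; linear_combination e4
    exact_mod_cast this
  have hnk : n1 + k ≤ 1 := by
    by_contra hcon
    have h2 : 2 ≤ nχ := by omega
    have h3 : 2 * f ≤ nχ * f := Nat.mul_le_mul_right f h2
    omega
  have hn1' : n1 = 1 := by omega
  have hk' : k = 0 := by omega
  have hnχ : nχ = 1 := by omega
  rw [hn1', hnχ, hk'] at hdeg'
  have hf' : f + 1 = p := by omega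
  have hout : out = 0 := by omega
  have hz' : z + 2 = p := by omega
  -- `π = 1 + χ₁`
  have hπ : ∀ g : G, (fx α g : ℂ) = 1 + (χ₁ : G → ℂ) g := by
    intro g
    rw [e7 g, e6 hout g, hn1', hnχ, hk']
    simp
  have hπfun : (fun g : G => (fx α g : ℂ)) = (irrOne G : G → ℂ) + (χ₁ : G → ℂ) := by
    funext g
    rw [hπ g, Pi.add_apply, hone]
  rw [hn1'] at e1
  rw [hnχ] at e2
  have S1 : ∑ g : G, (fx α g : ℂ) = Nat.card G := by
    unfold classInner at e1
    simp only [hone, map_one, mul_one] at e1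
    field_simp at e1
    simpa using e1
  have hππ : classInner (fun g : G => (fx α g : ℂ)) (fun g : G => (fx α g : ℂ)) = 2 := by
    have h0 : classInner (fun g : G => (fx α g : ℂ)) (fun g : G => (fx α g : ℂ))
        = classInner (fun g : G => (fx α g : ℂ)) ((irrOne G : G → ℂ) + (χ₁ : G → ℂ)) := by
      rw [← hπfun]
    rw [h0, classInner_add_right, e1, e2]
    norm_num
  have S2 : ∑ g : G, (fx α g : ℂ) ^ 2 = 2 * Nat.card G := by
    unfold classInner at hππ
    simp only [Complex.conj_natCast] at hππ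
    field_simp at hππ
    rw [hππ]; ring
  have hχreal : ∀ g : G, conj ((χ₁ : G → ℂ) g) = (fx α g : ℂ) - 1 := by
    intro g
    have : (χ₁ : G → ℂ) g = (fx α g : ℂ) - 1 := by rw [hπ g]; ring
    rw [this]; simp
  have hsq0 : ∀ y : ↥(P : Subgroup G), y ≠ 1 → fx α ((y : G) * (y : G)) = 0 := by
    intro y hy
    apply fx_eq_zero G hα
    apply dvd_orderOf_sq (by omega)
    rw [orderOf_of_mem hPc y hy]
  obtain ⟨c1, cθ, cζ, outΛ, OutΛ, a1, a2, a3, a4, a5, a6, a7⟩ :=
    decomp c (isCharacter_alt (G := G) α) 0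
      (fun y hy => by rw [fx_P hα hPc y hy, hsq0 y hy]; simp)
  obtain ⟨s1, sθ, sζ, outS, OutS, b1, b2, b3, b4, b5, b6, b7⟩ :=
    decomp c (isCharacter_sym (G := G) α) 0
      (fun y hy => by rw [fx_P hα hPc y hy, hsq0 y hy]; simp)
  have a1' := sum_of_inner a1
  have a2' := sum_of_inner a2
  have b1' := sum_of_inner b1
  have b2' := sum_of_inner b2
  simp only [hone, map_one, mul_one] at a1' b1'
  simp only [hχreal] at a2' b2'
  obtain ⟨hc1, hs1, S3, hcs⟩ := moments (fun g : G => fx α g) (fun g : G => fx α (g * g)) p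
    (by omega) (by rw [fx_one, hα]) (by rw [mul_one, fx_one, hα]) S1 S2 c1 s1 cθ sθ a1' b1' a2' b2'
  rw [hA, hδ, hc1] at a4
  rw [hA, hδ, hs1] at b4
  have a4' : cθ = cζ := by
    have : ((cθ : ℤ) : ℂ) = ((cζ : ℤ) : ℂ) := by
      push_cast; push_cast at a4; linear_combination a4
    exact_mod_cast this
  have b4' : sθ = 2 + sζ := by
    have : ((sθ : ℤ) : ℂ) = ((2 + sζ : ℤ) : ℂ) := by
      push_cast; push_cast at b4; linear_combination b4
    exact_mod_cast this
  have hdS := b7 1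
  rw [mul_one, fx_one, hα, hf1, YS_regular c hη₀ 1 not_dvd_one, hz1, b5, ← hr] at hdS
  have hdS' : p ^ 2 + p = 2 * (s1 + sθ * f + sζ * (r * z) + outS) := by
    have : ((p ^ 2 + p : ℕ) : ℂ) = ((2 * (s1 + sθ * f + sζ * (r * z) + outS) : ℕ) : ℂ) := by
      push_cast
      linear_combination 2 * hdS
    exact_mod_cast this
  have hdΛ := a7 1
  rw [mul_one, fx_one, hα, hf1, YS_regular c hη₀ 1 not_dvd_one, hz1, a5, ← hr] at hdΛ
  have hdΛ' : p ^ 2 = p + 2 * (c1 + cθ * f + cζ * (r * z) + outΛ) := by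
    have : ((p ^ 2 : ℕ) : ℂ) = ((p + 2 * (c1 + cθ * f + cζ * (r * z) + outΛ) : ℕ) : ℂ) := by
      push_cast
      linear_combination 2 * hdΛ
    exact_mod_cast this
  have hr2 : 2 * r = z + 1 := by omega
  have hfz : f = z + 1 := by omega
  have hpz : p = z + 2 := by omega
  rw [hs1, b4', hfz, hpz] at hdS'
  have hsζ : sζ = 0 := arithS z r sζ outS hr2 hdS'
  have hsθ : sθ = 2 := by omega
  have hcζ1 : 1 ≤ cζ := by omega
  rw [hc1, a4', hfz, hpz] at hdΛ'
  obtain ⟨hcζ, houtΛ⟩ := arithL z r cζ outΛ hr2 hcζ1 hdΛ'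
  -- the formula on `p`-regular elements
  have hreg : ∀ g : G, ¬ p ∣ orderOf g →
      (fx α (g * g) : ℤ) - fx α g = ((p : ℤ) - fx α g) * (2 - fx α g) := by
    intro g hg
    have h1 := a7 g
    have h2 := rel_regular c hη₀ g hg
    rw [hδ, hA] at h2
    rw [YS_regular c hη₀ g hg, a6 houtΛ g, hc1, a4', hcζ, ← hr] at h1
    have h3 : (χ₁ : G → ℂ) g = (fx α g : ℂ) - 1 := by rw [hπ g]; ring
    have h4 : (η₀ : G → ℂ) g = (fx α g : ℂ) - 2 := by
      rw [h3] at h2
      push_cast at h2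
      linear_combination -h2
    rw [h3, h4] at h1
    have h5 : (2 : ℂ) * r = (p : ℂ) - 1 := by
      have : ((2 * r : ℕ) : ℂ) = ((z + 1 : ℕ) : ℂ) := by rw [hr2]
      rw [hpz]
      push_cast at this ⊢
      linear_combination this
    have h6 : (((fx α (g * g) : ℤ) - fx α g : ℤ) : ℂ)
        = ((((p : ℤ) - fx α g) * (2 - fx α g) : ℤ) : ℂ) := by
      push_cast
      push_cast at h1
      linear_combination (-2) * h1 - ((fx α g : ℂ) - 2) * h5
    exact_mod_cast h6
  have hval : ∀ g : G, g ≠ 1 → ¬ p ∣ orderOf g →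
      (fx α g = 1 ∧ fx α (g * g) = p) ∨ (fx α g = 2 ∧ fx α (g * g) = 2) := by
    intro g hg1 hg
    have h1 := hreg g hg
    have h2 := fx_le_sq G g
    have h3 := fx_le G (g * g)
    have h4 := fx_le G g
    have h5 : fx α g ≠ p := fun h => hg1 (eq_one_of_fx G g (by rw [h, hα]))
    rw [hα] at h3 h4
    have h6 : fx α g < p := by omega
    set a := fx α g with ha
    set b := fx α (g * g) with hb
    have h7 : a ≤ 2 := by
      by_contra hcon
      have e1 : (0 : ℤ) < (p : ℤ) - a := by omega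
      have e2 : (2 : ℤ) - a < 0 := by omega
      have e3 := mul_neg_of_pos_of_neg e1 e2
      omega
    interval_cases a
    · exfalso
      push_cast at h1
      omega
    · left
      refine ⟨rfl, ?_⟩
      push_cast at h1
      omega
    · right
      refine ⟨rfl, ?_⟩
      push_cast at h1
      omega
  constructor
  · apply count_final (fun g : G => fx α g) (fun g : G => fx α (g * g)) p (by omega) S1 S2 S3
    intro g
    by_cases hg1 : g = 1
    · subst hg1
      rw [if_pos rfl]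
      simp only [mul_one, fx_one, hα]
      ring
    · rw [if_neg hg1]
      by_cases hg : p ∣ orderOf g
      · simp only [fx_eq_zero G hα g hg, fx_eq_zero G hα (g * g) (dvd_orderOf_sq (by omega) g hg)]
        simp
      · rcases hval g hg1 hg with ⟨h1, h2⟩ | ⟨h1, h2⟩
        · simp only [h1, h2]
          push_cast
          ring
        · simp only [h1, h2]
          push_cast
          ring
  · intro g hg3
    by_contra hg1
    by_cases hg : p ∣ orderOf g
    · rw [fx_eq_zero G hα g hg] at hg3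
      omega
    · rcases hval g hg1 hg with ⟨h1, h2⟩ | ⟨h1, h2⟩ <;> omega

end Cfsg.Agent.Lib.Helper59E2Perm
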