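import Mathlib
import Cfsg.Prelude.Def_Blocks
import Cfsg.Agent.Lib.Helper59E2Int

set_option autoImplicit false
set_option linter.unusedSectionVars false

/-!
# `|P| = p`, `C(P) = P`, `|N(P)| = 2p`, a non-exceptional character of degree `p - 1`
-/

namespace Cfsg.Agent.Lib.Helper59E2Val

open Cfsg Subgroup
open Cfsg.Agent.Lib.Helper81Base Cfsg.Agent.Lib.Helper81Block Cfsg.Agent.Lib.Helper82Linear
  Cfsg.Agent.Lib.Helper59BLDual
  Cfsg.Agent.Lib.Helper59BLGram Cfsg.Agent.Lib.Helper59BLTw Cfsg.Agent.Lib.Helper59BLStruct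
  Cfsg.Agent.Lib.Helper59BLSec Cfsg.Agent.Lib.Helper59BLFin Cfsg.Agent.Lib.Helper59BLMult
  Cfsg.Agent.Lib.Helper4Char Cfsg.Agent.Lib.Helper4Char4 Cfsg.Agent.Lib.Helper59E2
  Cfsg.Agent.Lib.Helper59E2Int
open scoped ComplexConjugate

theorem moment_core {H : Type*} [Fintype H] (T : H → ℤ) (sing : H → Prop) [DecidablePred sing]
    (p r N : ℤ) (hp : 2 * r + 1 = p) (hp3 : 3 ≤ p) (hTle : ∀ g, T g ≤ p - 1)
    (hs : ∀ g, sing g → T g = -1) (S1 : ∑ g, T g = 0) (S2 : ∑ g, T g ^ 2 = N)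
    (S3 : ∑ g, T g ^ 3 = N) (hS : p * (∑ g, if sing g then (1 : ℤ) else 0) = r * N) :
    (∀ g, ¬ sing g → T g = 0 ∨ T g = 1 ∨ T g = p - 1) ∧
      N = p * (p - 1) * (p - 2) * (∑ g, if T g = p - 1 then (1 : ℤ) else 0) := by
  classical
  set s : ℤ := ∑ g, if sing g then (1 : ℤ) else 0 with hsdef
  have hterm : ∀ g, T g * (T g - 1) * (T g + 1 - p) + 2 * p * (if sing g then (1 : ℤ) else 0) ≤ 0 := by
    intro g
    by_cases hg : sing g
    · rw [if_pos hg, hs g hg]
      nlinarith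
    · rw [if_neg hg]
      have h1 : 0 ≤ T g * (T g - 1) := by
        rcases le_or_gt (T g) 0 with h | h
        · nlinarith
        · have : 1 ≤ T g := h
          nlinarith
      have h2 : T g + 1 - p ≤ 0 := by linarith [hTle g]
      nlinarith
  have hsum : ∑ g, (T g * (T g - 1) * (T g + 1 - p) + 2 * p * (if sing g then (1 : ℤ) else 0)) = 0 := by
    have e : ∀ g, T g * (T g - 1) * (T g + 1 - p) + 2 * p * (if sing g then (1 : ℤ) else 0)
        = T g ^ 3 - p * T g ^ 2 + (p - 1) * T g + 2 * p * (if sing g then (1 : ℤ) else 0) := by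
      intro g; ring
    rw [Finset.sum_congr rfl (fun g _ => e g), Finset.sum_add_distrib, Finset.sum_add_distrib,
      Finset.sum_sub_distrib, ← Finset.mul_sum, ← Finset.mul_sum, ← Finset.mul_sum, S1, S2, S3,
      ← hsdef]
    have : 2 * p * s = 2 * (r * N) := by rw [← hS]; ring
    rw [this, ← hp]
    ring
  have hzero : ∀ g, T g * (T g - 1) * (T g + 1 - p) + 2 * p * (if sing g then (1 : ℤ) else 0) = 0 := by
    intro g
    have := (Finset.sum_eq_zero_iff_of_nonpos (fun g _ => hterm g)).mp hsum g (Finset.mem_univ _)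
    exact this
  have hval : ∀ g, ¬ sing g → T g = 0 ∨ T g = 1 ∨ T g = p - 1 := by
    intro g hg
    have h1 := hzero g
    rw [if_neg hg, mul_zero, add_zero] at h1
    rcases mul_eq_zero.mp h1 with h2 | h2
    · rcases mul_eq_zero.mp h2 with h3 | h3
      · exact Or.inl h3
      · exact Or.inr (Or.inl (by linarith))
    · exact Or.inr (Or.inr (by linarith))
  refine ⟨hval, ?_⟩
  have e2 : ∀ g, T g ^ 2 - T g = 2 * (if sing g then (1 : ℤ) else 0)
      + (p - 1) * (p - 2) * (if T g = p - 1 then (1 : ℤ) else 0) := by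
    intro g
    by_cases hg : sing g
    · rw [if_pos hg, hs g hg, if_neg (by omega)]
      ring
    · rw [if_neg hg]
      rcases hval g hg with h | h | h
      · rw [h, if_neg (by omega)]; ring
      · rw [h, if_neg (by omega)]; ring
      · rw [if_pos h, h]; ring
  have h3 : ∑ g, (T g ^ 2 - T g) = 2 * s
      + (p - 1) * (p - 2) * (∑ g, if T g = p - 1 then (1 : ℤ) else 0) := by
    rw [Finset.sum_congr rfl (fun g _ => e2 g), Finset.sum_add_distrib, ← Finset.mul_sum,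
      ← Finset.mul_sum]
  rw [Finset.sum_sub_distrib, S1, S2, sub_zero] at h3
  set κ : ℤ := ∑ g, if T g = p - 1 then (1 : ℤ) else 0 with hκ
  have h4 : p * N = 2 * (r * N) + p * ((p - 1) * (p - 2) * κ) := by
    rw [← hS]
    linear_combination p * h3
  have h5 : 2 * r = p - 1 := by linarith
  have h6 : 2 * (r * N) = (p - 1) * N := by rw [← h5]; ring
  rw [h6] at h4
  linear_combination h4

theorem sum_of_inner' {H : Type*} [Group H] [Fintype H] {a b : H → ℂ} {n : ℂ}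
    (h : classInner a b = n) : ∑ g : H, a g * conj (b g) = n * Nat.card H := by
  have hc : (Nat.card H : ℂ) ≠ 0 := by exact_mod_cast Nat.card_pos.ne'
  unfold classInner at h
  rw [← h]
  field_simp

variable {G : Type*} [Group G] [Fintype G] {p : ℕ} [Fact p.Prime] {M : Ideal AlgInt}
  {P : Sylow p G} [Fintype ↥(P : Subgroup G)] [Fintype (normalizer ((P : Subgroup G) : Set G))]
  [Fintype (↥(P : Subgroup G) →* ℂˣ)]
  {δ : ℤ} {ζ : (↥(P : Subgroup G) →* ℂˣ) → IrrCharacter G}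
  {A : IrrCharacter G → ℤ} {χ₁ : IrrCharacter G}

theorem isCharacter_YS : IsCharacter G (YS ζ) := by
  classical
  have : YS ζ = ∑ χ : IrrCharacter G, (if χ ∈ Yset ζ then (χ : G → ℂ) else 0) := by
    funext g
    unfold YS
    rw [Finset.sum_apply]
    apply Finset.sum_congr rfl
    intro χ _
    split_ifs <;> rfl
  rw [this]
  apply IsCharacter.sum
  intro χ _
  split_ifs
  · exact IsIrrCharacter.isCharacter χ.2
  · exact IsCharacter.zero

theorem sum_YS (c : Ctx M P δ ζ A χ₁) : ∑ g : G, YS ζ g = 0 := by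
  classical
  unfold YS
  rw [Finset.sum_comm]
  apply Finset.sum_eq_zero
  intro χ _
  split_ifs with hχ
  · apply Cfsg.Agent.Lib.Helper83Char.irr_sum_eq_zero χ.2
    obtain ⟨ψ, hψ, rfl⟩ := hχ
    intro h1
    exact c.D.hone ψ hψ (Subtype.ext h1)
  · simp

theorem YS_eq_sum : YS ζ = ∑ χ : IrrCharacter G,
    (open scoped Classical in if χ ∈ Yset ζ then (χ : G → ℂ) else 0) := by
  classical
  funext g
  unfold YS
  rw [Finset.sum_apply]
  apply Finset.sum_congr rfl
  intro χ _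
  split_ifs <;> rfl

/-- the inner product with the sum of the exceptional characters. -/
theorem inner_YS {Ξ : G → ℂ} {k : ℂ} (hk : ∀ η ∈ Yset ζ, classInner Ξ (η : G → ℂ) = k) :
    classInner Ξ (YS ζ) = (Nat.card (Yset ζ) : ℂ) * k := by
  classical
  rw [YS_eq_sum, classInner_sum_right]
  have e : ∀ χ : IrrCharacter G, classInner Ξ (if χ ∈ Yset ζ then (χ : G → ℂ) else 0)
      = if χ ∈ Yset ζ then classInner Ξ (χ : G → ℂ) else 0 := by
    intro χ
    split_ifs
    · rfl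
    · exact classInner_zero_right _
  rw [Finset.sum_congr rfl (fun χ _ => e χ)]
  have h2 := sum_Y_eq (ζ := ζ) (fun χ => classInner Ξ (χ : G → ℂ)) k hk
  rw [h2, nsmul_eq_mul]

theorem arith_sq (z r n k out : ℕ) (hr2 : 2 * r = z + 1) (hk : k = n)
    (h : (z + 1) ^ 2 = 1 + n * (z + 1) + k * (r * z) + out) : n ≤ 1 := by
  subst hk
  by_contra hcon
  have h1 : 2 ≤ k := by omega
  have h2 : 2 * (k * (r * z)) = k * ((z + 1) * z) := by
    rw [← hr2]; ring
  have h3 : 2 * ((z + 1) * z) ≤ k * ((z + 1) * z) := Nat.mul_le_mul_right _ h1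
  have h4 : 2 * (z + 1) ≤ k * (z + 1) := Nat.mul_le_mul_right _ h1
  nlinarith

/-- the values of the non-exceptional character of degree `p - 1`. -/
theorem values (c : Ctx M P δ ζ A χ₁) (hA : A χ₁ = -1) (hPc : Nat.card (P : Subgroup G) = p)
    (hidx : (centralizer ((P : Subgroup G) : Set G)).relIndex
      (normalizer ((P : Subgroup G) : Set G)) = 2)
    (hf : charDegree (χ₁ : G → ℂ) + 1 = p) (hp5 : 5 ≤ p) :
    ∃ T : G → ℤ, (∀ g, (χ₁ : G → ℂ) g = T g) ∧ T 1 = p - 1 ∧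
      (∀ g, ¬ p ∣ orderOf g → T g = 0 ∨ T g = 1 ∨ T g = p - 1) ∧
      (∀ g, p ∣ orderOf g → T g = -1) ∧
      (Nat.card G : ℤ) = p * (p - 1) * (p - 2) *
        (open scoped Classical in ∑ g : G, if T g = p - 1 then (1 : ℤ) else 0) := by
  classical
  have hp : p.Prime := Fact.out
  obtain ⟨η₀, hη₀⟩ := exists_Y c
  have hcY := card_Y c.h c.D hidx
  rw [hPc] at hcY
  set r := Nat.card (Yset ζ) with hr
  set f := charDegree (χ₁ : G → ℂ) with hfdef
  set z := charDegree (η₀ : G → ℂ) with hz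
  have hf1 : (χ₁ : G → ℂ) 1 = f := (charDegree_eq χ₁).symm
  have hz1 : (η₀ : G → ℂ) 1 = z := (charDegree_eq η₀).symm
  have hzpos : 0 < z := Cfsg.Agent.Lib.Helper82Irr.irr_charDegree_pos η₀
  have hcG : (Nat.card G : ℂ) ≠ 0 := by exact_mod_cast Nat.card_pos.ne'
  have hone : ∀ g : G, ((irrOne G : IrrCharacter G) : G → ℂ) g = 1 := fun _ => rfl
  have hnd1 : ¬ p ∣ orderOf (1 : G) := by
    rw [orderOf_one]
    exact hp.one_lt.ne' ∘ Nat.dvd_one.mp
  have hrel1 := rel_regular c hη₀ 1 hnd1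
  rw [hf1, hz1, hA] at hrel1
  have hrel1' : δ * z = 1 - f := by
    have : ((δ * z : ℤ) : ℂ) = ((1 - f : ℤ) : ℂ) := by push_cast; linear_combination hrel1
    exact_mod_cast this
  have hX1 : χ₁ ∈ Xset M ζ := by rw [c.hX]; simp
  have hδ : δ = -1 := by
    rcases c.D.hδ with h' | h'
    · rw [h'] at hrel1'
      have : (0 : ℤ) < z := by exact_mod_cast hzpos
      have : (f : ℤ) + 1 = p := by exact_mod_cast hf
      have : (5 : ℤ) ≤ p := by exact_mod_cast hp5
      omega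
    · exact h'
  rw [hδ] at hrel1'
  have hzf : z + 1 = f := by
    have : (z : ℤ) + 1 = f := by linarith
    exact_mod_cast this
  have hzY : ∀ η ∈ Yset ζ, charDegree (η : G → ℂ) = z := by
    intro η hη
    have h1 := Y_agree c.D hη hη₀ 1 hnd1
    have : ((charDegree (η : G → ℂ) : ℕ) : ℂ) = ((z : ℕ) : ℂ) := by
      rw [charDegree_eq, h1, hz1]
    exact_mod_cast this
  have htw := twist_eq c (by omega) (fun η hη => by rw [hzY η hη]; omega)
  have hint := int_of_twist χ₁ htw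
  choose T hT using hint
  have hconj : ∀ g, conj ((χ₁ : G → ℂ) g) = (χ₁ : G → ℂ) g := by
    intro g; rw [hT g]; simp
  have hT1 : T 1 = p - 1 := by
    have : ((T 1 : ℤ) : ℂ) = (((p : ℤ) - 1 : ℤ) : ℂ) := by
      rw [← hT 1, hf1, ← hf]; push_cast; ring
    exact_mod_cast this
  have hTle : ∀ g, T g ≤ (p : ℤ) - 1 := by
    intro g
    have h1 := norm_le_degree χ₁ g
    rw [hT g, Complex.norm_intCast, ← hfdef] at h1
    have h2 : ((T g : ℤ) : ℝ) ≤ (f : ℝ) := le_trans (le_abs_self _) h1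
    have h3 : T g ≤ (f : ℤ) := by exact_mod_cast h2
    have : (f : ℤ) + 1 = p := by exact_mod_cast hf
    omega
  have S1c : ∑ g : G, (χ₁ : G → ℂ) g = 0 :=
    Cfsg.Agent.Lib.Helper83Char.irr_sum_eq_zero χ₁.2 (fun h1 => c.hχ₁ (Subtype.ext h1))
  have S2c := sum_of_inner' (classInner_irr_self χ₁.2)
  simp only [hconj, one_mul] at S2c
  -- the square
  have hχc := IsIrrCharacter.isCharacter χ₁.2
  obtain ⟨n1, nχ, k, out, Out, e1, e2, e3, e4, e5, e6, e7⟩ :=
    decomp c (IsCharacter.mul hχc hχc) 1 (fun y hy => by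
      rw [Pi.mul_apply, X_val c.D hX1 y hy, hA]; norm_num)
  have e1' := sum_of_inner' e1
  simp only [hone, map_one, mul_one, Pi.mul_apply] at e1'
  have hn1 : n1 = 1 := by
    rw [S2c] at e1'
    have : (n1 : ℂ) = 1 := by
      have h2 : (n1 : ℂ) * (Nat.card G : ℂ) = 1 * (Nat.card G : ℂ) := by rw [← e1', one_mul]
      exact mul_right_cancel₀ hcG h2
    exact_mod_cast this
  rw [hA, hδ, hn1] at e4
  have hk : k = nχ := by
    have : ((k : ℤ) : ℂ) = ((nχ : ℤ) : ℂ) := by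
      push_cast; push_cast at e4; linear_combination -e4
    exact_mod_cast this
  have hdeg := e7 1
  rw [Pi.mul_apply, hf1, YS_regular c hη₀ 1 hnd1, hz1, e5, ← hr, hn1] at hdeg
  have hdeg' : f ^ 2 = 1 + nχ * f + k * (r * z) + out := by
    have : ((f ^ 2 : ℕ) : ℂ) = ((1 + nχ * f + k * (r * z) + out : ℕ) : ℂ) := by
      push_cast; push_cast at hdeg; linear_combination hdeg
    exact_mod_cast this
  have hr2 : 2 * r = z + 1 := by omega
  rw [← hzf] at hdeg'
  have hnχ1 : nχ ≤ 1 := arith_sq z r nχ k out hr2 hk hdeg'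
  -- the product with the sum of the exceptional characters
  obtain ⟨n1', nχ', k', out', Out', e1', e2', e3', e4', e5', e6', e7'⟩ :=
    decomp c (IsCharacter.mul hχc (isCharacter_YS (ζ := ζ))) (-1) (fun y hy => by
      rw [Pi.mul_apply, X_val c.D hX1 y hy, hA, YS_P c y hy, hδ]; norm_num)
  rw [hA, hδ] at e4'
  have hnχ' : nχ' = n1' + k' + 1 := by
    have : ((nχ' : ℤ) : ℂ) = ((n1' + k' + 1 : ℤ) : ℂ) := by
      push_cast; push_cast at e4'; linear_combination e4'
    exact_mod_cast this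
  have hrk : nχ' = r * k := by
    have h1 := inner_YS (ζ := ζ) e3
    have h2 : conj (classInner ((χ₁ : G → ℂ) * (χ₁ : G → ℂ)) (YS ζ))
        = classInner ((χ₁ : G → ℂ) * YS ζ) (χ₁ : G → ℂ) := by
      unfold classInner
      rw [map_mul, map_inv₀, Complex.conj_natCast, map_sum]
      congr 1
      apply Finset.sum_congr rfl
      intro g _
      rw [map_mul, Complex.conj_conj, Pi.mul_apply, Pi.mul_apply, map_mul, hconj]
      ring
    rw [h1, e2', ← hr, map_mul, Complex.conj_natCast, Complex.conj_natCast] at h2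
    have : ((nχ' : ℕ) : ℂ) = ((r * k : ℕ) : ℂ) := by
      rw [← h2]; push_cast; ring
    exact_mod_cast this
  have hnχ : nχ = 1 := by
    have : k ≠ 0 := by
      intro h0
      rw [h0, mul_zero] at hrk
      omega
    omega
  have S3c := sum_of_inner' e2
  simp only [hconj, Pi.mul_apply, hnχ, Nat.cast_one, one_mul] at S3c
  -- singular elements
  have hYS : ∀ g : G, YS ζ g = (r : ℂ) * ((χ₁ : G → ℂ) g - 1)
      + (p : ℂ) * (if p ∣ orderOf g then (1 : ℂ) else 0) := by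
    intro g
    by_cases hg : p ∣ orderOf g
    · rw [if_pos hg, YS_sing c g hg, chi_sing c g hg, hA, hδ]
      have : ((r * 2 + 1 : ℕ) : ℂ) = (p : ℂ) := by rw [hcY]
      push_cast at this ⊢
      linear_combination this
    · rw [if_neg hg, YS_regular c hη₀ g hg, ← hr]
      have h2 := rel_regular c hη₀ g hg
      rw [hδ, hA] at h2
      push_cast at h2
      linear_combination -(r : ℂ) * h2
  have hsum := sum_YS c
  rw [Finset.sum_congr rfl (fun g _ => hYS g), Finset.sum_add_distrib, ← Finset.mul_sum,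
    ← Finset.mul_sum, Finset.sum_sub_distrib, S1c] at hsum
  simp only [Finset.sum_const, Finset.card_univ, nsmul_eq_mul, mul_one] at hsum
  rw [← Nat.card_eq_fintype_card] at hsum
  -- integers
  have S1 : ∑ g : G, T g = 0 := by
    have : ((∑ g : G, T g : ℤ) : ℂ) = 0 := by
      push_cast
      rw [← S1c]
      exact Finset.sum_congr rfl (fun g _ => (hT g).symm)
    exact_mod_cast this
  have S2 : ∑ g : G, T g ^ 2 = (Nat.card G : ℤ) := by
    have : ((∑ g : G, T g ^ 2 : ℤ) : ℂ) = ((Nat.card G : ℤ) : ℂ) := by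
      push_cast
      rw [← S2c]
      exact Finset.sum_congr rfl (fun g _ => by rw [hT g]; ring)
    exact_mod_cast this
  have S3 : ∑ g : G, T g ^ 3 = (Nat.card G : ℤ) := by
    have : ((∑ g : G, T g ^ 3 : ℤ) : ℂ) = ((Nat.card G : ℤ) : ℂ) := by
      push_cast
      rw [← S3c]
      exact Finset.sum_congr rfl (fun g _ => by rw [hT g]; ring)
    exact_mod_cast this
  have hS : (p : ℤ) * (∑ g : G, if p ∣ orderOf g then (1 : ℤ) else 0)
      = (r : ℤ) * (Nat.card G : ℤ) := by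
    have : (((p : ℤ) * (∑ g : G, if p ∣ orderOf g then (1 : ℤ) else 0) : ℤ) : ℂ)
        = (((r : ℤ) * (Nat.card G : ℤ) : ℤ) : ℂ) := by
      push_cast
      linear_combination hsum
    exact_mod_cast this
  have hsing : ∀ g : G, p ∣ orderOf g → T g = -1 := by
    intro g hg
    have : ((T g : ℤ) : ℂ) = ((-1 : ℤ) : ℂ) := by
      rw [← hT g, chi_sing c g hg, hA]
    exact_mod_cast this
  obtain ⟨h1, h2⟩ := moment_core T (fun g => p ∣ orderOf g) (p : ℤ) (r : ℤ) (Nat.card G : ℤ)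
    (by have : ((r * 2 + 1 : ℕ) : ℤ) = (p : ℤ) := by rw [hcY]
        push_cast at this; linarith)
    (by have : (5 : ℤ) ≤ p := by exact_mod_cast hp5
        omega) hTle hsing S1 S2 S3 hS
  exact ⟨T, hT, hT1, h1, hsing, h2⟩

open scoped Classical in
/-- a sharper form of `decomp`. -/
theorem decomp' (c : Ctx M P δ ζ A χ₁) {Ξ : G → ℂ} (hΞ : IsCharacter G Ξ) (v : ℂ)
    (hv : ∀ y : ↥(P : Subgroup G), y ≠ 1 → Ξ y = v) :
    ∃ (n1 nχ k out w : ℕ) (Out : G → ℂ),
      classInner Ξ (irrOne G : G → ℂ) = n1 ∧ classInner Ξ (χ₁ : G → ℂ) = nχ ∧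
      (∀ η ∈ Yset ζ, classInner Ξ (η : G → ℂ) = k) ∧
      (δ : ℂ) * k = n1 + (A χ₁ : ℂ) * nχ - v ∧
      Out 1 = out ∧ (out = 0 ↔ w = 0) ∧ IsCharacter G Out ∧
      classInner Ξ Ξ = ((n1 ^ 2 + nχ ^ 2 + Nat.card (Yset ζ) * k ^ 2 + w : ℕ) : ℂ) ∧
      ∀ g, Ξ g = n1 + nχ * (χ₁ : G → ℂ) g + k * YS ζ g + Out g := by
  obtain ⟨m, hm1, hm2⟩ := IsCharacter.eq_sum_nat hΞ
  obtain ⟨ψ₀, hψ₀⟩ := exists_ne_one c.h c.hP
  have hδ0 : (δ : ℂ) ≠ 0 := by
    rcases c.D.hδ with h' | h' <;> rw [h'] <;> norm_num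
  have hkey : ∀ ψ, ψ ≠ 1 → (δ : ℂ) * (m (ζ ψ) : ℂ)
      = (m (irrOne G) : ℂ) + (A χ₁ : ℂ) * (m χ₁ : ℂ) - v := by
    intro ψ hψ
    have h1 := key c.h c.hC c.D Ξ (IsCharacter.isClassFunction hΞ) v 0 ψ₀ hψ₀
      (fun y hy => by rw [hv y hy]; ring) ψ hψ
    rw [sum_A_two c.D c.hχ₁ c.hX (fun χ => classInner Ξ (χ : G → ℂ)), hm2, hm2, hm2] at h1
    linear_combination h1
  have hk : ∀ η ∈ Yset ζ, m η = m (ζ ψ₀) := by
    rintro η ⟨ψ, hψ, rfl⟩
    have h1 := (hkey ψ hψ).trans (hkey ψ₀ hψ₀).symm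
    exact_mod_cast mul_left_cancel₀ hδ0 h1
  refine ⟨m (irrOne G), m χ₁, m (ζ ψ₀),
    ∑ χ, (if χ ∈ Xset M ζ ∨ χ ∈ Yset ζ then 0 else m χ * charDegree (χ : G → ℂ)),
    ∑ χ, (if χ ∈ Xset M ζ ∨ χ ∈ Yset ζ then 0 else m χ ^ 2),
    fun g => ∑ χ, (if χ ∈ Xset M ζ ∨ χ ∈ Yset ζ then 0 else (m χ : ℂ) * (χ : G → ℂ) g),
    hm2 _, hm2 _, fun η hη => by rw [hm2, hk η hη], hkey ψ₀ hψ₀, ?_, ?_, ?_, ?_, ?_⟩
  · push_cast
    apply Finset.sum_congr rfl
    intro χ _
    split_ifs
    · rfl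
    · rw [charDegree_eq]
  · constructor
    · intro h0
      apply Finset.sum_eq_zero
      intro χ _
      split_ifs with hχ
      · rfl
      · have h1 := (Finset.sum_eq_zero_iff.mp h0) χ (Finset.mem_univ _)
        rw [if_neg hχ] at h1
        rcases Nat.mul_eq_zero.mp h1 with h2 | h2
        · rw [h2]; simp
        · exact absurd h2 (Cfsg.Agent.Lib.Helper82Irr.irr_charDegree_pos χ).ne'
    · intro h0
      apply Finset.sum_eq_zero
      intro χ _
      split_ifs with hχ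
      · rfl
      · have h1 := (Finset.sum_eq_zero_iff.mp h0) χ (Finset.mem_univ _)
        rw [if_neg hχ] at h1
        rw [pow_eq_zero_iff (two_ne_zero) |>.mp h1, zero_mul]
  · have : (fun g => ∑ χ : IrrCharacter G, (if χ ∈ Xset M ζ ∨ χ ∈ Yset ζ then 0
        else (m χ : ℂ) * (χ : G → ℂ) g))
        = ∑ χ : IrrCharacter G, (if χ ∈ Xset M ζ ∨ χ ∈ Yset ζ then (0 : G → ℂ)
          else (m χ : ℂ) • (χ : G → ℂ)) := by
      funext g
      rw [Finset.sum_apply]
      apply Finset.sum_congr rfl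
      intro χ _
      split_ifs <;> rfl
    rw [this]
    apply IsCharacter.sum
    intro χ _
    split_ifs
    · exact IsCharacter.zero
    · exact IsCharacter.natCast_smul _ (IsIrrCharacter.isCharacter χ.2)
  · rw [classInner_eq_sum Ξ Ξ (IsCharacter.isClassFunction hΞ)]
    have e : ∀ χ : IrrCharacter G, classInner Ξ (χ : G → ℂ) * classInner (χ : G → ℂ) Ξ
        = ((m χ ^ 2 : ℕ) : ℂ) := by
      intro χ
      rw [← classInner_conj_symm Ξ (χ : G → ℂ), hm2]
      simp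
      ring
    rw [Finset.sum_congr rfl (fun χ _ => e χ), ← Nat.cast_sum,
      sum_split3 (M := M) (ζ := ζ) (fun χ => m χ ^ 2),
      sum_X_two c.hχ₁ c.hX (fun χ => m χ ^ 2),
      sum_Y_eq (ζ := ζ) (fun χ => m χ ^ 2) (m (ζ ψ₀) ^ 2) (fun χ hχ => by rw [hk χ hχ]),
      smul_eq_mul]
  · intro g
    conv_lhs => rw [hm1]
    rw [Finset.sum_apply]
    simp only [Pi.smul_apply, smul_eq_mul]
    rw [sum_split3 (M := M) (ζ := ζ) (fun χ => (m χ : ℂ) * (χ : G → ℂ) g),
      sum_X_two c.hχ₁ c.hX (fun χ => (m χ : ℂ) * (χ : G → ℂ) g)]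
    have h2 : ((irrOne G : IrrCharacter G) : G → ℂ) g = 1 := rfl
    rw [h2, mul_one]
    congr 2
    unfold YS
    rw [Finset.mul_sum]
    apply Finset.sum_congr rfl
    intro χ _
    split_ifs with hχ
    · rw [hk χ hχ]
    · simp

/-- there are no non-principal linear characters. -/
theorem hom_trivial (c : Ctx M P δ ζ A χ₁) (hdeg1 : charDegree (χ₁ : G → ℂ) ≠ 1)
    (hdegY : ∀ η ∈ Yset ζ, charDegree (η : G → ℂ) ≠ 1) (f : G →* ℂˣ) (g : G) : f g = 1 := by
  set τ : IrrCharacter G := ⟨fun g => ((f g : ℂˣ) : ℂ), isIrrCharacter_of_hom f⟩ with hτ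
  have hτv : ∀ g, (τ : G → ℂ) g = ((f g : ℂˣ) : ℂ) := fun _ => rfl
  have hdeg : charDegree (τ : G → ℂ) = 1 := by
    have : ((charDegree (τ : G → ℂ) : ℕ) : ℂ) = ((1 : ℕ) : ℂ) := by
      rw [charDegree_eq, hτv, map_one]; simp
    exact_mod_cast this
  have hmem : τ ∈ principalBlock M G := by
    by_contra hcon
    have : Nontrivial ↥(P : Subgroup G) := Finite.one_lt_card_iff_nontrivial.mp c.hP
    obtain ⟨y, hy⟩ := exists_ne (1 : ↥(P : Subgroup G))
    have h1 := out_vanish c.h c.hC τ hcon y hy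
    rw [hτv] at h1
    exact (f (y : G)).ne_zero h1
  rw [union_eq c.D, c.hX] at hmem
  rcases hmem with h1 | h1
  · rcases h1 with h1 | h1
    · have h2 : (τ : G → ℂ) g = 1 := by rw [h1]; rfl
      rw [hτv] at h2
      exact Units.ext h2
    · have h2 : τ = χ₁ := h1
      exact absurd (h2 ▸ hdeg) hdeg1
  · exact absurd hdeg (hdegY τ h1)

end Cfsg.Agent.Lib.Helper59E2Val
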