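import Mathlib
import Cfsg.Agent.Lib.Helper59Perm2
import Cfsg.Agent.Lib.Helper59BSGrp

set_option autoImplicit false
set_option linter.unusedSectionVars false

/-!
# Primitive permutation groups of degree `2p`: elementary facts
-/

namespace Cfsg.Agent.Lib.Helper59TwoP

open Cfsg Subgroup Cfsg.Agent.Lib.Helper59Perm2

variable {α : Type*} [Fintype α] [DecidableEq α] {p : ℕ} [Fact p.Prime]
  (G : Subgroup (Equiv.Perm α))

/-- non-trivial normal subgroups of a primitive group are transitive. -/
theorem trans_of_normal (hprim : MulAction.IsPreprimitive G α) (K : Subgroup G) [K.Normal]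
    (hK : K ≠ ⊥) : MulAction.IsPretransitive K α := by
  have hfix : MulAction.fixedPoints K α ≠ Set.univ := by
    intro h
    apply hK
    rw [eq_bot_iff]
    intro k hk
    rw [Subgroup.mem_bot]
    apply Subtype.ext
    ext a
    have h1 : a ∈ MulAction.fixedPoints K α := h ▸ Set.mem_univ a
    exact h1 ⟨k, hk⟩
  exact MulAction.IsQuasiPreprimitive.isPretransitive_of_normal hfix

theorem card_dvd_of_normal (hprim : MulAction.IsPreprimitive G α) (K : Subgroup G) [K.Normal]
    (hK : K ≠ ⊥) [Nonempty α] : Fintype.card α ∣ Nat.card K := by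
  have := trans_of_normal G hprim K hK
  obtain ⟨a⟩ := (inferInstance : Nonempty α)
  have h1 := MulAction.index_stabilizer_of_transitive K a
  rw [← Nat.card_eq_fintype_card, ← h1]
  exact Subgroup.index_dvd_card _

theorem card_P (hp2 : 2 < p) (P : Sylow p G)
    (hN : Nat.card (normalizer ((P : Subgroup G) : Set G)) = 2 * p) :
    Nat.card (P : Subgroup G) = p := by
  have hp : p.Prime := Fact.out
  have h1 := P.card_eq_multiplicity
  have h2 : p ∣ Nat.card G := by
    have : 2 * p ∣ Nat.card G := hN ▸ Subgroup.card_subgroup_dvd_card _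
    exact (dvd_mul_left p 2).trans this
  have h3 : 1 ≤ (Nat.card G).factorization p :=
    (hp.dvd_iff_one_le_factorization Nat.card_pos.ne').mp h2
  have h4 : Nat.card (P : Subgroup G) ∣ 2 * p := by
    rw [← hN]
    exact Subgroup.card_dvd_of_le le_normalizer
  set k := (Nat.card G).factorization p with hk
  rw [h1] at h4 ⊢
  have h5 : k ≤ 1 := by
    by_contra hcon
    have h6 : p ^ 2 ∣ 2 * p := (pow_dvd_pow p (by omega)).trans h4
    rw [sq, mul_comm 2 p] at h6
    have h7 : p ∣ 2 := Nat.dvd_of_mul_dvd_mul_left hp.pos h6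
    have := Nat.le_of_dvd (by norm_num) h7
    omega
  have : k = 1 := by omega
  rw [this, pow_one]

variable {G}

theorem zpowers_eq (P : Sylow p G) (hPc : Nat.card (P : Subgroup G) = p) (y : G)
    (hy : y ∈ (P : Subgroup G)) (hy1 : y ≠ 1) : zpowers y = (P : Subgroup G) := by
  have hp : p.Prime := Fact.out
  have hord : orderOf y = p := by
    have h1 : orderOf (⟨y, hy⟩ : (P : Subgroup G)) ∣ p := by
      have := orderOf_dvd_natCard (⟨y, hy⟩ : (P : Subgroup G))
      rwa [hPc] at this
    rw [Subgroup.orderOf_mk] at h1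
    rcases (Nat.dvd_prime hp).mp h1 with h | h
    · exact absurd (orderOf_eq_one_iff.mp h) hy1
    · exact h
  apply Subgroup.eq_of_le_of_card_ge
  · rw [zpowers_le]; exact hy
  · rw [Nat.card_zpowers, hord, hPc]

theorem centralizer_singleton (P : Sylow p G) (hPc : Nat.card (P : Subgroup G) = p) (y : G)
    (hy : y ∈ (P : Subgroup G)) (hy1 : y ≠ 1) :
    centralizer ({y} : Set G) = centralizer ((P : Subgroup G) : Set G) := by
  apply le_antisymm
  · intro c hc
    rw [mem_centralizer_singleton_iff] at hc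
    rw [mem_centralizer_iff]
    intro x hx
    have hx' : x ∈ zpowers y := by rw [zpowers_eq P hPc y hy hy1]; exact hx
    obtain ⟨i, rfl⟩ := hx'
    have hcy : Commute c y := hc
    exact (hcy.zpow_right i).eq.symm
  · exact Subgroup.centralizer_le (Set.singleton_subset_iff.mpr hy)

variable (G)

/-- the basic set-up in degree `2p`. -/
theorem setup2 (hp2 : 2 < p) (hα : Fintype.card α = 2 * p)
    (hprim : MulAction.IsPreprimitive G α) (P : Sylow p G)
    (hN : Nat.card (normalizer ((P : Subgroup G) : Set G)) = 2 * p) :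
    Nat.card (P : Subgroup G) = p ∧
    (centralizer ((P : Subgroup G) : Set G)).relIndex (normalizer ((P : Subgroup G) : Set G)) = 2 ∧
    (∀ y : G, y ∈ (P : Subgroup G) → y ≠ 1 →
      Nat.card (centralizer ({y} : Set G)) = Nat.card ↥(P : Subgroup G)) := by
  have hp : p.Prime := Fact.out
  have hPc := card_P G hp2 P hN
  have hne : Nonempty α := by
    rw [← Fintype.card_pos_iff, hα]; have := hp.pos; omega
  have hcyc : IsCyclic (P : Subgroup G) := isCyclic_of_prime_card hPc
  have hPC : (P : Subgroup G) ≤ centralizer ((P : Subgroup G) : Set G) := by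
    intro x hx
    rw [mem_centralizer_iff]
    intro z hz
    have := hcyc.isMulCommutative.is_comm.comm (⟨z, hz⟩ : (P : Subgroup G)) ⟨x, hx⟩
    exact congrArg Subtype.val this
  have hCN : centralizer ((P : Subgroup G) : Set G) ≤ normalizer ((P : Subgroup G) : Set G) :=
    Subgroup.centralizer_le_normalizer _
  have h1 : p ∣ Nat.card (centralizer ((P : Subgroup G) : Set G)) := by
    have := Subgroup.card_dvd_of_le hPC
    rwa [hPc] at this
  have h2 : Nat.card (centralizer ((P : Subgroup G) : Set G)) ∣ 2 * p := by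
    rw [← hN]; exact Subgroup.card_dvd_of_le hCN
  have h3 : Nat.card (centralizer ((P : Subgroup G) : Set G)) = p := by
    obtain ⟨a, ha⟩ := h1
    rw [ha, mul_comm 2 p] at h2
    have h4 : a ∣ 2 := Nat.dvd_of_mul_dvd_mul_left hp.pos h2
    have h5 : a = 1 ∨ a = 2 := (Nat.dvd_prime Nat.prime_two).mp h4
    rcases h5 with h5 | h5
    · rw [ha, h5, mul_one]
    · exfalso
      have h6 : centralizer ((P : Subgroup G) : Set G) = normalizer ((P : Subgroup G) : Set G) := by
        apply Subgroup.eq_of_le_of_card_ge hCN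
        rw [hN, ha, h5, mul_comm]
      have hNC : normalizer ((P : Subgroup G) : Set G) ≤ centralizer ((P : Subgroup G) : Set G) :=
        h6.ge
      set K := (MonoidHom.transferSylow P hNC).ker with hK
      have hcomp := MonoidHom.ker_transferSylow_isComplement' P hNC
      have hnd := MonoidHom.not_dvd_card_ker_transferSylow P hNC
      by_cases hKb : K = ⊥
      · have h7 := hcomp.card_mul_card
        rw [← hK, hKb, Subgroup.card_bot, one_mul, hPc] at h7
        have h8 : 2 * p ∣ Nat.card G := hN ▸ Subgroup.card_subgroup_dvd_card _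
        rw [← h7] at h8
        have := Nat.le_of_dvd hp.pos h8
        have := hp.pos
        omega
      · have h7 := card_dvd_of_normal G hprim K hKb
        rw [hα] at h7
        exact hnd ((dvd_mul_left p 2).trans h7)
  refine ⟨hPc, ?_, ?_⟩
  · have h4 := Subgroup.relIndex_mul_relIndex (H := (⊥ : Subgroup G))
      (K := centralizer ((P : Subgroup G) : Set G))
      (L := normalizer ((P : Subgroup G) : Set G)) bot_le hCN
    rw [relIndex_bot_left, relIndex_bot_left, hN, h3, mul_comm] at h4
    exact Nat.eq_of_mul_eq_mul_right hp.pos h4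
  · intro y hy hy1
    rw [centralizer_singleton P hPc y hy hy1, h3, hPc]

/-- the number of fixed points of the non-identity elements of `P`. -/
theorem fx_const (hα : Fintype.card α = 2 * p) (P : Sylow p G)
    (hPc : Nat.card (P : Subgroup G) = p) :
    ∃ v : ℕ, (v = 0 ∨ v = p) ∧ ∀ y : ↥(P : Subgroup G), y ≠ 1 → fx α (y : G) = v := by
  have hp : p.Prime := Fact.out
  have hfix : ∀ y : ↥(P : Subgroup G), y ≠ 1 →
      MulAction.fixedBy α (y : G) = MulAction.fixedPoints ↥(P : Subgroup G) α := by
    intro y hy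
    have hy1 : (y : G) ≠ 1 := fun h => hy (Subtype.ext h)
    ext a
    constructor
    · intro ha x
      have hx : (x : G) ∈ zpowers (y : G) := by rw [zpowers_eq P hPc y y.2 hy1]; exact x.2
      obtain ⟨i, hi⟩ := hx
      have h1 := MulAction.mem_fixedBy_zpow ha i
      rw [MulAction.mem_fixedBy] at h1
      beta_reduce at hi
      rw [hi] at h1
      exact h1
    · intro ha
      exact ha y
  refine ⟨Nat.card (MulAction.fixedPoints ↥(P : Subgroup G) α), ?_, ?_⟩
  · have h1 := P.isPGroup'.card_modEq_card_fixedPoints α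
    rw [Nat.card_eq_fintype_card, hα] at h1
    set v := Nat.card (MulAction.fixedPoints ↥(P : Subgroup G) α) with hv
    have h2 : p ∣ v := by
      have : 2 * p ≡ 0 [MOD p] := (Nat.modEq_zero_iff_dvd).mpr (dvd_mul_left p 2)
      exact (Nat.modEq_zero_iff_dvd).mp (h1.symm.trans this)
    have h3 : v ≤ 2 * p := by
      rw [hv, ← hα, ← Nat.card_eq_fintype_card]
      exact Nat.card_le_card_of_injective _ Subtype.val_injective
    have h4 : v ≠ 2 * p := by
      intro h4
      have hnt : Nontrivial (P : Subgroup G) := by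
        rw [← Finite.one_lt_card_iff_nontrivial, hPc]; exact hp.one_lt
      obtain ⟨y, hy⟩ := exists_ne (1 : (P : Subgroup G))
      apply hy
      apply Subtype.ext
      apply Subtype.ext
      ext a
      have h5 : MulAction.fixedPoints ↥(P : Subgroup G) α = Set.univ := by
        apply Set.eq_of_subset_of_ncard_le (Set.subset_univ _)
        rw [Set.ncard_univ, Nat.card_eq_fintype_card, hα, ← h4, hv, Nat.card_coe_set_eq]
      have h6 : a ∈ MulAction.fixedPoints ↥(P : Subgroup G) α := h5 ▸ Set.mem_univ a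
      exact h6 y
    obtain ⟨b, hb⟩ := h2
    have hb2 : b < 2 := by
      by_contra hcon
      have : p * 2 ≤ p * b := Nat.mul_le_mul_left p (by omega)
      omega
    interval_cases b
    · left; omega
    · right; omega
  · intro y hy
    unfold fx
    rw [hfix y hy]

/-- a subgroup of index two gives a non-trivial linear character. -/
theorem exists_hom_of_index_two {H : Type*} [Group H] (K : Subgroup H) (hK : K.index = 2) :
    ∃ (f : H →* ℂˣ) (g : H), f g ≠ 1 := by
  classical
  have hne : K ≠ ⊤ := by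
    intro h
    rw [h, Subgroup.index_top] at hK
    omega
  obtain ⟨g, hg⟩ : ∃ g, g ∉ K := by
    by_contra hcon
    push Not at hcon
    exact hne (eq_top_iff.mpr (fun x _ => hcon x))
  refine ⟨{ toFun := fun a => if a ∈ K then 1 else -1
            map_one' := by simp [K.one_mem]
            map_mul' := ?_ }, g, ?_⟩
  · intro a b
    have := Subgroup.mul_mem_iff_of_index_two hK (a := a) (b := b)
    by_cases ha : a ∈ K <;> by_cases hb : b ∈ K <;> simp [this, ha, hb]
  · show (if g ∈ K then (1 : ℂˣ) else -1) ≠ 1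
    rw [if_neg hg]
    intro h
    have h1 : ((-1 : ℂˣ) : ℂ) = ((1 : ℂˣ) : ℂ) := by rw [h]
    norm_num at h1

/-- simplicity. -/
theorem simple_of (hα : Fintype.card α = 2 * p)
    (hprim : MulAction.IsPreprimitive G α) (P : Sylow p G)
    (hPc : Nat.card (P : Subgroup G) = p)
    (hN : Nat.card (normalizer ((P : Subgroup G) : Set G)) = 2 * p)
    (htriv : ∀ (f : G →* ℂˣ) (g : G), f g = 1) : IsSimpleGroup G := by
  have hp : p.Prime := Fact.out
  have hne : Nonempty α := by
    rw [← Fintype.card_pos_iff, hα]; have := hp.pos; omega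
  have hnt : Nontrivial G := by
    have h1 : Nontrivial (P : Subgroup G) := by
      rw [← Finite.one_lt_card_iff_nontrivial, hPc]; exact hp.one_lt
    obtain ⟨y, hy⟩ := exists_ne (1 : (P : Subgroup G))
    exact ⟨⟨(y : G), 1, fun h => hy (Subtype.ext h)⟩⟩
  refine ⟨fun K hKn => ?_⟩
  by_cases hKb : K = ⊥
  · exact Or.inl hKb
  right
  have h1 := card_dvd_of_normal G hprim K hKb
  rw [hα] at h1
  have h2 : p ∣ Nat.card K := (dvd_mul_left p 2).trans h1
  obtain ⟨x, hx⟩ := exists_prime_orderOf_dvd_card' p h2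
  have hxG : orderOf (x : G) = p := by rw [Subgroup.orderOf_coe, hx]
  have hpg : IsPGroup p (zpowers (x : G)) :=
    IsPGroup.of_card (n := 1) (by rw [Nat.card_zpowers, hxG, pow_one])
  obtain ⟨h, hh⟩ := Cfsg.Agent.Lib.Helper59BSGrp.exists_conj_le P _ hpg
  have h3 := hh (x : G) (mem_zpowers _)
  have h4 : h * (x : G) * h⁻¹ ≠ 1 := by
    intro h5
    have h6 : (x : G) = 1 := by
      have : (x : G) = h⁻¹ * (h * (x : G) * h⁻¹) * h := by group
      rw [this, h5]; group
    rw [h6, orderOf_one] at hxG
    exact hp.one_lt.ne hxG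
  have hPK : (P : Subgroup G) ≤ K := by
    rw [← zpowers_eq P hPc _ h3 h4, zpowers_le]
    exact hKn.conj_mem _ x.2 h
  have hfr : normalizer ((P : Subgroup G) : Set G) ⊔ K = ⊤ :=
    Sylow.normalizer_sup_eq_top' P hPK
  have h5 : K.index = K.relIndex (normalizer ((P : Subgroup G) : Set G)) := by
    rw [← Subgroup.relIndex_top_right, ← hfr, Subgroup.relIndex_sup_right]
  have h6 := Subgroup.relIndex_mul_relIndex (H := (⊥ : Subgroup G))
    (K := K ⊓ normalizer ((P : Subgroup G) : Set G))
    (L := normalizer ((P : Subgroup G) : Set G)) bot_le inf_le_right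
  rw [relIndex_bot_left, relIndex_bot_left, hN, Subgroup.inf_relIndex_right, ← h5] at h6
  have h7 : p ∣ Nat.card (K ⊓ normalizer ((P : Subgroup G) : Set G) : Subgroup G) := by
    have := Subgroup.card_dvd_of_le (le_inf hPK (le_normalizer (H := (P : Subgroup G))))
    rwa [hPc] at this
  obtain ⟨b, hb⟩ := h7
  rw [hb, mul_assoc, mul_comm 2 p] at h6
  have h8 : b * K.index = 2 := Nat.eq_of_mul_eq_mul_left hp.pos h6
  have h9 : K.index ∣ 2 := ⟨b, by rw [← h8, mul_comm]⟩
  rcases (Nat.dvd_prime Nat.prime_two).mp h9 with h10 | h10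
  · exact Subgroup.index_eq_one.mp h10
  · exfalso
    obtain ⟨f, g, hfg⟩ := exists_hom_of_index_two K h10
    exact hfg (htriv f g)

theorem arith_a (a : ℕ) (ha : 0 < a)
    (h : (2 * a + 1) ∣ a * (a + 1) * (2 * a ^ 2 + 2 * a - 1)) : a = 1 := by
  have h0 : ((2 * a ^ 2 + 2 * a - 1 : ℕ) : ℤ) = 2 * (a : ℤ) ^ 2 + 2 * a - 1 := by
    have : 1 ≤ 2 * a ^ 2 + 2 * a := by nlinarith
    push_cast [Nat.cast_sub this]
    ring
  have h1 : ((2 * a + 1 : ℕ) : ℤ) ∣ ((a * (a + 1) * (2 * a ^ 2 + 2 * a - 1) : ℕ) : ℤ) := by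
    exact_mod_cast h
  rw [Nat.cast_mul, h0] at h1
  push_cast at h1
  set d : ℤ := 2 * (a : ℤ) + 1 with hd
  set e : ℤ := 2 * (a : ℤ) ^ 2 + 2 * a - 1 with he
  have h2 : d ∣ d * (d * e) - 4 * ((a : ℤ) * ((a : ℤ) + 1) * e) :=
    dvd_sub (dvd_mul_right _ _) (Dvd.dvd.mul_left h1 4)
  have h3 : d * (d * e) - 4 * ((a : ℤ) * ((a : ℤ) + 1) * e) = e := by
    rw [hd]; ring
  rw [h3] at h2
  have h4 : d ∣ d * d - 2 * e := dvd_sub (dvd_mul_right _ _) (Dvd.dvd.mul_left h2 2)
  have h5 : d * d - 2 * e = 3 := by rw [hd, he]; ring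
  rw [h5] at h4
  have h6 : d ≤ 3 := Int.le_of_dvd (by norm_num) h4
  have : (a : ℤ) ≤ 1 := by rw [hd] at h6; linarith
  have : a ≤ 1 := by exact_mod_cast this
  omega

theorem arith_cases (p r f z n1 nχ k out w v : ℕ) (δ a : ℤ) (hp5 : 5 ≤ p) (hr : r * 2 + 1 = p)
    (hδ : δ = 1 ∨ δ = -1) (ha : a = 1 ∨ a = -1) (hf : 0 < f) (hz : 0 < z)
    (R1 : δ * z = 1 + a * f) (R2 : (p : ℤ) ∣ (f : ℤ) - a) (R3 : δ * k = n1 + a * nχ - v)
    (hv : v = 0 ∨ v = p) (R4 : 2 * p = n1 + nχ * f + k * (r * z) + out)
    (R5 : n1 ^ 2 + nχ ^ 2 + r * k ^ 2 + w = 3) (hn1 : 1 ≤ n1) (how : out = 0 ↔ w = 0) :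
    a = -1 ∧ δ = -1 ∧ f + 1 = p ∧ z + 2 = p ∧ n1 = 1 ∧ nχ = 1 ∧ k = 0 ∧ v = 0 := by
  have hr2 : 2 ≤ r := by omega
  have hn1' : n1 = 1 := by
    by_contra hcon
    have : 2 ≤ n1 := by omega
    nlinarith
  subst hn1'
  have hnχ : nχ ≤ 1 := by
    by_contra hcon
    have : 2 ≤ nχ := by omega
    nlinarith
  have hk : k ≤ 1 := by
    by_contra hcon
    have : 2 ≤ k := by omega
    nlinarith
  have hfz : (0 : ℤ) < f := by exact_mod_cast hf
  have hzz : (0 : ℤ) < z := by exact_mod_cast hz
  have hp5z : (5 : ℤ) ≤ p := by exact_mod_cast hp5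
  rcases ha with ha | ha
  · exfalso
    subst ha
    have hδ1 : δ = 1 := by
      rcases hδ with h | h
      · exact h
      · rw [h] at R1; omega
    subst hδ1
    rcases hv with hv | hv
    · subst hv
      have hk1 : (k : ℤ) = 1 + nχ := by push_cast at R3; linarith
      have hk2 : k = 1 + nχ := by exact_mod_cast hk1
      have hk3 : k = 1 := by omega
      have hn0 : nχ = 0 := by omega
      subst hk3
      subst hn0
      have hw : w = 0 := by omega
      have hout : out = 0 := how.mpr hw
      have hr3 : r = 2 := by omega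
      subst hr3
      omega
    · subst hv
      have : (k : ℤ) = 1 + nχ - v := by push_cast at R3; linarith
      have h2 : (nχ : ℤ) ≤ 1 := by exact_mod_cast hnχ
      have h3 : (0 : ℤ) ≤ k := by positivity
      omega
  · subst ha
    have hfp : p ≤ f + 1 := by
      have h2 : (p : ℤ) ∣ ((f + 1 : ℕ) : ℤ) := by
        push_cast
        have : (f : ℤ) - -1 = f + 1 := by ring
        rwa [this] at R2
      exact Nat.le_of_dvd (by omega) (by exact_mod_cast h2)
    have hfpz : (p : ℤ) ≤ f + 1 := by exact_mod_cast hfp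
    have hδ1 : δ = -1 := by
      rcases hδ with h | h
      · rw [h] at R1; omega
      · exact h
    subst hδ1
    have hzf : (z : ℤ) + 1 = f := by linarith
    have hzf' : z + 1 = f := by exact_mod_cast hzf
    have hkk : (k : ℤ) = nχ + v - 1 := by push_cast at R3; linarith
    have hk1z : (k : ℤ) ≤ 1 := by exact_mod_cast hk
    have hnz : (0 : ℤ) ≤ nχ := by positivity
    rcases hv with hv | hv
    · subst hv
      have hkz : (0 : ℤ) ≤ k := by positivity
      have hn1 : nχ = 1 := by
        have : (1 : ℤ) ≤ nχ := by push_cast at hkk; omega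
        have : 1 ≤ nχ := by exact_mod_cast this
        omega
      subst hn1
      have hk0 : k = 0 := by
        have : (k : ℤ) = 0 := by push_cast at hkk; omega
        exact_mod_cast this
      subst hk0
      have hw : w = 1 := by omega
      have hout : out ≠ 0 := fun h => by have := how.mp h; omega
      have hlt : f + 1 < 2 * p := by omega
      have h2 : p ∣ f + 1 := by
        have h2 : (p : ℤ) ∣ ((f + 1 : ℕ) : ℤ) := by
          push_cast
          have : (f : ℤ) - -1 = f + 1 := by ring
          rwa [this] at R2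
        exact_mod_cast h2
      obtain ⟨b, hb⟩ := h2
      have hb1 : b = 1 := by
        have hb0 : b ≠ 0 := by rintro rfl; omega
        have hb2 : b < 2 := by
          by_contra hcon
          have : p * 2 ≤ p * b := Nat.mul_le_mul_left p (by omega)
          omega
        omega
      subst hb1
      refine ⟨rfl, rfl, by omega, by omega, rfl, rfl, rfl, rfl⟩
    · exfalso
      subst hv
      omega

end Cfsg.Agent.Lib.Helper59TwoP
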