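import Mathlib
import Cfsg.Prelude.Def_Blocks
import Cfsg.Agent.Lib.Helper59E2Val
import Cfsg.Agent.Lib.Helper59E2Perm
import Cfsg.Agent.Lib.Helper59TwoP
import Cfsg.Agent.Lib.Helper16PermChar
import Cfsg.Agent.Lib.Helper82Quot
import Cfsg.Agent.S0720
import Cfsg.Agent.S0494

set_option autoImplicit false
set_option linter.unusedSectionVars false

/-!
# Primitive permutation groups of degree `2p` with `|N(P)| = 2p`
-/

namespace Cfsg.Agent.Lib.Helper59TwoPMain

open Cfsg Subgroup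
open Cfsg.Agent.Lib.Helper81Base Cfsg.Agent.Lib.Helper81Block Cfsg.Agent.Lib.Helper82Linear
  Cfsg.Agent.Lib.Helper59BLDual
  Cfsg.Agent.Lib.Helper59BLGram Cfsg.Agent.Lib.Helper59BLTw Cfsg.Agent.Lib.Helper59BLStruct
  Cfsg.Agent.Lib.Helper59BLSec Cfsg.Agent.Lib.Helper59BLFin Cfsg.Agent.Lib.Helper59BLMult
  Cfsg.Agent.Lib.Helper59BLThree
  Cfsg.Agent.Lib.Helper4Char Cfsg.Agent.Lib.Helper4Char4 Cfsg.Agent.Lib.Helper59E2
  Cfsg.Agent.Lib.Helper59Perm2 Cfsg.Agent.Lib.Helper59PrimeDeg Cfsg.Agent.Lib.Helper59E2Perm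
  Cfsg.Agent.Lib.Helper59E2Val Cfsg.Agent.Lib.Helper59TwoP
open scoped ComplexConjugate

variable {α : Type*} [Fintype α] [DecidableEq α] {p : ℕ} [Fact p.Prime]
  {G : Subgroup (Equiv.Perm α)} [Fintype G] {M : Ideal AlgInt}
  {P : Sylow p G} [Fintype ↥(P : Subgroup G)] [Fintype (normalizer ((P : Subgroup G) : Set G))]
  [Fintype (↥(P : Subgroup G) →* ℂˣ)]
  {δ : ℤ} {ζ : (↥(P : Subgroup G) →* ℂˣ) → IrrCharacter G}
  {A : IrrCharacter G → ℤ} {χ₁ : IrrCharacter G}

theorem core (c : Ctx M P δ ζ A χ₁) (hAcases : A χ₁ = 1 ∨ A χ₁ = -1) (hp5 : 5 ≤ p) (hα : Fintype.card α = 2 * p)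
    (hprim : MulAction.IsPreprimitive G α) (hnot2 : ¬ MulAction.IsMultiplyPretransitive G α 2)
    (hPc : Nat.card (P : Subgroup G) = p)
    (hidx : (centralizer ((P : Subgroup G) : Set G)).relIndex
      (normalizer ((P : Subgroup G) : Set G)) = 2)
    (hN : Nat.card (normalizer ((P : Subgroup G) : Set G)) = 2 * p) :
    p = 5 ∧ Nonempty (G ≃* alternatingGroup (Fin 5)) := by
  classical
  have hp : p.Prime := Fact.out
  have hne : Nonempty α := by
    rw [← Fintype.card_pos_iff, hα]; omega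
  obtain ⟨a₀⟩ := hne
  have htr : MulAction.IsPretransitive G α := hprim.toIsPretransitive
  rcases Cfsg.Agent.S0720.result hp hα G hprim a₀ with h2 | ⟨hrank, a, ha, hpa, hsub⟩
  · exact absurd h2 hnot2
  have hππ : classInner (fun g : G => (fx α g : ℂ)) (fun g : G => (fx α g : ℂ)) = 3 := by
    have := Cfsg.Agent.Lib.Helper16PermChar.classInner_pc_pc_eq_rank (G := G) (Ω := α) a₀
    rw [hrank] at this
    exact_mod_cast this
  obtain ⟨v, hv, hvP⟩ := fx_const G hα P hPc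
  obtain ⟨η₀, hη₀⟩ := exists_Y c
  have hcY := card_Y c.h c.D hidx
  rw [hPc] at hcY
  set r := Nat.card (Yset ζ) with hr
  set f := charDegree (χ₁ : G → ℂ) with hfdef
  set z := charDegree (η₀ : G → ℂ) with hzdef
  have hf1 : (χ₁ : G → ℂ) 1 = f := (charDegree_eq χ₁).symm
  have hz1 : (η₀ : G → ℂ) 1 = z := (charDegree_eq η₀).symm
  have hfpos : 0 < f := Cfsg.Agent.Lib.Helper82Irr.irr_charDegree_pos χ₁
  have hzpos : 0 < z := Cfsg.Agent.Lib.Helper82Irr.irr_charDegree_pos η₀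
  have hone : ∀ g : G, ((irrOne G : IrrCharacter G) : G → ℂ) g = 1 := fun _ => rfl
  have hX1 : χ₁ ∈ Xset M ζ := by rw [c.hX]; simp
  obtain ⟨n1, nχ, k, out, w, Out, e1, e2, e3, e4, e5, e6, -, e8, e9⟩ :=
    decomp' c (isCharacter_fx (G := G) α) v (fun y hy => by rw [hvP y hy])
  have hn1 : 1 ≤ n1 := by
    apply one_le_of_avg (fun g : G => (fx α g : ℝ)) (fun g => Nat.cast_nonneg _)
    · rw [fx_one, hα]; exact_mod_cast (by omega : 0 < 2 * p)
    · rw [← e1]
      unfold classInner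
      congr 1
      apply Finset.sum_congr rfl
      intro g _
      rw [hone]; simp
  have R1 : δ * z = 1 + A χ₁ * f := by
    have h1 := rel_regular c hη₀ 1 not_dvd_one
    rw [hf1, hz1] at h1
    have : ((δ * z : ℤ) : ℂ) = ((1 + A χ₁ * f : ℤ) : ℂ) := by push_cast; linear_combination h1
    exact_mod_cast this
  have R2 : (p : ℤ) ∣ (f : ℤ) - A χ₁ := by
    have h1 := X_degree_congr c.D hX1
    rwa [hPc] at h1
  have R3 : δ * k = n1 + A χ₁ * nχ - v := by
    have : ((δ * k : ℤ) : ℂ) = ((n1 + A χ₁ * nχ - v : ℤ) : ℂ) := by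
      push_cast; linear_combination e4
    exact_mod_cast this
  have R4 : 2 * p = n1 + nχ * f + k * (r * z) + out := by
    have h1 := e9 1
    rw [fx_one, hα, hf1, YS_regular c hη₀ 1 not_dvd_one, hz1, e5, ← hr] at h1
    exact_mod_cast h1
  have R5 : n1 ^ 2 + nχ ^ 2 + r * k ^ 2 + w = 3 := by
    rw [hππ] at e8
    exact_mod_cast e8.symm
  obtain ⟨hA, hδ, hf, hz, hn1', hnχ, hk, hv0⟩ := arith_cases p r f z n1 nχ k out w v δ (A χ₁) hp5
    hcY c.D.hδ hAcases hfpos hzpos R1 R2 R3 hv R4 R5 hn1 e6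
  have hzY : ∀ η ∈ Yset ζ, charDegree (η : G → ℂ) = z := by
    intro η hη
    have h1 := Y_agree c.D hη hη₀ 1 not_dvd_one
    have : ((charDegree (η : G → ℂ) : ℕ) : ℂ) = ((z : ℕ) : ℂ) := by
      rw [charDegree_eq, h1, hz1]
    exact_mod_cast this
  have htriv := hom_trivial c (by omega) (fun η hη => by rw [hzY η hη]; omega)
  have hsimple := simple_of G hα hprim P hPc hN htriv
  obtain ⟨T, hT, hT1, hreg, hsing, hcard⟩ := values c hA hPc hidx hf hp5
  have hker : ∀ g : G, T g = (p : ℤ) - 1 → g = 1 := by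
    intro g hg
    set K := Cfsg.Agent.Lib.Helper82Quot.charKer (IsIrrCharacter.isCharacter χ₁.2) with hK
    have hgK : g ∈ K := by
      rw [hK, Cfsg.Agent.Lib.Helper82Quot.mem_charKer, hT g, hT 1, hg, hT1]
    rcases hsimple.eq_bot_or_eq_top_of_normal K inferInstance with h1 | h1
    · rw [h1] at hgK
      exact Subgroup.mem_bot.mp hgK
    · exfalso
      have hnt : Nontrivial (P : Subgroup G) := by
        rw [← Finite.one_lt_card_iff_nontrivial, hPc]; exact hp.one_lt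
      obtain ⟨y, hy⟩ := exists_ne (1 : (P : Subgroup G))
      have hyK : (y : G) ∈ K := by rw [h1]; exact Subgroup.mem_top _
      rw [hK, Cfsg.Agent.Lib.Helper82Quot.mem_charKer, hT, hT 1, hT1] at hyK
      have h2 : T (y : G) = (p : ℤ) - 1 := by exact_mod_cast hyK
      have h3 := hsing (y : G) (by rw [orderOf_of_mem hPc y hy])
      have : (5 : ℤ) ≤ p := by exact_mod_cast hp5
      omega
  have hsum : (∑ g : G, if T g = (p : ℤ) - 1 then (1 : ℤ) else 0) = 1 := by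
    rw [Finset.sum_eq_single (1 : G)]
    · rw [if_pos hT1]
    · intro g _ hg
      rw [if_neg (fun h => hg (hker g h))]
    · intro h; exact absurd (Finset.mem_univ _) h
  rw [hsum, mul_one] at hcard
  -- the point stabiliser
  set H := MulAction.stabilizer G a₀ with hH
  have hHidx : H.index = 2 * p := by
    rw [hH, MulAction.index_stabilizer_of_transitive, Nat.card_eq_fintype_card, hα]
  have hHcard := H.card_mul_index
  rw [hHidx] at hHcard
  obtain ⟨b, hb⟩ : ∃ b : α, b ≠ a₀ :=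
    Fintype.exists_ne_of_one_lt_card (by rw [hα]; omega) a₀
  have hdvd : Nat.card (MulAction.orbit H b) ∣ Nat.card H := by
    rw [Nat.card_coe_set_eq, ← MulAction.index_stabilizer]
    exact Subgroup.index_dvd_card _
  have hd2 : (2 * a + 1) ∣ Nat.card H := by
    rcases hsub b hb with h | h
    · exact (Dvd.intro_left _ rfl).trans (h ▸ hdvd)
    · exact (Dvd.intro_left _ rfl).trans (h ▸ hdvd)
  have hHc : Nat.card H = a * (a + 1) * (2 * a ^ 2 + 2 * a - 1) := by
    have h0 : ((2 * a ^ 2 + 2 * a - 1 : ℕ) : ℤ) = 2 * (a : ℤ) ^ 2 + 2 * a - 1 := by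
      have : 1 ≤ 2 * a ^ 2 + 2 * a := by nlinarith
      push_cast [Nat.cast_sub this]
      ring
    have h1 : ((Nat.card H * (2 * p) : ℕ) : ℤ) = (p : ℤ) * (p - 1) * (p - 2) := by
      rw [hHcard]; exact hcard
    have hpz : (p : ℤ) = 2 * (a : ℤ) ^ 2 + 2 * a + 1 := by exact_mod_cast hpa
    have hp0 : (p : ℤ) ≠ 0 := by exact_mod_cast hp.ne_zero
    have h2 : ((Nat.card H : ℕ) : ℤ) = ((a * (a + 1) * (2 * a ^ 2 + 2 * a - 1) : ℕ) : ℤ) := by
      rw [Nat.cast_mul, h0]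
      push_cast at h1 ⊢
      have h3 : (2 * (p : ℤ)) * (Nat.card H : ℤ)
          = (2 * (p : ℤ)) * ((a : ℤ) * ((a : ℤ) + 1) * (2 * (a : ℤ) ^ 2 + 2 * a - 1)) := by
        have e1 : (p : ℤ) - 1 = 2 * ((a : ℤ) * ((a : ℤ) + 1)) := by rw [hpz]; ring
        have e2 : (p : ℤ) - 2 = 2 * (a : ℤ) ^ 2 + 2 * a - 1 := by rw [hpz]; ring
        rw [e1, e2] at h1
        linear_combination h1
      exact mul_left_cancel₀ (mul_ne_zero two_ne_zero hp0) h3
    exact_mod_cast h2
  rw [hHc] at hd2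
  have ha1 : a = 1 := arith_a a ha hd2
  have hp5' : p = 5 := by rw [hpa, ha1]; norm_num
  refine ⟨hp5', ?_⟩
  have hc60 : Nat.card G = 60 := by
    have : ((Nat.card G : ℕ) : ℤ) = 60 := by
      rw [hcard, hp5']; norm_num
    exact_mod_cast this
  exact Cfsg.Agent.S0494.result hc60

end Cfsg.Agent.Lib.Helper59TwoPMain
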