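import Mathlib
import Cfsg.Agent.S0001
import Cfsg.Agent.Lib.Helper19Det
import Cfsg.Agent.Lib.Helper77Glaub4
import Cfsg.Agent.Lib.Helper79Coset
import Cfsg.Agent.Lib.Helper79GalConj
import Cfsg.Agent.Lib.Helper32Virt
import Cfsg.Agent.S0177
import Cfsg.Agent.S1491

set_option autoImplicit false

/-!
Group theoretic part of the cyclic case of the Glauberman correspondence (Isaacs 13.8):
`Γ = G ⟨s⟩`, `G` normal of order prime to the order of `s`.
-/

namespace Cfsg.Agent.Lib.Helper5GlaubCyc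

open Cfsg

section GroupPart

variable {Γ G : Type*} [Group Γ] [Group G] [Finite Γ]
  (ι : G →* Γ) (hι : Function.Injective ι) (cj : Γ →* MulAut G)
  (hcj : ∀ (x : Γ) (g : G), ι (cj x g) = x * ι g * x⁻¹)
  (s : Γ) (hgen : ι.range ⊔ Subgroup.zpowers s = ⊤) (hcop : (Nat.card G).Coprime (orderOf s))

include hι in
theorem card_range : Nat.card ι.range = Nat.card G :=
  (Nat.card_congr (MonoidHom.ofInjective hι).toEquiv).symm

include hι hcop in
theorem disjoint_zpowers (t : Γ) (ht : orderOf t ∣ orderOf s) :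
    Disjoint ι.range (Subgroup.zpowers t) := by
  apply Subgroup.disjoint_of_coprime_natCard
  rw [card_range ι hι, Nat.card_zpowers]
  exact Nat.Coprime.coprime_dvd_right ht hcop

include hcj hgen in
theorem exists_decomp (x : Γ) : ∃ (g : G) (i : ℤ), x = ι g * s ^ i := by
  have := Helper19Det.range_normal ι cj hcj
  obtain ⟨k, ⟨g, rfl⟩, h, hh, rfl⟩ :=
    Helper77Glaub4.exists_mul_of_sup_eq_top ι.range (Subgroup.zpowers s) hgen x
  obtain ⟨i, rfl⟩ := Subgroup.mem_zpowers_iff.mp hh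
  exact ⟨g, i, rfl⟩

include hι hcj hcop in
theorem isComplement_zpowers (t : Γ) (ht : orderOf t ∣ orderOf s)
    (hsup : ι.range ⊔ Subgroup.zpowers t = ⊤) :
    Subgroup.IsComplement' ι.range (Subgroup.zpowers t) := by
  have := Helper19Det.range_normal ι cj hcj
  exact Subgroup.isComplement'_of_disjoint_and_mul_eq_univ (disjoint_zpowers ι hι s hcop t ht)
    (by rw [← Subgroup.normal_mul, hsup]; rfl)

include hι hcj hgen hcop in
theorem card_eq : Nat.card Γ = Nat.card G * orderOf s := by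
  have := (isComplement_zpowers ι hι cj hcj s hcop s dvd_rfl hgen).card_mul_card
  rw [card_range ι hι, Nat.card_zpowers] at this
  exact this.symm

include hι hcj hgen hcop in
theorem index_range : ι.range.index = orderOf s := by
  have h1 := ι.range.card_mul_index
  rw [card_range ι hι, card_eq ι hι cj hcj s hgen hcop] at h1
  have : Finite G := Finite.of_injective ι hι
  exact Nat.eq_of_mul_eq_mul_left Nat.card_pos h1

include hcj hgen in
theorem isCyclic_quotient [ι.range.Normal] : IsCyclic (Γ ⧸ ι.range) := by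
  apply isCyclic_of_surjective ((QuotientGroup.mk' ι.range).comp (Subgroup.zpowers s).subtype)
  intro z
  obtain ⟨x, rfl⟩ := QuotientGroup.mk_surjective z
  obtain ⟨g, i, rfl⟩ := exists_decomp ι cj hcj s hgen x
  refine ⟨⟨s ^ i, Subgroup.zpow_mem_zpowers s i⟩, ?_⟩
  change ((s ^ i : Γ) : Γ ⧸ ι.range) = ((ι g * s ^ i : Γ) : Γ ⧸ ι.range)
  have hg : ((ι g : Γ) : Γ ⧸ ι.range) = 1 :=
    (QuotientGroup.eq_one_iff (N := ι.range) (ι g)).mpr ⟨g, rfl⟩
  rw [QuotientGroup.mk_mul, hg, one_mul]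

include hι hcj hgen hcop in
/-- Isaacs 13.8 (a): every element of the coset `G s` is `G`-conjugate to `c s` with `c`
centralising `s`. -/
theorem exists_conj_rep (y : G) :
    ∃ (g c : G), s * ι c = ι c * s ∧ ι g * (ι c * s) * (ι g)⁻¹ = ι y * s := by
  have hnorm := Helper19Det.range_normal ι cj hcj
  have hfinG : Finite G := Finite.of_injective ι hι
  set m := Nat.card G with hm
  set n := orderOf s with hn
  have hcardΓ := card_eq ι hι cj hcj s hgen hcop
  obtain ⟨k, hk0, hk1⟩ := Nat.chineseRemainder hcop 0 1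
  set x := ι y * s with hx
  set t := x ^ k with ht
  have hsk : s ^ k = s := by
    have := (pow_eq_pow_iff_modEq (x := s) (n := k) (m := 1)).mpr hk1
    rwa [pow_one] at this
  -- t ≡ s mod N
  have hts : t * s⁻¹ ∈ ι.range := by
    have hy : ((ι y : Γ) : Γ ⧸ ι.range) = 1 :=
      (QuotientGroup.eq_one_iff (N := ι.range) (ι y)).mpr ⟨y, rfl⟩
    rw [← QuotientGroup.eq_one_iff, QuotientGroup.mk_mul, QuotientGroup.mk_inv, ht,
      QuotientGroup.mk_pow, hx, QuotientGroup.mk_mul, hy,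
      one_mul, ← QuotientGroup.mk_pow, hsk, mul_inv_cancel]
  have htn : t ^ n = 1 := by
    obtain ⟨k', hk'⟩ := (Nat.modEq_zero_iff_dvd.mp hk0)
    rw [ht, ← pow_mul, hk', mul_right_comm, ← hcardΓ, pow_mul, pow_card_eq_one', one_pow]
  have hot : orderOf t ∣ n := orderOf_dvd_of_pow_eq_one htn
  have hsup : ι.range ⊔ Subgroup.zpowers t = ⊤ := by
    rw [eq_top_iff, ← hgen]
    apply sup_le le_sup_left
    rw [Subgroup.zpowers_le]
    have h1 : s = (t * s⁻¹)⁻¹ * t := by group
    rw [h1]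
    exact Subgroup.mul_mem _ (Subgroup.inv_mem _ (Subgroup.mem_sup_left hts))
      (Subgroup.mem_sup_right (Subgroup.mem_zpowers t))
  have hc1 := isComplement_zpowers ι hι cj hcj s hcop s dvd_rfl hgen
  have hc2 := isComplement_zpowers ι hι cj hcj s hcop t hot hsup
  have hsolv : Group.IsSolvable (Γ ⧸ ι.range) := by
    have hcyc := isCyclic_quotient ι cj hcj s hgen
    exact Group.isSolvable_of_comm (fun a b => hcyc.commGroup.mul_comm a b)
  obtain ⟨γ, hγ⟩ := Cfsg.Agent.S0001.result ι.range (by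
    rw [card_range ι hι, index_range ι hι cj hcj s hgen hcop]; exact hcop) (Or.inr hsolv)
    _ _ hc1 hc2
  obtain ⟨g, i, rfl⟩ := exists_decomp ι cj hcj s hgen γ
  have hw : ι g * s * (ι g)⁻¹ ∈ Subgroup.zpowers t := by
    rw [← hγ]
    have h1 : ι g * s * (ι g)⁻¹ = MulAut.conj (ι g * s ^ i) • s := by
      rw [MulAut.smul_def, MulAut.conj_apply]
      group
    rw [h1]
    exact Subgroup.smul_mem_pointwise_smul _ _ _ (Subgroup.mem_zpowers s)
  have hws : ι g * s * (ι g)⁻¹ * s⁻¹ ∈ ι.range := by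
    refine ⟨g * cj s g⁻¹, ?_⟩
    rw [map_mul, hcj, map_inv]
    group
  have hwt : ι g * s * (ι g)⁻¹ = t := by
    have h1 : ι g * s * (ι g)⁻¹ * t⁻¹ ∈ ι.range := by
      have h2 : ι g * s * (ι g)⁻¹ * t⁻¹ = (ι g * s * (ι g)⁻¹ * s⁻¹) * (t * s⁻¹)⁻¹ := by group
      rw [h2]
      exact Subgroup.mul_mem _ hws (Subgroup.inv_mem _ hts)
    have h3 : ι g * s * (ι g)⁻¹ * t⁻¹ ∈ Subgroup.zpowers t :=
      Subgroup.mul_mem _ hw (Subgroup.inv_mem _ (Subgroup.mem_zpowers t))
    have h4 := (Subgroup.disjoint_def.mp (disjoint_zpowers ι hι s hcop t hot)) h1 h3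
    exact mul_inv_eq_one.mp h4
  have hxt : x * t = t * x := by
    rw [ht, ← pow_succ', ← pow_succ]
  refine ⟨g, g⁻¹ * y * cj s g, ?_, ?_⟩
  · have h1 : ι (g⁻¹ * y * cj s g) = (ι g)⁻¹ * x * ι g * s⁻¹ := by
      rw [map_mul, map_mul, hcj, map_inv, hx]
      group
    have h2 : s = (ι g)⁻¹ * t * ι g := by rw [← hwt]; group
    rw [h1]
    have h3 : s * ((ι g)⁻¹ * x * ι g) = (ι g)⁻¹ * x * ι g * s := by
      conv_lhs => rw [h2]
      conv_rhs => rw [h2]
      have : (ι g)⁻¹ * t * ι g * ((ι g)⁻¹ * x * ι g) = (ι g)⁻¹ * (t * x) * ι g := by group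
      rw [this, ← hxt]
      group
    calc s * ((ι g)⁻¹ * x * ι g * s⁻¹) = (s * ((ι g)⁻¹ * x * ι g)) * s⁻¹ := by group
      _ = (ι g)⁻¹ * x * ι g * s * s⁻¹ := by rw [h3]
      _ = (ι g)⁻¹ * x * ι g * s⁻¹ * s := by group
  · rw [map_mul, map_mul, hcj, map_inv, hx]
    group

end GroupPart

section Count

variable {Γ G C : Type*} [Group Γ] [Group G] [Group C] [Fintype Γ] [Fintype G] [Fintype C]
  (ι : G →* Γ) (hι : Function.Injective ι) (cj : Γ →* MulAut G)
  (hcj : ∀ (x : Γ) (g : G), ι (cj x g) = x * ι g * x⁻¹)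
  (s : Γ) (hgen : ι.range ⊔ Subgroup.zpowers s = ⊤) (hcop : (Nat.card G).Coprime (orderOf s))
  (j : C →* G) (hj : Function.Injective j) (hC : ∀ g : G, g ∈ j.range ↔ s * ι g = ι g * s)

include hι hcj hgen hcop hj hC in
/-- Averages of a class function over the coset `G s` and over `C s` agree. -/
theorem sum_coset_eq (F : Γ → ℂ) (hF : Cfsg.IsClassFunction Γ F) :
    (Nat.card C : ℂ) * ∑ y : G, F (ι y * s) = (Nat.card G : ℂ) * ∑ c : C, F (ι (j c) * s) := by
  classical
  choose gy cy' h1 h2 using exists_conj_rep ι hι cj hcj s hgen hcop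
  have h3 : ∀ y, ∃ c : C, j c = cy' y := fun y => (hC (cy' y)).mpr (h1 y)
  choose cy hcy using h3
  have hcomm : ∀ h : C, s * ι (j h) = ι (j h) * s := fun h => (hC (j h)).mp ⟨h, rfl⟩
  set Φ : G → C → G := fun g c => g * j c * cj s g⁻¹ with hΦdef
  have hΦ : ∀ g c, ι (Φ g c) * s = ι g * (ι (j c) * s) * (ι g)⁻¹ := by
    intro g c
    simp only [hΦdef, map_mul, hcj, map_inv]
    group
  set Ψ : G × C → G × C := fun p => (gy p.1 * (j p.2)⁻¹, p.2 * cy p.1 * p.2⁻¹) with hΨdef
  have hΦΨ : ∀ p, Φ (Ψ p).1 (Ψ p).2 = p.1 := by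
    rintro ⟨y, h⟩
    apply hι
    apply mul_right_cancel (b := s)
    rw [hΦ, ← h2 y, ← hcy y]
    simp only [hΨdef, map_mul, map_inv]
    have e1 : (ι (j h))⁻¹ * s = s * (ι (j h))⁻¹ := by
      rw [inv_mul_eq_iff_eq_mul, ← mul_assoc, ← hcomm h, mul_assoc, mul_inv_cancel, mul_one]
    calc ι (gy y) * (ι (j h))⁻¹ * (ι (j h) * ι (j (cy y)) * (ι (j h))⁻¹ * s) *
          (ι (gy y) * (ι (j h))⁻¹)⁻¹
        = ι (gy y) * ι (j (cy y)) * ((ι (j h))⁻¹ * s) * ι (j h) * (ι (gy y))⁻¹ := by group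
      _ = ι (gy y) * ι (j (cy y)) * (s * (ι (j h))⁻¹) * ι (j h) * (ι (gy y))⁻¹ := by rw [e1]
      _ = ι (gy y) * (ι (j (cy y)) * s) * (ι (gy y))⁻¹ := by group
  have hΨinj : Function.Injective Ψ := by
    rintro ⟨y, h⟩ ⟨y', h'⟩ hp
    have e1 : y = y' := by
      have a1 := hΦΨ (y, h)
      have a2 := hΦΨ (y', h')
      rw [hp] at a1
      exact a1.symm.trans a2
    subst e1
    have e2 : gy y * (j h)⁻¹ = gy y * (j h')⁻¹ := congrArg Prod.fst hp
    have e3 : h = h' := hj (inv_injective (mul_left_cancel e2))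
    rw [e3]
  have hΨbij : Function.Bijective Ψ := Finite.injective_iff_bijective.mp hΨinj
  have s1 : ∑ p : G × C, F (ι (Φ p.1 p.2) * s) = (Nat.card G : ℂ) * ∑ c : C, F (ι (j c) * s) := by
    rw [Fintype.sum_prod_type]
    have : ∀ g : G, ∑ c : C, F (ι (Φ g c) * s) = ∑ c : C, F (ι (j c) * s) := by
      intro g
      apply Finset.sum_congr rfl
      intro c _
      rw [hΦ, hF]
    rw [Finset.sum_congr rfl (fun g _ => this g), Finset.sum_const, Finset.card_univ,
      nsmul_eq_mul, Nat.card_eq_fintype_card]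
  have s2 : ∑ p : G × C, F (ι (Φ p.1 p.2) * s) = (Nat.card C : ℂ) * ∑ y : G, F (ι y * s) := by
    rw [← (Equiv.ofBijective Ψ hΨbij).sum_comp]
    have : ∀ p : G × C, F (ι (Φ ((Equiv.ofBijective Ψ hΨbij) p).1
        ((Equiv.ofBijective Ψ hΨbij) p).2) * s) = F (ι p.1 * s) := by
      intro p
      rw [Equiv.ofBijective_apply, hΦΨ]
    rw [Finset.sum_congr rfl (fun p _ => this p), Fintype.sum_prod_type]
    simp only [Finset.sum_const, Finset.card_univ, nsmul_eq_mul]
    rw [← Finset.mul_sum, Nat.card_eq_fintype_card]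
  rw [← s1, ← s2]

end Count

section CosetOrth

open Helper4Char Helper4Char2 Helper4Char4 Helper19Lin Helper79Coset
open scoped ComplexConjugate

theorem eq_zero_of_degree_zero {Γ : Type*} [Group Γ] {X : Γ → ℂ} (hX : Cfsg.IsCharacter Γ X)
    (h0 : X 1 = 0) : X = 0 := by
  obtain ⟨n, ρ, rfl⟩ := hX
  rw [Representation.char_one, Module.finrank_fin_fun] at h0
  have hn : n = 0 := by exact_mod_cast h0
  subst hn
  funext g
  have : ρ g = 0 := Subsingleton.elim _ _
  simp [Representation.character, this]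

variable {Γ G : Type*} [Group Γ] [Group G] [Fintype Γ] [Fintype G]
  (ι : G →* Γ) (hι : Function.Injective ι)

include hι in
theorem avg_range_apply (f : Γ → ℂ) (t : Γ) :
    avg ι.range f t = (Nat.card G : ℂ)⁻¹ * ∑ y : G, f (ι y * t) := by
  classical
  unfold avg
  rw [card_range ι hι, sum_ind_mul ι.range (fun x => f (x * t))]
  congr 1
  exact (Fintype.sum_equiv (MonoidHom.ofInjective hι).toEquiv _ _ (fun y => rfl)).symm

include hι in
theorem coset_orth_ne [ι.range.Normal] {φ ϑ : Γ → ℂ} (hφ : Cfsg.IsCharacter Γ φ)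
    (hϑ : Cfsg.IsCharacter Γ ϑ) (hφG : Cfsg.IsIrrCharacter G (fun g => φ (ι g)))
    (hϑG : Cfsg.IsIrrCharacter G (fun g => ϑ (ι g)))
    (hne : (fun g => φ (ι g)) ≠ (fun g => ϑ (ι g))) (t : Γ) :
    ∑ y : G, φ (ι y * t) * conj (ϑ (ι y * t)) = 0 := by
  have hX := avg_isCharacter ι.range (IsCharacter.mul hφ (IsCharacter.conj hϑ))
  have h1 := avg_range_apply ι hι (φ * fun g => conj (ϑ g)) 1
  have h2 : Cfsg.classInner (fun g => φ (ι g)) (fun g => ϑ (ι g)) = 0 :=
    classInner_irr_ne hφG hϑG hne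
  have h3 : avg ι.range (φ * fun g => conj (ϑ g)) 1 = 0 := by
    rw [h1, ← h2]
    unfold Cfsg.classInner
    simp
  have h4 := eq_zero_of_degree_zero hX h3
  have h5 := avg_range_apply ι hι (φ * fun g => conj (ϑ g)) t
  rw [h4] at h5
  have h6 : (Nat.card G : ℂ)⁻¹ ≠ 0 := inv_ne_zero card_ne_zero
  have h7 := (mul_eq_zero.mp h5.symm).resolve_left h6
  simpa using h7

include hι in
theorem coset_orth_self [ι.range.Normal] {φ : Γ → ℂ} (hφ : Cfsg.IsCharacter Γ φ)
    (hφG : Cfsg.IsIrrCharacter G (fun g => φ (ι g))) (t : Γ) :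
    ∑ y : G, φ (ι y * t) * conj (φ (ι y * t)) = (Nat.card G : ℂ) := by
  have hX := avg_isCharacter ι.range (IsCharacter.mul hφ (IsCharacter.conj hφ))
  have h1 := avg_range_apply ι hι (φ * fun g => conj (φ g)) 1
  have h2 : Cfsg.classInner (fun g => φ (ι g)) (fun g => φ (ι g)) = 1 := classInner_irr_self hφG
  have h3 : avg ι.range (φ * fun g => conj (φ g)) 1 = 1 := by
    rw [h1, ← h2]
    unfold Cfsg.classInner
    simp
  obtain ⟨b, hb⟩ := exists_hom_of_linear hX h3
  have h5 := avg_range_apply ι hι (φ * fun g => conj (φ g)) t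
  rw [← hb, homFun_apply] at h5
  have hnorm : ‖((b t : ℂˣ) : ℂ)‖ = 1 := by
    apply Complex.norm_eq_one_of_pow_eq_one (n := Nat.card Γ) _ Nat.card_pos.ne'
    rw [← Units.val_pow_eq_pow_val, ← map_pow, pow_card_eq_one', map_one, Units.val_one]
  have hreal : (Nat.card G : ℂ)⁻¹ * ∑ y : G, (φ * fun g => conj (φ g)) (ι y * t) =
      (((Nat.card G : ℝ)⁻¹ * ∑ y : G, ‖φ (ι y * t)‖ ^ 2 : ℝ) : ℂ) := by
    push_cast
    congr 1
    apply Finset.sum_congr rfl
    intro y _
    rw [Pi.mul_apply, Complex.mul_conj, Complex.normSq_eq_norm_sq]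
    push_cast
    rfl
  rw [hreal] at h5
  have h6 : (Nat.card G : ℝ)⁻¹ * ∑ y : G, ‖φ (ι y * t)‖ ^ 2 = 1 := by
    rw [h5, Complex.norm_real, Real.norm_of_nonneg (by positivity)] at hnorm
    exact hnorm
  have h7 : (Nat.card G : ℂ)⁻¹ * ∑ y : G, (φ * fun g => conj (φ g)) (ι y * t) = 1 := by
    rw [hreal, h6]; simp
  have h8 : (Nat.card G : ℂ) ≠ 0 := card_ne_zero
  have h9 : ∑ y : G, (φ * fun g => conj (φ g)) (ι y * t) = (Nat.card G : ℂ) := by
    field_simp at h7
    exact h7
  simpa using h9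

end CosetOrth

section GalStable

open Helper4Char Helper4Char2 Helper4Char4 Helper19Lin Helper19Det Helper79GalConj
open scoped ComplexConjugate

variable {Γ G : Type*} [Group Γ] [Group G] [Fintype Γ] [Fintype G]
  (ι : G →* Γ) (hι : Function.Injective ι) (cj : Γ →* MulAut G)
  (hcj : ∀ (x : Γ) (g : G), ι (cj x g) = x * ι g * x⁻¹)
  (s : Γ) (hgen : ι.range ⊔ Subgroup.zpowers s = ⊤) (hcop : (Nat.card G).Coprime (orderOf s))

/-- the `k`-th power map on a cyclic subgroup, as a homomorphism into the group -/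
def powHom {Γ : Type*} [Group Γ] (s : Γ) (k : ℕ) : Subgroup.zpowers s →* Γ where
  toFun a := (a : Γ) ^ k
  map_one' := by simp
  map_mul' a b := by
    obtain ⟨i, hi⟩ := Subgroup.mem_zpowers_iff.mp a.2
    obtain ⟨j, hj⟩ := Subgroup.mem_zpowers_iff.mp b.2
    have hc : Commute (a : Γ) (b : Γ) := by
      rw [← hi, ← hj]
      exact Commute.zpow_zpow_self s i j
    rw [Subgroup.coe_mul, hc.mul_pow]

include hι hcj hgen hcop in
/-- The canonical extension is fixed by the Galois automorphisms over the `|G|`-th cyclotomic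
field. -/
theorem canon_pow {χh : Γ → ℂ} (hχh : Cfsg.IsIrrCharacter Γ χh)
    (hres : Cfsg.IsIrrCharacter G (fun g => χh (ι g))) (hdet : Cfsg.detChar χh s = 1) (k : ℕ)
    (hk1 : k ≡ 1 [MOD Nat.card G]) (hk2 : k.Coprime (orderOf s)) (x : Γ) :
    χh (x ^ k) = χh x := by
  have hkG : k.Coprime (Nat.card G) := by
    unfold Nat.Coprime
    rw [hk1.gcd_eq]; simp
  have hkΓ : k.Coprime (Nat.card Γ) := by
    rw [card_eq ι hι cj hcj s hgen hcop]
    exact Nat.Coprime.mul_right hkG hk2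
  have hχ' := isIrrCharacter_pow hχh k hkΓ
  have hχhc := IsIrrCharacter.isCharacter hχh
  have hχ'c := IsIrrCharacter.isCharacter hχ'
  have hpowG : ∀ g : G, g ^ k = g := by
    intro g
    have := (pow_eq_pow_iff_modEq (x := g) (n := k) (m := 1)).mpr
      (hk1.of_dvd (orderOf_dvd_natCard g))
    rwa [pow_one] at this
  have hext' : ∀ g : G, χh ((ι g) ^ k) = χh (ι g) := by
    intro g
    rw [← map_pow, hpowG]
  obtain ⟨f, hf⟩ := exists_detHom hχhc
  obtain ⟨f', hf'⟩ := exists_detHom hχ'c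
  have hfs : f s = 1 := by
    apply Units.ext
    rw [hf] at hdet
    exact hdet
  have hff : f' = f := by
    have hle : ι.range ⊔ Subgroup.zpowers s ≤ MonoidHom.eqLocus f' f := by
      apply sup_le
      · rintro _ ⟨g, rfl⟩
        have a1 := congrFun (detChar_comp ι hχ'c) g
        have a2 := congrFun (detChar_comp ι hχhc) g
        have a3 : (fun n => χh ((ι n) ^ k)) = fun n => χh (ι n) := funext hext'
        rw [a3, a2, hf, hf'] at a1
        exact Units.ext a1.symm
      · rw [Subgroup.zpowers_le]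
        have b1 := congrFun (detChar_comp (Subgroup.zpowers s).subtype hχ'c)
          ⟨s, Subgroup.mem_zpowers s⟩
        have b2 := congrFun (detChar_comp (powHom s k) hχhc) ⟨s, Subgroup.mem_zpowers s⟩
        have b3 : (fun a : Subgroup.zpowers s => χh (((Subgroup.zpowers s).subtype a) ^ k)) =
            fun a => χh (powHom s k a) := rfl
        rw [b3, b2, hf, hf'] at b1
        have b4 : homFun f (powHom s k ⟨s, Subgroup.mem_zpowers s⟩) = 1 := by
          change ((f (s ^ k) : ℂˣ) : ℂ) = 1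
          rw [map_pow, hfs, one_pow, Units.val_one]
        rw [b4] at b1
        change f' s = f s
        rw [hfs]
        exact Units.ext b1.symm
    rw [hgen] at hle
    ext y
    have : y ∈ MonoidHom.eqLocus f' f := hle (Subgroup.mem_top y)
    rw [this]
  obtain ⟨d, -, hd⟩ := IsIrrCharacter.exists_degree hres
  have hdG : d ∣ Nat.card G := Cfsg.Agent.S1491.degree_dvd_card hres d hd
  have huniq := det_unique_ext ι hι cj hcj hres d hd (by
    rw [index_range ι hι cj hcj s hgen hcop]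
    exact (Nat.Coprime.coprime_dvd_left hdG hcop).symm) ⟨χh, hχh, fun _ => rfl⟩ f (by
    intro n
    have a2 := congrFun (detChar_comp ι hχhc) n
    rw [a2, hf])
  have e1 := huniq.unique (y₁ := χh) (y₂ := fun x => χh (x ^ k)) ⟨hχh, fun _ => rfl, hf⟩
    ⟨hχ', hext', by rw [hf', hff]⟩
  exact (congrFun e1 x).symm

end GalStable

section Partial

open Helper4Char Helper4Char2 Helper4Char4
open scoped ComplexConjugate

/-- For commuting images of `C` and `A` in `Γ`, the multiplicity function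
`a ↦ [χ(· a), φ]_C` is a character of `A`. -/
theorem partial_inner_isCharacter {Γ C A : Type*} [Group Γ] [Group C] [Group A] [Fintype C]
    [Fintype A] (f : C →* Γ) (g : A →* Γ) (comm : ∀ c a, Commute (f c) (g a))
    {χ : Γ → ℂ} (hχ : Cfsg.IsCharacter Γ χ) {φ : C → ℂ} (hφ : Cfsg.IsCharacter C φ) :
    Cfsg.IsCharacter A (fun a => Cfsg.classInner (fun c => χ (f c * g a)) φ) := by
  have hcl := IsCharacter.isClassFunction hχ
  apply isCharacter_of_classInner_nat
  · intro a h
    have : (fun c => χ (f c * g (h * a * h⁻¹))) = fun c => χ (f c * g a) := by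
      funext c
      rw [← hcl (f c * g a) (g h)]
      congr 1
      rw [map_mul, map_mul, map_inv]
      have e := (comm c h).eq
      calc f c * (g h * g a * (g h)⁻¹) = (f c * g h) * g a * (g h)⁻¹ := by group
        _ = (g h * f c) * g a * (g h)⁻¹ := by rw [e]
        _ = g h * (f c * g a) * (g h)⁻¹ := by group
    simp only [this]
  · intro lam
    obtain ⟨n, hn⟩ := IsCharacter.classInner_nat
      (IsCharacter.comp (MonoidHom.noncommCoprod f g comm) hχ)
      (IsCharacter.mul (IsCharacter.comp (MonoidHom.fst C A) hφ)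
        (IsCharacter.comp (MonoidHom.snd C A) (IsIrrCharacter.isCharacter lam.2)))
    refine ⟨n, ?_⟩
    rw [← hn]
    unfold Cfsg.classInner
    rw [Nat.card_prod, Fintype.sum_prod_type_right]
    simp only [MonoidHom.noncommCoprod_apply, Pi.mul_apply, MonoidHom.coe_fst, MonoidHom.coe_snd,
      map_mul]
    push_cast
    rw [mul_inv, mul_comm (Nat.card C : ℂ)⁻¹, mul_assoc]
    congr 1
    rw [Finset.mul_sum]
    apply Finset.sum_congr rfl
    intro a _
    rw [Finset.mul_sum, Finset.mul_sum, Finset.sum_mul]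
    apply Finset.sum_congr rfl
    intro c _
    ring

end Partial

section Main

open Helper4Char Helper4Char2 Helper4Char3 Helper4Char4 Helper32Virt
open scoped ComplexConjugate

/-- A character value which is constant on the generators of a cyclic subgroup is a rational
integer. -/
theorem int_of_gen_const {A : Type*} [Group A] [Fintype A] {ψ : A → ℂ}
    (hψ : Cfsg.IsCharacter A ψ) (a₀ : A)
    (h : ∀ a : A, Subgroup.zpowers a = Subgroup.zpowers a₀ → ψ a = ψ a₀) : ∃ z : ℤ, ψ a₀ = z := by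
  classical
  obtain ⟨z, hz⟩ := Cfsg.Agent.S0177.gen_sum_int hψ (Subgroup.zpowers a₀)
  have h1 : ∑ a ∈ Finset.univ.filter (fun a : A => Subgroup.zpowers a = Subgroup.zpowers a₀), ψ a
      = ((Finset.univ.filter (fun a : A => Subgroup.zpowers a = Subgroup.zpowers a₀)).card : ℂ)
        * ψ a₀ := by
    rw [Finset.sum_congr rfl (fun a ha => h a (Finset.mem_filter.mp ha).2), Finset.sum_const,
      nsmul_eq_mul]
  set N := (Finset.univ.filter (fun a : A => Subgroup.zpowers a = Subgroup.zpowers a₀)).card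
    with hN
  have hNpos : 0 < N := Finset.card_pos.mpr ⟨a₀, by simp⟩
  have hN0 : (N : ℂ) ≠ 0 := Nat.cast_ne_zero.mpr hNpos.ne'
  have h2 : ψ a₀ = (((z : ℚ) / (N : ℚ) : ℚ) : ℂ) := by
    push_cast
    rw [eq_div_iff hN0, mul_comm, ← h1, ← hz]
    simp
  obtain ⟨y, hy⟩ := exists_int_of_isIntegral_rat ((z : ℚ) / (N : ℚ))
    (h2 ▸ IsCharacter.isIntegral hψ a₀)
  refine ⟨y, ?_⟩
  rw [h2, ← hy]
  simp

variable {Γ G C : Type*} [Group Γ] [Group G] [Group C] [Fintype Γ] [Fintype G] [Fintype C]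
  (ι : G →* Γ) (hι : Function.Injective ι) (cj : Γ →* MulAut G)
  (hcj : ∀ (x : Γ) (g : G), ι (cj x g) = x * ι g * x⁻¹)
  (s : Γ) (hgen : ι.range ⊔ Subgroup.zpowers s = ⊤) (hcop : (Nat.card G).Coprime (orderOf s))
  (j : C →* G) (hj : Function.Injective j) (hC : ∀ g : G, g ∈ j.range ↔ s * ι g = ι g * s)

include hι hcj hgen hcop hC in
theorem canon_gen {χh : Γ → ℂ} (hχh : Cfsg.IsIrrCharacter Γ χh)
    (hres : Cfsg.IsIrrCharacter G (fun g => χh (ι g))) (hdet : Cfsg.detChar χh s = 1) (c : C)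
    (k : ℕ) (hk : k.Coprime (orderOf s)) : χh (ι (j c) * s ^ k) = χh (ι (j c) * s) := by
  obtain ⟨k', hk1, hk2⟩ := Nat.chineseRemainder hcop 1 k
  have hk'cop : k'.Coprime (orderOf s) := by
    unfold Nat.Coprime
    rw [hk2.gcd_eq]; exact hk
  rw [← canon_pow ι hι cj hcj s hgen hcop hχh hres hdet k' hk1 hk'cop (ι (j c) * s)]
  have hcomm : Commute (ι (j c)) s := ((hC (j c)).mp ⟨c, rfl⟩).symm
  rw [hcomm.mul_pow, (pow_eq_pow_iff_modEq (x := s)).mpr hk2, ← map_pow]
  have := (pow_eq_pow_iff_modEq (x := j c) (n := k') (m := 1)).mpr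
    (hk1.of_dvd (orderOf_dvd_natCard (j c)))
  rw [this, pow_one]

theorem exists_pow_of_zpowers_eq {Γ : Type*} [Group Γ] [Finite Γ] (s a : Γ)
    (h : Subgroup.zpowers a = Subgroup.zpowers s) : ∃ k : ℕ, k.Coprime (orderOf s) ∧ a = s ^ k := by
  have ha : a ∈ Subgroup.zpowers s := h ▸ Subgroup.mem_zpowers a
  obtain ⟨k, rfl⟩ := (mem_powers_iff_mem_zpowers).mpr ha
  refine ⟨k, ?_, rfl⟩
  have h1 : orderOf (s ^ k) = orderOf s := by
    rw [← Nat.card_zpowers, ← Nat.card_zpowers, h]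
  rw [orderOf_pow] at h1
  have h2 := (Nat.div_eq_self.mp h1).resolve_left (orderOf_pos s).ne'
  rw [Nat.coprime_comm]
  exact h2

include hι hcj hgen hcop hC in
theorem inner_int {χh : Γ → ℂ} (hχh : Cfsg.IsIrrCharacter Γ χh)
    (hres : Cfsg.IsIrrCharacter G (fun g => χh (ι g))) (hdet : Cfsg.detChar χh s = 1)
    {φ : C → ℂ} (hφ : Cfsg.IsCharacter C φ) :
    ∃ z : ℤ, Cfsg.classInner (fun c => χh (ι (j c) * s)) φ = z := by
  have comm : ∀ (c : C) (a : Subgroup.zpowers s),
      Commute ((ι.comp j) c) ((Subgroup.zpowers s).subtype a) := by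
    intro c a
    obtain ⟨i, hi⟩ := Subgroup.mem_zpowers_iff.mp a.2
    have hcomm : Commute (ι (j c)) s := ((hC (j c)).mp ⟨c, rfl⟩).symm
    change Commute (ι (j c)) (a : Γ)
    rw [← hi]
    exact hcomm.zpow_right i
  have hψ := partial_inner_isCharacter (ι.comp j) (Subgroup.zpowers s).subtype comm
    (IsIrrCharacter.isCharacter hχh) hφ
  refine int_of_gen_const hψ ⟨s, Subgroup.mem_zpowers s⟩ ?_
  intro a ha
  have ha' : Subgroup.zpowers (a : Γ) = Subgroup.zpowers s := by
    have := congrArg (Subgroup.map (Subgroup.zpowers s).subtype) ha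
    rwa [MonoidHom.map_zpowers, MonoidHom.map_zpowers] at this
  obtain ⟨k, hk, hak⟩ := exists_pow_of_zpowers_eq s (a : Γ) ha'
  have : (fun c => χh ((ι.comp j) c * (Subgroup.zpowers s).subtype a)) =
      fun c => χh ((ι.comp j) c * (Subgroup.zpowers s).subtype ⟨s, Subgroup.mem_zpowers s⟩) := by
    funext c
    change χh (ι (j c) * (a : Γ)) = χh (ι (j c) * s)
    rw [hak]
    exact canon_gen ι hι cj hcj s hgen hcop j hC hχh hres hdet c k hk
  simp only [this]

include hι hcj hgen hcop hj hC in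
/-- Isaacs 13.6: the canonical extension, restricted to `C s`, is plus or minus an irreducible
character of `C`. -/
theorem canon_sirr {χh : Γ → ℂ} (hχh : Cfsg.IsIrrCharacter Γ χh)
    (hres : Cfsg.IsIrrCharacter G (fun g => χh (ι g))) (hdet : Cfsg.detChar χh s = 1) :
    SIrr C (fun c => χh (ι (j c) * s)) := by
  have hnorm := Helper19Det.range_normal ι cj hcj
  have hχc := IsIrrCharacter.isCharacter hχh
  have hcl := IsCharacter.isClassFunction hχc
  have hclC : Cfsg.IsClassFunction C (fun c => χh (ι (j c) * s)) := by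
    intro c h
    change χh (ι (j (h * c * h⁻¹)) * s) = χh (ι (j c) * s)
    rw [← hcl (ι (j c) * s) (ι (j h))]
    congr 1
    have e : s * ι (j h) = ι (j h) * s := (hC (j h)).mp ⟨h, rfl⟩
    have e1 : (ι (j h))⁻¹ * s = s * (ι (j h))⁻¹ := by
      rw [inv_mul_eq_iff_eq_mul, ← mul_assoc, ← e, mul_assoc, mul_inv_cancel, mul_one]
    simp only [map_mul, map_inv]
    calc ι (j h) * ι (j c) * (ι (j h))⁻¹ * s = ι (j h) * ι (j c) * ((ι (j h))⁻¹ * s) := by group
      _ = ι (j h) * ι (j c) * (s * (ι (j h))⁻¹) := by rw [e1]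
      _ = ι (j h) * (ι (j c) * s) * (ι (j h))⁻¹ := by group
  apply gen_norm_one
  · rw [classFunction_eq_sum _ hclC]
    apply gen_sum
    intro φ _
    obtain ⟨z, hz⟩ := inner_int ι hι cj hcj s hgen hcop j hC hχh hres hdet
      (IsIrrCharacter.isCharacter φ.2)
    rw [hz]
    exact gen_intCast_smul z (gen_of_irr φ.2)
  · have h1 := sum_coset_eq ι hι cj hcj s hgen hcop j hj hC (fun x => χh x * conj (χh x))
      (IsClassFunction.mul hcl (IsClassFunction.conj hcl))
    rw [coset_orth_self ι hι hχc hres s] at h1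
    unfold Cfsg.classInner
    have hG : (Nat.card G : ℂ) ≠ 0 := card_ne_zero
    have hCne : (Nat.card C : ℂ) ≠ 0 := card_ne_zero
    have h2 : ∑ c : C, χh (ι (j c) * s) * conj (χh (ι (j c) * s)) = (Nat.card C : ℂ) := by
      have h3 : (Nat.card G : ℂ) * (Nat.card C : ℂ) =
          (Nat.card G : ℂ) * ∑ c : C, χh (ι (j c) * s) * conj (χh (ι (j c) * s)) := by
        rw [← h1]; ring
      exact (mul_left_cancel₀ hG h3).symm
    rw [h2, inv_mul_cancel₀ hCne]

end Main

end Cfsg.Agent.Lib.Helper5GlaubCyc
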