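import Mathlib
import Cfsg.Agent.Lib.Helper71ZaDefs
import Cfsg.Agent.Lib.Helper76ZaZ12
import Cfsg.Agent.Lib.Helper1FpfSylow
import Cfsg.Agent.S0016

/-!
Project 71 (regular linear groups), piece R6: minimal nonabelian normal subgroups.
-/

set_option autoImplicit false

namespace Cfsg.Agent.Lib.Helper5RgR6

open Cfsg.Agent.Lib.Helper71ZaDefs Subgroup

/-- abelian subgroups of a group with a fixed-point-free representation are cyclic -/
theorem cyc_of_FC {H : Type*} [Group H] [Finite H] (hFC : FC H) (A : Subgroup H)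
    (hA : ∀ a ∈ A, ∀ b ∈ A, a * b = b * a) : IsCyclic A := by
  obtain ⟨p, hp, d, ρ, hd, hρ⟩ := hFC
  have : Nonempty (Fin d) := ⟨⟨0, hd⟩⟩
  exact Cfsg.Agent.Lib.Helper76ZaZ12.zg_cyc hρ A hA

/-- a join of two commuting abelian subgroups is abelian -/
theorem comm_sup {H : Type*} [Group H] {A B : Subgroup H}
    (hA : ∀ a ∈ A, ∀ b ∈ A, a * b = b * a) (hB : ∀ a ∈ B, ∀ b ∈ B, a * b = b * a)
    (hAB : ∀ a ∈ A, ∀ b ∈ B, a * b = b * a) : ∀ x ∈ A ⊔ B, ∀ y ∈ A ⊔ B, x * y = y * x := by
  have h1 : A ⊔ B ≤ centralizer ((A ⊔ B : Subgroup H) : Set H) := by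
    rw [sup_le_iff]
    constructor
    · rw [le_centralizer_iff, sup_le_iff]
      constructor
      · intro a ha
        rw [mem_centralizer_iff]
        intro b hb
        exact hA b hb a ha
      · intro b hb
        rw [mem_centralizer_iff]
        intro a ha
        exact hAB a ha b hb
    · rw [le_centralizer_iff, sup_le_iff]
      constructor
      · intro a ha
        rw [mem_centralizer_iff]
        intro b hb
        exact (hAB a ha b hb).symm
      · intro b hb
        rw [mem_centralizer_iff]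
        intro a ha
        exact hB a ha b hb
  intro x hx y hy
  exact ((mem_centralizer_iff.mp (h1 hx)) y hy).symm

/-- a generalized quaternion group of class at most two is `Q₈` (or abelian) -/
theorem quaternion_class_two {m : ℕ} (hm : 0 < m)
    (h : ∀ x y w : QuaternionGroup m, (x * y * x⁻¹ * y⁻¹) * w = w * (x * y * x⁻¹ * y⁻¹)) :
    m = 1 ∨ m = 2 := by
  have h1 := h (QuaternionGroup.xa 0) (QuaternionGroup.a 1) (QuaternionGroup.xa 0)
  have i1 : (QuaternionGroup.xa (0 : ZMod (2 * m)))⁻¹ = QuaternionGroup.xa ((m : ZMod (2 * m)) + 0) := rfl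
  have i2 : (QuaternionGroup.a (1 : ZMod (2 * m)))⁻¹ = QuaternionGroup.a (-1) := rfl
  rw [i1, i2] at h1
  simp only [QuaternionGroup.xa_mul_a, QuaternionGroup.xa_mul_xa, QuaternionGroup.a_mul_a,
    QuaternionGroup.a_mul_xa, QuaternionGroup.xa.injEq] at h1
  have h2 : ((4 : ℕ) : ZMod (2 * m)) = 0 := by
    have h3 : ((m : ZMod (2 * m)) + m) = 0 := by
      have : ((2 * m : ℕ) : ZMod (2 * m)) = 0 := ZMod.natCast_self _
      push_cast at this
      rw [← this]; ring
    push_cast
    linear_combination h1 + 2 * h3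
  rw [ZMod.natCast_eq_zero_iff] at h2
  have h4 : 2 * m ≤ 4 := Nat.le_of_dvd (by norm_num) h2
  omega

theorem q1_comm : ∀ x y : QuaternionGroup 1, x * y = y * x := by decide

/-- R6. -/
theorem min_nonabelian {H : Type*} [Group H] [Finite H] (hFC : FC H)
    (A : Subgroup H) (hAn : A.Normal) (hAc : IsMulCommutative A)
    (hAmax : ∀ B : Subgroup H, B.Normal → IsMulCommutative B → A ≤ B → B = A)
    (N : Subgroup H) (hNn : N.Normal) (hNle : N ≤ centralizer (A : Set H))
    (hNna : ¬ IsMulCommutative N)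
    (hNmin : ∀ M : Subgroup H, M.Normal → M ≤ N → ¬ IsMulCommutative M → M = N)
    (hperf : commutator N ≠ ⊤) : Nonempty (N ≃* QuaternionGroup 2) := by
  classical
  have hAc' : ∀ a ∈ A, ∀ b ∈ A, a * b = b * a := fun a ha b hb =>
    congrArg Subtype.val (hAc.is_comm.comm (⟨a, ha⟩ : A) ⟨b, hb⟩)
  -- the derived subgroup
  have hmap : (commutator N).map N.subtype = ⁅N, N⁆ := by
    rw [commutator_def, map_commutator, ← MonoidHom.range_eq_map, range_subtype]
  have hN'n : (⁅N, N⁆ : Subgroup H).Normal := commutator_normal N N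
  have hN'le : ⁅N, N⁆ ≤ N := commutator_le_left N N
  have hN'ne : ⁅N, N⁆ ≠ N := by
    intro h
    apply hperf
    apply map_injective N.subtype_injective
    rw [hmap, h, ← MonoidHom.range_eq_map, range_subtype]
  have hN'c : IsMulCommutative (⁅N, N⁆ : Subgroup H) := by
    by_contra hc
    exact hN'ne (hNmin _ hN'n hN'le hc)
  -- abelian normal subgroups inside `N` are central in `N`
  have hcent : ∀ B : Subgroup H, B.Normal → IsMulCommutative B → B ≤ N →
      ∀ b ∈ B, ∀ n ∈ N, b * n = n * b := by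
    intro B hBn hBc hBN b hb n hn
    have hBc' : ∀ a ∈ B, ∀ b ∈ B, a * b = b * a := fun a ha b hb =>
      congrArg Subtype.val (hBc.is_comm.comm (⟨a, ha⟩ : B) ⟨b, hb⟩)
    have hAB : ∀ a ∈ A, ∀ b ∈ B, a * b = b * a := fun a ha b hb =>
      (mem_centralizer_iff.mp (hNle (hBN hb))) a ha
    have h1 := comm_sup hAc' hBc' hAB
    have h2 : A ⊔ B = A := hAmax _ (sup_normal A B)
      ⟨⟨fun x y => Subtype.ext (h1 x x.2 y y.2)⟩⟩ le_sup_left
    have hbA : b ∈ A := h2 ▸ (le_sup_right : B ≤ A ⊔ B) hb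
    exact (mem_centralizer_iff.mp (hNle hn)) b hbA
  have hcl2 : ∀ c ∈ ⁅N, N⁆, ∀ n ∈ N, c * n = n * c := hcent _ hN'n hN'c hN'le
  -- `N` is nilpotent
  have hnil : Group.IsNilpotent N := by
    refine Subgroup.isNilpotent_of_ker_le_center (Abelianization.of : N →* Abelianization N) ?_
    rw [Abelianization.ker_of]
    intro c hc
    rw [mem_center_iff]
    intro n
    apply Subtype.ext
    have hc' : (c : H) ∈ ⁅N, N⁆ := by
      rw [← hmap]
      exact ⟨c, hc, rfl⟩
    exact (hcl2 c hc' n n.2).symm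
  have hsyl : ∀ (q : ℕ), Fact q.Prime → ∀ P : Sylow q N, (P : Subgroup N).Normal :=
    (Group.isNilpotent_of_finite_tfae (G := N)).out 0 3 |>.mp hnil
  obtain ⟨e⟩ : Nonempty (((q : (Nat.card N).primeFactors) → (P : Sylow (q : ℕ) N) → (P : Subgroup N)) ≃* N) :=
    (Group.isNilpotent_of_finite_tfae (G := N)).out 0 4 |>.mp hnil
  -- some Sylow subgroup is nonabelian
  have hex : ∃ (q : ℕ) (_ : Fact q.Prime) (P : Sylow q N), ¬ IsMulCommutative (P : Subgroup N) := by
    by_contra hcon
    push Not at hcon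
    apply hNna
    refine ⟨⟨fun x y => ?_⟩⟩
    obtain ⟨x', rfl⟩ := e.surjective x
    obtain ⟨y', rfl⟩ := e.surjective y
    rw [← map_mul, ← map_mul]
    congr 1
    funext q P
    have hq : Fact (q : ℕ).Prime := ⟨Nat.prime_of_mem_primeFactors q.2⟩
    exact (hcon q hq P).is_comm.comm (x' q P) (y' q P)
  obtain ⟨q, hq, P, hPna⟩ := hex
  have hPn := hsyl q hq P
  have hPchar : (P : Subgroup N).Characteristic := P.characteristic_of_normal hPn
  have hMn : ((P : Subgroup N).map N.subtype).Normal := ConjAct.normal_of_characteristic_of_normal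
  have hMna : ¬ IsMulCommutative ((P : Subgroup N).map N.subtype) := by
    intro hc
    apply hPna
    refine ⟨⟨fun x y => ?_⟩⟩
    apply Subtype.ext
    apply Subtype.ext
    have h0 := congrArg Subtype.val (hc.is_comm.comm
      (⟨((x : N) : H), ⟨x, x.2, rfl⟩⟩ : (P : Subgroup N).map N.subtype) ⟨((y : N) : H), ⟨y, y.2, rfl⟩⟩)
    exact h0
  have hMN : (P : Subgroup N).map N.subtype = N := hNmin _ hMn (map_subtype_le _) hMna
  have hPtop : (P : Subgroup N) = ⊤ := by
    apply map_injective N.subtype_injective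
    rw [hMN, ← MonoidHom.range_eq_map, range_subtype]
  have hNq : IsPGroup q N := by
    intro x
    obtain ⟨k, hk⟩ := P.isPGroup' ⟨x, hPtop ▸ mem_top x⟩
    exact ⟨k, congrArg Subtype.val hk⟩
  -- abelian subgroups of `N` are cyclic
  have hab : ∀ E : Subgroup N, IsMulCommutative E → IsCyclic E := by
    intro E hE
    have h1 : IsCyclic (E.map N.subtype) := by
      apply cyc_of_FC hFC
      rintro _ ⟨a, ha, rfl⟩ _ ⟨b, hb, rfl⟩
      exact congrArg (fun t : E => ((t : N) : H)) (hE.is_comm.comm (⟨a, ha⟩ : E) ⟨b, hb⟩)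
    exact isCyclic_of_surjective (E.equivMapOfInjective N.subtype N.subtype_injective).symm
      (MulEquiv.surjective _)
  have huniq := Cfsg.Agent.Lib.Helper1FpfSylow.unique_of_abelian_cyclic (P := N) (p := q) hNq hab
  rcases Cfsg.Agent.S0016.result (G := N) q hNq huniq with hc | ⟨-, n, ⟨f⟩⟩
  · exfalso
    apply hNna
    obtain ⟨g, hg⟩ := hc
    refine ⟨⟨fun x y => ?_⟩⟩
    obtain ⟨i, rfl⟩ := mem_zpowers_iff.mp (hg x)
    obtain ⟨j, rfl⟩ := mem_zpowers_iff.mp (hg y)
    rw [← zpow_add, ← zpow_add, add_comm]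
  · have hq2 : ∀ x y w : QuaternionGroup (2 ^ n),
        (x * y * x⁻¹ * y⁻¹) * w = w * (x * y * x⁻¹ * y⁻¹) := by
      intro x y w
      obtain ⟨x', rfl⟩ := f.surjective x
      obtain ⟨y', rfl⟩ := f.surjective y
      obtain ⟨w', rfl⟩ := f.surjective w
      rw [← map_inv, ← map_inv, ← map_mul, ← map_mul, ← map_mul, ← map_mul, ← map_mul]
      congr 1
      apply Subtype.ext
      have hc : (x' : H) * y' * (x' : H)⁻¹ * (y' : H)⁻¹ ∈ ⁅N, N⁆ :=
        commutator_mem_commutator x'.2 y'.2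
      exact hcl2 _ hc w' w'.2
    rcases quaternion_class_two (pow_pos (by norm_num) n) hq2 with h1 | h2
    · exfalso
      apply hNna
      rw [h1] at f
      refine ⟨⟨fun x y => ?_⟩⟩
      apply f.injective
      rw [map_mul, map_mul]
      exact q1_comm _ _
    · rw [h2] at f
      exact ⟨f⟩

end Cfsg.Agent.Lib.Helper5RgR6
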