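import Mathlib

/-!
Project 71 (regular linear groups), piece R7: the order of `Aut Q₈` divides `24`.
-/

set_option autoImplicit false

namespace Cfsg.Agent.Lib.Helper5RgR7

open Subgroup

abbrev Q := QuaternionGroup 2

/-- generating pairs of `Q₈` -/
def IsGen (y : Q × Q) : Prop := y.1 ^ 2 ≠ 1 ∧ y.2 ^ 2 ≠ 1 ∧ y.2 ≠ y.1 ∧ y.2 ≠ y.1⁻¹

instance : DecidablePred IsGen := fun y => by unfold IsGen; infer_instance

theorem card_gen : Fintype.card {y : Q × Q // IsGen y} = 24 := by decide +kernel

theorem gen_word : ∀ y : Q × Q, IsGen y → ∀ g : Q, ∃ i ∈ Finset.range 4, ∃ j ∈ Finset.range 2,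
    g = y.1 ^ i * y.2 ^ j := by decide +kernel

/-- the generating pairs as an invariant subset for the diagonal action of `Aut Q₈` -/
def genSub : SubMulAction (MulAut Q) (Q × Q) where
  carrier := {y | IsGen y}
  smul_mem' := by
    rintro σ ⟨u, v⟩ ⟨h1, h2, h3, h4⟩
    refine ⟨?_, ?_, ?_, ?_⟩
    · show (σ u) ^ 2 ≠ 1
      rw [← map_pow]
      exact fun h => h1 ((map_eq_one_iff σ σ.injective).mp h)
    · show (σ v) ^ 2 ≠ 1
      rw [← map_pow]
      exact fun h => h2 ((map_eq_one_iff σ σ.injective).mp h)
    · show σ v ≠ σ u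
      exact fun h => h3 (σ.injective h)
    · show σ v ≠ (σ u)⁻¹
      rw [← map_inv]
      exact fun h => h4 (σ.injective h)

theorem eq_one_of_fix (σ : MulAut Q) (y : genSub) (h : σ • y = y) : σ = 1 := by
  obtain ⟨⟨u, v⟩, hy⟩ := y
  have h' : (σ u, σ v) = (u, v) := congrArg Subtype.val h
  have hu : σ u = u := congrArg Prod.fst h'
  have hv : σ v = v := congrArg Prod.snd h'
  ext g
  obtain ⟨i, -, j, -, rfl⟩ := gen_word (u, v) hy g
  simp [map_mul, map_pow, hu, hv]

theorem card_aut_dvd : Nat.card (MulAut Q) ∣ 24 := by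
  classical
  have : Fintype (MulAut Q) := Fintype.ofFinite _
  have hY : Fintype.card genSub = 24 := by
    rw [← card_gen]
    exact Fintype.card_congr (Equiv.refl _)
  have key := MulAction.sum_card_fixedBy_eq_card_orbits_mul_card_group (MulAut Q) genSub
  have h1 : ∑ g : MulAut Q, Fintype.card (MulAction.fixedBy genSub g) = 24 := by
    rw [Finset.sum_eq_single (1 : MulAut Q)]
    · rw [← hY]
      apply Fintype.card_congr
      exact (Equiv.subtypeUnivEquiv (fun y => by simp))
    · intro σ _ hσ
      rw [Fintype.card_eq_zero_iff]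
      exact ⟨fun y => hσ (eq_one_of_fix σ y.1 y.2)⟩
    · intro h
      exact absurd (Finset.mem_univ _) h
  rw [h1] at key
  rw [Nat.card_eq_fintype_card]
  exact Dvd.intro_left _ key.symm

/-- R7. -/
theorem index_centralizer_Q8 {H : Type*} [Group H] [Finite H] (N : Subgroup H) (hN : N.Normal)
    (e : N ≃* QuaternionGroup 2) : (centralizer (N : Set H)).index ∣ 24 := by
  have hker : (MulAut.conjNormal (H := N)).ker = centralizer (N : Set H) := by
    ext x
    rw [MonoidHom.mem_ker, mem_centralizer_iff]
    constructor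
    · intro h n hn
      have h1 := congrArg (fun f : MulAut N => ((f ⟨n, hn⟩ : N) : H)) h
      simp only [MulAut.conjNormal_apply, MulAut.one_apply] at h1
      calc n * x = (x * n * x⁻¹) * x := by rw [h1]
        _ = x * n := by group
    · intro h
      ext n
      simp only [MulAut.conjNormal_apply, MulAut.one_apply]
      rw [← h n n.2]
      group
  rw [← hker, index_ker]
  have h1 : Nat.card (MulAut.conjNormal (H := N)).range ∣ Nat.card (MulAut N) :=
    card_subgroup_dvd_card _
  have h2 : Nat.card (MulAut N) = Nat.card (MulAut Q) := Nat.card_congr (MulAut.congr e).toEquiv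
  rw [h2] at h1
  exact h1.trans card_aut_dvd

end Cfsg.Agent.Lib.Helper5RgR7
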