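import Mathlib

/-!
Project 71 part 3, piece L1: a normal subgroup with commutative quotient of even order gives a
normal subgroup of index two.
-/

set_option autoImplicit false

namespace Cfsg.Agent.Lib.Helper5SlL1

open Subgroup

theorem comm_aux : ∀ (n : ℕ) (Q : Type*) [CommGroup Q] [Finite Q], Nat.card Q = n → 2 ∣ n →
    ∃ K : Subgroup Q, K.index = 2 := by
  intro n
  induction n using Nat.strong_induction_on with
  | _ n ih =>
    intro Q _ _ hn h2
    obtain ⟨m, rfl⟩ := h2
    have hm0 : m ≠ 0 := by
      rintro rfl
      have := Nat.card_pos (α := Q)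
      omega
    by_cases hm : m = 1
    · subst hm
      refine ⟨⊥, ?_⟩
      rw [index_bot, hn]
    · obtain ⟨r, hr, hrm⟩ := Nat.exists_prime_and_dvd hm
      haveI := Fact.mk hr
      obtain ⟨k, rfl⟩ := hrm
      obtain ⟨x, hx⟩ := exists_prime_orderOf_dvd_card' (G := Q) r
        (by rw [hn]; exact Dvd.intro_left (2 * k) (by ring))
      have hR : Nat.card (zpowers x) = r := by rw [Nat.card_zpowers, hx]
      have hq : Nat.card (Q ⧸ zpowers x) = 2 * k := by
        have h1 := card_eq_card_quotient_mul_card_subgroup (zpowers x)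
        rw [hn, hR] at h1
        have : r * (2 * k) = r * Nat.card (Q ⧸ zpowers x) := by
          rw [mul_comm r (Nat.card _), ← h1]; ring
        exact (Nat.eq_of_mul_eq_mul_left hr.pos this).symm
      have hk0 : k ≠ 0 := by
        rintro rfl
        simp at hm0
      obtain ⟨K, hK⟩ := ih (2 * k) (by
        have := hr.two_le
        nlinarith [Nat.pos_of_ne_zero hk0]) (Q ⧸ zpowers x) hq (Dvd.intro _ rfl)
      refine ⟨K.comap (QuotientGroup.mk' (zpowers x)), ?_⟩
      rw [index_comap_of_surjective _ (QuotientGroup.mk'_surjective _), hK]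

/-- L1. -/
theorem exists_index_two_of_comm_quotient {H : Type*} [Group H] [Finite H] (C : Subgroup H)
    (hC : C.Normal) (hcomm : ∀ a b : H, a * b * a⁻¹ * b⁻¹ ∈ C) (h2 : 2 ∣ C.index) :
    ∃ K : Subgroup H, K.Normal ∧ K.index = 2 := by
  letI : CommGroup (H ⧸ C) :=
    { (inferInstance : Group (H ⧸ C)) with
      mul_comm := by
        intro a b
        induction a using QuotientGroup.induction_on with
        | H a =>
          induction b using QuotientGroup.induction_on with
          | H b =>
            rw [← QuotientGroup.mk_mul, ← QuotientGroup.mk_mul, QuotientGroup.eq]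
            have := hcomm b⁻¹ a⁻¹
            simpa [mul_assoc] using this }
  obtain ⟨K, hK⟩ := comm_aux (Nat.card (H ⧸ C)) (H ⧸ C) rfl h2
  haveI : K.Normal := inferInstance
  refine ⟨K.comap (QuotientGroup.mk' C), inferInstance, ?_⟩
  rw [index_comap_of_surjective _ (QuotientGroup.mk'_surjective _), hK]

end Cfsg.Agent.Lib.Helper5SlL1
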