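import Mathlib
import Cfsg.Agent.Lib.Helper5RgR7
import Cfsg.Agent.Lib.Helper5SlL1

/-!
Project 71 part 3, piece T3: a normal quaternion subgroup: its centraliser has index twelve or
there is a normal subgroup of index two.
-/

set_option autoImplicit false

namespace Cfsg.Agent.Lib.Helper5SlT3

open Subgroup Cfsg.Agent.Lib.Helper5RgR7

/-- the underlying map of an odd automorphism of `Q₈` -/
def tauFun : Q → Q
  | .a i => if i = 0 then .a 0 else if i = 1 then .xa 0 else if i = 2 then .a 2 else .xa 2
  | .xa i => if i = 0 then .a 1 else if i = 1 then .xa 3 else if i = 2 then .a 3 else .xa 1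

theorem tauFun_invol : ∀ x : Q, tauFun (tauFun x) = x := by decide +kernel

theorem tauFun_mul : ∀ x y : Q, tauFun (x * y) = tauFun x * tauFun y := by decide +kernel

/-- an odd automorphism of `Q₈` -/
def tau : MulAut Q where
  toFun := tauFun
  invFun := tauFun
  left_inv := tauFun_invol
  right_inv := tauFun_invol
  map_mul' := tauFun_mul

/-- the sign of an automorphism as a permutation of the eight elements -/
noncomputable def sg : MulAut Q →* ℤˣ := Equiv.Perm.sign.comp (MulAut.toPerm Q)

theorem tau_perm : MulAut.toPerm Q tau =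
    Equiv.swap (.a 1) (.xa 0) * Equiv.swap (.a 3) (.xa 2) * Equiv.swap (.xa 1) (.xa 3) := by
  ext x
  revert x
  decide +kernel

theorem sg_tau : sg tau = -1 := by
  unfold sg
  rw [MonoidHom.comp_apply, tau_perm, map_mul, map_mul,
    Equiv.Perm.sign_swap (by decide), Equiv.Perm.sign_swap (by decide),
    Equiv.Perm.sign_swap (by decide)]
  decide

theorem index_ker_two {G : Type*} [Group G] (s : G →* ℤˣ) (g : G) (hg : s g ≠ 1) :
    s.ker.index = 2 := by
  rw [index_ker]
  have htop : s.range = ⊤ := by
    rw [eq_top_iff]
    intro u _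
    rcases Int.units_eq_one_or u with rfl | rfl
    · exact one_mem _
    · rcases Int.units_eq_one_or (s g) with h | h
      · exact absurd h hg
      · exact ⟨g, h⟩
  rw [htop, card_top]
  simp

theorem card_ker_sg : Nat.card sg.ker ∣ 12 := by
  have h1 := card_mul_index sg.ker
  rw [index_ker_two sg tau (by rw [sg_tau]; decide)] at h1
  have h2 := card_aut_dvd
  rw [← h1] at h2
  exact Nat.dvd_of_mul_dvd_mul_right (by norm_num : 0 < 2) (by simpa using h2)

theorem card_inn : Nat.card (MulAut.conj (G := Q)).range = 4 := by
  rw [← index_ker]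
  have h1 := card_mul_index (MulAut.conj (G := Q)).ker
  have h2 : Nat.card (MulAut.conj (G := Q)).ker = 2 := by
    have : ((MulAut.conj (G := Q)).ker : Set Q) = {x : Q | ∀ y : Q, x * y * x⁻¹ = y} := by
      ext x
      simp only [SetLike.mem_coe, MonoidHom.mem_ker, Set.mem_ofPred_eq]
      constructor
      · intro h y
        have := congrArg (fun f : MulAut Q => f y) h
        simpa using this
      · intro h
        ext y
        simpa using h y
    have h3 : Nat.card (MulAut.conj (G := Q)).ker = Nat.card {x : Q | ∀ y : Q, x * y * x⁻¹ = y} :=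
      Nat.card_congr (Equiv.setCongr this)
    rw [h3, Nat.card_eq_fintype_card]
    decide +kernel
  have h8 : Nat.card Q = 8 := by
    rw [Nat.card_eq_fintype_card]; decide +kernel
  rw [h2, h8] at h1
  omega

/-- T3. -/
theorem index_twelve_or_index_two {H : Type*} [Group H] [Finite H] (N : Subgroup H)
    (hN : N.Normal) (e : N ≃* QuaternionGroup 2) :
    (centralizer (N : Set H)).index = 12 ∨ ∃ K : Subgroup H, K.Normal ∧ K.index = 2 := by
  have hker0 : (MulAut.conjNormal (H := N)).ker = centralizer (N : Set H) := by
    ext x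
    rw [MonoidHom.mem_ker, mem_centralizer_iff]
    constructor
    · intro h n hn
      have h1 := congrArg (fun f : MulAut N => ((f ⟨n, hn⟩ : N) : H)) h
      simp only [MulAut.conjNormal_apply, MulAut.one_apply] at h1
      calc n * x = (x * n * x⁻¹) * x := by rw [h1]
        _ = x * n := by group
    · intro h
      ext n
      simp only [MulAut.conjNormal_apply, MulAut.one_apply]
      rw [← h n n.2]
      group
  set ψ : H →* MulAut Q := (MulAut.congr e).toMonoidHom.comp (MulAut.conjNormal (H := N)) with hψ
  have hker : ψ.ker = centralizer (N : Set H) := by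
    rw [← hker0]
    ext x
    simp only [hψ, MonoidHom.mem_ker, MonoidHom.comp_apply, MulEquiv.coe_toMonoidHom,
      EmbeddingLike.map_eq_one_iff]
  by_cases hs : ∃ h : H, sg (ψ h) ≠ 1
  · obtain ⟨h, hh⟩ := hs
    right
    exact ⟨(sg.comp ψ).ker, inferInstance, index_ker_two (sg.comp ψ) h hh⟩
  · push Not at hs
    have hle : ψ.range ≤ sg.ker := by
      rintro _ ⟨h, rfl⟩
      exact hs h
    have h12 : Nat.card ψ.range ∣ 12 := (card_dvd_of_le hle).trans card_ker_sg
    have hinn : (MulAut.conj (G := Q)).range ≤ ψ.range := by
      rintro _ ⟨q, rfl⟩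
      refine ⟨((e.symm q : N) : H), ?_⟩
      ext x
      apply e.symm.injective
      apply Subtype.ext
      simp [hψ, MulAut.congr]
    have h4 : 4 ∣ Nat.card ψ.range := by
      rw [← card_inn]
      exact card_dvd_of_le hinn
    rw [← hker, index_ker]
    have hcases : Nat.card ψ.range = 4 ∨ Nat.card ψ.range = 12 := by
      have hle12 := Nat.le_of_dvd (by norm_num) h12
      obtain ⟨k, hk⟩ := h4
      rw [hk] at h12 hle12 ⊢
      have : k ≤ 3 := by omega
      interval_cases k <;> simp_all <;> omega
    rcases hcases with h | h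
    · right
      have hidx : ψ.ker.index = 4 := by rw [index_ker, h]
      have hq : Nat.card (H ⧸ ψ.ker) = 2 ^ 2 := by
        rw [← index_eq_card, hidx]; norm_num
      haveI : Fact (Nat.Prime 2) := ⟨Nat.prime_two⟩
      have hc := IsPGroup.commutative_of_card_eq_prime_sq hq
      apply Cfsg.Agent.Lib.Helper5SlL1.exists_index_two_of_comm_quotient ψ.ker inferInstance
      · intro a b
        rw [← QuotientGroup.eq_one_iff]
        simp only [QuotientGroup.mk_mul, QuotientGroup.mk_inv]
        rw [hc (a : H ⧸ ψ.ker) b]
        group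
      · rw [hidx]; norm_num
    · left; exact h

end Cfsg.Agent.Lib.Helper5SlT3
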