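import Cfsg.Agent.Lib.Helper60Unitri
import Cfsg.Agent.Lib.Helper22ChevBasic
import Cfsg.Prelude.Def_ChevStructure

set_option autoImplicit false
set_option linter.unusedSimpArgs false

/-! The positive unipotent subgroup of a Chevalley group is unitriangular for the height grading. -/

namespace Cfsg.Agent.Lib.Helper60ChevUT

open Cfsg.Lie Cfsg.Agent.Lib.Helper60Unitri Cfsg.Agent.Lib.Helper22ChevBasic
open scoped MatrixGroups Matrix

variable (D : ChevalleyDatum) (c : ℕ) (tab : Array ℕ)

/-- the level function: `c` on the Cartan part, read off a table on the root vectors -/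
def lvlOf : D.Idx → ℕ
  | Sum.inl _ => c
  | Sum.inr s => tab.getD s.val 0

/-- the table is compatible with the action of the positive root elements -/
def Good : Prop :=
  ∀ r < D.nroots, D.IsPosRoot r → c < tab.getD r 0 ∧ tab.getD (D.negIdx.getD r 0) 0 < c ∧
    ∀ e ∈ (D.chain.getD r #[]).toList, ∀ q ∈ e.2.toList, tab.getD e.1 0 < tab.getD q.1 0

instance : Decidable (Good D c tab) := by
  unfold Good
  infer_instance

variable {D c tab} {F : Type*} [Field F]

theorem raises_x (hgood : Good D c tab) {r : ℕ} (hr : D.IsPosRoot r) (t : F) :
    Raises (lvlOf D c tab) 1 (D.x F r t - 1) := by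
  obtain ⟨h1, h2, h3⟩ := hgood r hr.1 hr
  unfold ChevalleyDatum.x
  rw [dif_pos hr.1]
  intro row col hne
  rw [Matrix.sub_apply] at hne
  cases col with
  | inl i =>
    cases row with
    | inl i' =>
      exfalso
      apply hne
      by_cases h : i' = i
      · subst h; simp [ChevalleyDatum.xMat]
      · simp [ChevalleyDatum.xMat, h, Matrix.one_apply]
    | inr u =>
      by_cases hu : u = ⟨r, hr.1⟩
      · subst hu
        show c + 1 ≤ tab.getD r 0
        omega
      · exfalso
        apply hne
        simp [ChevalleyDatum.xMat, hu, Matrix.one_apply]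
  | inr s =>
    by_cases hs : s = ⟨r, hr.1⟩
    · exfalso
      apply hne
      subst hs
      cases row with
      | inl i' => simp [ChevalleyDatum.xMat, Matrix.one_apply]
      | inr u =>
        by_cases hu : u = ⟨r, hr.1⟩
        · subst hu; simp [ChevalleyDatum.xMat]
        · simp [ChevalleyDatum.xMat, hu, Matrix.one_apply]
    · by_cases hs2 : s.val = D.negIdx.getD r 0
      · cases row with
        | inl i' =>
          show tab.getD s.val 0 + 1 ≤ c
          rw [hs2]
          omega
        | inr u =>
          by_cases hus : u = s
          · exfalso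
            apply hne
            subst hus
            simp [ChevalleyDatum.xMat, hs, hs2]
          · by_cases hu : u = ⟨r, hr.1⟩
            · subst hu
              show tab.getD s.val 0 + 1 ≤ tab.getD r 0
              rw [hs2]
              omega
            · exfalso
              apply hne
              simp [ChevalleyDatum.xMat, hs, hs2, hus, hu, Matrix.one_apply]
      · have hs2' : ¬ (s.val = D.negIdx[r]?.getD 0) := by simpa using hs2
        cases row with
        | inl i' =>
          exfalso
          apply hne
          simp [ChevalleyDatum.xMat, hs, hs2']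
        | inr u =>
          have hsum : ((D.chainCoeff r s.val u.val).map fun km => ((km.2 : ℤ) : F) * t ^ km.1).sum ≠ 0 := by
            intro h0
            apply hne
            by_cases hus : u = s
            · subst hus
              simp [ChevalleyDatum.xMat, hs, hs2', h0]
            · simp [ChevalleyDatum.xMat, hs, hs2', hus, h0]
          have hne' : D.chainCoeff r s.val u.val ≠ [] := by
            intro h0
            rw [h0] at hsum
            simp at hsum
          obtain ⟨km, hkm⟩ := List.exists_mem_of_ne_nil _ hne'
          simp only [ChevalleyDatum.chainCoeff, List.mem_flatMap, List.mem_map, List.mem_filter] at hkm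
          obtain ⟨e, ⟨he, hes⟩, q, ⟨hq, hqu⟩, _⟩ := hkm
          have hq' : q.1 ∈ e.2.toList := by
            rw [List.mem_zipIdx_iff_getElem?] at hq
            exact List.mem_of_getElem? hq
          have h4 := h3 e he q.1 hq'
          have hes' : e.1 = s.val := by simpa using hes
          have hqu' : q.1.1 = u.val := by simpa using hqu
          rw [hes', hqu'] at h4
          show tab.getD s.val 0 + 1 ≤ tab.getD u.val 0
          omega

theorem posUnipotent_le_UTG [Finite F] (hgood : Good D c tab) :
    D.posUnipotent F ≤ UTG (lvlOf D c tab) F := by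
  unfold ChevalleyDatum.posUnipotent
  rw [Subgroup.closure_le]
  rintro g ⟨r, t, hr, hg⟩
  show Raises (lvlOf D c tab) 1 ((g : Matrix D.Idx D.Idx F) - 1)
  rw [hg]
  exact raises_x hgood hr t

/-- elements of `U` have order dividing `p ^ n` as soon as `p ^ n` is at least the number of levels -/
theorem pow_eq_one_of_mem_posUnipotent [Finite F] [Nonempty D.Idx] (hgood : Good D c tab)
    (p : ℕ) [Fact p.Prime] [CharP F p] {L n : ℕ} (hL : ∀ i, lvlOf D c tab i < L) (hn : L ≤ p ^ n)
    {g : GL D.Idx F} (hg : g ∈ D.posUnipotent F) : g ^ (p ^ n) = 1 := by
  apply Units.ext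
  rw [Units.val_pow_eq_pow_val, Units.val_one]
  exact pow_eq_one_of_mem_UT p hL hn (posUnipotent_le_UTG hgood hg)

end Cfsg.Agent.Lib.Helper60ChevUT
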