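import Mathlib

set_option autoImplicit false

/-! The projective line over a field: the cross determinant, and the frame lemma (helper60). -/

namespace Cfsg.Agent.Lib.Helper60PL

open scoped LinearAlgebra.Projectivization MatrixGroups

variable {F : Type*} [Field F]

/-- the determinant of two plane vectors -/
def D (u v : Fin 2 → F) : F := u 0 * v 1 - u 1 * v 0

theorem mk_eq_mk_iff_D (u v : Fin 2 → F) (hu : u ≠ 0) (hv : v ≠ 0) :
    Projectivization.mk F u hu = Projectivization.mk F v hv ↔ D u v = 0 := by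
  rw [Projectivization.mk_eq_mk_iff']
  constructor
  · rintro ⟨a, rfl⟩
    simp only [D, Pi.smul_apply, smul_eq_mul]
    ring
  · intro h
    unfold D at h
    by_cases h0 : v 0 = 0
    · have h1 : v 1 ≠ 0 := by
        intro h1
        apply hv
        ext i
        fin_cases i
        · exact h0
        · exact h1
      have hu0 : u 0 = 0 := by
        rw [h0, mul_zero, sub_zero] at h
        exact (mul_eq_zero.1 h).resolve_right h1
      refine ⟨u 1 / v 1, ?_⟩
      ext i
      fin_cases i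
      · simp [h0, hu0]
      · simp [h1]
    · refine ⟨u 0 / v 0, ?_⟩
      ext i
      fin_cases i
      · simp [h0]
      · simp only [Pi.smul_apply, smul_eq_mul, Fin.mk_one, Fin.isValue]
        field_simp
        linear_combination h

theorem e0_ne : (![1, 0] : Fin 2 → F) ≠ 0 := fun h => one_ne_zero (congrFun h 0)
theorem e1_ne : (![0, 1] : Fin 2 → F) ≠ 0 := fun h => one_ne_zero (congrFun h 1)
theorem e2_ne (d : F) : (![1, d] : Fin 2 → F) ≠ 0 := fun h => one_ne_zero (congrFun h 0)

/-- the standard points -/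
noncomputable def P0 : ℙ F (Fin 2 → F) := Projectivization.mk F ![1, 0] e0_ne
noncomputable def P1 : ℙ F (Fin 2 → F) := Projectivization.mk F ![0, 1] e1_ne
noncomputable def Pd (d : F) : ℙ F (Fin 2 → F) := Projectivization.mk F ![1, d] (e2_ne d)

theorem P0_ne_P1 : (P0 : ℙ F (Fin 2 → F)) ≠ P1 := by
  unfold P0 P1
  rw [Ne, mk_eq_mk_iff_D]
  simp [D]

theorem P0_ne_Pd {d : F} (hd : d ≠ 0) : (P0 : ℙ F (Fin 2 → F)) ≠ Pd d := by
  unfold P0 Pd
  rw [Ne, mk_eq_mk_iff_D]
  simp [D, hd]

theorem P1_ne_Pd (d : F) : (P1 : ℙ F (Fin 2 → F)) ≠ Pd d := by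
  unfold P1 Pd
  rw [Ne, mk_eq_mk_iff_D]
  simp [D]

/-- the frame lemma -/
theorem exists_frame (a b c : ℙ F (Fin 2 → F)) (hab : a ≠ b) (hac : a ≠ c) (hbc : b ≠ c) :
    ∃ g : GL (Fin 2) F, g • (P0 : ℙ F (Fin 2 → F)) = a ∧ g • (P1 : ℙ F (Fin 2 → F)) = b ∧
      g • (Pd 1 : ℙ F (Fin 2 → F)) = c := by
  induction a using Projectivization.ind with | _ u hu =>
  induction b using Projectivization.ind with | _ v hv =>
  induction c using Projectivization.ind with | _ w hw =>
  rw [Ne, mk_eq_mk_iff_D] at hab hac hbc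
  have hwv : D w v ≠ 0 := by
    intro h
    apply hbc
    unfold D at h ⊢
    linear_combination -h
  have hdet : (!![D w v * u 0, D u w * v 0; D w v * u 1, D u w * v 1] : Matrix (Fin 2) (Fin 2) F).det
      ≠ 0 := by
    rw [Matrix.det_fin_two_of]
    have : D w v * u 0 * (D u w * v 1) - D u w * v 0 * (D w v * u 1) = D w v * D u w * D u v := by
      unfold D; ring
    rw [this]
    exact mul_ne_zero (mul_ne_zero hwv hac) hab
  refine ⟨Matrix.GeneralLinearGroup.mkOfDetNeZero _ hdet, ?_, ?_, ?_⟩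
  · unfold P0
    rw [Projectivization.smul_mk, mk_eq_mk_iff_D]
    change D ((!![D w v * u 0, D u w * v 0; D w v * u 1, D u w * v 1] :
      Matrix (Fin 2) (Fin 2) F).mulVec ![1, 0]) u = 0
    simp [D, Matrix.mulVec, dotProduct, Fin.sum_univ_two]
    ring
  · unfold P1
    rw [Projectivization.smul_mk, mk_eq_mk_iff_D]
    change D ((!![D w v * u 0, D u w * v 0; D w v * u 1, D u w * v 1] :
      Matrix (Fin 2) (Fin 2) F).mulVec ![0, 1]) v = 0
    simp [D, Matrix.mulVec, dotProduct, Fin.sum_univ_two]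
    ring
  · unfold Pd
    rw [Projectivization.smul_mk, mk_eq_mk_iff_D]
    change D ((!![D w v * u 0, D u w * v 0; D w v * u 1, D u w * v 1] :
      Matrix (Fin 2) (Fin 2) F).mulVec ![1, 1]) w = 0
    simp [D, Matrix.mulVec, dotProduct, Fin.sum_univ_two]
    ring

/-- what fixing the standard points means, for a matrix -/
theorem entries_of_fix (M : Matrix (Fin 2) (Fin 2) F) (d : F)
    (h0 : D (M.mulVec ![1, 0]) ![1, 0] = 0) (h1 : D (M.mulVec ![0, 1]) ![0, 1] = 0)
    (h2 : D (M.mulVec ![1, 1]) ![1, d] = 0) : M 1 0 = 0 ∧ M 0 1 = 0 ∧ M 0 0 * d = M 1 1 := by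
  simp [D, Matrix.mulVec, dotProduct, Fin.sum_univ_two] at h0 h1 h2
  refine ⟨h0, h1, ?_⟩
  rw [h0, h1] at h2
  linear_combination h2

/-- an embedding from three distinct points -/
def emb3 {α : Type*} (a b c : α) (hab : a ≠ b) (hac : a ≠ c) (hbc : b ≠ c) : Fin 3 ↪ α :=
  ⟨![a, b, c], by
    intro i j h
    fin_cases i <;> fin_cases j <;> simp_all [Ne.symm]⟩

/-- the general linear group is 3-transitive -/
theorem exists_GL (x y : Fin 3 ↪ ℙ F (Fin 2 → F)) :
    ∃ g : GL (Fin 2) F, ∀ i, g • x i = y i := by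
  obtain ⟨gx, hx0, hx1, hx2⟩ := exists_frame (x 0) (x 1) (x 2)
    (fun h => by simpa using x.injective h) (fun h => by simpa using x.injective h)
    (fun h => by simpa using x.injective h)
  obtain ⟨gy, hy0, hy1, hy2⟩ := exists_frame (y 0) (y 1) (y 2)
    (fun h => by simpa using y.injective h) (fun h => by simpa using y.injective h)
    (fun h => by simpa using y.injective h)
  refine ⟨gy * gx⁻¹, ?_⟩
  intro i
  fin_cases i
  · change (gy * gx⁻¹) • x 0 = y 0
    rw [← hx0, mul_smul, inv_smul_smul, hy0]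
  · change (gy * gx⁻¹) • x 1 = y 1
    rw [← hx1, mul_smul, inv_smul_smul, hy1]
  · change (gy * gx⁻¹) • x 2 = y 2
    rw [← hx2, mul_smul, inv_smul_smul, hy2]

end Cfsg.Agent.Lib.Helper60PL
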