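import Mathlib
import Cfsg.Prelude.Def_RootSubgroups
import Cfsg.Agent.Lib.Helper5BaerSuzuki
import Cfsg.Agent.Lib.Helper5Dihedral
import Cfsg.Agent.Lib.Helper91V

set_option autoImplicit false

/-! Root involutions: basic facts (Timmesfeld, Abstract root subgroups, IV §1). -/

namespace Cfsg.Agent.Lib.Helper60RIa

open Cfsg

variable {G : Type*} [Group G]

theorem sq {d : G} (h : orderOf d = 2) : d * d = 1 := by
  have := pow_orderOf_eq_one d
  rwa [h, pow_two] at this

theorem inv_eq {d : G} (h : orderOf d = 2) : d⁻¹ = d :=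
  inv_eq_of_mul_eq_one_left (sq h)

theorem ne_one {d : G} (h : orderOf d = 2) : d ≠ 1 := by
  rintro rfl
  simp at h

theorem orderOf_conj (g x : G) : orderOf (g * x * g⁻¹) = orderOf x := by
  have := orderOf_injective (MulAut.conj g).toMonoidHom (MulAut.conj g).injective x
  simpa using this

theorem orderOf_mul_swap (a b : G) : orderOf (a * b) = orderOf (b * a) := by
  have := orderOf_conj b (a * b)
  rw [← this]
  congr 1
  group

theorem eq_one_of_odd_of_pow_two {x : G} (ho : Odd (orderOf x)) {k : ℕ} (h : x ^ (2 ^ k) = 1) :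
    x = 1 := by
  have h1 : orderOf x ∣ 2 ^ k := orderOf_dvd_of_pow_eq_one h
  have h2 : Nat.Coprime (orderOf x) (2 ^ k) := by
    apply Nat.Coprime.pow_right
    exact (Nat.coprime_two_right).mpr ho
  have h3 : orderOf x = 1 := Nat.Coprime.eq_one_of_dvd h2 h1
  exact orderOf_eq_one_iff.mp h3

theorem eq_of_commute_of_odd {a b : G} (ha : orderOf a = 2) (hb : orderOf b = 2)
    (hc : a * b = b * a) (ho : Odd (orderOf (a * b))) : a = b := by
  have h2 : (a * b) ^ (2 ^ 1) = 1 := by
    rw [pow_one, pow_two]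
    calc a * b * (a * b) = a * (b * a) * b := by group
      _ = a * (a * b) * b := by rw [hc]
      _ = (a * a) * (b * b) := by group
      _ = 1 := by rw [sq ha, sq hb, one_mul]
  have h1 := eq_one_of_odd_of_pow_two ho h2
  calc a = a * (b * b) := by rw [sq hb, mul_one]
    _ = (a * b) * b := by group
    _ = b := by rw [h1, one_mul]

/-- two involutions with product of odd order are conjugate in the group they generate -/
theorem exists_conj_of_odd {a b : G} (ha : orderOf a = 2) (hb : orderOf b = 2)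
    (ho : Odd (orderOf (a * b))) :
    ∃ k : ℕ, (a * b) ^ k * a * ((a * b) ^ k)⁻¹ = b := by
  obtain ⟨k, hk⟩ := ho
  refine ⟨k, ?_⟩
  have ha' := sq ha
  have hb' := sq hb
  have h1 : (a * b) ^ (2 * k + 1) = 1 := by rw [← hk]; exact pow_orderOf_eq_one _
  -- a * r^k⁻¹ = r^k * a
  have h2 : a * ((a * b) ^ k)⁻¹ = (a * b) ^ k * a := by
    have := Cfsg.Agent.Lib.Helper5Dihedral.x_mul_zpow ha' hb' (-(k : ℤ))
    simpa using this
  calc (a * b) ^ k * a * ((a * b) ^ k)⁻¹ = (a * b) ^ k * (a * ((a * b) ^ k)⁻¹) := by group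
    _ = (a * b) ^ k * ((a * b) ^ k * a) := by rw [h2]
    _ = (a * b) ^ (2 * k) * a := by rw [two_mul, pow_add]; group
    _ = ((a * b) ^ (2 * k + 1) * (a * b)⁻¹) * a := by rw [pow_succ]; group
    _ = (a * b)⁻¹ * a := by rw [h1, one_mul]
    _ = b⁻¹ * (a⁻¹ * a) := by group
    _ = b := by rw [inv_mul_cancel, mul_one, inv_eq hb]

/-- if `c` commutes with `b` and `b^a`, where `a b` has odd order, then `c` commutes with `a` -/
theorem commute_of_commute_conj {a b c : G} (ha : orderOf a = 2)
    (ho : Odd (orderOf (a * b))) (h1 : Commute c b) (h2 : Commute c (a * b * a⁻¹)) :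
    Commute c a := by
  obtain ⟨k, hk⟩ := ho
  rw [orderOf_mul_swap] at hk
  have h3 : (b * a) ^ (2 * k + 1) = 1 := by rw [← hk]; exact pow_orderOf_eq_one _
  have hu : Commute c ((b * a) ^ 2) := by
    have : (b * a) ^ 2 = b * (a * b * a⁻¹) := by rw [inv_eq ha, pow_two]; group
    rw [this]
    exact h1.mul_right h2
  have hu' : Commute c ((b * a) ^ (2 * k)) := by
    rw [pow_mul]; exact hu.pow_right k
  have h4 : b * a = ((b * a) ^ (2 * k))⁻¹ := by
    rw [pow_succ] at h3
    exact eq_inv_of_mul_eq_one_right h3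
  have h5 : Commute c (b * a) := by rw [h4]; exact hu'.inv_right
  have h6 : a = b⁻¹ * (b * a) := by group
  rw [h6]
  exact h1.inv_right.mul_right h5

/-- involutions `c`, `b` with `(c b)^4 = 1`: `b` commutes with `b^c`. -/
theorem commute_conj_of_pow_four {b c : G} (hb : orderOf b = 2) (hc : orderOf c = 2)
    (h : (c * b) ^ 4 = 1) : Commute b (c * b * c⁻¹) := by
  rw [inv_eq hc]
  have hb' := sq hb
  have hc' := sq hc
  show b * (c * b * c) = c * b * c * b
  have h1 : c * b * c * b * (c * b * c * b) = 1 := by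
    have : (c * b) ^ 4 = c * b * c * b * (c * b * c * b) := by
      simp only [pow_succ, pow_zero, one_mul]; group
    rw [← this]; exact h
  have h2 : (c * b * c * b)⁻¹ = b * (c * b * c) := by
    have : (c * b * c * b)⁻¹ = b⁻¹ * (c⁻¹ * b⁻¹ * c⁻¹) := by group
    rw [this, inv_eq hb, inv_eq hc]
  rw [← h2]
  exact inv_eq_of_mul_eq_one_left h1

/-- **Key lemma** (the three points `a`, `c`, `a c` of a line and a point `b`). -/
theorem keyK {a b c : G} (ha : orderOf a = 2) (hb : orderOf b = 2) (hc : orderOf c = 2)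
    (hac : a * c = c * a) (hac2 : orderOf (a * c) = 2) (ho : Odd (orderOf (a * b)))
    (h1 : (c * b) ^ 4 = 1) (h2 : (a * c * b) ^ 4 = 1) : a = b := by
  have e1 : Commute b (c * b * c⁻¹) := commute_conj_of_pow_four hb hc h1
  have e2 : Commute b (a * c * b * (a * c)⁻¹) := commute_conj_of_pow_four hb hac2 h2
  -- conjugate `e2` by `c`
  have e3 : Commute (c * b * c⁻¹) (a * b * a⁻¹) := by
    have h3 := e2.conj c
    have h4 : c * (a * c * b * (a * c)⁻¹) * c⁻¹ = a * b * a⁻¹ := by
      have h5 : c * (a * c) = a := by rw [hac, ← mul_assoc, sq hc, one_mul]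
      calc c * (a * c * b * (a * c)⁻¹) * c⁻¹ = (c * (a * c)) * b * (c * (a * c))⁻¹ := by group
        _ = a * b * a⁻¹ := by rw [h5]
    rwa [h4] at h3
  have e4 : Commute (c * b * c⁻¹) a := commute_of_commute_conj ha ho e1.symm e3
  have e5 : Commute b a := by
    have h3 : c * a * c⁻¹ = a := by rw [← hac]; group
    have h4 := e4
    rw [← h3] at h4
    exact (Commute.conj_iff c).mp h4
  exact eq_of_commute_of_odd ha hb e5.symm.eq ho

/-! ### sets of root involutions -/

variable {D : Set G}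

theorem pow_four_of_not_odd (hD : IsRootInvolutionSet D) {a b : G} (ha : a ∈ D) (hb : b ∈ D)
    (h : ¬ Odd (orderOf (a * b))) : (a * b) ^ 4 = 1 := by
  rcases hD.pair a ha b hb with h1 | h1 | ⟨h1, -⟩
  · have h2 : (a * b) ^ 2 = 1 := by
      rw [pow_two]
      calc a * b * (a * b) = a * (b * a) * b := by group
        _ = a * (a * b) * b := by rw [h1]
        _ = (a * a) * (b * b) := by group
        _ = 1 := by rw [sq (hD.orderOf_eq a ha), sq (hD.orderOf_eq b hb), one_mul]
    have : (4 : ℕ) = 2 * 2 := rfl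
    rw [this, pow_mul, h2, one_pow]
  · exact absurd h1 h
  · rw [← h1]; exact pow_orderOf_eq_one _

/-- Lemma K for root involutions: `b` odd to `a`, not odd to `c`; then `b` is odd to `a c`. -/
theorem odd_mul (hD : IsRootInvolutionSet D) {a b c : G} (ha : a ∈ D) (hb : b ∈ D) (hc : c ∈ D)
    (hac : a * c = c * a) (hacD : a * c ∈ D) (hne : a ≠ b) (ho : Odd (orderOf (a * b)))
    (h1 : ¬ Odd (orderOf (c * b))) : Odd (orderOf (a * c * b)) := by
  by_contra h2
  exact hne (keyK (hD.orderOf_eq a ha) (hD.orderOf_eq b hb) (hD.orderOf_eq c hc) hac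
    (hD.orderOf_eq _ hacD) ho (pow_four_of_not_odd hD hc hb h1) (pow_four_of_not_odd hD hacD hb h2))

theorem oddAdj_symm {a b : G} (h : OddAdj D a b) : OddAdj D b a :=
  ⟨h.2.1, h.1, h.2.2.1.symm, by rw [orderOf_mul_swap]; exact h.2.2.2⟩

theorem oddAdj_conj (hD : IsRootInvolutionSet D) {a b : G} (h : OddAdj D a b) (g : G) :
    OddAdj D (g * a * g⁻¹) (g * b * g⁻¹) := by
  refine ⟨hD.conj_mem a h.1 g, hD.conj_mem b h.2.1 g, ?_, ?_⟩
  · intro e
    apply h.2.2.1
    simpa using e
  · have : g * a * g⁻¹ * (g * b * g⁻¹) = g * (a * b) * g⁻¹ := by group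
    rw [this, orderOf_conj]
    exact h.2.2.2

theorem reach_symm {a b : G} (h : Relation.ReflTransGen (OddAdj D) a b) :
    Relation.ReflTransGen (OddAdj D) b a := by
  induction h with
  | refl => exact Relation.ReflTransGen.refl
  | tail _ h2 ih => exact Relation.ReflTransGen.head (oddAdj_symm h2) ih

theorem conj_of_oddAdj (hD : IsRootInvolutionSet D) {a b : G} (h : OddAdj D a b) :
    ∃ g : G, g * a * g⁻¹ = b := by
  obtain ⟨k, hk⟩ := exists_conj_of_odd (hD.orderOf_eq a h.1) (hD.orderOf_eq b h.2.1) h.2.2.2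
  exact ⟨_, hk⟩

theorem conj_of_reach (hD : IsRootInvolutionSet D) {a b : G}
    (h : Relation.ReflTransGen (OddAdj D) a b) : ∃ g : G, g * a * g⁻¹ = b := by
  induction h with
  | refl => exact ⟨1, by simp⟩
  | tail _ h2 ih =>
    obtain ⟨g, rfl⟩ := ih
    obtain ⟨g', hg'⟩ := conj_of_oddAdj hD h2
    exact ⟨g' * g, by rw [← hg']; group⟩

/-- a proper normal subgroup contains no member of a class `D` generating `G` -/
theorem not_mem_of_normal (hD : IsRootInvolutionSet D)
    (hcl : ∀ a ∈ D, ∀ b ∈ D, ∃ g : G, g * a * g⁻¹ = b) {N : Subgroup G} (hN : N.Normal)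
    (hne : N ≠ ⊤) {d : G} (hd : d ∈ D) : d ∉ N := by
  intro hdN
  apply hne
  rw [eq_top_iff, ← hD.generates, Subgroup.closure_le]
  intro e he
  obtain ⟨g, rfl⟩ := hcl d hd e he
  exact hN.conj_mem d hdN g

end Cfsg.Agent.Lib.Helper60RIa
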