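import Cfsg.Agent.Lib.Helper60U6Sigma
import Cfsg.Agent.Lib.Helper74UDec
import Cfsg.Agent.Lib.Helper67AschLines5

set_option autoImplicit false

/-! PROJECT 8 = SU_6(2), piece `frame2`: the stabiliser of an orthonormal frame is not maximal in `SU_6(2)`. -/

namespace Cfsg.Agent.Lib.Helper60U6Frame

open Cfsg Cfsg.Geo Matrix
open Cfsg.Agent.Lib.Helper97AschBase Cfsg.Agent.Lib.Helper97UBase
  Cfsg.Agent.Lib.Helper13UDefs Cfsg.Agent.Lib.Helper38U6Defs Cfsg.Agent.Lib.Helper74UDec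
  Cfsg.Agent.Lib.Helper67AschLines5 Cfsg.Agent.Lib.Helper60U6Sigma
open scoped MatrixGroups

variable {F : Type*} [Field F] {σ : F ≃+* F} {f : (Fin 6 → F) → (Fin 6 → F) → F}

theorem S6_expand (x : Fin 6 → F) [DecidableEq F] : S6 x ↔
    ((if x 0 = 0 then 0 else 1) + (if x 1 = 0 then 0 else 1) + (if x 2 = 0 then 0 else 1) +
      (if x 3 = 0 then 0 else 1) + (if x 4 = 0 then 0 else 1) + (if x 5 = 0 then 0 else 1) = 2) ∨
      x 0 * x 1 * x 2 * x 3 * x 4 * x 5 = 1 := by
  unfold S6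
  rw [Finset.card_filter, Fin.sum_univ_six, Fin.prod_univ_six]
  simp only [ne_eq, ite_not]
  constructor <;> intro h <;> convert h

/-- monomial matrices with product of the coefficients `1` preserve `S6` -/
theorem S6_mono (π : Equiv.Perm (Fin 6)) (c : Fin 6 → F) (hc : ∀ i, c i ≠ 0) (hp : ∏ i, c i = 1)
    (x y : Fin 6 → F) (hy : ∀ i, y (π i) = c i * x i) : S6 x ↔ S6 y := by
  classical
  unfold S6
  have h1 : (Finset.univ.filter (fun i => x i ≠ 0)).card = (Finset.univ.filter (fun i => y i ≠ 0)).card := by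
    apply Finset.card_equiv π
    intro i
    simp only [Finset.mem_filter, Finset.mem_univ, true_and]
    rw [hy]
    constructor
    · intro h
      exact mul_ne_zero (hc i) h
    · intro h
      exact right_ne_zero_of_mul h
  have h2 : ∏ i, y i = ∏ i, x i := by
    rw [← Equiv.prod_comp π y]
    simp only [hy]
    rw [Finset.prod_mul_distrib, hp, one_mul]
  rw [h2]
  constructor
  · rintro (h | h)
    · left
      rw [← h, ← h1]
    · exact Or.inr h
  · rintro (h | h)
    · left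
      rw [← h]
      convert h1 using 2
    · exact Or.inr h

theorem mn_apply (π : Equiv.Perm (Fin 6)) (c x : Fin 6 → F) (i : Fin 6) :
    (mn π c *ᵥ x) (π i) = c i * x i := by
  rw [Matrix.mulVec, dotProduct, Finset.sum_eq_single i]
  · simp [mn]
  · intro k _ hk
    have : π i ≠ π k := fun h => hk (π.injective h).symm
    simp [mn, this]
  · intro h; exact absurd (Finset.mem_univ _) h

/-- the stabiliser of the set of `378` vectors -/
def MS (P : GL (Fin 6) F) : Subgroup (GL (Fin 6) F) where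
  carrier := {g | ∀ v, S6 (((P⁻¹ : GL (Fin 6) F) : Matrix (Fin 6) (Fin 6) F) *ᵥ v) ↔
    S6 (((P⁻¹ : GL (Fin 6) F) : Matrix (Fin 6) (Fin 6) F) *ᵥ ((g : Matrix (Fin 6) (Fin 6) F) *ᵥ v))}
  mul_mem' {a b} ha hb := by
    intro v
    rw [Units.val_mul, ← Matrix.mulVec_mulVec]
    exact (hb v).trans (ha _)
  one_mem' := by
    intro v
    rw [Units.val_one, Matrix.one_mulVec]
  inv_mem' {a} ha := by
    intro v
    have := ha (((a⁻¹ : GL (Fin 6) F) : Matrix (Fin 6) (Fin 6) F) *ᵥ v)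
    rw [mul_inv_mulVec] at this
    exact this.symm

theorem mem_MS {P g : GL (Fin 6) F} : g ∈ MS P ↔
    ∀ v, S6 (((P⁻¹ : GL (Fin 6) F) : Matrix (Fin 6) (Fin 6) F) *ᵥ v) ↔
    S6 (((P⁻¹ : GL (Fin 6) F) : Matrix (Fin 6) (Fin 6) F) *ᵥ ((g : Matrix (Fin 6) (Fin 6) F) *ᵥ v)) :=
  Iff.rfl

/-- a unitary transvection in coordinates -/
theorem utv_coord (hf : IsUnitaryForm σ f) {P : GL (Fin 6) F} (hP : IsON σ f P) (w : Fin 6 → F)
    (hw : f ((P : Matrix (Fin 6) (Fin 6) F) *ᵥ w) ((P : Matrix (Fin 6) (Fin 6) F) *ᵥ w) = 0)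
    (x : Fin 6 → F) :
    ((P⁻¹ : GL (Fin 6) F) : Matrix (Fin 6) (Fin 6) F) *ᵥ
      ((utv hf ((P : Matrix (Fin 6) (Fin 6) F) *ᵥ w) 1 hw : Matrix (Fin 6) (Fin 6) F) *ᵥ
        ((P : Matrix (Fin 6) (Fin 6) F) *ᵥ x)) = fun i => x i + (∑ j, x j * σ (w j)) * w i := by
  rw [utv_mulVec, hP, one_mul, ← Matrix.mulVec_smul, ← Matrix.mulVec_add, inv_mul_mulVec]
  funext i
  simp

/-- [frame2] -/
theorem frame_two [Fintype F] (hU : US σ f 2)
    (D : Fin 6 → Submodule F (Fin 6 → F)) (hD : IsNondegenerateMDecomposition f 1 D) :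
    ¬ IsMaximalIn (Iso f ⊓ specialLinear (Fin 6) F)
      (decompositionStabilizer D ⊓ (Iso f ⊓ specialLinear (Fin 6) F)) := by
  classical
  rintro ⟨-, hmax⟩
  have hf := hU.unitary
  have h2 : (2 : F) = 0 := two_eq_zero_of_card hU.card
  have h11 : (1 : F) + 1 = 0 := by rw [one_add_one_eq_two]; exact h2
  have hF4 : Fintype.card F = 4 := by rw [hU.card]; norm_num
  -- the frame
  have hex : ∀ j, ∃ b : Fin 6 → F, b ∈ D j ∧ b ≠ 0 ∧ ∀ w ∈ D j, ∃ c : F, c • b = w := by
    intro j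
    obtain ⟨v, hv0, hv⟩ := finrank_eq_one_iff'.mp (hD.decomp.finrank_eq j)
    refine ⟨v.1, v.2, fun h => hv0 (Subtype.ext h), fun w hw => ?_⟩
    obtain ⟨c, hc⟩ := hv ⟨w, hw⟩
    exact ⟨c, congrArg Subtype.val hc⟩
  choose b hbD hb0 hbs using hex
  have hbb : ∀ i j, f (b i) (b j) = if i = j then 1 else 0 := by
    intro i j
    by_cases hij : i = j
    · subst hij
      rw [if_pos rfl]
      obtain ⟨x, hx, hxb⟩ := (hD.nondegenerate i (b i) (hbD i) (hb0 i)).1
      obtain ⟨c, rfl⟩ := hbs i x hx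
      rw [hf.smul_left] at hxb
      exact eq_one_of_fixed hU (right_ne_zero_of_mul hxb) (hf.herm _ _).symm
    · rw [if_neg hij]
      exact hD.orthogonal i j hij _ (hbD i) _ (hbD j)
  obtain ⟨P, hP, hPb⟩ := exists_ON_of_family hf b hbb
  -- (1) the stabiliser lies in `MS P`
  have h1 : decompositionStabilizer D ⊓ (Iso f ⊓ specialLinear (Fin 6) F) ≤
      MS P ⊓ (Iso f ⊓ specialLinear (Fin 6) F) := by
    rintro g ⟨⟨π, hπ⟩, hg2⟩
    refine ⟨?_, hg2⟩
    have hgc : ∀ i, ∃ c : F, c • b (π i) = (g : Matrix (Fin 6) (Fin 6) F) *ᵥ b i := by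
      intro i
      apply hbs
      rw [← hπ i]
      exact ⟨b i, hbD i, by rw [Matrix.toLin'_apply]⟩
    choose c hc using hgc
    have hc0 : ∀ i, c i ≠ 0 := by
      intro i h0
      have e := hc i
      rw [h0, zero_smul] at e
      apply hb0 i
      have := congrArg (fun v => ((g⁻¹ : GL (Fin 6) F) : Matrix (Fin 6) (Fin 6) F) *ᵥ v) e
      simp only [inv_mul_mulVec, Matrix.mulVec_zero] at this
      exact this.symm
    have hG : ((P⁻¹ * g * P : GL (Fin 6) F) : Matrix (Fin 6) (Fin 6) F) = mn π c := by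
      apply ext_single
      intro j
      rw [mn_mulVec_single, Units.val_mul, Units.val_mul, ← Matrix.mulVec_mulVec,
        ← Matrix.mulVec_mulVec, hPb, ← hc, Matrix.mulVec_smul, ← hPb, inv_mul_mulVec]
    have hdet : (mn π c).det = 1 := by
      rw [← hG, Units.val_mul, Units.val_mul, Matrix.det_mul, Matrix.det_mul,
        mem_specialLinear_iff.mp hg2.2, mul_one, ← Matrix.det_mul, ← Units.val_mul, inv_mul_cancel,
        Units.val_one, Matrix.det_one]
    have hprod : ∏ j, c j = 1 := by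
      rw [prod_eq_of_det_mn π c, hdet, mul_one]
      rcases Int.units_eq_one_or (Equiv.Perm.sign π) with h | h <;> rw [h]
      · simp
      · simp only [Units.val_neg, Units.val_one, Int.cast_neg, Int.cast_one]
        linear_combination -h11
    show g ∈ MS P
    rw [mem_MS]
    intro v
    apply S6_mono π c hc0 hprod
    intro i
    rw [← mn_apply π c, ← hG, Units.val_mul, Units.val_mul, ← Matrix.mulVec_mulVec,
      ← Matrix.mulVec_mulVec, mul_inv_mulVec]
  -- (2) the transvection with centre `(1,…,1)`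
  have hv : f ((P : Matrix (Fin 6) (Fin 6) F) *ᵥ (fun _ => 1)) ((P : Matrix (Fin 6) (Fin 6) F) *ᵥ (fun _ => 1)) = 0 := by
    rw [hP]
    simp only [map_one, mul_one, Finset.sum_const, Finset.card_univ, Fintype.card_fin]
    rw [nsmul_eq_mul, mul_one]
    have : ((6 : ℕ) : F) = 3 * 2 := by norm_num
    rw [this, h2, mul_zero]
  have ht := utv_mem hf _ 1 hv (by rw [map_one]; exact h11)
  have htc : ∀ x : Fin 6 → F, ((P⁻¹ : GL (Fin 6) F) : Matrix (Fin 6) (Fin 6) F) *ᵥ
      ((utv hf _ 1 hv : Matrix (Fin 6) (Fin 6) F) *ᵥ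
        ((P : Matrix (Fin 6) (Fin 6) F) *ᵥ x)) = fun i => x i + ∑ j, x j := by
    intro x
    rw [utv_coord hf hP]
    simp
  have htM : utv hf _ 1 hv ∈ MS P := by
    rw [mem_MS]
    intro v
    obtain ⟨x, rfl⟩ : ∃ x, v = (P : Matrix (Fin 6) (Fin 6) F) *ᵥ x := ⟨_, (mul_inv_mulVec P v).symm⟩
    rw [htc, inv_mul_mulVec]
    constructor
    · exact sigma_tv hF4 x
    · intro h
      have := sigma_tv hF4 _ h
      convert this using 1
      funext i
      simp only [Finset.sum_add_distrib, Finset.sum_const, Finset.card_univ, Fintype.card_fin,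
        nsmul_eq_mul]
      have e6 : ((6 : ℕ) : F) = 3 * 2 := by norm_num
      rw [e6, h2]
      linear_combination (-(∑ j, x j)) * h2
  have htS : utv hf _ 1 hv ∉ decompositionStabilizer D := by
    rintro ⟨π, hπ⟩
    have hmem : (utv hf _ 1 hv : Matrix (Fin 6) (Fin 6) F) *ᵥ b 0 ∈ D (π 0) := by
      rw [← hπ 0]
      exact ⟨b 0, hbD 0, by rw [Matrix.toLin'_apply]⟩
    obtain ⟨s, hs⟩ := hbs _ _ hmem
    have e := congrArg (fun v => ((P⁻¹ : GL (Fin 6) F) : Matrix (Fin 6) (Fin 6) F) *ᵥ v) hs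
    rw [← hPb 0, htc, Matrix.mulVec_smul, ← hPb, inv_mul_mulVec] at e
    have e1 := congrFun e 1
    have e2 := congrFun e 2
    simp only [Pi.smul_apply, smul_eq_mul, Finset.sum_pi_single', Finset.mem_univ, if_true] at e1 e2
    by_cases hk : π 0 = 1
    · rw [hk] at e2
      simp at e2
    · rw [Pi.single_eq_of_ne (Ne.symm hk)] at e1
      simp at e1
  -- (3) the transvection with centre `(1,1,1,1,0,0)`
  have hw : f ((P : Matrix (Fin 6) (Fin 6) F) *ᵥ ![1, 1, 1, 1, 0, 0])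
      ((P : Matrix (Fin 6) (Fin 6) F) *ᵥ ![1, 1, 1, 1, 0, 0]) = 0 := by
    rw [hP, Fin.sum_univ_six]
    simp
    linear_combination 2 * h2
  have ht' := utv_mem hf _ 1 hw (by rw [map_one]; exact h11)
  have htM' : utv hf _ 1 hw ∉ MS P := by
    intro hmem
    rw [mem_MS] at hmem
    have := hmem ((P : Matrix (Fin 6) (Fin 6) F) *ᵥ ![1, 0, 0, 0, 1, 0])
    rw [utv_coord hf hP, inv_mul_mulVec, S6_expand, S6_expand] at this
    simp [Fin.sum_univ_six, h11] at this
  rcases hmax _ h1 inf_le_right with h | h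
  · apply htS
    have : utv hf _ 1 hv ∈ MS P ⊓ (Iso f ⊓ specialLinear (Fin 6) F) := ⟨htM, ht⟩
    rw [h] at this
    exact this.1
  · apply htM'
    rw [← h] at ht'
    exact ht'.1

end Cfsg.Agent.Lib.Helper60U6Frame
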