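import Cfsg.Agent.Lib.Helper18F4
import Cfsg.Agent.Lib.Helper38U6Defs

set_option autoImplicit false

/-! PROJECT 8 = SU_6(2), piece `sigma_tv`. -/

namespace Cfsg.Agent.Lib.Helper60U6Sigma

open Cfsg.Agent.Lib.Helper18F4 Cfsg.Agent.Lib.Helper38U6Defs

/-- the indicator of being non-zero -/
def nz (a : F4c) : ℕ := if a = 0 then 0 else 1

/-- boolean version of `S6` over the model -/
def S6c (x0 x1 x2 x3 x4 x5 : F4c) : Bool :=
  (nz x0 + nz x1 + nz x2 + nz x3 + nz x4 + nz x5 == 2) || (x0 * x1 * x2 * x3 * x4 * x5 == 1)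

set_option maxRecDepth 100000 in
theorem chk : ∀ x0 x1 x2 x3 x4 x5 : F4c, S6c x0 x1 x2 x3 x4 x5 = true →
    S6c (x0 + (x0 + x1 + x2 + x3 + x4 + x5)) (x1 + (x0 + x1 + x2 + x3 + x4 + x5))
      (x2 + (x0 + x1 + x2 + x3 + x4 + x5)) (x3 + (x0 + x1 + x2 + x3 + x4 + x5))
      (x4 + (x0 + x1 + x2 + x3 + x4 + x5)) (x5 + (x0 + x1 + x2 + x3 + x4 + x5)) = true := by
  decide +kernel

theorem S6_iff (x : Fin 6 → F4c) : S6 x ↔ S6c (x 0) (x 1) (x 2) (x 3) (x 4) (x 5) = true := by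
  unfold S6 S6c nz
  rw [Finset.card_filter, Fin.sum_univ_six, Fin.prod_univ_six]
  simp only [Bool.or_eq_true, beq_iff_eq, ne_eq, ite_not]
  constructor <;> intro h <;> convert h

theorem S6_map {F : Type*} [Field F] (e : F ≃+* F4c) (x : Fin 6 → F) :
    S6 x ↔ S6 (fun i => e (x i)) := by
  unfold S6
  have h1 : ∏ i, e (x i) = e (∏ i, x i) := (map_prod e x Finset.univ).symm
  rw [h1]
  have h2 : e (∏ i, x i) = 1 ↔ ∏ i, x i = 1 := by
    constructor
    · intro h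
      apply e.injective
      rw [h, map_one]
    · intro h
      rw [h, map_one]
  rw [h2]
  have h3 : ∀ i, e (x i) ≠ 0 ↔ x i ≠ 0 := fun i => by
    simp
  have h4 : ∀ s t : Finset (Fin 6), s = t → (s.card = 2 ∨ ∏ i, x i = 1 ↔ t.card = 2 ∨ ∏ i, x i = 1) := by
    rintro s t rfl
    exact Iff.rfl
  apply h4
  ext i
  simp

/-- [sigma_tv] -/
theorem sigma_tv {F : Type*} [Field F] [Fintype F] (hF : Fintype.card F = 4) (x : Fin 6 → F)
    (hx : S6 x) : S6 (fun i => x i + ∑ j, x j) := by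
  obtain ⟨e⟩ := exists_ringEquiv hF
  rw [S6_map e, S6_iff] at hx ⊢
  have := chk _ _ _ _ _ _ hx
  simp only [map_add, Fin.sum_univ_six]
  exact this

end Cfsg.Agent.Lib.Helper60U6Sigma
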