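import Mathlib

set_option autoImplicit false
set_option linter.unusedSectionVars false

/-! Matrices that are unitriangular with respect to a level function on the index set. -/

namespace Cfsg.Agent.Lib.Helper60Unitri

variable {ι : Type*} [Fintype ι] [DecidableEq ι] {R : Type*} [CommRing R] (lvl : ι → ℕ)

/-- matrices raising the level by at least `k` -/
def Raises (k : ℕ) (M : Matrix ι ι R) : Prop := ∀ i j, M i j ≠ 0 → lvl j + k ≤ lvl i

variable {lvl}

lemma Raises.mul {a b : ℕ} {M N : Matrix ι ι R} (hM : Raises lvl a M) (hN : Raises lvl b N) :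
    Raises lvl (a + b) (M * N) := by
  intro i j h
  rw [Matrix.mul_apply] at h
  obtain ⟨l, _, hl⟩ := Finset.exists_ne_zero_of_sum_ne_zero h
  have h1 := hM i l (left_ne_zero_of_mul hl)
  have h2 := hN l j (right_ne_zero_of_mul hl)
  omega

lemma Raises.add {a : ℕ} {M N : Matrix ι ι R} (hM : Raises lvl a M) (hN : Raises lvl a N) :
    Raises lvl a (M + N) := by
  intro i j h
  by_contra hcon
  have h1 : M i j = 0 := by
    by_contra h1
    exact hcon (hM i j h1)
  have h2 : N i j = 0 := by
    by_contra h2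
    exact hcon (hN i j h2)
  apply h
  rw [Matrix.add_apply, h1, h2, add_zero]

lemma Raises.mono {a b : ℕ} (hab : a ≤ b) {M : Matrix ι ι R} (hM : Raises lvl b M) : Raises lvl a M := by
  intro i j h
  have := hM i j h
  omega

lemma raises_one : Raises lvl 0 (1 : Matrix ι ι R) := by
  intro i j h
  by_cases hij : i = j
  · subst hij; omega
  · exact absurd (Matrix.one_apply_ne hij) h

lemma Raises.pow {M : Matrix ι ι R} (hM : Raises lvl 1 M) (k : ℕ) : Raises lvl k (M ^ k) := by
  induction k with
  | zero => simpa using raises_one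
  | succ k ih =>
    rw [pow_succ]
    exact ih.mul hM

lemma eq_zero_of_raises {L : ℕ} (hL : ∀ i, lvl i < L) {M : Matrix ι ι R} (hM : Raises lvl L M) : M = 0 := by
  ext i j
  by_contra h
  have h1 := hM i j h
  have h2 := hL i
  omega

/-- the unitriangular matrices -/
def UT (lvl : ι → ℕ) (R : Type*) [CommRing R] : Submonoid (Matrix ι ι R) where
  carrier := {M | Raises lvl 1 (M - 1)}
  one_mem' := by
    intro i j h
    simp at h
  mul_mem' := by
    intro M N hM hN
    have e : M * N - 1 = (M - 1) * (N - 1) + ((M - 1) + (N - 1)) := by noncomm_ring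
    show Raises lvl 1 (M * N - 1)
    rw [e]
    exact ((Raises.mul hM hN).mono (by omega)).add (Raises.add hM hN)

lemma mem_UT {M : Matrix ι ι R} : M ∈ UT lvl R ↔ Raises lvl 1 (M - 1) := Iff.rfl

/-- a unitriangular matrix in characteristic `p` has `p`-power order bounded by the number of levels -/
lemma pow_eq_one_of_mem_UT [Nonempty ι] (p : ℕ) [Fact p.Prime] [CharP R p] {L n : ℕ} (hL : ∀ i, lvl i < L)
    (hn : L ≤ p ^ n) {M : Matrix ι ι R} (hM : M ∈ UT lvl R) : M ^ (p ^ n) = 1 := by
  have h1 : (M - 1) ^ (p ^ n) = 0 :=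
    eq_zero_of_raises hL (((mem_UT.mp hM).pow (p ^ n)).mono hn)
  have h2 : M = (M - 1) + 1 := by abel
  rw [h2, add_pow_char_pow_of_commute _ _ (Commute.one_right _), h1, one_pow, zero_add]

/-- the unitriangular elements of the general linear group over a finite ring -/
def UTG (lvl : ι → ℕ) (R : Type*) [CommRing R] [Finite R] : Subgroup (Matrix.GeneralLinearGroup ι R) where
  carrier := {g | (g : Matrix ι ι R) ∈ UT lvl R}
  one_mem' := (UT lvl R).one_mem
  mul_mem' := by
    intro a b ha hb
    show ((a * b : Matrix.GeneralLinearGroup ι R) : Matrix ι ι R) ∈ UT lvl R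
    rw [Units.val_mul]
    exact (UT lvl R).mul_mem ha hb
  inv_mem' := by
    intro a ha
    show ((a⁻¹ : Matrix.GeneralLinearGroup ι R) : Matrix ι ι R) ∈ UT lvl R
    have h1 : a⁻¹ = a ^ (orderOf a - 1) := by
      have h2 : a ^ (orderOf a - 1) * a = 1 := by
        rw [← pow_succ, Nat.sub_add_cancel (orderOf_pos a), pow_orderOf_eq_one]
      exact (eq_inv_of_mul_eq_one_left h2).symm
    rw [h1, Units.val_pow_eq_pow_val]
    exact (UT lvl R).pow_mem ha _

lemma mem_UTG [Finite R] {g : Matrix.GeneralLinearGroup ι R} :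
    g ∈ UTG lvl R ↔ Raises lvl 1 ((g : Matrix ι ι R) - 1) := Iff.rfl

end Cfsg.Agent.Lib.Helper60Unitri
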