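import Cfsg.Agent.Lib.Helper62CoM2

set_option autoImplicit false
set_option maxRecDepth 100000

/-! Third part of the glue for stabilisers of lattice vectors in `Co0`: a linear-time test that a
list of numbers has no repetition (residues and a bit mask), used for the chain test. -/

namespace Cfsg.Agent.Lib.Helper62CoM3

open Cfsg Cfsg.Agent.Lib.Helper33LVec Cfsg.Agent.Lib.Helper33LMat Cfsg.Agent.Lib.Helper33LCo0
open Cfsg.Agent.Lib.Helper33LFrame Cfsg.Agent.Lib.Helper33LGood Cfsg.Agent.Lib.Helper33LReach2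
open Cfsg.Agent.Lib.Helper33LWord Cfsg.Agent.Lib.Helper33LCent2 Cfsg.Agent.Lib.Helper33LTest
open Cfsg.Agent.Lib.Helper63PCDefs Cfsg.Agent.Lib.Helper63PCTabDefs Cfsg.Agent.Lib.Helper62CoM
open Cfsg.Agent.Lib.Helper62CoM2

/-- no repetition, checked through the residues modulo `M` and a bit mask -/
def nodupM (M : ℕ) : List ℕ → ℕ → Bool
  | [], _ => true
  | c :: l, acc => !(Nat.testBit acc (c % M)) && nodupM M l (acc ||| (1 <<< (c % M)))

theorem nodupM_spec (M : ℕ) : ∀ (l : List ℕ) (acc : ℕ), nodupM M l acc = true →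
    l.Nodup ∧ ∀ c ∈ l, Nat.testBit acc (c % M) = false
  | [], _, _ => ⟨List.nodup_nil, by simp⟩
  | c :: l, acc, h => by
    simp only [nodupM, Bool.and_eq_true, Bool.not_eq_true'] at h
    obtain ⟨h1, h2⟩ := h
    obtain ⟨i1, i2⟩ := nodupM_spec M l _ h2
    refine ⟨List.nodup_cons.2 ⟨fun hm => ?_, i1⟩, ?_⟩
    · have h3 := i2 c hm
      rw [Nat.testBit_or, Bool.or_eq_false_iff] at h3
      have h4 := h3.2
      simp [Nat.testBit_shiftLeft] at h4
    · intro d hd
      rcases List.mem_cons.1 hd with rfl | hd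
      · exact h1
      · have h3 := i2 d hd
        rw [Nat.testBit_or, Bool.or_eq_false_iff] at h3
        exact h3.1

theorem nodupB_of_nodup : ∀ l : List ℕ, l.Nodup → nodupB l = true
  | [], _ => rfl
  | a :: l, h => by
    rw [List.nodup_cons] at h
    simp only [nodupB, Bool.and_eq_true, Bool.not_eq_true']
    refine ⟨?_, nodupB_of_nodup l h.2⟩
    by_contra hc
    rw [Bool.not_eq_false] at hc
    exact h.1 ((Cfsg.Agent.Lib.Helper17PCTab.memB_iff a l).1 hc)

/-- the chain test with the linear-time repetition test -/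
noncomputable def chainChkM (PL : List ℕ) (p : ℕ) : List ℕ → List (List ℕ × ℕ) → Bool
  | _, [] => true
  | [], _ :: _ => false
  | M :: Ms, (as, b) :: rest =>
    inR b && isLeech b && as.all (fun a => Nat.blt a PL.length) &&
    (orb1 PL p b as).all (fun c => !(Nat.beq c 0)) && nodupM M (orb1 PL p b as) 0 &&
    (rest.flatMap Prod.fst).all (fun a => Nat.blt a PL.length && stepOK (nthP PL a) b b) &&
    chainChkM PL p Ms rest

theorem chain_of_M (PL : List ℕ) (p : ℕ) : ∀ (Ms : List ℕ) (st : List (List ℕ × ℕ)),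
    chainChkM PL p Ms st = true → chainChk PL p st = true
  | _, [], _ => by simp [chainChk]
  | [], _ :: _, h => by simp [chainChkM] at h
  | M :: Ms, (as, b) :: rest, h => by
    have h' : (inR b && isLeech b && as.all (fun a => Nat.blt a PL.length) &&
      (orb1 PL p b as).all (fun c => !(Nat.beq c 0)) && nodupM M (orb1 PL p b as) 0 &&
      (rest.flatMap Prod.fst).all (fun a => Nat.blt a PL.length && stepOK (nthP PL a) b b) &&
      chainChkM PL p Ms rest) = true := h
    simp only [Bool.and_eq_true] at h'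
    obtain ⟨⟨⟨⟨⟨⟨h1, h2⟩, h3⟩, h4⟩, h5⟩, h6⟩, h7⟩ := h'
    show (inR b && isLeech b && as.all (fun a => Nat.blt a PL.length) &&
      (orb1 PL p b as).all (fun c => !(Nat.beq c 0)) && nodupB (orb1 PL p b as) &&
      (rest.flatMap Prod.fst).all (fun a => Nat.blt a PL.length && stepOK (nthP PL a) b b) &&
      chainChk PL p rest) = true
    simp only [Bool.and_eq_true]
    exact ⟨⟨⟨⟨⟨⟨h1, h2⟩, h3⟩, h4⟩, nodupB_of_nodup _ (nodupM_spec M _ 0 h5).1⟩, h6⟩,
      chain_of_M PL p Ms rest h7⟩

end Cfsg.Agent.Lib.Helper62CoM3
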