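import Cfsg.Agent.Lib.Helper62Co2M2D
import Cfsg.Agent.Lib.Helper62CoM3

set_option autoImplicit false
set_option maxRecDepth 1000000
set_option exponentiation.threshold 2000

/-! Certificate for the 2-part of the Schur multiplier of `Co2` (generated). -/

namespace Cfsg.Agent.Lib.Helper62Co2M2B

open Cfsg Cfsg.Agent.Lib.Helper62CoM Cfsg.Agent.Lib.Helper63PCDefs Cfsg.Agent.Lib.Helper63PCTabDefs
open Cfsg.Agent.Lib.Helper33LVec Cfsg.Agent.Lib.Helper33LMat Cfsg.Agent.Lib.Helper33LCo0
open Cfsg.Agent.Lib.Helper33LFrame Cfsg.Agent.Lib.Helper33LGood Cfsg.Agent.Lib.Helper33LTest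
open Cfsg.Agent.Lib.Helper33LCo2 Cfsg.Agent.Lib.Helper33LMcL Cfsg.Agent.Lib.Helper33LCo2Ord
open Cfsg.Agent.Lib.Helper62CoM2 (chainChk defChk denseGo)
open Cfsg.Agent.Lib.Helper62Co2M2D

set_option maxHeartbeats 0

theorem c1M : Cfsg.Agent.Lib.Helper62CoM3.chainChkM PL 2 [262147, 1457] st = true := by
  decide +kernel

theorem c1 : chainChk PL 2 st = true := Cfsg.Agent.Lib.Helper62CoM3.chain_of_M PL 2 _ st c1M

theorem c2 : defChk PL 18 defs = true := by decide +kernel

theorem c3 : (st.flatMap Prod.fst).all (fun a => (defs.map Prod.fst).contains a) = true := by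
  decide +kernel

theorem c4 : (st.flatMap Prod.fst).length = 18 := by decide +kernel

end Cfsg.Agent.Lib.Helper62Co2M2B
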