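import Cfsg.Agent.Lib.Helper63PCDefs

set_option autoImplicit false

/-! Splitting the test `Cert.check` of the power-commutator certificates into independent pieces,
so that a big certificate can be verified by many small evaluations. -/

namespace Cfsg.Agent.Lib.Helper62PCSplit

open Cfsg.Agent.Lib.Helper63PCDefs

/-- the part `[i, i + k)` of the relation vectors is right -/
def specChk (C : Cert) (i k : ℕ) : Bool :=
  ((C.relV.drop i).take k == ((C.specs.drop i).take k).map C.vec)

/-- the rows with first index `b` and second index in `[a0, a1)` -/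
def rowChk (C : Cert) (b a0 a1 : ℕ) : Bool :=
  (List.range (a1 - a0)).all (fun a =>
    decide (a0 + a < b) || (C.row1 (b * C.D.n + (a0 + a)) && C.row2 (b * C.D.n + (a0 + a))))

/-- the cheap part -/
def headChk (C : Cert) : Bool :=
  C.D.wordsOK && decide (C.j0 < C.N) && C.lam.all (fun v => v.length == C.N)

theorem eq_map_of_chunks {α β : Type*} (f : α → β) (l1 : List β) (l2 : List α) (k m : ℕ)
    (hk : 0 < k) (hl1 : l1.length ≤ m * k) (hl2 : l2.length ≤ m * k)
    (h : ∀ i < m, (l1.drop (i * k)).take k = ((l2.drop (i * k)).take k).map f) :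
    l1 = l2.map f := by
  apply List.ext_getElem?
  intro j
  by_cases hj : j < m * k
  · have hi : j / k < m := Nat.div_lt_of_lt_mul (by rwa [Nat.mul_comm] at hj)
    have hr : j % k < k := Nat.mod_lt _ hk
    have h3 := congrArg (fun l => l[j % k]?) (h (j / k) hi)
    simp only [List.getElem?_take, List.getElem?_map, List.getElem?_drop, hr, if_true] at h3
    have e : j / k * k + j % k = j := by rw [Nat.mul_comm]; exact Nat.div_add_mod j k
    rw [e] at h3
    rw [h3, List.getElem?_map]
  · rw [not_lt] at hj
    rw [List.getElem?_eq_none (by omega), List.getElem?_eq_none (by simp; omega)]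

theorem check_of (C : Cert) (k m : ℕ) (hk : 0 < k) (h0 : headChk C = true)
    (hl1 : C.relV.length ≤ m * k) (hl2 : C.specs.length ≤ m * k)
    (h1 : ∀ i < m, specChk C (i * k) k = true)
    (h2 : ∀ b < C.D.n, ∀ a < C.D.n, b ≤ a →
      (C.row1 (b * C.D.n + a) && C.row2 (b * C.D.n + a)) = true) : C.check = true := by
  have e : C.relV = C.specs.map C.vec :=
    eq_map_of_chunks C.vec C.relV C.specs k m hk hl1 hl2 (fun i hi => eq_of_beq (h1 i hi))
  unfold headChk at h0
  unfold Cert.check
  rw [h0, Bool.true_and, Bool.and_eq_true]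
  refine ⟨by rw [← e]; exact beq_self_eq_true _, ?_⟩
  rw [List.all_eq_true]
  intro b hb
  rw [List.all_eq_true]
  intro a ha
  rw [List.mem_range] at hb ha
  by_cases hab : a < b
  · simp [hab]
  · rw [h2 b hb a ha (by omega), Bool.or_true]

theorem row_of (C : Cert) (b a0 a1 : ℕ) (h : rowChk C b a0 a1 = true) (a : ℕ) (h0 : a0 ≤ a)
    (h1 : a < a1) (hb : b ≤ a) : (C.row1 (b * C.D.n + a) && C.row2 (b * C.D.n + a)) = true := by
  unfold rowChk at h
  rw [List.all_eq_true] at h
  have h3 := h (a - a0) (List.mem_range.2 (by omega))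
  have e : a0 + (a - a0) = a := by omega
  rw [e] at h3
  have : ¬ a < b := by omega
  simpa [this] using h3

end Cfsg.Agent.Lib.Helper62PCSplit
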