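import Cfsg.Agent.Lib.Helper62Co2M2D
import Cfsg.Agent.Lib.Helper62PCSplit

set_option autoImplicit false
set_option maxRecDepth 1000000
set_option maxHeartbeats 0

/-! Certificate for the 2-part of the Schur multiplier of `Co2` (generated piece). -/

namespace Cfsg.Agent.Lib.Helper62Co2M2P2

open Cfsg Cfsg.Agent.Lib.Helper63PCDefs Cfsg.Agent.Lib.Helper62PCSplit Cfsg.Agent.Lib.Helper62Co2M2D

theorem r3_3 : rowChk C 3 3 10 = true := by decide +kernel

theorem r5_5 : rowChk C 5 5 18 = true := by decide +kernel

theorem s19 : specChk C (19 * 8) 8 = true := by decide +kernel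

theorem r1_13 : rowChk C 1 13 18 = true := by decide +kernel

theorem r9_9 : rowChk C 9 9 18 = true := by decide +kernel

theorem s7 : specChk C (7 * 8) 8 = true := by decide +kernel

theorem s2 : specChk C (2 * 8) 8 = true := by decide +kernel

theorem s0 : specChk C (0 * 8) 8 = true := by decide +kernel

end Cfsg.Agent.Lib.Helper62Co2M2P2
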