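import Cfsg.Agent.Lib.Helper62Co2M2D
import Cfsg.Agent.Lib.Helper62PCSplit

set_option autoImplicit false
set_option maxRecDepth 1000000
set_option maxHeartbeats 0

/-! Certificate for the 2-part of the Schur multiplier of `Co2` (generated piece). -/

namespace Cfsg.Agent.Lib.Helper62Co2M2P3

open Cfsg Cfsg.Agent.Lib.Helper63PCDefs Cfsg.Agent.Lib.Helper62PCSplit Cfsg.Agent.Lib.Helper62Co2M2D

theorem r6_6 : rowChk C 6 6 15 = true := by decide +kernel

theorem r2_8 : rowChk C 2 8 13 = true := by decide +kernel

theorem s18 : specChk C (18 * 8) 8 = true := by decide +kernel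

theorem r2_13 : rowChk C 2 13 18 = true := by decide +kernel

theorem r8_8 : rowChk C 8 8 18 = true := by decide +kernel

theorem s6 : specChk C (6 * 8) 8 = true := by decide +kernel

theorem s12 : specChk C (12 * 8) 8 = true := by decide +kernel

theorem r14_14 : rowChk C 14 14 18 = true := by decide +kernel

theorem r15_15 : rowChk C 15 15 18 = true := by decide +kernel

end Cfsg.Agent.Lib.Helper62Co2M2P3
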