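import Cfsg.Agent.Lib.Helper62Co2M2D
import Cfsg.Agent.Lib.Helper62PCSplit

set_option autoImplicit false
set_option maxRecDepth 1000000
set_option maxHeartbeats 0

/-! Certificate for the 2-part of the Schur multiplier of `Co2` (generated piece). -/

namespace Cfsg.Agent.Lib.Helper62Co2M2P4

open Cfsg Cfsg.Agent.Lib.Helper63PCDefs Cfsg.Agent.Lib.Helper62PCSplit Cfsg.Agent.Lib.Helper62Co2M2D

theorem r0_5 : rowChk C 0 5 11 = true := by decide +kernel

theorem r2_2 : rowChk C 2 2 8 = true := by decide +kernel

theorem r1_1 : rowChk C 1 1 8 = true := by decide +kernel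

theorem s14 : specChk C (14 * 8) 8 = true := by decide +kernel

theorem s23 : specChk C (23 * 8) 8 = true := by decide +kernel

theorem r12_12 : rowChk C 12 12 18 = true := by decide +kernel

theorem s13 : specChk C (13 * 8) 8 = true := by decide +kernel

theorem r13_13 : rowChk C 13 13 18 = true := by decide +kernel

theorem r6_15 : rowChk C 6 15 18 = true := by decide +kernel

end Cfsg.Agent.Lib.Helper62Co2M2P4
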