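import Cfsg.Agent.Lib.Helper62Co2M2D
import Cfsg.Agent.Lib.Helper62PCSplit

set_option autoImplicit false
set_option maxRecDepth 1000000
set_option maxHeartbeats 0

/-! Certificate for the 2-part of the Schur multiplier of `Co2` (generated piece). -/

namespace Cfsg.Agent.Lib.Helper62Co2M2P5

open Cfsg Cfsg.Agent.Lib.Helper63PCDefs Cfsg.Agent.Lib.Helper62PCSplit Cfsg.Agent.Lib.Helper62Co2M2D

theorem r0_0 : rowChk C 0 0 5 = true := by decide +kernel

theorem r3_10 : rowChk C 3 10 15 = true := by decide +kernel

theorem s20 : specChk C (20 * 8) 8 = true := by decide +kernel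

theorem s15 : specChk C (15 * 8) 8 = true := by decide +kernel

theorem r11_11 : rowChk C 11 11 18 = true := by decide +kernel

theorem r10_10 : rowChk C 10 10 18 = true := by decide +kernel

theorem s5 : specChk C (5 * 8) 8 = true := by decide +kernel

theorem s11 : specChk C (11 * 8) 8 = true := by decide +kernel

theorem r16_16 : rowChk C 16 16 18 = true := by decide +kernel

end Cfsg.Agent.Lib.Helper62Co2M2P5
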