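import Cfsg.Agent.Lib.Helper62Co2M2D
import Cfsg.Agent.Lib.Helper62PCSplit

set_option autoImplicit false
set_option maxRecDepth 1000000
set_option maxHeartbeats 0

/-! Certificate for the 2-part of the Schur multiplier of `Co2` (generated piece). -/

namespace Cfsg.Agent.Lib.Helper62Co2M2P6

open Cfsg Cfsg.Agent.Lib.Helper63PCDefs Cfsg.Agent.Lib.Helper62PCSplit Cfsg.Agent.Lib.Helper62Co2M2D

theorem r1_8 : rowChk C 1 8 13 = true := by decide +kernel

theorem r0_11 : rowChk C 0 11 18 = true := by decide +kernel

theorem s21 : specChk C (21 * 8) 8 = true := by decide +kernel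

theorem s16 : specChk C (16 * 8) 8 = true := by decide +kernel

theorem r4_13 : rowChk C 4 13 18 = true := by decide +kernel

theorem s9 : specChk C (9 * 8) 8 = true := by decide +kernel

theorem s4 : specChk C (4 * 8) 8 = true := by decide +kernel

theorem s10 : specChk C (10 * 8) 8 = true := by decide +kernel

theorem r17_17 : rowChk C 17 17 18 = true := by decide +kernel

end Cfsg.Agent.Lib.Helper62Co2M2P6
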