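import Cfsg.Agent.Lib.Helper62Co2M2P1
import Cfsg.Agent.Lib.Helper62Co2M2P2
import Cfsg.Agent.Lib.Helper62Co2M2P3
import Cfsg.Agent.Lib.Helper62Co2M2P4
import Cfsg.Agent.Lib.Helper62Co2M2P5
import Cfsg.Agent.Lib.Helper62Co2M2P6

set_option autoImplicit false
set_option maxRecDepth 1000000
set_option maxHeartbeats 0

/-! Certificate for the 2-part of the Schur multiplier of `Co2` (generated piece). -/

namespace Cfsg.Agent.Lib.Helper62Co2M2C

open Cfsg Cfsg.Agent.Lib.Helper63PCDefs Cfsg.Agent.Lib.Helper62PCSplit Cfsg.Agent.Lib.Helper62Co2M2D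
open Cfsg.Agent.Lib.Helper62Co2M2P1 Cfsg.Agent.Lib.Helper62Co2M2P2 Cfsg.Agent.Lib.Helper62Co2M2P3 Cfsg.Agent.Lib.Helper62Co2M2P4 Cfsg.Agent.Lib.Helper62Co2M2P5 Cfsg.Agent.Lib.Helper62Co2M2P6

theorem h0 : headChk C = true := by decide +kernel

theorem specsOK : ∀ i < 24, specChk C (i * 8) 8 = true := by
  intro i hi
  interval_cases i
  exacts [s0, s1, s2, s3, s4, s5, s6, s7, s8, s9, s10, s11, s12, s13, s14, s15, s16, s17, s18, s19, s20, s21, s22, s23]

theorem rowsOK : ∀ b < C.D.n, ∀ a < C.D.n, b ≤ a →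
    (C.row1 (b * C.D.n + a) && C.row2 (b * C.D.n + a)) = true := by
  intro b hb a ha hab
  have hn : C.D.n = 18 := rfl
  rw [hn] at hb ha
  interval_cases b
  · -- b = 0
    rcases Nat.lt_or_ge a 5 with h0 | h0
    · exact row_of C 0 0 5 r0_0 a hab h0 hab
    rcases Nat.lt_or_ge a 11 with h1 | h1
    · exact row_of C 0 5 11 r0_5 a h0 h1 hab
    exact row_of C 0 11 18 r0_11 a h1 ha hab
  · -- b = 1
    rcases Nat.lt_or_ge a 8 with h0 | h0
    · exact row_of C 1 1 8 r1_1 a hab h0 hab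
    rcases Nat.lt_or_ge a 13 with h1 | h1
    · exact row_of C 1 8 13 r1_8 a h0 h1 hab
    exact row_of C 1 13 18 r1_13 a h1 ha hab
  · -- b = 2
    rcases Nat.lt_or_ge a 8 with h0 | h0
    · exact row_of C 2 2 8 r2_2 a hab h0 hab
    rcases Nat.lt_or_ge a 13 with h1 | h1
    · exact row_of C 2 8 13 r2_8 a h0 h1 hab
    exact row_of C 2 13 18 r2_13 a h1 ha hab
  · -- b = 3
    rcases Nat.lt_or_ge a 10 with h0 | h0
    · exact row_of C 3 3 10 r3_3 a hab h0 hab
    rcases Nat.lt_or_ge a 15 with h1 | h1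
    · exact row_of C 3 10 15 r3_10 a h0 h1 hab
    exact row_of C 3 15 18 r3_15 a h1 ha hab
  · -- b = 4
    rcases Nat.lt_or_ge a 13 with h0 | h0
    · exact row_of C 4 4 13 r4_4 a hab h0 hab
    exact row_of C 4 13 18 r4_13 a h0 ha hab
  · -- b = 5
    exact row_of C 5 5 18 r5_5 a hab ha hab
  · -- b = 6
    rcases Nat.lt_or_ge a 15 with h0 | h0
    · exact row_of C 6 6 15 r6_6 a hab h0 hab
    exact row_of C 6 15 18 r6_15 a h0 ha hab
  · -- b = 7
    exact row_of C 7 7 18 r7_7 a hab ha hab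
  · -- b = 8
    exact row_of C 8 8 18 r8_8 a hab ha hab
  · -- b = 9
    exact row_of C 9 9 18 r9_9 a hab ha hab
  · -- b = 10
    exact row_of C 10 10 18 r10_10 a hab ha hab
  · -- b = 11
    exact row_of C 11 11 18 r11_11 a hab ha hab
  · -- b = 12
    exact row_of C 12 12 18 r12_12 a hab ha hab
  · -- b = 13
    exact row_of C 13 13 18 r13_13 a hab ha hab
  · -- b = 14
    exact row_of C 14 14 18 r14_14 a hab ha hab
  · -- b = 15
    exact row_of C 15 15 18 r15_15 a hab ha hab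
  · -- b = 16
    exact row_of C 16 16 18 r16_16 a hab ha hab
  · -- b = 17
    exact row_of C 17 17 18 r17_17 a hab ha hab

theorem check : C.check = true :=
  check_of C 8 24 (by norm_num) h0 (by decide +kernel) (by decide +kernel) specsOK rowsOK

end Cfsg.Agent.Lib.Helper62Co2M2C
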