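import Cfsg.Agent.Lib.Helper62Co2M2A
import Cfsg.Agent.Lib.Helper62Co2M2B
import Cfsg.Agent.Lib.Helper62Co2M2C

set_option autoImplicit false
set_option maxRecDepth 1000000
set_option exponentiation.threshold 2000

/-! Certificate for the 2-part of the Schur multiplier of `Co2` (generated). -/

namespace Cfsg.Agent.Lib.Helper62Co2M2

open Cfsg Cfsg.Agent.Lib.Helper62CoM Cfsg.Agent.Lib.Helper63PCDefs Cfsg.Agent.Lib.Helper63PCTabDefs
open Cfsg.Agent.Lib.Helper33LVec Cfsg.Agent.Lib.Helper33LMat Cfsg.Agent.Lib.Helper33LCo0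
open Cfsg.Agent.Lib.Helper33LFrame Cfsg.Agent.Lib.Helper33LGood Cfsg.Agent.Lib.Helper33LTest
open Cfsg.Agent.Lib.Helper33LCo2 Cfsg.Agent.Lib.Helper33LMcL Cfsg.Agent.Lib.Helper33LCo2Ord
open Cfsg.Agent.Lib.Helper62CoM2 (chainChk defChk denseGo)
open Cfsg.Agent.Lib.Helper62Co2M2D
open Cfsg.Agent.Lib.Helper62Co2M2A Cfsg.Agent.Lib.Helper62Co2M2B Cfsg.Agent.Lib.Helper62Co2M2C

set_option maxHeartbeats 0

theorem lb : LocalBound ↥(fixG [DL v0c]) 2 0 :=
  Cfsg.Agent.Lib.Helper62CoM2.local_of_cert C (by norm_num [Helper62Co2M2D.C, Helper62Co2M2D.D]) check PL v0c 42305421312000 okV goodCo2.2 good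
    h1 h2 st defs c1 c2 c3 c4 (by norm_num [Helper62Co2M2D.C, Helper62Co2M2D.D])

end Cfsg.Agent.Lib.Helper62Co2M2
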