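import Cfsg.Agent.Lib.Helper62Co2M2D
import Cfsg.Agent.Lib.Helper62PCSplit

set_option autoImplicit false
set_option maxRecDepth 1000000
set_option maxHeartbeats 0

/-! Certificate for the 2-part of the Schur multiplier of `Co2` (generated piece). -/

namespace Cfsg.Agent.Lib.Helper62Co2M2P1

open Cfsg Cfsg.Agent.Lib.Helper63PCDefs Cfsg.Agent.Lib.Helper62PCSplit Cfsg.Agent.Lib.Helper62Co2M2D

theorem r4_4 : rowChk C 4 4 13 = true := by decide +kernel

theorem r7_7 : rowChk C 7 7 18 = true := by decide +kernel

theorem s22 : specChk C (22 * 8) 8 = true := by decide +kernel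

theorem s17 : specChk C (17 * 8) 8 = true := by decide +kernel

theorem r3_15 : rowChk C 3 15 18 = true := by decide +kernel

theorem s8 : specChk C (8 * 8) 8 = true := by decide +kernel

theorem s3 : specChk C (3 * 8) 8 = true := by decide +kernel

theorem s1 : specChk C (1 * 8) 8 = true := by decide +kernel

end Cfsg.Agent.Lib.Helper62Co2M2P1
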