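import Cfsg.Agent.Lib.Helper17PCMult
import Cfsg.Agent.Lib.Helper38PCsurj
import Cfsg.Agent.Lib.Helper29PCIdxp

/-! PROJECT 63 (PC-MULT): final assembly lemmas. -/

set_option autoImplicit false

namespace Cfsg.Agent.Lib.Helper63PCFin

open Cfsg Cfsg.Agent.Lib.Helper63PCDefs Cfsg.Agent.Lib.Helper17PCMult

universe u

theorem mem_of_prime_dvd {p : ℕ} (hp : p.Prime) (l : List ℕ) (hl : ∀ q ∈ l, q.Prime) (N : ℕ)
    (hN : N = l.prod) (h : p ∣ N) : p ∈ l := by
  subst hN
  obtain ⟨q, hq, hd⟩ := (Prime.dvd_prod_iff hp.prime).1 h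
  exact (Nat.prime_dvd_prime_iff_eq hp (hl q hq)).1 hd ▸ hq

/-- cyclic multiplier of order `n` from a stem extension with kernel of order `n`, and local bounds
at the primes whose square divides the order -/
theorem final {G : Type u} [Group G] [Finite G] (n : ℕ) (hn : 0 < n)
    (hex : ∃ (Γ : Type u) (_ : Group Γ) (_ : Finite Γ) (σ : Γ →* G),
      IsStemExtension σ ∧ Nat.card σ.ker = n)
    (hloc : ∀ p : ℕ, p.Prime → p ^ 2 ∣ Nat.card G → LocalBound G p (n.factorization p))
    (hn' : ∀ p : ℕ, p.Prime → ¬ p ^ 2 ∣ Nat.card G → ¬ p ∣ n) :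
    HasCyclicSchurMultiplier G n := by
  refine hasMult n hn hex (fun p hp => ?_) Cfsg.Agent.Lib.Helper38PCsurj.surj_of_local
  by_cases h : p ^ 2 ∣ Nat.card G
  · exact hloc p hp h
  · rw [Nat.factorization_eq_zero_of_not_dvd (hn' p hp h)]
    exact localBound_of_not_sq_dvd p hp h Cfsg.Agent.Lib.Helper29PCIdxp.exists_index_p

theorem stem_id (G : Type u) [Group G] [Finite G] :
    ∃ (Γ : Type u) (_ : Group Γ) (_ : Finite Γ) (σ : Γ →* G),
      IsStemExtension σ ∧ Nat.card σ.ker = 1 := by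
  refine ⟨G, inferInstance, inferInstance, MonoidHom.id G, ⟨Function.surjective_id, ?_, ?_⟩, ?_⟩
  · rw [MonoidHom.ker_id]; exact bot_le
  · rw [MonoidHom.ker_id]; exact bot_le
  · rw [MonoidHom.ker_id]; exact Subgroup.card_bot

/-- trivial multiplier from local bounds `LocalBound G p 0` at the primes whose square divides the order -/
theorem final_one {G : Type u} [Group G] [Finite G]
    (hloc : ∀ p : ℕ, p.Prime → p ^ 2 ∣ Nat.card G → LocalBound G p 0) :
    HasCyclicSchurMultiplier G 1 := by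
  refine final 1 one_pos (stem_id G) (fun p hp h => ?_) (fun p hp _ h => ?_)
  · rw [Nat.factorization_one]; exact hloc p hp h
  · exact hp.one_lt.ne' (Nat.dvd_one.1 h)

/-- transport of the final statement -/
theorem congr {G G' : Type u} [Group G] [Group G'] (e : G ≃* G') (n : ℕ)
    (h : HasCyclicSchurMultiplier G n) : HasCyclicSchurMultiplier G' n :=
  hasSchurMultiplier_congr_left e _ h

end Cfsg.Agent.Lib.Helper63PCFin
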