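import Cfsg.Agent.Lib.Helper33LCent2
import Cfsg.Agent.Lib.Helper17PCTab
import Cfsg.Agent.Lib.Helper63PCFin

set_option autoImplicit false
set_option maxRecDepth 100000
set_option exponentiation.threshold 2000

/-! Glue between the power-commutator multiplier engine (helper63) and the stabilisers of lattice
vectors in `Co0` (helper33): elements are packed matrices, identities are tested on the 24 basis
vectors. -/

namespace Cfsg.Agent.Lib.Helper62CoM

open Cfsg Cfsg.Agent.Lib.Helper33LVec Cfsg.Agent.Lib.Helper33LMat Cfsg.Agent.Lib.Helper33LCo0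
open Cfsg.Agent.Lib.Helper33LFrame Cfsg.Agent.Lib.Helper33LGood Cfsg.Agent.Lib.Helper33LReach2
open Cfsg.Agent.Lib.Helper33LWord Cfsg.Agent.Lib.Helper33LCent2
open Cfsg.Agent.Lib.Helper63PCDefs Cfsg.Agent.Lib.Helper63PCTabDefs

/-- the matrix with index `a` -/
def nthP (PL : List ℕ) (a : ℕ) : ℕ := PL.getD a 0

/-- the element with index `a` -/
noncomputable def xc (PL : List ℕ) (a : ℕ) : ↥Co0 := toCo0 (nthP PL a)

theorem evalW_xc (PL : List ℕ) (w : List ℕ) : evalW (xc PL) w = wprod (w.map (nthP PL)) := by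
  simp only [evalW, wprod, List.map_map]
  rfl

theorem good_map (PL : List ℕ) (hg : ∀ P ∈ PL, goodP P = true) (w : List ℕ)
    (hw : w.all (fun a => Nat.blt a PL.length) = true) : ∀ P ∈ w.map (nthP PL), goodP P = true := by
  intro P hP
  obtain ⟨a, ha, rfl⟩ := List.mem_map.1 hP
  have h1 := List.all_eq_true.1 hw a ha
  rw [Nat.blt_eq] at h1
  unfold nthP
  rw [List.getD_eq_getElem _ _ h1]
  exact hg _ (List.getElem_mem h1)

/-- two words in the matrices represent the same element -/
noncomputable def chkS (PL : List ℕ) (w1 w2 : List ℕ) : Bool :=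
  w1.all (fun a => Nat.blt a PL.length) && w2.all (fun a => Nat.blt a PL.length) &&
    sameW (w1.map (nthP PL)) (w2.map (nthP PL))

theorem eq_of_chkS (PL : List ℕ) (hg : ∀ P ∈ PL, goodP P = true) (w1 w2 : List ℕ)
    (h : chkS PL w1 w2 = true) : evalW (xc PL) w1 = evalW (xc PL) w2 := by
  unfold chkS at h
  rw [Bool.and_eq_true, Bool.and_eq_true] at h
  rw [evalW_xc, evalW_xc]
  exact wprod_eq_of_same (good_map PL hg w1 h.1.1) (good_map PL hg w2 h.1.2) h.2

theorem evalW_replicate {Γ : Type*} [Monoid Γ] (x : ℕ → Γ) (a k : ℕ) :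
    evalW x (List.replicate k a) = x a ^ k := by
  simp [evalW]

noncomputable def satChk (D : PC) (PL : List ℕ) : Bool :=
  (List.range D.n).all (fun a => chkS PL (List.replicate D.p a) (D.pw a)) &&
  (List.range D.n).all (fun b => (List.range D.n).all (fun a =>
    !(decide (b < a)) || chkS PL [a, b] (b :: a :: D.cm b a)))

theorem sat_of_chk (D : PC) (PL : List ℕ) (hg : ∀ P ∈ PL, goodP P = true)
    (h : satChk D PL = true) : Sat D (xc PL) (fun _ => 1) := by
  unfold satChk at h
  rw [Bool.and_eq_true, List.all_eq_true, List.all_eq_true] at h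
  obtain ⟨h1, h2⟩ := h
  constructor
  · intro a ha
    have := eq_of_chkS PL hg _ _ (h1 a (List.mem_range.2 ha))
    rw [evalW_replicate] at this
    rw [this, mul_one]
  · intro b a hba ha
    have h3 := h2 b (List.mem_range.2 (hba.trans ha))
    rw [List.all_eq_true] at h3
    have h4 := h3 a (List.mem_range.2 ha)
    simp only [hba, decide_true, Bool.not_true, Bool.false_or] at h4
    have := eq_of_chkS PL hg _ _ h4
    simp only [evalW, List.map_cons, List.prod_cons, List.map_nil, List.prod_nil, mul_one] at this ⊢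
    rw [this, mul_assoc]

/-- the fusion relations; the fusion elements are the matrices with indices `n + gi` -/
noncomputable def fusChk (C : Cert) (PL : List ℕ) : Bool :=
  (List.range C.fus.length).all (fun gi =>
    (List.range (max (C.Dw gi).length (C.Ew gi).length)).all (fun i =>
      chkS PL ((C.D.n + gi) :: nthL (C.Dw gi) i) (nthL (C.Ew gi) i ++ [C.D.n + gi])))

theorem fus_of_chk (C : Cert) (PL : List ℕ) (hg : ∀ P ∈ PL, goodP P = true)
    (h : fusChk C PL = true) (gi i : ℕ) :
    xc PL (C.D.n + gi) * evalW (xc PL) (nthL (C.Dw gi) i) * (xc PL (C.D.n + gi))⁻¹ =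
      evalW (xc PL) (nthL (C.Ew gi) i) := by
  unfold fusChk at h
  rw [List.all_eq_true] at h
  by_cases hgi : gi < C.fus.length
  · have h1 := h gi (List.mem_range.2 hgi)
    rw [List.all_eq_true] at h1
    by_cases hi : i < max (C.Dw gi).length (C.Ew gi).length
    · have := eq_of_chkS PL hg _ _ (h1 i (List.mem_range.2 hi))
      rw [mul_inv_eq_iff_eq_mul]
      simp only [evalW, List.map_cons, List.prod_cons, List.map_append, List.prod_append,
        List.map_nil, List.prod_nil, mul_one] at this ⊢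
      exact this
    · have hD : nthL (C.Dw gi) i = [] := by
        unfold nthL
        exact List.getD_eq_default _ _ (by omega)
      have hE : nthL (C.Ew gi) i = [] := by
        unfold nthL
        exact List.getD_eq_default _ _ (by omega)
      rw [hD, hE]
      simp [evalW]
  · have hD : C.Dw gi = [] := by
      unfold Cert.Dw
      rw [List.getD_eq_default _ _ (by omega)]
    have hE : C.Ew gi = [] := by
      unfold Cert.Ew
      rw [List.getD_eq_default _ _ (by omega)]
    rw [hD, hE]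
    simp [evalW, nthL]

theorem good_zero : goodP 0 = false := by decide +kernel

theorem toCo0_zero : toCo0 0 = 1 := by
  unfold toCo0
  rw [dif_neg (by rw [good_zero]; simp)]

/-- all the elements fix the vector coded by `b` -/
theorem xc_mem (PL : List ℕ) (b : ℕ) (hb : InR b ∧ D b ∈ leechLattice)
    (h : PL.all (fun P => goodP P && stepOK P b b) = true) (a : ℕ) : xc PL a ∈ fixG [DL b] := by
  unfold xc nthP
  by_cases ha : a < PL.length
  · rw [List.getD_eq_getElem _ _ ha]
    have h1 := List.all_eq_true.1 h _ (List.getElem_mem ha)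
    rw [Bool.and_eq_true] at h1
    intro c hc
    simp only [List.mem_cons, List.not_mem_nil, or_false] at hc
    rw [hc]
    exact toCo0_fix h1.1 hb.1 hb.2 h1.2
  · rw [List.getD_eq_default _ _ (by omega), toCo0_zero]
    exact one_mem _

theorem step1_zero (P : ℕ) : step1 P 0 = 0 := by
  unfold step1
  rfl

theorem iter_zero (P : ℕ) : ∀ e : ℕ, (step1 P)^[e] 0 = 0
  | 0 => rfl
  | e + 1 => by rw [Function.iterate_succ_apply, step1_zero, iter_zero P e]

theorem iter_spec (P : ℕ) (hP : goodP P = true) : ∀ (e y : ℕ), InR y → D y ∈ leechLattice →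
    (step1 P)^[e] y ≠ 0 → InR ((step1 P)^[e] y) ∧ D ((step1 P)^[e] y) ∈ leechLattice ∧
      toCo0 P ^ e • DL y = DL ((step1 P)^[e] y)
  | 0, y, h1, h2, _ => ⟨h1, h2, by simp⟩
  | e + 1, y, h1, h2, h3 => by
    rw [Function.iterate_succ_apply'] at h3 ⊢
    obtain ⟨h4, h5⟩ := step1_ne h3
    obtain ⟨a1, a2, a3⟩ := iter_spec P hP e y h1 h2 h4
    obtain ⟨b1, b2, b3⟩ := toCo0_smul_DL hP a1 a2 h5
    exact ⟨b1, b2, by rw [pow_succ', mul_smul, a3, b3]⟩

/-- images of a pair of vectors under all normal words -/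
noncomputable def orbV (PL : List ℕ) (p c1 c2 : ℕ) : List ℕ → List (ℕ × ℕ)
  | [] => [(c1, c2)]
  | a :: as => (List.range p).flatMap fun e => (orbV PL p c1 c2 as).map fun c =>
      ((step1 (nthP PL a))^[e] c.1, (step1 (nthP PL a))^[e] c.2)

theorem length_orbV (PL : List ℕ) (p c1 c2 : ℕ) :
    ∀ as : List ℕ, (orbV PL p c1 c2 as).length = p ^ as.length
  | [] => rfl
  | a :: as => by
    rw [orbV, List.length_flatMap]
    simp only [List.length_map, length_orbV PL p c1 c2 as, List.map_const', List.length_range,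
      List.sum_replicate, smul_eq_mul, List.length_cons, pow_succ]
    ring

theorem mem_orbV (PL : List ℕ) (hg : ∀ P ∈ PL, goodP P = true) (p n c1 c2 : ℕ) (hn : n ≤ PL.length)
    (h1 : InR c1 ∧ D c1 ∈ leechLattice) (h2 : InR c2 ∧ D c2 ∈ leechLattice) :
    ∀ as : List ℕ, (∀ a ∈ as, a < n) → ∀ c ∈ orbV PL p c1 c2 as, c.1 ≠ 0 → c.2 ≠ 0 →
      (InR c.1 ∧ D c.1 ∈ leechLattice) ∧ (InR c.2 ∧ D c.2 ∈ leechLattice) ∧
      ∃ h ∈ Subgroup.closure (xc PL '' Set.Iio n), h • DL c1 = DL c.1 ∧ h • DL c2 = DL c.2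
  | [], _, c, hc, _, _ => by
    simp only [orbV, List.mem_singleton] at hc
    subst hc
    exact ⟨h1, h2, 1, one_mem _, by simp, by simp⟩
  | a :: as, has, c, hc, hc1, hc2 => by
    rw [orbV, List.mem_flatMap] at hc
    obtain ⟨e, _, hc⟩ := hc
    rw [List.mem_map] at hc
    obtain ⟨c0, hc0, rfl⟩ := hc
    have ha : a < n := has a (List.mem_cons_self ..)
    have hP : goodP (nthP PL a) = true := by
      unfold nthP
      rw [List.getD_eq_getElem _ _ (by omega)]
      exact hg _ (List.getElem_mem _)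
    have n1 : c0.1 ≠ 0 := by
      intro h0
      apply hc1
      show (step1 (nthP PL a))^[e] c0.1 = 0
      rw [h0, iter_zero]
    have n2 : c0.2 ≠ 0 := by
      intro h0
      apply hc2
      show (step1 (nthP PL a))^[e] c0.2 = 0
      rw [h0, iter_zero]
    obtain ⟨q1, q2, h, hh, e1, e2⟩ := mem_orbV PL hg p n c1 c2 hn h1 h2 as
      (fun b hb => has b (List.mem_cons_of_mem _ hb)) c0 hc0 n1 n2
    obtain ⟨a1, a2, a3⟩ := iter_spec _ hP e c0.1 q1.1 q1.2 hc1
    obtain ⟨b1, b2, b3⟩ := iter_spec _ hP e c0.2 q2.1 q2.2 hc2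
    have hxa : xc PL a ∈ Subgroup.closure (xc PL '' Set.Iio n) :=
      Subgroup.subset_closure (Set.mem_image_of_mem _ ha)
    refine ⟨⟨a1, a2⟩, ⟨b1, b2⟩, xc PL a ^ e * h, mul_mem (pow_mem hxa _) hh, ?_, ?_⟩
    · rw [mul_smul, e1]; exact a3
    · rw [mul_smul, e2]; exact b3

theorem DL_inj {c d : ℕ} (hc : InR c ∧ D c ∈ leechLattice) (hd : InR d ∧ D d ∈ leechLattice)
    (h : DL c = DL d) : c = d := by
  have h3 := congrArg (fun x : LV => (x : GolayPt → ℤ)) h
  simp only [DL_coe hc.2, DL_coe hd.2] at h3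
  exact D_injOn hc.1 hd.1 h3

/-- lower bound for the order of the subgroup generated by the first `n` elements -/
theorem card_ge (PL : List ℕ) (hg : ∀ P ∈ PL, goodP P = true) (p n c1 c2 : ℕ) (hn : n ≤ PL.length)
    (h1 : InR c1 ∧ D c1 ∈ leechLattice) (h2 : InR c2 ∧ D c2 ∈ leechLattice)
    (h0 : (orbV PL p c1 c2 (List.range n)).all (fun c => !(Nat.beq c.1 0) && !(Nat.beq c.2 0)) = true)
    (h : nodupB ((orbV PL p c1 c2 (List.range n)).map (fun c => c.1 * 2 ^ 768 + c.2)) = true) :
    p ^ n ≤ Nat.card (Subgroup.closure (xc PL '' Set.Iio n)) := by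
  have : Finite ↥Co0 := Helper33LCo1.finite_Co0
  have hnd : (orbV PL p c1 c2 (List.range n)).Nodup :=
    List.Nodup.of_map _ (Cfsg.Agent.Lib.Helper17PCTab.nodup_of_nodupB _ h)
  have hm : ∀ c ∈ orbV PL p c1 c2 (List.range n),
      (InR c.1 ∧ D c.1 ∈ leechLattice) ∧ (InR c.2 ∧ D c.2 ∈ leechLattice) ∧
      ∃ h ∈ Subgroup.closure (xc PL '' Set.Iio n), h • DL c1 = DL c.1 ∧ h • DL c2 = DL c.2 := by
    intro c hc
    have h3 := List.all_eq_true.1 h0 c hc
    simp only [Bool.and_eq_true, Bool.not_eq_true'] at h3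
    have k1 : c.1 ≠ 0 := by
      intro h4
      rw [h4] at h3
      simp at h3
    have k2 : c.2 ≠ 0 := by
      intro h4
      rw [h4] at h3
      simp at h3
    exact mem_orbV PL hg p n c1 c2 hn h1 h2 (List.range n) (fun a ha => List.mem_range.1 ha) c hc
      k1 k2
  choose q1 q2 f hf1 hf2 hf3 using hm
  let F : {c // c ∈ orbV PL p c1 c2 (List.range n)} →
      Subgroup.closure (xc PL '' Set.Iio n) := fun c => ⟨f c.1 c.2, hf1 c.1 c.2⟩
  have hinj : Function.Injective F := by
    intro c d hcd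
    apply Subtype.ext
    have e1 : f c.1 c.2 = f d.1 d.2 := congrArg Subtype.val hcd
    apply Prod.ext
    · apply DL_inj (q1 c.1 c.2) (q1 d.1 d.2)
      rw [← hf2 c.1 c.2, ← hf2 d.1 d.2, e1]
    · apply DL_inj (q2 c.1 c.2) (q2 d.1 d.2)
      rw [← hf3 c.1 c.2, ← hf3 d.1 d.2, e1]
  have hc := Nat.card_le_card_of_injective F hinj
  have hl : Nat.card {c // c ∈ orbV PL p c1 c2 (List.range n)} = p ^ n := by
    rw [Nat.card_eq_fintype_card, Fintype.card_of_subtype (orbV PL p c1 c2 (List.range n)).toFinset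
      (fun x => List.mem_toFinset), List.toFinset_card_of_nodup hnd, length_orbV, List.length_range]
  rw [hl] at hc
  exact hc

/-- the local bound for the stabiliser of a coded vector from a certificate -/
theorem local_of_cert (C : Cert) (hp : C.D.p.Prime) (hC : C.check = true) (PL : List ℕ) (b N : ℕ)
    (hb : InR b ∧ D b ∈ leechLattice) (hN : Nat.card ↥(fixG [DL b]) = N)
    (hgood : PL.all (fun P => goodP P && stepOK P b b) = true)
    (hn : C.D.n ≤ PL.length)
    (h1 : satChk C.D PL = true) (h2 : fusChk C PL = true) (c1 c2 : ℕ)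
    (hc : [c1, c2].all (fun c => inR c && Cfsg.Agent.Lib.Helper33LTest.isLeech c) = true)
    (h0 : (orbV PL C.D.p c1 c2 (List.range C.D.n)).all
      (fun c => !(Nat.beq c.1 0) && !(Nat.beq c.2 0)) = true)
    (h3 : nodupB ((orbV PL C.D.p c1 c2 (List.range C.D.n)).map
      (fun c => c.1 * 2 ^ 768 + c.2)) = true)
    (hG : ¬ C.D.p ^ (C.D.n + 1) ∣ N) : LocalBound ↥(fixG [DL b]) C.D.p C.k := by
  have : Finite ↥Co0 := Helper33LCo1.finite_Co0
  have hg : ∀ P ∈ PL, goodP P = true := by
    intro P hP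
    have := List.all_eq_true.1 hgood P hP
    rw [Bool.and_eq_true] at this
    exact this.1
  have hcc : ∀ c ∈ [c1, c2], InR c ∧ D c ∈ leechLattice := by
    intro c hcm
    have h := List.all_eq_true.1 hc c hcm
    rw [Bool.and_eq_true] at h
    have h1 := InR_of_inR h.1
    exact ⟨h1, Cfsg.Agent.Lib.Helper33LTest.isLeech_spec _ h1 h.2⟩
  exact Cfsg.Agent.Lib.Helper17PCTab.ub_sub (fixG [DL b]) C hp hC (xc PL)
    (fun gi => xc PL (C.D.n + gi))
    (xc_mem PL b hb hgood) (fun _ => xc_mem PL b hb hgood _) (sat_of_chk _ _ hg h1)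
    (fus_of_chk C PL hg h2)
    (card_ge PL hg _ _ c1 c2 hn (hcc c1 (by simp)) (hcc c2 (by simp)) h0 h3)
    (by rw [hN]; exact hG)

end Cfsg.Agent.Lib.Helper62CoM
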