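import Cfsg.Agent.Lib.Helper62CoM

set_option autoImplicit false
set_option maxRecDepth 100000
set_option exponentiation.threshold 2000

/-! Second part of the glue for stabilisers of lattice vectors in `Co0`: lower bound for the order of
a generated `p`-subgroup along a chain of vector stabilisers; sparse relation vectors. -/

namespace Cfsg.Agent.Lib.Helper62CoM2

open Cfsg Cfsg.Agent.Lib.Helper33LVec Cfsg.Agent.Lib.Helper33LMat Cfsg.Agent.Lib.Helper33LCo0
open Cfsg.Agent.Lib.Helper33LFrame Cfsg.Agent.Lib.Helper33LGood Cfsg.Agent.Lib.Helper33LReach2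
open Cfsg.Agent.Lib.Helper33LWord Cfsg.Agent.Lib.Helper33LCent2 Cfsg.Agent.Lib.Helper33LTest
open Cfsg.Agent.Lib.Helper63PCDefs Cfsg.Agent.Lib.Helper63PCTabDefs Cfsg.Agent.Lib.Helper62CoM
open MulAction

/-- the subgroup generated by the matrices with indices in a list -/
noncomputable def cl (PL : List ℕ) (as : List ℕ) : Subgroup ↥Co0 :=
  Subgroup.closure (xc PL '' {a | a ∈ as})

theorem cl_mono (PL : List ℕ) {as bs : List ℕ} (h : ∀ a ∈ as, a ∈ bs) : cl PL as ≤ cl PL bs :=
  Subgroup.closure_mono (Set.image_mono h)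

/-- images of a vector under all normal words -/
noncomputable def orb1 (PL : List ℕ) (p b : ℕ) : List ℕ → List ℕ
  | [] => [b]
  | a :: as => (List.range p).flatMap fun e => (orb1 PL p b as).map fun c =>
      (step1 (nthP PL a))^[e] c

theorem length_orb1 (PL : List ℕ) (p b : ℕ) :
    ∀ as : List ℕ, (orb1 PL p b as).length = p ^ as.length
  | [] => rfl
  | a :: as => by
    rw [orb1, List.length_flatMap]
    simp only [List.length_map, length_orb1 PL p b as, List.map_const', List.length_range,
      List.sum_replicate, smul_eq_mul, List.length_cons, pow_succ]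
    ring

theorem mem_orb1 (PL : List ℕ) (hg : ∀ P ∈ PL, goodP P = true) (p b : ℕ)
    (hb : InR b ∧ D b ∈ leechLattice) :
    ∀ as : List ℕ, (∀ a ∈ as, a < PL.length) → ∀ c ∈ orb1 PL p b as, c ≠ 0 →
      Reached (cl PL as) (DL b) c
  | [], _, c, hc, _ => by
    simp only [orb1, List.mem_singleton] at hc
    subst hc
    exact ⟨hb.1, hb.2, 1, one_mem _, by simp⟩
  | a :: as, has, c, hc, hc1 => by
    rw [orb1, List.mem_flatMap] at hc
    obtain ⟨e, _, hc⟩ := hc
    rw [List.mem_map] at hc
    obtain ⟨c0, hc0, rfl⟩ := hc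
    have ha : a < PL.length := has a (List.mem_cons_self ..)
    have hP : goodP (nthP PL a) = true := by
      unfold nthP
      rw [List.getD_eq_getElem _ _ ha]
      exact hg _ (List.getElem_mem _)
    have n1 : c0 ≠ 0 := by
      intro h0
      apply hc1
      rw [h0, iter_zero]
    obtain ⟨q1, q2, h, hh, e1⟩ := mem_orb1 PL hg p b hb as
      (fun b hb => has b (List.mem_cons_of_mem _ hb)) c0 hc0 n1
    obtain ⟨a1, a2, a3⟩ := iter_spec _ hP e c0 q1 q2 hc1
    have hxa : xc PL a ∈ cl PL (a :: as) :=
      Subgroup.subset_closure (Set.mem_image_of_mem _ (List.mem_cons_self ..))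
    refine ⟨a1, a2, xc PL a ^ e * h, mul_mem (pow_mem hxa _)
      (cl_mono PL (fun x hx => List.mem_cons_of_mem _ hx) hh), ?_⟩
    rw [mul_smul, e1]; exact a3

/-- the chain of stages `(indices, vector)` -/
noncomputable def chainChk (PL : List ℕ) (p : ℕ) : List (List ℕ × ℕ) → Bool
  | [] => true
  | (as, b) :: rest =>
    inR b && isLeech b && as.all (fun a => Nat.blt a PL.length) &&
    (orb1 PL p b as).all (fun c => !(Nat.beq c 0)) && nodupB (orb1 PL p b as) &&
    (rest.flatMap Prod.fst).all (fun a => Nat.blt a PL.length && stepOK (nthP PL a) b b) &&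
    chainChk PL p rest

theorem chain_spec (PL : List ℕ) (hg : ∀ P ∈ PL, goodP P = true) (p : ℕ) :
    ∀ st : List (List ℕ × ℕ), chainChk PL p st = true →
      p ^ (st.flatMap Prod.fst).length ≤ Nat.card ↥(cl PL (st.flatMap Prod.fst))
  | [], _ => by
    simp only [List.flatMap_nil, List.length_nil, pow_zero]
    have : Finite ↥Co0 := Helper33LCo1.finite_Co0
    exact Nat.card_pos
  | (as, b) :: rest, h => by
    have : Finite ↥Co0 := Helper33LCo1.finite_Co0
    have h' : (inR b && isLeech b && as.all (fun a => Nat.blt a PL.length) &&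
      (orb1 PL p b as).all (fun c => !(Nat.beq c 0)) && nodupB (orb1 PL p b as) &&
      (rest.flatMap Prod.fst).all (fun a => Nat.blt a PL.length && stepOK (nthP PL a) b b) &&
      chainChk PL p rest) = true := h
    simp only [Bool.and_eq_true] at h'
    obtain ⟨⟨⟨⟨⟨⟨h1, h2⟩, h3⟩, h4⟩, h5⟩, h6⟩, h7⟩ := h'
    have ih := chain_spec PL hg p rest h7
    have hb1 := InR_of_inR h1
    have hb : InR b ∧ D b ∈ leechLattice := ⟨hb1, isLeech_spec _ hb1 h2⟩
    have has : ∀ a ∈ as, a < PL.length := by
      intro a ha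
      have := List.all_eq_true.1 h3 a ha
      rwa [Nat.blt_eq] at this
    rw [List.flatMap_cons, List.length_append, pow_add]
    set H := cl PL (as ++ rest.flatMap Prod.fst) with hH
    have hreach : ∀ c ∈ orb1 PL p b as, Reached H (DL b) c := by
      intro c hc
      have h0 := List.all_eq_true.1 h4 c hc
      have hc0 : c ≠ 0 := by
        intro h8
        rw [h8] at h0
        simp at h0
      obtain ⟨q1, q2, g, hgm, hge⟩ := mem_orb1 PL hg p b hb as has c hc hc0
      exact ⟨q1, q2, g, cl_mono PL (fun x hx => List.mem_append_left _ hx) hgm, hge⟩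
    have hn := orbit_ge (H := H) (root := DL b) (orb1 PL p b as) hreach
      (Cfsg.Agent.Lib.Helper17PCTab.nodup_of_nodupB _ h5)
    rw [length_orb1] at hn
    have hstep := card_step H (DL b) _ hn
    have hle : cl PL (rest.flatMap Prod.fst) ≤ H ⊓ fixG [DL b] := by
      apply le_inf (cl_mono PL (fun x hx => List.mem_append_right _ hx))
      unfold cl
      rw [Subgroup.closure_le]
      rintro _ ⟨a, ha, rfl⟩
      have h8 := List.all_eq_true.1 h6 a ha
      rw [Bool.and_eq_true, Nat.blt_eq] at h8
      have hP : goodP (nthP PL a) = true := by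
        unfold nthP
        rw [List.getD_eq_getElem _ _ h8.1]
        exact hg _ (List.getElem_mem _)
      intro c hc
      simp only [List.mem_cons, List.not_mem_nil, or_false] at hc
      rw [hc]
      exact toCo0_fix hP hb.1 hb.2 h8.2
    have hcard : Nat.card ↥(cl PL (rest.flatMap Prod.fst)) ≤ Nat.card ↥(H ⊓ fixG [DL b]) :=
      Subgroup.card_le_of_le hle
    calc p ^ as.length * p ^ (rest.flatMap Prod.fst).length
        ≤ p ^ as.length * Nat.card ↥(H ⊓ fixG [DL b]) :=
          Nat.mul_le_mul_left _ (ih.trans hcard)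
      _ ≤ Nat.card ↥H := hstep

/-- every chain element is a word in the first `n` matrices -/
noncomputable def defChk (PL : List ℕ) (n : ℕ) (defs : List (ℕ × List ℕ)) : Bool :=
  defs.all (fun d => d.2.all (fun l => Nat.blt l n) && chkS PL [d.1] d.2)

theorem card_ge_chain (PL : List ℕ) (hg : ∀ P ∈ PL, goodP P = true) (p n : ℕ)
    (st : List (List ℕ × ℕ)) (defs : List (ℕ × List ℕ))
    (h1 : chainChk PL p st = true) (h2 : defChk PL n defs = true)
    (h3 : (st.flatMap Prod.fst).all (fun a => (defs.map Prod.fst).contains a) = true)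
    (h4 : (st.flatMap Prod.fst).length = n) :
    p ^ n ≤ Nat.card (Subgroup.closure (xc PL '' Set.Iio n)) := by
  have : Finite ↥Co0 := Helper33LCo1.finite_Co0
  have := chain_spec PL hg p st h1
  rw [h4] at this
  refine this.trans (Subgroup.card_le_of_le ?_)
  unfold cl
  rw [Subgroup.closure_le]
  rintro _ ⟨a, ha, rfl⟩
  have h5 := List.all_eq_true.1 h3 a ha
  rw [List.contains_iff_mem, List.mem_map] at h5
  obtain ⟨d, hd, rfl⟩ := h5
  have h6 := List.all_eq_true.1 h2 d hd
  rw [Bool.and_eq_true] at h6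
  have h7 := eq_of_chkS PL hg _ _ h6.2
  have h8 : evalW (xc PL) [d.1] = xc PL d.1 := by simp [evalW]
  rw [h8] at h7
  show xc PL d.1 ∈ Subgroup.closure (xc PL '' Set.Iio n)
  rw [h7]
  unfold evalW
  apply Subgroup.list_prod_mem
  intro x hx
  obtain ⟨l, hl, rfl⟩ := List.mem_map.1 hx
  have := List.all_eq_true.1 h6.1 l hl
  rw [Nat.blt_eq] at this
  exact Subgroup.subset_closure (Set.mem_image_of_mem _ this)

/-- the local bound, with the chain form of the order bound -/
theorem local_of_cert (C : Cert) (hp : C.D.p.Prime) (hC : C.check = true) (PL : List ℕ) (b N : ℕ)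
    (hb : InR b ∧ D b ∈ leechLattice) (hN : Nat.card ↥(fixG [DL b]) = N)
    (hgood : PL.all (fun P => goodP P && stepOK P b b) = true)
    (h1 : satChk C.D PL = true) (h2 : fusChk C PL = true)
    (st : List (List ℕ × ℕ)) (defs : List (ℕ × List ℕ))
    (c1 : chainChk PL C.D.p st = true) (c2 : defChk PL C.D.n defs = true)
    (c3 : (st.flatMap Prod.fst).all (fun a => (defs.map Prod.fst).contains a) = true)
    (c4 : (st.flatMap Prod.fst).length = C.D.n)
    (hG : ¬ C.D.p ^ (C.D.n + 1) ∣ N) : LocalBound ↥(fixG [DL b]) C.D.p C.k := by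
  have : Finite ↥Co0 := Helper33LCo1.finite_Co0
  have hg : ∀ P ∈ PL, goodP P = true := by
    intro P hP
    have := List.all_eq_true.1 hgood P hP
    rw [Bool.and_eq_true] at this
    exact this.1
  exact Cfsg.Agent.Lib.Helper17PCTab.ub_sub (fixG [DL b]) C hp hC (xc PL)
    (fun gi => xc PL (C.D.n + gi))
    (xc_mem PL b hb hgood) (fun _ => xc_mem PL b hb hgood _) (sat_of_chk _ _ hg h1)
    (fus_of_chk C PL hg h2)
    (card_ge_chain PL hg _ _ st defs c1 c2 c3 c4)
    (by rw [hN]; exact hG)

/-- dense vector from a sparse one -/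
def dense (N : ℕ) (l : List (ℕ × ℤ)) : List ℤ :=
  (List.range N).map (fun k => (l.lookup k).getD 0)

/-- dense vector from a sorted sparse one, in one pass -/
def denseGo : ℕ → ℕ → List (ℕ × ℤ) → List ℤ
  | 0, _, _ => []
  | m + 1, k, [] => 0 :: denseGo m (k + 1) []
  | m + 1, k, (i, a) :: l =>
    if i = k then a :: denseGo m (k + 1) l else 0 :: denseGo m (k + 1) ((i, a) :: l)

end Cfsg.Agent.Lib.Helper62CoM2
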