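import Cfsg.Agent.Lib.Helper62HeP
import Cfsg.Agent.Lib.Helper17PCTab
import Cfsg.Agent.Lib.Helper63PCFin

set_option autoImplicit false
set_option maxRecDepth 100000

/-! Glue between the power-commutator multiplier engine (helper63) and the Held group on 2058 points:
elements are given by words in the tabulated elements `el`, identities are tested on the base. -/

namespace Cfsg.Agent.Lib.Helper62HeM

open Cfsg Cfsg.Agent.Lib.Helper35TC Cfsg.Agent.Lib.Helper62Bsgs Cfsg.Agent.Lib.Helper62HeT
open Cfsg.Agent.Lib.Helper62HeP Cfsg.Agent.Lib.Helper63PCDefs Cfsg.Agent.Lib.Helper63PCTabDefs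

/-- the element with index `a` of a list of words -/
noncomputable def xe (wx : List (List ℕ)) (a : ℕ) : He := wordVal el (nthL wx a)

/-- substitution of words (reversed, as `wordVal` multiplies from the right) -/
def flatR (wx : List (List ℕ)) : List ℕ → List ℕ
  | [] => []
  | a :: w => flatR wx w ++ nthL wx a

theorem evalW_xe (wx : List (List ℕ)) : ∀ w : List ℕ, evalW (xe wx) w = wordVal el (flatR wx w)
  | [] => by simp [evalW, flatR, wordVal]
  | a :: w => by
    have ih := evalW_xe wx w
    unfold evalW at ih ⊢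
    rw [List.map_cons, List.prod_cons, ih, flatR, wordVal_append]
    rfl

theorem evalW_replicate {Γ : Type*} [Monoid Γ] (x : ℕ → Γ) (a k : ℕ) :
    evalW x (List.replicate k a) = x a ^ k := by
  simp [evalW]

/-- the power-commutator relations, tested on the base -/
noncomputable def satChk (D : PC) (wx : List (List ℕ)) : Bool :=
  (List.range D.n).all (fun a => chkB (flatR wx (List.replicate D.p a)) (flatR wx (D.pw a))) &&
  (List.range D.n).all (fun b => (List.range D.n).all (fun a =>
    !(decide (b < a)) || chkB (flatR wx [a, b]) (flatR wx (b :: a :: D.cm b a))))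

theorem sat_of_chk (D : PC) (wx : List (List ℕ)) (h : satChk D wx = true) :
    Sat D (xe wx) (fun _ => 1) := by
  unfold satChk at h
  rw [Bool.and_eq_true, List.all_eq_true, List.all_eq_true] at h
  obtain ⟨h1, h2⟩ := h
  constructor
  · intro a ha
    have := word_eq _ _ (h1 a (List.mem_range.2 ha))
    rw [← evalW_xe, ← evalW_xe, evalW_replicate] at this
    rw [this, mul_one]
  · intro b a hba ha
    have h3 := h2 b (List.mem_range.2 (hba.trans ha))
    rw [List.all_eq_true] at h3
    have h4 := h3 a (List.mem_range.2 ha)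
    simp only [hba, decide_true, Bool.not_true, Bool.false_or] at h4
    have := word_eq _ _ h4
    rw [← evalW_xe, ← evalW_xe] at this
    simp only [evalW, List.map_cons, List.prod_cons, List.map_nil, List.prod_nil, mul_one] at this ⊢
    rw [this, mul_assoc]

/-- the fusion relations, tested on the base -/
noncomputable def fusChk (C : Cert) (wx wg : List (List ℕ)) : Bool :=
  (List.range C.fus.length).all (fun gi =>
    (List.range (max (C.Dw gi).length (C.Ew gi).length)).all (fun i =>
      chkB (flatR wx (nthL (C.Dw gi) i) ++ nthL wg gi) (nthL wg gi ++ flatR wx (nthL (C.Ew gi) i))))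

theorem fus_of_chk (C : Cert) (wx wg : List (List ℕ)) (h : fusChk C wx wg = true) (gi i : ℕ) :
    xe wg gi * evalW (xe wx) (nthL (C.Dw gi) i) * (xe wg gi)⁻¹ = evalW (xe wx) (nthL (C.Ew gi) i) := by
  unfold fusChk at h
  rw [List.all_eq_true] at h
  by_cases hgi : gi < C.fus.length
  · have h1 := h gi (List.mem_range.2 hgi)
    rw [List.all_eq_true] at h1
    by_cases hi : i < max (C.Dw gi).length (C.Ew gi).length
    · have := word_eq _ _ (h1 i (List.mem_range.2 hi))
      rw [wordVal_append, wordVal_append, ← evalW_xe, ← evalW_xe] at this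
      rw [mul_inv_eq_iff_eq_mul]
      exact this
    · have hD : nthL (C.Dw gi) i = [] := by
        unfold nthL
        exact List.getD_eq_default _ _ (by omega)
      have hE : nthL (C.Ew gi) i = [] := by
        unfold nthL
        exact List.getD_eq_default _ _ (by omega)
      rw [hD, hE]
      simp [evalW]
  · have hD : C.Dw gi = [] := by
      unfold Cert.Dw
      rw [List.getD_eq_default _ _ (by omega)]
    have hE : C.Ew gi = [] := by
      unfold Cert.Ew
      rw [List.getD_eq_default _ _ (by omega)]
    rw [hD, hE]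
    simp [evalW, nthL]

/-- images of a pair of points under all normal words -/
noncomputable def orbL (wx : List (List ℕ)) (p o1 o2 : ℕ) : List ℕ → List (ℕ × ℕ)
  | [] => [(o1, o2)]
  | a :: as => (List.range p).flatMap fun e => (orbL wx p o1 o2 as).map fun c =>
      ((actW tab (nthL wx a))^[e] c.1, (actW tab (nthL wx a))^[e] c.2)

theorem length_orbL (wx : List (List ℕ)) (p o1 o2 : ℕ) :
    ∀ as : List ℕ, (orbL wx p o1 o2 as).length = p ^ as.length
  | [] => rfl
  | a :: as => by
    rw [orbL, List.length_flatMap]
    simp only [List.length_map, length_orbL wx p o1 o2 as, List.map_const', List.length_range,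
      List.sum_replicate, smul_eq_mul, List.length_cons, pow_succ]
    ring

theorem xe_pow_apply (wx : List (List ℕ)) (hw : ∀ w ∈ wx, w.all (fun l => Nat.blt l 27) = true)
    (a e : ℕ) (j : Fin 2058) :
    (phi (xe wx a ^ e) j).val = (actW tab (nthL wx a))^[e] j.val := by
  rw [map_pow]
  refine pow_apply_val _ _ (fun i => ?_) e j
  refine el_apply _ ?_ i
  unfold nthL
  by_cases ha : a < wx.length
  · rw [List.getD_eq_getElem _ _ ha]
    exact hw _ (List.getElem_mem ha)
  · rw [List.getD_eq_default _ _ (by omega)]
    rfl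

theorem mem_orbL (wx : List (List ℕ)) (hw : ∀ w ∈ wx, w.all (fun l => Nat.blt l 27) = true)
    (p n : ℕ) (o1 o2 : Fin 2058) : ∀ as : List ℕ, (∀ a ∈ as, a < n) →
    ∀ c ∈ orbL wx p o1.val o2.val as, ∃ h ∈ Subgroup.closure (xe wx '' Set.Iio n),
      c = ((phi h o1).val, (phi h o2).val)
  | [], _, c, hc => by
    refine ⟨1, one_mem _, ?_⟩
    simp only [orbL, List.mem_singleton] at hc
    simp [hc]
  | a :: as, has, c, hc => by
    rw [orbL, List.mem_flatMap] at hc
    obtain ⟨e, _, hc⟩ := hc
    rw [List.mem_map] at hc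
    obtain ⟨c0, hc0, rfl⟩ := hc
    obtain ⟨h, hh, rfl⟩ := mem_orbL wx hw p n o1 o2 as
      (fun b hb => has b (List.mem_cons_of_mem _ hb)) c0 hc0
    have hxa : xe wx a ∈ Subgroup.closure (xe wx '' Set.Iio n) :=
      Subgroup.subset_closure (Set.mem_image_of_mem _ (has a (List.mem_cons_self ..)))
    refine ⟨xe wx a ^ e * h, mul_mem (pow_mem hxa _) hh, ?_⟩
    rw [map_mul, Equiv.Perm.mul_apply, Equiv.Perm.mul_apply, xe_pow_apply wx hw, xe_pow_apply wx hw]

/-- lower bound for the order of the subgroup generated by the `xe wx a` -/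
theorem card_ge (wx : List (List ℕ)) (hw : ∀ w ∈ wx, w.all (fun l => Nat.blt l 27) = true)
    (p n : ℕ) (o1 o2 : Fin 2058)
    (h : nodupB ((orbL wx p o1.val o2.val (List.range n)).map (fun c => c.1 * 4096 + c.2)) = true) :
    p ^ n ≤ Nat.card (Subgroup.closure (xe wx '' Set.Iio n)) := by
  have : Finite He := Nat.finite_of_card_ne_zero (by rw [card_He]; norm_num)
  have hnd : (orbL wx p o1.val o2.val (List.range n)).Nodup :=
    List.Nodup.of_map _ (Cfsg.Agent.Lib.Helper17PCTab.nodup_of_nodupB _ h)
  have hm := mem_orbL wx hw p n o1 o2 (List.range n) (fun a ha => List.mem_range.1 ha)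
  choose f hf1 hf2 using hm
  let F : {c // c ∈ orbL wx p o1.val o2.val (List.range n)} →
      Subgroup.closure (xe wx '' Set.Iio n) := fun c => ⟨f c.1 c.2, hf1 c.1 c.2⟩
  have hinj : Function.Injective F := by
    intro c d hcd
    apply Subtype.ext
    have h1 : f c.1 c.2 = f d.1 d.2 := congrArg Subtype.val hcd
    rw [hf2 c.1 c.2, hf2 d.1 d.2, h1]
  have hc := Nat.card_le_card_of_injective F hinj
  have hl : Nat.card {c // c ∈ orbL wx p o1.val o2.val (List.range n)} = p ^ n := by
    rw [Nat.card_eq_fintype_card, Fintype.card_of_subtype (orbL wx p o1.val o2.val (List.range n)).toFinset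
      (fun x => List.mem_toFinset), List.toFinset_card_of_nodup hnd, length_orbL, List.length_range]
  rw [hl] at hc
  exact hc

/-- the local bound for the Held group from a certificate -/
theorem local_of_cert (C : Cert) (hp : C.D.p.Prime) (hC : C.check = true) (wx wg : List (List ℕ))
    (hw : ∀ w ∈ wx, w.all (fun l => Nat.blt l 27) = true)
    (h1 : satChk C.D wx = true) (h2 : fusChk C wx wg = true) (o1 o2 : Fin 2058)
    (h3 : nodupB ((orbL wx C.D.p o1.val o2.val (List.range C.D.n)).map
      (fun c => c.1 * 4096 + c.2)) = true)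
    (hG : ¬ C.D.p ^ (C.D.n + 1) ∣ 4030387200) : LocalBound He C.D.p C.k := by
  have : Finite He := Nat.finite_of_card_ne_zero (by rw [card_He]; norm_num)
  have := Cfsg.Agent.Lib.Helper17PCTab.ub_sub (⊤ : Subgroup He) C hp hC (xe wx) (xe wg)
    (fun _ => Subgroup.mem_top _) (fun _ => Subgroup.mem_top _) (sat_of_chk _ _ h1)
    (fus_of_chk C wx wg h2) (card_ge wx hw _ _ o1 o2 h3)
    (by rw [Subgroup.card_top, card_He]; exact hG)
  exact Cfsg.Agent.Lib.Helper17PCMult.localBound_congr Subgroup.topEquiv _ _ this

end Cfsg.Agent.Lib.Helper62HeM
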