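import Cfsg.Agent.Lib.Helper62HeM

set_option autoImplicit false
set_option maxRecDepth 1000000

/-! Certificate for the 5-part of the Schur multiplier of the Held group (generated). -/

namespace Cfsg.Agent.Lib.Helper62HeM5

open Cfsg Cfsg.Agent.Lib.Helper62HeP Cfsg.Agent.Lib.Helper62HeM Cfsg.Agent.Lib.Helper63PCDefs
open Cfsg.Agent.Lib.Helper63PCTabDefs

def D : PC where
  p := 5
  n := 2
  pwL := [[], []]
  cmL := [[], [], [], []]

def ys : List (List (ℕ × ℤ)) := [[(0, 2)], [(0, 2), (1, 2), (2, 3)], [], [(1, 2)]]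

def C : Cert where
  D := D
  k := 0
  f := 17
  R := 2
  fus := [([[0], [1]], [[0, 0, 0], [1, 1, 1]])]
  specs := [(1, [0, 0, 0, 0, 0], []), (1, [1, 1, 1, 1, 1], []), (1, [1, 0, 1, 1, 1, 1, 0, 0, 0, 0], [])]
  relV := [[(-2), 0, 0, 0, (-5), 0], [0, 0, 0, (-2), 0, (-5)], [(-2), (-8), 0, (-2), (-5), (-5)]]
  lam := [[0, 0, 0, 0, 0, 0], [0, 0, 0, 0, 0, 0]]
  j0 := 0
  mu := []
  y1 := ys
  y2 := ys

def wx : List (List ℕ) := [[24, 26, 9, 15, 15, 8, 9, 11, 7, 7, 11, 3, 2, 1, 4, 6, 3, 2], [22, 23, 13, 21, 7, 7, 11, 8, 9, 7, 7, 0, 1, 3, 2, 1, 3, 6]]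
def wg : List (List ℕ) := [[22, 24, 9, 18, 14, 7, 9, 8, 9, 11, 7, 0, 6, 3, 2]]

theorem check : C.check = true := by decide +kernel

theorem hw : ∀ w ∈ wx, w.all (fun l => Nat.blt l 27) = true := by decide +kernel

theorem h1 : satChk C.D wx = true := by decide +kernel

theorem h2 : fusChk C wx wg = true := by decide +kernel

theorem h3 : nodupB ((orbL wx 5 0 0 (List.range 2)).map
    (fun c => c.1 * 4096 + c.2)) = true := by decide +kernel

theorem lb : LocalBound He 5 0 :=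
  local_of_cert C (by norm_num [C, D]) check wx wg hw h1 h2 ⟨0, by decide⟩ ⟨0, by decide⟩ h3
    (by norm_num [C, D])

end Cfsg.Agent.Lib.Helper62HeM5
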