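import Cfsg.Agent.S1619
import Cfsg.Prelude.Def_KGroupFacts

/-! The icosian reflection group `twoJ2` is a stem extension of `J2` with kernel of order 2. -/

set_option autoImplicit false

namespace Cfsg.Agent.Lib.Helper63J2Stem

open Quaternion
open Cfsg Cfsg.Spor
open Cfsg.Agent.Lib.Helper34IcoA Cfsg.Agent.Lib.Helper34IcoA.Q8
  Cfsg.Agent.Lib.Helper34IcoB Cfsg.Agent.Lib.Helper34IcoC Cfsg.Agent.Lib.Helper34IcoD
  Cfsg.Agent.Lib.Helper34IcoE Cfsg.Agent.Lib.Helper34IcoF Cfsg.Agent.Lib.Helper34IcoI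
  Cfsg.Agent.Lib.Helper34IcoJ

/-- in a group generated by involutions every square is a product of commutators -/
theorem sq_mem_commutator {G : Type*} [Group G] (S : Set G) (hS : Subgroup.closure S = ⊤)
    (hinv : ∀ s ∈ S, s * s = 1) (g : G) : g * g ∈ commutator G := by
  have h1 : Subgroup.closure S ≤
      ((powMonoidHom 2 : Abelianization G →* Abelianization G).ker).comap Abelianization.of := by
    rw [Subgroup.closure_le]
    intro s hs
    show Abelianization.of s ∈ (powMonoidHom 2 : Abelianization G →* Abelianization G).ker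
    rw [MonoidHom.mem_ker, powMonoidHom_apply, pow_two, ← map_mul, hinv s hs, map_one]
  have h2 : g ∈ ((powMonoidHom 2 : Abelianization G →* Abelianization G).ker).comap
      Abelianization.of := h1 (hS ▸ Subgroup.mem_top g)
  have h3 : Abelianization.of g ∈ (powMonoidHom 2 : Abelianization G →* Abelianization G).ker := h2
  rw [MonoidHom.mem_ker, powMonoidHom_apply, pow_two, ← map_mul] at h3
  rw [← Abelianization.ker_of G, MonoidHom.mem_ker]
  exact h3

theorem inL_reflZ {r x : V3} (hr : inL r = true) (hx : inL x = true) : inL (reflZ r x) = true := by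
  rw [← mem_L_iff, io3_reflZ hr hx]
  exact qrefl_mem ((mem_L_iff r).2 hr) ((mem_L_iff x).2 hx)

def appW (ls : List (Fin 315)) (x : V3) : V3 := ls.foldr (fun l y => reflZ (rep l) y) x

theorem appW_spec (ls : List (Fin 315)) (x : V3) (hx : inL x = true) :
    inL (appW ls x) = true ∧ ∀ X : icoLeech, (X : V) = io3 x →
      ((((ls.map sR).prod X : icoLeech)) : V) = io3 (appW ls x) := by
  induction ls with
  | nil => exact ⟨hx, fun X hX => hX⟩
  | cons l ls ih =>
    obtain ⟨h1, h2⟩ := ih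
    refine ⟨inL_reflZ (rep_inL l) h1, fun X hX => ?_⟩
    rw [List.map_cons, List.prod_cons, Equiv.Perm.mul_apply]
    show ((reflP (rL l) (rL_min l) _ : icoLeech) : V) = io3 (reflZ (rep l) (appW ls x))
    rw [reflP_apply, h2 X hX, io3_reflZ (rep_inL l) h1]
    rfl

def negZ (v : V3) : V3 := ⟨neg v.x, neg v.y, neg v.z⟩

theorem io3_negZ (v : V3) : io3 (negZ v) = - io3 v := by
  funext t
  fin_cases t <;> simp [io3, negZ, io_neg]

def W : List (Fin 315) := [136, 229, 255, 189]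

theorem chk1 : appW (W ++ W) A1 = negZ A1 := by decide +kernel
theorem chk2 : appW (W ++ W) A2 = negZ A2 := by decide +kernel
theorem chk3 : appW (W ++ W) A3 = negZ A3 := by decide +kernel

theorem sR_mem (l : Fin 315) : sR l ∈ twoJ2 := Subgroup.subset_closure (isRefl_reflP _ _)

theorem prod_mem (ls : List (Fin 315)) : (ls.map sR).prod ∈ twoJ2 := by
  apply Subgroup.list_prod_mem
  intro x hx
  obtain ⟨l, -, rfl⟩ := List.mem_map.1 hx
  exact sR_mem l

theorem ww_neg (X : icoLeech) : (((((W ++ W).map sR).prod X : icoLeech)) : V) = -(X : V) := by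
  set w := ((W ++ W).map sR).prod with hw
  obtain ⟨f1, f2, -⟩ : w ∈ AutL := twoJ2_le_AutL (prod_mem _)
  obtain ⟨a, ha, b, hb, c, hc, e⟩ := decompL X.2
  have g1 : ((w ⟨io3 A1, A1_mem⟩ : icoLeech) : V) = - io3 A1 := by
    rw [(appW_spec (W ++ W) A1 ((mem_L_iff _).1 A1_mem)).2 ⟨io3 A1, A1_mem⟩ rfl, chk1, io3_negZ]
  have g2 : ((w ⟨io3 A2, A2_mem⟩ : icoLeech) : V) = - io3 A2 := by
    rw [(appW_spec (W ++ W) A2 ((mem_L_iff _).1 A2_mem)).2 ⟨io3 A2, A2_mem⟩ rfl, chk2, io3_negZ]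
  have g3 : ((w ⟨io3 A3, A3_mem⟩ : icoLeech) : V) = - io3 A3 := by
    rw [(appW_spec (W ++ W) A3 ((mem_L_iff _).1 A3_mem)).2 ⟨io3 A3, A3_mem⟩ rfl, chk3, io3_negZ]
  have k1 := f2 a ha ⟨io3 A1, A1_mem⟩ ⟨_, L_smul ha A1_mem⟩ rfl
  have k2 := f2 b hb ⟨io3 A2, A2_mem⟩ ⟨_, L_smul hb A2_mem⟩ rfl
  have k3 := f2 c hc ⟨io3 A3, A3_mem⟩ ⟨_, L_smul hc A3_mem⟩ rfl
  have k4 := f1 ⟨_, L_smul ha A1_mem⟩ ⟨_, L_smul hb A2_mem⟩
    ⟨_, L_add (L_smul ha A1_mem) (L_smul hb A2_mem)⟩ rfl
  have k5 := f1 ⟨_, L_add (L_smul ha A1_mem) (L_smul hb A2_mem)⟩ ⟨_, L_smul hc A3_mem⟩ X e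
  rw [k5, k4, k1, k2, k3, g1, g2, g3, e]
  simp only [smul_neg, neg_add]

theorem center_le_commutator : Subgroup.center ↥twoJ2 ≤ commutator ↥twoJ2 := by
  obtain ⟨z0, -, hneg, -, hall⟩ := Cfsg.Agent.S1619.center_data
  have hz0 : z0 = (⟨(W.map sR).prod, prod_mem W⟩ : ↥twoJ2) * ⟨(W.map sR).prod, prod_mem W⟩ := by
    apply Subtype.ext
    apply Equiv.ext
    intro X
    apply Subtype.ext
    rw [hneg X, ← ww_neg X, List.map_append, List.prod_append]
    rfl
  have hsq : z0 ∈ commutator ↥twoJ2 := by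
    rw [hz0]
    refine sq_mem_commutator {s : ↥twoJ2 | IsIcoReflection (s : Equiv.Perm icoLeech)} ?_ ?_ _
    · exact Subgroup.closure_closure_coe_preimage
    · intro s hs
      obtain ⟨r, h4, hr⟩ := (isRefl_iff _).1 hs
      apply Subtype.ext
      apply Equiv.ext
      intro X
      apply Subtype.ext
      show (((s : Equiv.Perm icoLeech) ((s : Equiv.Perm icoLeech) X) : icoLeech) : V) = X
      rw [hr, reflP_apply, reflP_apply, qrefl_invol h4]
  intro c hc
  rcases hall c hc with h | h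
  · rw [h]; exact one_mem _
  · rw [h]; exact hsq

theorem stem : ∃ (Γ : Type) (_ : Group Γ) (_ : Finite Γ) (σ : Γ →* J2),
    IsStemExtension σ ∧ Nat.card σ.ker = 2 := by
  have hfin : Finite ↥twoJ2 := by
    apply Nat.finite_of_card_ne_zero
    rw [Cfsg.Agent.S1619.result.1]
    norm_num
  refine ⟨↥twoJ2, inferInstance, hfin, QuotientGroup.mk' (Subgroup.center ↥twoJ2), ⟨?_, ?_, ?_⟩, ?_⟩
  · exact QuotientGroup.mk'_surjective _
  · rw [QuotientGroup.ker_mk']
  · rw [QuotientGroup.ker_mk']; exact center_le_commutator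
  · rw [QuotientGroup.ker_mk']; exact Cfsg.Agent.S1619.card_center

end Cfsg.Agent.Lib.Helper63J2Stem
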