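import Cfsg.Agent.Lib.Helper62HeP
import Cfsg.Agent.Lib.Helper63PCTabDefs

/-! PC-MULT: the Held group as the permutation group `KHe = phi.range` on 2058 points. -/

set_option autoImplicit false
set_option maxRecDepth 100000

namespace Cfsg.Agent.Lib.Helper63MHeM

open Cfsg Cfsg.Agent.Lib.Helper63PCTabDefs Cfsg.Agent.Lib.Helper62HeP Cfsg.Agent.Lib.Helper62HeT
  Cfsg.Agent.Lib.Helper62Bsgs

noncomputable def KHe : Subgroup (Equiv.Perm (Fin 2058)) := phi.range

theorem simpleHe : IsSimpleGroup He := Cfsg.Agent.Lib.Helper35HeFin.simple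
theorem cardHe : Nat.card He = 4030387200 := Cfsg.Agent.Lib.Helper35HeFin.card_eq

theorem tabled (x : Gen) (t : ℕ) (h : tab (Cfsg.Agent.Lib.Helper35HeA.code x) = t) : Tabled KHe 12 t :=
  ⟨phi (PresentedGroup.of x), ⟨_, rfl⟩, fun j => by rw [phi_of, h]; rfl⟩

theorem tb0 : Tabled KHe 12 t0 := tabled .a t0 rfl
theorem tb1 : Tabled KHe 12 t1 := tabled .b t1 rfl
theorem tb2 : Tabled KHe 12 t2 := tabled .c t2 rfl
theorem tb3 : Tabled KHe 12 t3 := tabled .d t3 rfl
theorem tb4 : Tabled KHe 12 t4 := tabled .e t4 rfl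
theorem tb5 : Tabled KHe 12 t5 := tabled .f t5 rfl
theorem tb6 : Tabled KHe 12 t6 := tabled .g t6 rfl

theorem moved : ∃ j : Fin 2058, look t0 j.val ≠ j.val := by decide +kernel

theorem phi_inj : Function.Injective phi := by
  haveI := simpleHe
  rw [← MonoidHom.ker_eq_bot_iff]
  rcases (phi.normal_ker).eq_bot_or_eq_top with h | h
  · exact h
  · exfalso
    obtain ⟨j, hj⟩ := moved
    have h1 : phi (PresentedGroup.of Cfsg.Spor.He.Gen.a) = 1 := by
      have : (PresentedGroup.of Cfsg.Spor.He.Gen.a : He) ∈ phi.ker := by rw [h]; exact Subgroup.mem_top _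
      exact this
    have h2 := phi_of .a j
    rw [h1] at h2
    exact hj h2.symm

noncomputable def iso : He ≃* KHe := MonoidHom.ofInjective phi_inj

theorem cardK : Nat.card KHe = 4030387200 := by
  rw [← Nat.card_congr iso.toEquiv]; exact cardHe

end Cfsg.Agent.Lib.Helper63MHeM
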