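import Cfsg.Agent.Lib.Helper17PCTab

/-!
# Project PC-MULT, part 3: models whose elements are coded by natural numbers (packed matrices ...)
-/

set_option autoImplicit false

namespace Cfsg.Agent.Lib.Helper63PCCode

open Cfsg Cfsg.Agent.Lib.Helper63PCDefs Cfsg.Agent.Lib.Helper63PCTabDefs Cfsg.Agent.Lib.Helper17PCTab

universe u

/-- code of a positive word -/
def evalC (mul : ℕ → ℕ → ℕ) (one : ℕ) (cx : ℕ → ℕ) (w : List ℕ) : ℕ :=
  w.foldr (fun l acc => mul (cx l) acc) one

def eqC (mul : ℕ → ℕ → ℕ) (one : ℕ) (nrm : ℕ → ℕ) (cx : ℕ → ℕ) (w1 w2 : List ℕ) : Bool :=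
  Nat.beq (nrm (evalC mul one cx w1)) (nrm (evalC mul one cx w2))

def pcChkC (mul : ℕ → ℕ → ℕ) (one : ℕ) (nrm : ℕ → ℕ) (D : PC) (cx : ℕ → ℕ) : Bool :=
  (List.range D.n).all (fun a => eqC mul one nrm cx (List.replicate D.p a) (D.pw a)) &&
  (List.range D.n).all (fun b => (List.range D.n).all (fun a =>
    !(decide (b < a)) || eqC mul one nrm cx [a, b] (b :: a :: D.cm b a)))

def fusChkC (mul : ℕ → ℕ → ℕ) (one : ℕ) (nrm : ℕ → ℕ) (C : Cert) (cx cg : ℕ → ℕ) : Bool :=
  (List.range C.fus.length).all (fun gi =>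
    decide ((C.Dw gi).length ≤ C.R) && decide ((C.Ew gi).length ≤ C.R) &&
    (C.Dw gi).all (fun w => w.all (fun l => decide (l < C.D.n))) &&
    (C.Ew gi).all (fun w => w.all (fun l => decide (l < C.D.n))) &&
    (List.range C.R).all (fun i =>
      Nat.beq (nrm (mul (cg gi) (evalC mul one cx (nthL (C.Dw gi) i))))
        (nrm (mul (evalC mul one cx (nthL (C.Ew gi) i)) (cg gi)))))

def injChkC (mul : ℕ → ℕ → ℕ) (one : ℕ) (nrm : ℕ → ℕ) (D : PC) (cx : ℕ → ℕ) : Bool :=
  nodupB ((List.range (D.p ^ D.n)).map (fun e => nrm (evalC mul one cx (nfw D.p D.n e))))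

/-- a coding of (some) elements of `H` by natural numbers -/
structure CodeSys (H : Type u) [Group H] (mul : ℕ → ℕ → ℕ) (one : ℕ) (nrm : ℕ → ℕ) where
  rep : H → ℕ → Prop
  rep_mul : ∀ {g h : H} {a b : ℕ}, rep g a → rep h b → rep (g * h) (mul a b)
  rep_one : rep 1 one
  rep_inv : ∀ {g : H} {a b : ℕ}, rep g a → mul a b = one → rep g⁻¹ b
  ext : ∀ {g h : H} {a b : ℕ}, rep g a → rep h b → nrm a = nrm b → g = h
  inj : ∀ {g : H} {a b : ℕ}, rep g a → rep g b → nrm a = nrm b

variable {H : Type u} [Group H] {mul : ℕ → ℕ → ℕ} {one : ℕ} {nrm : ℕ → ℕ}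

theorem rep_evalW (S : CodeSys H mul one nrm) (X : ℕ → H) (cx : ℕ → ℕ) (n : ℕ)
    (hX : ∀ a < n, S.rep (X a) (cx a)) (w : List ℕ) (hw : ∀ l ∈ w, l < n) :
    S.rep (evalW X w) (evalC mul one cx w) := by
  induction w with
  | nil => simpa [evalW, evalC] using S.rep_one
  | cons l w ih =>
    have h1 : evalW X (l :: w) = X l * evalW X w := by simp [evalW]
    have h2 : evalC mul one cx (l :: w) = mul (cx l) (evalC mul one cx w) := rfl
    rw [h1, h2]
    exact S.rep_mul (hX l (hw l (by simp))) (ih (fun k hk => hw k (List.mem_cons_of_mem _ hk)))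

theorem eq_of_eqC (S : CodeSys H mul one nrm) (X : ℕ → H) (cx : ℕ → ℕ) (n : ℕ)
    (hX : ∀ a < n, S.rep (X a) (cx a)) (w w' : List ℕ) (hw : ∀ l ∈ w, l < n)
    (hw' : ∀ l ∈ w', l < n) (h : eqC mul one nrm cx w w' = true) : evalW X w = evalW X w' :=
  S.ext (rep_evalW S X cx n hX w hw) (rep_evalW S X cx n hX w' hw') (Nat.eq_of_beq_eq_true h)

theorem card_ge_of_injChkC (S : CodeSys H mul one nrm) (K : Subgroup H) [Finite K] (X : ℕ → H)
    (hXK : ∀ a, X a ∈ K) (cx : ℕ → ℕ) (D : PC)
    (hX : ∀ a < D.n, S.rep (X a) (cx a)) (h : injChkC mul one nrm D cx = true) :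
    D.p ^ D.n ≤ Nat.card (Subgroup.closure (X '' Set.Iio D.n)) := by
  have hnd' := nodup_of_nodupB _ h
  have hle : Subgroup.closure (X '' Set.Iio D.n) ≤ K := by
    rw [Subgroup.closure_le]
    rintro _ ⟨a, -, rfl⟩
    exact hXK a
  have hfin : Finite (Subgroup.closure (X '' Set.Iio D.n)) :=
    Finite.of_injective (Subgroup.inclusion hle) (Subgroup.inclusion_injective hle)
  let f : Fin (D.p ^ D.n) → Subgroup.closure (X '' Set.Iio D.n) := fun e =>
    ⟨evalW X (nfw D.p D.n e), evalW_mem X D.n _ (fun l hl => mem_nfw hl)⟩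
  have hf : Function.Injective f := by
    intro e e' hee
    have h1 : evalW X (nfw D.p D.n e) = evalW X (nfw D.p D.n e') := congrArg Subtype.val hee
    have h3 := rep_evalW S X cx D.n hX (nfw D.p D.n e) (fun l hl => mem_nfw hl)
    have h4 := rep_evalW S X cx D.n hX (nfw D.p D.n e') (fun l hl => mem_nfw hl)
    rw [h1] at h3
    have h2 := S.inj h3 h4
    have h5 := List.inj_on_of_nodup_map hnd' (List.mem_range.2 e.2) (List.mem_range.2 e'.2) h2
    exact Fin.ext h5
  have := Nat.card_le_card_of_injective f hf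
  rwa [Nat.card_fin] at this

/-- `c` is the code of an element of `K` -/
def Coded (S : CodeSys H mul one nrm) (K : Subgroup H) (c : ℕ) : Prop := ∃ g ∈ K, S.rep g c

theorem Coded.mul_of {S : CodeSys H mul one nrm} {K : Subgroup H} {a b c : ℕ} (ha : Coded S K a)
    (hb : Coded S K b) (h : mul a b = c) : Coded S K c := by
  obtain ⟨g, hg, rg⟩ := ha
  obtain ⟨k, hk, rk⟩ := hb
  exact ⟨g * k, K.mul_mem hg hk, h ▸ S.rep_mul rg rk⟩

theorem Coded.inv_of {S : CodeSys H mul one nrm} {K : Subgroup H} {a b : ℕ} (ha : Coded S K a)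
    (h : mul a b = one) : Coded S K b := by
  obtain ⟨g, hg, rg⟩ := ha
  exact ⟨g⁻¹, K.inv_mem hg, S.rep_inv rg h⟩

theorem ub_code (S : CodeSys H mul one nrm) (K : Subgroup H) [Finite K] (C : Cert)
    (hp : C.D.p.Prime) (hC : C.check = true) (cx cg : ℕ → ℕ)
    (hx : ∀ a < C.D.n, Coded S K (cx a)) (hg : ∀ i < C.fus.length, Coded S K (cg i))
    (h1 : pcChkC mul one nrm C.D cx = true) (h2 : fusChkC mul one nrm C cx cg = true)
    (h3 : injChkC mul one nrm C.D cx = true)
    (hG : ¬ C.D.p ^ (C.D.n + 1) ∣ Nat.card K) : LocalBound K C.D.p C.k := by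
  classical
  have hexX : ∀ a, ∃ π ∈ K, a < C.D.n → S.rep π (cx a) := by
    intro a
    by_cases ha : a < C.D.n
    · obtain ⟨π, hπ, e⟩ := hx a ha
      exact ⟨π, hπ, fun _ => e⟩
    · exact ⟨1, K.one_mem, fun h => absurd h ha⟩
  have hexY : ∀ i, ∃ π ∈ K, i < C.fus.length → S.rep π (cg i) := by
    intro a
    by_cases ha : a < C.fus.length
    · obtain ⟨π, hπ, e⟩ := hg a ha
      exact ⟨π, hπ, fun _ => e⟩
    · exact ⟨1, K.one_mem, fun h => absurd h ha⟩
  choose X hXK hX using hexX
  choose Y hYK hY using hexY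
  have hw : C.D.wordsOK = true := by
    simp only [Cert.check, Bool.and_eq_true] at hC
    exact hC.1.1.1.1
  simp only [PC.wordsOK, Bool.and_eq_true, List.all_eq_true, List.mem_range,
    decide_eq_true_eq] at hw
  simp only [pcChkC, Bool.and_eq_true, List.all_eq_true, List.mem_range, Bool.or_eq_true,
    Bool.not_eq_true', decide_eq_false_iff_not] at h1
  simp only [fusChkC, Bool.and_eq_true, List.all_eq_true, List.mem_range,
    decide_eq_true_eq] at h2
  have hS : Sat C.D X (fun _ => 1) := by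
    constructor
    · intro a ha
      have := eq_of_eqC S X cx C.D.n hX (List.replicate C.D.p a) (C.D.pw a)
        (fun l hl => by rw [List.eq_of_mem_replicate hl]; exact ha)
        (fun l hl => (hw.1 a ha l hl).2) (h1.1 a ha)
      rw [mul_one, ← this]
      simp [evalW]
    · intro b a hba ha
      have hb : b < C.D.n := hba.trans ha
      have h4 := (h1.2 b hb a ha).resolve_left (fun h => h hba)
      have := eq_of_eqC S X cx C.D.n hX [a, b] (b :: a :: C.D.cm b a)
        (fun l hl => by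
          simp only [List.mem_cons, List.not_mem_nil, or_false] at hl
          rcases hl with rfl | rfl
          · exact ha
          · exact hb)
        (fun l hl => by
          simp only [List.mem_cons] at hl
          rcases hl with rfl | rfl | hl
          · exact hb
          · exact ha
          · exact (hw.2 b hb a ha l hl).2) h4
      simp only [evalW, List.map_cons, List.map_nil, List.prod_cons, List.prod_nil, mul_one]
        at this ⊢
      rw [this, mul_assoc]
  refine ub_sub K C hp hC X Y hXK hYK hS ?_ (card_ge_of_injChkC S K X hXK cx C.D hX h3) hG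
  intro gi i
  by_cases hgi : gi < C.fus.length
  · obtain ⟨⟨⟨⟨hl1, hl2⟩, hD⟩, hE⟩, hchk⟩ := h2 gi hgi
    by_cases hi : i < C.R
    · have hDl : ∀ l ∈ nthL (C.Dw gi) i, l < C.D.n := by
        rcases nthL_mem_or (C.Dw gi) i with h | h
        · exact hD _ h
        · rw [h]; simp
      have hEl : ∀ l ∈ nthL (C.Ew gi) i, l < C.D.n := by
        rcases nthL_mem_or (C.Ew gi) i with h | h
        · exact hE _ h
        · rw [h]; simp
      rw [mul_inv_eq_iff_eq_mul]
      exact S.ext (S.rep_mul (hY gi hgi) (rep_evalW S X cx C.D.n hX _ hDl))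
        (S.rep_mul (rep_evalW S X cx C.D.n hX _ hEl) (hY gi hgi))
        (Nat.eq_of_beq_eq_true (hchk i hi))
    · rw [nthL_of_le _ _ (hl1.trans (not_lt.1 hi)), nthL_of_le _ _ (hl2.trans (not_lt.1 hi))]
      simp [evalW]
  · have e1 : C.Dw gi = [] := by
      unfold Cert.Dw
      rw [List.getD_eq_default _ _ (not_lt.1 hgi)]
    have e2 : C.Ew gi = [] := by
      unfold Cert.Ew
      rw [List.getD_eq_default _ _ (not_lt.1 hgi)]
    rw [e1, e2]
    simp [evalW, nthL]

end Cfsg.Agent.Lib.Helper63PCCode
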