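import Cfsg.Agent.S3958
import Cfsg.Agent.Lib.Helper63PCFin

/-! PROJECT 63 (PC-MULT): the multiplier of `Q` from a stem extension `Γ → Q` with `M(Γ) = 1`. -/

set_option autoImplicit false

namespace Cfsg.Agent.Lib.Helper63PCCover

open Cfsg

universe u v

theorem of_cover {Q : Type u} [Group Q] [Finite Q] {Γ : Type u} [Group Γ] [Finite Γ] (σ : Γ →* Q)
    (hσ : IsStemExtension σ) (hΓ : HasCyclicSchurMultiplier Γ 1) (A : Type v) [CommGroup A]
    (e : σ.ker ≃* A) : HasSchurMultiplier Q A := by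
  refine ⟨⟨Γ, inferInstance, inferInstance, σ, hσ, ⟨e⟩⟩, fun Δ _ _ τ hτ => ?_⟩
  obtain ⟨π, hπ⟩ := Cfsg.Agent.S3958.result σ hσ hΓ Δ τ hτ
  exact ⟨π.comp e.symm.toMonoidHom, hπ.comp e.symm.surjective⟩

/-- kernel of prime order -/
theorem of_cover_prime {Q : Type u} [Group Q] [Finite Q] {Γ : Type u} [Group Γ] [Finite Γ]
    (σ : Γ →* Q) (hσ : IsStemExtension σ) (hΓ : HasCyclicSchurMultiplier Γ 1) (p : ℕ)
    [hp : Fact p.Prime] (hk : Nat.card σ.ker = p) : HasCyclicSchurMultiplier Q p := by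
  have h2 : Nat.card (Multiplicative (ZMod p)) = p := by
    rw [Nat.card_congr Multiplicative.toAdd, Nat.card_zmod]
  exact of_cover σ hσ hΓ _ (mulEquivOfPrimeCardEq hk h2)

/-- a group generated by `x`, `y` with `x ^ a = 1`, `y ^ b = 1`, `(x y) ^ c = 1` is perfect when
`a`, `b`, `c` are pairwise coprime -/
theorem perfect_of_triple {G : Type*} [Group G] (x y : G) (hgen : Subgroup.closure {x, y} = ⊤)
    (a b c : ℕ) (hx : x ^ a = 1) (hy : y ^ b = 1) (hxy : (x * y) ^ c = 1)
    (hab : Nat.Coprime a b) (hac : Nat.Coprime a c) (hbc : Nat.Coprime b c) :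
    commutator G = ⊤ := by
  set π := (Abelianization.of : G →* Abelianization G) with hπ
  have e1 : π x ^ a = 1 := by rw [← map_pow, hx, map_one]
  have e2 : π y ^ b = 1 := by rw [← map_pow, hy, map_one]
  have e3 : π x ^ c * π y ^ c = 1 := by rw [← mul_pow, ← map_mul, ← map_pow, hxy, map_one]
  -- (π x)^(c b) = 1
  have e4 : π x ^ (c * b) = 1 := by
    have : (π x ^ c * π y ^ c) ^ b = 1 := by rw [e3, one_pow]
    rw [mul_pow, ← pow_mul, ← pow_mul, mul_comm c b, pow_mul (π y), e2, one_pow, mul_one] at this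
    rw [mul_comm]; exact this
  have e5 : π x = 1 := by
    have h1 : orderOf (π x) ∣ a := orderOf_dvd_of_pow_eq_one e1
    have h2 : orderOf (π x) ∣ c * b := orderOf_dvd_of_pow_eq_one e4
    have h3 : Nat.Coprime a (c * b) := Nat.Coprime.mul_right hac hab
    have h4 : orderOf (π x) = 1 := Nat.eq_one_of_dvd_coprimes h3 h1 h2
    exact orderOf_eq_one_iff.1 h4
  have e6 : π y = 1 := by
    rw [e5, one_pow, one_mul] at e3
    have h1 : orderOf (π y) ∣ b := orderOf_dvd_of_pow_eq_one e2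
    have h2 : orderOf (π y) ∣ c := orderOf_dvd_of_pow_eq_one e3
    exact orderOf_eq_one_iff.1 (Nat.eq_one_of_dvd_coprimes hbc h1 h2)
  rw [← Abelianization.ker_of G, eq_top_iff, ← hgen, Subgroup.closure_le]
  rintro g (rfl | rfl)
  · exact e5
  · exact e6

end Cfsg.Agent.Lib.Helper63PCCover
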