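import Cfsg.Agent.Lib.Helper64J3Simple
import Cfsg.Agent.Lib.Helper63PCCode
import Cfsg.Agent.Lib.Helper63PCCover

/-! PC-MULT: the triple cover `3·J₃ = GG ω` as a group of coded 9×9 matrices over GF(4). -/

set_option autoImplicit false

namespace Cfsg.Agent.Lib.Helper63MJ3M

open Cfsg Cfsg.Spor Cfsg.Agent.Helper64J3 Cfsg.Agent.Lib.Helper63PCCode

def nrm (c : ℕ) : ℕ := Nat.mod c P162

section
variable {F : Type*} [Field F] (ω : F) [Om F ω]

def sys : CodeSys (GL F9 F) mulC cOne nrm where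
  rep := Rep ω
  rep_mul := Rep.mul
  rep_one := Rep.one
  rep_inv := Rep.inv
  ext := fun hg hh h => Units.ext (hg.trans (((toMat_eq_iff ω).2 h).trans hh.symm))
  inj := fun hg hh => Rep.code_eq hg hh

theorem cdX : Coded (sys ω) (GG ω) cX := ⟨gX ω, gX_mem ω, rep_gX ω⟩
theorem cdY : Coded (sys ω) (GG ω) cY := ⟨gY ω, gY_mem ω, rep_gY ω⟩
theorem cdZ : Coded (sys ω) (GG ω) cZeta := ⟨gZ ω, gZ_mem ω, rep_gZ ω⟩

theorem perfect : commutator (HH ω) = ⊤ := by
  refine Cfsg.Agent.Lib.Helper63PCCover.perfect_of_triple (x' ω) (y' ω) (closure_pair_top _ _)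
    2 9 17 ?_ ?_ ?_ (by norm_num) (by norm_num) (by norm_num)
  · exact Subtype.ext (gX_sq ω)
  · exact Subtype.ext (gY_pow ω)
  · rw [← a'_eq ω, ← orderOf_a' ω]; exact pow_orderOf_eq_one _

theorem stem : IsStemExtension (QuotientGroup.mk' (Subgroup.center (HH ω))) := by
  refine ⟨QuotientGroup.mk'_surjective _, ?_, ?_⟩
  · rw [QuotientGroup.ker_mk']
  · rw [perfect]; exact le_top

end

end Cfsg.Agent.Lib.Helper63MJ3M
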