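import Cfsg.Agent.Lib.Helper63PCWordDefs
import Cfsg.Agent.Lib.Helper17PCTab

/-!
# Project PC-MULT, part 3: the local bound for a word model
-/

set_option autoImplicit false

universe u

namespace Cfsg.Agent.Lib.Helper63PCWord

open Cfsg.Agent.Lib.Helper63PCDefs Cfsg.Agent.Lib.Helper63PCTabDefs Cfsg.Agent.Lib.Helper35TC
  Cfsg.Agent.Lib.Helper63PCWordDefs

/-- PIECE `PCWord`.  COPY of the proof of `Helper17PCTab.ub_tab` (same file structure), simpler:
put `X a := ev (xw a)`, `Y i := ev (gw i)`.
* `ev (wOf xw w) = evalW X w` by induction on `w` (`hmul`, `hpow`, `pow_zero`; `evalW X w = (w.map X).prod`).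
* `eqW isOne e1 e2 = true → ev e1 = ev e2` (`hone`, `hmul`, `hinv`, `mul_inv_eq_one`).
* `Sat C.D X (fun _ => 1)` from `hpc` as in `ub_tab`.
* fusion relations for ALL `gi i` as at the end of `ub_tab` (out of range: `nthL_of_le`, `Cert.Dw = []`).
* `C.D.p ^ C.D.n ≤ Nat.card (closure (X '' Set.Iio C.D.n))` from `hinj` as in
  `Helper17PCTab.card_ge_of_injChk` (`nodup_of_nodupB`, `mem_nfw`, `evalW_mem`, `hcode`).
* conclude with `Helper17PCTab.ub_sub (⊤ : Subgroup G)` and transport along `Subgroup.topEquiv`, or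
  directly with `Helper63PCUb.ub` (it wants `Nat.card (closure ..) = p ^ n`; the inequality `≤` is proved
  inside `ub_sub`, see there). -/
theorem ub_word {G : Type u} [Group G] [Finite G] {α : Type} (ev : WExp α → G)
    (hmul : ∀ x y, ev (WExp.mul x y) = ev x * ev y) (hinv : ∀ x, ev (WExp.inv x) = (ev x)⁻¹)
    (hpow : ∀ x n, ev (WExp.pow x n) = ev x ^ n)
    (isOne : WExp α → Bool) (hone : ∀ e, isOne e = true → ev e = 1)
    (code : WExp α → ℕ) (hcode : ∀ e1 e2, ev e1 = ev e2 → code e1 = code e2)
    (C : Cert) (hp : C.D.p.Prime) (hC : C.check = true) (xw gw : ℕ → WExp α)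
    (hpc : pcChkW isOne C.D xw = true) (hfus : fusChkW isOne C xw gw = true)
    (hinj : injChkW code C.D xw = true)
    (hG : ¬ C.D.p ^ (C.D.n + 1) ∣ Nat.card G) : LocalBound G C.D.p C.k := by
  classical
  have hwOf : ∀ w : List ℕ, ev (wOf xw w) = evalW (fun a => ev (xw a)) w := by
    intro w
    induction w with
    | nil =>
      show ev (WExp.pow (xw 0) 0) = _
      rw [hpow, pow_zero]
      simp [evalW]
    | cons l w ih =>
      show ev (WExp.mul (xw l) (wOf xw w)) = _
      rw [hmul, ih]
      simp [evalW]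
  have heq : ∀ e1 e2, eqW isOne e1 e2 = true → ev e1 = ev e2 := by
    intro e1 e2 h
    have := hone _ h
    rw [hmul, hinv, mul_inv_eq_one] at this
    exact this
  have hw : C.D.wordsOK = true := by
    simp only [Cert.check, Bool.and_eq_true] at hC
    exact hC.1.1.1.1
  simp only [pcChkW, Bool.and_eq_true, List.all_eq_true, List.mem_range, Bool.or_eq_true,
    Bool.not_eq_true', decide_eq_false_iff_not] at hpc
  simp only [fusChkW, Bool.and_eq_true, List.all_eq_true, List.mem_range,
    decide_eq_true_eq] at hfus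
  have hS : Sat C.D (fun a => ev (xw a)) (fun _ => 1) := by
    constructor
    · intro a ha
      have := heq _ _ (hpc.1 a ha)
      rw [hpow, hwOf] at this
      rw [mul_one]
      exact this
    · intro b a hba ha
      have hb : b < C.D.n := hba.trans ha
      have h4 := (hpc.2 b hb a ha).resolve_left (fun h => h hba)
      have := heq _ _ h4
      rw [hmul, hwOf] at this
      simp only [evalW, List.map_cons, List.prod_cons] at this ⊢
      rw [this, mul_one, mul_assoc]
  have hcard : C.D.p ^ C.D.n ≤ Nat.card (Subgroup.closure ((fun a => ev (xw a)) '' Set.Iio C.D.n)) := by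
    have hnd' := Helper17PCTab.nodup_of_nodupB _ hinj
    let f : Fin (C.D.p ^ C.D.n) → Subgroup.closure ((fun a => ev (xw a)) '' Set.Iio C.D.n) := fun e =>
      ⟨evalW (fun a => ev (xw a)) (nfw C.D.p C.D.n e),
        Helper17PCTab.evalW_mem _ C.D.n _ (fun l hl => Helper17PCTab.mem_nfw hl)⟩
    have hf : Function.Injective f := by
      intro e e' hee
      have h1 : evalW (fun a => ev (xw a)) (nfw C.D.p C.D.n e)
          = evalW (fun a => ev (xw a)) (nfw C.D.p C.D.n e') := congrArg Subtype.val hee
      have h2 : code (wOf xw (nfw C.D.p C.D.n e)) = code (wOf xw (nfw C.D.p C.D.n e')) := by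
        apply hcode
        rw [hwOf, hwOf, h1]
      have h5 := List.inj_on_of_nodup_map hnd' (List.mem_range.2 e.2) (List.mem_range.2 e'.2) h2
      exact Fin.ext h5
    have := Nat.card_le_card_of_injective f hf
    rwa [Nat.card_fin] at this
  refine Cfsg.Agent.Lib.Helper63PCUb.ub C hp hC (fun a => ev (xw a)) (fun i => ev (gw i)) hS ?_
    (le_antisymm (Cfsg.Agent.Lib.Helper38PCpcb.pcb C.D hp.pos hw _ hS).2 hcard) hG
  intro gi i
  by_cases hgi : gi < C.fus.length
  · obtain ⟨⟨hl1, hl2⟩, hchk⟩ := hfus gi hgi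
    by_cases hi : i < C.R
    · rw [mul_inv_eq_iff_eq_mul]
      have := heq _ _ (hchk i hi)
      rw [hmul, hmul, hwOf, hwOf] at this
      exact this
    · rw [Helper17PCTab.nthL_of_le _ _ (hl1.trans (not_lt.1 hi)),
        Helper17PCTab.nthL_of_le _ _ (hl2.trans (not_lt.1 hi))]
      simp [evalW]
  · have e1 : C.Dw gi = [] := by
      unfold Cert.Dw
      rw [List.getD_eq_default _ _ (not_lt.1 hgi)]
    have e2 : C.Ew gi = [] := by
      unfold Cert.Ew
      rw [List.getD_eq_default _ _ (not_lt.1 hgi)]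
    rw [e1, e2]
    simp [evalW, nthL]

end Cfsg.Agent.Lib.Helper63PCWord
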