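import Cfsg.Agent.Lib.Helper35ONFin
import Cfsg.Agent.Lib.Helper63PCWord

/-! PC-MULT: the O'Nan group as a word model (helper35's coset table on 122760 points). -/

set_option autoImplicit false
set_option maxRecDepth 100000

namespace Cfsg.Agent.Lib.Helper63MONM

open Cfsg Cfsg.Agent.Lib.Helper35TC Cfsg.Agent.Lib.Helper35ONa Cfsg.Agent.Lib.Helper63PCDefs
  Cfsg.Agent.Lib.Helper63PCWordDefs

abbrev Gen := Cfsg.Spor.ON.Gen

noncomputable def ev (e : WExp Gen) : K.Grp := PresentedGroup.mk K.rels e.eval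

theorem ev_mul (x y : WExp Gen) : ev (WExp.mul x y) = ev x * ev y := by
  simp [ev, WExp.eval]

theorem ev_inv (x : WExp Gen) : ev (WExp.inv x) = (ev x)⁻¹ := by
  simp [ev, WExp.eval]

theorem ev_pow (x : WExp Gen) (n : ℕ) : ev (WExp.pow x n) = ev x ^ n := by
  simp [ev, WExp.eval]

noncomputable def isOne (e : WExp Gen) : Bool := BD.fixChk K.P (e.app K.code K.P.iv)

theorem isOne_sound (e : WExp Gen) (h : isOne e = true) : ev e = 1 :=
  Cfsg.Agent.Lib.Helper35ONFin.word_eq_one e h

noncomputable def codeL (w : List ℕ) (l : List ℕ) : ℕ :=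
  l.foldr (fun b acc => acc * 131072 + K.P.walkA w (BD.pt b)) (K.P.walkA w 0)

noncomputable def code (e : WExp Gen) : ℕ := codeL (e.app K.code K.P.iv) BD.base

noncomputable def codeG (g : K.Grp) (l : List ℕ) : ℕ :=
  l.foldr (fun b acc => acc * 131072 + (ok.phi g (ok.qpt BD b)).val) (ok.phi g ok.zero).val

theorem codeL_eq (e : WExp Gen) (l : List ℕ) (hl : ∀ b ∈ l, b ∈ BD.base) :
    codeL (e.app K.code K.P.iv) l = codeG (ev e) l := by
  induction l with
  | nil =>
    show K.P.walkA _ 0 = _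
    exact (ok.phi_mk_apply e ok.zero).symm
  | cons b l ih =>
    have h1 := ih (fun c hc => hl c (List.mem_cons_of_mem _ hc))
    have h2 := ok.phi_mk_apply e (ok.qpt BD b)
    rw [ok.qpt_val hBD (hBD.hbase b (hl b List.mem_cons_self))] at h2
    show codeL _ l * 131072 + K.P.walkA _ (BD.pt b) = codeG _ l * 131072 + _
    rw [h1, ← h2]
    rfl

theorem code_congr (e1 e2 : WExp Gen) (h : ev e1 = ev e2) : code e1 = code e2 := by
  unfold code
  rw [codeL_eq e1 _ (fun _ h => h), codeL_eq e2 _ (fun _ h => h), h]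

instance : Finite K.Grp := Cfsg.Agent.Lib.Helper35ONFin.hub.1

/-- the local bound for the O'Nan group from a certificate and words -/
theorem ub_on (C : Cert) (hp : C.D.p.Prime) (hC : C.check = true) (xw gw : ℕ → WExp Gen)
    (hpc : pcChkW isOne C.D xw = true) (hfus : fusChkW isOne C xw gw = true)
    (hinj : injChkW code C.D xw = true)
    (hG : ¬ C.D.p ^ (C.D.n + 1) ∣ 460815505920) : LocalBound Cfsg.Spor.ON C.D.p C.k := by
  have := Cfsg.Agent.Lib.Helper63PCWord.ub_word (G := K.Grp) ev ev_mul ev_inv ev_pow isOne isOne_sound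
    code code_congr C hp hC xw gw hpc hfus hinj
    (by rw [Cfsg.Agent.Lib.Helper35ONFin.card_eq]; exact hG)
  exact this

end Cfsg.Agent.Lib.Helper63MONM
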