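import Cfsg.Agent.Lib.Helper63MSuzP2C

set_option autoImplicit false
set_option maxRecDepth 1000000
set_option maxHeartbeats 0

namespace Cfsg.Agent.Lib.Helper63MSuzP2d

open Cfsg Cfsg.Agent.Lib.Helper63PCDefs Cfsg.Agent.Lib.Helper63PCTabDefs Cfsg.Agent.Lib.Helper63PCInj Cfsg.Agent.Lib.Helper63MSuzP2T Cfsg.Agent.Lib.Helper63MSuzP2C Cfsg.Agent.Lib.Helper63MSuzM Cfsg.Agent.Lib.Helper62SzT

local notation "KK" => KSuz

theorem hinj : injChk3 1782 12 C.D tx [0, 2] 14 OO = true := by decide +kernel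

end Cfsg.Agent.Lib.Helper63MSuzP2d
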