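import Cfsg.Agent.Lib.Helper63MSuzP2a
import Cfsg.Agent.Lib.Helper63MSuzP2b
import Cfsg.Agent.Lib.Helper63MSuzP2c
import Cfsg.Agent.Lib.Helper63MSuzP2d

set_option autoImplicit false
set_option maxRecDepth 1000000
set_option maxHeartbeats 0

namespace Cfsg.Agent.Lib.Helper63MSuzP2

open Cfsg Cfsg.Agent.Lib.Helper63PCDefs Cfsg.Agent.Lib.Helper63PCTabDefs Cfsg.Agent.Lib.Helper63PCInj Cfsg.Agent.Lib.Helper63MSuzP2T Cfsg.Agent.Lib.Helper63MSuzP2C Cfsg.Agent.Lib.Helper63MSuzP2a Cfsg.Agent.Lib.Helper63MSuzP2b Cfsg.Agent.Lib.Helper63MSuzP2c Cfsg.Agent.Lib.Helper63MSuzP2d Cfsg.Agent.Lib.Helper63MSuzM Cfsg.Agent.Lib.Helper62SzT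

local notation "KK" => KSuz

theorem hx : ∀ a < C.D.n, Tabled KK 12 (tx a) := by
  intro a ha
  have ha' : a < 13 := ha
  interval_cases a
  · exact h2910
  · exact h2849
  · exact h2802
  · exact h2578
  · exact h2697
  · exact h2664
  · exact h2631
  · exact h2565
  · exact h1477
  · exact h2454
  · exact h1907
  · exact h1687
  · exact h1478

theorem hg : ∀ i < C.fus.length, Tabled KK 12 (tg i) := by
  intro a ha
  have ha' : a < 1 := ha
  interval_cases a
  · exact h2968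

theorem lb : LocalBound KK 2 1 :=
  ub_tab3 KK C (by norm_num [C]) hC 12 tx tg [0, 2] 14 OO hx hg hpc hfus hinj (by rw [cardK]; norm_num [C])

end Cfsg.Agent.Lib.Helper63MSuzP2
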