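import Cfsg.Agent.Lib.Helper17PCTab

/-!
# Project PC-MULT: a linear-time certificate for `p ^ n ≤ |⟨x_a⟩|` (sorted list of normal words)
-/

set_option autoImplicit false

namespace Cfsg.Agent.Lib.Helper63PCInj

open Cfsg Cfsg.Agent.Lib.Helper63PCDefs Cfsg.Agent.Lib.Helper63PCTabDefs Cfsg.Agent.Lib.Helper17PCTab
  Cfsg.Agent.Lib.Helper63TCS

/-- `O` packs (with `Bo` bits per entry) a list of `p ^ n` indices of normal words whose codes are strictly
increasing -/
def injChk3 (d B : ℕ) (D : PC) (tx : ℕ → ℕ) (bs : List ℕ) (Bo O : ℕ) : Bool :=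
  bs.all (fun b => decide (b < d)) &&
  allB (fun i => Nat.blt (codeN d B tx bs (nfw D.p D.n (lk Bo O i)))
    (codeN d B tx bs (nfw D.p D.n (lk Bo O (i + 1))))) (D.p ^ D.n - 1)

theorem lt_of_adj (c : ℕ → ℕ) (m : ℕ) (h : ∀ i < m - 1, c i < c (i + 1)) :
    ∀ j < m, ∀ i < j, c i < c j := by
  intro j
  induction j with
  | zero => intro _ i hi; omega
  | succ j ih =>
    intro hj i hi
    have h1 : c j < c (j + 1) := h j (by omega)
    rcases Nat.lt_succ_iff_lt_or_eq.1 hi with h2 | rfl
    · exact (ih (by omega) i h2).trans h1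
    · exact h1

theorem card_ge_of_injChk3 {d : ℕ} (B : ℕ) (tx : ℕ → ℕ) (X : ℕ → Equiv.Perm (Fin d)) (D : PC)
    (hX : ∀ a < D.n, ∀ y : Fin d, ((X a y : Fin d) : ℕ) = lk B (tx a) y) (bs : List ℕ) (Bo O : ℕ)
    (h : injChk3 d B D tx bs Bo O = true) :
    D.p ^ D.n ≤ Nat.card (Subgroup.closure (X '' Set.Iio D.n)) := by
  simp only [injChk3, Bool.and_eq_true, List.all_eq_true, decide_eq_true_eq] at h
  obtain ⟨hbs, hinc⟩ := h
  set c : ℕ → ℕ := fun i => codeN d B tx bs (nfw D.p D.n (lk Bo O i)) with hc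
  have hadj : ∀ i < D.p ^ D.n - 1, c i < c (i + 1) := by
    intro i hi
    have := allB_spec hinc i hi
    simpa [Nat.blt] using this
  have hlt := lt_of_adj c (D.p ^ D.n) hadj
  let f : Fin (D.p ^ D.n) → Subgroup.closure (X '' Set.Iio D.n) := fun e =>
    ⟨evalW X (nfw D.p D.n (lk Bo O e)), evalW_mem X D.n _ (fun l hl => mem_nfw hl)⟩
  have hf : Function.Injective f := by
    intro e e' hee
    have h1 : evalW X (nfw D.p D.n (lk Bo O e)) = evalW X (nfw D.p D.n (lk Bo O e')) :=
      congrArg Subtype.val hee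
    have h2 : c e = c e' := by
      apply codeN_congr
      intro b hb
      have h3 := app_spec B tx X D.n hX (nfw D.p D.n (lk Bo O e)) (fun l hl => mem_nfw hl)
        ⟨b, hbs b hb⟩
      have h4 := app_spec B tx X D.n hX (nfw D.p D.n (lk Bo O e')) (fun l hl => mem_nfw hl)
        ⟨b, hbs b hb⟩
      rw [← h3, ← h4, h1]
    apply Fin.ext
    rcases lt_trichotomy e.val e'.val with h5 | h5 | h5
    · exact absurd h2 (hlt _ e'.2 _ h5).ne
    · exact h5
    · exact absurd h2 (hlt _ e.2 _ h5).ne'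
  have := Nat.card_le_card_of_injective f hf
  rwa [Nat.card_fin] at this

/-- `ub_tab` with the linear-time injectivity certificate -/
theorem ub_tab3 {d : ℕ} (K : Subgroup (Equiv.Perm (Fin d))) (C : Cert) (hp : C.D.p.Prime)
    (hC : C.check = true) (B : ℕ) (tx tg : ℕ → ℕ) (bs : List ℕ) (Bo O : ℕ)
    (hx : ∀ a < C.D.n, Tabled K B (tx a)) (hg : ∀ i < C.fus.length, Tabled K B (tg i))
    (h1 : pcChk d B C.D tx = true) (h2 : fusChk d B C tx tg = true)
    (h3 : injChk3 d B C.D tx bs Bo O = true)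
    (hG : ¬ C.D.p ^ (C.D.n + 1) ∣ Nat.card K) : LocalBound K C.D.p C.k := by
  classical
  have hexX : ∀ a, ∃ π ∈ K, a < C.D.n → ∀ y : Fin d, ((π y : Fin d) : ℕ) = lk B (tx a) y := by
    intro a
    by_cases ha : a < C.D.n
    · obtain ⟨π, hπ, e⟩ := hx a ha
      exact ⟨π, hπ, fun _ => e⟩
    · exact ⟨1, K.one_mem, fun h => absurd h ha⟩
  have hexY : ∀ i, ∃ π ∈ K, i < C.fus.length →
      ∀ y : Fin d, ((π y : Fin d) : ℕ) = lk B (tg i) y := by
    intro a
    by_cases ha : a < C.fus.length
    · obtain ⟨π, hπ, e⟩ := hg a ha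
      exact ⟨π, hπ, fun _ => e⟩
    · exact ⟨1, K.one_mem, fun h => absurd h ha⟩
  choose X hXK hX using hexX
  choose Y hYK hY using hexY
  have hw : C.D.wordsOK = true := by
    simp only [Cert.check, Bool.and_eq_true] at hC
    exact hC.1.1.1.1
  simp only [PC.wordsOK, Bool.and_eq_true, List.all_eq_true, List.mem_range,
    decide_eq_true_eq] at hw
  simp only [pcChk, Bool.and_eq_true, List.all_eq_true, List.mem_range, Bool.or_eq_true,
    Bool.not_eq_true', decide_eq_false_iff_not] at h1
  simp only [fusChk, Bool.and_eq_true, List.all_eq_true, List.mem_range,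
    decide_eq_true_eq] at h2
  have hS : Sat C.D X (fun _ => 1) := by
    constructor
    · intro a ha
      have := perm_eq_of_app B tx X C.D.n hX (List.replicate C.D.p a) (C.D.pw a)
        (fun l hl => by rw [List.eq_of_mem_replicate hl]; exact ha)
        (fun l hl => (hw.1 a ha l hl).2) (h1.1 a ha)
      rw [mul_one, ← this]
      simp [evalW]
    · intro b a hba ha
      have hb : b < C.D.n := hba.trans ha
      have h4 := (h1.2 b hb a ha).resolve_left (fun h => h hba)
      have := perm_eq_of_app B tx X C.D.n hX [a, b] (b :: a :: C.D.cm b a)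
        (fun l hl => by
          simp only [List.mem_cons, List.not_mem_nil, or_false] at hl
          rcases hl with rfl | rfl
          · exact ha
          · exact hb)
        (fun l hl => by
          simp only [List.mem_cons] at hl
          rcases hl with rfl | rfl | hl
          · exact hb
          · exact ha
          · exact (hw.2 b hb a ha l hl).2) h4
      simp only [evalW, List.map_cons, List.map_nil, List.prod_cons, List.prod_nil, mul_one]
        at this ⊢
      rw [this, mul_assoc]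
  refine ub_sub K C hp hC X Y hXK hYK hS ?_ (card_ge_of_injChk3 B tx X C.D hX bs Bo O h3) hG
  intro gi i
  by_cases hgi : gi < C.fus.length
  · obtain ⟨⟨⟨⟨hl1, hl2⟩, hD⟩, hE⟩, hchk⟩ := h2 gi hgi
    by_cases hi : i < C.R
    · have hDl : ∀ l ∈ nthL (C.Dw gi) i, l < C.D.n := by
        rcases nthL_mem_or (C.Dw gi) i with h | h
        · exact hD _ h
        · rw [h]; simp
      have hEl : ∀ l ∈ nthL (C.Ew gi) i, l < C.D.n := by
        rcases nthL_mem_or (C.Ew gi) i with h | h
        · exact hE _ h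
        · rw [h]; simp
      rw [mul_inv_eq_iff_eq_mul]
      apply Equiv.ext
      intro y
      apply Fin.ext
      rw [Equiv.Perm.mul_apply, Equiv.Perm.mul_apply, hY gi hgi,
        app_spec B tx X C.D.n hX _ hDl, app_spec B tx X C.D.n hX _ hEl, hY gi hgi]
      exact Nat.eq_of_beq_eq_true (allB_spec (hchk i hi) y y.2)
    · rw [nthL_of_le _ _ (hl1.trans (not_lt.1 hi)), nthL_of_le _ _ (hl2.trans (not_lt.1 hi))]
      simp [evalW]
  · have e1 : C.Dw gi = [] := by
      unfold Cert.Dw
      rw [List.getD_eq_default _ _ (not_lt.1 hgi)]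
    have e2 : C.Ew gi = [] := by
      unfold Cert.Ew
      rw [List.getD_eq_default _ _ (not_lt.1 hgi)]
    rw [e1, e2]
    simp [evalW, nthL]

end Cfsg.Agent.Lib.Helper63PCInj
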