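import Cfsg.Agent.Lib.Helper63MSuzP5T
import Cfsg.Agent.Lib.Helper63PCInj

set_option autoImplicit false
set_option maxRecDepth 1000000
set_option maxHeartbeats 0

namespace Cfsg.Agent.Lib.Helper63MSuzP5

open Cfsg Cfsg.Agent.Lib.Helper63PCDefs Cfsg.Agent.Lib.Helper63PCTabDefs Cfsg.Agent.Lib.Helper63PCInj Cfsg.Agent.Lib.Helper63MSuzP5T Cfsg.Agent.Lib.Helper63MSuzM Cfsg.Agent.Lib.Helper62SzT

local notation "KK" => KSuz

def C : Cert where
  D := { p := 5, n := 2, pwL := [[], []], cmL := [[], [], [], []] }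
  k := 0
  f := 10
  R := 2
  fus := [([[0], [1]], [[0], [1, 1, 1, 1]]), ([[0], [1]], [[0, 0, 0, 0], [1]])]
  specs := [(1, [1, 1, 1, 1, 1], []),
    (1, [1, 0, 1, 1, 1, 1, 0, 0, 0, 0], []),
    (2, [0, 0, 0, 0, 0], [])]
  relV := [[0, 0, 0, (-3), 0, (-5), 0, 0],
    [0, (-3), 0, (-3), (-5), (-5), 0, 0],
    [(-3), 0, 0, 0, 0, 0, (-5), 0]]
  lam := [[0, 0, 0, 0, 0, 0, 0, 0],
    [0, 0, 0, 0, 0, 0, 0, 0]]
  j0 := 0
  mu := [0, 0, 0, 0]
  y1 := [[(2, 3)],
    [(0, 2), (1, 3)],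
    [],
    [(0, 3)]]
  y2 := [[(2, 3)],
    [(0, 2), (1, 3)],
    [],
    [(0, 3)]]

theorem hC : C.check = true := by decide +kernel

def tx : ℕ → ℕ
  | 0 => N5445
  | 1 => N5307
  | _ => 0

def tg : ℕ → ℕ
  | 0 => N5342
  | 1 => N5374
  | _ => 0

def OO : ℕ := 0x155a47131e4c9a917261e1835c2a58a0

theorem hx : ∀ a < C.D.n, Tabled KK 12 (tx a) := by
  intro a ha
  have ha' : a < 2 := ha
  interval_cases a
  · exact h5445
  · exact h5307

theorem hg : ∀ i < C.fus.length, Tabled KK 12 (tg i) := by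
  intro a ha
  have ha' : a < 2 := ha
  interval_cases a
  · exact h5342
  · exact h5374

theorem hpc : pcChk 1782 12 C.D tx = true := by decide +kernel

theorem hfus : fusChk 1782 12 C tx tg = true := by decide +kernel

theorem hinj : injChk3 1782 12 C.D tx [0] 5 OO = true := by decide +kernel

theorem lb : LocalBound KK 5 0 :=
  ub_tab3 KK C (by norm_num [C]) hC 12 tx tg [0] 5 OO hx hg hpc hfus hinj (by rw [cardK]; norm_num [C])

end Cfsg.Agent.Lib.Helper63MSuzP5
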