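import Cfsg.Agent.Lib.Helper63TCS
import Cfsg.Agent.Lib.Helper33Max

set_option autoImplicit false

/-! Abstract complements to `Helper63TCS`: index two extensions, a simplicity criterion, maximality of point
stabilisers from Schreier forests. -/

namespace Cfsg.Agent.Lib.Helper63TCS

open Cfsg.Agent.Lib.Helper61SchreierSims MulAction

/-- adjoining an element normalising `closure Sg`, with square in it, not in it -/
theorem card_closure_insert_two {G : Type*} [Group G] [Finite G] (Sg : Set G) (x : G)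
    (hconj : ∀ s ∈ Sg, x⁻¹ * s * x ∈ Subgroup.closure Sg) (hsq : x * x ∈ Subgroup.closure Sg)
    (hx : x ∉ Subgroup.closure Sg) :
    Nat.card (Subgroup.closure (insert x Sg)) = 2 * Nat.card (Subgroup.closure Sg) := by
  classical
  obtain ⟨K, hK⟩ : ∃ K : Subgroup G, K = Subgroup.closure Sg := ⟨_, rfl⟩
  rw [← hK] at hconj hsq hx ⊢
  let b : G ⧸ K := ((1 : G) : G ⧸ K)
  let bx : G ⧸ K := ((x : G) : G ⧸ K)
  have hne : bx ≠ b := by
    intro h
    have h1 := QuotientGroup.eq.1 h
    apply hx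
    have h2 : x⁻¹ ∈ K := by simpa using h1
    simpa using K.inv_mem h2
  let u : G ⧸ K → G := fun β => if β = b then 1 else x
  have hub : u b = 1 := if_pos rfl
  have hubx : u bx = x := if_neg hne
  have hmk : ∀ g : G, g ∈ K → ((g : G) : G ⧸ K) = b := by
    intro g hg
    apply QuotientGroup.eq.2
    simpa using K.inv_mem hg
  have hmkx : ∀ g : G, x⁻¹ * g ∈ K → ((g : G) : G ⧸ K) = bx := by
    intro g hg
    apply QuotientGroup.eq.2
    have := K.inv_mem hg
    simpa using this
  have hSgK : ∀ s ∈ Sg, s ∈ K := by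
    intro s hs
    rw [hK]
    exact Subgroup.subset_closure hs
  have hS : ∀ s ∈ insert x Sg, ∀ β ∈ ({b, bx} : Finset (G ⧸ K)), s • β ∈ ({b, bx} : Finset (G ⧸ K)) ∧
      (u (s • β))⁻¹ * s * u β ∈ K := by
    intro s hs β hβ
    rw [Finset.mem_insert, Finset.mem_singleton] at hβ
    rcases hs with rfl | hs
    · rcases hβ with rfl | rfl
      · have h1 : s • b = bx := by
          show ((s * 1 : G) : G ⧸ K) = _
          rw [mul_one]
        rw [h1, hubx, hub]
        refine ⟨by simp, ?_⟩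
        simp
      · have h1 : s • bx = b := hmk _ hsq
        rw [h1, hubx, hub]
        refine ⟨by simp, ?_⟩
        simpa using hsq
    · rcases hβ with rfl | rfl
      · have h1 : s • b = b := by
          show ((s * 1 : G) : G ⧸ K) = _
          rw [mul_one]
          exact hmk s (hSgK s hs)
        rw [h1, hub]
        refine ⟨by simp, ?_⟩
        simpa using hSgK s hs
      · have h1 : s • bx = bx := by
          apply hmkx
          have := hconj s hs
          rwa [mul_assoc] at this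
        rw [h1, hubx]
        exact ⟨by simp, hconj s hs⟩
  have hKle : K ≤ Subgroup.closure (insert x Sg) := by
    rw [hK]
    exact Subgroup.closure_mono (Set.subset_insert _ _)
  have h := level_card (insert x Sg) K b ({b, bx} : Finset (G ⧸ K)) u hKle (by simp) hub
    (by
      intro β
      show (if β = b then 1 else x) ∈ _
      split_ifs
      · exact Subgroup.one_mem _
      · exact Subgroup.subset_closure (Set.mem_insert _ _))
    hS (fun k hk => by
      show ((k * 1 : G) : G ⧸ K) = _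
      rw [mul_one]
      exact hmk k hk)
    (by
      intro β hβ
      rw [Finset.mem_insert, Finset.mem_singleton] at hβ
      rcases hβ with rfl | rfl
      · rw [hub]; exact one_smul _ _
      · rw [hubx]
        show ((x * 1 : G) : G ⧸ K) = _
        rw [mul_one])
  rw [h, Finset.card_pair (Ne.symm hne)]

/-- a simplicity criterion -/
theorem simple_of_coatom {G α : Type*} [Group G] [Finite G] [Nontrivial G] [MulAction G α] (x : α)
    (hmax : IsCoatom (stabilizer G x)) (hfaith : ∀ g : G, (∀ y ∈ orbit G x, g • y = y) → g = 1)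
    (r : ℕ) (hr1 : 1 < r) (hr : Nat.Coprime (Nat.card (stabilizer G x)) r)
    (hgen : ∀ N : Subgroup G, (∀ g : G, g ^ r = 1 → g ∈ N) → N = ⊤) : IsSimpleGroup G := by
  refine ⟨fun N hN => ?_⟩
  by_cases hle : N ≤ stabilizer G x
  · left
    rw [eq_bot_iff]
    intro g hg
    rw [Subgroup.mem_bot]
    apply hfaith
    rintro _ ⟨a, rfl⟩
    have h1 : a⁻¹ * g * a ∈ N := by
      have := hN.conj_mem g hg a⁻¹
      simpa using this
    have h2 : (a⁻¹ * g * a) • x = x := hle h1
    show g • a • x = a • x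
    calc g • a • x = a • (a⁻¹ * g * a) • x := by
          rw [← mul_smul, ← mul_smul]; congr 1; group
      _ = a • x := by rw [h2]
  · right
    have hsup : stabilizer G x ⊔ N = ⊤ := by
      apply hmax.2
      refine lt_of_le_of_ne le_sup_left ?_
      intro h
      apply hle
      rw [h]
      exact le_sup_right
    have hidx : N.index ∣ Nat.card (stabilizer G x) := by
      have h1 : N.relIndex (stabilizer G x ⊔ N) = N.relIndex (stabilizer G x) :=
        Subgroup.relIndex_sup_right _ _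
      rw [hsup, Subgroup.relIndex_top_right] at h1
      rw [h1]
      exact Subgroup.relIndex_dvd_card _ _
    have hcop : Nat.Coprime N.index r := Nat.Coprime.coprime_dvd_left hidx hr
    apply hgen
    intro g hg
    obtain ⟨k, -, hk⟩ := Nat.exists_mul_mod_eq_one_of_coprime hcop hr1
    have h1 : g ^ (N.index * k) ∈ N := by
      rw [pow_mul]
      exact N.pow_mem (Subgroup.pow_index_mem N g) k
    have h2 : g ^ (N.index * k) = g := by
      rw [← Nat.div_add_mod (N.index * k) r, hk, pow_add, pow_mul, hg, one_pow, one_mul, pow_one]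
    rwa [h2] at h1

/-- maximality of the point stabiliser from a Schreier forest for the suborbits -/
theorem isCoatom_of_forest {n : ℕ} (S : Sys n) {A A' M b : ℕ} (hb : b < n)
    (hstab : Cl S A ⊓ stabilizer (Equiv.Perm (Fin n)) (⟨b, hb⟩ : Fin n) = Cl S A')
    (horb1 : ∀ x : Fin n, M.testBit x = true → ∃ g ∈ Cl S A, g ⟨b, hb⟩ = x)
    (horb2 : ∀ g ∈ Cl S A, M.testBit (g ⟨b, hb⟩ : Fin n) = true)
    {lab dep col rep : ℕ → ℕ}
    (hf : forestOK S A' M lab dep (fun x => rep (col x)) = true)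
    (k : ℕ) (hcol : ∀ x : Fin n, col x < k) (nn : Fin k → ℕ)
    (hcount : ∀ i : Fin k,
      (Finset.univ.filter (fun y : Fin n => M.testBit y = true ∧ col y = i)).card = nn i)
    (c0 : Fin k) (hc0 : (c0 : ℕ) = col b)
    (hne : ∃ i : Fin k, i ≠ c0 ∧ nn i ≠ 0)
    (harith : ∀ I : Finset (Fin k), c0 ∈ I → (∑ i ∈ I, nn i) ∣ (∑ i, nn i) →
      (∑ i ∈ I, nn i) = 1 ∨ (∑ i ∈ I, nn i) = ∑ i, nn i) :
    IsCoatom (stabilizer (Cl S A) (⟨b, hb⟩ : Fin n)) := by
  have horb : ∀ y : Fin n, y ∈ orbit (Cl S A) (⟨b, hb⟩ : Fin n) ↔ M.testBit y = true := by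
    intro y
    constructor
    · rintro ⟨g, rfl⟩
      exact horb2 g.1 g.2
    · intro hy
      obtain ⟨g, hg, h⟩ := horb1 y hy
      exact ⟨⟨g, hg⟩, h⟩
  have hcx : (⟨col (⟨b, hb⟩ : Fin n), hcol ⟨b, hb⟩⟩ : Fin k) = c0 := Fin.ext hc0.symm
  apply Cfsg.Agent.Lib.Helper33Max.isCoatom_stabilizer (G := Cl S A) (⟨b, hb⟩ : Fin n) k
    (fun y => ⟨col y, hcol y⟩) nn
  · intro i
    rw [← hcount i, ← Set.ncard_coe_finset]
    congr 1
    ext y
    simp only [Set.mem_setOf_eq, horb, Finset.coe_filter, Finset.mem_univ, true_and, Fin.ext_iff]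
  · intro y hy y' hy' hc
    rw [horb] at hy hy'
    have hc' : col y = col y' := congrArg Fin.val hc
    obtain ⟨h1, r, hr, h2⟩ := forest_spec S hf _ y hy rfl
    obtain ⟨h1', r', hr', h2'⟩ := forest_spec S hf _ y' hy' rfl
    have hrr : r = r' := Fin.ext (by rw [hr, hr', hc'])
    obtain ⟨g, hg⟩ : ∃ g, g = uF S lab (dep y') y' * (uF S lab (dep y) y)⁻¹ := ⟨_, rfl⟩
    have hgm : g ∈ Cl S A' := by
      rw [hg]
      exact (Cl S A').mul_mem h1' ((Cl S A').inv_mem h1)
    rw [← hstab] at hgm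
    refine ⟨⟨g, hgm.1⟩, hgm.2, ?_⟩
    show g y = y'
    rw [hg, Equiv.Perm.mul_apply]
    have h3 : (uF S lab (dep y) y)⁻¹ y = r := by
      rw [Equiv.Perm.inv_eq_iff_eq]
      exact h2.symm
    rw [h3, hrr]
    exact h2'
  · rw [hcx]
    exact hne
  · rw [hcx]
    exact harith

theorem evW_replicate {n : ℕ} (S : Sys n) (X : List ℕ) (r : ℕ) :
    evW S (List.replicate r X).flatten = evW S X ^ r := by
  induction r with
  | zero => rfl
  | succ k ih =>
    rw [List.replicate_succ, List.flatten_cons, evW_append, ih, pow_succ']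

theorem ev_even {n : ℕ} (S : Sys n) (i : ℕ) : ev S (2 * i) = S.gens i := by
  unfold ev
  rw [if_pos (by omega)]
  congr 1
  omega

theorem ev_odd {n : ℕ} (S : Sys n) (i : ℕ) : ev S (2 * i + 1) = (S.gens i)⁻¹ := by
  unfold ev
  rw [if_neg (by omega)]
  congr 2
  omega

/-- the data showing that generator `i` is a product of two elements of `Cl S A` of order dividing `r` -/
structure Decomp {n : ℕ} (S : Sys n) (A r i : ℕ) : Prop where
  ex : ∃ X Y : List ℕ, (∀ l ∈ X, l / 2 < S.m ∧ A.testBit (l / 2) = true) ∧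
    (∀ l ∈ Y, l / 2 < S.m ∧ A.testBit (l / 2) = true) ∧
    evW S (List.replicate r X).flatten = 1 ∧ evW S (List.replicate r Y).flatten = 1 ∧
    evW S (X ++ Y ++ [2 * i + 1]) = 1

theorem top_of_decomp {n : ℕ} (S : Sys n) (A r : ℕ)
    (h : ∀ i < S.m, A.testBit i = true → Decomp S A r i)
    (N : Subgroup (Cl S A)) (hN : ∀ g : Cl S A, g ^ r = 1 → g ∈ N) : N = ⊤ := by
  have hgenmem : ∀ i < S.m, A.testBit i = true → S.gens i ∈ N.map (Cl S A).subtype := by
    intro i hi hA
    obtain ⟨X, Y, hX, hY, hXr, hYr, hXY⟩ := (h i hi hA).ex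
    rw [evW_replicate] at hXr hYr
    rw [evW_append, evW_append, evW_cons, evW_nil, mul_one, ev_odd, mul_inv_eq_one] at hXY
    have h1 : evW S X ∈ N.map (Cl S A).subtype :=
      ⟨⟨evW S X, evW_mem S hX⟩, hN _ (Subtype.ext hXr), rfl⟩
    have h2 : evW S Y ∈ N.map (Cl S A).subtype :=
      ⟨⟨evW S Y, evW_mem S hY⟩, hN _ (Subtype.ext hYr), rfl⟩
    rw [← hXY]
    exact Subgroup.mul_mem _ h1 h2
  have hle : Cl S A ≤ N.map (Cl S A).subtype := by
    have hcl : Subgroup.closure (gset S A) ≤ N.map (Cl S A).subtype := by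
      rw [Subgroup.closure_le]
      rintro g ⟨i, hi, hA, rfl⟩
      exact hgenmem i hi hA
    exact hcl
  rw [eq_top_iff]
  intro g _
  obtain ⟨k, hk, hkg⟩ := hle g.2
  have : k = g := Subtype.ext hkg
  rwa [← this]

/-- cardinality of the stabiliser inside a subgroup -/
theorem card_stabilizer_subgroup {G α : Type*} [Group G] [MulAction G α] (K : Subgroup G) (x : α) :
    Nat.card (stabilizer K x) = Nat.card (K ⊓ stabilizer G x : Subgroup G) := by
  rw [Cfsg.Agent.Lib.Helper33Max.stabilizer_subgroup_eq, ← Subgroup.inf_subgroupOf_left]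
  exact Nat.card_congr (Subgroup.subgroupOfEquivOfLe inf_le_left).toEquiv

theorem gset_insert {n : ℕ} (S : Sys n) (A i : ℕ) (hi : i < S.m) :
    gset S (A ||| 2 ^ i) = insert (S.gens i) (gset S A) := by
  ext g
  simp only [gset, Set.mem_setOf_eq, Set.mem_insert_iff, Nat.testBit_or, Nat.testBit_two_pow,
    Bool.or_eq_true, decide_eq_true_eq]
  constructor
  · rintro ⟨j, hj, h | h, rfl⟩
    · exact Or.inr ⟨j, hj, h, rfl⟩
    · left; rw [h]
  · rintro (rfl | ⟨j, hj, h, rfl⟩)
    · exact ⟨i, hi, Or.inr rfl, rfl⟩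
    · exact ⟨j, hj, Or.inl h, rfl⟩

theorem conj_mem_of_rel {n : ℕ} (S : Sys n) {A ix i : ℕ} {v : List ℕ}
    (hv : ∀ l ∈ v, l / 2 < S.m ∧ A.testBit (l / 2) = true)
    (h : evW S ((2 * ix + 1) :: (2 * i) :: (2 * ix) :: v) = 1) :
    (S.gens ix)⁻¹ * S.gens i * S.gens ix ∈ Cl S A := by
  rw [evW_cons, evW_cons, evW_cons, ev_odd, ev_even, ev_even] at h
  have h1 : (S.gens ix)⁻¹ * S.gens i * S.gens ix = (evW S v)⁻¹ := by
    rw [eq_inv_iff_mul_eq_one, ← h]
    group
  rw [h1]
  exact (Cl S A).inv_mem (evW_mem S hv)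

theorem sq_mem_of_rel {n : ℕ} (S : Sys n) {A ix : ℕ} {v : List ℕ}
    (hv : ∀ l ∈ v, l / 2 < S.m ∧ A.testBit (l / 2) = true)
    (h : evW S ((2 * ix) :: (2 * ix) :: v) = 1) :
    S.gens ix * S.gens ix ∈ Cl S A := by
  rw [evW_cons, evW_cons, ev_even] at h
  have h1 : S.gens ix * S.gens ix = (evW S v)⁻¹ := by
    rw [eq_inv_iff_mul_eq_one, ← h]
    group
  rw [h1]
  exact (Cl S A).inv_mem (evW_mem S hv)

end Cfsg.Agent.Lib.Helper63TCS
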