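import Cfsg.Agent.S1068
import Cfsg.Agent.Lib.Helper63TiM

namespace Cfsg.Agent.Lib.Helper63TiCard
open Cfsg.Agent.Lib.Helper63TiM

theorem cardH : Nat.card ↥HH = 35942400 := by
  have h := Cfsg.Agent.S1068.result (K := ZMod 2) (m := 0) (by simp [ZMod.card])
  simpa using h

end Cfsg.Agent.Lib.Helper63TiCard
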