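import Cfsg.Agent.Lib.Helper63TiColG0
import Cfsg.Agent.Lib.Helper63TiColG1
import Cfsg.Agent.Lib.Helper63TiColG2
import Cfsg.Agent.Lib.Helper63TiColG3
import Cfsg.Agent.Lib.Helper63TiColG4
import Cfsg.Agent.Lib.Helper63TiColG5
import Cfsg.Agent.Lib.Helper63TiColG6
import Cfsg.Agent.Lib.Helper63TiColG7
import Cfsg.Agent.Lib.Helper63TiColG8

/-! The commutator subgroup of `²F₄(2)` has even index: the orbit of 24960 vectors of the adjoint module is 2-coloured, and
each of the generators preserves or swaps the colours. -/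

set_option autoImplicit false
set_option maxRecDepth 100000

namespace Cfsg.Agent.Lib.Helper63TiColD
open Cfsg.Agent.Lib.Helper63TiDefs Cfsg.Agent.Lib.Helper63TiM Cfsg.Agent.Lib.Helper63TiColA Cfsg.Lie Cfsg

theorem z2 (t : ZMod 2) : t = 0 ∨ t = 1 := by revert t; decide

def S : Set (GL I52 (ZMod 2)) :=
  {g | ∃ w ∈ f4Words (ZMod 2) 1, (g : Matrix I52 I52 (ZMod 2)) = chevF4.wordMat (ZMod 2) w}

theorem good_all (w : List (ℕ × ZMod 2)) (hw : w ∈ f4Words (ZMod 2) 1) : Good w := by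
  rcases hw with ⟨t, h | h⟩ | ⟨t, u, h | h⟩
  · rcases z2 t with rfl | rfl
    · rw [h]; exact Helper63TiColG8.good_a
    · rw [h]; exact Helper63TiColG0.good
  · rcases z2 t with rfl | rfl
    · rw [h]; exact Helper63TiColG8.good_b
    · rw [h]; exact Helper63TiColG1.good
  · rcases z2 t with rfl | rfl <;> rcases z2 u with rfl | rfl
    · rw [h]; exact Helper63TiColG8.good_c'
    · rw [h]; exact Helper63TiColG3.good
    · rw [h]; exact Helper63TiColG2.good
    · rw [h]; exact Helper63TiColG4.good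
  · rcases z2 t with rfl | rfl <;> rcases z2 u with rfl | rfl
    · rw [h]; exact Helper63TiColG8.good_d
    · rw [h]; exact Helper63TiColG6.good
    · rw [h]; exact Helper63TiColG5.good
    · rw [h]; exact Helper63TiColG7.good

theorem exists_s0 : ∃ g : GL I52 (ZMod 2), g ∈ S ∧ RepM 52 ix (g : Matrix I52 I52 (ZMod 2)) G2 := by
  have hw : ∀ p ∈ w2, p.1 ∈ roots12 := by decide
  have hr : ∀ p ∈ w2.reverse, p.1 ∈ roots12 := fun p hp => hw p (List.mem_reverse.1 hp)
  have h1 : nrmC 52 (mulC 52 (wcode w2) (wcode w2.reverse)) = nrmC 52 (oneC 52) := by decide +kernel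
  have h2 : nrmC 52 (mulC 52 (wcode w2.reverse) (wcode w2)) = nrmC 52 (oneC 52) := by decide +kernel
  have e1 := rext (rmul (rep_word w2 hw) (rep_word _ hr)) rone h1
  have e2 := rext (rmul (rep_word _ hr) (rep_word w2 hw)) rone h2
  let g : GL I52 (ZMod 2) := ⟨chevF4.wordMat (ZMod 2) w2, chevF4.wordMat (ZMod 2) w2.reverse, e1, e2⟩
  have e : wcode w2 = G2 := by decide +kernel
  exact ⟨g, ⟨w2, Or.inr ⟨1, 0, Or.inl rfl⟩, rfl⟩, e ▸ rep_word w2 hw⟩

theorem even : 2 ∣ (commutator ↥HH).index := by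
  obtain ⟨s0, hs0, hc0⟩ := exists_s0
  exact H63TiCol.even_index 52 ix ix_inj ix_lt ix_surj 24960 W col hW (fun i _ => hWlt i) S
    (fun s hs => by obtain ⟨w, hw, e⟩ := hs; rw [e]; exact good_all w hw) s0 hs0 G2 hc0 0 128
    (by norm_num) (by norm_num) (by decide +kernel) (by decide +kernel) (by decide +kernel)

end Cfsg.Agent.Lib.Helper63TiColD
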