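import Mathlib

/-!
# Packed square matrices over `ZMod 2`

A matrix with rows and columns indexed by `ι` (numbered by `ix : ι → ℕ`, values `< n`) is coded by the
natural number whose bit `n * ix i + ix j` is the entry `(i, j)`.  All functions are written with raw
`Nat.*` operations and `Nat.rec`, for evaluation in the kernel.
-/

set_option autoImplicit false

namespace Cfsg.Agent.Lib.Helper63TiDefs

/-- bit test -/
def tb (c k : ℕ) : Bool := Nat.beq (Nat.land (Nat.shiftRight c k) 1) 1

/-- row `i` of the packed matrix `c` -/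
def row (n c i : ℕ) : ℕ := Nat.land (Nat.shiftRight c (Nat.mul n i)) (Nat.sub (Nat.pow 2 n) 1)

/-- the sum (xor) of the rows `j < k` of `b` with bit `j` of `r` set: the packed row vector `r * b` -/
def rowMul (n b r k : ℕ) : ℕ :=
  Nat.rec 0 (fun j ih => Nat.xor ih (cond (tb r j) (row n b j) 0)) k

/-- the first `k` rows of the product -/
def mulAux (n a b k : ℕ) : ℕ :=
  Nat.rec 0 (fun i ih => Nat.lor ih (Nat.shiftLeft (rowMul n b (row n a i) n) (Nat.mul n i))) k

/-- product of packed matrices -/
def mulC (n a b : ℕ) : ℕ := mulAux n a b n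

/-- the packed identity matrix -/
def oneC (n : ℕ) : ℕ := Nat.rec 0 (fun i ih => Nat.lor ih (Nat.shiftLeft 1 (Nat.add (Nat.mul n i) i))) n

/-- normal form of a code -/
def nrmC (n c : ℕ) : ℕ := Nat.mod c (Nat.pow 2 (Nat.mul n n))

variable {ι : Type}

/-- `c` is a code of the matrix `M` -/
def RepM (n : ℕ) (ix : ι → ℕ) (M : Matrix ι ι (ZMod 2)) (c : ℕ) : Prop :=
  ∀ i j, M i j = if c.testBit (n * ix i + ix j) = true then 1 else 0

/-- the vector coded by `v` -/
def decV (ix : ι → ℕ) (v : ℕ) : ι → ZMod 2 := fun i => if v.testBit (ix i) = true then 1 else 0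

end Cfsg.Agent.Lib.Helper63TiDefs
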