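import Mathlib
import Cfsg.Prelude.Def_Chevalley

/-!
# Chevalley groups over isomorphic fields (helper64)
-/

set_option autoImplicit false

namespace Cfsg.Agent.Helper64ChevMap

open Cfsg.Lie Cfsg.Lie.ChevalleyDatum

theorem xMat_map' {F K : Type*} [Field F] [Field K] (D : Cfsg.Lie.ChevalleyDatum) (f : F →+* K)
    (r : Fin D.nroots) (t : F) : (D.xMat F r t).map f = D.xMat K r (f t) := by
  ext row col
  simp only [Matrix.map_apply, xMat, Matrix.of_apply]
  rcases col with i | s
  · rcases row with i' | u
    · simp only []
      split_ifs <;> simp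
    · simp only []
      split_ifs <;> simp
  · simp only []
    split_ifs with h1 h2
    · rcases row with i' | u
      · simp
      · simp only []
        split_ifs <;> simp
    · rcases row with i' | u
      · simp
      · simp only []
        split_ifs <;> simp
    · rcases row with i' | u
      · simp
      · simp only [map_add, map_list_sum, List.map_map]
        congr 1
        · split_ifs <;> simp
        · congr 1
          apply List.map_congr_left
          intro a _
          simp

/-- the isomorphism of general linear groups induced by a field isomorphism. -/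
noncomputable def glMap' {F K : Type*} [Field F] [Field K] (D : Cfsg.Lie.ChevalleyDatum)
    (f : F ≃+* K) : GL D.Idx F ≃* GL D.Idx K :=
  Units.mapEquiv (RingEquiv.mapMatrix f (m := D.Idx)).toMulEquiv

theorem glMap'_coe {F K : Type*} [Field F] [Field K] (D : Cfsg.Lie.ChevalleyDatum) (f : F ≃+* K)
    (g : GL D.Idx F) :
    ((glMap' D f g : GL D.Idx K) : Matrix D.Idx D.Idx K) = (g : Matrix D.Idx D.Idx F).map f := rfl

theorem glMap'_symm_coe {F K : Type*} [Field F] [Field K] (D : Cfsg.Lie.ChevalleyDatum)
    (f : F ≃+* K) (g : GL D.Idx K) :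
    (((glMap' D f).symm g : GL D.Idx F) : Matrix D.Idx D.Idx F) =
      (g : Matrix D.Idx D.Idx K).map f.symm := rfl

theorem map_group {F K : Type*} [Field F] [Field K] (D : Cfsg.Lie.ChevalleyDatum) (f : F ≃+* K) :
    (D.group F).map ((glMap' D f : GL D.Idx F ≃* GL D.Idx K) : GL D.Idx F →* GL D.Idx K) =
      D.group K := by
  unfold ChevalleyDatum.group
  rw [MonoidHom.map_closure]
  congr 1
  ext g
  constructor
  · rintro ⟨g, ⟨r, t, hg⟩, rfl⟩
    refine ⟨r, f t, ?_⟩
    show ((glMap' D f g : GL D.Idx K) : Matrix D.Idx D.Idx K) = _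
    rw [glMap'_coe, hg]
    exact xMat_map' D (f : F →+* K) r t
  · rintro ⟨r, t, hg⟩
    refine ⟨(glMap' D f).symm g, ⟨r, f.symm t, ?_⟩, ?_⟩
    · rw [glMap'_symm_coe, hg]
      exact xMat_map' D (f.symm : K →+* F) r t
    · exact (glMap' D f).apply_symm_apply g

/-- Chevalley groups over isomorphic fields are isomorphic. -/
noncomputable def groupEquiv {F K : Type*} [Field F] [Field K] (D : Cfsg.Lie.ChevalleyDatum)
    (f : F ≃+* K) : D.group F ≃* D.group K :=
  ((glMap' D f).subgroupMap (D.group F)).trans (MulEquiv.subgroupCongr (map_group D f))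

end Cfsg.Agent.Helper64ChevMap
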