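import Cfsg.Agent.Lib.Helper64ConjAct

/-!
# The commutator subgroup of a permutation group with a class of involutions (helper64)
-/

set_option autoImplicit false

namespace Cfsg.Agent.Helper64CommPat

open scoped commutatorElement

/-- a subgroup normalised by `P` with cyclic quotient contains the commutator subgroup. -/
theorem comm_le_of_cyclic {S : Type*} [Group S] (N : Subgroup S) (X : Set S)
    (hconj : ∀ g ∈ Subgroup.closure X, ∀ n ∈ N, g * n * g⁻¹ ∈ N) (t : S)
    (ht : t ∈ Subgroup.closure X) (hX : ∀ x ∈ X, ∃ e : ℕ, t ^ e * x ∈ N) :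
    ⁅Subgroup.closure X, Subgroup.closure X⁆ ≤ N := by
  have htz : ∀ e : ℤ, t ^ e ∈ Subgroup.closure X := fun e => Subgroup.zpow_mem _ ht e
  have key : ∀ g ∈ Subgroup.closure X, ∃ e : ℤ, t ^ e * g ∈ N := by
    intro g hg
    induction hg using Subgroup.closure_induction with
    | mem x hx =>
      obtain ⟨e, he⟩ := hX x hx
      exact ⟨e, by rw [zpow_natCast]; exact he⟩
    | one => exact ⟨0, by simp [N.one_mem]⟩
    | mul x y _ _ hx hy =>
      obtain ⟨e, he⟩ := hx
      obtain ⟨f, hf⟩ := hy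
      refine ⟨f + e, ?_⟩
      have : t ^ (f + e) * (x * y) = (t ^ f * (t ^ e * x) * (t ^ f)⁻¹) * (t ^ f * y) := by
        rw [zpow_add]; group
      rw [this]
      exact N.mul_mem (hconj _ (htz f) _ he) hf
    | inv x _ hx =>
      obtain ⟨e, he⟩ := hx
      refine ⟨-e, ?_⟩
      have : t ^ (-e) * x⁻¹ = t ^ (-e) * (t ^ e * x)⁻¹ * (t ^ (-e))⁻¹ := by group
      rw [this]
      exact hconj _ (htz _) _ (N.inv_mem he)
  rw [Subgroup.commutator_le]
  intro g hg h hh
  obtain ⟨e, he⟩ := key g hg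
  obtain ⟨f, hf⟩ := key h hh
  have : ⁅g, h⁆ = (t ^ (-e) * (t ^ e * g) * (t ^ (-e))⁻¹) *
      ((t ^ (-e) * t ^ (-f)) * ((t ^ f * h) * (t ^ e * g)⁻¹) * (t ^ (-e) * t ^ (-f))⁻¹) *
      ((t ^ (-f)) * (t ^ f * h)⁻¹ * (t ^ (-f))⁻¹) := by
    rw [commutatorElement_def]; group
  rw [this]
  exact N.mul_mem (N.mul_mem (hconj _ (htz _) _ he)
    (hconj _ (Subgroup.mul_mem _ (htz _) (htz _)) _ (N.mul_mem hf (N.inv_mem he))))
    (hconj _ (htz _) _ (N.inv_mem hf))

variable {n : ℕ} {ι κ : Type*}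

theorem equivariant (th : ι → Equiv.Perm (Fin n)) (tau : Fin n → Equiv.Perm (Fin n))
    (hconj : ∀ k j, th k * tau j * (th k)⁻¹ = tau (th k j)) :
    ∀ g ∈ Subgroup.closure (Set.range th), ∀ j, g * tau j * g⁻¹ = tau (g j) := by
  intro g hg
  induction hg using Subgroup.closure_induction with
  | mem x hx =>
    obtain ⟨r, rfl⟩ := hx
    exact hconj r
  | one => intro j; simp
  | mul x y _ _ hx hy =>
    intro j
    rw [Equiv.Perm.mul_apply, ← hx, ← hy]
    group
  | inv x _ hx =>
    intro j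
    have h := hx (x⁻¹ j)
    rw [Cfsg.Agent.Helper64ConjAct.apply_inv'] at h
    rw [← h]
    group

/-- the commutator subgroup is generated by a few members of the class. -/
theorem comm_eq (th : ι → Equiv.Perm (Fin n)) (tau : Fin n → Equiv.Perm (Fin n))
    (idx : κ → Fin n) (a0 : κ)
    (hconj : ∀ k j, th k * tau j * (th k)⁻¹ = tau (th k j))
    (hmem : ∀ a, tau (idx a) ∈ Subgroup.closure (Set.range th))
    (hreach : ∀ j, ∃ σ ∈ Subgroup.closure (Set.range fun a => tau (idx a)), σ (idx a0) = j)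
    (t : Equiv.Perm (Fin n)) (ht : t ∈ Subgroup.closure (Set.range th))
    (hcyc : ∀ k, ∃ e : ℕ, t ^ e * th k ∈ Subgroup.closure (Set.range tau))
    (hcomm : tau (idx a0) ∈ ⁅Subgroup.closure (Set.range th), Subgroup.closure (Set.range th)⁆) :
    ⁅Subgroup.closure (Set.range th), Subgroup.closure (Set.range th)⁆ =
      Subgroup.closure (Set.range fun a => tau (idx a)) := by
  set PG := Subgroup.closure (Set.range th) with hPG
  have heq := equivariant th tau hconj
  have hQle : Subgroup.closure (Set.range fun a => tau (idx a)) ≤ PG := by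
    rw [Subgroup.closure_le]
    rintro _ ⟨a, rfl⟩
    exact hmem a
  have hcl : Subgroup.closure (Set.range fun a => tau (idx a)) =
      Subgroup.closure (Set.range tau) :=
    Cfsg.Agent.Helper64ConjAct.closure_eq_of_transitive tau idx (fun a => tau (idx a))
      (fun a j => heq _ (hmem a) j) a0 hreach
  have htm : ∀ j, tau j ∈ Subgroup.closure (Set.range tau) :=
    fun j => Subgroup.subset_closure ⟨j, rfl⟩
  have hcm : ∀ g ∈ PG, ∀ x ∈ Subgroup.closure (Set.range tau),
      g * x * g⁻¹ ∈ Subgroup.closure (Set.range tau) := by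
    intro g hg x hx
    induction hx using Subgroup.closure_induction with
    | mem x hx =>
      obtain ⟨j, rfl⟩ := hx
      rw [heq g hg]
      exact htm _
    | one => simp
    | mul x y _ _ hx hy =>
      have : g * (x * y) * g⁻¹ = (g * x * g⁻¹) * (g * y * g⁻¹) := by group
      rw [this]
      exact Subgroup.mul_mem _ hx hy
    | inv x _ hx =>
      have : g * x⁻¹ * g⁻¹ = (g * x * g⁻¹)⁻¹ := by group
      rw [this]
      exact Subgroup.inv_mem _ hx
  rw [hcl]
  apply le_antisymm
  · refine comm_le_of_cyclic _ (Set.range th) hcm t ht ?_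
    rintro _ ⟨k, rfl⟩
    exact hcyc k
  · have hle : ⁅PG, PG⁆ ≤ PG := Subgroup.commutator_le_self PG
    have hc2 : ∀ g ∈ PG, ∀ x ∈ ⁅PG, PG⁆, g * x * g⁻¹ ∈ ⁅PG, PG⁆ := by
      intro g hg x hx
      have : g * x * g⁻¹ = ⁅g, x⁆ * x := by rw [commutatorElement_def]; group
      rw [this]
      exact Subgroup.mul_mem _ (Subgroup.commutator_mem_commutator hg (hle hx)) hx
    rw [Subgroup.closure_le]
    rintro _ ⟨j, rfl⟩
    obtain ⟨σ, hσ, rfl⟩ := hreach j
    rw [SetLike.mem_coe, ← heq σ (hQle hσ)]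
    exact hc2 σ (hQle hσ) _ hcomm

theorem equiv_comm (P Q : Subgroup (Equiv.Perm (Fin n))) (h : ⁅P, P⁆ = Q) :
    Nonempty (↥(commutator P) ≃* Q) := by
  have h2 := Subgroup.map_subtype_commutator P
  rw [h] at h2
  exact ⟨((commutator P).equivMapOfInjective P.subtype (Subgroup.subtype_injective _)).trans
    (MulEquiv.subgroupCongr h2)⟩

end Cfsg.Agent.Helper64CommPat
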