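import Cfsg.Agent.Lib.Helper64ConjAct

/-!
# The conjugation action on a generating family, with the values of the isomorphism (helper64)
-/

set_option autoImplicit false

namespace Cfsg.Agent.Helper64ConjAct

variable {G : Type*} [Group G] {n : ℕ} {ι : Type*}

/-- the isomorphism of `quot_center_equiv`, with its defining property. -/
theorem quot_center_equiv_spec (s : Fin n → G) (hs : Function.Injective s) (idx : ι → Fin n)
    (π : ι → Equiv.Perm (Fin n))
    (hgen : Subgroup.closure (Set.range fun a => s (idx a)) = ⊤)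
    (hconj : ∀ a j, s (idx a) * s j * (s (idx a))⁻¹ = s (π a j)) :
    ∃ e : G ⧸ Subgroup.center G ≃* Subgroup.closure (Set.range π),
      ∀ g j, g * s j * g⁻¹ = s ((e (QuotientGroup.mk g) : Equiv.Perm (Fin n)) j) := by
  have hex := exists_perm s idx π hgen hconj
  choose Φ hΦ using hex
  have huniq : ∀ (g : G) (σ : Equiv.Perm (Fin n)), (∀ j, g * s j * g⁻¹ = s (σ j)) → Φ g = σ := by
    intro g σ hσ
    ext j
    exact congrArg Fin.val (hs ((hΦ g j).symm.trans (hσ j)))
  let Ψ : G →* Equiv.Perm (Fin n) :=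
    { toFun := Φ
      map_one' := huniq 1 1 (fun j => by simp)
      map_mul' := fun g h => huniq (g * h) (Φ g * Φ h) (fun j => by
        rw [Equiv.Perm.mul_apply, ← hΦ, ← hΦ]; group) }
  have hker : Ψ.ker = Subgroup.center G := by
    ext g
    rw [MonoidHom.mem_ker, Subgroup.mem_center_iff]
    constructor
    · intro h1 h
      have h2 : ∀ j, g * s j * g⁻¹ = s j := by
        intro j
        have := hΦ g j
        have e : Φ g = 1 := h1
        rw [e] at this
        simpa using this
      have h3 : Subgroup.closure (Set.range fun a => s (idx a)) ≤ Subgroup.centralizer {g} := by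
        rw [Subgroup.closure_le]
        rintro _ ⟨a, rfl⟩
        rw [SetLike.mem_coe, Subgroup.mem_centralizer_iff]
        intro z hz
        rw [Set.mem_singleton_iff.mp hz]
        exact mul_inv_eq_iff_eq_mul.mp (h2 (idx a))
      have h4 : h ∈ Subgroup.centralizer {g} := h3 (by rw [hgen]; trivial)
      exact (Subgroup.mem_centralizer_iff.mp h4 g rfl).symm
    · intro h1
      exact huniq g 1 (fun j => by
        rw [Equiv.Perm.one_apply, ← h1 (s j), mul_assoc, mul_inv_cancel, mul_one])
  have hrange : Ψ.range = Subgroup.closure (Set.range π) := by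
    rw [MonoidHom.range_eq_map, ← hgen, MonoidHom.map_closure]
    congr 1
    ext σ
    constructor
    · rintro ⟨_, ⟨a, rfl⟩, rfl⟩
      exact ⟨a, (huniq _ _ (hconj a)).symm⟩
    · rintro ⟨a, rfl⟩
      exact ⟨_, ⟨a, rfl⟩, huniq _ _ (hconj a)⟩
  refine ⟨((QuotientGroup.quotientMulEquivOfEq hker.symm).trans
    (QuotientGroup.quotientKerEquivRange Ψ)).trans (MulEquiv.subgroupCongr hrange), ?_⟩
  intro g j
  exact hΦ g j

/-- the value of such an isomorphism at a member of the family. -/
theorem equiv_apply_family (s : Fin n → G) (hs : Function.Injective s) (idx : ι → Fin n)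
    (π : ι → Equiv.Perm (Fin n))
    (hconj : ∀ a j, s (idx a) * s j * (s (idx a))⁻¹ = s (π a j))
    (e : G ⧸ Subgroup.center G ≃* Subgroup.closure (Set.range π))
    (he : ∀ g j, g * s j * g⁻¹ = s ((e (QuotientGroup.mk g) : Equiv.Perm (Fin n)) j))
    (a0 : ι) (τ : Subgroup.closure (Set.range π)) :
    (e (QuotientGroup.mk (s ((τ : Equiv.Perm (Fin n)) (idx a0)))) : Equiv.Perm (Fin n)) =
      τ * π a0 * (τ : Equiv.Perm (Fin n))⁻¹ := by
  obtain ⟨g, hg⟩ := QuotientGroup.mk_surjective (e.symm τ)
  have h1 : e (QuotientGroup.mk g) = τ := by rw [hg, e.apply_symm_apply]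
  have h2 : s ((τ : Equiv.Perm (Fin n)) (idx a0)) = g * s (idx a0) * g⁻¹ := by
    rw [he g, h1]
  have h3 : (e (QuotientGroup.mk (s (idx a0))) : Equiv.Perm (Fin n)) = π a0 := by
    ext j
    exact congrArg Fin.val (hs ((he _ j).symm.trans (hconj a0 j)))
  rw [h2, QuotientGroup.mk_mul, QuotientGroup.mk_mul, QuotientGroup.mk_inv, map_mul, map_mul,
    map_inv, h1]
  simp only [Subgroup.coe_mul, Subgroup.coe_inv, h3]

/-- two groups with the same data: an isomorphism of the central quotients matching the
families. -/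
theorem exists_equiv_family {G' : Type*} [Group G'] (s : Fin n → G) (hs : Function.Injective s)
    (s' : Fin n → G') (hs' : Function.Injective s') (idx : ι → Fin n)
    (π : ι → Equiv.Perm (Fin n))
    (hgen : Subgroup.closure (Set.range fun a => s (idx a)) = ⊤)
    (hconj : ∀ a j, s (idx a) * s j * (s (idx a))⁻¹ = s (π a j))
    (hgen' : Subgroup.closure (Set.range fun a => s' (idx a)) = ⊤)
    (hconj' : ∀ a j, s' (idx a) * s' j * (s' (idx a))⁻¹ = s' (π a j)) (a0 : ι)
    (htr : ∀ j, ∃ σ ∈ Subgroup.closure (Set.range π), σ (idx a0) = j) :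
    ∃ E : G ⧸ Subgroup.center G ≃* G' ⧸ Subgroup.center G',
      ∀ l, E (QuotientGroup.mk (s l)) = QuotientGroup.mk (s' l) := by
  obtain ⟨e, he⟩ := quot_center_equiv_spec s hs idx π hgen hconj
  obtain ⟨e', he'⟩ := quot_center_equiv_spec s' hs' idx π hgen' hconj'
  refine ⟨e.trans e'.symm, fun l => ?_⟩
  obtain ⟨τ, hτ, rfl⟩ := htr l
  have h1 := equiv_apply_family s hs idx π hconj e he a0 ⟨τ, hτ⟩
  have h2 := equiv_apply_family s' hs' idx π hconj' e' he' a0 ⟨τ, hτ⟩
  rw [MulEquiv.trans_apply, MulEquiv.symm_apply_eq]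
  exact Subtype.ext (h1.trans h2.symm)

/-- the same for the subgroup generated by a family in an ambient group. -/
theorem closure_exists_equiv_family {G' : Type*} [Group G'] (s : Fin n → G)
    (hs : Function.Injective s) (s' : Fin n → G') (hs' : Function.Injective s') (idx : ι → Fin n)
    (π : ι → Equiv.Perm (Fin n))
    (hconj : ∀ a j, s (idx a) * s j * (s (idx a))⁻¹ = s (π a j))
    (hgen' : Subgroup.closure (Set.range fun a => s' (idx a)) = ⊤)
    (hconj' : ∀ a j, s' (idx a) * s' j * (s' (idx a))⁻¹ = s' (π a j)) (a0 : ι)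
    (htr : ∀ j, ∃ σ ∈ Subgroup.closure (Set.range π), σ (idx a0) = j) :
    ∃ E : Subgroup.closure (Set.range s) ⧸ Subgroup.center (Subgroup.closure (Set.range s)) ≃*
        G' ⧸ Subgroup.center G',
      ∀ l, E (QuotientGroup.mk ⟨s l, Subgroup.subset_closure ⟨l, rfl⟩⟩) =
        QuotientGroup.mk (s' l) := by
  let t : Fin n → Subgroup.closure (Set.range s) := fun j => ⟨s j, Subgroup.subset_closure ⟨j, rfl⟩⟩
  have ht : Function.Injective t := fun i j h => hs (congrArg Subtype.val h)
  have hconjt : ∀ a j, t (idx a) * t j * (t (idx a))⁻¹ = t (π a j) :=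
    fun a j => Subtype.ext (hconj a j)
  have htop : Subgroup.closure (Set.range t) = ⊤ := by
    have h1 := Subgroup.closure_closure_coe_preimage (k := Set.range s)
    have h2 : ((↑) ⁻¹' Set.range s : Set (Subgroup.closure (Set.range s))) = Set.range t := by
      ext x
      constructor
      · rintro ⟨j, hj⟩
        exact ⟨j, Subtype.ext hj⟩
      · rintro ⟨j, rfl⟩
        exact ⟨j, rfl⟩
    rw [h2] at h1
    exact h1
  have hgen : Subgroup.closure (Set.range fun a => t (idx a)) = ⊤ := by
    rw [closure_eq_of_transitive t idx π hconjt a0 htr, htop]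
  exact exists_equiv_family t ht s' hs' idx π hgen hconjt hgen' hconj' a0 htr

end Cfsg.Agent.Helper64ConjAct
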