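import Mathlib

/-!
# Orbits of a subgroup on its cosets from a coset table (helper64)
-/

set_option autoImplicit false

namespace Cfsg.Agent.Helper64CosetOrb

variable {G : Type*} [Group G]

/-- a finite set which is mapped into itself by generators is invariant. -/
theorem smul_mem_of_closure {X : Type*} [MulAction G X] (S : Set G) (C : Set X) (hC : C.Finite)
    (h : ∀ s ∈ S, ∀ c ∈ C, s • c ∈ C) : ∀ g ∈ Subgroup.closure S, ∀ c ∈ C, g • c ∈ C := by
  intro g hg
  induction hg using Subgroup.closure_induction with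
  | mem s hs => exact h s hs
  | one => intro c hc; rwa [one_smul]
  | mul x y _ _ hx hy => intro c hc; rw [mul_smul]; exact hx _ (hy _ hc)
  | inv x _ hx =>
    intro c hc
    have hmaps : Set.MapsTo (fun c => x • c) C C := hx
    have hinj : Set.InjOn (fun c => x • c) C := fun a _ b _ hab => MulAction.injective x hab
    have hbij := (hC.injOn_iff_bijOn_of_mapsTo hmaps).mp hinj
    obtain ⟨c', hc', e⟩ := hbij.surjOn hc
    have e' : x • c' = c := e
    rw [← e', inv_smul_smul]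
    exact hc'

theorem smul_mk_eq (H : Subgroup G) {s a b k : G} (hk : k ∈ H) (e : s * a = b * k) :
    s • (QuotientGroup.mk a : G ⧸ H) = QuotientGroup.mk b := by
  show (QuotientGroup.mk (s * a) : G ⧸ H) = QuotientGroup.mk b
  rw [e]
  exact QuotientGroup.mk_mul_of_mem b hk

/-- a coset table with the right number of rows lists every coset once. -/
theorem coset_bij (H : Subgroup G) (n : ℕ) (u : Fin n → G) (S : Set G)
    (hS : Subgroup.closure S = ⊤) (hidx : H.index = n) (i0 : Fin n) (h0 : u i0 ∈ H)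
    (hcl : ∀ s ∈ S, ∀ i, ∃ j, ∃ k ∈ H, s * u i = u j * k) :
    Function.Bijective (fun i => (QuotientGroup.mk (u i) : G ⧸ H)) := by
  set φ : Fin n → G ⧸ H := fun i => QuotientGroup.mk (u i) with hφ
  have hsurj : Function.Surjective φ := by
    intro c
    obtain ⟨g, rfl⟩ := QuotientGroup.mk_surjective c
    have h1 := smul_mem_of_closure S (Set.range φ) (Set.finite_range φ) (by
      rintro s hs _ ⟨i, rfl⟩
      obtain ⟨j, k, hk, e⟩ := hcl s hs i
      exact ⟨j, (smul_mk_eq H hk e).symm⟩) g (by rw [hS]; trivial) (φ i0) ⟨i0, rfl⟩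
    obtain ⟨j, hj⟩ := h1
    refine ⟨j, ?_⟩
    rw [hj]
    exact smul_mk_eq H h0 rfl
  have hcard : Nat.card (G ⧸ H) = n := hidx
  exact hsurj.bijective_of_nat_card_le (by rw [hcard, Nat.card_fin])

/-- the orbit of the subgroup on a coset. -/
theorem orbit_eq (H : Subgroup G) (n : ℕ) (u : Fin n → G) (T : Set G)
    (hT : Subgroup.closure T = H) (O : Set (Fin n)) (i1 : Fin n) (h1 : i1 ∈ O)
    (hcl : ∀ t ∈ T, ∀ i ∈ O, ∃ j ∈ O, ∃ k ∈ H, t * u i = u j * k)
    (hreach : ∀ j ∈ O, ∃ h ∈ H, ∃ k ∈ H, h * u i1 = u j * k) :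
    MulAction.orbit H (QuotientGroup.mk (u i1) : G ⧸ H) =
      (fun i => (QuotientGroup.mk (u i) : G ⧸ H)) '' O := by
  ext c
  constructor
  · rintro ⟨h, rfl⟩
    have h2 := smul_mem_of_closure T ((fun i => (QuotientGroup.mk (u i) : G ⧸ H)) '' O)
      (O.toFinite.image _) (by
        rintro t ht _ ⟨i, hi, rfl⟩
        obtain ⟨j, hj, k, hk, e⟩ := hcl t ht i hi
        exact ⟨j, hj, (smul_mk_eq H hk e).symm⟩) h.1 (by rw [hT]; exact h.2)
      (QuotientGroup.mk (u i1)) ⟨i1, h1, rfl⟩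
    exact h2
  · rintro ⟨j, hj, rfl⟩
    obtain ⟨h, hh, k, hk, e⟩ := hreach j hj
    exact ⟨⟨h, hh⟩, smul_mk_eq H hk e⟩

theorem orbit_ncard (H : Subgroup G) (n : ℕ) (u : Fin n → G) (T : Set G)
    (hT : Subgroup.closure T = H)
    (hinj : Function.Injective (fun i => (QuotientGroup.mk (u i) : G ⧸ H)))
    (O : Set (Fin n)) (i1 : Fin n) (h1 : i1 ∈ O)
    (hcl : ∀ t ∈ T, ∀ i ∈ O, ∃ j ∈ O, ∃ k ∈ H, t * u i = u j * k)
    (hreach : ∀ j ∈ O, ∃ h ∈ H, ∃ k ∈ H, h * u i1 = u j * k) :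
    (MulAction.orbit H (QuotientGroup.mk (u i1) : G ⧸ H)).ncard = O.ncard := by
  rw [orbit_eq H n u T hT O i1 h1 hcl hreach, Set.ncard_image_of_injective _ hinj]

/-! ### transport along an isomorphism -/

variable {G' : Type*} [Group G']

/-- the map of coset spaces. -/
def qmap (e : G ≃* G') (H : Subgroup G) : G ⧸ H → G' ⧸ H.map (e : G →* G') :=
  Quotient.map' (s₁ := QuotientGroup.leftRel H) (s₂ := QuotientGroup.leftRel (H.map (e : G →* G')))
    (fun x => e x) (by
      intro a b hab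
      rw [QuotientGroup.leftRel_apply] at hab ⊢
      exact ⟨a⁻¹ * b, hab, by simp⟩)

theorem qmap_mk (e : G ≃* G') (H : Subgroup G) (x : G) :
    qmap e H (QuotientGroup.mk x) = QuotientGroup.mk (e x) := rfl

theorem qmap_injective (e : G ≃* G') (H : Subgroup G) : Function.Injective (qmap e H) := by
  intro a b
  obtain ⟨x, rfl⟩ := QuotientGroup.mk_surjective a
  obtain ⟨y, rfl⟩ := QuotientGroup.mk_surjective b
  rw [qmap_mk, qmap_mk, QuotientGroup.eq, QuotientGroup.eq]
  rintro ⟨h, hh, e1⟩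
  have e2 : e h = e (x⁻¹ * y) := by rw [map_mul, map_inv]; exact e1
  rw [← e.injective e2]
  exact hh

theorem orbit_map (e : G ≃* G') (H : Subgroup G) (g : G) :
    MulAction.orbit (H.map (e : G →* G')) (QuotientGroup.mk (e g) : G' ⧸ H.map (e : G →* G')) =
      qmap e H '' MulAction.orbit H (QuotientGroup.mk g : G ⧸ H) := by
  ext c
  constructor
  · rintro ⟨⟨_, h, hh, rfl⟩, rfl⟩
    refine ⟨QuotientGroup.mk (h * g), ⟨⟨h, hh⟩, rfl⟩, ?_⟩
    rw [qmap_mk, map_mul]
    rfl
  · rintro ⟨_, ⟨h, rfl⟩, rfl⟩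
    refine ⟨⟨e h.1, h.1, h.2, rfl⟩, ?_⟩
    show (QuotientGroup.mk (e h.1 * e g) : G' ⧸ H.map (e : G →* G')) =
      qmap e H (QuotientGroup.mk (h.1 * g))
    rw [qmap_mk, map_mul]

theorem orbit_ncard_map (e : G ≃* G') (H : Subgroup G) (g : G) :
    (MulAction.orbit (H.map (e : G →* G'))
      (QuotientGroup.mk (e g) : G' ⧸ H.map (e : G →* G'))).ncard =
      (MulAction.orbit H (QuotientGroup.mk g : G ⧸ H)).ncard := by
  rw [orbit_map, Set.ncard_image_of_injective _ (qmap_injective e H)]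

end Cfsg.Agent.Helper64CosetOrb
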