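import Cfsg.Agent.Lib.Helper64J2U33
import Cfsg.Agent.Lib.Helper64J2P315

/-!
# The 63 involutions of `SU(3,3)` (helper64)
-/

set_option autoImplicit false

namespace Cfsg.Agent.Helper64J2

open Cfsg.Agent.Lib.Helper62F9 Cfsg.Agent.Lib.Helper62SU3

/-- entry `k` of a coded matrix. -/
def ent9 (c k : ℕ) : F9 :=
  ⟨(((c >>> (4 * k)) &&& 3 : ℕ) : ZMod 3), (((c >>> (4 * k + 2)) &&& 3 : ℕ) : ZMod 3)⟩

/-- the matrix of the involution `j`. -/
def suM (j : ℕ) : M3 := Matrix.of fun r c => ent9 (jSU >>> (36 * j)) (3 * r.val + c.val)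

set_option maxRecDepth 100000 in
theorem suM_det (j : Fin 63) : (suM j.val).det = 1 := by
  rw [Matrix.det_fin_three]
  revert j
  decide +kernel

set_option maxRecDepth 100000 in
theorem suM_unitary : ∀ j : Fin 63, (suM j.val).transpose * cube (suM j.val) = 1 := by
  decide +kernel

set_option maxRecDepth 100000 in
theorem suM_inj : ∀ i j : Fin 63, suM i.val = suM j.val → i = j := by
  decide +kernel

set_option maxRecDepth 100000 in
theorem suM_conj : ∀ a : Fin 4, ∀ j : Fin 63,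
    suM (gidx63 a).val * suM j.val = suM (pi63 a j).val * suM (gidx63 a).val := by
  decide +kernel

/-- the involutions of `SU(3,3)`. -/
def t63 (j : Fin 63) : Cfsg.SU 3 F9 3 := mkSU (suM j.val) (suM_det j) (suM_unitary j)

theorem t63_injective : Function.Injective t63 := by
  intro i j h
  exact suM_inj i j (congrArg (fun z : Cfsg.SU 3 F9 3 => z.1.1) h)

theorem t63_conj (a : Fin 4) (j : Fin 63) :
    t63 (gidx63 a) * t63 j * (t63 (gidx63 a))⁻¹ = t63 (pi63 a j) := by
  rw [mul_inv_eq_iff_eq_mul]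
  apply Subtype.ext
  apply Subtype.ext
  exact suM_conj a j

theorem card_SU33 : Nat.card (Cfsg.SU 3 F9 3) = 6048 := by
  have hF : Fintype.card F9 = 3 ^ 2 := by rw [card_F9]; norm_num
  have h1 := Cfsg.Agent.Lib.Helper7SU.card_SU_mul (F := F9) (q := 3) (n := 3) hF (by norm_num)
  rw [Cfsg.Agent.Lib.Helper7GU.card_GU hF 3] at h1
  have h2 : 3 ^ (3 * (3 - 1) / 2) *
      ∏ i ∈ Finset.range 3, (if Even i then 3 ^ (i + 1) + 1 else 3 ^ (i + 1) - 1) = 24192 := by
    decide
  rw [h2] at h1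
  omega

theorem card_P63 : Nat.card P63 = 6048 := by
  obtain ⟨e⟩ := equiv_M0_P63 (F := Cfsg.Agent.Lib.Helper62F4.F4) Cfsg.Agent.Lib.Helper62F4.w
  rw [← Nat.card_congr e.toEquiv]
  exact (mtab (F := Cfsg.Agent.Lib.Helper62F4.F4) Cfsg.Agent.Lib.Helper62F4.w).card

theorem closure_t63 : Subgroup.closure (Set.range t63) = ⊤ := by
  have hfin : Finite (Cfsg.SU 3 F9 3) := Nat.finite_of_card_ne_zero (by rw [card_SU33]; norm_num)
  obtain ⟨e⟩ := Cfsg.Agent.Helper64ConjAct.closure_quot_center_equiv t63 t63_injective gidx63 pi63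
    t63_conj 0 (fun j => P63_reach j)
  have h1 : Nat.card (Subgroup.closure (Set.range t63) ⧸
      Subgroup.center (Subgroup.closure (Set.range t63))) = 6048 := by
    rw [Nat.card_congr e.toEquiv]; exact card_P63
  have h2 := Subgroup.card_eq_card_quotient_mul_card_subgroup
    (Subgroup.center (Subgroup.closure (Set.range t63)))
  rw [h1] at h2
  have h3 : 0 < Nat.card (Subgroup.center (Subgroup.closure (Set.range t63))) := Nat.card_pos
  apply Subgroup.eq_top_of_le_card
  rw [card_SU33, h2]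
  nlinarith

theorem equiv_PSU_P63 : Nonempty (Cfsg.PSU 3 F9 3 ≃* P63) := by
  have hgen : Subgroup.closure (Set.range fun a => t63 (gidx63 a)) = ⊤ := by
    rw [Cfsg.Agent.Helper64ConjAct.closure_eq_of_transitive t63 gidx63 pi63 t63_conj 0
      (fun j => P63_reach j), closure_t63]
  exact Cfsg.Agent.Helper64ConjAct.quot_center_equiv t63 t63_injective gidx63 pi63 hgen t63_conj

theorem equiv_M0_PSU {F : Type*} [Field F] (ω : F) [Cfsg.Agent.Helper64J3.Om F ω] :
    Nonempty (M0 ω ≃* Cfsg.PSU 3 F9 3) := by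
  obtain ⟨e⟩ := equiv_M0_P63 ω
  obtain ⟨f⟩ := equiv_PSU_P63
  exact ⟨e.trans f.symm⟩

end Cfsg.Agent.Helper64J2
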