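import Cfsg.Agent.Lib.Helper64G22Perm
import Cfsg.Agent.Lib.Helper64J2U33b
import Cfsg.Agent.Lib.Helper64ActPerm
import Cfsg.Agent.Lib.Helper64ChevMap
import Cfsg.Agent.Lib.Helper22ChevBasic
import Cfsg.Agent.Lib.Helper18GamI

/-!
# The commutator subgroup of `G₂(2)` is `PSU(3,3)` (helper64)

`G₂(2)` acts faithfully on the 63 long root vectors of its adjoint module.
-/

set_option autoImplicit false

namespace Cfsg.Agent.Helper64G22

open Cfsg.Lie Cfsg.Agent.Helper64J2 Cfsg.Agent.Lib.Helper22ChevBasic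

abbrev K2 := ZMod 2
abbrev I14 := chevG2.Idx

/-- the vector with code `c`. -/
def vecOf (c : ℕ) : I14 → K2 := fun i =>
  match i with
  | Sum.inl a => (((c >>> a.val) &&& 1 : ℕ) : K2)
  | Sum.inr b => (((c >>> (b.val + 2)) &&& 1 : ℕ) : K2)

/-- the long root vector `j`. -/
def vv (j : ℕ) : I14 → K2 := vecOf (gV >>> (14 * j))

set_option maxRecDepth 100000 in
theorem act_check : ∀ r : Fin 12, ∀ j : Fin 63,
    Matrix.mulVec (chevG2.xMat K2 r 1) (vv j.val) = vv (tb6 (thT r.val) j.val) := by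
  decide +kernel

set_option maxRecDepth 100000 in
theorem vv_inj : ∀ i j : Fin 63, vv i.val = vv j.val → i = j := by decide +kernel

/-- a basis of long root vectors. -/
def Bm : Matrix I14 (Fin 14) K2 := Matrix.of fun l k => vv (tb6 gBas k.val) l
def Bi : Matrix (Fin 14) I14 K2 := Matrix.of fun k l => vecOf (gBi >>> (14 * k.val)) l

set_option maxRecDepth 100000 in
theorem Bm_mul : Bm * Bi = 1 := by decide +kernel

theorem bas_lt : ∀ k : Fin 14, tb6 gBas k.val < 63 := by decide +kernel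

theorem hG2 : Std chevG2 := by simp

/-- the root elements. -/
noncomputable def XX (r : Fin 12) : GL I14 K2 := xG hG2 r.val 1

theorem group_K2 : chevG2.group K2 = Subgroup.closure (Set.range XX) := by
  rw [group_eq hG2]
  apply le_antisymm
  · rw [Subgroup.closure_le]
    rintro _ ⟨r, t, hr, rfl⟩
    have ht : ∀ t : K2, t = 0 ∨ t = 1 := by decide
    rcases ht t with rfl | rfl
    · rw [xG_zero]; exact Subgroup.one_mem _
    · exact Subgroup.subset_closure ⟨⟨r, hr⟩, rfl⟩
  · rw [Subgroup.closure_le]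
    rintro _ ⟨r, rfl⟩
    exact Subgroup.subset_closure ⟨r.val, 1, r.isLt, rfl⟩

theorem XX_act (r : Fin 12) (j : Fin 63) :
    Matrix.mulVec (XX r : Matrix I14 I14 K2) (vv j.val) = vv (th r j).val := by
  have h : (XX r : Matrix I14 I14 K2) = chevG2.xMat K2 r 1 := by
    show chevG2.x K2 r.val 1 = _
    unfold ChevalleyDatum.x
    have hr : r.val < chevG2.nroots := r.isLt
    rw [dif_pos hr]
    rfl
  rw [h]
  exact act_check r j

theorem faithful (x : GL I14 K2)
    (hx : ∀ j : Fin 63, Matrix.mulVec (x : Matrix I14 I14 K2) (vv j.val) = vv j.val) : x = 1 := by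
  have h : (x : Matrix I14 I14 K2) * Bm = Bm := by
    ext l k
    exact congrFun (hx ⟨tb6 gBas k.val, bas_lt k⟩) l
  apply Units.ext
  calc (x : Matrix I14 I14 K2) = (x : Matrix I14 I14 K2) * (Bm * Bi) := by rw [Bm_mul, mul_one]
    _ = Bm * Bi := by rw [← Matrix.mul_assoc, h]
    _ = 1 := Bm_mul

theorem equiv_group_PG : Nonempty (chevG2.group K2 ≃* PG) := by
  rw [group_K2]
  exact Cfsg.Agent.Helper64ActPerm.closure_equiv
    (fun (g : GL I14 K2) w => Matrix.mulVec (g : Matrix I14 I14 K2) w)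
    (fun w => by simp) (fun a b w => by simp [Matrix.mulVec_mulVec])
    (fun j : Fin 63 => vv j.val) (fun i j h => vv_inj i j h) XX th XX_act faithful

theorem equiv_comm_K2 :
    Nonempty (↥(commutator ↥(chevG2.group K2)) ≃* Cfsg.PSU 3 Cfsg.Agent.Lib.Helper62F9.F9 3) := by
  obtain ⟨e⟩ := equiv_group_PG
  obtain ⟨f⟩ := equiv_comm_PG
  obtain ⟨g⟩ := equiv_PSU_P63
  exact ⟨((Cfsg.Agent.Lib.Helper18GamI.commEquiv e).trans f).trans g.symm⟩

/-- the general statement. -/
theorem equiv_comm {F K : Type*} [Field F] [Fintype F] [Field K] [Fintype K]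
    (hF : Fintype.card F = 2) (hK : Fintype.card K = 9) :
    Nonempty (↥(commutator ↥(chevG2.group F)) ≃* Cfsg.PSU 3 K 3) := by
  have : Fact (Nat.Prime 3) := ⟨by norm_num⟩
  have : CharP K 3 := charP_of_card_eq_prime_pow (p := 3) (f := 2) (by rw [hK]; norm_num)
  let e : Cfsg.Agent.Lib.Helper62F9.F9 ≃+* K :=
    FiniteField.ringEquivOfCardEq (Cfsg.Agent.Lib.Helper62F9.card_F9.trans hK.symm)
  let f : F ≃+* K2 := FiniteField.ringEquivOfCardEq (hF.trans (ZMod.card 2).symm)
  obtain ⟨g⟩ := equiv_comm_K2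
  exact ⟨((Cfsg.Agent.Lib.Helper18GamI.commEquiv
    (Cfsg.Agent.Helper64ChevMap.groupEquiv chevG2 f)).trans g).trans
    (Cfsg.Agent.Lib.Helper62SU3.psuEquiv e)⟩

end Cfsg.Agent.Helper64G22
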