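import Cfsg.Agent.Lib.Helper64J2Perm
import Cfsg.Agent.Lib.Helper64J2TabV
import Cfsg.Agent.Lib.Helper64ConjAct
import Cfsg.Agent.Lib.Helper62SU3
import Cfsg.Agent.Lib.Helper7SU

/-!
# The subgroup of index 100 of the matrix model of `J₂` is `PSU(3,3)` (helper64)

Both groups are generated by 63 involutions which they permute in the same way.
-/

set_option autoImplicit false

namespace Cfsg.Agent.Helper64J2

open Cfsg.Spor
open Cfsg.Agent.Helper64J3

/-! ### the permutation group of degree 63 -/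

/-- entry `i` of a packed table of 6-bit entries. -/
def tb6 (T i : ℕ) : ℕ := (T >>> (6 * i)) &&& 63

def PT : Fin 4 → ℕ := ![jPi0, jPi1, jPi2, jPi3]

set_option maxRecDepth 100000 in
theorem PT_ok : ∀ k : Fin 4, ∀ i : Fin 63, tb6 (PT k) i < 63 ∧ tb6 (PT k) (tb6 (PT k) i) = i := by
  decide +kernel

/-- the four generating involutions. -/
def pi63 (k : Fin 4) : Equiv.Perm (Fin 63) where
  toFun i := ⟨tb6 (PT k) i, (PT_ok k i).1⟩
  invFun i := ⟨tb6 (PT k) i, (PT_ok k i).1⟩
  left_inv i := Fin.ext (PT_ok k i).2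
  right_inv i := Fin.ext (PT_ok k i).2

theorem pi63_apply (k : Fin 4) (i : Fin 63) : ((pi63 k i : Fin 63) : ℕ) = tb6 (PT k) i := rfl

def P63 : Subgroup (Equiv.Perm (Fin 63)) := Subgroup.closure (Set.range pi63)

def selP (k : ℕ) : ℕ :=
  if Nat.beq k 0 then jPi0 else if Nat.beq k 1 then jPi1 else if Nat.beq k 2 then jPi2 else jPi3

def srP (r : ℕ) : ℕ := Nat.mod r 64
def srK (r : ℕ) : ℕ := Nat.mod (Nat.shiftRight r 6) 4
def srD (r : ℕ) : ℕ := Nat.shiftRight r 9

noncomputable def srOK (j : ℕ) : Bool :=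
  if Nat.beq (srD (jSR j)) 0 then Nat.beq j 8
  else Nat.blt (srP (jSR j)) 63 && Nat.beq (Nat.add (srD (jSR (srP (jSR j)))) 1) (srD (jSR j)) &&
    Nat.beq (tb6 (selP (srK (jSR j))) (srP (jSR j))) j

set_option maxRecDepth 100000 in
theorem srcheck : allB 63 srOK = true := by decide +kernel

theorem selP_eq (k : ℕ) (hk : k < 4) : selP k = PT ⟨k, hk⟩ := by
  interval_cases k <;> rfl

/-- `P63` is transitive. -/
theorem P63_reach (j : Fin 63) : ∃ σ ∈ P63, σ (8 : Fin 63) = j := by
  have key : ∀ d : ℕ, ∀ j : ℕ, ∀ hj : j < 63, srD (jSR j) = d →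
      ∃ σ ∈ P63, σ (8 : Fin 63) = ⟨j, hj⟩ := by
    intro d
    induction d with
    | zero =>
      intro j hj hd
      have h := (allB_iff _ _).mp srcheck j hj
      simp only [srOK, hd] at h
      have h2 : j = 8 := by simpa using h
      subst h2
      exact ⟨1, P63.one_mem, rfl⟩
    | succ d ih =>
      intro j hj hd
      have h := (allB_iff _ _).mp srcheck j hj
      simp only [srOK, hd] at h
      have hne : Nat.beq (d + 1) 0 = false := rfl
      rw [hne] at h
      simp only [Bool.false_eq_true, if_false, Bool.and_eq_true, Nat.blt_eq, Nat.beq_eq] at h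
      obtain ⟨⟨hp, hdp⟩, hj'⟩ := h
      have hdp' : srD (jSR (srP (jSR j))) = d := by
        have : srD (jSR (srP (jSR j))) + 1 = d + 1 := hdp
        omega
      obtain ⟨σ, hσ, hσ'⟩ := ih _ hp hdp'
      have hk : srK (jSR j) < 4 := Nat.mod_lt _ (by norm_num)
      refine ⟨pi63 ⟨_, hk⟩ * σ, P63.mul_mem (Subgroup.subset_closure ⟨_, rfl⟩) hσ, ?_⟩
      rw [Equiv.Perm.mul_apply, hσ']
      apply Fin.ext
      rw [pi63_apply, ← selP_eq]
      exact hj'
  exact key _ j.val j.isLt rfl

/-- the points of the four generators. -/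
def gidx63 : Fin 4 → Fin 63 := ![8, 51, 28, 14]

/-! ### the 63 involutions of the subgroup of index 100 -/

/-- the code of the involution `j`. -/
noncomputable def sC (j : ℕ) : ℕ := jMT (jSI j)

set_option maxRecDepth 100000 in
theorem sicheck : allB 63 (fun j => Nat.blt (jSI j) 6048) = true := by decide +kernel

noncomputable def cj63OK (a T j : ℕ) : Bool :=
  Nat.beq (mulC (mulC (sC a) (sC j)) (sC a)) (sC (tb6 T j))

set_option maxRecDepth 100000 in
theorem cjs0 : allB 63 (cj63OK 8 jPi0) = true := by decide +kernel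
set_option maxRecDepth 100000 in
theorem cjs1 : allB 63 (cj63OK 51 jPi1) = true := by decide +kernel
set_option maxRecDepth 100000 in
theorem cjs2 : allB 63 (cj63OK 28 jPi2) = true := by decide +kernel
set_option maxRecDepth 100000 in
theorem cjs3 : allB 63 (cj63OK 14 jPi3) = true := by decide +kernel

noncomputable def dist63OK (i : ℕ) : Bool := allB i fun j => neC (sC i) (sC j)

set_option maxRecDepth 100000 in
theorem dist63check : allB 63 dist63OK = true := by decide +kernel

/-- no element other than the identity commutes with both generators. -/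
noncomputable def zOK (i : ℕ) : Bool :=
  Nat.beq i 54 || neC (mulC (jMT i) cA) (mulC cA (jMT i)) ||
    neC (mulC (jMT i) cM2) (mulC cM2 (jMT i))

set_option maxRecDepth 100000 in
theorem zcheck : allB 6048 zOK = true := by decide +kernel

section
variable {F : Type*} [Field F] (ω : F) [Om F ω]

theorem s63Ex (j : Fin 63) : ∃ g : M0 ω, Rep ω g.1 (sC j.val) := by
  have h := (allB_iff _ _).mp sicheck j.val j.isLt
  simp only [Nat.blt_eq] at h
  obtain ⟨g, hg, hg'⟩ := (mtab ω).mem _ h
  exact ⟨⟨g, hg⟩, hg'⟩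

/-- the 63 involutions. -/
noncomputable def s63 (j : Fin 63) : M0 ω := (s63Ex ω j).choose

theorem rep_s63 (j : Fin 63) : Rep ω (s63 ω j).1 (sC j.val) := (s63Ex ω j).choose_spec

theorem s63_injective : Function.Injective (s63 ω) := by
  have key : ∀ i j : Fin 63, j.val < i.val → s63 ω i ≠ s63 ω j := by
    intro i j hji h
    have h1 := (allB_iff _ _).mp dist63check i.val i.isLt
    have h2 := (allB_iff _ _).mp h1 j.val hji
    exact (rep_s63 ω i).ne (rep_s63 ω j) h2 (congrArg Subtype.val h)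
  intro i j h
  by_contra hne
  rcases lt_or_gt_of_ne (fun h' => hne (Fin.ext h')) with h1 | h1
  · exact key j i h1 h.symm
  · exact key i j h1 h

theorem s63_conj_aux (a : Fin 63) (T : ℕ) (hinv : mulC (sC a.val) (sC a.val) = cOne)
    (h : allB 63 (cj63OK a.val T) = true) (j j' : Fin 63) (hj' : j'.val = tb6 T j.val) :
    s63 ω a * s63 ω j * (s63 ω a)⁻¹ = s63 ω j' := by
  apply Subtype.ext
  have h1 := (allB_iff _ _).mp h j.val j.isLt
  simp only [cj63OK, Nat.beq_eq] at h1
  have r1 : Rep ω (s63 ω a * s63 ω j * (s63 ω a)⁻¹).1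
      (mulC (mulC (sC a.val) (sC j.val)) (sC a.val)) :=
    ((rep_s63 ω a).mul (rep_s63 ω j)).mul ((rep_s63 ω a).inv hinv)
  rw [h1, ← hj'] at r1
  exact r1.ext (rep_s63 ω j')

theorem s63_conj (a : Fin 4) (j : Fin 63) :
    s63 ω (gidx63 a) * s63 ω j * (s63 ω (gidx63 a))⁻¹ = s63 ω (pi63 a j) := by
  fin_cases a
  · exact s63_conj_aux ω 8 jPi0 (by decide +kernel) cjs0 j _ (pi63_apply 0 j)
  · exact s63_conj_aux ω 51 jPi1 (by decide +kernel) cjs1 j _ (pi63_apply 1 j)
  · exact s63_conj_aux ω 28 jPi2 (by decide +kernel) cjs2 j _ (pi63_apply 2 j)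
  · exact s63_conj_aux ω 14 jPi3 (by decide +kernel) cjs3 j _ (pi63_apply 3 j)

/-- the generators as elements of the subgroup. -/
def aM : M0 ω := ⟨gA ω, Subgroup.subset_closure (by simp)⟩
def mM : M0 ω := ⟨gM2 ω, Subgroup.subset_closure (by simp)⟩

theorem closure_aM : Subgroup.closure ({aM ω, mM ω} : Set (M0 ω)) = ⊤ :=
  closure_pair_top' (gA ω) (gM2 ω)

theorem closure_s63 : Subgroup.closure (Set.range (s63 ω)) = ⊤ := by
  rw [eq_top_iff, ← closure_aM ω, Subgroup.closure_le]
  have hm : ∀ j, s63 ω j ∈ Subgroup.closure (Set.range (s63 ω)) :=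
    fun j => Subgroup.subset_closure ⟨j, rfl⟩
  rintro z (rfl | rfl)
  · have : aM ω = s63 ω 7 * s63 ω 36 * s63 ω 59 := by
      apply Subtype.ext
      exact (rep_gA ω).ext ((((rep_s63 ω 7).mul (rep_s63 ω 36)).mul (rep_s63 ω 59)).cast
        (by decide +kernel))
    rw [this]
    exact Subgroup.mul_mem _ (Subgroup.mul_mem _ (hm _) (hm _)) (hm _)
  · have : mM ω = s63 ω 0 * s63 ω 4 * s63 ω 20 * s63 ω 26 := by
      apply Subtype.ext
      exact (rep_gM2 ω).ext (((((rep_s63 ω 0).mul (rep_s63 ω 4)).mul (rep_s63 ω 20)).mul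
        (rep_s63 ω 26)).cast (by decide +kernel))
    rw [this]
    exact Subgroup.mul_mem _ (Subgroup.mul_mem _ (Subgroup.mul_mem _ (hm _) (hm _)) (hm _)) (hm _)

theorem closure_gens63 : Subgroup.closure (Set.range fun a => s63 ω (gidx63 a)) = ⊤ := by
  rw [Cfsg.Agent.Helper64ConjAct.closure_eq_of_transitive (s63 ω) gidx63 pi63 (s63_conj ω) 0
    (fun j => P63_reach j), closure_s63]

theorem center_M0 : Subgroup.center (M0 ω) = ⊥ := by
  rw [eq_bot_iff]
  intro z hz
  rw [Subgroup.mem_center_iff] at hz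
  obtain ⟨i, hi, hr⟩ := (mtab ω).of_mem z.1 z.2
  have h := (allB_iff _ _).mp zcheck i hi
  simp only [zOK, Bool.or_eq_true, Nat.beq_eq] at h
  rcases h with (h | h) | h
  · subst h
    rw [Subgroup.mem_bot]
    apply Subtype.ext
    exact hr.ext (Rep.one.cast (by decide +kernel))
  · exfalso
    exact (hr.mul (rep_gA ω)).ne ((rep_gA ω).mul hr) h (congrArg Subtype.val (hz (aM ω))).symm
  · exfalso
    exact (hr.mul (rep_gM2 ω)).ne ((rep_gM2 ω).mul hr) h (congrArg Subtype.val (hz (mM ω))).symm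

theorem equiv_M0_P63 : Nonempty (M0 ω ≃* P63) := by
  obtain ⟨e⟩ := Cfsg.Agent.Helper64ConjAct.quot_center_equiv (s63 ω) (s63_injective ω) gidx63 pi63
    (closure_gens63 ω) (s63_conj ω)
  have e1 : M0 ω ⧸ Subgroup.center (M0 ω) ≃* M0 ω ⧸ (⊥ : Subgroup (M0 ω)) :=
    QuotientGroup.quotientMulEquivOfEq (center_M0 ω)
  exact ⟨(QuotientGroup.quotientBot.symm.trans e1.symm).trans e⟩

end

end Cfsg.Agent.Helper64J2
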