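import Cfsg.Agent.Lib.Helper64G22Tab
import Cfsg.Agent.Lib.Helper64J2U33

/-!
# `G₂(2)` as a permutation group of degree 63 and its commutator subgroup (helper64)
-/

set_option autoImplicit false

namespace Cfsg.Agent.Helper64G22

open Cfsg.Agent.Helper64J2
open scoped commutatorElement

def thT (r : ℕ) : ℕ := gTh >>> (378 * r)
def tauT (j : ℕ) : ℕ := gTau >>> (378 * j)

set_option maxRecDepth 100000 in
theorem th_ok : ∀ r : Fin 12, ∀ i : Fin 63,
    tb6 (thT r) i < 63 ∧ tb6 (thT r) (tb6 (thT r) i) = i := by decide +kernel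

set_option maxRecDepth 100000 in
theorem tau_ok : ∀ j : Fin 63, ∀ i : Fin 63,
    tb6 (tauT j) i < 63 ∧ tb6 (tauT j) (tb6 (tauT j) i) = i := by decide +kernel

/-- the action of the root elements. -/
def th (r : Fin 12) : Equiv.Perm (Fin 63) where
  toFun i := ⟨tb6 (thT r) i, (th_ok r i).1⟩
  invFun i := ⟨tb6 (thT r) i, (th_ok r i).1⟩
  left_inv i := Fin.ext (th_ok r i).2
  right_inv i := Fin.ext (th_ok r i).2

/-- the action of the 63 long root elements. -/
def tau (j : Fin 63) : Equiv.Perm (Fin 63) where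
  toFun i := ⟨tb6 (tauT j) i, (tau_ok j i).1⟩
  invFun i := ⟨tb6 (tauT j) i, (tau_ok j i).1⟩
  left_inv i := Fin.ext (tau_ok j i).2
  right_inv i := Fin.ext (tau_ok j i).2

theorem th_apply (r : Fin 12) (i : Fin 63) : ((th r i : Fin 63) : ℕ) = tb6 (thT r) i := rfl
theorem tau_apply (j i : Fin 63) : ((tau j i : Fin 63) : ℕ) = tb6 (tauT j) i := rfl

/-- `G₂(2)` on 63 points. -/
def PG : Subgroup (Equiv.Perm (Fin 63)) := Subgroup.closure (Set.range th)

theorem th_mem (r : Fin 12) : th r ∈ PG := Subgroup.subset_closure ⟨r, rfl⟩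

set_option maxRecDepth 100000 in
theorem conj_check : ∀ r : Fin 12, ∀ j i : Fin 63,
    tb6 (thT r) (tb6 (tauT j) i) = tb6 (tauT (tb6 (thT r) j)) (tb6 (thT r) i) := by decide +kernel

theorem th_conj (r : Fin 12) (j : Fin 63) : th r * tau j * (th r)⁻¹ = tau (th r j) := by
  rw [mul_inv_eq_iff_eq_mul]
  ext i
  exact conj_check r j i

theorem equivariant : ∀ g ∈ PG, ∀ j, g * tau j * g⁻¹ = tau (g j) := by
  intro g hg
  induction hg using Subgroup.closure_induction with
  | mem x hx =>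
    obtain ⟨r, rfl⟩ := hx
    exact th_conj r
  | one => intro j; simp
  | mul x y _ _ hx hy =>
    intro j
    rw [Equiv.Perm.mul_apply, ← hx, ← hy]
    group
  | inv x _ hx =>
    intro j
    have h := hx (x⁻¹ j)
    rw [Cfsg.Agent.Helper64ConjAct.apply_inv'] at h
    rw [← h]
    group

set_option maxRecDepth 100000 in
theorem pi63_eq : ∀ a : Fin 4, pi63 a = tau (gidx63 a) := by decide +kernel

set_option maxRecDepth 100000 in
theorem th_long : th 0 = tau 46 ∧ th 1 = tau 55 ∧ th 5 = tau 40 ∧ th 6 = tau 12 ∧ th 10 = tau 44 ∧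
    th 11 = tau 8 := by decide +kernel

set_option maxRecDepth 100000 in
theorem th_short : th 2 * th 2 = 1 ∧ th 2 * th 3 = tau 6 * tau 28 * tau 56 ∧
    th 2 * th 4 = tau 11 * tau 12 * tau 28 ∧ th 2 * th 7 = tau 0 * tau 14 ∧
    th 2 * th 8 = tau 1 * tau 34 ∧ th 2 * th 9 = tau 10 * tau 12 * tau 16 * tau 40 := by
  decide +kernel

set_option maxRecDepth 100000 in
theorem tau8_comm : ⁅th 10, th 6⁆ = tau 8 := by decide +kernel

set_option maxRecDepth 100000 in
theorem words : (th 7 * th 1 * th 0) 8 = 51 ∧ (th 11 * th 1 * th 0) 8 = 28 ∧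
    (th 6 * th 7 * th 2) 8 = 14 := by decide +kernel

theorem tau8_mem : tau 8 ∈ PG := by rw [← th_long.2.2.2.2.2]; exact th_mem _

theorem tau_mem_of {g : Equiv.Perm (Fin 63)} (hg : g ∈ PG) {j : Fin 63} (h : g 8 = j) :
    tau j ∈ PG := by
  rw [← h, ← equivariant g hg]
  exact PG.mul_mem (PG.mul_mem hg tau8_mem) (PG.inv_mem hg)

theorem pi63_mem (a : Fin 4) : pi63 a ∈ PG := by
  rw [pi63_eq]
  fin_cases a
  · exact tau8_mem
  · exact tau_mem_of (PG.mul_mem (PG.mul_mem (th_mem 7) (th_mem 1)) (th_mem 0)) words.1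
  · exact tau_mem_of (PG.mul_mem (PG.mul_mem (th_mem 11) (th_mem 1)) (th_mem 0)) words.2.1
  · exact tau_mem_of (PG.mul_mem (PG.mul_mem (th_mem 6) (th_mem 7)) (th_mem 2)) words.2.2

theorem P63_le : P63 ≤ PG := by
  unfold P63
  rw [Subgroup.closure_le]
  rintro _ ⟨a, rfl⟩
  exact pi63_mem a

theorem closure_tau : Subgroup.closure (Set.range tau) = P63 := by
  have hconj : ∀ a j, tau (gidx63 a) * tau j * (tau (gidx63 a))⁻¹ = tau (pi63 a j) := by
    intro a j
    have h := equivariant (pi63 a) (pi63_mem a) j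
    rw [pi63_eq a] at h
    rw [h, pi63_eq a]
  have h := Cfsg.Agent.Helper64ConjAct.closure_eq_of_transitive tau gidx63 pi63 hconj 0
    (fun j => P63_reach j)
  rw [← h]
  unfold P63
  congr 2
  funext a
  exact (pi63_eq a).symm

theorem tau_mem (j : Fin 63) : tau j ∈ P63 := by
  rw [← closure_tau]; exact Subgroup.subset_closure ⟨j, rfl⟩

theorem conj_mem {g n : Equiv.Perm (Fin 63)} (hg : g ∈ PG) (hn : n ∈ P63) :
    g * n * g⁻¹ ∈ P63 := by
  rw [← closure_tau] at hn
  induction hn using Subgroup.closure_induction with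
  | mem x hx =>
    obtain ⟨j, rfl⟩ := hx
    rw [equivariant g hg]
    exact tau_mem _
  | one => simp
  | mul x y _ _ hx hy =>
    have : g * (x * y) * g⁻¹ = (g * x * g⁻¹) * (g * y * g⁻¹) := by group
    rw [this]
    exact P63.mul_mem hx hy
  | inv x _ hx =>
    have : g * x⁻¹ * g⁻¹ = (g * x * g⁻¹)⁻¹ := by group
    rw [this]
    exact P63.inv_mem hx

theorem t_inv : (th 2)⁻¹ = th 2 := inv_eq_of_mul_eq_one_left th_short.1

/-- the index is at most two. -/
theorem dichotomy : ∀ g ∈ PG, g ∈ P63 ∨ th 2 * g ∈ P63 := by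
  have ht := th_mem 2
  intro g hg
  induction hg using Subgroup.closure_induction with
  | mem x hx =>
    obtain ⟨r, rfl⟩ := hx
    obtain ⟨l0, l1, l5, l6, l10, l11⟩ := th_long
    obtain ⟨s2, s3, s4, s7, s8, s9⟩ := th_short
    fin_cases r
    · left; show th 0 ∈ P63; rw [l0]; exact tau_mem _
    · left; show th 1 ∈ P63; rw [l1]; exact tau_mem _
    · right; show th 2 * th 2 ∈ P63; rw [s2]; exact P63.one_mem
    · right; show th 2 * th 3 ∈ P63; rw [s3]
      exact P63.mul_mem (P63.mul_mem (tau_mem _) (tau_mem _)) (tau_mem _)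
    · right; show th 2 * th 4 ∈ P63; rw [s4]
      exact P63.mul_mem (P63.mul_mem (tau_mem _) (tau_mem _)) (tau_mem _)
    · left; show th 5 ∈ P63; rw [l5]; exact tau_mem _
    · left; show th 6 ∈ P63; rw [l6]; exact tau_mem _
    · right; show th 2 * th 7 ∈ P63; rw [s7]
      exact P63.mul_mem (tau_mem _) (tau_mem _)
    · right; show th 2 * th 8 ∈ P63; rw [s8]
      exact P63.mul_mem (tau_mem _) (tau_mem _)
    · right; show th 2 * th 9 ∈ P63; rw [s9]
      exact P63.mul_mem (P63.mul_mem (P63.mul_mem (tau_mem _) (tau_mem _)) (tau_mem _)) (tau_mem _)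
    · left; show th 10 ∈ P63; rw [l10]; exact tau_mem _
    · left; show th 11 ∈ P63; rw [l11]; exact tau_mem _
  | one => exact Or.inl P63.one_mem
  | mul x y _ _ hx hy =>
    rcases hx with hx | hx <;> rcases hy with hy | hy
    · exact Or.inl (P63.mul_mem hx hy)
    · right
      have : th 2 * (x * y) = (th 2 * x * (th 2)⁻¹) * (th 2 * y) := by group
      rw [this]
      exact P63.mul_mem (conj_mem ht hx) hy
    · right
      rw [← mul_assoc]
      exact P63.mul_mem hx hy
    · left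
      have : x * y = (th 2 * (th 2 * x) * (th 2)⁻¹) * (th 2 * y) := by
        rw [t_inv]
        have h2 := th_short.1
        calc x * y = (th 2 * th 2) * x * ((th 2 * th 2) * y) := by rw [h2]; simp
          _ = _ := by group
      rw [this]
      exact P63.mul_mem (conj_mem ht hx) hy
  | inv x _ hx =>
    rcases hx with hx | hx
    · exact Or.inl (P63.inv_mem hx)
    · right
      have : th 2 * x⁻¹ = th 2 * (th 2 * x)⁻¹ * (th 2)⁻¹ := by
        rw [t_inv]
        have h2 := th_short.1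
        calc th 2 * x⁻¹ = th 2 * x⁻¹ * (th 2 * th 2) := by rw [h2]; simp
          _ = th 2 * (x⁻¹ * (th 2)⁻¹) * th 2 := by rw [t_inv]; group
          _ = _ := by rw [mul_inv_rev]
      rw [this]
      exact conj_mem ht (P63.inv_mem hx)

theorem comm_le : ⁅PG, PG⁆ ≤ P63 := by
  rw [Subgroup.commutator_le]
  intro g hg h hh
  have ht := th_mem 2
  rw [commutatorElement_def]
  rcases dichotomy g hg with h1 | h1
  · have : g * h * g⁻¹ * h⁻¹ = g * (h * g⁻¹ * h⁻¹) := by group
    rw [this]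
    exact P63.mul_mem h1 (conj_mem hh (P63.inv_mem h1))
  · rcases dichotomy h hh with h2 | h2
    · exact P63.mul_mem (conj_mem hg h2) (P63.inv_mem h2)
    · -- both outside
      set a := th 2 * g with ha
      set b := th 2 * h with hb
      have hg' : g = th 2 * a := by
        rw [ha, ← mul_assoc, th_short.1, one_mul]
      have hh' : h = th 2 * b := by
        rw [hb, ← mul_assoc, th_short.1, one_mul]
      have ht2 : th 2 * th 2 ∈ PG := PG.mul_mem ht ht
      have : g * h * g⁻¹ * h⁻¹ = (th 2 * a * (th 2)⁻¹) *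
          ((th 2 * th 2) * (b * a⁻¹) * (th 2 * th 2)⁻¹) * (th 2 * b⁻¹ * (th 2)⁻¹) := by
        rw [hg', hh']; group
      rw [this]
      exact P63.mul_mem (P63.mul_mem (conj_mem ht h1)
        (conj_mem ht2 (P63.mul_mem h2 (P63.inv_mem h1)))) (conj_mem ht (P63.inv_mem h2))

theorem le_comm : P63 ≤ ⁅PG, PG⁆ := by
  have hle : ⁅PG, PG⁆ ≤ PG := Subgroup.commutator_le_self PG
  have hconj : ∀ g ∈ PG, ∀ x ∈ ⁅PG, PG⁆, g * x * g⁻¹ ∈ ⁅PG, PG⁆ := by
    intro g hg x hx
    have : g * x * g⁻¹ = ⁅g, x⁆ * x := by rw [commutatorElement_def]; group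
    rw [this]
    exact Subgroup.mul_mem _ (Subgroup.commutator_mem_commutator hg (hle hx)) hx
  have h8 : tau 8 ∈ ⁅PG, PG⁆ := by
    rw [← tau8_comm]
    exact Subgroup.commutator_mem_commutator (th_mem 10) (th_mem 6)
  rw [← closure_tau, Subgroup.closure_le]
  rintro _ ⟨j, rfl⟩
  obtain ⟨σ, hσ, rfl⟩ := P63_reach j
  rw [SetLike.mem_coe, ← equivariant σ (P63_le hσ)]
  exact hconj σ (P63_le hσ) _ h8

theorem comm_PG : ⁅PG, PG⁆ = P63 := le_antisymm comm_le le_comm

theorem equiv_comm_PG : Nonempty (↥(commutator PG) ≃* P63) := by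
  have h := Subgroup.map_subtype_commutator PG
  rw [comm_PG] at h
  exact ⟨((commutator PG).equivMapOfInjective PG.subtype (Subgroup.subtype_injective _)).trans
    (MulEquiv.subgroupCongr h)⟩

end Cfsg.Agent.Helper64G22
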