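import Cfsg.Agent.Lib.Helper64J2Simple
import Cfsg.Agent.Lib.Helper64J2TabM
import Cfsg.Prelude.Def_Sporadic

/-!
# The matrix model of `J₂` as a permutation group of degree 100 (helper64)
-/

set_option autoImplicit false

namespace Cfsg.Agent.Helper64J2

open Cfsg.Spor
open Cfsg.Agent.Helper64J3

def cM2 : ℕ := 0x100002000040088905202058444a161a8844809
def wM2 : List Bool := [true, true, true, true, false, true, false]

set_option maxRecDepth 100000 in
theorem mcheck : allB 6048 (gtOK cA cM2 jMT jMX 6048) = true := by decide +kernel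

/-- a simple group with a subgroup of index `n > 1` is a transitive group of degree `n`. -/
theorem exists_perm_rep' {G : Type*} [Group G] [IsSimpleGroup G] (M : Subgroup G) (n : ℕ)
    (hn : M.index = n) (h1 : 1 < n) :
    ∃ H : Subgroup (Equiv.Perm (Fin n)), Nonempty (G ≃* H) ∧ MulAction.IsPretransitive H (Fin n) := by
  have hcard : Nat.card (G ⧸ M) = n := by rw [← hn]; rfl
  have hfin : Finite (G ⧸ M) := Nat.finite_of_card_ne_zero (by omega)
  let e : (G ⧸ M) ≃ Fin n := Finite.equivFinOfCardEq hcard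
  let f : G →* Equiv.Perm (G ⧸ M) := MulAction.toPermHom G (G ⧸ M)
  let f' : G →* Equiv.Perm (Fin n) := (e.permCongrHom).toMonoidHom.comp f
  have hf' : ∀ (g : G) (i : Fin n), f' g i = e (g • e.symm i) := fun g i => rfl
  have hinj : Function.Injective f' := by
    rw [← MonoidHom.ker_eq_bot_iff]
    rcases (f'.normal_ker).eq_bot_or_eq_top with h | h
    · exact h
    · exfalso
      have hnt : Nontrivial (G ⧸ M) := by
        rw [← Finite.one_lt_card_iff_nontrivial, hcard]; exact h1
      obtain ⟨a, b, hab⟩ := exists_pair_ne (G ⧸ M)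
      obtain ⟨g, hg⟩ := MulAction.exists_smul_eq G a b
      have hg1 : f' g = 1 := by
        have : g ∈ f'.ker := by rw [h]; exact Subgroup.mem_top g
        exact this
      have h2 := hf' g (e a)
      rw [hg1, e.symm_apply_apply, hg] at h2
      exact hab (e.injective h2)
  refine ⟨f'.range, ⟨MonoidHom.ofInjective hinj⟩, ⟨fun i j => ?_⟩⟩
  obtain ⟨g, hg⟩ := MulAction.exists_smul_eq G (e.symm i) (e.symm j)
  refine ⟨⟨f' g, g, rfl⟩, ?_⟩
  show f' g i = j
  rw [hf', hg, e.apply_symm_apply]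

section
variable {F : Type*} [Field F] (ω : F) [Om F ω]

def gM2 : GL F9 F := evW (gX ω) (gY ω) wM2
theorem rep_gM2 : Rep ω (gM2 ω) cM2 :=
  (rep_evW (rep_gX ω) (rep_gY ω) wM2).cast (by decide +kernel)
theorem gM2_mem : gM2 ω ∈ GG ω := evW_mem _ _ _

/-- a subgroup of order 6048. -/
def M0 : Subgroup (GL F9 F) := Subgroup.closure {gA ω, gM2 ω}

theorem mtab : GTab ω (M0 ω) jMT 6048 :=
  gtab_of_check (fun _ => cAt_lt _ _) (rep_gA ω) (rep_gM2 ω) (i0 := 54) (by norm_num)
    (by decide +kernel) mcheck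

theorem M0_le_GG : M0 ω ≤ GG ω := by
  unfold M0
  rw [Subgroup.closure_le]
  rintro z (rfl | rfl)
  · exact gA_mem ω
  · exact gM2_mem ω

variable [Finite F]

theorem exists_index_100 : ∃ M : Subgroup (HH ω), M.index = 100 := by
  let M' : Subgroup (HH ω) := (M0 ω).subgroupOf (GG ω)
  have hcard : Nat.card M' = 6048 := by
    rw [Nat.card_congr (Subgroup.subgroupOfEquivOfLe (M0_le_GG ω)).toEquiv, (mtab ω).card]
  refine ⟨M', ?_⟩
  have h := M'.card_mul_index
  rw [hcard, card_GG] at h
  omega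

include ω in
theorem exists_perm_J2 : ∃ H : Subgroup (Equiv.Perm (Fin 100)), Cfsg.IsJ2 H := by
  have hs := simple_HH ω
  obtain ⟨M, hM⟩ := exists_index_100 ω
  obtain ⟨H, ⟨e⟩, _⟩ := exists_perm_rep' M 100 hM (by norm_num)
  have hcard : Nat.card H = 604800 := by
    rw [← Nat.card_congr e.toEquiv]; exact card_GG ω
  exact ⟨H, ⟨e.symm.isSimpleGroup_congr.mpr hs, hcard⟩⟩

end

end Cfsg.Agent.Helper64J2
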