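import Cfsg.Agent.Lib.Helper64J2U33b
import Cfsg.Agent.Lib.Helper64CosetOrb

/-!
# The action of the matrix model of `J₂` on the 100 cosets of `PSU(3,3)` (helper64)
-/

set_option autoImplicit false

namespace Cfsg.Agent.Helper64J2

open Cfsg.Spor
open Cfsg.Agent.Helper64J3

def f4 (r : ℕ) : ℕ := Nat.shiftRight r 48

/-- the orbit of the coset `i`. -/
def cls (i : ℕ) : ℕ := if Nat.beq i 0 then 0 else if Nat.blt i 37 then 1 else 2

noncomputable def cuOK (i : ℕ) : Bool :=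
  Nat.blt (f1 (jCP i)) 525 && Nat.blt (f2 (jCP i)) 1152 &&
  Nat.beq (jCU i) (mulC (jUT (f1 (jCP i))) (jKT (f2 (jCP i))))

noncomputable def stOK (s j k i : ℕ) : Bool :=
  Nat.blt j 100 && Nat.blt k 6048 && Nat.beq (mulC s (jCU i)) (mulC (jCU j) (jMT k))

noncomputable def cxOK (i : ℕ) : Bool :=
  stOK cX (f1 (jCX i)) (f2 (jCX i)) i && stOK cY (fP (jCX i)) (f4 (jCX i)) i

noncomputable def caOK (i : ℕ) : Bool :=
  stOK cA (f1 (jCA i)) (f2 (jCA i)) i && stOK cM2 (fP (jCA i)) (f4 (jCA i)) i &&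
  Nat.beq (cls (f1 (jCA i))) (cls i) && Nat.beq (cls (fP (jCA i))) (cls i)

def ctP (r : ℕ) : ℕ := Nat.mod r 128
def ctE (r : ℕ) : ℕ := Nat.mod (Nat.shiftRight r 7) 2
def ctD (r : ℕ) : ℕ := Nat.shiftRight r 8

/-- the first coset of an orbit. -/
def rootC (c : ℕ) : ℕ := if Nat.beq c 0 then 0 else if Nat.beq c 1 then 1 else 37

noncomputable def ctOK (i : ℕ) : Bool :=
  if Nat.beq (ctD (jCT i)) 0 then Nat.beq i (rootC (cls i))
  else Nat.blt (ctP (jCT i)) 100 && Nat.beq (Nat.add (ctD (jCT (ctP (jCT i)))) 1) (ctD (jCT i)) &&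
    Nat.beq (if Nat.beq (ctE (jCT i)) 1 then fP (jCA (ctP (jCT i))) else f1 (jCA (ctP (jCT i)))) i

set_option maxRecDepth 100000 in
theorem cucheck : allB 100 cuOK = true := by decide +kernel
set_option maxRecDepth 100000 in
theorem cxcheck : allB 100 cxOK = true := by decide +kernel
set_option maxRecDepth 100000 in
theorem cacheck : allB 100 caOK = true := by decide +kernel
set_option maxRecDepth 100000 in
theorem ctcheck : allB 100 ctOK = true := by decide +kernel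

section
variable {F : Type*} [Field F] (ω : F) [Om F ω] [Finite F]

theorem uEx (j : Fin 100) : ∃ g : HH ω, Rep ω g.1 (jCU j.val) := by
  have h := (allB_iff _ _).mp cucheck j.val j.isLt
  simp only [cuOK, Bool.and_eq_true, Nat.blt_eq, Nat.beq_eq] at h
  obtain ⟨⟨h1, h2⟩, h3⟩ := h
  obtain ⟨g, hg, hg'⟩ := UK_mem ω _ _ h1 h2
  refine ⟨⟨g, hg⟩, ?_⟩
  show (g : Matrix F9 F9 F) = _
  rw [hg', h3, toMat_mulC]

/-- the coset representatives. -/
noncomputable def uC (j : Fin 100) : HH ω := (uEx ω j).choose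

theorem rep_uC (j : Fin 100) : Rep ω (uC ω j).1 (jCU j.val) := (uEx ω j).choose_spec

/-- the subgroup of index 100. -/
def H100 : Subgroup (HH ω) := (M0 ω).subgroupOf (GG ω)

omit [Finite F] in
theorem card_H100 : Nat.card (H100 ω) = 6048 := by
  unfold H100
  rw [Nat.card_congr (Subgroup.subgroupOfEquivOfLe (M0_le_GG ω)).toEquiv, (mtab ω).card]

theorem index_H100 : (H100 ω).index = 100 := by
  have h := (H100 ω).card_mul_index
  rw [card_H100, card_GG] at h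
  omega

def mH : HH ω := ⟨gM2 ω, gM2_mem ω⟩

omit [Finite F] in
theorem closure_H100 : Subgroup.closure ({a' ω, mH ω} : Set (HH ω)) = H100 ω := by
  have h1 : (Subgroup.closure ({a' ω, mH ω} : Set (HH ω))).map (GG ω).subtype = M0 ω := by
    rw [MonoidHom.map_closure]
    unfold M0
    congr 1
    rw [Set.image_pair]
    rfl
  unfold H100 Subgroup.subgroupOf
  rw [← h1, Subgroup.comap_map_eq_self_of_injective (Subgroup.subtype_injective _)]

theorem step_of_stOK {s : HH ω} {c : ℕ} (hs : Rep ω s.1 c) (i : Fin 100) (j k : ℕ)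
    (h : stOK c j k i.val = true) :
    ∃ hj : j < 100, ∃ κ ∈ H100 ω, s * uC ω i = uC ω ⟨j, hj⟩ * κ := by
  simp only [stOK, Bool.and_eq_true, Nat.blt_eq, Nat.beq_eq] at h
  obtain ⟨⟨hj, hk⟩, he⟩ := h
  obtain ⟨g, hg, hr⟩ := (mtab ω).mem k hk
  refine ⟨hj, ⟨g, M0_le_GG ω hg⟩, Subgroup.mem_subgroupOf.mpr hg, ?_⟩
  apply Subtype.ext
  exact ((hs.mul (rep_uC ω i)).cast he).ext ((rep_uC ω ⟨j, hj⟩).mul hr)

theorem uC_zero_mem : uC ω 0 ∈ H100 ω := by
  have : uC ω 0 = 1 := by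
    apply Subtype.ext
    exact (rep_uC ω 0).ext (Rep.one.cast (by decide +kernel))
  rw [this]
  exact Subgroup.one_mem _

theorem uC_bij : Function.Bijective (fun i => (QuotientGroup.mk (uC ω i) : HH ω ⧸ H100 ω)) := by
  refine Cfsg.Agent.Helper64CosetOrb.coset_bij (H100 ω) 100 (uC ω) {x' ω, y' ω} (closure_xy ω)
    (index_H100 ω) 0 (uC_zero_mem ω) ?_
  intro s hs i
  have h := (allB_iff _ _).mp cxcheck i.val i.isLt
  simp only [cxOK, Bool.and_eq_true] at h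
  rcases hs with rfl | rfl
  · obtain ⟨hj, κ, hκ, e⟩ := step_of_stOK ω (s := x' ω) (rep_gX ω) i _ _ h.1
    exact ⟨_, κ, hκ, e⟩
  · obtain ⟨hj, κ, hκ, e⟩ := step_of_stOK ω (s := y' ω) (rep_gY ω) i _ _ h.2
    exact ⟨_, κ, hκ, e⟩

/-- the cosets of an orbit. -/
def OC (c : ℕ) : Set (Fin 100) := {i | cls i.val = c}

theorem OC_closed (c : ℕ) : ∀ t ∈ ({a' ω, mH ω} : Set (HH ω)), ∀ i ∈ OC c, ∃ j ∈ OC c,
    ∃ k ∈ H100 ω, t * uC ω i = uC ω j * k := by
  intro t ht i hi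
  have h := (allB_iff _ _).mp cacheck i.val i.isLt
  simp only [caOK, Bool.and_eq_true, Nat.beq_eq] at h
  obtain ⟨⟨⟨h1, h2⟩, h3⟩, h4⟩ := h
  rcases ht with rfl | rfl
  · obtain ⟨hj, κ, hκ, e⟩ := step_of_stOK ω (s := a' ω) (rep_gA ω) i _ _ h1
    exact ⟨⟨_, hj⟩, h3.trans hi, κ, hκ, e⟩
  · obtain ⟨hj, κ, hκ, e⟩ := step_of_stOK ω (s := mH ω) (rep_gM2 ω) i _ _ h2
    exact ⟨⟨_, hj⟩, h4.trans hi, κ, hκ, e⟩

theorem rootC_lt (c : ℕ) : rootC c < 100 := by
  unfold rootC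
  split_ifs <;> norm_num

theorem OC_reach : ∀ d : ℕ, ∀ j : Fin 100, ctD (jCT j.val) = d →
    ∃ h ∈ H100 ω, ∃ k ∈ H100 ω, h * uC ω ⟨rootC (cls j.val), rootC_lt _⟩ = uC ω j * k := by
  intro d
  induction d with
  | zero =>
    intro j hd
    have h := (allB_iff _ _).mp ctcheck j.val j.isLt
    simp only [ctOK, hd] at h
    have h2 : j.val = rootC (cls j.val) := by simpa using h
    have h3 : (⟨rootC (cls j.val), rootC_lt _⟩ : Fin 100) = j := Fin.ext h2.symm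
    rw [h3]
    exact ⟨1, Subgroup.one_mem _, 1, Subgroup.one_mem _, by rw [one_mul, mul_one]⟩
  | succ d ih =>
    intro j hd
    have h := (allB_iff _ _).mp ctcheck j.val j.isLt
    simp only [ctOK, hd] at h
    have hne : Nat.beq (d + 1) 0 = false := rfl
    rw [hne] at h
    simp only [Bool.false_eq_true, if_false, Bool.and_eq_true, Nat.blt_eq, Nat.beq_eq] at h
    obtain ⟨⟨hp, hdp⟩, hj'⟩ := h
    have hdp' : ctD (jCT (ctP (jCT j.val))) = d := by
      have : ctD (jCT (ctP (jCT j.val))) + 1 = d + 1 := hdp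
      omega
    obtain ⟨h0, hh0, k0, hk0, e0⟩ := ih ⟨_, hp⟩ hdp'
    have hc := (allB_iff _ _).mp cacheck _ hp
    simp only [caOK, Bool.and_eq_true, Nat.beq_eq] at hc
    obtain ⟨⟨⟨h1, h2⟩, h3⟩, h4⟩ := hc
    have hamem : a' ω ∈ H100 ω := by
      rw [← closure_H100]; exact Subgroup.subset_closure (by simp)
    have hmmem : mH ω ∈ H100 ω := by
      rw [← closure_H100]; exact Subgroup.subset_closure (by simp)
    by_cases he : ctE (jCT j.val) = 1
    · rw [if_pos he] at hj'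
      obtain ⟨hj, κ, hκ, e⟩ := step_of_stOK ω (s := mH ω) (rep_gM2 ω) ⟨_, hp⟩ _ _ h2
      have hjj : (⟨_, hj⟩ : Fin 100) = j := Fin.ext hj'
      rw [hjj] at e
      have hcl : cls (ctP (jCT j.val)) = cls j.val := by rw [← h4, hj']
      simp only [hcl] at e0
      refine ⟨mH ω * h0, Subgroup.mul_mem _ hmmem hh0, κ * k0, Subgroup.mul_mem _ hκ hk0, ?_⟩
      rw [mul_assoc, e0, ← mul_assoc, e, mul_assoc]
    · rw [if_neg he] at hj'
      obtain ⟨hj, κ, hκ, e⟩ := step_of_stOK ω (s := a' ω) (rep_gA ω) ⟨_, hp⟩ _ _ h1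
      have hjj : (⟨_, hj⟩ : Fin 100) = j := Fin.ext hj'
      rw [hjj] at e
      have hcl : cls (ctP (jCT j.val)) = cls j.val := by rw [← h3, hj']
      simp only [hcl] at e0
      refine ⟨a' ω * h0, Subgroup.mul_mem _ hamem hh0, κ * k0, Subgroup.mul_mem _ hκ hk0, ?_⟩
      rw [mul_assoc, e0, ← mul_assoc, e, mul_assoc]

theorem orbit_ncard_OC (c : ℕ) (hc : cls (rootC c) = c) :
    (MulAction.orbit (H100 ω)
      (QuotientGroup.mk (uC ω ⟨rootC c, rootC_lt c⟩) : HH ω ⧸ H100 ω)).ncard = (OC c).ncard := by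
  refine Cfsg.Agent.Helper64CosetOrb.orbit_ncard (H100 ω) 100 (uC ω) {a' ω, mH ω} (closure_H100 ω)
    (uC_bij ω).1 (OC c) _ hc (OC_closed ω c) ?_
  intro j hj
  have h := OC_reach ω _ j rfl
  have hj' : cls j.val = c := hj
  simp only [hj'] at h
  exact h

theorem ncard_OC1 : (OC 1).ncard = 36 := by
  have : OC 1 = ↑(Finset.univ.filter fun i : Fin 100 => cls i.val = 1) := by
    ext i; simp [OC]
  rw [this, Set.ncard_coe_finset]
  decide +kernel

theorem ncard_OC2 : (OC 2).ncard = 63 := by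
  have : OC 2 = ↑(Finset.univ.filter fun i : Fin 100 => cls i.val = 2) := by
    ext i; simp [OC]
  rw [this, Set.ncard_coe_finset]
  decide +kernel

/-- the structure of the action on 100 points. -/
theorem struct_HH : ∃ H : Subgroup (HH ω), H.index = 100 ∧
    Nonempty (H ≃* Cfsg.PSU 3 Cfsg.Agent.Lib.Helper62F9.F9 3) ∧
    ∃ g₁ g₂ : HH ω, (MulAction.orbit H (QuotientGroup.mk g₁ : HH ω ⧸ H)).ncard = 36 ∧
      (MulAction.orbit H (QuotientGroup.mk g₂ : HH ω ⧸ H)).ncard = 63 := by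
  obtain ⟨e⟩ := equiv_M0_PSU ω
  refine ⟨H100 ω, index_H100 ω, ⟨(Subgroup.subgroupOfEquivOfLe (M0_le_GG ω)).trans e⟩,
    uC ω ⟨rootC 1, rootC_lt 1⟩, uC ω ⟨rootC 2, rootC_lt 2⟩, ?_, ?_⟩
  · rw [orbit_ncard_OC ω 1 rfl, ncard_OC1]
  · rw [orbit_ncard_OC ω 2 rfl, ncard_OC2]

end

end Cfsg.Agent.Helper64J2
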