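import Cfsg.Agent.Lib.Helper64J3LinesA

/-!
# The orbits of `3·J₃` on the lines of its 9-dimensional module (helper64)
-/

set_option autoImplicit false

namespace Cfsg.Agent.Helper64J3

open Cfsg.Spor

theorem orbA : allB 23256 (orbOK tX tY lAA 23256 1) = true := by
  rw [allB_iff]
  intro i hi
  rw [← orbOK'_eq]
  exact (allB_iff _ _).mp orbA' i hi

theorem orbB : allB 43605 (orbOK tX tY lBB 43605 3) = true := by
  rw [allB_iff]
  intro i hi
  rw [← orbOK'_eq]
  exact (allB_iff _ _).mp orbB' i hi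

theorem wtOdd_eq (c : ℕ) : wtOdd c = xorB 9 fun k => c.testBit k || c.testBit (k + 9) := by
  have hm : Nat.land (Nat.lor c (Nat.shiftRight c 9)) 511 < 512 :=
    lt_of_le_of_lt Nat.and_le_right (by norm_num)
  have h1 := (allB_iff _ _).mp parcheck _ hm
  rw [beq_iff_eq] at h1
  unfold wtOdd
  rw [h1]
  apply xorB_congr
  intro k hk
  show ((c ||| c >>> 9) &&& 511).testBit k = _
  rw [Nat.testBit_and, Nat.testBit_or, Nat.testBit_shiftRight]
  have h2 : (511 : ℕ).testBit k = true := by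
    interval_cases k <;> decide
  rw [h2, Bool.and_true, add_comm 9 k]

section
variable {F : Type*} [Field F] (ω : F) [Om F ω]

theorem tabA : OrbTab ω (GG ω) lAA 23256 1 := orbTab_of_check (repT_gX ω) (repT_gY ω) orbA

theorem tabB : OrbTab ω (GG ω) lBB 43605 3 := orbTab_of_check (repT_gX ω) (repT_gY ω) orbB

theorem toVec_of_propC {m w : ℕ} (h : propC m w = true) :
    ∃ μ : Fˣ, toVec ω m = (μ : F) • toVec ω w := by
  simp only [propC, Bool.or_eq_true, Nat.beq_eq] at h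
  rcases h with (h | h) | h
  · exact ⟨1, by rw [h]; simp⟩
  · exact ⟨Units.mk0 ω (om_ne_zero ω), by rw [h, toVec_wM]; rfl⟩
  · exact ⟨Units.mk0 ω (om_ne_zero ω) * Units.mk0 ω (om_ne_zero ω), by
      rw [h, toVec_wM, toVec_wM, smul_smul]; rfl⟩

theorem stepA (i : ℕ) (hi : i < 23256) :
    (∃ j < 23256, ∃ μ : Fˣ, (gX ω : Matrix F9 F9 F).mulVec (toVec ω (wAt lAA i)) =
      (μ : F) • toVec ω (wAt lAA j)) ∧
    (∃ j < 23256, ∃ μ : Fˣ, (gY ω : Matrix F9 F9 F).mulVec (toVec ω (wAt lAA i)) =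
      (μ : F) • toVec ω (wAt lAA j)) := by
  have h := (allB_iff _ _).mp clA i hi
  simp only [clOK, forceB_eq, Bool.and_eq_true, Nat.blt_eq] at h
  obtain ⟨⟨⟨h1, h2⟩, h3⟩, h4⟩ := h
  obtain ⟨μ, hμ⟩ := toVec_of_propC ω h3
  obtain ⟨ν, hν⟩ := toVec_of_propC ω h4
  exact ⟨⟨_, h1, μ, by rw [← (repT_gX ω).mulVec, hμ]⟩, ⟨_, h2, ν, by rw [← (repT_gY ω).mulVec, hν]⟩⟩

omit [Om F ω] in
/-- a finite family of lines which is stable under generators is stable under the group. -/
theorem line_closed {S : Set (GL F9 F)} {N : ℕ} (w : Fin N → F9 → F)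
    (hinj : ∀ i j (μ : F), w i = μ • w j → i = j)
    (hstep : ∀ s ∈ S, ∀ i, ∃ j, ∃ μ : Fˣ, (s : Matrix F9 F9 F).mulVec (w i) = (μ : F) • w j) :
    ∀ g ∈ Subgroup.closure S, ∀ i, ∃ j, ∃ μ : Fˣ,
      (g : Matrix F9 F9 F).mulVec (w i) = (μ : F) • w j := by
  intro g hg
  induction hg using Subgroup.closure_induction with
  | mem s hs => exact hstep s hs
  | one => intro i; exact ⟨i, 1, by simp⟩
  | mul x y _ _ hx hy =>
    intro i
    obtain ⟨j, μ, hj⟩ := hy i
    obtain ⟨k, ν, hk⟩ := hx j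
    refine ⟨k, μ * ν, ?_⟩
    rw [Units.val_mul, ← Matrix.mulVec_mulVec, hj, Matrix.mulVec_smul, hk, smul_smul, Units.val_mul]
  | inv x _ hx =>
    choose σ μ hσ using hx
    have hcancel : ∀ u : F9 → F,
        ((x⁻¹ : GL F9 F) : Matrix F9 F9 F).mulVec ((x : Matrix F9 F9 F).mulVec u) = u := by
      intro u
      rw [Matrix.mulVec_mulVec, ← Units.val_mul, inv_mul_cancel, Units.val_one, Matrix.one_mulVec]
    have hσi : Function.Injective σ := by
      intro i i' hii
      have h1 := hσ i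
      have h2 := hσ i'
      rw [hii] at h1
      have h3 : (x : Matrix F9 F9 F).mulVec (w i) =
          (x : Matrix F9 F9 F).mulVec (((μ i : F) * ((μ i')⁻¹ : Fˣ)) • w i') := by
        rw [Matrix.mulVec_smul, h2, h1, smul_smul, mul_assoc, Units.inv_mul, mul_one]
      have h4 := congrArg (fun u => ((x⁻¹ : GL F9 F) : Matrix F9 F9 F).mulVec u) h3
      simp only [hcancel] at h4
      exact hinj _ _ _ h4
    have hσs : Function.Surjective σ := Finite.injective_iff_surjective.mp hσi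
    intro i
    obtain ⟨i', rfl⟩ := hσs i
    refine ⟨i', (μ i')⁻¹, ?_⟩
    have h1 := congrArg (fun u => ((x⁻¹ : GL F9 F) : Matrix F9 F9 F).mulVec u) (hσ i')
    simp only [hcancel, Matrix.mulVec_smul] at h1
    rw [h1, smul_smul, Units.inv_mul, one_smul]

theorem toVec_one : toVec ω 1 = Pi.single (0 : F9) (1 : F) := by
  funext z
  have h9 : ∀ k : ℕ, (1 : ℕ).testBit (k + 9) = false := by
    intro k
    rw [Bool.eq_false_iff]
    intro h
    have := Nat.testBit_one_eq_true_iff_self_eq_zero.mp h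
    omega
  simp only [toVec, ent, h9, bF_false, mul_zero, add_zero]
  by_cases hz : z = 0
  · subst hz
    simp [idx]
  · rw [Pi.single_eq_of_ne hz]
    have : idx z ≠ 0 := by
      intro h0
      apply hz
      exact idx_inj (h0.trans (by simp [idx]))
    have h1 : (1 : ℕ).testBit (idx z) = false := by
      rw [Bool.eq_false_iff]
      intro h2
      exact this (Nat.testBit_one_eq_true_iff_self_eq_zero.mp h2)
    rw [h1, bF_false]

/-- the lines in the orbit of the first basis vector. -/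
theorem ncard_lines :
    {L : Submodule F (F9 → F) | ∃ g ∈ GG ω,
      L = F ∙ ((g : Matrix F9 F9 F).mulVec (Pi.single (0 : F9) (1 : F) : F9 → F))}.ncard = 23256 := by
  have hT := tabA ω
  let φ : Fin 23256 → Submodule F (F9 → F) := fun i => F ∙ toVec ω (wAt lAA i.val)
  have hφ : Function.Injective φ := by
    intro i j hij
    obtain ⟨z, hz⟩ := Submodule.span_singleton_eq_span_singleton.mp hij
    exact Fin.ext (hT.eq_of_smul j.isLt i.isLt (z : F) hz.symm).symm
  have h0 : wAt lAA 0 = 1 := by decide +kernel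
  have hcl := line_closed (S := {gX ω, gY ω}) (fun i : Fin 23256 => toVec ω (wAt lAA i.val))
    (fun i j μ h => Fin.ext (hT.eq_of_smul i.isLt j.isLt μ h)) (by
      rintro s (rfl | rfl) i
      · obtain ⟨j, hj, μ, h⟩ := (stepA ω i.val i.isLt).1
        exact ⟨⟨j, hj⟩, μ, h⟩
      · obtain ⟨j, hj, μ, h⟩ := (stepA ω i.val i.isLt).2
        exact ⟨⟨j, hj⟩, μ, h⟩)
  have hset : {L : Submodule F (F9 → F) | ∃ g ∈ GG ω,
      L = F ∙ ((g : Matrix F9 F9 F).mulVec (Pi.single (0 : F9) (1 : F) : F9 → F))} =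
      Set.range φ := by
    ext L
    constructor
    · rintro ⟨g, hg, rfl⟩
      obtain ⟨j, μ, h⟩ := hcl g hg ⟨0, by norm_num⟩
      simp only [h0, toVec_one] at h
      refine ⟨j, ?_⟩
      rw [h]
      exact (Submodule.span_singleton_smul_eq μ.isUnit _).symm
    · rintro ⟨i, rfl⟩
      obtain ⟨g, hg, μ, h⟩ := hT.reach i.val i.isLt
      refine ⟨g, hg, ?_⟩
      rw [← toVec_one ω, h]
      exact (Submodule.span_singleton_smul_eq μ.isUnit _).symm
  rw [hset, ← Set.image_univ, Set.ncard_image_of_injective _ hφ, Set.ncard_univ, Nat.card_fin]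

theorem ent_cube (c p : ℕ) : (ent ω c p) ^ 3 = bF F (c.testBit p || c.testBit (p + 9)) := by
  unfold ent
  have h1 := om_cube ω
  have h2 := Om.rel (F := F) (ω := ω)
  have h3 := Om.two (F := F) ω
  cases c.testBit p <;> cases c.testBit (p + 9)
  · simp
  · simp [h1]
  · simp
  · simp only [bF_true, mul_one, Bool.or_true]
    linear_combination (ω + 2) * h2 - h3

theorem sum_cube (c : ℕ) : ∑ z, (toVec ω c z) ^ 3 = bF F (wtOdd c) := by
  rw [wtOdd_eq, bF_xorB ω]
  have := sum_F9 (fun k => (ent ω c k) ^ 3)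
  simp only [toVec]
  rw [this]
  exact Finset.sum_congr rfl fun k _ => ent_cube ω c k

omit [Om F ω] in
theorem toVec_zero : toVec ω 0 = 0 := by
  funext z
  simp [toVec, ent]

theorem exists_code [Fintype F] (hF : Fintype.card F = 4) (v : F9 → F) :
    ∃ c < 2 ^ 18, toVec ω c = v := by
  classical
  let ψ : Fin (2 ^ 18) → (F9 → F) := fun c => toVec ω c.val
  have hψ : Function.Injective ψ := by
    intro a b hab
    have := (toVec_eq_iff ω).mp hab
    rw [Nat.mod_eq_of_lt a.isLt, Nat.mod_eq_of_lt b.isLt] at this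
    exact Fin.ext this
  have hcard : Fintype.card (Fin (2 ^ 18)) = Fintype.card (F9 → F) := by
    rw [Fintype.card_fin, Fintype.card_fun, hF, Fintype.card_prod, ZMod.card]
    norm_num
  obtain ⟨c, hc⟩ := ((Fintype.bijective_iff_injective_and_card ψ).mpr ⟨hψ, hcard⟩).2 v
  exact ⟨c.val, c.isLt, hc⟩

theorem iso_mem (c : ℕ) (hc : c < 2 ^ 18) (h0 : c ≠ 0) (hw : wtOdd c = false) :
    ∃ i < 43605, ∃ μ : Fˣ, toVec ω c = (μ : F) • toVec ω (wAt lBB i) := by
  have ha : c / 512 < 512 := by omega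
  have hb : c % 512 < 512 := by omega
  have h := (allB_iff _ _).mp ((allB_iff _ _).mp isoB _ ha) _ hb
  have e : Nat.add (Nat.mul 512 (c / 512)) (c % 512) = c := Nat.div_add_mod c 512
  rw [e] at h
  simp only [isoOK, forceB_eq, hw, Bool.or_false, Bool.or_eq_true, Bool.and_eq_true, Nat.beq_eq,
    Nat.blt_eq] at h
  rcases h with h | ⟨h1, h2⟩
  · exact absurd h h0
  · obtain ⟨μ, hμ⟩ := toVec_wPow ω (f2 (lIX c)) (wAt lBB (f1 (lIX c)))
    exact ⟨_, h1, μ, by rw [← hμ, h2]⟩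

/-- the isotropic lines form one orbit. -/
theorem iso_trans [Fintype F] (hF : Fintype.card F = 4) (v w : F9 → F) (hv : v ≠ 0) (hw : w ≠ 0)
    (h1 : ∑ z, (v z) ^ 3 = 0) (h2 : ∑ z, (w z) ^ 3 = 0) :
    ∃ g ∈ GG ω, ∃ c : F, c ≠ 0 ∧ (g : Matrix F9 F9 F).mulVec v = c • w := by
  have key : ∀ u : F9 → F, u ≠ 0 → ∑ z, (u z) ^ 3 = 0 →
      ∃ g ∈ GG ω, ∃ μ : Fˣ, (g : Matrix F9 F9 F).mulVec (toVec ω 3) = (μ : F) • u := by
    intro u hu hs
    obtain ⟨c, hc, rfl⟩ := exists_code ω hF u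
    have h0 : c ≠ 0 := by
      rintro rfl
      exact hu (toVec_zero ω)
    have hw : wtOdd c = false := by
      rw [sum_cube] at hs
      cases h : wtOdd c
      · rfl
      · rw [h] at hs
        exact absurd hs one_ne_zero
    obtain ⟨i, hi, μ, hμ⟩ := iso_mem ω c hc h0 hw
    obtain ⟨g, hg, ν, hν⟩ := (tabB ω).reach i hi
    refine ⟨g, hg, ν * μ⁻¹, ?_⟩
    rw [hν, hμ, smul_smul, Units.val_mul, mul_assoc, Units.inv_mul, mul_one]
  obtain ⟨g, hg, μ, hgμ⟩ := key v hv h1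
  obtain ⟨k, hk, ν, hkν⟩ := key w hw h2
  refine ⟨k * g⁻¹, (GG ω).mul_mem hk ((GG ω).inv_mem hg), (ν : F) * ((μ⁻¹ : Fˣ) : F),
    mul_ne_zero ν.ne_zero (μ⁻¹).ne_zero, ?_⟩
  have h3 : v = ((μ⁻¹ : Fˣ) : F) • (g : Matrix F9 F9 F).mulVec (toVec ω 3) := by
    rw [hgμ, smul_smul, Units.inv_mul, one_smul]
  rw [h3, Matrix.mulVec_smul, Matrix.mulVec_mulVec, ← Units.val_mul, inv_mul_cancel_right, hkν,
    smul_smul, mul_comm]

end

end Cfsg.Agent.Helper64J3
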