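import Cfsg.Agent.Lib.Helper64J3Order
import Cfsg.Agent.Lib.Helper64J3TabL
import Cfsg.Agent.Lib.Helper64J3TabN

/-!
# The orbits of `3·J₃` on the lines of its 9-dimensional module: the checks (helper64)
-/

set_option autoImplicit false

namespace Cfsg.Agent.Helper64J3

open Cfsg.Spor

/-- evaluate the argument first (for the kernel). -/
def forceB (v : ℕ) (f : ℕ → Bool) : Bool :=
  @Nat.rec (fun _ => Bool) (f 0) (fun n _ => f (Nat.succ n)) v

theorem forceB_eq (v : ℕ) (f : ℕ → Bool) : forceB v f = f v := by cases v <;> rfl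

/-- `orbOK` with shared table lookups. -/
def orbOK' (t1 t2 : ℕ) (B : ℕ → ℕ) (N root : ℕ) (i : ℕ) : Bool :=
  forceB (B i) fun r =>
  leadOK (rW r) &&
  (Nat.blt (rW r) (wAt B (Nat.add i 1)) || Nat.beq (Nat.add i 1) N) &&
  (if Nat.beq (rD r) 0 then Nat.beq (rW r) root
   else
    forceB (B (rP r)) fun q =>
    Nat.blt (rP r) N &&
    Nat.beq (Nat.add (rD q) 1) (rD r) &&
    Nat.beq (mulC (rW q) (if Nat.beq (rE r) 1 then t2 else t1))
      (wPow (rL r) (rW r)))

theorem orbOK'_eq (t1 t2 : ℕ) (B : ℕ → ℕ) (N root : ℕ) (i : ℕ) :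
    orbOK' t1 t2 B N root i = orbOK t1 t2 B N root i := by
  simp only [orbOK', forceB_eq, orbOK, wAt]

/-- `m` is a multiple of `w`. -/
def propC (m w : ℕ) : Bool := Nat.beq m w || Nat.beq m (wM w) || Nat.beq m (wM (wM w))

/-- the table is closed under the two generators. -/
def clOK (t1 t2 : ℕ) (B C : ℕ → ℕ) (N i : ℕ) : Bool :=
  forceB (wAt B i) fun w => forceB (C i) fun r =>
    Nat.blt (f1 r) N && Nat.blt (f2 r) N &&
    forceB (mulC w t1) (fun m => forceB (wAt B (f1 r)) fun w1 => propC m w1) &&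
    forceB (mulC w t2) (fun m => forceB (wAt B (f2 r)) fun w2 => propC m w2)

def PAR : ℕ := 0x96696996699696696996966996696996699696699669699696696996699696696996966996696996966969966996966996696996699696696996966996696996

/-- the parity of the weight. -/
def wtOdd (c : ℕ) : Bool :=
  Nat.beq (Nat.land (Nat.shiftRight PAR (Nat.land (Nat.lor c (Nat.shiftRight c 9)) 511)) 1) 1

def isoOK (B X : ℕ → ℕ) (N c : ℕ) : Bool :=
  forceB c fun c0 => Nat.beq c0 0 || wtOdd c0 ||
    forceB (X c0) fun r => Nat.blt (f1 r) N && Nat.beq (wPow (f2 r) (wAt B (f1 r))) c0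

set_option maxRecDepth 100000 in
theorem orbA' : allB 23256 (orbOK' tX tY lAA 23256 1) = true := by decide +kernel

set_option maxRecDepth 100000 in
theorem orbB' : allB 43605 (orbOK' tX tY lBB 43605 3) = true := by decide +kernel

set_option maxRecDepth 100000 in
theorem clA : allB 23256 (clOK tX tY lAA lAC 23256) = true := by decide +kernel

set_option maxRecDepth 100000 in
theorem isoB :
    allB 512 (fun a => allB 512 fun b => isoOK lBB lIX 43605 (Nat.add (Nat.mul 512 a) b)) = true := by
  decide +kernel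

set_option maxRecDepth 100000 in
theorem parcheck : allB 512 (fun m =>
    (Nat.beq (Nat.land (Nat.shiftRight PAR m) 1) 1) == xorB 9 (fun k => m.testBit k)) = true := by
  decide +kernel

end Cfsg.Agent.Helper64J3
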