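import Cfsg.Agent.Lib.Helper64J3Simple
import Cfsg.Agent.Lib.Helper64J3TabM
import Cfsg.Prelude.Def_Sporadic

/-!
# `J₃` as a transitive permutation group of degree 6156 (helper64)
-/

set_option autoImplicit false

namespace Cfsg.Agent.Helper64J3

open Cfsg.Spor

def cM2 : ℕ := 0x2133fa9a6ef3a02f40f4029ce1af99a2f80ebfe3c
def cM2a : ℕ := 0x3da01dff1fb20af9719c731bfe37a4fd70e37a84a
def cM2ai : ℕ := 0x3db57fbd66ffdadd6b9daf9e461f13275e177b444
def wM2a : List Bool := [false, true, true, true, true, false, true, true, false]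
def wM2b : List Bool := [true, true, false, true, true, false, true, true, true, false, true, true, false]

set_option maxRecDepth 100000 in
theorem mcheck : allB 24480 (gtOK cA cM2 MT MX 24480) = true := by decide +kernel

/-- a simple group with a subgroup of index `n > 1` is a transitive group of degree `n`. -/
theorem exists_perm_rep {G : Type*} [Group G] [IsSimpleGroup G] (M : Subgroup G) (n : ℕ)
    (hn : M.index = n) (h1 : 1 < n) :
    ∃ H : Subgroup (Equiv.Perm (Fin n)), Nonempty (G ≃* H) ∧ MulAction.IsPretransitive H (Fin n) := by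
  have hcard : Nat.card (G ⧸ M) = n := by rw [← hn]; rfl
  have hfin : Finite (G ⧸ M) := Nat.finite_of_card_ne_zero (by omega)
  let e : (G ⧸ M) ≃ Fin n := Finite.equivFinOfCardEq hcard
  let f : G →* Equiv.Perm (G ⧸ M) := MulAction.toPermHom G (G ⧸ M)
  let f' : G →* Equiv.Perm (Fin n) := (e.permCongrHom).toMonoidHom.comp f
  have hf' : ∀ (g : G) (i : Fin n), f' g i = e (g • e.symm i) := fun g i => rfl
  have hinj : Function.Injective f' := by
    rw [← MonoidHom.ker_eq_bot_iff]
    rcases (f'.normal_ker).eq_bot_or_eq_top with h | h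
    · exact h
    · exfalso
      have hnt : Nontrivial (G ⧸ M) := by
        rw [← Finite.one_lt_card_iff_nontrivial, hcard]; exact h1
      obtain ⟨a, b, hab⟩ := exists_pair_ne (G ⧸ M)
      obtain ⟨g, hg⟩ := MulAction.exists_smul_eq G a b
      have hg1 : f' g = 1 := by
        have : g ∈ f'.ker := by rw [h]; exact Subgroup.mem_top g
        exact this
      have h2 := hf' g (e a)
      rw [hg1, e.symm_apply_apply, hg] at h2
      exact hab (e.injective h2)
  refine ⟨f'.range, ⟨MonoidHom.ofInjective hinj⟩, ⟨fun i j => ?_⟩⟩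
  obtain ⟨g, hg⟩ := MulAction.exists_smul_eq G (e.symm i) (e.symm j)
  refine ⟨⟨f' g, g, rfl⟩, ?_⟩
  show f' g i = j
  rw [hf', hg, e.apply_symm_apply]

section
variable {F : Type*} [Field F] (ω : F) [Om F ω]

def gM2 : GL F9 F := (evW (gX ω) (gY ω) wM2a)⁻¹ * evW (gX ω) (gY ω) wM2b
theorem rep_gM2 : Rep ω (gM2 ω) cM2 := by
  have h1 : Rep ω (evW (gX ω) (gY ω) wM2a) cM2a :=
    (rep_evW (rep_gX ω) (rep_gY ω) wM2a).cast (by decide +kernel)
  have h2 : Rep ω (evW (gX ω) (gY ω) wM2a)⁻¹ cM2ai := h1.inv (by decide +kernel)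
  exact (h2.mul (rep_evW (rep_gX ω) (rep_gY ω) wM2b)).cast (by decide +kernel)
theorem gM2_mem : gM2 ω ∈ GG ω :=
  (GG ω).mul_mem ((GG ω).inv_mem (evW_mem _ _ _)) (evW_mem _ _ _)

/-- the subgroup `3 × L₂(16):2`. -/
def M0 : Subgroup (GL F9 F) := Subgroup.closure {gA ω, gM2 ω}

theorem mtab : GTab ω (M0 ω) MT 24480 :=
  gtab_of_check (fun _ => cAt_lt _ _) (rep_gA ω) (rep_gM2 ω) (i0 := 28) (by norm_num)
    (by decide +kernel) mcheck

theorem M0_le_GG : M0 ω ≤ GG ω := by
  unfold M0
  rw [Subgroup.closure_le]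
  rintro z (rfl | rfl)
  · exact gA_mem ω
  · exact gM2_mem ω

theorem gZ_mem_M0 : gZ ω ∈ M0 ω := by
  obtain ⟨g, hg, hr⟩ := (mtab ω).mem 12321 (by norm_num)
  have h : MT 12321 = cZeta := by decide +kernel
  rw [h] at hr
  rw [(rep_gZ ω).ext hr]
  exact hg

variable [Finite F]

theorem exists_index_6156 :
    ∃ M : Subgroup (HH ω ⧸ Subgroup.center (HH ω)), M.index = 6156 := by
  let M' : Subgroup (HH ω) := (M0 ω).subgroupOf (GG ω)
  have hcard : Nat.card M' = 24480 := by
    rw [Nat.card_congr (Subgroup.subgroupOfEquivOfLe (M0_le_GG ω)).toEquiv, (mtab ω).card]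
  have hidx : M'.index = 6156 := by
    have h := M'.card_mul_index
    rw [hcard, card_GG] at h
    omega
  have hZ : Subgroup.center (HH ω) ≤ M' := by
    have h1 : Subgroup.zpowers (z' ω) = Subgroup.center (HH ω) := by
      refine Subgroup.eq_of_le_of_card_ge ?_ ?_
      · rw [Subgroup.zpowers_le]; exact z'_mem_center ω
      · rw [card_center, Nat.card_zpowers, orderOf_z']
    rw [← h1, Subgroup.zpowers_le]
    exact Subgroup.mem_subgroupOf.mpr (gZ_mem_M0 ω)
  refine ⟨M'.map (QuotientGroup.mk' (Subgroup.center (HH ω))), ?_⟩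
  rw [Subgroup.index_map, QuotientGroup.ker_mk', sup_eq_left.mpr hZ, hidx,
    MonoidHom.range_eq_top.mpr (QuotientGroup.mk'_surjective _), Subgroup.index_top, mul_one]

include ω in
theorem exists_perm_J3 : ∃ H : Subgroup (Equiv.Perm (Fin 6156)), Cfsg.IsJ3 H ∧
    MulAction.IsPretransitive H (Fin 6156) ∧
    Nat.card (MulAction.stabilizer H (0 : Fin 6156)) = 8160 := by
  have hs := simple_quot ω
  obtain ⟨M, hM⟩ := exists_index_6156 ω
  obtain ⟨H, ⟨e⟩, ht⟩ := exists_perm_rep M 6156 hM (by norm_num)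
  have hcard : Nat.card H = 50232960 := by
    rw [← Nat.card_congr e.toEquiv]; exact card_quot ω
  refine ⟨H, ⟨e.symm.isSimpleGroup_congr.mpr hs, hcard⟩, ht, ?_⟩
  have h1 := MulAction.index_stabilizer_of_transitive H (0 : Fin 6156)
  rw [Nat.card_fin] at h1
  have h2 := (MulAction.stabilizer H (0 : Fin 6156)).card_mul_index
  rw [h1, hcard] at h2
  omega

end

end Cfsg.Agent.Helper64J3
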