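import Mathlib
import Cfsg.Agent.Lib.Helper35TC
import Cfsg.Agent.Lib.Helper64WEval
import Cfsg.Agent.Lib.Helper64J1Core
import Cfsg.Agent.S0243

/-!
# `PSL(3, 7)` by codes (helper64)

A 3 × 3 matrix over `ZMod 7` is coded by a natural number, entry `(i, j)` being the base-16 digit
number `3 * i + j`.
-/

set_option autoImplicit false

namespace Cfsg.Agent.Helper64M37

open Cfsg.Agent.Lib.Helper35TC Cfsg.Agent.Helper64WEval
open Cfsg.Agent.Helper64J1 (dg enc dg_enc_map dg_lt)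

abbrev Mat := Matrix (Fin 3) (Fin 3) (ZMod 7)
abbrev SL := Matrix.SpecialLinearGroup (Fin 3) (ZMod 7)
abbrev T := Matrix.ProjectiveSpecialLinearGroup (Fin 3) (ZMod 7)

instance fact7 : Fact (Nat.Prime 7) := ⟨by norm_num⟩

theorem card_T : Nat.card T = 1876896 := by
  have h := Cfsg.Agent.S0243.result (F := ZMod 7) (q := 7) (ZMod.card 7) 3 (by norm_num)
  simp only [Fin.prod_univ_three] at h
  generalize Nat.card T = n at h ⊢
  norm_num at h
  omega

instance : Finite T := Nat.finite_of_card_ne_zero (by rw [card_T]; norm_num)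

/-- the matrix coded by `a`. -/
def toMat (a : ℕ) : Mat := Matrix.of fun i j => ((dg a (3 * i.val + j.val) : ℕ) : ZMod 7)

/-- entry `(i, j)` of the product. -/
def dot (a b i j : ℕ) : ℕ :=
  Nat.mod (Nat.add (Nat.add
    (Nat.mul (dg a (Nat.mul 3 i)) (dg b j))
    (Nat.mul (dg a (Nat.add (Nat.mul 3 i) 1)) (dg b (Nat.add 3 j))))
    (Nat.mul (dg a (Nat.add (Nat.mul 3 i) 2)) (dg b (Nat.add 6 j)))) 7

theorem dot_eq (a b i j : ℕ) : dot a b i j =
  (dg a (3 * i) * dg b j + dg a (3 * i + 1) * dg b (3 + j) + dg a (3 * i + 2) * dg b (6 + j)) % 7 :=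
  rfl

theorem dot_lt (a b i j : ℕ) : dot a b i j < 16 := by
  rw [dot_eq]; omega

/-- code of the product of two matrices. -/
def mulC (a b : ℕ) : ℕ := enc ((List.range 9).map fun k => dot a b (Nat.div k 3) (Nat.mod k 3))

theorem dg_mulC (a b : ℕ) (i j : ℕ) (hi : i < 3) (hj : j < 3) :
    dg (mulC a b) (3 * i + j) = dot a b i j := by
  unfold mulC
  rw [dg_enc_map 9 _ (fun k => dot_lt _ _ _ _) _ (by omega)]
  show dot a b ((3 * i + j) / 3) ((3 * i + j) % 3) = _
  congr 1 <;> omega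

theorem toMat_mulC (a b : ℕ) : toMat (mulC a b) = toMat a * toMat b := by
  ext i j
  simp only [toMat, Matrix.of_apply, Matrix.mul_apply, Fin.sum_univ_three]
  rw [dg_mulC a b i.val j.val i.isLt j.isLt, dot_eq, ZMod.natCast_mod]
  push_cast
  simp only [Fin.val_zero, Fin.val_one, Fin.val_two, mul_zero, zero_add, mul_one, add_zero]

/-- code of the identity matrix. -/
def cOne : ℕ := 0x100010001

theorem toMat_cOne : toMat cOne = 1 := by
  ext i j
  fin_cases i <;> fin_cases j <;> rfl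

/-- the determinant is `1`. -/
def detOK (a : ℕ) : Bool :=
  Nat.beq
    (Nat.mod (Nat.add (Nat.add (Nat.mul (Nat.mul (dg a 0) (dg a 4)) (dg a 8))
      (Nat.mul (Nat.mul (dg a 1) (dg a 5)) (dg a 6))) (Nat.mul (Nat.mul (dg a 2) (dg a 3)) (dg a 7))) 7)
    (Nat.mod (Nat.add (Nat.add (Nat.add (Nat.mul (Nat.mul (dg a 0) (dg a 5)) (dg a 7))
      (Nat.mul (Nat.mul (dg a 1) (dg a 3)) (dg a 8))) (Nat.mul (Nat.mul (dg a 2) (dg a 4)) (dg a 6))) 1) 7)

theorem det_of_detOK {a : ℕ} (h : detOK a = true) : (toMat a).det = 1 := by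
  have h1 : (dg a 0 * dg a 4 * dg a 8 + dg a 1 * dg a 5 * dg a 6 + dg a 2 * dg a 3 * dg a 7) % 7 =
      (dg a 0 * dg a 5 * dg a 7 + dg a 1 * dg a 3 * dg a 8 + dg a 2 * dg a 4 * dg a 6 + 1) % 7 :=
    Nat.eq_of_beq_eq_true h
  have h2 := (ZMod.natCast_eq_natCast_iff' _ _ 7).mpr h1
  push_cast at h2
  rw [Matrix.det_fin_three]
  simp only [toMat, Matrix.of_apply, Fin.val_zero, Fin.val_one, Fin.val_two, mul_zero, zero_add,
    mul_one, add_zero]
  norm_num
  linear_combination h2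

/-- the element of `SL(3, 7)` with code `c` (junk value `1`). -/
def mkS (c : ℕ) (h : (toMat c).det = 1) : SL := ⟨toMat c, h⟩

/-- the element of `SL(3, 7)` with code `c` (junk value `1`). -/
noncomputable def genS (c : ℕ) : SL :=
  if h : (toMat c).det = 1 then mkS c h else 1

/-- the element of `PSL(3, 7)` with code `c`. -/
noncomputable def gen (c : ℕ) : T := QuotientGroup.mk (genS c)

/-- `c` is a code of the matrix of `g`. -/
def Rep (g : SL) (c : ℕ) : Prop := (g : Mat) = toMat c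

theorem Rep.mul {g h : SL} {a b : ℕ} (hg : Rep g a) (hh : Rep h b) : Rep (g * h) (mulC a b) := by
  unfold Rep at *
  rw [Matrix.SpecialLinearGroup.coe_mul, hg, hh, toMat_mulC]

theorem Rep.one : Rep 1 cOne := by
  unfold Rep
  rw [Matrix.SpecialLinearGroup.coe_one, toMat_cOne]

theorem rep_genS {c : ℕ} (h : detOK c = true) : Rep (genS c) c := by
  have h1 := det_of_detOK h
  unfold Rep genS
  rw [dif_pos h1]
  rfl

theorem Rep.inv {g : SL} {a b : ℕ} (hg : Rep g a) (hab : mulC a b = cOne) : Rep g⁻¹ b := by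
  unfold Rep at *
  have h1 : (g : Mat) * toMat b = 1 := by rw [hg, ← toMat_mulC, hab, toMat_cOne]
  have h2 : ((g⁻¹ : SL) : Mat) * (g : Mat) = 1 := by
    rw [← Matrix.SpecialLinearGroup.coe_mul, inv_mul_cancel, Matrix.SpecialLinearGroup.coe_one]
  calc ((g⁻¹ : SL) : Mat) = ((g⁻¹ : SL) : Mat) * ((g : Mat) * toMat b) := by rw [h1, mul_one]
    _ = toMat b := by rw [← mul_assoc, h2, one_mul]

/-- the code is that of a scalar matrix. -/
def isSc (a : ℕ) : Bool :=
  Nat.beq (Nat.mod (dg a 1) 7) 0 && Nat.beq (Nat.mod (dg a 2) 7) 0 && Nat.beq (Nat.mod (dg a 3) 7) 0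
  && Nat.beq (Nat.mod (dg a 5) 7) 0 && Nat.beq (Nat.mod (dg a 6) 7) 0 && Nat.beq (Nat.mod (dg a 7) 7) 0
  && Nat.beq (Nat.mod (dg a 0) 7) (Nat.mod (dg a 4) 7)
  && Nat.beq (Nat.mod (dg a 0) 7) (Nat.mod (dg a 8) 7)

theorem natCast_eq_zero_of {n : ℕ} (h : Nat.beq (Nat.mod n 7) 0 = true) : ((n : ℕ) : ZMod 7) = 0 := by
  have h1 : n % 7 = 0 := Nat.eq_of_beq_eq_true h
  exact (ZMod.natCast_eq_zero_iff n 7).mpr (Nat.dvd_of_mod_eq_zero h1)

theorem natCast_eq_of {n m : ℕ} (h : Nat.beq (Nat.mod n 7) (Nat.mod m 7) = true) :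
    ((n : ℕ) : ZMod 7) = (m : ZMod 7) :=
  (ZMod.natCast_eq_natCast_iff' _ _ 7).mpr (Nat.eq_of_beq_eq_true h)

theorem isSc_iff (a : ℕ) : isSc a = true ↔ ∃ r : ZMod 7, Matrix.scalar (Fin 3) r = toMat a := by
  constructor
  · intro h
    simp only [isSc, Bool.and_eq_true] at h
    obtain ⟨⟨⟨⟨⟨⟨⟨h1, h2⟩, h3⟩, h5⟩, h6⟩, h7⟩, h4⟩, h8⟩ := h
    refine ⟨(dg a 0 : ℕ), ?_⟩
    ext i j
    rw [Matrix.scalar_apply, Matrix.diagonal_apply]
    fin_cases i <;> fin_cases j <;>
      simp [toMat, natCast_eq_zero_of h1, natCast_eq_zero_of h2,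
        natCast_eq_zero_of h3, natCast_eq_zero_of h5, natCast_eq_zero_of h6, natCast_eq_zero_of h7,
        (natCast_eq_of h4).symm, (natCast_eq_of h8).symm]
  · rintro ⟨r, hr⟩
    have e : ∀ i j : Fin 3, ((dg a (3 * i.val + j.val) : ℕ) : ZMod 7) = if i = j then r else 0 := by
      intro i j
      have := congrFun (congrFun hr i) j
      simp only [toMat, Matrix.of_apply, Matrix.scalar_apply, Matrix.diagonal_apply] at this
      exact this.symm
    have z : ∀ n : ℕ, ((n : ℕ) : ZMod 7) = 0 → Nat.beq (Nat.mod n 7) 0 = true := by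
      intro n hn
      have := (ZMod.natCast_eq_zero_iff n 7).mp hn
      rw [Nat.beq_eq]; exact Nat.mod_eq_zero_of_dvd this
    have q : ∀ n m : ℕ, ((n : ℕ) : ZMod 7) = (m : ZMod 7) →
        Nat.beq (Nat.mod n 7) (Nat.mod m 7) = true := by
      intro n m hn
      rw [Nat.beq_eq]; exact (ZMod.natCast_eq_natCast_iff' _ _ 7).mp hn
    simp only [isSc, Bool.and_eq_true]
    refine ⟨⟨⟨⟨⟨⟨⟨z _ ?_, z _ ?_⟩, z _ ?_⟩, z _ ?_⟩, z _ ?_⟩, z _ ?_⟩, q _ _ ?_⟩, q _ _ ?_⟩
    · simpa using e 0 1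
    · simpa using e 0 2
    · simpa using e 1 0
    · simpa using e 1 2
    · simpa using e 2 0
    · simpa using e 2 1
    · have h0 := e 0 0
      have h1 := e 1 1
      simp at h0 h1
      rw [h0, h1]
    · have h0 := e 0 0
      have h1 := e 2 2
      simp at h0 h1
      rw [h0, h1]

theorem mk_eq_one_iff {g : SL} {c : ℕ} (hg : Rep g c) :
    (QuotientGroup.mk g : T) = 1 ↔ isSc c = true := by
  rw [QuotientGroup.eq_one_iff, Matrix.SpecialLinearGroup.mem_center_iff, isSc_iff]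
  unfold Rep at hg
  constructor
  · rintro ⟨r, _, hr⟩
    exact ⟨r, by rw [hr, hg]⟩
  · rintro ⟨r, hr⟩
    refine ⟨r, ?_, by rw [hr, hg]⟩
    have h1 : (g : Mat).det = 1 := g.2
    rw [hg, ← hr] at h1
    simpa using h1

variable {α : Type}

/-- validity of a pair (code, code of the inverse). -/
def valid (p : ℕ × ℕ) : Bool := detOK p.1 && Nat.beq (mulC p.1 p.2) cOne

/-- the word is trivial in `PSL(3, 7)`. -/
def check (cd : α → ℕ × ℕ) (e : WExp α) : Bool := isSc (ev mulC cOne cd e false)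

theorem rep_lift (cd : α → ℕ × ℕ) (hv : ∀ a, valid (cd a) = true) (e : WExp α) :
    Rep (FreeGroup.lift (fun a => genS (cd a).1) e.eval) (ev mulC cOne cd e false) := by
  have hv' : ∀ a, detOK (cd a).1 = true ∧ mulC (cd a).1 (cd a).2 = cOne := by
    intro a
    have := hv a
    simp only [valid, Bool.and_eq_true] at this
    exact ⟨this.1, Nat.eq_of_beq_eq_true this.2⟩
  exact (rep_ev Rep mulC cOne (fun _ _ _ _ => Rep.mul) Rep.one cd (fun a => genS (cd a).1)
    (fun a => rep_genS (hv' a).1) (fun a => (rep_genS (hv' a).1).inv (hv' a).2) e).1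

theorem lift_gen (cd : α → ℕ × ℕ) (x : FreeGroup α) :
    FreeGroup.lift (fun a => gen (cd a).1) x =
      (QuotientGroup.mk (FreeGroup.lift (fun a => genS (cd a).1) x) : T) := by
  have : FreeGroup.lift (fun a => gen (cd a).1) =
      (QuotientGroup.mk' (Subgroup.center SL)).comp (FreeGroup.lift (fun a => genS (cd a).1)) := by
    ext a
    simp [gen]
  rw [this]
  rfl

theorem lift_eq_one (cd : α → ℕ × ℕ) (hv : ∀ a, valid (cd a) = true) (e : WExp α)
    (h : check cd e = true) : FreeGroup.lift (fun a => gen (cd a).1) e.eval = 1 := by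
  rw [lift_gen, mk_eq_one_iff (rep_lift cd hv e)]
  exact h

theorem gen_ne_one {c : ℕ} (h : detOK c = true) (h2 : isSc c = false) : gen c ≠ 1 := by
  unfold gen
  rw [Ne, mk_eq_one_iff (rep_genS h), h2]
  simp

end Cfsg.Agent.Helper64M37
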