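import Mathlib
import Cfsg.Agent.Lib.Helper35TC
import Cfsg.Agent.Lib.Helper64WEval
import Cfsg.Agent.Lib.Helper64J1Core
import Cfsg.Agent.Lib.Helper64J3Core
import Cfsg.Agent.S0245

/-!
# `Sp(4, 4)` by codes (helper64)

A 4 × 4 matrix over a field with four elements is coded by a natural number, entry `(i, j)` being
the base-16 digit number `4 * i + j`; the digits `0, 1, 2, 3` stand for `0, 1, ω, ω + 1`.  The
indices `inl 0, inl 1, inr 0, inr 1` are numbered `0, 1, 2, 3`.
-/

set_option autoImplicit false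

namespace Cfsg.Agent.Helper64M44

open Cfsg.Agent.Lib.Helper35TC Cfsg.Agent.Helper64WEval
open Cfsg.Agent.Helper64J1 (dg enc dg_enc_map dg_lt)
open Cfsg.Agent.Helper64J3 (Om bF bF_xor sq_eq add_self' ent_inj)

abbrev I4 := Fin 2 ⊕ Fin 2

/-- position of an index. -/
def idx : I4 → ℕ
  | .inl i => i.val
  | .inr i => 2 + i.val

theorem idx_lt (i : I4) : idx i < 4 := by
  rcases i with i | i <;> simp only [idx] <;> omega

section gen
variable {K : Type*} [Field K] (ω : K)

/-- the element coded by a digit. -/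
def val (e : ℕ) : K := bF K (e.testBit 0) + ω * bF K (e.testBit 1)

theorem val_mod (e : ℕ) : val ω (e % 4) = val ω e := by
  unfold val
  have h : e % 4 = e % 2 ^ 2 := rfl
  rw [h, Nat.testBit_mod_two_pow, Nat.testBit_mod_two_pow]
  simp

/-- the product of two digits. -/
def mul4 (x y : ℕ) : ℕ :=
  Nat.land (Nat.shiftRight 0x9c78e400 (Nat.mul 2 (Nat.add (Nat.mul 4 (Nat.land x 3)) (Nat.land y 3)))) 3

theorem mul4_mod (x y : ℕ) : mul4 x y = mul4 (x % 4) (y % 4) := by
  have h : ∀ z : ℕ, Nat.land z 3 = z % 4 := fun z => Nat.and_two_pow_sub_one_eq_mod z 2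
  unfold mul4
  simp only [h, Nat.mod_mod]

theorem mul4_lt (x y : ℕ) : mul4 x y < 4 := by
  have h : ∀ z : ℕ, Nat.land z 3 = z % 4 := fun z => Nat.and_two_pow_sub_one_eq_mod z 2
  unfold mul4
  rw [h]
  omega

variable [Om K ω]

theorem val_mul4 (x y : ℕ) : val ω (mul4 x y) = val ω x * val ω y := by
  rw [mul4_mod, ← val_mod ω x, ← val_mod ω y]
  have hx : x % 4 < 4 := Nat.mod_lt _ (by norm_num)
  have hy : y % 4 < 4 := Nat.mod_lt _ (by norm_num)
  generalize x % 4 = a at hx ⊢
  generalize y % 4 = b at hy ⊢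
  have h2 := sq_eq ω
  have h3 := add_self' ω (1 : K)
  have h4 := add_self' ω ω
  have hm : ∀ a < 4, ∀ b < 4, mul4 a b = (([[0,0,0,0],[0,1,2,3],[0,2,3,1],[0,3,1,2]] : List (List ℕ)).getD a []).getD b 0 := by
    decide
  rw [hm a hx b hy]
  have v0 : val ω 0 = 0 := by simp [val]
  have v1 : val ω 1 = 1 := by
    have h : Nat.testBit 1 0 = true := by decide
    have h' : Nat.testBit 1 1 = false := by decide
    simp [val, h, h']
  have v2 : val ω 2 = ω := by
    have h : Nat.testBit 2 0 = false := by decide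
    have h' : Nat.testBit 2 1 = true := by decide
    simp [val, h, h']
  have v3 : val ω 3 = 1 + ω := by
    have h : Nat.testBit 3 0 = true := by decide
    have h' : Nat.testBit 3 1 = true := by decide
    simp [val, h, h']
  interval_cases a <;> interval_cases b <;>
    simp only [List.getD_cons_zero, List.getD_cons_succ, v0, v1, v2, v3]
  all_goals first | ring1 | linear_combination -h2 | linear_combination -h2 - h4 | linear_combination -h2 - h4 - h3

theorem val_xor (x y : ℕ) : val ω (Nat.xor x y) = val ω x + val ω y := by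
  unfold val
  show bF K ((x ^^^ y).testBit 0) + ω * bF K ((x ^^^ y).testBit 1) = _
  rw [Nat.testBit_xor, Nat.testBit_xor, bF_xor ω, bF_xor ω]
  ring

theorem val_inj {x y : ℕ} (h : val ω x = val ω y) : x % 4 = y % 4 := by
  obtain ⟨h0, h1⟩ := ent_inj ω h
  apply Nat.eq_of_testBit_eq
  intro i
  have e : ∀ z : ℕ, z % 4 = z % 2 ^ 2 := fun _ => rfl
  rw [e, e, Nat.testBit_mod_two_pow, Nat.testBit_mod_two_pow]
  by_cases hi : i < 2
  · interval_cases i
    · simp [h0]
    · simp [h1]
  · simp [hi]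

omit [Om K ω] in
/-- the matrix coded by `a`. -/
def toMat (a : ℕ) : Matrix I4 I4 K := Matrix.of fun i j => val ω (dg a (4 * idx i + idx j))

/-- entry `(i, j)` of the product. -/
def dot (a b i j : ℕ) : ℕ :=
  Nat.xor (Nat.xor (Nat.xor
    (mul4 (dg a (Nat.mul 4 i)) (dg b j))
    (mul4 (dg a (Nat.add (Nat.mul 4 i) 1)) (dg b (Nat.add 4 j))))
    (mul4 (dg a (Nat.add (Nat.mul 4 i) 2)) (dg b (Nat.add 8 j))))
    (mul4 (dg a (Nat.add (Nat.mul 4 i) 3)) (dg b (Nat.add 12 j)))

theorem dot_lt (a b i j : ℕ) : dot a b i j < 16 := by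
  have h : ∀ x y : ℕ, x < 2 ^ 2 → y < 2 ^ 2 → Nat.xor x y < 2 ^ 2 := fun x y hx hy =>
    Nat.xor_lt_two_pow hx hy
  have := h _ _ (h _ _ (h _ _ (mul4_lt (dg a (Nat.mul 4 i)) (dg b j))
    (mul4_lt (dg a (Nat.add (Nat.mul 4 i) 1)) (dg b (Nat.add 4 j))))
    (mul4_lt (dg a (Nat.add (Nat.mul 4 i) 2)) (dg b (Nat.add 8 j))))
    (mul4_lt (dg a (Nat.add (Nat.mul 4 i) 3)) (dg b (Nat.add 12 j)))
  unfold dot
  omega

theorem val_dot (a b i j : ℕ) : val ω (dot a b i j) =
    val ω (dg a (4 * i)) * val ω (dg b j) + val ω (dg a (4 * i + 1)) * val ω (dg b (4 + j))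
    + val ω (dg a (4 * i + 2)) * val ω (dg b (8 + j))
    + val ω (dg a (4 * i + 3)) * val ω (dg b (12 + j)) := by
  unfold dot
  rw [val_xor, val_xor, val_xor, val_mul4, val_mul4, val_mul4, val_mul4]
  rfl

/-- code of the product of two matrices. -/
def mulC (a b : ℕ) : ℕ := enc ((List.range 16).map fun k => dot a b (Nat.div k 4) (Nat.mod k 4))

theorem dg_mulC (a b : ℕ) (i j : ℕ) (hi : i < 4) (hj : j < 4) :
    dg (mulC a b) (4 * i + j) = dot a b i j := by
  unfold mulC
  rw [dg_enc_map 16 _ (fun k => dot_lt _ _ _ _) _ (by omega)]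
  show dot a b ((4 * i + j) / 4) ((4 * i + j) % 4) = _
  congr 1 <;> omega

theorem toMat_mulC (a b : ℕ) : toMat ω (mulC a b) = toMat ω a * toMat ω b := by
  ext i j
  simp only [toMat, Matrix.of_apply, Matrix.mul_apply, Fintype.sum_sum_type, Fin.sum_univ_two]
  rw [dg_mulC a b _ _ (idx_lt i) (idx_lt j), val_dot]
  simp only [idx, Fin.val_zero, Fin.val_one, mul_zero, zero_add, mul_one, add_zero]
  ring

/-- code of the transpose. -/
def trC (a : ℕ) : ℕ :=
  enc ((List.range 16).map fun k => dg a (Nat.add (Nat.mul 4 (Nat.mod k 4)) (Nat.div k 4)))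

omit [Om K ω] in
theorem toMat_trC (a : ℕ) : toMat ω (trC a) = (toMat ω a).transpose := by
  ext i j
  simp only [toMat, Matrix.of_apply, Matrix.transpose_apply]
  unfold trC
  have hi := idx_lt i
  have hj := idx_lt j
  rw [dg_enc_map 16 _ (fun k => dg_lt _ _) _ (by omega)]
  show val ω (dg a (4 * ((4 * idx i + idx j) % 4) + (4 * idx i + idx j) / 4)) = _
  congr 2
  omega

/-- code of the identity matrix. -/
def cOne : ℕ := 0x1000010000100001

/-- code of the matrix `J`. -/
def cJ : ℕ := 0x0010000110000100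

omit [Om K ω] in
theorem val_zero' : val ω 0 = 0 := by simp [val]

omit [Om K ω] in
theorem val_one' : val ω 1 = 1 := by
  have h : Nat.testBit 1 0 = true := by decide
  have h' : Nat.testBit 1 1 = false := by decide
  simp [val, h, h']

omit [Om K ω] in
theorem toMat_cOne : toMat ω cOne = 1 := by
  have h : ∀ k < 16, dg cOne k = if k % 5 = 0 then 1 else 0 := by decide
  ext i j
  simp only [toMat, Matrix.of_apply]
  rw [h _ (by have := idx_lt i; have := idx_lt j; omega)]
  rcases i with i | i <;> rcases j with j | j <;> fin_cases i <;> fin_cases j <;>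
    simp [idx, val_zero', val_one']

theorem toMat_cJ : toMat ω cJ = Matrix.J (Fin 2) K := by
  have h : ∀ k < 16, dg cJ k = if k = 2 ∨ k = 7 ∨ k = 8 ∨ k = 13 then 1 else 0 := by decide
  have h1 : (-1 : K) = 1 := by linear_combination -(add_self' ω (1 : K))
  ext i j
  simp only [toMat, Matrix.of_apply]
  rw [h _ (by have := idx_lt i; have := idx_lt j; omega)]
  rcases i with i | i <;> rcases j with j | j <;> fin_cases i <;> fin_cases j <;>
    simp [idx, val_zero', val_one', Matrix.J, h1]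

/-- the code is that of a symplectic matrix. -/
def spOK (a : ℕ) : Bool := Nat.beq (mulC (mulC a cJ) (trC a)) cJ

theorem mem_of_spOK {a : ℕ} (h : spOK a = true) : toMat ω a ∈ Matrix.symplecticGroup (Fin 2) K := by
  rw [SymplecticGroup.mem_iff, ← toMat_cJ ω, ← toMat_trC, ← toMat_mulC, ← toMat_mulC,
    Nat.eq_of_beq_eq_true h]

/-- the element of the symplectic group with code `c` (junk value `1`). -/
noncomputable def gen (c : ℕ) : Matrix.symplecticGroup (Fin 2) K := by
  classical
  exact if h : toMat ω c ∈ Matrix.symplecticGroup (Fin 2) K then ⟨toMat ω c, h⟩ else 1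

/-- `c` is a code of the matrix of `g`. -/
def Rep (g : Matrix.symplecticGroup (Fin 2) K) (c : ℕ) : Prop := (g : Matrix I4 I4 K) = toMat ω c

variable {ω}

theorem Rep.mul {g h : Matrix.symplecticGroup (Fin 2) K} {a b : ℕ} (hg : Rep ω g a)
    (hh : Rep ω h b) : Rep ω (g * h) (mulC a b) := by
  unfold Rep at *
  rw [Submonoid.coe_mul, hg, hh, toMat_mulC]

omit [Om K ω] in
theorem Rep.one : Rep ω 1 cOne := by
  unfold Rep
  rw [Submonoid.coe_one, toMat_cOne]

theorem rep_gen {c : ℕ} (h : spOK c = true) : Rep ω (gen ω c) c := by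
  have h1 := mem_of_spOK ω h
  unfold Rep gen
  rw [dif_pos h1]

theorem Rep.inv {g : Matrix.symplecticGroup (Fin 2) K} {a b : ℕ} (hg : Rep ω g a)
    (hab : mulC a b = cOne) : Rep ω g⁻¹ b := by
  unfold Rep at *
  have h1 : (g : Matrix I4 I4 K) * toMat ω b = 1 := by rw [hg, ← toMat_mulC, hab, toMat_cOne]
  have h2 : ((g⁻¹ : Matrix.symplecticGroup (Fin 2) K) : Matrix I4 I4 K) * (g : Matrix I4 I4 K) = 1 := by
    rw [← Submonoid.coe_mul, inv_mul_cancel, Submonoid.coe_one]
  calc ((g⁻¹ : Matrix.symplecticGroup (Fin 2) K) : Matrix I4 I4 K)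
      = ((g⁻¹ : Matrix.symplecticGroup (Fin 2) K) : Matrix I4 I4 K) * ((g : Matrix I4 I4 K) * toMat ω b) := by
        rw [h1, mul_one]
    _ = toMat ω b := by rw [← mul_assoc, h2, one_mul]

omit [Om K ω] in
theorem Rep.eq_one {g : Matrix.symplecticGroup (Fin 2) K} (hg : Rep ω g cOne) : g = 1 := by
  apply Subtype.ext
  rw [Submonoid.coe_one, ← toMat_cOne ω]
  exact hg

/-- the two codes differ at digit `k`. -/
theorem Rep.ne_one {g : Matrix.symplecticGroup (Fin 2) K} {c : ℕ} (hg : Rep ω g c) (k : ℕ)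
    (hk : k < 16) (h : dg c k % 4 ≠ dg cOne k % 4) : g ≠ 1 := by
  rintro rfl
  apply h
  have h1 : toMat ω c = toMat ω cOne := by
    rw [← hg, toMat_cOne, Submonoid.coe_one]
  obtain ⟨i, hi⟩ : ∃ i : I4, idx i = k / 4 := by
    have : k / 4 < 4 := by omega
    interval_cases k / 4
    · exact ⟨.inl 0, rfl⟩
    · exact ⟨.inl 1, rfl⟩
    · exact ⟨.inr 0, rfl⟩
    · exact ⟨.inr 1, rfl⟩
  obtain ⟨j, hj⟩ : ∃ i : I4, idx i = k % 4 := by
    have : k % 4 < 4 := by omega
    interval_cases k % 4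
    · exact ⟨.inl 0, rfl⟩
    · exact ⟨.inl 1, rfl⟩
    · exact ⟨.inr 0, rfl⟩
    · exact ⟨.inr 1, rfl⟩
  have h2 := congrFun (congrFun h1 i) j
  simp only [toMat, Matrix.of_apply, hi, hj] at h2
  have h3 : 4 * (k / 4) + k % 4 = k := by omega
  rw [h3] at h2
  exact val_inj ω h2

variable (ω) {α : Type}

/-- validity of a pair (code, code of the inverse). -/
def valid (p : ℕ × ℕ) : Bool := spOK p.1 && Nat.beq (mulC p.1 p.2) cOne

/-- the word is trivial. -/
def check (cd : α → ℕ × ℕ) (e : WExp α) : Bool := Nat.beq (ev mulC cOne cd e false) cOne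

theorem rep_lift (cd : α → ℕ × ℕ) (hv : ∀ a, valid (cd a) = true) (e : WExp α) :
    Rep ω (FreeGroup.lift (fun a => gen ω (cd a).1) e.eval) (ev mulC cOne cd e false) := by
  have hv' : ∀ a, spOK (cd a).1 = true ∧ mulC (cd a).1 (cd a).2 = cOne := by
    intro a
    have := hv a
    simp only [valid, Bool.and_eq_true] at this
    exact ⟨this.1, Nat.eq_of_beq_eq_true this.2⟩
  exact (rep_ev (Rep ω) mulC cOne (fun _ _ _ _ => Rep.mul) Rep.one cd (fun a => gen ω (cd a).1)
    (fun a => rep_gen (hv' a).1) (fun a => (rep_gen (hv' a).1).inv (hv' a).2) e).1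

theorem lift_eq_one (cd : α → ℕ × ℕ) (hv : ∀ a, valid (cd a) = true) (e : WExp α)
    (h : check cd e = true) : FreeGroup.lift (fun a => gen ω (cd a).1) e.eval = 1 := by
  have h1 := rep_lift ω cd hv e
  rw [Nat.eq_of_beq_eq_true h] at h1
  exact h1.eq_one

theorem gen_ne_one {c : ℕ} (h : spOK c = true) (k : ℕ) (hk : k < 16)
    (h2 : dg c k % 4 ≠ dg cOne k % 4) : gen ω c ≠ 1 :=
  (rep_gen h).ne_one k hk h2

end gen

/-! ### a concrete field with four elements -/

abbrev K4 := GaloisField 2 2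

noncomputable instance fintypeK4 : Fintype K4 := Fintype.ofFinite _

theorem card_K4 : Fintype.card K4 = 4 := by
  rw [← Nat.card_eq_fintype_card, GaloisField.card 2 2 (by norm_num)]
  norm_num

theorem exists_om : ∃ ω : K4, ω ^ 2 + ω + 1 = 0 := by
  classical
  obtain ⟨x, hx⟩ : ∃ x : K4, x ∉ ({0, 1} : Finset K4) := by
    by_contra hcon
    push Not at hcon
    have h1 : (Finset.univ : Finset K4) ⊆ {0, 1} := fun x _ => hcon x
    have h2 := Finset.card_le_card h1
    rw [Finset.card_univ, card_K4] at h2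
    have h3 : ({0, 1} : Finset K4).card ≤ 2 := Finset.card_le_two
    omega
  simp only [Finset.mem_insert, Finset.mem_singleton, not_or] at hx
  refine ⟨x, ?_⟩
  have h3 : x ^ 3 = 1 := by
    have := FiniteField.pow_card_sub_one_eq_one x hx.1
    rwa [card_K4] at this
  have h4 : (x - 1) * (x ^ 2 + x + 1) = 0 := by linear_combination h3
  rcases mul_eq_zero.mp h4 with h | h
  · exact absurd (sub_eq_zero.mp h) hx.2
  · exact h

noncomputable def om : K4 := exists_om.choose

instance omK4 : Om K4 om where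
  two := by
    have h4 : ((4 : ℕ) : K4) = 0 := by rw [← card_K4]; exact Nat.cast_card_eq_zero K4
    have h5 : (2 : K4) * 2 = 0 := by
      have : ((4 : ℕ) : K4) = 2 * 2 := by norm_num
      rw [← this, h4]
    exact mul_self_eq_zero.mp h5
  rel := exists_om.choose_spec

abbrev T : Type := ↥(Matrix.symplecticGroup (Fin 2) K4)

theorem card_T : Nat.card T = 979200 := by
  rw [Cfsg.Agent.S0245.result card_K4 2]
  norm_num [Finset.prod_range_succ]

instance finiteT : Finite T := Nat.finite_of_card_ne_zero (by rw [card_T]; norm_num)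

end Cfsg.Agent.Helper64M44
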