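import Cfsg.Agent.Lib.Helper64Ree3Vec
import Cfsg.Agent.Lib.Helper64ActPerm
import Cfsg.Prelude.Def_LieTwisted

/-!
# `²G₂(3)` as a permutation group of degree 84 (helper64)
-/

set_option autoImplicit false

namespace Cfsg.Agent.Helper64Ree3

open Cfsg.Lie Cfsg.Agent.Lib.Helper22ChevBasic
open Cfsg.Agent.Helper64J3 (allB allB_iff)

theorem hG2 : Std chevG2 := by simp

/-- the image of the vector `j` under `x_r(t)`. -/
def stepN (r : ℕ) (t : K3) (j : ℕ) : ℕ :=
  if t = 0 then j else if t = 1 then rt r j else rt r (rt r j)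

theorem step_ok (r : ℕ) (hr : r < 12) (t : K3) (j : ℕ) (hj : j < 728) :
    stepN r t j < 728 ∧
      Matrix.mulVec (xG hG2 r t : Matrix I14 I14 K3) (VV j) = VV (stepN r t j) := by
  have hx : (xG hG2 r (1 : K3) : Matrix I14 I14 K3) = chevG2.xMat K3 ⟨r, hr⟩ 1 := by
    show chevG2.x K3 r 1 = _
    unfold ChevalleyDatum.x
    have hr' : r < chevG2.nroots := hr
    rw [dif_pos hr']
  have ht : ∀ t : K3, t = 0 ∨ t = 1 ∨ t = 2 := by decide
  have h1 := root1 ⟨r, hr⟩ j hj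
  rcases ht t with rfl | rfl | rfl
  · refine ⟨hj, ?_⟩
    rw [xG_zero]
    simp [stepN]
  · refine ⟨h1.1, ?_⟩
    rw [hx]
    exact h1.2
  · have h2 := root1 ⟨r, hr⟩ _ h1.1
    refine ⟨h2.1, ?_⟩
    have e : xG hG2 r (2 : K3) = xG hG2 r 1 * xG hG2 r 1 := by
      rw [xG_add]; rfl
    rw [e, Units.val_mul, ← Matrix.mulVec_mulVec, hx]
    exact (congrArg (Matrix.mulVec (chevG2.xMat K3 ⟨r, hr⟩ 1)) h1.2).trans h2.2

/-- the image of the vector `j` under a word. -/
def wordN (w : List (ℕ × K3)) (j : ℕ) : ℕ := w.foldr (fun p acc => stepN p.1 p.2 acc) j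

theorem word_ok (w : List (ℕ × K3)) (hw : ∀ p ∈ w, p.1 < 12) (j : ℕ) (hj : j < 728) :
    wordN w j < 728 ∧
      Matrix.mulVec (wordG hG2 w : Matrix I14 I14 K3) (VV j) = VV (wordN w j) := by
  induction w with
  | nil => exact ⟨hj, by simp [wordN]⟩
  | cons p w ih =>
    obtain ⟨h1, h2⟩ := ih (fun q hq => hw q (List.mem_cons_of_mem _ hq))
    have h3 := step_ok p.1 (hw p List.mem_cons_self) p.2 _ h1
    refine ⟨h3.1, ?_⟩
    rw [wordG_cons, Units.val_mul, ← Matrix.mulVec_mulVec, h2]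
    exact h3.2

/-- the generating words. -/
def wd (k : Fin 54) : List (ℕ × K3) :=
  if k.val < 27 then
    reeWordU 1 ((k.val / 9 % 3 : ℕ) : K3) ((k.val / 3 % 3 : ℕ) : K3) ((k.val % 3 : ℕ) : K3)
  else
    reeWordV 1 ((k.val / 9 % 3 : ℕ) : K3) ((k.val / 3 % 3 : ℕ) : K3) ((k.val % 3 : ℕ) : K3)

theorem exU : ∀ t u v : K3, ∃ k : Fin 54, wd k = reeWordU 1 t u v := by decide +kernel
theorem exV : ∀ t u v : K3, ∃ k : Fin 54, wd k = reeWordV 1 t u v := by decide +kernel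

theorem wd_lt : ∀ k : Fin 54, ∀ p ∈ wd k, p.1 < 12 := by decide +kernel

/-- the generators. -/
noncomputable def GW (k : Fin 54) : GL I14 K3 := wordG hG2 (wd k)

theorem R_eq : twistedG2 K3 1 = Subgroup.closure (Set.range GW) := by
  unfold twistedG2 ChevalleyDatum.genSubgroup
  congr 1
  ext g
  simp only [Set.mem_ofPred_eq, Set.mem_range]
  constructor
  · rintro ⟨w, ⟨t, u, v, rfl | rfl⟩, hg⟩
    · obtain ⟨k, hk⟩ := exU t u v
      exact ⟨k, by rw [GW, hk]; exact ((eq_wordG_iff hG2 g _).mp hg).symm⟩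
    · obtain ⟨k, hk⟩ := exV t u v
      exact ⟨k, by rw [GW, hk]; exact ((eq_wordG_iff hG2 g _).mp hg).symm⟩
  · rintro ⟨k, rfl⟩
    refine ⟨wd k, ?_, (eq_wordG_iff hG2 _ _).mpr rfl⟩
    unfold wd
    split_ifs
    · exact ⟨_, _, _, Or.inl rfl⟩
    · exact ⟨_, _, _, Or.inr rfl⟩

/-! ### the permutations of the 84 vectors -/

def tb7 (T i : ℕ) : ℕ := (T >>> (7 * i)) &&& 127
def thT (k : ℕ) : ℕ := rTH >>> (588 * k)
def tiT (k : ℕ) : ℕ := rTI >>> (588 * k)

set_option maxRecDepth 100000 in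
theorem th_ok : ∀ k : Fin 54, ∀ i : Fin 84, tb7 (thT k) i < 84 ∧ tb7 (tiT k) i < 84 ∧
    tb7 (tiT k) (tb7 (thT k) i) = i ∧ tb7 (thT k) (tb7 (tiT k) i) = i := by decide +kernel

def T84 (k : Fin 54) : Equiv.Perm (Fin 84) where
  toFun i := ⟨tb7 (thT k) i, (th_ok k i).1⟩
  invFun i := ⟨tb7 (tiT k) i, (th_ok k i).2.1⟩
  left_inv i := Fin.ext (th_ok k i).2.2.1
  right_inv i := Fin.ext (th_ok k i).2.2.2

theorem T84_apply (k : Fin 54) (i : Fin 84) : ((T84 k i : Fin 84) : ℕ) = tb7 (thT k) i := rfl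

set_option maxRecDepth 100000 in
theorem wd_check : ∀ k : Fin 54, ∀ j : Fin 84, wordN (wd k) j.val = tb7 (thT k) j := by
  decide +kernel

theorem GW_act (k : Fin 54) (j : Fin 84) :
    Matrix.mulVec (GW k : Matrix I14 I14 K3) (VV j.val) = VV (T84 k j).val := by
  have h := (word_ok (wd k) (wd_lt k) j.val (by have := j.isLt; omega)).2
  rw [wd_check k j] at h
  exact h

set_option maxRecDepth 100000 in
theorem VV_inj : ∀ i j : Fin 84, VV i.val = VV j.val → i = j := by decide +kernel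

def Bm : Matrix I14 (Fin 14) K3 := Matrix.of fun l k => VV (tb7 rBas k.val) l
def Bi : Matrix (Fin 14) I14 K3 := Matrix.of fun k l => vec3 (rBi >>> (28 * k.val)) l

set_option maxRecDepth 100000 in
theorem Bm_mul : Bm * Bi = 1 := by decide +kernel

theorem bas_lt : ∀ k : Fin 14, tb7 rBas k.val < 84 := by decide +kernel

theorem faithful (x : GL I14 K3)
    (hx : ∀ j : Fin 84, Matrix.mulVec (x : Matrix I14 I14 K3) (VV j.val) = VV j.val) : x = 1 := by
  have h : (x : Matrix I14 I14 K3) * Bm = Bm := by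
    ext l k
    exact congrFun (hx ⟨tb7 rBas k.val, bas_lt k⟩) l
  apply Units.ext
  calc (x : Matrix I14 I14 K3) = (x : Matrix I14 I14 K3) * (Bm * Bi) := by rw [Bm_mul, mul_one]
    _ = Bm * Bi := by rw [← Matrix.mul_assoc, h]
    _ = 1 := Bm_mul

/-- `²G₂(3)` on 84 points. -/
def P84 : Subgroup (Equiv.Perm (Fin 84)) := Subgroup.closure (Set.range T84)

theorem equiv_R_P84 : Nonempty (twistedG2 K3 1 ≃* P84) := by
  rw [R_eq]
  exact Cfsg.Agent.Helper64ActPerm.closure_equiv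
    (fun (g : GL I14 K3) w => Matrix.mulVec (g : Matrix I14 I14 K3) w)
    (fun w => by simp) (fun a b w => by simp [Matrix.mulVec_mulVec])
    (fun j : Fin 84 => VV j.val) (fun i j h => VV_inj i j h) GW T84 GW_act faithful

end Cfsg.Agent.Helper64Ree3
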