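import Mathlib

/-!
`SL₂` of a field is generated by elementary matrices.
-/

namespace Cfsg.Agent.Lib.Helper85SL

open Matrix

variable {K : Type*} [Field K]

/-- upper elementary matrix -/
def uu {R : Type*} [CommRing R] (t : R) : SpecialLinearGroup (Fin 2) R := ⟨!![1, t; 0, 1], by simp [det_fin_two]⟩

/-- lower elementary matrix -/
def ll {R : Type*} [CommRing R] (t : R) : SpecialLinearGroup (Fin 2) R := ⟨!![1, 0; t, 1], by simp [det_fin_two]⟩

theorem uu_val {R : Type*} [CommRing R] (t : R) : (uu t : Matrix (Fin 2) (Fin 2) R) = !![1, t; 0, 1] := rfl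

theorem ll_val {R : Type*} [CommRing R] (t : R) : (ll t : Matrix (Fin 2) (Fin 2) R) = !![1, 0; t, 1] := rfl

theorem ll_mul_ll {R : Type*} [CommRing R] (s t : R) : ll s * ll t = ll (s + t) := by
  ext i j
  fin_cases i <;> fin_cases j <;> simp [ll_val, Matrix.mul_apply, Fin.sum_univ_two]

theorem ll_zero {R : Type*} [CommRing R] : ll (0 : R) = 1 := by
  ext i j
  fin_cases i <;> fin_cases j <;> simp [ll_val]

theorem mem_closure_of_ne (g : SpecialLinearGroup (Fin 2) K) (hc : g 1 0 ≠ 0) :
    g ∈ Subgroup.closure (Set.range (uu : K → _) ∪ Set.range (ll : K → _)) := by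
  have hdet : g 0 0 * g 1 1 - g 0 1 * g 1 0 = 1 := by
    have := g.2
    rwa [det_fin_two] at this
  have : g = uu ((g 0 0 - 1) / g 1 0) * ll (g 1 0) * uu ((g 1 1 - 1) / g 1 0) := by
    ext i j
    fin_cases i <;> fin_cases j
    · simp [uu_val, ll_val, Matrix.mul_apply, Fin.sum_univ_two]
      field_simp
      ring
    · simp [uu_val, ll_val, Matrix.mul_apply, Fin.sum_univ_two]
      field_simp
      linear_combination (-1 : K) * hdet
    · simp [uu_val, ll_val, Matrix.mul_apply, Fin.sum_univ_two]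
    · simp [uu_val, ll_val, Matrix.mul_apply, Fin.sum_univ_two]
      field_simp
      ring
  rw [this]
  refine Subgroup.mul_mem _ (Subgroup.mul_mem _ ?_ ?_) ?_
  · exact Subgroup.subset_closure (Or.inl ⟨_, rfl⟩)
  · exact Subgroup.subset_closure (Or.inr ⟨_, rfl⟩)
  · exact Subgroup.subset_closure (Or.inl ⟨_, rfl⟩)

theorem closure_eq_top : Subgroup.closure (Set.range (uu : K → _) ∪ Set.range (ll : K → _)) = ⊤ := by
  rw [eq_top_iff]
  intro g _
  by_cases hc : g 1 0 = 0
  · have hdet : g 0 0 * g 1 1 - g 0 1 * g 1 0 = 1 := by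
      have := g.2
      rwa [det_fin_two] at this
    have ha : g 0 0 ≠ 0 := by
      intro h0
      rw [h0, hc] at hdet
      simp at hdet
    have h1 : (ll (1 : K) * g) 1 0 ≠ 0 := by
      have : (ll (1 : K) * g) 1 0 = g 0 0 + g 1 0 := by
        simp [ll_val, Matrix.mul_apply, Fin.sum_univ_two]
      rw [this, hc, add_zero]; exact ha
    have h2 := mem_closure_of_ne _ h1
    have h3 : g = ll (-1) * (ll 1 * g) := by
      rw [← mul_assoc, ll_mul_ll]
      simp [ll_zero]
    rw [h3]
    exact Subgroup.mul_mem _ (Subgroup.subset_closure (Or.inr ⟨_, rfl⟩)) h2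
  · exact mem_closure_of_ne g hc

end Cfsg.Agent.Lib.Helper85SL
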