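import Cfsg.Agent.Lib.Helper64Ree3Perm
import Cfsg.Agent.Lib.Helper64F8
import Cfsg.Agent.Lib.Helper85SL
import Cfsg.Agent.Lib.Helper64SL2
import Cfsg.Agent.Lib.Helper6SL2Syl
import Cfsg.Agent.Lib.Helper6Transport
import Cfsg.Agent.Lib.Helper18GamI

/-!
# The commutator subgroup of `²G₂(3)` is `PSL₂(8)` (helper64)
-/

set_option autoImplicit false

namespace Cfsg.Agent.Helper64Ree3

open Matrix Cfsg.Agent.Helper64F8 Cfsg.Lie

abbrev S8 := SpecialLinearGroup (Fin 2) F8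

def f8 (x : ℕ) : F8 := ⟨((x &&& 1 : ℕ) : ZMod 2), (((x >>> 1) &&& 1 : ℕ) : ZMod 2),
  (((x >>> 2) &&& 1 : ℕ) : ZMod 2)⟩

/-- the matrix of the transvection belonging to a vector. -/
def tvM (w0 w1 : F8) : Matrix (Fin 2) (Fin 2) F8 := !![1 + w0 * w1, w0 * w0; w1 * w1, 1 + w0 * w1]

theorem tvM_det (w0 w1 : F8) : (tvM w0 w1).det = 1 := by
  rw [det_fin_two]
  revert w0 w1
  decide +kernel

def wv0 (j : ℕ) : F8 := f8 ((rWV >>> (6 * j)) &&& 7)
def wv1 (j : ℕ) : F8 := f8 ((rWV >>> (6 * j + 3)) &&& 7)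

/-- the 63 involutions of `SL₂(8)`. -/
def s8 (j : Fin 63) : S8 := ⟨tvM (wv0 j.val) (wv1 j.val), tvM_det _ _⟩

set_option maxRecDepth 100000 in
theorem s8_inj' : ∀ i j : Fin 63, (s8 i).1 = (s8 j).1 → i = j := by decide +kernel

theorem s8_injective : Function.Injective s8 := fun i j h => s8_inj' i j (congrArg Subtype.val h)

set_option maxRecDepth 100000 in
theorem s8_conj' : ∀ a : Fin 3, ∀ j : Fin 63,
    (s8 (ridx a)).1 * (s8 j).1 = (s8 (rho a j)).1 * (s8 (ridx a)).1 := by decide +kernel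

theorem s8_conj (a : Fin 3) (j : Fin 63) :
    s8 (ridx a) * s8 j * (s8 (ridx a))⁻¹ = s8 (rho a j) := by
  rw [mul_inv_eq_iff_eq_mul]
  apply Subtype.ext
  exact s8_conj' a j

set_option maxRecDepth 100000 in
theorem uu_mem' : ∀ t : F8, t = 0 ∨ ∃ j : Fin 63, !![1, t; 0, 1] = (s8 j).1 := by decide +kernel

set_option maxRecDepth 100000 in
theorem ll_mem' : ∀ t : F8, t = 0 ∨ ∃ j : Fin 63, !![1, 0; t, 1] = (s8 j).1 := by decide +kernel

open Cfsg.Agent.Lib.Helper85SL in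
theorem closure_s8 : Subgroup.closure (Set.range s8) = ⊤ := by
  rw [eq_top_iff, ← closure_eq_top (K := F8), Subgroup.closure_le]
  rintro _ (⟨t, rfl⟩ | ⟨t, rfl⟩)
  · rcases uu_mem' t with rfl | ⟨j, hj⟩
    · have : (uu (0 : F8)) = 1 := by
        ext i j
        fin_cases i <;> fin_cases j <;> simp [uu_val]
      rw [this]; exact Subgroup.one_mem _
    · have : uu t = s8 j := Subtype.ext hj
      rw [this]; exact Subgroup.subset_closure ⟨j, rfl⟩
  · rcases ll_mem' t with rfl | ⟨j, hj⟩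
    · rw [ll_zero]; exact Subgroup.one_mem _
    · have : ll t = s8 j := Subtype.ext hj
      rw [this]; exact Subgroup.subset_closure ⟨j, rfl⟩

theorem equiv_PSL_Q63 : Nonempty (ProjectiveSpecialLinearGroup (Fin 2) F8 ≃* Q63) := by
  have hgen : Subgroup.closure (Set.range fun a => s8 (ridx a)) = ⊤ := by
    rw [Cfsg.Agent.Helper64ConjAct.closure_eq_of_transitive s8 ridx rho s8_conj 0
      (fun j => Q63_reach j), closure_s8]
  exact Cfsg.Agent.Helper64ConjAct.quot_center_equiv s8 s8_injective ridx rho hgen s8_conj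

theorem card_PSL : Nat.card (ProjectiveSpecialLinearGroup (Fin 2) F8) = 504 := by
  have h1 := Cfsg.Agent.Lib.Helper6SL2Syl.card_SL2 (F := F8)
  rw [card_F8] at h1
  have h2 := Subgroup.card_eq_card_quotient_mul_card_subgroup (Subgroup.center S8)
  rw [Cfsg.Agent.Lib.Helper64SL2.center_eq_bot, Subgroup.card_bot, mul_one, h1] at h2
  have h3 : Nat.card (ProjectiveSpecialLinearGroup (Fin 2) F8) =
      Nat.card (S8 ⧸ (⊥ : Subgroup S8)) := by
    show Nat.card (S8 ⧸ Subgroup.center S8) = _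
    rw [Cfsg.Agent.Lib.Helper64SL2.center_eq_bot]
  rw [h3, ← h2]; norm_num

theorem equiv_comm_R :
    Nonempty (↥(commutator ↥(twistedG2 K3 1)) ≃* ProjectiveSpecialLinearGroup (Fin 2) F8) := by
  obtain ⟨e1⟩ := equiv_R_P84
  obtain ⟨e2⟩ := equiv_P84_PR
  obtain ⟨e3⟩ := equiv_comm_PR
  obtain ⟨e4⟩ := equiv_PSL_Q63
  exact ⟨((Cfsg.Agent.Lib.Helper18GamI.commEquiv (e1.trans e2)).trans e3).trans e4.symm⟩

theorem main {L : Type*} [Field L] [Fintype L] (hL : Fintype.card L = 8) :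
    Nat.card ↥(commutator ↥(twistedG2 (ZMod 3) 1)) = 504 ∧
      Nonempty (↥(commutator ↥(twistedG2 (ZMod 3) 1)) ≃*
        Matrix.ProjectiveSpecialLinearGroup (Fin 2) L) := by
  obtain ⟨e⟩ := equiv_comm_R
  obtain ⟨f⟩ := Cfsg.Agent.Lib.Helper6Transport.nonempty_pslEquiv (n := Fin 2) (F := F8) (K := L)
    (card_F8.trans hL.symm)
  exact ⟨by rw [Nat.card_congr e.toEquiv, card_PSL], ⟨e.trans f⟩⟩

end Cfsg.Agent.Helper64Ree3
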