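import Cfsg.Agent.Lib.Helper64Ree3Act
import Cfsg.Agent.Lib.Helper64CommPat

/-!
# `²G₂(3)` on its 63 involutions and its commutator subgroup (helper64)
-/

set_option autoImplicit false

namespace Cfsg.Agent.Helper64Ree3

open scoped commutatorElement
open Cfsg.Agent.Helper64J3 (allB allB_iff)

def tb6 (T i : ℕ) : ℕ := (T >>> (6 * i)) &&& 63
def tauT (j : ℕ) : ℕ := rTau >>> (588 * j)
def phT (k : ℕ) : ℕ := rPh >>> (378 * k)
def piT (k : ℕ) : ℕ := rPI >>> (378 * k)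
def taT (j : ℕ) : ℕ := rTa >>> (378 * j)

set_option maxRecDepth 100000 in
theorem tau84_ok : ∀ j : Fin 63, ∀ i : Fin 84,
    tb7 (tauT j) i < 84 ∧ tb7 (tauT j) (tb7 (tauT j) i) = i := by decide +kernel

/-- the involutions on 84 points. -/
def tau84 (j : Fin 63) : Equiv.Perm (Fin 84) where
  toFun i := ⟨tb7 (tauT j) i, (tau84_ok j i).1⟩
  invFun i := ⟨tb7 (tauT j) i, (tau84_ok j i).1⟩
  left_inv i := Fin.ext (tau84_ok j i).2
  right_inv i := Fin.ext (tau84_ok j i).2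

set_option maxRecDepth 100000 in
theorem ph_ok : ∀ k : Fin 54, ∀ i : Fin 63, tb6 (phT k) i < 63 ∧ tb6 (piT k) i < 63 ∧
    tb6 (piT k) (tb6 (phT k) i) = i ∧ tb6 (phT k) (tb6 (piT k) i) = i := by decide +kernel

/-- the generators on the 63 involutions. -/
def ph (k : Fin 54) : Equiv.Perm (Fin 63) where
  toFun i := ⟨tb6 (phT k) i, (ph_ok k i).1⟩
  invFun i := ⟨tb6 (piT k) i, (ph_ok k i).2.1⟩
  left_inv i := Fin.ext (ph_ok k i).2.2.1
  right_inv i := Fin.ext (ph_ok k i).2.2.2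

set_option maxRecDepth 100000 in
theorem ta_ok : ∀ j : Fin 63, ∀ i : Fin 63,
    tb6 (taT j) i < 63 ∧ tb6 (taT j) (tb6 (taT j) i) = i := by decide +kernel

/-- the involutions on the 63 involutions. -/
def ta (j : Fin 63) : Equiv.Perm (Fin 63) where
  toFun i := ⟨tb6 (taT j) i, (ta_ok j i).1⟩
  invFun i := ⟨tb6 (taT j) i, (ta_ok j i).1⟩
  left_inv i := Fin.ext (ta_ok j i).2
  right_inv i := Fin.ext (ta_ok j i).2

set_option maxRecDepth 100000 in
theorem conj84_check : ∀ k : Fin 54, ∀ j : Fin 63, ∀ i : Fin 84,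
    tb7 (thT k) (tb7 (tauT j) i) = tb7 (tauT (tb6 (phT k) j)) (tb7 (thT k) i) := by decide +kernel

theorem conj84 (k : Fin 54) (j : Fin 63) : T84 k * tau84 j * (T84 k)⁻¹ = tau84 (ph k j) := by
  rw [mul_inv_eq_iff_eq_mul]
  ext i
  exact conj84_check k j i

set_option maxRecDepth 100000 in
theorem tau84_inj : ∀ i j : Fin 63, tau84 i = tau84 j → i = j := by decide +kernel

def fpA (p : ℕ) : ℕ := (rFP >>> (12 * p)) &&& 63
def fpB (p : ℕ) : ℕ := (rFP >>> (12 * p + 6)) &&& 63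

set_option maxRecDepth 100000 in
theorem fp_check : ∀ p : Fin 84, fpA p < 63 ∧ fpB p < 63 ∧ tb7 (tauT (fpA p)) p = p ∧
    tb7 (tauT (fpB p)) p = p ∧
    ∀ q : Fin 84, tb7 (tauT (fpA p)) q = q → tb7 (tauT (fpB p)) q = q → q = p := by decide +kernel

theorem faithful84 (x : Equiv.Perm (Fin 84)) (hx : ∀ j, x * tau84 j * x⁻¹ = tau84 j) : x = 1 := by
  ext p
  obtain ⟨ha, hb, h1, h2, h3⟩ := fp_check p
  have key : ∀ j : Fin 63, tau84 j p = p → tau84 j (x p) = x p := by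
    intro j hj
    have h := congrArg (fun f : Equiv.Perm (Fin 84) => f (x p)) (hx j)
    simp only [Equiv.Perm.mul_apply] at h
    have e : x⁻¹ (x p) = p := x.symm_apply_apply p
    rw [e] at h
    rw [← h, hj]
  have k1 := key ⟨fpA p, ha⟩ (Fin.ext h1)
  have k2 := key ⟨fpB p, hb⟩ (Fin.ext h2)
  have := h3 (x p) (congrArg Fin.val k1) (congrArg Fin.val k2)
  rw [this]
  rfl

/-- `²G₂(3)` on 63 points. -/
def PR : Subgroup (Equiv.Perm (Fin 63)) := Subgroup.closure (Set.range ph)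

theorem equiv_P84_PR : Nonempty (P84 ≃* PR) :=
  Cfsg.Agent.Helper64ActPerm.closure_equiv
    (fun (g x : Equiv.Perm (Fin 84)) => g * x * g⁻¹) (fun x => by simp)
    (fun a b x => by group) tau84 (fun i j h => tau84_inj i j h) T84 ph conj84 faithful84

/-! ### the commutator subgroup -/

set_option maxRecDepth 100000 in
theorem conj63_check : ∀ k : Fin 54, ∀ j i : Fin 63,
    tb6 (phT k) (tb6 (taT j) i) = tb6 (taT (tb6 (phT k) j)) (tb6 (phT k) i) := by decide +kernel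

theorem conj63 (k : Fin 54) (j : Fin 63) : ph k * ta j * (ph k)⁻¹ = ta (ph k j) := by
  rw [mul_inv_eq_iff_eq_mul]
  ext i
  exact conj63_check k j i

def ridx : Fin 3 → Fin 63 := ![28, 55, 35]

/-- three generating involutions. -/
def rho (a : Fin 3) : Equiv.Perm (Fin 63) := ta (ridx a)

def Q63 : Subgroup (Equiv.Perm (Fin 63)) := Subgroup.closure (Set.range rho)

theorem ph_mem (k : Fin 54) : ph k ∈ PR := Subgroup.subset_closure ⟨k, rfl⟩

set_option maxRecDepth 100000 in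
theorem facts : ta 28 = ph 48 * ph 13 ∧ ph 42 28 = 55 ∧ ph 2 28 = 4 + (ph 2 28 - 4) ∧
    ph 41 (ph 2 28) = 35 ∧ ⁅ph 8, ph 36⁆ = ta 28 := by decide +kernel

theorem ta28_mem : ta 28 ∈ PR := by
  rw [facts.1]; exact PR.mul_mem (ph_mem _) (ph_mem _)

theorem rho_mem (a : Fin 3) : ta (ridx a) ∈ PR := by
  fin_cases a
  · exact ta28_mem
  · show ta 55 ∈ PR
    rw [← facts.2.1, ← conj63]
    exact PR.mul_mem (PR.mul_mem (ph_mem _) ta28_mem) (PR.inv_mem (ph_mem _))
  · show ta 35 ∈ PR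
    rw [← facts.2.2.2.1, ← conj63, ← conj63]
    exact PR.mul_mem (PR.mul_mem (ph_mem _)
      (PR.mul_mem (PR.mul_mem (ph_mem _) ta28_mem) (PR.inv_mem (ph_mem _)))) (PR.inv_mem (ph_mem _))

def sr (j : ℕ) : ℕ := (rSR >>> (16 * j)) &&& 65535
def srP (r : ℕ) : ℕ := Nat.mod r 64
def srK (r : ℕ) : ℕ := Nat.mod (Nat.shiftRight r 6) 8
def srD (r : ℕ) : ℕ := Nat.shiftRight r 9

def selR (k : ℕ) : ℕ := if Nat.beq k 0 then taT 28 else if Nat.beq k 1 then taT 55 else taT 35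

def srOK (j : ℕ) : Bool :=
  if Nat.beq (srD (sr j)) 0 then Nat.beq j 28
  else Nat.blt (srP (sr j)) 63 && Nat.blt (srK (sr j)) 3 &&
    Nat.beq (Nat.add (srD (sr (srP (sr j)))) 1) (srD (sr j)) &&
    Nat.beq (tb6 (selR (srK (sr j))) (srP (sr j))) j

set_option maxRecDepth 100000 in
theorem srcheck : allB 63 srOK = true := by decide +kernel

theorem selR_eq (k : ℕ) (hk : k < 3) : selR k = taT (ridx ⟨k, hk⟩) := by
  interval_cases k <;> rfl

theorem Q63_reach (j : Fin 63) : ∃ σ ∈ Q63, σ (ridx 0) = j := by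
  have key : ∀ d : ℕ, ∀ j : ℕ, ∀ hj : j < 63, srD (sr j) = d →
      ∃ σ ∈ Q63, σ (28 : Fin 63) = ⟨j, hj⟩ := by
    intro d
    induction d with
    | zero =>
      intro j hj hd
      have h := (allB_iff _ _).mp srcheck j hj
      simp only [srOK, hd] at h
      have h2 : j = 28 := by simpa using h
      subst h2
      exact ⟨1, Q63.one_mem, rfl⟩
    | succ d ih =>
      intro j hj hd
      have h := (allB_iff _ _).mp srcheck j hj
      simp only [srOK, hd] at h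
      have hne : Nat.beq (d + 1) 0 = false := rfl
      rw [hne] at h
      simp only [Bool.false_eq_true, if_false, Bool.and_eq_true, Nat.blt_eq, Nat.beq_eq] at h
      obtain ⟨⟨⟨hp, hk⟩, hdp⟩, hj'⟩ := h
      have hdp' : srD (sr (srP (sr j))) = d := by
        have : srD (sr (srP (sr j))) + 1 = d + 1 := hdp
        omega
      obtain ⟨σ, hσ, hσ'⟩ := ih _ hp hdp'
      refine ⟨rho ⟨_, hk⟩ * σ, Q63.mul_mem (Subgroup.subset_closure ⟨_, rfl⟩) hσ, ?_⟩
      rw [Equiv.Perm.mul_apply, hσ']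
      apply Fin.ext
      show tb6 (taT (ridx ⟨_, hk⟩)) _ = j
      rw [← selR_eq]
      exact hj'
  exact key _ j.val j.isLt rfl

def lab (x : ℕ) : Fin 63 := ⟨x % 63, Nat.mod_lt _ (by norm_num)⟩
def e5 (k : ℕ) : ℕ := (rE5 >>> (32 * k)) &&& 4294967295
def e5E (k : ℕ) : ℕ := e5 k &&& 3
def e5L (k : ℕ) : ℕ := (e5 k >>> 2) &&& 7
def e5A (k : ℕ) : Fin 63 := lab ((e5 k >>> 5) &&& 63)
def e5B (k : ℕ) : Fin 63 := lab ((e5 k >>> 11) &&& 63)

set_option maxRecDepth 100000 in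
theorem e5_check : ∀ k : Fin 54, ph 3 ^ e5E k * ph k =
    if e5L k = 0 then 1 else if e5L k = 1 then ta (e5A k) else ta (e5A k) * ta (e5B k) := by
  decide +kernel

theorem comm_PR : ⁅PR, PR⁆ = Q63 := by
  refine Cfsg.Agent.Helper64CommPat.comm_eq ph ta ridx 0 conj63 rho_mem Q63_reach (ph 3) (ph_mem 3)
    ?_ ?_
  · intro k
    refine ⟨e5E k, ?_⟩
    rw [e5_check k]
    have htm : ∀ j, ta j ∈ Subgroup.closure (Set.range ta) :=
      fun j => Subgroup.subset_closure ⟨j, rfl⟩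
    split_ifs
    · exact Subgroup.one_mem _
    · exact htm _
    · exact Subgroup.mul_mem _ (htm _) (htm _)
  · show ta 28 ∈ _
    rw [← facts.2.2.2.2]
    exact Subgroup.commutator_mem_commutator (ph_mem 8) (ph_mem 36)

theorem equiv_comm_PR : Nonempty (↥(commutator PR) ≃* Q63) :=
  Cfsg.Agent.Helper64CommPat.equiv_comm PR Q63 comm_PR

end Cfsg.Agent.Helper64Ree3
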