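import Cfsg.Agent.Lib.Helper64Ree3Tab
import Cfsg.Agent.Lib.Helper64J3Core
import Cfsg.Agent.Lib.Helper22ChevBasic

/-!
# The root elements of `G₂(3)` on the 728 long root vectors (helper64)
-/

set_option autoImplicit false

namespace Cfsg.Agent.Helper64Ree3

open Cfsg.Lie Cfsg.Agent.Lib.Helper22ChevBasic
open Cfsg.Agent.Helper64J3 (allB allB_iff)

abbrev K3 := ZMod 3
abbrev I14 := chevG2.Idx

/-- evaluate the argument first (for the kernel). -/
def frc (v : ℕ) (f : ℕ → Bool) : Bool :=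
  @Nat.rec (fun _ => Bool) (f 0) (fun n _ => f (Nat.succ n)) v

theorem frc_eq (v : ℕ) (f : ℕ → Bool) : frc v f = f v := by cases v <;> rfl

/-- digit `k` of a code. -/
def dg (c k : ℕ) : ℕ := Nat.land (Nat.shiftRight c (Nat.mul 2 k)) 3

/-- the position of a coordinate. -/
def ix : I14 → ℕ
  | Sum.inl a => a.val
  | Sum.inr b => b.val + 2

/-- the vector with code `c`. -/
def vec3 (c : ℕ) : I14 → K3 := fun i => (dg c (ix i) : K3)

/-- the code of the matrix of the root element `x_r(1)`. -/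
def mtC (r : ℕ) : ℕ := Nat.shiftRight rMT (Nat.mul 392 r)

set_option maxRecDepth 100000 in
theorem mt_ok' : ∀ r : Fin 12, chevG2.xMat K3 r 1 =
    Matrix.of (fun i l : I14 => ((dg (mtC r.val) (14 * ix i + ix l) : ℕ) : K3)) := by decide +kernel

theorem mt_ok (r : Fin 12) (i l : I14) :
    chevG2.xMat K3 r 1 i l = (dg (mtC r.val) (14 * ix i + ix l) : K3) := by
  rw [mt_ok' r]; rfl

def sumN (n : ℕ) (f : ℕ → ℕ) : ℕ := @Nat.rec (fun _ => ℕ) 0 (fun l acc => Nat.add acc (f l)) n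

theorem sumN_eq (n : ℕ) (f : ℕ → ℕ) : sumN n f = ∑ l ∈ Finset.range n, f l := by
  induction n with
  | zero => rfl
  | succ n ih =>
    rw [Finset.sum_range_succ, ← ih]
    rfl

def rowOK (M c c' k : ℕ) : Bool :=
  Nat.beq (Nat.mod (sumN 14 fun l => Nat.mul (dg M (Nat.add (Nat.mul 14 k) l)) (dg c l)) 3) (dg c' k)

def mvOK (M c c' : ℕ) : Bool := allB 14 (rowOK M c c')

theorem ix_lt (i : I14) : ix i < 14 := by
  rcases i with a | b
  · have := a.isLt
    show a.val < 14
    have h2 : chevG2.rank = 2 := rfl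
    omega
  · have := b.isLt
    show b.val + 2 < 14
    have h2 : chevG2.nroots = 12 := rfl
    omega

theorem sum_ix (f : ℕ → K3) : ∑ l : I14, f (ix l) = ∑ l ∈ Finset.range 14, f l := by
  have h1 : ∑ l : I14, f (ix l) = ∑ a : Fin 2, f a.val + ∑ b : Fin 12, f (b.val + 2) :=
    Fintype.sum_sum_type _
  rw [h1]
  simp only [Fin.sum_univ_succ, Finset.sum_range_succ, Finset.univ_eq_empty, Finset.sum_empty,
    Finset.range_zero, Fin.val_zero, Fin.val_succ]
  ring

theorem mv_of_OK (r : Fin 12) (c c' : ℕ) (h : mvOK (mtC r.val) c c' = true) :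
    Matrix.mulVec (chevG2.xMat K3 r 1) (vec3 c) = vec3 c' := by
  funext i
  have h1 := (allB_iff _ _).mp h (ix i) (ix_lt i)
  simp only [rowOK, Nat.beq_eq] at h1
  have h2 : (∑ l ∈ Finset.range 14, dg (mtC r.val) (14 * ix i + l) * dg c l) % 3 = dg c' (ix i) := by
    rw [← sumN_eq]; exact h1
  show ∑ l : I14, chevG2.xMat K3 r 1 i l * vec3 c l = vec3 c' i
  simp only [mt_ok, vec3]
  rw [sum_ix (fun l => ((dg (mtC r.val) (14 * ix i + l) : ℕ) : K3) * ((dg c l : ℕ) : K3)), ← h2,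
    ZMod.natCast_mod]
  push_cast
  rfl

/-- the code of the vector `j`. -/
def vc (j : ℕ) : ℕ := Nat.land (Nat.shiftRight rVC (Nat.mul 28 j)) 268435455

/-- the image of the vector `j` under `x_r(1)`. -/
def rt (r j : ℕ) : ℕ := Nat.land (Nat.shiftRight rRT (Nat.add (Nat.mul 7280 r) (Nat.mul 10 j))) 1023

def rtOK (r j : ℕ) : Bool :=
  frc (rt r j) fun j' => Nat.blt j' 728 &&
    frc (mtC r) fun M => frc (vc j) fun c => frc (vc j') fun c' => mvOK M c c'

set_option maxRecDepth 100000 in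
theorem rtcheck : allB 12 (fun r => allB 728 (rtOK r)) = true := by decide +kernel

/-- the vector `j`. -/
def VV (j : ℕ) : I14 → K3 := vec3 (vc j)

theorem root1 (r : Fin 12) (j : ℕ) (hj : j < 728) :
    rt r.val j < 728 ∧ Matrix.mulVec (chevG2.xMat K3 r 1) (VV j) = VV (rt r.val j) := by
  have h := (allB_iff _ _).mp ((allB_iff _ _).mp rtcheck r.val r.isLt) j hj
  simp only [rtOK, frc_eq, Bool.and_eq_true, Nat.blt_eq] at h
  exact ⟨h.1, mv_of_OK r _ _ h.2⟩

end Cfsg.Agent.Helper64Ree3
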