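import Mathlib
import Cfsg.Agent.Lib.Helper62F4
import Cfsg.Agent.S0245

/-! # the order of `Sp(4, 4)` over helper62's concrete field (helper64) -/

set_option autoImplicit false

namespace Cfsg.Agent.Helper64Sp44Card

open Cfsg.Agent.Lib.Helper62F4

theorem card_sp44 : Nat.card (Matrix.symplecticGroup (Fin 2) F4) = 979200 := by
  rw [Cfsg.Agent.S0245.result card_F4 2]
  norm_num [Finset.prod_range_succ]

theorem card_sp44_le : Nat.card (Matrix.symplecticGroup (Fin 2) F4) ≤ 979200 := card_sp44.le

instance finite_sp44 : Finite (Matrix.symplecticGroup (Fin 2) F4) :=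
  Nat.finite_of_card_ne_zero (by rw [card_sp44]; norm_num)

end Cfsg.Agent.Helper64Sp44Card
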