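import Mathlib
import Cfsg.Agent.Lib.Helper65Bridge

/-!
More on abstract coprime actions (`MulDistribMulAction Y G`):
* `exists_inv_compl_of_compl`: abstract form of S0660 (invariant complemented subgroup of an abelian
  group has an invariant complement);
* `restrict`: the action restricted to an invariant subgroup;
* `exists_compl_of_pure`: a "homocyclic of top exponent" subgroup of an abelian `p`-group is a direct factor;
* `socle_irred`: an indecomposable abelian `p`-group with coprime operators has irreducible socle.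
-/

set_option autoImplicit false

namespace Cfsg.Agent.Lib.Helper65Bridge2

open SemidirectProduct Cfsg.Agent.Lib.Helper65Bridge

section general

variable {Y G : Type*} [Group Y] [Group G] [MulDistribMulAction Y G]

theorem exists_inv_compl_of_compl [Finite Y] [Finite G] (hab : ∀ a b : G, a * b = b * a)
    (hcop : (Nat.card Y).Coprime (Nat.card G)) (U W : Subgroup G) (hU : Inv Y U)
    (h1 : U ⊓ W = ⊥) (h2 : U ⊔ W = ⊤) :
    ∃ W' : Subgroup G, Inv Y W' ∧ U ⊓ W' = ⊥ ∧ U ⊔ W' = ⊤ := by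
  set i := (inl : G →* G ⋊[MulDistribMulAction.toMulAut Y G] Y) with hi
  have hinj : Function.Injective i := inl_injective
  set V := i.range with hV
  set B := (inr : Y →* G ⋊[MulDistribMulAction.toMulAut Y G] Y).range with hB
  have hVab : IsMulCommutative V := ⟨⟨by
    rintro ⟨_, a, rfl⟩ ⟨_, b, rfl⟩
    apply Subtype.ext
    show i a * i b = i b * i a
    rw [← map_mul, ← map_mul, hab]⟩⟩
  have hBV : B ≤ Subgroup.normalizer (V : Set _) := by
    rw [Subgroup.normalizer_eq_top_iff.mpr inferInstance]; exact le_top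
  have hc : (Nat.card B).Coprime (Nat.card V) := by
    rw [hB, hV, hi, card_range_inr, card_range_inl]; exact hcop
  obtain ⟨W', hW'V, hBW', e1, e2⟩ := Cfsg.Agent.S0660.result V B (U.map i) hVab hBV hc
    (Subgroup.map_le_range i U) (range_inr_le_normalizer_map hU) (W.map i) (Subgroup.map_le_range i W)
    (by rw [← Subgroup.map_inf _ _ i hinj, h1, Subgroup.map_bot])
    (by rw [← Subgroup.map_sup, h2, ← MonoidHom.range_eq_map])
  refine ⟨W'.comap i, inv_comap_of_le_normalizer hBW', ?_, ?_⟩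
  · apply Subgroup.map_injective hinj
    rw [Subgroup.map_inf _ _ i hinj, Subgroup.map_comap_eq_self hW'V, e1, Subgroup.map_bot]
  · apply Subgroup.map_injective hinj
    rw [Subgroup.map_sup, Subgroup.map_comap_eq_self hW'V, e2, ← MonoidHom.range_eq_map]

/-- the action restricted to an invariant subgroup -/
@[reducible] def restrict (D : Subgroup G) (hD : Inv Y D) : MulDistribMulAction Y D where
  smul y d := ⟨y • (d : G), hD y d d.2⟩
  one_smul _ := Subtype.ext (one_smul _ _)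
  mul_smul _ _ _ := Subtype.ext (mul_smul _ _ _)
  smul_mul _ _ _ := Subtype.ext (smul_mul' _ _ _)
  smul_one _ := Subtype.ext (smul_one _)

end general

theorem exists_compl_of_pure {A : Type*} [CommGroup A] [Finite A] {p : ℕ} [Fact p.Prime] (e : ℕ)
    (hexp : ∀ a : A, a ^ (p ^ (e + 1)) = 1) (D : Subgroup A)
    (hH : ∀ d ∈ D, d ^ (p ^ e) = 1 → ∃ d' ∈ D, d' ^ p = d) :
    ∃ C : Subgroup A, D ⊓ C = ⊥ ∧ D ⊔ C = ⊤ := by
  classical
  obtain ⟨C, hC, hCmax⟩ := (Set.toFinite {C : Subgroup A | D ⊓ C = ⊥}).exists_maximal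
    ⟨⊥, inf_bot_eq _⟩
  have hC' : D ⊓ C = ⊥ := hC
  refine ⟨C, hC, ?_⟩
  by_contra hne
  obtain ⟨a₀, ha₀⟩ : ∃ a, a ∉ D ⊔ C := by
    by_contra h
    push Not at h
    exact hne (eq_top_iff.mpr fun x _ => h x)
  have hex : ∃ j, a₀ ^ (p ^ j) ∈ D ⊔ C := ⟨e + 1, by rw [hexp]; exact one_mem _⟩
  have hj := Nat.find_spec hex
  have hj0 : Nat.find hex ≠ 0 := by
    intro h0
    rw [h0] at hj
    simp at hj
    exact ha₀ hj
  obtain ⟨j', hj'⟩ := Nat.exists_eq_succ_of_ne_zero hj0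
  have ha : a₀ ^ (p ^ j') ∉ D ⊔ C := Nat.find_min hex (by omega)
  have hap : (a₀ ^ (p ^ j')) ^ p ∈ D ⊔ C := by
    rw [← pow_mul, ← pow_succ]
    rw [hj'] at hj
    exact hj
  generalize a₀ ^ (p ^ j') = a at ha hap
  obtain ⟨d, hd, c, hc, hdc⟩ := Subgroup.mem_sup.mp hap
  have h1 : d ^ (p ^ e) = 1 := by
    have h2 : (d * c) ^ (p ^ e) = 1 := by rw [hdc, ← pow_mul, ← pow_succ', hexp]
    rw [mul_pow] at h2
    have h3 : d ^ (p ^ e) ∈ D ⊓ C :=
      ⟨D.pow_mem hd _, by rw [eq_inv_of_mul_eq_one_left h2]; exact C.inv_mem (C.pow_mem hc _)⟩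
    rw [hC'] at h3
    exact h3
  obtain ⟨d₁, hd₁, hd₁p⟩ := hH d hd h1
  have ha'p : (a * d₁⁻¹) ^ p = c := by
    rw [mul_pow, inv_pow, hd₁p, ← hdc, mul_comm d c, mul_inv_cancel_right]
  have ha' : a * d₁⁻¹ ∉ D ⊔ C := fun h => ha (by
    have := (D ⊔ C).mul_mem h ((le_sup_left : D ≤ D ⊔ C) hd₁)
    simpa using this)
  generalize a * d₁⁻¹ = a' at ha'p ha'
  have hlt : ¬ (D ⊓ (C ⊔ Subgroup.zpowers a') = ⊥) := by
    intro hbot
    have := hCmax hbot le_sup_left
    exact ha' ((le_sup_right : C ≤ D ⊔ C) (this ((le_sup_right : _ ≤ C ⊔ Subgroup.zpowers a')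
      (Subgroup.mem_zpowers a'))))
  obtain ⟨d₂, hd₂, hd₂1⟩ : ∃ x ∈ D ⊓ (C ⊔ Subgroup.zpowers a'), x ≠ 1 := by
    by_contra h
    push Not at h
    exact hlt ((Subgroup.eq_bot_iff_forall _).mpr h)
  obtain ⟨c₂, hc₂, w, hw, hcw⟩ := Subgroup.mem_sup.mp hd₂.2
  obtain ⟨k, rfl⟩ := Subgroup.mem_zpowers_iff.mp hw
  by_cases hpk : (p : ℤ) ∣ k
  · obtain ⟨k', rfl⟩ := hpk
    have h3 : a' ^ ((p : ℤ) * k') ∈ C := by
      rw [zpow_mul, zpow_natCast, ha'p]; exact C.zpow_mem hc _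
    have h4 : d₂ ∈ D ⊓ C := ⟨hd₂.1, hcw ▸ C.mul_mem hc₂ h3⟩
    rw [hC'] at h4
    exact hd₂1 h4
  · have hpp : Prime (p : ℤ) := Nat.prime_iff_prime_int.mp Fact.out
    have hcop : IsCoprime (p : ℤ) k := (Prime.coprime_iff_not_dvd hpp).mpr hpk
    obtain ⟨α, β, hαβ⟩ := hcop
    have h3 : a' ^ k ∈ D ⊔ C := by
      have : a' ^ k = c₂⁻¹ * d₂ := by rw [← hcw]; group
      rw [this]
      exact mul_mem ((le_sup_right : C ≤ D ⊔ C) (C.inv_mem hc₂)) ((le_sup_left : D ≤ D ⊔ C) hd₂.1)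
    have h4 : a' ^ (p : ℤ) ∈ D ⊔ C := by
      rw [zpow_natCast, ha'p]; exact (le_sup_right : C ≤ D ⊔ C) hc
    apply ha'
    have : a' = (a' ^ (p : ℤ)) ^ α * (a' ^ k) ^ β := by
      rw [← zpow_mul, ← zpow_mul, ← zpow_add, mul_comm (p : ℤ), mul_comm k, hαβ, zpow_one]
    rw [this]
    exact mul_mem (zpow_mem h4 _) (zpow_mem h3 _)


theorem socle_irred {A Y : Type*} [CommGroup A] [Finite A] {p : ℕ} [Fact p.Prime] (hA : IsPGroup p A)
    [Group Y] [Finite Y] [MulDistribMulAction Y A] (hcop : (Nat.card Y).Coprime p)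
    (hind : ∀ B C : Subgroup A, Inv Y B → Inv Y C → B ⊓ C = ⊥ → B ⊔ C = ⊤ → B = ⊥ ∨ C = ⊥)
    (B : Subgroup A) (hB : Inv Y B) (hBp : ∀ b ∈ B, b ^ p = 1) (hB1 : B ≠ ⊥) :
    ∀ a : A, a ^ p = 1 → a ∈ B := by
  classical
  have hp : p.Prime := Fact.out
  have hex : ∃ e, ∀ a : A, a ^ (p ^ e) = 1 := by
    obtain ⟨n, hn⟩ := IsPGroup.iff_card.mp hA
    exact ⟨n, fun a => by rw [← hn]; exact pow_card_eq_one'⟩
  have he := Nat.find_spec hex
  have he0 : Nat.find hex ≠ 0 := by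
    intro h0
    rw [h0] at he
    apply hB1
    rw [Subgroup.eq_bot_iff_forall]
    intro x _
    simpa using he x
  obtain ⟨e, hee⟩ := Nat.exists_eq_succ_of_ne_zero he0
  rw [hee] at he
  have hmin : ¬ ∀ a : A, a ^ (p ^ e) = 1 := Nat.find_min hex (by omega)
  push Not at hmin
  obtain ⟨a₀, ha₀⟩ := hmin
  set π : A →* A := powMonoidHom (p ^ e) with hπ
  have hπa : ∀ a, π a = a ^ (p ^ e) := fun a => rfl
  have hπy : ∀ (y : Y) (a : A), π (y • a) = y • π a := by
    intro y a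
    rw [hπa, hπa, smul_pow']
  have hcopA : ∀ D : Subgroup A, (Nat.card Y).Coprime (Nat.card D) := by
    intro D
    obtain ⟨n, hn⟩ := IsPGroup.iff_card.mp (hA.to_subgroup D)
    rw [hn]; exact Nat.Coprime.pow_right _ hcop
  -- U
  have hUinv : Inv Y π.range := by
    rintro y _ ⟨a, rfl⟩
    exact ⟨y • a, hπy y a⟩
  have hU1 : π.range ≠ ⊥ := by
    intro h
    have : π a₀ ∈ π.range := ⟨a₀, rfl⟩
    rw [h] at this
    exact ha₀ this
  obtain ⟨U₁, ⟨hU₁inv, hU₁U, hU₁1⟩, hU₁min⟩ := (Set.toFinite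
    {N : Subgroup A | Inv Y N ∧ N ≤ π.range ∧ N ≠ ⊥}).exists_minimal ⟨π.range, hUinv, le_rfl, hU1⟩
  obtain ⟨D, ⟨hDinv, hDU⟩, hDmin⟩ := (Set.toFinite
    {D : Subgroup A | Inv Y D ∧ U₁ ≤ D.map π}).exists_minimal
      ⟨⊤, fun _ _ _ => Subgroup.mem_top _, by rw [← MonoidHom.range_eq_map]; exact hU₁U⟩
  -- π(D) ≤ U₁
  have hDle : D ≤ U₁.comap π := by
    have h1 : Inv Y (D ⊓ U₁.comap π) := by
      intro y d hd
      refine ⟨hDinv y d hd.1, ?_⟩
      show π (y • d) ∈ U₁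
      rw [hπy]
      exact hU₁inv y _ hd.2
    have h2 : U₁ ≤ (D ⊓ U₁.comap π).map π := by
      intro u hu
      obtain ⟨d, hd, rfl⟩ := hDU hu
      exact ⟨d, ⟨hd, hu⟩, rfl⟩
    exact (hDmin ⟨h1, h2⟩ inf_le_left).trans inf_le_right
  -- (H)
  have hH : ∀ d ∈ D, d ^ (p ^ e) = 1 → ∃ d' ∈ D, d' ^ p = d := by
    let _ := restrict D hDinv
    have hsm : ∀ (y : Y) (d : D), ((y • d : D) : A) = y • (d : A) := fun _ _ => rfl
    have hDp : IsPGroup p D := hA.to_subgroup D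
    have hcomm : ∀ N : Subgroup D, commutator D ≤ N := by
      intro N
      rw [commutator_def, Subgroup.commutator_le]
      intro g₁ _ g₂ _
      rw [commutatorElement_eq_one_iff_mul_comm.mpr (mul_comm g₁ g₂)]
      exact N.one_mem
    set L : Subgroup D := (π.ker).subgroupOf D with hL
    have hLmem : ∀ d : D, d ∈ L ↔ (d : A) ^ (p ^ e) = 1 := by
      intro d
      rw [hL, Subgroup.mem_subgroupOf, MonoidHom.mem_ker]
      rfl
    have hLinv : Inv Y L := by
      intro y d hd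
      rw [hLmem] at hd ⊢
      rw [hsm, ← smul_pow', hd, smul_one]
    have hΦ : frattini D ≤ L := by
      apply Cfsg.Agent.Lib.Helper3PGroup.frattini_le_of_elementary (p := p) L (hcomm L)
      intro x
      rw [hLmem]
      have : ((x ^ p : D) : A) = (x : A) ^ p := rfl
      rw [this, ← pow_mul, ← pow_succ']
      exact he _
    obtain ⟨L', hL'inv, -, hsup, hinf⟩ := exists_inv_compl hDp (hcopA D) L hLinv hΦ
    have hFinv : Inv Y (L'.map D.subtype) := by
      rintro y _ ⟨d, hd, rfl⟩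
      exact ⟨y • d, hL'inv y d hd, rfl⟩
    have hFU : U₁ ≤ (L'.map D.subtype).map π := by
      intro u hu
      obtain ⟨d, hd, rfl⟩ := hDU hu
      have : (⟨d, hd⟩ : D) ∈ L ⊔ L' := by rw [hsup]; exact Subgroup.mem_top _
      obtain ⟨l, hl, l', hl', hll⟩ := Subgroup.mem_sup.mp this
      refine ⟨l', ⟨l', hl', rfl⟩, ?_⟩
      have h1 : d = (l : A) * (l' : A) := by
        have := congrArg Subtype.val hll
        exact this.symm
      rw [h1, map_mul, hπa (l : A), (hLmem l).mp hl, one_mul]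
    have hDF : D ≤ L'.map D.subtype := hDmin ⟨hFinv, hFU⟩ (Subgroup.map_subtype_le _)
    have hL'top : L' = ⊤ := by
      rw [eq_top_iff]
      intro d _
      obtain ⟨d', hd', hdd⟩ := hDF d.2
      have : d' = d := Subtype.ext hdd
      rwa [← this]
    rw [hL'top, inf_top_eq] at hinf
    have hΦ2 : frattini D ≤ (powMonoidHom p : D →* D).range := by
      apply Cfsg.Agent.Lib.Helper3PGroup.frattini_le_of_elementary (p := p) _ (hcomm _)
      intro x
      exact ⟨x, rfl⟩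
    intro d hd hd1
    have h1 : (⟨d, hd⟩ : D) ∈ L := (hLmem _).mpr hd1
    rw [hinf] at h1
    obtain ⟨d', hd'⟩ := hΦ2 h1
    exact ⟨d', d'.2, congrArg Subtype.val hd'⟩
  obtain ⟨C, hC1, hC2⟩ := exists_compl_of_pure e he D hH
  have hcopA' : (Nat.card Y).Coprime (Nat.card A) := by
    obtain ⟨n, hn⟩ := IsPGroup.iff_card.mp hA
    rw [hn]; exact Nat.Coprime.pow_right _ hcop
  obtain ⟨C', hC'inv, hC'1, hC'2⟩ := exists_inv_compl_of_compl mul_comm hcopA' D C hDinv hC1 hC2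
  have hD1 : D ≠ ⊥ := by
    intro h
    rw [h, Subgroup.map_bot, le_bot_iff] at hDU
    exact hU₁1 hDU
  have hDtop : D = ⊤ := by
    rcases hind D C' hDinv hC'inv hC'1 hC'2 with h | h
    · exact absurd h hD1
    · rwa [h, sup_bot_eq] at hC'2
  have hH' : ∀ d : A, d ^ (p ^ e) = 1 → ∃ d' : A, d' ^ p = d := by
    intro d hd
    obtain ⟨d', -, h⟩ := hH d (hDtop ▸ Subgroup.mem_top d) hd
    exact ⟨d', h⟩
  have hsoc : ∀ v : A, v ^ p = 1 → v ∈ U₁ := by
    intro v hv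
    have key : ∀ j, j ≤ e → ∃ d : A, d ^ (p ^ j) = v := by
      intro j
      induction j with
      | zero => intro _; exact ⟨v, by simp⟩
      | succ j ih =>
        intro hj
        obtain ⟨d, hd⟩ := ih (by omega)
        have h1 : d ^ (p ^ e) = 1 := by
          obtain ⟨t, ht⟩ : ∃ t, e = j + (t + 1) := ⟨e - j - 1, by omega⟩
          rw [ht, pow_add, pow_mul, hd, pow_succ', pow_mul, hv, one_pow]
        obtain ⟨d', hd'⟩ := hH' d h1
        exact ⟨d', by rw [pow_succ', pow_mul, hd', hd]⟩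
    obtain ⟨d, hd⟩ := key e le_rfl
    have : d ∈ U₁.comap π := hDle (hDtop ▸ Subgroup.mem_top d)
    rw [Subgroup.mem_comap, hπa, hd] at this
    exact this
  have hBU : B ≤ U₁ := fun b hb => hsoc b (hBp b hb)
  have hUB : U₁ ≤ B := hU₁min ⟨hB, hBU.trans hU₁U, hB1⟩ hBU
  intro a ha
  exact hUB (hsoc a ha)

end Cfsg.Agent.Lib.Helper65Bridge2
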