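import Mathlib
import Cfsg.Agent.Lib.Helper12Hall
import Cfsg.Agent.Lib.Helper65RelHall

set_option autoImplicit false

namespace Cfsg.Agent.Lib.Helper65E8

open scoped commutatorElement

variable {Q : Type*} [Group Q]

/-- `|N⟨x⟩| = |N| · o(xN)`. -/
theorem card_sup_zpowers [Finite Q] (N : Subgroup Q) [N.Normal] (x : Q) :
    Nat.card ↥(N ⊔ Subgroup.zpowers x) = Nat.card N * orderOf (x : Q ⧸ N) := by
  have h1 : N ⊔ Subgroup.zpowers x =
      (Subgroup.zpowers (x : Q ⧸ N)).comap (QuotientGroup.mk' N) := by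
    have := QuotientGroup.comap_map_mk' N (Subgroup.zpowers x)
    rw [MonoidHom.map_zpowers] at this
    exact this.symm
  rw [h1, Cfsg.Agent.Lib.Helper12Hall.card_comap_mk', Nat.card_zpowers]

theorem card_sup_zpowers_le [Finite Q] (N : Subgroup Q) [N.Normal] (x : Q) (hx : x ^ 2 ∈ N) :
    Nat.card ↥(N ⊔ Subgroup.zpowers x) ≤ 2 * Nat.card N := by
  rw [card_sup_zpowers, mul_comm]
  apply Nat.mul_le_mul_right
  apply orderOf_le_of_pow_eq_one (by norm_num)
  rw [← QuotientGroup.mk_pow]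
  exact (QuotientGroup.eq_one_iff _).mpr hx

/-- The commutator map `w ↦ [w, y]` as a homomorphism into a central subgroup containing
all commutators. -/
def commHom (Z : Subgroup Q) (hZc : Z ≤ Subgroup.center Q) (hcomm : ∀ x y : Q, ⁅x, y⁆ ∈ Z)
    (y : Q) : Q →* ↥Z where
  toFun w := ⟨⁅w, y⁆, hcomm w y⟩
  map_one' := by apply Subtype.ext; simp
  map_mul' w₁ w₂ := by
    apply Subtype.ext
    have h := Subgroup.mem_center_iff.mp (hZc (hcomm w₂ y))
    change ⁅w₁ * w₂, y⁆ = ⁅w₁, y⁆ * ⁅w₂, y⁆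
    have h1 : ⁅w₁ * w₂, y⁆ = w₁ * ⁅w₂, y⁆ * y * w₁⁻¹ * y⁻¹ := by
      simp only [commutatorElement_def]; group
    rw [h1, h w₁, h ⁅w₁, y⁆]
    generalize ⁅w₂, y⁆ = u
    simp only [commutatorElement_def]; group

theorem commHom_apply (Z : Subgroup Q) (hZc : Z ≤ Subgroup.center Q)
    (hcomm : ∀ x y : Q, ⁅x, y⁆ ∈ Z) (y w : Q) : ((commHom Z hZc hcomm y w : ↥Z) : Q) = ⁅w, y⁆ := rfl

theorem mem_ker_commHom (Z : Subgroup Q) (hZc : Z ≤ Subgroup.center Q)
    (hcomm : ∀ x y : Q, ⁅x, y⁆ ∈ Z) (y w : Q) : w ∈ (commHom Z hZc hcomm y).ker ↔ w * y = y * w := by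
  rw [MonoidHom.mem_ker, Subtype.ext_iff, commHom_apply, Subgroup.coe_one, commutatorElement_eq_one_iff_mul_comm]

/-- **Lemma A.** A finite group `Q` with a central elementary abelian subgroup `Z` of order `4`
containing all squares and commutators, of order at least `256`, has an involution outside `Z`. -/
theorem exists_invol [Finite Q] (Z : Subgroup Q) (hZc : Z ≤ Subgroup.center Q)
    (hZ4 : Nat.card Z = 4) (hZ2 : ∀ z ∈ Z, z ^ 2 = 1) (hsq : ∀ x : Q, x ^ 2 ∈ Z)
    (hcomm : ∀ x y : Q, ⁅x, y⁆ ∈ Z) (hcard : 256 ≤ Nat.card Q) : ∃ t : Q, t ∉ Z ∧ t ^ 2 = 1 := by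
  by_contra hno
  have hinv : ∀ t : Q, t ^ 2 = 1 → t ∈ Z := fun t ht => by
    by_contra h
    exact hno ⟨t, h, ht⟩
  have hcle : commutator Q ≤ Z := by
    rw [commutator_def, Subgroup.commutator_le]
    intro a _ b _
    exact hcomm a b
  have hnorm : ∀ M : Subgroup Q, Z ≤ M → M.Normal := fun M hM =>
    Subgroup.Normal.of_commutator_le _ (hcle.trans hM)
  have hZn : Z.Normal := hnorm Z le_rfl
  -- a general picking principle
  have hpick : ∀ (C M : Subgroup Q), Nat.card M < Nat.card C → ∃ y ∈ C, y ∉ M := by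
    intro C M hlt
    by_contra h
    have hle : C ≤ M := fun y hy => by
      by_contra hyM
      exact h ⟨y, hy, hyM⟩
    exact absurd (Subgroup.card_le_of_le hle) (not_le.mpr hlt)
  obtain ⟨x, -, hxZ⟩ := hpick ⊤ Z (by rw [Subgroup.card_top, hZ4]; omega)
  set s : Q := x ^ 2 with hs
  have hsZ : s ∈ Z := hsq x
  have hs1 : s ≠ 1 := fun h => hxZ (hinv x h)
  -- the centralizer of `x`
  set C : Subgroup Q := (commHom Z hZc hcomm x).ker with hC
  have hCmem : ∀ w, w ∈ C ↔ w * x = x * w := mem_ker_commHom Z hZc hcomm x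
  have hCidx : C.index ≤ 4 := by
    rw [hC, Subgroup.index_ker, ← hZ4]
    exact Subgroup.card_le_card_group _
  set M₁ : Subgroup Q := Z ⊔ Subgroup.zpowers x with hM₁
  have hM₁card : Nat.card M₁ ≤ 8 := by
    have : Nat.card M₁ ≤ 2 * Nat.card Z := card_sup_zpowers_le Z x (hsq x)
    omega
  have hM₁n : M₁.Normal := hnorm M₁ le_sup_left
  have hCcard : 64 ≤ Nat.card C := by
    have := C.card_mul_index
    nlinarith
  obtain ⟨y, hyC, hyM⟩ := hpick C M₁ (by omega)
  -- the subgroup `⟨s⟩` of `Z`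
  set S : Subgroup ↥Z := Subgroup.zpowers ⟨s, hsZ⟩ with hS
  have hScard : Nat.card S = 2 := by
    rw [hS, Nat.card_zpowers]
    apply orderOf_eq_prime
    · apply Subtype.ext; simpa using hZ2 s hsZ
    · intro h; exact hs1 (congrArg Subtype.val h)
  have hSidx : S.index = 2 := by
    have := S.card_mul_index
    rw [hScard, hZ4] at this
    omega
  have hSn : S.Normal := Subgroup.normal_of_index_eq_two hSidx
  have hSmem : ∀ z : ↥Z, z ∈ S → (z : Q) = 1 ∨ (z : Q) = s := by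
    intro z hz
    obtain ⟨k, rfl⟩ := Subgroup.mem_zpowers_iff.mp hz
    have hs2 : s ^ 2 = 1 := hZ2 s hsZ
    rcases Int.even_or_odd' k with ⟨m, rfl | rfl⟩
    · left
      simp [zpow_mul, hs2]
    · right
      simp [zpow_add, zpow_mul, hs2]
  set K : Subgroup Q := S.comap (commHom Z hZc hcomm y) with hK
  have hKidx : K.index ≤ 2 := by
    rw [hK, Subgroup.index_comap]
    exact Nat.le_of_dvd (by norm_num) (hSidx ▸ Subgroup.relIndex_dvd_index_of_normal S _)
  set M₂ : Subgroup Q := M₁ ⊔ Subgroup.zpowers y with hM₂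
  have hM₂card : Nat.card M₂ ≤ 16 := by
    have : Nat.card M₂ ≤ 2 * Nat.card M₁ :=
      card_sup_zpowers_le M₁ y (le_sup_left (a := Z) (hsq y))
    omega
  have hCKcard : 32 ≤ Nat.card ↥(C ⊓ K) := by
    have h1 := (C ⊓ K).card_mul_index
    have h2 : (C ⊓ K).index ≤ 8 := by
      calc (C ⊓ K).index ≤ C.index * K.index := Subgroup.index_inf_le
        _ ≤ 4 * 2 := Nat.mul_le_mul hCidx hKidx
    nlinarith
  obtain ⟨w, hwCK, hwM⟩ := hpick (C ⊓ K) M₂ (by omega)
  have hwC : w ∈ C := hwCK.1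
  have hwK : w ∈ K := hwCK.2
  -- squares of elements of `C \ M₁` avoid `⟨s⟩`
  have hstar : ∀ u ∈ C, u ∉ M₁ → (⟨u ^ 2, hsq u⟩ : ↥Z) ∉ S := by
    intro u huC huM hu
    rcases hSmem _ hu with h | h
    · exact huM (le_sup_left (a := Z) (hinv u h))
    · apply huM
      have hcm : u * x = x * u := (hCmem u).mp huC
      have h1 : (x⁻¹ * u) ^ 2 = 1 := by
        have hcm' : Commute x⁻¹ u := (Commute.inv_left (show Commute x u from hcm.symm))
        rw [hcm'.mul_pow, inv_pow]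
        change (x ^ 2)⁻¹ * u ^ 2 = 1
        rw [show u ^ 2 = s from h, hs]; simp
      have h2 : x⁻¹ * u ∈ M₁ := le_sup_left (a := Z) (hinv _ h1)
      have h3 : x ∈ M₁ := le_sup_right (a := Z) (Subgroup.mem_zpowers x)
      have := M₁.mul_mem h3 h2
      simpa using this
  have hwM₁ : w ∉ M₁ := fun h => hwM (le_sup_left (a := M₁) h)
  have hyM₂ : y ∈ M₂ := le_sup_right (a := M₁) (Subgroup.mem_zpowers y)
  have hywM : y * w ∉ M₁ := by
    intro h
    apply hwM
    have := M₂.mul_mem (M₂.inv_mem hyM₂) (le_sup_left (a := M₁) h)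
    simpa using this
  have ha := hstar y hyC hyM
  have hb := hstar w hwC hwM₁
  have hab : (⟨y ^ 2, hsq y⟩ : ↥Z) * ⟨w ^ 2, hsq w⟩ ∈ S :=
    (Subgroup.mul_mem_iff_of_index_two hSidx).mpr (iff_of_false ha hb)
  have hc : commHom Z hZc hcomm y w ∈ S := hwK
  apply hstar (y * w) (C.mul_mem hyC hwC) hywM
  have heq : (⟨(y * w) ^ 2, hsq (y * w)⟩ : ↥Z) =
      commHom Z hZc hcomm y w * ((⟨y ^ 2, hsq y⟩ : ↥Z) * ⟨w ^ 2, hsq w⟩) := by
    apply Subtype.ext
    change (y * w) ^ 2 = ⁅w, y⁆ * (y ^ 2 * w ^ 2)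
    have hcen := Subgroup.mem_center_iff.mp (hZc (hcomm w y))
    have h1 : (y * w) ^ 2 = y * ⁅w, y⁆ * y * w * w := by
      simp only [commutatorElement_def, pow_two]; group
    rw [h1, hcen y]
    simp only [pow_two]; group
  rw [heq]
  exact S.mul_mem hc hab

theorem mem_zpowers_of_sq {t x : Q} (ht2 : t ^ 2 = 1) (hx : x ∈ Subgroup.zpowers t) :
    x = 1 ∨ x = t := by
  obtain ⟨k, rfl⟩ := Subgroup.mem_zpowers_iff.mp hx
  rcases Int.even_or_odd' k with ⟨m, rfl | rfl⟩
  · left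
    simp [zpow_mul, ht2]
  · right
    simp [zpow_add, zpow_mul, ht2]

/-- **Lemma B.** A four-group `W` together with an involution `t ∉ W` centralizing it generates an
elementary abelian group of order `8`. -/
theorem E8_of_invol (W : Subgroup Q) (hWc : ∀ a ∈ W, ∀ b ∈ W, a * b = b * a)
    (hW2 : ∀ a ∈ W, a ^ 2 = 1) (hW4 : Nat.card W = 4) (t : Q) (htW : t ∉ W) (ht2 : t ^ 2 = 1)
    (htc : ∀ a ∈ W, t * a = a * t) :
    IsMulCommutative ↥(W ⊔ Subgroup.zpowers t) ∧ (∀ a ∈ W ⊔ Subgroup.zpowers t, a ^ 2 = 1) ∧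
      Nat.card ↥(W ⊔ Subgroup.zpowers t) = 8 := by
  have hnorm : Subgroup.zpowers t ≤ Subgroup.normalizer (W : Set Q) := by
    rw [Subgroup.zpowers_le, Subgroup.mem_normalizer_iff]
    intro a
    constructor
    · intro ha
      rw [htc a ha]; simpa using ha
    · intro ha
      have h1 := htc _ ha
      have h2 : a = t * a * t⁻¹ := by
        have : t * (t * a * t⁻¹) = t * a := by
          rw [h1]; group
        exact (mul_left_cancel this).symm
      rw [h2]; exact ha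
  have hmem : ∀ x ∈ W ⊔ Subgroup.zpowers t, ∃ a ∈ W, x = a ∨ x = a * t := by
    intro x hx
    have hx' : x ∈ ((W ⊔ Subgroup.zpowers t : Subgroup Q) : Set Q) := hx
    rw [Subgroup.coe_mul_of_right_le_normalizer_left W _ hnorm] at hx'
    obtain ⟨a, ha, h, hh, rfl⟩ := Set.mem_mul.mp hx'
    refine ⟨a, ha, ?_⟩
    rcases mem_zpowers_of_sq ht2 hh with rfl | rfl
    · left; simp
    · right; rfl
  have htt : t * t = 1 := by rw [← pow_two]; exact ht2
  refine ⟨⟨⟨?_⟩⟩, ?_, ?_⟩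
  · rintro ⟨x, hx⟩ ⟨y, hy⟩
    apply Subtype.ext
    change x * y = y * x
    obtain ⟨a, ha, hxa⟩ := hmem x hx
    obtain ⟨b, hb, hyb⟩ := hmem y hy
    have hab := hWc a ha b hb
    have hta := htc a ha
    have htb := htc b hb
    rcases hxa with rfl | rfl <;> rcases hyb with rfl | rfl
    · exact hab
    · rw [← mul_assoc, hab, mul_assoc b t x, hta, mul_assoc]
    · rw [mul_assoc, htb, ← mul_assoc, hab, mul_assoc]
    · calc a * t * (b * t) = a * (t * b) * t := by group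
        _ = a * (b * t) * t := by rw [htb]
        _ = (a * b) * t * t := by group
        _ = (b * a) * t * t := by rw [hab]
        _ = b * (a * t) * t := by group
        _ = b * (t * a) * t := by rw [hta]
        _ = b * t * (a * t) := by group
  · intro x hx
    obtain ⟨a, ha, hxa⟩ := hmem x hx
    rcases hxa with rfl | rfl
    · exact hW2 _ ha
    · have : Commute a t := (htc a ha).symm
      rw [this.mul_pow, hW2 a ha, ht2, one_mul]
  · have h := Cfsg.Agent.Lib.Helper65RelHall.card_sup_mul_card_inf (Subgroup.zpowers t) W hnorm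
    have hinf : Subgroup.zpowers t ⊓ W = ⊥ := by
      rw [eq_bot_iff]
      rintro x ⟨hx1, hx2⟩
      rcases mem_zpowers_of_sq ht2 hx1 with rfl | rfl
      · exact Subgroup.mem_bot.mpr rfl
      · exact absurd hx2 htW
    have ht1 : t ≠ 1 := fun h => htW (h ▸ W.one_mem)
    rw [hinf, Subgroup.card_bot, mul_one, hW4, Nat.card_zpowers, orderOf_eq_prime ht2 ht1,
      sup_comm] at h
    exact h

/-- A map `f` with `f ∘ f ∘ f = id` and without fixed points lives on a set of size divisible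
by `3`. -/
theorem three_dvd_card {α : Type*} [Finite α] (f : α → α) (h3 : ∀ x, f (f (f x)) = x)
    (hfix : ∀ x, f x ≠ x) : 3 ∣ Nat.card α := by
  classical
  have _ : Fintype α := Fintype.ofFinite α
  have _ : Fact (Nat.Prime 3) := ⟨by norm_num⟩
  let F : Function.End α := f
  have hf : F ^ 3 ^ 1 = 1 := by
    rw [pow_one, pow_succ, pow_succ, pow_one]
    funext x
    exact h3 x
  have h := Equiv.Perm.card_fixedPoints_modEq (f := F) (p := 3) (n := 1) hf
  have hempty : Fintype.card (Function.fixedPoints F) = 0 := by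
    rw [Fintype.card_eq_zero_iff]
    exact ⟨fun x => hfix x.1 x.2⟩
  rw [hempty] at h
  rw [Nat.card_eq_fintype_card]
  exact (Nat.modEq_zero_iff_dvd).mp h

/-- **Lemma C.** Counting: `|Q| ≡ 4 (mod 9)`. -/
theorem card_eq_four_add [Finite Q] (Z : Subgroup Q) (hZ4 : Nat.card Z = 4)
    (hZ2 : ∀ z ∈ Z, z ^ 2 = 1) (hZcomm : ∀ a ∈ Z, ∀ b ∈ Z, a * b = b * a)
    (hsq : ∀ x : Q, x ^ 2 ∈ Z) (hinv : ∀ t : Q, t ^ 2 = 1 → t ∈ Z) (γ δ : Q ≃* Q)
    (hγZ : ∀ z ∈ Z, γ z = z) (hγ3 : ∀ x, γ (γ (γ x)) = x) (hγfix : ∀ x, γ x = x → x ∈ Z)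
    (hδZ : ∀ z ∈ Z, δ z ∈ Z) (hδfix : ∀ z ∈ Z, δ z = z → z = 1) :
    ∃ k, Nat.card Q = 4 + 9 * k := by
  classical
  have _ : Fintype ↥Z := Fintype.ofFinite _
  let sq : Q → ↥Z := fun x => ⟨x ^ 2, hsq x⟩
  let N : ↥Z → ℕ := fun z => Nat.card {x : Q // sq x = z}
  have htotal : Nat.card Q = ∑ z : ↥Z, N z := by
    rw [← Nat.card_sigma]
    exact Nat.card_congr (Equiv.sigmaFiberEquiv sq).symm
  have hN1 : N 1 = 4 := by
    rw [← hZ4]
    apply Nat.card_congr
    apply Equiv.subtypeEquivRight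
    intro x
    constructor
    · intro h
      exact hinv x (congrArg Subtype.val h)
    · intro h
      exact Subtype.ext (hZ2 x h)
  have hN3 : ∀ z : ↥Z, z ≠ 1 → 3 ∣ N z := by
    intro z hz
    apply three_dvd_card (fun x : {x : Q // sq x = z} => ⟨γ x.1, by
      apply Subtype.ext
      change (γ x.1) ^ 2 = z
      rw [← map_pow, show x.1 ^ 2 = (z : Q) from congrArg Subtype.val x.2, hγZ z z.2]⟩)
    · intro x
      exact Subtype.ext (hγ3 x.1)
    · intro x hx
      have h1 : γ x.1 = x.1 := congrArg Subtype.val hx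
      have h2 := hZ2 _ (hγfix _ h1)
      apply hz
      rw [← x.2]
      exact Subtype.ext h2
  let δZ : ↥Z → ↥Z := fun z => ⟨δ z, hδZ z z.2⟩
  have hNδ : ∀ z : ↥Z, N (δZ z) = N z := by
    intro z
    apply Nat.card_congr
    symm
    apply Equiv.subtypeEquiv δ.toEquiv
    intro x
    constructor
    · intro h
      apply Subtype.ext
      change (δ x) ^ 2 = δ z
      rw [← map_pow, show x ^ 2 = (z : Q) from congrArg Subtype.val h]
    · intro h
      apply Subtype.ext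
      have h1 : (δ x) ^ 2 = δ z := congrArg Subtype.val h
      rw [← map_pow] at h1
      exact δ.injective h1
  have hδne : ∀ z : ↥Z, z ≠ 1 → δZ z ≠ z := by
    intro z hz h
    exact hz (Subtype.ext (hδfix z z.2 (congrArg Subtype.val h)))
  have hδ1 : ∀ z : ↥Z, z ≠ 1 → δZ z ≠ 1 := by
    intro z hz h
    apply hz
    have h1 : δ z = 1 := congrArg Subtype.val h
    apply Subtype.ext
    rw [← map_one δ] at h1
    exact δ.injective h1
  obtain ⟨w₀, hw₀⟩ : ∃ w : ↥Z, w ≠ 1 := by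
    have : Nontrivial ↥Z := by
      rw [← Finite.one_lt_card_iff_nontrivial, hZ4]; norm_num
    exact exists_ne 1
  set w₁ := δZ w₀ with hw₁
  set w₂ := δZ w₁ with hw₂
  have h01 : w₁ ≠ w₀ := hδne w₀ hw₀
  have hw₁1 : w₁ ≠ 1 := hδ1 w₀ hw₀
  have h12 : w₂ ≠ w₁ := hδne w₁ hw₁1
  have hw₂1 : w₂ ≠ 1 := hδ1 w₁ hw₁1
  have h02 : w₂ ≠ w₀ := by
    intro h
    -- then `w₀ w₁` is fixed by `δ`
    have hfix : δ ((w₀ : Q) * w₁) = (w₀ : Q) * w₁ := by
      rw [map_mul]
      have e1 : δ (w₀ : Q) = w₁ := rfl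
      have e2 : δ (w₁ : Q) = w₀ := congrArg Subtype.val h
      rw [e1, e2]
      exact hZcomm _ w₁.2 _ w₀.2
    have h1 := hδfix _ (Z.mul_mem w₀.2 w₁.2) hfix
    apply h01
    apply Subtype.ext
    have h2 := hZ2 _ w₀.2
    rw [pow_two] at h2
    exact mul_left_cancel (h1.trans h2.symm)
  have huniv : (Finset.univ : Finset ↥Z) = {1, w₀, w₁, w₂} := by
    symm
    apply Finset.eq_univ_of_card
    rw [← Nat.card_eq_fintype_card, hZ4]
    rw [Finset.card_insert_of_notMem, Finset.card_insert_of_notMem, Finset.card_insert_of_notMem,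
      Finset.card_singleton]
    · simpa using h12.symm
    · simp [h01.symm, h02.symm]
    · simp [hw₀.symm, hw₁1.symm, hw₂1.symm]
  obtain ⟨k, hk⟩ := hN3 w₀ hw₀
  refine ⟨k, ?_⟩
  have e1 : N w₁ = N w₀ := hNδ w₀
  have e2 : N w₂ = N w₀ := (hNδ w₁).trans e1
  rw [htotal, huniv, Finset.sum_insert, Finset.sum_insert, Finset.sum_insert, Finset.sum_singleton,
    hN1, e2, e1, hk]
  · ring
  · simpa using h12.symm
  · simp [h01.symm, h02.symm]
  · simp [hw₀.symm, hw₁1.symm, hw₂1.symm]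

end Cfsg.Agent.Lib.Helper65E8
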