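import Cfsg.Agent.S3736
import Cfsg.Agent.Lib.Helper65E8

set_option autoImplicit false

namespace Cfsg.Agent.Lib.Helper65E8Main

open scoped commutatorElement
open Cfsg.Agent.Lib.Helper65E8

variable {X : Type*} [Group X]

theorem commute_zpowers {c x : X} (h : c * x = x * c) : ∀ a ∈ Subgroup.zpowers c, a * x = x * a := by
  intro a ha
  obtain ⟨k, rfl⟩ := Subgroup.mem_zpowers_iff.mp ha
  exact (Commute.zpow_left (show Commute c x from h) k).eq

/-- In a special `2`-group the centre has exponent `2`. -/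
theorem center_sq_of_special {R : Type*} [Group R] [Finite R] (hR : IsPGroup 2 R)
    (hfc : frattini R = Subgroup.center R) (hcc : commutator R = Subgroup.center R) :
    ∀ z ∈ Subgroup.center R, z ^ 2 = 1 := by
  have _ : Fact (Nat.Prime 2) := ⟨Nat.prime_two⟩
  intro z hz
  rw [← hcc, commutator_eq_closure] at hz
  induction hz using Subgroup.closure_induction with
  | mem x hx =>
    obtain ⟨a, b, rfl⟩ := hx
    have hab : ⁅a, b⁆ ∈ Subgroup.center R := by
      rw [← hcc]
      exact Subgroup.commutator_mem_commutator (Subgroup.mem_top a) (Subgroup.mem_top b)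
    have hcm : Commute ⁅a, b⁆ a := (Subgroup.mem_center_iff.mp hab a).symm
    rw [← Cfsg.Agent.Lib.Helper3Class2.commutator_pow_left a b hcm 2]
    have ha2 : a ^ 2 ∈ Subgroup.center R := by
      rw [← hfc]; exact Cfsg.Agent.Lib.Helper3PGroup.pow_mem_frattini hR a
    rw [commutatorElement_eq_one_iff_mul_comm]
    exact (Subgroup.mem_center_iff.mp ha2 b).symm
  | one => simp
  | mul x y hx hy hx2 hy2 =>
    have hxc : x ∈ Subgroup.center R := by
      rw [← hcc, commutator_eq_closure]; exact hx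
    have : Commute x y := (Subgroup.mem_center_iff.mp hxc y).symm
    rw [this.mul_pow, hx2, hy2, one_mul]
  | inv x _ hx2 => rw [inv_pow, hx2, inv_one]

/-- Abstract core: a nonabelian special `2`-group `R` without elementary abelian subgroups of
order `8` cannot admit automorphisms `γ` (of order `3`, with `C_R(γ) = Z(R)`) and `δ` (without
nontrivial fixed points on `Z(R)`). -/
theorem core {R : Type*} [Group R] [Finite R] (hR : IsPGroup 2 R)
    (hfc : frattini R = Subgroup.center R) (hcc : commutator R = Subgroup.center R)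
    (hnt : Nontrivial R)
    (hC : ∀ E : Subgroup R, IsMulCommutative E → (∀ a ∈ E, a ^ 2 = 1) → Nat.card E ≠ 8)
    (γ δ : R ≃* R) (hγZ : ∀ z ∈ Subgroup.center R, γ z = z) (hγ3 : ∀ x, γ (γ (γ x)) = x)
    (hγfix : ∀ x, γ x = x → x ∈ Subgroup.center R)
    (hδfix : ∀ z ∈ Subgroup.center R, δ z = z → z = 1) : False := by
  have _ : Fact (Nat.Prime 2) := ⟨Nat.prime_two⟩
  set Z : Subgroup R := Subgroup.center R with hZ
  have hZ2 : ∀ z ∈ Z, z ^ 2 = 1 := center_sq_of_special hR hfc hcc
  have hsq : ∀ x : R, x ^ 2 ∈ Z := fun x => by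
    rw [← hfc]; exact Cfsg.Agent.Lib.Helper3PGroup.pow_mem_frattini hR x
  have hcomm : ∀ x y : R, ⁅x, y⁆ ∈ Z := fun x y => by
    rw [← hcc]
    exact Subgroup.commutator_mem_commutator (Subgroup.mem_top x) (Subgroup.mem_top y)
  have hZcomm : ∀ a ∈ Z, ∀ b ∈ Z, a * b = b * a := fun a ha b _ =>
    (Subgroup.mem_center_iff.mp ha b).symm
  have hδZ : ∀ z ∈ Z, δ z ∈ Z := by
    intro z hz
    rw [hZ, Subgroup.mem_center_iff]
    intro y
    obtain ⟨y', rfl⟩ := δ.surjective y
    rw [← map_mul, ← map_mul, Subgroup.mem_center_iff.mp hz y']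
  have hsolv : Group.IsSolvable R := by
    have : Group.IsNilpotent R := hR.isNilpotent
    infer_instance
  have hZtop : Z ≠ ⊤ := by
    rw [← hcc]
    exact (Group.IsSolvable.commutator_lt_top_of_nontrivial R).ne
  have hZbot : Z ≠ ⊥ := by
    intro h
    apply hZtop
    rw [h] at hcc
    exact (commutator_eq_bot_iff_center_eq_top R).mp hcc
  -- `|Z| = 4`
  obtain ⟨k, hk⟩ := IsPGroup.iff_card.mp (hR.to_subgroup Z)
  have hk2 : k ≤ 2 := by
    by_contra hlt
    have hdvd : 2 ^ 3 ∣ Nat.card Z := by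
      rw [hk]; exact pow_dvd_pow 2 (by omega)
    obtain ⟨K, hK⟩ := Sylow.exists_subgroup_card_pow_prime 2 hdvd
    apply hC (K.map Z.subtype)
    · refine ⟨⟨?_⟩⟩
      rintro ⟨_, a, ha, rfl⟩ ⟨_, b, hb, rfl⟩
      apply Subtype.ext
      exact hZcomm _ a.2 _ b.2
    · rintro _ ⟨a, ha, rfl⟩
      exact hZ2 _ a.2
    · rw [Subgroup.card_map_of_injective Z.subtype_injective, hK]; norm_num
  have hk0 : k ≠ 0 := by
    rintro rfl
    exact hZbot (Z.eq_bot_iff_card.mpr (by simpa using hk))
  have hk1 : k ≠ 1 := by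
    rintro rfl
    rw [pow_one] at hk
    obtain ⟨z, hz1, hzu⟩ := (Nat.card_eq_two_iff' (1 : ↥Z)).mp hk
    have h1 : (⟨δ z, hδZ z z.2⟩ : ↥Z) ≠ 1 := by
      intro h
      apply hz1
      have h2 : δ z = 1 := congrArg Subtype.val h
      rw [← map_one δ] at h2
      exact Subtype.ext (δ.injective h2)
    have h2 := hzu _ h1
    exact hz1 (Subtype.ext (hδfix z z.2 (congrArg Subtype.val h2)))
  have hZ4 : Nat.card Z = 4 := by
    have : k = 2 := by omega
    rw [hk, this]; norm_num
  have hinv : ∀ t : R, t ^ 2 = 1 → t ∈ Z := by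
    intro t ht2
    by_contra htZ
    obtain ⟨h1, h2, h3⟩ := E8_of_invol Z hZcomm hZ2 hZ4 t htZ ht2
      (fun a ha => Subgroup.mem_center_iff.mp ha t)
    exact hC _ h1 h2 h3
  obtain ⟨j, hj⟩ := card_eq_four_add Z hZ4 hZ2 hZcomm hsq hinv γ δ hγZ hγ3 hγfix hδZ hδfix
  obtain ⟨m, hm⟩ := IsPGroup.iff_card.mp hR
  have hgt : 4 < Nat.card R := by
    rw [← hZ4]
    rcases lt_or_eq_of_le (Subgroup.card_le_card_group Z) with h | h
    · exact h
    · exact absurd ((Subgroup.card_eq_iff_eq_top Z).mp h) hZtop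
  have h256 : 256 ≤ Nat.card R := by
    by_contra hlt
    rw [hm] at hlt hj hgt
    have hm8 : m < 8 := by
      by_contra h
      apply hlt
      calc 256 = 2 ^ 8 := by norm_num
        _ ≤ 2 ^ m := Nat.pow_le_pow_right (by norm_num) (by omega)
    interval_cases m <;> omega
  obtain ⟨t, htZ, ht2⟩ := exists_invol Z le_rfl hZ4 hZ2 hsq hcomm h256
  exact htZ (hinv t ht2)

/-- **Common lemma.** Ambient configuration that cannot occur. -/
theorem no_config [Finite X] (T : Subgroup X) (hT : IsPGroup 2 T) (c d : X)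
    (hcd : c * d = d * c) (hc3 : c ^ 3 = 1)
    (hcT : c ∈ Subgroup.normalizer (T : Set X)) (hdT : d ∈ Subgroup.normalizer (T : Set X))
    (h0 : ∃ x ∈ T, c * x ≠ x * c)
    (hA : ∀ U : Subgroup X, U ≤ T → d ∈ Subgroup.normalizer (U : Set X) →
      c ∈ Subgroup.normalizer (U : Set X) → IsMulCommutative U → (∀ a ∈ U, a ^ 2 = 1) →
      ∀ u ∈ U, c * u = u * c)
    (hB : ∀ u ∈ T, u ^ 2 = 1 → d * u = u * d → u = 1)
    (hC : ∀ E : Subgroup X, E ≤ T → IsMulCommutative E → (∀ a ∈ E, a ^ 2 = 1) → Nat.card E ≠ 8) :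
    False := by
  have _ : Fact (Nat.Prime 2) := ⟨Nat.prime_two⟩
  set A : Subgroup X := Subgroup.zpowers c with hAdef
  set B : Subgroup X := Subgroup.zpowers c ⊔ Subgroup.zpowers d with hBdef
  have hAB : A ≤ B := le_sup_left
  have hBle : ∀ U : Subgroup X, B ≤ Subgroup.normalizer (U : Set X) ↔
      (c ∈ Subgroup.normalizer (U : Set X) ∧ d ∈ Subgroup.normalizer (U : Set X)) := by
    intro U
    rw [hBdef, sup_le_iff, Subgroup.zpowers_le, Subgroup.zpowers_le]
  have hAn : B ≤ Subgroup.normalizer (A : Set X) := by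
    rw [hBle]
    refine ⟨Subgroup.le_normalizer (Subgroup.mem_zpowers c), ?_⟩
    apply Subgroup.centralizer_le_normalizer
    rw [Subgroup.mem_centralizer_iff]
    intro a ha
    exact commute_zpowers hcd a ha
  have hAp : (Nat.card A).Coprime 2 := by
    rw [hAdef, Nat.card_zpowers]
    have h3 : orderOf c ∣ 3 := orderOf_dvd_of_pow_eq_one hc3
    exact Nat.Coprime.coprime_dvd_left h3 (by norm_num)
  have hcomm_iff : ∀ U : Subgroup X, ⁅U, A⁆ = ⊥ ↔ ∀ u ∈ U, c * u = u * c := by
    intro U
    rw [Subgroup.commutator_eq_bot_iff_le_centralizer]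
    constructor
    · intro h u hu
      exact Subgroup.mem_centralizer_iff.mp (h hu) c (Subgroup.mem_zpowers c)
    · intro h u hu
      rw [Subgroup.mem_centralizer_iff]
      intro a ha
      exact commute_zpowers (h u hu) a ha
  -- a minimal `B`-invariant subgroup on which `c` acts nontrivially
  let S : Set (Subgroup X) :=
    {U | U ≤ T ∧ B ≤ Subgroup.normalizer (U : Set X) ∧ ⁅U, A⁆ ≠ ⊥}
  have hTS : T ∈ S := by
    refine ⟨le_rfl, (hBle T).mpr ⟨hcT, hdT⟩, ?_⟩
    rw [Ne, hcomm_iff]
    intro h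
    obtain ⟨x, hx, hne⟩ := h0
    exact hne (h x hx)
  obtain ⟨R, ⟨hRT, hBR, hnt⟩, hRmin⟩ := (Set.toFinite S).exists_minimal ⟨T, hTS⟩
  have hmin : ∀ U : Subgroup X, U < R → B ≤ Subgroup.normalizer (U : Set X) → ⁅U, A⁆ = ⊥ := by
    intro U hU hBU
    by_contra hne
    exact absurd (hRmin ⟨hU.le.trans hRT, hBU, hne⟩ hU.le) (not_le_of_gt hU)
  have hR : IsPGroup 2 R := hT.to_le hRT
  obtain ⟨h1, h2, -, -⟩ := Cfsg.Agent.S3736.result B A R hR hBR hAB hAn hAp hnt hmin
  obtain ⟨hcR, hdR⟩ := (hBle R).mp hBR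
  rcases h2 with ⟨hab, hexp⟩ | ⟨-, hfc, hcc⟩
  · exact hnt ((hcomm_iff R).mpr (hA R hRT hdR hcR hab hexp))
  · have hRnt : Nontrivial ↥R := by
      by_contra h
      rw [not_nontrivial_iff_subsingleton] at h
      apply hnt
      have : R = ⊥ := R.eq_bot_of_subsingleton
      rw [this]; simp
    have hsolv : Group.IsSolvable ↥R := by
      have : Group.IsNilpotent ↥R := hR.isNilpotent
      infer_instance
    have hZtop : Subgroup.center ↥R ≠ ⊤ := by
      rw [← hcc]
      exact (Group.IsSolvable.commutator_lt_top_of_nontrivial ↥R).ne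
    have hDlt : (Subgroup.center ↥R).map R.subtype < R := by
      refine lt_of_le_of_ne (Subgroup.map_subtype_le _) ?_
      intro h
      apply hZtop
      rw [eq_top_iff]
      intro x _
      have : (x : X) ∈ (Subgroup.center ↥R).map R.subtype := by rw [h]; exact x.2
      obtain ⟨y, hy, hyx⟩ := this
      have : y = x := Subtype.ext hyx
      rwa [← this]
    have hDA := hmin _ hDlt
      (hBR.trans (Lib.Helper30SZ.normalizer_le_normalizer_map_of_characteristic _))
    rw [hcomm_iff] at hDA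
    refine core hR hfc hcc hRnt ?_ (R.normalizerMonoidHom ⟨c, hcR⟩) (R.normalizerMonoidHom ⟨d, hdR⟩)
      ?_ ?_ ?_ ?_
    · intro E hE1 hE2 hE3
      apply hC (E.map R.subtype) ((Subgroup.map_subtype_le E).trans hRT) inferInstance
      · rintro _ ⟨a, ha, rfl⟩
        have := hE2 a ha
        simpa using congrArg Subtype.val this
      · rw [Subgroup.card_map_of_injective R.subtype_injective, hE3]
    · intro z hz
      apply Subtype.ext
      change c * (z : X) * c⁻¹ = z
      rw [hDA z ⟨z, hz, rfl⟩]; group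
    · intro x
      apply Subtype.ext
      change c * (c * (c * (x : X) * c⁻¹) * c⁻¹) * c⁻¹ = x
      have : c * (c * (c * (x : X) * c⁻¹) * c⁻¹) * c⁻¹ = c ^ 3 * x * (c ^ 3)⁻¹ := by
        simp only [pow_succ, pow_zero, one_mul, mul_inv_rev, mul_assoc]
      rw [this, hc3]; simp
    · intro x hx
      rw [← hcc]
      apply Cfsg.Agent.S3736.cent_le_comm A R hR (hAB.trans hBR) hAp h1 x
      have hx' : c * (x : X) * c⁻¹ = x := congrArg Subtype.val hx
      have hcx : c * (x : X) = x * c := by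
        calc c * (x : X) = (c * x * c⁻¹) * c := by group
          _ = x * c := by rw [hx']
      intro a ha
      rw [commute_zpowers hcx a ha]; group
    · intro z hz hdz
      have hdz' : d * (z : X) * d⁻¹ = z := congrArg Subtype.val hdz
      have h3 := hB z (hRT z.2) (by
        have := center_sq_of_special hR hfc hcc z hz
        simpa using congrArg Subtype.val this) (by
        calc d * (z : X) = (d * z * d⁻¹) * d := by group
          _ = z * d := by rw [hdz'])
      exact Subtype.ext h3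

end Cfsg.Agent.Lib.Helper65E8Main
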