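import Mathlib

set_option autoImplicit false

namespace Cfsg.Agent.Lib.Helper66Basic2

variable {G : Type*} [Group G]

theorem mem_sup_of_le_normalizer {H K : Subgroup G} (h : H ≤ Subgroup.normalizer (K : Set G))
    {x : G} : x ∈ H ⊔ K ↔ ∃ y ∈ H, ∃ z ∈ K, y * z = x := by
  constructor
  · intro hx
    rw [Subgroup.sup_eq_closure] at hx
    induction hx using Subgroup.closure_induction with
    | mem x hx =>
      rcases hx with hx | hx
      · exact ⟨x, hx, 1, K.one_mem, mul_one x⟩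
      · exact ⟨1, H.one_mem, x, hx, one_mul x⟩
    | one => exact ⟨1, H.one_mem, 1, K.one_mem, mul_one 1⟩
    | mul a b _ _ ha hb =>
      obtain ⟨y, hy, z, hz, rfl⟩ := ha
      obtain ⟨y', hy', z', hz', rfl⟩ := hb
      refine ⟨y * y', H.mul_mem hy hy', (y'⁻¹ * z * y'⁻¹⁻¹) * z', K.mul_mem ?_ hz', by group⟩
      exact (Subgroup.mem_normalizer_iff.1 (h (H.inv_mem hy')) z).1 hz
    | inv a _ ha =>
      obtain ⟨y, hy, z, hz, rfl⟩ := ha
      refine ⟨y⁻¹, H.inv_mem hy, y * z⁻¹ * y⁻¹, ?_, by group⟩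
      exact (Subgroup.mem_normalizer_iff.1 (h hy) z⁻¹).1 (K.inv_mem hz)
  · rintro ⟨y, hy, z, hz, rfl⟩
    exact Subgroup.mul_mem_sup hy hz

end Cfsg.Agent.Lib.Helper66Basic2
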