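import Mathlib
import Cfsg.Agent.Lib.Helper65CSDefs
import Cfsg.Agent.Lib.Helper57Coprime

set_option autoImplicit false

namespace Cfsg.Agent.Lib.Helper66CSB2

open Cfsg.Agent.Lib.Helper65CSDefs

/-- abstract form: an elementary abelian quotient acting semiregularly modulo `D` has order
at most `p` -/
theorem index_dvd {P A : Type*} [Group P] [Finite P] [CommGroup A] [Finite A] {p : ℕ}
    [Fact p.Prime] (hP : IsPGroup p P) (hcop : (Nat.card A).Coprime p) (κ : P →* MulAut A)
    (C : Subgroup P) [C.Normal] (hC : C ≤ κ.ker) (hpow : ∀ s : P, s ^ p ∈ C)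
    (hcomm : ∀ s s' : P, s * s' * s⁻¹ * s'⁻¹ ∈ C) (D : Subgroup A)
    (hD : ∀ s : P, s ∉ C → ∀ a : A, κ s a = a → a ∈ D) (hne : D ≠ ⊤) : C.index ∣ p := by
  have hp : p.Prime := Fact.out
  have hQ : IsPGroup p (P ⧸ C) := hP.to_quotient C
  obtain ⟨j, hj⟩ := IsPGroup.iff_card.mp hQ
  have hidx : C.index = p ^ j := hj
  rw [hidx]
  by_contra hcon
  have hj2 : 2 ≤ j := by
    by_contra h
    apply hcon
    have : j ≤ 1 := by omega
    calc p ^ j ∣ p ^ 1 := pow_dvd_pow p this
      _ = p := pow_one p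
  have hcard : p < Nat.card (P ⧸ C) := by
    rw [hj]
    calc p = p ^ 1 := (pow_one p).symm
      _ < p ^ j := Nat.pow_lt_pow_right hp.one_lt (by omega)
  have hnt : Nontrivial (P ⧸ C) := by
    rw [← Finite.one_lt_card_iff_nontrivial]
    exact lt_trans hp.one_lt hcard
  obtain ⟨x1, hx1⟩ := exists_ne (1 : P ⧸ C)
  obtain ⟨s1, rfl⟩ := QuotientGroup.mk_surjective x1
  have ho : orderOf (s1 : P ⧸ C) = p := by
    refine orderOf_eq_prime ?_ hx1
    rw [← QuotientGroup.mk_pow, QuotientGroup.eq_one_iff]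
    exact hpow s1
  obtain ⟨x2, hx2⟩ : ∃ x2 : P ⧸ C, x2 ∉ Subgroup.zpowers (s1 : P ⧸ C) := by
    by_contra h
    push Not at h
    have h1 : Subgroup.zpowers (s1 : P ⧸ C) = ⊤ := (Subgroup.eq_top_iff' _).mpr h
    have h2 : Nat.card (Subgroup.zpowers (s1 : P ⧸ C)) = p := by rw [Nat.card_zpowers, ho]
    rw [h1, Subgroup.card_top] at h2
    omega
  obtain ⟨s2, rfl⟩ := QuotientGroup.mk_surjective x2
  apply hne
  refine Cfsg.Agent.Lib.Helper57Coprime.ab_gen hp hcop (κ s1) (κ s2) ?_ ?_ ?_ D ?_ ?_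
  · have h1 : κ (s1 * s2 * s1⁻¹ * s2⁻¹) = 1 := hC (hcomm s1 s2)
    rw [map_mul, map_mul, map_mul, map_inv, map_inv] at h1
    have h2 : κ s1 * κ s2 = (κ s1 * κ s2 * (κ s1)⁻¹ * (κ s2)⁻¹) * (κ s2 * κ s1) := by group
    rw [h1, one_mul] at h2
    exact h2
  · rw [← map_pow]; exact hC (hpow s1)
  · rw [← map_pow]; exact hC (hpow s2)
  · intro i hi0 hip a ha
    rw [← map_pow] at ha
    refine hD (s1 ^ i) ?_ a ha
    rw [← QuotientGroup.eq_one_iff, QuotientGroup.mk_pow]
    exact pow_ne_one_of_lt_orderOf hi0.ne' (by rw [ho]; exact hip)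
  · intro j _ a ha
    rw [← map_pow, ← map_mul] at ha
    refine hD (s1 ^ j * s2) ?_ a ha
    rw [← QuotientGroup.eq_one_iff, QuotientGroup.mk_mul, QuotientGroup.mk_pow]
    intro h
    apply hx2
    rw [eq_inv_of_mul_eq_one_right h]
    exact inv_mem (pow_mem (Subgroup.mem_zpowers _) j)

variable {G : Type*} [Group G] [Finite G] {p : ℕ}

theorem b2 [Fact p.Prime] : B2Stmt G p := by
  intro P V D u hP huP hz hup hVc hcop hnorm hcen hsemi hVD
  let _ : CommGroup V :=
    { (inferInstance : Group V) with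
      mul_comm := fun a b => Subtype.ext (hVc a a.2 b b.2).eq }
  let κ : P →* MulAut V :=
    { toFun := fun s =>
        { toFun := fun a => ⟨(s : G) * a * (s : G)⁻¹, hnorm s s.2 a a.2⟩
          invFun := fun a => ⟨(s : G)⁻¹ * a * (s : G), by
            have := hnorm (s : G)⁻¹ (inv_mem s.2) a a.2
            rwa [inv_inv] at this⟩
          left_inv := fun a => by
            apply Subtype.ext
            change (s : G)⁻¹ * ((s : G) * a * (s : G)⁻¹) * (s : G) = a
            group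
          right_inv := fun a => by
            apply Subtype.ext
            change (s : G) * ((s : G)⁻¹ * a * (s : G)) * (s : G)⁻¹ = a
            group
          map_mul' := fun a b => by
            apply Subtype.ext
            change (s : G) * ((a : G) * b) * (s : G)⁻¹ =
              ((s : G) * a * (s : G)⁻¹) * ((s : G) * b * (s : G)⁻¹)
            group }
      map_one' := by
        ext a
        change ((1 : P) : G) * a * ((1 : P) : G)⁻¹ = a
        simp
      map_mul' := fun s s' => by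
        ext a
        change ((s * s' : P) : G) * a * ((s * s' : P) : G)⁻¹ =
          (s : G) * ((s' : G) * a * (s' : G)⁻¹) * (s : G)⁻¹
        simp [mul_assoc] }
  have hκ : ∀ (s : P) (a : V), ((κ s a : V) : G) = (s : G) * a * (s : G)⁻¹ := fun s a => rfl
  let φ : P →* P :=
    { toFun := fun s => ⟨(s : G) * u * (s : G)⁻¹ * u⁻¹,
        mul_mem (mul_mem (mul_mem s.2 huP) (inv_mem s.2)) (inv_mem huP)⟩
      map_one' := by
        apply Subtype.ext
        change ((1 : P) : G) * u * ((1 : P) : G)⁻¹ * u⁻¹ = 1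
        simp
      map_mul' := fun s s' => by
        apply Subtype.ext
        change ((s : G) * (s' : G)) * u * ((s : G) * (s' : G))⁻¹ * u⁻¹ =
          ((s : G) * u * (s : G)⁻¹ * u⁻¹) * ((s' : G) * u * (s' : G)⁻¹ * u⁻¹)
        have h1 : Commute ((s' : G) * u * (s' : G)⁻¹ * u⁻¹) (s : G) := hz s' s'.2 s s.2
        have h2 : Commute ((s' : G) * u * (s' : G)⁻¹ * u⁻¹) ((s : G) * u * (s : G)⁻¹ * u⁻¹) :=
          hz s' s'.2 _ (mul_mem (mul_mem (mul_mem s.2 huP) (inv_mem s.2)) (inv_mem huP))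
        calc ((s : G) * (s' : G)) * u * ((s : G) * (s' : G))⁻¹ * u⁻¹
            = ((s : G) * ((s' : G) * u * (s' : G)⁻¹ * u⁻¹)) * (u * (s : G)⁻¹ * u⁻¹) := by group
          _ = (((s' : G) * u * (s' : G)⁻¹ * u⁻¹) * (s : G)) * (u * (s : G)⁻¹ * u⁻¹) := by
              rw [h1.eq]
          _ = ((s' : G) * u * (s' : G)⁻¹ * u⁻¹) * ((s : G) * u * (s : G)⁻¹ * u⁻¹) := by group
          _ = _ := h2.eq }
  have hφ : ∀ s : P, ((φ s : P) : G) = (s : G) * u * (s : G)⁻¹ * u⁻¹ := fun s => rfl
  have hker : ∀ s : P, s ∈ φ.ker ↔ Commute (s : G) u := by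
    intro s
    rw [MonoidHom.mem_ker, ← Subtype.coe_inj, hφ]
    constructor
    · intro h
      have : (s : G) * u = ((s : G) * u * (s : G)⁻¹ * u⁻¹) * (u * (s : G)) := by group
      rw [h, Subgroup.coe_one, one_mul] at this
      exact this
    · intro h
      rw [h.eq, Subgroup.coe_one]; group
  have hcentral : ∀ s t : P, Commute (φ s) t := by
    intro s t
    apply Subtype.ext
    exact (hz s s.2 t t.2).eq
  have hrel : (Cen u).relIndex P = φ.ker.index := by
    rw [Subgroup.relIndex]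
    congr 1
    ext s
    rw [Subgroup.mem_subgroupOf, hker, Subgroup.mem_centralizer_singleton_iff]
    exact Iff.rfl
  rw [hrel]
  refine index_dvd hP hcop κ φ.ker ?_ ?_ ?_ (D.subgroupOf V) ?_ ?_
  · intro s hs
    rw [MonoidHom.mem_ker]
    ext a
    rw [hκ]
    have := hcen s s.2 ((hker s).mp hs) a a.2
    rw [this.eq]
    simp
  · intro s
    rw [MonoidHom.mem_ker, map_pow]
    apply Subtype.ext
    rw [Subgroup.coe_pow, hφ, Subgroup.coe_one]
    have h1 : Commute ((s : G) * u * (s : G)⁻¹ * u⁻¹) u := hz s s.2 u huP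
    have h2 : ((s : G) * u * (s : G)⁻¹) ^ p = u ^ p := by
      rw [conj_pow, (hup s s.2).symm.eq]; group
    have h3 : (s : G) * u * (s : G)⁻¹ = ((s : G) * u * (s : G)⁻¹ * u⁻¹) * u := by group
    rw [h3, h1.mul_pow] at h2
    exact mul_eq_right.mp h2
  · intro s s'
    rw [MonoidHom.mem_ker, map_mul, map_mul, map_mul, map_inv, map_inv, (hcentral s (φ s')).eq]
    group
  · intro s hs a ha
    rw [Subgroup.mem_subgroupOf]
    refine hsemi s s.2 (fun h => hs ((hker s).mpr h)) a a.2 ?_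
    have h1 : (s : G) * a * (s : G)⁻¹ = a := by rw [← hκ, ha]
    have h2 : (s : G) * a = ((s : G) * a * (s : G)⁻¹) * (s : G) := by group
    rw [h1] at h2
    exact h2
  · intro h
    exact hVD (Subgroup.subgroupOf_eq_top.mp h)

end Cfsg.Agent.Lib.Helper66CSB2
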