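import Mathlib
import Cfsg.Agent.Lib.Helper65CSDefs
import Cfsg.Agent.Lib.Helper65CSBasic

set_option autoImplicit false

namespace Cfsg.Agent.Lib.Helper66CSY6

open Cfsg.Agent.Lib.Helper65CSDefs Cfsg.Agent.Lib.Helper65CSBasic

variable {G : Type*} [Group G] [Finite G] {m n p : ℕ}

/-- a type I element of minimal order has order prime to `m` -/
theorem exists_typeI_reg (h : Hyp G m n)
    (hII : ∀ q : ℕ, q.Prime → q ∣ m → ∀ u : G, NP q u → (Cen u).index = m * n) :
    ∃ x : G, (Cen x).index = m ∧ ∀ q : ℕ, q.Prime → q ∣ m → IsReg q x := by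
  obtain ⟨x0, hx0⟩ := h.exI
  have : Nonempty {x : G // (Cen x).index = m} := ⟨⟨x0, hx0⟩⟩
  obtain ⟨⟨x, hx⟩, hmin⟩ := Finite.exists_min (fun x : {x : G // (Cen x).index = m} => orderOf x.1)
  refine ⟨x, hx, ?_⟩
  intro q hq hqm
  have : Fact q.Prime := ⟨hq⟩
  obtain ⟨a, b, ha, hb, hab, hcab, haP, hbR⟩ := exists_split q x
  have hm1 : 1 < m := h.hm
  have hn1 : 1 < n := h.hn
  have hxZ : x ∉ Subgroup.center G := by
    intro hc
    rw [← index_eq_one_iff, hx] at hc
    omega
  have hia : (Cen a).index ∣ m := by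
    rw [← hx]; exact Subgroup.index_dvd_of_le (Cen_le_of_mem_zpowers ha)
  have hib : (Cen b).index ∣ m := by
    rw [← hx]; exact Subgroup.index_dvd_of_le (Cen_le_of_mem_zpowers hb)
  have haZ : a ∈ Subgroup.center G := by
    by_contra hc
    have h1 := hII q hq hqm a ⟨haP, hc⟩
    rw [h1] at hia
    have h2 : m * n ≤ m := Nat.le_of_dvd (by omega) hia
    nlinarith
  have hbZ : b ∉ Subgroup.center G := by
    intro hc
    apply hxZ
    rw [hab]
    exact mul_mem haZ hc
  have hbm : (Cen b).index = m := by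
    rcases index_of_dvd h hib with h1 | h1
    · exact absurd (index_eq_one_iff.mp h1) hbZ
    · exact h1
  have h1 : orderOf x ≤ orderOf b := hmin ⟨b, hbm⟩
  have h2 : orderOf b ∣ orderOf x := orderOf_dvd_of_mem_zpowers hb
  have h3 : orderOf b = orderOf x :=
    le_antisymm (Nat.le_of_dvd (orderOf_pos x) h2) h1
  unfold IsReg at hbR ⊢
  rw [← h3]
  exact hbR

theorem y6 (h : Hyp G m n) (ha : ∀ q : ℕ, q.Prime → q ∣ m → m.factorization q = 1)
    [Fact p.Prime] (hpm : p ∣ m) (hconj : ConjStmt G m p)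
    (hII : ∀ q : ℕ, q.Prime → q ∣ m → ∀ u : G, NP q u → (Cen u).index = m * n) : False := by
  have hp : p.Prime := Fact.out
  have hm1 : 1 < m := h.hm
  have hn1 : 1 < n := h.hn
  obtain ⟨x, hx, hxreg⟩ := exists_typeI_reg h hII
  have hxZ : x ∉ Subgroup.center G := by
    intro hc
    rw [← index_eq_one_iff, hx] at hc
    omega
  have hxR : IsReg p x := hxreg p hp hpm
  have hxNR : NR p x := ⟨hxR, hxZ⟩
  have hxm : (orderOf x).Coprime m := by
    by_contra hc
    obtain ⟨q, hq, hq1, hq2⟩ := Nat.Prime.not_coprime_iff_dvd.mp hc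
    have := hxreg q hq hq2
    unfold IsReg at this
    exact (Nat.Prime.coprime_iff_not_dvd hq).mp this.symm hq1
  obtain ⟨u, hu, hux⟩ := exists_NP_commute h hpm hxZ
  have hcx : ∀ g : G, Commute (g * x * g⁻¹) u := hconj u x hu hx hux hxR
  obtain ⟨P, hRP⟩ := exists_sylow_ge_RR h hpm hu
  obtain ⟨t, htP, htR⟩ := exists_not_mem_RR h hpm hu P
  obtain ⟨htNP, hut⟩ := NP_of_not_mem_RR h hpm hu P.2 htP htR
  -- F2
  have hF2 : ∀ w : G, NR p w → Commute u w → ¬ Commute t w := by
    intro w hw huw htw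
    exact htR (mem_RR_of_commute h hpm hu hw huw P P.2 hRP htP htw)
  have htx : ¬ Commute t x := hF2 x hxNR hux
  have htII : (Cen t).index = m * n := hII p hp hpm t htNP
  have huII : (Cen u).index = m * n := hII p hp hpm u hu
  -- (d)
  have hd : ∃ c : G, c ∉ Subgroup.center G ∧ Commute t c ∧ Commute x c := by
    by_contra hcon
    push Not at hcon
    have hle : Cen t ⊓ Cen x ≤ Subgroup.center G := by
      intro c hc
      by_contra hcZ
      exact hcon c hcZ (mem_Cen'.mp (Subgroup.mem_inf.mp hc).1) (mem_Cen'.mp (Subgroup.mem_inf.mp hc).2)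
    have h1 : (Subgroup.center G).index ≤ m * n * m := by
      calc (Subgroup.center G).index ≤ (Cen t ⊓ Cen x).index :=
            Nat.le_of_dvd (Nat.pos_of_ne_zero Subgroup.index_ne_zero_of_finite)
              (Subgroup.index_dvd_of_le hle)
        _ ≤ (Cen t).index * (Cen x).index := Subgroup.index_inf_le
        _ = m * n * m := by rw [htII, hx]
    obtain ⟨k, hk⟩ : ∃ k, k = (Subgroup.center G).relIndex (Cen u) := ⟨_, rfl⟩
    have h2 : k * (m * n) = (Subgroup.center G).index := by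
      rw [hk, ← huII]; exact Subgroup.relIndex_mul_index (center_le_Cen u)
    have hk0 : k ≠ 0 := by
      intro h0
      rw [h0, zero_mul] at h2
      exact Subgroup.index_ne_zero_of_finite h2.symm
    have hkm : k ≤ m := by
      rw [← h2, mul_comm k] at h1
      exact Nat.le_of_mul_le_mul_left h1 (by positivity)
    have hpow : ∀ v : G, Commute u v → v ^ k ∈ Subgroup.center G := by
      intro v hv
      have h3 := Subgroup.pow_index_mem ((Subgroup.center G).subgroupOf (Cen u))
        (⟨v, mem_Cen'.mpr hv⟩ : Cen u)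
      rw [Subgroup.mem_subgroupOf] at h3
      rw [hk]
      exact h3
    have hqk : ∀ q : ℕ, q.Prime → q ∣ m → q ∣ k := by
      intro q hq hqm
      have : Fact q.Prime := ⟨hq⟩
      obtain ⟨v, hv, hvu⟩ := exists_NP_commute h hqm hu.2
      by_contra hqk
      apply hv.2
      refine mem_of_pow_mem _ ?_ (hpow v hvu.symm)
      obtain ⟨j, hj⟩ := hv.1
      rw [hj]
      exact Nat.Coprime.pow_left j ((Nat.Prime.coprime_iff_not_dvd hq).mpr hqk)
    have hmk : m ∣ k := by
      rw [← Nat.factorization_le_iff_dvd (by omega) hk0]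
      intro q
      by_cases hq : q.Prime
      · by_cases hqm : q ∣ m
        · rw [ha q hq hqm]
          exact (Nat.Prime.dvd_iff_one_le_factorization hq hk0).mp (hqk q hq hqm)
        · rw [Nat.factorization_eq_zero_of_not_dvd hqm]; exact Nat.zero_le _
      · rw [Nat.factorization_eq_zero_of_not_prime _ hq]; exact Nat.zero_le _
    have hkm' : k = m := le_antisymm hkm (Nat.le_of_dvd (Nat.pos_of_ne_zero hk0) hmk)
    apply hxZ
    refine mem_of_pow_mem _ hxm ?_
    rw [← hkm']
    exact hpow x hux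
  obtain ⟨c, hcZ, htc, hxc⟩ := hd
  obtain ⟨cp, w, hcp, hw, hcw, -, hcpP, hwR⟩ := exists_split p c
  have htcp : Commute t cp := mem_Cen.mp (Cen_le_of_mem_zpowers hcp (mem_Cen.mpr htc))
  have hxcp : Commute x cp := mem_Cen.mp (Cen_le_of_mem_zpowers hcp (mem_Cen.mpr hxc))
  have htw : Commute t w := mem_Cen.mp (Cen_le_of_mem_zpowers hw (mem_Cen.mpr htc))
  have hxw : Commute x w := mem_Cen.mp (Cen_le_of_mem_zpowers hw (mem_Cen.mpr hxc))
  have hcpZ : cp ∈ Subgroup.center G := by
    by_contra hc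
    exact htx (commute_of_NP h hpm ⟨hcpP, hc⟩ htcp.symm htNP.1 hxcp.symm hxR)
  have hwZ : w ∉ Subgroup.center G := by
    intro hc
    apply hcZ
    rw [hcw]
    exact mul_mem hcpZ hc
  have hwNR : NR p w := ⟨hwR, hwZ⟩
  have hwI : (Cen w).index = m := by
    rcases index_of_not_mem h hwZ with h1 | h1
    · exact h1
    · exfalso
      have h2 : Cen t ≤ Cen w := cen_le_of_typeII h htII htw (IsP.coprime htNP.1 hwR)
      have h3 : Cen t = Cen w := eq_of_le_of_index_eq h2 (by rw [htII, h1])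
      apply htx
      have : x ∈ Cen t := by rw [h3]; exact mem_Cen.mpr hxw
      exact (mem_Cen.mp this).symm
  have hcw' : ∀ g : G, Commute (g * w * g⁻¹) t := hconj t w htNP hwI htw hwR
  have heZ : x * w ∉ Subgroup.center G := by
    intro hc
    apply htx
    have h1 : Commute t (x * w) := (commute_of_mem_center hc t).symm
    have h2 : x = (x * w) * w⁻¹ := by group
    rw [h2]
    exact h1.mul_right htw.inv_right
  obtain ⟨u', hu', hu'e⟩ := exists_NP_commute h hpm heZ
  obtain ⟨z, hz⟩ : ∃ z, z = x⁻¹ * (u' * x * u'⁻¹) := ⟨_, rfl⟩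
  have hz2 : z = w * (u' * w * u'⁻¹)⁻¹ := by
    have h1 : u' * (x * w) * u'⁻¹ = x * w := by
      rw [hu'e.eq]; group
    have h2 : (u' * x * u'⁻¹) * (u' * w * u'⁻¹) = x * w := by
      rw [← h1]; group
    rw [hz, eq_mul_inv_iff_mul_eq, mul_assoc, h2]; group
  have hzH : z ∈ HH p u := by
    rw [hz]
    refine mul_mem (inv_mem ?_) ?_
    · exact (mem_HH h hpm hu).mpr ⟨hux, hxR⟩
    · exact (mem_HH h hpm hu).mpr ⟨(hcx u').symm, IsReg.conj hxR u'⟩
  obtain ⟨huz, hzR⟩ := (mem_HH h hpm hu).mp hzH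
  have htz : Commute t z := by
    rw [hz2]
    exact htw.mul_right (hcw' u').symm.inv_right
  have hzZ : z ∈ Subgroup.center G := by
    by_contra hc
    exact hF2 z ⟨hzR, hc⟩ huz htz
  have hconjx : u' * x * u'⁻¹ = x * z := by rw [hz]; group
  have hk : ∀ k : ℕ, u' ^ k * x * (u' ^ k)⁻¹ = x * z ^ k := by
    intro k
    induction k with
    | zero => simp
    | succ k ih =>
      have hzc : Commute (z ^ k) u'⁻¹ := commute_of_mem_center (pow_mem hzZ k) _
      calc u' ^ (k + 1) * x * (u' ^ (k + 1))⁻¹ = u' * (u' ^ k * x * (u' ^ k)⁻¹) * u'⁻¹ := by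
            rw [pow_succ']; group
        _ = u' * (x * z ^ k) * u'⁻¹ := by rw [ih]
        _ = u' * x * (z ^ k * u'⁻¹) := by group
        _ = (u' * x * u'⁻¹) * z ^ k := by rw [hzc.eq]; group
        _ = x * z ^ (k + 1) := by rw [hconjx, pow_succ', mul_assoc]
  have hz1 : z = 1 := by
    have h1 := hk (orderOf u')
    rw [pow_orderOf_eq_one, one_mul, inv_one, mul_one] at h1
    have h2 : z ^ orderOf u' = 1 := by
      exact (mul_eq_left.mp h1.symm)
    obtain ⟨j, hj⟩ := hu'.1
    rw [hj] at h2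
    obtain ⟨i, -, hi⟩ := (Nat.dvd_prime_pow hp).mp (orderOf_dvd_of_pow_eq_one h2)
    exact eq_one_of_IsP_of_IsReg ⟨i, hi⟩ hzR
  have hu'x : Commute u' x := by
    rw [hz1, mul_one] at hconjx
    have : u' * x = (u' * x * u'⁻¹) * u' := by group
    rw [hconjx] at this
    exact this
  have hu'w : Commute u' w := by
    have h2 : w = x⁻¹ * (x * w) := by group
    rw [h2]
    exact hu'x.inv_right.mul_right hu'e
  obtain ⟨g, hg⟩ := exists_conj_mem_sylow P hu'.1
  have h1 : g * u' * g⁻¹ ∈ RR p u :=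
    mem_RR_of_commute h hpm hu (NR.conj hxNR g) (hcx g).symm P P.2 hRP hg
      ((commute_conj_iff g u' x).mpr hu'x)
  have h2 : Commute u (g * u' * g⁻¹) := ((mem_RR h hpm hu).mp h1).1
  have h3 : Commute u (g * w * g⁻¹) :=
    commute_of_NP h hpm (NP.conj hu' g) h2.symm hu.1 ((commute_conj_iff g u' w).mpr hu'w)
      (IsReg.conj hwR g)
  exact hF2 _ (NR.conj hwNR g) h3 (hcw' g).symm

end Cfsg.Agent.Lib.Helper66CSY6
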