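import Mathlib

set_option autoImplicit false

namespace Cfsg.Agent.Lib.Helper66Comm

open scoped commutatorElement

variable {G : Type*} [Group G]

/-- Three subgroups lemma modulo a normal subgroup. -/
theorem three_subgroups_normal (T : Subgroup G) [T.Normal] {A B C : Subgroup G}
    (h1 : ⁅⁅B, C⁆, A⁆ ≤ T) (h2 : ⁅⁅C, A⁆, B⁆ ≤ T) : ⁅⁅A, B⁆, C⁆ ≤ T := by
  have key : ∀ X : Subgroup G, X ≤ T ↔ X.map (QuotientGroup.mk' T) = ⊥ := by
    intro X
    rw [Subgroup.map_eq_bot_iff, QuotientGroup.ker_mk']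
  rw [key, Subgroup.map_commutator, Subgroup.map_commutator] at h1 h2 ⊢
  exact Subgroup.commutator_commutator_eq_bot_of_rotate h1 h2

theorem commutator_sup_le (A V H : Subgroup G) [hV : V.Normal] : ⁅A ⊔ V, H⁆ ≤ ⁅A, H⁆ ⊔ V := by
  rw [Subgroup.commutator_le]
  intro x hx g hg
  obtain ⟨a, ha, v, hv, rfl⟩ := Subgroup.mem_sup_of_normal_right.1 hx
  have e : ⁅a * v, g⁆ = (a * (v * (g * v⁻¹ * g⁻¹)) * a⁻¹) * ⁅a, g⁆ := by
    simp only [commutatorElement_def]; group
  rw [e]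
  apply Subgroup.mul_mem
  · apply Subgroup.mem_sup_right
    exact hV.conj_mem _ (V.mul_mem hv (hV.conj_mem _ (V.inv_mem hv) g)) a
  · exact Subgroup.mem_sup_left (Subgroup.commutator_mem_commutator ha hg)

/-- In a nilpotent group, `U ≤ [U,G] V` forces `U ≤ V` (`V` normal). -/
theorem le_of_le_commutator_sup [hG : Group.IsNilpotent G] (U V : Subgroup G) [V.Normal]
    (h : U ≤ ⁅U, (⊤ : Subgroup G)⁆ ⊔ V) : U ≤ V := by
  obtain ⟨n, hn⟩ := Subgroup.nilpotent_iff_lowerCentralSeries.1 hG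
  have key : ∀ k, U ≤ (⊤ : Subgroup G).lowerCentralSeries k ⊔ V := by
    intro k
    induction k with
    | zero => simp
    | succ k ih =>
      calc U ≤ ⁅U, (⊤ : Subgroup G)⁆ ⊔ V := h
        _ ≤ ⁅(⊤ : Subgroup G).lowerCentralSeries k ⊔ V, (⊤ : Subgroup G)⁆ ⊔ V :=
          sup_le_sup_right (Subgroup.commutator_mono ih le_rfl) V
        _ ≤ (⁅(⊤ : Subgroup G).lowerCentralSeries k, (⊤ : Subgroup G)⁆ ⊔ V) ⊔ V :=
          sup_le_sup_right (commutator_sup_le _ _ _) V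
        _ = (⊤ : Subgroup G).lowerCentralSeries (k + 1) ⊔ V := by
          rw [sup_assoc, sup_idem]; rfl
  have := key n
  rwa [hn, bot_sup_eq] at this

/-- If `[W j, G] ≤ W (j+1)` for a chain of normal subgroups then `[W j, γ_{k+1}(G)] ≤ W (j+k+1)`. -/
theorem chain_commutator_le (W : ℕ → Subgroup G) (hWn : ∀ j, (W j).Normal)
    (hW : ∀ j, ⁅W j, (⊤ : Subgroup G)⁆ ≤ W (j + 1)) :
    ∀ k j, ⁅W j, (⊤ : Subgroup G).lowerCentralSeries k⁆ ≤ W (j + k + 1) := by
  intro k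
  induction k with
  | zero => intro j; exact hW j
  | succ k ih =>
    intro j
    have := hWn (j + (k + 1) + 1)
    rw [Subgroup.commutator_comm, Subgroup.lowerCentralSeries_succ]
    apply three_subgroups_normal
    · -- ⁅⁅⊤, W j⁆, L k⁆
      calc ⁅⁅(⊤ : Subgroup G), W j⁆, (⊤ : Subgroup G).lowerCentralSeries k⁆
          ≤ ⁅W (j + 1), (⊤ : Subgroup G).lowerCentralSeries k⁆ := by
            apply Subgroup.commutator_mono _ le_rfl
            rw [Subgroup.commutator_comm]; exact hW j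
        _ ≤ W (j + 1 + k + 1) := ih (j + 1)
        _ = W (j + (k + 1) + 1) := by congr 1; omega
    · calc ⁅⁅W j, (⊤ : Subgroup G).lowerCentralSeries k⁆, (⊤ : Subgroup G)⁆
          ≤ ⁅W (j + k + 1), (⊤ : Subgroup G)⁆ := Subgroup.commutator_mono (ih j) le_rfl
        _ ≤ W (j + k + 1 + 1) := hW _
        _ = W (j + (k + 1) + 1) := by congr 1

end Cfsg.Agent.Lib.Helper66Comm
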