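import Mathlib

set_option autoImplicit false

namespace Cfsg.Agent.Lib.Helper66HupChief

open Subgroup
open scoped commutatorElement

universe u v w

theorem exists_max_abelian_normal (G : Type u) [Group G] [Finite G] :
    ∃ A : Subgroup G, A.Normal ∧ (∀ a ∈ A, ∀ b ∈ A, a * b = b * a) ∧
      ∀ A' : Subgroup G, A'.Normal → (∀ a ∈ A', ∀ b ∈ A', a * b = b * a) → A ≤ A' → A' = A := by
  let S : Set (Subgroup G) := {A | A.Normal ∧ ∀ a ∈ A, ∀ b ∈ A, a * b = b * a}
  have hS : S.Nonempty := by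
    refine ⟨⊥, inferInstance, ?_⟩
    intro a ha b hb
    rw [mem_bot.mp ha, mem_bot.mp hb]
  obtain ⟨A, hA⟩ := (Set.toFinite S).exists_maximal hS
  refine ⟨A, hA.prop.1, hA.prop.2, ?_⟩
  intro A' h1 h2 h3
  exact le_antisymm (hA.le_of_ge ⟨h1, h2⟩ h3) h3

theorem exists_chief {G : Type u} [Group G] [Finite G] (hsol : Group.IsSolvable G)
    {A C : Subgroup G} [A.Normal] [C.Normal] (hAC : A < C) :
    ∃ (B : Subgroup G) (s : ℕ), B.Normal ∧ s.Prime ∧ A < B ∧ B ≤ C ∧
      (∀ x ∈ B, ∀ y ∈ B, ⁅x, y⁆ ∈ A) ∧ (∀ x ∈ B, x ^ s ∈ A) := by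
  let S : Set (Subgroup G) := {B | B.Normal ∧ A < B ∧ B ≤ C}
  have hS : S.Nonempty := ⟨C, inferInstance, hAC, le_rfl⟩
  obtain ⟨B, hB⟩ := (Set.toFinite S).exists_minimal hS
  obtain ⟨hBn, hAB, hBC⟩ := hB.prop
  have hmin : ∀ B' : Subgroup G, B'.Normal → A ≤ B' → B' ≤ B → B' = A ∨ B' = B := by
    intro B' h1 h2 h3
    by_cases h4 : B' = A
    · exact Or.inl h4
    · right
      exact le_antisymm h3 (hB.le_of_le ⟨h1, lt_of_le_of_ne h2 (Ne.symm h4), h3.trans hBC⟩ h3)
  let π := QuotientGroup.mk' A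
  have hπ : Function.Surjective π := QuotientGroup.mk'_surjective A
  have hker : π.ker = A := QuotientGroup.ker_mk' A
  have hmem : ∀ x : G, π x = 1 ↔ x ∈ A := fun x => QuotientGroup.eq_one_iff x
  have hBbar : B.map π ≠ ⊥ := by
    intro h
    rw [Subgroup.map_eq_bot_iff, hker] at h
    exact absurd h (not_le_of_gt hAB)
  have hBbn : (B.map π).Normal := hBn.map π hπ
  have hcomapB : (B.map π).comap π = B := by
    rw [comap_map_eq, hker, sup_eq_left]; exact hAB.le
  have hsolq : Group.IsSolvable (G ⧸ A) := inferInstance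
  have hlt : ⁅B.map π, B.map π⁆ < B.map π := Group.IsSolvable.commutator_lt_of_ne_bot hBbar
  have hcomm : ∀ x ∈ B, ∀ y ∈ B, ⁅x, y⁆ ∈ A := by
    have hn1 : (⁅B.map π, B.map π⁆.comap π).Normal := inferInstance
    have hA1 : A ≤ ⁅B.map π, B.map π⁆.comap π := by
      intro a ha
      rw [mem_comap, (hmem a).mpr ha]
      exact one_mem _
    have hlt1 : ⁅B.map π, B.map π⁆.comap π < B := by
      have := (comap_lt_comap_of_surjective hπ).mpr hlt
      rwa [hcomapB] at this
    rcases hmin _ hn1 hA1 hlt1.le with h | h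
    · intro x hx y hy
      rw [← h, mem_comap, map_commutatorElement]
      exact commutator_mem_commutator (mem_map_of_mem π hx) (mem_map_of_mem π hy)
    · exact absurd h hlt1.ne
  have hnt : Nontrivial (B.map π) := (nontrivial_iff_ne_bot _).mpr hBbar
  obtain ⟨s, hs, hsd⟩ := Nat.exists_prime_and_dvd (n := Nat.card (B.map π))
    (by
      intro h
      exact absurd (Finite.one_lt_card (α := B.map π)) (by omega))
  have : Fact s.Prime := ⟨hs⟩
  obtain ⟨b, hb⟩ := exists_prime_orderOf_dvd_card' s hsd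
  refine ⟨B, s, hBn, hs, hAB, hBC, hcomm, ?_⟩
  let T : Subgroup G :=
    { carrier := {x | x ∈ B ∧ x ^ s ∈ A}
      one_mem' := ⟨one_mem _, by rw [one_pow]; exact one_mem _⟩
      mul_mem' := by
        rintro x y ⟨hx, hxs⟩ ⟨hy, hys⟩
        refine ⟨mul_mem hx hy, ?_⟩
        rw [← hmem, map_pow, map_mul]
        have hc : Commute (π x) (π y) := by
          have := (hmem _).mpr (hcomm x hx y hy)
          rw [map_commutatorElement] at this
          exact commutatorElement_eq_one_iff_commute.mp this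
        rw [hc.mul_pow, ← map_pow, ← map_pow, (hmem _).mpr hxs, (hmem _).mpr hys, one_mul]
      inv_mem' := by
        rintro x ⟨hx, hxs⟩
        exact ⟨inv_mem hx, by rw [inv_pow]; exact inv_mem hxs⟩ }
  have hTn : T.Normal := by
    constructor
    rintro x ⟨hx, hxs⟩ g
    refine ⟨hBn.conj_mem x hx g, ?_⟩
    rw [conj_pow]
    exact Normal.conj_mem inferInstance _ hxs g
  have hAT : A ≤ T := fun a ha => ⟨hAB.le ha, pow_mem ha s⟩
  have hTB : T ≤ B := fun x hx => hx.1
  rcases hmin T hTn hAT hTB with h | h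
  · exfalso
    obtain ⟨x, hx, hxb⟩ := mem_map.mp b.2
    have hxT : x ∈ T := by
      refine ⟨hx, ?_⟩
      rw [← hmem, map_pow, hxb]
      have := pow_orderOf_eq_one b
      rw [hb] at this
      exact congrArg Subtype.val this
    rw [h, ← hmem, hxb] at hxT
    have hb1 : b = 1 := Subtype.ext hxT
    rw [hb1, orderOf_one] at hb
    exact hs.one_lt.ne hb
  · intro x hx
    rw [← h] at hx
    exact hx.2

end Cfsg.Agent.Lib.Helper66HupChief
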