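import Mathlib

set_option autoImplicit false

namespace Cfsg.Agent.Lib.Helper66HupSmall

open Subgroup
open scoped commutatorElement

universe u v w

theorem card_sub_one_dvd {G : Type u} {V : Type v} [Group G] [Finite G] [AddCommGroup V] [Finite V]
    [Nontrivial V] [DistribMulAction G V]
    (htrans : ∀ v w : V, v ≠ 0 → w ≠ 0 → ∃ g : G, g • v = w) : Nat.card V - 1 ∣ Nat.card G := by
  obtain ⟨v0, hv0⟩ := exists_ne (0 : V)
  have horb : MulAction.orbit G v0 = ({0} : Set V)ᶜ := by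
    ext w
    constructor
    · rintro ⟨g, rfl⟩ h
      apply hv0
      have h' : g • v0 = 0 := h
      rwa [smul_eq_zero_iff_eq] at h'
    · intro hw
      obtain ⟨g, hg⟩ := htrans v0 w hv0 hw
      exact ⟨g, hg⟩
  have h1 : (MulAction.orbit G v0).ncard = Nat.card V - 1 := by
    rw [horb, Set.ncard_compl, Set.ncard_singleton]
  rw [← h1, ← MulAction.index_stabilizer]
  exact Subgroup.index_dvd_card _

/-- a `p`-element lies in every normal subgroup of index `< p` -/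
theorem mem_of_index_lt {G : Type u} [Group G] [Finite G] {N : Subgroup G} [N.Normal] {r : ℕ}
    (hr : r.Prime) (hN : N.index < r) {x : G} (hx : ∃ j : ℕ, orderOf x = r ^ j) : x ∈ N := by
  obtain ⟨j, hj⟩ := hx
  rw [← QuotientGroup.eq_one_iff, ← orderOf_eq_one_iff]
  have h1 : orderOf (x : G ⧸ N) ∣ r ^ j := by
    rw [← hj]
    exact orderOf_map_dvd (QuotientGroup.mk' N) x
  obtain ⟨i, -, hi⟩ := (Nat.dvd_prime_pow hr).mp h1
  have h2 : orderOf (x : G ⧸ N) ∣ N.index := by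
    rw [Subgroup.index]
    exact orderOf_dvd_natCard _
  have h3 : orderOf (x : G ⧸ N) < r :=
    lt_of_le_of_lt (Nat.le_of_dvd (Nat.pos_of_ne_zero (Subgroup.index_ne_zero_of_finite)) h2) hN
  rw [hi] at h3 ⊢
  rcases Nat.eq_zero_or_pos i with h0 | h0
  · rw [h0, pow_zero]
  · exfalso
    have : r ^ 1 ≤ r ^ i := Nat.pow_le_pow_right hr.pos h0
    rw [pow_one] at this
    omega

/-- a non-central commutator has order `s` -/
theorem dvd_card_of_lt {G : Type u} [Group G] [Finite G] {A B : Subgroup G} {s : ℕ} (hs : s.Prime)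
    (hAB : A < B) (hAZ : ∀ a ∈ A, ∀ x ∈ B, a * x = x * a) (hcomm : ∀ x ∈ B, ∀ y ∈ B, ⁅x, y⁆ ∈ A)
    (hpow : ∀ x ∈ B, x ^ s ∈ A) (hZ : ∀ x ∈ B, (∀ y ∈ B, x * y = y * x) → x ∈ A) :
    s ∣ Nat.card A := by
  obtain ⟨x, hxB, hxA⟩ := SetLike.exists_of_lt hAB
  have h1 : ¬ ∀ y ∈ B, x * y = y * x := fun h => hxA (hZ x hxB h)
  push Not at h1
  obtain ⟨y, hyB, hxy⟩ := h1
  have hcA : ⁅x, y⁆ ∈ A := hcomm x hxB y hyB
  obtain ⟨c, hc⟩ : ∃ c, c = ⁅x, y⁆ := ⟨_, rfl⟩
  rw [← hc] at hcA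
  have hc1 : c ≠ 1 := by
    intro h
    apply hxy
    rw [h] at hc
    exact (commutatorElement_eq_one_iff_mul_comm.mp hc.symm)
  have hconj : x * y * x⁻¹ = c * y := by
    rw [hc, commutatorElement_def]; group
  have hk : ∀ k : ℕ, x ^ k * y * (x ^ k)⁻¹ = c ^ k * y := by
    intro k
    induction k with
    | zero => simp
    | succ k ih =>
      have hcx : c ^ k * x⁻¹ = x⁻¹ * c ^ k := hAZ _ (A.pow_mem hcA k) _ (B.inv_mem hxB)
      calc x ^ (k + 1) * y * (x ^ (k + 1))⁻¹ = x * (x ^ k * y * (x ^ k)⁻¹) * x⁻¹ := by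
            rw [pow_succ']; group
        _ = x * (c ^ k * y) * x⁻¹ := by rw [ih]
        _ = x * (c ^ k * x⁻¹) * (x * y * x⁻¹) := by group
        _ = x * (x⁻¹ * c ^ k) * (c * y) := by rw [hcx, hconj]
        _ = c ^ (k + 1) * y := by rw [pow_succ]; group
  have hcs : c ^ s = 1 := by
    have h2 := hk s
    have h3 : x ^ s * y = y * x ^ s := hAZ _ (hpow x hxB) y hyB
    rw [h3, mul_assoc, mul_inv_cancel, mul_one] at h2
    exact (mul_eq_right.mp h2.symm)
  have ho : orderOf c = s := by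
    rcases (Nat.dvd_prime hs).mp (orderOf_dvd_of_pow_eq_one hcs) with h | h
    · exact absurd (orderOf_eq_one_iff.mp h) hc1
    · exact h
  rw [← ho]
  exact Subgroup.orderOf_dvd_natCard A hcA

end Cfsg.Agent.Lib.Helper66HupSmall
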