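import Mathlib
import Cfsg.Agent.Lib.Helper66HupSmall

set_option autoImplicit false

namespace Cfsg.Agent.Lib.Helper66HupKey

open Subgroup
open scoped commutatorElement
open Cfsg.Agent.Lib.Helper66HupSmall

universe u v w

/-- piece `key`, with the pieces `irr` and `act` as hypotheses -/
theorem key_of {N : ℕ} {G : Type u} [Group G] [Finite G]
    (hG : N ∣ Nat.card G)
    {A B C : Subgroup G} [B.Normal] [C.Normal] {s k r b : ℕ} (hr : r.Prime)
    (hrd : r ∣ N) (hb : r ^ b ∣ N) (hCr : C.index < r) (hCA : C ≤ centralizer (A : Set G))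
    (hAB : A < B)
    (hZ : ∀ x ∈ B, (∀ y ∈ B, x * y = y * x) → x ∈ A)
    (hirr : ∀ z : G, orderOf z = r → IsCyclic (centralizer ({z} : Set G)))
    (hact : ∀ R : Subgroup G, IsCyclic R → IsPGroup r R → R ≠ ⊥ → R ≤ normalizer (B : Set G) →
      R ≤ centralizer (A : Set G) → (∀ z ∈ R, z ≠ 1 → ∃ x ∈ B, z * x ≠ x * z) →
      ∃ k' : ℕ, 1 ≤ k' ∧ k' ≤ k ∧ Nat.card R ∣ s ^ (2 * k') - 1) :
    ∃ k' : ℕ, 1 ≤ k' ∧ k' ≤ k ∧ r ^ b ∣ s ^ (2 * k') - 1 := by
  have : Fact r.Prime := ⟨hr⟩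
  obtain ⟨R⟩ : Nonempty (Sylow r G) := inferInstance
  have hRb : r ^ b ∣ Nat.card R := R.pow_dvd_card_of_pow_dvd_card (hb.trans hG)
  have hRr : r ∣ Nat.card R := R.dvd_card_of_dvd_card (hrd.trans hG)
  have hord : ∀ x ∈ (R : Subgroup G), ∃ j : ℕ, orderOf x = r ^ j := by
    intro x hx
    obtain ⟨j, hj⟩ := R.2 ⟨x, hx⟩
    have h1 : x ^ r ^ j = 1 := congrArg Subtype.val hj
    obtain ⟨i, -, hi⟩ := (Nat.dvd_prime_pow hr).mp (orderOf_dvd_of_pow_eq_one h1)
    exact ⟨i, hi⟩
  have hRC : (R : Subgroup G) ≤ C := fun x hx => mem_of_index_lt hr hCr (hord x hx)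
  have hnt : Nontrivial (R : Subgroup G) := by
    rw [← Finite.one_lt_card_iff_nontrivial]
    exact lt_of_lt_of_le hr.one_lt (Nat.le_of_dvd Nat.card_pos hRr)
  have hR1 : (R : Subgroup G) ≠ ⊥ := (nontrivial_iff_ne_bot _).mp hnt
  have hcn : Nontrivial (center (R : Subgroup G)) := R.2.center_nontrivial
  have hcp : IsPGroup r (center (R : Subgroup G)) := R.2.to_subgroup _
  obtain ⟨e, he0, he⟩ := hcp.nontrivial_iff_card.mp hcn
  obtain ⟨z, hz⟩ := exists_prime_orderOf_dvd_card' (G := center (R : Subgroup G)) r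
    (by rw [he]; exact dvd_pow_self r he0.ne')
  have hz' : orderOf ((z : (R : Subgroup G)) : G) = r := by
    rw [Subgroup.orderOf_coe, Subgroup.orderOf_coe, hz]
  have hRz : (R : Subgroup G) ≤ centralizer ({((z : (R : Subgroup G)) : G)} : Set G) := by
    intro x hx
    rw [mem_centralizer_singleton_iff]
    have := (mem_center_iff.mp z.2) ⟨x, hx⟩
    exact congrArg Subtype.val this
  have hRcyc : IsCyclic (R : Subgroup G) := by
    have := hirr _ hz'
    exact isCyclic_of_injective (inclusion hRz) (inclusion_injective hRz)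
  have hfaith : ∀ x ∈ (R : Subgroup G), x ≠ 1 → ∃ y ∈ B, x * y ≠ y * x := by
    intro x hx hx1
    by_contra hcon
    push Not at hcon
    obtain ⟨j, hj⟩ := hord x hx
    have hj0 : j ≠ 0 := by
      intro h
      rw [h, pow_zero, orderOf_eq_one_iff] at hj
      exact hx1 hj
    obtain ⟨i, rfl⟩ := Nat.exists_eq_succ_of_ne_zero hj0
    have ho : orderOf (x ^ r ^ i) = r := by
      rw [orderOf_pow_of_dvd (pow_ne_zero _ hr.ne_zero) (by rw [hj]; exact pow_dvd_pow r (Nat.le_succ i)),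
        hj, Nat.succ_eq_add_one, pow_succ, Nat.mul_div_cancel_left _ (pow_pos hr.pos i)]
    have hcy := hirr _ ho
    have hBz : B ≤ centralizer ({x ^ r ^ i} : Set G) := by
      intro y hy
      rw [mem_centralizer_singleton_iff]
      have : Commute x y := hcon y hy
      exact ((this.pow_left _).eq).symm
    have hBA : B ≤ A := by
      intro y hy
      refine hZ y hy ?_
      intro y' hy'
      have := hcy.isMulCommutative.is_comm.comm ⟨y, hBz hy⟩ ⟨y', hBz hy'⟩
      exact congrArg Subtype.val this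
    exact absurd hBA (not_le_of_gt hAB)
  obtain ⟨k', h1, h2, h3⟩ := hact R hRcyc R.2 hR1
    (by rw [normalizer_eq_top]; exact le_top) (hRC.trans hCA) hfaith
  exact ⟨k', h1, h2, hRb.trans h3⟩

end Cfsg.Agent.Lib.Helper66HupKey
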