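import Mathlib

set_option autoImplicit false

namespace Cfsg.Agent.Lib.Helper66HupN26

open Subgroup
open scoped commutatorElement

universe u v w

/-- conjugation action of a subgroup of the normalizer of `B` on `B` -/
@[reducible] def conjAct {G : Type u} [Group G] (R B : Subgroup G)
    (hR : R ≤ normalizer (B : Set G)) : MulAction R B where
  smul g b := ⟨(g : G) * b * (g : G)⁻¹, (mem_normalizer_iff.mp (hR g.2) b).mp b.2⟩
  one_smul b := by
    apply Subtype.ext
    change ((1 : R) : G) * b * ((1 : R) : G)⁻¹ = b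
    simp
  mul_smul g h b := by
    apply Subtype.ext
    change ((g * h : R) : G) * b * ((g * h : R) : G)⁻¹ = (g : G) * ((h : G) * b * (h : G)⁻¹) * (g : G)⁻¹
    simp [mul_assoc]

theorem card_modEq {G : Type u} [Group G] [Finite G] {p : ℕ} [Fact p.Prime] (R B : Subgroup G)
    (hR : R ≤ normalizer (B : Set G)) (hp : IsPGroup p R) :
    Nat.card B ≡ Nat.card (B ⊓ centralizer (R : Set G) : Subgroup G) [MOD p] := by
  let _ := conjAct R B hR
  have h1 := hp.card_modEq_card_fixedPoints (α := B)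
  have h2 : Nat.card (MulAction.fixedPoints R B) =
      Nat.card (B ⊓ centralizer (R : Set G) : Subgroup G) := by
    refine Nat.card_congr ⟨fun b => ⟨b.1.1, ?_⟩, fun b => ⟨⟨b.1, (mem_inf.mp b.2).1⟩, ?_⟩, ?_, ?_⟩
    · refine mem_inf.mpr ⟨b.1.2, ?_⟩
      rw [mem_centralizer_iff]
      intro g hg
      have := b.2 ⟨g, hg⟩
      have h3 : g * b.1.1 * g⁻¹ = b.1.1 := congrArg Subtype.val this
      calc g * b.1.1 = (g * b.1.1 * g⁻¹) * g := by group
        _ = b.1.1 * g := by rw [h3]
    · intro g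
      apply Subtype.ext
      change (g : G) * b.1 * (g : G)⁻¹ = b.1
      have := (mem_centralizer_iff.mp (mem_inf.mp b.2).2) g g.2
      rw [this]; group
    · intro b; rfl
    · intro b; rfl
  rw [← h2]
  exact h1

theorem commute_of_order_seven {G : Type u} [Group G] [Finite G] {A B : Subgroup G} (hAB : A ≤ B)
    (hidx : A.relIndex B = 9) {w : G} (hw : orderOf w = 7) (hwB : w ∈ normalizer (B : Set G))
    (hwA : w ∈ centralizer (A : Set G)) (h7 : ¬ 7 ∣ Nat.card A) : ∀ b ∈ B, w * b = b * w := by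
  have : Fact (Nat.Prime 7) := ⟨by norm_num⟩
  have hR : zpowers w ≤ normalizer (B : Set G) := by
    rw [zpowers_le]; exact hwB
  have hp : IsPGroup 7 (zpowers w) := by
    apply IsPGroup.of_card (n := 1)
    rw [Nat.card_zpowers, hw, pow_one]
  have h1 := card_modEq (zpowers w) B hR hp
  obtain ⟨D, hD⟩ : ∃ D, D = B ⊓ centralizer ((zpowers w : Subgroup G) : Set G) := ⟨_, rfl⟩
  rw [← hD] at h1
  have hAD : A ≤ D := by
    rw [hD]
    refine le_inf hAB ?_
    rw [le_centralizer_iff, zpowers_le]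
    exact hwA
  have hDB : D ≤ B := by rw [hD]; exact inf_le_left
  have h2 : A.relIndex D * D.relIndex B = 9 := by
    rw [relIndex_mul_relIndex A D B hAD hDB, hidx]
  have hcD : Nat.card D = Nat.card A * A.relIndex D := by
    have := relIndex_mul_relIndex ⊥ A D bot_le hAD
    rw [relIndex_bot_left, relIndex_bot_left] at this
    exact this.symm
  have hcB : Nat.card B = Nat.card A * 9 := by
    have := relIndex_mul_relIndex ⊥ A B bot_le hAB
    rw [relIndex_bot_left, relIndex_bot_left, hidx] at this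
    exact this.symm
  obtain ⟨j, hj⟩ : ∃ j, j = A.relIndex D := ⟨_, rfl⟩
  rw [← hj] at h2 hcD
  have hj9 : j ∣ 9 := ⟨_, h2.symm⟩
  have hjle : j ≤ 9 := Nat.le_of_dvd (by norm_num) hj9
  rw [hcD, hcB] at h1
  have h3 : 7 ∣ Nat.card A * 9 - Nat.card A * j := (Nat.modEq_iff_dvd' (Nat.mul_le_mul_left _ hjle)).mp h1.symm
  rw [← Nat.mul_sub] at h3
  have h4 : 7 ∣ 9 - j := by
    rcases (Nat.Prime.dvd_mul (by norm_num)).mp h3 with h | h
    · exact absurd h h7
    · exact h
  have hj' : j = 9 := by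
    interval_cases j <;> revert hj9 h4 <;> decide
  have hDB' : D.relIndex B = 1 := by
    rw [hj'] at h2; omega
  rw [relIndex_eq_one] at hDB'
  intro b hb
  have hbD := hDB' hb
  rw [hD] at hbD
  exact (mem_centralizer_iff.mp (mem_inf.mp hbD).2) w (mem_zpowers w)

end Cfsg.Agent.Lib.Helper66HupN26
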