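import Mathlib

set_option autoImplicit false

namespace Cfsg.Agent.Lib.Helper66SlL2

open Subgroup

theorem exists_index_two_of_cyclic_normal {H : Type*} [Group H] [Finite H] (C : Subgroup H)
    (hC : C.Normal) (hcyc : IsCyclic C) (h2 : 2 ∣ Nat.card C) (hodd : ¬ 2 ∣ C.index) :
    ∃ K : Subgroup H, K.Normal ∧ K.index = 2 := by
  obtain ⟨c, hc⟩ := (Subgroup.isCyclic_iff_exists_zpowers_eq_top C).mp hcyc
  have hcC : c ∈ C := by rw [← hc]; exact mem_zpowers c
  have hoc : orderOf c = Nat.card C := by rw [← hc, Nat.card_zpowers]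
  let D : Subgroup H := zpowers (c ^ 2)
  have hDC : D ≤ C := by
    rw [zpowers_le]; exact pow_mem hcC 2
  have hDn : D.Normal := by
    constructor
    intro x hx g
    obtain ⟨j, rfl⟩ := mem_zpowers_iff.mp hx
    have h1 : g * c * g⁻¹ ∈ zpowers c := by rw [hc]; exact hC.conj_mem c hcC g
    obtain ⟨i, hi⟩ := mem_zpowers_iff.mp h1
    have h3 : g * (c ^ 2) ^ j * g⁻¹ = ((c ^ 2) ^ i) ^ j := by
      rw [← conj_zpow, ← conj_pow, ← hi, ← zpow_natCast, ← zpow_natCast, ← zpow_mul, ← zpow_mul,
        ← zpow_mul, ← zpow_mul]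
      congr 1
      ring
    rw [h3]
    exact zpow_mem (zpow_mem (mem_zpowers _) i) j
  have hcardD : Nat.card D * 2 = Nat.card C := by
    rw [Nat.card_zpowers, orderOf_pow, hoc, Nat.gcd_eq_right h2]
    exact Nat.div_mul_cancel h2
  have hrel : D.relIndex C = 2 := by
    have := relIndex_mul_relIndex ⊥ D C bot_le hDC
    rw [relIndex_bot_left, relIndex_bot_left, ← hcardD] at this
    exact Nat.eq_of_mul_eq_mul_left Nat.card_pos this
  let π := QuotientGroup.mk' D
  have hπ : Function.Surjective π := QuotientGroup.mk'_surjective D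
  have hker : π.ker = D := QuotientGroup.ker_mk' D
  have hNn : (C.map π).Normal := hC.map π hπ
  have hNcard : Nat.card (C.map π) = 2 := by
    rw [← relIndex_ker, hker, hrel]
  have hNidx : (C.map π).index = C.index := by
    rw [index_map, hker, sup_eq_left.mpr hDC, MonoidHom.range_eq_top.mpr hπ, index_top, mul_one]
  have hcop : Nat.Coprime (Nat.card (C.map π)) (C.map π).index := by
    rw [hNcard, hNidx]
    exact (Nat.Prime.coprime_iff_not_dvd Nat.prime_two).mpr hodd
  obtain ⟨K, hK⟩ := exists_right_complement'_of_coprime hcop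
  have hKidx : K.index = 2 := by
    rw [hK.index_eq_card, hNcard]
  have hidx : (K.comap π).index = 2 := by
    rw [index_comap_of_surjective K hπ, hKidx]
  exact ⟨K.comap π, normal_of_index_eq_two hidx, hidx⟩

end Cfsg.Agent.Lib.Helper66SlL2
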