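import Mathlib

set_option autoImplicit false

namespace Cfsg.Agent.Lib.Helper66SlT2

open Subgroup

variable {p : ℕ} [Fact p.Prime] {V : Type*} [AddCommGroup V] [Module (ZMod p) V] [Finite V]
  [Nontrivial V] (H : Subgroup (V ≃ₗ[ZMod p] V))

theorem centralizer_cyclic (A : Subgroup H)
    (hirr : ∀ W : Submodule (ZMod p) V,
      (∀ a ∈ A, ∀ v ∈ W, ((a : H) : V ≃ₗ[ZMod p] V) v ∈ W) → W = ⊥ ∨ W = ⊤) :
    IsCyclic (centralizer (A : Set H)) := by
  classical
  let S : Set (Module.End (ZMod p) V) :=
    {f | ∃ n ∈ A, f = (((n : H) : V ≃ₗ[ZMod p] V) : V →ₗ[ZMod p] V)}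
  let D := Subalgebra.centralizer (ZMod p) S
  have hDmem : ∀ f : Module.End (ZMod p) V, f ∈ D ↔
      ∀ n ∈ A, ∀ v, ((n : H) : V ≃ₗ[ZMod p] V) (f v) = f (((n : H) : V ≃ₗ[ZMod p] V) v) := by
    intro f
    rw [Subalgebra.mem_centralizer_iff]
    constructor
    · intro h n hn v
      exact congrArg (fun g : Module.End (ZMod p) V => g v) (h _ ⟨n, hn, rfl⟩)
    · rintro h _ ⟨n, hn, rfl⟩
      ext v
      exact h n hn v
  have hinj : ∀ f ∈ D, f ≠ 0 → Function.Injective f := by
    intro f hf hf0
    rw [← LinearMap.ker_eq_bot]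
    rcases hirr (LinearMap.ker f) (by
      intro n hn v hv
      rw [LinearMap.mem_ker] at hv ⊢
      rw [← (hDmem f).mp hf n hn v, hv, map_zero]) with h | h
    · exact h
    · exact absurd (LinearMap.ker_eq_top.mp h) hf0
  have : Finite (Module.End (ZMod p) V) :=
    Finite.of_injective (fun f : Module.End (ZMod p) V => (f : V → V)) DFunLike.coe_injective
  have : Finite D := Subtype.finite
  have : Nontrivial (Module.End (ZMod p) V) := inferInstance
  have : Nontrivial D := inferInstance
  have : NoZeroDivisors D := by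
    refine ⟨fun {a b} hab => ?_⟩
    by_cases ha : a = 0
    · exact Or.inl ha
    · right
      have ha' : (a : Module.End (ZMod p) V) ≠ 0 := fun h => ha (Subtype.ext h)
      apply Subtype.ext
      ext v
      apply hinj a a.2 ha'
      have := congrArg (fun g : D => (g : Module.End (ZMod p) V) v) hab
      simpa using this
  have : IsDomain D := NoZeroDivisors.to_isDomain D
  let _ : Field D := (Finite.isDomain_to_isField D).toField
  let f : centralizer (A : Set H) →* D :=
    { toFun := fun c => ⟨(((c : H) : V ≃ₗ[ZMod p] V) : V →ₗ[ZMod p] V), by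
        rw [hDmem]
        intro n hn v
        have h1 := mem_centralizer_iff.mp c.2 n hn
        have h2 := congrArg (fun g : H => (g : V ≃ₗ[ZMod p] V) v) h1
        exact h2⟩
      map_one' := rfl
      map_mul' := fun a b => rfl }
  have hf : Function.Injective f := by
    intro a b hab
    apply Subtype.ext
    apply Subtype.ext
    ext v
    exact congrArg (fun g : D => (g : Module.End (ZMod p) V) v) hab
  have : Finite (V ≃ₗ[ZMod p] V) :=
    Finite.of_injective (fun f : V ≃ₗ[ZMod p] V => (f : V → V)) DFunLike.coe_injective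
  exact isCyclic_of_injective_ringHom f hf

end Cfsg.Agent.Lib.Helper66SlT2
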