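import Mathlib

set_option autoImplicit false

namespace Cfsg.Agent.Lib.Helper66SlT4

theorem num_twelve {p e k a : ℕ} (hp : p.Prime) (he : 0 < e) (hk : 2 ≤ k) (ha : a ∣ p ^ e - 1)
    (h : (p ^ e) ^ k = a * 12 + 1) (h2 : 2 ∣ a) :
    ((p ^ e) ^ k = 25 ∧ a = 2) ∨ ((p ^ e) ^ k = 121 ∧ a = 10) := by
  have hd : 2 ≤ p ^ e := by
    calc 2 ≤ p := hp.two_le
      _ = p ^ 1 := (pow_one p).symm
      _ ≤ p ^ e := Nat.pow_le_pow_right hp.pos he
  generalize p ^ e = d at *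
  have ha' : a ≤ d - 1 := Nat.le_of_dvd (by omega) ha
  have hub : d ^ k ≤ (d - 1) * 12 + 1 := by
    rw [h]
    exact Nat.succ_le_succ (Nat.mul_le_mul_right 12 ha')
  have hd12 : d < 12 := by
    by_contra hcon
    have h1 : d ^ 2 ≤ d ^ k := Nat.pow_le_pow_right (by omega) hk
    have h2 : 12 * d ≤ d ^ 2 := by rw [pow_two]; exact Nat.mul_le_mul_right d (by omega)
    omega
  have hk5 : k < 5 := by
    by_contra hcon
    have h1 : d ^ 5 ≤ d ^ k := Nat.pow_le_pow_right (by omega) (by omega)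
    have h2 : 2 ^ 4 ≤ d ^ 4 := Nat.pow_le_pow_left hd 4
    have h3 : d ^ 5 = d ^ 4 * d := pow_succ d 4
    have h4 : 2 ^ 4 * d ≤ d ^ 4 * d := Nat.mul_le_mul_right d h2
    omega
  obtain ⟨c, hc⟩ := ha
  interval_cases d <;> interval_cases k <;> simp only [Nat.reducePow] at h ⊢ <;> first | omega | (
    have : a ≤ 10 := by omega
    interval_cases a <;> first | omega | simp)

end Cfsg.Agent.Lib.Helper66SlT4
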