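import Mathlib

set_option autoImplicit false

namespace Cfsg.Agent.Lib.Helper66SlT5b

open Subgroup

/-- a central normal subgroup with a complement is a direct factor -/
theorem exists_prod {H : Type*} [Group H] [Finite H] {L Z : Subgroup H} (hLZ : IsComplement' L Z)
    (hZ : ∀ z ∈ Z, ∀ x : H, z * x = x * z) :
    ∃ φ : (L × Z) ≃* H, ∀ l z, φ (l, z) = (l : H) * (z : H) := by
  let f : L × Z →* H := MonoidHom.noncommCoprod L.subtype Z.subtype
    (fun l z => (hZ z z.2 l).symm)
  have hf : ∀ l z, f (l, z) = (l : H) * (z : H) := fun l z => rfl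
  have hinj : Function.Injective f := by
    rw [injective_iff_map_eq_one]
    rintro ⟨l, z⟩ h
    rw [hf] at h
    have h1 : (l : H) = (z : H)⁻¹ := eq_inv_of_mul_eq_one_left h
    have h2 : (l : H) ∈ L ⊓ Z := mem_inf.mpr ⟨l.2, by rw [h1]; exact inv_mem z.2⟩
    rw [hLZ.disjoint.eq_bot, mem_bot] at h2
    have h3 : (z : H) = 1 := by rw [h2, one_mul] at h; exact h
    exact Prod.ext (Subtype.ext h2) (Subtype.ext h3)
  have hbij : Function.Bijective f := by
    refine hinj.bijective_of_nat_card_le ?_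
    rw [Nat.card_prod, hLZ.card_mul_card]
  exact ⟨MulEquiv.ofBijective f hbij, fun l z => rfl⟩

theorem sl23_prod_of_card_of {H : Type*} [Group H] [Finite H] (hc : Nat.card H = 120)
    (N : Subgroup H) (hN : N.Normal) (e : N ≃* QuaternionGroup 2)
    (hC : Nat.card (centralizer (N : Set H)) = 10) (hcyc : IsCyclic (centralizer (N : Set H)))
    (h5a : ∀ L : Subgroup H, Nat.card L = 24 → ∀ N' : Subgroup L, N'.Normal →
      (N' ≃* QuaternionGroup 2) → Nat.card (centralizer (N' : Set L)) = 2 →
      Nonempty (L ≃* Matrix.SpecialLinearGroup (Fin 2) (ZMod 3))) :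
    Nonempty (H ≃* Matrix.SpecialLinearGroup (Fin 2) (ZMod 3) × Multiplicative (ZMod 5)) := by
  have hAn : (centralizer (N : Set H)).Normal := inferInstance
  obtain ⟨a, ha⟩ := (Subgroup.isCyclic_iff_exists_zpowers_eq_top _).mp hcyc
  have haA : a ∈ centralizer (N : Set H) := by rw [← ha]; exact mem_zpowers a
  have hoa : orderOf a = 10 := by rw [← hC, ← ha, Nat.card_zpowers]
  obtain ⟨z, hz⟩ : ∃ z, z = a ^ 2 := ⟨_, rfl⟩
  have hoz : orderOf z = 5 := by
    rw [hz, orderOf_pow, hoa]
    norm_num
  have hz5 : z ^ 5 = 1 := by rw [← hoz]; exact pow_orderOf_eq_one z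
  have hz1 : z ≠ 1 := by
    intro h
    rw [h, orderOf_one] at hoz
    omega
  have hzA : z ∈ centralizer (N : Set H) := by rw [hz]; exact pow_mem haA 2
  -- conjugates of `z` are powers of `z`
  have hconj : ∀ g : H, ∃ i : ℕ, g * z * g⁻¹ = z ^ i := by
    intro g
    have h1 : g * a * g⁻¹ ∈ zpowers a := by rw [ha]; exact hAn.conj_mem a haA g
    rw [← mem_powers_iff_mem_zpowers] at h1
    obtain ⟨i, hi⟩ := h1
    refine ⟨i, ?_⟩
    have hi' : a ^ i = g * a * g⁻¹ := hi
    rw [hz, ← conj_pow, ← hi', ← pow_mul, ← pow_mul, mul_comm]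
  let Z : Subgroup H := zpowers z
  have hZcard : Nat.card Z = 5 := by rw [Nat.card_zpowers, hoz]
  have hZn : Z.Normal := by
    constructor
    intro x hx g
    obtain ⟨j, rfl⟩ := mem_zpowers_iff.mp hx
    obtain ⟨i, hi⟩ := hconj g
    rw [← conj_zpow, hi]
    exact zpow_mem (pow_mem (mem_zpowers z) i) j
  -- the centraliser of `z`
  let K : Subgroup H := centralizer (Z : Set H)
  have hKn : K.Normal := inferInstance
  have hKmem : ∀ g : H, g ∈ K ↔ g * z * g⁻¹ = z := by
    intro g
    constructor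
    · intro h
      have := (mem_centralizer_iff.mp h) z (mem_zpowers z)
      rw [← this]; group
    · intro h
      rw [mem_centralizer_iff]
      intro x hx
      obtain ⟨j, rfl⟩ := mem_zpowers_iff.mp hx
      have h1 : Commute g z := by
        have : g * z = (g * z * g⁻¹) * g := by group
        rw [h] at this
        exact this
      exact ((h1.zpow_right j).eq).symm
  have hpow4 : ∀ g : H, g ^ 4 ∈ K := by
    intro g
    obtain ⟨i, hi⟩ := hconj g
    have hk : ∀ k : ℕ, g ^ k * z * (g ^ k)⁻¹ = z ^ (i ^ k) := by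
      intro k
      induction k with
      | zero => simp
      | succ k ih =>
        calc g ^ (k + 1) * z * (g ^ (k + 1))⁻¹ = g * (g ^ k * z * (g ^ k)⁻¹) * g⁻¹ := by
              rw [pow_succ']; group
          _ = g * z ^ (i ^ k) * g⁻¹ := by rw [ih]
          _ = (z ^ i) ^ (i ^ k) := by rw [← conj_pow, hi]
          _ = z ^ (i ^ (k + 1)) := by rw [← pow_mul, pow_succ']
    rw [hKmem, hk 4]
    have hi5 : i % 5 ≠ 0 := by
      intro h
      have h1 : z ^ i = 1 := by
        rw [← pow_mod_orderOf, hoz, h, pow_zero]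
      rw [h1] at hi
      apply hz1
      have : z = g⁻¹ * (g * z * g⁻¹) * g := by group
      rw [this, hi]; group
    have h4 : i ^ 4 % 5 = 1 := by
      rw [Nat.pow_mod]
      have : i % 5 < 5 := Nat.mod_lt _ (by norm_num)
      interval_cases (i % 5) <;> simp_all
    rw [← pow_mod_orderOf, hoz, h4, pow_one]
  have hNK : N ≤ K := by
    intro n hn
    rw [hKmem]
    have := (mem_centralizer_iff.mp hzA) n hn
    rw [this]; group
  have hNcard : Nat.card N = 8 := by
    rw [Nat.card_congr e.toEquiv, Nat.card_eq_fintype_card, QuaternionGroup.card]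
  have hKtop : K = ⊤ := by
    rw [← index_eq_one]
    have h1 : IsPGroup 2 (H ⧸ K) := by
      intro x
      obtain ⟨g, rfl⟩ := QuotientGroup.mk_surjective x
      refine ⟨2, ?_⟩
      rw [← QuotientGroup.mk_pow, QuotientGroup.eq_one_iff]
      exact hpow4 g
    obtain ⟨j, hj⟩ := IsPGroup.iff_card.mp h1
    have h2 : K.index = 2 ^ j := hj
    have h3 : 8 ∣ Nat.card K := by
      rw [← hNcard]; exact card_dvd_of_le hNK
    have h4 : Nat.card K * K.index = 120 := by rw [card_mul_index, hc]
    obtain ⟨t, ht⟩ := h3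
    rw [ht] at h4
    have h5 : K.index ∣ 15 := ⟨t, by nlinarith⟩
    rw [h2] at h5 ⊢
    have h6 : Nat.Coprime (2 ^ j) 15 := Nat.Coprime.pow_left j (by norm_num)
    exact Nat.Coprime.eq_one_of_dvd h6 h5
  have hZc : ∀ y ∈ Z, ∀ x : H, y * x = x * y := by
    intro y hy x
    have hx : x ∈ K := by rw [hKtop]; exact mem_top x
    exact (mem_centralizer_iff.mp hx) y hy
  have hZidx : Z.index = 24 := by
    have := card_mul_index Z
    rw [hZcard, hc] at this
    omega
  obtain ⟨L, hL⟩ := exists_left_complement'_of_coprime (N := Z) (by rw [hZcard, hZidx]; norm_num)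
  have hLcard : Nat.card L = 24 := by
    have := hL.card_mul_card
    rw [hZcard, hc] at this
    omega
  obtain ⟨φ, hφ⟩ := exists_prod hL hZc
  -- elements of order prime to 5 lie in `L`
  have hmemL : ∀ (x : H) (k : ℕ), Nat.Coprime k 5 → x ^ k = 1 → x ∈ L := by
    intro x k hk hx
    obtain ⟨⟨l, y⟩, hly⟩ := φ.surjective x
    rw [hφ] at hly
    have hcm : Commute (l : H) (y : H) := (hZc y y.2 l).symm
    have h1 : (l : H) ^ k * (y : H) ^ k = 1 := by rw [← hcm.mul_pow, hly, hx]
    have h2 : (y : H) ^ k ∈ L ⊓ Z := by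
      refine mem_inf.mpr ⟨?_, pow_mem y.2 k⟩
      rw [eq_inv_of_mul_eq_one_right h1]
      exact inv_mem (pow_mem l.2 k)
    rw [hL.disjoint.eq_bot, mem_bot] at h2
    have h3 : (y : H) ^ 5 = 1 := by
      have := pow_card_eq_one' (x := y)
      rw [hZcard] at this
      exact congrArg Subtype.val this
    have h4 : orderOf (y : H) ∣ Nat.gcd k 5 :=
      Nat.dvd_gcd (orderOf_dvd_of_pow_eq_one h2) (orderOf_dvd_of_pow_eq_one h3)
    rw [hk, Nat.dvd_one, orderOf_eq_one_iff] at h4
    rw [← hly, h4, mul_one]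
    exact l.2
  have hNL : N ≤ L := by
    intro n hn
    refine hmemL n 8 (by norm_num) ?_
    have := pow_card_eq_one' (x := (⟨n, hn⟩ : N))
    rw [hNcard] at this
    exact congrArg Subtype.val this
  have hcent : centralizer ((N.subgroupOf L : Subgroup L) : Set L) =
      (centralizer (N : Set H)).subgroupOf L := by
    ext x
    rw [mem_subgroupOf, mem_centralizer_iff, mem_centralizer_iff]
    constructor
    · intro h n hn
      have := h ⟨n, hNL hn⟩ (by
        change (⟨n, hNL hn⟩ : L) ∈ N.subgroupOf L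
        rw [mem_subgroupOf]; exact hn)
      exact congrArg Subtype.val this
    · intro h n hn
      apply Subtype.ext
      exact h n (mem_subgroupOf.mp hn)
  have hcard2 : Nat.card (centralizer ((N.subgroupOf L : Subgroup L) : Set L)) = 2 := by
    rw [hcent, ← inf_subgroupOf_right, Nat.card_congr (subgroupOfEquivOfLe inf_le_right).toEquiv]
    have h1 : Nat.card (centralizer (N : Set H) ⊓ L : Subgroup H) ∣ 2 := by
      have h2 : Nat.card (centralizer (N : Set H) ⊓ L : Subgroup H) ∣ 10 := by
        rw [← hC]; exact card_dvd_of_le inf_le_left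
      have h3 : Nat.card (centralizer (N : Set H) ⊓ L : Subgroup H) ∣ 24 := by
        rw [← hLcard]; exact card_dvd_of_le inf_le_right
      exact Nat.dvd_gcd h2 h3
    have h4 : Nat.card (centralizer (N : Set H) ⊓ L : Subgroup H) ≠ 1 := by
      intro h
      rw [card_eq_one] at h
      have h5 : a ^ 5 ∈ centralizer (N : Set H) ⊓ L := by
        refine mem_inf.mpr ⟨pow_mem haA 5, hmemL _ 2 (by norm_num) ?_⟩
        rw [← pow_mul]
        have := pow_orderOf_eq_one a
        rwa [hoa] at this
      rw [h, mem_bot] at h5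
      have := orderOf_dvd_of_pow_eq_one h5
      rw [hoa] at this
      omega
    rcases (Nat.dvd_prime Nat.prime_two).mp h1 with h | h
    · exact absurd h h4
    · exact h
  obtain ⟨ψ⟩ := h5a L hLcard (N.subgroupOf L) (hN.subgroupOf L)
    ((subgroupOfEquivOfLe hNL).trans e) hcard2
  have : Fact (Nat.Prime 5) := ⟨by norm_num⟩
  have hM : Nat.card (Multiplicative (ZMod 5)) = 5 := by
    rw [Nat.card_congr Multiplicative.toAdd, Nat.card_zmod]
  exact ⟨φ.symm.trans (MulEquiv.prodCongr ψ (mulEquivOfPrimeCardEq hZcard hM))⟩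

end Cfsg.Agent.Lib.Helper66SlT5b
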