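import Mathlib
import Cfsg.Agent.Lib.Helper66Fpf2
import Cfsg.Agent.Lib.Helper66Basic

set_option autoImplicit false

namespace Cfsg.Agent.Lib.Helper66Ward

open Cfsg.Agent.Lib.Helper66Fpf Cfsg.Agent.Lib.Helper66Fpf2

section basics

variable {X : Type*} [Group X]

/-- `A` is elementary abelian of order `p²`. -/
structure EA (p : ℕ) (A : Subgroup X) : Prop where
  prime : p.Prime
  comm : ∀ a ∈ A, ∀ b ∈ A, a * b = b * a
  exp : ∀ a ∈ A, a ^ p = 1
  card : Nat.card A = p ^ 2

variable {p : ℕ} {A : Subgroup X}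

theorem EA.finite (h : EA p A) : Finite A := by
  apply Nat.finite_of_card_ne_zero
  rw [h.card]
  exact pow_ne_zero _ h.prime.ne_zero

theorem EA.orderOf_eq (h : EA p A) {c : X} (hc : c ∈ A) (hc1 : c ≠ 1) : orderOf c = p :=
  have := Fact.mk h.prime
  orderOf_eq_prime (h.exp c hc) hc1

theorem EA.sup_zpowers (h : EA p A) {c c' : X} (hc : c ∈ A) (hc1 : c ≠ 1) (hc' : c' ∈ A)
    (hn : c' ∉ Subgroup.zpowers c) : Subgroup.zpowers c ⊔ Subgroup.zpowers c' = A := by
  have := h.finite
  have hle : Subgroup.zpowers c ⊔ Subgroup.zpowers c' ≤ A :=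
    sup_le (Subgroup.zpowers_le.mpr hc) (Subgroup.zpowers_le.mpr hc')
  have hfin : Finite ↥(Subgroup.zpowers c ⊔ Subgroup.zpowers c') :=
    Finite.of_injective _ (Subgroup.inclusion_injective hle)
  apply Subgroup.eq_of_le_of_card_ge hle
  have hdvd : Nat.card ↥(Subgroup.zpowers c ⊔ Subgroup.zpowers c') ∣ p ^ 2 :=
    h.card ▸ Subgroup.card_dvd_of_le hle
  obtain ⟨k, hk, hk2⟩ := (Nat.dvd_prime_pow h.prime).mp hdvd
  have hlt : Subgroup.zpowers c < Subgroup.zpowers c ⊔ Subgroup.zpowers c' := by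
    refine lt_of_le_of_ne le_sup_left ?_
    intro heq
    apply hn
    rw [heq]
    exact (le_sup_right : Subgroup.zpowers c' ≤ _) (Subgroup.mem_zpowers c')
  have hlt2 : p < Nat.card ↥(Subgroup.zpowers c ⊔ Subgroup.zpowers c') := by
    have h1 : Nat.card (Subgroup.zpowers c) = p := by rw [Nat.card_zpowers, h.orderOf_eq hc hc1]
    rw [← h1]
    by_contra hcon
    exact hlt.ne (Subgroup.eq_of_le_of_card_ge hlt.le (not_lt.mp hcon))
  rw [h.card, hk2]
  rw [hk2] at hlt2
  have hp1 := h.prime.one_lt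
  interval_cases k
  · simp at hlt2; omega
  · simp at hlt2
  · exact le_rfl

theorem EA.mem_centralizer (h : EA p A) {c c' : X} (hc : c ∈ A) (hc1 : c ≠ 1) (hc' : c' ∈ A)
    (hn : c' ∉ Subgroup.zpowers c) {x : X} (h1 : c * x = x * c) (h2 : c' * x = x * c') :
    x ∈ Subgroup.centralizer (A : Set X) := by
  have : A ≤ Subgroup.centralizer ({x} : Set X) := by
    rw [← h.sup_zpowers hc hc1 hc' hn]
    apply sup_le
    · rw [Subgroup.zpowers_le, Subgroup.mem_centralizer_singleton_iff]; exact h1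
    · rw [Subgroup.zpowers_le, Subgroup.mem_centralizer_singleton_iff]; exact h2
  rw [Subgroup.mem_centralizer_iff]
  intro a ha
  exact (Subgroup.mem_centralizer_singleton_iff.mp (this ha))

theorem EA.mem_zpowers_symm (h : EA p A) {c c' : X} (hc : c ∈ A) (hc' : c' ∈ Subgroup.zpowers c)
    (hc'1 : c' ≠ 1) : c ∈ Subgroup.zpowers c' := by
  have := Fact.mk h.prime
  have hc1 : c ≠ 1 := by
    rintro rfl
    apply hc'1
    simpa using hc'
  have hle : Subgroup.zpowers c' ≤ Subgroup.zpowers c := Subgroup.zpowers_le.mpr hc'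
  have hc'A : c' ∈ A := (Subgroup.zpowers_le.mpr hc) hc'
  have hfin : Finite (Subgroup.zpowers c) := by
    apply Nat.finite_of_card_ne_zero
    rw [Nat.card_zpowers, h.orderOf_eq hc hc1]
    exact h.prime.ne_zero
  have : Subgroup.zpowers c' = Subgroup.zpowers c := by
    apply Subgroup.eq_of_le_of_card_ge hle
    rw [Nat.card_zpowers, Nat.card_zpowers, h.orderOf_eq hc hc1, h.orderOf_eq hc'A hc'1]
  rw [this]
  exact Subgroup.mem_zpowers c

theorem EA.exists_not_mem_zpowers (h : EA p A) (c : X) (hc : c ∈ A) :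
    ∃ c' ∈ A, c' ∉ Subgroup.zpowers c := by
  have := h.finite
  by_contra hcon
  push Not at hcon
  have hle : A ≤ Subgroup.zpowers c := hcon
  have h1 : Nat.card A ≤ Nat.card (Subgroup.zpowers c) := by
    have hfin : Finite (Subgroup.zpowers c) := by
      have : Subgroup.zpowers c ≤ A := Subgroup.zpowers_le.mpr hc
      exact Finite.of_injective _ (Subgroup.inclusion_injective this)
    exact Subgroup.card_le_of_le hle
  rw [Nat.card_zpowers, h.card] at h1
  have h2 : orderOf c ≤ p := orderOf_le_of_pow_eq_one h.prime.pos (h.exp c hc)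
  have := h.prime.one_lt
  nlinarith

theorem EA.not_isCyclic (h : EA p A) : ¬ IsCyclic A := by
  intro hcyc
  obtain ⟨g, hg⟩ := hcyc.exists_generator
  obtain ⟨c', hc', hn⟩ := h.exists_not_mem_zpowers g g.2
  apply hn
  obtain ⟨k, hk⟩ := Subgroup.mem_zpowers_iff.mp (hg ⟨c', hc'⟩)
  rw [Subgroup.mem_zpowers_iff]
  exact ⟨k, by simpa using congrArg Subtype.val hk⟩

theorem EA.isMulCommutative (h : EA p A) : IsMulCommutative A :=
  ⟨⟨fun a b => Subtype.ext (h.comm a a.2 b b.2)⟩⟩

theorem EA.isPGroup (h : EA p A) : IsPGroup p A := IsPGroup.of_card h.card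

end basics

end Cfsg.Agent.Lib.Helper66Ward
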