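import Mathlib
import Cfsg.Agent.Lib.Helper1Fitting
import Cfsg.Agent.Lib.Helper28Fitting
import Cfsg.Agent.S0552

set_option autoImplicit false

namespace Cfsg.Agent.Lib.Helper66Ward7

open Cfsg.Agent.Lib.Helper1Fitting
open scoped commutatorElement

variable {H : Type*} [Group H] [Finite H]

theorem mem_sylow_of_normalizer {t : ℕ} [Fact t.Prime] (P : Sylow t H) {y : H}
    (hy : IsPGroup t (Subgroup.zpowers y)) (hn : y ∈ Subgroup.normalizer ((P : Subgroup H) : Set H)) :
    y ∈ (P : Subgroup H) := by
  have h1 := hy.inf_normalizer_sylow P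
  have h2 : y ∈ Subgroup.zpowers y ⊓ Subgroup.normalizer (P : Set H) :=
    ⟨Subgroup.mem_zpowers y, hn⟩
  rw [h1] at h2
  exact h2.2

theorem nil_of_sylow_centralize (hsol : Group.IsSolvable H) (P : ∀ t : Nat.Primes, Sylow (t : ℕ) H)
    (hc : ∀ s t : Nat.Primes, s ≠ t → ⁅Cfsg.pCore (s : ℕ) H, (P t : Subgroup H)⁆ = ⊥) :
    Group.IsNilpotent H := by
  set F := Cfsg.fittingSubgroup H with hF
  have hFN : ∀ t : Nat.Primes, F ≤ Subgroup.normalizer ((P t : Subgroup H) : Set H) := by
    intro t
    have := Fact.mk t.2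
    rw [hF, fitting_eq_iSup_pCore]
    apply iSup_le
    intro q
    by_cases hq : q = t
    · subst hq
      have := pCore_normal (G := H) (q : ℕ)
      exact ((pCore_isPGroup (q : ℕ)).le_sylow_of_normal (P q)).trans Subgroup.le_normalizer
    · have h1 := Subgroup.commutator_eq_bot_iff_le_centralizer.mp (hc q t hq)
      exact h1.trans (Subgroup.centralizer_le_normalizer _)
  have hz : ∀ u t : Nat.Primes, u ≠ t → ∀ h ∈ (P u : Subgroup H), ∀ g ∈ (P t : Subgroup H),
      ⁅h, g⁆ ∈ F := by
    intro u t hut h hh g hg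
    apply Cfsg.Agent.S0552.centralizer_fitting_le
    have : F ≤ Subgroup.centralizer {⁅h, g⁆} := by
      rw [hF, fitting_eq_iSup_pCore]
      apply iSup_le
      intro q
      have hn := pCore_normal (G := H) (q : ℕ)
      have hcn : (Subgroup.centralizer (Cfsg.pCore (q : ℕ) H : Set H)).Normal := inferInstance
      have hmem : ⁅h, g⁆ ∈ Subgroup.centralizer (Cfsg.pCore (q : ℕ) H : Set H) := by
        by_cases hq : q = t
        · have hqu : q ≠ u := by rw [hq]; exact hut.symm
          have h1 := hc q u hqu
          rw [Subgroup.commutator_comm, Subgroup.commutator_eq_bot_iff_le_centralizer] at h1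
          have h2 := h1 hh
          rw [commutatorElement_def]
          have e : h * g * h⁻¹ * g⁻¹ = h * (g * h⁻¹ * g⁻¹) := by group
          rw [e]
          exact Subgroup.mul_mem _ h2 (hcn.conj_mem _ (Subgroup.inv_mem _ h2) g)
        · have h1 := hc q t hq
          rw [Subgroup.commutator_comm, Subgroup.commutator_eq_bot_iff_le_centralizer] at h1
          have h2 := h1 hg
          rw [commutatorElement_def]
          exact Subgroup.mul_mem _ (hcn.conj_mem _ h2 h) (Subgroup.inv_mem _ h2)
      intro f hf
      rw [Subgroup.mem_centralizer_singleton_iff]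
      exact Subgroup.mem_centralizer_iff.mp hmem f hf
    rw [Subgroup.mem_centralizer_iff]
    intro f hf
    exact Subgroup.mem_centralizer_singleton_iff.mp (this hf)
  have hnorm : ∀ t : Nat.Primes, (P t : Subgroup H).Normal := by
    intro t
    have := Fact.mk t.2
    rw [← Subgroup.normalizer_eq_top_iff, eq_top_iff,
      ← Cfsg.Agent.Lib.Helper28Fitting.iSup_sylow_eq_top P]
    apply iSup_le
    intro u
    by_cases hut : u = t
    · subst hut; exact Subgroup.le_normalizer
    intro h hh
    have key : ∀ h ∈ (P u : Subgroup H), ∀ g ∈ (P t : Subgroup H), h * g * h⁻¹ ∈ (P t : Subgroup H) := by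
      intro h hh g hg
      apply mem_sylow_of_normalizer
      · have hgp : IsPGroup t (Subgroup.zpowers g) :=
          (P t).2.to_le (Subgroup.zpowers_le.mpr hg)
        have e : Subgroup.zpowers (h * g * h⁻¹) = (Subgroup.zpowers g).map (MulAut.conj h).toMonoidHom := by
          rw [MonoidHom.map_zpowers]; rfl
        rw [e]
        exact hgp.map _
      · have e : h * g * h⁻¹ = ⁅h, g⁆ * g := by rw [commutatorElement_def]; group
        rw [e]
        exact Subgroup.mul_mem _ (hFN t (hz u t hut h hh g hg)) (Subgroup.le_normalizer hg)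
    rw [Subgroup.mem_normalizer_iff]
    intro g
    constructor
    · exact key h hh g
    · intro hg
      have := key h⁻¹ (Subgroup.inv_mem _ hh) _ hg
      simpa [mul_assoc] using this
  apply ((Group.isNilpotent_of_finite_tfae (G := H)).out 0 3).mpr
  intro p hp Q
  have h1 := hnorm ⟨p, hp.out⟩
  have := Sylow.unique_of_normal (P ⟨p, hp.out⟩) h1
  rw [Subsingleton.elim Q (P ⟨p, hp.out⟩)]
  exact h1

end Cfsg.Agent.Lib.Helper66Ward7
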