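import Cfsg.Agent.Lib.Helper36Frob

set_option autoImplicit false
set_option linter.unusedSectionVars false

/-! Frobenius fixed point formula, part 1: projections, splitting, the Vandermonde step. -/

namespace Cfsg.Agent.Lib.Helper66Wf1

open Cfsg.Agent.Lib.Helper36Frob
open Polynomial

attribute [local instance] Cfsg.Agent.Lib.Helper36Frob.instFintypeSub

variable {G V : Type*} [Group G] [Finite G] [AddCommGroup V] [DistribMulAction G V]

/-- invariance of an additive subgroup under a subgroup -/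
def Inv (B : Subgroup G) (T : AddSubgroup V) : Prop := ∀ b ∈ B, ∀ t ∈ T, b • t ∈ T

lemma inv_smul_cancel' [Finite V] {n : ℕ} (h : (Nat.card V).Coprime n) (v : V) :
    ((Nat.card V).gcdB n) • (n • v) = v := (nsmulCoprime h).left_inv v

/-- the projection on the fixed points -/
noncomputable def prj (B : Subgroup G) : V →+ V := ((Nat.card V).gcdB (Nat.card B)) • nrm B

lemma prj_apply (B : Subgroup G) (v : V) :
    prj B v = ((Nat.card V).gcdB (Nat.card B)) • nrm B v := rfl

lemma prj_mem_fix (B : Subgroup G) (v : V) : prj B v ∈ (fix B : AddSubgroup V) := by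
  rw [prj_apply]
  exact AddSubgroup.zsmul_mem _ (nrm_mem_fix B v) _

lemma prj_of_fix [Finite V] {B : Subgroup G} (hB : (Nat.card V).Coprime (Nat.card B)) {v : V}
    (hv : v ∈ (fix B : AddSubgroup V)) : prj B v = v := by
  rw [prj_apply, nrm_of_fix hv]
  exact inv_smul_cancel' hB v

lemma prj_mem {B : Subgroup G} {T : AddSubgroup V} (hT : Inv B T) {v : V} (hv : v ∈ T) :
    prj B v ∈ T := by
  rw [prj_apply]
  exact AddSubgroup.zsmul_mem _ (nrm_mem hT hv) _

/-- the set of fixed vectors of an additive endomorphism -/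
def fixE (π : V →+ V) : AddSubgroup V := (π - AddMonoidHom.id V).ker

lemma mem_fixE {π : V →+ V} {v : V} : v ∈ fixE π ↔ π v = v := by
  unfold fixE
  rw [AddMonoidHom.mem_ker, AddMonoidHom.sub_apply, AddMonoidHom.id_apply, sub_eq_zero]

/-- splitting along an idempotent -/
lemma card_split (T : AddSubgroup V) (π : V →+ V) (h1 : ∀ t ∈ T, π t ∈ T)
    (h2 : ∀ t ∈ T, π (π t) = π t) :
    Nat.card T = Nat.card ↥(T ⊓ fixE π) * Nat.card ↥(T ⊓ π.ker) := by
  rw [← Nat.card_prod]
  refine Nat.card_congr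
    { toFun := fun t => (⟨π t, h1 t t.2, mem_fixE.mpr (h2 t t.2)⟩,
        ⟨t - π t, T.sub_mem t.2 (h1 t t.2), by
          change (t : V) - π t ∈ π.ker
          rw [AddMonoidHom.mem_ker, map_sub, h2 t t.2, sub_self]⟩)
      invFun := fun x => ⟨x.1 + x.2, T.add_mem x.1.2.1 x.2.2.1⟩
      left_inv := fun t => by
        apply Subtype.ext
        simp
      right_inv := fun x => by
        obtain ⟨⟨x, hxT, hx⟩, ⟨y, hyT, hy⟩⟩ := x
        have hx' : π x = x := mem_fixE.mp hx
        have hy' : π y = 0 := AddMonoidHom.mem_ker.mp hy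
        simp [hx', hy'] }

lemma end_sum_apply {ι : Type*} (s : Finset ι) (f : ι → AddMonoid.End V) (v : V) :
    (∑ i ∈ s, f i) v = ∑ i ∈ s, f i v := AddMonoidHom.finsetSum_apply f s v

/-- the adjugate trick -/
lemma det_kill {R : Type*} [CommRing R] {n : Type*} [Fintype n] [DecidableEq n]
    (φ : R →+* AddMonoid.End V) (M : Matrix n n R) (x : n → V)
    (h : ∀ j, ∑ i, φ (M j i) (x i) = 0) (k : n) : φ M.det (x k) = 0 := by
  have h1 : ∑ j, φ (M.adjugate k j) (∑ i, φ (M j i) (x i)) = 0 :=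
    Finset.sum_eq_zero (fun j _ => by rw [h j, map_zero])
  have h2 : ∑ j, φ (M.adjugate k j) (∑ i, φ (M j i) (x i)) =
      ∑ i, φ ((M.adjugate * M) k i) (x i) := by
    simp only [map_sum]
    rw [Finset.sum_comm]
    refine Finset.sum_congr rfl (fun i _ => ?_)
    rw [Matrix.mul_apply, map_sum, end_sum_apply]
    refine Finset.sum_congr rfl (fun j _ => ?_)
    rw [map_mul]
    rfl
  rw [h2, Matrix.adjugate_mul] at h1
  rw [Finset.sum_eq_single k] at h1
  · simpa using h1
  · intro i _ hik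
    simp [Ne.symm hik]
  · intro hk
    exact absurd (Finset.mem_univ _) hk

lemma pow_smul_mem {W : AddSubgroup V} {a : G} (hWa : ∀ w ∈ W, a • w ∈ W) (k : ℕ) :
    ∀ w ∈ W, a ^ k • w ∈ W := by
  induction k with
  | zero => intro w hw; simpa using hw
  | succ k ih =>
    intro w hw
    rw [pow_succ, mul_smul]
    exact ih _ (hWa w hw)

lemma conj_pow_smul {W : AddSubgroup V} {a c : G} (hWa : ∀ w ∈ W, a • w ∈ W) {κ : ℕ}
    (hκ : ∀ w ∈ W, c • w = a ^ κ • w) (i : ℕ) : ∀ w ∈ W, c ^ i • w = a ^ (κ * i) • w := by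
  induction i with
  | zero => intro w _; simp
  | succ i ih =>
    intro w hw
    rw [pow_succ, mul_smul, hκ w hw, ih _ (pow_smul_mem hWa κ w hw), ← mul_smul, ← pow_add,
      Nat.mul_succ]

lemma smul_pow_smul (e a : G) (i : ℕ) (w : V) : e • a ^ i • w = (e * a * e⁻¹) ^ i • e • w := by
  rw [conj_pow, ← mul_smul, ← mul_smul, inv_mul_cancel_right]

/-- the Vandermonde step -/
theorem card_vdm [Finite V] (W : AddSubgroup V) (a : G) (E₁ : Subgroup G)
    (hWa : ∀ w ∈ W, a • w ∈ W) (hWE : Inv E₁ W) (κ : E₁ → ℕ)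
    (hκ : ∀ e : E₁, ∀ w ∈ W, ((e : G) * a * (e : G)⁻¹) • w = a ^ κ e • w)
    (hinj : ∀ e e' : E₁, e ≠ e' → ∀ w ∈ W, a ^ κ e • w = a ^ κ e' • w → w = 0) :
    Nat.card W = Nat.card ↥(W ⊓ fix E₁) ^ Nat.card E₁ := by
  classical
  set m := Nat.card E₁ with hm
  let eq : Fin m ≃ E₁ := (Finite.equivFin E₁).symm
  let f : AddMonoid.End V := DistribMulAction.toAddMonoidEnd G V a
  let φ : ℤ[X] →+* AddMonoid.End V := (aeval f : ℤ[X] →ₐ[ℤ] AddMonoid.End V).toRingHom
  have hφ : ∀ (k : ℕ) (v : V), φ (X ^ k) v = a ^ k • v := by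
    intro k v
    have h1 : φ (X ^ k) = DistribMulAction.toAddMonoidEnd G V (a ^ k) := by
      change aeval f (X ^ k) = _
      rw [map_pow, aeval_X, map_pow]
    rw [h1]
    rfl
  let nd : Fin m → ℤ[X] := fun j => X ^ κ (eq j)
  let Mx : Matrix (Fin m) (Fin m) ℤ[X] := Matrix.vandermonde nd
  have hMx : ∀ (j i : Fin m) (v : V), φ (Mx j i) v = a ^ (κ (eq j) * (i : ℕ)) • v := by
    intro j i v
    have : Mx j i = X ^ (κ (eq j) * (i : ℕ)) := by
      change (X ^ κ (eq j)) ^ (i : ℕ) = _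
      rw [← pow_mul]
    rw [this, hφ]
  have hdet : ∀ w ∈ W, φ Mx.det w = 0 → w = 0 := by
    have hgood : (∀ w ∈ W, φ Mx.det w ∈ W) ∧ (∀ w ∈ W, φ Mx.det w = 0 → w = 0) := by
      rw [Matrix.det_vandermonde]
      refine Finset.prod_induction _
        (fun P : ℤ[X] => (∀ w ∈ W, φ P w ∈ W) ∧ (∀ w ∈ W, φ P w = 0 → w = 0)) ?_ ?_ ?_
      · rintro P Q ⟨hP1, hP2⟩ ⟨hQ1, hQ2⟩
        refine ⟨fun w hw => ?_, fun w hw h => ?_⟩
        · rw [map_mul]; exact hP1 _ (hQ1 w hw)
        · rw [map_mul] at h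
          exact hQ2 w hw (hP2 _ (hQ1 w hw) h)
      · refine ⟨fun w hw => ?_, fun w hw h => ?_⟩
        · rw [map_one]; exact hw
        · rw [map_one] at h; exact h
      · intro i _
        refine Finset.prod_induction _
          (fun P : ℤ[X] => (∀ w ∈ W, φ P w ∈ W) ∧ (∀ w ∈ W, φ P w = 0 → w = 0)) ?_ ?_ ?_
        · rintro P Q ⟨hP1, hP2⟩ ⟨hQ1, hQ2⟩
          refine ⟨fun w hw => ?_, fun w hw h => ?_⟩
          · rw [map_mul]; exact hP1 _ (hQ1 w hw)
          · rw [map_mul] at h
            exact hQ2 w hw (hP2 _ (hQ1 w hw) h)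
        · refine ⟨fun w hw => ?_, fun w hw h => ?_⟩
          · rw [map_one]; exact hw
          · rw [map_one] at h; exact h
        · intro j hj
          have hji : j ≠ i := (ne_of_gt (Finset.mem_Ioi.mp hj))
          have hv : ∀ w : V, φ (nd j - nd i) w = a ^ κ (eq j) • w - a ^ κ (eq i) • w := by
            intro w
            rw [map_sub]
            change φ (X ^ κ (eq j)) w - φ (X ^ κ (eq i)) w = _
            rw [hφ, hφ]
          refine ⟨fun w hw => ?_, fun w hw h => ?_⟩
          · rw [hv]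
            exact W.sub_mem (pow_smul_mem hWa _ w hw) (pow_smul_mem hWa _ w hw)
          · rw [hv, sub_eq_zero] at h
            exact hinj _ _ (fun h' => hji (eq.injective h')) w hw h
    exact hgood.2
  have hcp : ∀ (e : E₁) (i : ℕ), ∀ w ∈ W, (e : G) • a ^ i • w = a ^ (κ e * i) • (e : G) • w := by
    intro e i w hw
    rw [smul_pow_smul, conj_pow_smul hWa (hκ e) i _ (hWE e e.2 w hw)]
  -- first inequality
  have hle1 : Nat.card W ≤ Nat.card ↥(W ⊓ fix E₁) ^ m := by
    let Φ : W → (Fin m → ↥(W ⊓ fix E₁)) := fun w i =>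
      ⟨nrm E₁ (a ^ (i : ℕ) • (w : V)), nrm_mem hWE (pow_smul_mem hWa _ _ w.2), nrm_mem_fix _ _⟩
    have hΦ : Function.Injective Φ := by
      intro w w' h
      have hd : ∀ i : Fin m, nrm E₁ (a ^ (i : ℕ) • ((w : V) - w')) = 0 := by
        intro i
        have := congrArg Subtype.val (congrFun h i)
        change nrm E₁ (a ^ (i : ℕ) • (w : V)) = nrm E₁ (a ^ (i : ℕ) • (w' : V)) at this
        rw [smul_sub, map_sub, this, sub_self]
      have hdW : (w : V) - w' ∈ W := W.sub_mem w.2 w'.2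
      have hk := det_kill φ Mx.transpose (fun j => ((eq j : E₁) : G) • ((w : V) - w')) (by
        intro i
        rw [← hd i, nrm_apply, ← Equiv.sum_comp eq]
        refine Finset.sum_congr rfl (fun j _ => ?_)
        rw [Matrix.transpose_apply, hMx, hcp _ _ _ hdW]) (eq.symm 1)
      rw [Matrix.det_transpose] at hk
      have h0 := hdet _ (hWE _ (eq (eq.symm 1)).2 _ hdW) hk
      rw [smul_eq_zero_iff_eq, sub_eq_zero] at h0
      exact Subtype.ext h0
    have := Nat.card_le_card_of_injective Φ hΦ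
    rwa [Nat.card_fun, Nat.card_fin] at this
  have hle2 : Nat.card ↥(W ⊓ fix E₁) ^ m ≤ Nat.card W := by
    let Ψ : (Fin m → ↥(W ⊓ fix E₁)) → W := fun g =>
      ⟨∑ i : Fin m, a ^ (i : ℕ) • (g i : V),
        W.sum_mem (fun i _ => pow_smul_mem hWa _ _ (g i).2.1)⟩
    have hΨ : Function.Injective Ψ := by
      intro g g' h
      have h1 : ∑ i : Fin m, a ^ (i : ℕ) • (g i : V) = ∑ i : Fin m, a ^ (i : ℕ) • (g' i : V) :=
        congrArg Subtype.val h
      have h2 : ∑ i : Fin m, a ^ (i : ℕ) • ((g i : V) - g' i) = 0 := by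
        simp only [smul_sub, Finset.sum_sub_distrib]
        rw [h1, sub_self]
      funext k
      have hdW : ∀ i, (g i : V) - g' i ∈ W := fun i => W.sub_mem (g i).2.1 (g' i).2.1
      have hdF : ∀ i, (g i : V) - g' i ∈ (fix E₁ : AddSubgroup V) :=
        fun i => AddSubgroup.sub_mem _ (g i).2.2 (g' i).2.2
      have hk := det_kill φ Mx (fun i => (g i : V) - g' i) (by
        intro j
        have h3 := congrArg (fun v => ((eq j : E₁) : G) • v) h2
        simp only [Finset.smul_sum, smul_zero] at h3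
        rw [← h3]
        refine Finset.sum_congr rfl (fun i _ => ?_)
        rw [hMx, hcp _ _ _ (hdW i), hdF i _ (eq j).2]) k
      have h0 := hdet _ (hdW k) hk
      exact Subtype.ext (sub_eq_zero.mp h0)
    have := Nat.card_le_card_of_injective Ψ hΨ
    rwa [Nat.card_fun, Nat.card_fin] at this
  exact le_antisymm hle1 hle2

end Cfsg.Agent.Lib.Helper66Wf1
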