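import Cfsg.Agent.Lib.Helper66Wf1

set_option autoImplicit false
set_option linter.unusedSectionVars false

/-! Frobenius fixed point formula, part 2: maximal subgroups with fixed vectors. -/

namespace Cfsg.Agent.Lib.Helper66Wf2

open Cfsg.Agent.Lib.Helper36Frob Cfsg.Agent.Lib.Helper66Wf1

attribute [local instance] Cfsg.Agent.Lib.Helper36Frob.instFintypeSub

variable {G V : Type*} [Group G] [Finite G] [AddCommGroup V] [DistribMulAction G V]

/-- the standing hypotheses of the abelian case -/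
structure Ctx (A E : Subgroup G) (T : AddSubgroup V) : Prop where
  hEA : ∀ e ∈ E, ∀ a ∈ A, e * a * e⁻¹ ∈ A
  hfpf : ∀ e ∈ E, e ≠ 1 → ∀ a ∈ A, e * a = a * e → a = 1
  hTA : Inv A T
  hTE : Inv E T
  hc : ∀ a ∈ A, ∀ b ∈ A, ∀ t ∈ T, a • b • t = b • a • t
  h0 : T ⊓ fix A = ⊥

/-- `K` is maximal among the subgroups of `A` with a nonzero fixed vector in `T` -/
structure MaxK (A : Subgroup G) (T : AddSubgroup V) (K : Subgroup G) : Prop where
  le : K ≤ A
  ne : T ⊓ fix K ≠ ⊥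
  max : ∀ L : Subgroup G, L ≤ A → K < L → T ⊓ fix L = ⊥

variable {A E K : Subgroup G} {T : AddSubgroup V}

theorem exists_maxK (hT : T ≠ ⊥) : ∃ K, MaxK A T K := by
  let S : Set (Subgroup G) := {K | K ≤ A ∧ T ⊓ fix K ≠ ⊥}
  have hSne : S.Nonempty := by
    refine ⟨⊥, bot_le, ?_⟩
    intro hbot
    apply hT
    rw [eq_bot_iff] at hbot ⊢
    intro t ht
    refine hbot ⟨ht, ?_⟩
    intro h hh
    rw [Subgroup.mem_bot] at hh
    rw [hh, one_smul]
  obtain ⟨K, hK⟩ := (Set.toFinite S).exists_maximal hSne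
  refine ⟨K, hK.prop.1, hK.prop.2, ?_⟩
  intro K' hle hlt
  by_contra hne
  exact hlt.not_ge (hK.le_of_ge ⟨hle, hne⟩ hlt.le)

lemma mem_fix_sup {K L : Subgroup G} {v : V} (h1 : v ∈ (fix K : AddSubgroup V))
    (h2 : v ∈ (fix L : AddSubgroup V)) : v ∈ (fix (K ⊔ L) : AddSubgroup V) := by
  have hK : K ≤ MulAction.stabilizer G v := fun k hk => h1 k hk
  have hL : L ≤ MulAction.stabilizer G v := fun k hk => h2 k hk
  intro g hg
  exact (sup_le hK hL) hg

lemma mem_fix_zpowers {c : G} {v : V} (h : c • v = v) :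
    v ∈ (fix (Subgroup.zpowers c) : AddSubgroup V) := by
  have hK : Subgroup.zpowers c ≤ MulAction.stabilizer G v := by
    rw [Subgroup.zpowers_le]
    exact h
  intro g hg
  exact hK hg

theorem MaxK.mem_of_fix (h : MaxK A T K) {c : G} (hc : c ∈ A) {w : V} (hwT : w ∈ T)
    (hwK : w ∈ (fix K : AddSubgroup V)) (hw : w ≠ 0) (hcw : c • w = w) : c ∈ K := by
  by_contra hcK
  have hlt : K < K ⊔ Subgroup.zpowers c := by
    refine lt_of_le_of_ne le_sup_left ?_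
    intro heq
    apply hcK
    rw [heq]
    exact (le_sup_right : Subgroup.zpowers c ≤ _) (Subgroup.mem_zpowers c)
  have hle : K ⊔ Subgroup.zpowers c ≤ A := sup_le h.le (by rw [Subgroup.zpowers_le]; exact hc)
  have h0 := h.max _ hle hlt
  have : w ∈ T ⊓ fix (K ⊔ Subgroup.zpowers c) := ⟨hwT, mem_fix_sup hwK (mem_fix_zpowers hcw)⟩
  rw [h0] at this
  exact hw ((AddSubgroup.mem_bot).mp this)

theorem MaxK.ne_top (h : MaxK A T K) (h0 : T ⊓ fix A = ⊥) : ∃ a ∈ A, a ∉ K := by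
  by_contra hcon
  push Not at hcon
  have : K = A := le_antisymm h.le hcon
  exact h.ne (this ▸ h0)

/-- `W = T ⊓ fix K` is invariant under `A`. -/
theorem Ctx.smul_mem_W (C : Ctx A E T) (hK : K ≤ A) {a : G} (ha : a ∈ A) {w : V}
    (hw : w ∈ T ⊓ fix K) : a • w ∈ T ⊓ fix K := by
  refine ⟨C.hTA a ha w hw.1, ?_⟩
  intro k hk
  rw [C.hc k (hK hk) a ha w hw.1, hw.2 k hk]

theorem Ctx.pow_comm (C : Ctx A E T) {a b : G} (ha : a ∈ A) (hb : b ∈ A) (n : ℕ) :
    ∀ t ∈ T, (a * b) ^ n • t = a ^ n • b ^ n • t := by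
  induction n with
  | zero => intro t _; simp
  | succ n ih =>
    intro t ht
    have hbt : b • t ∈ T := C.hTA b hb t ht
    rw [pow_succ, mul_smul, mul_smul, ih _ (C.hTA a ha _ hbt), pow_succ a, pow_succ b, mul_smul,
      mul_smul]
    congr 1
    rw [C.hc (b ^ n) (A.pow_mem hb n) a ha _ hbt]

/-- the norm of an element outside `K` vanishes on `W` -/
theorem MaxK.sum_pow_eq_zero (h : MaxK A T K) (C : Ctx A E T) {c : G} (hc : c ∈ A) (hcK : c ∉ K)
    {r : ℕ} {w : V} (hw : w ∈ T ⊓ fix K) (hr : c ^ r • w = w) :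
    ∑ j ∈ Finset.range r, c ^ j • w = 0 := by
  by_contra hne
  have hmem : ∑ j ∈ Finset.range r, c ^ j • w ∈ T ⊓ fix K :=
    AddSubgroup.sum_mem _ (fun j _ => C.smul_mem_W h.le (A.pow_mem hc j) hw)
  apply hcK
  refine h.mem_of_fix hc hmem.1 hmem.2 hne ?_
  rw [Finset.smul_sum]
  have h1 : ∑ j ∈ Finset.range r, c • c ^ j • w = ∑ j ∈ Finset.range r, c ^ (j + 1) • w :=
    Finset.sum_congr rfl (fun j _ => by rw [pow_succ', mul_smul])
  rw [h1]
  have h2 := Finset.sum_range_succ (fun j => c ^ j • w) r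
  have h3 := Finset.sum_range_succ' (fun j => c ^ j • w) r
  simp only [pow_zero, one_smul] at h3
  rw [h2, hr] at h3
  exact (add_right_cancel h3).symm

lemma mem_of_pow_mem_of_coprime {K : Subgroup G} {a : G} {j r : ℕ} (hjr : Nat.Coprime j r)
    (hj : a ^ j ∈ K) (hr : a ^ r ∈ K) : a ∈ K := by
  have h1 : ((Nat.gcd j r : ℕ) : ℤ) = j * Nat.gcdA j r + r * Nat.gcdB j r := Nat.gcd_eq_gcd_ab j r
  rw [hjr] at h1
  have h2 : a = (a ^ j) ^ (Nat.gcdA j r) * (a ^ r) ^ (Nat.gcdB j r) := by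
    rw [← zpow_natCast a j, ← zpow_natCast a r, ← zpow_mul, ← zpow_mul, ← zpow_add, ← h1]
    simp
  rw [h2]
  exact K.mul_mem (K.zpow_mem hj _) (K.zpow_mem hr _)

/-- rank one: an element of order `r` modulo `K` lies in `⟨a₀⟩ K`. -/
theorem MaxK.cyc [Finite V] (h : MaxK A T K) (C : Ctx A E T) {r : ℕ} (hr : r.Prime)
    (hrV : r.Coprime (Nat.card V)) {a₀ b : G} (ha : a₀ ∈ A) (haK : a₀ ∉ K) (har : a₀ ^ r ∈ K)
    (hb : b ∈ A) (hbr : b ^ r ∈ K) : ∃ i : ℕ, a₀ ^ i * b ∈ K := by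
  by_contra hcon
  push Not at hcon
  obtain ⟨w, hw, hw0⟩ : ∃ w ∈ T ⊓ fix K, w ≠ 0 := by
    by_contra hall
    push Not at hall
    apply h.ne
    rw [eq_bot_iff]
    intro w hw
    exact (AddSubgroup.mem_bot).mpr (hall w hw)
  have hWpow : ∀ (x : G), x ∈ A → ∀ u ∈ T ⊓ fix K, x • u ∈ T ⊓ fix K :=
    fun x hx u hu => C.smul_mem_W h.le hx hu
  have h1 : ∑ i ∈ Finset.range r, ∑ j ∈ Finset.range r, (a₀ ^ i * b) ^ j • w = 0 := by
    refine Finset.sum_eq_zero (fun i _ => ?_)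
    refine h.sum_pow_eq_zero C (A.mul_mem (A.pow_mem ha i) hb) (hcon i) hw ?_
    rw [C.pow_comm (A.pow_mem ha i) hb r w hw.1, hw.2 _ hbr, ← pow_mul, mul_comm i r, pow_mul]
    exact hw.2 _ (K.pow_mem har i)
  rw [Finset.sum_comm] at h1
  have h2 : ∀ j ∈ Finset.range r, j ≠ 0 → ∑ i ∈ Finset.range r, (a₀ ^ i * b) ^ j • w = 0 := by
    intro j hj hj0
    have hjr : j < r := Finset.mem_range.mp hj
    have hcop : Nat.Coprime j r :=
      Nat.Coprime.symm ((Nat.Prime.coprime_iff_not_dvd hr).mpr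
        (Nat.not_dvd_of_pos_of_lt (Nat.pos_of_ne_zero hj0) hjr))
    have hajK : a₀ ^ j ∉ K := fun hh => haK (mem_of_pow_mem_of_coprime hcop hh har)
    have hbw : b ^ j • w ∈ T ⊓ fix K := hWpow _ (A.pow_mem hb j) w hw
    have h3 := h.sum_pow_eq_zero C (A.pow_mem ha j) hajK (r := r) hbw (by
      rw [← pow_mul, mul_comm j r, pow_mul]
      exact hbw.2 _ (K.pow_mem har j))
    rw [← h3]
    refine Finset.sum_congr rfl (fun i _ => ?_)
    rw [C.pow_comm (A.pow_mem ha i) hb j w hw.1, ← pow_mul, ← pow_mul, mul_comm i j]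
  rw [Finset.sum_eq_single_of_mem 0 (Finset.mem_range.mpr hr.pos) h2] at h1
  simp only [pow_zero, one_smul, Finset.sum_const, Finset.card_range] at h1
  exact hw0 (eq_zero_of_nsmul hrV h1)

end Cfsg.Agent.Lib.Helper66Wf2
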