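import Cfsg.Agent.Lib.Helper66Wf2

set_option autoImplicit false
set_option linter.unusedSectionVars false

/-! Frobenius fixed point formula, part 3: the homogeneous piece. -/

namespace Cfsg.Agent.Lib.Helper66Wf3

open Cfsg.Agent.Lib.Helper36Frob Cfsg.Agent.Lib.Helper66Wf1 Cfsg.Agent.Lib.Helper66Wf2

attribute [local instance] Cfsg.Agent.Lib.Helper36Frob.instFintypeSub

variable {G V : Type*} [Group G] [Finite G] [AddCommGroup V] [DistribMulAction G V]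
variable {A E K : Subgroup G} {T : AddSubgroup V}

theorem comm_inj (C : Ctx A E T) {g : G} (hgE : g ∈ E) (hg1 : g ≠ 1) {x y : G} (hx : x ∈ A)
    (hy : y ∈ A) (h : x⁻¹ * (g * x * g⁻¹) = y⁻¹ * (g * y * g⁻¹)) : x = y := by
  have h1 : g * (y * x⁻¹) = (y * x⁻¹) * g := by
    have h2 : y * x⁻¹ * g = y * (x⁻¹ * (g * x * g⁻¹)) * (g * x⁻¹) := by group
    rw [h2, h]
    group
  have h3 := C.hfpf g hgE hg1 _ (A.mul_mem hy (A.inv_mem hx)) h1
  exact (mul_inv_eq_one.mp h3).symm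

theorem not_mem_comm (C : Ctx A E T) (hK : K ≤ A) {g : G} (hgE : g ∈ E) (hg1 : g ≠ 1)
    (hgN : g ∈ Subgroup.normalizer (K : Set G)) {a : G} (ha : a ∈ A) (haK : a ∉ K) :
    a⁻¹ * (g * a * g⁻¹) ∉ K := by
  intro hmem
  let ψ : K → K := fun k => ⟨(k : G)⁻¹ * (g * k * g⁻¹),
    K.mul_mem (K.inv_mem k.2) ((Subgroup.mem_normalizer_iff.mp hgN _).mp k.2)⟩
  have hinj : Function.Injective ψ := by
    intro x y hxy
    exact Subtype.ext (comm_inj C hgE hg1 (hK x.2) (hK y.2) (congrArg Subtype.val hxy))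
  obtain ⟨k, hk⟩ := (Finite.injective_iff_surjective.mp hinj) ⟨_, hmem⟩
  have := comm_inj C hgE hg1 (hK k.2) ha (congrArg Subtype.val hk)
  exact haK (this ▸ k.2)

theorem exists_min_elt (h : MaxK A T K) (h0 : T ⊓ fix A = ⊥) :
    ∃ (a₀ : G) (r : ℕ), a₀ ∈ A ∧ a₀ ∉ K ∧ r.Prime ∧ r ∣ Nat.card A ∧ a₀ ^ r ∈ K := by
  classical
  have hex : ∃ n, ∃ a ∈ A, a ∉ K ∧ orderOf a = n := by
    obtain ⟨a, ha, haK⟩ := h.ne_top h0
    exact ⟨_, a, ha, haK, rfl⟩
  obtain ⟨a₀, ha, haK, hord⟩ := Nat.find_spec hex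
  have hn1 : orderOf a₀ ≠ 1 := by
    intro h1
    rw [orderOf_eq_one_iff] at h1
    exact haK (h1 ▸ K.one_mem)
  have hr : (orderOf a₀).minFac.Prime := Nat.minFac_prime hn1
  have hdvd : (orderOf a₀).minFac ∣ orderOf a₀ := Nat.minFac_dvd _
  refine ⟨a₀, (orderOf a₀).minFac, ha, haK, hr, hdvd.trans (Subgroup.orderOf_dvd_natCard A ha), ?_⟩
  by_contra hnot
  have hlt : orderOf (a₀ ^ (orderOf a₀).minFac) < Nat.find hex := by
    rw [← hord, orderOf_pow_of_dvd hr.ne_zero hdvd]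
    exact Nat.div_lt_self (orderOf_pos a₀) hr.one_lt
  exact Nat.find_min hex hlt ⟨_, A.pow_mem ha _, hnot, rfl⟩

theorem smul_mem_W_of_normalizer (hTE : Inv E T) {e : G} (he : e ∈ E ⊓ Subgroup.normalizer (K : Set G))
    {w : V} (hw : w ∈ T ⊓ fix K) : e • w ∈ T ⊓ fix K := by
  refine ⟨hTE e he.1 w hw.1, ?_⟩
  intro k hk
  have h1 : e⁻¹ * k * e ∈ K := by
    have := (Subgroup.mem_normalizer_iff.mp ((Subgroup.normalizer (K : Set G)).inv_mem he.2) k).mp hk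
    simpa using this
  have h2 : k • e • w = e • (e⁻¹ * k * e) • w := by
    rw [← mul_smul, ← mul_smul]
    congr 1
    group
  rw [h2, hw.2 _ h1]

/-- the homogeneous piece satisfies the formula for its stabiliser -/
theorem card_W [Finite V] (h : MaxK A T K) (C : Ctx A E T)
    (hcopA : (Nat.card V).Coprime (Nat.card A)) :
    Nat.card ↥(T ⊓ fix K) =
      Nat.card ↥((T ⊓ fix K) ⊓ fix (E ⊓ Subgroup.normalizer (K : Set G))) ^
        Nat.card ↥(E ⊓ Subgroup.normalizer (K : Set G)) := by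
  classical
  obtain ⟨a₀, r, ha, haK, hr, hrA, har⟩ := exists_min_elt h C.h0
  have hrV : r.Coprime (Nat.card V) := (Nat.Coprime.of_dvd_right hrA hcopA).symm
  have hy : ∀ e : ↥(E ⊓ Subgroup.normalizer (K : Set G)), (e : G) * a₀ * (e : G)⁻¹ ∈ A :=
    fun e => C.hEA e e.2.1 a₀ ha
  have hex : ∀ e : ↥(E ⊓ Subgroup.normalizer (K : Set G)), ∃ κ : ℕ, ∀ w ∈ T ⊓ fix K,
      ((e : G) * a₀ * (e : G)⁻¹) • w = a₀ ^ κ • w := by
    intro e
    have hyr : (((e : G) * a₀ * (e : G)⁻¹)⁻¹) ^ r ∈ K := by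
      rw [inv_pow, conj_pow]
      exact K.inv_mem ((Subgroup.mem_normalizer_iff.mp e.2.2 _).mp har)
    obtain ⟨i, hi⟩ := h.cyc C hr hrV ha haK har (A.inv_mem (hy e)) hyr
    refine ⟨i, fun w hw => ?_⟩
    have h1 := (C.smul_mem_W h.le (hy e) hw).2 _ hi
    rw [← mul_smul, inv_mul_cancel_right] at h1
    exact h1.symm
  choose κ hκ using hex
  refine card_vdm (T ⊓ fix K) a₀ _ (fun w hw => C.smul_mem_W h.le ha hw)
    (fun e he w hw => smul_mem_W_of_normalizer C.hTE he hw) κ hκ ?_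
  intro e e' hee w hw heq
  by_contra hw0
  rw [← hκ e w hw, ← hκ e' w hw] at heq
  have hc : (((e' : G) * a₀ * (e' : G)⁻¹)⁻¹ * ((e : G) * a₀ * (e : G)⁻¹)) • w = w := by
    rw [mul_smul, heq, ← mul_smul, inv_mul_cancel, one_smul]
  have hcK := h.mem_of_fix (A.mul_mem (A.inv_mem (hy e')) (hy e)) hw.1 hw.2 hw0 hc
  have hg : (e' : G)⁻¹ * e ∈ E ⊓ Subgroup.normalizer (K : Set G) :=
    Subgroup.mul_mem _ (Subgroup.inv_mem _ e'.2) e.2
  have hg1 : (e' : G)⁻¹ * e ≠ 1 := by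
    intro h1
    exact hee (Subtype.ext (inv_mul_eq_one.mp h1).symm)
  apply not_mem_comm C h.le hg.1 hg1 hg.2 ha haK
  have h2 := (Subgroup.mem_normalizer_iff.mp
    ((Subgroup.normalizer (K : Set G)).inv_mem e'.2.2) _).mp hcK
  convert h2 using 1
  group

end Cfsg.Agent.Lib.Helper66Wf3
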