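import Cfsg.Agent.Lib.Helper66Wf3

set_option autoImplicit false
set_option linter.unusedSectionVars false

/-! Frobenius fixed point formula, part 4: conjugates, orthogonal projections. -/

namespace Cfsg.Agent.Lib.Helper66Wf4

open Cfsg.Agent.Lib.Helper36Frob Cfsg.Agent.Lib.Helper66Wf1 Cfsg.Agent.Lib.Helper66Wf2
  Cfsg.Agent.Lib.Helper66Wf3
open Pointwise

attribute [local instance] Cfsg.Agent.Lib.Helper36Frob.instFintypeSub

variable {G V : Type*} [Group G] [Finite G] [AddCommGroup V] [DistribMulAction G V]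
variable {A E K : Subgroup G} {T : AddSubgroup V}

lemma mem_conj_smul {g x : G} {K : Subgroup G} : x ∈ MulAut.conj g • K ↔ g⁻¹ * x * g ∈ K := by
  rw [Subgroup.mem_pointwise_smul_iff_inv_smul_mem, ← map_inv, MulAut.smul_def, MulAut.conj_apply,
    inv_inv]

lemma conj_mem_conj_smul {g k : G} {K : Subgroup G} (hk : k ∈ K) :
    g * k * g⁻¹ ∈ MulAut.conj g • K := by
  rw [mem_conj_smul]
  convert hk using 1
  group

lemma smul_mem_fix_conj {g : G} {K : Subgroup G} {v : V} (hv : v ∈ (fix K : AddSubgroup V)) :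
    g • v ∈ (fix (MulAut.conj g • K) : AddSubgroup V) := by
  intro x hx
  rw [mem_conj_smul] at hx
  have h1 : x • g • v = g • (g⁻¹ * x * g) • v := by
    rw [← mul_smul, ← mul_smul]
    congr 1
    group
  rw [h1, hv _ hx]

lemma card_conj_smul (g : G) (K : Subgroup G) : Nat.card ↥(MulAut.conj g • K) = Nat.card K :=
  (Nat.card_congr (Subgroup.equivSMul (MulAut.conj g) K).toEquiv).symm

lemma smul_nrm_conj (g : G) (K : Subgroup G) (v : V) :
    g • nrm K v = nrm (MulAut.conj g • K) (g • v) := by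
  rw [nrm_apply, nrm_apply, Finset.smul_sum]
  refine Fintype.sum_equiv (Subgroup.equivSMul (MulAut.conj g) K).toEquiv _ _ ?_
  intro k
  change g • (k : G) • v = (g * (k : G) * g⁻¹) • g • v
  rw [← mul_smul, ← mul_smul, inv_mul_cancel_right]

lemma smul_prj_conj (g : G) (K : Subgroup G) (v : V) :
    g • prj K v = prj (MulAut.conj g • K) (g • v) := by
  rw [prj_apply, prj_apply, card_conj_smul, ← smul_nrm_conj, smul_comm]

lemma conj_smul_eq_iff {g : G} {K : Subgroup G} :
    MulAut.conj g • K = K ↔ g ∈ Subgroup.normalizer (K : Set G) := by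
  rw [Subgroup.mem_normalizer_iff]
  constructor
  · intro h x
    constructor
    · intro hx
      rw [← h]
      exact conj_mem_conj_smul hx
    · intro hx
      rw [← h, mem_conj_smul] at hx
      convert hx using 1
      group
  · intro h
    ext x
    rw [mem_conj_smul, h (g⁻¹ * x * g)]
    have : g * (g⁻¹ * x * g) * g⁻¹ = x := by group
    rw [this]

theorem smul_prj_comm (C : Ctx A E T) (hK : K ≤ A) {a : G} (ha : a ∈ A) {t : V} (ht : t ∈ T) :
    a • prj K t = prj K (a • t) := by
  rw [prj_apply, prj_apply, smul_comm, nrm_apply, nrm_apply, Finset.smul_sum]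
  congr 1
  exact Finset.sum_congr rfl (fun k _ => C.hc a ha k (hK k.2) t ht)

theorem maxK_conj (h : MaxK A T K) (C : Ctx A E T) {e : G} (he : e ∈ E) :
    MaxK A T (MulAut.conj e • K) := by
  refine ⟨?_, ?_, ?_⟩
  · intro x hx
    rw [mem_conj_smul] at hx
    have := C.hEA e he _ (h.le hx)
    convert this using 1
    group
  · intro hbot
    apply h.ne
    rw [eq_bot_iff] at hbot ⊢
    intro w hw
    have h1 := hbot ⟨C.hTE e he w hw.1, smul_mem_fix_conj (g := e) hw.2⟩
    rw [AddSubgroup.mem_bot] at h1 ⊢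
    exact (smul_eq_zero_iff_eq e).mp h1
  · intro L hL hlt
    have hL' : MulAut.conj e⁻¹ • L ≤ A := by
      intro x hx
      rw [mem_conj_smul] at hx
      have := C.hEA e⁻¹ (E.inv_mem he) _ (hL hx)
      convert this using 1
      group
    have hlt' : K < MulAut.conj e⁻¹ • L := by
      rw [map_inv]
      constructor
      · exact Subgroup.pointwise_smul_subset_iff.mp hlt.le
      · intro hle
        exact hlt.not_ge (Subgroup.subset_pointwise_smul_iff.mpr hle)
    have h0 := h.max _ hL' hlt'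
    rw [eq_bot_iff] at h0 ⊢
    intro t ht
    have h1 := h0 ⟨C.hTE e⁻¹ (E.inv_mem he) t ht.1, smul_mem_fix_conj (g := e⁻¹) ht.2⟩
    rw [AddSubgroup.mem_bot] at h1 ⊢
    exact (smul_eq_zero_iff_eq e⁻¹).mp h1

/-- orthogonality -/
theorem orth [Finite V] {L L' : Subgroup G} (hL : MaxK A T L) (hL' : L' ≤ A)
    (hcard : Nat.card L' = Nat.card L) (hne : L ≠ L') (C : Ctx A E T) {t : V} (ht : t ∈ T) :
    prj L' (prj L t) = 0 := by
  have hu : prj L t ∈ T := prj_mem (fun b hb => C.hTA b (hL.le hb)) ht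
  have h1 : prj L' (prj L t) ∈ T := prj_mem (fun b hb => C.hTA b (hL' hb)) hu
  have h2 : prj L' (prj L t) ∈ (fix L : AddSubgroup V) := by
    intro k hk
    rw [smul_prj_comm C hL' (hL.le hk) hu, prj_mem_fix L t k hk]
  have hlt : L < L ⊔ L' := by
    refine lt_of_le_of_ne le_sup_left ?_
    intro heq
    have hle : L' ≤ L := by rw [heq]; exact le_sup_right
    exact hne (Subgroup.eq_of_le_of_card_ge hle hcard.ge).symm
  have h0 := hL.max _ (sup_le hL.le hL') hlt
  have : prj L' (prj L t) ∈ T ⊓ fix (L ⊔ L') := ⟨h1, mem_fix_sup h2 (prj_mem_fix L' _)⟩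
  rw [h0] at this
  exact (AddSubgroup.mem_bot).mp this

end Cfsg.Agent.Lib.Helper66Wf4
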