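import Cfsg.Agent.Lib.Helper66Wf4

set_option autoImplicit false
set_option linter.unusedSectionVars false

/-! Frobenius fixed point formula, part 5: the orbit sum and the abelian case. -/

namespace Cfsg.Agent.Lib.Helper66Wf5

open Cfsg.Agent.Lib.Helper36Frob Cfsg.Agent.Lib.Helper66Wf1 Cfsg.Agent.Lib.Helper66Wf2
  Cfsg.Agent.Lib.Helper66Wf3 Cfsg.Agent.Lib.Helper66Wf4
open Pointwise

attribute [local instance] Cfsg.Agent.Lib.Helper36Frob.instFintypeSub

variable {G V : Type*} [Group G] [Finite G] [AddCommGroup V] [DistribMulAction G V]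
variable {A E K : Subgroup G} {T : AddSubgroup V}

/-- conjugation action of `E` on subgroups -/
@[reducible] noncomputable def actE (E : Subgroup G) : MulAction E (Subgroup G) :=
  MulAction.compHom _ ((MulAut.conj : G →* MulAut G).comp E.subtype)

attribute [local instance] actE

lemma actE_smul (e : E) (K : Subgroup G) : e • K = MulAut.conj (e : G) • K := rfl

noncomputable local instance instFintypeOrb (E K : Subgroup G) : Fintype (MulAction.orbit E K) :=
  Fintype.ofFinite _

/-- the projection on the orbit sum -/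
noncomputable def pj (E K : Subgroup G) : V →+ V :=
  ∑ L : MulAction.orbit E K, prj (L : Subgroup G)

lemma pj_apply (E K : Subgroup G) (v : V) :
    pj E K v = ∑ L : MulAction.orbit E K, prj (L : Subgroup G) v := by
  unfold pj
  rw [AddMonoidHom.finsetSum_apply]

lemma orb_spec (L : MulAction.orbit E K) : ∃ e : E, MulAut.conj (e : G) • K = L := by
  obtain ⟨e, he⟩ := L.2
  exact ⟨e, he⟩

theorem orb_maxK (h : MaxK A T K) (C : Ctx A E T) (L : MulAction.orbit E K) :
    MaxK A T (L : Subgroup G) ∧ Nat.card (L : Subgroup G) = Nat.card K := by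
  obtain ⟨e, he⟩ := orb_spec L
  rw [← he]
  exact ⟨maxK_conj h C e.2, card_conj_smul _ _⟩

theorem orb_orth [Finite V] (h : MaxK A T K) (C : Ctx A E T) {L L' : MulAction.orbit E K}
    (hne : L ≠ L') {t : V} (ht : t ∈ T) : prj (L' : Subgroup G) (prj (L : Subgroup G) t) = 0 :=
  orth (orb_maxK h C L).1 (orb_maxK h C L').1.le
    ((orb_maxK h C L').2.trans (orb_maxK h C L).2.symm) (fun hh => hne (Subtype.ext hh)) C ht

theorem orb_cop (h : MaxK A T K) (C : Ctx A E T) (hcopA : (Nat.card V).Coprime (Nat.card A))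
    (L : MulAction.orbit E K) : (Nat.card V).Coprime (Nat.card (L : Subgroup G)) :=
  Nat.Coprime.of_dvd_right (Subgroup.card_dvd_of_le (orb_maxK h C L).1.le) hcopA

theorem orb_prj_mem (h : MaxK A T K) (C : Ctx A E T) (L : MulAction.orbit E K) {t : V}
    (ht : t ∈ T) : prj (L : Subgroup G) t ∈ T :=
  prj_mem (fun b hb => C.hTA b ((orb_maxK h C L).1.le hb)) ht

/-- projection of a sum of components -/
theorem prj_sum [Finite V] (h : MaxK A T K) (C : Ctx A E T)
    (hcopA : (Nat.card V).Coprime (Nat.card A)) (f : MulAction.orbit E K → V)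
    (hf : ∀ L : MulAction.orbit E K, f L ∈ T ⊓ fix (L : Subgroup G)) (L : MulAction.orbit E K) :
    prj (L : Subgroup G) (∑ L', f L') = f L := by
  rw [map_sum, Finset.sum_eq_single L]
  · exact prj_of_fix (orb_cop h C hcopA L) (hf L).2
  · intro L' _ hne
    rw [← prj_of_fix (orb_cop h C hcopA L') (hf L').2]
    exact orb_orth h C hne (hf L').1
  · intro hh
    exact absurd (Finset.mem_univ _) hh

theorem prj_pj [Finite V] (h : MaxK A T K) (C : Ctx A E T)
    (hcopA : (Nat.card V).Coprime (Nat.card A)) {t : V} (ht : t ∈ T) (L : MulAction.orbit E K) :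
    prj (L : Subgroup G) (pj E K t) = prj (L : Subgroup G) t := by
  rw [pj_apply]
  exact prj_sum h C hcopA (fun L' => prj (L' : Subgroup G) t)
    (fun L' => ⟨orb_prj_mem h C L' ht, prj_mem_fix _ _⟩) L

theorem pj_mem (h : MaxK A T K) (C : Ctx A E T) {t : V} (ht : t ∈ T) : pj E K t ∈ T := by
  rw [pj_apply]
  exact T.sum_mem (fun L _ => orb_prj_mem h C L ht)

theorem pj_idem [Finite V] (h : MaxK A T K) (C : Ctx A E T)
    (hcopA : (Nat.card V).Coprime (Nat.card A)) {t : V} (ht : t ∈ T) :
    pj E K (pj E K t) = pj E K t := by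
  calc pj E K (pj E K t) = ∑ L : MulAction.orbit E K, prj (L : Subgroup G) (pj E K t) :=
        pj_apply _ _ _
    _ = ∑ L : MulAction.orbit E K, prj (L : Subgroup G) t :=
        Finset.sum_congr rfl (fun L _ => prj_pj h C hcopA ht L)
    _ = pj E K t := (pj_apply _ _ _).symm

theorem smul_pj {e : G} (he : e ∈ E) (v : V) : e • pj E K v = pj E K (e • v) := by
  rw [pj_apply, pj_apply, Finset.smul_sum]
  refine Fintype.sum_equiv (MulAction.toPerm (⟨e, he⟩ : E)) _ _ (fun L => ?_)
  exact smul_prj_conj e _ v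

theorem smul_pj_A (h : MaxK A T K) (C : Ctx A E T) {a : G} (ha : a ∈ A) {t : V} (ht : t ∈ T) :
    a • pj E K t = pj E K (a • t) := by
  rw [pj_apply, pj_apply, Finset.smul_sum]
  exact Finset.sum_congr rfl (fun L _ => smul_prj_comm C (orb_maxK h C L).1.le ha ht)

theorem pj_sum [Finite V] (h : MaxK A T K) (C : Ctx A E T)
    (hcopA : (Nat.card V).Coprime (Nat.card A)) (f : MulAction.orbit E K → V)
    (hf : ∀ L : MulAction.orbit E K, f L ∈ T ⊓ fix (L : Subgroup G)) : pj E K (∑ L', f L') = ∑ L', f L' := by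
  rw [pj_apply]
  exact Finset.sum_congr rfl (fun L _ => prj_sum h C hcopA f hf L)

theorem pj_of_mem [Finite V] (h : MaxK A T K) (C : Ctx A E T)
    (hcopA : (Nat.card V).Coprime (Nat.card A)) (L : MulAction.orbit E K) {w : V}
    (hw : w ∈ T ⊓ fix (L : Subgroup G)) : pj E K w = w := by
  classical
  have h1 := pj_sum h C hcopA (fun L' => if L' = L then w else 0) (by
    intro L'
    by_cases hL : L' = L
    · subst hL
      simpa using hw
    · simp only [hL, if_false]; exact AddSubgroup.zero_mem _)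
  simpa using h1

theorem card_WL (C : Ctx A E T) (L : MulAction.orbit E K) :
    Nat.card ↥(T ⊓ fix (L : Subgroup G)) = Nat.card ↥(T ⊓ fix K) := by
  obtain ⟨e, he⟩ := orb_spec L
  rw [← he]
  symm
  refine Nat.card_congr
    { toFun := fun w => ⟨(e : G) • (w : V), C.hTE e e.2 w w.2.1, smul_mem_fix_conj w.2.2⟩
      invFun := fun w => ⟨(e : G)⁻¹ • (w : V), C.hTE _ (E.inv_mem e.2) w w.2.1, by
        have := smul_mem_fix_conj (g := (e : G)⁻¹) w.2.2
        rwa [map_inv, inv_smul_smul] at this⟩
      left_inv := fun w => by simp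
      right_inv := fun w => by simp }

theorem card_S [Finite V] (h : MaxK A T K) (C : Ctx A E T)
    (hcopA : (Nat.card V).Coprime (Nat.card A)) :
    Nat.card ↥(T ⊓ fixE (pj E K)) = Nat.card ↥(T ⊓ fix K) ^ Nat.card (MulAction.orbit E K) := by
  have e1 : ↥(T ⊓ fixE (pj E K)) ≃ (∀ L : MulAction.orbit E K, ↥(T ⊓ fix (L : Subgroup G))) :=
    { toFun := fun s L => ⟨prj (L : Subgroup G) (s : V), orb_prj_mem h C L s.2.1, prj_mem_fix _ _⟩
      invFun := fun f => ⟨∑ L, (f L : V), T.sum_mem (fun L _ => (f L).2.1),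
        mem_fixE.mpr (pj_sum h C hcopA (fun L => (f L : V)) (fun L => (f L).2))⟩
      left_inv := fun s => by
        apply Subtype.ext
        change ∑ L : MulAction.orbit E K, prj (L : Subgroup G) (s : V) = s
        rw [← pj_apply]
        exact mem_fixE.mp s.2.2
      right_inv := fun f => by
        funext L
        apply Subtype.ext
        exact prj_sum h C hcopA (fun L => (f L : V)) (fun L => (f L).2) L }
  rw [Nat.card_congr e1, Nat.card_pi, Finset.prod_congr rfl (fun L _ => card_WL C L),
    Finset.prod_const, Finset.card_univ, Nat.card_eq_fintype_card (α := MulAction.orbit E K)]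

end Cfsg.Agent.Lib.Helper66Wf5
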