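import Cfsg.Agent.Lib.Helper66Wf5

set_option autoImplicit false
set_option linter.unusedSectionVars false

/-! Frobenius fixed point formula, part 6: the abelian case. -/

namespace Cfsg.Agent.Lib.Helper66Wf6

open Cfsg.Agent.Lib.Helper36Frob Cfsg.Agent.Lib.Helper66Wf1 Cfsg.Agent.Lib.Helper66Wf2
  Cfsg.Agent.Lib.Helper66Wf3 Cfsg.Agent.Lib.Helper66Wf4 Cfsg.Agent.Lib.Helper66Wf5
open Pointwise

attribute [local instance] Cfsg.Agent.Lib.Helper36Frob.instFintypeSub
attribute [local instance] Cfsg.Agent.Lib.Helper66Wf5.actE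
attribute [local instance] Cfsg.Agent.Lib.Helper66Wf5.instFintypeOrb

variable {G V : Type*} [Group G] [Finite G] [AddCommGroup V] [DistribMulAction G V]
variable {A E K : Subgroup G} {T : AddSubgroup V}

/-- `K` as a point of its orbit -/
def K0 (E K : Subgroup G) : MulAction.orbit E K := ⟨K, MulAction.mem_orbit_self K⟩

/-- a conjugate as a point of the orbit -/
def Kc (K : Subgroup G) (e : E) : MulAction.orbit E K :=
  ⟨MulAut.conj (e : G) • K, MulAction.mem_orbit K e⟩

theorem card_filter_normalizer (E K : Subgroup G) [DecidablePred fun e : E => (e : G) ∈ Subgroup.normalizer (K : Set G)] :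
    (Finset.univ.filter (fun e : E => (e : G) ∈ Subgroup.normalizer (K : Set G))).card =
      Nat.card ↥(E ⊓ Subgroup.normalizer (K : Set G)) := by
  rw [← Fintype.card_subtype, ← Nat.card_eq_fintype_card]
  exact Nat.card_congr
    { toFun := fun y => ⟨y.1.1, y.1.2, y.2⟩
      invFun := fun x => ⟨⟨x.1, x.2.1⟩, x.2.2⟩
      left_inv := fun _ => rfl
      right_inv := fun _ => rfl }

theorem prj_nrm [Finite V] (h : MaxK A T K) (C : Ctx A E T)
    (hcopA : (Nat.card V).Coprime (Nat.card A)) {w : V}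
    (hw : w ∈ (T ⊓ fix K) ⊓ fix (E ⊓ Subgroup.normalizer (K : Set G))) :
    prj K (nrm E w) = Nat.card ↥(E ⊓ Subgroup.normalizer (K : Set G)) • w := by
  classical
  rw [nrm_apply, map_sum, ← card_filter_normalizer, ← Finset.sum_const, Finset.sum_filter]
  refine Finset.sum_congr rfl (fun e _ => ?_)
  by_cases he : (e : G) ∈ Subgroup.normalizer (K : Set G)
  · rw [if_pos he, hw.2 e ⟨e.2, he⟩]
    exact prj_of_fix (orb_cop h C hcopA (K0 E K)) hw.1.2
  · rw [if_neg he]
    have hne : Kc K e ≠ K0 E K := by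
      intro hh
      exact he (conj_smul_eq_iff.mp (congrArg Subtype.val hh))
    have hmem : (e : G) • w ∈ (fix ((Kc K e : MulAction.orbit E K) : Subgroup G) : AddSubgroup V) :=
      smul_mem_fix_conj hw.1.2
    rw [← prj_of_fix (orb_cop h C hcopA (Kc K e)) hmem]
    exact orb_orth h C hne (C.hTE e e.2 w hw.1.1)

theorem card_SE [Finite V] (h : MaxK A T K) (C : Ctx A E T)
    (hcopA : (Nat.card V).Coprime (Nat.card A)) (hcopE : (Nat.card V).Coprime (Nat.card E)) :
    Nat.card ↥((T ⊓ fixE (pj E K)) ⊓ fix E) =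
      Nat.card ↥((T ⊓ fix K) ⊓ fix (E ⊓ Subgroup.normalizer (K : Set G))) := by
  apply le_antisymm
  · let F : ↥((T ⊓ fixE (pj E K)) ⊓ fix E) →
        ↥((T ⊓ fix K) ⊓ fix (E ⊓ Subgroup.normalizer (K : Set G))) := fun s =>
      ⟨prj K (s : V), ⟨orb_prj_mem h C (K0 E K) s.2.1.1, prj_mem_fix _ _⟩, by
        intro e he
        rw [smul_prj_conj, conj_smul_eq_iff.mpr he.2, s.2.2 e he.1]⟩
    refine Nat.card_le_card_of_injective F ?_
    intro s s' hss
    have h1 : prj K ((s : V) - s') = 0 := by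
      rw [map_sub, sub_eq_zero]
      exact congrArg Subtype.val hss
    have hd : (s : V) - s' ∈ (T ⊓ fixE (pj E K)) ⊓ fix E := AddSubgroup.sub_mem _ s.2 s'.2
    have h2 : pj E K ((s : V) - s') = 0 := by
      rw [pj_apply]
      refine Finset.sum_eq_zero (fun L _ => ?_)
      obtain ⟨e, he⟩ := orb_spec L
      rw [← he, ← hd.2 e e.2, ← smul_prj_conj, h1, smul_zero]
    rw [mem_fixE.mp hd.1.2] at h2
    exact Subtype.ext (sub_eq_zero.mp h2)
  · let F : ↥((T ⊓ fix K) ⊓ fix (E ⊓ Subgroup.normalizer (K : Set G))) →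
        ↥((T ⊓ fixE (pj E K)) ⊓ fix E) := fun w =>
      ⟨nrm E (w : V), ⟨nrm_mem C.hTE w.2.1.1, by
        change nrm E (w : V) ∈ fixE (pj E K)
        rw [mem_fixE, nrm_apply, map_sum]
        refine Finset.sum_congr rfl (fun e _ => ?_)
        rw [← smul_pj e.2, pj_of_mem h C hcopA (K0 E K) w.2.1]⟩, nrm_mem_fix _ _⟩
    refine Nat.card_le_card_of_injective F ?_
    intro w w' hww
    have h1 : nrm E ((w : V) - w') = 0 := by
      rw [map_sub, sub_eq_zero]
      exact congrArg Subtype.val hww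
    have hd : (w : V) - w' ∈ (T ⊓ fix K) ⊓ fix (E ⊓ Subgroup.normalizer (K : Set G)) :=
      AddSubgroup.sub_mem _ w.2 w'.2
    have h2 := prj_nrm h C hcopA hd
    rw [h1, map_zero] at h2
    have hcop : (Nat.card ↥(E ⊓ Subgroup.normalizer (K : Set G))).Coprime (Nat.card V) :=
      (Nat.Coprime.of_dvd_right (Subgroup.card_dvd_of_le inf_le_left) hcopE).symm
    exact Subtype.ext (sub_eq_zero.mp (eq_zero_of_nsmul hcop h2.symm))

theorem card_orb (E K : Subgroup G) :
    Nat.card (MulAction.orbit E K) * Nat.card ↥(E ⊓ Subgroup.normalizer (K : Set G)) =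
      Nat.card E := by
  rw [Nat.card_congr (MulAction.orbitEquivQuotientStabilizer E K),
    Subgroup.card_eq_card_quotient_mul_card_subgroup (MulAction.stabilizer E K)]
  congr 1
  exact Nat.card_congr
    { toFun := fun x => ⟨⟨x.1, x.2.1⟩, conj_smul_eq_iff.mpr x.2.2⟩
      invFun := fun y => ⟨y.1.1, y.1.2, conj_smul_eq_iff.mp y.2⟩
      left_inv := fun _ => rfl
      right_inv := fun _ => rfl }

/-- **The abelian case.** -/
theorem thmA [Finite V] (hcopA : (Nat.card V).Coprime (Nat.card A))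
    (hcopE : (Nat.card V).Coprime (Nat.card E)) :
    ∀ (n : ℕ) (T : AddSubgroup V), Nat.card T = n → Ctx A E T →
      Nat.card T = Nat.card ↥(T ⊓ fix E) ^ Nat.card E := by
  intro n
  induction n using Nat.strong_induction_on with
  | _ n ih =>
    intro T hn C
    by_cases hT : T = ⊥
    · subst hT
      simp
    obtain ⟨K, h⟩ := exists_maxK (A := A) hT
    have hs1 := card_split T (pj E K) (fun t ht => pj_mem h C ht)
      (fun t ht => pj_idem h C hcopA ht)
    have hs2 := card_split (T ⊓ fix E) (pj E K)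
      (fun t ht => ⟨pj_mem h C ht.1, fun e he => by rw [smul_pj he, ht.2 e he]⟩)
      (fun t ht => pj_idem h C hcopA ht.1)
    have C' : Ctx A E (T ⊓ (pj E K).ker) :=
      { hEA := C.hEA
        hfpf := C.hfpf
        hTA := fun a ha t ht => ⟨C.hTA a ha t ht.1, by
          have h0 : pj E K t = 0 := AddMonoidHom.mem_ker.mp ht.2
          change a • t ∈ (pj E K).ker
          rw [AddMonoidHom.mem_ker, ← smul_pj_A h C ha ht.1, h0, smul_zero]⟩
        hTE := fun e he t ht => ⟨C.hTE e he t ht.1, by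
          have h0 : pj E K t = 0 := AddMonoidHom.mem_ker.mp ht.2
          change e • t ∈ (pj E K).ker
          rw [AddMonoidHom.mem_ker, ← smul_pj he, h0, smul_zero]⟩
        hc := fun a ha b hb t ht => C.hc a ha b hb t ht.1
        h0 := by
          rw [eq_bot_iff, ← C.h0]
          exact inf_le_inf_right _ inf_le_left }
    have hS1 : 1 < Nat.card ↥(T ⊓ fixE (pj E K)) := by
      rw [AddSubgroup.one_lt_card_iff_ne_bot]
      intro hbot
      apply h.ne
      rw [eq_bot_iff, ← hbot]
      intro w hw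
      exact ⟨hw.1, mem_fixE.mpr (pj_of_mem h C hcopA (K0 E K) hw)⟩
    have hlt : Nat.card ↥(T ⊓ (pj E K).ker) < n := by
      rw [← hn, hs1]
      exact lt_mul_of_one_lt_left Nat.card_pos hS1
    have hIH := ih _ hlt _ rfl C'
    have hS : Nat.card ↥(T ⊓ fixE (pj E K)) =
        Nat.card ↥((T ⊓ fixE (pj E K)) ⊓ fix E) ^ Nat.card E := by
      rw [card_S h C hcopA, card_W h C hcopA, card_SE h C hcopA hcopE, ← pow_mul, mul_comm,
        card_orb]
    rw [hs1, hs2, hS, hIH, mul_pow, inf_right_comm T (fix E), inf_right_comm T (fix E)]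

end Cfsg.Agent.Lib.Helper66Wf6
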