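import Cfsg.Agent.Lib.Helper66Wf6

set_option autoImplicit false
set_option linter.unusedSectionVars false

/-! Frobenius fixed point formula, part 7: nilpotent kernels, abstract module form. -/

namespace Cfsg.Agent.Lib.Helper66Wf7

open Cfsg.Agent.Lib.Helper36Frob Cfsg.Agent.Lib.Helper66Wf1 Cfsg.Agent.Lib.Helper66Wf2
  Cfsg.Agent.Lib.Helper66Wf3 Cfsg.Agent.Lib.Helper66Wf4 Cfsg.Agent.Lib.Helper66Wf5
  Cfsg.Agent.Lib.Helper66Wf6
open Pointwise

attribute [local instance] Cfsg.Agent.Lib.Helper36Frob.instFintypeSub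

variable {G V : Type*} [Group G] [Finite G] [AddCommGroup V] [DistribMulAction G V]

lemma fixE_prj [Finite V] {B : Subgroup G} (hB : (Nat.card V).Coprime (Nat.card B)) :
    fixE (prj B : V →+ V) = fix B := by
  ext v
  rw [mem_fixE]
  constructor
  · intro h
    rw [← h]
    exact prj_mem_fix B v
  · exact prj_of_fix hB

lemma smul_prj_of_conj {B : Subgroup G} {g : G} (hg : MulAut.conj g • B = B) (v : V) :
    g • prj B v = prj B (g • v) := by
  rw [smul_prj_conj, hg]

lemma split_step [Finite V] {B E : Subgroup G} {T : AddSubgroup V}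
    (hB : (Nat.card V).Coprime (Nat.card B)) (hTB : Inv B T)
    (hEB : ∀ e ∈ E, MulAut.conj e • B = B) :
    Nat.card T = Nat.card ↥(T ⊓ fix B) * Nat.card ↥(T ⊓ (prj B : V →+ V).ker) ∧
    Nat.card ↥(T ⊓ fix E) =
      Nat.card ↥((T ⊓ fix B) ⊓ fix E) * Nat.card ↥((T ⊓ (prj B : V →+ V).ker) ⊓ fix E) := by
  have h1 := card_split T (prj B) (fun t ht => prj_mem hTB ht)
    (fun t _ => prj_of_fix hB (prj_mem_fix B t))
  have h2 := card_split (T ⊓ fix E) (prj B)
    (fun t ht => ⟨prj_mem hTB ht.1, fun e he => by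
      rw [smul_prj_of_conj (hEB e he), ht.2 e he]⟩)
    (fun t _ => prj_of_fix hB (prj_mem_fix B t))
  rw [fixE_prj hB] at h1 h2
  rw [inf_right_comm T (fix E), inf_right_comm T (fix E)] at h2
  exact ⟨h1, h2⟩

lemma smul_mem_ker {B : Subgroup G} {T : AddSubgroup V} {g : G} (hg : MulAut.conj g • B = B)
    (hgT : ∀ t ∈ T, g • t ∈ T) {t : V} (ht : t ∈ T ⊓ (prj B : V →+ V).ker) :
    g • t ∈ T ⊓ (prj B : V →+ V).ker := by
  refine ⟨hgT t ht.1, ?_⟩
  have h0 : prj B t = 0 := AddMonoidHom.mem_ker.mp ht.2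
  change g • t ∈ (prj B : V →+ V).ker
  rw [AddMonoidHom.mem_ker, ← smul_prj_of_conj hg, h0, smul_zero]

lemma ker_inf_fix [Finite V] {B : Subgroup G} (hB : (Nat.card V).Coprime (Nat.card B))
    (T : AddSubgroup V) : (T ⊓ (prj B : V →+ V).ker) ⊓ fix B = ⊥ := by
  rw [eq_bot_iff]
  intro t ht
  have h0 : prj B t = 0 := AddMonoidHom.mem_ker.mp ht.1.2
  rw [prj_of_fix hB ht.2] at h0
  exact (AddSubgroup.mem_bot).mpr h0

lemma conj_smul_eq_of_forall {B : Subgroup G} {g : G} (h : ∀ b ∈ B, g * b * g⁻¹ ∈ B) :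
    MulAut.conj g • B = B := by
  apply Subgroup.eq_of_le_of_card_ge
  · intro x hx
    rw [mem_conj_smul] at hx
    have := h _ hx
    convert this using 1
    group
  · rw [card_conj_smul]

/-- the elements of `U` acting centrally on `T` -/
def cen (U : Subgroup G) (T : AddSubgroup V) (hTU : Inv U T) : Subgroup G where
  carrier := {a | a ∈ U ∧ ∀ u ∈ U, ∀ t ∈ T, a • u • t = u • a • t}
  one_mem' := ⟨U.one_mem, fun u _ t _ => by simp⟩
  mul_mem' := by
    rintro a b ⟨ha, ha'⟩ ⟨hb, hb'⟩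
    refine ⟨U.mul_mem ha hb, fun u hu t ht => ?_⟩
    rw [mul_smul, mul_smul, hb' u hu t ht, ha' u hu _ (hTU b hb t ht)]
  inv_mem' := by
    rintro a ⟨ha, ha'⟩
    refine ⟨U.inv_mem ha, fun u hu t ht => ?_⟩
    have h1 := ha' u hu _ (hTU _ (U.inv_mem ha) t ht)
    rw [smul_inv_smul] at h1
    rw [← h1, inv_smul_smul]

lemma conj_mem_cen {U : Subgroup G} {T : AddSubgroup V} (hTU : Inv U T) {g : G}
    (hgU : ∀ u ∈ U, g * u * g⁻¹ ∈ U) (hgU' : ∀ u ∈ U, g⁻¹ * u * g ∈ U)
    (hgT' : ∀ t ∈ T, g⁻¹ • t ∈ T) {a : G} (ha : a ∈ cen U T hTU) :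
    g * a * g⁻¹ ∈ cen U T hTU := by
  refine ⟨hgU a ha.1, fun u hu t ht => ?_⟩
  have h1 := ha.2 _ (hgU' u hu) _ (hgT' t ht)
  have h2 : (g * a * g⁻¹) • u • t = g • a • (g⁻¹ * u * g) • g⁻¹ • t := by
    simp only [← mul_smul]
    congr 1
    group
  have h3 : u • (g * a * g⁻¹) • t = g • (g⁻¹ * u * g) • a • g⁻¹ • t := by
    simp only [← mul_smul]
    congr 1
    group
  rw [h2, h3, h1]

/-- **Nilpotent kernel without fixed points.** -/
theorem thmM0 [Finite V] {U E : Subgroup G} (hnil : Group.IsNilpotent U)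
    (hEU : ∀ e ∈ E, ∀ u ∈ U, e * u * e⁻¹ ∈ U)
    (hfpf : ∀ e ∈ E, e ≠ 1 → ∀ u ∈ U, e * u = u * e → u = 1)
    (hcopU : (Nat.card V).Coprime (Nat.card U)) (hcopE : (Nat.card V).Coprime (Nat.card E)) :
    ∀ (n : ℕ) (T : AddSubgroup V), Nat.card T = n → Inv U T → Inv E T → T ⊓ fix U = ⊥ →
      Nat.card T = Nat.card ↥(T ⊓ fix E) ^ Nat.card E := by
  intro n
  induction n using Nat.strong_induction_on with
  | _ n ih =>
    intro T hn hTU hTE h0
    by_cases hT : T = ⊥
    · subst hT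
      simp
    -- the kernel of the action on `T`
    let C : Subgroup G :=
      { carrier := {g | ∀ t ∈ T, g • t = t}
        one_mem' := fun t _ => one_smul _ t
        mul_mem' := fun {a b} ha hb t ht => by rw [mul_smul, hb t ht, ha t ht]
        inv_mem' := fun {a} ha t ht => by rw [inv_smul_eq_iff, ha t ht] }
    have hUC : ¬ U ≤ C := by
      intro hle
      apply hT
      rw [eq_bot_iff, ← h0]
      intro t ht
      exact ⟨ht, fun u hu => hle hu t ht⟩
    obtain ⟨a, haU, haC, hak⟩ := nil_step hnil hUC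
    set A := cen U T hTU with hA
    have hAU : A ≤ U := fun x hx => hx.1
    have haA : a ∈ A := by
      refine ⟨haU, fun u hu t ht => ?_⟩
      have h1 := hak u hu _ (hTU u hu _ (hTU a haU t ht))
      rw [← h1]
      simp only [← mul_smul]
      congr 1
      group
    have hcopA : (Nat.card V).Coprime (Nat.card A) :=
      Nat.Coprime.of_dvd_right (Subgroup.card_dvd_of_le hAU) hcopU
    have hEA : ∀ e ∈ E, ∀ x ∈ A, e * x * e⁻¹ ∈ A := by
      intro e he x hx
      refine conj_mem_cen hTU (hEU e he) (fun u hu => ?_) (hTE _ (E.inv_mem he)) hx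
      have := hEU _ (E.inv_mem he) u hu
      simpa using this
    have hUA : ∀ e ∈ U, ∀ x ∈ A, e * x * e⁻¹ ∈ A := by
      intro e he x hx
      exact conj_mem_cen hTU (fun u hu => U.mul_mem (U.mul_mem he hu) (U.inv_mem he))
        (fun u hu => U.mul_mem (U.mul_mem (U.inv_mem he) hu) he) (hTU _ (U.inv_mem he)) hx
    have hTA : Inv A T := fun x hx => hTU x (hAU hx)
    obtain ⟨hs1, hs2⟩ := split_step (E := E) hcopA hTA
      (fun e he => conj_smul_eq_of_forall (hEA e he))
    have C2 : Ctx A E (T ⊓ (prj A : V →+ V).ker) :=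
      { hEA := hEA
        hfpf := fun e he he1 x hx => hfpf e he he1 x (hAU hx)
        hTA := fun x hx t ht =>
          smul_mem_ker (conj_smul_eq_of_forall (hUA x (hAU hx))) (hTA x hx) ht
        hTE := fun e he t ht => smul_mem_ker (conj_smul_eq_of_forall (hEA e he)) (hTE e he) ht
        hc := fun x hx y hy t ht => hx.2 y (hAU hy) t ht.1
        h0 := ker_inf_fix hcopA T }
    have h2 := thmA hcopA hcopE _ _ rfl C2
    have hlt : Nat.card ↥(T ⊓ fix A) < n := by
      rw [← hn]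
      refine lt_of_le_of_ne (AddSubgroup.card_le_of_le inf_le_left) ?_
      intro heq
      have hle : T ≤ T ⊓ fix A := by
        rw [AddSubgroup.eq_of_le_of_card_ge (inf_le_left : T ⊓ fix A ≤ T) heq.ge]
      exact haC (fun t ht => (hle ht).2 a haA)
    have h1 := ih _ hlt (T ⊓ fix A) rfl
      (fun u hu t ht => ⟨hTU u hu t ht.1, fun x hx => by
        have hx' : u⁻¹ * x * u ∈ A := by
          have := hUA _ (U.inv_mem hu) x hx
          simpa using this
        have h3 : x • u • t = u • (u⁻¹ * x * u) • t := by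
          simp only [← mul_smul]
          congr 1
          group
        rw [h3, ht.2 _ hx']⟩)
      (fun u hu t ht => ⟨hTE u hu t ht.1, fun x hx => by
        have hx' : u⁻¹ * x * u ∈ A := by
          have := hEA _ (E.inv_mem hu) x hx
          simpa using this
        have h3 : x • u • t = u • (u⁻¹ * x * u) • t := by
          simp only [← mul_smul]
          congr 1
          group
        rw [h3, ht.2 _ hx']⟩)
      (by
        rw [eq_bot_iff, ← h0]
        exact inf_le_inf_right _ inf_le_left)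
    rw [hs1, hs2, h1, h2, mul_pow]

/-- **The fixed point formula, module form.** -/
theorem thmM [Finite V] {U E : Subgroup G} (hnil : Group.IsNilpotent U)
    (hEU : ∀ e ∈ E, ∀ u ∈ U, e * u * e⁻¹ ∈ U)
    (hfpf : ∀ e ∈ E, e ≠ 1 → ∀ u ∈ U, e * u = u * e → u = 1)
    (hcopU : (Nat.card V).Coprime (Nat.card U)) (hcopE : (Nat.card V).Coprime (Nat.card E)) :
    Nat.card ↥((fix U ⊓ fix E : AddSubgroup V)) ^ Nat.card E * Nat.card V =
      Nat.card ↥(fix E : AddSubgroup V) ^ Nat.card E * Nat.card ↥(fix U : AddSubgroup V) := by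
  have hTU : Inv U (⊤ : AddSubgroup V) := fun _ _ _ _ => AddSubgroup.mem_top _
  have hTE : Inv E (⊤ : AddSubgroup V) := fun _ _ _ _ => AddSubgroup.mem_top _
  obtain ⟨hs1, hs2⟩ := split_step (E := E) hcopU hTU
    (fun e he => conj_smul_eq_of_forall (hEU e he))
  have h2 := thmM0 hnil hEU hfpf hcopU hcopE _ (⊤ ⊓ (prj U : V →+ V).ker) rfl
    (fun u hu t ht => smul_mem_ker (conj_smul_eq_of_forall
      (fun b hb => U.mul_mem (U.mul_mem hu hb) (U.inv_mem hu))) (hTU u hu) ht)
    (fun e he t ht => smul_mem_ker (conj_smul_eq_of_forall (hEU e he)) (hTE e he) ht)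
    (ker_inf_fix hcopU ⊤)
  simp only [top_inf_eq] at hs1 hs2 h2
  rw [AddSubgroup.card_top] at hs1
  rw [hs1, hs2, h2, mul_pow]
  ring

end Cfsg.Agent.Lib.Helper66Wf7
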