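import Cfsg.Agent.Lib.Helper66Wf7
import Cfsg.Agent.S0022
import Cfsg.Agent.Lib.Helper30SZ

set_option autoImplicit false
set_option linter.unusedSectionVars false

/-! Frobenius fixed point formula, part 8: the abelianisation as a module. -/

namespace Cfsg.Agent.Lib.Helper66Wf8

open Cfsg.Agent.Lib.Helper36Frob Cfsg.Agent.Lib.Helper66Wf1

/-- the action on the abelianisation -/
@[reducible] noncomputable def abAct {Γ Y : Type*} [Group Γ] [Group Y] (ρ : Γ →* MulAut Y) :
    DistribMulAction Γ (Additive (Abelianization Y)) where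
  smul g m := Additive.ofMul (Abelianization.map (ρ g).toMonoidHom m.toMul)
  one_smul m := by
    change Additive.ofMul (Abelianization.map (ρ 1).toMonoidHom m.toMul) = m
    have : (ρ 1).toMonoidHom = MonoidHom.id Y := by
      rw [map_one]; rfl
    rw [this, Abelianization.map_id]
    rfl
  mul_smul g h m := by
    change Additive.ofMul (Abelianization.map (ρ (g * h)).toMonoidHom m.toMul) =
      Additive.ofMul (Abelianization.map (ρ g).toMonoidHom
        (Abelianization.map (ρ h).toMonoidHom m.toMul))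
    rw [Abelianization.map_map_apply]
    have : (ρ (g * h)).toMonoidHom = (ρ g).toMonoidHom.comp (ρ h).toMonoidHom := by
      rw [map_mul]; rfl
    rw [this]
  smul_zero g := by
    change Additive.ofMul (Abelianization.map (ρ g).toMonoidHom 1) = 0
    rw [map_one]
    rfl
  smul_add g a b := by
    change Additive.ofMul (Abelianization.map (ρ g).toMonoidHom (a.toMul * b.toMul)) =
      Additive.ofMul (Abelianization.map (ρ g).toMonoidHom a.toMul) +
        Additive.ofMul (Abelianization.map (ρ g).toMonoidHom b.toMul)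
    rw [map_mul]
    rfl

variable {X : Type*} [Group X] [Finite X]

/-- the conjugation homomorphism -/
noncomputable def rho (H Γ : Subgroup X) (hΓ : Γ ≤ Subgroup.normalizer (H : Set X)) :
    ↥Γ →* MulAut ↥H := H.normalizerMonoidHom.comp (Subgroup.inclusion hΓ)

lemma rho_apply (H Γ : Subgroup X) (hΓ : Γ ≤ Subgroup.normalizer (H : Set X)) (g : Γ) (h : H) :
    ((rho H Γ hΓ g h : H) : X) = g * h * (g : X)⁻¹ := rfl

lemma mem_commutator_iff (H : Subgroup X) (x : H) : x ∈ commutator ↥H ↔ (x : X) ∈ ⁅H, H⁆ := by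
  rw [← Subgroup.map_subtype_commutator]
  constructor
  · intro hx
    exact Subgroup.mem_map_of_mem _ hx
  · rintro ⟨y, hy, hyx⟩
    have : y = x := Subtype.ext hyx
    exact this ▸ hy

lemma of_eq_of_iff (H : Subgroup X) (x y : H) :
    Abelianization.of x = Abelianization.of y ↔ (x : X) * (y : X)⁻¹ ∈ ⁅H, H⁆ := by
  have h1 : Abelianization.of x = Abelianization.of y ↔ x * y⁻¹ ∈ commutator ↥H := by
    rw [← Abelianization.ker_of, MonoidHom.mem_ker, map_mul, map_inv, mul_inv_eq_one]
  rw [h1, mem_commutator_iff]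
  rfl

theorem card_fix_ab (H Γ B : Subgroup X) (hΓ : Γ ≤ Subgroup.normalizer (H : Set X)) (hB : B ≤ Γ)
    (hcop : (Nat.card B).Coprime (Nat.card H)) (hsolv : Group.IsSolvable H) :
    letI := abAct (rho H Γ hΓ)
    Nat.card ↥(H ⊓ Subgroup.centralizer (B : Set X)) =
      Nat.card ↥(⁅H, H⁆ ⊓ Subgroup.centralizer (B : Set X)) *
        Nat.card ↥(fix (B.subgroupOf Γ) : AddSubgroup (Additive (Abelianization ↥H))) := by
  let _ := abAct (rho H Γ hΓ)
  let θ : ↥(H ⊓ Subgroup.centralizer (B : Set X)) →* Abelianization ↥H :=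
    Abelianization.of.comp (Subgroup.inclusion inf_le_left)
  have hsm : ∀ (g : Γ) (h : H), g • (Additive.ofMul (Abelianization.of h) :
      Additive (Abelianization ↥H)) = Additive.ofMul (Abelianization.of (rho H Γ hΓ g h)) :=
    fun g h => rfl
  have hHH : ⁅H, H⁆ ≤ H := Subgroup.commutator_le_self H
  have h1 : Nat.card θ.ker = Nat.card ↥(⁅H, H⁆ ⊓ Subgroup.centralizer (B : Set X)) := by
    refine Nat.card_congr
      { toFun := fun x => ⟨(x.1 : X), ?_, x.1.2.2⟩
        invFun := fun y => ⟨⟨(y : X), hHH y.2.1, y.2.2⟩, ?_⟩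
        left_inv := fun _ => rfl
        right_inv := fun _ => rfl }
    · have h2 : Abelianization.of (⟨(x.1 : X), x.1.2.1⟩ : H) = Abelianization.of (1 : H) := by
        rw [map_one]
        exact x.2
      have h3 := (of_eq_of_iff H _ _).mp h2
      simpa using h3
    · rw [MonoidHom.mem_ker]
      change Abelianization.of (⟨(y : X), hHH y.2.1⟩ : H) = 1
      rw [← map_one Abelianization.of, of_eq_of_iff]
      simpa using y.2.1
  have h2 : Nat.card θ.range =
      Nat.card ↥(fix (B.subgroupOf Γ) : AddSubgroup (Additive (Abelianization ↥H))) := by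
    refine Nat.card_congr (Equiv.subtypeEquiv Additive.ofMul (fun a => ?_))
    constructor
    · rintro ⟨c, rfl⟩ b hb
      change b • (Additive.ofMul (Abelianization.of (⟨(c : X), c.2.1⟩ : H)) :
        Additive (Abelianization ↥H)) = Additive.ofMul (Abelianization.of (⟨(c : X), c.2.1⟩ : H))
      rw [hsm]
      have h5 : rho H Γ hΓ b (⟨(c : X), c.2.1⟩ : H) = ⟨(c : X), c.2.1⟩ := by
        apply Subtype.ext
        rw [rho_apply]
        have := (Subgroup.mem_centralizer_iff.mp c.2.2) (b : X) (Subgroup.mem_subgroupOf.mp hb)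
        change (b : X) * (c : X) * (b : X)⁻¹ = c
        rw [this, mul_inv_cancel_right]
      rw [h5]
    · intro ha
      obtain ⟨h, rfl⟩ := QuotientGroup.mk_surjective a
      have hfix : ∀ b ∈ B, b * (h : X) * b⁻¹ * (h : X)⁻¹ ∈ ⁅H, H⁆ := by
        intro b hb
        have h3 := ha ⟨b, hB hb⟩ (Subgroup.mem_subgroupOf.mpr hb)
        have h4 : Abelianization.of (rho H Γ hΓ ⟨b, hB hb⟩ h) = Abelianization.of h :=
          congrArg Additive.toMul h3
        exact (of_eq_of_iff H _ _).mp h4
      have hnorm : ∀ g ∈ Subgroup.normalizer (H : Set X),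
          g ∈ Subgroup.normalizer ((⁅H, H⁆ : Subgroup X) : Set X) := by
        intro g hg
        exact Cfsg.Agent.Lib.Helper30SZ.le_normalizer_commutator (le_refl _) (le_refl _) hg
      obtain ⟨c, hc, hhc⟩ := Cfsg.Agent.S0022.result B H (hB.trans hΓ) hcop (Or.inr hsolv) ⁅H, H⁆
        hHH (fun g hg => hnorm g (Subgroup.le_normalizer hg)) (fun g hg => hnorm g (hΓ (hB hg)))
        h h.2 hfix
      refine ⟨⟨c, hc⟩, ?_⟩
      change Abelianization.of (⟨c, hc.1⟩ : H) = Abelianization.of h
      rw [of_eq_of_iff]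
      have : c * (h : X)⁻¹ = (h : X) * ((h : X)⁻¹ * c) * (h : X)⁻¹ := by group
      change c * (h : X)⁻¹ ∈ ⁅H, H⁆
      rw [this]
      exact (Subgroup.mem_normalizer_iff.mp (hnorm _ (Subgroup.le_normalizer h.2)) _).mp hhc
  rw [Subgroup.card_eq_card_quotient_mul_card_subgroup θ.ker,
    Nat.card_congr (QuotientGroup.quotientKerEquivRange θ).toEquiv, h1, h2, mul_comm]

end Cfsg.Agent.Lib.Helper66Wf8
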