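import Cfsg.Agent.Lib.Helper98AschDefs

set_option autoImplicit false

namespace Cfsg.Agent.Lib.Helper67AschTenscases

open Cfsg Cfsg.Geo Matrix
open Cfsg.Agent.Lib.Helper97AschBase Cfsg.Agent.Lib.Helper98AschDefs
open scoped MatrixGroups Kronecker

variable {n : ℕ} {F : Type*} [Field F]

theorem glReindex_apply {κ ι : Type} [Fintype κ] [DecidableEq κ] [Fintype ι] [DecidableEq ι]
    (e : κ ≃ ι) (g : GL κ F) (i j : ι) :
    ((glReindex e g : GL ι F) : Matrix ι ι F) i j = (g : Matrix κ κ F) (e.symm i) (e.symm j) := rfl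

/-- [tenscases] swapping the two tensor factors. -/
theorem tensor_swap {d s : ℕ} (e : Fin n ≃ Fin d × Fin s) (P : GL (Fin n) F) :
    ∃ (e' : Fin n ≃ Fin s × Fin d), tensorProductSubgroup d s e P ≤ tensorProductSubgroup s d e' P := by
  refine ⟨e.trans (Equiv.prodComm _ _), ?_⟩
  unfold tensorProductSubgroup
  apply Subgroup.map_mono
  rintro _ ⟨g, ⟨a, b, hg⟩, rfl⟩
  refine ⟨glReindex (Equiv.prodComm (Fin d) (Fin s)) g, ⟨b, a, ?_⟩, ?_⟩
  · ext ⟨j, i⟩ ⟨j', i'⟩
    rw [glReindex_apply, hg]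
    simp [Matrix.kroneckerMap_apply, mul_comm]
  · apply Units.ext
    ext i j
    simp only [MulEquiv.coe_toMonoidHom]
    rw [glReindex_apply, glReindex_apply, glReindex_apply]
    rfl

/-- [tenscases] equal factors: the tensor product subgroup lies in the tensor wreath subgroup. -/
theorem tensor_le_wreath {d : ℕ} (e : Fin n ≃ Fin d × Fin d) (P : GL (Fin n) F) :
    ∃ (e' : Fin n ≃ (Fin 2 → Fin d)), tensorProductSubgroup d d e P ≤ tensorWreathSubgroup d 2 e' P := by
  refine ⟨e.trans (finTwoArrowEquiv (Fin d)).symm, ?_⟩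
  unfold tensorProductSubgroup tensorWreathSubgroup
  apply Subgroup.map_mono
  rintro _ ⟨g, ⟨a, b, hg⟩, rfl⟩
  refine ⟨glReindex (finTwoArrowEquiv (Fin d)).symm g, ?_, ?_⟩
  · apply Subgroup.subset_closure
    left
    refine ⟨![a, b], ?_⟩
    intro x y
    rw [glReindex_apply, hg, Fin.prod_univ_two]
    simp [Matrix.kroneckerMap_apply, finTwoArrowEquiv]
  · apply Units.ext
    ext i j
    simp only [MulEquiv.coe_toMonoidHom]
    rw [glReindex_apply, glReindex_apply, glReindex_apply]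
    simp

end Cfsg.Agent.Lib.Helper67AschTenscases
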