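import Mathlib

set_option autoImplicit false

/-! A computable (kernel friendly) model of the field with 25 elements: `F_5[s]`, `s ^ 2 = 2`; the element
`a + b s` is coded by the natural number `a + 5 b < 25`. -/

namespace Cfsg.Agent.Lib.Helper67F25

/-- the field with 25 elements `F_5[s]`, `s ^ 2 = 2`; `a + b s` is coded by `a + 5 b` -/
structure F25 where
  /-- the code `a + 5 b` -/
  val : ℕ
  /-- the bound -/
  lt : val < 25

theorem F25.ext {x y : F25} (h : x.val = y.val) : x = y := by
  cases x; cases y; cases h; rfl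

instance instDecidableEqF25 : DecidableEq F25 := fun x y =>
  decidable_of_iff (x.val = y.val) ⟨F25.ext, fun h => congrArg F25.val h⟩

/-- as `Fin 25` -/
def F25.equivFin : F25 ≃ Fin 25 where
  toFun x := ⟨x.val, x.lt⟩
  invFun p := ⟨p.1, p.2⟩
  left_inv _ := rfl
  right_inv _ := rfl

instance instFintypeF25 : Fintype F25 := Fintype.ofEquiv _ F25.equivFin.symm

/-- the element with code `a % 5 + 5 (b % 5)` -/
def mk (a b : ℕ) : F25 := ⟨a % 5 + 5 * (b % 5), by omega⟩

/-- the element with code `n % 25` -/
def f (n : ℕ) : F25 := ⟨n % 25, Nat.mod_lt _ (by norm_num)⟩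

instance instAddF25 : Add F25 := ⟨fun x y => mk (x.val % 5 + y.val % 5) (x.val / 5 + y.val / 5)⟩
instance instMulF25 : Mul F25 := ⟨fun x y =>
  mk ((x.val % 5) * (y.val % 5) + 2 * ((x.val / 5) * (y.val / 5)))
    ((x.val % 5) * (y.val / 5) + (x.val / 5) * (y.val % 5))⟩
instance instNegF25 : Neg F25 := ⟨fun x => mk (5 - x.val % 5) (5 - x.val / 5)⟩
instance instZeroF25 : Zero F25 := ⟨f 0⟩
instance instOneF25 : One F25 := ⟨f 1⟩
/-- the cube of the norm `a ^ 2 - 2 b ^ 2` -/
def nrm3 (x : F25) : ℕ := (((x.val % 5) * (x.val % 5) + 3 * ((x.val / 5) * (x.val / 5))) % 5) ^ 3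
instance instInvF25 : Inv F25 := ⟨fun x => mk ((x.val % 5) * nrm3 x) ((5 - x.val / 5) * nrm3 x)⟩

instance instFieldF25 : Field F25 :=
  Field.ofMinimalAxioms F25 (by decide +kernel) (by decide +kernel) (by decide +kernel)
    (by decide +kernel) (by decide +kernel) (by decide +kernel) (by decide +kernel)
    (by decide +kernel) (by decide +kernel) ⟨0, 1, by decide⟩

theorem card_F25 : Fintype.card F25 = 25 := by decide +kernel

instance instCharPF25 : CharP F25 5 := by
  have : Fact (Nat.Prime 5) := ⟨by norm_num⟩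
  exact charP_of_card_eq_prime_pow (p := 5) (f := 2) (by rw [card_F25]; norm_num)

/-- every field with 25 elements is isomorphic to the model -/
theorem exists_equiv (F : Type*) [Field F] [Fintype F] (hF : Fintype.card F = 25) :
    Nonempty (F ≃+* F25) :=
  ⟨FiniteField.ringEquivOfCardEq (by rw [hF, card_F25])⟩

/-- the Frobenius map in the model -/
def frob (x : F25) : F25 := mk (x.val % 5) (5 - x.val / 5)

theorem pow_five (x : F25) : x ^ 5 = frob x := by
  revert x
  decide +kernel

end Cfsg.Agent.Lib.Helper67F25
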