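import Mathlib
import Cfsg.Prelude
import Cfsg.Agent.Lib.Helper42LBDefs
import Cfsg.Agent.Lib.Helper57UConv
import Cfsg.Agent.Lib.Helper7SUCenter

set_option autoImplicit false

/-! PROJECT 42, piece W5: a semilinear map commuting (projectively) with `j(SU_n(q₀))` is a scalar
and its field automorphism fixes `j(F₀)`. -/

namespace Cfsg.Agent.Lib.Helper67LBW5

open Matrix Cfsg Cfsg.Agent.Lib.Helper50Aut Cfsg.Agent.Lib.Helper50AutStr
  Cfsg.Agent.Lib.Helper42BalA Cfsg.Agent.Lib.Helper49EichGen Cfsg.Agent.Lib.Helper42LBDefs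
  Cfsg.Agent.Lib.Helper50Tv Cfsg.Agent.Lib.Helper50Str Cfsg.Agent.Lib.Helper13UDefs
  Cfsg.Agent.Lib.Helper97UBase Cfsg.Agent.Lib.Helper95Herm

variable {F : Type*} [Field F] [Fintype F] {n : ℕ}
variable {F₀ : Type*} [Field F₀] [Fintype F₀]

local notation "Mn" => Matrix (Fin n) (Fin n) F

omit [Fintype F] [Fintype F₀] in
theorem map_tv {K L : Type*} [Field K] [Field L] (f : K →+* L) (u φ : Fin n → K) (h : φ ⬝ᵥ u = 0) :
    ∃ h', ((tv u φ h : Matrix (Fin n) (Fin n) K)).map f =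
      (tv (fun i => f (u i)) (fun i => f (φ i)) h' : Matrix (Fin n) (Fin n) L) := by
  have h' : (fun i => f (φ i)) ⬝ᵥ (fun i => f (u i)) = 0 := by
    have := congrArg f h
    simpa [dotProduct, map_sum, map_mul] using this
  refine ⟨h', ?_⟩
  rw [tv_coe, tv_coe]
  ext i j
  simp only [Matrix.map_apply, Matrix.add_apply, vecMulVec_apply, map_add, map_mul]
  congr 1
  by_cases hij : i = j
  · subst hij; simp
  · simp [Matrix.one_apply_ne hij]

/-- isotropic vectors are eigenvectors -/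
theorem eig {q₀ : ℕ} {σ : F₀ ≃+* F₀} (hU : US σ (hermForm n F₀ q₀) q₀) (j : F₀ →+* F)
    (h : GL (Fin n) F) (τ : F ≃+* F)
    (hc : ∀ s ∈ Cfsg.SU n F₀ q₀, ∃ z : F,
      (h : Mn) * ((s : Matrix (Fin n) (Fin n) F₀).map j).map τ
        = z • ((s : Matrix (Fin n) (Fin n) F₀).map j * (h : Mn)))
    (v : Fin n → F₀) (hv : v ≠ 0) (hvv : hermForm n F₀ q₀ v v = 0) :
    ∃ c : F, (h : Mn) *ᵥ (fun i => τ (j (v i))) = c • (fun i => j (v i)) := by
  have hf := hU.unitary
  have hH := herm_of_unitary hf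
  obtain ⟨a, ha0, ha⟩ := hH.exists_z
  replace ha : a + σ a = 0 := ha
  obtain ⟨i0, hi0⟩ : ∃ i, v i ≠ 0 := by
    by_contra hcon
    push Not at hcon
    exact hv (funext hcon)
  have : Nonempty (Fin n) := ⟨i0⟩
  let φ : Fin n → F₀ := fun j => a * σ (v j)
  have hφx : ∀ x : Fin n → F₀, φ ⬝ᵥ x = a * hermForm n F₀ q₀ x v := by
    intro x
    unfold hermForm dotProduct
    rw [Finset.mul_sum]
    apply Finset.sum_congr rfl
    intro j _
    show a * σ (v j) * x j = a * (x j * v j ^ q₀)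
    rw [hU.pow]
    ring
  have hφv : φ ⬝ᵥ v = 0 := by rw [hφx, hvv, mul_zero]
  have hφ0 : φ i0 ≠ 0 := by
    intro h1
    rcases mul_eq_zero.mp h1 with h2 | h2
    · exact ha0 h2
    · exact hi0 ((map_eq_zero σ).mp h2)
  have hmv : ∀ x : Fin n → F₀, (tv v φ hφv : Matrix (Fin n) (Fin n) F₀) *ᵥ x =
      x + (a * hermForm n F₀ q₀ x v) • v := by
    intro x
    rw [tv_coe, add_mulVec, one_mulVec, ← hφx]
    congr 1
    funext i
    simp only [mulVec, vecMulVec_apply, dotProduct, Pi.smul_apply, smul_eq_mul, Finset.sum_mul]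
    apply Finset.sum_congr rfl
    intro j _
    ring
  have hmem : tv v φ hφv ∈ Cfsg.SU n F₀ q₀ := by
    intro x y
    have h1 := (utv_mem hf v a hvv ha).1 x y
    simp only [Units.coeHom_apply] at h1
    rw [utv_mulVec, utv_mulVec] at h1
    show hermForm n F₀ q₀ ((tv v φ hφv : Matrix (Fin n) (Fin n) F₀) *ᵥ x)
      ((tv v φ hφv : Matrix (Fin n) (Fin n) F₀) *ᵥ y) = _
    rw [hmv, hmv]
    exact h1
  obtain ⟨z, hz⟩ := hc _ hmem
  obtain ⟨h1, e1⟩ := map_tv j v φ hφv
  rw [e1] at hz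
  obtain ⟨h2, e2⟩ := map_tv (τ : F →+* F) _ _ h1
  have e2' : ((tv (fun i => j (v i)) (fun i => j (φ i)) h1 : Mn)).map τ = _ := e2
  rw [e2'] at hz
  obtain ⟨h3, e3⟩ := conjGL_tv h _ _ h2
  have e4 : (conjGL h (tv _ _ h2) : Mn) = z • (tv (fun i => j (v i)) (fun i => j (φ i)) h1 : Mn) := by
    rw [conjGL_coe, hz, smul_mul_assoc, mul_assoc, gl_mul_inv, mul_one]
  rw [e3, tv_coe, tv_coe] at e4
  have sq : ∀ (u ψ : Fin n → F), ψ ⬝ᵥ u = 0 → vecMulVec u ψ * vecMulVec u ψ = 0 := by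
    intro u ψ hu
    have := isU2_tv u ψ hu
    unfold IsU2 at this
    rwa [tv_coe, add_sub_cancel_left] at this
  have hz1 := scalar_eq_one_of_sq_zero _ _ (sq _ _ h1) (sq _ _ h3) z e4
  rw [hz1, one_smul] at e4
  have h4 := add_left_cancel e4
  have hv' : (fun i => j (v i)) ≠ 0 := by
    intro h0
    exact hi0 ((map_eq_zero j).mp (congrFun h0 i0))
  have hφ' : (fun i => j (φ i)) ≠ 0 := by
    intro h0
    exact hφ0 ((map_eq_zero j).mp (congrFun h0 i0))
  have h5 := (par_of_vecMulVec_eq hv' hφ' h4.symm).1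
  exact h5.exists_smul hv'

omit [Fintype F₀] in
theorem herm_single (q₀ : ℕ) (i : Fin n) (a : F₀) (w : Fin n → F₀) :
    hermForm n F₀ q₀ (Pi.single i a) w = a * w i ^ q₀ := by
  unfold hermForm
  rw [Finset.sum_eq_single i]
  · rw [Pi.single_eq_same]
  · intro j _ hj
    rw [Pi.single_eq_of_ne hj, zero_mul]
  · intro hi
    exact absurd (Finset.mem_univ i) hi

/-- the three coordinate relations -/
theorem key {q₀ : ℕ} {σ : F₀ ≃+* F₀} (hU : US σ (hermForm n F₀ q₀) q₀) (f : F₀ →+* F)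
    (h : GL (Fin n) F) (τ : F ≃+* F)
    (hc : ∀ s ∈ Cfsg.SU n F₀ q₀, ∃ z : F,
      (h : Mn) * ((s : Matrix (Fin n) (Fin n) F₀).map f).map τ
        = z • ((s : Matrix (Fin n) (Fin n) F₀).map f * (h : Mn)))
    {i j k : Fin n} (hij : i ≠ j) (hik : i ≠ k) (hjk : j ≠ k) (β γ : F₀)
    (hN : 1 + β * σ β + γ * σ γ = 0) :
    ∃ c : F, (h : Mn) i i + (h : Mn) i j * τ (f β) + (h : Mn) i k * τ (f γ) = c ∧
      (h : Mn) j i + (h : Mn) j j * τ (f β) + (h : Mn) j k * τ (f γ) = c * f β ∧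
      (h : Mn) k i + (h : Mn) k j * τ (f β) + (h : Mn) k k * τ (f γ) = c * f γ := by
  have hf := hU.unitary
  let v : Fin n → F₀ := Pi.single i 1 + Pi.single j β + Pi.single k γ
  have hvi : v i = 1 := by
    simp [v, hij, hik]
  have hvj : v j = β := by
    simp [v, hij.symm, hjk]
  have hvk : v k = γ := by
    simp [v, hik.symm, hjk.symm]
  have hv0 : v ≠ 0 := by
    intro h0
    have := congrFun h0 i
    rw [hvi] at this
    exact one_ne_zero this
  have hvv : hermForm n F₀ q₀ v v = 0 := by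
    have e1 : hermForm n F₀ q₀ v v = hermForm n F₀ q₀ (Pi.single i 1) v +
        hermForm n F₀ q₀ (Pi.single j β) v + hermForm n F₀ q₀ (Pi.single k γ) v := by
      conv_lhs => rw [show v = Pi.single i 1 + Pi.single j β + Pi.single k γ from rfl]
      rw [hf.add_left, hf.add_left]
    rw [e1, herm_single, herm_single, herm_single, hvi, hvj, hvk, one_pow, mul_one, ← hU.pow,
      ← hU.pow]
    exact hN
  obtain ⟨c, hc'⟩ := eig hU f h τ hc v hv0 hvv
  have hτv : (fun l => τ (f (v l))) = Pi.single i 1 + Pi.single j (τ (f β)) +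
      Pi.single k (τ (f γ)) := by
    funext l
    simp only [v, Pi.add_apply, Pi.single_apply, map_add]
    split_ifs <;> simp
  have hrow : ∀ r, ((h : Mn) *ᵥ (fun l => τ (f (v l)))) r =
      (h : Mn) r i + (h : Mn) r j * τ (f β) + (h : Mn) r k * τ (f γ) := by
    intro r
    rw [hτv, mulVec_add, mulVec_add]
    simp [Matrix.mulVec_single, mul_comm]
  refine ⟨c, ?_, ?_, ?_⟩
  · rw [← hrow, hc', Pi.smul_apply, hvi, smul_eq_mul, map_one, mul_one]
  · rw [← hrow, hc', Pi.smul_apply, hvj, smul_eq_mul]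
  · rw [← hrow, hc', Pi.smul_apply, hvk, smul_eq_mul]

/-- piece U3 = W5 (general form) -/
theorem uni_core_gen {q₀ : ℕ}
    (hF₀ : Fintype.card F₀ = q₀ ^ 2) (j : F₀ →+* F) (hn : 3 ≤ n)
    (h : GL (Fin n) F) (τ : F ≃+* F)
    (hc : ∀ s ∈ Cfsg.SU n F₀ q₀, ∃ z : F,
      (h : Mn) * ((s : Matrix (Fin n) (Fin n) F₀).map j).map τ
        = z • ((s : Matrix (Fin n) (Fin n) F₀).map j * (h : Mn))) :
    (∃ c : F, (h : Mn) = c • (1 : Mn)) ∧ ∀ a : F₀, τ (j a) = j a := by
  obtain ⟨σ, hU⟩ := Cfsg.Agent.Lib.Helper57UConv.exists_US (n := n) hF₀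
  have hf := hU.unitary
  have hH := herm_of_unitary hf
  have third : ∀ a b : Fin n, ∃ c : Fin n, c ≠ a ∧ c ≠ b := by
    intro a b
    by_contra hcon
    push Not at hcon
    have h1 : (Finset.univ : Finset (Fin n)) ⊆ {a, b} := by
      intro c _
      by_cases hca : c = a
      · simp [hca]
      · simp [hcon c hca]
    have h2 := Finset.card_le_card h1
    have h3 : ({a, b} : Finset (Fin n)).card ≤ 2 := Finset.card_le_two
    rw [Finset.card_univ, Fintype.card_fin] at h2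
    omega
  -- `h` is diagonal
  obtain ⟨β, hβ⟩ := hH.norm_surj (-1) (by simp)
  replace hβ : β * σ β = -1 := hβ
  obtain ⟨u, hu1, hu2⟩ := Cfsg.Agent.Lib.Helper7SUCenter.exists_c hF₀
  have huσ : u * σ u = 1 := by rw [hU.pow, ← pow_succ', hu1]
  have hu : u ≠ 1 := by
    rintro rfl
    exact hu2 (one_pow 2)
  have hβ0 : β ≠ 0 := by
    rintro rfl
    rw [zero_mul] at hβ
    exact one_ne_zero (neg_eq_zero.mp hβ.symm)
  have hdiag : ∀ r s : Fin n, r ≠ s → (h : Mn) r s = 0 := by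
    intro r s hrs
    obtain ⟨i, hir, his⟩ := third r s
    obtain ⟨c, -, -, h3⟩ := key hU j h τ hc his hir hrs.symm β 0 (by rw [hβ]; simp)
    obtain ⟨c', -, -, h3'⟩ := key hU j h τ hc his hir hrs.symm (u * β) 0 (by
      rw [map_mul]
      have : u * β * (σ u * σ β) = (u * σ u) * (β * σ β) := by ring
      rw [this, huσ, hβ]; simp)
    rw [map_zero, map_zero, mul_zero, mul_zero, add_zero] at h3 h3'
    have h4 : (h : Mn) r s * (τ (j β) - τ (j (u * β))) = 0 := by linear_combination h3 - h3'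
    rcases mul_eq_zero.mp h4 with h5 | h5
    · exact h5
    · exfalso
      have h6 : β = u * β := j.injective (τ.injective (sub_eq_zero.mp h5))
      apply hu
      have h7 : (u - 1) * β = 0 := by linear_combination -h6
      rcases mul_eq_zero.mp h7 with h8 | h8
      · exact sub_eq_zero.mp h8
      · exact absurd h8 hβ0
  have hrel : ∀ i s : Fin n, i ≠ s → ∀ b : F₀, (h : Mn) s s * τ (j b) = (h : Mn) i i * j b := by
    intro i s his b
    obtain ⟨k, hki, hks⟩ := third i s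
    obtain ⟨γ, hγ⟩ := hH.norm_surj (-1 - b * σ b) (by
      show σ (-1 - b * σ b) = _
      rw [map_sub, map_neg, map_one, map_mul, hf.involutive, mul_comm])
    replace hγ : γ * σ γ = -1 - b * σ b := hγ
    obtain ⟨c, h1, h2, -⟩ := key hU j h τ hc his hki.symm hks.symm b γ (by rw [hγ]; ring)
    rw [hdiag i s his, hdiag i k hki.symm, zero_mul, zero_mul, add_zero, add_zero] at h1
    rw [hdiag s i his.symm, hdiag s k hks.symm, zero_mul, zero_add, add_zero] at h2
    rw [h2, h1]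
  have heq : ∀ i s : Fin n, (h : Mn) i i = (h : Mn) s s := by
    intro i s
    by_cases his : i = s
    · rw [his]
    · have := hrel i s his 1
      rw [map_one, map_one, mul_one, mul_one] at this
      exact this.symm
  let i0 : Fin n := ⟨0, by omega⟩
  let i1 : Fin n := ⟨1, by omega⟩
  have h01 : i0 ≠ i1 := by simp [i0, i1]
  have hsc : (h : Mn) = (h : Mn) i0 i0 • (1 : Mn) := by
    ext r s
    by_cases hrs : r = s
    · subst hrs
      simp [heq r i0]
    · rw [hdiag r s hrs]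
      simp [Matrix.one_apply_ne hrs]
  have hd0 : (h : Mn) i0 i0 ≠ 0 := by
    intro h0
    have h1 := gl_mul_inv h
    rw [hsc, h0, zero_smul, zero_mul] at h1
    have : Nonempty (Fin n) := ⟨i0⟩
    exact zero_ne_one h1
  refine ⟨⟨_, hsc⟩, fun b => ?_⟩
  have := hrel i0 i1 h01 b
  rw [← heq i0 i1] at this
  exact mul_left_cancel₀ hd0 this

end Cfsg.Agent.Lib.Helper67LBW5
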