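import Cfsg.Agent.Lib.Helper67SU5Data
import Cfsg.Agent.Lib.Helper67SU5Gen

set_option autoImplicit false

/-! `SU_5(2)` over the model field: the normaliser of a subgroup of order 11 is not maximal. -/

namespace Cfsg.Agent.Lib.Helper67SU5Grp

open Cfsg Cfsg.Geo Matrix Cfsg.Agent.Lib.Helper62F4 Cfsg.Agent.Lib.Helper67SU5Data
  Cfsg.Agent.Lib.Helper67SU5Gen
open scoped MatrixGroups

/-- the ambient group -/
abbrev G5 := GL (Fin 5) F4

/-- `SU_5(2)` -/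
def G4 : Subgroup G5 := GU 5 F4 2 ⊓ specialLinear (Fin 5) F4

/-- element of order 11 -/
def a : G5 := ⟨Ap 1, Ap 10, Ap_last', Ap_last⟩
/-- element of order 5 -/
def b : G5 := ⟨Bp 1, Bp 4, Bp_last', Bp_last⟩
/-- the extra involution -/
def c : G5 := ⟨Cm, Cm, Cm_sq, Cm_sq⟩
/-- an involution outside -/
def t : G5 := ⟨Tm, Tm, Tm_sq, Tm_sq⟩

lemma Ap_eq_pow (k : ℕ) (hk : k < 11) : Ap ⟨k, hk⟩ = (Ap 1) ^ k := by
  induction k with
  | zero => rw [pow_zero]; exact Ap_zero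
  | succ k ih =>
    have h1 := Ap_succ ⟨k, by omega⟩
    rw [pow_succ, ← ih (by omega)]
    exact h1

lemma Bp_eq_pow (k : ℕ) (hk : k < 5) : Bp ⟨k, hk⟩ = (Bp 1) ^ k := by
  induction k with
  | zero => rw [pow_zero]; exact Bp_zero
  | succ k ih =>
    have h1 := Bp_succ ⟨k, by omega⟩
    rw [pow_succ, ← ih (by omega)]
    exact h1

lemma a_pow_val (k : Fin 11) : ((a ^ (k : ℕ) : G5) : M5) = Ap k := by
  rw [Units.val_pow_eq_pow_val]
  exact (Ap_eq_pow k k.2).symm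

lemma b_pow_val (k : Fin 5) : ((b ^ (k : ℕ) : G5) : M5) = Bp k := by
  rw [Units.val_pow_eq_pow_val]
  exact (Bp_eq_pow k k.2).symm

lemma a_pow_eleven : a ^ 11 = 1 := by
  apply Units.ext
  rw [pow_succ, Units.val_mul]
  have h := a_pow_val 10
  rw [show ((10 : Fin 11) : ℕ) = 10 from rfl] at h
  rw [h]
  exact Ap_last

lemma b_pow_five : b ^ 5 = 1 := by
  apply Units.ext
  rw [pow_succ, Units.val_mul]
  have h := b_pow_val 4
  rw [show ((4 : Fin 5) : ℕ) = 4 from rfl] at h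
  rw [h]
  exact Bp_last

lemma c_sq : c ^ 2 = 1 := by
  apply Units.ext
  rw [pow_two, Units.val_mul]
  exact Cm_sq

lemma t_sq : t ^ 2 = 1 := by
  apply Units.ext
  rw [pow_two, Units.val_mul]
  exact Tm_sq

lemma orderOf_a : orderOf a = 11 := by
  have : Fact (Nat.Prime 11) := ⟨by norm_num⟩
  apply orderOf_eq_prime a_pow_eleven
  intro h
  exact Ap_one_ne (congrArg Units.val h)

lemma mem_SL_of_pow {g : G5} {m : ℕ} (hm : Nat.Coprime m 3) (h : g ^ m = 1) :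
    g ∈ specialLinear (Fin 5) F4 := by
  show Matrix.GeneralLinearGroup.det g = 1
  have h1 : (Matrix.GeneralLinearGroup.det g) ^ m = 1 := by rw [← map_pow, h, map_one]
  have h3 : (Matrix.GeneralLinearGroup.det g) ^ 3 = 1 := by
    have : Fintype.card F4ˣ = 3 := by rw [Fintype.card_units, card_F4]
    rw [← this]
    exact pow_card_eq_one
  have h4 := orderOf_dvd_of_pow_eq_one h1
  have h5 := orderOf_dvd_of_pow_eq_one h3
  have h6 := Nat.dvd_gcd h4 h5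
  rw [hm] at h6
  exact orderOf_eq_one_iff.mp (Nat.dvd_one.mp h6)

lemma a_mem : a ∈ G4 := ⟨(mem_GU_iff a).mpr Ap_unitary, mem_SL_of_pow (by norm_num) a_pow_eleven⟩
lemma b_mem : b ∈ G4 := ⟨(mem_GU_iff b).mpr Bp_unitary, mem_SL_of_pow (by norm_num) b_pow_five⟩
lemma c_mem : c ∈ G4 := ⟨(mem_GU_iff c).mpr Cm_unitary, mem_SL_of_pow (by norm_num) c_sq⟩
lemma t_mem : t ∈ G4 := ⟨(mem_GU_iff t).mpr Tm_unitary, mem_SL_of_pow (by norm_num) t_sq⟩

lemma vec_eta (v : Fin 5 → F4) : v = ![v 0, v 1, v 2, v 3, v 4] := by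
  funext i
  fin_cases i <;> rfl

/-- the stabiliser of the invariant set -/
def X0 : Subgroup G5 where
  carrier := {g | g ∈ G4 ∧ ∀ v, SS ((g : M5) *ᵥ v) = SS v}
  mul_mem' := by
    rintro x y ⟨hx, hx'⟩ ⟨hy, hy'⟩
    refine ⟨G4.mul_mem hx hy, fun v => ?_⟩
    rw [Units.val_mul, ← mulVec_mulVec, hx', hy']
  one_mem' := ⟨G4.one_mem, fun v => by simp⟩
  inv_mem' := by
    rintro x ⟨hx, hx'⟩
    refine ⟨G4.inv_mem hx, fun v => ?_⟩
    rw [← hx', mulVec_mulVec, ← Units.val_mul, mul_inv_cancel, Units.val_one, one_mulVec]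

lemma a_mem_X0 : a ∈ X0 := ⟨a_mem, fun v => by rw [vec_eta v]; exact SS_A _ _ _ _ _⟩
lemma b_mem_X0 : b ∈ X0 := ⟨b_mem, fun v => by rw [vec_eta v]; exact SS_B _ _ _ _ _⟩
lemma c_mem_X0 : c ∈ X0 := ⟨c_mem, fun v => by rw [vec_eta v]; exact SS_C _ _ _ _ _⟩
lemma t_not_mem_X0 : t ∉ X0 := by
  rintro ⟨-, h⟩
  obtain ⟨x1, x2, x3, x4, x5, hx⟩ := SS_T
  exact hx (h _)

lemma herm_eq_hf (u v : Fin 5 → F4) : hermForm 5 F4 2 u v = hf u v := by
  unfold hermForm hf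
  rw [Fin.sum_univ_five]

lemma comm_Ap {Z : M5} (hZ : Z * Ap 1 = Ap 1 * Z) (k : Fin 11) : Z * Ap k = Ap k * Z := by
  have h1 : Commute Z (Ap 1) := hZ
  have h2 := h1.pow_right (k : ℕ)
  rw [← Ap_eq_pow k k.2] at h2
  exact h2

/-- `e0` is a cyclic vector -/
lemma cyc {Z : M5} (hZ : Z * Ap 1 = Ap 1 * Z) (h0 : Z *ᵥ e0 = 0) : Z = 0 := by
  have h1 : Z * Pm = 0 := by
    ext i j
    have h2 : (Z * Pm) i j = (Z *ᵥ (Ap (Fin.castLE (by norm_num) j) *ᵥ e0)) i := by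
      rw [Matrix.mul_apply]
      simp only [Matrix.mulVec, dotProduct]
      exact Finset.sum_congr rfl fun l _ => by
        rw [Pm_col j l]
        rfl
    rw [h2, mulVec_mulVec, comm_Ap hZ, ← mulVec_mulVec, h0, mulVec_zero]
    rfl
  calc Z = Z * (Pm * Pinv) := by rw [Pm_inv, mul_one]
    _ = 0 := by rw [← mul_assoc, h1, zero_mul]

/-- the centraliser of `a` in `SU_5(2)` -/
lemma comm_mem {x : G5} (hx : x ∈ G4) (hc : x * a = a * x) : x ∈ Subgroup.zpowers a := by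
  have hXA : (x : M5) * Ap 1 = Ap 1 * (x : M5) := congrArg Units.val hc
  have hU : ∀ u v, hf ((x : M5) *ᵥ u) ((x : M5) *ᵥ v) = hf u v := by
    intro u v
    rw [← herm_eq_hf, ← herm_eq_hf]
    exact hx.1 u v
  have hcond : ∀ k : Fin 11, hf ((x : M5) *ᵥ e0) (Ap k *ᵥ ((x : M5) *ᵥ e0)) = hf e0 (Ap k *ᵥ e0) := by
    intro k
    rw [mulVec_mulVec, ← comm_Ap hXA, ← mulVec_mulVec, hU]
  obtain ⟨s, i, hs⟩ : ∃ (s : F4) (i : Fin 11), (x : M5) *ᵥ e0 = s • (Ap i *ᵥ e0) := by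
    have h0 := hU e0 e0
    have h1 := hcond 1
    have h2 := hcond 2
    have h3 := hcond 3
    have h4 := hcond 4
    rw [vec_eta ((x : M5) *ᵥ e0)] at h0 h1 h2 h3 h4 ⊢
    exact brute _ _ _ _ _ h0 h1 h2 h3 h4
  have hZ : (x : M5) - s • Ap i = 0 := by
    apply cyc
    · rw [sub_mul, mul_sub, hXA, smul_mul_assoc, mul_smul_comm, comm_Ap rfl]
    · rw [sub_mulVec, hs, smul_mulVec, sub_self]
  have hX : (x : M5) = s • Ap i := sub_eq_zero.mp hZ
  have hdet : (x : M5).det = 1 := by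
    have := hx.2
    have h1 : Matrix.GeneralLinearGroup.det x = 1 := this
    have h2 := congrArg Units.val h1
    simpa using h2
  have hdetA : (Ap i).det = 1 := by
    have h1 : Matrix.GeneralLinearGroup.det (a ^ (i : ℕ)) = 1 := (G4.pow_mem a_mem _).2
    have h2 := congrArg Units.val h1
    rw [← a_pow_val]
    simpa using h2
  rw [hX, Matrix.det_smul, hdetA, mul_one, Fintype.card_fin] at hdet
  have hs1 := pow_five s hdet
  rw [hs1, one_smul, ← a_pow_val] at hX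
  rw [Units.ext hX]
  exact Subgroup.npow_mem_zpowers a _

/-- the normaliser of `⟨a⟩` stabilises the invariant set -/
lemma norm_mem {h : G5} (hh : h ∈ G4) (hn : h * a * h⁻¹ ∈ Subgroup.zpowers a) : h ∈ X0 := by
  rw [← mem_powers_iff_mem_zpowers, Submonoid.mem_powers_iff] at hn
  obtain ⟨m, hm⟩ := hn
  rw [← pow_mod_orderOf, orderOf_a] at hm
  obtain ⟨k, hk⟩ : ∃ k : Fin 11, (k : ℕ) = m % 11 := ⟨⟨m % 11, Nat.mod_lt _ (by norm_num)⟩, rfl⟩
  rw [← hk] at hm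
  have htr : (Ap k).trace = (Ap 1).trace := by
    rw [← a_pow_val, hm, Units.val_mul, Units.val_mul]
    exact Matrix.trace_units_conj h (Ap 1)
  obtain ⟨j, hj⟩ := trace_Ap k htr
  have hj' : b ^ (j : ℕ) * a = a ^ (k : ℕ) * b ^ (j : ℕ) := by
    apply Units.ext
    rw [Units.val_mul, Units.val_mul, b_pow_val, a_pow_val]
    exact hj
  have hha : h * a = a ^ (k : ℕ) * h := by
    rw [hm]; group
  have hx : (b ^ (j : ℕ))⁻¹ * h ∈ Subgroup.zpowers a := by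
    apply comm_mem (G4.mul_mem (G4.inv_mem (G4.pow_mem b_mem _)) hh)
    have h1 : (b ^ (j : ℕ))⁻¹ * a ^ (k : ℕ) = a * (b ^ (j : ℕ))⁻¹ := by
      rw [inv_mul_eq_iff_eq_mul, ← mul_assoc, hj', mul_assoc, mul_inv_cancel, mul_one]
    rw [mul_assoc, hha, ← mul_assoc, h1, mul_assoc]
  have hx' : (b ^ (j : ℕ))⁻¹ * h ∈ X0 := (Subgroup.zpowers_le.mpr a_mem_X0) hx
  have := X0.mul_mem (X0.pow_mem b_mem_X0 (j : ℕ)) hx'
  rwa [mul_inv_cancel_left] at this

lemma c_not : c * a * c⁻¹ ∉ Subgroup.zpowers a := by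
  intro h
  obtain ⟨z, hz⟩ := Subgroup.mem_zpowers_iff.mp h
  have h1 : (c * a * c⁻¹) * a = a * (c * a * c⁻¹) := by
    rw [← hz, ← _root_.zpow_add_one, ← _root_.zpow_one_add, add_comm]
  exact Cm_not (congrArg Units.val h1)

lemma card_not_dvd : ¬ 11 ^ 2 ∣ Nat.card G4 := by
  intro h
  have h1 := h.trans (Subgroup.card_subgroup_dvd_card G4)
  rw [Matrix.card_GL_field, card_F4, Fin.prod_univ_five] at h1
  revert h1
  norm_num

/-- the main statement over the model field -/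
theorem main4 (u : G5) (hu : u ∈ G4) (ho : orderOf u = 11) :
    ∃ M : Subgroup G5, M ≤ G4 ∧ M ≠ G4 ∧
      (∀ h ∈ G4, h * u * h⁻¹ ∈ Subgroup.zpowers u → h ∈ M) ∧
      ∃ d ∈ M, d * u * d⁻¹ ∉ Subgroup.zpowers u := by
  have : Fact (Nat.Prime 11) := ⟨by norm_num⟩
  obtain ⟨g, hg, hconj⟩ := sylow_conj G4 11 card_not_dvd (Subgroup.zpowers u) (Subgroup.zpowers a)
    (Subgroup.zpowers_le.mpr hu) (Subgroup.zpowers_le.mpr a_mem)
    (by rw [Nat.card_zpowers, ho]) (by rw [Nat.card_zpowers, orderOf_a])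
  -- conjugation by an element normalising `⟨u⟩`
  have hnorm : ∀ h : G5, h * u * h⁻¹ ∈ Subgroup.zpowers u →
      ∀ x ∈ Subgroup.zpowers u, h * x * h⁻¹ ∈ Subgroup.zpowers u := by
    intro h hh x hx
    obtain ⟨z, rfl⟩ := Subgroup.mem_zpowers_iff.mp hx
    rw [← conj_zpow]
    exact Subgroup.zpow_mem _ hh z
  have haP : g * a * g⁻¹ ∈ Subgroup.zpowers u := by
    rw [hconj]
    have : g⁻¹ * (g * a * g⁻¹) * g = a := by group
    rw [this]
    exact Subgroup.mem_zpowers a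
  refine ⟨X0.comap (MulAut.conj g⁻¹).toMonoidHom, ?_, ?_, ?_, ?_⟩
  · intro m hm
    have h1 : g⁻¹ * m * g ∈ X0 := by simpa using hm
    have h2 := G4.mul_mem (G4.mul_mem hg h1.1) (G4.inv_mem hg)
    have h3 : g * (g⁻¹ * m * g) * g⁻¹ = m := by group
    rwa [h3] at h2
  · intro hM
    have h1 : g * t * g⁻¹ ∈ G4 := G4.mul_mem (G4.mul_mem hg t_mem) (G4.inv_mem hg)
    rw [← hM] at h1
    have h2 : g⁻¹ * (g * t * g⁻¹) * g ∈ X0 := by simpa using h1
    have h3 : g⁻¹ * (g * t * g⁻¹) * g = t := by group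
    rw [h3] at h2
    exact t_not_mem_X0 h2
  · intro h hh hn
    have h1 : g⁻¹ * h * g ∈ X0 := by
      apply norm_mem (G4.mul_mem (G4.mul_mem (G4.inv_mem hg) hh) hg)
      have h2 := hnorm h hn _ haP
      rw [hconj] at h2
      have h3 : g⁻¹ * (h * (g * a * g⁻¹) * h⁻¹) * g = g⁻¹ * h * g * a * (g⁻¹ * h * g)⁻¹ := by group
      rwa [h3] at h2
    simpa using h1
  · refine ⟨g * c * g⁻¹, ?_, ?_⟩
    · have h3 : g⁻¹ * (g * c * g⁻¹) * g = c := by group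
      have : g⁻¹ * (g * c * g⁻¹) * g ∈ X0 := by rw [h3]; exact c_mem_X0
      simpa using this
    · intro hn
      have h2 := hnorm _ hn _ haP
      rw [hconj] at h2
      have h3 : g⁻¹ * (g * c * g⁻¹ * (g * a * g⁻¹) * (g * c * g⁻¹)⁻¹) * g = c * a * c⁻¹ := by group
      rw [h3] at h2
      exact c_not h2

end Cfsg.Agent.Lib.Helper67SU5Grp
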