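import Cfsg.Agent.Lib.Helper67SU5Grp

set_option autoImplicit false

/-! `SU_5(2)`: the normaliser of an adjoint-closed field of degree 5 is not maximal (it lies in `L_2(11)`). -/

namespace Cfsg.Agent.Lib.Helper67SU5Two

open Cfsg Cfsg.Geo Matrix Cfsg.Agent.Lib.Helper62F4 Cfsg.Agent.Lib.Helper67SU5Data
  Cfsg.Agent.Lib.Helper67SU5Gen Cfsg.Agent.Lib.Helper67SU5Grp
open scoped MatrixGroups

variable {F : Type*} [Field F]

section transport

/-- transport to the model field -/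
noncomputable def Phi (ψ : F ≃+* F4) : GL (Fin 5) F ≃* GL (Fin 5) F4 :=
  Units.mapEquiv (RingEquiv.mapMatrix ψ).toMulEquiv

lemma Phi_val (ψ : F ≃+* F4) (g : GL (Fin 5) F) :
    ((Phi ψ g : G5) : M5) = (g : Matrix (Fin 5) (Fin 5) F).map ψ := rfl

lemma map_eq_one_iff (ψ : F ≃+* F4) (M : Matrix (Fin 5) (Fin 5) F) : M.map ψ = 1 ↔ M = 1 := by
  constructor
  · intro h
    apply Matrix.map_injective ψ.injective
    show M.map ψ = (1 : Matrix (Fin 5) (Fin 5) F).map ψ
    rw [h, Matrix.map_one _ (map_zero ψ) (map_one ψ)]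
  · rintro rfl
    exact Matrix.map_one _ (map_zero ψ) (map_one ψ)

lemma mem_SL_iff {R : Type*} [Field R] (x : GL (Fin 5) R) : x ∈ specialLinear (Fin 5) R ↔
    (x : Matrix (Fin 5) (Fin 5) R).det = 1 := by
  constructor
  · intro h
    have h3 : Matrix.GeneralLinearGroup.det x = 1 := h
    simpa using congrArg Units.val h3
  · intro h
    show Matrix.GeneralLinearGroup.det x = 1
    apply Units.ext
    simpa using h

lemma mem_G_iff [Finite F] [CharP F 2] (ψ : F ≃+* F4) (g : GL (Fin 5) F) :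
    g ∈ GU 5 F 2 ⊓ specialLinear (Fin 5) F ↔ Phi ψ g ∈ G4 := by
  have h1 : g ∈ GU 5 F 2 ↔ Phi ψ g ∈ GU 5 F4 2 := by
    rw [mem_GU_iff, mem_GU_iff, Phi_val, ← map_eq_one_iff ψ]
    have e1 : ((g : Matrix (Fin 5) (Fin 5) F).map ψ).map (fun x => x ^ 2) =
        ((g : Matrix (Fin 5) (Fin 5) F).map (fun x => x ^ 2)).map ψ := by
      ext i j
      simp
    have e2 : ((g : Matrix (Fin 5) (Fin 5) F)ᵀ * (g : Matrix (Fin 5) (Fin 5) F).map (fun x => x ^ 2)).map ψ =
        ((g : Matrix (Fin 5) (Fin 5) F).map ψ)ᵀ * ((g : Matrix (Fin 5) (Fin 5) F).map (fun x => x ^ 2)).map ψ := by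
      ext i j
      simp [Matrix.mul_apply, map_sum, map_mul]
    rw [e1, e2]
  have h2 : g ∈ specialLinear (Fin 5) F ↔ Phi ψ g ∈ specialLinear (Fin 5) F4 := by
    rw [mem_SL_iff, mem_SL_iff, Phi_val]
    have e3 : ((g : Matrix (Fin 5) (Fin 5) F).map ψ).det = ψ (g : Matrix (Fin 5) (Fin 5) F).det :=
      ((ψ : F →+* F4).map_det _).symm
    rw [e3]
    constructor
    · intro h; rw [h, map_one]
    · intro h; exact ψ.injective (by rw [h, map_one])
  exact and_congr h1 h2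

lemma mem_zpowers_iff' (ψ : F ≃+* F4) (x u : GL (Fin 5) F) :
    x ∈ Subgroup.zpowers u ↔ Phi ψ x ∈ Subgroup.zpowers (Phi ψ u) := by
  constructor
  · intro h
    obtain ⟨z, rfl⟩ := Subgroup.mem_zpowers_iff.mp h
    rw [map_zpow]
    exact Subgroup.zpow_mem_zpowers _ z
  · intro h
    obtain ⟨z, hz⟩ := Subgroup.mem_zpowers_iff.mp h
    rw [← map_zpow] at hz
    rw [← (Phi ψ).injective hz]
    exact Subgroup.zpow_mem_zpowers _ z

/-- the main group-theoretic statement over any field with four elements -/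
theorem mainF [Fintype F] (hF : Fintype.card F = 4) (u : GL (Fin 5) F)
    (hu : u ∈ GU 5 F 2 ⊓ specialLinear (Fin 5) F) (ho : orderOf u = 11) :
    ∃ M : Subgroup (GL (Fin 5) F), M ≤ GU 5 F 2 ⊓ specialLinear (Fin 5) F ∧
      M ≠ GU 5 F 2 ⊓ specialLinear (Fin 5) F ∧
      (∀ h ∈ GU 5 F 2 ⊓ specialLinear (Fin 5) F, h * u * h⁻¹ ∈ Subgroup.zpowers u → h ∈ M) ∧
      ∃ d ∈ M, d * u * d⁻¹ ∉ Subgroup.zpowers u := by
  have : CharP F 2 := charP_of_card hF
  let ψ := equivF4 hF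
  obtain ⟨M, hM1, hM2, hM3, d, hd, hd'⟩ := main4 (Phi ψ u) ((mem_G_iff ψ u).mp hu)
    (by rw [← ho]; exact (Phi ψ).orderOf_eq u)
  refine ⟨M.comap (Phi ψ).toMonoidHom, ?_, ?_, ?_, ?_⟩
  · intro m hm
    exact (mem_G_iff ψ m).mpr (hM1 hm)
  · intro h
    apply hM2
    apply le_antisymm hM1
    intro x hx
    obtain ⟨y, rfl⟩ := (Phi ψ).surjective x
    have h1 := (mem_G_iff ψ y).mpr hx
    rw [← h] at h1
    exact h1
  · intro h hh hn
    apply hM3 _ ((mem_G_iff ψ h).mp hh)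
    have := (mem_zpowers_iff' ψ _ _).mp hn
    simpa using this
  · obtain ⟨y, rfl⟩ := (Phi ψ).surjective d
    refine ⟨y, hd, fun hn => hd' ?_⟩
    have := (mem_zpowers_iff' ψ _ _).mp hn
    simpa using this

end transport

section adjoint

variable [CharP F 2]

/-- the adjoint for the standard hermitian form -/
def st (k : Matrix (Fin 5) (Fin 5) F) : Matrix (Fin 5) (Fin 5) F := (k.map (frobenius F 2))ᵀ

lemma st_apply (k : Matrix (Fin 5) (Fin 5) F) (i j : Fin 5) : st k i j = k j i ^ 2 := rfl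

lemma st_mul (x y : Matrix (Fin 5) (Fin 5) F) : st (x * y) = st y * st x := by
  unfold st
  rw [Matrix.map_mul, transpose_mul]

lemma st_add (x y : Matrix (Fin 5) (Fin 5) F) : st (x + y) = st x + st y := by
  ext i j
  simp only [st_apply, Matrix.add_apply]
  exact map_add (frobenius F 2) _ _

lemma st_one : st (1 : Matrix (Fin 5) (Fin 5) F) = 1 := by
  unfold st
  rw [Matrix.map_one _ (map_zero _) (map_one _), transpose_one]

lemma st_zero : st (0 : Matrix (Fin 5) (Fin 5) F) = 0 := by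
  ext i j
  simp [st_apply]

lemma st_st (h4 : ∀ x : F, x ^ 4 = x) (k : Matrix (Fin 5) (Fin 5) F) : st (st k) = k := by
  ext i j
  rw [st_apply, st_apply, ← pow_mul]
  exact h4 _

lemma st_smul_one (c : F) : st (c • (1 : Matrix (Fin 5) (Fin 5) F)) = (c ^ 2) • 1 := by
  ext i j
  rw [st_apply, Matrix.smul_apply, Matrix.smul_apply, Matrix.one_apply, Matrix.one_apply]
  by_cases h : i = j
  · subst h; simp
  · have h' : ¬ j = i := fun e => h e.symm
    simp [h, h']

lemma herm_adj (h4 : ∀ x : F, x ^ 4 = x) (k : Matrix (Fin 5) (Fin 5) F) (u v : Fin 5 → F) :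
    hermForm 5 F 2 (k *ᵥ u) v = hermForm 5 F 2 u (st k *ᵥ v) := by
  have h1 : hermForm 5 F 2 u (st k *ᵥ v) = u ⬝ᵥ (((st k).map (fun x => x ^ 2)) *ᵥ (fun i => v i ^ 2)) := by
    unfold hermForm dotProduct
    exact Finset.sum_congr rfl fun i _ => by rw [sq_mulVec]
  have h2 : (st k).map (fun x => x ^ 2) = kᵀ := by
    ext i j
    rw [Matrix.map_apply, st_apply, ← pow_mul]
    exact h4 _
  rw [h1, h2, Matrix.dotProduct_mulVec, Matrix.vecMul_transpose]
  rfl

lemma herm_ext {x y : Fin 5 → F} (h : ∀ u, hermForm 5 F 2 u x = hermForm 5 F 2 u y) : x = y := by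
  funext i
  have := h (Pi.single i 1)
  unfold hermForm at this
  simp only [Pi.single_apply, ite_mul, one_mul, zero_mul, Finset.sum_ite_eq', Finset.mem_univ,
    if_true] at this
  exact frobenius_inj F 2 this

lemma st_mem (h4 : ∀ x : F, x ^ 4 = x) {K : Subalgebra F (Matrix (Fin 5) (Fin 5) F)}
    (hadj : IsAdjointClosedFor (hermForm 5 F 2) K) {k : Matrix (Fin 5) (Fin 5) F} (hk : k ∈ K) :
    st k ∈ K := by
  obtain ⟨k', hk', h⟩ := hadj k hk
  have : k' = st k := by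
    apply Matrix.toLin'.injective
    apply LinearMap.ext
    intro v
    rw [Matrix.toLin'_apply, Matrix.toLin'_apply]
    apply herm_ext
    intro u
    rw [← h, herm_adj h4]
  rwa [← this]

end adjoint

section field

variable [Fintype F]

lemma mem_SL_of_pow' (hF : Fintype.card F = 4) {g : GL (Fin 5) F} {m : ℕ} (hm : Nat.Coprime m 3)
    (h : g ^ m = 1) : g ∈ specialLinear (Fin 5) F := by
  classical
  show Matrix.GeneralLinearGroup.det g = 1
  have h1 : (Matrix.GeneralLinearGroup.det g) ^ m = 1 := by rw [← map_pow, h, map_one]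
  have h3 : (Matrix.GeneralLinearGroup.det g) ^ 3 = 1 := by
    have : Fintype.card Fˣ = 3 := by rw [Fintype.card_units, hF]
    rw [← this]
    exact pow_card_eq_one
  have h4 := orderOf_dvd_of_pow_eq_one h1
  have h5 := orderOf_dvd_of_pow_eq_one h3
  have h6 := Nat.dvd_gcd h4 h5
  rw [hm] at h6
  exact orderOf_eq_one_iff.mp (Nat.dvd_one.mp h6)

theorem aux [CharP F 2] (hF : Fintype.card F = 4) {K' : Type*} [Field K'] [Finite K']
    (ι : K' →+* Matrix (Fin 5) (Fin 5) F) (hι : Function.Injective ι) (hcard : Nat.card K' = 1024)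
    (hst : ∀ z, ∃ z', ι z' = st (ι z)) (hsc : ∀ c : F, ∃ z, ι z = c • (1 : Matrix (Fin 5) (Fin 5) F)) :
    ∃ u : GL (Fin 5) F, (u : Matrix (Fin 5) (Fin 5) F) ∈ Set.range ι ∧
      u ∈ GU 5 F 2 ⊓ specialLinear (Fin 5) F ∧ orderOf u = 11 ∧
      ∀ m : GL (Fin 5) F, (m : Matrix (Fin 5) (Fin 5) F) ∈ Set.range ι → m ^ 11 = 1 →
        m ∈ Subgroup.zpowers u := by
  classical
  have h4 : ∀ x : F, x ^ 4 = x := by
    intro x
    rw [← hF]
    exact FiniteField.pow_card x
  have : CharP K' 2 := RingHom.charP ι hι 2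
  choose τ0 hτ0 using hst
  let τ : K' →+* K' :=
    { toFun := τ0
      map_one' := hι (by rw [hτ0, map_one, st_one])
      map_mul' := fun x y => hι (by
        rw [hτ0, map_mul, st_mul, map_mul, hτ0, hτ0, ← hτ0, ← hτ0, ← map_mul, ← map_mul, mul_comm])
      map_zero' := hι (by rw [hτ0, map_zero, st_zero])
      map_add' := fun x y => hι (by rw [hτ0, map_add, st_add, map_add, hτ0, hτ0]) }
  have hτ : ∀ z, ι (τ z) = st (ι z) := hτ0
  have hττ : ∀ z, τ (τ z) = z := fun z => hι (by rw [hτ, hτ, st_st h4])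
  -- the element ω
  obtain ⟨ω₀, hω₀⟩ : ∃ ω₀ : F, ω₀ ^ 2 = ω₀ + 1 := by
    refine ⟨(equivF4 hF).symm w, ?_⟩
    have h1 : (w : F4) ^ 2 = w + 1 := by decide +kernel
    rw [← map_pow, h1, map_add, map_one]
  obtain ⟨ω, hω⟩ := hsc ω₀
  have hτω : τ ω = ω + 1 := hι (by
    rw [hτ, hω, st_smul_one, hω₀, map_add, hω, map_one, add_smul, one_smul])
  -- an element of order 11
  have : Fact (Nat.Prime 11) := ⟨by norm_num⟩
  have : Fintype K' := Fintype.ofFinite K'
  have hcu : Nat.card K'ˣ = 1023 := by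
    rw [Nat.card_eq_fintype_card, Fintype.card_units, ← Nat.card_eq_fintype_card, hcard]
  obtain ⟨x, hx⟩ := exists_prime_orderOf_dvd_card' (G := K'ˣ) 11 (by rw [hcu]; norm_num)
  have hx11 : (x : K') ^ 11 = 1 := by
    rw [← Units.val_pow_eq_pow_val, ← hx, pow_orderOf_eq_one, Units.val_one]
  have hun := mul_tau_eq_one hcard τ hττ ω hτω (x : K') hx11
  let u : GL (Fin 5) F := Units.map ι.toMonoidHom x
  have hu_val : (u : Matrix (Fin 5) (Fin 5) F) = ι x := rfl
  have hinj : Function.Injective (Units.map ι.toMonoidHom) := Units.map_injective hι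
  have hou : orderOf u = 11 := by rw [← hx]; exact orderOf_injective _ hinj x
  refine ⟨u, ⟨x, rfl⟩, Subgroup.mem_inf.mpr ⟨?_, ?_⟩, hou, ?_⟩
  · rw [mem_GU_iff]
    have h1 : (u : Matrix (Fin 5) (Fin 5) F) * st (u : Matrix (Fin 5) (Fin 5) F) = 1 := by
      rw [hu_val, ← hτ, ← map_mul, hun, map_one]
    have h2 := congrArg Matrix.transpose h1
    rw [transpose_mul, transpose_one] at h2
    have h3 : (st (u : Matrix (Fin 5) (Fin 5) F))ᵀ =
        (u : Matrix (Fin 5) (Fin 5) F).map (fun x => x ^ 2) := rfl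
    rw [h3] at h2
    exact mul_eq_one_comm.mp h2
  · apply mem_SL_of_pow' hF (m := 11) (by norm_num)
    rw [← hou, pow_orderOf_eq_one]
  · rintro m ⟨y, hy⟩ hm
    have hy11 : y ^ 11 = 1 := hι (by
      rw [map_pow, hy, ← Units.val_pow_eq_pow_val, hm, Units.val_one, map_one])
    have hprim : IsPrimitiveRoot (x : K') 11 := by
      have := IsPrimitiveRoot.orderOf (x : K')
      rwa [orderOf_units, hx] at this
    obtain ⟨i, -, hi⟩ := hprim.eq_pow_of_pow_eq_one hy11
    have : m = u ^ i := by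
      apply Units.ext
      rw [Units.val_pow_eq_pow_val, hu_val, ← map_pow, hi, hy]
    rw [this]
    exact Subgroup.npow_mem_zpowers u i

theorem aux' [CharP F 2] (hF : Fintype.card F = 4) {K' : Type*} [Ring K'] (hK' : IsField K') [Finite K']
    (ι : K' →+* Matrix (Fin 5) (Fin 5) F) (hι : Function.Injective ι) (hcard : Nat.card K' = 1024)
    (hst : ∀ z, ∃ z', ι z' = st (ι z)) (hsc : ∀ c : F, ∃ z, ι z = c • (1 : Matrix (Fin 5) (Fin 5) F)) :
    ∃ u : GL (Fin 5) F, (u : Matrix (Fin 5) (Fin 5) F) ∈ Set.range ι ∧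
      u ∈ GU 5 F 2 ⊓ specialLinear (Fin 5) F ∧ orderOf u = 11 ∧
      ∀ m : GL (Fin 5) F, (m : Matrix (Fin 5) (Fin 5) F) ∈ Set.range ι → m ^ 11 = 1 →
        m ∈ Subgroup.zpowers u :=
  @aux F _ _ _ hF K' hK'.toField _ ι hι hcard hst hsc

/-- `q = 2`: the normaliser of an adjoint-closed field of degree 5 is not maximal in `SU_5(2)` -/
theorem not_maximal (hF : Fintype.card F = 4) (K : Subalgebra F (Matrix (Fin 5) (Fin 5) F))
    (hK : IsFieldSubalgebra 5 K) (hadj : IsAdjointClosedFor (hermForm 5 F 2) K) :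
    ¬ IsMaximalIn (GU 5 F 2 ⊓ specialLinear (Fin 5) F)
      (subalgebraNormalizer K ⊓ (GU 5 F 2 ⊓ specialLinear (Fin 5) F)) := by
  intro hmax
  have : CharP F 2 := charP_of_card hF
  have h4 : ∀ x : F, x ^ 4 = x := by
    intro x
    rw [← hF]
    exact FiniteField.pow_card x
  have hFld : IsField K := by
    refine ⟨exists_pair_ne K, fun a b => Subtype.ext (hK.comm a a.2 b b.2), ?_⟩
    intro a ha
    obtain ⟨y, hy, hxy⟩ := hK.inv a a.2 (fun h => ha (Subtype.ext h))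
    exact ⟨⟨y, hy⟩, Subtype.ext hxy⟩
  have hcard : Nat.card K = 1024 := by
    rw [Module.natCard_eq_pow_finrank (K := F), Nat.card_eq_fintype_card, hK.finrank_eq, hF]
    norm_num
  obtain ⟨u, ⟨x, hx⟩, huG, hou, hu⟩ := aux' hF hFld K.val.toRingHom Subtype.val_injective hcard
    (fun z => ⟨⟨st z.1, st_mem h4 hadj z.2⟩, rfl⟩)
    (fun c => ⟨⟨c • 1, K.smul_mem K.one_mem c⟩, rfl⟩)
  have huK : (u : Matrix (Fin 5) (Fin 5) F) ∈ K := by
    rw [← hx]; exact x.2
  obtain ⟨M, hM1, hM2, hM3, d, hd, hd'⟩ := mainF hF u huG hou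
  have hnorm : ∀ h ∈ subalgebraNormalizer K, h * u * h⁻¹ ∈ Subgroup.zpowers u := by
    intro h hh
    apply hu
    · have := (hh (u : Matrix (Fin 5) (Fin 5) F)).mp huK
      exact ⟨⟨_, this⟩, by simp [Units.val_mul]⟩
    · rw [conj_pow, ← hou, pow_orderOf_eq_one]
      group
  have hle : subalgebraNormalizer K ⊓ (GU 5 F 2 ⊓ specialLinear (Fin 5) F) ≤ M :=
    fun h hh => hM3 h hh.2 (hnorm h hh.1)
  rcases hmax.2 M hle hM1 with h | h
  · rw [h] at hd
    exact hd' (hnorm d hd.1)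
  · exact hM2 h

end field

end Cfsg.Agent.Lib.Helper67SU5Two
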