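import Cfsg.Agent.Lib.LeadTwDefs3
import Cfsg.Agent.S0311

set_option autoImplicit false
set_option linter.unusedVariables false
set_option linter.unusedSectionVars false

/-! PROJECT 101 (TW-AUT), PART I : pieces E4, E5, I9, I15. -/

namespace Cfsg.Agent.Lib.Helper67TwE

open Subgroup Cfsg.Agent.Lib.Helper23Grp Cfsg.Agent.Lib.Helper23RG Cfsg.Agent.Lib.Helper23TG
  Cfsg.Agent.Lib.Helper23Tw Cfsg.Agent.Lib.Helper23Weyl Cfsg.Agent.Lib.LeadTwDefs

variable {𝔾 F R I R1 I1 : Type*} [Group 𝔾] [Field F] {S : RG 𝔾 F R I} {T : Tw S R1 I1}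
  (ok : S.Ok) (hT : T.Ok) (hBV : ∀ g ∈ S.B, g ∈ S.V → g = 1) (hUN : ∀ g ∈ S.U, g ∈ S.N → g = 1)
  (rep : I1 → I) (hrep : ∀ J, rep J ∈ T.orb J)

include ok hT hBV hUN hrep

/-- I9 (`Tw.prod_nE`, `Tw.hJ_eq`, `ev_calc`) -/
theorem coe_nh (J : I1)
    (h3 : ∀ a ∈ T.Adm (rep J), ∀ i ∈ T.orb J, ev T J (rep J) (-a⁻¹) i = -(ev T J (rep J) a i)⁻¹)
    (h4 : ∀ i ∈ T.orb J, ev T J (rep J) 1 i = 1) :
    (∀ a ∈ T.Adm (rep J), (((ta T rep).n J a : ↥T.G1) : 𝔾) =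
      ((T.orb J).map (fun i => S.nE (S.simple i) (ev T J (rep J) a i))).prod) ∧
    (((ta T rep).n J 1 : ↥T.G1) : 𝔾) = T.nJ J ∧
    (∀ a ∈ T.Adm (rep J), (((ta T rep).h J a : ↥T.G1) : 𝔾) = T.hJ J (ev T J (rep J) a)) := by
  have hA : ∀ a ∈ T.Adm (rep J), (((ta T rep).n J a : ↥T.G1) : 𝔾) =
      ((T.orb J).map (fun i => S.nE (S.simple i) (ev T J (rep J) a i))).prod := by
    intro a ha
    rw [Tw.prod_nE ok hT]
    change T.yy true J (ev T J (rep J) a) * T.yy false J (ev T J (rep J) (-a⁻¹)) *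
      T.yy true J (ev T J (rep J) a) = _
    rw [Tw.yy_congr false J (h3 a ha)]
  have h1 : (1 : F) ∈ T.Adm (rep J) := (AdmF T (rep J)).one_mem
  have hB : (((ta T rep).n J 1 : ↥T.G1) : 𝔾) = T.nJ J := by
    rw [hA 1 h1]
    unfold Tw.nJ
    congr 1
    apply List.map_congr_left
    intro i hi
    rw [h4 i hi]
    rfl
  refine ⟨hA, hB, ?_⟩
  intro a ha
  rw [Tw.hJ_eq ok hT, ← hA a ha, ← hB]
  rfl

/-- I15 -/
theorem ta_chi (hE : EvOk T rep)
    (h11 : ∀ (J J' : I1) (c : I → F), (∀ i ∈ T.orb J, c i ≠ 0) → T.Cmp J c →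
      T.Cmp J' (fun i' => ((T.orb J).map (fun i => c i ^ S.A i (S.simple i'))).prod)) :
    (∀ i j, ∀ a ∈ (ta T rep).A i, (ta T rep).χ i j a ∈ (ta T rep).A j) ∧
    (∀ i j, (ta T rep).χ i j 1 = 1) ∧
    (∀ i j, ∀ a ∈ (ta T rep).A i, ∀ b ∈ (ta T rep).A i, (ta T rep).χ i j (a * b) = (ta T rep).χ i j a * (ta T rep).χ i j b) := by
  refine ⟨?_, ?_, ?_⟩
  · intro J J' a ha
    by_cases h0 : a = 0
    · subst h0
      change ((T.orb J).map (fun i => (ev T J (rep J) 0 i) ^ (S.A i (S.simple (rep J'))))).prod ∈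
        AdmF T (rep J')
      apply list_prod_mem
      intro x hx
      obtain ⟨i, hi, rfl⟩ := List.mem_map.1 hx
      have hz : T.Cmp J (0 : I → F) := by
        intro i _
        simp
      have h5 := hE.eq J 0 hz i hi
      simp only [Pi.zero_apply] at h5
      rw [h5]
      exact zpow_mem (AdmF T (rep J')).zero_mem _
    · have h5 := h11 J J' (ev T J (rep J) a) (hE.ne J a ha h0) (ev_cmp T J (rep J) a)
      exact Tw.Cmp_mem_Adm ok hT h5 (hrep J')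
  · intro J J'
    change ((T.orb J).map (fun i => (ev T J (rep J) 1 i) ^ (S.A i (S.simple (rep J'))))).prod = 1
    apply List.prod_eq_one
    intro x hx
    obtain ⟨i, hi, rfl⟩ := List.mem_map.1 hx
    rw [hE.one J i hi, one_zpow]
  · intro J J' a ha b hb
    change ((T.orb J).map (fun i => (ev T J (rep J) (a * b) i) ^ (S.A i (S.simple (rep J'))))).prod =
      ((T.orb J).map (fun i => (ev T J (rep J) a i) ^ (S.A i (S.simple (rep J'))))).prod *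
      ((T.orb J).map (fun i => (ev T J (rep J) b i) ^ (S.A i (S.simple (rep J'))))).prod
    rw [← List.prod_map_mul]
    congr 1
    apply List.map_congr_left
    intro i hi
    rw [hE.mul J a ha b hb i hi, mul_zpow]

/-- E4 -/
theorem theta_acts [Finite F] (hE : EvOk T rep) (L : Subgroup 𝔾) (hGL : T.G1 ≤ L) (Θ : ↥L ≃* ↥L) (C : I → F) (σ : F ≃+* F)
    (hC0 : ∀ i, C i ≠ 0) (hC : ∀ i, C (T.ρI i) = T.φ (C i)) (hσ : ∀ t, σ (T.φ t) = T.φ (σ t))
    (h2 : ∀ (J : I1) (t : I → F),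
      (∀ h1 : T.yy true J t ∈ L, (Θ ⟨T.yy true J t, h1⟩ : 𝔾) = T.yy true J (fun i => C i * σ (t i))) ∧
      (∀ h2 : T.yy false J t ∈ L, (Θ ⟨T.yy false J t, h2⟩ : 𝔾) = T.yy false J (fun i => (C i)⁻¹ * σ (t i))))
    (θ : ↥T.G1 ≃* ↥T.G1) (hθ : ∀ m : ↥T.G1, (θ m : 𝔾) = Θ ⟨m.1, hGL m.2⟩) :
    (ta T rep).Acts θ (fun J a => C (rep J) * σ a) := by
  have cmp1 : ∀ (J : I1) (t : I → F), T.Cmp J t → T.Cmp J (fun i => C i * σ (t i)) := by
    intro J t ht i hi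
    simp only
    rw [hC, ht i hi, hσ, map_mul]
  have cmp2 : ∀ (J : I1) (t : I → F), T.Cmp J t → T.Cmp J (fun i => (C i)⁻¹ * σ (t i)) := by
    intro J t ht i hi
    simp only
    rw [hC, ht i hi, hσ, map_mul, map_inv₀]
  have hmem : ∀ j, ∀ a ∈ (ta T rep).A j, C (rep j) * σ a ∈ (ta T rep).A j := by
    intro J a ha
    have h5 : C (rep J) * σ (ev T J (rep J) a (rep J)) ∈ T.Adm (rep J) :=
      Tw.Cmp_mem_Adm ok hT (cmp1 J _ (ev_cmp T J (rep J) a)) (hrep J)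
    rw [hE.at_rep J a ha] at h5
    exact h5
  have hinj : ∀ j, ∀ a ∈ (ta T rep).A j, C (rep j) * σ a = 0 → a = 0 := by
    intro J a _ h
    rcases mul_eq_zero.1 h with h | h
    · exact absurd h (hC0 _)
    · exact (map_eq_zero_iff σ σ.injective).1 h
  refine ⟨hmem, ?_, ?_, ?_, hinj, ?_⟩
  · intro J a ha
    apply Subtype.ext
    rw [hθ]
    change (Θ ⟨T.yy true J (ev T J (rep J) a), _⟩ : 𝔾) = T.yy true J (ev T J (rep J) (C (rep J) * σ a))
    refine ((h2 J _).1 _).trans ?_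
    apply Tw.yy_congr
    intro i hi
    have h5 : ev T J (rep J) (C (rep J) * σ (ev T J (rep J) a (rep J))) i =
        C i * σ (ev T J (rep J) a i) := hE.eq J _ (cmp1 J _ (ev_cmp T J (rep J) a)) i hi
    rw [hE.at_rep J a ha] at h5
    exact h5.symm
  · intro J a ha h0
    apply Subtype.ext
    rw [hθ]
    change (Θ ⟨T.yy false J (ev T J (rep J) (-a⁻¹)), _⟩ : 𝔾) =
      T.yy false J (ev T J (rep J) (-(C (rep J) * σ a)⁻¹))
    refine ((h2 J _).2 _).trans ?_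
    apply Tw.yy_congr
    intro i hi
    have h5 : ev T J (rep J) ((C (rep J))⁻¹ * σ (ev T J (rep J) (-a⁻¹) (rep J))) i =
        (C i)⁻¹ * σ (ev T J (rep J) (-a⁻¹) i) :=
      hE.eq J _ (cmp2 J _ (ev_cmp T J (rep J) (-a⁻¹))) i hi
    have h6 : -a⁻¹ ∈ T.Adm (rep J) := (AdmF T (rep J)).neg_mem ((AdmF T (rep J)).inv_mem ha)
    rw [hE.at_rep J _ h6] at h5
    rw [← h5]
    congr 1
    rw [map_neg, map_inv₀, mul_inv]
    ring
  · intro J a _ b _
    rw [map_add, mul_add]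
  · intro J b hb
    let g : ↥((ta T rep).A J) → ↥((ta T rep).A J) := fun a => ⟨C (rep J) * σ a.1, hmem J a.1 a.2⟩
    have hg : Function.Injective g := by
      intro a a' h
      have h5 : C (rep J) * σ a.1 = C (rep J) * σ a'.1 := congrArg Subtype.val h
      have h6 := mul_left_cancel₀ (hC0 _) h5
      exact Subtype.ext (σ.injective h6)
    obtain ⟨a, ha⟩ := (Finite.injective_iff_surjective.1 hg) ⟨b, hb⟩
    exact ⟨a.1, a.2, congrArg Subtype.val ha⟩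

/-- E5 -/
theorem exists_C (hE : EvOk T rep) (hcov : ∀ i, ∃ J, i ∈ T.orb J) (c : I1 → F) (hc : ∀ J, c J ∈ T.Adm (rep J) ∧ c J ≠ 0) :
    ∃ C : I → F, (∀ i, C i ≠ 0) ∧ (∀ i, C (T.ρI i) = T.φ (C i)) ∧ ∀ J, C (rep J) = c J := by
  have huniq : ∀ (i : I) (J J' : I1), i ∈ T.orb J → i ∈ T.orb J' → J = J' := by
    intro i J J' h1 h2
    apply hT.simple_inj1
    rw [← (hT.cls_simple J (S.simple i)).2 ⟨i, h1, rfl⟩, ← (hT.cls_simple J' (S.simple i)).2 ⟨i, h2, rfl⟩]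
  choose Jof hJof using hcov
  refine ⟨fun i => ev T (Jof i) (rep (Jof i)) (c (Jof i)) i, ?_, ?_, ?_⟩
  · intro i
    exact hE.ne _ _ (hc _).1 (hc _).2 i (hJof i)
  · intro i
    have h1 : Jof (T.ρI i) = Jof i := huniq _ _ _ (hJof _) (Tw.ρI_mem ok hT (hJof i))
    simp only
    rw [h1]
    exact ev_cmp T _ _ _ i (hJof i)
  · intro J
    have h1 : Jof (rep J) = J := huniq _ _ _ (hJof _) (hrep J)
    simp only
    rw [h1]
    exact hE.at_rep J _ (hc J).1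

end Cfsg.Agent.Lib.Helper67TwE
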