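import Cfsg.Agent.Lib.Helper67UField

set_option autoImplicit false

/-! `SU_3(q)`: explicit data giving the certificate `Cert 3 E q 7` (normaliser of a subgroup of order 7 is not
maximal). -/

namespace Cfsg.Agent.Lib.Helper67U3Cert

open Cfsg Cfsg.Geo Matrix Cfsg.Agent.Lib.Helper13UDefs Cfsg.Agent.Lib.Helper67SU5Gen
  Cfsg.Agent.Lib.Helper67UField
open scoped MatrixGroups

/-- `3 × 3` matrices -/
abbrev M3 (E : Type*) := Matrix (Fin 3) (Fin 3) E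

/-- the coordinates of `M *ᵥ (x, y, z)` -/
def act {E : Type*} [Field E] (M : M3 E) (x y z : E) (i : Fin 3) : E := M i 0 * x + M i 1 * y + M i 2 * z

/-- the hermitian form in coordinates -/
def hf3 {E : Type*} [Field E] (q : ℕ) (x y z x' y' z' : E) : E := x * x' ^ q + y * y' ^ q + z * z' ^ q

/-- the determinant of the matrix with columns `a`, `b`, `c` -/
def det3 {E : Type*} [Field E] (a0 a1 a2 b0 b1 b2 c0 c1 c2 : E) : E :=
  a0 * b1 * c2 - a0 * c1 * b2 - b0 * a1 * c2 + b0 * c1 * a2 + c0 * a1 * b2 - c0 * b1 * a2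

/-- the explicit data -/
structure Dat (E : Type*) [Field E] (q : ℕ) where
  /-- powers of the element of order 7 -/
  Ap : Fin 7 → M3 E
  /-- powers of the element of order 3 -/
  Bp : Fin 3 → M3 E
  /-- an extra element -/
  Cm : M3 E
  /-- its inverse -/
  Ci : M3 E
  /-- an element outside -/
  Tm : M3 E
  /-- its inverse -/
  Ti : M3 E
  /-- cyclic basis -/
  Pm : M3 E
  /-- its inverse -/
  Pinv : M3 E
  /-- the invariant set -/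
  SS : E → E → E → Bool
  Ap_zero : Ap 0 = 1
  Ap_succ : ∀ k : Fin 6, Ap k.succ = Ap k.castSucc * Ap 1
  Ap_last : Ap 6 * Ap 1 = 1
  Ap_last' : Ap 1 * Ap 6 = 1
  Ap_one_ne : Ap 1 ≠ 1
  Ap_unitary : (Ap 1)ᵀ * (Ap 1).map (fun x => x ^ q) = 1
  Ap_det : (Ap 1).det = 1
  Bp_zero : Bp 0 = 1
  Bp_succ : ∀ k : Fin 2, Bp k.succ = Bp k.castSucc * Bp 1
  Bp_last : Bp 2 * Bp 1 = 1
  Bp_last' : Bp 1 * Bp 2 = 1
  Bp_unitary : (Bp 1)ᵀ * (Bp 1).map (fun x => x ^ q) = 1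
  Bp_det : (Bp 1).det = 1
  Cm_inv : Cm * Ci = 1
  Cm_inv' : Ci * Cm = 1
  Cm_unitary : Cmᵀ * Cm.map (fun x => x ^ q) = 1
  Cm_det : Cm.det = 1
  Tm_inv : Tm * Ti = 1
  Tm_inv' : Ti * Tm = 1
  Tm_unitary : Tmᵀ * Tm.map (fun x => x ^ q) = 1
  Tm_det : Tm.det = 1
  Pm_inv : Pm * Pinv = 1
  Pm_col : ∀ j i : Fin 3, Pm i j = Ap (Fin.castLE (by norm_num) j) i 0
  trace_Ap : ∀ k : Fin 7, (Ap k).trace = (Ap 1).trace → ∃ j : Fin 3, Bp j * Ap 1 = Ap k * Bp j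
  Cm_not : (Cm * Ap 1 * Ci) * Ap 1 ≠ Ap 1 * (Cm * Ap 1 * Ci)
  SS_A : ∀ x y z, SS (act (Ap 1) x y z 0) (act (Ap 1) x y z 1) (act (Ap 1) x y z 2) = SS x y z
  SS_B : ∀ x y z, SS (act (Bp 1) x y z 0) (act (Bp 1) x y z 1) (act (Bp 1) x y z 2) = SS x y z
  SS_C : ∀ x y z, SS (act Cm x y z 0) (act Cm x y z 1) (act Cm x y z 2) = SS x y z
  SS_T : ∃ x y z, SS (act Tm x y z 0) (act Tm x y z 1) (act Tm x y z 2) ≠ SS x y z
  SS_s : ∀ s : E, s ^ 3 = 1 → ∀ x y z, SS (s * x) (s * y) (s * z) = SS x y z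
  brute : ∀ x y z : E, hf3 q x y z x y z = 1 →
    hf3 q x y z (act (Ap 1) x y z 0) (act (Ap 1) x y z 1) (act (Ap 1) x y z 2) = (Ap 1 0 0) ^ q →
    hf3 q x y z (act (Ap 2) x y z 0) (act (Ap 2) x y z 1) (act (Ap 2) x y z 2) = (Ap 2 0 0) ^ q →
    det3 x y z (act (Ap 1) x y z 0) (act (Ap 1) x y z 1) (act (Ap 1) x y z 2)
      (act (Ap 2) x y z 0) (act (Ap 2) x y z 1) (act (Ap 2) x y z 2) =
      det3 (Pm 0 0) (Pm 1 0) (Pm 2 0) (Pm 0 1) (Pm 1 1) (Pm 2 1) (Pm 0 2) (Pm 1 2) (Pm 2 2) →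
    ∃ (s : E) (i : Fin 7), x = s * Ap i 0 0 ∧ y = s * Ap i 1 0 ∧ z = s * Ap i 2 0

variable {E : Type*} [Field E] {q : ℕ} (D : Dat E q)

lemma mulVec_apply (M : M3 E) (v : Fin 3 → E) (i : Fin 3) : (M *ᵥ v) i = act M (v 0) (v 1) (v 2) i := by
  simp [Matrix.mulVec, dotProduct, Fin.sum_univ_three, act]

/-- `SU_3(q)` -/
def GG (E : Type*) [Field E] (q : ℕ) : Subgroup (GL (Fin 3) E) := GU 3 E q ⊓ specialLinear (Fin 3) E

namespace Dat

/-- element of order 7 -/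
def a : GL (Fin 3) E := ⟨D.Ap 1, D.Ap 6, D.Ap_last', D.Ap_last⟩
/-- element of order 3 -/
def b : GL (Fin 3) E := ⟨D.Bp 1, D.Bp 2, D.Bp_last', D.Bp_last⟩
/-- the extra element -/
def c : GL (Fin 3) E := ⟨D.Cm, D.Ci, D.Cm_inv, D.Cm_inv'⟩
/-- an element outside -/
def t : GL (Fin 3) E := ⟨D.Tm, D.Ti, D.Tm_inv, D.Tm_inv'⟩

lemma Ap_eq_pow (k : ℕ) (hk : k < 7) : D.Ap ⟨k, hk⟩ = (D.Ap 1) ^ k := by
  induction k with
  | zero => rw [pow_zero]; exact D.Ap_zero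
  | succ k ih =>
    have h1 := D.Ap_succ ⟨k, by omega⟩
    rw [pow_succ, ← ih (by omega)]
    exact h1

lemma Bp_eq_pow (k : ℕ) (hk : k < 3) : D.Bp ⟨k, hk⟩ = (D.Bp 1) ^ k := by
  induction k with
  | zero => rw [pow_zero]; exact D.Bp_zero
  | succ k ih =>
    have h1 := D.Bp_succ ⟨k, by omega⟩
    rw [pow_succ, ← ih (by omega)]
    exact h1

lemma a_pow_val (k : Fin 7) : ((D.a ^ (k : ℕ) : GL (Fin 3) E) : M3 E) = D.Ap k := by
  rw [Units.val_pow_eq_pow_val]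
  exact (D.Ap_eq_pow k k.2).symm

lemma b_pow_val (k : Fin 3) : ((D.b ^ (k : ℕ) : GL (Fin 3) E) : M3 E) = D.Bp k := by
  rw [Units.val_pow_eq_pow_val]
  exact (D.Bp_eq_pow k k.2).symm

lemma a_pow_seven : D.a ^ 7 = 1 := by
  apply Units.ext
  rw [pow_succ, Units.val_mul]
  have h := D.a_pow_val 6
  rw [show ((6 : Fin 7) : ℕ) = 6 from rfl] at h
  rw [h]
  exact D.Ap_last

lemma orderOf_a : orderOf D.a = 7 := by
  have : Fact (Nat.Prime 7) := ⟨by norm_num⟩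
  apply orderOf_eq_prime D.a_pow_seven
  intro h
  exact D.Ap_one_ne (congrArg Units.val h)

/-- membership in the invariant set -/
def SSv (v : Fin 3 → E) : Bool := D.SS (v 0) (v 1) (v 2)

lemma SSv_mulVec {M : M3 E}
    (h : ∀ x y z, D.SS (act M x y z 0) (act M x y z 1) (act M x y z 2) = D.SS x y z) (v : Fin 3 → E) :
    D.SSv (M *ᵥ v) = D.SSv v := by
  unfold SSv
  rw [mulVec_apply, mulVec_apply, mulVec_apply]
  exact h _ _ _

/-- the stabiliser of the invariant set -/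
def X0 : Subgroup (GL (Fin 3) E) where
  carrier := {g | g ∈ GG E q ∧ ∀ v, D.SSv ((g : M3 E) *ᵥ v) = D.SSv v}
  mul_mem' := by
    rintro x y ⟨hx, hx'⟩ ⟨hy, hy'⟩
    refine ⟨(GG E q).mul_mem hx hy, fun v => ?_⟩
    rw [Units.val_mul, ← mulVec_mulVec, hx', hy']
  one_mem' := ⟨(GG E q).one_mem, fun v => by simp⟩
  inv_mem' := by
    rintro x ⟨hx, hx'⟩
    refine ⟨(GG E q).inv_mem hx, fun v => ?_⟩
    rw [← hx', mulVec_mulVec, ← Units.val_mul, mul_inv_cancel, Units.val_one, one_mulVec]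

section
variable [Fintype E] (hE : Fintype.card E = q ^ 2)
include hE

lemma mem_GG {g : GL (Fin 3) E} (h1 : (g : M3 E)ᵀ * (g : M3 E).map (fun x => x ^ q) = 1)
    (h2 : (g : M3 E).det = 1) : g ∈ GG E q := by
  obtain ⟨σ, hU⟩ := Cfsg.Agent.Lib.Helper57UConv.exists_US (n := 3) hE
  refine ⟨(mem_GU_iff' hU.pow g).mpr ?_, (mem_SL_iff g).mpr h2⟩
  have : (g : M3 E).map σ = (g : M3 E).map (fun x => x ^ q) := by
    ext i j
    exact hU.pow _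
  rw [this]
  exact h1

lemma a_mem : D.a ∈ GG E q := mem_GG hE D.Ap_unitary D.Ap_det
lemma b_mem : D.b ∈ GG E q := mem_GG hE D.Bp_unitary D.Bp_det
lemma c_mem : D.c ∈ GG E q := mem_GG hE D.Cm_unitary D.Cm_det
lemma t_mem : D.t ∈ GG E q := mem_GG hE D.Tm_unitary D.Tm_det

lemma a_mem_X0 : D.a ∈ D.X0 := ⟨D.a_mem hE, D.SSv_mulVec D.SS_A⟩
lemma b_mem_X0 : D.b ∈ D.X0 := ⟨D.b_mem hE, D.SSv_mulVec D.SS_B⟩
lemma c_mem_X0 : D.c ∈ D.X0 := ⟨D.c_mem hE, D.SSv_mulVec D.SS_C⟩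

end

lemma t_not_mem_X0 : D.t ∉ D.X0 := by
  rintro ⟨-, h⟩
  obtain ⟨x, y, z, hx⟩ := D.SS_T
  apply hx
  have := h ![x, y, z]
  unfold SSv at this
  rw [mulVec_apply, mulVec_apply, mulVec_apply] at this
  exact this

lemma herm_eq_hf (u v : Fin 3 → E) :
    hermForm 3 E q u v = hf3 q (u 0) (u 1) (u 2) (v 0) (v 1) (v 2) := by
  unfold hermForm hf3
  rw [Fin.sum_univ_three]

lemma comm_Ap {Z : M3 E} (hZ : Z * D.Ap 1 = D.Ap 1 * Z) (k : Fin 7) : Z * D.Ap k = D.Ap k * Z := by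
  have h1 : Commute Z (D.Ap 1) := hZ
  have h2 := h1.pow_right (k : ℕ)
  rw [← D.Ap_eq_pow k k.2] at h2
  exact h2

/-- first basis vector -/
def e0 : Fin 3 → E := ![1, 0, 0]

lemma mulVec_e0 (M : M3 E) (i : Fin 3) : (M *ᵥ (e0 : Fin 3 → E)) i = M i 0 := by
  rw [mulVec_apply]
  simp [act, e0]

lemma det_eq_det3 (M : M3 E) : M.det =
    det3 (M 0 0) (M 1 0) (M 2 0) (M 0 1) (M 1 1) (M 2 1) (M 0 2) (M 1 2) (M 2 2) := by
  rw [Matrix.det_fin_three]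
  rfl

lemma mul_Pm (Z : M3 E) (i j : Fin 3) :
    (Z * D.Pm) i j = (Z *ᵥ (D.Ap (Fin.castLE (by norm_num) j) *ᵥ e0)) i := by
  rw [Matrix.mul_apply]
  simp only [Matrix.mulVec, dotProduct]
  exact Finset.sum_congr rfl fun l _ => by
    rw [D.Pm_col j l]
    exact congrArg _ (mulVec_e0 _ l).symm

lemma mul_Pm' {Z : M3 E} (hZ : Z * D.Ap 1 = D.Ap 1 * Z) (i j : Fin 3) :
    (Z * D.Pm) i j = (D.Ap (Fin.castLE (by norm_num) j) *ᵥ (Z *ᵥ e0)) i := by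
  rw [mul_Pm, mulVec_mulVec, D.comm_Ap hZ, ← mulVec_mulVec]

/-- `e0` is a cyclic vector -/
lemma cyc {Z : M3 E} (hZ : Z * D.Ap 1 = D.Ap 1 * Z) (h0 : Z *ᵥ (e0 : Fin 3 → E) = 0) : Z = 0 := by
  have h1 : Z * D.Pm = 0 := by
    ext i j
    rw [D.mul_Pm' hZ, h0, mulVec_zero]
    rfl
  calc Z = Z * (D.Pm * D.Pinv) := by rw [D.Pm_inv, mul_one]
    _ = 0 := by rw [← mul_assoc, h1, zero_mul]

section
variable [Fintype E] (hE : Fintype.card E = q ^ 2)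
include hE

/-- the centraliser of `a` in `SU_3(q)` -/
lemma comm_mem {x : GL (Fin 3) E} (hx : x ∈ GG E q) (hc : x * D.a = D.a * x) : x ∈ D.X0 := by
  have hXA : (x : M3 E) * D.Ap 1 = D.Ap 1 * (x : M3 E) := congrArg Units.val hc
  have hU : ∀ u v, hermForm 3 E q ((x : M3 E) *ᵥ u) ((x : M3 E) *ᵥ v) = hermForm 3 E q u v :=
    fun u v => hx.1 u v
  have hq : q ≠ 0 := by
    rintro rfl
    have h1 : 1 < Fintype.card E := Fintype.one_lt_card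
    omega
  have hcond : ∀ k : Fin 7, hermForm 3 E q ((x : M3 E) *ᵥ e0) (D.Ap k *ᵥ ((x : M3 E) *ᵥ e0)) =
      (D.Ap k 0 0) ^ q := by
    intro k
    rw [mulVec_mulVec, ← D.comm_Ap hXA, ← mulVec_mulVec, hU, herm_eq_hf, mulVec_e0]
    simp [hf3, e0]
  obtain ⟨s, i, hs0, hs1, hs2⟩ : ∃ (s : E) (i : Fin 7), ((x : M3 E) *ᵥ e0) 0 = s * D.Ap i 0 0 ∧
      ((x : M3 E) *ᵥ e0) 1 = s * D.Ap i 1 0 ∧ ((x : M3 E) *ᵥ e0) 2 = s * D.Ap i 2 0 := by
    have h0 := hU e0 e0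
    have h1 := hcond 1
    have h2 := hcond 2
    rw [herm_eq_hf] at h0 h1 h2
    rw [mulVec_apply (D.Ap 1), mulVec_apply (D.Ap 1), mulVec_apply (D.Ap 1)] at h1
    rw [mulVec_apply (D.Ap 2), mulVec_apply (D.Ap 2), mulVec_apply (D.Ap 2)] at h2
    apply D.brute _ _ _ _ h1 h2
    · have hd : ((x : M3 E) * D.Pm).det = D.Pm.det := by
        rw [Matrix.det_mul, (mem_SL_iff x).mp hx.2, one_mul]
      rw [det_eq_det3, det_eq_det3 D.Pm] at hd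
      rw [← hd]
      have e0' : ∀ i, ((x : M3 E) * D.Pm) i 0 = ((x : M3 E) *ᵥ e0) i := by
        intro i
        rw [D.mul_Pm' hXA]
        show (D.Ap 0 *ᵥ _) i = _
        rw [D.Ap_zero, one_mulVec]
      have e1' : ∀ i, ((x : M3 E) * D.Pm) i 1 =
          act (D.Ap 1) (((x : M3 E) *ᵥ e0) 0) (((x : M3 E) *ᵥ e0) 1) (((x : M3 E) *ᵥ e0) 2) i := by
        intro i
        rw [D.mul_Pm' hXA, mulVec_apply (D.Ap _)]
        rfl
      have e2' : ∀ i, ((x : M3 E) * D.Pm) i 2 =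
          act (D.Ap 2) (((x : M3 E) *ᵥ e0) 0) (((x : M3 E) *ᵥ e0) 1) (((x : M3 E) *ᵥ e0) 2) i := by
        intro i
        rw [D.mul_Pm' hXA, mulVec_apply (D.Ap _)]
        rfl
      simp only [e0', e1', e2']
    · rw [h0, herm_eq_hf]
      simp [hf3, e0, hq]
  have hs : (x : M3 E) *ᵥ e0 = s • (D.Ap i *ᵥ e0) := by
    funext j
    rw [Pi.smul_apply, mulVec_e0 (D.Ap i), smul_eq_mul]
    fin_cases j
    · exact hs0
    · exact hs1
    · exact hs2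
  have hZ : (x : M3 E) - s • D.Ap i = 0 := by
    apply D.cyc
    · rw [sub_mul, mul_sub, hXA, smul_mul_assoc, mul_smul_comm, D.comm_Ap rfl]
    · rw [sub_mulVec, hs, smul_mulVec, sub_self]
  have hX : (x : M3 E) = s • D.Ap i := sub_eq_zero.mp hZ
  have hdet : (x : M3 E).det = 1 := (mem_SL_iff x).mp hx.2
  have hai : D.a ^ (i : ℕ) ∈ D.X0 := D.X0.pow_mem (D.a_mem_X0 hE) _
  have hdetA : (D.Ap i).det = 1 := by
    rw [← D.a_pow_val]
    exact (mem_SL_iff _).mp hai.1.2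
  rw [hX, Matrix.det_smul, hdetA, mul_one, Fintype.card_fin] at hdet
  refine ⟨hx, fun v => ?_⟩
  rw [hX, smul_mulVec, ← hai.2 v, D.a_pow_val]
  exact D.SS_s s hdet _ _ _

/-- the normaliser of `⟨a⟩` stabilises the invariant set -/
lemma norm_mem {h : GL (Fin 3) E} (hh : h ∈ GG E q) (hn : h * D.a * h⁻¹ ∈ Subgroup.zpowers D.a) :
    h ∈ D.X0 := by
  classical
  rw [← mem_powers_iff_mem_zpowers, Submonoid.mem_powers_iff] at hn
  obtain ⟨m, hm⟩ := hn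
  rw [← pow_mod_orderOf, D.orderOf_a] at hm
  obtain ⟨k, hk⟩ : ∃ k : Fin 7, (k : ℕ) = m % 7 := ⟨⟨m % 7, Nat.mod_lt _ (by norm_num)⟩, rfl⟩
  rw [← hk] at hm
  have htr : (D.Ap k).trace = (D.Ap 1).trace := by
    rw [← D.a_pow_val, hm, Units.val_mul, Units.val_mul]
    exact Matrix.trace_units_conj h (D.Ap 1)
  obtain ⟨j, hj⟩ := D.trace_Ap k htr
  have hj' : D.b ^ (j : ℕ) * D.a = D.a ^ (k : ℕ) * D.b ^ (j : ℕ) := by
    apply Units.ext
    rw [Units.val_mul, Units.val_mul, D.b_pow_val, D.a_pow_val]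
    exact hj
  have hha : h * D.a = D.a ^ (k : ℕ) * h := by
    rw [hm]; group
  have hx' : (D.b ^ (j : ℕ))⁻¹ * h ∈ D.X0 := by
    apply D.comm_mem hE ((GG E q).mul_mem ((GG E q).inv_mem ((GG E q).pow_mem (D.b_mem hE) _)) hh)
    have h1 : (D.b ^ (j : ℕ))⁻¹ * D.a ^ (k : ℕ) = D.a * (D.b ^ (j : ℕ))⁻¹ := by
      rw [inv_mul_eq_iff_eq_mul, ← mul_assoc, hj', mul_assoc, mul_inv_cancel, mul_one]
    rw [mul_assoc, hha, ← mul_assoc, h1, mul_assoc]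
  have := D.X0.mul_mem (D.X0.pow_mem (D.b_mem_X0 hE) (j : ℕ)) hx'
  rwa [mul_inv_cancel_left] at this

end

lemma c_not : D.c * D.a * D.c⁻¹ ∉ Subgroup.zpowers D.a := by
  intro h
  obtain ⟨z, hz⟩ := Subgroup.mem_zpowers_iff.mp h
  have h1 : (D.c * D.a * D.c⁻¹) * D.a = D.a * (D.c * D.a * D.c⁻¹) := by
    rw [← hz, ← _root_.zpow_add_one, ← _root_.zpow_one_add, add_comm]
  exact D.Cm_not (congrArg Units.val h1)

/-- the data give a certificate -/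
theorem cert (D : Dat E q) [Fintype E] (hE : Fintype.card E = q ^ 2) (h49 : ¬ 7 ^ 2 ∣ Nat.card (GL (Fin 3) E)) :
    Cert 3 E q 7 := by
  classical
  intro u hu ho
  have : Fact (Nat.Prime 7) := ⟨by norm_num⟩
  have hG : ¬ 7 ^ 2 ∣ Nat.card (GG E q) := fun h => h49 (h.trans (Subgroup.card_subgroup_dvd_card _))
  obtain ⟨g, hg, hconj⟩ := sylow_conj (GG E q) 7 hG (Subgroup.zpowers u) (Subgroup.zpowers D.a)
    (Subgroup.zpowers_le.mpr hu) (Subgroup.zpowers_le.mpr (D.a_mem hE))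
    (by rw [Nat.card_zpowers, ho]) (by rw [Nat.card_zpowers, D.orderOf_a])
  have hnorm : ∀ h : GL (Fin 3) E, h * u * h⁻¹ ∈ Subgroup.zpowers u →
      ∀ x ∈ Subgroup.zpowers u, h * x * h⁻¹ ∈ Subgroup.zpowers u := by
    intro h hh x hx
    obtain ⟨z, rfl⟩ := Subgroup.mem_zpowers_iff.mp hx
    rw [← conj_zpow]
    exact Subgroup.zpow_mem _ hh z
  have haP : g * D.a * g⁻¹ ∈ Subgroup.zpowers u := by
    rw [hconj]
    have : g⁻¹ * (g * D.a * g⁻¹) * g = D.a := by group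
    rw [this]
    exact Subgroup.mem_zpowers D.a
  refine ⟨D.X0.comap (MulAut.conj g⁻¹).toMonoidHom, ?_, ?_, ?_, ?_⟩
  · intro m hm
    have h1 : g⁻¹ * m * g ∈ D.X0 := by simpa using hm
    have h2 := (GG E q).mul_mem ((GG E q).mul_mem hg h1.1) ((GG E q).inv_mem hg)
    have h3 : g * (g⁻¹ * m * g) * g⁻¹ = m := by group
    rwa [h3] at h2
  · intro hM
    have h1 : g * D.t * g⁻¹ ∈ GG E q :=
      (GG E q).mul_mem ((GG E q).mul_mem hg (D.t_mem hE)) ((GG E q).inv_mem hg)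
    have h1' : g * D.t * g⁻¹ ∈ D.X0.comap (MulAut.conj g⁻¹).toMonoidHom := by
      rw [hM]; exact h1
    have h2 : g⁻¹ * (g * D.t * g⁻¹) * g ∈ D.X0 := by simpa using h1'
    have h3 : g⁻¹ * (g * D.t * g⁻¹) * g = D.t := by group
    rw [h3] at h2
    exact D.t_not_mem_X0 h2
  · intro h hh hn
    have h1 : g⁻¹ * h * g ∈ D.X0 := by
      apply D.norm_mem hE ((GG E q).mul_mem ((GG E q).mul_mem ((GG E q).inv_mem hg) hh) hg)
      have h2 := hnorm h hn _ haP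
      rw [hconj] at h2
      have h3 : g⁻¹ * (h * (g * D.a * g⁻¹) * h⁻¹) * g = g⁻¹ * h * g * D.a * (g⁻¹ * h * g)⁻¹ := by group
      rwa [h3] at h2
    simpa using h1
  · refine ⟨g * D.c * g⁻¹, ?_, ?_⟩
    · have h3 : g⁻¹ * (g * D.c * g⁻¹) * g = D.c := by group
      have : g⁻¹ * (g * D.c * g⁻¹) * g ∈ D.X0 := by rw [h3]; exact D.c_mem_X0 hE
      simpa using this
    · intro hn
      have h2 := hnorm _ hn _ haP
      rw [hconj] at h2
      have h3 : g⁻¹ * (g * D.c * g⁻¹ * (g * D.a * g⁻¹) * (g * D.c * g⁻¹)⁻¹) * g = D.c * D.a * D.c⁻¹ := by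
        group
      rw [h3] at h2
      exact D.c_not h2

end Dat

end Cfsg.Agent.Lib.Helper67U3Cert
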