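import Cfsg.Prelude
import Cfsg.Agent.Lib.Helper66PLen

set_option autoImplicit false
open Cfsg Subgroup

namespace Cfsg.Agent.Lib.Helper68BG36bridge
open Cfsg.Agent.Lib.Helper66PLen

/-- piece `bridge` -/
theorem bridge {G : Type*} [Group G] [Finite G] (p : ℕ) [Fact p.Prime] (H W X : Subgroup G)
    (hW : H ≤ normalizer (W : Set G)) (hX : H ≤ normalizer (X : Set G)) (hWX : W ≤ X) (hXH : X ≤ H)
    (h1 : (Nat.card W).Coprime p) (h2 : ∃ m : ℕ, W.relIndex X = p ^ m)
    (h3 : (X.relIndex H).Coprime p) : PLengthLE p 1 ↥H := by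
  have nW : (W.subgroupOf H).Normal := Subgroup.normal_subgroupOf_iff_le_normalizer (hWX.trans hXH) |>.mpr hW
  have nX : (X.subgroupOf H).Normal := Subgroup.normal_subgroupOf_iff_le_normalizer hXH |>.mpr hX
  apply pLengthLE_of_len
  refine ⟨W.subgroupOf H, X.subgroupOf H, ⟨inferInstance, nW, bot_le, ?_⟩,
    ⟨nW, nX, Subgroup.comap_mono hWX, ?_⟩, ⟨nX, inferInstance, le_top, ?_⟩⟩
  · rw [Subgroup.relIndex_bot_left,
      Nat.card_congr (Subgroup.subgroupOfEquivOfLe (hWX.trans hXH)).toEquiv]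
    exact h1
  · obtain ⟨m, hm⟩ := h2
    exact ⟨m, by rw [Subgroup.relIndex_subgroupOf hXH]; exact hm⟩
  · rw [Subgroup.relIndex_top_right]
    exact h3

end Cfsg.Agent.Lib.Helper68BG36bridge
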