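import Cfsg.Prelude

set_option autoImplicit false
open Cfsg Subgroup

namespace Cfsg.Agent.Lib.Helper68BG36dichotomy

theorem mem_zpowers_of_cyclic {C : Type*} [Group C] [Finite C] [IsCyclic C] {p : ℕ}
    (hp : p.Prime) {a b : C} (ha : orderOf a = p) (hb : b ^ p = 1) : b ∈ Subgroup.zpowers a := by
  classical
  haveI := Fintype.ofFinite C
  have hF := IsCyclic.card_pow_eq_one_le (α := C) hp.pos
  have hZ : ((Finset.range p).image (fun i => a ^ i)).card = p := by
    rw [Finset.card_image_of_injOn, Finset.card_range]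
    intro i hi j hj hij
    have hi' : i < orderOf a := by rw [ha]; exact Finset.mem_range.mp hi
    have hj' : j < orderOf a := by rw [ha]; exact Finset.mem_range.mp hj
    exact pow_injOn_Iio_orderOf hi' hj' hij
  have hsub : (Finset.range p).image (fun i => a ^ i) ⊆
      Finset.univ.filter (fun x : C => x ^ p = 1) := by
    intro x hx
    obtain ⟨i, -, rfl⟩ := Finset.mem_image.mp hx
    rw [Finset.mem_filter]
    refine ⟨Finset.mem_univ _, ?_⟩
    rw [← pow_mul, mul_comm, pow_mul, ← ha, pow_orderOf_eq_one, one_pow]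
  have heq := Finset.eq_of_subset_of_card_le hsub (by rw [hZ]; exact hF)
  have hbF : b ∈ Finset.univ.filter (fun x : C => x ^ p = 1) := by
    rw [Finset.mem_filter]; exact ⟨Finset.mem_univ _, hb⟩
  rw [← heq] at hbF
  obtain ⟨i, -, rfl⟩ := Finset.mem_image.mp hbF
  exact Subgroup.npow_mem_zpowers a i

theorem exists_order_p {G : Type*} [Group G] [Finite G] {p : ℕ} [Fact p.Prime] {A : Subgroup G}
    (hA : IsPGroup p A) (hA1 : A ≠ ⊥) : ∃ a ∈ A, orderOf a = p := by
  have hp : p.Prime := Fact.out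
  obtain ⟨n, hn⟩ := hA.exists_card_eq
  have hn0 : n ≠ 0 := by
    rintro rfl
    rw [pow_zero] at hn
    exact hA1 (Subgroup.card_eq_one.mp hn)
  have hdvd : p ∣ Nat.card A := by rw [hn]; exact dvd_pow_self p hn0
  obtain ⟨x, hx⟩ := exists_prime_orderOf_dvd_card' p hdvd
  exact ⟨x.1, x.2, by rw [← hx]; exact (Subgroup.orderOf_coe x)⟩

/-- piece `dichotomy` -/
theorem dichotomy {G : Type*} [Group G] [Finite G] (p : ℕ) [Fact p.Prime]
    (H V S R₀ : Subgroup G) [V.Normal] (hVH : V ≤ H) (hSH : S ≤ H) (hV : IsPGroup p V)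
    (hS : IsPGroup p S) (hVS : V ⊓ S = ⊥) (hZ : IsZGroup ↥(H ⊓ centralizer (R₀ : Set G))) :
    V ⊓ centralizer (R₀ : Set G) = ⊥ ∨ S ⊓ centralizer (R₀ : Set G) = ⊥ := by
  have hp : p.Prime := Fact.out
  by_contra hcon
  push_neg at hcon
  obtain ⟨hA1, hB1⟩ := hcon
  have hT : IsPGroup p (V ⊔ S : Subgroup G) := IsPGroup.to_sup_of_normal_left hV hS
  set C : Subgroup G := (V ⊔ S) ⊓ centralizer (R₀ : Set G) with hC
  have hle : C ≤ H ⊓ centralizer (R₀ : Set G) := inf_le_inf_right _ (sup_le hVH hSH)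
  have hCp : IsPGroup p C := hT.to_le inf_le_left
  have hZ' : IsZGroup ↥C :=
    IsZGroup.of_injective (f := Subgroup.inclusion hle) (Subgroup.inclusion_injective hle)
  have hcyc : IsCyclic ↥C := by
    have h1 : IsPGroup p (⊤ : Subgroup ↥C) := hCp.to_subgroup ⊤
    have h2 := IsPGroup.isCyclic_of_isZGroup h1
    exact isCyclic_of_surjective (Subgroup.topEquiv : (⊤ : Subgroup ↥C) ≃* _)
      (Subgroup.topEquiv).surjective
  obtain ⟨a, haA, ha⟩ := exists_order_p (hV.to_le (inf_le_left : V ⊓ centralizer (R₀ : Set G) ≤ V)) hA1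
  obtain ⟨b, hbB, hb⟩ := exists_order_p (hS.to_le (inf_le_left : S ⊓ centralizer (R₀ : Set G) ≤ S)) hB1
  have haC : a ∈ C := ⟨le_sup_left (a := V) haA.1, haA.2⟩
  have hbC : b ∈ C := ⟨le_sup_right (b := S) hbB.1, hbB.2⟩
  have h := mem_zpowers_of_cyclic (C := ↥C) hp (a := ⟨a, haC⟩) (b := ⟨b, hbC⟩)
    (by rw [← ha]; exact (Subgroup.orderOf_mk a haC))
    (by apply Subtype.ext; show b ^ p = 1; rw [← hb]; exact pow_orderOf_eq_one b)
  obtain ⟨k, hk⟩ := Subgroup.mem_zpowers_iff.mp h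
  have hk' : a ^ k = b := congrArg Subtype.val hk
  have hbV : b ∈ V := by rw [← hk']; exact V.zpow_mem haA.1 k
  have : b ∈ V ⊓ S := ⟨hbV, hbB.1⟩
  rw [hVS, Subgroup.mem_bot] at this
  rw [this, orderOf_one] at hb
  exact hp.one_lt.ne hb

end Cfsg.Agent.Lib.Helper68BG36dichotomy
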