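import Cfsg.Prelude
import Cfsg.Agent.S0023
import Cfsg.Agent.Lib.Helper66PLen

set_option autoImplicit false
open Cfsg Subgroup

namespace Cfsg.Agent.Lib.Helper68BG36existsS

/-- piece `existsS`: an `R`-invariant Sylow `p`-subgroup of `X ⊓ N(U)`. -/
theorem existsS {G : Type*} [Group G] [Finite G] [Group.IsSolvable G] (p : ℕ) [Fact p.Prime]
    (V W X U R : Subgroup G) [V.Normal] [W.Normal] [X.Normal] (hWX : W ≤ X)
    (hVU : V ⊓ U = ⊥) (hVUW : V ⊔ U = W) (hVN : V ⊔ normalizer (U : Set G) = ⊤)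
    (hXW : ∃ m : ℕ, W.relIndex X = p ^ m) (hRU : R ≤ normalizer (U : Set G))
    (hcop : (Nat.card R).Coprime (Nat.card X)) :
    ∃ S : Subgroup G, S ≤ X ∧ S ≤ normalizer (U : Set G) ∧ IsPGroup p S ∧
      R ≤ normalizer (S : Set G) ∧ W ⊔ S = X := by
  have hp : p.Prime := Fact.out
  set X₀ : Subgroup G := X ⊓ normalizer (U : Set G) with hX₀
  have hVW : V ≤ W := by rw [← hVUW]; exact le_sup_left
  have hRX₀ : R ≤ normalizer (X₀ : Set G) := by
    intro r hr
    have h1 : r ∈ normalizer ((normalizer (U : Set G) : Subgroup G) : Set G) :=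
      Subgroup.le_normalizer (hRU hr)
    rw [Subgroup.mem_normalizer_iff] at h1 ⊢
    intro h
    rw [hX₀, Subgroup.mem_inf, Subgroup.mem_inf, ← h1 h]
    have : h ∈ X ↔ r * h * r⁻¹ ∈ X := by
      constructor
      · intro hh; exact ‹X.Normal›.conj_mem h hh r
      · intro hh
        have := ‹X.Normal›.conj_mem _ hh r⁻¹
        simpa [mul_assoc] using this
    rw [this]
  obtain ⟨P, hP⟩ := Cfsg.Agent.S0023.result R X₀ hRX₀
    (Nat.Coprime.coprime_dvd_right (Subgroup.card_dvd_of_le inf_le_left) hcop)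
    (Or.inl inferInstance) p
  have hSX₀ : (P : Subgroup X₀).map X₀.subtype ≤ X₀ := Subgroup.map_subtype_le _
  refine ⟨(P : Subgroup X₀).map X₀.subtype, hSX₀.trans inf_le_left, hSX₀.trans inf_le_right,
    P.2.map _, hP, ?_⟩
  apply le_antisymm (sup_le hWX (hSX₀.trans inf_le_left))
  have hX₀le : X₀ ≤ W ⊔ (P : Subgroup X₀).map X₀.subtype := by
    rw [← Subgroup.relIndex_eq_one]
    obtain ⟨m, hm⟩ := hXW
    have d1 : (W ⊔ (P : Subgroup X₀).map X₀.subtype).relIndex X₀ ∣ p ^ m := by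
      rw [← hm]
      exact (Subgroup.relIndex_dvd_of_le_left X₀ le_sup_left).trans
        (Cfsg.Agent.Lib.Helper66PLen.relIndex_dvd_of_le_right inf_le_left)
    have d2 : (W ⊔ (P : Subgroup X₀).map X₀.subtype).relIndex X₀ ∣ (P : Subgroup X₀).index := by
      have e : ((P : Subgroup X₀).map X₀.subtype).relIndex X₀ = (P : Subgroup X₀).index := by
        rw [Subgroup.relIndex, Subgroup.subgroupOf,
          Subgroup.comap_map_eq_self_of_injective X₀.subtype_injective]
      rw [← e]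
      exact Subgroup.relIndex_dvd_of_le_left X₀ le_sup_right
    obtain ⟨j, -, hj⟩ := (Nat.dvd_prime_pow hp).mp d1
    rcases Nat.eq_zero_or_pos j with rfl | hj0
    · rw [hj, pow_zero]
    · exfalso
      apply P.not_dvd_index
      refine dvd_trans ?_ d2
      rw [hj]
      exact dvd_pow_self p hj0.ne'
  intro x hx
  have hx' : x ∈ ((V ⊔ normalizer (U : Set G) : Subgroup G) : Set G) := by
    rw [hVN]; exact Subgroup.mem_top x
  rw [Subgroup.normal_mul] at hx'
  obtain ⟨v, hv, n, hn, rfl⟩ := hx'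
  have hvX : v ∈ X := hWX (hVW hv)
  have hnX : n ∈ X := by
    have := X.mul_mem (X.inv_mem hvX) hx
    simpa using this
  exact mul_mem (le_sup_left (a := W) (hVW hv)) (hX₀le ⟨hnX, hn⟩)

end Cfsg.Agent.Lib.Helper68BG36existsS
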