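import Cfsg.Prelude
import Cfsg.Agent.S3745

set_option autoImplicit false
open Cfsg Subgroup

namespace Cfsg.Agent.Lib.Helper68BG36existsU

/-- piece `existsU`: an `R`-invariant complement of `V` in `W`. -/
theorem existsU {G : Type*} [Group G] [Finite G] [Group.IsSolvable G] (p : ℕ) [Fact p.Prime]
    (V W R : Subgroup G) [V.Normal] [W.Normal] (hVW : V ≤ W) (hV : IsPGroup p V)
    (hWV : (V.relIndex W).Coprime p) (hcop : (Nat.card R).Coprime (Nat.card W)) :
    ∃ U : Subgroup G, U ≤ W ∧ R ≤ normalizer (U : Set G) ∧ V ⊓ U = ⊥ ∧ V ⊔ U = W ∧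
      (Nat.card U).Coprime p := by
  have hp : p.Prime := Fact.out
  obtain ⟨⟨U, ⟨hUW, hU1, hU2⟩, hRU⟩, -, -⟩ := Cfsg.Agent.S3745.result R W
    (by rw [normalizer_eq_top_iff.mpr ‹W.Normal›]; exact le_top) hcop inferInstance {q | q ≠ p}
  have hUp : (Nat.card U).Coprime p := by
    rw [Nat.coprime_comm, Nat.Prime.coprime_iff_not_dvd hp]
    intro h
    exact hU1 p hp h rfl
  obtain ⟨a, ha⟩ := hV.exists_card_eq
  refine ⟨U, hUW, hRU, ?_, ?_, hUp⟩
  · apply Subgroup.inf_eq_bot_of_coprime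
    rw [ha]
    exact (Nat.Coprime.pow_right a hUp).symm
  · apply le_antisymm (sup_le hVW hUW)
    rw [← Subgroup.relIndex_eq_one]
    have d1 : (V ⊔ U).relIndex W ∣ V.relIndex W := Subgroup.relIndex_dvd_of_le_left W le_sup_left
    have d2 : (V ⊔ U).relIndex W ∣ U.relIndex W := Subgroup.relIndex_dvd_of_le_left W le_sup_right
    by_contra hne
    obtain ⟨q, hq, hqd⟩ := Nat.exists_prime_and_dvd hne
    by_cases hqp : q = p
    · subst hqp
      exact (Nat.Prime.coprime_iff_not_dvd hq).mp hWV.symm (hqd.trans d1)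
    · exact hU2 q hq hqp (hqd.trans d2)

end Cfsg.Agent.Lib.Helper68BG36existsU
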