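import Cfsg.Prelude
import Cfsg.Agent.Lib.Helper87BG36Defs

set_option autoImplicit false
open Cfsg Subgroup

namespace Cfsg.Agent.Lib.Helper68BG36liftpp
open Cfsg.Agent.Lib.Helper87BG36Defs

/-- piece `liftpp` -/
theorem liftpp {G : Type*} [Group G] [Finite G] (p : ℕ) (N H : Subgroup G)
    (hN : (Nat.card N).Coprime p) (h : PL1Rel p N H) : PL1Rel p ⊥ H := by
  obtain ⟨W, X, hW, hX, hNW, hWX, hXH, h1, h2, h3⟩ := h
  refine ⟨W, X, hW, hX, bot_le, hWX, hXH, ?_, h2, h3⟩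
  rw [← Subgroup.relIndex_mul_relIndex ⊥ N W bot_le hNW, Subgroup.relIndex_bot_left]
  exact Nat.Coprime.mul_left hN h1

end Cfsg.Agent.Lib.Helper68BG36liftpp
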