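import Cfsg.Prelude
import Cfsg.Agent.Lib.Helper66PLen
import Cfsg.Agent.Lib.Helper87BG36Defs

set_option autoImplicit false
open Cfsg Subgroup

namespace Cfsg.Agent.Lib.Helper68BG36relquot
open Cfsg.Agent.Lib.Helper87BG36Defs Cfsg.Agent.Lib.Helper66PLen

/-- piece `relquot` -/
theorem relquot {G : Type*} [Group G] [Finite G] (p : ℕ) (N H : Subgroup G) [N.Normal]
    (hNH : N ≤ H) (h : PL1Rel p ⊥ (H.map (QuotientGroup.mk' N))) : PL1Rel p N H := by
  obtain ⟨W, X, hW, hX, -, hWX, hXH, h1, ⟨m, h2⟩, h3⟩ := h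
  refine ⟨W.comap (QuotientGroup.mk' N), X.comap (QuotientGroup.mk' N), hW.comap _, hX.comap _,
    le_comap_mk N W, Subgroup.comap_mono hWX, ?_, ?_, ⟨m, ?_⟩, ?_⟩
  · refine (Subgroup.comap_mono hXH).trans ?_
    rw [Subgroup.comap_map_eq, QuotientGroup.ker_mk']
    exact sup_le le_rfl hNH
  · rw [relIndex_comap_mk, ← Subgroup.relIndex_bot_left]
    exact h1
  · rw [Subgroup.relIndex_comap,
      Subgroup.map_comap_eq_self_of_surjective (QuotientGroup.mk'_surjective N)]
    exact h2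
  · rw [Subgroup.relIndex_comap]
    exact h3

end Cfsg.Agent.Lib.Helper68BG36relquot
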