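import Cfsg.Prelude
import Cfsg.Agent.Lib.Helper66PLen
import Cfsg.Agent.Lib.Helper87BG36Defs

set_option autoImplicit false
open Cfsg Subgroup

namespace Cfsg.Agent.Lib.Helper68BG36subdirect
open Cfsg.Agent.Lib.Helper87BG36Defs Cfsg.Agent.Lib.Helper66PLen

/-- two-step chain: `(A₁ ⊓ A₂).relIndex (B₁ ⊓ B₂)` divides the product of the two indices. -/
theorem relIndex_inf_inf_dvd {G : Type*} [Group G] {A₁ A₂ B₁ B₂ : Subgroup G}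
    (hA₁ : A₁.Normal) (hA₂ : A₂.Normal) (h1 : A₁ ≤ B₁) (h2 : A₂ ≤ B₂) :
    (A₁ ⊓ A₂).relIndex (B₁ ⊓ B₂) ∣ A₁.relIndex B₁ * A₂.relIndex B₂ := by
  rw [← Subgroup.relIndex_mul_relIndex (A₁ ⊓ A₂) (A₁ ⊓ B₂) (B₁ ⊓ B₂)
    (inf_le_inf le_rfl h2) (inf_le_inf h1 le_rfl), mul_comm]
  refine mul_dvd_mul (relIndex_inf_dvd h1 B₂) ?_
  rw [inf_comm A₁ A₂, inf_comm A₁ B₂]
  exact relIndex_inf_dvd h2 A₁

/-- piece `subdirect` -/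
theorem subdirect {G : Type*} [Group G] [Finite G] (p : ℕ) [Fact p.Prime] (N₁ N₂ H : Subgroup G)
    [N₁.Normal] [N₂.Normal] (h12 : N₁ ⊓ N₂ = ⊥) (h1 : PL1Rel p N₁ H) (h2 : PL1Rel p N₂ H) :
    PL1Rel p ⊥ H := by
  obtain ⟨W₁, X₁, hW₁, hX₁, hNW₁, hWX₁, hXH₁, a1, ⟨m₁, b1⟩, c1⟩ := h1
  obtain ⟨W₂, X₂, hW₂, hX₂, hNW₂, hWX₂, hXH₂, a2, ⟨m₂, b2⟩, c2⟩ := h2
  refine ⟨W₁ ⊓ W₂, X₁ ⊓ X₂, inferInstance, inferInstance, bot_le, inf_le_inf hWX₁ hWX₂,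
    inf_le_left.trans hXH₁, ?_, ?_, ?_⟩
  · rw [← h12]
    exact Nat.Coprime.coprime_dvd_left
      (relIndex_inf_inf_dvd inferInstance inferInstance hNW₁ hNW₂) (Nat.Coprime.mul_left a1 a2)
  · have h := relIndex_inf_inf_dvd hW₁ hW₂ hWX₁ hWX₂
    rw [b1, b2, ← pow_add] at h
    obtain ⟨j, -, hj⟩ := (Nat.dvd_prime_pow (Fact.out : p.Prime)).mp h
    exact ⟨j, hj⟩
  · have h := relIndex_inf_inf_dvd hX₁ hX₂ hXH₁ hXH₂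
    rw [inf_idem] at h
    exact Nat.Coprime.coprime_dvd_left h (Nat.Coprime.mul_left c1 c2)

end Cfsg.Agent.Lib.Helper68BG36subdirect
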