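import Mathlib
import Cfsg.Agent.Lib.Helper3OddRank
import Cfsg.Agent.Lib.Helper3RankTwo
import Cfsg.Agent.Lib.Helper1Fitting
import Cfsg.Agent.Lib.Helper29Basic
import Cfsg.Agent.S1451

/-!
An abstract lemma on solvable groups of odd order used for B-G Theorem 10.2.
-/

set_option autoImplicit false
open Cfsg

namespace Cfsg.Agent.Lib.Helper68BGB

open Subgroup

theorem le_piCore {X : Type*} [Group X] {π : Set ℕ} {N : Subgroup X} (hn : N.Normal)
    (h : ∀ p : ℕ, p.Prime → p ∣ Nat.card N → p ∈ π) : N ≤ piCore π X :=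
  le_sSup ⟨hn, h⟩

theorem piCore_quotient_eq_bot {X : Type*} [Group X] [Finite X] (π : Set ℕ) :
    piCore π (X ⧸ piCore π X) = ⊥ := by
  set R := piCore π X with hR
  set K := piCore π (X ⧸ R) with hK
  have h1 : K.comap (QuotientGroup.mk' R) ≤ R := by
    apply le_piCore (Subgroup.Normal.comap inferInstance _)
    intro p hp hdvd
    rw [Cfsg.Agent.Lib.Helper3RankTwo.card_comap_mk'] at hdvd
    rcases (Nat.Prime.dvd_mul hp).mp hdvd with h | h
    · exact Cfsg.Agent.Lib.Helper29Basic.card_piCore π p hp h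
    · exact Cfsg.Agent.Lib.Helper29Basic.card_piCore π p hp h
  rw [eq_bot_iff]
  intro x hx
  obtain ⟨y, rfl⟩ := QuotientGroup.mk'_surjective R x
  have : y ∈ R := h1 hx
  rw [mem_bot]
  exact (QuotientGroup.eq_one_iff y).mpr this

theorem card_eq_one_of_exp_of_coprime {X : Type*} [Group X] [Finite X] {q n : ℕ} (A : Subgroup X)
    (hA : ∀ a ∈ A, a ^ q = 1) (hn : Nat.card A ∣ n) (hc : n.Coprime q) : Nat.card A = 1 := by
  rw [card_eq_one, eq_bot_iff]
  intro a ha
  rw [mem_bot]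
  have h1 : orderOf a ∣ q := orderOf_dvd_of_pow_eq_one (hA a ha)
  have h2 : orderOf a ∣ n := (Subgroup.orderOf_dvd_natCard A ha).trans hn
  have h3 : orderOf a ∣ 1 := by
    rw [← hc]
    exact Nat.dvd_gcd h2 h1
  exact orderOf_eq_one_iff.mp (Nat.dvd_one.mp h3)

theorem hall_core {X : Type*} [Group X] [Finite X] [Group.IsSolvable X] (hodd : Odd (Nat.card X))
    (π : Set ℕ) (h1 : ∀ q : ℕ, q.Prime → q ∉ π → PRankLE q 2 X)
    (h2 : ∀ p : ℕ, p.Prime → p ∈ π → ∀ x : X, (∃ k : ℕ, x ^ p ^ k = 1) → x ∈ commutator X) :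
    (∀ p : ℕ, p.Prime → p ∈ π → ¬ p ∣ (piCore π X).index) ∧ RankLE 2 (X ⧸ piCore π X) ∧
      Group.IsNilpotent ↥((commutator X).map (QuotientGroup.mk' (piCore π X))) := by
  set R := piCore π X with hR
  have hK : piCore π (X ⧸ R) = ⊥ := piCore_quotient_eq_bot π
  have hr1 : ∀ q : ℕ, q.Prime → q ∉ π → PRankLE q 2 (X ⧸ R) := by
    intro q hq hqπ
    have : Fact q.Prime := ⟨hq⟩
    apply Cfsg.Agent.Lib.Helper3OddRank.rank_quotient R _ (h1 q hq hqπ)
    rw [Nat.coprime_comm, Nat.Prime.coprime_iff_not_dvd hq]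
    intro hd
    exact hqπ (Cfsg.Agent.Lib.Helper29Basic.card_piCore π q hq hd)
  have hcore : ∀ q : ℕ, q.Prime → q ∈ π → pCore q (X ⧸ R) = ⊥ := by
    intro q hq hqπ
    have : Fact q.Prime := ⟨hq⟩
    rw [eq_bot_iff, ← hK]
    apply le_piCore (Cfsg.Agent.Lib.Helper1Fitting.pCore_normal q)
    intro p hp hd
    obtain ⟨k, hk⟩ := IsPGroup.iff_card.mp (Cfsg.Agent.Lib.Helper1Fitting.pCore_isPGroup (G := X ⧸ R) q)
    rw [hk] at hd
    have := (Nat.prime_dvd_prime_iff_eq hp hq).mp (hp.dvd_of_dvd_pow hd)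
    rw [this]; exact hqπ
  have hF : ∀ q : ℕ, q.Prime → q ∈ π → (Nat.card (fittingSubgroup (X ⧸ R))).Coprime q := by
    intro q hq hqπ
    rw [Cfsg.Agent.Lib.Helper1Fitting.fitting_eq_iSup_pCore]
    refine (Cfsg.Agent.Lib.Helper1Fitting.coprime_card_iSup q _ ?_).2
    intro r
    refine ⟨Cfsg.Agent.Lib.Helper1Fitting.pCore_normal _, ?_⟩
    by_cases hrq : (r : ℕ) = q
    · rw [hrq, hcore q hq hqπ]; simp
    · have : Fact (r : ℕ).Prime := ⟨r.2⟩
      obtain ⟨k, hk⟩ := IsPGroup.iff_card.mp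
        (Cfsg.Agent.Lib.Helper1Fitting.pCore_isPGroup (G := X ⧸ R) (r : ℕ))
      rw [hk]
      exact Nat.Coprime.pow_left _ ((Nat.coprime_primes r.2 hq).mpr hrq)
  have hFr : RankLE 2 (fittingSubgroup (X ⧸ R)) := by
    intro q hq
    by_cases hqπ : q ∈ π
    · intro A _ hAe
      have := card_eq_one_of_exp_of_coprime A hAe (card_subgroup_dvd_card A) (hF q hq hqπ)
      rw [this]
      exact Nat.one_le_pow _ _ hq.pos
    · exact Cfsg.Agent.Lib.Helper3OddRank.rank_subgroup _ (hr1 q hq hqπ)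
  have hoddq : Odd (Nat.card (X ⧸ R)) :=
    Odd.of_dvd_nat hodd (Subgroup.card_quotient_dvd_card R)
  have hnil := (Cfsg.Agent.S1451.result (G := X ⧸ R) hoddq (Or.inr hFr)).1
  have hmap : (commutator X).map (QuotientGroup.mk' R) = commutator (X ⧸ R) := by
    rw [commutator_def, commutator_def, Subgroup.map_commutator,
      map_top_of_surjective _ (QuotientGroup.mk'_surjective R)]
  have hle : commutator (X ⧸ R) ≤ fittingSubgroup (X ⧸ R) :=
    Cfsg.Agent.Lib.Helper1Fitting.le_fitting inferInstance hnil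
  have hidx : ∀ p : ℕ, p.Prime → p ∈ π → ¬ p ∣ R.index := by
    intro p hp hpπ hd
    have : Fact p.Prime := ⟨hp⟩
    obtain ⟨P⟩ : Nonempty (Sylow p X) := inferInstance
    set Q := P.mapSurjective (QuotientGroup.mk'_surjective R) with hQ
    have hQle : (Q : Subgroup (X ⧸ R)) ≤ fittingSubgroup (X ⧸ R) := by
      rw [hQ, Sylow.coe_mapSurjective]
      refine le_trans ?_ hle
      rw [← hmap]
      apply Subgroup.map_mono
      intro x hx
      apply h2 p hp hpπ x
      obtain ⟨k, hk⟩ := P.2 ⟨x, hx⟩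
      exact ⟨k, congrArg Subtype.val hk⟩
    have hQ1 : Nat.card (Q : Subgroup (X ⧸ R)) = 1 := by
      obtain ⟨k, hk⟩ := IsPGroup.iff_card.mp Q.2
      have h3 : (Nat.card (Q : Subgroup (X ⧸ R))).Coprime p :=
        Nat.Coprime.coprime_dvd_left (Subgroup.card_dvd_of_le hQle) (hF p hp hpπ)
      rw [hk] at h3 ⊢
      rcases Nat.eq_zero_or_pos k with rfl | hkpos
      · simp
      · exfalso
        have := (Nat.coprime_pow_left_iff hkpos p p).mp h3
        rw [Nat.coprime_self] at this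
        exact hp.one_lt.ne' this
    have hne : (Q : Subgroup (X ⧸ R)) ≠ ⊥ := by
      apply Sylow.ne_bot_of_dvd_card
      rwa [← Subgroup.index_eq_card]
    exact hne (card_eq_one.mp hQ1)
  refine ⟨hidx, ?_, hmap ▸ hnil⟩
  intro q hq
  by_cases hqπ : q ∈ π
  · intro A _ hAe
    have hc : (Nat.card (X ⧸ R)).Coprime q := by
      rw [Nat.coprime_comm, Nat.Prime.coprime_iff_not_dvd hq, ← Subgroup.index_eq_card]
      exact hidx q hq hqπ
    have := card_eq_one_of_exp_of_coprime A hAe (card_subgroup_dvd_card A) hc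
    rw [this]
    exact Nat.one_le_pow _ _ hq.pos
  · exact hr1 q hq hqπ

end Cfsg.Agent.Lib.Helper68BGB
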