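import Mathlib
import Cfsg.Prelude.Def_KGroupFacts

set_option autoImplicit false

namespace Cfsg.Agent.Lib.Helper69BilExt

open scoped commutatorElement

universe u v

/-- The central extension of `G` by `K` defined by a bimultiplicative cocycle `β`. -/
@[ext] structure BilExt {G : Type u} {K : Type v} [Group G] [CommGroup K] (β : G →* G →* K) :
    Type (max u v) where
  /-- component in `G` -/
  fst : G
  /-- component in `K` -/
  snd : K

namespace BilExt

variable {G : Type u} {K : Type v} [Group G] [CommGroup K] (β : G →* G →* K)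

instance : Mul (BilExt β) := ⟨fun a b => ⟨a.fst * b.fst, a.snd * b.snd * β a.fst b.fst⟩⟩
instance : One (BilExt β) := ⟨⟨1, 1⟩⟩
instance : Inv (BilExt β) := ⟨fun a => ⟨a.fst⁻¹, a.snd⁻¹ * β a.fst a.fst⟩⟩

@[simp] theorem mul_fst (a b : BilExt β) : (a * b).fst = a.fst * b.fst := rfl
@[simp] theorem mul_snd (a b : BilExt β) : (a * b).snd = a.snd * b.snd * β a.fst b.fst := rfl
@[simp] theorem one_fst : (1 : BilExt β).fst = 1 := rfl
@[simp] theorem one_snd : (1 : BilExt β).snd = 1 := rfl
@[simp] theorem inv_fst (a : BilExt β) : (a⁻¹).fst = a.fst⁻¹ := rfl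
@[simp] theorem inv_snd (a : BilExt β) : (a⁻¹).snd = a.snd⁻¹ * β a.fst a.fst := rfl

instance : Group (BilExt β) where
  mul_assoc a b c := by
    ext
    · simp [mul_assoc]
    · simp only [mul_snd, mul_fst, map_mul, MonoidHom.mul_apply]
      simp only [mul_assoc, mul_left_comm, mul_comm]
  one_mul a := by ext <;> simp
  mul_one a := by ext <;> simp
  inv_mul_cancel a := by ext <;> simp

/-- the projection -/
def proj : BilExt β →* G where
  toFun a := a.fst
  map_one' := rfl
  map_mul' _ _ := rfl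

@[simp] theorem proj_apply (a : BilExt β) : proj β a = a.fst := rfl

theorem proj_surjective : Function.Surjective (proj β) := fun g => ⟨⟨g, 1⟩, rfl⟩

/-- the inclusion of the kernel -/
def incl : K →* BilExt β where
  toFun k := ⟨1, k⟩
  map_one' := rfl
  map_mul' a b := by ext <;> simp

@[simp] theorem incl_fst (k : K) : (incl β k).fst = 1 := rfl
@[simp] theorem incl_snd (k : K) : (incl β k).snd = k := rfl

theorem incl_injective : Function.Injective (incl β) := fun a b h => congrArg BilExt.snd h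

theorem mem_ker_proj (a : BilExt β) : a ∈ (proj β).ker ↔ a.fst = 1 := Iff.rfl

theorem ker_proj_eq_range : (proj β).ker = (incl β).range := by
  ext a
  constructor
  · intro h
    refine ⟨a.snd, ?_⟩
    ext
    · exact ((mem_ker_proj β a).1 h).symm
    · rfl
  · rintro ⟨k, rfl⟩
    rfl

theorem incl_mem_center (k : K) : incl β k ∈ Subgroup.center (BilExt β) := by
  rw [Subgroup.mem_center_iff]
  intro a
  ext
  · simp
  · simp [mul_comm]

theorem ker_proj_le_center : (proj β).ker ≤ Subgroup.center (BilExt β) := by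
  rw [ker_proj_eq_range]
  rintro _ ⟨k, rfl⟩
  exact incl_mem_center β k

/-- the kernel is `K` -/
noncomputable def kerEquiv : (proj β).ker ≃* K :=
  ((MulEquiv.subgroupCongr (ker_proj_eq_range β)).trans
    (MonoidHom.ofInjective (incl_injective β)).symm)

/-- commutator of two elements whose `G`-components commute -/
theorem commutator_of_commute (a b : BilExt β) (h : a.fst * b.fst = b.fst * a.fst) :
    ⁅a, b⁆ = incl β (β a.fst b.fst * (β b.fst a.fst)⁻¹) := by
  have h1 : a * b = incl β (β a.fst b.fst * (β b.fst a.fst)⁻¹) * (b * a) := by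
    ext
    · simp [h]
    · simp only [mul_snd, mul_fst, incl_snd, incl_fst, map_one, MonoidHom.one_apply, mul_one]
      rw [mul_comm b.snd a.snd]
      simp only [mul_assoc, mul_left_comm, mul_comm]
      simp
  rw [commutatorElement_def]
  calc a * b * a⁻¹ * b⁻¹ = incl β (β a.fst b.fst * (β b.fst a.fst)⁻¹) * (b * a) * a⁻¹ * b⁻¹ := by
        rw [h1]
    _ = _ := by group

instance [Finite G] [Finite K] : Finite (BilExt β) :=
  Finite.of_injective (fun a : BilExt β => (a.fst, a.snd)) (fun a b h => by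
    ext
    · exact congrArg Prod.fst h
    · exact congrArg Prod.snd h)

/-- If `G` is commutative and the alternating values generate `K`, the projection is a stem
extension. -/
theorem isStemExtension_proj (hG : ∀ a b : G, a * b = b * a)
    (hgen : Subgroup.closure {k : K | ∃ a b : G, k = β a b * (β b a)⁻¹} = ⊤) :
    Cfsg.IsStemExtension (proj β) := by
  refine ⟨proj_surjective β, ker_proj_le_center β, ?_⟩
  rw [ker_proj_eq_range, MonoidHom.range_eq_map, ← hgen, MonoidHom.map_closure, Subgroup.closure_le]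
  rintro _ ⟨_, ⟨a, b, rfl⟩, rfl⟩
  have := commutator_of_commute β ⟨a, 1⟩ ⟨b, 1⟩ (hG a b)
  simp only at this
  rw [← this]
  exact Subgroup.commutator_mem_commutator (Subgroup.mem_top _) (Subgroup.mem_top _)

end BilExt

/-- A group generated by an element `c` with `c ^ n = 1` is a quotient of `ZMod n`. -/
theorem exists_surj_zmod {K : Type*} [Group K] (c : K) (n : ℕ) (hc : c ^ n = 1)
    (hgen : ∀ k : K, k ∈ Subgroup.zpowers c) :
    ∃ π : Multiplicative (ZMod n) →* K, Function.Surjective π := by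
  let f : ℤ →+ Additive K := zmultiplesHom (Additive K) (Additive.ofMul c)
  have hf : f n = 0 := by
    simp only [f, zmultiplesHom_apply, natCast_zsmul]
    rw [← ofMul_pow, hc]; rfl
  let g : ZMod n →+ Additive K := ZMod.lift n ⟨f, hf⟩
  refine ⟨AddMonoidHom.toMultiplicativeLeft g, ?_⟩
  intro k
  obtain ⟨i, hi⟩ := Subgroup.mem_zpowers_iff.1 (hgen k)
  refine ⟨Multiplicative.ofAdd (i : ZMod n), ?_⟩
  change Additive.toMul (g (i : ZMod n)) = k
  rw [ZMod.lift_coe]
  simp only [f, zmultiplesHom_apply]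
  rw [← ofMul_zpow, hi]; rfl

/-- the bimultiplicative map `(x, y) ↦ f x * f' y` -/
def mulBil {G : Type u} {R : Type v} [Group G] [CommRing R] (f f' : G →* Multiplicative R) :
    G →* G →* Multiplicative R :=
  MonoidHom.mk' (fun x => MonoidHom.mk'
    (fun y => Multiplicative.ofAdd (Multiplicative.toAdd (f x) * Multiplicative.toAdd (f' y)))
    (by intro a b; simp [mul_add, ofAdd_add]))
    (by intro a b; ext y; simp [add_mul, ofAdd_add])

@[simp] theorem mulBil_apply {G : Type u} {R : Type v} [Group G] [CommRing R]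
    (f f' : G →* Multiplicative R) (x y : G) : mulBil f f' x y =
      Multiplicative.ofAdd (Multiplicative.toAdd (f x) * Multiplicative.toAdd (f' y)) := rfl

theorem mem_zpowers_ofAdd_one (n : ℕ) (k : Multiplicative (ZMod n)) :
    k ∈ Subgroup.zpowers (Multiplicative.ofAdd (1 : ZMod n)) := by
  rw [Subgroup.mem_zpowers_iff]
  obtain ⟨i, hi⟩ := ZMod.intCast_surjective (Multiplicative.toAdd k)
  refine ⟨i, ?_⟩
  rw [← ofAdd_zsmul, zsmul_one, hi]; rfl

theorem isStemExtension_mulBil {G : Type u} [Group G] (hG : ∀ a b : G, a * b = b * a) (n : ℕ)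
    (f f' : G →* Multiplicative (ZMod n)) (u v : G)
    (huv : Multiplicative.toAdd (f u) * Multiplicative.toAdd (f' v) -
      Multiplicative.toAdd (f v) * Multiplicative.toAdd (f' u) = 1) :
    Cfsg.IsStemExtension (BilExt.proj (mulBil f f')) := by
  apply BilExt.isStemExtension_proj _ hG
  rw [eq_top_iff]
  intro k _
  have h1 : Subgroup.zpowers (Multiplicative.ofAdd (1 : ZMod n)) ≤
      Subgroup.closure {k : Multiplicative (ZMod n) | ∃ a b : G, k = mulBil f f' a b * (mulBil f f' b a)⁻¹} := by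
    rw [Subgroup.zpowers_le]
    apply Subgroup.subset_closure
    refine ⟨u, v, ?_⟩
    rw [mulBil_apply, mulBil_apply, ← ofAdd_neg, ← ofAdd_add, ← sub_eq_add_neg, huv]
  exact h1 (mem_zpowers_ofAdd_one n k)

theorem commutator_le_of_forall_commute {Γ : Type*} [Group Γ] (N : Subgroup Γ) [N.Normal]
    (h : ∀ a b : Γ, Commute (QuotientGroup.mk a : Γ ⧸ N) (QuotientGroup.mk b)) :
    commutator Γ ≤ N := by
  rw [commutator_eq_closure, Subgroup.closure_le]
  rintro _ ⟨a, b, rfl⟩
  rw [SetLike.mem_coe, ← QuotientGroup.eq_one_iff]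
  have : ((⁅a, b⁆ : Γ) : Γ ⧸ N) = ⁅(a : Γ ⧸ N), (b : Γ ⧸ N)⁆ := by
    simp [commutatorElement_def]
  rw [this, commutatorElement_eq_one_iff_commute]
  exact h a b

/-- upper bound for the multiplier of a two-generator abelian group -/
theorem exists_surj_of_two_gen {Γ : Type*} {G : Type*} [Group Γ] [Group G] (σ : Γ →* G)
    (hσ : Cfsg.IsStemExtension σ) (hG : ∀ a b : G, a * b = b * a) (x y : Γ)
    (hgen : ∀ g : Γ, ∃ a b : ℤ, σ g = σ x ^ a * σ y ^ b) (n : ℕ) (hn : σ y ^ n = 1) :
    ∃ π : Multiplicative (ZMod n) →* σ.ker, Function.Surjective π := by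
  have hcK : ⁅x, y⁆ ∈ σ.ker := by
    rw [MonoidHom.mem_ker, map_commutatorElement, commutatorElement_eq_one_iff_mul_comm]
    exact hG _ _
  obtain ⟨c, hc⟩ : ∃ c, c = ⁅x, y⁆ := ⟨_, rfl⟩
  rw [← hc] at hcK
  have hcc : ∀ g, g * c = c * g := Subgroup.mem_center_iff.1 (hσ.2.1 hcK)
  have hN : (Subgroup.zpowers c).Normal := by
    constructor
    intro k hk g
    obtain ⟨i, rfl⟩ := Subgroup.mem_zpowers_iff.1 hk
    have : g * c ^ i * g⁻¹ = c ^ i := by
      have hcomm : Commute g (c ^ i) := (show Commute g c from hcc g).zpow_right i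
      rw [hcomm.eq]; group
    rw [this]
    exact hk
  have hxy : Commute (QuotientGroup.mk x : Γ ⧸ Subgroup.zpowers c) (QuotientGroup.mk y) := by
    rw [← commutatorElement_eq_one_iff_commute]
    have : ⁅(x : Γ ⧸ Subgroup.zpowers c), (y : Γ ⧸ Subgroup.zpowers c)⁆ = ((⁅x, y⁆ : Γ) : Γ ⧸ _) := by
      simp [commutatorElement_def]
    rw [this, QuotientGroup.eq_one_iff, ← hc]
    exact Subgroup.mem_zpowers c
  have hdecomp : ∀ g : Γ, ∃ (a b : ℤ) (k : Γ), k ∈ Subgroup.center Γ ∧ g = x ^ a * y ^ b * k := by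
    intro g
    obtain ⟨a, b, hab⟩ := hgen g
    refine ⟨a, b, (x ^ a * y ^ b)⁻¹ * g, hσ.2.1 ?_, by group⟩
    rw [MonoidHom.mem_ker, map_mul, map_inv, hab]
    simp
  have hle : commutator Γ ≤ Subgroup.zpowers c := by
    apply commutator_le_of_forall_commute
    intro g h
    obtain ⟨a, b, k, hk, rfl⟩ := hdecomp g
    obtain ⟨a', b', k', hk', rfl⟩ := hdecomp h
    have hkc : ∀ t : Γ, Commute (QuotientGroup.mk k : Γ ⧸ Subgroup.zpowers c) (QuotientGroup.mk t) := by
      intro t
      change (QuotientGroup.mk k : Γ ⧸ Subgroup.zpowers c) * QuotientGroup.mk t = QuotientGroup.mk t * QuotientGroup.mk k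
      rw [← QuotientGroup.mk_mul, ← QuotientGroup.mk_mul, Subgroup.mem_center_iff.1 hk t]
    have hkc' : ∀ t : Γ, Commute (QuotientGroup.mk k' : Γ ⧸ Subgroup.zpowers c) (QuotientGroup.mk t) := by
      intro t
      change (QuotientGroup.mk k' : Γ ⧸ Subgroup.zpowers c) * QuotientGroup.mk t = QuotientGroup.mk t * QuotientGroup.mk k'
      rw [← QuotientGroup.mk_mul, ← QuotientGroup.mk_mul, Subgroup.mem_center_iff.1 hk' t]
    rw [QuotientGroup.mk_mul, QuotientGroup.mk_mul]
    apply Commute.mul_left _ (hkc _)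
    rw [QuotientGroup.mk_mul _ _ k']
    apply Commute.mul_right _ (hkc' _).symm
    simp only [QuotientGroup.mk_mul, QuotientGroup.mk_zpow]
    apply Commute.mul_left <;> apply Commute.mul_right
    · exact (Commute.refl _).zpow_zpow _ _
    · exact hxy.zpow_zpow _ _
    · exact hxy.symm.zpow_zpow _ _
    · exact (Commute.refl _).zpow_zpow _ _
  have hpow : ∀ j : ℕ, x * y ^ j * x⁻¹ = c ^ j * y ^ j := by
    intro j
    have h1 : x * y * x⁻¹ = c * y := by rw [hc, commutatorElement_def]; group
    have h2 : x * y ^ j * x⁻¹ = (x * y * x⁻¹) ^ j := (conj_pow).symm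
    rw [h2, h1, (show Commute c y from (hcc y).symm).mul_pow]
  have hcn : c ^ n = 1 := by
    have hyn : y ^ n ∈ σ.ker := by rw [MonoidHom.mem_ker, map_pow, hn]
    have h1 := Subgroup.mem_center_iff.1 (hσ.2.1 hyn) x
    have h2 := hpow n
    rw [h1] at h2
    have h3 : y ^ n = c ^ n * y ^ n := by rw [← h2]; group
    exact (mul_eq_right.1 h3.symm)
  apply exists_surj_zmod (⟨c, hcK⟩ : σ.ker) n (Subtype.ext (by simpa using hcn))
  rintro ⟨k, hk⟩
  obtain ⟨i, hi⟩ := Subgroup.mem_zpowers_iff.1 (hle (hσ.2.2 hk))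
  rw [Subgroup.mem_zpowers_iff]
  exact ⟨i, Subtype.ext (by simpa using hi)⟩


end Cfsg.Agent.Lib.Helper69BilExt
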