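import Cfsg.Agent.Lib.Helper69BilExt

set_option autoImplicit false

namespace Cfsg.Agent.Lib.Helper69Dih

open Cfsg.Agent.Lib.Helper69BilExt
open scoped commutatorElement

/-- Stem extensions of groups generated by `σ x`, `σ y` with `σ y` inverting `σ x`. -/
theorem dihedral_type {Γ : Type*} {G : Type*} [Group Γ] [Group G] (σ : Γ →* G)
    (hσ : Cfsg.IsStemExtension σ) (x y : Γ)
    (hgen : ∀ g : Γ, ∃ a b : ℤ, σ g = σ x ^ a * σ y ^ b)
    (hinv : σ y * σ x * (σ y)⁻¹ = (σ x)⁻¹) (n : ℕ) (hcomm : Commute (x ^ n) y) :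
    ∃ c : Γ, c ^ n = 1 ∧ σ c = σ x ^ 2 ∧ ∀ k ∈ σ.ker, k ∈ Subgroup.zpowers c := by
  obtain ⟨k, hk⟩ : ∃ k, k = x * (y * x * y⁻¹) := ⟨_, rfl⟩
  have hkK : k ∈ σ.ker := by
    rw [MonoidHom.mem_ker, hk]
    simp only [map_mul, map_inv]
    rw [hinv]; simp
  have hkc : ∀ g, g * k = k * g := Subgroup.mem_center_iff.1 (hσ.2.1 hkK)
  have hkc' : ∀ g, Commute g k := hkc
  have hyx : y * x * y⁻¹ = x⁻¹ * k := by rw [hk]; group
  obtain ⟨c, hc⟩ : ∃ c, c = ⁅x, y⁆ := ⟨_, rfl⟩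
  have ki : ∀ g, g * k⁻¹ = k⁻¹ * g := fun g => ((hkc' g).inv_right).eq
  have hc2 : c = x ^ 2 * k⁻¹ := by
    have h1 : c = x * (y * x * y⁻¹)⁻¹ := by rw [hc, commutatorElement_def]; group
    rw [h1, hyx]
    calc x * (x⁻¹ * k)⁻¹ = x * (k⁻¹ * x) := by group
      _ = x * (x * k⁻¹) := by rw [ki]
      _ = x ^ 2 * k⁻¹ := by rw [pow_two]; group
  have hxc : Commute x c := by
    rw [hc2]
    exact ((Commute.refl x).pow_right 2).mul_right (hkc' x).inv_right
  have hyc : y * c * y⁻¹ = c⁻¹ := by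
    have h1 : y * c * y⁻¹ = (y * x * y⁻¹) ^ 2 * (y * k⁻¹ * y⁻¹) := by
      rw [hc2, conj_pow]; group
    have h2 : y * k⁻¹ * y⁻¹ = k⁻¹ := by rw [ki]; group
    rw [h1, h2, hyx, hc2]
    calc (x⁻¹ * k) ^ 2 * k⁻¹ = (x⁻¹ * k) * x⁻¹ := by rw [pow_two]; group
      _ = (k * x⁻¹) * x⁻¹ := by rw [hkc]
      _ = (x ^ 2 * k⁻¹)⁻¹ := by rw [pow_two]; group
  have hyc' : y⁻¹ * c * y = c⁻¹ := by
    calc y⁻¹ * c * y = (y⁻¹ * c⁻¹ * y)⁻¹ := by group
      _ = (y⁻¹ * (y * c * y⁻¹) * y)⁻¹ := by rw [hyc]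
      _ = c⁻¹ := by group
  have hxN : x ∈ Subgroup.normalizer (Subgroup.zpowers c : Set Γ) := by
    rw [Subgroup.mem_normalizer_iff]
    intro h
    constructor
    · intro hh
      obtain ⟨i, rfl⟩ := Subgroup.mem_zpowers_iff.1 hh
      rw [(hxc.zpow_right i).eq]
      simp
    · intro hh
      obtain ⟨i, hi⟩ := Subgroup.mem_zpowers_iff.1 hh
      have : h = x⁻¹ * c ^ i * x := by rw [hi]; group
      rw [this, mul_assoc, ← (hxc.zpow_right i).eq]
      simp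
  have hyN : y ∈ Subgroup.normalizer (Subgroup.zpowers c : Set Γ) := by
    rw [Subgroup.mem_normalizer_iff]
    intro h
    constructor
    · intro hh
      obtain ⟨i, rfl⟩ := Subgroup.mem_zpowers_iff.1 hh
      rw [← conj_zpow, hyc]
      exact Subgroup.zpow_mem _ (Subgroup.inv_mem _ (Subgroup.mem_zpowers c)) i
    · intro hh
      obtain ⟨i, hi⟩ := Subgroup.mem_zpowers_iff.1 hh
      have : h = y⁻¹ * c ^ i * y := by rw [hi]; group
      have h5 : y⁻¹ * c ^ i * y = (y⁻¹ * c * y) ^ i := by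
        have := conj_zpow (a := y⁻¹) (b := c) (i := i)
        rw [inv_inv] at this
        exact this.symm
      rw [this, h5, hyc']
      exact Subgroup.zpow_mem _ (Subgroup.inv_mem _ (Subgroup.mem_zpowers c)) i
  have hdecomp : ∀ g : Γ, ∃ (a b : ℤ) (k : Γ), k ∈ Subgroup.center Γ ∧ g = x ^ a * y ^ b * k := by
    intro g
    obtain ⟨a, b, hab⟩ := hgen g
    refine ⟨a, b, (x ^ a * y ^ b)⁻¹ * g, hσ.2.1 ?_, by group⟩
    rw [MonoidHom.mem_ker, map_mul, map_inv, hab]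
    simp
  have hN : (Subgroup.zpowers c).Normal := by
    rw [← Subgroup.normalizer_eq_top_iff, eq_top_iff]
    intro g _
    obtain ⟨a, b, k', hk', rfl⟩ := hdecomp g
    refine Subgroup.mul_mem _ (Subgroup.mul_mem _ (Subgroup.zpow_mem _ hxN a)
      (Subgroup.zpow_mem _ hyN b)) ?_
    rw [Subgroup.mem_normalizer_iff]
    intro h
    rw [← Subgroup.mem_center_iff.1 hk' h]
    simp
  have hxy : Commute (QuotientGroup.mk x : Γ ⧸ Subgroup.zpowers c) (QuotientGroup.mk y) := by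
    rw [← commutatorElement_eq_one_iff_commute]
    have : ⁅(x : Γ ⧸ Subgroup.zpowers c), (y : Γ ⧸ Subgroup.zpowers c)⁆ = ((⁅x, y⁆ : Γ) : Γ ⧸ _) := by
      simp [commutatorElement_def]
    rw [this, QuotientGroup.eq_one_iff, ← hc]
    exact Subgroup.mem_zpowers c
  have hle : commutator Γ ≤ Subgroup.zpowers c := by
    apply commutator_le_of_forall_commute
    intro g h
    obtain ⟨a, b, k, hk, rfl⟩ := hdecomp g
    obtain ⟨a', b', k', hk', rfl⟩ := hdecomp h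
    have hkc : ∀ t : Γ, Commute (QuotientGroup.mk k : Γ ⧸ Subgroup.zpowers c) (QuotientGroup.mk t) := by
      intro t
      change (QuotientGroup.mk k : Γ ⧸ Subgroup.zpowers c) * QuotientGroup.mk t = QuotientGroup.mk t * QuotientGroup.mk k
      rw [← QuotientGroup.mk_mul, ← QuotientGroup.mk_mul, Subgroup.mem_center_iff.1 hk t]
    have hkc' : ∀ t : Γ, Commute (QuotientGroup.mk k' : Γ ⧸ Subgroup.zpowers c) (QuotientGroup.mk t) := by
      intro t
      change (QuotientGroup.mk k' : Γ ⧸ Subgroup.zpowers c) * QuotientGroup.mk t = QuotientGroup.mk t * QuotientGroup.mk k'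
      rw [← QuotientGroup.mk_mul, ← QuotientGroup.mk_mul, Subgroup.mem_center_iff.1 hk' t]
    rw [QuotientGroup.mk_mul, QuotientGroup.mk_mul]
    apply Commute.mul_left _ (hkc _)
    rw [QuotientGroup.mk_mul _ _ k']
    apply Commute.mul_right _ (hkc' _).symm
    simp only [QuotientGroup.mk_mul, QuotientGroup.mk_zpow]
    apply Commute.mul_left <;> apply Commute.mul_right
    · exact (Commute.refl _).zpow_zpow _ _
    · exact hxy.zpow_zpow _ _
    · exact hxy.symm.zpow_zpow _ _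
    · exact (Commute.refl _).zpow_zpow _ _
  refine ⟨c, ?_, ?_, fun k' hk' => hle (hσ.2.2 hk')⟩
  · have h1 : y * x ^ n * y⁻¹ = x ^ n := by rw [← hcomm.eq]; group
    have h2 : y * x ^ n * y⁻¹ = (x⁻¹) ^ n * k ^ n := by
      rw [← conj_pow, hyx, (hkc' x⁻¹).mul_pow]
    have h3 : x ^ n * x ^ n = k ^ n := by
      have : x ^ n = (x⁻¹) ^ n * k ^ n := by rw [← h2, h1]
      calc x ^ n * x ^ n = x ^ n * ((x⁻¹) ^ n * k ^ n) := by rw [← this]
        _ = k ^ n := by rw [inv_pow]; group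
    rw [hc2, ((hkc' (x ^ 2)).inv_right).mul_pow, ← pow_mul, two_mul, pow_add, h3, inv_pow]
    simp
  · rw [hc2, map_mul, map_inv, map_pow, MonoidHom.mem_ker.1 hkK]; simp

end Cfsg.Agent.Lib.Helper69Dih
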