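import Mathlib
import Cfsg.Agent.Lib.Helper69Mult
import Cfsg.Agent.Lib.Helper88PC

set_option autoImplicit false

/-!
Bridging between packed permutations of the 24 points and the criteria of `Helper69Mult`.
-/

namespace Cfsg.Agent.Lib.Helper69Pk

open scoped Pointwise
open Cfsg Cfsg.Agent.Lib.Helper33Golay Cfsg.Agent.Lib.Helper88Packed Cfsg.Agent.Lib.Helper88PC
  Cfsg.Agent.Lib.Helper69Mult

abbrev XP := Equiv.Perm GolayPt

theorem inv_of {x xi : ℕ} (hx : validPerm x = true) (hxi : validPerm xi = true)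
    (h : Nat.beq (mulP x xi) idP = true) : (toPerm x)⁻¹ = toPerm xi := by
  symm
  apply eq_inv_of_mul_eq_one_right
  rw [← toPerm_mulP hx hxi, Nat.eq_of_beq_eq_true h, toPerm_idP]

/-- packed conjugate -/
def cj (u ui P : ℕ) : ℕ := mulP (mulP u P) ui

theorem cj_valid {u ui P : ℕ} (hu : validPerm u = true) (hui : validPerm ui = true)
    (hP : validPerm P = true) : validPerm (cj u ui P) = true :=
  validPerm_mulP (validPerm_mulP hu hP) hui

theorem toPerm_cj {u ui P : ℕ} (hu : validPerm u = true) (hui : validPerm ui = true)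
    (hP : validPerm P = true) (h : Nat.beq (mulP u ui) idP = true) :
    toPerm (cj u ui P) = toPerm u * toPerm P * (toPerm u)⁻¹ := by
  rw [cj, toPerm_mulP (validPerm_mulP hu hP) hui, toPerm_mulP hu hP, inv_of hu hui h]

/-- evaluation of a word -/
def evalL (w : List ℕ) : ℕ := w.foldr mulP idP

theorem evalL_mem {l : List ℕ} (hl : ∀ x ∈ l, validPerm x = true) {w : List ℕ}
    (hw : ∀ x ∈ w, x ∈ l) : validPerm (evalL w) = true ∧ toPerm (evalL w) ∈ Sub l := by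
  induction w with
  | nil => exact ⟨idP_valid, by rw [evalL, List.foldr_nil, toPerm_idP]; exact Subgroup.one_mem _⟩
  | cons x w ih =>
    obtain ⟨h1, h2⟩ := ih (fun y hy => hw y (List.mem_cons_of_mem _ hy))
    have hx := hw x (List.mem_cons_self ..)
    refine ⟨validPerm_mulP (hl x hx) h1, ?_⟩
    show toPerm (mulP x (evalL w)) ∈ Sub l
    rw [toPerm_mulP (hl x hx) h1]
    exact Subgroup.mul_mem _ (toPerm_mem_Sub hx) h2

def wordsOK (l l' : List ℕ) (ws : List (List ℕ)) : Bool :=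
  (l == ws.map evalL) && ws.all (fun w => w.all (fun x => l'.contains x))

theorem Sub_le_of_words {l l' : List ℕ} (hl' : ∀ x ∈ l', validPerm x = true)
    (ws : List (List ℕ)) (h : wordsOK l l' ws = true) : Sub l ≤ Sub l' := by
  simp only [wordsOK, Bool.and_eq_true, beq_iff_eq, List.all_eq_true, List.contains_iff_mem] at h
  obtain ⟨h1, h2⟩ := h
  apply Sub_le
  intro x hx
  rw [h1, List.mem_map] at hx
  obtain ⟨w, hw, rfl⟩ := hx
  exact (evalL_mem hl' (h2 w hw)).2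

section good

variable {Γ : Type*} [Group Γ] {τ : Γ →* XP} {a : Γ}

def good3Chk (u ui P : ℕ) : Bool :=
  Nat.beq (mulP u P) (mulP (cj u ui P) u) &&
  Nat.beq (mulP u (cj u ui P)) (mulP (cj u ui (cj u ui P)) u) &&
  Nat.beq (mulP u (cj u ui (cj u ui P))) (mulP (mulP P (cj u ui P)) u) &&
  Nat.beq (mulP P P) idP &&
  Nat.beq (mulP P (cj u ui P)) (mulP (cj u ui P) P) &&
  Nat.beq (mulP P (cj u ui (cj u ui P))) (mulP (cj u ui (cj u ui P)) P)

theorem good3_of_chk (E : Ext2 τ a) {u ui P : ℕ} (hu : validPerm u = true)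
    (hui : validPerm ui = true) (hP : validPerm P = true) (hur : toPerm u ∈ τ.range)
    (h : good3Chk u ui P = true) : Good τ (toPerm P) := by
  simp only [good3Chk, Bool.and_eq_true] at h
  obtain ⟨⟨⟨⟨⟨h0, h1⟩, h2⟩, h3⟩, h4⟩, h5⟩ := h
  have v1 := cj_valid hu hui hP
  have v2 := cj_valid hu hui v1
  refine E.good3 (x1 := toPerm (cj u ui P)) (x2 := toPerm (cj u ui (cj u ui P))) hur ?_ ?_ ?_ ?_ ?_ ?_
  · rw [← toPerm_mulP hu hP, Nat.eq_of_beq_eq_true h0, toPerm_mulP v1 hu]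
  · rw [← toPerm_mulP hu v1, Nat.eq_of_beq_eq_true h1, toPerm_mulP v2 hu]
  · rw [← toPerm_mulP hu v2, Nat.eq_of_beq_eq_true h2, toPerm_mulP (validPerm_mulP hP v1) hu,
      toPerm_mulP hP v1]
  · rw [← toPerm_mulP hP hP, Nat.eq_of_beq_eq_true h3, toPerm_idP]
  · rw [← toPerm_mulP hP v1, Nat.eq_of_beq_eq_true h4, toPerm_mulP v1 hP]
  · rw [← toPerm_mulP hP v2, Nat.eq_of_beq_eq_true h5, toPerm_mulP v2 hP]

def good4Chk (u ui P : ℕ) : Bool :=
  Nat.beq (mulP u P) (mulP (cj u ui P) u) &&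
  Nat.beq (mulP u (cj u ui P)) (mulP (cj u ui (cj u ui P)) u) &&
  Nat.beq (mulP u (cj u ui (cj u ui P))) (mulP (cj u ui (cj u ui (cj u ui P))) u) &&
  Nat.beq (mulP u (cj u ui (cj u ui (cj u ui P)))) (mulP (mulP P (cj u ui P)) u) &&
  Nat.beq (mulP P P) idP &&
  Nat.beq (mulP P (cj u ui P)) (mulP (cj u ui P) P) &&
  Nat.beq (mulP P (cj u ui (cj u ui P))) (mulP (cj u ui (cj u ui P)) P)

theorem good4_of_chk (E : Ext2 τ a) {u ui P : ℕ} (hu : validPerm u = true)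
    (hui : validPerm ui = true) (hP : validPerm P = true) (hur : toPerm u ∈ τ.range)
    (h : good4Chk u ui P = true) : Good τ (toPerm P) := by
  simp only [good4Chk, Bool.and_eq_true] at h
  obtain ⟨⟨⟨⟨⟨⟨h0, h1⟩, h2⟩, h2'⟩, h3⟩, h4⟩, h5⟩ := h
  have v1 := cj_valid hu hui hP
  have v2 := cj_valid hu hui v1
  have v3 := cj_valid hu hui v2
  refine E.good4 (x1 := toPerm (cj u ui P)) (x2 := toPerm (cj u ui (cj u ui P)))
    (x3 := toPerm (cj u ui (cj u ui (cj u ui P)))) hur ?_ ?_ ?_ ?_ ?_ ?_ ?_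
  · rw [← toPerm_mulP hu hP, Nat.eq_of_beq_eq_true h0, toPerm_mulP v1 hu]
  · rw [← toPerm_mulP hu v1, Nat.eq_of_beq_eq_true h1, toPerm_mulP v2 hu]
  · rw [← toPerm_mulP hu v2, Nat.eq_of_beq_eq_true h2, toPerm_mulP v3 hu]
  · rw [← toPerm_mulP hu v3, Nat.eq_of_beq_eq_true h2', toPerm_mulP (validPerm_mulP hP v1) hu,
      toPerm_mulP hP v1]
  · rw [← toPerm_mulP hP hP, Nat.eq_of_beq_eq_true h3, toPerm_idP]
  · rw [← toPerm_mulP hP v1, Nat.eq_of_beq_eq_true h4, toPerm_mulP v1 hP]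
  · rw [← toPerm_mulP hP v2, Nat.eq_of_beq_eq_true h5, toPerm_mulP v2 hP]

/-- `x` is conjugate under `g` to `y` -/
theorem good_of_conj {g x y : ℕ} (hg : validPerm g = true) (hx : validPerm x = true)
    (hy : validPerm y = true) (hgr : toPerm g ∈ τ.range) (h : Nat.beq (mulP g x) (mulP y g) = true)
    (hgood : Good τ (toPerm y)) : Good τ (toPerm x) :=
  good_conj hgr (by rw [← toPerm_mulP hg hx, Nat.eq_of_beq_eq_true h, toPerm_mulP hy hg]) hgood

end good

/-! ### checks over an enumerated subgroup -/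

section enum

variable {l : List ℕ} (hv : ∀ P ∈ elems l, validPerm P = true)
  (hm : ∀ g, g ∈ Sub l ↔ ∃ P ∈ elems l, toPerm P = g)
include hv hm

theorem conj_mem_of_chk {t ti : ℕ} (ht : validPerm t = true) (hti : validPerm ti = true)
    (h1 : Nat.beq (mulP t ti) idP = true)
    (h : (elems l).all (fun P => (elems l).contains (cj t ti P)) = true) :
    ∀ w ∈ Sub l, toPerm t * w * (toPerm t)⁻¹ ∈ Sub l := by
  intro w hw
  obtain ⟨P, hP, rfl⟩ := (hm w).1 hw
  rw [← toPerm_cj ht hti (hv P hP) h1]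
  exact (hm _).2 ⟨_, List.contains_iff_mem.1 (List.all_eq_true.1 h P hP), rfl⟩

theorem nrm_of_chk {u ui : ℕ} (hu : validPerm u = true) (hui : validPerm ui = true)
    (h1 : Nat.beq (mulP u ui) idP = true)
    (h : (elems l).all (fun P => Nat.beq (mulP (mulP P (cj u ui P)) (cj u ui (cj u ui P))) idP)
      = true) :
    ∀ w ∈ Sub l, w * (toPerm u * w * (toPerm u)⁻¹) *
      (toPerm u * (toPerm u * w * (toPerm u)⁻¹) * (toPerm u)⁻¹) = 1 := by
  intro w hw
  obtain ⟨P, hP, rfl⟩ := (hm w).1 hw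
  have v0 := hv P hP
  have v1 := cj_valid hu hui v0
  have v2 := cj_valid hu hui v1
  rw [← toPerm_cj hu hui v0 h1, ← toPerm_cj hu hui v1 h1, ← toPerm_mulP v0 v1,
    ← toPerm_mulP (validPerm_mulP v0 v1) v2, Nat.eq_of_beq_eq_true (List.all_eq_true.1 h P hP),
    toPerm_idP]

end enum

def commOr (u t : ℕ) : Bool :=
  Nat.beq (mulP u t) (mulP t u) || Nat.beq (mulP u t) (mulP (mulP t u) u)

theorem commOr_sound {u t : ℕ} (hu : validPerm u = true) (ht : validPerm t = true)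
    (h : commOr u t = true) : toPerm u * toPerm t = toPerm t * toPerm u ∨
      toPerm u * toPerm t = toPerm t * toPerm u * toPerm u := by
  simp only [commOr, Bool.or_eq_true] at h
  rcases h with h | h
  · left
    rw [← toPerm_mulP hu ht, Nat.eq_of_beq_eq_true h, toPerm_mulP ht hu]
  · right
    rw [← toPerm_mulP hu ht, Nat.eq_of_beq_eq_true h, toPerm_mulP (validPerm_mulP ht hu) hu,
      toPerm_mulP ht hu]

/-! ### the assembled criteria -/

section mega

variable {Γ : Type*} [Group Γ] [Finite Γ] {τ : Γ →* XP} {a : Γ}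

def chkTop (inG : ℕ → Bool) (lW : List ℕ) (u t : ℕ) : Bool :=
  inG t && Nat.beq (mulP t t) idP && (elems lW).all (fun P => (elems lW).contains (cj t t P)) &&
    commOr u t

def chkGood (inG : ℕ → Bool) (lW : List ℕ) (x : ℕ) (e : ℕ × ℕ) : Bool :=
  inG e.1 && (elems lW).contains e.2 && Nat.beq (mulP e.1 x) (mulP e.2 e.1)

def chkU (inG : ℕ → Bool) (lW : List ℕ) (u ui : ℕ) : Bool :=
  inG u && inG ui && Nat.beq (mulP u ui) idP && Nat.beq (mulP (mulP u u) u) idP &&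
    (elems lW).all (fun P => (elems lW).contains (cj u ui P)) &&
    (elems lW).all (fun P => Nat.beq (mulP (mulP P (cj u ui P)) (cj u ui (cj u ui P))) idP)

omit [Finite Γ] in
theorem chkGood_sound {G : Subgroup XP} (hr : τ.range = G) {inG : ℕ → Bool}
    (hG : ∀ c, inG c = true → validPerm c = true ∧ toPerm c ∈ G) {lW : List ℕ}
    (hv : ∀ P ∈ elems lW, validPerm P = true)
    (hm : ∀ g, g ∈ Sub lW ↔ ∃ P ∈ elems lW, toPerm P = g)
    (hgood : ∀ w ∈ Sub lW, Good τ w) {x : ℕ} (hx : validPerm x = true) {e : ℕ × ℕ}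
    (h : chkGood inG lW x e = true) : Good τ (toPerm x) := by
  simp only [chkGood, Bool.and_eq_true, List.contains_iff_mem] at h
  obtain ⟨⟨h1, h2⟩, h3⟩ := h
  exact good_of_conj (hG _ h1).1 hx (hv _ h2) (hr ▸ (hG _ h1).2) h3
    (hgood _ ((hm _).2 ⟨_, h2, rfl⟩))

theorem packed_D8x2 (E : Ext2 τ a) (hc : τ.ker ≤ Subgroup.center Γ) (hs : τ.ker ≤ commutator Γ)
    (hcard : Nat.card τ.ker = 2) {G : Subgroup XP} (hr : τ.range = G) {inG : ℕ → Bool}
    (hG : ∀ c, inG c = true → validPerm c = true ∧ toPerm c ∈ G)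
    (dW dP : List (ℕ × ℕ × ℕ)) (hW : pcOK dW = true) (hP : pcOK dP = true)
    (hWG : (gensOf dW).all inG = true) (hPG : (gensOf dP).all inG = true)
    (hgood : ∀ w ∈ Sub (gensOf dW), Good τ w) (u ui s s' v : ℕ)
    (hU : chkU inG (gensOf dW) u ui = true) (cs : chkTop inG (gensOf dW) u s = true)
    (cs' : chkTop inG (gensOf dW) u s' = true) (cv : chkTop inG (gensOf dW) u v = true)
    (e1 e2 e3 e4 e5 e6 : ℕ × ℕ) (g1 : chkGood inG (gensOf dW) s e1 = true)
    (g2 : chkGood inG (gensOf dW) s' e2 = true)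
    (g3 : chkGood inG (gensOf dW) (mulP (mulP s s') (mulP s s')) e3 = true)
    (g4 : chkGood inG (gensOf dW) v e4 = true) (g5 : chkGood inG (gensOf dW) (mulP v s) e5 = true)
    (g6 : chkGood inG (gensOf dW) (mulP v s') e6 = true) (ws : List (List ℕ))
    (hws : wordsOK (gensOf dP) (v :: s' :: s :: gensOf dW) ws = true)
    (hlen : dP.length = dW.length + 4) (m : ℕ) (hcardG : Nat.card G = 2 ^ dP.length * m)
    (hm : ¬ 2 ∣ m) : False := by
  obtain ⟨vW, mW, cW⟩ := pc_sound hW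
  obtain ⟨vP, mP, cP⟩ := pc_sound hP
  simp only [chkU, Bool.and_eq_true] at hU
  obtain ⟨⟨⟨⟨⟨u1, u2⟩, u3⟩, u4⟩, u5⟩, u6⟩ := hU
  simp only [chkTop, Bool.and_eq_true] at cs cs' cv
  obtain ⟨⟨⟨s1, s2⟩, s3⟩, s4⟩ := cs
  obtain ⟨⟨⟨t1, t2⟩, t3⟩, t4⟩ := cs'
  obtain ⟨⟨⟨v1, v2⟩, v3⟩, v4⟩ := cv
  have hu := (hG _ u1).1
  have hui := (hG _ u2).1
  have hsv := (hG _ s1).1
  have htv := (hG _ t1).1
  have hvv := (hG _ v1).1
  have hvalid : ∀ x ∈ v :: s' :: s :: gensOf dW, validPerm x = true := by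
    intro x hx
    simp only [List.mem_cons] at hx
    rcases hx with rfl | rfl | rfl | hx
    · exact hvv
    · exact htv
    · exact hsv
    · exact pcOK_valid hW x hx
  have hQ := Sub_le_of_words hvalid ws hws
  rw [Sub_cons, Sub_cons, Sub_cons] at hQ
  have hQG : Sub (gensOf dP) ≤ G := Sub_le (fun x hx => (hG x (List.all_eq_true.1 hPG x hx)).2)
  refine split_D8x2 E hc hs hcard (Sub (gensOf dW))
    (hr ▸ Sub_le (fun x hx => (hG x (List.all_eq_true.1 hWG x hx)).2)) hgood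
    (toPerm u) (toPerm s) (toPerm s') (toPerm v) (hr ▸ (hG _ u1).2) (hr ▸ (hG _ s1).2)
    (hr ▸ (hG _ t1).2) (hr ▸ (hG _ v1).2) ?_ (conj_mem_of_chk vW mW hu hui u3 u5)
    (nrm_of_chk vW mW hu hui u3 u6) (conj_mem_of_chk vW mW hsv hsv s2 s3)
    (conj_mem_of_chk vW mW htv htv t2 t3) (conj_mem_of_chk vW mW hvv hvv v2 v3)
    (commOr_sound hu hsv s4) (commOr_sound hu htv t4) (commOr_sound hu hvv v4)
    (chkGood_sound hr hG vW mW hgood hsv g1) (chkGood_sound hr hG vW mW hgood htv g2) ?_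
    (chkGood_sound hr hG vW mW hgood hvv g4) ?_ ?_ (Sub (gensOf dP)) hQ ?_
    (hr ▸ not_dvd_relIndex hQG cP hcardG (by positivity) hm)
  · rw [← toPerm_mulP hu hu, ← toPerm_mulP (validPerm_mulP hu hu) hu, Nat.eq_of_beq_eq_true u4,
      toPerm_idP]
  · rw [← toPerm_mulP hsv htv, ← toPerm_mulP (validPerm_mulP hsv htv) (validPerm_mulP hsv htv)]
    exact chkGood_sound hr hG vW mW hgood
      (validPerm_mulP (validPerm_mulP hsv htv) (validPerm_mulP hsv htv)) g3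
  · rw [← toPerm_mulP hvv hsv]
    exact chkGood_sound hr hG vW mW hgood (validPerm_mulP hvv hsv) g5
  · rw [← toPerm_mulP hvv htv]
    exact chkGood_sound hr hG vW mW hgood (validPerm_mulP hvv htv) g6
  · rw [cW, cP, hlen, pow_add]
    norm_num [mul_comm]

theorem packed_D8 (E : Ext2 τ a) (hc : τ.ker ≤ Subgroup.center Γ) (hs : τ.ker ≤ commutator Γ)
    (hcard : Nat.card τ.ker = 2) {G : Subgroup XP} (hr : τ.range = G) {inG : ℕ → Bool}
    (hG : ∀ c, inG c = true → validPerm c = true ∧ toPerm c ∈ G)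
    (dW dP : List (ℕ × ℕ × ℕ)) (hW : pcOK dW = true) (hP : pcOK dP = true)
    (hWG : (gensOf dW).all inG = true) (hPG : (gensOf dP).all inG = true)
    (hgood : ∀ w ∈ Sub (gensOf dW), Good τ w) (u ui s s' : ℕ)
    (hU : chkU inG (gensOf dW) u ui = true) (cs : chkTop inG (gensOf dW) u s = true)
    (cs' : chkTop inG (gensOf dW) u s' = true)
    (e1 e2 e3 : ℕ × ℕ) (g1 : chkGood inG (gensOf dW) s e1 = true)
    (g2 : chkGood inG (gensOf dW) s' e2 = true)
    (g3 : chkGood inG (gensOf dW) (mulP (mulP s s') (mulP s s')) e3 = true)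
    (ws : List (List ℕ))
    (hws : wordsOK (gensOf dP) (s' :: s :: gensOf dW) ws = true)
    (hlen : dP.length = dW.length + 3) (m : ℕ) (hcardG : Nat.card G = 2 ^ dP.length * m)
    (hm : ¬ 2 ∣ m) : False := by
  obtain ⟨vW, mW, cW⟩ := pc_sound hW
  obtain ⟨vP, mP, cP⟩ := pc_sound hP
  simp only [chkU, Bool.and_eq_true] at hU
  obtain ⟨⟨⟨⟨⟨u1, u2⟩, u3⟩, u4⟩, u5⟩, u6⟩ := hU
  simp only [chkTop, Bool.and_eq_true] at cs cs'
  obtain ⟨⟨⟨s1, s2⟩, s3⟩, s4⟩ := cs
  obtain ⟨⟨⟨t1, t2⟩, t3⟩, t4⟩ := cs'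
  have hu := (hG _ u1).1
  have hui := (hG _ u2).1
  have hsv := (hG _ s1).1
  have htv := (hG _ t1).1
  have hvalid : ∀ x ∈ s' :: s :: gensOf dW, validPerm x = true := by
    intro x hx
    simp only [List.mem_cons] at hx
    rcases hx with rfl | rfl | hx
    · exact htv
    · exact hsv
    · exact pcOK_valid hW x hx
  have hQ := Sub_le_of_words hvalid ws hws
  rw [Sub_cons, Sub_cons] at hQ
  have hQG : Sub (gensOf dP) ≤ G := Sub_le (fun x hx => (hG x (List.all_eq_true.1 hPG x hx)).2)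
  refine split_D8 E hc hs hcard (Sub (gensOf dW))
    (hr ▸ Sub_le (fun x hx => (hG x (List.all_eq_true.1 hWG x hx)).2)) hgood
    (toPerm u) (toPerm s) (toPerm s') (hr ▸ (hG _ u1).2) (hr ▸ (hG _ s1).2)
    (hr ▸ (hG _ t1).2) ?_ (conj_mem_of_chk vW mW hu hui u3 u5)
    (nrm_of_chk vW mW hu hui u3 u6) (conj_mem_of_chk vW mW hsv hsv s2 s3)
    (conj_mem_of_chk vW mW htv htv t2 t3)
    (commOr_sound hu hsv s4) (commOr_sound hu htv t4)
    (chkGood_sound hr hG vW mW hgood hsv g1) (chkGood_sound hr hG vW mW hgood htv g2) ?_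
    (Sub (gensOf dP)) hQ ?_
    (hr ▸ not_dvd_relIndex hQG cP hcardG (by positivity) hm)
  · rw [← toPerm_mulP hu hu, ← toPerm_mulP (validPerm_mulP hu hu) hu, Nat.eq_of_beq_eq_true u4,
      toPerm_idP]
  · rw [← toPerm_mulP hsv htv, ← toPerm_mulP (validPerm_mulP hsv htv) (validPerm_mulP hsv htv)]
    exact chkGood_sound hr hG vW mW hgood
      (validPerm_mulP (validPerm_mulP hsv htv) (validPerm_mulP hsv htv)) g3
  · rw [cW, cP, hlen, pow_add]
    norm_num [mul_comm]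

omit [Finite Γ] in
theorem goodW3 (E : Ext2 τ a) {G : Subgroup XP} (hr : τ.range = G) {inG : ℕ → Bool}
    (hG : ∀ c, inG c = true → validPerm c = true ∧ toPerm c ∈ G)
    (dW : List (ℕ × ℕ × ℕ)) (hW : pcOK dW = true) (u ui : ℕ) (hu : inG u = true)
    (hui : inG ui = true) (h : (elems (gensOf dW)).all (good3Chk u ui) = true) :
    ∀ w ∈ Sub (gensOf dW), Good τ w := by
  obtain ⟨vW, mW, -⟩ := pc_sound hW
  intro w hw
  obtain ⟨P, hP, rfl⟩ := (mW w).1 hw
  exact good3_of_chk E (hG _ hu).1 (hG _ hui).1 (vW P hP) (hr ▸ (hG _ hu).2)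
    (List.all_eq_true.1 h P hP)

omit [Finite Γ] in
theorem goodW4 (E : Ext2 τ a) {G : Subgroup XP} (hr : τ.range = G) {inG : ℕ → Bool}
    (hG : ∀ c, inG c = true → validPerm c = true ∧ toPerm c ∈ G)
    (dW : List (ℕ × ℕ × ℕ)) (hW : pcOK dW = true) (u ui : ℕ) (hu : inG u = true)
    (hui : inG ui = true) (h : (elems (gensOf dW)).all (good4Chk u ui) = true) :
    ∀ w ∈ Sub (gensOf dW), Good τ w := by
  obtain ⟨vW, mW, -⟩ := pc_sound hW
  intro w hw
  obtain ⟨P, hP, rfl⟩ := (mW w).1 hw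
  exact good4_of_chk E (hG _ hu).1 (hG _ hui).1 (vW P hP) (hr ▸ (hG _ hu).2)
    (List.all_eq_true.1 h P hP)

/-! ### masks -/

omit [Finite Γ] in
theorem zpowers_le_stab {x B : ℕ} (hx : validPerm x = true) (h : Nat.beq (app x B) B = true) :
    Subgroup.zpowers (toPerm x) ≤ MulAction.stabilizer XP (dec B) := by
  rw [Subgroup.zpowers_le, MulAction.mem_stabilizer_iff, smul_dec hx, Nat.eq_of_beq_eq_true h]

theorem not_mem_of_mask {K : Subgroup XP} {y B : ℕ} (hy : validPerm y = true)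
    (hB : decide (B < 16777216) = true) (hK : K ≤ MulAction.stabilizer XP (dec B))
    (h : (!(Nat.beq (app y B) B)) = true) : toPerm y ∉ K := by
  intro hmem
  have h1 := hK hmem
  rw [MulAction.mem_stabilizer_iff, smul_dec hy] at h1
  have h2 := dec_injOn (app_lt hy B) (by norm_num; exact of_decide_eq_true hB) h1
  rw [h2] at h
  simp at h

theorem ne_one_of_mask {y B : ℕ} (hy : validPerm y = true)
    (hB : decide (B < 16777216) = true) (h : (!(Nat.beq (app y B) B)) = true) : toPerm y ≠ 1 := by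
  intro h1
  exact not_mem_of_mask (K := ⊥) hy hB bot_le h (by rw [h1]; exact Subgroup.one_mem _)

theorem cube_of {x : ℕ} (hx : validPerm x = true) (h : Nat.beq (mulP (mulP x x) x) idP = true) :
    toPerm x * toPerm x * toPerm x = 1 := by
  rw [← toPerm_mulP hx hx, ← toPerm_mulP (validPerm_mulP hx hx) hx, Nat.eq_of_beq_eq_true h,
    toPerm_idP]

theorem eq22 {A B C D : ℕ} (hA : validPerm A = true) (hB : validPerm B = true)
    (hC : validPerm C = true) (hD : validPerm D = true) (h : Nat.beq (mulP A B) (mulP C D) = true) :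
    toPerm A * toPerm B = toPerm C * toPerm D := by
  rw [← toPerm_mulP hA hB, Nat.eq_of_beq_eq_true h, toPerm_mulP hC hD]

def chkSwap (inG : ℕ → Bool) (x y n B : ℕ) : Bool :=
  inG x && inG y && inG n && Nat.beq (mulP x y) (mulP y x) && Nat.beq (mulP n x) (mulP y n) &&
  Nat.beq (mulP n y) (mulP x n) && Nat.beq (mulP (mulP x x) x) idP &&
  Nat.beq (mulP (mulP y y) y) idP && Nat.beq (app x B) B && !(Nat.beq (app y B) B) &&
  decide (B < 16777216)

theorem packed_swap (hc : τ.ker ≤ Subgroup.center Γ) (hs : τ.ker ≤ commutator Γ)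
    (hcard : Nat.card τ.ker = 3) {G : Subgroup XP} (hr : τ.range = G) {inG : ℕ → Bool}
    (hG : ∀ c, inG c = true → validPerm c = true ∧ toPerm c ∈ G) (x y n B : ℕ)
    (h : chkSwap inG x y n B = true) (m : ℕ) (hcardG : Nat.card G = 3 * 3 * m) (hm : ¬ 3 ∣ m) :
    False := by
  simp only [chkSwap, Bool.and_eq_true] at h
  obtain ⟨⟨⟨⟨⟨⟨⟨⟨⟨⟨h1, h2⟩, h3⟩, h4⟩, h5⟩, h6⟩, h7⟩, h8⟩, h9⟩, h10⟩, h11⟩ := h
  have vx := (hG _ h1).1
  have vy := (hG _ h2).1
  have vn := (hG _ h3).1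
  have p3 : ∀ g : XP, g * g * g = 1 → g ^ 3 = 1 := fun g hg => by rw [pow_succ, pow_two, hg]
  have hnot : toPerm y ∉ Subgroup.zpowers (toPerm x) :=
    not_mem_of_mask vy h11 (zpowers_le_stab vx h9) h10
  have e1 := eq22 vn vx vy vn h5
  have hx1 : toPerm x ≠ 1 := by
    intro hx
    rw [hx, mul_one] at e1
    apply hnot
    rw [mul_eq_right.1 e1.symm]
    exact Subgroup.one_mem _
  have hle : Subgroup.zpowers (toPerm x) ⊔ Subgroup.zpowers (toPerm y) ≤ G :=
    sup_le (Subgroup.zpowers_le.2 (hG _ h1).2) (Subgroup.zpowers_le.2 (hG _ h2).2)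
  refine swap_case hc hs Nat.prime_three hcard (by norm_num) (toPerm x) (toPerm y) (toPerm n)
    (hr ▸ (hG _ h1).2) (hr ▸ (hG _ h2).2) (hr ▸ (hG _ h3).2) (eq22 vx vy vy vx h4) e1
    (eq22 vn vy vx vn h6) (hr ▸ not_dvd_relIndex hle
      (card_rank2 Nat.prime_three (eq22 vx vy vy vx h4) (p3 _ (cube_of vx h7)) hx1
        (p3 _ (cube_of vy h8)) hnot) hcardG (by norm_num) hm)

def chkES (inG : ℕ → Bool) (x y c n B0 B1 B2 : ℕ) : Bool :=
  inG x && inG y && inG c && inG n && Nat.beq (mulP x y) (mulP (mulP c y) x) &&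
  Nat.beq (mulP x c) (mulP c x) && Nat.beq (mulP y c) (mulP c y) && Nat.beq (mulP n c) (mulP c n) &&
  Nat.beq (mulP (mulP x n) x) n && Nat.beq (mulP (mulP y n) y) n &&
  Nat.beq (mulP (mulP x x) x) idP && Nat.beq (mulP (mulP y y) y) idP &&
  Nat.beq (mulP (mulP c c) c) idP &&
  !(Nat.beq (app c B0) B0) && decide (B0 < 16777216) &&
  Nat.beq (app c B1) B1 && !(Nat.beq (app x B1) B1) && decide (B1 < 16777216) &&
  Nat.beq (app c B2) B2 && Nat.beq (app x B2) B2 && !(Nat.beq (app y B2) B2) &&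
  decide (B2 < 16777216)

theorem packed_ES (hc : τ.ker ≤ Subgroup.center Γ) (hs : τ.ker ≤ commutator Γ)
    (hcard : Nat.card τ.ker = 3) {G : Subgroup XP} (hr : τ.range = G) {inG : ℕ → Bool}
    (hG : ∀ c, inG c = true → validPerm c = true ∧ toPerm c ∈ G) (x y c n B0 B1 B2 : ℕ)
    (h : chkES inG x y c n B0 B1 B2 = true) (m : ℕ) (hcardG : Nat.card G = 27 * m)
    (hm : ¬ 3 ∣ m) : False := by
  simp only [chkES, Bool.and_eq_true] at h
  obtain ⟨⟨⟨⟨⟨⟨⟨⟨⟨⟨⟨⟨⟨⟨⟨⟨⟨⟨⟨⟨⟨h1, h2⟩, h3⟩, h4⟩, h5⟩, h6⟩, h7⟩, h8⟩, h9⟩, h10⟩, h11⟩, h12⟩, h13⟩,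
    h14⟩, h15⟩, h16⟩, h17⟩, h18⟩, h19⟩, h20⟩, h21⟩, h22⟩ := h
  have vx := (hG _ h1).1
  have vy := (hG _ h2).1
  have vc := (hG _ h3).1
  have vn := (hG _ h4).1
  have exy : toPerm x * toPerm y = toPerm c * toPerm y * toPerm x := by
    rw [← toPerm_mulP vx vy, Nat.eq_of_beq_eq_true h5, toPerm_mulP (validPerm_mulP vc vy) vx,
      toPerm_mulP vc vy]
  have enx : toPerm x * toPerm n * toPerm x = toPerm n := by
    rw [← toPerm_mulP vx vn, ← toPerm_mulP (validPerm_mulP vx vn) vx, Nat.eq_of_beq_eq_true h9]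
  have eny : toPerm y * toPerm n * toPerm y = toPerm n := by
    rw [← toPerm_mulP vy vn, ← toPerm_mulP (validPerm_mulP vy vn) vy, Nat.eq_of_beq_eq_true h10]
  have hc1 : toPerm c ≠ 1 := ne_one_of_mask vc h15 h14
  have n1 : toPerm x ∉ Subgroup.zpowers (toPerm c) :=
    not_mem_of_mask vx h18 (zpowers_le_stab vc h16) h17
  have n2 : toPerm y ∉ Subgroup.zpowers (toPerm c) ⊔ Subgroup.zpowers (toPerm x) :=
    not_mem_of_mask vy h22 (sup_le (zpowers_le_stab vc h19) (zpowers_le_stab vx h20)) h21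
  have hle : Subgroup.zpowers (toPerm c) ⊔ Subgroup.zpowers (toPerm x) ⊔
      Subgroup.zpowers (toPerm y) ≤ G :=
    sup_le (sup_le (Subgroup.zpowers_le.2 (hG _ h3).2) (Subgroup.zpowers_le.2 (hG _ h1).2))
      (Subgroup.zpowers_le.2 (hG _ h2).2)
  exact extraspecial_case hc hs hcard (toPerm x) (toPerm y) (toPerm c) (toPerm n)
    (hr ▸ (hG _ h1).2) (hr ▸ (hG _ h2).2) (hr ▸ (hG _ h4).2) exy (eq22 vx vc vc vx h6)
    (eq22 vy vc vc vy h7) (eq22 vn vc vc vn h8) enx eny (cube_of vx h11) hc1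
    (hr ▸ not_dvd_relIndex hle
      (card_extraspecial exy (eq22 vx vc vc vx h6) (eq22 vy vc vc vy h7) (cube_of vx h11)
        (cube_of vy h12) (cube_of vc h13) hc1 n1 n2) hcardG (by norm_num) hm)

def chkSD (inG : ℕ → Bool) (r s B : ℕ) : Bool :=
  inG r && inG s && Nat.beq (mulP s r) (mulP (mulP (mulP r r) r) s) && Nat.beq (mulP s s) idP &&
  !(Nat.beq (app (mulP (mulP r r) (mulP r r)) B) B) && decide (B < 16777216) &&
  Nat.beq (mulP (mulP (mulP r r) (mulP r r)) (mulP (mulP r r) (mulP r r))) idP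

theorem packed_SD (E : Ext2 τ a) (hc : τ.ker ≤ Subgroup.center Γ) (hs : τ.ker ≤ commutator Γ)
    (hcard : Nat.card τ.ker = 2) {G : Subgroup XP} (hr : τ.range = G) {inG : ℕ → Bool}
    (hG : ∀ c, inG c = true → validPerm c = true ∧ toPerm c ∈ G) (r s B : ℕ)
    (h : chkSD inG r s B = true) (m : ℕ) (hcardG : Nat.card G = 16 * m)
    (hm : ¬ 2 ∣ m) : False := by
  simp only [chkSD, Bool.and_eq_true] at h
  obtain ⟨⟨⟨⟨⟨⟨h1, h2⟩, h3⟩, h4⟩, h5⟩, h6⟩, h7⟩ := h
  have vr := (hG _ h1).1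
  have vs := (hG _ h2).1
  have vr2 := validPerm_mulP vr vr
  have vr4 := validPerm_mulP vr2 vr2
  have e1 : toPerm s * toPerm r = toPerm r * toPerm r * toPerm r * toPerm s := by
    rw [← toPerm_mulP vs vr, Nat.eq_of_beq_eq_true h3, toPerm_mulP (validPerm_mulP vr2 vr) vs,
      toPerm_mulP vr2 vr, toPerm_mulP vr vr]
  have e2 : toPerm s * toPerm s = 1 := by
    rw [← toPerm_mulP vs vs, Nat.eq_of_beq_eq_true h4, toPerm_idP]
  have e3 : toPerm r * toPerm r * (toPerm r * toPerm r) ≠ 1 := by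
    rw [← toPerm_mulP vr vr, ← toPerm_mulP vr2 vr2]
    exact ne_one_of_mask vr4 h6 h5
  have e4 : toPerm r * toPerm r * (toPerm r * toPerm r) *
      (toPerm r * toPerm r * (toPerm r * toPerm r)) = 1 := by
    rw [← toPerm_mulP vr vr, ← toPerm_mulP vr2 vr2, ← toPerm_mulP vr4 vr4,
      Nat.eq_of_beq_eq_true h7, toPerm_idP]
  have hle : Subgroup.zpowers (toPerm r) ⊔ Subgroup.zpowers (toPerm s) ≤ G :=
    sup_le (Subgroup.zpowers_le.2 (hG _ h1).2) (Subgroup.zpowers_le.2 (hG _ h2).2)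
  exact sd16_case E hc hs hcard (toPerm r) (toPerm s) (hr ▸ (hG _ h1).2) (hr ▸ (hG _ h2).2) e1 e2 e3
    (hr ▸ not_dvd_relIndex hle (card_sd16 e1 e2 e3 e4) hcardG (by norm_num) hm)

end mega

end Cfsg.Agent.Lib.Helper69Pk
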