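import Mathlib

set_option autoImplicit false

/-!
Biadditive forms on a finite field which are invariant under multiplication by non-zero squares.
-/

namespace Cfsg.Agent.Lib.Helper69SqForm

theorem exists_notMem {F : Type*} [Fintype F] [DecidableEq F] (S : Finset F) (h : S.card < Fintype.card F) :
    ∃ x, x ∉ S := by
  by_contra hcon
  simp only [not_exists, not_not] at hcon
  have : S = Finset.univ := Finset.eq_univ_iff_forall.2 hcon
  rw [this, Finset.card_univ] at h
  exact lt_irrefl _ h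

variable {F : Type*} [Field F] {A : Type*} [AddCommGroup A]

/-- the fourth difference of `t ↦ β (t² x) (t² y)` -/
theorem fourth_diff (β : F →+ F →+ A) (t x y : F) :
    β ((t + 4) ^ 2 * x) ((t + 4) ^ 2 * y) - 4 • β ((t + 3) ^ 2 * x) ((t + 3) ^ 2 * y)
      + 6 • β ((t + 2) ^ 2 * x) ((t + 2) ^ 2 * y) - 4 • β ((t + 1) ^ 2 * x) ((t + 1) ^ 2 * y)
      + β (t ^ 2 * x) (t ^ 2 * y) = 24 • β x y := by
  have e4 : ∀ z : F, (t + 4) ^ 2 * z = t ^ 2 * z + 8 • (t * z) + 16 • z := by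
    intro z
    simp only [nsmul_eq_mul]
    push_cast
    ring
  have e3 : ∀ z : F, (t + 3) ^ 2 * z = t ^ 2 * z + 6 • (t * z) + 9 • z := by
    intro z
    simp only [nsmul_eq_mul]
    push_cast
    ring
  have e2 : ∀ z : F, (t + 2) ^ 2 * z = t ^ 2 * z + 4 • (t * z) + 4 • z := by
    intro z
    simp only [nsmul_eq_mul]
    push_cast
    ring
  have e1 : ∀ z : F, (t + 1) ^ 2 * z = t ^ 2 * z + 2 • (t * z) + z := by
    intro z
    simp only [nsmul_eq_mul]
    push_cast
    ring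
  simp only [e4, e3, e2, e1, map_add, map_nsmul, AddMonoidHom.add_apply, AddMonoidHom.nsmul_apply,
    smul_add, smul_smul]
  abel

theorem large_char [Fintype F] (hq : 5 < Fintype.card F) (β : F →+ F →+ A)
    (hinv : ∀ t x y, t ≠ 0 → β (t ^ 2 * x) (t ^ 2 * y) = β x y) (x y : F) : 24 • β x y = 0 := by
  classical
  obtain ⟨t, ht⟩ := exists_notMem ({0, -1, -2, -3, -4} : Finset F)
    (lt_of_le_of_lt Finset.card_le_five hq)
  simp only [Finset.mem_insert, Finset.mem_singleton, not_or] at ht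
  obtain ⟨h0, h1, h2, h3, h4⟩ := ht
  have n1 : t + 1 ≠ 0 := fun h => h1 (eq_neg_of_add_eq_zero_left h)
  have n2 : t + 2 ≠ 0 := fun h => h2 (eq_neg_of_add_eq_zero_left h)
  have n3 : t + 3 ≠ 0 := fun h => h3 (eq_neg_of_add_eq_zero_left h)
  have n4 : t + 4 ≠ 0 := fun h => h4 (eq_neg_of_add_eq_zero_left h)
  rw [← fourth_diff β t x y, hinv _ x y h0, hinv _ x y n1, hinv _ x y n2, hinv _ x y n3,
    hinv _ x y n4]
  abel

/-- the second difference of `t ↦ β (t² x) (t² y)` -/
theorem second_diff (β : F →+ F →+ A) (t x y : F) :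
    β ((t + 2) ^ 2 * x) ((t + 2) ^ 2 * y) - 2 • β ((t + 1) ^ 2 * x) ((t + 1) ^ 2 * y)
      + β (t ^ 2 * x) (t ^ 2 * y) =
    2 • (β x (t ^ 2 * y) + β (t ^ 2 * x) y + 4 • β (t * x) (t * y))
      + 12 • (β x (t * y) + β (t * x) y) + 14 • β x y := by
  have e2 : ∀ z : F, (t + 2) ^ 2 * z = t ^ 2 * z + 4 • (t * z) + 4 • z := by
    intro z
    simp only [nsmul_eq_mul]
    push_cast
    ring
  have e1 : ∀ z : F, (t + 1) ^ 2 * z = t ^ 2 * z + 2 • (t * z) + z := by
    intro z
    simp only [nsmul_eq_mul]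
    push_cast
    ring
  simp only [e2, e1, map_add, map_nsmul, AddMonoidHom.add_apply, AddMonoidHom.nsmul_apply,
    smul_add, smul_smul]
  abel

/-- an auxiliary quadratic map -/
def QQ (β : F →+ F →+ A) (x y t : F) : A := β x (t ^ 2 * y) + β (t ^ 2 * x) y + β (t * x) (t * y)

theorem QQ_parallelogram (β : F →+ F →+ A) (x y a b : F) :
    QQ β x y (a + b) + QQ β x y (a - b) = 2 • QQ β x y a + 2 • QQ β x y b := by
  have e1 : ∀ z : F, (a + b) ^ 2 * z = a ^ 2 * z + 2 • (a * b * z) + b ^ 2 * z := by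
    intro z
    simp only [nsmul_eq_mul]
    push_cast
    ring
  have e2 : ∀ z : F, (a - b) ^ 2 * z = a ^ 2 * z - 2 • (a * b * z) + b ^ 2 * z := by
    intro z
    simp only [nsmul_eq_mul]
    push_cast
    ring
  simp only [QQ, e1, e2, add_mul, sub_mul, map_add, map_sub, map_nsmul, AddMonoidHom.add_apply,
    AddMonoidHom.sub_apply, AddMonoidHom.nsmul_apply, smul_add]
  abel

theorem QQ_eq (β : F →+ F →+ A) (h3 : ∀ u v, 3 • β u v = 0)
    (hinv : ∀ t x y, t ≠ 0 → β (t ^ 2 * x) (t ^ 2 * y) = β x y) (x y t : F) (h0 : t ≠ 0)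
    (h1 : t + 1 ≠ 0) (h2 : t + 2 ≠ 0) : QQ β x y t + β x y = 0 := by
  have h := second_diff β t x y
  rw [hinv _ x y h0, hinv _ x y h1, hinv _ x y h2] at h
  have hz : β x y - 2 • β x y + β x y = 0 := by abel
  rw [hz] at h
  have : QQ β x y t + β x y = 3 • β x (t ^ 2 * y) + 3 • β (t ^ 2 * x) y + 3 • β (t * x) (t * y)
      + 3 • β x y + 2 • (3 • β (t * x) (t * y)) + 4 • (3 • β x (t * y)) + 4 • (3 • β (t * x) y)
      + 4 • (3 • β x y)
      - (2 • (β x (t ^ 2 * y) + β (t ^ 2 * x) y + 4 • β (t * x) (t * y))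
      + 12 • (β x (t * y) + β (t * x) y) + 14 • β x y) := by
    simp only [QQ, smul_add, smul_smul]
    abel
  rw [this, ← h]
  simp only [h3, smul_zero, add_zero, sub_zero]

theorem char_three [Fintype F] (hq : 9 < Fintype.card F) (β : F →+ F →+ A)
    (h3 : ∀ u v, 3 • β u v = 0)
    (hinv : ∀ t x y, t ≠ 0 → β (t ^ 2 * x) (t ^ 2 * y) = β x y) (x y : F) : β x y = 0 := by
  classical
  obtain ⟨a, ha⟩ := exists_notMem ({0, -1, -2} : Finset F)
    (lt_of_le_of_lt Finset.card_le_three (by omega))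
  obtain ⟨b, hb⟩ := exists_notMem ({0, -1, -2, -a, -1 - a, -2 - a, a, a + 1, a + 2} : Finset F)
    (lt_of_le_of_lt (by
      refine (Finset.card_insert_le _ _).trans ?_
      refine (Nat.succ_le_succ (Finset.card_insert_le _ _)).trans ?_
      refine (Nat.succ_le_succ (Nat.succ_le_succ (Finset.card_insert_le _ _))).trans ?_
      refine (Nat.succ_le_succ (Nat.succ_le_succ (Nat.succ_le_succ Finset.card_le_six))).trans ?_
      exact le_refl 9) hq)
  simp only [Finset.mem_insert, Finset.mem_singleton, not_or] at ha hb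
  obtain ⟨a0, a1, a2⟩ := ha
  obtain ⟨b0, b1, b2, c0, c1, c2, d0, d1, d2⟩ := hb
  have A := QQ_eq β h3 hinv x y a a0 (fun h => a1 (eq_neg_of_add_eq_zero_left h))
    (fun h => a2 (eq_neg_of_add_eq_zero_left h))
  have B := QQ_eq β h3 hinv x y b b0 (fun h => b1 (eq_neg_of_add_eq_zero_left h))
    (fun h => b2 (eq_neg_of_add_eq_zero_left h))
  have C := QQ_eq β h3 hinv x y (a + b) (fun h => c0 (by linear_combination h))
    (fun h => c1 (by linear_combination h)) (fun h => c2 (by linear_combination h))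
  have D := QQ_eq β h3 hinv x y (a - b) (fun h => d0 (by linear_combination -h))
    (fun h => d1 (by linear_combination -h)) (fun h => d2 (by linear_combination -h))
  have P := QQ_parallelogram β x y a b
  rw [eq_neg_of_add_eq_zero_left A, eq_neg_of_add_eq_zero_left B, eq_neg_of_add_eq_zero_left C,
    eq_neg_of_add_eq_zero_left D] at P
  have : β x y = 3 • β x y - ((-β x y + -β x y) - (2 • -β x y + 2 • -β x y)) := by abel
  rw [this, P, h3]
  abel

theorem char_two [Fintype F] (h2 : (2 : F) = 0) (hq : 4 < Fintype.card F) (β : F →+ F →+ A)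
    (hinv : ∀ t x y, t ≠ 0 → β (t ^ 2 * x) (t ^ 2 * y) = β x y) (x y : F) : β x y = 0 := by
  classical
  have sq : ∀ s t z : F, (s + t) ^ 2 * z = s ^ 2 * z + t ^ 2 * z := by
    intro s t z
    linear_combination (s * t * z) * h2
  have key : ∀ s t : F, s ≠ 0 → t ≠ 0 → s + t ≠ 0 →
      β (s ^ 2 * x) (t ^ 2 * y) + β (t ^ 2 * x) (s ^ 2 * y) = - β x y := by
    intro s t hs ht hst
    have h := hinv (s + t) x y hst
    rw [sq, sq, map_add, map_add, AddMonoidHom.add_apply, AddMonoidHom.add_apply, hinv s x y hs,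
      hinv t x y ht] at h
    have : β (s ^ 2 * x) (t ^ 2 * y) + β (t ^ 2 * x) (s ^ 2 * y) =
        (β x y + β (t ^ 2 * x) (s ^ 2 * y) + (β (s ^ 2 * x) (t ^ 2 * y) + β x y)) - 2 • β x y := by
      abel
    rw [this, h]
    abel
  obtain ⟨t, ht⟩ := exists_notMem ({0, 1} : Finset F) (lt_of_le_of_lt Finset.card_le_two (by omega))
  obtain ⟨t', ht'⟩ := exists_notMem ({0, 1, t, 1 + t} : Finset F)
    (lt_of_le_of_lt Finset.card_le_four hq)
  simp only [Finset.mem_insert, Finset.mem_singleton, not_or] at ht ht'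
  obtain ⟨t0, t1⟩ := ht
  obtain ⟨u0, u1, u2, u3⟩ := ht'
  have k1 := key 1 t one_ne_zero t0 (fun h => t1 (by linear_combination h - h2))
  have k2 := key 1 t' one_ne_zero u0 (fun h => u1 (by linear_combination h - h2))
  have k3 := key 1 (t + t') one_ne_zero (fun h => u2 (by linear_combination h - t * h2))
    (fun h => u3 (by linear_combination h - (1 + t) * h2))
  rw [sq, sq, map_add, map_add, AddMonoidHom.add_apply] at k3
  have h0 : (β (1 ^ 2 * x) (t ^ 2 * y) + β (1 ^ 2 * x) (t' ^ 2 * y)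
      + (β (t ^ 2 * x) (1 ^ 2 * y) + β (t' ^ 2 * x) (1 ^ 2 * y)))
      - (β (1 ^ 2 * x) (t ^ 2 * y) + β (t ^ 2 * x) (1 ^ 2 * y))
      - (β (1 ^ 2 * x) (t' ^ 2 * y) + β (t' ^ 2 * x) (1 ^ 2 * y)) = 0 := by abel
  rw [k3, k1, k2] at h0
  have : β x y = -β x y - -β x y - -β x y := by abel
  rw [this, h0]

/-- the main statement -/
theorem beta_zero [Fintype F] (p : ℕ) [Fact p.Prime] [CharP F p] (h4 : Fintype.card F ≠ 4)
    (h9 : Fintype.card F ≠ 9) (hqp : Fintype.card F ≠ p) (β : F →+ F →+ A)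
    (hp : ∀ x y, p • β x y = 0)
    (hinv : ∀ t x y, t ≠ 0 → β (t ^ 2 * x) (t ^ 2 * y) = β x y) (x y : F) : β x y = 0 := by
  obtain ⟨n, -, hn⟩ := FiniteField.card F p
  have hn0 : 0 < (n : ℕ) := n.pos
  have hn1 : (n : ℕ) ≠ 1 := by
    intro h
    rw [h, pow_one] at hn
    exact hqp hn
  have hp2 := (Fact.out : p.Prime).two_le
  by_cases p2 : p = 2
  · subst p2
    have hn2 : (n : ℕ) ≠ 2 := by
      intro h
      rw [h] at hn
      exact h4 hn
    have : 2 ^ 3 ≤ 2 ^ (n : ℕ) := Nat.pow_le_pow_right (by norm_num) (by omega)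
    exact char_two (CharP.cast_eq_zero F 2) (by rw [hn]; omega) β hinv x y
  by_cases p3 : p = 3
  · subst p3
    have hn2 : (n : ℕ) ≠ 2 := by
      intro h
      rw [h] at hn
      exact h9 hn
    have : 3 ^ 3 ≤ 3 ^ (n : ℕ) := Nat.pow_le_pow_right (by norm_num) (by omega)
    exact char_three (by rw [hn]; omega) β hp hinv x y
  have hp5 : 5 ≤ p := by
    by_contra hlt
    have : p = 4 := by omega
    subst this
    exact absurd (Fact.out : Nat.Prime 4) (by norm_num)
  have hq : 5 < Fintype.card F := by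
    rw [hn]
    calc 5 < 5 ^ 2 := by norm_num
      _ ≤ p ^ 2 := Nat.pow_le_pow_left hp5 2
      _ ≤ p ^ (n : ℕ) := Nat.pow_le_pow_right (by omega) (by omega)
  have h24 := large_char hq β hinv x y
  have d1 : addOrderOf (β x y) ∣ 24 := addOrderOf_dvd_of_nsmul_eq_zero h24
  have d2 : addOrderOf (β x y) ∣ p := addOrderOf_dvd_of_nsmul_eq_zero (hp x y)
  have hcop : Nat.Coprime 24 p := by
    have h24' : (24 : ℕ) = 2 ^ 3 * 3 := by norm_num
    rw [h24']
    apply Nat.Coprime.mul_left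
    · exact Nat.Coprime.pow_left 3 ((Nat.coprime_primes Nat.prime_two Fact.out).2 (Ne.symm p2))
    · exact (Nat.coprime_primes Nat.prime_three Fact.out).2 (Ne.symm p3)
  have d3 : addOrderOf (β x y) ∣ 1 := hcop ▸ Nat.dvd_gcd d1 d2
  exact AddMonoid.addOrderOf_eq_one_iff.1 (Nat.dvd_one.1 d3)

end Cfsg.Agent.Lib.Helper69SqForm
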