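import Cfsg.Agent.Lib.Helper69BilExt
import Cfsg.Agent.Lib.Helper69Schur

set_option autoImplicit false

namespace Cfsg.Agent.Lib.Helper69Tensor

open Cfsg.Agent.Lib.Helper69BilExt Cfsg.Agent.Lib.Helper69Schur
open scoped commutatorElement TensorProduct IsMulCommutative

universe u v w

/-- multiplicative tensor product of two commutative groups -/
abbrev MT (H₁ : Type u) (H₂ : Type v) [CommGroup H₁] [CommGroup H₂] : Type (max u v) :=
  Multiplicative (Additive H₁ ⊗[ℤ] Additive H₂)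

/-- pure tensors -/
def pt {H₁ : Type u} {H₂ : Type v} [CommGroup H₁] [CommGroup H₂] (a : H₁) (b : H₂) : MT H₁ H₂ :=
  Multiplicative.ofAdd (Additive.ofMul a ⊗ₜ[ℤ] Additive.ofMul b)

section
variable {H₁ : Type u} {H₂ : Type v} [CommGroup H₁] [CommGroup H₂]

theorem pt_mul_left (a a' : H₁) (b : H₂) : pt (a * a') b = pt a b * pt a' b := by
  simp [pt, TensorProduct.add_tmul, ofAdd_add]

theorem pt_mul_right (a : H₁) (b b' : H₂) : pt a (b * b') = pt a b * pt a b' := by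
  simp [pt, TensorProduct.tmul_add, ofAdd_add]

@[simp] theorem pt_one_left (b : H₂) : pt (1 : H₁) b = 1 := by
  simp [pt]

@[simp] theorem pt_one_right (a : H₁) : pt a (1 : H₂) = 1 := by
  simp [pt]

theorem MT_induction {P : MT H₁ H₂ → Prop} (h1 : P 1) (hpt : ∀ a b, P (pt a b))
    (hmul : ∀ x y, P x → P y → P (x * y)) (x : MT H₁ H₂) : P x := by
  have : ∀ t : Additive H₁ ⊗[ℤ] Additive H₂, P (Multiplicative.ofAdd t) := by
    intro t
    induction t using TensorProduct.induction_on with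
    | zero => exact h1
    | tmul a b => exact hpt (Additive.toMul a) (Additive.toMul b)
    | add x y hx hy => exact hmul _ _ hx hy
  exact this (Multiplicative.toAdd x)

instance MT_finite [Finite H₁] [Finite H₂] : Finite (MT H₁ H₂) := by
  have h1 : Module.Finite ℤ (Additive H₁) := Module.Finite.of_finite
  have h2 : Module.Finite ℤ (Additive H₂) := Module.Finite.of_finite
  have h3 : Module.Finite ℤ (Additive H₁ ⊗[ℤ] Additive H₂) := Module.Finite.tensorProduct _ _ _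
  have : Finite (Additive H₁ ⊗[ℤ] Additive H₂) := by
    refine @Module.finite_of_fg_torsion _ _ _ h3 ?_
    intro t
    refine ⟨⟨(Nat.card H₁ : ℤ), ?_⟩, ?_⟩
    · rw [mem_nonZeroDivisors_iff_ne_zero]
      exact_mod_cast Nat.card_pos.ne'
    · change (Nat.card H₁ : ℤ) • t = 0
      induction t using TensorProduct.induction_on with
      | zero => simp
      | tmul a b =>
        have : (Nat.card H₁ : ℤ) • a = 0 := by
          rw [natCast_zsmul]
          have := pow_card_eq_one' (x := Additive.toMul a)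
          exact congrArg Additive.ofMul this
        rw [TensorProduct.smul_tmul', this, TensorProduct.zero_tmul]
      | add x y hx hy => rw [smul_add, hx, hy, add_zero]
  exact this

/-- the bimultiplicative map into the tensor product -/
def tensorBil {G : Type w} [Group G] (f₁ : G →* H₁) (f₂ : G →* H₂) : G →* G →* MT H₁ H₂ :=
  MonoidHom.mk' (fun x => MonoidHom.mk' (fun y => pt (f₁ x) (f₂ y))
    (by intro a b; simp [pt_mul_right]))
    (by intro a b; ext y; simp [pt_mul_left])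

@[simp] theorem tensorBil_apply {G : Type w} [Group G] (f₁ : G →* H₁) (f₂ : G →* H₂) (x y : G) :
    tensorBil f₁ f₂ x y = pt (f₁ x) (f₂ y) := rfl

/-- universal property -/
theorem exists_lift_MT {Z : Type w} [CommGroup Z] (b : H₁ → H₂ → Z)
    (hl : ∀ a a' c, b (a * a') c = b a c * b a' c) (hr : ∀ a c c', b a (c * c') = b a c * b a c') :
    ∃ t : MT H₁ H₂ →* Z, ∀ a c, t (pt a c) = b a c := by
  let f : Additive H₁ →+ Additive H₂ →+ Additive Z :=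
    AddMonoidHom.mk' (fun a => AddMonoidHom.mk'
      (fun c => Additive.ofMul (b (Additive.toMul a) (Additive.toMul c)))
      (by intro c c'; simp [hr]))
      (by intro a a'; ext c; simp [hl])
  let g : Additive H₁ ⊗[ℤ] Additive H₂ →+ Additive Z := TensorProduct.liftAddHom f (by
    intro r m n
    rw [map_zsmul, map_zsmul]; rfl)
  refine ⟨AddMonoidHom.toMultiplicativeLeft g, ?_⟩
  intro a c
  rfl

end

theorem of_surjective (G : Type*) [Group G] :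
    Function.Surjective (Abelianization.of : G →* Abelianization G) :=
  QuotientGroup.mk_surjective

theorem exists_stem_prod {Q₁ : Type u} {Q₂ : Type v} [Group Q₁] [Group Q₂] [Finite Q₁] [Finite Q₂]
    {Γ₁ : Type u} {Γ₂ : Type v} [Group Γ₁] [Group Γ₂] [Finite Γ₁] [Finite Γ₂]
    (σ₁ : Γ₁ →* Q₁) (σ₂ : Γ₂ →* Q₂) (h₁ : Cfsg.IsStemExtension σ₁) (h₂ : Cfsg.IsStemExtension σ₂) :
    ∃ (Γ : Type (max u v)) (_ : Group Γ) (_ : Finite Γ) (σ : Γ →* Q₁ × Q₂),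
      Cfsg.IsStemExtension σ ∧
      Nonempty (σ.ker ≃* σ₁.ker × σ₂.ker × MT (Abelianization Q₁) (Abelianization Q₂)) := by
  let f₁ : Γ₁ × Γ₂ →* Abelianization Q₁ := (Abelianization.of.comp σ₁).comp (MonoidHom.fst _ _)
  let f₂ : Γ₁ × Γ₂ →* Abelianization Q₂ := (Abelianization.of.comp σ₂).comp (MonoidHom.snd _ _)
  let β := tensorBil f₁ f₂
  let σ : BilExt β →* Q₁ × Q₂ := (σ₁.prodMap σ₂).comp (BilExt.proj β)
  have hσ : ∀ a : BilExt β, σ a = (σ₁ a.fst.1, σ₂ a.fst.2) := fun a => rfl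
  have hker : ∀ a : BilExt β, a ∈ σ.ker ↔ a.fst.1 ∈ σ₁.ker ∧ a.fst.2 ∈ σ₂.ker := by
    intro a
    rw [MonoidHom.mem_ker, hσ, Prod.mk_eq_one]; rfl
  have hβl : ∀ (x y : Γ₁ × Γ₂), x.1 ∈ σ₁.ker → β x y = 1 := by
    intro x y hx
    have : f₁ x = 1 := by
      change Abelianization.of (σ₁ x.1) = 1
      rw [MonoidHom.mem_ker.1 hx, map_one]
    simp [β, this]
  have hβr : ∀ (x y : Γ₁ × Γ₂), y.2 ∈ σ₂.ker → β x y = 1 := by
    intro x y hy
    have : f₂ y = 1 := by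
      change Abelianization.of (σ₂ y.2) = 1
      rw [MonoidHom.mem_ker.1 hy, map_one]
    simp [β, this]
  let ι₁ : Γ₁ →* BilExt β :=
    { toFun := fun x => ⟨(x, 1), 1⟩
      map_one' := rfl
      map_mul' := fun x y => by
        ext
        · rfl
        · simp
        · simp [hβr _ ((y, 1) : Γ₁ × Γ₂) (Subgroup.one_mem _)] }
  let ι₂ : Γ₂ →* BilExt β :=
    { toFun := fun x => ⟨(1, x), 1⟩
      map_one' := rfl
      map_mul' := fun x y => by
        ext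
        · simp
        · rfl
        · simp [hβl ((1, x) : Γ₁ × Γ₂) _ (Subgroup.one_mem _)] }
  have hincl : ∀ t, BilExt.incl β t ∈ commutator (BilExt β) := by
    intro t
    induction t using MT_induction with
    | h1 => rw [map_one]; exact Subgroup.one_mem _
    | hpt a b =>
      obtain ⟨q₁, rfl⟩ := of_surjective _ a
      obtain ⟨q₂, rfl⟩ := of_surjective _ b
      obtain ⟨x, rfl⟩ := h₁.1 q₁
      obtain ⟨y, rfl⟩ := h₂.1 q₂
      have := BilExt.commutator_of_commute β ⟨(x, 1), 1⟩ ⟨(1, y), 1⟩ (by simp)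
      simp only at this
      rw [hβl ((1, y) : Γ₁ × Γ₂) _ (Subgroup.one_mem _), inv_one, mul_one] at this
      have h3 : β (x, 1) (1, y) = pt (Abelianization.of (σ₁ x)) (Abelianization.of (σ₂ y)) := rfl
      rw [h3] at this
      rw [← this]
      exact Subgroup.commutator_mem_commutator (Subgroup.mem_top _) (Subgroup.mem_top _)
    | hmul x y hx hy => rw [map_mul]; exact Subgroup.mul_mem _ hx hy
  refine ⟨BilExt β, inferInstance, inferInstance, σ, ⟨?_, ?_, ?_⟩, ?_⟩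
  · exact (Prod.map_surjective.2 ⟨h₁.1, h₂.1⟩).comp (BilExt.proj_surjective β)
  · intro a ha
    obtain ⟨ha1, ha2⟩ := (hker a).1 ha
    rw [Subgroup.mem_center_iff]
    intro b
    ext
    · exact Subgroup.mem_center_iff.1 (h₁.2.1 ha1) b.fst.1
    · exact Subgroup.mem_center_iff.1 (h₂.2.1 ha2) b.fst.2
    · simp only [BilExt.mul_snd]
      rw [hβl a.fst b.fst ha1, hβr b.fst a.fst ha2, mul_comm a.snd]
  · intro a ha
    obtain ⟨ha1, ha2⟩ := (hker a).1 ha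
    have hdec : a = ι₁ a.fst.1 * ι₂ a.fst.2 * BilExt.incl β a.snd := by
      ext
      · simp [ι₁, ι₂]
      · simp [ι₁, ι₂]
      · simp [ι₁, ι₂, hβl ((a.fst.1, 1) : Γ₁ × Γ₂) _ ha1]
    rw [hdec]
    refine Subgroup.mul_mem _ (Subgroup.mul_mem _ ?_ ?_) (hincl _)
    · exact map_commutator_le ι₁ ⟨_, h₁.2.2 ha1, rfl⟩
    · exact map_commutator_le ι₂ ⟨_, h₂.2.2 ha2, rfl⟩
  · let φ : σ.ker →* σ₁.ker × σ₂.ker × MT (Abelianization Q₁) (Abelianization Q₂) :=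
      { toFun := fun a => (⟨a.1.fst.1, ((hker a.1).1 a.2).1⟩, ⟨a.1.fst.2, ((hker a.1).1 a.2).2⟩, a.1.snd)
        map_one' := rfl
        map_mul' := fun a b => by
          refine Prod.ext rfl (Prod.ext rfl ?_)
          change (a.1 * b.1).snd = a.1.snd * b.1.snd
          rw [BilExt.mul_snd, hβl _ _ ((hker a.1).1 a.2).1, mul_one] }
    refine ⟨MulEquiv.ofBijective φ ⟨?_, ?_⟩⟩
    · intro a b hab
      apply Subtype.ext
      have e1 := congrArg (fun p => (p.1 : Γ₁)) hab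
      have e2 := congrArg (fun p => (p.2.1 : Γ₂)) hab
      have e3 := congrArg (fun p => p.2.2) hab
      ext
      · exact e1
      · exact e2
      · exact e3
    · rintro ⟨x, y, t⟩
      exact ⟨⟨⟨(x.1, y.1), t⟩, (hker _).2 ⟨x.2, y.2⟩⟩, rfl⟩


theorem exists_pairing {Γ : Type*} [Group Γ] (Γ₁ Γ₂ : Subgroup Γ) {H₁ H₂ : Type*} [CommGroup H₁]
    [CommGroup H₂] (p₁ : Γ₁ →* H₁) (p₂ : Γ₂ →* H₂) (hp₁ : Function.Surjective p₁)
    (hp₂ : Function.Surjective p₂)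
    (hc : ∀ (a : Γ₁) (b : Γ₂), ⁅(a : Γ), (b : Γ)⁆ ∈ Subgroup.center Γ)
    (hk₁ : ∀ a : Γ₁, p₁ a = 1 → ∀ b : Γ₂, Commute (a : Γ) (b : Γ))
    (hk₂ : ∀ b : Γ₂, p₂ b = 1 → ∀ a : Γ₁, Commute (a : Γ) (b : Γ)) :
    ∃ t : MT H₁ H₂ →* Γ, ∀ (a : Γ₁) (b : Γ₂), t (pt (p₁ a) (p₂ b)) = ⁅(a : Γ), (b : Γ)⁆ := by
  have M1 : ∀ (a a' : Γ₁) (b : Γ₂), ⁅((a * a' : Γ₁) : Γ), (b : Γ)⁆ = ⁅(a : Γ), (b : Γ)⁆ * ⁅(a' : Γ), (b : Γ)⁆ := by
    intro a a' b
    have h := Subgroup.mem_center_iff.1 (hc a' b)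
    rw [Subgroup.coe_mul]
    calc ⁅(a : Γ) * a', (b : Γ)⁆ = a * ⁅(a' : Γ), (b : Γ)⁆ * (b * (a : Γ)⁻¹ * (b : Γ)⁻¹) := by
          simp only [commutatorElement_def]; group
      _ = ⁅(a' : Γ), (b : Γ)⁆ * a * (b * (a : Γ)⁻¹ * (b : Γ)⁻¹) := by rw [h]
      _ = ⁅(a' : Γ), (b : Γ)⁆ * ⁅(a : Γ), (b : Γ)⁆ := by
          simp only [commutatorElement_def]; group
      _ = _ := (h _).symm
  have M2 : ∀ (a : Γ₁) (b b' : Γ₂), ⁅(a : Γ), ((b * b' : Γ₂) : Γ)⁆ = ⁅(a : Γ), (b : Γ)⁆ * ⁅(a : Γ), (b' : Γ)⁆ := by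
    intro a b b'
    have h := Subgroup.mem_center_iff.1 (hc a b')
    rw [Subgroup.coe_mul]
    calc ⁅(a : Γ), (b : Γ) * b'⁆ = (a * b * (a : Γ)⁻¹) * ⁅(a : Γ), (b' : Γ)⁆ * (b : Γ)⁻¹ := by
          simp only [commutatorElement_def]; group
      _ = ⁅(a : Γ), (b' : Γ)⁆ * (a * b * (a : Γ)⁻¹) * (b : Γ)⁻¹ := by rw [h]
      _ = ⁅(a : Γ), (b' : Γ)⁆ * ⁅(a : Γ), (b : Γ)⁆ := by
          simp only [commutatorElement_def]; group
      _ = _ := (h _).symm
  have W : ∀ (a a' : Γ₁) (b b' : Γ₂), p₁ a = p₁ a' → p₂ b = p₂ b' →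
      ⁅(a : Γ), (b : Γ)⁆ = ⁅(a' : Γ), (b' : Γ)⁆ := by
    intro a a' b b' h1 h2
    obtain ⟨d, hd⟩ : ∃ d, d = a⁻¹ * a' := ⟨_, rfl⟩
    obtain ⟨e, he⟩ : ∃ e, e = b⁻¹ * b' := ⟨_, rfl⟩
    have e1 : a' = a * d := by rw [hd]; group
    have e2 : b' = b * e := by rw [he]; group
    have d1 : p₁ d = 1 := by rw [hd, map_mul, map_inv, h1]; simp
    have d2 : p₂ e = 1 := by rw [he, map_mul, map_inv, h2]; simp
    rw [e1, e2, M1, M2,
      commutatorElement_eq_one_iff_commute.2 (hk₁ _ d1 _),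
      commutatorElement_eq_one_iff_commute.2 (hk₂ _ d2 _)]
    simp
  let s₁ := Function.surjInv hp₁
  let s₂ := Function.surjInv hp₂
  have hs₁ : ∀ h, p₁ (s₁ h) = h := Function.surjInv_eq hp₁
  have hs₂ : ∀ h, p₂ (s₂ h) = h := Function.surjInv_eq hp₂
  obtain ⟨t, ht⟩ := exists_lift_MT (Z := Subgroup.center Γ)
    (fun h k => ⟨⁅(s₁ h : Γ), (s₂ k : Γ)⁆, hc _ _⟩) (by
      intro a a' c
      apply Subtype.ext
      change ⁅(s₁ (a * a') : Γ), (s₂ c : Γ)⁆ = ⁅(s₁ a : Γ), (s₂ c : Γ)⁆ * ⁅(s₁ a' : Γ), (s₂ c : Γ)⁆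
      rw [← M1]
      apply W
      · rw [hs₁, map_mul, hs₁, hs₁]
      · rfl) (by
      intro a c c'
      apply Subtype.ext
      change ⁅(s₁ a : Γ), (s₂ (c * c') : Γ)⁆ = ⁅(s₁ a : Γ), (s₂ c : Γ)⁆ * ⁅(s₁ a : Γ), (s₂ c' : Γ)⁆
      rw [← M2]
      apply W
      · rfl
      · rw [hs₂, map_mul, hs₂, hs₂])
  refine ⟨(Subgroup.center Γ).subtype.comp t, ?_⟩
  intro a b
  change ((t (pt (p₁ a) (p₂ b)) : Subgroup.center Γ) : Γ) = _
  rw [ht]
  exact W _ _ _ _ (hs₁ _) (hs₂ _)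


theorem commute_of_mem_commutator {Γ : Type*} [Group Γ] (Γ₁ : Subgroup Γ) (b : Γ)
    (hc : ∀ a : Γ₁, ⁅(a : Γ), b⁆ ∈ Subgroup.center Γ) (a : Γ₁) (ha : a ∈ commutator Γ₁) :
    Commute (a : Γ) b := by
  have hle : commutator Γ₁ ≤ (Subgroup.centralizer {b}).comap Γ₁.subtype := by
    rw [commutator_eq_closure, Subgroup.closure_le]
    rintro _ ⟨u, v, rfl⟩
    rw [SetLike.mem_coe, Subgroup.mem_comap, Subgroup.mem_centralizer_singleton_iff]
    have hu : (u : Γ)⁻¹ * (b * u * b⁻¹) ∈ Subgroup.center Γ := by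
      have := hc u⁻¹
      rw [commutatorElement_def] at this
      simpa [mul_assoc] using this
    have hv : (v : Γ)⁻¹ * (b * v * b⁻¹) ∈ Subgroup.center Γ := by
      have := hc v⁻¹
      rw [commutatorElement_def] at this
      simpa [mul_assoc] using this
    have h1 := commutatorElement_mul_center (u : Γ) (v : Γ) _ _ hu hv
    have h2 : b * ⁅(u : Γ), (v : Γ)⁆ * b⁻¹ = ⁅(u : Γ), (v : Γ)⁆ := by
      refine Eq.trans ?_ h1
      simp only [commutatorElement_def]; group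
    change (⁅(u : Γ), (v : Γ)⁆) * b = b * ⁅(u : Γ), (v : Γ)⁆
    calc ⁅(u : Γ), (v : Γ)⁆ * b = (b * ⁅(u : Γ), (v : Γ)⁆ * b⁻¹) * b := by rw [h2]
      _ = _ := by group
  have := hle ha
  rw [Subgroup.mem_comap, Subgroup.mem_centralizer_singleton_iff] at this
  exact this

theorem exists_surj_prod {Q₁ : Type u} {Q₂ : Type v} [Group Q₁] [Group Q₂] [Finite Q₁] [Finite Q₂]
    {A B : Type w} [CommGroup A] [CommGroup B] (hA : Cfsg.HasSchurMultiplier Q₁ A)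
    (hB : Cfsg.HasSchurMultiplier Q₂ B) {Γ : Type*} [Group Γ] (σ : Γ →* Q₁ × Q₂)
    (hσ : Cfsg.IsStemExtension σ) :
    ∃ π : A × B × MT (Abelianization Q₁) (Abelianization Q₂) →* σ.ker, Function.Surjective π := by
  let φ₁ : Γ →* Q₁ := (MonoidHom.fst _ _).comp σ
  let φ₂ : Γ →* Q₂ := (MonoidHom.snd _ _).comp σ
  have hmem : ∀ x, x ∈ σ.ker ↔ φ₁ x = 1 ∧ φ₂ x = 1 := by
    intro x
    rw [MonoidHom.mem_ker, Prod.ext_iff]; rfl
  let σ₁ : φ₂.ker →* Q₁ := φ₁.comp φ₂.ker.subtype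
  let σ₂ : φ₁.ker →* Q₂ := φ₂.comp φ₁.ker.subtype
  have hσ₁s : Function.Surjective σ₁ := by
    intro q
    obtain ⟨g, hg⟩ := hσ.1 (q, 1)
    exact ⟨⟨g, by change (σ g).2 = 1; rw [hg]⟩, by change (σ g).1 = q; rw [hg]⟩
  have hσ₂s : Function.Surjective σ₂ := by
    intro q
    obtain ⟨g, hg⟩ := hσ.1 (1, q)
    exact ⟨⟨g, by change (σ g).1 = 1; rw [hg]⟩, by change (σ g).2 = q; rw [hg]⟩
  have hk₁ : ∀ a : φ₂.ker, a ∈ σ₁.ker → (a : Γ) ∈ σ.ker := fun a ha => (hmem _).2 ⟨ha, a.2⟩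
  have hk₂ : ∀ a : φ₁.ker, a ∈ σ₂.ker → (a : Γ) ∈ σ.ker := fun a ha => (hmem _).2 ⟨a.2, ha⟩
  have hσ₁c : σ₁.ker ≤ Subgroup.center φ₂.ker := by
    intro a ha
    rw [Subgroup.mem_center_iff]
    intro g
    exact Subtype.ext (Subgroup.mem_center_iff.1 (hσ.2.1 (hk₁ a ha)) g)
  have hσ₂c : σ₂.ker ≤ Subgroup.center φ₁.ker := by
    intro a ha
    rw [Subgroup.mem_center_iff]
    intro g
    exact Subtype.ext (Subgroup.mem_center_iff.1 (hσ.2.1 (hk₂ a ha)) g)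
  obtain ⟨fA, hfA⟩ := exists_surj_of_hasSchurMultiplier hA σ₁ hσ₁s hσ₁c
  obtain ⟨fB, hfB⟩ := exists_surj_of_hasSchurMultiplier hB σ₂ hσ₂s hσ₂c
  have hcK : ∀ (a : φ₂.ker) (b : φ₁.ker), ⁅(a : Γ), (b : Γ)⁆ ∈ σ.ker := by
    intro a b
    rw [MonoidHom.mem_ker, map_commutatorElement, commutatorElement_eq_one_iff_mul_comm]
    have ha : (σ a).2 = 1 := a.2
    have hb : (σ b).1 = 1 := b.2
    ext
    · simp [hb]
    · simp [ha]
  have hc : ∀ (a : φ₂.ker) (b : φ₁.ker), ⁅(a : Γ), (b : Γ)⁆ ∈ Subgroup.center Γ :=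
    fun a b => hσ.2.1 (hcK a b)
  have hc' : ∀ (b : φ₁.ker) (a : φ₂.ker), ⁅(b : Γ), (a : Γ)⁆ ∈ Subgroup.center Γ := by
    intro b a
    rw [← commutatorElement_inv]
    exact Subgroup.inv_mem _ (hc a b)
  let p₁ : φ₂.ker →* Abelianization Q₁ := Abelianization.of.comp σ₁
  let p₂ : φ₁.ker →* Abelianization Q₂ := Abelianization.of.comp σ₂
  obtain ⟨t, ht⟩ := exists_pairing φ₂.ker φ₁.ker p₁ p₂ ((of_surjective _).comp hσ₁s)
    ((of_surjective _).comp hσ₂s) hc (by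
      intro a ha b
      have h1 : σ₁ a ∈ (Abelianization.of : Q₁ →* _).ker := ha
      rw [Abelianization.ker_of] at h1
      obtain ⟨a', ha', haa⟩ := commutator_le_map_of_surjective σ₁ hσ₁s h1
      have h2 : a'⁻¹ * a ∈ σ₁.ker := by rw [MonoidHom.mem_ker, map_mul, map_inv, haa]; simp
      have h3 := Subgroup.mem_center_iff.1 (hσ.2.1 (hk₁ _ h2)) (b : Γ)
      have h4 := commute_of_mem_commutator φ₂.ker (b : Γ) (fun a => hc a b) a' ha'
      have h5 : (a : Γ) = a' * ((a'⁻¹ * a : φ₂.ker) : Γ) := by simp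
      rw [h5]
      exact h4.mul_left h3.symm) (by
      intro b hb a
      have h1 : σ₂ b ∈ (Abelianization.of : Q₂ →* _).ker := hb
      rw [Abelianization.ker_of] at h1
      obtain ⟨b', hb', hbb⟩ := commutator_le_map_of_surjective σ₂ hσ₂s h1
      have h2 : b'⁻¹ * b ∈ σ₂.ker := by rw [MonoidHom.mem_ker, map_mul, map_inv, hbb]; simp
      have h3 := Subgroup.mem_center_iff.1 (hσ.2.1 (hk₂ _ h2)) (a : Γ)
      have h4 := commute_of_mem_commutator φ₁.ker (a : Γ) (fun b => hc' b a) b' hb'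
      have h5 : (b : Γ) = b' * ((b'⁻¹ * b : φ₁.ker) : Γ) := by simp
      rw [h5]
      exact (h4.mul_left h3.symm).symm)
  have htK : ∀ x, t x ∈ σ.ker := by
    intro x
    induction x using MT_induction with
    | h1 => rw [map_one]; exact Subgroup.one_mem _
    | hpt a b =>
      obtain ⟨a, rfl⟩ := ((of_surjective _).comp hσ₁s) a
      obtain ⟨b, rfl⟩ := ((of_surjective _).comp hσ₂s) b
      have := ht a b
      change t (pt (p₁ a) (p₂ b)) ∈ σ.ker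
      rw [this]
      exact hcK a b
    | hmul x y hx hy => rw [map_mul]; exact Subgroup.mul_mem _ hx hy
  let gA : A →* σ.ker := ((φ₂.ker.subtype.comp (Subgroup.subtype _)).comp fA).codRestrict _
    (fun a => hk₁ _ (Subgroup.mem_inf.1 (fA a).2).1)
  let gB : B →* σ.ker := ((φ₁.ker.subtype.comp (Subgroup.subtype _)).comp fB).codRestrict _
    (fun a => hk₂ _ (Subgroup.mem_inf.1 (fB a).2).1)
  let gT : MT (Abelianization Q₁) (Abelianization Q₂) →* σ.ker := t.codRestrict _ htK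
  have hcomm : ∀ x y : σ.ker, Commute x y := fun x y =>
    Subtype.ext (Subgroup.mem_center_iff.1 (hσ.2.1 y.2) x.1)
  refine ⟨gA.noncommCoprod (gB.noncommCoprod gT (fun _ _ => hcomm _ _)) (fun _ _ => hcomm _ _), ?_⟩
  -- surjectivity
  have hn₁ : (⁅φ₂.ker, φ₂.ker⁆ : Subgroup Γ).Normal := inferInstance
  have hn₂ : (⁅φ₁.ker, φ₁.ker⁆ : Subgroup Γ).Normal := inferInstance
  have hn₃ : t.range.Normal := normal_of_le_center (by
    rintro _ ⟨x, rfl⟩
    exact hσ.2.1 (htK x))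
  let W : Subgroup Γ := (⁅φ₂.ker, φ₂.ker⁆ ⊔ ⁅φ₁.ker, φ₁.ker⁆) ⊔ t.range
  have hWn : W.Normal := inferInstance
  have hdec : ∀ g : Γ, ∃ (a : φ₂.ker) (b : φ₁.ker), g = a * b := by
    intro g
    obtain ⟨a, ha⟩ := hσ₁s (φ₁ g)
    refine ⟨a, ⟨(a : Γ)⁻¹ * g, ?_⟩, by simp⟩
    rw [MonoidHom.mem_ker, map_mul, map_inv]
    have : φ₁ (a : Γ) = φ₁ g := ha
    rw [this]; simp
  have hcW : ∀ x y : Γ, ⁅x, y⁆ ∈ W → Commute (QuotientGroup.mk x : Γ ⧸ W) (QuotientGroup.mk y) := by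
    intro x y h
    rw [← commutatorElement_eq_one_iff_commute]
    have : ⁅(x : Γ ⧸ W), (y : Γ ⧸ W)⁆ = ((⁅x, y⁆ : Γ) : Γ ⧸ W) := by
      simp [commutatorElement_def]
    rw [this, QuotientGroup.eq_one_iff]
    exact h
  have hle : commutator Γ ≤ W := by
    apply commutator_le_of_forall_commute
    intro g h
    obtain ⟨a, b, rfl⟩ := hdec g
    obtain ⟨a', b', rfl⟩ := hdec h
    rw [QuotientGroup.mk_mul, QuotientGroup.mk_mul]
    apply Commute.mul_left <;> apply Commute.mul_right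
    · exact hcW _ _ (Subgroup.mem_sup_left (Subgroup.mem_sup_left
        (Subgroup.commutator_mem_commutator a.2 a'.2)))
    · exact hcW _ _ (Subgroup.mem_sup_right ⟨_, ht a b'⟩)
    · exact (hcW _ _ (Subgroup.mem_sup_right ⟨_, ht a' b⟩)).symm
    · exact hcW _ _ (Subgroup.mem_sup_left (Subgroup.mem_sup_right
        (Subgroup.commutator_mem_commutator b.2 b'.2)))
  rintro ⟨k, hk⟩
  have hkW := hle (hσ.2.2 hk)
  rw [← SetLike.mem_coe, Subgroup.mul_normal, Set.mem_mul] at hkW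
  obtain ⟨w, hw, c, ⟨x, rfl⟩, rfl⟩ := hkW
  rw [SetLike.mem_coe, ← SetLike.mem_coe, Subgroup.mul_normal, Set.mem_mul] at hw
  obtain ⟨w₁, hw₁, w₂, hw₂, rfl⟩ := hw
  rw [SetLike.mem_coe, ← Subgroup.map_subtype_commutator] at hw₁ hw₂
  obtain ⟨w₁, hw₁, rfl⟩ := hw₁
  obtain ⟨w₂, hw₂, rfl⟩ := hw₂
  have hprod : (w₁ : Γ) * (w₂ : Γ) ∈ σ.ker := by
    have := Subgroup.mul_mem _ hk (Subgroup.inv_mem _ (htK x))
    simpa using this
  obtain ⟨e1, e2⟩ := (hmem _).1 hprod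
  have hw₁K : w₁ ∈ σ₁.ker := by
    rw [map_mul] at e1
    have : φ₁ (w₂ : Γ) = 1 := w₂.2
    rw [this, mul_one] at e1
    exact e1
  have hw₂K : w₂ ∈ σ₂.ker := by
    rw [map_mul] at e2
    have : φ₂ (w₁ : Γ) = 1 := w₁.2
    rw [this, one_mul] at e2
    exact e2
  obtain ⟨a, ha⟩ := hfA ⟨w₁, Subgroup.mem_inf.2 ⟨hw₁K, hw₁⟩⟩
  obtain ⟨b, hb⟩ := hfB ⟨w₂, Subgroup.mem_inf.2 ⟨hw₂K, hw₂⟩⟩
  refine ⟨(a, b, x), ?_⟩
  apply Subtype.ext
  simp only [MonoidHom.noncommCoprod_apply, Subgroup.coe_mul]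
  change (((fA a : _) : φ₂.ker) : Γ) * ((((fB b : _) : φ₁.ker) : Γ) * t x) = _
  rw [ha, hb, mul_assoc]
  rfl


end Cfsg.Agent.Lib.Helper69Tensor
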