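import Cfsg.Prelude
import Cfsg.Agent.Lib.Helper1UniqInv

/-!
# Project 87, piece `dichotomy`
-/

set_option autoImplicit false
open Cfsg Subgroup

namespace Cfsg.Agent.Lib.Helper6BG36dichotomy

/-- piece `dichotomy` -/
theorem dichotomy {G : Type*} [Group G] [Finite G] (p : ℕ) [Fact p.Prime]
    (H V S R₀ : Subgroup G) [V.Normal] (hVH : V ≤ H) (hSH : S ≤ H) (hV : IsPGroup p V)
    (hS : IsPGroup p S) (hVS : V ⊓ S = ⊥) (hZ : IsZGroup ↥(H ⊓ centralizer (R₀ : Set G))) :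
    V ⊓ centralizer (R₀ : Set G) = ⊥ ∨ S ⊓ centralizer (R₀ : Set G) = ⊥ := by
  set C := (V ⊔ S) ⊓ centralizer (R₀ : Set G) with hC
  have hVSp : IsPGroup p (V ⊔ S : Subgroup G) := IsPGroup.to_sup_of_normal_left hV hS
  have hCp : IsPGroup p C := hVSp.to_le inf_le_left
  have hCle : C ≤ H ⊓ centralizer (R₀ : Set G) := inf_le_inf_right _ (sup_le hVH hSH)
  have hcyc : IsCyclic C := by
    have h1 : IsPGroup p (C.subgroupOf (H ⊓ centralizer (R₀ : Set G))) :=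
      hCp.of_equiv (subgroupOfEquivOfLe hCle).symm
    have := h1.isCyclic_of_isZGroup
    exact (subgroupOfEquivOfLe hCle).isCyclic.1 this
  have hVC : V ⊓ centralizer (R₀ : Set G) ≤ C := inf_le_inf_right _ le_sup_left
  have hSC : S ⊓ centralizer (R₀ : Set G) ≤ C := inf_le_inf_right _ le_sup_right
  rcases Cfsg.Agent.Lib.Helper1UniqInv.le_or_le_of_cyclic (A := C) hCp
    ((V ⊓ centralizer (R₀ : Set G)).subgroupOf C) ((S ⊓ centralizer (R₀ : Set G)).subgroupOf C)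
    with h | h
  · left
    rw [eq_bot_iff]
    intro x hx
    have h1 : (⟨x, hVC hx⟩ : C) ∈ (S ⊓ centralizer (R₀ : Set G)).subgroupOf C :=
      h (mem_subgroupOf.2 hx)
    rw [← hVS]
    exact ⟨hx.1, (mem_subgroupOf.1 h1).1⟩
  · right
    rw [eq_bot_iff]
    intro x hx
    have h1 : (⟨x, hSC hx⟩ : C) ∈ (V ⊓ centralizer (R₀ : Set G)).subgroupOf C :=
      h (mem_subgroupOf.2 hx)
    rw [← hVS]
    exact ⟨(mem_subgroupOf.1 h1).1, hx.1⟩

end Cfsg.Agent.Lib.Helper6BG36dichotomy
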