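import Cfsg.Prelude
import Cfsg.Agent.S0002
import Cfsg.Agent.Lib.Helper1Basic

/-!
# Project 87, piece `frattiniU`
-/

set_option autoImplicit false
open Cfsg Subgroup
open scoped Pointwise

namespace Cfsg.Agent.Lib.Helper6BG36frattiniU

open Cfsg.Agent.Lib.Helper1Basic

theorem mem_normalizer_of_forall_conj_mem {G : Type*} [Group G] [Finite G] {U : Subgroup G} {n : G}
    (h : ∀ x ∈ U, n * x * n⁻¹ ∈ U) : n ∈ normalizer (U : Set G) := by
  have h1 : MulAut.conj n • U = U := conj_smul_eq_of_forall_mem n le_rfl h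
  rw [mem_normalizer_iff]
  intro x
  refine ⟨h x, fun hx => ?_⟩
  rw [← h1, mem_conj_smul] at hx
  simpa [mul_assoc] using hx

/-- piece `frattiniU` -/
theorem frattiniU {G : Type*} [Group G] [Finite G] (p : ℕ) [Fact p.Prime]
    (V W U : Subgroup G) [V.Normal] [W.Normal] (hV : IsPGroup p V) (hVc : IsMulCommutative V)
    (hVU : V ⊓ U = ⊥) (hVUW : V ⊔ U = W) (hU : (Nat.card U).Coprime p) :
    V ⊔ normalizer (U : Set G) = ⊤ := by
  have hUW : U ≤ W := hVUW ▸ le_sup_right
  have hVW : V ≤ W := hVUW ▸ le_sup_left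
  obtain ⟨k, hk⟩ := hV.exists_card_eq
  have hcopVU : (Nat.card V).Coprime (Nat.card U) := by
    rw [hk]; exact Nat.Coprime.pow_left k hU.symm
  rw [eq_top_iff]
  intro g _
  set Ug : Subgroup G := MulAut.conj g • U with hUg
  have hUgW : Ug ≤ W := by
    intro x hx
    rw [hUg, mem_conj_smul] at hx
    have h1 := ‹W.Normal›.conj_mem _ (hUW hx) g
    have h2 : g * (g⁻¹ * x * g) * g⁻¹ = x := by group
    rwa [h2] at h1
  have hn : (V.subgroupOf W).Normal := inferInstance
  have hc : IsMulCommutative (V.subgroupOf W) :=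
    ⟨⟨fun a b => Subtype.ext (Subtype.ext (congrArg (Subtype.val : V → G)
      (hVc.is_comm.comm (⟨a.1.1, a.2⟩ : V) ⟨b.1.1, b.2⟩)))⟩⟩
  have cV : Nat.card (V.subgroupOf W) = Nat.card V := card_subgroupOf_of_le hVW
  have cU : Nat.card (U.subgroupOf W) = Nat.card U := card_subgroupOf_of_le hUW
  have cUg : Nat.card (Ug.subgroupOf W) = Nat.card U := by
    rw [card_subgroupOf_of_le hUgW, hUg, card_conj_smul]
  have c1 : IsComplement' (V.subgroupOf W) (U.subgroupOf W) := by
    apply isComplement'_of_sup_eq_top_of_coprime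
    · rw [← subgroupOf_sup hVW hUW, hVUW, subgroupOf_self]
    · rw [cV, cU]; exact hcopVU
  have c2 : IsComplement' (V.subgroupOf W) (Ug.subgroupOf W) := by
    apply isComplement'_of_coprime
    · rw [cUg, ← cU]; exact c1.card_mul_card
    · rw [cV, cUg]; exact hcopVU
  have hA : (Nat.card (V.subgroupOf W)).Coprime (V.subgroupOf W).index := by
    rw [c1.symm.index_eq_card, cV, cU]; exact hcopVU
  obtain ⟨a, ha, hconj⟩ := Cfsg.Agent.S0002.result (V.subgroupOf W) hA _ _ c1 c2
  have haV : (a : G) ∈ V := mem_subgroupOf.1 ha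
  have hnN : g⁻¹ * (a : G) ∈ normalizer (U : Set G) := by
    apply mem_normalizer_of_forall_conj_mem
    intro x hx
    have h1 := forall_mem_of_conj_smul_eq hconj ⟨x, hUW hx⟩ (mem_subgroupOf.2 hx)
    have h2 : (a : G) * x * (a : G)⁻¹ ∈ Ug := mem_subgroupOf.1 h1
    rw [hUg, mem_conj_smul] at h2
    have h3 : g⁻¹ * (a : G) * x * (g⁻¹ * (a : G))⁻¹ = g⁻¹ * ((a : G) * x * (a : G)⁻¹) * g := by
      group
    rw [h3]; exact h2
  have hg : g = (a : G) * (g⁻¹ * (a : G))⁻¹ := by group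
  rw [hg]
  exact mul_mem (mem_sup_left haV) (mem_sup_right (inv_mem hnN))

end Cfsg.Agent.Lib.Helper6BG36frattiniU
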