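import Mathlib
import Cfsg.Agent.Lib.Helper65CSDefs
import Cfsg.Agent.Lib.Helper3PGroup

set_option autoImplicit false

/-! PROJECT 65, piece b1. -/

namespace Cfsg.Agent.Lib.Helper6CSb1

open Cfsg.Agent.Lib.Helper65CSDefs

variable {G : Type*} [Group G] [Finite G] {p : ℕ}

theorem b1 [Fact p.Prime] : B1Stmt G p := by
  intro P N hP hNP hnorm ⟨x, hxN, s, hsP, hsx⟩
  have hN' : (N.subgroupOf P).Normal := by
    constructor
    intro a ha g
    rw [Subgroup.mem_subgroupOf] at ha ⊢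
    exact hnorm g g.2 a ha
  let Z := Subgroup.center ↥P
  have hM : ((N.subgroupOf P).map (QuotientGroup.mk' Z)).Normal :=
    hN'.map _ (QuotientGroup.mk'_surjective _)
  have hne : (N.subgroupOf P).map (QuotientGroup.mk' Z) ≠ ⊥ := by
    intro h
    have h1 : QuotientGroup.mk' Z ⟨x, hNP hxN⟩ ∈ (N.subgroupOf P).map (QuotientGroup.mk' Z) :=
      Subgroup.mem_map_of_mem _ (by rw [Subgroup.mem_subgroupOf]; exact hxN)
    rw [h, Subgroup.mem_bot] at h1
    have h2 : (⟨x, hNP hxN⟩ : ↥P) ∈ Z := (QuotientGroup.eq_one_iff _).1 h1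
    rw [Subgroup.mem_center_iff] at h2
    exact hsx (congrArg Subtype.val (h2 ⟨s, hsP⟩))
  obtain ⟨y, hyM, hyZ, hy1, hyp⟩ :=
    Cfsg.Agent.Lib.Helper3PGroup.exists_central_order_p (hP.to_quotient Z) _ hne
  obtain ⟨u, hu, rfl⟩ := hyM
  have hu' : (u : G) ∈ N := Subgroup.mem_subgroupOf.1 hu
  refine ⟨u, hu', ?_, ?_, ?_⟩
  · by_contra hcon
    push Not at hcon
    apply hy1
    apply (QuotientGroup.eq_one_iff _).2
    rw [Subgroup.mem_center_iff]
    intro g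
    apply Subtype.ext
    exact hcon g g.2
  · intro s hs s' hs'
    rw [Subgroup.mem_center_iff] at hyZ
    have h3 := hyZ (QuotientGroup.mk' Z ⟨s, hs⟩)
    have h4 : (⟨s, hs⟩ * u * (⟨s, hs⟩ : ↥P)⁻¹ * u⁻¹ : ↥P) ∈ Z := by
      apply (QuotientGroup.eq_one_iff _).1
      have : ((⟨s, hs⟩ * u * (⟨s, hs⟩ : ↥P)⁻¹ * u⁻¹ : ↥P) : ↥P ⧸ Z) =
          QuotientGroup.mk' Z ⟨s, hs⟩ * QuotientGroup.mk' Z u * (QuotientGroup.mk' Z ⟨s, hs⟩)⁻¹
            * (QuotientGroup.mk' Z u)⁻¹ := rfl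
      rw [this, h3]
      group
    rw [Subgroup.mem_center_iff] at h4
    exact (congrArg Subtype.val (h4 ⟨s', hs'⟩)).symm
  · intro s hs
    have h5 : u ^ p ∈ Z := by
      apply (QuotientGroup.eq_one_iff _).1
      exact hyp
    rw [Subgroup.mem_center_iff] at h5
    exact (congrArg Subtype.val (h5 ⟨s, hs⟩)).symm

end Cfsg.Agent.Lib.Helper6CSb1
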