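import Mathlib
import Cfsg.Agent.Lib.Helper65CSDefs

set_option autoImplicit false

/-! PROJECT 65, piece b5. -/

namespace Cfsg.Agent.Lib.Helper6CSb5

open Cfsg.Agent.Lib.Helper65CSDefs

variable {G : Type*} [Group G] [Finite G] {p : ℕ}

omit [Finite G] in
theorem conj_pow_mem (K : Subgroup G) (t : G) (h : ∀ a ∈ K, t * a * t⁻¹ ∈ K) (k : ℕ) :
    ∀ a ∈ K, t ^ k * a * (t ^ k)⁻¹ ∈ K := by
  induction k with
  | zero => intro a ha; simpa using ha
  | succ k ih =>
    intro a ha
    have := h _ (ih a ha)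
    have e : t ^ (k + 1) * a * (t ^ (k + 1))⁻¹ = t * (t ^ k * a * (t ^ k)⁻¹) * t⁻¹ := by
      rw [pow_succ']; group
    rw [e]; exact this

theorem conj_zpowers_mem (K : Subgroup G) (t : G) (h : ∀ a ∈ K, t * a * t⁻¹ ∈ K) (g : G)
    (hg : g ∈ Subgroup.zpowers t) : ∀ a ∈ K, g * a * g⁻¹ ∈ K := by
  rw [← mem_powers_iff_mem_zpowers] at hg
  obtain ⟨k, rfl⟩ := hg
  exact conj_pow_mem K t h k

theorem b5 [Fact p.Prime] : B5Stmt G p := by
  intro K t ht hK
  let act : MulAction (Subgroup.zpowers t) K :=
    { smul := fun g a => ⟨g * a * (g : G)⁻¹, conj_zpowers_mem K t hK g g.2 a a.2⟩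
      one_smul := fun a => by
        apply Subtype.ext
        show (1 : G) * a * (1 : G)⁻¹ = a
        simp
      mul_smul := fun g h a => by
        apply Subtype.ext
        show ((g : G) * h) * a * ((g : G) * h)⁻¹ = g * (h * a * (h : G)⁻¹) * (g : G)⁻¹
        group }
  have hsm : ∀ (g : Subgroup.zpowers t) (a : K), ((g • a : K) : G) = g * a * (g : G)⁻¹ :=
    fun _ _ => rfl
  have hP : IsPGroup p (Subgroup.zpowers t) := by
    obtain ⟨k, hk⟩ := ht
    apply IsPGroup.of_card (n := k)
    rw [Nat.card_zpowers, hk]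
  have h1 := hP.card_modEq_card_fixedPoints (α := K)
  have e : MulAction.fixedPoints (Subgroup.zpowers t) K ≃ (K ⊓ Cen t : Subgroup G) :=
    { toFun := fun a => ⟨a.1.1, a.1.2, by
        show (a.1 : G) ∈ Subgroup.centralizer {t}
        rw [Subgroup.mem_centralizer_singleton_iff]
        have h2 := congrArg Subtype.val (a.2 ⟨t, Subgroup.mem_zpowers t⟩)
        rw [hsm] at h2
        show (a.1 : G) * t = t * a.1
        calc (a.1 : G) * t = (t * a.1 * t⁻¹) * t := by rw [h2]
          _ = t * a.1 := by group⟩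
      invFun := fun a => ⟨⟨a.1, a.2.1⟩, by
        intro g
        apply Subtype.ext
        rw [hsm]
        have h3 : (g : G) ∈ Subgroup.centralizer {(a : G)} := by
          have h4 : Subgroup.zpowers t ≤ Subgroup.centralizer {(a : G)} := by
            rw [Subgroup.zpowers_le, Subgroup.mem_centralizer_singleton_iff]
            exact ((Subgroup.mem_centralizer_singleton_iff).1 a.2.2).symm
          exact h4 g.2
        rw [Subgroup.mem_centralizer_singleton_iff] at h3
        show (g : G) * a * (g : G)⁻¹ = a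
        rw [h3]; group⟩
      left_inv := fun a => rfl
      right_inv := fun a => rfl }
  rw [Nat.card_congr e] at h1
  exact h1

end Cfsg.Agent.Lib.Helper6CSb5
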