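import Mathlib
import Cfsg.Agent.Lib.Helper65CSDefs
import Cfsg.Agent.Lib.Helper6CSb5

set_option autoImplicit false

/-! PROJECT 65, piece b3. -/

namespace Cfsg.Agent.Lib.Helper6CSb3

open Cfsg.Agent.Lib.Helper65CSDefs

variable {G : Type*} [Group G] [Finite G] {p : ℕ}

theorem b3 [Fact p.Prime] : B3Stmt G p := by
  intro U t w hU hab ht hw htw htU hwU hC
  -- the commutator homomorphism
  let φ : ↥U →* G := MonoidHom.mk' (fun a => w * a * w⁻¹ * (a : G)⁻¹) (by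
    intro a b
    have h1 : Commute ((a : G)⁻¹) (w * b * w⁻¹ * (b : G)⁻¹) :=
      hab _ (U.inv_mem a.2) _ (U.mul_mem (hwU _ b.2) (U.inv_mem b.2))
    show w * ((a : G) * b) * w⁻¹ * ((a : G) * b)⁻¹ = (w * a * w⁻¹ * (a : G)⁻¹) * (w * b * w⁻¹ * (b : G)⁻¹)
    calc w * ((a : G) * b) * w⁻¹ * ((a : G) * b)⁻¹
        = (w * a * w⁻¹) * ((w * b * w⁻¹ * (b : G)⁻¹) * (a : G)⁻¹) := by group
      _ = (w * a * w⁻¹) * ((a : G)⁻¹ * (w * b * w⁻¹ * (b : G)⁻¹)) := by rw [h1.eq]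
      _ = _ := by group)
  have hφ : ∀ a : ↥U, φ a = w * a * w⁻¹ * (a : G)⁻¹ := fun _ => rfl
  have hIU : φ.range ≤ U := by
    rintro _ ⟨a, rfl⟩
    rw [hφ]
    exact U.mul_mem (hwU _ a.2) (U.inv_mem a.2)
  have hIt : ∀ d ∈ φ.range, t * d * t⁻¹ ∈ φ.range := by
    rintro _ ⟨a, rfl⟩
    refine ⟨⟨t * a * t⁻¹, htU _ a.2⟩, ?_⟩
    rw [hφ, hφ]
    show w * (t * a * t⁻¹) * w⁻¹ * (t * a * t⁻¹)⁻¹ = t * (w * a * w⁻¹ * (a : G)⁻¹) * t⁻¹
    have e1 : w * t = t * w := htw.eq.symm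
    have e2 : t⁻¹ * w⁻¹ = w⁻¹ * t⁻¹ := by
      rw [← mul_inv_rev, ← mul_inv_rev, e1]
    calc w * (t * a * t⁻¹) * w⁻¹ * (t * a * t⁻¹)⁻¹
        = (w * t) * a * (t⁻¹ * w⁻¹) * (t * (a : G)⁻¹ * t⁻¹) := by group
      _ = (t * w) * a * (w⁻¹ * t⁻¹) * (t * (a : G)⁻¹ * t⁻¹) := by rw [e1, e2]
      _ = _ := by group
  have h5 := Cfsg.Agent.Lib.Helper6CSb5.b5 (G := G) (p := p) φ.range t ht hIt
  have hbot : φ.range = ⊥ := by
    by_contra hne
    have hIp : IsPGroup p φ.range := hU.to_le hIU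
    have hdvd : p ∣ Nat.card φ.range := by
      rcases hIp.card_eq_or_dvd with h | h
      · exact absurd (Subgroup.card_eq_one.mp h) hne
      · exact h
    have hdvd2 : p ∣ Nat.card (φ.range ⊓ Cen t : Subgroup G) :=
      (Nat.modEq_zero_iff_dvd.1 (h5.symm.trans (Nat.modEq_zero_iff_dvd.2 hdvd)))
    have hne2 : (φ.range ⊓ Cen t : Subgroup G) ≠ ⊥ := by
      intro h
      rw [h, Subgroup.card_bot] at hdvd2
      exact (Fact.out : p.Prime).one_lt.ne' (Nat.dvd_one.1 hdvd2)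
    obtain ⟨⟨d, hdI, hdt⟩, hd1⟩ := Subgroup.ne_bot_iff_exists_ne_one.1 hne2
    apply hd1
    apply Subtype.ext
    show d = 1
    obtain ⟨r, hr⟩ := hdI
    rw [hφ] at hr
    have hdU : d ∈ U := hIU ⟨r, hr⟩
    have hdt' : Commute t d := ((Subgroup.mem_centralizer_singleton_iff).1 hdt).symm
    have hwd : Commute w d := hC d hdU hdt'
    have hpow : ∀ k : ℕ, w ^ k * r * (w ^ k)⁻¹ = d ^ k * r := by
      intro k
      induction k with
      | zero => simp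
      | succ k ih =>
        have e : w ^ (k + 1) * r * (w ^ (k + 1))⁻¹ = w * (w ^ k * r * (w ^ k)⁻¹) * w⁻¹ := by
          rw [pow_succ']; group
        rw [e, ih]
        have e2 : w * (r : G) * w⁻¹ = d * r := by rw [← hr]; group
        calc w * (d ^ k * r) * w⁻¹ = (w * d ^ k) * w⁻¹ * (w * r * w⁻¹) := by group
          _ = (d ^ k * w) * w⁻¹ * (d * r) := by rw [(hwd.pow_right k).eq, e2]
          _ = d ^ (k + 1) * r := by rw [pow_succ]; group
    have h6 := hpow (orderOf w)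
    rw [pow_orderOf_eq_one] at h6
    have h7 : d ^ orderOf w = 1 := by
      have : (r : G) = d ^ orderOf w * r := by simpa using h6
      exact (mul_eq_right.1 this.symm)
    have h8 : orderOf d ∣ orderOf w := orderOf_dvd_of_pow_eq_one h7
    obtain ⟨k, hk⟩ := hU ⟨d, hdU⟩
    have hk' : d ^ p ^ k = 1 := by simpa using congrArg Subtype.val hk
    have h9 : orderOf d ∣ p ^ k := orderOf_dvd_of_pow_eq_one hk'
    have h10 : (orderOf w).Coprime (p ^ k) := Nat.Coprime.pow_right k hw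
    have h11 : orderOf d = 1 := Nat.eq_one_of_dvd_coprimes h10 h8 h9
    exact orderOf_eq_one_iff.1 h11
  intro a ha
  have h12 : φ ⟨a, ha⟩ ∈ φ.range := ⟨_, rfl⟩
  rw [hbot, Subgroup.mem_bot, hφ] at h12
  show w * a = a * w
  have h13 : w * a * w⁻¹ * a⁻¹ = 1 := h12
  calc w * a = (w * a * w⁻¹ * a⁻¹) * (a * w) := by group
    _ = a * w := by rw [h13, one_mul]

end Cfsg.Agent.Lib.Helper6CSb3
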