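import Mathlib
import Cfsg.Prelude.Def_GeometricClasses
import Cfsg.Agent.Lib.Helper95EluKCASES
import Cfsg.Agent.Lib.Helper57FieldTv

set_option autoImplicit false

/-! PROJECT 94, piece KEIGN. -/

namespace Cfsg.Agent.Lib.Helper6EluKEIGN

open Cfsg Cfsg.Geo Matrix Polynomial
open scoped MatrixGroups

variable {F : Type*} [Field F] [Fintype F]

omit [Fintype F] in
/-- `K u = V` when `K` has degree `n` -/
theorem exists_mulVec_eq {n : ℕ} {K : Subalgebra F (Matrix (Fin n) (Fin n) F)}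
    (hK : IsFieldSubalgebra n K) (u : Fin n → F) (hu0 : u ≠ 0) (v : Fin n → F) :
    ∃ κ ∈ K, κ *ᵥ u = v := by
  let φ : K →ₗ[F] (Fin n → F) :=
    { toFun := fun κ => (κ : Matrix (Fin n) (Fin n) F) *ᵥ u
      map_add' := fun a b => by simp [Matrix.add_mulVec]
      map_smul' := fun c a => by simp [Matrix.smul_mulVec] }
  have hinj : Function.Injective φ := by
    rw [← LinearMap.ker_eq_bot, LinearMap.ker_eq_bot']
    intro κ hκ
    exact Subtype.ext (Cfsg.Agent.Lib.Helper57FieldTv.eq_zero_of_mulVec hK κ.2 hu0 hκ)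
  have hdim : Module.finrank F K = Module.finrank F (Fin n → F) := by
    rw [hK.finrank_eq, Module.finrank_fin_fun]
  have hsurj : Function.Surjective φ := (LinearMap.injective_iff_surjective_of_finrank_eq_finrank hdim).1 hinj
  obtain ⟨κ, hκ⟩ := hsurj v
  exact ⟨κ, κ.2, hκ⟩

/- piece KEIGN -/
theorem eig_le_one {n : ℕ} (hn : n.Prime) {K : Subalgebra F (Matrix (Fin n) (Fin n) F)}
    (hK : IsFieldSubalgebra n K) (g : GL (Fin n) F) (hg : g ∈ subalgebraNormalizer K)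
    (hns : ∀ z : F, (g : Matrix (Fin n) (Fin n) F) ≠ z • (1 : Matrix (Fin n) (Fin n) F))
    (l : F) (u v : Fin n → F) (hu : (g : Matrix (Fin n) (Fin n) F) *ᵥ u = l • u)
    (hv : (g : Matrix (Fin n) (Fin n) F) *ᵥ v = l • v) (hu0 : u ≠ 0) : ∃ c : F, v = c • u := by
  have hginv : ((g⁻¹ : GL (Fin n) F) : Matrix (Fin n) (Fin n) F) * (g : Matrix (Fin n) (Fin n) F) = 1 := by
    rw [← Units.val_mul, inv_mul_cancel]; rfl
  have hl : l ≠ 0 := by
    rintro rfl
    apply hu0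
    rw [zero_smul] at hu
    have := congrArg (fun w => ((g⁻¹ : GL (Fin n) F) : Matrix (Fin n) (Fin n) F) *ᵥ w) hu
    simpa [Matrix.mulVec_mulVec, hginv] using this
  obtain ⟨κ, hκ, rfl⟩ := exists_mulVec_eq hK u hu0 v
  rcases Cfsg.Agent.Lib.Helper95EluKCASES.normalizer_cases hn hK g hg with hA | hB
  · exfalso
    apply hns l
    apply Cfsg.Agent.Lib.Helper57FieldTv.mat_ext
    intro x
    obtain ⟨κ', hκ', rfl⟩ := exists_mulVec_eq hK u hu0 x
    rw [Matrix.mulVec_mulVec, hA κ' hκ', ← Matrix.mulVec_mulVec, hu, Matrix.mulVec_smul,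
      Matrix.smul_mulVec, Matrix.one_mulVec]
  · have hκ' := (hg κ).1 hκ
    set κ' := (g : Matrix (Fin n) (Fin n) F) * κ * ((g⁻¹ : GL (Fin n) F) : Matrix (Fin n) (Fin n) F)
      with hκ'def
    have h1 : κ' * (g : Matrix (Fin n) (Fin n) F) = (g : Matrix (Fin n) (Fin n) F) * κ := by
      rw [hκ'def, mul_assoc, hginv, mul_one]
    have h2 : l • (κ' *ᵥ u) = l • (κ *ᵥ u) := by
      rw [← Matrix.mulVec_smul, ← hu, Matrix.mulVec_mulVec, h1, ← Matrix.mulVec_mulVec, hv]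
    have h3 : κ' *ᵥ u = κ *ᵥ u := smul_right_injective _ hl h2
    have h4 : κ' - κ = 0 := by
      apply Cfsg.Agent.Lib.Helper57FieldTv.eq_zero_of_mulVec hK (K.sub_mem hκ' hκ) hu0
      rw [Matrix.sub_mulVec, h3, sub_self]
    have h5 : κ' = κ := sub_eq_zero.1 h4
    obtain ⟨c, hc⟩ := hB κ hκ (by rw [← h1, h5])
    exact ⟨c, by rw [hc, Matrix.smul_mulVec, Matrix.one_mulVec]⟩

end Cfsg.Agent.Lib.Helper6EluKEIGN
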