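import Mathlib
import Cfsg.Agent.Lib.Helper87EluTools

set_option autoImplicit false

/-! Project 94 wave 3 (row S5958), piece I-PERM. -/

namespace Cfsg.Agent.Lib.Helper6ImpPERM

open Module Cfsg.Agent.Lib.Helper87EluB1 Cfsg.Agent.Lib.Helper87EluB2 Cfsg.Agent.Lib.Helper87EluB3
  Cfsg.Agent.Lib.Helper87EluB4

variable {F : Type*} [Field F] {V : Type*} [AddCommGroup V] [Module F V]

/-- the norm operator is fixed by `f` -/
theorem mul_norm (r : ℕ) (f : Module.End F V) (hf : f ^ r = 1) :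
    f * ∑ j ∈ Finset.range r, f ^ j = ∑ j ∈ Finset.range r, f ^ j := by
  rw [Finset.mul_sum]
  have h1 : ∑ j ∈ Finset.range r, f * f ^ j = ∑ j ∈ Finset.range r, f ^ (j + 1) :=
    Finset.sum_congr rfl fun j _ => (pow_succ' f j).symm
  rw [h1]
  have h2 := Finset.sum_range_succ' (fun j => f ^ j) r
  have h3 := Finset.sum_range_succ (fun j => f ^ j) r
  rw [h3, hf, pow_zero] at h2
  exact (add_right_cancel h2).symm

theorem pow_mem (f : Module.End F V) (W : Submodule F V) (hW : W.map f ≤ W) (k : ℕ) (x : V)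
    (hx : x ∈ W) : (f ^ k) x ∈ W := by
  induction k with
  | zero => simpa using hx
  | succ k ih =>
    rw [pow_succ', Module.End.mul_apply]
    exact hW (Submodule.mem_map_of_mem ih)

theorem pow_fixed (f : Module.End F V) (k : ℕ) (x : V) (hx : f x = x) : (f ^ k) x = x := by
  induction k with
  | zero => simp
  | succ k ih => rw [pow_succ, Module.End.mul_apply, hx, ih]

theorem mem_E (f : Module.End F V) (x : V) : x ∈ Module.End.eigenspace f 1 ↔ f x = x := by
  rw [Module.End.mem_eigenspace_iff, one_smul]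

theorem cyc_inv (r : ℕ) (hr0 : 0 < r) (f : Module.End F V) (hf : f ^ r = 1) (v : V) :
    (Submodule.span F (Set.range fun j : Fin r => (f ^ (j : ℕ)) v)).map f ≤
      Submodule.span F (Set.range fun j : Fin r => (f ^ (j : ℕ)) v) := by
  rw [Submodule.map_span, Submodule.span_le]
  rintro _ ⟨_, ⟨j, rfl⟩, rfl⟩
  apply Submodule.subset_span
  refine ⟨⟨((j : ℕ) + 1) % r, Nat.mod_lt _ hr0⟩, ?_⟩
  show (f ^ (((j : ℕ) + 1) % r)) v = f ((f ^ (j : ℕ)) v)
  rw [← pow_eq_pow_mod _ hf, pow_succ', Module.End.mul_apply]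

variable [FiniteDimensional F V]

theorem fix_split (f : Module.End F V) (Z Y Q : Submodule F V) (hZ : Z.map f ≤ Z)
    (hY : Y.map f ≤ Y) (hd : Z ⊓ Y = ⊥) (hs : Z ⊔ Y = Q) :
    finrank F ↥(Q ⊓ Module.End.eigenspace f 1) ≤
      finrank F ↥(Z ⊓ Module.End.eigenspace f 1) + finrank F ↥(Y ⊓ Module.End.eigenspace f 1) := by
  have hle : Q ⊓ Module.End.eigenspace f 1 ≤
      (Z ⊓ Module.End.eigenspace f 1) ⊔ (Y ⊓ Module.End.eigenspace f 1) := by
    rintro x ⟨hxQ, hxE⟩
    rw [SetLike.mem_coe, ← hs, Submodule.mem_sup] at hxQ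
    obtain ⟨z, hz, y, hy, rfl⟩ := hxQ
    rw [SetLike.mem_coe, mem_E, map_add] at hxE
    have hfz : f z ∈ Z := hZ (Submodule.mem_map_of_mem hz)
    have hfy : f y ∈ Y := hY (Submodule.mem_map_of_mem hy)
    have h1 : f z - z ∈ Z ⊓ Y := by
      refine ⟨Z.sub_mem hfz hz, ?_⟩
      have : f z - z = y - f y := by
        rw [sub_eq_sub_iff_add_eq_add, hxE, add_comm]
      rw [this]
      exact Y.sub_mem hy hfy
    rw [hd, Submodule.mem_bot, sub_eq_zero] at h1
    have h2 : f y = y := by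
      rw [h1] at hxE
      exact add_left_cancel hxE
    exact Submodule.add_mem_sup ⟨hz, (mem_E f z).2 h1⟩ ⟨hy, (mem_E f y).2 h2⟩
  exact (Submodule.finrank_mono hle).trans (Submodule.finrank_add_le_finrank_add_finrank _ _)

theorem exists_cyc [Fintype F] (r : ℕ) [Fact r.Prime] (hr : ¬ r ∣ Fintype.card F)
    (hrF : (r : F) ≠ 0) (f : Module.End F V) (hf : f ^ r = 1)
    (hc : orderOf (Fintype.card F : ZMod r) = r - 1) (hc2 : 2 ≤ r - 1)
    (Q : Submodule F V) (hQ : Q.map f ≤ Q) (hQE : ¬ Q ≤ Module.End.eigenspace f 1)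
    (hQ0 : Q ⊓ Module.End.eigenspace f 1 ≠ ⊥) :
    ∃ v ∈ Q, LinearIndependent F (fun j : Fin r => (f ^ (j : ℕ)) v) ∧
      finrank F ↥(Submodule.span F (Set.range fun j : Fin r => (f ^ (j : ℕ)) v) ⊓
        Module.End.eigenspace f 1) = 1 := by
  have hr0 : 0 < r := (Fact.out : r.Prime).pos
  have hf1 : f ^ r = (1 : F) • 1 := by rw [hf, one_smul]
  have hXinv : (Q ⊓ Module.End.eigenspace f 1).map f ≤ Q ⊓ Module.End.eigenspace f 1 := by
    rintro _ ⟨x, hx, rfl⟩
    have : f x = x := (mem_E f x).1 hx.2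
    rw [this]
    exact hx
  obtain ⟨D, hDQ, hDinv, hXD, hXDQ⟩ := exists_rel_compl r hrF f 1 one_ne_zero hf1
    (Q ⊓ Module.End.eigenspace f 1) Q inf_le_left hXinv hQ
  have hD0 : D ≠ ⊥ := by
    rintro rfl
    rw [sup_bot_eq] at hXDQ
    exact hQE (hXDQ ▸ inf_le_right)
  have hDE : D ⊓ Module.End.eigenspace f 1 = ⊥ := by
    rw [eq_bot_iff, ← hXD]
    exact le_inf (le_inf (inf_le_left.trans hDQ) inf_le_right) inf_le_left
  obtain ⟨B, hBD, hBinv, hBfin⟩ := exists_block r hr f hf D hDinv hD0 hDE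
  have hB0 : B ≠ ⊥ := by
    rintro rfl
    rw [finrank_bot, hc] at hBfin
    omega
  have hBE : B ⊓ Module.End.eigenspace f 1 = ⊥ := by
    rw [eq_bot_iff, ← hDE]
    exact inf_le_inf_right _ hBD
  obtain ⟨w, hwB, hw0⟩ := Submodule.exists_mem_ne_zero_of_ne_bot hB0
  obtain ⟨u, huX, hu0⟩ := Submodule.exists_mem_ne_zero_of_ne_bot hQ0
  have hfu : f u = u := (mem_E f u).1 huX.2
  set Z := Submodule.span F (Set.range fun j : Fin r => (f ^ (j : ℕ)) (u + w)) with hZdef
  have hZinv : Z.map f ≤ Z := cyc_inv r hr0 f hf (u + w)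
  have hmemZ : ∀ j, j < r → (f ^ j) (u + w) ∈ Z := fun j hj =>
    Submodule.subset_span ⟨⟨j, hj⟩, rfl⟩
  -- the norm
  have hNw : (∑ j ∈ Finset.range r, f ^ j) w = 0 := by
    have h1 : (∑ j ∈ Finset.range r, f ^ j) w ∈ B ⊓ Module.End.eigenspace f 1 := by
      refine ⟨?_, ?_⟩
      · rw [LinearMap.sum_apply]
        exact B.sum_mem fun j _ => pow_mem f B hBinv j w hwB
      · rw [SetLike.mem_coe, mem_E, ← Module.End.mul_apply, mul_norm r f hf]
    rwa [hBE, Submodule.mem_bot] at h1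
  have hNu : (∑ j ∈ Finset.range r, f ^ j) u = (r : F) • u := by
    rw [LinearMap.sum_apply, Finset.sum_congr rfl fun j _ => pow_fixed f j u hfu]
    rw [Finset.sum_const, Finset.card_range, Nat.cast_smul_eq_nsmul]
  have hNv : (r : F) • u ∈ Z := by
    have h1 : (∑ j ∈ Finset.range r, f ^ j) (u + w) ∈ Z := by
      rw [LinearMap.sum_apply]
      exact Z.sum_mem fun j hj => hmemZ j (Finset.mem_range.1 hj)
    rwa [map_add, hNw, add_zero, hNu] at h1
  have huZ : u ∈ Z := by
    have := Z.smul_mem (r : F)⁻¹ hNv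
    rwa [smul_smul, inv_mul_cancel₀ hrF, one_smul] at this
  have hvZ : u + w ∈ Z := by simpa using hmemZ 0 hr0
  have hwZ : w ∈ Z := by
    have := Z.sub_mem hvZ huZ
    rwa [add_sub_cancel_left] at this
  have hle : finrank F Z ≤ r := by
    have := finrank_range_le_card (R := F) (fun j : Fin r => (f ^ (j : ℕ)) (u + w))
    rwa [Fintype.card_fin] at this
  obtain ⟨k, hk⟩ := finrank_congr r hr f hf Z hZinv
  have hpos : 1 ≤ finrank F ↥(Z ⊓ Module.End.eigenspace f 1) := by
    rw [Nat.succ_le_iff, finrank_pos_iff, Submodule.nontrivial_iff_ne_bot]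
    intro h
    have : u ∈ Z ⊓ Module.End.eigenspace f 1 := ⟨huZ, huX.2⟩
    rw [h, Submodule.mem_bot] at this
    exact hu0 this
  have hk1 : 1 ≤ k := by
    by_contra hk0
    have hk0 : k = 0 := by omega
    rw [hk0, mul_zero, add_zero] at hk
    have : Z ⊓ Module.End.eigenspace f 1 = Z := Submodule.eq_of_le_of_finrank_eq inf_le_left hk.symm
    have hwZ' : w ∈ Z ⊓ Module.End.eigenspace f 1 := by rw [this]; exact hwZ
    have hwE : w ∈ B ⊓ Module.End.eigenspace f 1 := ⟨hwB, hwZ'.2⟩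
    rw [hBE, Submodule.mem_bot] at hwE
    exact hw0 hwE
  have hck : r - 1 ≤ (r - 1) * k := Nat.le_mul_of_pos_right _ hk1
  rw [hc] at hk
  refine ⟨u + w, Q.add_mem huX.1 (hDQ (hBD hwB)), ?_, ?_⟩
  swap
  · show finrank F ↥(Z ⊓ Module.End.eigenspace f 1) = 1
    omega
  rw [linearIndependent_iff_card_eq_finrank_span, Fintype.card_fin]
  show r = finrank F Z
  omega

theorem perm_aux [Fintype F] (r : ℕ) [Fact r.Prime] (hr : ¬ r ∣ Fintype.card F)
    (hrF : (r : F) ≠ 0) (f : Module.End F V) (hf : f ^ r = 1)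
    (hc : orderOf (Fintype.card F : ZMod r) = r - 1) (hc2 : 2 ≤ r - 1) (m : ℕ) :
    ∀ (Q : Submodule F V), finrank F Q = m → Q.map f ≤ Q →
    finrank F Q ≤ r * finrank F ↥(Q ⊓ Module.End.eigenspace f 1) →
    ∃ (J : Type) (_ : Fintype J) (b : J → V) (π : Equiv.Perm J),
      LinearIndependent F b ∧ Submodule.span F (Set.range b) = Q ∧ ∀ i, f (b i) = b (π i) := by
  have hr0 : 0 < r := (Fact.out : r.Prime).pos
  have : NeZero r := ⟨hr0.ne'⟩
  have hf1 : f ^ r = (1 : F) • 1 := by rw [hf, one_smul]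
  induction m using Nat.strong_induction_on with
  | _ m ih =>
    intro Q hm hQ hfin
    by_cases hQE : Q ≤ Module.End.eigenspace f 1
    · refine ⟨Fin (finrank F Q), inferInstance, fun i => ((Module.finBasis F Q i : Q) : V), 1,
        ?_, ?_, ?_⟩
      · exact (Module.finBasis F Q).linearIndependent.map' Q.subtype (Submodule.ker_subtype Q)
      · have h1 : (Set.range fun i => ((Module.finBasis F Q i : Q) : V)) =
            Q.subtype '' Set.range (Module.finBasis F Q) := by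
          rw [← Set.range_comp]
          rfl
        rw [h1, ← Submodule.map_span, (Module.finBasis F Q).span_eq, Submodule.map_subtype_top]
      · intro i
        exact (mem_E f _).1 (hQE (Module.finBasis F Q i).2)
    · have hQ0 : Q ⊓ Module.End.eigenspace f 1 ≠ ⊥ := by
        intro h
        rw [h, finrank_bot, mul_zero, Nat.le_zero, Submodule.finrank_eq_zero] at hfin
        exact hQE (hfin ▸ bot_le)
      obtain ⟨v, hvQ, hli, hZE⟩ := exists_cyc r hr hrF f hf hc hc2 Q hQ hQE hQ0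
      set Z := Submodule.span F (Set.range fun j : Fin r => (f ^ (j : ℕ)) v) with hZdef
      have hZinv : Z.map f ≤ Z := cyc_inv r hr0 f hf v
      have hZQ : Z ≤ Q := by
        rw [hZdef, Submodule.span_le]
        rintro _ ⟨j, rfl⟩
        exact pow_mem f Q hQ j v hvQ
      have hZfin : finrank F Z = r := by
        rw [hZdef, finrank_span_eq_card hli, Fintype.card_fin]
      obtain ⟨Y, hYQ, hYinv, hZY, hZYQ⟩ := exists_rel_compl r hrF f 1 one_ne_zero hf1 Z Q hZQ hZinv hQ
      have h1 := finrank_sup_of_disjoint Z Y hZY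
      rw [hZYQ, hZfin] at h1
      have h2 := fix_split f Z Y Q hZinv hYinv hZY hZYQ
      rw [hZE] at h2
      have h3 : finrank F Y ≤ r * finrank F ↥(Y ⊓ Module.End.eigenspace f 1) := by
        have h4 : r * finrank F ↥(Q ⊓ Module.End.eigenspace f 1) ≤
            r * (1 + finrank F ↥(Y ⊓ Module.End.eigenspace f 1)) := Nat.mul_le_mul_left _ h2
        rw [mul_add, mul_one] at h4
        omega
      obtain ⟨J', hJ', b', π', hli', hsp', hfb'⟩ := ih (finrank F Y) (by omega) Y rfl hYinv h3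
      refine ⟨Fin r ⊕ J', inferInstance, Sum.elim (fun j : Fin r => (f ^ (j : ℕ)) v) b',
        Equiv.sumCongr (Equiv.addRight (1 : Fin r)) π', ?_, ?_, ?_⟩
      · apply LinearIndependent.sum_type hli hli'
        rw [hsp', disjoint_iff]
        exact hZY
      · rw [Set.Sum.elim_range, Submodule.span_union, hsp']
        exact hZYQ
      · rintro (j | i)
        · show f ((f ^ (j : ℕ)) v) = (f ^ ((j + 1 : Fin r) : ℕ)) v
          rw [Fin.val_add, ← Module.End.mul_apply, ← pow_succ', pow_eq_pow_mod ((j : ℕ) + 1) hf]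
          congr 2
          rw [Fin.val_one', Nat.add_mod_mod]
        · exact hfb' i

/-- piece I-PERM -/
theorem perm {n : ℕ} [Fintype F] (r : ℕ) [Fact r.Prime] (hr : ¬ r ∣ Fintype.card F)
    (hrF : (r : F) ≠ 0)
    (f : Module.End F (Fin n → F)) (hf : f ^ r = 1)
    (hc : orderOf (Fintype.card F : ZMod r) = r - 1) (hc2 : 2 ≤ r - 1)
    (Q : Submodule F (Fin n → F)) (hQ : Q.map f ≤ Q)
    (hfin : finrank F Q ≤ r * finrank F ↥(Q ⊓ Module.End.eigenspace f 1)) :
    ∃ (J : Type) (_ : Fintype J) (b : J → (Fin n → F)) (π : Equiv.Perm J),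
      LinearIndependent F b ∧ Submodule.span F (Set.range b) = Q ∧ ∀ i, f (b i) = b (π i) :=
  perm_aux r hr hrF f hf hc hc2 _ Q rfl hQ hfin

end Cfsg.Agent.Lib.Helper6ImpPERM
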