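import Cfsg.Agent.Lib.Helper52FStar
import Cfsg.Agent.Lib.Helper30SZ

set_option autoImplicit false
set_option linter.unusedSectionVars false

/-! Project 87 (S1444), piece `caseB_red` (helper70). -/

namespace Cfsg.Agent.Lib.Helper70BG36Red

open Subgroup

theorem coprime_of_isPGroup {G : Type*} [Group G] [Finite G] {p : ℕ} {A Q : Subgroup G}
    (hA : IsPGroup p A) (hQ : (Nat.card Q).Coprime p) : (Nat.card A).Coprime (Nat.card Q) := by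
  by_contra hcon
  obtain ⟨q, hq, h1, h2⟩ := Nat.Prime.not_coprime_iff_dvd.1 hcon
  have : Fact q.Prime := ⟨hq⟩
  obtain ⟨a, ha⟩ := exists_prime_orderOf_dvd_card' (G := A) q h1
  obtain ⟨k, hk⟩ := hA a
  have h3 : q ∣ p ^ k := ha ▸ orderOf_dvd_of_pow_eq_one hk
  have h4 : q ∣ p := hq.dvd_of_dvd_pow h3
  have h5 : q ∣ Nat.gcd (Nat.card Q) p := Nat.dvd_gcd h2 h4
  rw [hQ] at h5
  exact hq.one_lt.ne' (Nat.dvd_one.1 h5)

/-- PIECE `caseB_red` -/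
theorem exists_min_pair {G : Type*} [Group G] [Finite G] {p : ℕ} (L A R : Subgroup G)
    (hAL : A ≤ normalizer (L : Set G)) (hRL : R ≤ normalizer (L : Set G))
    (hRA : R ≤ normalizer (A : Set G))
    (hLs : Group.IsSolvable L) (hLp : (Nat.card L).Coprime p)
    (hA : IsPGroup p A) (hA1 : A ≠ ⊥) (hCAL : A ⊓ centralizer (L : Set G) = ⊥) :
    ∃ A₁ Q : Subgroup G, A₁ ≤ A ∧ A₁ ≠ ⊥ ∧ R ≤ normalizer (A₁ : Set G) ∧
      (∀ B ≤ A₁, R ≤ normalizer (B : Set G) → B = ⊥ ∨ B = A₁) ∧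
      Q ≤ L ∧ A₁ ≤ normalizer (Q : Set G) ∧ R ≤ normalizer (Q : Set G) ∧ ⁅Q, A₁⁆ = Q ∧ Q ≠ ⊥ ∧
      (∀ X ≤ Q, X ≠ Q → A₁ ≤ normalizer (X : Set G) → R ≤ normalizer (X : Set G) →
        A₁ ≤ centralizer (X : Set G)) := by
  obtain ⟨A₁, ⟨hA₁A, hA₁1, hRA₁⟩, hA₁min⟩ := (wellFounded_lt (α := Subgroup G)).has_min
    {B | B ≤ A ∧ B ≠ ⊥ ∧ R ≤ normalizer (B : Set G)} ⟨A, le_rfl, hA1, hRA⟩
  have hnc : ¬ A₁ ≤ centralizer (L : Set G) := by
    intro h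
    apply hA₁1
    rw [eq_bot_iff, ← hCAL]
    exact le_inf hA₁A h
  obtain ⟨Q, ⟨hQL, hA₁Q, hRQ, hQnc⟩, hQmin⟩ := (wellFounded_lt (α := Subgroup G)).has_min
    {X | X ≤ L ∧ A₁ ≤ normalizer (X : Set G) ∧ R ≤ normalizer (X : Set G) ∧
      ¬ A₁ ≤ centralizer (X : Set G)} ⟨L, le_rfl, hA₁A.trans hAL, hRL, hnc⟩
  have hmin : ∀ X ≤ Q, X ≠ Q → A₁ ≤ normalizer (X : Set G) → R ≤ normalizer (X : Set G) →
      A₁ ≤ centralizer (X : Set G) := by
    intro X hXQ hne h1 h2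
    by_contra h3
    exact hQmin X ⟨hXQ.trans hQL, h1, h2, h3⟩ (lt_of_le_of_ne hXQ hne)
  refine ⟨A₁, Q, hA₁A, hA₁1, hRA₁, ?_, hQL, hA₁Q, hRQ, ?_, ?_, hmin⟩
  · intro B hB hRB
    by_cases hB1 : B = ⊥
    · exact Or.inl hB1
    · right
      by_contra hne
      exact hA₁min B ⟨hB.trans hA₁A, hB1, hRB⟩ (lt_of_le_of_ne hB hne)
  · by_contra hne
    have hle : ⁅Q, A₁⁆ ≤ Q := Cfsg.Agent.Lib.Helper30SZ.commutator_le_of_le_normalizer hA₁Q
    have h1 : A₁ ≤ centralizer ((⁅Q, A₁⁆ : Subgroup G) : Set G) :=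
      hmin _ hle hne
        (Cfsg.Agent.Lib.Helper30SZ.le_normalizer_commutator hA₁Q le_normalizer)
        (Cfsg.Agent.Lib.Helper30SZ.le_normalizer_commutator hRQ hRA₁)
    have h2 : ⁅⁅Q, A₁⁆, A₁⁆ = ⊥ := by
      rw [Subgroup.commutator_eq_bot_iff_le_centralizer]
      exact Subgroup.le_centralizer_iff.1 h1
    have hcop : (Nat.card A₁).Coprime (Nat.card Q) :=
      coprime_of_isPGroup (hA.to_le hA₁A)
        (Nat.Coprime.coprime_dvd_left (Subgroup.card_dvd_of_le hQL) hLp)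
    have h3 := Cfsg.Agent.Lib.Helper52FStar.commutator_commutator_eq_of_coprime hA₁Q hcop
      (Or.inr (Cfsg.Agent.Lib.Helper30SZ.solvable_of_le hLs hQL))
    rw [h2, le_bot_iff, Subgroup.commutator_eq_bot_iff_le_centralizer] at h3
    exact hQnc (Subgroup.le_centralizer_iff.1 h3)
  · rintro rfl
    apply hQnc
    intro a _
    rw [mem_centralizer_iff]
    intro x hx
    have : x = 1 := hx
    subst this
    simp

end Cfsg.Agent.Lib.Helper70BG36Red
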