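import Cfsg.Agent.Lib.Helper70TwRBase

set_option autoImplicit false

/-! Piece R1 of project TW-AUT. -/

namespace Cfsg.Agent.Lib.Helper70TwR1

open Subgroup Cfsg.Agent.Lib.LeadTwDefs Cfsg.Agent.Lib.Helper70TwRBase

variable {Γ F J : Type*} [Group Γ] [Field F] {P : TA Γ F J}

/-- R1 -/
theorem exists_acts (hP : P.Ok) {θ : Γ ≃* Γ} (hθ : P.Stab θ) : ∃ f, P.Acts θ f := by
  classical
  have h1 : ∀ j a, ∃ u, u ∈ P.A j ∧ (a ∈ P.A j → θ (P.x j a) = P.x j u) := by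
    intro j a
    by_cases ha : a ∈ P.A j
    · obtain ⟨u, hu, e⟩ := ((hθ j (P.x j a)).1).2 ⟨a, ha, rfl⟩
      exact ⟨u, hu, fun _ => e⟩
    · exact ⟨0, zero_mem _, fun h => absurd h ha⟩
  choose f hfm hf using h1
  have hadd : ∀ j, ∀ a ∈ P.A j, ∀ b ∈ P.A j, f j (a + b) = f j a + f j b := by
    intro j a ha b hb
    rw [← x_eq_iff hP j (hfm _ _) (add_mem (hfm _ _) (hfm _ _)), ← hf j _ (add_mem ha hb),
      hP.x_add j a ha b hb, map_mul, hf j a ha, hf j b hb, hP.x_add j _ (hfm _ _) _ (hfm _ _)]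
  have hinj : ∀ j, ∀ a ∈ P.A j, f j a = 0 → a = 0 := by
    intro j a ha h0
    have h2 := hf j a ha
    rw [h0, x_zero hP] at h2
    have h3 : P.x j a = 1 := by
      apply θ.injective
      rw [h2, map_one]
    exact hP.x_inj j a ha h3
  refine ⟨f, fun j a _ => hfm j a, hf, ?_, hadd, hinj, ?_⟩
  · intro j a ha ha0
    obtain ⟨b, hb, hbe⟩ := ((hθ j (P.y j (-a⁻¹))).2).2 ⟨-a⁻¹, neg_mem (inv_mem ha), rfl⟩
    have hne : f j a ≠ 0 := fun h0 => ha0 (hinj j a ha h0)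
    have hm : θ (P.n j a) = P.x j (f j a) * P.y j b * P.x j (f j a) := by
      unfold TA.n
      rw [map_mul, map_mul, hf j a ha, hbe]
    have := hP.uniq j (f j a) (hfm j a) hne b hb (by
      intro g hg
      obtain ⟨g', rfl⟩ := θ.surjective g
      have hg' : g' ∈ P.X j := ((hθ j g').1).1 hg
      rw [← hm, ← map_inv, ← map_mul, ← map_mul]
      exact ((hθ j _).2).2 (hP.swap j a ha ha0 g' hg'))
    rw [hbe, this]
  · intro j b hb
    obtain ⟨g, hg⟩ := θ.surjective (P.x j b)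
    have hg' : g ∈ P.X j := ((hθ j g).1).1 (hg ▸ ⟨b, hb, rfl⟩)
    obtain ⟨a, ha, rfl⟩ := hg'
    refine ⟨a, ha, ?_⟩
    rw [← x_eq_iff hP j (hfm _ _) hb, ← hf j a ha, hg]

end Cfsg.Agent.Lib.Helper70TwR1
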