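import Cfsg.Agent.Lib.Helper70TwRBase

set_option autoImplicit false

/-! Piece R2 of project TW-AUT. -/

namespace Cfsg.Agent.Lib.Helper70TwR2

open Subgroup Cfsg.Agent.Lib.LeadTwDefs Cfsg.Agent.Lib.Helper70TwRBase

variable {Γ F J : Type*} [Group Γ] [Field F] {P : TA Γ F J}

/-- R2 -/
theorem torus_rel (hP : P.Ok) {θ : Γ ≃* Γ} {f : J → F → F} (hA : P.Acts θ f) (i j : J)
    (a : F) (ha : a ∈ P.A i) (ha0 : a ≠ 0) (u : F) (hu : u ∈ P.A j) :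
    f j (P.χ i j a * u) = P.χ i j (f i a) * (P.χ i j (f i 1))⁻¹ * f j u := by
  have h1 := congrArg θ (hP.h_x i j a ha ha0 u hu)
  have hcu : P.χ i j a * u ∈ P.A j := mul_mem (hP.χ_mem i j a ha) hu
  rw [map_mul, map_mul, map_inv, map_h hA i ha ha0, hA.pos j u hu, hA.pos j _ hcu] at h1
  have hfa := f_ne_zero hA i ha ha0
  have hf1 := f_ne_zero hA i (one_mem _) one_ne_zero
  have hfam := hA.mem i a ha
  have hf1m := hA.mem i 1 (one_mem _)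
  have hfu := hA.mem j u hu
  have e : P.h i (f i a) * (P.h i (f i 1))⁻¹ * P.x j (f j u) * (P.h i (f i a) * (P.h i (f i 1))⁻¹)⁻¹ =
      P.h i (f i a) * ((P.h i (f i 1))⁻¹ * P.x j (f j u) * P.h i (f i 1)) * (P.h i (f i a))⁻¹ := by group
  have hm1 : (P.χ i j (f i 1))⁻¹ * f j u ∈ P.A j := mul_mem (inv_mem (hP.χ_mem i j _ hf1m)) hfu
  rw [e, h_conj_inv hP i j hf1m hf1 hfu, hP.h_x i j _ hfam hfa _ hm1,
    x_eq_iff hP j (mul_mem (hP.χ_mem i j _ hfam) hm1) (hA.mem j _ hcu)] at h1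
  rw [← h1, mul_assoc]

end Cfsg.Agent.Lib.Helper70TwR2
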