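import Cfsg.Agent.Lib.Helper15AutA14

set_option autoImplicit false

/-! Piece R3 of project TW-AUT. -/

namespace Cfsg.Agent.Lib.Helper70TwR3

variable {F : Type*} [Field F]

/-- R3 (apply `ring_of_sq` to the finite field `↥A`) -/
theorem ring_of_sq_sub [Finite F] (A : Subfield F) (g : F → F) (hmem : ∀ a ∈ A, g a ∈ A)
    (hadd : ∀ a ∈ A, ∀ b ∈ A, g (a + b) = g a + g b) (hinj : ∀ a ∈ A, g a = 0 → a = 0)
    (h1 : g 1 = 1) (hsq : ∀ t ∈ A, ∀ u ∈ A, t ≠ 0 → g (t ^ 2 * u) = g t ^ 2 * g u) :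
    ∃ σ : ↥A ≃+* ↥A, ∀ a : ↥A, g a = σ a := by
  let G : ↥A → ↥A := fun a => ⟨g a, hmem a a.2⟩
  have hGadd : ∀ a b, G (a + b) = G a + G b := by
    intro a b
    apply Subtype.ext
    exact hadd a a.2 b b.2
  have hG0 : G 0 = 0 := by
    have := hGadd 0 0
    simpa using this
  have hGneg : ∀ a, G (-a) = - G a := by
    intro a
    have := hGadd a (-a)
    rw [add_neg_cancel, hG0] at this
    exact eq_neg_of_add_eq_zero_right this.symm
  have hGinj : Function.Injective G := by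
    intro a b hab
    have h2 : G (a + -b) = 0 := by rw [hGadd, hGneg, hab, add_neg_cancel]
    have h3 : g ((a + -b : ↥A) : F) = 0 := congrArg Subtype.val h2
    have h4 := hinj _ (a + -b : ↥A).2 h3
    have h5 : a + -b = 0 := Subtype.ext h4
    exact add_neg_eq_zero.1 h5
  have hGbij : Function.Bijective G := Finite.injective_iff_bijective.1 hGinj
  obtain ⟨σ, hσ⟩ := Cfsg.Agent.Lib.Helper15AutA14.ring_of_sq G hGadd hGbij (Subtype.ext h1) (by
    intro t u ht
    apply Subtype.ext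
    exact hsq t t.2 u u.2 (fun h => ht (Subtype.ext h)))
  exact ⟨σ, fun a => congrArg Subtype.val (hσ a)⟩

end Cfsg.Agent.Lib.Helper70TwR3
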