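import Cfsg.Agent.Lib.Helper70TwRBase

set_option autoImplicit false

/-! Piece R6 of project TW-AUT. -/

namespace Cfsg.Agent.Lib.Helper70TwR6

open Subgroup Cfsg.Agent.Lib.LeadTwDefs Cfsg.Agent.Lib.Helper70TwRBase

variable {Γ F J : Type*} [Group Γ] [Field F] {P : TA Γ F J}

/-- R6 -/
theorem acts_unique (hP : P.Ok) {θ θ' : Γ ≃* Γ} {f : J → F → F} (hA : P.Acts θ f) (hA' : P.Acts θ' f) :
    θ = θ' := by
  have key : (θ : Γ →* Γ) = (θ' : Γ →* Γ) := by
    apply MonoidHom.eq_of_eqOn_dense hP.gen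
    rintro g ⟨j, ⟨a, ha, rfl⟩ | ⟨t, ht, rfl⟩⟩
    · show θ _ = θ' _
      rw [hA.pos j a ha, hA'.pos j a ha]
    · show θ _ = θ' _
      by_cases ht0 : t = 0
      · subst ht0
        rw [y_zero hP, map_one, map_one]
      · have e : t = -(-t⁻¹)⁻¹ := by
          rw [inv_neg, inv_inv, neg_neg]
        have hne : -t⁻¹ ≠ 0 := neg_ne_zero.2 (inv_ne_zero ht0)
        have hm : -t⁻¹ ∈ P.A j := neg_mem (inv_mem ht)
        rw [e, hA.neg j _ hm hne, hA'.neg j _ hm hne]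
  ext g
  exact DFunLike.congr_fun key g

end Cfsg.Agent.Lib.Helper70TwR6
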