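import Cfsg.Agent.Lib.Helper70TwRBase

set_option autoImplicit false

/-! Piece R7 of project TW-AUT. -/

namespace Cfsg.Agent.Lib.Helper70TwR7

open Subgroup Cfsg.Agent.Lib.LeadTwDefs Cfsg.Agent.Lib.Helper70TwRBase

variable {Γ F J : Type*} [Group Γ] [Field F] {P : TA Γ F J}

theorem card_nz [Finite F] (A : Subfield F) : Nat.card {c : F // c ∈ A ∧ c ≠ 0} = Nat.card ↥A - 1 := by
  rw [← Nat.card_units]
  apply Nat.card_congr
  refine ⟨fun c => Units.mk0 ⟨c.1, c.2.1⟩ (fun h => c.2.2 (congrArg Subtype.val h)),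
    fun u => ⟨(u : ↥A), (u : ↥A).2, fun h => u.ne_zero (Subtype.ext h)⟩, fun c => rfl, fun u => ?_⟩
  apply Units.ext
  rfl

/-- R7 -/
theorem card_good [Finite F] [Fintype J] (hP : P.Ok) (G : (Γ ≃* Γ) → Prop) (j0 : J) (hj0 : P.A j0 = ⊤)
    (hcls : ∀ θ, G θ → ∃ (c : J → F) (σ : F ≃+* F), (∀ j, c j ∈ P.A j ∧ c j ≠ 0) ∧ P.Acts θ (fun j a => c j * σ a))
    (hex : ∀ (c : J → F) (σ : F ≃+* F), (∀ j, c j ∈ P.A j ∧ c j ≠ 0) → ∃ θ, G θ ∧ P.Acts θ (fun j a => c j * σ a))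
    (huniq : ∀ (θ θ' : Γ ≃* Γ) (f : J → F → F), P.Acts θ f → P.Acts θ' f → θ = θ') :
    Nat.card {θ : Γ ≃* Γ // G θ} = (∏ j, (Nat.card ↥(P.A j) - 1)) * Nat.card (F ≃+* F) := by
  classical
  let Ψ : ((j : J) → {c : F // c ∈ P.A j ∧ c ≠ 0}) × (F ≃+* F) → {θ : Γ ≃* Γ // G θ} := fun x =>
    ⟨Classical.choose (hex (fun j => (x.1 j).1) x.2 (fun j => (x.1 j).2)),
      (Classical.choose_spec (hex (fun j => (x.1 j).1) x.2 (fun j => (x.1 j).2))).1⟩
  have hΨ : ∀ x, P.Acts (Ψ x).1 (fun j a => (x.1 j).1 * x.2 a) :=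
    fun x => (Classical.choose_spec (hex (fun j => (x.1 j).1) x.2 (fun j => (x.1 j).2))).2
  have hbij : Function.Bijective Ψ := by
    constructor
    · rintro ⟨c, σ⟩ ⟨c', σ'⟩ hx
      have A := hΨ ⟨c, σ⟩
      have A' := hΨ ⟨c', σ'⟩
      rw [← hx] at A'
      simp only at A A'
      have key : ∀ j, ∀ a ∈ P.A j, (c j).1 * σ a = (c' j).1 * σ' a := by
        intro j a ha
        rw [← x_eq_iff hP j (A.mem j a ha) (A'.mem j a ha), ← A.pos j a ha, ← A'.pos j a ha]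
      have hc : c = c' := by
        funext j
        apply Subtype.ext
        have := key j 1 (one_mem _)
        simpa using this
      subst hc
      have hσ : σ = σ' := by
        ext t
        exact mul_left_cancel₀ (c j0).2.2 (key j0 t (by rw [hj0]; trivial))
      subst hσ
      rfl
    · rintro ⟨θ, hθ⟩
      obtain ⟨c, σ, hc, hA⟩ := hcls θ hθ
      refine ⟨⟨fun j => ⟨c j, hc j⟩, σ⟩, ?_⟩
      apply Subtype.ext
      exact huniq _ _ _ (hΨ ⟨fun j => ⟨c j, hc j⟩, σ⟩) hA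
  rw [← Nat.card_congr (Equiv.ofBijective Ψ hbij), Nat.card_prod, Nat.card_pi]
  congr 1
  exact Finset.prod_congr rfl (fun j _ => card_nz (P.A j))

end Cfsg.Agent.Lib.Helper70TwR7
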