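import Cfsg.Agent.Lib.LeadTwDefs2

set_option autoImplicit false

/-! Common lemmas for part R of project TW-AUT. -/

namespace Cfsg.Agent.Lib.Helper70TwRBase

open Subgroup Cfsg.Agent.Lib.LeadTwDefs

variable {Γ F J : Type*} [Group Γ] [Field F] {P : TA Γ F J}

theorem x_zero (hP : P.Ok) (j : J) : P.x j 0 = 1 := by
  have := hP.x_add j 0 (zero_mem _) 0 (zero_mem _)
  rw [add_zero] at this
  exact (left_eq_mul.1 this)

theorem y_zero (hP : P.Ok) (j : J) : P.y j 0 = 1 := by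
  have := hP.y_add j 0 (zero_mem _) 0 (zero_mem _)
  rw [add_zero] at this
  exact (left_eq_mul.1 this)

theorem x_neg (hP : P.Ok) (j : J) {a : F} (ha : a ∈ P.A j) : P.x j (-a) = (P.x j a)⁻¹ := by
  have := hP.x_add j a ha (-a) (neg_mem ha)
  rw [add_neg_cancel, x_zero hP] at this
  exact (inv_eq_of_mul_eq_one_right this.symm).symm

theorem x_eq_iff (hP : P.Ok) (j : J) {a b : F} (ha : a ∈ P.A j) (hb : b ∈ P.A j) :
    P.x j a = P.x j b ↔ a = b := by
  constructor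
  · intro h
    have h1 := hP.x_add j a ha (-b) (neg_mem hb)
    rw [x_neg hP j hb, h, mul_inv_cancel] at h1
    have := hP.x_inj j _ (add_mem ha (neg_mem hb)) h1
    exact add_neg_eq_zero.1 this
  · rintro rfl; rfl

theorem f_zero {θ : Γ ≃* Γ} {f : J → F → F} (hA : P.Acts θ f) (j : J) : f j 0 = 0 := by
  have := hA.add j 0 (zero_mem _) 0 (zero_mem _)
  rw [add_zero] at this
  exact left_eq_add.1 this

theorem f_ne_zero {θ : Γ ≃* Γ} {f : J → F → F} (hA : P.Acts θ f) (j : J) {a : F} (ha : a ∈ P.A j)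
    (h0 : a ≠ 0) : f j a ≠ 0 := fun h => h0 (hA.inj j a ha h)

theorem map_n {θ : Γ ≃* Γ} {f : J → F → F} (hA : P.Acts θ f) (j : J) {a : F} (ha : a ∈ P.A j)
    (h0 : a ≠ 0) : θ (P.n j a) = P.n j (f j a) := by
  unfold TA.n
  rw [map_mul, map_mul, hA.pos j a ha, hA.neg j a ha h0]

theorem map_h {θ : Γ ≃* Γ} {f : J → F → F} (hA : P.Acts θ f) (j : J) {a : F} (ha : a ∈ P.A j)
    (h0 : a ≠ 0) : θ (P.h j a) = P.h j (f j a) * (P.h j (f j 1))⁻¹ := by
  unfold TA.h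
  rw [map_mul, map_inv, map_n hA j ha h0, map_n hA j (one_mem _) one_ne_zero]
  group

theorem χ_ne_zero (hP : P.Ok) (i j : J) {a : F} (ha : a ∈ P.A i) (h0 : a ≠ 0) : P.χ i j a ≠ 0 := by
  intro h
  have := hP.χ_mul i j a ha a⁻¹ (inv_mem ha)
  rw [mul_inv_cancel₀ h0, hP.χ_one, h, zero_mul] at this
  exact one_ne_zero this

theorem h_conj_inv (hP : P.Ok) (i j : J) {c : F} (hc : c ∈ P.A i) (h0 : c ≠ 0) {t : F} (ht : t ∈ P.A j) :
    (P.h i c)⁻¹ * P.x j t * P.h i c = P.x j ((P.χ i j c)⁻¹ * t) := by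
  have := hP.h_x i j c hc h0 ((P.χ i j c)⁻¹ * t) (mul_mem (inv_mem (hP.χ_mem i j c hc)) ht)
  rw [← mul_assoc, mul_inv_cancel₀ (χ_ne_zero hP i j hc h0), one_mul] at this
  rw [← this]
  group

end Cfsg.Agent.Lib.Helper70TwRBase
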