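import Cfsg.Agent.Lib.LeadAutDefs
import Cfsg.Agent.Lib.LeadChevMisc
import Cfsg.Agent.Lib.Helper22ChevBruhat
import Cfsg.Agent.Lib.Helper23RG2

set_option autoImplicit false

/-! PROJECT 100 (CHEV-AUT), piece B4 (helper72). -/

namespace Cfsg.Agent.Lib.Helper72AutB4

open Subgroup Cfsg.Agent.Lib.Helper23Grp Cfsg.Agent.Lib.Helper23RG Cfsg.Agent.Lib.Helper23RG.RG
  Cfsg.Agent.Lib.Helper23Weyl Cfsg.Agent.Lib.LeadAutDefs

variable {𝔾 K R I : Type*} [Group 𝔾] [Field K] [Fintype R] [DecidableEq R] {S : RG 𝔾 K R I}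

/-- B4 (uses A2, THEOREM 1 and B3 as hypotheses) -/
theorem nrm_of_perms (h : AData S)
    (hA2 : ∀ θ : 𝔾 ≃* 𝔾, ∃ y : 𝔾, Nrm S (θ.trans (MulAut.conj y)))
    (hT1 : ∀ θ : 𝔾 ≃* 𝔾, Nrm S θ → ∃ ρ, Perms S θ ρ)
    (hB3 : ∀ c : 𝔾, (∀ i, c * S.x (S.simple i) 1 * c⁻¹ ∈ S.B) →
      (∀ i t, c * S.x (S.neg (S.simple i)) t * c⁻¹ ∈ S.V) → c ∈ S.H)
    {θ : 𝔾 ≃* 𝔾} {ρ : Equiv.Perm I} (hρ : Perms S θ ρ) : Nrm S θ := by
  obtain ⟨y, hy⟩ := hA2 θ
  obtain ⟨ρ1, hρ1⟩ := hT1 _ hy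
  have happ : ∀ g, (θ.trans (MulAut.conj y)) g = y * θ g * y⁻¹ := fun g => rfl
  have hyH : y ∈ S.H := by
    apply hB3
    · intro j
      have e : θ (θ.symm (S.x (S.simple j) 1)) = S.x (S.simple j) 1 := θ.apply_symm_apply _
      have h1 : θ.symm (S.x (S.simple j) 1) ∈ S.X (S.simple (ρ.symm j)) := by
        rw [← (hρ (ρ.symm j) _).1, e, Equiv.apply_symm_apply]
        exact x_mem_X _ _
      have h2 := ((hρ1 (ρ.symm j) _).1).2 h1
      rw [happ, e] at h2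
      obtain ⟨t, ht⟩ := (mem_X_iff h.ok).1 h2
      rw [ht]
      exact U_le_B (x_mem_U (h.ok.pos_simple _) _)
    · intro j t
      have e : θ (θ.symm (S.x (S.neg (S.simple j)) t)) = S.x (S.neg (S.simple j)) t :=
        θ.apply_symm_apply _
      have h1 : θ.symm (S.x (S.neg (S.simple j)) t) ∈ S.X (S.neg (S.simple (ρ.symm j))) := by
        rw [← (hρ (ρ.symm j) _).2, e, Equiv.apply_symm_apply]
        exact x_mem_X _ _
      have h2 := ((hρ1 (ρ.symm j) _).2).2 h1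
      rw [happ, e] at h2
      obtain ⟨u, hu⟩ := (mem_X_iff h.ok).1 h2
      rw [hu]
      exact x_mem_V (not_pos_neg_simple h.ok _) _
  constructor
  · intro g
    rw [← hy.1 g, happ]
    exact mem_normalizer_iff.1 (H_le_normalizer_XS h.ok S.pos hyH) (θ g)
  · intro g
    rw [← hy.2 g, happ]
    exact mem_normalizer_iff.1 (H_le_normalizer_XS h.ok (fun r => ¬ S.pos r) hyH) (θ g)

end Cfsg.Agent.Lib.Helper72AutB4
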