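import Cfsg.Agent.Lib.LeadAutDefs
import Cfsg.Agent.Lib.LeadChevMisc
import Cfsg.Agent.Lib.Helper22ChevBruhat
import Cfsg.Agent.Lib.Helper23RG2

set_option autoImplicit false

/-! PROJECT 100 (CHEV-AUT), piece B5 (helper72). -/

namespace Cfsg.Agent.Lib.Helper72AutB5

open Subgroup Cfsg.Agent.Lib.Helper23Grp Cfsg.Agent.Lib.Helper23RG Cfsg.Agent.Lib.Helper23RG.RG
  Cfsg.Agent.Lib.Helper23Weyl Cfsg.Agent.Lib.LeadAutDefs

variable {𝔾 K R I : Type*} [Group 𝔾] [Field K] [Fintype R] [DecidableEq R] {S : RG 𝔾 K R I}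

/-- B5 -/
theorem Acts.perms (h : AData S) {θ : 𝔾 ≃* 𝔾} {ρ : Equiv.Perm I} {f : I → K → K} (hA : Acts S θ ρ f) :
    Perms S θ ρ := by
  have f0 : ∀ i, f i 0 = 0 := by
    intro i
    have := hA.add i 0 0
    rw [add_zero] at this
    exact (add_eq_left.1 this.symm)
  intro i g
  constructor
  · constructor
    · intro hg
      obtain ⟨u, hu⟩ := (mem_X_iff h.ok).1 hg
      obtain ⟨t, rfl⟩ := (hA.bij i).2 u
      rw [← hA.pos] at hu
      rw [θ.injective hu]
      exact x_mem_X _ _
    · intro hg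
      obtain ⟨t, rfl⟩ := (mem_X_iff h.ok).1 hg
      rw [hA.pos]
      exact x_mem_X _ _
  · constructor
    · intro hg
      obtain ⟨u, hu⟩ := (mem_X_iff h.ok).1 hg
      by_cases hu0 : u = 0
      · subst hu0
        rw [x_zero h.ok] at hu
        have : g = 1 := by
          apply θ.injective
          rw [hu, map_one]
        rw [this]
        exact one_mem _
      · obtain ⟨t, ht⟩ := (hA.bij i).2 (-u⁻¹)
        have ht0 : t ≠ 0 := by
          rintro rfl
          rw [f0] at ht
          exact neg_ne_zero.2 (inv_ne_zero hu0) ht.symm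
        have e : u = -(f i t)⁻¹ := by
          rw [ht, inv_neg, inv_inv, neg_neg]
        rw [e, ← hA.neg i t ht0] at hu
        rw [θ.injective hu]
        exact x_mem_X _ _
    · intro hg
      obtain ⟨s, rfl⟩ := (mem_X_iff h.ok).1 hg
      by_cases hs : s = 0
      · subst hs
        rw [x_zero h.ok, map_one]
        exact one_mem _
      · have e : s = -(-s⁻¹)⁻¹ := by
          rw [inv_neg, inv_inv, neg_neg]
        have hne : -s⁻¹ ≠ 0 := neg_ne_zero.2 (inv_ne_zero hs)
        rw [e, hA.neg i _ hne]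
        exact x_mem_X _ _

end Cfsg.Agent.Lib.Helper72AutB5
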