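import Cfsg.Agent.Lib.LeadAutDefs
import Cfsg.Agent.Lib.LeadChevMisc
import Cfsg.Agent.Lib.Helper22ChevBruhat
import Cfsg.Agent.Lib.Helper23RG2

set_option autoImplicit false

/-! PROJECT 100 (CHEV-AUT), piece B6 (helper72). -/

namespace Cfsg.Agent.Lib.Helper72AutB6

open Subgroup Cfsg.Agent.Lib.Helper23Grp Cfsg.Agent.Lib.Helper23RG Cfsg.Agent.Lib.Helper23RG.RG
  Cfsg.Agent.Lib.Helper23Weyl Cfsg.Agent.Lib.LeadAutDefs

variable {𝔾 K R I : Type*} [Group 𝔾] [Field K] [Fintype R] [DecidableEq R] {S : RG 𝔾 K R I}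

omit [Fintype R] [DecidableEq R] in
theorem nrm_conj_of_mem_H (ok : S.Ok) {y : 𝔾} (hy : y ∈ S.H) : Nrm S (MulAut.conj y) := by
  constructor
  · intro g
    rw [MulAut.conj_apply]
    exact (mem_normalizer_iff.1 (H_le_normalizer_XS ok S.pos hy) g).symm
  · intro g
    rw [MulAut.conj_apply]
    exact (mem_normalizer_iff.1 (H_le_normalizer_XS ok (fun r => ¬ S.pos r) hy) g).symm

/-- B6 (uses B3 as a hypothesis) -/
theorem conj_nrm_iff (h : AData S)
    (hB3 : ∀ c : 𝔾, (∀ i, c * S.x (S.simple i) 1 * c⁻¹ ∈ S.B) →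
      (∀ i t, c * S.x (S.neg (S.simple i)) t * c⁻¹ ∈ S.V) → c ∈ S.H) (y : 𝔾) :
    Nrm S (MulAut.conj y) ↔ y ∈ S.H := by
  constructor
  · intro hy
    apply hB3
    · intro i
      apply U_le_B
      have := (hy.1 (S.x (S.simple i) 1)).2 (x_mem_U (h.ok.pos_simple i) _)
      rwa [MulAut.conj_apply] at this
    · intro i t
      have := (hy.2 (S.x (S.neg (S.simple i)) t)).2 (x_mem_V (not_pos_neg_simple h.ok i) _)
      rwa [MulAut.conj_apply] at this
  · exact nrm_conj_of_mem_H h.ok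

end Cfsg.Agent.Lib.Helper72AutB6
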