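import Cfsg.Agent.Lib.LeadAutDefs
import Cfsg.Agent.Lib.LeadChevMisc
import Cfsg.Agent.Lib.Helper22ChevBruhat
import Cfsg.Agent.Lib.Helper23RG2
import Cfsg.Prelude.Def_KGroupFacts

set_option autoImplicit false

/-! PROJECT 100 (CHEV-AUT), piece B7 (`card_out`) (helper72). -/

namespace Cfsg.Agent.Lib.Helper72AutB7

open Subgroup Cfsg.Agent.Lib.Helper23Grp Cfsg.Agent.Lib.Helper23RG Cfsg.Agent.Lib.Helper23RG.RG
  Cfsg.Agent.Lib.Helper23Weyl Cfsg.Agent.Lib.LeadAutDefs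

variable {𝔾 K R I : Type*} [Group 𝔾] [Field K] [Fintype R] [DecidableEq R] {S : RG 𝔾 K R I}

omit [Fintype R] [DecidableEq R] in
/-- the automorphisms stabilizing `U` and `V` form a subgroup -/
def nrmSub (S : RG 𝔾 K R I) : Subgroup (MulAut 𝔾) where
  carrier := {θ | Nrm S θ}
  mul_mem' := by
    intro a b ha hb
    refine ⟨fun g => ?_, fun g => ?_⟩
    · show a (b g) ∈ S.U ↔ g ∈ S.U
      rw [ha.1, hb.1]
    · show a (b g) ∈ S.V ↔ g ∈ S.V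
      rw [ha.2, hb.2]
  one_mem' := ⟨fun _ => Iff.rfl, fun _ => Iff.rfl⟩
  inv_mem' := by
    intro a ha
    refine ⟨fun g => ?_, fun g => ?_⟩
    · rw [← ha.1 (a⁻¹ g)]
      show a (a.symm g) ∈ S.U ↔ g ∈ S.U
      rw [MulEquiv.apply_symm_apply]
    · rw [← ha.2 (a⁻¹ g)]
      show a (a.symm g) ∈ S.V ↔ g ∈ S.V
      rw [MulEquiv.apply_symm_apply]

/-- B7 (uses A2, B6 as hypotheses): `|Out| |H| = |{θ | θ U = U, θ V = V}|` -/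
theorem card_out [Finite 𝔾] (h : AData S) (hZ : ∀ z : 𝔾, (∀ g, z * g = g * z) → z = 1)
    (hA2 : ∀ θ : 𝔾 ≃* 𝔾, ∃ y : 𝔾, Nrm S (θ.trans (MulAut.conj y)))
    (hB6 : ∀ y : 𝔾, Nrm S (MulAut.conj y) ↔ y ∈ S.H) :
    Nat.card (Cfsg.Out 𝔾) * Nat.card S.H = Nat.card {θ : 𝔾 ≃* 𝔾 // Nrm S θ} := by
  have hsup : Cfsg.Inn 𝔾 ⊔ nrmSub S = ⊤ := by
    rw [eq_top_iff]
    intro θ _
    obtain ⟨y, hy⟩ := hA2 θ
    have h1 : (MulAut.conj y * θ : MulAut 𝔾) ∈ nrmSub S := hy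
    have h2 : θ = (MulAut.conj y)⁻¹ * (MulAut.conj y * θ) := by group
    rw [h2]
    exact mul_mem (mem_sup_left (inv_mem ⟨y, rfl⟩)) (mem_sup_right h1)
  have hnorm : (Cfsg.Inn 𝔾).Normal := by
    constructor
    rintro _ ⟨y, rfl⟩ θ
    refine ⟨θ y, ?_⟩
    ext g
    simp [MulAut.conj_apply]
  have h1 : (Cfsg.Inn 𝔾).index = (Cfsg.Inn 𝔾).relIndex (nrmSub S) := by
    rw [← relIndex_top_right, ← hsup, relIndex_sup_left]
  have h2 : Nat.card ↥((Cfsg.Inn 𝔾).subgroupOf (nrmSub S)) = Nat.card S.H := by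
    symm
    refine Nat.card_congr (Equiv.ofBijective
      (fun y : S.H => (⟨⟨MulAut.conj (y : 𝔾), (hB6 y).2 y.2⟩, ⟨y, rfl⟩⟩ :
        ↥((Cfsg.Inn 𝔾).subgroupOf (nrmSub S)))) ⟨?_, ?_⟩)
    · intro y y' e
      have e1 : (MulAut.conj (y : 𝔾) : MulAut 𝔾) = MulAut.conj (y' : 𝔾) :=
        congrArg (fun z : ↥((Cfsg.Inn 𝔾).subgroupOf (nrmSub S)) => ((z : ↥(nrmSub S)) : MulAut 𝔾)) e
      have e2 : ((y' : 𝔾)⁻¹ * (y : 𝔾)) = 1 := by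
        apply hZ
        intro g
        have e3 := congrArg (fun θ : MulAut 𝔾 => θ g) e1
        simp only [MulAut.conj_apply] at e3
        calc (y' : 𝔾)⁻¹ * (y : 𝔾) * g = (y' : 𝔾)⁻¹ * ((y : 𝔾) * g * (y : 𝔾)⁻¹) * (y : 𝔾) := by group
          _ = (y' : 𝔾)⁻¹ * ((y' : 𝔾) * g * (y' : 𝔾)⁻¹) * (y : 𝔾) := by rw [e3]
          _ = g * ((y' : 𝔾)⁻¹ * (y : 𝔾)) := by group
      apply Subtype.ext
      exact (inv_mul_eq_one.1 e2).symm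
    · rintro ⟨⟨θ, hθ⟩, ⟨y, hy⟩⟩
      have hy' : (MulAut.conj y : MulAut 𝔾) = θ := hy
      have hyH : y ∈ S.H := by
        rw [← hB6, hy']
        exact hθ
      refine ⟨⟨y, hyH⟩, ?_⟩
      apply Subtype.ext
      apply Subtype.ext
      exact hy'
  have h3 : Nat.card (Cfsg.Out 𝔾) = (Cfsg.Inn 𝔾).index := rfl
  have h4 : Nat.card {θ : 𝔾 ≃* 𝔾 // Nrm S θ} = Nat.card ↥(nrmSub S) := rfl
  rw [h3, h4, h1, ← h2]
  exact index_mul_card _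

end Cfsg.Agent.Lib.Helper72AutB7
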