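import Cfsg.Agent.Lib.LeadAutDefs
import Cfsg.Agent.Lib.LeadChevMisc
import Cfsg.Agent.Lib.Helper22ChevBruhat
import Cfsg.Agent.Lib.Helper23RG2

set_option autoImplicit false

/-! PROJECT 100 (CHEV-AUT), piece B8 (helper72). -/

namespace Cfsg.Agent.Lib.Helper72AutB8

open Subgroup Cfsg.Agent.Lib.Helper23Grp Cfsg.Agent.Lib.Helper23RG Cfsg.Agent.Lib.Helper23RG.RG
  Cfsg.Agent.Lib.Helper23Weyl Cfsg.Agent.Lib.LeadAutDefs

variable {𝔾 K R I : Type*} [Group 𝔾] [Field K] [Fintype R] [DecidableEq R] {S : RG 𝔾 K R I}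

/-- B8 (uses A15 as a hypothesis) -/
theorem acts_unique (h : AData S)
    (hgen : closure {g : 𝔾 | ∃ i t, g = S.x (S.simple i) t ∨ g = S.x (S.neg (S.simple i)) t} = ⊤)
    {θ θ' : 𝔾 ≃* 𝔾} {ρ : Equiv.Perm I} {f : I → K → K} (hA : Acts S θ ρ f) (hA' : Acts S θ' ρ f) : θ = θ' := by
  have key : (θ : 𝔾 →* 𝔾) = (θ' : 𝔾 →* 𝔾) := by
    apply MonoidHom.eq_of_eqOn_dense hgen
    rintro g ⟨i, t, rfl | rfl⟩
    · show θ _ = θ' _
      rw [hA.pos, hA'.pos]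
    · show θ _ = θ' _
      by_cases ht : t = 0
      · subst ht
        rw [x_zero h.ok, map_one, map_one]
      · have e : t = -(-t⁻¹)⁻¹ := by
          rw [inv_neg, inv_inv, neg_neg]
        have hne : -t⁻¹ ≠ 0 := neg_ne_zero.2 (inv_ne_zero ht)
        rw [e, hA.neg i _ hne, hA'.neg i _ hne]
  ext g
  exact DFunLike.congr_fun key g

end Cfsg.Agent.Lib.Helper72AutB8
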