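import Cfsg.Agent.Lib.LeadAutDefs
import Cfsg.Agent.Lib.LeadChevMisc
import Cfsg.Agent.Lib.Helper22ChevBruhat
import Cfsg.Agent.Lib.Helper23RG2

set_option autoImplicit false

/-! PROJECT 100 (CHEV-AUT), piece B9 (`card_nrm`) (helper72).
The statement needs `[Nonempty I]` (for `I` empty the field automorphism is not determined). -/

namespace Cfsg.Agent.Lib.Helper72AutB9

open Subgroup Cfsg.Agent.Lib.Helper23Grp Cfsg.Agent.Lib.Helper23RG Cfsg.Agent.Lib.Helper23RG.RG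
  Cfsg.Agent.Lib.Helper23Weyl Cfsg.Agent.Lib.LeadAutDefs

variable {𝔾 K R I : Type*} [Group 𝔾] [Field K] [Fintype R] [DecidableEq R] {S : RG 𝔾 K R I}

/-- B9 (uses B8, and B4∘B5 as hypotheses): counting the automorphisms stabilizing `U` and `V` -/
theorem card_nrm [Finite K] [Fintype I] [Nonempty I] (h : AData S) (Γ : Finset (Equiv.Perm I))
    (e : Equiv.Perm I → I → ℕ)
    (hinj : ∀ ρ ∈ Γ, ∀ i, Function.Injective (fun t : K => t ^ e ρ i))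
    (hcls : ∀ θ : 𝔾 ≃* 𝔾, Nrm S θ → ∃ ρ ∈ Γ, ∃ (c : I → Kˣ) (σ : K ≃+* K),
      Acts S θ ρ (fun i t => c i * (σ t) ^ e ρ i))
    (hex : ∀ ρ ∈ Γ, ∀ (c : I → Kˣ) (σ : K ≃+* K), ∃ θ : 𝔾 ≃* 𝔾,
      Acts S θ ρ (fun i t => c i * (σ t) ^ e ρ i))
    (huniq : ∀ (θ θ' : 𝔾 ≃* 𝔾) (ρ : Equiv.Perm I) (f : I → K → K), Acts S θ ρ f → Acts S θ' ρ f → θ = θ')
    (hnrm : ∀ (θ : 𝔾 ≃* 𝔾) (ρ : Equiv.Perm I) (f : I → K → K), Acts S θ ρ f → Nrm S θ) :
    Nat.card {θ : 𝔾 ≃* 𝔾 // Nrm S θ} =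
      Γ.card * (Nat.card K - 1) ^ Fintype.card I * Nat.card (K ≃+* K) := by
  classical
  let Ψ : (↥Γ × (I → Kˣ)) × (K ≃+* K) → {θ : 𝔾 ≃* 𝔾 // Nrm S θ} := fun x =>
    ⟨Classical.choose (hex x.1.1 x.1.1.2 x.1.2 x.2),
      hnrm _ _ _ (Classical.choose_spec (hex x.1.1 x.1.1.2 x.1.2 x.2))⟩
  have hΨ : ∀ x, Acts S (Ψ x).1 x.1.1 (fun i t => x.1.2 i * (x.2 t) ^ e x.1.1 i) :=
    fun x => Classical.choose_spec (hex x.1.1 x.1.1.2 x.1.2 x.2)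
  have hbij : Function.Bijective Ψ := by
    constructor
    · rintro ⟨⟨⟨ρ, hρ⟩, c⟩, σ⟩ ⟨⟨⟨ρ', hρ'⟩, c'⟩, σ'⟩ hx
      have A := hΨ ⟨⟨⟨ρ, hρ⟩, c⟩, σ⟩
      have A' := hΨ ⟨⟨⟨ρ', hρ'⟩, c'⟩, σ'⟩
      rw [← hx] at A'
      simp only at A A'
      have key : ∀ i t, S.x (S.simple (ρ i)) (c i * (σ t) ^ e ρ i)
          = S.x (S.simple (ρ' i)) (c' i * (σ' t) ^ e ρ' i) := by
        intro i t
        rw [← A.pos i t, ← A'.pos i t]
      have hρρ : ρ = ρ' := by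
        ext i
        apply h.inj
        refine x_root_inj h.ok h.hBV _ _ _ _ ?_ (key i 1)
        rw [map_one, one_pow, mul_one]
        exact (c i).ne_zero
      subst hρρ
      have key2 : ∀ i t, (c i : K) * (σ t) ^ e ρ i = c' i * (σ' t) ^ e ρ i :=
        fun i t => (x_eq_iff h.ok _ _ _).1 (key i t)
      have hc : c = c' := by
        funext i
        apply Units.ext
        have := key2 i 1
        simpa using this
      subst hc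
      have hσ : σ = σ' := by
        ext t
        obtain ⟨i⟩ := (inferInstance : Nonempty I)
        exact hinj ρ hρ i (mul_left_cancel₀ (c i).ne_zero (key2 i t))
      subst hσ
      rfl
    · rintro ⟨θ, hθ⟩
      obtain ⟨ρ, hρ, c, σ, hA⟩ := hcls θ hθ
      refine ⟨⟨⟨⟨ρ, hρ⟩, c⟩, σ⟩, ?_⟩
      apply Subtype.ext
      exact huniq _ _ _ _ (hΨ ⟨⟨⟨ρ, hρ⟩, c⟩, σ⟩) hA
  rw [← Nat.card_congr (Equiv.ofBijective Ψ hbij), Nat.card_prod, Nat.card_prod, Nat.card_fun,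
    Nat.card_eq_fintype_card (α := I), Nat.card_units, Nat.card_eq_fintype_card (α := ↥Γ),
    Fintype.card_coe]

end Cfsg.Agent.Lib.Helper72AutB9
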