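import Mathlib
import Cfsg.Agent.Lib.Helper31BG21Defs

/-! PROJECT 21, piece `agemo` (helper72). -/

set_option autoImplicit false

namespace Cfsg.Agent.Lib.Helper72BG21agemo

open Cfsg Subgroup
open Cfsg.Agent.Lib.Helper31BG21Defs

variable {G : Type*} [Group G] [Finite G]

theorem exists_agemo {p : ℕ} [Fact p.Prime] {S A : Subgroup G} (hS : IsPGroup p S)
    (hSab : IsMulCommutative S) (hS1 : S ≠ ⊥) (hΩ : ∀ x ∈ S, x ^ p = 1 ↔ x ∈ A) :
    ∃ V : Subgroup G, V ≤ A ∧ V ≠ ⊥ ∧ normalizer (S : Set G) ≤ normalizer (V : Set G) ∧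
      ∀ L : Subgroup G, L ≤ V → Nat.card L = p → Liftable S L := by
  classical
  have hpp : p.Prime := Fact.out
  have hcomm : ∀ a ∈ S, ∀ b ∈ S, a * b = b * a := by
    intro a ha b hb
    have := hSab.is_comm.comm (⟨a, ha⟩ : ↥S) ⟨b, hb⟩
    exact congrArg Subtype.val this
  have hord : ∀ s ∈ S, ∃ k, orderOf s = p ^ k := by
    intro s hs
    obtain ⟨k, hk⟩ := IsPGroup.iff_orderOf.1 hS ⟨s, hs⟩
    exact ⟨k, by rw [← hk, Subgroup.orderOf_mk]⟩
  -- an element of maximal order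
  obtain ⟨y₀, hy₀S, hmax⟩ : ∃ y₀ ∈ S, ∀ s ∈ S, orderOf s ≤ orderOf y₀ := by
    have hfin : (S : Set G).Finite := Set.toFinite _
    obtain ⟨y₀, hy₀, h⟩ := Set.exists_max_image (S : Set G) orderOf hfin ⟨1, S.one_mem⟩
    exact ⟨y₀, hy₀, h⟩
  obtain ⟨k₀, hk₀⟩ := hord y₀ hy₀S
  have hk₀pos : k₀ ≠ 0 := by
    rintro rfl
    apply hS1
    rw [eq_bot_iff_forall]
    intro s hs
    have h1 := hmax s hs
    rw [hk₀, pow_zero] at h1
    have h2 : orderOf s = 1 := le_antisymm h1 (orderOf_pos s)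
    exact orderOf_eq_one_iff.1 h2
  obtain ⟨e, rfl⟩ : ∃ e, k₀ = e + 1 := ⟨k₀ - 1, by omega⟩
  have hle : ∀ s ∈ S, ∀ k, orderOf s = p ^ k → k ≤ e + 1 := by
    intro s hs k hk
    have h1 := hmax s hs
    rw [hk, hk₀] at h1
    exact (Nat.pow_le_pow_iff_right hpp.one_lt).1 h1
  have hexp : ∀ s ∈ S, s ^ p ^ (e + 1) = 1 := by
    intro s hs
    obtain ⟨k, hk⟩ := hord s hs
    rw [← orderOf_dvd_iff_pow_eq_one, hk]
    exact pow_dvd_pow p (hle s hs k hk)
  let V : Subgroup G :=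
    { carrier := {g | ∃ s ∈ S, g = s ^ p ^ e}
      mul_mem' := by
        rintro _ _ ⟨s, hs, rfl⟩ ⟨t, ht, rfl⟩
        exact ⟨s * t, mul_mem hs ht, ((show Commute s t from hcomm s hs t ht).mul_pow _).symm⟩
      one_mem' := ⟨1, one_mem _, by simp⟩
      inv_mem' := by
        rintro _ ⟨s, hs, rfl⟩
        exact ⟨s⁻¹, inv_mem hs, by simp⟩ }
  have hVmem : ∀ g, g ∈ V ↔ ∃ s ∈ S, g = s ^ p ^ e := fun g => Iff.rfl
  refine ⟨V, ?_, ?_, ?_, ?_⟩
  · rintro _ ⟨s, hs, rfl⟩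
    rw [← hΩ _ (pow_mem hs _), ← pow_mul, ← pow_succ]
    exact hexp s hs
  · intro hV
    have h1 : y₀ ^ p ^ e ∈ V := ⟨y₀, hy₀S, rfl⟩
    rw [hV, mem_bot, ← orderOf_dvd_iff_pow_eq_one, hk₀] at h1
    have := (Nat.pow_dvd_pow_iff_le_right hpp.one_lt).1 h1
    omega
  · intro g hg
    rw [mem_normalizer_iff] at hg ⊢
    intro h
    constructor
    · rintro ⟨s, hs, rfl⟩
      exact ⟨g * s * g⁻¹, (hg s).1 hs, by rw [conj_pow]⟩
    · rintro ⟨s, hs, hh⟩
      refine ⟨g⁻¹ * s * g, ?_, ?_⟩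
      · rw [hg]
        have : g * (g⁻¹ * s * g) * g⁻¹ = s := by group
        rw [this]
        exact hs
      · have h1 : g⁻¹ * s * g = g⁻¹ * s * g⁻¹⁻¹ := by rw [inv_inv]
        rw [h1, conj_pow, ← hh]
        group
  · intro L hLV hL
    have hnt : Nontrivial ↥L := by
      rw [← Finite.one_lt_card_iff_nontrivial, hL]
      exact hpp.one_lt
    obtain ⟨a, ha⟩ := exists_ne (1 : ↥L)
    obtain ⟨s, hs, has⟩ := hLV a.2
    have hs1 : s ^ p ^ e ≠ 1 := by
      rw [← has]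
      intro h
      exact ha (Subtype.ext h)
    obtain ⟨k, hk⟩ := hord s hs
    have hk1 : k = e + 1 := by
      apply le_antisymm (hle s hs k hk)
      by_contra hlt
      apply hs1
      rw [← orderOf_dvd_iff_pow_eq_one, hk]
      exact pow_dvd_pow p (by omega)
    refine ⟨s, hs, ?_, ?_⟩
    · intro t ht
      rw [hk, hk1]
      exact hexp t ht
    · intro x hx
      have htop := zpowers_eq_top_of_prime_card hL ha
      have hx' : (⟨x, hx⟩ : ↥L) ∈ zpowers a := by rw [htop]; trivial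
      obtain ⟨m, hm⟩ := mem_zpowers_iff.1 hx'
      have hm' : (a : G) ^ m = x := by
        have := congrArg Subtype.val hm
        simpa using this
      rw [← hm', has]
      exact zpow_mem (pow_mem (mem_zpowers s) _) _

end Cfsg.Agent.Lib.Helper72BG21agemo
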