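import Mathlib

/-! PROJECT 21, piece `expo` (helper72). -/

set_option autoImplicit false

namespace Cfsg.Agent.Lib.Helper72BG21expo

open Subgroup

variable {G : Type*} [Group G] [Finite G]

theorem exponent_eq {E E₀ : Subgroup G} (hle : E₀ ≤ E)
    (h : ∀ r : ℕ, r.Prime → ∀ y ∈ E, (∃ k : ℕ, orderOf y = r ^ k) → ∃ z ∈ E₀, orderOf y ∣ orderOf z) :
    Monoid.exponent E₀ = Monoid.exponent E := by
  apply Nat.dvd_antisymm
  · apply Monoid.exponent_dvd_of_forall_pow_eq_one
    intro g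
    have h1 := Monoid.pow_exponent_eq_one (⟨g.1, hle g.2⟩ : ↥E)
    apply Subtype.ext
    have h2 := congrArg Subtype.val h1
    simpa using h2
  · apply Monoid.exponent_dvd_of_forall_pow_eq_one
    intro e
    rw [← orderOf_dvd_iff_pow_eq_one, Nat.dvd_iff_prime_pow_dvd_dvd]
    intro r k hr hrk
    have ho : orderOf (e : G) = orderOf e := Subgroup.orderOf_coe e
    have hy : orderOf ((e : G) ^ (orderOf (e : G) / r ^ k)) = r ^ k :=
      orderOf_pow_orderOf_div (orderOf_pos _).ne' (by rw [ho]; exact hrk)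
    obtain ⟨z, hz, hd⟩ := h r hr _ (E.pow_mem e.2 _) ⟨k, hy⟩
    rw [hy] at hd
    refine hd.trans ?_
    have := Monoid.order_dvd_exponent (⟨z, hz⟩ : ↥E₀)
    rwa [Subgroup.orderOf_mk] at this

end Cfsg.Agent.Lib.Helper72BG21expo
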