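import Mathlib

/-! PROJECT 21, piece `isup` (helper72). -/

set_option autoImplicit false

namespace Cfsg.Agent.Lib.Helper72BG21isup

open Subgroup

variable {G : Type*} [Group G] [Finite G]

omit [Finite G] in
theorem comm_iSup {ι : Type*} (S : ι → Subgroup G) (hcomm : ∀ i j, S i ≤ centralizer (S j : Set G)) :
    ∀ a ∈ ⨆ i, S i, ∀ b ∈ ⨆ i, S i, a * b = b * a := by
  have h1 : (⨆ i, S i) ≤ centralizer ((⨆ j, S j : Subgroup G) : Set G) := by
    apply iSup_le
    intro i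
    rw [le_centralizer_iff]
    apply iSup_le
    intro j
    exact hcomm j i
  intro a ha b hb
  exact ((mem_centralizer_iff.1 (h1 ha)) b hb).symm

omit [Finite G] in
theorem exists_orderOf {p : ℕ} (hp : p.Prime) {S : Subgroup G} (hS : IsPGroup p S) {x : G}
    (hx : x ∈ S) : ∃ k, orderOf x = p ^ k := by
  have : Fact p.Prime := ⟨hp⟩
  obtain ⟨k, hk⟩ := IsPGroup.iff_orderOf.1 hS ⟨x, hx⟩
  exact ⟨k, by rw [← hk, Subgroup.orderOf_mk]⟩

theorem prime_of_mem_iSup {ι : Type*} (S : ι → Subgroup G) (pr : ι → ℕ) (hpr : ∀ i, (pr i).Prime)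
    (hS : ∀ i, IsPGroup (pr i) (S i)) (hcomm : ∀ i j, S i ≤ centralizer (S j : Set G)) {x : G}
    (hx : x ∈ ⨆ i, S i) {r : ℕ} (hr : r.Prime) (hd : r ∣ orderOf x) : ∃ i, r = pr i := by
  have hab := comm_iSup S hcomm
  have key : x ∈ (⨆ i, S i) ∧ ∀ r : ℕ, r.Prime → r ∣ orderOf x → ∃ i, r = pr i := by
    refine iSup_induction S (C := fun x => x ∈ (⨆ i, S i) ∧
      ∀ r : ℕ, r.Prime → r ∣ orderOf x → ∃ i, r = pr i) hx ?_ ?_ ?_
    · intro i x hx
      refine ⟨mem_iSup_of_mem i hx, fun r hr hd => ⟨i, ?_⟩⟩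
      obtain ⟨k, hk⟩ := exists_orderOf (hpr i) (hS i) hx
      rw [hk] at hd
      exact (Nat.prime_dvd_prime_iff_eq hr (hpr i)).1 (hr.dvd_of_dvd_pow hd)
    · refine ⟨one_mem _, fun r hr hd => ?_⟩
      rw [orderOf_one] at hd
      exact absurd (Nat.dvd_one.1 hd) hr.one_lt.ne'
    · rintro x y ⟨hx, hx'⟩ ⟨hy, hy'⟩
      refine ⟨mul_mem hx hy, fun r hr hd => ?_⟩
      have h1 : orderOf (x * y) ∣ Nat.lcm (orderOf x) (orderOf y) :=
        Commute.orderOf_mul_dvd_lcm (hab x hx y hy)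
      have h2 := (hd.trans h1).trans (Nat.lcm_dvd_mul _ _)
      rcases (Nat.Prime.dvd_mul hr).1 h2 with h3 | h3
      · exact hx' r hr h3
      · exact hy' r hr h3
  exact key.2 r hr hd

theorem mem_of_mem_iSup {ι : Type*} (P S : ι → Subgroup G) (pr : ι → ℕ) (hpr : ∀ i, (pr i).Prime)
    (hinj : Function.Injective pr) (hS : ∀ i, IsPGroup (pr i) (S i)) (hPS : ∀ i, P i ≤ S i)
    (hcomm : ∀ i j, S i ≤ centralizer (S j : Set G)) {x : G} (hx : x ∈ ⨆ i, P i) (i : ι)
    (hxi : x ^ pr i = 1) : x ∈ P i := by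
  classical
  have hab := comm_iSup S hcomm
  have hPT : ∀ j, P j ≤ ⨆ i, S i := fun j => (hPS j).trans (le_iSup S j)
  have key : ∃ u ∈ P i, ∃ v ∈ ⨆ j, S j, (orderOf v).Coprime (pr i) ∧ x = u * v := by
    refine iSup_induction P (C := fun x => ∃ u ∈ P i, ∃ v ∈ ⨆ j, S j,
      (orderOf v).Coprime (pr i) ∧ x = u * v) hx ?_ ?_ ?_
    · intro j x hx
      by_cases hj : j = i
      · subst hj
        exact ⟨x, hx, 1, one_mem _, by simp, by simp⟩
      · refine ⟨1, one_mem _, x, hPT j hx, ?_, by simp⟩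
        obtain ⟨k, hk⟩ := exists_orderOf (hpr j) (hS j) (hPS j hx)
        rw [hk]
        apply Nat.Coprime.pow_left
        exact (Nat.coprime_primes (hpr j) (hpr i)).2 (fun e => hj (hinj e))
    · exact ⟨1, one_mem _, 1, one_mem _, by simp, by simp⟩
    · rintro x y ⟨u, hu, v, hv, hc, rfl⟩ ⟨u', hu', v', hv', hc', rfl⟩
      refine ⟨u * u', mul_mem hu hu', v * v', mul_mem hv hv', ?_, ?_⟩
      · have h1 : orderOf (v * v') ∣ orderOf v * orderOf v' :=
          (Commute.orderOf_mul_dvd_lcm (hab v hv v' hv')).trans (Nat.lcm_dvd_mul _ _)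
        exact Nat.Coprime.coprime_dvd_left h1 (Nat.Coprime.mul_left hc hc')
      · have e := hab v hv u' (hPT i hu')
        calc u * v * (u' * v') = u * (v * u') * v' := by group
          _ = u * (u' * v) * v' := by rw [e]
          _ = u * u' * (v * v') := by group
  obtain ⟨u, hu, v, hv, hc, rfl⟩ := key
  have hcom : Commute u v := hab u (hPT i hu) v hv
  rw [hcom.mul_pow] at hxi
  -- `w = v ^ p` is a `p`-element of order prime to `p`
  have hw : v ^ pr i = (u ^ pr i)⁻¹ := (inv_eq_of_mul_eq_one_right hxi).symm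
  have hwS : v ^ pr i ∈ S i := by
    rw [hw]
    exact inv_mem (pow_mem (hPS i hu) _)
  obtain ⟨k, hk⟩ := exists_orderOf (hpr i) (hS i) hwS
  have h1 : (v ^ pr i) ^ (pr i ^ k) = 1 := by rw [← hk]; exact pow_orderOf_eq_one _
  have h2 : (v ^ pr i) ^ orderOf v = 1 := by
    rw [← pow_mul, mul_comm, pow_mul, pow_orderOf_eq_one, one_pow]
  have h3 : v ^ pr i = 1 := by
    have := (pow_gcd_eq_one (a := v ^ pr i) (m := orderOf v) (n := pr i ^ k)).2 ⟨h2, h1⟩
    rwa [Nat.Coprime.pow_right k hc, pow_one] at this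
  have h4 : v = 1 := by
    have := (pow_gcd_eq_one (a := v) (m := orderOf v) (n := pr i)).2 ⟨pow_orderOf_eq_one v, h3⟩
    rwa [hc, pow_one] at this
  rw [h4, mul_one]
  exact hu

end Cfsg.Agent.Lib.Helper72BG21isup
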