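import Mathlib
import Cfsg.Agent.Lib.Helper23RG

set_option autoImplicit false

/-! Abstract root group data: generation by the fundamental root elements, and homomorphisms
permuting the fundamental root elements (helper72; used for S2160, S2161). -/

namespace Cfsg.Agent.Lib.Helper72ChevGen

open Subgroup Cfsg.Agent.Lib.Helper23Grp Cfsg.Agent.Lib.Helper23RG Cfsg.Agent.Lib.Helper23RG.RG

variable {𝔾 K R I : Type*} [Group 𝔾] [Field K] {S : RG 𝔾 K R I}

/-- the fundamental root elements and their opposites -/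
def simpleSet (S : RG 𝔾 K R I) : Set 𝔾 :=
  {g : 𝔾 | ∃ i t, g = S.x (S.simple i) t ∨ g = S.x (S.neg (S.simple i)) t}

theorem nn_mem_closure (i : I) : S.nn i ∈ closure (simpleSet S) := by
  unfold RG.nn RG.nE
  exact mul_mem (mul_mem (subset_closure ⟨i, _, Or.inl rfl⟩) (subset_closure ⟨i, _, Or.inr rfl⟩))
    (subset_closure ⟨i, _, Or.inl rfl⟩)

theorem x_mem_closure (ok : S.Ok) (r : R) : ∀ t, S.x r t ∈ closure (simpleSet S) := by
  refine ok.reach (fun r => ∀ t, S.x r t ∈ closure (simpleSet S)) ?_ ?_ r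
  · intro i t
    exact subset_closure ⟨i, t, Or.inl rfl⟩
  · intro i r hr t
    have h1 := ok.n_conj i r (S.η i r * t)
    rw [← mul_assoc, η_mul_self ok, one_mul] at h1
    rw [← h1]
    exact mul_mem (mul_mem (nn_mem_closure i) (hr _)) (inv_mem (nn_mem_closure i))

theorem G_le_closure (ok : S.Ok) : S.G ≤ closure (simpleSet S) := by
  unfold RG.G RG.XS
  rw [closure_le]
  rintro g ⟨r, t, -, rfl⟩
  exact x_mem_closure ok r t

/-- two endomorphisms of a subgroup `L = S.G` which agree on the fundamental root elements and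
their opposites are equal -/
theorem hom_eq_of_simple (ok : S.Ok) (L : Subgroup 𝔾) (hL : L = S.G) {M : Type*} [Monoid M]
    (a b : ↥L →* M)
    (h : ∀ y : ↥L, (y : 𝔾) ∈ simpleSet S → a y = b y) (y : ↥L) : a y = b y := by
  have hx : ∀ r t, S.x r t ∈ L := fun r t => by rw [hL]; exact x_mem_G r t
  have hle : closure (simpleSet S) ≤ L := by
    rw [closure_le]
    rintro g ⟨i, t, rfl | rfl⟩
    · exact hx _ _
    · exact hx _ _
  have key : ∀ z (_ : z ∈ closure (simpleSet S)), ∀ hz : z ∈ L, a ⟨z, hz⟩ = b ⟨z, hz⟩ := by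
    intro z hz
    induction hz using closure_induction with
    | mem z hz => exact fun hz' => h ⟨z, hz'⟩ hz
    | one =>
      intro hz'
      have : (⟨1, hz'⟩ : ↥L) = 1 := rfl
      rw [this, map_one, map_one]
    | mul u v hu hv ihu ihv =>
      intro hz'
      have : (⟨u * v, hz'⟩ : ↥L) = ⟨u, hle hu⟩ * ⟨v, hle hv⟩ := rfl
      rw [this, map_mul, map_mul, ihu, ihv]
    | inv u hu ihu =>
      intro hz'
      have e : (⟨u⁻¹, hz'⟩ : ↥L) * ⟨u, hle hu⟩ = 1 := Subtype.ext (inv_mul_cancel u)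
      have e1 : a ⟨u⁻¹, hz'⟩ * a ⟨u, hle hu⟩ = 1 := by rw [← map_mul, e, map_one]
      have e2 : b ⟨u, hle hu⟩ * b ⟨u⁻¹, hz'⟩ = 1 := by
        rw [← map_mul]
        have : (⟨u, hle hu⟩ : ↥L) * ⟨u⁻¹, hz'⟩ = 1 := Subtype.ext (mul_inv_cancel u)
        rw [this, map_one]
      rw [ihu] at e1
      exact left_inv_eq_right_inv e1 e2
  exact key y.1 (G_le_closure ok (hL ▸ y.2)) y.2

/-- a homomorphism of `L` permuting the fundamental root elements (and their opposites) according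
to `π` permutes all the root elements, up to signs, according to any `P` compatible with `π` -/
theorem exists_sign (ok : S.Ok) (L : Subgroup 𝔾) (hx : ∀ r t, S.x r t ∈ L) (φ : ↥L →* ↥L)
    (π : I → I) (P : R → R)
    (hpos : ∀ i t, (φ ⟨S.x (S.simple i) t, hx _ _⟩ : 𝔾) = S.x (S.simple (π i)) t)
    (hneg : ∀ i t, (φ ⟨S.x (S.neg (S.simple i)) t, hx _ _⟩ : 𝔾) = S.x (S.neg (S.simple (π i))) t)
    (T1 : ∀ i, P (S.simple i) = S.simple (π i))
    (T2 : ∀ i r, P (S.refl i r) = S.refl (π i) (P r)) (r : R) :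
    ∃ ε : K, (ε = 1 ∨ ε = -1) ∧ ∀ t, (φ ⟨S.x r t, hx _ _⟩ : 𝔾) = S.x (P r) (ε * t) := by
  have hnnL : ∀ i, S.nn i ∈ L := fun i => by
    unfold RG.nn RG.nE
    exact mul_mem (mul_mem (hx _ _) (hx _ _)) (hx _ _)
  have hnn : ∀ i, (φ ⟨S.nn i, hnnL i⟩ : 𝔾) = S.nn (π i) := by
    intro i
    have e : (⟨S.nn i, hnnL i⟩ : ↥L) = ⟨S.x (S.simple i) 1, hx _ _⟩ *
        ⟨S.x (S.neg (S.simple i)) (-1⁻¹), hx _ _⟩ * ⟨S.x (S.simple i) 1, hx _ _⟩ := rfl
    rw [e, map_mul, map_mul, Subgroup.coe_mul, Subgroup.coe_mul, hpos, hneg]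
    rfl
  refine ok.reach (fun r => ∃ ε : K, (ε = 1 ∨ ε = -1) ∧
    ∀ t, (φ ⟨S.x r t, hx _ _⟩ : 𝔾) = S.x (P r) (ε * t)) ?_ ?_ r
  · intro i
    refine ⟨1, Or.inl rfl, fun t => ?_⟩
    rw [hpos, T1, one_mul]
  · rintro i r ⟨ε, hε, h⟩
    refine ⟨S.η (π i) (P r) * ε * S.η i r, ?_, fun t => ?_⟩
    · rcases hε with rfl | rfl <;> rcases ok.η_sq (π i) (P r) with h1 | h1 <;>
        rcases ok.η_sq i r with h2 | h2 <;> rw [h1, h2] <;> simp
    · have h1 := ok.n_conj i r (S.η i r * t)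
      rw [← mul_assoc, η_mul_self ok, one_mul] at h1
      have e : (⟨S.x (S.refl i r) t, hx _ _⟩ : ↥L) =
          ⟨S.nn i, hnnL i⟩ * ⟨S.x r (S.η i r * t), hx _ _⟩ * ⟨S.nn i, hnnL i⟩⁻¹ :=
        Subtype.ext h1.symm
      rw [e, map_mul, map_mul, map_inv, Subgroup.coe_mul, Subgroup.coe_mul, Subgroup.coe_inv, hnn, h,
        ok.n_conj, T2]
      congr 1
      ring

end Cfsg.Agent.Lib.Helper72ChevGen
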