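import Cfsg.Prelude

set_option autoImplicit false

/-! Table facts on `permRoot` for the diagram symmetries of `D₄` and `E₆` (helper72; for S2161). -/

namespace Cfsg.Agent.Lib.Helper72ChevPermTab

open Cfsg Cfsg.Lie Cfsg.Lie.ChevalleyDatum

theorem tabD4 : ∀ π : Equiv.Perm (Fin chevD4.rank),
    (∀ i j : Fin chevD4.rank, i ≠ j → chevD4.bonds (π i) (π j) = chevD4.bonds i j) →
   (∀ i : Fin chevD4.rank, chevD4.permRoot π (chevD4.simple i) = chevD4.simple (π i)) ∧
   (∀ r : Fin chevD4.nroots, chevD4.permRoot π r < chevD4.nroots) ∧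
   (∀ (i : Fin chevD4.rank) (r : Fin chevD4.nroots),
      chevD4.permRoot π (chevD4.reflectRoot i r) = chevD4.reflectRoot (π i) (chevD4.permRoot π r)) := by
  decide +kernel

theorem tabE6 : ∀ π : Equiv.Perm (Fin chevE6.rank),
    (∀ i j : Fin chevE6.rank, i ≠ j → chevE6.bonds (π i) (π j) = chevE6.bonds i j) →
   (∀ i : Fin chevE6.rank, chevE6.permRoot π (chevE6.simple i) = chevE6.simple (π i)) ∧
   (∀ r : Fin chevE6.nroots, chevE6.permRoot π r < chevE6.nroots) ∧
   (∀ (i : Fin chevE6.rank) (r : Fin chevE6.nroots),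
      chevE6.permRoot π (chevE6.reflectRoot i r) = chevE6.reflectRoot (π i) (chevE6.permRoot π r)) := by
  decide +kernel

end Cfsg.Agent.Lib.Helper72ChevPermTab
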