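import Cfsg.Agent.Lib.Helper81KulDefs

set_option autoImplicit false

namespace Cfsg.Agent.Lib.Helper72KulCOMM

open Cfsg.Agent.Lib.Helper81KulDefs

variable {k : Type*} [Field k] {R : Type*} [Ring R] [Algebra k R] [Module.Finite k R]

theorem comm_le {J : Submodule k R} (hJ : NilAlg J) {x y : R} (hx : x ∈ J) (hy : y ∈ J)
    (h : J ≤ Submodule.span k {x, y} ⊔ J ^ 2) :
    Kc J ≤ Submodule.span k {x * y - y * x} ⊔ J ^ 3 := by
  have hsq : J ^ 2 ≤ J := by
    rw [pow_two]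
    exact Submodule.mul_le.2 hJ.mul
  have hl : ∀ s ∈ J, ∀ t ∈ J ^ 2, s * t ∈ J ^ 3 := by
    intro s hs t ht
    rw [pow_succ' J 2]
    exact Submodule.mul_mem_mul hs ht
  have hr : ∀ s ∈ J, ∀ t ∈ J ^ 2, t * s ∈ J ^ 3 := by
    intro s hs t ht
    rw [pow_succ J 2]
    exact Submodule.mul_mem_mul ht hs
  unfold Kc
  rw [Submodule.span_le]
  rintro _ ⟨a, ha, b, hb, rfl⟩
  obtain ⟨u, hu, a', ha', rfl⟩ := Submodule.mem_sup.1 (h ha)
  obtain ⟨v, hv, b', hb', rfl⟩ := Submodule.mem_sup.1 (h hb)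
  have huJ : u ∈ J := (Submodule.span_le.2 (by
    rintro z (rfl | rfl)
    · exact hx
    · exact hy)) hu
  have hvJ : v ∈ J := (Submodule.span_le.2 (by
    rintro z (rfl | rfl)
    · exact hx
    · exact hy)) hv
  obtain ⟨α, β, rfl⟩ := Submodule.mem_span_pair.1 hu
  obtain ⟨γ, δ, rfl⟩ := Submodule.mem_span_pair.1 hv
  have e1 : (α • x + β • y + a') * (γ • x + δ • y + b') - (γ • x + δ • y + b') * (α • x + β • y + a')
      = (α * δ - β * γ) • (x * y - y * x)
        + (((α • x + β • y) * b' - b' * (α • x + β • y))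
          + (a' * (γ • x + δ • y) - (γ • x + δ • y) * a') + (a' * b' - b' * a')) := by
    simp only [add_mul, mul_add, smul_mul_assoc, mul_smul_comm, smul_smul]
    module
  rw [SetLike.mem_coe, e1]
  refine Submodule.add_mem_sup (Submodule.smul_mem _ _ (Submodule.mem_span_singleton_self _)) ?_
  refine Submodule.add_mem _ (Submodule.add_mem _ ?_ ?_) ?_
  · exact Submodule.sub_mem _ (hl _ huJ _ hb') (hr _ huJ _ hb')
  · exact Submodule.sub_mem _ (hr _ hvJ _ ha') (hl _ hvJ _ ha')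
  · exact Submodule.sub_mem _ (hl _ (hsq ha') _ hb') (hr _ (hsq ha') _ hb')

end Cfsg.Agent.Lib.Helper72KulCOMM
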