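import Cfsg.Agent.Lib.Helper81KulDefs

set_option autoImplicit false

namespace Cfsg.Agent.Lib.Helper72KulGEN

open Cfsg.Agent.Lib.Helper81KulDefs

variable {k : Type*} [Field k] {R : Type*} [Ring R] [Algebra k R] [Module.Finite k R]

theorem exists_gen1 {V W : Submodule k R} (hWV : W ≤ V)
    (h : Module.finrank k V ≤ Module.finrank k W + 1) :
    ∃ x ∈ V, V ≤ Submodule.span k {x} ⊔ W := by
  by_cases hVW : V ≤ W
  · exact ⟨0, V.zero_mem, hVW.trans le_sup_right⟩
  · obtain ⟨x, hxV, hxW⟩ := SetLike.not_le_iff_exists.1 hVW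
    refine ⟨x, hxV, ?_⟩
    have hle : Submodule.span k {x} ⊔ W ≤ V :=
      sup_le ((Submodule.span_singleton_le_iff_mem x V).2 hxV) hWV
    have hlt : W < Submodule.span k {x} ⊔ W := by
      refine lt_of_le_of_ne le_sup_right ?_
      intro heq
      apply hxW
      rw [heq]
      exact Submodule.mem_sup_left (Submodule.mem_span_singleton_self x)
    have h1 := Submodule.finrank_lt_finrank_of_lt hlt
    exact (Submodule.eq_of_le_of_finrank_le hle (by omega)).ge

theorem exists_gen2 {V W : Submodule k R} (hWV : W ≤ V)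
    (h : Module.finrank k V ≤ Module.finrank k W + 2) :
    ∃ x ∈ V, ∃ y ∈ V, V ≤ Submodule.span k {x, y} ⊔ W := by
  by_cases hVW : V ≤ W
  · exact ⟨0, V.zero_mem, 0, V.zero_mem, hVW.trans le_sup_right⟩
  · obtain ⟨x, hxV, hxW⟩ := SetLike.not_le_iff_exists.1 hVW
    have hle : Submodule.span k {x} ⊔ W ≤ V :=
      sup_le ((Submodule.span_singleton_le_iff_mem x V).2 hxV) hWV
    have hlt : W < Submodule.span k {x} ⊔ W := by
      refine lt_of_le_of_ne le_sup_right ?_
      intro heq
      apply hxW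
      rw [heq]
      exact Submodule.mem_sup_left (Submodule.mem_span_singleton_self x)
    have h1 := Submodule.finrank_lt_finrank_of_lt hlt
    obtain ⟨y, hy, hyV⟩ := exists_gen1 hle (by omega)
    refine ⟨x, hxV, y, hy, hyV.trans ?_⟩
    rw [Submodule.span_insert, ← sup_assoc, sup_comm (Submodule.span k {y})]

end Cfsg.Agent.Lib.Helper72KulGEN
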