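import Mathlib
import Cfsg.Agent.Lib.Helper44SLDefs

set_option autoImplicit false

/-! PROJECT 44, piece `tweq`. -/

namespace Cfsg.Agent.Lib.Helper72SLtweq

open Matrix Cfsg Cfsg.Agent.Lib.Helper44Wt Cfsg.Agent.Lib.Helper44SLDefs

variable {F : Type*} [Field F]

theorem dgl_one_coe (m : ℕ) :
    ((dgl m (1 : Fˣ)) : Matrix (Fin (m + 1)) (Fin (m + 1)) F) = 1 := by
  rw [map_one]; rfl

theorem jHom_of_det_one (m : ℕ) (g : GL (Fin 2) F) (hg : Matrix.GeneralLinearGroup.det g = 1) :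
    jHom m g = pel (g : Matrix (Fin 2) (Fin 2) F) 0 1 (by
      rw [Matrix.det_one, mul_one, ← Matrix.GeneralLinearGroup.val_det_apply, hg]; rfl) := by
  rw [jHom_apply]
  unfold lev
  apply pel_congr _ rfl rfl
  rw [hg, inv_one, dgl_one_coe]

theorem det_w2 : Matrix.GeneralLinearGroup.det (w2 : GL (Fin 2) F) = 1 := by
  apply Units.ext
  rw [Matrix.GeneralLinearGroup.val_det_apply, w2_coe]
  simp [Matrix.det_fin_two_of]

theorem det_xGL (c : F) : Matrix.GeneralLinearGroup.det (xGL (Multiplicative.ofAdd c)) = 1 := by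
  apply Units.ext
  rw [Matrix.GeneralLinearGroup.val_det_apply, xGL_coe, det_tt]
  rfl

/-- the inverse of the Weyl element -/
noncomputable def w2i : GL (Fin 2) F :=
  Matrix.GeneralLinearGroup.mkOfDetNeZero !![0, 1; -1, 0] (by simp [Matrix.det_fin_two_of])

theorem w2i_coe : ((w2i : GL (Fin 2) F) : Matrix (Fin 2) (Fin 2) F) = !![0, 1; -1, 0] := rfl

theorem w2_inv : (w2 : GL (Fin 2) F)⁻¹ = w2i := by
  apply inv_eq_of_mul_eq_one_right
  apply Units.ext
  rw [Units.val_mul, w2_coe, w2i_coe]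
  ext i j
  fin_cases i <;> fin_cases j <;> simp [Matrix.mul_apply, Fin.sum_univ_two]

theorem key (m : ℕ) (c c' : F) (y y' : Fin (m + 1) → F) :
    jHom m w2 * upHom (Multiplicative.ofAdd (c', y')) * (jHom m w2)⁻¹ *
        upHom (Multiplicative.ofAdd (c, y)) =
      ulHom (Multiplicative.ofAdd (y, y' - c' • y)) *
        jHom m (w2 * xGL (Multiplicative.ofAdd c') * w2⁻¹ * xGL (Multiplicative.ofAdd c)) := by
  have hd : Matrix.GeneralLinearGroup.det
      (w2 * xGL (Multiplicative.ofAdd c') * w2⁻¹ * xGL (Multiplicative.ofAdd c)) = 1 := by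
    rw [map_mul, map_mul, map_mul, map_inv, det_w2, det_xGL, det_xGL]
    simp
  have hdi : Matrix.GeneralLinearGroup.det (w2⁻¹ : GL (Fin 2) F) = 1 := by
    rw [map_inv, det_w2, inv_one]
  rw [← map_inv, jHom_of_det_one m _ hd, jHom_of_det_one m _ det_w2, jHom_of_det_one m _ hdi,
    upHom_apply, upHom_apply, ulHom_apply]
  unfold uK
  rw [pel_mul, pel_mul, pel_mul, pel_mul]
  apply pel_congr
  · rw [tt_zero, Matrix.one_mul]
    rfl
  · rw [w2_inv, w2i_coe, w2_coe]
    ext i j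
    fin_cases i <;>
      simp [rows, tt, Matrix.mul_apply, Fin.sum_univ_two, sub_eq_add_neg, add_comm]
  · simp

variable [Fintype F]

theorem tw_eq (m : ℕ) (χ : GG (m + 1) F → ℂ) (hχ : IsClassFunction (GG (m + 1) F) χ) :
    tw upHom (jHom m w2) χ = tw xGL w2 (hc ulHom 0 (jHom m) χ) := by
  unfold tw hc
  have h1 : ∀ c c' : F,
      ∑ y : Fin (m + 1) → F, ∑ y' : Fin (m + 1) → F,
        χ (jHom m w2 * upHom (Multiplicative.ofAdd (c', y')) * (jHom m w2)⁻¹ *
          upHom (Multiplicative.ofAdd (c, y))) =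
      ∑ a : (Fin (m + 1) → F) × (Fin (m + 1) → F),
        χ (ulHom (Multiplicative.ofAdd a) *
          jHom m (w2 * xGL (Multiplicative.ofAdd c') * w2⁻¹ * xGL (Multiplicative.ofAdd c))) *
          (starRingEnd ℂ) ((0 : AddChar ((Fin (m + 1) → F) × (Fin (m + 1) → F)) ℂ) a) := by
    intro c c'
    rw [Fintype.sum_prod_type]
    apply Finset.sum_congr rfl
    intro y _
    apply Fintype.sum_equiv (Equiv.subRight (c' • y))
    intro y'
    rw [key]
    simp
  rw [Fintype.sum_prod_type]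
  simp only [Fintype.sum_prod_type (f := fun a' : F × (Fin (m + 1) → F) => χ _)]
  have h2 : ∀ c : F, ∑ y : Fin (m + 1) → F, ∑ c' : F, ∑ y' : Fin (m + 1) → F,
        χ (jHom m w2 * upHom (Multiplicative.ofAdd (c', y')) * (jHom m w2)⁻¹ *
          upHom (Multiplicative.ofAdd (c, y))) =
      ∑ c' : F, ∑ a : (Fin (m + 1) → F) × (Fin (m + 1) → F),
        χ (ulHom (Multiplicative.ofAdd a) *
          jHom m (w2 * xGL (Multiplicative.ofAdd c') * w2⁻¹ * xGL (Multiplicative.ofAdd c))) *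
          (starRingEnd ℂ) ((0 : AddChar ((Fin (m + 1) → F) × (Fin (m + 1) → F)) ℂ) a) := by
    intro c
    rw [Finset.sum_comm]
    exact Finset.sum_congr rfl (fun c' _ => h1 c c')
  simp only [h2]
  simp only [← Finset.mul_sum]
  rw [Fintype.card_prod, Fintype.card_prod]
  push_cast
  ring

end Cfsg.Agent.Lib.Helper72SLtweq
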