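import Mathlib
import Cfsg.Prelude.Def_PLocal
import Cfsg.Agent.Lib.Helper74Regular
import Cfsg.Agent.S0644

set_option autoImplicit false

/-! Regular `p`-group theory at a single level `k` (only the `p ^ k`-th power identity is assumed).
Copy of the arguments of `Helper74Regular`, `S4224`, `S0641`, `S0644` at one level, then
the induction showing that level one implies all levels. -/

namespace Cfsg.Agent.Lib.Helper73RegK

open Subgroup
open Cfsg.Agent.Lib.Helper74Regular (powerClosure_map commutator_closure_pair_le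
  eq_one_of_mem_powerClosure exists_normal_coatom card_lt_of_ne_top comm_of_zpowers_eq_top)
open Cfsg.Agent.S0644 (exists_coatom powerClosure_normal)
open scoped commutatorElement

/-- the regular identity at level `k` -/
def RegK (p k : ℕ) (G : Type*) [Group G] : Prop :=
  IsPGroup p G ∧ ∀ a b : G,
    ∃ c ∈ Cfsg.powerClosure p k ⁅closure ({a, b} : Set G), closure ({a, b} : Set G)⁆,
      (a * b) ^ (p ^ k) = a ^ (p ^ k) * b ^ (p ^ k) * c

theorem regular_subgroup {G : Type*} [Group G] {p k : ℕ} (hG : RegK p k G)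
    (L : Subgroup G) : RegK p k L := by
  refine ⟨hG.1.to_subgroup L, ?_⟩
  intro a b
  obtain ⟨c, hc, heq⟩ := hG.2 a b
  have h1 : closure ({(a : G), (b : G)} : Set G) = (closure ({a, b} : Set L)).map L.subtype := by
    rw [MonoidHom.map_closure, Set.image_pair]
    rfl
  rw [h1, ← Subgroup.map_commutator, powerClosure_map] at hc
  obtain ⟨c', hc', rfl⟩ := hc
  refine ⟨c', hc', ?_⟩
  apply Subtype.ext
  simpa using heq

theorem omega_mul.{u} {p : ℕ} [Fact p.Prime] (k : ℕ) : ∀ (n : ℕ) (G : Type u) [Group G] [Finite G],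
    Nat.card G = n → RegK p k G →
    ∀ x y : G, x ^ p ^ k = 1 → y ^ p ^ k = 1 → (x * y) ^ p ^ k = 1 := by
  intro n
  induction n using Nat.strong_induction_on with
  | _ n ih =>
    intro G _ _ hn hG x y hx hy
    by_cases hK : closure ({x, y} : Set G) = ⊤
    swap
    · have hxK : x ∈ closure ({x, y} : Set G) := subset_closure (by simp)
      have hyK : y ∈ closure ({x, y} : Set G) := subset_closure (by simp)
      have := ih _ (hn ▸ card_lt_of_ne_top hK) (closure ({x, y} : Set G)) rfl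
        (regular_subgroup hG _) ⟨x, hxK⟩ ⟨y, hyK⟩ (Subtype.ext hx) (Subtype.ext hy)
      exact congrArg Subtype.val this
    by_cases hcyc : zpowers x = ⊤
    · rw [(comm_of_zpowers_eq_top hcyc x y).mul_pow, hx, hy, one_mul]
    obtain ⟨M, hMn, hMtop, hxM⟩ := exists_normal_coatom hG.1 x hcyc
    have hnt : Nontrivial G := by
      by_contra h
      have : Subsingleton G := not_nontrivial_iff_subsingleton.mp h
      exact hcyc (Subsingleton.elim _ _)
    have hnil := hG.1.isNilpotent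
    have hcomm_lt : commutator G ≠ ⊤ := (Group.IsSolvable.commutator_lt_top_of_nontrivial G).ne
    -- the omega subgroup of the commutator subgroup
    have hIH := ih _ (hn ▸ card_lt_of_ne_top hcomm_lt) (commutator G) rfl
      (regular_subgroup hG _)
    let W : Subgroup G :=
      { carrier := {z | z ∈ commutator G ∧ z ^ p ^ k = 1}
        mul_mem' := by
          rintro a b ⟨ha, ha'⟩ ⟨hb, hb'⟩
          refine ⟨mul_mem ha hb, ?_⟩
          exact congrArg Subtype.val (hIH ⟨a, ha⟩ ⟨b, hb⟩ (Subtype.ext ha') (Subtype.ext hb'))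
        one_mem' := ⟨one_mem _, one_pow _⟩
        inv_mem' := by
          rintro a ⟨ha, ha'⟩
          exact ⟨inv_mem ha, by rw [inv_pow, ha', inv_one]⟩ }
    have hWn : W.Normal := by
      constructor
      rintro a ⟨ha, ha'⟩ g
      refine ⟨(inferInstance : (commutator G).Normal).conj_mem a ha g, ?_⟩
      rw [conj_pow, ha']; group
    have hxyW : ⁅x, y⁆ ∈ W := by
      refine ⟨Subgroup.commutator_mem_commutator (mem_top x) (mem_top y), ?_⟩
      have h1 : y * x⁻¹ * y⁻¹ ∈ M := hMn.conj_mem _ (inv_mem hxM) y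
      have h2 : (y * x⁻¹ * y⁻¹) ^ p ^ k = 1 := by
        rw [conj_pow, inv_pow, hx]; group
      have := ih _ (hn ▸ card_lt_of_ne_top hMtop) M rfl (regular_subgroup hG _)
        ⟨x, hxM⟩ ⟨_, h1⟩ (Subtype.ext hx) (Subtype.ext h2)
      have h3 : (x * (y * x⁻¹ * y⁻¹)) ^ p ^ k = 1 := congrArg Subtype.val this
      rw [commutatorElement_def]
      rw [← h3]
      congr 1
      group
    have hcommQ : Commute (x : G ⧸ W) (y : G ⧸ W) := by
      have h5 : ((⁅x, y⁆ : G) : G ⧸ W) = ⁅(x : G ⧸ W), (y : G ⧸ W)⁆ :=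
        map_commutatorElement (QuotientGroup.mk' W) x y
      rw [(QuotientGroup.eq_one_iff _).mpr hxyW] at h5
      exact commutatorElement_eq_one_iff_mul_comm.mp h5.symm
    have hle := commutator_closure_pair_le W x y hcommQ
    obtain ⟨c, hc, heq⟩ := hG.2 x y
    have hc1 : c = 1 := eq_one_of_mem_powerClosure (fun z hz => (hle hz).2) hc
    rw [heq, hx, hy, hc1]; simp

/-- the subgroup of elements of order dividing `p ^ k` in a regular `p`-group -/
def omegaSub {G : Type*} [Group G] [Finite G] {p : ℕ} [Fact p.Prime]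
    {k : ℕ} (hG : RegK p k G) : Subgroup G where
  carrier := {z | z ^ p ^ k = 1}
  mul_mem' := fun {a b} ha hb => omega_mul k _ G rfl hG a b ha hb
  one_mem' := one_pow _
  inv_mem' := fun {a} ha => by
    show a⁻¹ ^ p ^ k = 1
    rw [inv_pow, show a ^ p ^ k = 1 from ha, inv_one]

theorem mem_omegaSub {G : Type*} [Group G] [Finite G] {p : ℕ} [Fact p.Prime]
    {k : ℕ} (hG : RegK p k G) (z : G) : z ∈ omegaSub hG ↔ z ^ p ^ k = 1 := Iff.rfl

instance omegaSub_characteristic {G : Type*} [Group G] [Finite G] {p : ℕ} [Fact p.Prime]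
    {k : ℕ} (hG : RegK p k G) : (omegaSub hG).Characteristic := by
  rw [Subgroup.characteristic_iff_le_comap]
  intro ϕ z hz
  rw [Subgroup.mem_comap, mem_omegaSub]
  rw [mem_omegaSub] at hz
  show (ϕ z) ^ p ^ k = 1
  rw [← map_pow, hz, map_one]

theorem pow_eq_of_inv_mul {G : Type*} [Group G] [Finite G] {p : ℕ} [Fact p.Prime]
    {k : ℕ} (hG : RegK p k G) (x y : G) (h : (x⁻¹ * y) ^ p ^ k = 1) :
    x ^ p ^ k = y ^ p ^ k := by
  have hz : ((x⁻¹ * y : G) : G ⧸ omegaSub hG) = 1 := (QuotientGroup.eq_one_iff _).mpr h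
  have hcomm : Commute (x : G ⧸ omegaSub hG) ((x⁻¹ * y : G) : G ⧸ omegaSub hG) := by
    rw [hz]; exact Commute.one_right _
  have hle := commutator_closure_pair_le (omegaSub hG) x (x⁻¹ * y) hcomm
  obtain ⟨c, hc, heq⟩ := hG.2 x (x⁻¹ * y)
  have hc1 : c = 1 := eq_one_of_mem_powerClosure (fun z hz => hle hz) hc
  rw [h, hc1, mul_one, mul_one, mul_inv_cancel_left] at heq
  exact heq.symm

theorem inv_mul_pow_of_pow_eq.{u} {p : ℕ} [Fact p.Prime] (k : ℕ) :
    ∀ (n : ℕ) (G : Type u) [Group G] [Finite G],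
    Nat.card G = n → RegK p k G →
    ∀ x y : G, x ^ p ^ k = y ^ p ^ k → (x⁻¹ * y) ^ p ^ k = 1 := by
  intro n
  induction n using Nat.strong_induction_on with
  | _ n ih =>
    intro G _ _ hn hG x y hxy
    by_cases hcyc : zpowers x = ⊤
    · rw [(comm_of_zpowers_eq_top hcyc x⁻¹ y).mul_pow, inv_pow, hxy, inv_mul_cancel]
    obtain ⟨M, hMn, hMtop, hxM⟩ := exists_normal_coatom hG.1 x hcyc
    have h1 : y * x * y⁻¹ ∈ M := hMn.conj_mem _ hxM y
    have h2 : x ^ p ^ k = (y * x * y⁻¹) ^ p ^ k := by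
      rw [conj_pow, hxy]; group
    have h3 := ih _ (hn ▸ card_lt_of_ne_top hMtop) M rfl (regular_subgroup hG _)
      ⟨x, hxM⟩ ⟨_, h1⟩ (Subtype.ext h2)
    have h4 : (x⁻¹ * (y * x * y⁻¹)) ^ p ^ k = 1 := congrArg Subtype.val h3
    have h5 : ⁅x⁻¹, y⁆ ∈ omegaSub hG := by
      rw [mem_omegaSub, commutatorElement_def, ← h4]
      congr 1
      group
    have hcommQ : Commute ((x⁻¹ : G) : G ⧸ omegaSub hG) (y : G ⧸ omegaSub hG) := by
      have h6 : ((⁅x⁻¹, y⁆ : G) : G ⧸ omegaSub hG) =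
          ⁅((x⁻¹ : G) : G ⧸ omegaSub hG), (y : G ⧸ omegaSub hG)⁆ :=
        map_commutatorElement (QuotientGroup.mk' (omegaSub hG)) x⁻¹ y
      rw [(QuotientGroup.eq_one_iff _).mpr h5] at h6
      exact commutatorElement_eq_one_iff_mul_comm.mp h6.symm
    have hle := commutator_closure_pair_le (omegaSub hG) x⁻¹ y hcommQ
    obtain ⟨c, hc, heq⟩ := hG.2 x⁻¹ y
    have hc1 : c = 1 := eq_one_of_mem_powerClosure (fun z hz => hle hz) hc
    rw [heq, hc1, inv_pow, hxy]; simp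

theorem pow_eq_iff {G : Type*} [Group G] [Finite G] {p : ℕ} [Fact p.Prime]
    {k : ℕ} (hG : RegK p k G) (x y : G) :
    x ^ p ^ k = y ^ p ^ k ↔ (x⁻¹ * y) ^ p ^ k = 1 :=
  ⟨inv_mul_pow_of_pow_eq k _ G rfl hG x y, pow_eq_of_inv_mul hG x y⟩


theorem regular_quotient {G : Type*} [Group G] {p k : ℕ} (hG : RegK p k G)
    (N : Subgroup G) [N.Normal] : RegK p k (G ⧸ N) := by
  refine ⟨hG.1.to_quotient N, ?_⟩
  intro a b
  obtain ⟨a, rfl⟩ := QuotientGroup.mk'_surjective N a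
  obtain ⟨b, rfl⟩ := QuotientGroup.mk'_surjective N b
  obtain ⟨c, hc, habc⟩ := hG.2 a b
  refine ⟨QuotientGroup.mk' N c, ?_, ?_⟩
  · have h1 := Subgroup.mem_map_of_mem (QuotientGroup.mk' N) hc
    rw [← powerClosure_map, Subgroup.map_commutator, MonoidHom.map_closure, Set.image_pair] at h1
    exact h1
  · rw [← map_mul, ← map_pow, habc]
    simp only [map_mul, map_pow]

theorem comm_iff {G : Type*} [Group G] [Finite G] {p k : ℕ} [Fact p.Prime]
    (hG : RegK p k G) (a b : G) :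
    a ^ p ^ k * b = b * a ^ p ^ k ↔ (a⁻¹ * b⁻¹ * a * b) ^ p ^ k = 1 := by
  have h1 : a⁻¹ * b⁻¹ * a * b = a⁻¹ * (b⁻¹ * a * b⁻¹⁻¹) := by group
  rw [h1, ← pow_eq_iff hG, conj_pow, inv_inv]
  constructor
  · intro h
    calc a ^ p ^ k = b⁻¹ * (b * a ^ p ^ k) := by group
      _ = b⁻¹ * (a ^ p ^ k * b) := by rw [h]
      _ = b⁻¹ * a ^ p ^ k * b := by group
  · intro h
    calc a ^ p ^ k * b = b * (b⁻¹ * a ^ p ^ k * b) := by group
      _ = b * a ^ p ^ k := by rw [← h]

theorem pow_mul_pow.{u} {p : ℕ} [Fact p.Prime] (k : ℕ) : ∀ (n : ℕ) (G : Type u) [Group G] [Finite G],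
    Nat.card G = n → RegK p k G →
    ∀ x y : G, ∃ z : G, x ^ p ^ k * y ^ p ^ k = z ^ p ^ k := by
  intro n
  induction n using Nat.strong_induction_on with
  | _ n ih =>
    intro G _ _ hn hG x y
    by_cases hK : closure ({x, y} : Set G) = ⊤
    swap
    · have hxK : x ∈ closure ({x, y} : Set G) := subset_closure (by simp)
      have hyK : y ∈ closure ({x, y} : Set G) := subset_closure (by simp)
      obtain ⟨z, hz⟩ := ih _ (hn ▸ card_lt_of_ne_top hK) (closure ({x, y} : Set G)) rfl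
        (regular_subgroup hG _) ⟨x, hxK⟩ ⟨y, hyK⟩
      exact ⟨z, congrArg Subtype.val hz⟩
    by_cases hcyc : zpowers (x * y) = ⊤
    · exact ⟨x * y, by rw [(comm_of_zpowers_eq_top hcyc x y).mul_pow]⟩
    obtain ⟨M, hMtop, hxM, hcM⟩ := exists_coatom hG.1 (x * y) hcyc
    have hnt : Nontrivial G := by
      by_contra h
      have : Subsingleton G := not_nontrivial_iff_subsingleton.mp h
      exact hcyc (Subsingleton.elim _ _)
    have hnil := hG.1.isNilpotent
    have hcomm_lt : commutator G ≠ ⊤ := (Group.IsSolvable.commutator_lt_top_of_nontrivial G).ne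
    have hIH := ih _ (hn ▸ card_lt_of_ne_top hcomm_lt) (commutator G) rfl
      (regular_subgroup hG _)
    obtain ⟨c, hc, heq⟩ := hG.2 x y
    rw [hK] at hc
    have hc' : ∃ d ∈ commutator G, c = d ^ p ^ k := by
      unfold Cfsg.powerClosure at hc
      clear heq
      induction hc using Subgroup.closure_induction with
      | mem y hy => exact hy
      | one => exact ⟨1, one_mem _, by simp⟩
      | mul a b _ _ iha ihb =>
        obtain ⟨d, hd, rfl⟩ := iha
        obtain ⟨e, he, rfl⟩ := ihb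
        obtain ⟨z, hz⟩ := hIH ⟨d, hd⟩ ⟨e, he⟩
        exact ⟨z, z.2, congrArg Subtype.val hz⟩
      | inv a _ iha =>
        obtain ⟨d, hd, rfl⟩ := iha
        exact ⟨d⁻¹, inv_mem hd, by rw [inv_pow]⟩
    obtain ⟨d, hd, rfl⟩ := hc'
    obtain ⟨z, hz⟩ := ih _ (hn ▸ card_lt_of_ne_top hMtop) M rfl (regular_subgroup hG _)
      ⟨x * y, hxM⟩ ⟨d⁻¹, inv_mem (hcM hd)⟩
    refine ⟨z, ?_⟩
    have hz' : (x * y) ^ p ^ k * d⁻¹ ^ p ^ k = (z : G) ^ p ^ k := congrArg Subtype.val hz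
    rw [← hz', heq, inv_pow, mul_inv_cancel_right]

theorem mem_powerClosure {G : Type*} [Group G] [Finite G] {p : ℕ} [Fact p.Prime]
    {k : ℕ} (hG : RegK p k G) (H : Subgroup G) (c : G)
    (hc : c ∈ Cfsg.powerClosure p k H) : ∃ d ∈ H, c = d ^ p ^ k := by
  unfold Cfsg.powerClosure at hc
  induction hc using Subgroup.closure_induction with
  | mem y hy => exact hy
  | one => exact ⟨1, one_mem _, by simp⟩
  | mul a b _ _ iha ihb =>
    obtain ⟨d, hd, rfl⟩ := iha
    obtain ⟨e, he, rfl⟩ := ihb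
    obtain ⟨z, hz⟩ := pow_mul_pow k _ H rfl (regular_subgroup hG _) ⟨d, hd⟩ ⟨e, he⟩
    exact ⟨z, z.2, congrArg Subtype.val hz⟩
  | inv a _ iha =>
    obtain ⟨d, hd, rfl⟩ := iha
    exact ⟨d⁻¹, inv_mem hd, by rw [inv_pow]⟩

theorem comm_pow_mem {K : Type*} [Group K] [Finite K] {p : ℕ} [Fact p.Prime]
    {k : ℕ} (hK : RegK p k K) (x y : K) :
    ⁅x ^ p ^ k, y ^ p ^ k⁆ ∈ Cfsg.powerClosure p k (commutator K) := by
  have := powerClosure_normal p k (commutator K)
  set N := Cfsg.powerClosure p k (commutator K) with hN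
  have hQ : RegK p k (K ⧸ N) := regular_quotient hK N
  have h1 : ((x : K ⧸ N)⁻¹ * ((y ^ p ^ k : K) : K ⧸ N)⁻¹ * (x : K ⧸ N) * ((y ^ p ^ k : K) : K ⧸ N)) ^ p ^ k
      = 1 := by
    have : ((x : K ⧸ N)⁻¹ * ((y ^ p ^ k : K) : K ⧸ N)⁻¹ * (x : K ⧸ N) * ((y ^ p ^ k : K) : K ⧸ N)) ^ p ^ k
      = (((x⁻¹ * (y ^ p ^ k)⁻¹ * x * (y ^ p ^ k)) ^ p ^ k : K) : K ⧸ N) := rfl
    rw [this, QuotientGroup.eq_one_iff]
    refine subset_closure ⟨_, ?_, rfl⟩
    have : x⁻¹ * (y ^ p ^ k)⁻¹ * x * (y ^ p ^ k) = ⁅x⁻¹, (y ^ p ^ k)⁻¹⁆ := by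
      rw [commutatorElement_def]; group
    rw [this]
    exact Subgroup.commutator_mem_commutator (mem_top _) (mem_top _)
  have h2 := (comm_iff hQ (x : K ⧸ N) ((y ^ p ^ k : K) : K ⧸ N)).2 h1
  rw [← QuotientGroup.eq_one_iff]
  have h5 : ((⁅x ^ p ^ k, y ^ p ^ k⁆ : K) : K ⧸ N) =
      ⁅((x ^ p ^ k : K) : K ⧸ N), ((y ^ p ^ k : K) : K ⧸ N)⁆ :=
    map_commutatorElement (QuotientGroup.mk' N) _ _
  rw [h5, commutatorElement_eq_one_iff_mul_comm]
  exact h2

theorem comm_le {G : Type*} [Group G] [Finite G] {p k : ℕ} [Fact p.Prime] (hG : RegK p k G)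
    (H : Subgroup G) :
    ⁅Cfsg.powerClosure p k H, Cfsg.powerClosure p k H⁆ ≤ Cfsg.powerClosure p k ⁅H, H⁆ := by
  rw [Subgroup.commutator_le]
  intro g₁ h₁ g₂ h₂
  obtain ⟨x, hx, rfl⟩ := mem_powerClosure hG H g₁ h₁
  obtain ⟨y, hy, rfl⟩ := mem_powerClosure hG H g₂ h₂
  have h := comm_pow_mem (regular_subgroup hG H) ⟨x, hx⟩ ⟨y, hy⟩
  have h2 : ⁅H, H⁆ = (commutator H).map H.subtype := by
    rw [_root_.commutator_def, Subgroup.map_commutator, ← MonoidHom.range_eq_map,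
      Subgroup.range_subtype]
  rw [h2, powerClosure_map]
  exact ⟨_, h, by simp [commutatorElement_def]⟩

theorem pow_eq_one_of_mem_comm {Q : Type*} [Group Q] [Finite Q] {p k : ℕ} [Fact p.Prime]
    (hk : RegK p k Q) (hexp : ∀ g ∈ commutator Q, g ^ p ^ (k + 1) = 1) (A B : Q)
    (hA : A ∈ Cfsg.powerClosure p k (⊤ : Subgroup Q))
    (hB : B ∈ Cfsg.powerClosure p k (⊤ : Subgroup Q)) :
    ∀ z ∈ ⁅closure ({A, B} : Set Q), closure ({A, B} : Set Q)⁆, z ^ p ^ 1 = 1 := by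
  intro z hz
  have h1 : closure ({A, B} : Set Q) ≤ Cfsg.powerClosure p k (⊤ : Subgroup Q) := by
    rw [closure_le]
    rintro x (rfl | rfl)
    · exact hA
    · exact hB
  have h2 := comm_le hk ⊤ (Subgroup.commutator_mono h1 h1 hz)
  obtain ⟨g, hg, rfl⟩ := mem_powerClosure hk _ z h2
  rw [← pow_mul, ← pow_add]
  exact hexp g hg

theorem mul_pow_of_exp {Q : Type*} [Group Q] [Finite Q] {p k : ℕ} [Fact p.Prime]
    (h1 : RegK p 1 Q) (hk : RegK p k Q) (hexp : ∀ g ∈ commutator Q, g ^ p ^ (k + 1) = 1)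
    (a b : Q) : (a * b) ^ p ^ (k + 1) = a ^ p ^ (k + 1) * b ^ p ^ (k + 1) := by
  obtain ⟨c, hc, heq⟩ := hk.2 a b
  obtain ⟨d, hd, rfl⟩ := mem_powerClosure hk _ c hc
  have hd' : d ∈ commutator Q := Subgroup.commutator_mono le_top le_top hd
  have hpw : ∀ x : Q, x ^ p ^ k ∈ Cfsg.powerClosure p k (⊤ : Subgroup Q) :=
    fun x => subset_closure ⟨x, mem_top x, rfl⟩
  obtain ⟨e, he, heq1⟩ := h1.2 (a ^ p ^ k * b ^ p ^ k) (d ^ p ^ k)
  obtain ⟨f, hf, heq2⟩ := h1.2 (a ^ p ^ k) (b ^ p ^ k)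
  have he1 : e = 1 := eq_one_of_mem_powerClosure
    (pow_eq_one_of_mem_comm hk hexp _ _ (mul_mem (hpw a) (hpw b)) (hpw d)) he
  have hf1 : f = 1 := eq_one_of_mem_powerClosure
    (pow_eq_one_of_mem_comm hk hexp _ _ (hpw a) (hpw b)) hf
  rw [pow_succ, pow_mul, heq, ← pow_one p, ← pow_mul p, one_mul, heq1, heq2, he1, hf1, mul_one,
    mul_one, ← pow_mul, ← pow_mul, ← pow_mul, ← pow_add, hexp d hd', mul_one]

theorem regK_succ {G : Type*} [Group G] [Finite G] {p k : ℕ} [Fact p.Prime]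
    (h1 : RegK p 1 G) (hk : RegK p k G) : RegK p (k + 1) G := by
  refine ⟨h1.1, ?_⟩
  intro a b
  set H := closure ({a, b} : Set G) with hH
  have haH : a ∈ H := subset_closure (by simp)
  have hbH : b ∈ H := subset_closure (by simp)
  have := powerClosure_normal p (k + 1) (commutator H)
  set N := Cfsg.powerClosure p (k + 1) (commutator H) with hN
  have hexp : ∀ g ∈ commutator (H ⧸ N), g ^ p ^ (k + 1) = 1 := by
    intro g hg
    have h3 : commutator (H ⧸ N) = (commutator H).map (QuotientGroup.mk' N) := by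
      rw [_root_.commutator_def, _root_.commutator_def, Subgroup.map_commutator,
        ← MonoidHom.range_eq_map, MonoidHom.range_eq_top.2 (QuotientGroup.mk'_surjective N)]
    rw [h3] at hg
    obtain ⟨x, hx, rfl⟩ := hg
    rw [← map_pow]
    exact (QuotientGroup.eq_one_iff _).2 (subset_closure ⟨x, hx, rfl⟩)
  have h4 := mul_pow_of_exp (regular_quotient (regular_subgroup h1 H) N)
    (regular_quotient (regular_subgroup hk H) N) hexp
    (QuotientGroup.mk' N ⟨a, haH⟩) (QuotientGroup.mk' N ⟨b, hbH⟩)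
  rw [← map_mul, ← map_pow, ← map_pow, ← map_pow, ← map_mul] at h4
  have h5 : ((⟨a, haH⟩ : H) ^ p ^ (k + 1) * (⟨b, hbH⟩ : H) ^ p ^ (k + 1))⁻¹ *
      ((⟨a, haH⟩ : H) * ⟨b, hbH⟩) ^ p ^ (k + 1) ∈ N := by
    rw [← QuotientGroup.eq]
    exact h4.symm
  have h2 : ⁅H, H⁆ = (commutator H).map H.subtype := by
    rw [_root_.commutator_def, Subgroup.map_commutator, ← MonoidHom.range_eq_map,
      Subgroup.range_subtype]
  refine ⟨(a ^ p ^ (k + 1) * b ^ p ^ (k + 1))⁻¹ * (a * b) ^ p ^ (k + 1), ?_, by group⟩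
  rw [h2, powerClosure_map]
  exact ⟨_, h5, by simp⟩

theorem regK_zero {G : Type*} [Group G] {p : ℕ} (hG : IsPGroup p G) : RegK p 0 G :=
  ⟨hG, fun a b => ⟨1, one_mem _, by simp⟩⟩

theorem regK_all {G : Type*} [Group G] [Finite G] {p : ℕ} [Fact p.Prime]
    (h1 : RegK p 1 G) (k : ℕ) : RegK p k G := by
  induction k with
  | zero => exact regK_zero h1.1
  | succ k ih => exact regK_succ h1 ih

theorem isRegular_of_regK_one {G : Type*} [Group G] [Finite G] {p : ℕ} [Fact p.Prime]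
    (h1 : RegK p 1 G) : Cfsg.IsRegularPGroup p G :=
  ⟨h1.1, fun a b n => (regK_all h1 n).2 a b⟩

end Cfsg.Agent.Lib.Helper73RegK
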