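import Cfsg.Agent.Lib.Helper74BG36Defs

set_option autoImplicit false
set_option linter.unusedSectionVars false

/-! Module lemmas for the hard case of B-G Theorem 3.6. -/

namespace Cfsg.Agent.Lib.Helper74BG36

open Cfsg.Agent.Lib.Helper36Frob Subgroup

variable {G V : Type*} [Group G] [Finite G] [AddCommGroup V] [DistribMulAction G V]

attribute [local instance] Cfsg.Agent.Lib.Helper36Frob.instFintypeSub

lemma cw_self_eq_bot [Finite V] {Q : Subgroup G} (hcop : (Nat.card Q).Coprime (Nat.card V)) :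
    (cw Q Q : AddSubgroup V) = ⊥ := by
  rw [eq_bot_iff]
  intro v hv
  rw [mem_cw] at hv
  have h1 : nrm Q v = Nat.card Q • v := nrm_of_fix hv.2
  rw [hv.1] at h1
  exact (AddSubgroup.mem_bot).mpr (eq_zero_of_nsmul hcop h1.symm)

lemma nrm_smul_of_mem_normalizer {H : Subgroup G} {g : G} (hg : g ∈ normalizer (H : Set G)) (v : V) :
    nrm H (g • v) = g • nrm H v :=
  nrm_smul_of_normalizes (fun _ hh => conj_mem hg hh) (fun _ hh => conj_mem' hg hh) v

lemma smul_mem_fix_cj {D : Subgroup G} {g : G} {v : V} (hv : v ∈ (fix D : AddSubgroup V)) :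
    g • v ∈ (fix (cj g D) : AddSubgroup V) := by
  intro x hx
  rw [mem_cj] at hx
  have h1 := hv _ hx
  rw [mul_smul, mul_smul, inv_smul_eq_iff] at h1
  exact h1

lemma smul_mem_cw {Q D : Subgroup G} {g : G} (hg : g ∈ normalizer (Q : Set G)) {v : V}
    (hv : v ∈ (cw Q D : AddSubgroup V)) : g • v ∈ (cw Q (cj g D) : AddSubgroup V) := by
  refine ⟨?_, smul_mem_fix_cj hv.2⟩
  change _ ∈ (nrm Q).ker
  rw [AddMonoidHom.mem_ker, nrm_smul_of_mem_normalizer hg, AddMonoidHom.mem_ker.mp hv.1, smul_zero]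

lemma mem_fix_sup {D E : Subgroup G} {v : V} (hD : v ∈ (fix D : AddSubgroup V))
    (hE : v ∈ (fix E : AddSubgroup V)) : v ∈ (fix (D ⊔ E) : AddSubgroup V) := by
  have h : D ⊔ E ≤ MulAction.stabilizer G v :=
    sup_le (fun d hd => hD d hd) (fun e he => hE e he)
  exact fun x hx => h hx

lemma cw_cj_ne_bot {Q D : Subgroup G} {g : G} (hg : g ∈ normalizer (Q : Set G))
    (h : (cw Q D : AddSubgroup V) ≠ ⊥) : (cw Q (cj g D) : AddSubgroup V) ≠ ⊥ := by
  intro h0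
  apply h
  rw [eq_bot_iff]
  intro v hv
  have h1 := smul_mem_cw hg hv
  rw [h0, AddSubgroup.mem_bot] at h1
  rw [AddSubgroup.mem_bot]
  have := congrArg (fun u => g⁻¹ • u) h1
  simpa using this

lemma cj_le_of_mem_normalizer {Q D : Subgroup G} {g : G} (hg : g ∈ normalizer (Q : Set G))
    (h : D ≤ Q) : cj g D ≤ Q := by
  have := (cj_le_cj (g := g)).mpr h
  rwa [cj_eq_iff.mpr hg] at this

lemma Wt.conj {Q D : Subgroup G} (hD : Wt V Q D) {g : G} (hg : g ∈ normalizer (Q : Set G)) :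
    Wt V Q (cj g D) := by
  refine ⟨cj_le_of_mem_normalizer hg hD.le, cw_cj_ne_bot hg hD.ne, ?_⟩
  intro E hE hEQ
  by_contra h0
  have hg' : g⁻¹ ∈ normalizer (Q : Set G) := (normalizer (Q : Set G)).inv_mem hg
  have h1 := cw_cj_ne_bot (V := V) hg' h0
  apply h1
  apply hD.max
  · have := (cj_lt_cj (g := g⁻¹)).mpr hE
    rwa [cj_inv_cj] at this
  · exact cj_le_of_mem_normalizer hg' hEQ

lemma Wt.orth {Q D D' : Subgroup G} (hD : Wt V Q D) (hD' : Wt V Q D') (hne : D ≠ D') {v : V}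
    (hv : nrm Q v = 0) (h1 : v ∈ (fix D : AddSubgroup V)) (h2 : v ∈ (fix D' : AddSubgroup V)) :
    v = 0 := by
  have h3 : v ∈ (cw Q (D ⊔ D') : AddSubgroup V) := ⟨AddMonoidHom.mem_ker.mpr hv, mem_fix_sup h1 h2⟩
  by_cases h : D < D ⊔ D'
  · rw [hD.max _ h (sup_le hD.le hD'.le)] at h3
    exact (AddSubgroup.mem_bot).mp h3
  · have h4 : D ⊔ D' = D := (le_sup_left.eq_or_lt.resolve_right h).symm
    have h5 : D' ≤ D := by rw [← h4]; exact le_sup_right
    have h6 : D' < D := lt_of_le_of_ne h5 (Ne.symm hne)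
    exact absurd (hD'.max _ h6 hD.le) hD.ne

lemma exists_Wt {Q : Subgroup G} (h : (nrm Q : V →+ V).ker ≠ ⊥) : ∃ D, Wt V Q D := by
  obtain ⟨D, hD⟩ := Set.Finite.exists_maximal
    (s := {D : Subgroup G | D ≤ Q ∧ (cw Q D : AddSubgroup V) ≠ ⊥}) (Set.toFinite _)
    ⟨⊥, bot_le, by
      intro h0
      apply h
      rw [eq_bot_iff, ← h0]
      intro v hv
      refine ⟨hv, fun d hd => ?_⟩
      rw [Subgroup.mem_bot.mp hd, one_smul]⟩
  refine ⟨D, hD.1.1, hD.1.2, fun E hE hEQ => ?_⟩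
  by_contra h0
  exact absurd (hD.2 (show E ∈ {D : Subgroup G | D ≤ Q ∧ (cw Q D : AddSubgroup V) ≠ ⊥} from ⟨hEQ, h0⟩) hE.le)
    (not_le_of_gt hE)

/-- orthogonality of distinct weight spaces -/
lemma nrm_eq_zero_of_Wt {Q D D' : Subgroup G} (hQc : ∀ a ∈ Q, ∀ b ∈ Q, a * b = b * a)
    (hD : Wt V Q D) (hD' : Wt V Q D') (hne : D ≠ D') {w : V} (hw : w ∈ (cw Q D' : AddSubgroup V)) :
    nrm D w = 0 := by
  have hnorm : ∀ q ∈ Q, q ∈ normalizer (D : Set G) := by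
    intro q hq
    rw [mem_normalizer_iff]
    intro x
    constructor
    · intro hx
      rw [hQc q hq x (hD.le hx), mul_inv_cancel_right]; exact hx
    · intro hx
      have h1 : q * x * q⁻¹ ∈ Q := hD.le hx
      have h2 : x ∈ Q := by
        have := Q.mul_mem (Q.mul_mem (Q.inv_mem hq) h1) hq
        have e : q⁻¹ * (q * x * q⁻¹) * q = x := by group
        rwa [e] at this
      rw [hQc q hq x h2, mul_inv_cancel_right] at hx; exact hx
  apply hD.orth hD' hne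
  · -- in the kernel of `nrm Q`
    have h1 : nrm D w ∈ (nrm Q : V →+ V).ker := by
      apply nrm_mem (U := (nrm Q : V →+ V).ker) _ hw.1
      intro d hd v hv
      rw [AddMonoidHom.mem_ker] at hv ⊢
      rw [nrm_smul (hD.le hd), hv]
    exact AddMonoidHom.mem_ker.mp h1
  · exact nrm_mem_fix D w
  · intro d hd
    rw [← nrm_smul_of_mem_normalizer (hnorm d (hD'.le hd)), hw.2 d hd]

lemma nrm_nrm_of_moved {Q D R : Subgroup G} (hQc : ∀ a ∈ Q, ∀ b ∈ Q, a * b = b * a)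
    (hRQ : R ≤ normalizer (Q : Set G)) (hD : Wt V Q D) (hmov : ∀ x ∈ R, x ≠ 1 → cj x D ≠ D) {w : V}
    (hw : w ∈ (cw Q D : AddSubgroup V)) : nrm D (nrm R w) = Nat.card D • w := by
  classical
  rw [nrm_apply R, map_sum, Finset.sum_eq_single (1 : R)]
  · simp only [OneMemClass.coe_one, one_smul]
    exact nrm_of_fix hw.2
  · intro x _ hx
    have hx1 : (x : G) ≠ 1 := fun h => hx (Subtype.ext h)
    exact nrm_eq_zero_of_Wt hQc hD (hD.conj (hRQ x.2)) (hmov x x.2 hx1).symm (smul_mem_cw (hRQ x.2) hw)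
  · intro h
    exact absurd (Finset.mem_univ _) h

lemma nrm_nrm_of_ne {Q D D' R : Subgroup G} (hQc : ∀ a ∈ Q, ∀ b ∈ Q, a * b = b * a)
    (hRQ : R ≤ normalizer (Q : Set G)) (hD : Wt V Q D) (hD' : Wt V Q D')
    (hne : ∀ x ∈ R, cj x D' ≠ D) {w : V}
    (hw : w ∈ (cw Q D' : AddSubgroup V)) : nrm D (nrm R w) = 0 := by
  rw [nrm_apply R, map_sum]
  apply Finset.sum_eq_zero
  intro x _
  exact nrm_eq_zero_of_Wt hQc hD (hD'.conj (hRQ x.2)) (hne x x.2).symm (smul_mem_cw (hRQ x.2) hw)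

lemma eq_of_nsmul_eq [Finite V] {n : ℕ} (h : n.Coprime (Nat.card V)) {u v : V}
    (huv : n • u = n • v) : u = v := by
  have : n • (u - v) = 0 := by rw [nsmul_sub, huv, sub_self]
  exact sub_eq_zero.mp (eq_zero_of_nsmul h this)

lemma Wt.coprime [Finite V] {Q D : Subgroup G} (hcop : (Nat.card Q).Coprime (Nat.card V))
    (hD : Wt V Q D) : (Nat.card D).Coprime (Nat.card V) :=
  Nat.Coprime.coprime_dvd_left (Subgroup.card_dvd_of_le hD.le) hcop

/-- a weight space moved by `R` embeds in `C_V(R)`. -/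
lemma Wt.cyc [Finite V] {Q D R : Subgroup G} (hcop : (Nat.card Q).Coprime (Nat.card V))
    (hQc : ∀ a ∈ Q, ∀ b ∈ Q, a * b = b * a) (hRQ : R ≤ normalizer (Q : Set G))
    (hcyc : Cyc (fix R : AddSubgroup V)) (hD : Wt V Q D) (hmov : ∀ x ∈ R, x ≠ 1 → cj x D ≠ D) :
    Cyc (cw Q D : AddSubgroup V) := by
  intro u hu w hw hw0
  have h1 : nrm R w ≠ 0 := by
    intro h0
    have h2 := nrm_nrm_of_moved hQc hRQ hD hmov hw
    rw [h0, map_zero] at h2
    exact hw0 (eq_zero_of_nsmul (hD.coprime hcop) h2.symm)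
  obtain ⟨n, hn⟩ := hcyc _ (nrm_mem_fix R u) _ (nrm_mem_fix R w) h1
  refine ⟨n, eq_of_nsmul_eq (hD.coprime hcop) ?_⟩
  rw [← nrm_nrm_of_moved hQc hRQ hD hmov hu, hn, map_nsmul, nrm_nrm_of_moved hQc hRQ hD hmov hw,
    nsmul_left_comm]

/-- two weights moved by `R` are in the same `R`-orbit. -/
lemma Wt.orbit [Finite V] {Q D D' R : Subgroup G} (hcop : (Nat.card Q).Coprime (Nat.card V))
    (hQc : ∀ a ∈ Q, ∀ b ∈ Q, a * b = b * a) (hRQ : R ≤ normalizer (Q : Set G))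
    (hcyc : Cyc (fix R : AddSubgroup V)) (hD : Wt V Q D) (hD' : Wt V Q D')
    (hmov : ∀ x ∈ R, x ≠ 1 → cj x D ≠ D) (hmov' : ∀ x ∈ R, x ≠ 1 → cj x D' ≠ D') :
    ∃ x ∈ R, D' = cj x D := by
  by_contra hcon
  push Not at hcon
  obtain ⟨w, hw, hw0⟩ : ∃ w ∈ (cw Q D : AddSubgroup V), w ≠ 0 := by
    by_contra h
    push Not at h
    exact hD.ne ((AddSubgroup.eq_bot_iff_forall _).mpr h)
  obtain ⟨w', hw', hw0'⟩ : ∃ w ∈ (cw Q D' : AddSubgroup V), w ≠ 0 := by
    by_contra h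
    push Not at h
    exact hD'.ne ((AddSubgroup.eq_bot_iff_forall _).mpr h)
  have h1 : nrm R w ≠ 0 := by
    intro h0
    have h2 := nrm_nrm_of_moved hQc hRQ hD hmov hw
    rw [h0, map_zero] at h2
    exact hw0 (eq_zero_of_nsmul (hD.coprime hcop) h2.symm)
  obtain ⟨n, hn⟩ := hcyc _ (nrm_mem_fix R w') _ (nrm_mem_fix R w) h1
  have h2 := nrm_nrm_of_moved hQc hRQ hD' hmov' hw'
  rw [hn, map_nsmul, nrm_nrm_of_ne hQc hRQ hD' hD (fun x hx h => hcon x hx h.symm) hw, nsmul_zero] at h2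
  exact hw0' (eq_zero_of_nsmul (hD'.coprime hcop) h2.symm)

/-- **scalar trick**: an element commuting with the Frobenius group `M R` acts on `[V, M]` as a scalar. -/
lemma scalar [Finite V] {M R : Subgroup G} (hRM : R ≤ normalizer (M : Set G))
    (hfpf : ∀ x ∈ R, x ≠ 1 → ∀ m ∈ M, x * m = m * x → m = 1)
    (hcop : (Nat.card M).Coprime (Nat.card V)) (hcyc : Cyc (fix R : AddSubgroup V)) {c : G}
    (hcM : ∀ m ∈ M, c * m = m * c) (hcR : ∀ x ∈ R, c * x = x * c) :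
    ∃ n : ℕ, ∀ v ∈ (nrm M : V →+ V).ker, c • v = n • v := by
  have hcfix : ∀ u ∈ (fix R : AddSubgroup V), c • u ∈ (fix R : AddSubgroup V) := by
    intro u hu x hx
    rw [← mul_smul, ← hcR x hx, mul_smul, hu x hx]
  have hP : ∃ n : ℕ, ∀ u ∈ (fix R : AddSubgroup V), c • u = n • u := by
    by_cases h : ∃ w ∈ (fix R : AddSubgroup V), w ≠ 0
    · obtain ⟨w, hw, hw0⟩ := h
      obtain ⟨n, hn⟩ := hcyc _ (hcfix w hw) w hw hw0
      refine ⟨n, fun u hu => ?_⟩
      obtain ⟨m, rfl⟩ := hcyc u hu w hw hw0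
      rw [smul_comm c m w, hn, nsmul_left_comm]
    · push Not at h
      exact ⟨0, fun u hu => by rw [h u hu, smul_zero, nsmul_zero]⟩
  obtain ⟨n, hn⟩ := hP
  refine ⟨n, fun v hv => ?_⟩
  have hker : ∀ x ∈ R, ∀ u ∈ (nrm M : V →+ V).ker, nrm M (x • u) = 0 := by
    intro x hx u hu
    rw [nrm_smul_of_mem_normalizer (hRM hx), AddMonoidHom.mem_ker.mp hu, smul_zero]
  have hid := norm_identity (A := M) (R := R) (fun x hx m hm => conj_mem (hRM hx) hm) hfpf (v := v)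
    (fun x hx _ => hker x hx v hv)
  apply eq_of_nsmul_eq hcop
  rw [← smul_comm c, ← hid, Finset.smul_sum, nsmul_left_comm, ← hid, Finset.smul_sum]
  refine Finset.sum_congr rfl (fun x _ => ?_)
  rw [← mul_smul, hcM x x.2, mul_smul, hn _ (nrm_mem_fix R _), smul_comm]

end Cfsg.Agent.Lib.Helper74BG36
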