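import Cfsg.Agent.Lib.Helper74BG36A
import Cfsg.Agent.Lib.Helper30Gen

set_option autoImplicit false
set_option linter.unusedSectionVars false

/-! Further lemmas for the hard case of B-G Theorem 3.6. -/

namespace Cfsg.Agent.Lib.Helper74BG36

open Cfsg.Agent.Lib.Helper36Frob Subgroup

variable {G V : Type*} [Group G] [Finite G] [AddCommGroup V] [DistribMulAction G V]

attribute [local instance] Cfsg.Agent.Lib.Helper36Frob.instFintypeSub

/-- a non-identity element of a group of prime order generates it -/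
lemma le_zpowers_of_prime {R : Subgroup G} {r : ℕ} (hr : r.Prime) (hR : Nat.card R = r) {x : G}
    (hx : x ∈ R) (hx1 : x ≠ 1) : R ≤ zpowers x := by
  have h1 : zpowers x ≤ R := (zpowers_le).mpr hx
  have h2 : Nat.card (zpowers x) ∣ r := hR ▸ Subgroup.card_dvd_of_le h1
  have h3 : Nat.card (zpowers x) ≠ 1 := by
    rw [Nat.card_zpowers]
    intro h
    exact hx1 (orderOf_eq_one_iff.mp h)
  have h4 : Nat.card (zpowers x) = r := ((Nat.dvd_prime hr).mp h2).resolve_left h3
  exact (Subgroup.eq_of_le_of_card_ge h1 (by rw [h4, hR])).ge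

lemma le_of_mem_of_prime {R H : Subgroup G} {r : ℕ} (hr : r.Prime) (hR : Nat.card R = r) {x : G}
    (hx : x ∈ R) (hx1 : x ≠ 1) (hxH : x ∈ H) : R ≤ H :=
  (le_zpowers_of_prime hr hR hx hx1).trans ((zpowers_le).mpr hxH)

lemma exists_ne_one_of_prime {R : Subgroup G} {r : ℕ} (hr : r.Prime) (hR : Nat.card R = r) :
    ∃ x ∈ R, x ≠ 1 := by
  by_contra h
  push Not at h
  have : R = ⊥ := (Subgroup.eq_bot_iff_forall R).mpr h
  rw [this, Subgroup.card_bot] at hR
  exact hr.one_lt.ne hR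

lemma fpf_of_prime {A R : Subgroup G} {r : ℕ} (hr : r.Prime) (hR : Nat.card R = r)
    (hCA : A ⊓ centralizer (R : Set G) = ⊥) :
    ∀ x ∈ R, x ≠ 1 → ∀ a ∈ A, x * a = a * x → a = 1 := by
  intro x hx hx1 a ha hxa
  have h1 : R ≤ centralizer ({a} : Set G) :=
    le_of_mem_of_prime hr hR hx hx1 (by
      rw [mem_centralizer_singleton_iff]; exact hxa)
  have h2 : a ∈ A ⊓ centralizer (R : Set G) := by
    refine ⟨ha, ?_⟩
    change a ∈ centralizer (R : Set G)
    rw [mem_centralizer_iff]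
    intro z hz
    have := h1 hz
    rw [mem_centralizer_singleton_iff] at this
    exact this
  rw [hCA] at h2
  exact Subgroup.mem_bot.mp h2

/-- either `R` normalises `D`, or every non-identity element of `R` moves `D`. -/
lemma fixed_or_moved {R : Subgroup G} {r : ℕ} (hr : r.Prime) (hR : Nat.card R = r) (D : Subgroup G) :
    R ≤ normalizer (D : Set G) ∨ ∀ x ∈ R, x ≠ 1 → cj x D ≠ D := by
  by_cases h : ∀ x ∈ R, x ≠ 1 → cj x D ≠ D
  · exact Or.inr h
  · push Not at h
    obtain ⟨x, hx, hx1, hxD⟩ := h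
    exact Or.inl (le_of_mem_of_prime hr hR hx hx1 (cj_eq_iff.mp hxD))

/-- surjectivity of `b ↦ [x, b]` for a fixed point free `x`. -/
lemma exists_comm_eq {K : Subgroup G} {x : G} (hx : x ∈ normalizer (K : Set G))
    (hf : ∀ k ∈ K, x * k = k * x → k = 1) {a : G} (ha : a ∈ K) :
    ∃ b ∈ K, a = x * b * x⁻¹ * b⁻¹ := by
  let c : K → K := fun b => ⟨x * b * x⁻¹ * (b : G)⁻¹, K.mul_mem (conj_mem hx b.2) (K.inv_mem b.2)⟩
  have hc : Function.Injective c := by
    intro b d hbd
    have h1 : x * b * x⁻¹ * (b : G)⁻¹ = x * d * x⁻¹ * (d : G)⁻¹ := congrArg Subtype.val hbd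
    have h2 : x * ((d : G)⁻¹ * b) = ((d : G)⁻¹ * b) * x := by
      have h3 : x * b * x⁻¹ = x * d * x⁻¹ * (d : G)⁻¹ * b := by
        rw [← h1]; group
      calc x * ((d : G)⁻¹ * b) = (x * (d : G)⁻¹ * x⁻¹) * (x * b * x⁻¹) * x := by group
        _ = (x * (d : G)⁻¹ * x⁻¹) * (x * d * x⁻¹ * (d : G)⁻¹ * b) * x := by rw [h3]
        _ = ((d : G)⁻¹ * b) * x := by group
    have h4 := hf _ (K.mul_mem (K.inv_mem d.2) b.2) h2
    exact (Subtype.ext (inv_mul_eq_one.mp h4)).symm
  obtain ⟨b, hb⟩ := (Finite.injective_iff_surjective.mp hc) ⟨a, ha⟩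
  exact ⟨b, b.2, (congrArg Subtype.val hb).symm⟩

omit [Finite G] [DistribMulAction G V] in
lemma nsmul_eq_of_modEq {p m n : ℕ} {u : V} (hu : p • u = 0) (h : m ≡ n [MOD p]) : m • u = n • u := by
  have key : ∀ k : ℕ, k • u = (k % p) • u := by
    intro k
    conv_lhs => rw [← Nat.div_add_mod k p]
    rw [add_nsmul, mul_nsmul, hu, nsmul_zero, zero_add]
  rw [key m, key n, h]

/-- a `p`-element acts trivially on an invariant group of order `p`. -/
lemma smul_eq_of_cyc {p : ℕ} (hp : p.Prime) (hVp : ∀ v : V, p • v = 0) {U : AddSubgroup V}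
    (hU : Cyc U) {a : G} {k : ℕ} (ha : a ^ (p ^ k) = 1) (haU : ∀ u ∈ U, a • u ∈ U) :
    ∀ u ∈ U, a • u = u := by
  intro u hu
  by_cases hu0 : u = 0
  · rw [hu0, smul_zero]
  obtain ⟨n, hn⟩ := hU _ (haU u hu) u hu hu0
  have h1 : ∀ j : ℕ, a ^ j • u = n ^ j • u := by
    intro j
    induction j with
    | zero => simp
    | succ j ih =>
      rw [pow_succ', mul_smul, ih, smul_comm, hn, pow_succ, mul_nsmul']
  have h2 := h1 (p ^ k)
  rw [ha, one_smul] at h2
  have : Fact p.Prime := ⟨hp⟩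
  have h3 : n ^ (p ^ k) ≡ n [MOD p] := by
    rw [← ZMod.natCast_eq_natCast_iff]
    push_cast
    exact ZMod.pow_card_pow (p := p) (n := k) (n : ZMod p)
  rw [hn, ← nsmul_eq_of_modEq (hVp u) h3, ← h2]

/-- if `ker (nrm M) = 0` then `M` acts trivially. -/
lemma smul_eq_of_ker_eq_bot [Finite V] {M : Subgroup G} (hcop : (Nat.card M).Coprime (Nat.card V))
    (h : (nrm M : V →+ V).ker = ⊥) : ∀ m ∈ M, ∀ v : V, m • v = v := by
  intro m hm v
  have h3 : Nat.card M • v - nrm M v ∈ (nrm M : V →+ V).ker := by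
    rw [AddMonoidHom.mem_ker, map_sub, map_nsmul, nrm_of_fix (nrm_mem_fix M v), sub_self]
  rw [h, AddSubgroup.mem_bot, sub_eq_zero] at h3
  have h4 : v ∈ (fix M : AddSubgroup V) := by
    apply mem_of_nsmul_mem hcop
    rw [h3]
    exact nrm_mem_fix M v
  exact h4 m hm

/-- the module part of the non-abelian case -/
lemma acts_trivially [Finite V] {M R Q : Subgroup G} (hRM : R ≤ normalizer (M : Set G))
    (hfpf : ∀ x ∈ R, x ≠ 1 → ∀ m ∈ M, x * m = m * x → m = 1)
    (hcop : (Nat.card M).Coprime (Nat.card V)) (hcyc : Cyc (fix R : AddSubgroup V)) {c : G}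
    (hcM : ∀ m ∈ M, c * m = m * c) (hcR : ∀ x ∈ R, c * x = x * c)
    (hQM : Q ≤ normalizer (M : Set G)) (hgen : ∀ m ∈ M, ∃ g ∈ Q, m = c * g * c⁻¹ * g⁻¹) :
    ∀ m ∈ M, ∀ v : V, m • v = v := by
  obtain ⟨n, hn⟩ := scalar hRM hfpf hcop hcyc hcM hcR
  apply smul_eq_of_ker_eq_bot hcop
  have hcN : c ∈ normalizer (M : Set G) := by
    rw [mem_normalizer_iff]
    intro m
    constructor
    · intro hm
      rw [hcM m hm, mul_inv_cancel_right]; exact hm
    · intro hm
      have h1 := hcM _ hm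
      have h2 : m = c * m * c⁻¹ := by
        have : c * (c * m * c⁻¹) * c⁻¹ = c * m * c⁻¹ := by rw [h1, mul_inv_cancel_right]
        have h3 : c * (c * m * c⁻¹) * c⁻¹ = c * (m) * c⁻¹ → c * m * c⁻¹ = m := by
          intro h
          have := mul_right_cancel (mul_left_cancel (by simpa [mul_assoc] using h :
            c * ((c * m * c⁻¹) * c⁻¹) = c * (m * c⁻¹)))
          exact this
        exact (h3 this).symm
      rw [h2]; exact hm
  have hinv : ∀ g ∈ normalizer (M : Set G), ∀ v ∈ (nrm M : V →+ V).ker, g • v ∈ (nrm M : V →+ V).ker := by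
    intro g hg v hv
    rw [AddMonoidHom.mem_ker] at hv ⊢
    rw [nrm_smul_of_mem_normalizer hg, hv, smul_zero]
  rw [eq_bot_iff]
  intro v hv
  have hfix : v ∈ (fix M : AddSubgroup V) := by
    intro m hm
    obtain ⟨g, hg, rfl⟩ := hgen m hm
    have hgN := hQM hg
    have hg' : g⁻¹ ∈ normalizer (M : Set G) := (normalizer (M : Set G)).inv_mem hgN
    have hc' : c⁻¹ ∈ normalizer (M : Set G) := (normalizer (M : Set G)).inv_mem hcN
    set v' := g⁻¹ • v with hv'
    have hv'k : v' ∈ (nrm M : V →+ V).ker := hinv _ hg' v hv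
    set v'' := c⁻¹ • v' with hv''
    have hv''k : v'' ∈ (nrm M : V →+ V).ker := hinv _ hc' v' hv'k
    have h1 : n • v'' = v' := by
      rw [← hn v'' hv''k, hv'', smul_inv_smul]
    calc (c * g * c⁻¹ * g⁻¹) • v = c • g • v'' := by
          rw [mul_smul, mul_smul, mul_smul]
      _ = n • g • v'' := hn _ (hinv _ hgN _ hv''k)
      _ = g • (n • v'') := by rw [smul_comm]
      _ = v := by rw [h1, hv', smul_inv_smul]
  have h5 : v ∈ (cw M M : AddSubgroup V) := ⟨hv, hfix⟩
  rw [cw_self_eq_bot hcop] at h5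
  exact h5

end Cfsg.Agent.Lib.Helper74BG36
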