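import Cfsg.Agent.Lib.Helper74BG36B

set_option autoImplicit false
set_option linter.unusedSectionVars false

/-! The semiregular case. -/

namespace Cfsg.Agent.Lib.Helper74BG36

open Cfsg.Agent.Lib.Helper36Frob Subgroup

variable {G V : Type*} [Group G] [Finite G] [AddCommGroup V] [DistribMulAction G V]

attribute [local instance] Cfsg.Agent.Lib.Helper36Frob.instFintypeSub

/-- the multiplicative version of the action -/
local instance instMDMA : MulDistribMulAction G (Multiplicative V) where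
  smul g v := Multiplicative.ofAdd (g • Multiplicative.toAdd v)
  one_smul v := by
    change Multiplicative.ofAdd ((1 : G) • Multiplicative.toAdd v) = v
    rw [one_smul]; rfl
  mul_smul g h v := by
    change Multiplicative.ofAdd ((g * h) • Multiplicative.toAdd v) =
      Multiplicative.ofAdd (g • (h • Multiplicative.toAdd v))
    rw [mul_smul]
  smul_mul g v w := by
    change Multiplicative.ofAdd (g • (Multiplicative.toAdd v + Multiplicative.toAdd w)) =
      Multiplicative.ofAdd (g • Multiplicative.toAdd v) * Multiplicative.ofAdd (g • Multiplicative.toAdd w)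
    rw [smul_add]; rfl
  smul_one g := by
    change Multiplicative.ofAdd (g • (0 : V)) = 1
    rw [smul_zero]; rfl

/-- an abelian group acting semiregularly on `W ≠ 0` is cyclic. -/
lemma isCyclic_of_Wt_bot [Finite V] {Q : Subgroup G} (hcop : (Nat.card Q).Coprime (Nat.card V))
    (hQc : ∀ a ∈ Q, ∀ b ∈ Q, a * b = b * a) (h : Wt V Q ⊥) : IsCyclic Q := by
  by_contra hnc
  let _ : CommGroup Q :=
    { (inferInstance : Group Q) with mul_comm := fun a b => Subtype.ext (hQc a a.2 b b.2) }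
  obtain ⟨s, w, z, hs, hw, hz, hw1, hzw⟩ := Cfsg.Agent.Lib.Helper30Gen.exists_rank_two (A := Q) hnc
  have : Fact s.Prime := ⟨hs⟩
  have hw' : (w : G) ^ s = 1 := congrArg Subtype.val hw
  have hz' : (z : G) ^ s = 1 := congrArg Subtype.val hz
  have hw1' : (w : G) ≠ 1 := fun e => hw1 (Subtype.ext e)
  have hmem : ∀ (g : G) (u : V), g ∈ Q → nrm Q u = 0 →
      nrm Q (Multiplicative.toAdd (Cfsg.Agent.Lib.Helper30Gen.nrm s g (Multiplicative.ofAdd u))) = 0 := by
    intro g u hg hu
    have h1 : Cfsg.Agent.Lib.Helper30Gen.nrm s g (Multiplicative.ofAdd u) ∈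
        AddSubgroup.toSubgroup ((nrm Q : V →+ V).ker) := by
      unfold Cfsg.Agent.Lib.Helper30Gen.nrm
      apply Subgroup.prod_mem
      intro i _
      change (g ^ i • u) ∈ (nrm Q : V →+ V).ker
      rw [AddMonoidHom.mem_ker, nrm_smul (Q.pow_mem hg i), hu]
    exact AddMonoidHom.mem_ker.mp h1
  have hzero : ∀ (g : G) (u : V), g ∈ Q → g ≠ 1 → g ^ s = 1 → nrm Q u = 0 →
      Cfsg.Agent.Lib.Helper30Gen.nrm s g (Multiplicative.ofAdd u) = 1 := by
    intro g u hg hg1 hgs hu
    have h1 : Multiplicative.toAdd (Cfsg.Agent.Lib.Helper30Gen.nrm s g (Multiplicative.ofAdd u)) ∈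
        (cw Q (zpowers g) : AddSubgroup V) := by
      refine ⟨AddMonoidHom.mem_ker.mpr (hmem g u hg hu), ?_⟩
      have h2 : zpowers g ≤ MulAction.stabilizer G
          (Multiplicative.toAdd (Cfsg.Agent.Lib.Helper30Gen.nrm s g (Multiplicative.ofAdd u))) := by
        rw [zpowers_le]
        exact congrArg Multiplicative.toAdd
          (Cfsg.Agent.Lib.Helper30Gen.smul_nrm hgs (Multiplicative.ofAdd u))
      exact fun d hd => h2 hd
    rw [h.max (zpowers g) (bot_lt_iff_ne_bot.mpr (zpowers_ne_bot.mpr hg1)) (zpowers_le.mpr hg)] at h1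
    have h3 : Multiplicative.toAdd (Cfsg.Agent.Lib.Helper30Gen.nrm s g (Multiplicative.ofAdd u)) = (0 : V) :=
      (AddSubgroup.mem_bot).mp h1
    exact congrArg Multiplicative.ofAdd h3
  apply h.ne
  rw [eq_bot_iff]
  intro u hu
  have hu0 : nrm Q u = 0 := AddMonoidHom.mem_ker.mp hu.1
  have key := Cfsg.Agent.Lib.Helper30Gen.norm_identity (M := G) (V := Multiplicative V) (r := s)
    (w := (w : G)) (z := (z : G)) (hQc w w.2 z z.2) hw' (Multiplicative.ofAdd u)
  rw [hzero w u w.2 hw1' hw' hu0, Finset.prod_eq_one, mul_one] at key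
  · have h2 := hzero w _ w.2 hw1' hw' (hmem z u z.2 hu0)
    rw [ofAdd_toAdd] at h2
    rw [h2, mul_one] at key
    have h3 : s • u = 0 := congrArg Multiplicative.toAdd key.symm
    have h4 : s ∣ Nat.card Q := by
      have : orderOf w = s := orderOf_eq_prime hw hw1
      rw [← this]
      exact orderOf_dvd_natCard w
    exact (AddSubgroup.mem_bot).mpr
      (eq_zero_of_nsmul (Nat.Coprime.coprime_dvd_left h4 hcop) h3)
  · intro j _
    apply hzero _ u (Q.mul_mem z.2 (Q.pow_mem w.2 j)) _ _ hu0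
    · intro e
      exact hzw j (Subtype.ext e)
    · have hc : Commute (z : G) ((w : G) ^ j) := (hQc z z.2 _ (Q.pow_mem w.2 j))
      rw [hc.mul_pow, hz', one_mul, ← pow_mul, mul_comm j s, pow_mul, hw', one_pow]

/-- `A = [A, x]` centralises a cyclic group normalised by `A` and `x`. -/
lemma le_centralizer_of_isCyclic {Q A : Subgroup G} {x : G} (hQ : IsCyclic Q)
    (hAQ : A ≤ normalizer (Q : Set G)) (hxQ : x ∈ normalizer (Q : Set G))
    (hxA : x ∈ normalizer (A : Set G)) (hf : ∀ a ∈ A, x * a = a * x → a = 1) :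
    A ≤ centralizer (Q : Set G) := by
  have hcomm : ∀ f g : MulAut Q, f * g = g * f := by
    intro f g
    apply (IsCyclic.mulAutMulEquiv Q).injective
    rw [map_mul, map_mul, mul_comm]
  intro a ha
  obtain ⟨b, hb, rfl⟩ := exists_comm_eq hxA hf ha
  rw [mem_centralizer_iff]
  intro q hq
  have h1 : Q.normalizerMonoidHom (⟨x, hxQ⟩ * ⟨b, hAQ hb⟩ * ⟨x, hxQ⟩⁻¹ * ⟨b, hAQ hb⟩⁻¹) = 1 := by
    rw [map_mul, map_mul, map_mul, map_inv, map_inv, hcomm (Q.normalizerMonoidHom ⟨x, hxQ⟩),
      mul_inv_cancel_right, mul_inv_cancel]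
  have h2 := congrArg (fun f : MulAut Q => ((f ⟨q, hq⟩ : Q) : G)) h1
  have h3 : (x * b * x⁻¹ * b⁻¹) * q * (x * b * x⁻¹ * b⁻¹)⁻¹ = q := h2
  exact (mul_inv_eq_iff_eq_mul.mp h3).symm

end Cfsg.Agent.Lib.Helper74BG36
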