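import Cfsg.Agent.Lib.Helper74BG36C

set_option autoImplicit false
set_option linter.unusedSectionVars false

/-! The abelian case. -/

namespace Cfsg.Agent.Lib.Helper74BG36

open Cfsg.Agent.Lib.Helper36Frob Subgroup

variable {G V : Type*} [Group G] [Finite G] [AddCommGroup V] [DistribMulAction G V]

omit [Finite G] in
lemma cj_inf (g : G) (H K : Subgroup G) : cj g (H ⊓ K) = cj g H ⊓ cj g K := by
  ext x
  simp only [mem_cj, mem_inf]

omit [Finite G] in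
lemma mem_normalizer_inf {g : G} {H K : Subgroup G} (h1 : g ∈ normalizer (H : Set G))
    (h2 : g ∈ normalizer (K : Set G)) : g ∈ normalizer ((H ⊓ K : Subgroup G) : Set G) := by
  rw [← cj_eq_iff, cj_inf, cj_eq_iff.mpr h1, cj_eq_iff.mpr h2]

omit [Finite G] in
lemma mem_normalizer_of_comm {Q D : Subgroup G} (hQc : ∀ a ∈ Q, ∀ b ∈ Q, a * b = b * a)
    (hD : D ≤ Q) {q : G} (hq : q ∈ Q) : q ∈ normalizer (D : Set G) := by
  rw [← cj_eq_iff]
  ext x
  rw [mem_cj]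
  constructor
  · intro hx
    have h1 : q⁻¹ * x * q ∈ Q := hD hx
    have h2 : x ∈ Q := by
      have := Q.mul_mem (Q.mul_mem hq h1) (Q.inv_mem hq)
      have e : q * (q⁻¹ * x * q) * q⁻¹ = x := by group
      rwa [e] at this
    have h3 : q⁻¹ * x * q = x := by
      rw [mul_assoc, hQc x h2 q hq, inv_mul_cancel_left]
    rwa [h3] at hx
  · intro hx
    have h3 : q⁻¹ * x * q = x := by
      rw [mul_assoc, hQc x (hD hx) q hq, inv_mul_cancel_left]
    rwa [h3]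

omit [Finite G] in
lemma eq_one_of_sq_of_pow {x : G} {n : ℕ} (h2 : x * x = 1) (hn : x ^ n = 1) (hodd : Nat.Coprime 2 n) :
    x = 1 := by
  have h1 : orderOf x ∣ 2 := orderOf_dvd_of_pow_eq_one (by rw [pow_two, h2])
  have h3 : orderOf x ∣ n := orderOf_dvd_of_pow_eq_one hn
  exact orderOf_eq_one_iff.mp (Nat.eq_one_of_dvd_coprimes hodd h1 h3)

theorem abelian_case [Finite V] {p r : ℕ} (hp : p.Prime) (hr : r.Prime) (hp2 : p ≠ 2) (hr2 : r ≠ 2)
    (hVp : ∀ v : V, p • v = 0) {Q A R : Subgroup G}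
    (hAQ : A ≤ normalizer (Q : Set G)) (hRQ : R ≤ normalizer (Q : Set G))
    (hRA : R ≤ normalizer (A : Set G))
    (hcop : (Nat.card Q).Coprime (Nat.card V))
    (hA : IsPGroup p A) (hA1 : A ≠ ⊥) (hR : Nat.card R = r)
    (hfpf : ∀ x ∈ R, x ≠ 1 → ∀ a ∈ A, x * a = a * x → a = 1)
    (hAmin : ∀ B ≤ A, R ≤ normalizer (B : Set G) → B = ⊥ ∨ B = A)
    (hQc : ∀ a ∈ Q, ∀ b ∈ Q, a * b = b * a)
    (hQA : ⁅Q, A⁆ = Q)
    (hQirr : ∀ X ≤ Q, X ≠ Q → A ≤ normalizer (X : Set G) → R ≤ normalizer (X : Set G) → X = ⊥)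
    (hW : (nrm Q : V →+ V).ker ≠ ⊥)
    (hcyc : Cyc (fix R : AddSubgroup V)) : False := by
  have hApow : ∀ a ∈ A, ∃ k : ℕ, a ^ (p ^ k) = 1 := by
    intro a ha
    obtain ⟨k, hk⟩ := hA ⟨a, ha⟩
    exact ⟨k, congrArg Subtype.val hk⟩
  have claim : ∀ D, Wt V Q D → (∀ x ∈ R, x ≠ 1 → cj x D ≠ D) → ¬ A ≤ normalizer (D : Set G) := by
    intro D hD hmov hAD
    have hU := hD.cyc hcop hQc hRQ hcyc hmov
    have hAU : ∀ a ∈ A, ∀ u ∈ (cw Q D : AddSubgroup V), a • u = u := by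
      intro a ha
      obtain ⟨k, hk⟩ := hApow a ha
      apply smul_eq_of_cyc hp hVp hU hk
      intro u hu
      have := smul_mem_cw (hAQ ha) hu
      rwa [cj_eq_iff.mpr (hAD ha)] at this
    have hQU : ∀ g ∈ Q, ∀ u ∈ (cw Q D : AddSubgroup V), g • u ∈ (cw Q D : AddSubgroup V) := by
      intro g hg u hu
      have := smul_mem_cw (le_normalizer hg) hu
      rwa [cj_eq_iff.mpr (mem_normalizer_of_comm hQc hD.le hg)] at this
    let K : Subgroup G :=
      { carrier := {g | ∀ v ∈ (cw Q D : AddSubgroup V), g • v = v}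
        mul_mem' := by
          intro g h hg hh v hv
          rw [mul_smul, hh v hv, hg v hv]
        one_mem' := fun v _ => one_smul G v
        inv_mem' := by
          intro g hg v hv
          rw [inv_smul_eq_iff, hg v hv] }
    have hK : ⁅Q, A⁆ ≤ K := by
      rw [commutator_le]
      intro g hg a ha v hv
      rw [commutatorElement_def, mul_smul, mul_smul, mul_smul, hAU _ (A.inv_mem ha) v hv,
        hAU a ha _ (hQU _ (Q.inv_mem hg) v hv), smul_inv_smul]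
    rw [hQA] at hK
    apply hD.ne
    rw [eq_bot_iff, ← cw_self_eq_bot (V := V) hcop]
    intro v hv
    exact ⟨hv.1, fun g hg => hK hg v hv⟩
  obtain ⟨D₀, hD₀⟩ := exists_Wt hW
  by_cases h4 : ∃ a ∈ A, R ≤ normalizer ((cj a D₀ : Subgroup G) : Set G)
  · obtain ⟨a₀, ha₀, hRD⟩ := h4
    have hD₂ : Wt V Q (cj a₀ D₀) := hD₀.conj (hAQ ha₀)
    generalize cj a₀ D₀ = D₂ at hRD hD₂
    have hD₂Q : D₂ ≠ Q := by
      intro e
      apply hD₂.ne
      rw [e]
      exact cw_self_eq_bot hcop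
    have hB : A ⊓ normalizer (D₂ : Set G) = ⊥ := by
      rcases hAmin (A ⊓ normalizer (D₂ : Set G)) inf_le_left
        (fun x hx => mem_normalizer_inf (hRA hx) (le_normalizer (hRD hx))) with h | h
      · exact h
      · exfalso
        have hAD : A ≤ normalizer (D₂ : Set G) := inf_eq_left.mp h
        have hbot := hQirr D₂ hD₂.le hD₂Q hAD hRD
        rw [hbot] at hD₂
        have hcycQ := isCyclic_of_Wt_bot hcop hQc hD₂
        obtain ⟨x, hx, hx1⟩ := exists_ne_one_of_prime hr hR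
        have hc := le_centralizer_of_isCyclic hcycQ hAQ (hRQ hx) (hRA hx) (hfpf x hx hx1)
        have h1 : ⁅Q, A⁆ = ⊥ := by
          rw [commutator_eq_bot_iff_le_centralizer]
          exact le_centralizer_iff.mp hc
        rw [hQA] at h1
        exact hD₂Q (hbot.trans h1.symm)
    have hmovb : ∀ b ∈ A, b ≠ 1 → ∀ x ∈ R, x ≠ 1 → cj x (cj b D₂) ≠ cj b D₂ := by
      intro b hb hb1 x hx hx1 h
      have h1 : b⁻¹ * (x * b * x⁻¹) ∈ A ⊓ normalizer (D₂ : Set G) := by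
        refine ⟨A.mul_mem (A.inv_mem hb) (conj_mem (hRA hx) hb), ?_⟩
        change _ ∈ normalizer (D₂ : Set G)
        rw [← cj_eq_iff]
        have e : b⁻¹ * (x * b * x⁻¹) = b⁻¹ * x * b * x⁻¹ := by group
        rw [e, cj_mul, cj_mul, cj_mul, cj_eq_iff.mpr (hRD (R.inv_mem hx)), h, cj_inv_cj]
      rw [hB, mem_bot] at h1
      have h2 : x * b = b * x := by
        have h3 : x * b * x⁻¹ = b := by
          have := congrArg (fun t => b * t) h1
          simpa using this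
        exact mul_inv_eq_iff_eq_mul.mp h3
      exact hb1 (hfpf x hx hx1 b hb h2)
    obtain ⟨a₁, ha₁, ha₁1⟩ : ∃ a ∈ A, a ≠ 1 := by
      by_contra h
      push Not at h
      exact hA1 ((Subgroup.eq_bot_iff_forall A).mpr h)
    have ha₁i : a₁⁻¹ ≠ 1 := fun h => ha₁1 (inv_eq_one.mp h)
    obtain ⟨x, hx, hxe⟩ := Wt.orbit hcop hQc hRQ hcyc (hD₂.conj (hAQ ha₁))
      (hD₂.conj (hAQ (A.inv_mem ha₁))) (hmovb a₁ ha₁ ha₁1) (hmovb a₁⁻¹ (A.inv_mem ha₁) ha₁i)
    have h1 : a₁ * (x * a₁ * x⁻¹) ∈ A ⊓ normalizer (D₂ : Set G) := by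
      refine ⟨A.mul_mem ha₁ (conj_mem (hRA hx) ha₁), ?_⟩
      change _ ∈ normalizer (D₂ : Set G)
      rw [← cj_eq_iff]
      have e : a₁ * (x * a₁ * x⁻¹) = a₁ * x * a₁ * x⁻¹ := by group
      rw [e, cj_mul, cj_mul, cj_mul, cj_eq_iff.mpr (hRD (R.inv_mem hx)), ← hxe, cj_cj_inv]
    rw [hB, mem_bot] at h1
    have h2 : x * a₁ * x⁻¹ = a₁⁻¹ := eq_inv_of_mul_eq_one_right h1
    have h3 : (x * x) * a₁ = a₁ * (x * x) := by
      have h4 : x * a₁⁻¹ * x⁻¹ = a₁ := by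
        have e : x * a₁⁻¹ * x⁻¹ = (x * a₁ * x⁻¹)⁻¹ := by group
        rw [e, h2, inv_inv]
      have h5 : (x * x) * a₁ * (x * x)⁻¹ = a₁ := by
        calc (x * x) * a₁ * (x * x)⁻¹ = x * (x * a₁ * x⁻¹) * x⁻¹ := by group
          _ = a₁ := by rw [h2, h4]
      exact mul_inv_eq_iff_eq_mul.mp h5
    by_cases hxx : x * x = 1
    · have hxr : x ^ r = 1 := by
        have : (⟨x, hx⟩ : R) ^ Nat.card R = 1 := pow_card_eq_one'
        rw [hR] at this
        exact congrArg Subtype.val this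
      have hx1 : x = 1 :=
        eq_one_of_sq_of_pow hxx hxr ((Nat.coprime_primes Nat.prime_two hr).mpr (Ne.symm hr2))
      rw [hx1] at h2
      have h6 : a₁ * a₁ = 1 := by
        have : a₁ = a₁⁻¹ := by simpa using h2
        calc a₁ * a₁ = a₁ * a₁⁻¹ := by rw [← this]
          _ = 1 := mul_inv_cancel a₁
      obtain ⟨k, hk⟩ := hApow a₁ ha₁
      exact ha₁1 (eq_one_of_sq_of_pow h6 hk
        (Nat.Coprime.pow_right k ((Nat.coprime_primes Nat.prime_two hp).mpr (Ne.symm hp2))))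
    · exact ha₁1 (hfpf _ (R.mul_mem hx hx) hxx a₁ ha₁ h3)
  · push Not at h4
    have hmov : ∀ a ∈ A, ∀ x ∈ R, x ≠ 1 → cj x (cj a D₀) ≠ cj a D₀ := by
      intro a ha
      exact (fixed_or_moved hr hR (cj a D₀)).resolve_left (h4 a ha)
    have hmov0 : ∀ x ∈ R, x ≠ 1 → cj x D₀ ≠ D₀ := by
      have := hmov 1 A.one_mem
      rwa [cj_one] at this
    have h5 := claim D₀ hD₀ hmov0
    obtain ⟨a, ha, haD⟩ := SetLike.not_le_iff_exists.mp h5
    have haD' : cj a D₀ ≠ D₀ := fun h => haD (cj_eq_iff.mp h)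
    obtain ⟨x, hx, hxe⟩ := Wt.orbit hcop hQc hRQ hcyc hD₀ (hD₀.conj (hAQ ha)) hmov0 (hmov a ha)
    have hx1 : x ≠ 1 := by
      rintro rfl
      rw [cj_one] at hxe
      exact haD' hxe
    obtain ⟨b, hb, hab⟩ := exists_comm_eq (hRA hx) (hfpf x hx hx1) ha
    apply hmov b⁻¹ (A.inv_mem hb) x⁻¹ (R.inv_mem hx) (fun h => hx1 (inv_eq_one.mp h))
    -- `x⁻¹ a = b x⁻¹ b⁻¹` normalises `D₀`
    have h6 : cj (x⁻¹ * a) D₀ = D₀ := by
      rw [cj_mul, hxe, cj_inv_cj]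
    have h7 : x⁻¹ * a = b * x⁻¹ * b⁻¹ := by
      rw [hab]; group
    rw [h7, cj_mul, cj_mul] at h6
    have h8 := congrArg (cj b⁻¹) h6
    rwa [cj_inv_cj] at h8

end Cfsg.Agent.Lib.Helper74BG36
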