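import Cfsg.Agent.Lib.Helper36Frob

set_option autoImplicit false
set_option linter.unusedSectionVars false

/-! Definitions and basic lemmas for the hard case of B-G Theorem 3.6. -/

namespace Cfsg.Agent.Lib.Helper74BG36

open Cfsg.Agent.Lib.Helper36Frob Subgroup

variable {G V : Type*} [Group G] [Finite G] [AddCommGroup V] [DistribMulAction G V]

/-- the conjugate subgroup `g D g⁻¹` -/
def cj (g : G) (D : Subgroup G) : Subgroup G := D.map (MulAut.conj g).toMonoidHom

omit [Finite G] in
lemma mem_cj {g x : G} {D : Subgroup G} : x ∈ cj g D ↔ g⁻¹ * x * g ∈ D := by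
  unfold cj
  constructor
  · rintro ⟨d, hd, rfl⟩
    have : g⁻¹ * ((MulAut.conj g).toMonoidHom d) * g = d := by
      simp [MulAut.conj_apply, mul_assoc]
    rw [this]; exact hd
  · intro h
    exact ⟨g⁻¹ * x * g, h, by simp [MulAut.conj_apply, mul_assoc]⟩

omit [Finite G] in
lemma conj_mem_cj {g d : G} {D : Subgroup G} (hd : d ∈ D) : g * d * g⁻¹ ∈ cj g D := by
  rw [mem_cj]
  have : g⁻¹ * (g * d * g⁻¹) * g = d := by group
  rw [this]; exact hd

omit [Finite G] in
lemma cj_one (D : Subgroup G) : cj 1 D = D := by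
  ext x; rw [mem_cj]; simp

omit [Finite G] in
lemma cj_mul (g h : G) (D : Subgroup G) : cj (g * h) D = cj g (cj h D) := by
  ext x
  rw [mem_cj, mem_cj, mem_cj]
  have : (g * h)⁻¹ * x * (g * h) = h⁻¹ * (g⁻¹ * x * g) * h := by group
  rw [this]

omit [Finite G] in
lemma cj_inv_cj (g : G) (D : Subgroup G) : cj g⁻¹ (cj g D) = D := by
  rw [← cj_mul, inv_mul_cancel, cj_one]

omit [Finite G] in
lemma cj_cj_inv (g : G) (D : Subgroup G) : cj g (cj g⁻¹ D) = D := by
  rw [← cj_mul, mul_inv_cancel, cj_one]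

omit [Finite G] in
lemma cj_le_cj {g : G} {D E : Subgroup G} : cj g D ≤ cj g E ↔ D ≤ E := by
  constructor
  · intro h d hd
    have := h (conj_mem_cj (g := g) hd)
    rw [mem_cj] at this
    have e : g⁻¹ * (g * d * g⁻¹) * g = d := by group
    rwa [e] at this
  · intro h x hx
    rw [mem_cj] at hx ⊢
    exact h hx

omit [Finite G] in
lemma cj_injective (g : G) : Function.Injective (cj g : Subgroup G → Subgroup G) := by
  intro D E h
  exact le_antisymm (cj_le_cj.mp h.le) (cj_le_cj.mp h.ge)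

omit [Finite G] in
lemma cj_lt_cj {g : G} {D E : Subgroup G} : cj g D < cj g E ↔ D < E := by
  rw [lt_iff_le_and_ne, lt_iff_le_and_ne, cj_le_cj, (cj_injective g).ne_iff]

omit [Finite G] in
lemma cj_eq_iff {g : G} {D : Subgroup G} : cj g D = D ↔ g ∈ normalizer (D : Set G) := by
  rw [mem_normalizer_iff]
  constructor
  · intro h x
    constructor
    · intro hx
      rw [← h]; exact conj_mem_cj hx
    · intro hx
      rw [← h, mem_cj] at hx
      have e : g⁻¹ * (g * x * g⁻¹) * g = x := by group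
      rwa [e] at hx
  · intro h
    ext x
    rw [mem_cj, h (g⁻¹ * x * g)]
    have e : g * (g⁻¹ * x * g) * g⁻¹ = x := by group
    rw [e]

omit [Finite G] in
lemma conj_mem {g x : G} {D : Subgroup G} (hg : g ∈ normalizer (D : Set G)) (hx : x ∈ D) :
    g * x * g⁻¹ ∈ D := (mem_normalizer_iff.mp hg x).mp hx

omit [Finite G] in
lemma conj_mem' {g x : G} {D : Subgroup G} (hg : g ∈ normalizer (D : Set G)) (hx : x ∈ D) :
    g⁻¹ * x * g ∈ D := by
  have := conj_mem ((normalizer (D : Set G)).inv_mem hg) hx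
  simpa using this

omit [Finite G] in
lemma card_cj (g : G) (D : Subgroup G) : Nat.card (cj g D) = Nat.card D :=
  Subgroup.card_map_of_injective (MulAut.conj g).injective

/-- `C_W(D)` for `W = ker (nrm Q)` (which plays the role of `[V, Q]`). -/
noncomputable def cw (Q D : Subgroup G) : AddSubgroup V := (nrm Q).ker ⊓ fix D

lemma mem_cw {Q D : Subgroup G} {v : V} :
    v ∈ (cw Q D : AddSubgroup V) ↔ nrm Q v = 0 ∧ ∀ d ∈ D, d • v = v := by
  unfold cw
  rw [AddSubgroup.mem_inf, AddMonoidHom.mem_ker, mem_fix]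

/-- every non-zero element generates (`U` has order `1` or a prime). -/
def Cyc (U : AddSubgroup V) : Prop := ∀ u ∈ U, ∀ w ∈ U, w ≠ 0 → ∃ n : ℕ, u = n • w

/-- `D` is maximal among the subgroups of `Q` with non-zero fixed points on `W`. -/
structure Wt (V : Type*) [AddCommGroup V] [DistribMulAction G V] (Q D : Subgroup G) : Prop where
  le : D ≤ Q
  ne : (cw Q D : AddSubgroup V) ≠ ⊥
  max : ∀ E : Subgroup G, D < E → E ≤ Q → (cw Q E : AddSubgroup V) = ⊥

end Cfsg.Agent.Lib.Helper74BG36
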