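import Cfsg.Agent.S0144
import Mathlib

set_option autoImplicit false

/-! Piece `gl23` of ASCH-SP: a perfect group of invertible elements of a copy of `M_2(F_3)` is trivial. -/

namespace Cfsg.Agent.Lib.Helper74SpGl23

open Matrix
open scoped MatrixGroups

variable {ι : Type} [Fintype ι] [DecidableEq ι] {F : Type*} [Field F]

theorem isSolvable_gl2_f3 [Fintype F] (hF : Fintype.card F = 3) :
    Group.IsSolvable (GL (Fin 2) F) := by
  have hcard : Nat.card (GL (Fin 2) F) = 2 ^ 4 * 3 ^ 1 := by
    rw [Matrix.card_GL_field, hF]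
    simp [Fin.prod_univ_two]
  exact Cfsg.Agent.S0144.result 2 3 4 1 Nat.prime_two Nat.prime_three hcard

/-- [gl23] a perfect group of invertible elements of a copy of `M_2(F_3)` is trivial. -/
theorem perfect_in_m2_f3 [Fintype F] (hF : Fintype.card F = 3)
    (φ : Matrix (Fin 2) (Fin 2) F →ₐ[F] Matrix ι ι F) (T : Subgroup (GL ι F))
    (hT : ∀ t ∈ T, (t : Matrix ι ι F) ∈ φ.range) (hperf : ⁅T, T⁆ = T) : T = ⊥ := by
  classical
  rcases isEmpty_or_nonempty ι with hι | hι
  · have : Subsingleton (GL ι F) := ⟨fun a b => Units.ext (Subsingleton.elim _ _)⟩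
    exact Subsingleton.elim _ _
  have hinj : Function.Injective φ := by
    have : Nontrivial (Matrix ι ι F) := inferInstance
    exact (φ : Matrix (Fin 2) (Fin 2) F →+* Matrix ι ι F).injective
  let ψ : GL (Fin 2) F →* GL ι F := Units.map (φ : Matrix (Fin 2) (Fin 2) F →* Matrix ι ι F)
  have hle : T ≤ ψ.range := by
    intro t ht
    obtain ⟨a, ha⟩ := hT t ht
    obtain ⟨b, hb⟩ := hT t⁻¹ (T.inv_mem ht)
    have hab : a * b = 1 := by
      apply hinj
      rw [map_mul, map_one]
      have h1 : φ a = (t : Matrix ι ι F) := ha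
      have h2 : φ b = ((t⁻¹ : GL ι F) : Matrix ι ι F) := hb
      rw [h1, h2, ← Units.val_mul, mul_inv_cancel, Units.val_one]
    have hba : b * a = 1 := by
      apply hinj
      rw [map_mul, map_one]
      have h1 : φ a = (t : Matrix ι ι F) := ha
      have h2 : φ b = ((t⁻¹ : GL ι F) : Matrix ι ι F) := hb
      rw [h1, h2, ← Units.val_mul, inv_mul_cancel, Units.val_one]
    refine ⟨⟨a, b, hab, hba⟩, ?_⟩
    apply Units.ext
    exact ha
  have hs : Group.IsSolvable (GL (Fin 2) F) := isSolvable_gl2_f3 hF
  have hs2 : Group.IsSolvable ψ.range := Group.isSolvable_of_surjective ψ.rangeRestrict_surjective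
  have hs3 : Group.IsSolvable T :=
    Group.isSolvable_of_isSolvable_injective (Subgroup.inclusion_injective hle)
  by_contra hne
  have hnt : Nontrivial T := (Subgroup.nontrivial_iff_ne_bot T).mpr hne
  have hlt := Group.IsSolvable.commutator_lt_top_of_nontrivial T
  apply hlt.ne
  apply Subgroup.map_injective T.subtype_injective
  rw [Subgroup.map_subtype_commutator, hperf, ← MonoidHom.range_eq_map, Subgroup.range_subtype]

end Cfsg.Agent.Lib.Helper74SpGl23
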