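import Cfsg.Agent.Lib.Helper74UDec
import Cfsg.Agent.Lib.Helper97UProper
import Cfsg.Agent.Lib.Helper67AschD

set_option autoImplicit false

/-! PROJECT 4 = ASCH-U, piece `planes2`. -/

namespace Cfsg.Agent.Lib.Helper74UPlanes2

open Cfsg Cfsg.Geo Matrix
open Cfsg.Agent.Lib.Helper97AschBase Cfsg.Agent.Lib.Helper97UBase Cfsg.Agent.Lib.Helper97UProper
  Cfsg.Agent.Lib.Helper98AschDefs Cfsg.Agent.Lib.Helper98AschBasic Cfsg.Agent.Lib.Helper13UDefs
  Cfsg.Agent.Lib.Helper74UDec
open scoped MatrixGroups Kronecker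

variable {n : ℕ} {F : Type*} [Field F] {σ : F ≃+* F} {f : (Fin n → F) → (Fin n → F) → F}

/-- a non-degenerate plane over the field with four elements has an orthonormal basis. -/
theorem exists_ON_plane [Fintype F] (hU : US σ f 2) {W : Submodule F (Fin n → F)}
    (hW : IsNondegenerateOn f W) (hdim : Module.finrank F W = 2) :
    ∃ u : Fin 2 → (Fin n → F), (∀ a, u a ∈ W) ∧ ∀ a a', f (u a) (u a') = if a = a' then 1 else 0 := by
  have hf := hU.unitary
  have h := herm_of_unitary hf
  have h0 : W ≠ ⊥ := by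
    intro hb
    rw [hb, finrank_bot] at hdim
    omega
  obtain ⟨u0, hu0, hne0⟩ := exists_nonsingular hf h0 hW
  have h00 : f u0 u0 = 1 := eq_one_of_fixed hU hne0 (hf.herm u0 u0).symm
  let W' : Submodule F (Fin n → F) := W ⊓ h.perp {u0}
  have hmemW' : ∀ x, x ∈ W' ↔ x ∈ W ∧ f x u0 = 0 := by
    intro x
    constructor
    · rintro ⟨h1, h2⟩
      exact ⟨h1, h2 u0 rfl⟩
    · rintro ⟨h1, h2⟩
      refine ⟨h1, ?_⟩
      intro u hu
      rw [Set.mem_singleton_iff.mp hu]
      exact h2
  have hproj : ∀ x ∈ W, x - f x u0 • u0 ∈ W' := by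
    intro x hx
    rw [hmemW']
    refine ⟨W.sub_mem hx (W.smul_mem _ hu0), ?_⟩
    rw [h.sub_left, h.smul_left, h00, mul_one, sub_self]
  have hW'0 : W' ≠ ⊥ := by
    have hnle : ¬ W ≤ Submodule.span F {u0} := by
      intro hle
      have h1 := Submodule.finrank_mono hle
      have h2 := finrank_span_le_card (R := F) ({u0} : Set (Fin n → F))
      simp at h2
      omega
    obtain ⟨v, hv, hvn⟩ := SetLike.not_le_iff_exists.mp hnle
    intro hb
    have h1 := hproj v hv
    rw [hb, Submodule.mem_bot, sub_eq_zero] at h1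
    apply hvn
    rw [h1]
    exact Submodule.smul_mem _ _ (Submodule.mem_span_singleton_self u0)
  have hW'nd : IsNondegenerateOn f W' := by
    intro w hw hw0
    obtain ⟨hwW, hwu⟩ := (hmemW' w).mp hw
    obtain ⟨x, hx, hxw⟩ := (hW w hwW hw0).1
    have hne : f (x - f x u0 • u0) w ≠ 0 := by
      rw [h.sub_left, h.smul_left, h.swap_zero hwu, mul_zero, sub_zero]
      exact hxw
    exact ⟨⟨_, hproj x hx, hne⟩, ⟨_, hproj x hx, h.swap_ne hne⟩⟩
  obtain ⟨u1, hu1, hne1⟩ := exists_nonsingular hf hW'0 hW'nd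
  have h11 : f u1 u1 = 1 := eq_one_of_fixed hU hne1 (hf.herm u1 u1).symm
  obtain ⟨hu1W, h10⟩ := (hmemW' u1).mp hu1
  have h01 : f u0 u1 = 0 := h.swap_zero h10
  refine ⟨![u0, u1], ?_, ?_⟩
  · intro a
    fin_cases a
    · exact hu0
    · exact hu1W
  · intro a a'
    fin_cases a <;> fin_cases a' <;> simp [h00, h01, h10, h11]

/-- [planes2] `q = 2`: a non-degenerate plane has exactly two non-singular points, and they are orthogonal. -/
theorem planes_two_u [Fintype F] (hU : US σ f 2) {t : ℕ} (D : Fin t → Submodule F (Fin n → F))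
    (hD : IsNondegenerateMDecomposition f 2 D) :
    ∃ D' : Fin n → Submodule F (Fin n → F), IsNondegenerateMDecomposition f 1 D' ∧
      decompositionStabilizer D ⊓ Iso f ≤ decompositionStabilizer D' := by
  classical
  have hf := hU.unitary
  have hn : n = t * 2 := Cfsg.Agent.Lib.Helper67AschD.decomp_card D hD.decomp
  have ht := hD.decomp.two_le
  let e : Fin n ≃ Fin t × Fin 2 := (finCongr hn).trans finProdFinEquiv.symm
  choose u hu1 hu2 using fun i => exists_ON_plane hU (hD.nondegenerate i) (hD.decomp.finrank_eq i)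
  let b : Fin n → Fin n → F := fun j => u (e j).1 (e j).2
  have hbmem : ∀ j, b j ∈ D (e j).1 := fun j => hu1 _ _
  have hb : ∀ i j, f (b i) (b j) = if i = j then 1 else 0 := by
    intro j j'
    by_cases h1 : (e j).1 = (e j').1
    · have e1 : b j' = u (e j).1 (e j').2 := by
        show u (e j').1 (e j').2 = _
        rw [h1]
      rw [e1]
      show f (u (e j).1 (e j).2) _ = _
      rw [hu2]
      by_cases h2 : (e j).2 = (e j').2
      · rw [if_pos h2, if_pos (e.injective (Prod.ext h1 h2))]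
      · rw [if_neg h2, if_neg]
        rintro rfl
        exact h2 rfl
    · rw [hD.orthogonal _ _ h1 _ (hbmem j) _ (hbmem j'), if_neg]
      rintro rfl
      exact h1 rfl
  obtain ⟨P, hP, hcol⟩ := exists_ON_of_family hf b hb
  have hD' : IsNondegenerateMDecomposition f 1 (blk P id) :=
    isNondegenerateMDecomposition_blk hP id (by omega) one_pos (by intro i; simp)
  refine ⟨blk P id, hD', ?_⟩
  rintro g ⟨⟨π, hπ⟩, hg2⟩
  apply mem_stab_of_le hD'.decomp
  intro j
  set w : Fin n → F := (g : Matrix (Fin n) (Fin n) F) *ᵥ b j with hw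
  have hwmem : w ∈ D (π (e j).1) := by
    rw [← hπ]
    exact ⟨b j, hbmem j, by rw [Matrix.toLin'_apply]⟩
  set y : Fin n → F := ((P⁻¹ : GL (Fin n) F) : Matrix (Fin n) (Fin n) F) *ᵥ w with hy
  have hyk : ∀ k, (e k).1 ≠ π (e j).1 → y k = 0 := by
    intro k hk
    rw [hy, coord_eq hP, hcol]
    exact hD.orthogonal _ _ (Ne.symm hk) _ hwmem _ (hbmem k)
  set j1 : Fin n := e.symm (π (e j).1, 0) with hj1
  set j2 : Fin n := e.symm (π (e j).1, 1) with hj2
  have hj12 : j1 ≠ j2 := by
    intro h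
    have := e.symm.injective h
    simp at this
  have hyk' : ∀ k, k ≠ j1 → k ≠ j2 → y k = 0 := by
    intro k h1 h2
    apply hyk
    intro hk
    have h3 : (e k).2 = 0 ∨ (e k).2 = 1 := by
      generalize (e k).2 = z
      fin_cases z
      · exact Or.inl rfl
      · exact Or.inr rfl
    rcases h3 with h3 | h3
    · apply h1
      rw [hj1, ← hk, ← h3, Prod.mk.eta, Equiv.symm_apply_apply]
    · apply h2
      rw [hj2, ← hk, ← h3, Prod.mk.eta, Equiv.symm_apply_apply]
  have hww : f w w = 1 := by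
    have h1 := hg2 (b j) (b j)
    change f ((g : Matrix (Fin n) (Fin n) F) *ᵥ _) ((g : Matrix (Fin n) (Fin n) F) *ᵥ _) = _ at h1
    rw [hb, if_pos rfl] at h1
    exact h1
  have hsum : y j1 * σ (y j1) + y j2 * σ (y j2) = 1 := by
    rw [← hww]
    conv_rhs => rw [← mul_inv_mulVec P w]
    rw [← hy, hP]
    symm
    apply Finset.sum_eq_add j1 j2 hj12
    · intro k _ hk
      rw [hyk' k hk.1 hk.2, zero_mul]
    · intro h
      exact absurd (Finset.mem_univ _) h
    · intro h
      exact absurd (Finset.mem_univ _) h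
  have hne : y j1 * σ (y j1) + y j2 * σ (y j2) ≠ 0 := by
    rw [hsum]
    exact one_ne_zero
  have hex : ∃ j', w ∈ blk P id j' := by
    rcases one_zero_of_norm_add_ne hU hne with ⟨_, h⟩ | ⟨h, _⟩
    · refine ⟨j1, fun k hk => ?_⟩
      by_cases hk2 : k = j2
      · rw [hk2]
        exact h
      · exact hyk' k hk hk2
    · refine ⟨j2, fun k hk => ?_⟩
      by_cases hk1 : k = j1
      · rw [hk1]
        exact h
      · exact hyk' k hk1 hk
  obtain ⟨j', hj'⟩ := hex
  refine ⟨j', fun v hv => ?_⟩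
  have hv' : v = (((P⁻¹ : GL (Fin n) F) : Matrix (Fin n) (Fin n) F) *ᵥ v) j • b j := by
    conv_lhs => rw [← mul_inv_mulVec P v, expand]
    rw [Finset.sum_eq_single j]
    · rw [hcol]
    · intro k _ hk
      rw [hv k hk, zero_smul]
    · intro h
      exact absurd (Finset.mem_univ _) h
  rw [hv', Matrix.mulVec_smul]
  exact Submodule.smul_mem _ _ hj'

end Cfsg.Agent.Lib.Helper74UPlanes2
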