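import Cfsg.Agent.Lib.Helper74UDec

set_option autoImplicit false

/-! PROJECT 4 = ASCH-U, piece `tensor2`. -/

namespace Cfsg.Agent.Lib.Helper74UTensor2

open Cfsg Cfsg.Geo Matrix
open Cfsg.Agent.Lib.Helper97AschBase Cfsg.Agent.Lib.Helper97UBase
  Cfsg.Agent.Lib.Helper98AschDefs Cfsg.Agent.Lib.Helper98AschBasic Cfsg.Agent.Lib.Helper13UDefs
  Cfsg.Agent.Lib.Helper74UDec
open scoped MatrixGroups Kronecker

variable {n : ℕ} {F : Type*} [Field F] {σ : F ≃+* F} {f : (Fin n → F) → (Fin n → F) → F}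

/-- [tensor2] `q = 2`: if `a ⊗ b` is an isometry then `a` is a similarity of the standard form on `F^2`, so it permutes the two
non-singular points `⟨e₀⟩, ⟨e₁⟩`; hence `a ⊗ b` permutes `D' i = P (e_i ⊗ F^s)`. -/
theorem tensor_two_u [Fintype F] (hU : US σ f 2) {s : ℕ} (hs : 0 < s) (e : Fin n ≃ Fin 2 × Fin s)
    {P : GL (Fin n) F} (hP : IsON σ f P) :
    ∃ D' : Fin 2 → Submodule F (Fin n → F), IsNondegenerateMDecomposition f s D' ∧
      tensorProductSubgroup 2 s e P ⊓ Iso f ≤ decompositionStabilizer D' := by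
  classical
  let c : Fin n → Fin 2 := fun j => (e j).1
  have hc : ∀ i, Fintype.card {j // c j = i} = s := by
    intro i
    have eq : {j // c j = i} ≃ Fin s :=
      { toFun := fun j => (e j.1).2
        invFun := fun k => ⟨e.symm (i, k), by simp [c]⟩
        left_inv := by
          rintro ⟨j, hj⟩
          apply Subtype.ext
          show e.symm (i, (e j).2) = j
          have : (i, (e j).2) = e j := Prod.ext hj.symm rfl
          rw [this, Equiv.symm_apply_apply]
        right_inv := by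
          intro k
          simp }
    rw [Fintype.card_congr eq, Fintype.card_fin]
  have hD := isNondegenerateMDecomposition_blk hP c le_rfl hs hc
  refine ⟨blk P c, hD, ?_⟩
  rintro g ⟨hg1, hg2⟩
  obtain ⟨a, b, hab⟩ := (mem_tensorProductSubgroup_iff e P g).mp hg1
  set M : Matrix (Fin n) (Fin n) F := Matrix.reindex e.symm e.symm
    ((a : Matrix (Fin 2) (Fin 2) F) ⊗ₖ (b : Matrix (Fin s) (Fin s) F)) with hM
  have hgP : ∀ x, (g : Matrix (Fin n) (Fin n) F) *ᵥ ((P : Matrix (Fin n) (Fin n) F) *ᵥ x) =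
      (P : Matrix (Fin n) (Fin n) F) *ᵥ (M *ᵥ x) := by
    intro x
    rw [hab]
    unfold tens
    rw [← hM, Matrix.mulVec_mulVec, Matrix.mulVec_mulVec, mul_assoc, ← Units.val_mul, inv_mul_cancel,
      Units.val_one, mul_one]
  have hMentry : ∀ k j, M k j = (a : Matrix (Fin 2) (Fin 2) F) (e k).1 (e j).1 *
      (b : Matrix (Fin s) (Fin s) F) (e k).2 (e j).2 := by
    intro k j
    simp [hM, Matrix.reindex_apply, Matrix.submatrix_apply, Matrix.kroneckerMap_apply]
  have hiso : ∀ j, ∑ k, M k j * σ (M k j) = 1 := by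
    intro j
    have h1 := hg2 ((P : Matrix (Fin n) (Fin n) F) *ᵥ Pi.single j 1)
      ((P : Matrix (Fin n) (Fin n) F) *ᵥ Pi.single j 1)
    change f ((g : Matrix (Fin n) (Fin n) F) *ᵥ _) ((g : Matrix (Fin n) (Fin n) F) *ᵥ _) = _ at h1
    rw [hgP, hP, form_col_right hP, Pi.single_eq_same] at h1
    have e1 : ∀ k, (M *ᵥ Pi.single j 1) k = M k j := by
      intro k
      simp [Matrix.mulVec_single_one, Matrix.col_apply]
    simp only [e1] at h1
    exact h1
  have hmono : ∀ i : Fin 2, ∃ i' : Fin 2, ∀ k : Fin 2, k ≠ i' →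
      (a : Matrix (Fin 2) (Fin 2) F) k i = 0 := by
    intro i
    have h1 := hiso (e.symm (i, ⟨0, hs⟩))
    simp only [hMentry, Equiv.apply_symm_apply] at h1
    rw [Fintype.sum_equiv e _ (fun p : Fin 2 × Fin s =>
      (a : Matrix (Fin 2) (Fin 2) F) p.1 i * (b : Matrix (Fin s) (Fin s) F) p.2 ⟨0, hs⟩ *
        σ ((a : Matrix (Fin 2) (Fin 2) F) p.1 i * (b : Matrix (Fin s) (Fin s) F) p.2 ⟨0, hs⟩))
      (fun k => rfl), Fintype.sum_prod_type] at h1
    have h2 : (∑ k : Fin 2, (a : Matrix (Fin 2) (Fin 2) F) k i * σ ((a : Matrix (Fin 2) (Fin 2) F) k i)) *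
        (∑ l : Fin s, (b : Matrix (Fin s) (Fin s) F) l ⟨0, hs⟩ *
          σ ((b : Matrix (Fin s) (Fin s) F) l ⟨0, hs⟩)) = 1 := by
      rw [← h1, Finset.sum_mul_sum]
      apply Finset.sum_congr rfl
      intro k _
      apply Finset.sum_congr rfl
      intro l _
      rw [map_mul]
      ring
    have h3 : (∑ k : Fin 2, (a : Matrix (Fin 2) (Fin 2) F) k i *
        σ ((a : Matrix (Fin 2) (Fin 2) F) k i)) ≠ 0 := by
      intro h0
      rw [h0, zero_mul] at h2
      exact zero_ne_one h2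
    rw [Fin.sum_univ_two] at h3
    rcases one_zero_of_norm_add_ne hU h3 with ⟨_, h⟩ | ⟨h, _⟩
    · refine ⟨0, fun k hk => ?_⟩
      have : k = 1 := by
        fin_cases k
        · exact absurd rfl hk
        · rfl
      rw [this]
      exact h
    · refine ⟨1, fun k hk => ?_⟩
      have : k = 0 := by
        fin_cases k
        · rfl
        · exact absurd rfl hk
      rw [this]
      exact h
  apply mem_stab_of_le hD.decomp
  intro i
  obtain ⟨i', hi'⟩ := hmono i
  refine ⟨i', fun v hv => ?_⟩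
  rw [← mul_inv_mulVec P v, hgP, mulVec_mem_blk]
  intro k hk
  simp only [Matrix.mulVec, dotProduct]
  apply Finset.sum_eq_zero
  intro j _
  by_cases hj : c j = i
  · rw [hMentry]
    have : (e j).1 = i := hj
    rw [this, hi' _ hk, zero_mul, zero_mul]
  · have := hv j hj
    simp only [Matrix.mulVec, dotProduct] at this
    rw [this, mul_zero]

end Cfsg.Agent.Lib.Helper74UTensor2
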