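import Cfsg.Agent.Lib.LeadAutConc

set_option autoImplicit false

namespace Cfsg.Agent.Lib.Helper75AutS4

open Cfsg Cfsg.Lie Cfsg.Lie.ChevalleyDatum
open Subgroup Cfsg.Agent.Lib.Helper23Grp Cfsg.Agent.Lib.Helper23RG Cfsg.Agent.Lib.Helper23RG.RG
  Cfsg.Agent.Lib.Helper23Weyl Cfsg.Agent.Lib.LeadAutDefs
  Cfsg.Agent.Lib.Helper23Table Cfsg.Agent.Lib.Helper23Chev Cfsg.Agent.Lib.LeadAutConc
open scoped MatrixGroups Matrix

variable {F : Type*} [Field F] {D : ChevalleyDatum}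

/-- an automorphism sending `x_r(t)` to `x_r(σ t)` acts through `σ` -/
theorem acts_of_all (hT : TableOK D) (hR : Rel D F) (σ : F ≃+* F) (φ : ↥(D.group F) ≃* ↥(D.group F))
    (h : ∀ (r : Fin D.nroots) (t : F), φ ((SG hT hR).x r t) = (SG hT hR).x r (σ t)) :
    Acts (SG hT hR) φ 1 (fun _ t => σ t) := by
  refine ⟨fun i t => ?_, fun i t _ => ?_, fun _ a b => map_add σ a b, fun _ => σ.bijective⟩
  · rw [h]; rfl
  · rw [h, map_neg, map_inv₀]; rfl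

/-- S4 : field automorphisms (uses C6, B8 as hypotheses) -/
theorem isField_iff (hT : TableOK D) (hR : Rel D F)
    (hC6 : ∀ σ : F ≃+* F, ∃ φ : ↥(D.group F) ≃* ↥(D.group F), D.IsFieldAut φ ∧
      ∀ (r : Fin D.nroots) (t : F), φ ((SG hT hR).x r t) = (SG hT hR).x r (σ t))
    (huniq : ∀ (θ θ' : ↥(D.group F) ≃* ↥(D.group F)) (ρ : Equiv.Perm (Fin D.rank)) (f : Fin D.rank → F → F),
      Acts (SG hT hR) θ ρ f → Acts (SG hT hR) θ' ρ f → θ = θ')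
    (φ : ↥(D.group F) ≃* ↥(D.group F)) :
    D.IsFieldAut φ ↔ ∃ σ : F ≃+* F, Acts (SG hT hR) φ 1 (fun _ t => σ t) := by
  constructor
  · rintro ⟨σ, h⟩
    refine ⟨σ, acts_of_all hT hR σ φ fun r t => ?_⟩
    rw [← eq_SG_x_iff hT hR]
    exact h _ r t r.2 (coe_SG_x hT hR r t)
  · rintro ⟨σ, h⟩
    obtain ⟨φ', h1, h2⟩ := hC6 σ
    rw [huniq φ φ' 1 _ h (acts_of_all hT hR σ φ' h2)]
    exact h1

end Cfsg.Agent.Lib.Helper75AutS4
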