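import Cfsg.Prelude.Def_ChevAutomorphisms

set_option autoImplicit false

namespace Cfsg.Agent.Lib.Helper75AutS5

open Cfsg Cfsg.Lie Cfsg.Lie.ChevalleyDatum
open scoped MatrixGroups Matrix

variable {F : Type*} [Field F] {D : ChevalleyDatum}

theorem charDiag_comm (χ χ' : ℕ → Fˣ) :
    D.charDiag F χ * D.charDiag F χ' = D.charDiag F χ' * D.charDiag F χ := by
  unfold ChevalleyDatum.charDiag
  rw [Matrix.diagonal_mul_diagonal, Matrix.diagonal_mul_diagonal]
  congr 1
  funext i
  exact mul_comm _ _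

/-- S5 : any two diagonal automorphisms commute -/
theorem diag_comm (d d' : MulAut ↥(D.group F)) (hd : D.IsDiagonalAut d) (hd' : D.IsDiagonalAut d') :
    d * d' = d' * d := by
  obtain ⟨χ, -, h⟩ := hd
  obtain ⟨χ', -, h'⟩ := hd'
  ext g : 1
  apply Subtype.ext
  apply Units.ext
  rw [MulAut.mul_apply, MulAut.mul_apply, h, h', h', h]
  simp only [← Matrix.mul_assoc]
  rw [charDiag_comm χ χ']
  simp only [Matrix.mul_assoc]
  rw [charDiag_comm (fun r => (χ' r)⁻¹) (fun r => (χ r)⁻¹)]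

end Cfsg.Agent.Lib.Helper75AutS5
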