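import Mathlib
import Cfsg.Agent.Lib.Helper60Core
import Cfsg.Agent.Lib.Helper6Small
import Cfsg.Agent.S0016

/-!
# Frobenius complements: basic lemmas on `2`-groups with a unique involution
-/

set_option autoImplicit false

namespace Cfsg.Agent.Lib.Helper75FcA

open Subgroup Cfsg

/-- a non-cyclic `2`-group with a unique involution has a cyclic subgroup of index `2` -/
theorem exists_cyclic_index_two {P : Type*} [Group P] [Finite P] (hP : IsPGroup 2 P)
    (huniq : ∀ u v : P, orderOf u = 2 → orderOf v = 2 → u = v) (hnc : ¬ IsCyclic P) :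
    ∃ b : P, (zpowers b).index = 2 := by
  have h1 : ∀ H K : Subgroup P, Nat.card H = 2 → Nat.card K = 2 → H = K := by
    intro H K hH hK
    obtain ⟨u, -, rfl⟩ := Cfsg.Agent.Lib.Helper6Small.eq_zpowers_of_prime_card Nat.prime_two hH
    obtain ⟨v, -, rfl⟩ := Cfsg.Agent.Lib.Helper6Small.eq_zpowers_of_prime_card Nat.prime_two hK
    rw [Nat.card_zpowers] at hH hK
    rw [huniq u v hH hK]
  rcases Cfsg.Agent.S0016.result (G := P) 2 hP h1 with h | ⟨-, n, ⟨e⟩⟩
  · exact absurd h hnc
  · have hne : NeZero (2 ^ n) := ⟨by positivity⟩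
    set C : Subgroup (QuaternionGroup (2 ^ n)) := zpowers (QuaternionGroup.a 1) with hC
    have hCidx : C.index = 2 := by
      have h2 := C.card_mul_index
      rw [hC, Nat.card_zpowers, QuaternionGroup.orderOf_a_one, Nat.card_eq_fintype_card,
        QuaternionGroup.card] at h2
      have h3 : 0 < 2 * 2 ^ n := by positivity
      apply Nat.eq_of_mul_eq_mul_left h3
      rw [h2]; ring
    refine ⟨e.symm (QuaternionGroup.a 1), ?_⟩
    have h4 : zpowers (e.symm (QuaternionGroup.a 1)) =
        C.map (e.symm : QuaternionGroup (2 ^ n) →* P) := by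
      rw [hC, MonoidHom.map_zpowers]
      rfl
    rw [h4, Subgroup.index_map_equiv, hCidx]

/-- squares of a non-cyclic `2`-group with a cyclic maximal subgroup -/
theorem sq_mem {T : Type*} [Group T] [Finite T] (hT : IsPGroup 2 T) (hnc : ¬ IsCyclic T)
    (b : T) (hb : (zpowers b).index = 2) (t : T) : t ^ 2 ∈ zpowers (b ^ 2) := by
  by_cases ht : t ∈ zpowers b
  · obtain ⟨k, rfl⟩ := ht
    refine ⟨k, ?_⟩
    simp only
    rw [← zpow_natCast, ← zpow_natCast, ← zpow_mul, ← zpow_mul, mul_comm]
  · obtain ⟨k, hk⟩ : t ^ 2 ∈ zpowers b := Subgroup.sq_mem_of_index_two hb t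
    simp only at hk
    rcases Int.even_or_odd' k with ⟨c, hc | hc⟩
    · refine ⟨c, ?_⟩
      simp only
      rw [← hk, hc, ← zpow_natCast, ← zpow_mul]
      norm_num
    · exfalso
      obtain ⟨l, hl⟩ := hT b
      -- `b` is a power of `b ^ k`
      have hcop : IsCoprime k ((2 : ℤ) ^ l) := by
        apply IsCoprime.pow_right
        rw [hc]
        exact ⟨1, -c, by ring⟩
      obtain ⟨u, v, huv⟩ := hcop
      have hbt : b ∈ zpowers t := by
        have h1 : b = (b ^ k) ^ u := by
          have h2 : b ^ ((2 : ℤ) ^ l) = 1 := by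
            have : ((2 : ℤ) ^ l) = ((2 ^ l : ℕ) : ℤ) := by push_cast; rfl
            rw [this, zpow_natCast, hl]
          calc b = b ^ (u * k + v * 2 ^ l) := by rw [huv, zpow_one]
            _ = (b ^ k) ^ u * (b ^ ((2 : ℤ) ^ l)) ^ v := by
                rw [zpow_add, ← zpow_mul, ← zpow_mul, mul_comm u k, mul_comm v]
            _ = (b ^ k) ^ u := by rw [h2, one_zpow, mul_one]
        rw [h1, hk]
        exact zpow_mem (pow_mem (mem_zpowers t) 2) u
      have hle : zpowers b ≤ zpowers t := by rwa [zpowers_le]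
      have hlt : zpowers b < zpowers t := lt_of_le_of_ne hle (fun h => ht (h ▸ mem_zpowers t))
      have htop : zpowers t = ⊤ := by
        have h1 := Subgroup.relIndex_mul_index hle
        rw [hb] at h1
        have h2 : (zpowers t).index ∣ 2 := Dvd.intro_left _ h1
        rcases (Nat.dvd_prime Nat.prime_two).1 h2 with h3 | h3
        · exact index_eq_one.1 h3
        · exfalso
          rw [h3] at h1
          have h4 : (zpowers b).relIndex (zpowers t) = 1 := by omega
          exact absurd (relIndex_eq_one.1 h4) (not_le_of_gt hlt)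
      exact hnc ⟨t, fun x => by
        have : x ∈ zpowers t := htop ▸ mem_top x
        exact this⟩

theorem index_sq {T : Type*} [Group T] [Finite T] (hT : IsPGroup 2 T) (hnc : ¬ IsCyclic T)
    (b : T) (hb : (zpowers b).index = 2) : (zpowers (b ^ 2)).index = 4 := by
  have h1 := (zpowers b).card_mul_index
  have h2 := (zpowers (b ^ 2)).card_mul_index
  rw [Nat.card_zpowers] at h1 h2
  rw [hb] at h1
  have heven : 2 ∣ orderOf b := by
    obtain ⟨l, hl⟩ := hT b
    obtain ⟨m, -, hm⟩ := (Nat.dvd_prime_pow Nat.prime_two).1 (orderOf_dvd_of_pow_eq_one hl)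
    rcases Nat.eq_zero_or_pos m with h0 | h0
    · exfalso
      rw [hm, h0, pow_zero, one_mul] at h1
      have : Fact (Nat.Prime 2) := ⟨Nat.prime_two⟩
      exact hnc (isCyclic_of_prime_card h1.symm)
    · rw [hm]
      exact dvd_pow_self 2 h0.ne'
  rw [orderOf_pow, Nat.gcd_eq_right heven] at h2
  obtain ⟨c, hc⟩ := heven
  have hc0 : 0 < c := by
    rcases Nat.eq_zero_or_pos c with h | h
    · rw [h, mul_zero] at hc
      exact absurd hc (orderOf_pos b).ne'
    · exact h
  rw [hc, Nat.mul_div_cancel_left c (by norm_num)] at h2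
  rw [hc, ← h2] at h1
  have : c * 4 = c * (zpowers (b ^ 2)).index := by rw [← h1]; ring
  exact (Nat.eq_of_mul_eq_mul_left hc0 this).symm

/-- an element of odd order centralizes every normal cyclic `2`-subgroup -/
theorem odd_centralizes {Y : Type*} [Group Y] [Finite Y] (B : Subgroup Y) [B.Normal]
    (hc : IsCyclic B) (h2 : IsPGroup 2 B) {x : Y} {r : ℕ} (hr : Odd r) (hx : x ^ r = 1) :
    x ∈ centralizer (B : Set Y) := by
  rw [← Cfsg.Agent.Lib.Helper60Core.ker_conjNormal, MonoidHom.mem_ker]
  obtain ⟨k, hk⟩ := Cfsg.Agent.Lib.Helper60Core.isPGroup_two_mulAut_of_isCyclic h2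
    (MulAut.conjNormal x : MulAut B)
  have h3 : (MulAut.conjNormal x : MulAut B) ^ r = 1 := by rw [← map_pow, hx, map_one]
  have h4 : Nat.Coprime (2 ^ k) r := Nat.Coprime.pow_left k (Nat.coprime_two_left.2 hr)
  have h5 := pow_gcd_eq_one.2 ⟨hk, h3⟩
  rwa [h4, pow_one] at h5

/-- an element killed by an odd number and by a power of two is trivial -/
theorem eq_one_of_odd_of_two {Y : Type*} [Group Y] {x : Y} {r k : ℕ} (hr : Odd r) (hx : x ^ r = 1)
    (hk : x ^ 2 ^ k = 1) : x = 1 := by
  have h4 : Nat.Coprime (2 ^ k) r := Nat.Coprime.pow_left k (Nat.coprime_two_left.2 hr)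
  have h5 := pow_gcd_eq_one.2 ⟨hk, hx⟩
  rwa [h4, pow_one] at h5

end Cfsg.Agent.Lib.Helper75FcA
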