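import Mathlib
import Cfsg.Agent.Lib.Helper75FcA
import Cfsg.Agent.Lib.Helper75FcB
import Cfsg.Agent.Lib.Helper1Fitting

/-!
# Frobenius complements: solvable groups with `O(Y) = 1` and quaternion Sylow `2`-subgroups
-/

set_option autoImplicit false

namespace Cfsg.Agent.Lib.Helper75FcC

open Subgroup Cfsg

theorem exists_hom_of_quotient_equiv {Y Z : Type*} [Group Y] [Group Z] (N : Subgroup Y) [N.Normal]
    (e : Nonempty (Y ⧸ N ≃* Z)) : ∃ f : Y →* Z, Function.Surjective f ∧ f.ker = N := by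
  obtain ⟨e⟩ := e
  refine ⟨e.toMonoidHom.comp (QuotientGroup.mk' N),
    e.surjective.comp (QuotientGroup.mk'_surjective N), ?_⟩
  ext g
  rw [MonoidHom.mem_ker]
  simp

theorem main_Y {Y : Type*} [Group Y] [Finite Y] [Group.IsSolvable Y] (hO : pPrimeCore 2 Y = ⊥)
    (Q : Sylow 2 Y) (huniq : ∀ u ∈ Q, ∀ v ∈ Q, orderOf u = 2 → orderOf v = 2 → u = v)
    (hnc : ¬ IsCyclic Q) :
    ∃ N : Subgroup Y, N.Normal ∧ IsCyclic N ∧ IsPGroup 2 N ∧
      ((∃ f : Y →* DihedralGroup 2, Function.Surjective f ∧ f.ker = N) ∨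
       (∃ f : Y →* alternatingGroup (Fin 4), Function.Surjective f ∧ f.ker = N) ∨
       (∃ f : Y →* Equiv.Perm (Fin 4), Function.Surjective f ∧ f.ker = N)) := by
  have : Fact (Nat.Prime 2) := ⟨Nat.prime_two⟩
  set T : Subgroup Y := pCore 2 Y with hT
  have hTn : T.Normal := Cfsg.Agent.Lib.Helper1Fitting.pCore_normal 2
  have hT2 : IsPGroup 2 T := Cfsg.Agent.Lib.Helper60Core.pCore_isPGroup 2
  have hTQ : T ≤ Q := hT2.le_sylow_of_normal Q
  have hC : centralizer (T : Set Y) ≤ T := Cfsg.Agent.Lib.Helper60Core.centralizer_pCore_le hO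
  have htop : IsPGroup 2 Y → T = ⊤ := fun h =>
    top_le_iff.1 (Cfsg.Agent.Lib.Helper60Core.le_pCore inferInstance (h.to_subgroup ⊤))
  have hTnc : ¬ IsCyclic T := by
    intro hc
    have h1 : IsPGroup 2 Y := Cfsg.Agent.Lib.Helper60Core.isPGroup_of_isPGroup_mulAut T
      (Cfsg.Agent.Lib.Helper60Core.isPGroup_two_mulAut_of_isCyclic hT2) (hT2.to_le hC)
    have h2 : (Q : Subgroup Y) = T := le_antisymm (by rw [htop h1]; exact le_top) hTQ
    apply hnc
    rw [h2]
    exact hc
  obtain ⟨b, hb⟩ := Cfsg.Agent.Lib.Helper75FcA.exists_cyclic_index_two hT2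
    (fun u v hu hv => Subtype.ext (huniq u (hTQ u.2) v (hTQ v.2)
      (by rwa [Subgroup.orderOf_coe]) (by rwa [Subgroup.orderOf_coe]))) hTnc
  set N : Subgroup Y := zpowers ((b : Y) ^ 2) with hN
  have hsq : ∀ t ∈ T, t ^ 2 ∈ N := by
    intro t ht
    obtain ⟨k, hk⟩ := Cfsg.Agent.Lib.Helper75FcA.sq_mem hT2 hTnc b hb ⟨t, ht⟩
    refine ⟨k, ?_⟩
    have := congrArg Subtype.val hk
    simpa using this
  have hNT : N ≤ T := by rw [hN, zpowers_le]; exact pow_mem b.2 2
  have hNn : N.Normal := by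
    constructor
    rintro _ ⟨k, rfl⟩ g
    simp only
    have h1 : g * ((b : Y) ^ 2) ^ k * g⁻¹ = ((g * b * g⁻¹) ^ 2) ^ k := by
      rw [conj_pow, conj_zpow]
    rw [h1]
    exact zpow_mem (hsq _ (hTn.conj_mem _ b.2 g)) k
  have hNc : IsCyclic N := by rw [hN]; infer_instance
  have hN2 : IsPGroup 2 N := hT2.to_le hNT
  have hrel : N.relIndex T = 4 := by
    have h1 : N.subgroupOf T = zpowers (b ^ 2) := by
      ext x
      rw [mem_subgroupOf, hN, mem_zpowers_iff, mem_zpowers_iff]
      constructor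
      · rintro ⟨k, hk⟩
        exact ⟨k, Subtype.ext (by simpa using hk)⟩
      · rintro ⟨k, hk⟩
        exact ⟨k, by simpa using congrArg Subtype.val hk⟩
    rw [relIndex, h1, Cfsg.Agent.Lib.Helper75FcA.index_sq hT2 hTnc b hb]
  set π := QuotientGroup.mk' N with hπ
  set V : Subgroup (Y ⧸ N) := T.map π with hV
  have hVn : V.Normal := hTn.map π (QuotientGroup.mk'_surjective N)
  have hVcard : Nat.card V = 4 := by
    have h1 := Subgroup.relIndex_comap (⊥ : Subgroup (Y ⧸ N)) π T
    rw [relIndex_bot_left] at h1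
    rw [hV, ← h1, MonoidHom.comap_bot, hπ, QuotientGroup.ker_mk', hrel]
  have hV2 : ∀ v ∈ V, v ^ 2 = 1 := by
    rintro _ ⟨t, ht, rfl⟩
    rw [← map_pow]
    exact (QuotientGroup.eq_one_iff _).2 (hsq t ht)
  have hVC : centralizer (V : Set (Y ⧸ N)) ≤ V := by
    set D : Subgroup Y := (centralizer (V : Set (Y ⧸ N))).comap π with hD
    have hDn : D.Normal := inferInstance
    have hmem : ∀ x ∈ D, ∀ t ∈ T, t⁻¹ * (x * t * x⁻¹) ∈ N := by
      intro x hx t ht
      have h1 : π t * π x = π x * π t := mem_centralizer_iff.1 hx (π t) ⟨t, ht, rfl⟩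
      rw [← QuotientGroup.eq_one_iff]
      change π (t⁻¹ * (x * t * x⁻¹)) = 1
      rw [map_mul, map_mul, map_mul, map_inv, map_inv, ← h1]
      group
    have hodd : ∀ y ∈ D, ∀ r, Odd r → y ^ r = 1 → y = 1 := by
      intro y hy r hr hyr
      have hyN := Cfsg.Agent.Lib.Helper75FcA.odd_centralizes N hNc hN2 hr hyr
      have hyT : y ∈ centralizer (T : Set Y) := by
        rw [mem_centralizer_iff]
        intro t ht
        set n := t⁻¹ * (y * t * y⁻¹) with hn
        have hnN : n ∈ N := hmem y hy t ht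
        have hcomm : n * y = y * n := mem_centralizer_iff.1 hyN n hnN
        have hpow : ∀ j : ℕ, y ^ j * t * (y ^ j)⁻¹ = t * n ^ j := by
          intro j
          induction j with
          | zero => simp
          | succ j ih =>
            have h1 : y * t * y⁻¹ = t * n := by rw [hn]; group
            have h2 : y * n ^ j * y⁻¹ = n ^ j := by
              have h3 : Commute y n := hcomm.symm
              rw [(h3.pow_right j).eq]; group
            calc y ^ (j + 1) * t * (y ^ (j + 1))⁻¹ = y * (y ^ j * t * (y ^ j)⁻¹) * y⁻¹ := by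
                  rw [pow_succ']; group
              _ = y * (t * n ^ j) * y⁻¹ := by rw [ih]
              _ = (y * t * y⁻¹) * (y * n ^ j * y⁻¹) := by group
              _ = (t * n) * n ^ j := by rw [h1, h2]
              _ = t * n ^ (j + 1) := by rw [pow_succ', mul_assoc]
        have h1 := hpow r
        rw [hyr] at h1
        have h2 : n ^ r = 1 := by simpa using h1.symm
        obtain ⟨k, hk⟩ := hN2 ⟨n, hnN⟩
        have h3 : n = 1 := Cfsg.Agent.Lib.Helper75FcA.eq_one_of_odd_of_two hr h2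
          (by simpa using congrArg Subtype.val hk)
        calc t * y = t * n * y := by rw [h3, mul_one]
          _ = y * t := by rw [hn]; group
      obtain ⟨k, hk⟩ := hT2 ⟨y, hC hyT⟩
      exact Cfsg.Agent.Lib.Helper75FcA.eq_one_of_odd_of_two hr hyr
        (by simpa using congrArg Subtype.val hk)
    have hD2 : IsPGroup 2 D := by
      rintro ⟨x, hx⟩
      obtain ⟨a, r, hr, har⟩ := Nat.exists_eq_two_pow_mul_odd (orderOf_pos x).ne'
      refine ⟨a, Subtype.ext ?_⟩
      apply hodd (x ^ (2 ^ a)) (pow_mem hx _) r hr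
      rw [← pow_mul, ← har, pow_orderOf_eq_one]
    have hDT : D ≤ T := Cfsg.Agent.Lib.Helper60Core.le_pCore hDn hD2
    intro v hv
    obtain ⟨x, rfl⟩ := QuotientGroup.mk'_surjective N v
    exact ⟨x, hDT hv, rfl⟩
  have h6 := Cfsg.Agent.Lib.Helper75FcB.index_dvd_six V hVcard hV2 hVC
  have hcard := V.card_mul_index
  rw [hVcard] at hcard
  refine ⟨N, hNn, hNc, hN2, ?_⟩
  have hdiv : V.index = 1 ∨ V.index = 2 ∨ V.index = 3 ∨ V.index = 6 := by
    have h1 : V.index ∈ Nat.divisors 6 := by simp [h6]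
    have h2 : Nat.divisors 6 = {1, 2, 3, 6} := by decide
    simpa [h2] using h1
  rcases hdiv with h | h | h | h
  · left
    apply exists_hom_of_quotient_equiv
    have hx2 : ∀ x : Y ⧸ N, x ^ 2 = 1 := fun x => hV2 x (by rw [index_eq_one.1 h]; trivial)
    have hK : IsKleinFour (Y ⧸ N) :=
      { card_four := by rw [← hcard, h]
        exponent_two := by
          have h1 : Monoid.exponent (Y ⧸ N) ∣ 2 := Monoid.exponent_dvd_of_forall_pow_eq_one hx2
          rcases (Nat.dvd_prime Nat.prime_two).1 h1 with h2 | h2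
          · exfalso
            have h3 := Monoid.exp_eq_one_iff.1 h2
            have h4 : Nat.card (Y ⧸ N) = 1 := Nat.card_unique
            rw [h] at hcard
            omega
          · exact h2 }
    exact IsKleinFour.nonempty_mulEquiv
  · exfalso
    obtain ⟨k, hk⟩ := hN2.exists_card_eq
    have h1 : Nat.card Y = 2 ^ (k + 3) := by
      rw [Subgroup.card_eq_card_quotient_mul_card_subgroup N, ← hcard, h, hk]
      ring
    have h2 := htop (IsPGroup.of_card h1)
    rw [hV, h2, Subgroup.map_top_of_surjective π (QuotientGroup.mk'_surjective N),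
      index_top] at h
    omega
  · right; left
    apply exists_hom_of_quotient_equiv
    exact Cfsg.Agent.Lib.Helper75FcB.a4_of_card (by rw [← hcard, h]) V hVcard hV2 hVC
  · right; right
    apply exists_hom_of_quotient_equiv
    exact Cfsg.Agent.Lib.Helper40P8s4.s4_of_card (by rw [← hcard, h]) V hVcard hV2 hVC

end Cfsg.Agent.Lib.Helper75FcC
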