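import Mathlib
import Cfsg.Agent.Lib.Helper75FcC
import Cfsg.Agent.Lib.Helper75ZaSYL

/-!
# Frobenius complements: existence of the core, solvable case
-/

set_option autoImplicit false

namespace Cfsg.Agent.Lib.Helper75FcD

open Subgroup Cfsg

variable {G : Type*} [Group G] [Finite G]

theorem isZGroup_of_two
    (hcyc : ∀ A : Subgroup G, (∀ a ∈ A, ∀ b ∈ A, a * b = b * a) → IsCyclic A)
    (N : Subgroup G) (h2 : ∀ P : Sylow 2 N, IsCyclic P) : IsZGroup N := by
  refine ⟨fun p hp P => ?_⟩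
  have : Fact p.Prime := ⟨hp⟩
  by_cases hp2 : p = 2
  · subst hp2
    exact h2 P
  · apply Cfsg.Agent.Lib.Helper75ZaSYL.sylow_cyclic (H := N) _ p hp2 P
    intro A hA
    apply Cfsg.Agent.Lib.Helper75ZaSYL.abelian_cyclic_sub hcyc N A
    exact ⟨⟨fun a b => Subtype.ext (hA a.1 a.2 b.1 b.2)⟩⟩

theorem isZGroup_of_two_top
    (hcyc : ∀ A : Subgroup G, (∀ a ∈ A, ∀ b ∈ A, a * b = b * a) → IsCyclic A)
    (Q : Sylow 2 G) (h2 : IsCyclic Q) : IsZGroup G := by
  refine ⟨fun p hp P => ?_⟩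
  have : Fact p.Prime := ⟨hp⟩
  by_cases hp2 : p = 2
  · subst hp2
    exact isCyclic_of_surjective (Sylow.equiv Q P) (Sylow.equiv Q P).surjective
  · exact Cfsg.Agent.Lib.Helper75ZaSYL.sylow_cyclic hcyc p hp2 P

omit [Finite G] in
theorem eq_one_of_mem_of_two (K : Subgroup G) [Finite K] (hK : (Nat.card K).Coprime 2) {x : G}
    (hxK : x ∈ K) {k : ℕ} (hk : x ^ 2 ^ k = 1) : x = 1 := by
  have h1 : x ^ Nat.card K = 1 := by
    have h2 := congrArg Subtype.val (pow_card_eq_one' (G := K) (x := ⟨x, hxK⟩))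
    rwa [Subgroup.coe_pow, Subgroup.coe_one] at h2
  exact Cfsg.Agent.Lib.Helper75FcA.eq_one_of_odd_of_two (Nat.coprime_two_right.1 hK) h1 hk

theorem exists_solvable (hinv : ∀ a b : G, orderOf a = 2 → orderOf b = 2 → a = b)
    (hcyc : ∀ A : Subgroup G, (∀ a ∈ A, ∀ b ∈ A, a * b = b * a) → IsCyclic A)
    (hs : Group.IsSolvable G) :
    ∃ N : Subgroup G, N.Normal ∧ IsZGroup N ∧
      (N = ⊤ ∨
        (∃ f : G →* DihedralGroup 2, Function.Surjective f ∧ f.ker = N) ∨
        (∃ f : G →* alternatingGroup (Fin 4), Function.Surjective f ∧ f.ker = N) ∨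
        (∃ f : G →* Equiv.Perm (Fin 4), Function.Surjective f ∧ f.ker = N)) := by
  have : Fact (Nat.Prime 2) := ⟨Nat.prime_two⟩
  obtain ⟨Q⟩ : Nonempty (Sylow 2 G) := inferInstance
  by_cases hQ : IsCyclic Q
  · have := isZGroup_of_two_top hcyc Q hQ
    exact ⟨⊤, inferInstance, inferInstance, Or.inl rfl⟩
  · set K : Subgroup G := pPrimeCore 2 G with hK
    have hKn : K.Normal := Cfsg.Agent.Lib.Helper1Fitting.pPrimeCore_normal 2
    have hKc : (Nat.card K).Coprime 2 := Cfsg.Agent.Lib.Helper60Core.card_pPrimeCore_coprime 2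
    have hO : pPrimeCore 2 (G ⧸ K) = ⊥ := Cfsg.Agent.Lib.Helper60Core.pPrimeCore_quotient_eq_bot 2
    set π := QuotientGroup.mk' K with hπ
    have hπs : Function.Surjective π := QuotientGroup.mk'_surjective K
    have hinj : ∀ R : Subgroup G, IsPGroup 2 R → Function.Injective (π.comp R.subtype) := by
      intro R hR
      rw [injective_iff_map_eq_one]
      intro x hx
      have h1 : (x : G) ∈ K := (QuotientGroup.eq_one_iff _).1 hx
      obtain ⟨k, hk⟩ := hR x
      exact Subtype.ext (eq_one_of_mem_of_two K hKc h1 (by simpa using congrArg Subtype.val hk))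
    obtain ⟨N', hN'n, hN'c, hN'2, hN'⟩ := Cfsg.Agent.Lib.Helper75FcC.main_Y hO
      (Q.mapSurjective hπs) (by
        rintro _ ⟨u, hu, rfl⟩ _ ⟨v, hv, rfl⟩ h1 h2
        have h3 := orderOf_injective (π.comp (Q : Subgroup G).subtype) (hinj Q Q.2) ⟨u, hu⟩
        have h4 := orderOf_injective (π.comp (Q : Subgroup G).subtype) (hinj Q Q.2) ⟨v, hv⟩
        rw [Subgroup.orderOf_mk] at h3 h4
        rw [hinv u v (h3 ▸ h1) (h4 ▸ h2)]) (by
        intro hc
        apply hQ
        have hc' : IsCyclic ((Q : Subgroup G).map π) := hc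
        apply isCyclic_of_injective (π.subgroupMap (Q : Subgroup G))
        intro x y hxy
        apply hinj Q Q.2
        exact congrArg Subtype.val hxy)
    refine ⟨N'.comap π, inferInstance, ?_, Or.inr ?_⟩
    · apply isZGroup_of_two hcyc
      intro P
      let φ : (P : Subgroup (N'.comap π)) →* N' :=
        { toFun := fun x => ⟨π x.1.1, x.1.2⟩
          map_one' := by ext; simp
          map_mul' := by intro x y; ext; simp }
      apply isCyclic_of_injective φ
      rw [injective_iff_map_eq_one]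
      intro x hx
      have h1 : (x.1.1 : G) ∈ K := (QuotientGroup.eq_one_iff _).1 (congrArg Subtype.val hx)
      obtain ⟨k, hk⟩ := P.2 x
      apply Subtype.ext
      apply Subtype.ext
      exact eq_one_of_mem_of_two K hKc h1
        (by simpa using congrArg Subtype.val (congrArg Subtype.val hk))
    · rcases hN' with ⟨f, hf, hk⟩ | ⟨f, hf, hk⟩ | ⟨f, hf, hk⟩
      · exact Or.inl ⟨f.comp π, hf.comp hπs, by rw [← hk, MonoidHom.comap_ker]⟩
      · exact Or.inr (Or.inl ⟨f.comp π, hf.comp hπs, by rw [← hk, MonoidHom.comap_ker]⟩)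
      · exact Or.inr (Or.inr ⟨f.comp π, hf.comp hπs, by rw [← hk, MonoidHom.comap_ker]⟩)

end Cfsg.Agent.Lib.Helper75FcD
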