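import Mathlib
import Cfsg.Agent.Lib.Helper75FcD
import Cfsg.Agent.Lib.Helper75ZaG1
import Cfsg.Agent.Lib.Helper28ZaG7a
import Cfsg.Agent.Lib.Helper28ZaG7b
import Cfsg.Agent.Lib.Helper40P8s5

/-!
# Frobenius complements: existence of the core, non-solvable case
-/

set_option autoImplicit false

namespace Cfsg.Agent.Lib.Helper75FcE

open Subgroup Cfsg Cfsg.Agent.Lib.Helper71ZaDefs

variable {G : Type*} [Group G] [Finite G]

theorem exists_nonsolvable (hZ : ZG G) (S : Subgroup G) [hSn : S.Normal]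
    (φ : S →* alternatingGroup (Fin 5)) (hφ : Function.Surjective φ) (hk : Nat.card φ.ker = 2) :
    ∃ N : Subgroup G, N.Normal ∧ IsZGroup N ∧
      ((∃ f : G →* alternatingGroup (Fin 5), Function.Surjective f ∧ f.ker = N) ∨
       (∃ f : G →* Equiv.Perm (Fin 5), Function.Surjective f ∧ f.ker = N)) := by
  obtain ⟨M, hMn, hMc, hSM, hsup, hcop, -⟩ :=
    Cfsg.Agent.Lib.Helper28ZaG7b.centralizer_structure hZ S φ hφ hk
  have hidx := Cfsg.Agent.Lib.Helper28ZaG7a.index_sup_centralizer hZ S φ hφ hk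
  have hinvS : ∀ a b : S, orderOf a = 2 → orderOf b = 2 → a = b := fun a b ha hb =>
    Subtype.ext (hZ.invol a b (by rwa [Subgroup.orderOf_coe]) (by rwa [Subgroup.orderOf_coe]))
  have hperf : commutator S = ⊤ := Cfsg.Agent.Lib.Helper28ZaBase.commutator_eq_top hinvS φ hφ hk
  obtain ⟨y, hy1, hy⟩ := Cfsg.Agent.Lib.Helper6Small.eq_zpowers_of_prime_card Nat.prime_two hk
  have hyo : orderOf y = 2 := by rw [← Nat.card_zpowers, ← hy, hk]
  set z : G := (y : G) with hz
  have hzo : orderOf z = 2 := by rw [hz, Subgroup.orderOf_coe, hyo]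
  have hzS : z ∈ S := y.2
  have hzc : ∀ g : G, g * z * g⁻¹ = z := by
    intro g
    apply hZ.invol _ _ _ hzo
    rw [← hzo]
    exact (MulAut.conj g).orderOf_eq z
  have hzc' : ∀ g : G, ∀ w ∈ zpowers z, g * w = w * g := by
    rintro g _ ⟨k, rfl⟩
    have h1 : Commute g z := by
      calc g * z = (g * z * g⁻¹) * g := by group
        _ = z * g := by rw [hzc]
    exact (h1.zpow_right k).eq
  have hZn : (zpowers z).Normal := by
    constructor
    intro w hw g
    rw [hzc' g w hw]
    simpa using hw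
  set N : Subgroup G := zpowers z ⊔ M with hN
  have hNn : N.Normal := inferInstance
  have hmemN : ∀ x : G, x ∈ N ↔ ∃ w ∈ zpowers z, ∃ m ∈ M, x = w * m := by
    intro x
    rw [hN, ← SetLike.mem_coe, Subgroup.mul_normal, Set.mem_mul]
    constructor
    · rintro ⟨w, hw, m, hm, rfl⟩
      exact ⟨w, hw, m, hm, rfl⟩
    · rintro ⟨w, hw, m, hm, rfl⟩
      exact ⟨w, hw, m, hm, rfl⟩
  have hzpS : zpowers z ≤ S := by rwa [zpowers_le]
  have hSM' : ∀ x ∈ S, x ∈ M → x = 1 := by
    intro x h1 h2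
    have : x ∈ S ⊓ M := ⟨h1, h2⟩
    rwa [hSM, mem_bot] at this
  have hNS : ∀ x ∈ N, x ∈ S → x ∈ zpowers z := by
    intro x hx hxS
    obtain ⟨w, hw, m, hm, rfl⟩ := (hmemN x).1 hx
    have h1 : m ∈ S := by
      have : m = w⁻¹ * (w * m) := by group
      rw [this]
      exact mul_mem (inv_mem (hzpS hw)) hxS
    rw [hSM' m h1 hm, mul_one]
    exact hw
  have hModd : (Nat.card M).Coprime 2 := Nat.Coprime.coprime_dvd_right (by norm_num) hcop
  have hNZ : IsZGroup N := by
    apply Cfsg.Agent.Lib.Helper75FcD.isZGroup_of_two hZ.cyc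
    intro P
    apply Cfsg.Agent.Lib.Helper75ZaSYL.abelian_cyclic_sub hZ.cyc N P
    have hP : ∀ x : P, (x.1.1 : G) ∈ zpowers z := by
      intro x
      obtain ⟨w, hw, m, hm, hx⟩ := (hmemN x.1.1).1 x.1.2
      obtain ⟨k, hk'⟩ := P.2 x
      have h1 : (x.1.1 : G) ^ 2 ^ k = 1 := by
        simpa using congrArg Subtype.val (congrArg Subtype.val hk')
      have h2 : Commute w m := (hzc' m w hw).symm
      rw [hx, h2.mul_pow] at h1
      have h3 : m ^ 2 ^ k ∈ S := by
        have : m ^ 2 ^ k = (w ^ 2 ^ k)⁻¹ := by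
          rw [eq_inv_iff_mul_eq_one, ← (h2.pow_pow _ _).eq, h1]
        rw [this]
        exact inv_mem (pow_mem (hzpS hw) _)
      have h4 := hSM' _ h3 (pow_mem hm _)
      have h5 := Cfsg.Agent.Lib.Helper75FcD.eq_one_of_mem_of_two M hModd hm h4
      rw [hx, h5, mul_one]
      exact hw
    refine ⟨⟨fun a b => ?_⟩⟩
    apply Subtype.ext
    apply Subtype.ext
    exact hzc' _ _ (hP b)
  refine ⟨N, hNn, hNZ, ?_⟩
  set π := QuotientGroup.mk' N with hπ
  have hπs : Function.Surjective π := QuotientGroup.mk'_surjective N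
  set h : S →* G ⧸ N := π.comp S.subtype with hh
  have hker : h.ker = φ.ker := by
    ext x
    rw [hy, MonoidHom.mem_ker]
    change π (x : G) = 1 ↔ _
    rw [hπ, QuotientGroup.mk'_apply, QuotientGroup.eq_one_iff]
    constructor
    · intro hx
      obtain ⟨k, hk'⟩ := hNS _ hx x.2
      exact ⟨k, Subtype.ext (by simpa using hk')⟩
    · rintro ⟨k, rfl⟩
      rw [hN]
      apply mem_sup_left
      exact ⟨k, by simp [hz]⟩
  let eA : h.range ≃* alternatingGroup (Fin 5) :=
    (QuotientGroup.quotientKerEquivRange h).symm.trans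
      ((QuotientGroup.quotientMulEquivOfEq hker).trans
        (QuotientGroup.quotientKerEquivOfSurjective φ hφ))
  have hrange : h.range = (S ⊔ M).map π := by
    apply le_antisymm
    · rintro _ ⟨s, rfl⟩
      exact ⟨s, mem_sup_left s.2, rfl⟩
    · rintro _ ⟨x, hx, rfl⟩
      rw [Subgroup.mul_normal, Set.mem_mul] at hx
      obtain ⟨s, hs, m, hm, rfl⟩ := hx
      refine ⟨⟨s, hs⟩, ?_⟩
      change π s = π (s * m)
      have h1 : π m = 1 := (QuotientGroup.eq_one_iff _).2 (mem_sup_right hm)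
      rw [map_mul, h1, mul_one]
  have hNle : N ≤ S ⊔ M := sup_le (hzpS.trans le_sup_left) le_sup_right
  have hridx : h.range.index = (S ⊔ M).index := by
    rw [hrange]
    apply Subgroup.index_map_eq _ hπs
    rw [hπ, QuotientGroup.ker_mk']
    exact hNle
  rw [← hsup, ← hridx] at hidx
  rcases hidx with h1 | h2
  · left
    apply Cfsg.Agent.Lib.Helper75FcC.exists_hom_of_quotient_equiv
    have htop := index_eq_one.1 h1
    exact ⟨(Subgroup.topEquiv.symm.trans (MulEquiv.subgroupCongr htop.symm)).trans eA⟩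
  · right
    apply Cfsg.Agent.Lib.Helper75FcC.exists_hom_of_quotient_equiv
    apply Cfsg.Agent.Lib.Helper40P8s5.s5_of_index_two h.range h2 eA
    rw [eq_bot_iff]
    intro c' hc'
    obtain ⟨c, rfl⟩ := hπs c'
    have hcs : ∀ s : S, c * s * c⁻¹ * (s : G)⁻¹ ∈ zpowers z := by
      intro s
      apply hNS
      · rw [← QuotientGroup.eq_one_iff]
        change π (c * s * c⁻¹ * (s : G)⁻¹) = 1
        have h3 : π s * π c = π c * π s := mem_centralizer_iff.1 hc' (π s) ⟨s, rfl⟩
        rw [map_mul, map_mul, map_mul, map_inv, map_inv, ← h3]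
        group
      · exact mul_mem (hSn.conj_mem _ s.2 c) (inv_mem s.2)
    let θ : S →* zpowers z :=
      { toFun := fun s => ⟨c * s * c⁻¹ * (s : G)⁻¹, hcs s⟩
        map_one' := by ext; simp
        map_mul' := by
          intro s t
          ext
          have h3 := hzc' (s : G)⁻¹ _ (hcs t)
          calc c * ((s * t : S) : G) * c⁻¹ * (((s * t : S) : G))⁻¹
              = c * s * c⁻¹ * ((c * t * c⁻¹ * (t : G)⁻¹) * (s : G)⁻¹) := by
                rw [Subgroup.coe_mul]; group
            _ = c * s * c⁻¹ * ((s : G)⁻¹ * (c * t * c⁻¹ * (t : G)⁻¹)) := by rw [h3]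
            _ = c * s * c⁻¹ * (s : G)⁻¹ * (c * t * c⁻¹ * (t : G)⁻¹) := by group }
    have hθ : ∀ s : S, θ s = 1 := fun s =>
      Cfsg.Agent.Lib.Helper75ZaG1.hom_trivial hperf inferInstance θ s
    have hcC : c ∈ centralizer (S : Set G) := by
      rw [mem_centralizer_iff]
      intro s hs
      have h3 : c * s * c⁻¹ * s⁻¹ = 1 := congrArg Subtype.val (hθ ⟨s, hs⟩)
      calc s * c = (c * s * c⁻¹ * s⁻¹)⁻¹ * (c * s) := by group
        _ = c * s := by rw [h3]; simp
    have hcr : π c ∈ h.range := by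
      rw [hrange, hsup]
      exact ⟨c, mem_sup_right hcC, rfl⟩
    have hcen : (⟨π c, hcr⟩ : h.range) ∈ center h.range := by
      rw [mem_center_iff]
      intro g
      exact Subtype.ext (mem_centralizer_iff.1 hc' g.1 g.2)
    have h4 : eA ⟨π c, hcr⟩ ∈ center (alternatingGroup (Fin 5)) := by
      rw [mem_center_iff] at hcen ⊢
      intro g
      obtain ⟨g', rfl⟩ := eA.surjective g
      rw [← map_mul, ← map_mul, hcen g']
    rw [alternatingGroup.center_eq_bot (by simp), mem_bot] at h4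
    have h5 : (⟨π c, hcr⟩ : h.range) = 1 := eA.injective (by rw [h4, map_one])
    rw [mem_bot]
    exact congrArg Subtype.val h5

end Cfsg.Agent.Lib.Helper75FcE
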