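import Mathlib
import Cfsg.Agent.Lib.Helper3MetaTwo

/-!
# Frobenius complements: uniqueness of the core
-/

set_option autoImplicit false

namespace Cfsg.Agent.Lib.Helper75FcF

open Subgroup

/-- in a Z-group commuting involutions coincide -/
theorem invol_eq {K : Type*} [Group K] [Finite K] [IsZGroup K] {u v : K} (hu : u ^ 2 = 1)
    (hv : v ^ 2 = 1) (hu1 : u ≠ 1) (hv1 : v ≠ 1) (huv : u * v = v * u) : u = v := by
  have : Fact (Nat.Prime 2) := ⟨Nat.prime_two⟩
  set E : Subgroup K := closure {u, v} with hE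
  have hcomm : IsMulCommutative E := by
    apply Subgroup.isMulCommutative_closure
    rintro x (rfl | rfl) y (rfl | rfl)
    · rfl
    · exact huv
    · exact huv.symm
    · rfl
  have hsq : ∀ x ∈ E, x ^ 2 = 1 := by
    intro x hx
    induction hx using Subgroup.closure_induction with
    | mem x hx =>
      rcases hx with rfl | rfl
      · exact hu
      · exact hv
    | one => simp
    | mul x y hx hy h1 h2 =>
      have h3 : Commute x y := congrArg Subtype.val (hcomm.is_comm.comm (⟨x, hx⟩ : E) ⟨y, hy⟩)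
      rw [h3.mul_pow, h1, h2, one_mul]
    | inv x hx h1 => rw [inv_pow, h1, inv_one]
  have hP : IsPGroup 2 E := by
    rintro ⟨x, hx⟩
    exact ⟨1, Subtype.ext (by simpa using hsq x hx)⟩
  have hc : IsCyclic E := hP.isCyclic_of_isZGroup
  exact Cfsg.Agent.Lib.Helper3MetaTwo.invol_unique_sub E hc (subset_closure (by simp))
    (subset_closure (by simp)) hu hv hu1 hv1

/-- a group all of whose normal Z-subgroups are trivial, of order divisible by three -/
def Rigid (X : Type*) [Group X] : Prop :=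
  (∀ K : Subgroup X, K.Normal → IsZGroup K → K = ⊥) ∧ 3 ∣ Nat.card X

theorem a4_aux : ∀ g : alternatingGroup (Fin 4), g ≠ 1 →
    ∃ h₁ h₂ : alternatingGroup (Fin 4),
      g * (h₁ * g⁻¹ * h₁⁻¹) ≠ 1 ∧ (g * (h₁ * g⁻¹ * h₁⁻¹)) ^ 2 = 1 ∧
      h₂ * (g * (h₁ * g⁻¹ * h₁⁻¹)) * h₂⁻¹ ≠ g * (h₁ * g⁻¹ * h₁⁻¹) ∧
      (g * (h₁ * g⁻¹ * h₁⁻¹)) * (h₂ * (g * (h₁ * g⁻¹ * h₁⁻¹)) * h₂⁻¹) =
        (h₂ * (g * (h₁ * g⁻¹ * h₁⁻¹)) * h₂⁻¹) * (g * (h₁ * g⁻¹ * h₁⁻¹)) := by
  decide +kernel

theorem card_alt (n : ℕ) (hn : 2 ≤ n) : 2 * Nat.card (alternatingGroup (Fin n)) = n.factorial := by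
  have : Nontrivial (Fin n) := Fin.nontrivial_iff_two_le.2 hn
  have := two_mul_card_alternatingGroup (α := Fin n)
  rw [Nat.card_eq_fintype_card, this, Fintype.card_perm, Fintype.card_fin]

theorem rigid_A4 : Rigid (alternatingGroup (Fin 4)) := by
  constructor
  · intro K hK hZ
    rw [eq_bot_iff]
    intro g hg
    rw [mem_bot]
    by_contra hg1
    obtain ⟨h₁, h₂, e1, e2, e3, e4⟩ := a4_aux g hg1
    have hu : g * (h₁ * g⁻¹ * h₁⁻¹) ∈ K := mul_mem hg (hK.conj_mem _ (inv_mem hg) h₁)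
    have hv : h₂ * (g * (h₁ * g⁻¹ * h₁⁻¹)) * h₂⁻¹ ∈ K := hK.conj_mem _ hu h₂
    have := invol_eq (K := K) (u := ⟨_, hu⟩) (v := ⟨_, hv⟩) (Subtype.ext e2)
      (Subtype.ext (by
        change (h₂ * (g * (h₁ * g⁻¹ * h₁⁻¹)) * h₂⁻¹) ^ 2 = 1
        rw [conj_pow, e2]; group))
      (fun h => e1 (congrArg Subtype.val h))
      (fun h => e1 (by
        have h' : h₂ * (g * (h₁ * g⁻¹ * h₁⁻¹)) * h₂⁻¹ = 1 := congrArg Subtype.val h
        calc g * (h₁ * g⁻¹ * h₁⁻¹) = h₂⁻¹ * (h₂ * (g * (h₁ * g⁻¹ * h₁⁻¹)) * h₂⁻¹) * h₂ := by group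
          _ = 1 := by rw [h']; group))
      (Subtype.ext e4)
    exact e3 (congrArg Subtype.val this).symm
  · have := card_alt 4 (by norm_num)
    have h4 : Nat.factorial 4 = 24 := rfl
    exact ⟨4, by omega⟩

theorem a5_aux : ∃ u v : alternatingGroup (Fin 5), u ≠ 1 ∧ v ≠ 1 ∧ u ≠ v ∧ u ^ 2 = 1 ∧ v ^ 2 = 1 ∧
    u * v = v * u := by
  decide

theorem rigid_A5 : Rigid (alternatingGroup (Fin 5)) := by
  constructor
  · intro K hK hZ
    have := alternatingGroup.isSimpleGroup (α := Fin 5) (by simp)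
    rcases hK.eq_bot_or_eq_top with h | h
    · exact h
    · exfalso
      subst h
      obtain ⟨u, v, hu1, hv1, huv, hu, hv, hc⟩ := a5_aux
      have := invol_eq (K := (⊤ : Subgroup (alternatingGroup (Fin 5)))) (u := ⟨u, mem_top u⟩)
        (v := ⟨v, mem_top v⟩) (Subtype.ext hu) (Subtype.ext hv)
        (fun h => hu1 (congrArg Subtype.val h)) (fun h => hv1 (congrArg Subtype.val h))
        (Subtype.ext hc)
      exact huv (congrArg Subtype.val this)
  · have := card_alt 5 (by norm_num)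
    have h5 : Nat.factorial 5 = 120 := rfl
    exact ⟨20, by omega⟩

theorem perm_central {n : ℕ} (hn : 3 ≤ n) (k : Equiv.Perm (Fin n))
    (hk : ∀ h : Equiv.Perm (Fin n), k * h = h * k) : k = 1 := by
  by_contra hk1
  obtain ⟨i, hi⟩ : ∃ i, k i ≠ i := by
    by_contra hcon
    push Not at hcon
    exact hk1 (Equiv.ext hcon)
  obtain ⟨l, hl1, hl2⟩ : ∃ l : Fin n, l ≠ i ∧ l ≠ k i := by
    by_contra hcon
    push Not at hcon
    have hsub : (Finset.univ : Finset (Fin n)) ⊆ {i, k i} := by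
      intro l _
      by_cases h : l = i
      · simp [h]
      · simp [hcon l h]
    have h1 := Finset.card_le_card hsub
    have h2 : ({i, k i} : Finset (Fin n)).card ≤ 2 := Finset.card_le_two
    rw [Finset.card_univ, Fintype.card_fin] at h1
    omega
  have h1 := congrArg (fun f : Equiv.Perm (Fin n) => f i) (hk (Equiv.swap (k i) l))
  simp only [Equiv.Perm.mul_apply] at h1
  rw [Equiv.swap_apply_of_ne_of_ne (Ne.symm hi) (Ne.symm hl1), Equiv.swap_apply_left] at h1
  exact hl2 h1.symm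

theorem rigid_perm {n : ℕ} (hn : 3 ≤ n) (hA : Rigid (alternatingGroup (Fin n))) :
    Rigid (Equiv.Perm (Fin n)) := by
  constructor
  · intro K hK hZ
    have h1 : K.subgroupOf (alternatingGroup (Fin n)) = ⊥ := by
      apply hA.1 _ inferInstance
      let f : K.subgroupOf (alternatingGroup (Fin n)) →* K :=
        { toFun := fun x => ⟨x.1.1, x.2⟩
          map_one' := rfl
          map_mul' := fun _ _ => rfl }
      apply IsZGroup.of_injective (f := f)
      intro x y hxy
      apply Subtype.ext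
      apply Subtype.ext
      have h2 : (f x : Equiv.Perm (Fin n)) = f y := congrArg Subtype.val hxy
      exact h2
    rw [eq_bot_iff]
    intro k hk
    rw [mem_bot]
    apply perm_central hn
    intro h
    have h2 : k * (h * k⁻¹ * h⁻¹) ∈ K := mul_mem hk (hK.conj_mem _ (inv_mem hk) h)
    have h3 : k * (h * k⁻¹ * h⁻¹) ∈ alternatingGroup (Fin n) := by
      rw [Equiv.Perm.mem_alternatingGroup]
      simp only [map_mul, map_inv]
      rw [mul_comm (Equiv.Perm.sign h), mul_assoc, mul_inv_cancel, mul_one, mul_inv_cancel]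
    have h4 : (⟨_, h3⟩ : alternatingGroup (Fin n)) ∈ K.subgroupOf (alternatingGroup (Fin n)) := h2
    rw [h1, mem_bot] at h4
    have h5 : k * (h * k⁻¹ * h⁻¹) = 1 := congrArg Subtype.val h4
    calc k * h = k * (h * k⁻¹ * h⁻¹) * (h * k) := by group
      _ = h * k := by rw [h5, one_mul]
  · exact hA.2.trans (Subgroup.card_subgroup_dvd_card _)

theorem rigid_S4 : Rigid (Equiv.Perm (Fin 4)) := rigid_perm (by norm_num) rigid_A4

theorem rigid_S5 : Rigid (Equiv.Perm (Fin 5)) := rigid_perm (by norm_num) rigid_A5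

theorem not_isZGroup_D2 : ¬ IsZGroup (DihedralGroup 2) := by
  intro h
  have := invol_eq (K := DihedralGroup 2) (u := DihedralGroup.r 1) (v := DihedralGroup.sr 0)
    (by decide) (by decide) (by decide) (by decide) (by decide)
  exact absurd this (by decide)

end Cfsg.Agent.Lib.Helper75FcF
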