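import Mathlib
import Cfsg.Agent.Lib.Helper75FcF

/-!
# Frobenius complements: uniqueness of the core, main part
-/

set_option autoImplicit false

namespace Cfsg.Agent.Lib.Helper75FcG

open Subgroup Cfsg.Agent.Lib.Helper75FcF

variable {G : Type*} [Group G] [Finite G]

/-- the three kinds of quotients -/
def Ty (N : Subgroup G) : Prop :=
  N = ⊤ ∨ (∃ f : G →* DihedralGroup 2, Function.Surjective f ∧ f.ker = N) ∨
  ∃ (X : Type) (_ : Group X) (f : G →* X), Function.Surjective f ∧ f.ker = N ∧ Rigid X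

theorem le_of_rigid {X : Type*} [Group X] (hX : Rigid X) (f : G →* X)
    (hf : Function.Surjective f) (N₂ : Subgroup G) [hn : N₂.Normal] [IsZGroup N₂] :
    N₂ ≤ f.ker := by
  have h1 : N₂.map f = ⊥ := hX.1 _ (hn.map f hf)
    (IsZGroup.of_surjective (f := f.subgroupMap N₂) (f.subgroupMap_surjective N₂))
  rwa [← Subgroup.map_eq_bot_iff]

theorem relIndex_sq_dvd (a : G) : (zpowers (a ^ 2)).relIndex (zpowers a) ∣ 2 := by
  have hle : zpowers (a ^ 2) ≤ zpowers a := by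
    rw [zpowers_le]; exact pow_mem (mem_zpowers a) 2
  have h1 := relIndex_mul_relIndex ⊥ (zpowers (a ^ 2)) (zpowers a) bot_le hle
  rw [relIndex_bot_left, relIndex_bot_left, Nat.card_zpowers, Nat.card_zpowers, orderOf_pow] at h1
  obtain ⟨o', ho'⟩ := Nat.gcd_dvd_left (orderOf a) 2
  have hpos : 0 < orderOf a := orderOf_pos a
  have hg : 0 < Nat.gcd (orderOf a) 2 := Nat.gcd_pos_of_pos_left _ hpos
  have ho'pos : 0 < o' := by
    rcases Nat.eq_zero_or_pos o' with h | h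
    · rw [h, mul_zero] at ho'
      omega
    · exact h
  have h2 : orderOf a / Nat.gcd (orderOf a) 2 = o' :=
    Nat.div_eq_of_eq_mul_right hg ho'
  rw [h2] at h1
  have h3 : o' * (zpowers (a ^ 2)).relIndex (zpowers a) = o' * Nat.gcd (orderOf a) 2 := by
    rw [h1, mul_comm o']; exact ho'
  rw [Nat.eq_of_mul_eq_mul_left ho'pos h3]
  exact Nat.gcd_dvd_right _ _

theorem le_of_D2 (Q : Sylow 2 G) (A : Subgroup G) (hAQ : A ≤ Q) (hA : IsCyclic A)
    (hidx : A.relIndex Q ∣ 2) (f₁ f₂ : G →* DihedralGroup 2) (h₁ : Function.Surjective f₁)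
    (h₂ : Function.Surjective f₂) : f₁.ker ≤ f₂.ker := by
  have : Fact (Nat.Prime 2) := ⟨Nat.prime_two⟩
  obtain ⟨a, rfl⟩ := A.isCyclic_iff_exists_zpowers_eq_top.1 hA
  set D := f₁.ker ⊓ f₂.ker with hD
  have hsq : ∀ x : DihedralGroup 2, x ^ 2 = 1 := by decide
  have ha2 : zpowers (a ^ 2) ≤ D := by
    rw [zpowers_le]
    have e1 : a ^ 2 ∈ f₁.ker := by rw [MonoidHom.mem_ker, map_pow, hsq]
    have e2 : a ^ 2 ∈ f₂.ker := by rw [MonoidHom.mem_ker, map_pow, hsq]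
    exact ⟨e1, e2⟩
  have hi : ∀ f : G →* DihedralGroup 2, Function.Surjective f → f.ker.index = 4 := by
    intro f hf
    rw [Subgroup.index_ker, MonoidHom.range_eq_top.2 hf, Subgroup.card_top, DihedralGroup.nat_card]
  have h16 : D.index ∣ 16 := by
    rw [← relIndex_mul_index (inf_le_left : D ≤ f₁.ker), hi f₁ h₁, inf_relIndex_left]
    have h3 := relIndex_dvd_index_of_normal f₂.ker f₁.ker
    rw [hi f₂ h₂] at h3
    exact Nat.mul_dvd_mul h3 (dvd_refl 4)
  have htop : (Q : Subgroup G) ⊔ D = ⊤ := by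
    rw [← index_eq_one]
    have d1 : ((Q : Subgroup G) ⊔ D).index ∣ (Q : Subgroup G).index := index_dvd_of_le le_sup_left
    have d2 : ((Q : Subgroup G) ⊔ D).index ∣ 16 := (index_dvd_of_le le_sup_right).trans h16
    have c : Nat.Coprime (Q : Subgroup G).index 16 := by
      have h3 : Nat.Coprime 2 (Q : Subgroup G).index :=
        (Nat.Prime.coprime_iff_not_dvd Nat.prime_two).2 Q.not_dvd_index
      exact (Nat.Coprime.pow_left 4 h3).symm
    exact Nat.Coprime.eq_one_of_dvd (c.coprime_dvd_left d1) d2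
  have hDi : D.index = D.relIndex Q := by
    rw [← relIndex_top_right, ← htop, relIndex_sup_right]
  have hle : zpowers (a ^ 2) ≤ zpowers a := by
    rw [zpowers_le]; exact pow_mem (mem_zpowers a) 2
  have h4 : D.relIndex Q ∣ 4 := by
    refine (relIndex_dvd_of_le_left (Q : Subgroup G) ha2).trans ?_
    rw [← relIndex_mul_relIndex _ _ _ hle hAQ]
    exact Nat.mul_dvd_mul (relIndex_sq_dvd a) hidx
  have h5 : D.relIndex f₁.ker * f₁.ker.index = D.index :=
    relIndex_mul_index (inf_le_left : D ≤ f₁.ker)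
  rw [hi f₁ h₁, hDi] at h5
  have h6 : D.relIndex f₁.ker = 1 := by
    have h7 := Nat.le_of_dvd (by norm_num) h4
    have h8 : D.relIndex f₁.ker ≠ 0 := by
      intro h0
      rw [h0, zero_mul] at h5
      rw [← h5] at h4
      omega
    omega
  exact (relIndex_eq_one.1 h6).trans inf_le_right

theorem le_of_ty (hQ : ∃ (Q : Sylow 2 G) (A : Subgroup G), A ≤ Q ∧ IsCyclic A ∧ A.relIndex Q ∣ 2)
    (N₁ N₂ : Subgroup G) [N₁.Normal] [N₂.Normal] [IsZGroup N₁] [hZ₂ : IsZGroup N₂] (h₁ : Ty N₁)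
    (h₂ : Ty N₂) : N₂ ≤ N₁ := by
  rcases h₁ with rfl | ⟨f₁, hf₁, rfl⟩ | ⟨X, _, f₁, hf₁, rfl, hX⟩
  · exact le_top
  · rcases h₂ with rfl | ⟨f₂, hf₂, rfl⟩ | ⟨X, _, f₂, hf₂, rfl, hX⟩
    · exfalso
      have hG : IsZGroup G :=
        IsZGroup.of_injective (f := (Subgroup.topEquiv (G := G)).symm.toMonoidHom)
          (Subgroup.topEquiv (G := G)).symm.injective
      exact not_isZGroup_D2 (IsZGroup.of_surjective hf₁)
    · obtain ⟨Q, A, hAQ, hA, hidx⟩ := hQ
      exact le_of_D2 Q A hAQ hA hidx f₂ f₁ hf₂ hf₁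
    · exfalso
      have h1 : f₁.ker ≤ f₂.ker := le_of_rigid hX f₂ hf₂ f₁.ker
      have h2 := index_dvd_of_le h1
      rw [Subgroup.index_ker f₁, MonoidHom.range_eq_top.2 hf₁, Subgroup.card_top,
        DihedralGroup.nat_card, Subgroup.index_ker f₂, MonoidHom.range_eq_top.2 hf₂,
        Subgroup.card_top] at h2
      have h3 := hX.2.trans h2
      omega
  · exact le_of_rigid hX f₁ hf₁ N₂

theorem eq_of_ty (hQ : ∃ (Q : Sylow 2 G) (A : Subgroup G), A ≤ Q ∧ IsCyclic A ∧ A.relIndex Q ∣ 2)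
    (N₁ N₂ : Subgroup G) [N₁.Normal] [N₂.Normal] [IsZGroup N₁] [IsZGroup N₂] (h₁ : Ty N₁)
    (h₂ : Ty N₂) : N₁ = N₂ :=
  le_antisymm (le_of_ty hQ N₂ N₁ h₂ h₁) (le_of_ty hQ N₁ N₂ h₁ h₂)

omit [Finite G] in
/-- the six types of the statement fall in the three kinds -/
theorem ty_of_six (N : Subgroup G)
    (h : N = ⊤ ∨
        (∃ f : G →* DihedralGroup 2, Function.Surjective f ∧ f.ker = N) ∨
        (∃ f : G →* alternatingGroup (Fin 4), Function.Surjective f ∧ f.ker = N) ∨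
        (∃ f : G →* Equiv.Perm (Fin 4), Function.Surjective f ∧ f.ker = N) ∨
        (∃ f : G →* alternatingGroup (Fin 5), Function.Surjective f ∧ f.ker = N) ∨
        (∃ f : G →* Equiv.Perm (Fin 5), Function.Surjective f ∧ f.ker = N)) : Ty N := by
  rcases h with h | h | ⟨f, hf, hk⟩ | ⟨f, hf, hk⟩ | ⟨f, hf, hk⟩ | ⟨f, hf, hk⟩
  · exact Or.inl h
  · exact Or.inr (Or.inl h)
  · exact Or.inr (Or.inr ⟨_, _, f, hf, hk, rigid_A4⟩)
  · exact Or.inr (Or.inr ⟨_, _, f, hf, hk, rigid_S4⟩)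
  · exact Or.inr (Or.inr ⟨_, _, f, hf, hk, rigid_A5⟩)
  · exact Or.inr (Or.inr ⟨_, _, f, hf, hk, rigid_S5⟩)

end Cfsg.Agent.Lib.Helper75FcG
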