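import Mathlib
import Cfsg.Agent.Lib.Helper75FcE
import Cfsg.Agent.Lib.Helper75FcG

/-!
# Frobenius complements: the core and its six quotient types
-/

set_option autoImplicit false

namespace Cfsg.Agent.Lib.Helper75FcH

open Subgroup Cfsg Cfsg.Agent.Lib.Helper71ZaDefs

variable {G : Type*} [Group G] [Finite G]

theorem exists_Q (hinv : ∀ a b : G, orderOf a = 2 → orderOf b = 2 → a = b) :
    ∃ (Q : Sylow 2 G) (A : Subgroup G), A ≤ Q ∧ IsCyclic A ∧ A.relIndex Q ∣ 2 := by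
  have : Fact (Nat.Prime 2) := ⟨Nat.prime_two⟩
  obtain ⟨Q⟩ : Nonempty (Sylow 2 G) := inferInstance
  by_cases hQ : IsCyclic Q
  · exact ⟨Q, Q, le_refl _, hQ, by rw [relIndex_self]; exact one_dvd _⟩
  · obtain ⟨b, hb⟩ := Cfsg.Agent.Lib.Helper75FcA.exists_cyclic_index_two Q.2
      (fun u v hu hv => Subtype.ext (hinv u v
        (by rwa [Subgroup.orderOf_coe]) (by rwa [Subgroup.orderOf_coe]))) hQ
    refine ⟨Q, zpowers (b : G), by rw [zpowers_le]; exact b.2, inferInstance, ?_⟩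
    have h1 : (zpowers (b : G)).subgroupOf Q = zpowers b := by
      ext x
      rw [mem_subgroupOf, mem_zpowers_iff, mem_zpowers_iff]
      constructor
      · rintro ⟨k, hk⟩
        exact ⟨k, Subtype.ext (by simpa using hk)⟩
      · rintro ⟨k, hk⟩
        exact ⟨k, by simpa using congrArg Subtype.val hk⟩
    rw [relIndex, h1, hb]

theorem core (hinv : ∀ a b : G, orderOf a = 2 → orderOf b = 2 → a = b)
    (hcyc : ∀ A : Subgroup G, (∀ a ∈ A, ∀ b ∈ A, a * b = b * a) → IsCyclic A)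
    (hns : ¬ Group.IsSolvable G → ZG G ∧ ∃ (S : Subgroup G) (_ : S.Normal)
      (φ : S →* alternatingGroup (Fin 5)), Function.Surjective φ ∧ Nat.card φ.ker = 2) :
    ∃! N : Subgroup G, N.Normal ∧ (∀ (p : ℕ) [Fact p.Prime] (P : Sylow p N), IsCyclic P) ∧
      (N = ⊤ ∨
        (∃ f : G →* DihedralGroup 2, Function.Surjective f ∧ f.ker = N) ∨
        (∃ f : G →* alternatingGroup (Fin 4), Function.Surjective f ∧ f.ker = N) ∨
        (∃ f : G →* Equiv.Perm (Fin 4), Function.Surjective f ∧ f.ker = N) ∨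
        (∃ f : G →* alternatingGroup (Fin 5), Function.Surjective f ∧ f.ker = N) ∨
        (∃ f : G →* Equiv.Perm (Fin 5), Function.Surjective f ∧ f.ker = N)) := by
  have hex : ∃ N : Subgroup G, N.Normal ∧ IsZGroup N ∧
      (N = ⊤ ∨
        (∃ f : G →* DihedralGroup 2, Function.Surjective f ∧ f.ker = N) ∨
        (∃ f : G →* alternatingGroup (Fin 4), Function.Surjective f ∧ f.ker = N) ∨
        (∃ f : G →* Equiv.Perm (Fin 4), Function.Surjective f ∧ f.ker = N) ∨
        (∃ f : G →* alternatingGroup (Fin 5), Function.Surjective f ∧ f.ker = N) ∨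
        (∃ f : G →* Equiv.Perm (Fin 5), Function.Surjective f ∧ f.ker = N)) := by
    by_cases hs : Group.IsSolvable G
    · obtain ⟨N, h1, h2, h3⟩ := Cfsg.Agent.Lib.Helper75FcD.exists_solvable hinv hcyc hs
      refine ⟨N, h1, h2, ?_⟩
      rcases h3 with h | h | h | h
      · exact Or.inl h
      · exact Or.inr (Or.inl h)
      · exact Or.inr (Or.inr (Or.inl h))
      · exact Or.inr (Or.inr (Or.inr (Or.inl h)))
    · obtain ⟨hZ, S, hSn, φ, hφ, hk⟩ := hns hs
      obtain ⟨N, h1, h2, h3⟩ := Cfsg.Agent.Lib.Helper75FcE.exists_nonsolvable hZ S φ hφ hk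
      refine ⟨N, h1, h2, ?_⟩
      rcases h3 with h | h
      · exact Or.inr (Or.inr (Or.inr (Or.inr (Or.inl h))))
      · exact Or.inr (Or.inr (Or.inr (Or.inr (Or.inr h))))
  obtain ⟨N, h1, h2, h3⟩ := hex
  refine ⟨N, ⟨h1, fun p _ P => IsZGroup.isZGroup p Fact.out P, h3⟩, ?_⟩
  rintro N' ⟨h1', h2', h3'⟩
  have hZ' : IsZGroup N' := ⟨fun p hp P => by
    have : Fact p.Prime := ⟨hp⟩
    exact h2' p P⟩
  exact Cfsg.Agent.Lib.Helper75FcG.eq_of_ty (exists_Q hinv) N' N
    (Cfsg.Agent.Lib.Helper75FcG.ty_of_six N' h3') (Cfsg.Agent.Lib.Helper75FcG.ty_of_six N h3)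

end Cfsg.Agent.Lib.Helper75FcH
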