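import Mathlib
set_option autoImplicit false

namespace Cfsg.Agent.Lib.Helper75QuatLift

open QuaternionGroup

section lift
variable {X : Type*} [Monoid X] (α ξ : X)

/-- powers of `α` indexed by `ZMod 4` -/
def E (i : ZMod (2 * 2)) : X := α ^ i.val

theorem E_zero : E α 0 = 1 := by
  unfold E; rw [ZMod.val_zero, pow_zero]

theorem E_add (h4 : α ^ 4 = 1) (i j : ZMod (2 * 2)) : E α (i + j) = E α i * E α j := by
  unfold E
  rw [← pow_add, ZMod.val_add, pow_eq_pow_mod (i.val + j.val) h4]

theorem pow_conj (hc : α * ξ * α = ξ) (k : ℕ) : α ^ k * ξ * α ^ k = ξ := by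
  induction k with
  | zero => simp
  | succ k ih =>
    have e1 : α ^ (k + 1) = α ^ k * α := pow_succ α k
    have e2 : α ^ (k + 1) = α * α ^ k := pow_succ' α k
    calc α ^ (k + 1) * ξ * α ^ (k + 1) = (α ^ k * α) * ξ * (α * α ^ k) := by rw [← e1, ← e2]
      _ = α ^ k * (α * ξ * α) * α ^ k := by simp only [mul_assoc]
      _ = ξ := by rw [hc, ih]

theorem E_comm (h4 : α ^ 4 = 1) (hc : α * ξ * α = ξ) (i : ZMod (2 * 2)) :
    E α i * ξ = ξ * E α (-i) := by
  calc E α i * ξ = E α i * ξ * (E α i * E α (-i)) := by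
        rw [← E_add α h4, add_neg_cancel, E_zero, mul_one]
    _ = (E α i * ξ * E α i) * E α (-i) := by simp only [mul_assoc]
    _ = ξ * E α (-i) := by unfold E; rw [pow_conj α ξ hc]

/-- the homomorphism from the quaternion group of order 8 defined by two elements -/
def quatLift (h4 : α ^ 4 = 1) (hξ : ξ * ξ = α ^ 2) (hc : α * ξ * α = ξ) : QuaternionGroup 2 →* X where
  toFun
    | a i => E α i
    | xa i => ξ * E α i
  map_one' := by rw [one_def]; exact E_zero α
  map_mul' := by
    have h2 : E α ((2 : ℕ) : ZMod (2 * 2)) = α ^ 2 := rfl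
    rintro (i | i) (j | j)
    · simp only [a_mul_a]; exact E_add α h4 i j
    · simp only [a_mul_xa]
      rw [← mul_assoc, E_comm α ξ h4 hc, mul_assoc, ← E_add α h4]
      congr 2; ring
    · simp only [xa_mul_a]
      rw [mul_assoc, ← E_add α h4]
    · simp only [xa_mul_xa]
      calc E α ((2 : ℕ) + j - i) = E α ((2 : ℕ) : ZMod (2 * 2)) * (E α (-i) * E α j) := by
            rw [← E_add α h4, ← E_add α h4]; congr 1; ring
        _ = ξ * ξ * (E α (-i) * E α j) := by rw [h2, hξ]
        _ = ξ * (ξ * E α (-i)) * E α j := by simp only [mul_assoc]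
        _ = ξ * E α i * (ξ * E α j) := by rw [← E_comm α ξ h4 hc]; simp only [mul_assoc]

theorem quatLift_a_two (h4 : α ^ 4 = 1) (hξ : ξ * ξ = α ^ 2) (hc : α * ξ * α = ξ) :
    quatLift α ξ h4 hξ hc (a 2) = α ^ 2 := rfl

end lift

/-- the data we construct: a finite abelian group of order `n ^ 2` with an action of `Q₈` in which
the central involution acts as `-1` -/
def HasModule (n : ℕ) : Prop :=
  ∃ (V : Type) (_ : AddCommGroup V) (_ : Finite V) (_ : DistribMulAction (QuaternionGroup 2) V),
    Nat.card V = n ^ 2 ∧ ∀ v : V, (a 2 : QuaternionGroup 2) • v = -v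

theorem hasModule_one : HasModule 1 :=
  ⟨PUnit, inferInstance, inferInstance, inferInstance, by simp, fun v => rfl⟩

theorem hasModule_prime (p : ℕ) [Fact p.Prime] : HasModule p := by
  obtain ⟨x, y, hxy⟩ := ZMod.sq_add_sq p (-1)
  let α : Matrix (Fin 2) (Fin 2) (ZMod p) := !![0, -1; 1, 0]
  let ξ : Matrix (Fin 2) (Fin 2) (ZMod p) := !![x, y; y, -x]
  have hα2 : α ^ 2 = -1 := by
    rw [pow_two]
    ext i j
    fin_cases i <;> fin_cases j <;> simp [α, Matrix.mul_apply, Fin.sum_univ_two]
  have h4 : α ^ 4 = 1 := by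
    rw [show 4 = 2 * 2 from rfl, pow_mul, hα2]; simp
  have hξ : ξ * ξ = α ^ 2 := by
    rw [hα2]
    ext i j
    fin_cases i <;> fin_cases j <;> simp [ξ, Matrix.mul_apply, Fin.sum_univ_two]
    · rw [← hxy]; ring
    · ring
    · ring
    · rw [← hxy]; ring
  have hc : α * ξ * α = ξ := by
    ext i j
    fin_cases i <;> fin_cases j <;> simp [α, ξ, Matrix.mul_apply, Fin.sum_univ_two]
  let f := quatLift α ξ h4 hξ hc
  let act : DistribMulAction (QuaternionGroup 2) (Fin 2 → ZMod p) :=
    { smul := fun g v => (f g).mulVec v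
      one_smul := fun v => by
        change (f 1).mulVec v = v
        rw [map_one, Matrix.one_mulVec]
      mul_smul := fun g h v => by
        change (f (g * h)).mulVec v = (f g).mulVec ((f h).mulVec v)
        rw [map_mul, Matrix.mulVec_mulVec]
      smul_zero := fun g => by
        change (f g).mulVec 0 = 0
        rw [Matrix.mulVec_zero]
      smul_add := fun g v w => by
        change (f g).mulVec (v + w) = (f g).mulVec v + (f g).mulVec w
        rw [Matrix.mulVec_add] }
  refine ⟨Fin 2 → ZMod p, inferInstance, inferInstance, act, ?_, ?_⟩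
  · rw [Nat.card_eq_fintype_card, Fintype.card_fun, ZMod.card, Fintype.card_fin]
  · intro v
    change (f (a 2)).mulVec v = -v
    have : f (a 2) = α ^ 2 := rfl
    rw [this, hα2, Matrix.neg_mulVec, Matrix.one_mulVec]

theorem HasModule.mul {m n : ℕ} (hm : HasModule m) (hn : HasModule n) : HasModule (m * n) := by
  obtain ⟨V, i1, i2, i3, hV, hV'⟩ := hm
  obtain ⟨W, j1, j2, j3, hW, hW'⟩ := hn
  refine ⟨V × W, inferInstance, inferInstance, inferInstance, ?_, ?_⟩
  · rw [Nat.card_prod, hV, hW, mul_pow]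
  · rintro ⟨v, w⟩
    change ((a 2 : QuaternionGroup 2) • v, (a 2 : QuaternionGroup 2) • w) = (-v, -w)
    rw [hV', hW']

theorem hasModule (n : ℕ) (hn : n ≠ 0) : HasModule n := by
  induction n using induction_on_primes with
  | zero => exact absurd rfl hn
  | one => exact hasModule_one
  | prime_mul p a hp ih =>
    have : Fact p.Prime := ⟨hp⟩
    have ha : a ≠ 0 := by rintro rfl; simp at hn
    exact (hasModule_prime p).mul (ih ha)

theorem sq_eq_or (h : QuaternionGroup 2) (hh : h ≠ 1) : h = a 2 ∨ h * h = a 2 := by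
  revert h; decide

end Cfsg.Agent.Lib.Helper75QuatLift
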