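import Mathlib
import Cfsg.Agent.Lib.Helper26Fld

/-!
# Project 71 part 3, piece T1: an irreducible abelian normal subgroup makes `H` semilinear
-/

set_option autoImplicit false

universe u

namespace Cfsg.Agent.Lib.Helper75SlT1

open Subgroup

section
variable {p : ℕ} [Fact p.Prime] {V : Type u} [AddCommGroup V] [Module (ZMod p) V] [Finite V]
  [Nontrivial V] (H : Subgroup (V ≃ₗ[ZMod p] V))

theorem semilinear_aux (A : Subgroup H) (hA : A.Normal)
    (hAc : ∀ a ∈ A, ∀ b ∈ A, a * b = b * a)
    (hirr : ∀ W : Submodule (ZMod p) V,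
      (∀ a ∈ A, ∀ v ∈ W, ((a : H) : V ≃ₗ[ZMod p] V) v ∈ W) → W = ⊥ ∨ W = ⊤) :
    ∃ (K : Type u) (_ : CommRing K) (_ : IsDomain K) (_ : Finite K) (e : V ≃+ K),
      ∀ h : H, ∃ (a : K) (σ : K ≃+* K), ∀ v : V, e ((h : V ≃ₗ[ZMod p] V) v) = a * σ (e v) := by
  classical
  let ι : H →* Module.End (ZMod p) V :=
    { toFun := fun h => ((h : V ≃ₗ[ZMod p] V) : V →ₗ[ZMod p] V)
      map_one' := rfl
      map_mul' := fun _ _ => rfl }
  have hι : ∀ (h : H) (v : V), ι h v = (h : V ≃ₗ[ZMod p] V) v := fun h v => rfl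
  set S : Set (Module.End (ZMod p) V) := {f | ∃ a ∈ A, f = ι a} with hS
  have hs : ∀ a ∈ S, ∀ b ∈ S, a * b = b * a := by
    rintro _ ⟨a, ha, rfl⟩ _ ⟨b, hb, rfl⟩
    rw [← map_mul, ← map_mul, hAc a ha b hb]
  letI : CommRing (Subring.closure S) := Subring.closureCommRingOfComm hs
  have hfinEnd : Finite (Module.End (ZMod p) V) :=
    Finite.of_injective (fun f : Module.End (ZMod p) V => (f : V → V)) DFunLike.coe_injective
  have hfin : Finite (Subring.closure S) := inferInstance
  have hcommd : ∀ (k : Subring.closure S) (a : H), a ∈ A → ∀ v : V,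
      (k : Module.End (ZMod p) V) (ι a v) = ι a ((k : Module.End (ZMod p) V) v) := by
    intro k a ha v
    have h1 := mul_comm k ⟨ι a, Subring.subset_closure ⟨a, ha, rfl⟩⟩
    have h2 : (k : Module.End (ZMod p) V) * ι a = ι a * (k : Module.End (ZMod p) V) :=
      congrArg Subtype.val h1
    exact congrArg (fun f : Module.End (ZMod p) V => f v) h2
  have hker : ∀ (k : Subring.closure S), k ≠ 0 → ∀ v : V,
      (k : Module.End (ZMod p) V) v = 0 → v = 0 := by
    intro k hk v hv
    rcases hirr (LinearMap.ker (k : Module.End (ZMod p) V)) (by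
      intro a ha x hx
      rw [LinearMap.mem_ker] at hx ⊢
      rw [← hι, hcommd k a ha, hx, map_zero]) with h | h
    · have : v ∈ LinearMap.ker (k : Module.End (ZMod p) V) := hv
      rwa [h, Submodule.mem_bot] at this
    · exfalso
      apply hk
      apply Subtype.ext
      exact LinearMap.ker_eq_top.1 h
  have hdom : IsDomain (Subring.closure S) := by
    have h1 : NoZeroDivisors (Subring.closure S) := by
      constructor
      intro k l hkl
      by_contra hcon
      push Not at hcon
      apply hcon.2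
      apply Subtype.ext
      ext v
      apply hker k hcon.1
      have h2 : (k : Module.End (ZMod p) V) * (l : Module.End (ZMod p) V) = 0 :=
        congrArg Subtype.val hkl
      exact congrArg (fun f : Module.End (ZMod p) V => f v) h2
    have h2 : Nontrivial (Subring.closure S) := by
      refine ⟨⟨0, 1, ?_⟩⟩
      intro h
      obtain ⟨v, hv⟩ := exists_ne (0 : V)
      apply hv
      have h3 : (0 : Module.End (ZMod p) V) = 1 := congrArg Subtype.val h
      have := congrArg (fun f : Module.End (ZMod p) V => f v) h3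
      simpa using this.symm
    exact NoZeroDivisors.to_isDomain _
  obtain ⟨v0, hv0⟩ := exists_ne (0 : V)
  let ev : Subring.closure S →+ V :=
    { toFun := fun k => (k : Module.End (ZMod p) V) v0
      map_zero' := rfl
      map_add' := fun _ _ => rfl }
  have hev : ∀ k : Subring.closure S, ev k = (k : Module.End (ZMod p) V) v0 := fun _ => rfl
  have hinj : Function.Injective ev := by
    rw [injective_iff_map_eq_zero]
    intro k hk
    by_contra hk0
    exact hv0 (hker k hk0 v0 hk)
  have hsurj : Function.Surjective ev := by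
    rcases hirr (AddSubgroup.toZModSubmodule p ev.range) (by
      rintro a ha _ ⟨k, rfl⟩
      refine ⟨⟨ι a, Subring.subset_closure ⟨a, ha, rfl⟩⟩ * k, rfl⟩) with h | h
    · exfalso
      apply hv0
      have h1 : v0 ∈ AddSubgroup.toZModSubmodule p ev.range := ⟨1, rfl⟩
      rwa [h, Submodule.mem_bot] at h1
    · intro v
      have h1 : v ∈ AddSubgroup.toZModSubmodule p ev.range := by rw [h]; trivial
      exact h1
  let E : Subring.closure S ≃+ V := AddEquiv.ofBijective ev ⟨hinj, hsurj⟩
  have hE : ∀ k : Subring.closure S, E k = (k : Module.End (ZMod p) V) v0 := fun _ => rfl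
  refine ⟨Subring.closure S, inferInstance, hdom, hfin, E.symm, ?_⟩
  intro h
  have hinv1 : ι h⁻¹ * ι h = 1 := by rw [← map_mul, inv_mul_cancel, map_one]
  have hinv2 : ι h * ι h⁻¹ = 1 := by rw [← map_mul, mul_inv_cancel, map_one]
  let c : Module.End (ZMod p) V →+* Module.End (ZMod p) V :=
    { toFun := fun k => ι h * k * ι h⁻¹
      map_one' := by rw [mul_one, hinv2]
      map_mul' := fun k l => by
        calc ι h * (k * l) * ι h⁻¹ = ι h * k * 1 * l * ι h⁻¹ := by simp only [mul_one, mul_assoc]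
          _ = ι h * k * ι h⁻¹ * (ι h * l * ι h⁻¹) := by rw [← hinv1]; simp only [mul_assoc]
      map_zero' := by simp
      map_add' := fun k l => by rw [mul_add, add_mul] }
  have hc : ∀ k, c k = ι h * k * ι h⁻¹ := fun _ => rfl
  have hcmem : ∀ k ∈ Subring.closure S, c k ∈ Subring.closure S := by
    intro k hk
    have h1 : (Subring.closure S).map c ≤ Subring.closure S := by
      rw [RingHom.map_closure, Subring.closure_le]
      rintro _ ⟨_, ⟨a, ha, rfl⟩, rfl⟩
      apply Subring.subset_closure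
      refine ⟨h * a * h⁻¹, hA.conj_mem a ha h, ?_⟩
      rw [hc, map_mul, map_mul]
    exact h1 ⟨k, hk, rfl⟩
  let σ₀ : Subring.closure S →+* Subring.closure S :=
    (c.comp (Subring.closure S).subtype).codRestrict (Subring.closure S) (fun k => hcmem k k.2)
  have hσ₀ : ∀ k : Subring.closure S, ((σ₀ k : Subring.closure S) : Module.End (ZMod p) V) =
      ι h * k * ι h⁻¹ := fun _ => rfl
  have hσinj : Function.Injective σ₀ := by
    rw [injective_iff_map_eq_zero]
    intro k hk
    apply Subtype.ext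
    have h1 : ι h * (k : Module.End (ZMod p) V) * ι h⁻¹ = 0 := by
      rw [← hσ₀, hk]; rfl
    calc (k : Module.End (ZMod p) V) = ι h⁻¹ * ι h * k * (ι h⁻¹ * ι h) := by
          rw [hinv1, one_mul, mul_one]
      _ = ι h⁻¹ * (ι h * k * ι h⁻¹) * ι h := by simp only [mul_assoc]
      _ = 0 := by rw [h1]; simp
  let σ : Subring.closure S ≃+* Subring.closure S :=
    RingEquiv.ofBijective σ₀ ⟨hσinj, Finite.surjective_of_injective hσinj⟩
  have hσ : ∀ k : Subring.closure S, ((σ k : Subring.closure S) : Module.End (ZMod p) V) =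
      ι h * k * ι h⁻¹ := fun _ => rfl
  refine ⟨E.symm ((h : V ≃ₗ[ZMod p] V) v0), σ, ?_⟩
  intro v
  obtain ⟨k, rfl⟩ := E.surjective v
  rw [AddEquiv.symm_apply_apply, AddEquiv.symm_apply_eq, mul_comm, hE]
  set w := E.symm ((h : V ≃ₗ[ZMod p] V) v0) with hw
  have hw' : (w : Module.End (ZMod p) V) v0 = ι h v0 := by
    rw [← hE, hw, AddEquiv.apply_symm_apply]; rfl
  change ι h ((k : Module.End (ZMod p) V) v0) =
    ((σ k : Subring.closure S) : Module.End (ZMod p) V) ((w : Module.End (ZMod p) V) v0)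
  rw [hσ, hw']
  change _ = ι h ((k : Module.End (ZMod p) V) ((ι h⁻¹ * ι h) v0))
  rw [hinv1]
  rfl

/-! ## T1 : an irreducible abelian normal subgroup makes `H` semilinear of dimension one -/
theorem semilinear_of_irreducible (A : Subgroup H) (hA : A.Normal)
    (hAc : ∀ a ∈ A, ∀ b ∈ A, a * b = b * a)
    (hirr : ∀ W : Submodule (ZMod p) V,
      (∀ a ∈ A, ∀ v ∈ W, ((a : H) : V ≃ₗ[ZMod p] V) v ∈ W) → W = ⊥ ∨ W = ⊤) :
    ∃ (F : Type) (_ : Field F) (_ : Fintype F) (e : V ≃+ F),
      ∀ h : H, ∃ (a : F) (σ : F ≃+* F), ∀ v : V, e ((h : V ≃ₗ[ZMod p] V) v) = a * σ (e v) := by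
  obtain ⟨K, _, _, _, e, he⟩ := semilinear_aux H A hA hAc hirr
  letI : Field K := (Finite.isField_of_domain K).toField
  obtain ⟨F, _, _, ⟨ε⟩⟩ := Cfsg.Agent.Lib.Helper26Fld.exists_small K
  refine ⟨F, inferInstance, inferInstance, e.trans ε.symm.toAddEquiv, ?_⟩
  intro h
  obtain ⟨a, σ, hσ⟩ := he h
  refine ⟨ε.symm a, ε.trans (σ.trans ε.symm), ?_⟩
  intro v
  simp [hσ]

end

end Cfsg.Agent.Lib.Helper75SlT1
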