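import Cfsg.Agent.Lib.Helper56BG15Defs
import Cfsg.Agent.Lib.Helper30Trans

set_option autoImplicit false
set_option linter.unusedSectionVars false
open Cfsg

namespace Cfsg.Agent.Lib.Helper76BG15transport

open Subgroup
open Cfsg.Agent.Lib.Helper30Trans Cfsg.Agent.Lib.Helper56BG15Defs

universe u
variable {G : Type u} [Group G] [Finite G]

omit [Finite G] in
theorem mem_centralizer_cj {m x : G} {D : Subgroup G} :
    x ∈ centralizer ((cj m D : Subgroup G) : Set G) ↔ m⁻¹ * x * m ∈ centralizer (D : Set G) := by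
  rw [mem_centralizer_iff, mem_centralizer_iff]
  constructor
  · intro h d hd
    have := h (m * d * m⁻¹) (conj_mem_cj hd)
    have e : m⁻¹ * (m * d * m⁻¹ * x) * m = m⁻¹ * (x * (m * d * m⁻¹)) * m := by rw [this]
    calc d * (m⁻¹ * x * m) = m⁻¹ * (m * d * m⁻¹ * x) * m := by group
      _ = m⁻¹ * (x * (m * d * m⁻¹)) * m := e
      _ = m⁻¹ * x * m * d := by group
  · intro h y hy
    have hy' : m⁻¹ * y * m ∈ D := mem_cj.1 hy
    have := h _ hy'
    calc y * x = m * (m⁻¹ * y * m * (m⁻¹ * x * m)) * m⁻¹ := by group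
      _ = m * (m⁻¹ * x * m * (m⁻¹ * y * m)) * m⁻¹ := by rw [this]
      _ = x * y := by group

/-- piece `transport` -/
theorem concl_cj {M K Q D : Subgroup G} {q : ℕ} (h : Concl M K q Q D)
    (hQ : M ≤ normalizer (Q : Set G)) {m : G} (hm : m ∈ M) : Concl M K q Q (cj m D) := by
  obtain ⟨h1, h2, h3, h4, h5, h6, h7⟩ := h
  have hQm : cj m Q = Q := cj_eq_self_of_mem_normalizer (hQ hm)
  have hE : Q ⊓ centralizer ((cj m D : Subgroup G) : Set G) = Q ⊓ centralizer (D : Set G) := by
    rw [← cj_eq_self_of_mem_normalizer (h2 hm)]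
    ext x
    rw [mem_cj, mem_inf, mem_inf, mem_centralizer_cj, ← mem_cj (Q := Q), hQm]
  unfold Concl
  rw [hE]
  refine ⟨?_, h2, h3, h4, h5, h6, ?_⟩
  · exact Group.nilpotent_of_mulEquiv
      (D.equivMapOfInjective (MulAut.conj m).toMonoidHom (MulAut.conj m).injective)
  · have e1 : ⁅cj m D, cj m D⁆ = cj m ⁅D, D⁆ := (map_commutator D D _).symm
    rw [e1]
    intro x hx
    have hx' : m⁻¹ * x * m ∈ centralizer (Q : Set G) := h7 (mem_cj.1 hx)
    have := (mem_centralizer_cj (m := m) (x := x) (D := Q)).2 hx'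
    rwa [hQm] at this

end Cfsg.Agent.Lib.Helper76BG15transport
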