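import Mathlib
import Cfsg.Prelude.Def_GeometricClasses
import Cfsg.Agent.Lib.Helper99Subfield

set_option autoImplicit false

namespace Cfsg.Agent.Lib.Helper76EluSub

open Cfsg Cfsg.Geo Matrix Polynomial
open scoped MatrixGroups
open Cfsg.Agent.Lib.Helper99Subfield

variable {F : Type*} [Field F] [Fintype F]

/-! ### field arithmetic -/

lemma ringChar_ne_two (hodd : Odd (Fintype.card F)) : ringChar F ≠ 2 := by
  intro h
  have := FiniteField.even_card_of_char_two h
  rw [Nat.odd_iff] at hodd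
  omega

lemma isSquare_of_mem_subfield (hodd : Odd (Fintype.card F)) (F₀ : Subfield F)
    (h : Fintype.card F = Nat.card F₀ ^ 2) (a : F) (ha : a ∈ F₀) : IsSquare a := by
  classical
  by_cases ha0 : a = 0
  · subst ha0; exact ⟨0, by simp⟩
  rw [FiniteField.isSquare_iff (ringChar_ne_two hodd) ha0]
  have h1 : a ^ (Nat.card F₀ - 1) = 1 := by
    have h2 := FiniteField.pow_card_sub_one_eq_one (⟨a, ha⟩ : F₀) (by
      intro h0; apply ha0; exact congrArg Subtype.val h0)
    have h3 := congrArg Subtype.val h2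
    rw [Nat.card_eq_fintype_card]
    simpa using h3
  obtain ⟨q₀, hq₀⟩ : ∃ q₀, q₀ = Nat.card F₀ := ⟨_, rfl⟩
  rw [← hq₀] at h h1
  rw [h] at hodd ⊢
  have ho : Odd q₀ := by
    rcases Nat.even_or_odd q₀ with he | ho
    · exfalso
      exact (Nat.not_even_iff_odd.mpr hodd) (he.pow_of_ne_zero (by norm_num))
    · exact ho
  obtain ⟨t, rfl⟩ := ho
  have : (2 * t + 1) ^ 2 / 2 = (2 * t + 1 - 1) * (t + 1) := by
    have : (2 * t + 1) ^ 2 = 2 * ((2 * t + 1 - 1) * (t + 1)) + 1 := by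
      simp only [Nat.add_sub_cancel]; ring
    omega
  rw [this, pow_mul, h1, one_pow]

lemma isSquare_neg_one_of_sq (hodd : Odd (Fintype.card F)) (q₀ : ℕ)
    (h : Fintype.card F = q₀ ^ 2) : IsSquare (-1 : F) := by
  rw [FiniteField.isSquare_neg_one_iff, h]
  rw [h] at hodd
  have ho : Odd q₀ := by
    rcases Nat.even_or_odd q₀ with he | ho
    · exfalso
      exact (Nat.not_even_iff_odd.mpr hodd) (he.pow_of_ne_zero (by norm_num))
    · exact ho
  obtain ⟨t, rfl⟩ := ho
  have : (2 * t + 1) ^ 2 = 4 * (t * (t + 1)) + 1 := by ring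
  omega

lemma isSquare_of_pow_eq_one (hodd : Odd (Fintype.card F)) {m : ℕ} (hm : m ≠ 0)
    (hv : padicValNat 2 m < padicValNat 2 (Fintype.card F - 1)) (y : F) (hy : y ^ m = 1) :
    IsSquare y := by
  have hy0 : y ≠ 0 := by
    rintro rfl
    rw [zero_pow hm] at hy
    exact zero_ne_one hy
  rw [FiniteField.isSquare_iff (ringChar_ne_two hodd) hy0]
  have h1 : y ^ (Fintype.card F - 1) = 1 := FiniteField.pow_card_sub_one_eq_one y hy0
  have h2 : y ^ (Nat.gcd m (Fintype.card F - 1)) = 1 := by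
    have := orderOf_dvd_of_pow_eq_one hy
    have h' := orderOf_dvd_of_pow_eq_one h1
    exact orderOf_dvd_iff_pow_eq_one.mp (Nat.dvd_gcd this h')
  obtain ⟨t, ht⟩ := hodd
  have hq : Fintype.card F - 1 = 2 * t := by omega
  have hq2 : Fintype.card F / 2 = t := by omega
  rw [hq] at hv h2
  rw [hq2]
  have ht0 : t ≠ 0 := by
    rintro rfl
    simp at hv
  have hd : Nat.gcd m (2 * t) ∣ t := by
    -- write `m = 2^b m'`
    obtain ⟨m', hm'⟩ := pow_padicValNat_dvd (p := 2) (n := m)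
    have hm'odd : ¬ 2 ∣ m' := by
      intro h2m
      obtain ⟨m'', rfl⟩ := h2m
      have : 2 ^ (padicValNat 2 m + 1) ∣ m := ⟨m'', by rw [pow_succ]; rw [mul_assoc]; exact hm'⟩
      exact pow_succ_padicValNat_not_dvd hm this
    have hvt : padicValNat 2 (2 * t) = padicValNat 2 t + 1 := by
      rw [padicValNat.mul (by norm_num) ht0]
      simp [add_comm]
    have hb : 2 ^ padicValNat 2 m ∣ t := by
      have : padicValNat 2 m ≤ padicValNat 2 t := by omega
      exact (pow_dvd_pow 2 this).trans pow_padicValNat_dvd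
    obtain ⟨t', ht'⟩ := hb
    obtain ⟨b, hb⟩ : ∃ b, b = padicValNat 2 m := ⟨_, rfl⟩
    rw [← hb] at hm' ht'
    rw [hm', ht', show 2 * (2 ^ b * t') = 2 ^ b * (2 * t') by ring, Nat.gcd_mul_left]
    apply Nat.mul_dvd_mul_left
    have hc : Nat.Coprime m' 2 := by
      rw [Nat.coprime_comm, Nat.Prime.coprime_iff_not_dvd Nat.prime_two]
      exact hm'odd
    rw [Nat.Coprime.gcd_mul_left_cancel_right t' hc.symm]
    exact Nat.gcd_dvd_right _ _
  obtain ⟨e, he⟩ := hd
  rw [he, pow_mul, h2, one_pow]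

lemma exists_nonsquare_pow_eq_one (hodd : Odd (Fintype.card F)) {m : ℕ}
    (hv : padicValNat 2 (Fintype.card F - 1) ≤ padicValNat 2 m) :
    ∃ y : F, ¬ IsSquare y ∧ y ^ m = 1 := by
  obtain ⟨y₀, hy₀⟩ := FiniteField.exists_nonsquare (ringChar_ne_two hodd)
  have hy00 : y₀ ≠ 0 := by
    rintro rfl
    exact hy₀ ⟨0, by simp⟩
  have hq1 : Fintype.card F - 1 ≠ 0 := by
    have := Fintype.one_lt_card (α := F)
    omega
  obtain ⟨u, hu⟩ := pow_padicValNat_dvd (p := 2) (n := Fintype.card F - 1)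
  have huodd : Odd u := by
    rw [← Nat.not_even_iff_odd, even_iff_two_dvd]
    intro h2m
    obtain ⟨m'', rfl⟩ := h2m
    have : 2 ^ (padicValNat 2 (Fintype.card F - 1) + 1) ∣ (Fintype.card F - 1) :=
      ⟨m'', by rw [pow_succ]; rw [mul_assoc]; exact hu⟩
    exact pow_succ_padicValNat_not_dvd hq1 this
  refine ⟨y₀ ^ u, ?_, ?_⟩
  · obtain ⟨e, rfl⟩ := huodd
    rintro ⟨t, ht⟩
    apply hy₀
    refine ⟨t / y₀ ^ e, ?_⟩
    have : y₀ ^ e ≠ 0 := pow_ne_zero _ hy00
    field_simp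
    rw [pow_two t, ← ht]
    ring
  · have h1 : 2 ^ padicValNat 2 (Fintype.card F - 1) ∣ m :=
      (pow_dvd_pow 2 hv).trans pow_padicValNat_dvd
    obtain ⟨e, he⟩ := h1
    rw [he, ← pow_mul, ← mul_assoc, mul_comm u, ← hu, pow_mul,
      FiniteField.pow_card_sub_one_eq_one y₀ hy00, one_pow]

/-! ### membership -/

omit [Fintype F] in
lemma mem_comap_iff {n : ℕ} (F₀ : Subfield F) (g : Matrix.SpecialLinearGroup (Fin n) F) :
    g ∈ ((Cfsg.Geo.subfieldSubgroup F₀ 1).comap
      (Matrix.SpecialLinearGroup.toGL : Matrix.SpecialLinearGroup (Fin n) F →* GL (Fin n) F)) ↔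
      ∃ c : F, c ≠ 0 ∧ IsRatM F₀ (c • (g : Matrix (Fin n) (Fin n) F)) := by
  rw [Subgroup.mem_comap, mem_subfieldSubgroup_one_iff]
  rfl

/-! ### explicit matrices -/

omit [Fintype F] in
lemma exists_rat_sq_zero {n s : ℕ} (hs : 2 * s ≤ n) :
    ∃ N' : Matrix (Fin n) (Fin n) F, N' * N' = 0 ∧ N'.rank = s ∧
      ∀ i j, N' i j = 0 ∨ N' i j = 1 := by
  classical
  obtain ⟨d, hd⟩ : ∃ d : Fin n → F, d = (fun i : Fin n => if (i : ℕ) < s then (1 : F) else 0) :=
    ⟨_, rfl⟩
  refine ⟨(diagonal d).submatrix (Equiv.refl (Fin n)) (Fin.revPerm : Fin n ≃ Fin n), ?_, ?_, ?_⟩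
  · ext i j
    rw [Matrix.mul_apply]
    apply Finset.sum_eq_zero
    intro l _
    simp only [submatrix_apply, Equiv.refl_apply, Fin.revPerm_apply, diagonal_apply]
    by_cases h1 : i = Fin.rev l
    · by_cases h2 : l = Fin.rev j
      · rw [if_pos h1, if_pos h2, hd]
        simp only
        by_cases h3 : (i : ℕ) < s
        · have h4 : ¬ (l : ℕ) < s := by
            have := congrArg Fin.val h1
            rw [Fin.val_rev] at this
            have := l.2
            omega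
          rw [if_neg h4, mul_zero]
        · rw [if_neg h3, zero_mul]
      · rw [if_neg h2, mul_zero]
    · rw [if_neg h1, zero_mul]
  · rw [Matrix.rank_submatrix, Matrix.rank_diagonal, hd]
    have : Fintype.card { i : Fin n // (if (i : ℕ) < s then (1 : F) else 0) ≠ 0 }
        = Fintype.card { i : Fin n // (i : ℕ) < s } := by
      apply Fintype.card_congr
      apply Equiv.subtypeEquivRight
      intro i
      by_cases h : (i : ℕ) < s <;> simp [h]
    rw [this, Fintype.card_subtype]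
    rw [Fin.card_filter_val_lt]
    omega
  · intro i j
    simp only [submatrix_apply, Equiv.refl_apply, Fin.revPerm_apply, diagonal_apply, hd]
    split_ifs <;> simp

omit [Fintype F] in
lemma exists_companion (m : ℕ) (z : F) :
    ∃ x : Matrix (Fin (2 * m)) (Fin (2 * m)) F, x * x = z • (1 : Matrix (Fin (2 * m)) (Fin (2 * m)) F) ∧
      x.det = (-z) ^ m := by
  classical
  obtain ⟨B, hB⟩ : ∃ B : Matrix (Fin 2) (Fin 2) F, B = !![0, z; 1, 0] := ⟨_, rfl⟩
  have hBB : B * B = z • (1 : Matrix (Fin 2) (Fin 2) F) := by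
    rw [hB]
    ext i j
    fin_cases i <;> fin_cases j <;> simp [Matrix.mul_apply, Fin.sum_univ_two]
  have hBd : B.det = -z := by
    rw [hB, Matrix.det_fin_two_of]; ring
  refine ⟨Matrix.reindexAlgEquiv F F (finProdFinEquiv : Fin 2 × Fin m ≃ Fin (2 * m))
    (blockDiagonal fun _ : Fin m => B), ?_, ?_⟩
  · rw [← map_mul, ← blockDiagonal_mul, hBB]
    have : (blockDiagonal fun _ : Fin m => z • (1 : Matrix (Fin 2) (Fin 2) F))
        = z • (1 : Matrix (Fin 2 × Fin m) (Fin 2 × Fin m) F) := by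
      rw [← blockDiagonal_one, ← blockDiagonal_smul]
      rfl
    rw [this, map_smul, map_one]
  · rw [Matrix.coe_reindexAlgEquiv, Matrix.det_reindex_self, Matrix.det_blockDiagonal]
    simp [hBd]

omit [Fintype F] in
lemma charpoly_diag {n c d : ℕ} (hcd : c + d = n) (w : F) :
    (diagonal fun i : Fin n => if (i : ℕ) < c then w else -w).charpoly
      = (X - C w) ^ c * (X + C w) ^ d := by
  classical
  rw [Matrix.charpoly_diagonal]
  have : ∀ i : Fin n, (X - C (if (i : ℕ) < c then w else -w) : F[X])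
      = if (i : ℕ) < c then (X - C w) else (X + C w) := by
    intro i
    split_ifs <;> simp
  simp_rw [this]
  rw [Finset.prod_ite, Finset.prod_const, Finset.prod_const, Fin.card_filter_val_lt]
  have h2 : (Finset.univ.filter fun i : Fin n => ¬ (i : ℕ) < c).card = d := by
    have := Finset.card_filter_add_card_filter_not (s := (Finset.univ : Finset (Fin n)))
      (fun i : Fin n => (i : ℕ) < c)
    rw [Fin.card_filter_val_lt, Finset.card_univ, Fintype.card_fin] at this
    omega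
  rw [h2, show min n c = c by omega]

/-! ### the index for odd `k` -/

lemma geom_aux (b k : ℕ) : b * (∑ i ∈ Finset.range k, (b + 1) ^ i) + 1 = (b + 1) ^ k := by
  induction k with
  | zero => simp
  | succ k ih =>
    rw [Finset.sum_range_succ, mul_add, pow_succ, ← ih]
    ring

lemma exists_odd_factor (a k : ℕ) (ha : Odd a) (hk : Odd k) :
    ∃ o, Odd o ∧ a ^ k - 1 = (a - 1) * o := by
  refine ⟨∑ i ∈ Finset.range k, a ^ i, ?_, ?_⟩
  · rw [Finset.odd_sum_iff_odd_card_odd]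
    have : (Finset.range k).filter (fun x => Odd (a ^ x)) = Finset.range k := by
      apply Finset.filter_true_of_mem
      intro x _
      exact ha.pow
    rw [this, Finset.card_range]
    exact hk
  · obtain ⟨b, rfl⟩ : ∃ b, a = b + 1 := ⟨a - 1, by have := ha.pos; omega⟩
    rw [← geom_aux b k]
    simp

lemma exists_odd_factor' (q₀ k n i : ℕ) (hq₀ : Odd q₀) (hk : Odd k) (hi : i < n) :
    ∃ o, Odd o ∧ (q₀ ^ k) ^ n - (q₀ ^ k) ^ i = (q₀ ^ n - q₀ ^ i) * o := by
  obtain ⟨o, ho, h⟩ := exists_odd_factor (q₀ ^ (n - i)) k hq₀.pow hk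
  refine ⟨q₀ ^ ((k - 1) * i) * o, (hq₀.pow).mul ho, ?_⟩
  have e1 : ∀ a : ℕ, a ^ n - a ^ i = a ^ i * (a ^ (n - i) - 1) := by
    intro a
    rw [Nat.mul_sub, ← pow_add, mul_one, Nat.add_sub_cancel' hi.le]
  rw [e1, e1, ← pow_mul q₀ k (n - i), mul_comm k (n - i), pow_mul q₀ (n - i) k, h]
  have : (q₀ ^ k) ^ i = q₀ ^ i * q₀ ^ ((k - 1) * i) := by
    rw [← pow_mul, ← pow_add]
    congr 1
    obtain ⟨k', rfl⟩ : ∃ k', k = k' + 1 := ⟨k - 1, by have := hk.pos; omega⟩
    simp only [Nat.add_sub_cancel]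
    ring
  rw [this]
  ring

lemma index_odd {n : ℕ} (F₀ : Subfield F) [Fintype F₀] (k : ℕ) (hk : Odd k)
    (hodd : Odd (Fintype.card F)) (hcard : Fintype.card F = Fintype.card F₀ ^ k)
    (h1 : Nat.card (Matrix.SpecialLinearGroup (Fin n) F) * (Fintype.card F - 1)
      = ∏ i : Fin n, (Fintype.card F ^ n - Fintype.card F ^ (i : ℕ)))
    (h2 : Nat.card (Matrix.SpecialLinearGroup (Fin n) F₀) * (Fintype.card F₀ - 1)
      = ∏ i : Fin n, (Fintype.card F₀ ^ n - Fintype.card F₀ ^ (i : ℕ))) :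
    Odd ((Cfsg.Geo.subfieldSubgroup F₀ 1).comap
      (Matrix.SpecialLinearGroup.toGL : Matrix.SpecialLinearGroup (Fin n) F →* GL (Fin n) F)).index := by
  classical
  obtain ⟨q₀, hq₀⟩ : ∃ q₀, q₀ = Fintype.card F₀ := ⟨_, rfl⟩
  obtain ⟨N, hN⟩ : ∃ N, N = ((Cfsg.Geo.subfieldSubgroup F₀ 1).comap
      (Matrix.SpecialLinearGroup.toGL : Matrix.SpecialLinearGroup (Fin n) F →* GL (Fin n) F)) :=
    ⟨_, rfl⟩
  rw [← hN]
  rw [← hq₀] at hcard h2
  rw [hcard] at h1 hodd
  have hq₀odd : Odd q₀ := by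
    rcases Nat.even_or_odd q₀ with he | ho
    · exfalso
      exact (Nat.not_even_iff_odd.mpr hodd) (he.pow_of_ne_zero (by have := hk.pos; omega))
    · exact ho
  have hq₀2 : 1 < q₀ := by rw [hq₀]; exact Fintype.one_lt_card
  -- the embedding
  have hinj : Function.Injective (Matrix.SpecialLinearGroup.map (n := Fin n) (F₀.subtype : F₀ →+* F)) := by
    intro a b hab
    ext i j
    have := congrArg (fun g : Matrix.SpecialLinearGroup (Fin n) F => (g : Matrix (Fin n) (Fin n) F) i j) hab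
    simpa using this
  have hle : (Matrix.SpecialLinearGroup.map (n := Fin n) (F₀.subtype : F₀ →+* F)).range ≤ N := by
    rintro _ ⟨g, rfl⟩
    rw [hN, mem_comap_iff]
    refine ⟨1, one_ne_zero, ?_⟩
    intro i j
    simp
  have hc1 : Nat.card (Matrix.SpecialLinearGroup.map (n := Fin n) (F₀.subtype : F₀ →+* F)).range
      = Nat.card (Matrix.SpecialLinearGroup (Fin n) F₀) :=
    (Nat.card_congr (MonoidHom.ofInjective hinj).toEquiv).symm
  obtain ⟨t, ht⟩ := Subgroup.card_dvd_of_le hle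
  rw [hc1] at ht
  have hidx := Subgroup.card_mul_index N
  obtain ⟨o₁, ho₁, e₁⟩ := exists_odd_factor q₀ k hq₀odd hk
  have hex : ∀ i : Fin n, ∃ o, Odd o ∧ (q₀ ^ k) ^ n - (q₀ ^ k) ^ (i : ℕ) = (q₀ ^ n - q₀ ^ (i : ℕ)) * o :=
    fun i => exists_odd_factor' q₀ k n i hq₀odd hk i.2
  choose o ho e using hex
  have hO : Odd (∏ i : Fin n, o i) :=
    Finset.prod_induction _ Odd (fun a b => Odd.mul) odd_one (fun i _ => ho i)
  simp_rw [e] at h1
  rw [Finset.prod_mul_distrib, ← h2, e₁, ← hidx, ht] at h1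
  have hpos : 0 < Nat.card (Matrix.SpecialLinearGroup (Fin n) F₀) := Nat.card_pos
  have h3 : (Nat.card (Matrix.SpecialLinearGroup (Fin n) F₀) * (q₀ - 1)) * (t * N.index * o₁)
      = (Nat.card (Matrix.SpecialLinearGroup (Fin n) F₀) * (q₀ - 1)) * ∏ i : Fin n, o i := by
    rw [← h1]; ring
  have h4 := Nat.eq_of_mul_eq_mul_left (Nat.mul_pos hpos (by omega)) h3
  rw [← h4] at hO
  exact (Nat.odd_mul.mp (Nat.odd_mul.mp hO).1).2

end Cfsg.Agent.Lib.Helper76EluSub
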