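import Mathlib
import Cfsg.Prelude.Def_GeometricClasses
import Cfsg.Agent.Lib.Helper99Blocks
import Cfsg.Agent.Lib.Helper76ImpDefs

set_option autoImplicit false

namespace Cfsg.Agent.Lib.Helper76ImpSPERM

open Module Cfsg.Geo Cfsg.Agent.Lib.Helper76ImpDefs Cfsg.Agent.Lib.Helper99Blocks

variable {F : Type*} [Field F] {n : ℕ}

theorem stab_of_perm (g : Module.End F (Fin n → F)) (hinj : Function.Injective g) (hn : 2 ≤ n)
    (J : Type) [Fintype J] (b : J → (Fin n → F)) (π : Equiv.Perm J) (d : F)
    (hli : LinearIndependent F b) (hspan : Submodule.span F (Set.range b) = ⊤)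
    (h : ∀ i, g (b i) = d • b (π i)) : Stab 1 n g := by
  classical
  have hcard : Fintype.card J = n := by
    have h1 := finrank_span_eq_card hli
    rw [hspan, finrank_top, Module.finrank_fin_fun] at h1
    exact h1.symm
  let γ : J ≃ Fin n := Fintype.equivFinOfCardEq hcard
  have hfib : ∀ j : Fin n, (Finset.univ.filter (fun i => γ i = j)).card = 1 := by
    intro j
    rw [Finset.card_eq_one]
    refine ⟨γ.symm j, ?_⟩
    ext i
    simp [Equiv.eq_symm_apply]
  refine ⟨blockSpan b γ, ⟨hn, Nat.one_pos, fun j => by rw [finrank_blockSpan hli, hfib],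
    iSupIndep_blockSpan hli γ, iSup_blockSpan hspan γ⟩, γ.permCongr π, fun j => ?_⟩
  apply map_blockSpan hli γ 1 hfib g hinj (γ.permCongr π)
  intro i
  rw [h i, Equiv.permCongr_apply, Equiv.symm_apply_apply]
  exact Submodule.smul_mem _ _ (mem_blockSpan b γ (π i))

theorem exists_dec (a t : ℕ) (ha : 1 ≤ a) (ht : 2 ≤ t) (hn : n = a * t) :
    ∃ D : Fin t → Submodule F (Fin n → F), IsMDecomposition a D := by
  classical
  subst hn
  let b : Fin (a * t) → (Fin (a * t) → F) := Pi.basisFun F (Fin (a * t))
  have hli : LinearIndependent F b := (Pi.basisFun F (Fin (a * t))).linearIndependent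
  have hspan : Submodule.span F (Set.range b) = ⊤ := (Pi.basisFun F (Fin (a * t))).span_eq
  let γ : Fin (a * t) → Fin t := fun i => (finProdFinEquiv.symm i).2
  have hfib : ∀ j : Fin t, (Finset.univ.filter (fun i => γ i = j)).card = a := by
    intro j
    rw [← Fintype.card_subtype]
    have e : {i : Fin (a * t) // γ i = j} ≃ Fin a :=
      { toFun := fun i => (finProdFinEquiv.symm i.1).1
        invFun := fun x => ⟨finProdFinEquiv (x, j), by
          show (finProdFinEquiv.symm (finProdFinEquiv (x, j))).2 = j
          rw [Equiv.symm_apply_apply]⟩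
        left_inv := by
          rintro ⟨i, hi⟩
          apply Subtype.ext
          show finProdFinEquiv ((finProdFinEquiv.symm i).1, j) = i
          rw [← hi]
          exact finProdFinEquiv.apply_symm_apply i
        right_inv := by
          intro x
          show (finProdFinEquiv.symm (finProdFinEquiv (x, j))).1 = x
          rw [Equiv.symm_apply_apply] }
    rw [Fintype.card_congr e, Fintype.card_fin]
  exact ⟨blockSpan b γ, ⟨ht, ha, fun j => by rw [finrank_blockSpan hli, hfib],
    iSupIndep_blockSpan hli γ, iSup_blockSpan hspan γ⟩⟩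

end Cfsg.Agent.Lib.Helper76ImpSPERM
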