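import Mathlib
import Cfsg.Prelude.Def_GeometricClasses
import Cfsg.Agent.Lib.Helper95Basic
import Cfsg.Agent.Lib.Helper76ImpSPERM

set_option autoImplicit false

namespace Cfsg.Agent.Lib.Helper76ImpC1C

open Module Cfsg.Geo Cfsg.Agent.Lib.Helper76ImpDefs Cfsg.Agent.Lib.Helper95Basic
open scoped MatrixGroups

variable {F : Type*} [Field F] {n : ℕ}

theorem isM_map {a t : ℕ} (g : GL (Fin n) F) (D : Fin t → Submodule F (Fin n → F))
    (hD : IsMDecomposition a D) :
    IsMDecomposition a (fun j => (D j).map (Matrix.toLin' (g : Matrix (Fin n) (Fin n) F))) := by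
  have he : Matrix.toLin' (g : Matrix (Fin n) (Fin n) F)
      = ((glEquiv (Fin n) F g : (Fin n → F) ≃ₗ[F] (Fin n → F)) : (Fin n → F) →ₗ[F] (Fin n → F)) := by
    apply LinearMap.ext
    intro x
    simp
  rw [he]
  refine ⟨hD.two_le, hD.pos, fun j => ?_, ?_, ?_⟩
  · rw [LinearEquiv.finrank_map_eq, hD.finrank_eq]
  · exact hD.indep.map_orderIso (Submodule.orderIsoMapComap (glEquiv (Fin n) F g))
  · rw [← Submodule.map_iSup, hD.iSup_eq_top, Submodule.map_top, LinearMap.range_eq_top]
    exact (glEquiv (Fin n) F g).surjective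

/-- the action of `GL` on families of subspaces -/
@[instance_reducible] noncomputable def act (t : ℕ) : MulAction (GL (Fin n) F) (Fin t → Submodule F (Fin n → F)) where
  smul g D := fun j => (D j).map (Matrix.toLin' (g : Matrix (Fin n) (Fin n) F))
  one_smul D := by
    funext j
    show (D j).map (Matrix.toLin' ((1 : GL (Fin n) F) : Matrix (Fin n) (Fin n) F)) = D j
    rw [Units.val_one, Matrix.toLin'_one, Submodule.map_id]
  mul_smul g h D := by
    funext j
    show (D j).map (Matrix.toLin' ((g * h : GL (Fin n) F) : Matrix (Fin n) (Fin n) F))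
      = ((D j).map (Matrix.toLin' (h : Matrix (Fin n) (Fin n) F))).map
          (Matrix.toLin' (g : Matrix (Fin n) (Fin n) F))
    rw [Units.val_mul, Matrix.toLin'_mul, Submodule.map_comp]

theorem card_dec_dvd [Fintype F] (a t : ℕ) (ha : 1 ≤ a) (ht : 2 ≤ t) (hn : n = a * t)
    (dec_trans : ∀ (D D' : Fin t → Submodule F (Fin n → F)), IsMDecomposition a D →
      IsMDecomposition a D' →
      ∃ g : GL (Fin n) F, ∀ j, (D j).map (Matrix.toLin' (g : Matrix (Fin n) (Fin n) F)) = D' j) :
    Nat.card {D : Fin t → Submodule F (Fin n → F) // IsMDecomposition a D}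
      ∣ Nat.card (GL (Fin n) F) := by
  classical
  let _ := act (F := F) (n := n) t
  obtain ⟨D₀, hD₀⟩ := Cfsg.Agent.Lib.Helper76ImpSPERM.exists_dec (F := F) a t ha ht hn
  have h1 : Nat.card {D : Fin t → Submodule F (Fin n → F) // IsMDecomposition a D}
      = Nat.card (MulAction.orbit (GL (Fin n) F) D₀) := by
    apply Nat.card_congr
    apply Equiv.subtypeEquivRight
    intro D
    constructor
    · intro hD
      obtain ⟨g, hg⟩ := dec_trans D₀ D hD₀ hD
      exact ⟨g, funext hg⟩
    · rintro ⟨g, rfl⟩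
      exact isM_map g D₀ hD₀
  rw [h1, Nat.card_coe_set_eq, ← MulAction.index_stabilizer]
  exact Subgroup.index_dvd_card _

end Cfsg.Agent.Lib.Helper76ImpC1C
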