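import Mathlib
import Cfsg.Prelude.Def_GeometricClasses
import Cfsg.Agent.Lib.Helper87EluTools
import Cfsg.Agent.Lib.Helper76OBlocksplus
import Cfsg.Agent.Lib.Helper76ImpDefs

set_option autoImplicit false

namespace Cfsg.Agent.Lib.Helper76ImpL1

open Module Cfsg.Geo Cfsg.Agent.Lib.Helper76ImpDefs

variable {F : Type*} [Field F] {n : ℕ}

theorem l1 {a t : ℕ} (r : ℕ) [Fact r.Prime] (f : Module.End F (Fin n → F)) (hf : f ^ r = 1)
    (D : Fin t → Submodule F (Fin n → F)) (hD : IsMDecomposition a D)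
    [Fintype F] (hr : ¬ r ∣ Fintype.card F) (hinv : ∀ j, (D j).map f ≤ D j) :
    t * (a % orderOf (Fintype.card F : ZMod r)) ≤ finrank F ↥(Module.End.eigenspace f 1) := by
  classical
  have hind : iSupIndep (fun j => D j ⊓ Module.End.eigenspace f 1) :=
    hD.indep.mono (fun j => inf_le_left)
  have h1 := Cfsg.Agent.Lib.Helper76OBlocksplus.finrank_iSup_of_indep _ hind
  have h2 : (⨆ j, D j ⊓ Module.End.eigenspace f 1) ≤ Module.End.eigenspace f 1 :=
    iSup_le fun j => inf_le_right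
  have h3 := Submodule.finrank_mono h2
  rw [h1] at h3
  refine le_trans ?_ h3
  have h4 : ∀ j ∈ (Finset.univ : Finset (Fin t)), a % orderOf (Fintype.card F : ZMod r)
      ≤ finrank F ↥(D j ⊓ Module.End.eigenspace f 1) := by
    intro j _
    obtain ⟨k, hk⟩ := Cfsg.Agent.Lib.Helper87EluB1.finrank_congr r hr f hf (D j) (hinv j)
    rw [hD.finrank_eq] at hk
    rw [hk, Nat.add_mul_mod_self_left]
    exact Nat.mod_le _ _
  have h5 := Finset.card_nsmul_le_sum _ _ _ h4
  simpa using h5

end Cfsg.Agent.Lib.Helper76ImpL1
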