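import Mathlib
import Cfsg.Prelude.Def_GeometricClasses
import Cfsg.Agent.Lib.Helper87EluTools
import Cfsg.Agent.Lib.Helper76OBlocksplus
import Cfsg.Agent.Lib.Helper29ImpL0

set_option autoImplicit false

namespace Cfsg.Agent.Lib.Helper76ImpL5

open Module Cfsg.Geo Cfsg.Agent.Lib.Helper29ImpL0

variable {F : Type*} [Field F] {n : ℕ}

theorem l5 {a t : ℕ} (r : ℕ) [Fact r.Prime] (f : Module.End F (Fin n → F)) (hf : f ^ r = 1)
    (D : Fin t → Submodule F (Fin n → F)) (hD : IsMDecomposition a D) (σ : Equiv.Perm (Fin t))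
    (hσ : ∀ j, (D j).map f = D (σ j))
    [Fintype F] (hr : ¬ r ∣ Fintype.card F) (ha : a = 1)
    (hc : 1 < orderOf (Fintype.card F : ZMod r)) :
    n ≤ r * finrank F ↥(Module.End.eigenspace f 1) := by
  classical
  subst ha
  have hrP : r.Prime := Fact.out
  obtain ⟨E, hE⟩ : ∃ E, E = Module.End.eigenspace f 1 := ⟨_, rfl⟩
  rw [← hE]
  have hfN : f * (∑ k ∈ Finset.range r, f ^ k) = ∑ k ∈ Finset.range r, f ^ k := by
    rw [Finset.mul_sum]
    have h1 : ∑ k ∈ Finset.range r, f * f ^ k = ∑ k ∈ Finset.range r, f ^ (k + 1) :=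
      Finset.sum_congr rfl (fun k _ => (pow_succ' f k).symm)
    have h2 := Finset.sum_range_succ' (fun k => f ^ k) r
    have h3 := Finset.sum_range_succ (fun k => f ^ k) r
    rw [h1]
    rw [h3, hf, pow_zero] at h2
    exact (add_right_cancel h2).symm
  have hσr := sigma_pow r f hf D hD σ hσ
  have hu : ∀ j, ∃ u : Fin n → F, u ≠ 0 ∧ u ∈ E ∧
      u ∈ ((Finset.range r).image (fun k => (σ ^ k) j)).sup D := by
    intro j
    by_cases hj : σ j = j
    · obtain ⟨k, hk⟩ := Cfsg.Agent.Lib.Helper87EluB1.finrank_congr r hr f hf (D j)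
        (by rw [hσ j, hj])
      rw [hD.finrank_eq] at hk
      have hk0 : k = 0 := by
        by_contra hk0
        have : orderOf (Fintype.card F : ZMod r) * 1 ≤ orderOf (Fintype.card F : ZMod r) * k :=
          Nat.mul_le_mul_left _ (Nat.pos_of_ne_zero hk0)
        omega
      subst hk0
      have hne : D j ⊓ Module.End.eigenspace f 1 ≠ ⊥ := by
        intro h
        rw [h, finrank_bot] at hk
        omega
      obtain ⟨u, hu, hu0⟩ := Submodule.exists_mem_ne_zero_of_ne_bot hne
      refine ⟨u, hu0, by rw [hE]; exact hu.2, ?_⟩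
      have : D j ≤ ((Finset.range r).image (fun k => (σ ^ k) j)).sup D :=
        Finset.le_sup (f := D) (Finset.mem_image.mpr ⟨0, Finset.mem_range.mpr hrP.pos, by simp⟩)
      exact this hu.1
    · have hne : D j ≠ ⊥ := by
        intro h
        have := hD.finrank_eq j
        rw [h, finrank_bot] at this
        omega
      obtain ⟨v, hv, hv0⟩ := Submodule.exists_mem_ne_zero_of_ne_bot hne
      refine ⟨(∑ k ∈ Finset.range r, f ^ k) v, ?_, ?_, ?_⟩
      · intro h1
        have hli := li_orbit r f hf D hD σ hσ j hj v hv hv0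
        rw [Fintype.linearIndependent_iff] at hli
        have h2 := hli (fun _ => 1) (by
          simp only [one_smul]
          rw [← Finset.sum_range (fun k => (f ^ k) (v : Fin n → F)), ← h1, LinearMap.sum_apply])
          ⟨0, hrP.pos⟩
        exact one_ne_zero h2
      · rw [hE, Module.End.mem_eigenspace_iff, one_smul, ← Module.End.mul_apply, hfN]
      · rw [LinearMap.sum_apply]
        apply Submodule.sum_mem
        intro k hk
        have h1 : D ((σ ^ k) j) ≤ ((Finset.range r).image (fun k => (σ ^ k) j)).sup D :=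
          Finset.le_sup (f := D) (Finset.mem_image.mpr ⟨k, hk, rfl⟩)
        apply h1
        rw [← map_pow f D σ hσ]
        exact Submodule.mem_map_of_mem hv
  have main : ∀ m, ∀ A : Finset (Fin t), A.card ≤ m → (∀ i ∈ A, σ i ∈ A) →
      A.card ≤ r * finrank F ↥(E ⊓ A.sup D) := by
    intro m
    induction m with
    | zero =>
      intro A hA _
      omega
    | succ m ih =>
      intro A hA hstab
      rcases A.eq_empty_or_nonempty with rfl | ⟨j, hjA⟩
      · simp
      obtain ⟨O, hO⟩ : ∃ O, O = (Finset.range r).image (fun k => (σ ^ k) j) := ⟨_, rfl⟩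
      have hpowA : ∀ k, (σ ^ k) j ∈ A := by
        intro k
        induction k with
        | zero => simpa using hjA
        | succ k ihk =>
          rw [pow_succ', Equiv.Perm.mul_apply]
          exact hstab _ ihk
      have hOA : O ⊆ A := by
        intro i hi
        rw [hO, Finset.mem_image] at hi
        obtain ⟨k, -, rfl⟩ := hi
        exact hpowA k
      have hjO : j ∈ O := by
        rw [hO]
        exact Finset.mem_image.mpr ⟨0, Finset.mem_range.mpr hrP.pos, by simp⟩
      have hOr : O.card ≤ r := by
        rw [hO]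
        exact Finset.card_image_le.trans (by simp)
      have hO1 : 1 ≤ O.card := Finset.card_pos.mpr ⟨j, hjO⟩
      have hcard := Finset.card_sdiff_add_card_eq_card hOA
      have hstab' : ∀ i ∈ A \ O, σ i ∈ A \ O := by
        intro i hi
        rw [Finset.mem_sdiff] at hi ⊢
        refine ⟨hstab i hi.1, fun h => hi.2 ?_⟩
        rw [hO, Finset.mem_image] at h ⊢
        obtain ⟨k, hk, hki⟩ := h
        rw [Finset.mem_range] at hk
        rcases Nat.eq_zero_or_pos k with rfl | hk0
        · refine ⟨r - 1, Finset.mem_range.mpr (by have := hrP.pos; omega), ?_⟩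
          apply σ.injective
          rw [← Equiv.Perm.mul_apply, ← pow_succ', Nat.sub_add_cancel hrP.pos, hσr, ← hki]
          simp
        · refine ⟨k - 1, Finset.mem_range.mpr (by omega), ?_⟩
          apply σ.injective
          rw [← Equiv.Perm.mul_apply, ← pow_succ', Nat.sub_add_cancel hk0, hki]
      have ih' := ih (A \ O) (by omega) hstab'
      obtain ⟨u, hu0, huE, huO⟩ := hu j
      rw [← hO] at huO
      have hdisj : Disjoint ((A \ O).sup D) (O.sup D) :=
        (hD.indep.supIndep' Finset.univ).disjoint_sup_sup (Finset.subset_univ _)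
          (Finset.subset_univ _) Finset.sdiff_disjoint
      have hinf : (E ⊓ (A \ O).sup D) ⊓ Submodule.span F {u} = ⊥ := by
        rw [← disjoint_iff]
        apply hdisj.mono inf_le_right
        rw [Submodule.span_le]
        simpa using huO
      have h1 := Cfsg.Agent.Lib.Helper87EluB4.finrank_sup_of_disjoint _ _ hinf
      rw [finrank_span_singleton hu0] at h1
      have h2 : (E ⊓ (A \ O).sup D) ⊔ Submodule.span F {u} ≤ E ⊓ A.sup D := by
        apply sup_le
        · exact inf_le_inf_left _ (Finset.sup_mono Finset.sdiff_subset)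
        · rw [Submodule.span_le]
          have hOA' : O.sup D ≤ A.sup D := Finset.sup_mono hOA
          have : u ∈ E ⊓ A.sup D := ⟨huE, hOA' huO⟩
          simpa using this
      have h3 := Submodule.finrank_mono h2
      rw [h1] at h3
      calc A.card = (A \ O).card + O.card := hcard.symm
        _ ≤ r * finrank F ↥(E ⊓ (A \ O).sup D) + r := Nat.add_le_add ih' hOr
        _ = r * (finrank F ↥(E ⊓ (A \ O).sup D) + 1) := by ring
        _ ≤ _ := Nat.mul_le_mul_left r h3
  have hfin := main t Finset.univ (by simp) (fun i _ => Finset.mem_univ _)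
  rw [Finset.sup_univ_eq_iSup, hD.iSup_eq_top, inf_top_eq, Finset.card_univ, Fintype.card_fin] at hfin
  have htn : n = t := by
    have h1 := Cfsg.Agent.Lib.Helper76OBlocksplus.finrank_iSup_of_indep D hD.indep
    have h2 : (⨆ i, D i) = ⊤ := hD.iSup_eq_top
    rw [h2, finrank_top, finrank_fin_fun] at h1
    rw [h1]
    simp [hD.finrank_eq]
  omega

end Cfsg.Agent.Lib.Helper76ImpL5
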