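import Mathlib
import Cfsg.Prelude.Def_ClassicalGeometry

set_option autoImplicit false

namespace Cfsg.Agent.Lib.Helper76PolDefs

variable {F : Type*} [Field F]

/-- `U` is totally isotropic for the standard symplectic form -/
def TI {d : ℕ} (U : Submodule F (Fin d ⊕ Fin d → F)) : Prop :=
  ∀ u ∈ U, ∀ v ∈ U, Cfsg.sympForm d F u v = 0

end Cfsg.Agent.Lib.Helper76PolDefs
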