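import Mathlib
import Cfsg.Prelude.Def_ClassicalGeometry
import Cfsg.Agent.Lib.Helper17Symp2
import Cfsg.Agent.Lib.Helper76PolDefs

set_option autoImplicit false

namespace Cfsg.Agent.Lib.Helper76PolArith

open Cfsg Matrix Cfsg.Agent.Lib.Helper17Symp Cfsg.Agent.Lib.Helper76PolDefs

theorem arith0 {q d N : ℕ} (hq : 1 < q)
    (hN : N * ∏ i : Fin d, (q ^ d - q ^ (i : ℕ))
      = q ^ (d ^ 2) * ∏ i ∈ Finset.range d, (q ^ (2 * (i + 1)) - 1)) :
    N * ∏ i ∈ Finset.range d, q ^ i = q ^ (d ^ 2) * ∏ i ∈ Finset.range d, (q ^ (i + 1) + 1) := by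
  have e1 : ∏ i : Fin d, (q ^ d - q ^ (i : ℕ))
      = (∏ i ∈ Finset.range d, q ^ i) * ∏ i ∈ Finset.range d, (q ^ (i + 1) - 1) := by
    rw [Fin.prod_univ_eq_prod_range (fun i => q ^ d - q ^ i) d,
      ← Finset.prod_range_reflect (fun i => q ^ (i + 1) - 1) d, ← Finset.prod_mul_distrib]
    apply Finset.prod_congr rfl
    intro i hi
    rw [Finset.mem_range] at hi
    rw [show d - 1 - i + 1 = d - i by omega, Nat.mul_sub, ← pow_add, mul_one,
      Nat.add_sub_cancel' hi.le]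
  have e2 : ∏ i ∈ Finset.range d, (q ^ (2 * (i + 1)) - 1)
      = (∏ i ∈ Finset.range d, (q ^ (i + 1) + 1)) * ∏ i ∈ Finset.range d, (q ^ (i + 1) - 1) := by
    rw [← Finset.prod_mul_distrib]
    apply Finset.prod_congr rfl
    intro i _
    have := Nat.sq_sub_sq (q ^ (i + 1)) 1
    rw [one_pow, ← pow_mul, mul_comm (i + 1) 2] at this
    exact this
  rw [e1, e2, ← mul_assoc, ← mul_assoc] at hN
  have hpos : 0 < ∏ i ∈ Finset.range d, (q ^ (i + 1) - 1) := by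
    apply Finset.prod_pos
    intro i _
    have : 1 < q ^ (i + 1) := Nat.one_lt_pow (by omega) hq
    omega
  exact Nat.eq_of_mul_eq_mul_right hpos hN

theorem arith {q d r N : ℕ} [Fact r.Prime] (hr2 : r ≠ 2) (hrq : ¬ r ∣ q) (hq : 1 < q)
    (hN : N * ∏ i : Fin d, (q ^ d - q ^ (i : ℕ))
      = q ^ (d ^ 2) * ∏ i ∈ Finset.range d, (q ^ (2 * (i + 1)) - 1)) (hr : r ∣ N) :
    ∃ j, 0 < j ∧ j ≤ d ∧ orderOf ((q : ℕ) : ZMod r) = 2 * j := by
  have hrp : r.Prime := Fact.out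
  have h0 := arith0 hq hN
  have h1 : r ∣ q ^ (d ^ 2) * ∏ i ∈ Finset.range d, (q ^ (i + 1) + 1) := by
    rw [← h0]; exact hr.mul_right _
  have h2 : r ∣ ∏ i ∈ Finset.range d, (q ^ (i + 1) + 1) := by
    rcases hrp.dvd_mul.mp h1 with h | h
    · exact absurd (hrp.dvd_of_dvd_pow h) hrq
    · exact h
  obtain ⟨i, hi, h3⟩ := (Prime.dvd_finsetProd_iff hrp.prime _).mp h2
  rw [Finset.mem_range] at hi
  obtain ⟨Q, hQ⟩ : ∃ Q : ZMod r, Q = ((q : ℕ) : ZMod r) := ⟨_, rfl⟩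
  rw [← hQ]
  have h4 : Q ^ (i + 1) = -1 := by
    rw [← ZMod.natCast_eq_zero_iff] at h3
    push_cast at h3
    rw [hQ]
    exact eq_neg_of_add_eq_zero_left h3
  have h5 : orderOf Q ∣ 2 * (i + 1) := by
    apply orderOf_dvd_of_pow_eq_one
    rw [mul_comm, pow_mul, h4]; norm_num
  have h6 : ¬ orderOf Q ∣ (i + 1) := by
    intro h
    have h7 := orderOf_dvd_iff_pow_eq_one.mp h
    rw [h4] at h7
    have h8 : ((2 : ℕ) : ZMod r) = 0 := by
      push_cast
      have : (2 : ZMod r) = 1 - (-1) := by ring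
      rw [this, h7]; ring
    rw [ZMod.natCast_eq_zero_iff] at h8
    exact hr2 ((Nat.prime_dvd_prime_iff_eq hrp Nat.prime_two).mp h8)
  have h7 : 2 ∣ orderOf Q := by
    by_contra h
    have hc : Nat.Coprime (orderOf Q) 2 := by
      rw [Nat.coprime_comm, Nat.Prime.coprime_iff_not_dvd Nat.prime_two]; exact h
    exact h6 (hc.dvd_of_dvd_mul_left h5)
  obtain ⟨j, hj⟩ := h7
  rw [hj] at h5
  have h8 : j ∣ i + 1 := Nat.dvd_of_mul_dvd_mul_left (by norm_num) h5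
  have h9 : j ≤ i + 1 := Nat.le_of_dvd (by omega) h8
  refine ⟨j, Nat.pos_of_dvd_of_pos h8 (by omega), by omega, hj⟩

theorem arith_even {q d N : ℕ} (hodd : Odd q) (hd : 0 < d) (hq : 1 < q)
    (hN : N * ∏ i : Fin d, (q ^ d - q ^ (i : ℕ))
      = q ^ (d ^ 2) * ∏ i ∈ Finset.range d, (q ^ (2 * (i + 1)) - 1)) : 2 ∣ N := by
  have h0 := arith0 hq hN
  have h1 : 2 ∣ ∏ i ∈ Finset.range d, (q ^ (i + 1) + 1) := by
    apply Dvd.dvd.trans _ (Finset.dvd_prod_of_mem _ (Finset.mem_range.mpr hd))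
    obtain ⟨t, rfl⟩ := hodd
    exact ⟨t + 1, by ring⟩
  have h2 : 2 ∣ N * ∏ i ∈ Finset.range d, q ^ i := by
    rw [h0]; exact h1.mul_left _
  have h3 : Odd (∏ i ∈ Finset.range d, q ^ i) :=
    Finset.prod_induction _ Odd (fun a b => Odd.mul) odd_one (fun i _ => hodd.pow)
  rcases Nat.prime_two.dvd_mul.mp h2 with h | h
  · exact h
  · exact absurd (even_iff_two_dvd.mpr h) (Nat.not_even_iff_odd.mpr h3)

variable {F : Type*} [Field F]

theorem map_pow_aux {d : ℕ} (X : Module.End F (Fin d ⊕ Fin d → F))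
    (U W : Submodule F (Fin d ⊕ Fin d → F)) (hxU : U.map X = W) (hxW : W.map X = U) (t : ℕ) :
    U.map (X ^ (2 * t)) = U := by
  induction t with
  | zero =>
    rw [mul_zero, pow_zero]
    exact Submodule.map_id U
  | succ t ih =>
    rw [show 2 * (t + 1) = 2 * t + 1 + 1 by ring, pow_succ, pow_succ, mul_assoc, Module.End.mul_eq_comp,
      Submodule.map_comp, Module.End.mul_eq_comp, Submodule.map_comp, hxU, hxW, ih]

theorem eq_of_swap {d r : ℕ} (hr : Odd r)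
    (x : Matrix.symplecticGroup (Fin d) F) (hx : x ^ r = 1)
    (U W : Submodule F (Fin d ⊕ Fin d → F))
    (hxU : U.map (Matrix.toLin' (x : Matrix (Fin d ⊕ Fin d) (Fin d ⊕ Fin d) F)) = W)
    (hxW : W.map (Matrix.toLin' (x : Matrix (Fin d ⊕ Fin d) (Fin d ⊕ Fin d) F)) = U) : U = W := by
  obtain ⟨t, rfl⟩ := hr
  obtain ⟨X, hX⟩ : ∃ X : Module.End F (Fin d ⊕ Fin d → F),
      X = Matrix.toLin' (x : Matrix (Fin d ⊕ Fin d) (Fin d ⊕ Fin d) F) := ⟨_, rfl⟩
  rw [← hX] at hxU hxW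
  have h1 : X ^ (2 * t + 1) = 1 := by
    have := congrArg (fun y : Matrix.symplecticGroup (Fin d) F =>
      Matrix.toLin' (y : Matrix (Fin d ⊕ Fin d) (Fin d ⊕ Fin d) F)) hx
    simp only [SubmonoidClass.coe_pow, OneMemClass.coe_one, Matrix.toLin'_one] at this
    rw [hX, ← Matrix.toLin'_pow]
    exact this
  have h2 := map_pow_aux X U W hxU hxW t
  have h3 : U.map (X ^ (2 * t + 1)) = W := by
    rw [pow_succ', Module.End.mul_eq_comp, Submodule.map_comp, h2, hxU]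
  rw [h1] at h3
  rw [← h3]
  exact (Submodule.map_id U).symm

theorem not_scalar {d r : ℕ} (hr : Odd r)
    (x : Matrix.symplecticGroup (Fin d) F) (hx : x ^ r = 1) (hx1 : x ≠ 1) (z : F) :
    (x : Matrix (Fin d ⊕ Fin d) (Fin d ⊕ Fin d) F)
      ≠ z • (1 : Matrix (Fin d ⊕ Fin d) (Fin d ⊕ Fin d) F) := by
  intro h
  apply hx1
  apply Subtype.ext
  rw [h]
  rcases Nat.eq_zero_or_pos d with rfl | hd
  · ext i j
    rcases i with i | i <;> exact i.elim0
  have i0 : Fin d := ⟨0, hd⟩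
  -- `z ^ 2 = 1`
  have h1 : z * z = 1 := by
    have := Cfsg.Agent.Lib.Helper17Symp2.preserves x (Pi.single (Sum.inr i0) 1) (Pi.single (Sum.inl i0) 1)
    rw [h, Matrix.smul_mulVec, Matrix.smul_mulVec, Matrix.one_mulVec, Matrix.one_mulVec,
      sympForm_smul_left, sympForm_smul_right, sympForm_single_inl] at this
    simpa [mul_assoc] using this
  have h2 : z ^ r = 1 := by
    have := congrArg (fun y : Matrix.symplecticGroup (Fin d) F =>
      (y : Matrix (Fin d ⊕ Fin d) (Fin d ⊕ Fin d) F) (Sum.inl i0) (Sum.inl i0)) hx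
    simp only [SubmonoidClass.coe_pow, OneMemClass.coe_one, h] at this
    rw [smul_pow, one_pow] at this
    simpa using this
  obtain ⟨t, rfl⟩ := hr
  rw [pow_succ, pow_mul, pow_two, h1, one_pow, one_mul] at h2
  rw [h2, one_smul]
  rfl

end Cfsg.Agent.Lib.Helper76PolArith
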