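import Mathlib
import Cfsg.Prelude.Def_ClassicalGeometry
import Cfsg.Agent.Lib.Helper7SpFrame
import Cfsg.Agent.Lib.Helper17SpCount
import Cfsg.Agent.Lib.Helper76PolDefs

set_option autoImplicit false

namespace Cfsg.Agent.Lib.Helper76PolDIM

open Cfsg Matrix Cfsg.Agent.Lib.Helper7SpFrame Cfsg.Agent.Lib.Helper17Symp
  Cfsg.Agent.Lib.Helper76PolDefs

variable {F : Type*} [Field F]

theorem finrank_le_of_TI {d : ℕ} (U : Submodule F (Fin d ⊕ Fin d → F)) (hU : TI U) :
    Module.finrank F U ≤ d := by
  have h1 := LinearMap.BilinForm.finrank_orthogonal (Cfsg.Agent.Lib.Helper17SpCount.sB_nondeg (F := F) d) U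
  have h2 : U ≤ (sB (F := F) d).orthogonal U := by
    intro u hu
    rw [LinearMap.BilinForm.mem_orthogonal_iff]
    intro n hn
    rw [sB_apply]
    exact hU n hn u hu
  have h3 := Submodule.finrank_mono h2
  have h4 : Module.finrank F (Fin d ⊕ Fin d → F) = d + d := by simp
  omega

theorem finrank_of_pair {d : ℕ} (U W : Submodule F (Fin d ⊕ Fin d → F)) (hc : IsCompl U W)
    (hU : TI U) (hW : TI W) : Module.finrank F U = d ∧ Module.finrank F W = d := by
  have h1 := finrank_le_of_TI U hU
  have h2 := finrank_le_of_TI W hW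
  have h3 := Submodule.finrank_add_eq_of_isCompl hc
  have h4 : Module.finrank F (Fin d ⊕ Fin d → F) = d + d := by simp
  omega

/-- a vector of `W` orthogonal to `U` vanishes -/
theorem eq_zero_of_perp {d : ℕ} (U W : Submodule F (Fin d ⊕ Fin d → F)) (hc : IsCompl U W)
    (hW : TI W) (w : Fin d ⊕ Fin d → F) (hw : w ∈ W) (h : ∀ u ∈ U, sympForm d F u w = 0) : w = 0 := by
  apply sympForm_nondeg d w
  intro v
  have hv : v ∈ U ⊔ W := by rw [hc.sup_eq_top]; trivial
  obtain ⟨a, ha, b, hb, rfl⟩ := Submodule.mem_sup.mp hv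
  rw [sympForm_add_right, hW w hw b hb, add_zero, sympForm_swap, h a ha, neg_zero]

theorem existsUnique_dual {d : ℕ} (U W : Submodule F (Fin d ⊕ Fin d → F)) (hc : IsCompl U W)
    (hU : TI U) (hW : TI W) (u : Fin d → (Fin d ⊕ Fin d → F)) (hu : ∀ i, u i ∈ U)
    (hli : LinearIndependent F u) :
    ∃! w : Fin d → (Fin d ⊕ Fin d → F), (∀ i, w i ∈ W) ∧ IsFrame (fun i => (u i, w i)) := by
  obtain ⟨hdU, hdW⟩ := finrank_of_pair U W hc hU hW
  have hspan : Submodule.span F (Set.range u) = U := by
    apply Submodule.eq_of_le_of_finrank_eq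
    · rw [Submodule.span_le]
      rintro _ ⟨i, rfl⟩
      exact hu i
    · rw [finrank_span_eq_card hli, hdU, Fintype.card_fin]
  -- the pairing map
  let T : W →ₗ[F] (Fin d → F) := LinearMap.pi fun j => ((sB (F := F) d) (u j)).comp W.subtype
  have hT : ∀ (w : W) j, T w j = sympForm d F (u j) w := by
    intro w j
    simp [T, sB_apply]
  have hinj : Function.Injective T := by
    rw [← LinearMap.ker_eq_bot, LinearMap.ker_eq_bot']
    intro w hw
    apply Subtype.ext
    apply eq_zero_of_perp U W hc hW w w.2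
    intro a ha
    rw [← hspan] at ha
    induction ha using Submodule.span_induction with
    | mem x hx =>
      obtain ⟨j, rfl⟩ := hx
      rw [← hT, hw]; rfl
    | zero => exact sympForm_zero_left d _
    | add x y _ _ hx hy => rw [sympForm_add_left, hx, hy, add_zero]
    | smul c x _ hx => rw [sympForm_smul_left, hx, mul_zero]
  have hsurj : Function.Surjective T :=
    (LinearMap.injective_iff_surjective_of_finrank_eq_finrank (by rw [hdW]; simp)).mp hinj
  choose w hw using fun i : Fin d => hsurj (Pi.single i 1)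
  have hw' : ∀ i j, sympForm d F (u j) (w i) = if j = i then 1 else 0 := by
    intro i j
    rw [← hT, hw, Pi.single_apply]
  refine ⟨fun i => (w i : Fin d ⊕ Fin d → F), ⟨fun i => (w i).2, ?_, ?_⟩, ?_⟩
  · intro i
    show sympForm d F (u i) (w i) = 1
    rw [hw', if_pos rfl]
  · intro i j hij
    refine ⟨⟨hU _ (hu i) _ (hu j), ?_⟩, ⟨?_, hW _ (w i).2 _ (w j).2⟩⟩
    · show sympForm d F (u i) (w j) = 0
      rw [hw', if_neg hij]
    · show sympForm d F (w i) (u j) = 0
      rw [sympForm_swap, hw', if_neg (Ne.symm hij), neg_zero]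
  · rintro w' ⟨hw'W, hfr⟩
    funext i
    have : (⟨w' i, hw'W i⟩ : W) = w i := by
      apply hinj
      funext j
      rw [hT, hT, hw']
      by_cases hji : j = i
      · subst hji
        rw [if_pos rfl]
        exact hfr.1 j
      · rw [if_neg hji]
        exact (hfr.2 j i hji).1.2
    exact congrArg Subtype.val this

end Cfsg.Agent.Lib.Helper76PolDIM
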