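import Mathlib
import Cfsg.Prelude.Def_ClassicalGeometry
import Cfsg.Agent.Lib.Helper7SpFrame
import Cfsg.Agent.Lib.Helper76PolDIM

set_option autoImplicit false

namespace Cfsg.Agent.Lib.Helper76PolFRAME

open Cfsg Matrix Cfsg.Agent.Lib.Helper7SpFrame Cfsg.Agent.Lib.Helper17Symp
  Cfsg.Agent.Lib.Helper76PolDefs Cfsg.Agent.Lib.Helper76PolDIM

variable {F : Type*} [Field F]

theorem perp_span_left {d : ℕ} {ι : Type*} (u : ι → (Fin d ⊕ Fin d → F)) (b : Fin d ⊕ Fin d → F)
    (h : ∀ i, sympForm d F (u i) b = 0) (a : Fin d ⊕ Fin d → F)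
    (ha : a ∈ Submodule.span F (Set.range u)) : sympForm d F a b = 0 := by
  induction ha using Submodule.span_induction with
  | mem x hx =>
    obtain ⟨j, rfl⟩ := hx
    exact h j
  | zero => exact sympForm_zero_left d _
  | add x y _ _ hx hy => rw [sympForm_add_left, hx, hy, add_zero]
  | smul c x _ hx => rw [sympForm_smul_left, hx, mul_zero]

theorem TI_span {d : ℕ} {ι : Type*} (u : ι → (Fin d ⊕ Fin d → F))
    (h : ∀ i j, sympForm d F (u i) (u j) = 0) : TI (Submodule.span F (Set.range u)) := by
  intro a ha b hb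
  apply perp_span_left u b _ a ha
  intro i
  rw [sympForm_swap, perp_span_left u (u i) (fun j => h j i) b hb, neg_zero]

theorem form_sum_left {d : ℕ} (u : Fin d → (Fin d ⊕ Fin d → F)) (c : Fin d → F)
    (b : Fin d ⊕ Fin d → F) :
    sympForm d F (∑ i, c i • u i) b = ∑ i, c i * sympForm d F (u i) b := by
  rw [← sB_apply, map_sum, LinearMap.sum_apply]
  apply Finset.sum_congr rfl
  intro i _
  rw [map_smul, LinearMap.smul_apply, sB_apply, smul_eq_mul]

theorem coeff_of_dual {d : ℕ} (u w : Fin d → (Fin d ⊕ Fin d → F))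
    (h : ∀ i j, sympForm d F (u i) (w j) = if i = j then 1 else 0) (c : Fin d → F) (j : Fin d) :
    sympForm d F (∑ i, c i • u i) (w j) = c j := by
  rw [form_sum_left]
  simp [h]

theorem li_of_dual {d : ℕ} (u w : Fin d → (Fin d ⊕ Fin d → F))
    (h : ∀ i j, sympForm d F (u i) (w j) = if i = j then 1 else 0) : LinearIndependent F u := by
  rw [Fintype.linearIndependent_iff]
  intro c hc j
  rw [← coeff_of_dual u w h c j, hc, sympForm_zero_left]

theorem pair_of_frame {d : ℕ} (φ : Fin d → (Fin d ⊕ Fin d → F) × (Fin d ⊕ Fin d → F))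
    (hφ : IsFrame φ) :
    IsCompl (Submodule.span F (Set.range fun i => (φ i).1))
      (Submodule.span F (Set.range fun i => (φ i).2)) ∧
    TI (Submodule.span F (Set.range fun i => (φ i).1)) ∧
    TI (Submodule.span F (Set.range fun i => (φ i).2)) ∧
    LinearIndependent F (fun i => (φ i).1) := by
  have huw : ∀ i j, sympForm d F (φ i).1 (φ j).2 = if i = j then 1 else 0 := by
    intro i j
    by_cases hij : i = j
    · subst hij; rw [if_pos rfl]; exact hφ.1 i
    · rw [if_neg hij]; exact (hφ.2 i j hij).1.2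
  have hwu : ∀ i j, sympForm d F (-(φ i).2) (φ j).1 = if i = j then 1 else 0 := by
    intro i j
    rw [sympForm_neg_left, ← sympForm_swap, huw]
    simp [eq_comm]
  have huu : ∀ i j, sympForm d F (φ i).1 (φ j).1 = 0 := by
    intro i j
    by_cases hij : i = j
    · subst hij; exact sympForm_self d _
    · exact (hφ.2 i j hij).1.1
  have hww : ∀ i j, sympForm d F (φ i).2 (φ j).2 = 0 := by
    intro i j
    by_cases hij : i = j
    · subst hij; exact sympForm_self d _
    · exact (hφ.2 i j hij).2.2
  have hTU := TI_span (fun i => (φ i).1) huu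
  have hTW := TI_span (fun i => (φ i).2) hww
  have hliu : LinearIndependent F (fun i => (φ i).1) := li_of_dual _ _ huw
  have hliw : LinearIndependent F (fun i => (φ i).2) := by
    have := li_of_dual _ _ hwu
    have h2 := this.units_smul (fun _ => (-1 : Fˣ))
    convert h2 using 1
    funext i
    simp
  refine ⟨?_, hTU, hTW, hliu⟩
  have hdisj : Disjoint (Submodule.span F (Set.range fun i => (φ i).1))
      (Submodule.span F (Set.range fun i => (φ i).2)) := by
    rw [Submodule.disjoint_def]
    intro v hv1 hv2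
    obtain ⟨c, rfl⟩ := (Submodule.mem_span_range_iff_exists_fun F).mp hv1
    have hc : ∀ j, c j = 0 := by
      intro j
      rw [← coeff_of_dual _ _ huw c j]
      exact hTW _ hv2 _ (Submodule.subset_span ⟨j, rfl⟩)
    simp [hc]
  refine ⟨hdisj, ?_⟩
  rw [codisjoint_iff]
  apply Submodule.eq_top_of_finrank_eq
  have h1 := Submodule.finrank_sup_add_finrank_inf_eq (Submodule.span F (Set.range fun i => (φ i).1))
    (Submodule.span F (Set.range fun i => (φ i).2))
  rw [hdisj.eq_bot, finrank_bot, finrank_span_eq_card hliu, finrank_span_eq_card hliw,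
    Fintype.card_fin] at h1
  rw [add_zero] at h1
  rw [h1]
  simp

end Cfsg.Agent.Lib.Helper76PolFRAME
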