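import Mathlib
import Cfsg.Prelude.Def_ClassicalGeometry
import Cfsg.Agent.Lib.Helper7SpFrame
import Cfsg.Agent.Lib.Helper76PolFRAME

set_option autoImplicit false

namespace Cfsg.Agent.Lib.Helper76PolCOUNT

open Cfsg Matrix Cfsg.Agent.Lib.Helper7SpFrame Cfsg.Agent.Lib.Helper17Symp
  Cfsg.Agent.Lib.Helper76PolDefs Cfsg.Agent.Lib.Helper76PolDIM Cfsg.Agent.Lib.Helper76PolFRAME

variable {F : Type*} [Field F]

theorem li_snd_of_frame {d : ℕ} (φ : Fin d → (Fin d ⊕ Fin d → F) × (Fin d ⊕ Fin d → F))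
    (hφ : IsFrame φ) : LinearIndependent F (fun i => (φ i).2) := by
  have huw : ∀ i j, sympForm d F (φ i).1 (φ j).2 = if i = j then 1 else 0 := by
    intro i j
    by_cases hij : i = j
    · subst hij; rw [if_pos rfl]; exact hφ.1 i
    · rw [if_neg hij]; exact (hφ.2 i j hij).1.2
  have hwu : ∀ i j, sympForm d F (-(φ i).2) (φ j).1 = if i = j then 1 else 0 := by
    intro i j
    rw [sympForm_neg_left, ← sympForm_swap, huw]
    simp [eq_comm]
  have := li_of_dual _ _ hwu
  have h2 := this.units_smul (fun _ => (-1 : Fˣ))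
  convert h2 using 1
  funext i
  simp

/-- the ordered polar pairs -/
abbrev Pairs (d : ℕ) (F : Type*) [Field F] : Type _ :=
  {P : Submodule F (Fin d ⊕ Fin d → F) × Submodule F (Fin d ⊕ Fin d → F) //
        IsCompl P.1 P.2 ∧ (∀ u ∈ P.1, ∀ v ∈ P.1, Cfsg.sympForm d F u v = 0) ∧
          (∀ u ∈ P.2, ∀ v ∈ P.2, Cfsg.sympForm d F u v = 0)}

/-- the frames -/
abbrev Fr (d : ℕ) (F : Type*) [Field F] : Type _ :=
  {φ : Fin d → (Fin d ⊕ Fin d → F) × (Fin d ⊕ Fin d → F) // IsFrame φ}

/-- the pair spanned by a frame -/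
noncomputable def pr {d : ℕ} (φ : Fr d F) : Pairs d F :=
  ⟨(Submodule.span F (Set.range fun i => (φ.1 i).1), Submodule.span F (Set.range fun i => (φ.1 i).2)),
    (pair_of_frame φ.1 φ.2).1, (pair_of_frame φ.1 φ.2).2.1, (pair_of_frame φ.1 φ.2).2.2.1⟩

/-- the first half of a frame in the fibre over `P` -/
noncomputable def fst {d : ℕ} (P : Pairs d F) (φ : {φ : Fr d F // pr φ = P}) :
    {s : Fin d → P.1.1 // LinearIndependent F s} :=
  ⟨fun i => ⟨(φ.1.1 i).1, by
      have := congrArg (fun Q : Pairs d F => Q.1.1) φ.2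
      simp only [pr] at this
      rw [← this]
      exact Submodule.subset_span ⟨i, rfl⟩⟩, by
    have h := (pair_of_frame φ.1.1 φ.1.2).2.2.2
    apply LinearIndependent.of_comp P.1.1.subtype
    exact h⟩

theorem fst_bijective {d : ℕ} (P : Pairs d F) : Function.Bijective (fst P) := by
  obtain ⟨⟨U, W⟩, hc, hU, hW⟩ := P
  obtain ⟨hdU, hdW⟩ := finrank_of_pair U W hc hU hW
  constructor
  · rintro ⟨⟨φ, hφ⟩, h1⟩ ⟨⟨ψ, hψ⟩, h2⟩ h
    apply Subtype.ext
    apply Subtype.ext
    show φ = ψ
    have hfst : ∀ i, (φ i).1 = (ψ i).1 := by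
      intro i
      have := congrArg (fun s : {s : Fin d → U // LinearIndependent F s} => ((s.1 i : U) : Fin d ⊕ Fin d → F)) h
      exact this
    have hφU : ∀ i, (φ i).1 ∈ U := by
      intro i
      have := congrArg (fun Q : Pairs d F => Q.1.1) h1
      simp only [pr] at this
      rw [← this]
      exact Submodule.subset_span ⟨i, rfl⟩
    have hφW : ∀ i, (φ i).2 ∈ W := by
      intro i
      have := congrArg (fun Q : Pairs d F => Q.1.2) h1
      simp only [pr] at this
      rw [← this]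
      exact Submodule.subset_span ⟨i, rfl⟩
    have hψW : ∀ i, (ψ i).2 ∈ W := by
      intro i
      have := congrArg (fun Q : Pairs d F => Q.1.2) h2
      simp only [pr] at this
      rw [← this]
      exact Submodule.subset_span ⟨i, rfl⟩
    obtain ⟨w, -, huniq⟩ := existsUnique_dual U W hc hU hW (fun i => (φ i).1) hφU
      (pair_of_frame φ hφ).2.2.2
    have e1 := huniq (fun i => (φ i).2) ⟨hφW, hφ⟩
    have e2 := huniq (fun i => (ψ i).2) ⟨hψW, by
      have : (fun i => ((φ i).1, (ψ i).2)) = ψ := by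
        funext i
        rw [hfst i]
      rw [this]; exact hψ⟩
    funext i
    apply Prod.ext (hfst i)
    exact (congrFun e1 i).trans (congrFun e2 i).symm
  · rintro ⟨s, hs⟩
    have hli : LinearIndependent F (fun i => ((s i : U) : Fin d ⊕ Fin d → F)) :=
      hs.map' U.subtype (Submodule.ker_subtype U)
    obtain ⟨w, ⟨hwW, hfr⟩, -⟩ := existsUnique_dual U W hc hU hW (fun i => (s i : Fin d ⊕ Fin d → F))
      (fun i => (s i).2) hli
    have hp := pair_of_frame _ hfr
    have hliw : LinearIndependent F w := li_snd_of_frame _ hfr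
    refine ⟨⟨⟨_, hfr⟩, ?_⟩, ?_⟩
    · apply Subtype.ext
      apply Prod.ext
      · show Submodule.span F (Set.range fun i => (s i : Fin d ⊕ Fin d → F)) = U
        apply Submodule.eq_of_le_of_finrank_eq
        · rw [Submodule.span_le]
          rintro _ ⟨i, rfl⟩
          exact (s i).2
        · rw [finrank_span_eq_card hli, hdU, Fintype.card_fin]
      · show Submodule.span F (Set.range fun i => w i) = W
        apply Submodule.eq_of_le_of_finrank_eq
        · rw [Submodule.span_le]
          rintro _ ⟨i, rfl⟩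
          exact hwW i
        · rw [finrank_span_eq_card hliw, hdW, Fintype.card_fin]
    · apply Subtype.ext
      funext i
      rfl

theorem card_pairs_mul [Fintype F] (d : ℕ) :
    Nat.card {P : Submodule F (Fin d ⊕ Fin d → F) × Submodule F (Fin d ⊕ Fin d → F) //
        IsCompl P.1 P.2 ∧ (∀ u ∈ P.1, ∀ v ∈ P.1, Cfsg.sympForm d F u v = 0) ∧
          (∀ u ∈ P.2, ∀ v ∈ P.2, Cfsg.sympForm d F u v = 0)}
      * ∏ i : Fin d, (Fintype.card F ^ d - Fintype.card F ^ (i : ℕ))
      = Nat.card (Matrix.symplecticGroup (Fin d) F) := by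
  classical
  rw [Nat.card_congr frameEquivSp, ← Nat.card_congr (Equiv.sigmaFiberEquiv (pr (d := d) (F := F)))]
  have : Fintype (Pairs d F) := Fintype.ofFinite _
  rw [Nat.card_sigma]
  have : ∀ P : Pairs d F, Nat.card {φ : Fr d F // pr φ = P}
      = ∏ i : Fin d, (Fintype.card F ^ d - Fintype.card F ^ (i : ℕ)) := by
    intro P
    rw [Nat.card_congr (Equiv.ofBijective _ (fst_bijective P))]
    have hd := (finrank_of_pair P.1.1 P.1.2 P.2.1 P.2.2.1 P.2.2.2).1
    rw [card_linearIndependent (by rw [hd]), hd]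
  rw [Finset.sum_congr rfl (fun P _ => this P), Finset.sum_const, Finset.card_univ, smul_eq_mul,
    Nat.card_eq_fintype_card]

end Cfsg.Agent.Lib.Helper76PolCOUNT
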