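import Mathlib
import Cfsg.Prelude.Def_ClassicalGeometry
import Cfsg.Agent.Lib.Helper7SpFrame
import Cfsg.Agent.Lib.Helper21EluRANK
import Cfsg.Agent.Lib.Helper76PolDIM

set_option autoImplicit false

namespace Cfsg.Agent.Lib.Helper76PolDER

open Cfsg Matrix Cfsg.Agent.Lib.Helper7SpFrame Cfsg.Agent.Lib.Helper17Symp
  Cfsg.Agent.Lib.Helper76PolDefs Cfsg.Agent.Lib.Helper76PolDIM

variable {F : Type*} [Field F]

theorem orderOf_dvd_finrank_range [Fintype F] {M : Type*} [AddCommGroup M] [Module F M]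
    [Module.Finite F M] (r : ℕ) [Fact r.Prime] (hr : ¬ r ∣ Fintype.card F) (g : Module.End F M)
    (hg : g ^ r = 1) :
    orderOf ((Fintype.card F : ℕ) : ZMod r) ∣ Module.finrank F (LinearMap.range (g - 1)) := by
  classical
  let b := Module.finBasis F M
  have h := Cfsg.Agent.Lib.Helper21EluRANK.orderOf_dvd_rank r hr (LinearMap.toMatrix b b g) (by
    rw [LinearMap.toMatrix_pow, hg, LinearMap.toMatrix_one])
  rw [← LinearMap.toMatrix_one b, ← map_sub, Matrix.rank_eq_finrank_range_toLin _ b b,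
    Matrix.toLin_toMatrix] at h
  exact h

/-- if `x` is trivial on `W` then it is trivial -/
theorem eq_one_of_fix {d : ℕ} (x : Matrix.symplecticGroup (Fin d) F)
    (U W : Submodule F (Fin d ⊕ Fin d → F)) (hc : IsCompl U W) (hU : TI U)
    (hxU : ∀ u ∈ U, (x : Matrix (Fin d ⊕ Fin d) (Fin d ⊕ Fin d) F) *ᵥ u ∈ U)
    (hxW : ∀ w ∈ W, (x : Matrix (Fin d ⊕ Fin d) (Fin d ⊕ Fin d) F) *ᵥ w = w) : x = 1 := by
  have h1 : ∀ u ∈ U, (x : Matrix (Fin d ⊕ Fin d) (Fin d ⊕ Fin d) F) *ᵥ u = u := by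
    intro u hu
    rw [← sub_eq_zero]
    apply eq_zero_of_perp W U hc.symm hU _ (U.sub_mem (hxU u hu) hu)
    intro w hw
    rw [sympForm_sub_right]
    nth_rewrite 1 [← hxW w hw]
    rw [Cfsg.Agent.Lib.Helper17Symp2.preserves, sub_self]
  apply Subtype.ext
  apply Matrix.toLin'.injective
  apply LinearMap.ext
  intro v
  have hv : v ∈ U ⊔ W := by rw [hc.sup_eq_top]; trivial
  obtain ⟨a, ha, b, hb, rfl⟩ := Submodule.mem_sup.mp hv
  simp only [Matrix.toLin'_apply, OneMemClass.coe_one, Matrix.one_mulVec]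
  rw [Matrix.mulVec_add, h1 a ha, hxW b hb]

theorem no_fixed_pair [Fintype F] {d r : ℕ} [Fact r.Prime] (hr : ¬ r ∣ Fintype.card F)
    (x : Matrix.symplecticGroup (Fin d) F) (hx : x ^ r = 1) (hx1 : x ≠ 1)
    (hrank : ((x : Matrix (Fin d ⊕ Fin d) (Fin d ⊕ Fin d) F) - 1).rank
      ≤ orderOf ((Fintype.card F : ℕ) : ZMod r))
    (U W : Submodule F (Fin d ⊕ Fin d → F)) (hc : IsCompl U W) (hU : TI U) (hW : TI W)
    (hxU : U.map (Matrix.toLin' (x : Matrix (Fin d ⊕ Fin d) (Fin d ⊕ Fin d) F)) = U)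
    (hxW : W.map (Matrix.toLin' (x : Matrix (Fin d ⊕ Fin d) (Fin d ⊕ Fin d) F)) = W) : False := by
  classical
  obtain ⟨X, hX⟩ : ∃ X : Module.End F (Fin d ⊕ Fin d → F),
      X = Matrix.toLin' (x : Matrix (Fin d ⊕ Fin d) (Fin d ⊕ Fin d) F) := ⟨_, rfl⟩
  rw [← hX] at hxU hxW
  have hXr : X ^ r = 1 := by
    have := congrArg (fun y : Matrix.symplecticGroup (Fin d) F =>
      Matrix.toLin' (y : Matrix (Fin d ⊕ Fin d) (Fin d ⊕ Fin d) F)) hx
    simp only [SubmonoidClass.coe_pow, OneMemClass.coe_one, Matrix.toLin'_one] at this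
    rw [hX, ← Matrix.toLin'_pow]
    exact this
  have hU' : ∀ u ∈ U, X u ∈ U := fun u hu => by
    rw [← hxU]; exact Submodule.mem_map_of_mem hu
  have hW' : ∀ u ∈ W, X u ∈ W := fun u hu => by
    rw [← hxW]; exact Submodule.mem_map_of_mem hu
  have hrk : ((x : Matrix (Fin d ⊕ Fin d) (Fin d ⊕ Fin d) F) - 1).rank
      = Module.finrank F (LinearMap.range (X - 1)) := by
    rw [Matrix.rank, hX, ← Matrix.toLin'_apply', map_sub, Matrix.toLin'_one]
    rfl
  -- general facts for an invariant subspace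
  have key : ∀ (S : Submodule F (Fin d ⊕ Fin d → F)) (hS : ∀ u ∈ S, X u ∈ S),
      orderOf ((Fintype.card F : ℕ) : ZMod r) ∣
        Module.finrank F ((LinearMap.range (X.restrict hS - 1)).map S.subtype) ∧
      (LinearMap.range (X.restrict hS - 1)).map S.subtype ≤ S ∧
      (LinearMap.range (X.restrict hS - 1)).map S.subtype ≤ LinearMap.range (X - 1) ∧
      (Module.finrank F ((LinearMap.range (X.restrict hS - 1)).map S.subtype) = 0 →
        ∀ u ∈ S, X u = u) := by
    intro S hS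
    refine ⟨?_, Submodule.map_subtype_le _ _, ?_, ?_⟩
    · rw [Submodule.finrank_map_subtype_eq]
      apply orderOf_dvd_finrank_range r hr
      rw [Module.End.pow_restrict r hS]
      ext u
      simp [hXr]
    · rintro _ ⟨_, ⟨u, rfl⟩, rfl⟩
      exact ⟨u, by simp⟩
    · intro h0 u hu
      rw [Submodule.finrank_map_subtype_eq, Submodule.finrank_eq_zero, LinearMap.range_eq_bot] at h0
      have := congrArg Subtype.val (LinearMap.congr_fun h0 ⟨u, hu⟩)
      simpa [sub_eq_zero] using this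
  obtain ⟨a1, a2, a3, a4⟩ := key U hU'
  obtain ⟨b1, b2, b3, b4⟩ := key W hW'
  obtain ⟨A, hA⟩ : ∃ A, A = (LinearMap.range (X.restrict hU' - 1)).map U.subtype := ⟨_, rfl⟩
  obtain ⟨B, hB⟩ : ∃ B, B = (LinearMap.range (X.restrict hW' - 1)).map W.subtype := ⟨_, rfl⟩
  rw [← hA] at a1 a2 a3 a4
  rw [← hB] at b1 b2 b3 b4
  have hdisj : Disjoint A B := hc.disjoint.mono a2 b2
  have hsum := Submodule.finrank_sup_add_finrank_inf_eq A B
  rw [hdisj.eq_bot, finrank_bot, add_zero] at hsum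
  have hle := Submodule.finrank_mono (sup_le a3 b3)
  rw [hsum, ← hrk] at hle
  have hcase : Module.finrank F A = 0 ∨ Module.finrank F B = 0 := by
    by_contra hcon
    push Not at hcon
    have := Nat.le_of_dvd (Nat.pos_of_ne_zero hcon.1) a1
    have := Nat.le_of_dvd (Nat.pos_of_ne_zero hcon.2) b1
    omega
  have hmv : ∀ v, X v = (x : Matrix (Fin d ⊕ Fin d) (Fin d ⊕ Fin d) F) *ᵥ v := by
    intro v; rw [hX, Matrix.toLin'_apply]
  rcases hcase with h | h
  · apply hx1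
    apply eq_one_of_fix x W U hc.symm hW
    · intro u hu; rw [← hmv]; exact hW' u hu
    · intro u hu; rw [← hmv]; exact a4 h u hu
  · apply hx1
    apply eq_one_of_fix x U W hc hU
    · intro u hu; rw [← hmv]; exact hU' u hu
    · intro u hu; rw [← hmv]; exact b4 h u hu

end Cfsg.Agent.Lib.Helper76PolDER
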