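import Cfsg.Agent.Lib.LeadAutDefs
import Cfsg.Agent.Lib.LeadChevMisc
import Cfsg.Agent.Lib.Helper22ChevBruhat
import Cfsg.Agent.Lib.Helper23RG2

set_option autoImplicit false
set_option linter.unusedSectionVars false

namespace Cfsg.Agent.Lib.Helper77AutA12

open Subgroup Cfsg.Agent.Lib.Helper23Grp Cfsg.Agent.Lib.Helper23RG Cfsg.Agent.Lib.Helper23RG.RG
  Cfsg.Agent.Lib.Helper23Weyl Cfsg.Agent.Lib.LeadAutDefs

variable {𝔾 K R I : Type*} [Group 𝔾] [Field K] [Fintype R] [DecidableEq R] {S : RG 𝔾 K R I}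

omit [Fintype R] [DecidableEq R] in
theorem nE_eq (ok : S.Ok) (i : I) (t : K) : S.nE (S.simple i) t = S.hE (S.simple i) t * S.nn i := by
  unfold hE
  rw [← nn_inv ok]
  group

omit [Fintype R] [DecidableEq R] in
theorem Mon_nE_simple (ok : S.Ok) (i : I) {t : K} (ht : t ≠ 0) :
    S.Mon (S.nE (S.simple i) t) (reflPerm ok i) := by
  rw [nE_eq ok]
  have := (Mon_hE_simple ok i ht).mul (Mon_nn ok i)
  rwa [one_mul] at this

omit [Fintype R] [DecidableEq R] in
theorem nE_conj_mem (ok : S.Ok) (i : I) {t : K} (ht : t ≠ 0) {g : 𝔾} (hg : g ∈ S.X (S.simple i)) :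
    S.nE (S.simple i) t * g * (S.nE (S.simple i) t)⁻¹ ∈ S.X (S.neg (S.simple i)) := by
  obtain ⟨u, rfl⟩ := (mem_X_iff ok).1 hg
  obtain ⟨_, c, _, _, hc⟩ := Mon_nE_simple ok i ht
  rw [hc, reflPerm_apply, ok.refl_simple]
  exact x_mem_X _ _

/-- A12 (uses A11 as a hypothesis) -/
theorem exists_acts (h : AData S)
    (h11 : ∀ (j : I) (a b : K), a ≠ 0 → (∀ g ∈ S.X (S.simple j),
      (S.x (S.simple j) a * S.x (S.neg (S.simple j)) b * S.x (S.simple j) a) * g *
        (S.x (S.simple j) a * S.x (S.neg (S.simple j)) b * S.x (S.simple j) a)⁻¹ ∈ S.X (S.neg (S.simple j))) →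
      b = -a⁻¹)
    {θ : 𝔾 ≃* 𝔾} {ρ : Equiv.Perm I} (hρ : Perms S θ ρ) : ∃ f, Acts S θ ρ f := by
  have ok := h.ok
  have h1 : ∀ i t, ∃ u, θ (S.x (S.simple i) t) = S.x (S.simple (ρ i)) u := fun i t =>
    (mem_X_iff ok).1 (((hρ i _).1).2 (x_mem_X _ _))
  choose f hf using h1
  have hadd : ∀ i a b, f i (a + b) = f i a + f i b := by
    intro i a b
    rw [← x_eq_iff ok (S.simple (ρ i)), ← hf, ok.x_add, map_mul, hf, hf, ok.x_add]
  have hinj : ∀ i, Function.Injective (f i) := by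
    intro i a b hab
    have : θ (S.x (S.simple i) a) = θ (S.x (S.simple i) b) := by rw [hf, hf, hab]
    exact (x_eq_iff ok _ _ _).1 (θ.injective this)
  have hzero : ∀ i, f i 0 = 0 := by
    intro i
    have := hadd i 0 0
    rw [add_zero] at this
    exact left_eq_add.1 this
  refine ⟨f, hf, ?_, hadd, fun i => ⟨hinj i, ?_⟩⟩
  · intro i t ht
    obtain ⟨b, hb⟩ := (mem_X_iff ok).1 (((hρ i (S.x (S.neg (S.simple i)) (-t⁻¹))).2).2 (x_mem_X _ _))
    have ha : f i t ≠ 0 := by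
      intro h0
      exact ht (hinj i (h0.trans (hzero i).symm))
    have hm : θ (S.nE (S.simple i) t) =
        S.x (S.simple (ρ i)) (f i t) * S.x (S.neg (S.simple (ρ i))) b * S.x (S.simple (ρ i)) (f i t) := by
      unfold nE
      rw [map_mul, map_mul, hf, hb]
    have := h11 (ρ i) (f i t) b ha (by
      intro g hg
      obtain ⟨g', rfl⟩ := θ.surjective g
      have hg' : g' ∈ S.X (S.simple i) := ((hρ i g').1).1 hg
      rw [← hm, ← map_inv, ← map_mul, ← map_mul]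
      exact ((hρ i _).2).2 (nE_conj_mem ok i ht hg'))
    rw [hb, this]
  · intro u
    obtain ⟨g, hg⟩ := θ.surjective (S.x (S.simple (ρ i)) u)
    have hg' : g ∈ S.X (S.simple i) := ((hρ i g).1).1 (hg ▸ x_mem_X _ _)
    obtain ⟨t, rfl⟩ := (mem_X_iff ok).1 hg'
    refine ⟨t, ?_⟩
    rw [← x_eq_iff ok (S.simple (ρ i)), ← hf, hg]

end Cfsg.Agent.Lib.Helper77AutA12
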