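import Cfsg.Agent.Lib.LeadAutDefs
import Cfsg.Agent.Lib.LeadChevMisc
import Cfsg.Agent.Lib.Helper22ChevBruhat
import Cfsg.Agent.Lib.Helper23RG2

set_option autoImplicit false
set_option linter.unusedSectionVars false

namespace Cfsg.Agent.Lib.Helper77AutA13

open Subgroup Cfsg.Agent.Lib.Helper23Grp Cfsg.Agent.Lib.Helper23RG Cfsg.Agent.Lib.Helper23RG.RG
  Cfsg.Agent.Lib.Helper23Weyl Cfsg.Agent.Lib.LeadAutDefs

variable {𝔾 K R I : Type*} [Group 𝔾] [Field K] [Fintype R] [DecidableEq R] {S : RG 𝔾 K R I}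

theorem f_zero {θ : 𝔾 ≃* 𝔾} {ρ : Equiv.Perm I} {f : I → K → K} (hA : Acts S θ ρ f) (i : I) :
    f i 0 = 0 := by
  have := hA.add i 0 0
  rw [add_zero] at this
  exact left_eq_add.1 this

theorem f_neg {θ : 𝔾 ≃* 𝔾} {ρ : Equiv.Perm I} {f : I → K → K} (hA : Acts S θ ρ f) (i : I) (t : K) :
    f i (-t) = - f i t := by
  have := hA.add i t (-t)
  rw [add_neg_cancel, f_zero hA] at this
  exact (neg_eq_of_add_eq_zero_right this.symm).symm

theorem f_ne_zero {θ : 𝔾 ≃* 𝔾} {ρ : Equiv.Perm I} {f : I → K → K} (hA : Acts S θ ρ f) (i : I) {t : K}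
    (ht : t ≠ 0) : f i t ≠ 0 := by
  intro h0
  exact ht ((hA.bij i).1 (h0.trans (f_zero hA i).symm))

theorem map_nE {θ : 𝔾 ≃* 𝔾} {ρ : Equiv.Perm I} {f : I → K → K} (hA : Acts S θ ρ f) (i : I) {t : K}
    (ht : t ≠ 0) : θ (S.nE (S.simple i) t) = S.nE (S.simple (ρ i)) (f i t) := by
  unfold nE
  rw [map_mul, map_mul, hA.pos, hA.neg i t ht]

theorem map_hE (ok : S.Ok) {θ : 𝔾 ≃* 𝔾} {ρ : Equiv.Perm I} {f : I → K → K} (hA : Acts S θ ρ f) (i : I)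
    {t : K} (ht : t ≠ 0) : θ (S.hE (S.simple i) t) =
      S.hE (S.simple (ρ i)) (f i t) * (S.hE (S.simple (ρ i)) (f i 1))⁻¹ := by
  unfold hE
  rw [map_mul, map_nE hA i ht, map_nE hA i (by simp), f_neg hA, ← nE_inv ok]
  group

theorem h_conj_inv (ok : S.Ok) (i : I) (r : R) {c : K} (hc : c ≠ 0) (t : K) :
    (S.hE (S.simple i) c)⁻¹ * S.x r t * S.hE (S.simple i) c = S.x r ((c ^ (S.A i r))⁻¹ * t) := by
  have := ok.h_conj i r c ((c ^ (S.A i r))⁻¹ * t) hc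
  rw [← mul_assoc, mul_inv_cancel₀ (zpow_ne_zero _ hc), one_mul] at this
  rw [← this]
  group

/-- A13 -/
theorem torus_rel (h : AData S) {θ : 𝔾 ≃* 𝔾} {ρ : Equiv.Perm I} {f : I → K → K} (hA : Acts S θ ρ f)
    (i j : I) (t u : K) (ht : t ≠ 0) :
    f i (t ^ (S.A j (S.simple i)) * u) = (f j t / f j 1) ^ (S.A (ρ j) (S.simple (ρ i))) * f i u := by
  have ok := h.ok
  have h1 := congrArg θ (ok.h_conj j (S.simple i) t u ht)
  rw [map_mul, map_mul, map_inv, map_hE ok hA j ht, hA.pos, hA.pos] at h1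
  have ha := f_ne_zero hA j ht
  have hb := f_ne_zero hA j (one_ne_zero)
  have e : S.hE (S.simple (ρ j)) (f j t) * (S.hE (S.simple (ρ j)) (f j 1))⁻¹ * S.x (S.simple (ρ i)) (f i u) *
      (S.hE (S.simple (ρ j)) (f j t) * (S.hE (S.simple (ρ j)) (f j 1))⁻¹)⁻¹ =
      S.hE (S.simple (ρ j)) (f j t) * ((S.hE (S.simple (ρ j)) (f j 1))⁻¹ * S.x (S.simple (ρ i)) (f i u) *
        S.hE (S.simple (ρ j)) (f j 1)) * (S.hE (S.simple (ρ j)) (f j t))⁻¹ := by group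
  rw [e, h_conj_inv ok _ _ hb, ok.h_conj _ _ _ _ ha, x_eq_iff ok] at h1
  rw [← h1, div_zpow, div_eq_mul_inv, mul_assoc]

end Cfsg.Agent.Lib.Helper77AutA13
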