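import Cfsg.Agent.Lib.LeadAutDefs
import Cfsg.Agent.Lib.LeadChevMisc
import Cfsg.Agent.Lib.Helper22ChevBruhat
import Cfsg.Agent.Lib.Helper23RG2

set_option autoImplicit false
set_option linter.unusedSectionVars false

namespace Cfsg.Agent.Lib.Helper77AutS2

open Subgroup Cfsg.Agent.Lib.Helper23Grp Cfsg.Agent.Lib.Helper23RG Cfsg.Agent.Lib.Helper23RG.RG
  Cfsg.Agent.Lib.Helper23Weyl Cfsg.Agent.Lib.LeadAutDefs

variable {𝔾 K R I : Type*} [Group 𝔾] [Field K] [Fintype R] [DecidableEq R] {S : RG 𝔾 K R I}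

/-- S2 : conjugating a "diagonal" automorphism -/
theorem diag_conj (h : AData S) {ν d : 𝔾 ≃* 𝔾} {ρ : Equiv.Perm I} {a c : I → Kˣ} {σ : I → (K ≃+* K)}
    (hν : Acts S ν ρ (fun i t => a i * σ i t)) (hd : Acts S d 1 (fun i t => c i * t)) :
    ∃ c' : I → Kˣ, Acts S ((ν.symm.trans d).trans ν) 1 (fun i t => c' i * t) := by
  refine ⟨fun k => Units.map (σ (ρ.symm k) : K →* K) (c (ρ.symm k)), ?_, ?_, ?_, ?_⟩
  · intro k s
    obtain ⟨i, rfl⟩ := ρ.surjective k
    simp only [Equiv.symm_apply_apply, MulEquiv.trans_apply, Equiv.Perm.one_apply]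
    have e : s = a i * σ i ((σ i).symm ((a i : K)⁻¹ * s)) := by
      rw [RingEquiv.apply_symm_apply, mul_inv_cancel_left₀ (a i).ne_zero]
    have h1 : ν.symm (S.x (S.simple (ρ i)) s) = S.x (S.simple i) ((σ i).symm ((a i : K)⁻¹ * s)) := by
      rw [MulEquiv.symm_apply_eq, hν.pos, ← e]
    rw [h1, hd.pos, hν.pos]
    simp only [Equiv.Perm.one_apply, map_mul, RingEquiv.apply_symm_apply, Units.coe_map, MonoidHom.coe_coe]
    congr 1
    rw [mul_left_comm, mul_inv_cancel_left₀ (a i).ne_zero]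
  · intro k s hs
    obtain ⟨i, rfl⟩ := ρ.surjective k
    simp only [Equiv.symm_apply_apply, MulEquiv.trans_apply, Equiv.Perm.one_apply]
    have e : s = a i * σ i ((σ i).symm ((a i : K)⁻¹ * s)) := by
      rw [RingEquiv.apply_symm_apply, mul_inv_cancel_left₀ (a i).ne_zero]
    have ht : (σ i).symm ((a i : K)⁻¹ * s) ≠ 0 := by
      rw [Ne, EmbeddingLike.map_eq_zero_iff]
      exact mul_ne_zero (inv_ne_zero (a i).ne_zero) hs
    have h1 : ν.symm (S.x (S.neg (S.simple (ρ i))) (-s⁻¹)) =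
        S.x (S.neg (S.simple i)) (-((σ i).symm ((a i : K)⁻¹ * s))⁻¹) := by
      rw [MulEquiv.symm_apply_eq, hν.neg _ _ ht, ← e]
    rw [h1, hd.neg _ _ ht]
    simp only [Equiv.Perm.one_apply]
    rw [hν.neg _ _ (mul_ne_zero (c i).ne_zero ht)]
    simp only [map_mul, RingEquiv.apply_symm_apply, Units.coe_map, MonoidHom.coe_coe]
    congr 3
    rw [mul_left_comm, mul_inv_cancel_left₀ (a i).ne_zero]
  · intro i x y
    exact mul_add _ _ _
  · intro i
    exact (Units.mulLeft_bijective _)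

end Cfsg.Agent.Lib.Helper77AutS2
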