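import Mathlib

set_option autoImplicit false

namespace Cfsg.Agent.Lib.Helper77AutS7

open Subgroup
open scoped commutatorElement

/-- S7 : pure group theory. -/
theorem out_structure {A P : Type*} [Group A] [Group P] (Inn𝔾 : Subgroup A) [Inn𝔾.Normal] (𝒟 Φ : Subgroup A)
    (Ψ : A →* P) (hker : Ψ.ker = Inn𝔾 ⊔ 𝒟 ⊔ Φ) (hDn : (Inn𝔾 ⊔ 𝒟).Normal) (hDc : IsMulCommutative ↥𝒟)
    (hΦ : IsCyclic ↥Φ)
    (hcard : Nat.card Ψ.range = 1 ∨ Nat.card Ψ.range = 2 ∨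
      (Nat.card Ψ.range = 6 ∧ ∃ a b : A, Ψ a * Ψ b ≠ Ψ b * Ψ a)) :
    (𝒟.map (QuotientGroup.mk' Inn𝔾)).Normal ∧ IsMulCommutative ↥(𝒟.map (QuotientGroup.mk' Inn𝔾)) ∧
      IsCyclic ↥(Φ.map (QuotientGroup.mk' Inn𝔾)) ∧
      (𝒟.map (QuotientGroup.mk' Inn𝔾) ⊔ Φ.map (QuotientGroup.mk' Inn𝔾)).Normal ∧
      ((𝒟.map (QuotientGroup.mk' Inn𝔾) ⊔ Φ.map (QuotientGroup.mk' Inn𝔾)).index = 1 ∨
        (𝒟.map (QuotientGroup.mk' Inn𝔾) ⊔ Φ.map (QuotientGroup.mk' Inn𝔾)).index = 2 ∨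
        ((𝒟.map (QuotientGroup.mk' Inn𝔾) ⊔ Φ.map (QuotientGroup.mk' Inn𝔾)).index = 6 ∧
          ¬ commutator (A ⧸ Inn𝔾) ≤ 𝒟.map (QuotientGroup.mk' Inn𝔾) ⊔ Φ.map (QuotientGroup.mk' Inn𝔾))) := by
  have hq : Function.Surjective (QuotientGroup.mk' Inn𝔾) := QuotientGroup.mk'_surjective _
  have hI : Inn𝔾.map (QuotientGroup.mk' Inn𝔾) = ⊥ := by
    rw [Subgroup.map_eq_bot_iff, QuotientGroup.ker_mk']
  have e1 : 𝒟.map (QuotientGroup.mk' Inn𝔾) = (Inn𝔾 ⊔ 𝒟).map (QuotientGroup.mk' Inn𝔾) := by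
    rw [Subgroup.map_sup, hI, bot_sup_eq]
  have e2 : 𝒟.map (QuotientGroup.mk' Inn𝔾) ⊔ Φ.map (QuotientGroup.mk' Inn𝔾) =
      Ψ.ker.map (QuotientGroup.mk' Inn𝔾) := by
    rw [hker, Subgroup.map_sup, Subgroup.map_sup, hI, bot_sup_eq]
  have hle : Inn𝔾 ≤ Ψ.ker := by
    rw [hker]; exact le_sup_of_le_left le_sup_left
  have hidx : (Ψ.ker.map (QuotientGroup.mk' Inn𝔾)).index = Nat.card Ψ.range := by
    rw [Subgroup.index_map, QuotientGroup.ker_mk', sup_eq_left.2 hle,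
      MonoidHom.range_eq_top.2 hq, Subgroup.index_top, mul_one, Subgroup.index_ker]
  refine ⟨?_, ?_, ?_, ?_, ?_⟩
  · rw [e1]
    exact hDn.map _ hq
  · infer_instance
  · exact isCyclic_of_surjective ((QuotientGroup.mk' Inn𝔾).subgroupMap Φ)
      ((QuotientGroup.mk' Inn𝔾).subgroupMap_surjective Φ)
  · rw [e2]
    exact (MonoidHom.normal_ker Ψ).map _ hq
  · rw [e2, hidx]
    rcases hcard with h | h | ⟨h, a, b, hab⟩
    · exact Or.inl h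
    · exact Or.inr (Or.inl h)
    · refine Or.inr (Or.inr ⟨h, fun hc => hab ?_⟩)
      have h1 : ⁅(QuotientGroup.mk' Inn𝔾 a), (QuotientGroup.mk' Inn𝔾 b)⁆ ∈ commutator (A ⧸ Inn𝔾) :=
        Subgroup.commutator_mem_commutator (Subgroup.mem_top _) (Subgroup.mem_top _)
      obtain ⟨k, hk, hk2⟩ := hc h1
      have h2 : QuotientGroup.mk' Inn𝔾 k = QuotientGroup.mk' Inn𝔾 ⁅a, b⁆ := by
        rw [hk2, map_commutatorElement]
      have h3 : k⁻¹ * ⁅a, b⁆ ∈ Inn𝔾 := by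
        rw [← QuotientGroup.eq]
        exact h2
      have h4 : ⁅a, b⁆ ∈ Ψ.ker := by
        have := Ψ.ker.mul_mem hk (hle h3)
        rwa [mul_inv_cancel_left] at this
      rw [MonoidHom.mem_ker, map_commutatorElement, commutatorElement_eq_one_iff_mul_comm] at h4
      exact h4

end Cfsg.Agent.Lib.Helper77AutS7
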