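import Mathlib
import Cfsg.Prelude.Def_Characters
import Cfsg.Prelude.Def_CharExt
import Cfsg.Agent.Lib.Helper77Cyc1
import Cfsg.Agent.Lib.Helper5Galois
import Cfsg.Agent.S0868

set_option autoImplicit false

/-!
# Values of an extension on a coset `G s`, `s` of order prime to `|G|`
-/

namespace Cfsg.Agent.Lib.Helper77Cyc2

open Module Representation
open scoped ComplexConjugate
open Cfsg.Agent.Lib.Helper4Eigen Cfsg.Agent.Lib.Helper4Char Cfsg.Agent.Lib.Helper4Char2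
  Cfsg.Agent.Lib.Helper4Char3 Cfsg.Agent.Lib.Helper4Char4 Cfsg.Agent.Lib.Helper4Perm
  Cfsg.Agent.Lib.Helper77Glaub Cfsg.Agent.Lib.Helper77Glaub2 Cfsg.Agent.Lib.Helper77Glaub3
  Cfsg.Agent.Lib.Helper77Glaub4 Cfsg.Agent.Lib.Helper19Lin Cfsg.Agent.Lib.Helper19Det
  Cfsg.Agent.Lib.Helper77Cyc1

section Fiber

theorem sum_comp_of_card_fiber {T X : Type*} [Fintype T] [Fintype X] [DecidableEq X] (Φ : T → X)
    (k : ℕ) (hk : ∀ t, (Finset.univ.filter (fun t' => Φ t' = Φ t)).card = k)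
    (hcard : Fintype.card T = k * Fintype.card X) (hk0 : 0 < k) (H : X → ℂ) :
    ∑ t, H (Φ t) = (k : ℂ) * ∑ x, H x := by
  classical
  have h1 : Fintype.card T
      = ∑ x ∈ Finset.univ.image Φ, (Finset.univ.filter (fun t' => Φ t' = x)).card :=
    Finset.card_eq_sum_card_image Φ Finset.univ
  have h2 : ∑ x ∈ Finset.univ.image Φ, (Finset.univ.filter (fun t' => Φ t' = x)).card
      = (Finset.univ.image Φ).card * k := by
    apply Finset.sum_const_nat
    intro x hx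
    obtain ⟨t, -, rfl⟩ := Finset.mem_image.mp hx
    exact hk t
  have h3 : (Finset.univ.image Φ).card = Fintype.card X := by
    rw [h2, hcard, mul_comm] at h1
    exact (Nat.eq_of_mul_eq_mul_right hk0 h1).symm
  have h4 : Finset.univ.image Φ = Finset.univ := Finset.eq_univ_of_card _ h3
  have hsurj : ∀ x, ∃ t, Φ t = x := by
    intro x
    have : x ∈ Finset.univ.image Φ := by rw [h4]; exact Finset.mem_univ x
    obtain ⟨t, -, ht⟩ := Finset.mem_image.mp this
    exact ⟨t, ht⟩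
  rw [← Finset.sum_fiberwise Finset.univ Φ (fun t => H (Φ t)), Finset.mul_sum]
  refine Finset.sum_congr rfl (fun x _ => ?_)
  obtain ⟨t, rfl⟩ := hsurj x
  rw [Finset.sum_congr rfl (fun t' ht' => by rw [(Finset.mem_filter.mp ht').2]),
    Finset.sum_const, hk t, nsmul_eq_mul]

end Fiber

section Coset

variable {Γ : Type*} [Group Γ] [Fintype Γ] (G C : Subgroup Γ) [hG : G.Normal] [Fintype G]
  [Fintype C]

omit [Fintype Γ] in
/-- Reduction of a sum over the coset `G s` to a sum over `C s`, `C = C_G(s)`. -/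
theorem coset_reduction (s : Γ) (hC : ∀ x, x ∈ C ↔ x ∈ G ∧ x * s = s * x) (m : ℕ)
    (hm : ∀ c ∈ C, (c * s) ^ m = s) (F : Γ → ℂ) (hF : Cfsg.IsClassFunction Γ F) :
    (Nat.card C : ℂ) * ∑ g : G, F (g * s) = (Nat.card G : ℂ) * ∑ c : C, F (c * s) := by
  classical
  have hmem : ∀ t : G × C, (t.1 : Γ) * t.2 * s * (t.1 : Γ)⁻¹ * s⁻¹ ∈ G := by
    intro t
    have e : (t.1 : Γ) * t.2 * s * (t.1 : Γ)⁻¹ * s⁻¹ = ((t.1 : Γ) * t.2) * (s * (t.1 : Γ)⁻¹ * s⁻¹) := by
      group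
    rw [e]
    exact G.mul_mem (G.mul_mem t.1.2 ((hC _).mp t.2.2).1) (hG.conj_mem _ (G.inv_mem t.1.2) s)
  let Φ : G × C → G := fun t => ⟨(t.1 : Γ) * t.2 * s * (t.1 : Γ)⁻¹ * s⁻¹, hmem t⟩
  have hfib : ∀ t₀ : G × C, (Finset.univ.filter (fun t' => Φ t' = Φ t₀)).card = Fintype.card C := by
    rintro ⟨g₀, c₀⟩
    let j : C → G × C := fun h => (g₀ * ⟨h, ((hC _).mp h.2).1⟩, h⁻¹ * c₀ * h)
    have hj : Function.Injective j := by
      intro h h' hh
      have := congrArg (fun t : G × C => ((t.1 : G) : Γ)) hh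
      exact Subtype.ext (mul_left_cancel this)
    have himg : Finset.univ.filter (fun t' => Φ t' = Φ (g₀, c₀)) = Finset.univ.image j := by
      ext ⟨g, c⟩
      simp only [Finset.mem_filter, Finset.mem_univ, true_and, Finset.mem_image]
      constructor
      · intro h
        have h1 : (g : Γ) * c * s * (g : Γ)⁻¹ * s⁻¹ = (g₀ : Γ) * c₀ * s * (g₀ : Γ)⁻¹ * s⁻¹ :=
          congrArg Subtype.val h
        have h2 : ((g₀ : Γ)⁻¹ * g) * (c * s) * ((g₀ : Γ)⁻¹ * g)⁻¹ = c₀ * s := by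
          have := mul_right_cancel h1
          calc ((g₀ : Γ)⁻¹ * g) * (c * s) * ((g₀ : Γ)⁻¹ * g)⁻¹
              = (g₀ : Γ)⁻¹ * ((g : Γ) * c * s * (g : Γ)⁻¹) * g₀ := by group
            _ = (g₀ : Γ)⁻¹ * ((g₀ : Γ) * c₀ * s * (g₀ : Γ)⁻¹) * g₀ := by rw [this]
            _ = c₀ * s := by group
        have h3 : ((g₀ : Γ)⁻¹ * g) * s * ((g₀ : Γ)⁻¹ * g)⁻¹ = s := by
          have := congrArg (· ^ m) h2
          simp only [conj_pow, hm c c.2, hm c₀ c₀.2] at this
          exact this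
        have h4 : ((g₀ : Γ)⁻¹ * g) * s = s * ((g₀ : Γ)⁻¹ * g) := by
          rw [mul_inv_eq_iff_eq_mul] at h3
          exact h3
        have h5 : (g₀ : Γ)⁻¹ * g ∈ C := (hC _).mpr ⟨G.mul_mem (G.inv_mem g₀.2) g.2, h4⟩
        refine ⟨⟨_, h5⟩, ?_⟩
        apply Prod.ext
        · apply Subtype.ext
          change (g₀ : Γ) * ((g₀ : Γ)⁻¹ * g) = g
          group
        · apply Subtype.ext
          change ((g₀ : Γ)⁻¹ * g)⁻¹ * c₀ * ((g₀ : Γ)⁻¹ * g) = c
          have h6 : (c₀ : Γ) = ((g₀ : Γ)⁻¹ * g) * c * ((g₀ : Γ)⁻¹ * g)⁻¹ := by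
            have e : ((g₀ : Γ)⁻¹ * g) * (c * s) * ((g₀ : Γ)⁻¹ * g)⁻¹
                = (((g₀ : Γ)⁻¹ * g) * c * ((g₀ : Γ)⁻¹ * g)⁻¹)
                  * (((g₀ : Γ)⁻¹ * g) * s * ((g₀ : Γ)⁻¹ * g)⁻¹) := by group
            rw [e, h3] at h2
            exact (mul_right_cancel h2).symm
          rw [h6]; group
      · rintro ⟨h, hh⟩
        have e1 : (g : Γ) = g₀ * h := (congrArg (fun t : G × C => ((t.1 : G) : Γ)) hh).symm
        have e2 : (c : Γ) = (h : Γ)⁻¹ * c₀ * h :=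
          (congrArg (fun t : G × C => ((t.2 : C) : Γ)) hh).symm
        apply Subtype.ext
        change (g : Γ) * c * s * (g : Γ)⁻¹ * s⁻¹ = (g₀ : Γ) * c₀ * s * (g₀ : Γ)⁻¹ * s⁻¹
        have e3 : (h : Γ) * s = s * h := ((hC _).mp h.2).2
        rw [e1, e2]
        calc (g₀ : Γ) * h * ((h : Γ)⁻¹ * c₀ * h) * s * ((g₀ : Γ) * h)⁻¹ * s⁻¹
            = (g₀ : Γ) * c₀ * ((h : Γ) * s) * (h : Γ)⁻¹ * (g₀ : Γ)⁻¹ * s⁻¹ := by group
          _ = (g₀ : Γ) * c₀ * s * (g₀ : Γ)⁻¹ * s⁻¹ := by rw [e3]; group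
    rw [himg, Finset.card_image_of_injective _ hj, Finset.card_univ]
  have hmain := sum_comp_of_card_fiber Φ (Fintype.card C) hfib
    (by rw [Fintype.card_prod, mul_comm]) Fintype.card_pos (fun g : G => F (g * s))
  have hval : ∀ t : G × C, F ((Φ t : Γ) * s) = F (t.2 * s) := by
    intro t
    have e : ((Φ t : G) : Γ) * s = (t.1 : Γ) * (t.2 * s) * (t.1 : Γ)⁻¹ := by
      change (t.1 : Γ) * t.2 * s * (t.1 : Γ)⁻¹ * s⁻¹ * s = _
      group
    rw [e, hF]
  rw [Finset.sum_congr rfl (fun t _ => hval t), Fintype.sum_prod_type] at hmain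
  simp only [Finset.sum_const, Finset.card_univ, nsmul_eq_mul] at hmain
  rw [Nat.card_eq_fintype_card, Nat.card_eq_fintype_card, ← hmain]

omit [Fintype Γ] [Fintype G] hG in
theorem pow_crt [Finite Γ] (hcop : (Nat.card G).Coprime G.index) (s : Γ) (hs : s ^ G.index = 1) :
    ∃ m : ℕ, ∀ c ∈ G, c * s = s * c → (c * s) ^ m = s := by
  obtain ⟨m, hm0, hm1⟩ := Nat.chineseRemainder hcop 0 1
  refine ⟨m, fun c hc hcs => ?_⟩
  have hcomm : Commute c s := hcs
  rw [hcomm.mul_pow]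
  have e1 : c ^ m = 1 := by
    have h1 : Nat.card G ∣ m := (Nat.modEq_zero_iff_dvd).mp hm0
    have h2 := orderOf_dvd_natCard (⟨c, hc⟩ : G)
    rw [Subgroup.orderOf_mk] at h2
    exact orderOf_dvd_iff_pow_eq_one.mp (h2.trans h1)
  have e2 : s ^ m = s := by
    have e : s ^ m = s ^ 1 := by
      rw [pow_eq_pow_iff_modEq]
      exact hm1.of_dvd (orderOf_dvd_of_pow_eq_one hs)
    rw [e, pow_one]
  rw [e1, e2, one_mul]

/-- the inner product over `C s` equals the coset average over `G s` -/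
theorem classInner_coset (s : Γ) (hC : ∀ x, x ∈ C ↔ x ∈ G ∧ x * s = s * x) (m : ℕ)
    (hm : ∀ c ∈ C, (c * s) ^ m = s) {χh ψh : Γ → ℂ} (hχh : Cfsg.IsClassFunction Γ χh)
    (hψh : Cfsg.IsClassFunction Γ ψh) :
    Cfsg.classInner (fun c : C => ψh (c * s)) (fun c : C => χh (c * s))
      = (Nat.card G : ℂ)⁻¹ * ∑ n : G, ψh ((n : Γ) * s) * conj (χh ((n : Γ) * s)) := by
  have h1 := coset_reduction G C s hC m hm (fun x => ψh x * conj (χh x))
    (fun g h => by
      change ψh (h * g * h⁻¹) * conj (χh (h * g * h⁻¹)) = _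
      rw [hχh, hψh])
  have hG0 : (Nat.card G : ℂ) ≠ 0 := by exact_mod_cast Nat.card_pos.ne'
  have hC0 : (Nat.card C : ℂ) ≠ 0 := by exact_mod_cast Nat.card_pos.ne'
  unfold Cfsg.classInner
  field_simp
  linear_combination (-1 : ℂ) * h1

theorem classInner_coset_self (s : Γ) (hC : ∀ x, x ∈ C ↔ x ∈ G ∧ x * s = s * x) (m : ℕ)
    (hm : ∀ c ∈ C, (c * s) ^ m = s) {χh : Γ → ℂ} (hχh : Cfsg.IsIrrCharacter Γ χh)
    (hres : Cfsg.IsIrrCharacter G (fun g : G => χh g)) :
    Cfsg.classInner (fun c : C => χh (c * s)) (fun c : C => χh (c * s)) = 1 := by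
  rw [classInner_coset G C s hC m hm (IsIrrCharacter.isClassFunction hχh)
    (IsIrrCharacter.isClassFunction hχh)]
  have h := (Cfsg.Agent.S0868.result G χh hχh hres χh hχh _ rfl).2.2 rfl
  exact congrFun h s

theorem classInner_coset_orth (s : Γ) (hC : ∀ x, x ∈ C ↔ x ∈ G ∧ x * s = s * x) (m : ℕ)
    (hm : ∀ c ∈ C, (c * s) ^ m = s) {χh ψh : Γ → ℂ} (hχh : Cfsg.IsIrrCharacter Γ χh)
    (hres : Cfsg.IsIrrCharacter G (fun g : G => χh g)) (hψh : Cfsg.IsIrrCharacter Γ ψh)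
    (horth : Cfsg.classInner (fun n : G => ψh n) (fun n : G => χh n) = 0) :
    Cfsg.classInner (fun c : C => ψh (c * s)) (fun c : C => χh (c * s)) = 0 := by
  rw [classInner_coset G C s hC m hm (IsIrrCharacter.isClassFunction hχh)
    (IsIrrCharacter.isClassFunction hψh)]
  have h := (Cfsg.Agent.S0868.result G χh hχh hres ψh hψh _ rfl).2.1 horth
  exact congrFun h s

end Coset

section IntValue

theorem int_of_char_pow_invariant {S : Type*} [Group S] [Finite S] {A : S → ℂ}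
    (hA : Cfsg.IsCharacter S A) (s : S) (h : ∀ k : ℕ, k.Coprime (Nat.card S) → A (s ^ k) = A s) :
    ∃ a : ℤ, A s = a := by
  have hint := IsCharacter.isIntegral hA s
  obtain ⟨n, ρ, rfl⟩ := hA
  have hn : 0 < Nat.card S := Nat.card_pos
  obtain ⟨q, hq⟩ := Cfsg.Agent.Lib.Helper5Galois.exists_rat_of_fixed
    (Cfsg.Agent.Lib.Helper5Galois.charK ρ s) (by
      intro ψ
      obtain ⟨m, hm, hψ⟩ := Cfsg.Agent.Lib.Helper5Galois.exists_pow_of_ringHom (Nat.card S) hn ψ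
      rw [Cfsg.Agent.Lib.Helper5Galois.apply_charK ρ (Nat.card S) hn
        (fun g => pow_card_eq_one') ψ m hψ s, h m hm]
      rfl)
  rw [Cfsg.Agent.Lib.Helper5Galois.charK_coe] at hq
  rw [hq] at hint
  obtain ⟨y, hy⟩ := exists_int_of_isIntegral_rat q hint
  refine ⟨y, ?_⟩
  rw [hq, ← hy]
  simp

theorem char_eq_zero_of_degree {S : Type*} [Group S] [Finite S] {A : S → ℂ}
    (hA : Cfsg.IsCharacter S A) (h : A 1 = 0) : A = 0 := by
  obtain ⟨n, ρ, rfl⟩ := hA
  rw [char_one, Module.finrank_fin_fun] at h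
  have hn : n = 0 := by exact_mod_cast h
  subst hn
  funext g
  have : ρ g = 0 := Subsingleton.elim _ _
  change LinearMap.trace ℂ _ (ρ g) = 0
  rw [this, map_zero]

theorem exists_unique_of_sum_sq {ι : Type*} [Fintype ι] [DecidableEq ι] (a : ι → ℤ)
    (h : ∑ i, a i ^ 2 = 1) : ∃ i, (a i = 1 ∨ a i = -1) ∧ ∀ j, j ≠ i → a j = 0 := by
  have h1 : ∃ i, a i ≠ 0 := by
    by_contra hcon
    push Not at hcon
    simp [hcon] at h
  obtain ⟨i, hi⟩ := h1
  rw [← Finset.add_sum_erase _ _ (Finset.mem_univ i)] at h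
  have h2 : 0 ≤ ∑ j ∈ Finset.univ.erase i, a j ^ 2 := Finset.sum_nonneg (fun j _ => sq_nonneg _)
  have h3 : 1 ≤ a i ^ 2 := by
    have : 0 < a i ^ 2 := by positivity
    linarith
  have h4 : a i ^ 2 = 1 := by linarith
  have h5 : ∑ j ∈ Finset.univ.erase i, a j ^ 2 = 0 := by linarith
  refine ⟨i, sq_eq_one_iff.mp h4, fun j hj => ?_⟩
  have := (Finset.sum_eq_zero_iff_of_nonneg (fun j _ => sq_nonneg (a j))).mp h5 j
    (Finset.mem_erase.mpr ⟨hj, Finset.mem_univ j⟩)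
  exact pow_eq_zero_iff (two_ne_zero) |>.mp this

end IntValue

section Main

variable {Γ : Type*} [Group Γ] [Fintype Γ] (G C S : Subgroup Γ) [hG : G.Normal] [Fintype G]
  [Fintype C]

/-- the multiplicity function: `t ↦ [c ↦ χh (c t), β]` -/
noncomputable def Acoef (χh : Γ → ℂ) (β : C → ℂ) : S → ℂ :=
  fun t => Cfsg.classInner (fun c : C => χh (c * t)) β

omit [Fintype Γ] in
theorem isCharacter_Acoef [Finite Γ] (hCS : ∀ c ∈ C, ∀ t ∈ S, c * t = t * c)
    (hSab : ∀ a ∈ S, ∀ b ∈ S, a * b = b * a) {χh : Γ → ℂ} (hχh : Cfsg.IsCharacter Γ χh)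
    {β : C → ℂ} (hβ : Cfsg.IsCharacter C β) : Cfsg.IsCharacter S (Acoef C S χh β) := by
  classical
  have : Fintype S := Fintype.ofFinite _
  apply isCharacter_of_classInner_nat
  · intro g h
    have : h * g * h⁻¹ = g := by
      apply Subtype.ext
      change (h : Γ) * g * (h : Γ)⁻¹ = g
      rw [hSab h h.2 g g.2]; group
    rw [this]
  · intro l
    let κ : C × S →* Γ := C.subtype.noncommCoprod S.subtype (fun c t => hCS c c.2 t t.2)
    have h1 : Cfsg.IsCharacter (C × S) (fun x => χh (κ x)) := IsCharacter.comp κ hχh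
    have h2 : Cfsg.IsCharacter (C × S) ((fun x => β ((MonoidHom.fst C S) x))
        * (fun x => l.1 ((MonoidHom.snd C S) x))) :=
      IsCharacter.mul (IsCharacter.comp (MonoidHom.fst C S) hβ)
        (IsCharacter.comp (MonoidHom.snd C S) (IsIrrCharacter.isCharacter l.2))
    obtain ⟨n, hn⟩ := IsCharacter.classInner_nat h1 h2
    refine ⟨n, ?_⟩
    rw [← hn]
    have key : ∀ t : S, Acoef C S χh β t * conj (l.1 t)
        = (Nat.card C : ℂ)⁻¹ * ∑ c : C, (fun x => χh (κ x)) (c, t)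
          * conj (((fun x => β ((MonoidHom.fst C S) x))
            * (fun x => l.1 ((MonoidHom.snd C S) x))) (c, t)) := by
      intro t
      unfold Acoef Cfsg.classInner
      rw [mul_assoc, Finset.sum_mul]
      refine congrArg _ (Finset.sum_congr rfl (fun c _ => ?_))
      change χh (c * t) * conj (β c) * conj (l.1 t) = χh ((c : Γ) * t) * conj (β c * l.1 t)
      rw [map_mul]; ring
    unfold Cfsg.classInner
    rw [Finset.sum_congr rfl (fun t _ => key t), ← Finset.mul_sum, Nat.card_prod,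
      Fintype.sum_prod_type_right]
    push_cast
    rw [mul_inv]
    ring

/-- The values of the canonical extension on `C s` are those of `± β`. -/
theorem exists_sign_irr (hcop : (Nat.card G).Coprime G.index) (hSidx : Nat.card S = G.index)
    (hCS : ∀ c ∈ C, ∀ t ∈ S, c * t = t * c) (hSab : ∀ a ∈ S, ∀ b ∈ S, a * b = b * a)
    (s : Γ) (hs : s ∈ S) (hC : ∀ x, x ∈ C ↔ x ∈ G ∧ x * s = s * x)
    {χh : Γ → ℂ} (hχh : Cfsg.IsIrrCharacter Γ χh)
    (hres : Cfsg.IsIrrCharacter G (fun g : G => χh g))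
    (hdet : (Cfsg.detOrder χh).Coprime G.index) :
    ∃ (β : Cfsg.IrrCharacter C) (ε : ℤ), (ε = 1 ∨ ε = -1) ∧
      (∀ c : C, χh (c * s) = (ε : ℂ) * β.1 c) ∧
      ∀ β' : Cfsg.IrrCharacter C,
        Acoef C S χh β'.1 ⟨s, hs⟩ = if β' = β then (ε : ℂ) else 0 := by
  classical
  have hspow : s ^ G.index = 1 := by
    rw [← hSidx]
    exact congrArg Subtype.val (pow_card_eq_one' (G := S) (x := ⟨s, hs⟩))
  obtain ⟨m, hm⟩ := pow_crt G hcop s hspow
  have hm' : ∀ c ∈ C, (c * s) ^ m = s := fun c hc => hm c ((hC c).mp hc).1 ((hC c).mp hc).2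
  set f : C → ℂ := fun c => χh (c * s) with hfdef
  have hf : Cfsg.IsClassFunction C f := by
    intro g h
    change χh (((h : Γ) * g * (h : Γ)⁻¹) * s) = χh (g * s)
    have e : ((h : Γ) * g * (h : Γ)⁻¹) * s = (h : Γ) * (g * s) * (h : Γ)⁻¹ := by
      have := ((hC h).mp h.2).2
      calc ((h : Γ) * g * (h : Γ)⁻¹) * s = (h : Γ) * g * (h : Γ)⁻¹ * (s * h) * (h : Γ)⁻¹ := by group
        _ = (h : Γ) * g * (h : Γ)⁻¹ * (h * s) * (h : Γ)⁻¹ := by rw [this]
        _ = (h : Γ) * (g * s) * (h : Γ)⁻¹ := by group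
    rw [e, IsIrrCharacter.isClassFunction hχh]
  have hint : ∀ β' : Cfsg.IrrCharacter C, ∃ a : ℤ, Cfsg.classInner f β'.1 = a := by
    intro β'
    have hA := isCharacter_Acoef C S hCS hSab (IsIrrCharacter.isCharacter hχh)
      (IsIrrCharacter.isCharacter β'.2)
    obtain ⟨a, ha⟩ := int_of_char_pow_invariant hA ⟨s, hs⟩ (fun k hk => by
      unfold Acoef
      congr 1
      funext c
      exact canonical_gen G hχh hres hcop hdet c s ((hC c).mp c.2).1 ((hC c).mp c.2).2 hspow k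
        (hSidx ▸ hk))
    exact ⟨a, ha⟩
  choose a ha using hint
  have hnorm := classInner_coset_self G C s hC m hm' hχh hres
  rw [classInner_eq_sum f f hf] at hnorm
  have hsum : ∑ β' : Cfsg.IrrCharacter C, a β' ^ 2 = 1 := by
    have : ((∑ β' : Cfsg.IrrCharacter C, a β' ^ 2 : ℤ) : ℂ) = 1 := by
      rw [← hnorm]
      push_cast
      refine Finset.sum_congr rfl (fun β' _ => ?_)
      rw [← classInner_conj_symm f β'.1, ha β']
      simp [sq]
    exact_mod_cast this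
  obtain ⟨β, hβ, hother⟩ := exists_unique_of_sum_sq a hsum
  refine ⟨β, a β, hβ, fun c => ?_, fun β' => ?_⟩
  · have h1 := classFunction_eq_sum f hf
    rw [Finset.sum_eq_single β (fun b _ hb => by rw [ha b, hother b hb]; simp)
      (fun h => absurd (Finset.mem_univ β) h), ha β] at h1
    exact congrFun h1 c
  · change Cfsg.classInner f β'.1 = _
    rw [ha β']
    split_ifs with h
    · rw [h]
    · rw [hother β' h]; simp

end Main

end Cfsg.Agent.Lib.Helper77Cyc2
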