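import Mathlib
import Cfsg.Prelude.Def_Characters
import Cfsg.Agent.Lib.Helper77Cyc2

set_option autoImplicit false

/-!
# Characters of an abelian group with values `0, ±1` off the identity
-/

namespace Cfsg.Agent.Lib.Helper77Cyc3

open Module Representation
open scoped ComplexConjugate
open Cfsg.Agent.Lib.Helper4Eigen Cfsg.Agent.Lib.Helper4Char Cfsg.Agent.Lib.Helper4Char2
  Cfsg.Agent.Lib.Helper4Char3 Cfsg.Agent.Lib.Helper4Char4 Cfsg.Agent.Lib.Helper4Perm
  Cfsg.Agent.Lib.Helper77Glaub Cfsg.Agent.Lib.Helper77Cyc2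

theorem arith (n b t q : ℤ) (hn : 1 ≤ n) (hb0 : 0 ≤ b) (hbt : b ≤ t) (htn : t ≤ n - 1)
    (hq : n * q = b ^ 2 + t) (hqb : b ≤ q) :
    (b = 0 ∧ t = 0 ∧ q = 0) ∨ (t = n - 1 ∧ ((b = 1 ∧ q = 1) ∨ (b = n - 1 ∧ q = n - 1))) := by
  rcases hb0.eq_or_lt with h | h
  · left
    have hb : b = 0 := h.symm
    subst hb
    have hq0 : q = 0 := by
      by_contra hne
      have : 1 ≤ q := by omega
      nlinarith
    subst hq0
    refine ⟨rfl, ?_, rfl⟩
    linarith
  · right
    have hb1 : 1 ≤ b := h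
    have h1 : n * b ≤ b ^ 2 + t := by nlinarith
    have ht : t = n - 1 := by
      by_contra hne
      have h2 : t + 2 ≤ n := by omega
      have h3 : (b - 1) * (b - t) ≤ 0 := by nlinarith
      nlinarith
    refine ⟨ht, ?_⟩
    subst ht
    have h4 : (b - 1) * (n - 1 - b) ≤ 0 := by nlinarith
    have h5 : b = 1 ∨ b = n - 1 := by
      by_contra hcon
      push Not at hcon
      have h6 : 0 < b - 1 := by
        have := hcon.1
        omega
      have h7 : 0 < n - 1 - b := by
        have := hcon.2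
        omega
      nlinarith
    rcases h5 with h5 | h5
    · left
      subst h5
      refine ⟨rfl, ?_⟩
      have : n * q = n * 1 := by linarith
      exact mul_left_cancel₀ (by omega) this
    · right
      refine ⟨h5, ?_⟩
      have : n * q = n * (n - 1) := by rw [hq, h5]; ring
      exact mul_left_cancel₀ (by omega) this

section Structure

variable {S : Type*} [Group S] [Fintype S] [IsMulCommutative S]

theorem norm_irr_le_one (l : Cfsg.IrrCharacter S) (x : S) : ‖l.1 x‖ ≤ 1 := by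
  have h1 := Cfsg.Agent.Lib.Helper83Char.irr_one_of_comm l.2
  obtain ⟨d, ρ, _, hρ⟩ := l.2
  rw [← hρ] at h1 ⊢
  have h2 := norm_char_le ρ x
  rw [char_one] at h1
  have h3 : (finrank ℂ (Fin d → ℂ) : ℝ) = 1 := by exact_mod_cast h1
  rwa [h3] at h2

open scoped Classical in
theorem sum_irr_apply (x : S) :
    ∑ l : Cfsg.IrrCharacter S, l.1 x = if x = 1 then (Nat.card S : ℂ) else 0 := by
  rw [← sum_degree_mul x]
  refine Finset.sum_congr rfl (fun l _ => ?_)
  rw [Cfsg.Agent.Lib.Helper83Char.irr_one_of_comm l.2, one_mul]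

open scoped Classical in
/-- A character of an abelian group with values in `{0, 1, -1}` off the identity is a multiple
of the regular character, possibly plus or minus a linear character. -/
theorem char_pm_structure {ν : S → ℂ} (hν : Cfsg.IsCharacter S ν) (v : S → ℤ)
    (hv : ∀ x, x ≠ 1 → ν x = v x) (hv1 : ∀ x, x ≠ 1 → v x = 0 ∨ v x = 1 ∨ v x = -1) :
    (∃ k : ℕ, ∀ x, ν x = k * (if x = 1 then (Nat.card S : ℂ) else 0)) ∨
    (∃ (k : ℕ) (ε : ℤ) (μ : Cfsg.IrrCharacter S), (ε = 1 ∨ ε = -1) ∧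
      ∀ x, ν x = k * (if x = 1 then (Nat.card S : ℂ) else 0) + ε * μ.1 x) := by
  obtain ⟨m, hm, hmi⟩ := IsCharacter.eq_sum_nat hν
  have hl1 : ∀ l : Cfsg.IrrCharacter S, l.1 1 = 1 := fun l =>
    Cfsg.Agent.Lib.Helper83Char.irr_one_of_comm l.2
  set n : ℤ := (Nat.card S : ℤ) with hn
  have hn1 : 1 ≤ n := by
    have : 0 < Nat.card S := Nat.card_pos
    omega
  have hcardI : (Fintype.card (Cfsg.IrrCharacter S) : ℤ) = n := by
    have h := sum_irr_apply (1 : S)
    rw [if_pos rfl, Finset.sum_congr rfl (fun l _ => hl1 l)] at h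
    simp only [Finset.sum_const, Finset.card_univ, nsmul_eq_mul, mul_one] at h
    have : (Fintype.card (Cfsg.IrrCharacter S) : ℕ) = Nat.card S := by exact_mod_cast h
    rw [hn, ← this]
  have hne : Nonempty (Cfsg.IrrCharacter S) := by
    rw [← Fintype.card_pos_iff]
    have : (0 : ℤ) < Fintype.card (Cfsg.IrrCharacter S) := by rw [hcardI]; omega
    exact_mod_cast this
  obtain ⟨l0, hl0⟩ := Finite.exists_min m
  set m₀ : ℕ := m l0 with hm₀
  set a : Cfsg.IrrCharacter S → ℤ := fun l => (m l : ℤ) - m₀ with ha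
  have ha0 : ∀ l, 0 ≤ a l := fun l => by
    have := hl0 l
    simp only [ha]
    omega
  have hma : ∀ l, (m l : ℂ) = (m₀ : ℂ) + (a l : ℂ) := fun l => by
    simp only [ha]; push_cast; ring
  -- expansion of `ν`
  have hνx : ∀ x, ν x = (m₀ : ℂ) * (if x = 1 then (Nat.card S : ℂ) else 0)
      + ∑ l : Cfsg.IrrCharacter S, (a l : ℂ) * l.1 x := by
    intro x
    rw [← sum_irr_apply x, Finset.mul_sum, ← Finset.sum_add_distrib]
    conv_lhs => rw [hm]
    rw [Finset.sum_apply]
    refine Finset.sum_congr rfl (fun l _ => ?_)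
    rw [Pi.smul_apply, smul_eq_mul, hma l]; ring
  set b : ℤ := ∑ l, a l with hb
  set q : ℤ := ∑ l, a l ^ 2 with hq
  set t : ℤ := ∑ x ∈ Finset.univ.erase (1 : S), v x ^ 2 with ht
  have hb0 : 0 ≤ b := Finset.sum_nonneg (fun l _ => ha0 l)
  have hqb : b ≤ q := Finset.sum_le_sum (fun l _ => by nlinarith [ha0 l, sq_nonneg (a l - 1)])
  have hν1 : ν 1 = ((b + n * m₀ : ℤ) : ℂ) := by
    rw [hνx 1, if_pos rfl, Finset.sum_congr rfl (fun l _ => by rw [hl1 l, mul_one])]
    have e1 : ((b : ℤ) : ℂ) = ∑ l, (a l : ℂ) := by rw [hb]; push_cast; rfl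
    have e2 : ((n : ℤ) : ℂ) = (Nat.card S : ℂ) := by rw [hn]; simp
    push_cast
    rw [e1, e2]
    ring
  have hvsq : ∀ x, x ≠ 1 → v x ^ 2 ≤ 1 := fun x hx => by
    rcases hv1 x hx with h | h | h <;> rw [h] <;> norm_num
  have htn : t ≤ n - 1 := by
    calc t ≤ ∑ x ∈ Finset.univ.erase (1 : S), (1 : ℤ) :=
          Finset.sum_le_sum (fun x hx => hvsq x (Finset.ne_of_mem_erase hx))
      _ = n - 1 := by
          rw [Finset.sum_const, Finset.card_erase_of_mem (Finset.mem_univ _), Finset.card_univ,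
            hn, Nat.card_eq_fintype_card]
          have : 0 < Fintype.card S := Fintype.card_pos
          simp
          omega
  -- the norm equation
  have hE2 : n * q = b ^ 2 + t := by
    have h1 : Cfsg.classInner ν ν = ((∑ l, (m l : ℤ) ^ 2 : ℤ) : ℂ) := by
      rw [classInner_eq_sum ν ν (IsCharacter.isClassFunction hν)]
      push_cast
      refine Finset.sum_congr rfl (fun l _ => ?_)
      rw [← classInner_conj_symm ν l.1, hmi l]
      simp [sq]
    have h2 := sum_mul_conj ν ν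
    rw [h1, ← Finset.add_sum_erase _ _ (Finset.mem_univ (1 : S)), hν1,
      Finset.sum_congr rfl (fun x hx => by
        rw [hv x (Finset.ne_of_mem_erase hx), map_intCast])] at h2
    have h3 : (b + n * m₀) * (b + n * m₀) + ∑ x ∈ Finset.univ.erase (1 : S), v x * v x
        = n * ∑ l, (m l : ℤ) ^ 2 := by
      have : (((b + n * m₀) * (b + n * m₀) + ∑ x ∈ Finset.univ.erase (1 : S), v x * v x : ℤ) : ℂ)
          = ((n * ∑ l, (m l : ℤ) ^ 2 : ℤ) : ℂ) := by
        rw [map_intCast] at h2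
        have e2 : ((n : ℤ) : ℂ) = (Nat.card S : ℂ) := by rw [hn]; simp
        rw [Int.cast_mul n, e2, ← h2]
        push_cast
        ring
      exact_mod_cast this
    have h4 : ∑ l, (m l : ℤ) ^ 2 = q + 2 * m₀ * b + n * (m₀ : ℤ) ^ 2 := by
      rw [hq, hb, Finset.mul_sum, ← hcardI]
      have : ((Fintype.card (Cfsg.IrrCharacter S) : ℤ)) * (m₀ : ℤ) ^ 2
          = ∑ _l : Cfsg.IrrCharacter S, (m₀ : ℤ) ^ 2 := by
        rw [Finset.sum_const, Finset.card_univ]; simp
      rw [this, ← Finset.sum_add_distrib, ← Finset.sum_add_distrib]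
      refine Finset.sum_congr rfl (fun l _ => ?_)
      simp only [ha]; ring
    have h5 : ∑ x ∈ Finset.univ.erase (1 : S), v x * v x = t := by
      rw [ht]; exact Finset.sum_congr rfl (fun x _ => by ring)
    rw [h4, h5] at h3
    nlinarith
  -- the triangle inequality
  have hE1 : b ≤ t := by
    have h2 := sum_mul_conj ν l0.1
    rw [hmi l0, ← Finset.add_sum_erase _ _ (Finset.mem_univ (1 : S)), hν1, hl1 l0, map_one,
      mul_one] at h2
    have h3 : ((b : ℤ) : ℂ) = - ∑ x ∈ Finset.univ.erase (1 : S), ν x * conj (l0.1 x) := by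
      have : ((Nat.card S : ℕ) : ℂ) = ((n : ℤ) : ℂ) := by rw [hn]; simp
      rw [this] at h2
      push_cast at h2 ⊢
      linear_combination h2
    have h4 : ‖((b : ℤ) : ℂ)‖ ≤ ∑ x ∈ Finset.univ.erase (1 : S), ((v x ^ 2 : ℤ) : ℝ) := by
      rw [h3, norm_neg]
      refine (norm_sum_le _ _).trans (Finset.sum_le_sum (fun x hx => ?_))
      have hx1 := Finset.ne_of_mem_erase hx
      rw [norm_mul, RCLike.norm_conj, hv x hx1]
      have h5 := norm_irr_le_one l0 x
      have h6 : ‖((v x : ℤ) : ℂ)‖ = ((v x ^ 2 : ℤ) : ℝ) := by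
        rcases hv1 x hx1 with h | h | h <;> rw [h] <;> simp
      rw [h6]
      have h7 : (0 : ℝ) ≤ ((v x ^ 2 : ℤ) : ℝ) := by exact_mod_cast sq_nonneg (v x)
      nlinarith
    have h8 : ‖((b : ℤ) : ℂ)‖ = ((b : ℤ) : ℝ) := by
      rw [Complex.norm_intCast, abs_of_nonneg (by exact_mod_cast hb0)]
    rw [h8] at h4
    have : ((b : ℤ) : ℝ) ≤ ((t : ℤ) : ℝ) := by
      rw [ht]; push_cast at h4 ⊢; exact h4
    exact_mod_cast this
  rcases arith n b t q hn1 hb0 hE1 htn hE2 hqb with ⟨h1, -, -⟩ | ⟨-, ⟨h1, h2⟩ | ⟨h1, h2⟩⟩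
  · left
    refine ⟨m₀, fun x => ?_⟩
    have hz : ∀ l, a l = 0 := fun l =>
      (Finset.sum_eq_zero_iff_of_nonneg (fun l _ => ha0 l)).mp h1 l (Finset.mem_univ l)
    rw [hνx x, Finset.sum_eq_zero (fun l _ => by rw [hz l]; simp), add_zero]
  · right
    obtain ⟨i, hi, hoth⟩ := exists_unique_of_sum_sq a h2
    have hi1 : a i = 1 := by
      rcases hi with h | h
      · exact h
      · have := ha0 i; omega
    refine ⟨m₀, 1, i, Or.inl rfl, fun x => ?_⟩
    rw [hνx x, Finset.sum_eq_single i (fun l _ hl => by rw [hoth l hl]; simp)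
      (fun h => absurd (Finset.mem_univ i) h), hi1]
  · right
    have h3 : ∑ l, (1 - a l) ^ 2 = 1 := by
      have : ∑ l, (1 - a l) ^ 2 = n - 2 * b + q := by
        rw [hq, hb, Finset.mul_sum, ← hcardI]
        have : ((Fintype.card (Cfsg.IrrCharacter S) : ℤ))
            = ∑ _l : Cfsg.IrrCharacter S, (1 : ℤ) := by
          rw [Finset.sum_const, Finset.card_univ]; simp
        rw [this, ← Finset.sum_sub_distrib, ← Finset.sum_add_distrib]
        exact Finset.sum_congr rfl (fun l _ => by ring)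
      rw [this, h1, h2]; ring
    obtain ⟨i, hi, hoth⟩ := exists_unique_of_sum_sq (fun l => 1 - a l) h3
    have hoth' : ∀ l, l ≠ i → a l = 1 := fun l hl => by
      have := hoth l hl
      omega
    have hi0 : a i = 0 := by
      have h4 : b = a i + ∑ l ∈ Finset.univ.erase i, a l := by
        rw [hb, Finset.add_sum_erase _ _ (Finset.mem_univ i)]
      rw [Finset.sum_congr rfl (fun l hl => hoth' l (Finset.ne_of_mem_erase hl)),
        Finset.sum_const, Finset.card_erase_of_mem (Finset.mem_univ _), Finset.card_univ] at h4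
      have h5 : 0 < Fintype.card (Cfsg.IrrCharacter S) := Fintype.card_pos
      have h6 : ((Fintype.card (Cfsg.IrrCharacter S) - 1 : ℕ) : ℤ) = n - 1 := by
        rw [← hcardI]; omega
      simp only [nsmul_eq_mul, mul_one] at h4
      rw [h6, h1] at h4
      omega
    refine ⟨m₀ + 1, -1, i, Or.inr rfl, fun x => ?_⟩
    rw [hνx x]
    have h7 : ∑ l : Cfsg.IrrCharacter S, (a l : ℂ) * l.1 x
        = (if x = 1 then (Nat.card S : ℂ) else 0) - i.1 x := by
      rw [← sum_irr_apply x, ← Finset.add_sum_erase _ _ (Finset.mem_univ i), hi0,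
        ← Finset.add_sum_erase _ (fun l : Cfsg.IrrCharacter S => l.1 x) (Finset.mem_univ i),
        Finset.sum_congr rfl (fun l hl => by rw [hoth' l (Finset.ne_of_mem_erase hl)])]
      simp
    rw [h7]
    push_cast
    ring

end Structure

end Cfsg.Agent.Lib.Helper77Cyc3
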