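import Mathlib

set_option autoImplicit false

namespace Cfsg.Agent.Lib.Helper77Eig

open Module LinearMap Set

variable {V : Type*} [AddCommGroup V] [Module ℂ V] [FiniteDimensional ℂ V]

theorem mapsTo_pow (A : End ℂ V) (μ : ℂ) (e : ℕ) :
    MapsTo (A ^ e) (A.maxGenEigenspace μ) (A.maxGenEigenspace μ) :=
  A.mapsTo_maxGenEigenspace_of_comm ((Commute.refl A).pow_right e) μ

theorem trace_pow_restrict (A : End ℂ V) (μ : ℂ) (e : ℕ) :
    trace ℂ _ ((A ^ e).restrict (mapsTo_pow A μ e))
      = μ ^ e * (finrank ℂ (A.maxGenEigenspace μ) : ℂ) := by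
  induction e with
  | zero =>
    have : ((A ^ 0).restrict (mapsTo_pow A μ 0)) = LinearMap.id := by
      ext x; simp
    rw [this]; simp
  | succ e ih =>
    have h1 : ((A ^ (e + 1)).restrict (mapsTo_pow A μ (e + 1)))
        = ((A ^ e).restrict (mapsTo_pow A μ e)) ∘ₗ ((A ^ 1).restrict (mapsTo_pow A μ 1)) := by
      ext x
      change (A ^ (e + 1)) (x : V) = (A ^ e) ((A ^ 1) (x : V))
      rw [pow_succ, pow_one]; rfl
    have hc : Commute ((A ^ e).restrict (mapsTo_pow A μ e))
        ((A ^ 1).restrict (mapsTo_pow A μ 1)) := by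
      apply LinearMap.ext
      intro x
      apply Subtype.ext
      change (A ^ e) ((A ^ 1) (x : V)) = (A ^ 1) ((A ^ e) (x : V))
      rw [← Module.End.mul_apply, ← Module.End.mul_apply, ← pow_add, ← pow_add, add_comm]
    have hn : IsNilpotent (((A ^ 1).restrict (mapsTo_pow A μ 1))
        - algebraMap ℂ (End ℂ (A.maxGenEigenspace μ)) μ) := by
      have := A.isNilpotent_restrict_maxGenEigenspace_sub_algebraMap μ
      convert this using 1
      ext x
      change (A ^ 1) (x : V) - μ • (x : V) = A (x : V) - μ • (x : V)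
      rw [pow_one]
    rw [h1, trace_comp_eq_mul_of_commute_of_isNilpotent μ hc hn, ih]
    ring

theorem exists_spectrum (A : End ℂ V) :
    ∃ (s : Finset ℂ) (m : ℂ → ℕ), (∀ μ ∈ s, A.HasEigenvalue μ) ∧
      (∀ e : ℕ, trace ℂ V (A ^ e) = ∑ μ ∈ s, (m μ : ℂ) * μ ^ e) ∧
      (∑ μ ∈ s with μ ≠ 0, m μ ≤ finrank ℂ (LinearMap.range A)) := by
  classical
  have hds := DirectSum.isInternal_submodule_of_iSupIndep_of_iSup_eq_top
      A.independent_maxGenEigenspace (Module.End.iSup_maxGenEigenspace_eq_top A)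
  have h_fin : {μ | A.maxGenEigenspace μ ≠ ⊥}.Finite :=
      WellFoundedGT.finite_ne_bot_of_iSupIndep A.independent_maxGenEigenspace
  have htr : ∀ e : ℕ, trace ℂ V (A ^ e)
      = ∑ μ ∈ h_fin.toFinset, (finrank ℂ (A.maxGenEigenspace μ) : ℂ) * μ ^ e := by
    intro e
    rw [trace_eq_sum_trace_restrict' hds h_fin (fun μ => mapsTo_pow A μ e)]
    apply Finset.sum_congr rfl
    intro μ _
    rw [trace_pow_restrict, mul_comm]
  refine ⟨h_fin.toFinset, fun μ => finrank ℂ (A.maxGenEigenspace μ), ?_, htr, ?_⟩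
  · intro μ hμ
    have : A.maxGenEigenspace μ ≠ ⊥ := by simpa using hμ
    exact (Module.End.hasUnifEigenvalue_iff_hasUnifEigenvalue_one (k := ⊤) (by simp)).mp this
  · have h0 := htr 0
    simp only [pow_zero, mul_one] at h0
    have h1 : (finrank ℂ V : ℂ) = ((∑ μ ∈ h_fin.toFinset, finrank ℂ (A.maxGenEigenspace μ) : ℕ) : ℂ) := by
      rw [Nat.cast_sum, ← h0]
      simp
    have h2 : finrank ℂ V = ∑ μ ∈ h_fin.toFinset, finrank ℂ (A.maxGenEigenspace μ) := by
      exact_mod_cast h1
    have h3 := LinearMap.finrank_range_add_finrank_ker A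
    have h4 : finrank ℂ (LinearMap.ker A) ≤ finrank ℂ (A.maxGenEigenspace 0) := by
      apply Submodule.finrank_mono
      intro x hx
      rw [Module.End.mem_maxGenEigenspace]
      refine ⟨1, ?_⟩
      simpa using hx
    have h5 : (∑ μ ∈ h_fin.toFinset with μ ≠ 0, finrank ℂ (A.maxGenEigenspace μ))
          + finrank ℂ (A.maxGenEigenspace 0)
        = ∑ μ ∈ h_fin.toFinset, finrank ℂ (A.maxGenEigenspace μ) := by
      rw [← Finset.sum_filter_add_sum_filter_not h_fin.toFinset (fun μ => μ ≠ 0)]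
      congr 1
      by_cases h0 : (0 : ℂ) ∈ h_fin.toFinset
      · have : (h_fin.toFinset.filter (fun μ => ¬ μ ≠ 0)) = {0} := by
          ext μ
          simp only [Finset.mem_filter, not_not, Finset.mem_singleton]
          constructor
          · exact fun h => h.2
          · rintro rfl; exact ⟨h0, rfl⟩
        rw [this]; simp
      · have : (h_fin.toFinset.filter (fun μ => ¬ μ ≠ 0)) = ∅ := by
          ext μ
          simp only [Finset.mem_filter, not_not, Finset.notMem_empty, iff_false, not_and]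
          rintro h rfl; exact h0 h
        rw [this]
        have h6 : A.maxGenEigenspace 0 = ⊥ := by
          by_contra h; exact h0 (by simpa using h)
        rw [h6]; simp
    change ∑ μ ∈ h_fin.toFinset with μ ≠ 0, finrank ℂ (A.maxGenEigenspace μ) ≤ _
    omega

end Cfsg.Agent.Lib.Helper77Eig
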