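import Mathlib
import Cfsg.Prelude.Def_GeometricClasses
import Cfsg.Agent.Lib.Helper87EluTools

set_option autoImplicit false
set_option linter.unusedSectionVars false

/-! Project 94, wave 3 (row S5958), piece I-ELT. -/

namespace Cfsg.Agent.Lib.Helper77ImpELT

open Module Polynomial Cfsg.Geo Cfsg.Agent.Lib.Helper7EluC1 Cfsg.Agent.Lib.Helper87EluTools
  Cfsg.Agent.Lib.Helper87EluD

section model
variable {F : Type*} [Field F] {E : Type*} [Field E] [Algebra F E]

private theorem aeval_fM (a b : ℕ) (ζ : E) (p : F[X]) (x : (Fin a → E) × (Fin b → F)) :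
    (aeval (fM (F := F) a b ζ) p) x = (aeval ζ p • x.1, p.eval 1 • x.2) := by
  induction p using Polynomial.induction_on' with
  | add p q hp hq =>
    rw [map_add, LinearMap.add_apply, hp, hq, map_add, eval_add, add_smul, add_smul,
      Prod.mk_add_mk]
  | monomial k c =>
    rw [aeval_monomial, aeval_monomial, Module.End.mul_apply, fM_pow, eval_monomial, one_pow,
      mul_one, Module.algebraMap_end_apply, Prod.smul_mk, mul_smul, algebraMap_smul]

end model

variable {F : Type*} [Field F] {n : ℕ}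

private theorem exists_end [Fintype F] (r : ℕ) [Fact r.Prime] (hr : ¬ r ∣ Fintype.card F)
    (s : ℕ) (hsn : orderOf (Fintype.card F : ZMod r) * s ≤ n) :
    ∃ f : Module.End F (Fin n → F), f ^ r = 1 ∧
      finrank F ↥(Module.End.eigenspace f 1) = n - orderOf (Fintype.card F : ZMod r) * s ∧
      ∃ P : F[X], P ≠ 0 ∧ P.natDegree ≤ orderOf (Fintype.card F : ZMod r) + 1 ∧ aeval f P = 0 := by
  classical
  set q := Fintype.card F with hq
  set i := orderOf (q : ZMod r) with hi
  have hrp : r.Prime := Fact.out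
  have hq0 : (q : ZMod r) ≠ 0 := by
    rw [Ne, ZMod.natCast_eq_zero_iff]
    exact hr
  have hipos : 0 < i := by
    rw [hi, orderOf_pos_iff, isOfFinOrder_iff_pow_eq_one]
    exact ⟨r - 1, Nat.sub_pos_of_lt hrp.one_lt, ZMod.pow_card_sub_one_eq_one hq0⟩
  have : NeZero i := ⟨hipos.ne'⟩
  obtain ⟨p, hp⟩ := CharP.exists F
  have : Fact p.Prime := ⟨CharP.char_is_prime F p⟩
  let E := FiniteField.Extension F p i
  have : Fintype E := Fintype.ofFinite E
  have hcardE : Fintype.card E = q ^ i := by
    rw [Fintype.card_eq_nat_card, FiniteField.natCard_extension, Nat.card_eq_fintype_card]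
  have hq1 : 1 ≤ q ^ i := Nat.one_le_pow _ _ Fintype.card_pos
  have hdvd : r ∣ Fintype.card Eˣ := by
    rw [Fintype.card_units, hcardE, ← ZMod.natCast_eq_zero_iff, Nat.cast_sub hq1]
    push_cast
    rw [hi, pow_orderOf_eq_one, sub_self]
  obtain ⟨ζ, hζ⟩ := exists_prime_orderOf_dvd_card r hdvd
  have hζ1 : (ζ : E) ≠ 1 := by
    intro h
    have : ζ = 1 := Units.ext h
    rw [this, orderOf_one] at hζ
    exact hrp.one_lt.ne hζ
  have hζr : (ζ : E) ^ r = 1 := by
    have := pow_orderOf_eq_one ζ
    rw [hζ] at this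
    have h2 := congrArg Units.val this
    simpa using h2
  have hfin : finrank F ((Fin s → E) × (Fin (n - i * s) → F)) = finrank F (Fin n → F) := by
    rw [Module.finrank_prod, Module.finrank_pi_fintype, Module.finrank_fintype_fun_eq_card,
      Module.finrank_fintype_fun_eq_card]
    simp only [FiniteField.finrank_extension, Finset.sum_const, Finset.card_univ, Fintype.card_fin,
      smul_eq_mul, E]
    rw [mul_comm]
    omega
  let e : ((Fin s → E) × (Fin (n - i * s) → F)) ≃ₗ[F] (Fin n → F) := LinearEquiv.ofFinrankEq _ _ hfin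
  let f' := fM (F := F) s (n - i * s) (ζ : E)
  refine ⟨e.conjAlgEquiv F f', ?_, ?_, ?_⟩
  · rw [← map_pow]
    have : f' ^ r = 1 := by
      ext x <;> simp [f', fM_pow, hζr]
    rw [this, map_one]
  · have h1 : Module.End.eigenspace (e.conjAlgEquiv F f') 1
        = (Module.End.eigenspace f' 1).map e.toLinearMap := by
      ext x
      rw [Module.End.mem_eigenspace_iff, one_smul, Submodule.mem_map]
      constructor
      · intro h
        refine ⟨e.symm x, ?_, by simp⟩
        rw [Module.End.mem_eigenspace_iff, one_smul]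
        apply e.injective
        simpa [LinearEquiv.conjAlgEquiv_apply] using h
      · rintro ⟨y, hy, rfl⟩
        rw [Module.End.mem_eigenspace_iff, one_smul] at hy
        simp [LinearEquiv.conjAlgEquiv_apply, hy]
    rw [h1, LinearEquiv.finrank_map_eq, eig_fM _ _ _ hζ1,
      LinearMap.finrank_range_of_inj LinearMap.inr_injective, Module.finrank_fintype_fun_eq_card,
      Fintype.card_fin]
  · have hint : IsIntegral F (ζ : E) := Algebra.IsIntegral.isIntegral _
    refine ⟨(X - C 1) * minpoly F (ζ : E), mul_ne_zero (X_sub_C_ne_zero 1) (minpoly.ne_zero hint),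
      ?_, ?_⟩
    · refine le_trans natDegree_mul_le ?_
      rw [natDegree_X_sub_C]
      have h1 := minpoly.natDegree_le (A := F) (ζ : E)
      have h2 : finrank F E = i := FiniteField.finrank_extension F p i
      omega
    · rw [show (e.conjAlgEquiv F f') = (e.conjAlgEquiv F : Module.End F _ →ₐ[F] Module.End F _) f' from rfl,
        aeval_algHom_apply]
      have : aeval f' ((X - C 1) * minpoly F (ζ : E)) = 0 := by
        refine LinearMap.ext fun x => ?_
        rw [aeval_fM, map_mul, minpoly.aeval, mul_zero, zero_smul, eval_mul, eval_sub, eval_X,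
          eval_C, sub_self, zero_mul, zero_smul]
        rfl
      rw [this, map_zero]

/- piece I-ELT -/
theorem elt [Fintype F] (r : ℕ) [Fact r.Prime] (hr : ¬ r ∣ Fintype.card F)
    (hq : ¬ r ∣ Fintype.card F - 1) (s : ℕ) (hs : 1 ≤ s)
    (hsn : orderOf (Fintype.card F : ZMod r) * s ≤ n) :
    ∃ x : Matrix.SpecialLinearGroup (Fin n) F,
      ((x ^ r : Matrix.SpecialLinearGroup (Fin n) F) : Matrix (Fin n) (Fin n) F) = (1 : F) • 1 ∧
      (∀ c : F, (x : Matrix (Fin n) (Fin n) F) ≠ c • 1) ∧
      finrank F ↥(Module.End.eigenspace (Matrix.toLin' (x : Matrix (Fin n) (Fin n) F)) 1)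
        = n - orderOf (Fintype.card F : ZMod r) * s ∧
      ∃ P : F[X], P ≠ 0 ∧ P.natDegree ≤ orderOf (Fintype.card F : ZMod r) + 1 ∧
        aeval (Matrix.toLin' (x : Matrix (Fin n) (Fin n) F) : Module.End F (Fin n → F)) P = 0 := by
  have hi : 0 < orderOf (Fintype.card F : ZMod r) :=
    (orderOf_facts (Fintype.card F) r Fintype.card_pos hr).1
  have hcs : 0 < orderOf (Fintype.card F : ZMod r) * s := Nat.mul_pos hi hs
  have hn : 0 < n := lt_of_lt_of_le hcs hsn
  obtain ⟨f, hf, hfix, P, hP0, hPd, hPf⟩ := exists_end (F := F) (n := n) r hr s hsn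
  have hdet : LinearMap.det f = 1 := by
    apply eq_one_of_pow r hq
    rw [← map_pow, hf, map_one]
  obtain ⟨x, hx, hxr⟩ := exists_sl_of_end f hdet r 1 (by rw [hf, one_smul])
  refine ⟨x, hxr, ?_, by rw [hx]; exact hfix, P, hP0, hPd, by rw [hx]; exact hPf⟩
  intro z hz
  have h1 : ((x ^ r : Matrix.SpecialLinearGroup (Fin n) F) : Matrix (Fin n) (Fin n) F) = (z ^ r) • 1 := by
    rw [Matrix.SpecialLinearGroup.coe_pow, hz, _root_.smul_pow, one_pow]
  rw [hxr] at h1
  have h2 := congrFun (congrFun h1 ⟨0, hn⟩) ⟨0, hn⟩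
  have hz1 : z = 1 := eq_one_of_pow r hq z (by simpa using h2.symm)
  have hf1 : f = 1 := by
    rw [← hx, hz, hz1, one_smul, Matrix.toLin'_one]; rfl
  rw [hf1] at hfix
  have h3 : Module.End.eigenspace (1 : Module.End F (Fin n → F)) 1 = ⊤ := by
    ext v; simp [Module.End.mem_eigenspace_iff]
  rw [h3, finrank_top, finrank_fin_fun] at hfix
  omega

end Cfsg.Agent.Lib.Helper77ImpELT
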