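import Mathlib
import Cfsg.Prelude.Def_GeometricClasses

set_option autoImplicit false
set_option linter.unusedSectionVars false

/-! Project 94, wave 3 (row S5958), piece I-L4. -/

namespace Cfsg.Agent.Lib.Helper77ImpL4

open Module Polynomial Cfsg.Geo

variable {F : Type*} [Field F] {n : ℕ}

section L
variable {a t : ℕ} (r : ℕ) [Fact r.Prime] (f : Module.End F (Fin n → F)) (hf : f ^ r = 1)
  (D : Fin t → Submodule F (Fin n → F)) (hD : IsMDecomposition a D) (σ : Equiv.Perm (Fin t))
  (hσ : ∀ j, (D j).map f = D (σ j))

include hσ in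
private lemma map_pow' (k : ℕ) (j : Fin t) : (D j).map (f ^ k) = D ((σ ^ k) j) := by
  induction k with
  | zero =>
    rw [pow_zero, pow_zero]
    exact Submodule.map_id _
  | succ k ih =>
    rw [pow_succ', Module.End.mul_eq_comp, Submodule.map_comp, ih, hσ, pow_succ',
      Equiv.Perm.mul_apply]

include hD in
private lemma D_inj : Function.Injective D := by
  refine hD.indep.injective fun i h => ?_
  have h1 := hD.finrank_eq i
  rw [h, finrank_bot] at h1
  have := hD.pos
  omega

include hf hD hσ in
private lemma sigma_pow' : σ ^ r = 1 := by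
  ext j
  have h1 := map_pow' f D σ hσ r j
  rw [hf] at h1
  have h2 : (D j).map (1 : Module.End F (Fin n → F)) = D j := Submodule.map_id _
  rw [h2] at h1
  rw [← D_inj D hD h1]
  simp

include hf hD hσ in
private lemma pow_fix (j : Fin t) (hj : σ j ≠ j) (d : ℕ) (hd : d < r) (h : (σ ^ d) j = j) :
    d = 0 := by
  have hr : r.Prime := Fact.out
  have h1 : MulAction.period σ j ∣ r := by
    rw [← MulAction.pow_smul_eq_iff_period_dvd, sigma_pow' r f hf D hD σ hσ, one_smul]
  have h2 : MulAction.period σ j ∣ d := by
    rw [← MulAction.pow_smul_eq_iff_period_dvd]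
    exact h
  rcases (Nat.dvd_prime hr).mp h1 with h3 | h3
  · exfalso
    apply hj
    have := MulAction.pow_period_smul σ j
    rw [h3, pow_one] at this
    exact this
  · rw [h3] at h2
    exact Nat.eq_zero_of_dvd_of_lt h2 hd

include hf hD hσ in
private lemma pow_inj' (j : Fin t) (hj : σ j ≠ j) (k k' : ℕ) (hk : k < r) (hk' : k' < r)
    (h : (σ ^ k) j = (σ ^ k') j) : k = k' := by
  wlog hle : k ≤ k' generalizing k k'
  · exact (this k' k hk' hk h.symm (by omega)).symm
  obtain ⟨d, rfl⟩ := Nat.exists_eq_add_of_le hle
  rw [pow_add, Equiv.Perm.mul_apply] at h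
  have h1 := (σ ^ k).injective h
  have := pow_fix r f hf D hD σ hσ j hj d (by omega) h1.symm
  omega

include hD in
private lemma disj {i : Fin t} {S : Finset (Fin t)} (h : i ∉ S) :
    Disjoint (D i) (⨆ k ∈ S, D k) := by
  have := hD.indep.disjoint_biSup (x := i) (y := (S : Set (Fin t))) (by simpa using h)
  simpa using this

include hD in
private lemma finrank_U (S : Finset (Fin t)) :
    finrank F ↥(⨆ k ∈ S, D k : Submodule F (Fin n → F)) = a * S.card := by
  classical
  induction S using Finset.induction_on with
  | empty => simp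
  | insert i S hi ih =>
    rw [Finset.iSup_insert, Finset.card_insert_of_notMem hi]
    have h1 := Submodule.finrank_sup_add_finrank_inf_eq (D i) (⨆ k ∈ S, D k)
    rw [(disj D hD hi).eq_bot, finrank_bot, add_zero, hD.finrank_eq, ih] at h1
    rw [h1]; ring

include hf in
private lemma f_inj {w : Fin n → F} (h : f w = 0) : w = 0 := by
  have hr : r.Prime := Fact.out
  have h1 : (f ^ r) w = w := by rw [hf]; rfl
  obtain ⟨m, hm⟩ : ∃ m, r = m + 1 := ⟨r - 1, by have := hr.pos; omega⟩
  rw [hm, pow_succ, Module.End.mul_apply, h, map_zero] at h1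
  exact h1.symm

/- piece I-L4 -/
include hf hD hσ in
theorem l4 (j : Fin t) (hj : σ j ≠ j) :
    finrank F ↥(Module.End.eigenspace f 1) + a * (r - 1) ≤ n := by
  classical
  have hr : r.Prime := Fact.out
  set S : ℕ → Finset (Fin t) := fun m => (Finset.range m).image (fun k => (σ ^ k) j) with hS
  have hSs : ∀ m, S (m + 1) = insert ((σ ^ m) j) (S m) := by
    intro m
    simp only [hS, Finset.range_add_one, Finset.image_insert]
  have hcard : ∀ m, m ≤ r → (S m).card = m := by
    intro m hm
    simp only [hS]
    rw [Finset.card_image_of_injOn, Finset.card_range]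
    intro k hk k' hk' h
    simp only [Finset.coe_range, Set.mem_Iio] at hk hk'
    exact pow_inj' r f hf D hD σ hσ j hj k k' (by omega) (by omega) h
  have claim : ∀ m, m + 1 ≤ r → ∀ v ∈ (⨆ k ∈ S m, D k : Submodule F (Fin n → F)), f v = v →
      v = 0 := by
    intro m
    induction m with
    | zero =>
      intro _ v hv _
      simpa [hS] using hv
    | succ m ih =>
      intro hm v hv hfv
      rw [hSs, Finset.iSup_insert, Submodule.mem_sup] at hv
      obtain ⟨w, hw, u, hu, rfl⟩ := hv
      have hfu : f u ∈ (⨆ k ∈ S (m + 1), D k : Submodule F (Fin n → F)) := by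
        have h1 : f u ∈ (⨆ k ∈ S m, D k : Submodule F (Fin n → F)).map f :=
          Submodule.mem_map_of_mem hu
        simp only [Submodule.map_iSup, hσ] at h1
        have hle : (⨆ k ∈ S m, D (σ k) : Submodule F (Fin n → F)) ≤ ⨆ k ∈ S (m + 1), D k := by
          refine iSup₂_le fun k hk => ?_
          have hk' : σ k ∈ S (m + 1) := by
            simp only [hS, Finset.mem_image, Finset.mem_range] at hk ⊢
            obtain ⟨l, hl, rfl⟩ := hk
            exact ⟨l + 1, by omega, by rw [pow_succ', Equiv.Perm.mul_apply]⟩
          exact le_biSup D hk'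
        exact hle h1
      have hwu : w + u ∈ (⨆ k ∈ S (m + 1), D k : Submodule F (Fin n → F)) := by
        rw [hSs, Finset.iSup_insert]
        exact Submodule.add_mem_sup hw hu
      have hfw : f w ∈ (⨆ k ∈ S (m + 1), D k : Submodule F (Fin n → F)) := by
        have : f w = (w + u) - f u := by
          rw [map_add] at hfv
          rw [← hfv]; abel
        rw [this]
        exact Submodule.sub_mem _ hwu hfu
      have hfw' : f w ∈ D ((σ ^ (m + 1)) j) := by
        rw [pow_succ', Equiv.Perm.mul_apply, ← hσ]
        exact Submodule.mem_map_of_mem hw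
      have hnot : (σ ^ (m + 1)) j ∉ S (m + 1) := by
        simp only [hS, Finset.mem_image, Finset.mem_range, not_exists, not_and]
        intro l hl h
        have := pow_inj' r f hf D hD σ hσ j hj l (m + 1) (by omega) (by omega) h
        omega
      have h0 : f w = 0 := (Submodule.disjoint_def.mp (disj D hD hnot)) _ hfw' hfw
      have hw0 : w = 0 := f_inj r f hf h0
      subst hw0
      rw [zero_add] at hfv ⊢
      exact ih (by omega) u hu hfv
  set U : Submodule F (Fin n → F) := ⨆ k ∈ S (r - 1), D k with hU
  have hUr : finrank F U = a * (r - 1) := by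
    rw [hU, finrank_U D hD, hcard _ (by omega)]
  have hinf : Module.End.eigenspace f 1 ⊓ U = ⊥ := by
    rw [eq_bot_iff]
    rintro v ⟨h1, h2⟩
    have h1' : f v = v := by
      have := Module.End.mem_eigenspace_iff.mp h1
      rwa [one_smul] at this
    have hr1 := hr.pos
    exact claim (r - 1) (by omega) v h2 h1'
  have h1 := Submodule.finrank_sup_add_finrank_inf_eq (Module.End.eigenspace f 1) U
  rw [hinf, finrank_bot, add_zero, hUr] at h1
  rw [← h1]
  have h2 := Submodule.finrank_le (Module.End.eigenspace f 1 ⊔ U)
  rwa [Module.finrank_fin_fun] at h2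

end L

end Cfsg.Agent.Lib.Helper77ImpL4
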