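import Mathlib
import Cfsg.Prelude.Def_GeometricClasses
import Cfsg.Agent.Lib.Helper87EluB3
import Cfsg.Agent.Lib.Helper87EluB4

set_option autoImplicit false
set_option linter.unusedSectionVars false

/-! Project 94, wave 3 (row S5958), piece I-MONO. -/

namespace Cfsg.Agent.Lib.Helper77ImpMONO

open Module Polynomial Cfsg.Geo Cfsg.Agent.Lib.Helper87EluB3 Cfsg.Agent.Lib.Helper87EluB4

variable {F : Type*} [Field F] {n : ℕ}

private theorem aux (r : ℕ) [Fact r.Prime] (hrF : (r : F) ≠ 0) (g : Module.End F (Fin n → F))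
    (z : F) (hz : ∀ d : F, d ^ r ≠ z) (hg : g ^ r = z • 1) (k : ℕ) :
    ∀ Q : Submodule F (Fin n → F), Q.map g ≤ Q → finrank F Q = k →
    ∃ (s : ℕ) (v : Fin s → (Fin n → F)),
      Submodule.span F (Set.range fun p : Fin s × Fin r => (g ^ (p.2 : ℕ)) (v p.1)) = Q ∧
      s * r = finrank F Q := by
  have hr : r.Prime := Fact.out
  have hz0 : z ≠ 0 := fun h => hz 0 (by rw [h, zero_pow hr.ne_zero])
  induction k using Nat.strong_induction_on with
  | _ k ih =>
    intro Q hQ hk
    by_cases hQ0 : Q = ⊥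
    · refine ⟨0, Fin.elim0, ?_, ?_⟩
      · rw [hQ0, Submodule.span_eq_bot]
        rintro _ ⟨p, rfl⟩
        exact p.1.elim0
      · rw [hQ0, finrank_bot, zero_mul]
    · obtain ⟨v0, hv0Q, hv0⟩ := Submodule.exists_mem_ne_zero_of_ne_bot hQ0
      have hQg : ∀ x ∈ Q, g x ∈ Q := fun x hx => hQ (Submodule.mem_map_of_mem hx)
      have hQpow : ∀ j : ℕ, (g ^ j) v0 ∈ Q := by
        intro j
        induction j with
        | zero => simpa using hv0Q
        | succ j ihj =>
          rw [pow_succ', Module.End.mul_apply]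
          exact hQg _ ihj
      set Z : Submodule F (Fin n → F) :=
        Submodule.span F (Set.range fun j : Fin r => (g ^ (j : ℕ)) v0) with hZ
      have hZQ : Z ≤ Q := by
        rw [hZ, Submodule.span_le]
        rintro _ ⟨j, rfl⟩
        exact hQpow j
      have hmemZ : ∀ j : ℕ, j < r → (g ^ j) v0 ∈ Z := fun j hj =>
        Submodule.subset_span ⟨⟨j, hj⟩, rfl⟩
      have hZg : Z.map g ≤ Z := by
        rw [hZ, Submodule.map_span, Submodule.span_le]
        rintro _ ⟨_, ⟨j, rfl⟩, rfl⟩
        show g ((g ^ (j : ℕ)) v0) ∈ Z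
        rw [← Module.End.mul_apply, ← pow_succ']
        by_cases hj : (j : ℕ) + 1 < r
        · exact hmemZ _ hj
        · have hj' : (j : ℕ) + 1 = r := by have := j.2; omega
          rw [hj', hg, LinearMap.smul_apply, Module.End.one_apply]
          refine Z.smul_mem _ ?_
          have := hmemZ 0 hr.pos
          simpa using this
      have hZ0 : Z ≠ ⊥ := by
        intro h
        have h1 := hmemZ 0 hr.pos
        rw [h, Submodule.mem_bot] at h1
        exact hv0 (by simpa using h1)
      have hZr : finrank F Z = r := by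
        have h1 : r ∣ finrank F Z := dvd_finrank_of_not_pow r hr g z hg hz Z hZg
        have h2 : finrank F Z ≤ r := by
          have := finrank_range_le_card (R := F) (fun j : Fin r => (g ^ (j : ℕ)) v0)
          rwa [Fintype.card_fin] at this
        have h3 : 0 < finrank F Z := by
          rw [Nat.pos_iff_ne_zero]
          intro h
          exact hZ0 (Submodule.finrank_eq_zero.mp h)
        exact le_antisymm h2 (Nat.le_of_dvd h3 h1)
      obtain ⟨Y, hYQ, hYg, hZY, hZYQ⟩ := exists_rel_compl r hrF g z hz0 hg Z Q hZQ hZg hQ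
      have hfin : finrank F Q = r + finrank F Y := by
        rw [← hZYQ, finrank_sup_of_disjoint Z Y hZY, hZr]
      obtain ⟨s, v, hsp, hs⟩ := ih (finrank F Y) (by have := hr.pos; omega) Y hYg rfl
      refine ⟨s + 1, Fin.cons v0 v, ?_, ?_⟩
      · apply le_antisymm
        · rw [Submodule.span_le]
          rintro _ ⟨⟨a, j⟩, rfl⟩
          rw [← hZYQ]
          refine Fin.cases ?_ (fun a' => ?_) a
          · exact (le_sup_left : Z ≤ Z ⊔ Y) (hmemZ j j.2)
          · refine (le_sup_right : Y ≤ Z ⊔ Y) ?_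
            rw [← hsp]
            exact Submodule.subset_span ⟨(a', j), rfl⟩
        · rw [← hZYQ]
          refine sup_le ?_ ?_
          · rw [hZ, Submodule.span_le]
            rintro _ ⟨j, rfl⟩
            exact Submodule.subset_span ⟨(0, j), rfl⟩
          · rw [← hsp, Submodule.span_le]
            rintro _ ⟨⟨a', j⟩, rfl⟩
            exact Submodule.subset_span ⟨(a'.succ, j), rfl⟩
      · rw [hfin, ← hs]; ring

/- piece I-MONO -/
theorem mono (r : ℕ) [Fact r.Prime] (hrF : (r : F) ≠ 0) (g : Module.End F (Fin n → F)) (z : F)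
    (hz : ∀ d : F, d ^ r ≠ z) (hg : g ^ r = z • 1) :
    ∃ (s : ℕ) (v : Fin s → (Fin n → F)),
      LinearIndependent F (fun p : Fin s × Fin r => (g ^ (p.2 : ℕ)) (v p.1)) ∧
      Submodule.span F (Set.range fun p : Fin s × Fin r => (g ^ (p.2 : ℕ)) (v p.1)) = ⊤ := by
  obtain ⟨s, v, hsp, hs⟩ := aux r hrF g z hz hg _ ⊤ le_top rfl
  refine ⟨s, v, ?_, hsp⟩
  rw [linearIndependent_iff_card_eq_finrank_span, Set.finrank, hsp, ← hs, Fintype.card_prod,
    Fintype.card_fin, Fintype.card_fin]

end Cfsg.Agent.Lib.Helper77ImpMONO
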