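import Mathlib
import Cfsg.Prelude.Def_Blocks
import Cfsg.Agent.Lib.Helper77Eig
import Cfsg.Agent.Lib.Helper20Local
import Cfsg.Agent.Lib.Helper77Glaub

set_option autoImplicit false
set_option linter.unusedSectionVars false

namespace Cfsg.Agent.Lib.Helper77PIM

open MonoidAlgebra Module Cfsg Cfsg.Agent.Lib.Helper20Local

variable {G : Type*} [Group G] [Fintype G]

/-- linear extension of a function on `G` to the integral group ring -/
noncomputable def ev (τ : G → ℂ) : MonoidAlgebra ℤ G →+ ℂ :=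
  (Finsupp.liftAddHom (fun g => (AddMonoidHom.mulRight (τ g)).comp (Int.castAddHom ℂ))).comp
    coeffAddEquiv.toAddMonoidHom

theorem ev_single (τ : G → ℂ) (g : G) (c : ℤ) : ev τ (single g c) = c * τ g := by
  simp [ev]

theorem ev_eq_sum (τ : G → ℂ) (y : MonoidAlgebra ℤ G) : ev τ y = ∑ g, (y.coeff g : ℂ) * τ g := by
  simp only [ev, AddMonoidHom.comp_apply]
  simp [Finsupp.sum_fintype]

theorem eq_sum_single (y : MonoidAlgebra ℤ G) : y = ∑ g, single g (y.coeff g) := by
  conv_lhs => rw [← sum_coeff_single y]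
  rw [Finsupp.sum_fintype]
  simp

variable {V : Type*} [AddCommGroup V] [Module ℂ V]

/-- a representation extended to the integral group ring -/
noncomputable def lft (ρ : Representation ℂ G V) : MonoidAlgebra ℤ G →ₐ[ℤ] Module.End ℂ V :=
  MonoidAlgebra.lift ℤ (Module.End ℂ V) G ρ

theorem lft_single (ρ : Representation ℂ G V) (g : G) (c : ℤ) :
    lft ρ (single g c) = c • ρ g := by
  simp [lft]

theorem trace_lft [FiniteDimensional ℂ V] (ρ : Representation ℂ G V) (y : MonoidAlgebra ℤ G) :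
    LinearMap.trace ℂ V (lft ρ y) = ev ρ.character y := by
  conv_lhs => rw [eq_sum_single y]
  conv_rhs => rw [eq_sum_single y]
  rw [map_sum, map_sum, map_sum]
  apply Finset.sum_congr rfl
  intro g _
  rw [lft_single, ev_single, map_zsmul, zsmul_eq_mul]
  rfl

theorem isIntegral_eigenvalue (ρ : Representation ℂ G V) (y : MonoidAlgebra ℤ G) {μ : ℂ}
    (h : (lft ρ y).HasEigenvalue μ) : IsIntegral ℤ μ := by
  obtain ⟨P, hP, hP0⟩ := Algebra.IsIntegral.isIntegral (R := ℤ) y
  obtain ⟨v, hv⟩ := h.exists_hasEigenvector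
  have h1 : Polynomial.aeval (lft ρ y) P = 0 := by
    rw [Polynomial.aeval_algHom_apply]
    have : Polynomial.aeval y P = 0 := hP0
    rw [this, map_zero]
  have h2 := Module.End.aeval_apply_of_hasEigenvector (p := P.map (Int.castRingHom ℂ)) hv
  have h3 : Polynomial.aeval (lft ρ y) (P.map (Int.castRingHom ℂ)) = Polynomial.aeval (lft ρ y) P :=
    Polynomial.aeval_map_algebraMap ℂ (lft ρ y) P
  rw [h3, h1] at h2
  have h4 : (P.map (Int.castRingHom ℂ)).eval μ = 0 := by
    have := h2.symm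
    rw [LinearMap.zero_apply, smul_eq_zero] at this
    exact this.resolve_right hv.2
  refine ⟨P, hP, ?_⟩
  rw [← Polynomial.eval_map]
  exact h4

/-! ### local arithmetic -/

variable {p : ℕ} {M : Ideal Cfsg.AlgInt}

open Classical in
/-- `1` for units of the local ring, `0` for non-units -/
noncomputable def dl (M : Ideal Cfsg.AlgInt) (lam : ℂ) : ℕ := if MemLocalIdeal M lam then 0 else 1

theorem near (hM : IsPModular p M) (K : ℕ) {lam : ℂ} (h1 : IsIntegral ℤ lam)
    (h2 : IsIntegral ℤ ((lam ^ 2 - lam) / (p : ℂ) ^ K)) :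
    MemLocalRing M (((dl M lam : ℂ) - lam) / (p : ℂ) ^ K) := by
  have hP := IsPModular.isPrime hM
  have hl := memLocalRing_of_isIntegral hP h1
  have hb := memLocalRing_of_isIntegral hP h2
  unfold dl
  split_ifs with h
  · -- lam - 1 is a unit
    have hu : ¬ MemLocalIdeal M (lam - 1) := by
      intro h'
      apply not_memLocalIdeal_one hP
      have := liSub hP h h'
      simpa using this
    have hi := lrInv (lrSub hP hl (memLocalRing_one hP)) hu
    have hne : lam - 1 ≠ 0 := by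
      intro h0; apply hu; rw [h0]; exact memLocalIdeal_zero hP
    have : (((0 : ℕ) : ℂ) - lam) / (p : ℂ) ^ K
        = - (((lam ^ 2 - lam) / (p : ℂ) ^ K) * (lam - 1)⁻¹) := by
      field_simp
      ring
    rw [this]
    exact lrNeg (lrMul hP hb hi)
  · have hi := lrInv hl h
    have hne : lam ≠ 0 := by
      intro h0; apply h; rw [h0]; exact memLocalIdeal_zero hP
    have : (((1 : ℕ) : ℂ) - lam) / (p : ℂ) ^ K
        = - (((lam ^ 2 - lam) / (p : ℂ) ^ K) * lam⁻¹) := by
      field_simp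
      push_cast
      ring
    rw [this]
    exact lrNeg (lrMul hP hb hi)

theorem dvd_of_lr (hM : IsPModular p M) (K : ℕ) (z : ℤ)
    (h : MemLocalRing M ((z : ℂ) / (p : ℂ) ^ K)) : ((p : ℤ) ^ K) ∣ z := by
  have hP := IsPModular.isPrime hM
  have hp0 : (p : ℂ) ≠ 0 := by
    have := hM.1.ne_zero
    exact_mod_cast this
  induction K generalizing z with
  | zero => simp
  | succ K ih =>
    have h1 : MemLocalIdeal M (z : ℂ) := by
      have h2 : (z : ℂ) = (p : ℂ) * ((p : ℂ) ^ K * ((z : ℂ) / (p : ℂ) ^ (K + 1))) := by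
        field_simp
        ring
      rw [h2]
      exact liMulRight hP (memLocalIdeal_p hM)
        (lrMul hP (lrPow hP (memLocalRing_natCast hP p) K) h)
    obtain ⟨z', rfl⟩ := (memLocalIdeal_intCast_iff hM z).mp h1
    have h3 : MemLocalRing M ((z' : ℂ) / (p : ℂ) ^ K) := by
      have : (z' : ℂ) / (p : ℂ) ^ K = (((p : ℤ) * z' : ℤ) : ℂ) / (p : ℂ) ^ (K + 1) := by
        push_cast
        field_simp
        ring
      rw [this]; exact h
    rw [pow_succ, mul_comm]
    exact mul_dvd_mul_left _ (ih z' h3)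

/-! ### a power that is idempotent modulo `N` -/

/-- congruence modulo `N` in the integral group ring -/
def Cong (N : ℕ) (x y : MonoidAlgebra ℤ G) : Prop := ∃ b : MonoidAlgebra ℤ G, x - y = (N : ℤ) • b

theorem Cong.refl (N : ℕ) (x : MonoidAlgebra ℤ G) : Cong N x x := ⟨0, by simp⟩

theorem Cong.symm {N : ℕ} {x y : MonoidAlgebra ℤ G} (h : Cong N x y) : Cong N y x := by
  obtain ⟨b, hb⟩ := h
  exact ⟨-b, by rw [smul_neg, ← hb]; abel⟩

theorem Cong.trans {N : ℕ} {x y z : MonoidAlgebra ℤ G} (h : Cong N x y) (h' : Cong N y z) :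
    Cong N x z := by
  obtain ⟨b, hb⟩ := h
  obtain ⟨c, hc⟩ := h'
  exact ⟨b + c, by rw [smul_add, ← hb, ← hc]; abel⟩

theorem Cong.mul_right {N : ℕ} {x y : MonoidAlgebra ℤ G} (h : Cong N x y) (z : MonoidAlgebra ℤ G) :
    Cong N (x * z) (y * z) := by
  obtain ⟨b, hb⟩ := h
  exact ⟨b * z, by rw [← sub_mul, hb, smul_mul_assoc]⟩

theorem cong_of_coeff (N : ℕ) (x y : MonoidAlgebra ℤ G)
    (h : ∀ g, ((x.coeff g : ℤ) : ZMod N) = ((y.coeff g : ℤ) : ZMod N)) : Cong N x y := by
  have h1 : ∀ g, ∃ c : ℤ, x.coeff g - y.coeff g = (N : ℤ) * c := by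
    intro g
    have := (ZMod.intCast_eq_intCast_iff_dvd_sub _ _ _).mp (h g).symm
    exact this
  choose c hc using h1
  refine ⟨∑ g, single g (c g), ?_⟩
  conv_lhs => rw [eq_sum_single x, eq_sum_single y]
  rw [← Finset.sum_sub_distrib, Finset.smul_sum]
  apply Finset.sum_congr rfl
  intro g _
  rw [smul_single, smul_eq_mul, ← hc g]
  ext k
  simp

theorem exists_idem_pow (w : MonoidAlgebra ℤ G) (N : ℕ) [NeZero N] (n0 : ℕ) (hn0 : 0 < n0) :
    ∃ e, 0 < e ∧ n0 ∣ e ∧ Cong N (w ^ (2 * e)) (w ^ e) := by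
  obtain ⟨i, j, hij, hf⟩ := Finite.exists_ne_map_eq_of_infinite
    (fun k : ℕ => fun g : G => (((w ^ k).coeff g : ℤ) : ZMod N))
  wlog hlt : i < j generalizing i j
  · exact this j i hij.symm hf.symm (by omega)
  obtain ⟨d, rfl⟩ : ∃ d, j = i + d := ⟨j - i, by omega⟩
  have hd : 0 < d := by omega
  have h0 : Cong N (w ^ (i + d)) (w ^ i) := cong_of_coeff N _ _ (fun g => (congrFun hf g).symm)
  have h1 : ∀ m, i ≤ m → Cong N (w ^ (m + d)) (w ^ m) := by
    intro m hm
    obtain ⟨k, rfl⟩ : ∃ k, m = i + k := ⟨m - i, by omega⟩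
    have := h0.mul_right (w ^ k)
    rw [← pow_add, ← pow_add] at this
    convert this using 2
    ring
  have h2 : ∀ t m, i ≤ m → Cong N (w ^ (m + t * d)) (w ^ m) := by
    intro t
    induction t with
    | zero => intro m _; simpa using Cong.refl N _
    | succ t ih =>
      intro m hm
      have h3 := h1 (m + t * d) (by omega)
      have h4 : m + (t + 1) * d = m + t * d + d := by ring
      rw [h4]
      exact h3.trans (ih m hm)
  refine ⟨(i + 1) * d * n0, by positivity, Dvd.intro_left _ rfl, ?_⟩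
  have h5 : i ≤ (i + 1) * d * n0 := by
    have : (i + 1) * 1 * 1 ≤ (i + 1) * d * n0 := by gcongr <;> omega
    omega
  have h6 := h2 ((i + 1) * n0) _ h5
  convert h6 using 2
  ring

/-! ### powers in the group ring and rotation of words -/

theorem pow_eq_sum (y : MonoidAlgebra ℤ G) (m : ℕ) :
    y ^ m = ∑ f : Fin m → G, single (List.ofFn f).prod (∏ i, y.coeff (f i)) := by
  induction m with
  | zero => simp [one_def]
  | succ m ih =>
    rw [pow_succ', ih]
    conv_lhs => rw [eq_sum_single y]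
    rw [Finset.sum_mul_sum, ← Fintype.sum_prod_type',
      ← Fintype.sum_equiv (Fin.consEquiv (fun _ : Fin (m + 1) => G)) _ _ (fun _ => rfl)]
    apply Finset.sum_congr rfl
    rintro ⟨g, f⟩ _
    simp [single_mul_single, Fin.consEquiv, List.ofFn_succ, Fin.prod_univ_succ]

theorem ev_pow (τ : G → ℂ) (y : MonoidAlgebra ℤ G) (m : ℕ) :
    ev τ (y ^ m) = ∑ f : Fin m → G, ((∏ i, y.coeff (f i) : ℤ) : ℂ) * τ (List.ofFn f).prod := by
  rw [pow_eq_sum, map_sum]
  apply Finset.sum_congr rfl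
  intro f _
  rw [ev_single]

/-- rotation of words -/
def rot (G : Type*) (n : ℕ) : Equiv.Perm (Fin (n + 1) → G) where
  toFun f := fun i => f (i + 1)
  invFun f := fun i => f (i - 1)
  left_inv f := by ext i; simp
  right_inv f := by ext i; simp

theorem rot_pow_apply (n k : ℕ) (f : Fin (n + 1) → G) (i : Fin (n + 1)) :
    ((rot G n) ^ k) f i = f (i + k • (1 : Fin (n + 1))) := by
  induction k generalizing f with
  | zero => simp
  | succ k ih =>
    rw [pow_succ, Equiv.Perm.mul_apply, ih]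
    change f (i + k • (1 : Fin (n + 1)) + 1) = _
    rw [succ_nsmul, add_assoc]

theorem rot_pow_card (n : ℕ) : (rot G n) ^ (n + 1) = 1 := by
  ext f i
  rw [rot_pow_apply]
  have : (n + 1) • (1 : Fin (n + 1)) = 0 := by
    have := card_nsmul_eq_zero (G := Fin (n + 1)) (x := 1)
    simpa using this
  rw [this]
  simp

theorem prod_rot (n : ℕ) (f : Fin (n + 1) → G) :
    (List.ofFn (rot G n f)).prod = (f 0)⁻¹ * (List.ofFn f).prod * f 0 := by
  rw [List.ofFn_succ' (rot G n f), List.ofFn_succ (f := f)]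
  have h1 : (fun i : Fin n => rot G n f i.castSucc) = fun i : Fin n => f i.succ := by
    ext i
    change f (i.castSucc + 1) = _
    rw [Fin.coeSucc_eq_succ]
  have h2 : rot G n f (Fin.last n) = f 0 := by
    change f (Fin.last n + 1) = _
    rw [Fin.last_add_one]
  rw [h1, h2]
  simp [List.concat_eq_append]

open Cfsg.Agent.Lib.Helper77Glaub in
theorem ev_pow_prime_pow (p a : ℕ) [Fact p.Prime] (τ : G → ℤ)
    (hτ : ∀ g h : G, τ (h * g * h⁻¹) = τ g) (y : MonoidAlgebra ℤ G) :
    (p : ℤ) ∣ (∑ g, (y ^ (p ^ a)).coeff g * τ g) - ∑ g, y.coeff g * τ (g ^ (p ^ a)) := by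
  classical
  have hp := (Fact.out : p.Prime)
  obtain ⟨n, hn⟩ : ∃ n, p ^ a = n + 1 := ⟨p ^ a - 1, by have := pow_pos hp.pos a; omega⟩
  let W : (Fin (n + 1) → G) → ℂ :=
    fun f => ((∏ i, y.coeff (f i) : ℤ) : ℂ) * ((τ (List.ofFn f).prod : ℤ) : ℂ)
  have hW : ∀ f, W (rot G n f) = W f := by
    intro f
    have h1 : ∏ i, y.coeff (rot G n f i) = ∏ i, y.coeff (f i) :=
      Equiv.prod_comp (Equiv.addRight (1 : Fin (n + 1))) (fun i => y.coeff (f i))
    have h2 : τ (List.ofFn (rot G n f)).prod = τ (List.ofFn f).prod := by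
      rw [prod_rot]
      have := hτ (List.ofFn f).prod (f 0)⁻¹
      rwa [inv_inv] at this
    simp only [W, h1, h2]
  let St : Subgroup (Equiv.Perm (Fin (n + 1) → G)) :=
    { carrier := {s | ∀ f, W (s f) = W f}
      one_mem' := fun f => rfl
      mul_mem' := fun {s t} hs ht f => by
        rw [Equiv.Perm.mul_apply, hs, ht]
      inv_mem' := fun {s} hs f => by
        have := hs (s⁻¹ f)
        rw [← Equiv.Perm.mul_apply, mul_inv_cancel, Equiv.Perm.one_apply] at this
        exact this.symm }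
  have hle : Subgroup.zpowers (rot G n) ≤ St := by
    rw [Subgroup.zpowers_le]
    exact hW
  have hS : IsPGroup p (Subgroup.zpowers (rot G n)) := by
    rintro ⟨g, hg⟩
    obtain ⟨z, rfl⟩ := Subgroup.mem_zpowers_iff.mp hg
    refine ⟨a, Subtype.ext ?_⟩
    change ((rot G n) ^ z) ^ (p ^ a) = 1
    rw [← zpow_natCast, ← zpow_mul, mul_comm, zpow_mul, zpow_natCast, hn, rot_pow_card, one_zpow]
  have hfix : ∀ f : Fin (n + 1) → G, (∀ i, f i = f 0) ↔
      ∀ s : Subgroup.zpowers (rot G n), s • f = f := by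
    intro f
    constructor
    · intro hf
      have h1 : rot G n ∈ MulAction.stabilizer (Equiv.Perm (Fin (n + 1) → G)) f := by
        rw [MulAction.mem_stabilizer_iff]
        ext i
        change f (i + 1) = f i
        rw [hf (i + 1), hf i]
      have h2 : Subgroup.zpowers (rot G n) ≤ MulAction.stabilizer _ f := by
        rw [Subgroup.zpowers_le]; exact h1
      intro s
      exact MulAction.mem_stabilizer_iff.mp (h2 s.2)
    · intro hf
      have h1 : rot G n f = f := hf ⟨rot G n, Subgroup.mem_zpowers _⟩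
      intro i
      induction i using Fin.induction with
      | zero => rfl
      | succ i ih =>
        rw [← ih, ← Fin.coeSucc_eq_succ]
        exact congrFun h1 i.castSucc
  have key := sum_fixed p hS W (fun s f => hle s.2 f)
    (fun f => (isIntegral_algebraMap (R := ℤ) (A := ℂ) (x := _)).mul
      (isIntegral_algebraMap (R := ℤ) (A := ℂ) (x := _))) (fun f => ∀ i, f i = f 0) hfix
  have hA : ∑ f, W f = ((∑ g, (y ^ (p ^ a)).coeff g * τ g : ℤ) : ℂ) := by
    have h1 := ev_pow (fun g => ((τ g : ℤ) : ℂ)) y (n + 1)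
    rw [ev_eq_sum] at h1
    rw [hn]
    push_cast
    rw [h1]
  have hB : ∑ f with (∀ i, f i = f 0), W f
      = ((∑ g, (y.coeff g) ^ (n + 1) * τ (g ^ (n + 1)) : ℤ) : ℂ) := by
    push_cast
    apply Finset.sum_nbij (fun f => f 0)
    · intro f _; exact Finset.mem_univ _
    · intro f hf f' hf' h
      have hf := (Finset.mem_filter.mp hf).2
      have hf' := (Finset.mem_filter.mp hf').2
      ext i
      rw [hf i, hf' i]; exact h
    · intro g _
      exact ⟨fun _ => g, by simp, rfl⟩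
    · intro f hf
      have hf := (Finset.mem_filter.mp hf).2
      have h1 : f = fun _ => f 0 := funext hf
      simp only [W]
      conv_lhs => rw [h1]
      simp [List.ofFn_const, pow_succ']
  rw [hA, hB, ← Int.cast_sub] at key
  have h1 := PDvd.int_dvd hp.ne_zero key
  have h2 : (p : ℤ) ∣ (∑ g, (y.coeff g) ^ (n + 1) * τ (g ^ (n + 1)))
      - ∑ g, y.coeff g * τ (g ^ (n + 1)) := by
    rw [← Finset.sum_sub_distrib]
    apply Finset.dvd_sum
    intro g _
    rw [← sub_mul]
    apply Dvd.dvd.mul_right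
    rw [← hn]
    apply (ZMod.intCast_eq_intCast_iff_dvd_sub _ _ _).mp
    push_cast
    rw [ZMod.pow_card_pow]
  have h3 := dvd_add h1 h2
  rw [sub_add_sub_cancel, ← hn] at h3
  exact h3

/-! ### counting the eigenvalues that are units at `M` -/

theorem rep_phi [FiniteDimensional ℂ V] (hM : IsPModular p M) (ρ : Representation ℂ G V)
    (w : MonoidAlgebra ℤ G) (K e : ℕ) (he : 0 < e) (hce : Cong (p ^ K) (w ^ (2 * e)) (w ^ e)) :
    ∃ φ : ℕ, φ ≤ finrank ℂ (LinearMap.range (lft ρ w)) ∧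
      MemLocalRing M (((φ : ℂ) - ev ρ.character (w ^ e)) / (p : ℂ) ^ K) := by
  classical
  have hP := IsPModular.isPrime hM
  have hp0 : (p : ℂ) ≠ 0 := by
    have := hM.1.ne_zero
    exact_mod_cast this
  obtain ⟨s, m, hs, htr, hrk⟩ := Cfsg.Agent.Lib.Helper77Eig.exists_spectrum (lft ρ w)
  obtain ⟨b, hb⟩ := hce
  refine ⟨∑ μ ∈ s, m μ * dl M (μ ^ e), ?_, ?_⟩
  · refine le_trans ?_ hrk
    rw [Finset.sum_filter]
    apply Finset.sum_le_sum
    intro μ _
    split_ifs with h
    · unfold dl; split_ifs <;> simp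
    · push Not at h
      subst h
      have : dl M ((0 : ℂ) ^ e) = 0 := by
        unfold dl
        rw [zero_pow he.ne', if_pos (memLocalIdeal_zero hP)]
      rw [this]; simp
  · have h1 : ev ρ.character (w ^ e) = ∑ μ ∈ s, (m μ : ℂ) * μ ^ e := by
      rw [← trace_lft, map_pow, htr]
    have h2 : (((∑ μ ∈ s, m μ * dl M (μ ^ e) : ℕ) : ℂ) - ev ρ.character (w ^ e)) / (p : ℂ) ^ K
        = ∑ μ ∈ s, (m μ : ℂ) * (((dl M (μ ^ e) : ℂ) - μ ^ e) / (p : ℂ) ^ K) := by
      rw [h1]
      push_cast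
      rw [← Finset.sum_sub_distrib, Finset.sum_div]
      apply Finset.sum_congr rfl
      intro μ _
      ring
    rw [h2]
    apply lrSum hP
    intro μ hμ
    apply lrMul hP (memLocalRing_natCast hP _)
    have hi : IsIntegral ℤ μ := isIntegral_eigenvalue ρ w (hs μ hμ)
    apply near hM K (hi.pow e)
    obtain ⟨v, hv⟩ := (hs μ hμ).exists_hasEigenvector
    apply isIntegral_eigenvalue ρ b (μ := ((μ ^ e) ^ 2 - μ ^ e) / (p : ℂ) ^ K)
    apply Module.End.hasEigenvalue_of_hasEigenvector (x := v)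
    refine ⟨Module.End.mem_eigenspace_iff.mpr ?_, hv.2⟩
    have h3 : lft ρ (w ^ (2 * e) - w ^ e) v = (μ ^ (2 * e) - μ ^ e) • v := by
      rw [map_sub, map_pow, map_pow, LinearMap.sub_apply, hv.pow_apply, hv.pow_apply, sub_smul]
    rw [hb, map_zsmul, LinearMap.smul_apply] at h3
    have h4 : ((p ^ K : ℕ) : ℤ) • (lft ρ b) v = ((p : ℂ) ^ K) • (lft ρ b) v := by
      rw [← Int.cast_smul_eq_zsmul ℂ]
      push_cast
      rfl
    rw [h4] at h3
    have h5 : (lft ρ b) v = ((p : ℂ) ^ K)⁻¹ • ((p : ℂ) ^ K) • (lft ρ b) v := by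
      rw [smul_smul, inv_mul_cancel₀ (pow_ne_zero K hp0), one_smul]
    rw [h5, h3, smul_smul]
    congr 1
    rw [← pow_mul, mul_comm e 2]
    field_simp

theorem exists_phi (hM : IsPModular p M) (w : MonoidAlgebra ℤ G) (K e : ℕ) (he : 0 < e)
    (hce : Cong (p ^ K) (w ^ (2 * e)) (w ^ e)) :
    ∃ Φ : IrrCharacter G → ℕ,
      (∀ χ : IrrCharacter G, ∃ (n : ℕ) (ρ : Representation ℂ G (Fin n → ℂ)),
        ρ.character = χ ∧ Φ χ ≤ finrank ℂ (LinearMap.range (lft ρ w))) ∧
      (∀ (t : Finset (IrrCharacter G)) (a : IrrCharacter G → ℤ) (D : ℤ),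
        ∑ χ ∈ t, (a χ : ℂ) * ev χ (w ^ e) = D →
          ((p : ℤ) ^ K) ∣ ∑ χ ∈ t, a χ * Φ χ - D) := by
  have hP := IsPModular.isPrime hM
  have h1 : ∀ χ : IrrCharacter G, ∃ (φ : ℕ), (∃ (n : ℕ) (ρ : Representation ℂ G (Fin n → ℂ)),
        ρ.character = χ ∧ φ ≤ finrank ℂ (LinearMap.range (lft ρ w))) ∧
      MemLocalRing M (((φ : ℂ) - ev χ (w ^ e)) / (p : ℂ) ^ K) := by
    intro χ
    obtain ⟨n, ρ, -, hρ⟩ := χ.2
    obtain ⟨φ, h2, h3⟩ := rep_phi hM ρ w K e he hce
    exact ⟨φ, ⟨n, ρ, hρ, h2⟩, hρ ▸ h3⟩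
  choose Φ hΦ1 hΦ2 using h1
  refine ⟨Φ, hΦ1, ?_⟩
  intro t a D hD
  apply dvd_of_lr hM
  have h2 : (((∑ χ ∈ t, a χ * Φ χ - D : ℤ) : ℂ)) / (p : ℂ) ^ K
      = ∑ χ ∈ t, (a χ : ℂ) * (((Φ χ : ℂ) - ev χ (w ^ e)) / (p : ℂ) ^ K) := by
    push_cast
    rw [← hD, ← Finset.sum_sub_distrib, Finset.sum_div]
    apply Finset.sum_congr rfl
    intro χ _
    ring
  rw [h2]
  apply lrSum hP
  intro χ _
  exact lrMul hP (memLocalRing_intCast hP _) (hΦ2 χ)

/-! ### subgroup sums -/

/-- the sum of the elements of a subgroup -/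
noncomputable def hat (H : Subgroup G) [Fintype H] : MonoidAlgebra ℤ G := ∑ x : H, single (x : G) 1

theorem single_mul_hat (H : Subgroup G) [Fintype H] (h : H) :
    single (h : G) (1 : ℤ) * hat H = hat H := by
  unfold hat
  rw [Finset.mul_sum]
  conv_rhs => rw [← Equiv.sum_comp (Equiv.mulLeft h)]
  apply Finset.sum_congr rfl
  intro x _
  simp [single_mul_single]

theorem hat_mul_hat (H : Subgroup G) [Fintype H] :
    hat H * hat H = (Fintype.card H : ℤ) • hat H := by
  have : hat H * hat H = ∑ x : H, single (x : G) (1 : ℤ) * hat H := by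
    conv_lhs => rw [hat, Finset.sum_mul]
    rfl
  rw [this]
  simp only [single_mul_hat]
  simp

theorem ev_hat (τ : G → ℂ) (H : Subgroup G) [Fintype H] : ev τ (hat H) = ∑ x : H, τ x := by
  unfold hat
  rw [map_sum]
  simp [ev_single]

theorem finrank_range_hat [FiniteDimensional ℂ V] (ρ : Representation ℂ G V) (H : Subgroup G)
    [Fintype H] :
    (finrank ℂ (LinearMap.range (lft ρ (hat H))) : ℂ)
      = (Fintype.card H : ℂ)⁻¹ * ∑ x : H, ρ.character x := by
  have hc : (Fintype.card H : ℂ) ≠ 0 := by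
    have : Fintype.card H ≠ 0 := Fintype.card_ne_zero
    exact_mod_cast this
  let E := lft ρ (hat H)
  let P : Module.End ℂ V := (Fintype.card H : ℂ)⁻¹ • E
  have hE : E * E = (Fintype.card H : ℂ) • E := by
    change lft ρ (hat H) * lft ρ (hat H) = _
    rw [← map_mul, hat_mul_hat, map_zsmul, ← Int.cast_smul_eq_zsmul ℂ]
    simp
    rfl
  have hP : IsIdempotentElem P := by
    change P * P = P
    simp only [P]
    rw [smul_mul_smul_comm, hE, smul_smul]
    congr 1
    field_simp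
  have h1 := (LinearMap.IsIdempotentElem.isProj_range P hP).trace
  have h2 : LinearMap.range P = LinearMap.range E := by
    simp only [P]
    exact LinearMap.range_smul E _ (inv_ne_zero hc)
  rw [h2] at h1
  change (finrank ℂ (LinearMap.range E) : ℂ) = _
  rw [← h1]
  simp only [P]
  rw [map_smul, smul_eq_mul]
  congr 1
  change LinearMap.trace ℂ V (lft ρ (hat H)) = _
  rw [trace_lft, ev_hat]

theorem finrank_range_mul_le [FiniteDimensional ℂ V] (ρ : Representation ℂ G V)
    (x y : MonoidAlgebra ℤ G) :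
    finrank ℂ (LinearMap.range (lft ρ (x * y))) ≤ finrank ℂ (LinearMap.range (lft ρ x)) ∧
    finrank ℂ (LinearMap.range (lft ρ (x * y))) ≤ finrank ℂ (LinearMap.range (lft ρ y)) := by
  rw [map_mul]
  constructor
  · apply Submodule.finrank_mono
    exact LinearMap.range_comp_le_range _ _
  · have : LinearMap.range (lft ρ x * lft ρ y)
        = Submodule.map (lft ρ x) (LinearMap.range (lft ρ y)) := LinearMap.range_comp _ _
    rw [this]
    exact Submodule.finrank_map_le _ _

/-- the augmentation -/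
noncomputable def aug : MonoidAlgebra ℤ G →ₐ[ℤ] ℤ := MonoidAlgebra.lift ℤ ℤ G 1

theorem aug_eq_sum (y : MonoidAlgebra ℤ G) : aug y = ∑ g, y.coeff g := by
  conv_lhs => rw [eq_sum_single y]
  rw [map_sum]
  simp [aug]

theorem aug_hat (H : Subgroup G) [Fintype H] : aug (hat H) = Fintype.card H := by
  unfold hat
  rw [map_sum]
  simp [aug]

end Cfsg.Agent.Lib.Helper77PIM
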