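import Mathlib
import Cfsg.Prelude.Def_Blocks
import Cfsg.Prelude.Def_BlockRank
import Cfsg.Agent.Lib.Helper82Major2
import Cfsg.Agent.Lib.Helper78Maj
import Cfsg.Agent.Lib.Helper21Quot2

/-!
Vocabulary of the Brauer-Feit project (`k(B) ≤ p^d` for `d ≤ 2`, `k(B) ≤ p^(2d-2)` for `d ≥ 3`).
-/

set_option autoImplicit false
set_option linter.unusedSectionVars false

namespace Cfsg.Agent.Lib.Helper78BFDefs

open Cfsg
open Cfsg.Agent.Lib.Helper81BB Cfsg.Agent.Lib.Helper81Rank
  Cfsg.Agent.Lib.Helper84Subsec Cfsg.Agent.Lib.Helper84Subsec2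
open scoped ComplexConjugate

section gen

variable {X : Type*} [Group X] [Fintype X]

open Classical in
/-- the generalized character of `b` with integer coefficients `m` (for a subgroup this is
`Helper82Major.FF`, by `rfl`). -/
noncomputable def GC (b : Set (IrrCharacter X)) (m : IrrCharacter X → ℤ) : X → ℂ :=
  ∑ ξ : IrrCharacter X, (if ξ ∈ b then (m ξ : ℂ) else 0) • (ξ : X → ℂ)

/-- every generalized character `Θ` of `b` vanishes on the `p`-regular elements or satisfies
`c ≤ [Θ, Θ]°`. -/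
def LB (p : ℕ) (b : Set (IrrCharacter X)) (c : ℝ) : Prop :=
  ∀ m : IrrCharacter X → ℤ, (∀ y : X, ¬ p ∣ orderOf y → GC b m y = 0) ∨
    c ≤ (regInner p (GC b m) (GC b m)).re

end gen

section root

variable {G : Type*} [Group G] [Fintype G] {H : Subgroup G} [Fintype H]

open Classical in
/-- the generalized decomposition number of `χ` at `(z^t, β)`, for a block `β` of rank one. -/
noncomputable def dn (β : Set (IrrCharacter H)) (z : H) (t : ℕ) (χ : IrrCharacter G) : ℂ :=
  ∑ ζ : IrrCharacter H, if ζ ∈ β then (nA χ ζ : ℂ) * lam (ζ : H → ℂ) z ^ t else 0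

/-- `B` has defect one, `⟨z⟩` is a defect group, `H = C_G(z)` and `β` is a root of `B`. -/
structure Root (p : ℕ) (M : Ideal AlgInt) (B : Set (IrrCharacter G)) (H : Subgroup G)
    (β : Set (IrrCharacter H)) (z : H) : Prop where
  ord : orderOf (z : G) = p
  cen : H = Subgroup.centralizer ({(z : G)} : Set G)
  ind : IsInducedBlock M H β B
  dB : blockDefect p B = 1
  dβ : blockDefect p β = 1
  dg : IsDefectGroup p M B (Subgroup.zpowers (z : G))
  dgβ : IsDefectGroup p M β ((Subgroup.zpowers (z : G)).subgroupOf H)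

end root

section abstract

variable {κ I : Type*} [Fintype κ] [Fintype I]

/-- abstract generalized decomposition numbers. -/
noncomputable def dA (n : κ → I → ℤ) (w : I → ℂ) (t : ℕ) (k : κ) : ℂ :=
  ∑ i, (n k i : ℂ) * w i ^ t

/-- their inner products. -/
noncomputable def ipA (n : κ → I → ℤ) (w : I → ℂ) (t t' : ℕ) : ℂ :=
  ∑ k, dA n w t k * conj (dA n w t' k)

open Classical in
/-- the exponents fused with `1`. -/
noncomputable def EA (p : ℕ) (n : κ → I → ℤ) (w : I → ℂ) : Finset ℕ :=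
  (Finset.Ico 1 p).filter (fun s => ipA n w 1 s ≠ 0)

/-- the abstract data of a block of defect one. -/
structure AD (p : ℕ) (n : κ → I → ℤ) (w : I → ℂ) : Prop where
  hw : ∀ i, w i ^ p = 1
  inj : Function.Injective w
  card : Fintype.card I = p
  orth : ∀ t t' : ℕ, ¬ p ∣ t → ¬ p ∣ t' → ipA n w t t' = 0 ∨ ipA n w t t' = p
  diag : ∀ t : ℕ, ¬ p ∣ t → ipA n w t t = p
  nz : ∀ k, ∃ t : ℕ, ¬ p ∣ t ∧ dA n w t k ≠ 0

end abstract

end Cfsg.Agent.Lib.Helper78BFDefs
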