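import Mathlib
import Cfsg.Agent.Lib.Helper78BFDefs
import Cfsg.Agent.Lib.Helper84Contrib

set_option autoImplicit false
set_option linter.unusedSectionVars false
set_option linter.unusedVariables false

namespace Cfsg.Agent.Lib.Helper78BFDaeq

open Cfsg
open Cfsg.Agent.Lib.Helper81Local Cfsg.Agent.Lib.Helper81Base Cfsg.Agent.Lib.Helper81BB
  Cfsg.Agent.Lib.Helper81Block Cfsg.Agent.Lib.Helper81Orth Cfsg.Agent.Lib.Helper81Orth2
  Cfsg.Agent.Lib.Helper81Part Cfsg.Agent.Lib.Helper81Defect Cfsg.Agent.Lib.Helper81Reg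
  Cfsg.Agent.Lib.Helper81Subsec Cfsg.Agent.Lib.Helper81Rank
  Cfsg.Agent.Lib.Helper84Subsec Cfsg.Agent.Lib.Helper84Subsec2 Cfsg.Agent.Lib.Helper84Contrib
  Cfsg.Agent.Lib.Helper82Quot Cfsg.Agent.Lib.Helper21Quot2
  Cfsg.Agent.Lib.Helper78BFDefs
open scoped ComplexConjugate

variable {p : ℕ} [Fact p.Prime]
variable {κ I : Type*} [Fintype κ] [Fintype I] {n : κ → I → ℤ} {w : I → ℂ}

theorem ipA_conj (t t' : ℕ) : conj (ipA n w t t') = ipA n w t' t := by
  unfold ipA
  rw [map_sum]
  refine Finset.sum_congr rfl fun k _ => ?_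
  rw [map_mul, Complex.conj_conj, mul_comm]

theorem dA_eq_iff (h : AD p n w) {t t' : ℕ} (ht : ¬ p ∣ t) (ht' : ¬ p ∣ t') :
    dA n w t' = dA n w t ↔ ipA n w t t' ≠ 0 := by
  have hp := (Fact.out : p.Prime)
  have hp0 : (p : ℂ) ≠ 0 := Nat.cast_ne_zero.mpr hp.ne_zero
  constructor
  · intro he
    have : ipA n w t t' = ipA n w t t := by
      unfold ipA
      rw [he]
    rw [this, h.diag t ht]
    exact hp0
  · intro hne
    have h1 : ipA n w t t' = p := (h.orth t t' ht ht').resolve_left hne
    have h2 : ipA n w t' t = p := by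
      rw [← ipA_conj, h1, Complex.conj_natCast]
    have h3 : ∑ k, (dA n w t' k - dA n w t k) * conj (dA n w t' k - dA n w t k) = 0 := by
      have : ∑ k, (dA n w t' k - dA n w t k) * conj (dA n w t' k - dA n w t k)
          = ipA n w t' t' - ipA n w t' t - ipA n w t t' + ipA n w t t := by
        unfold ipA
        rw [← Finset.sum_sub_distrib, ← Finset.sum_sub_distrib, ← Finset.sum_add_distrib]
        refine Finset.sum_congr rfl fun k _ => ?_
        rw [map_sub]
        ring
      rw [this, h1, h2, h.diag t ht, h.diag t' ht']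
      ring
    have h4 : ∑ k, Complex.normSq (dA n w t' k - dA n w t k) = 0 := by
      have : ((∑ k, Complex.normSq (dA n w t' k - dA n w t k) : ℝ) : ℂ) = 0 := by
        rw [← h3]
        push_cast
        exact Finset.sum_congr rfl fun k _ => (Complex.mul_conj _).symm
      exact_mod_cast this
    funext k
    have h5 := (Finset.sum_eq_zero_iff_of_nonneg (fun k _ => Complex.normSq_nonneg _)).mp h4 k
      (Finset.mem_univ k)
    exact sub_eq_zero.mp (Complex.normSq_eq_zero.mp h5)

end Cfsg.Agent.Lib.Helper78BFDaeq
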