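import Mathlib
import Cfsg.Agent.Lib.Helper78BFDefs
import Cfsg.Agent.Lib.Helper84Contrib

set_option autoImplicit false
set_option linter.unusedSectionVars false
set_option linter.unusedVariables false

namespace Cfsg.Agent.Lib.Helper78BFGalzero

open Cfsg
open Cfsg.Agent.Lib.Helper81Local Cfsg.Agent.Lib.Helper81Base Cfsg.Agent.Lib.Helper81BB
  Cfsg.Agent.Lib.Helper81Block Cfsg.Agent.Lib.Helper81Orth Cfsg.Agent.Lib.Helper81Orth2
  Cfsg.Agent.Lib.Helper81Part Cfsg.Agent.Lib.Helper81Defect Cfsg.Agent.Lib.Helper81Reg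
  Cfsg.Agent.Lib.Helper81Subsec Cfsg.Agent.Lib.Helper81Rank
  Cfsg.Agent.Lib.Helper84Subsec Cfsg.Agent.Lib.Helper84Subsec2 Cfsg.Agent.Lib.Helper84Contrib
  Cfsg.Agent.Lib.Helper82Quot Cfsg.Agent.Lib.Helper21Quot2
  Cfsg.Agent.Lib.Helper78BFDefs
open scoped ComplexConjugate

variable {p : ℕ} [Fact p.Prime]

theorem gal_zero {ι : Type*} [Fintype ι] (c : ι → ℤ) (η : ι → ℂ) (hη : ∀ i, η i ^ p = 1)
    (h : ∑ i, (c i : ℂ) * η i = 0) (s : ℕ) (hs : ¬ p ∣ s) : ∑ i, (c i : ℂ) * η i ^ s = 0 := by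
  have hp := (Fact.out : p.Prime)
  obtain ⟨ω, hω⟩ : ∃ ω : ℂ, IsPrimitiveRoot ω p := ⟨_, Complex.isPrimitiveRoot_exp p hp.ne_zero⟩
  have : NeZero p := ⟨hp.ne_zero⟩
  choose r hr using fun i => hω.eq_pow_of_pow_eq_one (hη i)
  let P : Polynomial ℤ := ∑ i, Polynomial.C (c i) * Polynomial.X ^ (r i)
  have hev : ∀ z : ℂ, Polynomial.aeval z P = ∑ i, (c i : ℂ) * z ^ (r i) := by
    intro z
    simp [P, map_sum]
  have h1 : Polynomial.aeval ω P = 0 := by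
    rw [hev, ← h]
    exact Finset.sum_congr rfl fun i _ => by rw [(hr i).2]
  have h2 : Polynomial.cyclotomic p ℤ ∣ P := by
    rw [Polynomial.cyclotomic_eq_minpoly hω hp.pos]
    exact minpoly.isIntegrallyClosed_dvd (hω.isIntegral hp.pos) h1
  have hω' : IsPrimitiveRoot (ω ^ s) p :=
    hω.pow_of_coprime s ((Nat.Prime.coprime_iff_not_dvd hp).mpr hs).symm
  have h3 : Polynomial.aeval (ω ^ s) (Polynomial.cyclotomic p ℤ) = 0 := by
    rw [Polynomial.cyclotomic_eq_minpoly hω' hp.pos]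
    exact minpoly.aeval _ _
  obtain ⟨Q, hQ⟩ := h2
  have h4 : Polynomial.aeval (ω ^ s) P = 0 := by rw [hQ, map_mul, h3, zero_mul]
  rw [hev] at h4
  rw [← h4]
  refine Finset.sum_congr rfl fun i _ => ?_
  rw [← (hr i).2, ← pow_mul, ← pow_mul, mul_comm (r i) s]

end Cfsg.Agent.Lib.Helper78BFGalzero
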