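import Mathlib
import Cfsg.Agent.Lib.Helper78BFDefs
import Cfsg.Agent.Lib.Helper84Contrib
import Cfsg.Agent.Lib.Helper78BFGalzero

set_option autoImplicit false
set_option linter.unusedSectionVars false
set_option linter.unusedVariables false

namespace Cfsg.Agent.Lib.Helper78BFIpgal

open Cfsg
open Cfsg.Agent.Lib.Helper81Local Cfsg.Agent.Lib.Helper81Base Cfsg.Agent.Lib.Helper81BB
  Cfsg.Agent.Lib.Helper81Block Cfsg.Agent.Lib.Helper81Orth Cfsg.Agent.Lib.Helper81Orth2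
  Cfsg.Agent.Lib.Helper81Part Cfsg.Agent.Lib.Helper81Defect Cfsg.Agent.Lib.Helper81Reg
  Cfsg.Agent.Lib.Helper81Subsec Cfsg.Agent.Lib.Helper81Rank
  Cfsg.Agent.Lib.Helper84Subsec Cfsg.Agent.Lib.Helper84Subsec2 Cfsg.Agent.Lib.Helper84Contrib
  Cfsg.Agent.Lib.Helper82Quot Cfsg.Agent.Lib.Helper21Quot2
  Cfsg.Agent.Lib.Helper78BFDefs
open scoped ComplexConjugate
open Cfsg.Agent.Lib.Helper78BFGalzero

variable {p : ℕ} [Fact p.Prime]
variable {κ I : Type*} [Fintype κ] [Fintype I] {n : κ → I → ℤ} {w : I → ℂ}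

theorem dA_congr (hw : ∀ i, w i ^ p = 1) {t t' : ℕ} (h : t ≡ t' [MOD p]) :
    dA n w t = dA n w t' := by
  funext k
  unfold dA
  refine Finset.sum_congr rfl fun i _ => ?_
  rw [pow_eq_pow_mod t (hw i), pow_eq_pow_mod t' (hw i), h]

theorem ipA_expand (t t' : ℕ) : ipA n w t t' =
    ∑ x : κ × I × I, ((n x.1 x.2.1 * n x.1 x.2.2 : ℤ) : ℂ) * (w x.2.1 ^ t * conj (w x.2.2) ^ t') := by
  unfold ipA dA
  rw [Fintype.sum_prod_type]
  refine Finset.sum_congr rfl fun k _ => ?_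
  rw [map_sum, Finset.sum_mul_sum, Fintype.sum_prod_type]
  refine Finset.sum_congr rfl fun i _ => Finset.sum_congr rfl fun i' _ => ?_
  simp only [map_mul, map_pow, map_intCast, Int.cast_mul]
  ring

theorem ipA_gal (hw : ∀ i, w i ^ p = 1) (t t' s : ℕ) (hs : ¬ p ∣ s)
    (h : ipA n w t t' = 0) : ipA n w (s * t) (s * t') = 0 := by
  rw [ipA_expand] at h ⊢
  have := gal_zero (p := p) _ _ (fun x : κ × I × I => by
    rw [mul_pow, ← pow_mul, ← pow_mul, mul_comm t, mul_comm t', pow_mul, pow_mul, hw, ← map_pow, hw]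
    simp) h s hs
  rw [← this]
  refine Finset.sum_congr rfl fun x _ => ?_
  rw [mul_pow, ← pow_mul, ← pow_mul, mul_comm t, mul_comm t']

theorem ipA_congr (hw : ∀ i, w i ^ p = 1) {t₁ t₂ t₁' t₂' : ℕ} (h : t₁ ≡ t₂ [MOD p])
    (h' : t₁' ≡ t₂' [MOD p]) : ipA n w t₁ t₁' = ipA n w t₂ t₂' := by
  unfold ipA
  rw [dA_congr (n := n) hw h, dA_congr (n := n) hw h']

end Cfsg.Agent.Lib.Helper78BFIpgal
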