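import Mathlib
import Cfsg.Agent.Lib.Helper78BFDefs
import Cfsg.Agent.Lib.Helper84Contrib
import Cfsg.Agent.Lib.Helper78BFIpgal

set_option autoImplicit false
set_option linter.unusedSectionVars false
set_option linter.unusedVariables false

namespace Cfsg.Agent.Lib.Helper78BFReliff

open Cfsg
open Cfsg.Agent.Lib.Helper81Local Cfsg.Agent.Lib.Helper81Base Cfsg.Agent.Lib.Helper81BB
  Cfsg.Agent.Lib.Helper81Block Cfsg.Agent.Lib.Helper81Orth Cfsg.Agent.Lib.Helper81Orth2
  Cfsg.Agent.Lib.Helper81Part Cfsg.Agent.Lib.Helper81Defect Cfsg.Agent.Lib.Helper81Reg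
  Cfsg.Agent.Lib.Helper81Subsec Cfsg.Agent.Lib.Helper81Rank
  Cfsg.Agent.Lib.Helper84Subsec Cfsg.Agent.Lib.Helper84Subsec2 Cfsg.Agent.Lib.Helper84Contrib
  Cfsg.Agent.Lib.Helper82Quot Cfsg.Agent.Lib.Helper21Quot2
  Cfsg.Agent.Lib.Helper78BFDefs
open scoped ComplexConjugate
open Cfsg.Agent.Lib.Helper78BFIpgal

variable {p : ℕ} [Fact p.Prime]
variable {κ I : Type*} [Fintype κ] [Fintype I] {n : κ → I → ℤ} {w : I → ℂ}

theorem rel_iff (h : AD p n w) {t t' : ℕ} (ht : t ∈ Finset.Ico 1 p) (ht' : t' ∈ Finset.Ico 1 p) :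
    ipA n w t t' ≠ 0 ↔ ∃ s ∈ EA p n w, t' ≡ t * s [MOD p] := by
  have hp := (Fact.out : p.Prime)
  rw [Finset.mem_Ico] at ht ht'
  have hpt : ¬ p ∣ t := fun hd => by have := Nat.le_of_dvd (by omega) hd; omega
  have hpt' : ¬ p ∣ t' := fun hd => by have := Nat.le_of_dvd (by omega) hd; omega
  have hcop : Nat.Coprime t p := ((Nat.Prime.coprime_iff_not_dvd hp).mpr hpt).symm
  obtain ⟨r, -, hr⟩ := Nat.exists_mul_mod_eq_one_of_coprime hcop hp.one_lt
  have hr1 : t * r ≡ 1 [MOD p] := by
    rw [Nat.ModEq, hr, Nat.mod_eq_of_lt hp.one_lt]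
  have hpr : ¬ p ∣ r := by
    intro hd
    have : t * r % p = 0 := Nat.mod_eq_zero_of_dvd (Dvd.dvd.mul_left hd t)
    omega
  constructor
  · intro hne
    refine ⟨(r * t') % p, ?_, ?_⟩
    · unfold EA
      rw [Finset.mem_filter, Finset.mem_Ico]
      refine ⟨⟨?_, Nat.mod_lt _ hp.pos⟩, ?_⟩
      · rw [Nat.one_le_iff_ne_zero]
        intro h0
        rcases (Nat.Prime.dvd_mul hp).mp (Nat.dvd_of_mod_eq_zero h0) with h1 | h1
        · exact hpr h1
        · exact hpt' h1
      · intro h0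
        apply hne
        have h1 : ipA n w (r * t) (r * t') = 0 := by
          rw [← h0]
          exact ipA_congr h.hw (by rw [mul_comm]; exact hr1) (Nat.mod_modEq _ _).symm
        have h2 := ipA_gal h.hw _ _ t hpt h1
        rw [← h2]
        refine ipA_congr h.hw ?_ ?_
        · have := hr1.mul_right t
          rw [one_mul] at this
          rw [← mul_assoc]
          exact this.symm
        · have := hr1.mul_right t'
          rw [one_mul] at this
          rw [← mul_assoc]
          exact this.symm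
    · have h1 : t * (r * t' % p) ≡ t * (r * t') [MOD p] := (Nat.mod_modEq _ _).mul_left t
      have h2 := hr1.mul_right t'
      rw [one_mul, mul_assoc] at h2
      exact (h1.trans h2).symm
  · rintro ⟨s, hs, hst⟩ h0
    unfold EA at hs
    rw [Finset.mem_filter] at hs
    apply hs.2
    have h1 : ipA n w t (t * s) = 0 := by
      rw [← h0]
      exact ipA_congr h.hw rfl hst.symm
    have h2 := ipA_gal h.hw _ _ r hpr h1
    rw [← h2]
    refine ipA_congr h.hw ?_ ?_
    · rw [mul_comm]; exact hr1.symm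
    · have := hr1.mul_right s
      rw [one_mul] at this
      rw [← mul_assoc, mul_comm r t]
      exact this.symm

end Cfsg.Agent.Lib.Helper78BFReliff
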