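import Mathlib
import Cfsg.Agent.Lib.Helper78BFDefs
import Cfsg.Agent.Lib.Helper84Contrib
import Cfsg.Agent.Lib.Helper78BFReliff
import Cfsg.Agent.Lib.Helper78BFDaeq

set_option autoImplicit false
set_option linter.unusedSectionVars false
set_option linter.unusedVariables false

namespace Cfsg.Agent.Lib.Helper78BFClasscard

open Cfsg
open Cfsg.Agent.Lib.Helper81Local Cfsg.Agent.Lib.Helper81Base Cfsg.Agent.Lib.Helper81BB
  Cfsg.Agent.Lib.Helper81Block Cfsg.Agent.Lib.Helper81Orth Cfsg.Agent.Lib.Helper81Orth2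
  Cfsg.Agent.Lib.Helper81Part Cfsg.Agent.Lib.Helper81Defect Cfsg.Agent.Lib.Helper81Reg
  Cfsg.Agent.Lib.Helper81Subsec Cfsg.Agent.Lib.Helper81Rank
  Cfsg.Agent.Lib.Helper84Subsec Cfsg.Agent.Lib.Helper84Subsec2 Cfsg.Agent.Lib.Helper84Contrib
  Cfsg.Agent.Lib.Helper82Quot Cfsg.Agent.Lib.Helper21Quot2
  Cfsg.Agent.Lib.Helper78BFDefs
open scoped ComplexConjugate
open Cfsg.Agent.Lib.Helper78BFReliff Cfsg.Agent.Lib.Helper78BFDaeq

variable {p : ℕ} [Fact p.Prime]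
variable {κ I : Type*} [Fintype κ] [Fintype I] {n : κ → I → ℤ} {w : I → ℂ}

theorem one_mem_EA (h : AD p n w) : 1 ∈ EA p n w := by
  have hp := (Fact.out : p.Prime)
  unfold EA
  rw [Finset.mem_filter, Finset.mem_Ico]
  refine ⟨⟨le_refl _, hp.one_lt⟩, ?_⟩
  rw [h.diag 1 (fun hd => hp.one_lt.ne' (Nat.dvd_one.mp hd))]
  exact Nat.cast_ne_zero.mpr hp.ne_zero

open Classical in
theorem class_card (h : AD p n w) {t : ℕ} (ht : t ∈ Finset.Ico 1 p) :
    ((Finset.Ico 1 p).filter (fun t' => dA n w t' = dA n w t)).card = (EA p n w).card := by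
  have hp := (Fact.out : p.Prime)
  have ht0 := Finset.mem_Ico.mp ht
  have hnd : ∀ {x : ℕ}, x ∈ Finset.Ico 1 p → ¬ p ∣ x := by
    intro x hx hd
    rw [Finset.mem_Ico] at hx
    have := Nat.le_of_dvd (by omega) hd
    omega
  have hEA : ∀ {s : ℕ}, s ∈ EA p n w → s ∈ Finset.Ico 1 p := by
    intro s hs
    unfold EA at hs
    exact (Finset.mem_filter.mp hs).1
  have hmem : ∀ {s : ℕ}, s ∈ EA p n w → (t * s) % p ∈ Finset.Ico 1 p := by
    intro s hs
    rw [Finset.mem_Ico]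
    refine ⟨?_, Nat.mod_lt _ hp.pos⟩
    rw [Nat.one_le_iff_ne_zero]
    intro h0
    rcases (Nat.Prime.dvd_mul hp).mp (Nat.dvd_of_mod_eq_zero h0) with h1 | h1
    · exact hnd ht h1
    · exact hnd (hEA hs) h1
  symm
  refine Finset.card_bij (fun s _ => (t * s) % p) ?_ ?_ ?_
  · intro s hs
    rw [Finset.mem_filter]
    refine ⟨hmem hs, ?_⟩
    rw [dA_eq_iff h (hnd ht) (hnd (hmem hs)), rel_iff h ht (hmem hs)]
    exact ⟨s, hs, Nat.mod_modEq _ _⟩
  · intro s hs s' hs' he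
    have h1 : t * s ≡ t * s' [MOD p] := he
    have hcop : Nat.gcd p t = 1 := (Nat.Prime.coprime_iff_not_dvd hp).mpr (hnd ht)
    have h2 : s ≡ s' [MOD p] := Nat.ModEq.cancel_left_of_coprime hcop h1
    have a1 := Finset.mem_Ico.mp (hEA hs)
    have a2 := Finset.mem_Ico.mp (hEA hs')
    exact Nat.ModEq.eq_of_lt_of_lt h2 a1.2 a2.2
  · intro t' ht'
    rw [Finset.mem_filter] at ht'
    obtain ⟨s, hs, hst⟩ := (rel_iff h ht ht'.1).mp ((dA_eq_iff h (hnd ht) (hnd ht'.1)).mp ht'.2)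
    refine ⟨s, hs, ?_⟩
    have a1 := Finset.mem_Ico.mp ht'.1
    change t * s % p = t'
    rw [← hst, Nat.mod_eq_of_lt a1.2]

end Cfsg.Agent.Lib.Helper78BFClasscard
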