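import Mathlib
import Cfsg.Agent.Lib.Helper78BFDefs
import Cfsg.Agent.Lib.Helper84Contrib
import Cfsg.Agent.Lib.Helper78Det

set_option autoImplicit false
set_option linter.unusedSectionVars false
set_option linter.unusedVariables false

namespace Cfsg.Agent.Lib.Helper78BFDetstep

open Cfsg
open Cfsg.Agent.Lib.Helper81Local Cfsg.Agent.Lib.Helper81Base Cfsg.Agent.Lib.Helper81BB
  Cfsg.Agent.Lib.Helper81Block Cfsg.Agent.Lib.Helper81Orth Cfsg.Agent.Lib.Helper81Orth2
  Cfsg.Agent.Lib.Helper81Part Cfsg.Agent.Lib.Helper81Defect Cfsg.Agent.Lib.Helper81Reg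
  Cfsg.Agent.Lib.Helper81Subsec Cfsg.Agent.Lib.Helper81Rank
  Cfsg.Agent.Lib.Helper84Subsec Cfsg.Agent.Lib.Helper84Subsec2 Cfsg.Agent.Lib.Helper84Contrib
  Cfsg.Agent.Lib.Helper82Quot Cfsg.Agent.Lib.Helper21Quot2
  Cfsg.Agent.Lib.Helper78BFDefs
open scoped ComplexConjugate

variable {p : ℕ} [Fact p.Prime]

open Classical in
/-- **detstep** (uses Helper78Det.main) -/
theorem det_step {κ I' : Type*} [Fintype κ] [Fintype I'] (a : I' → κ → ℤ) (e : ℕ) (he : 0 < e)
    (hG : ∀ i i', ∑ k, a i k * a i' k = (e : ℤ) + if a i = a i' then 1 else 0)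
    (hfib : ∀ i, (Finset.univ.filter (fun i' => a i' = a i)).card = e)
    (hrow : ∀ k, ∃ i, a i k ≠ 0) (x : κ → ℤ) :
    (e : ℤ) * (1 + Fintype.card I') * ∑ k, x k ^ 2
        - (1 + Fintype.card I') * ∑ i, (∑ k, a i k * x k) ^ 2
        + (∑ i, ∑ k, a i k * x k) ^ 2 = 0 ∨
    (e : ℤ) * Fintype.card κ ≤ (e : ℤ) * (1 + Fintype.card I') * ∑ k, x k ^ 2
        - (1 + Fintype.card I') * ∑ i, (∑ k, a i k * x k) ^ 2
        + (∑ i, ∑ k, a i k * x k) ^ 2 + Fintype.card I' := by
  classical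
  let J := {v : κ → ℤ // ∃ i, a i = v}
  let g : I' → J := fun i => ⟨a i, i, rfl⟩
  have hgs : Function.Surjective g := by
    rintro ⟨_, i, rfl⟩
    exact ⟨i, rfl⟩
  have : Finite J := Finite.of_surjective g hgs
  have : Fintype J := Fintype.ofFinite J
  have sum_fib : ∀ f : (κ → ℤ) → ℤ, ∑ i, f (a i) = (e : ℤ) * ∑ j : J, f j.1 := by
    intro f
    rw [← Finset.sum_fiberwise Finset.univ g (fun i => f (a i)), Finset.mul_sum]
    refine Finset.sum_congr rfl fun j _ => ?_
    obtain ⟨i0, hi0⟩ := j.2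
    have h1 : ∀ i ∈ Finset.univ.filter (fun i => g i = j), f (a i) = f j.1 := by
      intro i hi
      have := (Finset.mem_filter.1 hi).2
      rw [← this]
    rw [Finset.sum_congr rfl h1, Finset.sum_const, nsmul_eq_mul]
    congr 2
    rw [← hfib i0]
    congr 1
    ext i
    simp only [Finset.mem_filter, Finset.mem_univ, true_and]
    constructor
    · intro h
      have := congrArg Subtype.val h
      exact this.trans hi0.symm
    · intro h
      exact Subtype.ext (h.trans hi0)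
  have hcard : (Fintype.card I' : ℤ) = (e : ℤ) * Fintype.card J := by
    have := sum_fib (fun _ => 1)
    simpa using this
  have hmain := Cfsg.Agent.Lib.Helper78Det.main (J := J) (fun j => j.1) (e : ℤ) (by positivity)
    (by
      rintro ⟨_, i, rfl⟩ ⟨_, i', rfl⟩
      rw [hG i i']
      congr 1
      by_cases h : a i = a i'
      · rw [if_pos h, if_pos (Subtype.ext h)]
      · rw [if_neg h, if_neg (fun h' => h (congrArg Subtype.val h'))])
    (by
      intro k
      obtain ⟨i, hi⟩ := hrow k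
      exact ⟨g i, hi⟩) x
  have e1 := sum_fib (fun v => (∑ k, v k * x k) ^ 2)
  have e2 := sum_fib (fun v => ∑ k, v k * x k)
  rw [e1, e2, hcard]
  have he' : (0 : ℤ) < e := by exact_mod_cast he
  set A : ℤ := ∑ k, x k ^ 2
  set B : ℤ := ∑ j : J, (∑ k, j.1 k * x k) ^ 2
  set C : ℤ := ∑ j : J, ∑ k, j.1 k * x k
  set c : ℤ := (Fintype.card J : ℤ)
  have key : (e : ℤ) * (1 + e * c) * A - (1 + e * c) * (e * B) + (e * C) ^ 2
      = e * ((1 + e * c) * A - (1 + e * c) * B + e * C ^ 2) := by ring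
  rw [key]
  rcases hmain with h | h
  · left
    rw [h, mul_zero]
  · right
    nlinarith [mul_le_mul_of_nonneg_left h he'.le]

end Cfsg.Agent.Lib.Helper78BFDetstep
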