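import Mathlib
import Cfsg.Agent.Lib.Helper78BFDefs
import Cfsg.Agent.Lib.Helper84Contrib

set_option autoImplicit false
set_option linter.unusedSectionVars false
set_option linter.unusedVariables false

namespace Cfsg.Agent.Lib.Helper78BFFib

open Cfsg
open Cfsg.Agent.Lib.Helper81Local Cfsg.Agent.Lib.Helper81Base Cfsg.Agent.Lib.Helper81BB
  Cfsg.Agent.Lib.Helper81Block Cfsg.Agent.Lib.Helper81Orth Cfsg.Agent.Lib.Helper81Orth2
  Cfsg.Agent.Lib.Helper81Part Cfsg.Agent.Lib.Helper81Defect Cfsg.Agent.Lib.Helper81Reg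
  Cfsg.Agent.Lib.Helper81Subsec Cfsg.Agent.Lib.Helper81Rank
  Cfsg.Agent.Lib.Helper84Subsec Cfsg.Agent.Lib.Helper84Subsec2 Cfsg.Agent.Lib.Helper84Contrib
  Cfsg.Agent.Lib.Helper82Quot Cfsg.Agent.Lib.Helper21Quot2
  Cfsg.Agent.Lib.Helper78BFDefs
open scoped ComplexConjugate

variable {p : ℕ} [Fact p.Prime]
variable {κ I : Type*} [Fintype κ] [Fintype I] {n : κ → I → ℤ} {w : I → ℂ}

theorem surj_roots (h : AD p n w) {z : ℂ} (hz : z ^ p = 1) : ∃ i, w i = z := by
  classical
  have hp := (Fact.out : p.Prime)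
  have : NeZero p := ⟨hp.ne_zero⟩
  have hω : IsPrimitiveRoot (Complex.exp (2 * Real.pi * Complex.I / p)) p :=
    Complex.isPrimitiveRoot_exp p hp.ne_zero
  have hsub : Finset.univ.image w ⊆ Polynomial.nthRootsFinset p (1 : ℂ) := by
    intro x hx
    obtain ⟨i, -, rfl⟩ := Finset.mem_image.mp hx
    rw [Polynomial.mem_nthRootsFinset hp.pos]
    exact h.hw i
  have hcard : (Polynomial.nthRootsFinset p (1 : ℂ)).card ≤ (Finset.univ.image w).card := by
    rw [hω.card_nthRootsFinset, Finset.card_image_of_injective _ h.inj, Finset.card_univ, h.card]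
  have heq := Finset.eq_of_subset_of_card_le hsub hcard
  have hz' : z ∈ Finset.univ.image w := by
    rw [heq, Polynomial.mem_nthRootsFinset hp.pos]
    exact hz
  obtain ⟨i, -, hi⟩ := Finset.mem_image.mp hz'
  exact ⟨i, hi⟩

open Classical in
theorem fib (h : AD p n w) {i : I} (hi : w i ≠ 1) :
    (Finset.univ.filter (fun i' : I => ∃ s ∈ EA p n w, w i' ^ s = w i)).card
      = (EA p n w).card := by
  have hp := (Fact.out : p.Prime)
  have hEA : ∀ {s : ℕ}, s ∈ EA p n w → s ∈ Finset.Ico 1 p := by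
    intro s hs
    unfold EA at hs
    exact (Finset.mem_filter.mp hs).1
  have hex : ∀ s : ℕ, ∃ i' : I, s ∈ EA p n w → w i' ^ s = w i := by
    intro s
    by_cases hs : s ∈ EA p n w
    · have a1 := Finset.mem_Ico.mp (hEA hs)
      have hps : ¬ p ∣ s := fun hd => by have := Nat.le_of_dvd (by omega) hd; omega
      have hcop : Nat.Coprime s p := ((Nat.Prime.coprime_iff_not_dvd hp).mpr hps).symm
      obtain ⟨r, -, hr⟩ := Nat.exists_mul_mod_eq_one_of_coprime hcop hp.one_lt
      obtain ⟨i', hi'⟩ := surj_roots h (z := w i ^ r) (by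
        rw [← pow_mul, mul_comm, pow_mul, h.hw, one_pow])
      refine ⟨i', fun _ => ?_⟩
      rw [hi', ← pow_mul, mul_comm, pow_eq_pow_mod _ (h.hw i), hr, pow_one]
    · exact ⟨i, fun h' => absurd h' hs⟩
  choose f hf using hex
  symm
  refine Finset.card_bij (fun s _ => f s) ?_ ?_ ?_
  · intro s hs
    rw [Finset.mem_filter]
    exact ⟨Finset.mem_univ _, s, hs, hf s hs⟩
  · intro s hs s' hs' he
    have e1 := hf s hs
    have e2 := hf s' hs'
    change f s = f s' at he
    rw [← he] at e2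
    have hne : w (f s) ≠ 1 := by
      intro h1
      rw [h1, one_pow] at e1
      exact hi e1.symm
    have hprim : IsPrimitiveRoot (w (f s)) p := by
      have := IsPrimitiveRoot.orderOf (w (f s))
      rwa [orderOf_eq_prime (h.hw _) hne] at this
    exact hprim.pow_inj (Finset.mem_Ico.mp (hEA hs)).2 (Finset.mem_Ico.mp (hEA hs')).2
      (e1.trans e2.symm)
  · intro i' hi'
    rw [Finset.mem_filter] at hi'
    obtain ⟨-, s, hs, hsi⟩ := hi'
    refine ⟨s, hs, ?_⟩
    apply h.inj
    have e1 := hf s hs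
    have a1 := Finset.mem_Ico.mp (hEA hs)
    have hps : ¬ p ∣ s := fun hd => by have := Nat.le_of_dvd (by omega) hd; omega
    have hcop : Nat.Coprime s p := ((Nat.Prime.coprime_iff_not_dvd hp).mpr hps).symm
    obtain ⟨r, -, hr⟩ := Nat.exists_mul_mod_eq_one_of_coprime hcop hp.one_lt
    have e2 : w (f s) ^ s = w i' ^ s := e1.trans hsi.symm
    have e3 := congrArg (· ^ r) e2
    simp only [← pow_mul] at e3
    rwa [pow_eq_pow_mod _ (h.hw _), pow_eq_pow_mod (s * r) (h.hw i'), hr, pow_one, pow_one] at e3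

end Cfsg.Agent.Lib.Helper78BFFib
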