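import Mathlib
import Cfsg.Agent.Lib.Helper84Ramanujan
import Cfsg.Agent.Lib.Helper78BFDefs
import Cfsg.Agent.Lib.Helper84Contrib

set_option autoImplicit false
set_option linter.unusedSectionVars false
set_option linter.unusedVariables false

namespace Cfsg.Agent.Lib.Helper78BFFourier

open Cfsg
open Cfsg.Agent.Lib.Helper81Local Cfsg.Agent.Lib.Helper81Base Cfsg.Agent.Lib.Helper81BB
  Cfsg.Agent.Lib.Helper81Block Cfsg.Agent.Lib.Helper81Orth Cfsg.Agent.Lib.Helper81Orth2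
  Cfsg.Agent.Lib.Helper81Part Cfsg.Agent.Lib.Helper81Defect Cfsg.Agent.Lib.Helper81Reg
  Cfsg.Agent.Lib.Helper81Subsec Cfsg.Agent.Lib.Helper81Rank
  Cfsg.Agent.Lib.Helper84Subsec Cfsg.Agent.Lib.Helper84Subsec2 Cfsg.Agent.Lib.Helper84Contrib
  Cfsg.Agent.Lib.Helper82Quot Cfsg.Agent.Lib.Helper21Quot2
  Cfsg.Agent.Lib.Helper78BFDefs
open scoped ComplexConjugate

variable {p : ℕ} [Fact p.Prime]
variable {κ I : Type*} [Fintype κ] [Fintype I] {n : κ → I → ℤ} {w : I → ℂ}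

/-- Parseval, in real form. -/
lemma parseval (h : AD p n w) (y : I → ℤ) :
    ∑ t ∈ Finset.Ico 1 p, ‖∑ i, (y i : ℂ) * w i ^ t‖ ^ 2
      = (p : ℝ) * ∑ i, ((y i : ℤ) : ℝ) ^ 2 - ((∑ i, y i : ℤ) : ℝ) ^ 2 := by
  classical
  have hp : p.Prime := Fact.out
  have h1 := Cfsg.Agent.Lib.Helper84Ramanujan.sum_mul_conj (Finset.univ : Finset I) y w p hp.ne_zero
    (fun i _ => h.hw i)
  have h2 : ∀ i, ∑ i' : I, (if w i = w i' then y i * y i' else 0) = y i ^ 2 := by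
    intro i
    rw [Finset.sum_eq_single i]
    · simp [sq]
    · intro i' _ hne
      rw [if_neg]
      intro he
      exact hne (h.inj he).symm
    · simp
  rw [Finset.sum_congr rfl (fun i _ => h2 i), Finset.range_eq_Ico,
    Finset.sum_eq_sum_Ico_succ_bot hp.pos] at h1
  simp only [pow_zero, mul_one, zero_add, Complex.mul_conj'] at h1
  apply Complex.ofReal_injective
  push_cast
  push_cast at h1
  rw [← h1]
  have h3 : ((‖∑ i, (y i : ℂ)‖ : ℝ) : ℂ) ^ 2 = (∑ i, (y i : ℂ)) ^ 2 := by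
    rw [← Complex.mul_conj', map_sum]
    simp [sq]
  rw [h3]
  ring

lemma sum_pow_eq_zero (h : AD p n w) {t : ℕ} (ht : t ∈ Finset.Ico 1 p) : ∑ i, w i ^ t = 0 := by
  have h1 := parseval h (fun _ => (1 : ℤ))
  simp only [Int.cast_one, one_mul, one_pow, Finset.sum_const, Finset.card_univ, h.card,
    nsmul_eq_mul, mul_one, Int.cast_natCast] at h1
  have h2 : ∑ t ∈ Finset.Ico 1 p, ‖∑ i, w i ^ t‖ ^ 2 = 0 := by
    rw [h1]
    ring
  have h3 := (Finset.sum_eq_zero_iff_of_nonneg (fun t _ => by positivity)).1 h2 t ht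
  exact norm_eq_zero.1 ((pow_eq_zero_iff two_ne_zero).1 h3)

/-- **fourier** -/
theorem fourier (h : AD p n w) {i0 : I} (h0 : w i0 = 1) (x : κ → ℤ) :
    ∑ t ∈ Finset.Ico 1 p, ‖∑ k, (x k : ℂ) * dA n w t k‖ ^ 2
      = (p : ℝ) * ∑ i, ((∑ k, (n k i - n k i0) * x k : ℤ) : ℝ) ^ 2
        - ((∑ i, ∑ k, (n k i - n k i0) * x k : ℤ) : ℝ) ^ 2 := by
  rw [← parseval h (fun i => ∑ k, (n k i - n k i0) * x k)]
  refine Finset.sum_congr rfl fun t ht => ?_
  congr 2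
  have hs := sum_pow_eq_zero h ht
  have e1 : ∑ k, (x k : ℂ) * dA n w t k = ∑ i, (∑ k, (n k i : ℂ) * (x k : ℂ)) * w i ^ t := by
    simp only [dA, Finset.mul_sum, Finset.sum_mul]
    rw [Finset.sum_comm]
    refine Finset.sum_congr rfl fun i _ => Finset.sum_congr rfl fun k _ => ?_
    ring
  have e2 : ∑ i, (((∑ k, (n k i - n k i0) * x k : ℤ)) : ℂ) * w i ^ t
      = ∑ i, (∑ k, (n k i : ℂ) * (x k : ℂ)) * w i ^ t
        - (∑ k, (n k i0 : ℂ) * (x k : ℂ)) * ∑ i, w i ^ t := by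
    rw [Finset.mul_sum, ← Finset.sum_sub_distrib]
    refine Finset.sum_congr rfl fun i _ => ?_
    push_cast
    rw [← sub_mul, ← Finset.sum_sub_distrib]
    congr 1
    refine Finset.sum_congr rfl fun k _ => ?_
    ring
  rw [e1, e2, hs, mul_zero, sub_zero]

end Cfsg.Agent.Lib.Helper78BFFourier
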