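import Mathlib
import Cfsg.Agent.Lib.Helper78BFDefs
import Cfsg.Agent.Lib.Helper84Contrib
import Cfsg.Agent.Lib.Helper78BFRootreg

set_option autoImplicit false
set_option linter.unusedSectionVars false
set_option linter.unusedVariables false

namespace Cfsg.Agent.Lib.Helper78BFFpdn

open Cfsg
open Cfsg.Agent.Lib.Helper81Local Cfsg.Agent.Lib.Helper81Base Cfsg.Agent.Lib.Helper81BB
  Cfsg.Agent.Lib.Helper81Block Cfsg.Agent.Lib.Helper81Orth Cfsg.Agent.Lib.Helper81Orth2
  Cfsg.Agent.Lib.Helper81Part Cfsg.Agent.Lib.Helper81Defect Cfsg.Agent.Lib.Helper81Reg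
  Cfsg.Agent.Lib.Helper81Subsec Cfsg.Agent.Lib.Helper81Rank
  Cfsg.Agent.Lib.Helper84Subsec Cfsg.Agent.Lib.Helper84Subsec2 Cfsg.Agent.Lib.Helper84Contrib
  Cfsg.Agent.Lib.Helper82Quot Cfsg.Agent.Lib.Helper21Quot2
  Cfsg.Agent.Lib.Helper78BFDefs
open scoped ComplexConjugate
open Cfsg.Agent.Lib.Helper78BFRootreg

variable {G : Type*} [Group G] [Fintype G] {p : ℕ} [Fact p.Prime] {M : Ideal AlgInt}
variable {H : Subgroup G} [Fintype H] {B : Set (IrrCharacter G)} {β : Set (IrrCharacter H)} {z : H}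

theorem root_central (h : Root p M B H β z) (x : H) : x * z = z * x := by
  have hx : (x : G) ∈ Subgroup.centralizer ({(z : G)} : Set G) := by
    rw [← h.cen]; exact x.2
  rw [Subgroup.mem_centralizer_singleton_iff] at hx
  apply Subtype.ext
  simpa using hx

/-- **fpdn** (uses root_reg) -/
theorem fp_eq_dn (hM : IsPModular p M) (h : Root p M B H β z) {θ : IrrCharacter H} (hθ : θ ∈ β)
    (t : ℕ) (χ : IrrCharacter G) {y : H} (hy : ¬ p ∣ orderOf y) :
    fp β ((z : G) ^ t) (χ : G → ℂ) y = dn β z t χ * (θ : H → ℂ) y := by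
  classical
  have hz : ∀ x : H, x * z = z * x := root_central h
  have hzt : ∀ x : H, x * z ^ t = z ^ t * x := fun x => ((Commute.pow_right (hz x) t)).eq
  have e1 : ((z : G) ^ t) = ((z ^ t : H) : G) := by simp
  rw [e1, fp_eq β (χ : G → ℂ) hzt]
  unfold dn
  rw [Finset.sum_apply, Finset.sum_mul]
  refine Finset.sum_congr rfl fun ζ _ => ?_
  by_cases hζ : ζ ∈ β
  · simp only [hζ, if_true, Pi.smul_apply, smul_eq_mul]
    rw [lam_pow ζ hz, nA_spec, root_reg hM h hζ hθ hy]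
    ring
  · simp [hζ]

end Cfsg.Agent.Lib.Helper78BFFpdn
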