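import Mathlib
import Cfsg.Agent.Lib.Helper78BFDefs
import Cfsg.Agent.Lib.Helper84Contrib

set_option autoImplicit false
set_option linter.unusedSectionVars false
set_option linter.unusedVariables false

namespace Cfsg.Agent.Lib.Helper78BFI1

open Cfsg
open Cfsg.Agent.Lib.Helper81Local Cfsg.Agent.Lib.Helper81Base Cfsg.Agent.Lib.Helper81BB
  Cfsg.Agent.Lib.Helper81Block Cfsg.Agent.Lib.Helper81Orth Cfsg.Agent.Lib.Helper81Orth2
  Cfsg.Agent.Lib.Helper81Part Cfsg.Agent.Lib.Helper81Defect Cfsg.Agent.Lib.Helper81Reg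
  Cfsg.Agent.Lib.Helper81Subsec Cfsg.Agent.Lib.Helper81Rank
  Cfsg.Agent.Lib.Helper84Subsec Cfsg.Agent.Lib.Helper84Subsec2 Cfsg.Agent.Lib.Helper84Contrib
  Cfsg.Agent.Lib.Helper82Quot Cfsg.Agent.Lib.Helper21Quot2
  Cfsg.Agent.Lib.Helper78BFDefs
open scoped ComplexConjugate

variable {G : Type*} [Group G] [Fintype G] {p : ℕ} [Fact p.Prime] {M : Ideal AlgInt}

/-- **i1** (uses Helper84Contrib.brauer_feit_sum) -/
theorem I1 (hM : IsPModular p M) {B : Set (IrrCharacter G)} (hB : IsPBlock M B) :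
    4 * (Nat.card {χ : IrrCharacter G // χ ∈ B ∧ blockHeight p B (χ : G → ℂ) = 0}
      + p ^ 2 * Nat.card {χ : IrrCharacter G // χ ∈ B ∧ blockHeight p B (χ : G → ℂ) ≠ 0})
      ≤ p ^ (2 * blockDefect p B) + 4 := by
  classical
  have hp : p.Prime := Fact.out
  refine le_trans (Nat.mul_le_mul_left 4 ?_) (brauer_feit_sum hM hB)
  rw [Nat.card_eq_fintype_card, Nat.card_eq_fintype_card, Fintype.card_subtype,
    Fintype.card_subtype, Finset.card_filter, Finset.card_filter, Finset.mul_sum,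
    ← Finset.sum_add_distrib]
  refine Finset.sum_le_sum fun ψ _ => ?_
  by_cases hψ : ψ ∈ B
  · by_cases h0 : blockHeight p B (ψ : G → ℂ) = 0
    · simp [hψ, h0]
    · have h2 : p ^ 2 ≤ p ^ (2 * blockHeight p B (ψ : G → ℂ)) :=
        Nat.pow_le_pow_right hp.pos (by omega)
      simpa [hψ, h0] using h2
  · simp [hψ]

theorem card_split (B : Set (IrrCharacter G)) :
    Nat.card B = Nat.card {χ : IrrCharacter G // χ ∈ B ∧ blockHeight p B (χ : G → ℂ) = 0}
      + Nat.card {χ : IrrCharacter G // χ ∈ B ∧ blockHeight p B (χ : G → ℂ) ≠ 0} := by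
  classical
  have h1 : Nat.card B = Nat.card {χ : IrrCharacter G // χ ∈ B} := rfl
  rw [h1, Nat.card_eq_fintype_card, Nat.card_eq_fintype_card, Nat.card_eq_fintype_card,
    Fintype.card_subtype, Fintype.card_subtype, Fintype.card_subtype, Finset.card_filter,
    Finset.card_filter, Finset.card_filter, ← Finset.sum_add_distrib]
  refine Finset.sum_congr rfl fun ψ _ => ?_
  by_cases hψ : ψ ∈ B
  · by_cases h0 : blockHeight p B (ψ : G → ℂ) = 0
    · simp [hψ, h0]
    · simp [hψ, h0]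
  · simp [hψ]

end Cfsg.Agent.Lib.Helper78BFI1
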