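import Mathlib
import Cfsg.Agent.Lib.Helper78BFDefs
import Cfsg.Agent.Lib.Helper84Contrib
import Cfsg.Agent.Lib.Helper78BFLiftreg
import Cfsg.Agent.Lib.Helper78BFNormquot

set_option autoImplicit false
set_option linter.unusedSectionVars false
set_option linter.unusedVariables false

namespace Cfsg.Agent.Lib.Helper78BFLbdom

open Cfsg
open Cfsg.Agent.Lib.Helper81Local Cfsg.Agent.Lib.Helper81Base Cfsg.Agent.Lib.Helper81BB
  Cfsg.Agent.Lib.Helper81Block Cfsg.Agent.Lib.Helper81Orth Cfsg.Agent.Lib.Helper81Orth2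
  Cfsg.Agent.Lib.Helper81Part Cfsg.Agent.Lib.Helper81Defect Cfsg.Agent.Lib.Helper81Reg
  Cfsg.Agent.Lib.Helper81Subsec Cfsg.Agent.Lib.Helper81Rank
  Cfsg.Agent.Lib.Helper84Subsec Cfsg.Agent.Lib.Helper84Subsec2 Cfsg.Agent.Lib.Helper84Contrib
  Cfsg.Agent.Lib.Helper82Quot Cfsg.Agent.Lib.Helper21Quot2
  Cfsg.Agent.Lib.Helper78BFDefs
open scoped ComplexConjugate
open Cfsg.Agent.Lib.Helper78BFLiftreg Cfsg.Agent.Lib.Helper78BFNormquot

variable {X : Type*} [Group X] [Fintype X] {p : ℕ} [Fact p.Prime] {M : Ideal AlgInt}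

/-- **lbdom** (uses lift_reg, norm_quot) -/
theorem LB_of_dom (hM : IsPModular p M) (Z : Subgroup X) [Z.Normal] [Fintype (X ⧸ Z)]
    (hZ : Nat.card Z = p) (hZc : Z ≤ Subgroup.center X) {b : Set (IrrCharacter X)}
    (hb : IsPBlock M b) {c : ℝ} (hc : LB p (dom Z b) c) : LB p b (c / p) := by
  classical
  have hp : p.Prime := Fact.out
  have hZp : IsPGroup p Z := IsPGroup.of_card (n := 1) (by rw [hZ, pow_one])
  intro m
  obtain ⟨m', hm'⟩ := lift_reg hM Z hZp hZc hb m
  rcases hc m' with h0 | h1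
  · left
    intro y hy
    rw [hm' y hy]
    apply h0
    intro hd
    apply hy
    exact dvd_trans hd (orderOf_map_dvd (QuotientGroup.mk' Z) y)
  · right
    have e1 : regInner p (GC b m) (GC b m)
        = regInner p (fun x : X => GC (dom Z b) m' (x : X ⧸ Z))
            (fun x : X => GC (dom Z b) m' (x : X ⧸ Z)) := by
      unfold regInner
      congr 1
      refine Finset.sum_congr rfl fun y _ => ?_
      by_cases hy : p ∣ orderOf y
      · simp [hy]
      · simp only [hy, not_false_eq_true, if_true]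
        rw [hm' y hy]
    rw [e1, norm_quot Z hZp hZc, hZ]
    have e2 : ((p : ℂ)⁻¹ * regInner p (GC (dom Z b) m') (GC (dom Z b) m')).re
        = (regInner p (GC (dom Z b) m') (GC (dom Z b) m')).re / p := by
      rw [← Complex.ofReal_natCast, ← Complex.ofReal_inv, Complex.re_ofReal_mul]
      field_simp
    rw [e2]
    have hp0 : (0 : ℝ) < p := by exact_mod_cast hp.pos
    exact div_le_div_of_nonneg_right h1 hp0.le

end Cfsg.Agent.Lib.Helper78BFLbdom
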