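import Mathlib
import Cfsg.Agent.Lib.Helper78BFDefs
import Cfsg.Agent.Lib.Helper84Contrib

set_option autoImplicit false
set_option linter.unusedSectionVars false
set_option linter.unusedVariables false

namespace Cfsg.Agent.Lib.Helper78BFNum

open Cfsg
open Cfsg.Agent.Lib.Helper81Local Cfsg.Agent.Lib.Helper81Base Cfsg.Agent.Lib.Helper81BB
  Cfsg.Agent.Lib.Helper81Block Cfsg.Agent.Lib.Helper81Orth Cfsg.Agent.Lib.Helper81Orth2
  Cfsg.Agent.Lib.Helper81Part Cfsg.Agent.Lib.Helper81Defect Cfsg.Agent.Lib.Helper81Reg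
  Cfsg.Agent.Lib.Helper81Subsec Cfsg.Agent.Lib.Helper81Rank
  Cfsg.Agent.Lib.Helper84Subsec Cfsg.Agent.Lib.Helper84Subsec2 Cfsg.Agent.Lib.Helper84Contrib
  Cfsg.Agent.Lib.Helper82Quot Cfsg.Agent.Lib.Helper21Quot2
  Cfsg.Agent.Lib.Helper78BFDefs
open scoped ComplexConjugate

variable {p : ℕ} [Fact p.Prime]

theorem num (p d x y l : ℕ) (hp : 2 ≤ p) (hd : 3 ≤ d)
    (h1 : 4 * (x + p ^ 2 * y) ≤ p ^ (2 * d) + 4)
    (h2 : x ^ 2 + 2 * p ^ 2 * x * y ≤ p ^ (2 * d) * l) (hl : l ≤ p ^ (2 * d - 4)) :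
    x + y ≤ p ^ (2 * d - 2) := by
  obtain ⟨e, rfl⟩ : ∃ e, d = e + 3 := ⟨d - 3, by omega⟩
  have e1 : p ^ (2 * (e + 3)) = p ^ 2 * p ^ 2 * p ^ (2 * e + 2) := by
    rw [← pow_add, ← pow_add]; congr 1; omega
  have e2 : p ^ (2 * (e + 3) - 4) = p ^ (2 * e + 2) := by congr 1
  have e3 : p ^ (2 * (e + 3) - 2) = p ^ 2 * p ^ (2 * e + 2) := by
    rw [← pow_add]; congr 1; omega
  rw [e1] at h1 h2
  rw [e2] at hl
  rw [e3]
  have hP : 4 ≤ p ^ 2 := by nlinarith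
  have hL : 1 ≤ p ^ (2 * e + 2) := Nat.one_le_pow _ _ (by omega)
  generalize p ^ 2 = P at *
  generalize p ^ (2 * e + 2) = L at *
  by_cases hc : y + 2 * x ≤ 2 * P * x
  · have h3 : (x + y) ^ 2 ≤ (P * L) ^ 2 := by
      have h4 : y * (y + 2 * x) ≤ y * (2 * P * x) := Nat.mul_le_mul_left _ hc
      have h5 : P * P * L * l ≤ P * P * L * L := Nat.mul_le_mul_left _ hl
      nlinarith
    exact (Nat.pow_le_pow_iff_left (by norm_num)).mp h3
  · push Not at hc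
    have h6 : 8 * x ≤ 2 * P * x := by nlinarith
    by_contra hcon
    push Not at hcon
    have h7 : 6 * (P * L) + 7 ≤ 7 * y := by omega
    have h8 : 4 * P * (6 * (P * L) + 7) ≤ 4 * P * (7 * y) := Nat.mul_le_mul_left _ h7
    nlinarith

end Cfsg.Agent.Lib.Helper78BFNum
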