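import Mathlib
import Cfsg.Agent.Lib.Helper78BFDefs
import Cfsg.Agent.Lib.Helper84Contrib

set_option autoImplicit false
set_option linter.unusedSectionVars false
set_option linter.unusedVariables false

namespace Cfsg.Agent.Lib.Helper78BFT1major

open Cfsg
open Cfsg.Agent.Lib.Helper81Local Cfsg.Agent.Lib.Helper81Base Cfsg.Agent.Lib.Helper81BB
  Cfsg.Agent.Lib.Helper81Block Cfsg.Agent.Lib.Helper81Orth Cfsg.Agent.Lib.Helper81Orth2
  Cfsg.Agent.Lib.Helper81Part Cfsg.Agent.Lib.Helper81Defect Cfsg.Agent.Lib.Helper81Reg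
  Cfsg.Agent.Lib.Helper81Subsec Cfsg.Agent.Lib.Helper81Rank
  Cfsg.Agent.Lib.Helper84Subsec Cfsg.Agent.Lib.Helper84Subsec2 Cfsg.Agent.Lib.Helper84Contrib
  Cfsg.Agent.Lib.Helper82Quot Cfsg.Agent.Lib.Helper21Quot2
  Cfsg.Agent.Lib.Helper78BFDefs
open scoped ComplexConjugate

variable {G : Type*} [Group G] [Fintype G] {p : ℕ} [Fact p.Prime] {M : Ideal AlgInt}
variable {H : Subgroup G} [Fintype H]

/-- **t1major** -/
theorem fp_ne_zero_of_major (hM : IsPModular p M) {b : Set (IrrCharacter H)}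
    {B : Set (IrrCharacter G)} (hind : IsInducedBlock M H b B)
    (hd : blockDefect p b = blockDefect p B) {z : H} (hk : ∃ k : ℕ, orderOf (z : G) = p ^ k)
    (hH : H = Subgroup.centralizer ({(z : G)} : Set G)) {χ : IrrCharacter G} (hχ : χ ∈ B) :
    ∃ y : H, ¬ p ∣ orderOf y ∧ fp b (z : G) (χ : G → ℂ) y ≠ 0 := by
  classical
  have hPr := hM.2.1.isPrime
  by_contra hcon
  push Not at hcon
  have h1 := Cfsg.Agent.Lib.Helper78Maj.mm_self_pos hM hk hH hind hd hχ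
  have h2 := Cfsg.Agent.Lib.Helper78Maj.mm_self_eq hM (z : G) hk H hH
    (isBlockUnion_of_isPBlock hind.1) χ
  have h3 : mm p b (z : G) (χ : G → ℂ) (χ : G → ℂ) = 0 := by
    unfold mm regInner
    rw [Finset.sum_eq_zero, mul_zero]
    intro y _
    by_cases hy : p ∣ orderOf y
    · simp [hy]
    · simp [hy, hcon y hy]
  rw [h3] at h2
  have h4 : (∑ ψ : IrrCharacter G, ‖mm p b (z : G) (χ : G → ℂ) (ψ : G → ℂ)‖ ^ 2 : ℝ) = 0 := by
    exact_mod_cast h2.symm
  rw [h4] at h1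
  exact lt_irrefl _ h1

end Cfsg.Agent.Lib.Helper78BFT1major
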