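import Mathlib
import Cfsg.Agent.Lib.Helper78BFDefs
import Cfsg.Agent.Lib.Helper84Contrib
import Cfsg.Agent.Lib.Helper78BFFpdn
import Cfsg.Agent.Lib.Helper78BFT1major

set_option autoImplicit false
set_option linter.unusedSectionVars false
set_option linter.unusedVariables false

namespace Cfsg.Agent.Lib.Helper78BFNz

open Cfsg
open Cfsg.Agent.Lib.Helper81Local Cfsg.Agent.Lib.Helper81Base Cfsg.Agent.Lib.Helper81BB
  Cfsg.Agent.Lib.Helper81Block Cfsg.Agent.Lib.Helper81Orth Cfsg.Agent.Lib.Helper81Orth2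
  Cfsg.Agent.Lib.Helper81Part Cfsg.Agent.Lib.Helper81Defect Cfsg.Agent.Lib.Helper81Reg
  Cfsg.Agent.Lib.Helper81Subsec Cfsg.Agent.Lib.Helper81Rank
  Cfsg.Agent.Lib.Helper84Subsec Cfsg.Agent.Lib.Helper84Subsec2 Cfsg.Agent.Lib.Helper84Contrib
  Cfsg.Agent.Lib.Helper82Quot Cfsg.Agent.Lib.Helper21Quot2
  Cfsg.Agent.Lib.Helper78BFDefs
open scoped ComplexConjugate
open Cfsg.Agent.Lib.Helper78BFFpdn Cfsg.Agent.Lib.Helper78BFT1major

variable {G : Type*} [Group G] [Fintype G] {p : ℕ} [Fact p.Prime] {M : Ideal AlgInt}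
variable {H : Subgroup G} [Fintype H] {B : Set (IrrCharacter G)} {β : Set (IrrCharacter H)} {z : H}

/-- **nz** (uses fp_eq_dn, fp_ne_zero_of_major) -/
theorem dn_ne_zero (hM : IsPModular p M) (h : Root p M B H β z) {χ : IrrCharacter G}
    (hχ : χ ∈ B) : dn β z 1 χ ≠ 0 := by
  classical
  have hPr := hM.2.1.isPrime
  obtain ⟨θ, hθ⟩ := isPBlock_nonempty h.ind.1
  obtain ⟨y, hy, hne⟩ := fp_ne_zero_of_major hM h.ind (by rw [h.dβ, h.dB])
    ⟨1, by rw [h.ord, pow_one]⟩ h.cen hχ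
  intro h0
  apply hne
  have := fp_eq_dn hM h hθ 1 χ hy
  rw [pow_one, h0, zero_mul] at this
  exact this

end Cfsg.Agent.Lib.Helper78BFNz
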