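import Mathlib
import Cfsg.Agent.Lib.Helper78BFDefs
import Cfsg.Agent.Lib.Helper84Contrib
import Cfsg.Agent.Lib.Helper78BFFpdn

set_option autoImplicit false
set_option linter.unusedSectionVars false
set_option linter.unusedVariables false

namespace Cfsg.Agent.Lib.Helper78BFOut

open Cfsg
open Cfsg.Agent.Lib.Helper81Local Cfsg.Agent.Lib.Helper81Base Cfsg.Agent.Lib.Helper81BB
  Cfsg.Agent.Lib.Helper81Block Cfsg.Agent.Lib.Helper81Orth Cfsg.Agent.Lib.Helper81Orth2
  Cfsg.Agent.Lib.Helper81Part Cfsg.Agent.Lib.Helper81Defect Cfsg.Agent.Lib.Helper81Reg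
  Cfsg.Agent.Lib.Helper81Subsec Cfsg.Agent.Lib.Helper81Rank
  Cfsg.Agent.Lib.Helper84Subsec Cfsg.Agent.Lib.Helper84Subsec2 Cfsg.Agent.Lib.Helper84Contrib
  Cfsg.Agent.Lib.Helper82Quot Cfsg.Agent.Lib.Helper21Quot2
  Cfsg.Agent.Lib.Helper78BFDefs
open scoped ComplexConjugate
open Cfsg.Agent.Lib.Helper78BFFpdn

variable {G : Type*} [Group G] [Fintype G] {p : ℕ} [Fact p.Prime] {M : Ideal AlgInt}
variable {H : Subgroup G} [Fintype H] {B : Set (IrrCharacter G)} {β : Set (IrrCharacter H)} {z : H}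

/-- **out** (uses fp_eq_dn) -/
theorem dn_eq_zero (hM : IsPModular p M) (h : Root p M B H β z) {t : ℕ} (ht : ¬ p ∣ t)
    {χ : IrrCharacter G} (hχ : χ ∉ B) : dn β z t χ = 0 := by
  classical
  have hp : p.Prime := Fact.out
  have hPr := hM.2.1.isPrime
  obtain ⟨θ, hθ⟩ := isPBlock_nonempty h.ind.1
  have h1 := fp_eq_dn hM h hθ t χ (y := 1) (by
    rw [orderOf_one]
    exact fun hd => hp.one_lt.ne' (Nat.dvd_one.mp hd))
  have hcop : t.Coprime (orderOf (z : G)) := by
    rw [h.ord]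
    exact ((Nat.Prime.coprime_iff_not_dvd hp).mpr ht).symm
  have hcen : H = Subgroup.centralizer ({(z : G) ^ t} : Set G) := by
    rw [← centralizer_pow_eq hcop]
    exact h.cen
  have hord : ∃ k : ℕ, orderOf ((z : G) ^ t) = p ^ k :=
    ⟨1, by rw [hcop.symm.orderOf_pow, h.ord, pow_one]⟩
  have h2 : fp β ((z : G) ^ t) (χ : G → ℂ) 1 = 0 := by
    have hind := h.ind
    generalize (z : G) ^ t = x at hcen hord
    clear h1 h hcop
    subst hcen
    exact fp_eq_zero hM x hord hind hχ 1 (by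
      rw [orderOf_one]
      exact fun hd => hp.one_lt.ne' (Nat.dvd_one.mp hd))
  rw [h2] at h1
  rcases mul_eq_zero.mp h1.symm with h3 | h3
  · exact h3
  · exact absurd h3 (irr_one_ne_zero θ)

end Cfsg.Agent.Lib.Helper78BFOut
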