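import Mathlib
import Cfsg.Agent.Lib.Helper78BFDefs
import Cfsg.Agent.Lib.Helper84Contrib

set_option autoImplicit false
set_option linter.unusedSectionVars false
set_option linter.unusedVariables false

namespace Cfsg.Agent.Lib.Helper78BFProj

open Cfsg
open Cfsg.Agent.Lib.Helper81Local Cfsg.Agent.Lib.Helper81Base Cfsg.Agent.Lib.Helper81BB
  Cfsg.Agent.Lib.Helper81Block Cfsg.Agent.Lib.Helper81Orth Cfsg.Agent.Lib.Helper81Orth2
  Cfsg.Agent.Lib.Helper81Part Cfsg.Agent.Lib.Helper81Defect Cfsg.Agent.Lib.Helper81Reg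
  Cfsg.Agent.Lib.Helper81Subsec Cfsg.Agent.Lib.Helper81Rank
  Cfsg.Agent.Lib.Helper84Subsec Cfsg.Agent.Lib.Helper84Subsec2 Cfsg.Agent.Lib.Helper84Contrib
  Cfsg.Agent.Lib.Helper82Quot Cfsg.Agent.Lib.Helper21Quot2
  Cfsg.Agent.Lib.Helper78BFDefs
open scoped ComplexConjugate

variable {p : ℕ} [Fact p.Prime]

open Classical in
/-- **proj** -/
theorem proj {κ : Type*} [Fintype κ] (S : Finset ℕ) (d : ℕ → κ → ℂ) (P : ℝ) (hP : 0 < P)
    (e : ℕ) (he : 0 < e)
    (horth : ∀ t ∈ S, ∀ t' ∈ S, d t' = d t ∨ ∑ k, d t k * conj (d t' k) = 0)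
    (hdiag : ∀ t ∈ S, ∑ k, d t k * conj (d t k) = P)
    (hcl : ∀ t ∈ S, (S.filter (fun t' => d t' = d t)).card = e)
    (m : (κ → ℂ) → ℝ)
    (hm1 : ∀ (x : κ → ℂ) (c : ℕ → ℂ), m (x + ∑ t ∈ S, c t • (fun k => conj (d t k))) = m x)
    (hm2 : ∀ x : κ → ℂ, (∀ t ∈ S, ∑ k, x k * d t k = 0) → m x = ∑ k, ‖x k‖ ^ 2)
    (x : κ → ℂ) :
    m x = ∑ k, ‖x k‖ ^ 2 - (P * e)⁻¹ * ∑ t ∈ S, ‖∑ k, x k * d t k‖ ^ 2 := by
  have hP0 : (P : ℂ) ≠ 0 := by exact_mod_cast hP.ne'
  have he0 : (e : ℂ) ≠ 0 := by exact_mod_cast he.ne'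
  have hPe : ((P : ℂ) * (e : ℂ)) ≠ 0 := mul_ne_zero hP0 he0
  set c : ℕ → ℂ := fun t => ∑ k, x k * d t k with hc
  set a : ℕ → ℂ := fun t => - c t / ((P : ℂ) * (e : ℂ)) with ha
  set x' : κ → ℂ := x + ∑ t ∈ S, a t • (fun k => conj (d t k)) with hx'
  have hx'k : ∀ k, x' k = x k + ∑ t ∈ S, a t * conj (d t k) := by
    intro k
    simp [hx', Finset.sum_apply]
  have hmx : m x' = m x := hm1 x a
  have claim1 : ∀ t0 ∈ S, ∑ k, x' k * d t0 k = 0 := by
    intro t0 ht0
    have h1 : ∑ k, x' k * d t0 k = c t0 + ∑ t ∈ S, a t * ∑ k, d t0 k * conj (d t k) := by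
      simp only [hx'k, add_mul, Finset.sum_add_distrib, Finset.sum_mul, Finset.mul_sum]
      rw [Finset.sum_comm]
      congr 1
      refine Finset.sum_congr rfl fun t _ => Finset.sum_congr rfl fun k _ => ?_
      ring
    have h2 : ∀ t ∈ S, a t * ∑ k, d t0 k * conj (d t k)
        = if d t = d t0 then a t0 * P else 0 := by
      intro t ht
      split_ifs with h
      · have : a t = a t0 := by simp only [ha, hc, h]
        rw [this, h, hdiag t0 ht0]
      · rcases horth t0 ht0 t ht with h' | h'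
        · exact absurd h' h
        · rw [h', mul_zero]
    rw [h1, Finset.sum_congr rfl h2, ← Finset.sum_filter, Finset.sum_const, hcl t0 ht0, nsmul_eq_mul]
    simp only [ha]
    field_simp
    ring
  have hm : m x' = ∑ k, ‖x' k‖ ^ 2 := hm2 x' claim1
  rw [← hmx, hm]
  apply Complex.ofReal_injective
  push_cast
  have hn : ∀ z : ℂ, ((‖z‖ : ℂ)) ^ 2 = z * conj z := fun z => (Complex.mul_conj' z).symm
  simp only [hn]
  have e1 : ∑ k, x' k * conj (x' k) = ∑ k, x' k * conj (x k) := by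
    have : ∀ k, x' k * conj (x' k) = x' k * conj (x k) + ∑ t ∈ S, conj (a t) * (x' k * d t k) := by
      intro k
      have h3 : conj (x' k) = conj (x k) + ∑ t ∈ S, conj (a t) * d t k := by
        rw [hx'k k, map_add, map_sum]
        congr 1
        refine Finset.sum_congr rfl fun t _ => ?_
        rw [map_mul, Complex.conj_conj]
      rw [h3, mul_add, Finset.mul_sum]
      congr 1
      refine Finset.sum_congr rfl fun t _ => ?_
      ring
    rw [Finset.sum_congr rfl (fun k _ => this k), Finset.sum_add_distrib, Finset.sum_comm]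
    have : ∑ t ∈ S, ∑ k, conj (a t) * (x' k * d t k) = 0 := by
      refine Finset.sum_eq_zero fun t ht => ?_
      rw [← Finset.mul_sum, claim1 t ht, mul_zero]
    rw [this, add_zero]
  have e2 : ∑ k, x' k * conj (x k) = ∑ k, x k * conj (x k) + ∑ t ∈ S, a t * conj (c t) := by
    simp only [hx'k, add_mul, Finset.sum_add_distrib, Finset.sum_mul]
    congr 1
    rw [Finset.sum_comm]
    refine Finset.sum_congr rfl fun t _ => ?_
    simp only [hc, map_sum, map_mul, Finset.mul_sum]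
    refine Finset.sum_congr rfl fun k _ => ?_
    ring
  rw [e1, e2, sub_eq_add_neg]
  congr 1
  rw [Finset.mul_sum, ← Finset.sum_neg_distrib]
  refine Finset.sum_congr rfl fun t _ => ?_
  simp only [ha]
  field_simp
  rfl

end Cfsg.Agent.Lib.Helper78BFProj
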