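import Mathlib
import Cfsg.Agent.Lib.Helper78BFDefs
import Cfsg.Agent.Lib.Helper84Contrib

set_option autoImplicit false
set_option linter.unusedSectionVars false
set_option linter.unusedVariables false

namespace Cfsg.Agent.Lib.Helper78BFRankcard

open Cfsg
open Cfsg.Agent.Lib.Helper81Local Cfsg.Agent.Lib.Helper81Base Cfsg.Agent.Lib.Helper81BB
  Cfsg.Agent.Lib.Helper81Block Cfsg.Agent.Lib.Helper81Orth Cfsg.Agent.Lib.Helper81Orth2
  Cfsg.Agent.Lib.Helper81Part Cfsg.Agent.Lib.Helper81Defect Cfsg.Agent.Lib.Helper81Reg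
  Cfsg.Agent.Lib.Helper81Subsec Cfsg.Agent.Lib.Helper81Rank
  Cfsg.Agent.Lib.Helper84Subsec Cfsg.Agent.Lib.Helper84Subsec2 Cfsg.Agent.Lib.Helper84Contrib
  Cfsg.Agent.Lib.Helper82Quot Cfsg.Agent.Lib.Helper21Quot2
  Cfsg.Agent.Lib.Helper78BFDefs
open scoped ComplexConjugate

variable {X : Type*} [Group X] [Fintype X] {p : ℕ} [Fact p.Prime] {M : Ideal AlgInt}

/-- **rankcard** -/
theorem rank_le_card (b : Set (IrrCharacter X)) : blockRank p b ≤ Nat.card b := by
  classical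
  unfold blockRank
  have himg : (fun χ : IrrCharacter X => pRegularPart p (χ : X → ℂ)) '' b
      = Set.range (fun χ : b => pRegularPart p ((χ : IrrCharacter X) : X → ℂ)) := by
    ext f
    constructor
    · rintro ⟨χ, hχ, rfl⟩
      exact ⟨⟨χ, hχ⟩, rfl⟩
    · rintro ⟨χ, rfl⟩
      exact ⟨χ, χ.2, rfl⟩
  rw [himg, Nat.card_eq_fintype_card]
  exact finrank_range_le_card _

end Cfsg.Agent.Lib.Helper78BFRankcard
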