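import Mathlib
import Cfsg.Agent.Lib.Helper78BFDefs
import Cfsg.Agent.Lib.Helper84Contrib
import Cfsg.Agent.Lib.Helper78BFMajor
import Cfsg.Agent.Lib.Helper20DefCard

set_option autoImplicit false
set_option linter.unusedSectionVars false
set_option linter.unusedVariables false

namespace Cfsg.Agent.Lib.Helper78BFRoot

open Cfsg
open Cfsg.Agent.Lib.Helper81Local Cfsg.Agent.Lib.Helper81Base Cfsg.Agent.Lib.Helper81BB
  Cfsg.Agent.Lib.Helper81Block Cfsg.Agent.Lib.Helper81Orth Cfsg.Agent.Lib.Helper81Orth2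
  Cfsg.Agent.Lib.Helper81Part Cfsg.Agent.Lib.Helper81Defect Cfsg.Agent.Lib.Helper81Reg
  Cfsg.Agent.Lib.Helper81Subsec Cfsg.Agent.Lib.Helper81Rank
  Cfsg.Agent.Lib.Helper84Subsec Cfsg.Agent.Lib.Helper84Subsec2 Cfsg.Agent.Lib.Helper84Contrib
  Cfsg.Agent.Lib.Helper82Quot Cfsg.Agent.Lib.Helper21Quot2
  Cfsg.Agent.Lib.Helper78BFDefs
open scoped ComplexConjugate
open Cfsg.Agent.Lib.Helper78BFMajor

variable {G : Type*} [Group G] [Fintype G] {p : ℕ} [Fact p.Prime] {M : Ideal AlgInt}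

/-- **root** (uses exists_major) -/
theorem exists_root (hM : IsPModular p M) {B : Set (IrrCharacter G)} (hB : IsPBlock M B)
    (hd : blockDefect p B = 1) :
    ∃ (H : Subgroup G) (z : H) (β : Set (IrrCharacter H)), Root p M B H β z := by
  classical
  obtain ⟨H, z, b, D, hord, hcen, hind, hdb, hD, hzD, hDb⟩ :=
    exists_major hM hB (by rw [hd]; exact one_ne_zero)
  have hcard : Nat.card D = p := by
    rw [Cfsg.Agent.Lib.Helper20DefCard.card_defectGroup hM hB hD, hd, pow_one]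
  have hle : Subgroup.zpowers (z : G) ≤ D := by
    rw [Subgroup.zpowers_le]
    exact hzD
  have heq : Subgroup.zpowers (z : G) = D := by
    apply Subgroup.eq_of_le_of_card_ge hle
    rw [hcard, Nat.card_zpowers, hord]
  refine ⟨H, z, b, ⟨hord, hcen, hind, hd, by rw [hdb, hd], ?_, ?_⟩⟩
  · rw [heq]; exact hD
  · rw [heq]; exact hDb

end Cfsg.Agent.Lib.Helper78BFRoot
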