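import Mathlib
import Cfsg.Agent.Lib.Helper78BFDefs
import Cfsg.Agent.Lib.Helper84Contrib

set_option autoImplicit false
set_option linter.unusedSectionVars false
set_option linter.unusedVariables false

namespace Cfsg.Agent.Lib.Helper78BFT1abs

open Cfsg
open Cfsg.Agent.Lib.Helper81Local Cfsg.Agent.Lib.Helper81Base Cfsg.Agent.Lib.Helper81BB
  Cfsg.Agent.Lib.Helper81Block Cfsg.Agent.Lib.Helper81Orth Cfsg.Agent.Lib.Helper81Orth2
  Cfsg.Agent.Lib.Helper81Part Cfsg.Agent.Lib.Helper81Defect Cfsg.Agent.Lib.Helper81Reg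
  Cfsg.Agent.Lib.Helper81Subsec Cfsg.Agent.Lib.Helper81Rank
  Cfsg.Agent.Lib.Helper84Subsec Cfsg.Agent.Lib.Helper84Subsec2 Cfsg.Agent.Lib.Helper84Contrib
  Cfsg.Agent.Lib.Helper82Quot Cfsg.Agent.Lib.Helper21Quot2
  Cfsg.Agent.Lib.Helper78BFDefs
open scoped ComplexConjugate

variable {p : ℕ} [Fact p.Prime]

open Finset

theorem mul_conj_root {ω : ℂ} (hω : IsPrimitiveRoot ω p) : ω * conj ω = 1 := by
  rw [Complex.mul_conj']
  have : ‖ω‖ = 1 := Complex.norm_eq_one_of_pow_eq_one hω.pow_eq_one (Fact.out : p.Prime).ne_zero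
  rw [this]; simp

theorem geom {ω : ℂ} (hω : IsPrimitiveRoot ω p) {i j : ℕ} (hi : i < p) (hj : j < p) :
    ∑ t ∈ range p, (ω ^ i * conj (ω ^ j)) ^ t = if i = j then (p : ℂ) else 0 := by
  have h1 := mul_conj_root hω
  split_ifs with hij
  · subst hij
    rw [map_pow, ← mul_pow, h1]
    simp
  · have hρp : (ω ^ i * conj (ω ^ j)) ^ p = 1 := by
      rw [mul_pow, ← map_pow, ← pow_mul, ← pow_mul, mul_comm i, mul_comm j, pow_mul, pow_mul,
        hω.pow_eq_one]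
      simp
    have hρ1 : ω ^ i * conj (ω ^ j) ≠ 1 := by
      intro h
      apply hij
      apply hω.pow_inj hi hj
      calc ω ^ i = ω ^ i * (conj ω * ω) ^ j := by rw [mul_comm (conj ω), h1]; simp
        _ = (ω ^ i * conj (ω ^ j)) * ω ^ j := by rw [mul_pow, map_pow]; ring
        _ = ω ^ j := by rw [h, one_mul]
    have := geom_sum_mul (ω ^ i * conj (ω ^ j)) p
    rw [hρp, sub_self] at this
    rcases mul_eq_zero.1 this with h | h
    · exact h
    · exact absurd (sub_eq_zero.1 h) hρ1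

theorem parseval {ω : ℂ} (hω : IsPrimitiveRoot ω p) (v : ℕ → ℂ) :
    ∑ t ∈ range p, (∑ i ∈ range p, ω ^ (i * t) * v i) * conj (∑ i ∈ range p, ω ^ (i * t) * v i)
      = p * ∑ i ∈ range p, v i * conj (v i) := by
  have h1 : ∀ t, (∑ i ∈ range p, ω ^ (i * t) * v i) * conj (∑ i ∈ range p, ω ^ (i * t) * v i)
      = ∑ i ∈ range p, ∑ j ∈ range p, v i * conj (v j) * (ω ^ i * conj (ω ^ j)) ^ t := by
    intro t
    rw [map_sum, Finset.sum_mul_sum]
    refine Finset.sum_congr rfl fun i _ => Finset.sum_congr rfl fun j _ => ?_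
    rw [map_mul, mul_pow, ← map_pow, ← pow_mul, ← pow_mul]
    ring
  simp_rw [h1]
  rw [Finset.sum_comm]
  rw [Finset.mul_sum]
  refine Finset.sum_congr rfl fun i hi => ?_
  rw [Finset.sum_comm]
  simp_rw [← Finset.mul_sum]
  rw [Finset.sum_eq_single i]
  · rw [geom hω (mem_range.1 hi) (mem_range.1 hi), if_pos rfl]; ring
  · intro j hj hji
    rw [geom hω (mem_range.1 hi) (mem_range.1 hj), if_neg (Ne.symm hji), mul_zero]
  · intro h; exact absurd hi h

theorem parseval_real {ω : ℂ} (hω : IsPrimitiveRoot ω p) (v : ℕ → ℂ) :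
    ∑ t ∈ range p, ‖∑ i ∈ range p, ω ^ (i * t) * v i‖ ^ 2 = p * ∑ i ∈ range p, ‖v i‖ ^ 2 := by
  have := parseval hω v
  simp_rw [Complex.mul_conj'] at this
  exact_mod_cast this

theorem pairs (v : ℕ → ℂ) (s : Finset ℕ) :
    ∑ i ∈ s, ∑ j ∈ s, ‖v i - v j‖ ^ 2 = 2 * (s.card * ∑ i ∈ s, ‖v i‖ ^ 2) - 2 * ‖∑ i ∈ s, v i‖ ^ 2 := by
  have h1 : ∀ i j, ((‖v i - v j‖ ^ 2 : ℝ) : ℂ) = v i * conj (v i) + v j * conj (v j)
      - v i * conj (v j) - v j * conj (v i) := by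
    intro i j
    push_cast
    rw [← Complex.mul_conj', map_sub]; ring
  have h2 : ((∑ i ∈ s, ∑ j ∈ s, ‖v i - v j‖ ^ 2 : ℝ) : ℂ) =
      ((2 * (s.card * ∑ i ∈ s, ‖v i‖ ^ 2) - 2 * ‖∑ i ∈ s, v i‖ ^ 2 : ℝ) : ℂ) := by
    push_cast
    simp_rw [← Complex.mul_conj']
    have h1' : ∀ i j, (v i - v j) * conj (v i - v j) = v i * conj (v i) + v j * conj (v j)
      - v i * conj (v j) - v j * conj (v i) := by
      intro i j
      rw [map_sub]; ring
    simp_rw [h1', Finset.sum_sub_distrib, Finset.sum_add_distrib, Finset.sum_const, map_sum,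
      Finset.sum_mul_sum]
    rw [Finset.sum_comm (f := fun i j => v j * conj (v i))]
    simp only [nsmul_eq_mul, ← Finset.mul_sum]
    ring
  exact_mod_cast h2

theorem pointwise {ω : ℂ} (hω : IsPrimitiveRoot ω p) (v : ℕ → ℂ) :
    ∑ t ∈ Ico 1 p, ‖∑ i ∈ range p, ω ^ (i * t) * v i‖ ^ 2
      = (1 / 2) * ∑ i ∈ range p, ∑ j ∈ range p, ‖v i - v j‖ ^ 2 := by
  have h1 := parseval_real hω v
  have hp : 0 < p := (Fact.out : p.Prime).pos
  rw [Finset.range_eq_Ico, Finset.sum_eq_sum_Ico_succ_bot hp] at h1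
  rw [← Finset.range_eq_Ico] at h1
  rw [pairs, Finset.card_range]
  have h0 : ∑ i ∈ range p, ω ^ (i * 0) * v i = ∑ i ∈ range p, v i := by simp
  rw [h0] at h1
  simp only [zero_add] at h1
  linarith

theorem count {α : Type*} (s : Finset ℕ) (F : ℕ → α) (D : ℕ → ℕ → ℝ) {c : ℝ} (hc0 : 0 ≤ c)
    (hD0 : ∀ i j, 0 ≤ D i j)
    (hD : ∀ i ∈ s, ∀ j ∈ s, F i = F j ∨ c ≤ D i j) {i0 j0 : ℕ} (hi0 : i0 ∈ s) (hj0 : j0 ∈ s)
    (hne : F i0 ≠ F j0) :
    2 * ((s.card : ℝ) - 1) * c ≤ ∑ i ∈ s, ∑ j ∈ s, D i j := by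
  classical
  let a : ℕ → ℝ := fun i => if F i = F i0 then 1 else 0
  have ha01 : ∀ i, a i = 0 ∨ a i = 1 := by
    intro i
    by_cases h : F i = F i0 <;> simp [a, h]
  have hle : ∀ i ∈ s, ∀ j ∈ s, c * (a i * (1 - a j) + (1 - a i) * a j) ≤ D i j := by
    intro i hi j hj
    by_cases h1 : F i = F i0 <;> by_cases h2 : F j = F i0
    · simp [a, h1, h2, hD0]
    · have : F i ≠ F j := fun h => h2 (h ▸ h1)
      have := (hD i hi j hj).resolve_left this
      simpa [a, h1, h2] using this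
    · have : F i ≠ F j := fun h => h1 (h.trans h2)
      have := (hD i hi j hj).resolve_left this
      simpa [a, h1, h2] using this
    · simp [a, h1, h2, hD0]
  have hsum : ∑ i ∈ s, ∑ j ∈ s, c * (a i * (1 - a j) + (1 - a i) * a j) ≤ ∑ i ∈ s, ∑ j ∈ s, D i j :=
    Finset.sum_le_sum fun i hi => Finset.sum_le_sum fun j hj => hle i hi j hj
  refine le_trans ?_ hsum
  obtain ⟨A, hA⟩ : ∃ A, A = ∑ i ∈ s, a i := ⟨_, rfl⟩
  have hcalc : ∑ i ∈ s, ∑ j ∈ s, c * (a i * (1 - a j) + (1 - a i) * a j)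
      = c * (2 * (A * (s.card - A))) := by
    have e1 : ∀ i, ∑ j ∈ s, c * (a i * (1 - a j) + (1 - a i) * a j)
        = c * (a i * (s.card - A) + (1 - a i) * A) := by
      intro i
      rw [← Finset.mul_sum, Finset.sum_add_distrib, ← Finset.mul_sum, ← Finset.mul_sum,
        Finset.sum_sub_distrib, ← hA]
      simp
    simp_rw [e1]
    rw [← Finset.mul_sum, Finset.sum_add_distrib, ← Finset.sum_mul, ← Finset.sum_mul,
      Finset.sum_sub_distrib, ← hA]
    simp only [Finset.sum_const, nsmul_eq_mul, mul_one]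
    ring
  rw [hcalc]
  have hA1 : 1 ≤ A := by
    rw [hA]
    have : a i0 ≤ ∑ i ∈ s, a i := Finset.single_le_sum (f := a)
      (fun i _ => by rcases ha01 i with h | h <;> rw [h] <;> norm_num) hi0
    simpa [a] using this
  have hA2 : 1 ≤ (s.card : ℝ) - A := by
    have e : (s.card : ℝ) - A = ∑ i ∈ s, (1 - a i) := by
      rw [Finset.sum_sub_distrib, ← hA]; simp
    rw [e]
    have : (1 - a j0) ≤ ∑ i ∈ s, (1 - a i) := Finset.single_le_sum (f := fun i => 1 - a i)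
      (fun i _ => by rcases ha01 i with h | h <;> rw [h] <;> norm_num) hj0
    have hj : a j0 = 0 := by simp [a, Ne.symm hne]
    rw [hj] at this
    simpa using this
  have key : (s.card : ℝ) - 1 ≤ A * (s.card - A) := by nlinarith
  nlinarith

/-- **t1abs** -/
theorem T1abs {Y : Type*} [Fintype Y] {ω : ℂ} (hω : IsPrimitiveRoot ω p) (F : ℕ → Y → ℂ)
    {c : ℝ} (hc0 : 0 ≤ c)
    (hF : ∀ i < p, ∀ j < p, F i = F j ∨ c ≤ ∑ y, ‖F i y - F j y‖ ^ 2)
    (hne : ∃ y, ∑ i ∈ Finset.range p, ω ^ i * F i y ≠ 0) :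
    ((p : ℝ) - 1) * c
      ≤ ∑ t ∈ Finset.Ico 1 p, ∑ y, ‖∑ i ∈ Finset.range p, ω ^ (i * t) * F i y‖ ^ 2 := by
  classical
  have hp : 0 < p := (Fact.out : p.Prime).pos
  have hp1 : 1 < p := (Fact.out : p.Prime).one_lt
  rw [Finset.sum_comm]
  simp_rw [pointwise hω (fun i => F i _)]
  rw [← Finset.mul_sum]
  have hswap : ∑ y, ∑ i ∈ range p, ∑ j ∈ range p, ‖F i y - F j y‖ ^ 2
      = ∑ i ∈ range p, ∑ j ∈ range p, ∑ y, ‖F i y - F j y‖ ^ 2 := by
    rw [Finset.sum_comm]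
    refine Finset.sum_congr rfl fun i _ => ?_
    rw [Finset.sum_comm]
  rw [hswap]
  -- not all equal
  have hex : ∃ j0 < p, F 0 ≠ F j0 := by
    by_contra hcon
    push Not at hcon
    obtain ⟨y, hy⟩ := hne
    apply hy
    have : ∑ i ∈ range p, ω ^ i * F i y = (∑ i ∈ range p, ω ^ i) * F 0 y := by
      rw [Finset.sum_mul]
      refine Finset.sum_congr rfl fun i hi => ?_
      rw [hcon i (mem_range.1 hi)]
    rw [this, hω.geom_sum_eq_zero hp1, zero_mul]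
  obtain ⟨j0, hj0, hne0⟩ := hex
  have := count (range p) F (fun i j => ∑ y, ‖F i y - F j y‖ ^ 2) hc0
    (fun i j => Finset.sum_nonneg fun y _ => by positivity)
    (fun i hi j hj => hF i (mem_range.1 hi) j (mem_range.1 hj)) (mem_range.2 hp) (mem_range.2 hj0) hne0
  rw [Finset.card_range] at this
  linarith

end Cfsg.Agent.Lib.Helper78BFT1abs
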