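import Mathlib
import Cfsg.Prelude.Def_Blocks
import Cfsg.Agent.Lib.Helper81Orth2
import Cfsg.Agent.S0906
import Cfsg.Agent.S0908
import Cfsg.Agent.S0911

set_option autoImplicit false

/-! Defects of classes versus defects of blocks, and counting blocks by classes. -/

namespace Cfsg.Agent.Lib.Helper78BlockCount

open Cfsg
open Cfsg.Agent.Lib.Helper81Local Cfsg.Agent.Lib.Helper81Base Cfsg.Agent.Lib.Helper81BB
  Cfsg.Agent.Lib.Helper81Block Cfsg.Agent.Lib.Helper81Orth
open scoped ComplexConjugate

variable {G : Type*} [Group G] [Fintype G] {p : ℕ} [Fact p.Prime] {M : Ideal AlgInt}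

/-- if the idempotent coefficient at `h` is a unit, the class of `h` has defect at most `d(B)` -/
theorem defect_le_of_blockCoeff (hM : IsPModular p M) {B : Set (IrrCharacter G)}
    (hB : IsPBlock M B) {h : G} (hh : ¬ MemLocalIdeal M (blockCoeff B h)) :
    (Nat.card (Subgroup.centralizer ({h} : Set G))).factorization p ≤ blockDefect p B := by
  have := hM.2.1.isPrime
  have hp : p.Prime := Fact.out
  obtain ⟨g, hg⟩ := Cfsg.Agent.S0906.result p M hM B hB
  obtain ⟨D⟩ : Nonempty (Sylow p (Subgroup.centralizer ({g} : Set G))) := inferInstance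
  have hD := Cfsg.Agent.S0908.result p M hM B hB _ ⟨g, hg, D, rfl⟩
  obtain ⟨x, Q, hQ⟩ := (Cfsg.Agent.S0911.result p M hM B hB g hg D h).1 (osima hB h) hh
  have h1 := Subgroup.card_le_of_le hQ
  rw [Subgroup.card_map_of_injective (Subgroup.subtype_injective _), Sylow.card_eq_multiplicity,
    Subgroup.card_map_of_injective (MulAut.conj x).injective, hD] at h1
  exact (Nat.pow_le_pow_iff_right hp.one_lt).1 h1

/-- if the central character at `h` is a unit, the class of `h` has defect at least `d(B)` -/
theorem defect_le_of_centralChar (hM : IsPModular p M) {B : Set (IrrCharacter G)}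
    (hB : IsPBlock M B) {χ : IrrCharacter G} (hχ : χ ∈ B) {h : G}
    (hh : ¬ MemLocalIdeal M (centralChar (χ : G → ℂ) h)) :
    blockDefect p B ≤ (Nat.card (Subgroup.centralizer ({h} : Set G))).factorization p := by
  have := hM.2.1.isPrime
  have hp : p.Prime := Fact.out
  obtain ⟨g, hg⟩ := Cfsg.Agent.S0906.result p M hM B hB
  obtain ⟨D⟩ : Nonempty (Sylow p (Subgroup.centralizer ({g} : Set G))) := inferInstance
  have hD := Cfsg.Agent.S0908.result p M hM B hB _ ⟨g, hg, D, rfl⟩
  obtain ⟨x, Q, hQ⟩ := (Cfsg.Agent.S0911.result p M hM B hB g hg D h).2 ⟨χ, hχ, hh⟩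
  have h1 := Subgroup.card_le_of_le hQ
  rw [Subgroup.card_map_of_injective (MulAut.conj x).injective, hD,
    Subgroup.card_map_of_injective (Subgroup.subtype_injective _), Sylow.card_eq_multiplicity] at h1
  exact (Nat.pow_le_pow_iff_right hp.one_lt).1 h1

omit [Fact p.Prime] in
/-- generic counting of blocks by classes -/
theorem card_blocks_le (hM : IsPModular p M) (PB : Set (IrrCharacter G) → Prop)
    (QC : ConjClasses G → Prop)
    (h : ∀ B B' : Set (IrrCharacter G), IsPBlock M B → PB B → IsPBlock M B' → PB B' →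
      ∀ χ ∈ B', ∀ C : ConjClasses G, ¬ QC C →
        MemLocalIdeal M (blockCoeff B (Quotient.out C) * centralChar (χ : G → ℂ) (Quotient.out C))) :
    Nat.card {B : Set (IrrCharacter G) // IsPBlock M B ∧ PB B} ≤ Nat.card {C : ConjClasses G // QC C} := by
  classical
  have := hM.2.1.isPrime
  have := Fintype.ofFinite {B : Set (IrrCharacter G) // IsPBlock M B ∧ PB B}
  have := Fintype.ofFinite {C : ConjClasses G // QC C}
  have hrep : ∀ B : {B : Set (IrrCharacter G) // IsPBlock M B ∧ PB B}, ∃ χ, χ ∈ B.1 :=
    fun B => isPBlock_nonempty B.2.1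
  choose rep hrepm using hrep
  let a : {B : Set (IrrCharacter G) // IsPBlock M B ∧ PB B} → ConjClasses G → Rt M :=
    fun B C => ⟨blockCoeff B.1 (Quotient.out C), mem_Rt.2 (osima B.2.1 _)⟩
  let w : ConjClasses G → {B : Set (IrrCharacter G) // IsPBlock M B ∧ PB B} → Rt M :=
    fun C B => ⟨centralChar (rep B : G → ℂ) (Quotient.out C),
      mem_Rt.2 (memLocalRing_of_isIntegral (irr_omega_integral _ _))⟩
  let A : Matrix {B : Set (IrrCharacter G) // IsPBlock M B ∧ PB B} {C : ConjClasses G // QC C}
      (IsLocalRing.ResidueField (Rt M)) := fun B C => IsLocalRing.residue (Rt M) (a B C.1)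
  let W : Matrix {C : ConjClasses G // QC C} {B : Set (IrrCharacter G) // IsPBlock M B ∧ PB B}
      (IsLocalRing.ResidueField (Rt M)) := fun C B => IsLocalRing.residue (Rt M) (w C.1 B)
  have hAW : A * W = 1 := by
    ext B B'
    rw [Matrix.mul_apply]
    have h1 : ∑ C : ConjClasses G, a B C * w C B' = if B = B' then 1 else 0 := by
      apply Subtype.ext
      have e : (((∑ C : ConjClasses G, a B C * w C B' : Rt M)) : ℂ)
          = ∑ C : ConjClasses G, blockCoeff B.1 (Quotient.out C)
            * centralChar (rep B' : G → ℂ) (Quotient.out C) := by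
        push_cast; rfl
      rw [e, ← om_eq_sum_classes (blockCoeff_classfn B.1), om_blockCoeff]
      by_cases hBB : B = B'
      · rw [if_pos hBB, if_pos (by rw [hBB]; exact hrepm B')]; rfl
      · rw [if_neg hBB, if_neg]
        · rfl
        · intro hmem
          apply hBB
          apply Subtype.ext
          rw [isPBlock_eq_blockOf B.2.1 hmem, isPBlock_eq_blockOf B'.2.1 (hrepm B')]
    have h2 := congrArg (IsLocalRing.residue (Rt M)) h1
    rw [map_sum] at h2
    have h3 : ∑ C : ConjClasses G, IsLocalRing.residue (Rt M) (a B C * w C B')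
        = ∑ C : {C : ConjClasses G // QC C}, IsLocalRing.residue (Rt M) (a B C.1 * w C.1 B') := by
      rw [← Finset.sum_subtype (Finset.univ.filter QC) (by intro x; simp)
        (fun C : ConjClasses G => IsLocalRing.residue (Rt M) (a B C * w C B'))]
      rw [← Finset.sum_filter_add_sum_filter_not Finset.univ QC]
      rw [add_eq_left]
      apply Finset.sum_eq_zero
      intro C hC
      simp only [Finset.mem_filter, Finset.mem_univ, true_and] at hC
      rw [IsLocalRing.residue_eq_zero_iff, mem_maximalIdeal_Rt_iff]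
      exact h B.1 B'.1 B.2.1 B.2.2 B'.2.1 B'.2.2 (rep B') (hrepm B') C hC
    rw [h3] at h2
    have h4 : ∑ C : {C : ConjClasses G // QC C}, A B C * W C B'
        = ∑ C : {C : ConjClasses G // QC C}, IsLocalRing.residue (Rt M) (a B C.1 * w C.1 B') := by
      apply Finset.sum_congr rfl
      intro C _
      rw [map_mul]
    rw [h4, h2, Matrix.one_apply]
    split_ifs <;> simp
  have h1 := Matrix.rank_mul_le_left A W
  rw [hAW, Matrix.rank_one] at h1
  have h2 := Matrix.rank_le_card_width A
  rw [Nat.card_eq_fintype_card, Nat.card_eq_fintype_card]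
  exact h1.trans h2

end Cfsg.Agent.Lib.Helper78BlockCount
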