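import Mathlib
import Cfsg.Agent.Lib.Helper83Char

set_option autoImplicit false

namespace Cfsg.Agent.Lib.Helper78Jordan

open scoped ComplexConjugate

section CStar

variable {A : Type*} [CStarAlgebra A] [Nontrivial A]

/-- the real number `√3 / 2` -/
noncomputable def mu : ℝ := Real.sqrt 3 / 2

theorem mu_sq : mu * mu = 3 / 4 := by
  unfold mu
  have : Real.sqrt 3 * Real.sqrt 3 = 3 := Real.mul_self_sqrt (by norm_num)
  nlinarith

theorem mu_pos : 0 < mu := by
  unfold mu; positivity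

theorem mu_lt_one : mu < 1 := by
  have := mu_sq
  have := mu_pos
  nlinarith

/-- Lemma A -/
theorem norm_sub_mu_lt {u : A} (hu : u ∈ unitary A) (h : ‖1 - u‖ * ‖1 - u‖ < 2 - 2 * mu) :
    ‖u - (mu : ℂ) • (1 : A)‖ < 1 / 2 := by
  have h1 : star u * u = 1 := (Unitary.mem_iff.1 hu).1
  have key : star (u - (mu : ℂ) • (1 : A)) * (u - (mu : ℂ) • (1 : A))
      = (((1 - mu) * (1 - mu) : ℝ) : ℂ) • (1 : A) + (mu : ℂ) • (star (1 - u) * (1 - u)) := by
    simp only [star_sub, star_smul, star_one, Complex.star_def, Complex.conj_ofReal, sub_mul, mul_sub,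
      smul_mul_assoc, mul_smul_comm, one_mul, mul_one, h1, smul_sub, smul_smul]
    push_cast
    module
  have h2 : ‖u - (mu : ℂ) • (1 : A)‖ * ‖u - (mu : ℂ) • (1 : A)‖
      ≤ (1 - mu) * (1 - mu) + mu * (‖1 - u‖ * ‖1 - u‖) := by
    rw [← CStarRing.norm_star_mul_self, key]
    refine (norm_add_le _ _).trans ?_
    rw [norm_smul, norm_smul, norm_one, CStarRing.norm_star_mul_self, mul_one, Complex.norm_real,
      Complex.norm_real, Real.norm_of_nonneg (mul_self_nonneg _), Real.norm_of_nonneg mu_pos.le]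
  have h3 : ‖u - (mu : ℂ) • (1 : A)‖ * ‖u - (mu : ℂ) • (1 : A)‖ < 1 / 2 * (1 / 2) := by
    have := mu_sq
    have := mu_pos
    nlinarith
  exact lt_of_mul_self_lt_mul_self₀ (by norm_num) h3

/-- Lemma B -/
theorem norm_comm_le (x y : A) (c : ℂ) :
    ‖y * x - x * y‖ ≤ 2 * ‖y - c • (1 : A)‖ * ‖x - 1‖ := by
  have : y * x - x * y = (y - c • (1 : A)) * (x - 1) - (x - 1) * (y - c • (1 : A)) := by
    simp only [sub_mul, mul_sub, smul_mul_assoc, mul_smul_comm, one_mul, mul_one, smul_sub]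
    abel
  rw [this]
  refine (norm_sub_le _ _).trans ?_
  have h1 := norm_mul_le (y - c • (1 : A)) (x - 1)
  have h2 := norm_mul_le (x - 1) (y - c • (1 : A))
  nlinarith

theorem norm_comm_le' (x y : A) (c : ℂ) :
    ‖y * x - x * y‖ ≤ 2 * ‖y - c • (1 : A)‖ * ‖x‖ := by
  have : y * x - x * y = (y - c • (1 : A)) * x - x * (y - c • (1 : A)) := by
    simp only [sub_mul, mul_sub, smul_mul_assoc, mul_smul_comm, one_mul, mul_one]
    abel
  rw [this]
  refine (norm_sub_le _ _).trans ?_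
  have h1 := norm_mul_le (y - c • (1 : A)) x
  have h2 := norm_mul_le x (y - c • (1 : A))
  nlinarith

/-- Lemma C: an element of finite order all of whose powers are within `< 1` of `1` is `1`. -/
theorem eq_one_of_pow_close {z : A} {m : ℕ} (hm : 0 < m) (hz : z ^ m = 1)
    (h : ∀ k : ℕ, ‖1 - z ^ k‖ < 1) : z = 1 := by
  have hmC : (m : ℂ) ≠ 0 := by exact_mod_cast hm.ne'
  set N : A := ∑ k ∈ Finset.range m, z ^ k with hN
  have h1 : N * (z - 1) = 0 := by rw [hN, geom_sum_mul, hz, sub_self]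
  have h2 : ‖(1 : A) - ((m : ℂ)⁻¹) • N‖ < 1 := by
    have e : (1 : A) - ((m : ℂ)⁻¹) • N = ((m : ℂ)⁻¹) • ∑ k ∈ Finset.range m, (1 - z ^ k) := by
      rw [Finset.sum_sub_distrib, Finset.sum_const, Finset.card_range, smul_sub, ← hN]
      congr 1
      rw [← Nat.cast_smul_eq_nsmul ℂ, smul_smul, inv_mul_cancel₀ hmC, one_smul]
    rw [e, norm_smul, norm_inv, Complex.norm_natCast]
    have h3 : ‖∑ k ∈ Finset.range m, (1 - z ^ k)‖ < m := by
      refine lt_of_le_of_lt (norm_sum_le _ _) ?_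
      have : ∑ k ∈ Finset.range m, ‖1 - z ^ k‖ < ∑ k ∈ Finset.range m, (1 : ℝ) :=
        Finset.sum_lt_sum_of_nonempty (Finset.nonempty_range_iff.2 hm.ne') (fun k _ => h k)
      simpa using this
    have hm' : (0 : ℝ) < m := by exact_mod_cast hm
    rw [inv_mul_lt_iff₀ hm', mul_one]
    exact h3
  have h4 : IsUnit (((m : ℂ)⁻¹) • N) := by
    have := isUnit_one_sub_of_norm_lt_one h2
    rwa [sub_sub_cancel] at this
  have h5 : (((m : ℂ)⁻¹) • N) * (z - 1) = 0 := by rw [smul_mul_assoc, h1, smul_zero]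
  have h6 : z - 1 = 0 := (h4.mul_right_eq_zero).1 h5
  exact sub_eq_zero.1 h6

end CStar

section Grp

variable {A : Type*} [CStarAlgebra A] [Nontrivial A] {G : Type*} [Group G]
  (U : G →* unitary A)

/-- distance of `U g` from the identity -/
noncomputable def d (g : G) : ℝ := ‖1 - (U g : A)‖

/-- the elements close to the identity -/
def S : Set G := {g | d U g * d U g < 2 - 2 * mu}

theorem coe_mul' (g h : G) : ((U (g * h) : unitary A) : A) = (U g : A) * (U h : A) := by
  rw [map_mul]; rfl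

theorem coe_one' : ((U 1 : unitary A) : A) = 1 := by
  rw [map_one]; rfl

theorem coe_pow' (g : G) (k : ℕ) : ((U (g ^ k) : unitary A) : A) = (U g : A) ^ k := by
  rw [map_pow]; rfl

theorem d_conj (g x : G) : d U (g * x * g⁻¹) = d U x := by
  unfold d
  have : (1 : A) - (U (g * x * g⁻¹) : A) = (U g : A) * (1 - (U x : A)) * (U g⁻¹ : A) := by
    rw [mul_sub, sub_mul, mul_one, ← coe_mul', ← coe_mul', ← coe_mul', mul_inv_cancel, coe_one']
  rw [this, CStarRing.norm_mul_coe_unitary, CStarRing.norm_coe_unitary_mul]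

theorem d_eq (w z : G) : d U z = ‖(U w : A) - (U (w * z) : A)‖ := by
  unfold d
  rw [← CStarRing.norm_coe_unitary_mul (U w) (1 - (U z : A)), mul_sub, mul_one, ← coe_mul']

variable [Finite G]

theorem comm_of_mem_S (hU : Function.Injective U) :
    ∀ x ∈ S U, ∀ y ∈ S U, x * y = y * x := by
  by_contra hcon
  push Not at hcon
  obtain ⟨x₀, hx₀, y₀, hy₀, hxy₀⟩ := hcon
  let Bad := {p : G × G // p.1 ∈ S U ∧ p.2 ∈ S U ∧ p.1 * p.2 ≠ p.2 * p.1}
  have : Nonempty Bad := ⟨⟨(x₀, y₀), hx₀, hy₀, hxy₀⟩⟩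
  obtain ⟨⟨⟨x, y⟩, hx, hy, hxy⟩, hmin⟩ := Finite.exists_min (fun p : Bad => d U p.1.1)
  simp only at hx hy hxy hmin
  obtain ⟨z, hz⟩ : ∃ z, z = x⁻¹ * y⁻¹ * x * y := ⟨_, rfl⟩
  have hyμ : ‖(U y : A) - (mu : ℂ) • (1 : A)‖ < 1 / 2 := norm_sub_mu_lt (U y).2 hy
  have hdx : 0 < d U x := by
    unfold d
    rw [norm_pos_iff, sub_ne_zero]
    intro h
    have h1 : U x = 1 := by ext; exact h.symm
    have h2 : x = 1 := hU (h1.trans (map_one U).symm)
    apply hxy; rw [h2]; simp
  have hdz : d U z < d U x := by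
    rw [d_eq U (y * x) z]
    have e : y * x * z = x * y := by rw [hz]; group
    rw [e, coe_mul', coe_mul']
    refine lt_of_le_of_lt (norm_comm_le _ _ (mu : ℂ)) ?_
    have : ‖(U x : A) - 1‖ = d U x := by unfold d; rw [norm_sub_rev]
    rw [this]
    nlinarith
  have hdz0 : 0 ≤ d U z := norm_nonneg _
  have hzS : z ∈ S U := by
    have hx' : d U x * d U x < 2 - 2 * mu := hx
    show d U z * d U z < 2 - 2 * mu
    nlinarith
  have hzx : z * x = x * z := by
    by_contra h
    have := hmin ⟨(z, x), hzS, hx, h⟩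
    simp only at this
    linarith
  have hpow : ∀ k : ℕ, y * x ^ k * z ^ k = x ^ k * y := by
    intro k
    have h1 : y⁻¹ * x * y = x * z := by rw [hz]; group
    have h2 : (x * z) ^ k = x ^ k * z ^ k := (Commute.mul_pow (show Commute x z from hzx.symm) k)
    have h3 : (y⁻¹ * x * y) ^ k = y⁻¹ * x ^ k * y := by
      have := conj_pow (a := y⁻¹) (b := x) (i := k)
      simpa using this
    rw [mul_assoc, ← h2, ← h1, h3]; group
  have hclose : ∀ k : ℕ, ‖1 - (U z : A) ^ k‖ < 1 := by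
    intro k
    have h1 : ‖1 - (U z : A) ^ k‖ = d U (z ^ k) := by unfold d; rw [coe_pow']
    rw [h1, d_eq U (y * x ^ k) (z ^ k), hpow, coe_mul', coe_mul']
    refine lt_of_le_of_lt (norm_comm_le' _ _ (mu : ℂ)) ?_
    rw [CStarRing.norm_coe_unitary]
    linarith
  have h1 : (U z : A) = 1 := eq_one_of_pow_close (orderOf_pos z)
    (by rw [← coe_pow', pow_orderOf_eq_one, coe_one']) hclose
  have h2 : U z = 1 := by ext; exact h1
  have h3 : z = 1 := hU (h2.trans (map_one U).symm)
  apply hxy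
  rw [hz] at h3
  have := congrArg (fun w => y * x * w) h3
  simp only [mul_one] at this
  rw [← this]; group

/-- the abelian normal subgroup -/
def AA : Subgroup G := Subgroup.closure (S U)

theorem AA_comm (hU : Function.Injective U) : ∀ x ∈ AA U, ∀ y ∈ AA U, x * y = y * x := by
  intro x hx y hy
  have hc := Subgroup.isMulCommutative_closure (comm_of_mem_S U hU)
  have := hc.is_comm.comm (⟨x, hx⟩ : Subgroup.closure (S U)) ⟨y, hy⟩
  exact congrArg Subtype.val this

omit [Finite G] in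
theorem AA_normal : (AA U).Normal := by
  rw [← Subgroup.normalizer_eq_top_iff, eq_top_iff]
  refine le_trans ?_ (Subgroup.normalizer_le_normalizer_closure (S U))
  intro g _
  rw [Subgroup.mem_set_normalizer_iff]
  intro h
  show d U h * d U h < _ ↔ d U (g * h * g⁻¹) * d U (g * h * g⁻¹) < _
  rw [d_conj]

end Grp

section Spec

variable {A : Type*} [CStarAlgebra A] [Nontrivial A]

/-- Lemma N -/
theorem exists_spectrum_norm_eq {u : A} (hu : u ∈ unitary A) :
    ∃ l ∈ spectrum ℂ u, ‖1 - u‖ = ‖1 - l‖ := by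
  have h1 : star u * u = 1 := (Unitary.mem_iff.1 hu).1
  have h2 : u * star u = 1 := (Unitary.mem_iff.1 hu).2
  have hn : IsStarNormal (1 - u) := ⟨by
    show star (1 - u) * (1 - u) = (1 - u) * star (1 - u)
    simp only [star_sub, star_one, sub_mul, mul_sub, one_mul, mul_one, h1, h2]
    abel⟩
  obtain ⟨k, hk, hk'⟩ := spectrum.exists_nnnorm_eq_spectralRadius (1 - u)
  rw [IsStarNormal.spectralRadius_eq_nnnorm] at hk'
  have hk2 : ‖k‖ = ‖1 - u‖ := by
    have : ‖k‖₊ = ‖1 - u‖₊ := by exact_mod_cast hk'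
    exact congrArg NNReal.toReal this
  have hk3 : k ∈ spectrum ℂ (algebraMap ℂ A 1 - u) := by rwa [map_one]
  rw [← spectrum.singleton_sub_eq, Set.singleton_sub] at hk3
  obtain ⟨l, hl, rfl⟩ := hk3
  exact ⟨l, hl, hk2.symm⟩

end Spec

section Joint

open Module

theorem exists_joint_eigenbasis {V : Type*} [AddCommGroup V] [Module ℂ V] [FiniteDimensional ℂ V]
    {ι : Type*} (f : ι → Module.End ℂ V) (hcomm : ∀ i j, Commute (f i) (f j))
    (hfin : ∀ i, ∃ n, 0 < n ∧ f i ^ n = 1) :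
    ∃ (b : Basis (Fin (finrank ℂ V)) ℂ V) (μ : Fin (finrank ℂ V) → ι → ℂ),
      ∀ k i, f i (b k) = μ k i • b k := by
  classical
  have hss : ∀ i, (f i).IsSemisimple := by
    intro i
    obtain ⟨n, hn, hf⟩ := hfin i
    apply Module.End.isSemisimple_of_squarefree_aeval_eq_zero (p := Polynomial.X ^ n - 1)
    · apply Polynomial.Separable.squarefree
      exact Polynomial.separable_X_pow_sub_C (1 : ℂ) (by exact_mod_cast hn.ne') one_ne_zero
    · simp [hf]
  let W : (ι → ℂ) → Submodule ℂ V := fun χ => ⨅ i, (f i).maxGenEigenspace (χ i)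
  have htop : ⨆ χ, W χ = ⊤ :=
    Module.End.iSup_iInf_maxGenEigenspace_eq_top_of_iSup_maxGenEigenspace_eq_top_of_commute f
      (fun i j _ => hcomm i j) (fun i => Module.End.iSup_maxGenEigenspace_eq_top (f i))
  have hind : iSupIndep W :=
    Module.End.independent_iInf_maxGenEigenspace_of_forall_mapsTo f
      (fun i j φ => Module.End.mapsTo_maxGenEigenspace_of_comm (hcomm j i) φ)
  have hds := DirectSum.isInternal_submodule_of_iSupIndep_of_iSup_eq_top hind htop
  let b0 := hds.collectedBasis (fun χ => Module.Free.chooseBasis ℂ (W χ))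
  have : Finite (Σ χ : ι → ℂ, Module.Free.ChooseBasisIndex ℂ (W χ)) :=
    Module.Finite.finite_basis b0
  have := Fintype.ofFinite (Σ χ : ι → ℂ, Module.Free.ChooseBasisIndex ℂ (W χ))
  have hcard : Fintype.card (Σ χ : ι → ℂ, Module.Free.ChooseBasisIndex ℂ (W χ))
      = finrank ℂ V := (Module.finrank_eq_card_basis b0).symm
  let e := Fintype.equivFinOfCardEq hcard
  refine ⟨b0.reindex e, fun k => (e.symm k).1, ?_⟩
  intro k i
  have hmem : b0 (e.symm k) ∈ W (e.symm k).1 := hds.collectedBasis_mem _ _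
  have hmem2 : b0 (e.symm k) ∈ (f i).maxGenEigenspace ((e.symm k).1 i) :=
    (Submodule.mem_iInf _).1 hmem i
  rw [(Module.End.isFinitelySemisimple_iff_isSemisimple.mpr (hss i)).maxGenEigenspace_eq_eigenspace]
    at hmem2
  simpa [Basis.reindex_apply] using Module.End.mem_eigenspace_iff.mp hmem2

/-- an eigenvalue of an operator that is diagonal in the basis `b` is one of the diagonal entries -/
theorem eigenvalue_mem_of_basis {V : Type*} [AddCommGroup V] [Module ℂ V] {κ : Type*} [Fintype κ]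
    (T : Module.End ℂ V) (b : Basis κ ℂ V) (μ : κ → ℂ) (h : ∀ k, T (b k) = μ k • b k)
    {l : ℂ} (hl : T.HasEigenvalue l) : ∃ k, μ k = l := by
  obtain ⟨v, hv⟩ := hl.exists_hasEigenvector
  have hTv : T v = l • v := hv.apply_eq_smul
  have hv0 : v ≠ 0 := hv.2
  by_contra hcon
  push Not at hcon
  apply hv0
  have h1 : ∀ k, b.repr v k = 0 := by
    intro k
    have e1 : b.repr (T v) k = μ k * b.repr v k := by
      conv_lhs => rw [← b.sum_repr v, map_sum, map_sum]
      simp only [map_smul, h, Finsupp.coe_finsetSum, Finsupp.coe_smul, Basis.repr_self,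
        Finset.sum_apply, Pi.smul_apply, smul_eq_mul]
      rw [Finset.sum_eq_single k]
      · rw [Finsupp.single_eq_same]; ring
      · intro x _ hx
        rw [Finsupp.single_eq_of_ne (Ne.symm hx)]; ring
      · intro hk; exact absurd (Finset.mem_univ k) hk
    rw [hTv, map_smul, Finsupp.smul_apply, smul_eq_mul] at e1
    have e2 : (l - μ k) * b.repr v k = 0 := by rw [sub_mul, e1, sub_self]
    rcases mul_eq_zero.1 e2 with h3 | h3
    · exact absurd (sub_eq_zero.1 h3).symm (hcon k)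
    · exact h3
  have : b.repr v = 0 := by ext k; simp [h1 k]
  exact (LinearEquiv.map_eq_zero_iff _).1 this

end Joint

section Arc

open Real

theorem arc_lt (z : ℂ) : ⌊(π - Complex.arg z) * 6 / π⌋₊ < 12 := by
  have h1 := Complex.neg_pi_lt_arg z
  have h2 := Complex.arg_le_pi z
  have hpi := Real.pi_pos
  rw [Nat.floor_lt (by apply div_nonneg _ hpi.le; nlinarith)]
  rw [div_lt_iff₀ hpi]
  push_cast
  nlinarith

/-- index of the arc of length `π / 6` containing `z` -/
noncomputable def arcIdx (z : ℂ) : Fin 12 := ⟨⌊(π - Complex.arg z) * 6 / π⌋₊, arc_lt z⟩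

theorem norm_lt_of_arcIdx_eq {z w : ℂ} (hz : ‖z‖ = 1) (hw : ‖w‖ = 1) (h : arcIdx z = arcIdx w) :
    ‖1 - z⁻¹ * w‖ * ‖1 - z⁻¹ * w‖ < 2 - 2 * mu := by
  have hpi := Real.pi_pos
  have hz0 : z ≠ 0 := by intro h0; rw [h0] at hz; simp at hz
  have hw0 : w ≠ 0 := by intro h0; rw [h0] at hw; simp at hw
  have h' : ⌊(π - Complex.arg z) * 6 / π⌋₊ = ⌊(π - Complex.arg w) * 6 / π⌋₊ := congrArg Fin.val h
  obtain ⟨a, ha⟩ : ∃ a, a = Complex.arg z := ⟨_, rfl⟩
  obtain ⟨b, hb⟩ : ∃ b, b = Complex.arg w := ⟨_, rfl⟩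
  have ha2 : a ≤ π := ha ▸ Complex.arg_le_pi z
  have hb2 : b ≤ π := hb ▸ Complex.arg_le_pi w
  rw [← ha, ← hb] at h'
  have hx0 : 0 ≤ (π - a) * 6 / π := by apply div_nonneg _ hpi.le; nlinarith
  have hy0 : 0 ≤ (π - b) * 6 / π := by apply div_nonneg _ hpi.le; nlinarith
  have e1 := Nat.floor_le hx0
  have e2 := Nat.lt_floor_add_one ((π - a) * 6 / π)
  have e3 := Nat.floor_le hy0
  have e4 := Nat.lt_floor_add_one ((π - b) * 6 / π)
  rw [h'] at e1 e2
  have e5 : (π - a) * 6 / π - (π - b) * 6 / π < 1 := by linarith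
  have e6 : (π - b) * 6 / π - (π - a) * 6 / π < 1 := by linarith
  rw [← sub_div, div_lt_iff₀ hpi] at e5 e6
  have hab : |a - b| < π / 6 := by
    rw [abs_lt]; constructor <;> linarith
  have hcos : mu < Real.cos (a - b) := by
    rw [← Real.cos_abs]
    have := Real.cos_lt_cos_of_nonneg_of_le_pi (abs_nonneg (a - b)) (by linarith) hab
    rw [Real.cos_pi_div_six] at this
    exact this
  have c1 : Real.cos a = z.re := by rw [ha, Complex.cos_arg hz0, hz, div_one]
  have s1 : Real.sin a = z.im := by rw [ha, Complex.sin_arg, hz, div_one]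
  have c2 : Real.cos b = w.re := by rw [hb, Complex.cos_arg hw0, hw, div_one]
  have s2 : Real.sin b = w.im := by rw [hb, Complex.sin_arg, hw, div_one]
  rw [Real.cos_sub, c1, c2, s1, s2] at hcos
  have n1 : z.re * z.re + z.im * z.im = 1 := by
    have := Complex.norm_mul_self_eq_normSq z
    rw [hz, Complex.normSq_apply] at this; linarith
  have n2 : w.re * w.re + w.im * w.im = 1 := by
    have := Complex.norm_mul_self_eq_normSq w
    rw [hw, Complex.normSq_apply] at this; linarith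
  have e : ‖1 - z⁻¹ * w‖ = ‖z - w‖ := by
    have : 1 - z⁻¹ * w = z⁻¹ * (z - w) := by field_simp
    rw [this, norm_mul, norm_inv, hz, inv_one, one_mul]
  rw [e, Complex.norm_mul_self_eq_normSq, Complex.normSq_apply, Complex.sub_re, Complex.sub_im]
  nlinarith

end Arc

section Asm

open scoped Matrix.Norms.L2Operator
open Module

variable {G : Type*} [Group G] [Finite G] {m : ℕ} [NeZero m]

theorem index_le (U : G →* unitary (Matrix (Fin m) (Fin m) ℂ)) (H : Subgroup G)
    (hH : ∀ x ∈ H, ∀ y ∈ H, x * y = y * x) : ((AA U).subgroupOf H).index ≤ 12 ^ m := by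
  classical
  let f : H → Module.End ℂ (Fin m → ℂ) := fun h => Matrix.toLin' (U h : Matrix (Fin m) (Fin m) ℂ)
  have fmul : ∀ h h' : H, f (h * h') = f h * f h' := by
    intro h h'
    show Matrix.toLin' (U ((h * h' : H) : G) : Matrix (Fin m) (Fin m) ℂ) = _
    rw [Subgroup.coe_mul, coe_mul', Matrix.toLin'_mul]; rfl
  have fone : f 1 = 1 := by
    show Matrix.toLin' (U ((1 : H) : G) : Matrix (Fin m) (Fin m) ℂ) = _
    rw [Subgroup.coe_one, coe_one', Matrix.toLin'_one]; rfl
  have fpow : ∀ (h : H) (n : ℕ), f (h ^ n) = f h ^ n := by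
    intro h n
    induction n with
    | zero => simp [fone]
    | succ n ih => rw [pow_succ, pow_succ, fmul, ih]
  have hcomm : ∀ i j, Commute (f i) (f j) := by
    intro i j
    show f i * f j = f j * f i
    rw [← fmul, ← fmul]
    congr 1
    exact Subtype.ext (hH _ i.2 _ j.2)
  have hfin : ∀ i, ∃ n, 0 < n ∧ f i ^ n = 1 := by
    intro i
    exact ⟨orderOf i, orderOf_pos i, by rw [← fpow, pow_orderOf_eq_one, fone]⟩
  obtain ⟨b, μ, hb⟩ := exists_joint_eigenbasis f hcomm hfin
  have μmul : ∀ k (h h' : H), μ k (h * h') = μ k h * μ k h' := by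
    intro k h h'
    have h1 := hb k (h * h')
    rw [fmul, Module.End.mul_apply, hb, map_smul, hb, smul_smul] at h1
    have := smul_left_injective ℂ (b.ne_zero k) h1
    rw [← this, mul_comm]
  have μone : ∀ k, μ k 1 = 1 := by
    intro k
    have h1 := hb k 1
    rw [fone, Module.End.one_apply] at h1
    have : (1 : ℂ) • b k = μ k 1 • b k := by rw [one_smul]; exact h1
    exact (smul_left_injective ℂ (b.ne_zero k) this).symm
  have μpow : ∀ k (h : H) (n : ℕ), μ k (h ^ n) = μ k h ^ n := by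
    intro k h n
    induction n with
    | zero => simp [μone]
    | succ n ih => rw [pow_succ, pow_succ, μmul, ih]
  have μnorm : ∀ k (h : H), ‖μ k h‖ = 1 := by
    intro k h
    apply Complex.norm_eq_one_of_pow_eq_one (n := orderOf h) _ (orderOf_pos h).ne'
    rw [← μpow, pow_orderOf_eq_one, μone]
  have μinv : ∀ k (h : H), μ k h⁻¹ = (μ k h)⁻¹ := by
    intro k h
    have : μ k h⁻¹ * μ k h = 1 := by rw [← μmul, inv_mul_cancel, μone]
    exact eq_inv_of_mul_eq_one_left this
  let β : H → (Fin (finrank ℂ (Fin m → ℂ)) → Fin 12) := fun h k => arcIdx (μ k h)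
  have key : ∀ h h' : H, β h = β h' → h⁻¹ * h' ∈ (AA U).subgroupOf H := by
    intro h h' hβ
    rw [Subgroup.mem_subgroupOf]
    apply Subgroup.subset_closure
    show d U _ * d U _ < _
    obtain ⟨l, hl, hl'⟩ := exists_spectrum_norm_eq (U ((h⁻¹ * h' : H) : G)).2
    have hl2 : (f (h⁻¹ * h')).HasEigenvalue l := by
      rw [Module.End.hasEigenvalue_iff_mem_spectrum]
      show l ∈ spectrum ℂ (Matrix.toLin' (U ((h⁻¹ * h' : H) : G) : Matrix (Fin m) (Fin m) ℂ))
      rw [Matrix.spectrum_toLin']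
      exact hl
    obtain ⟨k, hk⟩ := eigenvalue_mem_of_basis (f (h⁻¹ * h')) b (fun k => μ k (h⁻¹ * h'))
      (fun k => hb k _) hl2
    unfold d
    rw [hl', ← hk]
    rw [μmul, μinv]
    exact norm_lt_of_arcIdx_eq (μnorm k h) (μnorm k h') (congrFun hβ k)
  have hinj : Function.Injective (fun q : H ⧸ (AA U).subgroupOf H => β q.out) := by
    intro q q' hq
    have := key _ _ hq
    rw [← QuotientGroup.eq, QuotientGroup.out_eq', QuotientGroup.out_eq'] at this
    exact this
  have := Nat.card_le_card_of_injective _ hinj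
  rw [Nat.card_fun, Nat.card_fin, Nat.card_fin, Module.finrank_fin_fun] at this
  exact this

end Asm

section Unit

open Matrix
open scoped ComplexOrder

theorem exists_sqrt_factor {m : ℕ} {H : Matrix (Fin m) (Fin m) ℂ} (hH : H.PosDef) :
    ∃ B : Matrix (Fin m) (Fin m) ℂ, IsUnit B.det ∧ H = Bᴴ * B := by
  open scoped MatrixOrder in
  obtain ⟨B, hB⟩ := CStarAlgebra.nonneg_iff_eq_star_mul_self.mp hH.posSemidef.nonneg
  refine ⟨B, ?_, hB⟩
  have h1 : IsUnit H.det := (Matrix.isUnit_iff_isUnit_det H).1 hH.isUnit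
  rw [hB, Matrix.det_mul] at h1
  exact isUnit_of_mul_isUnit_right h1

variable {G : Type*} [Group G] [Finite G] {m : ℕ}

theorem exists_unitary_hom (ρ : Representation ℂ G (Fin m → ℂ)) :
    ∃ U : G →* unitary (Matrix (Fin m) (Fin m) ℂ),
      ∀ g, (U g : Matrix (Fin m) (Fin m) ℂ).trace = ρ.character g := by
  have := Fintype.ofFinite G
  obtain ⟨H, hH, hinv⟩ := Helper83Char.exists_posDef_invariant ρ
  obtain ⟨B, hB, rfl⟩ := exists_sqrt_factor hH
  obtain ⟨X, hX⟩ : ∃ X : G → Matrix (Fin m) (Fin m) ℂ, X = fun g => LinearMap.toMatrix' (ρ g) :=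
    ⟨_, rfl⟩
  have hinv' : ∀ g, (X g)ᴴ * (Bᴴ * B) * X g = Bᴴ * B := by
    intro g; rw [hX]; exact hinv g
  have Xmul : ∀ g h, X (g * h) = X g * X h := by
    intro g h; rw [hX]; simp only [map_mul]; exact LinearMap.toMatrix'_mul _ _
  have Xone : X 1 = 1 := by
    rw [hX]; simp only [map_one]; exact LinearMap.toMatrix'_one
  have Xtr : ∀ g, (X g).trace = ρ.character g := by
    intro g
    rw [hX]
    unfold Representation.character
    rw [LinearMap.trace_eq_matrix_trace ℂ (Pi.basisFun ℂ (Fin m))]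
    rfl
  have hBB : B⁻¹ * B = 1 := Matrix.nonsing_inv_mul _ hB
  have hBB' : B * B⁻¹ = 1 := Matrix.mul_nonsing_inv _ hB
  have hun : ∀ g, B * X g * B⁻¹ ∈ unitary (Matrix (Fin m) (Fin m) ℂ) := by
    intro g
    have h1 : star (B * X g * B⁻¹) * (B * X g * B⁻¹) = 1 := by
      rw [Matrix.star_eq_conjTranspose, Matrix.conjTranspose_mul, Matrix.conjTranspose_mul]
      have : (B⁻¹)ᴴ * ((X g)ᴴ * Bᴴ) * (B * X g * B⁻¹)
          = (B⁻¹)ᴴ * ((X g)ᴴ * (Bᴴ * B) * X g) * B⁻¹ := by
        simp only [Matrix.mul_assoc]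
      rw [this, hinv', ← Matrix.mul_assoc, ← Matrix.conjTranspose_mul, hBB', Matrix.mul_assoc, hBB']
      simp
    rw [Unitary.mem_iff]
    exact ⟨h1, mul_eq_one_comm.1 h1⟩
  refine ⟨{ toFun := fun g => ⟨B * X g * B⁻¹, hun g⟩, map_one' := ?_, map_mul' := ?_ }, ?_⟩
  · apply Subtype.ext
    show B * X 1 * B⁻¹ = 1
    rw [Xone, Matrix.mul_one, hBB']
  · intro g h
    apply Subtype.ext
    show B * X (g * h) * B⁻¹ = (B * X g * B⁻¹) * (B * X h * B⁻¹)
    rw [Xmul]
    have : (B * X g * B⁻¹) * (B * X h * B⁻¹) = B * X g * (B⁻¹ * B) * X h * B⁻¹ := by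
      simp only [Matrix.mul_assoc]
    rw [this, hBB, Matrix.mul_one]
    simp only [Matrix.mul_assoc]
  · intro g
    show (B * X g * B⁻¹).trace = _
    rw [Matrix.trace_mul_comm, ← Matrix.mul_assoc, hBB, Matrix.one_mul, Xtr]

end Unit

end Cfsg.Agent.Lib.Helper78Jordan
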