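import Cfsg.Agent.Lib.Helper81KulDefs

set_option autoImplicit false

namespace Cfsg.Agent.Lib.Helper78KulSOC

open Cfsg.Agent.Lib.Helper81KulDefs

variable {k : Type*} [Field k] {R : Type*} [Ring R] [Algebra k R] [Module.Finite k R]

theorem soc {J : Submodule k R} {lam : R →ₗ[k] k} (hs : SymF J lam) {T : Submodule k R}
    (hT : T ≤ J) (hTJ : T * J = ⊥) : Module.finrank k T ≤ 1 ∧ T ⊓ Kc J = ⊥ := by
  have hmul : ∀ a ∈ T, ∀ b ∈ J, a * b = 0 := by
    intro a ha b hb
    have : a * b ∈ T * J := Submodule.mul_mem_mul ha hb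
    rw [hTJ] at this
    exact (Submodule.mem_bot k).1 this
  have hne : ∀ a ∈ T, lam a = 0 → a = 0 := by
    intro a ha h0
    by_contra hne
    rcases hs.nd a (hT ha) hne with h | ⟨b, hb, h⟩
    · exact h h0
    · rw [hmul a ha b hb, map_zero] at h
      exact h rfl
  constructor
  · have hinj : Function.Injective (lam.comp T.subtype) := by
      rw [← LinearMap.ker_eq_bot, LinearMap.ker_eq_bot']
      intro a ha
      apply Subtype.ext
      exact hne a.1 a.2 ha
    have := LinearMap.finrank_le_finrank_of_injective hinj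
    rwa [Module.finrank_self] at this
  · rw [eq_bot_iff]
    rintro a ⟨haT, haK⟩
    have hK : ∀ x ∈ Kc J, lam x = 0 := by
      intro x hx
      unfold Kc at hx
      induction hx using Submodule.span_induction with
      | mem x hx =>
        obtain ⟨a, ha, b, hb, rfl⟩ := hx
        rw [map_sub, hs.symm a ha b hb, sub_self]
      | zero => exact map_zero _
      | add x y _ _ hx hy => rw [map_add, hx, hy, add_zero]
      | smul c x _ hx => rw [map_smul, hx, smul_zero]
    exact (Submodule.mem_bot k).2 (hne a haT (hK a haK))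

end Cfsg.Agent.Lib.Helper78KulSOC
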