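import Mathlib
import Cfsg.Prelude.Def_Characters
import Cfsg.Agent.S0164
import Cfsg.Agent.Lib.Helper32Virt

set_option autoImplicit false

/-!
`h ↦ χ (h_{p'})` is a generalized character (via Brauer's characterization of characters).
The `p'`-part is realised as the power `h ^ K` with `K ≡ 0 mod |H|_p`, `K ≡ 1 mod |H|_{p'}`.
-/

namespace Cfsg.Agent.Lib.Helper78PPrime

open Cfsg
open Cfsg.Agent.Lib.Helper4Char Cfsg.Agent.Lib.Helper4Char2 Cfsg.Agent.Lib.Helper4Char4
open Cfsg.Agent.Lib.Helper32Virt

section grp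

variable {E : Type*} [Group E] [Finite E]

theorem pow_mem_center {N : ℕ} (hN : (Subgroup.center E).index ∣ N) (e : E) :
    e ^ N ∈ Subgroup.center E := by
  obtain ⟨c, rfl⟩ := hN
  rw [pow_mul, ← MonoidHom.transferCenterPow_apply]
  exact Subgroup.pow_mem _ (MonoidHom.transferCenterPow E e).2 c

theorem mul_pow_of_dvd {N : ℕ} (hN : (Subgroup.center E).index ∣ N) (e f : E) :
    (e * f) ^ N = e ^ N * f ^ N := by
  obtain ⟨c, rfl⟩ := hN
  rw [pow_mul, pow_mul, pow_mul, ← MonoidHom.transferCenterPow_apply,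
    ← MonoidHom.transferCenterPow_apply, ← MonoidHom.transferCenterPow_apply, map_mul,
    Subgroup.coe_mul]
  have hc : Commute ((MonoidHom.transferCenterPow E e : Subgroup.center E) : E)
      ((MonoidHom.transferCenterPow E f : Subgroup.center E) : E) :=
    (Subgroup.mem_center_iff.1 (MonoidHom.transferCenterPow E f).2 _)
  exact hc.mul_pow c

theorem mul_pow_succ_of_dvd {N : ℕ} (hN : (Subgroup.center E).index ∣ N) (e f : E) :
    (e * f) ^ (N + 1) = e ^ (N + 1) * f ^ (N + 1) := by
  rw [pow_succ, pow_succ, pow_succ, mul_pow_of_dvd hN]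
  have h1 := Subgroup.mem_center_iff.1 (pow_mem_center hN f) e
  calc e ^ N * f ^ N * (e * f) = e ^ N * (f ^ N * e) * f := by group
    _ = e ^ N * (e * f ^ N) * f := by rw [h1]
    _ = _ := by group

end grp

variable {H : Type*} [Group H] [Finite H]

/-- the exponent conditions. -/
def IsPP (p : ℕ) (n K : ℕ) : Prop :=
  p ^ n.factorization p ∣ K ∧ 0 < K ∧ n / p ^ n.factorization p ∣ K - 1

theorem exists_isPP (p : ℕ) (hp : p.Prime) {n : ℕ} (hn : n ≠ 0) : ∃ K, IsPP p n K := by
  have hcop : Nat.Coprime (p ^ n.factorization p) (n / p ^ n.factorization p) :=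
    (Nat.coprime_ordCompl hp hn).pow_left _
  obtain ⟨k, hk0, hk1⟩ := Nat.chineseRemainder hcop 0 1
  have hpos : 0 < p ^ n.factorization p * (n / p ^ n.factorization p) := by
    rw [Nat.ordProj_mul_ordCompl_eq_self]
    exact Nat.pos_of_ne_zero hn
  refine ⟨k + p ^ n.factorization p * (n / p ^ n.factorization p), ?_, by omega, ?_⟩
  · exact (Nat.dvd_add_right ((Nat.modEq_zero_iff_dvd).1 hk0)).2 (dvd_mul_right _ _)
  · have h1 : 1 ≡ k + p ^ n.factorization p * (n / p ^ n.factorization p)
        [MOD n / p ^ n.factorization p] := by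
      have : k + p ^ n.factorization p * (n / p ^ n.factorization p) ≡ k + 0
          [MOD n / p ^ n.factorization p] :=
        Nat.ModEq.add_left k ((Nat.modEq_zero_iff_dvd).2 (dvd_mul_left _ _))
      exact (this.trans (by simpa using hk1)).symm
    exact (Nat.modEq_iff_dvd' (by omega)).1 h1

/-- **BC**: `h ↦ χ (h ^ K)` is a generalized character. -/
theorem gen_pow (p : ℕ) [Fact p.Prime] {K : ℕ} (hK : IsPP p (Nat.card H) K) {χ : H → ℂ}
    (hχ : IsCharacter H χ) : IsGeneralizedCharacter H (fun h => χ (h ^ K)) := by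
  classical
  have hp : p.Prime := Fact.out
  obtain ⟨hK0, hKpos, hK1⟩ := hK
  apply Cfsg.Agent.S0164.result
  · intro g h
    show χ ((h * g * h⁻¹) ^ K) = χ (g ^ K)
    rw [conj_pow]
    exact IsCharacter.isClassFunction hχ _ _
  · intro E r hr hE
    obtain ⟨x, hx, hcop, k, hk⟩ := hE
    have hle : Subgroup.zpowers x ≤ Subgroup.center E := by
      rw [Subgroup.zpowers_le]; exact hx
    have hidx : (Subgroup.center E).index ∣ r ^ k := hk ▸ Subgroup.index_dvd_of_le hle
    have hrH : r ^ k ∣ Nat.card H := by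
      rw [← hk]
      exact (Subgroup.index_dvd_card _).trans (Subgroup.card_subgroup_dvd_card E)
    have hmul : ∀ e f : E, (e * f) ^ K = e ^ K * f ^ K := by
      by_cases hrp : r = p
      · subst hrp
        have h1 : r ^ k ∣ r ^ (Nat.card H).factorization r :=
          pow_dvd_pow _ ((hr.pow_dvd_iff_le_factorization Nat.card_pos.ne').1 hrH)
        exact mul_pow_of_dvd (hidx.trans (h1.trans hK0))
      · have hc : Nat.Coprime (r ^ k) (p ^ (Nat.card H).factorization p) :=
          Nat.Coprime.pow _ _ ((Nat.coprime_primes hr hp).2 hrp)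
        have h1 : r ^ k ∣ Nat.card H / p ^ (Nat.card H).factorization p := by
          apply hc.dvd_of_dvd_mul_left
          rw [Nat.ordProj_mul_ordCompl_eq_self]
          exact hrH
        have h2 := mul_pow_succ_of_dvd (hidx.trans (h1.trans hK1))
        rwa [Nat.sub_add_cancel hKpos] at h2
    let π : E →* E := MonoidHom.mk' (fun e => e ^ K) hmul
    apply gen_of_char
    exact IsCharacter.comp π (IsCharacter.restrict E hχ)

end Cfsg.Agent.Lib.Helper78PPrime
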