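import Mathlib

set_option autoImplicit false

namespace Cfsg.Agent.Lib.Helper78SelfCent

open Subgroup
open scoped commutatorElement

variable {G : Type*} [Group G]

/-- every nontrivial element of `zpowers x` generates it when `x` has prime order -/
theorem mem_zpowers_of_ne_one {p : ℕ} (hp : p.Prime) {x : G} (hx : orderOf x = p)
    {z : G} (hz : z ∈ zpowers x) (hz1 : z ≠ 1) : x ∈ zpowers z := by
  have : Fact p.Prime := ⟨hp⟩
  have hcard : Nat.card (zpowers x) = p := by rw [Nat.card_zpowers, hx]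
  have h := mem_zpowers_of_prime_card (G := zpowers x) hcard (g := ⟨z, hz⟩) (g' := ⟨x, mem_zpowers x⟩)
    (by intro h; exact hz1 (congrArg Subtype.val h))
  obtain ⟨k, hk⟩ := h
  exact ⟨k, by simpa using congrArg Subtype.val hk⟩

theorem zpowers_eq_of_ne_one {p : ℕ} (hp : p.Prime) {x : G} (hx : orderOf x = p)
    {z : G} (hz : z ∈ zpowers x) (hz1 : z ≠ 1) : zpowers z = zpowers x :=
  le_antisymm ((zpowers_le).2 hz) ((zpowers_le).2 (mem_zpowers_of_ne_one hp hx hz hz1))

theorem mem_centralizer_singleton {x g : G} : g ∈ centralizer ({x} : Set G) ↔ x * g = g * x := by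
  simp [mem_centralizer_iff]

variable [Finite G]

/-- `⟨x⟩` is a Sylow `p`-subgroup. -/
theorem exists_sylow (p : ℕ) (hp : p.Prime) (x : G) (hx : orderOf x = p)
    (hC : centralizer ({x} : Set G) = zpowers x) :
    ∃ P : Sylow p G, (P : Subgroup G) = zpowers x := by
  have : Fact p.Prime := ⟨hp⟩
  have hPG : IsPGroup p (zpowers x) := IsPGroup.of_card (n := 1) (by rw [Nat.card_zpowers, hx, pow_one])
  obtain ⟨Q, hQ⟩ := hPG.exists_le_sylow
  refine ⟨Q, le_antisymm ?_ hQ⟩
  have hxQ : x ∈ (Q : Subgroup G) := hQ (mem_zpowers x)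
  have hx1 : x ≠ 1 := by
    intro h; rw [h, orderOf_one] at hx; exact hp.one_lt.ne hx
  have : Nontrivial (Q : Subgroup G) := ⟨⟨⟨x, hxQ⟩, 1, fun h => hx1 (congrArg Subtype.val h)⟩⟩
  have := Q.2.center_nontrivial
  obtain ⟨z, hz⟩ := exists_ne (1 : center (Q : Subgroup G))
  have hzc : ∀ y : (Q : Subgroup G), y * z.1 = z.1 * y := fun y => (mem_center_iff.1 z.2 y)
  have hz1 : ((z.1 : (Q : Subgroup G)) : G) ≠ 1 := by
    intro h; apply hz; ext; simpa using h
  have hzx : ((z.1 : (Q : Subgroup G)) : G) ∈ zpowers x := by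
    rw [← hC, mem_centralizer_singleton]
    exact congrArg Subtype.val (hzc ⟨x, hxQ⟩)
  have hxz := mem_zpowers_of_ne_one hp hx hzx hz1
  intro y hy
  rw [← hC, mem_centralizer_singleton]
  obtain ⟨k, hk⟩ := hxz
  have hcomm : Commute ((z.1 : (Q : Subgroup G)) : G) y :=
    (congrArg Subtype.val (hzc ⟨y, hy⟩)).symm
  rw [← hk]
  exact (hcomm.zpow_left k)


theorem ne_one_of_orderOf {p : ℕ} (hp : p.Prime) {x : G} (hx : orderOf x = p) : x ≠ 1 := by
  intro h; rw [h, orderOf_one] at hx; exact hp.one_lt.ne hx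

/-- a subgroup of order prime to `p` meets `⟨x⟩` trivially -/
theorem eq_one_of_mem_of_mem_zpowers {p : ℕ} (hp : p.Prime) {x : G} (hx : orderOf x = p)
    (S : Subgroup G) (hS : ¬ p ∣ Nat.card S) {z : G} (hzS : z ∈ S) (hz : z ∈ zpowers x) : z = 1 := by
  by_contra hz1
  have hxz := mem_zpowers_of_ne_one hp hx hz hz1
  have hxS : x ∈ S := (zpowers_le.2 hzS) hxz
  apply hS
  rw [← hx]
  exact orderOf_dvd_natCard (⟨x, hxS⟩ : S) |> fun h => by
    rwa [Subgroup.orderOf_mk] at h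

/-- `s ↦ x⁻¹ s x s⁻¹` is onto a normal `p'`-subgroup `S`. -/
theorem exists_comm_eq (p : ℕ) (hp : p.Prime) (x : G) (hx : orderOf x = p)
    (hC : centralizer ({x} : Set G) = zpowers x) (S : Subgroup G) [S.Normal]
    (hS : ¬ p ∣ Nat.card S) (t : G) (ht : t ∈ S) : ∃ s ∈ S, x⁻¹ * s * x * s⁻¹ = t := by
  let f : S → S := fun s => ⟨x⁻¹ * s * x * (s : G)⁻¹, by
    have h1 : x⁻¹ * s * x ∈ S := by
      have := ‹S.Normal›.conj_mem s s.2 x⁻¹
      simpa using this
    exact S.mul_mem h1 (S.inv_mem s.2)⟩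
  have hinj : Function.Injective f := by
    intro a b hab
    have h : x⁻¹ * a * x * (a : G)⁻¹ = x⁻¹ * b * x * (b : G)⁻¹ := congrArg Subtype.val hab
    have h2 : x * ((b : G)⁻¹ * a) = ((b : G)⁻¹ * a) * x := by
      have h3 : (a : G) * x * (a : G)⁻¹ = b * x * (b : G)⁻¹ := by
        have := congrArg (fun w => x * w) h
        simpa [mul_assoc] using this
      have h4 : (b : G)⁻¹ * (a * x * (a : G)⁻¹) * a = (b : G)⁻¹ * (b * x * (b : G)⁻¹) * a := by rw [h3]
      simp only [mul_assoc, inv_mul_cancel, mul_one, inv_mul_cancel_left] at h4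
      rw [mul_assoc, h4]
    have h5 : (b : G)⁻¹ * a ∈ zpowers x := by
      rw [← hC, mem_centralizer_singleton]; exact h2
    have h6 := eq_one_of_mem_of_mem_zpowers hp hx S hS (S.mul_mem (S.inv_mem b.2) a.2) h5
    ext
    exact (inv_mul_eq_one.1 h6).symm
  obtain ⟨s, hs⟩ := (Finite.injective_iff_surjective.1 hinj) ⟨t, ht⟩
  exact ⟨s, s.2, congrArg Subtype.val hs⟩

/-- Frattini: if the normal subgroup `S` contains `x` then `G = S N(⟨x⟩)`. -/
theorem frattini (p : ℕ) (hp : p.Prime) (x : G) (hx : orderOf x = p)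
    (hC : centralizer ({x} : Set G) = zpowers x) (S : Subgroup G) [S.Normal] (hxS : x ∈ S) (g : G) :
    ∃ s ∈ S, ∃ n ∈ normalizer (zpowers x : Set G), g = s * n := by
  have : Fact p.Prime := ⟨hp⟩
  obtain ⟨P, hP⟩ := exists_sylow p hp x hx hC
  have hPS : (P : Subgroup G) ≤ S := by rw [hP]; exact zpowers_le.2 hxS
  have h := Sylow.normalizer_sup_eq_top' P hPS
  have hg : g ∈ normalizer ((P : Subgroup G) : Set G) ⊔ S := by
    have : g ∈ (⊤ : Subgroup G) := mem_top g
    rw [← h] at this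
    exact this
  rw [sup_comm, Subgroup.mem_sup_of_normal_left] at hg
  obtain ⟨s, hs, n, hn, rfl⟩ := hg
  exact ⟨s, hs, n, by rw [← hP]; exact hn, rfl⟩

/-- elements of the normalizer of `⟨x⟩` commute modulo `⟨x⟩`. -/
theorem commutator_mem_of_mem_normalizer (x : G)
    (hC : centralizer ({x} : Set G) = zpowers x) {a b : G}
    (ha : a ∈ normalizer (zpowers x : Set G)) (hb : b ∈ normalizer (zpowers x : Set G)) :
    ⁅a, b⁆ ∈ zpowers x := by
  have key : ∀ c ∈ normalizer (zpowers x : Set G), ∃ k : ℤ, c * x * c⁻¹ = x ^ k := by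
    intro c hc
    have := (mem_normalizer_iff.1 hc x).1 (mem_zpowers x)
    obtain ⟨k, hk⟩ := this
    exact ⟨k, hk.symm⟩
  obtain ⟨i, hi⟩ := key a ha
  obtain ⟨j, hj⟩ := key b hb
  obtain ⟨i', hi'⟩ := key a⁻¹ (inv_mem ha)
  obtain ⟨j', hj'⟩ := key b⁻¹ (inv_mem hb)
  have conj_zpow : ∀ (c y : G) (k : ℤ), c * y ^ k * c⁻¹ = (c * y * c⁻¹) ^ k := by
    intro c y k; exact (conj_zpow).symm
  rw [← hC, mem_centralizer_singleton]
  -- ⁅a,b⁆ x ⁅a,b⁆⁻¹ = x
  have h1 : ⁅a, b⁆ * x * ⁅a, b⁆⁻¹ = x := by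
    have e1 : ⁅a, b⁆ * x * ⁅a, b⁆⁻¹ = a * (b * (a⁻¹ * (b⁻¹ * x * b⁻¹⁻¹) * a⁻¹⁻¹) * b⁻¹) * a⁻¹ := by
      simp only [commutatorElement_def, mul_inv_rev, inv_inv, mul_assoc]
    simp only [e1, hj', conj_zpow, hi', hj, hi]
    -- ((x^i)^j)^i')^j' = x ; use a⁻¹ a = 1 relations
    have e2 : (x ^ i) ^ i' = x := by
      have : a * (a⁻¹ * x * a⁻¹⁻¹) * a⁻¹ = x := by simp [mul_assoc]
      rw [hi', conj_zpow, hi] at this
      exact this
    have e3 : (x ^ j) ^ j' = x := by
      have : b * (b⁻¹ * x * b⁻¹⁻¹) * b⁻¹ = x := by simp [mul_assoc]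
      rw [hj', conj_zpow, hj] at this
      exact this
    have : (((x ^ i) ^ j) ^ i') ^ j' = ((x ^ i) ^ i') ^ (j * j') := by
      simp only [← zpow_mul]; congr 1; ring
    rw [this, e2, zpow_mul, e3]
  calc x * ⁅a, b⁆ = (⁅a, b⁆ * x * ⁅a, b⁆⁻¹) * ⁅a, b⁆ := by rw [h1]
    _ = ⁅a, b⁆ * x := by rw [inv_mul_cancel_right]

/-- part (a): a normal subgroup containing `x` contains the commutator subgroup. -/
theorem commutator_le_of_mem (p : ℕ) (hp : p.Prime) (x : G) (hx : orderOf x = p)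
    (hC : centralizer ({x} : Set G) = zpowers x) (S : Subgroup G) [S.Normal] (hxS : x ∈ S) :
    commutator G ≤ S := by
  rw [commutator_eq_closure, closure_le]
  rintro _ ⟨g₁, g₂, rfl⟩
  obtain ⟨s₁, hs₁, n₁, hn₁, rfl⟩ := frattini p hp x hx hC S hxS g₁
  obtain ⟨s₂, hs₂, n₂, hn₂, rfl⟩ := frattini p hp x hx hC S hxS g₂
  have h := commutator_mem_of_mem_normalizer x hC hn₁ hn₂
  have h' : ⁅n₁, n₂⁆ ∈ S := (zpowers_le.2 hxS) h
  rw [SetLike.mem_coe, ← QuotientGroup.eq_one_iff]
  rw [← QuotientGroup.eq_one_iff] at h'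
  have e1 : ((s₁ * n₁ : G) : G ⧸ S) = (n₁ : G ⧸ S) := by
    rw [QuotientGroup.mk_mul, (QuotientGroup.eq_one_iff s₁).2 hs₁, one_mul]
  have e2 : ((s₂ * n₂ : G) : G ⧸ S) = (n₂ : G ⧸ S) := by
    rw [QuotientGroup.mk_mul, (QuotientGroup.eq_one_iff s₂).2 hs₂, one_mul]
  have m : ∀ a b : G, ((⁅a, b⁆ : G) : G ⧸ S) = ⁅(a : G ⧸ S), (b : G ⧸ S)⁆ := by
    intro a b; rfl
  rw [m, e1, e2, ← m]; exact h'

/-- a normal subgroup of order divisible by `p` contains `x`. -/
theorem mem_of_dvd_card (p : ℕ) (hp : p.Prime) (x : G) (hx : orderOf x = p)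
    (hC : centralizer ({x} : Set G) = zpowers x) (S : Subgroup G) [S.Normal]
    (hS : p ∣ Nat.card S) : x ∈ S := by
  have : Fact p.Prime := ⟨hp⟩
  obtain ⟨P, hP⟩ := exists_sylow p hp x hx hC
  obtain ⟨y, hy⟩ := exists_prime_orderOf_dvd_card' (G := S) p hS
  have hy' : orderOf (y : G) = p := by rw [Subgroup.orderOf_coe]; exact hy
  have hPG : IsPGroup p (zpowers (y : G)) :=
    IsPGroup.of_card (n := 1) (by rw [Nat.card_zpowers, hy', pow_one])
  obtain ⟨Q, hQ⟩ := hPG.exists_le_sylow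
  obtain ⟨g, hg⟩ := MulAction.exists_smul_eq G Q P
  have hyQ : (y : G) ∈ (Q : Subgroup G) := hQ (mem_zpowers _)
  have h1 : g * y * g⁻¹ ∈ (P : Subgroup G) := by
    rw [← hg, Sylow.coe_subgroup_smul]
    exact ⟨y, hyQ, by simp [MulAut.conj_apply]⟩
  rw [hP] at h1
  have h2 : g * y * g⁻¹ ≠ 1 := by
    intro h
    have : (y : G) = 1 := by
      have := congrArg (fun w => g⁻¹ * w * g) h
      simpa [mul_assoc] using this
    exact ne_one_of_orderOf hp hy' this
  have h3 := mem_zpowers_of_ne_one hp hx h1 h2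
  exact (zpowers_le.2 (‹S.Normal›.conj_mem y y.2 g)) h3


/-- the number of subgroups of order `p` is the index of the normalizer of `⟨x⟩`. -/
theorem card_subgroups_eq (p : ℕ) (hp : p.Prime) (x : G) (hx : orderOf x = p)
    (hC : centralizer ({x} : Set G) = zpowers x) :
    Nat.card {H : Subgroup G // Nat.card H = p} = (normalizer (zpowers x : Set G)).index := by
  have : Fact p.Prime := ⟨hp⟩
  obtain ⟨P, hP⟩ := exists_sylow p hp x hx hC
  have hcardP : Nat.card (P : Subgroup G) = p := by rw [hP, Nat.card_zpowers, hx]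
  have hcard : ∀ Q : Sylow p G, Nat.card (Q : Subgroup G) = p := by
    intro Q
    rw [Sylow.card_eq_multiplicity, ← Sylow.card_eq_multiplicity P, hcardP]
  rw [← hP]
  refine Eq.trans ?_ (Sylow.card_eq_index_normalizer P)
  symm
  refine Nat.card_congr (Equiv.ofBijective (fun Q : Sylow p G => ⟨(Q : Subgroup G), hcard Q⟩) ⟨?_, ?_⟩)
  · intro Q₁ Q₂ h
    exact Sylow.ext (congrArg Subtype.val h)
  · rintro ⟨H, hH⟩
    have hPG : IsPGroup p H := IsPGroup.of_card (n := 1) (by rw [hH, pow_one])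
    obtain ⟨Q, hQ⟩ := hPG.exists_le_sylow
    refine ⟨Q, ?_⟩
    ext1
    exact (Subgroup.eq_of_le_of_card_ge hQ (by rw [hH, hcard Q])).symm

theorem inf_normalizer_eq_bot (p : ℕ) (hp : p.Prime) (x : G) (hx : orderOf x = p)
    (hC : centralizer ({x} : Set G) = zpowers x) (S : Subgroup G) [S.Normal]
    (hS : ¬ p ∣ Nat.card S) : S ⊓ normalizer (zpowers x : Set G) = ⊥ := by
  rw [eq_bot_iff]
  rintro s ⟨hsS, hsN⟩
  have h1 : s * x * s⁻¹ ∈ zpowers x := (mem_normalizer_iff.1 hsN x).1 (mem_zpowers x)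
  have h2 : s * x * s⁻¹ * x⁻¹ ∈ zpowers x := mul_mem h1 (inv_mem (mem_zpowers x))
  have h3 : s * x * s⁻¹ * x⁻¹ ∈ S := by
    have := ‹S.Normal›.conj_mem s⁻¹ (inv_mem hsS) x
    have h4 := S.mul_mem hsS this
    simpa [mul_assoc] using h4
  have h5 := eq_one_of_mem_of_mem_zpowers hp hx S hS h3 h2
  have h6 : s ∈ zpowers x := by
    rw [← hC, mem_centralizer_singleton]
    have := congrArg (fun w => w * x * s) h5
    simp only [mul_assoc, inv_mul_cancel_left, inv_mul_cancel, mul_one, one_mul] at this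
    exact this.symm
  exact (mem_bot).2 (eq_one_of_mem_of_mem_zpowers hp hx S hS hsS h6)

theorem card_sup_normalizer (p : ℕ) (hp : p.Prime) (x : G) (hx : orderOf x = p)
    (hC : centralizer ({x} : Set G) = zpowers x) (S : Subgroup G) [S.Normal]
    (hS : ¬ p ∣ Nat.card S) :
    Nat.card (normalizer (zpowers x : Set G) ⊔ S : Subgroup G)
      = Nat.card S * Nat.card (normalizer (zpowers x : Set G)) := by
  have h1 : S.relIndex (normalizer (zpowers x : Set G) ⊔ S) = S.relIndex (normalizer (zpowers x : Set G)) :=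
    relIndex_sup_right _ _
  have h2 : S.relIndex (normalizer (zpowers x : Set G)) = Nat.card (normalizer (zpowers x : Set G)) := by
    rw [← inf_relIndex_right, inf_normalizer_eq_bot p hp x hx hC S hS, relIndex_bot_left]
  have h3 := relIndex_mul_relIndex ⊥ S (normalizer (zpowers x : Set G) ⊔ S) bot_le le_sup_right
  rw [relIndex_bot_left, relIndex_bot_left, h1, h2] at h3
  exact h3.symm

theorem card_dvd_index_normalizer (p : ℕ) (hp : p.Prime) (x : G) (hx : orderOf x = p)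
    (hC : centralizer ({x} : Set G) = zpowers x) (S : Subgroup G) [S.Normal]
    (hS : ¬ p ∣ Nat.card S) : Nat.card S ∣ (normalizer (zpowers x : Set G)).index := by
  have h1 := card_dvd_of_le (le_top : (normalizer (zpowers x : Set G) ⊔ S : Subgroup G) ≤ ⊤)
  rw [card_sup_normalizer p hp x hx hC S hS, card_top,
    ← card_mul_index (normalizer (zpowers x : Set G)), mul_comm] at h1
  exact Nat.dvd_of_mul_dvd_mul_left Nat.card_pos h1

theorem card_mod_eq_one (p : ℕ) (hp : p.Prime) (x : G) (hx : orderOf x = p)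
    (hC : centralizer ({x} : Set G) = zpowers x) (S : Subgroup G) [S.Normal]
    (hS : ¬ p ∣ Nat.card S) : Nat.card S % p = 1 := by
  have : Fact p.Prime := ⟨hp⟩
  let A : Subgroup (ConjAct G) := zpowers (ConjAct.toConjAct x)
  have hA : IsPGroup p A := IsPGroup.of_card (n := 1) (by
    rw [Nat.card_zpowers, pow_one, ← hx]
    exact orderOf_injective (ConjAct.toConjAct (G := G)).toMonoidHom (ConjAct.toConjAct (G := G)).injective x)
  have h := hA.card_modEq_card_fixedPoints S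
  have hfix : MulAction.fixedPoints A S = {1} := by
    ext s
    simp only [MulAction.mem_fixedPoints, Set.mem_singleton_iff]
    constructor
    · intro hs
      have h1 := hs ⟨ConjAct.toConjAct x, mem_zpowers _⟩
      have h2 : x * s * x⁻¹ = s := by
        have := congrArg Subtype.val h1
        rw [Subgroup.smul_def, ConjAct.Subgroup.val_conj_smul, ConjAct.smul_def] at this
        simpa using this
      have h3 : (s : G) ∈ zpowers x := by
        rw [← hC, mem_centralizer_singleton]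
        calc x * s = x * s * x⁻¹ * x := by simp
          _ = s * x := by rw [h2]
      ext
      exact eq_one_of_mem_of_mem_zpowers hp hx S hS s.2 h3
    · rintro rfl a
      exact smul_one a
  rw [hfix] at h
  simp only [Nat.card_eq_fintype_card, Fintype.card_unique, Set.card_singleton] at h
  have h' : Nat.card S % p = 1 % p := h
  rw [h', Nat.mod_eq_of_lt hp.one_lt]

theorem orderOf_mk (p : ℕ) (hp : p.Prime) (x : G) (hx : orderOf x = p)
    (S : Subgroup G) [S.Normal] (hS : ¬ p ∣ Nat.card S) :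
    orderOf (QuotientGroup.mk x : G ⧸ S) = p := by
  have h1 : orderOf (QuotientGroup.mk x : G ⧸ S) ∣ p := by
    rw [← hx]; exact orderOf_map_dvd (QuotientGroup.mk' S) x
  rcases (Nat.dvd_prime hp).1 h1 with h | h
  · exfalso
    rw [orderOf_eq_one_iff, QuotientGroup.eq_one_iff] at h
    exact ne_one_of_orderOf hp hx (eq_one_of_mem_of_mem_zpowers hp hx S hS h (mem_zpowers x))
  · exact h

theorem centralizer_mk (p : ℕ) (hp : p.Prime) (x : G) (hx : orderOf x = p)
    (hC : centralizer ({x} : Set G) = zpowers x) (S : Subgroup G) [S.Normal]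
    (hS : ¬ p ∣ Nat.card S) :
    centralizer ({(QuotientGroup.mk x : G ⧸ S)} : Set (G ⧸ S)) = zpowers (QuotientGroup.mk x : G ⧸ S) := by
  apply le_antisymm
  · intro y hy
    obtain ⟨g, rfl⟩ := QuotientGroup.mk_surjective y
    rw [mem_centralizer_singleton] at hy
    -- x⁻¹ g x g⁻¹ ∈ S
    have h1 : x⁻¹ * g * x * g⁻¹ ∈ S := by
      rw [← QuotientGroup.eq_one_iff]
      have : ((x⁻¹ * g * x * g⁻¹ : G) : G ⧸ S) = (x : G ⧸ S)⁻¹ * ((g : G ⧸ S) * (x : G ⧸ S)) * (g : G ⧸ S)⁻¹ := by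
        simp [mul_assoc]
      rw [this, ← hy]; simp
    obtain ⟨s, hs, hs'⟩ := exists_comm_eq p hp x hx hC S hS _ h1
    have h2 : s * x * s⁻¹ = g * x * g⁻¹ := by
      have := congrArg (fun w => x * w) hs'
      simpa [mul_assoc] using this
    have h3 : s⁻¹ * g ∈ zpowers x := by
      rw [← hC, mem_centralizer_singleton]
      have := congrArg (fun w => s⁻¹ * w * g) h2
      simp only [mul_assoc, inv_mul_cancel_left, inv_mul_cancel, mul_one] at this
      rw [this, mul_assoc]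
    have h4 : (g : G ⧸ S) = ((s⁻¹ * g : G) : G ⧸ S) := by
      rw [QuotientGroup.mk_mul, (QuotientGroup.eq_one_iff s⁻¹).2 (inv_mem hs), one_mul]
    rw [h4]
    obtain ⟨k, hk⟩ := h3
    exact ⟨k, by rw [← hk]; rfl⟩
  · rw [zpowers_le, mem_centralizer_singleton]

end Cfsg.Agent.Lib.Helper78SelfCent
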