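import Cfsg.Agent.Lib.Helper78SelfCent

set_option autoImplicit false

namespace Cfsg.Agent.Lib.Helper78SelfCentB

open Subgroup Cfsg.Agent.Lib.Helper78SelfCent
open scoped commutatorElement

variable {G : Type*} [Group G]

theorem pow_val_mul {p : ℕ} {x : G} (hx : orderOf x = p) (u v : ZMod p) :
    x ^ (u * v).val = (x ^ u.val) ^ v.val := by
  rw [ZMod.val_mul, ← pow_mul]
  have h := pow_mod_orderOf x (u.val * v.val)
  rw [hx] at h
  exact h

theorem pow_val_one {p : ℕ} (hp : p.Prime) (x : G) : x ^ (1 : ZMod p).val = x := by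
  have : Fact (1 < p) := ⟨hp.one_lt⟩
  rw [ZMod.val_one, pow_one]

/-- the units `u` with `x ^ u` conjugate to `x`. -/
def E (p : ℕ) (hp : p.Prime) (x : G) (hx : orderOf x = p) : Subgroup (ZMod p)ˣ where
  carrier := {u | IsConj x (x ^ (u : ZMod p).val)}
  one_mem' := by
    show IsConj x (x ^ ((1 : (ZMod p)ˣ) : ZMod p).val)
    rw [Units.val_one, pow_val_one hp]
  mul_mem' := by
    intro a b ha hb
    show IsConj x (x ^ ((a * b : (ZMod p)ˣ) : ZMod p).val)
    rw [Units.val_mul, pow_val_mul hx]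
    exact hb.trans (ha.pow _)
  inv_mem' := by
    intro a ha
    show IsConj x (x ^ ((a⁻¹ : (ZMod p)ˣ) : ZMod p).val)
    have h := (IsConj.pow ((a⁻¹ : (ZMod p)ˣ) : ZMod p).val ha).symm
    rw [← pow_val_mul hx, Units.mul_inv, pow_val_one hp] at h
    exact h

theorem mem_E {p : ℕ} (hp : p.Prime) {x : G} (hx : orderOf x = p) (u : (ZMod p)ˣ) :
    u ∈ E p hp x hx ↔ IsConj x (x ^ (u : ZMod p).val) := Iff.rfl

theorem exists_unit_of_mem_zpowers {p : ℕ} (hp : p.Prime) {x : G} (hx : orderOf x = p) {y : G}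
    (hy : y ∈ zpowers x) (hy1 : y ≠ 1) : ∃ u : (ZMod p)ˣ, y = x ^ (u : ZMod p).val := by
  have hfin : IsOfFinOrder x := by
    rw [← orderOf_pos_iff, hx]; exact hp.pos
  obtain ⟨n, hn⟩ := (hfin.mem_powers_iff_mem_zpowers).2 hy
  have hn' : x ^ n = y := hn
  have hcop : Nat.Coprime n p := by
    rw [Nat.coprime_comm, hp.coprime_iff_not_dvd]
    intro hdvd
    apply hy1
    rw [← hn', ← hx] at *
    exact orderOf_dvd_iff_pow_eq_one.1 hdvd
  refine ⟨ZMod.unitOfCoprime n hcop, ?_⟩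
  rw [ZMod.coe_unitOfCoprime, ZMod.val_natCast, ← hn']
  have h := pow_mod_orderOf x n
  rw [hx] at h
  exact h.symm

theorem orderOf_pow_unit {p : ℕ} {x : G} (hx : orderOf x = p) (u : (ZMod p)ˣ) :
    orderOf (x ^ (u : ZMod p).val) = p := by
  have h : (orderOf x).Coprime (u : ZMod p).val := by
    rw [hx, Nat.coprime_comm]
    exact ZMod.val_coe_unit_coprime u
  rw [h.orderOf_pow, hx]

theorem pow_unit_eq_iff {p : ℕ} (hp : p.Prime) {x : G} (hx : orderOf x = p) (u : (ZMod p)ˣ) :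
    x ^ (u : ZMod p).val = x ↔ u = 1 := by
  have : Fact p.Prime := ⟨hp⟩
  have : Fact (1 < p) := ⟨hp.one_lt⟩
  constructor
  · intro h
    have h1 : x ^ (u : ZMod p).val = x ^ 1 := by rw [h, pow_one]
    rw [pow_eq_pow_iff_modEq, hx] at h1
    have h2 : (u : ZMod p).val = 1 := by
      have := Nat.ModEq.eq_of_lt_of_lt h1 (ZMod.val_lt _) hp.one_lt
      exact this
    ext
    rw [Units.val_one, ← ZMod.val_injective p |>.eq_iff, h2, ZMod.val_one]
  · rintro rfl
    rw [Units.val_one, pow_val_one hp]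

variable [Finite G]

/-- any element of order `p` is conjugate to a power of `x`. -/
theorem exists_conj_mem_zpowers (p : ℕ) (hp : p.Prime) (x : G) (hx : orderOf x = p)
    (hC : centralizer ({x} : Set G) = zpowers x) (y : G) (hy : orderOf y = p) :
    ∃ g : G, g * y * g⁻¹ ∈ zpowers x := by
  have : Fact p.Prime := ⟨hp⟩
  obtain ⟨P, hP⟩ := exists_sylow p hp x hx hC
  have hPG : IsPGroup p (zpowers y) :=
    IsPGroup.of_card (n := 1) (by rw [Nat.card_zpowers, hy, pow_one])
  obtain ⟨Q, hQ⟩ := hPG.exists_le_sylow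
  obtain ⟨g, hg⟩ := MulAction.exists_smul_eq G Q P
  have hyQ : y ∈ (Q : Subgroup G) := hQ (mem_zpowers _)
  refine ⟨g, ?_⟩
  rw [← hP, ← hg, Sylow.coe_subgroup_smul]
  exact ⟨y, hyQ, by simp [MulAut.conj_apply]⟩

theorem card_classes (p : ℕ) (hp : p.Prime) (x : G) (hx : orderOf x = p)
    (hC : centralizer ({x} : Set G) = zpowers x) :
    Nat.card {C : ConjClasses G // ∃ g ∈ C.carrier, orderOf g = p} = (E p hp x hx).index := by
  let F : (ZMod p)ˣ → {C : ConjClasses G // ∃ g ∈ C.carrier, orderOf g = p} := fun u =>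
    ⟨ConjClasses.mk (x ^ (u : ZMod p).val), x ^ (u : ZMod p).val, ConjClasses.mem_carrier_mk,
      orderOf_pow_unit hx u⟩
  have hF : ∀ u v : (ZMod p)ˣ, F u = F v ↔ u⁻¹ * v ∈ E p hp x hx := by
    intro u v
    rw [mem_E, Subtype.ext_iff]
    show ConjClasses.mk _ = ConjClasses.mk _ ↔ _
    rw [ConjClasses.mk_eq_mk_iff_isConj]
    constructor
    · intro h
      have h1 := IsConj.pow ((u⁻¹ : (ZMod p)ˣ) : ZMod p).val h
      rw [← pow_val_mul hx, ← pow_val_mul hx, Units.mul_inv, pow_val_one hp, mul_comm] at h1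
      rw [Units.val_mul]; exact h1
    · intro h
      have h1 := IsConj.pow (u : ZMod p).val h
      rw [← pow_val_mul hx, Units.val_mul, mul_comm, ← mul_assoc, Units.mul_inv, one_mul] at h1
      exact h1
  have hsurj : Function.Surjective F := by
    rintro ⟨C, g, hgC, hg⟩
    obtain ⟨a, ha⟩ := exists_conj_mem_zpowers p hp x hx hC g hg
    have ha1 : a * g * a⁻¹ ≠ 1 := by
      intro h
      have : g = 1 := by
        have := congrArg (fun w => a⁻¹ * w * a) h
        simpa [mul_assoc] using this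
      exact ne_one_of_orderOf hp hg this
    obtain ⟨u, hu⟩ := exists_unit_of_mem_zpowers hp hx ha ha1
    refine ⟨u, ?_⟩
    rw [Subtype.ext_iff]
    show ConjClasses.mk _ = C
    rw [← hu, ← ConjClasses.mem_carrier_iff_mk_eq.1 hgC, ConjClasses.mk_eq_mk_iff_isConj]
    exact (isConj_iff.2 ⟨a, rfl⟩).symm
  symm
  refine Nat.card_congr (Equiv.ofBijective
    (Quotient.lift F (fun a b h => (hF a b).2 (QuotientGroup.leftRel_apply.1 h))) ⟨?_, ?_⟩)
  · intro a b
    refine Quotient.inductionOn₂ a b ?_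
    intro a b h
    exact Quotient.sound (QuotientGroup.leftRel_apply.2 ((hF a b).1 h))
  · intro c
    obtain ⟨u, hu⟩ := hsurj c
    exact ⟨Quotient.mk _ u, hu⟩

theorem card_E_mul_card_classes (p : ℕ) (hp : p.Prime) (x : G) (hx : orderOf x = p)
    (hC : centralizer ({x} : Set G) = zpowers x) :
    Nat.card (E p hp x hx) * Nat.card {C : ConjClasses G // ∃ g ∈ C.carrier, orderOf g = p} = p - 1 := by
  have : Fact p.Prime := ⟨hp⟩
  rw [card_classes p hp x hx hC, card_mul_index, Nat.card_eq_fintype_card, ZMod.card_units]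


/-- an element of the normalizer acts on `x` as a unit in `E`. -/
theorem exists_mem_E_of_mem_normalizer (p : ℕ) (hp : p.Prime) (x : G) (hx : orderOf x = p)
    {n : G} (hn : n ∈ normalizer (zpowers x : Set G)) :
    ∃ u ∈ E p hp x hx, n * x * n⁻¹ = x ^ (u : ZMod p).val := by
  have h1 : n * x * n⁻¹ ∈ zpowers x := (mem_normalizer_iff.1 hn x).1 (mem_zpowers x)
  have h2 : n * x * n⁻¹ ≠ 1 := by
    intro h
    have : x = 1 := by
      have := congrArg (fun w => n⁻¹ * w * n) h
      simpa [mul_assoc] using this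
    exact ne_one_of_orderOf hp hx this
  obtain ⟨u, hu⟩ := exists_unit_of_mem_zpowers hp hx h1 h2
  exact ⟨u, (mem_E hp hx u).2 (hu ▸ isConj_iff.2 ⟨n, rfl⟩), hu⟩

/-- if `E ≠ ⊥` then `x` lies in the commutator subgroup. -/
theorem mem_commutator_of_E_ne_bot (p : ℕ) (hp : p.Prime) (x : G) (hx : orderOf x = p)
    (hE : E p hp x hx ≠ ⊥) : x ∈ commutator G := by
  obtain ⟨⟨u, hu⟩, hu1'⟩ := (Subgroup.ne_bot_iff_exists_ne_one).1 hE
  have hu1 : u ≠ 1 := fun h => hu1' (Subtype.ext h)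
  obtain ⟨g, hg⟩ := isConj_iff.1 ((mem_E hp hx u).1 hu)
  have hc : ⁅g, x⁆ ∈ commutator G := by
    rw [commutator_eq_closure]; exact subset_closure ⟨g, x, rfl⟩
  have hc' : ⁅g, x⁆ = x ^ (u : ZMod p).val * x⁻¹ := by
    rw [commutatorElement_def, hg]
  have h1 : ⁅g, x⁆ ∈ zpowers x := by
    rw [hc']; exact mul_mem (pow_mem (mem_zpowers x) _) (inv_mem (mem_zpowers x))
  have h2 : ⁅g, x⁆ ≠ 1 := by
    rw [hc']; intro h
    exact hu1 ((pow_unit_eq_iff hp hx u).1 (mul_inv_eq_one.1 h))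
  exact (zpowers_le.2 hc) (mem_zpowers_of_ne_one hp hx h1 h2)

/-- if `E ≠ ⊥` then the index of the commutator subgroup is at most `|E|`. -/
theorem index_commutator_le (p : ℕ) (hp : p.Prime) (x : G) (hx : orderOf x = p)
    (hC : centralizer ({x} : Set G) = zpowers x) (hE : E p hp x hx ≠ ⊥) :
    (commutator G).index ≤ Nat.card (E p hp x hx) := by
  have hxc := mem_commutator_of_E_ne_bot p hp x hx hE
  have hch : ∀ u : E p hp x hx, ∃ g : G, g * x * g⁻¹ = x ^ ((u : (ZMod p)ˣ) : ZMod p).val :=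
    fun u => isConj_iff.1 ((mem_E hp hx u).1 u.2)
  choose γ hγ using hch
  have : Finite (ZMod p)ˣ := by
    have : NeZero p := ⟨hp.ne_zero⟩
    infer_instance
  refine Nat.card_le_card_of_surjective (fun u : E p hp x hx => (QuotientGroup.mk (γ u) : G ⧸ commutator G)) ?_
  intro y
  obtain ⟨g, rfl⟩ := QuotientGroup.mk_surjective y
  obtain ⟨s, hs, n, hn, rfl⟩ := frattini p hp x hx hC (commutator G) hxc g
  obtain ⟨u, hu, hnu⟩ := exists_mem_E_of_mem_normalizer p hp x hx hn
  refine ⟨⟨u, hu⟩, ?_⟩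
  have h1 : γ ⟨u, hu⟩ * x * (γ ⟨u, hu⟩)⁻¹ = n * x * n⁻¹ := by rw [hγ, hnu]
  have h2 : (γ ⟨u, hu⟩)⁻¹ * n ∈ zpowers x := by
    rw [← hC, mem_centralizer_singleton]
    have := congrArg (fun w => (γ ⟨u, hu⟩)⁻¹ * w * n) h1
    simp only [mul_assoc, inv_mul_cancel_left, inv_mul_cancel, mul_one] at this
    rw [this, mul_assoc]
  have h3 : (γ ⟨u, hu⟩)⁻¹ * (s * n) ∈ commutator G := by
    have e : (γ ⟨u, hu⟩)⁻¹ * (s * n) = ((γ ⟨u, hu⟩)⁻¹ * s * (γ ⟨u, hu⟩)⁻¹⁻¹) * ((γ ⟨u, hu⟩)⁻¹ * n) := by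
      simp [mul_assoc]
    rw [e]
    exact mul_mem ((inferInstance : (commutator G).Normal).conj_mem s hs _) ((zpowers_le.2 hxc) h2)
  exact QuotientGroup.eq.2 h3

/-- if `E = ⊥` then the commutator subgroup is a normal `p`-complement. -/
theorem commutator_of_E_eq_bot (p : ℕ) (hp : p.Prime) (x : G) (hx : orderOf x = p)
    (hC : centralizer ({x} : Set G) = zpowers x) (hE : E p hp x hx = ⊥) :
    (commutator G).index = p ∧ ¬ p ∣ Nat.card (commutator G) := by
  have : Fact p.Prime := ⟨hp⟩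
  obtain ⟨P, hP⟩ := exists_sylow p hp x hx hC
  have hN : normalizer ((P : Subgroup G) : Set G) ≤ centralizer ((P : Subgroup G) : Set G) := by
    rw [hP]
    intro n hn
    obtain ⟨u, hu, hnu⟩ := exists_mem_E_of_mem_normalizer p hp x hx hn
    rw [hE, mem_bot] at hu
    rw [hu, Units.val_one, pow_val_one hp] at hnu
    have hcomm : Commute x n := by
      have := congrArg (fun w => w * n) hnu
      simp only [inv_mul_cancel_right] at this
      exact this.symm
    rw [mem_centralizer_iff]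
    rintro y ⟨k, rfl⟩
    exact (hcomm.zpow_left k)
  have hK := MonoidHom.ker_transferSylow_isComplement' P hN
  have hKp := MonoidHom.not_dvd_card_ker_transferSylow P hN
  set K := (MonoidHom.transferSylow P hN).ker with hKdef
  have hidx : K.index = p := by
    rw [hK.symm.index_eq_card, hP, Nat.card_zpowers, hx]
  have hcommP : ∀ a b : (P : Subgroup G), a * b = b * a := by
    intro a b
    have ha : (a : G) ∈ zpowers x := hP ▸ a.2
    have hb : (b : G) ∈ zpowers x := hP ▸ b.2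
    obtain ⟨i, hi⟩ := ha
    obtain ⟨j, hj⟩ := hb
    ext
    simp only [Subgroup.coe_mul, ← hi, ← hj, ← zpow_add, add_comm]
  have h1 : commutator G ≤ K := by
    rw [commutator_eq_closure, closure_le]
    rintro _ ⟨a, b, rfl⟩
    rw [SetLike.mem_coe, hKdef, MonoidHom.mem_ker, commutatorElement_def, map_mul, map_mul, map_mul,
      map_inv, map_inv, hcommP (MonoidHom.transferSylow P hN a)]
    simp
  have h2 : K ≤ commutator G := by
    intro t ht
    obtain ⟨s, _, hs'⟩ := exists_comm_eq p hp x hx hC K hKp t ht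
    rw [← hs', commutator_eq_closure]
    exact subset_closure ⟨x⁻¹, s, by rw [commutatorElement_def, inv_inv]⟩
  have h3 : commutator G = K := le_antisymm h1 h2
  rw [h3]
  exact ⟨hidx, hKp⟩

theorem E_eq_bot_iff (p : ℕ) (hp : p.Prime) (x : G) (hx : orderOf x = p)
    (hC : centralizer ({x} : Set G) = zpowers x) :
    E p hp x hx = ⊥ ↔ Nat.card {C : ConjClasses G // ∃ g ∈ C.carrier, orderOf g = p} = p - 1 := by
  have h := card_E_mul_card_classes p hp x hx hC
  have hp1 : 0 < p - 1 := Nat.sub_pos_of_lt hp.one_lt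
  constructor
  · intro hE
    rw [hE, card_bot, one_mul] at h
    exact h
  · intro ht
    rw [ht] at h
    have : Nat.card (E p hp x hx) = 1 := by
      have := Nat.eq_of_mul_eq_mul_right hp1 (h.trans (one_mul _).symm)
      exact this
    exact card_eq_one.1 this

end Cfsg.Agent.Lib.Helper78SelfCentB
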