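import Cfsg.Agent.Lib.Helper78SelfCentB
import Cfsg.Prelude.Def_Solvable

set_option autoImplicit false

namespace Cfsg.Agent.Lib.Helper78SelfCentC

open Subgroup Cfsg.Agent.Lib.Helper78SelfCent Cfsg.Agent.Lib.Helper78SelfCentB
open scoped commutatorElement

variable {G : Type*} [Group G]

theorem pPrimeCore_normal' (p : ℕ) : (Cfsg.pPrimeCore p G).Normal :=
  Subgroup.sSup_normal _ (fun _ h => h.1)

theorem card_mul_relIndex' {H K : Subgroup G} (h : H ≤ K) :
    Nat.card H * H.relIndex K = Nat.card K := by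
  have := Subgroup.relIndex_mul_relIndex ⊥ H K bot_le h
  rwa [Subgroup.relIndex_bot_left, Subgroup.relIndex_bot_left] at this

theorem card_sup_coprime' [Finite G] {p : ℕ} {N K : Subgroup G} [N.Normal]
    (hN : (Nat.card N).Coprime p) (hK : (Nat.card K).Coprime p) :
    (Nat.card (N ⊔ K : Subgroup G)).Coprime p := by
  rw [← card_mul_relIndex' (le_sup_left : N ≤ N ⊔ K), Subgroup.relIndex_sup_left]
  exact Nat.Coprime.mul_left hN (Nat.Coprime.coprime_dvd_left (Subgroup.relIndex_dvd_card N K) hK)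

theorem card_pPrimeCore_coprime' [Finite G] (p : ℕ) :
    (Nat.card (Cfsg.pPrimeCore p G)).Coprime p := by
  classical
  let 𝒮 : Set (Subgroup G) := {N | N.Normal ∧ (Nat.card N).Coprime p}
  have hne : 𝒮.Nonempty := ⟨⊥, Subgroup.normal_bot, by simp⟩
  obtain ⟨N₀, hN₀, hmax⟩ := Set.exists_max_image 𝒮 (fun N => Nat.card N) (Set.toFinite _) hne
  have hall : ∀ N ∈ 𝒮, N ≤ N₀ := by
    intro N hN
    have := hN₀.1
    have := hN.1
    have hsup : N₀ ⊔ N ∈ 𝒮 := ⟨inferInstance, card_sup_coprime' hN₀.2 hN.2⟩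
    have h1 := hmax _ hsup
    have h2 : N₀ = N₀ ⊔ N := Subgroup.eq_of_le_of_card_ge le_sup_left h1
    rw [h2]; exact le_sup_right
  have : Cfsg.pPrimeCore p G = N₀ := le_antisymm (sSup_le hall) (le_sSup hN₀)
  rw [this]; exact hN₀.2

theorem pPrimeCore_characteristic (p : ℕ) : (Cfsg.pPrimeCore p G).Characteristic := by
  rw [characteristic_iff_map_le]
  intro φ
  unfold Cfsg.pPrimeCore
  rw [(gc_map_comap φ.toMonoidHom).l_sSup]
  refine iSup₂_le fun N hN => le_sSup ⟨?_, ?_⟩
  · exact hN.1.map _ φ.surjective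
  · rw [card_map_of_injective φ.injective]
    exact hN.2

/-- the hypotheses pass to a subgroup containing `x`. -/
theorem centralizer_subgroup (x : G) (hC : centralizer ({x} : Set G) = zpowers x)
    (D : Subgroup G) (hxD : x ∈ D) :
    centralizer ({(⟨x, hxD⟩ : D)} : Set D) = zpowers (⟨x, hxD⟩ : D) := by
  ext y
  rw [mem_centralizer_singleton]
  have h1 : (⟨x, hxD⟩ : D) * y = y * ⟨x, hxD⟩ ↔ x * (y : G) = y * x := by
    rw [Subtype.ext_iff]; rfl
  rw [h1, ← mem_centralizer_singleton, hC, mem_zpowers_iff, mem_zpowers_iff]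
  refine exists_congr fun k => ?_
  rw [Subtype.ext_iff]; rfl

variable [Finite G]

theorem pPrimeCore_le_commutator (p : ℕ) (hp : p.Prime) (x : G) (hx : orderOf x = p)
    (hC : centralizer ({x} : Set G) = zpowers x) : Cfsg.pPrimeCore p G ≤ commutator G := by
  refine sSup_le ?_
  rintro N ⟨hN, hcop⟩ t ht
  have hN' : ¬ p ∣ Nat.card N := by
    rw [Nat.coprime_comm, hp.coprime_iff_not_dvd] at hcop; exact hcop
  obtain ⟨s, _, hs'⟩ := exists_comm_eq p hp x hx hC N hN' t ht
  rw [← hs', commutator_eq_closure]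
  exact subset_closure ⟨x⁻¹, s, by rw [commutatorElement_def, inv_inv]⟩

theorem not_dvd_card_pPrimeCore (p : ℕ) (hp : p.Prime) : ¬ p ∣ Nat.card (Cfsg.pPrimeCore p G) := by
  have := card_pPrimeCore_coprime' (G := G) p
  rw [Nat.coprime_comm, hp.coprime_iff_not_dvd] at this; exact this

/-- a subgroup `T` of `G'` that is normal in `G'` and contains `x` is all of `G'`. -/
theorem eq_top_of_mem (p : ℕ) (hp : p.Prime) (x : G) (hx : orderOf x = p)
    (hC : centralizer ({x} : Set G) = zpowers x) (hxD : x ∈ commutator G)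
    (T : Subgroup (commutator G)) [T.Normal] (hxT : (⟨x, hxD⟩ : commutator G) ∈ T) : T = ⊤ := by
  have hconj : ∀ g : G, g * x * g⁻¹ ∈ T.map (commutator G).subtype := by
    intro g
    obtain ⟨d, hd, n, hn, rfl⟩ := frattini p hp x hx hC (commutator G) hxD g
    have h1 : n * x * n⁻¹ ∈ zpowers x := (mem_normalizer_iff.1 hn x).1 (mem_zpowers x)
    obtain ⟨k, hk⟩ := h1
    have h2 : (⟨x, hxD⟩ : commutator G) ^ k ∈ T := zpow_mem hxT k
    have h3 := ‹T.Normal›.conj_mem _ h2 ⟨d, hd⟩
    refine ⟨_, h3, ?_⟩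
    simp only [Subgroup.subtype_apply, Subgroup.coe_mul, Subgroup.coe_zpow, Subgroup.coe_inv]
    have hk' : x ^ k = n * x * n⁻¹ := hk
    rw [hk']
    simp [mul_assoc]
  have h4 : normalClosure ({x} : Set G) ≤ T.map (commutator G).subtype := by
    unfold normalClosure
    rw [closure_le]
    intro y hy
    obtain ⟨a, ha, hay⟩ := Group.mem_conjugatesOfSet_iff.1 hy
    rw [Set.mem_singleton_iff] at ha
    subst ha
    obtain ⟨g, hg⟩ := isConj_iff.1 hay
    rw [← hg]; exact hconj g
  have h5 : commutator G ≤ normalClosure ({x} : Set G) :=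
    commutator_le_of_mem p hp x hx hC _ (subset_normalClosure (Set.mem_singleton x))
  rw [eq_top_iff]
  intro y _
  obtain ⟨z, hz, hzy⟩ := h4 (h5 y.2)
  have : z = y := Subtype.ext hzy
  rwa [← this]

/-- a normal `p'`-subgroup of `G'` lies in `O_{p'}(G)`. -/
theorem le_subgroupOf_of_not_dvd (p : ℕ) (hp : p.Prime)
    (T : Subgroup (commutator G)) [hT : T.Normal] (hTp : ¬ p ∣ Nat.card T) :
    T ≤ (Cfsg.pPrimeCore p G).subgroupOf (commutator G) := by
  have h1 : T ≤ Cfsg.pPrimeCore p (commutator G) :=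
    le_sSup ⟨hT, by rw [Nat.coprime_comm, hp.coprime_iff_not_dvd]; exact hTp⟩
  have : (Cfsg.pPrimeCore p (commutator G)).Characteristic := pPrimeCore_characteristic p
  have h2 : ((Cfsg.pPrimeCore p (commutator G)).map (commutator G).subtype).Normal := inferInstance
  have h3 : (Cfsg.pPrimeCore p (commutator G)).map (commutator G).subtype ≤ Cfsg.pPrimeCore p G := by
    refine le_sSup ⟨h2, ?_⟩
    rw [card_map_of_injective (subtype_injective _)]
    exact card_pPrimeCore_coprime' p
  intro y hy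
  rw [mem_subgroupOf]
  exact h3 ⟨y, h1 hy, rfl⟩

theorem isSimpleGroup_quotient (p : ℕ) (hp : p.Prime) (x : G) (hx : orderOf x = p)
    (hC : centralizer ({x} : Set G) = zpowers x) (hE : E p hp x hx ≠ ⊥)
    (h : ((Cfsg.pPrimeCore p G).subgroupOf (commutator G)).Normal) :
    IsSimpleGroup (↥(commutator G) ⧸ (Cfsg.pPrimeCore p G).subgroupOf (commutator G)) := by
  have hxD := mem_commutator_of_E_ne_bot p hp x hx hE
  have hxS : x ∉ Cfsg.pPrimeCore p G := by
    intro hxS
    exact ne_one_of_orderOf hp hx (eq_one_of_mem_of_mem_zpowers hp hx _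
      (not_dvd_card_pPrimeCore p hp) hxS (mem_zpowers x))
  have hnt : Nontrivial (↥(commutator G) ⧸ (Cfsg.pPrimeCore p G).subgroupOf (commutator G)) := by
    refine ⟨⟨QuotientGroup.mk ⟨x, hxD⟩, 1, ?_⟩⟩
    rw [Ne, QuotientGroup.eq_one_iff, mem_subgroupOf]
    exact hxS
  refine { toNontrivial := hnt, eq_bot_or_eq_top_of_normal := ?_ }
  intro H hH
  let T : Subgroup (commutator G) := H.comap (QuotientGroup.mk' _)
  have hTn : T.Normal := hH.comap _
  by_cases hTp : p ∣ Nat.card T
  · right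
    have hx' : orderOf (⟨x, hxD⟩ : commutator G) = p := by rw [Subgroup.orderOf_mk, hx]
    have hxT := mem_of_dvd_card p hp (⟨x, hxD⟩ : commutator G) hx'
      (centralizer_subgroup x hC _ hxD) T hTp
    have hT := eq_top_of_mem p hp x hx hC hxD T hxT
    rw [eq_top_iff]
    intro y _
    obtain ⟨z, rfl⟩ := QuotientGroup.mk_surjective y
    have : z ∈ T := hT ▸ mem_top z
    exact this
  · left
    have hT := le_subgroupOf_of_not_dvd p hp T hTp
    rw [eq_bot_iff]
    intro y hy
    obtain ⟨z, rfl⟩ := QuotientGroup.mk_surjective y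
    have hz : z ∈ T := hy
    rw [mem_bot, QuotientGroup.eq_one_iff]
    exact hT hz

theorem commutator_eq_pPrimeCore (p : ℕ) (hp : p.Prime) (x : G) (hx : orderOf x = p)
    (hC : centralizer ({x} : Set G) = zpowers x) (hE : E p hp x hx = ⊥) :
    commutator G = Cfsg.pPrimeCore p G := by
  refine le_antisymm (le_sSup ⟨inferInstance, ?_⟩) (pPrimeCore_le_commutator p hp x hx hC)
  rw [Nat.coprime_comm, hp.coprime_iff_not_dvd]
  exact (commutator_of_E_eq_bot p hp x hx hC hE).2

end Cfsg.Agent.Lib.Helper78SelfCentC
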