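import Mathlib
import Cfsg.Prelude.Def_Blocks
import Cfsg.Agent.Lib.Helper20Local

set_option autoImplicit false

namespace Cfsg.Agent.Lib.Helper79Ideal

open Cfsg Polynomial

/-- the complex number `z` is (the value of) an element of the ideal `M`. -/
def InI (M : Ideal Cfsg.AlgInt) (z : ℂ) : Prop := ∃ r ∈ M, (r : ℂ) = z

variable {M : Ideal Cfsg.AlgInt}

theorem InI.zero : InI M 0 := ⟨0, M.zero_mem, rfl⟩

theorem InI.add {x y : ℂ} (hx : InI M x) (hy : InI M y) : InI M (x + y) := by
  obtain ⟨a, ha, rfl⟩ := hx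
  obtain ⟨b, hb, rfl⟩ := hy
  exact ⟨a + b, M.add_mem ha hb, rfl⟩

theorem InI.neg {x : ℂ} (hx : InI M x) : InI M (-x) := by
  obtain ⟨a, ha, rfl⟩ := hx
  exact ⟨-a, M.neg_mem ha, rfl⟩

theorem InI.sub {x y : ℂ} (hx : InI M x) (hy : InI M y) : InI M (x - y) := by
  rw [sub_eq_add_neg]; exact hx.add hy.neg

theorem InI.mul {x y : ℂ} (hx : InI M x) (hy : InI M y) : InI M (x * y) := by
  obtain ⟨a, ha, rfl⟩ := hx
  obtain ⟨b, hb, rfl⟩ := hy
  exact ⟨a * b, M.mul_mem_left a hb, rfl⟩

theorem prod_coeff (S : Multiset ℂ) (hS : ∀ s ∈ S, InI M s) (i : ℕ) :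
    InI M (((S.map (fun s => X - C s)).prod - X ^ (Multiset.card S)).coeff i) := by
  induction S using Multiset.induction_on generalizing i with
  | empty => simpa using InI.zero
  | cons s S ih =>
    have hs : InI M s := hS s (Multiset.mem_cons_self s S)
    have ih' := ih (fun t ht => hS t (Multiset.mem_cons_of_mem ht))
    set Q := (S.map (fun s => X - C s)).prod - X ^ (Multiset.card S) with hQ
    have e : ((s ::ₘ S).map (fun s => X - C s)).prod - X ^ (Multiset.card (s ::ₘ S)) =
        X * Q - C s * Q - C s * X ^ (Multiset.card S) := by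
      rw [Multiset.map_cons, Multiset.prod_cons, Multiset.card_cons, hQ, pow_succ]
      ring
    rw [e, coeff_sub, coeff_sub, coeff_C_mul, coeff_C_mul, coeff_X_pow]
    refine InI.sub (InI.sub ?_ (hs.mul (ih' i))) ?_
    · cases i with
      | zero => simpa using InI.zero
      | succ j => rw [coeff_X_mul]; exact ih' j
    · split_ifs
      · simpa using hs
      · simpa using InI.zero

/-- an algebraic integer all of whose conjugates lie in one maximal ideal over `p` lies in
every maximal ideal over `p`. -/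
theorem mem_of_conjugates {p : ℕ} {M M' : Ideal Cfsg.AlgInt} (hM : IsPModular p M)
    (hM' : IsPModular p M') (α : ℂ) (hα : IsIntegral ℤ α)
    (h : ∀ β ∈ (minpoly ℚ α).rootSet ℂ, InI M β) : InI M' α := by
  set f := minpoly ℤ α with hf
  have hmon : f.Monic := minpoly.monic hα
  set fC := f.map (algebraMap ℤ ℂ) with hfC
  have hmonC : fC.Monic := hmon.map _
  have hsplit : fC.Splits := IsAlgClosed.splits _
  have hfac := hsplit.eq_prod_roots_of_monic hmonC
  have hroots : ∀ β ∈ fC.roots, InI M β := by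
    intro β hβ
    apply h
    rw [mem_rootSet]
    refine ⟨minpoly.ne_zero (hα.tower_top), ?_⟩
    rw [minpoly.isIntegrallyClosed_eq_field_fractions' ℚ hα, aeval_map_algebraMap]
    have := (mem_roots hmonC.ne_zero).mp hβ
    rw [IsRoot.def, hfC, eval_map_algebraMap] at this
    exact this
  have hcard : Multiset.card fC.roots = f.natDegree := by
    rw [← hsplit.natDegree_eq_card_roots, hfC, hmon.natDegree_map]
  have hcoeff : ∀ i < f.natDegree, (p : ℤ) ∣ f.coeff i := by
    intro i hi
    have := prod_coeff (M := M) fC.roots hroots i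
    rw [← hfac, hcard, coeff_sub, coeff_X_pow, if_neg hi.ne, sub_zero, hfC, coeff_map] at this
    obtain ⟨r, hr, hr'⟩ := this
    have : r = ((f.coeff i : ℤ) : Cfsg.AlgInt) := by
      apply Subtype.ext
      rw [hr']
      simp
    rw [this] at hr
    exact (Helper20Local.intCast_mem_iff hM _).mp hr
  let a : Cfsg.AlgInt := ⟨α, hα⟩
  have haev : aeval a f = 0 := by
    apply Subtype.ext
    have h1 := aeval_algebraMap_apply ℂ a f
    have h2 : aeval α f = 0 := minpoly.aeval ℤ α
    have h3 : algebraMap Cfsg.AlgInt ℂ a = α := rfl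
    rw [h3, h2] at h1
    exact h1.symm
  rw [hmon.as_sum] at haev
  simp only [map_add, map_pow, aeval_X, map_sum, map_mul, aeval_C] at haev
  have hsum : ∑ i ∈ Finset.range f.natDegree, algebraMap ℤ Cfsg.AlgInt (f.coeff i) * a ^ i ∈ M' := by
    apply M'.sum_mem
    intro i hi
    apply M'.mul_mem_right
    have := (Helper20Local.intCast_mem_iff hM' (f.coeff i)).mpr (hcoeff i (Finset.mem_range.mp hi))
    simpa using this
  have hpow : a ^ f.natDegree ∈ M' := by
    have : a ^ f.natDegree =
        -∑ i ∈ Finset.range f.natDegree, algebraMap ℤ Cfsg.AlgInt (f.coeff i) * a ^ i := by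
      linear_combination haev
    rw [this]
    exact M'.neg_mem hsum
  have hprime : M'.IsPrime := hM'.2.1.isPrime
  exact ⟨a, hprime.mem_of_pow_mem _ hpow, rfl⟩

end Cfsg.Agent.Lib.Helper79Ideal
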