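import Mathlib
import Cfsg.Prelude.Def_BrauerPairs
import Cfsg.Prelude.Def_Transfer
import Cfsg.Agent.Lib.Helper80Principal
import Cfsg.Agent.Lib.Helper11Frobenius

/-!
# The principal block is nilpotent iff the group has a normal `p`-complement.
-/

set_option autoImplicit false
set_option linter.unusedSectionVars false

namespace Cfsg.Agent.Lib.Helper79NilBlock

open Cfsg
open Cfsg.Agent.Lib.Helper20Local Cfsg.Agent.Lib.Helper20Block
open Cfsg.Agent.Lib.Helper80Principal Cfsg.Agent.Lib.Helper80Transport
open Cfsg.Agent.Lib.Helper80Pairs Cfsg.Agent.Lib.Helper11Frobenius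

variable {G : Type*} [Group G] [Fintype G] {M : Ideal Cfsg.AlgInt} {p : ℕ} [Fact p.Prime]

theorem stabilizes_principal (hM : IsPModular p M) (Q : Subgroup G) {x : G}
    (hx : x ∈ Subgroup.normalizer (Q : Set G)) :
    StabilizesBlock (Subgroup.centralizer (Q : Set G))
      (principalBlock M (Subgroup.centralizer (Q : Set G))) x := by
  classical
  have hPr := IsPModular.isPrime hM
  have hb := isPBlock_principal (M := M) (Subgroup.centralizer (Q : Set G))
  have hx' := normalizer_le_normalizer_centralizer Q hx
  refine (stabilizesBlock_iff hPr hb x).mpr ⟨hx', ?_⟩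
  have h := Subgroup.mem_normalizer_iff.mp hx'
  rw [← ext_blockCoeff_mapBlk x _ _ h, mapBlk_principal]

theorem nilpotent_iff_frobCond (hM : IsPModular p M) :
    IsNilpotentBlock p M (principalBlock M G) ↔ FrobCond p G := by
  constructor
  · intro h Q hQ g hg hco
    refine h.2 Q _ (isBrauerPairOf_principal hM hQ) g hg (stabilizes_principal hM Q hg) ?_
    intro hd
    exact (Nat.Prime.coprime_iff_not_dvd Fact.out).mp hco.symm hd
  · intro h
    refine ⟨isPBlock_principal G, ?_⟩
    intro Q e he x hx _ hreg
    exact h Q he.1.1 x hx ((Nat.Prime.coprime_iff_not_dvd Fact.out).mpr hreg).symm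

theorem nilpotent_iff_hasNPC (hM : IsPModular p M) :
    IsNilpotentBlock p M (principalBlock M G) ↔ HasNormalPComplement p G := by
  rw [nilpotent_iff_frobCond hM, ← hasNPC_iff_frobCond, hasNPC_iff]

end Cfsg.Agent.Lib.Helper79NilBlock
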