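import Cfsg.Agent.Lib.LeadAutDefs
import Cfsg.Agent.Lib.LeadChevMisc
import Cfsg.Agent.Lib.Helper22ChevBruhat
import Cfsg.Agent.Lib.Helper23RG2

set_option autoImplicit false
set_option linter.unusedSectionVars false

namespace Cfsg.Agent.Lib.Helper7AutA4

open Subgroup Cfsg.Agent.Lib.Helper23Grp Cfsg.Agent.Lib.Helper23RG Cfsg.Agent.Lib.Helper23RG.RG
  Cfsg.Agent.Lib.Helper23Weyl Cfsg.Agent.Lib.LeadAutDefs

variable {𝔾 K R I : Type*} [Group 𝔾] [Field K] [Fintype R] [DecidableEq R] {S : RG 𝔾 K R I}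

/-- elements of `P_i` lie in `B ∪ B n_i B` -/
theorem par_union (ok : S.Ok) (i : I) {g : 𝔾} (hg : g ∈ Par S i) :
    g ∈ S.B ∨ ∃ b1 ∈ S.B, ∃ b2 ∈ S.B, g = b1 * S.nn i * b2 := by
  obtain ⟨P, hP⟩ := exists_subgroup_union ok i
  have hmem : ∀ g, g ∈ P ↔ (g ∈ S.B ∨ ∃ b1 ∈ S.B, ∃ b2 ∈ S.B, g = b1 * S.nn i * b2) := by
    intro g
    rw [← SetLike.mem_coe, hP, Set.mem_union, DoubleCoset.mem_doubleCoset]; rfl
  have hle : Par S i ≤ P := by
    unfold Par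
    refine sup_le (fun b hb => (hmem b).2 (Or.inl hb)) ?_
    rw [zpowers_le]
    exact (hmem _).2 (Or.inr ⟨1, S.B.one_mem, 1, S.B.one_mem, by group⟩)
  exact (hmem g).1 (hle hg)

/-- `n_i * n_{-i}(1) ∈ H` -/
theorem nn_mul_nE_neg (ok : S.Ok) (i : I) : S.nn i * S.nE (S.neg (S.simple i)) 1 ∈ S.H := by
  have h1 := nn_conj_nE ok i (S.simple i) 1
  rw [ok.refl_simple, mul_one] at h1
  have h2 : S.nn i * S.nE (S.simple i) 1 * (S.nn i)⁻¹ = S.nn i := by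
    have : S.nE (S.simple i) 1 = S.nn i := rfl
    rw [this]; group
  rw [h2] at h1
  rcases ok.η_sq i (S.simple i) with h | h
  · rw [h] at h1
    rw [← h1]
    exact nn_sq_mem ok i
  · rw [h] at h1
    have h3 : S.nE (S.neg (S.simple i)) 1 = (S.nn i)⁻¹ := by
      rw [h1, nE_inv ok, neg_neg]
    rw [h3, mul_inv_cancel]
    exact S.H.one_mem

/-- A4 -/
theorem par_cases (h : AData S) (i : I) {g : 𝔾} (hg : g ∈ Par S i) :
    (∃ b ∈ S.B, ∃ t, g = b * S.x (S.neg (S.simple i)) t) ∨ ∃ b ∈ S.B, g = b * S.nn i := by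
  have ok := h.ok
  rcases par_union ok i hg with hB | ⟨b1, hb1, b2, hb2, rfl⟩
  · exact Or.inl ⟨g, hB, 0, by rw [x_zero ok, mul_one]⟩
  · obtain ⟨t, b', hb', rfl⟩ := B_right ok i hb2
    have hc : S.nn i * b' * (S.nn i)⁻¹ ∈ S.B := Bi_le_B ok i (nn_conj_Bi ok i hb')
    by_cases ht : t = 0
    · right
      subst ht
      refine ⟨b1 * (S.nn i * b' * (S.nn i)⁻¹), S.B.mul_mem hb1 hc, ?_⟩
      rw [x_zero ok]; group
    · left
      have hr := rank_one ok (S.neg (S.simple i)) ht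
      rw [ok.neg_neg] at hr
      have hx : S.nn i * S.x (S.neg (S.simple i)) t⁻¹ * (S.nn i)⁻¹ ∈ S.B := by
        rw [ok.n_conj, ok.refl_neg, ok.refl_simple, ok.neg_neg]
        exact U_le_B (x_mem_U (ok.pos_simple i) _)
      have hh : S.nn i * S.hE (S.neg (S.simple i)) (-t⁻¹) * (S.nn i)⁻¹ ∈ S.B :=
        H_le_B (nn_conj_H ok i _ (hE_mem_H _ (neg_ne_zero.2 (inv_ne_zero ht))))
      have hn : S.nn i * S.nE (S.neg (S.simple i)) 1 ∈ S.B := H_le_B (nn_mul_nE_neg ok i)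
      refine ⟨b1 * (S.nn i * b' * (S.nn i)⁻¹) * (S.nn i * S.x (S.neg (S.simple i)) t⁻¹ * (S.nn i)⁻¹) *
        (S.nn i * S.hE (S.neg (S.simple i)) (-t⁻¹) * (S.nn i)⁻¹) * (S.nn i * S.nE (S.neg (S.simple i)) 1),
        S.B.mul_mem (S.B.mul_mem (S.B.mul_mem (S.B.mul_mem hb1 hc) hx) hh) hn, t⁻¹, ?_⟩
      rw [hr]; group

end Cfsg.Agent.Lib.Helper7AutA4
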