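import Cfsg.Agent.Lib.LeadAutDefs
import Cfsg.Agent.Lib.LeadChevMisc
import Cfsg.Agent.Lib.Helper22ChevBruhat
import Cfsg.Agent.Lib.Helper23RG2

set_option autoImplicit false
set_option linter.unusedSectionVars false

namespace Cfsg.Agent.Lib.Helper7AutA5

open Subgroup Cfsg.Agent.Lib.Helper23Grp Cfsg.Agent.Lib.Helper23RG Cfsg.Agent.Lib.Helper23RG.RG
  Cfsg.Agent.Lib.Helper23Weyl Cfsg.Agent.Lib.LeadAutDefs

variable {𝔾 K R I : Type*} [Group 𝔾] [Field K] [Fintype R] [DecidableEq R] {S : RG 𝔾 K R I}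

/-- `X_{-i} ≤ P_i` -/
theorem x_neg_mem_par (ok : S.Ok) (i : I) (t : K) : S.x (S.neg (S.simple i)) t ∈ Par S i := by
  have hB : S.B ≤ Par S i := le_sup_left
  have hn : S.nn i ∈ Par S i := mem_sup_right (mem_zpowers _)
  have h := ok.n_conj i (S.simple i) (S.η i (S.simple i) * t)
  rw [← mul_assoc, η_mul_self ok, one_mul, ok.refl_simple] at h
  rw [← h]
  exact mul_mem (mul_mem hn (hB (U_le_B (x_mem_U (ok.pos_simple i) _)))) (inv_mem hn)

/-- A5 (uses A4 as a hypothesis) -/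
theorem par_inf_V (h : AData S) (i : I)
    (h4 : ∀ g ∈ Par S i, (∃ b ∈ S.B, ∃ t, g = b * S.x (S.neg (S.simple i)) t) ∨ ∃ b ∈ S.B, g = b * S.nn i)
    {g : 𝔾} : (g ∈ Par S i ∧ g ∈ S.V) ↔ g ∈ S.X (S.neg (S.simple i)) := by
  have ok := h.ok
  have hnp := not_pos_neg_simple ok i
  constructor
  · rintro ⟨hP, hV⟩
    rcases h4 g hP with ⟨b, hb, t, rfl⟩ | ⟨b, hb, rfl⟩
    · have hbV : b ∈ S.V := by
        have := S.V.mul_mem hV (S.V.inv_mem (x_mem_V hnp t))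
        simpa using this
      rw [h.hBV b hb hbV, one_mul]
      exact x_mem_X _ _
    · exfalso
      have h1 : (b * S.nn i) * S.x (S.neg (S.simple i)) 1 * (b * S.nn i)⁻¹ ∈ S.V :=
        S.V.mul_mem (S.V.mul_mem hV (x_mem_V hnp 1)) (S.V.inv_mem hV)
      have e : (b * S.nn i) * S.x (S.neg (S.simple i)) 1 * (b * S.nn i)⁻¹ =
          b * (S.nn i * S.x (S.neg (S.simple i)) 1 * (S.nn i)⁻¹) * b⁻¹ := by group
      have h2 : (b * S.nn i) * S.x (S.neg (S.simple i)) 1 * (b * S.nn i)⁻¹ ∈ S.B := by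
        rw [e, ok.n_conj, ok.refl_neg, ok.refl_simple, ok.neg_neg]
        exact S.B.mul_mem (S.B.mul_mem hb (U_le_B (x_mem_U (ok.pos_simple i) _))) (S.B.inv_mem hb)
      have h3 := h.hBV _ h2 h1
      have h4 : S.x (S.neg (S.simple i)) 1 = 1 := by
        have := congrArg (fun y => (b * S.nn i)⁻¹ * y * (b * S.nn i)) h3
        simpa [mul_assoc] using this
      exact one_ne_zero (ok.x_inj _ _ h4)
  · intro hg
    obtain ⟨t, rfl⟩ := (mem_X_iff ok).1 hg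
    exact ⟨x_neg_mem_par ok i t, x_mem_V hnp t⟩

end Cfsg.Agent.Lib.Helper7AutA5
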