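import Cfsg.Agent.Lib.LeadAutDefs
import Cfsg.Agent.Lib.LeadChevMisc
import Cfsg.Agent.Lib.Helper22ChevBruhat
import Cfsg.Agent.Lib.Helper23RG2

set_option autoImplicit false
set_option linter.unusedSectionVars false

namespace Cfsg.Agent.Lib.Helper7AutA7

open Subgroup Cfsg.Agent.Lib.Helper23Grp Cfsg.Agent.Lib.Helper23RG Cfsg.Agent.Lib.Helper23RG.RG
  Cfsg.Agent.Lib.Helper23Weyl Cfsg.Agent.Lib.LeadAutDefs

variable {𝔾 K R I : Type*} [Group 𝔾] [Field K] [Fintype R] [DecidableEq R] {S : RG 𝔾 K R I}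

/-- `n_k ∉ B` -/
theorem nn_not_mem_B (h : AData S) (k : I) : S.nn k ∉ S.B := by
  intro hB
  have ok := h.ok
  have hH : S.nn k ∈ S.H := by
    rw [← B_inf_N ok h.hUN]
    exact ⟨hB, nn_mem_N k⟩
  have e := Mon_unique ok h.hBV (Mon_H ok _ hH) (Mon_nn ok k)
  have e2 := congrArg (fun π : Equiv.Perm R => π (S.simple k)) e
  simp only [Equiv.Perm.coe_one, id_eq, reflPerm_apply, ok.refl_simple] at e2
  have := ok.pos_simple k
  rw [e2] at this
  exact not_pos_neg_simple ok k this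

theorem B_le_par (i : I) : S.B ≤ Par S i := le_sup_left

theorem nn_mem_par_self (i : I) : S.nn i ∈ Par S i := mem_sup_right (mem_zpowers _)

theorem par_le {M : Subgroup 𝔾} {i : I} (hB : S.B ≤ M) (hn : S.nn i ∈ M) : Par S i ≤ M :=
  sup_le hB ((zpowers_le).2 hn)

/-- an overgroup of `B` different from `B` contains some `n_j` -/
theorem exists_nn_mem (h : AData S) {M : Subgroup 𝔾} (hB : S.B ≤ M) (hne : ¬ M ≤ S.B) :
    ∃ j, S.nn j ∈ M := by
  by_contra hcon
  push Not at hcon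
  apply hne
  refine (h.ovr M hB).trans (sup_le le_rfl ?_)
  rw [closure_le]
  rintro _ ⟨j, rfl, hj⟩
  exact absurd hj (hcon j)

/-- one step: `θ P_i = P_j` for some `j` -/
theorem exists_image (h : AData S) (h6 : ∀ i k : I, S.nn k ∈ Par S i → k = i)
    {θ : 𝔾 ≃* 𝔾} (hB : ∀ g, θ g ∈ S.B ↔ g ∈ S.B) (i : I) :
    ∃ j, ∀ g, θ g ∈ Par S j ↔ g ∈ Par S i := by
  -- M = θ (P_i), described as a comap along θ.symm
  set M : Subgroup 𝔾 := (Par S i).comap θ.symm.toMonoidHom with hM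
  have memM : ∀ g, g ∈ M ↔ θ.symm g ∈ Par S i := fun g => Iff.rfl
  have hBM : S.B ≤ M := by
    intro b hb
    rw [memM]
    apply B_le_par i
    rw [← hB, MulEquiv.apply_symm_apply]
    exact hb
  have hne : ¬ M ≤ S.B := by
    intro hle
    have h1 : θ (S.nn i) ∈ M := by
      rw [memM, MulEquiv.symm_apply_apply]
      exact nn_mem_par_self i
    exact nn_not_mem_B h i ((hB _).1 (hle h1))
  obtain ⟨j, hj⟩ := exists_nn_mem h hBM hne
  have hjM : Par S j ≤ M := par_le hBM hj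
  set M' : Subgroup 𝔾 := (Par S j).comap θ.toMonoidHom with hM'
  have memM' : ∀ g, g ∈ M' ↔ θ g ∈ Par S j := fun g => Iff.rfl
  have hBM' : S.B ≤ M' := by
    intro b hb
    rw [memM']
    exact B_le_par j ((hB b).2 hb)
  have hne' : ¬ M' ≤ S.B := by
    intro hle
    have h1 : θ.symm (S.nn j) ∈ M' := by
      rw [memM', MulEquiv.apply_symm_apply]
      exact nn_mem_par_self j
    have h2 := (hB _).2 (hle h1)
    rw [MulEquiv.apply_symm_apply] at h2
    exact nn_not_mem_B h j h2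
  obtain ⟨k, hk⟩ := exists_nn_mem h hBM' hne'
  have hM'i : M' ≤ Par S i := by
    intro g hg
    have := hjM ((memM' g).1 hg)
    rwa [memM, MulEquiv.symm_apply_apply] at this
  have hki : k = i := h6 i k (hM'i hk)
  subst hki
  have hkM' : Par S k ≤ M' := par_le hBM' hk
  exact ⟨j, fun g => ⟨fun hg => hM'i ((memM' g).2 hg), fun hg => hkM' hg⟩⟩

/-- A7 (uses A6 as a hypothesis) -/
theorem par_perm (h : AData S) (h6 : ∀ i k : I, S.nn k ∈ Par S i → k = i)
    {θ : 𝔾 ≃* 𝔾} (hB : ∀ g, θ g ∈ S.B ↔ g ∈ S.B) :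
    ∃ ρ : Equiv.Perm I, ∀ i g, θ g ∈ Par S (ρ i) ↔ g ∈ Par S i := by
  have hB' : ∀ g, θ.symm g ∈ S.B ↔ g ∈ S.B := by
    intro g
    rw [← hB, MulEquiv.apply_symm_apply]
  choose F hF using exists_image h h6 hB
  choose F' hF' using exists_image h h6 hB'
  have h1 : ∀ i, F' (F i) = i := by
    intro i
    apply h6
    rw [← hF i, ← hF' (F i), MulEquiv.symm_apply_apply]
    exact nn_mem_par_self _
  have h2 : ∀ i, F (F' i) = i := by
    intro i
    apply h6
    rw [← hF' i, ← hF (F' i), MulEquiv.apply_symm_apply]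
    exact nn_mem_par_self _
  exact ⟨⟨F, F', h1, h2⟩, fun i g => hF i g⟩

end Cfsg.Agent.Lib.Helper7AutA7
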