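import Cfsg.Agent.Lib.LeadAutDefs
import Cfsg.Agent.Lib.LeadChevMisc
import Cfsg.Agent.Lib.Helper22ChevBruhat
import Cfsg.Agent.Lib.Helper23RG2

set_option autoImplicit false
set_option linter.unusedSectionVars false

namespace Cfsg.Agent.Lib.Helper7AutB1

open Subgroup Cfsg.Agent.Lib.Helper23Grp Cfsg.Agent.Lib.Helper23RG Cfsg.Agent.Lib.Helper23RG.RG
  Cfsg.Agent.Lib.Helper23Weyl Cfsg.Agent.Lib.LeadAutDefs

variable {𝔾 K R I : Type*} [Group 𝔾] [Field K] [Fintype R] [DecidableEq R] {S : RG 𝔾 K R I}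

theorem Mon_pow {a : 𝔾} {π : Equiv.Perm R} (ha : S.Mon a π) (m : ℕ) : S.Mon (a ^ m) (π ^ m) := by
  induction m with
  | zero => simpa using Mon.one
  | succ k ih => rw [pow_succ, pow_succ]; exact ih.mul ha

/-- an element of `N` lies in `B` iff its permutation is trivial -/
theorem mem_B_iff_perm (h : AData S) {n : 𝔾} (hn : n ∈ S.N) {π : Equiv.Perm R} (hM : S.Mon n π) :
    n ∈ S.B ↔ π = 1 := by
  have ok := h.ok
  constructor
  · intro hB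
    have hH : n ∈ S.H := by
      rw [← B_inf_N ok h.hUN]; exact ⟨hB, hn⟩
    exact Mon_unique ok h.hBV hM (Mon_H ok _ hH)
  · rintro rfl
    exact H_le_B (mem_H_of_Mon_one ok h.hBV h.hUN hn hM)

theorem f_one_ne_zero {θ : 𝔾 ≃* 𝔾} {ρ : Equiv.Perm I} {f : I → K → K} (hA : Acts S θ ρ f) (i : I) :
    f i 1 ≠ 0 := by
  have h0 : f i 0 = 0 := by
    have := hA.add i 0 0
    rw [add_zero] at this
    exact left_eq_add.1 this
  intro h1
  exact one_ne_zero ((hA.bij i).1 (h1.trans h0.symm))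

theorem map_nn (ok : S.Ok) {θ : 𝔾 ≃* 𝔾} {ρ : Equiv.Perm I} {f : I → K → K} (hA : Acts S θ ρ f) (i : I) :
    θ (S.nn i) = S.hE (S.simple (ρ i)) (f i 1) * S.nn (ρ i) := by
  have e1 : θ (S.nn i) = S.nE (S.simple (ρ i)) (f i 1) := by
    show θ (S.x (S.simple i) 1 * S.x (S.neg (S.simple i)) (-1⁻¹) * S.x (S.simple i) 1) = _
    rw [map_mul, map_mul, hA.pos, hA.neg i 1 one_ne_zero]
    rfl
  rw [e1]
  show _ = S.nE (S.simple (ρ i)) (f i 1) * S.nE (S.simple (ρ i)) (-1) * S.nE (S.simple (ρ i)) 1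
  rw [← nE_inv ok, inv_mul_cancel_right]

/-- B1 -/
theorem cox_perm (h : AData S) {θ : 𝔾 ≃* 𝔾} {ρ : Equiv.Perm I} {f : I → K → K} (hA : Acts S θ ρ f)
    (hB : ∀ g, θ g ∈ S.B ↔ g ∈ S.B) (i j : I) (m : ℕ) :
    (reflPerm h.ok i * reflPerm h.ok j) ^ m = 1 ↔ (reflPerm h.ok (ρ i) * reflPerm h.ok (ρ j)) ^ m = 1 := by
  have ok := h.ok
  have hn : (S.nn i * S.nn j) ^ m ∈ S.N := pow_mem (mul_mem (nn_mem_N i) (nn_mem_N j)) m
  have hM : S.Mon ((S.nn i * S.nn j) ^ m) ((reflPerm h.ok i * reflPerm h.ok j) ^ m) :=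
    Mon_pow ((Mon_nn h.ok i).mul (Mon_nn h.ok j)) m
  have key : ∀ k : I, θ (S.nn k) ∈ S.N ∧ S.Mon (θ (S.nn k)) (reflPerm h.ok (ρ k)) := by
    intro k
    rw [map_nn ok hA k]
    have hh : S.hE (S.simple (ρ k)) (f k 1) ∈ S.H := hE_mem_H _ (f_one_ne_zero hA k)
    refine ⟨mul_mem (H_le_N hh) (nn_mem_N _), ?_⟩
    have := (Mon_H ok _ hh).mul (Mon_nn h.ok (ρ k))
    rwa [one_mul] at this
  have hn' : θ ((S.nn i * S.nn j) ^ m) ∈ S.N := by
    rw [map_pow, map_mul]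
    exact pow_mem (mul_mem (key i).1 (key j).1) m
  have hM' : S.Mon (θ ((S.nn i * S.nn j) ^ m)) ((reflPerm h.ok (ρ i) * reflPerm h.ok (ρ j)) ^ m) := by
    rw [map_pow, map_mul]
    exact Mon_pow ((key i).2.mul (key j).2) m
  rw [← mem_B_iff_perm h hn hM, ← mem_B_iff_perm h hn' hM', hB]

end Cfsg.Agent.Lib.Helper7AutB1
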