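import Cfsg.Agent.Lib.LeadAutDefs
import Cfsg.Agent.Lib.LeadChevMisc
import Cfsg.Agent.Lib.Helper22ChevBruhat
import Cfsg.Agent.Lib.Helper23RG2

set_option autoImplicit false
set_option linter.unusedSectionVars false

namespace Cfsg.Agent.Lib.Helper7AutB3

open Subgroup Cfsg.Agent.Lib.Helper23Grp Cfsg.Agent.Lib.Helper23RG Cfsg.Agent.Lib.Helper23RG.RG
  Cfsg.Agent.Lib.Helper23Weyl Cfsg.Agent.Lib.LeadAutDefs

variable {𝔾 K R I : Type*} [Group 𝔾] [Field K] [Fintype R] [DecidableEq R] {S : RG 𝔾 K R I}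

/-- B3 (uses B2 and A8 as hypotheses) -/
theorem mem_H_of_conj (h : AData S)
    (hB2 : ∀ c : 𝔾, (∀ i, c * S.x (S.simple i) 1 * c⁻¹ ∈ S.B) → c ∈ S.B)
    (hopp : ∀ n0 ∈ S.N, ∀ π0 : Equiv.Perm R, S.Mon n0 π0 → (∀ r, S.pos r → ¬ S.pos (π0 r)) →
      ∃ τ : Equiv.Perm I, ∀ i, π0 (S.neg (S.simple i)) = S.simple (τ i))
    {c : 𝔾} (h1 : ∀ i, c * S.x (S.simple i) 1 * c⁻¹ ∈ S.B)
    (h2 : ∀ i t, c * S.x (S.neg (S.simple i)) t * c⁻¹ ∈ S.V) : c ∈ S.H := by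
  have ok := h.ok
  have hcB : c ∈ S.B := hB2 c h1
  obtain ⟨n0, hn0, π0, hM, h0⟩ := h.n0
  obtain ⟨τ, hτ⟩ := hopp n0 hn0 π0 hM h0
  have hπs : ∀ k, π0 (S.simple k) = S.neg (S.simple (τ k)) := by
    intro k
    have := hτ k
    rw [hM.1] at this
    rw [← this, ok.neg_neg]
  -- `π0⁻¹` sends negative roots to positive roots
  have h0' : ∀ r, ¬ S.pos r → S.pos (π0⁻¹ r) := by
    intro r hr
    by_contra hs
    have h3 : S.pos (S.neg (π0⁻¹ r)) := (ok.pos_neg _).2 hs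
    have h4 := h0 _ h3
    rw [hM.1] at h4
    have e : π0 (π0⁻¹ r) = r := by simp
    rw [e, ok.pos_neg] at h4
    exact h4 hr
  have hVU : ∀ g ∈ S.V, n0⁻¹ * g * n0 ∈ S.U := by
    intro g hg
    have := hM.inv.conj_XS (Ψ := fun r => ¬ S.pos r) (Ψ' := S.pos) h0' g hg
    rw [inv_inv] at this
    exact this
  have hUV : ∀ g ∈ S.U, n0 * g * n0⁻¹ ∈ S.V :=
    hM.conj_XS (Ψ := S.pos) (Ψ' := fun r => ¬ S.pos r) h0
  obtain ⟨_, d, hd0, _, hd⟩ := hM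
  have hc' : n0⁻¹ * c * n0 ∈ S.B := by
    apply hB2
    intro k
    have e : n0⁻¹ * c * n0 * S.x (S.simple k) 1 * (n0⁻¹ * c * n0)⁻¹ =
        n0⁻¹ * (c * (n0 * S.x (S.simple k) 1 * n0⁻¹) * c⁻¹) * n0 := by group
    rw [e, hd, hπs]
    exact U_le_B (hVU _ (h2 _ _))
  obtain ⟨u, hu, k, hk, e⟩ := (mem_B_iff ok).1 hc'
  have hcVH : c ∈ S.V ⊔ S.H := by
    have e2 : c = (n0 * u * n0⁻¹) * (n0 * k * n0⁻¹) := by
      have : c = n0 * (n0⁻¹ * c * n0) * n0⁻¹ := by group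
      rw [this, e]; group
    rw [e2]
    exact mul_mem (mem_sup_left (hUV u hu)) (mem_sup_right (N_conj_H ok n0 hn0 k hk))
  rw [← B_inf_VH ok h.hBV]
  exact ⟨hcB, hcVH⟩

end Cfsg.Agent.Lib.Helper7AutB3
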