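import Mathlib
import Cfsg.Prelude.Def_GeometricClasses

set_option autoImplicit false

/-! Galois descent for absolutely irreducible matrix groups over finite fields. -/

namespace Cfsg.Agent.Lib.Helper7Descent

open Cfsg Cfsg.Geo Matrix
open scoped MatrixGroups

variable {ι : Type} [Fintype ι] [DecidableEq ι] {F : Type*} [Field F]

/-- the semilinear map `v ↦ B τ(v)`. -/
def Sm (τ : F →+* F) (B : Matrix ι ι F) (v : ι → F) : ι → F := B *ᵥ (fun i => τ (v i))

lemma Sm_add (τ : F →+* F) (B : Matrix ι ι F) (u v : ι → F) :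
    Sm τ B (u + v) = Sm τ B u + Sm τ B v := by
  unfold Sm
  rw [← Matrix.mulVec_add]
  congr 1
  funext i
  simp

lemma Sm_smul (τ : F →+* F) (B : Matrix ι ι F) (a : F) (v : ι → F) :
    Sm τ B (a • v) = τ a • Sm τ B v := by
  unfold Sm
  rw [← Matrix.mulVec_smul]
  congr 1
  funext i
  simp

lemma Sm_smul_left (τ : F →+* F) (B : Matrix ι ι F) (l : F) (v : ι → F) :
    Sm τ (l • B) v = l • Sm τ B v := by
  unfold Sm
  rw [Matrix.smul_mulVec]

lemma Sm_comm (τ : F →+* F) {B x : Matrix ι ι F} (h : x * B = B * x.map τ) (v : ι → F) :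
    Sm τ B (x *ᵥ v) = x *ᵥ Sm τ B v := by
  unfold Sm
  rw [Matrix.mulVec_mulVec, h, ← Matrix.mulVec_mulVec]
  congr 1
  funext i
  exact RingHom.map_mulVec τ x v i

lemma iter_add (τ : F →+* F) (B : Matrix ι ι F) (k : ℕ) (u v : ι → F) :
    (Sm τ B)^[k] (u + v) = (Sm τ B)^[k] u + (Sm τ B)^[k] v := by
  induction k with
  | zero => rfl
  | succ k ih => rw [Function.iterate_succ_apply', Function.iterate_succ_apply',
      Function.iterate_succ_apply', ih, Sm_add]

lemma iter_smul (τ : F →+* F) (B : Matrix ι ι F) (k : ℕ) (a : F) (v : ι → F) :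
    (Sm τ B)^[k] (a • v) = (τ^[k] a) • (Sm τ B)^[k] v := by
  induction k with
  | zero => rfl
  | succ k ih => rw [Function.iterate_succ_apply', Function.iterate_succ_apply',
      Function.iterate_succ_apply', ih, Sm_smul]

lemma iter_comm (τ : F →+* F) {B x : Matrix ι ι F} (h : x * B = B * x.map τ) (k : ℕ)
    (v : ι → F) : (Sm τ B)^[k] (x *ᵥ v) = x *ᵥ (Sm τ B)^[k] v := by
  induction k with
  | zero => rfl
  | succ k ih => rw [Function.iterate_succ_apply', Function.iterate_succ_apply', ih, Sm_comm τ h]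

lemma iter_smul_left (τ : F →+* F) (B : Matrix ι ι F) (l : F) (k : ℕ) (v : ι → F) :
    (Sm τ (l • B))^[k] v = (∏ i ∈ Finset.range k, τ^[i] l) • (Sm τ B)^[k] v := by
  induction k with
  | zero => simp
  | succ k ih =>
    rw [Function.iterate_succ_apply', Function.iterate_succ_apply', ih, Sm_smul_left, Sm_smul,
      smul_smul, Finset.prod_range_succ', map_prod]
    congr 1
    rw [mul_comm]
    congr 1
    apply Finset.prod_congr rfl
    intro i _
    rw [Function.iterate_succ_apply']

lemma Sm_injective (τ : F →+* F) {B : Matrix ι ι F} (hB : IsUnit B) :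
    Function.Injective (Sm τ B) := by
  intro u v h
  unfold Sm at h
  have h1 := (Matrix.mulVec_injective_iff_isUnit.mpr hB) h
  funext i
  exact τ.injective (congrFun h1 i)

lemma Sm_sum (τ : F →+* F) (B : Matrix ι ι F) {κ : Type*} (s : Finset κ) (w : κ → ι → F) :
    Sm τ B (∑ k ∈ s, w k) = ∑ k ∈ s, Sm τ B (w k) := by
  classical
  induction s using Finset.induction_on with
  | empty =>
    simp only [Finset.sum_empty]
    unfold Sm
    have : (fun i => τ ((0 : ι → F) i)) = 0 := by funext i; simp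
    rw [this, Matrix.mulVec_zero]
  | insert a s ha ih => rw [Finset.sum_insert ha, Finset.sum_insert ha, Sm_add, ih]

/-- Hilbert 90 for `GL_n`, cyclic case. -/
theorem exists_lang (τ : F →+* F) (d : ℕ) (hd : 0 < d)
    (h2 : ∀ i < d, ∀ j < d, (∀ a, τ^[i] a = τ^[j] a) → i = j)
    {B : Matrix ι ι F} (hBd : ∀ v, (Sm τ B)^[d] v = v) :
    ∃ P : Matrix ι ι F, IsUnit P ∧ B * P.map τ = P := by
  classical
  set S := Sm τ B with hS
  let V₀ : Set (ι → F) := {v | S v = v}
  let T : (ι → F) → (ι → F) := fun v => ∑ k ∈ Finset.range d, S^[k] v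
  have hT : ∀ v, T v ∈ V₀ := by
    intro v
    show S (T v) = T v
    simp only [T]
    rw [hS, Sm_sum, ← hS]
    have h1 := Finset.sum_range_succ (fun k => S^[k] v) d
    have h3 := Finset.sum_range_succ' (fun k => S^[k] v) d
    rw [h3] at h1
    simp only [Function.iterate_zero, id_eq] at h1
    rw [hBd v] at h1
    have h4 := add_right_cancel h1
    rw [← h4]
    apply Finset.sum_congr rfl
    intro k _
    rw [Function.iterate_succ_apply']
  have hinj : Function.Injective (fun k : Fin d => ((τ ^ (k : ℕ) : F →+* F) : F →* F)) := by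
    intro i j hij
    apply Fin.ext
    apply h2 i i.2 j j.2
    intro a
    have := DFunLike.congr_fun hij a
    simpa [RingHom.coe_pow] using this
  have hD : LinearIndependent F
      (fun k : Fin d => (((τ ^ (k : ℕ) : F →+* F) : F →* F) : F → F)) :=
    (linearIndependent_monoidHom F F).comp _ hinj
  have hspan : Submodule.span F V₀ = ⊤ := by
    by_contra hne
    obtain ⟨φ, hφ0, hφ⟩ := Submodule.exists_le_ker_of_lt_top _ (lt_top_iff_ne_top.mpr hne)
    apply hφ0
    apply LinearMap.ext
    intro v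
    have hrel : ∑ k : Fin d, (φ (S^[(k : ℕ)] v)) • (((τ ^ (k : ℕ) : F →+* F) : F →* F) : F → F)
        = 0 := by
      funext a
      have h1 : φ (T (a • v)) = 0 := hφ (Submodule.subset_span (hT (a • v)))
      simp only [T] at h1
      rw [map_sum] at h1
      rw [Finset.sum_apply, Pi.zero_apply, ← h1, Finset.sum_range]
      apply Finset.sum_congr rfl
      intro k _
      rw [hS, iter_smul, ← hS, map_smul]
      simp [RingHom.coe_pow, mul_comm]
    have := Fintype.linearIndependent_iff.mp hD _ hrel ⟨0, hd⟩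
    simpa using this
  obtain ⟨b, hbV, hbs, hbl⟩ := exists_linearIndependent F V₀
  have hbtop : ⊤ ≤ Submodule.span F (Set.range ((↑) : b → (ι → F))) := by
    rw [Subtype.range_coe, hbs, hspan]
  let Bs := Module.Basis.mk hbl hbtop
  have : Fintype b := FiniteDimensional.fintypeBasisIndex Bs
  have hcard : Fintype.card ι = Fintype.card b := by
    rw [← Module.finrank_eq_card_basis Bs, Module.finrank_fintype_fun_eq_card]
  let e : ι ≃ b := Fintype.equivOfCardEq hcard
  let P : Matrix ι ι F := Matrix.of (fun i j => ((e j : b) : ι → F) i)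
  refine ⟨P, ?_, ?_⟩
  · rw [← Matrix.linearIndependent_cols_iff_isUnit]
    have : P.col = (fun j => ((e j : b) : ι → F)) := by
      funext j i
      rfl
    rw [this]
    exact hbl.comp e e.injective
  · ext i j
    have h1 : S ((e j : b) : ι → F) = ((e j : b) : ι → F) := hbV (e j).2
    have h3 := congrFun h1 i
    rw [hS] at h3
    unfold Sm at h3
    rw [Matrix.mul_apply]
    exact h3

/-- Galois descent, abstract form. -/
theorem descent_abstract [Nonempty ι] (τ : F →+* F) (d : ℕ) (hd : 0 < d) (h1 : ∀ a, τ^[d] a = a)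
    (h2 : ∀ i < d, ∀ j < d, (∀ a, τ^[i] a = τ^[j] a) → i = j)
    (h3 : ∀ c, c ≠ 0 → τ c = c → ∃ l, l ≠ 0 ∧ ∏ k ∈ Finset.range d, τ^[k] l = c)
    {N : Subgroup (GL ι F)} (habs : ActsAbsolutelyIrreducibly (matrixSet N)) (B : GL ι F)
    (hB : ∀ x ∈ N, (x : Matrix ι ι F) * (B : Matrix ι ι F) =
      (B : Matrix ι ι F) * (x : Matrix ι ι F).map τ)
    (F₀ : Subfield F) (hF₀ : ∀ a, τ a = a → a ∈ F₀) : RealisableOver F₀ (matrixSet N) := by
  classical
  set S := Sm τ (B : Matrix ι ι F) with hS
  have hSinj : Function.Injective S := Sm_injective τ B.isUnit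
  let L : (ι → F) →ₗ[F] (ι → F) :=
    { toFun := S^[d]
      map_add' := fun u v => iter_add τ _ d u v
      map_smul' := fun a v => by
        show S^[d] (a • v) = a • S^[d] v
        rw [hS, iter_smul, h1] }
  have hL : ∀ v, LinearMap.toMatrix' L *ᵥ v = S^[d] v := fun v => LinearMap.toMatrix'_mulVec L v
  obtain ⟨c, hc⟩ := habs.2 (LinearMap.toMatrix' L) (by
    rintro _ ⟨x, hx, rfl⟩
    apply Matrix.toLin'.injective
    apply LinearMap.ext
    intro v
    rw [Matrix.toLin'_apply, Matrix.toLin'_apply, ← Matrix.mulVec_mulVec, ← Matrix.mulVec_mulVec,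
      hL, hL, hS, iter_comm τ (hB x hx)])
  have hSd : ∀ v, S^[d] v = c • v := by
    intro v
    rw [← hL, hc, Matrix.smul_mulVec, Matrix.one_mulVec]
  obtain ⟨i₀⟩ := ‹Nonempty ι›
  let v₀ : ι → F := Pi.single i₀ 1
  have hv₀ : v₀ ≠ 0 := by
    intro h0
    have := congrFun h0 i₀
    simp [v₀] at this
  have hS0 : S 0 = 0 := by
    have := Sm_smul τ (B : Matrix ι ι F) 0 0
    rw [zero_smul, map_zero, zero_smul] at this
    exact this
  have hSv₀ : S v₀ ≠ 0 := by
    intro h0
    rw [← hS0] at h0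
    exact hv₀ (hSinj h0)
  have hc0 : c ≠ 0 := by
    intro h0
    have e1 := hSd v₀
    have e2 := hSd 0
    rw [h0, zero_smul] at e1
    rw [smul_zero] at e2
    rw [← e2] at e1
    exact hv₀ ((hSinj.iterate d) e1)
  have hτc : τ c = c := by
    have e1 : S (S^[d] v₀) = S^[d] (S v₀) := by
      rw [← Function.iterate_succ_apply' S d v₀, Function.iterate_succ_apply]
    rw [hSd, hSd, hS, Sm_smul, ← hS] at e1
    have e2 : (τ c - c) • S v₀ = 0 := by rw [sub_smul, e1, sub_self]
    rcases smul_eq_zero.mp e2 with h | h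
    · exact sub_eq_zero.mp h
    · exact absurd h hSv₀
  obtain ⟨l, hl0, hl⟩ := h3 c⁻¹ (inv_ne_zero hc0) (by rw [map_inv₀, hτc])
  obtain ⟨P, hPu, hP⟩ := exists_lang τ d hd h2 (B := l • (B : Matrix ι ι F)) (by
    intro v
    rw [iter_smul_left, hl, ← hS, hSd, smul_smul, inv_mul_cancel₀ hc0, one_smul])
  obtain ⟨Pu, hPu'⟩ := hPu
  refine ⟨Pu⁻¹, ?_⟩
  rintro _ ⟨x, hx, rfl⟩ i j
  apply hF₀
  set X : Matrix ι ι F := ((Pu⁻¹ : GL ι F) : Matrix ι ι F) * (x : Matrix ι ι F) *
    (((Pu⁻¹)⁻¹ : GL ι F) : Matrix ι ι F) with hX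
  have hPX : P * X = (x : Matrix ι ι F) * P := by
    rw [hX, inv_inv, ← hPu', ← mul_assoc, ← mul_assoc, ← Units.val_mul, mul_inv_cancel,
      Units.val_one, one_mul]
  have hmap : P.map τ * X.map τ = (x : Matrix ι ι F).map τ * P.map τ := by
    rw [← Matrix.map_mul, ← Matrix.map_mul, hPX]
  have h5 : P * X.map τ = P * X := by
    rw [hPX]
    conv_lhs => rw [← hP]
    rw [mul_assoc, hmap, ← mul_assoc, Matrix.smul_mul, ← hB x hx]
    conv_rhs => rw [← hP]
    rw [Matrix.smul_mul, Matrix.smul_mul, Matrix.mul_smul, mul_assoc]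
  have h6 : X.map τ = X := by
    have := congrArg (fun t => ((Pu⁻¹ : GL ι F) : Matrix ι ι F) * t) h5
    simp only [← mul_assoc, ← hPu', ← Units.val_mul, inv_mul_cancel, Units.val_one, one_mul] at this
    exact this
  exact congrFun (congrFun h6 i) j

lemma mem_of_pow_card_eq [Finite F] (F₀ : Subfield F) {a : F} (h : a ^ Nat.card F₀ = a) :
    a ∈ F₀ := by
  have : Fintype F₀ := Fintype.ofFinite F₀
  rw [Nat.card_eq_fintype_card] at h
  have : a ∈ (⊥ : IntermediateField F₀ F) := by
    rw [IsGalois.mem_bot_iff_fixed]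
    intro f
    obtain ⟨n, hn⟩ := (FiniteField.bijective_frobeniusAlgEquivOfAlgebraic_pow F₀ F).2 f
    rw [← hn]
    simp only
    rw [AlgEquiv.coe_pow, FiniteField.coe_frobeniusAlgEquivOfAlgebraic_iterate]
    simp only
    induction (n : ℕ) with
    | zero => simp
    | succ k ih => rw [pow_succ, pow_mul, ih, h]
  rw [IntermediateField.mem_bot] at this
  obtain ⟨y, hy⟩ := this
  rw [← hy]
  exact y.2

/-- **Galois descent**: if the Frobenius twist (over the subfield `F₀`) of an absolutely irreducible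
matrix group is conjugate to the group (elementwise), the group is realisable over `F₀`. -/
theorem descent [Finite F] [Nonempty ι] (F₀ : Subfield F)
    {N : Subgroup (GL ι F)} (habs : ActsAbsolutelyIrreducibly (matrixSet N)) (B : GL ι F)
    (hB : ∀ x ∈ N, (x : Matrix ι ι F) * (B : Matrix ι ι F) =
      (B : Matrix ι ι F) * (x : Matrix ι ι F).map (fun a => a ^ Nat.card F₀)) :
    RealisableOver F₀ (matrixSet N) := by
  classical
  have : Fintype F₀ := Fintype.ofFinite F₀
  let τ : F →+* F := (FiniteField.frobeniusAlgHom F₀ F).toRingHom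
  have hτ : ∀ a, τ a = a ^ Nat.card F₀ := by
    intro a
    rw [Nat.card_eq_fintype_card]
    rfl
  have hτfun : (τ : F → F) = fun a => a ^ Nat.card F₀ := funext hτ
  have hiter : ∀ k a, τ^[k] a = a ^ (Nat.card F₀ ^ k) := by
    intro k a
    rw [hτfun, pow_iterate]
  have hiter' : ∀ k a, (FiniteField.frobeniusAlgHom F₀ F ^ k) a = a ^ (Nat.card F₀ ^ k) := by
    intro k a
    rw [AlgHom.coe_pow, FiniteField.coe_frobeniusAlgHom, pow_iterate, Nat.card_eq_fintype_card]
  refine descent_abstract τ (Module.finrank F₀ F) Module.finrank_pos ?_ ?_ ?_ habs B ?_ F₀ ?_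
  · intro a
    rw [hiter, ← hiter', ← FiniteField.orderOf_frobeniusAlgHom F₀ F, pow_orderOf_eq_one]
    rfl
  · intro i hi j hj hij
    have := (FiniteField.bijective_frobeniusAlgHom_pow F₀ F).1 (a₁ := ⟨i, hi⟩) (a₂ := ⟨j, hj⟩) (by
      apply AlgHom.ext
      intro a
      simp only
      rw [hiter', hiter', ← hiter, ← hiter, hij])
    exact congrArg Fin.val this
  · intro c hc0 hc
    have hcF : c ∈ F₀ := mem_of_pow_card_eq F₀ (by rw [← hτ]; exact hc)
    obtain ⟨l, hl⟩ := FiniteField.norm_surjective F₀ F ⟨c, hcF⟩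
    have h1 := FiniteField.algebraMap_norm_eq_prod_pow F₀ F l
    rw [hl] at h1
    refine ⟨l, ?_, ?_⟩
    · rintro rfl
      rw [Algebra.norm_zero] at hl
      apply hc0
      exact (congrArg Subtype.val hl).symm
    · simp only [hiter]
      rw [← h1]
      rfl
  · intro x hx
    rw [hB x hx, hτfun]
  · intro a ha
    exact mem_of_pow_card_eq F₀ (by rw [← hτ]; exact ha)

end Cfsg.Agent.Lib.Helper7Descent
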