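import Mathlib
import Cfsg.Agent.Lib.Helper7C6Card
import Cfsg.Agent.Lib.Helper7Descent

set_option autoImplicit false

namespace Cfsg.Agent.Lib.Helper7C6Real

open Cfsg Cfsg.Geo Matrix Cfsg.Agent.Lib.Helper97GBase Cfsg.Agent.Lib.Helper97GCore
  Cfsg.Agent.Lib.Helper7C6Asm Cfsg.Agent.Lib.Helper7C6Card Cfsg.Agent.Lib.Helper7Descent
open scoped MatrixGroups commutatorElement

variable {ι : Type} [Fintype ι] [DecidableEq ι] {F : Type*} [Field F]

/-- a nonzero intertwiner from an irreducible group is invertible. -/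
lemma isUnit_of_intertwine {N : Subgroup (GL ι F)} (hirr : ActsIrreducibly (matrixSet N))
    (ρ : N →* Matrix ι ι F) {A : Matrix ι ι F} (hA : ∀ y : N, ρ y * A = A * matHom N y)
    (hA0 : A ≠ 0) : IsUnit A := by
  rw [← Matrix.mulVec_injective_iff_isUnit]
  let W : Submodule F (ι → F) := LinearMap.ker (Matrix.toLin' A)
  have hW : Inv N W := by
    intro t ht w hw
    rw [LinearMap.mem_ker, Matrix.toLin'_apply] at hw ⊢
    have := hA ⟨t, ht⟩
    rw [Matrix.mulVec_mulVec]
    have e : A * (t : Matrix ι ι F) = ρ ⟨t, ht⟩ * A := this.symm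
    rw [e, ← Matrix.mulVec_mulVec, hw, Matrix.mulVec_zero]
  rcases (actsIrreducibly_iff.mp hirr) W hW with h | h
  · intro u v huv
    have : u - v ∈ W := by
      rw [LinearMap.mem_ker, Matrix.toLin'_apply, Matrix.mulVec_sub]
      exact sub_eq_zero.mpr huv
    rw [h, Submodule.mem_bot] at this
    exact sub_eq_zero.mp this
  · exfalso
    apply hA0
    apply Matrix.toLin'.injective
    rw [map_zero]
    exact LinearMap.ker_eq_top.mp h

/-- realisability over a subfield from trace data. -/
theorem realisable_of_trace [Finite F] [Nonempty ι] (F₀ : Subfield F) {N : Subgroup (GL ι F)}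
    (habs : ActsAbsolutelyIrreducibly (matrixSet N)) (hn : ((Fintype.card ι : ℕ) : F) ≠ 0)
    (hZ : (Nat.card ((scalars ι F).subgroupOf N) : F) ≠ 0)
    (hsc : ∀ c : Fˣ, scHom ι F c ∈ N → (c : F) ∈ F₀)
    (htr : ∀ x ∈ N, x ∉ scalars ι F → Matrix.trace (x : Matrix ι ι F) = 0) :
    RealisableOver F₀ (matrixSet N) := by
  classical
  have : Fintype F₀ := Fintype.ofFinite F₀
  have : Finite (GL ι F) := inferInstance
  have : Fintype N := Fintype.ofFinite N
  let τ : F →+* F := (FiniteField.frobeniusAlgHom F₀ F).toRingHom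
  have hτ : ∀ a, τ a = a ^ Nat.card F₀ := by
    intro a
    rw [Nat.card_eq_fintype_card]
    rfl
  have hτfun : (τ : F → F) = fun a => a ^ Nat.card F₀ := funext hτ
  have hτfix : ∀ a ∈ F₀, τ a = a := by
    intro a ha
    exact (FiniteField.frobeniusAlgHom F₀ F).commutes ⟨a, ha⟩
  let ρ : N →* Matrix ι ι F := (RingHom.mapMatrix τ : Matrix ι ι F →+* Matrix ι ι F).toMonoidHom.comp
    (matHom N)
  have hρ : ∀ x : N, ρ x = ((x : GL ι F) : Matrix ι ι F).map τ := fun _ => rfl
  -- the trace sum
  have hsum : ∑ x : N, (ρ x).trace * (matHom N x⁻¹).trace =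
      (Nat.card ((scalars ι F).subgroupOf N) : F) * ((Fintype.card ι : ℕ) : F) ^ 2 := by
    have h1 : ∀ x : N, (ρ x).trace * (matHom N x⁻¹).trace =
        if x ∈ (scalars ι F).subgroupOf N then ((Fintype.card ι : ℕ) : F) ^ 2 else 0 := by
      intro x
      split_ifs with hx
      · obtain ⟨c, hc⟩ := Subgroup.mem_subgroupOf.mp hx
        have hc' : scHom ι F c = (x : GL ι F) := hc
        have hcF : (c : F) ∈ F₀ := hsc c (by rw [hc']; exact x.2)
        have e1 : ((x : GL ι F) : Matrix ι ι F) = (c : F) • (1 : Matrix ι ι F) := by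
          rw [← hc', scHom_val]
        have e2 : matHom N x⁻¹ = ((c⁻¹ : Fˣ) : F) • (1 : Matrix ι ι F) := by
          have : ((x⁻¹ : N) : GL ι F) = scHom ι F c⁻¹ := by rw [map_inv, hc']; rfl
          rw [matHom_apply, this, scHom_val]
        have e3 : ρ x = (c : F) • (1 : Matrix ι ι F) := by
          rw [hρ, e1]
          ext i j
          simp only [Matrix.map_apply, Matrix.smul_apply, Matrix.one_apply, smul_eq_mul]
          split_ifs
          · rw [mul_one, hτfix _ hcF]
          · rw [mul_zero, map_zero]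
        rw [e2, e3, Matrix.trace_smul, Matrix.trace_smul, Matrix.trace_one, smul_eq_mul, smul_eq_mul]
        have : (c : F) * ((c⁻¹ : Fˣ) : F) = 1 := by rw [← Units.val_mul, mul_inv_cancel, Units.val_one]
        calc (c : F) * ((Fintype.card ι : ℕ) : F) * (((c⁻¹ : Fˣ) : F) * ((Fintype.card ι : ℕ) : F))
            = ((c : F) * ((c⁻¹ : Fˣ) : F)) * ((Fintype.card ι : ℕ) : F) ^ 2 := by ring
          _ = _ := by rw [this, one_mul]
      · have : ((x⁻¹ : N) : GL ι F) ∉ scalars ι F := by
          intro h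
          apply hx
          rw [Subgroup.mem_subgroupOf]
          have := (scalars ι F).inv_mem h
          simpa using this
        rw [matHom_apply, htr _ (x⁻¹ : N).2 this, mul_zero]
    simp only [h1]
    rw [Finset.sum_ite, Finset.sum_const_zero, add_zero, Finset.sum_const, nsmul_eq_mul]
    congr 2
    rw [Nat.card_eq_fintype_card, Fintype.card_subtype]
  -- some twisted average is nonzero
  have hex : ∃ i j, tavg N ρ (Matrix.single i j 1) ≠ 0 := by
    by_contra hcon
    push Not at hcon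
    have h0 : ∑ x : N, (ρ x).trace * (matHom N x⁻¹).trace = 0 := by
      have : ∀ x : N, (ρ x).trace * (matHom N x⁻¹).trace =
          ∑ i, ∑ j, ρ x i i * matHom N x⁻¹ j j := by
        intro x
        simp only [Matrix.trace, Matrix.diag_apply]
        rw [Finset.sum_mul_sum]
      simp only [this]
      rw [Finset.sum_comm]
      apply Finset.sum_eq_zero
      intro i _
      rw [Finset.sum_comm]
      apply Finset.sum_eq_zero
      intro j _
      rw [← tavg_apply N ρ i j i j, hcon i j]
      rfl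
    rw [hsum] at h0
    exact (mul_ne_zero hZ (pow_ne_zero 2 hn)) h0
  obtain ⟨i, j, hij⟩ := hex
  obtain ⟨A, hA⟩ := isUnit_of_intertwine habs.1 ρ (tavg_intertwine N ρ (Matrix.single i j 1)) hij
  apply descent F₀ habs A⁻¹
  intro x hx
  have h1 := tavg_intertwine N ρ (Matrix.single i j 1) ⟨x, hx⟩
  rw [← hA, hρ, matHom_apply] at h1
  rw [← hτfun]
  have h2 := congrArg (fun t => ((A⁻¹ : GL ι F) : Matrix ι ι F) * t * ((A⁻¹ : GL ι F) : Matrix ι ι F)) h1
  simp only at h2
  have e1 : ((A⁻¹ : GL ι F) : Matrix ι ι F) * (A : Matrix ι ι F) = 1 := by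
    rw [← Units.val_mul, inv_mul_cancel, Units.val_one]
  have e2 : (A : Matrix ι ι F) * ((A⁻¹ : GL ι F) : Matrix ι ι F) = 1 := by
    rw [← Units.val_mul, mul_inv_cancel, Units.val_one]
  rw [← mul_assoc, mul_assoc _ (A : Matrix ι ι F), e2, mul_one, ← mul_assoc, e1, one_mul] at h2
  exact h2.symm

end Cfsg.Agent.Lib.Helper7C6Real
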