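import Mathlib
import Cfsg.Agent.Lib.Helper7C6Real
import Cfsg.Agent.Lib.Helper7C6Mono
import Cfsg.Agent.Lib.Helper97GForms

set_option autoImplicit false

namespace Cfsg.Agent.Lib.Helper7C6Type

open Cfsg Cfsg.Geo Matrix Cfsg.Agent.Lib.Helper97GBase Cfsg.Agent.Lib.Helper97GCore
  Cfsg.Agent.Lib.Helper7C6Asm Cfsg.Agent.Lib.Helper7C6Card Cfsg.Agent.Lib.Helper7C6Mono
open scoped MatrixGroups commutatorElement

variable {ι : Type} [Fintype ι] [DecidableEq ι] {F : Type*} [Field F]

open Cfsg.Agent.Lib.Helper95Basic in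
/-- a subgroup of index at most the dimension with an eigenvector gives a monomial form. -/
theorem monomial_of_index [Finite F] (N : Subgroup (GL ι F))
    (hirr : ActsIrreducibly (matrixSet N)) (A : Subgroup N) {v : ι → F} (hv0 : v ≠ 0) {z : ℕ}
    (hz : 0 < z)
    (hA : ∀ a ∈ A, ∃ c : F, c ^ z = 1 ∧ ((a : GL ι F) : Matrix ι ι F) *ᵥ v = c • v)
    (hidx : A.index ≤ Fintype.card ι) :
    ∃ B : GL ι F, ∀ x ∈ N, ∃ (σ : Equiv.Perm ι) (c : ι → F), (∀ i, c i ^ z = 1) ∧
      (x : Matrix ι ι F) * (B : Matrix ι ι F) = (B : Matrix ι ι F) * mono σ c := by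
  classical
  let Q := N ⧸ A
  let b : Q → ι → F := fun q => (((q.out : N) : GL ι F) : Matrix ι ι F) *ᵥ v
  have hb0 : ∀ q, b q ≠ 0 := by
    intro q h
    apply hv0
    have := congrArg (fun w => ((((q.out : N) : GL ι F)⁻¹ : GL ι F) : Matrix ι ι F) *ᵥ w) h
    simpa [b] using this
  have key1 : ∀ x : N, ∃ c : F, c ^ z = 1 ∧
      ((x : GL ι F) : Matrix ι ι F) *ᵥ v = c • b (QuotientGroup.mk x) := by
    intro x
    obtain ⟨h, hh⟩ := QuotientGroup.mk_out_eq_mul A x
    obtain ⟨c, h2, h1⟩ := hA h h.2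
    have hne : c ≠ 0 := by
      intro h0
      rw [h0, zero_pow hz.ne'] at h2
      exact zero_ne_one h2
    refine ⟨c⁻¹, by rw [inv_pow, h2, inv_one], ?_⟩
    simp only [b]
    rw [hh, Subgroup.coe_mul, Units.val_mul, ← Matrix.mulVec_mulVec, h1, Matrix.mulVec_smul,
      smul_smul, inv_mul_cancel₀ hne, one_smul]
  have key2 : ∀ (y : N) (q : Q), ∃ c : F, c ^ z = 1 ∧
      ((y : GL ι F) : Matrix ι ι F) *ᵥ b q = c • b (y • q) := by
    intro y q
    obtain ⟨c, hc, h1⟩ := key1 (y * q.out)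
    refine ⟨c, hc, ?_⟩
    have h2 : (QuotientGroup.mk (y * q.out) : Q) = y • q := by
      conv_rhs => rw [← QuotientGroup.out_eq' q]
      rfl
    rw [← h2, ← h1]
    simp only [b]
    rw [Subgroup.coe_mul, Units.val_mul, Matrix.mulVec_mulVec]
  have hsp : ⊤ ≤ Submodule.span F (Set.range b) := by
    have hInv : Inv N (Submodule.span F (Set.range b)) := by
      intro t ht w hw
      induction hw using Submodule.span_induction with
      | mem w hw =>
        obtain ⟨q, rfl⟩ := hw
        obtain ⟨c, _, h1⟩ := key2 ⟨t, ht⟩ q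
        have h1' : (t : Matrix ι ι F) *ᵥ b q = c • b ((⟨t, ht⟩ : N) • q) := h1
        rw [h1']
        exact Submodule.smul_mem _ _ (Submodule.subset_span ⟨_, rfl⟩)
      | zero => simp
      | add a c _ _ ha hc => rw [Matrix.mulVec_add]; exact Submodule.add_mem _ ha hc
      | smul a w _ hw => rw [Matrix.mulVec_smul]; exact Submodule.smul_mem _ _ hw
    rcases (actsIrreducibly_iff.mp hirr) _ hInv with h | h
    · exfalso
      have : b (QuotientGroup.mk 1) ∈ Submodule.span F (Set.range b) :=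
        Submodule.subset_span ⟨_, rfl⟩
      rw [h, Submodule.mem_bot] at this
      exact hb0 _ this
    · exact h.ge
  have : Finite (GL ι F) := inferInstance
  have : Finite Q := inferInstance
  have : Fintype Q := Fintype.ofFinite Q
  have hQ : Fintype.card Q = A.index := by
    rw [← Nat.card_eq_fintype_card]; rfl
  have hli : LinearIndependent F b :=
    linearIndependent_of_top_le_span_of_card_le_finrank hsp
      (by rw [Module.finrank_fintype_fun_eq_card, hQ]; exact hidx)
  let bs := Module.Basis.mk hli hsp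
  have hcard : Fintype.card ι = Fintype.card Q := by
    rw [← Module.finrank_fintype_fun_eq_card F, Module.finrank_eq_card_basis bs]
  let e₀ : ι ≃ Q := Fintype.equivOfCardEq hcard
  let bb := bs.reindex e₀.symm
  have hbb : ∀ i, bb i = b (e₀ i) := by
    intro i
    simp [bb, bs]
  let B : GL ι F := mkGL bb.equivFun.symm
  have hB : ∀ j, (B : Matrix ι ι F) *ᵥ Pi.single j 1 = b (e₀ j) := by
    intro j
    rw [mkGL_mulVec, Module.Basis.equivFun_symm_apply, ← hbb]
    simp [Pi.single_apply]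
  refine ⟨B, ?_⟩
  intro y hy
  choose c hc hcy using key2 ⟨y, hy⟩
  let σ : Equiv.Perm ι := (e₀.trans (MulAction.toPerm (⟨y, hy⟩ : N))).trans e₀.symm
  refine ⟨σ, fun j => c (e₀ j), fun j => hc _, ?_⟩
  apply matrix_ext_single
  intro j
  rw [← Matrix.mulVec_mulVec, ← Matrix.mulVec_mulVec, hB, mono_mulVec_single, Matrix.mulVec_smul, hB]
  have := hcy (e₀ j)
  simp only [σ, Equiv.trans_apply, Equiv.apply_symm_apply, MulAction.toPerm_apply]
  exact this

/-- a signed monomial group fixes a symmetric form. -/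
lemma symm_of_mono {N : Subgroup (GL ι F)} {B : GL ι F}
    (hB : ∀ x ∈ N, ∃ (σ : Equiv.Perm ι) (c : ι → F), (∀ i, c i ^ 2 = 1) ∧
      (x : Matrix ι ι F) * (B : Matrix ι ι F) = (B : Matrix ι ι F) * mono σ c) :
    ∃ f : (ι → F) → (ι → F) → F, IsSymmetricForm f ∧ FixesForm (matrixSet N) f ∧
      ∀ i, f ((B : Matrix ι ι F) *ᵥ Pi.single i 1) ((B : Matrix ι ι F) *ᵥ Pi.single i 1) = 1 := by
  let Bi : Matrix ι ι F := ((B⁻¹ : GL ι F) : Matrix ι ι F)
  let f : (ι → F) → (ι → F) → F := fun u w => ∑ i, (Bi *ᵥ u) i * ((Bi *ᵥ w) i)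
  have hBi : ∀ a : ι → F, Bi *ᵥ ((B : Matrix ι ι F) *ᵥ a) = a := by
    intro a
    simp only [Bi]
    rw [Matrix.mulVec_mulVec, ← Units.val_mul, inv_mul_cancel, Units.val_one, Matrix.one_mulVec]
  have hBi0 : ∀ v : ι → F, v ≠ 0 → Bi *ᵥ v ≠ 0 := by
    intro v hv h0
    apply hv
    have := congrArg (fun w => (B : Matrix ι ι F) *ᵥ w) h0
    simp only [Bi] at this
    rw [Matrix.mulVec_mulVec, ← Units.val_mul, mul_inv_cancel, Units.val_one, Matrix.one_mulVec,
      Matrix.mulVec_zero] at this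
    exact this
  refine ⟨f, ⟨⟨?_, ?_, ?_, ?_⟩, ?_, ?_⟩, ?_, ?_⟩
  · intro x y v
    simp only [f, Matrix.mulVec_add, Pi.add_apply, add_mul, Finset.sum_add_distrib]
  · intro c x v
    simp only [f, Matrix.mulVec_smul, Pi.smul_apply, smul_eq_mul, Finset.mul_sum, mul_assoc]
  · intro x y v
    simp only [f, Matrix.mulVec_add, Pi.add_apply, mul_add, Finset.sum_add_distrib]
  · intro c x v
    simp only [f, Matrix.mulVec_smul, Pi.smul_apply, smul_eq_mul, Finset.mul_sum]
    exact Finset.sum_congr rfl fun i _ => by ring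
  · intro v w
    simp only [f]
    exact Finset.sum_congr rfl fun i _ => mul_comm _ _
  · intro v hv
    obtain ⟨i, hi⟩ : ∃ i, (Bi *ᵥ v) i ≠ 0 := by
      by_contra h
      push Not at h
      exact hBi0 v hv (funext h)
    constructor
    · refine ⟨(B : Matrix ι ι F) *ᵥ Pi.single i 1, ?_⟩
      simp only [f, hBi]
      rw [Finset.sum_eq_single i]
      · simpa using hi
      · intro k _ hk; simp [Pi.single_eq_of_ne hk]
      · intro h; exact absurd (Finset.mem_univ i) h
    · refine ⟨(B : Matrix ι ι F) *ᵥ Pi.single i 1, ?_⟩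
      simp only [f, hBi]
      rw [Finset.sum_eq_single i]
      · simpa using hi
      · intro k _ hk; simp [Pi.single_eq_of_ne hk]
      · intro h; exact absurd (Finset.mem_univ i) h
  · rintro _ ⟨x, hx, rfl⟩ u w
    obtain ⟨σ, c, hc, hxB⟩ := hB x hx
    have e : ∀ a : ι → F, Bi *ᵥ ((x : Matrix ι ι F) *ᵥ a) = mono σ c *ᵥ (Bi *ᵥ a) := by
      intro a
      simp only [Bi]
      rw [Matrix.mulVec_mulVec, conj_eq_mono hxB, ← Matrix.mulVec_mulVec]
    simp only [f, e]
    rw [← Equiv.sum_comp σ]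
    refine Finset.sum_congr rfl fun j _ => ?_
    rw [mono_mulVec_apply, mono_mulVec_apply]
    have := hc j
    linear_combination ((Bi *ᵥ u) j * ((Bi *ᵥ w) j)) * this
  · intro i
    simp only [f, hBi]
    rw [Finset.sum_eq_single i]
    · simp
    · intro k _ hk; simp [Pi.single_eq_of_ne hk]
    · intro h; exact absurd (Finset.mem_univ i) h

/-- the order of an absolutely irreducible group with scalar commutators is prime to the
characteristic. -/
lemma card_ne_zero [Finite F] [Nonempty ι] {N : Subgroup (GL ι F)}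
    (habs : ActsAbsolutelyIrreducibly (matrixSet N)) (hcomm : ⁅N, N⁆ ≤ scalars ι F) :
    (Nat.card N : F) ≠ 0 := by
  classical
  have : Fintype F := Fintype.ofFinite F
  obtain ⟨p, hchar⟩ := CharP.exists F
  have hp : Fact p.Prime := ⟨(CharP.char_is_prime F p)⟩
  have hone : ∀ c : F, c ^ p = 1 → c = 1 := by
    intro c hc
    have : (c - 1) ^ p = 0 := by rw [sub_pow_char, hc, one_pow, sub_self]
    exact sub_eq_zero.mp (pow_eq_zero_iff hp.out.ne_zero |>.mp this)
  intro h0
  rw [CharP.cast_eq_zero_iff F p] at h0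
  have : Finite (GL ι F) := inferInstance
  obtain ⟨x, hx⟩ := exists_prime_orderOf_dvd_card' p h0
  have hxp : x ^ p = 1 := by rw [← hx]; exact pow_orderOf_eq_one x
  have hcen : ((x : N) : GL ι F) ∈ scalars ι F := by
    apply mem_scalars_of_comm habs
    intro g hg
    have h1 := chi_spec hcomm x ⟨g, hg⟩
    have h2 : (matHom N ⟨g, hg⟩ * matHom N x * matHom N (⟨g, hg⟩ : N)⁻¹) ^ p = 1 := by
      rw [← map_mul, ← map_mul, ← map_pow, conj_pow, hxp, mul_one, mul_inv_cancel, map_one]
    have hxp' : matHom N x ^ p = 1 := by rw [← map_pow, hxp, map_one]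
    rw [h1, smul_pow, hxp'] at h2
    have h3 : chi hcomm x ⟨g, hg⟩ ^ p = 1 := by
      obtain ⟨i⟩ := ‹Nonempty ι›
      have := congrFun (congrFun h2 i) i
      simpa using this
    rw [hone _ h3, one_smul] at h1
    have h4 : (⟨g, hg⟩ : N) * x * (⟨g, hg⟩ : N)⁻¹ = x := by
      apply Subtype.ext
      apply Units.ext
      exact h1
    have h5 : (⟨g, hg⟩ : N) * x = x * ⟨g, hg⟩ := by
      calc (⟨g, hg⟩ : N) * x = ((⟨g, hg⟩ : N) * x * (⟨g, hg⟩ : N)⁻¹) * ⟨g, hg⟩ := by group
        _ = x * ⟨g, hg⟩ := by rw [h4]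
    exact (congrArg Subtype.val h5).symm
  obtain ⟨l, hl⟩ := hcen
  have hl' : scHom ι F l = ((x : N) : GL ι F) := hl
  have hlp : l ^ p = 1 := by
    apply scHom_injective (ι := ι)
    rw [map_pow, hl', map_one]
    exact congrArg Subtype.val hxp
  have hl1 : (l : F) = 1 := hone _ (by
    have := congrArg (fun u : Fˣ => (u : F)) hlp
    simpa using this)
  have hl2 : l = 1 := Units.ext hl1
  rw [hl2, map_one] at hl'
  have hx1 : x = 1 := Subtype.ext hl'.symm
  rw [hx1, orderOf_one] at hx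
  exact hp.out.one_lt.ne hx

/-- scalars fixing a nonzero bilinear form are `±1`. -/
lemma scalar_of_fixes [Nonempty ι] {f : (ι → F) → (ι → F) → F} (hf : IsBilinearForm f)
    (hnd : IsNondegenerateForm f) {N : Subgroup (GL ι F)} (hN : FixesForm (matrixSet N) f)
    {x : GL ι F} (hx : x ∈ N) (hxs : x ∈ scalars ι F) :
    (x : Matrix ι ι F) = 1 ∨ (x : Matrix ι ι F) = -1 := by
  obtain ⟨c, hc⟩ := (mem_scalars_iff _).mp hxs
  obtain ⟨i⟩ := ‹Nonempty ι›
  have hv : (Pi.single i 1 : ι → F) ≠ 0 := by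
    intro h0
    have := congrFun h0 i
    simp at this
  obtain ⟨u, hu⟩ := (hnd _ hv).1
  have h1 : f ((x : Matrix ι ι F) *ᵥ u) ((x : Matrix ι ι F) *ᵥ Pi.single i 1) =
      f u (Pi.single i 1) := hN _ ⟨x, hx, rfl⟩ u (Pi.single i 1)
  rw [hc, Matrix.smul_mulVec, Matrix.smul_mulVec, Matrix.one_mulVec, Matrix.one_mulVec,
    hf.smul_left, hf.smul_right] at h1
  have h2 : ((c : F) ^ 2 - 1) * f u (Pi.single i 1) = 0 := by linear_combination h1
  rcases mul_eq_zero.mp h2 with h | h
  · rcases sq_eq_one_iff.mp (sub_eq_zero.mp h) with h' | h'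
    · left; rw [hc, h', one_smul]
    · right; rw [hc, h', neg_smul, one_smul]
  · exact absurd h hu

lemma card_center_le_two [Finite F] [Nonempty ι] {N : Subgroup (GL ι F)}
    (habs : ActsAbsolutelyIrreducibly (matrixSet N))
    (hsc : ∀ x ∈ N, x ∈ scalars ι F → (x : Matrix ι ι F) = 1 ∨ (x : Matrix ι ι F) = -1) :
    Nat.card (Subgroup.center N) ≤ 2 := by
  classical
  have : Finite (GL ι F) := inferInstance
  have hmem : ∀ t : Subgroup.center N, (((t : N) : GL ι F) : Matrix ι ι F) = 1 ∨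
      (((t : N) : GL ι F) : Matrix ι ι F) = -1 := by
    intro t
    apply hsc _ (t : N).2
    have h1 : (t : N) ∈ (scalars ι F).subgroupOf N := by
      rw [subgroupOf_eq_center habs]; exact t.2
    exact h1
  let φ : Subgroup.center N → Bool := fun t => decide ((((t : N) : GL ι F) : Matrix ι ι F) = 1)
  have hφ : Function.Injective φ := by
    intro t t' h
    apply Subtype.ext
    apply Subtype.ext
    apply Units.ext
    simp only [φ, decide_eq_decide] at h
    rcases hmem t with h1 | h1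
    · rw [h1, h.mp h1]
    · rcases hmem t' with h2 | h2
      · rw [h2, h.mpr h2]
      · rw [h1, h2]
  have := Nat.card_le_card_of_injective φ hφ
  simpa using this

/-- minus type. -/
theorem minus_type [Finite F] (h2 : (2 : F) ≠ 0) {f : (ι → F) → (ι → F) → F}
    (hf : IsSymplecticForm f) {N : Subgroup (GL ι F)}
    (hN : FixesForm (matrixSet N) f) (habs : ActsAbsolutelyIrreducibly (matrixSet N))
    (hcomm : ⁅N, N⁆ ≤ scalars ι F) {k : ℕ} (hk : Fintype.card ι = 2 ^ k) : IsOfMinusType k N := by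
  classical
  have : Nonempty ι := Fintype.card_pos_iff.mp (by rw [hk]; positivity)
  have : Finite (GL ι F) := inferInstance
  intro A hAc hA2
  by_contra hcon
  push Not at hcon
  have hcardN := card_sq N habs hcomm (card_ne_zero habs hcomm)
  have hZ := card_center_le_two habs
    (fun x hx hxs => scalar_of_fixes hf.bilinear hf.nondegenerate hN hx hxs)
  have hidx : A.index ≤ Fintype.card ι := by
    have h1 := A.index_mul_card
    rw [hcardN, hk] at h1
    rw [hk]
    by_contra hlt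
    push Not at hlt
    have h3 : 2 ^ k * 2 ^ (k + 1) < A.index * Nat.card A :=
      Nat.mul_lt_mul_of_lt_of_le hlt hcon (Nat.card_pos)
    rw [h1] at h3
    have h4 : (2 ^ k) ^ 2 * Nat.card (Subgroup.center N) ≤ (2 ^ k) ^ 2 * 2 :=
      Nat.mul_le_mul_left _ hZ
    have h5 : 2 ^ k * 2 ^ (k + 1) = (2 ^ k) ^ 2 * 2 := by ring
    omega
  have hζ : IsPrimitiveRoot (-1 : F) 2 := by
    apply IsPrimitiveRoot.mk_of_lt _ (by norm_num) (by norm_num)
    intro l hl0 hl2
    have : l = 1 := by omega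
    subst this
    rw [pow_one]
    intro h
    apply h2
    linear_combination -h
  obtain ⟨v, hv0, hv⟩ := exists_common_eigenvector (A.map N.subtype) (by
      rintro _ ⟨a, ha, rfl⟩ _ ⟨b, hb, rfl⟩
      have := hAc.is_comm.comm (⟨a, ha⟩ : A) ⟨b, hb⟩
      exact congrArg (fun t : A => ((t : N) : GL ι F)) this) (z := 2) (by norm_num) (by
      rintro _ ⟨a, ha, rfl⟩
      have := hA2 a ha
      rw [pow_two]
      exact congrArg Subtype.val this) hζ
  obtain ⟨B, hB⟩ := monomial_of_index N habs.1 A hv0 (z := 2) (by norm_num)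
    (fun a ha => hv _ ⟨a, ha, rfl⟩) hidx
  obtain ⟨g, hg, hgfix, hg1⟩ := symm_of_mono hB
  obtain ⟨c, hc⟩ := Cfsg.Agent.Lib.Helper97GForms.schur_form habs
    (Cfsg.Agent.Lib.Helper97GForms.sesq_of_bilinear hf.bilinear)
    (Cfsg.Agent.Lib.Helper97GForms.sesq_of_bilinear hg.bilinear) hf.nondegenerate hN hgfix
  obtain ⟨i⟩ := ‹Nonempty ι›
  have := hg1 i
  rw [hc, hf.alternating, mul_zero] at this
  exact zero_ne_one this

end Cfsg.Agent.Lib.Helper7C6Type
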