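import Mathlib
import Cfsg.Agent.Lib.Helper7C6Type

set_option autoImplicit false

namespace Cfsg.Agent.Lib.Helper7C6Two

open Cfsg Cfsg.Geo Matrix Cfsg.Agent.Lib.Helper97GBase Cfsg.Agent.Lib.Helper97GCore
  Cfsg.Agent.Lib.Helper7C6Asm Cfsg.Agent.Lib.Helper7C6Card Cfsg.Agent.Lib.Helper7C6Mono
  Cfsg.Agent.Lib.Helper7C6Type
open scoped MatrixGroups commutatorElement

variable {ι : Type} [Fintype ι] [DecidableEq ι] {F : Type*} [Field F]

/-- characteristic abelian subgroups are cyclic (dichotomy only for subgroups of `N`). -/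
lemma cyclic_of_char' [Finite F] [Nonempty ι] {H N : Subgroup (GL ι F)} (hnorm : Nz H N)
    (hdich : ∀ T : Subgroup (GL ι F), T ≤ N → Nz H T →
      T ≤ scalars ι F ∨ ActsAbsolutelyIrreducibly (matrixSet T))
    (A : Subgroup N) (hA : A.Characteristic) (hc : IsMulCommutative A) : IsCyclic A := by
  have hNz : Nz H (A.map N.subtype) := by
    rintro h hh _ ⟨a, ha, rfl⟩
    refine ⟨conjAut hnorm h hh a, ?_, rfl⟩
    have := Subgroup.characteristic_iff_map_eq.mp hA (conjAut hnorm h hh)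
    rw [← this]
    exact ⟨a, ha, rfl⟩
  have hleN : A.map N.subtype ≤ N := by
    rintro _ ⟨a, _, rfl⟩
    exact a.2
  have hle : A.map N.subtype ≤ scalars ι F := by
    rcases hdich _ hleN hNz with h | h
    · exact h
    · intro x hx
      apply mem_scalars_of_comm h
      intro y hy
      obtain ⟨a, ha, rfl⟩ := hx
      obtain ⟨b, hb, rfl⟩ := hy
      have := hc.is_comm.comm (⟨a, ha⟩ : A) ⟨b, hb⟩
      exact congrArg (fun t : A => ((t : N) : GL ι F)) this
  let φ : A →* scalars ι F :=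
    { toFun := fun a => ⟨((a : N) : GL ι F), hle ⟨a, a.2, rfl⟩⟩
      map_one' := rfl
      map_mul' := fun _ _ => rfl }
  have hφ : Function.Injective φ := by
    intro a b hab
    have : ((a : N) : GL ι F) = ((b : N) : GL ι F) :=
      congrArg (fun t : scalars ι F => (t : GL ι F)) hab
    exact Subtype.ext (Subtype.ext this)
  exact isCyclic_of_injective φ hφ

/-- the structure of an absolutely irreducible group with scalar commutators whose scalars are
`±1`. -/
theorem extraspecial_of_pm [Finite F] [Nonempty ι] {N : Subgroup (GL ι F)}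
    (habs : ActsAbsolutelyIrreducibly (matrixSet N)) (hcomm : ⁅N, N⁆ ≤ scalars ι F)
    (hns : ¬ N ≤ scalars ι F)
    (hsc : ∀ x ∈ N, x ∈ scalars ι F → (x : Matrix ι ι F) = 1 ∨ (x : Matrix ι ι F) = -1) :
    (2 : F) ≠ 0 ∧ (∀ x ∈ N, x ^ 2 ∈ scalars ι F) ∧ IsPGroup 2 N ∧ Monoid.exponent N = 4 ∧
    Nat.card (Subgroup.center N) = 2 ∧
    (∃ k : ℕ, 1 ≤ k ∧ Fintype.card ι = 2 ^ k ∧ Nat.card N = 2 ^ (1 + 2 * k)) ∧
    (∀ x ∈ N, x ∉ scalars ι F → ∃ y ∈ N, (y : Matrix ι ι F) * (x : Matrix ι ι F) =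
      -((x : Matrix ι ι F) * (y : Matrix ι ι F))) := by
  classical
  have : Finite (GL ι F) := inferInstance
  -- commutation up to sign
  have hsign : ∀ x ∈ N, ∀ y ∈ N, (y * x = x * y) ∨
      ((y : Matrix ι ι F) * (x : Matrix ι ι F) = -((x : Matrix ι ι F) * (y : Matrix ι ι F))) := by
    intro x hx y hy
    have hc : ⁅y, x⁆ ∈ N := by
      rw [commutatorElement_def]
      exact N.mul_mem (N.mul_mem (N.mul_mem hy hx) (N.inv_mem hy)) (N.inv_mem hx)
    have e : y * x = ⁅y, x⁆ * (x * y) := by rw [commutatorElement_def]; group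
    rcases hsc _ hc (hcomm (Subgroup.commutator_mem_commutator hy hx)) with h | h
    · left
      have h1 : ⁅y, x⁆ = 1 := Units.ext h
      rw [e, h1, one_mul]
    · right
      have := congrArg (fun t : GL ι F => (t : Matrix ι ι F)) e
      simp only [Units.val_mul] at this
      rw [this, h, neg_mul, one_mul]
  have hanti : ∀ x ∈ N, x ∉ scalars ι F → ∃ y ∈ N, x * y ≠ y * x ∧
      (y : Matrix ι ι F) * (x : Matrix ι ι F) = -((x : Matrix ι ι F) * (y : Matrix ι ι F)) := by
    intro x hx hxs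
    have : ∃ y ∈ N, x * y ≠ y * x := by
      by_contra hcon
      push Not at hcon
      exact hxs (mem_scalars_of_comm habs hcon)
    obtain ⟨y, hy, hxy⟩ := this
    refine ⟨y, hy, hxy, ?_⟩
    rcases hsign x hx y hy with h | h
    · exact absurd h.symm hxy
    · exact h
  obtain ⟨x₀, hx₀, hx₀s⟩ : ∃ x ∈ N, x ∉ scalars ι F := by
    by_contra hcon
    push Not at hcon
    exact hns hcon
  obtain ⟨y₀, hy₀, hxy₀, hanti₀⟩ := hanti x₀ hx₀ hx₀s
  have h2 : (2 : F) ≠ 0 := by
    intro h20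
    apply hxy₀
    apply Units.ext
    rw [Units.val_mul, Units.val_mul, hanti₀]
    have : (-1 : F) = 1 := by linear_combination -h20
    calc (x₀ : Matrix ι ι F) * (y₀ : Matrix ι ι F)
        = (1 : F) • ((x₀ : Matrix ι ι F) * (y₀ : Matrix ι ι F)) := by rw [one_smul]
      _ = (-1 : F) • ((x₀ : Matrix ι ι F) * (y₀ : Matrix ι ι F)) := by rw [this]
      _ = _ := by rw [neg_smul, one_smul]
  have hsq : ∀ x ∈ N, x ^ 2 ∈ scalars ι F := by
    intro x hx
    apply mem_scalars_of_comm habs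
    intro y hy
    rcases hsign x hx y hy with h | h
    · rw [pow_two, mul_assoc, ← h, ← mul_assoc, ← h, mul_assoc]
    · apply Units.ext
      rw [pow_two]
      simp only [Units.val_mul]
      rw [mul_assoc]
      have h' : (x : Matrix ι ι F) * (y : Matrix ι ι F) =
          -((y : Matrix ι ι F) * (x : Matrix ι ι F)) := by rw [h, neg_neg]
      rw [h', mul_neg, ← mul_assoc, h', neg_mul, neg_neg, mul_assoc]
  have hp4 : ∀ x ∈ N, x ^ 4 = 1 := by
    intro x hx
    have e : x ^ 4 = x ^ 2 * x ^ 2 := by rw [← pow_add]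
    rw [e]
    apply Units.ext
    rw [Units.val_mul]
    rcases hsc _ (N.pow_mem hx 2) (hsq x hx) with h | h
    · rw [h, one_mul, Units.val_one]
    · rw [h, neg_mul_neg, one_mul, Units.val_one]
  have hP : IsPGroup 2 N := by
    intro g
    refine ⟨2, ?_⟩
    exact Subtype.ext (hp4 g g.2)
  have hexp : Monoid.exponent N = 4 := by
    have hd : Monoid.exponent N ∣ 2 ^ 2 := by
      apply Monoid.exponent_dvd_of_forall_pow_eq_one
      intro g
      exact Subtype.ext (hp4 g g.2)
    obtain ⟨j, hj, hje⟩ := (Nat.dvd_prime_pow Nat.prime_two).mp hd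
    have hj2 : j = 2 := by
      by_contra hne
      have hd2 : Monoid.exponent N ∣ 2 := by
        rw [hje]
        have : j = 0 ∨ j = 1 := by omega
        rcases this with rfl | rfl <;> norm_num
      have hall : ∀ g : N, g ^ 2 = 1 := Monoid.exponent_dvd_iff_forall_pow_eq_one.mp hd2
      apply hxy₀
      have hinv : ∀ g : N, g⁻¹ = g := by
        intro g
        rw [inv_eq_iff_mul_eq_one, ← pow_two]
        exact hall g
      have h3 := hinv (⟨x₀, hx₀⟩ * ⟨y₀, hy₀⟩)
      rw [_root_.mul_inv_rev, hinv, hinv] at h3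
      exact (congrArg Subtype.val h3).symm
    rw [hje, hj2]; norm_num
  have hZ : Nat.card (Subgroup.center N) = 2 := by
    have hle := card_center_le_two habs hsc
    have hpos : 0 < Nat.card (Subgroup.center N) := Nat.card_pos
    have hne : Nat.card (Subgroup.center N) ≠ 1 := by
      intro h1
      have hsub : Subsingleton (Subgroup.center N) := (Nat.card_eq_one_iff_unique.mp h1).1
      have hc : ⁅y₀, x₀⁆ ∈ N := by
        rw [commutatorElement_def]
        exact N.mul_mem (N.mul_mem (N.mul_mem hy₀ hx₀) (N.inv_mem hy₀)) (N.inv_mem hx₀)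
      have hcc : (⟨⁅y₀, x₀⁆, hc⟩ : N) ∈ Subgroup.center N := by
        rw [← subgroupOf_eq_center habs]
        exact hcomm (Subgroup.commutator_mem_commutator hy₀ hx₀)
      have := Subsingleton.elim (⟨⟨⁅y₀, x₀⁆, hc⟩, hcc⟩ : Subgroup.center N) 1
      have h3 : ⁅y₀, x₀⁆ = 1 := congrArg (fun t : Subgroup.center N => ((t : N) : GL ι F)) this
      exact hxy₀ (commutatorElement_eq_one_iff_mul_comm.mp h3).symm
    omega
  have hcardN := card_sq N habs hcomm (card_ne_zero habs hcomm)
  rw [hZ] at hcardN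
  refine ⟨h2, hsq, hP, hexp, hZ, ?_, fun x hx hxs => ?_⟩
  · obtain ⟨j, hj⟩ := IsPGroup.iff_card.mp hP
    have hdvd : Fintype.card ι ∣ 2 ^ j := by
      rw [← hj, hcardN, pow_two, mul_assoc]
      exact Dvd.intro _ rfl
    obtain ⟨k, -, hk⟩ := (Nat.dvd_prime_pow Nat.prime_two).mp hdvd
    have hN : Nat.card N = 2 ^ (1 + 2 * k) := by
      rw [hcardN, hk]; ring
    refine ⟨k, ?_, hk, hN⟩
    by_contra hk0
    have hk0' : k = 0 := by omega
    rw [hk0'] at hN
    have htop : Subgroup.center N = ⊤ := Subgroup.eq_top_of_card_eq _ (by rw [hZ, hN]; norm_num)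
    apply hxy₀
    have hm : (⟨y₀, hy₀⟩ : N) ∈ Subgroup.center N := by rw [htop]; trivial
    exact congrArg Subtype.val (Subgroup.mem_center_iff.mp hm ⟨x₀, hx₀⟩)
  · obtain ⟨y, hy, -, h⟩ := hanti x hx hxs
    exact ⟨y, hy, h⟩

end Cfsg.Agent.Lib.Helper7C6Two
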