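import Mathlib
import Cfsg.Prelude.Def_Classical

set_option autoImplicit false

namespace Cfsg.Agent.Lib.Helper7Exc

open Matrix

section general

variable {X Y : Type*} [Group X] [Group Y]

/-- Framework for the exceptional isomorphisms. -/
theorem quotient_center_equiv [Finite Y] (ρ : X →* Y) (Om : Subgroup Y) (hle : ρ.range ≤ Om)
    (hcard : Nat.card Om ≤ Nat.card ρ.range)
    (hcen : ∀ x : X, (∀ y : X, ρ x * ρ y = ρ y * ρ x) → x ∈ Subgroup.center X) :
    Nonempty (Om ⧸ Subgroup.center Om ≃* X ⧸ Subgroup.center X) := by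
  have hrange : ρ.range = Om := Subgroup.eq_of_le_of_card_ge hle hcard
  let ρ' : X →* Om := ρ.codRestrict Om (fun x => hle ⟨x, rfl⟩)
  have hsurj : Function.Surjective ρ' := by
    rintro ⟨y, hy⟩
    rw [← hrange] at hy
    obtain ⟨x, rfl⟩ := hy
    exact ⟨x, rfl⟩
  let π : X →* Om ⧸ Subgroup.center Om := (QuotientGroup.mk' _).comp ρ'
  have hπ : Function.Surjective π := (QuotientGroup.mk'_surjective _).comp hsurj
  have hker : π.ker = Subgroup.center X := by
    ext x
    rw [MonoidHom.mem_ker]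
    show (QuotientGroup.mk' _) (ρ' x) = 1 ↔ _
    rw [← MonoidHom.mem_ker, QuotientGroup.ker_mk', Subgroup.mem_center_iff]
    constructor
    · intro h
      apply hcen
      intro y
      have := h (ρ' y)
      exact (congrArg Subtype.val this).symm
    · intro h g
      obtain ⟨y, rfl⟩ := hsurj g
      rw [Subgroup.mem_center_iff] at h
      rw [← map_mul, ← map_mul, h y]
  exact ⟨((QuotientGroup.quotientMulEquivOfEq hker).symm.trans
    (QuotientGroup.quotientKerEquivOfSurjective π hπ)).symm⟩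

theorem comm_mul_aux (x a b : X) (hb : a⁻¹ * (x * b * x⁻¹ * b⁻¹) = (x * b * x⁻¹ * b⁻¹) * a⁻¹) :
    x * (a * b) * x⁻¹ * (a * b)⁻¹ = (x * a * x⁻¹ * a⁻¹) * (x * b * x⁻¹ * b⁻¹) := by
  have h1 : x * (a * b) * x⁻¹ * (a * b)⁻¹
      = x * a * x⁻¹ * ((x * b * x⁻¹ * b⁻¹) * a⁻¹) := by
    simp only [mul_assoc, _root_.mul_inv_rev, inv_mul_cancel_left]
  rw [h1, ← hb]
  simp only [mul_assoc]

/-- the hom `y ↦ x y x⁻¹ y⁻¹` to the centre. -/
def commHom (x : X) (hz : ∀ y, x * y * x⁻¹ * y⁻¹ ∈ Subgroup.center X) :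
    X →* Subgroup.center X :=
  MonoidHom.mk' (fun y => ⟨x * y * x⁻¹ * y⁻¹, hz y⟩) (by
    intro a b
    apply Subtype.ext
    exact comm_mul_aux x a b (Subgroup.mem_center_iff.1 (hz b) a⁻¹))

theorem commHom_apply (x : X) (hz : ∀ y, x * y * x⁻¹ * y⁻¹ ∈ Subgroup.center X) (y : X) :
    ((commHom x hz y : Subgroup.center X) : X) = x * y * x⁻¹ * y⁻¹ := rfl

/-- Gruen's lemma, in the form needed. -/
theorem mem_center_of_perfect (hperf : commutator X = ⊤) (ρ : X →* Y)
    (hker : ρ.ker ≤ Subgroup.center X) (x : X) (hx : ∀ y : X, ρ x * ρ y = ρ y * ρ x) :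
    x ∈ Subgroup.center X := by
  have hz : ∀ y, x * y * x⁻¹ * y⁻¹ ∈ Subgroup.center X := by
    intro y
    apply hker
    rw [MonoidHom.mem_ker, map_mul, map_mul, map_mul, map_inv, map_inv, hx y]
    simp only [mul_assoc, mul_inv_cancel, one_mul]
  have hf : commutator X ≤ (commHom x hz).ker := by
    rw [commutator_def, Subgroup.commutator_le]
    intro a _ b _
    rw [MonoidHom.mem_ker, map_commutatorElement, commutatorElement_eq_one_iff_mul_comm]
    apply Subtype.ext
    exact Subgroup.mem_center_iff.1 (commHom x hz b).2 _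
  rw [hperf, top_le_iff] at hf
  rw [Subgroup.mem_center_iff]
  intro y
  have h1 : commHom x hz y = 1 := by
    rw [← MonoidHom.mem_ker, hf]; exact Subgroup.mem_top y
  have h2 : x * y * x⁻¹ * y⁻¹ = 1 := by
    rw [← commHom_apply x hz y, h1]; rfl
  have h3 : x * y * x⁻¹ = y := mul_inv_eq_one.1 h2
  exact (mul_inv_eq_iff_eq_mul.1 h3).symm

/-- order comparison. -/
theorem card_le_card_range [Finite X] [Finite Y] (ρ : X →* Y) (Om : Subgroup Y)
    (hO : Nat.card Y = 2 * Nat.card X) (k : ℕ) (hk : Nat.card ρ.ker ≤ k)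
    (hidx : Om.index = 2 * k) : Nat.card Om ≤ Nat.card ρ.range := by
  have h1 := Subgroup.card_mul_index Om
  have h2 := Subgroup.card_mul_index ρ.ker
  rw [Subgroup.index_ker] at h2
  rw [hidx, hO, ← h2] at h1
  have hk0 : 0 < k := lt_of_lt_of_le Nat.card_pos hk
  have h3 : Nat.card Om * (2 * k) ≤ Nat.card ρ.range * (2 * k) := by
    rw [h1]
    calc 2 * (Nat.card ρ.ker * Nat.card ρ.range) ≤ 2 * (k * Nat.card ρ.range) := by gcongr
      _ = Nat.card ρ.range * (2 * k) := by ring
  exact Nat.le_of_mul_le_mul_right h3 (by omega)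

/-- Framework for the exceptional isomorphisms, general target. -/
theorem quotient_center_equiv' {P : Type*} [Group P] [Finite Y] (ρ : X →* Y) (Om : Subgroup Y)
    (hle : ρ.range ≤ Om) (hcard : Nat.card Om ≤ Nat.card ρ.range)
    (π : X →* P) (hπ : Function.Surjective π)
    (hker : ∀ x : X, π x = 1 ↔ ∀ y : X, ρ x * ρ y = ρ y * ρ x) :
    Nonempty (Om ⧸ Subgroup.center Om ≃* P) := by
  have hrange : ρ.range = Om := Subgroup.eq_of_le_of_card_ge hle hcard
  let ρ' : X →* Om := ρ.codRestrict Om (fun x => hle ⟨x, rfl⟩)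
  have hsurj : Function.Surjective ρ' := by
    rintro ⟨y, hy⟩
    rw [← hrange] at hy
    obtain ⟨x, rfl⟩ := hy
    exact ⟨x, rfl⟩
  let π' : X →* Om ⧸ Subgroup.center Om := (QuotientGroup.mk' _).comp ρ'
  have hπ' : Function.Surjective π' := (QuotientGroup.mk'_surjective _).comp hsurj
  have hker' : π'.ker = π.ker := by
    ext x
    rw [MonoidHom.mem_ker, MonoidHom.mem_ker, hker]
    show (QuotientGroup.mk' _) (ρ' x) = 1 ↔ _
    rw [← MonoidHom.mem_ker, QuotientGroup.ker_mk', Subgroup.mem_center_iff]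
    constructor
    · intro h y
      have := h (ρ' y)
      exact (congrArg Subtype.val this).symm
    · intro h g
      obtain ⟨y, rfl⟩ := hsurj g
      apply Subtype.ext
      exact (h y).symm
  exact ⟨((QuotientGroup.quotientKerEquivOfSurjective π' hπ').symm.trans
    (QuotientGroup.quotientMulEquivOfEq hker')).trans
    (QuotientGroup.quotientKerEquivOfSurjective π hπ)⟩

theorem range_le_commutator (hperf : commutator X = ⊤) (ρ : X →* Y) :
    ρ.range ≤ commutator Y := by
  rw [MonoidHom.range_eq_map, ← hperf, commutator_def, Subgroup.map_commutator, commutator_def]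
  exact Subgroup.commutator_mono le_top le_top

/-- the kernel has at most two elements -/
theorem card_ker_le {F : Type*} [Field F] (ρ : X →* Y) (f : X → F)
    (hf : ∀ x ∈ ρ.ker, ∀ y ∈ ρ.ker, f x = f y → x = y)
    (h1 : ∀ x ∈ ρ.ker, f x = 1 ∨ f x = -1) :
    Nat.card ρ.ker ≤ 2 ∧ ((2 : F) = 0 → Nat.card ρ.ker ≤ 1) := by
  classical
  have hinj : Function.Injective (fun x : ρ.ker =>
      (⟨f x, by
        rcases h1 x x.2 with h | h <;> simp [h]⟩ : ↥({1, -1} : Finset F))) := by
    intro x y hxy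
    apply Subtype.ext
    apply hf x x.2 y y.2
    exact congrArg Subtype.val hxy
  have hle := Nat.card_le_card_of_injective _ hinj
  rw [Nat.card_eq_fintype_card (α := ↥({1, -1} : Finset F)), Fintype.card_coe] at hle
  constructor
  · exact hle.trans (Finset.card_le_two)
  · intro h2
    have : (-1 : F) = 1 := by linear_combination -h2
    rw [this] at hle
    simpa using hle

end general

section rep

variable {F : Type*} [Field F] {ι : Type} [Fintype ι] [DecidableEq ι] {X : Type*} [Group X]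

/-- from a representation by isometries to a hom into the isometry group. -/
noncomputable def toIso (Q : (ι → F) → F) (φ : X →* Module.End F (ι → F))
    (hφ : ∀ x v, Q (φ x v) = Q v) : X →* ↥(Cfsg.isometryGroup F Q) :=
  ((Units.map (LinearMap.toMatrixAlgEquiv' (R := F) (n := ι)).toRingEquiv.toMonoidHom).comp
    φ.toHomUnits).codRestrict _ (fun x u _ => by
      show Q ((LinearMap.toMatrix' (φ x)) *ᵥ u) = Q u
      rw [LinearMap.toMatrix'_mulVec]
      exact hφ x u)

theorem toIso_mulVec (Q : (ι → F) → F) (φ : X →* Module.End F (ι → F))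
    (hφ : ∀ x v, Q (φ x v) = Q v) (x : X) (v : ι → F) :
    (((toIso Q φ hφ x : ↥(Cfsg.isometryGroup F Q)) : Matrix.GeneralLinearGroup ι F) :
      Matrix ι ι F) *ᵥ v = φ x v := by
  show (LinearMap.toMatrix' (φ x)) *ᵥ v = φ x v
  rw [LinearMap.toMatrix'_mulVec]

theorem toIso_eq_iff (Q : (ι → F) → F) (φ : X →* Module.End F (ι → F))
    (hφ : ∀ x v, Q (φ x v) = Q v) (x y : X) :
    toIso Q φ hφ x = toIso Q φ hφ y ↔ φ x = φ y := by
  constructor
  · intro h
    refine LinearMap.ext fun v => ?_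
    rw [← toIso_mulVec Q φ hφ, ← toIso_mulVec Q φ hφ, h]
  · intro h
    apply Subtype.ext
    apply Units.ext
    show LinearMap.toMatrix' (φ x) = LinearMap.toMatrix' (φ y)
    rw [h]

variable {V W : Type*} [AddCommGroup V] [Module F V] [AddCommGroup W] [Module F W]

/-- a subrepresentation given by an embedding with a retraction. -/
def subRep (c : X →* Module.End F W) (E : V →ₗ[F] W) (D : W →ₗ[F] V) (hDE : ∀ v, D (E v) = v)
    (hstab : ∀ g v, E (D (c g (E v))) = c g (E v)) : X →* Module.End F V where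
  toFun g := D ∘ₗ (c g) ∘ₗ E
  map_one' := by
    ext v
    simp [hDE]
  map_mul' g h := by
    ext v
    simp only [LinearMap.comp_apply, Module.End.mul_apply, map_mul]
    rw [hstab]

theorem subRep_apply (c : X →* Module.End F W) (E : V →ₗ[F] W) (D : W →ₗ[F] V)
    (hDE : ∀ v, D (E v) = v) (hstab : ∀ g v, E (D (c g (E v))) = c g (E v)) (g : X) (v : V) :
    E (subRep c E D hDE hstab g v) = c g (E v) := hstab g v

end rep

end Cfsg.Agent.Lib.Helper7Exc
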