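import Mathlib
import Cfsg.Prelude.Def_Classical
import Cfsg.Agent.Lib.Helper7Exc
import Cfsg.Agent.Lib.Helper7Norm2

set_option autoImplicit false

namespace Cfsg.Agent.Lib.Helper7H2

open Matrix QuadraticAlgebra Helper7Norm2

variable {F : Type*} [Field F] {a b : F}

/-- hermitian matrix from coordinates -/
def Emat (a b : F) (v : (Fin 1 ⊕ Fin 1) ⊕ Fin 2 → F) :
    Matrix (Fin 2) (Fin 2) (QuadraticAlgebra F (-b) a) :=
  !![⟨-v (.inl (.inl 0)), 0⟩, ⟨v (.inr 0), v (.inr 1)⟩;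
     star ⟨v (.inr 0), v (.inr 1)⟩, ⟨v (.inl (.inr 0)), 0⟩]

/-- coordinates of a matrix -/
def Dvec (M : Matrix (Fin 2) (Fin 2) (QuadraticAlgebra F (-b) a)) :
    (Fin 1 ⊕ Fin 1) ⊕ Fin 2 → F :=
  Sum.elim (Sum.elim ![-(M 0 0).re] ![(M 1 1).re]) ![(M 0 1).re, (M 0 1).im]

theorem D_E (v : (Fin 1 ⊕ Fin 1) ⊕ Fin 2 → F) : Dvec (Emat a b v) = v := by
  funext i
  rcases i with (i | i) | i <;> fin_cases i <;> simp [Dvec, Emat]

theorem E_herm (v : (Fin 1 ⊕ Fin 1) ⊕ Fin 2 → F) : (Emat a b v)ᴴ = Emat a b v := by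
  refine Matrix.ext fun i j => ?_
  fin_cases i <;> fin_cases j <;> simp [Emat, Matrix.conjTranspose_apply]

theorem E_D_of_herm (hD : a ^ 2 - 4 * b ≠ 0)
    (M : Matrix (Fin 2) (Fin 2) (QuadraticAlgebra F (-b) a)) (hM : Mᴴ = M) :
    Emat a b (Dvec M) = M := by
  have h00 : (M 0 0).im = 0 := by
    rw [← star_eq_self_iff hD]
    exact congrFun (congrFun hM 0) 0
  have h11 : (M 1 1).im = 0 := by
    rw [← star_eq_self_iff hD]
    exact congrFun (congrFun hM 1) 1
  have h10 : star (M 0 1) = M 1 0 := congrFun (congrFun hM 1) 0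
  refine Matrix.ext fun i j => ?_
  fin_cases i <;> fin_cases j
  · ext <;> simp [Emat, Dvec, h00]
  · ext <;> simp [Emat, Dvec]
  · show Emat a b (Dvec M) 1 0 = M 1 0
    rw [← h10]
    ext <;> simp [Emat, Dvec]
  · ext <;> simp [Emat, Dvec, h11]

theorem det_E (v : (Fin 1 ⊕ Fin 1) ⊕ Fin 2 → F) :
    (Emat a b v).det = ⟨-Cfsg.quadFormMinus 1 F a b v, 0⟩ := by
  rw [Matrix.det_fin_two]
  ext
  · simp [Emat, Cfsg.quadFormMinus]
    ring
  · simp [Emat, Cfsg.quadFormMinus]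
    ring

/-- linear version of `Emat` -/
def EL (a b : F) : ((Fin 1 ⊕ Fin 1) ⊕ Fin 2 → F) →ₗ[F]
    Matrix (Fin 2) (Fin 2) (QuadraticAlgebra F (-b) a) where
  toFun := Emat a b
  map_add' u v := by
    refine Matrix.ext fun i j => ?_
    fin_cases i <;> fin_cases j <;> ext <;> simp [Emat] <;> ring
  map_smul' c v := by
    refine Matrix.ext fun i j => ?_
    fin_cases i <;> fin_cases j <;> ext <;> simp [Emat] <;> ring

/-- linear version of `Dvec` -/
def DL (a b : F) : Matrix (Fin 2) (Fin 2) (QuadraticAlgebra F (-b) a) →ₗ[F]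
    ((Fin 1 ⊕ Fin 1) ⊕ Fin 2 → F) where
  toFun := Dvec
  map_add' u v := by
    funext i
    rcases i with (i | i) | i <;> fin_cases i <;> simp [Dvec] <;> ring
  map_smul' c v := by
    funext i
    rcases i with (i | i) | i <;> fin_cases i <;> simp [Dvec]

/-- hermitian congruence action of the matrix monoid -/
def congH (a b : F) : Matrix (Fin 2) (Fin 2) (QuadraticAlgebra F (-b) a) →*
    Module.End F (Matrix (Fin 2) (Fin 2) (QuadraticAlgebra F (-b) a)) where
  toFun g :=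
    { toFun := fun A => g * A * gᴴ
      map_add' := fun A B => by rw [Matrix.mul_add, Matrix.add_mul]
      map_smul' := fun c A => by simp }
  map_one' := by
    ext A : 1
    simp
  map_mul' g h := by
    refine LinearMap.ext fun A => ?_
    show g * h * A * (g * h)ᴴ = g * (h * A * hᴴ) * gᴴ
    rw [Matrix.conjTranspose_mul]
    simp only [Matrix.mul_assoc]

theorem conj_herm (g : Matrix (Fin 2) (Fin 2) (QuadraticAlgebra F (-b) a))
    (v : (Fin 1 ⊕ Fin 1) ⊕ Fin 2 → F) : (g * Emat a b v * gᴴ)ᴴ = g * Emat a b v * gᴴ := by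
  rw [Matrix.conjTranspose_mul, Matrix.conjTranspose_mul, Matrix.conjTranspose_conjTranspose,
    E_herm, Matrix.mul_assoc]

theorem E_one : Emat a b (Pi.single (.inl (.inl 0)) (-1)) = !![1, 0; 0, 0] := by
  refine Matrix.ext fun i j => ?_
  fin_cases i <;> fin_cases j <;> ext <;> simp [Emat]

theorem E_two : Emat a b (Pi.single (.inl (.inr 0)) 1) = !![0, 0; 0, 1] := by
  refine Matrix.ext fun i j => ?_
  fin_cases i <;> fin_cases j <;> ext <;> simp [Emat]

theorem E_three : Emat a b (Pi.single (.inr 0) 1) = !![0, 1; 1, 0] := by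
  refine Matrix.ext fun i j => ?_
  fin_cases i <;> fin_cases j <;> ext <;> simp [Emat]

theorem scalar_of_conjH [Fact (∀ r : F, r ^ 2 ≠ -b + a * r)]
    (g : Matrix (Fin 2) (Fin 2) (QuadraticAlgebra F (-b) a)) (hdet : g.det = 1)
    (H : ∀ v, g * Emat a b v * gᴴ = Emat a b v) :
    ∃ d : QuadraticAlgebra F (-b) a, d * d = 1 ∧ g = Matrix.scalar (Fin 2) d := by
  have h1 := congrFun (congrFun (H (Pi.single (.inl (.inl 0)) (-1))) 1) 1
  have h2 := congrFun (congrFun (H (Pi.single (.inl (.inr 0)) 1)) 0) 0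
  have h2' := congrFun (congrFun (H (Pi.single (.inl (.inr 0)) 1)) 1) 1
  have h3 := congrFun (congrFun (H (Pi.single (.inr 0) 1)) 0) 1
  rw [E_one] at h1
  rw [E_two] at h2 h2'
  rw [E_three] at h3
  simp [Matrix.mul_apply, Fin.sum_univ_succ, Matrix.conjTranspose_apply] at h1 h2 h2' h3
  rw [Matrix.det_fin_two, h1, h2] at hdet
  rw [h1, h2] at h3
  simp at h3 hdet
  have h11 : g 1 1 ≠ 0 := by
    intro h0
    rw [h0] at hdet
    simp at hdet
  have hs : star (g 1 1) ≠ 0 := by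
    intro h0
    rw [h0] at h3
    simp at h3
  have heq : g 0 0 = g 1 1 := mul_right_cancel₀ hs (h3.trans h2'.symm)
  refine ⟨g 0 0, ?_, ?_⟩
  · rw [← hdet, ← heq]
  · refine Matrix.ext fun i j => ?_
    fin_cases i <;> fin_cases j <;> simp [h1, h2, heq]

section rep

variable {X : Type*} [Group X]

/-- the representation on coordinates of hermitian matrices -/
noncomputable def phi (hD : a ^ 2 - 4 * b ≠ 0)
    (j : X →* Matrix (Fin 2) (Fin 2) (QuadraticAlgebra F (-b) a)) :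
    X →* Module.End F ((Fin 1 ⊕ Fin 1) ⊕ Fin 2 → F) :=
  Helper7Exc.subRep ((congH a b).comp j) (EL a b) (DL a b) D_E
    (fun g v => E_D_of_herm hD _ (conj_herm (j g) v))

theorem phi_apply (hD : a ^ 2 - 4 * b ≠ 0)
    (j : X →* Matrix (Fin 2) (Fin 2) (QuadraticAlgebra F (-b) a)) (x : X)
    (v : (Fin 1 ⊕ Fin 1) ⊕ Fin 2 → F) :
    phi hD j x v = Dvec (j x * Emat a b v * (j x)ᴴ) := rfl

theorem E_phi (hD : a ^ 2 - 4 * b ≠ 0)
    (j : X →* Matrix (Fin 2) (Fin 2) (QuadraticAlgebra F (-b) a)) (x : X)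
    (v : (Fin 1 ⊕ Fin 1) ⊕ Fin 2 → F) :
    Emat a b (phi hD j x v) = j x * Emat a b v * (j x)ᴴ := by
  rw [phi_apply, E_D_of_herm hD _ (conj_herm (j x) v)]

theorem Q_phi (hD : a ^ 2 - 4 * b ≠ 0)
    (j : X →* Matrix (Fin 2) (Fin 2) (QuadraticAlgebra F (-b) a)) (hj : ∀ x, (j x).det = 1)
    (x : X) (v : (Fin 1 ⊕ Fin 1) ⊕ Fin 2 → F) :
    Cfsg.quadFormMinus 1 F a b (phi hD j x v) = Cfsg.quadFormMinus 1 F a b v := by
  have h1 := det_E (a := a) (b := b) (phi hD j x v)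
  rw [E_phi, Matrix.det_mul, Matrix.det_mul, Matrix.det_conjTranspose, hj, star_one, one_mul,
    mul_one, det_E] at h1
  have h2 := congrArg QuadraticAlgebra.re h1
  exact (neg_injective h2).symm

/-- the hom to the orthogonal group -/
noncomputable def rho (hD : a ^ 2 - 4 * b ≠ 0)
    (j : X →* Matrix (Fin 2) (Fin 2) (QuadraticAlgebra F (-b) a)) (hj : ∀ x, (j x).det = 1) :
    X →* ↥(Cfsg.isometryGroup F (Cfsg.quadFormMinus 1 F a b)) :=
  Helper7Exc.toIso _ (phi hD j) (Q_phi hD j hj)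

theorem rho_mulVec (hD : a ^ 2 - 4 * b ≠ 0)
    (j : X →* Matrix (Fin 2) (Fin 2) (QuadraticAlgebra F (-b) a)) (hj : ∀ x, (j x).det = 1)
    (x : X) (v : (Fin 1 ⊕ Fin 1) ⊕ Fin 2 → F) :
    (((rho hD j hj x : ↥(Cfsg.isometryGroup F (Cfsg.quadFormMinus 1 F a b))) :
      Matrix.GeneralLinearGroup ((Fin 1 ⊕ Fin 1) ⊕ Fin 2) F) : Matrix _ _ F) *ᵥ v
      = phi hD j x v :=
  Helper7Exc.toIso_mulVec _ _ _ x v

theorem ker_scalar [Fact (∀ r : F, r ^ 2 ≠ -b + a * r)] (hD : a ^ 2 - 4 * b ≠ 0)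
    (j : X →* Matrix (Fin 2) (Fin 2) (QuadraticAlgebra F (-b) a)) (hj : ∀ x, (j x).det = 1)
    (x : X) (hx : x ∈ (rho hD j hj).ker) :
    ∃ d : QuadraticAlgebra F (-b) a, d * d = 1 ∧ j x = Matrix.scalar (Fin 2) d := by
  apply scalar_of_conjH _ (hj x)
  intro v
  rw [← E_phi hD, ← rho_mulVec hD j hj, MonoidHom.mem_ker.1 hx]
  simp

theorem card_ker_le [Fact (∀ r : F, r ^ 2 ≠ -b + a * r)] (hD : a ^ 2 - 4 * b ≠ 0)
    (j : X →* Matrix (Fin 2) (Fin 2) (QuadraticAlgebra F (-b) a)) (hj : ∀ x, (j x).det = 1)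
    (hinj : Function.Injective j) :
    Nat.card (rho hD j hj).ker ≤ 2 ∧ ((2 : F) = 0 → Nat.card (rho hD j hj).ker ≤ 1) := by
  have h := Helper7Exc.card_ker_le (rho hD j hj) (fun x => j x 0 0) (by
    intro x hx y hy hxy
    obtain ⟨d, _, hd⟩ := ker_scalar hD j hj x hx
    obtain ⟨e, _, he⟩ := ker_scalar hD j hj y hy
    apply hinj
    simp only [hd, he, Matrix.scalar_apply, Matrix.diagonal_apply_eq] at hxy
    rw [hd, he, hxy]) (by
    intro x hx
    obtain ⟨d, hd1, hd⟩ := ker_scalar hD j hj x hx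
    simp only [hd, Matrix.scalar_apply, Matrix.diagonal_apply_eq]
    exact mul_self_eq_one_iff.1 hd1)
  refine ⟨h.1, fun h2 => h.2 ?_⟩
  have := congrArg (algebraMap F (QuadraticAlgebra F (-b) a)) h2
  rw [map_ofNat, map_zero] at this
  exact this

theorem ker_le_center [Fact (∀ r : F, r ^ 2 ≠ -b + a * r)] (hD : a ^ 2 - 4 * b ≠ 0)
    (j : X →* Matrix (Fin 2) (Fin 2) (QuadraticAlgebra F (-b) a)) (hj : ∀ x, (j x).det = 1)
    (hinj : Function.Injective j) : (rho hD j hj).ker ≤ Subgroup.center X := by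
  intro x hx
  obtain ⟨d, _, hd⟩ := ker_scalar hD j hj x hx
  rw [Subgroup.mem_center_iff]
  intro y
  apply hinj
  rw [map_mul, map_mul, hd]
  exact (Matrix.scalar_commute d (fun r => mul_comm _ _) (j y)).symm.eq

end rep

section general

variable {X Y : Type*} [Group X] [Group Y]

theorem commutator_le_of_index_two (H : Subgroup Y) (h : H.index = 2) : commutator Y ≤ H := by
  rw [commutator_def, Subgroup.commutator_le]
  intro x _ y _
  rw [commutatorElement_def, Subgroup.mul_mem_iff_of_index_two h,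
    Subgroup.mul_mem_iff_of_index_two h, Subgroup.mul_mem_iff_of_index_two h, inv_mem_iff,
    inv_mem_iff]
  tauto

theorem card_commutator_le_card_range [Finite X] [Finite Y] (ρ : X →* Y)
    (hO : Nat.card Y = 2 * Nat.card X) (hk : Nat.card ρ.ker ≤ 1) :
    Nat.card (commutator Y) ≤ Nat.card ρ.range := by
  apply Subgroup.card_le_of_le
  apply commutator_le_of_index_two
  have h1 := Subgroup.card_mul_index ρ.range
  have h2 := Subgroup.card_mul_index ρ.ker
  rw [Subgroup.index_ker] at h2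
  have hk1 : Nat.card ρ.ker = 1 := le_antisymm hk Nat.card_pos
  rw [hk1, one_mul] at h2
  rw [hO, ← h2, mul_comm] at h1
  exact Nat.eq_of_mul_eq_mul_right Nat.card_pos h1

theorem exists_sq_ne_one {L : Type*} [Field L] (hF : 4 ≤ Nat.card L) :
    ∃ a : L, a ≠ 0 ∧ a ^ 2 ≠ 1 := by
  have : Finite L := (Nat.card_pos_iff.1 (by omega)).2
  obtain ⟨x, hx⟩ : IsCyclic Lˣ := by infer_instance
  refine ⟨x, Units.ne_zero x, fun h ↦ ?_⟩
  grw [Nat.card_eq_card_units_add_one L, ← orderOf_eq_card_of_forall_mem_zpowers hx,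
    orderOf_le_of_pow_eq_one zero_lt_two (Units.ext <| by simpa using h)] at hF
  omega

end general

end Cfsg.Agent.Lib.Helper7H2
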