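import Mathlib
import Cfsg.Prelude.Def_Classical
import Cfsg.Agent.Lib.Helper7Exc

set_option autoImplicit false

namespace Cfsg.Agent.Lib.Helper7M2

open Matrix

variable {F : Type*} [Field F]

/-- matrix from coordinates -/
def Emat (v : Fin 2 ⊕ Fin 2 → F) : Matrix (Fin 2) (Fin 2) F :=
  !![v (.inl 0), v (.inl 1); -v (.inr 1), v (.inr 0)]

/-- coordinates of a matrix -/
def Dvec (M : Matrix (Fin 2) (Fin 2) F) : Fin 2 ⊕ Fin 2 → F :=
  Sum.elim ![M 0 0, M 0 1] ![M 1 1, -M 1 0]

theorem D_E (v : Fin 2 ⊕ Fin 2 → F) : Dvec (Emat v) = v := by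
  funext i
  rcases i with i | i <;> fin_cases i <;> simp [Dvec, Emat]

theorem E_D (M : Matrix (Fin 2) (Fin 2) F) : Emat (Dvec M) = M := by
  ext i j
  fin_cases i <;> fin_cases j <;> simp [Dvec, Emat]

theorem det_E (v : Fin 2 ⊕ Fin 2 → F) : (Emat v).det = Cfsg.quadFormPlus 2 F v := by
  simp [Cfsg.quadFormPlus, Emat, Matrix.det_fin_two, Fin.sum_univ_succ]

theorem Q_D (M : Matrix (Fin 2) (Fin 2) F) : Cfsg.quadFormPlus 2 F (Dvec M) = M.det := by
  rw [← det_E, E_D]

/-- linear version of `Emat` -/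
def EL : (Fin 2 ⊕ Fin 2 → F) →ₗ[F] Matrix (Fin 2) (Fin 2) F where
  toFun := Emat
  map_add' u v := by
    ext i j
    fin_cases i <;> fin_cases j <;> simp [Emat] <;> ring
  map_smul' c v := by
    ext i j
    fin_cases i <;> fin_cases j <;> simp [Emat]

/-- linear version of `Dvec` -/
def DL : Matrix (Fin 2) (Fin 2) F →ₗ[F] (Fin 2 ⊕ Fin 2 → F) where
  toFun := Dvec
  map_add' u v := by
    funext i
    rcases i with i | i <;> fin_cases i <;> simp [Dvec] <;> ring
  map_smul' c v := by
    funext i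
    rcases i with i | i <;> fin_cases i <;> simp [Dvec]

/-- two-sided action of pairs of matrices -/
def two (n : Type*) [Fintype n] [DecidableEq n] :
    Matrix n n F × Matrix n n F →* Module.End F (Matrix n n F) where
  toFun g :=
    { toFun := fun A => g.1 * A * g.2ᵀ
      map_add' := fun A B => by rw [Matrix.mul_add, Matrix.add_mul]
      map_smul' := fun c A => by simp }
  map_one' := by
    ext A : 1
    simp
  map_mul' g h := by
    refine LinearMap.ext fun A => ?_
    show (g.1 * h.1) * A * (g.2 * h.2)ᵀ = g.1 * (h.1 * A * h.2ᵀ) * g.2ᵀ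
    rw [Matrix.transpose_mul]
    simp only [Matrix.mul_assoc]

theorem two_single {n : Type*} [Fintype n] [DecidableEq n] (g h : Matrix n n F) (i j k l : n) :
    (g * Matrix.single i j (1 : F) * hᵀ) k l = g k i * h l j := by
  rw [Matrix.mul_apply, Finset.sum_eq_single j]
  · simp
  · intro b _ hb
    simp [hb]
  · simp

/-- a pair acting trivially is a pair of inverse scalars -/
theorem scalar_of_two (g h : Matrix (Fin 2) (Fin 2) F) (H : ∀ M, g * M * hᵀ = M) :
    ∃ d e : F, d * e = 1 ∧ g = Matrix.scalar (Fin 2) d ∧ h = Matrix.scalar (Fin 2) e := by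
  have H1 : ∀ i j k l : Fin 2, g k i * h l j = if k = i ∧ l = j then 1 else 0 := by
    intro i j k l
    rw [← two_single, H, Matrix.single_apply]
    simp only [eq_comm]
  have hd : ∀ i l : Fin 2, g i i * h l l = 1 := by
    intro i l
    rw [H1]; simp
  have hg : ∀ i k : Fin 2, k ≠ i → g k i = 0 := by
    intro i k hki
    have h1 := H1 i 0 k 0
    simp only [hki, false_and, if_false] at h1
    rcases mul_eq_zero.1 h1 with h | h
    · exact h
    · have := hd 0 0
      rw [h, mul_zero] at this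
      exact absurd this zero_ne_one
  have hh : ∀ j l : Fin 2, l ≠ j → h l j = 0 := by
    intro j l hlj
    have h1 := H1 0 j 0 l
    simp only [hlj, and_false, if_false] at h1
    rcases mul_eq_zero.1 h1 with h | h
    · have := hd 0 0
      rw [h, zero_mul] at this
      exact absurd this zero_ne_one
    · exact h
  have hh0 : h 0 0 ≠ 0 := by
    intro h0
    have := hd 0 0
    rw [h0, mul_zero] at this
    exact absurd this zero_ne_one
  have hg0 : g 0 0 ≠ 0 := by
    intro h0
    have := hd 0 0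
    rw [h0, zero_mul] at this
    exact absurd this zero_ne_one
  refine ⟨g 0 0, h 0 0, hd 0 0, ?_, ?_⟩
  · ext i j
    by_cases hij : i = j
    · subst hij
      have : g i i = g 0 0 := mul_right_cancel₀ hh0 ((hd i 0).trans (hd 0 0).symm)
      simp [this]
    · simp [hij, hg j i hij]
  · ext i j
    by_cases hij : i = j
    · subst hij
      have : h i i = h 0 0 := mul_left_cancel₀ hg0 ((hd 0 i).trans (hd 0 0).symm)
      simp [this]
    · simp [hij, hh j i hij]

section rep

variable {X : Type*} [Group X]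

/-- the representation on coordinates -/
noncomputable def phi (j : X →* Matrix (Fin 2) (Fin 2) F × Matrix (Fin 2) (Fin 2) F) :
    X →* Module.End F (Fin 2 ⊕ Fin 2 → F) :=
  Helper7Exc.subRep ((two (Fin 2)).comp j) EL DL D_E
    (fun g v => E_D ((j g).1 * Emat v * (j g).2ᵀ))

theorem phi_apply (j : X →* Matrix (Fin 2) (Fin 2) F × Matrix (Fin 2) (Fin 2) F) (x : X)
    (v : Fin 2 ⊕ Fin 2 → F) : phi j x v = Dvec ((j x).1 * Emat v * (j x).2ᵀ) := rfl

theorem E_phi (j : X →* Matrix (Fin 2) (Fin 2) F × Matrix (Fin 2) (Fin 2) F) (x : X)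
    (v : Fin 2 ⊕ Fin 2 → F) : Emat (phi j x v) = (j x).1 * Emat v * (j x).2ᵀ := by
  rw [phi_apply, E_D]

theorem Q_phi (j : X →* Matrix (Fin 2) (Fin 2) F × Matrix (Fin 2) (Fin 2) F)
    (hj : ∀ x, (j x).1.det * (j x).2.det = 1) (x : X) (v : Fin 2 ⊕ Fin 2 → F) :
    Cfsg.quadFormPlus 2 F (phi j x v) = Cfsg.quadFormPlus 2 F v := by
  rw [phi_apply, Q_D, Matrix.det_mul, Matrix.det_mul, Matrix.det_transpose, det_E]
  linear_combination (Cfsg.quadFormPlus 2 F v) * hj x

/-- the hom to the orthogonal group -/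
noncomputable def rho (j : X →* Matrix (Fin 2) (Fin 2) F × Matrix (Fin 2) (Fin 2) F)
    (hj : ∀ x, (j x).1.det * (j x).2.det = 1) :
    X →* ↥(Cfsg.isometryGroup F (Cfsg.quadFormPlus 2 F)) :=
  Helper7Exc.toIso _ (phi j) (Q_phi j hj)

theorem rho_mulVec (j : X →* Matrix (Fin 2) (Fin 2) F × Matrix (Fin 2) (Fin 2) F)
    (hj : ∀ x, (j x).1.det * (j x).2.det = 1) (x : X) (v : Fin 2 ⊕ Fin 2 → F) :
    (((rho j hj x : ↥(Cfsg.isometryGroup F (Cfsg.quadFormPlus 2 F))) :
      Matrix.GeneralLinearGroup (Fin 2 ⊕ Fin 2) F) : Matrix _ _ F) *ᵥ v = phi j x v :=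
  Helper7Exc.toIso_mulVec _ _ _ x v

theorem ker_scalar (j : X →* Matrix (Fin 2) (Fin 2) F × Matrix (Fin 2) (Fin 2) F)
    (hj : ∀ x, (j x).1.det * (j x).2.det = 1) (x : X) (hx : x ∈ (rho j hj).ker) :
    ∃ d e : F, d * e = 1 ∧ (j x).1 = Matrix.scalar (Fin 2) d
      ∧ (j x).2 = Matrix.scalar (Fin 2) e := by
  apply scalar_of_two
  intro M
  rw [← E_D M, ← E_phi, ← rho_mulVec j hj, MonoidHom.mem_ker.1 hx]
  simp

theorem rho_congr {X' : Type*} [Group X']
    (j : X →* Matrix (Fin 2) (Fin 2) F × Matrix (Fin 2) (Fin 2) F)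
    (hj : ∀ x, (j x).1.det * (j x).2.det = 1)
    (j' : X' →* Matrix (Fin 2) (Fin 2) F × Matrix (Fin 2) (Fin 2) F)
    (hj' : ∀ x, (j' x).1.det * (j' x).2.det = 1) (x : X) (x' : X') (h : j x = j' x') :
    rho j hj x = rho j' hj' x' := by
  apply Subtype.ext
  apply Units.ext
  show LinearMap.toMatrix' (phi j x) = LinearMap.toMatrix' (phi j' x')
  congr 1
  refine LinearMap.ext fun v => ?_
  rw [phi_apply, phi_apply, h]

theorem comm_sign (j : X →* Matrix (Fin 2) (Fin 2) F × Matrix (Fin 2) (Fin 2) F)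
    (hj : ∀ x, (j x).1.det * (j x).2.det = 1) (x y : X)
    (h : rho j hj x * rho j hj y = rho j hj y * rho j hj x) :
    ∃ d e : F, d * e = 1 ∧ (j (x * y)).1 = d • (j (y * x)).1
      ∧ (j (x * y)).2 = e • (j (y * x)).2 := by
  have hz : (y * x)⁻¹ * (x * y) ∈ (rho j hj).ker := by
    rw [MonoidHom.mem_ker, map_mul, map_inv, map_mul, map_mul, h, inv_mul_cancel]
  obtain ⟨d, e, hde, h1, h2⟩ := ker_scalar j hj _ hz
  have h3 : j (x * y) = j (y * x) * j ((y * x)⁻¹ * (x * y)) := by
    rw [← map_mul, mul_inv_cancel_left]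
  refine ⟨d, e, hde, ?_, ?_⟩
  · rw [h3, Prod.fst_mul, h1]
    ext a b
    simp [Matrix.mul_diagonal, mul_comm]
  · rw [h3, Prod.snd_mul, h2]
    ext a b
    simp [Matrix.mul_diagonal, mul_comm]

end rep

theorem mem_commutator_map {G H : Type*} [Group G] [Group H] (f : G →* H) {x : G}
    (hx : x ∈ commutator G) : f x ∈ commutator H := by
  have h1 : (commutator G).map f ≤ commutator H := by
    rw [commutator_def, Subgroup.map_commutator, commutator_def]
    exact Subgroup.commutator_mono le_top le_top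
  exact h1 ⟨x, hx, rfl⟩

/-- an element of `SL₂` commuting up to sign with everything is central -/
theorem mem_center_of_comm_sign (x : Matrix.SpecialLinearGroup (Fin 2) F)
    (h : ∀ y : Matrix.SpecialLinearGroup (Fin 2) F, ∃ d : F, d * d = 1 ∧
      (x : Matrix (Fin 2) (Fin 2) F) * (y : Matrix (Fin 2) (Fin 2) F)
        = d • ((y : Matrix (Fin 2) (Fin 2) F) * (x : Matrix (Fin 2) (Fin 2) F))) :
    x ∈ Subgroup.center (Matrix.SpecialLinearGroup (Fin 2) F) := by
  have hdet : (x : Matrix (Fin 2) (Fin 2) F) 0 0 * (x : Matrix (Fin 2) (Fin 2) F) 1 1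
      - (x : Matrix (Fin 2) (Fin 2) F) 0 1 * (x : Matrix (Fin 2) (Fin 2) F) 1 0 = 1 := by
    rw [← Matrix.det_fin_two]; exact x.2
  obtain ⟨M, hM⟩ : ∃ M : Matrix (Fin 2) (Fin 2) F, M = (x : Matrix (Fin 2) (Fin 2) F) := ⟨_, rfl⟩
  rw [← hM] at hdet
  have key1 : M 1 0 = 0 ∧ M 0 0 = M 1 1 := by
    obtain ⟨d, hd, hy⟩ := h ⟨!![1, 1; 0, 1], by simp [Matrix.det_fin_two]⟩
    rw [← hM] at hy
    have e00 := congrFun (congrFun hy 0) 0
    have e01 := congrFun (congrFun hy 0) 1
    have e10 := congrFun (congrFun hy 1) 0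
    have e11 := congrFun (congrFun hy 1) 1
    simp [Matrix.mul_apply, Fin.sum_univ_succ, Matrix.vecMul, dotProduct] at e00 e01 e10 e11
    rcases mul_self_eq_one_iff.1 hd with rfl | rfl
    · constructor
      · linear_combination -e00
      · linear_combination e01
    · by_cases h2 : (2 : F) = 0
      · constructor
        · linear_combination e00 - M 0 0 * h2
        · linear_combination e01 - (M 0 1 + M 1 1) * h2
      · exfalso
        have c0 : M 1 0 = 0 := by
          have : 2 * M 1 0 = 0 := by linear_combination e10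
          exact (mul_eq_zero.1 this).resolve_left h2
        have a0 : M 0 0 = 0 := by
          have : 2 * M 0 0 = 0 := by linear_combination e00 - c0
          exact (mul_eq_zero.1 this).resolve_left h2
        rw [c0, a0] at hdet
        simp at hdet
  have key2 : M 0 1 = 0 := by
    obtain ⟨d, hd, hy⟩ := h ⟨!![1, 0; 1, 1], by simp [Matrix.det_fin_two]⟩
    rw [← hM] at hy
    have e00 := congrFun (congrFun hy 0) 0
    have e01 := congrFun (congrFun hy 0) 1
    have e10 := congrFun (congrFun hy 1) 0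
    have e11 := congrFun (congrFun hy 1) 1
    simp [Matrix.mul_apply, Fin.sum_univ_succ, Matrix.vecMul, dotProduct] at e00 e01 e10 e11
    rcases mul_self_eq_one_iff.1 hd with rfl | rfl
    · linear_combination e00
    · by_cases h2 : (2 : F) = 0
      · linear_combination e00 - M 0 0 * h2
      · exfalso
        have c0 : M 0 1 = 0 := by
          have : 2 * M 0 1 = 0 := by linear_combination e01
          exact (mul_eq_zero.1 this).resolve_left h2
        have a0 : M 0 0 = 0 := by
          have : 2 * M 0 0 = 0 := by linear_combination e00 - c0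
          exact (mul_eq_zero.1 this).resolve_left h2
        rw [c0, a0] at hdet
        simp at hdet
  rw [Matrix.SpecialLinearGroup.mem_center_iff]
  refine ⟨M 0 0, ?_, ?_⟩
  · rw [key2, ← key1.2] at hdet
    simp only [Fintype.card_fin]
    linear_combination hdet
  · rw [← hM]
    ext i j
    fin_cases i <;> fin_cases j <;> simp [key1.1, key2, key1.2]

end Cfsg.Agent.Lib.Helper7M2
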