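import Mathlib
import Cfsg.Prelude.Def_Classical
import Cfsg.Agent.Lib.Helper7M2

set_option autoImplicit false

namespace Cfsg.Agent.Lib.Helper7M3

open Matrix Helper7M2

variable {F : Type*} [Field F]

/-- coordinates of the alternating matrix -/
def v0 : Fin 2 ⊕ Fin 2 → F := Sum.elim ![0, 1] ![0, 1]

/-- the embedding of the three-dimensional space (symmetric matrices) -/
def E3 (w : Unit ⊕ (Fin 1 ⊕ Fin 1) → F) : Fin 2 ⊕ Fin 2 → F :=
  Sum.elim ![w (.inr (.inl 0)), w (.inl ())] ![-w (.inr (.inr 0)), -w (.inl ())]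

/-- the retraction -/
def D3 (v : Fin 2 ⊕ Fin 2 → F) : Unit ⊕ (Fin 1 ⊕ Fin 1) → F :=
  Sum.elim (fun _ => v (.inl 1)) (Sum.elim ![v (.inl 0)] ![-v (.inr 0)])

theorem D3_E3 (w : Unit ⊕ (Fin 1 ⊕ Fin 1) → F) : D3 (E3 w) = w := by
  funext i
  rcases i with i | i | i
  · simp [D3, E3]
  · fin_cases i; simp [D3, E3]
  · fin_cases i; simp [D3, E3]

theorem E3_D3 (v : Fin 2 ⊕ Fin 2 → F) (h : v (.inr 1) = -v (.inl 1)) : E3 (D3 v) = v := by
  funext i
  rcases i with i | i <;> fin_cases i <;> simp [D3, E3, h]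

theorem Q_E3 (w : Unit ⊕ (Fin 1 ⊕ Fin 1) → F) :
    Cfsg.quadFormPlus 2 F (E3 w) = -Cfsg.quadFormOdd 1 F w := by
  simp [Cfsg.quadFormPlus, Cfsg.quadFormOdd, E3, Fin.sum_univ_succ]
  ring

theorem polar_v0 (u : Fin 2 ⊕ Fin 2 → F) :
    Cfsg.quadFormPlus 2 F (u + v0) - Cfsg.quadFormPlus 2 F u - Cfsg.quadFormPlus 2 F v0
      = u (.inl 1) + u (.inr 1) := by
  simp [Cfsg.quadFormPlus, v0, Fin.sum_univ_succ]
  ring

/-- linear version -/
def E3L : (Unit ⊕ (Fin 1 ⊕ Fin 1) → F) →ₗ[F] (Fin 2 ⊕ Fin 2 → F) where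
  toFun := E3
  map_add' u v := by
    funext i
    rcases i with i | i <;> fin_cases i <;> simp [E3] <;> ring
  map_smul' c v := by
    funext i
    rcases i with i | i <;> fin_cases i <;> simp [E3]

/-- linear version -/
def D3L : (Fin 2 ⊕ Fin 2 → F) →ₗ[F] (Unit ⊕ (Fin 1 ⊕ Fin 1) → F) where
  toFun := D3
  map_add' u v := by
    funext i
    rcases i with i | i | i
    · simp [D3]
    · fin_cases i; simp [D3]
    · fin_cases i; simp [D3]; ring
  map_smul' c v := by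
    funext i
    rcases i with i | i | i
    · simp [D3]
    · fin_cases i; simp [D3]
    · fin_cases i; simp [D3]

section rep

variable {X : Type*} [Group X] (j : X →* Matrix (Fin 2) (Fin 2) F × Matrix (Fin 2) (Fin 2) F)
  (hJ : ∀ x, (j x).1 * Emat (v0 : Fin 2 ⊕ Fin 2 → F) * (j x).2ᵀ = Emat v0)

include hJ

theorem det_mul_det (x : X) : (j x).1.det * (j x).2.det = 1 := by
  have h := congrArg Matrix.det (hJ x)
  rw [Matrix.det_mul, Matrix.det_mul, Matrix.det_transpose, det_E] at h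
  have h1 : Cfsg.quadFormPlus 2 F (v0 : Fin 2 ⊕ Fin 2 → F) = 1 := by
    simp [Cfsg.quadFormPlus, v0, Fin.sum_univ_succ]
  rw [h1] at h
  linear_combination h

theorem phi_v0 (x : X) : phi j x v0 = v0 := by
  rw [phi_apply, hJ, D_E]

theorem stab (x : X) (v : Fin 2 ⊕ Fin 2 → F) (h : v (.inr 1) = -v (.inl 1)) :
    phi j x v (.inr 1) = -phi j x v (.inl 1) := by
  have h1 := polar_v0 (phi j x v)
  have h2 := polar_v0 v
  have h3 : phi j x v + v0 = phi j x (v + v0) := by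
    rw [map_add, phi_v0 j hJ]
  rw [h3, Q_phi j (det_mul_det j hJ), Q_phi j (det_mul_det j hJ), h2, h] at h1
  linear_combination -h1

/-- the three-dimensional representation -/
noncomputable def phi3 : X →* Module.End F (Unit ⊕ (Fin 1 ⊕ Fin 1) → F) :=
  Helper7Exc.subRep (phi j) E3L D3L D3_E3 (fun g v => E3_D3 _ (stab j hJ g _ (by
    show E3 v (.inr 1) = -E3 v (.inl 1)
    simp [E3])))

theorem E3_phi3 (x : X) (w : Unit ⊕ (Fin 1 ⊕ Fin 1) → F) :
    E3 (phi3 j hJ x w) = phi j x (E3 w) :=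
  Helper7Exc.subRep_apply (phi j) E3L D3L D3_E3 _ x w

theorem Q_phi3 (x : X) (w : Unit ⊕ (Fin 1 ⊕ Fin 1) → F) :
    Cfsg.quadFormOdd 1 F (phi3 j hJ x w) = Cfsg.quadFormOdd 1 F w := by
  have h1 := Q_E3 (phi3 j hJ x w)
  rw [E3_phi3, Q_phi j (det_mul_det j hJ), Q_E3] at h1
  exact (neg_injective h1).symm

/-- the hom to the orthogonal group -/
noncomputable def rho3 : X →* ↥(Cfsg.isometryGroup F (Cfsg.quadFormOdd 1 F)) :=
  Helper7Exc.toIso _ (phi3 j hJ) (Q_phi3 j hJ)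

theorem ker_le (h2 : (2 : F) ≠ 0) : (rho3 j hJ).ker ≤ (rho j (det_mul_det j hJ)).ker := by
  intro x hx
  rw [MonoidHom.mem_ker] at hx ⊢
  have h1 : phi3 j hJ x = phi3 j hJ 1 := by
    rw [← Helper7Exc.toIso_eq_iff (Cfsg.quadFormOdd 1 F) (phi3 j hJ) (Q_phi3 j hJ)]
    exact hx.trans (map_one _).symm
  rw [← map_one (rho j (det_mul_det j hJ))]
  unfold rho
  rw [Helper7Exc.toIso_eq_iff, map_one]
  refine LinearMap.ext fun v => ?_
  have hv : v = E3 (D3 (v - ((v (.inl 1) + v (.inr 1)) / 2) • v0))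
      + ((v (.inl 1) + v (.inr 1)) / 2) • v0 := by
    rw [E3_D3]
    · simp
    · simp [v0]
      field_simp
      ring
  have h3 : ∀ w, phi j x (E3 w) = E3 w := by
    intro w
    rw [← E3_phi3 j hJ, h1, map_one]
    rfl
  rw [hv, map_add, map_smul, phi_v0 j hJ, h3]
  rfl

omit hJ in
theorem rho3_congr {X' : Type*} [Group X']
    (hJ : ∀ x, (j x).1 * Emat (v0 : Fin 2 ⊕ Fin 2 → F) * (j x).2ᵀ = Emat v0)
    (j' : X' →* Matrix (Fin 2) (Fin 2) F × Matrix (Fin 2) (Fin 2) F)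
    (hJ' : ∀ x, (j' x).1 * Emat (v0 : Fin 2 ⊕ Fin 2 → F) * (j' x).2ᵀ = Emat v0)
    (x : X) (x' : X') (h : j x = j' x') :
    rho3 j hJ x = rho3 j' hJ' x' := by
  apply Subtype.ext
  apply Units.ext
  show LinearMap.toMatrix' (phi3 j hJ x) = LinearMap.toMatrix' (phi3 j' hJ' x')
  congr 1
  refine LinearMap.ext fun v => ?_
  show D3 (phi j x (E3 v)) = D3 (phi j' x' (E3 v))
  rw [phi_apply, phi_apply, h]

theorem comm_sign3 (h2 : (2 : F) ≠ 0) (x y : X)
    (h : rho3 j hJ x * rho3 j hJ y = rho3 j hJ y * rho3 j hJ x) :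
    ∃ d e : F, d * e = 1 ∧ (j (x * y)).1 = d • (j (y * x)).1
      ∧ (j (x * y)).2 = e • (j (y * x)).2 := by
  apply comm_sign j (det_mul_det j hJ)
  have hz : (y * x)⁻¹ * (x * y) ∈ (rho3 j hJ).ker := by
    rw [MonoidHom.mem_ker, map_mul, map_inv, map_mul, map_mul, h, inv_mul_cancel]
  have hz' := ker_le j hJ h2 hz
  rw [MonoidHom.mem_ker, map_mul, map_inv, inv_mul_eq_one, map_mul, map_mul] at hz'
  exact hz'.symm

end rep

end Cfsg.Agent.Lib.Helper7M3
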