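import Mathlib
import Cfsg.Prelude.Def_Classical
import Cfsg.Prelude.Def_ClassicalGeometry
import Cfsg.Agent.Lib.Helper17Symp
import Cfsg.Agent.Lib.Helper17Symp2
import Cfsg.Agent.Lib.Helper7OPlus
import Cfsg.Agent.Lib.Helper7OOdd

set_option autoImplicit false

namespace Cfsg.Agent.Lib.Helper7OSp

open Matrix QuadraticMap Cfsg.Agent.Lib.Helper17Symp Cfsg.Agent.Lib.Helper17Symp2
  Cfsg.Agent.Lib.Helper7OPlus

variable {F : Type*} [Field F] [CharP F 2] {m : ℕ}

local notation "J" => Fin m ⊕ Fin m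
local notation "I" => Unit ⊕ (Fin m ⊕ Fin m)

theorem polar_eq_symp (u v : J → F) : polar (QP F m) u v = Cfsg.sympForm m F u v := by
  rw [polar_QP, sympForm_eq_sum]
  apply Finset.sum_congr rfl
  intro i _
  rw [CharTwo.sub_eq_add]
  ring

omit [CharP F 2] in
theorem quadOdd_eq (v : I → F) :
    Cfsg.quadFormOdd m F v = v (.inl ()) ^ 2 + QP F m (v ∘ Sum.inr) := by
  rw [QP_apply]
  rfl

/-- the defect of a symplectic matrix with respect to the quadratic form -/
noncomputable def DD (S : Matrix J J F) (w : J → F) : F := QP F m (S *ᵥ w) + QP F m w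

theorem DD_add (S : Matrix.symplecticGroup (Fin m) F) (w w' : J → F) :
    DD S.1 (w + w') = DD S.1 w + DD S.1 w' := by
  unfold DD
  rw [Matrix.mulVec_add, QuadraticMap.map_add (QP F m), QuadraticMap.map_add (QP F m), polar_eq_symp,
    polar_eq_symp, preserves]
  have := CharTwo.add_self_eq_zero (Cfsg.sympForm m F w w')
  linear_combination this

omit [CharP F 2] in
theorem DD_smul (S : Matrix J J F) (c : F) (w : J → F) : DD S (c • w) = c ^ 2 * DD S w := by
  unfold DD
  rw [Matrix.mulVec_smul, QuadraticMap.map_smul, QuadraticMap.map_smul]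
  simp only [smul_eq_mul]
  ring

theorem DD_eq_sum (S : Matrix.symplecticGroup (Fin m) F) (w : J → F) :
    DD S.1 w = ∑ j, w j ^ 2 * DD S.1 (Pi.single j 1) := by
  let f : (J → F) →+ F := AddMonoidHom.mk' (DD S.1) (DD_add S)
  have h1 : DD S.1 w = f w := rfl
  conv_lhs => rw [h1, pi_eq_sum_univ' w, map_sum]
  apply Finset.sum_congr rfl
  intro j _
  exact DD_smul S.1 _ _

variable [Finite F]

theorem exists_sqrt (x : F) : ∃ y : F, y ^ 2 = x := by
  obtain ⟨y, hy⟩ := FiniteField.isSquare_of_char_two (ringChar.eq F 2) x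
  exact ⟨y, by rw [hy, _root_.sq]⟩

/-- the square root of the defect on basis vectors -/
noncomputable def lam (S : Matrix J J F) (j : J) : F := (exists_sqrt (DD S (Pi.single j 1))).choose

theorem lam_sq (S : Matrix J J F) (j : J) : lam S j ^ 2 = DD S (Pi.single j 1) :=
  (exists_sqrt (DD S (Pi.single j 1))).choose_spec

/-- the lift of a symplectic matrix -/
noncomputable def MM (S : Matrix J J F) : Matrix I I F :=
  Matrix.fromBlocks 1 (Matrix.of fun _ j => lam S j) 0 S

theorem MM_mulVec (S : Matrix J J F) (v : I → F) :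
    MM S *ᵥ v = Sum.elim (fun _ => v (.inl ()) + ∑ j, lam S j * v (.inr j)) (S *ᵥ (v ∘ Sum.inr)) := by
  rw [MM, Matrix.fromBlocks_mulVec]
  congr 1
  · funext u
    simp [Matrix.mulVec, dotProduct]
  · simp

theorem MM_preserves (S : Matrix.symplecticGroup (Fin m) F) (v : I → F) :
    Cfsg.quadFormOdd m F (MM S.1 *ᵥ v) = Cfsg.quadFormOdd m F v := by
  rw [quadOdd_eq, quadOdd_eq, MM_mulVec]
  simp only [Sum.elim_inl, Sum.elim_comp_inr]
  rw [CharTwo.add_sq, sum_pow_char 2]
  have h1 := DD_eq_sum S (v ∘ Sum.inr)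
  have h2 : ∑ j, (lam S.1 j * v (.inr j)) ^ 2 = DD S.1 (v ∘ Sum.inr) := by
    rw [h1]
    apply Finset.sum_congr rfl
    intro j _
    rw [mul_pow, lam_sq]
    simp only [Function.comp]
    ring
  rw [h2]
  unfold DD
  have := CharTwo.add_self_eq_zero (QP F m (S.1 *ᵥ (v ∘ Sum.inr)))
  linear_combination this

omit [Finite F] in
/-- uniqueness of the lift -/
theorem lift_unique (A A' : Matrix I I F)
    (hA : ∀ v, Cfsg.quadFormOdd m F (A *ᵥ v) = Cfsg.quadFormOdd m F v)
    (hA' : ∀ v, Cfsg.quadFormOdd m F (A' *ᵥ v) = Cfsg.quadFormOdd m F v)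
    (h0 : ∀ i, A i (.inl ()) = A' i (.inl ()))
    (h1 : ∀ i j, A (.inr i) (.inr j) = A' (.inr i) (.inr j)) : A = A' := by
  ext i j
  rcases j with ⟨⟩ | j
  · exact h0 i
  rcases i with ⟨⟩ | i
  · have e1 := hA (Pi.single (.inr j) 1)
    have e2 := hA' (Pi.single (.inr j) 1)
    rw [quadOdd_eq, Matrix.mulVec_single_one] at e1 e2
    have e3 : (A.col (.inr j)) ∘ Sum.inr = (A'.col (.inr j)) ∘ Sum.inr := by
      funext i
      exact h1 i j
    rw [e3] at e1
    have e4 : A (.inl ()) (.inr j) ^ 2 = A' (.inl ()) (.inr j) ^ 2 := by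
      have := e1.trans e2.symm
      simpa using this
    exact CharTwo.sq_injective e4
  · exact h1 i j

theorem MM_col (S : Matrix J J F) (i : I) : MM S i (.inl ()) = (1 : Matrix I I F) i (.inl ()) := by
  rcases i with ⟨⟩ | i
  · simp [MM]
  · simp [MM]

theorem MM_block (S : Matrix J J F) (i j : J) : MM S (.inr i) (.inr j) = S i j := by
  simp [MM]

theorem MM_one : MM (1 : Matrix J J F) = 1 := by
  apply lift_unique
  · exact MM_preserves (1 : Matrix.symplecticGroup (Fin m) F)
  · intro v; rw [Matrix.one_mulVec]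
  · exact MM_col 1
  · intro i j
    rw [MM_block]
    by_cases h : i = j
    · subst h; simp
    · rw [Matrix.one_apply_ne h, Matrix.one_apply_ne (by simpa using h)]

theorem MM_mul (S S' : Matrix.symplecticGroup (Fin m) F) :
    MM (S.1 * S'.1) = MM S.1 * MM S'.1 := by
  apply lift_unique
  · exact MM_preserves (S * S')
  · intro v
    rw [← Matrix.mulVec_mulVec, MM_preserves, MM_preserves]
  · intro i
    rw [MM_col, MM, MM, Matrix.fromBlocks_multiply]
    rcases i with ⟨⟩ | i
    · simp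
    · simp
  · intro i j
    rw [MM_block, MM, MM, Matrix.fromBlocks_multiply]
    simp

/-- the lift as a monoid hom to matrices -/
noncomputable def MMhom (m : ℕ) (F : Type*) [Field F] [CharP F 2] [Finite F] :
    Matrix.symplecticGroup (Fin m) F →* Matrix (Unit ⊕ (Fin m ⊕ Fin m)) (Unit ⊕ (Fin m ⊕ Fin m)) F where
  toFun S := MM S.1
  map_one' := MM_one
  map_mul' S S' := MM_mul S S'

/-- the lift as a hom to the general linear group -/
noncomputable def toGL1 (m : ℕ) (F : Type*) [Field F] [CharP F 2] [Finite F] :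
    Matrix.symplecticGroup (Fin m) F →* Matrix.GeneralLinearGroup (Unit ⊕ (Fin m ⊕ Fin m)) F :=
  (Units.map (MMhom m F)).comp (toUnits : Matrix.symplecticGroup (Fin m) F ≃* _).toMonoidHom

theorem toGL1_coe (S : Matrix.symplecticGroup (Fin m) F) :
    ((toGL1 m F S : Matrix.GeneralLinearGroup I F) : Matrix I I F) = MM S.1 := rfl

/-- the lift as a hom to the isometry group -/
noncomputable def Psi (m : ℕ) (F : Type*) [Field F] [CharP F 2] [Finite F] :
    Matrix.symplecticGroup (Fin m) F →* ↥(Cfsg.isometryGroup F (Cfsg.quadFormOdd m F)) :=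
  (toGL1 m F).codRestrict _ (fun S u _ => MM_preserves S u)

theorem Psi_injective : Function.Injective (Psi m F) := by
  intro S S' h
  have h1 : MM S.1 = MM S'.1 := by
    have := congrArg (fun g : ↥(Cfsg.isometryGroup F (Cfsg.quadFormOdd m F)) =>
      ((g : Matrix.GeneralLinearGroup I F) : Matrix I I F)) h
    exact this
  apply Subtype.ext
  ext i j
  rw [← MM_block S.1, h1, MM_block]

omit [Finite F] in
theorem polarO_eq (x y : I → F) :
    polar (Cfsg.Agent.Lib.Helper7OOdd.QO F m) x y = polar (QP F m) (x ∘ Sum.inr) (y ∘ Sum.inr) := by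
  rw [Cfsg.Agent.Lib.Helper7OOdd.polar_QO, polar_QP]
  have h2 : (2 : F) = 0 := CharTwo.two_eq_zero
  rw [h2]
  simp

omit [Finite F] in
theorem col_of_iso (g : ↥(Cfsg.isometryGroup F (Cfsg.quadFormOdd m F))) (i : I) :
    ((g : Matrix.GeneralLinearGroup I F) : Matrix I I F) i (.inl ())
      = (1 : Matrix I I F) i (.inl ()) := by
  obtain ⟨A, hA⟩ : ∃ A, A = ((g : Matrix.GeneralLinearGroup I F) : Matrix I I F) := ⟨_, rfl⟩
  obtain ⟨A', hA'⟩ : ∃ A', A' = (((g⁻¹ : ↥(Cfsg.isometryGroup F (Cfsg.quadFormOdd m F))) :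
    Matrix.GeneralLinearGroup I F) : Matrix I I F) := ⟨_, rfl⟩
  have hAA' : A * A' = 1 := by
    rw [hA, hA']
    have : g * g⁻¹ = 1 := mul_inv_cancel g
    have h2 := congrArg (fun g : ↥(Cfsg.isometryGroup F (Cfsg.quadFormOdd m F)) =>
      ((g : Matrix.GeneralLinearGroup I F) : Matrix I I F)) this
    exact h2
  have hpres : ∀ x, Cfsg.Agent.Lib.Helper7OOdd.QO F m (A *ᵥ x)
      = Cfsg.Agent.Lib.Helper7OOdd.QO F m x := by
    intro x
    rw [Cfsg.Agent.Lib.Helper7OOdd.QO_apply, Cfsg.Agent.Lib.Helper7OOdd.QO_apply, hA]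
    exact g.2 x x
  rw [← hA]
  obtain ⟨u, hu⟩ : ∃ u, u = A *ᵥ Pi.single (.inl ()) 1 := ⟨_, rfl⟩
  have hrad : ∀ z, polar (Cfsg.Agent.Lib.Helper7OOdd.QO F m) u z = 0 := by
    intro z
    have hz : z = A *ᵥ (A' *ᵥ z) := by rw [Matrix.mulVec_mulVec, hAA', Matrix.one_mulVec]
    rw [hz, hu, Cfsg.Agent.Lib.Helper7QFrame.polar_map (g := fun x => A *ᵥ x)
      (fun x y => Matrix.mulVec_add A x y) hpres, polarO_eq]
    have : (Pi.single (Sum.inl ()) 1 : I → F) ∘ Sum.inr = 0 := by
      funext j; simp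
    rw [this, polar_zero_left]
  have hu1 : ∀ j : J, u (.inr j) = 0 := by
    intro j
    rcases j with j | j
    · have := hrad (Pi.single (.inr (.inr j)) 1)
      rw [Cfsg.Agent.Lib.Helper7OOdd.polar_QO, Finset.sum_eq_single j] at this
      · simpa using this
      · intro b _ hb
        simp [hb]
      · simp
    · have := hrad (Pi.single (.inr (.inl j)) 1)
      rw [Cfsg.Agent.Lib.Helper7OOdd.polar_QO, Finset.sum_eq_single j] at this
      · simpa using this
      · intro b _ hb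
        simp [hb]
      · simp
  have hu0 : u (.inl ()) = 1 := by
    have h1 := hpres (Pi.single (.inl ()) 1)
    rw [← hu, Cfsg.Agent.Lib.Helper7OOdd.Q_std, Cfsg.Agent.Lib.Helper7OOdd.QO_apply] at h1
    unfold Cfsg.quadFormOdd at h1
    simp only [hu1, zero_mul, Finset.sum_const_zero, add_zero] at h1
    apply CharTwo.sq_injective (R := F)
    simp only [h1, one_pow]
  have hcol : A i (.inl ()) = u i := by
    rw [hu, Matrix.mulVec_single_one]; rfl
  rw [hcol]
  rcases i with ⟨⟩ | i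
  · simp [hu0]
  · simp [hu1]

omit [Finite F] in
theorem block_mem (g : ↥(Cfsg.isometryGroup F (Cfsg.quadFormOdd m F))) :
    (((g : Matrix.GeneralLinearGroup I F) : Matrix I I F).submatrix Sum.inr Sum.inr)
      ∈ Matrix.symplecticGroup (Fin m) F := by
  obtain ⟨A, hA⟩ : ∃ A, A = ((g : Matrix.GeneralLinearGroup I F) : Matrix I I F) := ⟨_, rfl⟩
  have hpres : ∀ x, Cfsg.Agent.Lib.Helper7OOdd.QO F m (A *ᵥ x)
      = Cfsg.Agent.Lib.Helper7OOdd.QO F m x := by
    intro x
    rw [Cfsg.Agent.Lib.Helper7OOdd.QO_apply, Cfsg.Agent.Lib.Helper7OOdd.QO_apply, hA]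
    exact g.2 x x
  rw [← hA, mem_symplecticGroup_iff_preserves]
  have hsub : ∀ w : J → F, (A.submatrix Sum.inr Sum.inr) *ᵥ w
      = (A *ᵥ (Sum.elim 0 w)) ∘ Sum.inr := by
    intro w
    funext i
    simp [Matrix.mulVec, dotProduct, Fintype.sum_sum_type]
  intro w w'
  rw [← polar_eq_symp, ← polar_eq_symp, hsub, hsub, ← polarO_eq,
    Cfsg.Agent.Lib.Helper7QFrame.polar_map (g := fun x => A *ᵥ x)
      (fun x y => Matrix.mulVec_add A x y) hpres, polarO_eq]
  simp

theorem Psi_surjective : Function.Surjective (Psi m F) := by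
  intro g
  refine ⟨⟨_, block_mem g⟩, ?_⟩
  apply Subtype.ext
  apply Units.ext
  show MM _ = ((g : Matrix.GeneralLinearGroup I F) : Matrix I I F)
  apply lift_unique
  · exact MM_preserves ⟨_, block_mem g⟩
  · intro v
    exact g.2 v v
  · intro i
    rw [MM_col, col_of_iso]
  · intro i j
    rw [MM_block]
    rfl

theorem equiv_symplectic :
    Nonempty (Cfsg.isometryGroup F (Cfsg.quadFormOdd m F) ≃* Matrix.symplecticGroup (Fin m) F) :=
  ⟨(MulEquiv.ofBijective (Psi m F) ⟨Psi_injective, Psi_surjective⟩).symm⟩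

end Cfsg.Agent.Lib.Helper7OSp
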