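import Mathlib
import Cfsg.Prelude.Def_Classical
import Cfsg.Agent.Lib.Helper7Exc

set_option autoImplicit false

namespace Cfsg.Agent.Lib.Helper7Pf

open Matrix

variable {F : Type*} [Field F]

/-- alternating matrix from coordinates -/
def Emat (v : Fin 3 ⊕ Fin 3 → F) : Matrix (Fin 4) (Fin 4) F :=
  !![0, v (.inl 0), v (.inl 1), v (.inl 2);
     -v (.inl 0), 0, v (.inr 2), -v (.inr 1);
     -v (.inl 1), -v (.inr 2), 0, v (.inr 0);
     -v (.inl 2), v (.inr 1), -v (.inr 0), 0]

/-- coordinates of a matrix -/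
def Dvec (M : Matrix (Fin 4) (Fin 4) F) : Fin 3 ⊕ Fin 3 → F :=
  Sum.elim ![M 0 1, M 0 2, M 0 3] ![M 2 3, -M 1 3, M 1 2]

theorem det4 (g : Matrix (Fin 4) (Fin 4) F) : g.det =
    g 0 0 * (g 1 1 * (g 2 2 * g 3 3 - g 2 3 * g 3 2) - g 1 2 * (g 2 1 * g 3 3 - g 2 3 * g 3 1)
      + g 1 3 * (g 2 1 * g 3 2 - g 2 2 * g 3 1))
    - g 0 1 * (g 1 0 * (g 2 2 * g 3 3 - g 2 3 * g 3 2) - g 1 2 * (g 2 0 * g 3 3 - g 2 3 * g 3 0)
      + g 1 3 * (g 2 0 * g 3 2 - g 2 2 * g 3 0))
    + g 0 2 * (g 1 0 * (g 2 1 * g 3 3 - g 2 3 * g 3 1) - g 1 1 * (g 2 0 * g 3 3 - g 2 3 * g 3 0)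
      + g 1 3 * (g 2 0 * g 3 1 - g 2 1 * g 3 0))
    - g 0 3 * (g 1 0 * (g 2 1 * g 3 2 - g 2 2 * g 3 1) - g 1 1 * (g 2 0 * g 3 2 - g 2 2 * g 3 0)
      + g 1 2 * (g 2 0 * g 3 1 - g 2 1 * g 3 0)) := by
  rw [Matrix.det_succ_row_zero]
  simp only [Fin.sum_univ_succ, Matrix.det_fin_three, Matrix.submatrix_apply]
  simp [Fin.succAbove]
  ring

theorem conj_apply {n : Type*} [Fintype n] (g A : Matrix n n F) (k l : n) :
    (g * A * gᵀ) k l = ∑ s, ∑ t, g k s * A s t * g l t := by
  rw [Matrix.mul_apply]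
  simp only [Matrix.mul_apply, Matrix.transpose_apply, Finset.sum_mul]
  rw [Finset.sum_comm]

theorem pf_conj (g : Matrix (Fin 4) (Fin 4) F) (v : Fin 3 ⊕ Fin 3 → F) :
    Cfsg.quadFormPlus 3 F (Dvec (g * Emat v * gᵀ)) = g.det * Cfsg.quadFormPlus 3 F v := by
  rw [det4]
  simp only [Cfsg.quadFormPlus, Dvec, conj_apply, Fin.sum_univ_succ, Emat]
  simp
  ring

theorem D_E (v : Fin 3 ⊕ Fin 3 → F) : Dvec (Emat v) = v := by
  funext i
  rcases i with i | i <;> fin_cases i <;> simp [Dvec, Emat]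

theorem E_D_of_alt (M : Matrix (Fin 4) (Fin 4) F) (h1 : ∀ i j, M j i = -M i j)
    (h0 : ∀ i, M i i = 0) : Emat (Dvec M) = M := by
  ext i j
  fin_cases i <;> fin_cases j <;> simp [Dvec, Emat, h0] <;> rw [h1] <;> simp

theorem E_alt (v : Fin 3 ⊕ Fin 3 → F) (i j : Fin 4) : Emat v j i = -Emat v i j := by
  fin_cases i <;> fin_cases j <;> simp [Emat]

theorem E_diag (v : Fin 3 ⊕ Fin 3 → F) (i : Fin 4) : Emat v i i = 0 := by
  fin_cases i <;> simp [Emat]

theorem E_D_conj (g : Matrix (Fin 4) (Fin 4) F) (v : Fin 3 ⊕ Fin 3 → F) :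
    Emat (Dvec (g * Emat v * gᵀ)) = g * Emat v * gᵀ := by
  apply E_D_of_alt
  · intro i j
    rw [conj_apply, conj_apply, Finset.sum_comm, ← Finset.sum_neg_distrib]
    refine Finset.sum_congr rfl fun s _ => ?_
    rw [← Finset.sum_neg_distrib]
    refine Finset.sum_congr rfl fun t _ => ?_
    rw [E_alt v s t]
    ring
  · intro i
    rw [conj_apply]
    simp only [Fin.sum_univ_succ, Emat]
    simp
    ring

/-- linear version of `Emat` -/
def EL : (Fin 3 ⊕ Fin 3 → F) →ₗ[F] Matrix (Fin 4) (Fin 4) F where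
  toFun := Emat
  map_add' u v := by
    ext i j
    fin_cases i <;> fin_cases j <;> simp [Emat] <;> ring
  map_smul' c v := by
    ext i j
    fin_cases i <;> fin_cases j <;> simp [Emat]

/-- linear version of `Dvec` -/
def DL : Matrix (Fin 4) (Fin 4) F →ₗ[F] (Fin 3 ⊕ Fin 3 → F) where
  toFun := Dvec
  map_add' u v := by
    funext i
    rcases i with i | i <;> fin_cases i <;> simp [Dvec] <;> ring
  map_smul' c v := by
    funext i
    rcases i with i | i <;> fin_cases i <;> simp [Dvec]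

/-- congruence action of the matrix monoid -/
def cong (n : Type*) [Fintype n] [DecidableEq n] :
    Matrix n n F →* Module.End F (Matrix n n F) where
  toFun g :=
    { toFun := fun A => g * A * gᵀ
      map_add' := fun A B => by rw [Matrix.mul_add, Matrix.add_mul]
      map_smul' := fun c A => by simp }
  map_one' := by
    ext A : 1
    simp
  map_mul' g h := by
    refine LinearMap.ext fun A => ?_
    show g * h * A * (g * h)ᵀ = g * (h * A * hᵀ) * gᵀ
    rw [Matrix.transpose_mul]
    simp only [Matrix.mul_assoc]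

theorem cong_apply {n : Type*} [Fintype n] [DecidableEq n] (g A : Matrix n n F) :
    cong n g A = g * A * gᵀ := rfl

theorem conj_single {n : Type*} [Fintype n] [DecidableEq n] (g : Matrix n n F) (i j k l : n) :
    (g * (Matrix.single i j (1 : F) - Matrix.single j i (1 : F)) * gᵀ) k l
      = g k i * g l j - g k j * g l i := by
  rw [conj_apply]
  simp only [Matrix.sub_apply, Matrix.single_apply, mul_sub, sub_mul, Finset.sum_sub_distrib]
  congr 1
  · rw [Finset.sum_eq_single i, Finset.sum_eq_single j]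
    · simp
    · intro b _ hb
      simp [Ne.symm hb]
    · simp
    · intro b _ hb
      simp [Ne.symm hb]
    · simp
  · rw [Finset.sum_eq_single j, Finset.sum_eq_single i]
    · simp
    · intro b _ hb
      simp [Ne.symm hb]
    · simp
    · intro b _ hb
      simp [Ne.symm hb]
    · simp

/-- a matrix acting as a scalar on alternating matrices is scalar. -/
theorem scalar_of_conj (g : Matrix (Fin 4) (Fin 4) F) (ε : F) (hε : ε ≠ 0)
    (h : ∀ v, g * Emat v * gᵀ = ε • Emat v) : ∃ d : F, d * d = ε ∧ g = Matrix.scalar (Fin 4) d := by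
  have H : ∀ i j k l : Fin 4, i ≠ j → g k i * g l j - g k j * g l i
      = ε * ((if k = i ∧ l = j then 1 else 0) - (if k = j ∧ l = i then 1 else 0)) := by
    intro i j k l hij
    rw [← conj_single]
    have hA : Emat (Dvec (Matrix.single i j (1 : F) - Matrix.single j i 1))
        = Matrix.single i j 1 - Matrix.single j i 1 := by
      apply E_D_of_alt
      · intro a b
        simp only [Matrix.sub_apply, Matrix.single_apply]
        simp only [and_comm]
        ring
      · intro a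
        simp only [Matrix.sub_apply, Matrix.single_apply]
        simp only [and_comm]
        ring
    rw [← hA, h, hA]
    simp only [Matrix.smul_apply, Matrix.sub_apply, Matrix.single_apply, smul_eq_mul]
    simp only [eq_comm]
  have hoff : ∀ i k : Fin 4, k ≠ i → g k i = 0 := by
    intro i k hki
    obtain ⟨j, hji, hjk⟩ : ∃ j : Fin 4, j ≠ i ∧ j ≠ k := by
      revert i k; decide
    have h1 := H i j k j hji.symm
    have h2 := H i j k i hji.symm
    have h3 := H i j i j hji.symm
    simp only [hki, hjk.symm, hji.symm, hji, false_and, and_false, if_false, true_and, and_self,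
      if_true, sub_zero, mul_zero, mul_one] at h1 h2 h3
    have : ε * g k i = 0 := by
      rw [← h3]
      linear_combination g i i * h1 - g j i * h2
    exact (mul_eq_zero.1 this).resolve_left hε
  have hdiag : ∀ i j : Fin 4, i ≠ j → g i i * g j j = ε := by
    intro i j hij
    have h3 := H i j i j hij
    simp only [hij, hij.symm, false_and, and_false, if_false, and_self,
      if_true, sub_zero, mul_one] at h3
    rw [hoff j i hij, zero_mul, sub_zero] at h3
    exact h3
  have hne : ∀ i, g i i ≠ 0 := by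
    intro i h0
    obtain ⟨j, hji⟩ : ∃ j : Fin 4, i ≠ j := by
      clear h0; revert i; decide
    have := hdiag i j hji
    rw [h0, zero_mul] at this
    exact hε this.symm
  have heq : ∀ i j : Fin 4, g i i = g j j := by
    intro i j
    by_cases hij : i = j
    · rw [hij]
    obtain ⟨k, hki, hkj⟩ : ∃ k : Fin 4, k ≠ i ∧ k ≠ j := by
      revert i j; decide
    have h1 := hdiag k i hki
    have h2 := hdiag k j hkj
    exact mul_left_cancel₀ (hne k) (h1.trans h2.symm)
  refine ⟨g 0 0, ?_, ?_⟩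
  · rw [← hdiag 0 1 (by decide), heq 1 0]
  · ext i j
    by_cases hij : i = j
    · subst hij
      simp [heq i 0]
    · simp [hij, hoff j i hij]

section rep

variable {X : Type*} [Group X]

/-- the representation on coordinates of alternating matrices -/
noncomputable def phi (j : X →* Matrix (Fin 4) (Fin 4) F) :
    X →* Module.End F (Fin 3 ⊕ Fin 3 → F) :=
  Helper7Exc.subRep ((cong (Fin 4)).comp j) EL DL D_E (fun g v => E_D_conj (j g) v)

theorem phi_apply (j : X →* Matrix (Fin 4) (Fin 4) F) (x : X) (v : Fin 3 ⊕ Fin 3 → F) :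
    phi j x v = Dvec (j x * Emat v * (j x)ᵀ) := rfl

theorem E_phi (j : X →* Matrix (Fin 4) (Fin 4) F) (x : X) (v : Fin 3 ⊕ Fin 3 → F) :
    Emat (phi j x v) = j x * Emat v * (j x)ᵀ := by
  rw [phi_apply, E_D_conj]

/-- the hom to the orthogonal group -/
noncomputable def rho (j : X →* Matrix (Fin 4) (Fin 4) F) (hj : ∀ x, (j x).det = 1) :
    X →* ↥(Cfsg.isometryGroup F (Cfsg.quadFormPlus 3 F)) :=
  Helper7Exc.toIso _ (phi j) (fun x v => by rw [phi_apply, pf_conj, hj, one_mul])

theorem rho_mulVec (j : X →* Matrix (Fin 4) (Fin 4) F) (hj : ∀ x, (j x).det = 1) (x : X)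
    (v : Fin 3 ⊕ Fin 3 → F) :
    (((rho j hj x : ↥(Cfsg.isometryGroup F (Cfsg.quadFormPlus 3 F))) :
      Matrix.GeneralLinearGroup (Fin 3 ⊕ Fin 3) F) : Matrix _ _ F) *ᵥ v = phi j x v :=
  Helper7Exc.toIso_mulVec _ _ _ x v

theorem ker_scalar (j : X →* Matrix (Fin 4) (Fin 4) F) (hj : ∀ x, (j x).det = 1) (x : X)
    (hx : x ∈ (rho j hj).ker) : ∃ d : F, d * d = 1 ∧ j x = Matrix.scalar (Fin 4) d := by
  apply scalar_of_conj _ 1 one_ne_zero
  intro v
  rw [← E_phi, ← rho_mulVec j hj, MonoidHom.mem_ker.1 hx, one_smul]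
  simp

theorem card_ker_le (j : X →* Matrix (Fin 4) (Fin 4) F) (hj : ∀ x, (j x).det = 1)
    (hinj : Function.Injective j) :
    Nat.card (rho j hj).ker ≤ 2 ∧ ((2 : F) = 0 → Nat.card (rho j hj).ker ≤ 1) := by
  apply Helper7Exc.card_ker_le (rho j hj) (fun x => j x 0 0)
  · intro x hx y hy hxy
    obtain ⟨d, _, hd⟩ := ker_scalar j hj x hx
    obtain ⟨e, _, he⟩ := ker_scalar j hj y hy
    apply hinj
    simp only [hd, he, Matrix.scalar_apply, Matrix.diagonal_apply_eq] at hxy
    rw [hd, he, hxy]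
  · intro x hx
    obtain ⟨d, hd1, hd⟩ := ker_scalar j hj x hx
    simp only [hd, Matrix.scalar_apply, Matrix.diagonal_apply_eq]
    exact mul_self_eq_one_iff.1 hd1

theorem ker_le_center (j : X →* Matrix (Fin 4) (Fin 4) F) (hj : ∀ x, (j x).det = 1)
    (hinj : Function.Injective j) : (rho j hj).ker ≤ Subgroup.center X := by
  intro x hx
  obtain ⟨d, _, hd⟩ := ker_scalar j hj x hx
  rw [Subgroup.mem_center_iff]
  intro y
  apply hinj
  rw [map_mul, map_mul, hd]
  exact (Matrix.scalar_commute d (fun r => mul_comm _ _) (j y)).symm.eq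

end rep

end Cfsg.Agent.Lib.Helper7Pf
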