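import Mathlib
import Cfsg.Prelude.Def_Classical
import Cfsg.Agent.Lib.Helper7Pf

set_option autoImplicit false

namespace Cfsg.Agent.Lib.Helper7Pf5

open Matrix Helper7Pf

variable {F : Type*} [Field F]

/-- coordinates of the symplectic form -/
def vJ : Fin 3 ⊕ Fin 3 → F := Sum.elim ![0, -1, 0] ![0, 1, 0]

/-- the embedding of the five-dimensional space -/
def E5 (w : Unit ⊕ (Fin 2 ⊕ Fin 2) → F) : Fin 3 ⊕ Fin 3 → F :=
  Sum.elim ![w (.inr (.inl 0)), w (.inl ()), w (.inr (.inl 1))]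
    ![w (.inr (.inr 0)), w (.inl ()), w (.inr (.inr 1))]

/-- the retraction -/
def D5 (v : Fin 3 ⊕ Fin 3 → F) : Unit ⊕ (Fin 2 ⊕ Fin 2) → F :=
  Sum.elim (fun _ => v (.inl 1)) (Sum.elim ![v (.inl 0), v (.inl 2)] ![v (.inr 0), v (.inr 2)])

theorem D5_E5 (w : Unit ⊕ (Fin 2 ⊕ Fin 2) → F) : D5 (E5 w) = w := by
  funext i
  rcases i with i | i | i
  · simp [D5, E5]
  · fin_cases i <;> simp [D5, E5]
  · fin_cases i <;> simp [D5, E5]

theorem E5_D5 (v : Fin 3 ⊕ Fin 3 → F) (h : v (.inl 1) = v (.inr 1)) : E5 (D5 v) = v := by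
  funext i
  rcases i with i | i <;> fin_cases i <;> simp [D5, E5, h]

theorem Q_E5 (w : Unit ⊕ (Fin 2 ⊕ Fin 2) → F) :
    Cfsg.quadFormPlus 3 F (E5 w) = Cfsg.quadFormOdd 2 F w := by
  simp [Cfsg.quadFormPlus, Cfsg.quadFormOdd, E5, Fin.sum_univ_succ]
  ring

theorem polar_vJ (u : Fin 3 ⊕ Fin 3 → F) :
    Cfsg.quadFormPlus 3 F (u + vJ) - Cfsg.quadFormPlus 3 F u - Cfsg.quadFormPlus 3 F vJ
      = u (.inl 1) - u (.inr 1) := by
  simp [Cfsg.quadFormPlus, vJ, Fin.sum_univ_succ]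
  ring

/-- linear version -/
def E5L : (Unit ⊕ (Fin 2 ⊕ Fin 2) → F) →ₗ[F] (Fin 3 ⊕ Fin 3 → F) where
  toFun := E5
  map_add' u v := by
    funext i
    rcases i with i | i <;> fin_cases i <;> simp [E5]
  map_smul' c v := by
    funext i
    rcases i with i | i <;> fin_cases i <;> simp [E5]

/-- linear version -/
def D5L : (Fin 3 ⊕ Fin 3 → F) →ₗ[F] (Unit ⊕ (Fin 2 ⊕ Fin 2) → F) where
  toFun := D5
  map_add' u v := by
    funext i
    rcases i with i | i | i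
    · simp [D5]
    · fin_cases i <;> simp [D5]
    · fin_cases i <;> simp [D5]
  map_smul' c v := by
    funext i
    rcases i with i | i | i
    · simp [D5]
    · fin_cases i <;> simp [D5]
    · fin_cases i <;> simp [D5]

section rep

variable {X : Type*} [Group X] (j : X →* Matrix (Fin 4) (Fin 4) F)
  (hJ : ∀ x, j x * Emat (vJ : Fin 3 ⊕ Fin 3 → F) * (j x)ᵀ = Emat vJ)

include hJ

theorem det_eq_one (x : X) : (j x).det = 1 := by
  have h := pf_conj (j x) (vJ : Fin 3 ⊕ Fin 3 → F)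
  rw [hJ, D_E] at h
  have h1 : Cfsg.quadFormPlus 3 F (vJ : Fin 3 ⊕ Fin 3 → F) = -1 := by
    simp [Cfsg.quadFormPlus, vJ, Fin.sum_univ_succ]
  rw [h1] at h
  linear_combination h

theorem phi_vJ (x : X) : phi j x vJ = vJ := by
  rw [phi_apply, hJ, D_E]

theorem Q_phi (x : X) (v : Fin 3 ⊕ Fin 3 → F) :
    Cfsg.quadFormPlus 3 F (phi j x v) = Cfsg.quadFormPlus 3 F v := by
  rw [phi_apply, pf_conj, det_eq_one j hJ, one_mul]

theorem stab (x : X) (v : Fin 3 ⊕ Fin 3 → F) (h : v (.inl 1) = v (.inr 1)) :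
    phi j x v (.inl 1) = phi j x v (.inr 1) := by
  have h1 := polar_vJ (phi j x v)
  have h2 := polar_vJ v
  have h3 : phi j x v + vJ = phi j x (v + vJ) := by
    rw [map_add, phi_vJ j hJ]
  rw [h3, Q_phi j hJ, Q_phi j hJ, h2, h, sub_self] at h1
  exact (sub_eq_zero.1 h1.symm)

/-- the five-dimensional representation -/
noncomputable def phi5 : X →* Module.End F (Unit ⊕ (Fin 2 ⊕ Fin 2) → F) :=
  Helper7Exc.subRep (phi j) E5L D5L D5_E5 (fun g v => E5_D5 _ (stab j hJ g _ (by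
    show E5 v (.inl 1) = E5 v (.inr 1)
    simp [E5])))

theorem E5_phi5 (x : X) (w : Unit ⊕ (Fin 2 ⊕ Fin 2) → F) :
    E5 (phi5 j hJ x w) = phi j x (E5 w) :=
  Helper7Exc.subRep_apply (phi j) E5L D5L D5_E5 _ x w

/-- the hom to the orthogonal group -/
noncomputable def rho5 : X →* ↥(Cfsg.isometryGroup F (Cfsg.quadFormOdd 2 F)) :=
  Helper7Exc.toIso _ (phi5 j hJ) (fun x v => by
    rw [← Q_E5, E5_phi5, Q_phi j hJ, Q_E5])

theorem ker_le (h2 : (2 : F) ≠ 0) : (rho5 j hJ).ker ≤ (rho j (det_eq_one j hJ)).ker := by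
  intro x hx
  rw [MonoidHom.mem_ker] at hx ⊢
  have h1 : phi5 j hJ x = phi5 j hJ 1 := by
    rw [← Helper7Exc.toIso_eq_iff (Cfsg.quadFormOdd 2 F) (phi5 j hJ) (fun x v => by
      rw [← Q_E5, E5_phi5, Q_phi j hJ, Q_E5])]
    exact hx.trans (map_one _).symm
  rw [← map_one (rho j (det_eq_one j hJ))]
  unfold rho
  rw [Helper7Exc.toIso_eq_iff, map_one]
  refine LinearMap.ext fun v => ?_
  have hv : v = E5 (D5 (v + ((v (.inl 1) - v (.inr 1)) / 2) • vJ))
      - ((v (.inl 1) - v (.inr 1)) / 2) • vJ := by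
    rw [E5_D5]
    · simp
    · simp [vJ]
      field_simp
      ring
  have h3 : ∀ w, phi j x (E5 w) = E5 w := by
    intro w
    rw [← E5_phi5 j hJ, h1, map_one]
    rfl
  rw [hv, map_sub, map_smul, phi_vJ j hJ, h3]
  rfl

end rep

end Cfsg.Agent.Lib.Helper7Pf5
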