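import Mathlib
import Cfsg.Agent.Lib.Helper7C6Two

set_option autoImplicit false

/-! the pieces c6a - c6d of ASCH-SP (statements of helper96's skeleton; `C6Hyp` unbundled). -/

namespace Cfsg.Agent.Lib.Helper7SpC6

open Cfsg Cfsg.Geo Matrix Cfsg.Agent.Lib.Helper97GBase Cfsg.Agent.Lib.Helper97GCore
  Cfsg.Agent.Lib.Helper7C6Asm Cfsg.Agent.Lib.Helper7C6Card Cfsg.Agent.Lib.Helper7C6Mono
  Cfsg.Agent.Lib.Helper7C6Type Cfsg.Agent.Lib.Helper7C6Two Cfsg.Agent.Lib.Helper7C6Real
open scoped MatrixGroups commutatorElement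

variable {ι : Type} [Fintype ι] [DecidableEq ι] {F : Type*} [Field F]
variable {f : (ι → F) → (ι → F) → F} {H : Subgroup (GL ι F)}

/-- [c6a] group structure: `N` is extraspecial of exponent 4 with centre `±1`. -/
theorem c6_structure [Finite F] [Nonempty ι] {N : Subgroup (GL ι F)}
    (form : IsSymplecticForm f) (fixes : FixesForm (matrixSet H) f) (le : N ≤ H) (norm : Nz H N)
    (nonscalar : ¬ N ≤ scalars ι F) (comm : ⁅N, N⁆ ≤ scalars ι F)
    (dich : ∀ T : Subgroup (GL ι F), T ≤ H → Nz H T →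
      T ≤ scalars ι F ∨ ActsAbsolutelyIrreducibly (matrixSet T)) :
    (2 : F) ≠ 0 ∧ IsSymplecticTypeGroup 2 N ∧ Nat.card (Subgroup.center N) = 2 ∧
    (∃ k : ℕ, Nat.card N = 2 ^ (1 + 2 * k)) ∧
    (∀ x ∈ N, x ∈ scalars ι F → (x : Matrix ι ι F) = 1 ∨ (x : Matrix ι ι F) = -1) ∧
    (∀ x ∈ N, x ∉ scalars ι F → ∃ y ∈ N, (y : Matrix ι ι F) * (x : Matrix ι ι F) =
      -((x : Matrix ι ι F) * (y : Matrix ι ι F))) := by
  have habs : ActsAbsolutelyIrreducibly (matrixSet N) := (dich N le norm).resolve_left nonscalar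
  have hfixN : FixesForm (matrixSet N) f := by
    rintro _ ⟨x, hx, rfl⟩
    exact fixes _ ⟨x, le hx, rfl⟩
  have hsc : ∀ x ∈ N, x ∈ scalars ι F → (x : Matrix ι ι F) = 1 ∨ (x : Matrix ι ι F) = -1 :=
    fun x hx hxs => scalar_of_fixes form.bilinear form.nondegenerate hfixN hx hxs
  obtain ⟨h2, -, hP, hexp, hZ, ⟨k, -, -, hk⟩, hanti⟩ := extraspecial_of_pm habs comm nonscalar hsc
  refine ⟨h2, ⟨Nat.prime_two, hP, fun A hA hc => cyclic_of_char' norm
    (fun T hT hnz => dich T (hT.trans le) hnz) A hA hc, by rw [hexp]; norm_num⟩, hZ, ⟨k, hk⟩, hsc,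
    hanti⟩

/-- [c6b] the order of an absolutely irreducible group with scalar commutators. -/
theorem c6_card [Finite F] [Nonempty ι] {N : Subgroup (GL ι F)}
    (habs : ActsAbsolutelyIrreducibly (matrixSet N)) (hcomm : ⁅N, N⁆ ≤ scalars ι F) :
    Nat.card N = Nat.card ((scalars ι F).subgroupOf N) * Fintype.card ι ^ 2 := by
  have : Finite (GL ι F) := inferInstance
  rw [subgroupOf_eq_center habs, card_sq N habs hcomm (card_ne_zero habs hcomm), mul_comm]

/-- [c6c] minus type. -/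
theorem c6_minus [Finite F] (h2 : (2 : F) ≠ 0) (hf : IsSymplecticForm f) {N : Subgroup (GL ι F)}
    (hN : FixesForm (matrixSet N) f) (habs : ActsAbsolutelyIrreducibly (matrixSet N))
    (hcomm : ⁅N, N⁆ ≤ scalars ι F) {k : ℕ} (hk : Fintype.card ι = 2 ^ k) : IsOfMinusType k N :=
  minus_type h2 hf hN habs hcomm hk

/-- [c6d] Galois descent to the prime field. -/
theorem c6_realisable [Fintype F] [Nonempty ι] {N : Subgroup (GL ι F)}
    (habs : ActsAbsolutelyIrreducibly (matrixSet N)) (hn : ((Fintype.card ι : ℕ) : F) ≠ 0)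
    (h2 : (2 : F) ≠ 0)
    (hsc : ∀ x ∈ N, x ∈ scalars ι F → (x : Matrix ι ι F) = 1 ∨ (x : Matrix ι ι F) = -1)
    (htr : ∀ x ∈ N, x ∉ scalars ι F → Matrix.trace (x : Matrix ι ι F) = 0) :
    RealisableOver (⊥ : Subfield F) (matrixSet N) := by
  have : Finite (GL ι F) := inferInstance
  apply realisable_of_trace ⊥ habs hn _ _ htr
  · rw [subgroupOf_eq_center habs]
    have h1 := card_center_le_two habs hsc
    have h0 : 0 < Nat.card (Subgroup.center N) := Nat.card_pos
    have : Nat.card (Subgroup.center N) = 1 ∨ Nat.card (Subgroup.center N) = 2 := by omega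
    rcases this with h | h
    · rw [h]; simp
    · rw [h]; exact_mod_cast h2
  · intro c hc
    obtain ⟨i⟩ := ‹Nonempty ι›
    rcases hsc _ hc ⟨c, rfl⟩ with h | h
    · rw [scHom_val] at h
      have := congrFun (congrFun h i) i
      simp only [Matrix.smul_apply, Matrix.one_apply_eq, smul_eq_mul, mul_one] at this
      rw [this]
      exact Subfield.one_mem _
    · rw [scHom_val] at h
      have := congrFun (congrFun h i) i
      simp only [Matrix.smul_apply, Matrix.one_apply_eq, smul_eq_mul, mul_one, Matrix.neg_apply]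
        at this
      rw [this]
      exact Subfield.neg_mem _ (Subfield.one_mem _)

end Cfsg.Agent.Lib.Helper7SpC6
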