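import Mathlib
import Cfsg.Prelude.Def_Classical
import Cfsg.Agent.Lib.Helper7Pf
import Cfsg.Agent.Lib.Helper7Norm2
import Cfsg.Agent.Lib.Helper7Herm

set_option autoImplicit false

namespace Cfsg.Agent.Lib.Helper7U4

open Matrix QuadraticAlgebra Helper7Norm2 Helper7Pf

section frob

variable {F : Type*} [Field F] [Fintype F] {a b : F} [Fact (∀ r : F, r ^ 2 ≠ -b + a * r)]

theorem decomp (z : QuadraticAlgebra F (-b) a) :
    z = algebraMap F _ z.re + algebraMap F _ z.im * (⟨0, 1⟩ : QuadraticAlgebra F (-b) a) := by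
  ext <;> simp

theorem pow_card_eq_star (z : QuadraticAlgebra F (-b) a) : z ^ Fintype.card F = star z := by
  classical
  have : Fintype (QuadraticAlgebra F (-b) a) := Fintype.ofFinite _
  have hL : Fintype.card (QuadraticAlgebra F (-b) a) = Fintype.card F ^ 2 := by
    rw [← Nat.card_eq_fintype_card, card_K]
  obtain ⟨σ, hσ⟩ := Helper7Herm.exists_sigma hL
  have hq : 2 ≤ Fintype.card F := Fintype.one_lt_card
  have hC : ∀ r : F, σ (algebraMap F _ r) = algebraMap F _ r := by
    intro r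
    rw [hσ, ← map_pow, FiniteField.pow_card]
  obtain ⟨w, hw⟩ : ∃ w : QuadraticAlgebra F (-b) a, w = ⟨0, 1⟩ := ⟨_, rfl⟩
  have hww : w * w = algebraMap F _ (-b) + algebraMap F _ a * w := by
    rw [hw]; ext <;> simp
  have h1 : σ w * σ w = algebraMap F _ (-b) + algebraMap F _ a * σ w := by
    rw [← map_mul, hww, map_add, map_mul, hC, hC]
  have hsum : w + star w = algebraMap F _ a := by
    rw [hw]; ext <;> simp
  have hprod : w * star w = algebraMap F _ b := by
    rw [hw]; ext <;> simp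
  have h2 : (σ w - w) * (σ w - star w) = 0 := by
    have : (σ w - w) * (σ w - star w) = σ w * σ w - (w + star w) * σ w + w * star w := by ring
    rw [this, h1, hsum, hprod, map_neg]
    ring
  have hz : ∀ z : QuadraticAlgebra F (-b) a,
      σ z = algebraMap F _ z.re + algebraMap F _ z.im * σ w := by
    intro z
    conv_lhs => rw [decomp z]
    rw [map_add, map_mul, hC, hC, hw]
  rcases mul_eq_zero.1 h2 with h | h
  · exfalso
    have hw' : σ w = w := sub_eq_zero.1 h
    have hfix : ∀ z : QuadraticAlgebra F (-b) a, z ^ Fintype.card F = z := by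
      intro z
      rw [← hσ, hz, hw', hw, ← decomp]
    obtain ⟨g, hg⟩ := IsCyclic.exists_generator (α := (QuadraticAlgebra F (-b) a)ˣ)
    have ho := orderOf_eq_card_of_forall_mem_zpowers hg
    rw [Helper7Herm.card_units hL] at ho
    have hg1 : g ^ (Fintype.card F - 1) = 1 := by
      have h3 : g ^ Fintype.card F = g := by
        ext1
        rw [Units.val_pow_eq_pow_val, hfix]
      have h4 : g ^ (Fintype.card F - 1) * g = 1 * g := by
        rw [← pow_succ, Nat.sub_add_cancel (by omega), h3, one_mul]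
      exact mul_right_cancel h4
    have hdvd := orderOf_dvd_of_pow_eq_one hg1
    rw [ho] at hdvd
    have := Nat.le_of_dvd (by omega) hdvd
    nlinarith [Nat.sub_pos_of_lt (show 1 < Fintype.card F by omega)]
  · have hw' : σ w = star w := sub_eq_zero.1 h
    rw [← hσ, hz, hw', hw]
    ext <;> simp [mul_comm]

end frob

section hodge

variable {F : Type*} [Field F]

theorem tconj_apply {n : Type*} [Fintype n] (g A : Matrix n n F) (k l : n) :
    (gᵀ * A * g) k l = ∑ s, ∑ t, g s k * A s t * g t l := by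
  rw [Matrix.mul_apply]
  simp only [Matrix.mul_apply, Matrix.transpose_apply, Finset.sum_mul]
  rw [Finset.sum_comm]

theorem conj_entry (g : Matrix (Fin 4) (Fin 4) F) (v : Fin 3 ⊕ Fin 3 → F) (k l : Fin 4) :
    (g * Emat v * gᵀ) k l = (g k 0 * g l 1 - g k 1 * g l 0) * v (.inl 0)
      + (g k 0 * g l 2 - g k 2 * g l 0) * v (.inl 1)
      + (g k 0 * g l 3 - g k 3 * g l 0) * v (.inl 2)
      + (g k 2 * g l 3 - g k 3 * g l 2) * v (.inr 0)
      - (g k 1 * g l 3 - g k 3 * g l 1) * v (.inr 1)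
      + (g k 1 * g l 2 - g k 2 * g l 1) * v (.inr 2) := by
  rw [conj_apply]
  simp only [Fin.sum_univ_succ, Emat]
  simp
  ring

theorem tconj_entry (g : Matrix (Fin 4) (Fin 4) F) (v : Fin 3 ⊕ Fin 3 → F) (k l : Fin 4) :
    (gᵀ * Emat v * g) k l = (g 0 k * g 1 l - g 1 k * g 0 l) * v (.inl 0)
      + (g 0 k * g 2 l - g 2 k * g 0 l) * v (.inl 1)
      + (g 0 k * g 3 l - g 3 k * g 0 l) * v (.inl 2)
      + (g 2 k * g 3 l - g 3 k * g 2 l) * v (.inr 0)
      - (g 1 k * g 3 l - g 3 k * g 1 l) * v (.inr 1)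
      + (g 1 k * g 2 l - g 2 k * g 1 l) * v (.inr 2) := by
  rw [tconj_apply]
  simp only [Fin.sum_univ_succ, Emat]
  simp
  ring

/-- the Hodge star intertwines the congruence action with its contragredient -/
theorem hodge (g : Matrix (Fin 4) (Fin 4) F) (v : Fin 3 ⊕ Fin 3 → F) :
    gᵀ * Emat ((Dvec (g * Emat v * gᵀ)) ∘ Sum.swap) * g = g.det • Emat (v ∘ Sum.swap) := by
  rw [det4]
  ext i j
  rw [tconj_entry]
  simp only [Function.comp, Sum.swap_inl, Sum.swap_inr, Dvec, Sum.elim_inl, Sum.elim_inr,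
    conj_entry, Matrix.smul_apply, smul_eq_mul]
  fin_cases i <;> fin_cases j <;>
  · simp [Emat]
    ring

theorem E_map (τ : F →+* F) (v : Fin 3 ⊕ Fin 3 → F) :
    (Emat v).map τ = Emat (fun i => τ (v i)) := by
  ext i j
  fin_cases i <;> fin_cases j <;> simp [Emat]

/-- for a unitary matrix of determinant one the semilinear Hodge star commutes with the action -/
theorem sig_conj (τ : F →+* F) (g : Matrix (Fin 4) (Fin 4) F) (hdet : g.det = 1)
    (hU : gᵀ * g.map τ = 1) (hτ : ∀ x, τ (τ x) = x) (v : Fin 3 ⊕ Fin 3 → F) :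
    (fun i => τ (Dvec (g * Emat v * gᵀ) (Sum.swap i)))
      = Dvec (g * Emat (fun i => τ (v (Sum.swap i))) * gᵀ) := by
  have h1 := hodge g v
  rw [hdet, one_smul] at h1
  have hU' : g.map τ * gᵀ = 1 := mul_eq_one_comm.1 hU
  have hU2 : g * (g.map τ)ᵀ = 1 := by
    have := congrArg Matrix.transpose hU'
    rwa [Matrix.transpose_mul, Matrix.transpose_transpose, Matrix.transpose_one] at this
  have h2 : Emat ((Dvec (g * Emat v * gᵀ)) ∘ Sum.swap)
      = g.map τ * Emat (v ∘ Sum.swap) * (g.map τ)ᵀ := by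
    rw [← h1]
    calc Emat ((Dvec (g * Emat v * gᵀ)) ∘ Sum.swap)
        = (g.map τ * gᵀ) * Emat ((Dvec (g * Emat v * gᵀ)) ∘ Sum.swap) * (g * (g.map τ)ᵀ) := by
          rw [hU', hU2, Matrix.one_mul, Matrix.mul_one]
      _ = _ := by simp only [Matrix.mul_assoc]
  have h3 := congrArg (fun M : Matrix (Fin 4) (Fin 4) F => M.map τ) h2
  rw [E_map, Matrix.map_mul, Matrix.map_mul, E_map, Matrix.transpose_map] at h3
  have hgg : (g.map τ).map τ = g := by
    ext i j
    simp [hτ]
  rw [hgg] at h3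
  have h4 := congrArg Dvec h3
  rw [D_E] at h4
  exact h4

end hodge

end Cfsg.Agent.Lib.Helper7U4
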