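import Mathlib
import Cfsg.Prelude.Def_Classical
import Cfsg.Agent.Lib.Helper7U4

set_option autoImplicit false

namespace Cfsg.Agent.Lib.Helper7U4b

open Matrix QuadraticAlgebra Helper7Norm2 Helper7Pf

variable {F : Type*} [Field F] {a b e : F}

/-- the `w` part -/
def wOf (a b e : F) (v : (Fin 2 ⊕ Fin 2) ⊕ Fin 2 → F) : QuadraticAlgebra F (-b) a :=
  ⟨(2 * b * (v (.inl (.inr 0)) - v (.inl (.inl 0)))
      - a * (v (.inl (.inr 1)) - a * v (.inl (.inl 0)) - b * v (.inl (.inl 1)))) * e,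
   (2 * (v (.inl (.inr 1)) - a * v (.inl (.inl 0)) - b * v (.inl (.inl 1)))
      - a * (v (.inl (.inr 0)) - v (.inl (.inl 0)))) * e⟩

/-- the `t` part -/
def tOf (a b : F) (v : (Fin 2 ⊕ Fin 2) ⊕ Fin 2 → F) : QuadraticAlgebra F (-b) a :=
  ⟨v (.inl (.inl 0)), v (.inl (.inl 1))⟩

/-- the `z` part -/
def zOf (a b : F) (v : (Fin 2 ⊕ Fin 2) ⊕ Fin 2 → F) : QuadraticAlgebra F (-b) a :=
  ⟨v (.inr 0), v (.inr 1)⟩

theorem wOf_add (u v : (Fin 2 ⊕ Fin 2) ⊕ Fin 2 → F) : wOf a b e (u + v) = wOf a b e u + wOf a b e v := by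
  ext <;> simp [wOf] <;> ring

theorem wOf_smul (r : F) (v : (Fin 2 ⊕ Fin 2) ⊕ Fin 2 → F) : wOf a b e (r • v) = r • wOf a b e v := by
  ext <;> simp [wOf] <;> ring

theorem tOf_add (u v : (Fin 2 ⊕ Fin 2) ⊕ Fin 2 → F) : tOf a b (u + v) = tOf a b u + tOf a b v := by
  ext <;> simp [tOf]

theorem tOf_smul (r : F) (v : (Fin 2 ⊕ Fin 2) ⊕ Fin 2 → F) : tOf a b (r • v) = r • tOf a b v := by
  ext <;> simp [tOf]

theorem zOf_add (u v : (Fin 2 ⊕ Fin 2) ⊕ Fin 2 → F) : zOf a b (u + v) = zOf a b u + zOf a b v := by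
  ext <;> simp [zOf]

theorem zOf_smul (r : F) (v : (Fin 2 ⊕ Fin 2) ⊕ Fin 2 → F) : zOf a b (r • v) = r • zOf a b v := by
  ext <;> simp [zOf]

theorem star_smul' (r : F) (z : QuadraticAlgebra F (-b) a) : star (r • z) = r • star z := by
  ext <;> simp <;> ring

/-- the three coordinates -/
def xOf (e : F) (c : QuadraticAlgebra F (-b) a) (v : (Fin 2 ⊕ Fin 2) ⊕ Fin 2 → F) :
    Fin 3 → QuadraticAlgebra F (-b) a :=
  ![wOf a b e v + tOf a b v, c * wOf a b e v, zOf a b v]

/-- the graph of conjugation -/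
def Gm (x : Fin 3 → QuadraticAlgebra F (-b) a) : Fin 3 ⊕ Fin 3 → QuadraticAlgebra F (-b) a :=
  Sum.elim x (fun i => star (x i))

/-- the embedding -/
def E6 (e : F) (c : QuadraticAlgebra F (-b) a) (v : (Fin 2 ⊕ Fin 2) ⊕ Fin 2 → F) :
    Fin 3 ⊕ Fin 3 → QuadraticAlgebra F (-b) a := Gm (xOf e c v)

/-- the retraction -/
def D6 (c' : QuadraticAlgebra F (-b) a) (V : Fin 3 ⊕ Fin 3 → QuadraticAlgebra F (-b) a) :
    (Fin 2 ⊕ Fin 2) ⊕ Fin 2 → F :=
  Sum.elim (Sum.elim ![(V (.inl 0)).re - (c' * V (.inl 1)).re, (V (.inl 0)).im - (c' * V (.inl 1)).im]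
    ![(V (.inl 0)).re + (c' * V (.inl 1)).re + a * (c' * V (.inl 1)).im,
      a * (V (.inl 0)).re + b * (V (.inl 0)).im + b * (c' * V (.inl 1)).im])
    ![(V (.inl 2)).re, (V (.inl 2)).im]

theorem D6_E6 (he : (4 * b - a ^ 2) * e = 1) (c c' : QuadraticAlgebra F (-b) a) (hcc : c' * c = 1)
    (v : (Fin 2 ⊕ Fin 2) ⊕ Fin 2 → F) : D6 c' (E6 e c v) = v := by
  have h1 : c' * (c * wOf a b e v) = wOf a b e v := by rw [← mul_assoc, hcc, one_mul]
  funext i
  rcases i with (i | i) | i <;> fin_cases i <;>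
    simp only [D6, E6, Gm, xOf, Sum.elim_inl, Sum.elim_inr, Matrix.cons_val_zero,
      Matrix.cons_val_one, Matrix.cons_val, h1] <;>
    simp [wOf, tOf, zOf]
  · linear_combination (v (.inl (.inr 0)) - v (.inl (.inl 0))) * he
  · linear_combination (v (.inl (.inr 1)) - a * v (.inl (.inl 0)) - b * v (.inl (.inl 1))) * he

theorem wOf_D6 (he : (4 * b - a ^ 2) * e = 1) (c' : QuadraticAlgebra F (-b) a)
    (V : Fin 3 ⊕ Fin 3 → QuadraticAlgebra F (-b) a) : wOf a b e (D6 c' V) = c' * V (.inl 1) := by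
  obtain ⟨w, hw⟩ : ∃ w, w = c' * V (.inl 1) := ⟨_, rfl⟩
  ext
  · simp only [wOf, D6, Sum.elim_inl, Sum.elim_inr, Matrix.cons_val_zero, Matrix.cons_val_one,
      Matrix.cons_val, ← hw]
    linear_combination w.re * he
  · simp only [wOf, D6, Sum.elim_inl, Sum.elim_inr, Matrix.cons_val_zero, Matrix.cons_val_one,
      Matrix.cons_val, ← hw]
    linear_combination w.im * he

theorem E6_D6 (he : (4 * b - a ^ 2) * e = 1) (c c' : QuadraticAlgebra F (-b) a) (hcc : c * c' = 1)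
    (V : Fin 3 ⊕ Fin 3 → QuadraticAlgebra F (-b) a) (hV : ∀ i, V (.inr i) = star (V (.inl i))) :
    E6 e c (D6 c' V) = V := by
  have hx : ∀ i, xOf e c (D6 c' V) i = V (.inl i) := by
    intro i
    fin_cases i
    · show wOf a b e (D6 c' V) + tOf a b (D6 c' V) = V (.inl 0)
      rw [wOf_D6 he]
      ext <;> simp [tOf, D6]
    · show c * wOf a b e (D6 c' V) = V (.inl 1)
      rw [wOf_D6 he, ← mul_assoc, hcc, one_mul]
    · show zOf a b (D6 c' V) = V (.inl 2)
      ext <;> simp [zOf, D6]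
  funext i
  rcases i with i | i
  · exact hx i
  · show star (xOf e c (D6 c' V) i) = V (.inr i)
    rw [hx, hV]

theorem norm_sub (he : (4 * b - a ^ 2) * e = 1) (v : (Fin 2 ⊕ Fin 2) ⊕ Fin 2 → F) :
    QuadraticAlgebra.norm (wOf a b e v + tOf a b v) - QuadraticAlgebra.norm (wOf a b e v)
      = v (.inl (.inl 0)) * v (.inl (.inr 0)) + v (.inl (.inl 1)) * v (.inl (.inr 1)) := by
  rw [norm_eq, norm_eq]
  simp only [wOf, tOf, re_add, im_add]
  linear_combination (v (.inl (.inl 0)) * (v (.inl (.inr 0)) - v (.inl (.inl 0)))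
    + v (.inl (.inl 1)) * (v (.inl (.inr 1)) - a * v (.inl (.inl 0)) - b * v (.inl (.inl 1)))) * he

theorem Q_E6 [Fact (∀ r : F, r ^ 2 ≠ -b + a * r)] (he : (4 * b - a ^ 2) * e = 1)
    (c : QuadraticAlgebra F (-b) a)
    (hc : QuadraticAlgebra.norm c = -1) (v : (Fin 2 ⊕ Fin 2) ⊕ Fin 2 → F) :
    Cfsg.quadFormPlus 3 (QuadraticAlgebra F (-b) a) (E6 e c v)
      = algebraMap F _ (Cfsg.quadFormMinus 2 F a b v) := by
  have h1 : Cfsg.quadFormPlus 3 (QuadraticAlgebra F (-b) a) (E6 e c v)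
      = algebraMap F _ (QuadraticAlgebra.norm (wOf a b e v + tOf a b v)
        + QuadraticAlgebra.norm (c * wOf a b e v) + QuadraticAlgebra.norm (zOf a b v)) := by
    rw [map_add, map_add, algebraMap_norm_eq_mul_star, algebraMap_norm_eq_mul_star,
      algebraMap_norm_eq_mul_star]
    simp [Cfsg.quadFormPlus, E6, Gm, xOf, Fin.sum_univ_succ]
    ring
  rw [h1, map_mul, hc]
  congr 1
  have h2 := norm_sub (a := a) (b := b) he v
  have h3 : QuadraticAlgebra.norm (zOf a b v)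
      = v (.inr 0) ^ 2 + a * v (.inr 0) * v (.inr 1) + b * v (.inr 1) ^ 2 := by
    rw [norm_eq]; rfl
  rw [h3]
  simp only [Cfsg.quadFormMinus, Fin.sum_univ_two]
  linear_combination h2

/-- linear version -/
def E6L (e : F) (c : QuadraticAlgebra F (-b) a) :
    ((Fin 2 ⊕ Fin 2) ⊕ Fin 2 → F) →ₗ[F] (Fin 3 ⊕ Fin 3 → QuadraticAlgebra F (-b) a) where
  toFun := E6 e c
  map_add' u v := by
    funext i
    rcases i with i | i <;> fin_cases i <;>
      simp [E6, Gm, xOf, wOf_add, tOf_add, zOf_add, mul_add] <;> ring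
  map_smul' r v := by
    funext i
    rcases i with i | i <;> fin_cases i <;>
      simp [E6, Gm, xOf, wOf_smul, tOf_smul, zOf_smul, star_smul', mul_smul_comm, smul_add]

/-- linear version -/
def D6L (c' : QuadraticAlgebra F (-b) a) :
    (Fin 3 ⊕ Fin 3 → QuadraticAlgebra F (-b) a) →ₗ[F] ((Fin 2 ⊕ Fin 2) ⊕ Fin 2 → F) where
  toFun := D6 c'
  map_add' u v := by
    funext i
    rcases i with (i | i) | i <;> fin_cases i <;> simp [D6] <;> ring
  map_smul' r v := by
    funext i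
    rcases i with (i | i) | i <;> fin_cases i <;> simp [D6] <;> ring

/-- restriction of scalars for endomorphisms -/
def resF (F L W : Type*) [Field F] [Field L] [Algebra F L] [AddCommGroup W] [Module F W]
    [Module L W] [IsScalarTower F L W] : Module.End L W →* Module.End F W where
  toFun f := f.restrictScalars F
  map_one' := rfl
  map_mul' _ _ := rfl

section rep

variable [Fact (∀ r : F, r ^ 2 ≠ -b + a * r)] {X : Type*} [Group X]
  (j : X →* Matrix (Fin 4) (Fin 4) (QuadraticAlgebra F (-b) a))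
  (hdet : ∀ x, (j x).det = 1)
  (hU : ∀ x, (j x)ᵀ * (j x).map (starRingEnd (QuadraticAlgebra F (-b) a)) = 1)

include hdet hU

theorem fixed_phi (x : X) (V : Fin 3 ⊕ Fin 3 → QuadraticAlgebra F (-b) a)
    (hV : ∀ i, V (.inr i) = star (V (.inl i))) (i : Fin 3) :
    phi j x V (.inr i) = star (phi j x V (.inl i)) := by
  have h := Helper7U4.sig_conj (starRingEnd (QuadraticAlgebra F (-b) a)) (j x) (hdet x) (hU x)
    (fun z => star_star z) V
  have hV' : (fun i => (starRingEnd (QuadraticAlgebra F (-b) a)) (V (Sum.swap i))) = V := by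
    funext k
    rcases k with k | k
    · show star (V (.inr k)) = V (.inl k)
      rw [hV, star_star]
    · show star (V (.inl k)) = V (.inr k)
      rw [hV]
  rw [hV'] at h
  exact (congrFun h (.inr i)).symm

variable (he : (4 * b - a ^ 2) * e = 1) (c c' : QuadraticAlgebra F (-b) a) (hcc : c * c' = 1)
  (hc : QuadraticAlgebra.norm c = -1)

include he hcc

/-- the six-dimensional representation over `F` -/
noncomputable def phi6 : X →* Module.End F ((Fin 2 ⊕ Fin 2) ⊕ Fin 2 → F) :=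
  Helper7Exc.subRep ((resF F (QuadraticAlgebra F (-b) a) _).comp (phi j)) (E6L e c) (D6L c')
    (D6_E6 he c c' (by rw [mul_comm]; exact hcc))
    (fun g v => E6_D6 he c c' hcc _ (fixed_phi j hdet hU g _ (fun _ => rfl)))

theorem E6_phi6 (x : X) (v : (Fin 2 ⊕ Fin 2) ⊕ Fin 2 → F) :
    E6 e c (phi6 j hdet hU he c c' hcc x v) = phi j x (E6 e c v) :=
  Helper7Exc.subRep_apply ((resF F (QuadraticAlgebra F (-b) a) _).comp (phi j)) (E6L e c) (D6L c')
    _ _ x v

include hc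

theorem Q_phi6 (x : X) (v : (Fin 2 ⊕ Fin 2) ⊕ Fin 2 → F) :
    Cfsg.quadFormMinus 2 F a b (phi6 j hdet hU he c c' hcc x v) = Cfsg.quadFormMinus 2 F a b v := by
  apply (algebraMap F (QuadraticAlgebra F (-b) a)).injective
  rw [← Q_E6 he c hc, ← Q_E6 he c hc, E6_phi6, phi_apply, pf_conj, hdet, one_mul]

/-- the hom to the orthogonal group -/
noncomputable def rho6 : X →* ↥(Cfsg.isometryGroup F (Cfsg.quadFormMinus 2 F a b)) :=
  Helper7Exc.toIso _ (phi6 j hdet hU he c c' hcc) (Q_phi6 j hdet hU he c c' hcc hc)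

theorem ker_le (hD : a ^ 2 - 4 * b ≠ 0) :
    (rho6 j hdet hU he c c' hcc hc).ker ≤ (rho j hdet).ker := by
  intro x hx
  rw [MonoidHom.mem_ker] at hx ⊢
  have h1 : phi6 j hdet hU he c c' hcc x = phi6 j hdet hU he c c' hcc 1 := by
    rw [← Helper7Exc.toIso_eq_iff (Cfsg.quadFormMinus 2 F a b) (phi6 j hdet hU he c c' hcc)
      (Q_phi6 j hdet hU he c c' hcc hc)]
    exact hx.trans (map_one _).symm
  have h3 : ∀ w, phi j x (E6 e c w) = E6 e c w := by
    intro w
    rw [← E6_phi6 j hdet hU he c c' hcc, h1, map_one]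
    rfl
  have h4 : ∀ p : Fin 3 → QuadraticAlgebra F (-b) a, phi j x (Gm p) = Gm p := by
    intro p
    rw [← E6_D6 he c c' hcc (Gm p) (fun _ => rfl), h3]
  rw [← map_one (rho j hdet)]
  unfold rho
  rw [Helper7Exc.toIso_eq_iff, map_one]
  refine LinearMap.ext fun V => ?_
  have hδ := delta_ne_zero (a := a) (b := b) hD
  have hV : V = Gm (fun i => V (.inl i) - (⟨0, 1⟩ : QuadraticAlgebra F (-b) a)
        * ((V (.inl i) - star (V (.inr i))) * (delta a b)⁻¹))
      + (⟨0, 1⟩ : QuadraticAlgebra F (-b) a)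
        • Gm (fun i => (V (.inl i) - star (V (.inr i))) * (delta a b)⁻¹) := by
    funext i
    rcases i with i | i
    · simp [Gm]
    · have hd : (⟨0, 1⟩ : QuadraticAlgebra F (-b) a) - star (⟨0, 1⟩ : QuadraticAlgebra F (-b) a)
          = delta a b := by
        ext <;> simp [delta]
        norm_num
      simp only [Gm, Pi.add_apply, Pi.smul_apply, Sum.elim_inr, smul_eq_mul, star_sub, star_mul,
        star_star, star_inv₀, star_delta]
      have : (delta a b) * (-(delta a b))⁻¹ = -1 := by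
        rw [inv_neg, mul_neg, mul_inv_cancel₀ hδ]
      linear_combination (-(star (V (.inl i)) - V (.inr i))) * this
        + (-(star (V (.inl i)) - V (.inr i)) * (-(delta a b))⁻¹) * hd
  rw [hV, map_add, map_smul, h4, h4]
  rfl

end rep

end Cfsg.Agent.Lib.Helper7U4b
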