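import Mathlib
import Cfsg.Prelude.Def_BrauerPairs
import Cfsg.Agent.Lib.Helper80Trace

/-!
# Blocks over a normal `p`-subgroup: the block idempotent is the trace of a block idempotent of
the centralizer.
-/

set_option autoImplicit false
set_option linter.unusedSectionVars false
set_option linter.unusedVariables false
set_option linter.unusedSimpArgs false

namespace Cfsg.Agent.Lib.Helper80NormalP

open Cfsg Module Representation
open Cfsg.Agent.Lib.Helper4Char Cfsg.Agent.Lib.Helper4Char2 Cfsg.Agent.Lib.Helper20Local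
open Cfsg.Agent.Lib.Helper20Center Cfsg.Agent.Lib.Helper20Block Cfsg.Agent.Lib.Helper20Orbit
open Cfsg.Agent.Lib.Helper20Ideal Cfsg.Agent.Lib.Helper20Defect Cfsg.Agent.Lib.Helper20Brauer
open Cfsg.Agent.Lib.Helper20Induced Cfsg.Agent.Lib.Helper20ModHom Cfsg.Agent.Lib.Helper20BrMap
open Cfsg.Agent.Lib.Helper80Brauer Cfsg.Agent.Lib.Helper82Quot Cfsg.Agent.Lib.Helper80Transport
open Cfsg.Agent.Lib.Helper80Pairs Cfsg.Agent.Lib.Helper80Supp Cfsg.Agent.Lib.Helper87Sylow
open Cfsg.Agent.Lib.Helper80Stab Cfsg.Agent.Lib.Helper80Trace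
open scoped ComplexConjugate

variable {G : Type*} [Group G] [Fintype G] {M : Ideal Cfsg.AlgInt} {p : ℕ} [Fact p.Prime]

theorem cjf_conv (x : G) (a b : G → ℂ) : cjf x (conv a b) = conv (cjf x a) (cjf x b) := by
  funext g
  simp only [cjf, conv]
  apply Fintype.sum_equiv (MulAut.conj x).toEquiv
  intro y
  simp only [MulEquiv.toEquiv_eq_coe, EquivLike.coe_coe, MulAut.conj_apply]
  congr 2 <;> group

theorem conv_sum_left {ι : Type*} (s : Finset ι) (a : ι → G → ℂ) (b : G → ℂ) :
    conv (∑ i ∈ s, a i) b = ∑ i ∈ s, conv (a i) b := by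
  funext g
  simp only [conv, Finset.sum_apply, Finset.sum_mul]
  rw [Finset.sum_comm]

theorem conv_sum_right {ι : Type*} (s : Finset ι) (a : G → ℂ) (b : ι → G → ℂ) :
    conv a (∑ i ∈ s, b i) = ∑ i ∈ s, conv a (b i) := by
  funext g
  simp only [conv, Finset.sum_apply, Finset.mul_sum]
  rw [Finset.sum_comm]

theorem tr_eq_sum (T : Subgroup G) [Fintype (G ⧸ T)] (φ : G → ℂ) :
    tr T φ = ∑ q : G ⧸ T, cjf q.out φ := by
  funext h
  simp [tr, Finset.sum_apply]

section

variable {K : Subgroup G} [Fintype K]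

/-- two conjugates of a block idempotent of a normal subgroup are equal or orthogonal. -/
theorem conv_cjf_cjf (hM : M.IsPrime) {f : Set (IrrCharacter K)} (hf : IsPBlock M f) {x y : G}
    (hx : x ∈ Subgroup.normalizer (K : Set G)) (hy : y ∈ Subgroup.normalizer (K : Set G)) :
    conv (cjf x (ext K (blockCoeff f))) (cjf y (ext K (blockCoeff f))) =
      if cjf x (ext K (blockCoeff f)) = cjf y (ext K (blockCoeff f)) then
        cjf x (ext K (blockCoeff f)) else 0 := by
  have hx' : ∀ g, g ∈ K ↔ x * g * x⁻¹ ∈ K := fun g => Subgroup.mem_normalizer_iff.mp hx g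
  have hy' : ∀ g, g ∈ K ↔ y * g * y⁻¹ ∈ K := fun g => Subgroup.mem_normalizer_iff.mp hy g
  rw [← ext_blockCoeff_mapBlk x K K hx' f, ← ext_blockCoeff_mapBlk y K K hy' f, ← ext_conv,
    conv_blockCoeff]
  have h1 := isPBlock_mapBlk (M := M) (cjEquiv x K K hx') hf
  have h2 := isPBlock_mapBlk (M := M) (cjEquiv y K K hy') hf
  split_ifs with h
  · have := blockCoeff_injective (ext_injective h)
    rw [← this, Set.inter_self]
  · have : mapBlk (cjEquiv x K K hx') f ∩ mapBlk (cjEquiv y K K hy') f = ∅ := by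
      by_contra hne
      obtain ⟨χ, hχ1, hχ2⟩ := Set.nonempty_iff_ne_empty.mpr hne
      exact h (by rw [IsPBlock.eq_of_mem hM h1 h2 hχ1 hχ2])
    rw [this, blockCoeff_empty]
    funext g
    by_cases hg : g ∈ K
    · rw [ext_mem _ hg]; rfl
    · rw [ext_not_mem _ hg]; rfl


theorem cjf_eq_iff {φ : G → ℂ} {T : Subgroup G} (hT : ∀ x, x ∈ T ↔ cjf x φ = φ) (x y : G) :
    cjf x φ = cjf y φ ↔ (x : G ⧸ T) = (y : G ⧸ T) := by
  rw [QuotientGroup.eq, hT, cjf_mul]
  constructor
  · intro h
    rw [← h, cjf_inv_cjf]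
  · intro h
    have := congrArg (cjf x) h
    rwa [cjf_cjf_inv, eq_comm] at this

theorem conv_cjf_tr (hM : M.IsPrime) {f : Set (IrrCharacter K)} (hf : IsPBlock M f)
    (hK : ∀ x : G, x ∈ Subgroup.normalizer (K : Set G)) {T : Subgroup G} [Fintype (G ⧸ T)]
    (hT : ∀ x, x ∈ T ↔ cjf x (ext K (blockCoeff f)) = ext K (blockCoeff f)) (x : G) :
    conv (cjf x (ext K (blockCoeff f))) (tr T (ext K (blockCoeff f))) =
      cjf x (ext K (blockCoeff f)) := by
  classical
  rw [tr_eq_sum, conv_sum_right]
  rw [Finset.sum_eq_single (x : G ⧸ T)]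
  · rw [conv_cjf_cjf hM hf (hK _) (hK _), if_pos]
    rw [cjf_eq_iff hT, QuotientGroup.out_eq']
  · intro q _ hq
    rw [conv_cjf_cjf hM hf (hK _) (hK _), if_neg]
    rw [cjf_eq_iff hT, QuotientGroup.out_eq']
    exact fun h => hq h.symm
  · intro h
    exact absurd (Finset.mem_univ _) h

theorem tr_idem (hM : M.IsPrime) {f : Set (IrrCharacter K)} (hf : IsPBlock M f)
    (hK : ∀ x : G, x ∈ Subgroup.normalizer (K : Set G)) {T : Subgroup G} [Fintype (G ⧸ T)]
    (hT : ∀ x, x ∈ T ↔ cjf x (ext K (blockCoeff f)) = ext K (blockCoeff f)) :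
    conv (tr T (ext K (blockCoeff f))) (tr T (ext K (blockCoeff f))) =
      tr T (ext K (blockCoeff f)) := by
  conv_lhs => rw [tr_eq_sum, conv_sum_left]
  rw [tr_eq_sum]
  apply Finset.sum_congr rfl
  intro q _
  rw [← tr_eq_sum]
  exact conv_cjf_tr hM hf hK hT _

end

theorem conv_comm_of_class {a b : G → ℂ} (ha : IsClassFunction G a) (hb : IsClassFunction G b) :
    conv a b = conv b a := by
  apply omVec_injective (conv_isClassFunction ha hb) (conv_isClassFunction hb ha)
  rw [omVec_conv ha hb, omVec_conv hb ha, mul_comm]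

theorem cjf_of_class {a : G → ℂ} (ha : IsClassFunction G a) (x : G) : cjf x a = a :=
  isInv_iff_cjf.mp (isInv_of_isClassFunction ⊤ ha) x (Subgroup.mem_top x)

/-- over a normal `p`-subgroup `P`, the block idempotent of `B` is the sum of the distinct
conjugates of the idempotent of `e`, for any Brauer pair `(P, e)` of `B`. -/
theorem blockCoeff_eq_tr (hM : IsPModular p M) (P : Subgroup G) [hn : P.Normal]
    (hP : IsPGroup p P) {B : Set (IrrCharacter G)}
    {e : Set (IrrCharacter (Subgroup.centralizer (P : Set G)))}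
    (hBe : IsBrauerPairOf p M B P e) {T : Subgroup G} [Fintype (G ⧸ T)]
    (hT : ∀ x, x ∈ T ↔ cjf x (pfun P e) = pfun P e) :
    blockCoeff B = tr T (pfun P e) := by
  classical
  have hPr := IsPModular.isPrime hM
  obtain ⟨hPe, hB, hlam⟩ := isBrauerPairOf_iff.mp hBe
  have he := hPe.2
  have hK : ∀ x : G, x ∈ Subgroup.normalizer ((Subgroup.centralizer (P : Set G) : Subgroup G) : Set G) := by
    intro x
    apply normalizer_le_normalizer_centralizer P
    rw [Subgroup.normalizer_eq_top]
    exact Subgroup.mem_top x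
  have hBsc := isSC_blockCoeff hPr hB
  have hesc := isSC_blockCoeff hPr he
  have hext : ext (Subgroup.centralizer (P : Set G))
      (res (Subgroup.centralizer (P : Set G)) (blockCoeff B)) = blockCoeff B :=
    ext_res_of_supp (fun g hg => blockCoeff_eq_zero_of_normal hM P hP hB hg)
  have hβsc : IsSC M (res (Subgroup.centralizer (P : Set G)) (blockCoeff B)) :=
    isSC_res hBsc.2 (isInv_of_isClassFunction _ hBsc.1)
  have hββ : conv (res (Subgroup.centralizer (P : Set G)) (blockCoeff B))
      (res (Subgroup.centralizer (P : Set G)) (blockCoeff B)) =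
      res (Subgroup.centralizer (P : Set G)) (blockCoeff B) := by
    apply ext_injective
    rw [ext_conv, hext, Helper80Stab.conv_blockCoeff_self]
  have h1 : omVec (res (Subgroup.centralizer (P : Set G)) (blockCoeff B)) *
      omVec (res (Subgroup.centralizer (P : Set G)) (blockCoeff B)) =
      omVec (res (Subgroup.centralizer (P : Set G)) (blockCoeff B)) := by
    rw [← omVec_conv hβsc.1 hβsc.1, hββ]
  have h2 : omVec (blockCoeff e) * omVec (blockCoeff e) = omVec (blockCoeff e) := by
    rw [← omVec_conv hesc.1 hesc.1, Helper80Stab.conv_blockCoeff_self]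
  have hcsc := IsSC.conv hPr hβsc hesc
  have hc : conv (res (Subgroup.centralizer (P : Set G)) (blockCoeff B)) (blockCoeff e) =
      blockCoeff e := by
    apply eq_blockCoeff_of_idem hM he hcsc
    · apply omVec_injective (conv_isClassFunction hcsc.1 hcsc.1) hcsc.1
      rw [omVec_conv hcsc.1 hcsc.1, omVec_conv hβsc.1 hesc.1]
      calc _ = (omVec (res (Subgroup.centralizer (P : Set G)) (blockCoeff B)) *
            omVec (res (Subgroup.centralizer (P : Set G)) (blockCoeff B))) *
            (omVec (blockCoeff e) * omVec (blockCoeff e)) := by ring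
        _ = _ := by rw [h1, h2]
    · apply omVec_injective (conv_isClassFunction hcsc.1 hesc.1) hcsc.1
      rw [omVec_conv hcsc.1 hesc.1, omVec_conv hβsc.1 hesc.1, mul_assoc, h2]
    · intro h0
      obtain ⟨ξ, hξ⟩ := IsPBlock.nonempty hPr he
      have h3 := om_conv ξ.2 hβsc.1 hesc.1
      rw [h0, om_zero, om_blockCoeff, if_pos hξ, mul_one] at h3
      have h4 := not_mem_of_sub_one hPr (hlam ξ hξ)
      apply h4
      have : lam (Subgroup.centralizer (P : Set G)) (ξ : Subgroup.centralizer (P : Set G) → ℂ)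
          (blockCoeff B) = 0 := h3.symm
      rw [this]
      exact memLocalIdeal_zero hPr
  have hF1 : conv (blockCoeff B) (pfun P e) = pfun P e := by
    have := congrArg (ext (Subgroup.centralizer (P : Set G))) hc
    rwa [ext_conv, hext] at this
  have hF2 : ∀ x : G, conv (blockCoeff B) (cjf x (pfun P e)) = cjf x (pfun P e) := by
    intro x
    have := congrArg (cjf x) hF1
    rwa [cjf_conv, cjf_of_class hBsc.1] at this
  have hφinv : IsInv T (pfun P e) := isInv_iff_cjf.mpr (fun x hx => (hT x).mp hx)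
  have hφrv : RV M (pfun P e) := rv_ext hPr hesc.2
  have hasc := tr_isSC (T := T) hPr hφinv hφrv
  have hF3 : conv (blockCoeff B) (tr T (pfun P e)) = tr T (pfun P e) := by
    rw [tr_eq_sum, conv_sum_right]
    exact Finset.sum_congr rfl (fun q _ => hF2 _)
  symm
  apply eq_blockCoeff_of_idem hM hB hasc (tr_idem hPr he hK hT)
  · rw [conv_comm_of_class hasc.1 hBsc.1, hF3]
  · intro h0
    have h5 := conv_cjf_tr hPr he hK hT 1
    rw [h0, cjf_one] at h5
    have h6 : pfun P e = 0 := by
      show ext (Subgroup.centralizer (P : Set G)) (blockCoeff e) = 0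
      rw [← h5]
      funext g
      simp [conv]
    have h7 : blockCoeff e = 0 := ext_eq_zero_iff.mp h6
    exact blockCoeff_ne_zero (IsPBlock.nonempty hPr he) h7

end Cfsg.Agent.Lib.Helper80NormalP
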