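import Mathlib
import Cfsg.Agent.Lib.Helper81CycDefs
import Cfsg.Agent.Lib.Helper4DefOneDefs
import Cfsg.Agent.Lib.Helper80Transport

/-!
# Project 84 (CYC), part G: blocks with cyclic defect groups, `l(B) ≤ e` and the characters.
Vocabulary.  `C = C_G(Q)`, `N = N_G(Q)`, `Q` the subgroup of order `p` of the defect group `D`,
`f` the (nilpotent) block of `C` below the maximal pair, `T` its stabilizer in `N`.
-/

set_option autoImplicit false

namespace Cfsg.Agent.Lib.Helper81CycGDefs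

open Cfsg Cfsg.Agent.Lib.Helper81CycDefs Cfsg.Agent.Lib.Helper4DefOneDefs
  Cfsg.Agent.Lib.Helper80Transport Cfsg.Agent.Lib.Helper82Quot

universe u

variable {G : Type u} [Group G]

open Classical in
/-- the conjugate character: `(cjc C n ψ) (n c n⁻¹) = ψ c` (for `n` normalizing `C`). -/
noncomputable def cjc (C : Subgroup G) (n : G) (ψ : IrrCharacter C) : IrrCharacter C :=
  if h : ∀ g, g ∈ C ↔ n * g * n⁻¹ ∈ C then irrCongr (cjEquiv n C C h) ψ else ψ

/-- conjugacy under `T`. -/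
def RelC (C T : Subgroup G) (ψ ψ' : IrrCharacter C) : Prop := ∃ n ∈ T, cjc C n ψ = ψ'

/-- `[χ_C, ψ - θ]`. -/
noncomputable def dd {C : Subgroup G} [Fintype C] (θ ψ : IrrCharacter C) (χ : IrrCharacter G) : ℂ :=
  mH χ ψ - mH χ θ

/-- `θ ∈ f` is `T`-stable and `T / C` acts freely on the other members of `f`. -/
def IsFix (C T : Subgroup G) (f : Set (IrrCharacter C)) (θ : IrrCharacter C) : Prop :=
  θ ∈ f ∧ (∀ n ∈ T, cjc C n θ = θ) ∧ ∀ ψ ∈ f, ψ ≠ θ → ∀ n ∈ T, cjc C n ψ = ψ → n ∈ C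

/-- the data of a block with cyclic defect group. -/
structure CY (p : ℕ) (M : Ideal AlgInt) (D C T N : Subgroup G) (t₀ x₀ : G) (e : ℕ)
    (f : Set (IrrCharacter C)) (B : Set (IrrCharacter G)) : Prop where
  hM : IsPModular p M
  gd : GD p D C T N t₀ x₀ e
  idx : C.relIndex T = e
  D1 : D ≠ ⊥
  cen : ∀ d ∈ D, d ≠ 1 → Subgroup.centralizer ({d} : Set G) ≤ C
  ind : IsInducedBlock M C f B
  dB : IsDefectGroup p M B D
  df : IsDefectGroup p M f (D.subgroupOf C)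
  stab : ∀ n ∈ N, (n ∈ T ↔ StabilizesBlock C f n)
  reg : ∀ ψ ∈ f, ∀ ψ' ∈ f, ∀ c : C, ¬ p ∣ orderOf c → (ψ : C → ℂ) c = (ψ' : C → ℂ) c
  cjB : ∀ f' : Set (IrrCharacter C), IsInducedBlock M C f' B →
    ∃ n ∈ N, ∀ ψ ∈ f, ∃ ψ' ∈ f', IsConjCharOf C n (ψ : C → ℂ) (ψ' : C → ℂ)
  indD : ∀ f' : Set (IrrCharacter C), IsPBlock M f' →
    ∃ B' : Set (IrrCharacter G), IsInducedBlock M C f' B'
  card : Nat.card f = Nat.card D

end Cfsg.Agent.Lib.Helper81CycGDefs
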