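import Mathlib
import Cfsg.Prelude.Def_BlockLocal
import Cfsg.Agent.Lib.Helper81CycGDefs
import Cfsg.Agent.Lib.Helper81Base

/-!
# Project PI: perfect isometries for blocks with cyclic defect groups (on top of project 84).
Vocabulary: `bb ψ g` = value of the induced character `ψ^G` at `g`, the structure `Side`
(character-theoretic shape of a block with cyclic defect group, indexed by a finite type `J`
labelling the local block `f`, `j₀` the label of the stable character `θ`), the link `LK`.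
-/

set_option autoImplicit false

namespace Cfsg.Agent.Lib.Helper80PIDefs

open Cfsg Cfsg.Agent.Lib.Helper81CycDefs Cfsg.Agent.Lib.Helper81CycGDefs
  Cfsg.Agent.Lib.Helper4DefOneDefs Cfsg.Agent.Lib.Helper80Transport Cfsg.Agent.Lib.Helper82Quot
  Cfsg.Agent.Lib.Helper81Base

universe u v w

/-- the induced character `ψ^G` at `g`, written with the multiplicities `mH χ ψ = [χ_C, ψ]`. -/
noncomputable def bb {G : Type u} [Group G] [Fintype G] {C : Subgroup G} [Fintype C]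
    (ψ : IrrCharacter C) (g : G) : ℂ :=
  ∑ χ : IrrCharacter G, mH χ ψ * (χ : G → ℂ) g

open Classical in
/-- the signed sum of the non-exceptional characters. -/
noncomputable def SX {G : Type u} [Group G] [Fintype G] (X : Set (IrrCharacter G))
    (δ : IrrCharacter G → ℤ) (g : G) : ℂ :=
  ∑ χ : IrrCharacter G, (if χ ∈ X then (δ χ : ℂ) * (χ : G → ℂ) g else 0)

/-- the shape of a block `B` with cyclic defect group: `X` the `e` non-exceptional characters with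
signs `δ`, `ζ j` (`j ≠ j₀`) the exceptional characters with the sign `δ₀` (every one of them occurs
for exactly `e` labels), `b j` class functions (the induced characters of the members of the local
block). -/
structure Side (p e : ℕ) {G : Type u} [Group G] [Fintype G] (B : Set (IrrCharacter G))
    {J : Type w} [Fintype J] (j₀ : J) (X : Set (IrrCharacter G)) (ζ : J → IrrCharacter G)
    (δ : IrrCharacter G → ℤ) (δ₀ : ℤ) (b : J → G → ℂ) : Prop where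
  hB : ∀ χ, χ ∈ B ↔ (χ ∈ X ∨ ∃ j, j ≠ j₀ ∧ ζ j = χ)
  disj : ∀ j, j ≠ j₀ → ζ j ∉ X
  cardX : Nat.card X = e
  sgn : ∀ χ ∈ X, δ χ = 1 ∨ δ χ = -1
  sgn₀ : δ₀ = 1 ∨ δ₀ = -1
  fib : ∀ j, j ≠ j₀ → Nat.card {j' : J // j' ≠ j₀ ∧ ζ j' = ζ j} = e
  singY : ∀ g : G, p ∣ orderOf g → ∀ j, j ≠ j₀ → (δ₀ : ℂ) * (ζ j : G → ℂ) g = b j g
  singX : ∀ g : G, p ∣ orderOf g → ∀ χ ∈ X, (e : ℂ) * ((δ χ : ℂ) * (χ : G → ℂ) g) = - b j₀ g
  sum0 : ∀ g : G, p ∣ orderOf g → ∑ j, b j g = 0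
  reg : ∀ g : G, ¬ p ∣ orderOf g → ∀ j, j ≠ j₀ → (δ₀ : ℂ) * (ζ j : G → ℂ) g + SX X δ g = 0

/-- the properties of the bijection `I` and the signs `ε` built from two `Side`s. -/
structure IsI {G : Type u} [Group G] {G' : Type v} [Group G'] {J : Type w} (j₀ : J)
    (B X : Set (IrrCharacter G)) (ζ : J → IrrCharacter G) (δ : IrrCharacter G → ℤ) (δ₀ : ℤ)
    (B' X' : Set (IrrCharacter G')) (ζ' : J → IrrCharacter G') (δ' : IrrCharacter G' → ℤ)
    (δ₀' : ℤ) (I : IrrCharacter G' → IrrCharacter G) (ε : IrrCharacter G' → ℤ) : Prop where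
  bij : Set.BijOn I B' B
  bijX : Set.BijOn I X' X
  sgn : ∀ η ∈ B', ε η = 1 ∨ ε η = -1
  epsX : ∀ η ∈ X', ε η = δ' η * δ (I η)
  IY : ∀ j, j ≠ j₀ → I (ζ' j) = ζ j
  epsY : ∀ j, j ≠ j₀ → ε (ζ' j) = δ₀' * δ₀

/-- the link between the local blocks `f'` of `C' ≤ G'` and `f` of `C ≤ G`: a group isomorphism
`C' ≃* C` carrying `f'` to `f` and the `T'`-orbits to the `T`-orbits. -/
structure LK {G : Type u} [Group G] {G' : Type v} [Group G'] {C : Subgroup G}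
    {C' : Subgroup G'} (T : Subgroup G) (T' : Subgroup G') (φ : C' ≃* C)
    (f : Set (IrrCharacter C)) (f' : Set (IrrCharacter C')) : Prop where
  mem : ∀ ψ : IrrCharacter C', ψ ∈ f' ↔ irrCongr φ ψ ∈ f
  rel : ∀ ψ₁ ∈ f', ∀ ψ₂ ∈ f', RelC C' T' ψ₁ ψ₂ ↔ RelC C T (irrCongr φ ψ₁) (irrCongr φ ψ₂)

/-- the natural isomorphism from a subgroup `C'` of `↥H` onto the subgroup `K ≤ H` of `G` with the
same elements. -/
def sig {G : Type u} [Group G] {K H : Subgroup G} (hKH : K ≤ H) (C' : Subgroup H)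
    (hC : ∀ h : H, h ∈ C' ↔ (h : G) ∈ K) : C' ≃* K where
  toFun c := ⟨((c : H) : G), (hC c).1 c.2⟩
  invFun k := ⟨⟨(k : G), hKH k.2⟩, (hC _).2 k.2⟩
  left_inv _ := rfl
  right_inv _ := rfl
  map_mul' _ _ := rfl

open Classical in
/-- the output of the structure theorem for a block with cyclic defect group (`ζ` is only relevant
on `f \ {θ}`): `(ψ - θ)^G = δ₀ ζ ψ + ∑_{χ ∈ X} δ χ χ`. -/
structure Str (e : ℕ) {G : Type u} [Group G] [Fintype G] {C : Subgroup G} [Fintype C]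
    (T : Subgroup G) (f : Set (IrrCharacter C)) (θ : IrrCharacter C) (B : Set (IrrCharacter G))
    (X : Set (IrrCharacter G)) (ζ : IrrCharacter C → IrrCharacter G) (δ : IrrCharacter G → ℤ)
    (δ₀ : ℤ) : Prop where
  hB : ∀ χ, χ ∈ B ↔ (χ ∈ X ∨ ∃ ψ ∈ f, ψ ≠ θ ∧ ζ ψ = χ)
  disj : ∀ ψ ∈ f, ψ ≠ θ → ζ ψ ∉ X
  cardX : Nat.card X = e
  sgn : ∀ χ ∈ X, δ χ = 1 ∨ δ χ = -1
  sgn₀ : δ₀ = 1 ∨ δ₀ = -1
  rel : ∀ ψ ∈ f, ψ ≠ θ → ∀ ψ' ∈ f, ψ' ≠ θ → (ζ ψ = ζ ψ' ↔ RelC C T ψ ψ')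
  dd : ∀ ψ ∈ f, ψ ≠ θ → ∀ χ, dd θ ψ χ
    = (if χ = ζ ψ then (δ₀ : ℂ) else 0) + (if χ ∈ X then (δ χ : ℂ) else 0)

open Classical in
/-- the kernel of the identity of a block. -/
noncomputable def KK {K : Type u} [Group K] [Fintype K] (f : Set (IrrCharacter K)) (c₁ c₂ : K) :
    ℂ :=
  ∑ ψ : IrrCharacter K, (if ψ ∈ f then (ψ : K → ℂ) c₁ * (ψ : K → ℂ) c₂ else 0)

/-- the link isomorphism `c' ↦ n⁻¹ c' n`. -/
def lkEquiv {G : Type u} [Group G] {K H : Subgroup G} (hKH : K ≤ H) (C' : Subgroup H)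
    (hC : ∀ h : H, h ∈ C' ↔ (h : G) ∈ K) (n : G) (hn : ∀ g, g ∈ K ↔ n⁻¹ * g * n⁻¹⁻¹ ∈ K) :
    C' ≃* K :=
  (sig hKH C' hC).trans (cjEquiv n⁻¹ K K hn)

end Cfsg.Agent.Lib.Helper80PIDefs
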