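import Mathlib
import Cfsg.Prelude.Def_BrauerPairs
import Cfsg.Agent.Lib.Helper80PCov

/-!
# Nilpotent blocks and normal subgroups of `p`-power index.
-/

set_option autoImplicit false
set_option linter.unusedSectionVars false
set_option linter.unusedVariables false
set_option linter.unusedSimpArgs false

namespace Cfsg.Agent.Lib.Helper80PNil

open Cfsg Module Representation
open Cfsg.Agent.Lib.Helper4Char Cfsg.Agent.Lib.Helper4Char2 Cfsg.Agent.Lib.Helper20Local
open Cfsg.Agent.Lib.Helper20Center Cfsg.Agent.Lib.Helper20Block Cfsg.Agent.Lib.Helper20Orbit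
open Cfsg.Agent.Lib.Helper20Ideal Cfsg.Agent.Lib.Helper20Defect Cfsg.Agent.Lib.Helper20Brauer
open Cfsg.Agent.Lib.Helper20Induced Cfsg.Agent.Lib.Helper20ModHom Cfsg.Agent.Lib.Helper20BrMap
open Cfsg.Agent.Lib.Helper80Brauer Cfsg.Agent.Lib.Helper82Quot Cfsg.Agent.Lib.Helper80Transport
open Cfsg.Agent.Lib.Helper80Pairs Cfsg.Agent.Lib.Helper80Supp Cfsg.Agent.Lib.Helper87Sylow
open Cfsg.Agent.Lib.Helper80Stab Cfsg.Agent.Lib.Helper80Trace Cfsg.Agent.Lib.Helper80Incl
open Cfsg.Agent.Lib.Helper80Conj Cfsg.Agent.Lib.Helper80Full Cfsg.Agent.Lib.Helper80Full2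
open Cfsg.Agent.Lib.Helper80Up Cfsg.Agent.Lib.Helper80PCov Cfsg.Agent.Lib.Helper80Abel
open Cfsg.Agent.Lib.Helper80Sat Cfsg.Agent.Lib.Helper80Nil
open scoped ComplexConjugate

variable {M : Ideal Cfsg.AlgInt} {p : ℕ} [Fact p.Prime]
variable {G : Type*} [Group G] [Fintype G]

theorem conj_pow_eq {R : Subgroup G} {x y : G} (hx : x ∈ Subgroup.normalizer (R : Set G))
    (hxy : ∀ r ∈ R, y * r * y⁻¹ = x * r * x⁻¹) (n : ℕ) :
    ∀ r ∈ R, y ^ n * r * (y ^ n)⁻¹ = x ^ n * r * (x ^ n)⁻¹ := by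
  induction n with
  | zero => intro r _; simp
  | succ n ih =>
    intro r hr
    have h1 : x * r * x⁻¹ ∈ R := (Subgroup.mem_normalizer_iff.1 hx r).1 hr
    have e1 : y ^ (n + 1) * r * (y ^ (n + 1))⁻¹ = y ^ n * (y * r * y⁻¹) * (y ^ n)⁻¹ := by
      rw [pow_succ]; group
    have e2 : x ^ (n + 1) * r * (x ^ (n + 1))⁻¹ = x ^ n * (x * r * x⁻¹) * (x ^ n)⁻¹ := by
      rw [pow_succ]; group
    rw [e1, e2, hxy r hr, ih _ h1]

theorem conj_pow_mul {x q r : G} (hxr : x * r = r * x) (hq : x * q * x⁻¹ = r * q) (n : ℕ) :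
    x ^ n * q * (x ^ n)⁻¹ = r ^ n * q := by
  induction n with
  | zero => simp
  | succ n ih =>
    have hc : Commute x r := hxr
    have e1 : x ^ (n + 1) * q * (x ^ (n + 1))⁻¹ = x ^ n * (x * q * x⁻¹) * (x ^ n)⁻¹ := by
      rw [pow_succ]; group
    have e2 : x ^ n * (r * q) * (x ^ n)⁻¹ = (x ^ n * r * (x ^ n)⁻¹) * (x ^ n * q * (x ^ n)⁻¹) := by
      group
    have e3 : x ^ n * r * (x ^ n)⁻¹ = r := by
      rw [(hc.pow_left n).eq, mul_inv_cancel_right]
    rw [e1, hq, e2, e3, ih, pow_succ', mul_assoc]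

section PIndex

variable {N : Subgroup G} [Fintype N] [N.Normal]

/-- Brauer pairs of `B` and of `c` at a subgroup of `N` correspond under covering. -/
theorem pairOf_iff (hM : IsPModular p M) {k : ℕ} (hN : N.index = p ^ k)
    {c : Set (IrrCharacter N)} (hc : IsPBlock M c) {B : Set (IrrCharacter G)} (hB : IsPBlock M B)
    (hBc : blockCoeff B = ext N (blockCoeff c)) {Z : Subgroup N}
    [Fintype (Subgroup.centralizer ((upS Z : Subgroup G) : Set G))]
    [Fintype (Subgroup.centralizer ((upS Z : Subgroup G) : Set G) ⊓ N : Subgroup G)]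
    {f : Set (IrrCharacter (Subgroup.centralizer ((upS Z : Subgroup G) : Set G)))}
    (hf : IsPBlock M f)
    {X : Set (IrrCharacter (Subgroup.centralizer ((upS Z : Subgroup G) : Set G) ⊓ N : Subgroup G))}
    (hX : ext (Subgroup.centralizer ((upS Z : Subgroup G) : Set G) ⊓ N : Subgroup G) (blockCoeff X)
      = ext (Subgroup.centralizer ((upS Z : Subgroup G) : Set G)) (blockCoeff f))
    {f₁ : Set (IrrCharacter (Subgroup.centralizer (Z : Set N)))} (hf₁ : IsPBlock M f₁)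
    (h₁ : mapBlk (cenInf Z) f₁ ⊆ X) :
    IsBrauerPairOf p M B (upS Z) f ↔ IsBrauerPairOf p M c Z f₁ := by
  classical
  have hPr := IsPModular.isPrime hM
  have hsc := isSC_blockCoeff hPr hB
  have key : ∀ ξ ∈ f, ∀ ξ₁ ∈ f₁, MemLocalIdeal M
      (lam (Subgroup.centralizer (Z : Set N)) (ξ₁ : Subgroup.centralizer (Z : Set N) → ℂ)
        (blockCoeff c)
      - lam (Subgroup.centralizer ((upS Z : Subgroup G) : Set G)) (ξ : _ → ℂ) (blockCoeff B)) := by
    intro ξ hξ ξ₁ hξ₁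
    have h := lam_cov hPr inf_le_left hf (supp_inf hM hN _ f hf) hX
      (h₁ ((mem_mapBlk _).2 hξ₁)) hξ (A := blockCoeff B) hsc.2
      (isInv_of_isClassFunction _ hsc.1) (by
        intro g hg hgK
        rw [hBc, ext_not_mem]
        intro hgN
        exact hgK ⟨hg, hgN⟩)
    have e := lam_cenInf Z ξ₁ (blockCoeff c)
    rw [← hBc] at e
    convert h using 2
    rw [← e]
  obtain ⟨ξ, hξ⟩ := IsPBlock.nonempty hPr hf
  obtain ⟨ξ₁, hξ₁⟩ := IsPBlock.nonempty hPr hf₁
  rw [isBrauerPairOf_iff, isBrauerPairOf_iff]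
  constructor
  · rintro ⟨h1, -, h3⟩
    refine ⟨⟨isPGroup_upS.1 h1.1, hf₁⟩, hc, fun η hη => ?_⟩
    have := liAdd hPr (key ξ hξ η hη) (h3 ξ hξ)
    rwa [sub_add_sub_cancel] at this
  · rintro ⟨h1, -, h3⟩
    refine ⟨⟨isPGroup_upS.2 h1.1, hf⟩, hB, fun η hη => ?_⟩
    have := liSub hPr (h3 ξ₁ hξ₁) (key η hη ξ₁ hξ₁)
    rwa [sub_sub_sub_cancel_left] at this

theorem coe_mem_normalizer_upS {Z : Subgroup N} {x : N} :
    (x : G) ∈ Subgroup.normalizer ((upS Z : Subgroup G) : Set G) ↔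
      x ∈ Subgroup.normalizer (Z : Set N) := by
  rw [Subgroup.mem_normalizer_iff, Subgroup.mem_normalizer_iff]
  constructor
  · intro h z
    have := h z
    rw [coe_mem_upS] at this
    rw [this]
    have e1 : (x : G) * z * (x : G)⁻¹ = ((x * z * x⁻¹ : N) : G) := by simp
    rw [e1, coe_mem_upS]
  · intro h g
    by_cases hg : g ∈ N
    · have := h ⟨g, hg⟩
      have e1 : (x : G) * g * (x : G)⁻¹ = ((x * ⟨g, hg⟩ * x⁻¹ : N) : G) := by simp
      rw [e1, coe_mem_upS, ← this]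
      exact (coe_mem_upS (z := (⟨g, hg⟩ : N)))
    · constructor
      · intro h'; exact absurd (upS_le Z h') hg
      · intro h'
        exfalso
        apply hg
        have := N.mul_mem (N.mul_mem (N.inv_mem x.2) (upS_le Z h')) x.2
        simpa [mul_assoc] using this

/-- nilpotency goes down. -/
theorem nil_down (hM : IsPModular p M) {k : ℕ} (hN : N.index = p ^ k)
    {c : Set (IrrCharacter N)} (hc : IsPBlock M c) {B : Set (IrrCharacter G)} (hB : IsPBlock M B)
    (hBc : blockCoeff B = ext N (blockCoeff c)) (hnil : IsNilpotentBlock p M B) :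
    IsNilpotentBlock p M c := by
  classical
  have hPr := IsPModular.isPrime hM
  rw [isNilpotentBlock_iff hM] at hnil ⊢
  refine ⟨hc, ?_⟩
  rintro ⟨Z, f₁⟩ ha x hx hreg
  obtain ⟨ξ₁, hξ₁⟩ := IsPBlock.nonempty hPr ha.1.2
  obtain ⟨f, hf, X, hX, hX2, hξX⟩ := exists_covering hM
    (inf_le_left : Subgroup.centralizer ((upS Z : Subgroup G) : Set G) ⊓ N ≤ _)
    (supp_inf hM hN _) (irrCongr (cenInf Z) ξ₁)
  have h₀ : mapBlk (cenInf Z) f₁ ⊆ X := by
    rw [IsPBlock.eq_blockOf hPr (isPBlock_mapBlk _ ha.1.2) ((mem_mapBlk _).2 hξ₁)]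
    exact hX2 _ hξX
  have hpair : IsBrauerPairOf p M B (upS Z) f :=
    (pairOf_iff hM hN hc hB hBc hf hX ha.1.2 h₀).2 ha
  have hx2 := mem_stabFun.1 hx
  have hxn : (x : G) ∈ Subgroup.normalizer ((upS Z : Subgroup G) : Set G) :=
    coe_mem_normalizer_upS.2 hx2.1
  have hx' : (x : G) ∈ pstab (upS Z) f := by
    rw [mem_stabFun]
    refine ⟨hxn, cov_stable hPr hf hX (isPBlock_mapBlk _ ha.1.2) h₀
      (normalizer_le_normalizer_centralizer _ hxn)
      (le_normalizer_inf _ (normalizer_le_normalizer_centralizer _ hxn)) ?_⟩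
    rw [ext_cenInf, cjf_ext, hx2.2]
  have := hnil.2 ⟨upS Z, f⟩ hpair x hx' (by
    unfold IsPRegular at hreg ⊢
    rwa [Subgroup.orderOf_coe])
  exact coe_mem_centralizer_upS.1 this

/-- group theory: a `p`-regular element of `N` normalizing the `p`-group `Q` and centralizing
`Q ∩ N` centralizes `Q`. -/
theorem mem_centralizer_of_inf {Q R : Subgroup G} (hQ : IsPGroup p Q) {x : G}
    (hreg : IsPRegular p x) (hxN : x ∈ N) (hxQ : x ∈ Subgroup.normalizer (Q : Set G))
    (hR : ∀ g : G, g ∈ R ↔ g ∈ Q ∧ g ∈ N)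
    (hxcen : x ∈ Subgroup.centralizer (R : Set G)) : x ∈ Subgroup.centralizer (Q : Set G) := by
  rw [Subgroup.mem_centralizer_iff]
  intro q hq
  have hq' : x * q * x⁻¹ ∈ Q := (Subgroup.mem_normalizer_iff.1 hxQ q).1 hq
  have hr : x * q * x⁻¹ * q⁻¹ ∈ R := by
    rw [hR]
    refine ⟨Q.mul_mem hq' (Q.inv_mem hq), ?_⟩
    have h1 : q * x⁻¹ * q⁻¹ ∈ N := Subgroup.Normal.conj_mem inferInstance _ (N.inv_mem hxN) q
    have := N.mul_mem hxN h1
    convert this using 1
    group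
  have hxr := (Subgroup.mem_centralizer_iff.1 hxcen _ hr).symm
  have h3 := conj_pow_mul hxr (by group : x * q * x⁻¹ = (x * q * x⁻¹ * q⁻¹) * q) (orderOf x)
  rw [pow_orderOf_eq_one, one_mul, inv_one, mul_one] at h3
  have h4 : (x * q * x⁻¹ * q⁻¹) ^ orderOf x = 1 := by
    have : 1 * q = (x * q * x⁻¹ * q⁻¹) ^ orderOf x * q := by rw [one_mul]; exact h3
    exact (mul_right_cancel this).symm
  obtain ⟨j, hj⟩ := (IsPGroup.iff_orderOf.1 hQ) ⟨_, ((hR _).1 hr).1⟩
  have h5 : orderOf (x * q * x⁻¹ * q⁻¹) = p ^ j := by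
    rw [← hj, Subgroup.orderOf_mk]
  have h6 : orderOf (x * q * x⁻¹ * q⁻¹) ∣ orderOf x := orderOf_dvd_of_pow_eq_one h4
  have h7 : x * q * x⁻¹ * q⁻¹ = 1 := by
    rw [← orderOf_eq_one_iff, h5]
    rcases Nat.eq_zero_or_pos j with rfl | hjpos
    · simp
    · exfalso
      apply hreg
      rw [h5] at h6
      exact (dvd_pow_self p hjpos.ne').trans h6
  have h8 : x * q * x⁻¹ = q := mul_inv_eq_one.1 h7
  calc q * x = (x * q * x⁻¹) * x := by rw [h8]
    _ = x * q := by group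

theorem centralizer_le_normalizer' (R : Subgroup G) :
    Subgroup.centralizer (R : Set G) ≤ Subgroup.normalizer (R : Set G) := by
  intro cc hcc
  rw [Subgroup.mem_normalizer_iff]
  intro g
  constructor
  · intro hg
    have := Subgroup.mem_centralizer_iff.1 hcc g hg
    rw [← this, mul_inv_cancel_right]; exact hg
  · intro hg
    have := Subgroup.mem_centralizer_iff.1 hcc _ hg
    have e : g = cc * g * cc⁻¹ := by
      have h3 : cc * g = cc * (cc * g * cc⁻¹) := by rw [← this]; group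
      exact mul_left_cancel h3
    rw [e]; exact hg

/-- group theory: if `x` is `p`-regular, `c` centralizes `R` and a `p`-power of `c⁻¹ x`
centralizes `R`, then `x` centralizes `R`. -/
theorem mem_centralizer_of_pow {R : Subgroup G} {x cc : G} (hreg : IsPRegular p x)
    (hxn : x ∈ Subgroup.normalizer (R : Set G)) (hcc : cc ∈ Subgroup.centralizer (R : Set G))
    {a : ℕ} (hcen' : (cc⁻¹ * x) ^ (p ^ a) ∈ Subgroup.centralizer (R : Set G)) :
    x ∈ Subgroup.centralizer (R : Set G) := by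
  have hp : p.Prime := Fact.out
  have hxy : ∀ r ∈ R, (cc⁻¹ * x) * r * (cc⁻¹ * x)⁻¹ = x * r * x⁻¹ := by
    intro r hr
    have h1 : x * r * x⁻¹ ∈ R := (Subgroup.mem_normalizer_iff.1 hxn r).1 hr
    have h2 := Subgroup.mem_centralizer_iff.1 hcc _ h1
    have e : (cc⁻¹ * x) * r * (cc⁻¹ * x)⁻¹ = cc⁻¹ * ((x * r * x⁻¹) * cc) := by group
    rw [e, h2, inv_mul_cancel_left]
  have hxpow : x ^ (p ^ a) ∈ Subgroup.centralizer (R : Set G) := by
    rw [Subgroup.mem_centralizer_iff]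
    intro r hr
    have h1 := conj_pow_eq hxn hxy (p ^ a) r hr
    have h2 := Subgroup.mem_centralizer_iff.1 hcen' r hr
    rw [← h2, mul_inv_cancel_right] at h1
    have h3 : x ^ (p ^ a) * r * (x ^ (p ^ a))⁻¹ * x ^ (p ^ a) = r * x ^ (p ^ a) := by rw [← h1]
    rw [← h3]; group
  obtain ⟨m, hm⟩ := exists_pow_eq_self_of_coprime
    (Nat.Coprime.pow_left a ((Nat.Prime.coprime_iff_not_dvd hp).2 hreg))
  rw [← hm]
  exact Subgroup.pow_mem _ hxpow m

/-- the key step: at a subgroup of `N`. -/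
theorem mem_centralizer_upS (hM : IsPModular p M) {k : ℕ} (hN : N.index = p ^ k)
    {c : Set (IrrCharacter N)} (hc : IsPBlock M c) {B : Set (IrrCharacter G)} (hB : IsPBlock M B)
    (hBc : blockCoeff B = ext N (blockCoeff c)) (hnil : IsNilpotentBlock p M c)
    {Z : Subgroup N}
    {f : Set (IrrCharacter (Subgroup.centralizer ((upS Z : Subgroup G) : Set G)))}
    (hpair : IsBrauerPairOf p M B (upS Z) f) {x : G} (hxZ : x ∈ pstab (upS Z) f)
    (hreg : IsPRegular p x) : x ∈ Subgroup.centralizer ((upS Z : Subgroup G) : Set G) := by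
  classical
  have hPr := IsPModular.isPrime hM
  rw [isNilpotentBlock_iff hM] at hnil
  have hf : IsPBlock M f := hpair.1.2
  have hxn : x ∈ Subgroup.normalizer ((upS Z : Subgroup G) : Set G) := pstab_le _ _ hxZ
  -- a covered block
  obtain ⟨X, hX, f₀, hf₀, h₀⟩ := exists_cov_block hM
    (inf_le_left : Subgroup.centralizer ((upS Z : Subgroup G) : Set G) ⊓ N ≤ _)
    hf (supp_inf hM hN _ f hf)
  have hf₁ : IsPBlock M (mapBlk (cenInf Z).symm f₀) := isPBlock_mapBlk _ hf₀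
  have e₁ : mapBlk (cenInf Z) (mapBlk (cenInf Z).symm f₀) = f₀ :=
    mapBlk_symm_mapBlk (cenInf Z).symm _
  have hpair₁ := (pairOf_iff hM hN hc hB hBc hf hX hf₁ (by rw [e₁]; exact h₀)).1 hpair
  -- `x` moves the covered block to a conjugate under the centralizer
  have hxC := normalizer_le_normalizer_centralizer _ hxn
  have hxK := le_normalizer_inf (N := N) _ hxC
  have hK := Subgroup.mem_normalizer_iff.1 hxK
  have hXx : mapBlk (cjEquiv x _ _ hK) X = X := by
    apply blockCoeff_injective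
    apply ext_injective
    rw [ext_blockCoeff_mapBlk, hX]
    exact (mem_stabFun.1 hxZ).2
  have h₀x : mapBlk (cjEquiv x _ _ hK) f₀ ⊆ X := by
    rw [← hXx]
    exact Set.image_mono h₀
  obtain ⟨cc, hcc, hconj⟩ := exists_conj_of_cov hPr inf_le_left
    ((Subgroup.le_normalizer).trans (le_normalizer_inf (N := N) _)) hf (supp_inf hM hN _ f hf) hX
    hf₀ (isPBlock_mapBlk (cjEquiv x _ _ hK) hf₀) h₀ h₀x
  rw [ext_blockCoeff_mapBlk] at hconj
  -- the element `y = cc⁻¹ x`
  have hccn := centralizer_le_normalizer' _ hcc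
  have hy : cc⁻¹ * x ∈ stabFun (Subgroup.normalizer ((upS Z : Subgroup G) : Set G))
      (ext (Subgroup.centralizer ((upS Z : Subgroup G) : Set G) ⊓ N : Subgroup G)
        (blockCoeff f₀)) := by
    rw [mem_stabFun]
    refine ⟨Subgroup.mul_mem _ (Subgroup.inv_mem _ hccn) hxn, ?_⟩
    rw [cjf_mul, ← hconj, cjf_inv_cjf]
  have hy' := Subgroup.pow_mem _ hy (p ^ ((orderOf (cc⁻¹ * x)).factorization p))
  have hreg' : IsPRegular p ((cc⁻¹ * x) ^ (p ^ ((orderOf (cc⁻¹ * x)).factorization p))) :=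
    isPRegular_pow _
  have hyN := mem_of_regular hN hreg'
  have hy2 := mem_stabFun.1 hy'
  have hmem : (⟨(cc⁻¹ * x) ^ (p ^ ((orderOf (cc⁻¹ * x)).factorization p)), hyN⟩ : N) ∈
      pstab Z (mapBlk (cenInf Z).symm f₀) := by
    rw [mem_stabFun]
    refine ⟨coe_mem_normalizer_upS.1 hy2.1, ?_⟩
    apply ext_injective (K := N)
    rw [← cjf_ext, ← ext_cenInf, e₁]
    exact hy2.2
  have hcen := hnil.2 ⟨Z, mapBlk (cenInf Z).symm f₀⟩ hpair₁ _ hmem (by
      unfold IsPRegular at hreg' ⊢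
      rwa [← Subgroup.orderOf_coe] )
  exact mem_centralizer_of_pow hreg hxn hcc (coe_mem_centralizer_upS.2 hcen)

/-- nilpotency goes up. -/
theorem nil_up (hM : IsPModular p M) {k : ℕ} (hN : N.index = p ^ k)
    {c : Set (IrrCharacter N)} (hc : IsPBlock M c) {B : Set (IrrCharacter G)} (hB : IsPBlock M B)
    (hBc : blockCoeff B = ext N (blockCoeff c)) (hnil : IsNilpotentBlock p M c) :
    IsNilpotentBlock p M B := by
  classical
  have hPr := IsPModular.isPrime hM
  rw [isNilpotentBlock_iff hM]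
  refine ⟨hB, ?_⟩
  rintro ⟨Q, f'⟩ ha x hx hreg
  have hxN : x ∈ N := mem_of_regular hN hreg
  have hxQ : x ∈ Subgroup.normalizer (Q : Set G) := pstab_le _ _ hx
  have hmemZ : ∀ g : G, g ∈ upS (Q.subgroupOf N) ↔ g ∈ Q ∧ g ∈ N := by
    intro g
    rw [mem_upS]
    constructor
    · rintro ⟨h1, h2⟩; exact ⟨h2, h1⟩
    · rintro ⟨h1, h2⟩; exact ⟨h2, h1⟩
  have hnorm : ∀ y : G, y ∈ Subgroup.normalizer (Q : Set G) →
      y ∈ Subgroup.normalizer ((upS (Q.subgroupOf N) : Subgroup G) : Set G) := by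
    intro y hy
    rw [Subgroup.mem_normalizer_iff] at hy ⊢
    intro g
    rw [hmemZ, hmemZ, ← hy g]
    have : g ∈ N ↔ y * g * y⁻¹ ∈ N := by
      constructor
      · intro h; exact Subgroup.Normal.conj_mem inferInstance g h y
      · intro h
        have := Subgroup.Normal.conj_mem (inferInstance : N.Normal) _ h y⁻¹
        simpa [mul_assoc] using this
    rw [this]
  have hZQ : upS (Q.subgroupOf N) ≤ Q := fun g hg => ((hmemZ g).1 hg).1
  have hQn : Q ≤ Subgroup.normalizer ((upS (Q.subgroupOf N) : Subgroup G) : Set G) :=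
    fun y hy => hnorm y (Subgroup.le_normalizer hy)
  obtain ⟨f, hfn⟩ := exists_normalSubpair hM ha.1 hZQ hQn
  have hpair : IsBrauerPairOf p M B (upS (Q.subgroupOf N)) f :=
    (isBrauerPairOf_iff_of_normalSubpair hM hfn hB).1 ha
  have hxn := hnorm x hxQ
  have hxZ : x ∈ pstab (upS (Q.subgroupOf N)) f := by
    rw [mem_pstab_iff]
    have h1 : PLE p M ⟨upS (Q.subgroupOf N), f⟩ ⟨Q, f'⟩ :=
      Relation.ReflTransGen.single (show NormalSubpairRel p M ⟨_, f⟩ ⟨Q, f'⟩ from hfn)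
    have h2 := ple_cj hPr h1 x
    rw [mem_pstab_iff.1 hx] at h2
    apply eq_of_ple_of_fst_eq hM ha.1 h2 h1
    rw [cjPair_fst]
    exact (cj_eq_self_iff).2 hxn
  exact mem_centralizer_of_inf ha.1.1 hreg hxN hxQ hmemZ
    (mem_centralizer_upS hM hN hc hB hBc hnil hpair hxZ hreg)

end PIndex

end Cfsg.Agent.Lib.Helper80PNil
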