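import Mathlib

set_option autoImplicit false

/-! Normal chains of `p`-subgroups and the Knörr–Robinson cancellation: for a nontrivial
`p`-element `x`, an involution on the normal chains normalized by `x` which changes the length
by one and preserves the stabilizer in `C_G(x)`. -/

namespace Cfsg.Agent.Lib.Helper81Chain

open Subgroup

variable {G : Type*} [Group G]

section normalizing

theorem le_normalizer_of_conj_mem {Z K : Subgroup G} (h : ∀ g ∈ Z, ∀ k ∈ K, g * k * g⁻¹ ∈ K) :
    Z ≤ normalizer (K : Set G) := by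
  intro g hg
  rw [mem_normalizer_iff]
  intro k
  refine ⟨h g hg k, fun hk => ?_⟩
  have := h g⁻¹ (Z.inv_mem hg) _ hk
  simpa [mul_assoc] using this

theorem conj_mem_of_le_normalizer {Z K : Subgroup G} (h : Z ≤ normalizer (K : Set G)) {g k : G}
    (hg : g ∈ Z) (hk : k ∈ K) : g * k * g⁻¹ ∈ K :=
  (mem_normalizer_iff.1 (h hg) k).1 hk

theorem le_normalizer_sup {Z A B : Subgroup G} (hA : Z ≤ normalizer (A : Set G))
    (hB : Z ≤ normalizer (B : Set G)) : Z ≤ normalizer ((A ⊔ B : Subgroup G) : Set G) := by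
  apply le_normalizer_of_conj_mem
  intro g hg k hk
  have : A ⊔ B ≤ (A ⊔ B).comap (MulAut.conj g).toMonoidHom := by
    apply sup_le
    · intro a ha
      exact (le_sup_left : A ≤ A ⊔ B) (conj_mem_of_le_normalizer hA hg ha)
    · intro b hb
      exact (le_sup_right : B ≤ A ⊔ B) (conj_mem_of_le_normalizer hB hg hb)
  exact this hk

theorem le_normalizer_closure {Z : Subgroup G} {S : Set G}
    (h : ∀ g ∈ Z, ∀ z ∈ S, g * z * g⁻¹ ∈ closure S) :
    Z ≤ normalizer ((closure S : Subgroup G) : Set G) := by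
  apply le_normalizer_of_conj_mem
  intro g hg k hk
  have : closure S ≤ (closure S).comap (MulAut.conj g).toMonoidHom := by
    rw [closure_le]
    intro z hz
    exact h g hg z hz
  exact this hk

theorem le_normalizer_bot (Z : Subgroup G) : Z ≤ normalizer ((⊥ : Subgroup G) : Set G) := by
  apply le_normalizer_of_conj_mem
  intro g _ k hk
  rw [mem_bot] at hk ⊢
  rw [hk]; simp

end normalizing

/-- the subgroup generated by the `Y`-conjugates of `x`. -/
def ncl (x : G) (Y : Subgroup G) : Subgroup G := closure {z | ∃ y ∈ Y, z = y * x * y⁻¹}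

theorem mem_ncl (x : G) (Y : Subgroup G) : x ∈ ncl x Y :=
  subset_closure ⟨1, Y.one_mem, by simp⟩

theorem ncl_le {x : G} {Y Q : Subgroup G} (hx : x ∈ Q) (hY : Y ≤ normalizer (Q : Set G)) :
    ncl x Y ≤ Q := by
  unfold ncl
  rw [closure_le]
  rintro z ⟨y, hy, rfl⟩
  exact conj_mem_of_le_normalizer hY hy hx

theorem le_normalizer_ncl {x : G} {Y Z : Subgroup G}
    (h : ∀ g ∈ Z, ∀ y ∈ Y, ∃ y' ∈ Y, g * (y * x * y⁻¹) * g⁻¹ = y' * x * y'⁻¹) :
    Z ≤ normalizer ((ncl x Y : Subgroup G) : Set G) := by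
  apply le_normalizer_closure
  rintro g hg z ⟨y, hy, rfl⟩
  obtain ⟨y', hy', e⟩ := h g hg y hy
  exact subset_closure ⟨y', hy', e⟩

theorem self_le_normalizer_ncl (x : G) (Y : Subgroup G) :
    Y ≤ normalizer ((ncl x Y : Subgroup G) : Set G) := by
  apply le_normalizer_ncl
  intro g hg y hy
  exact ⟨g * y, Y.mul_mem hg hy, by group⟩

/-- a `p`-group generated modulo a normal subgroup by the conjugates of one element is
generated modulo it by that element. -/
theorem sup_zpowers_eq [Finite G] {p : ℕ} [Fact p.Prime] {x : G} {Y A : Subgroup G}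
    (hY : IsPGroup p Y) (hAY : A ≤ Y) (hx : x ∈ Y) (h : A ⊔ ncl x Y = Y) :
    A ⊔ zpowers x = Y := by
  have hle : A ⊔ zpowers x ≤ Y := sup_le hAY (zpowers_le.2 hx)
  by_contra hne
  have hne' : (A ⊔ zpowers x).subgroupOf Y ≠ ⊤ := by
    intro htop
    apply hne
    apply le_antisymm hle
    rwa [subgroupOf_eq_top] at htop
  rcases eq_top_or_exists_le_coatom ((A ⊔ zpowers x).subgroupOf Y) with h1 | ⟨m, hm, hHm⟩
  · exact hne' h1
  · have hnil : Group.IsNilpotent Y := hY.isNilpotent
    have hmn : m.Normal := (Group.normalizerCondition_of_isNilpotent).normal_of_coatom m hm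
    apply hm.1
    rw [eq_top_iff]
    intro y _
    have h2 : A ⊔ ncl x Y ≤ m.map Y.subtype := by
      apply sup_le
      · intro a ha
        exact ⟨⟨a, hAY ha⟩, hHm (mem_subgroupOf.2 ((le_sup_left : A ≤ A ⊔ zpowers x) ha)), rfl⟩
      · unfold ncl
        rw [closure_le]
        rintro z ⟨t, ht, rfl⟩
        have hxm : (⟨x, hx⟩ : Y) ∈ m :=
          hHm (mem_subgroupOf.2 ((le_sup_right : zpowers x ≤ A ⊔ zpowers x) (mem_zpowers x)))
        exact ⟨⟨t, ht⟩ * ⟨x, hx⟩ * ⟨t, ht⟩⁻¹, hmn.conj_mem _ hxm _, rfl⟩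
    rw [h] at h2
    obtain ⟨y', hy', e⟩ := h2 y.2
    have : y' = y := Subtype.ext e
    rwa [← this]

/-- normal chains of nontrivial `p`-subgroups (the empty chain included). -/
def NC (p : ℕ) (s : Finset (Subgroup G)) : Prop :=
  (∀ Q ∈ s, ∀ R ∈ s, Q ≤ R ∨ R ≤ Q) ∧ (∀ Q ∈ s, Q ≠ ⊥ ∧ IsPGroup p Q) ∧
    ∀ Q ∈ s, ∀ R ∈ s, R ≤ normalizer (Q : Set G)

/-- the stabilizer of a chain. -/
def stab (s : Finset (Subgroup G)) : Subgroup G :=
  ⨅ Q ∈ s, normalizer ((Q : Subgroup G) : Set G)

theorem mem_stab {s : Finset (Subgroup G)} {g : G} :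
    g ∈ stab s ↔ ∀ Q ∈ s, g ∈ normalizer ((Q : Subgroup G) : Set G) := by
  simp [stab, mem_iInf]

theorem stab_empty : stab (∅ : Finset (Subgroup G)) = ⊤ := by
  simp [stab]

theorem sup_mem_of_chain {t : Finset (Subgroup G)} (hc : ∀ Q ∈ t, ∀ R ∈ t, Q ≤ R ∨ R ≤ Q)
    (hne : t.Nonempty) : t.sup id ∈ t := by
  rw [← Finset.sup'_eq_sup hne]
  exact Finset.sup'_mem (↑t : Set (Subgroup G)) (fun a ha b hb => by
    rcases hc a ha b hb with h | h
    · rw [sup_eq_right.2 h]; exact hb
    · rw [sup_eq_left.2 h]; exact ha) t hne id (fun i hi => hi)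

/-- the description of chains used in the statement. -/
theorem chain_iff {p : ℕ} (s : Finset (Subgroup G)) :
    (s.Nonempty ∧ (∀ Q ∈ s, ∀ R ∈ s, Q ≤ R ∨ R ≤ Q) ∧ (∀ Q ∈ s, Q ≠ ⊥ ∧ IsPGroup p Q) ∧
      ∃ T ∈ s, ∀ Q ∈ s, Q ≤ T ∧ T ≤ normalizer ((Q : Subgroup G) : Set G))
      ↔ s.Nonempty ∧ NC p s := by
  constructor
  · rintro ⟨h1, h2, h3, T, _, hT⟩
    exact ⟨h1, h2, h3, fun Q hQ R hR => (hT R hR).1.trans (hT Q hQ).2⟩
  · rintro ⟨h1, h2, h3, h4⟩
    exact ⟨h1, h2, h3, s.sup id, sup_mem_of_chain h2 h1, fun Q hQ =>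
      ⟨Finset.le_sup (f := id) hQ, h4 Q hQ _ (sup_mem_of_chain h2 h1)⟩⟩

section toggle

open scoped Classical

/-- the largest member. -/
def top (s : Finset (Subgroup G)) : Subgroup G := s.sup id

/-- the largest member not containing `x`. -/
noncomputable def low (x : G) (s : Finset (Subgroup G)) : Subgroup G :=
  (s.filter (fun Q => x ∉ Q)).sup id

def YY (x : G) (s : Finset (Subgroup G)) : Subgroup G := top s ⊔ zpowers x

noncomputable def RR (x : G) (s : Finset (Subgroup G)) : Subgroup G := low x s ⊔ ncl x (YY x s)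

noncomputable def tog (x : G) (s : Finset (Subgroup G)) : Finset (Subgroup G) :=
  if RR x s ∈ s then s.erase (RR x s) else insert (RR x s) s

variable {p : ℕ} {x : G} {s : Finset (Subgroup G)}

theorem top_mem_or (hs : NC p s) : top s = ⊥ ∨ top s ∈ s := by
  rcases s.eq_empty_or_nonempty with h | h
  · left; rw [h]; rfl
  · right; exact sup_mem_of_chain hs.1 h

theorem le_top {Q : Subgroup G} (hQ : Q ∈ s) : Q ≤ top s := Finset.le_sup (f := id) hQ

theorem low_mem_or (hs : NC p s) : low x s = ⊥ ∨ (low x s ∈ s ∧ x ∉ low x s) := by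
  rcases (s.filter (fun Q => x ∉ Q)).eq_empty_or_nonempty with h | h
  · left; unfold low; rw [h]; rfl
  · right
    have := sup_mem_of_chain (t := s.filter (fun Q => x ∉ Q)) (fun Q hQ R hR =>
      hs.1 Q (Finset.mem_filter.1 hQ).1 R (Finset.mem_filter.1 hR).1) h
    exact Finset.mem_filter.1 this

theorem not_mem_low (hs : NC p s) (hx1 : x ≠ 1) : x ∉ low x s := by
  rcases low_mem_or (x := x) hs with h | h
  · rw [h, mem_bot]; exact hx1
  · exact h.2

theorem le_low {Q : Subgroup G} (hQ : Q ∈ s) (hxQ : x ∉ Q) : Q ≤ low x s :=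
  Finset.le_sup (f := id) (Finset.mem_filter.2 ⟨hQ, hxQ⟩)

theorem low_le_top : low x s ≤ top s := Finset.sup_mono (Finset.filter_subset _ _)

theorem x_mem_YY : x ∈ YY x s := (le_sup_right : zpowers x ≤ YY x s) (mem_zpowers x)

/-- any subgroup normalizing all members normalizes `top`. -/
theorem le_normalizer_top (hs : NC p s) {Z : Subgroup G} (hZ : Z ≤ stab s) :
    Z ≤ normalizer ((top s : Subgroup G) : Set G) := by
  rcases top_mem_or hs with h | h
  · rw [h]; exact le_normalizer_bot Z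
  · exact fun g hg => mem_stab.1 (hZ hg) _ h

theorem le_normalizer_low (hs : NC p s) {Z : Subgroup G} (hZ : Z ≤ stab s) :
    Z ≤ normalizer ((low x s : Subgroup G) : Set G) := by
  rcases low_mem_or (x := x) hs with h | h
  · rw [h]; exact le_normalizer_bot Z
  · exact fun g hg => mem_stab.1 (hZ hg) _ h.1

theorem YY_le_stab (hs : NC p s) (hx : x ∈ stab s) : YY x s ≤ stab s := by
  apply sup_le
  · rcases top_mem_or hs with h | h
    · rw [h]; exact bot_le
    · intro g hg
      rw [mem_stab]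
      intro Q hQ
      exact hs.2.2 Q hQ _ h hg
  · exact zpowers_le.2 hx

theorem isPGroup_top (hs : NC p s) : IsPGroup p (top s) := by
  rcases top_mem_or hs with h | h
  · rw [h]; exact IsPGroup.of_bot
  · exact (hs.2.1 _ h).2

theorem isPGroup_YY (hs : NC p s) (hx : x ∈ stab s) (hxp : IsPGroup p (zpowers x)) :
    IsPGroup p (YY x s) :=
  IsPGroup.to_sup_of_normal_left' (isPGroup_top hs) hxp
    (le_normalizer_top hs (zpowers_le.2 hx))

theorem RR_le_YY : RR x s ≤ YY x s :=
  sup_le (low_le_top.trans le_sup_left) (ncl_le x_mem_YY le_normalizer)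

theorem x_mem_RR : x ∈ RR x s := (le_sup_right : ncl x (YY x s) ≤ RR x s) (mem_ncl _ _)

theorem YY_le_normalizer_RR (hs : NC p s) (hx : x ∈ stab s) :
    YY x s ≤ normalizer ((RR x s : Subgroup G) : Set G) :=
  le_normalizer_sup (le_normalizer_low hs (YY_le_stab hs hx)) (self_le_normalizer_ncl _ _)

theorem le_RR {Q : Subgroup G} (hQ : Q ∈ s) (hxQ : x ∉ Q) : Q ≤ RR x s :=
  (le_low hQ hxQ).trans le_sup_left

theorem RR_le (hs : NC p s) (hx : x ∈ stab s) {Q : Subgroup G} (hQ : Q ∈ s)
    (hxQ : x ∈ Q) : RR x s ≤ Q := by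
  apply sup_le
  · rcases low_mem_or (x := x) hs with h | h
    · rw [h]; exact bot_le
    · rcases hs.1 _ h.1 Q hQ with h' | h'
      · exact h'
      · exact absurd (h' hxQ) h.2
  · exact ncl_le hxQ (fun g hg => mem_stab.1 (YY_le_stab hs hx hg) Q hQ)

theorem NC_insert (hs : NC p s) (hx : x ∈ stab s) (hx1 : x ≠ 1) (hxp : IsPGroup p (zpowers x)) :
    NC p (insert (RR x s) s) := by
  have hcmp : ∀ Q ∈ s, Q ≤ RR x s ∨ RR x s ≤ Q := by
    intro Q hQ
    by_cases hxQ : x ∈ Q
    · exact Or.inr (RR_le hs hx hQ hxQ)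
    · exact Or.inl (le_RR hQ hxQ)
  have hQY : ∀ Q ∈ s, Q ≤ YY x s := fun Q hQ => (le_top hQ).trans le_sup_left
  refine ⟨?_, ?_, ?_⟩
  · intro Q hQ R hR
    rcases Finset.mem_insert.1 hQ with rfl | hQ
    · rcases Finset.mem_insert.1 hR with rfl | hR
      · exact Or.inl le_rfl
      · exact (hcmp R hR).symm
    · rcases Finset.mem_insert.1 hR with rfl | hR
      · exact hcmp Q hQ
      · exact hs.1 Q hQ R hR
  · intro Q hQ
    rcases Finset.mem_insert.1 hQ with rfl | hQ
    · refine ⟨?_, (isPGroup_YY hs hx hxp).to_le RR_le_YY⟩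
      intro h
      apply hx1
      have := x_mem_RR (x := x) (s := s)
      rwa [h, mem_bot] at this
    · exact hs.2.1 Q hQ
  · intro Q hQ R hR
    rcases Finset.mem_insert.1 hQ with rfl | hQ
    · rcases Finset.mem_insert.1 hR with rfl | hR
      · exact le_normalizer
      · exact (hQY R hR).trans (YY_le_normalizer_RR hs hx)
    · rcases Finset.mem_insert.1 hR with rfl | hR
      · exact RR_le_YY.trans (fun g hg => mem_stab.1 (YY_le_stab hs hx hg) Q hQ)
      · exact hs.2.2 Q hQ R hR

theorem NC_erase (hs : NC p s) (R : Subgroup G) : NC p (s.erase R) :=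
  ⟨fun Q hQ R' hR' => hs.1 Q (Finset.mem_of_mem_erase hQ) R' (Finset.mem_of_mem_erase hR'),
    fun Q hQ => hs.2.1 Q (Finset.mem_of_mem_erase hQ),
    fun Q hQ R' hR' => hs.2.2 Q (Finset.mem_of_mem_erase hQ) R' (Finset.mem_of_mem_erase hR')⟩

theorem NC_tog (hs : NC p s) (hx : x ∈ stab s) (hx1 : x ≠ 1) (hxp : IsPGroup p (zpowers x)) :
    NC p (tog x s) := by
  unfold tog
  split_ifs
  · exact NC_erase hs _
  · exact NC_insert hs hx hx1 hxp

/-- elements of `C_G(x)` stabilizing the chain normalize `RR`. -/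
theorem inf_le_normalizer_RR (hs : NC p s) :
    centralizer ({x} : Set G) ⊓ stab s ≤ normalizer ((RR x s : Subgroup G) : Set G) := by
  have hZ : centralizer ({x} : Set G) ⊓ stab s ≤ stab s := inf_le_right
  have hYn : centralizer ({x} : Set G) ⊓ stab s ≤ normalizer ((YY x s : Subgroup G) : Set G) := by
    apply le_normalizer_sup (le_normalizer_top hs hZ)
    apply le_normalizer_of_conj_mem
    intro g hg k hk
    have hgx : g * x = x * g := (mem_centralizer_singleton_iff.1 hg.1)
    obtain ⟨n, rfl⟩ := mem_zpowers_iff.1 hk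
    have : g * x ^ n * g⁻¹ = x ^ n := by
      have hc : Commute g x := hgx
      rw [(hc.zpow_right n).eq, mul_inv_cancel_right]
    rw [this]
    exact zpow_mem (mem_zpowers x) n
  apply le_normalizer_sup (le_normalizer_low hs hZ)
  apply le_normalizer_ncl
  intro g hg y hy
  refine ⟨g * y * g⁻¹, conj_mem_of_le_normalizer hYn hg hy, ?_⟩
  have hgx : g * x = x * g := (mem_centralizer_singleton_iff.1 hg.1)
  have e : g * x * g⁻¹ = x := by rw [hgx, mul_inv_cancel_right]
  calc g * (y * x * y⁻¹) * g⁻¹ = (g * y * g⁻¹) * (g * x * g⁻¹) * (g * y * g⁻¹)⁻¹ := by group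
    _ = _ := by rw [e]

theorem stab_insert (R : Subgroup G) (s : Finset (Subgroup G)) :
    stab (insert R s) = normalizer ((R : Subgroup G) : Set G) ⊓ stab s := by
  ext g
  rw [mem_inf, mem_stab, mem_stab]
  simp [Finset.mem_insert]

theorem inf_stab_insert (hs : NC p s) :
    centralizer ({x} : Set G) ⊓ stab (insert (RR x s) s) = centralizer ({x} : Set G) ⊓ stab s := by
  rw [stab_insert]
  apply le_antisymm
  · exact inf_le_inf_left _ inf_le_right
  · exact le_inf inf_le_left (le_inf (inf_le_normalizer_RR hs) inf_le_right)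

theorem low_insert : low x (insert (RR x s) s) = low x s := by
  unfold low
  rw [Finset.filter_insert, if_neg (not_not.2 x_mem_RR)]

theorem low_erase : low x (s.erase (RR x s)) = low x s := by
  unfold low
  congr 1
  ext Q
  simp only [Finset.mem_filter, Finset.mem_erase]
  constructor
  · rintro ⟨⟨_, h1⟩, h2⟩; exact ⟨h1, h2⟩
  · rintro ⟨h1, h2⟩
    refine ⟨⟨?_, h1⟩, h2⟩
    rintro rfl
    exact h2 x_mem_RR

theorem YY_insert : YY x (insert (RR x s) s) = YY x s := by
  unfold YY top
  rw [Finset.sup_insert, id, sup_assoc]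
  exact sup_eq_right.2 RR_le_YY

theorem YY_erase [Finite G] [Fact p.Prime] (hs : NC p s) (hx : x ∈ stab s) (hx1 : x ≠ 1)
    (hR : RR x s ∈ s) : YY x (s.erase (RR x s)) = YY x s := by
  by_cases hRt : RR x s = top s
  · -- the top is removed
    have hxt : x ∈ top s := hRt ▸ x_mem_RR
    have hY : YY x s = top s := sup_eq_left.2 (zpowers_le.2 hxt)
    have he : s.erase (RR x s) = s.filter (fun Q => x ∉ Q) := by
      ext Q
      simp only [Finset.mem_filter, Finset.mem_erase]
      constructor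
      · rintro ⟨h1, h2⟩
        refine ⟨h2, fun hxQ => h1 ?_⟩
        exact le_antisymm ((le_top h2).trans hRt.ge) (RR_le hs hx h2 hxQ)
      · rintro ⟨h1, h2⟩
        refine ⟨?_, h1⟩
        rintro rfl
        exact h2 x_mem_RR
    have ht : top (s.erase (RR x s)) = low x s := by
      unfold top low
      rw [he]
    have h1 : low x s ⊔ ncl x (top s) = top s := by
      have : RR x s = low x s ⊔ ncl x (top s) := by
        unfold RR
        rw [hY]
      rw [← this, hRt]
    have h2 := sup_zpowers_eq (p := p) (isPGroup_top hs) low_le_top hxt h1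
    unfold YY at hY ⊢
    rw [ht, h2, hY]
  · have ht : top (s.erase (RR x s)) = top s := by
      apply le_antisymm (Finset.sup_mono (Finset.erase_subset _ _))
      show top s ≤ top (s.erase (RR x s))
      rcases top_mem_or hs with h | h
      · rw [h]; exact bot_le
      · exact le_top (Finset.mem_erase.2 ⟨fun e => hRt e.symm, h⟩)
    unfold YY
    rw [ht]

theorem RR_tog [Finite G] [Fact p.Prime] (hs : NC p s) (hx : x ∈ stab s) (hx1 : x ≠ 1) :
    RR x (tog x s) = RR x s := by
  unfold tog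
  split_ifs with h
  · show low x (s.erase (RR x s)) ⊔ ncl x (YY x (s.erase (RR x s))) = RR x s
    rw [low_erase, YY_erase hs hx hx1 h]
    rfl
  · show low x (insert (RR x s) s) ⊔ ncl x (YY x (insert (RR x s) s)) = RR x s
    rw [low_insert, YY_insert]
    rfl

theorem tog_tog [Finite G] [Fact p.Prime] (hs : NC p s) (hx : x ∈ stab s) (hx1 : x ≠ 1) :
    tog x (tog x s) = s := by
  have h := RR_tog hs hx hx1
  have e0 : tog x (tog x s) = if RR x (tog x s) ∈ tog x s then (tog x s).erase (RR x (tog x s))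
      else insert (RR x (tog x s)) (tog x s) := rfl
  by_cases hR : RR x s ∈ s
  · have e : tog x s = s.erase (RR x s) := by unfold tog; rw [if_pos hR]
    rw [e0, h, e, if_neg (Finset.notMem_erase _ _), Finset.insert_erase hR]
  · have e : tog x s = insert (RR x s) s := by unfold tog; rw [if_neg hR]
    rw [e0, h, e, if_pos (Finset.mem_insert_self _ _), Finset.erase_insert hR]

theorem inf_stab_tog [Finite G] [Fact p.Prime] (hs : NC p s) (hx : x ∈ stab s) (hx1 : x ≠ 1) :
    centralizer ({x} : Set G) ⊓ stab (tog x s) = centralizer ({x} : Set G) ⊓ stab s := by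
  by_cases hR : RR x s ∈ s
  · have e : tog x s = s.erase (RR x s) := by unfold tog; rw [if_pos hR]
    have h := RR_tog hs hx hx1
    have h2 := inf_stab_insert (x := x) (NC_erase hs (RR x s))
    rw [e] at h ⊢
    rw [h, Finset.insert_erase hR] at h2
    exact h2.symm
  · have e : tog x s = insert (RR x s) s := by unfold tog; rw [if_neg hR]
    rw [e]
    exact inf_stab_insert hs

theorem neg_one_pow_card_tog (x : G) (s : Finset (Subgroup G)) :
    (-1 : ℤ) ^ (tog x s).card = - (-1 : ℤ) ^ s.card := by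
  unfold tog
  split_ifs with h
  · have h1 := Finset.card_erase_add_one h
    rw [← h1, pow_succ]
    ring
  · rw [Finset.card_insert_of_notMem h, pow_succ]
    ring

theorem tog_ne (x : G) (s : Finset (Subgroup G)) : tog x s ≠ s := by
  intro h
  have := neg_one_pow_card_tog x s
  rw [h] at this
  have h2 : (-1 : ℤ) ^ s.card ≠ 0 := pow_ne_zero _ (by norm_num)
  omega

end toggle

end Cfsg.Agent.Lib.Helper81Chain
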