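import Mathlib
import Cfsg.Prelude.Def_Blocks
import Cfsg.Agent.Lib.Helper81Columns
import Cfsg.Agent.Lib.Helper81DefOne2

set_option autoImplicit false

namespace Cfsg.Agent.Lib.Helper81Columns2

open Cfsg
open Cfsg.Agent.Lib.Helper81Local Cfsg.Agent.Lib.Helper81Base Cfsg.Agent.Lib.Helper81BB
  Cfsg.Agent.Lib.Helper81Block Cfsg.Agent.Lib.Helper81Orth
  Cfsg.Agent.Lib.Helper81Orth2 Cfsg.Agent.Lib.Helper81Subsec Cfsg.Agent.Lib.Helper81Subsec2
  Cfsg.Agent.Lib.Helper81Columns Cfsg.Agent.Lib.Helper81DefOne2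
open scoped ComplexConjugate

variable {G : Type*} [Group G] [Fintype G] {p : ℕ} {M : Ideal AlgInt}

omit [Fintype G] in
theorem card_conj_fiber (N : Subgroup G) [Fintype N] [DecidableEq G] (y : G) (n : N) :
    ∑ x : N, (if (x : G) * y * (x : G)⁻¹ = (n : G) * y * (n : G)⁻¹ then (1 : ℂ) else 0)
      = (Nat.card ↥(N ⊓ Subgroup.centralizer ({y} : Set G)) : ℂ) := by
  rw [Finset.sum_boole]
  congr 1
  rw [← Fintype.card_subtype, ← Nat.card_eq_fintype_card]
  apply Nat.card_congr
  refine ⟨fun x => ⟨(n : G)⁻¹ * (x : N), ⟨N.mul_mem (N.inv_mem n.2) x.1.2, ?_⟩⟩,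
    fun c => ⟨⟨(n : G) * (c : G), N.mul_mem n.2 c.2.1⟩, ?_⟩, ?_, ?_⟩
  · show (n : G)⁻¹ * (x : N) ∈ Subgroup.centralizer ({y} : Set G)
    rw [Subgroup.mem_centralizer_singleton_iff]
    have h := x.2
    calc (n : G)⁻¹ * (x : N) * y = (n : G)⁻¹ * ((x : N) * y * ((x : N) : G)⁻¹) * (x : N) := by group
      _ = (n : G)⁻¹ * ((n : G) * y * (n : G)⁻¹) * (x : N) := by rw [h]
      _ = y * ((n : G)⁻¹ * (x : N)) := by group
  · have h := Subgroup.mem_centralizer_singleton_iff.1 c.2.2
    show (n : G) * (c : G) * y * ((n : G) * (c : G))⁻¹ = (n : G) * y * (n : G)⁻¹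
    calc (n : G) * (c : G) * y * ((n : G) * (c : G))⁻¹
        = (n : G) * ((c : G) * y) * (c : G)⁻¹ * (n : G)⁻¹ := by group
      _ = (n : G) * (y * (c : G)) * (c : G)⁻¹ * (n : G)⁻¹ := by rw [h]
      _ = (n : G) * y * (n : G)⁻¹ := by group
  · intro x
    ext
    simp
  · intro c
    ext
    simp

/-- the norm of the column of a `p`-element in the principal block. -/
theorem delta_self_principal (hM : IsPModular p M) (y : G) (hy : ∃ k : ℕ, orderOf y = p ^ k)
    [DecidablePred (· ∈ principalBlock M G)]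
    [Fintype (Subgroup.centralizer ({y} : Set G))]
    [DecidablePred (· ∈ principalBlock M (Subgroup.centralizer ({y} : Set G)))] :
    delta (principalBlock M G) y y
      = ∑ ψ : IrrCharacter (Subgroup.centralizer ({y} : Set G)),
        (if ψ ∈ principalBlock M (Subgroup.centralizer ({y} : Set G)) then
          ((charDegree (ψ : Subgroup.centralizer ({y} : Set G) → ℂ) : ℕ) : ℂ) ^ 2 else 0) := by
  classical
  have := hM.2.1.isPrime
  have : Fact p.Prime := ⟨hM.1⟩
  have hone : ¬ p ∣ orderOf (1 : Subgroup.centralizer ({y} : Set G)) := by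
    rw [orderOf_one]; exact fun h => hM.1.one_lt.ne' (Nat.dvd_one.1 h)
  have h1 := subsection_orth hM (isPBlock_principalBlock (M := M) (G := G)) y hy 1 1 hone hone
  simp only [Subgroup.coe_one, mul_one] at h1
  unfold delta
  refine Eq.trans (Finset.sum_congr rfl fun χ _ => ?_) (h1.trans ?_)
  · congr
  · apply Finset.sum_congr rfl
    intro ψ _
    rw [overSet_principalBlock hM y hy]
    have hc : ∀ g : Subgroup.centralizer ({y} : Set G),
        g * ⟨y, Subgroup.mem_centralizer_singleton_iff.mpr rfl⟩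
          = ⟨y, Subgroup.mem_centralizer_singleton_iff.mpr rfl⟩ * g := by
      intro g
      ext
      exact (Subgroup.mem_centralizer_singleton_iff.1 g.2)
    have h2 := central_mul_conj ψ hc 1 1
    rw [mul_one] at h2
    by_cases hψ : ψ ∈ principalBlock M (Subgroup.centralizer ({y} : Set G))
    · rw [if_pos hψ, if_pos hψ, h2, charDegree_eq, ← charDegree_eq]
      simp [pow_two]
    · rw [if_neg hψ, if_neg hψ]

end Cfsg.Agent.Lib.Helper81Columns2
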