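import Mathlib
import Cfsg.Agent.Lib.Helper81CycGDefs
import Cfsg.Prelude.Def_BlockLocal

/-!
# Project 84 (CYC), part P: the perfect isometry between a block with cyclic defect group and its
correspondent in `H = N_G(Z)`, `Z` the subgroup of order `p` of the defect group.  Vocabulary.
-/

set_option autoImplicit false

namespace Cfsg.Agent.Lib.Helper81CycPDefs

open Cfsg Cfsg.Agent.Lib.Helper81Base

universe u

open Classical in
/-- the sign data of a block with cyclic defect group: `X` the non exceptional characters, `Y` the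
exceptional ones. -/
structure SD (p : ℕ) {K : Type u} [Group K] [Fintype K] (b X Y : Set (IrrCharacter K))
    (δ : IrrCharacter K → ℤ) (δ₀ : ℤ) (e : ℕ) : Prop where
  un : b = X ∪ Y
  dj : Disjoint X Y
  cX : Nat.card X = e
  rk : blockRank p b = e
  sX : ∀ χ ∈ X, δ χ = 1 ∨ δ χ = -1
  s0 : δ₀ = 1 ∨ δ₀ = -1
  rel : ∀ ψ ∈ Y, ∀ g : K, ¬ p ∣ orderOf g → (δ₀ : ℂ) * (ψ : K → ℂ) g
    + ∑ χ : IrrCharacter K, (if χ ∈ X then (δ χ : ℂ) * (χ : K → ℂ) g else 0) = 0

open Classical in
/-- `α_ψ = δ₀ ψ + Σ_{χ ∈ X} δ_χ χ`. -/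
noncomputable def alphaF {K : Type u} [Group K] [Fintype K] (X : Set (IrrCharacter K))
    (δ : IrrCharacter K → ℤ) (δ₀ : ℤ) (ψ : IrrCharacter K) : K → ℂ :=
  fun g => (δ₀ : ℂ) * (ψ : K → ℂ) g
    + ∑ χ : IrrCharacter K, (if χ ∈ X then (δ χ : ℂ) * (χ : K → ℂ) g else 0)

/-- `[χ_H, α]`. -/
noncomputable def DD {G : Type u} [Group G] {H : Subgroup G} [Fintype H] (α : H → ℂ)
    (χ : IrrCharacter G) : ℂ := classInner (fun h : H => (χ : G → ℂ) h) α

/-- the `p`-part of `y ∈ H` is not trivial and `H`-conjugate into `P`. -/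
def Good (p : ℕ) {G : Type u} [Group G] (P H : Subgroup G) (y : H) : Prop :=
  ∃ u x : H, IsPPart p y u ∧ u ≠ 1 ∧ ((x * u * x⁻¹ : H) : G) ∈ P

/-- the situation: `c` a block of `H` inducing `B`, common defect group `P`, `H` controls the fusion
of the non trivial elements of `P`. -/
structure PH {G : Type u} [Group G] (p : ℕ) (M : Ideal AlgInt) (P H : Subgroup G)
    (c : Set (IrrCharacter H)) (B : Set (IrrCharacter G)) : Prop where
  hM : IsPModular p M
  ind : IsInducedBlock M H c B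
  dB : IsDefectGroup p M B P
  dc : IsDefectGroup p M c (P.subgroupOf H)
  le : P ≤ H
  TI : ∀ d ∈ P, d ≠ 1 → ∀ g : G, g * d * g⁻¹ ∈ P → g ∈ H
  cen : ∀ d ∈ P, d ≠ 1 → Subgroup.centralizer ({d} : Set G) ≤ H

/-- a bijection with signs which is the identity on the good elements. -/
structure MT {G : Type u} [Group G] (p : ℕ) (M : Ideal AlgInt) (P H : Subgroup G)
    (c : Set (IrrCharacter H)) (B : Set (IrrCharacter G)) (I : IrrCharacter H → IrrCharacter G)
    (εs : IrrCharacter H → ℤ) : Prop where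
  ph : PH p M P H c B
  bij : Set.BijOn I c B
  sg : ∀ η ∈ c, εs η = 1 ∨ εs η = -1
  mt : ∀ η ∈ c, ∀ y : H, Good p P H y → (εs η : ℂ) * (I η : G → ℂ) (y : G) = (η : H → ℂ) y

open Classical in
/-- the kernel of the isometry as a sum over a fintype. -/
noncomputable def muF {G : Type u} [Group G] {H : Subgroup G} [Fintype H]
    (c : Set (IrrCharacter H)) (I : IrrCharacter H → IrrCharacter G) (εs : IrrCharacter H → ℤ)
    (x : G) (y : H) : ℂ :=
  ∑ η : IrrCharacter H, (if η ∈ c then (εs η : ℂ) * (I η : G → ℂ) x * (η : H → ℂ) y else 0)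

end Cfsg.Agent.Lib.Helper81CycPDefs
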