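import Mathlib
import Cfsg.Prelude.Def_Blocks
import Cfsg.Agent.Lib.Helper81Count
import Cfsg.Agent.Lib.Helper20Tower

set_option autoImplicit false

/-! Block theoretic input for the Knörr–Robinson alternating sum: the characters of a subgroup
lying in blocks inducing a given block `b` of `G`, and the local determination of their
second orthogonality sums at `p`-singular elements. -/

namespace Cfsg.Agent.Lib.Helper81KR

open Cfsg
open Cfsg.Agent.Lib.Helper81Local Cfsg.Agent.Lib.Helper81Base Cfsg.Agent.Lib.Helper81BB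
  Cfsg.Agent.Lib.Helper81Orth2 Cfsg.Agent.Lib.Helper81Subsec Cfsg.Agent.Lib.Helper81Second3
  Cfsg.Agent.Lib.Helper81Rank Cfsg.Agent.Lib.Helper81Count
  Cfsg.Agent.Lib.Helper20Induced Cfsg.Agent.Lib.Helper20Block Cfsg.Agent.Lib.Helper20Center
  Cfsg.Agent.Lib.Helper20Local Cfsg.Agent.Lib.Helper82Quot
open scoped ComplexConjugate

section tower

variable {G : Type*} [Group G] [Fintype G] {M : Ideal AlgInt}

theorem isInducedBlock_blockOf_iff (hM : M.IsPrime) {K : Subgroup G} [Fintype K]
    (ξ : IrrCharacter K) {B : Set (IrrCharacter G)} (hB : IsPBlock M B) :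
    IsInducedBlock M K (blockOf M (ξ : K → ℂ)) B ↔ ∀ χ ∈ B, ∀ a : G → ℂ, IsSC M a →
      MemLocalIdeal M (Cfsg.Agent.Lib.Helper20Center.om (ξ : K → ℂ) (res K a)
        - Cfsg.Agent.Lib.Helper20Center.om (χ : G → ℂ) a) := by
  constructor
  · intro h χ hχ a ha
    exact isInducedBlock_om K hM h (Cfsg.Agent.Lib.Helper81Block.self_mem_blockOf ξ) hχ ha
  · intro h
    refine ⟨Cfsg.Agent.Lib.Helper81Block.isPBlock_blockOf ξ, hB, fun ξ' hξ' χ hχ g => ?_⟩
    have ha := isSC_classInd (M := M) hM g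
    rw [inducedCentralChar_eq, ← om_classInd (Helper4Char.IsIrrCharacter.isClassFunction χ.2)]
    have h1 := sameBlock_om hM ξ.2 ξ'.2 hξ' (res_isSC K ha)
    have h2 := h χ hχ _ ha
    have h3 := liSub hM h2 h1
    convert h3 using 1
    ring

variable {H : Subgroup G} [Fintype H] {L : Subgroup H} [Fintype L] {K : Subgroup G} [Fintype K]

theorem om_tower (σ : L ≃* K) (hσ : ∀ l : L, ((σ l : K) : G) = ((l : H) : G))
    (ψ : IrrCharacter L) (a : G → ℂ) :
    Cfsg.Agent.Lib.Helper20Center.om ((irrCongr σ ψ : IrrCharacter K) : K → ℂ) (res K a)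
      = Cfsg.Agent.Lib.Helper20Center.om (ψ : L → ℂ) (res L (res H a)) := by
  rw [← Cfsg.Agent.Lib.Helper20Tower.om_irrCongr σ ψ (res L (res H a))]
  congr 1
  funext k
  have := hσ (σ.symm k)
  rw [MulEquiv.apply_symm_apply] at this
  simp only [res, Function.comp]
  rw [this]

/-- transitivity of block induction, both ways. -/
theorem tower_iff (hM : M.IsPrime) (σ : L ≃* K) (hσ : ∀ l : L, ((σ l : K) : G) = ((l : H) : G))
    (ψ : IrrCharacter L) {B₀ : Set (IrrCharacter H)}
    (h0 : IsInducedBlock M L (blockOf M (ψ : L → ℂ)) B₀) {b : Set (IrrCharacter G)}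
    (hb : IsPBlock M b) :
    IsInducedBlock M H B₀ b ↔
      IsInducedBlock M K (blockOf M ((irrCongr σ ψ : IrrCharacter K) : K → ℂ)) b := by
  have hself := Cfsg.Agent.Lib.Helper81Block.self_mem_blockOf (M := M) ψ
  constructor
  · intro h1
    rw [isInducedBlock_blockOf_iff hM _ hb]
    intro χ hχ a ha
    obtain ⟨φ, hφ⟩ := IsPBlock.nonempty hM h0.2.1
    rw [om_tower σ hσ]
    have A1 := isInducedBlock_om L hM h0 hself hφ (res_isSC H ha)
    have A2 := isInducedBlock_om H hM h1 hφ hχ ha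
    have := liAdd hM A1 A2
    rwa [sub_add_sub_cancel] at this
  · intro h2
    refine ⟨h0.2.1, hb, fun φ hφ χ hχ g => ?_⟩
    have ha := isSC_classInd (M := M) hM g
    rw [inducedCentralChar_eq, ← om_classInd (Helper4Char.IsIrrCharacter.isClassFunction χ.2)]
    have A1 := isInducedBlock_om L hM h0 hself hφ (res_isSC H ha)
    have A2 := (isInducedBlock_blockOf_iff hM _ hb).1 h2 χ hχ _ ha
    rw [om_tower σ hσ] at A2
    have := liSub hM A2 A1
    convert this using 1
    ring

end tower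

section main

variable {G : Type*} [Group G] [Fintype G] {p : ℕ} [Fact p.Prime] {M : Ideal AlgInt}

/-- the characters of `H` in blocks inducing `b`. -/
def UU (M : Ideal AlgInt) (b : Set (IrrCharacter G)) (H : Subgroup G) : Set (IrrCharacter H) :=
  {ψ | IsInducedBlock M H (blockOf M (ψ : H → ℂ)) b}

omit [Fintype G] in
theorem isBlockUnion_UU [M.IsPrime] (b : Set (IrrCharacter G)) (H : Subgroup G) :
    IsBlockUnion M (UU M b H) := by
  intro ψ ψ' hs hψ
  show IsInducedBlock M _ (blockOf M _) b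
  rw [← blockOf_eq_of_sameBlock hs]
  exact hψ

omit [Fintype G] in
theorem UU_eq [M.IsPrime] (b : Set (IrrCharacter G)) (H : Subgroup G) :
    {ψ : IrrCharacter H | ∃ β : Set (IrrCharacter H), ψ ∈ β ∧ IsInducedBlock M H β b}
      = UU M b H := by
  ext ψ
  constructor
  · rintro ⟨β, hψ, hβ⟩
    show IsInducedBlock M _ (blockOf M _) b
    rw [← Cfsg.Agent.Lib.Helper81Block.isPBlock_eq_blockOf hβ.1 hψ]
    exact hβ
  · intro h
    exact ⟨_, Cfsg.Agent.Lib.Helper81Block.self_mem_blockOf ψ, h⟩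

omit [Fintype G] in
theorem subset_UU_iff [M.IsPrime] {b : Set (IrrCharacter G)} {H : Subgroup G}
    {B₀ : Set (IrrCharacter H)} (hB₀ : IsPBlock M B₀) :
    B₀ ⊆ UU M b H ↔ IsInducedBlock M H B₀ b := by
  constructor
  · intro h
    obtain ⟨φ, hφ⟩ := Cfsg.Agent.Lib.Helper81Block.isPBlock_nonempty hB₀
    have := h hφ
    rw [Cfsg.Agent.Lib.Helper81Block.isPBlock_eq_blockOf hB₀ hφ]
    exact this
  · intro h φ hφ
    show IsInducedBlock M _ (blockOf M _) b
    rw [← Cfsg.Agent.Lib.Helper81Block.isPBlock_eq_blockOf hB₀ hφ]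
    exact h

open scoped Classical in
/-- the second orthogonality sum of `UU M b K` at `g`. -/
noncomputable def dl (M : Ideal AlgInt) (b : Set (IrrCharacter G)) (K : Subgroup G) (g : G) : ℂ :=
  ∑ ξ : IrrCharacter K, if ξ ∈ UU M b K then
    (if h : g ∈ K then (ξ : K → ℂ) ⟨g, h⟩ * conj ((ξ : K → ℂ) ⟨g, h⟩) else 0) else 0

open scoped Classical in
theorem dl_coe (b : Set (IrrCharacter G)) (K : Subgroup G) (k : K) :
    dl M b K (k : G) = ∑ ξ : IrrCharacter K, if ξ ∈ UU M b K then
      (ξ : K → ℂ) k * conj ((ξ : K → ℂ) k) else 0 := by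
  unfold dl
  apply Finset.sum_congr rfl
  intro ξ _
  rw [dif_pos k.2]

open scoped Classical in
/-- `|H| (k - l)` as a sum over the `p`-singular elements. -/
theorem claimA (hM : IsPModular p M) (b : Set (IrrCharacter G)) (H : Subgroup G) [Fintype H] :
    (Nat.card H : ℂ) * ((Nat.card (UU M b H) : ℂ) - (blockRank p (UU M b H) : ℂ))
      = ∑ h : H, if p ∣ orderOf h then dl M b H (h : G) else 0 := by
  have hMp := hM.2.1.isPrime
  have h0 : (Nat.card H : ℂ) ≠ 0 := Cfsg.Agent.Lib.Helper81Base.card_ne_zero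
  have h1 := card_eq_sum_delta (UU M b H)
  have h2 : (blockRank p (UU M b H) : ℂ) = (Nat.card H : ℂ)⁻¹ *
      ∑ g : H, (if ¬ p ∣ orderOf g then Cfsg.Agent.Lib.Helper81Orth2.delta (UU M b H) g g else 0) := by
    rw [blockRank_eq hM (isBlockUnion_UU b H)]
    unfold regInner Cfsg.Agent.Lib.Helper81Orth2.delta
    rw [Finset.mul_sum]
    have e1 : ∀ ψ : IrrCharacter H, (if ψ ∈ UU M b H then (Nat.card H : ℂ)⁻¹ *
        ∑ y : H, (if ¬ p ∣ orderOf y then (ψ : H → ℂ) y * conj ((ψ : H → ℂ) y) else 0) else 0)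
        = ∑ y : H, (if ψ ∈ UU M b H then (Nat.card H : ℂ)⁻¹ *
          (if ¬ p ∣ orderOf y then (ψ : H → ℂ) y * conj ((ψ : H → ℂ) y) else 0) else 0) := by
      intro ψ
      split_ifs
      · rw [Finset.mul_sum]
      · simp
    simp only [e1]
    rw [Finset.sum_comm]
    apply Finset.sum_congr rfl
    intro y _
    by_cases hy : p ∣ orderOf y
    · simp [hy]
    · simp only [hy, not_false_eq_true, if_true]
      rw [Finset.mul_sum]
      apply Finset.sum_congr rfl
      intro ψ _
      split_ifs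
      · rfl
      · simp
  rw [h1, h2, ← mul_sub, mul_inv_cancel_left₀ h0, ← Finset.sum_sub_distrib]
  apply Finset.sum_congr rfl
  intro g _
  rw [dl_coe]
  unfold Cfsg.Agent.Lib.Helper81Orth2.delta
  by_cases hg : p ∣ orderOf g
  · simp [hg]
  · simp [hg]

/-- the isomorphism between the centralizer in `H` and the intersection with the centralizer
in `G`. -/
def cenEquiv (H : Subgroup G) (x : H) :
    Subgroup.centralizer ({x} : Set H) ≃*
      (H ⊓ Subgroup.centralizer ({(x : G)} : Set G) : Subgroup G) where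
  toFun l := ⟨((l : H) : G), (l : H).2, Subgroup.mem_centralizer_singleton_iff.2
    (congrArg Subtype.val (Subgroup.mem_centralizer_singleton_iff.1 l.2))⟩
  invFun k := ⟨⟨(k : G), k.2.1⟩, Subgroup.mem_centralizer_singleton_iff.2
    (Subtype.ext (Subgroup.mem_centralizer_singleton_iff.1 k.2.2))⟩
  left_inv _ := rfl
  right_inv _ := rfl
  map_mul' _ _ := rfl

open scoped Classical in
/-- the sum at an element with `p`-part `x` is determined in the centralizer of `x`. -/
theorem claimB (hM : IsPModular p M) {b : Set (IrrCharacter G)} (hb : IsPBlock M b)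
    (H : Subgroup G) (x y : H) (hc : Commute x y) (hx : ∃ k : ℕ, orderOf x = p ^ k)
    (hy : ¬ p ∣ orderOf y) :
    dl M b H ((x * y : H) : G)
      = dl M b (H ⊓ Subgroup.centralizer ({(x : G)} : Set G)) ((x * y : H) : G) := by
  have hMp := hM.2.1.isPrime
  let _ : Fintype H := Fintype.ofFinite _
  let _ : Fintype (Subgroup.centralizer ({x} : Set H)) := Fintype.ofFinite _
  let _ : Fintype (H ⊓ Subgroup.centralizer ({(x : G)} : Set G) : Subgroup G) := Fintype.ofFinite _
  set σ := cenEquiv H x with hσdef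
  have hσ : ∀ l : Subgroup.centralizer ({x} : Set H), ((σ l : _) : G) = ((l : H) : G) :=
    fun _ => rfl
  set x' : Subgroup.centralizer ({x} : Set H) :=
    ⟨x, Subgroup.mem_centralizer_singleton_iff.mpr rfl⟩ with hx'
  set y' : Subgroup.centralizer ({x} : Set H) :=
    ⟨y, Subgroup.mem_centralizer_singleton_iff.mpr hc.symm.eq⟩ with hy'
  have hy'o : ¬ p ∣ orderOf y' := by
    rw [← Subgroup.orderOf_coe]; exact hy
  set F' : IrrCharacter (Subgroup.centralizer ({x} : Set H)) → ℂ := fun ψ =>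
    (ψ : Subgroup.centralizer ({x} : Set H) → ℂ) (x' * y') *
      conj ((ψ : Subgroup.centralizer ({x} : Set H) → ℂ) (x' * y')) with hF'
  -- the right hand side
  have hR : dl M b (H ⊓ Subgroup.centralizer ({(x : G)} : Set G)) ((x * y : H) : G)
      = ∑ ψ : IrrCharacter (Subgroup.centralizer ({x} : Set H)),
        if irrCongr σ ψ ∈ UU M b (H ⊓ Subgroup.centralizer ({(x : G)} : Set G)) then F' ψ
        else 0 := by
    have e : ((x * y : H) : G) = ((σ (x' * y') : _) : G) := rfl
    rw [e, dl_coe]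
    symm
    apply Fintype.sum_equiv (irrCongr σ)
    intro ψ
    rw [irrCongr_apply, MulEquiv.symm_apply_apply]
  rw [hR, dl_coe, sum_blocks (M := M)]
  have hper : ∀ B' ∈ blocks H M, (∑ χ : IrrCharacter H, if χ ∈ B' then
      (if χ ∈ UU M b H then (χ : H → ℂ) (x * y) * conj ((χ : H → ℂ) (x * y)) else 0) else 0)
      = ∑ ψ : IrrCharacter (Subgroup.centralizer ({x} : Set H)),
        if B' ⊆ UU M b H ∧ ψ ∈ overSet M x B' then F' ψ else 0 := by
    intro B' hB'
    rw [mem_blocks] at hB'
    by_cases hsub : B' ⊆ UU M b H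
    · have h1 := subsection_orth hM hB' x hx y' y' hy'o hy'o
      simp only [hsub, true_and]
      rw [← h1]
      apply Finset.sum_congr rfl
      intro χ _
      by_cases hχ : χ ∈ B'
      · rw [if_pos hχ, if_pos (hsub hχ), if_pos hχ]
      · rw [if_neg hχ, if_neg hχ]
    · simp only [hsub, false_and, if_false, Finset.sum_const_zero]
      apply Finset.sum_eq_zero
      intro χ _
      by_cases hχ : χ ∈ B'
      · rw [if_pos hχ, if_neg]
        intro hU
        apply hsub
        intro χ' hχ'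
        exact isBlockUnion_UU b H χ χ'
          (Cfsg.Agent.Lib.Helper81Block.isPBlock_sameBlock hB' hχ hχ') hU
      · rw [if_neg hχ]
  rw [Finset.sum_congr rfl hper, Finset.sum_comm]
  apply Finset.sum_congr rfl
  intro ψ _
  obtain ⟨B₀, hB₀⟩ := induced_defined_centralizer hM x hx _
    (Cfsg.Agent.Lib.Helper81Block.isPBlock_blockOf (M := M) ψ)
  rw [Finset.sum_eq_single B₀]
  · have h1 : (B₀ ⊆ UU M b H ∧ ψ ∈ overSet M x B₀) ↔
        irrCongr σ ψ ∈ UU M b (H ⊓ Subgroup.centralizer ({(x : G)} : Set G)) := by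
      rw [subset_UU_iff hB₀.2.1, tower_iff hMp σ hσ ψ hB₀ hb]
      constructor
      · intro h; exact h.1
      · intro h; exact ⟨h, hB₀⟩
    simp only [h1]
  · intro B' _ hne
    rw [if_neg]
    rintro ⟨_, h⟩
    exact hne (induced_unique h hB₀)
  · intro h
    exact absurd (mem_blocks.2 hB₀.2.1) h

end main

end Cfsg.Agent.Lib.Helper81KR
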