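import Mathlib
import Cfsg.Prelude.Def_Blocks
import Cfsg.Agent.Lib.Helper81KR
import Cfsg.Agent.Lib.Helper81Chain

set_option autoImplicit false

/-! The Knörr–Robinson alternating sum for `k - l`. -/

namespace Cfsg.Agent.Lib.Helper81KR2

open Cfsg
open Cfsg.Agent.Lib.Helper81Local Cfsg.Agent.Lib.Helper81Base Cfsg.Agent.Lib.Helper81BB
  Cfsg.Agent.Lib.Helper81Subsec Cfsg.Agent.Lib.Helper81Second3
  Cfsg.Agent.Lib.Helper81Rank Cfsg.Agent.Lib.Helper81Count Cfsg.Agent.Lib.Helper81KR
  Cfsg.Agent.Lib.Helper81Chain Cfsg.Agent.Lib.Helper81Orth Cfsg.Agent.Lib.Helper81Section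
open scoped ComplexConjugate

variable {G : Type*} [Group G] [Fintype G] {p : ℕ} [Fact p.Prime] {M : Ideal AlgInt}

open scoped Classical in
/-- `|G| (k - l)` as a sum over the `p`-singular elements. -/
theorem claimA' (hM : IsPModular p M) {U : Set (IrrCharacter G)} (hU : IsBlockUnion M U) :
    (Nat.card G : ℂ) * ((Nat.card U : ℂ) - (blockRank p U : ℂ))
      = ∑ g : G, if p ∣ orderOf g then Cfsg.Agent.Lib.Helper81Orth2.delta U g g else 0 := by
  have hMp := hM.2.1.isPrime
  have h0 : (Nat.card G : ℂ) ≠ 0 := Cfsg.Agent.Lib.Helper81Base.card_ne_zero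
  have h1 := card_eq_sum_delta U
  have h2 : (blockRank p U : ℂ) = (Nat.card G : ℂ)⁻¹ *
      ∑ g : G, (if ¬ p ∣ orderOf g then Cfsg.Agent.Lib.Helper81Orth2.delta U g g else 0) := by
    rw [blockRank_eq hM hU]
    unfold regInner Cfsg.Agent.Lib.Helper81Orth2.delta
    rw [Finset.mul_sum]
    have e1 : ∀ ψ : IrrCharacter G, (if ψ ∈ U then (Nat.card G : ℂ)⁻¹ *
        ∑ y : G, (if ¬ p ∣ orderOf y then (ψ : G → ℂ) y * conj ((ψ : G → ℂ) y) else 0) else 0)
        = ∑ y : G, (if ψ ∈ U then (Nat.card G : ℂ)⁻¹ *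
          (if ¬ p ∣ orderOf y then (ψ : G → ℂ) y * conj ((ψ : G → ℂ) y) else 0) else 0) := by
      intro ψ
      split_ifs
      · rw [Finset.mul_sum]
      · simp
    simp only [e1]
    rw [Finset.sum_comm]
    apply Finset.sum_congr rfl
    intro y _
    by_cases hy : p ∣ orderOf y
    · simp [hy]
    · simp only [hy, not_false_eq_true, if_true]
      rw [Finset.mul_sum]
      apply Finset.sum_congr rfl
      intro ψ _
      split_ifs
      · rfl
      · simp
  rw [h1, h2, ← mul_sub, mul_inv_cancel_left₀ h0, ← Finset.sum_sub_distrib]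
  apply Finset.sum_congr rfl
  intro g _
  by_cases hg : p ∣ orderOf g
  · simp [hg]
  · simp [hg]

open scoped Classical in
/-- the sum for `G` itself. -/
theorem claimB_top (hM : IsPModular p M) {b : Set (IrrCharacter G)} (hb : IsPBlock M b)
    {g x : G} (hgx : IsPPart p g x) :
    Cfsg.Agent.Lib.Helper81Orth2.delta b g g
      = dl M b (Subgroup.centralizer ({x} : Set G)) g := by
  obtain ⟨y, rfl, hc, hx, hy⟩ := hgx
  let _ : Fintype (Subgroup.centralizer ({x} : Set G)) := Fintype.ofFinite _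
  set y' : Subgroup.centralizer ({x} : Set G) :=
    ⟨y, Subgroup.mem_centralizer_singleton_iff.mpr hc.symm.eq⟩ with hy'
  have hy'o : ¬ p ∣ orderOf y' := by
    rw [← Subgroup.orderOf_coe]; exact hy
  have h1 := subsection_orth hM hb x hx y' y' hy'o hy'o
  have e : x * y = (((⟨x, Subgroup.mem_centralizer_singleton_iff.mpr rfl⟩ :
      Subgroup.centralizer ({x} : Set G)) * y' : Subgroup.centralizer ({x} : Set G)) : G) := rfl
  rw [e, dl_coe]
  exact h1

/-- the sum for a subgroup. -/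
theorem claimB' (hM : IsPModular p M) {b : Set (IrrCharacter G)} (hb : IsPBlock M b)
    (H : Subgroup G) {g x : G} (hg : g ∈ H) (hgx : IsPPart p g x) :
    x ∈ H ∧ dl M b H g = dl M b (H ⊓ Subgroup.centralizer ({x} : Set G)) g := by
  have hp : p.Prime := Fact.out
  obtain ⟨x₁, y₁, hxy, hc, hx₁, hy₁⟩ := exists_ppart hp (⟨g, hg⟩ : H)
  have h1 : IsPPart p g (x₁ : G) := by
    refine ⟨(y₁ : G), ?_, ?_, ?_, ?_⟩
    · exact congrArg Subtype.val hxy
    · exact congrArg Subtype.val hc.eq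
    · rw [Subgroup.orderOf_coe]; exact hx₁
    · rw [Subgroup.orderOf_coe]; exact hy₁
  have h2 : x = (x₁ : G) := isPPart_unique hp hgx h1
  have h3 := claimB hM hb H x₁ y₁ hc hx₁ hy₁
  rw [hxy] at h3
  rw [h2]
  exact ⟨x₁.2, h3⟩

open scoped Classical in
/-- the cancellation at one `p`-singular element. -/
theorem cancel (hM : IsPModular p M) {b : Set (IrrCharacter G)} (hb : IsPBlock M b)
    {g : G} (hg : p ∣ orderOf g) :
    Cfsg.Agent.Lib.Helper81Orth2.delta b g g
      = ∑ s ∈ Finset.univ.filter (fun s : Finset (Subgroup G) => s.Nonempty ∧ NC p s),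
        if g ∈ stab s then (((-1 : ℤ) ^ (s.card - 1) : ℤ) : ℂ) * dl M b (stab s) g else 0 := by
  have hp : p.Prime := Fact.out
  obtain ⟨x, hgx⟩ := exists_ppart hp g
  have hgx' := hgx
  obtain ⟨y, hxy, hc, ⟨k, hk⟩, hy⟩ := hgx'
  have hx1 : x ≠ 1 := by
    rintro rfl
    rw [one_mul] at hxy
    rw [hxy] at hy
    exact hy hg
  have hxp : IsPGroup p (Subgroup.zpowers x) :=
    IsPGroup.of_card (n := k) (by rw [Nat.card_zpowers, hk])
  have hgC : g ∈ Subgroup.centralizer ({x} : Set G) := by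
    rw [Subgroup.mem_centralizer_singleton_iff, ← hxy, mul_assoc, hc.symm.eq]
  set f : Finset (Subgroup G) → ℂ := fun s =>
    (((-1 : ℤ) ^ s.card : ℤ) : ℂ) * dl M b (Subgroup.centralizer ({x} : Set G) ⊓ stab s) g with hf
  set S : Finset (Finset (Subgroup G)) :=
    Finset.univ.filter (fun s : Finset (Subgroup G) => NC p s ∧ g ∈ stab s) with hS
  have hmem : ∀ s, s ∈ S ↔ NC p s ∧ g ∈ stab s := by
    intro s
    simp [hS]
  have hxs : ∀ s ∈ S, x ∈ stab s := fun s hs =>
    (claimB' hM hb (stab s) ((hmem s).1 hs).2 hgx).1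
  have hzero : ∑ s ∈ S, f s = 0 := by
    apply Finset.sum_involution (fun s _ => tog x s)
    · intro s hs
      have h1 := (hmem s).1 hs
      simp only [hf]
      rw [inf_stab_tog h1.1 (hxs s hs) hx1, neg_one_pow_card_tog]
      push_cast
      ring
    · intro s _ _
      exact tog_ne x s
    · intro s hs
      have h1 := (hmem s).1 hs
      rw [hmem]
      refine ⟨NC_tog h1.1 (hxs s hs) hx1 hxp, ?_⟩
      have h2 : g ∈ Subgroup.centralizer ({x} : Set G) ⊓ stab (tog x s) := by
        rw [inf_stab_tog h1.1 (hxs s hs) hx1]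
        exact ⟨hgC, h1.2⟩
      exact h2.2
    · intro s hs
      have h1 := (hmem s).1 hs
      exact tog_tog h1.1 (hxs s hs) hx1
  have hempty : (∅ : Finset (Subgroup G)) ∈ S := by
    rw [hmem]
    refine ⟨⟨by simp, by simp, by simp⟩, ?_⟩
    rw [stab_empty]
    trivial
  rw [← Finset.add_sum_erase S f hempty] at hzero
  have hf0 : f ∅ = Cfsg.Agent.Lib.Helper81Orth2.delta b g g := by
    simp only [hf]
    rw [stab_empty, inf_top_eq, claimB_top hM hb hgx]
    simp
  rw [hf0] at hzero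
  rw [eq_neg_of_add_eq_zero_left hzero, ← Finset.sum_neg_distrib, ← Finset.sum_filter]
  apply Finset.sum_congr
  · ext s
    simp only [Finset.mem_erase, Finset.mem_filter, Finset.mem_univ, true_and, hmem,
      Finset.nonempty_iff_ne_empty]
    tauto
  · intro s hs
    have h0 := Finset.mem_filter.1 hs
    have h1 := (Finset.mem_filter.1 h0.1).2
    have h2 : NC p s ∧ g ∈ stab s := ⟨h1.2, h0.2⟩
    have hcard : 0 < s.card := Finset.card_pos.2 h1.1
    simp only [hf]
    rw [(claimB' hM hb (stab s) h2.2 hgx).2, inf_comm]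
    have e : (-1 : ℤ) ^ s.card = - (-1 : ℤ) ^ (s.card - 1) := by
      obtain ⟨n, hn⟩ : ∃ n, s.card = n + 1 := ⟨s.card - 1, by omega⟩
      rw [hn, pow_succ]
      simp
    rw [e]
    push_cast
    ring

open scoped Classical in
/-- **Knörr–Robinson.** -/
theorem main (hM : IsPModular p M) {b : Set (IrrCharacter G)} (hb : IsPBlock M b) :
    (Nat.card G : ℂ) * ((Nat.card b : ℂ) - (blockRank p b : ℂ))
      = ∑ s ∈ Finset.univ.filter (fun s : Finset (Subgroup G) => s.Nonempty ∧ NC p s),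
        (((-1 : ℤ) ^ (s.card - 1) : ℤ) : ℂ) * ((Nat.card (stab s) : ℂ) *
          ((Nat.card (UU M b (stab s)) : ℂ) - (blockRank p (UU M b (stab s)) : ℂ))) := by
  have hMp := hM.2.1.isPrime
  rw [claimA' hM (isBlockUnion_of_isPBlock hb)]
  have h1 : ∀ g : G, (if p ∣ orderOf g then Cfsg.Agent.Lib.Helper81Orth2.delta b g g else 0)
      = ∑ s ∈ Finset.univ.filter (fun s : Finset (Subgroup G) => s.Nonempty ∧ NC p s),
        if g ∈ stab s then (if p ∣ orderOf g then
          (((-1 : ℤ) ^ (s.card - 1) : ℤ) : ℂ) * dl M b (stab s) g else 0) else 0 := by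
    intro g
    by_cases hg : p ∣ orderOf g
    · simp only [hg, if_true]
      exact cancel hM hb hg
    · simp [hg]
  simp only [h1]
  rw [Finset.sum_comm]
  apply Finset.sum_congr rfl
  intro s _
  let _ : Fintype (stab s) := Fintype.ofFinite _
  rw [claimA hM b (stab s), Finset.mul_sum]
  have h2 := Cfsg.Agent.Lib.Helper20BrMap.sum_subgroup (stab s) (fun g => if p ∣ orderOf g then
          (((-1 : ℤ) ^ (s.card - 1) : ℤ) : ℂ) * dl M b (stab s) g else 0)
  rw [← h2]
  apply Finset.sum_congr rfl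
  intro h _
  rw [Subgroup.orderOf_coe]
  split_ifs
  · rfl
  · simp

end Cfsg.Agent.Lib.Helper81KR2
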