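import Cfsg.Agent.Lib.Helper81KulDefs
import Cfsg.Agent.Lib.Helper91KulNILP
import Cfsg.Agent.Lib.Helper78KulSOC
import Cfsg.Agent.Lib.Helper17KulONE
import Cfsg.Agent.Lib.Helper72KulGEN
import Cfsg.Agent.Lib.Helper72KulCOMM
import Cfsg.Agent.Lib.Helper17KulISO
import Cfsg.Agent.Lib.Helper17KulCUBE
import Cfsg.Agent.Lib.Helper54KulLOC
import Cfsg.Agent.Lib.Helper17KulFR
import Cfsg.Agent.Lib.Helper17KulSYM
import Cfsg.Agent.Lib.Helper17KulEXT
import Cfsg.Agent.Lib.Helper54KulCODIM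

/-!
# Project 83 (KUL): assembly of parts A and B (Külshammer's theorem on local symmetric algebras)
-/

set_option autoImplicit false

namespace Cfsg.Agent.Lib.Helper81KulAB

open Cfsg.Agent.Lib.Helper81KulDefs
open Cfsg.Agent.Lib.Helper91KulNILP (nilp pow_eq_bot)
open Cfsg.Agent.Lib.Helper78KulSOC (soc)
open Cfsg.Agent.Lib.Helper17KulONE (one_gen)
open Cfsg.Agent.Lib.Helper72KulGEN (exists_gen1 exists_gen2)
open Cfsg.Agent.Lib.Helper72KulCOMM (comm_le)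
open Cfsg.Agent.Lib.Helper17KulISO (isotropic)
open Cfsg.Agent.Lib.Helper17KulCUBE (cube)
open Cfsg.Agent.Lib.Helper54KulLOC (nilAlg_Jc)
open Cfsg.Agent.Lib.Helper17KulFR (finrank_Cor)
open Cfsg.Agent.Lib.Helper17KulSYM (symF_Jc)
open Cfsg.Agent.Lib.Helper17KulEXT (trace_ext)
open Cfsg.Agent.Lib.Helper54KulCODIM (codim_le)

variable {k : Type*} [Field k] {R : Type*} [Ring R] [Algebra k R] [Module.Finite k R]

/-! ## assembly (helper81) -/

theorem pow_succ_le {J : Submodule k R} (hJ : NilAlg J) {n : ℕ} (hn : 1 ≤ n) :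
    J ^ (n + 1) ≤ J ^ n := by
  obtain ⟨m, rfl⟩ : ∃ m, n = m + 1 := ⟨n - 1, by omega⟩
  have hJJ : J * J ≤ J := Submodule.mul_le.2 hJ.mul
  rw [pow_succ (J) (m + 1), pow_succ J m, mul_assoc]
  exact mul_le_mul_right hJJ _

theorem pow_le_pow {J : Submodule k R} (hJ : NilAlg J) {m n : ℕ} (hm : 1 ≤ m) (hmn : m ≤ n) :
    J ^ n ≤ J ^ m := by
  induction n, hmn using Nat.le_induction with
  | base => exact le_rfl
  | succ n hn ih => exact (pow_succ_le hJ (by omega)).trans ih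

theorem Kc_le_sq (J : Submodule k R) : Kc J ≤ J ^ 2 := by
  unfold Kc
  rw [Submodule.span_le]
  rintro _ ⟨a, ha, b, hb, rfl⟩
  rw [sq]
  exact Submodule.sub_mem _ (Submodule.mul_mem_mul ha hb) (Submodule.mul_mem_mul hb ha)

theorem comm_of_Kc {J : Submodule k R} (h : Kc J = ⊥) : ∀ a ∈ J, ∀ b ∈ J, a * b = b * a := by
  intro a ha b hb
  have : a * b - b * a ∈ Kc J := Submodule.subset_span ⟨a, ha, b, hb, rfl⟩
  rw [h, Submodule.mem_bot] at this
  exact sub_eq_zero.1 this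

/-- Külshammer: a local symmetric algebra whose commutator space has codimension at most `4`
is commutative. -/
theorem kul [IsAlgClosed k] {J : Submodule k R} {lam : R →ₗ[k] k} (hJ : NilAlg J)
    (hs : SymF J lam) (hz : Module.finrank k J ≤ Module.finrank k (Kc J) + 3) :
    ∀ a ∈ J, ∀ b ∈ J, a * b = b * a := by
  classical
  by_contra hnc
  have hK : Kc J ≠ ⊥ := fun h => hnc (comm_of_Kc h)
  have : Nontrivial R := by
    by_contra h
    rw [not_nontrivial_iff_subsingleton] at h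
    exact hnc (fun a _ b _ => Subsingleton.elim _ _)
  obtain ⟨N0, hN0⟩ := nilp hJ
  let N := Nat.find (⟨N0, hN0⟩ : ∃ N, J ^ N = ⊥)
  have hN : J ^ N = ⊥ := Nat.find_spec (⟨N0, hN0⟩ : ∃ N, J ^ N = ⊥)
  have hmin : ∀ m, m < N → J ^ m ≠ ⊥ := fun m hm => Nat.find_min (⟨N0, hN0⟩ : ∃ N, J ^ N = ⊥) hm
  have hsq : J ^ 2 ≠ ⊥ := by
    intro h
    apply hK
    exact le_bot_iff.1 (h ▸ Kc_le_sq J)
  have hN3 : 3 ≤ N := by
    by_contra hlt
    have h2 : N ≤ 2 := by omega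
    rcases Nat.eq_zero_or_pos N with h0 | h0
    · rw [h0, pow_zero] at hN
      have : (1 : R) ∈ (1 : Submodule k R) := Submodule.one_le.1 le_rfl
      rw [hN, Submodule.mem_bot] at this
      exact one_ne_zero this
    · exact hsq (le_bot_iff.1 (hN ▸ pow_le_pow hJ h0 h2))
  obtain ⟨m, hm⟩ : ∃ m, N = m + 1 := ⟨N - 1, by omega⟩
  have hm2 : 2 ≤ m := by omega
  have hT0 : J ^ m ≠ ⊥ := hmin m (by omega)
  have hTJ : J ^ m ≤ J := by
    have := pow_le_pow hJ (le_refl 1) (show 1 ≤ m by omega)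
    rwa [pow_one] at this
  have hTJ0 : J ^ m * J = ⊥ := by rw [← pow_succ, ← hm, hN]
  obtain ⟨hT1, hTK⟩ := soc hs hTJ hTJ0
  have hTpos : 1 ≤ Module.finrank k ↥(J ^ m) := by
    rw [Nat.succ_le_iff, Module.finrank_pos_iff]
    exact (Submodule.nontrivial_iff_ne_bot).2 hT0
  have hT2 : J ^ m ≤ J ^ 2 := pow_le_pow hJ (by norm_num) hm2
  have hsup : Kc J ⊔ J ^ m ≤ J ^ 2 := sup_le (Kc_le_sq J) hT2
  have hfr : Module.finrank k ↥(Kc J ⊔ J ^ m) = Module.finrank k (Kc J) + Module.finrank k ↥(J ^ m) := by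
    have := Submodule.finrank_sup_add_finrank_inf_eq (Kc J) (J ^ m)
    rw [inf_comm, hTK, finrank_bot, add_zero] at this
    exact this
  have hle2 : Module.finrank k ↥(Kc J ⊔ J ^ m) ≤ Module.finrank k ↥(J ^ 2) :=
    Submodule.finrank_mono hsup
  have hJ2J : J ^ 2 ≤ J := by
    have := pow_le_pow hJ (le_refl 1) (show 1 ≤ 2 by norm_num)
    rwa [pow_one] at this
  by_cases h1 : Module.finrank k J ≤ Module.finrank k ↥(J ^ 2) + 1
  · obtain ⟨x, hx, hxJ⟩ := exists_gen1 hJ2J h1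
    exact hnc (one_gen hJ hx hxJ ⟨N0, hN0⟩)
  have hJ2eq : J ^ 2 = Kc J ⊔ J ^ m := by
    symm
    apply Submodule.eq_of_le_of_finrank_le hsup
    omega
  obtain ⟨x, hx, y, hy, hxy⟩ := exists_gen2 hJ2J (by omega)
  rcases Nat.eq_or_lt_of_le hm2 with h2 | h3
  · -- m = 2
    apply hK
    have : Kc J ≤ J ^ m := by rw [← h2]; exact Kc_le_sq J
    rw [← le_bot_iff, ← hTK]
    exact le_inf this le_rfl
  · have hT3 : J ^ m ≤ J ^ 3 := pow_le_pow hJ (by norm_num) h3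
    have key : ∀ x' ∈ J, ∀ y' ∈ J, J ≤ Submodule.span k {x', y'} ⊔ J ^ 2 →
        J ^ 2 ≤ Submodule.span k {x' * y' - y' * x'} ⊔ J ^ 3 := by
      intro x' hx' y' hy' h'
      rw [hJ2eq]
      exact sup_le (comm_le hJ hx' hy' h') (hT3.trans le_sup_right)
    obtain ⟨x', hx', y', hy', h', hxx⟩ := isotropic hJ hx hy hxy (key x hx y hy hxy)
    have h34 := cube hJ hx' hy' h' (key x' hx' y' hy' h') hxx
    have h30 : J ^ 3 = ⊥ := pow_eq_bot hJ h34
    exact hT0 (le_bot_iff.1 (h30 ▸ hT3))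

/-! ## assembly (helper81) -/

theorem corner_small [IsAlgClosed k] {i e : R} (hi : i * i = i) (hi0 : i ≠ 0) (hloc : LocC k i)
    (hec : ∀ a, e * a = a * e) (hei : e * i = i)
    {n : ℕ} (x y : Fin n → R) (he : e = ∑ s, x s * i * y s)
    (lam : R →ₗ[k] k)
    (hsym : ∀ a b, lam (a * b) = lam (b * a)) (hnd : ∀ a, a ≠ 0 → ∃ b, lam (a * b) ≠ 0)
    (z : ℕ) (hz : z ≤ 4)
    (hT : ∀ (n : ℕ) (F : Fin n → (R →ₗ[k] k)), (∀ j a b, F j (a * b) = F j (b * a)) →
      (∀ j a, F j (e * a) = F j a) → LinearIndependent k F → n ≤ z) :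
    Module.finrank k (Cor (k := k) i) ≤ z := by
  obtain ⟨hJ, hJC, hC⟩ := nilAlg_Jc hi hloc
  have h1 := finrank_Cor hi hi0 hJ hJC hC
  have h2 := codim_le hJC hC hi (fun f hf => trace_ext hi hec hei x y he f hf) z hT
  have hcomm := kul hJ (symF_Jc hi hJC hC lam hsym hnd) (by omega)
  have hK : Kc (Jc (k := k) i) = ⊥ := by
    unfold Kc
    rw [Submodule.span_eq_bot]
    rintro _ ⟨a, ha, b, hb, rfl⟩
    rw [hcomm a ha b hb, sub_self]
  rw [hK, finrank_bot, zero_add] at h2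
  exact h2

end Cfsg.Agent.Lib.Helper81KulAB
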