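import Cfsg.Agent.Lib.Helper80StarProps
import Cfsg.Agent.Lib.Helper91StarBASIC
import Cfsg.Agent.Lib.Helper4ModRed
import Cfsg.Agent.Lib.Helper81KulDefs

/-!
# Project 83 (KUL): vocabulary of the group algebra part
-/

set_option autoImplicit false

namespace Cfsg.Agent.Lib.Helper81KulGDefs

open Cfsg
open Cfsg.Agent.Lib.Helper81Local Cfsg.Agent.Lib.Helper20GA Cfsg.Agent.Lib.Helper80IdemDefs
open Cfsg.Agent.Lib.Helper80StarDefs Cfsg.Agent.Lib.Helper4ModRed

variable {M : Ideal AlgInt} [M.IsPrime] {G : Type*} [Group G] [Fintype G]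

/-- `φ` is the reduction `O G → k G`. -/
structure IsRed (φ : OA M G →+* MonoidAlgebra (kk M) G) : Prop where
  surj : Function.Surjective φ
  smul : ∀ (r : Rt M) (a : OA M G), φ (r • a) = IsLocalRing.residue (Rt M) r • φ a
  ker : ∀ a : OA M G, φ a = 0 ↔ a ∈ mA (Rt M) (OA M G)
  pt : ∀ g : G, φ (ptA M g) = MonoidAlgebra.of (kk M) G g

/-- the block idempotent in `O G`. -/
noncomputable def epsA (M : Ideal AlgInt) [M.IsPrime] (B : Set (IrrCharacter G)) : OA M G :=
  toA M (blockCoeff B)

/-- the coefficient of `1`. -/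
noncomputable def lamk (k : Type*) [Field k] (G : Type*) [Group G] :
    MonoidAlgebra k G →ₗ[k] k where
  toFun := fun b => b.coeff 1
  map_add' := fun x y => by simp
  map_smul' := fun r x => by simp

end Cfsg.Agent.Lib.Helper81KulGDefs
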