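import Cfsg.Agent.Lib.Helper81KulGDefs
import Cfsg.Agent.Lib.Helper81KulAB
import Cfsg.Agent.Lib.Helper40ModRL
import Cfsg.Agent.Lib.Helper40ModAlgClosed
import Cfsg.Agent.Lib.Helper80StarA
import Cfsg.Agent.Lib.Helper91StarFIN
import Cfsg.Agent.Lib.Helper72StarSCAL
import Cfsg.Agent.Lib.Helper81StarCHAR
import Cfsg.Agent.Lib.Helper15KulDIM
import Cfsg.Agent.Lib.Helper15KulNUM
import Cfsg.Agent.Lib.Helper15KulVAN
import Cfsg.Agent.Lib.Helper19KulNZ
import Cfsg.Agent.Lib.Helper19KulPHI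
import Cfsg.Agent.Lib.Helper19KulPOS
import Cfsg.Agent.Lib.Helper1KulNAK
import Cfsg.Agent.Lib.Helper1KulRED
import Cfsg.Agent.Lib.Helper38KulEPS
import Cfsg.Agent.Lib.Helper38KulIOTA
import Cfsg.Agent.Lib.Helper38KulLAM
import Cfsg.Agent.Lib.Helper38KulLOCC
import Cfsg.Agent.Lib.Helper38KulTF1
import Cfsg.Agent.Lib.Helper38KulTF2
import Cfsg.Agent.Lib.Helper38KulWED1
import Cfsg.Agent.Lib.Helper38KulWED2
import Cfsg.Agent.Lib.Helper38KulWED3

/-!
# Project 83 (KUL): a block with `l(B) = 1` and `k(B) ≤ 4` has `|D| = k(B)`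
-/

set_option autoImplicit false

namespace Cfsg.Agent.Lib.Helper81KulMain

open Cfsg
open Cfsg.Agent.Lib.Helper81Local Cfsg.Agent.Lib.Helper20GA Cfsg.Agent.Lib.Helper80IdemDefs
open Cfsg.Agent.Lib.Helper80StarDefs Cfsg.Agent.Lib.Helper4ModRed
open Cfsg.Agent.Lib.Helper81KulDefs Cfsg.Agent.Lib.Helper81KulGDefs
open Cfsg.Agent.Lib.Helper91StarBASIC Cfsg.Agent.Lib.Helper80Brauer Cfsg.Agent.Lib.Helper80Trace
open Cfsg.Agent.Lib.Helper81KulAB (corner_small)
open Cfsg.Agent.Lib.Helper15KulDIM (sum_sq_le)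
open Cfsg.Agent.Lib.Helper15KulNUM (card_eq)
open Cfsg.Agent.Lib.Helper15KulVAN (proj_vanish)
open Cfsg.Agent.Lib.Helper19KulNZ (fn_one_ne_zero)
open Cfsg.Agent.Lib.Helper19KulPHI (sum_ev_conj)
open Cfsg.Agent.Lib.Helper19KulPOS (nn_ne_zero)
open Cfsg.Agent.Lib.Helper1KulNAK (nak_corner)
open Cfsg.Agent.Lib.Helper1KulRED (exists_red)
open Cfsg.Agent.Lib.Helper38KulEPS (rv_blockCoeff epsA_idem epsA_central epsA_ne_zero evA_epsA_mul)
open Cfsg.Agent.Lib.Helper38KulIOTA (exists_iota)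
open Cfsg.Agent.Lib.Helper38KulLAM (lamk_symm lamk_nd)
open Cfsg.Agent.Lib.Helper38KulLOCC (locC_red)
open Cfsg.Agent.Lib.Helper38KulTF1 (card_link)
open Cfsg.Agent.Lib.Helper38KulTF2 (traceforms_le)
open Cfsg.Agent.Lib.Helper38KulWED1 (wed_count)
open Cfsg.Agent.Lib.Helper38KulWED2 (central_idem gen_one)
open Cfsg.Agent.Lib.Helper38KulWED3 (wed_link)
open scoped ComplexConjugate

variable {p : ℕ} [Fact p.Prime] {M : Ideal AlgInt} [M.IsPrime] {G : Type*} [Group G] [Fintype G]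

omit [Fact p.Prime] in
theorem exists_nn {ι : OA M G} (hι : ι * ι = ι) (χ : IrrCharacter G) :
    ∃ n : ℕ, evA (χ : G → ℂ) ι = n := by
  have hι' : (ι : GA G) * (ι : GA G) = (ι : GA G) := congrArg Subtype.val hι
  have hinv : IsInv (⊥ : Subgroup G) (ι : GA G) := by
    intro x hx g
    rw [Subgroup.mem_bot] at hx
    subst hx
    simp
  have h := Helper81StarCHAR.char_of_idem (Helper4Char.IsIrrCharacter.isCharacter χ.2) ⊥
    (ι : GA G) hι' hinv
  obtain ⟨n, hn⟩ := Helper4Char2.IsCharacter.exists_degree h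
  refine ⟨n, ?_⟩
  rw [← hn]
  simp only [Subgroup.coe_one, pt_one, one_mul]
  rfl

theorem kul_main (hM : IsPModular p M) {B : Set (IrrCharacter G)} (hB : IsPBlock M B)
    {D : Subgroup G} (hD : IsDefectGroup p M B D) (hl : blockRank p B = 1)
    (hk : Nat.card B ≤ 4) : Nat.card D = Nat.card B := by
  classical
  have : IsAlgClosed (kk M) := Cfsg.Agent.Lib.Helper40ModAlgClosed.isAlgClosed_kk
  have : Module.Finite (Rt M) (OA M G) := Helper91StarFIN.finite_OA
  have hO : HS (Rt M) := Helper21StarINST.hs_Rt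
  obtain ⟨φ, hφ⟩ := exists_red (M := M) (G := G)
  have hεi := epsA_idem (M := M) hB
  have hεc := epsA_central (M := M) hB
  have hε0 := epsA_ne_zero (M := M) hB
  obtain ⟨ι, hι, hει⟩ := exists_iota Helper80StarA.decompP hεi hε0
  obtain ⟨m, x, y, hxy⟩ := wed_link (Helper7StarWED.wedP hO) Helper80StarA.unitP
    Helper80StarA.zeroP hεi hεc hι.idem hι.ne hει
    (fun n d hd π h1 h2 => hl ▸ wed_count hM hB n d hd π h1 h2)
    (fun d P => central_idem P) (fun d P => gen_one P)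
  have hRV := rv_blockCoeff (M := M) hB
  have hi : φ ι * φ ι = φ ι := by rw [← map_mul, hι.idem]
  have hi0 : φ ι ≠ 0 := by
    intro h
    apply hι.ne
    apply Helper80StarA.zeroP (O := Rt M) ι hι.idem
    exact ⟨1, by rw [pow_one]; exact (hφ.ker ι).1 h⟩
  have hloc : LocC (kk M) (φ ι) := locC_red hφ (fun a =>
    Helper72StarSCAL.scalP hO (Helper80StarA.localP hO) ⊤ ι a hι Algebra.mem_top)
  have hec : ∀ a, φ (epsA M B) * a = a * φ (epsA M B) := by
    intro a
    obtain ⟨a', rfl⟩ := hφ.surj a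
    rw [← map_mul, ← map_mul, hεc]
  have hei : φ (epsA M B) * φ ι = φ ι := by rw [← map_mul, hει]
  have he : φ (epsA M B) = ∑ s, φ (x s) * φ ι * φ (y s) := by
    conv_lhs => rw [hxy]
    rw [map_sum]
    exact Finset.sum_congr rfl (fun s _ => by rw [map_mul, map_mul])
  have hsmall := corner_small hi hi0 hloc hec hei (fun s => φ (x s)) (fun s => φ (y s)) he
    (lamk (kk M) G) lamk_symm lamk_nd (Nat.card B) hk
    (fun n F h1 h2 h3 => traceforms_le hφ hRV
      (fun g => IsLocalRing.residue (Rt M) ⟨blockCoeff B g, hRV g⟩) (fun g => ⟨hRV g, rfl⟩)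
      (Nat.card B)
      (fun n τ h1 h2 h3 => card_link hM hB _ (fun g => ⟨hRV g, rfl⟩) n τ h1 h2 h3) n F h1 h2 h3)
  obtain ⟨b, hb⟩ := nak_corner hφ hι.idem (Nat.card B) hsmall
  choose nn hnn using exists_nn (M := M) hι.idem
  have hsq := sum_sq_le hι.idem (Nat.card B) b hb nn hnn
  have hB0 : ∀ χ, χ ∉ B → nn χ = 0 := by
    intro χ hχ
    have h1 := evA_epsA_mul (M := M) hB hχ ι
    rw [hει, hnn] at h1
    exact_mod_cast h1
  have hvan : ∀ g : G, p ∣ orderOf g →
      ∑ χ : IrrCharacter G, (nn χ : ℂ) * conj ((χ : G → ℂ) g) = 0 := by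
    intro g hg
    rw [← proj_vanish hM hι.idem hg, ← sum_ev_conj]
    exact Finset.sum_congr rfl (fun χ _ => by rw [hnn])
  have hne : ∃ χ, nn χ ≠ 0 := by
    by_contra hcon
    push Not at hcon
    have h1 := sum_ev_conj ι (1 : G)
    have h2 : ∑ h : G, fn ι (h⁻¹ * 1 * h) = (Fintype.card G : ℂ) * fn ι 1 := by
      simp
    rw [h2] at h1
    have h3 : ∑ χ : IrrCharacter G, evA (χ : G → ℂ) ι * conj ((χ : G → ℂ) 1) = 0 :=
      Finset.sum_eq_zero (fun χ _ => by rw [hnn, hcon]; simp)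
    rw [h3] at h1
    have h4 : (Fintype.card G : ℂ) ≠ 0 := by
      exact_mod_cast Fintype.card_ne_zero
    exact fn_one_ne_zero hι.idem hι.ne ((mul_eq_zero.1 h1.symm).resolve_left h4)
  have hpos := nn_ne_zero hl nn hB0 hvan hne
  -- all multiplicities are one
  have hone : ∀ χ ∈ B, nn χ = 1 := by
    have hcard : Nat.card B = (Finset.univ.filter (fun χ : IrrCharacter G => χ ∈ B)).card := by
      rw [Nat.card_eq_fintype_card, Fintype.card_subtype]
    have hsplit : ∑ χ : IrrCharacter G, nn χ ^ 2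
        = ∑ χ ∈ Finset.univ.filter (fun χ : IrrCharacter G => χ ∈ B), nn χ ^ 2 := by
      rw [Finset.sum_filter]
      apply Finset.sum_congr rfl
      intro χ _
      split_ifs with h
      · rfl
      · rw [hB0 χ h]; rfl
    rw [hsplit, hcard] at hsq
    by_contra hcon
    push Not at hcon
    obtain ⟨χ0, hχ0, hne1⟩ := hcon
    have hlt : (Finset.univ.filter (fun χ : IrrCharacter G => χ ∈ B)).card
        < ∑ χ ∈ Finset.univ.filter (fun χ : IrrCharacter G => χ ∈ B), nn χ ^ 2 := by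
      rw [Finset.card_eq_sum_ones]
      apply Finset.sum_lt_sum
      · intro χ hχ
        have := hpos χ (Finset.mem_filter.1 hχ).2
        exact Nat.one_le_pow _ _ (Nat.pos_of_ne_zero this)
      · refine ⟨χ0, Finset.mem_filter.2 ⟨Finset.mem_univ _, hχ0⟩, ?_⟩
        have h1 := hpos χ0 hχ0
        have h2 : 2 ≤ nn χ0 := by omega
        nlinarith
    omega
  apply card_eq hM hB hD hl
  intro g hg
  refine Eq.trans ?_ (hvan g hg)
  apply Finset.sum_congr rfl
  intro χ _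
  split_ifs with h
  · rw [hone χ h]; simp
  · rw [hB0 χ h]; simp only [Nat.cast_zero, zero_mul]

end Cfsg.Agent.Lib.Helper81KulMain
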