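import Mathlib
import Cfsg.Prelude.Def_Blocks
import Cfsg.Agent.Lib.Helper81Central
import Cfsg.Agent.Lib.Helper81RelDeg
import Cfsg.Agent.Lib.Helper82Quot
import Cfsg.Agent.S0887

set_option autoImplicit false

/-! Characters of defect zero modulo a normal subgroup (weights). -/

namespace Cfsg.Agent.Lib.Helper81Weight

open Cfsg
open Cfsg.Agent.Lib.Helper81Local Cfsg.Agent.Lib.Helper81Base Cfsg.Agent.Lib.Helper81Block
  Cfsg.Agent.Lib.Helper81Defect Cfsg.Agent.Lib.Helper82Quot Cfsg.Agent.Lib.Helper21Cover
open scoped ComplexConjugate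

variable {T : Type*} [Group T] [Fintype T] {p : ℕ} [Fact p.Prime] {M : Ideal AlgInt}

theorem charDegree_congr {A A' : Type*} [Group A] [Group A'] {α : A → ℂ} {β : A' → ℂ}
    (h : α 1 = β 1) : charDegree α = charDegree β := by
  unfold charDegree
  rw [h]

/-- a group with a character of defect zero modulo `Q` has no normal `p`-subgroup outside `Q`. -/
theorem normal_le_of_weight (hM : IsPModular p M) (Q : Subgroup T) [Q.Normal] (χ : IrrCharacter T)
    (hker : ∀ n ∈ Q, (χ : T → ℂ) n = (χ : T → ℂ) 1)
    (hdeg : (charDegree (χ : T → ℂ)).factorization p + (Nat.card Q).factorization p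
      = (Nat.card T).factorization p) (R : Subgroup T) [R.Normal] (hR : IsPGroup p R) : R ≤ Q := by
  classical
  have hp : p.Prime := Fact.out
  have := hM.2.1.isPrime
  obtain ⟨ψ, hψ⟩ := exists_deflate Q χ hker
  have hd : charDegree (ψ : T ⧸ Q → ℂ) = charDegree (χ : T → ℂ) := by
    apply charDegree_congr
    rw [← hψ, inflate_apply]
    rfl
  have hcard : (Nat.card T).factorization p
      = (Nat.card (T ⧸ Q)).factorization p + (Nat.card Q).factorization p := by
    rw [Subgroup.card_eq_card_quotient_mul_card_subgroup Q,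
      Nat.factorization_mul Nat.card_pos.ne' Nat.card_pos.ne']
    rfl
  have h0 : blockOf M (ψ : T ⧸ Q → ℂ) = {ψ} := by
    rw [← Cfsg.Agent.Lib.Helper81Orth2.defect_zero_iff hM, not_dvd_div_iff hp, hd]
    omega
  have hB : IsPBlock M (blockOf M (ψ : T ⧸ Q → ℂ)) := isPBlock_blockOf ψ
  have hdef : blockDefect p (blockOf M (ψ : T ⧸ Q → ℂ)) = 0 :=
    (blockDefect_eq_zero_iff hM hB).2 ⟨ψ, h0⟩
  obtain ⟨D, hD⟩ := Cfsg.Agent.Lib.Helper20Induced.exists_defectGroup hM hB
  have hc := Cfsg.Agent.Lib.Helper20DefCard.card_defectGroup hM hB hD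
  rw [hdef, pow_zero] at hc
  have hn : (R.map (QuotientGroup.mk' Q)).Normal :=
    Subgroup.Normal.map inferInstance _ (QuotientGroup.mk'_surjective Q)
  have hle := Cfsg.Agent.Lib.Helper20Brauer.le_defectGroup_of_normal hM
    (R.map (QuotientGroup.mk' Q)) (hR.map _) hB hD
  rw [(Subgroup.card_eq_one.1 hc)] at hle
  intro x hx
  have h1 : QuotientGroup.mk' Q x ∈ R.map (QuotientGroup.mk' Q) := Subgroup.mem_map_of_mem _ hx
  have h2 := hle h1
  rw [Subgroup.mem_bot] at h2
  exact (QuotientGroup.eq_one_iff x).1 h2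

/-- the block of a normal subgroup under a weight character. -/
theorem isDefectGroup_of_weight {C : Type*} [Group C] [Fintype C] (hM : IsPModular p M)
    (Q : Subgroup T) [Q.Normal] (hQ : IsPGroup p Q) (χ : IrrCharacter T)
    (hker : ∀ n ∈ Q, (χ : T → ℂ) n = (χ : T → ℂ) 1)
    (hdeg : (charDegree (χ : T → ℂ)).factorization p + (Nat.card Q).factorization p
      = (Nat.card T).factorization p) (ι : C →* T) (hι : ι.range.Normal)
    (hcent : ∀ c : C, ι c ∈ Q → c ∈ Subgroup.center C) (hinj : Function.Injective ι)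
    {e : Set (IrrCharacter C)} (he : IsPBlock M e)
    (hsum : ∑ c : C, blockCoeff e c * (χ : T → ℂ) (ι c) = (χ : T → ℂ) 1) :
    IsDefectGroup p M e (Q.comap ι) := by
  classical
  have hp : p.Prime := Fact.out
  have := hM.2.1.isPrime
  obtain ⟨ψ, hψ⟩ := exists_deflate Q χ hker
  have hd : charDegree (ψ : T ⧸ Q → ℂ) = charDegree (χ : T → ℂ) := by
    apply charDegree_congr
    rw [← hψ, inflate_apply]
    rfl
  set π : C →* T ⧸ Q := (QuotientGroup.mk' Q).comp ι with hπ
  have hn : π.range.Normal := by
    rw [hπ, ← MonoidHom.map_range]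
    exact Subgroup.Normal.map hι _ (QuotientGroup.mk'_surjective Q)
  let th : IrrCharacter π.range → IrrCharacter C := fun θ =>
    ⟨(θ : π.range → ℂ) ∘ π.rangeRestrict,
      isIrrCharacter_comp θ.2 π.rangeRestrict π.rangeRestrict_surjective⟩
  have hth : ∀ θ c, (th θ : C → ℂ) c = (θ : π.range → ℂ) (π.rangeRestrict c) := fun _ _ => rfl
  have hexp : ∀ c : C, (χ : T → ℂ) (ι c) = ∑ θ : IrrCharacter π.range,
      classInner (fun n : π.range => (ψ : T ⧸ Q → ℂ) n) (θ : π.range → ℂ) * (th θ : C → ℂ) c := by
    intro c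
    have h1 := congrFun (Helper4Char.classFunction_eq_sum _
      (Cfsg.Agent.Lib.Helper81RelDeg.res_classfn (N := π.range) ψ)) (π.rangeRestrict c)
    simp only [Finset.sum_apply, Pi.smul_apply, smul_eq_mul] at h1
    rw [← hψ, inflate_apply]
    exact h1
  -- find the constituent
  obtain ⟨θ, hθ1, hθ2⟩ : ∃ θ : IrrCharacter π.range, Over ψ θ ∧ th θ ∈ e := by
    by_contra hcon
    push Not at hcon
    apply irr_one_ne_zero χ
    rw [← hsum]
    simp only [hexp, Finset.mul_sum]
    rw [Finset.sum_comm]
    apply Finset.sum_eq_zero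
    intro θ _
    by_cases h1 : Over ψ θ
    · have h2 := om_blockCoeff e (th θ)
      rw [if_neg (hcon θ h1)] at h2
      unfold om at h2
      have h3 : ∑ c : C, blockCoeff e c * (th θ : C → ℂ) c = 0 := by
        have h4 : ∑ c : C, blockCoeff e c * (th θ : C → ℂ) c / (th θ : C → ℂ) 1
            = (∑ c : C, blockCoeff e c * (th θ : C → ℂ) c) / (th θ : C → ℂ) 1 := by
          rw [Finset.sum_div]
        rw [h4] at h2
        rcases div_eq_zero_iff.1 h2 with h5 | h5
        · exact h5
        · exact absurd h5 (irr_one_ne_zero _)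
      calc ∑ c : C, blockCoeff e c * (classInner (fun n : π.range => (ψ : T ⧸ Q → ℂ) n)
            (θ : π.range → ℂ) * (th θ : C → ℂ) c)
          = classInner (fun n : π.range => (ψ : T ⧸ Q → ℂ) n) (θ : π.range → ℂ)
            * ∑ c : C, blockCoeff e c * (th θ : C → ℂ) c := by
            rw [Finset.mul_sum]
            apply Finset.sum_congr rfl
            intro c _
            ring
        _ = 0 := by rw [h3, mul_zero]
    · unfold Over at h1
      push Not at h1
      simp [h1]
  have hr := Cfsg.Agent.S0887.result π.range (ψ : T ⧸ Q → ℂ) ψ.2 (θ : π.range → ℂ) θ.2 hθ1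
    (charDegree (ψ : T ⧸ Q → ℂ)) (charDegree (θ : π.range → ℂ)) (charDegree_eq ψ).symm
    (charDegree_eq θ).symm
  have hker' : π.ker = Q.comap ι := by
    ext c
    rw [MonoidHom.mem_ker, Subgroup.mem_comap, hπ, MonoidHom.comp_apply,
      QuotientGroup.mk'_apply, QuotientGroup.eq_one_iff]
  apply Cfsg.Agent.Lib.Helper81Central.isDefectGroup_of_central hM he (Q.comap ι)
    (fun c hc => hcent c hc) (hQ.comap_of_injective ι hinj) hθ2
  · intro z hz y
    rw [hth, hth]
    have h1 : π z = 1 := by
      rw [← MonoidHom.mem_ker, hker']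
      exact hz
    have h2 : π.rangeRestrict (z * y) = π.rangeRestrict y := by
      apply Subtype.ext
      show π (z * y) = π y
      rw [map_mul, h1, one_mul]
    rw [h2]
  · have hd2 : charDegree (th θ : C → ℂ) = charDegree (θ : π.range → ℂ) := by
      apply charDegree_congr
      rw [hth, map_one]
    rw [hd2, ← hker']
    have hc1 : (Nat.card T).factorization p
        = (Nat.card (T ⧸ Q)).factorization p + (Nat.card Q).factorization p := by
      rw [Subgroup.card_eq_card_quotient_mul_card_subgroup Q,
        Nat.factorization_mul Nat.card_pos.ne' Nat.card_pos.ne']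
      rfl
    have hc2 : (Nat.card (T ⧸ Q)).factorization p
        = (Nat.card π.range).factorization p + π.range.index.factorization p := by
      rw [← π.range.card_mul_index,
        Nat.factorization_mul Nat.card_pos.ne' Subgroup.index_ne_zero_of_finite]
      rfl
    have hc3 : (Nat.card C).factorization p
        = (Nat.card π.range).factorization p + (Nat.card π.ker).factorization p := by
      rw [Subgroup.card_eq_card_quotient_mul_card_subgroup π.ker,
        Nat.card_congr (QuotientGroup.quotientKerEquivRange π).toEquiv,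
        Nat.factorization_mul Nat.card_pos.ne' Nat.card_pos.ne']
      rfl
    have hc4 : (charDegree (ψ : T ⧸ Q → ℂ)).factorization p
        ≤ (charDegree (θ : π.range → ℂ)).factorization p + π.range.index.factorization p := by
      obtain ⟨k, hk⟩ := hr.1
      have hdpos := charDegree_pos θ
      have hk2 : charDegree (ψ : T ⧸ Q → ℂ) / charDegree (θ : π.range → ℂ) = k := by
        rw [hk, Nat.mul_div_cancel_left _ hdpos]
      have hk3 := hr.2
      rw [hk2] at hk3
      have hkpos : k ≠ 0 := by
        rintro rfl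
        have := charDegree_pos ψ
        omega
      rw [hk, Nat.factorization_mul hdpos.ne' hkpos]
      have := (Nat.factorization_le_iff_dvd hkpos Subgroup.index_ne_zero_of_finite).2 hk3 p
      simp only [Finsupp.coe_add, Pi.add_apply]
      omega
    rw [hd] at hc4
    omega

end Cfsg.Agent.Lib.Helper81Weight
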