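import Mathlib
import Cfsg.Agent.Lib.Helper80StarDefs
import Cfsg.Agent.Lib.Helper20Free
import Cfsg.Agent.Lib.Helper78IndPair

/-!
# Project 82 (Watanabe's theorem, row S4644): vocabulary

`B` a block with abelian defect group `P`, `K = C_G(P)`, `c` a block of `K` with `c ^ G = B`,
`T = N_G(P, c)`.  If `u ∈ C_P(T)` and `f = c ^ C_G(u)` then `l(B) = l(f)` and `k(B) = k(f)`.
-/

set_option autoImplicit false
set_option linter.unusedSectionVars false

namespace Cfsg.Agent.Lib.Helper82WatDefs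

open Cfsg
open Cfsg.Agent.Lib.Helper78MajP Cfsg.Agent.Lib.Helper80StarDefs
open scoped ComplexConjugate

universe u

section defs

variable {G : Type u} [Group G]

/-- the data of the theorem, with `K = C_G(P)` as a variable (so that it passes to subgroups). -/
structure Dat (p : ℕ) (M : Ideal AlgInt) (B : Set (IrrCharacter G)) (P K : Subgroup G)
    (c : Set (IrrCharacter K)) : Prop where
  hK : K = Subgroup.centralizer (P : Set G)
  hPD : IsDefectGroup p M B P
  hab : ∀ x ∈ P, ∀ y ∈ P, x * y = y * x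
  hc : IsInducedBlock M K c B

/-- `t ∈ T = N_G(P, c)`. -/
def Tst (P K : Subgroup G) (c : Set (IrrCharacter K)) (t : G) : Prop :=
  t ∈ Subgroup.normalizer (P : Set G) ∧ StabilizesBlock K c t

/-- the length of the `T`-orbit of `v`. -/
noncomputable def orb (P K : Subgroup G) (c : Set (IrrCharacter K)) (v : G) : ℕ :=
  Nat.card {v' : G // ∃ t : G, Tst P K c t ∧ t * v * t⁻¹ = v'}

/-- `r v = l(c ^ C_G(v))` for `v ∈ P`. -/
def IsRk (p : ℕ) (M : Ideal AlgInt) (P K : Subgroup G) (c : Set (IrrCharacter K))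
    (r : G → ℕ) : Prop :=
  ∀ v ∈ P, ∀ H : Subgroup G, H = Subgroup.centralizer ({v} : Set G) →
    ∀ f : Set (IrrCharacter H), IsInducedBlockIn M H K c f → blockRank p f = r v

/-- the rank half of the theorem for the group `G`. -/
def RankP (p : ℕ) (M : Ideal AlgInt) (G : Type u) [Group G] : Prop :=
  ∀ (B : Set (IrrCharacter G)) (P K : Subgroup G) (c : Set (IrrCharacter K)),
    Dat p M B P K c → ∀ u ∈ P, (∀ t, Tst P K c t → t * u * t⁻¹ = u) →
    ∀ H : Subgroup G, H = Subgroup.centralizer ({u} : Set G) →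
    ∀ f : Set (IrrCharacter H), IsInducedBlockIn M H K c f → blockRank p B = blockRank p f

open Classical in
/-- a linear character of `P`, extended by zero to `G`. -/
noncomputable def ex {P : Subgroup G} (l : ↥P →* ℂˣ) : G → ℂ :=
  fun g => if h : g ∈ P then ((l ⟨g, h⟩ : ℂˣ) : ℂ) else 0

/-- the group of `T`-invariant linear characters of `P`. -/
def Lam (P K : Subgroup G) (c : Set (IrrCharacter K)) : Subgroup (↥P →* ℂˣ) where
  carrier := {l | ∀ t, Tst P K c t → ∀ (v : ↥P) (h : t * (v : G) * t⁻¹ ∈ P),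
    l ⟨t * (v : G) * t⁻¹, h⟩ = l v}
  mul_mem' := by
    intro a b ha hb t ht v h
    simp only [MonoidHom.mul_apply]
    rw [ha t ht v h, hb t ht v h]
  one_mem' := by
    intro t _ v h
    simp
  inv_mem' := by
    intro a ha t ht v h
    simp only [MonoidHom.inv_apply]
    rw [ha t ht v h]

/-- the common kernel of the `T`-invariant linear characters of `P`, as a subgroup of `G`. -/
def Ker0 (P K : Subgroup G) (c : Set (IrrCharacter K)) : Subgroup G where
  carrier := {w | ∃ h : w ∈ P, ∀ l ∈ Lam P K c, l ⟨w, h⟩ = 1}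
  mul_mem' := by
    rintro a b ⟨ha, ha'⟩ ⟨hb, hb'⟩
    refine ⟨P.mul_mem ha hb, fun l hl => ?_⟩
    have : (⟨a * b, P.mul_mem ha hb⟩ : ↥P) = ⟨a, ha⟩ * ⟨b, hb⟩ := rfl
    rw [this, map_mul, ha' l hl, hb' l hl, one_mul]
  one_mem' := ⟨P.one_mem, fun l _ => map_one l⟩
  inv_mem' := by
    rintro a ⟨ha, ha'⟩
    refine ⟨P.inv_mem ha, fun l hl => ?_⟩
    have : (⟨a⁻¹, P.inv_mem ha⟩ : ↥P) = (⟨a, ha⟩ : ↥P)⁻¹ := rfl
    rw [this, map_inv, ha' l hl, inv_one]

end defs

section star

variable {G : Type u} [Group G] [Fintype G]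

open Classical in
/-- what we need from the Broué–Puig star construction (project 80, part C). -/
structure StarFacts (p : ℕ) (M : Ideal AlgInt) (B : Set (IrrCharacter G)) (P : Subgroup G)
    (e : Set (IrrCharacter (Subgroup.centralizer (P : Set G)))) : Prop where
  one : ∀ χ ∈ B, star p M P e (fun _ => 1) (χ : G → ℂ) = (χ : G → ℂ)
  inner : ∀ η : G → ℂ, FStable p M P e η → ∀ χ ψ : IrrCharacter G,
    classInner (star p M P e η (χ : G → ℂ)) (ψ : G → ℂ)
      = ∑ v : G, if v ∈ P then η v / (nF p M P e v : ℂ) * mu p M P e (χ : G → ℂ) (ψ : G → ℂ) v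
          else 0
  irr : ∀ l : G → ℂ, FStable p M P e l → l 1 = 1 → (∀ v ∈ P, ‖l v‖ = 1) →
    IsGeneralizedCharacter P (fun v : P => l v) → ∀ χ ∈ B, ∃ ψ ∈ B,
      star p M P e l (χ : G → ℂ) = (ψ : G → ℂ)
  stab : ∀ l : G → ℂ, FStable p M P e l → (∀ v ∈ P, ‖l v‖ = 1) → ∀ χ ∈ B,
    star p M P e l (χ : G → ℂ) = (χ : G → ℂ) → ∀ v ∈ P,
      mu p M P e (χ : G → ℂ) (χ : G → ℂ) v ≠ 0 → l v = 1

end star

/-- the star facts for all groups of a universe. -/
def StarAll (p : ℕ) (M : Ideal AlgInt) : Prop :=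
  ∀ (G : Type u) [Group G] [Fintype G] (B : Set (IrrCharacter G)) (P : Subgroup G)
    (e : Set (IrrCharacter (Subgroup.centralizer (P : Set G)))),
    IsMaximalBrauerPair p M B P e → StarFacts p M B P e

end Cfsg.Agent.Lib.Helper82WatDefs
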