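import Mathlib
import Cfsg.Agent.Lib.Helper82WatDefs

/-!
Project 82 (Watanabe's theorem, row S4644), piece Avg.
Sketch: notes/helper82/Wat.md
-/

set_option autoImplicit false
set_option linter.unusedSectionVars false
set_option linter.unusedVariables false

namespace Cfsg.Agent.Lib.Helper82WatAvg

open Cfsg
open Cfsg.Agent.Lib.Helper78MajP Cfsg.Agent.Lib.Helper80StarDefs Cfsg.Agent.Lib.Helper82WatDefs
open Cfsg.Agent.Lib.Helper80Transport Cfsg.Agent.Lib.Helper20Tower Cfsg.Agent.Lib.Helper80Trace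
open scoped ComplexConjugate

universe u

/-- A1 `avg`. -/
theorem avg {P : Type*} [Group P] [Fintype P] (Λ : Subgroup (P →* ℂˣ)) [Finite Λ] (a : P → ℂ)
    (h : ∀ l ∈ Λ, l ≠ 1 → ∑ v : P, ((l v : ℂˣ) : ℂ) * a v = 0) (u : P) :
    open Classical in
    (Nat.card Λ : ℂ) * ∑ w : P, (if ∀ l ∈ Λ, l w = 1 then a (u * w) else 0) = ∑ v : P, a v := by
  classical
  have := Fintype.ofFinite Λ
  have hS : ∀ x : P, ∑ l : Λ, (((l : P →* ℂˣ) x : ℂˣ) : ℂ) =
      if ∀ l ∈ Λ, l x = 1 then (Nat.card Λ : ℂ) else 0 := by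
    intro x
    split_ifs with hx
    · rw [Finset.sum_congr rfl (fun (l : Λ) _ => by rw [hx l.1 l.2])]
      simp [Nat.card_eq_fintype_card]
    · push Not at hx
      obtain ⟨l0, hl0, hne⟩ := hx
      have h1 : ∑ l : Λ, (((l : P →* ℂˣ) x : ℂˣ) : ℂ) =
          ((l0 x : ℂˣ) : ℂ) * ∑ l : Λ, (((l : P →* ℂˣ) x : ℂˣ) : ℂ) := by
        rw [Finset.mul_sum, ← Equiv.sum_comp (Equiv.mulLeft (⟨l0, hl0⟩ : Λ))]
        apply Finset.sum_congr rfl
        intro l _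
        simp [MonoidHom.mul_apply]
      have h2 : (1 - ((l0 x : ℂˣ) : ℂ)) * ∑ l : Λ, (((l : P →* ℂˣ) x : ℂˣ) : ℂ) = 0 := by
        linear_combination h1
      rcases mul_eq_zero.1 h2 with h3 | h3
      · exfalso
        apply hne
        apply Units.ext
        rw [Units.val_one]
        linear_combination -h3
      · exact h3
  have key : ∑ l : Λ, (((l : P →* ℂˣ) u⁻¹ : ℂˣ) : ℂ) *
      ∑ v : P, (((l : P →* ℂˣ) v : ℂˣ) : ℂ) * a v = ∑ v, a v := by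
    rw [Finset.sum_eq_single (1 : Λ)]
    · simp
    · intro l _ hl
      rw [h l.1 l.2 (fun h' => hl (Subtype.ext h')), mul_zero]
    · intro h'
      exact absurd (Finset.mem_univ _) h'
  rw [← key]
  simp_rw [Finset.mul_sum]
  rw [Finset.sum_comm]
  have h5 : ∑ v : P, ∑ l : Λ, (((l : P →* ℂˣ) u⁻¹ : ℂˣ) : ℂ) *
      ((((l : P →* ℂˣ) v : ℂˣ) : ℂ) * a v) = ∑ w : P, ∑ l : Λ, (((l : P →* ℂˣ) u⁻¹ : ℂˣ) : ℂ) *
      ((((l : P →* ℂˣ) (u * w) : ℂˣ) : ℂ) * a (u * w)) :=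
    (Equiv.sum_comp (Equiv.mulLeft u) _).symm
  rw [h5]
  apply Finset.sum_congr rfl
  intro w _
  have h4 : ∀ l : Λ, (((l : P →* ℂˣ) u⁻¹ : ℂˣ) : ℂ) *
      ((((l : P →* ℂˣ) (u * w) : ℂˣ) : ℂ) * a (u * w)) =
      (((l : P →* ℂˣ) w : ℂˣ) : ℂ) * a (u * w) := by
    intro l
    rw [← mul_assoc, ← Units.val_mul, ← map_mul, inv_mul_cancel_left]
  rw [Finset.sum_congr rfl (fun l _ => h4 l), ← Finset.sum_mul, hS]
  split_ifs <;> simp

end Cfsg.Agent.Lib.Helper82WatAvg
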