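import Mathlib
import Cfsg.Agent.Lib.Helper82WatDefs
import Cfsg.Agent.Lib.Helper80Sat
import Cfsg.Agent.Lib.Helper80Full2

/-!
Project 82 (Watanabe's theorem, row S4644), piece Max.
Sketch: notes/helper82/Wat.md
-/

set_option autoImplicit false
set_option linter.unusedSectionVars false
set_option linter.unusedVariables false

namespace Cfsg.Agent.Lib.Helper82WatMax

open Cfsg
open Cfsg.Agent.Lib.Helper78MajP Cfsg.Agent.Lib.Helper80StarDefs Cfsg.Agent.Lib.Helper82WatDefs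
open Cfsg.Agent.Lib.Helper80Transport Cfsg.Agent.Lib.Helper20Tower Cfsg.Agent.Lib.Helper80Trace
open Cfsg.Agent.Lib.Helper80Conj Cfsg.Agent.Lib.Helper80Incl Cfsg.Agent.Lib.Helper80Abel
open Cfsg.Agent.Lib.Helper80Sat Cfsg.Agent.Lib.Helper80Full2 Cfsg.Agent.Lib.Helper80Up
open Cfsg.Agent.Lib.Helper80Pairs Cfsg.Agent.Lib.Helper80Brauer
open scoped ComplexConjugate

universe u

variable {M : Ideal AlgInt} {p : ℕ} [Fact p.Prime]
variable {G : Type u} [Group G] [Fintype G]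
variable {B : Set (IrrCharacter G)} {P : Subgroup G}
  {e : Set (IrrCharacter (Subgroup.centralizer (P : Set G)))}

/-- S0 -/
theorem max_of_dat (hM : IsPModular p M) (D : Dat p M B P (Subgroup.centralizer (P : Set G)) e) :
    IsMaximalBrauerPair p M B P e := by
  have hPp : IsPGroup p P := Cfsg.Agent.Lib.Helper20HK.isPGroup_of_defectGroup D.hPD
  exact isMaximal_of_defectGroup hM
    (Cfsg.Agent.Lib.Helper78IndPair.isBrauerPairOf_of_induced hM hPp D.hc) D.hPD

/-- S0' -/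
theorem tst_iff (hM : IsPModular p M) (hmax : IsMaximalBrauerPair p M B P e) (t : G) :
    Tst P (Subgroup.centralizer (P : Set G)) e t ↔ t ∈ pstab P e := by
  classical
  have hPr : M.IsPrime := hM.2.1.isPrime
  unfold Tst
  rw [stabilizesBlock_iff hPr hmax.1.1.2, Cfsg.Agent.Lib.Helper80Stab.mem_stabFun]
  constructor
  · rintro ⟨h1, -, h3⟩
    exact ⟨h1, h3⟩
  · rintro ⟨h1, h3⟩
    exact ⟨h1, normalizer_le_normalizer_centralizer P h1, h3⟩

/-- S1 -/
theorem fc_iff (hM : IsPModular p M) (hmax : IsMaximalBrauerPair p M B P e)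
    (hab : ∀ x ∈ P, ∀ y ∈ P, x * y = y * x) {v v' : G} (hv : v ∈ P) (hv' : v' ∈ P) :
    FC p M P e v v' ↔ ∃ t ∈ pstab P e, t * v * t⁻¹ = v' := by
  classical
  have hPr : M.IsPrime := hM.2.1.isPrime
  have hz : IsZ P v := ⟨hv, fun y hy => hab y hy v hv⟩
  have hz' : IsZ P v' := ⟨hv', fun y hy => hab y hy v' hv'⟩
  constructor
  · rintro ⟨x, hx, hpair⟩
    exact exists_pstab_of_cjPair hM hmax hz hz' hx hpair
  · rintro ⟨t, ht, htv⟩
    refine ⟨t, htv, ?_⟩
    have h1 : PLE p M (cjPair t (bel p M P e v)) (cjPair t ⟨P, e⟩) :=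
      ple_cj hPr (fz_spec hM hmax.1.1 hz.zpowers_le) t
    rw [mem_pstab_iff.1 ht] at h1
    have h2 : PLE p M (bel p M P e v') ⟨P, e⟩ := fz_spec hM hmax.1.1 hz'.zpowers_le
    apply eq_of_ple_of_fst_eq hM (c := ⟨P, e⟩) hmax.1.1 h1 h2
    show (cjPair t (bel p M P e v)).1 = Subgroup.zpowers v'
    rw [cjPair_fst]
    show Cfsg.Agent.Lib.Helper87Sylow.cj t (Subgroup.zpowers v) = _
    rw [cj_zpowers, htv]

/-- S2 -/
theorem nF_eq_orb (hM : IsPModular p M) (hmax : IsMaximalBrauerPair p M B P e)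
    (hab : ∀ x ∈ P, ∀ y ∈ P, x * y = y * x) {v : G} (hv : v ∈ P) :
    nF p M P e v = orb P (Subgroup.centralizer (P : Set G)) e v := by
  classical
  unfold nF orb
  rw [Nat.card_eq_fintype_card, Fintype.card_subtype]
  congr 1
  ext v'
  simp only [Finset.mem_filter, Finset.mem_univ, true_and]
  constructor
  · rintro ⟨hv', hfc⟩
    obtain ⟨t, ht, h⟩ := (fc_iff hM hmax hab hv hv').1 hfc
    exact ⟨t, (tst_iff hM hmax t).2 ht, h⟩
  · rintro ⟨t, ht, h⟩
    have ht' := (tst_iff hM hmax t).1 ht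
    have hv' : v' ∈ P := by
      rw [← h]
      exact (Subgroup.mem_normalizer_iff.1 ht.1 v).1 hv
    exact ⟨hv', (fc_iff hM hmax hab hv hv').2 ⟨t, ht', h⟩⟩

end Cfsg.Agent.Lib.Helper82WatMax
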