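import Mathlib
import Cfsg.Agent.Lib.Helper82WatDefs
import Cfsg.Agent.Lib.Helper82WatMax
import Cfsg.Agent.Lib.Helper19Lin
import Cfsg.Agent.Lib.Helper19Berger
import Cfsg.Agent.Lib.Helper32Virt

/-!
Project 82 (Watanabe's theorem, row S4644), piece Ex.
Sketch: notes/helper82/Wat.md
-/

set_option autoImplicit false
set_option linter.unusedSectionVars false
set_option linter.unusedVariables false

namespace Cfsg.Agent.Lib.Helper82WatEx

open Cfsg
open Cfsg.Agent.Lib.Helper78MajP Cfsg.Agent.Lib.Helper80StarDefs Cfsg.Agent.Lib.Helper82WatDefs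
open Cfsg.Agent.Lib.Helper80Transport Cfsg.Agent.Lib.Helper20Tower Cfsg.Agent.Lib.Helper80Trace
open Cfsg.Agent.Lib.Helper82WatMax
open scoped ComplexConjugate

universe u

variable {M : Ideal AlgInt} {p : ℕ} [Fact p.Prime]
variable {G : Type u} [Group G] [Fintype G]
variable {B : Set (IrrCharacter G)} {P : Subgroup G}
  {e : Set (IrrCharacter (Subgroup.centralizer (P : Set G)))}

/-- S3 -/
theorem ex_facts (hM : IsPModular p M) (hmax : IsMaximalBrauerPair p M B P e)
    (hab : ∀ x ∈ P, ∀ y ∈ P, x * y = y * x) {l : ↥P →* ℂˣ}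
    (hl : l ∈ Lam P (Subgroup.centralizer (P : Set G)) e) :
    FStable p M P e (ex l) ∧ (∀ v ∈ P, ‖ex l v‖ = 1) ∧
      IsGeneralizedCharacter P (fun v : P => ex l v) := by
  classical
  have hex : ∀ (v : G) (hv : v ∈ P), ex l v = ((l ⟨v, hv⟩ : ℂˣ) : ℂ) := by
    intro v hv
    unfold ex
    rw [dif_pos hv]
  refine ⟨?_, ?_, ?_⟩
  · intro v hv v' hv' hfc
    obtain ⟨t, ht, h⟩ := (fc_iff hM hmax hab hv hv').1 hfc
    subst h
    rw [hex _ hv, hex _ hv']
    exact congrArg _ (hl t ((tst_iff hM hmax t).2 ht) ⟨v, hv⟩ hv').symm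
  · intro v hv
    rw [hex _ hv]
    exact Cfsg.Agent.Lib.Helper19Berger.norm_homFun l ⟨v, hv⟩
  · have : (fun v : P => ex l v) = Cfsg.Agent.Lib.Helper19Lin.homFun l := by
      funext v
      rw [hex _ v.2]
      rfl
    rw [this]
    exact Cfsg.Agent.Lib.Helper32Virt.gen_of_char
      (Cfsg.Agent.Lib.Helper19Lin.isCharacter_homFun l)

end Cfsg.Agent.Lib.Helper82WatEx
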