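import Mathlib
import Cfsg.Agent.Lib.Helper82WatDefs
import Cfsg.Agent.Lib.Helper82WatMax
import Cfsg.Agent.Lib.Helper81Rank
import Cfsg.Agent.Lib.Helper80Sat
import Cfsg.Agent.Lib.Helper78AbNil

/-!
Project 82 (Watanabe's theorem, row S4644), piece Rk.
Sketch: notes/helper82/Wat.md
-/

set_option autoImplicit false
set_option linter.unusedSectionVars false
set_option linter.unusedVariables false

namespace Cfsg.Agent.Lib.Helper82WatRk

open Cfsg
open Cfsg.Agent.Lib.Helper78MajP Cfsg.Agent.Lib.Helper80StarDefs Cfsg.Agent.Lib.Helper82WatDefs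
open Cfsg.Agent.Lib.Helper80Transport Cfsg.Agent.Lib.Helper20Tower Cfsg.Agent.Lib.Helper80Trace
open Cfsg.Agent.Lib.Helper82WatMax
open Cfsg.Agent.Lib.Helper80Incl Cfsg.Agent.Lib.Helper80Sat Cfsg.Agent.Lib.Helper84Subsec
open scoped ComplexConjugate

universe u

variable {M : Ideal AlgInt} {p : ℕ} [Fact p.Prime]
variable {G : Type u} [Group G] [Fintype G]
variable {B : Set (IrrCharacter G)} {P : Subgroup G}
  {e : Set (IrrCharacter (Subgroup.centralizer (P : Set G)))}

/-- S4 -/
theorem rk_fz (hM : IsPModular p M) (hmax : IsMaximalBrauerPair p M B P e)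
    (hab : ∀ x ∈ P, ∀ y ∈ P, x * y = y * x) {r : G → ℕ}
    (hr : IsRk p M P (Subgroup.centralizer (P : Set G)) e r) {v : G} (hv : v ∈ P) :
    blockRank p (fz p M P e (Subgroup.zpowers v)) = r v := by
  classical
  have hz : IsZ P v := ⟨hv, fun y hy => hab y hy v hv⟩
  have hCH : Subgroup.centralizer (P : Set G)
      ≤ Subgroup.centralizer ((Subgroup.zpowers v : Subgroup G) : Set G) :=
    Subgroup.centralizer_le hz.zpowers_le
  obtain ⟨f, hf⟩ := Cfsg.Agent.Lib.Helper20Free.exists_local hM hmax.1.1.1 hab hmax.1.1.2 hCH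
  have hn := Cfsg.Agent.Lib.Helper78IndPair.isNormalSubpair_of_inducedIn hM hmax.1.1.1
    hz.zpowers_le hz.le_centralizer hf
  have hle : PLE p M ⟨Subgroup.zpowers v, f⟩ ⟨P, e⟩ := Relation.ReflTransGen.single hn
  have heq := eq_of_ple_of_fst_eq hM (c := ⟨P, e⟩) hmax.1.1 hle
    (fz_spec hM hmax.1.1 hz.zpowers_le) rfl
  have hf' : f = fz p M P e (Subgroup.zpowers v) := by
    simpa using heq
  rw [← hf']
  exact hr v hv _ (centralizer_zpowers v) f hf

/-- S5 -/
theorem sum_mu (hM : IsPModular p M) (hmax : IsMaximalBrauerPair p M B P e)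
    (hab : ∀ x ∈ P, ∀ y ∈ P, x * y = y * x) {v : G} (hv : v ∈ P) :
    open Classical in
    ∑ χ : IrrCharacter G, (if χ ∈ B then mu p M P e (χ : G → ℂ) (χ : G → ℂ) v else 0)
      = (blockRank p (fz p M P e (Subgroup.zpowers v)) : ℂ) := by
  classical
  have hz : IsZ P v := ⟨hv, fun y hy => hab y hy v hv⟩
  have key : ∀ (H : Subgroup G) (hH : H = Subgroup.centralizer ({v} : Set G))
      (b : Set (IrrCharacter H)), IsInducedBlock M H b B →
      ∑ χ : IrrCharacter G, (if χ ∈ B then mm p b v (χ : G → ℂ) (χ : G → ℂ) else 0)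
        = (blockRank p b : ℂ) := by
    intro H hH b hb
    subst hH
    convert sum_mm_self hM v (hz.orderOf hmax.1.1.1) hb
  exact key _ (centralizer_zpowers v) _ (fz_induced hM hmax hz)

/-- S5' -/
theorem rank_fz_one (hM : IsPModular p M) (hmax : IsMaximalBrauerPair p M B P e)
    (hab : ∀ x ∈ P, ∀ y ∈ P, x * y = y * x) :
    blockRank p (fz p M P e (Subgroup.zpowers 1)) = blockRank p B := by
  classical
  have hPr : M.IsPrime := hM.2.1.isPrime
  have h1 := sum_mu hM hmax hab P.one_mem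
  have h2 := Cfsg.Agent.Lib.Helper81Rank.blockRank_eq hM
    (Cfsg.Agent.Lib.Helper81Subsec.isBlockUnion_of_isPBlock hmax.1.2.1)
  have : (blockRank p (fz p M P e (Subgroup.zpowers 1)) : ℂ) = (blockRank p B : ℂ) := by
    rw [← h1, h2]
    apply Finset.sum_congr rfl
    intro χ _
    split_ifs with hχ
    · rw [mu_self hM hmax (Cfsg.Agent.Lib.Helper78AbNil.isZ_one P),
        Cfsg.Agent.Lib.Helper78AbNil.mr_one hM hmax hχ]
    · rfl
  exact_mod_cast this

end Cfsg.Agent.Lib.Helper82WatRk
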