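import Mathlib
import Cfsg.Agent.Lib.Helper82WatDefs
import Cfsg.Agent.Lib.Helper82WatMax
import Cfsg.Agent.Lib.Helper82WatEx
import Cfsg.Agent.Lib.Helper82WatRk

/-!
Project 82 (Watanabe's theorem, row S4644), piece Fix.
Sketch: notes/helper82/Wat.md
-/

set_option autoImplicit false
set_option linter.unusedSectionVars false
set_option linter.unusedVariables false

namespace Cfsg.Agent.Lib.Helper82WatFix

open Cfsg
open Cfsg.Agent.Lib.Helper78MajP Cfsg.Agent.Lib.Helper80StarDefs Cfsg.Agent.Lib.Helper82WatDefs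
open Cfsg.Agent.Lib.Helper80Transport Cfsg.Agent.Lib.Helper20Tower Cfsg.Agent.Lib.Helper80Trace
open Cfsg.Agent.Lib.Helper82WatMax Cfsg.Agent.Lib.Helper82WatEx Cfsg.Agent.Lib.Helper82WatRk
open scoped ComplexConjugate

universe u

variable {M : Ideal AlgInt} {p : ℕ} [Fact p.Prime]
variable {G : Type u} [Group G] [Fintype G]
variable {B : Set (IrrCharacter G)} {P : Subgroup G}
  {e : Set (IrrCharacter (Subgroup.centralizer (P : Set G)))}

/-- S6 -/
theorem fix_formula (hM : IsPModular p M) (hmax : IsMaximalBrauerPair p M B P e)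
    (hab : ∀ x ∈ P, ∀ y ∈ P, x * y = y * x) (F : StarFacts p M B P e) {l : ↥P →* ℂˣ}
    (hl : l ∈ Lam P (Subgroup.centralizer (P : Set G)) e) {r : G → ℕ}
    (hr : IsRk p M P (Subgroup.centralizer (P : Set G)) e r) :
    open Classical in
    (Nat.card {χ : IrrCharacter G // χ ∈ B ∧ star p M P e (ex l) (χ : G → ℂ) = (χ : G → ℂ)} : ℂ)
      = ∑ v : G, if v ∈ P then
          ex l v * ((r v : ℂ) / (orb P (Subgroup.centralizer (P : Set G)) e v : ℂ)) else 0 := by
  classical
  obtain ⟨hst, hnorm, hgen⟩ := ex_facts hM hmax hab hl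
  have h1 : ∀ χ : IrrCharacter G, χ ∈ B →
      classInner (star p M P e (ex l) (χ : G → ℂ)) (χ : G → ℂ)
        = if star p M P e (ex l) (χ : G → ℂ) = (χ : G → ℂ) then 1 else 0 := by
    intro χ hχ
    have hone : ex l 1 = 1 := by
      unfold ex
      rw [dif_pos P.one_mem]
      have : (⟨1, P.one_mem⟩ : ↥P) = 1 := rfl
      rw [this, map_one, Units.val_one]
    obtain ⟨ψ, hψ, hs⟩ := F.irr (ex l) hst hone hnorm hgen χ hχ
    rw [hs]
    split_ifs with h
    · rw [h]
      exact Cfsg.Agent.Lib.Helper4Char.classInner_irr_self χ.2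
    · exact Cfsg.Agent.Lib.Helper4Char.classInner_irr_ne ψ.2 χ.2 h
  have h2 : (Nat.card {χ : IrrCharacter G // χ ∈ B ∧
      star p M P e (ex l) (χ : G → ℂ) = (χ : G → ℂ)} : ℂ)
      = ∑ χ : IrrCharacter G, if χ ∈ B then
          classInner (star p M P e (ex l) (χ : G → ℂ)) (χ : G → ℂ) else 0 := by
    rw [Nat.card_eq_fintype_card, Fintype.card_subtype, Finset.card_filter]
    push_cast
    apply Finset.sum_congr rfl
    intro χ _
    by_cases hχ : χ ∈ B
    · rw [if_pos hχ, h1 χ hχ]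
      by_cases hs : star p M P e (ex l) (χ : G → ℂ) = (χ : G → ℂ)
      · rw [if_pos hs, if_pos ⟨hχ, hs⟩]
      · rw [if_neg hs, if_neg (fun h => hs h.2)]
    · rw [if_neg hχ, if_neg (fun h => hχ h.1)]
  rw [h2]
  have h3 : ∀ χ : IrrCharacter G, (if χ ∈ B then
      classInner (star p M P e (ex l) (χ : G → ℂ)) (χ : G → ℂ) else 0)
      = ∑ v : G, if v ∈ P then ex l v / (nF p M P e v : ℂ) *
          (if χ ∈ B then mu p M P e (χ : G → ℂ) (χ : G → ℂ) v else 0) else 0 := by
    intro χ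
    by_cases hχ : χ ∈ B
    · simp only [if_pos hχ]
      exact F.inner (ex l) hst χ χ
    · simp only [if_neg hχ, mul_zero, ite_self, Finset.sum_const_zero]
  simp only [h3]
  rw [Finset.sum_comm]
  apply Finset.sum_congr rfl
  intro v _
  by_cases hv : v ∈ P
  · simp only [if_pos hv]
    rw [← Finset.mul_sum, sum_mu hM hmax hab hv, rk_fz hM hmax hab hr hv,
      nF_eq_orb hM hmax hab hv]
    ring
  · simp only [if_neg hv, Finset.sum_const_zero]

end Cfsg.Agent.Lib.Helper82WatFix
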