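import Mathlib
import Cfsg.Agent.Lib.Helper82WatDefs
import Cfsg.Agent.Lib.Helper82WatMax
import Cfsg.Agent.Lib.Helper82WatEx

/-!
Project 82 (Watanabe's theorem, row S4644), piece Free.
Sketch: notes/helper82/Wat.md
-/

set_option autoImplicit false
set_option linter.unusedSectionVars false
set_option linter.unusedVariables false

namespace Cfsg.Agent.Lib.Helper82WatFree

open Cfsg
open Cfsg.Agent.Lib.Helper78MajP Cfsg.Agent.Lib.Helper80StarDefs Cfsg.Agent.Lib.Helper82WatDefs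
open Cfsg.Agent.Lib.Helper80Transport Cfsg.Agent.Lib.Helper20Tower Cfsg.Agent.Lib.Helper80Trace
open Cfsg.Agent.Lib.Helper82WatMax Cfsg.Agent.Lib.Helper82WatEx
open scoped ComplexConjugate

universe u

variable {M : Ideal AlgInt} {p : ℕ} [Fact p.Prime]
variable {G : Type u} [Group G] [Fintype G]
variable {B : Set (IrrCharacter G)} {P : Subgroup G}
  {e : Set (IrrCharacter (Subgroup.centralizer (P : Set G)))}

/-- S7 -/
theorem fix_free (hM : IsPModular p M) (hmax : IsMaximalBrauerPair p M B P e)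
    (hab : ∀ x ∈ P, ∀ y ∈ P, x * y = y * x) (F : StarFacts p M B P e) {l : ↥P →* ℂˣ}
    (hl : l ∈ Lam P (Subgroup.centralizer (P : Set G)) e) (hne : l ≠ 1) :
    Nat.card {χ : IrrCharacter G // χ ∈ B ∧ star p M P e (ex l) (χ : G → ℂ) = (χ : G → ℂ)}
      = 0 := by
  classical
  obtain ⟨hst, hnorm, hgen⟩ := ex_facts hM hmax hab hl
  rw [Nat.card_eq_zero]
  left
  refine ⟨?_⟩
  rintro ⟨χ, hχ, hs⟩
  apply hne
  ext v
  have hz : IsZ P (v : G) := ⟨v.2, fun y hy => hab y hy v v.2⟩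
  have hmu : mu p M P e (χ : G → ℂ) (χ : G → ℂ) (v : G) ≠ 0 := by
    rw [mu_self hM hmax hz]
    exact_mod_cast (mr_pos hM hmax hz hχ).ne'
  have := F.stab (ex l) hst hnorm χ hχ hs v v.2 hmu
  unfold ex at this
  rw [dif_pos v.2] at this
  simpa using this

/-- S8 -/
theorem fix_one (F : StarFacts p M B P e) :
    Nat.card {χ : IrrCharacter G // χ ∈ B ∧
      star p M P e (ex (1 : ↥P →* ℂˣ)) (χ : G → ℂ) = (χ : G → ℂ)} = Nat.card B := by
  classical
  have h1 : ∀ χ : G → ℂ, star p M P e (ex (1 : ↥P →* ℂˣ)) χ = star p M P e (fun _ => 1) χ := by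
    intro χ
    funext g
    unfold Cfsg.Agent.Lib.Helper80StarDefs.star
    apply Finset.sum_congr rfl
    intro v _
    by_cases hv : v ∈ P
    · rw [if_pos hv, if_pos hv]
      unfold ex
      rw [dif_pos hv]
      simp
    · rw [if_neg hv, if_neg hv]
  apply Nat.card_congr
  refine ⟨fun x => ⟨x.1, x.2.1⟩, fun x => ⟨x.1, x.2, ?_⟩, fun x => rfl, fun x => rfl⟩
  rw [h1]
  exact F.one x.1 x.2

end Cfsg.Agent.Lib.Helper82WatFree
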