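import Mathlib
import Cfsg.Agent.Lib.Helper82WatDefs
import Cfsg.Agent.Lib.Helper82WatAvg
import Cfsg.Agent.Lib.Helper82WatMax
import Cfsg.Agent.Lib.Helper82WatFix
import Cfsg.Agent.Lib.Helper82WatFree

/-!
Project 82 (Watanabe's theorem, row S4644), piece Core.
Sketch: notes/helper82/Wat.md
-/

set_option autoImplicit false
set_option linter.unusedSectionVars false
set_option linter.unusedVariables false

namespace Cfsg.Agent.Lib.Helper82WatCore

open Cfsg
open Cfsg.Agent.Lib.Helper78MajP Cfsg.Agent.Lib.Helper80StarDefs Cfsg.Agent.Lib.Helper82WatDefs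
open Cfsg.Agent.Lib.Helper80Transport Cfsg.Agent.Lib.Helper20Tower Cfsg.Agent.Lib.Helper80Trace
open Cfsg.Agent.Lib.Helper82WatAvg Cfsg.Agent.Lib.Helper82WatMax Cfsg.Agent.Lib.Helper82WatFix Cfsg.Agent.Lib.Helper82WatFree
open scoped ComplexConjugate

universe u

variable {M : Ideal AlgInt} {p : ℕ} [Fact p.Prime]
variable {G : Type u} [Group G] [Fintype G]
variable {B : Set (IrrCharacter G)} {P K : Subgroup G} {c : Set (IrrCharacter K)}

theorem core_sum_sub (P : Subgroup G) (f : G → ℂ) :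
    open Classical in
    ∑ v : G, (if v ∈ P then f v else 0) = ∑ v : ↥P, f v := by
  classical
  rw [← Finset.sum_filter]
  exact Finset.sum_subtype (Finset.univ.filter (· ∈ P)) (by simp) f

theorem core_ex_apply (l : ↥P →* ℂˣ) (v : ↥P) : ex l (v : G) = ((l v : ℂˣ) : ℂ) := by
  unfold ex
  rw [dif_pos v.2]

/-- C2 (from S6, S8) -/
theorem ksum (hM : IsPModular p M) (hS : StarAll.{u} p M) (D : Dat p M B P K c) {r : G → ℕ}
    (hr : IsRk p M P K c r) :
    open Classical in
    (Nat.card B : ℂ) = ∑ v : G, if v ∈ P then (r v : ℂ) / (orb P K c v : ℂ) else 0 := by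
  classical
  have hK := D.hK
  subst hK
  have hmax := max_of_dat hM D
  have F := hS G B P c hmax
  have h1 := fix_formula hM hmax D.hab F (l := 1) (Subgroup.one_mem _) hr
  rw [fix_one F] at h1
  rw [h1]
  apply Finset.sum_congr rfl
  intro v _
  by_cases hv : v ∈ P
  · rw [if_pos hv, if_pos hv]
    have := core_ex_apply (1 : ↥P →* ℂˣ) ⟨v, hv⟩
    simp only [MonoidHom.one_apply, Units.val_one] at this
    rw [this, one_mul]
  · rw [if_neg hv, if_neg hv]

/-- C1 (from A1, S0, S6, S7, S8) -/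
theorem core (hM : IsPModular p M) (hS : StarAll.{u} p M) (D : Dat p M B P K c) {r : G → ℕ}
    (hr : IsRk p M P K c r) :
    open Classical in
    ∃ N : ℕ, N ≠ 0 ∧ ∀ u ∈ P, (N : ℂ) * ∑ w : G, (if w ∈ Ker0 P K c then
      (r (u * w) : ℂ) / (orb P K c (u * w) : ℂ) else 0) = (Nat.card B : ℂ) := by
  classical
  have hks := ksum hM hS D hr
  have hK := D.hK
  subst hK
  have hmax := max_of_dat hM D
  have F := hS G B P c hmax
  have hfin : Finite (↥P →* ℂˣ) := inferInstance
  have hfinL : Finite ↥(Lam P (Subgroup.centralizer (P : Set G)) c) := inferInstance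
  refine ⟨Nat.card ↥(Lam P (Subgroup.centralizer (P : Set G)) c), Nat.card_pos.ne', ?_⟩
  intro u hu
  set a : ↥P → ℂ := fun v => (r (v : G) : ℂ) / (orb P (Subgroup.centralizer (P : Set G)) c (v : G) : ℂ)
    with ha
  have h : ∀ l ∈ Lam P (Subgroup.centralizer (P : Set G)) c, l ≠ 1 →
      ∑ v : ↥P, ((l v : ℂˣ) : ℂ) * a v = 0 := by
    intro l hl hne
    have h1 := fix_formula hM hmax D.hab F hl hr
    rw [fix_free hM hmax D.hab F hl hne, core_sum_sub P (fun v => ex l v *
      ((r v : ℂ) / (orb P (Subgroup.centralizer (P : Set G)) c v : ℂ)))] at h1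
    rw [Nat.cast_zero] at h1
    rw [h1]
    apply Finset.sum_congr rfl
    intro v _
    rw [core_ex_apply]
  have h2 := avg (Lam P (Subgroup.centralizer (P : Set G)) c) a h ⟨u, hu⟩
  rw [hks, core_sum_sub P (fun v => (r v : ℂ) / (orb P (Subgroup.centralizer (P : Set G)) c v : ℂ))]
  rw [← h2]
  congr 1
  have h3 : ∀ w : G, (if w ∈ Ker0 P (Subgroup.centralizer (P : Set G)) c then
      (r (u * w) : ℂ) / (orb P (Subgroup.centralizer (P : Set G)) c (u * w) : ℂ) else 0) =
      if w ∈ P then (if w ∈ Ker0 P (Subgroup.centralizer (P : Set G)) c then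
      (r (u * w) : ℂ) / (orb P (Subgroup.centralizer (P : Set G)) c (u * w) : ℂ) else 0) else 0 := by
    intro w
    by_cases hw : w ∈ P
    · rw [if_pos hw]
    · rw [if_neg hw, if_neg]
      rintro ⟨hw', _⟩
      exact hw hw'
  rw [Finset.sum_congr rfl (fun w _ => h3 w), core_sum_sub P (fun w =>
    if w ∈ Ker0 P (Subgroup.centralizer (P : Set G)) c then
      (r (u * w) : ℂ) / (orb P (Subgroup.centralizer (P : Set G)) c (u * w) : ℂ) else 0)]
  apply Finset.sum_congr rfl
  intro w _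
  have h4 : ((w : G) ∈ Ker0 P (Subgroup.centralizer (P : Set G)) c) ↔
      ∀ l ∈ Lam P (Subgroup.centralizer (P : Set G)) c, l w = 1 := by
    constructor
    · rintro ⟨_, h5⟩
      exact h5
    · intro h5
      exact ⟨w.2, h5⟩
  by_cases h6 : (w : G) ∈ Ker0 P (Subgroup.centralizer (P : Set G)) c
  · rw [if_pos h6, if_pos (h4.1 h6)]
    rfl
  · rw [if_neg h6, if_neg (fun h7 => h6 (h4.2 h7))]

end Cfsg.Agent.Lib.Helper82WatCore
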