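import Mathlib
import Cfsg.Agent.Lib.Helper82WatDefs

/-!
Project 82 (Watanabe's theorem, row S4644), piece Dat.
Sketch: notes/helper82/Wat.md
-/

set_option autoImplicit false
set_option linter.unusedSectionVars false
set_option linter.unusedVariables false

namespace Cfsg.Agent.Lib.Helper82WatDat

open Cfsg
open Cfsg.Agent.Lib.Helper78MajP Cfsg.Agent.Lib.Helper80StarDefs Cfsg.Agent.Lib.Helper82WatDefs
open Cfsg.Agent.Lib.Helper80Transport Cfsg.Agent.Lib.Helper20Tower Cfsg.Agent.Lib.Helper80Trace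
open scoped ComplexConjugate

universe u

variable {M : Ideal AlgInt} {p : ℕ} [Fact p.Prime]
variable {G : Type u} [Group G] [Fintype G]
variable {B : Set (IrrCharacter G)} {P K : Subgroup G} {c : Set (IrrCharacter K)}

/-- T5 -/
theorem dat_down (hM : IsPModular p M) (D : Dat p M B P K c) {L : Subgroup G} (hKL : K ≤ L)
    {b : Set (IrrCharacter L)} (hb : IsInducedBlockIn M L K c b) :
    Dat p M b (P.subgroupOf L) (K.subgroupOf L) (down hKL c) := by
  classical
  obtain ⟨hK, hPD, hab, hc⟩ := D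
  subst hK
  have hPC : P ≤ Subgroup.centralizer (P : Set G) := by
    intro x hx
    rw [Subgroup.mem_centralizer_iff]
    intro y hy
    exact hab y hy x hx
  refine ⟨Cfsg.Agent.Lib.Helper20Free.centralizer_subgroupOf (hPC.trans hKL),
    Cfsg.Agent.Lib.Helper20Free.isDefectGroup_mid hM hPD hab hc hKL hb, ?_,
    (Cfsg.Agent.Lib.Helper20Rel.isInducedBlockIn_iff hKL c b).mp hb⟩
  intro x hx y hy
  apply Subtype.ext
  exact hab _ hx _ hy

/-- T6 -/
theorem tst_down (hM : IsPModular p M) (D : Dat p M B P K c) {L : Subgroup G} (hKL : K ≤ L)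
    (t : ↥L) : Tst (P.subgroupOf L) (K.subgroupOf L) (down hKL c) t ↔ Tst P K c (t : G) := by
  classical
  obtain ⟨hK, hPD, hab, hc⟩ := D
  subst hK
  have hPC : P ≤ Subgroup.centralizer (P : Set G) := by
    intro x hx
    rw [Subgroup.mem_centralizer_iff]
    intro y hy
    exact hab y hy x hx
  unfold Tst
  rw [← Cfsg.Agent.Lib.Helper20Rel.normalizer_subgroupOf (hPC.trans hKL), Subgroup.mem_subgroupOf,
    Cfsg.Agent.Lib.Helper20Free.stabilizesBlock_down (Cfsg.Agent.Lib.Helper20Local.IsPModular.isPrime hM) hKL hc.1 t]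

end Cfsg.Agent.Lib.Helper82WatDat
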