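import Mathlib
import Cfsg.Agent.Lib.Helper82WatDefs

/-!
Project 82 (Watanabe's theorem, row S4644), piece Down.
Sketch: notes/helper82/Wat.md
-/

set_option autoImplicit false
set_option linter.unusedSectionVars false
set_option linter.unusedVariables false

namespace Cfsg.Agent.Lib.Helper82WatDown

open Cfsg
open Cfsg.Agent.Lib.Helper78MajP Cfsg.Agent.Lib.Helper80StarDefs Cfsg.Agent.Lib.Helper82WatDefs
open Cfsg.Agent.Lib.Helper80Transport Cfsg.Agent.Lib.Helper20Tower Cfsg.Agent.Lib.Helper80Trace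
open Cfsg.Agent.Lib.Helper82Quot
open scoped ComplexConjugate

universe u

variable {M : Ideal AlgInt} {p : ℕ} [Fact p.Prime]
variable {G : Type u} [Group G] [Fintype G]
variable {B : Set (IrrCharacter G)} {P K : Subgroup G} {c : Set (IrrCharacter K)}

/-- T2 -/
theorem inducedIn_down (hM : IsPModular p M) {K J L : Subgroup G} (hKJ : K ≤ J) (hJL : J ≤ L)
    {c : Set (IrrCharacter K)} {g : Set (IrrCharacter J)} (hg : IsInducedBlockIn M J K c g) :
    IsInducedBlockIn M (J.subgroupOf L) (K.subgroupOf L) (down (hKJ.trans hJL) c)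
      (down hJL g) := by
  obtain ⟨hc, hgb, h⟩ := hg
  refine ⟨isPBlock_down _ hc, isPBlock_down _ hgb, ?_⟩
  rintro _ ⟨ξ, hξ, rfl⟩ _ ⟨χ, hχ, rfl⟩ h'
  obtain ⟨j, rfl⟩ := (Subgroup.subgroupOfEquivOfLe hJL).symm.surjective h'
  have e1 : centralChar ((irrCongr (Subgroup.subgroupOfEquivOfLe hJL).symm χ :
      IrrCharacter _) : _ → ℂ) ((Subgroup.subgroupOfEquivOfLe hJL).symm j)
      = centralChar (χ : J → ℂ) j :=
    centralChar_comp (Subgroup.subgroupOfEquivOfLe hJL).symm (χ : J → ℂ) j
  have e2 : inducedCentralCharIn (J.subgroupOf L) (K.subgroupOf L)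
      ((irrCongr (Subgroup.subgroupOfEquivOfLe (hKJ.trans hJL)).symm ξ : IrrCharacter _) : _ → ℂ)
      (((Subgroup.subgroupOfEquivOfLe hJL).symm j : J.subgroupOf L) : L)
      = inducedCentralCharIn J K (ξ : K → ℂ) (j : G) := by
    unfold inducedCentralCharIn
    refine finsum_mem_eq_of_bijOn (Subgroup.subgroupOfEquivOfLe (hKJ.trans hJL)) ?_ ?_
    · apply Equiv.bijOn (Subgroup.subgroupOfEquivOfLe (hKJ.trans hJL)).toEquiv
      intro k'
      constructor
      · rintro ⟨x, hx⟩
        refine ⟨(Subgroup.subgroupOfEquivOfLe hJL).symm x, ?_⟩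
        apply Subtype.ext
        simpa using hx
      · rintro ⟨x, hx⟩
        refine ⟨Subgroup.subgroupOfEquivOfLe hJL x, ?_⟩
        have := congrArg Subtype.val hx
        simpa using this
    · intro k' _
      rw [irrCongr_apply, irrCongr_apply, map_one]
      rfl
  rw [e1, e2]
  exact h ξ hξ χ hχ j

end Cfsg.Agent.Lib.Helper82WatDown
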