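import Mathlib
import Cfsg.Agent.Lib.Helper82WatDefs

/-!
Project 82 (Watanabe's theorem, row S4644), piece Sep.
Sketch: notes/helper82/Wat.md
-/

set_option autoImplicit false
set_option linter.unusedSectionVars false
set_option linter.unusedVariables false

namespace Cfsg.Agent.Lib.Helper82WatSep

open Cfsg
open Cfsg.Agent.Lib.Helper78MajP Cfsg.Agent.Lib.Helper80StarDefs Cfsg.Agent.Lib.Helper82WatDefs
open Cfsg.Agent.Lib.Helper80Transport Cfsg.Agent.Lib.Helper20Tower Cfsg.Agent.Lib.Helper80Trace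
open scoped ComplexConjugate

universe u

/-- A2 `sep`. -/
theorem sep {G : Type*} [Group G] [Finite G] {p : ℕ} [Fact p.Prime] (P T C : Subgroup G)
    (hP : IsPGroup p P) (hab : ∀ x ∈ P, ∀ y ∈ P, x * y = y * x)
    (hTN : T ≤ Subgroup.normalizer (P : Set G)) (hC : C ≤ Subgroup.centralizer (P : Set G))
    (hCT : C ≤ T) (hidx : ¬ p ∣ C.relIndex T) {x : G} (hx : x ∈ P) (hx1 : x ≠ 1)
    (hfix : ∀ t ∈ T, t * x * t⁻¹ = x) :
    ∃ l : ↥P →* ℂˣ, (∀ t ∈ T, ∀ (v : ↥P) (h : t * (v : G) * t⁻¹ ∈ P),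
      l ⟨t * (v : G) * t⁻¹, h⟩ = l v) ∧ l ⟨x, hx⟩ ≠ 1 := by
  classical
  -- a character not killing x
  obtain ⟨μ, hμ⟩ : ∃ μ : ↥P →* ℂˣ, μ ⟨x, hx⟩ ≠ 1 := by
    let _ : CommGroup ↥P :=
      { (inferInstance : Group ↥P) with
        mul_comm := fun a b => Subtype.ext (hab a.1 a.2 b.1 b.2) }
    exact CommGroup.exists_apply_ne_one_of_hasEnoughRootsOfUnity ↥P ℂ
      (fun h => hx1 (congrArg Subtype.val h))
  -- conjugation stays in P
  have hmem : ∀ (s : ↥T) (v : ↥P), (s : G)⁻¹ * (v : G) * (s : G) ∈ P := by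
    intro s v
    have h1 := (Subgroup.mem_normalizer_iff.1 (hTN (T.inv_mem s.2)) (v : G)).1 v.2
    simpa using h1
  -- the twisted characters
  let F : ↥T → (↥P →* ℂˣ) := fun s =>
    { toFun := fun v => μ ⟨(s : G)⁻¹ * (v : G) * (s : G), hmem s v⟩
      map_one' := by
        have : (⟨(s : G)⁻¹ * ((1 : ↥P) : G) * (s : G), hmem s 1⟩ : ↥P) = 1 := by
          apply Subtype.ext; simp
        rw [this, map_one]
      map_mul' := by
        intro v w
        rw [← map_mul]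
        congr 1
        apply Subtype.ext
        simp [mul_assoc] }
  have hF : ∀ (s : ↥T) (v : ↥P), F s v = μ ⟨(s : G)⁻¹ * (v : G) * (s : G), hmem s v⟩ :=
    fun _ _ => rfl
  have hFc : ∀ (s : ↥T) (c : ↥(C.subgroupOf T)), F (s * c) = F s := by
    intro s c
    ext1 v
    rw [hF, hF]
    congr 1
    apply Subtype.ext
    have hc : ((c : ↥T) : G) ∈ C := c.2
    have h1 := (Subgroup.mem_centralizer_iff.1 (hC hc)) _ (hmem s v)
    show ((s * (c : ↥T) : ↥T) : G)⁻¹ * (v : G) * ((s * (c : ↥T) : ↥T) : G) = _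
    rw [Subgroup.coe_mul, mul_inv_rev]
    calc ((c : ↥T) : G)⁻¹ * (s : G)⁻¹ * (v : G) * ((s : G) * ((c : ↥T) : G))
        = ((c : ↥T) : G)⁻¹ * (((s : G)⁻¹ * (v : G) * (s : G)) * ((c : ↥T) : G)) := by group
      _ = ((c : ↥T) : G)⁻¹ * (((c : ↥T) : G) * ((s : G)⁻¹ * (v : G) * (s : G))) := by rw [h1]
      _ = _ := by group
  have hFout : ∀ s : ↥T, F ((s : ↥T ⧸ C.subgroupOf T)).out = F s := by
    intro s
    obtain ⟨c, hc⟩ := QuotientGroup.mk_out_eq_mul (C.subgroupOf T) s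
    rw [hc, hFc]
  have := Fintype.ofFinite (↥T ⧸ C.subgroupOf T)
  refine ⟨∏ q : ↥T ⧸ C.subgroupOf T, F q.out, ?_, ?_⟩
  · intro t ht v h
    rw [MonoidHom.finsetProd_apply, MonoidHom.finsetProd_apply]
    rw [← Equiv.prod_comp (MulAction.toPerm (⟨t, ht⟩⁻¹ : ↥T))
      (fun q : ↥T ⧸ C.subgroupOf T => F q.out v)]
    apply Finset.prod_congr rfl
    intro q _
    have h1 : (MulAction.toPerm (⟨t, ht⟩⁻¹ : ↥T)) q =
        (((⟨t, ht⟩⁻¹ : ↥T) * q.out : ↥T) : ↥T ⧸ C.subgroupOf T) := by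
      conv_lhs => rw [← q.out_eq']
      rfl
    rw [h1, hFout, hF, hF]
    congr 1
    apply Subtype.ext
    simp [mul_assoc]
  · rw [MonoidHom.finsetProd_apply]
    have h1 : ∀ q : ↥T ⧸ C.subgroupOf T, F q.out ⟨x, hx⟩ = μ ⟨x, hx⟩ := by
      intro q
      rw [hF]
      congr 1
      apply Subtype.ext
      have h2 := hfix _ (T.inv_mem q.out.2)
      simpa using h2
    rw [Finset.prod_congr rfl (fun q _ => h1 q), Finset.prod_const, Finset.card_univ,
      ← Nat.card_eq_fintype_card]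
    intro h3
    obtain ⟨k, hk⟩ := hP ⟨x, hx⟩
    have h4 : μ ⟨x, hx⟩ ^ (p ^ k) = 1 := by rw [← map_pow, hk, map_one]
    have h5 := pow_gcd_eq_one.2 ⟨h3, h4⟩
    have h6 : Nat.gcd (Nat.card (↥T ⧸ C.subgroupOf T)) (p ^ k) = 1 := by
      apply Nat.Coprime.pow_right
      rw [Nat.coprime_comm, Nat.Prime.coprime_iff_not_dvd Fact.out]
      exact hidx
    rw [h6, pow_one] at h5
    exact hμ h5

end Cfsg.Agent.Lib.Helper82WatSep
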