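import Mathlib
import Cfsg.Agent.Lib.Helper82WatDefs
import Cfsg.Agent.Lib.Helper82WatSep
import Cfsg.Agent.Lib.Helper82WatMax
import Cfsg.Agent.Lib.Helper82WatRk
import Cfsg.Agent.Lib.Helper80IQ

/-!
Project 82 (Watanabe's theorem, row S4644), piece Ker.
Sketch: notes/helper82/Wat.md
-/

set_option autoImplicit false
set_option linter.unusedSectionVars false
set_option linter.unusedVariables false

namespace Cfsg.Agent.Lib.Helper82WatKer

open Cfsg
open Cfsg.Agent.Lib.Helper78MajP Cfsg.Agent.Lib.Helper80StarDefs Cfsg.Agent.Lib.Helper82WatDefs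
open Cfsg.Agent.Lib.Helper80Transport Cfsg.Agent.Lib.Helper20Tower Cfsg.Agent.Lib.Helper80Trace
open Cfsg.Agent.Lib.Helper82WatSep Cfsg.Agent.Lib.Helper82WatMax Cfsg.Agent.Lib.Helper82WatRk
open scoped ComplexConjugate

universe u

variable {M : Ideal AlgInt} {p : ℕ} [Fact p.Prime]
variable {G : Type u} [Group G] [Fintype G]
variable {B : Set (IrrCharacter G)} {P K : Subgroup G} {c : Set (IrrCharacter K)}

/-- C3 (from A2, Helper80IQ) -/
theorem ker0_moved (hM : IsPModular p M) (D : Dat p M B P K c) {w : G} (hw : w ∈ Ker0 P K c)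
    (hw1 : w ≠ 1) : ∃ t, Tst P K c t ∧ t * w * t⁻¹ ≠ w := by
  classical
  by_contra hcon
  push Not at hcon
  have hK := D.hK
  subst hK
  have hmax := max_of_dat hM D
  have hab := D.hab
  have hPC : P ≤ Subgroup.centralizer (P : Set G) := by
    intro x hx
    rw [Subgroup.mem_centralizer_iff]
    intro y hy
    exact hab y hy x hx
  have hidx : ¬ p ∣ (Subgroup.centralizer (P : Set G)).relIndex (pstab P c) := by
    have := Cfsg.Agent.Lib.Helper80IQ.not_dvd_index_of_maximal hM hmax
    rwa [sup_eq_right.2 hPC] at this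
  obtain ⟨hwP, hw0⟩ := hw
  obtain ⟨l, hl, hlw⟩ := sep P (pstab P c) (Subgroup.centralizer (P : Set G)) hmax.1.1.1 hab
    (pstab_le P c) le_rfl (centralizer_le_pstab P c) hidx hwP hw1
    (fun t ht => hcon t ((tst_iff hM hmax t).2 ht))
  exact hlw (hw0 l (fun t ht v h => hl t ((tst_iff hM hmax t).1 ht) v h))

/-- C4 (from S4, S5') -/
theorem rk_one (hM : IsPModular p M) (D : Dat p M B P K c) {r : G → ℕ}
    (hr : IsRk p M P K c r) : r 1 = blockRank p B := by
  have hK := D.hK
  subst hK
  have hmax := max_of_dat hM D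
  rw [← rk_fz hM hmax D.hab hr P.one_mem, rank_fz_one hM hmax D.hab]

end Cfsg.Agent.Lib.Helper82WatKer
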