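import Mathlib
import Cfsg.Agent.Lib.Helper82WatDefs

/-!
Project 82 (Watanabe's theorem, row S4644), piece Map.
Sketch: notes/helper82/Wat.md
-/

set_option autoImplicit false
set_option linter.unusedSectionVars false
set_option linter.unusedVariables false

namespace Cfsg.Agent.Lib.Helper82WatMap

open Cfsg
open Cfsg.Agent.Lib.Helper78MajP Cfsg.Agent.Lib.Helper80StarDefs Cfsg.Agent.Lib.Helper82WatDefs
open Cfsg.Agent.Lib.Helper80Transport Cfsg.Agent.Lib.Helper20Tower Cfsg.Agent.Lib.Helper80Trace
open Cfsg.Agent.Lib.Helper82Quot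
open scoped ComplexConjugate

universe u

variable {M : Ideal AlgInt} {p : ℕ} [Fact p.Prime]

/-- T1a -/
theorem blockRank_mapBlk {K K' : Type*} [Group K] [Group K'] [Finite K] (σ : K ≃* K')
    (f : Set (IrrCharacter K)) : blockRank p (mapBlk σ f) = blockRank p f := by
  classical
  let E : (K → ℂ) ≃ₗ[ℂ] (K' → ℂ) := LinearEquiv.funCongrLeft ℂ ℂ σ.symm.toEquiv
  have hE : ∀ χ : IrrCharacter K, pRegularPart p ((irrCongr σ χ : IrrCharacter K') : K' → ℂ) =
      E (pRegularPart p (χ : K → ℂ)) := by
    intro χ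
    funext k'
    show pRegularPart p ((irrCongr σ χ : IrrCharacter K') : K' → ℂ) k' =
      pRegularPart p (χ : K → ℂ) (σ.symm k')
    unfold pRegularPart IsPRegular
    rw [MulEquiv.orderOf_eq σ.symm k']
    rfl
  have hset : (fun χ : IrrCharacter K' => pRegularPart p (χ : K' → ℂ)) '' (mapBlk σ f) =
      E '' ((fun χ : IrrCharacter K => pRegularPart p (χ : K → ℂ)) '' f) := by
    unfold mapBlk
    rw [Set.image_image, Set.image_image]
    apply Set.image_congr
    intro χ _
    exact hE χ
  unfold blockRank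
  rw [hset]
  have h2 : Submodule.span ℂ (E '' ((fun χ : IrrCharacter K => pRegularPart p (χ : K → ℂ)) '' f)) =
      (Submodule.span ℂ ((fun χ : IrrCharacter K => pRegularPart p (χ : K → ℂ)) '' f)).map
        (E : (K → ℂ) →ₗ[ℂ] (K' → ℂ)) := by
    rw [Submodule.map_span]
    rfl
  rw [h2]
  exact LinearEquiv.finrank_map_eq E _

/-- T1b -/
theorem card_mapBlk {K K' : Type*} [Group K] [Group K'] (σ : K ≃* K')
    (f : Set (IrrCharacter K)) : Nat.card (mapBlk σ f) = Nat.card f := by
  unfold mapBlk
  exact Nat.card_image_of_injective (irrCongr σ).injective f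

end Cfsg.Agent.Lib.Helper82WatMap
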