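import Mathlib
import Cfsg.Agent.Lib.Helper82WatDefs

/-!
Project 82 (Watanabe's theorem, row S4644), piece Uniq.
Sketch: notes/helper82/Wat.md
-/

set_option autoImplicit false
set_option linter.unusedSectionVars false
set_option linter.unusedVariables false

namespace Cfsg.Agent.Lib.Helper82WatUniq

open Cfsg
open Cfsg.Agent.Lib.Helper78MajP Cfsg.Agent.Lib.Helper80StarDefs Cfsg.Agent.Lib.Helper82WatDefs
open Cfsg.Agent.Lib.Helper80Transport Cfsg.Agent.Lib.Helper20Tower Cfsg.Agent.Lib.Helper80Trace
open scoped ComplexConjugate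

universe u

variable {M : Ideal AlgInt} {p : ℕ} [Fact p.Prime]
variable {G : Type u} [Group G] [Fintype G]
variable {B : Set (IrrCharacter G)} {P K : Subgroup G} {c : Set (IrrCharacter K)}

/-- T3 -/
theorem inducedIn_unique (hM : IsPModular p M) {K H : Subgroup G} (hKH : K ≤ H)
    {c : Set (IrrCharacter K)} {f f' : Set (IrrCharacter H)} (h : IsInducedBlockIn M H K c f)
    (h' : IsInducedBlockIn M H K c f') : f = f' := by
  classical
  exact Cfsg.Agent.Lib.Helper20Major.induced_block_unique (Cfsg.Agent.Lib.Helper20Local.IsPModular.isPrime hM)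
    ((Cfsg.Agent.Lib.Helper20Rel.isInducedBlockIn_iff hKH c f).mp h)
    ((Cfsg.Agent.Lib.Helper20Rel.isInducedBlockIn_iff hKH c f').mp h')

/-- T7 -/
theorem exists_loc (hM : IsPModular p M) (D : Dat p M B P K c) {L : Subgroup G} (hKL : K ≤ L) :
    ∃ b : Set (IrrCharacter L), IsInducedBlockIn M L K c b := by
  obtain ⟨hK, hPD, hab, hc⟩ := D
  subst hK
  exact Cfsg.Agent.Lib.Helper20Free.exists_local hM
    (Cfsg.Agent.Lib.Helper20HK.isPGroup_of_defectGroup hPD) hab hc.1 hKL

/-- T8 -/
theorem exists_rk (hM : IsPModular p M) (D : Dat p M B P K c) : ∃ r : G → ℕ, IsRk p M P K c r := by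
  classical
  refine ⟨fun v => if h : ∃ f : Set (IrrCharacter (Subgroup.centralizer ({v} : Set G))),
    IsInducedBlockIn M (Subgroup.centralizer ({v} : Set G)) K c f then blockRank p h.choose
    else 0, ?_⟩
  intro v hv H hH f hf
  subst hH
  have hex : ∃ f : Set (IrrCharacter (Subgroup.centralizer ({v} : Set G))),
    IsInducedBlockIn M (Subgroup.centralizer ({v} : Set G)) K c f := ⟨f, hf⟩
  have hle : K ≤ Subgroup.centralizer ({v} : Set G) := by
    rw [D.hK]
    exact Subgroup.centralizer_le (Set.singleton_subset_iff.2 hv)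
  simp only [dif_pos hex]
  rw [inducedIn_unique hM hle hf hex.choose_spec]

end Cfsg.Agent.Lib.Helper82WatUniq
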