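import Mathlib
import Cfsg.Agent.Lib.Helper82WatDefs
import Cfsg.Agent.Lib.Helper82WatMap
import Cfsg.Agent.Lib.Helper82WatDown
import Cfsg.Agent.Lib.Helper82WatUniq

/-!
Project 82 (Watanabe's theorem, row S4644), piece Tr.
Sketch: notes/helper82/Wat.md
-/

set_option autoImplicit false
set_option linter.unusedSectionVars false
set_option linter.unusedVariables false

namespace Cfsg.Agent.Lib.Helper82WatTr

open Cfsg
open Cfsg.Agent.Lib.Helper78MajP Cfsg.Agent.Lib.Helper80StarDefs Cfsg.Agent.Lib.Helper82WatDefs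
open Cfsg.Agent.Lib.Helper80Transport Cfsg.Agent.Lib.Helper20Tower Cfsg.Agent.Lib.Helper80Trace
open Cfsg.Agent.Lib.Helper82WatMap Cfsg.Agent.Lib.Helper82WatDown Cfsg.Agent.Lib.Helper82WatUniq
open scoped ComplexConjugate

universe u

variable {M : Ideal AlgInt} {p : ℕ} [Fact p.Prime]
variable {G : Type u} [Group G] [Fintype G]
variable {B : Set (IrrCharacter G)} {P K : Subgroup G} {c : Set (IrrCharacter K)}

/-- T4 (from T1, T2, T3) -/
theorem transport (hM : IsPModular p M) {K J L : Subgroup G} (hKJ : K ≤ J) (hJL : J ≤ L)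
    {c : Set (IrrCharacter K)} {g : Set (IrrCharacter J)} (hg : IsInducedBlockIn M J K c g)
    {H' : Subgroup ↥L} (hH' : H' = J.subgroupOf L) {f' : Set (IrrCharacter H')}
    (hf' : IsInducedBlockIn M H' (K.subgroupOf L) (down (hKJ.trans hJL) c) f') :
    blockRank p f' = blockRank p g ∧ Nat.card f' = Nat.card g := by
  classical
  subst hH'
  have h1 := inducedIn_down hM hKJ hJL hg
  have hle : K.subgroupOf L ≤ J.subgroupOf L := fun x hx => hKJ hx
  have h2 : f' = down hJL g := inducedIn_unique hM hle hf' h1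
  subst h2
  exact ⟨blockRank_mapBlk _ g, card_mapBlk _ g⟩

end Cfsg.Agent.Lib.Helper82WatTr
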