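import Mathlib
import Cfsg.Agent.Lib.Helper82WatDefs
import Cfsg.Agent.Lib.Helper82WatDown
import Cfsg.Agent.Lib.Helper82WatTr
import Cfsg.Agent.Lib.Helper82WatDat

/-!
Project 82 (Watanabe's theorem, row S4644), piece Loc.
Sketch: notes/helper82/Wat.md
-/

set_option autoImplicit false
set_option linter.unusedSectionVars false
set_option linter.unusedVariables false

namespace Cfsg.Agent.Lib.Helper82WatLoc

open Cfsg
open Cfsg.Agent.Lib.Helper78MajP Cfsg.Agent.Lib.Helper80StarDefs Cfsg.Agent.Lib.Helper82WatDefs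
open Cfsg.Agent.Lib.Helper80Transport Cfsg.Agent.Lib.Helper20Tower Cfsg.Agent.Lib.Helper80Trace
open Cfsg.Agent.Lib.Helper82WatDown Cfsg.Agent.Lib.Helper82WatTr Cfsg.Agent.Lib.Helper82WatDat
open scoped ComplexConjugate

universe u

variable {M : Ideal AlgInt} {p : ℕ} [Fact p.Prime]
variable {G : Type u} [Group G] [Fintype G]
variable {B : Set (IrrCharacter G)} {P K : Subgroup G} {c : Set (IrrCharacter K)}

/-- L1 `local_rank` (from T2, T4, T5, T6). -/
theorem local_rank (hM : IsPModular p M) (D : Dat p M B P K c) {L : Subgroup G} (hKL : K ≤ L)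
    (hL : RankP p M ↥L) {u : G} (hu : u ∈ P) (huT : ∀ t ∈ L, Tst P K c t → t * u * t⁻¹ = u)
    {b : Set (IrrCharacter L)} (hb : IsInducedBlockIn M L K c b) {J : Subgroup G}
    (hJ : J = L ⊓ Subgroup.centralizer ({u} : Set G)) {g : Set (IrrCharacter J)}
    (hg : IsInducedBlockIn M J K c g) : blockRank p b = blockRank p g := by
  classical
  subst hJ
  have hPK : P ≤ K := by
    rw [D.hK]
    intro x hx
    rw [Subgroup.mem_centralizer_iff]
    intro y hy
    exact D.hab y hy x hx
  have huL : u ∈ L := hKL (hPK hu)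
  have hKJ : K ≤ L ⊓ Subgroup.centralizer ({u} : Set G) := by
    refine le_inf hKL ?_
    rw [D.hK]
    exact Subgroup.centralizer_le (Set.singleton_subset_iff.2 hu)
  have hH' : (L ⊓ Subgroup.centralizer ({u} : Set G)).subgroupOf L
      = Subgroup.centralizer ({(⟨u, huL⟩ : ↥L)} : Set ↥L) := by
    ext x
    rw [Subgroup.mem_subgroupOf, Subgroup.mem_inf, Subgroup.mem_centralizer_singleton_iff,
      Subgroup.mem_centralizer_singleton_iff, Subtype.ext_iff]
    constructor
    · rintro ⟨-, h⟩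
      exact h
    · intro h
      exact ⟨x.2, h⟩
  have h1 := hL b (P.subgroupOf L) (K.subgroupOf L) (down hKL c) (dat_down hM D hKL hb)
    ⟨u, huL⟩ (by rw [Subgroup.mem_subgroupOf]; exact hu)
    (fun t ht => Subtype.ext (huT t t.2 ((tst_down hM D hKL t).1 ht)))
    _ hH' (down inf_le_left g) (inducedIn_down hM hKJ inf_le_left hg)
  rw [h1]
  exact Cfsg.Agent.Lib.Helper82WatMap.blockRank_mapBlk _ g

end Cfsg.Agent.Lib.Helper82WatLoc
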