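import Mathlib
import Cfsg.Agent.Lib.Helper82WatDefs
import Cfsg.Agent.Lib.Helper82WatDat

/-!
Project 82 (Watanabe's theorem, row S4644), piece Orb.
Sketch: notes/helper82/Wat.md
-/

set_option autoImplicit false
set_option linter.unusedSectionVars false
set_option linter.unusedVariables false

namespace Cfsg.Agent.Lib.Helper82WatOrb

open Cfsg
open Cfsg.Agent.Lib.Helper78MajP Cfsg.Agent.Lib.Helper80StarDefs Cfsg.Agent.Lib.Helper82WatDefs
open Cfsg.Agent.Lib.Helper80Transport Cfsg.Agent.Lib.Helper20Tower Cfsg.Agent.Lib.Helper80Trace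
open Cfsg.Agent.Lib.Helper82WatDat
open scoped ComplexConjugate

universe u

variable {M : Ideal AlgInt} {p : ℕ} [Fact p.Prime]
variable {G : Type u} [Group G] [Fintype G]
variable {B : Set (IrrCharacter G)} {P K : Subgroup G} {c : Set (IrrCharacter K)}

/-- O1 -/
theorem orb_mul (D : Dat p M B P K c) {u : G} (hu : ∀ t, Tst P K c t → t * u * t⁻¹ = u) (v : G) :
    orb P K c (u * v) = orb P K c v := by
  unfold orb
  apply Nat.card_congr
  apply Equiv.subtypeEquiv (Equiv.mulLeft u⁻¹)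
  intro v'
  constructor
  · rintro ⟨t, ht, rfl⟩
    refine ⟨t, ht, ?_⟩
    show t * v * t⁻¹ = u⁻¹ * (t * (u * v) * t⁻¹)
    have h1 : t * (u * v) * t⁻¹ = (t * u * t⁻¹) * (t * v * t⁻¹) := by group
    rw [h1, hu t ht, inv_mul_cancel_left]
  · rintro ⟨t, ht, h⟩
    refine ⟨t, ht, ?_⟩
    have h0 : t * v * t⁻¹ = u⁻¹ * v' := h
    have h1 : t * (u * v) * t⁻¹ = (t * u * t⁻¹) * (t * v * t⁻¹) := by group
    rw [h1, hu t ht, h0, mul_inv_cancel_left]

/-- O2 -/
theorem orb_fixed {u : G} (hu : ∀ t, Tst P K c t → t * u * t⁻¹ = u) : orb P K c u = 1 := by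
  have h1 : Tst P K c (1 : G) := by
    refine ⟨Subgroup.one_mem _, Subgroup.one_mem _, ?_⟩
    intro χ hχ
    refine ⟨χ, hχ, ?_⟩
    intro k k' hk
    have : k' = k := Subtype.ext (by simpa using hk)
    rw [this]
  unfold orb
  rw [Nat.card_eq_one_iff_unique]
  constructor
  · constructor
    rintro ⟨a, t, ht, rfl⟩ ⟨b, s, hs, rfl⟩
    apply Subtype.ext
    show t * u * t⁻¹ = s * u * s⁻¹
    rw [hu t ht, hu s hs]
  · exact ⟨⟨u, 1, h1, by simp⟩⟩

/-- O3 -/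
theorem orb_down (hM : IsPModular p M) (D : Dat p M B P K c) {L : Subgroup G} (hKL : K ≤ L)
    (hTL : ∀ t, Tst P K c t → t ∈ L) (v : ↥L) :
    orb (P.subgroupOf L) (K.subgroupOf L) (down hKL c) v = orb P K c (v : G) := by
  unfold orb
  apply Nat.card_congr
  refine Equiv.ofBijective (fun w => ⟨((w.1 : ↥L) : G), ?_⟩) ⟨?_, ?_⟩
  · obtain ⟨t, ht, h⟩ := w.2
    refine ⟨(t : G), (tst_down hM D hKL t).1 ht, ?_⟩
    rw [← h]
    rfl
  · intro a b hab
    apply Subtype.ext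
    apply Subtype.ext
    have h1 := congrArg (fun z : {v' : G // ∃ t : G, Tst P K c t ∧ t * (v : G) * t⁻¹ = v'} => z.1) hab
    exact h1
  · rintro ⟨w, t, ht, rfl⟩
    have htL := hTL t ht
    refine ⟨⟨⟨t, htL⟩ * v * ⟨t, htL⟩⁻¹, ⟨t, htL⟩, (tst_down hM D hKL ⟨t, htL⟩).2 ht, rfl⟩, ?_⟩
    rfl

end Cfsg.Agent.Lib.Helper82WatOrb
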