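import Mathlib
import Cfsg.Agent.Lib.Helper82WatDefs
import Cfsg.Agent.Lib.Helper82WatUniq
import Cfsg.Agent.Lib.Helper82WatTr
import Cfsg.Agent.Lib.Helper82WatDat
import Cfsg.Agent.Lib.Helper82WatOrb
import Cfsg.Agent.Lib.Helper82WatLoc
import Cfsg.Agent.Lib.Helper82WatCore
import Cfsg.Agent.Lib.Helper82WatKer

/-!
Project 82 (Watanabe's theorem, row S4644), piece Main.
Sketch: notes/helper82/Wat.md
-/

set_option autoImplicit false
set_option linter.unusedSectionVars false
set_option linter.unusedVariables false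

namespace Cfsg.Agent.Lib.Helper82WatMain

open Cfsg
open Cfsg.Agent.Lib.Helper78MajP Cfsg.Agent.Lib.Helper80StarDefs Cfsg.Agent.Lib.Helper82WatDefs
open Cfsg.Agent.Lib.Helper80Transport Cfsg.Agent.Lib.Helper20Tower Cfsg.Agent.Lib.Helper80Trace
open Cfsg.Agent.Lib.Helper82WatUniq Cfsg.Agent.Lib.Helper82WatTr Cfsg.Agent.Lib.Helper82WatDat Cfsg.Agent.Lib.Helper82WatOrb Cfsg.Agent.Lib.Helper82WatLoc Cfsg.Agent.Lib.Helper82WatCore Cfsg.Agent.Lib.Helper82WatKer
open scoped ComplexConjugate

universe u



section Asm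

variable {M : Ideal AlgInt} {p : ℕ} [Fact p.Prime]

theorem le_centralizer_singleton {G : Type u} [Group G] {P K : Subgroup G}
    (hK : K = Subgroup.centralizer (P : Set G)) {v : G} (hv : v ∈ P) :
    K ≤ Subgroup.centralizer ({v} : Set G) := by
  rw [hK]
  exact Subgroup.centralizer_le (by simpa using hv)

theorem step (hM : IsPModular p M) (hS : StarAll.{u} p M) {G : Type u} [Group G] [Fintype G]
    (IH : ∀ L : Subgroup G, L ≠ ⊤ → RankP p M ↥L) : RankP p M G := by
  classical
  intro B P K c D u hu huT H hH f hf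
  obtain ⟨r, hr⟩ := exists_rk hM D
  have hru : blockRank p f = r u := hr u hu H hH f hf
  have hr1 : r 1 = blockRank p B := rk_one hM D hr
  obtain ⟨N, hN, hcore⟩ := core hM hS D hr
  have h1 := hcore 1 P.one_mem
  have h2 := hcore u hu
  have hN' : (N : ℂ) ≠ 0 := by exact_mod_cast hN
  have h3 := mul_left_cancel₀ hN' (h1.trans h2.symm)
  -- all terms with `w ≠ 1` agree
  have hterm : ∀ w : G, w ≠ 1 → (if w ∈ Ker0 P K c then
      (r (1 * w) : ℂ) / (orb P K c (1 * w) : ℂ) else 0) = (if w ∈ Ker0 P K c then
      (r (u * w) : ℂ) / (orb P K c (u * w) : ℂ) else 0) := by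
    intro w hw1
    by_cases hw : w ∈ Ker0 P K c
    · rw [if_pos hw, if_pos hw, one_mul, orb_mul D huT w]
      congr 2
      have hwP : w ∈ P := by
        obtain ⟨h, -⟩ := hw
        exact h
      obtain ⟨t, ht, htw⟩ := ker0_moved hM D hw hw1
      have huw : u * w ∈ P := P.mul_mem hu hwP
      have hL1 : Subgroup.centralizer ({w} : Set G) ≠ ⊤ := by
        intro h
        have : t ∈ Subgroup.centralizer ({w} : Set G) := h ▸ Subgroup.mem_top t
        rw [Subgroup.mem_centralizer_singleton_iff] at this
        exact htw (by rw [this, mul_inv_cancel_right])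
      have hL2 : Subgroup.centralizer ({u * w} : Set G) ≠ ⊤ := by
        intro h
        have : t ∈ Subgroup.centralizer ({u * w} : Set G) := h ▸ Subgroup.mem_top t
        rw [Subgroup.mem_centralizer_singleton_iff] at this
        apply htw
        have e1 : t * (u * w) * t⁻¹ = u * w := by rw [this, mul_inv_cancel_right]
        have e2 : t * (u * w) * t⁻¹ = (t * u * t⁻¹) * (t * w * t⁻¹) := by group
        rw [e2, huT t ht] at e1
        exact mul_left_cancel e1
      have hK1 := le_centralizer_singleton D.hK hwP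
      have hK2 := le_centralizer_singleton D.hK huw
      have hKu := le_centralizer_singleton D.hK hu
      obtain ⟨b1, hb1⟩ := exists_loc hM D hK1
      obtain ⟨b2, hb2⟩ := exists_loc hM D hK2
      obtain ⟨g, hg⟩ := exists_loc hM D (le_inf hK1 hKu)
      have hJ : Subgroup.centralizer ({w} : Set G) ⊓ Subgroup.centralizer ({u} : Set G)
          = Subgroup.centralizer ({u * w} : Set G) ⊓ Subgroup.centralizer ({u} : Set G) := by
        ext x
        simp only [Subgroup.mem_inf, Subgroup.mem_centralizer_singleton_iff]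
        constructor
        · rintro ⟨a, b⟩
          refine ⟨?_, b⟩
          rw [← mul_assoc, b, mul_assoc, a, mul_assoc]
        · rintro ⟨a, b⟩
          refine ⟨?_, b⟩
          rw [← mul_assoc, b, mul_assoc, mul_assoc] at a
          exact mul_left_cancel a
      have e1 := local_rank hM D hK1 (IH _ hL1) hu (fun t _ ht => huT t ht) hb1 rfl hg
      have e2 := local_rank hM D hK2 (IH _ hL2) hu (fun t _ ht => huT t ht) hb2 hJ hg
      rw [← hr w hwP _ rfl b1 hb1, ← hr (u * w) huw _ rfl b2 hb2, e1, e2]
    · rw [if_neg hw, if_neg hw]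
  have h4 : (if (1 : G) ∈ Ker0 P K c then
      (r (1 * 1) : ℂ) / (orb P K c (1 * 1) : ℂ) else 0) = (if (1 : G) ∈ Ker0 P K c then
      (r (u * 1) : ℂ) / (orb P K c (u * 1) : ℂ) else 0) := by
    rw [← Finset.add_sum_erase _ _ (Finset.mem_univ (1 : G)),
      ← Finset.add_sum_erase _ _ (Finset.mem_univ (1 : G))] at h3
    have : ∑ w ∈ Finset.univ.erase (1 : G), (if w ∈ Ker0 P K c then
      (r (1 * w) : ℂ) / (orb P K c (1 * w) : ℂ) else 0) = ∑ w ∈ Finset.univ.erase (1 : G),
      (if w ∈ Ker0 P K c then (r (u * w) : ℂ) / (orb P K c (u * w) : ℂ) else 0) :=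
      Finset.sum_congr rfl (fun w hw => hterm w (Finset.ne_of_mem_erase hw))
    rw [this] at h3
    exact add_right_cancel h3
  rw [if_pos (Subgroup.one_mem _), if_pos (Subgroup.one_mem _), mul_one, mul_one,
    orb_fixed huT, orb_fixed (u := (1 : G)) (fun t _ => by simp)] at h4
  simp only [Nat.cast_one, div_one, Nat.cast_inj] at h4
  rw [hru, ← hr1, h4]

theorem rankP_all (hM : IsPModular p M) (hS : StarAll.{u} p M) :
    ∀ (n : ℕ) (G : Type u) [Group G] [Finite G], Nat.card G = n → RankP p M G := by
  intro n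
  induction n using Nat.strong_induction_on with
  | _ n ih =>
    intro G _ _ hn
    let _ : Fintype G := Fintype.ofFinite G
    apply step hM hS
    intro L hL
    refine ih (Nat.card L) ?_ ↥L rfl
    rw [← hn]
    by_contra hcon
    push Not at hcon
    exact hL (Subgroup.eq_top_of_card_eq L (le_antisymm (Subgroup.card_le_card_group L) hcon))

theorem card_eq (hM : IsPModular p M) (hS : StarAll.{u} p M) {G : Type u} [Group G] [Fintype G]
    {B : Set (IrrCharacter G)} {P K : Subgroup G} {c : Set (IrrCharacter K)}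
    (D : Dat p M B P K c) {u : G} (hu : u ∈ P) (huT : ∀ t, Tst P K c t → t * u * t⁻¹ = u)
    {H : Subgroup G} (hH : H = Subgroup.centralizer ({u} : Set G))
    {f : Set (IrrCharacter H)} (hf : IsInducedBlockIn M H K c f) : Nat.card B = Nat.card f := by
  classical
  obtain ⟨r, hr⟩ := exists_rk hM D
  have hKH : K ≤ H := hH ▸ le_centralizer_singleton D.hK hu
  have hPK : P ≤ K := by
    rw [D.hK]
    intro x hx
    rw [Subgroup.mem_centralizer_iff]
    intro y hy
    exact D.hab y hy x hx
  have hPH : P ≤ H := hPK.trans hKH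
  have DH := dat_down hM D hKH hf
  have hTH : ∀ t, Tst P K c t → t ∈ H := by
    intro t ht
    rw [hH, Subgroup.mem_centralizer_singleton_iff]
    have := huT t ht
    calc t * u = t * u * t⁻¹ * t := by group
      _ = u * t := by rw [this]
  have hrH : IsRk p M (P.subgroupOf H) (K.subgroupOf H) (down hKH c) (fun v : ↥H => r (v : G)) := by
    intro v hv H' hH' f' hf'
    have hvP : (v : G) ∈ P := hv
    have hKv := le_centralizer_singleton D.hK hvP
    obtain ⟨b, hb⟩ := exists_loc hM D hKv
    obtain ⟨g, hg⟩ := exists_loc hM D (le_inf hKv (hH ▸ hKH))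
    have e1 := local_rank hM D hKv (rankP_all hM hS _ _ rfl) hu (fun t _ ht => huT t ht) hb rfl hg
    have hJH : Subgroup.centralizer ({(v : G)} : Set G) ⊓ Subgroup.centralizer ({u} : Set G) ≤ H :=
      hH ▸ inf_le_right
    have hH'' : H' = (Subgroup.centralizer ({(v : G)} : Set G) ⊓
        Subgroup.centralizer ({u} : Set G)).subgroupOf H := by
      rw [hH']
      ext x
      rw [Subgroup.mem_subgroupOf, Subgroup.mem_inf, Subgroup.mem_centralizer_singleton_iff,
        Subgroup.mem_centralizer_singleton_iff, Subgroup.mem_centralizer_singleton_iff]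
      constructor
      · intro h
        refine ⟨congrArg Subtype.val h, ?_⟩
        have hx : (x : G) ∈ Subgroup.centralizer ({u} : Set G) := hH ▸ x.2
        rw [Subgroup.mem_centralizer_singleton_iff] at hx
        exact hx
      · rintro ⟨h, -⟩
        exact Subtype.ext h
    have e2 := (transport hM (le_inf hKv (hH ▸ hKH)) hJH hg hH'' hf').1
    show blockRank p f' = r (v : G)
    rw [e2, ← e1, hr (v : G) hvP _ rfl b hb]
  have k1 := ksum hM hS D hr
  have k2 := ksum hM hS DH hrH
  have : (Nat.card B : ℂ) = (Nat.card f : ℂ) := by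
    rw [k1, k2]
    simp only [orb_down hM D hKH hTH]
    have e : ∀ v : ↥H, (v ∈ P.subgroupOf H) ↔ ((v : G) ∈ P) := fun v => Iff.rfl
    simp only [e]
    rw [← Finset.sum_subtype (Finset.univ.filter (· ∈ H)) (p := fun g => g ∈ H)
      (fun x => by simp) (fun v : G => if v ∈ P then (r v : ℂ) / (orb P K c v : ℂ) else 0)]
    symm
    apply Finset.sum_subset (Finset.filter_subset _ _)
    intro x _ hx
    rw [if_neg]
    intro hxP
    exact hx (by simpa using hPH hxP)
  exact_mod_cast this

end Asm


end Cfsg.Agent.Lib.Helper82WatMain
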