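import Mathlib
import Cfsg.Agent.Lib.Helper82WatDefs
import Cfsg.Agent.Lib.Helper80StarMain
import Cfsg.Agent.Lib.H25SCCONE
import Cfsg.Agent.Lib.H25SCCIRR
import Cfsg.Agent.Lib.H25SCCOUT
import Cfsg.Agent.Lib.H25SCCFUFU
import Cfsg.Agent.Lib.H25SCCFUSTAR

/-!
Project 82 (Watanabe's theorem, row S4644): the facts about the Broué–Puig star construction,
from project 80 (helper80, helper25 and the swarm).
-/

set_option autoImplicit false
set_option linter.unusedSectionVars false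

namespace Cfsg.Agent.Lib.Helper82WatStar

open Cfsg Cfsg.Agent.Lib.Helper82WatDefs
open Cfsg.Agent.Lib.Helper78MajP Cfsg.Agent.Lib.Helper80StarDefs Cfsg.Agent.Lib.Helper25StarCDefs
open scoped ComplexConjugate

universe u

variable {M : Ideal AlgInt} {p : ℕ} [Fact p.Prime]
variable {G : Type u} [Group G] [Fintype G]
variable {B : Set (IrrCharacter G)} {P : Subgroup G}
  {e : Set (IrrCharacter (Subgroup.centralizer (P : Set G)))}

theorem nn_eq_mu (hM : IsPModular p M) (hmax : IsMaximalBrauerPair p M B P e) {χ ψ : G → ℂ}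
    (hχ : IsClassFunction G χ) (hψ : IsClassFunction G ψ) {v : G} (hv : v ∈ P) :
    nn p M P e χ ψ v = mu p M P e χ ψ v := by
  classical
  have hzu : Subgroup.zpowers v ≤ P := (Subgroup.zpowers_le).2 hv
  have ho := Cfsg.Agent.Lib.H25SCCFUSA.orderOf_of_mem hmax.1.1.1 hv
  unfold nn
  rw [← Cfsg.Agent.Lib.H25SCCFUSA.fuSAP hM hmax χ ψ hχ hψ v hv]
  unfold Fu mu
  exact Cfsg.Agent.Lib.Helper78Sub.classInner_SP_eq_mm hM ho (centralizer_zpowers v)
    (fz_pairOf hM hmax hzu).1.2 hψ hχ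

theorem starFacts (hM : IsPModular p M) (hmax : IsMaximalBrauerPair p M B P e) :
    StarFacts p M B P e := by
  classical
  have hPr : M.IsPrime := hM.2.1.isPrime
  have hcf : ∀ χ : IrrCharacter G, IsClassFunction G (χ : G → ℂ) :=
    fun χ => Cfsg.Agent.Lib.Helper4Char.IsIrrCharacter.isClassFunction χ.2
  have hSA := Cfsg.Agent.Lib.H25SCCFUSA.fuSAP hM hmax
  have hConj : FuConjP p M P e := Cfsg.Agent.Lib.H25SCCFUCONJ.fuConjP
  have hOrth := Cfsg.Agent.Lib.H25SCCFUORTH.fuOrthP hM hmax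
  have hOne := Cfsg.Agent.Lib.H25SCCONE.oneP hM hmax
  have hInner := Cfsg.Agent.Lib.H25SCCINNER.innerP hConj hOrth
  have hFuFu := Cfsg.Agent.Lib.H25SCCFUFU.fuFuP hConj hOrth hSA
  have hFuStar := Cfsg.Agent.Lib.H25SCCFUSTAR.fuStarP hFuFu
  have hIrr := Cfsg.Agent.Lib.H25SCCIRR.irrP (Cfsg.Agent.Lib.Helper80StarMain.starGenP hM hmax)
    (Cfsg.Agent.Lib.H25SCCREG.regP hM hmax) (Cfsg.Agent.Lib.H25SCCOUT.outP hM hmax) hSA
  refine ⟨hOne, ?_, ?_, ?_⟩
  · intro η _ χ ψ
    rw [Cfsg.Agent.Lib.H25SCCINNER1.inner1 hSA η (hcf χ) (hcf ψ)]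
    apply Finset.sum_congr rfl
    intro v _
    by_cases hv : v ∈ P
    · rw [if_pos hv, if_pos hv, nn_eq_mu hM hmax (hcf χ) (hcf ψ) hv]
    · rw [if_neg hv, if_neg hv]
  · intro l hst h1 hnorm hgen χ hχ
    have hst1 : FStable p M P e (fun _ => (1 : ℂ)) := fun _ _ _ _ _ => rfl
    have hn : classInner (star p M P e l (χ : G → ℂ)) (star p M P e l (χ : G → ℂ)) = 1 := by
      have a := hInner l l χ χ hst hst (hcf χ) (hcf χ)
      have b := hInner (fun _ => 1) (fun _ => 1) χ χ hst1 hst1 (hcf χ) (hcf χ)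
      rw [hOne χ hχ, Cfsg.Agent.Lib.Helper4Char.classInner_irr_self χ.2] at b
      rw [a, b]
      apply Finset.sum_congr rfl
      intro v _
      by_cases hv : v ∈ P
      · rw [if_pos hv, if_pos hv]
        have : l v * conj (l v) = 1 := by
          rw [Complex.mul_conj, Complex.normSq_eq_norm_sq, hnorm v hv]
          simp
        rw [this]
        simp
      · rw [if_neg hv, if_neg hv]
    obtain ⟨ψ, hψ, h⟩ := hIrr l hst hgen ⟨1, one_pos, by simpa using h1⟩ χ hχ hn
    exact ⟨ψ, hψ, h.symm⟩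
  · intro l hst _ χ _ hfix v hv hmu
    have h := hFuStar l χ hst (hcf χ) v hv
    rw [hfix] at h
    by_contra hne
    apply hmu
    rw [← nn_eq_mu hM hmax (hcf χ) (hcf χ) hv]
    have h0 : Fu p M P e (χ : G → ℂ) v = 0 := by
      have h2 : (1 - l v) • Fu p M P e (χ : G → ℂ) v = 0 := by
        rw [sub_smul, one_smul, ← h, sub_self]
      rcases smul_eq_zero.1 h2 with h3 | h3
      · exact absurd (sub_eq_zero.1 h3).symm hne
      · exact h3
    unfold nn
    rw [h0]
    unfold classInner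
    simp

theorem starAll (hM : IsPModular p M) : StarAll.{u} p M := by
  intro G _ _ B P e hmax
  exact starFacts hM hmax

end Cfsg.Agent.Lib.Helper82WatStar
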