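import Mathlib
import Cfsg.Agent.Lib.Helper65CSDefs
import Cfsg.Agent.Lib.Helper65CSBasic

set_option autoImplicit false

namespace Cfsg.Agent.Lib.Helper84CSXc

open Cfsg.Agent.Lib.Helper65CSDefs Cfsg.Agent.Lib.Helper65CSBasic

variable {G : Type*} [Group G] [Finite G] {m n p : ℕ}

theorem xc (h : Hyp G m n) [Fact p.Prime] (hpm : p ∣ m) (hpow : ∃ a : ℕ, m = p ^ a)
    (K M : Subgroup G) (hS : XStr G p m K M) (hB1 : B1Stmt G p) (hB2 : B2Stmt G p) : m = p := by
  have hp : p.Prime := Fact.out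
  haveI := hS.Mn
  haveI := hS.Kn
  obtain ⟨P⟩ : Nonempty (Sylow p G) := inferInstance
  -- centraliser of a noncentral element of `M`
  have hCen : ∀ x ∈ M, x ∉ Subgroup.center G → Cen x = M := by
    intro x hx hxZ
    have hle : M ≤ Cen x := fun y hy => mem_Cen.mpr (hS.Mcomm y hy x hx)
    have hidx : (Cen x).index = m := by
      rcases (hS.Mset x).mp hx with h1 | h1
      · exact absurd (index_eq_one_iff.mp h1) hxZ
      · exact h1
    exact (eq_of_le_of_index_eq hle (by rw [hS.Midx, hidx])).symm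
  -- `P` is not contained in `M`
  have hPM : ¬ (P : Subgroup G) ≤ M := by
    intro hle
    have h1 : M.index ∣ (P : Subgroup G).index := Subgroup.index_dvd_of_le hle
    rw [hS.Midx] at h1
    exact P.not_dvd_index (hpm.trans h1)
  obtain ⟨s0, hs0P, hs0M⟩ := SetLike.not_le_iff_exists.mp hPM
  obtain ⟨k0, hk0K, hk0Z⟩ := SetLike.not_le_iff_exists.mp hS.KZ
  obtain ⟨u', hu', hu'k⟩ := exists_NP_commute h hpm hk0Z
  have hu'M : u' ∈ M := by
    by_contra hcon
    exact hk0Z (hS.semi u' hcon k0 hk0K hu'k)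
  obtain ⟨g, hg⟩ := exists_conj_mem_sylow P hu'.1
  set x := g * u' * g⁻¹ with hx
  have hxM : x ∈ M := hS.Mn.conj_mem u' hu'M g
  have hxZ : x ∉ Subgroup.center G := (NP.conj hu' g).2
  set A : Subgroup G := (P : Subgroup G) ⊓ M with hA
  have hAn : ∀ s ∈ (P : Subgroup G), ∀ y ∈ A, s * y * s⁻¹ ∈ A := by
    intro s hs y hy
    exact ⟨(P : Subgroup G).mul_mem ((P : Subgroup G).mul_mem hs hy.1) ((P : Subgroup G).inv_mem hs),
      hS.Mn.conj_mem y hy.2 s⟩
  have hnc : ∃ y ∈ A, ∃ s ∈ (P : Subgroup G), ¬ Commute s y := by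
    refine ⟨x, ⟨hg, hxM⟩, s0, hs0P, ?_⟩
    intro hc
    apply hs0M
    rw [← hCen x hxM hxZ]
    exact mem_Cen.mpr hc
  obtain ⟨u1, hu1A, ⟨s1, hs1P, hs1⟩, hc1, hc2⟩ := hB1 P A P.isPGroup' inf_le_left hAn hnc
  have hu1Z : u1 ∉ Subgroup.center G := by
    intro hz
    exact hs1 (commute_of_mem_center hz s1).symm
  have hCu1 : Cen u1 = M := hCen u1 hu1A.2 hu1Z
  have hrel : (Cen u1).relIndex P ∣ p := by
    refine hB2 P K (Subgroup.center G) u1 P.isPGroup' hu1A.1 hc1 hc2 ?_ hS.Kcop ?_ ?_ ?_ hS.KZ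
    · intro a ha b hb
      exact hS.Mcomm a (hS.KM ha) b (hS.KM hb)
    · intro s _ a ha
      exact hS.Kn.conj_mem a ha s
    · intro s _ hsu a ha
      have : s ∈ M := by rw [← hCu1]; exact mem_Cen.mpr hsu
      exact hS.Mcomm s this a (hS.KM ha)
    · intro s _ hsu a ha hsa
      have : s ∉ M := by
        intro hsM
        exact hsu (hS.Mcomm s hsM u1 hu1A.2)
      exact hS.semi s this a ha hsa
  rw [hCu1] at hrel
  have htop : (P : Subgroup G) ⊔ M = ⊤ := by
    rw [← Subgroup.index_eq_one]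
    have h1 : ((P : Subgroup G) ⊔ M).index ∣ (P : Subgroup G).index := Subgroup.index_dvd_of_le le_sup_left
    have h2 : ((P : Subgroup G) ⊔ M).index ∣ M.index := Subgroup.index_dvd_of_le le_sup_right
    obtain ⟨a, ha⟩ := hpow
    rw [hS.Midx, ha] at h2
    have h3 : ((P : Subgroup G).index).Coprime (p ^ a) :=
      Nat.Coprime.pow_right a ((hp.coprime_iff_not_dvd).mpr P.not_dvd_index).symm
    exact Nat.eq_one_of_dvd_coprimes h3 h1 h2
  have hrel2 : M.relIndex P = m := by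
    rw [← Subgroup.relIndex_sup_right, htop, Subgroup.relIndex_top_right, hS.Midx]
  rw [hrel2] at hrel
  rcases (Nat.dvd_prime hp).mp hrel with h1 | h1
  · have := h.hm; omega
  · exact h1

end Cfsg.Agent.Lib.Helper84CSXc
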