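import Mathlib

/-!
Harmonic analysis on finite abelian groups for the abelian-stabilizer criterion of the k(GV) problem:
functions with integral Fourier coefficients, and weights `W` for which
`∑ W |y|^2 ≥ |A|^2` for all such nonzero `y` (`Good`).  `Good` is stable under products with
`(A₁, 1 + |A₁| [a ≠ 0])` and under pullback along injective homomorphisms.
-/

set_option autoImplicit false

namespace Cfsg.Agent.Lib.Helper84KnorrA

open Finset

theorem pair_sum {I : Type*} [Fintype I] (z : I → ℂ) :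
    (Fintype.card I : ℝ) * ∑ i, ‖z i‖ ^ 2 - ‖∑ i, z i‖ ^ 2 = (1 / 2) * ∑ i, ∑ j, ‖z i - z j‖ ^ 2 := by
  have h1 : ∀ i j, ‖z i - z j‖ ^ 2 = ‖z i‖ ^ 2 - 2 * inner ℝ (z i) (z j) + ‖z j‖ ^ 2 :=
    fun i j => norm_sub_sq_real _ _
  have h2 : ∑ i, ∑ j, inner ℝ (z i) (z j) = ‖∑ i, z i‖ ^ 2 := by
    rw [← real_inner_self_eq_norm_sq, sum_inner]
    refine Finset.sum_congr rfl fun i _ => ?_
    rw [inner_sum]
  simp_rw [h1, Finset.sum_add_distrib, Finset.sum_sub_distrib, ← Finset.mul_sum, h2]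
  simp only [Finset.sum_const, Finset.card_univ, nsmul_eq_mul, ← Finset.mul_sum]
  ring

theorem pair_count {I Y : Type*} [Fintype I] [DecidableEq Y] (z : I → Y) (h : ∃ i j, z i ≠ z j) :
    2 * (Fintype.card I - 1) ≤ ((univ : Finset (I × I)).filter (fun q => z q.1 ≠ z q.2)).card := by
  classical
  obtain ⟨i0, j0, hij⟩ := h
  set S : Finset I := univ.filter (fun k => z k = z i0) with hS
  have hsub : (S ×ˢ Sᶜ) ∪ (Sᶜ ×ˢ S) ⊆ (univ : Finset (I × I)).filter (fun q => z q.1 ≠ z q.2) := by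
    intro q hq
    simp only [hS, mem_union, mem_product, mem_filter, mem_univ, true_and, mem_compl] at hq ⊢
    rcases hq with ⟨h1, h2⟩ | ⟨h1, h2⟩
    · rw [h1]; exact fun h => h2 h.symm
    · rw [h2]; exact h1
  have hdisj : Disjoint (S ×ˢ Sᶜ) (Sᶜ ×ˢ S) := by
    rw [Finset.disjoint_left]
    intro q h1 h2
    simp only [mem_product, mem_compl] at h1 h2
    exact h2.1 h1.1
  have hcard := Finset.card_le_card hsub
  rw [Finset.card_union_of_disjoint hdisj, Finset.card_product, Finset.card_product,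
    Finset.card_compl] at hcard
  have hs1 : 1 ≤ S.card := Finset.card_pos.mpr ⟨i0, by simp [hS]⟩
  have hs2 : S.card + 1 ≤ Fintype.card I := by
    have : S.card < Fintype.card I := by
      rw [← Finset.card_univ]
      apply Finset.card_lt_card
      rw [Finset.ssubset_univ_iff]
      intro hh
      have : j0 ∈ S := by rw [hh]; exact mem_univ _
      simp only [hS, mem_filter, mem_univ, true_and] at this
      exact hij this.symm
    omega
  refine le_trans ?_ hcard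
  obtain ⟨s, hs⟩ : ∃ s, S.card = s + 1 := ⟨S.card - 1, by omega⟩
  obtain ⟨t, ht⟩ : ∃ t, Fintype.card I = S.card + (t + 1) := ⟨Fintype.card I - S.card - 1, by omega⟩
  rw [ht, hs]
  have e1 : s + 1 + (t + 1) - 1 = s + t + 1 := by omega
  have e2 : s + 1 + (t + 1) - (s + 1) = t + 1 := by omega
  rw [e1, e2]
  nlinarith [Nat.zero_le (s * t)]

/-- integrality of the Fourier coefficients -/
def IntF (A : Type*) [AddCommGroup A] [Fintype A] (y : A → ℂ) : Prop :=
  ∀ ψ : AddChar A ℂ, ∃ n : ℤ, ∑ a, y a * ψ a = (n : ℂ) * (Fintype.card A : ℂ)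

def Good (A : Type*) [AddCommGroup A] [Fintype A] (W : A → ℝ) : Prop :=
  ∀ y : A → ℂ, IntF A y → y ≠ 0 → ((Fintype.card A : ℝ)) ^ 2 ≤ ∑ a, W a * ‖y a‖ ^ 2

section basic
variable {A : Type*} [AddCommGroup A] [Fintype A]

theorem IntF.zero : IntF A (0 : A → ℂ) := fun _ => ⟨0, by simp⟩

theorem IntF.sub {y z : A → ℂ} (hy : IntF A y) (hz : IntF A z) : IntF A (y - z) := by
  intro ψ
  obtain ⟨n, hn⟩ := hy ψ
  obtain ⟨m, hm⟩ := hz ψ
  refine ⟨n - m, ?_⟩
  simp only [Pi.sub_apply, sub_mul, Finset.sum_sub_distrib, hn, hm]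
  push_cast; ring

theorem Good.mono {W W' : A → ℝ} (h : Good A W) (hle : ∀ a, W a ≤ W' a) : Good A W' := by
  intro y hy hy0
  refine (h y hy hy0).trans ?_
  exact Finset.sum_le_sum fun a _ => mul_le_mul_of_nonneg_right (hle a) (by positivity)

/-- Fourier inversion at `0`. -/
theorem sum_coeff (y : A → ℂ) :
    ∑ ψ : AddChar A ℂ, ∑ a, y a * ψ a = (Fintype.card A : ℂ) * y 0 := by
  classical
  rw [Finset.sum_comm]
  simp_rw [← Finset.mul_sum, AddChar.sum_apply_eq_ite]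
  simp [mul_comm]

/-- Parseval. -/
theorem parseval (y : A → ℂ) :
    ∑ ψ : AddChar A ℂ, ‖∑ a, y a * ψ a‖ ^ 2 = (Fintype.card A : ℝ) * ∑ a, ‖y a‖ ^ 2 := by
  classical
  have key : ∑ ψ : AddChar A ℂ, (∑ a, y a * ψ a) * (starRingEnd ℂ) (∑ a, y a * ψ a)
      = (Fintype.card A : ℂ) * ∑ a, y a * (starRingEnd ℂ) (y a) := by
    have h1 : ∀ ψ : AddChar A ℂ, (∑ a, y a * ψ a) * (starRingEnd ℂ) (∑ a, y a * ψ a)
        = ∑ a, ∑ b, y a * (starRingEnd ℂ) (y b) * ψ (a - b) := by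
      intro ψ
      rw [map_sum, Finset.sum_mul_sum]
      refine Finset.sum_congr rfl fun a _ => Finset.sum_congr rfl fun b _ => ?_
      rw [map_mul, ← AddChar.map_neg_eq_conj, sub_eq_add_neg, AddChar.map_add_eq_mul]
      ring
    simp_rw [h1]
    rw [Finset.sum_comm]
    rw [Finset.mul_sum]
    refine Finset.sum_congr rfl fun a _ => ?_
    rw [Finset.sum_comm]
    simp_rw [← Finset.mul_sum, AddChar.sum_apply_eq_ite, sub_eq_zero]
    simp [mul_comm]
  have h2 : ((∑ ψ : AddChar A ℂ, ‖∑ a, y a * ψ a‖ ^ 2 : ℝ) : ℂ)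
      = (((Fintype.card A : ℝ) * ∑ a, ‖y a‖ ^ 2 : ℝ) : ℂ) := by
    push_cast
    simp_rw [← Complex.mul_conj']
    exact key
  exact_mod_cast h2

theorem IntF.apply_zero {y : A → ℂ} (hy : IntF A y) : ∃ n : ℤ, y 0 = n := by
  classical
  choose c hc using hy
  have h := sum_coeff y
  simp_rw [hc] at h
  have hA : (Fintype.card A : ℂ) ≠ 0 := by
    exact_mod_cast Fintype.card_ne_zero
  refine ⟨∑ ψ, c ψ, ?_⟩
  rw [← Finset.sum_mul] at h
  have : (Fintype.card A : ℂ) * y 0 = (Fintype.card A : ℂ) * ((∑ ψ, c ψ : ℤ) : ℂ) := by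
    rw [← h]; push_cast; ring
  exact mul_left_cancel₀ hA this

end basic

section prod
variable {A₁ A' : Type*} [AddCommGroup A₁] [Fintype A₁] [AddCommGroup A'] [Fintype A']

def prodChar (α : AddChar A₁ ℂ) (ψ : AddChar A' ℂ) : AddChar (A₁ × A') ℂ where
  toFun q := α q.1 * ψ q.2
  map_zero_eq_one' := by simp
  map_add_eq_mul' := by
    intro a b
    simp only [Prod.fst_add, Prod.snd_add, AddChar.map_add_eq_mul]
    ring

/-- partial Fourier coefficient in the first variable -/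
noncomputable def comp (y : A₁ × A' → ℂ) (α : AddChar A₁ ℂ) : A' → ℂ :=
  fun a' => (Fintype.card A₁ : ℂ)⁻¹ * ∑ a, y (a, a') * α a

theorem card_ne : (Fintype.card A₁ : ℂ) ≠ 0 := by exact_mod_cast Fintype.card_ne_zero

theorem comp_intF {y : A₁ × A' → ℂ} (hy : IntF (A₁ × A') y) (α : AddChar A₁ ℂ) :
    IntF A' (comp y α) := by
  intro ψ
  obtain ⟨n, hn⟩ := hy (prodChar α ψ)
  refine ⟨n, ?_⟩
  rw [Fintype.sum_prod_type, Fintype.card_prod] at hn
  have h1 : ∑ a', comp y α a' * ψ a'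
      = (Fintype.card A₁ : ℂ)⁻¹ * ∑ a, ∑ a', y (a, a') * prodChar α ψ (a, a') := by
    rw [Finset.sum_comm, Finset.mul_sum]
    refine Finset.sum_congr rfl fun a' _ => ?_
    simp only [comp]
    rw [mul_assoc, Finset.sum_mul]
    congr 1
    refine Finset.sum_congr rfl fun a _ => ?_
    show _ = y (a, a') * (α a * ψ a')
    ring
  rw [h1, hn]
  push_cast
  field_simp [card_ne (A₁ := A₁)]

theorem sum_comp (y : A₁ × A' → ℂ) (a' : A') : ∑ α, comp y α a' = y (0, a') := by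
  have h := sum_coeff (fun a => y (a, a'))
  simp only [comp]
  rw [← Finset.mul_sum, h]
  field_simp [card_ne (A₁ := A₁)]

theorem sum_norm_comp (y : A₁ × A' → ℂ) (a' : A') :
    (Fintype.card A₁ : ℝ) * ∑ α, ‖comp y α a'‖ ^ 2 = ∑ a, ‖y (a, a')‖ ^ 2 := by
  have h := parseval (fun a => y (a, a'))
  have hA : (Fintype.card A₁ : ℝ) ≠ 0 := by exact_mod_cast Fintype.card_ne_zero
  have h1 : ∀ α : AddChar A₁ ℂ, ‖comp y α a'‖ ^ 2
      = ((Fintype.card A₁ : ℝ)⁻¹) ^ 2 * ‖∑ a, y (a, a') * α a‖ ^ 2 := by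
    intro α
    simp only [comp]
    rw [norm_mul, mul_pow, norm_inv]
    simp
  simp_rw [h1]
  rw [← Finset.mul_sum, h]
  field_simp

theorem pairs_bound {I : Type*} [Fintype I] {W' : A' → ℝ} (hG : Good A' W') (z : I → A' → ℂ)
    (hz : ∀ i, IntF A' (z i)) (hne : ∃ i j, z i ≠ z j) :
    2 * ((Fintype.card I : ℝ) - 1) * (Fintype.card A' : ℝ) ^ 2
      ≤ ∑ i, ∑ j, ∑ a', W' a' * ‖z i a' - z j a'‖ ^ 2 := by
  classical
  have hc := pair_count z hne
  have hpos : 1 ≤ Fintype.card I := by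
    obtain ⟨i, _⟩ := hne
    exact Fintype.card_pos_iff.mpr ⟨i⟩
  have hc' : 2 * ((Fintype.card I : ℝ) - 1)
      ≤ (((univ : Finset (I × I)).filter (fun q => z q.1 ≠ z q.2)).card : ℝ) := by
    have : ((2 * (Fintype.card I - 1) : ℕ) : ℝ) ≤ _ := Nat.cast_le.mpr hc
    rw [Nat.cast_mul, Nat.cast_sub hpos] at this
    simpa using this
  have hterm : ∀ q : I × I, (if z q.1 ≠ z q.2 then (Fintype.card A' : ℝ) ^ 2 else 0)
      ≤ ∑ a', W' a' * ‖z q.1 a' - z q.2 a'‖ ^ 2 := by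
    intro q
    split_ifs with h
    · have := hG (z q.1 - z q.2) ((hz _).sub (hz _)) (sub_ne_zero.mpr h)
      simpa using this
    · have h' : z q.1 = z q.2 := not_not.mp h
      simp [h']
  calc 2 * ((Fintype.card I : ℝ) - 1) * (Fintype.card A' : ℝ) ^ 2
      ≤ (((univ : Finset (I × I)).filter (fun q => z q.1 ≠ z q.2)).card : ℝ)
          * (Fintype.card A' : ℝ) ^ 2 := mul_le_mul_of_nonneg_right hc' (by positivity)
    _ = ∑ q : I × I, (if z q.1 ≠ z q.2 then (Fintype.card A' : ℝ) ^ 2 else 0) := by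
        rw [← Finset.sum_filter, Finset.sum_const, nsmul_eq_mul]
    _ ≤ ∑ q : I × I, ∑ a', W' a' * ‖z q.1 a' - z q.2 a'‖ ^ 2 :=
        Finset.sum_le_sum fun q _ => hterm q
    _ = _ := by rw [Fintype.sum_prod_type]

theorem eq_zero_of_comp {y : A₁ × A' → ℂ} (h : ∀ α, comp y α = 0) : y = 0 := by
  funext q
  obtain ⟨a, a'⟩ := q
  have h1 := sum_norm_comp y a'
  simp only [h, Pi.zero_apply, norm_zero] at h1
  have h2 : ∑ a, ‖y (a, a')‖ ^ 2 = 0 := by rw [← h1]; simp
  have h3 := (Finset.sum_eq_zero_iff_of_nonneg (fun i _ => by positivity)).mp h2 a (mem_univ _)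
  simpa using h3

/-- product step -/
theorem Good.prod {W' : A' → ℝ} (hG : Good A' W') [DecidableEq A₁] :
    Good (A₁ × A') (fun q => (1 + (Fintype.card A₁ : ℝ) * (if q.1 = 0 then 0 else 1)) * W' q.2) := by
  classical
  intro y hy hy0
  set m : ℝ := (Fintype.card A₁ : ℝ) with hm
  let z : Option (AddChar A₁ ℂ) → A' → ℂ := fun o => o.elim 0 (comp y)
  have hz : ∀ i, IntF A' (z i) := by
    intro i
    cases i with
    | none => exact IntF.zero
    | some α => exact comp_intF hy α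
  have hne : ∃ i j, z i ≠ z j := by
    by_contra hcon
    push Not at hcon
    apply hy0
    apply eq_zero_of_comp
    intro α
    exact hcon (some α) none
  have hb := pairs_bound hG z hz hne
  have hcardI : (Fintype.card (Option (AddChar A₁ ℂ)) : ℝ) = m + 1 := by
    rw [Fintype.card_option, AddChar.card_eq]; push_cast; rfl
  rw [hcardI] at hb
  have hfib : ∀ a', ∑ a, (1 + m * (if a = 0 then 0 else 1)) * ‖y (a, a')‖ ^ 2
      = m * ((1 / 2) * ∑ i, ∑ j, ‖z i a' - z j a'‖ ^ 2) := by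
    intro a'
    have hp := pair_sum (fun i => z i a')
    rw [hcardI] at hp
    rw [← hp, Fintype.sum_option, Fintype.sum_option]
    have e1 : ∀ a : A₁, (1 + m * (if a = 0 then (0:ℝ) else 1)) * ‖y (a, a')‖ ^ 2
        = (1 + m) * ‖y (a, a')‖ ^ 2 - (if a = 0 then m * ‖y (a, a')‖ ^ 2 else 0) := by
      intro a
      split_ifs <;> ring
    simp_rw [e1]
    rw [Finset.sum_sub_distrib, ← Finset.mul_sum, Finset.sum_ite_eq' univ (0 : A₁)]
    simp only [mem_univ, if_true]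
    have e2 : ∀ α : AddChar A₁ ℂ, z (some α) a' = comp y α a' := fun α => rfl
    have e3 : z none a' = 0 := rfl
    simp_rw [e2, e3]
    rw [sum_comp, ← sum_norm_comp]
    simp only [norm_zero, zero_add]
    ring
  rw [Fintype.sum_prod_type_right, Fintype.card_prod]
  have h1 : ∀ a', ∑ a, (1 + m * (if (a, a').1 = 0 then (0:ℝ) else 1)) * W' (a, a').2 * ‖y (a, a')‖ ^ 2
      = (m / 2) * ∑ i, ∑ j, W' a' * ‖z i a' - z j a'‖ ^ 2 := by
    intro a'
    have : ∀ a, (1 + m * (if (a, a').1 = 0 then (0:ℝ) else 1)) * W' (a, a').2 * ‖y (a, a')‖ ^ 2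
        = W' a' * ((1 + m * (if a = 0 then 0 else 1)) * ‖y (a, a')‖ ^ 2) := by
      intro a; ring
    simp_rw [this]
    rw [← Finset.mul_sum, hfib]
    simp_rw [← Finset.mul_sum]
    ring
  simp_rw [h1]
  rw [← Finset.mul_sum]
  have h2 : ∑ a', ∑ i, ∑ j, W' a' * ‖z i a' - z j a'‖ ^ 2
      = ∑ i, ∑ j, ∑ a', W' a' * ‖z i a' - z j a'‖ ^ 2 := by
    rw [Finset.sum_comm]
    refine Finset.sum_congr rfl fun i _ => ?_
    rw [Finset.sum_comm]
  rw [h2]
  have hm0 : 0 ≤ m := by positivity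
  push_cast
  calc (m * (Fintype.card A' : ℝ)) ^ 2 = (m / 2) * (2 * (m + 1 - 1) * (Fintype.card A' : ℝ) ^ 2) := by ring
    _ ≤ _ := mul_le_mul_of_nonneg_left hb (by positivity)

/-- punctured step -/
theorem punctured {W' : A' → ℝ} (hG : Good A' W') [DecidableEq A₁] {y : A₁ × A' → ℂ}
    (hy : IntF (A₁ × A') y) (h0 : ¬ ∃ n : ℤ, y (0, 0) = (Fintype.card A₁ : ℂ) * n) :
    ((Fintype.card A₁ : ℝ) - 1) * (Fintype.card A' : ℝ) ^ 2
      ≤ ∑ q : A₁ × A', (if q.1 = 0 then 0 else W' q.2 * ‖y q‖ ^ 2) := by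
  classical
  set m : ℝ := (Fintype.card A₁ : ℝ) with hm
  have hne : ∃ i j, comp y i ≠ comp y j := by
    by_contra hcon
    push Not at hcon
    apply h0
    obtain ⟨n, hn⟩ := (comp_intF hy 0).apply_zero
    refine ⟨n, ?_⟩
    rw [← sum_comp y 0]
    have : ∀ α, comp y α 0 = comp y 0 0 := fun α => by rw [hcon α 0]
    simp_rw [this, hn]
    rw [Finset.sum_const, Finset.card_univ, AddChar.card_eq, nsmul_eq_mul]
  have hb := pairs_bound hG (comp y) (comp_intF hy) hne
  have hcardI : (Fintype.card (AddChar A₁ ℂ) : ℝ) = m := by rw [AddChar.card_eq]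
  rw [hcardI] at hb
  have hfib : ∀ a', ∑ a, (if a = 0 then 0 else ‖y (a, a')‖ ^ 2)
      = (1 / 2) * ∑ i, ∑ j, ‖comp y i a' - comp y j a'‖ ^ 2 := by
    intro a'
    have hp := pair_sum (fun i => comp y i a')
    rw [hcardI] at hp
    rw [← hp, sum_comp, sum_norm_comp]
    have e1 : ∀ a : A₁, (if a = 0 then (0:ℝ) else ‖y (a, a')‖ ^ 2)
        = ‖y (a, a')‖ ^ 2 - (if a = 0 then ‖y (a, a')‖ ^ 2 else 0) := by
      intro a
      split_ifs <;> ring
    simp_rw [e1]
    rw [Finset.sum_sub_distrib, Finset.sum_ite_eq' univ (0 : A₁)]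
    simp
  rw [Fintype.sum_prod_type_right]
  have h1 : ∀ a', ∑ a, (if (a, a').1 = 0 then (0:ℝ) else W' (a, a').2 * ‖y (a, a')‖ ^ 2)
      = (1 / 2) * ∑ i, ∑ j, W' a' * ‖comp y i a' - comp y j a'‖ ^ 2 := by
    intro a'
    have : ∀ a, (if (a, a').1 = 0 then (0:ℝ) else W' (a, a').2 * ‖y (a, a')‖ ^ 2)
        = W' a' * (if a = 0 then 0 else ‖y (a, a')‖ ^ 2) := by
      intro a
      by_cases h : a = 0 <;> simp [h]
    simp_rw [this]
    rw [← Finset.mul_sum, hfib]
    simp_rw [← Finset.mul_sum]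
    ring
  simp_rw [h1]
  rw [← Finset.mul_sum]
  have h2 : ∑ a', ∑ i, ∑ j, W' a' * ‖comp y i a' - comp y j a'‖ ^ 2
      = ∑ i, ∑ j, ∑ a', W' a' * ‖comp y i a' - comp y j a'‖ ^ 2 := by
    rw [Finset.sum_comm]
    refine Finset.sum_congr rfl fun i _ => ?_
    rw [Finset.sum_comm]
  rw [h2]
  linarith

end prod

section pull
variable {A H : Type*} [AddCommGroup A] [Fintype A] [AddCommGroup H] [Fintype H]

/-- pullback along an injective homomorphism -/
theorem Good.pullback {W : A → ℝ} (hG : Good A W) (ι : H →+ A) (hι : Function.Injective ι) :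
    Good H (fun h => W (ι h)) := by
  classical
  intro x hx hx0
  set c : ℂ := (Fintype.card A : ℂ) / (Fintype.card H : ℂ) with hc
  have hH : (Fintype.card H : ℂ) ≠ 0 := by exact_mod_cast Fintype.card_ne_zero
  have hHr : (Fintype.card H : ℝ) ≠ 0 := by exact_mod_cast Fintype.card_ne_zero
  have hA : (Fintype.card A : ℂ) ≠ 0 := by exact_mod_cast Fintype.card_ne_zero
  let y : A → ℂ := fun a => c * ∑ h, (if ι h = a then x h else 0)
  have hyι : ∀ h, y (ι h) = c * x h := by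
    intro h
    simp only [y]
    congr 1
    rw [Finset.sum_eq_single h]
    · simp
    · intro b _ hb
      rw [if_neg]
      exact fun h' => hb (hι h')
    · intro h'; exact absurd (mem_univ _) h'
  have hsum : ∀ F : A → ℂ → ℂ, (∀ a, F a 0 = 0) → ∑ a, F a (y a) = ∑ h, F (ι h) (c * x h) := by
    intro F hF
    rw [← Finset.sum_subset (Finset.subset_univ (univ.image ι))]
    · rw [Finset.sum_image (fun a _ b _ h => hι h)]
      refine Finset.sum_congr rfl fun h _ => by rw [hyι]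
    · intro a _ ha
      have : y a = 0 := by
        simp only [y]
        rw [Finset.sum_eq_zero, mul_zero]
        intro h _
        rw [if_neg]
        intro h'
        exact ha (Finset.mem_image.mpr ⟨h, mem_univ _, h'⟩)
      rw [this, hF]
  have hy : IntF A y := by
    intro ψ
    obtain ⟨n, hn⟩ := hx (ψ.compAddMonoidHom ι)
    refine ⟨n, ?_⟩
    rw [hsum (fun a w => w * ψ a) (by simp)]
    have : ∑ h, c * x h * ψ (ι h) = c * ∑ h, x h * (ψ.compAddMonoidHom ι) h := by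
      rw [Finset.mul_sum]
      refine Finset.sum_congr rfl fun h _ => ?_
      simp [mul_assoc]
    rw [this, hn, hc]
    field_simp
  have hy0 : y ≠ 0 := by
    intro h
    apply hx0
    funext a
    have := congrFun h (ι a)
    rw [hyι] at this
    have hc0 : c ≠ 0 := div_ne_zero hA hH
    simpa [hc0] using this
  have hmain := hG y hy hy0
  have hsum' : ∑ a, W a * ‖y a‖ ^ 2 = ∑ h, W (ι h) * ‖c * x h‖ ^ 2 := by
    have := hsum (fun a w => ((W a * ‖w‖ ^ 2 : ℝ) : ℂ)) (by simp)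
    exact_mod_cast this
  rw [hsum'] at hmain
  have hcn : ‖c‖ = (Fintype.card A : ℝ) / (Fintype.card H : ℝ) := by
    rw [hc, norm_div]; simp
  simp_rw [norm_mul, mul_pow, hcn] at hmain
  have : ∑ h, W (ι h) * (((Fintype.card A : ℝ) / (Fintype.card H : ℝ)) ^ 2 * ‖x h‖ ^ 2)
      = ((Fintype.card A : ℝ) / (Fintype.card H : ℝ)) ^ 2 * ∑ h, W (ι h) * ‖x h‖ ^ 2 := by
    rw [Finset.mul_sum]
    refine Finset.sum_congr rfl fun h _ => by ring
  rw [this] at hmain
  have hAr : (0 : ℝ) < (Fintype.card A : ℝ) := by exact_mod_cast Fintype.card_pos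
  have hHp : (0 : ℝ) < (Fintype.card H : ℝ) := by exact_mod_cast Fintype.card_pos
  rw [div_pow, div_mul_eq_mul_div, le_div_iff₀ (by positivity)] at hmain
  have h3 : (Fintype.card A : ℝ) ^ 2 * (Fintype.card H : ℝ) ^ 2
      ≤ (Fintype.card A : ℝ) ^ 2 * ∑ h, W (ι h) * ‖x h‖ ^ 2 := hmain
  exact le_of_mul_le_mul_left h3 (by positivity)

theorem good_punit : Good PUnit (fun _ => (1 : ℝ)) := by
  intro y hy hy0
  obtain ⟨n, hn⟩ := hy.apply_zero
  have hn0 : n ≠ 0 := by
    rintro rfl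
    apply hy0
    funext a
    have : a = 0 := Subsingleton.elim _ _
    rw [this, hn]; simp
  have h1 : (1 : ℝ) ≤ ‖y 0‖ ^ 2 := by
    rw [hn]
    have : (1 : ℝ) ≤ |(n : ℝ)| := by exact_mod_cast Int.one_le_abs hn0
    have h2 : ‖((n : ℤ) : ℂ)‖ = |(n : ℝ)| := by
      rw [← Complex.ofReal_intCast, Complex.norm_real, Real.norm_eq_abs]
    rw [h2]
    nlinarith
  simpa using h1

end pull

end Cfsg.Agent.Lib.Helper84KnorrA
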