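import Cfsg.Agent.Lib.Helper84KnorrA

/-!
A finite abelian group `H` acting faithfully and coprimely on a finite abelian group `V`:
the weight `h ↦ |[V,h]|` is `Good` on `H`.
-/

set_option autoImplicit false

namespace Cfsg.Agent.Lib.Helper84KnorrB

open Cfsg.Agent.Lib.Helper84KnorrA

universe u
variable {V H : Type u} [CommGroup V] [Finite V] [CommGroup H] [Finite H] (φ : H →* MulAut V)

/-- commutator map with `h` -/
def kap (h : H) : V →* V := (φ h).toMonoidHom / MonoidHom.id V

omit [Finite V] [Finite H] in
theorem kap_apply (h : H) (x : V) : kap φ h x = φ h x / x := rfl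

def Inv (U : Subgroup V) : Prop := ∀ h : H, ∀ u ∈ U, φ h u ∈ U

def comm (K : Subgroup H) : Subgroup V := Subgroup.closure {y | ∃ k ∈ K, ∃ x : V, y = φ k x / x}

def fix (K : Subgroup H) : Subgroup V where
  carrier := {x | ∀ k ∈ K, φ k x = x}
  one_mem' := by intro k _; simp
  mul_mem' := by
    intro a b ha hb k hk
    rw [map_mul, ha k hk, hb k hk]
  inv_mem' := by
    intro a ha k hk
    rw [map_inv, ha k hk]

omit [Finite V] [Finite H] in
theorem swap (h k : H) (x : V) : φ h (φ k x) = φ k (φ h x) := by
  rw [← MulAut.mul_apply, ← MulAut.mul_apply, ← map_mul, ← map_mul, mul_comm]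

omit [Finite V] [Finite H] in
theorem inv_comm (K : Subgroup H) : Inv φ (comm φ K) := by
  intro h u hu
  have : comm φ K ≤ (comm φ K).comap (φ h).toMonoidHom := by
    unfold comm
    rw [Subgroup.closure_le]
    rintro y ⟨k, hk, x, rfl⟩
    show φ h (φ k x / x) ∈ Subgroup.closure {y | ∃ k ∈ K, ∃ x : V, y = φ k x / x}
    apply Subgroup.subset_closure
    refine ⟨k, hk, φ h x, ?_⟩
    rw [map_div, swap]
  exact this hu

omit [Finite V] [Finite H] in
theorem comm_mono {K K' : Subgroup H} (h : K' ≤ K) : comm φ K' ≤ comm φ K := by
  apply Subgroup.closure_mono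
  rintro y ⟨k, hk, x, rfl⟩
  exact ⟨k, h hk, x, rfl⟩

omit [Finite V] in
theorem fix_inf_comm (hcop : (Nat.card H).Coprime (Nat.card V)) (K : Subgroup H) :
    fix φ K ⊓ comm φ K = ⊥ := by
  classical
  let _ : Fintype K := Fintype.ofFinite K
  let τ : V →* V := ∏ k : K, ((φ (k : H)).toMonoidHom : V →* V)
  have hτ : ∀ x, τ x = ∏ k : K, φ (k : H) x := by
    intro x
    simp only [τ, MonoidHom.finsetProd_apply]
    rfl
  have h1 : comm φ K ≤ τ.ker := by
    unfold comm
    rw [Subgroup.closure_le]
    rintro y ⟨k0, hk0, x, rfl⟩
    show τ _ = 1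
    rw [map_div, div_eq_one, hτ, hτ]
    refine Fintype.prod_equiv (Equiv.mulRight (⟨k0, hk0⟩ : K)) _ _ ?_
    intro k
    simp only [Equiv.coe_mulRight, Subgroup.coe_mul, map_mul, MulAut.mul_apply]
  rw [eq_bot_iff]
  rintro x ⟨hx1, hx2⟩
  have h2 : τ x = 1 := h1 hx2
  rw [hτ] at h2
  have h3 : ∏ k : K, φ (k : H) x = x ^ (Nat.card K) := by
    rw [Finset.prod_congr rfl (fun (k : K) _ => hx1 (k : H) k.2), Finset.prod_const, Finset.card_univ,
      Nat.card_eq_fintype_card]
  rw [h3] at h2
  have h4 : orderOf x ∣ Nat.card K := orderOf_dvd_of_pow_eq_one h2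
  have h5 : orderOf x ∣ Nat.card V := orderOf_dvd_natCard x
  have h6 : orderOf x ∣ Nat.card H := h4.trans (Subgroup.card_subgroup_dvd_card K)
  have h7 : orderOf x = 1 := Nat.eq_one_of_dvd_coprimes hcop h6 h5
  exact orderOf_eq_one_iff.mp h7

/-- the centralizer in `H` of a subgroup of `V` -/
def cen (U : Subgroup V) : Subgroup H where
  carrier := {h | ∀ u ∈ U, φ h u = u}
  one_mem' := by intro u _; simp
  mul_mem' := by
    intro a b ha hb u hu
    rw [map_mul, MulAut.mul_apply, hb u hu, ha u hu]
  inv_mem' := by
    intro a ha u hu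
    rw [map_inv, MulAut.inv_apply, MulEquiv.symm_apply_eq, ha u hu]

omit [Finite H] in
theorem card_mul_le {P Q R : Subgroup V} (hPQ : P ⊓ Q = ⊥) (hP : P ≤ R) (hQ : Q ≤ R) :
    Nat.card P * Nat.card Q ≤ Nat.card R := by
  rw [← Nat.card_prod]
  refine Nat.card_le_card_of_injective
    (fun q : P × Q => (⟨q.1 * q.2, R.mul_mem (hP q.1.2) (hQ q.2.2)⟩ : R)) ?_
  rintro ⟨⟨a, ha⟩, ⟨b, hb⟩⟩ ⟨⟨c, hc⟩, ⟨d, hd⟩⟩ h
  simp only [Subtype.mk.injEq] at h
  have h1 : c⁻¹ * a = d * b⁻¹ := by
    rw [inv_mul_eq_iff_eq_mul, ← mul_assoc, eq_mul_inv_iff_mul_eq]; exact h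
  have h2 : c⁻¹ * a ∈ P ⊓ Q := ⟨P.mul_mem (P.inv_mem hc) ha, h1 ▸ Q.mul_mem hd (Q.inv_mem hb)⟩
  rw [hPQ, Subgroup.mem_bot] at h2
  have h3 : a = c := by rw [inv_mul_eq_one] at h2; exact h2.symm
  subst h3
  have h4 : b = d := mul_left_cancel h
  subst h4
  rfl

theorem exists_good (hcop : (Nat.card H).Coprime (Nat.card V)) (hf : Function.Injective φ) :
    ∀ (n : ℕ) (K : Subgroup H), Nat.card K ≤ n →
      ∃ (A : Type u) (_ : AddCommGroup A) (_ : Fintype A) (W : A → ℝ) (ι : Additive H →+ A),
        Good A W ∧ (∀ k ∈ K, ι (Additive.ofMul k) = 0 → k = 1) ∧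
        ∀ h : H, W (ι (Additive.ofMul h)) ≤ (Nat.card ((comm φ K).map (kap φ h)) : ℝ) := by
  classical
  intro n
  induction n with
  | zero =>
    intro K hK
    have := Nat.card_pos (α := K)
    omega
  | succ n ih =>
    intro K hK
    by_cases hKb : K = ⊥
    · refine ⟨PUnit, inferInstance, inferInstance, fun _ => 1, 0, good_punit, ?_, ?_⟩
      · intro k hk _
        rw [hKb] at hk
        exact hk
      · intro h
        show (1 : ℝ) ≤ _
        exact_mod_cast Nat.card_pos
    -- `[V,K] ≠ 1`
    have hU : comm φ K ≠ ⊥ := by
      intro hb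
      apply hKb
      rw [eq_bot_iff]
      intro k hk
      rw [Subgroup.mem_bot]
      apply hf
      ext x
      have : φ k x / x ∈ comm φ K := Subgroup.subset_closure ⟨k, hk, x, rfl⟩
      rw [hb, Subgroup.mem_bot, div_eq_one] at this
      simpa using this
    -- minimal invariant subgroup
    let S : Set (Subgroup V) := {U | U ≠ ⊥ ∧ Inv φ U ∧ U ≤ comm φ K}
    have hS : S.Nonempty := ⟨comm φ K, hU, inv_comm φ K, le_rfl⟩
    obtain ⟨V₁, ⟨hV1, hV1i, hV1le⟩, hmin⟩ := (wellFounded_lt (α := Subgroup V)).has_min S hS
    -- dichotomy
    have hdich : ∀ h : H, (∃ u ∈ V₁, u ≠ 1 ∧ φ h u = u) → h ∈ cen φ V₁ := by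
      rintro h ⟨u, hu, hu1, hfu⟩
      let C : Subgroup V := V₁ ⊓ (kap φ h).ker
      have hC : C ∈ S := by
        refine ⟨?_, ?_, inf_le_left.trans hV1le⟩
        · intro hb
          have : u ∈ C := ⟨hu, by show kap φ h u = 1; rw [kap_apply, hfu, div_self']⟩
          rw [hb, Subgroup.mem_bot] at this
          exact hu1 this
        · rintro g x ⟨hx1, hx2⟩
          refine ⟨hV1i g x hx1, ?_⟩
          have hx3 : φ h x / x = 1 := hx2
          show φ h (φ g x) / φ g x = 1
          rw [swap, ← map_div, hx3, map_one]
      have hCe : C = V₁ := by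
        by_contra hne
        exact hmin C hC (lt_of_le_of_ne inf_le_left hne)
      intro x hx
      have : x ∈ C := hCe ▸ hx
      have h2 : φ h x / x = 1 := this.2
      exact div_eq_one.mp h2
    set K₁ := cen φ V₁ with hK1
    set K' := K ⊓ K₁ with hK'
    have hV1fix : V₁ ≤ fix φ K' := by
      intro x hx k hk
      exact hk.2 x hx
    have hlt : K' < K := by
      refine lt_of_le_of_ne inf_le_left ?_
      intro he
      apply hV1
      rw [eq_bot_iff, ← fix_inf_comm φ hcop K]
      refine le_inf ?_ hV1le
      rw [← he]; exact hV1fix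
    have hcard : Nat.card K' ≤ n := by
      have : Nat.card K' < Nat.card K := by
        have := Set.Finite.card_lt_card (s := (K' : Set H)) (t := (K : Set H)) (Set.toFinite _)
          (by exact_mod_cast hlt)
        simpa using this
      omega
    obtain ⟨A', iA, iF, W', ι', hG', hker', hW'⟩ := ih K' hcard
    let Q := Additive H ⧸ (Subgroup.toAddSubgroup K₁)
    let _ : Fintype Q := Fintype.ofFinite Q
    refine ⟨Q × A', inferInstance, inferInstance,
      fun q => (1 + (Fintype.card Q : ℝ) * (if q.1 = 0 then 0 else 1)) * W' q.2,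
      (QuotientAddGroup.mk' (Subgroup.toAddSubgroup K₁)).prod ι', hG'.prod, ?_, ?_⟩
    · intro k hk h0
      have h1 : (QuotientAddGroup.mk' (Subgroup.toAddSubgroup K₁)) (Additive.ofMul k) = 0 :=
        congrArg Prod.fst h0
      have h2 : ι' (Additive.ofMul k) = 0 := congrArg Prod.snd h0
      have h3 : k ∈ K₁ := by
        have := (QuotientAddGroup.eq_zero_iff (N := Subgroup.toAddSubgroup K₁) (Additive.ofMul k)).mp h1
        exact this
      exact hker' k ⟨hk, h3⟩ h2
    · intro h
      show (1 + (Fintype.card Q : ℝ) *
        (if (QuotientAddGroup.mk' (Subgroup.toAddSubgroup K₁)) (Additive.ofMul h) = 0 then 0 else 1))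
          * W' (ι' (Additive.ofMul h)) ≤ _
      have hmem : (QuotientAddGroup.mk' (Subgroup.toAddSubgroup K₁)) (Additive.ofMul h) = 0 ↔ h ∈ K₁ :=
        QuotientAddGroup.eq_zero_iff (N := Subgroup.toAddSubgroup K₁) (Additive.ofMul h)
      -- first factor
      have hfirst : (1 + (Fintype.card Q : ℝ) *
          (if (QuotientAddGroup.mk' (Subgroup.toAddSubgroup K₁)) (Additive.ofMul h) = 0 then 0 else 1))
          ≤ (Nat.card (V₁.map (kap φ h)) : ℝ) := by
        by_cases hh : h ∈ K₁
        · rw [if_pos (hmem.mpr hh)]
          have : (1 : ℝ) ≤ (Nat.card (V₁.map (kap φ h)) : ℝ) := by exact_mod_cast Nat.card_pos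
          simpa using this
        · rw [if_neg (fun h' => hh (hmem.mp h'))]
          -- `kap h` injective on `V₁`
          have hinj : Set.InjOn (kap φ h) (V₁ : Set V) := by
            intro a ha b hb hab
            by_contra hne
            apply hh
            apply hdich h
            refine ⟨a / b, V₁.div_mem ha hb, by rwa [Ne, div_eq_one], ?_⟩
            rw [kap_apply, kap_apply, div_eq_div_iff_mul_eq_mul] at hab
            rw [map_div, div_eq_div_iff_mul_eq_mul, hab, mul_comm]
          have hc1 : Nat.card (V₁.map (kap φ h)) = Nat.card V₁ := by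
            have : ((V₁.map (kap φ h) : Subgroup V) : Set V) = (kap φ h) '' (V₁ : Set V) := rfl
            show Nat.card ((V₁.map (kap φ h) : Subgroup V) : Set V) = Nat.card (V₁ : Set V)
            rw [this]
            exact Nat.card_image_of_injOn hinj
          rw [hc1]
          obtain ⟨u, hu, hu1⟩ : ∃ u ∈ V₁, u ≠ 1 := by
            by_contra hcon
            push Not at hcon
            apply hV1
            rw [eq_bot_iff]
            intro x hx
            exact hcon x hx
          -- orbit map
          have horb : Fintype.card Q + 1 ≤ Nat.card V₁ := by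
            have hwd : ∀ a b : Additive H, (QuotientAddGroup.leftRel (Subgroup.toAddSubgroup K₁)) a b →
                φ (Additive.toMul a) u = φ (Additive.toMul b) u := by
              intro a b hab
              rw [QuotientAddGroup.leftRel_apply] at hab
              have h1 : (Additive.toMul a)⁻¹ * Additive.toMul b ∈ K₁ := hab
              have h2 := h1 u hu
              rw [map_mul, MulAut.mul_apply, map_inv, MulAut.inv_apply, MulEquiv.symm_apply_eq] at h2
              exact h2.symm
            let f : Option Q → V₁ := fun o => o.elim 1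
              (fun q => Quotient.liftOn' q
                (fun a => (⟨φ (Additive.toMul a) u, hV1i _ u hu⟩ : V₁))
                (fun a b hab => Subtype.ext (hwd a b hab)))
            have hfinj : Function.Injective f := by
              intro o1 o2 h12
              cases o1 with
              | none =>
                cases o2 with
                | none => rfl
                | some q =>
                  exfalso
                  induction q using Quotient.inductionOn' with
                  | h a =>
                    have : (1 : V) = φ (Additive.toMul a) u := congrArg Subtype.val h12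
                    apply hu1
                    have h3 : φ (Additive.toMul a) u = φ (Additive.toMul a) 1 := by rw [map_one, ← this]
                    exact (φ (Additive.toMul a)).injective h3
              | some q =>
                cases o2 with
                | none =>
                  exfalso
                  induction q using Quotient.inductionOn' with
                  | h a =>
                    have : φ (Additive.toMul a) u = (1 : V) := congrArg Subtype.val h12
                    apply hu1
                    have h3 : φ (Additive.toMul a) u = φ (Additive.toMul a) 1 := by rw [map_one, this]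
                    exact (φ (Additive.toMul a)).injective h3
                | some q' =>
                  induction q using Quotient.inductionOn' with
                  | h a =>
                    induction q' using Quotient.inductionOn' with
                    | h b =>
                      have h3 : φ (Additive.toMul a) u = φ (Additive.toMul b) u :=
                        congrArg Subtype.val h12
                      congr 1
                      apply Quotient.sound'
                      rw [QuotientAddGroup.leftRel_apply]
                      show (Additive.toMul a)⁻¹ * Additive.toMul b ∈ K₁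
                      apply hdich
                      refine ⟨u, hu, hu1, ?_⟩
                      rw [map_mul, MulAut.mul_apply, map_inv, MulAut.inv_apply,
                        MulEquiv.symm_apply_eq, h3]
            have := Nat.card_le_card_of_injective f hfinj
            rw [Nat.card_eq_fintype_card, Fintype.card_option] at this
            exact this
          have : ((Fintype.card Q + 1 : ℕ) : ℝ) ≤ (Nat.card V₁ : ℝ) := Nat.cast_le.mpr horb
          push_cast at this
          linarith
      have hnn : (0 : ℝ) ≤ (1 + (Fintype.card Q : ℝ) *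
          (if (QuotientAddGroup.mk' (Subgroup.toAddSubgroup K₁)) (Additive.ofMul h) = 0 then 0 else 1)) := by
        split_ifs <;> positivity
      have hmapV1 : V₁.map (kap φ h) ≤ V₁ := by
        rintro _ ⟨x, hx, rfl⟩
        exact V₁.div_mem (hV1i h x hx) hx
      have hmapK' : (comm φ K').map (kap φ h) ≤ comm φ K' := by
        rintro _ ⟨x, hx, rfl⟩
        exact (comm φ K').div_mem (inv_comm φ K' h x hx) hx
      have hdisj : V₁.map (kap φ h) ⊓ (comm φ K').map (kap φ h) = ⊥ := by
        rw [eq_bot_iff, ← fix_inf_comm φ hcop K']
        exact inf_le_inf (hmapV1.trans hV1fix) hmapK'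
      have hprod := card_mul_le hdisj (R := (comm φ K).map (kap φ h))
        (Subgroup.map_mono hV1le) (Subgroup.map_mono (comm_mono φ inf_le_left))
      calc _ ≤ (1 + (Fintype.card Q : ℝ) *
          (if (QuotientAddGroup.mk' (Subgroup.toAddSubgroup K₁)) (Additive.ofMul h) = 0 then 0 else 1))
            * (Nat.card ((comm φ K').map (kap φ h)) : ℝ) :=
            mul_le_mul_of_nonneg_left (hW' h) hnn
        _ ≤ (Nat.card (V₁.map (kap φ h)) : ℝ) * (Nat.card ((comm φ K').map (kap φ h)) : ℝ) :=
            mul_le_mul_of_nonneg_right hfirst (by positivity)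
        _ ≤ _ := by exact_mod_cast hprod

/-- The weight `h ↦ |[V,h]|` is good. -/
theorem good_range [Fintype H] (hcop : (Nat.card H).Coprime (Nat.card V)) (hf : Function.Injective φ) :
    Good (Additive H) (fun h => (Nat.card (kap φ (Additive.toMul h)).range : ℝ)) := by
  obtain ⟨A, iA, iF, W, ι, hG, hker, hW⟩ := exists_good φ hcop hf (Nat.card (⊤ : Subgroup H)) ⊤ le_rfl
  have hinj : Function.Injective ι := by
    rw [injective_iff_map_eq_zero]
    intro a ha
    have := hker (Additive.toMul a) (Subgroup.mem_top _) ha
    exact this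
  refine (hG.pullback ι hinj).mono ?_
  intro h
  refine (hW (Additive.toMul h)).trans ?_
  have : Nat.card ((comm φ ⊤).map (kap φ (Additive.toMul h))) ≤ Nat.card (kap φ (Additive.toMul h)).range := by
    apply Nat.card_le_card_of_injective (Subgroup.inclusion (Subgroup.map_le_range _ _))
    exact Subgroup.inclusion_injective _
  exact_mod_cast this

end Cfsg.Agent.Lib.Helper84KnorrB
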