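import Cfsg.Agent.Lib.Helper84KnorrB
import Cfsg.Agent.S0133
import Cfsg.Agent.S0145

/-!
The abelian-stabilizer criterion for the k(GV) problem, in an abstract form.
-/

set_option autoImplicit false

namespace Cfsg.Agent.Lib.Helper84KnorrC

open Cfsg.Agent.Lib.Helper84KnorrA Cfsg.Agent.Lib.Helper84KnorrB Finset

theorem intF_char {X : Type*} [Group X] {W : Type*} [AddCommGroup W] [Module ℂ W]
    [FiniteDimensional ℂ W] (ρ : Representation ℂ X W) {A : Type*} [AddCommGroup A] [Fintype A]
    (μ : A → X) (hμ : ∀ a b, μ (a + b) = μ a * μ b) : IntF A (fun a => ρ.character (μ a)) := by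
  classical
  intro ψ
  have hA : (Fintype.card A : ℂ) ≠ 0 := by exact_mod_cast Fintype.card_ne_zero
  let e : W →ₗ[ℂ] W := (Fintype.card A : ℂ)⁻¹ • ∑ a, ψ a • ρ (μ a)
  have hmul : (∑ a, ψ a • ρ (μ a)) * (∑ a, ψ a • ρ (μ a))
      = (Fintype.card A : ℂ) • ∑ a, ψ a • ρ (μ a) := by
    rw [Finset.sum_mul]
    have h1 : ∀ a : A, (ψ a • ρ (μ a)) * (∑ b, ψ b • ρ (μ b)) = ∑ c, ψ c • ρ (μ c) := by
      intro a
      rw [Finset.mul_sum]
      refine Fintype.sum_equiv (Equiv.addLeft a) _ _ ?_
      intro b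
      simp only [Equiv.coe_addLeft]
      rw [smul_mul_smul_comm, ← map_mul ρ, ← hμ, AddChar.map_add_eq_mul]
    rw [Finset.sum_congr rfl (fun a _ => h1 a), Finset.sum_const, Finset.card_univ]
    rw [← Nat.cast_smul_eq_nsmul ℂ]
  have hid : IsIdempotentElem e := by
    show e * e = e
    simp only [e]
    rw [smul_mul_smul_comm, hmul, smul_smul]
    congr 1
    field_simp
  have htr := (LinearMap.IsIdempotentElem.isProj_range e hid).trace
  refine ⟨(Module.finrank ℂ (LinearMap.range e) : ℤ), ?_⟩
  have h2 : LinearMap.trace ℂ W e = (Fintype.card A : ℂ)⁻¹ * ∑ a, ρ.character (μ a) * ψ a := by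
    simp only [e, map_smul, map_sum, smul_eq_mul, Representation.character]
    congr 1
    refine Finset.sum_congr rfl fun a _ => by ring
  rw [h2] at htr
  have : ∑ a, ρ.character (μ a) * ψ a
      = (Fintype.card A : ℂ) * ((Fintype.card A : ℂ)⁻¹ * ∑ a, ρ.character (μ a) * ψ a) := by
    field_simp
  rw [this, htr]
  push_cast
  ring

universe u

theorem main {X : Type*} [Group X] [Finite X] (p : ℕ) [Fact p.Prime]
    {Vt Ht : Type u} [CommGroup Vt] [Finite Vt] [CommGroup Ht] [Finite Ht]
    (iV : Vt →* X) (iH : Ht →* X) (φ : Ht →* MulAut Vt)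
    (hφ : ∀ h x, iV (φ h x) = iH h * iV x * (iH h)⁻¹)
    (hiV : Function.Injective iV)
    (v : X) (hvp : v ^ p = 1) (hvH : ∀ h, iH h * v = v * iH h)
    (hCv : ∀ c : X, c * v = v * c → ∃ u k, c = iV u * iH k)
    (hcop : (Nat.card Ht).Coprime (Nat.card Vt)) (hpH : ¬ p ∣ Nat.card Ht)
    (hf : Function.Injective φ)
    (hdeg : ∀ χ : Cfsg.IrrCharacter X, ¬ ∃ n : ℤ, (χ : X → ℂ) 1 = (p : ℂ) * n) :
    Nat.card (ConjClasses X) ≤ Nat.card Vt := by
  classical
  have hp : p.Prime := Fact.out
  let _ : Fintype Ht := Fintype.ofFinite Ht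
  have hcard : Nat.card (Cfsg.IrrCharacter X) = Nat.card (ConjClasses X) := Cfsg.Agent.S0133.result
  have hfin : Finite (Cfsg.IrrCharacter X) := by
    apply Nat.finite_of_card_ne_zero
    rw [hcard]
    exact Nat.card_pos.ne'
  let _ : Fintype (Cfsg.IrrCharacter X) := Fintype.ofFinite _
  have hG := good_range φ hcop hf
  set w : Additive Ht → ℝ := fun h => (Nat.card (kap φ (Additive.toMul h)).range : ℝ) with hw
  let μ : ZMod p × Additive Ht → X := fun q => v ^ (q.1.val) * iH (Additive.toMul q.2)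
  have hvpow : ∀ (n : ℕ) (h : Ht), iH h * v ^ n = v ^ n * iH h := by
    intro n h
    exact ((Commute.pow_right (show Commute (iH h) v from hvH h)) n)
  have hμ : ∀ a b, μ (a + b) = μ a * μ b := by
    intro a b
    simp only [μ, Prod.fst_add, Prod.snd_add, toMul_add, map_mul]
    rw [ZMod.val_add, ← pow_eq_pow_mod _ hvp, pow_add]
    calc v ^ a.1.val * v ^ b.1.val * (iH (Additive.toMul a.2) * iH (Additive.toMul b.2))
        = v ^ a.1.val * (v ^ b.1.val * iH (Additive.toMul a.2)) * iH (Additive.toMul b.2) := by group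
      _ = v ^ a.1.val * (iH (Additive.toMul a.2) * v ^ b.1.val) * iH (Additive.toMul b.2) := by
          rw [hvpow]
      _ = _ := by group
  have hcH : (Fintype.card (Additive Ht) : ℝ) = (Nat.card Ht : ℝ) := by
    rw [← Nat.card_eq_fintype_card]; rfl
  have hcp : (Fintype.card (ZMod p) : ℝ) = (p : ℝ) := by rw [ZMod.card]
  -- lower bound for each character
  have hlow : ∀ χ : Cfsg.IrrCharacter X, ((p : ℝ) - 1) * (Nat.card Ht : ℝ) ^ 2
      ≤ ∑ q : ZMod p × Additive Ht, (if q.1 = 0 then 0 else w q.2 * ‖(χ : X → ℂ) (μ q)‖ ^ 2) := by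
    intro χ
    obtain ⟨n, ρ, _, hρ⟩ := χ.2
    have hI : IntF (ZMod p × Additive Ht) (fun q => (χ : X → ℂ) (μ q)) := by
      rw [← hρ]
      exact intF_char ρ μ hμ
    have h0 : ¬ ∃ n : ℤ, (fun q => (χ : X → ℂ) (μ q)) (0, 0) = (Fintype.card (ZMod p) : ℂ) * n := by
      have : μ (0, 0) = 1 := by simp [μ]
      simp only [this, ZMod.card]
      exact hdeg χ
    have := punctured hG hI h0
    rw [hcH, hcp] at this
    exact this
  -- column orthogonality
  have hcol : ∀ g : X, ∑ χ : Cfsg.IrrCharacter X, ‖(χ : X → ℂ) g‖ ^ 2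
      = (Nat.card (Subgroup.centralizer ({g} : Set X)) : ℝ) := by
    intro g
    have hc : ∑ᶠ χ : Cfsg.IrrCharacter X, (χ : X → ℂ) g * (starRingEnd ℂ) ((χ : X → ℂ) g)
        = (Nat.card (Subgroup.centralizer ({g} : Set X)) : ℂ) :=
      (Cfsg.Agent.S0145.result g g).1 (IsConj.refl g)
    rw [finsum_eq_sum_of_fintype] at hc
    have h1 : ((∑ χ : Cfsg.IrrCharacter X, ‖(χ : X → ℂ) g‖ ^ 2 : ℝ) : ℂ)
        = (Nat.card (Subgroup.centralizer ({g} : Set X)) : ℂ) := by
      rw [← hc]
      push_cast
      refine Finset.sum_congr rfl fun χ _ => ?_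
      rw [Complex.mul_conj']
    exact_mod_cast h1
  -- centralizer bound
  have hcen : ∀ q : ZMod p × Additive Ht, q.1 ≠ 0 →
      w q.2 * (Nat.card (Subgroup.centralizer ({μ q} : Set X)) : ℝ)
        ≤ (Nat.card Vt : ℝ) * (Nat.card Ht : ℝ) := by
    rintro ⟨t, h'⟩ ht
    set h : Ht := Additive.toMul h' with hh
    have ht' : t ≠ 0 := ht
    set g : X := v ^ t.val * iH h with hg
    have hgμ : μ (t, h') = g := rfl
    rw [hgμ]
    have hcomm : Commute (v ^ t.val) (iH h) := (hvpow t.val h).symm
    set m := Nat.card Ht with hm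
    have hhm : (iH h) ^ m = 1 := by rw [← map_pow, hm, pow_card_eq_one', map_one]
    -- `c` commuting with `g` commutes with `v` and with `iH h`
    have hsub : ∀ c : X, c * g = g * c → c * v = v * c ∧ c * iH h = iH h * c := by
      intro c hc
      have hcg : Commute c g := hc
      constructor
      · have h1 : g ^ m = v ^ (t.val * m) := by
          rw [hg, hcomm.mul_pow, hhm, mul_one, ← pow_mul]
        have hcop2 : (t.val * m).Coprime p := by
          apply Nat.Coprime.mul_left
          · apply Nat.Coprime.symm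
            rw [hp.coprime_iff_not_dvd]
            intro hd
            apply ht'
            have := Nat.eq_zero_of_dvd_of_lt hd (ZMod.val_lt t)
            exact (ZMod.val_eq_zero t).mp this
          · exact ((hp.coprime_iff_not_dvd).mpr hpH).symm
        obtain ⟨s, -, hs⟩ := Nat.exists_mul_mod_eq_one_of_coprime hcop2 hp.one_lt
        have h2 : v = (g ^ m) ^ s := by
          rw [h1, ← pow_mul, pow_eq_pow_mod _ hvp, hs, pow_one]
        have : Commute c v := by rw [h2]; exact (hcg.pow_right m).pow_right s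
        exact this
      · have h1 : g ^ p = (iH h) ^ p := by
          rw [hg, hcomm.mul_pow, ← pow_mul, mul_comm, pow_mul, hvp, one_pow, one_mul]
        have hcop2 : p.Coprime m := (hp.coprime_iff_not_dvd).mpr hpH
        by_cases hm1 : m = 1
        · have : iH h = 1 := by rw [← pow_one (iH h), ← hm1, hhm]
          rw [this]; simp
        have hm1' : 1 < m := by
          have : 0 < m := Nat.card_pos
          omega
        obtain ⟨s, -, hs⟩ := Nat.exists_mul_mod_eq_one_of_coprime hcop2 hm1'
        have h2 : iH h = (g ^ p) ^ s := by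
          rw [h1, ← pow_mul, pow_eq_pow_mod _ hhm, hs, pow_one]
        have : Commute c (iH h) := by rw [h2]; exact (hcg.pow_right p).pow_right s
        exact this
    let F : (kap φ h).ker × Ht → X := fun r => iV (r.1 : Vt) * iH r.2
    have hsubset : ((Subgroup.centralizer ({g} : Set X) : Subgroup X) : Set X) ⊆ F '' Set.univ := by
      intro c hc
      have hc' : c * g = g * c := by
        have := (Subgroup.mem_centralizer_singleton_iff.mp hc)
        exact this
      obtain ⟨hc1, hc2⟩ := hsub c hc'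
      obtain ⟨u, k, rfl⟩ := hCv c hc1
      have hu : u ∈ (kap φ h).ker := by
        show φ h u / u = 1
        rw [div_eq_one]
        apply hiV
        rw [hφ]
        have h3 : iV u * iH k * iH h = iH h * (iV u * iH k) := hc2
        have h4 : iH k * iH h = iH h * iH k := by rw [← map_mul, ← map_mul, mul_comm]
        have h5 : iV u * iH h * iH k = iH h * iV u * iH k := by
          rw [mul_assoc, ← h4, ← mul_assoc, h3, mul_assoc]
        have h6 : iV u * iH h = iH h * iV u := mul_right_cancel h5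
        rw [← h6]; group
      exact ⟨(⟨u, hu⟩, k), Set.mem_univ _, rfl⟩
    have hle : Nat.card (Subgroup.centralizer ({g} : Set X)) ≤ Nat.card (kap φ h).ker * Nat.card Ht := by
      calc Nat.card (Subgroup.centralizer ({g} : Set X))
          = Set.ncard ((Subgroup.centralizer ({g} : Set X) : Subgroup X) : Set X) := rfl
        _ ≤ Set.ncard (F '' Set.univ) := Set.ncard_le_ncard hsubset (Set.toFinite _)
        _ ≤ Set.ncard (Set.univ : Set ((kap φ h).ker × Ht)) := Set.ncard_image_le (Set.toFinite _)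
        _ = _ := by rw [Set.ncard_univ, Nat.card_prod]
    have hkr : Nat.card (kap φ h).range * Nat.card (kap φ h).ker = Nat.card Vt := by
      rw [← Subgroup.index_ker, mul_comm, Subgroup.card_mul_index]
    have : (Nat.card (kap φ h).range : ℝ) * (Nat.card (Subgroup.centralizer ({g} : Set X)) : ℝ)
        ≤ (Nat.card (kap φ h).range : ℝ) * ((Nat.card (kap φ h).ker : ℝ) * (Nat.card Ht : ℝ)) := by
      apply mul_le_mul_of_nonneg_left _ (by positivity)
      exact_mod_cast hle
    refine this.trans (le_of_eq ?_)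
    rw [← mul_assoc]
    congr 1
    exact_mod_cast hkr
  -- summation
  have hsum : (Nat.card (ConjClasses X) : ℝ) * (((p : ℝ) - 1) * (Nat.card Ht : ℝ) ^ 2)
      ≤ ((p : ℝ) - 1) * (Nat.card Ht : ℝ) * ((Nat.card Vt : ℝ) * (Nat.card Ht : ℝ)) := by
    calc (Nat.card (ConjClasses X) : ℝ) * (((p : ℝ) - 1) * (Nat.card Ht : ℝ) ^ 2)
        = ∑ _χ : Cfsg.IrrCharacter X, (((p : ℝ) - 1) * (Nat.card Ht : ℝ) ^ 2) := by
          rw [Finset.sum_const, Finset.card_univ, ← Nat.card_eq_fintype_card, hcard, nsmul_eq_mul]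
      _ ≤ ∑ χ : Cfsg.IrrCharacter X, ∑ q : ZMod p × Additive Ht,
            (if q.1 = 0 then 0 else w q.2 * ‖(χ : X → ℂ) (μ q)‖ ^ 2) :=
          Finset.sum_le_sum fun χ _ => hlow χ
      _ = ∑ q : ZMod p × Additive Ht, (if q.1 = 0 then 0 else
            w q.2 * (Nat.card (Subgroup.centralizer ({μ q} : Set X)) : ℝ)) := by
          rw [Finset.sum_comm]
          refine Finset.sum_congr rfl fun q _ => ?_
          split_ifs with h
          · simp
          · rw [← Finset.mul_sum, hcol]
      _ ≤ ∑ q : ZMod p × Additive Ht, (if q.1 = 0 then 0 else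
            (Nat.card Vt : ℝ) * (Nat.card Ht : ℝ)) := by
          refine Finset.sum_le_sum fun q _ => ?_
          split_ifs with h
          · exact le_rfl
          · exact hcen q h
      _ = _ := by
          rw [Fintype.sum_prod_type]
          have : ∀ t : ZMod p, ∑ _h : Additive Ht, (if (t, _h).1 = 0 then (0 : ℝ) else
              (Nat.card Vt : ℝ) * (Nat.card Ht : ℝ))
              = (if t = 0 then 0 else (Nat.card Ht : ℝ) * ((Nat.card Vt : ℝ) * (Nat.card Ht : ℝ))) := by
            intro t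
            by_cases h : t = 0
            · simp [h]
            · simp only [h, if_false, Finset.sum_const, Finset.card_univ, nsmul_eq_mul, hcH]
          simp_rw [this]
          have e2 : ∀ t : ZMod p, (if t = 0 then (0 : ℝ) else (Nat.card Ht : ℝ) * ((Nat.card Vt : ℝ) * (Nat.card Ht : ℝ)))
              = (if ¬ t = 0 then (Nat.card Ht : ℝ) * ((Nat.card Vt : ℝ) * (Nat.card Ht : ℝ)) else 0) := by
            intro t; split_ifs <;> rfl
          simp_rw [e2]
          rw [← Finset.sum_filter, Finset.sum_const, nsmul_eq_mul]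
          have hc : ((univ : Finset (ZMod p)).filter (fun t => ¬ t = 0)).card = p - 1 := by
            rw [Finset.filter_ne' univ (0 : ZMod p), Finset.card_erase_of_mem (mem_univ _),
              Finset.card_univ, ZMod.card]
          rw [hc, Nat.cast_sub hp.one_lt.le]
          push_cast
          ring
  have hp1 : (0 : ℝ) < (p : ℝ) - 1 := by
    have : (1 : ℝ) < (p : ℝ) := by exact_mod_cast hp.one_lt
    linarith
  have hH0 : (0 : ℝ) < (Nat.card Ht : ℝ) := by exact_mod_cast Nat.card_pos
  have hfinal : (Nat.card (ConjClasses X) : ℝ) ≤ (Nat.card Vt : ℝ) := by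
    have hpos : (0 : ℝ) < ((p : ℝ) - 1) * (Nat.card Ht : ℝ) ^ 2 := by positivity
    have : (Nat.card (ConjClasses X) : ℝ) * (((p : ℝ) - 1) * (Nat.card Ht : ℝ) ^ 2)
        ≤ (Nat.card Vt : ℝ) * (((p : ℝ) - 1) * (Nat.card Ht : ℝ) ^ 2) := by
      refine hsum.trans (le_of_eq ?_)
      ring
    exact le_of_mul_le_mul_right this hpos
  exact_mod_cast hfinal

end Cfsg.Agent.Lib.Helper84KnorrC
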