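import Mathlib
import Cfsg.Agent.Lib.Helper4Char2

set_option autoImplicit false

namespace Cfsg.Agent.Lib.Helper84Landau

open Cfsg.Agent.Lib.Helper4Char2

universe u

/-- Finitely many ways to write a rational as a sum of `k` unit fractions (bounded form). -/
theorem unit_fractions (k : ℕ) : ∀ q : ℚ, ∃ N : ℕ, ∀ s : Multiset ℕ, Multiset.card s = k →
    (∀ n ∈ s, 0 < n) → (s.map (fun n : ℕ => (1 : ℚ) / n)).sum = q → ∀ n ∈ s, n ≤ N := by
  induction k with
  | zero =>
    intro q
    refine ⟨0, fun s hs _ _ n hn => ?_⟩
    rw [Multiset.card_eq_zero] at hs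
    subst hs
    simp at hn
  | succ k ih =>
    intro q
    choose f hf using ih
    by_cases hq : q ≤ 0
    · refine ⟨0, fun s hs hpos hsum n hn => ?_⟩
      exfalso
      have h1 : 0 < (s.map (fun n : ℕ => (1 : ℚ) / n)).sum := by
        rw [← Multiset.cons_erase hn, Multiset.map_cons, Multiset.sum_cons]
        have h2 : 0 ≤ ((s.erase n).map (fun n : ℕ => (1 : ℚ) / n)).sum := by
          apply Multiset.sum_nonneg
          intro x hx
          obtain ⟨m, hm, rfl⟩ := Multiset.mem_map.1 hx
          positivity
        have h3 : (0 : ℚ) < n := by exact_mod_cast hpos n hn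
        have h4 : (0 : ℚ) < 1 / (n : ℚ) := by positivity
        linarith
      linarith
    · push Not at hq
      set Bd : ℕ := ⌈((k : ℚ) + 1) / q⌉₊ with hBd
      refine ⟨max Bd ((Finset.range (Bd + 1)).sup (fun m : ℕ => f (q - 1 / m))),
        fun s hs hpos hsum => ?_⟩
      have hex : ∃ m ∈ s, m ≤ Bd := by
        by_contra hcon
        push Not at hcon
        have h1 : (s.map (fun n : ℕ => (1 : ℚ) / n)).sum
            ≤ Multiset.card (s.map (fun n : ℕ => (1 : ℚ) / n)) • ((1 : ℚ) / (Bd + 1)) := by
          apply Multiset.sum_le_card_nsmul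
          intro x hx
          obtain ⟨m, hm, rfl⟩ := Multiset.mem_map.1 hx
          have h2 : ((Bd : ℚ) + 1) ≤ m := by exact_mod_cast hcon m hm
          apply one_div_le_one_div_of_le _ h2
          positivity
        rw [Multiset.card_map, hs, hsum, nsmul_eq_mul] at h1
        have h3 : ((k : ℚ) + 1) / q ≤ Bd := Nat.le_ceil _
        have h4 : ((k : ℚ) + 1) < q * (Bd + 1) := by
          rw [div_le_iff₀ hq] at h3
          nlinarith
        have h5 : (0 : ℚ) < (Bd : ℚ) + 1 := by positivity
        have h6 : q * ((Bd : ℚ) + 1) ≤ (k : ℚ) + 1 := by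
          have := mul_le_mul_of_nonneg_right h1 h5.le
          push_cast at this
          rw [mul_assoc, one_div, inv_mul_cancel₀ h5.ne', mul_one] at this
          exact this
        linarith
      obtain ⟨m, hm, hmB⟩ := hex
      have hcons := Multiset.cons_erase hm
      have hcard : Multiset.card (s.erase m) = k := by
        rw [Multiset.card_erase_of_mem hm, hs]; rfl
      have hsum' : ((s.erase m).map (fun n : ℕ => (1 : ℚ) / n)).sum = q - 1 / m := by
        rw [← hsum, ← hcons, Multiset.map_cons, Multiset.sum_cons, hcons]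
        ring
      have hrest := hf (q - 1 / m) (s.erase m) hcard
        (fun n hn => hpos n (Multiset.mem_of_mem_erase hn)) hsum'
      intro n hn
      rw [← hcons, Multiset.mem_cons] at hn
      rcases hn with rfl | hn
      · exact le_max_of_le_left hmB
      · apply le_max_of_le_right
        refine (hrest n hn).trans ?_
        exact Finset.le_sup (f := fun m : ℕ => f (q - 1 / m))
          (Finset.mem_range.2 (Nat.lt_succ_of_le hmB))

/-- the class equation as a sum of unit fractions. -/
theorem sum_inv_centralizer (G : Type u) [Group G] [Fintype G] :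
    ∑ C : ConjClasses G, (1 : ℚ) / (Nat.card (Subgroup.centralizer ({rep C} : Set G)) : ℚ) = 1 := by
  have h1 := sum_eq_sum_conjClasses (G := G) (fun _ => (1 : ℂ)) (fun _ _ => rfl)
  simp only [mul_one, Finset.sum_const, Finset.card_univ, nsmul_eq_mul] at h1
  have h2 : (Fintype.card G : ℚ) = ∑ C : ConjClasses G, (Nat.card {x // IsConj (rep C) x} : ℚ) := by
    exact_mod_cast h1
  have hG : (Fintype.card G : ℚ) ≠ 0 := by
    exact_mod_cast Fintype.card_ne_zero
  have h3 : ∀ C : ConjClasses G,
      (1 : ℚ) / (Nat.card (Subgroup.centralizer ({rep C} : Set G)) : ℚ)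
        = (Nat.card {x // IsConj (rep C) x} : ℚ) / (Fintype.card G : ℚ) := by
    intro C
    have h4 := card_isConj_mul_card_centralizer (rep C)
    rw [Nat.card_eq_fintype_card (α := G)] at h4
    have h5 : (Nat.card {x // IsConj (rep C) x} : ℚ)
        * (Nat.card (Subgroup.centralizer ({rep C} : Set G)) : ℚ) = (Fintype.card G : ℚ) := by
      exact_mod_cast h4
    have h6 : (Nat.card (Subgroup.centralizer ({rep C} : Set G)) : ℚ) ≠ 0 := by
      exact_mod_cast Nat.card_pos.ne'
    have h7 : (Nat.card {x // IsConj (rep C) x} : ℚ) ≠ 0 := by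
      intro h0
      rw [h0, zero_mul] at h5
      exact hG h5.symm
    rw [← h5]
    field_simp
  rw [Finset.sum_congr rfl fun C _ => h3 C, ← Finset.sum_div, ← h2, div_self hG]

/-- **Landau**: the order of a finite group is bounded in terms of its class number. -/
theorem landau (k : ℕ) : ∃ N : ℕ, ∀ (G : Type u) [Group G] [Finite G],
    Nat.card (ConjClasses G) ≤ k → Nat.card G ≤ N := by
  choose f hf using fun j : ℕ => unit_fractions j 1
  refine ⟨(Finset.range (k + 1)).sup f, fun G _ _ hk => ?_⟩
  have := Fintype.ofFinite G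
  set s : Multiset ℕ := (Finset.univ : Finset (ConjClasses G)).val.map
    (fun C => Nat.card (Subgroup.centralizer ({rep C} : Set G))) with hs
  have hcard : Multiset.card s = Nat.card (ConjClasses G) := by
    rw [hs, Multiset.card_map, Nat.card_eq_fintype_card]
    rfl
  have hpos : ∀ n ∈ s, 0 < n := by
    intro n hn
    obtain ⟨C, _, rfl⟩ := Multiset.mem_map.1 hn
    exact Nat.card_pos
  have hsum : (s.map (fun n : ℕ => (1 : ℚ) / n)).sum = 1 := by
    rw [hs, Multiset.map_map]
    exact sum_inv_centralizer G
  have hmem : Nat.card G ∈ s := by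
    rw [hs, Multiset.mem_map]
    refine ⟨ConjClasses.mk 1, Finset.mem_univ _, ?_⟩
    have h1 : rep (ConjClasses.mk (1 : G)) = 1 := by
      have := isConj_rep_mk (1 : G)
      exact (isConj_one_right.1 this.symm)
    rw [h1]
    have : Subgroup.centralizer ({1} : Set G) = ⊤ := by
      ext x
      simp [Subgroup.mem_centralizer_iff]
    rw [this, Subgroup.card_top]
  refine (hf _ s hcard hpos hsum _ hmem).trans ?_
  exact Finset.le_sup (f := f) (Finset.mem_range.2 (Nat.lt_succ_of_le hk))

end Cfsg.Agent.Lib.Helper84Landau
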