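import Cfsg.Prelude.Def_RootSubgroups
import Mathlib

set_option autoImplicit false

namespace Cfsg.Agent.Lib.Helper85BA

section Alg

variable {k : Type*} [CommSemiring k] {R : Type*} [Semiring R] [Algebra k R]

theorem pow_succ_anti {m : Submodule k R} (hm : m * m ≤ m) (t : ℕ) : m ^ (t + 2) ≤ m ^ (t + 1) := by
  have : m ^ (t + 2) = m ^ t * (m * m) := by
    rw [pow_succ, pow_succ, mul_assoc]
  rw [this, pow_succ]
  exact mul_le_mul' le_rfl hm

theorem pow_anti {m : Submodule k R} (hm : m * m ≤ m) (j i : ℕ) : m ^ (j + 1 + i) ≤ m ^ (j + 1) := by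
  induction i with
  | zero => exact le_rfl
  | succ i ih =>
    refine le_trans ?_ ih
    have := pow_succ_anti hm (j + i)
    have e1 : j + 1 + (i + 1) = j + i + 2 := by ring
    have e2 : j + 1 + i = j + i + 1 := by ring
    rw [e1, e2]; exact this

theorem pow_le_self {m : Submodule k R} (hm : m * m ≤ m) (i : ℕ) : m ^ (i + 1) ≤ m := by
  have := pow_anti hm 0 i
  simpa [add_comm] using this

/-- extension lemma -/
theorem ext_lemma {d b : Submodule k R} (hd : d * d ≤ d) (hb : b * b ≤ b)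
    (hbd : b * d ≤ d ⊔ d * b) {n m : ℕ} (hdn : d ^ n = ⊥) (hbm : b ^ m = ⊥) :
    (b ⊔ (d ⊔ d * b)) * (b ⊔ (d ⊔ d * b)) ≤ b ⊔ (d ⊔ d * b) ∧
      (b ⊔ (d ⊔ d * b)) ^ (m * n) = ⊥ := by
  obtain ⟨e, he⟩ : ∃ e : Submodule k R, e = 1 ⊔ b := ⟨_, rfl⟩
  obtain ⟨j, hj⟩ : ∃ j : Submodule k R, j = d * e := ⟨_, rfl⟩
  have hj' : d ⊔ d * b = j := by rw [hj, he, Submodule.mul_sup, mul_one]
  rw [hj'] at hbd ⊢
  have hee : e * e = e := by
    apply le_antisymm
    · rw [he, Submodule.mul_sup, Submodule.sup_mul, Submodule.sup_mul, mul_one, one_mul, mul_one]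
      refine sup_le (sup_le le_sup_left le_sup_right) (sup_le le_sup_right (hb.trans le_sup_right))
    · calc e = 1 * e := (one_mul e).symm
        _ ≤ e * e := mul_le_mul' (by rw [he]; exact le_sup_left) le_rfl
  have hbe : b ≤ e := by rw [he]; exact le_sup_right
  have hed : e * d ≤ d * e := by
    rw [he, Submodule.sup_mul, one_mul, ← he, ← hj]
    refine sup_le ?_ hbd
    rw [← hj']; exact le_sup_left
  have hej : e * j ≤ j := by
    calc e * j = (e * d) * e := by rw [hj, mul_assoc]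
      _ ≤ (d * e) * e := mul_le_mul' hed le_rfl
      _ = j := by rw [mul_assoc, hee, hj]
  have hje : j * e ≤ j := by rw [hj, mul_assoc, hee]
  have hjj : j * j ≤ j := by
    calc j * j = d * (e * j) := by rw [hj, mul_assoc]
      _ ≤ d * j := mul_le_mul' le_rfl hej
      _ = (d * d) * e := by rw [hj, mul_assoc]
      _ ≤ d * e := mul_le_mul' hd le_rfl
      _ = j := hj.symm
  have hbj : b * j ≤ j := (mul_le_mul' hbe le_rfl).trans hej
  have hjb : j * b ≤ j := (mul_le_mul' le_rfl hbe).trans hje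
  have hjpow : ∀ i : ℕ, j ^ i ≤ d ^ i * e := by
    intro i
    induction i with
    | zero => simp only [pow_zero, one_mul]; rw [he]; exact le_sup_left
    | succ i ih =>
      calc j ^ (i + 1) = j ^ i * j := pow_succ _ _
        _ ≤ (d ^ i * e) * j := mul_le_mul' ih le_rfl
        _ = d ^ i * (e * j) := mul_assoc _ _ _
        _ ≤ d ^ i * j := mul_le_mul' le_rfl hej
        _ = d ^ (i + 1) * e := by rw [hj, pow_succ, mul_assoc]
  have hbpe : ∀ i : ℕ, b ^ i ≤ e := by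
    intro i
    cases i with
    | zero => rw [pow_zero, he]; exact le_sup_left
    | succ i => exact (pow_le_self hb i).trans hbe
  have hcpow : ∀ i : ℕ, (b ⊔ j) ^ i ≤ b ^ i ⊔ j := by
    intro i
    induction i with
    | zero => simp only [pow_zero]; exact le_sup_left
    | succ i ih =>
      calc (b ⊔ j) ^ (i + 1) = (b ⊔ j) ^ i * (b ⊔ j) := pow_succ _ _
        _ ≤ (b ^ i ⊔ j) * (b ⊔ j) := mul_le_mul' ih le_rfl
        _ ≤ b ^ (i + 1) ⊔ j := by
          rw [Submodule.sup_mul, Submodule.mul_sup, Submodule.mul_sup, ← pow_succ]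
          refine sup_le (sup_le le_sup_left ?_) (sup_le (hjb.trans le_sup_right) (hjj.trans le_sup_right))
          exact ((mul_le_mul' (hbpe i) le_rfl).trans hej).trans le_sup_right
  constructor
  · rw [Submodule.sup_mul, Submodule.mul_sup, Submodule.mul_sup]
    exact sup_le (sup_le (hb.trans le_sup_left) (hbj.trans le_sup_right))
      (sup_le (hjb.trans le_sup_right) (hjj.trans le_sup_right))
  · rw [pow_mul, eq_bot_iff]
    have h1 : (b ⊔ j) ^ m ≤ j := by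
      have := hcpow m
      rwa [hbm, bot_sup_eq] at this
    calc ((b ⊔ j) ^ m) ^ n ≤ j ^ n := pow_le_pow_left' h1 n
      _ ≤ d ^ n * e := hjpow n
      _ = ⊥ := by rw [hdn, Submodule.bot_mul]

/-- ideal lemma for the normalizer step -/
theorem ideal_lemma {d m : Submodule k R} (hd : d * d ≤ d) (hm : m * m ≤ m) (hdm : d ≤ m) (s : ℕ) :
    (d ⊔ m ^ s) * (d ⊔ m ^ (s + 1)) ≤ d ⊔ m ^ (s + 1) ∧
      (d ⊔ m ^ (s + 1)) * (d ⊔ m ^ s) ≤ d ⊔ m ^ (s + 1) := by
  have h1 : m ^ s * m ^ (s + 1) ≤ m ^ (s + 1) := by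
    rw [← pow_add]
    have := pow_anti hm s s
    have e : s + (s + 1) = s + 1 + s := by ring
    rw [e]; exact this
  have h2 : m ^ (s + 1) * m ^ s ≤ m ^ (s + 1) := by
    rw [← pow_add]; exact pow_anti hm s s
  have h3 : d * m ^ (s + 1) ≤ m ^ (s + 1) := by
    calc d * m ^ (s + 1) ≤ m * m ^ (s + 1) := mul_le_mul' hdm le_rfl
      _ = m ^ (s + 2) := by rw [← pow_succ']
      _ ≤ m ^ (s + 1) := pow_succ_anti hm s
  have h4 : m ^ (s + 1) * d ≤ m ^ (s + 1) := by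
    calc m ^ (s + 1) * d ≤ m ^ (s + 1) * m := mul_le_mul' le_rfl hdm
      _ = m ^ (s + 2) := by rw [← pow_succ]
      _ ≤ m ^ (s + 1) := pow_succ_anti hm s
  have h5 : m ^ s * d ≤ m ^ (s + 1) := by
    rw [pow_succ]; exact mul_le_mul' le_rfl hdm
  have h6 : d * m ^ s ≤ m ^ (s + 1) := by
    rw [pow_succ']; exact mul_le_mul' hdm le_rfl
  constructor
  · rw [Submodule.sup_mul, Submodule.mul_sup, Submodule.mul_sup]
    exact sup_le (sup_le (hd.trans le_sup_left) (h3.trans le_sup_right))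
      (sup_le (h5.trans le_sup_right) (h1.trans le_sup_right))
  · rw [Submodule.sup_mul, Submodule.mul_sup, Submodule.mul_sup]
    exact sup_le (sup_le (hd.trans le_sup_left) (h6.trans le_sup_right))
      (sup_le (h4.trans le_sup_right) (h2.trans le_sup_right))

end Alg

section Grp

open Cfsg

variable {k : Type*} [Field k] {M : Type*} [AddCommGroup M] [Module k M]

local notation "GLM" => LinearMap.GeneralLinearGroup k M
local notation "EndM" => (M →ₗ[k] M)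

/-- the span of the `h - 1`, `h ∈ H`. -/
def lg (H : Subgroup GLM) : Submodule k EndM := Submodule.span k {x | ∃ h ∈ H, x = (h : EndM) - 1}

theorem mem_lg {H : Subgroup GLM} {h : GLM} (hh : h ∈ H) : (h : EndM) - 1 ∈ lg H :=
  Submodule.subset_span ⟨h, hh, rfl⟩

theorem lg_le_iff {H : Subgroup GLM} {n : Submodule k EndM} : lg H ≤ n ↔ ∀ h ∈ H, (h : EndM) - 1 ∈ n := by
  constructor
  · intro h g hg; exact h (mem_lg hg)
  · intro h
    refine Submodule.span_le.2 ?_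
    rintro _ ⟨g, hg, rfl⟩; exact h g hg

theorem lg_mono {H K : Subgroup GLM} (h : H ≤ K) : lg H ≤ lg K :=
  lg_le_iff.2 fun g hg => mem_lg (h hg)

theorem lg_mul_le (H : Subgroup GLM) : lg H * lg H ≤ lg H := by
  rw [lg, Submodule.span_mul_span, Submodule.span_le]
  rintro _ ⟨_, ⟨g, hg, rfl⟩, _, ⟨h, hh, rfl⟩, rfl⟩
  have : ((g : EndM) - 1) * ((h : EndM) - 1) = (((g * h : GLM) : EndM) - 1) - ((g : EndM) - 1) - ((h : EndM) - 1) := by
    rw [Units.val_mul]; noncomm_ring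
  change ((g : EndM) - 1) * ((h : EndM) - 1) ∈ _
  rw [this]
  exact Submodule.sub_mem _ (Submodule.sub_mem _ (mem_lg (H.mul_mem hg hh)) (mem_lg hg)) (mem_lg hh)

/-- the group of units `g` with `g - 1, g⁻¹ - 1 ∈ n`. -/
def grp (n : Submodule k EndM) (hn : n * n ≤ n) : Subgroup GLM where
  carrier := {g | (g : EndM) - 1 ∈ n ∧ ((g⁻¹ : GLM) : EndM) - 1 ∈ n}
  one_mem' := by simp
  inv_mem' := by
    rintro g ⟨h1, h2⟩
    exact ⟨h2, by rw [inv_inv]; exact h1⟩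
  mul_mem' := by
    have key : ∀ g h : GLM, (g : EndM) - 1 ∈ n → (h : EndM) - 1 ∈ n → ((g * h : GLM) : EndM) - 1 ∈ n := by
      intro g h hg hh
      have : ((g * h : GLM) : EndM) - 1 = ((g : EndM) - 1) * ((h : EndM) - 1) + ((g : EndM) - 1) + ((h : EndM) - 1) := by
        rw [Units.val_mul]; noncomm_ring
      rw [this]
      exact n.add_mem (n.add_mem (hn (Submodule.mul_mem_mul hg hh)) hg) hh
    rintro g h ⟨h1, h2⟩ ⟨h3, h4⟩
    refine ⟨key g h h1 h3, ?_⟩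
    rw [mul_inv_rev]; exact key _ _ h4 h2

theorem le_grp_iff {H : Subgroup GLM} {n : Submodule k EndM} (hn : n * n ≤ n) : H ≤ grp n hn ↔ lg H ≤ n := by
  rw [lg_le_iff]
  constructor
  · intro h g hg; exact (h hg).1
  · intro h g hg; exact ⟨h g hg, h _ (H.inv_mem hg)⟩

theorem lg_iSup_le {Y : Set (Subgroup GLM)} {n : Submodule k EndM} (hn : n * n ≤ n)
    (h : ∀ A ∈ Y, lg A ≤ n) : lg (⨆ A ∈ Y, A) ≤ n := by
  rw [← le_grp_iff hn]
  exact iSup₂_le fun A hA => (le_grp_iff hn).2 (h A hA)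

theorem lg_sup_le {A B : Subgroup GLM} {n : Submodule k EndM} (hn : n * n ≤ n)
    (hA : lg A ≤ n) (hB : lg B ≤ n) : lg (A ⊔ B) ≤ n := by
  rw [← le_grp_iff hn]
  exact sup_le ((le_grp_iff hn).2 hA) ((le_grp_iff hn).2 hB)

theorem coe_list (l : List GLM) : (List.map (fun g : EndM => g - 1) (do let a ← l; pure (a : EndM))) =
    l.map (fun g : GLM => (g : EndM) - 1) := by
  induction l with
  | nil => rfl
  | cons a l ih =>
    have : (do let a ← (a :: l); pure (a : EndM)) = (a : EndM) :: (do let a ← l; pure (a : EndM)) := rfl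
    rw [this, List.map_cons, ih, List.map_cons]

theorem unip_def {H : Subgroup GLM} : IsUnipotentOn H ↔ ∃ n : ℕ, ∀ l : List GLM, (∀ g ∈ l, g ∈ H) → l.length = n →
    (l.map (fun g : GLM => (g : EndM) - 1)).prod = 0 := by
  unfold IsUnipotentOn
  simp only [coe_list]

theorem prod_mem_pow {H : Subgroup GLM} (l : List GLM) (hl : ∀ g ∈ l, g ∈ H) :
    (l.map fun g : GLM => (g : EndM) - 1).prod ∈ lg H ^ l.length := by
  induction l with
  | nil => simp [Submodule.one_le.1 le_rfl]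
  | cons a l ih =>
    rw [List.map_cons, List.prod_cons, List.length_cons, pow_succ']
    exact Submodule.mul_mem_mul (mem_lg (hl a (by simp))) (ih fun g hg => hl g (by simp [hg]))

theorem unip_iff {H : Subgroup GLM} : IsUnipotentOn H ↔ ∃ n : ℕ, lg H ^ n = ⊥ := by
  rw [unip_def]
  constructor
  · rintro ⟨n, hn⟩
    refine ⟨n, ?_⟩
    rw [lg, Submodule.span_pow, Submodule.span_eq_bot]
    intro x hx
    rw [Set.mem_pow] at hx
    obtain ⟨f, rfl⟩ := hx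
    choose g hg hg' using fun i => (f i).2
    have := hn (List.ofFn g) (by
      intro a ha
      rw [List.mem_ofFn] at ha
      obtain ⟨i, rfl⟩ := ha
      exact hg i) (by simp)
    rw [List.map_ofFn] at this
    rw [← this]
    congr 1
    congr 1
    funext i
    exact hg' i
  · rintro ⟨n, hn⟩
    refine ⟨n, fun l hl hlen => ?_⟩
    have := prod_mem_pow l hl
    rw [hlen, hn] at this
    exact (Submodule.mem_bot k).1 this

/-- members of `W` inside `n`. -/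
def cl (W : Set (Subgroup GLM)) (n : Submodule k EndM) : Set (Subgroup GLM) := {A | A ∈ W ∧ lg A ≤ n}

/-- the algebra of the join. -/
def LL (Y : Set (Subgroup GLM)) : Submodule k EndM := lg (⨆ A ∈ Y, A)

theorem LL_mul (Y : Set (Subgroup GLM)) : LL Y * LL Y ≤ LL Y := lg_mul_le _

theorem le_LL {Y : Set (Subgroup GLM)} {A : Subgroup GLM} (hA : A ∈ Y) : lg A ≤ LL Y :=
  lg_mono (le_iSup₂_of_le A hA le_rfl)

theorem LL_le {Y : Set (Subgroup GLM)} {n : Submodule k EndM} (hn : n * n ≤ n) (h : ∀ A ∈ Y, lg A ≤ n) :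
    LL Y ≤ n := lg_iSup_le hn h

theorem LL_mono {Y Y' : Set (Subgroup GLM)} (h : Y ⊆ Y') : LL Y ≤ LL Y' := lg_mono (biSup_mono h)

/-- nilpotent. -/
def Nil (n : Submodule k EndM) : Prop := ∃ i : ℕ, n ^ i = ⊥

theorem Nil.mono {n n' : Submodule k EndM} (h : n ≤ n') (h' : Nil n') : Nil n := by
  obtain ⟨i, hi⟩ := h'
  exact ⟨i, eq_bot_iff.2 (hi ▸ pow_le_pow_left' h i)⟩

/-- nilpotent and generated by members of `W`. -/
structure Good (W : Set (Subgroup GLM)) (n : Submodule k EndM) : Prop where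
  nil : Nil n
  eq : n = LL (cl W n)

theorem Good.mul {W : Set (Subgroup GLM)} {n : Submodule k EndM} (h : Good W n) : n * n ≤ n := by
  have := LL_mul (cl W n)
  rwa [← h.eq] at this

theorem good_of {W Y : Set (Subgroup GLM)} (hY : Y ⊆ W) (h : Nil (LL Y)) : Good W (LL Y) :=
  ⟨h, le_antisymm (LL_mono fun _ hA => ⟨hY hA, le_LL hA⟩) (LL_le (LL_mul _) fun _ hA => hA.2)⟩

/-- maximal good. -/
def IsMax (W : Set (Subgroup GLM)) (m : Submodule k EndM) : Prop :=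
  Good W m ∧ ∀ n, Good W n → m ≤ n → n = m

theorem conj_mem_iSup {Y : Set (Subgroup GLM)} {a : GLM} (h : ∀ B ∈ Y, conjBy B a ∈ Y) {x : GLM}
    (hx : x ∈ ⨆ B ∈ Y, B) : a * x * a⁻¹ ∈ ⨆ B ∈ Y, B := by
  have : (⨆ B ∈ Y, B) ≤ (⨆ B ∈ Y, B).comap (MulAut.conj a).toMonoidHom := by
    refine iSup₂_le fun B hB => ?_
    rw [← Subgroup.map_le_iff_le_comap]
    exact le_iSup₂_of_le (conjBy B a) (h B hB) le_rfl
  exact this hx

theorem normalizer_lemma {G : Subgroup GLM} {W : Set (Subgroup GLM)} (hWG : ∀ A ∈ W, A ≤ G)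
    (hWconj : ∀ A ∈ W, ∀ g ∈ G, conjBy A g ∈ W) {d m : Submodule k EndM} (hd : d * d ≤ d)
    (hm : Good W m) (hdm : d ≤ m) (hne : d ≠ m) :
    ∃ A ∈ cl W m, A ∉ cl W d ∧ ∀ a ∈ A, ∀ B ∈ cl W d, conjBy B a ∈ cl W d := by
  obtain ⟨n, hn⟩ := hm.nil
  have h0 : ¬ (cl W (d ⊔ m ^ (0 + 1)) ⊆ cl W d) := by
    intro h
    apply hne
    apply le_antisymm hdm
    rw [hm.eq]
    refine LL_le hd fun A hA => (h ⟨hA.1, ?_⟩).2
    rw [zero_add, pow_one]
    exact hA.2.trans le_sup_right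
  have hN : cl W (d ⊔ m ^ (n + 1)) ⊆ cl W d := by
    rw [pow_succ, hn, Submodule.bot_mul, sup_bot_eq]
  obtain ⟨s, hs1, hs2⟩ : ∃ s : ℕ, ¬ (cl W (d ⊔ m ^ (s + 1)) ⊆ cl W d) ∧ cl W (d ⊔ m ^ (s + 1 + 1)) ⊆ cl W d := by
    by_contra hcon
    push Not at hcon
    have : ∀ s : ℕ, ¬ (cl W (d ⊔ m ^ (s + 1)) ⊆ cl W d) := by
      intro s
      induction s with
      | zero => exact h0
      | succ s ih => exact hcon s ih
    exact this n hN
  obtain ⟨A, hA1, hA2⟩ := Set.not_subset.1 hs1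
  refine ⟨A, ⟨hA1.1, hA1.2.trans (sup_le hdm (pow_le_self hm.mul s))⟩, hA2, ?_⟩
  intro a ha B hB
  apply hs2
  refine ⟨hWconj B hB.1 a (hWG A hA1.1 ha), ?_⟩
  rw [lg_le_iff]
  rintro _ ⟨b, hb, rfl⟩
  obtain ⟨i1, i2⟩ := ideal_lemma hd hm.mul hdm (s + 1)
  have hx : (a : EndM) - 1 ∈ d ⊔ m ^ (s + 1) := hA1.2 (mem_lg ha)
  have hx' : ((a⁻¹ : GLM) : EndM) - 1 ∈ d ⊔ m ^ (s + 1) := hA1.2 (mem_lg (A.inv_mem ha))
  have hz : (b : EndM) - 1 ∈ d ⊔ m ^ (s + 1 + 1) := Submodule.mem_sup_left (hB.2 (mem_lg hb))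
  have e : (((MulAut.conj a).toMonoidHom b : GLM) : EndM) - 1 =
      ((b : EndM) - 1) + ((a : EndM) - 1) * ((b : EndM) - 1) + ((b : EndM) - 1) * (((a⁻¹ : GLM) : EndM) - 1) +
        ((a : EndM) - 1) * ((b : EndM) - 1) * (((a⁻¹ : GLM) : EndM) - 1) := by
    have h1 : (((MulAut.conj a).toMonoidHom b : GLM) : EndM) = (a : EndM) * (b : EndM) * ((a⁻¹ : GLM) : EndM) := by
      simp [MulAut.conj_apply]
    have h2 : (a : EndM) * ((a⁻¹ : GLM) : EndM) = 1 := Units.mul_inv a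
    have h3 : ((b : EndM) - 1) + ((a : EndM) - 1) * ((b : EndM) - 1) + ((b : EndM) - 1) * (((a⁻¹ : GLM) : EndM) - 1) +
        ((a : EndM) - 1) * ((b : EndM) - 1) * (((a⁻¹ : GLM) : EndM) - 1) =
        (a : EndM) * (b : EndM) * ((a⁻¹ : GLM) : EndM) - (a : EndM) * ((a⁻¹ : GLM) : EndM) := by
      noncomm_ring
    rw [h3, h1, h2]
  rw [e]
  have hxz := i1 (Submodule.mul_mem_mul hx hz)
  exact Submodule.add_mem _ (Submodule.add_mem _ (Submodule.add_mem _ hz hxz) (i2 (Submodule.mul_mem_mul hz hx')))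
    (i2 (Submodule.mul_mem_mul hxz hx'))

theorem mul_le_of_normalizes {H D : Subgroup GLM} (h : ∀ g ∈ H, ∀ x ∈ D, g * x * g⁻¹ ∈ D) :
    lg H * lg D ≤ lg D ⊔ lg D * lg H := by
  rw [lg, lg, Submodule.span_mul_span, Submodule.span_le]
  rintro _ ⟨_, ⟨g, hg, rfl⟩, _, ⟨x, hx, rfl⟩, rfl⟩
  change ((g : EndM) - 1) * ((x : EndM) - 1) ∈ lg D ⊔ lg D * lg H
  have e : ((g : EndM) - 1) * ((x : EndM) - 1) =
      ((((g * x * g⁻¹ : GLM) : EndM) - 1) - ((x : EndM) - 1)) + (((g * x * g⁻¹ : GLM) : EndM) - 1) * ((g : EndM) - 1) := by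
    have h1 : ((g * x * g⁻¹ : GLM) : EndM) * (g : EndM) = (g : EndM) * (x : EndM) := by
      rw [← Units.val_mul, ← Units.val_mul]; simp
    have h2 : ((((g * x * g⁻¹ : GLM) : EndM) - 1) - ((x : EndM) - 1)) +
        (((g * x * g⁻¹ : GLM) : EndM) - 1) * ((g : EndM) - 1) =
        ((g * x * g⁻¹ : GLM) : EndM) * (g : EndM) - (x : EndM) - (g : EndM) + 1 := by noncomm_ring
    rw [h2, h1]; noncomm_ring
  rw [e]
  have hz := mem_lg (h g hg x hx)
  exact Submodule.add_mem _ (Submodule.mem_sup_left (Submodule.sub_mem _ hz (mem_lg hx)))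
    (Submodule.mem_sup_right (Submodule.mul_mem_mul hz (mem_lg hg)))

section fd

variable [FiniteDimensional k M]

theorem exists_max {W : Set (Subgroup GLM)} {n : Submodule k EndM} (h : Good W n) : ∃ m, IsMax W m ∧ n ≤ m := by
  obtain ⟨m, ⟨hm1, hm2⟩, hm3⟩ := (wellFounded_gt (α := Submodule k EndM)).has_min {x | Good W x ∧ n ≤ x} ⟨n, h, le_rfl⟩
  refine ⟨m, ⟨hm1, fun x hx hmx => ?_⟩, hm2⟩
  by_contra hne
  exact hm3 x ⟨hx, hm2.trans hmx⟩ (lt_of_le_of_ne hmx (Ne.symm hne))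

theorem baer {G : Subgroup GLM} {W : Set (Subgroup GLM)} (hWG : ∀ A ∈ W, A ≤ G)
    (hWW : ∀ A ∈ W, ∀ B ∈ W, IsUnipotentOn (A ⊔ B)) (hWconj : ∀ A ∈ W, ∀ g ∈ G, conjBy A g ∈ W) :
    IsUnipotentOn (⨆ A ∈ W, A) := by
  by_contra hcon
  have hsing : ∀ A ∈ W, Good W (LL {A}) := by
    intro A hA
    apply good_of (by simpa using hA)
    have := unip_iff.1 (hWW A hA A hA)
    rw [sup_idem] at this
    rw [LL, iSup_singleton]
    exact this
  have hempty : Good W (LL ∅) := by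
    apply good_of (Set.empty_subset _)
    refine ⟨1, ?_⟩
    rw [pow_one, LL, eq_bot_iff, lg_le_iff]
    intro h hh
    simp only [Set.mem_empty_iff_false, iSup_false, iSup_bot, Subgroup.mem_bot] at hh
    rw [hh]; simp
  -- two distinct maximal elements
  have htwo : ∃ m₁ m₂, IsMax W m₁ ∧ IsMax W m₂ ∧ m₁ ≠ m₂ := by
    by_contra hc
    push Not at hc
    obtain ⟨m₀, hm₀, _⟩ := exists_max hempty
    apply hcon
    rw [unip_iff]
    refine Nil.mono (LL_le hm₀.1.mul fun A hA => ?_) hm₀.1.nil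
    obtain ⟨m, hm, hle⟩ := exists_max (hsing A hA)
    rw [hc m₀ m hm₀ hm]
    exact (le_LL (Set.mem_singleton A)).trans hle
  obtain ⟨m₁', m₂', h₁', h₂', hne'⟩ := htwo
  obtain ⟨d, ⟨m₁, m₂, h₁, h₂, hne, hd⟩, hmax⟩ := (wellFounded_gt (α := Submodule k EndM)).has_min
    {d | ∃ m₁ m₂, IsMax W m₁ ∧ IsMax W m₂ ∧ m₁ ≠ m₂ ∧ d = LL (cl W m₁ ∩ cl W m₂)}
    ⟨_, m₁', m₂', h₁', h₂', hne', rfl⟩
  have hdd : d * d ≤ d := by rw [hd]; exact LL_mul _
  have hd1 : d ≤ m₁ := by rw [hd]; exact LL_le h₁.1.mul fun A hA => hA.1.2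
  have hd2 : d ≤ m₂ := by rw [hd]; exact LL_le h₂.1.mul fun A hA => hA.2.2
  have hcl : cl W d = cl W m₁ ∩ cl W m₂ := by
    ext A
    constructor
    · intro hA; exact ⟨⟨hA.1, hA.2.trans hd1⟩, ⟨hA.1, hA.2.trans hd2⟩⟩
    · intro hA; exact ⟨hA.1.1, by rw [hd]; exact le_LL hA⟩
  have hdg : Good W d := ⟨Nil.mono hd1 h₁.1.nil, by rw [hcl]; exact hd⟩
  have hne1 : d ≠ m₁ := by
    intro h
    apply hne
    rw [← h]
    exact (h₁.2 m₂ h₂.1 (h ▸ hd2)).symm ▸ h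
  have hne2 : d ≠ m₂ := by
    intro h
    apply hne
    rw [← h]
    exact ((h₂.2 m₁ h₁.1 (h ▸ hd1)).symm ▸ h).symm
  obtain ⟨A₁, hA₁, hA₁', hn₁⟩ := normalizer_lemma hWG hWconj hdd h₁.1 hd1 hne1
  obtain ⟨A₂, hA₂, hA₂', hn₂⟩ := normalizer_lemma hWG hWconj hdd h₂.1 hd2 hne2
  have hnorm : ∀ g ∈ A₁ ⊔ A₂, ∀ x ∈ ⨆ B ∈ cl W d, B, g * x * g⁻¹ ∈ ⨆ B ∈ cl W d, B := by
    have hle : A₁ ⊔ A₂ ≤ Subgroup.normalizer ((⨆ B ∈ cl W d, B : Subgroup GLM) : Set GLM) := by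
      have gen : ∀ A : Subgroup GLM, (∀ a ∈ A, ∀ B ∈ cl W d, conjBy B a ∈ cl W d) →
          A ≤ Subgroup.normalizer ((⨆ B ∈ cl W d, B : Subgroup GLM) : Set GLM) := by
        intro A hA a ha
        rw [Subgroup.mem_normalizer_iff]
        intro x
        constructor
        · intro hx; exact conj_mem_iSup (hA a ha) hx
        · intro hx
          have := conj_mem_iSup (hA a⁻¹ (A.inv_mem ha)) hx
          simpa [mul_assoc] using this
      exact sup_le (gen A₁ hn₁) (gen A₂ hn₂)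
    intro g hg x hx
    exact (Subgroup.mem_normalizer_iff.1 (hle hg) x).1 hx
  have hbd := mul_le_of_normalizes hnorm
  have hdeq : lg (⨆ B ∈ cl W d, B) = d := hdg.eq.symm
  rw [hdeq] at hbd
  obtain ⟨n, hn⟩ := hdg.nil
  obtain ⟨m, hm⟩ := unip_iff.1 (hWW A₁ hA₁.1 A₂ hA₂.1)
  obtain ⟨hcc, hcn⟩ := ext_lemma hdd (lg_mul_le (A₁ ⊔ A₂)) hbd hn hm
  have hY3 : cl W d ∪ {A₁, A₂} ⊆ W := by
    rintro A (hA | rfl | rfl)
    · exact hA.1
    · exact hA₁.1
    · exact hA₂.1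
  have hg3 : Good W (LL (cl W d ∪ {A₁, A₂})) := by
    apply good_of hY3
    refine Nil.mono (LL_le hcc ?_) ⟨_, hcn⟩
    rintro A (hA | rfl | rfl)
    · exact hA.2.trans (le_sup_left.trans le_sup_right)
    · exact (lg_mono le_sup_left).trans le_sup_left
    · exact (lg_mono le_sup_right).trans le_sup_left
  obtain ⟨m₃, h₃, hle3⟩ := exists_max hg3
  have key : ∀ m' A', IsMax W m' → d ≤ m' → A' ∈ cl W m' → A' ∉ cl W d → A' ∈ cl W m₃ → m' = m₃ := by
    intro m' A' hm' hdm' hA' hA'd hA'3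
    by_contra hne3
    have hle : d ≤ LL (cl W m' ∩ cl W m₃) := by
      conv_lhs => rw [hdg.eq]
      apply LL_mono
      intro B hB
      exact ⟨⟨hB.1, hB.2.trans hdm'⟩, ⟨hB.1, (le_LL (Or.inl hB)).trans hle3⟩⟩
    have hnot := hmax _ ⟨m', m₃, hm', h₃, hne3, rfl⟩
    have heq : LL (cl W m' ∩ cl W m₃) = d := by
      by_contra hh
      exact hnot (lt_of_le_of_ne hle (Ne.symm hh))
    apply hA'd
    exact ⟨hA'.1, heq ▸ le_LL ⟨hA', hA'3⟩⟩
  have e1 := key m₁ A₁ h₁ hd1 hA₁ hA₁' ⟨hA₁.1, (le_LL (Or.inr (Or.inl rfl))).trans hle3⟩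
  have e2 := key m₂ A₂ h₂ hd2 hA₂ hA₂' ⟨hA₂.1, (le_LL (Or.inr (Or.inr rfl))).trans hle3⟩
  exact hne (e1.trans e2.symm)

theorem conj_iSup {G : Subgroup GLM} {W : Set (Subgroup GLM)}
    (hWconj : ∀ A ∈ W, ∀ g ∈ G, conjBy A g ∈ W) {g : GLM} (hg : g ∈ G) :
    conjBy (⨆ A ∈ W, A) g = ⨆ A ∈ W, A := by
  apply le_antisymm
  · rintro _ ⟨x, hx, rfl⟩
    exact conj_mem_iSup (fun B hB => hWconj B hB g hg) hx
  · intro x hx
    refine ⟨g⁻¹ * x * g, ?_, ?_⟩
    · have := conj_mem_iSup (fun B hB => hWconj B hB g⁻¹ (G.inv_mem hg)) hx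
      simpa using this
    · simp [MulAut.conj_apply, mul_assoc]

end fd

end Grp

end Cfsg.Agent.Lib.Helper85BA
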