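import Mathlib
import Cfsg.Prelude.Def_RootSubgroups
import Cfsg.Agent.Lib.Helper85RankOne

set_option autoImplicit false

namespace Cfsg.Agent.Lib.Helper85Root

open Cfsg Cfsg.Agent.Lib.Helper85RankOne

variable {G : Type*} [Group G] {S : Set (Subgroup G)}

theorem commutator_eq_bot_iff' {A B : Subgroup G} :
    ⁅A, B⁆ = ⊥ ↔ ∀ a ∈ A, ∀ b ∈ B, a * b = b * a := by
  rw [Subgroup.commutator_eq_bot_iff_le_centralizer]
  constructor
  · intro h a ha b hb
    exact ((Subgroup.mem_centralizer_iff.mp (h ha)) b hb).symm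
  · intro h a ha
    rw [Subgroup.mem_centralizer_iff]
    intro b hb
    exact (h a ha b hb).symm

theorem exists_partner {A : Subgroup G} (hA : ¬ IsIsolatedIn (FAdj S) S A) (hAS : A ∈ S) :
    ∃ A' ∈ S, IsRankOnePair A A' := by
  unfold IsIsolatedIn at hA
  push Not at hA
  obtain ⟨B, hB⟩ := hA hAS
  by_cases h1 : FAdj S A B
  · exact ⟨B, h1.2.1, h1.2.2⟩
  · have h2 := hB h1
    exact ⟨B, h2.1, RankOnePair_symm h2.2.2⟩

theorem not_isolated {A A' : Subgroup G} (hAS : A ∈ S) (hA' : A' ∈ S) (h : IsRankOnePair A A') :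
    ¬ IsIsolatedIn (FAdj S) S A := by
  intro hi
  exact (hi.2 A').1 ⟨hAS, hA', h⟩

theorem commutator_mem {A B : Subgroup G} {a b : G} (ha : a ∈ A) (hb : b ∈ B) :
    a * b * a⁻¹ * b⁻¹ ∈ ⁅A, B⁆ := by
  rw [← commutatorElement_def]
  exact Subgroup.commutator_mem_commutator ha hb

/-- In the commutator case `E` commutes with its conjugates under `A`. -/
theorem commutatorCase_conj_commute {A E : Subgroup G} (hE : IsMulCommutative E)
    (h : RootCommutatorCase S A E) {a : G} (ha : a ∈ A) :
    ∀ e ∈ E, ∀ f ∈ conjBy E a, e * f = f * e := by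
  intro e he f hf
  rw [mem_conjBy] at hf
  set e' := a⁻¹ * f * a with he'
  have hf' : f = (a * e' * a⁻¹ * e'⁻¹) * e' := by rw [he']; group
  have hc := h.2.1 _ (commutator_mem ha hf)
  have h1 := hc e (Subgroup.mem_sup_right he)
  have h2 := (Helper85RankOne.isMulCommutative_iff.mp hE) e he e' hf
  rw [hf', ← mul_assoc, ← h1, mul_assoc, h2]
  group

/-- If `E` does not commute with its conjugate by `a ∈ A`, then `(A, E)` is a rank one pair. -/
theorem rankOne_of_conj_not_commute (hS : IsRootSubgroupSet S) {A E : Subgroup G} (hA : A ∈ S)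
    (hE : E ∈ S) {a : G} (ha : a ∈ A) (hnc : ¬ ∀ e ∈ E, ∀ f ∈ conjBy E a, e * f = f * e) :
    IsRankOnePair A E := by
  rcases hS.pair A hA E hE with h | h | h
  · exfalso
    apply hnc
    rw [commutator_eq_bot_iff'] at h
    rw [conjBy_eq_of_commute (h a ha)]
    exact Helper85RankOne.isMulCommutative_iff.mp (hS.commutative E hE)
  · exact h
  · exact absurd (commutatorCase_conj_commute (hS.commutative E hE) h ha) hnc

/-- If `a ∈ A` moves `E` to another unipotent subgroup of a rank one group containing `E`,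
then `(A, E)` is a rank one pair. -/
theorem rankOne_of_moves (hS : IsRootSubgroupSet S) {A E C D : Subgroup G} (hA : A ∈ S)
    (hE : E ∈ S) (hp : IsRankOnePair C D) (hEm : E ∈ unipotentSubgroups C D) {a : G} (ha : a ∈ A)
    (hmem : conjBy E a ∈ unipotentSubgroups C D) (hne : conjBy E a ≠ E) : IsRankOnePair A E :=
  rankOne_of_conj_not_commute hS hA hE ha (not_commute (pair_of_mem hp hEm hmem hne.symm).1)

theorem unipotent_subset (hS : IsRootSubgroupSet S) {C D E : Subgroup G} (hC : C ∈ S)
    (hE : E ∈ unipotentSubgroups C D) : E ∈ S := by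
  obtain ⟨x, -, rfl⟩ := hE
  exact hS.conj_mem C hC x

/-- A member of `S` with a rank one partner, both inside the rank one group `C ⊔ D`, is a
unipotent subgroup of `C ⊔ D`. -/
theorem mem_unipotent_of_le (hS : IsRootSubgroupSet S) {A B C D : Subgroup G} (hA : A ∈ S)
    (hC : C ∈ S) (hAB : IsRankOnePair A B) (hCD : IsRankOnePair C D) (hle : A ⊔ B ≤ C ⊔ D) :
    A ∈ unipotentSubgroups C D := by
  by_contra hn
  have hfix : ∀ a ∈ A, ∀ E ∈ unipotentSubgroups C D, conjBy E a = E := by
    intro a ha E hE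
    by_contra hne
    have haX : a ∈ C ⊔ D := hle (Subgroup.mem_sup_left ha)
    have hEa := conj_mem_unipotent hE haX
    have hp := rankOne_of_moves hS hA (unipotent_subset hS hC hE) hCD hE ha hEa hne
    have ha1 : a ≠ 1 := by
      rintro rfl
      exact hne (conjBy_one E)
    obtain ⟨e, he, -, hae⟩ := partner_left hp ha ha1
    apply hn
    rw [conjBy_eq_iff] at hae
    rw [hae]
    exact conj_mem_unipotent hEa ((C ⊔ D).inv_mem (le_sup_of_mem_unipotent hE he))
  apply not_commute hAB
  intro a ha b hb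
  exact central_of_normalizes hCD (hfix a ha) b (hle (Subgroup.mem_sup_right hb))

/-- Timmesfeld II (2.2): central translates avoid root elements. -/
theorem central_translate (hS : IsRootSubgroupSet S) {A B : Subgroup G} (hB : B ∈ S)
    (hAB : IsRankOnePair A B) {z : G} (hz : ∀ x ∈ A ⊔ B, z * x = x * z) (hz1 : z ≠ 1) :
    ∀ a ∈ A, a ≠ 1 → z * a ∉ rootElements S := by
  rintro a ha ha1 ⟨-, C, hC, hzaC⟩
  have hzB : conjBy B z = B := conjBy_eq_of_commute (fun b hb => hz b (Subgroup.mem_sup_right hb))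
  have hBza : conjBy B (z * a) = conjBy B a := by
    have : z * a = a * z := hz a (Subgroup.mem_sup_left ha)
    rw [this, ← conjBy_conjBy, hzB]
  have hBa : conjBy B a ∈ unipotentSubgroups A B :=
    conj_mem_unipotent (right_mem_unipotent hAB) (Subgroup.mem_sup_left ha)
  have hne : conjBy B a ≠ B := fun e => ha1 (norm_left hAB ha e)
  have hCB : IsRankOnePair C B :=
    rankOne_of_moves hS hC hB hAB (right_mem_unipotent hAB) hzaC (by rw [hBza]; exact hBa)
      (by rw [hBza]; exact hne)
  have hza1 : z * a ≠ 1 := by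
    intro e
    rw [e, conjBy_one] at hBza
    exact hne hBza.symm
  obtain ⟨b, hb, -, h1⟩ := partner_left hCB hzaC hza1
  obtain ⟨b', hb', -, h2⟩ := partner_left hAB ha ha1
  rw [hBza, ← h2, conjBy_eq_iff, conjBy_conjBy] at h1
  -- `C = conjBy A t`
  set t := b⁻¹ * b' with ht
  have htB : t ∈ B := B.mul_mem (B.inv_mem hb) hb'
  have hCm : C ∈ unipotentSubgroups A B := by
    rw [h1]; exact conj_mem_unipotent left_mem_unipotent (Subgroup.mem_sup_right htB)
  have hzaA : conjBy A (z * a) = A := by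
    rw [← conjBy_conjBy, conjBy_of_mem ha]
    exact conjBy_eq_of_commute (fun x hx => hz x (Subgroup.mem_sup_left hx))
  by_cases hCA : C = A
  · rw [hCA] at hzaC
    have hzA : z ∈ A := by
      have : z = (z * a) * a⁻¹ := by group
      rw [this]; exact A.mul_mem hzaC (A.inv_mem ha)
    exact hz1 (norm_left hAB hzA hzB)
  · have hp := (pair_of_mem hAB hCm left_mem_unipotent hCA).1
    exact hza1 (norm_left hp hzaC hzaA)

/-- Timmesfeld II (2.?): a non-isolated member of `S` meets the other members trivially. -/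
theorem inf_eq_bot_or_eq (hS : IsRootSubgroupSet S) {A A' : Subgroup G}
    (hA' : A' ∈ S) (hp : IsRankOnePair A A') : ∀ B ∈ S, A ⊓ B = ⊥ ∨ A = B := by
  intro B hB
  by_cases hbot : A ⊓ B = ⊥
  · exact Or.inl hbot
  right
  obtain ⟨x, ⟨hxA, hxB⟩, hx1⟩ := exists_ne_one_of_ne_bot hbot
  have hne : conjBy A' x ≠ A' := fun e => hx1 (norm_left hp hxA e)
  have hm : conjBy A' x ∈ unipotentSubgroups A A' :=
    conj_mem_unipotent (right_mem_unipotent hp) (Subgroup.mem_sup_left hxA)
  have hBA' : IsRankOnePair B A' :=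
    rankOne_of_moves hS hB hA' hp (right_mem_unipotent hp) hxB hm hne
  obtain ⟨a', ha', -, h1⟩ := partner_left hp hxA hx1
  obtain ⟨a'', ha'', -, h2⟩ := partner_left hBA' hxB hx1
  rw [← h2, conjBy_eq_iff, conjBy_conjBy] at h1
  set t := a'⁻¹ * a'' with ht
  have htA' : t ∈ A' := A'.mul_mem (A'.inv_mem ha') ha''
  by_contra hAB
  have hm2 : A ∈ unipotentSubgroups B A' := by
    rw [h1]; exact conj_mem_unipotent left_mem_unipotent (Subgroup.mem_sup_right htA')
  have hp2 := (pair_of_mem hBA' hm2 left_mem_unipotent hAB).1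
  exact hbot (inf_eq_bot hp2)

end Cfsg.Agent.Lib.Helper85Root
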