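import Mathlib
import Cfsg.Prelude.Def_RootSubgroups
import Cfsg.Agent.Lib.Helper85Root

set_option autoImplicit false

namespace Cfsg.Agent.Lib.Helper85Comm

open Cfsg Cfsg.Agent.Lib.Helper85RankOne Cfsg.Agent.Lib.Helper85Root

variable {G : Type*} [Group G] {S : Set (Subgroup G)}

/-- Elements of a join of two commuting subgroups are products. -/
theorem mem_sup_of_commute {A C : Subgroup G} (h : ∀ a ∈ A, ∀ c ∈ C, a * c = c * a) :
    ∀ x ∈ A ⊔ C, ∃ a ∈ A, ∃ c ∈ C, x = a * c := by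
  apply sup_induction
  · intro a ha; exact ⟨a, ha, 1, C.one_mem, by simp⟩
  · intro c hc; exact ⟨1, A.one_mem, c, hc, by simp⟩
  · rintro _ _ ⟨a, ha, c, hc, rfl⟩ ⟨a', ha', c', hc', rfl⟩
    refine ⟨a * a', A.mul_mem ha ha', c * c', C.mul_mem hc hc', ?_⟩
    rw [mul_assoc, ← mul_assoc c, ← h a' ha' c hc]
    simp only [mul_assoc]

theorem conjBy_normalizes_commutator {A B : Subgroup G} {x : G} (hx : x ∈ A ⊔ B) :
    conjBy ⁅A, B⁆ x = ⁅A, B⁆ := by
  rw [conjBy_eq_self_iff]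
  exact (sup_le (Subgroup.normalizer_commutator_ge_left A B) (Subgroup.normalizer_commutator_ge_right A B)) hx

/-- If `⁅A, B⁆ ∈ S` then `(A, B)` is in the commutator case. -/
theorem commutatorCase_of_mem (hS : IsRootSubgroupSet S) {A B : Subgroup G} (hA : A ∈ S)
    (hB : B ∈ S) (hC : ⁅A, B⁆ ∈ S) : RootCommutatorCase S A B := by
  rcases hS.pair A hA B hB with h | h | h
  · exact absurd h (hS.ne_bot _ hC)
  · exfalso
    have step1 : ∀ n ∈ ⁅A, B⁆, ∀ C ∈ unipotentSubgroups A B, conjBy C n = C := by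
      intro n hn C hCm
      by_contra hne
      have hnX : n ∈ A ⊔ B := Subgroup.commutator_le_sup A B hn
      have hp := rankOne_of_moves hS hC (unipotent_subset hS hA hCm) h hCm hn
        (conj_mem_unipotent hCm hnX) hne
      obtain ⟨c, hc, hc1⟩ := exists_right hp
      exact hc1 (norm_right hp hc (conjBy_normalizes_commutator (le_sup_of_mem_unipotent hCm hc)))
    obtain ⟨a, ha, ha1⟩ := exists_left h
    have hne : conjBy B a ≠ B := fun e => ha1 (norm_left h ha e)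
    have hp := (pair_of_mem h (right_mem_unipotent h)
      (conj_mem_unipotent (right_mem_unipotent h) (Subgroup.mem_sup_left ha)) hne.symm).1
    apply not_commute hp
    intro b hb f hf
    rw [mem_conjBy] at hf
    set b' := a⁻¹ * f * a with hb'
    have hf' : f = (a * b' * a⁻¹ * b'⁻¹) * b' := by rw [hb']; group
    have hc := central_of_normalizes h (step1 _ (commutator_mem ha hf)) b (Subgroup.mem_sup_right hb)
    have h2 := (Helper85RankOne.isMulCommutative_iff.mp (hS.commutative B hB)) b hb b' hf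
    rw [hf', ← mul_assoc, ← hc, mul_assoc, h2]
    group
  · exact h

theorem commutatorCase_symm {A B : Subgroup G} (h : RootCommutatorCase S A B) :
    RootCommutatorCase S B A := by
  obtain ⟨h1, h2, h3, h4⟩ := h
  have hinv : ∀ (f g : G → G) (T : Set G), (∀ x, g x = (f x)⁻¹) →
      Subgroup.closure (g '' T) = Subgroup.closure (f '' T) := by
    intro f g T hfg
    rw [← Subgroup.closure_inv (f '' T)]
    congr 1
    ext y
    simp only [Set.mem_image, Set.mem_inv]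
    constructor
    · rintro ⟨x, hx, rfl⟩; exact ⟨x, hx, by rw [hfg, inv_inv]⟩
    · rintro ⟨x, hx, hxy⟩; exact ⟨x, hx, by rw [hfg, hxy, inv_inv]⟩
  refine ⟨by rw [Subgroup.commutator_comm]; exact h1, ?_, ?_, ?_⟩
  · intro c hc x hx
    rw [Subgroup.commutator_comm] at hc
    rw [sup_comm] at hx
    exact h2 c hc x hx
  · intro b hb hb1
    rw [Subgroup.commutator_comm, ← h4 b hb hb1]
    apply hinv
    intro x; group
  · intro a ha ha1
    rw [Subgroup.commutator_comm, ← h3 a ha ha1]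
    apply hinv
    intro x; group

section commcase

variable {A B : Subgroup G}

theorem comm_mul_right (h : RootCommutatorCase S A B) {a b b' : G} (ha : a ∈ A) (hb : b ∈ B)
    (hb' : b' ∈ B) :
    a * (b * b') * a⁻¹ * (b * b')⁻¹ = (a * b * a⁻¹ * b⁻¹) * (a * b' * a⁻¹ * b'⁻¹) := by
  have hc := h.2.1 _ (commutator_mem ha hb') b (Subgroup.mem_sup_right hb)
  have e : a * (b * b') * a⁻¹ * (b * b')⁻¹ =
      (a * b * a⁻¹ * b⁻¹) * (b * (a * b' * a⁻¹ * b'⁻¹)) * b⁻¹ := by group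
  rw [e, ← hc]; group

theorem comm_mul_left (h : RootCommutatorCase S A B) {a a' b : G} (ha : a ∈ A) (ha' : a' ∈ A)
    (hb : b ∈ B) :
    (a * a') * b * (a * a')⁻¹ * b⁻¹ = (a * b * a⁻¹ * b⁻¹) * (a' * b * a'⁻¹ * b⁻¹) := by
  have hc := h.2.1 _ (commutator_mem ha' hb) a (Subgroup.mem_sup_left ha)
  have e : (a * a') * b * (a * a')⁻¹ * b⁻¹ =
      (a * (a' * b * a'⁻¹ * b⁻¹)) * a⁻¹ * (a * b * a⁻¹ * b⁻¹) := by group
  have hc2 := h.2.1 _ (commutator_mem ha' hb) (a * b * a⁻¹ * b⁻¹)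
    (Subgroup.commutator_le_sup A B (commutator_mem ha hb))
  rw [e, ← hc, mul_assoc (a' * b * a'⁻¹ * b⁻¹) a, mul_inv_cancel, mul_one, hc2]

theorem comm_one_right (a : G) : a * 1 * a⁻¹ * (1 : G)⁻¹ = 1 := by group

theorem comm_one_left (b : G) : 1 * b * (1 : G)⁻¹ * b⁻¹ = 1 := by group

theorem comm_inv_right (h : RootCommutatorCase S A B) {a b : G} (ha : a ∈ A) (hb : b ∈ B) :
    a * b⁻¹ * a⁻¹ * b⁻¹⁻¹ = (a * b * a⁻¹ * b⁻¹)⁻¹ := by
  have := comm_mul_right h ha hb (B.inv_mem hb)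
  rw [mul_inv_cancel, comm_one_right] at this
  exact eq_inv_of_mul_eq_one_right this.symm

theorem comm_inv_left (h : RootCommutatorCase S A B) {a b : G} (ha : a ∈ A) (hb : b ∈ B) :
    a⁻¹ * b * a⁻¹⁻¹ * b⁻¹ = (a * b * a⁻¹ * b⁻¹)⁻¹ := by
  have := comm_mul_left h ha (A.inv_mem ha) hb
  rw [mul_inv_cancel, comm_one_left] at this
  exact eq_inv_of_mul_eq_one_right this.symm

/-- The homomorphism `b ↦ ⁅a, b⁆`. -/
def commHomRight (h : RootCommutatorCase S A B) {a : G} (ha : a ∈ A) : B →* G where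
  toFun b := a * b * a⁻¹ * (b : G)⁻¹
  map_one' := by simp
  map_mul' b b' := comm_mul_right h ha b.2 b'.2

theorem exists_comm_right (h : RootCommutatorCase S A B) {a : G} (ha : a ∈ A) (ha1 : a ≠ 1) :
    ∀ x ∈ ⁅A, B⁆, ∃ b ∈ B, a * b * a⁻¹ * b⁻¹ = x := by
  intro x hx
  rw [← h.2.2.1 a ha ha1] at hx
  have hle : Subgroup.closure ((fun b : G => a * b * a⁻¹ * b⁻¹) '' (B : Set G)) ≤
      (commHomRight h ha).range := by
    rw [Subgroup.closure_le]
    rintro _ ⟨b, hb, rfl⟩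
    exact ⟨⟨b, hb⟩, rfl⟩
  obtain ⟨b, hb⟩ := hle hx
  exact ⟨b.1, b.2, hb⟩

theorem exists_comm_left (h : RootCommutatorCase S A B) {b : G} (hb : b ∈ B) (hb1 : b ≠ 1) :
    ∀ x ∈ ⁅A, B⁆, ∃ a ∈ A, a * b * a⁻¹ * b⁻¹ = x := by
  intro x hx
  have hx' : x⁻¹ ∈ ⁅B, A⁆ := by
    rw [Subgroup.commutator_comm]; exact Subgroup.inv_mem _ hx
  obtain ⟨a, ha, hab⟩ := exists_comm_right (commutatorCase_symm h) hb hb1 x⁻¹ hx'
  refine ⟨a, ha, ?_⟩
  have : a * b * a⁻¹ * b⁻¹ = (b * a * b⁻¹ * a⁻¹)⁻¹ := by group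
  rw [this, hab, inv_inv]

theorem commutator_commute_left (h : RootCommutatorCase S A B) :
    ∀ a ∈ A, ∀ c ∈ ⁅A, B⁆, a * c = c * a :=
  fun a ha c hc => (h.2.1 c hc a (Subgroup.mem_sup_left ha)).symm

theorem commutator_commute_right (h : RootCommutatorCase S A B) :
    ∀ b ∈ B, ∀ c ∈ ⁅A, B⁆, b * c = c * b :=
  fun b hb c hc => (h.2.1 c hc b (Subgroup.mem_sup_right hb)).symm

theorem conjBy_le_sup_commutator {b : G} (hb : b ∈ B) : conjBy A b ≤ A ⊔ ⁅A, B⁆ := by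
  intro x hx
  rw [mem_conjBy] at hx
  set a := b⁻¹ * x * b with ha
  have hx' : x = (a * b * a⁻¹ * b⁻¹)⁻¹ * a := by rw [ha]; group
  rw [hx']
  exact Subgroup.mul_mem _ (Subgroup.inv_mem _ (Subgroup.mem_sup_right (commutator_mem hx hb)))
    (Subgroup.mem_sup_left hx)

theorem ne_commutator (hS : IsRootSubgroupSet S) (h : RootCommutatorCase S A B) : A ≠ ⁅A, B⁆ := by
  intro e
  apply hS.ne_bot _ h.1
  rw [commutator_eq_bot_iff']
  intro a ha b hb
  rw [e] at ha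
  exact h.2.1 a ha b (Subgroup.mem_sup_right hb)

end commcase

section nonisolated

variable {A A' B : Subgroup G}

theorem inf_commutator_eq_bot (hS : IsRootSubgroupSet S) (hA' : A' ∈ S) (hp : IsRankOnePair A A')
    (h : RootCommutatorCase S A B) : A ⊓ ⁅A, B⁆ = ⊥ := by
  rcases inf_eq_bot_or_eq hS hA' hp _ h.1 with h1 | h1
  · exact h1
  · exact absurd h1 (ne_commutator hS h)

theorem conjBy_ne_self (hS : IsRootSubgroupSet S) (hA' : A' ∈ S) (hp : IsRankOnePair A A')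
    (h : RootCommutatorCase S A B) {b : G} (hb : b ∈ B) (hb1 : b ≠ 1) : conjBy A b ≠ A := by
  intro e
  apply hS.ne_bot _ h.1
  rw [← h.2.2.2 b hb hb1, Subgroup.closure_eq_bot_iff]
  rintro _ ⟨a, ha, rfl⟩
  have h1 : a * b * a⁻¹ * b⁻¹ ∈ A ⊓ ⁅A, B⁆ := by
    refine ⟨?_, commutator_mem ha hb⟩
    have h2 : b * a⁻¹ * b⁻¹ ∈ A := by
      have := conj_mem_conjBy (A.inv_mem ha) b
      rwa [e] at this
    have : a * b * a⁻¹ * b⁻¹ = a * (b * a⁻¹ * b⁻¹) := by group
    rw [this]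
    exact A.mul_mem ha h2
  rw [inf_commutator_eq_bot hS hA' hp h, Subgroup.mem_bot] at h1
  exact h1

theorem conjBy_inf_self (hS : IsRootSubgroupSet S) (hAS : A ∈ S) (hA' : A' ∈ S)
    (hp : IsRankOnePair A A') (h : RootCommutatorCase S A B) {b : G} (hb : b ∈ B) (hb1 : b ≠ 1) :
    A ⊓ conjBy A b = ⊥ := by
  rcases inf_eq_bot_or_eq hS hA' hp _ (hS.conj_mem A hAS b) with h1 | h1
  · exact h1
  · exact absurd h1.symm (conjBy_ne_self hS hA' hp h hb hb1)

/-- `C_A(b) = 1` and `C_B(a) = 1`. -/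
theorem comm_eq_one (hS : IsRootSubgroupSet S) (hAS : A ∈ S) (hA' : A' ∈ S)
    (hp : IsRankOnePair A A') (h : RootCommutatorCase S A B) {a b : G} (ha : a ∈ A) (hb : b ∈ B)
    (e : a * b * a⁻¹ * b⁻¹ = 1) : a = 1 ∨ b = 1 := by
  by_cases hb1 : b = 1
  · exact Or.inr hb1
  left
  have h1 : a ∈ A ⊓ conjBy A b := by
    have h3 : a ∈ conjBy A b := by
      rw [mem_conjBy]
      have : b⁻¹ * a * b = b⁻¹ * (a * b * a⁻¹ * b⁻¹) * b * a := by group
      rw [this, e]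
      simpa using ha
    exact ⟨ha, h3⟩
  rw [conjBy_inf_self hS hAS hA' hp h hb hb1, Subgroup.mem_bot] at h1
  exact h1

/-- Every element `a * c` with `a ≠ 1` of `A ⁅A, B⁆` lies in a `B`-conjugate of `A`. -/
theorem mul_mem_conjBy (h : RootCommutatorCase S A B) {a c : G} (ha : a ∈ A) (ha1 : a ≠ 1)
    (hc : c ∈ ⁅A, B⁆) : ∃ b ∈ B, a * c ∈ conjBy A b := by
  obtain ⟨b, hb, hab⟩ := exists_comm_right h ha ha1 c hc
  refine ⟨b⁻¹, B.inv_mem hb, ?_⟩
  rw [mem_conjBy, ← hab]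
  have hcc := commutator_commute_left h a ha _ (commutator_mem ha hb)
  rw [hcc]
  have : b⁻¹⁻¹ * (a * b * a⁻¹ * b⁻¹ * a) * b⁻¹ = (b * (a * b * a⁻¹ * b⁻¹)) * (a * b⁻¹) := by group
  rw [this, commutator_commute_right h b hb _ (commutator_mem ha hb)]
  have : a * b * a⁻¹ * b⁻¹ * b * (a * b⁻¹) = a := by group
  rw [this]; exact ha

/-- A member of `S` inside `⁅A, B⁆` equals it. -/
theorem eq_of_le_commutator (hS : IsRootSubgroupSet S) (hAS : A ∈ S) (hA' : A' ∈ S)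
    (hp : IsRankOnePair A A') (h : RootCommutatorCase S A B) {E : Subgroup G} (hE : E ∈ S)
    (hle : E ≤ ⁅A, B⁆) : E = ⁅A, B⁆ := by
  have hEbot : E ⊓ ⁅A, B⁆ ≠ ⊥ := by
    rw [inf_eq_left.mpr hle]; exact hS.ne_bot E hE
  -- no member of `S` inside the commutator centralizes `A'`
  have hnc : ∀ F ∈ S, F ≤ ⁅A, B⁆ → ⁅F, A'⁆ ≠ ⊥ := by
    intro F hF hFle hbot
    rw [commutator_eq_bot_iff'] at hbot
    obtain ⟨z, hz, hz1⟩ := exists_ne_one_of_ne_bot (hS.ne_bot F hF)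
    obtain ⟨a, ha, ha1⟩ := exists_left hp
    have hzc : ∀ x ∈ A ⊔ A', z * x = x * z := by
      apply commute_sup
      · intro x hx; exact (commutator_commute_left h x hx z (hFle hz)).symm
      · intro x hx; exact hbot z hz x hx
    apply central_translate hS hA' hp hzc hz1 a ha ha1
    obtain ⟨b, hb, hmem⟩ := mul_mem_conjBy h ha ha1 (hFle hz)
    rw [hzc a (Subgroup.mem_sup_left ha)]
    refine ⟨?_, conjBy A b, hS.conj_mem A hAS b, hmem⟩
    intro e
    have h1 : a ∈ A ⊓ ⁅A, B⁆ := by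
      refine ⟨ha, ?_⟩
      have : a = z⁻¹ := eq_inv_of_mul_eq_one_left e
      rw [this]; exact Subgroup.inv_mem _ (hFle hz)
    rw [inf_commutator_eq_bot hS hA' hp h, Subgroup.mem_bot] at h1
    exact ha1 h1
  rcases hS.pair E hE A' hA' with h1 | h1 | h1
  · exact absurd h1 (hnc E hE hle)
  · rcases inf_eq_bot_or_eq hS hA' h1 _ h.1 with h2 | h2
    · exact absurd h2 hEbot
    · exact h2
  · rcases hS.pair _ h.1 A' hA' with h2 | h2 | h2
    · exact absurd h2 (hnc _ h.1 le_rfl)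
    · rcases inf_eq_bot_or_eq hS hA' h2 _ hE with h3 | h3
      · rw [inf_comm] at h3; exact absurd h3 hEbot
      · exact h3.symm
    · apply le_antisymm hle
      obtain ⟨e, he, he1⟩ := exists_ne_one_of_ne_bot (hS.ne_bot E hE)
      obtain ⟨a', ha', ha'1⟩ := exists_right hp
      have hF : ⁅E, A'⁆ = ⁅⁅A, B⁆, A'⁆ := by
        rw [← h1.2.2.1 e he he1, ← h2.2.2.1 e (hle he) he1]
      intro x hx
      have hxm : x * a' * x⁻¹ * a'⁻¹ ∈ ⁅E, A'⁆ := by
        rw [hF]; exact commutator_mem hx ha'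
      obtain ⟨e', he', hee⟩ := exists_comm_left h1 ha' ha'1 _ hxm
      have h3 : (x * e'⁻¹) * a' * (x * e'⁻¹)⁻¹ * a'⁻¹ = 1 := by
        rw [comm_mul_left h2 hx (Subgroup.inv_mem _ (hle he')) ha',
          comm_inv_left h2 (hle he') ha', hee, mul_inv_cancel]
      have h4 : a' * (x * e'⁻¹) * a'⁻¹ * (x * e'⁻¹)⁻¹ = 1 := by
        have : a' * (x * e'⁻¹) * a'⁻¹ * (x * e'⁻¹)⁻¹ =
            ((x * e'⁻¹) * a' * (x * e'⁻¹)⁻¹ * a'⁻¹)⁻¹ := by group
        rw [this, h3, inv_one]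
      rcases comm_eq_one hS hA' hAS (RankOnePair_symm hp) (commutatorCase_symm h2) ha'
        (Subgroup.mul_mem _ hx (Subgroup.inv_mem _ (hle he'))) h4 with h5 | h5
      · exact absurd h5 ha'1
      · have : x = e' := by
          have := mul_inv_eq_one.mp h5
          exact this
        rw [this]; exact he'

/-- Covering of `A ⁅A, B⁆`. -/
theorem cover (h : RootCommutatorCase S A B) {x : G} (hx : x ∈ A ⊔ ⁅A, B⁆) :
    x ∈ ⁅A, B⁆ ∨ ∃ b ∈ B, x ∈ conjBy A b := by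
  obtain ⟨a, ha, c, hc, rfl⟩ := mem_sup_of_commute (commutator_commute_left h) x hx
  by_cases ha1 : a = 1
  · left; rw [ha1, one_mul]; exact hc
  · right; exact mul_mem_conjBy h ha ha1 hc

theorem membersIn_eq (hS : IsRootSubgroupSet S) (hAS : A ∈ S) (hA' : A' ∈ S)
    (hp : IsRankOnePair A A') (h : RootCommutatorCase S A B) :
    membersIn S (A ⊔ ⁅A, B⁆) = (fun b : G => conjBy A b) '' (B : Set G) ∪ {⁅A, B⁆} := by
  ext E
  constructor
  · rintro ⟨hE, hle⟩
    by_cases hEC : E ≤ ⁅A, B⁆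
    · right; exact eq_of_le_commutator hS hAS hA' hp h hE hEC
    · left
      obtain ⟨e, he, heC⟩ := SetLike.not_le_iff_exists.mp hEC
      rcases cover h (hle he) with h1 | ⟨b, hb, h1⟩
      · exact absurd h1 heC
      · refine ⟨b, hb, ?_⟩
        rcases inf_eq_bot_or_eq hS (hS.conj_mem A' hA' b) (isRankOnePair_conj hp b) E hE with h2 | h2
        · exfalso
          have h3 : e ∈ conjBy A b ⊓ E := ⟨h1, he⟩
          rw [h2, Subgroup.mem_bot] at h3
          apply heC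
          rw [h3]; exact Subgroup.one_mem _
        · exact h2
  · rintro (⟨b, hb, rfl⟩ | rfl)
    · exact ⟨hS.conj_mem A hAS b, conjBy_le_sup_commutator hb⟩
    · exact ⟨h.1, le_sup_right⟩

theorem isPartition (hS : IsRootSubgroupSet S) (hAS : A ∈ S) (hA' : A' ∈ S)
    (hp : IsRankOnePair A A') (h : RootCommutatorCase S A B) :
    IsSubgroupPartition (A ⊔ ⁅A, B⁆) (membersIn S (A ⊔ ⁅A, B⁆)) := by
  refine ⟨fun C hC => hC.2, ?_, ?_⟩
  · intro x hx _
    rcases cover h hx with h1 | ⟨b, hb, h1⟩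
    · exact ⟨_, ⟨h.1, le_sup_right⟩, h1⟩
    · exact ⟨_, ⟨hS.conj_mem A hAS b, conjBy_le_sup_commutator hb⟩, h1⟩
  · intro C hC D hD hCD
    have hCS := hC.1
    have hDS := hD.1
    rw [membersIn_eq hS hAS hA' hp h] at hC hD
    rcases hC with ⟨b, hb, rfl⟩ | hC
    · rcases inf_eq_bot_or_eq hS (hS.conj_mem A' hA' b) (isRankOnePair_conj hp b) D hDS with h2 | h2
      · exact h2
      · exact absurd h2 hCD
    · rcases hD with ⟨b, hb, rfl⟩ | hD
      · rcases inf_eq_bot_or_eq hS (hS.conj_mem A' hA' b) (isRankOnePair_conj hp b) C hCS with h2 | h2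
        · rw [inf_comm]; exact h2
        · exact absurd h2.symm hCD
      · rw [Set.mem_singleton_iff] at hC hD
        exact absurd (hC.trans hD.symm) hCD

theorem mem_linePartners (hS : IsRootSubgroupSet S) (hAS : A ∈ S) (hA' : A' ∈ S)
    (hp : IsRankOnePair A A') (h : RootCommutatorCase S A B) : A ∈ linePartners S ⁅A, B⁆ := by
  refine ⟨⟨hAS, ne_commutator hS h, ?_⟩, ?_⟩
  · rw [commutator_eq_bot_iff']
    intro c hc a ha
    exact (commutator_commute_left h a ha c hc).symm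
  · rw [sup_comm]
    exact isPartition hS hAS hA' hp h

/-- The isomorphism `b ↦ a⁻¹ b⁻¹ a b` from `B` onto `⁅A, B⁆`. -/
theorem exists_equiv (hS : IsRootSubgroupSet S) (hAS : A ∈ S) (hA' : A' ∈ S)
    (hp : IsRankOnePair A A') (hBS : B ∈ S) (h : RootCommutatorCase S A B) {a : G} (ha : a ∈ A)
    (ha1 : a ≠ 1) :
    ∃ φ : ↥B ≃* ↥⁅A, B⁆, ∀ b : ↥B, (φ b : G) = a⁻¹ * (b : G)⁻¹ * a * b := by
  have hform : ∀ b : G, a⁻¹ * b⁻¹ * a * b = a⁻¹ * b⁻¹ * a⁻¹⁻¹ * b⁻¹⁻¹ := by intro b; group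
  have hcomm := Helper85RankOne.isMulCommutative_iff.mp (hS.commutative B hBS)
  let f : ↥B →* ↥⁅A, B⁆ :=
    { toFun := fun b => ⟨a⁻¹ * (b : G)⁻¹ * a * b, by
        rw [hform]; exact commutator_mem (A.inv_mem ha) (B.inv_mem b.2)⟩
      map_one' := by ext; simp
      map_mul' := by
        intro b b'
        ext
        simp only [Subgroup.coe_mul]
        rw [hform, hform, hform, mul_inv_rev, hcomm _ (B.inv_mem b'.2) _ (B.inv_mem b.2)]
        exact comm_mul_right h (A.inv_mem ha) (B.inv_mem b.2) (B.inv_mem b'.2) }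
  have hinj : Function.Injective f := by
    rw [injective_iff_map_eq_one]
    intro b hb
    have h1 : a⁻¹ * (b : G)⁻¹ * a⁻¹⁻¹ * (b : G)⁻¹⁻¹ = 1 := by
      rw [← hform]; exact congrArg Subtype.val hb
    rcases comm_eq_one hS hAS hA' hp h (A.inv_mem ha) (B.inv_mem b.2) h1 with h2 | h2
    · exact absurd (inv_eq_one.mp h2) ha1
    · ext; simpa using h2
  have hsurj : Function.Surjective f := by
    rintro ⟨c, hc⟩
    obtain ⟨b, hb, hab⟩ := exists_comm_right h (A.inv_mem ha) (by simpa using ha1) c hc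
    refine ⟨⟨b⁻¹, B.inv_mem hb⟩, ?_⟩
    ext
    change a⁻¹ * (b⁻¹)⁻¹ * a * b⁻¹ = c
    rw [← hab]; group
  exact ⟨MulEquiv.ofBijective f ⟨hinj, hsurj⟩, fun b => rfl⟩

end nonisolated

end Cfsg.Agent.Lib.Helper85Comm
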