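import Mathlib
import Cfsg.Prelude.Def_RootSubgroups
import Cfsg.Agent.Lib.Helper85Comm

set_option autoImplicit false

namespace Cfsg.Agent.Lib.Helper85Graph

open Cfsg Cfsg.Agent.Lib.Helper85RankOne Cfsg.Agent.Lib.Helper85Root Cfsg.Agent.Lib.Helper85Comm

variable {G : Type*} [Group G] {S : Set (Subgroup G)}

theorem fadj_symm {A B : Subgroup G} (h : FAdj S A B) : FAdj S B A :=
  ⟨h.2.1, h.1, RankOnePair_symm h.2.2⟩

theorem reach_symm {A B : Subgroup G} (h : Relation.ReflTransGen (FAdj S) A B) :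
    Relation.ReflTransGen (FAdj S) B A := by
  induction h with
  | refl => exact Relation.ReflTransGen.refl
  | tail _ b c => exact c.head (fadj_symm b)

theorem component_eq {A B : Subgroup G} (h : Relation.ReflTransGen (FAdj S) A B) :
    componentOf (FAdj S) S A = componentOf (FAdj S) S B := by
  have h' : Relation.ReflTransGen (FAdj S) B A := reach_symm h
  ext C
  constructor
  · rintro ⟨hC, hr⟩; exact ⟨hC, h'.trans hr⟩
  · rintro ⟨hC, hr⟩; exact ⟨hC, h.trans hr⟩

theorem exists_adj_of_reach {A A' : Subgroup G} (hr : Relation.ReflTransGen (FAdj S) A A')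
    (hne : A' ≠ A) : ∃ C ∈ S, IsRankOnePair A C := by
  rcases Relation.ReflTransGen.cases_head hr with h1 | ⟨C, hC, -⟩
  · exact absurd h1.symm hne
  · exact ⟨C, hC.2.1, hC.2.2⟩

theorem exists_adj {A : Subgroup G} (h : ∃ A' ∈ componentOf (FAdj S) S A, A' ≠ A) :
    ∃ A' ∈ S, IsRankOnePair A A' := by
  obtain ⟨A', ⟨-, hr⟩, hne⟩ := h
  exact exists_adj_of_reach hr hne

/-- Members joined by a path in `𝓕(S)` are conjugate. -/
theorem conj_of_reach {A B : Subgroup G} (h : Relation.ReflTransGen (FAdj S) A B) :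
    ∃ g : G, B = conjBy A g := by
  induction h with
  | refl => exact ⟨1, by simp⟩
  | tail _ hbc ih =>
    obtain ⟨g, rfl⟩ := ih
    obtain ⟨x, -, hx⟩ := exists_conj_eq_right hbc.2.2
    exact ⟨x * g, by rw [← hx, conjBy_conjBy]⟩

theorem fadj_conj (hS : IsRootSubgroupSet S) {A B : Subgroup G} (h : FAdj S A B) (g : G) :
    FAdj S (conjBy A g) (conjBy B g) :=
  ⟨hS.conj_mem A h.1 g, hS.conj_mem B h.2.1 g, isRankOnePair_conj h.2.2 g⟩

theorem reach_conj (hS : IsRootSubgroupSet S) {A B : Subgroup G}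
    (h : Relation.ReflTransGen (FAdj S) A B) (g : G) :
    Relation.ReflTransGen (FAdj S) (conjBy A g) (conjBy B g) := by
  induction h with
  | refl => exact Relation.ReflTransGen.refl
  | tail _ hbc ih => exact ih.tail (fadj_conj hS hbc g)

/-- Key step for Timmesfeld II (2.?): a product of commuting root elements from `A` and `B`
lies in a member forming a rank one pair with a partner `A'` of `A`, unless `(A', B)` is a
rank one pair. -/
theorem key (hS : IsRootSubgroupSet S) {A B A' E : Subgroup G} (hB : B ∈ S)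
    (hcomm : ⁅A, B⁆ = ⊥) (hA' : A' ∈ S) (hp : IsRankOnePair A A') (hnr : ¬ IsRankOnePair A' B)
    {a b : G} (ha : a ∈ A) (ha1 : a ≠ 1) (hb : b ∈ B) (hE : E ∈ S) (habE : a * b ∈ E) :
    IsRankOnePair E A' := by
  have hc := commutator_eq_bot_iff'.mp hcomm
  have hab : a * b = b * a := hc a ha b hb
  -- `A'` commutes with its conjugates under `B`
  have hcase : ∀ b' ∈ B, ⁅A', conjBy A' b'⁆ = ⊥ := by
    intro b' hb'
    rw [commutator_eq_bot_iff']
    rcases hS.pair A' hA' B hB with h | h | h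
    · rw [commutator_eq_bot_iff'] at h
      rw [conjBy_eq_of_commute (fun x hx => (h x hx b' hb').symm)]
      exact Cfsg.Agent.Lib.Helper85RankOne.isMulCommutative_iff.mp (hS.commutative A' hA')
    · exact absurd h hnr
    · exact commutatorCase_conj_commute (hS.commutative A' hA') (commutatorCase_symm h) hb'
  apply rankOne_of_conj_not_commute hS hE hA' habE
  intro hcon
  rw [← commutator_eq_bot_iff'] at hcon
  -- conjugate by `b⁻¹`
  have h1 : ⁅conjBy A' b⁻¹, conjBy A' a⁆ = ⊥ := by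
    have := congrArg (fun X => conjBy X b⁻¹) hcon
    simp only [conjBy_commutator, conjBy_bot, conjBy_conjBy] at this
    have e : b⁻¹ * (a * b) = a := by rw [hab]; group
    rwa [e] at this
  obtain ⟨a', ha', -, haa⟩ := partner_left hp ha ha1
  rw [← haa] at h1
  have h2 : ⁅conjBy A' b⁻¹, A⁆ = ⊥ := by
    have := congrArg (fun X => conjBy X a'⁻¹) h1
    simp only [conjBy_commutator, conjBy_bot] at this
    rw [conjBy_inv_conjBy] at this
    have h3 : conjBy (conjBy A' b⁻¹) a'⁻¹ = conjBy A' b⁻¹ := by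
      apply conjBy_eq_of_commute
      intro x hx
      exact (commutator_eq_bot_iff'.mp (hcase b⁻¹ (B.inv_mem hb))) a'⁻¹ (A'.inv_mem ha') x hx
    rwa [h3] at this
  have hp2 : IsRankOnePair A (conjBy A' b⁻¹) := by
    have := isRankOnePair_conj hp b⁻¹
    rwa [conjBy_eq_of_commute (fun x hx => (hc x hx b⁻¹ (B.inv_mem hb)).symm)] at this
  apply not_commute hp2
  intro x hx y hy
  exact ((commutator_eq_bot_iff'.mp h2) y hy x hx).symm

/-- Timmesfeld II: no line between different non-trivial components; here in the form that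
line partners with rank one partners are joined by a path. -/
theorem reach_of_linePartner (hS : IsRootSubgroupSet S) {A B A' B' : Subgroup G} (hA : A ∈ S)
    (hA' : A' ∈ S) (hpA : IsRankOnePair A A') (hB' : B' ∈ S) (hpB : IsRankOnePair B B')
    (hBl : B ∈ linePartners S A) : Relation.ReflTransGen (FAdj S) A B := by
  obtain ⟨⟨hB, hBA, hcomm⟩, -, hcov, hdisj⟩ := hBl
  have hAm : A ∈ membersIn S (A ⊔ B) := ⟨hA, le_sup_left⟩
  have hBm : B ∈ membersIn S (A ⊔ B) := ⟨hB, le_sup_right⟩
  have hinf : A ⊓ B = ⊥ := hdisj A hAm B hBm hBA.symm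
  obtain ⟨a, ha, ha1⟩ := exists_left hpA
  obtain ⟨b, hb, hb1⟩ := exists_left hpB
  have hab : a * b = b * a := (commutator_eq_bot_iff'.mp hcomm) a ha b hb
  have hab1 : a * b ≠ 1 := by
    intro e
    have h1 : a ∈ A ⊓ B := by
      refine ⟨ha, ?_⟩
      have : a = b⁻¹ := eq_inv_of_mul_eq_one_left e
      rw [this]; exact B.inv_mem hb
    rw [hinf, Subgroup.mem_bot] at h1
    exact ha1 h1
  obtain ⟨E, ⟨hE, -⟩, habE⟩ := hcov (a * b)
    (Subgroup.mul_mem _ (Subgroup.mem_sup_left ha) (Subgroup.mem_sup_right hb)) hab1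
  by_cases hr1 : IsRankOnePair A' B
  · exact (Relation.ReflTransGen.single ⟨hA, hA', hpA⟩).tail ⟨hA', hB, hr1⟩
  by_cases hr2 : IsRankOnePair B' A
  · exact (Relation.ReflTransGen.single ⟨hA, hB', RankOnePair_symm hr2⟩).tail
      ⟨hB', hB, RankOnePair_symm hpB⟩
  have h1 : IsRankOnePair E A' := key hS hB hcomm hA' hpA hr1 ha ha1 hb hE habE
  have h2 : IsRankOnePair E B' :=
    key hS hA (by rw [Subgroup.commutator_comm]; exact hcomm) hB' hpB hr2 hb hb1 ha hE
      (by rw [← hab]; exact habE)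
  exact (((Relation.ReflTransGen.single ⟨hA, hA', hpA⟩).tail ⟨hA', hE, RankOnePair_symm h1⟩).tail
    ⟨hE, hB', h2⟩).tail ⟨hB', hB, RankOnePair_symm hpB⟩

end Cfsg.Agent.Lib.Helper85Graph
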