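import Mathlib
import Cfsg.Prelude.Def_RootSubgroups
import Cfsg.Agent.Lib.Helper85Graph
import Cfsg.Agent.Lib.Helper85Transfer

set_option autoImplicit false

namespace Cfsg.Agent.Lib.Helper85Line

open Cfsg Cfsg.Agent.Lib.Helper85RankOne Cfsg.Agent.Lib.Helper85Root Cfsg.Agent.Lib.Helper85Comm
  Cfsg.Agent.Lib.Helper85Graph Cfsg.Agent.Lib.Helper85Special Cfsg.Agent.Lib.Helper85Transfer

variable {G : Type*} [Group G] {S : Set (Subgroup G)}

theorem rc_commutator (X Y : Subgroup G) (g : G) : rc ⁅X, Y⁆ g = ⁅rc X g, rc Y g⁆ :=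
  conjBy_commutator X Y g⁻¹

theorem rc_commutator_eq_bot {X Y : Subgroup G} (h : ⁅X, Y⁆ = ⊥) (g : G) :
    ⁅rc X g, rc Y g⁆ = ⊥ := by
  rw [← rc_commutator, h, rc_def, conjBy_bot]

/-- Every non-identity element of `A ⁅A, D⁆` lies in a member of `S` inside `A ⁅A, D⁆`. -/
theorem cover_member (hS : IsRootSubgroupSet S) {A D : Subgroup G} (hAS : A ∈ S)
    (h : RootCommutatorCase S A D) {x : G} (hx : x ∈ A ⊔ ⁅A, D⁆) :
    ∃ E ∈ membersIn S (A ⊔ ⁅A, D⁆), x ∈ E := by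
  rcases cover h hx with h1 | ⟨d, hd, h1⟩
  · exact ⟨_, ⟨h.1, le_sup_right⟩, h1⟩
  · exact ⟨_, ⟨hS.conj_mem A hAS d, conjBy_le_sup_commutator hd⟩, h1⟩

/-- A point opposite to `A` is not opposite to all points of a line through `A`. -/
theorem exists_not_rankOne (hS : IsRootSubgroupSet S) {A B D : Subgroup G} (hAS : A ∈ S)
    (hB : B ∈ S) (hp : IsRankOnePair A B) (h : RootCommutatorCase S A D) :
    ∃ E ∈ membersIn S (A ⊔ ⁅A, D⁆), ¬ IsRankOnePair E B := by
  by_contra hall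
  push Not at hall
  have hFB := hall _ ⟨h.1, le_sup_right⟩
  obtain ⟨f, hf, hf1⟩ := exists_left hFB
  obtain ⟨β, hβ⟩ := exists_partner_left hFB hf hf1
  obtain ⟨a, ha⟩ := exists_partner_right hp hβ.memB hβ.neB
  have hAF : ⁅A, ⁅A, D⁆⁆ = ⊥ := by
    rw [commutator_eq_bot_iff']; exact commutator_commute_left h
  have h1 := rc_commutator_eq_bot hAF β
  rw [ha.eq, hβ.eq] at h1
  have h2 := rc_commutator_eq_bot h1 f⁻¹
  rw [rc_rc, rc_rc, mul_inv_cancel, rc_one] at h2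
  have hw : a * f⁻¹ ∈ A ⊔ ⁅A, D⁆ :=
    Subgroup.mul_mem _ (Subgroup.mem_sup_left ha.memA) (Subgroup.inv_mem _ (Subgroup.mem_sup_right hf))
  have hw1 : a * f⁻¹ ≠ 1 := by
    intro e
    have haf : a = f := mul_inv_eq_one.mp e
    have h3 : a ∈ A ⊓ ⁅A, D⁆ := ⟨ha.memA, by rw [haf]; exact hf⟩
    rw [inf_commutator_eq_bot hS hB hp h, Subgroup.mem_bot] at h3
    exact ha.neA h3
  obtain ⟨E, hE, hwE⟩ := cover_member hS hAS h hw
  have hEB := hall E hE
  have hne : rc B (a * f⁻¹) ≠ B := by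
    intro e
    have := norm_left hEB (E.inv_mem hwE) e
    exact hw1 (inv_eq_one.mp this)
  have hm : rc B (a * f⁻¹) ∈ unipotentSubgroups E B :=
    rc_mem_unipotent (right_mem_unipotent hEB) (Subgroup.mem_sup_left hwE)
  have hp2 := (pair_of_mem hEB hm (right_mem_unipotent hEB) hne).1
  exact not_commute hp2 (commutator_eq_bot_iff'.mp h2)

/-- Timmesfeld II: for `B ∈ Ω_A` and a line through `A` there is a point `E ≠ A` on the line
with `⁅E, B⁆ ∈ S`. -/
theorem exists_line_commutator (hS : IsRootSubgroupSet S) {A B D : Subgroup G} (hAS : A ∈ S)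
    (hB : B ∈ S) (hp : IsRankOnePair A B) (h : RootCommutatorCase S A D) :
    ∃ E ∈ membersIn S (A ⊔ ⁅A, D⁆), E ≠ A ∧ ⁅A, E⁆ = ⊥ ∧ RootCommutatorCase S E B := by
  obtain ⟨E, hE, hnr⟩ := exists_not_rankOne hS hAS hB hp h
  have hEA : E ≠ A := by
    rintro rfl; exact hnr hp
  have hcommA := Cfsg.Agent.Lib.Helper85RankOne.isMulCommutative_iff.mp (hS.commutative A hAS)
  have hAE : ∀ a ∈ A, ∀ e ∈ E, a * e = e * a := by
    intro a ha e he
    exact commute_sup (fun x hx => hcommA a ha x hx) (fun x hx => commutator_commute_left h a ha x hx)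
      e (hE.2 he)
  refine ⟨E, hE, hEA, commutator_eq_bot_iff'.mpr hAE, ?_⟩
  rcases hS.pair E hE.1 B hB with h1 | h1 | h1
  · exfalso
    rw [commutator_eq_bot_iff'] at h1
    obtain ⟨z, hz, hz1⟩ := exists_ne_one_of_ne_bot (hS.ne_bot E hE.1)
    obtain ⟨a, ha, ha1⟩ := exists_left hp
    have hzc : ∀ x ∈ A ⊔ B, z * x = x * z :=
      commute_sup (fun x hx => (hAE x hx z hz).symm) (fun x hx => h1 z hz x hx)
    apply central_translate hS hB hp hzc hz1 a ha ha1
    have hza : z * a ∈ A ⊔ ⁅A, D⁆ := Subgroup.mul_mem _ (hE.2 hz) (Subgroup.mem_sup_left ha)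
    obtain ⟨E', hE', hmem⟩ := cover_member hS hAS h hza
    refine ⟨?_, E', hE'.1, hmem⟩
    intro e
    rcases inf_eq_bot_or_eq hS hB hp E hE.1 with h2 | h2
    · have h3 : a ∈ A ⊓ E := by
        refine ⟨ha, ?_⟩
        have : a = z⁻¹ := eq_inv_of_mul_eq_one_right e
        rw [this]; exact E.inv_mem hz
      rw [h2, Subgroup.mem_bot] at h3
      exact ha1 h3
    · exact hEA h2.symm
  · exact absurd h1 hnr
  · exact h1

end Cfsg.Agent.Lib.Helper85Line
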