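import Mathlib
import Cfsg.Prelude.Def_RootSubgroups
import Cfsg.Agent.Lib.Helper85Line

set_option autoImplicit false

namespace Cfsg.Agent.Lib.Helper85Nat

open Cfsg Cfsg.Agent.Lib.Helper85RankOne Cfsg.Agent.Lib.Helper85Root Cfsg.Agent.Lib.Helper85Comm
  Cfsg.Agent.Lib.Helper85Graph Cfsg.Agent.Lib.Helper85Special Cfsg.Agent.Lib.Helper85Transfer
  Cfsg.Agent.Lib.Helper85Line
open scoped commutatorElement

variable {G : Type*} [Group G] {S : Set (Subgroup G)}

/-- The "natural module" configuration: `C = ⁅A, B⁆`, `A = ⁅C, D⁆`. -/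
structure Config (S : Set (Subgroup G)) (A B C D : Subgroup G) : Prop where
  memA : A ∈ S
  memB : B ∈ S
  memC : C ∈ S
  memD : D ∈ S
  eqC : ⁅A, B⁆ = C
  eqA : ⁅C, D⁆ = A

/-- the points `A^B ∪ {C}`. -/
def pts (A B C : Subgroup G) : Set (Subgroup G) := (fun b : G => conjBy A b) '' (B : Set G) ∪ {C}

namespace Config

variable {A B C D : Subgroup G}

theorem symm (h : Config S A B C D) : Config S C D A B :=
  ⟨h.memC, h.memD, h.memA, h.memB, h.eqA, h.eqC⟩

theorem caseAB (hS : IsRootSubgroupSet S) (h : Config S A B C D) : RootCommutatorCase S A B :=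
  commutatorCase_of_mem hS h.memA h.memB (h.eqC ▸ h.memC)

theorem commAC (hS : IsRootSubgroupSet S) (h : Config S A B C D) :
    ∀ a ∈ A, ∀ c ∈ C, a * c = c * a := by
  intro a ha c hc
  exact commutator_commute_left (h.caseAB hS) a ha c (h.eqC ▸ hc)

theorem commBC (hS : IsRootSubgroupSet S) (h : Config S A B C D) :
    ∀ b ∈ B, ∀ c ∈ C, b * c = c * b := by
  intro a ha c hc
  exact commutator_commute_right (h.caseAB hS) a ha c (h.eqC ▸ hc)

theorem commDA (hS : IsRootSubgroupSet S) (h : Config S A B C D) :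
    ∀ d ∈ D, ∀ a ∈ A, d * a = a * d := h.symm.commBC hS

theorem commAA (hS : IsRootSubgroupSet S) (h : Config S A B C D) :
    ∀ a ∈ A, ∀ c ∈ A, a * c = c * a :=
  Cfsg.Agent.Lib.Helper85RankOne.isMulCommutative_iff.mp (hS.commutative A h.memA)

theorem rankOne (hS : IsRootSubgroupSet S) (h : Config S A B C D) : IsRankOnePair B D := by
  by_contra hnr
  have hcomm : ∀ β ∈ B, ∀ e ∈ D, ∀ f ∈ conjBy D β, e * f = f * e := by
    intro β hβ
    by_contra hc
    exact hnr (rankOne_of_conj_not_commute hS h.memB h.memD hβ hc)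
  obtain ⟨β, hβ, hβ1⟩ := exists_ne_one_of_ne_bot (hS.ne_bot B h.memB)
  have h1 : A ≤ ⁅conjBy A β, D⁆ := by
    calc A = ⁅C, D⁆ := h.eqA.symm
      _ ≤ _ := by
        rw [Subgroup.commutator_le]
        intro c hc d hd
        obtain ⟨a, ha, hac⟩ := exists_comm_left (h.caseAB hS) hβ hβ1 c (h.eqC ▸ hc)
        have hm : a⁻¹ * c ∈ conjBy A β := by
          have : a⁻¹ * c = β * a⁻¹ * β⁻¹ := by rw [← hac]; group
          rw [this]; exact conj_mem_conjBy (A.inv_mem ha) β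
        have h2 := Subgroup.commutator_mem_commutator hm hd
        have hcd : ⁅c, d⁆ ∈ A := by
          rw [← h.eqA]; exact Subgroup.commutator_mem_commutator hc hd
        have h3 : ⁅a⁻¹ * c, d⁆ = ⁅c, d⁆ := by
          have e1 := h.commDA hS d hd a ha
          have e2 := h.commAA hS a ha _ hcd
          rw [commutatorElement_def] at e2 ⊢
          rw [commutatorElement_def]
          calc a⁻¹ * c * d * (a⁻¹ * c)⁻¹ * d⁻¹ = a⁻¹ * (c * d * c⁻¹) * (a * d⁻¹) := by group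
            _ = a⁻¹ * (c * d * c⁻¹) * (d⁻¹ * a) := by
                congr 1
                calc a * d⁻¹ = d⁻¹ * (d * a) * d⁻¹ := by group
                  _ = d⁻¹ * (a * d) * d⁻¹ := by rw [e1]
                  _ = d⁻¹ * a := by group
            _ = a⁻¹ * ((c * d * c⁻¹ * d⁻¹) * a) := by group
            _ = a⁻¹ * (a * (c * d * c⁻¹ * d⁻¹)) := by rw [e2]
            _ = c * d * c⁻¹ * d⁻¹ := by group
        rw [← h3]; exact h2
  set Z := Subgroup.centralizer (D : Set G) with hZ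
  have hAZ : A ≤ Z := by
    intro a ha
    rw [hZ, Subgroup.mem_centralizer_iff]
    intro d hd
    exact h.commDA hS d hd a ha
  have hDZ : conjBy D β⁻¹ ≤ Z := by
    intro f hf
    rw [hZ, Subgroup.mem_centralizer_iff]
    intro d hd
    exact hcomm β⁻¹ (B.inv_mem hβ) d hd f hf
  have h2 : conjBy A β⁻¹ ≤ Z := by
    calc conjBy A β⁻¹ ≤ conjBy ⁅conjBy A β, D⁆ β⁻¹ := conjBy_mono h1 _
      _ = ⁅A, conjBy D β⁻¹⁆ := by rw [conjBy_commutator, conjBy_inv_conjBy]
      _ ≤ Z := by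
        rw [Subgroup.commutator_le]
        intro x hx y hy
        rw [commutatorElement_def]
        exact Z.mul_mem (Z.mul_mem (Z.mul_mem (hAZ hx) (hDZ hy)) (Z.inv_mem (hAZ hx)))
          (Z.inv_mem (hDZ hy))
  have h3 : C ≤ Z := by
    rw [← h.eqC, ← (h.caseAB hS).2.2.2 β⁻¹ (B.inv_mem hβ) (by simpa using hβ1), Subgroup.closure_le]
    rintro _ ⟨a, ha, rfl⟩
    have : a * β⁻¹ * a⁻¹ * β⁻¹⁻¹ = a * (β⁻¹ * a⁻¹ * β⁻¹⁻¹) := by group
    show a * β⁻¹ * a⁻¹ * β⁻¹⁻¹ ∈ Z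
    rw [this]
    exact Z.mul_mem (hAZ ha) (h2 (conj_mem_conjBy (A.inv_mem ha) β⁻¹))
  apply hS.ne_bot A h.memA
  rw [← h.eqA, commutator_eq_bot_iff']
  intro c hc d hd
  have := h3 hc
  rw [hZ, Subgroup.mem_centralizer_iff] at this
  exact (this d hd).symm

theorem comm_eq_one' (hS : IsRootSubgroupSet S) (h : Config S A B C D) {a b : G} (ha : a ∈ A)
    (hb : b ∈ B) (e : a * b = b * a) : a = 1 ∨ b = 1 := by
  by_contra hcon
  push Not at hcon
  obtain ⟨ha1, hb1⟩ := hcon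
  have hr := h.rankOne hS
  obtain ⟨d, hd, hd1, hdb⟩ := partner_left hr hb hb1
  set Z := Subgroup.centralizer ({a} : Set G) with hZ
  have hmem : ∀ x, x ∈ Z ↔ a * x = x * a := by
    intro x
    rw [hZ, Subgroup.mem_centralizer_iff]
    simp
  have hDZ : D ≤ Z := by
    intro x hx
    rw [hmem]
    exact (h.commDA hS x hx a ha).symm
  have hbZ : b ∈ Z := (hmem b).mpr e
  have hBZ : B ≤ Z := by
    intro b' hb'
    have h1 : d * b' * d⁻¹ ∈ conjBy D b := by
      rw [← hdb]; exact conj_mem_conjBy hb' d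
    rw [mem_conjBy] at h1
    have h2 := hDZ h1
    have h3 : b' = d⁻¹ * (b * (b⁻¹ * (d * b' * d⁻¹) * b) * b⁻¹) * d := by group
    rw [h3]
    exact Z.mul_mem (Z.mul_mem (Z.inv_mem (hDZ hd)) (Z.mul_mem (Z.mul_mem hbZ h2) (Z.inv_mem hbZ)))
      (hDZ hd)
  apply hS.ne_bot C h.memC
  rw [← h.eqC, ← (h.caseAB hS).2.2.1 a ha ha1, Subgroup.closure_eq_bot_iff]
  rintro _ ⟨b', hb', rfl⟩
  have := (hmem b').mp (hBZ hb')
  show a * b' * a⁻¹ * b'⁻¹ = 1
  rw [this]; group

theorem conjBy_A_of_D (hS : IsRootSubgroupSet S) (h : Config S A B C D) {d : G} (hd : d ∈ D) :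
    conjBy A d = A :=
  conjBy_eq_of_commute (fun a ha => h.commDA hS d hd a ha)

theorem conjBy_C_of_B (hS : IsRootSubgroupSet S) (h : Config S A B C D) {b : G} (hb : b ∈ B) :
    conjBy C b = C := h.symm.conjBy_A_of_D hS hb

theorem conjBy_N_of_B (hS : IsRootSubgroupSet S) (h : Config S A B C D) {b : G} (hb : b ∈ B) :
    conjBy (A ⊔ C) b ≤ A ⊔ C := by
  rw [conjBy_sup, h.conjBy_C_of_B hS hb]
  refine sup_le ?_ le_sup_right
  have := conjBy_le_sup_commutator (A := A) hb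
  rwa [h.eqC] at this

theorem conjBy_N_of_D (hS : IsRootSubgroupSet S) (h : Config S A B C D) {d : G} (hd : d ∈ D) :
    conjBy (A ⊔ C) d ≤ A ⊔ C := by
  have := h.symm.conjBy_N_of_B hS hd
  rwa [sup_comm] at this

theorem conj_le (hS : IsRootSubgroupSet S) (h : Config S A B C D) {b d : G} (hb : b ∈ B)
    (hd : d ∈ D) (e : conjBy D b = conjBy B d) : conjBy A b ≤ conjBy C d := by
  intro x hx
  rw [mem_conjBy]
  have hxN : x ∈ A ⊔ C := by
    have := conjBy_le_sup_commutator (A := A) hb hx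
    rwa [h.eqC] at this
  have hyN : d⁻¹ * x * d ∈ A ⊔ C := by
    apply h.conjBy_N_of_D hS (D.inv_mem hd)
    have := conj_mem_conjBy hxN d⁻¹
    rwa [inv_inv] at this
  obtain ⟨a', ha', c', hc', hy⟩ := mem_sup_of_commute (h.commAC hS) _ hyN
  obtain ⟨b', hb', hb'1⟩ := exists_ne_one_of_ne_bot (hS.ne_bot B h.memB)
  have hcomm : x * (d * b' * d⁻¹) = (d * b' * d⁻¹) * x := by
    have h1 : d * b' * d⁻¹ ∈ conjBy D b := by rw [e]; exact conj_mem_conjBy hb' d
    rw [mem_conjBy] at h1 hx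
    have h2 := h.commDA hS _ h1 _ hx
    calc x * (d * b' * d⁻¹) = b * ((b⁻¹ * x * b) * (b⁻¹ * (d * b' * d⁻¹) * b)) * b⁻¹ := by group
      _ = b * ((b⁻¹ * (d * b' * d⁻¹) * b) * (b⁻¹ * x * b)) * b⁻¹ := by rw [h2]
      _ = _ := by group
  have hcomm2 : (d⁻¹ * x * d) * b' = b' * (d⁻¹ * x * d) := by
    calc (d⁻¹ * x * d) * b' = d⁻¹ * (x * (d * b' * d⁻¹)) * d := by group
      _ = d⁻¹ * ((d * b' * d⁻¹) * x) * d := by rw [hcomm]
      _ = _ := by group
  rw [hy] at hcomm2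
  have h3 : a' * b' = b' * a' := by
    have h4 := h.commBC hS b' hb' c' hc'
    calc a' * b' = (a' * c' * b') * c'⁻¹ := by
          rw [mul_assoc a' c' b', ← h4]; group
      _ = (b' * (a' * c')) * c'⁻¹ := by rw [hcomm2]
      _ = _ := by group
  rcases h.comm_eq_one' hS ha' hb' h3 with h5 | h5
  · rw [hy, h5, one_mul]; exact hc'
  · exact absurd h5 hb'1

theorem conj_eq (hS : IsRootSubgroupSet S) (h : Config S A B C D) {b d : G} (hb : b ∈ B)
    (hd : d ∈ D) (e : conjBy D b = conjBy B d) : conjBy A b = conjBy C d :=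
  le_antisymm (h.conj_le hS hb hd e) (h.symm.conj_le hS hd hb e.symm)

theorem pts_subset (hS : IsRootSubgroupSet S) (h : Config S A B C D) : pts A B C ⊆ pts C D A := by
  rintro E (⟨b, hb, rfl⟩ | rfl)
  · by_cases hb1 : b = 1
    · right
      subst hb1
      simp
    · obtain ⟨d, hd, hd1, hdb⟩ := partner_left (h.rankOne hS) hb hb1
      left
      exact ⟨d, hd, (h.conj_eq hS hb hd hdb.symm).symm⟩
  · left
    exact ⟨1, D.one_mem, by simp⟩

theorem pts_eq (hS : IsRootSubgroupSet S) (h : Config S A B C D) : pts A B C = pts C D A :=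
  Set.Subset.antisymm (h.pts_subset hS) (h.symm.pts_subset hS)

theorem pts_inv_B (hS : IsRootSubgroupSet S) (h : Config S A B C D) {b : G} (hb : b ∈ B) :
    ∀ E ∈ pts A B C, conjBy E b ∈ pts A B C := by
  rintro E (⟨b', hb', rfl⟩ | rfl)
  · left
    exact ⟨b * b', B.mul_mem hb hb', (conjBy_conjBy A b' b).symm⟩
  · right
    exact h.conjBy_C_of_B hS hb

theorem pts_inv_D (hS : IsRootSubgroupSet S) (h : Config S A B C D) {d : G} (hd : d ∈ D) :
    ∀ E ∈ pts A B C, conjBy E d ∈ pts A B C := by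
  rw [h.pts_eq hS]
  exact h.symm.pts_inv_B hS hd

theorem pts_inv (hS : IsRootSubgroupSet S) (h : Config S A B C D) :
    ∀ x ∈ B ⊔ D, ∀ E ∈ pts A B C, conjBy E x ∈ pts A B C := by
  apply sup_induction
  · intro b hb; exact h.pts_inv_B hS hb
  · intro d hd; exact h.pts_inv_D hS hd
  · intro x y hx hy E hE
    rw [← conjBy_conjBy]
    exact hx _ (hy E hE)

theorem A_mem_pts : A ∈ pts A B C := Or.inl ⟨1, B.one_mem, by simp⟩

theorem exists_conj_C (hS : IsRootSubgroupSet S) (h : Config S A B C D) :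
    ∃ x ∈ B ⊔ D, C = conjBy A x := by
  obtain ⟨b, hb, hb1⟩ := exists_ne_one_of_ne_bot (hS.ne_bot B h.memB)
  obtain ⟨d, hd, hd1, hdb⟩ := partner_left (h.rankOne hS) hb hb1
  refine ⟨d⁻¹ * b, Subgroup.mul_mem _ (Subgroup.inv_mem _ (Subgroup.mem_sup_right hd))
    (Subgroup.mem_sup_left hb), ?_⟩
  rw [← conjBy_conjBy, h.conj_eq hS hb hd hdb.symm, conjBy_inv_conjBy]

theorem orbit_eq (hS : IsRootSubgroupSet S) (h : Config S A B C D) :
    {E | ∃ x ∈ B ⊔ D, E = conjBy A x} = pts A B C := by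
  apply Set.Subset.antisymm
  · rintro E ⟨x, hx, rfl⟩
    exact h.pts_inv hS x hx A A_mem_pts
  · rintro E (⟨b, hb, rfl⟩ | rfl)
    · exact ⟨b, Subgroup.mem_sup_left hb, rfl⟩
    · exact h.exists_conj_C hS

theorem orbit_eq_orbit (hS : IsRootSubgroupSet S) (h : Config S A B C D) :
    {E | ∃ x ∈ B ⊔ D, E = conjBy A x} = {E | ∃ x ∈ B ⊔ D, E = conjBy C x} := by
  have h1 := h.symm.orbit_eq hS
  rw [sup_comm] at h1
  rw [h1, h.orbit_eq hS, h.pts_eq hS]

theorem inf_eq_bot (hS : IsRootSubgroupSet S) (h : Config S A B C D) : A ⊓ C = ⊥ := by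
  rw [eq_bot_iff]
  intro z hz
  rw [Subgroup.mem_bot]
  by_contra hz1
  obtain ⟨b, hb, hb1⟩ := exists_ne_one_of_ne_bot (hS.ne_bot B h.memB)
  have hzc : ∀ x ∈ B ⊔ D, z * x = x * z :=
    commute_sup (fun x hx => (h.commBC hS x hx z hz.2).symm) (fun x hx => (h.commDA hS x hx z hz.1).symm)
  apply central_translate hS h.memD (h.rankOne hS) hzc hz1 b hb hb1
  obtain ⟨a, ha, hab⟩ := exists_comm_left (h.caseAB hS) hb hb1 z (h.eqC ▸ hz.2)
  have e : z * b = a * b * a⁻¹ := by rw [← hab]; group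
  refine ⟨?_, conjBy B a, hS.conj_mem B h.memB a, ?_⟩
  · rw [e]
    intro e2
    apply hb1
    have : b = a⁻¹ * (a * b * a⁻¹) * a := by group
    rw [this, e2]; group
  · rw [e]; exact conj_mem_conjBy hb a

theorem le_N (h : Config S A B C D) : ∀ E ∈ pts A B C, E ≤ A ⊔ C := by
  rintro E (⟨b, hb, rfl⟩ | rfl)
  · have := conjBy_le_sup_commutator (A := A) hb
    rwa [h.eqC] at this
  · exact le_sup_right

theorem isPartition (hS : IsRootSubgroupSet S) (h : Config S A B C D) :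
    IsSubgroupPartition (A ⊔ C) (pts A B C) := by
  refine ⟨h.le_N, ?_, ?_⟩
  · intro x hx _
    have hx' : x ∈ A ⊔ ⁅A, B⁆ := by rw [h.eqC]; exact hx
    rcases cover (h.caseAB hS) hx' with h1 | ⟨b, hb, h1⟩
    · exact ⟨C, Or.inr rfl, h.eqC ▸ h1⟩
    · exact ⟨_, Or.inl ⟨b, hb, rfl⟩, h1⟩
  · intro E₁ hE₁ E₂ hE₂ hne
    have hE₁' := hE₁
    rw [← h.orbit_eq hS] at hE₁'
    obtain ⟨x, hx, rfl⟩ := hE₁'
    have h2 : conjBy E₂ x⁻¹ ∈ pts A B C := h.pts_inv hS _ (Subgroup.inv_mem _ hx) _ hE₂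
    rw [h.pts_eq hS] at h2
    have h3 : A ⊓ conjBy E₂ x⁻¹ = ⊥ := by
      rcases h2 with ⟨d, hd, hd2⟩ | hd2
      · rw [← hd2]
        show A ⊓ conjBy C d = ⊥
        conv_lhs => rw [← h.conjBy_A_of_D hS hd]
        rw [← conjBy_inf, h.inf_eq_bot hS, conjBy_bot]
      · exfalso
        apply hne
        have : conjBy E₂ x⁻¹ = A := hd2
        rw [conjBy_eq_iff, inv_inv] at this
        exact this.symm
    have h4 : conjBy (A ⊓ conjBy E₂ x⁻¹) x = ⊥ := by rw [h3, conjBy_bot]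
    rwa [conjBy_inf, conjBy_conjBy_inv] at h4

theorem conjBy_N (hS : IsRootSubgroupSet S) (h : Config S A B C D) :
    ∀ x ∈ B ⊔ D, conjBy (A ⊔ C) x ≤ A ⊔ C := by
  apply sup_induction
  · intro b hb; exact h.conjBy_N_of_B hS hb
  · intro d hd; exact h.conjBy_N_of_D hS hd
  · intro x y hx hy
    rw [← conjBy_conjBy]
    exact le_trans (conjBy_mono hy x) hx

theorem central (hS : IsRootSubgroupSet S) (h : Config S A B C D) :
    ∀ x ∈ (B ⊔ D) ⊓ Subgroup.centralizer ((A ⊔ C : Subgroup G) : Set G), ∀ y ∈ B ⊔ D,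
      x * y = y * x := by
  have hr := h.rankOne hS
  have key : ∀ x ∈ (B ⊔ D) ⊓ Subgroup.centralizer ((A ⊔ C : Subgroup G) : Set G),
      conjBy B x = B := by
    intro x hx
    have hm : conjBy B x ∈ unipotentSubgroups B D := conj_mem_unipotent left_mem_unipotent hx.1
    rcases (mem_unipotent_iff hr).mp hm with h1 | ⟨b, hb, h1⟩
    · exact h1
    · exfalso
      apply hS.ne_bot A h.memA
      rw [← h.eqA, commutator_eq_bot_iff']
      intro c hc d hd
      have hxc : ∀ c ∈ C, x * c = c * x := by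
        intro c hc
        have : x ∈ Subgroup.centralizer ((A ⊔ C : Subgroup G) : Set G) := hx.2
        rw [Subgroup.mem_centralizer_iff] at this
        exact (this c (Subgroup.mem_sup_right hc)).symm
      -- b d b⁻¹ ∈ conjBy B x
      have h2 : b * d * b⁻¹ ∈ conjBy B x := by rw [h1]; exact conj_mem_conjBy hd b
      rw [mem_conjBy] at h2
      have h3 := h.commBC hS _ h2 c hc
      have h4 := hxc c hc
      have h5 := h.commBC hS b hb c hc
      have h4' : x⁻¹ * c = c * x⁻¹ := by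
        calc x⁻¹ * c = x⁻¹ * (c * x) * x⁻¹ := by group
          _ = x⁻¹ * (x * c) * x⁻¹ := by rw [h4]
          _ = _ := by group
      have h5' : b⁻¹ * c = c * b⁻¹ := by
        calc b⁻¹ * c = b⁻¹ * (c * b) * b⁻¹ := by group
          _ = b⁻¹ * (b * c) * b⁻¹ := by rw [h5]
          _ = _ := by group
      have h6 : (b * d * b⁻¹) * c = c * (b * d * b⁻¹) := by
        calc (b * d * b⁻¹) * c = x * ((x⁻¹ * (b * d * b⁻¹) * x) * (x⁻¹ * c)) * 1 := by group
          _ = x * ((x⁻¹ * (b * d * b⁻¹) * x) * (c * x⁻¹)) * 1 := by rw [h4']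
          _ = x * ((x⁻¹ * (b * d * b⁻¹) * x) * c) * x⁻¹ := by group
          _ = x * (c * (x⁻¹ * (b * d * b⁻¹) * x)) * x⁻¹ := by rw [h3]
          _ = (x * c) * (x⁻¹ * (b * d * b⁻¹)) := by group
          _ = (c * x) * (x⁻¹ * (b * d * b⁻¹)) := by rw [h4]
          _ = _ := by group
      calc c * d = b⁻¹ * ((b * c) * d * b⁻¹) * b := by group
        _ = b⁻¹ * ((c * b) * d * b⁻¹) * b := by rw [h5]
        _ = b⁻¹ * (c * (b * d * b⁻¹)) * b := by group
        _ = b⁻¹ * ((b * d * b⁻¹) * c) * b := by rw [h6]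
        _ = d * (b⁻¹ * c) * b := by group
        _ = d * (c * b⁻¹) * b := by rw [h5']
        _ = d * c := by group
  intro x hx
  apply central_of_normalizes hr
  rintro F ⟨y, hy, rfl⟩
  have hx' : y⁻¹ * x * y ∈ (B ⊔ D) ⊓ Subgroup.centralizer ((A ⊔ C : Subgroup G) : Set G) := by
    refine ⟨Subgroup.mul_mem _ (Subgroup.mul_mem _ (Subgroup.inv_mem _ hy) hx.1) hy, ?_⟩
    show y⁻¹ * x * y ∈ Subgroup.centralizer ((A ⊔ C : Subgroup G) : Set G)
    rw [Subgroup.mem_centralizer_iff]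
    intro n hn
    have hn' : y * n * y⁻¹ ∈ A ⊔ C := h.conjBy_N hS y hy (conj_mem_conjBy hn y)
    have : x ∈ Subgroup.centralizer ((A ⊔ C : Subgroup G) : Set G) := hx.2
    rw [Subgroup.mem_centralizer_iff] at this
    have h1 := this _ hn'
    calc n * (y⁻¹ * x * y) = y⁻¹ * ((y * n * y⁻¹) * x) * y := by group
      _ = y⁻¹ * (x * (y * n * y⁻¹)) * y := by rw [h1]
      _ = _ := by group
  have h2 := key _ hx'
  rw [conjBy_conjBy]
  have : x * y = y * (y⁻¹ * x * y) := by group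
  rw [this, ← conjBy_conjBy, h2]

end Config

end Cfsg.Agent.Lib.Helper85Nat
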