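import Mathlib
import Cfsg.Prelude.Def_RootSubgroups
import Cfsg.Agent.Lib.Helper85RankOne

set_option autoImplicit false

namespace Cfsg.Agent.Lib.Helper85Quad

open Cfsg Cfsg.Agent.Lib.Helper85RankOne

variable {X : Type*} [Group X] {N : Type*} [AddCommGroup N] [DistribMulAction X N]

/-- The action as a homomorphism to the endomorphism ring. -/
noncomputable def T (X : Type*) [Group X] (N : Type*) [AddCommGroup N] [DistribMulAction X N] :
    X →* AddMonoid.End N := DistribMulAction.toAddMonoidEnd X N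

theorem T_apply (x : X) (n : N) : T X N x n = x • n := rfl

/-- `U` acts quadratically, in ring form. -/
def Quad (N : Type*) [AddCommGroup N] [DistribMulAction X N] (U : Subgroup X) : Prop :=
  ∀ u ∈ U, ∀ u' ∈ U, (T X N u' - 1) * (T X N u - 1) = 0

theorem quad_of {A : Subgroup X}
    (hq : ∀ a ∈ A, ∀ a' ∈ A, ∀ n : N, a' • (a • n - n) = a • n - n) : Quad N A := by
  intro a ha a' ha'
  ext n
  change a' • (a • n - n) - (a • n - n) = 0
  rw [hq a ha a' ha' n, sub_self]

theorem T_mul_inv (x : X) : T X N x * T X N x⁻¹ = 1 := by rw [← map_mul, mul_inv_cancel, map_one]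

theorem T_inv_mul (x : X) : T X N x⁻¹ * T X N x = 1 := by rw [← map_mul, inv_mul_cancel, map_one]

theorem conj_sub_one (g x : X) :
    T X N (g * x * g⁻¹) - 1 = T X N g * (T X N x - 1) * T X N g⁻¹ := by
  rw [map_mul, map_mul, mul_sub, sub_mul, mul_one, T_mul_inv]

theorem quad_conj {A : Subgroup X} (h : Quad N A) (g : X) : Quad N (conjBy A g) := by
  intro u hu u' hu'
  rw [mem_conjBy] at hu hu'
  have e1 : u = g * (g⁻¹ * u * g) * g⁻¹ := by group
  have e2 : u' = g * (g⁻¹ * u' * g) * g⁻¹ := by group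
  rw [e1, e2, conj_sub_one, conj_sub_one]
  have := h _ hu _ hu'
  calc T X N g * (T X N (g⁻¹ * u' * g) - 1) * T X N g⁻¹ *
        (T X N g * (T X N (g⁻¹ * u * g) - 1) * T X N g⁻¹)
      = T X N g * (T X N (g⁻¹ * u' * g) - 1) * (T X N g⁻¹ * T X N g) *
        (T X N (g⁻¹ * u * g) - 1) * T X N g⁻¹ := by noncomm_ring
    _ = T X N g * ((T X N (g⁻¹ * u' * g) - 1) * (T X N (g⁻¹ * u * g) - 1)) * T X N g⁻¹ := by
        rw [T_inv_mul]; noncomm_ring
    _ = 0 := by rw [this, mul_zero, zero_mul]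

theorem T_inv_of_quad {A : Subgroup X} (h : Quad N A) {a : X} (ha : a ∈ A) :
    T X N a⁻¹ = 1 - (T X N a - 1) := by
  have h1 := h a ha a ha
  have h2 : (1 - (T X N a - 1)) * T X N a = 1 := by
    have : (1 - (T X N a - 1)) * T X N a = 1 - (T X N a - 1) * (T X N a - 1) := by noncomm_ring
    rw [this, h1, sub_zero]
  calc T X N a⁻¹ = ((1 - (T X N a - 1)) * T X N a) * T X N a⁻¹ := by rw [h2, one_mul]
    _ = (1 - (T X N a - 1)) * (T X N a * T X N a⁻¹) := by rw [mul_assoc]
    _ = 1 - (T X N a - 1) := by rw [T_mul_inv, mul_one]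

/-- Key lemma: for partners `a, b` and `b₂ ∈ B`, the operator `ω - βαω` has fixed image. -/
theorem key {A B : Subgroup X} (hA : Quad N A) (hB : Quad N B) {a b : X} (ha : a ∈ A) (hb : b ∈ B)
    (e : conjBy A b⁻¹ = conjBy B a⁻¹) {b₂ : X} (hb₂ : b₂ ∈ B) :
    (∀ a' ∈ A, (T X N a' - 1) * ((T X N b₂ - 1) -
        (T X N b - 1) * ((T X N a - 1) * (T X N b₂ - 1))) = 0) ∧
    (∀ b' ∈ B, (T X N b' - 1) * ((T X N b₂ - 1) -
        (T X N b - 1) * ((T X N a - 1) * (T X N b₂ - 1))) = 0) := by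
  set α := T X N a - 1 with hα
  set β := T X N b - 1 with hβ
  set ω := T X N b₂ - 1 with hω
  -- the element `a₂`
  have hmem : a⁻¹ * b₂ * a⁻¹⁻¹ ∈ conjBy A b⁻¹ := by rw [e]; exact conj_mem_conjBy hb₂ a⁻¹
  rw [mem_conjBy] at hmem
  set a₂ := b⁻¹⁻¹ * (a⁻¹ * b₂ * a⁻¹⁻¹) * b⁻¹ with ha₂
  set μ := T X N b * T X N a⁻¹ with hμ
  set ν := μ * ω with hν
  have hν2 : ν = (T X N a₂ - 1) * μ := by
    have h1 : T X N a₂ * μ = μ * T X N b₂ := by
      rw [hμ, ← map_mul, ← map_mul, ← map_mul]
      congr 1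
      rw [ha₂]; group
    rw [hν, hω, mul_sub, sub_mul, h1, mul_one, one_mul]
  have h3 : T X N a⁻¹ * ω = T X N b⁻¹ * ν := by
    rw [hν, hμ, ← mul_assoc, ← mul_assoc, T_inv_mul, one_mul]
  rw [T_inv_of_quad hA ha, T_inv_of_quad hB hb] at h3
  have h4 : ω + β * ν = ν + α * ω := by
    have h5 : (1 - α) * ω = (1 - β) * ν := h3
    have h6 : ω - α * ω = ν - β * ν := by
      have e1 : (1 - α) * ω = ω - α * ω := by noncomm_ring
      have e2 : (1 - β) * ν = ν - β * ν := by noncomm_ring
      rw [← e1, ← e2, h5]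
    have h7 : ω + β * ν = (ω - α * ω) + α * ω + β * ν := by abel
    rw [h7, h6]; abel
  have hBfix : ∀ b' ∈ B, (T X N b' - 1) * (ω + β * ν) = 0 := by
    intro b' hb'
    rw [mul_add, ← mul_assoc, hB b₂ hb₂ b' hb', hB b hb b' hb', zero_mul, add_zero]
  have hAfix : ∀ a' ∈ A, (T X N a' - 1) * (ω + β * ν) = 0 := by
    intro a' ha'
    have q1 : (T X N a' - 1) * ν = 0 := by
      rw [hν2, ← mul_assoc, hA a₂ hmem a' ha', zero_mul]
    have q2 : (T X N a' - 1) * (α * ω) = 0 := by
      rw [← mul_assoc, hA a ha a' ha', zero_mul]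
    rw [h4, mul_add, q1, q2, add_zero]
  have h8 : β * ν = - (β * (α * ω)) := by
    have h9 : ν = (ω + β * ν) - α * ω := by rw [h4]; abel
    have h10 : β * ν = β * (ω + β * ν) - β * (α * ω) := by
      conv_lhs => rw [h9]
      rw [mul_sub]
    rw [h10, hBfix b hb, zero_sub]
  have h11 : ω - β * (α * ω) = ω + β * ν := by rw [h8]; abel
  rw [h11]
  exact ⟨hAfix, hBfix⟩

/-- The elements `x` with `[N, x]` fixed by `X`. -/
def K2 (X : Type*) [Group X] (N : Type*) [AddCommGroup N] [DistribMulAction X N] : Subgroup X where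
  carrier := {x | ∀ y : X, (T X N y - 1) * (T X N x - 1) = 0}
  one_mem' := by
    intro y
    rw [map_one, sub_self, mul_zero]
  mul_mem' := by
    intro x x' hx hx' y
    have e : T X N (x * x') - 1 = (T X N x - 1) * T X N x' + (T X N x' - 1) := by
      rw [map_mul]; noncomm_ring
    rw [e, mul_add, ← mul_assoc, hx y, hx' y, zero_mul, add_zero]
  inv_mem' := by
    intro x hx y
    have e : T X N x⁻¹ - 1 = - ((T X N x - 1) * T X N x⁻¹) := by
      rw [sub_mul, T_mul_inv]; noncomm_ring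
    rw [e, mul_neg, ← mul_assoc, hx y, zero_mul, neg_zero]

theorem K2_normal : (K2 X N).Normal := by
  constructor
  intro x hx g y
  rw [conj_sub_one]
  have e : (T X N y - 1) * T X N g = T X N g * (T X N (g⁻¹ * y * g) - 1) := by
    rw [map_mul, map_mul, mul_sub, ← mul_assoc, ← mul_assoc, T_mul_inv]; noncomm_ring
  rw [← mul_assoc, ← mul_assoc, e, mul_assoc (T X N g), hx, mul_zero, zero_mul]

/-- Timmesfeld: a rank one group with a quadratic module on which it does not act quadratically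
is special. -/
theorem special_of_quadratic {A B : Subgroup X} (h : IsRankOneGroup X A B)
    (hq : ∀ a ∈ A, ∀ a' ∈ A, ∀ n : N, a' • (a • n - n) = a • n - n)
    (hX : ∃ x y : X, ∃ n : N, y • (x • n - n) ≠ x • n - n) : IsSpecialRankOnePair A B := by
  obtain ⟨htop, hp⟩ := h
  refine ⟨hp, ?_⟩
  have hA : Quad N A := quad_of hq
  have hB : Quad N B := by
    obtain ⟨x, -, hx⟩ := exists_conj_eq_right hp
    rw [← hx]; exact quad_conj hA x
  have hall : ∀ x : X, x ∈ A ⊔ B := fun x => by rw [htop]; trivial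
  -- `K2` is central
  have hK2 : ∀ k ∈ K2 X N, ∀ y : X, k * y = y * k := by
    have hnorm : ∀ x ∈ A ⊔ B, conjBy (K2 X N) x = K2 X N := by
      intro x _
      have := K2_normal (X := X) (N := N)
      rw [conjBy_eq_self_iff, Subgroup.normalizer_eq_top]
      trivial
    rcases normal_dichotomy hp (N := K2 X N) (by rw [htop]; exact le_top) hnorm with h1 | h1
    · exfalso
      obtain ⟨x, y, n, hne⟩ := hX
      apply hne
      -- `A` centralizes `[N, X]`
      have s1 : ∀ x ∈ K2 X N ⊔ A, ∀ a' ∈ A, (T X N a' - 1) * (T X N x - 1) = 0 := by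
        apply sup_induction
        · intro k hk a' _; exact hk a'
        · intro a ha a' ha'; exact hA a ha a' ha'
        · intro x x' hx hx' a' ha'
          have e : T X N (x * x') - 1 = (T X N x - 1) * T X N x' + (T X N x' - 1) := by
            rw [map_mul]; noncomm_ring
          rw [e, mul_add, ← mul_assoc, hx a' ha', hx' a' ha', zero_mul, add_zero]
      have s2 : ∀ x : X, ∀ a' ∈ A, (T X N a' - 1) * (T X N x - 1) = 0 :=
        fun x => s1 x (h1 (hall x))
      have s3 : ∀ x : X, ∀ b' ∈ B, (T X N b' - 1) * (T X N x - 1) = 0 := by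
        obtain ⟨g, -, hg⟩ := exists_conj_eq_right hp
        intro x b' hb'
        rw [← hg, mem_conjBy] at hb'
        have e1 : b' = g * (g⁻¹ * b' * g) * g⁻¹ := by group
        have e2 : T X N g⁻¹ * (T X N x - 1) = (T X N (g⁻¹ * x * g) - 1) * T X N g⁻¹ := by
          rw [map_mul, map_mul, sub_mul, mul_assoc, mul_assoc, T_mul_inv]; noncomm_ring
        rw [e1, conj_sub_one, mul_assoc, e2, mul_assoc (T X N g), ← mul_assoc (T X N _ - 1),
          s2 _ _ hb', zero_mul, mul_zero]
      have s4 : ∀ y ∈ A ⊔ B, ∀ x : X, (T X N y - 1) * (T X N x - 1) = 0 := by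
        apply sup_induction
        · intro a ha x; exact s2 x a ha
        · intro b hb x; exact s3 x b hb
        · intro y y' hy hy' x
          have e : T X N (y * y') - 1 = T X N y * (T X N y' - 1) + (T X N y - 1) := by
            rw [map_mul]; noncomm_ring
          rw [e, add_mul, mul_assoc, hy' x, hy x, mul_zero, add_zero]
      have s5 := s4 y (hall y) x
      have s6 := congrArg (fun f : AddMonoid.End N => f n) s5
      have s7 : y • (x • n - n) - (x • n - n) = 0 := s6
      exact sub_eq_zero.mp s7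
    · intro k hk y
      exact h1 k hk y (hall y)
  intro a ha ha1 b hb hb1 e
  set α := T X N a - 1 with hα
  set β := T X N b - 1 with hβ
  have hαα : α * α = 0 := hA a ha a ha
  have hββ : β * β = 0 := hB b hb b hb
  obtain ⟨k1A, k1B⟩ := key (N := N) hA hB ha hb e hb
  obtain ⟨k2B, k2A⟩ := key (N := N) hB hA hb ha e.symm ha
  -- `θ` has fixed image
  have hθ : ∀ y ∈ A ⊔ B, (T X N y - 1) * ((α - α * (β * α)) + (β - β * (α * β))) = 0 := by
    apply sup_induction
    · intro a' ha'; rw [mul_add, k1A a' ha', k2A a' ha', add_zero]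
    · intro b' hb'; rw [mul_add, k1B b' hb', k2B b' hb', add_zero]
    · intro y y' hy hy'
      have e : T X N (y * y') - 1 = T X N y * (T X N y' - 1) + (T X N y - 1) := by
        rw [map_mul]; noncomm_ring
      rw [e, add_mul, mul_assoc, hy', hy, mul_zero, add_zero]
  set u := b⁻¹ * a * b with hu
  set u' := a⁻¹ * b⁻¹ * a with hu'
  have hTu : T X N u - T X N u' = (α - α * (β * α)) + (β - β * (α * β)) := by
    have ea : T X N a = 1 + α := by rw [hα]; abel
    have eb : T X N b = 1 + β := by rw [hβ]; abel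
    rw [hu, hu', map_mul, map_mul, map_mul, map_mul, T_inv_of_quad hA ha, T_inv_of_quad hB hb,
      ← hα, ← hβ, ea, eb]
    have e1 : (1 - β) * (1 + α) * (1 + β) - (1 - α) * (1 - β) * (1 + α) =
        (α - α * (β * α)) + (β - β * (α * β)) + (α * α - β * β) := by noncomm_ring
    rw [e1, hαα, hββ]; simp
  have hg : u * u'⁻¹ ∈ K2 X N := by
    intro y
    have e1 : T X N (u * u'⁻¹) - 1 = (T X N u - T X N u') * T X N u'⁻¹ := by
      rw [map_mul, sub_mul, T_mul_inv]
    rw [e1, hTu, ← mul_assoc, hθ y (hall y), zero_mul]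
  -- `u u'⁻¹` lies in the unipotent subgroup `conjBy A b⁻¹`
  have huU : u ∈ conjBy A b⁻¹ := by
    have := conj_mem_conjBy ha b⁻¹
    rwa [inv_inv] at this
  have hu'U : u' ∈ conjBy A b⁻¹ := by
    rw [e]
    have := conj_mem_conjBy (B.inv_mem hb) a⁻¹
    rwa [inv_inv] at this
  have hgU : u * u'⁻¹ ∈ conjBy A b⁻¹ := Subgroup.mul_mem _ huU (Subgroup.inv_mem _ hu'U)
  have hUm : conjBy A b⁻¹ ∈ unipotentSubgroups A B :=
    conj_mem_unipotent left_mem_unipotent (Subgroup.mem_sup_right (B.inv_mem hb))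
  have hUA : conjBy A b⁻¹ ≠ A := by
    intro e2
    have := norm_right hp (B.inv_mem hb) e2
    exact hb1 (inv_eq_one.mp this)
  have hp2 := (pair_of_mem hp hUm left_mem_unipotent hUA).1
  have hone : u * u'⁻¹ = 1 :=
    norm_left hp2 hgU (conjBy_eq_of_commute (fun x _ => hK2 _ hg x))
  exact mul_inv_eq_one.mp hone

end Cfsg.Agent.Lib.Helper85Quad
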