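import Mathlib
import Cfsg.Prelude.Def_RootSubgroups
import Cfsg.Agent.Lib.Helper85Nat
import Cfsg.Agent.Lib.Helper85Quad

set_option autoImplicit false

namespace Cfsg.Agent.Lib.Helper85Mod

open Cfsg Cfsg.Agent.Lib.Helper85RankOne Cfsg.Agent.Lib.Helper85Root Cfsg.Agent.Lib.Helper85Comm
  Cfsg.Agent.Lib.Helper85Graph Cfsg.Agent.Lib.Helper85Special Cfsg.Agent.Lib.Helper85Transfer
  Cfsg.Agent.Lib.Helper85Line Cfsg.Agent.Lib.Helper85Nat
open scoped commutatorElement

variable {G : Type*} [Group G] {S : Set (Subgroup G)}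

theorem not_commute_conj {A B : Subgroup G} (h : IsRankOnePair A B) {a : G} (ha : a ∈ A)
    (ha1 : a ≠ 1) : ¬ ∀ x ∈ B, ∀ y ∈ conjBy B a, x * y = y * x := by
  have hne : conjBy B a ≠ B := fun e => ha1 (norm_left h ha e)
  have hm : conjBy B a ∈ unipotentSubgroups A B :=
    conj_mem_unipotent (right_mem_unipotent h) (Subgroup.mem_sup_left ha)
  exact not_commute (pair_of_mem h (right_mem_unipotent h) hm hne.symm).1

theorem isSpecial_of_subgroupOf {A B X : Subgroup G} (hA : A ≤ X) (hB : B ≤ X)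
    (hp : IsRankOnePair A B) (h : IsSpecialRankOnePair (A.subgroupOf X) (B.subgroupOf X)) :
    IsSpecialRankOnePair A B := by
  refine ⟨hp, ?_⟩
  intro a ha ha1 b hb hb1 e
  have h1 := h.2 ⟨a, hA ha⟩ (by simpa [Subgroup.mem_subgroupOf] using ha)
    (by intro e; exact ha1 (congrArg Subtype.val e)) ⟨b, hB hb⟩
    (by simpa [Subgroup.mem_subgroupOf] using hb)
    (by intro e; exact hb1 (congrArg Subtype.val e)) ?_
  · exact congrArg Subtype.val h1
  · apply Subgroup.map_injective X.subtype_injective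
    rw [map_conjBy, map_conjBy, subgroupOf_map hA, subgroupOf_map hB]
    exact e

theorem special_of_module {A B W : Subgroup G} (hp : IsRankOnePair A B)
    (hWc : ∀ w ∈ W, ∀ w' ∈ W, w * w' = w' * w)
    (hn : ∀ x ∈ A ⊔ B, ∀ w ∈ W, x * w * x⁻¹ ∈ W)
    (hq : ∀ a ∈ A, ∀ a' ∈ A, ∀ w ∈ W, a' * (a * w * a⁻¹ * w⁻¹) * a'⁻¹ = a * w * a⁻¹ * w⁻¹)
    (hX : ∃ x ∈ A ⊔ B, ∃ y ∈ A ⊔ B, ∃ w ∈ W,
      y * (x * w * x⁻¹ * w⁻¹) * y⁻¹ ≠ x * w * x⁻¹ * w⁻¹) :
    IsSpecialRankOnePair A B := by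
  let _ : CommGroup ↥W :=
    { (inferInstance : Group ↥W) with mul_comm := fun x y => Subtype.ext (hWc x x.2 y y.2) }
  let _ : DistribMulAction ↥(A ⊔ B) (Additive ↥W) :=
    { smul := fun x w => Additive.ofMul
        (⟨(x : G) * ((Additive.toMul w : ↥W) : G) * (x : G)⁻¹, hn x x.2 _ (Additive.toMul w).2⟩ : ↥W)
      one_smul := by
        intro w
        apply Additive.toMul.injective
        apply Subtype.ext
        show ((1 : ↥(A ⊔ B)) : G) * ((Additive.toMul w : ↥W) : G) * ((1 : ↥(A ⊔ B)) : G)⁻¹ = _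
        simp
      mul_smul := by
        intro x y w
        apply Additive.toMul.injective
        apply Subtype.ext
        show ((x * y : ↥(A ⊔ B)) : G) * ((Additive.toMul w : ↥W) : G) * ((x * y : ↥(A ⊔ B)) : G)⁻¹
          = (x : G) * ((y : G) * ((Additive.toMul w : ↥W) : G) * (y : G)⁻¹) * (x : G)⁻¹
        simp only [Subgroup.coe_mul]
        group
      smul_zero := by
        intro x
        apply Additive.toMul.injective
        apply Subtype.ext
        show (x : G) * ((1 : ↥W) : G) * (x : G)⁻¹ = ((1 : ↥W) : G)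
        simp
      smul_add := by
        intro x w w'
        apply Additive.toMul.injective
        apply Subtype.ext
        show (x : G) * (((Additive.toMul w : ↥W) : G) * ((Additive.toMul w' : ↥W) : G)) * (x : G)⁻¹
          = ((x : G) * ((Additive.toMul w : ↥W) : G) * (x : G)⁻¹) *
            ((x : G) * ((Additive.toMul w' : ↥W) : G) * (x : G)⁻¹)
        group }
  have hsm : ∀ (x : ↥(A ⊔ B)) (w : Additive ↥W),
      ((Additive.toMul (x • w - w) : ↥W) : G)
        = (x : G) * ((Additive.toMul w : ↥W) : G) * (x : G)⁻¹ * ((Additive.toMul w : ↥W) : G)⁻¹ := by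
    intro x w
    rw [toMul_sub, Subgroup.coe_div, div_eq_mul_inv]
    rfl
  have hsm2 : ∀ (x : ↥(A ⊔ B)) (w : Additive ↥W),
      ((Additive.toMul (x • w) : ↥W) : G) = (x : G) * ((Additive.toMul w : ↥W) : G) * (x : G)⁻¹ := by
    intro x w
    rfl
  apply isSpecial_of_subgroupOf (X := A ⊔ B) le_sup_left le_sup_right hp
  apply Cfsg.Agent.Lib.Helper85Quad.special_of_quadratic (N := Additive ↥W)
    (isRankOneGroup_subgroupOf hp)
  · intro a ha a' ha' n
    apply Additive.toMul.injective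
    apply Subtype.ext
    rw [hsm2, hsm]
    exact hq a (by simpa [Subgroup.mem_subgroupOf] using ha) a'
      (by simpa [Subgroup.mem_subgroupOf] using ha') _ (Additive.toMul n).2
  · obtain ⟨x, hx, y, hy, w, hw, hne⟩ := hX
    refine ⟨⟨x, hx⟩, ⟨y, hy⟩, Additive.ofMul ⟨w, hw⟩, ?_⟩
    intro e
    apply hne
    have := congrArg (fun t => ((Additive.toMul t : ↥W) : G)) e
    simp only [hsm2, hsm] at this
    exact this

theorem not_rankOne_of_case (hS : IsRootSubgroupSet S) {A B : Subgroup G} (hB : B ∈ S)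
    (h : RootCommutatorCase S A B) : ¬ IsRankOnePair A B := by
  intro hp
  obtain ⟨a, ha, ha1⟩ := exists_left hp
  exact not_commute_conj hp ha ha1 (commutatorCase_conj_commute (hS.commutative B hB) h ha)

theorem commute_commutator {H K : Subgroup G} {z : G} (hH : ∀ x ∈ H, Commute z x)
    (hK : ∀ y ∈ K, Commute z y) : ∀ c ∈ ⁅H, K⁆, Commute z c := by
  have : ⁅H, K⁆ ≤ Subgroup.centralizer {z} := by
    rw [Subgroup.commutator_le]
    intro x hx y hy
    rw [Subgroup.mem_centralizer_iff]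
    intro w hw
    rw [Set.mem_singleton_iff] at hw
    subst hw
    rw [commutatorElement_def]
    exact (((hH x hx).mul_right (hK y hy)).mul_right (hH x hx).inv_right).mul_right
      (hK y hy).inv_right
  intro c hc
  have h1 := this hc
  rw [Subgroup.mem_centralizer_iff] at h1
  exact h1 z rfl

/-- Lemma N: if `B ∈ Ω_A`, `L` commutes with `A`, `A L` is covered by root elements and
`L ∈ Ψ_B`, then `L ⁅L, B⁆` is a natural module for `⟨A, B⟩`. -/
theorem config_of_line (hS : IsRootSubgroupSet S) {A B L : Subgroup G} (hA : A ∈ S) (hB : B ∈ S)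
    (hL : L ∈ S) (hp : IsRankOnePair A B) (hAL : ∀ a ∈ A, ∀ l ∈ L, a * l = l * a)
    (hcov : ∀ a ∈ A, ∀ l ∈ L, a * l ≠ 1 → a * l ∈ rootElements S)
    (hLB : RootCommutatorCase S L B) : Config S L B ⁅L, B⁆ A := by
  have hM : ⁅L, B⁆ ∈ S := hLB.1
  have hLM : ∀ l ∈ L, ∀ m ∈ ⁅L, B⁆, Commute l m := commutator_commute_left hLB
  have hBM : ∀ b ∈ B, ∀ m ∈ ⁅L, B⁆, Commute b m := commutator_commute_right hLB
  have hLL : ∀ l ∈ L, ∀ l' ∈ L, Commute l l' :=
    Cfsg.Agent.Lib.Helper85RankOne.isMulCommutative_iff.mp (hS.commutative L hL)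
  obtain ⟨a, ha, ha1⟩ := exists_left hp
  obtain ⟨b, hb, hb1, hab⟩ := partner_left hp ha ha1
  have hfB : ∀ l ∈ L, ∀ β ∈ B, Commute (a⁻¹ * (b * l * b⁻¹) * a) β := by
    intro l hl β hβ
    have h1 : a * β * a⁻¹ ∈ conjBy A b := by rw [hab]; exact conj_mem_conjBy hβ a
    rw [mem_conjBy] at h1
    have h2 : Commute l (b⁻¹ * (a * β * a⁻¹) * b) := (hAL _ h1 l hl).symm
    have h3 : Commute (b * l * b⁻¹) (b * (b⁻¹ * (a * β * a⁻¹) * b) * b⁻¹) :=
      (Commute.conj_iff b).mpr h2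
    have h4 : b * (b⁻¹ * (a * β * a⁻¹) * b) * b⁻¹ = a * β * a⁻¹ := by group
    rw [h4] at h3
    have h5 := (Commute.conj_iff a⁻¹).mpr h3
    have h6 : a⁻¹ * (a * β * a⁻¹) * a⁻¹⁻¹ = β := by group
    rw [h6, inv_inv] at h5
    exact h5
  have hm₁ : ∀ l ∈ L, l⁻¹ * (b * l * b⁻¹) ∈ ⁅L, B⁆ := by
    intro l hl
    have := commutator_mem (L.inv_mem hl) hb
    have e : l⁻¹ * (b * l * b⁻¹) = l⁻¹ * b * l⁻¹⁻¹ * b⁻¹ := by group
    rw [e]; exact this
  have hal : ∀ l ∈ L, a⁻¹ * l * a = l := by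
    intro l hl
    rw [mul_assoc, ← hAL a ha l hl]; group
  have hfe : ∀ l ∈ L, a⁻¹ * (b * l * b⁻¹) * a = l * (a⁻¹ * (l⁻¹ * (b * l * b⁻¹)) * a) := by
    intro l hl
    calc a⁻¹ * (b * l * b⁻¹) * a = (a⁻¹ * l * a) * (a⁻¹ * (l⁻¹ * (b * l * b⁻¹)) * a) := by group
      _ = _ := by rw [hal l hl]
  have hfL : ∀ l ∈ L, ∀ l₂ ∈ L, Commute (a⁻¹ * (b * l * b⁻¹) * a) l₂ := by
    intro l hl l₂ hl₂
    have h1 : Commute (b * l * b⁻¹) l₂ := by
      have e : b * l * b⁻¹ = l * (l⁻¹ * (b * l * b⁻¹)) := by group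
      rw [e]
      exact (hLL l hl l₂ hl₂).mul_left (hLM l₂ hl₂ _ (hm₁ l hl)).symm
    have h5 := (Commute.conj_iff a⁻¹).mpr h1
    rw [inv_inv, hal l₂ hl₂] at h5
    exact h5
  have hfM : ∀ l ∈ L, ∀ x ∈ ⁅L, B⁆, Commute (a⁻¹ * (b * l * b⁻¹) * a) x := fun l hl =>
    commute_commutator (hfL l hl) (hfB l hl)
  have hcase : RootCommutatorCase S A ⁅L, B⁆ := by
    rcases hS.pair A hA ⁅L, B⁆ hM with h1 | h1 | h1
    · exfalso
      rw [commutator_eq_bot_iff'] at h1
      apply hS.ne_bot _ hM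
      rw [commutator_eq_bot_iff']
      intro l hl β hβ
      have h2 := hfB l hl (b * β * b⁻¹) (B.mul_mem (B.mul_mem hb hβ) (B.inv_mem hb))
      have h3 : a⁻¹ * (l⁻¹ * (b * l * b⁻¹)) * a = l⁻¹ * (b * l * b⁻¹) := by
        rw [mul_assoc, ← h1 a ha _ (hm₁ l hl)]; group
      rw [hfe l hl, h3] at h2
      have e : l * (l⁻¹ * (b * l * b⁻¹)) = b * l * b⁻¹ := by group
      rw [e] at h2
      exact (Commute.conj_iff b).mp h2
    · exfalso
      apply not_commute_conj h1 (A.inv_mem ha) (by simpa using ha1)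
      intro x hx y hy
      rw [mem_conjBy, inv_inv] at hy
      obtain ⟨l₀, hl₀, hl₀e⟩ := exists_comm_left hLB hb hb1 _ hy
      have hl : l₀⁻¹ ∈ L := L.inv_mem hl₀
      have h2 := hfe l₀⁻¹ hl
      have e1 : l₀⁻¹⁻¹ * (b * l₀⁻¹ * b⁻¹) = a * y * a⁻¹ := by rw [← hl₀e]; group
      rw [e1] at h2
      have e2 : a⁻¹ * (a * y * a⁻¹) * a = y := by group
      rw [e2] at h2
      have e3 : y = l₀ * (a⁻¹ * (b * l₀⁻¹ * b⁻¹) * a) := by rw [h2]; group
      rw [e3]
      exact ((hLM l₀ hl₀ x hx).mul_left (hfM _ hl x hx)).symm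
    · exact h1
  have hAK : ∀ x ∈ A, ∀ k ∈ ⁅A, ⁅L, B⁆⁆, Commute x k := commutator_commute_left hcase
  have hMK : ∀ x ∈ ⁅L, B⁆, ∀ k ∈ ⁅A, ⁅L, B⁆⁆, Commute x k := commutator_commute_right hcase
  have hALbot : A ⊓ L = ⊥ := by
    rcases inf_eq_bot_or_eq hS hB hp L hL with h2 | h2
    · exact h2
    · exfalso
      subst h2
      exact not_rankOne_of_case hS hB hLB hp
  have hle : L ≤ ⁅A, ⁅L, B⁆⁆ := by
    intro l hl
    have hk : a⁻¹ * (l⁻¹ * (b * l * b⁻¹)) * a⁻¹⁻¹ * (l⁻¹ * (b * l * b⁻¹))⁻¹ ∈ ⁅A, ⁅L, B⁆⁆ :=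
      commutator_mem (A.inv_mem ha) (hm₁ l hl)
    set m₁ := l⁻¹ * (b * l * b⁻¹) with hm₁def
    set k := a⁻¹ * m₁ * a⁻¹⁻¹ * m₁⁻¹ with hkdef
    have hfk : a⁻¹ * (b * l * b⁻¹) * a = (l * k) * m₁ := by
      rw [hfe l hl, hkdef, ← hm₁def]; group
    have huB : ∀ β ∈ B, Commute (l * k) β := by
      intro β hβ
      have e : l * k = (a⁻¹ * (b * l * b⁻¹) * a) * m₁⁻¹ := by rw [hfk]; group
      rw [e]
      exact (hfB l hl β hβ).mul_left (hBM β hβ _ (hm₁ l hl)).symm.inv_left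
    have huA : ∀ x ∈ A, Commute (l * k) x := by
      intro x hx
      exact (Commute.mul_left (hAL x hx l hl).symm (hAK x hx k hk).symm)
    have huM : ∀ x ∈ ⁅L, B⁆, Commute (l * k) x := by
      intro x hx
      exact (Commute.mul_left (hLM l hl x hx) (hMK x hx k hk).symm)
    have hu : l * k = 1 := by
      by_contra hu
      obtain ⟨m, hm, hmem⟩ := mul_mem_conjBy hcase ha ha1 (Subgroup.inv_mem _ hk)
      have hp₂ := isRankOnePair_conj hp m
      have hBm : conjBy B m = B := conjBy_eq_of_commute (fun β hβ => (hBM β hβ m hm).symm)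
      rw [hBm] at hp₂
      have hz : ∀ x ∈ conjBy A m ⊔ B, (l * k) * x = x * (l * k) := by
        apply commute_sup
        · intro x hx
          rw [mem_conjBy] at hx
          have h1 := huA _ hx
          have h2 := (Commute.conj_iff m).mpr h1
          have e1 : m * (m⁻¹ * x * m) * m⁻¹ = x := by group
          have e2 : m * (l * k) * m⁻¹ = l * k := by
            rw [← (huM m hm).eq]; group
          rw [e1, e2] at h2
          exact h2
        · exact huB
      have hne : a * k⁻¹ ≠ 1 := by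
        intro e
        have hak : a = k := by
          have := mul_inv_eq_one.mp e
          exact this
        have h3 : a ∈ A ⊓ ⁅A, ⁅L, B⁆⁆ := ⟨ha, by rw [hak]; exact hk⟩
        rw [inf_commutator_eq_bot hS hB hp hcase, Subgroup.mem_bot] at h3
        exact ha1 h3
      apply central_translate hS hB hp₂ hz hu (a * k⁻¹) hmem hne
      have e : l * k * (a * k⁻¹) = a * l := by
        rw [hAL a ha l hl, mul_assoc l k, ← mul_assoc k a, ← (hAK a ha k hk).eq]; group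
      rw [e]
      apply hcov a ha l hl
      intro e2
      have hal' : a = l⁻¹ := eq_inv_of_mul_eq_one_left e2
      have h3 : a ∈ A ⊓ L := ⟨ha, by rw [hal']; exact L.inv_mem hl⟩
      rw [hALbot, Subgroup.mem_bot] at h3
      exact ha1 h3
    have : l = k⁻¹ := eq_inv_of_mul_eq_one_left hu
    rw [this]; exact Subgroup.inv_mem _ hk
  have heq := eq_of_le_commutator hS hA hB hp hcase hL hle
  exact ⟨hL, hB, hM, hA, rfl, by rw [Subgroup.commutator_comm]; exact heq.symm⟩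

theorem _root_.Cfsg.Agent.Lib.Helper85Nat.Config.commNN (hS : IsRootSubgroupSet S)
    {A B C D : Subgroup G} (h : Config S A B C D) :
    ∀ w ∈ A ⊔ C, ∀ w' ∈ A ⊔ C, w * w' = w' * w := by
  have hCC := Cfsg.Agent.Lib.Helper85RankOne.isMulCommutative_iff.mp (hS.commutative C h.memC)
  intro w hw
  apply commute_sup
  · intro a ha
    exact (commute_sup (fun x hx => h.commAA hS a ha x hx) (fun x hx => h.commAC hS a ha x hx)
      w hw).symm
  · intro c hc
    exact (commute_sup (fun x hx => (h.commAC hS x hx c hc).symm) (fun x hx => hCC c hc x hx)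
      w hw).symm

theorem _root_.Cfsg.Agent.Lib.Helper85Nat.Config.special (hS : IsRootSubgroupSet S)
    {A B C D : Subgroup G} (h : Config S A B C D) : IsSpecialRankOnePair B D := by
  apply special_of_module (W := A ⊔ C) (h.rankOne hS) (h.commNN hS)
  · intro x hx w hw
    exact h.conjBy_N hS x hx (conj_mem_conjBy hw x)
  · intro b hb b' hb' w hw
    obtain ⟨a, ha, c, hc, rfl⟩ := mem_sup_of_commute (h.commAC hS) w hw
    have e : b * (a * c) * b⁻¹ * (a * c)⁻¹ = (a * b * a⁻¹ * b⁻¹)⁻¹ := by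
      have h1 := h.commBC hS b hb c hc
      have h2 : c * b⁻¹ = b⁻¹ * c := by
        calc c * b⁻¹ = b⁻¹ * (b * c) * b⁻¹ := by group
          _ = b⁻¹ * (c * b) * b⁻¹ := by rw [h1]
          _ = _ := by group
      calc b * (a * c) * b⁻¹ * (a * c)⁻¹ = b * a * (c * b⁻¹) * c⁻¹ * a⁻¹ := by group
        _ = b * a * (b⁻¹ * c) * c⁻¹ * a⁻¹ := by rw [h2]
        _ = _ := by group
    rw [e]
    have hmem : (a * b * a⁻¹ * b⁻¹)⁻¹ ∈ C := by
      rw [← h.eqC]; exact Subgroup.inv_mem _ (commutator_mem ha hb)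
    rw [h.commBC hS b' hb' _ hmem]; group
  · have hex : ∃ c ∈ C, ∃ d ∈ D, c * d ≠ d * c := by
      by_contra hcon
      push Not at hcon
      apply hS.ne_bot A h.memA
      rw [← h.eqA, commutator_eq_bot_iff']
      exact hcon
    obtain ⟨c, hc, d, hd, hcd⟩ := hex
    obtain ⟨b, hb, hb1⟩ := exists_ne_one_of_ne_bot (hS.ne_bot B h.memB)
    obtain ⟨a, ha, hab⟩ := exists_comm_left (h.caseAB hS) hb hb1 c⁻¹
      (by rw [h.eqC]; exact C.inv_mem hc)
    refine ⟨b, Subgroup.mem_sup_left hb, d, Subgroup.mem_sup_right hd, a, Subgroup.mem_sup_left ha, ?_⟩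
    have e : b * a * b⁻¹ * a⁻¹ = c := by
      have : b * a * b⁻¹ * a⁻¹ = (a * b * a⁻¹ * b⁻¹)⁻¹ := by group
      rw [this, hab, inv_inv]
    rw [e]
    intro e2
    apply hcd
    calc c * d = (d * c * d⁻¹) * d := by rw [e2]
      _ = d * c := by group

theorem case_conj (hS : IsRootSubgroupSet S) {A D : Subgroup G} (hA : A ∈ S) (hD : D ∈ S)
    (h : RootCommutatorCase S A D) (g : G) : RootCommutatorCase S (conjBy A g) (conjBy D g) := by
  apply commutatorCase_of_mem hS (hS.conj_mem A hA g) (hS.conj_mem D hD g)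
  rw [← conjBy_commutator]
  exact hS.conj_mem _ h.1 g

theorem exists_case_of_class (hS : IsRootSubgroupClass S)
    (hnd : ∃ A ∈ S, ∃ B ∈ S, RootCommutatorCase S A B) {A : Subgroup G} (hA : A ∈ S) :
    ∃ D ∈ S, RootCommutatorCase S A D := by
  obtain ⟨A₀, hA₀, D₀, hD₀, h⟩ := hnd
  obtain ⟨g, rfl⟩ := hS.2.2 A₀ hA₀ A hA
  exact ⟨_, hS.1.conj_mem D₀ hD₀ g, case_conj hS.1 hA₀ hD₀ h g⟩

theorem exists_rankOne_of_class (hS : IsRootSubgroupClass S)
    (hnd : ∃ A ∈ S, ∃ B ∈ S, IsRankOnePair A B) {A : Subgroup G} (hA : A ∈ S) :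
    ∃ B ∈ S, IsRankOnePair A B := by
  obtain ⟨A₀, hA₀, D₀, hD₀, h⟩ := hnd
  obtain ⟨g, rfl⟩ := hS.2.2 A₀ hA₀ A hA
  exact ⟨_, hS.1.conj_mem D₀ hD₀ g, isRankOnePair_conj h g⟩

theorem line_sup_eq (hS : IsRootSubgroupSet S) {A A' D E : Subgroup G} (hA : A ∈ S) (hA' : A' ∈ S)
    (hp : IsRankOnePair A A') (h : RootCommutatorCase S A D)
    (hE : E ∈ membersIn S (A ⊔ ⁅A, D⁆)) (hne : E ≠ A) : A ⊔ E = A ⊔ ⁅A, D⁆ := by
  apply le_antisymm (sup_le le_sup_left hE.2)
  refine sup_le le_sup_left ?_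
  have hE' := hE
  rw [membersIn_eq hS hA hA' hp h] at hE'
  rcases hE' with ⟨d, hd, rfl⟩ | rfl
  · have hd1 : d ≠ 1 := by
      rintro rfl
      apply hne
      simp
    intro c hc
    obtain ⟨a, ha, rfl⟩ := exists_comm_left h hd hd1 c hc
    have e : a * d * a⁻¹ * d⁻¹ = a * (d * a⁻¹ * d⁻¹) := by group
    rw [e]
    exact Subgroup.mul_mem _ (Subgroup.mem_sup_left ha)
      (Subgroup.mem_sup_right (conj_mem_conjBy (A.inv_mem ha) d))
  · exact le_sup_right

theorem commute_of_mem_line (hS : IsRootSubgroupSet S) {A D E : Subgroup G} (hA : A ∈ S)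
    (h : RootCommutatorCase S A D) (hE : E ≤ A ⊔ ⁅A, D⁆) : ∀ a ∈ A, ∀ e ∈ E, a * e = e * a := by
  have hcommA := Cfsg.Agent.Lib.Helper85RankOne.isMulCommutative_iff.mp (hS.commutative A hA)
  intro a ha e he
  exact commute_sup (fun x hx => hcommA a ha x hx) (fun x hx => commutator_commute_left h a ha x hx)
    e (hE he)

theorem mem_linePartners_of_mem_line (hS : IsRootSubgroupSet S) {A A' D E : Subgroup G}
    (hA : A ∈ S) (hA' : A' ∈ S) (hp : IsRankOnePair A A') (h : RootCommutatorCase S A D)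
    (hE : E ∈ membersIn S (A ⊔ ⁅A, D⁆)) (hne : E ≠ A) : E ∈ linePartners S A := by
  refine ⟨⟨hE.1, hne, commutator_eq_bot_iff'.mpr (commute_of_mem_line hS hA h hE.2)⟩, ?_⟩
  rw [line_sup_eq hS hA hA' hp h hE hne]
  exact isPartition hS hA hA' hp h

theorem exists_config (hS : IsRootSubgroupSet S) {A B D : Subgroup G} (hA : A ∈ S) (hB : B ∈ S)
    (hp : IsRankOnePair A B) (h : RootCommutatorCase S A D) :
    ∃ L ∈ linePartners S A, L ∈ membersIn S (A ⊔ ⁅A, D⁆) ∧ Config S L B ⁅L, B⁆ A := by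
  obtain ⟨E, hE, hne, -, hEB⟩ := exists_line_commutator hS hA hB hp h
  refine ⟨E, mem_linePartners_of_mem_line hS hA hB hp h hE hne, hE, ?_⟩
  apply config_of_line hS hA hB hE.1 hp (commute_of_mem_line hS hA h hE.2) ?_ hEB
  intro a ha l hl hne1
  obtain ⟨E', hE', hmem⟩ := cover_member hS hA h
    (Subgroup.mul_mem _ (Subgroup.mem_sup_left ha) (hE.2 hl))
  exact ⟨hne1, E', hE'.1, hmem⟩

end Cfsg.Agent.Lib.Helper85Mod
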