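import Mathlib
import Cfsg.Prelude.Def_RootSubgroups
import Cfsg.Agent.Lib.Helper85Mod

set_option autoImplicit false

namespace Cfsg.Agent.Lib.Helper85Line2

open Cfsg Cfsg.Agent.Lib.Helper85RankOne Cfsg.Agent.Lib.Helper85Root Cfsg.Agent.Lib.Helper85Comm
  Cfsg.Agent.Lib.Helper85Graph Cfsg.Agent.Lib.Helper85Special Cfsg.Agent.Lib.Helper85Transfer
  Cfsg.Agent.Lib.Helper85Line Cfsg.Agent.Lib.Helper85Nat Cfsg.Agent.Lib.Helper85Mod
open scoped commutatorElement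

variable {G : Type*} [Group G] {S : Set (Subgroup G)}

theorem line_comm (hS : IsRootSubgroupSet S) {A B : Subgroup G} (hA : A ∈ S)
    (hB : B ∈ linePartners S A) : ∀ w ∈ A ⊔ B, ∀ w' ∈ A ⊔ B, w * w' = w' * w := by
  have hAA := Cfsg.Agent.Lib.Helper85RankOne.isMulCommutative_iff.mp (hS.commutative A hA)
  have hBB := Cfsg.Agent.Lib.Helper85RankOne.isMulCommutative_iff.mp (hS.commutative B hB.1.1)
  have hAB := commutator_eq_bot_iff'.mp hB.1.2.2
  intro w hw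
  apply commute_sup
  · intro a ha
    exact (commute_sup (fun x hx => hAA a ha x hx) (fun x hx => hAB a ha x hx) w hw).symm
  · intro c hc
    exact (commute_sup (fun x hx => (hAB x hx c hc).symm) (fun x hx => hBB c hc x hx) w hw).symm

theorem left_mem_line {A B : Subgroup G} (hA : A ∈ S) : A ∈ membersIn S (A ⊔ B) := ⟨hA, le_sup_left⟩

theorem right_mem_line {A B : Subgroup G} (hB : B ∈ linePartners S A) : B ∈ membersIn S (A ⊔ B) :=
  ⟨hB.1.1, le_sup_right⟩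

/-- a point of a line through `A` other than `A` never commutes with an opposite of `A`. -/
theorem line_not_commute (hS : IsRootSubgroupSet S) {A A' B E : Subgroup G} (hA : A ∈ S)
    (hA' : A' ∈ S) (hp : IsRankOnePair A A') (hB : B ∈ linePartners S A)
    (hE : E ∈ membersIn S (A ⊔ B)) (hne : E ≠ A) : ¬ ∀ e ∈ E, ∀ x ∈ A', e * x = x * e := by
  intro hc
  obtain ⟨z, hz, hz1⟩ := exists_ne_one_of_ne_bot (hS.ne_bot E hE.1)
  obtain ⟨a, ha, ha1⟩ := exists_left hp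
  have hzc : ∀ x ∈ A ⊔ A', z * x = x * z :=
    commute_sup (fun x hx => line_comm hS hA hB z (hE.2 hz) x (Subgroup.mem_sup_left hx))
      (fun x hx => hc z hz x hx)
  apply central_translate hS hA' hp hzc hz1 a ha ha1
  have hza : z * a ∈ A ⊔ B := Subgroup.mul_mem _ (hE.2 hz) (Subgroup.mem_sup_left ha)
  have hza1 : z * a ≠ 1 := by
    intro e
    have h3 : a ∈ E ⊓ A := by
      refine ⟨?_, ha⟩
      have : a = z⁻¹ := eq_inv_of_mul_eq_one_right e
      rw [this]; exact E.inv_mem hz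
    rw [hB.2.2.2 E hE A (left_mem_line hA) hne, Subgroup.mem_bot] at h3
    exact ha1 h3
  obtain ⟨E', hE', hmem⟩ := hB.2.2.1 _ hza hza1
  exact ⟨hza1, E', hE'.1, hmem⟩

theorem line_config (hS : IsRootSubgroupSet S) {A A' B E : Subgroup G} (hA : A ∈ S)
    (hA' : A' ∈ S) (hp : IsRankOnePair A A') (hB : B ∈ linePartners S A)
    (hE : E ∈ membersIn S (A ⊔ B)) (hne : E ≠ A) (hnr : ¬ IsRankOnePair E A') :
    Config S E A' ⁅E, A'⁆ A := by
  have hcase : RootCommutatorCase S E A' := by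
    rcases hS.pair E hE.1 A' hA' with h1 | h1 | h1
    · exact absurd (commutator_eq_bot_iff'.mp h1) (line_not_commute hS hA hA' hp hB hE hne)
    · exact absurd h1 hnr
    · exact h1
  apply config_of_line hS hA hA' hE.1 hp
    (fun a ha l hl => line_comm hS hA hB a (Subgroup.mem_sup_left ha) l (hE.2 hl)) ?_ hcase
  intro a ha l hl hne1
  obtain ⟨E', hE', hmem⟩ := hB.2.2.1 _
    (Subgroup.mul_mem _ (Subgroup.mem_sup_left ha) (hE.2 hl)) hne1
  exact ⟨hne1, E', hE'.1, hmem⟩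

/-- For a line `A B` there is `M ∈ S` with `⁅A, M⁆` a point of the line and `A ⁅A, M⁆ = A B`. -/
theorem exists_line_root (hS : IsRootSubgroupSet S) {A A' B : Subgroup G} (hA : A ∈ S)
    (hA' : A' ∈ S) (hp : IsRankOnePair A A') (hB : B ∈ linePartners S A) :
    ∃ M ∈ S, RootCommutatorCase S A M ∧ A ⊔ ⁅A, M⁆ = A ⊔ B := by
  by_cases hBr : IsRankOnePair B A'
  · obtain ⟨f, hf, hf1⟩ := exists_left hBr
    obtain ⟨β, hβ⟩ := exists_partner_left hBr hf hf1
    obtain ⟨a, ha⟩ := exists_partner_right hp hβ.memB hβ.neB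
    have h1 := rc_commutator_eq_bot hB.1.2.2 β
    rw [ha.eq, hβ.eq] at h1
    have h2 := rc_commutator_eq_bot h1 f⁻¹
    rw [rc_rc, rc_rc, mul_inv_cancel, rc_one] at h2
    have hw : a * f⁻¹ ∈ A ⊔ B :=
      Subgroup.mul_mem _ (Subgroup.mem_sup_left ha.memA)
        (Subgroup.inv_mem _ (Subgroup.mem_sup_right hf))
    have hw1 : a * f⁻¹ ≠ 1 := by
      intro e
      have haf : a = f := mul_inv_eq_one.mp e
      have h3 : a ∈ B ⊓ A := ⟨by rw [haf]; exact hf, ha.memA⟩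
      rw [hB.2.2.2 B (right_mem_line hB) A (left_mem_line hA) hB.1.2.1, Subgroup.mem_bot] at h3
      exact ha.neA h3
    obtain ⟨E, hE, hwE⟩ := hB.2.2.1 _ hw hw1
    have hnr : ¬ IsRankOnePair E A' := by
      intro hEB
      have hne : rc A' (a * f⁻¹) ≠ A' := by
        intro e
        have := norm_left hEB (E.inv_mem hwE) e
        exact hw1 (inv_eq_one.mp this)
      have hm : rc A' (a * f⁻¹) ∈ unipotentSubgroups E A' :=
        rc_mem_unipotent (right_mem_unipotent hEB) (Subgroup.mem_sup_left hwE)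
      have hp2 := (pair_of_mem hEB hm (right_mem_unipotent hEB) hne).1
      exact not_commute hp2 (commutator_eq_bot_iff'.mp h2)
    have hEA : E ≠ A := by rintro rfl; exact hnr hp
    have hc := line_config hS hA hA' hp hB hE hEA hnr
    have hcase : RootCommutatorCase S A ⁅E, A'⁆ := commutatorCase_symm (hc.symm.caseAB hS)
    have hEeq : ⁅A, ⁅E, A'⁆⁆ = E := by rw [Subgroup.commutator_comm]; exact hc.eqA
    refine ⟨_, hc.memC, hcase, ?_⟩
    rw [hEeq]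
    apply le_antisymm (sup_le le_sup_left hE.2)
    refine sup_le le_sup_left ?_
    have hfm : f ∈ A ⊔ ⁅A, ⁅E, A'⁆⁆ := by
      rw [hEeq]
      have e : f = (a * f⁻¹)⁻¹ * a := by group
      rw [e]
      exact Subgroup.mul_mem _ (Subgroup.inv_mem _ (Subgroup.mem_sup_right hwE))
        (Subgroup.mem_sup_left ha.memA)
    obtain ⟨P, hP, hfP⟩ := cover_member hS hA hcase hfm
    rw [hEeq] at hP
    have hP' : P ∈ membersIn S (A ⊔ B) := ⟨hP.1, le_trans hP.2 (sup_le le_sup_left hE.2)⟩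
    have hBP : B = P := by
      by_contra hne
      have h3 : f ∈ B ⊓ P := ⟨hf, hfP⟩
      rw [hB.2.2.2 B (right_mem_line hB) P hP' hne, Subgroup.mem_bot] at h3
      exact hf1 h3
    rw [hBP]; exact hP.2
  · have hc := line_config hS hA hA' hp hB (right_mem_line hB) hB.1.2.1 hBr
    have hcase : RootCommutatorCase S A ⁅B, A'⁆ := commutatorCase_symm (hc.symm.caseAB hS)
    have hEeq : ⁅A, ⁅B, A'⁆⁆ = B := by rw [Subgroup.commutator_comm]; exact hc.eqA
    exact ⟨_, hc.memC, hcase, by rw [hEeq]⟩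

theorem conjBy_eq_of_le {V M : Subgroup G} (h : ∀ m ∈ M, conjBy V m ≤ V) :
    ∀ m ∈ M, conjBy V m = V := by
  intro m hm
  apply le_antisymm (h m hm)
  have := conjBy_mono (h m⁻¹ (M.inv_mem hm)) m
  rwa [conjBy_conjBy_inv] at this

theorem root_normalizes {A M : Subgroup G} : ∀ m ∈ M, conjBy (A ⊔ ⁅A, M⁆) m = A ⊔ ⁅A, M⁆ := by
  apply conjBy_eq_of_le
  intro m hm
  rw [conjBy_sup, conjBy_normalizes_commutator (Subgroup.mem_sup_right hm)]
  exact sup_le (conjBy_le_sup_commutator hm) le_sup_right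

theorem line_two_transitive (hS : IsRootSubgroupSet S)
    (hF : ∀ A ∈ S, ¬ IsIsolatedIn (FAdj S) S A) {A B : Subgroup G} (hA : A ∈ S)
    (hB : B ∈ linePartners S A) :
    ∀ C₁ ∈ membersIn S (A ⊔ B), ∀ C₂ ∈ membersIn S (A ⊔ B), ∀ D₁ ∈ membersIn S (A ⊔ B),
      ∀ D₂ ∈ membersIn S (A ⊔ B), C₁ ≠ C₂ → D₁ ≠ D₂ →
        ∃ x ∈ ⨆ E ∈ normalizingMembers S (A ⊔ B), E, conjBy C₁ x = D₁ ∧ conjBy C₂ x = D₂ := by
  obtain ⟨A', hA', hp⟩ := exists_partner (hF A hA) hA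
  obtain ⟨M, hM, hcase, hV⟩ := exists_line_root hS hA hA' hp hB
  have hE : ⁅A, M⁆ ∈ S := hcase.1
  obtain ⟨E', hE', hpE⟩ := exists_partner (hF _ hE) hE
  have hAl : A ∈ linePartners S ⁅A, M⁆ := mem_linePartners hS hA hA' hp hcase
  obtain ⟨M₂, hM₂, hcase₂, hV₂⟩ := exists_line_root hS hE hE' hpE hAl
  have hV₂' : ⁅A, M⁆ ⊔ ⁅⁅A, M⁆, M₂⁆ = A ⊔ B := by rw [hV₂, sup_comm, hV]
  set R := ⨆ E ∈ normalizingMembers S (A ⊔ B), E with hR
  have hMR : M ≤ R := by
    refine le_iSup₂ (f := fun (E : Subgroup G) (_ : E ∈ normalizingMembers S (A ⊔ B)) => E) M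
      ⟨hM, ?_⟩
    intro m hm
    rw [← conjBy_eq_self_iff, ← hV]
    exact root_normalizes m hm
  have hM₂R : M₂ ≤ R := by
    refine le_iSup₂ (f := fun (E : Subgroup G) (_ : E ∈ normalizingMembers S (A ⊔ B)) => E) M₂
      ⟨hM₂, ?_⟩
    intro m hm
    rw [← conjBy_eq_self_iff, ← hV₂']
    exact root_normalizes m hm
  have hl₁ : membersIn S (A ⊔ B) = (fun b : G => conjBy A b) '' (M : Set G) ∪ {⁅A, M⁆} := by
    rw [← hV]; exact membersIn_eq hS hA hA' hp hcase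
  have hl₂ : membersIn S (A ⊔ B) =
      (fun b : G => conjBy ⁅A, M⁆ b) '' (M₂ : Set G) ∪ {⁅⁅A, M⁆, M₂⁆} := by
    rw [← hV₂']; exact membersIn_eq hS hE hE' hpE hcase₂
  have hRn : ∀ x ∈ R, conjBy (A ⊔ B) x = A ⊔ B := by
    intro x hx
    rw [conjBy_eq_self_iff]
    have : R ≤ Subgroup.normalizer ((A ⊔ B : Subgroup G) : Set G) := iSup₂_le (fun E hE => hE.2)
    exact this hx
  have hRl : ∀ x ∈ R, ∀ P ∈ membersIn S (A ⊔ B), conjBy P x ∈ membersIn S (A ⊔ B) := by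
    intro x hx P hP
    refine ⟨hS.conj_mem P hP.1 x, ?_⟩
    have := conjBy_mono hP.2 x
    rwa [hRn x hx] at this
  have hEM : ∀ m ∈ M, conjBy ⁅A, M⁆ m = ⁅A, M⁆ := fun m hm =>
    conjBy_normalizes_commutator (Subgroup.mem_sup_right hm)
  have step1 : ∀ C ∈ membersIn S (A ⊔ B), ∃ x ∈ R, conjBy C x = ⁅A, M⁆ := by
    intro C hC
    have hC' := hC
    rw [hl₂] at hC'
    rcases hC' with ⟨m₂, hm₂, rfl⟩ | hC'
    · exact ⟨m₂⁻¹, R.inv_mem (hM₂R hm₂), conjBy_inv_conjBy _ _⟩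
    · have hCeq : C = ⁅⁅A, M⁆, M₂⁆ := hC'
      have hCne : C ≠ ⁅A, M⁆ := by rw [hCeq]; exact (ne_commutator hS hcase₂).symm
      have hC'' := hC
      rw [hl₁] at hC''
      rcases hC'' with ⟨m, hm, hmC⟩ | hC''
      · obtain ⟨m', hm', hm'1⟩ := exists_ne_one_of_ne_bot (hS.ne_bot M hM)
        have hMM := Cfsg.Agent.Lib.Helper85RankOne.isMulCommutative_iff.mp (hS.commutative M hM)
        have hPne : conjBy C m' ≠ C := by
          intro e
          rw [← hmC] at e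
          change conjBy (conjBy A m) m' = conjBy A m at e
          rw [conjBy_conjBy, hMM m' hm' m hm, ← conjBy_conjBy, conjBy_inj] at e
          exact conjBy_ne_self hS hA' hp hcase hm' hm'1 e
        have hPl := hRl m' (hMR hm') C hC
        rw [hl₂] at hPl
        rcases hPl with ⟨m₂, hm₂, hm₂e⟩ | hPl
        · refine ⟨m₂⁻¹ * m', R.mul_mem (R.inv_mem (hM₂R hm₂)) (hMR hm'), ?_⟩
          rw [← conjBy_conjBy, ← hm₂e]
          exact conjBy_inv_conjBy _ _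
        · exfalso
          apply hPne
          have : conjBy C m' = ⁅⁅A, M⁆, M₂⁆ := hPl
          rw [this, hCeq]
      · exact absurd hC'' hCne
  have key : ∀ C₁ ∈ membersIn S (A ⊔ B), ∀ C₂ ∈ membersIn S (A ⊔ B), C₁ ≠ C₂ →
      ∃ x ∈ R, conjBy C₁ x = ⁅A, M⁆ ∧ conjBy C₂ x = A := by
    intro C₁ hC₁ C₂ hC₂ hne
    obtain ⟨x₁, hx₁, hx₁e⟩ := step1 C₁ hC₁
    have h2 := hRl x₁ hx₁ C₂ hC₂
    have h2ne : conjBy C₂ x₁ ≠ ⁅A, M⁆ := by
      rw [← hx₁e]
      intro e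
      exact hne (conjBy_inj.mp e).symm
    rw [hl₁] at h2
    rcases h2 with ⟨m, hm, hme⟩ | h2
    · refine ⟨m⁻¹ * x₁, R.mul_mem (R.inv_mem (hMR hm)) hx₁, ?_, ?_⟩
      · rw [← conjBy_conjBy, hx₁e]
        exact hEM _ (M.inv_mem hm)
      · rw [← conjBy_conjBy, ← hme]
        exact conjBy_inv_conjBy _ _
    · exact absurd h2 h2ne
  intro C₁ hC₁ C₂ hC₂ D₁ hD₁ D₂ hD₂ hC hD
  obtain ⟨x, hx, hx1, hx2⟩ := key C₁ hC₁ C₂ hC₂ hC
  obtain ⟨y, hy, hy1, hy2⟩ := key D₁ hD₁ D₂ hD₂ hD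
  refine ⟨y⁻¹ * x, R.mul_mem (R.inv_mem hy) hx, ?_, ?_⟩
  · rw [← conjBy_conjBy, hx1, ← hy1]
    exact conjBy_inv_conjBy _ _
  · rw [← conjBy_conjBy, hx2, ← hy2]
    exact conjBy_inv_conjBy _ _

end Cfsg.Agent.Lib.Helper85Line2
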