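import Mathlib
import Cfsg.Prelude.Def_RootSubgroups
import Cfsg.Agent.Lib.Helper85Line2

set_option autoImplicit false

namespace Cfsg.Agent.Lib.Helper85TI

open Cfsg Cfsg.Agent.Lib.Helper85RankOne Cfsg.Agent.Lib.Helper85Root Cfsg.Agent.Lib.Helper85Comm
  Cfsg.Agent.Lib.Helper85Graph Cfsg.Agent.Lib.Helper85Special Cfsg.Agent.Lib.Helper85Transfer
  Cfsg.Agent.Lib.Helper85Line Cfsg.Agent.Lib.Helper85Nat Cfsg.Agent.Lib.Helper85Mod
  Cfsg.Agent.Lib.Helper85Line2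
open scoped commutatorElement

variable {G : Type*} [Group G] {S : Set (Subgroup G)}

/-- For `C = ⁅A, B⁆ ∈ S` there is `D ∈ S` with `⁅C, D⁆ = A`. -/
theorem exists_config_of_case (hS : IsRootSubgroupSet S)
    (hpart : ∀ A ∈ S, ∃ A' ∈ S, IsRankOnePair A A') {A B : Subgroup G} (hA : A ∈ S) (hB : B ∈ S)
    (h : RootCommutatorCase S A B) : ∃ D ∈ S, Config S A B ⁅A, B⁆ D := by
  obtain ⟨A', hA', hp⟩ := hpart A hA
  obtain ⟨C', hC', hpC⟩ := hpart _ h.1
  have hAl : A ∈ linePartners S ⁅A, B⁆ := mem_linePartners hS hA hA' hp h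
  obtain ⟨M, hM, hcase, hV⟩ := exists_line_root hS h.1 hC' hpC hAl
  have hmem : ⁅⁅A, B⁆, M⁆ ∈ membersIn S (A ⊔ ⁅A, B⁆) :=
    ⟨hcase.1, by rw [sup_comm, ← hV]; exact le_sup_right⟩
  rw [membersIn_eq hS hA hA' hp h] at hmem
  rcases hmem with ⟨b, hb, hbe⟩ | hmem
  · refine ⟨conjBy M b⁻¹, hS.conj_mem M hM _, hA, hB, h.1, hS.conj_mem M hM _, rfl, ?_⟩
    have hCb : conjBy ⁅A, B⁆ b⁻¹ = ⁅A, B⁆ :=
      conjBy_normalizes_commutator (Subgroup.mem_sup_right (B.inv_mem hb))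
    calc ⁅⁅A, B⁆, conjBy M b⁻¹⁆ = ⁅conjBy ⁅A, B⁆ b⁻¹, conjBy M b⁻¹⁆ := by rw [hCb]
      _ = conjBy ⁅⁅A, B⁆, M⁆ b⁻¹ := (conjBy_commutator _ _ _).symm
      _ = conjBy (conjBy A b) b⁻¹ := by rw [← hbe]
      _ = A := conjBy_inv_conjBy _ _
  · exact absurd (Eq.symm hmem) (ne_commutator hS hcase)

/-- the stabilizer of a family of subgroups. -/
def stab (Δ : Set (Subgroup G)) : Subgroup G where
  carrier := {g | ∀ F ∈ Δ, conjBy F g ∈ Δ ∧ conjBy F g⁻¹ ∈ Δ}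
  one_mem' := by
    intro F hF
    simp only [inv_one, conjBy_one]
    exact ⟨hF, hF⟩
  mul_mem' := by
    intro g h hg hh F hF
    constructor
    · rw [← conjBy_conjBy]
      exact (hg _ (hh F hF).1).1
    · rw [mul_inv_rev, ← conjBy_conjBy]
      exact (hh _ (hg F hF).2).2
  inv_mem' := by
    intro g hg F hF
    rw [inv_inv]
    exact ⟨(hg F hF).2, (hg F hF).1⟩

theorem mem_stab {Δ : Set (Subgroup G)} {g : G} :
    g ∈ stab Δ ↔ ∀ F ∈ Δ, conjBy F g ∈ Δ ∧ conjBy F g⁻¹ ∈ Δ := Iff.rfl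

theorem weakTI_abelian (hS : IsRootSubgroupClass S) (hnd : IsNondegenerateRootSet S)
    {Δ : Set (Subgroup G)} (hΔ : IsWeakTISubset S Δ) : IsAbelianFamily Δ := by
  have hS1 := hS.1
  have hpart : ∀ A ∈ S, ∃ A' ∈ S, IsRankOnePair A A' :=
    fun A hA => exists_rankOne_of_class hS hnd.2.1 hA
  have hNΔ : ∀ x ∈ stab Δ, ∀ F ∈ Δ, conjBy F x ∈ Δ := fun x hx F hF => (hx F hF).1
  have F1 : ∀ E ∈ S, ∀ e ∈ E, ∀ F ∈ Δ, conjBy F e ∈ Δ → e ∈ stab Δ := by
    intro E hE e he F hF hFe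
    by_cases he1 : e = 1
    · rw [he1]; exact (stab Δ).one_mem
    · rcases hΔ.2.2.2 e ⟨he1, E, hE, he⟩ with h | h
      · intro F' hF'
        constructor
        · rw [← h]; exact ⟨F', hF', rfl⟩
        · have h2 := hF'
          rw [← h] at h2
          obtain ⟨F'', hF'', rfl⟩ := h2
          rw [conjBy_inv_conjBy]; exact hF''
      · exact absurd hFe (Set.disjoint_left.mp h ⟨F, hF, rfl⟩)
  have F2 : ∀ F ∈ Δ, ∀ E ∈ S, (∀ e ∈ E, ∀ f ∈ F, e * f = f * e) → E ≤ stab Δ := by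
    intro F hF E hE hc e he
    apply F1 E hE e he F hF
    rw [conjBy_eq_of_commute (hc e he)]; exact hF
  have F2' : ∀ F ∈ Δ, F ≤ stab Δ := by
    intro F hF e he
    apply F1 F (hΔ.1 hF) e he F hF
    rw [conjBy_of_mem he]; exact hF
  have F3 : ∀ F ∈ Δ, ∀ L ∈ S, L ≤ stab Δ → IsRankOnePair F L → L ∈ Δ := by
    intro F hF L _ hLN hp
    obtain ⟨x, hx, rfl⟩ := exists_conj_eq_right hp
    exact hNΔ x ((sup_le (F2' F hF) hLN) hx) F hF
  have S2 : ∀ A ∈ Δ, ∀ B ∈ Δ, IsRankOnePair A B → ∀ E ∈ S, RootCommutatorCase S A E →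
      E ≤ stab Δ := by
    intro A hA B hB hp E hE hcase
    have hAS := hΔ.1 hA
    have hBS := hΔ.1 hB
    have hLN : ⁅A, E⁆ ≤ stab Δ :=
      F2 A hA _ hcase.1 (fun e he f hf => (commutator_commute_left hcase f hf e he).symm)
    by_cases hLB : IsRankOnePair B ⁅A, E⁆
    · have hLΔ := F3 B hB _ hcase.1 hLN hLB
      exact F2 _ hLΔ E hE (fun e he f hf => commutator_commute_right hcase e he f hf)
    · intro e he
      apply F1 E hE e he A hA
      obtain ⟨a, ha, ha1⟩ := exists_left hp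
      have hmem : a * (a⁻¹ * e * a⁻¹⁻¹ * e⁻¹) ∈ conjBy A e := by
        have : a * (a⁻¹ * e * a⁻¹⁻¹ * e⁻¹) = e * a * e⁻¹ := by group
        rw [this]; exact conj_mem_conjBy ha e
      have hr : IsRankOnePair (conjBy A e) B :=
        Cfsg.Agent.Lib.Helper85Graph.key hS1 hcase.1
          (commutator_eq_bot_iff'.mpr (commutator_commute_left hcase)) hBS hp hLB ha ha1
          (commutator_mem (A.inv_mem ha) he) (hS1.conj_mem A hAS e) hmem
      have hcN : conjBy A e ≤ stab Δ := by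
        apply F2 A hA _ (hS1.conj_mem A hAS e)
        intro x hx f hf
        exact (commute_of_mem_line hS1 hAS hcase (conjBy_le_sup_commutator he) f hf x hx).symm
      exact F3 B hB _ (hS1.conj_mem A hAS e) hcN (RankOnePair_symm hr)
  have S2' : ∀ A ∈ Δ, ∀ B ∈ Δ, IsRankOnePair A B → ∀ E ∈ S, ¬ IsRankOnePair A E →
      E ≤ stab Δ := by
    intro A hA B hB hp E hE hnr
    rcases hS1.pair A (hΔ.1 hA) E hE with h | h | h
    · exact F2 A hA E hE (fun e he f hf => (commutator_eq_bot_iff'.mp h f hf e he).symm)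
    · exact absurd h hnr
    · exact S2 A hA B hB hp E hE h
  have S3 : ∀ A ∈ Δ, ∀ B ∈ Δ, IsRankOnePair A B → False := by
    intro A hA B hB hp
    have hAS := hΔ.1 hA
    have hBS := hΔ.1 hB
    obtain ⟨C, hC, hAC⟩ := exists_case_of_class hS hnd.2.2 hAS
    have hCN := S2 A hA B hB hp C hC hAC
    obtain ⟨D, hD, hcfg⟩ := exists_config_of_case hS1 hpart hAS hC hAC
    have hDN : D ≤ stab Δ := F2 A hA D hD (hcfg.commDA hS1)
    have hpts : ∀ P ∈ membersIn S (A ⊔ ⁅A, C⁆), ∃ x ∈ stab Δ, P = conjBy A x := by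
      intro P hP
      rw [membersIn_eq hS1 hAS hBS hp hAC] at hP
      rcases hP with ⟨c, hc, rfl⟩ | hP
      · exact ⟨c, hCN hc, rfl⟩
      · obtain ⟨x, hx, hxe⟩ := hcfg.exists_conj_C hS1
        exact ⟨x, (sup_le hCN hDN) hx, by rw [← hxe]; exact hP⟩
    have hall : ∀ E ∈ S, E ≤ stab Δ := by
      intro E hE
      by_cases hAE : IsRankOnePair A E
      · obtain ⟨P, hP, hPE⟩ := exists_not_rankOne hS1 hAS hE hAE hAC
        obtain ⟨x, hx, rfl⟩ := hpts P hP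
        exact S2' _ (hNΔ x hx A hA) _ (hNΔ x hx B hB) (isRankOnePair_conj hp x) E hE hPE
      · exact S2' A hA B hB hp E hE hAE
    have htop : stab Δ = ⊤ := by
      rw [eq_top_iff, ← hS1.generates]
      exact iSup₂_le hall
    apply hΔ.2.2.1
    apply Set.Subset.antisymm hΔ.1
    intro F hF
    obtain ⟨g, rfl⟩ := hS.2.2 A hAS F hF
    exact hNΔ g (by rw [htop]; exact Subgroup.mem_top g) A hA
  intro A hA B hB
  rcases hS1.pair A (hΔ.1 hA) B (hΔ.1 hB) with h | h | h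
  · exact commutator_eq_bot_iff'.mp h
  · exact (S3 A hA B hB h).elim
  · exfalso
    obtain ⟨D, hD, hcfg⟩ := exists_config_of_case hS1 hpart (hΔ.1 hA) (hΔ.1 hB) h
    have hDN : D ≤ stab Δ := F2 A hA D hD (hcfg.commDA hS1)
    exact S3 B hB D (F3 B hB D hD hDN (hcfg.rankOne hS1)) (hcfg.rankOne hS1)

end Cfsg.Agent.Lib.Helper85TI
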