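import Mathlib
import Cfsg.Prelude.Def_RootSubgroups
import Cfsg.Agent.Lib.Helper85TI

set_option autoImplicit false

namespace Cfsg.Agent.Lib.Helper85Incl

open Cfsg Cfsg.Agent.Lib.Helper85RankOne Cfsg.Agent.Lib.Helper85Root Cfsg.Agent.Lib.Helper85Comm
  Cfsg.Agent.Lib.Helper85Graph Cfsg.Agent.Lib.Helper85Special Cfsg.Agent.Lib.Helper85Transfer
  Cfsg.Agent.Lib.Helper85Line Cfsg.Agent.Lib.Helper85Nat Cfsg.Agent.Lib.Helper85Mod
  Cfsg.Agent.Lib.Helper85Line2 Cfsg.Agent.Lib.Helper85TI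
open scoped commutatorElement

variable {G : Type*} [Group G] {S : Set (Subgroup G)}

theorem comm_conj {X Y : Subgroup G} (h : ⁅X, Y⁆ = ⊥) (g : G) : ⁅conjBy X g, conjBy Y g⁆ = ⊥ := by
  rw [← conjBy_commutator, h, conjBy_bot]

/-- The inclusion trick: an equivariant assignment `Φ` with `Φ A ⊆ Φ C`, `A`, `C` commuting and
both opposite to `B`, satisfies `Φ C ⊆ Φ A`. -/
theorem incl_eq {A B C : Subgroup G} (hpA : IsRankOnePair A B) (hpC : IsRankOnePair C B)
    (hAC : ⁅A, C⁆ = ⊥) (Φ : Subgroup G → Set (Subgroup G))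
    (hΦ : ∀ F E : Subgroup G, ∀ g : G, E ∈ Φ F → conjBy E g ∈ Φ (conjBy F g))
    (h : Φ A ⊆ Φ C) : Φ C ⊆ Φ A := by
  have hconj : ∀ F F' : Subgroup G, ∀ g : G, Φ F ⊆ Φ F' → Φ (conjBy F g) ⊆ Φ (conjBy F' g) := by
    intro F F' g hFF E hE
    have h1 := hΦ _ _ g⁻¹ hE
    rw [conjBy_inv_conjBy] at h1
    have h2 := hΦ _ _ g (hFF h1)
    rwa [conjBy_conjBy_inv] at h2
  have hACc := commutator_eq_bot_iff'.mp hAC
  -- (I)
  have I : ∀ b a c : G, conjBy B a = conjBy A b → conjBy B c = conjBy C b →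
      Φ (conjBy B (c⁻¹ * a)) ⊆ Φ B := by
    intro b a c ha hc
    have h1 := hconj _ _ b h
    rw [← ha, ← hc] at h1
    have h2 := hconj _ _ c⁻¹ h1
    rwa [conjBy_conjBy, conjBy_inv_conjBy] at h2
  obtain ⟨b, hb, hb1⟩ := exists_right hpA
  obtain ⟨a, ha, ha1, hab⟩ := partner_right hpA hb hb1
  obtain ⟨c, hc, hc1, hcb⟩ := partner_right hpC hb hb1
  have h1 : ⁅conjBy B a, conjBy B c⁆ = ⊥ := by
    rw [hab, hcb]; exact comm_conj hAC b
  -- conjugate by (c * a)⁻¹ : B^{c⁻¹} and B^{a⁻¹} commute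
  have h2 : ⁅conjBy B c⁻¹, conjBy B a⁻¹⁆ = ⊥ := by
    have h3 := comm_conj h1 (c⁻¹ * a⁻¹)
    rw [conjBy_conjBy, conjBy_conjBy] at h3
    have e1 : c⁻¹ * a⁻¹ * a = c⁻¹ := by group
    have e2 : c⁻¹ * a⁻¹ * c = a⁻¹ := by
      have := hACc a⁻¹ (A.inv_mem ha) c hc
      rw [mul_assoc, this]; group
    rwa [e1, e2] at h3
  obtain ⟨b₁, hb₁, hb₁1, hb₁e⟩ := partner_left hpA (A.inv_mem ha) (by simpa using ha1)
  obtain ⟨b₂, hb₂, hb₂1, hb₂e⟩ := partner_left hpC (C.inv_mem hc) (by simpa using hc1)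
  have hbb : b₁ = b₂ := by
    by_contra hne
    have hβ : b₂⁻¹ * b₁ ∈ B := B.mul_mem (B.inv_mem hb₂) hb₁
    have hβ1 : b₂⁻¹ * b₁ ≠ 1 := by
      intro e
      apply hne
      have := inv_mul_eq_one.mp e
      exact this.symm
    obtain ⟨a', ha', -, ha'e⟩ := partner_right hpA hβ hβ1
    rw [← hb₁e, ← hb₂e] at h2
    have h3 := comm_conj h2 b₂⁻¹
    rw [conjBy_inv_conjBy, conjBy_conjBy, ← ha'e] at h3
    have h4 := comm_conj h3 a'⁻¹
    rw [conjBy_inv_conjBy] at h4
    have hCa : conjBy C a'⁻¹ = C :=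
      conjBy_eq_of_commute (fun x hx => hACc _ (A.inv_mem ha') x hx)
    rw [hCa] at h4
    exact not_commute hpC (commutator_eq_bot_iff'.mp h4)
  subst hbb
  have h3 := I b₁ a⁻¹ c⁻¹ hb₁e.symm hb₂e.symm
  rw [inv_inv] at h3
  -- conj by c⁻¹ * a
  have h4 := hconj _ _ (c⁻¹ * a) h3
  rw [conjBy_conjBy] at h4
  have e3 : c⁻¹ * a * (c * a⁻¹) = 1 := by
    have := hACc a ha c hc
    calc c⁻¹ * a * (c * a⁻¹) = c⁻¹ * (a * c) * a⁻¹ := by group
      _ = c⁻¹ * (c * a) * a⁻¹ := by rw [this]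
      _ = 1 := by group
  rw [e3, conjBy_one] at h4
  have h5 := hconj _ _ c h4
  rw [conjBy_conjBy] at h5
  have e4 : c * (c⁻¹ * a) = a := by group
  rw [e4, hab, hcb] at h5
  have h6 := hconj _ _ b⁻¹ h5
  rwa [conjBy_inv_conjBy, conjBy_inv_conjBy] at h6

theorem centralizingMembers_conj (hS : IsRootSubgroupSet S) (F E : Subgroup G) (g : G)
    (hE : E ∈ centralizingMembers S F) : conjBy E g ∈ centralizingMembers S (conjBy F g) := by
  refine ⟨hS.conj_mem E hE.1 g, ?_⟩
  intro x hx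
  rw [Subgroup.mem_centralizer_iff]
  intro y hy
  have hy' : y ∈ conjBy F g := hy
  rw [mem_conjBy] at hx hy'
  have h1 := hE.2 hx
  rw [Subgroup.mem_centralizer_iff] at h1
  have h2 := h1 _ hy'
  calc y * x = g * ((g⁻¹ * y * g) * (g⁻¹ * x * g)) * g⁻¹ := by group
    _ = g * ((g⁻¹ * x * g) * (g⁻¹ * y * g)) * g⁻¹ := by rw [h2]
    _ = x * y := by group

theorem rankOnePartners_conj (hS : IsRootSubgroupSet S) (F E : Subgroup G) (g : G)
    (hE : E ∈ rankOnePartners S F) : conjBy E g ∈ rankOnePartners S (conjBy F g) :=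
  ⟨hS.conj_mem E hE.1 g, isRankOnePair_conj hE.2 g⟩

theorem mem_centralizingMembers_iff {A E : Subgroup G} :
    E ∈ centralizingMembers S A ↔ E ∈ S ∧ ∀ e ∈ E, ∀ a ∈ A, e * a = a * e := by
  constructor
  · rintro ⟨h1, h2⟩
    refine ⟨h1, ?_⟩
    intro e he a ha
    have := h2 he
    rw [Subgroup.mem_centralizer_iff] at this
    exact (this a ha).symm
  · rintro ⟨h1, h2⟩
    refine ⟨h1, ?_⟩
    intro e he
    rw [Subgroup.mem_centralizer_iff]
    intro a ha
    exact (h2 e he a ha).symm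

/-- in a class with two different members which is degenerate or non-degenerate, every member has
an opposite. -/
theorem exists_opposite (hS : IsRootSubgroupClass S)
    (hdn : IsDegenerateRootSet S ∨ IsNondegenerateRootSet S) {A C : Subgroup G} (hA : A ∈ S)
    (hC : C ∈ S) (hAC : A ≠ C) : ∃ B ∈ S, IsRankOnePair C B := by
  rcases hdn with hd | hnd
  · by_contra hcon
    push Not at hcon
    have hall : ∀ F ∈ S, F ≤ Subgroup.centralizer (C : Set G) := by
      intro F hF
      rcases hS.1.pair C hC F hF with h | h | h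
      · intro f hf
        rw [Subgroup.mem_centralizer_iff]
        intro c hc
        exact commutator_eq_bot_iff'.mp h c hc f hf
      · exact absurd h (hcon F hF)
      · exact absurd h (hd C hC F hF)
    have htop : Subgroup.centralizer (C : Set G) = ⊤ := by
      rw [eq_top_iff, ← hS.1.generates]
      exact iSup₂_le hall
    obtain ⟨g, hg⟩ := hS.2.2 C hC A hA
    apply hAC
    rw [hg]
    apply conjBy_eq_of_commute
    intro c hc
    have : g ∈ Subgroup.centralizer (C : Set G) := by rw [htop]; exact Subgroup.mem_top g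
    rw [Subgroup.mem_centralizer_iff] at this
    exact (this c hc).symm
  · exact exists_rankOne_of_class hS hnd.2.1 hC

theorem centralizing_eq (hS : IsRootSubgroupClass S)
    (hdn : IsDegenerateRootSet S ∨ IsNondegenerateRootSet S) {A C : Subgroup G} (hA : A ∈ S)
    (hC : C ∈ S) (hAC : A ≠ C) (h : centralizingMembers S A ⊆ centralizingMembers S C) :
    centralizingMembers S A = centralizingMembers S C := by
  have hS1 := hS.1
  have hAA := Cfsg.Agent.Lib.Helper85RankOne.isMulCommutative_iff.mp (hS1.commutative A hA)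
  have hAm : A ∈ centralizingMembers S A := mem_centralizingMembers_iff.mpr ⟨hA, hAA⟩
  have hcomm := (mem_centralizingMembers_iff.mp (h hAm)).2
  obtain ⟨B, hB, hpC⟩ := exists_opposite hS hdn hA hC hAC
  have hpA : IsRankOnePair A B := by
    rcases hS1.pair A hA B hB with h1 | h1 | h1
    · exfalso
      have hBm : B ∈ centralizingMembers S A :=
        mem_centralizingMembers_iff.mpr ⟨hB, fun e he a ha =>
          (commutator_eq_bot_iff'.mp h1 a ha e he).symm⟩
      have h2 := (mem_centralizingMembers_iff.mp (h hBm)).2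
      exact not_commute hpC (fun c hc b hb => (h2 b hb c hc).symm)
    · exact h1
    · exfalso
      have hDm : ⁅A, B⁆ ∈ centralizingMembers S A :=
        mem_centralizingMembers_iff.mpr ⟨h1.1, fun e he a ha =>
          (commutator_commute_left h1 a ha e he).symm⟩
      have h2 := (mem_centralizingMembers_iff.mp (h hDm)).2
      obtain ⟨b, hb, hb1⟩ := exists_right hpC
      obtain ⟨c, hc, hc1, hcb⟩ := partner_right hpC hb hb1
      -- conjBy A b⁻¹ commutes with C
      have h3 : ⁅conjBy A b⁻¹, C⁆ = ⊥ := by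
        rw [commutator_eq_bot_iff']
        intro x hx y hy
        have hx' := conjBy_le_sup_commutator (A := A) (B.inv_mem hb) hx
        exact (commute_sup (fun u hu => (hcomm u hu y hy).symm) (fun u hu => (h2 u hu y hy).symm)
          x hx').symm
      have h4 := comm_conj h3 b
      rw [conjBy_conjBy_inv, ← hcb] at h4
      have h5 := comm_conj h4 c⁻¹
      rw [conjBy_inv_conjBy] at h5
      have hAc : conjBy A c⁻¹ = A :=
        conjBy_eq_of_commute (fun x hx => (hcomm x hx _ (C.inv_mem hc)).symm)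
      rw [hAc] at h5
      exact hS1.ne_bot _ h1.1 h5
  apply Set.Subset.antisymm h
  exact incl_eq hpA hpC (commutator_eq_bot_iff'.mpr hcomm) (centralizingMembers S)
    (centralizingMembers_conj hS1) h

theorem rankOnePartners_eq (hS : IsRootSubgroupClass S)
    (hdn : IsDegenerateRootSet S ∨ IsNondegenerateRootSet S) {A C : Subgroup G} (hA : A ∈ S)
    (hC : C ∈ S) (h : rankOnePartners S A ⊆ rankOnePartners S C) :
    ⁅A, C⁆ = ⊥ ∧ rankOnePartners S A = rankOnePartners S C := by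
  have hS1 := hS.1
  have hcomm : ⁅A, C⁆ = ⊥ := by
    rcases hS1.pair A hA C hC with h1 | h1 | h1
    · exact h1
    · exact absurd rfl (h ⟨hC, h1⟩).2.ne
    · exfalso
      rcases hdn with hd | hnd
      · exact hd A hA C hC h1
      · have hpart : ∀ A ∈ S, ∃ A' ∈ S, IsRankOnePair A A' :=
          fun A hA => exists_rankOne_of_class hS hnd.2.1 hA
        obtain ⟨D, hD, hcfg⟩ := exists_config_of_case hS1 hpart hC hA (commutatorCase_symm h1)
        have h2 := h ⟨hD, hcfg.rankOne hS1⟩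
        exact not_commute h2.2 (fun c hc d hd => (hcfg.commDA hS1 d hd c hc).symm)
  refine ⟨hcomm, Set.Subset.antisymm h ?_⟩
  by_cases hex : ∃ B ∈ S, IsRankOnePair A B
  · obtain ⟨B, hB, hpA⟩ := hex
    exact incl_eq hpA (h ⟨hB, hpA⟩).2 hcomm (rankOnePartners S) (rankOnePartners_conj hS1) h
  · intro T hT
    exfalso
    apply hex
    obtain ⟨g, hg⟩ := hS.2.2 C hC A hA
    refine ⟨conjBy T g, hS1.conj_mem T hT.1 g, ?_⟩
    rw [hg]
    exact isRankOnePair_conj hT.2 g

end Cfsg.Agent.Lib.Helper85Incl
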