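import Mathlib
import Cfsg.Prelude.Def_RootSubgroups
import Cfsg.Agent.Lib.Helper85Incl

set_option autoImplicit false

namespace Cfsg.Agent.Lib.Helper85Chain

open Cfsg Cfsg.Agent.Lib.Helper85RankOne Cfsg.Agent.Lib.Helper85Root Cfsg.Agent.Lib.Helper85Comm
  Cfsg.Agent.Lib.Helper85Graph Cfsg.Agent.Lib.Helper85Special Cfsg.Agent.Lib.Helper85Transfer
  Cfsg.Agent.Lib.Helper85Line Cfsg.Agent.Lib.Helper85Nat Cfsg.Agent.Lib.Helper85Mod
  Cfsg.Agent.Lib.Helper85Line2 Cfsg.Agent.Lib.Helper85TI Cfsg.Agent.Lib.Helper85Incl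
open scoped commutatorElement

variable {G : Type*} [Group G] {S : Set (Subgroup G)}

/-- `Nz K P`: `P` normalizes `K`. -/
def Nz (K P : Subgroup G) : Prop := ∀ p ∈ P, ∀ k ∈ K, p * k * p⁻¹ ∈ K

theorem Nz.sup {K P Q : Subgroup G} (hP : Nz K P) (hQ : Nz K Q) : Nz K (P ⊔ Q) := by
  apply sup_induction hP hQ
  intro x y hx hy k hk
  have := hx _ (hy k hk)
  have e : x * y * k * (x * y)⁻¹ = x * (y * k * y⁻¹) * x⁻¹ := by group
  rw [e]; exact this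

theorem Nz.of_le {K P : Subgroup G} (h : P ≤ K) : Nz K P := fun p hp k hk =>
  K.mul_mem (K.mul_mem (h hp) hk) (K.inv_mem (h hp))

theorem Nz.of_comm {K P : Subgroup G} (h : ⁅K, P⁆ = ⊥) : Nz K P := by
  intro p hp k hk
  have := commutator_eq_bot_iff'.mp h k hk p hp
  rw [← this]; simpa using hk

theorem Nz.of_comm_le {K P : Subgroup G} (h : ⁅K, P⁆ ≤ K) : Nz K P := by
  intro p hp k hk
  have h1 : ⁅k, p⁆ ∈ K := h (Subgroup.commutator_mem_commutator hk hp)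
  rw [commutatorElement_def] at h1
  have e : p * k * p⁻¹ = (k * p * k⁻¹ * p⁻¹)⁻¹ * k := by group
  rw [e]; exact K.mul_mem (K.inv_mem h1) hk

theorem Nz.sup_left {K L P : Subgroup G} (hK : Nz K P) (hL : Nz L P) : Nz (K ⊔ L) P := by
  intro p hp
  apply sup_induction
  · intro k hk; exact Subgroup.mem_sup_left (hK p hp k hk)
  · intro k hk; exact Subgroup.mem_sup_right (hL p hp k hk)
  · intro x y hx hy
    have e : p * (x * y) * p⁻¹ = (p * x * p⁻¹) * (p * y * p⁻¹) := by group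
    rw [e]; exact Subgroup.mul_mem _ hx hy

theorem comm_sup_right {K P Q₁ Q₂ : Subgroup G} (h₁ : ⁅P, Q₁⁆ ≤ K) (h₂ : ⁅P, Q₂⁆ ≤ K)
    (n₁ : Nz K Q₁) (n₂ : Nz K Q₂) : ⁅P, Q₁ ⊔ Q₂⁆ ≤ K := by
  rw [Subgroup.commutator_le]
  intro p hp
  have key : ∀ q ∈ Q₁ ⊔ Q₂, (∀ k ∈ K, q * k * q⁻¹ ∈ K) ∧ ⁅p, q⁆ ∈ K := by
    apply sup_induction
    · intro q hq; exact ⟨n₁ q hq, h₁ (Subgroup.commutator_mem_commutator hp hq)⟩
    · intro q hq; exact ⟨n₂ q hq, h₂ (Subgroup.commutator_mem_commutator hp hq)⟩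
    · intro x y hx hy
      refine ⟨?_, ?_⟩
      · intro k hk
        have e : x * y * k * (x * y)⁻¹ = x * (y * k * y⁻¹) * x⁻¹ := by group
        rw [e]; exact hx.1 _ (hy.1 k hk)
      · have e : ⁅p, x * y⁆ = ⁅p, x⁆ * (x * ⁅p, y⁆ * x⁻¹) := by
          simp only [commutatorElement_def]; group
        rw [e]; exact K.mul_mem hx.2 (hx.1 _ hy.2)
  intro q hq
  exact (key q hq).2

theorem comm_sup_left {K P₁ P₂ Q : Subgroup G} (h₁ : ⁅P₁, Q⁆ ≤ K) (h₂ : ⁅P₂, Q⁆ ≤ K)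
    (n₁ : Nz K P₁) (n₂ : Nz K P₂) : ⁅P₁ ⊔ P₂, Q⁆ ≤ K := by
  rw [Subgroup.commutator_comm]
  rw [Subgroup.commutator_comm] at h₁ h₂
  exact comm_sup_right h₁ h₂ n₁ n₂

theorem comm_self_eq_bot (hS : IsRootSubgroupSet S) {A : Subgroup G} (hA : A ∈ S) : ⁅A, A⁆ = ⊥ :=
  commutator_eq_bot_iff'.mpr
    (Cfsg.Agent.Lib.Helper85RankOne.isMulCommutative_iff.mp (hS.commutative A hA))

theorem nz_commutator_left (P Q : Subgroup G) : Nz ⁅P, Q⁆ P := by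
  intro p hp k hk
  have := conjBy_normalizes_commutator (A := P) (B := Q) (Subgroup.mem_sup_left hp)
  rw [← this]; exact conj_mem_conjBy hk p

theorem nz_commutator_right (P Q : Subgroup G) : Nz ⁅P, Q⁆ Q := by
  intro p hp k hk
  have := conjBy_normalizes_commutator (A := P) (B := Q) (Subgroup.mem_sup_right hp)
  rw [← this]; exact conj_mem_conjBy hk p

theorem class_two {P Q : Subgroup G} (hP : ⁅P, P⁆ = ⊥) (hQ : ⁅Q, Q⁆ = ⊥) :
    ⁅P ⊔ Q, P ⊔ Q⁆ ≤ ⁅P, Q⁆ := by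
  apply comm_sup_left
  · apply comm_sup_right (by rw [hP]; exact bot_le) le_rfl (nz_commutator_left P Q)
      (nz_commutator_right P Q)
  · apply comm_sup_right (by rw [Subgroup.commutator_comm]) (by rw [hQ]; exact bot_le)
      (nz_commutator_left P Q) (nz_commutator_right P Q)
  · exact nz_commutator_left P Q
  · exact nz_commutator_right P Q

theorem comm_sup_eq_bot_right {P Q₁ Q₂ : Subgroup G} (h₁ : ⁅P, Q₁⁆ = ⊥) (h₂ : ⁅P, Q₂⁆ = ⊥) :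
    ⁅P, Q₁ ⊔ Q₂⁆ = ⊥ := by
  rw [commutator_eq_bot_iff'] at *
  intro p hp
  exact commute_sup (h₁ p hp) (h₂ p hp)

theorem comm_sup_eq_bot_left {P₁ P₂ Q : Subgroup G} (h₁ : ⁅P₁, Q⁆ = ⊥) (h₂ : ⁅P₂, Q⁆ = ⊥) :
    ⁅P₁ ⊔ P₂, Q⁆ = ⊥ := by
  rw [Subgroup.commutator_comm] at *
  exact comm_sup_eq_bot_right h₁ h₂

theorem comm_eq_bot_mono {P P' Q Q' : Subgroup G} (h : ⁅P', Q'⁆ = ⊥) (hP : P ≤ P') (hQ : Q ≤ Q') :
    ⁅P, Q⁆ = ⊥ := by
  rw [eq_bot_iff, ← h]; exact Subgroup.commutator_mono hP hQ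

theorem Nz.comm_le {K P : Subgroup G} (h : Nz K P) : ⁅K, P⁆ ≤ K := by
  rw [Subgroup.commutator_le]
  intro k hk p hp
  rw [commutatorElement_def]
  have e : k * p * k⁻¹ * p⁻¹ = k * (p * k⁻¹ * p⁻¹) := by group
  rw [e]; exact K.mul_mem hk (h p hp _ (K.inv_mem hk))

theorem nz_iff {K P : Subgroup G} : Nz K P ↔ ∀ p ∈ P, conjBy K p ≤ K := by
  constructor
  · intro h p hp x hx
    rw [mem_conjBy] at hx
    have := h p hp _ hx
    have e : p * (p⁻¹ * x * p) * p⁻¹ = x := by group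
    rwa [e] at this
  · intro h p hp k hk
    exact h p hp (conj_mem_conjBy hk p)

/-- `⁅A, B⁆ ≤ A (b A b⁻¹)` in the commutator case, for `b ≠ 1`. -/
theorem commutator_le_sup_conj {A B : Subgroup G} (h : RootCommutatorCase S A B) {b : G}
    (hb : b ∈ B) (hb1 : b ≠ 1) : ⁅A, B⁆ ≤ A ⊔ conjBy A b := by
  intro c hc
  obtain ⟨a, ha, rfl⟩ := exists_comm_left h hb hb1 c hc
  have e : a * b * a⁻¹ * b⁻¹ = a * (b * a⁻¹ * b⁻¹) := by group
  rw [e]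
  exact Subgroup.mul_mem _ (Subgroup.mem_sup_left ha)
    (Subgroup.mem_sup_right (conj_mem_conjBy (A.inv_mem ha) b))

/-- The chain configuration `A - B - C`. -/
structure Chain (S : Set (Subgroup G)) (A B C : Subgroup G) : Prop where
  memA : A ∈ S
  memB : B ∈ S
  memC : C ∈ S
  memD : ⁅A, B⁆ ∈ S
  memE : ⁅B, C⁆ ∈ S
  comm : ⁅A, C⁆ = ⊥

namespace Chain

variable {A B C : Subgroup G}

theorem symm (h : Chain S A B C) : Chain S C B A :=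
  ⟨h.memC, h.memB, h.memA, by rw [Subgroup.commutator_comm]; exact h.memE,
    by rw [Subgroup.commutator_comm]; exact h.memD, by rw [Subgroup.commutator_comm]; exact h.comm⟩

theorem caseAB (hS : IsRootSubgroupSet S) (h : Chain S A B C) : RootCommutatorCase S A B :=
  commutatorCase_of_mem hS h.memA h.memB h.memD

theorem cAD (hS : IsRootSubgroupSet S) (h : Chain S A B C) : ⁅A, ⁅A, B⁆⁆ = ⊥ :=
  commutator_eq_bot_iff'.mpr (commutator_commute_left (h.caseAB hS))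

theorem cBD (hS : IsRootSubgroupSet S) (h : Chain S A B C) : ⁅B, ⁅A, B⁆⁆ = ⊥ :=
  commutator_eq_bot_iff'.mpr (commutator_commute_right (h.caseAB hS))

theorem cA_AD (hS : IsRootSubgroupSet S) (h : Chain S A B C) : ⁅A, A ⊔ ⁅A, B⁆⁆ = ⊥ :=
  comm_sup_eq_bot_right (comm_self_eq_bot hS h.memA) (h.cAD hS)

theorem cA_conj (hS : IsRootSubgroupSet S) (h : Chain S A B C) {β : G} (hβ : β ∈ B) :
    ⁅A, conjBy A β⁆ = ⊥ :=
  comm_eq_bot_mono (h.cA_AD hS) le_rfl (conjBy_le_sup_commutator hβ)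

theorem cXY (hS : IsRootSubgroupSet S) (h : Chain S A B C) {b : G} (hb : b ∈ B) :
    ⁅A ⊔ conjBy C b⁻¹, conjBy A b⁻¹ ⊔ C⁆ = ⊥ := by
  have hb' := B.inv_mem hb
  apply comm_sup_eq_bot_left
  · exact comm_sup_eq_bot_right (h.cA_conj hS hb') h.comm
  · apply comm_sup_eq_bot_right
    · exact comm_conj h.symm.comm b⁻¹
    · rw [Subgroup.commutator_comm]; exact h.symm.cA_conj hS hb'

theorem not_rankOne (hS : IsRootSubgroupSet S) (h : Chain S A B C) {b : G} (hb : b ∈ B)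
    (hb1 : b ≠ 1) : ¬ IsRankOnePair A (conjBy C b⁻¹) := by
  intro hp
  have hb' := B.inv_mem hb
  have hC' := hS.conj_mem C h.memC b⁻¹
  obtain ⟨a, ha, ha1⟩ := exists_left hp
  have hzm : b⁻¹ * a⁻¹ * b⁻¹⁻¹ ∈ conjBy A b⁻¹ := conj_mem_conjBy (A.inv_mem ha) b⁻¹
  have hz : ∀ x ∈ A ⊔ conjBy C b⁻¹, (b⁻¹ * a⁻¹ * b⁻¹⁻¹) * x = x * (b⁻¹ * a⁻¹ * b⁻¹⁻¹) := by
    intro x hx
    exact (commutator_eq_bot_iff'.mp (h.cXY hS hb) x hx _ (Subgroup.mem_sup_left hzm)).symm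
  have hz1 : b⁻¹ * a⁻¹ * b⁻¹⁻¹ ≠ 1 := by
    intro e
    apply ha1
    have : a⁻¹ = b * (b⁻¹ * a⁻¹ * b⁻¹⁻¹) * b⁻¹ := by group
    rw [e] at this
    simpa using this
  apply central_translate hS hC' hp hz hz1 a ha ha1
  have hm := commutator_mem (A.inv_mem ha) hb'
  have e : b⁻¹ * a⁻¹ * b⁻¹⁻¹ * a = (a⁻¹ * b⁻¹ * a⁻¹⁻¹ * b⁻¹⁻¹)⁻¹ := by group
  refine ⟨?_, ⁅A, B⁆, h.memD, ?_⟩
  · rw [e]
    intro e2
    rcases comm_eq_one hS h.memA hC' hp (h.caseAB hS) (A.inv_mem ha) hb' (inv_eq_one.mp e2) with h3 | h3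
    · exact ha1 (inv_eq_one.mp h3)
    · exact hb1 (inv_eq_one.mp h3)
  · rw [e]; exact Subgroup.inv_mem _ hm

theorem comm_iff (hS : IsRootSubgroupSet S) (h : Chain S A B C) {b : G} (hb : b ∈ B)
    (hb1 : b ≠ 1) : ⁅A, conjBy C b⁻¹⁆ = ⊥ ↔ ⁅A, ⁅C, B⁆⁆ = ⊥ := by
  have hb' := B.inv_mem hb
  have hb1' : b⁻¹ ≠ 1 := by simpa using hb1
  constructor
  · intro h1
    exact comm_eq_bot_mono (comm_sup_eq_bot_right h.comm h1) le_rfl
      (commutator_le_sup_conj (h.symm.caseAB hS) hb' hb1')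
  · intro h1
    exact comm_eq_bot_mono (comm_sup_eq_bot_right h.comm h1) le_rfl
      (conjBy_le_sup_commutator hb')

theorem three (h : Chain S A B C) : ⁅A, ⁅C, B⁆⁆ = ⊥ → ⁅C, ⁅A, B⁆⁆ = ⊥ := by
  intro h1
  rw [Subgroup.commutator_comm]
  apply Subgroup.commutator_commutator_eq_bot_of_rotate
  · rw [Subgroup.commutator_comm, Subgroup.commutator_comm B C]; exact h1
  · rw [Subgroup.commutator_comm C A, h.comm]
    rw [eq_bot_iff, Subgroup.commutator_le]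
    intro x hx y _
    rw [Subgroup.mem_bot] at hx
    subst hx
    simp

theorem comm_iff_comm (hS : IsRootSubgroupSet S) (h : Chain S A B C) {b : G} (hb : b ∈ B)
    (hb1 : b ≠ 1) : ⁅A, conjBy C b⁻¹⁆ = ⊥ ↔ ⁅C, conjBy A b⁻¹⁆ = ⊥ := by
  rw [h.comm_iff hS hb hb1, h.symm.comm_iff hS hb hb1]
  exact ⟨h.three, h.symm.three⟩

/-- `⁅A, C'⁆` is `⊥` or a member of `S`, and it is central in `⟨A, C'⟩`. -/
theorem F_cases (hS : IsRootSubgroupSet S) (h : Chain S A B C) {b : G} (hb : b ∈ B)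
    (hb1 : b ≠ 1) : ⁅A, conjBy C b⁻¹⁆ = ⊥ ∨ RootCommutatorCase S A (conjBy C b⁻¹) := by
  rcases hS.pair A h.memA _ (hS.conj_mem C h.memC b⁻¹) with h1 | h1 | h1
  · exact Or.inl h1
  · exact absurd h1 (h.not_rankOne hS hb hb1)
  · exact Or.inr h1

theorem bot_comm (P : Subgroup G) : ⁅(⊥ : Subgroup G), P⁆ = ⊥ := by
  rw [eq_bot_iff, Subgroup.commutator_le]
  intro x hx y _
  rw [Subgroup.mem_bot] at hx
  subst hx
  simp

theorem F_central (hS : IsRootSubgroupSet S) (h : Chain S A B C) {b : G} (hb : b ∈ B)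
    (hb1 : b ≠ 1) : ⁅⁅A, conjBy C b⁻¹⁆, A ⊔ conjBy C b⁻¹⁆ = ⊥ := by
  rcases h.F_cases hS hb hb1 with h1 | h1
  · rw [h1]; exact bot_comm _
  · rw [commutator_eq_bot_iff']; exact h1.2.1

theorem X_class (hS : IsRootSubgroupSet S) (h : Chain S A B C) {b : G} (hb : b ∈ B)
    (hb1 : b ≠ 1) :
    ⁅⁅A ⊔ conjBy C b⁻¹, A ⊔ conjBy C b⁻¹⁆, A ⊔ conjBy C b⁻¹⁆ = ⊥ := by
  rw [eq_bot_iff, ← h.F_central hS hb hb1]
  exact Subgroup.commutator_mono (class_two (comm_self_eq_bot hS h.memA)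
    (comm_self_eq_bot hS (hS.conj_mem C h.memC b⁻¹))) le_rfl

theorem X_comm_iff (hS : IsRootSubgroupSet S) (h : Chain S A B C) (g : G) :
    IsMulCommutative ↥(A ⊔ conjBy C g) ↔ ⁅A, conjBy C g⁆ = ⊥ := by
  rw [Cfsg.Agent.Lib.Helper85RankOne.isMulCommutative_iff]
  constructor
  · intro h1
    rw [commutator_eq_bot_iff']
    intro a ha c hc
    exact h1 a (Subgroup.mem_sup_left ha) c (Subgroup.mem_sup_right hc)
  · intro h1
    have h2 : ⁅A ⊔ conjBy C g, A ⊔ conjBy C g⁆ = ⊥ := by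
      rw [eq_bot_iff, ← h1]
      exact class_two (comm_self_eq_bot hS h.memA) (comm_self_eq_bot hS (hS.conj_mem C h.memC g))
    exact commutator_eq_bot_iff'.mp h2

theorem comm_le_of_le' {H K Y : Subgroup G} (hH : H ≤ Y) (hK : K ≤ Y) : ⁅H, K⁆ ≤ Y := by
  rw [Subgroup.commutator_le]
  intro x hx y hy
  rw [commutatorElement_def]
  exact Y.mul_mem (Y.mul_mem (Y.mul_mem (hH hx) (hK hy)) (Y.inv_mem (hH hx))) (Y.inv_mem (hK hy))

/-- `W = X Y`. -/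
def WW (A C : Subgroup G) (b : G) : Subgroup G :=
  (A ⊔ conjBy C b⁻¹) ⊔ (C ⊔ conjBy A b⁻¹)

theorem WW_symm (A C : Subgroup G) (b : G) : WW C A b = WW A C b := sup_comm _ _

theorem A_le_WW (A C : Subgroup G) (b : G) : A ≤ WW A C b := le_trans le_sup_left le_sup_left

theorem C_le_WW (A C : Subgroup G) (b : G) : C ≤ WW A C b := le_trans le_sup_left le_sup_right

theorem A'_le_WW (A C : Subgroup G) (b : G) : conjBy A b⁻¹ ≤ WW A C b :=
  le_trans le_sup_right le_sup_right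

theorem C'_le_WW (A C : Subgroup G) (b : G) : conjBy C b⁻¹ ≤ WW A C b :=
  le_trans le_sup_right le_sup_left

theorem D_le_WW (hS : IsRootSubgroupSet S) (h : Chain S A B C) {b : G} (hb : b ∈ B)
    (hb1 : b ≠ 1) : ⁅A, B⁆ ≤ WW A C b :=
  le_trans (commutator_le_sup_conj (h.caseAB hS) (B.inv_mem hb) (by simpa using hb1))
    (sup_le (A_le_WW A C b) (A'_le_WW A C b))

theorem conjA_le_WW (hS : IsRootSubgroupSet S) (h : Chain S A B C) {b : G} (hb : b ∈ B)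
    (hb1 : b ≠ 1) {β : G} (hβ : β ∈ B) : conjBy A β ≤ WW A C b :=
  le_trans (conjBy_le_sup_commutator hβ) (sup_le (A_le_WW A C b) (h.D_le_WW hS hb hb1))

theorem nz_WW_B (hS : IsRootSubgroupSet S) (h : Chain S A B C) {b : G} (hb : b ∈ B)
    (hb1 : b ≠ 1) : Nz (WW A C b) B := by
  rw [nz_iff]
  intro β hβ
  have hC : ∀ β ∈ B, conjBy C β ≤ WW A C b := by
    intro β hβ
    rw [← WW_symm]; exact h.symm.conjA_le_WW hS hb hb1 hβ
  unfold WW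
  rw [conjBy_sup, conjBy_sup, conjBy_sup, conjBy_conjBy, conjBy_conjBy]
  have hβb := B.mul_mem hβ (B.inv_mem hb)
  exact sup_le (sup_le (h.conjA_le_WW hS hb hb1 hβ) (hC _ hβb))
    (sup_le (hC _ hβ) (h.conjA_le_WW hS hb hb1 hβb))

theorem cXY' (hS : IsRootSubgroupSet S) (h : Chain S A B C) {b : G} (hb : b ∈ B) :
    ⁅A ⊔ conjBy C b⁻¹, C ⊔ conjBy A b⁻¹⁆ = ⊥ := by
  rw [sup_comm C]; exact h.cXY hS hb

theorem F_WW (hS : IsRootSubgroupSet S) (h : Chain S A B C) {b : G} (hb : b ∈ B)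
    (hb1 : b ≠ 1) : ⁅⁅A, conjBy C b⁻¹⁆, WW A C b⁆ = ⊥ :=
  comm_sup_eq_bot_right (h.F_central hS hb hb1)
    (comm_eq_bot_mono (h.cXY' hS hb) (comm_le_of_le' le_sup_left le_sup_right) le_rfl)

/-- `⁅⁅F, B⁆, B⁆ = ⊥` provided `F` lies in an abelian subgroup `Z` normalized by `B`. -/
theorem FB_B (hS : IsRootSubgroupSet S) {F B Z : Subgroup G} (hB : B ∈ S)
    (hF : F = ⊥ ∨ F ∈ S) (hFZ : F ≤ Z) (hZ : ⁅Z, Z⁆ = ⊥) (hn : Nz Z B) : ⁅⁅F, B⁆, B⁆ = ⊥ := by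
  rcases hF with hF | hF
  · rw [hF, bot_comm, bot_comm]
  · rcases hS.pair F hF B hB with h1 | h1 | h1
    · rw [h1, bot_comm]
    · exfalso
      obtain ⟨β, hβ, hβ1⟩ := exists_right h1
      obtain ⟨f, hf, hf1, hfe⟩ := partner_right h1 hβ hβ1
      have h2 : conjBy F β ≤ Z := le_trans (conjBy_mono hFZ β) (nz_iff.mp hn β hβ)
      rw [← hfe] at h2
      have h3 := conjBy_mono h2 f⁻¹
      rw [conjBy_inv_conjBy, conjBy_of_mem (Z.inv_mem (hFZ hf))] at h3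
      exact not_commute h1 (commutator_eq_bot_iff'.mp (comm_eq_bot_mono hZ hFZ h3))
    · rw [commutator_eq_bot_iff']
      intro x hx y hy
      exact h1.2.1 x hx y (Subgroup.mem_sup_right hy)

theorem nilpotent (hS : IsRootSubgroupSet S) (h : Chain S A B C) {b : G} (hb : b ∈ B)
    (hb1 : b ≠ 1) : Group.IsNilpotent ↥(A ⊔ B ⊔ C) := by
  set W := WW A C b with hW
  set F := ⁅A, conjBy C b⁻¹⁆ with hF
  set F' := ⁅C, conjBy A b⁻¹⁆ with hF'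
  set D := ⁅A, B⁆ with hD
  set E := ⁅C, B⁆ with hE
  have hAW : A ≤ W := A_le_WW A C b
  have hCW : C ≤ W := C_le_WW A C b
  have hDW : D ≤ W := h.D_le_WW hS hb hb1
  have hEW : E ≤ W := by rw [hW, ← WW_symm]; exact h.symm.D_le_WW hS hb hb1
  have hFW : ⁅F, W⁆ = ⊥ := h.F_WW hS hb hb1
  have hF'W : ⁅F', W⁆ = ⊥ := by rw [hW, ← WW_symm]; exact h.symm.F_WW hS hb hb1
  have hZW : ⁅F ⊔ F', W⁆ = ⊥ := comm_sup_eq_bot_left hFW hF'W
  have hFleW : F ≤ W := comm_le_of_le' hAW (C'_le_WW A C b)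
  have hF'leW : F' ≤ W := comm_le_of_le' hCW (A'_le_WW A C b)
  have hZleW : F ⊔ F' ≤ W := sup_le hFleW hF'leW
  have nzZ : ∀ P : Subgroup G, P ≤ W → Nz (F ⊔ F') P := fun P hP =>
    Nz.of_comm (comm_eq_bot_mono hZW le_rfl hP)
  have hWW : ⁅W, W⁆ ≤ F ⊔ F' := by
    have hX : A ⊔ conjBy C b⁻¹ ≤ W := le_sup_left
    have hY : C ⊔ conjBy A b⁻¹ ≤ W := le_sup_right
    have hXX : ⁅A ⊔ conjBy C b⁻¹, A ⊔ conjBy C b⁻¹⁆ ≤ F ⊔ F' :=
      le_trans (class_two (comm_self_eq_bot hS h.memA)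
        (comm_self_eq_bot hS (hS.conj_mem C h.memC b⁻¹))) le_sup_left
    have hYY : ⁅C ⊔ conjBy A b⁻¹, C ⊔ conjBy A b⁻¹⁆ ≤ F ⊔ F' :=
      le_trans (class_two (comm_self_eq_bot hS h.memC)
        (comm_self_eq_bot hS (hS.conj_mem A h.memA b⁻¹))) le_sup_right
    have hXY := h.cXY' hS hb
    apply comm_sup_left
    · exact comm_sup_right hXX (by rw [hXY]; exact bot_le) (nzZ _ hX) (nzZ _ hY)
    · exact comm_sup_right (by rw [Subgroup.commutator_comm, hXY]; exact bot_le) hYY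
        (nzZ _ hX) (nzZ _ hY)
    · exact nzZ _ hX
    · exact nzZ _ hY
  have nzWB : Nz W B := h.nz_WW_B hS hb hb1
  have nzZB : Nz (F ⊔ F') B := by
    rw [nz_iff]
    intro β hβ
    have hc : ∀ P : Subgroup G, P ≤ W → conjBy P β ≤ W := fun P hP =>
      le_trans (conjBy_mono hP β) (nz_iff.mp nzWB β hβ)
    rw [conjBy_sup, hF, hF', conjBy_commutator, conjBy_commutator]
    exact sup_le
      (le_trans (Subgroup.commutator_mono (hc _ hAW) (hc _ (C'_le_WW A C b))) hWW)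
      (le_trans (Subgroup.commutator_mono (hc _ hCW) (hc _ (A'_le_WW A C b))) hWW)
  have cDB : ⁅D, B⁆ = ⊥ := by rw [Subgroup.commutator_comm]; exact h.cBD hS
  have cEB : ⁅E, B⁆ = ⊥ := by rw [Subgroup.commutator_comm]; exact h.symm.cBD hS
  have cDA : ⁅D, A⁆ = ⊥ := by rw [Subgroup.commutator_comm]; exact h.cAD hS
  have cEC : ⁅E, C⁆ = ⊥ := by rw [Subgroup.commutator_comm]; exact h.symm.cAD hS
  -- K₁
  have hK₁W : D ⊔ E ⊔ (F ⊔ F') ≤ W := sup_le (sup_le hDW hEW) hZleW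
  have nzK₁ : ∀ P : Subgroup G, P ≤ W → Nz (D ⊔ E ⊔ (F ⊔ F')) P := fun P hP =>
    Nz.of_comm_le (le_trans (le_trans (Subgroup.commutator_mono hK₁W hP) hWW) le_sup_right)
  have nzK₁B : Nz (D ⊔ E ⊔ (F ⊔ F')) B :=
    Nz.sup_left (Nz.sup_left (Nz.of_comm cDB) (Nz.of_comm cEB)) nzZB
  have bl : ∀ K : Subgroup G, (⊥ : Subgroup G) ≤ K := fun K => bot_le
  have three : ∀ (K P : Subgroup G), Nz K A → Nz K B → Nz K C → ⁅P, A⁆ ≤ K → ⁅P, B⁆ ≤ K →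
      ⁅P, C⁆ ≤ K → ⁅P, A ⊔ B ⊔ C⁆ ≤ K := by
    intro K P nA nB nC hA hB hC
    exact comm_sup_right (comm_sup_right hA hB nA nB) hC (nA.sup nB) nC
  have f4 : ⁅A ⊔ B ⊔ C, A ⊔ B ⊔ C⁆ ≤ D ⊔ E ⊔ (F ⊔ F') := by
    have nA := nzK₁ A hAW
    have nC := nzK₁ C hCW
    have hDle : D ≤ D ⊔ E ⊔ (F ⊔ F') := le_trans le_sup_left le_sup_left
    have hEle : E ≤ D ⊔ E ⊔ (F ⊔ F') := le_trans le_sup_right le_sup_left
    apply comm_sup_left (comm_sup_left _ _ nA nzK₁B) _ (nA.sup nzK₁B) nC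
    · apply three _ _ nA nzK₁B nC
      · rw [comm_self_eq_bot hS h.memA]; exact bl _
      · exact hDle
      · rw [h.comm]; exact bl _
    · apply three _ _ nA nzK₁B nC
      · rw [Subgroup.commutator_comm]; exact hDle
      · rw [comm_self_eq_bot hS h.memB]; exact bl _
      · rw [Subgroup.commutator_comm]; exact hEle
    · apply three _ _ nA nzK₁B nC
      · rw [h.symm.comm]; exact bl _
      · exact hEle
      · rw [comm_self_eq_bot hS h.memC]; exact bl _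
  have f5 : ⁅D ⊔ E ⊔ (F ⊔ F'), A ⊔ B ⊔ C⁆ ≤ F ⊔ F' := by
    have nA := nzZ A hAW
    have nC := nzZ C hCW
    apply comm_sup_left (comm_sup_left _ _ (nzZ D hDW) (nzZ E hEW)) _
      ((nzZ D hDW).sup (nzZ E hEW)) (nzZ _ hZleW)
    · apply three _ _ nA nzZB nC
      · rw [cDA]; exact bl _
      · rw [cDB]; exact bl _
      · exact le_trans (Subgroup.commutator_mono hDW hCW) hWW
    · apply three _ _ nA nzZB nC
      · exact le_trans (Subgroup.commutator_mono hEW hAW) hWW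
      · rw [cEB]; exact bl _
      · rw [cEC]; exact bl _
    · apply three _ _ nA nzZB nC
      · rw [comm_eq_bot_mono hZW le_rfl hAW]; exact bl _
      · exact nzZB.comm_le
      · rw [comm_eq_bot_mono hZW le_rfl hCW]; exact bl _
  have hZZ : ⁅F ⊔ F', F ⊔ F'⁆ = ⊥ := comm_eq_bot_mono hZW le_rfl hZleW
  have hFc : F = ⊥ ∨ F ∈ S := by
    rcases h.F_cases hS hb hb1 with h1 | h1
    · exact Or.inl h1
    · exact Or.inr h1.1
  have hF'c : F' = ⊥ ∨ F' ∈ S := by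
    rcases h.symm.F_cases hS hb hb1 with h1 | h1
    · exact Or.inl h1
    · exact Or.inr h1.1
  have hFBB : ⁅⁅F, B⁆, B⁆ = ⊥ := FB_B hS h.memB hFc le_sup_left hZZ nzZB
  have hF'BB : ⁅⁅F', B⁆, B⁆ = ⊥ := FB_B hS h.memB hF'c le_sup_right hZZ nzZB
  have hFBle : ⁅F, B⁆ ≤ F ⊔ F' := le_trans (Subgroup.commutator_mono le_sup_left le_rfl) nzZB.comm_le
  have hF'Ble : ⁅F', B⁆ ≤ F ⊔ F' :=
    le_trans (Subgroup.commutator_mono le_sup_right le_rfl) nzZB.comm_le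
  have f7 : ⁅⁅F, B⁆ ⊔ ⁅F', B⁆, A ⊔ B ⊔ C⁆ = ⊥ := by
    apply comm_sup_eq_bot_left
    · exact comm_sup_eq_bot_right (comm_sup_eq_bot_right
        (comm_eq_bot_mono hZW hFBle hAW) hFBB) (comm_eq_bot_mono hZW hFBle hCW)
    · exact comm_sup_eq_bot_right (comm_sup_eq_bot_right
        (comm_eq_bot_mono hZW hF'Ble hAW) hF'BB) (comm_eq_bot_mono hZW hF'Ble hCW)
  have nzZ₂ : ∀ P : Subgroup G, P ≤ A ⊔ B ⊔ C → Nz (⁅F, B⁆ ⊔ ⁅F', B⁆) P := fun P hP =>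
    Nz.of_comm (comm_eq_bot_mono f7 le_rfl hP)
  have hAR : A ≤ A ⊔ B ⊔ C := le_trans le_sup_left le_sup_left
  have hBR : B ≤ A ⊔ B ⊔ C := le_trans le_sup_right le_sup_left
  have hCR : C ≤ A ⊔ B ⊔ C := le_sup_right
  have hWR : W ≤ A ⊔ B ⊔ C := by
    have hbR : b⁻¹ ∈ A ⊔ B ⊔ C := hBR (B.inv_mem hb)
    exact sup_le (sup_le hAR (conjBy_le_of_le hCR hbR)) (sup_le hCR (conjBy_le_of_le hAR hbR))
  have f6 : ⁅F ⊔ F', A ⊔ B ⊔ C⁆ ≤ ⁅F, B⁆ ⊔ ⁅F', B⁆ := by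
    apply comm_sup_left _ _ (nzZ₂ F (le_trans hFleW hWR)) (nzZ₂ F' (le_trans hF'leW hWR))
    · apply three _ _ (nzZ₂ A hAR) (nzZ₂ B hBR) (nzZ₂ C hCR)
      · rw [comm_eq_bot_mono hFW le_rfl hAW]; exact bl _
      · exact le_sup_left
      · rw [comm_eq_bot_mono hFW le_rfl hCW]; exact bl _
    · apply three _ _ (nzZ₂ A hAR) (nzZ₂ B hBR) (nzZ₂ C hCR)
      · rw [comm_eq_bot_mono hF'W le_rfl hAW]; exact bl _
      · exact le_sup_right
      · rw [comm_eq_bot_mono hF'W le_rfl hCW]; exact bl _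
  apply Subgroup.isNilpotent_of_lowerCentralSeries_eq_bot (n := 4)
  simp only [Subgroup.lowerCentralSeries_succ, Subgroup.lowerCentralSeries_zero]
  rw [eq_bot_iff, ← f7]
  exact Subgroup.commutator_mono (le_trans (Subgroup.commutator_mono
    (le_trans (Subgroup.commutator_mono f4 le_rfl) f5) le_rfl) f6) le_rfl

end Chain

end Cfsg.Agent.Lib.Helper85Chain
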