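import Mathlib
import Cfsg.Prelude.Def_RootSubgroups
import Cfsg.Agent.Lib.Helper85TI

set_option autoImplicit false

namespace Cfsg.Agent.Lib.Helper85Conn

open Cfsg Cfsg.Agent.Lib.Helper85RankOne Cfsg.Agent.Lib.Helper85Root Cfsg.Agent.Lib.Helper85Comm
  Cfsg.Agent.Lib.Helper85Graph Cfsg.Agent.Lib.Helper85Special Cfsg.Agent.Lib.Helper85Transfer
  Cfsg.Agent.Lib.Helper85Line Cfsg.Agent.Lib.Helper85Nat Cfsg.Agent.Lib.Helper85Mod
  Cfsg.Agent.Lib.Helper85Line2 Cfsg.Agent.Lib.Helper85TI
open scoped commutatorElement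

variable {G : Type*} [Group G] {S : Set (Subgroup G)}

theorem linePartners_symm {A B : Subgroup G} (hA : A ∈ S) (hB : B ∈ linePartners S A) :
    A ∈ linePartners S B := by
  refine ⟨⟨hA, hB.1.2.1.symm, by rw [Subgroup.commutator_comm]; exact hB.1.2.2⟩, ?_⟩
  rw [sup_comm]; exact hB.2

theorem membersIn_conj (hS : IsRootSubgroupSet S) {V F : Subgroup G} {g : G}
    (hF : F ∈ membersIn S V) : conjBy F g ∈ membersIn S (conjBy V g) :=
  ⟨hS.conj_mem F hF.1 g, conjBy_mono hF.2 g⟩

theorem membersIn_conj' (hS : IsRootSubgroupSet S) {V F : Subgroup G} {g : G}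
    (hF : F ∈ membersIn S (conjBy V g)) : conjBy F g⁻¹ ∈ membersIn S V := by
  have := membersIn_conj hS (g := g⁻¹) hF
  rwa [conjBy_inv_conjBy] at this

theorem partition_conj (hS : IsRootSubgroupSet S) {V : Subgroup G}
    (h : IsSubgroupPartition V (membersIn S V)) (g : G) :
    IsSubgroupPartition (conjBy V g) (membersIn S (conjBy V g)) := by
  refine ⟨fun C hC => hC.2, ?_, ?_⟩
  · intro x hx hx1
    rw [mem_conjBy] at hx
    have hx1' : g⁻¹ * x * g ≠ 1 := by
      intro e
      apply hx1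
      have : x = g * (g⁻¹ * x * g) * g⁻¹ := by group
      rw [this, e]; group
    obtain ⟨C, hC, hxC⟩ := h.2.1 _ hx hx1'
    exact ⟨conjBy C g, membersIn_conj hS hC, mem_conjBy.mpr hxC⟩
  · intro C hC D hD hne
    have h1 := h.2.2 _ (membersIn_conj' hS hC) _ (membersIn_conj' hS hD)
      (fun e => hne (conjBy_inj.mp e))
    rw [← conjBy_inf, conjBy_eq_bot_iff] at h1
    exact h1

theorem linePartners_conj (hS : IsRootSubgroupSet S) {A B : Subgroup G}
    (hB : B ∈ linePartners S A) (g : G) : conjBy B g ∈ linePartners S (conjBy A g) := by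
  refine ⟨⟨hS.conj_mem B hB.1.1 g, fun e => hB.1.2.1 (conjBy_inj.mp e), ?_⟩, ?_⟩
  · rw [← conjBy_commutator, hB.1.2.2, conjBy_bot]
  · rw [← conjBy_sup]; exact partition_conj hS hB.2 g

theorem eadj_symm {A B : Subgroup G} (h : EAdj S S A B) : EAdj S S B A :=
  ⟨h.2.1, h.1, linePartners_symm h.1 h.2.2⟩

theorem eadj_conj (hS : IsRootSubgroupSet S) {A B : Subgroup G} (h : EAdj S S A B) (g : G) :
    EAdj S S (conjBy A g) (conjBy B g) :=
  ⟨hS.conj_mem A h.1 g, hS.conj_mem B h.2.1 g, linePartners_conj hS h.2.2 g⟩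

theorem ereach_symm {A B : Subgroup G} (h : Relation.ReflTransGen (EAdj S S) A B) :
    Relation.ReflTransGen (EAdj S S) B A := by
  induction h with
  | refl => exact Relation.ReflTransGen.refl
  | tail _ h2 ih => exact Relation.ReflTransGen.head (eadj_symm h2) ih

theorem ereach_conj (hS : IsRootSubgroupSet S) {A B : Subgroup G}
    (h : Relation.ReflTransGen (EAdj S S) A B) (g : G) :
    Relation.ReflTransGen (EAdj S S) (conjBy A g) (conjBy B g) := by
  induction h with
  | refl => exact Relation.ReflTransGen.refl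
  | tail _ h2 ih => exact Relation.ReflTransGen.tail ih (eadj_conj hS h2 g)

theorem ereach_mem {A B : Subgroup G} (hA : A ∈ S) (h : Relation.ReflTransGen (EAdj S S) A B) :
    B ∈ S := by
  induction h with
  | refl => exact hA
  | tail _ h2 _ => exact h2.2.1

theorem eadj_connected (hS : IsRootSubgroupClass S) (hnd : IsNondegenerateRootSet S) :
    IsConnectedFamily (EAdj S S) S := by
  have hS1 := hS.1
  have hpart : ∀ A ∈ S, ∃ A' ∈ S, IsRankOnePair A A' :=
    fun A hA => exists_rankOne_of_class hS hnd.2.1 hA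
  intro A hA
  by_contra hcon
  push Not at hcon
  obtain ⟨B₀, hB₀, hnB₀⟩ := hcon
  obtain ⟨C, hC, hAC⟩ := exists_case_of_class hS hnd.2.2 hA
  obtain ⟨A', hA', hp⟩ := hpart A hA
  obtain ⟨C', hC', hpC⟩ := hpart C hC
  have h1 : EAdj S S ⁅A, C⁆ A := ⟨hAC.1, hA, mem_linePartners hS1 hA hA' hp hAC⟩
  have h2 : EAdj S S ⁅A, C⁆ C := by
    refine ⟨hAC.1, hC, ?_⟩
    have := mem_linePartners hS1 hC hC' hpC (commutatorCase_symm hAC)
    rwa [Subgroup.commutator_comm] at this
  have hreachC : Relation.ReflTransGen (EAdj S S) A C :=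
    Relation.ReflTransGen.head (eadj_symm h1) (Relation.ReflTransGen.single h2)
  have hTI : IsWeakTISubset S {F | Relation.ReflTransGen (EAdj S S) A F} := by
    refine ⟨fun F hF => ereach_mem hA hF, ⟨A, Relation.ReflTransGen.refl, C, hreachC, ?_⟩, ?_, ?_⟩
    · rintro rfl
      have hAA := Cfsg.Agent.Lib.Helper85RankOne.isMulCommutative_iff.mp (hS1.commutative A hA)
      exact hS1.ne_bot _ hAC.1 (commutator_eq_bot_iff'.mpr hAA)
    · intro e
      apply hnB₀
      have : B₀ ∈ {F | Relation.ReflTransGen (EAdj S S) A F} := by rw [e]; exact hB₀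
      exact this
    · intro d _
      by_cases hd : ∃ F, Relation.ReflTransGen (EAdj S S) A F ∧
          Relation.ReflTransGen (EAdj S S) A (conjBy F d)
      · left
        obtain ⟨F, hF, hFd⟩ := hd
        apply Set.Subset.antisymm
        · rintro _ ⟨F', hF', rfl⟩
          have h3 : Relation.ReflTransGen (EAdj S S) F F' := (ereach_symm hF).trans hF'
          exact hFd.trans (ereach_conj hS1 h3 d)
        · intro F' hF'
          refine ⟨conjBy F' d⁻¹, ?_, conjBy_conjBy_inv _ _⟩
          have h3 : Relation.ReflTransGen (EAdj S S) (conjBy F d) F' := (ereach_symm hFd).trans hF'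
          have h4 := ereach_conj hS1 h3 d⁻¹
          rw [conjBy_inv_conjBy] at h4
          exact hF.trans h4
      · right
        rw [Set.disjoint_left]
        rintro _ ⟨F, hF, rfl⟩ hFd
        exact hd ⟨F, hF, hFd⟩
  have hab := weakTI_abelian hS hnd hTI
  apply hS1.ne_bot _ hAC.1
  rw [commutator_eq_bot_iff']
  exact hab A Relation.ReflTransGen.refl C hreachC

theorem dadj_connected (hS : IsRootSubgroupClass S) (hnd : IsNondegenerateRootSet S) :
    IsConnectedFamily (DAdj S) S := by
  intro A hA B hB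
  have h0 := eadj_connected hS hnd A hA B hB
  induction h0 with
  | refl => exact Relation.ReflTransGen.refl
  | tail _ h ih => exact Relation.ReflTransGen.tail (ih h.1) ⟨h.1, h.2.1, h.2.2.1.2.1.symm, h.2.2.1.2.2⟩

end Cfsg.Agent.Lib.Helper85Conn
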