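import Mathlib
import Cfsg.Prelude.Def_RootSubgroups
import Cfsg.Agent.Lib.Helper85Conn

set_option autoImplicit false

namespace Cfsg.Agent.Lib.Helper85Gen

open Cfsg Cfsg.Agent.Lib.Helper85RankOne Cfsg.Agent.Lib.Helper85Root Cfsg.Agent.Lib.Helper85Comm
  Cfsg.Agent.Lib.Helper85Graph Cfsg.Agent.Lib.Helper85Special Cfsg.Agent.Lib.Helper85Transfer
  Cfsg.Agent.Lib.Helper85Line Cfsg.Agent.Lib.Helper85Nat Cfsg.Agent.Lib.Helper85Mod
  Cfsg.Agent.Lib.Helper85Line2 Cfsg.Agent.Lib.Helper85TI Cfsg.Agent.Lib.Helper85Conn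
open scoped commutatorElement

variable {G : Type*} [Group G] {S : Set (Subgroup G)}

/-- For a line `A B` and `A' ∈ Ω_A` there is a point `E ≠ A` with `E ∈ Ψ_{A'}`, `A E = A B`
and `E ⁅E, A'⁆` a natural module for `⟨A, A'⟩`. -/
theorem exists_line_config (hS : IsRootSubgroupSet S) {A A' B : Subgroup G} (hA : A ∈ S)
    (hA' : A' ∈ S) (hp : IsRankOnePair A A') (hB : B ∈ linePartners S A) :
    ∃ E ∈ membersIn S (A ⊔ B), E ≠ A ∧ Config S E A' ⁅E, A'⁆ A ∧ A ⊔ E = A ⊔ B := by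
  by_cases hBr : IsRankOnePair B A'
  · obtain ⟨f, hf, hf1⟩ := exists_left hBr
    obtain ⟨β, hβ⟩ := exists_partner_left hBr hf hf1
    obtain ⟨a, ha⟩ := exists_partner_right hp hβ.memB hβ.neB
    have h1 := rc_commutator_eq_bot hB.1.2.2 β
    rw [ha.eq, hβ.eq] at h1
    have h2 := rc_commutator_eq_bot h1 f⁻¹
    rw [rc_rc, rc_rc, mul_inv_cancel, rc_one] at h2
    have hw : a * f⁻¹ ∈ A ⊔ B :=
      Subgroup.mul_mem _ (Subgroup.mem_sup_left ha.memA)
        (Subgroup.inv_mem _ (Subgroup.mem_sup_right hf))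
    have hw1 : a * f⁻¹ ≠ 1 := by
      intro e
      have haf : a = f := mul_inv_eq_one.mp e
      have h3 : a ∈ B ⊓ A := ⟨by rw [haf]; exact hf, ha.memA⟩
      rw [hB.2.2.2 B (right_mem_line hB) A (left_mem_line hA) hB.1.2.1, Subgroup.mem_bot] at h3
      exact ha.neA h3
    obtain ⟨E, hE, hwE⟩ := hB.2.2.1 _ hw hw1
    have hnr : ¬ IsRankOnePair E A' := by
      intro hEB
      have hne : rc A' (a * f⁻¹) ≠ A' := by
        intro e
        have := norm_left hEB (E.inv_mem hwE) e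
        exact hw1 (inv_eq_one.mp this)
      have hm : rc A' (a * f⁻¹) ∈ unipotentSubgroups E A' :=
        rc_mem_unipotent (right_mem_unipotent hEB) (Subgroup.mem_sup_left hwE)
      have hp2 := (pair_of_mem hEB hm (right_mem_unipotent hEB) hne).1
      exact not_commute hp2 (commutator_eq_bot_iff'.mp h2)
    have hEA : E ≠ A := by rintro rfl; exact hnr hp
    have hc := line_config hS hA hA' hp hB hE hEA hnr
    have hcase : RootCommutatorCase S A ⁅E, A'⁆ := commutatorCase_symm (hc.symm.caseAB hS)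
    have hEeq : ⁅A, ⁅E, A'⁆⁆ = E := by rw [Subgroup.commutator_comm]; exact hc.eqA
    refine ⟨E, hE, hEA, hc, ?_⟩
    apply le_antisymm (sup_le le_sup_left hE.2)
    refine sup_le le_sup_left ?_
    have hfm : f ∈ A ⊔ ⁅A, ⁅E, A'⁆⁆ := by
      rw [hEeq]
      have e : f = (a * f⁻¹)⁻¹ * a := by group
      rw [e]
      exact Subgroup.mul_mem _ (Subgroup.inv_mem _ (Subgroup.mem_sup_right hwE))
        (Subgroup.mem_sup_left ha.memA)
    obtain ⟨P, hP, hfP⟩ := cover_member hS hA hcase hfm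
    rw [hEeq] at hP
    have hP' : P ∈ membersIn S (A ⊔ B) := ⟨hP.1, le_trans hP.2 (sup_le le_sup_left hE.2)⟩
    have hBP : B = P := by
      by_contra hne
      have h3 : f ∈ B ⊓ P := ⟨hf, hfP⟩
      rw [hB.2.2.2 B (right_mem_line hB) P hP' hne, Subgroup.mem_bot] at h3
      exact hf1 h3
    rw [hBP]; exact hP.2
  · exact ⟨B, right_mem_line hB, hB.1.2.1,
      line_config hS hA hA' hp hB (right_mem_line hB) hB.1.2.1 hBr, rfl⟩

/-- For collinear `A`, `B` there is `D ∈ S` with `⁅B, D⁆ = A`. -/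
theorem exists_comm_eq (hS : IsRootSubgroupSet S) (hF : ∀ A ∈ S, ¬ IsIsolatedIn (FAdj S) S A)
    {A B : Subgroup G} (hA : A ∈ S) (hB : B ∈ linePartners S A) : ∃ D ∈ S, ⁅B, D⁆ = A := by
  obtain ⟨A', hA', hp⟩ := exists_partner (hF A hA) hA
  obtain ⟨M, hM, hcase, hV⟩ := exists_line_root hS hA hA' hp hB
  have hE : ⁅A, M⁆ ∈ membersIn S (A ⊔ B) := ⟨hcase.1, by rw [← hV]; exact le_sup_right⟩
  obtain ⟨x, -, hx1, hx2⟩ := line_two_transitive hS hF hA hB A (left_mem_line hA) _ hE B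
    (right_mem_line hB) A (left_mem_line hA) (ne_commutator hS hcase) hB.1.2.1
  refine ⟨conjBy M x, hS.conj_mem M hM x, ?_⟩
  rw [← hx1, ← conjBy_commutator, hx2]

theorem mem_linePartners_of_sup_eq {A B E : Subgroup G} (hS : IsRootSubgroupSet S) (hA : A ∈ S)
    (hB : B ∈ linePartners S A) (hE : E ∈ membersIn S (A ⊔ B)) (hne : E ≠ A)
    (hV : A ⊔ E = A ⊔ B) : E ∈ linePartners S A := by
  refine ⟨⟨hE.1, hne, ?_⟩, by rw [hV]; exact hB.2⟩
  rw [commutator_eq_bot_iff']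
  intro a ha e he
  exact line_comm hS hA hB a (Subgroup.mem_sup_left ha) e (hE.2 he)

theorem commutator_le_of_le {H K Y : Subgroup G} (hH : H ≤ Y) (hK : K ≤ Y) : ⁅H, K⁆ ≤ Y := by
  rw [Subgroup.commutator_le]
  intro x hx y hy
  rw [commutatorElement_def]
  exact Y.mul_mem (Y.mul_mem (Y.mul_mem (hH hx) (hK hy)) (Y.inv_mem (hH hx))) (Y.inv_mem (hK hy))

theorem generated (hS : IsRootSubgroupClass S) (hnd : IsNondegenerateRootSet S)
    {A B : Subgroup G} (hA : A ∈ S) (hB : B ∈ rankOnePartners S A) :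
    (⨆ C ∈ linePartners S A, C) ⊔ B = ⊤ := by
  have hS1 := hS.1
  have hpart : ∀ A ∈ S, ∃ A' ∈ S, IsRankOnePair A A' :=
    fun A hA => exists_rankOne_of_class hS hnd.2.1 hA
  have hF : ∀ A ∈ S, ¬ IsIsolatedIn (FAdj S) S A := by
    intro A hA
    obtain ⟨A', hA', hp⟩ := hpart A hA
    exact not_isolated hA hA' hp
  set Y := (⨆ C ∈ linePartners S A, C) ⊔ B with hY
  have hΛY : ∀ C ∈ linePartners S A, C ≤ Y := by
    intro C hC
    exact le_trans (le_iSup₂ (f := fun (E : Subgroup G) (_ : E ∈ linePartners S A) => E) C hC)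
      le_sup_left
  have hBY : B ≤ Y := le_sup_right
  have hAY : A ≤ Y := by
    obtain ⟨A₀, hA₀, B₀, hB₀, h0⟩ := hnd.2.2
    obtain ⟨g, hg⟩ := hS.2.2 _ h0.1 A hA
    have h1 := case_conj hS1 hA₀ hB₀ h0 g
    have hA₁ := hS1.conj_mem A₀ hA₀ g
    have hB₁ := hS1.conj_mem B₀ hB₀ g
    have e : ⁅conjBy A₀ g, conjBy B₀ g⁆ = A := by rw [← conjBy_commutator, hg]
    obtain ⟨A₂, hA₂, hp₂⟩ := hpart _ hA₁
    obtain ⟨B₂, hB₂, hq₂⟩ := hpart _ hB₁
    have h2 := mem_linePartners hS1 hA₁ hA₂ hp₂ h1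
    have h3 := mem_linePartners hS1 hB₁ hB₂ hq₂ (commutatorCase_symm h1)
    rw [Subgroup.commutator_comm] at h3
    rw [e] at h2 h3
    rw [← e]
    exact commutator_le_of_le (hΛY _ h2) (hΛY _ h3)
  have key : ∀ C ∈ linePartners S A, ∃ y ∈ Y, C = conjBy A y := by
    intro C hC
    obtain ⟨E, hE, hEA, hcfg, hV⟩ := exists_line_config hS1 hA hB.1 hB.2 hC
    have hEl : E ∈ linePartners S A := mem_linePartners_of_sup_eq hS1 hA hC hE hEA hV
    have hEY : E ≤ Y := hΛY E hEl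
    have hMY : ⁅E, B⁆ ≤ Y := commutator_le_of_le hEY hBY
    have hcase : RootCommutatorCase S A ⁅E, B⁆ := commutatorCase_symm (hcfg.symm.caseAB hS1)
    have hEeq : ⁅A, ⁅E, B⁆⁆ = E := by rw [Subgroup.commutator_comm]; exact hcfg.eqA
    have hl : membersIn S (A ⊔ C) = (fun b : G => conjBy A b) '' ((⁅E, B⁆ : Subgroup G) : Set G) ∪ {E} := by
      have := membersIn_eq hS1 hA hB.1 hB.2 hcase
      rwa [hEeq, hV] at this
    have hC' := right_mem_line hC
    rw [hl] at hC'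
    rcases hC' with ⟨m, hm, rfl⟩ | hC'
    · exact ⟨m, hMY hm, rfl⟩
    · have hCE : C = E := hC'
      obtain ⟨D', hD', hD'e⟩ := exists_comm_eq hS1 hF hA hEl
      have hcaseED : RootCommutatorCase S E D' :=
        commutatorCase_of_mem hS1 hE.1 hD' (hD'e ▸ hA)
      obtain ⟨D₂, hD₂, hpD⟩ := hpart D' hD'
      obtain ⟨E₂, hE₂, hpE⟩ := hpart E hE.1
      have hD'l : D' ∈ linePartners S A := by
        have := mem_linePartners hS1 hD' hD₂ hpD (commutatorCase_symm hcaseED)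
        rwa [Subgroup.commutator_comm, hD'e] at this
      have hD'Y := hΛY D' hD'l
      obtain ⟨d, hd, hd1⟩ := exists_ne_one_of_ne_bot (hS1.ne_bot D' hD')
      have hPne : conjBy E d ≠ E := conjBy_ne_self hS1 hE₂ hpE hcaseED hd hd1
      have hPl : conjBy E d ∈ membersIn S (A ⊔ C) := by
        refine ⟨hS1.conj_mem E hE.1 d, ?_⟩
        have := conjBy_le_sup_commutator (A := E) hd
        rw [hD'e, sup_comm, hV] at this
        exact this
      rw [hl] at hPl
      rcases hPl with ⟨m, hm, hme⟩ | hPl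
      · have hr : IsRankOnePair (conjBy A m) (conjBy B m) := isRankOnePair_conj hB.2 m
        have hBm : conjBy B m = B :=
          conjBy_eq_of_commute (fun β hβ => (hcfg.commBC hS1 β hβ m hm).symm)
        rw [hBm] at hr
        change conjBy A m = conjBy E d at hme
        rw [hme] at hr
        have hr2 := isRankOnePair_conj hr d⁻¹
        rw [conjBy_inv_conjBy] at hr2
        obtain ⟨x, hx, hxe⟩ := exists_conj_eq_right hr2
        obtain ⟨x₀, hx₀, hx₀e⟩ := exists_conj_eq_right hB.2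
        have hdY : d⁻¹ ∈ Y := Y.inv_mem (hD'Y hd)
        have hxY : x ∈ Y := (sup_le hEY (conjBy_le_of_le hBY hdY)) hx
        have hx₀Y : x₀ ∈ Y := (sup_le hAY hBY) hx₀
        refine ⟨x⁻¹ * (d⁻¹ * x₀), Y.mul_mem (Y.inv_mem hxY) (Y.mul_mem hdY hx₀Y), ?_⟩
        rw [← conjBy_conjBy, ← conjBy_conjBy, hx₀e, ← hxe, conjBy_inv_conjBy, hCE]
      · exact absurd hPl hPne
  have hall : ∀ F, Relation.ReflTransGen (EAdj S S) A F → ∃ y ∈ Y, F = conjBy A y := by
    intro F hF'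
    induction hF' with
    | refl => exact ⟨1, Y.one_mem, by simp⟩
    | tail _ h2 ih =>
      obtain ⟨y, hy, rfl⟩ := ih
      have h3 := linePartners_conj hS1 h2.2.2 y⁻¹
      rw [conjBy_inv_conjBy] at h3
      obtain ⟨y', hy', hy'e⟩ := key _ h3
      refine ⟨y * y', Y.mul_mem hy hy', ?_⟩
      rw [← conjBy_conjBy, ← hy'e, conjBy_conjBy_inv]
  rw [eq_top_iff, ← hS1.generates]
  apply iSup₂_le
  intro F hF'
  obtain ⟨y, hy, rfl⟩ := hall F (eadj_connected hS hnd A hA F hF')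
  exact conjBy_le_of_le hAY hy

end Cfsg.Agent.Lib.Helper85Gen
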