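import Mathlib
import Cfsg.Prelude.Def_RootSubgroups
import Cfsg.Agent.Lib.Helper85Line

set_option autoImplicit false

namespace Cfsg.Agent.Lib.Helper85Image

open Cfsg Cfsg.Agent.Lib.Helper85RankOne Cfsg.Agent.Lib.Helper85Root Cfsg.Agent.Lib.Helper85Comm
  Cfsg.Agent.Lib.Helper85Graph Cfsg.Agent.Lib.Helper85Special Cfsg.Agent.Lib.Helper85Transfer
  Cfsg.Agent.Lib.Helper85Line
open scoped commutatorElement

variable {G H : Type*} [Group G] [Group H] {S : Set (Subgroup G)}

theorem isNilpotent_map (f : G →* H) {A : Subgroup G} (h : Group.IsNilpotent A) :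
    Group.IsNilpotent (A.map f) := by
  have := h
  exact Group.nilpotent_of_surjective (f.subgroupMap A) (f.subgroupMap_surjective A)

theorem rankOneCondition_map (f : G →* H) {A B : Subgroup G} (h : RankOneCondition A B)
    (hne : A.map f ≠ B.map f) : RankOneCondition (A.map f) (B.map f) := by
  rintro _ ⟨a, ha, rfl⟩ ha1
  have ha1' : a ≠ 1 := by
    rintro rfl
    exact ha1 (map_one f)
  obtain ⟨b, hb, hb1, e⟩ := h a ha ha1'
  have e2 : conjBy (A.map f) (f b)⁻¹ = conjBy (B.map f) (f a)⁻¹ := by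
    rw [← map_inv, ← map_inv, ← map_conjBy, ← map_conjBy, e]
  refine ⟨f b, ⟨b, hb, rfl⟩, ?_, e2⟩
  intro hfb
  apply hne
  rw [hfb, inv_one, conjBy_one] at e2
  have h1 : conjBy (A.map f) (f a) = A.map f := conjBy_of_mem ⟨a, ha, rfl⟩
  have h2 : conjBy (A.map f) (f a) = B.map f := by
    conv_lhs => rw [e2]
    exact conjBy_conjBy_inv _ _
  rw [← h1, h2]

theorem isRankOnePair_map (f : G →* H) {A B : Subgroup G} (h : IsRankOnePair A B)
    (hne : A.map f ≠ B.map f) : IsRankOnePair (A.map f) (B.map f) :=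
  ⟨hne, isNilpotent_map f h.nilpotent_left, isNilpotent_map f h.nilpotent_right,
    rankOneCondition_map f h.cond_left hne, rankOneCondition_map f h.cond_right hne.symm⟩

theorem case_map (f : G →* H) {A B : Subgroup G} (h : RootCommutatorCase S A B) :
    RootCommutatorCase ((fun A : Subgroup G => A.map f) '' S) (A.map f) (B.map f) := by
  have hc : ⁅A.map f, B.map f⁆ = (⁅A, B⁆ : Subgroup G).map f := (Subgroup.map_commutator A B f).symm
  refine ⟨?_, ?_, ?_, ?_⟩
  · rw [hc]; exact ⟨_, h.1, rfl⟩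
  · rw [hc, ← Subgroup.map_sup]
    rintro _ ⟨c, hc', rfl⟩ _ ⟨x, hx, rfl⟩
    rw [← map_mul, ← map_mul, h.2.1 c hc' x hx]
  · rintro _ ⟨a, ha, rfl⟩ ha1
    have ha1' : a ≠ 1 := by
      rintro rfl
      exact ha1 (map_one f)
    rw [hc, ← h.2.2.1 a ha ha1', MonoidHom.map_closure]
    congr 1
    ext y
    constructor
    · rintro ⟨_, ⟨b, hb, rfl⟩, rfl⟩
      exact ⟨_, ⟨b, hb, rfl⟩, by simp⟩
    · rintro ⟨_, ⟨b, hb, rfl⟩, rfl⟩
      exact ⟨f b, ⟨b, hb, rfl⟩, by simp⟩
  · rintro _ ⟨b, hb, rfl⟩ hb1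
    have hb1' : b ≠ 1 := by
      rintro rfl
      exact hb1 (map_one f)
    rw [hc, ← h.2.2.2 b hb hb1', MonoidHom.map_closure]
    congr 1
    ext y
    constructor
    · rintro ⟨_, ⟨a, ha, rfl⟩, rfl⟩
      exact ⟨_, ⟨a, ha, rfl⟩, by simp⟩
    · rintro ⟨_, ⟨a, ha, rfl⟩, rfl⟩
      exact ⟨f a, ⟨a, ha, rfl⟩, by simp⟩

theorem isMulCommutative_map (f : G →* H) {A : Subgroup G} (h : IsMulCommutative A) :
    IsMulCommutative (A.map f) := by
  rw [Cfsg.Agent.Lib.Helper85RankOne.isMulCommutative_iff] at h ⊢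
  rintro _ ⟨a, ha, rfl⟩ _ ⟨b, hb, rfl⟩
  rw [← map_mul, ← map_mul, h a ha b hb]

theorem image_theorem (hS : IsRootSubgroupSet S) (hc : IsConnectedFamily (FAdj S) S) (f : G →* H)
    (hf : Function.Surjective f) :
    (IsRootSubgroupSet ((fun A : Subgroup G => A.map f) '' S) ∧
      IsConnectedFamily (FAdj ((fun A : Subgroup G => A.map f) '' S))
        ((fun A : Subgroup G => A.map f) '' S)) ∨
    ∃ A ∈ S, A.map f = ⊤ := by
  have hgen : (⨆ A ∈ S, A.map f) = ⊤ := by
    have h1 := congrArg (Subgroup.map f) hS.generates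
    rw [Subgroup.map_top_of_surjective f hf, Subgroup.map_iSup] at h1
    simp only [Subgroup.map_iSup] at h1
    exact h1
  by_cases hbot : ∃ A ∈ S, A.map f = ⊥
  · right
    obtain ⟨A, hA, hAb⟩ := hbot
    refine ⟨A, hA, ?_⟩
    rw [hAb, ← hgen, eq_comm, eq_bot_iff]
    apply iSup₂_le
    intro B hB
    obtain ⟨g, rfl⟩ := conj_of_reach (hc A hA B hB)
    rw [map_conjBy, hAb, conjBy_bot]
  · left
    push Not at hbot
    constructor
    · refine ⟨?_, ?_, ?_, ?_, ?_⟩
      · rintro _ ⟨A, hA, rfl⟩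
        exact isMulCommutative_map f (hS.commutative A hA)
      · rintro _ ⟨A, hA, rfl⟩
        exact hbot A hA
      · rw [eq_top_iff, ← hgen]
        apply iSup₂_le
        intro A hA
        exact le_iSup₂ (f := fun (E : Subgroup H)
          (_ : E ∈ (fun A : Subgroup G => A.map f) '' S) => E) (A.map f) ⟨A, hA, rfl⟩
      · rintro _ ⟨A, hA, rfl⟩ g
        obtain ⟨g, rfl⟩ := hf g
        exact ⟨conjBy A g, hS.conj_mem A hA g, map_conjBy f A g⟩
      · rintro _ ⟨A, hA, rfl⟩ _ ⟨B, hB, rfl⟩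
        rcases hS.pair A hA B hB with h | h | h
        · left
          show ⁅A.map f, B.map f⁆ = ⊥
          rw [← Subgroup.map_commutator, h, Subgroup.map_bot]
        · by_cases hne : A.map f = B.map f
          · left
            show ⁅A.map f, B.map f⁆ = ⊥
            rw [← hne, commutator_eq_bot_iff']
            exact Cfsg.Agent.Lib.Helper85RankOne.isMulCommutative_iff.mp
              (isMulCommutative_map f (hS.commutative A hA))
          · right; left
            exact isRankOnePair_map f h hne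
        · right; right
          exact case_map f h
    · rintro _ ⟨A, hA, rfl⟩ _ ⟨B, hB, rfl⟩
      have h0 := hc A hA B hB
      induction h0 with
      | refl => exact Relation.ReflTransGen.refl
      | @tail B' C' _ h ih =>
        have ih' := ih h.1
        by_cases hne : B'.map f = C'.map f
        · show Relation.ReflTransGen _ (A.map f) (C'.map f)
          rw [← hne]; exact ih'
        · exact Relation.ReflTransGen.tail ih'
            ⟨⟨B', h.1, rfl⟩, ⟨C', h.2.1, rfl⟩, isRankOnePair_map f h.2.2 hne⟩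

end Cfsg.Agent.Lib.Helper85Image
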