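import Cfsg.Agent.Lib.Helper85QA
import Cfsg.Agent.Lib.Helper85SL

/-!
The embedding of `SL₂(K)` attached to an invertible pair.
-/

namespace Cfsg.Agent.Lib.Helper85QM

open Matrix Cfsg.Agent.Lib.Helper85QA Cfsg.Agent.Lib.Helper85SL

variable {P : Type*} [CommRing P] {C : Type*} [Ring C] [Algebra P C]

theorem el_congr {N N' : C} {S p q r S' p' q' r' : P} (h1 : (S - S') • (1 : C) = 0) (h2 : (p - p') • N = 0)
    (h3 : (q - q') • N = 0) (h4 : (r - r') • N' = 0) : el N N' S p q r = el N N' S' p' q' r' := by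
  have e : el N N' S p q r - el N N' S' p' q' r' =
      (S - S') • (1 : C) + ((p - p') • N) * N' + (q - q') • N + (r - r') • N' := by
    rw [smul_mul_assoc]; simp only [el]; module
  rw [← sub_eq_zero, e, h1, h2, h3, h4]; simp

/-- image of the matrix `(a b; c d)`. -/
def Phi0 (x ω : P) (N N' : C) (a b c d : P) : C :=
  el N N' (1 + (d - 1) * (ω * x)) ((a - d) * ω) b (c * ω)

section

variable {x ω : P} {N N' : C}

theorem kill_one (h : QPair x N N') {y : P} (hy : y • N = 0) : (y * x) • (1 : C) = 0 := by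
  rw [mul_smul, ← h.z, smul_add, ← smul_mul_assoc, ← mul_smul_comm, hy]; simp

theorem Phi0_mul (h : QPair x N N') (e1 : (ω * x) • N = N) (e2 : (ω * x) • N' = N') (a b c d a' b' c' d' : P) :
    Phi0 x ω N N' a b c d * Phi0 x ω N N' a' b' c' d' =
      Phi0 x ω N N' (a * a' + b * c') (a * b' + b * d') (c * a' + d * c') (c * b' + d * d') := by
  have z1 : (ω * x - 1) • N = 0 := by rw [sub_smul, e1, one_smul, sub_self]
  have z2 : (ω * x - 1) • N' = 0 := by rw [sub_smul, e2, one_smul, sub_self]
  unfold Phi0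
  rw [h.el_mul]
  apply el_congr
  · have : (1 + (d - 1) * (ω * x)) * (1 + (d' - 1) * (ω * x)) + x * (c * ω) * b' -
        (1 + (c * b' + d * d' - 1) * (ω * x)) = ((d - 1) * (d' - 1) * ω) * ((ω * x - 1) * x) := by ring
    rw [this, mul_smul, kill_one h z1, smul_zero]
  · have : (1 + (d - 1) * (ω * x)) * ((a' - d') * ω) + (a - d) * ω * (1 + (d' - 1) * (ω * x)) +
        x * ((a - d) * ω) * ((a' - d') * ω) + b * (c' * ω) - c * ω * b' -
        (a * a' + b * c' - (c * b' + d * d')) * ω =
        (ω * ((d - 1) * (a' - d') + (a - d) * (d' - 1) + (a - d) * (a' - d'))) * (ω * x - 1) := by ring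
    rw [this, mul_smul, z1, smul_zero]
  · have : (1 + (d - 1) * (ω * x)) * b' + b * (1 + (d' - 1) * (ω * x)) + x * ((a - d) * ω) * b' -
        (a * b' + b * d') = ((d - 1) * b' + b * (d' - 1) + (a - d) * b') * (ω * x - 1) := by ring
    rw [this, mul_smul, z1, smul_zero]
  · have : (1 + (d - 1) * (ω * x)) * (c' * ω) + c * ω * (1 + (d' - 1) * (ω * x)) + x * (c * ω) * ((a' - d') * ω) -
        (c * a' + d * c') * ω = (ω * ((d - 1) * c' + c * (d' - 1) + c * (a' - d'))) * (ω * x - 1) := by ring
    rw [this, mul_smul, z2, smul_zero]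

theorem Phi0_congr (h : QPair x N N') {a b c d a' b' c' d' : P} (ha : (a - a') • N = 0) (hb : (b - b') • N = 0)
    (hc : (c - c') • N' = 0) (hd : (d - d') • N = 0) :
    Phi0 x ω N N' a b c d = Phi0 x ω N N' a' b' c' d' := by
  unfold Phi0
  apply el_congr
  · have : 1 + (d - 1) * (ω * x) - (1 + (d' - 1) * (ω * x)) = ω * ((d - d') * x) := by ring
    rw [this, mul_smul, kill_one h hd, smul_zero]
  · have : ((a - d) * ω - (a' - d') * ω) • N = ω • ((a - a') • N) - ω • ((d - d') • N) := by module
    rw [this, ha, hd]; simp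
  · exact hb
  · have : (c * ω - c' * ω) • N' = ω • ((c - c') • N') := by module
    rw [this, hc, smul_zero]

theorem Phi0_one : Phi0 x ω N N' 1 0 0 1 = 1 := by
  unfold Phi0
  rw [one_el (P := P) N N']
  apply el_ext <;> ring

theorem Phi0_u (a : P) : Phi0 x ω N N' 1 a 0 1 = 1 + a • N := by
  simp only [Phi0, el]; module

theorem Phi0_l (a : P) : Phi0 x ω N N' 1 0 a 1 = 1 + (a * ω) • N' := by
  simp only [Phi0, el]; module

theorem Phi0_N (h : QPair x N N') (e1 : (ω * x) • N = N) (a b c d : P) :
    Phi0 x ω N N' a b c d * N = a • N + (c * ω) • (N' * N) := by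
  simp only [Phi0, el, add_mul, smul_mul_assoc, one_mul, h.t_nn'n, h.nn, smul_zero, add_zero]
  have : (1 + (d - 1) * (ω * x)) • N + ((a - d) * ω) • x • N = N + (a - 1) • ((ω * x) • N) := by module
  rw [this, e1]; module

theorem Phi0_N' (h : QPair x N N') (e2 : (ω * x) • N' = N') (a b c d : P) :
    Phi0 x ω N N' a b c d * N' = b • (N * N') + d • N' := by
  simp only [Phi0, el, add_mul, smul_mul_assoc, one_mul, h.t_nn'n', h.nn', smul_zero, add_zero]
  have : (1 + (d - 1) * (ω * x)) • N' = N' + (d - 1) • ((ω * x) • N') := by module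
  rw [this, e2]; module

end

theorem sl2_embed {K : Type*} [Field K] (π : P →+* K) (hπ : Function.Surjective π) {x ω : P} {N N' : C}
    (h : QPair x N N') (e1 : (ω * x) • N = N) (e2 : (ω * x) • N' = N')
    (hk : ∀ y : P, π y = 0 ↔ y • N = 0) (hk' : ∀ y : P, y • N = 0 ↔ y • N' = 0) :
    ∃ Φ : SpecialLinearGroup (Fin 2) K →* Cˣ, Function.Injective Φ ∧
      (∀ a : P, ((Φ (uu (π a)) : Cˣ) : C) = 1 + a • N) ∧
      (∀ a : P, ((Φ (ll (π a)) : Cˣ) : C) = 1 + (a * ω) • N') := by
  classical
  set out : K → P := Function.surjInv hπ with hout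
  have ho : ∀ κ, π (out κ) = κ := Function.surjInv_eq hπ
  have hz : ∀ {a b : P}, π a = π b → (a - b) • N = 0 := by
    intro a b hab
    rw [← hk, map_sub, hab, sub_self]
  have hz' : ∀ {a b : P}, π a = π b → (a - b) • N' = 0 := fun hab => (hk' _).1 (hz hab)
  let F : SpecialLinearGroup (Fin 2) K → C := fun g =>
    Phi0 x ω N N' (out (g 0 0)) (out (g 0 1)) (out (g 1 0)) (out (g 1 1))
  have hF : ∀ (g : SpecialLinearGroup (Fin 2) K) (a b c d : P), π a = g 0 0 → π b = g 0 1 → π c = g 1 0 →
      π d = g 1 1 → F g = Phi0 x ω N N' a b c d := by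
    intro g a b c d ha hb hc hd
    exact Phi0_congr h (hz (by rw [ho, ha])) (hz (by rw [ho, hb])) (hz' (by rw [ho, hc])) (hz (by rw [ho, hd]))
  let Φ₀ : SpecialLinearGroup (Fin 2) K →* C :=
    { toFun := F
      map_one' := by
        rw [hF 1 1 0 0 1 (by simp) (by simp) (by simp) (by simp)]
        exact Phi0_one
      map_mul' := by
        intro g g'
        show F (g * g') = F g * F g'
        rw [show F g * F g' = _ from Phi0_mul h e1 e2 _ _ _ _ _ _ _ _]
        apply hF
        · simp [ho, Matrix.mul_apply, Fin.sum_univ_two]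
        · simp [ho, Matrix.mul_apply, Fin.sum_univ_two]
        · simp [ho, Matrix.mul_apply, Fin.sum_univ_two]
        · simp [ho, Matrix.mul_apply, Fin.sum_univ_two] }
  refine ⟨Φ₀.toHomUnits, ?_, ?_, ?_⟩
  · rw [injective_iff_map_eq_one]
    intro g hg
    have h1 : F g = 1 := by
      have := congrArg Units.val hg
      exact this
    have n1 : out (g 0 0) • N + (out (g 1 0) * ω) • (N' * N) = N := by
      rw [← Phi0_N h e1 _ (out (g 0 1)) _ (out (g 1 1))]
      show F g * N = N
      rw [h1, one_mul]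
    have n2 : out (g 0 1) • (N * N') + out (g 1 1) • N' = N' := by
      rw [← Phi0_N' h e2 (out (g 0 0)) _ (out (g 1 0)) _]
      show F g * N' = N'
      rw [h1, one_mul]
    have c0 : out (g 1 0) • N = 0 := by
      have := congrArg (fun Y => N * Y) n1
      simp only [mul_add, mul_smul_comm, h.nn, smul_zero, zero_add, ← mul_assoc, h.t_nn'n] at this
      have e : (out (g 1 0) * ω) • x • N = out (g 1 0) • ((ω * x) • N) := by module
      rw [e, e1] at this
      exact this
    have a0 : (out (g 0 0) - 1) • N = 0 := by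
      have e : (out (g 1 0) * ω) • (N' * N) = ω • (N' * (out (g 1 0) • N)) := by
        rw [mul_smul_comm]; module
      rw [e, c0, mul_zero, smul_zero, add_zero] at n1
      rw [sub_smul, n1, one_smul, sub_self]
    have b0 : out (g 0 1) • N' = 0 := by
      have := congrArg (fun Y => N' * Y) n2
      simp only [mul_add, mul_smul_comm, h.nn', smul_zero, add_zero, h.t_n'nn'] at this
      have e : out (g 0 1) • N' = ω • (out (g 0 1) • x • N') := by
        conv_lhs => rw [← e2]
        module
      rw [e, this, smul_zero]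
    have d0 : (out (g 1 1) - 1) • N' = 0 := by
      have e : out (g 0 1) • (N * N') = N * (out (g 0 1) • N') := by rw [mul_smul_comm]
      rw [e, b0, mul_zero, zero_add] at n2
      rw [sub_smul, n2, one_smul, sub_self]
    ext i j
    have A : g 0 0 = 1 := by
      have := (hk _).2 a0
      rwa [map_sub, ho, map_one, sub_eq_zero] at this
    have B : g 0 1 = 0 := by
      have := (hk _).2 ((hk' _).2 b0)
      rwa [ho] at this
    have Cc : g 1 0 = 0 := by
      have := (hk _).2 c0
      rwa [ho] at this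
    have Dd : g 1 1 = 1 := by
      have := (hk _).2 ((hk' _).2 d0)
      rwa [map_sub, ho, map_one, sub_eq_zero] at this
    fin_cases i <;> fin_cases j <;> simp [A, B, Cc, Dd]
  · intro a
    show F (uu (π a)) = _
    rw [hF (uu (π a)) 1 a 0 1 (by simp [uu_val]) (by simp [uu_val]) (by simp [uu_val]) (by simp [uu_val])]
    exact Phi0_u a
  · intro a
    show F (ll (π a)) = _
    rw [hF (ll (π a)) 1 0 a 1 (by simp [ll_val]) (by simp [ll_val]) (by simp [ll_val]) (by simp [ll_val])]
    exact Phi0_l a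

end Cfsg.Agent.Lib.Helper85QM
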