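import Cfsg.Agent.Lib.Helper85Transfer

/-!
Restricting a family of subgroups to the subgroup it generates.
-/

set_option autoImplicit false

namespace Cfsg.Agent.Lib.Helper85Sub

open Cfsg Cfsg.Agent.Lib.Helper85RankOne Cfsg.Agent.Lib.Helper85Transfer

variable {G : Type*} [Group G]

theorem eq_subgroupOf {X : Subgroup G} (C : Subgroup X) : C = (C.map X.subtype).subgroupOf X := by
  rw [Subgroup.subgroupOf, Subgroup.comap_map_eq_self_of_injective X.subtype_injective]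

theorem commutator_subgroupOf {A B X : Subgroup G} (hA : A ≤ X) (hB : B ≤ X) :
    ⁅A.subgroupOf X, B.subgroupOf X⁆ = ⁅A, B⁆.subgroupOf X := by
  conv_lhs => rw [eq_subgroupOf ⁅A.subgroupOf X, B.subgroupOf X⁆]
  rw [Subgroup.map_commutator, subgroupOf_map hA, subgroupOf_map hB]

theorem conjBy_subgroupOf {A X : Subgroup G} (hA : A ≤ X) (g : X) :
    conjBy (A.subgroupOf X) g = (conjBy A (g : G)).subgroupOf X := by
  conv_lhs => rw [eq_subgroupOf (conjBy (A.subgroupOf X) g)]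
  rw [map_conjBy, subgroupOf_map hA]
  rfl

theorem sup_subgroupOf {A B X : Subgroup G} (hA : A ≤ X) (hB : B ≤ X) :
    A.subgroupOf X ⊔ B.subgroupOf X = (A ⊔ B).subgroupOf X := by
  conv_lhs => rw [eq_subgroupOf (A.subgroupOf X ⊔ B.subgroupOf X)]
  rw [Subgroup.map_sup, subgroupOf_map hA, subgroupOf_map hB]

theorem case_subgroupOf {S : Set (Subgroup G)} {A B X : Subgroup G} (hA : A ≤ X) (hB : B ≤ X)
    (h : RootCommutatorCase S A B) :
    RootCommutatorCase ((fun A : Subgroup G => A.subgroupOf X) '' S) (A.subgroupOf X) (B.subgroupOf X) := by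
  obtain ⟨h1, h2, h3, h4⟩ := h
  rw [RootCommutatorCase, commutator_subgroupOf hA hB, sup_subgroupOf hA hB]
  refine ⟨⟨_, h1, rfl⟩, ?_, ?_, ?_⟩
  · intro c hc x hx
    exact Subtype.ext (h2 c hc x hx)
  · intro a ha ha1
    have := h3 a ha (fun e => ha1 (Subtype.ext e))
    rw [eq_subgroupOf (Subgroup.closure _), MonoidHom.map_closure, ← this]
    congr 2
    ext y
    constructor
    · rintro ⟨_, ⟨b, hb, rfl⟩, rfl⟩
      exact ⟨b, hb, rfl⟩
    · rintro ⟨b, hb, rfl⟩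
      exact ⟨_, ⟨⟨b, hB hb⟩, hb, rfl⟩, rfl⟩
  · intro b hb hb1
    have := h4 b hb (fun e => hb1 (Subtype.ext e))
    rw [eq_subgroupOf (Subgroup.closure _), MonoidHom.map_closure, ← this]
    congr 2
    ext y
    constructor
    · rintro ⟨_, ⟨a, ha, rfl⟩, rfl⟩
      exact ⟨a, ha, rfl⟩
    · rintro ⟨a, ha, rfl⟩
      exact ⟨_, ⟨⟨a, hA ha⟩, ha, rfl⟩, rfl⟩

theorem iSup_subgroupOf_eq_top (S : Set (Subgroup G)) :
    (⨆ A ∈ (fun A : Subgroup G => A.subgroupOf (⨆ B ∈ S, B)) '' S, A) = ⊤ := by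
  apply Subgroup.map_injective (⨆ B ∈ S, B).subtype_injective
  rw [iSup_image, Subgroup.map_iSup, ← MonoidHom.range_eq_map, Subgroup.range_subtype]
  apply iSup_congr
  intro A
  rw [Subgroup.map_iSup]
  apply iSup_congr
  intro hA
  exact subgroupOf_map (le_iSup₂_of_le A hA le_rfl)

theorem rootSet_subgroupOf {S : Set (Subgroup G)} (hc : ∀ A ∈ S, ∀ a ∈ A, ∀ b ∈ A, a * b = b * a)
    (hne : ∀ A ∈ S, A ≠ ⊥) (hconj : ∀ A ∈ S, ∀ g ∈ ⨆ B ∈ S, B, conjBy A g ∈ S)
    (hpair : ∀ A ∈ S, ∀ B ∈ S, ⁅A, B⁆ = ⊥ ∨ IsRankOnePair A B ∨ RootCommutatorCase S A B) :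
    IsRootSubgroupSet ((fun A : Subgroup G => A.subgroupOf (⨆ B ∈ S, B)) '' S) := by
  have hle : ∀ A ∈ S, A ≤ ⨆ B ∈ S, B := fun A hA => le_iSup₂_of_le A hA le_rfl
  refine ⟨?_, ?_, iSup_subgroupOf_eq_top S, ?_, ?_⟩
  · rintro _ ⟨A, hA, rfl⟩
    rw [Helper85RankOne.isMulCommutative_iff]
    intro a ha b hb
    exact Subtype.ext (hc A hA a ha b hb)
  · rintro _ ⟨A, hA, rfl⟩ h
    apply hne A hA
    rw [← subgroupOf_map (hle A hA)]
    simp only at h
    rw [h, Subgroup.map_bot]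
  · rintro _ ⟨A, hA, rfl⟩ g
    exact ⟨_, hconj A hA g g.2, (conjBy_subgroupOf (hle A hA) g).symm⟩
  · rintro _ ⟨A, hA, rfl⟩ _ ⟨B, hB, rfl⟩
    rcases hpair A hA B hB with h | h | h
    · left
      simp only
      rw [commutator_subgroupOf (hle A hA) (hle B hB), h]
      simp
    · right; left
      exact isRankOnePair_subgroupOf (hle A hA) (hle B hB) h
    · right; right
      exact case_subgroupOf (hle A hA) (hle B hB) h

end Cfsg.Agent.Lib.Helper85Sub
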