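import Cfsg.Agent.Lib.Helper85QW
import Cfsg.Agent.Lib.Helper85Sub
import Cfsg.Agent.Lib.Helper85QM

/-!
Quadratic pairs: `Σ` is a set of abstract root subgroups.
-/

set_option linter.unusedSectionVars false

namespace Cfsg.Agent.Lib.Helper85QX

open Polynomial Cfsg Module Cfsg.Agent.Lib.Helper85QP Cfsg.Agent.Lib.Helper85QI Cfsg.Agent.Lib.Helper85QS
  Cfsg.Agent.Lib.Helper85QR Cfsg.Agent.Lib.Helper85QV Cfsg.Agent.Lib.Helper85BA Cfsg.Agent.Lib.Helper85QT
  Cfsg.Agent.Lib.Helper85QW Cfsg.Agent.Lib.Helper85QA Cfsg.Agent.Lib.Helper85QC Cfsg.Agent.Lib.Helper85QM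
  Cfsg.Agent.Lib.Helper85SL

variable {k : Type*} [Field k] {M : Type*} [AddCommGroup M] [Module k M] [FiniteDimensional k M]

local notation "GLM" => LinearMap.GeneralLinearGroup k M
local notation "EndM" => (M →ₗ[k] M)

theorem aeval_mul_of_fix {Z N : EndM} (h : Z * N = N) (y : k[X]) : aeval Z y * N = (y.eval 1) • N := by
  induction y using Polynomial.induction_on' with
  | add a b ha hb => rw [map_add, add_mul, ha, hb, eval_add, add_smul]
  | monomial n a =>
    have hp : Z ^ n * N = N := by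
      induction n with
      | zero => simp
      | succ n ih => rw [pow_succ, mul_assoc, h, ih]
    rw [aeval_monomial, eval_monomial, one_pow, mul_one, mul_assoc, hp, Module.algebraMap_end_eq_smul_id,
      smul_mul_assoc]
    rfl

theorem sl2_of_sharp {X Y : EndM} (hX : X * X = 0) (hY : Y * Y = 0) (hX0 : X ≠ 0) (h1 : X * Y * X = X)
    (h2 : Y * X * Y = Y) :
    ∃ Ψ : Matrix.SpecialLinearGroup (Fin 2) k →* GLM, Function.Injective Ψ ∧
      (∀ a : k, ((Ψ (uu a) : GLM) : EndM) = 1 + a • X) ∧ (∀ a : k, ((Ψ (ll a) : GLM) : EndM) = 1 + a • Y) := by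
  have hY0 : Y ≠ 0 := by
    rintro rfl
    apply hX0
    rw [← h1]; simp
  obtain ⟨Z, hZ⟩ : ∃ Z : EndM, Z = X * Y + Y * X := ⟨_, rfl⟩
  have zX : Z * X = X := by rw [hZ, zn_eq hX, h1]
  have zY : Z * Y = Y := by rw [hZ, zn'_eq hY, h2]
  have cX : Z * X = X * Z := by rw [hZ]; exact z_comm hX
  have cY : Z * Y = Y * Z := by rw [hZ]; exact z_comm' hY
  obtain ⟨Nc, hNc⟩ : ∃ Nc : Cen Z, (Nc : EndM) = X := ⟨⟨X, mem_Cen.2 cX⟩, rfl⟩
  obtain ⟨Nc', hNc'⟩ : ∃ Nc' : Cen Z, (Nc' : EndM) = Y := ⟨⟨Y, mem_Cen.2 cY⟩, rfl⟩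
  have hq : QPair (Polynomial.X : k[X]) Nc Nc' := by
    refine ⟨Subtype.ext (by simp [hNc, hX]), Subtype.ext (by simp [hNc', hY]), ?_⟩
    apply Subtype.ext
    rw [smul_val, aeval_X]
    simp [hNc, hNc', hZ]
  have sv : ∀ y : k[X], ((y • Nc : Cen Z) : EndM) = (y.eval 1) • X := by
    intro y; rw [smul_val, hNc, aeval_mul_of_fix zX]
  have sv' : ∀ y : k[X], ((y • Nc' : Cen Z) : EndM) = (y.eval 1) • Y := by
    intro y; rw [smul_val, hNc', aeval_mul_of_fix zY]
  have z1 : ∀ y : k[X], y • Nc = 0 ↔ y.eval 1 = 0 := by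
    intro y
    constructor
    · intro h
      have := congrArg Subtype.val h
      rw [sv] at this
      rcases smul_eq_zero.1 this with h | h
      · exact h
      · exact absurd h hX0
    · intro h
      apply Subtype.ext
      rw [sv, h, zero_smul]; rfl
  have z2 : ∀ y : k[X], y • Nc' = 0 ↔ y.eval 1 = 0 := by
    intro y
    constructor
    · intro h
      have := congrArg Subtype.val h
      rw [sv'] at this
      rcases smul_eq_zero.1 this with h | h
      · exact h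
      · exact absurd h hY0
    · intro h
      apply Subtype.ext
      rw [sv', h, zero_smul]; rfl
  obtain ⟨Φ, hinj, hu, hl⟩ := sl2_embed (x := (Polynomial.X : k[X])) (ω := 1) (evalRingHom (1 : k))
    (fun c => ⟨C c, by simp⟩) hq
    (by apply Subtype.ext; rw [sv, hNc]; simp) (by apply Subtype.ext; rw [sv', hNc']; simp)
    (fun y => by rw [z1]; rfl) (fun y => by rw [z1, z2])
  refine ⟨(Units.map ((Cen Z).val : Cen Z →* Module.End k M)).comp Φ, ?_, ?_, ?_⟩
  · intro a b hab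
    apply hinj
    apply Units.ext
    apply Subtype.ext
    exact congrArg Units.val hab
  · intro a
    have := congrArg Subtype.val (hu (C a))
    rw [Subalgebra.coe_add, sv] at this
    simp only [coe_evalRingHom, eval_C] at this
    exact this
  · intro a
    have := congrArg Subtype.val (hl (C a))
    rw [Subalgebra.coe_add, sv'] at this
    simp only [coe_evalRingHom, eval_C, mul_one] at this
    exact this

theorem upper_eq (K : Type*) [Field K] : upperUnipotentSL2 K = Subgroup.closure (Set.range (uu : K → _)) := by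
  unfold upperUnipotentSL2
  congr 1
  ext g
  constructor
  · rintro ⟨h1, h2, h3⟩
    refine ⟨g 0 1, ?_⟩
    ext i j
    fin_cases i <;> fin_cases j <;> simp [uu_val, h1, h2, h3]
  · rintro ⟨t, rfl⟩
    simp [uu_val]

theorem lower_eq (K : Type*) [Field K] : lowerUnipotentSL2 K = Subgroup.closure (Set.range (ll : K → _)) := by
  unfold lowerUnipotentSL2
  congr 1
  ext g
  constructor
  · rintro ⟨h1, h2, h3⟩
    refine ⟨g 1 0, ?_⟩
    ext i j
    fin_cases i <;> fin_cases j <;> simp [ll_val, h1, h2, h3]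
  · rintro ⟨t, rfl⟩
    simp [ll_val]

theorem upper_sup_lower (K : Type*) [Field K] : upperUnipotentSL2 K ⊔ lowerUnipotentSL2 K = ⊤ := by
  rw [upper_eq, lower_eq, ← Subgroup.closure_union, closure_eq_top]

theorem card_gt (hk2 : ringChar k ≠ 2) (hk3 : Nat.card k ≠ 3) : 3 < ENat.card k := by
  classical
  by_cases hfin : Finite k
  · have := Fintype.ofFinite k
    have h2 : (2 : k) ≠ 0 := Ring.two_ne_zero hk2
    have h11 : (1 : k) ≠ -1 := by
      intro h
      apply h2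
      have : (1 : k) + 1 = 0 := by
        nth_rewrite 1 [h]; simp
      rw [← this]; norm_num
    have hc : ({0, 1, -1} : Finset k).card = 3 := by
      rw [Finset.card_insert_of_notMem, Finset.card_insert_of_notMem, Finset.card_singleton]
      · simpa using h11
      · simp
    have hle := Finset.card_le_univ ({0, 1, -1} : Finset k)
    rw [hc, ← Nat.card_eq_fintype_card] at hle
    rw [ENat.card_eq_coe_natCard]
    have : 3 < Nat.card k := lt_of_le_of_ne hle (Ne.symm hk3)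
    exact_mod_cast this
  · rw [not_finite_iff_infinite] at hfin
    rw [ENat.card_eq_top_of_infinite]
    exact ENat.natCast_lt_top 3

theorem sigma_comm {G A : Subgroup GLM} (hA : A ∈ quadraticRootSubgroups G) :
    ∀ a ∈ A, ∀ b ∈ A, a * b = b * a := by
  obtain ⟨σ, hσ, rfl⟩ := hA
  exact fun a ha b hb => E_comm hσ ha hb

theorem sigma_ne_bot {G A : Subgroup GLM} (hA : A ∈ quadraticRootSubgroups G) : A ≠ ⊥ := by
  obtain ⟨σ, hσ, rfl⟩ := hA
  intro h
  have := self_mem_E hσ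
  rw [h, Subgroup.mem_bot] at this
  exact ne_one_iff.2 (mem_min_iff.1 hσ).ne this

theorem sigma_le {G A : Subgroup GLM} (hA : A ∈ quadraticRootSubgroups G) : A ≤ G := by
  obtain ⟨σ, hσ, rfl⟩ := hA
  exact E_le hσ

theorem sigma_conj {G A : Subgroup GLM} (hA : A ∈ quadraticRootSubgroups G) {g : GLM} (hg : g ∈ G) :
    conjBy A g ∈ quadraticRootSubgroups G := by
  obtain ⟨σ, hσ, rfl⟩ := hA
  exact ⟨_, conj_mem_min hσ hg, conjBy_E hσ hg⟩

theorem sigma_pair (hk2 : ringChar k ≠ 2) (hk3 : Nat.card k ≠ 3) {G : Subgroup GLM}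
    (hG : IsQuadraticPair G) {A B : Subgroup GLM} (hA : A ∈ quadraticRootSubgroups G)
    (hB : B ∈ quadraticRootSubgroups G) :
    ⁅A, B⁆ = ⊥ ∨ IsRankOnePair A B ∨ RootCommutatorCase (quadraticRootSubgroups G) A B := by
  obtain ⟨σ, hσ, rfl⟩ := hA
  obtain ⟨τ, hτ, rfl⟩ := hB
  rcases dich hk2 hk3 (mem_min_iff.1 hσ) (mem_min_iff.1 hτ) with h0 | ⟨d1, d2⟩
  · rcases unip_main hk2 hk3 hG hσ hτ h0 with h | ⟨a, b, c, _, _, _, g⟩
    · exact Or.inl h
    · exact Or.inr (Or.inr ⟨a, g, b, c⟩)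
  · exact Or.inr (Or.inl (rankOne hk2 hk3 hσ hτ d1 d2).1)

theorem rank_one_type (hk2 : ringChar k ≠ 2) (hk3 : Nat.card k ≠ 3) {G : Subgroup GLM}
    (hG : IsQuadraticPair G) {σ τ : GLM} (hσ : σ ∈ minimalQuadraticElements G)
    (hτ : τ ∈ minimalQuadraticElements G)
    (hr : IsRankOnePair (sameActionSubgroup G σ) (sameActionSubgroup G τ)) :
    LinearMap.range ((σ : EndM) - 1) ⊓ LinearMap.ker ((τ : EndM) - 1) = ⊥ ∧
      LinearMap.range ((τ : EndM) - 1) ⊓ LinearMap.ker ((σ : EndM) - 1) = ⊥ := by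
  rcases dich hk2 hk3 (mem_min_iff.1 hσ) (mem_min_iff.1 hτ) with h0 | h
  · exfalso
    apply Helper85RankOne.not_isNilpotent hr
    rw [Subgroup.isNilpotent_iff_lowerCentralSeries]
    refine ⟨2, ?_⟩
    rw [Subgroup.lowerCentralSeries_succ, Subgroup.lowerCentralSeries_succ, Subgroup.lowerCentralSeries_zero]
    rcases unip_main hk2 hk3 hG hσ hτ h0 with h | ⟨_, _, _, _, e, _, _⟩
    · rw [Subgroup.commutator_eq_bot_iff_le_centralizer] at h
      have hc : ∀ e ∈ sameActionSubgroup G σ, ∀ f ∈ sameActionSubgroup G τ, e * f * e⁻¹ * f⁻¹ ∈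
          (⊥ : Subgroup GLM) := by
        intro e he f hf
        have := Subgroup.mem_centralizer_iff.1 (h he) f hf
        rw [Subgroup.mem_bot, ← this]; group
      have := (class_two (fun a ha b hb => E_comm hσ ha hb) (fun a ha b hb => E_comm hτ ha hb) hc
        (by intro d hd e _; rw [Subgroup.mem_bot.1 hd]; simp)
        (by intro d hd e _; rw [Subgroup.mem_bot.1 hd]; simp)).2
      rw [le_bot_iff.1 this]
      simp
    · exact e
  · exact h

theorem sigma_special (hk2 : ringChar k ≠ 2) (hk3 : Nat.card k ≠ 3) {G : Subgroup GLM}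
    (hG : IsQuadraticPair G) {A B : Subgroup GLM} (hA : A ∈ quadraticRootSubgroups G)
    (hB : B ∈ quadraticRootSubgroups G) (hr : IsRankOnePair A B) : IsSpecialRankOnePair A B := by
  obtain ⟨σ, hσ, rfl⟩ := hA
  obtain ⟨τ, hτ, rfl⟩ := hB
  obtain ⟨d1, d2⟩ := rank_one_type hk2 hk3 hG hσ hτ hr
  exact rankOne hk2 hk3 hσ hτ d1 d2

theorem sigma_partner (hk2 : ringChar k ≠ 2) (hk3 : Nat.card k ≠ 3) {G : Subgroup GLM}
    (hG : IsQuadraticPair G) {A : Subgroup GLM} (hA : A ∈ quadraticRootSubgroups G) :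
    ∃ t ∈ G, IsRankOnePair A (conjBy A t) := by
  obtain ⟨σ, hσ, rfl⟩ := hA
  have hN := mem_min_iff.1 hσ
  obtain ⟨t, ht, hp⟩ := exists_partner hk2 hk3 hG hN
  refine ⟨t, ht, ?_⟩
  rw [conjBy_E hσ ht]
  have hτ := conj_mem_min hσ ht
  rcases dich hk2 hk3 hN (mem_min_iff.1 hτ) with h0 | ⟨d1, d2⟩
  · rw [conj_sub] at h0
    exact absurd h0 hp
  · exact (rankOne hk2 hk3 hσ hτ d1 d2).1

theorem sigma_psl2 (hk2 : ringChar k ≠ 2) (hk3 : Nat.card k ≠ 3) {G : Subgroup GLM}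
    (hG : IsQuadraticPair G) {A B : Subgroup GLM} (hA : A ∈ quadraticRootSubgroups G)
    (hB : B ∈ quadraticRootSubgroups G) (hr : IsRankOnePair A B) :
    ∃ A₀ B₀ : Subgroup GLM, A₀ ≤ A ∧ B₀ ≤ B ∧ IsPSL2PairOver k A₀ B₀ := by
  obtain ⟨σ, hσ, rfl⟩ := hA
  obtain ⟨τ, hτ, rfl⟩ := hB
  obtain ⟨d1, d2⟩ := rank_one_type hk2 hk3 hG hσ hτ hr
  have hN := mem_min_iff.1 hσ
  have hN' := mem_min_iff.1 hτ
  obtain ⟨Y, hY, _, h1, h2⟩ := sharp hk2 hk3 hN' d1 d2 (IsLg.self hN) hN.ne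
  obtain ⟨Ψ, hinj, hu, hl⟩ := sl2_of_sharp hN.sq (IsLg.mul hN'.sq hY hY) hN.ne h1 h2
  refine ⟨(upperUnipotentSL2 k).map Ψ, (lowerUnipotentSL2 k).map Ψ, ?_, ?_, Ψ, ?_, ?_, rfl, rfl⟩
  · rw [upper_eq, MonoidHom.map_closure, Subgroup.closure_le]
    rintro _ ⟨_, ⟨a, rfl⟩, rfl⟩
    rw [SetLike.mem_coe, mem_E_iff hσ, hu, add_sub_cancel_left]
    exact (IsLg.self hN).smul hN a
  · rw [lower_eq, MonoidHom.map_closure, Subgroup.closure_le]
    rintro _ ⟨_, ⟨a, rfl⟩, rfl⟩
    rw [SetLike.mem_coe, mem_E_iff hτ, hl, add_sub_cancel_left]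
    exact hY.smul hN' a
  · rw [← Subgroup.map_sup, upper_sup_lower, MonoidHom.range_eq_map]
  · rw [(MonoidHom.ker_eq_bot_iff Ψ).2 hinj]
    exact bot_le

end Cfsg.Agent.Lib.Helper85QX
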