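import Cfsg.Agent.Lib.Helper85LRDefs
import Cfsg.Agent.Lib.Helper85QX
import Cfsg.Agent.Lib.Helper85Image
import Cfsg.Agent.Lib.Helper85Mod
import Cfsg.Agent.S5016

/-!
Linear root data give sets of abstract `k`-root subgroups.
-/

set_option linter.unusedSectionVars false
set_option autoImplicit false

namespace Cfsg.Agent.Lib.Helper85LR

open Cfsg Cfsg.Agent.Lib.Helper85LRDefs Cfsg.Agent.Lib.Helper85RankOne Cfsg.Agent.Lib.Helper85Root
  Cfsg.Agent.Lib.Helper85Transfer Cfsg.Agent.Lib.Helper85Sub Cfsg.Agent.Lib.Helper85SL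
  Cfsg.Agent.Lib.Helper85Image Cfsg.Agent.Lib.Helper85Graph

variable {k : Type*} [Field k] {M : Type*} [AddCommGroup M] [Module k M] [FiniteDimensional k M]
variable {𝔾 : Type*} [Group 𝔾]

local notation "GLM" => LinearMap.GeneralLinearGroup k M
local notation "EndM" => (Module.End k M)

variable {ρ : 𝔾 →* LinearMap.GeneralLinearGroup k M} {𝒳 : Set (Module.End k M)} {S : Set (Subgroup 𝔾)}

theorem smul_sq {X : EndM} (h : X * X = 0) (c : k) : (c • X) * (c • X) = 0 := by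
  rw [smul_mul_assoc, mul_smul_comm, h]; simp

theorem inv_val {X : EndM} (h : X * X = 0) {g : 𝔾} (hg : ((ρ g : GLM) : EndM) = 1 + X) :
    ((ρ g⁻¹ : GLM) : EndM) = 1 - X := by
  rw [map_inv]
  apply Units.inv_eq_of_mul_eq_one_right
  rw [hg, add_mul, mul_sub, mul_sub, h]; simp

theorem ext_rho (hinj : Function.Injective ρ) {g g' : 𝔾} (h : ((ρ g : GLM) : EndM) = ((ρ g' : GLM) : EndM)) :
    g = g' := hinj (Units.ext h)

theorem val_mul (g g' : 𝔾) : ((ρ (g * g') : GLM) : EndM) = ((ρ g : GLM) : EndM) * ((ρ g' : GLM) : EndM) := by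
  rw [map_mul, Units.val_mul]

theorem val_mul_inv (g : 𝔾) : ((ρ g : GLM) : EndM) * ((ρ g⁻¹ : GLM) : EndM) = 1 := by
  rw [← val_mul, mul_inv_cancel, map_one, Units.val_one]

theorem val_inv_mul (g : 𝔾) : ((ρ g⁻¹ : GLM) : EndM) * ((ρ g : GLM) : EndM) = 1 := by
  rw [← val_mul, inv_mul_cancel, map_one, Units.val_one]

theorem exists_elem (h : Real ρ 𝒳 S) {X : EndM} (hX : X ∈ 𝒳) (c : k) :
    ∃ g, ((ρ g : GLM) : EndM) = 1 + c • X := by
  by_cases hc : c = 0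
  · exact ⟨1, by rw [hc]; simp⟩
  · exact h.surj _ (h.lrd.smul X hX c hc)

theorem Is.eq {A B : Subgroup 𝔾} {X : EndM} (hA : Is ρ A X) (hB : Is ρ B X) : A = B := by
  ext g; rw [hA g, hB g]

theorem Is.smul {A : Subgroup 𝔾} {X : EndM} (hA : Is ρ A X) {c : k} (hc : c ≠ 0) : Is ρ A (c • X) := by
  intro g
  rw [hA g]
  constructor
  · rintro ⟨d, e⟩
    exact ⟨d * c⁻¹, by rw [e, smul_smul, mul_assoc, inv_mul_cancel₀ hc, mul_one]⟩
  · rintro ⟨d, e⟩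
    exact ⟨d * c, by rw [e, smul_smul]⟩

theorem Is.comm (hinj : Function.Injective ρ) {A : Subgroup 𝔾} {X : EndM} (hA : Is ρ A X) :
    ∀ a ∈ A, ∀ b ∈ A, a * b = b * a := by
  intro a ha b hb
  obtain ⟨c, hc⟩ := (hA a).1 ha
  obtain ⟨d, hd⟩ := (hA b).1 hb
  apply ext_rho hinj
  rw [val_mul, val_mul, hc, hd]
  simp only [add_mul, mul_add, one_mul, mul_one, smul_mul_assoc, mul_smul_comm]
  module

theorem Is.ne_bot (h : Real ρ 𝒳 S) {A : Subgroup 𝔾} {X : EndM} (hX : X ∈ 𝒳) (hA : Is ρ A X) : A ≠ ⊥ := by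
  intro hb
  obtain ⟨g, hg⟩ := h.surj X hX
  have hgA : g ∈ A := (hA g).2 ⟨1, by rw [hg, one_smul]⟩
  rw [hb, Subgroup.mem_bot] at hgA
  rw [hgA, map_one, Units.val_one] at hg
  exact h.lrd.ne X hX (by simpa using hg.symm)

theorem Is.conj {A : Subgroup 𝔾} {X : EndM} (hA : Is ρ A X) (g : 𝔾) :
    Is ρ (conjBy A g) (((ρ g : GLM) : EndM) * X * ((ρ g⁻¹ : GLM) : EndM)) := by
  intro x
  rw [mem_conjBy, hA]
  constructor
  · rintro ⟨c, e⟩
    refine ⟨c, ?_⟩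
    have e2 : x = g * (g⁻¹ * x * g) * g⁻¹ := by group
    rw [e2, val_mul, val_mul, e, mul_add, add_mul, mul_one, val_mul_inv, mul_smul_comm, smul_mul_assoc]
  · rintro ⟨c, e⟩
    refine ⟨c, ?_⟩
    rw [val_mul, val_mul, e, mul_add, add_mul, mul_one, val_inv_mul, mul_smul_comm, smul_mul_assoc]
    congr 2
    rw [← mul_assoc, ← mul_assoc, val_inv_mul, one_mul, mul_assoc, val_inv_mul, mul_one]

theorem conj_mem (h : Real ρ 𝒳 S) {A : Subgroup 𝔾} (hA : A ∈ S) (g : 𝔾) : conjBy A g ∈ S := by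
  obtain ⟨X, hX, hAX⟩ := h.mem A hA
  obtain ⟨B, hB, hBX⟩ := h.ex _ (h.conj g X hX)
  rw [Is.eq (Is.conj hAX g) hBX]; exact hB

theorem comm_of_TyC (hinj : Function.Injective ρ) {A B : Subgroup 𝔾} {X Y : EndM} (hA : Is ρ A X) (hB : Is ρ B Y)
    (hC : TyC X Y) : ⁅A, B⁆ = ⊥ := by
  rw [commutator_eq_bot_iff']
  intro a ha b hb
  obtain ⟨c, hc⟩ := (hA a).1 ha
  obtain ⟨d, hd⟩ := (hB b).1 hb
  apply ext_rho hinj
  rw [val_mul, val_mul, hc, hd]
  simp only [add_mul, mul_add, one_mul, mul_one, smul_mul_assoc, mul_smul_comm]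
  rw [show X * Y = Y * X from hC]
  module

theorem comm_id {X Y : EndM} (hX : X * X = 0) (hY : Y * Y = 0) (h1 : X * Y * X = 0) (h2 : Y * X * Y = 0) :
    (1 + X) * (1 + Y) * (1 - X) * (1 - Y) = 1 + (X * Y - Y * X) := by
  have k1 : ∀ W : EndM, X * (X * W) = 0 := fun W => by rw [← mul_assoc, hX, zero_mul]
  have k2 : ∀ W : EndM, Y * (Y * W) = 0 := fun W => by rw [← mul_assoc, hY, zero_mul]
  have k3 : X * (Y * X) = 0 := by rw [← mul_assoc, h1]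
  have k4 : Y * (X * Y) = 0 := by rw [← mul_assoc, h2]
  have k5 : ∀ W : EndM, X * (Y * (X * W)) = 0 := fun W => by rw [← mul_assoc, ← mul_assoc, h1, zero_mul]
  simp only [mul_add, add_mul, mul_sub, sub_mul, mul_one, one_mul, mul_assoc, hX, hY, k1, k2, k3, k4, k5, mul_zero,
    sub_zero, add_zero, zero_add, zero_sub, neg_zero, sub_self]
  abel

theorem comm_val {A B : Subgroup 𝔾} {X Y : EndM} (hX : X * X = 0) (hY : Y * Y = 0) (h1 : X * Y * X = 0)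
    (h2 : Y * X * Y = 0) {a b : 𝔾} {c d : k} (hc : ((ρ a : GLM) : EndM) = 1 + c • X)
    (hd : ((ρ b : GLM) : EndM) = 1 + d • Y) :
    ((ρ (a * b * a⁻¹ * b⁻¹) : GLM) : EndM) = 1 + (c * d) • (X * Y - Y * X) := by
  rw [val_mul, val_mul, val_mul, hc, hd, inv_val (smul_sq hX c) hc, inv_val (smul_sq hY d) hd,
    comm_id (smul_sq hX c) (smul_sq hY d)]
  · simp only [smul_mul_assoc, mul_smul_comm, smul_smul, smul_sub]
    rw [mul_comm d c]
  · simp only [smul_mul_assoc, mul_smul_comm, h1, smul_zero]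
  · simp only [smul_mul_assoc, mul_smul_comm, h2, smul_zero]

theorem case_of_TyK (h : Real ρ 𝒳 S) {A B : Subgroup 𝔾} {X Y : EndM} (hX : X ∈ 𝒳) (hY : Y ∈ 𝒳) (hA : Is ρ A X)
    (hB : Is ρ B Y) (hK : TyK 𝒳 X Y) : RootCommutatorCase S A B := by
  obtain ⟨h1, h2, hZ⟩ := hK
  have sX := h.lrd.sq X hX
  have sY := h.lrd.sq Y hY
  obtain ⟨C, hC, hCZ⟩ := h.ex _ hZ
  have cmem : ∀ a ∈ A, ∀ b ∈ B, a * b * a⁻¹ * b⁻¹ ∈ C := by
    intro a ha b hb
    obtain ⟨c, hc⟩ := (hA a).1 ha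
    obtain ⟨d, hd⟩ := (hB b).1 hb
    exact (hCZ _).2 ⟨c * d, comm_val (A := A) (B := B) sX sY h1 h2 hc hd⟩
  have cl1 : ∀ a ∈ A, a ≠ 1 → Subgroup.closure ((fun b : 𝔾 => a * b * a⁻¹ * b⁻¹) '' (B : Set 𝔾)) = C := by
    intro a ha ha1
    apply le_antisymm
    · rw [Subgroup.closure_le]
      rintro _ ⟨b, hb, rfl⟩
      exact cmem a ha b hb
    · intro z hz
      obtain ⟨c, hc⟩ := (hA a).1 ha
      have hc0 : c ≠ 0 := by
        rintro rfl
        apply ha1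
        apply ext_rho h.inj
        rw [hc]; simp
      obtain ⟨e, he⟩ := (hCZ z).1 hz
      obtain ⟨b, hb⟩ := exists_elem h hY (c⁻¹ * e)
      apply Subgroup.subset_closure
      refine ⟨b, (hB b).2 ⟨_, hb⟩, ?_⟩
      apply ext_rho h.inj
      rw [comm_val (A := A) (B := B) sX sY h1 h2 hc hb, he, ← mul_assoc, mul_inv_cancel₀ hc0, one_mul]
  have cl2 : ∀ b ∈ B, b ≠ 1 → Subgroup.closure ((fun a : 𝔾 => a * b * a⁻¹ * b⁻¹) '' (A : Set 𝔾)) = C := by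
    intro b hb hb1
    apply le_antisymm
    · rw [Subgroup.closure_le]
      rintro _ ⟨a, ha, rfl⟩
      exact cmem a ha b hb
    · intro z hz
      obtain ⟨d, hd⟩ := (hB b).1 hb
      have hd0 : d ≠ 0 := by
        rintro rfl
        apply hb1
        apply ext_rho h.inj
        rw [hd]; simp
      obtain ⟨e, he⟩ := (hCZ z).1 hz
      obtain ⟨a, ha⟩ := exists_elem h hX (e * d⁻¹)
      apply Subgroup.subset_closure
      refine ⟨a, (hA a).2 ⟨_, ha⟩, ?_⟩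
      apply ext_rho h.inj
      rw [comm_val (A := A) (B := B) sX sY h1 h2 ha hd, he, mul_assoc, inv_mul_cancel₀ hd0, mul_one]
  have hAB : ⁅A, B⁆ = C := by
    apply le_antisymm
    · rw [Subgroup.commutator_le]
      intro a ha b hb
      rw [commutatorElement_def]
      exact cmem a ha b hb
    · obtain ⟨a, ha, ha1⟩ := exists_ne_one_of_ne_bot (Is.ne_bot h hX hA)
      rw [← cl1 a ha ha1, Subgroup.closure_le]
      rintro _ ⟨b, hb, rfl⟩
      exact commutator_mem ha hb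
  rw [RootCommutatorCase, hAB]
  refine ⟨hC, ?_, cl1, cl2⟩
  intro z hz
  obtain ⟨e, he⟩ := (hCZ z).1 hz
  have zX : (X * Y - Y * X) * X = 0 := by rw [sub_mul, h1, mul_assoc, sX]; simp
  have Xz : X * (X * Y - Y * X) = 0 := by rw [mul_sub, ← mul_assoc, ← mul_assoc, sX, h1]; simp
  have zY : (X * Y - Y * X) * Y = 0 := by rw [sub_mul, h2, mul_assoc, sY]; simp
  have Yz : Y * (X * Y - Y * X) = 0 := by rw [mul_sub, ← mul_assoc, ← mul_assoc, sY, h2]; simp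
  apply commute_sup
  · intro a ha
    obtain ⟨c, hc⟩ := (hA a).1 ha
    apply ext_rho h.inj
    rw [val_mul, val_mul, hc, he]
    simp only [add_mul, mul_add, one_mul, mul_one, smul_mul_assoc, mul_smul_comm, zX, Xz, smul_zero]
    abel
  · intro b hb
    obtain ⟨d, hd⟩ := (hB b).1 hb
    apply ext_rho h.inj
    rw [val_mul, val_mul, hd, he]
    simp only [add_mul, mul_add, one_mul, mul_one, smul_mul_assoc, mul_smul_comm, zY, Yz, smul_zero]
    abel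

theorem rank_of_TyR (h : Real ρ 𝒳 S) {A B : Subgroup 𝔾} {X Y : EndM} (hX : X ∈ 𝒳) (hY : Y ∈ 𝒳) (hA : Is ρ A X)
    (hB : Is ρ B Y) (hR : TyR X Y) : IsRankOnePair A B ∧ IsPSL2PairOver k A B := by
  obtain ⟨c, hc, h1, h2⟩ := hR
  have hci : c⁻¹ ≠ 0 := inv_ne_zero hc
  have hY' : c⁻¹ • Y ∈ 𝒳 := h.lrd.smul Y hY _ hci
  have hB' : Is ρ B (c⁻¹ • Y) := Is.smul hB hci
  have e1 : X * (c⁻¹ • Y) * X = X := by
    rw [mul_smul_comm, smul_mul_assoc, h1, smul_smul, inv_mul_cancel₀ hc, one_smul]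
  have e2 : (c⁻¹ • Y) * X * (c⁻¹ • Y) = c⁻¹ • Y := by
    rw [smul_mul_assoc, smul_mul_assoc, mul_smul_comm, h2, smul_smul, smul_smul, mul_assoc, inv_mul_cancel₀ hc,
      mul_one]
  obtain ⟨Ψ, hinj, hu, hl⟩ := Cfsg.Agent.Lib.Helper85QX.sl2_of_sharp (h.lrd.sq X hX) (h.lrd.sq _ hY')
    (h.lrd.ne X hX) e1 e2
  have hrange : ∀ s, Ψ s ∈ ρ.range := by
    have : (⊤ : Subgroup (Matrix.SpecialLinearGroup (Fin 2) k)) ≤ ρ.range.comap Ψ := by
      rw [← closure_eq_top, Subgroup.closure_le]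
      rintro _ (⟨a, rfl⟩ | ⟨a, rfl⟩)
      · obtain ⟨g, hg⟩ := exists_elem h hX a
        exact ⟨g, Units.ext (by rw [hg, hu])⟩
      · obtain ⟨g, hg⟩ := exists_elem h hY' a
        exact ⟨g, Units.ext (by rw [hg, hl])⟩
    intro s
    exact this (Subgroup.mem_top s)
  let φ : Matrix.SpecialLinearGroup (Fin 2) k →* 𝔾 :=
    (MonoidHom.ofInjective h.inj).symm.toMonoidHom.comp (Ψ.codRestrict ρ.range hrange)
  have hφ : ∀ s, ρ (φ s) = Ψ s := by
    intro s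
    have := (MonoidHom.ofInjective h.inj).apply_symm_apply ⟨Ψ s, hrange s⟩
    exact congrArg Subtype.val this
  have φinj : Function.Injective φ := by
    intro s t hst
    apply hinj
    rw [← hφ, ← hφ, hst]
  have mU : (upperUnipotentSL2 k).map φ = A := by
    rw [Cfsg.Agent.Lib.Helper85QX.upper_eq, MonoidHom.map_closure]
    apply le_antisymm
    · rw [Subgroup.closure_le]
      rintro _ ⟨_, ⟨a, rfl⟩, rfl⟩
      exact (hA _).2 ⟨a, by rw [hφ, hu]⟩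
    · intro g hg
      obtain ⟨a, ha⟩ := (hA g).1 hg
      apply Subgroup.subset_closure
      refine ⟨uu a, ⟨a, rfl⟩, ?_⟩
      apply ext_rho h.inj
      rw [hφ, hu, ha]
  have mL : (lowerUnipotentSL2 k).map φ = B := by
    rw [Cfsg.Agent.Lib.Helper85QX.lower_eq, MonoidHom.map_closure]
    apply le_antisymm
    · rw [Subgroup.closure_le]
      rintro _ ⟨_, ⟨a, rfl⟩, rfl⟩
      exact (hB' _).2 ⟨a, by rw [hφ, hl]⟩
    · intro g hg
      obtain ⟨a, ha⟩ := (hB' g).1 hg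
      apply Subgroup.subset_closure
      refine ⟨ll a, ⟨a, rfl⟩, ?_⟩
      apply ext_rho h.inj
      rw [hφ, hl, ha]
  constructor
  · have h0 := RankOnePair_symm (Cfsg.Agent.S5016.result k).1.2
    have := isRankOnePair_map φ h0 (fun e => h0.ne (Subgroup.map_injective φinj e))
    rwa [mU, mL] at this
  · refine ⟨φ, ?_, ?_, mU, mL⟩
    · rw [MonoidHom.range_eq_map, ← Cfsg.Agent.Lib.Helper85QX.upper_sup_lower, Subgroup.map_sup, mU, mL]
    · rw [(MonoidHom.ker_eq_bot_iff φ).2 φinj]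
      exact bot_le

theorem pair (h : Real ρ 𝒳 S) {A B : Subgroup 𝔾} (hA : A ∈ S) (hB : B ∈ S) :
    ⁅A, B⁆ = ⊥ ∨ IsRankOnePair A B ∨ RootCommutatorCase S A B := by
  obtain ⟨X, hX, hAX⟩ := h.mem A hA
  obtain ⟨Y, hY, hBY⟩ := h.mem B hB
  rcases h.lrd.tri X hX Y hY with h1 | h1 | h1
  · exact Or.inl (comm_of_TyC h.inj hAX hBY h1)
  · exact Or.inr (Or.inl (rank_of_TyR h hX hY hAX hBY h1).1)
  · exact Or.inr (Or.inr (case_of_TyK h hX hY hAX hBY h1))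

theorem member_comm (h : Real ρ 𝒳 S) {A : Subgroup 𝔾} (hA : A ∈ S) : ∀ a ∈ A, ∀ b ∈ A, a * b = b * a := by
  obtain ⟨X, -, hAX⟩ := h.mem A hA
  exact Is.comm h.inj hAX

theorem member_ne_bot (h : Real ρ 𝒳 S) {A : Subgroup 𝔾} (hA : A ∈ S) : A ≠ ⊥ := by
  obtain ⟨X, hX, hAX⟩ := h.mem A hA
  exact Is.ne_bot h hX hAX

/-- a rank one pair is of type `R`. -/
theorem TyR_of_rank (h : Real ρ 𝒳 S) {A B : Subgroup 𝔾} {X Y : EndM} (hX : X ∈ 𝒳) (hY : Y ∈ 𝒳) (hA : Is ρ A X)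
    (hB : Is ρ B Y) (hp : IsRankOnePair A B) : TyR X Y := by
  rcases h.lrd.tri X hX Y hY with h1 | h1 | h1
  · exact absurd (commutator_eq_bot_iff'.1 (comm_of_TyC h.inj hA hB h1)) (not_commute hp)
  · exact h1
  · exfalso
    obtain ⟨a, ha, ha1⟩ := exists_left hp
    exact Cfsg.Agent.Lib.Helper85Mod.not_commute_conj hp ha ha1
      (commutatorCase_conj_commute (Cfsg.Agent.Lib.Helper85RankOne.isMulCommutative_iff.2 (Is.comm h.inj hB))
        (case_of_TyK h hX hY hA hB h1) ha)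

theorem psl2 (h : Real ρ 𝒳 S) {A B : Subgroup 𝔾} (hA : A ∈ S) (hB : B ∈ S) (hp : IsRankOnePair A B) :
    IsPSL2PairOver k A B := by
  obtain ⟨X, hX, hAX⟩ := h.mem A hA
  obtain ⟨Y, hY, hBY⟩ := h.mem B hB
  exact (rank_of_TyR h hX hY hAX hBY (TyR_of_rank h hX hY hAX hBY hp)).2

/-- the main theorem when the family generates. -/
theorem main_top (h : Real ρ 𝒳 S) (htop : (⨆ B ∈ S, B) = ⊤) : IsKRootSubgroupSet k S :=
  ⟨⟨fun _ hA => Cfsg.Agent.Lib.Helper85RankOne.isMulCommutative_iff.2 (member_comm h hA),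
    fun _ hA => member_ne_bot h hA, htop, fun _ hA g => conj_mem h hA g, fun _ hA _ hB => pair h hA hB⟩,
    fun _ hA _ hB hp => psl2 h hA hB hp⟩

theorem psl2_subgroupOf {Γ : Type*} [Group Γ] {A B X : Subgroup Γ} (hA : A ≤ X) (hB : B ≤ X)
    (h : IsPSL2PairOver k A B) : IsPSL2PairOver k (A.subgroupOf X) (B.subgroupOf X) := by
  obtain ⟨φ, h1, h2, h3, h4⟩ := h
  have hr : ∀ s, φ s ∈ X := by
    intro s
    have : φ s ∈ φ.range := ⟨s, rfl⟩
    rw [h1] at this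
    exact (sup_le hA hB) this
  have hcomp : X.subtype.comp (φ.codRestrict X hr) = φ := rfl
  refine ⟨φ.codRestrict X hr, ?_, ?_, ?_, ?_⟩
  · apply Subgroup.map_injective X.subtype_injective
    rw [sup_subgroupOf hA hB, subgroupOf_map (sup_le hA hB), ← h1, MonoidHom.range_eq_map, MonoidHom.range_eq_map,
      Subgroup.map_map, hcomp]
  · intro s hs
    apply h2
    rw [MonoidHom.mem_ker] at hs ⊢
    exact congrArg Subtype.val hs
  · apply Subgroup.map_injective X.subtype_injective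
    rw [Subgroup.map_map, hcomp, h3, subgroupOf_map hA]
  · apply Subgroup.map_injective X.subtype_injective
    rw [Subgroup.map_map, hcomp, h4, subgroupOf_map hB]

theorem rank_of_subgroupOf {Γ : Type*} [Group Γ] {A B X : Subgroup Γ} (hA : A ≤ X) (hB : B ≤ X)
    (h : IsRankOnePair (A.subgroupOf X) (B.subgroupOf X)) : IsRankOnePair A B := by
  have := isRankOnePair_map X.subtype h (fun e => h.ne (Subgroup.map_injective X.subtype_injective e))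
  rwa [subgroupOf_map hA, subgroupOf_map hB] at this

theorem le_iSup_mem {Γ : Type*} [Group Γ] {T : Set (Subgroup Γ)} {A : Subgroup Γ} (hA : A ∈ T) : A ≤ ⨆ B ∈ T, B :=
  le_iSup₂_of_le A hA le_rfl

/-- the main theorem, inside the subgroup generated by the family. -/
theorem main_sub (h : Real ρ 𝒳 S) :
    IsKRootSubgroupSet k ((fun A : Subgroup 𝔾 => A.subgroupOf (⨆ B ∈ S, B)) '' S) := by
  refine ⟨rootSet_subgroupOf (fun _ hA => member_comm h hA) (fun _ hA => member_ne_bot h hA)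
    (fun _ hA g _ => conj_mem h hA g) (fun _ hA _ hB => pair h hA hB), ?_⟩
  rintro _ ⟨A, hA, rfl⟩ _ ⟨B, hB, rfl⟩ hp
  exact psl2_subgroupOf (le_iSup_mem hA) (le_iSup_mem hB)
    (psl2 h hA hB (rank_of_subgroupOf (le_iSup_mem hA) (le_iSup_mem hB) hp))

theorem reach (h : Real ρ 𝒳 S) {X Y : EndM} (hr : Relation.ReflTransGen (RAdj 𝒳) X Y) :
    ∀ A ∈ S, ∀ B ∈ S, Is ρ A X → Is ρ B Y → Relation.ReflTransGen (FAdj S) A B := by
  induction hr with
  | refl =>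
    intro A _ B _ hAX hBX
    rw [Is.eq hAX hBX]
  | tail _ hbc ih =>
    intro A hA B hB hAX hBY
    obtain ⟨C, hC, hCZ⟩ := h.ex _ hbc.1
    exact (ih A hA C hC hAX hCZ).tail ⟨hC, hB, (rank_of_TyR h hbc.1 hbc.2.1 hCZ hBY hbc.2.2).1⟩

/-- connectedness. -/
theorem connected (h : Real ρ 𝒳 S) (hc : ∀ X ∈ 𝒳, ∀ Y ∈ 𝒳, Relation.ReflTransGen (RAdj 𝒳) X Y) :
    IsConnectedFamily (FAdj S) S := by
  intro A hA B hB
  obtain ⟨X, hX, hAX⟩ := h.mem A hA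
  obtain ⟨Y, hY, hBY⟩ := h.mem B hB
  exact reach h (hc X hX Y hY) A hA B hB hAX hBY

theorem connected_sub {Γ : Type*} [Group Γ] {T : Set (Subgroup Γ)} (hc : IsConnectedFamily (FAdj T) T) :
    IsConnectedFamily (FAdj ((fun A : Subgroup Γ => A.subgroupOf (⨆ B ∈ T, B)) '' T))
      ((fun A : Subgroup Γ => A.subgroupOf (⨆ B ∈ T, B)) '' T) := by
  rintro _ ⟨A, hA, rfl⟩ _ ⟨B, hB, rfl⟩
  have := hc A hA B hB
  induction this with
  | refl => exact Relation.ReflTransGen.refl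
  | tail _ hbc ih =>
    exact (ih hbc.1).tail ⟨⟨_, hbc.1, rfl⟩, ⟨_, hbc.2.1, rfl⟩,
      isRankOnePair_subgroupOf (le_iSup_mem hbc.1) (le_iSup_mem hbc.2.1) hbc.2.2⟩

theorem class_of_connected {Γ : Type*} [Group Γ] {T : Set (Subgroup Γ)} (hne : T.Nonempty)
    (hc : IsConnectedFamily (FAdj T) T) : IsConjClassOfSubgroups T :=
  ⟨hne, fun A hA B hB => conj_of_reach (hc A hA B hB)⟩

theorem degenerate_of {Γ : Type*} [Group Γ] {T : Set (Subgroup Γ)} (hT : IsRootSubgroupSet T)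
    (h : ∀ A ∈ T, ∀ B ∈ T, ⁅A, B⁆ = ⊥ ∨ IsRankOnePair A B) : IsDegenerateRootSet T := by
  intro A hA B hB hcase
  rcases h A hA B hB with h1 | h1
  · exact hT.ne_bot _ hcase.1 h1
  · exact Cfsg.Agent.Lib.Helper85Mod.not_rankOne_of_case hT hB hcase h1

theorem pair' (h : Real ρ 𝒳 S) (hno : ∀ X ∈ 𝒳, ∀ Y ∈ 𝒳, ¬ TyK 𝒳 X Y) {A B : Subgroup 𝔾} (hA : A ∈ S) (hB : B ∈ S) :
    ⁅A, B⁆ = ⊥ ∨ IsRankOnePair A B := by
  obtain ⟨X, hX, hAX⟩ := h.mem A hA
  obtain ⟨Y, hY, hBY⟩ := h.mem B hB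
  rcases h.lrd.tri X hX Y hY with h1 | h1 | h1
  · exact Or.inl (comm_of_TyC h.inj hAX hBY h1)
  · exact Or.inr (rank_of_TyR h hX hY hAX hBY h1).1
  · exact absurd h1 (hno X hX Y hY)

theorem degenerate_top (h : Real ρ 𝒳 S) (htop : (⨆ B ∈ S, B) = ⊤) (hno : ∀ X ∈ 𝒳, ∀ Y ∈ 𝒳, ¬ TyK 𝒳 X Y) :
    IsDegenerateRootSet S :=
  degenerate_of (main_top h htop).1 (fun _ hA _ hB => pair' h hno hA hB)

theorem degenerate_sub (h : Real ρ 𝒳 S) (hno : ∀ X ∈ 𝒳, ∀ Y ∈ 𝒳, ¬ TyK 𝒳 X Y) :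
    IsDegenerateRootSet ((fun A : Subgroup 𝔾 => A.subgroupOf (⨆ B ∈ S, B)) '' S) := by
  apply degenerate_of (main_sub h).1
  rintro _ ⟨A, hA, rfl⟩ _ ⟨B, hB, rfl⟩
  rcases pair' h hno hA hB with h1 | h1
  · left
    simp only
    rw [commutator_subgroupOf (le_iSup_mem hA) (le_iSup_mem hB), h1]
    simp
  · exact Or.inr (isRankOnePair_subgroupOf (le_iSup_mem hA) (le_iSup_mem hB) h1)

theorem nondegenerate (h : Real ρ 𝒳 S) (hC : ∃ X ∈ 𝒳, ∃ Y ∈ 𝒳, TyC X Y ∧ ∀ c : k, Y ≠ c • X)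
    (hR : ∃ X ∈ 𝒳, ∃ Y ∈ 𝒳, TyR X Y) (hK : ∃ X ∈ 𝒳, ∃ Y ∈ 𝒳, TyK 𝒳 X Y) : IsNondegenerateRootSet S := by
  refine ⟨?_, ?_, ?_⟩
  · obtain ⟨X, hX, Y, hY, h1, h2⟩ := hC
    obtain ⟨A, hA, hAX⟩ := h.ex X hX
    obtain ⟨B, hB, hBY⟩ := h.ex Y hY
    refine ⟨A, hA, B, hB, ?_, comm_of_TyC h.inj hAX hBY h1⟩
    rintro rfl
    obtain ⟨g, hg⟩ := h.surj Y hY
    obtain ⟨c, hc⟩ := (hAX g).1 ((hBY g).2 ⟨1, by rw [hg, one_smul]⟩)
    rw [hg] at hc
    exact h2 c (add_left_cancel hc)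
  · obtain ⟨X, hX, Y, hY, h1⟩ := hR
    obtain ⟨A, hA, hAX⟩ := h.ex X hX
    obtain ⟨B, hB, hBY⟩ := h.ex Y hY
    exact ⟨A, hA, B, hB, (rank_of_TyR h hX hY hAX hBY h1).1⟩
  · obtain ⟨X, hX, Y, hY, h1⟩ := hK
    obtain ⟨A, hA, hAX⟩ := h.ex X hX
    obtain ⟨B, hB, hBY⟩ := h.ex Y hY
    exact ⟨A, hA, B, hB, case_of_TyK h hX hY hAX hBY h1⟩

end Cfsg.Agent.Lib.Helper85LR
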