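import Cfsg.Agent.Lib.Helper85LR
import Cfsg.Agent.Lib.Helper85Comm

/-!
Linear root data: connectedness of the rank one graph from connectedness of the non-commuting graph.
-/

set_option linter.unusedSectionVars false
set_option autoImplicit false

namespace Cfsg.Agent.Lib.Helper85LR2

open Cfsg Cfsg.Agent.Lib.Helper85LRDefs Cfsg.Agent.Lib.Helper85RankOne Cfsg.Agent.Lib.Helper85Root
  Cfsg.Agent.Lib.Helper85Transfer Cfsg.Agent.Lib.Helper85Sub Cfsg.Agent.Lib.Helper85SL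
  Cfsg.Agent.Lib.Helper85Image Cfsg.Agent.Lib.Helper85Graph Cfsg.Agent.Lib.Helper85LR

section grp

variable {Γ : Type*} [Group Γ] {T : Set (Subgroup Γ)}

/-- two non-commuting members of a set of abstract root subgroups without isolated vertices are joined in `𝓕`. -/
theorem reach_of_noncomm (hT : IsRootSubgroupSet T) (hopp : ∀ A ∈ T, ∃ A' ∈ T, IsRankOnePair A A')
    {A B : Subgroup Γ} (hA : A ∈ T) (hB : B ∈ T) (hn : ⁅A, B⁆ ≠ ⊥) : Relation.ReflTransGen (FAdj T) A B := by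
  rcases hT.pair A hA B hB with h1 | h1 | h1
  · exact absurd h1 hn
  · exact Relation.ReflTransGen.single ⟨hA, hB, h1⟩
  · have hC : ⁅A, B⁆ ∈ T := h1.1
    obtain ⟨A', hA', hpA⟩ := hopp A hA
    obtain ⟨B', hB', hpB⟩ := hopp B hB
    obtain ⟨C', hC', hpC⟩ := hopp _ hC
    have l1 : A ∈ linePartners T ⁅A, B⁆ := Cfsg.Agent.Lib.Helper85Comm.mem_linePartners hT hA hA' hpA h1
    have l2 : B ∈ linePartners T ⁅A, B⁆ := by
      have := Cfsg.Agent.Lib.Helper85Comm.mem_linePartners hT hB hB' hpB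
        (Cfsg.Agent.Lib.Helper85Comm.commutatorCase_symm h1)
      rwa [Subgroup.commutator_comm] at this
    have r1 := reach_of_linePartner hT hC hC' hpC hA' hpA l1
    have r2 := reach_of_linePartner hT hC hC' hpC hB' hpB l2
    exact (reach_symm r1).trans r2

/-- a path in the family viewed inside the generated subgroup gives a path in the family. -/
theorem reach_of_sub {A' B' : Subgroup ↥(⨆ B ∈ T, B)}
    (hr : Relation.ReflTransGen (FAdj ((fun A : Subgroup Γ => A.subgroupOf (⨆ B ∈ T, B)) '' T)) A' B') :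
    ∀ A ∈ T, A' = A.subgroupOf (⨆ B ∈ T, B) → ∀ B ∈ T, B' = B.subgroupOf (⨆ B ∈ T, B) →
      Relation.ReflTransGen (FAdj T) A B := by
  induction hr with
  | refl =>
    intro A hA hA' B hB hB'
    have : A = B := by
      have h1 := congrArg (Subgroup.map (⨆ B ∈ T, B).subtype) (hA'.symm.trans hB')
      rwa [subgroupOf_map (le_iSup_mem hA), subgroupOf_map (le_iSup_mem hB)] at h1
    rw [this]
  | tail _ hbc ih =>
    intro A hA hA' B hB hB'
    obtain ⟨⟨C, hC, hC'⟩, -, hp⟩ := hbc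
    have h1 := ih A hA hA' C hC hC'.symm
    refine h1.tail ⟨hC, hB, ?_⟩
    rw [← hC', hB'] at hp
    exact rank_of_subgroupOf (le_iSup_mem hC) (le_iSup_mem hB) hp

end grp

variable {k : Type*} [Field k] {M : Type*} [AddCommGroup M] [Module k M] [FiniteDimensional k M]
variable {𝔾 : Type*} [Group 𝔾]

variable {ρ : 𝔾 →* LinearMap.GeneralLinearGroup k M} {𝒳 : Set (Module.End k M)} {S : Set (Subgroup 𝔾)}

theorem noncomm (h : Real ρ 𝒳 S) {A B : Subgroup 𝔾} {X Y : Module.End k M} (hX : X ∈ 𝒳) (hY : Y ∈ 𝒳)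
    (hA : Is ρ A X) (hB : Is ρ B Y) (hn : ¬ TyC X Y) : ⁅A, B⁆ ≠ ⊥ := by
  intro e
  apply hn
  obtain ⟨g, hg⟩ := h.surj X hX
  obtain ⟨g', hg'⟩ := h.surj Y hY
  have hgA : g ∈ A := (hA g).2 ⟨1, by rw [hg, one_smul]⟩
  have hgB : g' ∈ B := (hB g').2 ⟨1, by rw [hg', one_smul]⟩
  have hc : g * g' = g' * g := (commutator_eq_bot_iff'.1 e) g hgA g' hgB
  have h1 := congrArg (fun x => ((ρ x : LinearMap.GeneralLinearGroup k M) : Module.End k M)) hc
  simp only [val_mul, hg, hg'] at h1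
  have h2 : (1 + X) * (1 + Y) = 1 + X + Y + X * Y := by noncomm_ring
  have h3 : (1 + Y) * (1 + X) = 1 + X + Y + Y * X := by noncomm_ring
  rw [h2, h3] at h1
  exact add_left_cancel h1

theorem connected_of_noncomm (h : Real ρ 𝒳 S) (hopp : ∀ X ∈ 𝒳, ∃ Y ∈ 𝒳, TyR X Y)
    (hc : ∀ X ∈ 𝒳, ∀ Y ∈ 𝒳, Relation.ReflTransGen (fun X Y => X ∈ 𝒳 ∧ Y ∈ 𝒳 ∧ ¬ TyC X Y) X Y) :
    IsConnectedFamily (FAdj S) S := by
  have hT := (main_sub h).1
  have hopp' : ∀ A ∈ ((fun A : Subgroup 𝔾 => A.subgroupOf (⨆ B ∈ S, B)) '' S),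
      ∃ A' ∈ ((fun A : Subgroup 𝔾 => A.subgroupOf (⨆ B ∈ S, B)) '' S), IsRankOnePair A A' := by
    rintro _ ⟨A, hA, rfl⟩
    obtain ⟨X, hX, hAX⟩ := h.mem A hA
    obtain ⟨Y, hY, hXY⟩ := hopp X hX
    obtain ⟨B, hB, hBY⟩ := h.ex Y hY
    exact ⟨_, ⟨B, hB, rfl⟩, isRankOnePair_subgroupOf (le_iSup_mem hA) (le_iSup_mem hB)
      (rank_of_TyR h hX hY hAX hBY hXY).1⟩
  have key : ∀ X Y, Relation.ReflTransGen (fun X Y => X ∈ 𝒳 ∧ Y ∈ 𝒳 ∧ ¬ TyC X Y) X Y →
      ∀ A ∈ S, ∀ B ∈ S, Is ρ A X → Is ρ B Y → Relation.ReflTransGen (FAdj S) A B := by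
    intro X Y hr
    induction hr with
    | refl =>
      intro A _ B _ hAX hBX
      rw [Is.eq hAX hBX]
    | tail _ hbc ih =>
      intro A hA B hB hAX hBY
      obtain ⟨C, hC, hCZ⟩ := h.ex _ hbc.1
      refine (ih A hA C hC hAX hCZ).trans ?_
      have hn := noncomm h hbc.1 hbc.2.1 hCZ hBY hbc.2.2
      have hn' : ⁅C.subgroupOf (⨆ B ∈ S, B), B.subgroupOf (⨆ B ∈ S, B)⁆ ≠ ⊥ := by
        rw [commutator_subgroupOf (le_iSup_mem hC) (le_iSup_mem hB)]
        intro e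
        apply hn
        have h1 := congrArg (Subgroup.map (⨆ B ∈ S, B).subtype) e
        rw [subgroupOf_map ((Subgroup.commutator_le_sup _ _).trans (sup_le (le_iSup_mem hC) (le_iSup_mem hB)))] at h1
        simpa using h1
      exact reach_of_sub (reach_of_noncomm hT hopp' ⟨C, hC, rfl⟩ ⟨B, hB, rfl⟩ hn') C hC rfl B hB rfl
  intro A hA B hB
  obtain ⟨X, hX, hAX⟩ := h.mem A hA
  obtain ⟨Y, hY, hBY⟩ := h.mem B hB
  exact key X Y (hc X hX Y hY) A hA B hB hAX hBY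

end Cfsg.Agent.Lib.Helper85LR2
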