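import Mathlib
import Cfsg.Prelude.Def_RootSubgroups

/-!
Linear root data: families of subgroups `{1 + c X | c ∈ k}` with `X² = 0` of a group represented on a
vector space.  Vocabulary only.
-/

set_option autoImplicit false

namespace Cfsg.Agent.Lib.Helper85LRDefs

open Cfsg

section abs

variable {k : Type*} [Field k] {M : Type*} [AddCommGroup M] [Module k M]

/-- commuting type. -/
def TyC (X Y : Module.End k M) : Prop := X * Y = Y * X

/-- rank one type (`SL₂`). -/
def TyR (X Y : Module.End k M) : Prop := ∃ c : k, c ≠ 0 ∧ X * Y * X = c • X ∧ Y * X * Y = c • Y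

/-- commutator type. -/
def TyK (𝒳 : Set (Module.End k M)) (X Y : Module.End k M) : Prop :=
  X * Y * X = 0 ∧ Y * X * Y = 0 ∧ X * Y - Y * X ∈ 𝒳

/-- a linear root datum: a set of non-zero endomorphisms of square zero, closed under non-zero scalars, any two of
which are of one of the three types. -/
structure LRD (𝒳 : Set (Module.End k M)) : Prop where
  sq : ∀ X ∈ 𝒳, X * X = 0
  ne : ∀ X ∈ 𝒳, X ≠ 0
  smul : ∀ X ∈ 𝒳, ∀ c : k, c ≠ 0 → c • X ∈ 𝒳
  tri : ∀ X ∈ 𝒳, ∀ Y ∈ 𝒳, TyC X Y ∨ TyR X Y ∨ TyK 𝒳 X Y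

variable {𝔾 : Type*} [Group 𝔾]

/-- `A` is the subgroup `{g | ρ g = 1 + c X for some c}`. -/
def Is (ρ : 𝔾 →* LinearMap.GeneralLinearGroup k M) (A : Subgroup 𝔾) (X : Module.End k M) : Prop :=
  ∀ g, g ∈ A ↔ ∃ c : k, ((ρ g : LinearMap.GeneralLinearGroup k M) : Module.End k M) = 1 + c • X

/-- the family `S` of subgroups of `𝔾` realises the linear root datum `𝒳` through the faithful representation `ρ`. -/
structure Real (ρ : 𝔾 →* LinearMap.GeneralLinearGroup k M) (𝒳 : Set (Module.End k M)) (S : Set (Subgroup 𝔾)) :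
    Prop where
  inj : Function.Injective ρ
  lrd : LRD 𝒳
  mem : ∀ A ∈ S, ∃ X ∈ 𝒳, Is ρ A X
  ex : ∀ X ∈ 𝒳, ∃ A ∈ S, Is ρ A X
  surj : ∀ X ∈ 𝒳, ∃ g, ((ρ g : LinearMap.GeneralLinearGroup k M) : Module.End k M) = 1 + X
  conj : ∀ g : 𝔾, ∀ X ∈ 𝒳, ((ρ g : LinearMap.GeneralLinearGroup k M) : Module.End k M) * X *
    ((ρ g⁻¹ : LinearMap.GeneralLinearGroup k M) : Module.End k M) ∈ 𝒳

/-- adjacency of the rank one type. -/
def RAdj (𝒳 : Set (Module.End k M)) (X Y : Module.End k M) : Prop := X ∈ 𝒳 ∧ Y ∈ 𝒳 ∧ TyR X Y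

end abs

section mat

variable (k : Type*) [Field k] {F : Type*} [Field F] [Algebra k F] {ι : Type*} [Fintype ι] [DecidableEq ι]

/-- matrices over `F` as `k`-linear endomorphisms of `ι → F`. -/
def matEnd : Matrix ι ι F →* Module.End k (ι → F) where
  toFun A := (Matrix.toLin' A).restrictScalars k
  map_one' := by ext v; simp
  map_mul' A B := by
    ext v
    simp [Matrix.toLin'_mul]

variable {𝔾 : Type*} [Group 𝔾]

/-- the representation attached to a matrix valued homomorphism. -/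
def rhoOf (j : 𝔾 →* Matrix ι ι F) : 𝔾 →* LinearMap.GeneralLinearGroup k (ι → F) :=
  ((matEnd k).comp j).toHomUnits

theorem rhoOf_apply (j : 𝔾 →* Matrix ι ι F) (g : 𝔾) (v : ι → F) :
    ((rhoOf k j g : LinearMap.GeneralLinearGroup k (ι → F)) : Module.End k (ι → F)) v = Matrix.mulVec (j g) v := rfl

theorem rhoOf_injective {j : 𝔾 →* Matrix ι ι F} (hj : Function.Injective j) : Function.Injective (rhoOf k j) := by
  intro a b hab
  apply hj
  apply Matrix.toLin'.injective
  apply LinearMap.ext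
  intro v
  have := congrArg (fun u : LinearMap.GeneralLinearGroup k (ι → F) => (u : Module.End k (ι → F)) v) hab
  simpa [rhoOf_apply] using this

end mat

end Cfsg.Agent.Lib.Helper85LRDefs
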