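import Cfsg.Agent.S5033

/-!
A variant of the quasisimplicity criterion for groups generated by abstract root subgroups.
-/

set_option autoImplicit false

namespace Cfsg.Agent.Lib.Helper85ND

open Cfsg Cfsg.Agent.S5033
open Cfsg.Agent.Lib.Helper85RankOne Cfsg.Agent.Lib.Helper85Root Cfsg.Agent.Lib.Helper85Comm Cfsg.Agent.Lib.Helper85Graph
  Cfsg.Agent.Lib.Helper85Special Cfsg.Agent.Lib.Helper85Transfer Cfsg.Agent.Lib.Helper85Line

open scoped commutatorElement

variable {G : Type*} [Group G] {S : Set (Subgroup G)}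

theorem normal_dichotomy2 (hS : IsRootSubgroupSet S)
    (hpart : ∀ A ∈ S, ∃ A' ∈ S, IsRankOnePair A A')
    (hconj : ∀ A ∈ S, ∀ B ∈ S, ∃ g : G, B = conjBy A g)
    (hX : ∀ N : Subgroup G, N.Normal → (∀ A ∈ S, ∀ n ∈ N, ⁅A, conjBy A n⁆ = ⊥) →
      ∀ n ∈ N, ∀ A ∈ S, conjBy A n = A)
    (h3 : IsDegenerateRootSet S → ∀ A ∈ S, 3 < ENat.card A)
    (h4 : ∀ A ∈ S, ∀ B ∈ rankOnePartners S A, IsSpecialRankOnePair A B) :
    ∀ N : Subgroup G, N.Normal → N ≤ Subgroup.center G ∨ N = ⊤ := by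
  intro N hN
  by_cases htop : N = ⊤
  · exact Or.inr htop
  left
  have hstar : ∀ C ∈ S, ¬ C ≤ N := fun C hC hle => htop (top_le_of_member hS hconj hN hC hle)
  have hN3 : ∀ E ∈ S, ∀ A ∈ S, ⁅E, A⁆ = ⊥ → ∀ n ∈ N, ¬ RootCommutatorCase S E (conjBy A n) := by
    intro E _ A _ hEA n hn hc
    exact hstar _ hc.1 (commutator_conj_le hN hEA hn)
  have hself : ∀ A ∈ S, ⁅A, A⁆ = ⊥ := fun A hA =>
    Subgroup.commutator_self_eq_bot_iff.mpr (hS.commutative A hA)
  have hα : ∀ A ∈ S, ∀ n ∈ N, ¬ IsRankOnePair A (conjBy A n) := by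
    intro A hA n hn hp
    have hB : conjBy A n ∈ S := hS.conj_mem A hA n
    by_cases hcard : 3 < ENat.card A
    · apply hstar A hA
      refine (le_commutator_sup (h4 A hA _ ⟨hB, hp⟩) hcard).trans ?_
      apply commutator_sup_le hN (hS.commutative A hA)
      refine sup_le le_sup_right ?_
      exact conjBy_le_of_le le_sup_right (Subgroup.mem_sup_left hn)
    · have hdeg : ¬ IsDegenerateRootSet S := fun hd => hcard (h3 hd A hA)
      unfold IsDegenerateRootSet at hdeg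
      push Not at hdeg
      obtain ⟨C, hC, D, hD, hc⟩ := hdeg
      obtain ⟨g, rfl⟩ := hconj A hA C hC
      have hc' : RootCommutatorCase S A (conjBy D g⁻¹) := by
        apply commutatorCase_of_mem hS hA (hS.conj_mem D hD g⁻¹)
        have := hS.conj_mem _ hc.1 g⁻¹
        rwa [conjBy_commutator, conjBy_inv_conjBy] at this
      obtain ⟨E, hE, -, hAE, hEB⟩ := exists_line_commutator hS hA hB hp hc'
      exact hN3 E hE.1 A hA (by rw [Subgroup.commutator_comm]; exact hAE) n hn hEB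
  have hγ : ∀ A ∈ S, ∀ n ∈ N, ⁅A, conjBy A n⁆ = ⊥ := by
    intro A hA n hn
    rcases hS.pair A hA _ (hS.conj_mem A hA n) with h | h | h
    · exact h
    · exact absurd h (hα A hA n hn)
    · exact absurd h (hN3 A hA A hA (hself A hA) n hn)
  have hfix : ∀ n ∈ N, ∀ A ∈ S, conjBy A n = A := hX N hN hγ
  intro n hn
  have hcomm : ∀ A ∈ S, A ≤ Subgroup.centralizer ({n} : Set G) := by
    intro A hA a ha
    obtain ⟨B, hB, hp⟩ := hpart A hA
    rw [Subgroup.mem_centralizer_iff]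
    intro z hz
    rw [Set.mem_singleton_iff] at hz
    rw [hz]
    exact central_of_normalizes hp (fun C hC => hfix n hn C (unipotent_subset hS hA hC)) a
      (Subgroup.mem_sup_left ha)
  have htop' : (⊤ : Subgroup G) ≤ Subgroup.centralizer ({n} : Set G) := by
    rw [← hS.generates]
    exact iSup₂_le hcomm
  rw [Subgroup.mem_center_iff]
  intro g
  have := htop' (Subgroup.mem_top g)
  rw [Subgroup.mem_centralizer_iff] at this
  exact (this n rfl).symm

theorem quasisimple_of (hS : IsRootSubgroupSet S) (hne : S.Nonempty)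
    (hpart : ∀ A ∈ S, ∃ A' ∈ S, IsRankOnePair A A')
    (hconj : ∀ A ∈ S, ∀ B ∈ S, ∃ g : G, B = conjBy A g)
    (hX : ∀ N : Subgroup G, N.Normal → (∀ A ∈ S, ∀ n ∈ N, ⁅A, conjBy A n⁆ = ⊥) →
      ∀ n ∈ N, ∀ A ∈ S, conjBy A n = A)
    (h3 : IsDegenerateRootSet S → ∀ A ∈ S, 3 < ENat.card A)
    (h4 : ∀ A ∈ S, ∀ B ∈ rankOnePartners S A, IsSpecialRankOnePair A B) : IsQuasisimple G := by
  have hperf : commutator G = ⊤ := commutator_eq_top hS hpart hconj h3 h4
  refine ⟨⟨hperf⟩, isSimpleGroup_quotient_center ?_ (normal_dichotomy2 hS hpart hconj hX h3 h4)⟩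
  intro hc
  obtain ⟨A, hA⟩ := hne
  obtain ⟨B, -, hp⟩ := hpart A hA
  apply not_commute hp
  intro a _ b _
  have ha : a ∈ Subgroup.center G := by rw [hc]; trivial
  exact (Subgroup.mem_center_iff.mp ha b).symm

end Cfsg.Agent.Lib.Helper85ND
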