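import Cfsg.Agent.S2426
import Cfsg.Agent.S5017
import Cfsg.Agent.S5016
import Cfsg.Agent.Lib.Helper85Special

/-!
`⟨a, b(a)⟩ ≅ (P)SL₂(p)` in a special rank one group, from the Steinberg presentation of `SL₂(p)` (row S2426).
-/

set_option autoImplicit false

namespace Cfsg.Agent.Lib.Helper85PS

open Cfsg Cfsg.Agent.Lib.Helper85RankOne Cfsg.Agent.Lib.Helper85Special

variable {G : Type*} [Group G]

section pw

variable {p : ℕ} [Fact p.Prime] {a : G}

theorem pw_add (ha : a ^ p = 1) (t u : ZMod p) : a ^ (t + u).val = a ^ t.val * a ^ u.val := by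
  rw [ZMod.val_add, ← pow_add, ← pow_eq_pow_mod _ ha]

theorem pw_mul (ha : a ^ p = 1) (t u : ZMod p) : a ^ (t * u).val = (a ^ t.val) ^ u.val := by
  rw [ZMod.val_mul, ← pow_mul, ← pow_eq_pow_mod _ ha]

theorem pw_neg (ha : a ^ p = 1) (t : ZMod p) : a ^ (-t).val = (a ^ t.val)⁻¹ := by
  rw [eq_inv_iff_mul_eq_one, ← pw_add ha, neg_add_cancel, ZMod.val_zero, pow_zero]

theorem pw_one : a ^ (1 : ZMod p).val = a := by
  rw [ZMod.val_one, pow_one]

end pw

theorem conj_rel {α β : G} (h : β⁻¹ * α * β = α⁻¹ * β⁻¹ * α) :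
    (α * β⁻¹ * α) * α * (α * β⁻¹ * α)⁻¹ = β⁻¹ := by
  calc (α * β⁻¹ * α) * α * (α * β⁻¹ * α)⁻¹ = α * (β⁻¹ * α * β) * α⁻¹ := by group
    _ = α * (α⁻¹ * β⁻¹ * α) * α⁻¹ := by rw [h]
    _ = β⁻¹ := by group

theorem conj_rel' {α β : G} (h : β⁻¹ * α * β = α⁻¹ * β⁻¹ * α) :
    (β * α⁻¹ * β) * β * (β * α⁻¹ * β)⁻¹ = α⁻¹ := by
  have h2 : β⁻¹ * α⁻¹ * β = α⁻¹ * β * α := by
    have := congrArg (fun x => x⁻¹) h
    simp only [mul_inv_rev, inv_inv] at this
    rw [mul_assoc, mul_assoc]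
    exact this
  calc (β * α⁻¹ * β) * β * (β * α⁻¹ * β)⁻¹ = β * (α⁻¹ * β * α) * β⁻¹ := by group
    _ = β * (β⁻¹ * α⁻¹ * β) * β⁻¹ := by rw [h2]
    _ = α⁻¹ := by group

theorem sq_eq_one_iff_of_ne_zero_aux {k : Type*} [Field k] {r : k} (h : r ^ 2 = 1) : r = 1 ∨ r = -1 :=
  sq_eq_one_iff.mp h

theorem conj_pow' (w x : G) (n : ℕ) : w * x ^ n * w⁻¹ = (w * x * w⁻¹) ^ n := (conj_pow).symm

local notation "SL2" => Matrix.SpecialLinearGroup (Fin 2)

/-- the homomorphism from `SL₂(p)`. -/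
theorem exists_hom (p : ℕ) [Fact p.Prime] {a b : G} (ha : a ^ p = 1) (hb : b ^ p = 1)
    (hrel : ∀ t s : ℕ, (t * s) % p = 1 →
      (b ^ s)⁻¹ * a ^ t * b ^ s = (a ^ t)⁻¹ * (b ^ s)⁻¹ * a ^ t) :
    ∃ φ : SL2 (ZMod p) →* G, φ.range = Subgroup.closure {a, b} ∧
      ∀ g : SL2 (ZMod p), g 0 1 = 0 → g 0 0 = 1 → g 1 1 = 1 → φ g = b ^ (g 1 0).val := by
  obtain ⟨e, he1, he2⟩ := Cfsg.Agent.S2426.result (K := ZMod p)
  let f : Bool × ZMod p → G := fun x => if x.1 then a ^ x.2.val else b ^ x.2.val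
  have hft : ∀ t, f (true, t) = a ^ t.val := fun t => rfl
  have hff : ∀ t, f (false, t) = b ^ t.val := fun t => rfl
  have hval : ∀ t : ZMod p, t ≠ 0 → (t.val * (t⁻¹).val) % p = 1 := by
    intro t ht
    rw [← ZMod.val_mul, mul_inv_cancel₀ ht, ZMod.val_one]
  have hval' : ∀ t : ZMod p, t ≠ 0 → ((t⁻¹).val * t.val) % p = 1 := by
    intro t ht
    rw [mul_comm]; exact hval t ht
  have hrels : ∀ r ∈ ({g : FreeGroup (Bool × ZMod p) | ∃ (b : Bool) (t u : ZMod p), g = FreeGroup.of (b, t) * FreeGroup.of (b, u) * (FreeGroup.of (b, t + u))⁻¹} ∪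
          {g | ∃ (b : Bool) (t u : ZMod p), t ≠ 0 ∧
            g = (FreeGroup.of (b, t) * FreeGroup.of (!b, -t⁻¹) * FreeGroup.of (b, t)) * FreeGroup.of (b, u) *
                  (FreeGroup.of (b, t) * FreeGroup.of (!b, -t⁻¹) * FreeGroup.of (b, t))⁻¹ * (FreeGroup.of (!b, -(t⁻¹ ^ 2 * u)))⁻¹}),
      FreeGroup.lift f r = 1 := by
    rintro r (⟨c, t, u, rfl⟩ | ⟨c, t, u, ht, rfl⟩)
    · simp only [map_mul, map_inv, FreeGroup.lift_apply_of]
      cases c
      · rw [hff, hff, hff, pw_add hb, mul_inv_cancel]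
      · rw [hft, hft, hft, pw_add ha, mul_inv_cancel]
    · simp only [map_mul, map_inv, FreeGroup.lift_apply_of]
      have hu : u = t * (t⁻¹ * u) := by rw [← mul_assoc, mul_inv_cancel₀ ht, one_mul]
      have hu2 : t⁻¹ ^ 2 * u = t⁻¹ * (t⁻¹ * u) := by ring
      cases c
      · simp only [Bool.not_false]
        rw [hff, hft, hff, hft, mul_inv_eq_one, pw_neg ha, pw_neg ha, hu2, pw_mul ha]
        conv_lhs => rw [hu, pw_mul hb]
        rw [conj_pow', conj_rel' (hrel _ _ (hval' t ht)), inv_pow]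
      · simp only [Bool.not_true]
        rw [hft, hff, hft, hff, mul_inv_eq_one, pw_neg hb, pw_neg hb, hu2, pw_mul hb]
        conv_lhs => rw [hu, pw_mul ha]
        rw [conj_pow', conj_rel (hrel _ _ (hval t ht)), inv_pow]
  let ψ := PresentedGroup.toGroup hrels
  refine ⟨ψ.comp e.symm.toMonoidHom, ?_, ?_⟩
  · have h1 : (ψ.comp e.symm.toMonoidHom).range = ψ.range := by
      apply le_antisymm
      · rintro _ ⟨g, rfl⟩
        exact ⟨e.symm g, rfl⟩
      · rintro _ ⟨g, rfl⟩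
        exact ⟨e g, by simp⟩
    rw [h1, MonoidHom.range_eq_map, ← PresentedGroup.closure_range_of, MonoidHom.map_closure]
    apply le_antisymm
    · rw [Subgroup.closure_le]
      rintro _ ⟨_, ⟨⟨c, t⟩, rfl⟩, rfl⟩
      have : ψ (PresentedGroup.of (c, t)) = f (c, t) := PresentedGroup.toGroup.of hrels
      show ψ (PresentedGroup.of (c, t)) ∈ _
      rw [this]
      cases c
      · rw [hff]; exact Subgroup.pow_mem _ (Subgroup.subset_closure (by simp)) _
      · rw [hft]; exact Subgroup.pow_mem _ (Subgroup.subset_closure (by simp)) _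
    · rw [Subgroup.closure_le]
      rintro x (rfl | rfl)
      · apply Subgroup.subset_closure
        refine ⟨PresentedGroup.of (true, 1), ⟨_, rfl⟩, ?_⟩
        have : ψ (PresentedGroup.of (true, (1 : ZMod p))) = f (true, 1) := PresentedGroup.toGroup.of hrels
        rw [this, hft, pw_one]
      · apply Subgroup.subset_closure
        refine ⟨PresentedGroup.of (false, 1), ⟨_, rfl⟩, ?_⟩
        have : ψ (PresentedGroup.of (false, (1 : ZMod p))) = f (false, 1) := PresentedGroup.toGroup.of hrels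
        rw [this, hff, pw_one]
  · intro g h01 h00 h11
    have hg : g = e (PresentedGroup.of (false, g 1 0)) := by
      apply Subtype.ext
      rw [he2]
      ext i j
      fin_cases i <;> fin_cases j <;> simp [h01, h00, h11]
    have : (ψ.comp e.symm.toMonoidHom) g = ψ (PresentedGroup.of (false, g 1 0)) := by
      conv_lhs => rw [hg]
      simp
    rw [this]
    exact PresentedGroup.toGroup.of hrels

/-- a subgroup of the centre of `SL₂` over a field is trivial or the whole centre. -/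
theorem eq_bot_or_eq_center {k : Type*} [Field k] {N : Subgroup (SL2 k)} (hN : N ≤ Subgroup.center (SL2 k)) :
    N = ⊥ ∨ N = Subgroup.center (SL2 k) := by
  by_cases h : N = ⊥
  · exact Or.inl h
  right
  apply le_antisymm hN
  obtain ⟨z, hz, hz1⟩ : ∃ z ∈ N, z ≠ 1 := by
    by_contra hcon
    push Not at hcon
    exact h ((Subgroup.eq_bot_iff_forall N).2 hcon)
  have hzc := hN hz
  rw [Matrix.SpecialLinearGroup.mem_center_iff] at hzc
  obtain ⟨r, hr, hrz⟩ := hzc
  simp only [Fintype.card_fin] at hr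
  have hr1 : r = -1 := by
    rcases sq_eq_one_iff_of_ne_zero_aux hr with h1 | h1
    · exfalso
      apply hz1
      apply Subtype.ext
      rw [← hrz, h1]
      simp
    · exact h1
  intro z' hz'
  rw [Matrix.SpecialLinearGroup.mem_center_iff] at hz'
  obtain ⟨r', hr', hrz'⟩ := hz'
  simp only [Fintype.card_fin] at hr'
  rcases sq_eq_one_iff_of_ne_zero_aux hr' with h1 | h1
  · have : z' = 1 := by
      apply Subtype.ext
      rw [← hrz', h1]
      simp
    rw [this]; exact N.one_mem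
  · have : z' = z := by
      apply Subtype.ext
      rw [← hrz', ← hrz, h1, hr1]
    rw [this]; exact hz

/-- the abstract recognition statement. -/
theorem iso_of_rel (p : ℕ) [Fact p.Prime] {a b : G} (ha : a ^ p = 1) (hb : b ^ p = 1)
    (hrel : ∀ t s : ℕ, (t * s) % p = 1 →
      (b ^ s)⁻¹ * a ^ t * b ^ s = (a ^ t)⁻¹ * (b ^ s)⁻¹ * a ^ t)
    (hne : a ∉ Subgroup.zpowers b) :
    Nonempty (↥(Subgroup.closure ({a, b} : Set G)) ≃* SL2 (ZMod p)) ∨
    Nonempty (↥(Subgroup.closure ({a, b} : Set G)) ≃* Matrix.ProjectiveSpecialLinearGroup (Fin 2) (ZMod p)) := by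
  obtain ⟨φ, hrange, hlow⟩ := exists_hom p ha hb hrel
  have hker : φ.ker ≤ Subgroup.center (SL2 (ZMod p)) := by
    rcases (Cfsg.Agent.S5017.result (Cfsg.Agent.S5016.result (ZMod p)).1).1 φ.ker inferInstance with h | h
    · exfalso
      apply hne
      have h1 : (lowerUnipotentSL2 (ZMod p)).map φ ≤ Subgroup.zpowers b := by
        rw [lowerUnipotentSL2, MonoidHom.map_closure, Subgroup.closure_le]
        rintro _ ⟨g, ⟨h01, h00, h11⟩, rfl⟩
        rw [hlow g h01 h00 h11]
        exact Subgroup.pow_mem _ (Subgroup.mem_zpowers b) _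
      have h2 : φ.range ≤ Subgroup.zpowers b := by
        rw [MonoidHom.range_eq_map, ← h, Subgroup.map_sup]
        apply sup_le _ h1
        rintro _ ⟨g, hg, rfl⟩
        rw [MonoidHom.mem_ker.1 hg]
        exact Subgroup.one_mem _
      apply h2
      rw [hrange]
      exact Subgroup.subset_closure (by simp)
    · exact h
  rcases eq_bot_or_eq_center hker with h | h
  · left
    have hinj : Function.Injective φ := (MonoidHom.ker_eq_bot_iff φ).1 h
    exact ⟨((MonoidHom.ofInjective hinj).trans (MulEquiv.subgroupCongr hrange)).symm⟩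
  · right
    exact ⟨(((QuotientGroup.quotientMulEquivOfEq h).symm.trans (QuotientGroup.quotientKerEquivRange φ)).trans
      (MulEquiv.subgroupCongr hrange)).symm⟩

section rank

variable {A B : Subgroup G}

theorem pow_eq_one_right (h : IsRankOnePair A B) {p : ℕ} (hA : ∀ a ∈ A, a ^ p = 1) : ∀ b ∈ B, b ^ p = 1 := by
  obtain ⟨x, -, rfl⟩ := exists_conj_eq_right h
  intro b hb
  rw [mem_conjBy] at hb
  have h1 := hA _ hb
  have h2 : (x⁻¹ * b * x) ^ p = x⁻¹ * b ^ p * x := by
    have := conj_pow (a := x⁻¹) (b := b) (i := p)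
    rwa [inv_inv] at this
  rw [h2] at h1
  have : b ^ p = x * (x⁻¹ * b ^ p * x) * x⁻¹ := by group
  rw [this, h1]; group

/-- `b(a^t) = b(a)^s` when `t s ≡ 1 (mod p)`. -/
theorem partner_pow_inv (hs : IsSpecialRankOnePair A B) {p : ℕ} (hA : ∀ a ∈ A, a ^ p = 1) {a b : G}
    (h : Partner A B a b) {t s : ℕ} (hts : (t * s) % p = 1) : Partner A B (a ^ t) (b ^ s) := by
  have hB := pow_eq_one_right hs.1 hA
  have hat : a ^ t ≠ 1 := by
    intro e
    apply h.neA
    have : a ^ (t * s) = a := by rw [pow_eq_pow_mod _ (hA a h.memA), hts, pow_one]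
    rw [← this, pow_mul, e, one_pow]
  have ht : 1 ≤ t := by
    rcases Nat.eq_zero_or_pos t with h0 | h0
    · subst h0; simp at hat
    · exact h0
  obtain ⟨c, hc⟩ := exists_partner_left hs.1 (A.pow_mem h.memA t) hat
  have hct : c ^ t = b := partner_pow t ht A B hs a b c h hc
  have : c = b ^ s := by
    rw [← hct, ← pow_mul, pow_eq_pow_mod _ (hB c hc.memB), hts, pow_one]
  rw [← this]; exact hc

theorem main (hs : IsSpecialRankOnePair A B) {p : ℕ} [Fact p.Prime] (hA : ∀ a ∈ A, a ^ p = 1) {a b : G}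
    (h : Partner A B a b) :
    Nonempty (↥(Subgroup.closure ({a, b} : Set G)) ≃* SL2 (ZMod p)) ∨
    Nonempty (↥(Subgroup.closure ({a, b} : Set G)) ≃* Matrix.ProjectiveSpecialLinearGroup (Fin 2) (ZMod p)) := by
  apply iso_of_rel p (hA a h.memA) (pow_eq_one_right hs.1 hA b h.memB)
  · intro t s hts
    exact (partner_pow_inv hs hA h hts).special_eq hs
  · intro hmem
    have haB : a ∈ B := (Subgroup.zpowers_le.2 h.memB) hmem
    have : a ∈ A ⊓ B := ⟨h.memA, haB⟩
    rw [inf_eq_bot hs.1, Subgroup.mem_bot] at this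
    exact h.neA this

end rank

end Cfsg.Agent.Lib.Helper85PS
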