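import Mathlib

/-!
Abstract calculus for a pair of square-zero elements `N`, `N'` of an algebra `C` over a commutative ring `P`
with `N N' + N' N = x`.
-/

namespace Cfsg.Agent.Lib.Helper85QA

variable {P : Type*} [CommRing P] {C : Type*} [Ring C] [Algebra P C]

structure QPair (x : P) (N N' : C) : Prop where
  nn : N * N = 0
  nn' : N' * N' = 0
  z : N * N' + N' * N = x • (1 : C)

/-- the element `S + p N N' + q N + r N'`. -/
def el (N N' : C) (S p q r : P) : C := S • (1 : C) + p • (N * N') + q • N + r • N'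

namespace QPair

variable {x : P} {N N' : C}

theorem symm (h : QPair x N N') : QPair x N' N :=
  ⟨h.nn', h.nn, by rw [add_comm]; exact h.z⟩

theorem t_n'n (h : QPair x N N') : N' * N = x • (1 : C) - N * N' := by
  rw [← h.z]; abel

theorem t_nnn' (h : QPair x N N') : N * (N * N') = 0 := by
  rw [← mul_assoc, h.nn, zero_mul]

theorem t_nn'n' (h : QPair x N N') : N * N' * N' = 0 := by
  rw [mul_assoc, h.nn', mul_zero]

theorem t_nn'n (h : QPair x N N') : N * N' * N = x • N := by
  rw [mul_assoc, h.t_n'n, mul_sub, h.t_nnn', sub_zero, mul_smul_comm, mul_one]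

theorem t_n'nn' (h : QPair x N N') : N' * (N * N') = x • N' := by
  rw [← mul_assoc, h.t_n'n, sub_mul, h.t_nn'n', sub_zero, smul_mul_assoc, one_mul]

theorem t_ee (h : QPair x N N') : N * N' * (N * N') = x • (N * N') := by
  rw [← mul_assoc, h.t_nn'n, smul_mul_assoc]

theorem el_mul (h : QPair x N N') (S p q r S' p' q' r' : P) :
    el N N' S p q r * el N N' S' p' q' r' =
      el N N' (S * S' + x * r * q') (S * p' + p * S' + x * p * p' + q * r' - r * q')
        (S * q' + q * S' + x * p * q') (S * r' + r * S' + x * r * p') := by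
  simp only [el, add_mul, mul_add, smul_mul_smul_comm, mul_one, one_mul, h.t_ee, h.t_nn'n, h.t_nn'n',
    h.t_nnn', h.nn, h.nn', h.t_n'nn', h.t_n'n, smul_zero, add_zero, smul_sub, smul_smul]
  module

end QPair

theorem el_ext {N N' : C} {S p q r S' p' q' r' : P} (h1 : S = S') (h2 : p = p') (h3 : q = q') (h4 : r = r') :
    el N N' S p q r = el N N' S' p' q' r' := by subst h1 h2 h3 h4; rfl

theorem el_add (N N' : C) (S p q r S' p' q' r' : P) :
    el N N' S p q r + el N N' S' p' q' r' = el N N' (S + S') (p + p') (q + q') (r + r') := by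
  simp only [el]; module

theorem el_sub (N N' : C) (S p q r S' p' q' r' : P) :
    el N N' S p q r - el N N' S' p' q' r' = el N N' (S - S') (p - p') (q - q') (r - r') := by
  simp only [el]; module

theorem el_neg (N N' : C) (S p q r : P) :
    - el N N' S p q r = el N N' (-S) (-p) (-q) (-r) := by
  simp only [el]; module

theorem el_smul (N N' : C) (t S p q r : P) :
    t • el N N' S p q r = el N N' (t * S) (t * p) (t * q) (t * r) := by
  simp only [el]; module

theorem one_el (N N' : C) : (1 : C) = el (P := P) N N' 1 0 0 0 := by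
  simp only [el]; module

theorem zero_el (N N' : C) : (0 : C) = el (P := P) N N' 0 0 0 0 := by
  simp only [el]; module

theorem n_el (N N' : C) : N = el (P := P) N N' 0 0 1 0 := by
  simp only [el]; module

theorem n'_el (N N' : C) : N' = el (P := P) N N' 0 0 0 1 := by
  simp only [el]; module

/-- `a N + b N' + c [N, N']`. -/
def L (N N' : C) (a b c : P) : C := a • N + b • N' + c • (N * N' - N' * N)

theorem QPair.L_el {x : P} {N N' : C} (h : QPair x N N') (a b c : P) :
    L N N' a b c = el N N' (-(c * x)) (2 * c) a b := by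
  simp only [L, el, h.t_n'n]; module

theorem QPair.conj_L {x : P} {N N' : C} (h : QPair x N N') (S p q r a b c : P) :
    el N N' S p q r * L N N' a b c * el N N' (S + x * p) (-p) (-q) (-r) =
      L N N' (a * (S + x * p) ^ 2 - b * x * q ^ 2 - 2 * c * x * (S + x * p) * q)
        (-(a * x * r ^ 2) + b * S ^ 2 + 2 * c * x * r * S)
        (-(a * (S + x * p) * r) + b * q * S + c * ((S + x * p) * S + x * q * r)) := by
  simp only [h.L_el, h.el_mul]
  apply el_ext <;> ring

theorem QPair.el_inv {x : P} {N N' : C} (h : QPair x N N') {S p q r : P}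
    (hd : (S + x * p) * S - x * q * r = 1) :
    el N N' S p q r * el N N' (S + x * p) (-p) (-q) (-r) = 1 ∧
    el N N' (S + x * p) (-p) (-q) (-r) * el N N' S p q r = 1 := by
  constructor
  · rw [h.el_mul, one_el (P := P) N N']
    apply el_ext
    · linear_combination hd
    · ring
    · ring
    · ring
  · rw [h.el_mul, one_el (P := P) N N']
    apply el_ext
    · linear_combination hd
    · ring
    · ring
    · ring

theorem L_smul (N N' : C) (t a b c : P) : t • L N N' a b c = L N N' (t * a) (t * b) (t * c) := by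
  simp only [L]; module

theorem L_n (N N' : C) : L (P := P) N N' 1 0 0 = N := by
  simp only [L]; module

theorem L_n' (N N' : C) : L (P := P) N N' 0 1 0 = N' := by
  simp only [L]; module

theorem QPair.anti_L {x : P} {N N' : C} (h : QPair x N N') (a b c : P) :
    N * L N N' a b c + L N N' a b c * N = (b * x) • (1 : C) := by
  rw [h.L_el]
  have e : ∀ X : C, N * X + X * N = el (P := P) N N' 0 0 1 0 * X + X * el (P := P) N N' 0 0 1 0 := by
    intro X; rw [← n_el]
  rw [e, h.el_mul, h.el_mul, el_add, one_el (P := P) N N', el_smul]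
  apply el_ext <;> ring

/-! ### membership -/

/-- `c` is (the value of) an element of the group of units `𝒢`. -/
def In (𝒢 : Subgroup Cˣ) (c : C) : Prop := ∃ u ∈ 𝒢, (u : C) = c

theorem In.one (𝒢 : Subgroup Cˣ) : In 𝒢 1 := ⟨1, 𝒢.one_mem, rfl⟩

theorem In.mul {𝒢 : Subgroup Cˣ} {c d : C} (hc : In 𝒢 c) (hd : In 𝒢 d) : In 𝒢 (c * d) := by
  obtain ⟨u, hu, rfl⟩ := hc
  obtain ⟨v, hv, rfl⟩ := hd
  exact ⟨u * v, 𝒢.mul_mem hu hv, rfl⟩

theorem In.inv {𝒢 : Subgroup Cˣ} {c d : C} (hc : In 𝒢 c) (hd : c * d = 1) : In 𝒢 d := by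
  obtain ⟨u, hu, rfl⟩ := hc
  refine ⟨u⁻¹, 𝒢.inv_mem hu, ?_⟩
  calc ((u⁻¹ : Cˣ) : C) = (u⁻¹ : Cˣ) * ((u : C) * d) := by rw [hd, mul_one]
    _ = d := by rw [← mul_assoc, Units.inv_mul, one_mul]

theorem In.mono {𝒢 𝒢' : Subgroup Cˣ} (h : 𝒢 ≤ 𝒢') {c : C} (hc : In 𝒢 c) : In 𝒢' c := by
  obtain ⟨u, hu, rfl⟩ := hc
  exact ⟨u, h hu, rfl⟩

section fam

variable (k : Type*) [Field k] [Algebra k P]

/-- the whole scalar family `1 + c Y` lies in `𝒢`. -/
def Fam (𝒢 : Subgroup Cˣ) (Y : C) : Prop := ∀ c : k, In 𝒢 (1 + (algebraMap k P c) • Y)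

/-- the minimality oracle. -/
def Orc (𝒢 : Subgroup Cˣ) (N : C) : Prop :=
  ∀ ω y : P, Fam (P := P) k 𝒢 (ω • N) → (ω * y) • N = 0 → ω • N = 0 ∨ y • N = 0

variable {k}

theorem Fam.zero (𝒢 : Subgroup Cˣ) : Fam (P := P) k 𝒢 (0 : C) := by
  intro c; rw [smul_zero, add_zero]; exact In.one 𝒢

theorem Fam.in {𝒢 : Subgroup Cˣ} {Y : C} (h : Fam (P := P) k 𝒢 Y) : In 𝒢 (1 + Y) := by
  have := h 1
  rwa [map_one, one_smul] at this

theorem Fam.smul {𝒢 : Subgroup Cˣ} {Y : C} (h : Fam (P := P) k 𝒢 Y) (c : k) :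
    Fam (P := P) k 𝒢 ((algebraMap k P c) • Y) := by
  intro d
  have := h (d * c)
  rwa [map_mul, mul_smul] at this

theorem Fam.add {𝒢 : Subgroup Cˣ} {Y Y' : C} (h : Fam (P := P) k 𝒢 Y) (h' : Fam (P := P) k 𝒢 Y')
    (hz : Y * Y' = 0) : Fam (P := P) k 𝒢 (Y + Y') := by
  intro c
  have := (h c).mul (h' c)
  have e : (1 + (algebraMap k P c) • Y) * (1 + (algebraMap k P c) • Y') =
      1 + (algebraMap k P c) • (Y + Y') := by
    rw [add_mul, mul_add, mul_add, smul_mul_smul_comm, hz, smul_zero, one_mul, mul_one, one_mul, smul_add]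
    abel
  rwa [e] at this

theorem Fam.neg {𝒢 : Subgroup Cˣ} {Y : C} (h : Fam (P := P) k 𝒢 Y) : Fam (P := P) k 𝒢 (-Y) := by
  have := h.smul (-1)
  rwa [map_neg, map_one, neg_smul, one_smul] at this

theorem Fam.conj {𝒢 : Subgroup Cˣ} {Y g g' : C} (h : Fam (P := P) k 𝒢 Y) (hg : In 𝒢 g) (h1 : g * g' = 1) :
    Fam (P := P) k 𝒢 (g * Y * g') := by
  intro c
  have := (hg.mul (h c)).mul (hg.inv h1)
  have e : g * (1 + (algebraMap k P c) • Y) * g' = 1 + (algebraMap k P c) • (g * Y * g') := by
    rw [mul_add, add_mul, mul_one, h1, mul_smul_comm, smul_mul_assoc]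
  rwa [e] at this

theorem Fam.addN {𝒢 : Subgroup Cˣ} {N : C} (hN : N * N = 0) {a b : P} (ha : Fam (P := P) k 𝒢 (a • N))
    (hb : Fam (P := P) k 𝒢 (b • N)) : Fam (P := P) k 𝒢 ((a + b) • N) := by
  rw [add_smul]
  exact ha.add hb (by rw [smul_mul_smul_comm, hN, smul_zero])

theorem Fam.subN {𝒢 : Subgroup Cˣ} {N : C} (hN : N * N = 0) {a b : P} (ha : Fam (P := P) k 𝒢 (a • N))
    (hb : Fam (P := P) k 𝒢 (b • N)) : Fam (P := P) k 𝒢 ((a - b) • N) := by
  have := Fam.addN hN ha (b := -b) (by rw [neg_smul]; exact hb.neg)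
  rwa [← sub_eq_add_neg] at this

theorem Fam.smulN {𝒢 : Subgroup Cˣ} {N : C} {a : P} (ha : Fam (P := P) k 𝒢 (a • N)) (c : k) :
    Fam (P := P) k 𝒢 ((algebraMap k P c * a) • N) := by
  rw [mul_smul]; exact ha.smul c

theorem Fam.mono {𝒢 𝒢' : Subgroup Cˣ} (hle : 𝒢 ≤ 𝒢') {Y : C} (h : Fam (P := P) k 𝒢 Y) :
    Fam (P := P) k 𝒢' Y := fun c => (h c).mono hle

theorem Orc.conj {𝒢 : Subgroup Cˣ} {N g g' : C} (h : Orc (P := P) k 𝒢 N) (hg : In 𝒢 g) (h1 : g * g' = 1)
    (h2 : g' * g = 1) : Orc (P := P) k 𝒢 (g * N * g') := by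
  intro ω y hf hz
  have key : ∀ t : P, g' * (t • (g * N * g')) * g = t • N := by
    intro t
    rw [mul_smul_comm, smul_mul_assoc]
    congr 1
    calc g' * (g * N * g') * g = (g' * g) * N * (g' * g) := by simp only [mul_assoc]
      _ = N := by rw [h2, one_mul, mul_one]
  have key0 : ∀ t : P, t • N = 0 → t • (g * N * g') = 0 := by
    intro t ht
    have : t • (g * N * g') = g * (t • N) * g' := by
      rw [mul_smul_comm, smul_mul_assoc]
    rw [this, ht, mul_zero, zero_mul]
  have hf' : Fam (P := P) k 𝒢 (ω • N) := by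
    have := hf.conj (hg.inv h1) h2
    rwa [key] at this
  have hz' : (ω * y) • N = 0 := by
    rw [← key, hz, mul_zero, zero_mul]
  rcases h ω y hf' hz' with h3 | h3
  · exact Or.inl (key0 _ h3)
  · exact Or.inr (key0 _ h3)

end fam

theorem L_swap (N N' : C) (a b c : P) : L N N' a b c = L N' N b a (-c) := by
  simp only [L]; module

theorem comm_formula (A B : C) (hA : A * A = 0) (hB : B * B = 0) (h1 : A * B * A = 0) (h2 : B * A * B = 0) :
    (1 + A) * (1 + B) * (1 - A) * (1 - B) = 1 + (A * B - B * A) := by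
  have : (1 + A) * (1 + B) * (1 - A) * (1 - B) = 1 + (A * B - B * A) - A * A - A * B * A - B * B
      - A * (B * B) + A * A * B + B * A * B + A * B * A * B := by noncomm_ring
  rw [this, hA, hB, h1, h2]
  simp

/-- The standing hypotheses. -/
structure Ctx (k : Type*) [Field k] [Algebra k P] (𝒢 : Subgroup Cˣ) (x : P) (N N' : C) : Prop
    extends QPair x N N' where
  fam : Fam (P := P) k 𝒢 N
  fam' : Fam (P := P) k 𝒢 N'
  orc : Orc (P := P) k 𝒢 N
  orc' : Orc (P := P) k 𝒢 N'

namespace Ctx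

variable {k : Type*} [Field k] [Algebra k P] {𝒢 : Subgroup Cˣ} {x : P} {N N' : C}

theorem symm (h : Ctx k 𝒢 x N N') : Ctx k 𝒢 x N' N :=
  { h.toQPair.symm with fam := h.fam', fam' := h.fam, orc := h.orc', orc' := h.orc }

theorem in_a (h : Ctx k 𝒢 x N N') (c : k) : In 𝒢 (el N N' 1 0 (algebraMap k P c) 0) := by
  have := h.fam c
  have e : el N N' 1 0 (algebraMap k P c) 0 = 1 + (algebraMap k P c) • N := by
    simp only [el]; module
  rwa [e]

theorem in_b (h : Ctx k 𝒢 x N N') (c : k) : In 𝒢 (el N N' 1 0 0 (algebraMap k P c)) := by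
  have := h.fam' c
  have e : el N N' 1 0 0 (algebraMap k P c) = 1 + (algebraMap k P c) • N' := by
    simp only [el]; module
  rwa [e]

theorem conj_eq (h : Ctx k 𝒢 x N N') (S p q r : P) :
    el N N' S p q r * N * el N N' (S + x * p) (-p) (-q) (-r) =
      L N N' ((S + x * p) ^ 2) (-(x * r ^ 2)) (-((S + x * p) * r)) := by
  have := h.toQPair.conj_L S p q r 1 0 0
  rw [L_n] at this
  rw [this]
  congr 1 <;> ring

theorem conjN (h : Ctx k 𝒢 x N N') {S p q r : P} (hd : (S + x * p) * S - x * q * r = 1)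
    (hg : In 𝒢 (el N N' S p q r)) :
    Ctx k 𝒢 (-(x * r ^ 2) * x) N (L N N' ((S + x * p) ^ 2) (-(x * r ^ 2)) (-((S + x * p) * r))) := by
  obtain ⟨i1, i2⟩ := h.toQPair.el_inv hd
  have e := h.conj_eq S p q r
  refine { nn := h.nn, nn' := ?_, z := h.toQPair.anti_L _ _ _, fam := h.fam, fam' := ?_, orc := h.orc, orc' := ?_ }
  · rw [← e]
    calc el N N' S p q r * N * el N N' (S + x * p) (-p) (-q) (-r) *
          (el N N' S p q r * N * el N N' (S + x * p) (-p) (-q) (-r))
        = el N N' S p q r * N * (el N N' (S + x * p) (-p) (-q) (-r) * el N N' S p q r) * N *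
            el N N' (S + x * p) (-p) (-q) (-r) := by simp only [mul_assoc]
      _ = 0 := by rw [i2, mul_one, mul_assoc (el N N' S p q r), h.nn, mul_zero, zero_mul]
  · rw [← e]; exact h.fam.conj hg i1
  · rw [← e]; exact h.orc.conj hg i1 i2

/-- **Theorem U**, one half. -/
theorem nil_aux (h2 : (2 : k) ≠ 0) : ∀ n : ℕ, ∀ (x : P) (N N' : C), Ctx k 𝒢 x N N' →
    x ^ n • (1 : C) = 0 → x • N = 0 := by
  intro n
  induction n using Nat.strong_induction_on with
  | _ n ih =>
    intro x N N' h hx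
    rcases Nat.lt_or_ge n 2 with hn | hn
    · have h1 : x • (1 : C) = 0 ∨ (1 : C) = 0 := by
        interval_cases n
        · right; simpa using hx
        · left; simpa using hx
      rcases h1 with h1 | h1
      · calc x • N = (x • (1 : C)) * N := by rw [smul_mul_assoc, one_mul]
          _ = 0 := by rw [h1, zero_mul]
      · calc x • N = x • (1 * N) := by rw [one_mul]
          _ = 0 := by rw [h1, zero_mul, smul_zero]
    · -- the conjugate pairs
      have hm : (n + 1) / 2 < n := by omega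
      have hpow : ∀ y : P, y = -(x ^ 2) → y ^ ((n + 1) / 2) • (1 : C) = 0 := by
        intro y hy
        have h3 : y ^ ((n + 1) / 2) = (-1) ^ ((n + 1) / 2) * x ^ (2 * ((n + 1) / 2) - n) * x ^ n := by
          rw [hy, neg_pow, mul_assoc, ← pow_add, ← pow_mul]
          congr 2
          omega
        rw [h3, mul_smul, hx, smul_zero]
      have hd : ((1 : P) + x * 0) * 1 - x * 0 * (algebraMap k P 1) = 1 := by ring
      have c1 := h.conjN hd (h.in_b 1)
      have c2 := h.symm.conjN hd (h.symm.in_b 1)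
      simp only [map_one, mul_zero, add_zero, one_pow, mul_one] at c1 c2
      have x2N : x ^ 2 • N = 0 := by
        have := ih _ hm _ _ _ c1 (hpow _ (by ring))
        have e : x ^ 2 • N = -((-x * x) • N) := by module
        rw [e, this, neg_zero]
      have x2N' : x ^ 2 • N' = 0 := by
        have := ih _ hm _ _ _ c2 (hpow _ (by ring))
        have e : x ^ 2 • N' = -((-x * x) • N') := by module
        rw [e, this, neg_zero]
      have x2N1 : (-x * x) • L N N' 1 (-x) (-1) = 0 := ih _ hm _ _ _ c1.symm (hpow _ (by ring))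
      have x2N0 : (-x * x) • N = 0 := ih _ hm _ _ _ c1 (hpow _ (by ring))
      -- the commutator family
      have f1 : Fam (P := P) k 𝒢 (L N N' (2 * x) 0 (-x)) := by
        intro c
        set A : C := (algebraMap k P c) • N with hA
        set B : C := L N N' 1 (-x) (-1) with hB
        have hAA : A * A = 0 := by rw [hA, smul_mul_smul_comm, h.nn, smul_zero]
        have hABA : A * B * A = 0 := by
          rw [hA, smul_mul_assoc, smul_mul_smul_comm, c1.toQPair.t_nn'n, x2N0, smul_zero]
        have hBAB : B * A * B = 0 := by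
          rw [hA, mul_smul_comm, smul_mul_assoc, c1.toQPair.symm.t_nn'n, x2N1, smul_zero]
        have hc := comm_formula A B hAA c1.nn' hABA hBAB
        have e : A * B - B * A = (algebraMap k P c) • L N N' (2 * x) 0 (-x) := by
          rw [hA, hB, smul_mul_assoc, mul_smul_comm, ← smul_sub]
          congr 1
          have e1 : ∀ X : C, N * X - X * N =
              el (P := P) N N' 0 0 1 0 * X - X * el (P := P) N N' 0 0 1 0 := by
            intro X; rw [← n_el]
          rw [e1, h.toQPair.L_el, h.toQPair.L_el, h.toQPair.el_mul, h.toQPair.el_mul, el_sub]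
          apply el_ext <;> ring
        rw [← e, ← hc]
        have i1 : In 𝒢 (1 + A) := h.fam c
        have i2 : In 𝒢 (1 + B) := c1.fam'.in
        have i3 : In 𝒢 (1 - A) := i1.inv (by
          rw [add_mul, mul_sub, mul_sub, hAA]; simp)
        have i4 : In 𝒢 (1 - B) := i2.inv (by
          rw [add_mul, mul_sub, mul_sub, c1.nn']; simp)
        exact ((i1.mul i2).mul i3).mul i4
      -- conjugate by `b(-1/2)`
      set t : P := algebraMap k P (-(1 / 2)) with ht
      have ht2 : 2 * t = -1 := by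
        rw [ht, show (2 : P) = algebraMap k P 2 from (map_ofNat (algebraMap k P) 2).symm, ← map_mul]
        rw [show (2 : k) * (-(1 / 2)) = -1 by field_simp]
        simp
      have hd' : ((1 : P) + x * 0) * 1 - x * 0 * t = 1 := by ring
      have f2 := f1.conj (h.in_b (-(1 / 2))) (h.toQPair.el_inv hd').1
      rw [h.toQPair.conj_L] at f2
      have e2 : L N N' (2 * x * (1 + x * 0) ^ 2 - 0 * x * 0 ^ 2 - 2 * -x * x * (1 + x * 0) * 0)
          (-(2 * x * x * t ^ 2) + 0 * 1 ^ 2 + 2 * -x * x * t * 1)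
          (-(2 * x * (1 + x * 0) * t) + 0 * 0 * 1 + -x * ((1 + x * 0) * 1 + x * 0 * t)) = (2 * x) • N := by
        have e3 : (-(2 * x * (1 + x * 0) * t) + 0 * 0 * 1 + -x * ((1 + x * 0) * 1 + x * 0 * t)) = 0 := by
          linear_combination (-x) * ht2
        rw [e3]
        simp only [L]
        have e4 : (-(2 * x * x * t ^ 2) + 0 * 1 ^ 2 + 2 * -x * x * t * 1) • N' =
            (-(2 * t ^ 2) - 2 * t) • (x ^ 2 • N') := by module
        rw [e4, x2N']
        module
      rw [← ht, e2] at f2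
      have hz : (2 * x * x) • N = 0 := by
        have : (2 * x * x) • N = (2 : P) • (x ^ 2 • N) := by module
        rw [this, x2N, smul_zero]
      rcases h.orc (2 * x) x f2 hz with h3 | h3
      · have : x • N = (-t) • ((2 * x) • N) := by
          rw [smul_smul]
          congr 1
          linear_combination x * ht2
        rw [this, h3, smul_zero]
      · exact h3

theorem nil (h : Ctx k 𝒢 x N N') (h2 : (2 : k) ≠ 0) {n : ℕ} (hx : x ^ n • (1 : C) = 0) :
    x • N = 0 ∧ x • N' = 0 :=
  ⟨nil_aux h2 n x N N' h hx, nil_aux h2 n x N' N h.symm hx⟩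

end Ctx

end Cfsg.Agent.Lib.Helper85QA
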