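import Cfsg.Prelude.Def_RootSubgroups
import Mathlib

/-!
Quadratic pairs: basics on logarithms of the root subgroups `E(σ)`.
-/

set_option linter.unusedSectionVars false

namespace Cfsg.Agent.Lib.Helper85QP

open Cfsg Module

variable {k : Type*} [Field k] {M : Type*} [AddCommGroup M] [Module k M]

local notation "GLM" => LinearMap.GeneralLinearGroup k M
local notation "EndM" => (M →ₗ[k] M)

/-- the unit `1 + Y` for a square zero `Y`. -/
def uof (Y : EndM) (hY : Y * Y = 0) : GLM :=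
  ⟨1 + Y, 1 - Y, by rw [add_mul, mul_sub, mul_sub, hY]; simp, by rw [sub_mul, mul_add, mul_add, hY]; simp⟩

@[simp] theorem uof_val (Y : EndM) (hY : Y * Y = 0) : ((uof Y hY : GLM) : EndM) = 1 + Y := rfl

theorem uof_inv_val (Y : EndM) (hY : Y * Y = 0) : (((uof Y hY)⁻¹ : GLM) : EndM) = 1 - Y := rfl

/-- the scalar family of `1 + Y` lies in `G`. -/
def InG (G : Subgroup GLM) (Y : EndM) : Prop := ∀ c : k, ∃ u ∈ G, (u : EndM) = 1 + c • Y

/-- `1 + Y ∈ 𝒬_d(G)`. -/
structure Root (G : Subgroup GLM) (Y : EndM) : Prop where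
  sq : Y * Y = 0
  ne : Y ≠ 0
  fam : InG G Y
  min : ∀ τ ∈ quadraticElements G, finrank k (LinearMap.range Y) ≤ commutatorRank τ

theorem smul_sq {Y : EndM} (hY : Y * Y = 0) (c : k) : (c • Y) * (c • Y) = 0 := by
  rw [smul_mul_smul_comm, hY, smul_zero]

theorem mem_quad_iff {G : Subgroup GLM} {σ : GLM} :
    σ ∈ quadraticElements G ↔ ((σ : EndM) - 1) * ((σ : EndM) - 1) = 0 ∧ (σ : EndM) - 1 ≠ 0 ∧
      InG G ((σ : EndM) - 1) := by
  constructor
  · rintro ⟨_, ⟨h1, h2⟩, h3⟩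
    refine ⟨h1, h2, fun c => ⟨uof (c • ((σ : EndM) - 1)) (smul_sq h1 c), h3 ⟨c, rfl⟩, rfl⟩⟩
  · rintro ⟨h1, h2, h3⟩
    refine ⟨?_, ⟨h1, h2⟩, ?_⟩
    · obtain ⟨u, hu, e⟩ := h3 1
      have : u = σ := Units.ext (by rw [e]; simp)
      rw [← this]; exact hu
    · rintro τ ⟨c, hc⟩
      obtain ⟨u, hu, e⟩ := h3 c
      have : u = τ := Units.ext (by rw [e, hc])
      rw [← this]; exact hu

theorem mem_min_iff {G : Subgroup GLM} {σ : GLM} :
    σ ∈ minimalQuadraticElements G ↔ Root G ((σ : EndM) - 1) := by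
  constructor
  · rintro ⟨h1, h2⟩
    obtain ⟨a, b, c⟩ := mem_quad_iff.1 h1
    exact ⟨a, b, c, h2⟩
  · rintro ⟨a, b, c, d⟩
    exact ⟨mem_quad_iff.2 ⟨a, b, c⟩, d⟩

theorem uof_sub (Y : EndM) (hY : Y * Y = 0) : ((uof Y hY : GLM) : EndM) - 1 = Y := by simp

theorem Root.uof_mem {G : Subgroup GLM} {Y : EndM} (h : Root G Y) : uof Y h.sq ∈ minimalQuadraticElements G := by
  rw [mem_min_iff, uof_sub]; exact h

theorem InG.mem {G : Subgroup GLM} {Y : EndM} (h : InG G Y) {u : GLM} (hu : (u : EndM) = 1 + Y) : u ∈ G := by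
  obtain ⟨v, hv, e⟩ := h 1
  have : v = u := Units.ext (by rw [e, hu]; simp)
  rw [← this]; exact hv

theorem InG.smul {G : Subgroup GLM} {Y : EndM} (h : InG G Y) (c : k) : InG G (c • Y) := by
  intro d
  obtain ⟨u, hu, e⟩ := h (d * c)
  exact ⟨u, hu, by rw [e, mul_smul]⟩

theorem InG.zero (G : Subgroup GLM) : InG G (0 : EndM) := fun c => ⟨1, G.one_mem, by simp⟩

theorem InG.add {G : Subgroup GLM} {Y Y' : EndM} (h : InG G Y) (h' : InG G Y') (hz : Y * Y' = 0) :
    InG G (Y + Y') := by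
  intro c
  obtain ⟨u, hu, e⟩ := h c
  obtain ⟨v, hv, e'⟩ := h' c
  refine ⟨u * v, G.mul_mem hu hv, ?_⟩
  rw [Units.val_mul, e, e', add_mul, mul_add, mul_add, smul_mul_smul_comm, hz, smul_zero, one_mul, mul_one, one_mul,
    smul_add]
  abel

theorem InG.conj {G : Subgroup GLM} {Y : EndM} (h : InG G Y) {g : GLM} (hg : g ∈ G) :
    InG G ((g : EndM) * Y * ((g⁻¹ : GLM) : EndM)) := by
  intro c
  obtain ⟨u, hu, e⟩ := h c
  refine ⟨g * u * g⁻¹, G.mul_mem (G.mul_mem hg hu) (G.inv_mem hg), ?_⟩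
  rw [Units.val_mul, Units.val_mul, e, mul_add, add_mul, mul_one, Units.mul_inv, mul_smul_comm, smul_mul_assoc]

theorem InG.mono {G H : Subgroup GLM} (hle : H ≤ G) {Y : EndM} (h : InG H Y) : InG G Y := by
  intro c
  obtain ⟨u, hu, e⟩ := h c
  exact ⟨u, hle hu, e⟩

section fd

variable [FiniteDimensional k M]

theorem Root.le_rank {G : Subgroup GLM} {N Y : EndM} (hN : Root G N) (sq : Y * Y = 0) (ne : Y ≠ 0)
    (fam : InG G Y) : finrank k (LinearMap.range N) ≤ finrank k (LinearMap.range Y) := by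
  have := hN.min (uof Y sq) (mem_quad_iff.2 (by rw [uof_sub]; exact ⟨sq, ne, fam⟩))
  rwa [commutatorRank, uof_sub] at this

theorem Root.same {G : Subgroup GLM} {N Y : EndM} (hN : Root G N) (sq : Y * Y = 0) (ne : Y ≠ 0)
    (fam : InG G Y) (hr : LinearMap.range Y ≤ LinearMap.range N) (hk : LinearMap.ker N ≤ LinearMap.ker Y) :
    Root G Y ∧ LinearMap.ker Y = LinearMap.ker N ∧ LinearMap.range Y = LinearMap.range N := by
  have h1 := hN.le_rank sq ne fam
  have h2 : LinearMap.range Y = LinearMap.range N := Submodule.eq_of_le_of_finrank_le hr h1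
  have h3 : LinearMap.ker Y = LinearMap.ker N := by
    symm
    apply Submodule.eq_of_le_of_finrank_le hk
    have a1 := LinearMap.finrank_range_add_finrank_ker Y
    have a2 := LinearMap.finrank_range_add_finrank_ker N
    rw [h2] at a1
    omega
  exact ⟨⟨sq, ne, fam, by rw [h2]; exact hN.min⟩, h3, h2⟩

/-- the logarithms of `E(1 + N)`. -/
def IsLg (G : Subgroup GLM) (N Y : EndM) : Prop :=
  Y = 0 ∨ (Root G Y ∧ LinearMap.ker Y = LinearMap.ker N ∧ LinearMap.range Y = LinearMap.range N)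

theorem range_le_ker {N : EndM} (h : N * N = 0) : LinearMap.range N ≤ LinearMap.ker N := by
  rintro _ ⟨m, rfl⟩
  rw [LinearMap.mem_ker, ← Module.End.mul_apply, h]; rfl

theorem IsLg.range_le {G : Subgroup GLM} {N Y : EndM} (h : IsLg G N Y) : LinearMap.range Y ≤ LinearMap.range N := by
  rcases h with rfl | ⟨_, _, h⟩
  · rw [LinearMap.range_zero]; exact bot_le
  · exact h.le

theorem IsLg.ker_le {G : Subgroup GLM} {N Y : EndM} (h : IsLg G N Y) : LinearMap.ker N ≤ LinearMap.ker Y := by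
  rcases h with rfl | ⟨_, h, _⟩
  · rw [LinearMap.ker_zero]; exact le_top
  · exact h.ge

theorem IsLg.fam {G : Subgroup GLM} {N Y : EndM} (h : IsLg G N Y) : InG G Y := by
  rcases h with rfl | ⟨h, _, _⟩
  · exact InG.zero G
  · exact h.fam

theorem mul_eq_zero_of {A B : EndM} (h : LinearMap.range B ≤ LinearMap.ker A) : A * B = 0 := by
  ext m
  rw [Module.End.mul_apply]
  exact h ⟨m, rfl⟩

theorem IsLg.mul {G : Subgroup GLM} {N Y Y' : EndM} (hN : N * N = 0) (h : IsLg G N Y) (h' : IsLg G N Y') :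
    Y * Y' = 0 :=
  mul_eq_zero_of (h'.range_le.trans ((range_le_ker hN).trans h.ker_le))

theorem IsLg.of {G : Subgroup GLM} {N Y : EndM} (hN : Root G N) (sq : Y * Y = 0) (fam : InG G Y)
    (hr : LinearMap.range Y ≤ LinearMap.range N) (hk : LinearMap.ker N ≤ LinearMap.ker Y) : IsLg G N Y := by
  by_cases ne : Y = 0
  · exact Or.inl ne
  · exact Or.inr (hN.same sq ne fam hr hk)

theorem IsLg.self {G : Subgroup GLM} {N : EndM} (hN : Root G N) : IsLg G N N := Or.inr ⟨hN, rfl, rfl⟩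

theorem IsLg.add {G : Subgroup GLM} {N Y Y' : EndM} (hN : Root G N) (h : IsLg G N Y) (h' : IsLg G N Y') :
    IsLg G N (Y + Y') := by
  apply IsLg.of hN
  · rw [add_mul, mul_add, mul_add, IsLg.mul hN.sq h h, IsLg.mul hN.sq h h', IsLg.mul hN.sq h' h, IsLg.mul hN.sq h' h']
    simp
  · exact h.fam.add h'.fam (IsLg.mul hN.sq h h')
  · rintro _ ⟨m, rfl⟩
    rw [LinearMap.add_apply]
    exact Submodule.add_mem _ (h.range_le ⟨m, rfl⟩) (h'.range_le ⟨m, rfl⟩)
  · intro m hm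
    rw [LinearMap.mem_ker, LinearMap.add_apply, LinearMap.mem_ker.1 (h.ker_le hm), LinearMap.mem_ker.1 (h'.ker_le hm),
      add_zero]

theorem IsLg.smul {G : Subgroup GLM} {N Y : EndM} (hN : Root G N) (h : IsLg G N Y) (c : k) : IsLg G N (c • Y) := by
  apply IsLg.of hN
  · exact smul_sq (IsLg.mul hN.sq h h) c
  · exact h.fam.smul c
  · rintro _ ⟨m, rfl⟩
    rw [LinearMap.smul_apply]
    exact Submodule.smul_mem _ _ (h.range_le ⟨m, rfl⟩)
  · intro m hm
    rw [LinearMap.mem_ker, LinearMap.smul_apply, LinearMap.mem_ker.1 (h.ker_le hm), smul_zero]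

theorem IsLg.neg {G : Subgroup GLM} {N Y : EndM} (hN : Root G N) (h : IsLg G N Y) : IsLg G N (-Y) := by
  have := h.smul hN (-1)
  rwa [neg_smul, one_smul] at this

theorem IsLg.sub {G : Subgroup GLM} {N Y Y' : EndM} (hN : Root G N) (h : IsLg G N Y) (h' : IsLg G N Y') :
    IsLg G N (Y - Y') := by
  rw [sub_eq_add_neg]; exact h.add hN (h'.neg hN)

theorem mem_class_iff {G : Subgroup GLM} {σ τ : GLM} :
    τ ∈ sameActionClass G σ ↔ (τ : EndM) - 1 ≠ 0 ∧ IsLg G ((σ : EndM) - 1) ((τ : EndM) - 1) := by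
  constructor
  · rintro ⟨h1, h2, h3⟩
    have := mem_min_iff.1 h1
    exact ⟨this.ne, Or.inr ⟨this, h2, h3⟩⟩
  · rintro ⟨h0, h | ⟨h1, h2, h3⟩⟩
    · exact absurd h h0
    · exact ⟨mem_min_iff.2 h1, h2, h3⟩

/-- the group `1 + Lg`. -/
def LgGroup (G : Subgroup GLM) {N : EndM} (hN : Root G N) : Subgroup GLM where
  carrier := {g | IsLg G N ((g : EndM) - 1)}
  one_mem' := by left; simp
  mul_mem' := by
    intro a b ha hb
    have : ((a * b : GLM) : EndM) - 1 = ((a : EndM) - 1) + ((b : EndM) - 1) := by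
      have h0 := IsLg.mul hN.sq ha hb
      rw [Units.val_mul]
      have : (a : EndM) * (b : EndM) = ((a : EndM) - 1) * ((b : EndM) - 1) + (a : EndM) + (b : EndM) - 1 := by
        noncomm_ring
      rw [this, h0]; abel
    show IsLg G N (((a * b : GLM) : EndM) - 1)
    rw [this]; exact IsLg.add hN ha hb
  inv_mem' := by
    intro a ha
    have h0 := IsLg.mul hN.sq ha ha
    have : ((a⁻¹ : GLM) : EndM) - 1 = -((a : EndM) - 1) := by
      have e : a⁻¹ = (uof ((a : EndM) - 1) h0)⁻¹ := by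
        congr 1
        apply Units.ext; simp
      rw [e, uof_inv_val]; abel
    show IsLg G N (((a⁻¹ : GLM) : EndM) - 1)
    rw [this]; exact IsLg.neg hN ha

theorem mem_LgGroup {G : Subgroup GLM} {N : EndM} (hN : Root G N) {g : GLM} :
    g ∈ LgGroup G hN ↔ IsLg G N ((g : EndM) - 1) := Iff.rfl

theorem sameActionSubgroup_eq {G : Subgroup GLM} {σ : GLM} (hσ : Root G ((σ : EndM) - 1)) :
    sameActionSubgroup G σ = LgGroup G hσ := by
  apply le_antisymm
  · unfold sameActionSubgroup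
    rw [Subgroup.closure_le]
    intro τ hτ
    exact (mem_class_iff.1 hτ).2
  · intro g hg
    by_cases h1 : (g : EndM) - 1 = 0
    · have : g = 1 := Units.ext (by rw [Units.val_one]; exact sub_eq_zero.1 h1)
      rw [this]; exact Subgroup.one_mem _
    · exact Subgroup.subset_closure (mem_class_iff.2 ⟨h1, hg⟩)

theorem mem_E_iff {G : Subgroup GLM} {σ : GLM} (hσ : σ ∈ minimalQuadraticElements G) {g : GLM} :
    g ∈ sameActionSubgroup G σ ↔ IsLg G ((σ : EndM) - 1) ((g : EndM) - 1) := by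
  rw [sameActionSubgroup_eq (mem_min_iff.1 hσ)]; rfl

end fd

end Cfsg.Agent.Lib.Helper85QP
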