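import Cfsg.Agent.Lib.Helper85QK
import Cfsg.Agent.Lib.Helper85QP

/-!
Instantiating the abstract key lemma for two members of `𝒬_d(G)`.
-/

set_option linter.unusedSectionVars false

namespace Cfsg.Agent.Lib.Helper85QC

open Polynomial Cfsg Module Cfsg.Agent.Lib.Helper85QA Cfsg.Agent.Lib.Helper85QK Cfsg.Agent.Lib.Helper85QP

variable {k : Type*} [Field k] {M : Type*} [AddCommGroup M] [Module k M]

local notation "GLM" => LinearMap.GeneralLinearGroup k M
local notation "EndM" => (M →ₗ[k] M)

/-- the centralizer of `Z`. -/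
def Cen (Z : EndM) : Subalgebra k (Module.End k M) := Subalgebra.centralizer k {Z}

theorem mem_Cen {Z Y : EndM} : Y ∈ Cen Z ↔ Z * Y = Y * Z := by
  simp [Cen, Subalgebra.mem_centralizer_iff]

/-- `Z` as an element of its centralizer. -/
def zc (Z : EndM) : Cen Z := ⟨Z, mem_Cen.2 rfl⟩

theorem aeval_comm (Z : EndM) (p : k[X]) (d : Cen Z) : aeval (zc Z) p * d = d * aeval (zc Z) p := by
  have hc : Commute (zc Z) d := Subtype.ext (mem_Cen.1 d.2)
  induction p using Polynomial.induction_on' with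
  | add a b ha hb => rw [map_add, add_mul, mul_add, ha, hb]
  | monomial n a =>
    rw [aeval_monomial]
    have h1 : Commute (algebraMap k (Cen Z) a) d := Algebra.commutes a d
    exact (h1.mul_left (hc.pow_left n))

noncomputable instance algCen (Z : EndM) : Algebra k[X] (Cen Z) :=
  (aeval (zc Z)).toRingHom.toAlgebra' (fun p d => aeval_comm Z p d)

theorem aeval_val (Z : EndM) (p : k[X]) : ((aeval (zc Z) p : Cen Z) : EndM) = aeval Z p := by
  have := Polynomial.aeval_algHom_apply (Cen Z).val (zc Z) p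
  exact this.symm

theorem smul_val (Z : EndM) (p : k[X]) (d : Cen Z) : ((p • d : Cen Z) : EndM) = aeval Z p * (d : EndM) := by
  have : p • d = aeval (zc Z) p * d := rfl
  rw [this, Subalgebra.coe_mul, aeval_val]

/-- the part of `H` inside the centralizer. -/
def Gc (H : Subgroup GLM) (Z : EndM) : Subgroup (Cen Z)ˣ :=
  H.comap (Units.map ((Cen Z).val : Cen Z →* Module.End k M))

theorem In_val {H : Subgroup GLM} {Z : EndM} {c : Cen Z} (h : In (Gc H Z) c) : ∃ u ∈ H, (u : EndM) = (c : EndM) := by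
  obtain ⟨u, hu, rfl⟩ := h
  exact ⟨_, hu, rfl⟩

theorem In_of {H : Subgroup GLM} {Z : EndM} {Y : Cen Z} (hY : Y * Y = 0) {u : GLM} (hu : u ∈ H)
    (e : (u : EndM) = 1 + (Y : EndM)) : In (Gc H Z) (1 + Y) := by
  refine ⟨⟨1 + Y, 1 - Y, by rw [add_mul, mul_sub, mul_sub, hY]; simp,
    by rw [sub_mul, mul_add, mul_add, hY]; simp⟩, ?_, rfl⟩
  show Units.map ((Cen Z).val : Cen Z →* Module.End k M) _ ∈ H
  convert hu using 1
  apply Units.ext
  rw [e]; rfl

theorem C_smul_val (Z : EndM) (c : k) (Y : Cen Z) :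
    (((algebraMap k k[X] c) • Y : Cen Z) : EndM) = c • (Y : EndM) := by
  rw [smul_val, algebraMap_eq, aeval_C, Module.algebraMap_end_eq_smul_id, smul_mul_assoc]
  rfl

theorem fam_iff {H : Subgroup GLM} {Z : EndM} {Y : Cen Z} (hY : Y * Y = 0) :
    Fam (P := k[X]) k (Gc H Z) Y ↔ InG H (Y : EndM) := by
  constructor
  · intro h c
    obtain ⟨u, hu, e⟩ := In_val (h c)
    refine ⟨u, hu, ?_⟩
    rw [e, Subalgebra.coe_add, C_smul_val]; rfl
  · intro h c
    obtain ⟨u, hu, e⟩ := h c
    apply In_of _ hu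
    · rw [e, C_smul_val]
    · rw [smul_mul_smul_comm, hY, smul_zero]

theorem z_comm {N N' : EndM} (h : N * N = 0) : (N * N' + N' * N) * N = N * (N * N' + N' * N) := by
  rw [add_mul, mul_add, mul_assoc N' N N, h, ← mul_assoc N N N', h]
  simp [mul_assoc]

theorem z_comm' {N N' : EndM} (h : N' * N' = 0) : (N * N' + N' * N) * N' = N' * (N * N' + N' * N) := by
  rw [add_mul, mul_add, mul_assoc N N' N', h, ← mul_assoc N' N' N, h]
  simp [mul_assoc]

section fd

variable [FiniteDimensional k M]

theorem inj_on_range {A N : EndM} (h : finrank k (LinearMap.range N) ≤ finrank k (LinearMap.range (A * N)))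
    {v : M} (hv : v ∈ LinearMap.range N) (h0 : A v = 0) : v = 0 := by
  have h1 := LinearMap.finrank_range_add_finrank_ker (A.domRestrict (LinearMap.range N))
  have h2 : LinearMap.range (A.domRestrict (LinearMap.range N)) = LinearMap.range (A * N) := by
    rw [LinearMap.range_domRestrict]
    ext w
    constructor
    · rintro ⟨_, ⟨m, rfl⟩, rfl⟩
      exact ⟨m, rfl⟩
    · rintro ⟨m, rfl⟩
      exact ⟨N m, ⟨m, rfl⟩, rfl⟩
  rw [h2] at h1
  have h3 : finrank k (LinearMap.ker (A.domRestrict (LinearMap.range N))) = 0 := by omega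
  have h4 := Submodule.finrank_eq_zero.1 h3
  have h5 : (⟨v, hv⟩ : LinearMap.range N) ∈ LinearMap.ker (A.domRestrict (LinearMap.range N)) := by
    rw [LinearMap.mem_ker]; exact h0
  rw [h4, Submodule.mem_bot] at h5
  exact congrArg Subtype.val h5

theorem orc_of {G H : Subgroup GLM} (hHG : H ≤ G) {Z : EndM} {N : Cen Z} (hN : Root G (N : EndM)) :
    Orc (P := k[X]) k (Gc H Z) N := by
  intro ω y hf hz
  have hNN : N * N = 0 := Subtype.ext hN.sq
  by_cases hW : ω • N = 0
  · exact Or.inl hW
  right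
  have sq : (ω • N) * (ω • N) = 0 := by rw [smul_mul_smul_comm, hNN, smul_zero]
  have f1 : InG G ((ω • N : Cen Z) : EndM) := ((fam_iff sq).1 hf).mono hHG
  have hr := hN.le_rank (congrArg Subtype.val sq) (fun h => hW (Subtype.ext h)) f1
  rw [smul_val] at hr
  apply Subtype.ext
  rw [smul_val]
  ext m
  have hc : aeval Z y * (N : EndM) = (N : EndM) * aeval Z y := by
    have := congrArg Subtype.val (aeval_comm Z y N)
    rwa [Subalgebra.coe_mul, Subalgebra.coe_mul, aeval_val] at this
  apply inj_on_range hr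
  · rw [hc]; exact ⟨_, rfl⟩
  · have := congrArg Subtype.val hz
    rw [smul_val, map_mul] at this
    have h2 := LinearMap.congr_fun this m
    simpa [Module.End.mul_apply] using h2

/-- the context attached to two roots. -/
theorem mkCtx {G H : Subgroup GLM} (hHG : H ≤ G) {N N' : EndM} (hN : Root G N) (hN' : Root G N')
    (fN : InG H N) (fN' : InG H N') :
    Ctx k (Gc H (N * N' + N' * N)) (X : k[X]) (⟨N, mem_Cen.2 (z_comm hN.sq)⟩ : Cen (N * N' + N' * N))
      ⟨N', mem_Cen.2 (z_comm' hN'.sq)⟩ := by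
  refine { nn := Subtype.ext hN.sq, nn' := Subtype.ext hN'.sq, z := ?_, fam := ?_, fam' := ?_, orc := ?_, orc' := ?_ }
  · apply Subtype.ext
    rw [smul_val, aeval_X]
    simp
  · exact (fam_iff (Subtype.ext hN.sq)).2 fN
  · exact (fam_iff (Subtype.ext hN'.sq)).2 fN'
  · exact orc_of hHG hN
  · exact orc_of hHG hN'

theorem charpoly_kill (Z : EndM) : (LinearMap.charpoly Z) • (1 : Cen Z) = 0 := by
  apply Subtype.ext
  rw [smul_val, LinearMap.aeval_self_charpoly]
  simp

theorem fin_Cen (Z : EndM) (h : Finite k) : Finite (Cen Z) := by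
  have : Finite (Module.End k M) := Module.finite_of_finite k
  exact Subtype.finite

/-- **Key Lemma**, concrete form. -/
theorem klc (hk2 : ringChar k ≠ 2) (hk3 : Nat.card k ≠ 3) {G H : Subgroup GLM} (hHG : H ≤ G) {N N' : EndM}
    (hN : Root G N) (hN' : Root G N') (fN : InG H N) (fN' : InG H N') (μ : k[X]) :
    InG H (aeval (N * N' + N' * N) μ * N) := by
  have h := mkCtx hHG hN hN' fN fN'
  have := kl (Ring.two_ne_zero hk2) hk3 (fin_Cen _) h (LinearMap.charpoly_monic _) (charpoly_kill _) μ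
  rw [fam_iff (by rw [smul_mul_smul_comm, h.nn, smul_zero]), smul_val] at this
  exact this

/-- **Theorem U**, concrete form. -/
theorem nilc (hk2 : ringChar k ≠ 2) {G : Subgroup GLM} {N N' : EndM}
    (hN : Root G N) (hN' : Root G N') {n : ℕ} (hn : (N * N' + N' * N) ^ n = 0) :
    (N * N' + N' * N) * N = 0 ∧ (N * N' + N' * N) * N' = 0 := by
  have h := mkCtx le_rfl hN hN' hN.fam hN'.fam
  have := h.nil (Ring.two_ne_zero hk2) (n := n) (by
    apply Subtype.ext
    rw [smul_val, map_pow, aeval_X, hn]; simp)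
  constructor
  · have := congrArg Subtype.val this.1
    rwa [smul_val, aeval_X] at this
  · have := congrArg Subtype.val this.2
    rwa [smul_val, aeval_X] at this

end fd

end Cfsg.Agent.Lib.Helper85QC
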