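import Cfsg.Agent.Lib.Helper85QA

/-!
The key lemma for infinite fields: a Euclidean algorithm with constant quotients.
-/

set_option linter.unusedTactic false

namespace Cfsg.Agent.Lib.Helper85QE

open Polynomial Cfsg.Agent.Lib.Helper85QA

/-- product of the pivots of the fraction free algorithm. -/
noncomputable def piv {R : Type*} [CommRing R] : ℕ → R[X] → R[X] → R
  | 0, P, _ => P.coeff 0
  | (j + 1), P, r =>
    if j % 2 = 0 then
      P.coeff (j / 2) * piv j (C (P.coeff (j / 2)) * P) (C (P.coeff (j / 2)) * r - C (r.coeff (j / 2)) * P)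
    else
      r.coeff (j / 2) * piv j (C (r.coeff (j / 2)) * P - C (P.coeff (j / 2 + 1)) * (X * r))
        (C (r.coeff (j / 2)) * r)

theorem piv_map {R R' : Type*} [CommRing R] [CommRing R'] (φ : R →+* R') :
    ∀ (j : ℕ) (P r : R[X]), piv j (P.map φ) (r.map φ) = φ (piv j P r) := by
  intro j
  induction j with
  | zero => intro P r; simp [piv]
  | succ j ih =>
    intro P r
    simp only [piv]
    split_ifs with hj
    · rw [map_mul, ← ih]
      simp only [coeff_map, Polynomial.map_mul, Polynomial.map_sub, map_C]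
    · rw [map_mul, ← ih]
      simp only [coeff_map, Polynomial.map_mul, Polynomial.map_sub, map_C, map_X]

theorem piv_scale {k : Type*} [Field k] : ∀ (j : ℕ) (κ : k) (P r : k[X]), κ ≠ 0 → piv j P r ≠ 0 →
    piv j (C κ * P) (C κ * r) ≠ 0 := by
  intro j
  induction j with
  | zero => intro κ P r hκ h; simp only [piv, coeff_C_mul] at h ⊢; exact mul_ne_zero hκ h
  | succ j ih =>
    intro κ P r hκ h
    simp only [piv] at h ⊢
    split_ifs at h ⊢ with hj
    · have h1 := left_ne_zero_of_mul h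
      have h2 := right_ne_zero_of_mul h
      have := ih (κ ^ 2) _ _ (pow_ne_zero 2 hκ) h2
      simp only [coeff_C_mul]
      refine mul_ne_zero (mul_ne_zero hκ h1) ?_
      convert this using 2
      · simp only [C_mul, C_pow]; ring
      · simp only [C_mul, C_pow]; ring
    · have h1 := left_ne_zero_of_mul h
      have h2 := right_ne_zero_of_mul h
      have := ih (κ ^ 2) _ _ (pow_ne_zero 2 hκ) h2
      simp only [coeff_C_mul]
      refine mul_ne_zero (mul_ne_zero hκ h1) ?_
      convert this using 2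
      · simp only [C_mul, C_pow]; ring
      · simp only [C_mul, C_pow]; ring

/-- normal pairs exist at every level. -/
theorem exists_normal (k : Type*) [Field k] : ∀ j : ℕ, ∃ P r : k[X],
    (∀ m, j / 2 < m → P.coeff m = 0) ∧ (∀ m, (j + 1) / 2 ≤ m → r.coeff m = 0) ∧ piv j P r ≠ 0 ∧
    (j % 2 = 0 → P.coeff (j / 2) ≠ 0) ∧ (j % 2 = 1 → r.coeff (j / 2) ≠ 0) := by
  intro j
  induction j with
  | zero =>
    refine ⟨1, 0, ?_, ?_, ?_, ?_, ?_⟩
    · intro m hm
      rw [coeff_one, if_neg (by omega)]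
    · intro m _; simp
    · simp [piv]
    · intro _; simp
    · intro h; omega
  | succ j ih =>
    obtain ⟨P, r, hP, hr, hp, h0, h1⟩ := ih
    rcases Nat.mod_two_eq_zero_or_one j with hj | hj
    · have ha := h0 hj
      have hri : r.coeff (j / 2) = 0 := hr _ (by omega)
      refine ⟨P, r + P, ?_, ?_, ?_, ?_, ?_⟩
      · intro m hm; exact hP m (by omega)
      · intro m hm
        rw [coeff_add, hr m (by omega), hP m (by omega), add_zero]
      · simp only [piv, if_pos hj, coeff_add, hri, zero_add]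
        refine mul_ne_zero ha ?_
        have := piv_scale j _ P r ha hp
        convert this using 2
        ring
      · intro h; omega
      · intro _
        rw [show (j + 1) / 2 = j / 2 by omega, coeff_add, hri, zero_add]
        exact ha
    · have hb := h1 hj
      have hPi : P.coeff (j / 2 + 1) = 0 := hP _ (by omega)
      refine ⟨P + X * r, r, ?_, ?_, ?_, ?_, ?_⟩
      · intro m hm
        obtain ⟨m', rfl⟩ : ∃ m', m = m' + 1 := ⟨m - 1, by omega⟩
        rw [coeff_add, coeff_X_mul, hP _ (by omega), hr _ (by omega), add_zero]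
      · intro m hm; exact hr m (by omega)
      · simp only [piv, if_neg (show ¬ j % 2 = 0 by omega), coeff_add, hPi, zero_add, coeff_X_mul]
        refine mul_ne_zero hb ?_
        have := piv_scale j _ P r hb hp
        convert this using 2
        ring
      · intro _
        rw [show (j + 1) / 2 = j / 2 + 1 by omega, coeff_add, hPi, zero_add, coeff_X_mul]
        exact hb
      · intro h; omega

section good

variable {k : Type*} [Field k] {D : Type*} [Ring D] [Algebra k[X] D] {𝒢 : Subgroup Dˣ} {N N' : D}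

/-- `(P, r)` is, up to a scalar, the first column of an element of `𝒢`. -/
def Good (𝒢 : Subgroup Dˣ) (N N' : D) (P r : k[X]) : Prop :=
  ∃ g g' : D, In 𝒢 g ∧ g * g' = 1 ∧ g' * g = 1 ∧ ∃ κ : k, κ ≠ 0 ∧
    g * N * g' = (C κ) • L N N' (P ^ 2) (-(X * r ^ 2)) (-(P * r))

theorem good_base {a : k} (ha : a ≠ 0) : Good 𝒢 N N' (C a) 0 := by
  refine ⟨1, 1, In.one _, one_mul _, one_mul _, (a ^ 2)⁻¹, inv_ne_zero (pow_ne_zero 2 ha), ?_⟩
  rw [L_smul, one_mul, mul_one]
  have e : C (a ^ 2)⁻¹ * C a ^ 2 = (1 : k[X]) := by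
    rw [← C_pow, ← C_mul, inv_mul_cancel₀ (pow_ne_zero 2 ha), C_1]
  rw [e]
  simp [L]

theorem good_scale {κ : k} (hκ : κ ≠ 0) {P r : k[X]} (h : Good 𝒢 N N' (C κ * P) (C κ * r)) :
    Good 𝒢 N N' P r := by
  obtain ⟨g, g', hg, h1, h2, c, hc, e⟩ := h
  refine ⟨g, g', hg, h1, h2, c * κ ^ 2, mul_ne_zero hc (pow_ne_zero 2 hκ), ?_⟩
  rw [e, L_smul, L_smul]
  congr 1
  · simp only [C_mul, C_pow]; ring
  · simp only [C_mul, C_pow]; ring
  · simp only [C_mul, C_pow]; ring

theorem good_a (h : Ctx k 𝒢 (X : k[X]) N N') (c : k) {P r : k[X]}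
    (hg : Good 𝒢 N N' (P + C c * (X * r)) r) : Good 𝒢 N N' P r := by
  obtain ⟨g, g', hg, h1, h2, κ, hκ, e⟩ := hg
  have hd : ((1 : k[X]) + X * 0) * 1 - X * (algebraMap k k[X] (-c)) * 0 = 1 := by ring
  obtain ⟨i1, i2⟩ := h.toQPair.el_inv hd
  refine ⟨el N N' 1 0 (algebraMap k k[X] (-c)) 0 * g, g' * el N N' (1 + X * 0) (-0) (-(algebraMap k k[X] (-c))) (-0),
    (h.in_a (-c)).mul hg, ?_, ?_, κ, hκ, ?_⟩
  · calc _ = el N N' 1 0 (algebraMap k k[X] (-c)) 0 * (g * g') *
        el N N' (1 + X * 0) (-0) (-(algebraMap k k[X] (-c))) (-0) := by simp only [mul_assoc]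
      _ = 1 := by rw [h1, mul_one, i1]
  · calc _ = g' * (el N N' (1 + X * 0) (-0) (-(algebraMap k k[X] (-c))) (-0) *
        el N N' 1 0 (algebraMap k k[X] (-c)) 0) * g := by simp only [mul_assoc]
      _ = 1 := by rw [i2, mul_one, h2]
  · calc _ = el N N' 1 0 (algebraMap k k[X] (-c)) 0 * (g * N * g') *
        el N N' (1 + X * 0) (-0) (-(algebraMap k k[X] (-c))) (-0) := by simp only [mul_assoc]
      _ = _ := by
        rw [e, mul_smul_comm, smul_mul_assoc, h.toQPair.conj_L]
        congr 2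
        · (try simp only [algebraMap_eq, C_neg]); ring
        · (try simp only [algebraMap_eq, C_neg]); ring
        · (try simp only [algebraMap_eq, C_neg]); ring

theorem good_b (h : Ctx k 𝒢 (X : k[X]) N N') (c : k) {P r : k[X]}
    (hg : Good 𝒢 N N' P (r + C c * P)) : Good 𝒢 N N' P r := by
  obtain ⟨g, g', hg, h1, h2, κ, hκ, e⟩ := hg
  have hd : ((1 : k[X]) + X * 0) * 1 - X * 0 * (algebraMap k k[X] (-c)) = 1 := by ring
  obtain ⟨i1, i2⟩ := h.toQPair.el_inv hd
  refine ⟨el N N' 1 0 0 (algebraMap k k[X] (-c)) * g, g' * el N N' (1 + X * 0) (-0) (-0) (-(algebraMap k k[X] (-c))),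
    (h.in_b (-c)).mul hg, ?_, ?_, κ, hκ, ?_⟩
  · calc _ = el N N' 1 0 0 (algebraMap k k[X] (-c)) * (g * g') *
        el N N' (1 + X * 0) (-0) (-0) (-(algebraMap k k[X] (-c))) := by simp only [mul_assoc]
      _ = 1 := by rw [h1, mul_one, i1]
  · calc _ = g' * (el N N' (1 + X * 0) (-0) (-0) (-(algebraMap k k[X] (-c))) *
        el N N' 1 0 0 (algebraMap k k[X] (-c))) * g := by simp only [mul_assoc]
      _ = 1 := by rw [i2, mul_one, h2]
  · calc _ = el N N' 1 0 0 (algebraMap k k[X] (-c)) * (g * N * g') *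
        el N N' (1 + X * 0) (-0) (-0) (-(algebraMap k k[X] (-c))) := by simp only [mul_assoc]
      _ = _ := by
        rw [e, mul_smul_comm, smul_mul_assoc, h.toQPair.conj_L]
        congr 2
        · (try simp only [algebraMap_eq, C_neg]); ring
        · (try simp only [algebraMap_eq, C_neg]); ring
        · (try simp only [algebraMap_eq, C_neg]); ring

theorem good_congr {P r P' r' : k[X]} (hP : algebraMap k[X] D P = algebraMap k[X] D P')
    (hr : algebraMap k[X] D r = algebraMap k[X] D r') (hg : Good 𝒢 N N' P r) : Good 𝒢 N N' P' r' := by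
  obtain ⟨g, g', hg, h1, h2, κ, hκ, e⟩ := hg
  refine ⟨g, g', hg, h1, h2, κ, hκ, ?_⟩
  rw [e]
  congr 1
  simp only [L, Algebra.smul_def, map_pow, map_neg, map_mul, hP, hr]

theorem good_of_piv (h : Ctx k 𝒢 (X : k[X]) N N') : ∀ (j : ℕ) (P r : k[X]), piv j P r ≠ 0 →
    (∀ m, j / 2 < m → P.coeff m = 0) → (∀ m, (j + 1) / 2 ≤ m → r.coeff m = 0) → Good 𝒢 N N' P r := by
  intro j
  induction j with
  | zero =>
    intro P r hp hP hr
    have e1 : P = C (P.coeff 0) := by
      ext m
      rcases Nat.eq_zero_or_pos m with rfl | hm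
      · simp
      · rw [hP m (by omega), coeff_C, if_neg (by omega)]
    have e2 : r = 0 := by
      ext m
      rw [hr m (by omega), coeff_zero]
    rw [e1, e2]
    exact good_base hp
  | succ j ih =>
    intro P r hp hP hr
    simp only [piv] at hp
    split_ifs at hp with hj
    · have ha := left_ne_zero_of_mul hp
      have h2 := right_ne_zero_of_mul hp
      have := ih _ _ h2 ?_ ?_
      · apply good_b h (-(r.coeff (j / 2) / P.coeff (j / 2)))
        apply good_scale ha
        convert this using 1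
        rw [mul_add, ← mul_assoc, ← C_mul, sub_eq_add_neg, ← neg_mul, ← C_neg]
        congr 3
        field_simp
      · intro m hm
        rw [coeff_C_mul, hP m (by omega), mul_zero]
      · intro m hm
        rw [coeff_sub, coeff_C_mul, coeff_C_mul]
        rcases Nat.eq_or_lt_of_le hm with hm' | hm'
        · rw [← hm', show (j + 1) / 2 = j / 2 by omega]; ring
        · rw [hP m (by omega), hr m (by omega)]; ring
    · have hb := left_ne_zero_of_mul hp
      have h2 := right_ne_zero_of_mul hp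
      have := ih _ _ h2 ?_ ?_
      · apply good_a h (-(P.coeff (j / 2 + 1) / r.coeff (j / 2)))
        apply good_scale hb
        convert this using 1
        rw [mul_add, ← mul_assoc, ← C_mul, sub_eq_add_neg, ← neg_mul, ← C_neg]
        congr 3
        field_simp
      · intro m hm
        obtain ⟨m', rfl⟩ : ∃ m', m = m' + 1 := ⟨m - 1, by omega⟩
        rw [coeff_sub, coeff_C_mul, coeff_C_mul, coeff_X_mul]
        rcases Nat.eq_or_lt_of_le (show j / 2 ≤ m' by omega) with hm' | hm'
        · rw [← hm']; ring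
        · rw [hP _ (by omega), hr m' (by omega)]; ring
      · intro m hm
        rw [coeff_C_mul, hr m (by omega), mul_zero]

theorem kl_inf [Infinite k] (h2 : (2 : k) ≠ 0) (h : Ctx k 𝒢 (X : k[X]) N N') {f : k[X]} (hf : f.Monic)
    (hf0 : f • (1 : D) = 0) (μ : k[X]) : Fam (P := k[X]) k 𝒢 (μ • N) := by
  set n := f.natDegree with hn
  obtain ⟨P₀, r₀, hP, hr, hp, -, -⟩ := exists_normal k (2 * n + 1)
  set pP := (μ * P₀) %ₘ f with hpP
  set pr := (μ * r₀) %ₘ f with hpr
  have hdeg : ∀ u : k[X], ∀ m, n ≤ m → (u %ₘ f).coeff m = 0 := fun u m hm =>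
    coeff_eq_zero_of_degree_lt (lt_of_lt_of_le (degree_modByMonic_lt _ hf)
      (le_trans degree_le_natDegree (by exact_mod_cast hm)))
  have hval : ∀ u : k[X], algebraMap k[X] D (u %ₘ f) = algebraMap k[X] D u := by
    intro u
    have hf1 : algebraMap k[X] D f = 0 := by rw [Algebra.algebraMap_eq_smul_one, hf0]
    conv_rhs => rw [← modByMonic_add_div u f, map_add, map_mul, hf1, zero_mul, add_zero]
  set PP : k[X][X] := P₀.map C + C X * pP.map C with hPP
  set RR : k[X][X] := r₀.map C + C X * pr.map C with hRR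
  set Dd : k[X] := piv (2 * n + 1) PP RR with hDd
  have hmm : ∀ (s : k) (u : k[X]), (u.map C).map (evalRingHom s) = u := by
    intro s u
    rw [Polynomial.map_map]
    have : (evalRingHom s).comp C = RingHom.id k := by ext; simp
    rw [this, Polynomial.map_id]
  have hev : ∀ s : k, Dd.eval s = piv (2 * n + 1) (P₀ + C s * pP) (r₀ + C s * pr) := by
    intro s
    have := piv_map (evalRingHom s) (2 * n + 1) PP RR
    rw [coe_evalRingHom] at this
    rw [hDd, ← this, hPP, hRR]
    simp only [Polynomial.map_add, Polynomial.map_mul, hmm, map_C, coe_evalRingHom, eval_X]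
  have g0 : Good 𝒢 N N' P₀ r₀ := good_of_piv h _ _ _ hp hP hr
  have key : ∀ s : k, Dd.eval s ≠ 0 → Fam (P := k[X]) k 𝒢 (((1 + C s * μ) ^ 2) • N) := by
    intro s hs
    have g1 : Good 𝒢 N N' (P₀ + C s * pP) (r₀ + C s * pr) := by
      refine good_of_piv h (2 * n + 1) _ _ (by rwa [← hev]) ?_ ?_
      · intro m hm
        rw [coeff_add, coeff_C_mul, hP m hm, hdeg _ m (by omega)]; ring
      · intro m hm
        rw [coeff_add, coeff_C_mul, hr m hm, hdeg _ m (by omega)]; ring
    have g2 : Good 𝒢 N N' ((1 + C s * μ) * P₀) ((1 + C s * μ) * r₀) := by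
      refine good_congr ?_ ?_ g1
      · rw [map_add, map_mul, hval, ← map_mul, ← map_add]; congr 1; ring
      · rw [map_add, map_mul, hval, ← map_mul, ← map_add]; congr 1; ring
    obtain ⟨g, g', hg, a1, a2, κ, hκ, e⟩ := g2
    obtain ⟨g₀, g₀', hg₀, b1, b2, κ₀, hκ₀, e₀⟩ := g0
    have e3 : g * N * g' = (C (κ / κ₀) * (1 + C s * μ) ^ 2) • (g₀ * N * g₀') := by
      rw [e, e₀, L_smul, L_smul, L_smul]
      have hc : C (κ / κ₀) * C κ₀ = (C κ : k[X]) := by rw [← C_mul, div_mul_cancel₀ _ hκ₀]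
      congr 1
      · linear_combination (-((1 + C s * μ) ^ 2 * P₀ ^ 2)) * hc
      · linear_combination (((1 + C s * μ) ^ 2 * (X * r₀ ^ 2))) * hc
      · linear_combination (((1 + C s * μ) ^ 2 * (P₀ * r₀))) * hc
    have e4 : (g₀' * g) * N * (g' * g₀) = (C (κ / κ₀) * (1 + C s * μ) ^ 2) • N := by
      calc (g₀' * g) * N * (g' * g₀) = g₀' * (g * N * g') * g₀ := by simp only [mul_assoc]
        _ = (C (κ / κ₀) * (1 + C s * μ) ^ 2) • ((g₀' * g₀) * N * (g₀' * g₀)) := by
          rw [e3, mul_smul_comm, smul_mul_assoc]; simp only [mul_assoc]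
        _ = _ := by rw [b2, one_mul, mul_one]
    have f1 := h.fam.conj ((hg₀.inv b1).mul hg) (g' := g' * g₀) (by
      calc g₀' * g * (g' * g₀) = g₀' * (g * g') * g₀ := by simp only [mul_assoc]
        _ = 1 := by rw [a1, mul_one, b2])
    rw [e4] at f1
    have f2 := f1.smul (κ₀ / κ)
    rw [smul_smul, algebraMap_eq, ← mul_assoc, ← C_mul] at f2
    rw [show κ₀ / κ * (κ / κ₀) = 1 by field_simp, C_1, one_mul] at f2
    exact f2
  have hD0 : Dd ≠ 0 := by
    intro h0
    have := hev 0
    rw [h0, eval_zero] at this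
    apply hp
    rw [this]
    simp
  have hex : ∀ E : k[X], E ≠ 0 → ∃ s : k, E.eval s ≠ 0 := by
    intro E hE
    by_contra hcon
    push Not at hcon
    exact hE (Polynomial.funext (fun s => by rw [hcon s, eval_zero]))
  obtain ⟨s₁, hs₁⟩ := hex (Dd * X) (mul_ne_zero hD0 X_ne_zero)
  obtain ⟨s₂, hs₂⟩ := hex (Dd * X * (X - C s₁)) (mul_ne_zero (mul_ne_zero hD0 X_ne_zero) (X_sub_C_ne_zero s₁))
  simp only [eval_mul, eval_X, eval_sub, eval_C] at hs₁ hs₂
  have d1 : Dd.eval s₁ ≠ 0 := left_ne_zero_of_mul hs₁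
  have n1 : s₁ ≠ 0 := right_ne_zero_of_mul hs₁
  have d2 : Dd.eval s₂ ≠ 0 := left_ne_zero_of_mul (left_ne_zero_of_mul hs₂)
  have n2 : s₂ ≠ 0 := right_ne_zero_of_mul (left_ne_zero_of_mul hs₂)
  have n12 : s₂ - s₁ ≠ 0 := right_ne_zero_of_mul hs₂
  have hone : Fam (P := k[X]) k 𝒢 ((1 : k[X]) • N) := by rw [one_smul]; exact h.fam
  have step : ∀ s : k, s ≠ 0 → Dd.eval s ≠ 0 → Fam (P := k[X]) k 𝒢 ((2 * μ + C s * μ ^ 2) • N) := by
    intro s hs hd
    have := (Fam.subN h.nn (key s hd) hone).smulN s⁻¹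
    convert this using 2
    rw [algebraMap_eq]
    have hc : C s⁻¹ * C s = (1 : k[X]) := by rw [← C_mul, inv_mul_cancel₀ hs, C_1]
    linear_combination (-(2 * μ + C s * μ ^ 2)) * hc
  have m2 : Fam (P := k[X]) k 𝒢 ((μ ^ 2) • N) := by
    have := (Fam.subN h.nn (step s₂ n2 d2) (step s₁ n1 d1)).smulN (s₂ - s₁)⁻¹
    convert this using 2
    rw [algebraMap_eq]
    have hc : C (s₂ - s₁)⁻¹ * (C s₂ - C s₁) = (1 : k[X]) := by
      rw [← C_sub, ← C_mul, inv_mul_cancel₀ n12, C_1]
    linear_combination (-(μ ^ 2)) * hc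
  have m1 := (Fam.subN h.nn (step s₁ n1 d1) (m2.smulN s₁)).smulN (2 : k)⁻¹
  convert m1 using 2
  rw [algebraMap_eq]
  have hc : C (2 : k)⁻¹ * 2 = (1 : k[X]) := by
    rw [show (2 : k[X]) = C 2 from (map_ofNat C 2).symm, ← C_mul, inv_mul_cancel₀ h2, C_1]
  linear_combination (-μ) * hc

end good

end Cfsg.Agent.Lib.Helper85QE
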