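import Cfsg.Agent.Lib.Helper85QE

/-!
The key lemma for infinite fields, without the minimality oracles.
-/

set_option linter.unusedTactic false

namespace Cfsg.Agent.Lib.Helper85QE2

open Polynomial Cfsg.Agent.Lib.Helper85QA Cfsg.Agent.Lib.Helper85QE

/-- The standing hypotheses, without oracles. -/
structure Ctx0 {P : Type*} [CommRing P] {C : Type*} [Ring C] [Algebra P C] (k : Type*) [Field k] [Algebra k P]
    (𝒢 : Subgroup Cˣ) (x : P) (N N' : C) : Prop
    extends QPair x N N' where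
  fam : Fam (P := P) k 𝒢 N
  fam' : Fam (P := P) k 𝒢 N'

namespace Ctx0

variable {P : Type*} [CommRing P] {C : Type*} [Ring C] [Algebra P C]
variable {k : Type*} [Field k] [Algebra k P] {𝒢 : Subgroup Cˣ} {x : P} {N N' : C}

theorem symm (h : Ctx0 k 𝒢 x N N') : Ctx0 k 𝒢 x N' N :=
  { h.toQPair.symm with fam := h.fam', fam' := h.fam }

theorem in_a (h : Ctx0 k 𝒢 x N N') (c : k) : In 𝒢 (el N N' 1 0 (algebraMap k P c) 0) := by
  have := h.fam c
  have e : el N N' 1 0 (algebraMap k P c) 0 = 1 + (algebraMap k P c) • N := by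
    simp only [el]; module
  rwa [e]

theorem in_b (h : Ctx0 k 𝒢 x N N') (c : k) : In 𝒢 (el N N' 1 0 0 (algebraMap k P c)) := by
  have := h.fam' c
  have e : el N N' 1 0 0 (algebraMap k P c) = 1 + (algebraMap k P c) • N' := by
    simp only [el]; module
  rwa [e]

end Ctx0

section good

variable {k : Type*} [Field k] {D : Type*} [Ring D] [Algebra k[X] D] {𝒢 : Subgroup Dˣ} {N N' : D}

theorem good_a0 (h : Ctx0 k 𝒢 (X : k[X]) N N') (c : k) {P r : k[X]}
    (hg : Good 𝒢 N N' (P + C c * (X * r)) r) : Good 𝒢 N N' P r := by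
  obtain ⟨g, g', hg, h1, h2, κ, hκ, e⟩ := hg
  have hd : ((1 : k[X]) + X * 0) * 1 - X * (algebraMap k k[X] (-c)) * 0 = 1 := by ring
  obtain ⟨i1, i2⟩ := h.toQPair.el_inv hd
  refine ⟨el N N' 1 0 (algebraMap k k[X] (-c)) 0 * g, g' * el N N' (1 + X * 0) (-0) (-(algebraMap k k[X] (-c))) (-0),
    (h.in_a (-c)).mul hg, ?_, ?_, κ, hκ, ?_⟩
  · calc _ = el N N' 1 0 (algebraMap k k[X] (-c)) 0 * (g * g') *
        el N N' (1 + X * 0) (-0) (-(algebraMap k k[X] (-c))) (-0) := by simp only [mul_assoc]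
      _ = 1 := by rw [h1, mul_one, i1]
  · calc _ = g' * (el N N' (1 + X * 0) (-0) (-(algebraMap k k[X] (-c))) (-0) *
        el N N' 1 0 (algebraMap k k[X] (-c)) 0) * g := by simp only [mul_assoc]
      _ = 1 := by rw [i2, mul_one, h2]
  · calc _ = el N N' 1 0 (algebraMap k k[X] (-c)) 0 * (g * N * g') *
        el N N' (1 + X * 0) (-0) (-(algebraMap k k[X] (-c))) (-0) := by simp only [mul_assoc]
      _ = _ := by
        rw [e, mul_smul_comm, smul_mul_assoc, h.toQPair.conj_L]
        congr 2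
        · (try simp only [algebraMap_eq, C_neg]); ring
        · (try simp only [algebraMap_eq, C_neg]); ring
        · (try simp only [algebraMap_eq, C_neg]); ring

theorem good_b0 (h : Ctx0 k 𝒢 (X : k[X]) N N') (c : k) {P r : k[X]}
    (hg : Good 𝒢 N N' P (r + C c * P)) : Good 𝒢 N N' P r := by
  obtain ⟨g, g', hg, h1, h2, κ, hκ, e⟩ := hg
  have hd : ((1 : k[X]) + X * 0) * 1 - X * 0 * (algebraMap k k[X] (-c)) = 1 := by ring
  obtain ⟨i1, i2⟩ := h.toQPair.el_inv hd
  refine ⟨el N N' 1 0 0 (algebraMap k k[X] (-c)) * g, g' * el N N' (1 + X * 0) (-0) (-0) (-(algebraMap k k[X] (-c))),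
    (h.in_b (-c)).mul hg, ?_, ?_, κ, hκ, ?_⟩
  · calc _ = el N N' 1 0 0 (algebraMap k k[X] (-c)) * (g * g') *
        el N N' (1 + X * 0) (-0) (-0) (-(algebraMap k k[X] (-c))) := by simp only [mul_assoc]
      _ = 1 := by rw [h1, mul_one, i1]
  · calc _ = g' * (el N N' (1 + X * 0) (-0) (-0) (-(algebraMap k k[X] (-c))) *
        el N N' 1 0 0 (algebraMap k k[X] (-c))) * g := by simp only [mul_assoc]
      _ = 1 := by rw [i2, mul_one, h2]
  · calc _ = el N N' 1 0 0 (algebraMap k k[X] (-c)) * (g * N * g') *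
        el N N' (1 + X * 0) (-0) (-0) (-(algebraMap k k[X] (-c))) := by simp only [mul_assoc]
      _ = _ := by
        rw [e, mul_smul_comm, smul_mul_assoc, h.toQPair.conj_L]
        congr 2
        · (try simp only [algebraMap_eq, C_neg]); ring
        · (try simp only [algebraMap_eq, C_neg]); ring
        · (try simp only [algebraMap_eq, C_neg]); ring

theorem good_of_piv0 (h : Ctx0 k 𝒢 (X : k[X]) N N') : ∀ (j : ℕ) (P r : k[X]), piv j P r ≠ 0 →
    (∀ m, j / 2 < m → P.coeff m = 0) → (∀ m, (j + 1) / 2 ≤ m → r.coeff m = 0) → Good 𝒢 N N' P r := by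
  intro j
  induction j with
  | zero =>
    intro P r hp hP hr
    have e1 : P = C (P.coeff 0) := by
      ext m
      rcases Nat.eq_zero_or_pos m with rfl | hm
      · simp
      · rw [hP m (by omega), coeff_C, if_neg (by omega)]
    have e2 : r = 0 := by
      ext m
      rw [hr m (by omega), coeff_zero]
    rw [e1, e2]
    exact good_base hp
  | succ j ih =>
    intro P r hp hP hr
    simp only [piv] at hp
    split_ifs at hp with hj
    · have ha := left_ne_zero_of_mul hp
      have h2 := right_ne_zero_of_mul hp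
      have := ih _ _ h2 ?_ ?_
      · apply good_b0 h (-(r.coeff (j / 2) / P.coeff (j / 2)))
        apply good_scale ha
        convert this using 1
        rw [mul_add, ← mul_assoc, ← C_mul, sub_eq_add_neg, ← neg_mul, ← C_neg]
        congr 3
        field_simp
      · intro m hm
        rw [coeff_C_mul, hP m (by omega), mul_zero]
      · intro m hm
        rw [coeff_sub, coeff_C_mul, coeff_C_mul]
        rcases Nat.eq_or_lt_of_le hm with hm' | hm'
        · rw [← hm', show (j + 1) / 2 = j / 2 by omega]; ring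
        · rw [hP m (by omega), hr m (by omega)]; ring
    · have hb := left_ne_zero_of_mul hp
      have h2 := right_ne_zero_of_mul hp
      have := ih _ _ h2 ?_ ?_
      · apply good_a0 h (-(P.coeff (j / 2 + 1) / r.coeff (j / 2)))
        apply good_scale hb
        convert this using 1
        rw [mul_add, ← mul_assoc, ← C_mul, sub_eq_add_neg, ← neg_mul, ← C_neg]
        congr 3
        field_simp
      · intro m hm
        obtain ⟨m', rfl⟩ : ∃ m', m = m' + 1 := ⟨m - 1, by omega⟩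
        rw [coeff_sub, coeff_C_mul, coeff_C_mul, coeff_X_mul]
        rcases Nat.eq_or_lt_of_le (show j / 2 ≤ m' by omega) with hm' | hm'
        · rw [← hm']; ring
        · rw [hP _ (by omega), hr m' (by omega)]; ring
      · intro m hm
        rw [coeff_C_mul, hr m (by omega), mul_zero]

theorem kl_inf0 [Infinite k] (h2 : (2 : k) ≠ 0) (h : Ctx0 k 𝒢 (X : k[X]) N N') {f : k[X]} (hf : f.Monic)
    (hf0 : f • (1 : D) = 0) (μ : k[X]) : Fam (P := k[X]) k 𝒢 (μ • N) := by
  set n := f.natDegree with hn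
  obtain ⟨P₀, r₀, hP, hr, hp, -, -⟩ := exists_normal k (2 * n + 1)
  set pP := (μ * P₀) %ₘ f with hpP
  set pr := (μ * r₀) %ₘ f with hpr
  have hdeg : ∀ u : k[X], ∀ m, n ≤ m → (u %ₘ f).coeff m = 0 := fun u m hm =>
    coeff_eq_zero_of_degree_lt (lt_of_lt_of_le (degree_modByMonic_lt _ hf)
      (le_trans degree_le_natDegree (by exact_mod_cast hm)))
  have hval : ∀ u : k[X], algebraMap k[X] D (u %ₘ f) = algebraMap k[X] D u := by
    intro u
    have hf1 : algebraMap k[X] D f = 0 := by rw [Algebra.algebraMap_eq_smul_one, hf0]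
    conv_rhs => rw [← modByMonic_add_div u f, map_add, map_mul, hf1, zero_mul, add_zero]
  set PP : k[X][X] := P₀.map C + C X * pP.map C with hPP
  set RR : k[X][X] := r₀.map C + C X * pr.map C with hRR
  set Dd : k[X] := piv (2 * n + 1) PP RR with hDd
  have hmm : ∀ (s : k) (u : k[X]), (u.map C).map (evalRingHom s) = u := by
    intro s u
    rw [Polynomial.map_map]
    have : (evalRingHom s).comp C = RingHom.id k := by ext; simp
    rw [this, Polynomial.map_id]
  have hev : ∀ s : k, Dd.eval s = piv (2 * n + 1) (P₀ + C s * pP) (r₀ + C s * pr) := by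
    intro s
    have := piv_map (evalRingHom s) (2 * n + 1) PP RR
    rw [coe_evalRingHom] at this
    rw [hDd, ← this, hPP, hRR]
    simp only [Polynomial.map_add, Polynomial.map_mul, hmm, map_C, coe_evalRingHom, eval_X]
  have g0 : Good 𝒢 N N' P₀ r₀ := good_of_piv0 h _ _ _ hp hP hr
  have key : ∀ s : k, Dd.eval s ≠ 0 → Fam (P := k[X]) k 𝒢 (((1 + C s * μ) ^ 2) • N) := by
    intro s hs
    have g1 : Good 𝒢 N N' (P₀ + C s * pP) (r₀ + C s * pr) := by
      refine good_of_piv0 h (2 * n + 1) _ _ (by rwa [← hev]) ?_ ?_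
      · intro m hm
        rw [coeff_add, coeff_C_mul, hP m hm, hdeg _ m (by omega)]; ring
      · intro m hm
        rw [coeff_add, coeff_C_mul, hr m hm, hdeg _ m (by omega)]; ring
    have g2 : Good 𝒢 N N' ((1 + C s * μ) * P₀) ((1 + C s * μ) * r₀) := by
      refine good_congr ?_ ?_ g1
      · rw [map_add, map_mul, hval, ← map_mul, ← map_add]; congr 1; ring
      · rw [map_add, map_mul, hval, ← map_mul, ← map_add]; congr 1; ring
    obtain ⟨g, g', hg, a1, a2, κ, hκ, e⟩ := g2
    obtain ⟨g₀, g₀', hg₀, b1, b2, κ₀, hκ₀, e₀⟩ := g0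
    have e3 : g * N * g' = (C (κ / κ₀) * (1 + C s * μ) ^ 2) • (g₀ * N * g₀') := by
      rw [e, e₀, L_smul, L_smul, L_smul]
      have hc : C (κ / κ₀) * C κ₀ = (C κ : k[X]) := by rw [← C_mul, div_mul_cancel₀ _ hκ₀]
      congr 1
      · linear_combination (-((1 + C s * μ) ^ 2 * P₀ ^ 2)) * hc
      · linear_combination (((1 + C s * μ) ^ 2 * (X * r₀ ^ 2))) * hc
      · linear_combination (((1 + C s * μ) ^ 2 * (P₀ * r₀))) * hc
    have e4 : (g₀' * g) * N * (g' * g₀) = (C (κ / κ₀) * (1 + C s * μ) ^ 2) • N := by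
      calc (g₀' * g) * N * (g' * g₀) = g₀' * (g * N * g') * g₀ := by simp only [mul_assoc]
        _ = (C (κ / κ₀) * (1 + C s * μ) ^ 2) • ((g₀' * g₀) * N * (g₀' * g₀)) := by
          rw [e3, mul_smul_comm, smul_mul_assoc]; simp only [mul_assoc]
        _ = _ := by rw [b2, one_mul, mul_one]
    have f1 := h.fam.conj ((hg₀.inv b1).mul hg) (g' := g' * g₀) (by
      calc g₀' * g * (g' * g₀) = g₀' * (g * g') * g₀ := by simp only [mul_assoc]
        _ = 1 := by rw [a1, mul_one, b2])
    rw [e4] at f1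
    have f2 := f1.smul (κ₀ / κ)
    rw [smul_smul, algebraMap_eq, ← mul_assoc, ← C_mul] at f2
    rw [show κ₀ / κ * (κ / κ₀) = 1 by field_simp, C_1, one_mul] at f2
    exact f2
  have hD0 : Dd ≠ 0 := by
    intro h0
    have := hev 0
    rw [h0, eval_zero] at this
    apply hp
    rw [this]
    simp
  have hex : ∀ E : k[X], E ≠ 0 → ∃ s : k, E.eval s ≠ 0 := by
    intro E hE
    by_contra hcon
    push Not at hcon
    exact hE (Polynomial.funext (fun s => by rw [hcon s, eval_zero]))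
  obtain ⟨s₁, hs₁⟩ := hex (Dd * X) (mul_ne_zero hD0 X_ne_zero)
  obtain ⟨s₂, hs₂⟩ := hex (Dd * X * (X - C s₁)) (mul_ne_zero (mul_ne_zero hD0 X_ne_zero) (X_sub_C_ne_zero s₁))
  simp only [eval_mul, eval_X, eval_sub, eval_C] at hs₁ hs₂
  have d1 : Dd.eval s₁ ≠ 0 := left_ne_zero_of_mul hs₁
  have n1 : s₁ ≠ 0 := right_ne_zero_of_mul hs₁
  have d2 : Dd.eval s₂ ≠ 0 := left_ne_zero_of_mul (left_ne_zero_of_mul hs₂)
  have n2 : s₂ ≠ 0 := right_ne_zero_of_mul (left_ne_zero_of_mul hs₂)
  have n12 : s₂ - s₁ ≠ 0 := right_ne_zero_of_mul hs₂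
  have hone : Fam (P := k[X]) k 𝒢 ((1 : k[X]) • N) := by rw [one_smul]; exact h.fam
  have step : ∀ s : k, s ≠ 0 → Dd.eval s ≠ 0 → Fam (P := k[X]) k 𝒢 ((2 * μ + C s * μ ^ 2) • N) := by
    intro s hs hd
    have := (Fam.subN h.nn (key s hd) hone).smulN s⁻¹
    convert this using 2
    rw [algebraMap_eq]
    have hc : C s⁻¹ * C s = (1 : k[X]) := by rw [← C_mul, inv_mul_cancel₀ hs, C_1]
    linear_combination (-(2 * μ + C s * μ ^ 2)) * hc
  have m2 : Fam (P := k[X]) k 𝒢 ((μ ^ 2) • N) := by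
    have := (Fam.subN h.nn (step s₂ n2 d2) (step s₁ n1 d1)).smulN (s₂ - s₁)⁻¹
    convert this using 2
    rw [algebraMap_eq]
    have hc : C (s₂ - s₁)⁻¹ * (C s₂ - C s₁) = (1 : k[X]) := by
      rw [← C_sub, ← C_mul, inv_mul_cancel₀ n12, C_1]
    linear_combination (-(μ ^ 2)) * hc
  have m1 := (Fam.subN h.nn (step s₁ n1 d1) (m2.smulN s₁)).smulN (2 : k)⁻¹
  convert m1 using 2
  rw [algebraMap_eq]
  have hc : C (2 : k)⁻¹ * 2 = (1 : k[X]) := by
    rw [show (2 : k[X]) = C 2 from (map_ofNat C 2).symm, ← C_mul, inv_mul_cancel₀ h2, C_1]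
  linear_combination (-μ) * hc

end good

end Cfsg.Agent.Lib.Helper85QE2
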