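import Cfsg.Agent.Lib.Helper85QT

/-!
Quadratic pairs: a non-minimal quadratic element against the root elements.
-/

set_option linter.unusedSectionVars false
set_option linter.unusedSimpArgs false

namespace Cfsg.Agent.Lib.Helper85QG

open Polynomial Cfsg Module Cfsg.Agent.Lib.Helper85QA Cfsg.Agent.Lib.Helper85QK Cfsg.Agent.Lib.Helper85QP
  Cfsg.Agent.Lib.Helper85QC Cfsg.Agent.Lib.Helper85QI Cfsg.Agent.Lib.Helper85QS Cfsg.Agent.Lib.Helper85QV
  Cfsg.Agent.Lib.Helper85QT

section ring

variable {R : Type*} [Ring R] {X S : R}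

theorem conj_plus (X S : R) : (1 + S) * X * (1 - S) = X + (S * X - X * S) - S * X * S := by noncomm_ring

theorem conj_minus (X S : R) : (1 - S) * X * (1 + S) = X - (S * X - X * S) - S * X * S := by noncomm_ring

theorem kill2 {A : R} (h : A * A = 0) (a : R) : A * (A * a) = 0 := by rw [← mul_assoc, h, zero_mul]

theorem kill3 {A B : R} (h : A * B * A = 0) (a : R) : A * (B * (A * a)) = 0 := by
  rw [← mul_assoc, ← mul_assoc, h, zero_mul]

theorem kill3' {A B : R} (h : A * B * A = 0) : A * (B * A) = 0 := by rw [← mul_assoc, h]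

theorem kill5 {A B : R} (h : A * B * A * B * A = 0) (a : R) : A * (B * (A * (B * (A * a)))) = 0 := by
  rw [← mul_assoc, ← mul_assoc, ← mul_assoc, ← mul_assoc, h, zero_mul]

theorem kill5' {A B : R} (h : A * B * A * B * A = 0) : A * (B * (A * (B * A))) = 0 := by
  rw [← mul_assoc, ← mul_assoc, ← mul_assoc, h]

theorem weyl {X S Θ : R} (hX : X * X = 0) (hS : S * S = 0) (c1 : Θ * X = X * Θ) (c2 : Θ * S = S * Θ)
    (h : Θ * (X * S * X) = X) :
    (1 + X) * (1 - Θ * S) * (1 + X) * S * ((1 - X) * (1 + Θ * S) * (1 - X)) = S - Θ * (S * X * S) - X * S * X := by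
  have hX' : ∀ a, X * (X * a) = 0 := fun a => by rw [← mul_assoc, hX, zero_mul]
  have hS' : ∀ a, S * (S * a) = 0 := fun a => by rw [← mul_assoc, hS, zero_mul]
  have xΘ : ∀ a, X * (Θ * a) = Θ * (X * a) := fun a => by rw [← mul_assoc, ← c1, mul_assoc]
  have sΘ : ∀ a, S * (Θ * a) = Θ * (S * a) := fun a => by rw [← mul_assoc, ← c2, mul_assoc]
  have q1' : Θ * (X * (S * X)) = X := by rw [← mul_assoc X, h]
  have q1 : ∀ a, Θ * (X * (S * (X * a))) = X * a := fun a => by
    rw [← mul_assoc S, ← mul_assoc X, ← mul_assoc Θ, ← mul_assoc X, h]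
  have q2' : Θ * (S * (X * (S * X))) = S * X := by rw [← sΘ, q1']
  have q2 : ∀ a, Θ * (S * (X * (S * (X * a)))) = S * (X * a) := fun a => by rw [← sΘ, q1]
  simp only [mul_add, add_mul, mul_sub, sub_mul, mul_one, one_mul, mul_assoc, ← c1, ← c2, xΘ, sΘ, hX, hX', hS, hS', q1, q1',
    q2, q2', mul_zero, sub_zero, add_zero, zero_add, zero_sub, neg_zero, sub_self]
  abel

theorem weyl_aux {X S Θ : R} (hX : X * X = 0) (hS : S * S = 0) (c1 : Θ * X = X * Θ) (c2 : Θ * S = S * Θ)
    (h : Θ * (X * S * X) = X) :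
    (S - Θ * (S * X * S)) * (S - Θ * (S * X * S)) = 0 ∧ (S - Θ * (S * X * S)) * (X * S * X) = 0 ∧
    (X * S * X) * (S - Θ * (S * X * S)) = 0 ∧ (X * S * X) * (X * S * X) = 0 ∧ S * (S - Θ * (S * X * S)) = 0 ∧
    (S - Θ * (S * X * S)) * (Θ * (S * X * S)) = 0 ∧ (Θ * (S * X * S)) * (Θ * (S * X * S)) = 0 ∧
    X * (Θ * (S * X * S)) * X = X * S * X ∧ Θ * (S * X + X * S) * (S - Θ * (S * X * S)) = 0 ∧
    Θ * (S * X + X * S) * (Θ * (S * X * S)) = Θ * (S * X * S) ∧ S - Θ * (S * X * S) = S * (1 - Θ * X * S) ∧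
    Θ * (S * X * S) = S * (Θ * X * S) ∧ Θ * S * (Θ * S) = 0 := by
  have hX' : ∀ a, X * (X * a) = 0 := fun a => by rw [← mul_assoc, hX, zero_mul]
  have hS' : ∀ a, S * (S * a) = 0 := fun a => by rw [← mul_assoc, hS, zero_mul]
  have xΘ : ∀ a, X * (Θ * a) = Θ * (X * a) := fun a => by rw [← mul_assoc, ← c1, mul_assoc]
  have sΘ : ∀ a, S * (Θ * a) = Θ * (S * a) := fun a => by rw [← mul_assoc, ← c2, mul_assoc]
  have q1' : Θ * (X * (S * X)) = X := by rw [← mul_assoc X, h]
  have q1 : ∀ a, Θ * (X * (S * (X * a))) = X * a := fun a => by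
    rw [← mul_assoc S, ← mul_assoc X, ← mul_assoc Θ, ← mul_assoc X, h]
  have q2' : Θ * (S * (X * (S * X))) = S * X := by rw [← sΘ, q1']
  have q2 : ∀ a, Θ * (S * (X * (S * (X * a)))) = S * (X * a) := fun a => by rw [← sΘ, q1]
  refine ⟨?_, ?_, ?_, ?_, ?_, ?_, ?_, ?_, ?_, ?_, ?_, ?_, ?_⟩ <;>
  simp only [mul_add, add_mul, mul_sub, sub_mul, mul_one, one_mul, mul_assoc, ← c1, ← c2, xΘ, sΘ, hX, hX', hS, hS', q1, q1',
    q2, q2', mul_zero, sub_zero, add_zero, zero_add, zero_sub, neg_zero, sub_self]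

end ring

variable {k : Type*} [Field k] {M : Type*} [AddCommGroup M] [Module k M] [FiniteDimensional k M]

local notation "GLM" => LinearMap.GeneralLinearGroup k M
local notation "EndM" => (M →ₗ[k] M)

theorem uof_memG {G : Subgroup GLM} {S : EndM} (hS : S * S = 0) (fS : InG G S) : uof S hS ∈ G :=
  fS.mem (by simp)

theorem InG.conj_plus {G : Subgroup GLM} {S Y : EndM} (hS : S * S = 0) (fS : InG G S) (fY : InG G Y) :
    InG G ((1 + S) * Y * (1 - S)) := by
  have := fY.conj (uof_memG hS fS)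
  rwa [uof_val, uof_inv_val] at this

theorem InG.conj_minus {G : Subgroup GLM} {S Y : EndM} (hS : S * S = 0) (fS : InG G S) (fY : InG G Y) :
    InG G ((1 - S) * Y * (1 + S)) := by
  have := fY.conj (G.inv_mem (uof_memG hS fS))
  rwa [inv_inv, uof_val, uof_inv_val] at this

theorem Root.conj_plus {G : Subgroup GLM} {S Y : EndM} (hS : S * S = 0) (fS : InG G S) (fY : Root G Y) :
    Root G ((1 + S) * Y * (1 - S)) := by
  have := Root.conj fY (uof_memG hS fS)
  rwa [uof_val, uof_inv_val] at this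

theorem Root.conj_minus {G : Subgroup GLM} {S Y : EndM} (hS : S * S = 0) (fS : InG G S) (fY : Root G Y) :
    Root G ((1 - S) * Y * (1 + S)) := by
  have := Root.conj fY (G.inv_mem (uof_memG hS fS))
  rwa [inv_inv, uof_val, uof_inv_val] at this

theorem InG.of_smul {G : Subgroup GLM} {Y : EndM} {c : k} (hc : c ≠ 0) (h : InG G (c • Y)) : InG G Y := by
  have := h.smul c⁻¹
  rwa [smul_smul, inv_mul_cancel₀ hc, one_smul] at this

theorem InG.neg {G : Subgroup GLM} {Y : EndM} (h : InG G Y) : InG G (-Y) := by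
  have := h.smul (-1)
  rwa [neg_smul, one_smul] at this

/-- L4 -/
theorem root_or_zero {G : Subgroup GLM} {N Y : EndM} (hN : Root G N) (sq : Y * Y = 0) (fam : InG G Y)
    (hr : finrank k (LinearMap.range Y) ≤ finrank k (LinearMap.range N)) : Y = 0 ∨ Root G Y := by
  by_cases h : Y = 0
  · exact Or.inl h
  · exact Or.inr ⟨sq, h, fam, fun τ hτ => hr.trans (hN.min τ hτ)⟩

/-- L2 -/
theorem fam_of_xsx (hk2 : ringChar k ≠ 2) {G : Subgroup GLM} {X S : EndM} (hX : X * X = 0) (fX : InG G X)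
    (hS : S * S = 0) (fS : InG G S) (h : X * S * X = 0) : InG G (S * X * S) ∧ InG G (S * X - X * S) := by
  have h2 : (2 : k) ≠ 0 := Ring.two_ne_zero hk2
  have f1 := InG.conj_plus hS fS fX
  have f2 := InG.conj_minus hS fS fX
  rw [conj_plus] at f1
  rw [conj_minus] at f2
  have hX' := kill2 hX
  have hS' := kill2 hS
  have h' := kill3 h
  have h'' := kill3' h
  have p1 : (X + (S * X - X * S) - S * X * S) * (X - (S * X - X * S) - S * X * S) = 0 := by
    simp only [mul_add, add_mul, mul_sub, sub_mul, mul_assoc, hX, hX', hS, hS', h', h'', mul_zero, sub_zero, add_zero,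
      zero_add, zero_sub, neg_zero, sub_self]
  have p2 : X * (X + (S * X - X * S) - S * X * S) = 0 := by
    simp only [mul_add, add_mul, mul_sub, sub_mul, mul_assoc, hX, hX', hS, hS', h', h'', mul_zero, sub_zero, add_zero,
      zero_add, zero_sub, neg_zero, sub_self]
  have p3 : X * (X - (S * X - X * S) - S * X * S) = 0 := by
    simp only [mul_add, add_mul, mul_sub, sub_mul, mul_assoc, hX, hX', hS, hS', h', h'', mul_zero, sub_zero, add_zero,
      zero_add, zero_sub, neg_zero, sub_self]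
  constructor
  · have g1 := InG.neg (f1.add f2 p1)
    have g2 := (fX.smul 2).add g1 (by rw [smul_mul_assoc, mul_neg, mul_add, p2, p3]; simp)
    apply InG.of_smul h2
    convert g2 using 1
    rw [two_smul, two_smul]; abel
  · have g1 := f1.add (InG.neg f2) (by rw [mul_neg, p1, neg_zero])
    apply InG.of_smul h2
    convert g1 using 1
    rw [two_smul]; abel

/-- L3 -/
theorem rank_comm_le {X S : EndM} (h : S * X * S = 0) :
    finrank k (LinearMap.range (S * X - X * S)) ≤ finrank k (LinearMap.range X) := by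
  have h1 : LinearMap.range (S * X - X * S) ≤ (LinearMap.range X).map S ⊔ (LinearMap.range X ⊓ LinearMap.ker S) := by
    rintro _ ⟨m, rfl⟩
    rw [LinearMap.sub_apply, sub_eq_add_neg]
    apply Submodule.add_mem_sup
    · exact ⟨X m, ⟨m, rfl⟩, rfl⟩
    · apply Submodule.neg_mem
      refine ⟨⟨S m, rfl⟩, ?_⟩
      exact LinearMap.mem_ker.2 (LinearMap.congr_fun h m)
  calc finrank k (LinearMap.range (S * X - X * S))
      ≤ finrank k ((LinearMap.range X).map S ⊔ (LinearMap.range X ⊓ LinearMap.ker S) : Submodule k M) :=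
        Submodule.finrank_mono h1
    _ ≤ finrank k ((LinearMap.range X).map S) + finrank k (LinearMap.range X ⊓ LinearMap.ker S : Submodule k M) :=
        Submodule.finrank_add_le_finrank_add_finrank _ _
    _ = finrank k (LinearMap.range X) := finrank_map_add S _

theorem rank_sxs_le (A X B : EndM) :
    finrank k (LinearMap.range (A * X * B)) ≤ finrank k (LinearMap.range X) := by
  have h1 : LinearMap.range (A * X * B) ≤ (LinearMap.range X).map A := by
    rintro _ ⟨m, rfl⟩
    exact ⟨X (B m), ⟨_, rfl⟩, rfl⟩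
  exact (Submodule.finrank_mono h1).trans (Submodule.finrank_map_le _ _)

/-- L5 -/
theorem exists_partner' (hk2 : ringChar k ≠ 2) (hk3 : Nat.card k ≠ 3) {G : Subgroup GLM}
    (hG : IsQuadraticPair G) {W : EndM} (hW : Root G W) : ∃ Y, Root G Y ∧ Y * W * Y ≠ 0 := by
  obtain ⟨t, ht, hne⟩ := exists_partner hk2 hk3 hG hW
  have hr := Root.conj hW (G.inv_mem ht)
  rw [inv_inv] at hr
  refine ⟨_, hr, ?_⟩
  intro h0
  apply hne
  calc W * ((t : EndM) * W * ((t⁻¹ : GLM) : EndM)) * W
      = ((t : EndM) * ((t⁻¹ : GLM) : EndM)) * W * ((t : EndM) * W * ((t⁻¹ : GLM) : EndM)) * W *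
          ((t : EndM) * ((t⁻¹ : GLM) : EndM)) := by rw [Units.mul_inv]; simp
    _ = (t : EndM) * ((((t⁻¹ : GLM) : EndM) * W * (t : EndM)) * W * (((t⁻¹ : GLM) : EndM) * W * (t : EndM))) *
          ((t⁻¹ : GLM) : EndM) := by simp only [mul_assoc]
    _ = 0 := by rw [h0]; simp

/-- conjugation invariance of the hypothesis of case B. -/
theorem caseB_conj {G : Subgroup GLM} {S : EndM} (hB : ∀ Y, Root G Y → Y * S * Y = 0) {g : GLM} (hg : g ∈ G)
    {Y : EndM} (hY : Root G Y) : Y * ((g : EndM) * S * ((g⁻¹ : GLM) : EndM)) * Y = 0 := by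
  have hr := Root.conj hY (G.inv_mem hg)
  rw [inv_inv] at hr
  have h0 := hB _ hr
  calc Y * ((g : EndM) * S * ((g⁻¹ : GLM) : EndM)) * Y
      = ((g : EndM) * ((g⁻¹ : GLM) : EndM)) * Y * ((g : EndM) * S * ((g⁻¹ : GLM) : EndM)) * Y *
          ((g : EndM) * ((g⁻¹ : GLM) : EndM)) := by rw [Units.mul_inv]; simp
    _ = (g : EndM) * ((((g⁻¹ : GLM) : EndM) * Y * (g : EndM)) * S * (((g⁻¹ : GLM) : EndM) * Y * (g : EndM))) *
          ((g⁻¹ : GLM) : EndM) := by simp only [mul_assoc]
    _ = 0 := by rw [h0]; simp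

/-- L6: case B. -/
theorem caseB (hk2 : ringChar k ≠ 2) (hk3 : Nat.card k ≠ 3) {G : Subgroup GLM}
    (hG : IsQuadraticPair G) {S : EndM} (hS : S * S = 0) (fS : InG G S)
    (hB : ∀ Y, Root G Y → Y * S * Y = 0) {X : EndM} (hX : Root G X) : S * X = X * S := by
  have h2 : (2 : k) ≠ 0 := Ring.two_ne_zero hk2
  have h := hB X hX
  obtain ⟨fW, fT⟩ := fam_of_xsx hk2 hX.sq hX.fam hS fS h
  have hX' := kill2 hX.sq
  have hS' := kill2 hS
  have h' := kill3 h
  have h'' := kill3' h
  have gX : (uof X hX.sq)⁻¹ ∈ G := G.inv_mem (uof_memG hX.sq hX.fam)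
  have gS : uof S hS ∈ G := uof_memG hS fS
  -- (A)
  have A1 : ∀ Y, Root G Y → Y * (S * X - X * S) * Y = 0 := by
    intro Y hY
    have a1 := caseB_conj hB gX hY
    rw [inv_inv, uof_val, uof_inv_val] at a1
    have e : (1 - X) * S * (1 + X) = S + (S * X - X * S) - X * S * X := by noncomm_ring
    rw [e, h, sub_zero, mul_add, add_mul, hB Y hY, zero_add] at a1
    exact a1
  have A2 : ∀ Y, Root G Y → Y * (S * X * S) * Y = 0 := by
    intro Y hY
    have a1 := caseB_conj hB (G.mul_mem gS gX) hY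
    rw [mul_inv_rev, inv_inv, Units.val_mul, Units.val_mul, uof_val, uof_val, uof_inv_val, uof_inv_val] at a1
    have e : (1 + S) * (1 - X) * S * ((1 + X) * (1 - S)) = S + (S * X - X * S) - (S * X * S + S * X * S) := by
      simp only [mul_add, add_mul, mul_sub, sub_mul, mul_one, one_mul, mul_assoc, hX.sq, hX', hS, hS', h', h'', mul_zero,
        sub_zero, add_zero, zero_add, zero_sub, neg_zero, sub_self]
      abel
    rw [e, mul_sub, sub_mul, mul_add, add_mul, hB Y hY, A1 Y hY, zero_add, zero_sub, neg_eq_zero, ← two_smul k,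
      mul_smul_comm, smul_mul_assoc, smul_eq_zero] at a1
    exact a1.resolve_left h2
  -- `W = 0`
  have hW : S * X * S = 0 := by
    have sq : S * X * S * (S * X * S) = 0 := by
      simp only [mul_assoc, hS', mul_zero]
    rcases root_or_zero hX sq fW (rank_sxs_le S X S) with h0 | hr
    · exact h0
    · obtain ⟨Y, hY, hne⟩ := exists_partner' hk2 hk3 hG hr
      exact absurd (A2 Y hY) hne
  have hW' := kill3 hW
  have hW'' := kill3' hW
  have sq : (S * X - X * S) * (S * X - X * S) = 0 := by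
    simp only [mul_add, add_mul, mul_sub, sub_mul, mul_one, one_mul, mul_assoc, hX.sq, hX', hS, hS', h', h'', hW', hW'',
      mul_zero, sub_zero, add_zero, zero_add, zero_sub, neg_zero, sub_self]
  rcases root_or_zero hX sq fT (rank_comm_le hW) with h0 | hr
  · exact sub_eq_zero.1 h0
  · obtain ⟨Y, hY, hne⟩ := exists_partner' hk2 hk3 hG hr
    exact absurd (A1 Y hY) hne

/-- L1 -/
theorem xsx_of (hk2 : ringChar k ≠ 2) (hk3 : Nat.card k ≠ 3) {G : Subgroup GLM} {X S : EndM} (hX : Root G X)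
    (hS : S * S = 0) (fS : InG G S) (h : X * S * X * S * X = 0) : X * S * X = 0 := by
  have h2 : (2 : k) ≠ 0 := Ring.two_ne_zero hk2
  have hX' := kill2 hX.sq
  have hS' := kill2 hS
  have h' := kill5 h
  have h'' := kill5' h
  have r' := Root.conj_plus hS fS hX
  rw [conj_plus] at r'
  have x1 : X * (X + (S * X - X * S) - S * X * S) * X = 0 := by
    simp only [mul_add, add_mul, mul_sub, sub_mul, mul_one, one_mul, mul_assoc, hX.sq, hX', hS, hS', h', h'', mul_zero,
      sub_zero, add_zero, zero_add, zero_sub, neg_zero, sub_self]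
  have up := UP.of hk2 hk3 hX r' x1
  have f0 := up.nu_fam (IsLg.self hX) (IsLg.self r')
  have e0 : X * (X + (S * X - X * S) - S * X * S) - (X + (S * X - X * S) - S * X * S) * X =
      X * S * X + X * S * X - X * S * X * S + S * X * S * X := by
    simp only [mul_add, add_mul, mul_sub, sub_mul, mul_one, one_mul, mul_assoc, hX.sq, hX', hS, hS', h', h'', mul_zero,
      sub_zero, add_zero, zero_add, zero_sub, neg_zero, sub_self]
    abel
  rw [e0] at f0
  have f1 := InG.conj_minus hS fS f0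
  have e1 : (1 - S) * (X * S * X + X * S * X - X * S * X * S + S * X * S * X) * (1 + S) =
      X * S * X + X * S * X + X * S * X * S - S * X * S * X := by
    simp only [mul_add, add_mul, mul_sub, sub_mul, mul_one, one_mul, mul_assoc, hX.sq, hX', hS, hS', h', h'', mul_zero,
      sub_zero, add_zero, zero_add, zero_sub, neg_zero, sub_self]
    abel
  rw [e1] at f1
  have p : (X * S * X + X * S * X - X * S * X * S + S * X * S * X) *
      (X * S * X + X * S * X + X * S * X * S - S * X * S * X) = 0 := by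
    simp only [mul_add, add_mul, mul_sub, sub_mul, mul_one, one_mul, mul_assoc, hX.sq, hX', hS, hS', h', h'', mul_zero,
      sub_zero, add_zero, zero_add, zero_sub, neg_zero, sub_self]
  have f2 := f0.add f1 p
  have f3 : InG G (X * S * X) := by
    apply InG.of_smul (c := 4) (by
      have : (4 : k) = 2 * 2 := by norm_num
      rw [this]; exact mul_ne_zero h2 h2)
    convert f2 using 1
    have : (4 : k) = 1 + 1 + 1 + 1 := by norm_num
    rw [this, add_smul, add_smul, add_smul, one_smul]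
    abel
  have l : IsLg G X (X * S * X) := by
    apply IsLg.of hX _ f3
    · rintro _ ⟨m, rfl⟩
      exact ⟨S (X m), rfl⟩
    · intro m hm
      rw [LinearMap.mem_ker] at hm ⊢
      rw [Module.End.mul_apply, hm, map_zero]
    · simp only [mul_assoc, hX', mul_zero]
  rcases l with l | ⟨-, -, l⟩
  · exact l
  · exfalso
    apply hX.ne
    ext m
    have h1 : X m ∈ LinearMap.range (X * S * X) := by rw [l]; exact ⟨m, rfl⟩
    obtain ⟨a, ha⟩ := h1
    have h3 : X a ∈ LinearMap.range (X * S * X) := by rw [l]; exact ⟨a, rfl⟩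
    obtain ⟨b, hb⟩ := h3
    have : X m = (X * S * X * S * X) b := by
      rw [← ha]
      simp only [Module.End.mul_apply] at hb ⊢
      rw [← hb]
    rw [this, h]; rfl

/-- L8, L9: splitting off a root element. -/
theorem reduce {t : k} (ht : t ≠ 0) (ht2 : t ^ 2 ≠ 1) {G : Subgroup GLM} {X S Θ : EndM} (hX : Root G X)
    (hS : S * S = 0) (fS : InG G S) (c1 : Θ * X = X * Θ) (c2 : Θ * S = S * Θ) (fΘ : InG G (Θ * S))
    (h : Θ * (X * S * X) = X) :
    Root G (Θ * (S * X * S)) ∧ InG G (S - Θ * (S * X * S)) ∧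
    (S - Θ * (S * X * S)) * (S - Θ * (S * X * S)) = 0 ∧ (S - Θ * (S * X * S)) * (Θ * (S * X * S)) = 0 ∧
    finrank k (LinearMap.range (S - Θ * (S * X * S))) < finrank k (LinearMap.range S) := by
  obtain ⟨a1, a2, a3, a4, a5, a6, a7, a8, a9, a10, a11, a12, a13⟩ := weyl_aux hX.sq hS c1 c2 h
  have key : ∀ u : k, u ≠ 0 → InG G (S - Θ * (S * X * S) - (u ^ 2) • (X * S * X)) := by
    intro u hu
    have sX : (u • X) * (u • X) = 0 := smul_sq hX.sq u
    have sB : (u⁻¹ • Θ) * S * ((u⁻¹ • Θ) * S) = 0 := by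
      rw [smul_mul_assoc, smul_mul_smul_comm, a13, smul_zero]
    have w := weyl (X := u • X) (S := S) (Θ := u⁻¹ • Θ) sX hS
      (by rw [smul_mul_smul_comm, smul_mul_smul_comm, c1, mul_comm]) (by rw [smul_mul_assoc, mul_smul_comm, c2])
      (by
        simp only [smul_mul_assoc, mul_smul_comm, smul_smul, h]
        rw [mul_assoc, mul_inv_cancel₀ hu, mul_one])
    have g1 : uof (u • X) sX ∈ G := uof_memG sX (hX.fam.smul u)
    have g2 : uof ((u⁻¹ • Θ) * S) sB ∈ G := uof_memG sB (by rw [smul_mul_assoc]; exact fΘ.smul _)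
    have f := fS.conj (G.mul_mem (G.mul_mem g1 (G.inv_mem g2)) g1)
    rw [mul_inv_rev, mul_inv_rev, inv_inv] at f
    simp only [Units.val_mul, uof_val, uof_inv_val] at f
    rw [← mul_assoc (1 - u • X), w] at f
    convert f using 2
    · simp only [smul_mul_assoc, mul_smul_comm, smul_smul]
      rw [mul_inv_cancel₀ hu, one_smul]
    · simp only [smul_mul_assoc, mul_smul_comm, smul_smul]
      rw [pow_two]
  have f1 := key 1 one_ne_zero
  rw [one_pow, one_smul] at f1
  have ft := key t ht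
  have fV : InG G (X * S * X) := by
    have pz : ∀ (A V : EndM) (c : k), A * A = 0 → A * V = 0 → V * A = 0 → V * V = 0 →
        (A - c • V) * (-(A - V)) = 0 := by
      intro A V c b1 b2 b3 b4
      rw [mul_neg, sub_mul, mul_sub, mul_sub, smul_mul_assoc, smul_mul_assoc, b1, b2, b3, b4]; simp
    have := ft.add (InG.neg f1) (pz _ _ _ a1 a2 a3 a4)
    apply InG.of_smul (c := 1 - t ^ 2) (sub_ne_zero.2 (Ne.symm ht2))
    convert this using 1
    rw [sub_smul, one_smul]; abel
  have f0 : InG G (S - Θ * (S * X * S)) := by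
    have := f1.add fV (by rw [sub_mul, a2, a4, sub_zero])
    rwa [sub_add_cancel] at this
  have fU : InG G (Θ * (S * X * S)) := by
    have := fS.add (InG.neg f0) (by rw [mul_neg, a5, neg_zero])
    convert this using 1
    abel
  have hV : X * S * X ≠ 0 := by
    intro h0
    apply hX.ne
    rw [← h, h0, mul_zero]
  have hU : Θ * (S * X * S) ≠ 0 := by
    intro h0
    apply hV
    rw [← a8, h0]; simp
  have rU : Root G (Θ * (S * X * S)) := by
    refine (root_or_zero hX a7 fU ?_).resolve_left hU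
    have : Θ * (S * X * S) = (Θ * S) * X * S := by simp only [mul_assoc]
    rw [this]
    exact rank_sxs_le _ _ _
  refine ⟨rU, f0, a1, a6, ?_⟩
  apply Submodule.finrank_lt_finrank_of_lt
  apply lt_of_le_of_ne
  · rw [a11]
    rintro _ ⟨m, rfl⟩
    exact ⟨_, rfl⟩
  · intro heq
    apply hU
    ext m
    have h1 : (Θ * (S * X * S)) m ∈ LinearMap.range (S - Θ * (S * X * S)) := by
      rw [heq, a12]
      exact ⟨_, rfl⟩
    obtain ⟨b, hb⟩ := h1
    have h2 : (Θ * (S * X * S)) m = (Θ * (S * X + X * S) * (Θ * (S * X * S))) m := by rw [a10]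
    rw [h2, Module.End.mul_apply, ← hb, ← Module.End.mul_apply, a9]
    rfl

end Cfsg.Agent.Lib.Helper85QG
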