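import Cfsg.Agent.Lib.Helper85QG
import Cfsg.Agent.Lib.Helper85QE2

/-!
Quadratic pairs: case A (a root element `X` with `X S X ≠ 0`).
-/

set_option linter.unusedSectionVars false
set_option linter.unusedSimpArgs false

namespace Cfsg.Agent.Lib.Helper85QH

open Polynomial Cfsg Module Cfsg.Agent.Lib.Helper85QA Cfsg.Agent.Lib.Helper85QK Cfsg.Agent.Lib.Helper85QP
  Cfsg.Agent.Lib.Helper85QC Cfsg.Agent.Lib.Helper85QI Cfsg.Agent.Lib.Helper85QS Cfsg.Agent.Lib.Helper85QV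
  Cfsg.Agent.Lib.Helper85QT Cfsg.Agent.Lib.Helper85QG Cfsg.Agent.Lib.Helper85QE2 Cfsg.Agent.Lib.Helper85QF

section abs

variable {P : Type*} [CommRing P] {C : Type*} [Ring C] [Algebra P C] {x : P} {N N' : C}

theorem absQ (hq : QPair x N N') {S₀ p₁ q r : P} (hd : (S₀ + x * p₁) * S₀ - x * q * r = 1) :
    el N N' S₀ p₁ q r * N * el N N' (S₀ + x * p₁) (-p₁) (-q) (-r) =
      L N N' ((S₀ + x * p₁) ^ 2) (-(x * r ^ 2)) (-((S₀ + x * p₁) * r)) ∧
    QPair ((S₀ + x * p₁) ^ 2 * x) (L N N' ((S₀ + x * p₁) ^ 2) (-(x * r ^ 2)) (-((S₀ + x * p₁) * r))) N' := by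
  obtain ⟨i1, i2⟩ := hq.el_inv hd
  have hconj : el N N' S₀ p₁ q r * N * el N N' (S₀ + x * p₁) (-p₁) (-q) (-r) =
      L N N' ((S₀ + x * p₁) ^ 2) (-(x * r ^ 2)) (-((S₀ + x * p₁) * r)) := by
    have := hq.conj_L S₀ p₁ q r 1 0 0
    rw [L_n] at this
    rw [this]
    congr 1 <;> ring
  refine ⟨hconj, ?_, hq.nn', ?_⟩
  · rw [← hconj]
    calc _ = el N N' S₀ p₁ q r * N * (el N N' (S₀ + x * p₁) (-p₁) (-q) (-r) * el N N' S₀ p₁ q r) * N *
            el N N' (S₀ + x * p₁) (-p₁) (-q) (-r) := by simp only [mul_assoc]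
      _ = 0 := by rw [i2, mul_one, mul_assoc (el N N' S₀ p₁ q r), hq.nn, mul_zero, zero_mul]
  · have e4 := hq.symm.anti_L (-(x * r ^ 2)) ((S₀ + x * p₁) ^ 2) (-(-((S₀ + x * p₁) * r)))
    rw [← L_swap] at e4
    rw [← e4, add_comm]

theorem absP1 (hq : QPair x N N') {S₀ p₁ q r ω₀ : P} (hd : (S₀ + x * p₁) * S₀ - x * q * r = 1)
    (e1 : (ω₀ * x) • N = N) {Y : C} (hY : Y = L N N' ((S₀ + x * p₁) ^ 2) (-(x * r ^ 2)) (-((S₀ + x * p₁) * r)))
    (x1 : Y * N' * Y = 0) :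
    ((S₀ + x * p₁) ^ 2) • N = 0 ∧ N' * Y * N' = 0 ∧ N' * Y - Y * N' = (-(2 * (S₀ + x * p₁) * r * x)) • N' ∧
    (N' * Y - Y * N') * N * (N' * Y - Y * N') = 0 := by
  obtain ⟨hconj, qΞ⟩ := absQ hq hd
  obtain ⟨i1, i2⟩ := hq.el_inv hd
  rw [← hY] at hconj qΞ
  set π := S₀ + x * p₁ with hπ
  have k0 : (π ^ 2 * x) • Y = 0 := by rw [← qΞ.t_nn'n, x1]
  have k1 : (π ^ 2 * x) • N = 0 := by
    rw [← hconj] at k0
    calc (π ^ 2 * x) • N = (π ^ 2 * x) •
          ((el N N' π (-p₁) (-q) (-r) * el N N' S₀ p₁ q r) * N *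
            (el N N' π (-p₁) (-q) (-r) * el N N' S₀ p₁ q r)) := by rw [i2, one_mul, mul_one]
      _ = el N N' π (-p₁) (-q) (-r) * ((π ^ 2 * x) •
          (el N N' S₀ p₁ q r * N * el N N' π (-p₁) (-q) (-r))) * el N N' S₀ p₁ q r := by
        rw [mul_smul_comm, smul_mul_assoc]; simp only [mul_assoc]
      _ = 0 := by rw [k0, mul_zero, zero_mul]
  have k2 : (π ^ 2) • N = 0 := by
    have : (π ^ 2) • N = ω₀ • ((π ^ 2 * x) • N) := by
      conv_lhs => rw [← e1]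
      module
    rw [this, k1, smul_zero]
  have x2 : N' * Y * N' = 0 := by
    rw [qΞ.symm.t_nn'n, mul_smul, ← hq.symm.t_nn'n, ← smul_mul_assoc, ← mul_smul_comm, k2]; simp
  have hT : N' * Y - Y * N' = (-(2 * π * r * x)) • N' := by
    have b := brk_L hq.symm (-(x * r ^ 2)) (π ^ 2) (-(-(π * r)))
    rw [← L_swap, ← hY] at b
    rw [b]
    simp only [L]
    have : (π ^ 2) • (N' * N - N * N') = N' * ((π ^ 2) • N) - ((π ^ 2) • N) * N' := by
      rw [mul_smul_comm, smul_mul_assoc, smul_sub]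
    rw [this, k2]
    simp only [mul_zero, zero_mul, sub_zero, add_zero, zero_smul]
    congr 1
    ring
  refine ⟨k2, x2, hT, ?_⟩
  rw [hT, smul_mul_assoc, smul_mul_smul_comm]
  have : (-(2 * π * r * x) * -(2 * π * r * x)) • (N' * N * N') =
      (4 * r ^ 2 * x ^ 2) • (N' * ((π ^ 2) • N) * N') := by
    rw [mul_smul_comm, smul_mul_assoc, smul_smul]
    congr 1
    ring
  rw [this, k2]; simp

theorem absP2 (hq : QPair x N N') {S₀ p₁ q r ω₀ c₂ : P} (hd : (S₀ + x * p₁) * S₀ - x * q * r = 1)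
    (e1 : (ω₀ * x) • N = N) (hc : c₂ * 2 = 1) {Y : C}
    (hY : Y = L N N' ((S₀ + x * p₁) ^ 2) (-(x * r ^ 2)) (-((S₀ + x * p₁) * r)))
    (k2 : ((S₀ + x * p₁) ^ 2) • N = 0) (hT : N' * Y - Y * N' = (-(2 * (S₀ + x * p₁) * r * x)) • N')
    (x3 : N * (N' * Y - Y * N') * N = 0) :
    Y = (-(x * r ^ 2)) • N' ∧ (N * Y * N = 0 → N = 0) := by
  set π := S₀ + x * p₁ with hπ
  have k3 : (π * r) • N = 0 := by
    rw [hT, mul_smul_comm, smul_mul_assoc, hq.t_nn'n, smul_smul] at x3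
    have : (π * r) • N = (-c₂ * ω₀ ^ 2) • ((-(2 * π * r * x) * x) • N) := by
      conv_lhs => rw [← e1, ← e1]
      rw [smul_smul, smul_smul, smul_smul]
      congr 1
      linear_combination (-(π * r * ω₀ ^ 2 * x ^ 2)) * hc
    rw [this, x3, smul_zero]
  have k4 : π • N = 0 := by
    have : π • N = S₀ • ((π ^ 2) • N) - (x * q) • ((π * r) • N) := by
      rw [smul_smul, smul_smul, ← sub_smul]
      congr 1
      linear_combination (-π) * hd
    rw [this, k2, k3]; simp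
  have hΞ : Y = (-(x * r ^ 2)) • N' := by
    rw [hY]
    simp only [L]
    have : (-(π * r)) • (N * N' - N' * N) = (-r) • ((π • N) * N' - N' * (π • N)) := by
      rw [smul_mul_assoc, mul_smul_comm, ← smul_sub, smul_smul]
      congr 1
      ring
    rw [this, k2, k4]; simp
  refine ⟨hΞ, ?_⟩
  intro h0
  rw [hΞ, mul_smul_comm, smul_mul_assoc, hq.t_nn'n, smul_smul] at h0
  have a1 : (x * q * r) • N = -N := by
    have : x * q * r = S₀ * π - 1 := by linear_combination (-1 : P) * hd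
    rw [this, sub_smul, mul_smul, k4, smul_zero, one_smul, zero_sub]
  have : N = (-(q ^ 2)) • ((-(x * r ^ 2) * x) • N) := by
    have : (-(q ^ 2)) • ((-(x * r ^ 2) * x) • N) = (x * q * r) • ((x * q * r) • N) := by
      rw [smul_smul, smul_smul]; congr 1; ring
    rw [this, a1, smul_neg, a1, neg_neg]
  rw [this, h0, smul_zero]

end abs

variable {k : Type*} [Field k] {M : Type*} [AddCommGroup M] [Module k M] [FiniteDimensional k M]

local notation "GLM" => LinearMap.GeneralLinearGroup k M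
local notation "EndM" => (M →ₗ[k] M)

theorem aeval_comm' {W B : EndM} (h : W * B = B * W) (μ : k[X]) : aeval W μ * B = B * aeval W μ := by
  have := congrArg Subtype.val (aeval_comm W μ ⟨B, mem_Cen.2 h⟩)
  rwa [Subalgebra.coe_mul, Subalgebra.coe_mul, aeval_val] at this

/-- the context without oracles. -/
theorem mkCtx0 {G : Subgroup GLM} {N N' : EndM} (hN : N * N = 0) (hN' : N' * N' = 0)
    (fN : InG G N) (fN' : InG G N') :
    Ctx0 k (Gc G (N * N' + N' * N)) (X : k[X]) (⟨N, mem_Cen.2 (z_comm hN)⟩ : Cen (N * N' + N' * N))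
      ⟨N', mem_Cen.2 (z_comm' hN')⟩ := by
  refine { nn := Subtype.ext hN, nn' := Subtype.ext hN', z := ?_, fam := ?_, fam' := ?_ }
  · apply Subtype.ext
    rw [smul_val, aeval_X]
    simp
  · exact (fam_iff (Subtype.ext hN)).2 fN
  · exact (fam_iff (Subtype.ext hN')).2 fN'

/-- Key lemma for infinite fields, no minimality. -/
theorem klc0 [Infinite k] (hk2 : ringChar k ≠ 2) {G : Subgroup GLM} {N N' : EndM} (hN : N * N = 0)
    (hN' : N' * N' = 0) (fN : InG G N) (fN' : InG G N') (μ : k[X]) :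
    InG G (aeval (N * N' + N' * N) μ * N) := by
  have h := mkCtx0 hN hN' fN fN'
  have := kl_inf0 (Ring.two_ne_zero hk2) h (LinearMap.charpoly_monic _) (charpoly_kill _) μ
  rw [fam_iff (by rw [smul_mul_smul_comm, h.nn, smul_zero]), smul_val] at this
  exact this

/-- the inverse of `Z` on a non-unipotent pair of roots. -/
theorem exists_inv (hk2 : ringChar k ≠ 2) (hk3 : Nat.card k ≠ 3) {G : Subgroup GLM} {N N' : EndM}
    (hN : Root G N) (hN' : Root G N') (h : N * N' * N ≠ 0) :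
    ∃ ω : k[X], aeval (N * N' + N' * N) ω * ((N * N' + N' * N) * N) = N ∧
      aeval (N * N' + N' * N) ω * ((N * N' + N' * N) * N') = N' := by
  have h2 : (2 : k) ≠ 0 := Ring.two_ne_zero hk2
  have c := mkCtx le_rfl hN hN' hN.fam hN'.fam
  set Z := N * N' + N' * N with hZ
  have kl₁ := fun μ => kl h2 hk3 (fin_Cen _) c (LinearMap.charpoly_monic _) (charpoly_kill _) μ
  have kl₂ := fun μ => kl h2 hk3 (fin_Cen _) c.symm (LinearMap.charpoly_monic _) (charpoly_kill _) μ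
  obtain ⟨ω, e1, e2⟩ := inv_pair h2 c kl₁ kl₂ (LinearMap.charpoly_monic Z) (charpoly_kill _) (by
    intro h0
    have := congrArg Subtype.val h0
    rw [smul_val, aeval_X] at this
    apply h
    rw [← zn_eq hN.sq]; exact this)
  refine ⟨ω, ?_, ?_⟩
  · have := congrArg Subtype.val e1
    rwa [smul_val, map_mul, aeval_X, mul_assoc] at this
  · have := congrArg Subtype.val e2
    rwa [smul_val, map_mul, aeval_X, mul_assoc] at this

/-- `Z = S X + X S` is invertible on `X` when `X S X ≠ 0`. -/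
theorem exists_inv_one (hk2 : ringChar k ≠ 2) (hk3 : Nat.card k ≠ 3) {G : Subgroup GLM} {X₀ S : EndM}
    (hX : Root G X₀) (hS : S * S = 0) (fS : InG G S) (h : X₀ * S * X₀ ≠ 0) :
    ∃ ω : k[X], aeval (X₀ * S + S * X₀) ω * (X₀ * S * X₀) = X₀ := by
  have hX' := kill2 hX.sq
  have hS' := kill2 hS
  have r' := Root.conj_plus hS fS hX
  rw [conj_plus] at r'
  set X' := X₀ + (S * X₀ - X₀ * S) - S * X₀ * S with hX'd
  have x1 : X₀ * X' * X₀ = -(X₀ * S * X₀ * S * X₀) := by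
    rw [hX'd]
    simp only [mul_add, add_mul, mul_sub, sub_mul, mul_one, one_mul, mul_assoc, hX.sq, hX', hS, hS', mul_zero,
      sub_zero, add_zero, zero_add, zero_sub, neg_zero, sub_self]
  have hne : X₀ * X' * X₀ ≠ 0 := by
    rw [x1, neg_ne_zero]
    intro h0
    exact h (xsx_of hk2 hk3 hX hS fS h0)
  obtain ⟨ω, e1, -⟩ := exists_inv hk2 hk3 hX r' hne
  set Z := X₀ * S + S * X₀ with hZ
  have z1 : X₀ * X' + X' * X₀ = aeval Z (-(X : k[X]) ^ 2) := by
    rw [map_neg, map_pow, aeval_X, hZ, hX'd, pow_two]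
    simp only [mul_add, add_mul, mul_sub, sub_mul, mul_one, one_mul, mul_assoc, hX.sq, hX', hS, hS', mul_zero,
      sub_zero, add_zero, zero_add, zero_sub, neg_zero, sub_self]
    abel
  rw [z1, ← aeval_comp] at e1
  refine ⟨ω.comp (-(X : k[X]) ^ 2) * (-X), ?_⟩
  conv_rhs => rw [← e1]
  rw [map_mul, map_neg, map_neg, map_pow, aeval_X, ← zn_eq hX.sq, ← hZ]
  simp only [mul_assoc, neg_mul, pow_two]

/-- the statement (F). -/
def HasTheta (G : Subgroup GLM) (X₀ S : EndM) : Prop :=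
  ∃ Θ : EndM, Θ * X₀ = X₀ * Θ ∧ Θ * S = S * Θ ∧ InG G (Θ * S) ∧ Θ * (X₀ * S * X₀) = X₀

theorem caseA_inf [Infinite k] (hk2 : ringChar k ≠ 2) (hk3 : Nat.card k ≠ 3) {G : Subgroup GLM} {X₀ S : EndM}
    (hX : Root G X₀) (hS : S * S = 0) (fS : InG G S) (h : X₀ * S * X₀ ≠ 0) : HasTheta G X₀ S := by
  obtain ⟨ω, e⟩ := exists_inv_one hk2 hk3 hX hS fS h
  refine ⟨aeval (X₀ * S + S * X₀) ω, aeval_comm' (z_comm hX.sq) ω, aeval_comm' (z_comm' hS) ω, ?_, e⟩
  have := klc0 hk2 hS hX.sq fS hX.fam ω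
  rwa [add_comm] at this

theorem xsx_of_nil (hk2 : ringChar k ≠ 2) (hk3 : Nat.card k ≠ 3) {G : Subgroup GLM} {X₀ S : EndM}
    (hX : Root G X₀) (hS : S * S = 0) (fS : InG G S) {n : ℕ} (hn : (X₀ * S + S * X₀) ^ n = 0) :
    X₀ * S * X₀ = 0 := by
  have hX' := kill2 hX.sq
  have hS' := kill2 hS
  have r' := Root.conj_plus hS fS hX
  rw [conj_plus] at r'
  set X' := X₀ + (S * X₀ - X₀ * S) - S * X₀ * S with hX'd
  have z1 : X₀ * X' + X' * X₀ = -((X₀ * S + S * X₀) ^ 2) := by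
    rw [hX'd, pow_two]
    simp only [mul_add, add_mul, mul_sub, sub_mul, mul_one, one_mul, mul_assoc, hX.sq, hX', hS, hS', mul_zero,
      sub_zero, add_zero, zero_add, zero_sub, neg_zero, sub_self]
    abel
  have z2 : (X₀ * X' + X' * X₀) ^ n = 0 := by
    rw [z1, neg_pow, ← pow_mul, mul_comm 2 n, pow_mul, hn]; simp
  have := (nilc hk2 hX r' z2).1
  apply xsx_of hk2 hk3 hX hS fS
  rw [z1, pow_two] at this
  simp only [mul_add, add_mul, mul_sub, sub_mul, mul_one, one_mul, mul_assoc, hX.sq, hX', hS, hS', mul_zero,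
      sub_zero, add_zero, zero_add, zero_sub, neg_zero, sub_self, neg_mul, neg_eq_zero] at this
  simp only [mul_assoc]
  exact this

theorem comm_root (hk2 : ringChar k ≠ 2) {G : Subgroup GLM} {X₀ S : EndM}
    (hX : Root G X₀) (hS : S * S = 0) (fS : InG G S) (h1 : X₀ * S * X₀ = 0) (h2 : S * X₀ * S = 0) :
    S * X₀ - X₀ * S = 0 ∨ Root G (S * X₀ - X₀ * S) := by
  have hX' := kill2 hX.sq
  have hS' := kill2 hS
  have h' := kill3 h1
  have h'' := kill3' h1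
  have hW' := kill3 h2
  have hW'' := kill3' h2
  have sq : (S * X₀ - X₀ * S) * (S * X₀ - X₀ * S) = 0 := by
    simp only [mul_add, add_mul, mul_sub, sub_mul, mul_one, one_mul, mul_assoc, hX.sq, hX', hS, hS', h', h'', hW', hW'',
      mul_zero, sub_zero, add_zero, zero_add, zero_sub, neg_zero, sub_self]
  exact root_or_zero hX sq (fam_of_xsx hk2 hX.sq hX.fam hS fS h1).2 (rank_comm_le h2)

theorem HH_le0 {P : Type*} [CommRing P] {C : Type*} [Ring C] [Algebra P C] [Algebra k P] {𝒢 : Subgroup Cˣ} {x : P}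
    {N N' : C} (h : Ctx0 k 𝒢 x N N') : HH (P := P) k N N' ≤ 𝒢 := by
  unfold HH
  rw [Subgroup.closure_le]
  rintro u ⟨c, hu | hu⟩
  · obtain ⟨v, hv, e⟩ := h.fam c
    have : u = v := Units.ext (by rw [hu, e])
    rw [this]; exact hv
  · obtain ⟨v, hv, e⟩ := h.fam' c
    have : u = v := Units.ext (by rw [hu, e])
    rw [this]; exact hv

theorem inv_val_of {u : GLM} {g g' : EndM} (e : (u : EndM) = g) (h : g * g' = 1) : ((u⁻¹ : GLM) : EndM) = g' := by
  calc ((u⁻¹ : GLM) : EndM) = ((u⁻¹ : GLM) : EndM) * (g * g') := by rw [h, mul_one]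
    _ = g' := by rw [← e, ← mul_assoc, Units.inv_mul, one_mul]

theorem caseA_fin [Finite k] (hk2 : ringChar k ≠ 2) (hk3 : Nat.card k ≠ 3) {G : Subgroup GLM} {X₀ S : EndM}
    (hX : Root G X₀) (hS : S * S = 0) (fS : InG G S) (h : X₀ * S * X₀ ≠ 0) : HasTheta G X₀ S := by
  have h2 : (2 : k) ≠ 0 := Ring.two_ne_zero hk2
  obtain ⟨p, hpc⟩ := CharP.exists k
  have hpp : p.Prime := by
    rcases CharP.char_is_prime_or_zero k p with h | h
    · exact h
    · subst h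
      have := CharP.charP_to_charZero k
      exact absurd ‹Finite k› (not_finite_iff_infinite.2 inferInstance)
  have : Fact p.Prime := ⟨hpp⟩
  have hp0 : (p : k) = 0 := CharP.cast_eq_zero k p
  set Z := X₀ * S + S * X₀ with hZ
  have : Finite (Cen Z) := fin_Cen Z ‹Finite k›
  set N : Cen Z := ⟨X₀, mem_Cen.2 (z_comm hX.sq)⟩ with hN
  set N' : Cen Z := ⟨S, mem_Cen.2 (z_comm' hS)⟩ with hN'
  have c0 : Ctx0 k (Gc G Z) (X : k[X]) N N' := mkCtx0 hX.sq hS hX.fam fS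
  have hq := c0.toQPair
  obtain ⟨S₀, p₁, q, r, hR, m, hm⟩ := sylow_step (k := k) hp0 hq
  have hd := hR.1
  have hg : In (Gc G Z) (el N N' S₀ p₁ q r) := hR.mem.mono (HH_le0 c0)
  obtain ⟨i1, i2⟩ := hq.el_inv hd
  obtain ⟨hconj, qΞ⟩ := absQ hq hd
  obtain ⟨Ξc, hΞc⟩ : ∃ Y : Cen Z, Y = L N N' ((S₀ + X * p₁) ^ 2) (-(X * r ^ 2)) (-((S₀ + X * p₁) * r)) := ⟨_, rfl⟩
  rw [← hΞc] at hconj qΞ
  obtain ⟨u, hu, eu⟩ := In_val hg
  have eu' : ((u⁻¹ : GLM) : EndM) = ((el N N' (S₀ + X * p₁) (-p₁) (-q) (-r) : Cen Z) : EndM) :=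
    inv_val_of eu (congrArg Subtype.val i1)
  have rΞ : Root G (Ξc : EndM) := by
    have := Root.conj hX hu
    rw [eu, eu'] at this
    have e := congrArg Subtype.val hconj
    rw [← e]
    exact this
  have nilΞ : ((Ξc : EndM) * S + S * (Ξc : EndM)) ^ m = 0 := by
    have e : (Ξc * N' + N' * Ξc) ^ m = 0 := by rw [qΞ.z, _root_.smul_pow, one_pow, hm]
    exact congrArg Subtype.val e
  have x1 : Ξc * N' * Ξc = 0 := Subtype.ext (xsx_of_nil hk2 hk3 rΞ hS fS nilΞ)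
  obtain ⟨ω₀, eω⟩ := exists_inv_one hk2 hk3 hX hS fS h
  have e1 : (ω₀ * X) • N = N := by
    rw [mul_smul, ← hq.t_nn'n]
    apply Subtype.ext
    rw [smul_val]
    exact eω
  obtain ⟨k2, x2, hT, x4⟩ := absP1 hq hd e1 hΞc x1
  have x3 : N * (N' * Ξc - Ξc * N') * N = 0 := by
    rcases comm_root hk2 rΞ hS fS (congrArg Subtype.val x1) (congrArg Subtype.val x2) with h0 | hr
    · have : N' * Ξc - Ξc * N' = 0 := Subtype.ext h0
      rw [this]; simp
    · apply Subtype.ext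
      exact nn'n_symm hk2 hr hX (congrArg Subtype.val x4)
  have hc : C (2 : k)⁻¹ * 2 = (1 : k[X]) := by
    rw [show (2 : k[X]) = C 2 from (map_ofNat C 2).symm, ← C_mul, inv_mul_cancel₀ h2, C_1]
  obtain ⟨hΞ, hne⟩ := absP2 hq hd e1 hc hΞc k2 hT x3
  -- F10
  set ρ : EndM := aeval Z (-(X * r ^ 2)) with hρ
  have vΞ : (Ξc : EndM) = ρ * S := by rw [hΞ, smul_val]
  have cρX : ρ * X₀ = X₀ * ρ := aeval_comm' (z_comm hX.sq) _
  have cρS : ρ * S = S * ρ := aeval_comm' (z_comm' hS) _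
  rw [vΞ] at rΞ
  have hne' : X₀ * (ρ * S) * X₀ ≠ 0 := by
    intro h0
    apply hX.ne
    have : N * Ξc * N = 0 := by
      apply Subtype.ext
      rw [Subalgebra.coe_mul, Subalgebra.coe_mul, vΞ]
      exact h0
    exact congrArg Subtype.val (hne this)
  obtain ⟨ω, f1, -⟩ := exists_inv hk2 hk3 hX rΞ hne'
  have l := lg_poly' hk2 hk3 hX rΞ ω
  set W := X₀ * (ρ * S) + ρ * S * X₀ with hW
  have cWX : W * X₀ = X₀ * W := z_comm hX.sq
  have eW : W = ρ * Z := by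
    rw [hW, hZ, mul_add, ← mul_assoc, ← cρX]
    simp only [mul_assoc]
  have cWS : W * S = S * W := by
    rw [eW, mul_assoc, z_comm' hS, ← mul_assoc, cρS, mul_assoc]
  refine ⟨aeval W ω * ρ, ?_, ?_, ?_, ?_⟩
  · rw [mul_assoc, cρX, ← mul_assoc, aeval_comm' cWX, mul_assoc]
  · rw [mul_assoc, cρS, ← mul_assoc, aeval_comm' cWS, mul_assoc]
  · rw [mul_assoc]; exact l.fam
  · conv_rhs => rw [← f1]
    rw [zn_eq hX.sq, mul_assoc]
    congr 1
    rw [← mul_assoc X₀ ρ, ← cρX]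
    simp only [mul_assoc]

end Cfsg.Agent.Lib.Helper85QH
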