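import Cfsg.Agent.Lib.Helper85QC

/-!
Consequences of the key lemma: the annihilator is maximal; unipotent flags.
-/

set_option linter.unusedSectionVars false

namespace Cfsg.Agent.Lib.Helper85QI

open Polynomial Cfsg Module Cfsg.Agent.Lib.Helper85QA Cfsg.Agent.Lib.Helper85QK Cfsg.Agent.Lib.Helper85QP
  Cfsg.Agent.Lib.Helper85QC

section abs

variable {k : Type*} [Field k] {D : Type*} [Ring D] [Algebra k[X] D] {𝒢 : Subgroup Dˣ} {N N' : D}

theorem ann_max (h : Ctx k 𝒢 (X : k[X]) N N') (kl₁ : ∀ μ : k[X], Fam (P := k[X]) k 𝒢 (μ • N)) {f : k[X]}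
    (hf : f.Monic) (hf0 : f • (1 : D) = 0) (hN : N ≠ 0) : (Ideal.torsionOf k[X] D N).IsMaximal := by
  have hp : (Ideal.torsionOf k[X] D N).IsPrime := by
    constructor
    · intro htop
      have : (1 : k[X]) ∈ Ideal.torsionOf k[X] D N := by rw [htop]; trivial
      rw [Ideal.mem_torsionOf_iff, one_smul] at this
      exact hN this
    · intro a b hab
      rw [Ideal.mem_torsionOf_iff] at hab
      rcases h.orc a b (kl₁ a) hab with h1 | h1
      · exact Or.inl ((Ideal.mem_torsionOf_iff _ _).2 h1)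
      · exact Or.inr ((Ideal.mem_torsionOf_iff _ _).2 h1)
  apply IsPrime.to_maximal_ideal
  intro hbot
  have : f ∈ Ideal.torsionOf k[X] D N := by
    rw [Ideal.mem_torsionOf_iff]
    calc f • N = (f • (1 : D)) * N := by rw [smul_mul_assoc, one_mul]
      _ = 0 := by rw [hf0, zero_mul]
  rw [hbot, Ideal.mem_bot] at this
  exact hf.ne_zero this

theorem ann_iff (h2 : (2 : k) ≠ 0) (h : Ctx k 𝒢 (X : k[X]) N N') (kl₂ : ∀ μ : k[X], Fam (P := k[X]) k 𝒢 (μ • N'))
    (hx : (X : k[X]) • N ≠ 0) {y : k[X]} (hy : y • N = 0) : y • N' = 0 := by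
  have hx' : (X : k[X]) • N' ≠ 0 := by
    intro h0
    apply hx
    refine (h.nil h2 (n := 2) ?_).1
    have : (X : k[X]) ^ 2 • (1 : D) = N * ((X : k[X]) • N') + ((X : k[X]) • N') * N := by
      rw [pow_two, mul_smul, ← h.z, mul_smul_comm, smul_mul_assoc, smul_add]
    rw [this, h0]; simp
  have h1 : ((X : k[X]) * y) • N' = 0 := by
    have : ((X : k[X]) * y) • N' = N' * (y • N) * N' := by
      rw [mul_smul_comm, smul_mul_assoc, h.toQPair.symm.t_nn'n, smul_smul, mul_comm]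
    rw [this, hy]; simp
  rcases h.orc' X y (kl₂ X) h1 with h3 | h3
  · exact absurd h3 hx'
  · exact h3

theorem inv_pair (h2 : (2 : k) ≠ 0) (h : Ctx k 𝒢 (X : k[X]) N N') (kl₁ : ∀ μ : k[X], Fam (P := k[X]) k 𝒢 (μ • N))
    (kl₂ : ∀ μ : k[X], Fam (P := k[X]) k 𝒢 (μ • N')) {f : k[X]}
    (hf : f.Monic) (hf0 : f • (1 : D) = 0) (hx : (X : k[X]) • N ≠ 0) :
    ∃ ω : k[X], (ω * X) • N = N ∧ (ω * X) • N' = N' := by
  have hN : N ≠ 0 := by rintro rfl; exact hx (smul_zero _)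
  have hm := ann_max h kl₁ hf hf0 hN
  obtain ⟨ω, i, hi, e⟩ := hm.exists_inv (x := X) (by rw [Ideal.mem_torsionOf_iff]; exact hx)
  rw [Ideal.mem_torsionOf_iff] at hi
  have e' : ω * X = 1 - i := by linear_combination e
  refine ⟨ω, ?_, ?_⟩
  · rw [e', sub_smul, hi, one_smul, sub_zero]
  · rw [e', sub_smul, ann_iff h2 h kl₂ hx hi, one_smul, sub_zero]

end abs

section flag

variable {k : Type*} [Field k] {M : Type*} [AddCommGroup M] [Module k M]

local notation "GLM" => LinearMap.GeneralLinearGroup k M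
local notation "EndM" => (M →ₗ[k] M)

theorem unip_of_flag (V₁ V₂ : Submodule k M) (hV : V₂ ≤ V₁) (S : Set GLM)
    (h0 : ∀ g ∈ S, ∀ m, ((g : EndM) - 1) m ∈ V₁) (h1 : ∀ g ∈ S, ∀ m ∈ V₁, ((g : EndM) - 1) m ∈ V₂)
    (h2 : ∀ g ∈ S, ∀ m ∈ V₂, ((g : EndM) - 1) m = 0) : IsUnipotentOn (Subgroup.closure S) := by
  have key : ∀ g ∈ Subgroup.closure S, (∀ m, ((g : EndM) - 1) m ∈ V₁) ∧ (∀ m ∈ V₁, ((g : EndM) - 1) m ∈ V₂) ∧
      (∀ m ∈ V₂, ((g : EndM) - 1) m = 0) := by
    intro g hg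
    induction hg using Subgroup.closure_induction with
    | mem g hg => exact ⟨h0 g hg, h1 g hg, h2 g hg⟩
    | one => simp
    | mul a b _ _ ha hb =>
      have e : ∀ m, (((a * b : GLM) : EndM) - 1) m = ((a : EndM) - 1) (((b : EndM) - 1) m) + ((a : EndM) - 1) m +
          ((b : EndM) - 1) m := by
        intro m
        simp only [Units.val_mul, LinearMap.sub_apply, Module.End.mul_apply, Module.End.one_apply, map_sub]
        abel
      refine ⟨fun m => ?_, fun m hm => ?_, fun m hm => ?_⟩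
      · rw [e]; exact V₁.add_mem (V₁.add_mem (ha.1 _) (ha.1 _)) (hb.1 _)
      · rw [e]; exact V₂.add_mem (V₂.add_mem (ha.2.1 _ (hb.1 _)) (ha.2.1 _ hm)) (hb.2.1 _ hm)
      · rw [e, hb.2.2 m hm, ha.2.2 m hm]; simp
    | inv a _ ha =>
      have e : ∀ m, (((a⁻¹ : GLM) : EndM) - 1) m = -(((a : EndM) - 1) (((a⁻¹ : GLM) : EndM) m)) := by
        intro m
        have : (a : EndM) (((a⁻¹ : GLM) : EndM) m) = m := by
          rw [← Module.End.mul_apply, Units.mul_inv]; rfl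
        simp only [LinearMap.sub_apply, Module.End.one_apply, this]
        abel
      have e2 : ∀ m, ((a⁻¹ : GLM) : EndM) m = m - ((a : EndM) - 1) (((a⁻¹ : GLM) : EndM) m) := by
        intro m
        have := e m
        simp only [LinearMap.sub_apply, Module.End.one_apply] at this ⊢
        rw [← neg_eq_iff_eq_neg] at this
        rw [← this]; abel
      refine ⟨fun m => ?_, fun m hm => ?_, fun m hm => ?_⟩
      · rw [e]; exact V₁.neg_mem (ha.1 _)
      · rw [e]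
        apply V₂.neg_mem
        apply ha.2.1
        rw [e2]
        exact V₁.sub_mem hm (ha.1 _)
      · have h3 : (a : EndM) m = m := by
          have := ha.2.2 m hm
          simpa [sub_eq_zero] using this
        have h4 : ((a⁻¹ : GLM) : EndM) m = m := by
          conv_lhs => rw [← h3]
          rw [← Module.End.mul_apply, Units.inv_mul]; rfl
        simp [h4]
  refine ⟨3, fun l hl hlen => ?_⟩
  obtain ⟨a, b, c, rfl⟩ := List.length_eq_three.1 hlen
  show ((a : EndM) - 1) * (((b : EndM) - 1) * (((c : EndM) - 1) * 1)) = 0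
  rw [mul_one]
  ext m
  rw [Module.End.mul_apply, Module.End.mul_apply, LinearMap.zero_apply]
  apply (key a (hl a (by simp))).2.2
  apply (key b (hl b (by simp))).2.1
  exact (key c (hl c (by simp))).1 m

theorem unip_pair {I C I' C' : Submodule k M} (hIC : I ≤ C) (hIC' : I' ≤ C') (S : Set GLM)
    (hS : ∀ g ∈ S, (LinearMap.range ((g : EndM) - 1) ≤ I ∧ C ≤ LinearMap.ker ((g : EndM) - 1) ∧
        ∀ m ∈ I', ((g : EndM) - 1) m ∈ C') ∨
      (LinearMap.range ((g : EndM) - 1) ≤ I' ∧ C' ≤ LinearMap.ker ((g : EndM) - 1) ∧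
        ∀ m ∈ I, ((g : EndM) - 1) m ∈ C)) : IsUnipotentOn (Subgroup.closure S) := by
  apply unip_of_flag (I ⊔ I') ((I ⊓ C') ⊔ (I' ⊓ C))
  · exact sup_le_sup inf_le_left inf_le_left
  · intro g hg m
    rcases hS g hg with ⟨h1, _, _⟩ | ⟨h1, _, _⟩
    · exact Submodule.mem_sup_left (h1 ⟨m, rfl⟩)
    · exact Submodule.mem_sup_right (h1 ⟨m, rfl⟩)
  · intro g hg m hm
    obtain ⟨a, ha, b, hb, rfl⟩ := Submodule.mem_sup.1 hm
    rw [map_add]
    rcases hS g hg with ⟨h1, h2, h3⟩ | ⟨h1, h2, h3⟩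
    · rw [LinearMap.mem_ker.1 (h2 (hIC ha)), zero_add]
      exact Submodule.mem_sup_left ⟨h1 ⟨b, rfl⟩, h3 b hb⟩
    · rw [LinearMap.mem_ker.1 (h2 (hIC' hb)), add_zero]
      exact Submodule.mem_sup_right ⟨h1 ⟨a, rfl⟩, h3 a ha⟩
  · intro g hg m hm
    obtain ⟨a, ha, b, hb, rfl⟩ := Submodule.mem_sup.1 hm
    rw [map_add]
    rcases hS g hg with ⟨h1, h2, h3⟩ | ⟨h1, h2, h3⟩
    · rw [LinearMap.mem_ker.1 (h2 (hIC ha.1)), LinearMap.mem_ker.1 (h2 hb.2), add_zero]
    · rw [LinearMap.mem_ker.1 (h2 ha.2), LinearMap.mem_ker.1 (h2 (hIC' hb.1)), add_zero]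

end flag

end Cfsg.Agent.Lib.Helper85QI
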