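import Cfsg.Agent.Lib.Helper85QS

/-!
Two root subgroups `E(σ)`, `E(τ)`: unipotent or special rank one.
-/

set_option linter.unusedSectionVars false

namespace Cfsg.Agent.Lib.Helper85QR

open Polynomial Cfsg Module Cfsg.Agent.Lib.Helper85QP Cfsg.Agent.Lib.Helper85QI Cfsg.Agent.Lib.Helper85QS

variable {k : Type*} [Field k] {M : Type*} [AddCommGroup M] [Module k M] [FiniteDimensional k M]

local notation "GLM" => LinearMap.GeneralLinearGroup k M
local notation "EndM" => (M →ₗ[k] M)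

theorem eq_uof {a : GLM} (h : ((a : EndM) - 1) * ((a : EndM) - 1) = 0) : a = uof ((a : EndM) - 1) h :=
  Units.ext (by simp)

theorem ne_one_iff {a : GLM} : a ≠ 1 ↔ (a : EndM) - 1 ≠ 0 := by
  rw [not_iff_not]
  constructor
  · rintro rfl; simp
  · intro h; exact Units.ext (by rw [Units.val_one]; exact sub_eq_zero.1 h)

theorem E_le {G : Subgroup GLM} {σ : GLM} (hσ : σ ∈ minimalQuadraticElements G) : sameActionSubgroup G σ ≤ G := by
  intro g hg
  exact ((mem_E_iff hσ).1 hg).fam.mem (by simp)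

theorem E_comm {G : Subgroup GLM} {σ : GLM} (hσ : σ ∈ minimalQuadraticElements G) {a b : GLM}
    (ha : a ∈ sameActionSubgroup G σ) (hb : b ∈ sameActionSubgroup G σ) : a * b = b * a := by
  have hR := mem_min_iff.1 hσ
  have ha := (mem_E_iff hσ).1 ha
  have hb := (mem_E_iff hσ).1 hb
  have h1 := IsLg.mul hR.sq ha hb
  have h2 := IsLg.mul hR.sq hb ha
  apply Units.ext
  rw [Units.val_mul, Units.val_mul]
  have e1 : (a : EndM) * (b : EndM) = ((a : EndM) - 1) * ((b : EndM) - 1) + (a : EndM) + (b : EndM) - 1 := by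
    noncomm_ring
  have e2 : (b : EndM) * (a : EndM) = ((b : EndM) - 1) * ((a : EndM) - 1) + (a : EndM) + (b : EndM) - 1 := by
    noncomm_ring
  rw [e1, e2, h1, h2]

theorem E_nilp {G : Subgroup GLM} {σ : GLM} (hσ : σ ∈ minimalQuadraticElements G) :
    Group.IsNilpotent ↥(sameActionSubgroup G σ) := by
  let inst : CommGroup ↥(sameActionSubgroup G σ) :=
    { (inferInstance : Group ↥(sameActionSubgroup G σ)) with
      mul_comm := fun a b => Subtype.ext (E_comm hσ a.2 b.2) }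
  exact @CommGroup.isNilpotent _ inst

theorem self_mem_E {G : Subgroup GLM} {σ : GLM} (hσ : σ ∈ minimalQuadraticElements G) :
    σ ∈ sameActionSubgroup G σ := (mem_E_iff hσ).2 (IsLg.self (mem_min_iff.1 hσ))

theorem special_id {X Y : EndM} (hX : X * X = 0) (hY : Y * Y = 0) (h1 : X * Y * X = X) (h2 : Y * X * Y = Y) :
    (uof Y hY)⁻¹ * uof X hX * uof Y hY = (uof X hX)⁻¹ * (uof Y hY)⁻¹ * uof X hX := by
  apply Units.ext
  simp only [Units.val_mul, uof_val, uof_inv_val]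
  have l : (1 - Y) * (1 + X) * (1 + Y) = 1 + X - Y * X + X * Y - Y * Y - Y * X * Y := by noncomm_ring
  have r : (1 - X) * (1 - Y) * (1 + X) = 1 - Y + X * Y - Y * X - X * X + X * Y * X := by noncomm_ring
  rw [l, r, hX, hY, h1, h2]
  abel

/-- the unipotent case. -/
theorem unip_case (hk2 : ringChar k ≠ 2) (hk3 : Nat.card k ≠ 3) {G : Subgroup GLM} {σ τ : GLM}
    (hσ : σ ∈ minimalQuadraticElements G) (hτ : τ ∈ minimalQuadraticElements G)
    (h : ((σ : EndM) - 1) * ((τ : EndM) - 1) * ((σ : EndM) - 1) = 0) :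
    IsUnipotentOn (sameActionSubgroup G σ ⊔ sameActionSubgroup G τ) := by
  have hN := mem_min_iff.1 hσ
  have hN' := mem_min_iff.1 hτ
  set N := (σ : EndM) - 1 with hNd
  set N' := (τ : EndM) - 1 with hN'd
  have e : sameActionSubgroup G σ ⊔ sameActionSubgroup G τ =
      Subgroup.closure ((sameActionSubgroup G σ : Set GLM) ∪ (sameActionSubgroup G τ : Set GLM)) := by
    rw [Subgroup.closure_union, Subgroup.closure_eq, Subgroup.closure_eq]
  rw [e]
  apply unip_pair (range_le_ker hN.sq) (range_le_ker hN'.sq)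
  rintro g (hg | hg)
  · left
    have hl := (mem_E_iff hσ).1 hg
    refine ⟨hl.range_le, hl.ker_le, ?_⟩
    rcases hl with h0 | ⟨r, hk, hr⟩
    · intro m _; rw [h0]; simp
    · rcases dich hk2 hk3 hN' r with h1 | ⟨d2, d1⟩
      · rintro _ ⟨m, rfl⟩
        exact LinearMap.mem_ker.2 (LinearMap.congr_fun h1 m)
      · rw [hk] at d2
        rw [hr] at d1
        exact (type_excl hN.ne h d1 d2).elim
  · right
    have hl := (mem_E_iff hτ).1 hg
    refine ⟨hl.range_le, hl.ker_le, ?_⟩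
    rcases hl with h0 | ⟨r, hk, hr⟩
    · intro m _; rw [h0]; simp
    · rcases dich hk2 hk3 hN r with h1 | ⟨d1, d2⟩
      · rintro _ ⟨m, rfl⟩
        exact LinearMap.mem_ker.2 (LinearMap.congr_fun h1 m)
      · rw [hk] at d1
        rw [hr] at d2
        exact (type_excl hN.ne h d1 d2).elim

/-- existence of the inverse for every nonzero logarithm. -/
theorem sharp (hk2 : ringChar k ≠ 2) (hk3 : Nat.card k ≠ 3) {G : Subgroup GLM} {N N' : EndM}
    (hN' : Root G N') (d1 : LinearMap.range N ⊓ LinearMap.ker N' = ⊥)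
    (d2 : LinearMap.range N' ⊓ LinearMap.ker N = ⊥) {X : EndM} (hX : IsLg G N X) (hX0 : X ≠ 0) :
    ∃ Y : EndM, IsLg G N' Y ∧ Y ≠ 0 ∧ X * Y * X = X ∧ Y * X * Y = Y := by
  rcases hX with h0 | ⟨r, hk, hr⟩
  · exact absurd h0 hX0
  have hne : X * N' * X ≠ 0 := by
    intro h0
    exact type_excl hX0 h0 (by rw [hr]; exact d1) (by rw [hk]; exact d2)
  obtain ⟨Y, hY, e1, e2⟩ := exists_sharp hk2 hk3 r hN' hne
  refine ⟨Y, hY, ?_, e1, e2⟩
  rintro rfl
  apply hX0
  rw [← e1]; simp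

theorem cond (hk2 : ringChar k ≠ 2) (hk3 : Nat.card k ≠ 3) {G : Subgroup GLM} {σ τ : GLM}
    (hσ : σ ∈ minimalQuadraticElements G) (hτ : τ ∈ minimalQuadraticElements G)
    (d1 : LinearMap.range ((σ : EndM) - 1) ⊓ LinearMap.ker ((τ : EndM) - 1) = ⊥)
    (d2 : LinearMap.range ((τ : EndM) - 1) ⊓ LinearMap.ker ((σ : EndM) - 1) = ⊥) :
    RankOneCondition (sameActionSubgroup G σ) (sameActionSubgroup G τ) := by
  intro a ha ha1
  have hN := mem_min_iff.1 hσ
  have hN' := mem_min_iff.1 hτ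
  have hX := (mem_E_iff hσ).1 ha
  obtain ⟨Y, hY, hY0, e1, e2⟩ := sharp hk2 hk3 hN' d1 d2 hX (ne_one_iff.1 ha1)
  have hXX := IsLg.mul hN.sq hX hX
  have hYY := IsLg.mul hN'.sq hY hY
  have hb : uof Y hYY ∈ sameActionSubgroup G τ := by rw [mem_E_iff hτ, uof_sub]; exact hY
  have hb1 : uof Y hYY ≠ 1 := by rw [ne_one_iff, uof_sub]; exact hY0
  refine ⟨uof Y hYY, hb, hb1, ?_⟩
  obtain ⟨am, aE⟩ := E_eq_of_mem hσ ha ha1
  have hbi : (uof Y hYY)⁻¹ ∈ sameActionSubgroup G τ := Subgroup.inv_mem _ hb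
  obtain ⟨bm, bE⟩ := E_eq_of_mem hτ hbi (inv_ne_one.2 hb1)
  rw [← aE, ← bE, conjBy_E am (E_le hτ hbi), conjBy_E bm (G.inv_mem (E_le hσ ha)), inv_inv, inv_inv]
  congr 1
  have := special_id hXX hYY e1 e2
  rw [← eq_uof hXX] at this
  exact this

theorem spec {G : Subgroup GLM} {σ τ : GLM}
    (hσ : σ ∈ minimalQuadraticElements G) (hτ : τ ∈ minimalQuadraticElements G)
    (d1 : LinearMap.range ((σ : EndM) - 1) ⊓ LinearMap.ker ((τ : EndM) - 1) = ⊥)
    {a b : GLM} (ha : a ∈ sameActionSubgroup G σ) (hb : b ∈ sameActionSubgroup G τ)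
    (h : conjBy (sameActionSubgroup G σ) b⁻¹ ≤ conjBy (sameActionSubgroup G τ) a⁻¹) :
    ((a : EndM) - 1) * ((b : EndM) - 1) * ((a : EndM) - 1) = (a : EndM) - 1 := by
  have hN := mem_min_iff.1 hσ
  have hN' := mem_min_iff.1 hτ
  have hX := (mem_E_iff hσ).1 ha
  have hY := (mem_E_iff hτ).1 hb
  set X := (a : EndM) - 1 with hXd
  set Y := (b : EndM) - 1 with hYd
  have hYY := IsLg.mul hN'.sq hY hY
  have hXX := IsLg.mul hN.sq hX hX
  have h1 : b⁻¹ * a * b ∈ conjBy (sameActionSubgroup G σ) b⁻¹ := ⟨a, ha, by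
    show b⁻¹ * a * (b⁻¹)⁻¹ = _
    rw [inv_inv]⟩
  obtain ⟨e', he', hee⟩ := h h1
  have hee' : a⁻¹ * e' * a = b⁻¹ * a * b := by
    have : a⁻¹ * e' * (a⁻¹)⁻¹ = b⁻¹ * a * b := hee
    rwa [inv_inv] at this
  have he2 : e' = (a * b⁻¹) * a * (a * b⁻¹)⁻¹ := by
    have : e' = a * (a⁻¹ * e' * a) * a⁻¹ := by group
    rw [this, hee']; group
  have hl := (mem_E_iff hτ).1 he'
  rw [he2, conj_sub] at hl
  have hab : ∀ v, ((a * b⁻¹ : GLM) : EndM) v = (1 + X) ((1 - Y) v) := by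
    intro v
    have e1 : (a : EndM) = 1 + X := by rw [hXd]; abel
    have e2 : ((b⁻¹ : GLM) : EndM) = 1 - Y := by
      rw [eq_uof (a := b) hYY, uof_inv_val]
    rw [Units.val_mul, Module.End.mul_apply, e1, e2]
  ext m
  have hv : ((a * b⁻¹ : GLM) : EndM) (X m) ∈ LinearMap.range ((τ : EndM) - 1) := by
    apply hl.range_le
    refine ⟨((a * b⁻¹ : GLM) : EndM) m, ?_⟩
    rw [Module.End.mul_apply, Module.End.mul_apply, g_inv_apply]
  rw [hab] at hv
  have hXXm : X (X m) = 0 := LinearMap.congr_fun hXX m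
  have ex : (1 + X) ((1 - Y) (X m)) = (X m - X (Y (X m))) - Y (X m) := by
    simp only [LinearMap.add_apply, LinearMap.sub_apply, Module.End.one_apply, map_sub, hXXm]
    abel
  rw [ex] at hv
  have h3 : X m - X (Y (X m)) ∈ LinearMap.range ((τ : EndM) - 1) := by
    have := Submodule.add_mem _ hv (hY.range_le ⟨X m, rfl⟩)
    simpa using this
  have h4 : X m - X (Y (X m)) ∈ LinearMap.range ((σ : EndM) - 1) :=
    Submodule.sub_mem _ (hX.range_le ⟨m, rfl⟩) (hX.range_le ⟨_, rfl⟩)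
  have h5 : X m - X (Y (X m)) ∈ LinearMap.range ((σ : EndM) - 1) ⊓ LinearMap.ker ((τ : EndM) - 1) :=
    ⟨h4, range_le_ker hN'.sq h3⟩
  rw [d1, Submodule.mem_bot, sub_eq_zero] at h5
  rw [Module.End.mul_apply, Module.End.mul_apply]
  exact h5.symm

theorem rankOne (hk2 : ringChar k ≠ 2) (hk3 : Nat.card k ≠ 3) {G : Subgroup GLM} {σ τ : GLM}
    (hσ : σ ∈ minimalQuadraticElements G) (hτ : τ ∈ minimalQuadraticElements G)
    (d1 : LinearMap.range ((σ : EndM) - 1) ⊓ LinearMap.ker ((τ : EndM) - 1) = ⊥)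
    (d2 : LinearMap.range ((τ : EndM) - 1) ⊓ LinearMap.ker ((σ : EndM) - 1) = ⊥) :
    IsSpecialRankOnePair (sameActionSubgroup G σ) (sameActionSubgroup G τ) := by
  have hN := mem_min_iff.1 hσ
  have hN' := mem_min_iff.1 hτ
  refine ⟨⟨?_, E_nilp hσ, E_nilp hτ, cond hk2 hk3 hσ hτ d1 d2, cond hk2 hk3 hτ hσ d2 d1⟩, ?_⟩
  · intro hE
    have h1 : σ ∈ sameActionSubgroup G τ := by rw [← hE]; exact self_mem_E hσ
    have h2 := ((mem_E_iff hτ).1 h1).range_le
    apply hN.ne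
    ext m
    have : ((σ : EndM) - 1) m ∈ LinearMap.range ((σ : EndM) - 1) ⊓ LinearMap.ker ((τ : EndM) - 1) :=
      ⟨⟨m, rfl⟩, range_le_ker hN'.sq (h2 ⟨m, rfl⟩)⟩
    rw [d1, Submodule.mem_bot] at this
    exact this
  · intro a ha _ b hb _ hc
    have e1 := spec hσ hτ d1 ha hb hc.le
    have e2 := spec hτ hσ d2 hb ha hc.ge
    have hXX := IsLg.mul hN.sq ((mem_E_iff hσ).1 ha) ((mem_E_iff hσ).1 ha)
    have hYY := IsLg.mul hN'.sq ((mem_E_iff hτ).1 hb) ((mem_E_iff hτ).1 hb)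
    have := special_id hXX hYY e1 e2
    rw [← eq_uof hXX, ← eq_uof hYY] at this
    exact this

end Cfsg.Agent.Lib.Helper85QR
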