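import Cfsg.Agent.Lib.Helper85QH
import Cfsg.Agent.Lib.Helper85QR

/-!
Quadratic pairs: `G = G₀ C_G(G₀)`.
-/

set_option linter.unusedSectionVars false

namespace Cfsg.Agent.Lib.Helper85QJ

open Polynomial Cfsg Module Cfsg.Agent.Lib.Helper85QA Cfsg.Agent.Lib.Helper85QK Cfsg.Agent.Lib.Helper85QP
  Cfsg.Agent.Lib.Helper85QC Cfsg.Agent.Lib.Helper85QS Cfsg.Agent.Lib.Helper85QR
  Cfsg.Agent.Lib.Helper85QG Cfsg.Agent.Lib.Helper85QH

variable {k : Type*} [Field k] {M : Type*} [AddCommGroup M] [Module k M] [FiniteDimensional k M]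

local notation "GLM" => LinearMap.GeneralLinearGroup k M
local notation "EndM" => (M →ₗ[k] M)

theorem hasTheta (hk2 : ringChar k ≠ 2) (hk3 : Nat.card k ≠ 3) {G : Subgroup GLM} {X₀ S : EndM}
    (hX : Root G X₀) (hS : S * S = 0) (fS : InG G S) (h : X₀ * S * X₀ ≠ 0) : HasTheta G X₀ S := by
  rcases finite_or_infinite k with hf | hf
  · exact caseA_fin hk2 hk3 hX hS fS h
  · exact caseA_inf hk2 hk3 hX hS fS h

theorem root_mem_G0 {G : Subgroup GLM} {Y : EndM} (hY : Root G Y) :
    uof Y hY.sq ∈ (⨆ A ∈ quadraticRootSubgroups G, A : Subgroup GLM) := by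
  have h1 := hY.uof_mem
  have h2 := self_mem_E h1
  exact (le_iSup₂ (f := fun (A : Subgroup GLM) (_ : A ∈ quadraticRootSubgroups G) => A)
    (sameActionSubgroup G (uof Y hY.sq)) ⟨_, h1, rfl⟩) h2

theorem mem_centralizer_of {G : Subgroup GLM} {S : EndM} (hS : S * S = 0)
    (hc : ∀ Y, Root G Y → S * Y = Y * S) :
    uof S hS ∈ Subgroup.centralizer ((⨆ A ∈ quadraticRootSubgroups G, A : Subgroup GLM) : Set GLM) := by
  have hle : (⨆ A ∈ quadraticRootSubgroups G, A : Subgroup GLM) ≤ Subgroup.centralizer ({uof S hS} : Set GLM) := by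
    apply iSup₂_le
    rintro _ ⟨σ, -, rfl⟩
    unfold sameActionSubgroup
    rw [Subgroup.closure_le]
    rintro τ ⟨hτ, -, -⟩
    have hr := mem_min_iff.1 hτ
    have := hc _ hr
    rw [SetLike.mem_coe, Subgroup.mem_centralizer_iff]
    rintro _ rfl
    apply Units.ext
    rw [Units.val_mul, Units.val_mul, uof_val]
    rw [mul_sub, sub_mul, mul_one, one_mul] at this
    rw [add_mul, mul_add, one_mul, mul_one]
    congr 1
    have h3 := sub_left_injective this
    exact h3
  rw [Subgroup.mem_centralizer_iff]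
  intro g hg
  have := Subgroup.mem_centralizer_iff.1 (hle hg) _ rfl
  exact this.symm

theorem mem_of_quad (hk2 : ringChar k ≠ 2) (hk3 : Nat.card k ≠ 3) {G : Subgroup GLM} (hG : IsQuadraticPair G) :
    ∀ (n : ℕ) (S : EndM) (hS : S * S = 0), InG G S → finrank k (LinearMap.range S) ≤ n →
      uof S hS ∈ (⨆ A ∈ quadraticRootSubgroups G, A : Subgroup GLM) ⊔
        (G ⊓ Subgroup.centralizer ((⨆ A ∈ quadraticRootSubgroups G, A : Subgroup GLM) : Set GLM)) := by
  intro n
  induction n with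
  | zero =>
    intro S hS _ hr
    have h0 : S = 0 := by
      have := Submodule.finrank_eq_zero.1 (Nat.le_zero.1 hr)
      exact LinearMap.range_eq_bot.1 this
    have : uof S hS = 1 := Units.ext (by rw [uof_val, h0]; simp)
    rw [this]; exact Subgroup.one_mem _
  | succ n ih =>
    intro S hS fS hr
    by_cases hB : ∀ Y, Root G Y → Y * S * Y = 0
    · apply Subgroup.mem_sup_right
      exact ⟨uof_memG hS fS, mem_centralizer_of hS (fun Y hY => caseB hk2 hk3 hG hS fS hB hY)⟩
    · push Not at hB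
      obtain ⟨X₀, hX, hne⟩ := hB
      obtain ⟨Θ, c1, c2, fΘ, hΘ⟩ := hasTheta hk2 hk3 hX hS fS hne
      obtain ⟨σ, t, hσ, ht2⟩ := exists_sigma (Ring.two_ne_zero hk2) hk3
      have ht : t ≠ 0 := right_ne_zero_of_mul_eq_one hσ
      obtain ⟨r1, f0, sq0, p0, hlt⟩ := reduce ht ht2 hX hS fS c1 c2 fΘ hΘ
      have i0 := ih _ sq0 f0 (by omega)
      have e : uof S hS = uof _ sq0 * uof _ r1.sq := by
        apply Units.ext
        rw [Units.val_mul, uof_val, uof_val, uof_val, add_mul, mul_add, mul_add, p0]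
        simp only [one_mul, mul_one, add_zero]
        abel
      rw [e]
      exact Subgroup.mul_mem _ i0 (Subgroup.mem_sup_left (root_mem_G0 r1))

theorem main (hk2 : ringChar k ≠ 2) (hk3 : Nat.card k ≠ 3) {G : Subgroup GLM} (hG : IsQuadraticPair G) :
    (⨆ A ∈ quadraticRootSubgroups G, A : Subgroup GLM) ⊔
        (G ⊓ Subgroup.centralizer ((⨆ A ∈ quadraticRootSubgroups G, A : Subgroup GLM) : Set GLM)) = G := by
  apply le_antisymm
  · apply sup_le _ inf_le_left
    apply iSup₂_le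
    rintro _ ⟨σ, hσ, rfl⟩
    exact E_le hσ
  · calc G = Subgroup.closure (quadraticElements G) := hG.2.symm
      _ ≤ _ := by
        rw [Subgroup.closure_le]
        intro σ hσ
        obtain ⟨sq, -, fam⟩ := mem_quad_iff.1 hσ
        rw [SetLike.mem_coe, eq_uof sq]
        exact mem_of_quad hk2 hk3 hG _ _ sq fam le_rfl

end Cfsg.Agent.Lib.Helper85QJ
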