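import Cfsg.Agent.Lib.Helper85QZ
import Cfsg.Agent.Lib.Helper85ND
import Cfsg.Agent.Lib.Helper85Image

/-!
Quadratic pairs: the components of `𝓕(Σ)` generate quasisimple groups.
-/

set_option linter.unusedSectionVars false

namespace Cfsg.Agent.Lib.Helper85QU

open Polynomial Cfsg Module Cfsg.Agent.Lib.Helper85QP Cfsg.Agent.Lib.Helper85QI Cfsg.Agent.Lib.Helper85QS
  Cfsg.Agent.Lib.Helper85QR Cfsg.Agent.Lib.Helper85QV Cfsg.Agent.Lib.Helper85BA Cfsg.Agent.Lib.Helper85QT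
  Cfsg.Agent.Lib.Helper85QW Cfsg.Agent.Lib.Helper85QX Cfsg.Agent.Lib.Helper85QY Cfsg.Agent.Lib.Helper85QZ
  Cfsg.Agent.Lib.Helper85RankOne Cfsg.Agent.Lib.Helper85Root Cfsg.Agent.Lib.Helper85Sub
  Cfsg.Agent.Lib.Helper85Transfer Cfsg.Agent.Lib.Helper85Graph

section generic

variable {Γ : Type*} [Group Γ]

/-- the stabilizer of a family of subgroups. -/
def stab (𝒞 : Set (Subgroup Γ)) : Subgroup Γ where
  carrier := {g | ∀ A, A ∈ 𝒞 ↔ conjBy A g ∈ 𝒞}
  one_mem' := by intro A; rw [conjBy_one]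
  mul_mem' := by
    intro g h hg hh A
    rw [← conjBy_conjBy, ← hg, ← hh]
  inv_mem' := by
    intro g hg A
    rw [hg (conjBy A g⁻¹), conjBy_conjBy_inv]

theorem normal_conjBy {N : Subgroup Γ} (hN : N.Normal) (g : Γ) : conjBy N g = N := by
  rw [conjBy_eq_self_iff, Subgroup.normalizer_eq_top_iff.2 hN]
  trivial

end generic

variable {k : Type*} [Field k] {M : Type*} [AddCommGroup M] [Module k M] [FiniteDimensional k M]

local notation "GLM" => LinearMap.GeneralLinearGroup k M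
local notation "EndM" => (M →ₗ[k] M)

theorem rch_mem {G A B : Subgroup GLM} (hA : A ∈ quadraticRootSubgroups G) (h : Rch G A B) :
    B ∈ quadraticRootSubgroups G := by
  cases h with
  | refl => exact hA
  | tail _ hbc => exact hbc.2.1

theorem rch_conj {G A B : Subgroup GLM} (h : Rch G A B) {g : GLM} (hg : g ∈ G) :
    Rch G (conjBy A g) (conjBy B g) := by
  induction h with
  | refl => exact Relation.ReflTransGen.refl
  | tail _ hbc ih =>
    exact ih.tail ⟨sigma_conj hbc.1 hg, sigma_conj hbc.2.1 hg, isRankOnePair_conj hbc.2.2 g⟩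

theorem comm_of_not_rch (hk2 : ringChar k ≠ 2) (hk3 : Nat.card k ≠ 3) {G : Subgroup GLM}
    (hG : IsQuadraticPair G) {A B : Subgroup GLM} (hA : A ∈ quadraticRootSubgroups G)
    (hB : B ∈ quadraticRootSubgroups G) (h : ¬ Rch G A B) : ⁅A, B⁆ = ⊥ := by
  rcases sigma_tri hk2 hk3 hG hA hB with h1 | h1 | ⟨_, h2, h3⟩
  · exact h1
  · exact absurd (Relation.ReflTransGen.single ⟨hA, hB, h1⟩) h
  · exact absurd (h2.trans (reach_symm h3)) h

/-- the component of `A₀`. -/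
abbrev Cp (G A₀ : Subgroup GLM) : Set (Subgroup GLM) :=
  componentOf (FAdj (quadraticRootSubgroups G)) (quadraticRootSubgroups G) A₀

theorem cp_rch {G A₀ A B : Subgroup GLM} (hA : A ∈ Cp G A₀) (hB : B ∈ Cp G A₀) : Rch G A B :=
  (reach_symm hA.2).trans hB.2

theorem cp_le_stab {G A₀ D : Subgroup GLM} (hD : D ∈ Cp G A₀) : D ≤ stab (Cp G A₀) := by
  have fwd : ∀ d ∈ D, ∀ A ∈ Cp G A₀, conjBy A d ∈ Cp G A₀ := by
    intro d hd A hA
    have hdG : d ∈ G := sigma_le hD.1 hd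
    refine ⟨sigma_conj hA.1 hdG, ?_⟩
    have := rch_conj (cp_rch hD hA) hdG
    rw [conjBy_of_mem hd] at this
    exact hD.2.trans this
  intro d hd A
  constructor
  · exact fwd d hd A
  · intro h
    have := fwd d⁻¹ (D.inv_mem hd) _ h
    rwa [conjBy_inv_conjBy] at this

theorem cp_conj {G A₀ A : Subgroup GLM} (hA : A ∈ Cp G A₀) {g : GLM} (hg : g ∈ ⨆ B ∈ Cp G A₀, B) :
    conjBy A g ∈ Cp G A₀ := by
  have hle : (⨆ B ∈ Cp G A₀, B) ≤ stab (Cp G A₀) := iSup₂_le fun D hD => cp_le_stab hD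
  exact (hle hg A).1 hA

theorem cp_rootSet (hk2 : ringChar k ≠ 2) (hk3 : Nat.card k ≠ 3) {G : Subgroup GLM}
    (hG : IsQuadraticPair G) (A₀ : Subgroup GLM) :
    IsRootSubgroupSet ((fun A : Subgroup GLM => A.subgroupOf (⨆ B ∈ Cp G A₀, B)) '' Cp G A₀) := by
  apply rootSet_subgroupOf (fun A hA => sigma_comm hA.1) (fun A hA => sigma_ne_bot hA.1)
    (fun A hA g hg => cp_conj hA hg)
  intro A hA B hB
  rcases sigma_tri hk2 hk3 hG hA.1 hB.1 with h1 | h1 | ⟨⟨c1, c2, c3, c4⟩, r1, _⟩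
  · exact Or.inl h1
  · exact Or.inr (Or.inl h1)
  · exact Or.inr (Or.inr ⟨⟨c1, hA.2.trans r1⟩, c2, c3, c4⟩)

theorem cp_le {G A₀ A : Subgroup GLM} (hA : A ∈ Cp G A₀) : A ≤ ⨆ B ∈ Cp G A₀, B :=
  le_iSup₂_of_le A hA le_rfl

theorem cp_conn {G A₀ A B : Subgroup GLM} (hA : A ∈ Cp G A₀) (hB : B ∈ Cp G A₀) :
    Relation.ReflTransGen
      (FAdj ((fun A : Subgroup GLM => A.subgroupOf (⨆ B ∈ Cp G A₀, B)) '' Cp G A₀))
      (A.subgroupOf (⨆ B ∈ Cp G A₀, B)) (B.subgroupOf (⨆ B ∈ Cp G A₀, B)) := by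
  have key : ∀ C, Rch G A C → Relation.ReflTransGen
      (FAdj ((fun A : Subgroup GLM => A.subgroupOf (⨆ B ∈ Cp G A₀, B)) '' Cp G A₀))
      (A.subgroupOf (⨆ B ∈ Cp G A₀, B)) (C.subgroupOf (⨆ B ∈ Cp G A₀, B)) := by
    intro C h
    induction h with
    | refl => exact Relation.ReflTransGen.refl
    | tail hab hbc ih =>
      rename_i b c
      have hb : b ∈ Cp G A₀ := ⟨hbc.1, hA.2.trans hab⟩
      have hc : c ∈ Cp G A₀ := ⟨hbc.2.1, (hA.2.trans hab).tail hbc⟩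
      exact ih.tail ⟨⟨b, hb, rfl⟩, ⟨c, hc, rfl⟩, isRankOnePair_subgroupOf (cp_le hb) (cp_le hc) hbc.2.2⟩
  exact key B (cp_rch hA hB)

theorem cp_class (hk2 : ringChar k ≠ 2) (hk3 : Nat.card k ≠ 3) {G : Subgroup GLM}
    (hG : IsQuadraticPair G) {A₀ : Subgroup GLM} (hA₀ : A₀ ∈ quadraticRootSubgroups G) :
    IsRootSubgroupClass ((fun A : Subgroup GLM => A.subgroupOf (⨆ B ∈ Cp G A₀, B)) '' Cp G A₀) := by
  refine ⟨cp_rootSet hk2 hk3 hG A₀, ⟨_, A₀, ⟨hA₀, Relation.ReflTransGen.refl⟩, rfl⟩, ?_⟩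
  rintro _ ⟨A, hA, rfl⟩ _ ⟨B, hB, rfl⟩
  exact conj_of_reach (cp_conn hA hB)

theorem sigma_card (hk2 : ringChar k ≠ 2) (hk3 : Nat.card k ≠ 3) {G A : Subgroup GLM}
    (hA : A ∈ quadraticRootSubgroups G) : 3 < ENat.card A := by
  obtain ⟨σ, hσ, rfl⟩ := hA
  have hN := mem_min_iff.1 hσ
  refine lt_of_lt_of_le (card_gt hk2 hk3) ?_
  let f : k → sameActionSubgroup G σ := fun c =>
    ⟨uof (c • ((σ : EndM) - 1)) (smul_sq hN.sq c), by
      rw [mem_E_iff hσ, uof_sub]; exact (IsLg.self hN).smul hN c⟩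
  apply ENat.card_le_card_of_injective (f := f)
  intro c c' h
  have h1 := congrArg (fun x : sameActionSubgroup G σ => ((x : GLM) : EndM)) h
  simp only [f, uof_val] at h1
  have h2 : (c - c') • ((σ : EndM) - 1) = 0 := by
    rw [sub_smul, sub_eq_zero]; exact add_left_cancel h1
  rcases smul_eq_zero.1 h2 with h3 | h3
  · exact sub_eq_zero.1 h3
  · exact absurd h3 hN.ne

theorem cp_iSup_le {G A₀ : Subgroup GLM} :
    (⨆ B ∈ Cp G A₀, B) ≤ ⨆ B ∈ quadraticRootSubgroups G, B :=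
  biSup_mono fun _ hB => hB.1

theorem cp_hX (hk2 : ringChar k ≠ 2) (hk3 : Nat.card k ≠ 3) {G : Subgroup GLM}
    (hG : IsQuadraticPair G) (A₀ : Subgroup GLM) :
    ∀ N : Subgroup ↥(⨆ B ∈ Cp G A₀, B), N.Normal →
      (∀ A ∈ (fun A : Subgroup GLM => A.subgroupOf (⨆ B ∈ Cp G A₀, B)) '' Cp G A₀, ∀ n ∈ N,
        ⁅A, conjBy A n⁆ = ⊥) →
      ∀ n ∈ N, ∀ A ∈ (fun A : Subgroup GLM => A.subgroupOf (⨆ B ∈ Cp G A₀, B)) '' Cp G A₀,
        conjBy A n = A := by
  rintro N hN hγ n hn _ ⟨A, hA, rfl⟩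
  have hN'X : N.map (⨆ B ∈ Cp G A₀, B).subtype ≤ ⨆ B ∈ Cp G A₀, B := Subgroup.map_subtype_le N
  have hnorm : ∀ g ∈ ⨆ B ∈ quadraticRootSubgroups G, B,
      conjBy (N.map (⨆ B ∈ Cp G A₀, B).subtype) g = N.map (⨆ B ∈ Cp G A₀, B).subtype := by
    have hle : (⨆ B ∈ quadraticRootSubgroups G, B) ≤
        Subgroup.normalizer ((N.map (⨆ B ∈ Cp G A₀, B).subtype : Subgroup GLM) : Set GLM) := by
      refine iSup₂_le fun D hD => ?_
      intro d hd
      rw [← conjBy_eq_self_iff]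
      by_cases hDC : D ∈ Cp G A₀
      · have hdX : d ∈ ⨆ B ∈ Cp G A₀, B := cp_le hDC hd
        have := map_conjBy (⨆ B ∈ Cp G A₀, B).subtype N ⟨d, hdX⟩
        rw [normal_conjBy hN] at this
        exact this.symm
      · apply conjBy_eq_of_commute
        have hcen : (⨆ B ∈ Cp G A₀, B) ≤ Subgroup.centralizer (D : Set GLM) := by
          refine iSup₂_le fun B hB => ?_
          rw [← Subgroup.commutator_eq_bot_iff_le_centralizer]
          apply comm_of_not_rch hk2 hk3 hG hB.1 hD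
          intro hr
          exact hDC ⟨hD, hB.2.trans hr⟩
        intro b hb
        exact Subgroup.mem_centralizer_iff.1 (hcen (hN'X hb)) d hd
    intro g hg
    exact conjBy_eq_self_iff.2 (hle hg)
  have hcomm : ∀ n' ∈ N.map (⨆ B ∈ Cp G A₀, B).subtype, ⁅A, conjBy A n'⁆ = ⊥ := by
    rintro _ ⟨n₁, hn₁, rfl⟩
    have h1 := hγ _ ⟨A, hA, rfl⟩ n₁ hn₁
    simp only at h1
    have hcA : conjBy A (n₁ : GLM) ≤ ⨆ B ∈ Cp G A₀, B := cp_le (cp_conj hA n₁.2)
    rw [conjBy_subgroupOf (cp_le hA) n₁, commutator_subgroupOf (cp_le hA) hcA] at h1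
    have hle : ⁅A, conjBy A (n₁ : GLM)⁆ ≤ ⨆ B ∈ Cp G A₀, B :=
      (Subgroup.commutator_mono (cp_le hA) hcA).trans (Subgroup.commutator_le_self _)
    have := subgroupOf_map hle
    rw [h1, Subgroup.map_bot] at this
    exact this.symm
  have hz := lemmaZ hk2 hk3 hG (hN'X.trans cp_iSup_le) hnorm hA.1 hcomm (n : GLM) ⟨n, hn, rfl⟩
  simp only
  rw [conjBy_subgroupOf (cp_le hA) n]
  congr 1
  apply conjBy_eq_of_commute
  intro a ha
  have := hz a ha
  calc (n : GLM) * a = ((n : GLM) * a * (n : GLM)⁻¹) * n := by group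
    _ = a * n := by rw [this]

theorem cp_quasisimple (hk2 : ringChar k ≠ 2) (hk3 : Nat.card k ≠ 3) {G : Subgroup GLM}
    (hG : IsQuadraticPair G) {A₀ : Subgroup GLM} (hA₀ : A₀ ∈ quadraticRootSubgroups G) :
    IsQuasisimple ↥(⨆ B ∈ Cp G A₀, B) := by
  have hcl := cp_class hk2 hk3 hG hA₀
  apply Helper85ND.quasisimple_of hcl.1 hcl.2.1 _ hcl.2.2 (cp_hX hk2 hk3 hG A₀)
  · rintro _ _ ⟨A, hA, rfl⟩
    simp only
    rw [card_subgroupOf (cp_le hA)]
    exact sigma_card hk2 hk3 hA.1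
  · rintro _ ⟨A, hA, rfl⟩ _ ⟨⟨B, hB, rfl⟩, hr⟩
    apply isSpecial_subgroupOf (cp_le hA) (cp_le hB)
    apply sigma_special hk2 hk3 hG hA.1 hB.1
    have := Helper85Image.isRankOnePair_map (⨆ B ∈ Cp G A₀, B).subtype hr (by
      intro e
      exact hr.ne (Subgroup.map_injective (Subgroup.subtype_injective _) e))
    rwa [subgroupOf_map (cp_le hA), subgroupOf_map (cp_le hB)] at this
  · rintro _ ⟨A, hA, rfl⟩
    obtain ⟨t, ht, hr⟩ := sigma_partner hk2 hk3 hG hA.1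
    have hB : conjBy A t ∈ Cp G A₀ :=
      ⟨sigma_conj hA.1 ht, hA.2.tail ⟨hA.1, sigma_conj hA.1 ht, hr⟩⟩
    exact ⟨_, ⟨_, hB, rfl⟩, isRankOnePair_subgroupOf (cp_le hA) (cp_le hB) hr⟩

theorem cp_eq_of_mem {G A₀ A : Subgroup GLM} (hA : A ∈ Cp G A₀) : Cp G A = Cp G A₀ :=
  (component_eq hA.2).symm

theorem val_comm_of {A B : Subgroup GLM} (h : ⁅A, B⁆ = ⊥) {a b : GLM} (ha : a ∈ A) (hb : b ∈ B)
    {X Y : EndM} (hX : (a : EndM) = 1 + X) (hY : (b : EndM) = 1 + Y) : X * Y = Y * X := by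
  have hc := congrArg Units.val (commutator_eq_bot_iff'.1 h a ha b hb)
  rw [Units.val_mul, Units.val_mul, hX, hY] at hc
  have e1 : (1 + X) * (1 + Y) = 1 + X + Y + X * Y := by noncomm_ring
  have e2 : (1 + Y) * (1 + X) = 1 + X + Y + Y * X := by noncomm_ring
  rw [e1, e2] at hc
  exact add_left_cancel hc

theorem comps_finite (hk2 : ringChar k ≠ 2) (hk3 : Nat.card k ≠ 3) {G : Subgroup GLM}
    (hG : IsQuadraticPair G) :
    {𝒞 : Set (Subgroup GLM) | ∃ A ∈ quadraticRootSubgroups G, 𝒞 = Cp G A}.Finite := by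
  have data : ∀ 𝒞 : {𝒞 : Set (Subgroup GLM) | ∃ A ∈ quadraticRootSubgroups G, 𝒞 = Cp G A},
      ∃ X Y : EndM, X * X = 0 ∧ X ≠ 0 ∧ X * Y * X = X ∧ (∃ A ∈ 𝒞.1, ∃ a ∈ A, (a : EndM) = 1 + X) ∧
        (∃ B ∈ 𝒞.1, ∃ b ∈ B, (b : EndM) = 1 + Y) := by
    rintro ⟨_, A, hA, rfl⟩
    obtain ⟨t, ht, hr⟩ := sigma_partner hk2 hk3 hG hA
    have hB : conjBy A t ∈ Cp G A :=
      ⟨sigma_conj hA ht, Relation.ReflTransGen.single ⟨hA, sigma_conj hA ht, hr⟩⟩
    have hAA : A ∈ Cp G A := ⟨hA, Relation.ReflTransGen.refl⟩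
    obtain ⟨σ, hσ, rfl⟩ := hA
    rw [conjBy_E hσ ht] at hr hB
    have hτ := conj_mem_min hσ ht
    obtain ⟨d1, d2⟩ := rank_one_type hk2 hk3 hG hσ hτ hr
    have hN := mem_min_iff.1 hσ
    have hN' := mem_min_iff.1 hτ
    obtain ⟨Y, hY, _, h1, _⟩ := sharp hk2 hk3 hN' d1 d2 (IsLg.self hN) hN.ne
    refine ⟨(σ : EndM) - 1, Y, hN.sq, hN.ne, h1, ⟨_, hAA, σ, self_mem_E hσ, by abel⟩,
      ⟨_, hB, uof Y (IsLg.mul hN'.sq hY hY), ?_, rfl⟩⟩
    rw [mem_E_iff hτ, uof_sub]; exact hY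
  choose X Y h1 h2 h3 h4 h5 using data
  have hcomm : ∀ i j, i ≠ j → X j * X i = X i * X j ∧ X j * Y i = Y i * X j := by
    intro i j hij
    obtain ⟨A, hA, a, ha, hae⟩ := h4 i
    obtain ⟨B, hB, b, hb, hbe⟩ := h5 i
    obtain ⟨A', hA', a', ha', hae'⟩ := h4 j
    obtain ⟨Ai, hAi, hi⟩ := i.2
    obtain ⟨Aj, hAj, hj⟩ := j.2
    have hne : ∀ D ∈ i.1, ¬ Rch G A' D := by
      intro D hD hr
      apply hij
      apply Subtype.ext
      rw [hi] at hD ⊢
      rw [hj] at hA' ⊢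
      rw [← cp_eq_of_mem hD, ← cp_eq_of_mem hA']
      exact (component_eq hr).symm
    have mS : ∀ D ∈ i.1, D ∈ quadraticRootSubgroups G := by
      intro D hD; rw [hi] at hD; exact hD.1
    have mS' : A' ∈ quadraticRootSubgroups G := by rw [hj] at hA'; exact hA'.1
    exact ⟨val_comm_of (comm_of_not_rch hk2 hk3 hG mS' (mS A hA) (hne A hA)) ha' ha hae' hae,
      val_comm_of (comm_of_not_rch hk2 hk3 hG mS' (mS B hB) (hne B hB)) ha' hb hae' hbe⟩
  have li : LinearIndependent k (fun i => X i * Y i - Y i * X i) := by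
    classical
    rw [linearIndependent_iff']
    intro s g hs j hj
    have hap := congrArg (fun w : EndM => X j * w - w * X j) hs
    simp only [mul_zero, zero_mul, sub_zero, Finset.mul_sum, Finset.sum_mul, ← Finset.sum_sub_distrib] at hap
    rw [Finset.sum_eq_single j] at hap
    · have e : X j * g j • (X j * Y j - Y j * X j) - g j • (X j * Y j - Y j * X j) * X j =
          (g j * (-2)) • X j := by
        have : X j * g j • (X j * Y j - Y j * X j) - g j • (X j * Y j - Y j * X j) * X j =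
            g j • ((X j * X j) * Y j - X j * Y j * X j - X j * Y j * X j + Y j * (X j * X j)) := by
          rw [mul_smul_comm, smul_mul_assoc, ← smul_sub]
          congr 1
          noncomm_ring
        rw [this, h1, h3, mul_smul]
        congr 1
        simp only [zero_mul, mul_zero, add_zero, zero_sub]
        module
      rw [e] at hap
      rcases smul_eq_zero.1 hap with h | h
      · rcases mul_eq_zero.1 h with h | h
        · exact h
        · exfalso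
          exact Ring.two_ne_zero hk2 (neg_eq_zero.1 h)
      · exact absurd h (h2 j)
    · intro i _ hij
      obtain ⟨c1, c2⟩ := hcomm i j hij
      rw [mul_smul_comm, smul_mul_assoc, ← smul_sub]
      have : X j * (X i * Y i - Y i * X i) - (X i * Y i - Y i * X i) * X j = 0 := by
        have t1 : X j * X i * Y i = X i * Y i * X j := by rw [c1, mul_assoc, c2, ← mul_assoc]
        have t2 : X j * Y i * X i = Y i * X i * X j := by rw [c2, mul_assoc, c1, ← mul_assoc]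
        have : X j * (X i * Y i - Y i * X i) - (X i * Y i - Y i * X i) * X j =
            X j * X i * Y i - X j * Y i * X i - X i * Y i * X j + Y i * X i * X j := by noncomm_ring
        rw [this, t1, t2]
        abel
      rw [this, smul_zero]
    · intro hj'; exact absurd hj hj'
  exact Set.finite_coe_iff.1 li.finite_of_isNoetherian

end Cfsg.Agent.Lib.Helper85QU
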