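import Cfsg.Agent.Lib.Helper85QJ
import Cfsg.Agent.Lib.Helper85QU

/-!
Quadratic pairs: every quadratic element lies in a component of `G₀` or centralizes `G₀`.
-/

set_option linter.unusedSectionVars false

namespace Cfsg.Agent.Lib.Helper85QL

open Polynomial Cfsg Module Cfsg.Agent.Lib.Helper85QP Cfsg.Agent.Lib.Helper85QS
  Cfsg.Agent.Lib.Helper85QR Cfsg.Agent.Lib.Helper85QK
  Cfsg.Agent.Lib.Helper85QX Cfsg.Agent.Lib.Helper85QY Cfsg.Agent.Lib.Helper85QU
  Cfsg.Agent.Lib.Helper85RankOne Cfsg.Agent.Lib.Helper85Root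
  Cfsg.Agent.Lib.Helper85Graph Cfsg.Agent.Lib.Helper85QG Cfsg.Agent.Lib.Helper85QH Cfsg.Agent.Lib.Helper85QJ

variable {k : Type*} [Field k] {M : Type*} [AddCommGroup M] [Module k M] [FiniteDimensional k M]

local notation "GLM" => LinearMap.GeneralLinearGroup k M
local notation "EndM" => (M →ₗ[k] M)

/-- the group generated by the component of `A`. -/
def CG (G A : Subgroup GLM) : Subgroup GLM := ⨆ B ∈ Cp G A, B

theorem self_le_CG {G A : Subgroup GLM} (hA : A ∈ quadraticRootSubgroups G) : A ≤ CG G A :=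
  cp_le (A₀ := A) ⟨hA, Relation.ReflTransGen.refl⟩

theorem CG_le_G0 {G A : Subgroup GLM} : CG G A ≤ ⨆ B ∈ quadraticRootSubgroups G, B := cp_iSup_le

theorem G0_le {G : Subgroup GLM} : (⨆ B ∈ quadraticRootSubgroups G, B) ≤ G :=
  iSup₂_le fun _ hB => sigma_le hB

theorem CG_le {G A : Subgroup GLM} : CG G A ≤ G := CG_le_G0.trans G0_le

theorem CG_eq_of_rch {G A B : Subgroup GLM} (h : Rch G A B) : CG G A = CG G B := by
  unfold CG
  rw [show Cp G A = Cp G B from component_eq h]

theorem CG_comm (hk2 : ringChar k ≠ 2) (hk3 : Nat.card k ≠ 3) {G : Subgroup GLM}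
    (hG : IsQuadraticPair G) {A B : Subgroup GLM} (hA : A ∈ quadraticRootSubgroups G)
    (hB : B ∈ quadraticRootSubgroups G) (h : ¬ Rch G A B) : ⁅CG G A, CG G B⁆ = ⊥ := by
  unfold CG
  rw [Subgroup.commutator_eq_bot_iff_le_centralizer]
  refine iSup₂_le fun A' hA' => ?_
  rw [Subgroup.le_centralizer_iff]
  refine iSup₂_le fun B' hB' => ?_
  rw [← Subgroup.commutator_eq_bot_iff_le_centralizer]
  apply comm_of_not_rch hk2 hk3 hG hB'.1 hA'.1
  intro hr
  apply h
  exact (hA'.2.trans (reach_symm hr)).trans (reach_symm hB'.2)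

theorem le_sup_cent (hk2 : ringChar k ≠ 2) (hk3 : Nat.card k ≠ 3) {G : Subgroup GLM}
    (hG : IsQuadraticPair G) {A : Subgroup GLM} (hA : A ∈ quadraticRootSubgroups G) :
    G ≤ CG G A ⊔ Subgroup.centralizer (CG G A : Set GLM) := by
  conv_lhs => rw [← main hk2 hk3 hG]
  apply sup_le
  · apply iSup₂_le
    intro B hB
    by_cases h : Rch G A B
    · exact le_sup_of_le_left (cp_le (A₀ := A) ⟨hB, h⟩)
    · apply le_sup_of_le_right
      have := CG_comm hk2 hk3 hG hA hB h
      rw [Subgroup.commutator_eq_bot_iff_le_centralizer, Subgroup.le_centralizer_iff] at this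
      exact (self_le_CG hB).trans this
  · apply le_sup_of_le_right
    exact inf_le_right.trans (Subgroup.centralizer_le (SetLike.coe_subset_coe.2 CG_le_G0))

theorem CG_conj (hk2 : ringChar k ≠ 2) (hk3 : Nat.card k ≠ 3) {G : Subgroup GLM}
    (hG : IsQuadraticPair G) {A : Subgroup GLM} (hA : A ∈ quadraticRootSubgroups G) {g : GLM} (hg : g ∈ G) :
    conjBy (CG G A) g = CG G A := by
  rw [conjBy_eq_self_iff]
  have h1 : CG G A ⊔ Subgroup.centralizer (CG G A : Set GLM) ≤ Subgroup.normalizer (CG G A : Set GLM) :=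
    sup_le Subgroup.le_normalizer (Subgroup.centralizer_le_normalizer _)
  exact h1 (le_sup_cent hk2 hk3 hG hA hg)

/-- the stabilizer of a subspace. -/
def stabV (V : Submodule k M) : Subgroup GLM where
  carrier := {g | ∀ v, v ∈ V ↔ (g : EndM) v ∈ V}
  one_mem' := by intro v; rfl
  mul_mem' := by
    intro g h hg hh v
    rw [Units.val_mul, Module.End.mul_apply, ← hg, ← hh]
  inv_mem' := by
    intro g hg v
    rw [hg (((g⁻¹ : GLM) : EndM) v), g_apply_inv]

theorem mem_stabV_of {V : Submodule k M} {H : Subgroup GLM} (h : ∀ g ∈ H, ∀ v ∈ V, (g : EndM) v ∈ V) :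
    H ≤ stabV V := by
  intro g hg v
  constructor
  · exact h g hg v
  · intro hv
    have := h g⁻¹ (H.inv_mem hg) _ hv
    rwa [g_inv_apply] at this

/-- Lemma K. -/
theorem kill (hk2 : ringChar k ≠ 2) (hk3 : Nat.card k ≠ 3) {G : Subgroup GLM}
    (hG : IsQuadraticPair G) {A : Subgroup GLM} (hA : A ∈ quadraticRootSubgroups G) {T S₁ : EndM}
    (hT : ∀ g ∈ CG G A, T * (g : EndM) = (g : EndM) * T) (hS : S₁ * S₁ = 0) (hne : S₁ ≠ 0)
    (hm : uof S₁ hS ∈ CG G A) (h0 : T * S₁ = 0) : T = 0 := by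
  set V : Submodule k M := ⨆ g : CG G A, (LinearMap.range S₁).map ((g : GLM) : EndM) with hV
  have hle : ∀ g ∈ CG G A, (LinearMap.range S₁).map ((g : GLM) : EndM) ≤ V := fun g hg =>
    le_iSup (fun g : CG G A => (LinearMap.range S₁).map ((g : GLM) : EndM)) ⟨g, hg⟩
  have hTV : V ≤ LinearMap.ker T := by
    apply iSup_le
    rintro ⟨g, hg⟩ _ ⟨_, ⟨m, rfl⟩, rfl⟩
    rw [LinearMap.mem_ker, ← Module.End.mul_apply, hT g hg, Module.End.mul_apply, ← Module.End.mul_apply T, h0]
    simp
  have i1 : CG G A ≤ stabV V := by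
    apply mem_stabV_of
    intro h hh v hv
    have : V.map (h : EndM) ≤ V := by
      rw [hV, Submodule.map_iSup]
      apply iSup_le
      rintro ⟨g, hg⟩
      rw [← Submodule.map_comp]
      exact hle (h * g) (Subgroup.mul_mem _ hh hg)
    exact this ⟨v, hv, rfl⟩
  have i2 : Subgroup.centralizer (CG G A : Set GLM) ≤ stabV V := by
    apply mem_stabV_of
    intro h hh v hv
    have : V.map (h : EndM) ≤ V := by
      rw [hV, Submodule.map_iSup]
      apply iSup_le
      rintro ⟨g, hg⟩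
      refine le_trans ?_ (hle g hg)
      rintro _ ⟨_, ⟨_, ⟨m, rfl⟩, rfl⟩, rfl⟩
      have c1 := congrArg Units.val (Subgroup.mem_centralizer_iff.1 hh g hg)
      have c2 := congrArg Units.val (Subgroup.mem_centralizer_iff.1 hh _ hm)
      rw [Units.val_mul, Units.val_mul] at c1 c2
      rw [uof_val, add_mul, mul_add, one_mul, mul_one] at c2
      have c3 : S₁ * (h : EndM) = (h : EndM) * S₁ := add_left_cancel c2
      refine ⟨S₁ ((h : EndM) m), ⟨_, rfl⟩, ?_⟩
      show ((g : EndM) * (S₁ * (h : EndM))) m = ((h : EndM) * (g : EndM) * S₁) m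
      rw [c3, ← c1, mul_assoc]
    exact this ⟨v, hv, rfl⟩
  have inv : ∀ g ∈ G, ∀ w ∈ V, (g : EndM) w ∈ V := by
    intro g hg w hw
    exact ((sup_le i1 i2 (le_sup_cent hk2 hk3 hG hA hg)) w).1 hw
  rcases hG.1.2 V inv with hb | ht
  · exfalso
    apply hne
    have := hle 1 (Subgroup.one_mem _)
    rw [hb, le_bot_iff] at this
    ext m
    have h1 : S₁ m ∈ (LinearMap.range S₁).map (((1 : GLM) : GLM) : EndM) := ⟨S₁ m, ⟨m, rfl⟩, rfl⟩
    rw [this, Submodule.mem_bot] at h1
    exact h1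
  · ext m
    have : m ∈ V := by rw [ht]; trivial
    exact LinearMap.mem_ker.1 (hTV this)

theorem comm_val {T : EndM} (hT : T * T = 0) {g : GLM} (h : g * uof T hT = uof T hT * g) :
    T * (g : EndM) = (g : EndM) * T := by
  have c := congrArg Units.val h
  rw [Units.val_mul, Units.val_mul, uof_val, add_mul, mul_add, one_mul, mul_one] at c
  exact (add_left_cancel c).symm

/-- the dichotomy. -/
theorem dich_quad (hk2 : ringChar k ≠ 2) (hk3 : Nat.card k ≠ 3) {G : Subgroup GLM} (hG : IsQuadraticPair G) :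
    ∀ (n : ℕ) (S : EndM) (hS : S * S = 0), InG G S → finrank k (LinearMap.range S) ≤ n →
      (∀ Y, Root G Y → S * Y = Y * S) ∨ ∃ A ∈ quadraticRootSubgroups G, uof S hS ∈ CG G A := by
  intro n
  induction n with
  | zero =>
    intro S hS _ hr
    have h0 : S = 0 := by
      have := Submodule.finrank_eq_zero.1 (Nat.le_zero.1 hr)
      exact LinearMap.range_eq_bot.1 this
    left
    intro Y _
    rw [h0]; simp
  | succ n ih =>
    intro S hS fS hr
    by_cases hB : ∀ Y, Root G Y → Y * S * Y = 0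
    · exact Or.inl (fun Y hY => caseB hk2 hk3 hG hS fS hB hY)
    · right
      push Not at hB
      obtain ⟨X₀, hX, hne⟩ := hB
      obtain ⟨Θ, c1, c2, fΘ, hΘ⟩ := hasTheta hk2 hk3 hX hS fS hne
      obtain ⟨σ, t, hσ, ht2⟩ := exists_sigma (Ring.two_ne_zero hk2) hk3
      have ht : t ≠ 0 := right_ne_zero_of_mul_eq_one hσ
      obtain ⟨r1, f0, sq0, p0, hlt⟩ := reduce ht ht2 hX hS fS c1 c2 fΘ hΘ
      obtain ⟨S₁, hS₁⟩ : ∃ S₁, S₁ = Θ * (S * X₀ * S) := ⟨_, rfl⟩
      rw [← hS₁] at r1 f0 sq0 p0 hlt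
      have hA₁ : sameActionSubgroup G (uof S₁ r1.sq) ∈ quadraticRootSubgroups G := ⟨_, r1.uof_mem, rfl⟩
      have hm : uof S₁ r1.sq ∈ CG G (sameActionSubgroup G (uof S₁ r1.sq)) :=
        self_le_CG hA₁ (self_mem_E r1.uof_mem)
      refine ⟨_, hA₁, ?_⟩
      have e : uof S hS = uof _ sq0 * uof _ r1.sq := by
        apply Units.ext
        rw [Units.val_mul, uof_val, uof_val, uof_val, add_mul, mul_add, mul_add, p0]
        simp only [one_mul, mul_one, add_zero]
        abel
      have key : S - S₁ = 0 ∨ uof _ sq0 ∈ CG G (sameActionSubgroup G (uof S₁ r1.sq)) := by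
        rcases ih _ sq0 f0 (by omega) with hc | ⟨B, hB, hmB⟩
        · left
          apply kill hk2 hk3 hG hA₁ _ r1.sq r1.ne hm p0
          intro g hg
          apply comm_val sq0
          exact Subgroup.mem_centralizer_iff.1 (mem_centralizer_of sq0 hc) g (CG_le_G0 hg)
        · by_cases hr : Rch G (sameActionSubgroup G (uof S₁ r1.sq)) B
          · right
            rw [CG_eq_of_rch hr]; exact hmB
          · left
            apply kill hk2 hk3 hG hA₁ _ r1.sq r1.ne hm p0
            intro g hg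
            apply comm_val sq0
            exact commutator_eq_bot_iff'.1 (CG_comm hk2 hk3 hG hA₁ hB hr) g hg _ hmB
      rw [e]
      rcases key with h0 | h1
      · have : uof _ sq0 = 1 := Units.ext (by rw [uof_val, h0]; simp)
        rw [this, one_mul]; exact hm
      · exact Subgroup.mul_mem _ h1 hm

end Cfsg.Agent.Lib.Helper85QL
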