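import Cfsg.Agent.Lib.Helper85QL
import Cfsg.Agent.Lib.Helper85Transfer

/-!
Quadratic pairs: restriction of the centralizing part to an irreducible submodule.
-/

set_option linter.unusedSectionVars false

namespace Cfsg.Agent.Lib.Helper85QN

open Cfsg Module Cfsg.Agent.Lib.Helper85QP Cfsg.Agent.Lib.Helper85QS
  Cfsg.Agent.Lib.Helper85QR Cfsg.Agent.Lib.Helper85RankOne Cfsg.Agent.Lib.Helper85Root
  Cfsg.Agent.Lib.Helper85QG Cfsg.Agent.Lib.Helper85QL

variable {k : Type*} [Field k] {M : Type*} [AddCommGroup M] [Module k M]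

local notation "GLM" => LinearMap.GeneralLinearGroup k M
local notation "EndM" => (M →ₗ[k] M)

/-- restriction to an invariant subspace, as endomorphisms. -/
def resHom (H : Subgroup GLM) (M₁ : Submodule k M) (hinv : ∀ h ∈ H, ∀ v ∈ M₁, (h : EndM) v ∈ M₁) :
    ↥H →* Module.End k ↥M₁ where
  toFun h := ((h : GLM) : EndM).restrict (fun v hv => hinv h h.2 v hv)
  map_one' := by ext v; rfl
  map_mul' a b := by ext v; rfl

/-- restriction to an invariant subspace. -/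
def res (H : Subgroup GLM) (M₁ : Submodule k M) (hinv : ∀ h ∈ H, ∀ v ∈ M₁, (h : EndM) v ∈ M₁) :
    ↥H →* LinearMap.GeneralLinearGroup k ↥M₁ := (resHom H M₁ hinv).toHomUnits

theorem res_apply (H : Subgroup GLM) (M₁ : Submodule k M) (hinv : ∀ h ∈ H, ∀ v ∈ M₁, (h : EndM) v ∈ M₁)
    (h : H) (v : M₁) : (((res H M₁ hinv h : LinearMap.GeneralLinearGroup k ↥M₁) : ↥M₁ →ₗ[k] ↥M₁) v : M) =
      ((h : GLM) : EndM) (v : M) := rfl

/-- the standing hypotheses. -/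
structure Setup (G₀ H : Subgroup GLM) (M₁ : Submodule k M) : Prop where
  comm : ∀ g ∈ G₀, ∀ h ∈ H, g * h = h * g
  inv : ∀ h ∈ H, ∀ v ∈ M₁, (h : EndM) v ∈ M₁
  span : (⨆ g : G₀, M₁.map ((g : GLM) : EndM)) = ⊤

variable {G₀ H : Subgroup (LinearMap.GeneralLinearGroup k M)} {M₁ : Submodule k M}

theorem Setup.ext_zero (s : Setup G₀ H M₁) {T : EndM} (hT : ∀ g ∈ G₀, T * (g : EndM) = (g : EndM) * T)
    (h0 : ∀ v ∈ M₁, T v = 0) : T = 0 := by
  have : (⊤ : Submodule k M) ≤ LinearMap.ker T := by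
    rw [← s.span]
    apply iSup_le
    rintro ⟨g, hg⟩ _ ⟨v, hv, rfl⟩
    rw [LinearMap.mem_ker, ← Module.End.mul_apply, hT g hg, Module.End.mul_apply, h0 v hv, map_zero]
  ext m
  exact LinearMap.mem_ker.1 (this trivial)

theorem Setup.comm_val (s : Setup G₀ H M₁) {g h : GLM} (hg : g ∈ G₀) (hh : h ∈ H) :
    (h : EndM) * (g : EndM) = (g : EndM) * (h : EndM) := by
  have := congrArg Units.val (s.comm g hg h hh)
  rw [Units.val_mul, Units.val_mul] at this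
  exact this.symm

theorem Setup.inj (s : Setup G₀ H M₁) : Function.Injective (res H M₁ s.inv) := by
  rw [injective_iff_map_eq_one]
  intro h hh
  have : ((h : GLM) : EndM) - 1 = 0 := by
    apply s.ext_zero
    · intro g hg
      rw [sub_mul, mul_sub, s.comm_val hg h.2]; simp
    · intro v hv
      have := res_apply H M₁ s.inv h ⟨v, hv⟩
      rw [hh] at this
      rw [LinearMap.sub_apply, ← this]
      simp
  apply Subtype.ext
  apply Units.ext
  exact sub_eq_zero.1 this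


theorem res_sub_apply (s : Setup G₀ H M₁) (h : H) (v : M₁) :
    (((((res H M₁ s.inv h : LinearMap.GeneralLinearGroup k ↥M₁) : ↥M₁ →ₗ[k] ↥M₁) - 1) v : ↥M₁) : M) =
      (((h : GLM) : EndM) - 1) (v : M) := rfl

theorem Setup.sub_comm (s : Setup G₀ H M₁) {g h : GLM} (hg : g ∈ G₀) (hh : h ∈ H) :
    ((h : EndM) - 1) * (g : EndM) = (g : EndM) * ((h : EndM) - 1) := by
  rw [sub_mul, mul_sub, s.comm_val hg hh]; simp

/-- quadratic elements go down. -/
theorem quad_down (s : Setup G₀ H M₁) {G : Subgroup GLM}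
    (hH : ∀ u ∈ quadraticElements G, (∀ g ∈ G₀, g * u = u * g) → u ∈ H) {σ : GLM} (hσH : σ ∈ H)
    (hσ : σ ∈ quadraticElements G) : res H M₁ s.inv ⟨σ, hσH⟩ ∈ quadraticElements (res H M₁ s.inv).range := by
  obtain ⟨sq, ne, fam⟩ := mem_quad_iff.1 hσ
  rw [mem_quad_iff]
  refine ⟨?_, ?_, ?_⟩
  · ext v
    rw [Module.End.mul_apply, res_sub_apply s, res_sub_apply s, ← Module.End.mul_apply, sq]
    rfl
  · intro h0
    apply ne
    have h1 : res H M₁ s.inv ⟨σ, hσH⟩ = 1 := Units.ext (sub_eq_zero.1 h0)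
    have h2 : (⟨σ, hσH⟩ : H) = 1 := s.inj (by rw [h1, map_one])
    have h3 : σ = 1 := congrArg Subtype.val h2
    rw [h3]; simp
  · intro c
    obtain ⟨u, hu, e⟩ := fam c
    have huH : u ∈ H := by
      by_cases hc : c = 0
      · have : u = 1 := Units.ext (by rw [e, hc]; simp)
        rw [this]; exact H.one_mem
      · apply hH
        · rw [mem_quad_iff]
          have e' : (u : EndM) - 1 = c • ((σ : EndM) - 1) := by rw [e]; simp
          rw [e']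
          exact ⟨smul_sq sq c, smul_ne_zero hc ne, fam.smul c⟩
        · intro g hg
          apply Units.ext
          rw [Units.val_mul, Units.val_mul, e, mul_add, add_mul, mul_one, one_mul, mul_smul_comm, smul_mul_assoc,
            s.sub_comm hg hσH]
    refine ⟨res H M₁ s.inv ⟨u, huH⟩, ⟨_, rfl⟩, ?_⟩
    ext v
    rw [res_apply, LinearMap.add_apply, LinearMap.smul_apply, Submodule.coe_add, Submodule.coe_smul, res_sub_apply s]
    show (u : EndM) (v : M) = _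
    rw [e]
    rfl

/-- quadratic elements go up. -/
theorem quad_up (s : Setup G₀ H M₁) {G : Subgroup GLM} (hHG : H ≤ G)
    {τ : LinearMap.GeneralLinearGroup k ↥M₁} (hτ : τ ∈ quadraticElements (res H M₁ s.inv).range) :
    ∃ σ : H, res H M₁ s.inv σ = τ ∧ (σ : GLM) ∈ quadraticElements G := by
  obtain ⟨sq, ne, fam⟩ := mem_quad_iff.1 hτ
  obtain ⟨σ, rfl⟩ := hτ.1
  refine ⟨σ, rfl, ?_⟩
  rw [mem_quad_iff]
  refine ⟨?_, ?_, ?_⟩
  · apply s.ext_zero
    · intro g hg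
      rw [mul_assoc, s.sub_comm hg σ.2, ← mul_assoc, s.sub_comm hg σ.2, mul_assoc]
    · intro v hv
      have := congrArg Subtype.val (LinearMap.congr_fun sq ⟨v, hv⟩)
      rw [Module.End.mul_apply, res_sub_apply s, res_sub_apply s] at this
      exact this
  · intro h0
    apply ne
    have h1 : (σ : GLM) = 1 := Units.ext (sub_eq_zero.1 h0)
    have h2 : σ = 1 := Subtype.ext h1
    rw [h2, map_one]; simp
  · intro c
    obtain ⟨_, ⟨u, rfl⟩, e⟩ := fam c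
    refine ⟨u, hHG u.2, ?_⟩
    have : ((u : GLM) : EndM) - 1 - c • (((σ : GLM) : EndM) - 1) = 0 := by
      apply s.ext_zero
      · intro g hg
        rw [sub_mul, mul_sub, s.sub_comm hg u.2, smul_mul_assoc, mul_smul_comm, s.sub_comm hg σ.2]
      · intro v hv
        have h1 := congrArg Subtype.val (LinearMap.congr_fun e ⟨v, hv⟩)
        rw [res_apply, LinearMap.add_apply, LinearMap.smul_apply, Submodule.coe_add, Submodule.coe_smul,
          res_sub_apply s] at h1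
        rw [LinearMap.sub_apply, LinearMap.sub_apply, LinearMap.smul_apply]
        simp only [Module.End.one_apply] at h1 ⊢
        rw [h1]
        abel
    rw [sub_eq_zero, sub_eq_iff_eq_add] at this
    rw [this, add_comm]

/-- a decomposition of `G` as wanted. -/
def Dec (G : Subgroup GLM) (𝒟 : Set (Subgroup GLM)) : Prop :=
  𝒟.Finite ∧ (∀ A ∈ 𝒟, A ≤ G ∧ ∀ g ∈ G, conjBy A g = A) ∧ (∀ A ∈ 𝒟, ∀ B ∈ 𝒟, A ≠ B → ⁅A, B⁆ = ⊥) ∧ sSup 𝒟 = G ∧
  (∀ A ∈ 𝒟, IsQuasisimple ↥A ∧ Subgroup.closure (quadraticElements G ∩ (A : Set GLM)) = A) ∧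
  ∀ σ ∈ quadraticElements G, ∃ A ∈ 𝒟, σ ∈ A

/-- pull back along the restriction. -/
def Psi (H : Subgroup GLM) (M₁ : Submodule k M) (hinv : ∀ h ∈ H, ∀ v ∈ M₁, (h : EndM) v ∈ M₁)
    (B : Subgroup (LinearMap.GeneralLinearGroup k ↥M₁)) : Subgroup GLM :=
  (B.comap (res H M₁ hinv)).map H.subtype

theorem mem_Psi {hinv : ∀ h ∈ H, ∀ v ∈ M₁, (h : EndM) v ∈ M₁}
    {B : Subgroup (LinearMap.GeneralLinearGroup k ↥M₁)} {g : GLM} :
    g ∈ Psi H M₁ hinv B ↔ ∃ h : H, res H M₁ hinv h ∈ B ∧ (h : GLM) = g := Iff.rfl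

theorem Psi_le {hinv : ∀ h ∈ H, ∀ v ∈ M₁, (h : EndM) v ∈ M₁}
    {B : Subgroup (LinearMap.GeneralLinearGroup k ↥M₁)} : Psi H M₁ hinv B ≤ H := by
  rintro _ ⟨h, -, rfl⟩
  exact h.2

theorem Psi_normalizer (s : Setup G₀ H M₁) {B : Subgroup (LinearMap.GeneralLinearGroup k ↥M₁)}
    (hB : ∀ g ∈ (res H M₁ s.inv).range, conjBy B g = B) :
    G₀ ⊔ H ≤ Subgroup.normalizer (Psi H M₁ s.inv B : Set GLM) := by
  apply sup_le
  · refine le_trans ?_ (Subgroup.centralizer_le_normalizer _)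
    intro g hg
    rw [Subgroup.mem_centralizer_iff]
    intro x hx
    exact (s.comm g hg x (Psi_le hx)).symm
  · intro h hh
    have hn : res H M₁ s.inv ⟨h, hh⟩ ∈ Subgroup.normalizer (B : Set _) := conjBy_eq_self_iff.1 (hB _ ⟨_, rfl⟩)
    rw [Subgroup.mem_normalizer_iff] at hn ⊢
    intro x
    constructor
    · rintro ⟨y, hy, rfl⟩
      refine ⟨⟨h, hh⟩ * y * ⟨h, hh⟩⁻¹, ?_, rfl⟩
      show res H M₁ s.inv (⟨h, hh⟩ * y * ⟨h, hh⟩⁻¹) ∈ B
      rw [map_mul, map_mul, map_inv]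
      exact (hn _).1 hy
    · rintro ⟨z, hz, e⟩
      refine ⟨⟨h, hh⟩⁻¹ * z * ⟨h, hh⟩, ?_, ?_⟩
      · show res H M₁ s.inv (⟨h, hh⟩⁻¹ * z * ⟨h, hh⟩) ∈ B
        rw [hn, map_mul, map_mul, map_inv]
        have hz' : res H M₁ s.inv z ∈ B := hz
        convert hz' using 1
        group
      · show h⁻¹ * (z : GLM) * h = x
        have e' : (z : GLM) = h * x * h⁻¹ := e
        rw [e']
        group

/-- `Ψ B ≃* B`. -/
theorem Psi_equiv (s : Setup G₀ H M₁) {B : Subgroup (LinearMap.GeneralLinearGroup k ↥M₁)}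
    (hB : B ≤ (res H M₁ s.inv).range) : Nonempty (↥(Psi H M₁ s.inv B) ≃* ↥B) := by
  have hmem : ∀ x : Psi H M₁ s.inv B, res H M₁ s.inv ⟨x, Psi_le x.2⟩ ∈ B := by
    rintro ⟨_, y, hy, rfl⟩
    exact hy
  let f : ↥(Psi H M₁ s.inv B) →* ↥B :=
    { toFun := fun x => ⟨res H M₁ s.inv ⟨x, Psi_le x.2⟩, hmem x⟩
      map_one' := by
        apply Subtype.ext
        exact map_one (res H M₁ s.inv)
      map_mul' := by
        intro a b
        apply Subtype.ext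
        exact map_mul (res H M₁ s.inv) ⟨a, Psi_le a.2⟩ ⟨b, Psi_le b.2⟩ }
  refine ⟨MulEquiv.ofBijective f ⟨?_, ?_⟩⟩
  · intro a b hab
    have h1 := s.inj (congrArg Subtype.val hab)
    exact Subtype.ext (congrArg (fun z : H => (z : GLM)) h1)
  · rintro ⟨b, hb⟩
    obtain ⟨y, rfl⟩ := hB hb
    exact ⟨⟨y, y, hb, rfl⟩, rfl⟩

theorem Psi_closure (s : Setup G₀ H M₁) {G : Subgroup GLM} (hHG : H ≤ G)
    {B : Subgroup (LinearMap.GeneralLinearGroup k ↥M₁)}
    (hB : Subgroup.closure (quadraticElements (res H M₁ s.inv).range ∩ (B : Set _)) = B) :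
    Subgroup.closure (quadraticElements G ∩ (Psi H M₁ s.inv B : Set GLM)) = Psi H M₁ s.inv B := by
  apply le_antisymm
  · rw [Subgroup.closure_le]
    exact Set.inter_subset_right
  · have key : ∀ b ∈ Subgroup.closure (quadraticElements (res H M₁ s.inv).range ∩ (B : Set _)),
        ∃ x : H, res H M₁ s.inv x = b ∧
          (x : GLM) ∈ Subgroup.closure (quadraticElements G ∩ (Psi H M₁ s.inv B : Set GLM)) := by
      intro b hb
      induction hb using Subgroup.closure_induction with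
      | mem τ hτ =>
        obtain ⟨σ, e, hσ⟩ := quad_up s hHG hτ.1
        refine ⟨σ, e, Subgroup.subset_closure ⟨hσ, σ, ?_, rfl⟩⟩
        show res H M₁ s.inv σ ∈ B
        rw [e]; exact hτ.2
      | one => exact ⟨1, map_one _, Subgroup.one_mem _⟩
      | mul a b _ _ iha ihb =>
        obtain ⟨x, ex, hx⟩ := iha
        obtain ⟨y, ey, hy⟩ := ihb
        exact ⟨x * y, by rw [map_mul, ex, ey], Subgroup.mul_mem _ hx hy⟩
      | inv a _ iha =>
        obtain ⟨x, ex, hx⟩ := iha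
        exact ⟨x⁻¹, by rw [map_inv, ex], Subgroup.inv_mem _ hx⟩
    rintro _ ⟨y, hy, rfl⟩
    have hy' : res H M₁ s.inv y ∈ B := hy
    rw [← hB] at hy'
    obtain ⟨x, ex, hx⟩ := key _ hy'
    have : x = y := s.inj ex
    rw [← this]; exact hx

/-- gluing. -/
theorem dec_glue (s : Setup G₀ H M₁) {G : Subgroup GLM} (hHG : H ≤ G) (hsup : G ≤ G₀ ⊔ H)
    (hH : ∀ u ∈ quadraticElements G, (∀ g ∈ G₀, g * u = u * g) → u ∈ H)
    (hgen : H ≤ Subgroup.closure (quadraticElements G ∩ (H : Set GLM)))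
    {𝒟₀ : Set (Subgroup GLM)} (f₀ : 𝒟₀.Finite) (n₀ : ∀ A ∈ 𝒟₀, A ≤ G₀ ∧ A ≤ G ∧ ∀ g ∈ G, conjBy A g = A)
    (c₀ : ∀ A ∈ 𝒟₀, ∀ B ∈ 𝒟₀, A ≠ B → ⁅A, B⁆ = ⊥) (s₀ : G₀ ≤ sSup 𝒟₀)
    (q₀ : ∀ A ∈ 𝒟₀, IsQuasisimple ↥A ∧ Subgroup.closure (quadraticElements G ∩ (A : Set GLM)) = A)
    (hd : ∀ σ ∈ quadraticElements G, (∃ A ∈ 𝒟₀, σ ∈ A) ∨ σ ∈ H)
    {𝒟₁ : Set (Subgroup (LinearMap.GeneralLinearGroup k ↥M₁))} (h₁ : Dec (res H M₁ s.inv).range 𝒟₁) :
    Dec G (𝒟₀ ∪ Psi H M₁ s.inv '' 𝒟₁) := by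
  obtain ⟨f₁, n₁, c₁, s₁, q₁, d₁⟩ := h₁
  have down : ∀ σ ∈ quadraticElements G, σ ∈ H → ∃ B ∈ 𝒟₁, σ ∈ Psi H M₁ s.inv B := by
    intro σ hσ hσH
    obtain ⟨B, hB, hm⟩ := d₁ _ (quad_down s hH hσH hσ)
    exact ⟨B, hB, ⟨σ, hσH⟩, hm, rfl⟩
  refine ⟨f₀.union (f₁.image _), ?_, ?_, ?_, ?_, ?_⟩
  · rintro A (hA | ⟨B, hB, rfl⟩)
    · exact (n₀ A hA).2
    · refine ⟨Psi_le.trans hHG, fun g hg => ?_⟩
      rw [conjBy_eq_self_iff]
      exact Psi_normalizer s (n₁ B hB).2 (hsup hg)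
  · rintro A (hA | ⟨B, hB, rfl⟩) A' (hA' | ⟨B', hB', rfl⟩) hne
    · exact c₀ A hA A' hA' hne
    · rw [commutator_eq_bot_iff']
      intro a ha b hb
      exact s.comm a ((n₀ A hA).1 ha) b (Psi_le hb)
    · rw [commutator_eq_bot_iff']
      intro a ha b hb
      exact (s.comm b ((n₀ A' hA').1 hb) a (Psi_le ha)).symm
    · have hne' : B ≠ B' := fun h => hne (by rw [h])
      have hc := commutator_eq_bot_iff'.1 (c₁ B hB B' hB' hne')
      rw [commutator_eq_bot_iff']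
      rintro _ ⟨x, hx, rfl⟩ _ ⟨y, hy, rfl⟩
      have : x * y = y * x := s.inj (by rw [map_mul, map_mul]; exact hc _ hx _ hy)
      exact congrArg (fun z : H => (z : GLM)) this
  · apply le_antisymm
    · apply sSup_le
      rintro A (hA | ⟨B, hB, rfl⟩)
      · exact (n₀ A hA).2.1
      · exact Psi_le.trans hHG
    · refine hsup.trans (sup_le (s₀.trans (sSup_le_sSup Set.subset_union_left)) (hgen.trans ?_))
      rw [Subgroup.closure_le]
      rintro σ ⟨hσ, hσH⟩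
      obtain ⟨B, hB, hm⟩ := down σ hσ hσH
      exact (le_sSup (Or.inr ⟨B, hB, rfl⟩) : Psi H M₁ s.inv B ≤ _) hm
  · rintro A (hA | ⟨B, hB, rfl⟩)
    · exact q₀ A hA
    · obtain ⟨e⟩ := Psi_equiv s (n₁ B hB).1
      exact ⟨Cfsg.Agent.Lib.Helper85Transfer.isQuasisimple_of_equiv e (q₁ B hB).1, Psi_closure s hHG (q₁ B hB).2⟩
  · intro σ hσ
    rcases hd σ hσ with ⟨A, hA, hm⟩ | hσH
    · exact ⟨A, Or.inl hA, hm⟩
    · obtain ⟨B, hB, hm⟩ := down σ hσ hσH
      exact ⟨_, Or.inr ⟨B, hB, rfl⟩, hm⟩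

end Cfsg.Agent.Lib.Helper85QN
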