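import Cfsg.Agent.Lib.Helper85QN

/-!
Quadratic pairs: the decomposition into quasisimple components, by induction on the dimension.
-/

set_option linter.unusedSectionVars false

namespace Cfsg.Agent.Lib.Helper85QO

open Cfsg Module Cfsg.Agent.Lib.Helper85QP Cfsg.Agent.Lib.Helper85QS
  Cfsg.Agent.Lib.Helper85QR Cfsg.Agent.Lib.Helper85RankOne Cfsg.Agent.Lib.Helper85Root
  Cfsg.Agent.Lib.Helper85QG Cfsg.Agent.Lib.Helper85QL Cfsg.Agent.Lib.Helper85QN
  Cfsg.Agent.Lib.Helper85QJ Cfsg.Agent.Lib.Helper85QU Cfsg.Agent.Lib.Helper85QY Cfsg.Agent.Lib.Helper85QX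
  Cfsg.Agent.Lib.Helper85Graph

universe u v

variable {k : Type u} [Field k] {M : Type v} [AddCommGroup M] [Module k M] [FiniteDimensional k M]

local notation "GLM" => LinearMap.GeneralLinearGroup k M
local notation "EndM" => (M →ₗ[k] M)

theorem exists_min {G : Subgroup GLM} {σ : GLM} (hσ : σ ∈ quadraticElements G) :
    ∃ τ, τ ∈ minimalQuadraticElements G := by
  have hne : (commutatorRank '' quadraticElements G).Nonempty := ⟨_, σ, hσ, rfl⟩
  obtain ⟨τ, hτ, e⟩ := Nat.sInf_mem hne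
  exact ⟨τ, hτ, fun ρ hρ => by rw [e]; exact Nat.sInf_le ⟨ρ, hρ, rfl⟩⟩

/-- `G₀`. -/
def G0 (G : Subgroup GLM) : Subgroup GLM := ⨆ A ∈ quadraticRootSubgroups G, A

/-- the group generated by the quadratic elements centralizing `G₀`. -/
def Hc (G : Subgroup GLM) : Subgroup GLM :=
  Subgroup.closure {u | u ∈ quadraticElements G ∧ ∀ g ∈ G0 G, g * u = u * g}

theorem Hc_le {G : Subgroup GLM} : Hc G ≤ G := by
  unfold Hc
  rw [Subgroup.closure_le]
  rintro u ⟨hu, -⟩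
  exact hu.1

theorem Hc_comm {G : Subgroup GLM} : ∀ g ∈ G0 G, ∀ h ∈ Hc G, g * h = h * g := by
  have : Hc G ≤ Subgroup.centralizer (G0 G : Set GLM) := by
    unfold Hc
    rw [Subgroup.closure_le]
    rintro u ⟨-, hu⟩
    exact Subgroup.mem_centralizer_iff.2 hu
  intro g hg h hh
  exact Subgroup.mem_centralizer_iff.1 (this hh) g hg

theorem Hc_mem {G : Subgroup GLM} : ∀ u ∈ quadraticElements G, (∀ g ∈ G0 G, g * u = u * g) → u ∈ Hc G :=
  fun _ hu hc => Subgroup.subset_closure ⟨hu, hc⟩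

theorem Hc_gen {G : Subgroup GLM} : Hc G ≤ Subgroup.closure (quadraticElements G ∩ (Hc G : Set GLM)) := by
  conv_lhs => unfold Hc
  apply Subgroup.closure_mono
  rintro u ⟨hu, hc⟩
  exact ⟨hu, Hc_mem u hu hc⟩

theorem dich (hk2 : ringChar k ≠ 2) (hk3 : Nat.card k ≠ 3) {G : Subgroup GLM} (hG : IsQuadraticPair G) :
    ∀ σ ∈ quadraticElements G, (∃ A ∈ quadraticRootSubgroups G, σ ∈ CG G A) ∨ σ ∈ Hc G := by
  intro σ hσ
  obtain ⟨sq, ne, fam⟩ := mem_quad_iff.1 hσ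
  rcases dich_quad hk2 hk3 hG _ _ sq fam le_rfl with hc | ⟨A, hA, hm⟩
  · right
    apply Hc_mem σ hσ
    have := mem_centralizer_of sq hc
    rw [← eq_uof sq] at this
    exact Subgroup.mem_centralizer_iff.1 this
  · left
    rw [← eq_uof sq] at hm
    exact ⟨A, hA, hm⟩

theorem le_sup (hk2 : ringChar k ≠ 2) (hk3 : Nat.card k ≠ 3) {G : Subgroup GLM} (hG : IsQuadraticPair G) :
    G ≤ G0 G ⊔ Hc G := by
  conv_lhs => rw [← hG.2]
  rw [Subgroup.closure_le]
  intro σ hσ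
  rcases dich hk2 hk3 hG σ hσ with ⟨A, -, hm⟩ | h
  · exact (le_sup_left : G0 G ≤ _) (CG_le_G0 hm)
  · exact (le_sup_right : Hc G ≤ _) h

theorem exists_min_inv (H : Subgroup GLM) (hne : ∃ m : M, m ≠ 0) :
    ∃ M₁ : Submodule k M, M₁ ≠ ⊥ ∧ (∀ h ∈ H, ∀ v ∈ M₁, (h : EndM) v ∈ M₁) ∧
      ∀ W : Submodule k M, W ≤ M₁ → (∀ h ∈ H, ∀ v ∈ W, (h : EndM) v ∈ W) → W = ⊥ ∨ W = M₁ := by
  have hn : ((fun W : Submodule k M => finrank k W) ''
      {W : Submodule k M | W ≠ ⊥ ∧ ∀ h ∈ H, ∀ v ∈ W, (h : EndM) v ∈ W}).Nonempty := by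
    refine ⟨_, ⊤, ⟨?_, fun _ _ _ _ => trivial⟩, rfl⟩
    obtain ⟨m, hm⟩ := hne
    intro h
    apply hm
    have : m ∈ (⊤ : Submodule k M) := trivial
    rw [h] at this
    exact this
  obtain ⟨M₁, ⟨h1, h2⟩, e⟩ := Nat.sInf_mem hn
  refine ⟨M₁, h1, h2, fun W hW hinv => ?_⟩
  by_cases hb : W = ⊥
  · exact Or.inl hb
  · right
    apply Submodule.eq_of_le_of_finrank_le hW
    have e' : finrank k M₁ = _ := e
    rw [e']
    exact Nat.sInf_le ⟨W, ⟨hb, hinv⟩, rfl⟩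

theorem span_top {G G₀ H : Subgroup GLM} (hG : IsQuadraticPair G) (hsup : G ≤ G₀ ⊔ H)
    (comm : ∀ g ∈ G₀, ∀ h ∈ H, g * h = h * g) {M₁ : Submodule k M} (hne : M₁ ≠ ⊥)
    (inv : ∀ h ∈ H, ∀ v ∈ M₁, (h : EndM) v ∈ M₁) : (⨆ g : G₀, M₁.map ((g : GLM) : EndM)) = ⊤ := by
  set V : Submodule k M := ⨆ g : G₀, M₁.map ((g : GLM) : EndM) with hV
  have hle : ∀ g ∈ G₀, M₁.map ((g : GLM) : EndM) ≤ V := fun g hg =>
    le_iSup (fun g : G₀ => M₁.map ((g : GLM) : EndM)) ⟨g, hg⟩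
  have i1 : G₀ ≤ stabV V := by
    apply mem_stabV_of
    intro h hh v hv
    have : V.map (h : EndM) ≤ V := by
      rw [hV, Submodule.map_iSup]
      apply iSup_le
      rintro ⟨g, hg⟩
      rw [← Submodule.map_comp]
      exact hle (h * g) (Subgroup.mul_mem _ hh hg)
    exact this ⟨v, hv, rfl⟩
  have i2 : H ≤ stabV V := by
    apply mem_stabV_of
    intro h hh v hv
    have : V.map (h : EndM) ≤ V := by
      rw [hV, Submodule.map_iSup]
      apply iSup_le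
      rintro ⟨g, hg⟩
      refine le_trans ?_ (hle g hg)
      rintro _ ⟨_, ⟨m, hm, rfl⟩, rfl⟩
      have c1 := congrArg Units.val (comm g hg h hh)
      rw [Units.val_mul, Units.val_mul] at c1
      refine ⟨(h : EndM) m, inv h hh m hm, ?_⟩
      show ((g : EndM) * (h : EndM)) m = ((h : EndM) * (g : EndM)) m
      rw [c1]
    exact this ⟨v, hv, rfl⟩
  have inv' : ∀ g ∈ G, ∀ w ∈ V, (g : EndM) w ∈ V := by
    intro g hg w hw
    exact ((sup_le i1 i2 (hsup hg)) w).1 hw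
  rcases hG.1.2 V inv' with hb | ht
  · exfalso
    apply hne
    have := hle 1 (Subgroup.one_mem _)
    rw [hb, le_bot_iff] at this
    rw [eq_bot_iff]
    intro m hm
    have h1 : m ∈ M₁.map (((1 : GLM) : GLM) : EndM) := ⟨m, hm, rfl⟩
    rw [this] at h1
    exact h1
  · exact ht

theorem quadpair_res {G G₀ : Subgroup GLM} {M₁ : Submodule k M} (s : Setup G₀ (Hc G) M₁)
    (hH : ∀ u ∈ quadraticElements G, (∀ g ∈ G₀, g * u = u * g) → u ∈ Hc G) (hne : M₁ ≠ ⊥)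
    (hmin : ∀ W : Submodule k M, W ≤ M₁ → (∀ h ∈ Hc G, ∀ v ∈ W, (h : EndM) v ∈ W) → W = ⊥ ∨ W = M₁) :
    IsQuadraticPair (res (Hc G) M₁ s.inv).range := by
  refine ⟨⟨?_, ?_⟩, ?_⟩
  · obtain ⟨m, hm, h0⟩ := Submodule.exists_mem_ne_zero_of_ne_bot hne
    exact ⟨⟨m, hm⟩, fun h => h0 (congrArg Subtype.val h)⟩
  · intro W hW
    have hinj : Function.Injective (Submodule.map M₁.subtype) :=
      Submodule.map_injective_of_injective M₁.injective_subtype
    have hi : ∀ h ∈ Hc G, ∀ v ∈ W.map M₁.subtype, (h : EndM) v ∈ W.map M₁.subtype := by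
      rintro h hh _ ⟨w, hw, rfl⟩
      exact ⟨_, hW _ ⟨⟨h, hh⟩, rfl⟩ w hw, rfl⟩
    rcases hmin (W.map M₁.subtype) (Submodule.map_subtype_le _ _) hi with h | h
    · left
      apply hinj
      rw [h, Submodule.map_bot]
    · right
      apply hinj
      rw [h, Submodule.map_subtype_top]
  · apply le_antisymm
    · rw [Subgroup.closure_le]
      intro σ hσ
      exact hσ.1
    · have key : ∀ (h : GLM) (hh : h ∈ Hc G), res (Hc G) M₁ s.inv ⟨h, hh⟩ ∈
          Subgroup.closure (quadraticElements (res (Hc G) M₁ s.inv).range) := by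
        intro h hh
        have hh' := hh
        unfold Hc at hh'
        induction hh' using Subgroup.closure_induction with
        | mem σ hσ => exact Subgroup.subset_closure (quad_down s hH hh hσ.1)
        | one =>
          have : (⟨1, hh⟩ : Hc G) = 1 := rfl
          rw [this, map_one]; exact Subgroup.one_mem _
        | mul a b ha hb iha ihb =>
          have ha' : a ∈ Hc G := ha
          have hb' : b ∈ Hc G := hb
          have : (⟨a * b, hh⟩ : Hc G) = ⟨a, ha'⟩ * ⟨b, hb'⟩ := rfl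
          rw [this, map_mul]
          exact Subgroup.mul_mem _ (iha ha') (ihb hb')
        | inv a ha iha =>
          have ha' : a ∈ Hc G := ha
          have : (⟨a⁻¹, hh⟩ : Hc G) = ⟨a, ha'⟩⁻¹ := rfl
          rw [this, map_inv]
          exact Subgroup.inv_mem _ (iha ha')
      rintro _ ⟨⟨h, hh⟩, rfl⟩
      exact key h hh

theorem finrank_lt {G : Subgroup GLM} {X : EndM} (hX : Root G X) {M₁ : Submodule k M}
    (hmin : ∀ W : Submodule k M, W ≤ M₁ → (∀ h ∈ Hc G, ∀ v ∈ W, (h : EndM) v ∈ W) → W = ⊥ ∨ W = M₁) :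
    finrank k M₁ < finrank k M := by
  apply Submodule.finrank_lt
  intro ht
  have hinv : ∀ h ∈ Hc G, ∀ v ∈ LinearMap.ker X, (h : EndM) v ∈ LinearMap.ker X := by
    intro h hh v hv
    have c := comm_val hX.sq (Hc_comm _ (root_mem_G0 hX) h hh).symm
    rw [LinearMap.mem_ker] at hv ⊢
    rw [← Module.End.mul_apply, c, Module.End.mul_apply, hv, map_zero]
  rcases hmin (LinearMap.ker X) (by rw [ht]; exact le_top) hinv with h | h
  · apply hX.ne
    ext m
    have : X m ∈ LinearMap.ker X := by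
      rw [LinearMap.mem_ker, ← Module.End.mul_apply, hX.sq]; rfl
    rw [h] at this
    exact this
  · apply hX.ne
    rw [ht] at h
    exact LinearMap.ker_eq_top.1 h

/-- the components. -/
def D0 (G : Subgroup GLM) : Set (Subgroup GLM) := {Γ | ∃ A ∈ quadraticRootSubgroups G, Γ = CG G A}

theorem D0_finite (hk2 : ringChar k ≠ 2) (hk3 : Nat.card k ≠ 3) {G : Subgroup GLM} (hG : IsQuadraticPair G) :
    (D0 G).Finite := by
  apply ((comps_finite hk2 hk3 hG).image (fun 𝒞 : Set (Subgroup GLM) => ⨆ B ∈ 𝒞, B)).subset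
  rintro _ ⟨A, hA, rfl⟩
  exact ⟨_, ⟨A, hA, rfl⟩, rfl⟩

theorem CG_closure {G A : Subgroup GLM} :
    Subgroup.closure (quadraticElements G ∩ (CG G A : Set GLM)) = CG G A := by
  apply le_antisymm
  · rw [Subgroup.closure_le]
    exact Set.inter_subset_right
  · conv_lhs => unfold CG
    apply iSup₂_le
    intro B hB
    have hle : B ≤ CG G A := cp_le hB
    obtain ⟨σ, hσ, rfl⟩ := hB.1
    conv_lhs => unfold sameActionSubgroup
    rw [Subgroup.closure_le]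
    intro τ hτ
    exact Subgroup.subset_closure ⟨hτ.1.1, hle (Subgroup.subset_closure hτ)⟩

theorem step (hk2 : ringChar k ≠ 2) (hk3 : Nat.card k ≠ 3) {G : Subgroup GLM} (hG : IsQuadraticPair G)
    {σ : GLM} (hσ : σ ∈ quadraticElements G) :
    ∃ (M₁ : Submodule k M) (s : Setup (G0 G) (Hc G) M₁), finrank k M₁ < finrank k M ∧
      IsQuadraticPair (res (Hc G) M₁ s.inv).range ∧
      ∀ 𝒟₁, Dec (res (Hc G) M₁ s.inv).range 𝒟₁ → ∃ 𝒟, Dec G 𝒟 := by
  obtain ⟨τ, hτ⟩ := exists_min hσ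
  have hX := mem_min_iff.1 hτ
  obtain ⟨M₁, hne, hinv, hmin⟩ := exists_min_inv (Hc G) hG.1.1
  have s : Setup (G0 G) (Hc G) M₁ := ⟨Hc_comm, hinv, span_top hG (le_sup hk2 hk3 hG) Hc_comm hne hinv⟩
  refine ⟨M₁, s, finrank_lt hX hmin, quadpair_res s Hc_mem hne hmin, fun 𝒟₁ h₁ => ⟨D0 G ∪ Psi (Hc G) M₁ s.inv '' 𝒟₁, ?_⟩⟩
  apply dec_glue s Hc_le (le_sup hk2 hk3 hG) Hc_mem Hc_gen (D0_finite hk2 hk3 hG) _ _ _ _ _ h₁
  · rintro _ ⟨A, hA, rfl⟩
    exact ⟨CG_le_G0, CG_le, fun g hg => CG_conj hk2 hk3 hG hA hg⟩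
  · rintro _ ⟨A, hA, rfl⟩ _ ⟨B, hB, rfl⟩ hne'
    apply CG_comm hk2 hk3 hG hA hB
    intro hr
    exact hne' (CG_eq_of_rch hr)
  · unfold G0
    apply iSup₂_le
    intro A hA
    exact (self_le_CG hA).trans (le_sSup ⟨A, hA, rfl⟩)
  · rintro _ ⟨A, hA, rfl⟩
    exact ⟨cp_quasisimple hk2 hk3 hG hA, CG_closure⟩
  · intro ρ hρ
    rcases dich hk2 hk3 hG ρ hρ with ⟨A, hA, hm⟩ | h
    · exact Or.inl ⟨_, ⟨A, hA, rfl⟩, hm⟩
    · exact Or.inr h

theorem dec_empty {G : Subgroup GLM} (hG : IsQuadraticPair G) (h : ∀ σ, σ ∉ quadraticElements G) :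
    Dec G ∅ := by
  have hb : G = ⊥ := by
    rw [← hG.2, Subgroup.closure_eq_bot_iff]
    intro σ hσ
    exact absurd hσ (h σ)
  refine ⟨Set.finite_empty, ?_, ?_, ?_, ?_, ?_⟩
  · intro A hA; exact absurd hA (Set.notMem_empty _)
  · intro A hA; exact absurd hA (Set.notMem_empty _)
  · rw [sSup_empty, hb]
  · intro A hA; exact absurd hA (Set.notMem_empty _)
  · intro σ hσ; exact absurd hσ (h σ)

end Cfsg.Agent.Lib.Helper85QO

namespace Cfsg.Agent.Lib.Helper85QO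

open Cfsg Module Cfsg.Agent.Lib.Helper85QN

universe u v

theorem dec_exists {k : Type u} [Field k] (hk2 : ringChar k ≠ 2) (hk3 : Nat.card k ≠ 3) :
    ∀ (n : ℕ) (M : Type v) [AddCommGroup M] [Module k M] [FiniteDimensional k M]
      (G : Subgroup (LinearMap.GeneralLinearGroup k M)), finrank k M ≤ n → IsQuadraticPair G →
        ∃ 𝒟, Dec G 𝒟 := by
  intro n
  induction n with
  | zero =>
    intro M _ _ _ G hn hG
    exfalso
    obtain ⟨m, hm⟩ := hG.1.1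
    have := Module.finrank_zero_iff.1 (Nat.le_zero.1 hn)
    exact hm (Subsingleton.elim _ _)
  | succ n ih =>
    intro M _ _ _ G hn hG
    by_cases h : ∀ σ, σ ∉ quadraticElements G
    · exact ⟨∅, dec_empty hG h⟩
    · push Not at h
      obtain ⟨σ, hσ⟩ := h
      obtain ⟨M₁, s, hlt, hq, hd⟩ := step hk2 hk3 hG hσ
      obtain ⟨𝒟₁, h₁⟩ := ih ↥M₁ _ (by omega) hq
      exact hd 𝒟₁ h₁

end Cfsg.Agent.Lib.Helper85QO
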