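import Cfsg.Agent.Lib.Helper85QI

/-!
Structure of a pair of members of `𝒬_d(G)`.
-/

set_option linter.unusedSectionVars false

namespace Cfsg.Agent.Lib.Helper85QS

open Polynomial Cfsg Module Cfsg.Agent.Lib.Helper85QA Cfsg.Agent.Lib.Helper85QK Cfsg.Agent.Lib.Helper85QP
  Cfsg.Agent.Lib.Helper85QC Cfsg.Agent.Lib.Helper85QI

variable {k : Type*} [Field k] {M : Type*} [AddCommGroup M] [Module k M] [FiniteDimensional k M]

local notation "GLM" => LinearMap.GeneralLinearGroup k M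
local notation "EndM" => (M →ₗ[k] M)

theorem aeval_commN {N N' : EndM} (hN : N * N = 0) (μ : k[X]) :
    aeval (N * N' + N' * N) μ * N = N * aeval (N * N' + N' * N) μ := by
  have := congrArg Subtype.val (aeval_comm (N * N' + N' * N) μ ⟨N, mem_Cen.2 (z_comm hN)⟩)
  rwa [Subalgebra.coe_mul, Subalgebra.coe_mul, aeval_val] at this

theorem aeval_commN' {N N' : EndM} (hN' : N' * N' = 0) (μ : k[X]) :
    aeval (N * N' + N' * N) μ * N' = N' * aeval (N * N' + N' * N) μ := by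
  have := congrArg Subtype.val (aeval_comm (N * N' + N' * N) μ ⟨N', mem_Cen.2 (z_comm' hN')⟩)
  rwa [Subalgebra.coe_mul, Subalgebra.coe_mul, aeval_val] at this

theorem lg_poly (hk2 : ringChar k ≠ 2) (hk3 : Nat.card k ≠ 3) {G : Subgroup GLM} {N N' : EndM}
    (hN : Root G N) (hN' : Root G N') (μ : k[X]) : IsLg G N (aeval (N * N' + N' * N) μ * N) := by
  have hc := aeval_commN (N' := N') hN.sq μ
  apply IsLg.of hN
  · calc _ = aeval (N * N' + N' * N) μ * (N * aeval (N * N' + N' * N) μ) * N := by simp only [mul_assoc]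
      _ = 0 := by rw [← hc, mul_assoc, mul_assoc, hN.sq]; simp
  · exact klc hk2 hk3 le_rfl hN hN' hN.fam hN'.fam μ
  · rw [hc]
    rintro _ ⟨m, rfl⟩
    exact ⟨_, rfl⟩
  · intro m hm
    rw [LinearMap.mem_ker] at hm ⊢
    rw [Module.End.mul_apply, hm, map_zero]

theorem lg_poly' (hk2 : ringChar k ≠ 2) (hk3 : Nat.card k ≠ 3) {G : Subgroup GLM} {N N' : EndM}
    (hN : Root G N) (hN' : Root G N') (μ : k[X]) : IsLg G N' (aeval (N * N' + N' * N) μ * N') := by
  have := lg_poly hk2 hk3 hN' hN μ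
  rwa [add_comm] at this

theorem zn_eq {N N' : EndM} (hN : N * N = 0) : (N * N' + N' * N) * N = N * N' * N := by
  rw [add_mul, mul_assoc N' N N, hN, mul_zero, add_zero]

theorem zn'_eq {N N' : EndM} (hN' : N' * N' = 0) : (N * N' + N' * N) * N' = N' * N * N' := by
  rw [add_mul, mul_assoc N N' N', hN', mul_zero, zero_add]

/-- T2 -/
theorem nn'n_symm (hk2 : ringChar k ≠ 2) {G : Subgroup GLM} {N N' : EndM}
    (hN : Root G N) (hN' : Root G N') (h : N * N' * N = 0) : N' * N * N' = 0 := by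
  have z1 : (N * N' + N' * N) * N = 0 := by rw [zn_eq hN.sq, h]
  have zz : (N * N' + N' * N) ^ 2 = 0 := by
    have : (N * N' + N' * N) ^ 2 = ((N * N' + N' * N) * N) * N' + N' * ((N * N' + N' * N) * N) := by
      rw [pow_two]
      conv_lhs => rw [mul_add, ← mul_assoc, ← mul_assoc, z_comm' hN'.sq]
      simp only [mul_assoc]
    rw [this, z1]; simp
  rw [← zn'_eq hN'.sq]
  exact (nilc hk2 hN hN' zz).2

/-- T1, one half -/
theorem dich_half (hk2 : ringChar k ≠ 2) (hk3 : Nat.card k ≠ 3) {G : Subgroup GLM} {N N' : EndM}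
    (hN : Root G N) (hN' : Root G N') (h : N * N' * N ≠ 0) : LinearMap.range N ⊓ LinearMap.ker N' = ⊥ := by
  have l := lg_poly hk2 hk3 hN hN' X
  rw [aeval_X, zn_eq hN.sq] at l
  rcases l with l | ⟨l, -, -⟩
  · exact absurd l h
  have hr := hN.le_rank l.sq l.ne l.fam
  rw [eq_bot_iff]
  rintro v ⟨hv1, hv2⟩
  rw [Submodule.mem_bot]
  apply inj_on_range (A := N * N') hr hv1
  rw [Module.End.mul_apply, LinearMap.mem_ker.1 hv2, map_zero]

theorem dich (hk2 : ringChar k ≠ 2) (hk3 : Nat.card k ≠ 3) {G : Subgroup GLM} {N N' : EndM}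
    (hN : Root G N) (hN' : Root G N') :
    N * N' * N = 0 ∨ (LinearMap.range N ⊓ LinearMap.ker N' = ⊥ ∧ LinearMap.range N' ⊓ LinearMap.ker N = ⊥) := by
  by_cases h : N * N' * N = 0
  · exact Or.inl h
  · right
    refine ⟨dich_half hk2 hk3 hN hN' h, dich_half hk2 hk3 hN' hN ?_⟩
    intro h0
    exact h (nn'n_symm hk2 hN' hN h0)

/-- the two types exclude each other. -/
theorem type_excl {N N' : EndM} (hne : N ≠ 0) (h : N * N' * N = 0)
    (d1 : LinearMap.range N ⊓ LinearMap.ker N' = ⊥) (d2 : LinearMap.range N' ⊓ LinearMap.ker N = ⊥) : False := by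
  apply hne
  ext m
  have h1 : N' (N m) ∈ LinearMap.range N' ⊓ LinearMap.ker N := by
    refine ⟨⟨_, rfl⟩, ?_⟩
    exact LinearMap.mem_ker.2 (LinearMap.congr_fun h m)
  rw [d2, Submodule.mem_bot] at h1
  have h2 : N m ∈ LinearMap.range N ⊓ LinearMap.ker N' := ⟨⟨_, rfl⟩, h1⟩
  rw [d1, Submodule.mem_bot] at h2
  exact h2

/-- T4: the inverse. -/
theorem exists_sharp (hk2 : ringChar k ≠ 2) (hk3 : Nat.card k ≠ 3) {G : Subgroup GLM} {N N' : EndM}
    (hN : Root G N) (hN' : Root G N') (h : N * N' * N ≠ 0) :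
    ∃ Y : EndM, IsLg G N' Y ∧ N * Y * N = N ∧ Y * N * Y = Y := by
  have h2 : (2 : k) ≠ 0 := Ring.two_ne_zero hk2
  have c := mkCtx le_rfl hN hN' hN.fam hN'.fam
  set Z := N * N' + N' * N with hZ
  have kl₁ := fun μ => kl h2 hk3 (fin_Cen _) c (LinearMap.charpoly_monic _) (charpoly_kill _) μ
  have kl₂ := fun μ => kl h2 hk3 (fin_Cen _) c.symm (LinearMap.charpoly_monic _) (charpoly_kill _) μ
  obtain ⟨ω, e1, e2⟩ := inv_pair h2 c kl₁ kl₂ (LinearMap.charpoly_monic Z) (charpoly_kill _) (by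
    intro h0
    have := congrArg Subtype.val h0
    rw [smul_val, aeval_X] at this
    apply h
    rw [← zn_eq hN.sq]; exact this)
  have f1 : aeval Z ω * (Z * N) = N := by
    have := congrArg Subtype.val e1
    rwa [smul_val, map_mul, aeval_X, mul_assoc] at this
  have f2 : aeval Z ω * (Z * N') = N' := by
    have := congrArg Subtype.val e2
    rwa [smul_val, map_mul, aeval_X, mul_assoc] at this
  have cN := aeval_commN (N' := N') hN.sq ω
  have cN' := aeval_commN' (N := N) hN'.sq ω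
  rw [← hZ] at cN cN'
  refine ⟨aeval Z ω * N', lg_poly' hk2 hk3 hN hN' ω, ?_, ?_⟩
  · calc N * (aeval Z ω * N') * N = (N * aeval Z ω) * N' * N := by simp only [mul_assoc]
      _ = aeval Z ω * (N * N' * N) := by rw [← cN]; simp only [mul_assoc]
      _ = N := by rw [← zn_eq hN.sq, ← hZ, f1]
  · calc aeval Z ω * N' * N * (aeval Z ω * N') = aeval Z ω * N' * (N * aeval Z ω) * N' := by simp only [mul_assoc]
      _ = aeval Z ω * (N' * aeval Z ω) * N * N' := by rw [← cN]; simp only [mul_assoc]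
      _ = aeval Z ω * (aeval Z ω * (N' * N * N')) := by rw [← cN']; simp only [mul_assoc]
      _ = aeval Z ω * N' := by rw [← zn'_eq hN'.sq, ← hZ, f2]

/-! ### conjugation -/

theorem conj_sub (g u : GLM) : ((g * u * g⁻¹ : GLM) : EndM) - 1 = (g : EndM) * ((u : EndM) - 1) * ((g⁻¹ : GLM) : EndM) := by
  rw [Units.val_mul, Units.val_mul, mul_sub, sub_mul, mul_one, Units.mul_inv]

theorem g_inv_apply (g : GLM) (m : M) : ((g⁻¹ : GLM) : EndM) ((g : EndM) m) = m := by
  rw [← Module.End.mul_apply, Units.inv_mul]; rfl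

theorem g_apply_inv (g : GLM) (m : M) : (g : EndM) (((g⁻¹ : GLM) : EndM) m) = m := by
  rw [← Module.End.mul_apply, Units.mul_inv]; rfl

theorem mem_ker_conj (g : GLM) (Y : EndM) (m : M) :
    m ∈ LinearMap.ker ((g : EndM) * Y * ((g⁻¹ : GLM) : EndM)) ↔ ((g⁻¹ : GLM) : EndM) m ∈ LinearMap.ker Y := by
  rw [LinearMap.mem_ker, LinearMap.mem_ker, Module.End.mul_apply, Module.End.mul_apply]
  constructor
  · intro h
    have := congrArg ((g⁻¹ : GLM) : EndM) h
    rwa [g_inv_apply, map_zero] at this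
  · intro h; rw [h, map_zero]

theorem mem_range_conj (g : GLM) (Y : EndM) (m : M) :
    m ∈ LinearMap.range ((g : EndM) * Y * ((g⁻¹ : GLM) : EndM)) ↔ ((g⁻¹ : GLM) : EndM) m ∈ LinearMap.range Y := by
  constructor
  · rintro ⟨a, rfl⟩
    rw [Module.End.mul_apply, Module.End.mul_apply, g_inv_apply]
    exact ⟨_, rfl⟩
  · rintro ⟨a, ha⟩
    refine ⟨(g : EndM) a, ?_⟩
    rw [Module.End.mul_apply, Module.End.mul_apply, g_inv_apply, ha, g_apply_inv]

theorem finrank_range_conj (g : GLM) (Y : EndM) :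
    finrank k (LinearMap.range ((g : EndM) * Y * ((g⁻¹ : GLM) : EndM))) = finrank k (LinearMap.range Y) := by
  have : LinearMap.range ((g : EndM) * Y * ((g⁻¹ : GLM) : EndM)) =
      (LinearMap.range Y).map ((LinearMap.GeneralLinearGroup.generalLinearEquiv k M g) : M ≃ₗ[k] M).toLinearMap := by
    ext m
    rw [mem_range_conj]
    constructor
    · intro h
      exact ⟨_, h, g_apply_inv g m⟩
    · rintro ⟨a, ha, rfl⟩
      have : ((g⁻¹ : GLM) : EndM) ((g : EndM) a) ∈ LinearMap.range Y := by rw [g_inv_apply]; exact ha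
      exact this
  rw [this]
  exact LinearEquiv.finrank_map_eq _ _

theorem Root.conj {G : Subgroup GLM} {Y : EndM} (h : Root G Y) {g : GLM} (hg : g ∈ G) :
    Root G ((g : EndM) * Y * ((g⁻¹ : GLM) : EndM)) := by
  refine ⟨?_, ?_, h.fam.conj hg, ?_⟩
  · have e : (g : EndM) * Y * ((g⁻¹ : GLM) : EndM) * ((g : EndM) * Y * ((g⁻¹ : GLM) : EndM)) =
        (g : EndM) * Y * (((g⁻¹ : GLM) : EndM) * (g : EndM)) * Y * ((g⁻¹ : GLM) : EndM) := by
      simp only [mul_assoc]
    rw [e, Units.inv_mul, mul_one, mul_assoc (g : EndM), h.sq]; simp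
  · intro h0
    apply h.ne
    calc Y = (((g⁻¹ : GLM) : EndM) * (g : EndM)) * Y * (((g⁻¹ : GLM) : EndM) * (g : EndM)) := by
          rw [Units.inv_mul]; simp
      _ = ((g⁻¹ : GLM) : EndM) * ((g : EndM) * Y * ((g⁻¹ : GLM) : EndM)) * (g : EndM) := by simp only [mul_assoc]
      _ = 0 := by rw [h0]; simp
  · rw [finrank_range_conj]; exact h.min

theorem IsLg.conj {G : Subgroup GLM} {N Y : EndM} (h : IsLg G N Y) {g : GLM} (hg : g ∈ G) :
    IsLg G ((g : EndM) * N * ((g⁻¹ : GLM) : EndM)) ((g : EndM) * Y * ((g⁻¹ : GLM) : EndM)) := by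
  rcases h with rfl | ⟨h1, h2, h3⟩
  · left; simp
  · right
    refine ⟨Root.conj h1 hg, ?_, ?_⟩
    · ext m; rw [mem_ker_conj, mem_ker_conj, h2]
    · ext m; rw [mem_range_conj, mem_range_conj, h3]

theorem conj_mem_min {G : Subgroup GLM} {σ g : GLM} (hσ : σ ∈ minimalQuadraticElements G) (hg : g ∈ G) :
    g * σ * g⁻¹ ∈ minimalQuadraticElements G := by
  rw [mem_min_iff, conj_sub]
  exact Root.conj (mem_min_iff.1 hσ) hg

/-- C2 -/
theorem conjBy_E {G : Subgroup GLM} {σ g : GLM} (hσ : σ ∈ minimalQuadraticElements G) (hg : g ∈ G) :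
    conjBy (sameActionSubgroup G σ) g = sameActionSubgroup G (g * σ * g⁻¹) := by
  ext u
  rw [mem_E_iff (conj_mem_min hσ hg), conj_sub]
  constructor
  · rintro ⟨v, hv, rfl⟩
    have := (mem_E_iff hσ).1 hv
    have e : (MulAut.conj g).toMonoidHom v = g * v * g⁻¹ := rfl
    rw [e, conj_sub]
    exact IsLg.conj this hg
  · intro h
    refine ⟨g⁻¹ * u * g, ?_, ?_⟩
    · rw [SetLike.mem_coe, mem_E_iff hσ]
      have := IsLg.conj h (G.inv_mem hg)
      have e1 : ((g⁻¹ * u * g : GLM) : EndM) - 1 = ((g⁻¹ : GLM) : EndM) * ((u : EndM) - 1) * (((g⁻¹)⁻¹ : GLM) : EndM) := by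
        rw [← conj_sub, inv_inv]
      have e2 : ((g⁻¹ : GLM) : EndM) * ((g : EndM) * ((σ : EndM) - 1) * ((g⁻¹ : GLM) : EndM)) * (((g⁻¹)⁻¹ : GLM) : EndM) =
          (σ : EndM) - 1 := by
        rw [inv_inv]
        calc _ = (((g⁻¹ : GLM) : EndM) * (g : EndM)) * ((σ : EndM) - 1) * (((g⁻¹ : GLM) : EndM) * (g : EndM)) := by
              simp only [mul_assoc]
          _ = _ := by rw [Units.inv_mul]; simp
      rw [e2] at this
      rw [e1]; exact this
    · show g * (g⁻¹ * u * g) * g⁻¹ = u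
      group

/-- C1 -/
theorem E_eq_of_mem {G : Subgroup GLM} {σ ρ : GLM} (hσ : σ ∈ minimalQuadraticElements G)
    (hρ : ρ ∈ sameActionSubgroup G σ) (h1 : ρ ≠ 1) :
    ρ ∈ minimalQuadraticElements G ∧ sameActionSubgroup G ρ = sameActionSubgroup G σ := by
  have h := (mem_E_iff hσ).1 hρ
  rcases h with h | ⟨a, b, c⟩
  · exact absurd (Units.ext (by rw [Units.val_one]; exact sub_eq_zero.1 h)) h1
  · have hm : ρ ∈ minimalQuadraticElements G := mem_min_iff.2 a
    refine ⟨hm, ?_⟩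
    ext u
    rw [mem_E_iff hm, mem_E_iff hσ]
    unfold IsLg
    rw [b, c]

end Cfsg.Agent.Lib.Helper85QS
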