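import Cfsg.Agent.Lib.Helper85QV
import Cfsg.Agent.Lib.Helper85BA
import Cfsg.Agent.Lib.Helper85RankOne

/-!
Quadratic pairs: existence of partners, dimensions of the root subgroups.
-/

set_option linter.unusedSectionVars false

namespace Cfsg.Agent.Lib.Helper85QT

open Polynomial Cfsg Module Cfsg.Agent.Lib.Helper85QP Cfsg.Agent.Lib.Helper85QI Cfsg.Agent.Lib.Helper85QS
  Cfsg.Agent.Lib.Helper85QR Cfsg.Agent.Lib.Helper85QV Cfsg.Agent.Lib.Helper85BA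

variable {k : Type*} [Field k] {M : Type*} [AddCommGroup M] [Module k M] [FiniteDimensional k M]

local notation "GLM" => LinearMap.GeneralLinearGroup k M
local notation "EndM" => (M →ₗ[k] M)

theorem exists_fixed {n : Submodule k EndM} (hn : Nil n) (hM : ∃ m : M, m ≠ 0) :
    ∃ m : M, m ≠ 0 ∧ ∀ x ∈ n, x m = 0 := by
  obtain ⟨i, hi⟩ := hn
  induction i with
  | zero =>
    exfalso
    obtain ⟨m, hm⟩ := hM
    apply hm
    have h1 : (1 : EndM) ∈ (n ^ 0 : Submodule k EndM) := by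
      rw [pow_zero]; exact Submodule.one_le.1 le_rfl
    rw [hi, Submodule.mem_bot] at h1
    have := LinearMap.congr_fun h1 m
    simpa using this
  | succ i ih =>
    by_cases h : n ^ i = ⊥
    · exact ih h
    · obtain ⟨y, hy, hy0⟩ := Submodule.exists_mem_ne_zero_of_ne_bot h
      obtain ⟨m', hm'⟩ : ∃ m', y m' ≠ 0 := by
        by_contra hc
        push Not at hc
        exact hy0 (LinearMap.ext hc)
      refine ⟨y m', hm', fun x hx => ?_⟩
      have : x * y ∈ n ^ (i + 1) := by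
        rw [pow_succ']; exact Submodule.mul_mem_mul hx hy
      rw [hi, Submodule.mem_bot] at this
      exact LinearMap.congr_fun this m'

theorem exists_partner (hk2 : ringChar k ≠ 2) (hk3 : Nat.card k ≠ 3) {G : Subgroup GLM}
    (hG : IsQuadraticPair G) {N : EndM} (hN : Root G N) :
    ∃ t ∈ G, N * ((t : EndM) * N * ((t⁻¹ : GLM) : EndM)) * N ≠ 0 := by
  by_contra hcon
  push Not at hcon
  have hσ := hN.uof_mem
  obtain ⟨σ, hσd⟩ : ∃ σ, σ = uof N hN.sq := ⟨_, rfl⟩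
  rw [← hσd] at hσ
  have hσN : (σ : EndM) - 1 = N := by rw [hσd, uof_sub]
  obtain ⟨W, hW⟩ : ∃ W : Set (Subgroup GLM), W = {A | ∃ g ∈ G, A = conjBy (sameActionSubgroup G σ) g} := ⟨_, rfl⟩
  have hWG : ∀ A ∈ W, A ≤ G := by
    rw [hW]
    rintro _ ⟨g, hg, rfl⟩
    exact Helper85RankOne.conjBy_le_of_le (E_le hσ) hg
  have hWconj : ∀ A ∈ W, ∀ g ∈ G, conjBy A g ∈ W := by
    rw [hW]
    rintro _ ⟨g, hg, rfl⟩ h hh
    exact ⟨h * g, G.mul_mem hh hg, Helper85RankOne.conjBy_conjBy _ _ _⟩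
  have hWW : ∀ A ∈ W, ∀ B ∈ W, IsUnipotentOn (A ⊔ B) := by
    rw [hW]
    rintro _ ⟨g, hg, rfl⟩ _ ⟨h, hh, rfl⟩
    rw [conjBy_E hσ hg, conjBy_E hσ hh]
    apply unip_case hk2 hk3 (conj_mem_min hσ hg) (conj_mem_min hσ hh)
    rw [conj_sub, conj_sub, hσN]
    have := hcon (g⁻¹ * h) (G.mul_mem (G.inv_mem hg) hh)
    rw [mul_inv_rev, inv_inv, Units.val_mul, Units.val_mul] at this
    calc (g : EndM) * N * ((g⁻¹ : GLM) : EndM) * ((h : EndM) * N * ((h⁻¹ : GLM) : EndM)) *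
          ((g : EndM) * N * ((g⁻¹ : GLM) : EndM))
        = (g : EndM) * (N * (((g⁻¹ : GLM) : EndM) * (h : EndM) * N * (((h⁻¹ : GLM) : EndM) * (g : EndM))) * N) *
          ((g⁻¹ : GLM) : EndM) := by noncomm_ring
      _ = 0 := by rw [this]; simp
  have hU := baer hWG hWW hWconj
  have hUc : ∀ g ∈ G, conjBy (⨆ A ∈ W, A) g = ⨆ A ∈ W, A := fun g hg => conj_iSup hWconj hg
  obtain ⟨U, hUd⟩ : ∃ U : Subgroup GLM, U = ⨆ A ∈ W, A := ⟨_, rfl⟩
  rw [← hUd] at hU hUc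
  obtain ⟨m₀, hm₀, hfix⟩ := exists_fixed (unip_iff.1 hU) hG.1.1
  let V : Submodule k M :=
    { carrier := {m | ∀ u ∈ U, (u : EndM) m = m}
      add_mem' := by
        intro a b ha hb u hu
        rw [map_add, ha u hu, hb u hu]
      zero_mem' := by intro u _; simp
      smul_mem' := by
        intro c a ha u hu
        rw [map_smul, ha u hu] }
  have hVinv : ∀ g ∈ G, ∀ w ∈ V, (g : EndM) w ∈ V := by
    intro g hg w hw u hu
    have h1 : g⁻¹ * u * g ∈ U := by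
      have := hUc g⁻¹ (G.inv_mem hg)
      rw [← this]
      exact ⟨u, hu, by simp⟩
    have h2 := hw _ h1
    rw [Units.val_mul, Units.val_mul, Module.End.mul_apply, Module.End.mul_apply] at h2
    have h3 := congrArg (g : EndM) h2
    rwa [g_apply_inv] at h3
  rcases hG.1.2 V hVinv with h | h
  · apply hm₀
    have : m₀ ∈ V := by
      intro u hu
      have := hfix _ (mem_lg hu)
      simpa [sub_eq_zero] using this
    rw [h, Submodule.mem_bot] at this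
    exact this
  · apply hN.ne
    ext m
    have hm : m ∈ V := by rw [h]; trivial
    have hσU : σ ∈ U := by
      rw [hUd]
      have : sameActionSubgroup G σ ∈ W := by
        rw [hW]
        exact ⟨1, G.one_mem, (Helper85RankOne.conjBy_of_mem (Subgroup.one_mem _)).symm⟩
      exact (le_iSup₂_of_le _ this le_rfl : sameActionSubgroup G σ ≤ _) (self_mem_E hσ)
    have := hm σ hσU
    rw [← hσN]
    simp [this]

/-- the logarithms of `E(1+N)` as a subspace. -/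
def Ls (G : Subgroup GLM) (N : EndM) : Submodule k EndM := Submodule.span k {Y | IsLg G N Y}

theorem mem_Ls {G : Subgroup GLM} {N Y : EndM} (hN : Root G N) : Y ∈ Ls G N ↔ IsLg G N Y := by
  constructor
  · intro h
    induction h using Submodule.span_induction with
    | mem x hx => exact hx
    | zero => exact Or.inl rfl
    | add x y _ _ hx hy => exact hx.add hN hy
    | smul c x _ hx => exact hx.smul hN c
  · intro h; exact Submodule.subset_span h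

theorem isLg_congr {G : Subgroup GLM} {N N₂ : EndM} (h : IsLg G N N₂) (h0 : N₂ ≠ 0) (Y : EndM) :
    IsLg G N₂ Y ↔ IsLg G N Y := by
  rcases h with h | ⟨_, h1, h2⟩
  · exact absurd h h0
  · unfold IsLg
    rw [h1, h2]

theorem Ls_eq {G : Subgroup GLM} {N N₂ : EndM} (h : IsLg G N N₂) (h0 : N₂ ≠ 0) : Ls G N₂ = Ls G N := by
  unfold Ls
  congr 1
  ext Y
  exact isLg_congr h h0 Y

theorem IsLg.root {G : Subgroup GLM} {N N₂ : EndM} (h : IsLg G N N₂) (h0 : N₂ ≠ 0) : Root G N₂ := by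
  rcases h with h | ⟨h, _, _⟩
  · exact absurd h h0
  · exact h

theorem restrict_tool (φ : EndM →ₗ[k] EndM) (S T : Submodule k EndM) (h : ∀ x ∈ S, φ x ∈ T)
    (inj : ∀ x ∈ S, φ x = 0 → x = 0) :
    finrank k S ≤ finrank k T ∧ (finrank k T ≤ finrank k S → ∀ y ∈ T, ∃ x ∈ S, φ x = y) := by
  have hinj : Function.Injective (φ.restrict h) := by
    rw [← LinearMap.ker_eq_bot, LinearMap.ker_eq_bot']
    rintro ⟨x, hx⟩ hx0
    have := congrArg Subtype.val hx0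
    exact Subtype.ext (inj x hx this)
  have hle := LinearMap.finrank_le_finrank_of_injective hinj
  refine ⟨hle, fun hge y hy => ?_⟩
  have hs := (LinearMap.injective_iff_surjective_of_finrank_eq_finrank (le_antisymm hle hge)).1 hinj
  obtain ⟨⟨x, hx⟩, e⟩ := hs ⟨y, hy⟩
  exact ⟨x, hx, congrArg Subtype.val e⟩

theorem finrank_Ls_conj_le {G : Subgroup GLM} {N : EndM} (hN : Root G N) {g : GLM} (hg : g ∈ G) :
    finrank k (Ls G N) ≤ finrank k (Ls G ((g : EndM) * N * ((g⁻¹ : GLM) : EndM))) := by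
  refine (restrict_tool (LinearMap.mulLeft k (g : EndM) ∘ₗ LinearMap.mulRight k ((g⁻¹ : GLM) : EndM)) _ _ ?_ ?_).1
  · intro Y hY
    rw [mem_Ls (Root.conj hN hg)]
    have := IsLg.conj ((mem_Ls hN).1 hY) hg
    simpa [mul_assoc] using this
  · intro Y _ h0
    have h1 : (g : EndM) * (Y * ((g⁻¹ : GLM) : EndM)) = 0 := by simpa using h0
    have h2 : Y = ((g⁻¹ : GLM) : EndM) * ((g : EndM) * (Y * ((g⁻¹ : GLM) : EndM))) * (g : EndM) := by
      have a1 : ((g⁻¹ : GLM) : EndM) * (g : EndM) = 1 := Units.inv_mul g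
      calc Y = (((g⁻¹ : GLM) : EndM) * (g : EndM)) * Y * (((g⁻¹ : GLM) : EndM) * (g : EndM)) := by rw [a1]; simp
        _ = _ := by noncomm_ring
    rw [h2, h1]; simp

theorem finrank_Ls_conj {G : Subgroup GLM} {N : EndM} (hN : Root G N) {g : GLM} (hg : g ∈ G) :
    finrank k (Ls G ((g : EndM) * N * ((g⁻¹ : GLM) : EndM))) = finrank k (Ls G N) := by
  apply le_antisymm _ (finrank_Ls_conj_le hN hg)
  have := finrank_Ls_conj_le (Root.conj hN hg) (G.inv_mem hg)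
  have e : ((g⁻¹ : GLM) : EndM) * ((g : EndM) * N * ((g⁻¹ : GLM) : EndM)) * (((g⁻¹)⁻¹ : GLM) : EndM) = N := by
    rw [inv_inv]
    have a1 : ((g⁻¹ : GLM) : EndM) * (g : EndM) = 1 := Units.inv_mul g
    calc ((g⁻¹ : GLM) : EndM) * ((g : EndM) * N * ((g⁻¹ : GLM) : EndM)) * (g : EndM)
        = (((g⁻¹ : GLM) : EndM) * (g : EndM)) * N * (((g⁻¹ : GLM) : EndM) * (g : EndM)) := by noncomm_ring
      _ = N := by rw [a1]; simp
  rwa [e] at this

/-- conjugation by `1 + X`. -/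
theorem finrank_Ls_conj' {G : Subgroup GLM} {N X : EndM} (hN : Root G N) (hX : X * X = 0) (hXG : InG G X) :
    Root G ((1 - X) * N * (1 + X)) ∧ finrank k (Ls G ((1 - X) * N * (1 + X))) = finrank k (Ls G N) := by
  have hg : (uof X hX)⁻¹ ∈ G := G.inv_mem (hXG.mem (uof_val X hX))
  have h1 := Root.conj hN hg
  have h2 := finrank_Ls_conj hN hg
  rw [inv_inv, uof_inv_val, uof_val] at h1 h2
  exact ⟨h1, h2⟩

theorem finrank_Ls_pair (hk2 : ringChar k ≠ 2) (hk3 : Nat.card k ≠ 3) {G : Subgroup GLM} {N N' : EndM}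
    (hN : Root G N) (hN' : Root G N') (h : N * N' * N ≠ 0) : finrank k (Ls G N) = finrank k (Ls G N') := by
  obtain ⟨Y, hY, h1, h2⟩ := exists_sharp hk2 hk3 hN hN' h
  have hY0 : Y ≠ 0 := by
    rintro rfl
    apply hN.ne
    rw [← h1]; simp
  have hYr := IsLg.root hY hY0
  have hnY : IsLg G N' (-Y) := hY.neg hN'
  have hnY0 : -Y ≠ 0 := neg_ne_zero.2 hY0
  have hnYr := IsLg.root hnY hnY0
  obtain ⟨_, e1⟩ := finrank_Ls_conj' hN hYr.sq hYr.fam
  obtain ⟨_, e2⟩ := finrank_Ls_conj' hnYr hN.sq hN.fam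
  have e : (1 - Y) * N * (1 + Y) = (1 - N) * (-Y) * (1 + N) := by
    have a1 : (1 - Y) * N * (1 + Y) = N + N * Y - Y * N - Y * N * Y := by noncomm_ring
    have a2 : (1 - N) * (-Y) * (1 + N) = -Y + N * Y - Y * N + N * Y * N := by noncomm_ring
    rw [a1, a2, h1, h2]; abel
  rw [← e1, e, e2, Ls_eq hnY hnY0]

theorem UP.le_ker {G : Subgroup GLM} {N N' : EndM} (h : UP G N N') {X Y : EndM} (hX : IsLg G N X)
    (hY : IsLg G N' Y) :
    (LinearMap.ker N ⊓ LinearMap.ker N') ⊔ (LinearMap.range N ⊔ LinearMap.range N') ≤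
      LinearMap.ker (X * Y - Y * X) := by
  refine sup_le ?_ (sup_le ?_ ?_)
  · rintro m ⟨h1, h2⟩
    rw [LinearMap.mem_ker, LinearMap.sub_apply, Module.End.mul_apply, Module.End.mul_apply,
      LinearMap.mem_ker.1 (hX.ker_le h1), LinearMap.mem_ker.1 (hY.ker_le h2)]
    simp
  · intro m hm
    rw [LinearMap.mem_ker, LinearMap.sub_apply, Module.End.mul_apply, Module.End.mul_apply,
      LinearMap.mem_ker.1 (hX.ker_le (range_le_ker h.hN.sq hm)),
      LinearMap.mem_ker.1 (hX.ker_le (h.m2 Y hY m hm))]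
    simp
  · intro m hm
    rw [LinearMap.mem_ker, LinearMap.sub_apply, Module.End.mul_apply, Module.End.mul_apply,
      LinearMap.mem_ker.1 (hY.ker_le (range_le_ker h.hN'.sq hm)),
      LinearMap.mem_ker.1 (hY.ker_le (h.m1 X hX m hm))]
    simp

theorem UP.ker_eq {G : Subgroup GLM} {N N' : EndM} (h : UP G N N') {X Y : EndM} (hX : IsLg G N X)
    (hY : IsLg G N' Y) (hne : X * Y - Y * X ≠ 0) :
    LinearMap.ker (X * Y - Y * X) =
      (LinearMap.ker N ⊓ LinearMap.ker N') ⊔ (LinearMap.range N ⊔ LinearMap.range N') := by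
  obtain ⟨hν, hr, hII, _⟩ := h.nu_main hX hY hne
  symm
  apply Submodule.eq_of_le_of_finrank_le (UP.le_ker h hX hY)
  have r1 := h.hN.le_rank hν.sq hν.ne hν.fam
  have r2 := hν.le_rank h.hN.sq h.hN.ne h.hN.fam
  have r3 := h.finrank_eq
  have k1 := LinearMap.finrank_range_add_finrank_ker N
  have k2 := LinearMap.finrank_range_add_finrank_ker N'
  have k3 := LinearMap.finrank_range_add_finrank_ker (X * Y - Y * X)
  have s1 := Submodule.finrank_sup_add_finrank_inf_eq (LinearMap.ker N) (LinearMap.ker N')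
  have s1' := Submodule.finrank_le (LinearMap.ker N ⊔ LinearMap.ker N')
  have s2 := Submodule.finrank_sup_add_finrank_inf_eq (LinearMap.range N) (LinearMap.range N')
  rw [hII, finrank_bot] at s2
  have s3 := Submodule.finrank_sup_add_finrank_inf_eq (LinearMap.ker N ⊓ LinearMap.ker N')
    (LinearMap.range N ⊔ LinearMap.range N')
  have s4 : finrank k ((LinearMap.ker N ⊓ LinearMap.ker N') ⊓ (LinearMap.range N ⊔ LinearMap.range N') :
      Submodule k M) ≤ finrank k (LinearMap.range (X * Y - Y * X)) := by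
    apply Submodule.finrank_mono
    rw [hr]
    rintro m ⟨⟨h1, h2⟩, h3⟩
    obtain ⟨i, hi, i', hi', rfl⟩ := Submodule.mem_sup.1 h3
    replace h1 : N (i + i') = 0 := h1
    replace h2 : N' (i + i') = 0 := h2
    rw [map_add, LinearMap.mem_ker.1 (range_le_ker h.hN.sq hi), zero_add] at h1
    rw [map_add, LinearMap.mem_ker.1 (range_le_ker h.hN'.sq hi'), add_zero] at h2
    exact Submodule.add_mem _ (Submodule.mem_sup_left ⟨hi, h2⟩) (Submodule.mem_sup_right ⟨hi', h1⟩)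
  omega

theorem UP.nu_lg {G : Subgroup GLM} {N N' : EndM} (h : UP G N N') {X₀ Y₀ : EndM} (hX₀ : IsLg G N X₀)
    (hY₀ : IsLg G N' Y₀) (hne₀ : X₀ * Y₀ - Y₀ * X₀ ≠ 0) {X Y : EndM} (hX : IsLg G N X)
    (hY : IsLg G N' Y) : IsLg G (X₀ * Y₀ - Y₀ * X₀) (X * Y - Y * X) := by
  by_cases hne : X * Y - Y * X = 0
  · exact Or.inl hne
  · right
    refine ⟨(h.nu_main hX hY hne).1, ?_, ?_⟩
    · rw [UP.ker_eq h hX hY hne, UP.ker_eq h hX₀ hY₀ hne₀]
    · rw [(h.nu_main hX hY hne).2.1, (h.nu_main hX₀ hY₀ hne₀).2.1]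

theorem IsLg.data {G : Subgroup GLM} {A T : EndM} (hT : IsLg G A T) (h0 : T ≠ 0) :
    LinearMap.ker T = LinearMap.ker A ∧ LinearMap.range T = LinearMap.range A := by
  rcases hT with h | ⟨_, a, b⟩
  · exact absurd h h0
  · exact ⟨a, b⟩

theorem UP.nu_ne {G : Subgroup GLM} {N N' : EndM} (up : UP G N N') {X₂ Y₂ : EndM} (hX₂ : IsLg G N X₂)
    (hY₂ : IsLg G N' Y₂) (hne : X₂ * Y₂ - Y₂ * X₂ ≠ 0) {X Y : EndM} (hX : IsLg G N X) (hX0 : X ≠ 0)
    (hY : IsLg G N' Y) (hY0 : Y ≠ 0) : X * Y - Y * X ≠ 0 := by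
  intro hc
  rw [sub_eq_zero] at hc
  obtain ⟨-, -, hII, hab⟩ := up.nu_main hX₂ hY₂ hne
  obtain ⟨hXk, hXr⟩ := IsLg.data hX hX0
  obtain ⟨hYk, hYr⟩ := IsLg.data hY hY0
  have hz : X * Y = 0 := by
    ext m
    have : (X * Y) m ∈ LinearMap.range N ⊓ LinearMap.range N' := by
      refine ⟨hX.range_le ⟨Y m, rfl⟩, ?_⟩
      rw [hc]
      exact hY.range_le ⟨X m, rfl⟩
    rw [hII, Submodule.mem_bot] at this
    exact this
  have i1 : LinearMap.range N' ≤ LinearMap.ker N := by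
    rw [← hYr, ← hXk]
    rintro _ ⟨m, rfl⟩
    exact LinearMap.mem_ker.2 (LinearMap.congr_fun hz m)
  have i2 : LinearMap.range N ≤ LinearMap.ker N' := by
    rw [← hXr, ← hYk]
    rintro _ ⟨m, rfl⟩
    rw [hc] at hz
    exact LinearMap.mem_ker.2 (LinearMap.congr_fun hz m)
  rw [inf_eq_left.2 i1, inf_eq_left.2 i2, up.finrank_eq] at hab
  have : Module.finrank k (LinearMap.range N) = 0 := by omega
  have := Submodule.finrank_eq_zero.1 this
  apply up.hN.ne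
  exact LinearMap.range_eq_bot.1 this

theorem UP.finrank_nu (hk2 : ringChar k ≠ 2) (hk3 : Nat.card k ≠ 3) {G : Subgroup GLM}
    (hG : IsQuadraticPair G) {N N' : EndM} (h : UP G N N') {X₀ Y₀ : EndM} (hX₀ : IsLg G N X₀)
    (hY₀ : IsLg G N' Y₀) (hne₀ : X₀ * Y₀ - Y₀ * X₀ ≠ 0) :
    finrank k (Ls G (X₀ * Y₀ - Y₀ * X₀)) = finrank k (Ls G N') := by
  have hν := (h.nu_main hX₀ hY₀ hne₀).1
  obtain ⟨t, ht, hp⟩ := exists_partner hk2 hk3 hG hν
  have hθ := Root.conj hν ht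
  have eθ := finrank_Ls_conj hν ht
  obtain ⟨θ, hθd⟩ : ∃ θ : EndM, θ = (t : EndM) * (X₀ * Y₀ - Y₀ * X₀) * ((t⁻¹ : GLM) : EndM) := ⟨_, rfl⟩
  rw [← hθd] at hp hθ eθ
  have hp' : θ * (X₀ * Y₀ - Y₀ * X₀) * θ ≠ 0 := fun h0 => hp (nn'n_symm hk2 hθ hν h0)
  have hY0 : Y₀ ≠ 0 := by
    rintro rfl
    apply hne₀; simp
  have hYr := IsLg.root hY₀ hY0
  obtain ⟨hY₁, e₁⟩ := finrank_Ls_conj' hYr (IsLg.mul h.hN.sq hX₀ hX₀) hX₀.fam
  have hs : (1 - X₀) * Y₀ * (1 + X₀) = Y₀ - (X₀ * Y₀ - Y₀ * X₀) := by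
    have : (1 - X₀) * Y₀ * (1 + X₀) = Y₀ - (X₀ * Y₀ - Y₀ * X₀) - X₀ * Y₀ * X₀ := by noncomm_ring
    rw [this, h.xyx hX₀ hX₀ hY₀, sub_zero]
  have hsplit : θ * (X₀ * Y₀ - Y₀ * X₀) * θ = θ * Y₀ * θ - θ * ((1 - X₀) * Y₀ * (1 + X₀)) * θ := by
    rw [hs]; noncomm_ring
  rw [← eθ, ← Ls_eq hY₀ hY0]
  by_cases c1 : θ * Y₀ * θ = 0
  · have c2 : θ * ((1 - X₀) * Y₀ * (1 + X₀)) * θ ≠ 0 := by
      intro c2
      apply hp'
      rw [hsplit, c1, c2, sub_zero]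
    rw [finrank_Ls_pair hk2 hk3 hθ hY₁ c2, e₁]
  · exact finrank_Ls_pair hk2 hk3 hθ hYr c1

theorem UP.finrank_nu' (hk2 : ringChar k ≠ 2) (hk3 : Nat.card k ≠ 3) {G : Subgroup GLM}
    (hG : IsQuadraticPair G) {N N' : EndM} (h : UP G N N') {X₀ Y₀ : EndM} (hX₀ : IsLg G N X₀)
    (hY₀ : IsLg G N' Y₀) (hne₀ : X₀ * Y₀ - Y₀ * X₀ ≠ 0) :
    finrank k (Ls G (X₀ * Y₀ - Y₀ * X₀)) = finrank k (Ls G N) := by
  have hne' : Y₀ * X₀ - X₀ * Y₀ ≠ 0 := by
    intro h0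
    apply hne₀
    rw [← neg_sub, h0, neg_zero]
  have := UP.finrank_nu hk2 hk3 hG h.symm hY₀ hX₀ hne'
  rw [← this]
  have hν := (h.nu_main hX₀ hY₀ hne₀).1
  have h1 : IsLg G (X₀ * Y₀ - Y₀ * X₀) (Y₀ * X₀ - X₀ * Y₀) := by
    have := (IsLg.self hν).neg hν
    rwa [neg_sub] at this
  rw [Ls_eq h1 hne']

theorem UP.surj_right (hk2 : ringChar k ≠ 2) (hk3 : Nat.card k ≠ 3) {G : Subgroup GLM}
    (hG : IsQuadraticPair G) {N N' : EndM} (h : UP G N N') {X₀ Y₀ : EndM} (hX₀ : IsLg G N X₀)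
    (hY₀ : IsLg G N' Y₀) (hne₀ : X₀ * Y₀ - Y₀ * X₀ ≠ 0) {X : EndM} (hX : IsLg G N X) (hX0 : X ≠ 0)
    {Z : EndM} (hZ : IsLg G (X₀ * Y₀ - Y₀ * X₀) Z) : ∃ Y, IsLg G N' Y ∧ X * Y - Y * X = Z := by
  have hν := (h.nu_main hX₀ hY₀ hne₀).1
  obtain ⟨_, hs⟩ := restrict_tool (LinearMap.mulLeft k X - LinearMap.mulRight k X) (Ls G N')
    (Ls G (X₀ * Y₀ - Y₀ * X₀)) (by
      intro Y hY
      rw [mem_Ls hν]
      have := UP.nu_lg h hX₀ hY₀ hne₀ hX ((mem_Ls h.hN').1 hY)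
      simpa using this) (by
      intro Y hY h0
      by_contra hY0
      apply UP.nu_ne h hX₀ hY₀ hne₀ hX hX0 ((mem_Ls h.hN').1 hY) hY0
      simpa using h0)
  obtain ⟨Y, hY, e⟩ := hs (UP.finrank_nu hk2 hk3 hG h hX₀ hY₀ hne₀).le Z ((mem_Ls hν).2 hZ)
  exact ⟨Y, (mem_Ls h.hN').1 hY, by simpa using e⟩

theorem UP.surj_left (hk2 : ringChar k ≠ 2) (hk3 : Nat.card k ≠ 3) {G : Subgroup GLM}
    (hG : IsQuadraticPair G) {N N' : EndM} (h : UP G N N') {X₀ Y₀ : EndM} (hX₀ : IsLg G N X₀)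
    (hY₀ : IsLg G N' Y₀) (hne₀ : X₀ * Y₀ - Y₀ * X₀ ≠ 0) {Y : EndM} (hY : IsLg G N' Y) (hY0 : Y ≠ 0)
    {Z : EndM} (hZ : IsLg G (X₀ * Y₀ - Y₀ * X₀) Z) : ∃ X, IsLg G N X ∧ X * Y - Y * X = Z := by
  have hν := (h.nu_main hX₀ hY₀ hne₀).1
  obtain ⟨_, hs⟩ := restrict_tool (LinearMap.mulRight k Y - LinearMap.mulLeft k Y) (Ls G N)
    (Ls G (X₀ * Y₀ - Y₀ * X₀)) (by
      intro X hX
      rw [mem_Ls hν]
      have := UP.nu_lg h hX₀ hY₀ hne₀ ((mem_Ls h.hN).1 hX) hY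
      simpa using this) (by
      intro X hX h0
      by_contra hX0
      apply UP.nu_ne h hX₀ hY₀ hne₀ ((mem_Ls h.hN).1 hX) hX0 hY hY0
      simpa using h0)
  obtain ⟨X, hX, e⟩ := hs (UP.finrank_nu' hk2 hk3 hG h hX₀ hY₀ hne₀).le Z ((mem_Ls hν).2 hZ)
  exact ⟨X, (mem_Ls h.hN).1 hX, by simpa using e⟩

end Cfsg.Agent.Lib.Helper85QT
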