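import Cfsg.Agent.Lib.Helper85QR

/-!
The unipotent case: commutators of two root subgroups.
-/

set_option linter.unusedSectionVars false

namespace Cfsg.Agent.Lib.Helper85QV

open Polynomial Cfsg Module Cfsg.Agent.Lib.Helper85QP Cfsg.Agent.Lib.Helper85QI Cfsg.Agent.Lib.Helper85QS
  Cfsg.Agent.Lib.Helper85QR

variable {k : Type*} [Field k] {M : Type*} [AddCommGroup M] [Module k M] [FiniteDimensional k M]

local notation "GLM" => LinearMap.GeneralLinearGroup k M
local notation "EndM" => (M →ₗ[k] M)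

theorem finrank_map_add (T : EndM) (U : Submodule k M) :
    finrank k (U.map T) + finrank k (U ⊓ LinearMap.ker T : Submodule k M) = finrank k U := by
  have h := LinearMap.finrank_range_add_finrank_ker (T.domRestrict U)
  rw [LinearMap.range_domRestrict, ← Submodule.finrank_map_subtype_eq U (LinearMap.ker (T.domRestrict U))] at h
  have e : (LinearMap.ker (T.domRestrict U)).map U.subtype = U ⊓ LinearMap.ker T := by
    ext m
    constructor
    · rintro ⟨⟨a, ha⟩, h1, rfl⟩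
      exact ⟨ha, h1⟩
    · rintro ⟨h1, h2⟩
      exact ⟨⟨m, h1⟩, h2, rfl⟩
  rw [e] at h
  exact h

theorem unip_maps (hk2 : ringChar k ≠ 2) (hk3 : Nat.card k ≠ 3) {G : Subgroup GLM} {N N' : EndM}
    (hN : Root G N) (hN' : Root G N') (h : N * N' * N = 0) :
    (∀ X, IsLg G N X → ∀ m ∈ LinearMap.range N', X m ∈ LinearMap.ker N') ∧
    (∀ Y, IsLg G N' Y → ∀ m ∈ LinearMap.range N, Y m ∈ LinearMap.ker N) := by
  constructor
  · intro X hl
    rcases hl with h0 | ⟨r, hk, hr⟩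
    · intro m _; rw [h0]; simp
    · rcases dich hk2 hk3 hN' r with h1 | ⟨d2, d1⟩
      · rintro _ ⟨m, rfl⟩
        exact LinearMap.mem_ker.2 (LinearMap.congr_fun h1 m)
      · rw [hk] at d2
        rw [hr] at d1
        exact (type_excl hN.ne h d1 d2).elim
  · intro Y hl
    rcases hl with h0 | ⟨r, hk, hr⟩
    · intro m _; rw [h0]; simp
    · rcases dich hk2 hk3 hN r with h1 | ⟨d1, d2⟩
      · rintro _ ⟨m, rfl⟩
        exact LinearMap.mem_ker.2 (LinearMap.congr_fun h1 m)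
      · rw [hk] at d1
        rw [hr] at d2
        exact (type_excl hN.ne h d1 d2).elim

/-- the standing hypotheses of the unipotent case. -/
structure UP (G : Subgroup GLM) (N N' : EndM) : Prop where
  hN : Root G N
  hN' : Root G N'
  m1 : ∀ X, IsLg G N X → ∀ m ∈ LinearMap.range N', X m ∈ LinearMap.ker N'
  m2 : ∀ Y, IsLg G N' Y → ∀ m ∈ LinearMap.range N, Y m ∈ LinearMap.ker N

theorem UP.symm {G : Subgroup GLM} {N N' : EndM} (h : UP G N N') : UP G N' N := ⟨h.hN', h.hN, h.m2, h.m1⟩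

theorem UP.of (hk2 : ringChar k ≠ 2) (hk3 : Nat.card k ≠ 3) {G : Subgroup GLM} {N N' : EndM}
    (hN : Root G N) (hN' : Root G N') (h : N * N' * N = 0) : UP G N N' :=
  ⟨hN, hN', (unip_maps hk2 hk3 hN hN' h).1, (unip_maps hk2 hk3 hN hN' h).2⟩

theorem UP.xyx {G : Subgroup GLM} {N N' : EndM} (h : UP G N N') {X X₂ Y : EndM} (hX : IsLg G N X) (hX₂ : IsLg G N X₂) (hY : IsLg G N' Y) :
    X * Y * X₂ = 0 := by
  ext m
  rw [Module.End.mul_apply, Module.End.mul_apply]
  exact LinearMap.mem_ker.1 (hX.ker_le (h.m2 Y hY _ (hX₂.range_le ⟨m, rfl⟩)))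

theorem UP.yxy {G : Subgroup GLM} {N N' : EndM} (h : UP G N N') {X Y Y₂ : EndM} (hX : IsLg G N X) (hY : IsLg G N' Y) (hY₂ : IsLg G N' Y₂) :
    Y * X * Y₂ = 0 := h.symm.xyx hY hY₂ hX

theorem UP.nu_sq {G : Subgroup GLM} {N N' : EndM} (h : UP G N N') {X Y : EndM} (hX : IsLg G N X) (hY : IsLg G N' Y) :
    (X * Y - Y * X) * (X * Y - Y * X) = 0 := by
  have e : (X * Y - Y * X) * (X * Y - Y * X) = X * Y * X * Y - X * (Y * Y) * X - Y * (X * X) * Y + Y * X * Y * X := by
    noncomm_ring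
  rw [e, h.xyx hX hX hY, h.yxy hX hY hY, IsLg.mul h.hN.sq hX hX, IsLg.mul h.hN'.sq hY hY]
  simp

theorem UP.comm_val {G : Subgroup GLM} {N N' : EndM} (h : UP G N N') {X Y : EndM} (hX : IsLg G N X) (hY : IsLg G N' Y) :
    (1 + X) * (1 + Y) * (1 - X) * (1 - Y) = 1 + (X * Y - Y * X) :=
  Cfsg.Agent.Lib.Helper85QA.comm_formula X Y (IsLg.mul h.hN.sq hX hX) (IsLg.mul h.hN'.sq hY hY)
    (h.xyx hX hX hY) (h.yxy hX hY hY)

theorem UP.nu_fam {G : Subgroup GLM} {N N' : EndM} (h : UP G N N') {X Y : EndM} (hX : IsLg G N X) (hY : IsLg G N' Y) :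
    InG G (X * Y - Y * X) := by
  intro c
  have hcX := hX.smul h.hN c
  have s1 := IsLg.mul h.hN.sq hcX hcX
  have s2 := IsLg.mul h.hN'.sq hY hY
  have g1 : uof (c • X) s1 ∈ G := hcX.fam.mem (by simp)
  have g2 : uof Y s2 ∈ G := hY.fam.mem (by simp)
  refine ⟨uof (c • X) s1 * uof Y s2 * (uof (c • X) s1)⁻¹ * (uof Y s2)⁻¹,
    G.mul_mem (G.mul_mem (G.mul_mem g1 g2) (G.inv_mem g1)) (G.inv_mem g2), ?_⟩
  simp only [Units.val_mul, uof_val, uof_inv_val]
  rw [h.comm_val hcX hY, smul_mul_assoc, mul_smul_comm, smul_sub]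

theorem UP.finrank_eq {G : Subgroup GLM} {N N' : EndM} (h : UP G N N') : finrank k (LinearMap.range N') = finrank k (LinearMap.range N) :=
  le_antisymm (h.hN'.le_rank h.hN.sq h.hN.ne h.hN.fam) (h.hN.le_rank h.hN'.sq h.hN'.ne h.hN'.fam)

theorem UP.nu_main {G : Subgroup GLM} {N N' : EndM} (h : UP G N N') {X Y : EndM} (hX : IsLg G N X) (hY : IsLg G N' Y) (hne : X * Y - Y * X ≠ 0) :
    Root G (X * Y - Y * X) ∧
    LinearMap.range (X * Y - Y * X) =
      (LinearMap.range N ⊓ LinearMap.ker N') ⊔ (LinearMap.range N' ⊓ LinearMap.ker N) ∧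
    LinearMap.range N ⊓ LinearMap.range N' = ⊥ ∧
    finrank k (LinearMap.range N' ⊓ LinearMap.ker N : Submodule k M) +
      finrank k (LinearMap.range N ⊓ LinearMap.ker N' : Submodule k M) = finrank k (LinearMap.range N) := by
  have hX0 : X ≠ 0 := by rintro rfl; simp at hne
  have hY0 : Y ≠ 0 := by rintro rfl; simp at hne
  obtain ⟨hXk, hXr⟩ : LinearMap.ker X = LinearMap.ker N ∧ LinearMap.range X = LinearMap.range N := by
    rcases hX with h | ⟨_, a, b⟩
    · exact absurd h hX0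
    · exact ⟨a, b⟩
  obtain ⟨hYk, hYr⟩ : LinearMap.ker Y = LinearMap.ker N' ∧ LinearMap.range Y = LinearMap.range N' := by
    rcases hY with h | ⟨_, a, b⟩
    · exact absurd h hY0
    · exact ⟨a, b⟩
  have hd := h.finrank_eq
  have r1 := h.hN.le_rank (h.nu_sq hX hY) hne (h.nu_fam hX hY)
  set I := LinearMap.range N with hI
  set I' := LinearMap.range N' with hI'
  set C := LinearMap.ker N with hC
  set C' := LinearMap.ker N' with hC'
  have hA := finrank_map_add X I'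
  have hB := finrank_map_add Y I
  rw [hXk] at hA
  rw [hYk] at hB
  have leA : I'.map X ≤ I ⊓ C' := by
    rintro _ ⟨m, hm, rfl⟩
    exact ⟨hX.range_le ⟨m, rfl⟩, h.m1 X hX m hm⟩
  have leB : I.map Y ≤ I' ⊓ C := by
    rintro _ ⟨m, hm, rfl⟩
    exact ⟨hY.range_le ⟨m, rfl⟩, h.m2 Y hY m hm⟩
  have leν : LinearMap.range (X * Y - Y * X) ≤ I'.map X ⊔ I.map Y := by
    rintro _ ⟨m, rfl⟩
    rw [LinearMap.sub_apply, Module.End.mul_apply, Module.End.mul_apply]
    apply Submodule.sub_mem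
    · exact Submodule.mem_sup_left ⟨Y m, hY.range_le ⟨m, rfl⟩, rfl⟩
    · exact Submodule.mem_sup_right ⟨X m, hX.range_le ⟨m, rfl⟩, rfl⟩
  have r2 := Submodule.finrank_mono leν
  have r3 := Submodule.finrank_sup_add_finrank_inf_eq (I'.map X) (I.map Y)
  have r4 := Submodule.finrank_mono leA
  have r5 := Submodule.finrank_mono leB
  have eA : I'.map X = I ⊓ C' := Submodule.eq_of_le_of_finrank_le leA (by omega)
  have eB : I.map Y = I' ⊓ C := Submodule.eq_of_le_of_finrank_le leB (by omega)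
  have eν : LinearMap.range (X * Y - Y * X) = I'.map X ⊔ I.map Y :=
    Submodule.eq_of_le_of_finrank_le leν (by omega)
  have e0 : finrank k (I'.map X ⊓ I.map Y : Submodule k M) = 0 := by omega
  have e0' := Submodule.finrank_eq_zero.1 e0
  refine ⟨⟨h.nu_sq hX hY, hne, h.nu_fam hX hY, ?_⟩, ?_, ?_, ?_⟩
  · have : finrank k (LinearMap.range (X * Y - Y * X)) = finrank k I := by omega
    rw [this]; exact h.hN.min
  · rw [eν, eA, eB]
  · rw [eq_bot_iff, ← e0', eA, eB]
    rintro v ⟨h1, h2⟩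
    exact ⟨⟨h1, range_le_ker h.hN'.sq h2⟩, ⟨h2, range_le_ker h.hN.sq h1⟩⟩
  · omega

end Cfsg.Agent.Lib.Helper85QV
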