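import Cfsg.Agent.Lib.Helper85QT

/-!
Quadratic pairs: the commutator case.
-/

set_option linter.unusedSectionVars false

namespace Cfsg.Agent.Lib.Helper85QW

open Polynomial Cfsg Module Cfsg.Agent.Lib.Helper85QP Cfsg.Agent.Lib.Helper85QI Cfsg.Agent.Lib.Helper85QS
  Cfsg.Agent.Lib.Helper85QR Cfsg.Agent.Lib.Helper85QV Cfsg.Agent.Lib.Helper85BA Cfsg.Agent.Lib.Helper85QT

section generic

variable {Γ : Type*} [Group Γ]

theorem class_two {E F D : Subgroup Γ}
    (hE : ∀ a ∈ E, ∀ b ∈ E, a * b = b * a) (hF : ∀ a ∈ F, ∀ b ∈ F, a * b = b * a)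
    (hEF : ∀ e ∈ E, ∀ f ∈ F, e * f * e⁻¹ * f⁻¹ ∈ D)
    (hDE : ∀ d ∈ D, ∀ e ∈ E, d * e = e * d) (hDF : ∀ d ∈ D, ∀ f ∈ F, d * f = f * d) :
    (∀ d ∈ D, ∀ x ∈ E ⊔ F, d * x = x * d) ∧ ⁅E ⊔ F, E ⊔ F⁆ ≤ D := by
  have hc : ∀ d ∈ D, ∀ x ∈ E ⊔ F, d * x = x * d := by
    intro d hd x hx
    have : E ⊔ F ≤ Subgroup.centralizer {d} :=
      sup_le (fun e he => Subgroup.mem_centralizer_singleton_iff.2 (hDE d hd e he).symm)
        (fun f hf => Subgroup.mem_centralizer_singleton_iff.2 (hDF d hd f hf).symm)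
    exact (Subgroup.mem_centralizer_singleton_iff.1 (this hx)).symm
  have gen : ∀ c, (∀ g ∈ (E : Set Γ) ∪ F, g * c * g⁻¹ * c⁻¹ ∈ D) → ∀ g ∈ E ⊔ F, g * c * g⁻¹ * c⁻¹ ∈ D := by
    intro c hbase g hg
    rw [Subgroup.sup_eq_closure] at hg
    induction hg using Subgroup.closure_induction with
    | mem x hx => exact hbase x hx
    | one => simp
    | mul a b ha _ iha ihb =>
      rw [← Subgroup.sup_eq_closure] at ha
      have h1 := hc _ ihb a ha
      have : a * b * c * (a * b)⁻¹ * c⁻¹ = (a * (b * c * b⁻¹ * c⁻¹)) * a⁻¹ * (a * c * a⁻¹ * c⁻¹) := by group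
      rw [this, ← h1]
      have : b * c * b⁻¹ * c⁻¹ * a * a⁻¹ * (a * c * a⁻¹ * c⁻¹) = (b * c * b⁻¹ * c⁻¹) * (a * c * a⁻¹ * c⁻¹) := by
        group
      rw [this]
      exact D.mul_mem ihb iha
    | inv a ha iha =>
      rw [← Subgroup.sup_eq_closure] at ha
      have h1 := hc _ (D.inv_mem iha) a ha
      have : a⁻¹ * c * a⁻¹⁻¹ * c⁻¹ = a⁻¹ * ((a * c * a⁻¹ * c⁻¹)⁻¹ * a) := by group
      rw [this, h1]
      have : a⁻¹ * (a * (a * c * a⁻¹ * c⁻¹)⁻¹) = (a * c * a⁻¹ * c⁻¹)⁻¹ := by group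
      rw [this]
      exact D.inv_mem iha
  have swap : ∀ a b : Γ, a * b * a⁻¹ * b⁻¹ ∈ D → b * a * b⁻¹ * a⁻¹ ∈ D := by
    intro a b h
    have : b * a * b⁻¹ * a⁻¹ = (a * b * a⁻¹ * b⁻¹)⁻¹ := by group
    rw [this]; exact D.inv_mem h
  have stepA : ∀ c ∈ (E : Set Γ) ∪ F, ∀ g ∈ E ⊔ F, g * c * g⁻¹ * c⁻¹ ∈ D := by
    intro c hcm
    apply gen
    rintro g (hg | hg) <;> rcases hcm with hcm | hcm
    · rw [hE g hg c hcm]; simp
    · exact hEF g hg c hcm
    · exact swap _ _ (hEF c hcm g hg)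
    · rw [hF g hg c hcm]; simp
  refine ⟨hc, ?_⟩
  rw [Subgroup.commutator_le]
  intro g hg c hcm
  rw [commutatorElement_def]
  apply swap
  exact gen g (fun x hx => swap _ _ (stepA x hx g hg)) c hcm

end generic

variable {k : Type*} [Field k] {M : Type*} [AddCommGroup M] [Module k M] [FiniteDimensional k M]

local notation "GLM" => LinearMap.GeneralLinearGroup k M
local notation "EndM" => (M →ₗ[k] M)

/-- endomorphisms shifting the flag `M ≥ V₁ ≥ V₂ ≥ 0`. -/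
def flagAlg (V₁ V₂ : Submodule k M) : Submodule k EndM where
  carrier := {x | (∀ m, x m ∈ V₁) ∧ (∀ m ∈ V₁, x m ∈ V₂) ∧ (∀ m ∈ V₂, x m = 0)}
  add_mem' := by
    rintro a b ⟨a1, a2, a3⟩ ⟨b1, b2, b3⟩
    refine ⟨fun m => V₁.add_mem (a1 m) (b1 m), fun m hm => V₂.add_mem (a2 m hm) (b2 m hm), fun m hm => ?_⟩
    rw [LinearMap.add_apply, a3 m hm, b3 m hm, add_zero]
  zero_mem' := by
    refine ⟨fun m => ?_, fun m _ => ?_, fun m _ => ?_⟩ <;> simp
  smul_mem' := by
    rintro c a ⟨a1, a2, a3⟩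
    refine ⟨fun m => V₁.smul_mem c (a1 m), fun m hm => V₂.smul_mem c (a2 m hm), fun m hm => ?_⟩
    rw [LinearMap.smul_apply, a3 m hm, smul_zero]

theorem flagAlg_mul (V₁ V₂ : Submodule k M) : flagAlg V₁ V₂ * flagAlg V₁ V₂ ≤ flagAlg V₁ V₂ := by
  rw [Submodule.mul_le]
  rintro a ⟨a1, a2, a3⟩ b ⟨b1, b2, b3⟩
  refine ⟨fun m => a1 _, fun m hm => ?_, fun m hm => ?_⟩
  · rw [Module.End.mul_apply, a3 _ (b2 m hm)]; exact V₂.zero_mem
  · rw [Module.End.mul_apply, b3 m hm, map_zero]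

theorem comm_bot_of {G : Subgroup GLM} {σ τ : GLM} (hσ : σ ∈ minimalQuadraticElements G)
    (hτ : τ ∈ minimalQuadraticElements G)
    (hc : ∀ X Y, IsLg G ((σ : EndM) - 1) X → IsLg G ((τ : EndM) - 1) Y → X * Y = Y * X) :
    ⁅sameActionSubgroup G σ, sameActionSubgroup G τ⁆ = ⊥ := by
  rw [Subgroup.commutator_eq_bot_iff_le_centralizer]
  intro e he
  rw [Subgroup.mem_centralizer_iff]
  intro f hf
  have := hc _ _ ((mem_E_iff hσ).1 he) ((mem_E_iff hτ).1 hf)
  apply Units.ext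
  rw [Units.val_mul, Units.val_mul]
  have e1 : (f : EndM) * (e : EndM) = ((f : EndM) - 1) * ((e : EndM) - 1) + (e : EndM) + (f : EndM) - 1 := by
    noncomm_ring
  have e2 : (e : EndM) * (f : EndM) = ((e : EndM) - 1) * ((f : EndM) - 1) + (e : EndM) + (f : EndM) - 1 := by
    noncomm_ring
  rw [e1, e2, this]

theorem inv_val_of_sq {e : GLM} (h : ((e : EndM) - 1) * ((e : EndM) - 1) = 0) :
    ((e⁻¹ : GLM) : EndM) = 1 - ((e : EndM) - 1) := by
  conv_lhs => rw [eq_uof (a := e) h]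
  rw [uof_inv_val]

theorem UP.comm_log {G : Subgroup GLM} {N N' : EndM} (h : UP G N N') {e f : GLM}
    (he : IsLg G N ((e : EndM) - 1)) (hf : IsLg G N' ((f : EndM) - 1)) :
    ((e * f * e⁻¹ * f⁻¹ : GLM) : EndM) - 1 =
      ((e : EndM) - 1) * ((f : EndM) - 1) - ((f : EndM) - 1) * ((e : EndM) - 1) := by
  have := h.comm_val he hf
  rw [Units.val_mul, Units.val_mul, Units.val_mul, inv_val_of_sq (IsLg.mul h.hN.sq he he),
    inv_val_of_sq (IsLg.mul h.hN'.sq hf hf)]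
  have a1 : (e : EndM) = 1 + ((e : EndM) - 1) := by abel
  have a2 : (f : EndM) = 1 + ((f : EndM) - 1) := by abel
  have : (e : EndM) * (f : EndM) * (1 - ((e : EndM) - 1)) * (1 - ((f : EndM) - 1)) =
      (1 + ((e : EndM) - 1)) * (1 + ((f : EndM) - 1)) * (1 - ((e : EndM) - 1)) * (1 - ((f : EndM) - 1)) := by
    rw [← a1, ← a2]
  rw [this, h.comm_val he hf]
  abel

theorem unit_of_log {a b : GLM} (h : (a : EndM) - 1 = (b : EndM) - 1) : a = b :=
  Units.ext (sub_left_injective h)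

theorem commute_of_log {a b : GLM} (h1 : ((a : EndM) - 1) * ((b : EndM) - 1) = 0)
    (h2 : ((b : EndM) - 1) * ((a : EndM) - 1) = 0) : a * b = b * a := by
  apply Units.ext
  rw [Units.val_mul, Units.val_mul]
  have e1 : (b : EndM) * (a : EndM) = ((b : EndM) - 1) * ((a : EndM) - 1) + (a : EndM) + (b : EndM) - 1 := by
    noncomm_ring
  have e2 : (a : EndM) * (b : EndM) = ((a : EndM) - 1) * ((b : EndM) - 1) + (a : EndM) + (b : EndM) - 1 := by
    noncomm_ring
  rw [e1, e2, h1, h2]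

theorem fixed_E {G : Subgroup GLM} {ρ : GLM} (hρ : ρ ∈ minimalQuadraticElements G) :
    fixedSubmodule (sameActionSubgroup G ρ) = LinearMap.ker ((ρ : EndM) - 1) := by
  apply le_antisymm
  · exact iInf₂_le ρ (self_mem_E hρ)
  · exact le_iInf₂ fun g hg => ((mem_E_iff hρ).1 hg).ker_le

theorem comm_E {G : Subgroup GLM} {ρ : GLM} (hρ : ρ ∈ minimalQuadraticElements G) :
    commutatorSubmodule (sameActionSubgroup G ρ) = LinearMap.range ((ρ : EndM) - 1) := by
  apply le_antisymm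
  · exact iSup₂_le fun g hg => ((mem_E_iff hρ).1 hg).range_le
  · exact le_iSup₂_of_le ρ (self_mem_E hρ) le_rfl

/-- the commutator case. -/
theorem unip_main (hk2 : ringChar k ≠ 2) (hk3 : Nat.card k ≠ 3) {G : Subgroup GLM}
    (hG : IsQuadraticPair G) {σ τ : GLM} (hσ : σ ∈ minimalQuadraticElements G)
    (hτ : τ ∈ minimalQuadraticElements G)
    (h0 : ((σ : EndM) - 1) * ((τ : EndM) - 1) * ((σ : EndM) - 1) = 0) :
    ⁅sameActionSubgroup G σ, sameActionSubgroup G τ⁆ = ⊥ ∨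
    (⁅sameActionSubgroup G σ, sameActionSubgroup G τ⁆ ∈ quadraticRootSubgroups G ∧
      (∀ e ∈ sameActionSubgroup G σ, e ≠ 1 →
        Subgroup.closure ((fun f : GLM => e * f * e⁻¹ * f⁻¹) '' (sameActionSubgroup G τ : Set GLM)) =
          ⁅sameActionSubgroup G σ, sameActionSubgroup G τ⁆) ∧
      (∀ f ∈ sameActionSubgroup G τ, f ≠ 1 →
        Subgroup.closure ((fun e : GLM => e * f * e⁻¹ * f⁻¹) '' (sameActionSubgroup G σ : Set GLM)) =
          ⁅sameActionSubgroup G σ, sameActionSubgroup G τ⁆) ∧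
      ⁅sameActionSubgroup G σ ⊔ sameActionSubgroup G τ, sameActionSubgroup G σ ⊔ sameActionSubgroup G τ⁆ ≠ ⊥ ∧
      ⁅⁅sameActionSubgroup G σ ⊔ sameActionSubgroup G τ, sameActionSubgroup G σ ⊔ sameActionSubgroup G τ⁆,
        sameActionSubgroup G σ ⊔ sameActionSubgroup G τ⁆ = ⊥ ∧
      ((sameActionSubgroup G σ ⊔ sameActionSubgroup G τ : Subgroup GLM) : Set GLM) ⊆
        quadraticUnipotentCore G ⁅sameActionSubgroup G σ, sameActionSubgroup G τ⁆ ∧
      (∀ c ∈ ⁅sameActionSubgroup G σ, sameActionSubgroup G τ⁆,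
        ∀ x ∈ sameActionSubgroup G σ ⊔ sameActionSubgroup G τ, c * x = x * c)) := by
  have hN := mem_min_iff.1 hσ
  have hN' := mem_min_iff.1 hτ
  have up := UP.of hk2 hk3 hN hN' h0
  by_cases hall : ∀ X Y, IsLg G ((σ : EndM) - 1) X → IsLg G ((τ : EndM) - 1) Y → X * Y = Y * X
  · exact Or.inl (comm_bot_of hσ hτ hall)
  right
  push Not at hall
  obtain ⟨X₀, Y₀, hX₀, hY₀, hne⟩ := hall
  have hne₀ : X₀ * Y₀ - Y₀ * X₀ ≠ 0 := sub_ne_zero.2 hne
  obtain ⟨hν, hνr, hII, _⟩ := up.nu_main hX₀ hY₀ hne₀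
  have hνk := UP.ker_eq up hX₀ hY₀ hne₀
  have hρ := hν.uof_mem
  obtain ⟨ρ, hρd⟩ : ∃ ρ, ρ = uof (X₀ * Y₀ - Y₀ * X₀) hν.sq := ⟨_, rfl⟩
  rw [← hρd] at hρ
  have hρN : (ρ : EndM) - 1 = X₀ * Y₀ - Y₀ * X₀ := by rw [hρd, uof_sub]
  have memD : ∀ g : GLM, g ∈ sameActionSubgroup G ρ ↔ IsLg G (X₀ * Y₀ - Y₀ * X₀) ((g : EndM) - 1) := by
    intro g; rw [mem_E_iff hρ, hρN]
  have hcomm_mem : ∀ e ∈ sameActionSubgroup G σ, ∀ f ∈ sameActionSubgroup G τ,
      e * f * e⁻¹ * f⁻¹ ∈ sameActionSubgroup G ρ := by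
    intro e he f hf
    rw [memD, UP.comm_log up ((mem_E_iff hσ).1 he) ((mem_E_iff hτ).1 hf)]
    exact UP.nu_lg up hX₀ hY₀ hne₀ ((mem_E_iff hσ).1 he) ((mem_E_iff hτ).1 hf)
  have hset_right : ∀ e ∈ sameActionSubgroup G σ, e ≠ 1 →
      (fun f : GLM => e * f * e⁻¹ * f⁻¹) '' (sameActionSubgroup G τ : Set GLM) =
        (sameActionSubgroup G ρ : Set GLM) := by
    intro e he he1
    ext d
    constructor
    · rintro ⟨f, hf, rfl⟩; exact hcomm_mem e he f hf
    · intro hd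
      obtain ⟨Y, hY, hYe⟩ := UP.surj_right hk2 hk3 hG up hX₀ hY₀ hne₀ ((mem_E_iff hσ).1 he)
        (ne_one_iff.1 he1) ((memD d).1 hd)
      have hYY := IsLg.mul hN'.sq hY hY
      have hf : uof Y hYY ∈ sameActionSubgroup G τ := by
        rw [mem_E_iff hτ, uof_sub]; exact hY
      refine ⟨uof Y hYY, hf, ?_⟩
      apply unit_of_log
      rw [UP.comm_log up ((mem_E_iff hσ).1 he) ((mem_E_iff hτ).1 hf), uof_sub, hYe]
  have hset_left : ∀ f ∈ sameActionSubgroup G τ, f ≠ 1 →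
      (fun e : GLM => e * f * e⁻¹ * f⁻¹) '' (sameActionSubgroup G σ : Set GLM) =
        (sameActionSubgroup G ρ : Set GLM) := by
    intro f hf hf1
    ext d
    constructor
    · rintro ⟨e, he, rfl⟩; exact hcomm_mem e he f hf
    · intro hd
      obtain ⟨X, hX, hXe⟩ := UP.surj_left hk2 hk3 hG up hX₀ hY₀ hne₀ ((mem_E_iff hτ).1 hf)
        (ne_one_iff.1 hf1) ((memD d).1 hd)
      have hXX := IsLg.mul hN.sq hX hX
      have he : uof X hXX ∈ sameActionSubgroup G σ := by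
        rw [mem_E_iff hσ, uof_sub]; exact hX
      refine ⟨uof X hXX, he, ?_⟩
      apply unit_of_log
      rw [UP.comm_log up ((mem_E_iff hσ).1 he) ((mem_E_iff hτ).1 hf), uof_sub, hXe]
  have hσ1 : σ ≠ 1 := ne_one_iff.2 hN.ne
  have hEF : ⁅sameActionSubgroup G σ, sameActionSubgroup G τ⁆ = sameActionSubgroup G ρ := by
    apply le_antisymm
    · rw [Subgroup.commutator_le]
      intro e he f hf
      rw [commutatorElement_def]
      exact hcomm_mem e he f hf
    · intro d hd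
      have : d ∈ (fun f : GLM => σ * f * σ⁻¹ * f⁻¹) '' (sameActionSubgroup G τ : Set GLM) := by
        rw [hset_right σ (self_mem_E hσ) hσ1]; exact hd
      obtain ⟨f, hf, rfl⟩ := this
      have := Subgroup.commutator_mem_commutator (self_mem_E hσ) hf
      rwa [commutatorElement_def] at this
  -- the flag
  have hRC : LinearMap.range (X₀ * Y₀ - Y₀ * X₀) ≤ LinearMap.ker ((σ : EndM) - 1) := by
    rw [hνr]
    exact sup_le (inf_le_left.trans (range_le_ker hN.sq)) inf_le_right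
  have hRC' : LinearMap.range (X₀ * Y₀ - Y₀ * X₀) ≤ LinearMap.ker ((τ : EndM) - 1) := by
    rw [hνr]
    exact sup_le inf_le_right (inf_le_left.trans (range_le_ker hN'.sq))
  have hIK : LinearMap.range ((σ : EndM) - 1) ≤ LinearMap.ker (X₀ * Y₀ - Y₀ * X₀) := by
    rw [hνk]; exact le_sup_left.trans le_sup_right
  have hIK' : LinearMap.range ((τ : EndM) - 1) ≤ LinearMap.ker (X₀ * Y₀ - Y₀ * X₀) := by
    rw [hνk]; exact le_sup_right.trans le_sup_right
  have hDE : ∀ d ∈ sameActionSubgroup G ρ, ∀ e ∈ sameActionSubgroup G σ, d * e = e * d := by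
    intro d hd e he
    have hZ := (memD d).1 hd
    have hX := (mem_E_iff hσ).1 he
    exact commute_of_log (mul_eq_zero_of (hX.range_le.trans (hIK.trans hZ.ker_le)))
      (mul_eq_zero_of (hZ.range_le.trans (hRC.trans hX.ker_le)))
  have hDF : ∀ d ∈ sameActionSubgroup G ρ, ∀ f ∈ sameActionSubgroup G τ, d * f = f * d := by
    intro d hd f hf
    have hZ := (memD d).1 hd
    have hY := (mem_E_iff hτ).1 hf
    exact commute_of_log (mul_eq_zero_of (hY.range_le.trans (hIK'.trans hZ.ker_le)))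
      (mul_eq_zero_of (hZ.range_le.trans (hRC'.trans hY.ker_le)))
  obtain ⟨hcen, hder⟩ := class_two (fun a ha b hb => E_comm hσ ha hb) (fun a ha b hb => E_comm hτ ha hb)
    hcomm_mem hDE hDF
  have hρ1 : ρ ≠ 1 := ne_one_iff.2 (by rw [hρN]; exact hne₀)
  rw [hEF]
  refine ⟨⟨ρ, hρ, rfl⟩, ?_, ?_, ?_, ?_, ?_, hcen⟩
  · intro e he he1
    rw [hset_right e he he1, Subgroup.closure_eq]
  · intro f hf hf1
    rw [hset_left f hf hf1, Subgroup.closure_eq]
  · intro hb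
    have h1 : sameActionSubgroup G ρ ≤ ⊥ := by
      rw [← hb, ← hEF]
      exact Subgroup.commutator_mono le_sup_left le_sup_right
    exact hρ1 ((Subgroup.mem_bot).1 (h1 (self_mem_E hρ)))
  · rw [Subgroup.commutator_eq_bot_iff_le_centralizer]
    intro c hc
    rw [Subgroup.mem_centralizer_iff]
    intro x hx
    exact (hcen c (hder hc) x hx).symm
  · have hflag : sameActionSubgroup G σ ⊔ sameActionSubgroup G τ ≤
        grp (flagAlg (LinearMap.ker (X₀ * Y₀ - Y₀ * X₀)) (LinearMap.range (X₀ * Y₀ - Y₀ * X₀)))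
          (flagAlg_mul _ _) := by
      refine sup_le ?_ ?_
      · rw [le_grp_iff, lg_le_iff]
        intro e he
        have hX := (mem_E_iff hσ).1 he
        refine ⟨fun m => hIK (hX.range_le ⟨m, rfl⟩), fun m hm => ?_, fun m hm => hX.ker_le (hRC hm)⟩
        rw [hνk] at hm
        obtain ⟨a, ha, b, hb, rfl⟩ := Submodule.mem_sup.1 hm
        obtain ⟨i, hi, i', hi', rfl⟩ := Submodule.mem_sup.1 hb
        rw [map_add, map_add, LinearMap.mem_ker.1 (hX.ker_le ha.1),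
          LinearMap.mem_ker.1 (hX.ker_le (range_le_ker hN.sq hi)), zero_add, zero_add, hνr]
        exact Submodule.mem_sup_left ⟨hX.range_le ⟨i', rfl⟩, up.m1 _ hX i' hi'⟩
      · rw [le_grp_iff, lg_le_iff]
        intro f hf
        have hY := (mem_E_iff hτ).1 hf
        refine ⟨fun m => hIK' (hY.range_le ⟨m, rfl⟩), fun m hm => ?_, fun m hm => hY.ker_le (hRC' hm)⟩
        rw [hνk] at hm
        obtain ⟨a, ha, b, hb, rfl⟩ := Submodule.mem_sup.1 hm
        obtain ⟨i, hi, i', hi', rfl⟩ := Submodule.mem_sup.1 hb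
        rw [map_add, map_add, LinearMap.mem_ker.1 (hY.ker_le ha.2),
          LinearMap.mem_ker.1 (hY.ker_le (range_le_ker hN'.sq hi')), zero_add, add_zero, hνr]
        exact Submodule.mem_sup_right ⟨hY.range_le ⟨i, rfl⟩, up.m2 _ hY i hi⟩
    intro g hg
    obtain ⟨⟨f1, f2, f3⟩, _⟩ := hflag hg
    refine ⟨sup_le (E_le hσ) (E_le hτ) hg, ?_, ?_, ?_, ?_⟩
    · rw [Subgroup.mem_normalizer_iff]
      intro d
      constructor
      · intro hd
        rw [← hcen d hd g hg]; simpa using hd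
      · intro hd
        have := hcen _ hd g hg
        have e : d = g * d * g⁻¹ := by
          have h2 : g * d * g⁻¹ * g = g * d := by group
          rw [h2] at this
          exact mul_left_cancel this
        rw [e]; exact hd
    · intro m
      rw [fixed_E hρ, hρN]
      have := f1 m
      simpa using this
    · intro m hm
      rw [fixed_E hρ, hρN] at hm
      rw [comm_E hρ, hρN]
      have := f2 m hm
      simpa using this
    · intro m hm
      rw [comm_E hρ, hρN] at hm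
      have := f3 m hm
      simpa [sub_eq_zero] using this

theorem not_unip {H : Subgroup GLM} {X Y : EndM} (h : X * Y * X = X) (h0 : X ≠ 0) (hX : X ∈ lg H)
    (hY : Y ∈ lg H) : ¬ IsUnipotentOn H := by
  rw [unip_iff]
  rintro ⟨n, hn⟩
  have key : ∀ i : ℕ, X ∈ lg H ^ (2 * i + 1) := by
    intro i
    induction i with
    | zero => simpa using hX
    | succ i ih =>
      have e : 2 * (i + 1) + 1 = 2 * i + 1 + 1 + 1 := by ring
      rw [e, pow_succ, pow_succ, ← h]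
      exact Submodule.mul_mem_mul (Submodule.mul_mem_mul ih hY) hX
  have := key n
  have e : 2 * n + 1 = n + (n + 1) := by ring
  rw [e, pow_add, hn, Submodule.bot_mul, Submodule.mem_bot] at this
  exact h0 this

theorem not_unip_pair (hk2 : ringChar k ≠ 2) (hk3 : Nat.card k ≠ 3) {G : Subgroup GLM} {σ τ : GLM}
    (hσ : σ ∈ minimalQuadraticElements G) (hτ : τ ∈ minimalQuadraticElements G)
    (d1 : LinearMap.range ((σ : EndM) - 1) ⊓ LinearMap.ker ((τ : EndM) - 1) = ⊥)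
    (d2 : LinearMap.range ((τ : EndM) - 1) ⊓ LinearMap.ker ((σ : EndM) - 1) = ⊥) :
    ¬ IsUnipotentOn (sameActionSubgroup G σ ⊔ sameActionSubgroup G τ) := by
  have hN := mem_min_iff.1 hσ
  have hN' := mem_min_iff.1 hτ
  obtain ⟨Y, hY, _, h1, _⟩ := sharp hk2 hk3 hN' d1 d2 (IsLg.self hN) hN.ne
  have hYY := IsLg.mul hN'.sq hY hY
  have hf : uof Y hYY ∈ sameActionSubgroup G τ := by
    rw [mem_E_iff hτ, uof_sub]; exact hY
  apply not_unip h1 hN.ne (mem_lg ((le_sup_left : sameActionSubgroup G σ ≤ _) (self_mem_E hσ)))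
  have := mem_lg ((le_sup_right : sameActionSubgroup G τ ≤ sameActionSubgroup G σ ⊔ _) hf)
  rwa [uof_sub] at this

end Cfsg.Agent.Lib.Helper85QW
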