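import Cfsg.Agent.Lib.Helper85QX
import Cfsg.Agent.Lib.Helper85Graph

/-!
Quadratic pairs: the connected components of `𝓕(Σ)`.
-/

set_option linter.unusedSectionVars false

namespace Cfsg.Agent.Lib.Helper85QY

open Polynomial Cfsg Module Cfsg.Agent.Lib.Helper85QP Cfsg.Agent.Lib.Helper85QI Cfsg.Agent.Lib.Helper85QS
  Cfsg.Agent.Lib.Helper85QR Cfsg.Agent.Lib.Helper85QV Cfsg.Agent.Lib.Helper85BA Cfsg.Agent.Lib.Helper85QT
  Cfsg.Agent.Lib.Helper85QW Cfsg.Agent.Lib.Helper85QX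

variable {k : Type*} [Field k] {M : Type*} [AddCommGroup M] [Module k M] [FiniteDimensional k M]

local notation "GLM" => LinearMap.GeneralLinearGroup k M
local notation "EndM" => (M →ₗ[k] M)

theorem adj_of_ne (hk2 : ringChar k ≠ 2) (hk3 : Nat.card k ≠ 3) {G : Subgroup GLM} {σ τ : GLM}
    (hσ : σ ∈ minimalQuadraticElements G) (hτ : τ ∈ minimalQuadraticElements G)
    (h : ((σ : EndM) - 1) * ((τ : EndM) - 1) * ((σ : EndM) - 1) ≠ 0) :
    FAdj (quadraticRootSubgroups G) (sameActionSubgroup G σ) (sameActionSubgroup G τ) := by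
  refine ⟨⟨σ, hσ, rfl⟩, ⟨τ, hτ, rfl⟩, ?_⟩
  rcases dich hk2 hk3 (mem_min_iff.1 hσ) (mem_min_iff.1 hτ) with h0 | ⟨d1, d2⟩
  · exact absurd h0 h
  · exact (rankOne hk2 hk3 hσ hτ d1 d2).1

theorem UP.exists_mid (hk2 : ringChar k ≠ 2) (hk3 : Nat.card k ≠ 3) {G : Subgroup GLM}
    (hG : IsQuadraticPair G) {N N' : EndM} (h : UP G N N') {X₀ Y₀ : EndM} (hX₀ : IsLg G N X₀)
    (hY₀ : IsLg G N' Y₀) (hne₀ : X₀ * Y₀ - Y₀ * X₀ ≠ 0) :
    ∃ θ : EndM, Root G θ ∧ θ * (X₀ * Y₀ - Y₀ * X₀) * θ ≠ 0 ∧ θ * Y₀ * θ ≠ 0 := by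
  have hν := (h.nu_main hX₀ hY₀ hne₀).1
  obtain ⟨t, ht, hp⟩ := exists_partner hk2 hk3 hG hν
  have hθ := Root.conj hν ht
  obtain ⟨θ, hθd⟩ : ∃ θ : EndM, θ = (t : EndM) * (X₀ * Y₀ - Y₀ * X₀) * ((t⁻¹ : GLM) : EndM) := ⟨_, rfl⟩
  rw [← hθd] at hp hθ
  have hp' : θ * (X₀ * Y₀ - Y₀ * X₀) * θ ≠ 0 := fun h0 => hp (nn'n_symm hk2 hθ hν h0)
  have hXX := IsLg.mul h.hN.sq hX₀ hX₀
  have hs : (1 - X₀) * Y₀ * (1 + X₀) = Y₀ - (X₀ * Y₀ - Y₀ * X₀) := by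
    have : (1 - X₀) * Y₀ * (1 + X₀) = Y₀ - (X₀ * Y₀ - Y₀ * X₀) - X₀ * Y₀ * X₀ := by noncomm_ring
    rw [this, h.xyx hX₀ hX₀ hY₀, sub_zero]
  have hsplit : θ * (X₀ * Y₀ - Y₀ * X₀) * θ = θ * Y₀ * θ - θ * ((1 - X₀) * Y₀ * (1 + X₀)) * θ := by
    rw [hs]; noncomm_ring
  by_cases c1 : θ * Y₀ * θ = 0
  · have c2 : θ * ((1 - X₀) * Y₀ * (1 + X₀)) * θ ≠ 0 := by
      intro c2
      apply hp'
      rw [hsplit, c1, c2, sub_zero]
    -- conjugate by `1 + X₀`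
    have hg : uof X₀ hXX ∈ G := hX₀.fam.mem (uof_val X₀ hXX)
    have hθ' := Root.conj hθ hg
    rw [uof_val, uof_inv_val] at hθ'
    have i1 : (1 - X₀) * (1 + X₀) = 1 := by
      have : (1 - X₀) * (1 + X₀) = 1 - X₀ * X₀ := by noncomm_ring
      rw [this, hXX, sub_zero]
    have i2 : (1 + X₀) * (1 - X₀) = 1 := by
      have : (1 + X₀) * (1 - X₀) = 1 - X₀ * X₀ := by noncomm_ring
      rw [this, hXX, sub_zero]
    have cancel : ∀ W : EndM, (1 + X₀) * W * (1 - X₀) = 0 → W = 0 := by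
      intro W hW
      calc W = ((1 - X₀) * (1 + X₀)) * W * ((1 - X₀) * (1 + X₀)) := by rw [i1]; simp
        _ = (1 - X₀) * ((1 + X₀) * W * (1 - X₀)) * (1 + X₀) := by noncomm_ring
        _ = 0 := by rw [hW]; simp
    have hνc : (1 - X₀) * (X₀ * Y₀ - Y₀ * X₀) * (1 + X₀) = X₀ * Y₀ - Y₀ * X₀ := by
      have : (1 - X₀) * (X₀ * Y₀ - Y₀ * X₀) * (1 + X₀) = X₀ * Y₀ - Y₀ * X₀ - (X₀ * X₀) * Y₀ * (1 + X₀)
          + X₀ * Y₀ * X₀ + X₀ * Y₀ * X₀ - (1 - X₀) * Y₀ * (X₀ * X₀) := by noncomm_ring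
      rw [this, hXX, h.xyx hX₀ hX₀ hY₀]; simp
    refine ⟨_, hθ', ?_, ?_⟩
    · intro h0
      apply hp'
      apply cancel
      rw [← h0]
      conv_lhs => rw [← hνc]
      noncomm_ring
    · intro h0
      apply c2
      apply cancel
      rw [← h0]
      noncomm_ring
  · exact ⟨θ, hθ, hp', c1⟩

/-- reachability in `𝓕(Σ)`. -/
abbrev Rch (G : Subgroup GLM) (A B : Subgroup GLM) : Prop :=
  Relation.ReflTransGen (FAdj (quadraticRootSubgroups G)) A B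

theorem sigma_tri (hk2 : ringChar k ≠ 2) (hk3 : Nat.card k ≠ 3) {G : Subgroup GLM}
    (hG : IsQuadraticPair G) {A B : Subgroup GLM} (hA : A ∈ quadraticRootSubgroups G)
    (hB : B ∈ quadraticRootSubgroups G) :
    ⁅A, B⁆ = ⊥ ∨ IsRankOnePair A B ∨
      (RootCommutatorCase (quadraticRootSubgroups G) A B ∧ Rch G A ⁅A, B⁆ ∧ Rch G B ⁅A, B⁆) := by
  obtain ⟨σ, hσ, rfl⟩ := hA
  obtain ⟨τ, hτ, rfl⟩ := hB
  have hN := mem_min_iff.1 hσ
  have hN' := mem_min_iff.1 hτ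
  rcases dich hk2 hk3 hN hN' with h0 | ⟨d1, d2⟩
  · by_cases hall : ∀ X Y, IsLg G ((σ : EndM) - 1) X → IsLg G ((τ : EndM) - 1) Y → X * Y = Y * X
    · exact Or.inl (comm_bot_of hσ hτ hall)
    rcases unip_main hk2 hk3 hG hσ hτ h0 with h | ⟨a, b, c, _, _, _, g⟩
    · exact Or.inl h
    right; right
    refine ⟨⟨a, g, b, c⟩, ?_⟩
    push Not at hall
    obtain ⟨X₀, Y₀, hX₀, hY₀, hne⟩ := hall
    have up := UP.of hk2 hk3 hN hN' h0
    have hν0 := UP.nu_ne up hX₀ hY₀ (sub_ne_zero.2 hne) (IsLg.self hN) hN.ne (IsLg.self hN') hN'.ne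
    obtain ⟨ρ', hρ', heq⟩ := a
    have hc0 : σ * τ * σ⁻¹ * τ⁻¹ ∈ sameActionSubgroup G ρ' := by
      rw [← heq, ← commutatorElement_def]
      exact Subgroup.commutator_mem_commutator (self_mem_E hσ) (self_mem_E hτ)
    have hlog := UP.comm_log up (e := σ) (f := τ) (IsLg.self hN) (IsLg.self hN')
    have hc1 : σ * τ * σ⁻¹ * τ⁻¹ ≠ 1 := ne_one_iff.2 (by rw [hlog]; exact hν0)
    obtain ⟨hcm, hcE⟩ := E_eq_of_mem hρ' hc0 hc1
    rw [heq, ← hcE]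
    constructor
    · obtain ⟨θ, hθ, t1, t2⟩ := UP.exists_mid hk2 hk3 hG up.symm (IsLg.self hN') (IsLg.self hN)
        (by intro h1; apply hν0; rw [← neg_sub, h1, neg_zero])
      have a1 : FAdj (quadraticRootSubgroups G) (sameActionSubgroup G (uof θ hθ.sq))
          (sameActionSubgroup G (σ * τ * σ⁻¹ * τ⁻¹)) := by
        apply adj_of_ne hk2 hk3 hθ.uof_mem hcm
        rw [uof_sub, hlog]
        intro h1
        apply t1
        rw [← neg_sub, mul_neg, neg_mul, h1, neg_zero]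
      have a2 : FAdj (quadraticRootSubgroups G) (sameActionSubgroup G (uof θ hθ.sq))
          (sameActionSubgroup G σ) := by
        apply adj_of_ne hk2 hk3 hθ.uof_mem hσ
        rw [uof_sub]; exact t2
      exact (Relation.ReflTransGen.single (Helper85Graph.fadj_symm a2)).tail a1
    · obtain ⟨θ, hθ, t1, t2⟩ := UP.exists_mid hk2 hk3 hG up (IsLg.self hN) (IsLg.self hN') hν0
      have a1 : FAdj (quadraticRootSubgroups G) (sameActionSubgroup G (uof θ hθ.sq))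
          (sameActionSubgroup G (σ * τ * σ⁻¹ * τ⁻¹)) := by
        apply adj_of_ne hk2 hk3 hθ.uof_mem hcm
        rw [uof_sub, hlog]; exact t1
      have a2 : FAdj (quadraticRootSubgroups G) (sameActionSubgroup G (uof θ hθ.sq))
          (sameActionSubgroup G τ) := by
        apply adj_of_ne hk2 hk3 hθ.uof_mem hτ
        rw [uof_sub]; exact t2
      exact (Relation.ReflTransGen.single (Helper85Graph.fadj_symm a2)).tail a1
  · exact Or.inr (Or.inl (rankOne hk2 hk3 hσ hτ d1 d2).1)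

end Cfsg.Agent.Lib.Helper85QY
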