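import Cfsg.Agent.Lib.Helper85QY

/-!
Quadratic pairs: subnormal unipotent subgroups are trivial.
-/

set_option linter.unusedSectionVars false

namespace Cfsg.Agent.Lib.Helper85QZ

open Polynomial Cfsg Module Cfsg.Agent.Lib.Helper85QP Cfsg.Agent.Lib.Helper85QI Cfsg.Agent.Lib.Helper85QS
  Cfsg.Agent.Lib.Helper85QR Cfsg.Agent.Lib.Helper85QV Cfsg.Agent.Lib.Helper85BA Cfsg.Agent.Lib.Helper85QT
  Cfsg.Agent.Lib.Helper85QW Cfsg.Agent.Lib.Helper85QX Cfsg.Agent.Lib.Helper85QY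
  Cfsg.Agent.Lib.Helper85RankOne Cfsg.Agent.Lib.Helper85Root

variable {k : Type*} [Field k] {M : Type*} [AddCommGroup M] [Module k M] [FiniteDimensional k M]

local notation "GLM" => LinearMap.GeneralLinearGroup k M
local notation "EndM" => (M →ₗ[k] M)

theorem unip_mono {H K : Subgroup GLM} (h : H ≤ K) (hK : IsUnipotentOn K) : IsUnipotentOn H := by
  rw [unip_iff] at hK ⊢
  exact Nil.mono (lg_mono h) hK

theorem unip_sup_of_normalizes {H D : Subgroup GLM} (hH : IsUnipotentOn H) (hD : IsUnipotentOn D)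
    (h : ∀ g ∈ H, ∀ x ∈ D, g * x * g⁻¹ ∈ D) : IsUnipotentOn (H ⊔ D) := by
  rw [unip_iff] at hH hD ⊢
  obtain ⟨m, hm⟩ := hH
  obtain ⟨n, hn⟩ := hD
  obtain ⟨hcc, hcn⟩ := ext_lemma (lg_mul_le D) (lg_mul_le H) (mul_le_of_normalizes h) hn hm
  exact Nil.mono (lg_sup_le hcc le_sup_left (le_sup_left.trans le_sup_right)) ⟨_, hcn⟩

theorem prod_conj (g : GLM) (l : List GLM) :
    (l.map fun x : GLM => (x : EndM) - 1).prod =
      (g : EndM) * ((l.map fun x => g⁻¹ * x * g).map fun x : GLM => (x : EndM) - 1).prod *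
        ((g⁻¹ : GLM) : EndM) := by
  induction l with
  | nil => simp
  | cons a l ih =>
    rw [List.map_cons, List.prod_cons, ih, List.map_cons, List.map_cons, List.prod_cons]
    have e : (a : EndM) - 1 = (g : EndM) * (((g⁻¹ * a * g : GLM) : EndM) - 1) * ((g⁻¹ : GLM) : EndM) := by
      have := conj_sub g (g⁻¹ * a * g)
      rw [← this]
      congr 2
      group
    have i1 : ((g⁻¹ : GLM) : EndM) * (g : EndM) = 1 := Units.inv_mul g
    rw [e]
    generalize ((l.map fun x => g⁻¹ * x * g).map fun x : GLM => (x : EndM) - 1).prod = P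
    generalize ((g⁻¹ * a * g : GLM) : EndM) - 1 = Q
    calc (g : EndM) * Q * ((g⁻¹ : GLM) : EndM) * ((g : EndM) * P * ((g⁻¹ : GLM) : EndM))
        = (g : EndM) * Q * (((g⁻¹ : GLM) : EndM) * (g : EndM)) * P * ((g⁻¹ : GLM) : EndM) := by noncomm_ring
      _ = (g : EndM) * (Q * P) * ((g⁻¹ : GLM) : EndM) := by rw [i1]; noncomm_ring

theorem unip_conj {H : Subgroup GLM} (hH : IsUnipotentOn H) (g : GLM) : IsUnipotentOn (conjBy H g) := by
  rw [unip_def] at hH ⊢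
  obtain ⟨n, hn⟩ := hH
  refine ⟨n, fun l hl hlen => ?_⟩
  rw [prod_conj g l, hn _ _ (by simpa using hlen)]
  · simp
  · intro x hx
    rw [List.mem_map] at hx
    obtain ⟨y, hy, rfl⟩ := hx
    exact mem_conjBy.1 (hl y hy)

theorem unip_normal_trivial {G : Subgroup GLM} (hG : IsIrreducibleFor G) {U : Subgroup GLM}
    (hU : IsUnipotentOn U) (hUc : ∀ g ∈ G, conjBy U g = U) : U = ⊥ := by
  obtain ⟨m₀, hm₀, hfix⟩ := exists_fixed (unip_iff.1 hU) hG.1
  let V : Submodule k M :=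
    { carrier := {m | ∀ u ∈ U, (u : EndM) m = m}
      add_mem' := by
        intro a b ha hb u hu
        rw [map_add, ha u hu, hb u hu]
      zero_mem' := by intro u _; simp
      smul_mem' := by
        intro c a ha u hu
        rw [map_smul, ha u hu] }
  have hVinv : ∀ g ∈ G, ∀ w ∈ V, (g : EndM) w ∈ V := by
    intro g hg w hw u hu
    have h1 : g⁻¹ * u * g ∈ U := by
      have := hUc g⁻¹ (G.inv_mem hg)
      rw [← this]
      exact ⟨u, hu, by simp⟩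
    have h2 := hw _ h1
    rw [Units.val_mul, Units.val_mul, Module.End.mul_apply, Module.End.mul_apply] at h2
    have h3 := congrArg (g : EndM) h2
    rwa [g_apply_inv] at h3
  rcases hG.2 V hVinv with h | h
  · exfalso
    apply hm₀
    have : m₀ ∈ V := by
      intro u hu
      have := hfix _ (mem_lg hu)
      simpa [sub_eq_zero] using this
    rw [h, Submodule.mem_bot] at this
    exact this
  · rw [eq_bot_iff]
    intro u hu
    rw [Subgroup.mem_bot]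
    apply Units.ext
    ext m
    have hm : m ∈ V := by rw [h]; trivial
    exact hm u hu

theorem unip_closure {K P Q : Subgroup GLM} (hK : IsUnipotentOn K) (hKP : K ≤ P)
    (hPK : ∀ p ∈ P, conjBy K p = K) (hPQ : P ≤ Q) (hQP : ∀ q ∈ Q, conjBy P q = P) :
    ∃ K₂ : Subgroup GLM, IsUnipotentOn K₂ ∧ (∀ q ∈ Q, conjBy K₂ q = K₂) ∧ K₂ ≤ P ∧ K ≤ K₂ := by
  have hWG : ∀ A ∈ {A : Subgroup GLM | ∃ q ∈ Q, A = conjBy K q}, A ≤ P := by
    rintro _ ⟨q, hq, rfl⟩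
    rw [← hQP q hq]
    exact conjBy_mono hKP q
  have hWconj : ∀ A ∈ {A : Subgroup GLM | ∃ q ∈ Q, A = conjBy K q}, ∀ g ∈ Q,
      conjBy A g ∈ {A : Subgroup GLM | ∃ q ∈ Q, A = conjBy K q} := by
    rintro _ ⟨q, hq, rfl⟩ g hg
    exact ⟨g * q, Q.mul_mem hg hq, conjBy_conjBy _ _ _⟩
  have hnorm : ∀ q ∈ Q, ∀ p ∈ P, conjBy (conjBy K q) p = conjBy K q := by
    intro q hq p hp
    have hp' : q⁻¹ * p * q ∈ P := by
      have := hQP q⁻¹ (Q.inv_mem hq)
      rw [← this, mem_conjBy]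
      simpa [mul_assoc] using hp
    rw [conjBy_conjBy]
    have e : p * q = q * (q⁻¹ * p * q) := by group
    rw [e, ← conjBy_conjBy, hPK _ hp']
  have hWW : ∀ A ∈ {A : Subgroup GLM | ∃ q ∈ Q, A = conjBy K q},
      ∀ B ∈ {A : Subgroup GLM | ∃ q ∈ Q, A = conjBy K q}, IsUnipotentOn (A ⊔ B) := by
    rintro _ ⟨q₁, hq₁, rfl⟩ _ ⟨q₂, hq₂, rfl⟩
    apply unip_sup_of_normalizes (unip_conj hK q₁) (unip_conj hK q₂)
    intro g hg x hx
    have hgP : g ∈ P := hWG _ ⟨q₁, hq₁, rfl⟩ hg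
    rw [← hnorm q₂ hq₂ g hgP]
    exact conj_mem_conjBy hx g
  refine ⟨⨆ A ∈ {A : Subgroup GLM | ∃ q ∈ Q, A = conjBy K q}, A,
    baer (fun A hA => (hWG A hA).trans hPQ) hWW hWconj, fun q hq => conj_iSup hWconj hq,
    iSup₂_le hWG, ?_⟩
  exact le_iSup₂_of_le K ⟨1, Q.one_mem, (conjBy_one K).symm⟩ le_rfl

theorem subnormal_unip_trivial {G : Subgroup GLM} (hG : IsIrreducibleFor G) {K N' G₀ : Subgroup GLM}
    (hK : IsUnipotentOn K) (hKN : K ≤ N') (hNK : ∀ p ∈ N', conjBy K p = K) (hNG : N' ≤ G₀)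
    (hGN : ∀ q ∈ G₀, conjBy N' q = N') (hG₀ : G₀ ≤ G) (hGG : ∀ q ∈ G, conjBy G₀ q = G₀) : K = ⊥ := by
  obtain ⟨K₂, h1, h2, h3, h4⟩ := unip_closure hK hKN hNK hNG hGN
  obtain ⟨K₃, g1, g2, _, g4⟩ := unip_closure h1 (h3.trans hNG) h2 hG₀ hGG
  have := unip_normal_trivial hG g1 g2
  rw [eq_bot_iff, ← this]
  exact h4.trans g4

theorem unip_of_comm (hk2 : ringChar k ≠ 2) (hk3 : Nat.card k ≠ 3) {G A B : Subgroup GLM}
    (hA : A ∈ quadraticRootSubgroups G) (hB : B ∈ quadraticRootSubgroups G) (h : ⁅A, B⁆ = ⊥) :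
    IsUnipotentOn (A ⊔ B) := by
  obtain ⟨σ, hσ, rfl⟩ := hA
  obtain ⟨τ, hτ, rfl⟩ := hB
  apply unip_case hk2 hk3 hσ hτ
  have hc := commutator_eq_bot_iff'.1 h σ (self_mem_E hσ) τ (self_mem_E hτ)
  have hc' := congrArg Units.val hc
  rw [Units.val_mul, Units.val_mul] at hc'
  have e : ((σ : EndM) - 1) * ((τ : EndM) - 1) = ((τ : EndM) - 1) * ((σ : EndM) - 1) := by
    have e1 : ((σ : EndM) - 1) * ((τ : EndM) - 1) = (σ : EndM) * (τ : EndM) - (σ : EndM) - (τ : EndM) + 1 := by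
      noncomm_ring
    have e2 : ((τ : EndM) - 1) * ((σ : EndM) - 1) = (τ : EndM) * (σ : EndM) - (σ : EndM) - (τ : EndM) + 1 := by
      noncomm_ring
    rw [e1, e2, hc']
  rw [e, mul_assoc, (mem_min_iff.1 hσ).sq, mul_zero]

theorem sigma_iSup_le {G : Subgroup GLM} : (⨆ B ∈ quadraticRootSubgroups G, B) ≤ G :=
  iSup₂_le fun _ hB => sigma_le hB

theorem sigma_iSup_conj {G : Subgroup GLM} {g : GLM} (hg : g ∈ G) :
    conjBy (⨆ B ∈ quadraticRootSubgroups G, B) g = ⨆ B ∈ quadraticRootSubgroups G, B :=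
  conj_iSup (G := G) (fun _ hA _ hg => sigma_conj hA hg) hg

/-- a normal subgroup of `⟨Σ⟩` all of whose conjugates of `A` commute with `A` centralizes `A`. -/
theorem lemmaZ (hk2 : ringChar k ≠ 2) (hk3 : Nat.card k ≠ 3) {G : Subgroup GLM}
    (hG : IsQuadraticPair G) {N' : Subgroup GLM} (hN'le : N' ≤ ⨆ B ∈ quadraticRootSubgroups G, B)
    (hN'norm : ∀ g ∈ ⨆ B ∈ quadraticRootSubgroups G, B, conjBy N' g = N') {A : Subgroup GLM}
    (hA : A ∈ quadraticRootSubgroups G) (hcomm : ∀ n ∈ N', ⁅A, conjBy A n⁆ = ⊥) :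
    ∀ n ∈ N', ∀ a ∈ A, n * a * n⁻¹ = a := by
  have hN'G : N' ≤ G := hN'le.trans sigma_iSup_le
  obtain ⟨W, hW⟩ : ∃ W : Set (Subgroup GLM), W = {B | ∃ n ∈ N', B = conjBy A n} := ⟨_, rfl⟩
  have hWS : ∀ B ∈ W, B ∈ quadraticRootSubgroups G := by
    rw [hW]
    rintro _ ⟨n, hn, rfl⟩
    exact sigma_conj hA (hN'G hn)
  have hWc : ∀ B ∈ W, ∀ C ∈ W, ⁅B, C⁆ = ⊥ := by
    rw [hW]
    rintro _ ⟨n, hn, rfl⟩ _ ⟨m, hm, rfl⟩
    have h1 := hcomm (n⁻¹ * m) (N'.mul_mem (N'.inv_mem hn) hm)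
    have h2 : conjBy ⁅A, conjBy A (n⁻¹ * m)⁆ n = ⊥ := by rw [h1]; exact conjBy_bot n
    rw [conjBy_commutator, conjBy_conjBy] at h2
    have e : n * (n⁻¹ * m) = m := by group
    rwa [e] at h2
  have hcen : ∀ B ∈ W, ∀ u ∈ ⨆ C ∈ W, C, conjBy B u = B := by
    intro B hB u hu
    apply conjBy_eq_of_commute
    have hle : (⨆ C ∈ W, C) ≤ Subgroup.centralizer (B : Set GLM) :=
      iSup₂_le fun C hC => Subgroup.commutator_eq_bot_iff_le_centralizer.1 (hWc C hC B hB)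
    intro b hb
    exact (Subgroup.mem_centralizer_iff.1 (hle hu) b hb).symm
  have hU : IsUnipotentOn (⨆ C ∈ W, C) :=
    baer (G := ⨆ C ∈ W, C) (fun B hB => le_iSup₂_of_le B hB le_rfl)
      (fun B hB C hC => unip_of_comm hk2 hk3 (hWS B hB) (hWS C hC) (hWc B hB C hC))
      (fun B hB u hu => by rw [hcen B hB u hu]; exact hB)
  have hWconj : ∀ B ∈ W, ∀ p ∈ N', conjBy B p ∈ W := by
    rw [hW]
    rintro _ ⟨n, hn, rfl⟩ p hp
    exact ⟨p * n, N'.mul_mem hp hn, conjBy_conjBy _ _ _⟩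
  have hK : (⨆ C ∈ W, C) ⊓ N' = ⊥ := by
    apply subnormal_unip_trivial hG.1 (unip_mono inf_le_left hU) inf_le_right _ hN'le hN'norm
      sigma_iSup_le (fun q hq => sigma_iSup_conj hq)
    intro p hp
    rw [conjBy_inf, conj_iSup hWconj hp, conjBy_of_mem hp]
  intro n hn a ha
  have hz : n * a * n⁻¹ * a⁻¹ ∈ (⨆ C ∈ W, C) ⊓ N' := by
    constructor
    · apply Subgroup.mul_mem
      · have : conjBy A n ∈ W := by rw [hW]; exact ⟨n, hn, rfl⟩
        exact (le_iSup₂_of_le _ this le_rfl : conjBy A n ≤ _) (conj_mem_conjBy ha n)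
      · have : A ∈ W := by rw [hW]; exact ⟨1, N'.one_mem, (conjBy_one A).symm⟩
        exact (le_iSup₂_of_le _ this le_rfl : A ≤ _) (A.inv_mem ha)
    · have h1 : a * n⁻¹ * a⁻¹ ∈ N' := by
        have haG : a ∈ ⨆ B ∈ quadraticRootSubgroups G, B :=
          (le_iSup₂_of_le _ hA le_rfl : A ≤ _) ha
        rw [← hN'norm a haG]
        exact conj_mem_conjBy (N'.inv_mem hn) a
      have e : n * a * n⁻¹ * a⁻¹ = n * (a * n⁻¹ * a⁻¹) := by group
      rw [e]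
      exact N'.mul_mem hn h1
  rw [hK, Subgroup.mem_bot] at hz
  exact mul_inv_eq_one.1 hz

end Cfsg.Agent.Lib.Helper85QZ
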