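import Cfsg.Agent.Lib.Helper85QK
import Cfsg.Agent.Lib.Helper85SL

/-!
`SL₂` of a simple algebraic extension, generated by `k`-root groups.
-/

namespace Cfsg.Agent.Lib.Helper85SX

open Polynomial Matrix Cfsg.Agent.Lib.Helper85QA Cfsg.Agent.Lib.Helper85QK Cfsg.Agent.Lib.Helper85SL

variable {k F : Type*} [Field k] [Field F] [Algebra k F]

/-- abstract version over `F = k[α]`. -/
theorem gen_top (h2 : (2 : k) ≠ 0) (h3 : Nat.card k ≠ 3) (hfin : Finite k → Finite F)
    (α : F) (hα : IsIntegral k α) (hα0 : α ≠ 0) (hsurj : Function.Surjective (aeval (R := k) α))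
    (H : Subgroup (SpecialLinearGroup (Fin 2) F))
    (hu : ∀ c : k, uu (algebraMap k F c) ∈ H) (hl : ∀ c : k, ll (algebraMap k F c * α) ∈ H) : H = ⊤ := by
  letI : Algebra k[X] F := (aeval (R := k) α).toRingHom.toAlgebra
  have hsm : ∀ (μ : k[X]) (x : F), μ • x = aeval α μ * x := fun μ x => rfl
  have hsmM : ∀ (μ : k[X]) (M : Matrix (Fin 2) (Fin 2) F), μ • M = (aeval α μ) • M := by
    intro μ M
    ext i j
    simp [Matrix.smul_apply, hsm]
  set 𝒢 : Subgroup (Matrix (Fin 2) (Fin 2) F)ˣ := H.map SpecialLinearGroup.toGL with h𝒢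
  have hIn : ∀ g : SpecialLinearGroup (Fin 2) F, In 𝒢 (g : Matrix (Fin 2) (Fin 2) F) ↔ g ∈ H := by
    intro g
    constructor
    · rintro ⟨u, ⟨g', hg', rfl⟩, hu⟩
      have : g' = g := by
        apply Subtype.ext
        exact hu
      rwa [← this]
    · intro hg
      exact ⟨_, ⟨g, hg, rfl⟩, rfl⟩
  set N : Matrix (Fin 2) (Fin 2) F := !![0, 1; 0, 0] with hN
  set N' : Matrix (Fin 2) (Fin 2) F := !![0, 0; α, 0] with hN'
  have huN : ∀ t : F, (uu t : Matrix (Fin 2) (Fin 2) F) = 1 + t • N := by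
    intro t
    ext i j
    fin_cases i <;> fin_cases j <;> simp [uu_val, hN]
  have hlN : ∀ t : F, (ll (t * α) : Matrix (Fin 2) (Fin 2) F) = 1 + t • N' := by
    intro t
    ext i j
    fin_cases i <;> fin_cases j <;> simp [ll_val, hN']
  have hC : ∀ c : k, aeval α (algebraMap k k[X] c) = algebraMap k F c := by
    intro c
    simp
  have ctx : Ctx k 𝒢 (X : k[X]) N N' := by
    refine { nn := ?_, nn' := ?_, z := ?_, fam := ?_, fam' := ?_, orc := ?_, orc' := ?_ }
    · ext i j
      fin_cases i <;> fin_cases j <;> simp [hN, Matrix.mul_apply, Fin.sum_univ_two]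
    · ext i j
      fin_cases i <;> fin_cases j <;> simp [hN', Matrix.mul_apply, Fin.sum_univ_two]
    · rw [hsmM]
      ext i j
      fin_cases i <;> fin_cases j <;> simp [hN, hN', Matrix.mul_apply, Fin.sum_univ_two]
    · intro c
      rw [hsmM, hC, ← huN, hIn]
      exact hu c
    · intro c
      rw [hsmM, hC, ← hlN, hIn]
      exact hl c
    · intro ω y _ h0
      rw [hsmM] at h0 ⊢
      rw [hsmM]
      have : aeval α (ω * y) = 0 := by
        have := congrFun (congrFun h0 0) 1
        simpa [hN] using this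
      rw [map_mul] at this
      rcases mul_eq_zero.1 this with h | h
      · left; rw [h, zero_smul]
      · right; rw [h, zero_smul]
    · intro ω y _ h0
      rw [hsmM] at h0 ⊢
      rw [hsmM]
      have : aeval α (ω * y) = 0 := by
        have := congrFun (congrFun h0 1) 0
        simpa [hN', hα0] using this
      rw [map_mul] at this
      rcases mul_eq_zero.1 this with h | h
      · left; rw [h, zero_smul]
      · right; rw [h, zero_smul]
  have hfinD : Finite k → Finite (Matrix (Fin 2) (Fin 2) F) := by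
    intro hk
    have := hfin hk
    infer_instance
  have hkill : (minpoly k α) • (1 : Matrix (Fin 2) (Fin 2) F) = 0 := by
    rw [hsmM, minpoly.aeval, zero_smul]
  have k1 := fun μ => kl h2 h3 hfinD ctx (minpoly.monic hα) hkill μ
  have k2 := fun μ => kl h2 h3 hfinD ctx.symm (minpoly.monic hα) hkill μ
  have U : ∀ t : F, uu t ∈ H := by
    intro t
    obtain ⟨μ, rfl⟩ := hsurj t
    have := (k1 μ).in
    rwa [hsmM, ← huN, hIn] at this
  have Lw : ∀ t : F, ll t ∈ H := by
    intro t
    obtain ⟨μ, hμ⟩ := hsurj (t * α⁻¹)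
    have := (k2 μ).in
    rw [hsmM, ← hlN, hIn, hμ, mul_assoc, inv_mul_cancel₀ hα0, mul_one] at this
    exact this
  rw [eq_top_iff, ← closure_eq_top, Subgroup.closure_le]
  rintro _ (⟨t, rfl⟩ | ⟨t, rfl⟩)
  · exact U t
  · exact Lw t

end Cfsg.Agent.Lib.Helper85SX
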