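import Mathlib
import Cfsg.Agent.Lib.Helper65CSDefs
import Cfsg.Agent.Lib.Helper65CSBasic

set_option autoImplicit false

/-! PROJECT 65, piece `y3`. -/

namespace Cfsg.Agent.Lib.Helper86CSY3

open Cfsg.Agent.Lib.Helper65CSDefs Cfsg.Agent.Lib.Helper65CSBasic

variable {G : Type*} [Group G] [Finite G] {m n p : ℕ}

omit [Finite G] in
theorem rho_pos [Fact p.Prime] : 0 < rho G p m := by
  have hp : p.Prime := Fact.out
  unfold rho
  exact pow_pos hp.pos _

/-- a Sylow `p`-subgroup is not contained in the centraliser of a noncentral element -/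
theorem not_le_Cen (h : Hyp G m n) [Fact p.Prime] (hpm : p ∣ m) (P : Sylow p G) {x : G}
    (hx : x ∉ Subgroup.center G) : ¬ (P : Subgroup G) ≤ Cen x := by
  have hp : p.Prime := Fact.out
  intro hle
  have h1 := card_dvd_rho h hpm hx P P.isPGroup' hle
  have h2 := card_sylow h hpm P
  have h2' : Nat.card (P : Subgroup G) = rho G p m * p ^ (m.factorization p) := h2
  rw [h2'] at h1
  have h3 : p ^ (m.factorization p) ∣ 1 := by
    have : rho G p m * p ^ (m.factorization p) ∣ rho G p m * 1 := by rwa [mul_one]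
    exact Nat.dvd_of_mul_dvd_mul_left rho_pos this
  have h4 := fact_pos h hp hpm
  have h5 : p ∣ 1 := (dvd_pow_self p (by omega)).trans h3
  exact hp.one_lt.ne' (Nat.dvd_one.1 h5)

theorem card_coprime_of_reg [Fact p.Prime] (V : Subgroup G) (hV : ∀ a ∈ V, IsReg p a) :
    (Nat.card V).Coprime p := by
  have hp : p.Prime := Fact.out
  rw [Nat.coprime_comm, hp.coprime_iff_not_dvd]
  intro hd
  obtain ⟨a, ha⟩ := exists_prime_orderOf_dvd_card' p hd
  have h1 := hV a a.2
  unfold IsReg at h1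
  rw [Subgroup.orderOf_coe, ha] at h1
  exact hp.one_lt.ne' ((Nat.coprime_self p).1 h1)

theorem y3 (h : Hyp G m n) [Fact p.Prime] (hpm : p ∣ m) (hB1 : B1Stmt G p) (hB2 : B2Stmt G p)
    (hV : ∀ u : G, NP p u → ∃ V : Subgroup G, (∀ a ∈ V, ∀ b ∈ V, Commute a b) ∧
      (∀ a ∈ V, Commute u a ∧ IsReg p a) ∧ ¬ V ≤ Subgroup.center G ∧
      (∀ g : G, (∀ x : G, Commute u x → Commute u (g * x * g⁻¹)) → ∀ a ∈ V, g * a * g⁻¹ ∈ V)) :
    m.factorization p = 1 := by
  have hp : p.Prime := Fact.out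
  obtain ⟨P⟩ : Nonempty (Sylow p G) := inferInstance
  -- elements of `P` commuting with `P` are central in `G`
  have hi : ∀ x : G, (∀ s ∈ P, Commute x s) → x ∈ Subgroup.center G := by
    intro x hx
    by_contra hxz
    apply not_le_Cen h hpm P hxz
    intro s hs
    exact mem_Cen'.2 (hx s hs)
  -- `P` is not central
  obtain ⟨x₁, hx₁⟩ := h.exI
  have hx₁z : x₁ ∉ Subgroup.center G := by
    rw [← index_eq_one_iff, hx₁]
    exact h.hm.ne'
  have hPz : ∃ x ∈ P, x ∉ Subgroup.center G := by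
    by_contra hcon
    push Not at hcon
    apply not_le_Cen h hpm P hx₁z
    intro s hs
    exact center_le_Cen x₁ (hcon s hs)
  obtain ⟨x₀, hx₀P, hx₀z⟩ := hPz
  have hx₀s : ∃ s ∈ P, ¬ Commute s x₀ := by
    by_contra hcon
    push Not at hcon
    exact hx₀z (hi x₀ (fun s hs => (hcon s hs).symm))
  obtain ⟨s₀, hs₀P, hs₀⟩ := hx₀s
  obtain ⟨u, huP, ⟨s₁, hs₁P, hs₁⟩, hu2, hu3⟩ := hB1 P P P.isPGroup' le_rfl
    (fun s hs x hx => (P : Subgroup G).mul_mem ((P : Subgroup G).mul_mem hs hx)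
      ((P : Subgroup G).inv_mem hs)) ⟨x₀, hx₀P, s₀, hs₀P, hs₀⟩
  have huNP : NP p u := by
    refine ⟨isP_of_mem P.isPGroup' huP, ?_⟩
    intro hz
    exact hs₁ (commute_of_mem_center hz s₁).symm
  -- conjugation by `s ∈ P` preserves `C(u)`
  have hiv : ∀ s ∈ P, ∀ x : G, Commute u x → Commute u (s * x * s⁻¹) := by
    intro s hs x hx
    have hc : s * u * s⁻¹ * u⁻¹ ∈ Subgroup.center G := hi _ (fun s' hs' => hu2 s hs s' hs')
    have h1 : Commute (s * u * s⁻¹) (s * x * s⁻¹) := (commute_conj_iff s u x).2 hx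
    have h2 : u = (s * u * s⁻¹ * u⁻¹)⁻¹ * (s * u * s⁻¹) := by group
    rw [h2]
    exact Commute.mul_left
      (commute_of_mem_center ((Subgroup.center G).inv_mem hc) _) h1
  have hRmem : ∀ g : G, g ∈ RR p u ↔ Commute u g ∧ IsP p g := fun g => mem_RR h hpm huNP
  -- `RR p u ≤ P`
  have hRP : RR p u ≤ P := by
    have hnorm : (P : Subgroup G) ≤ Subgroup.normalizer ((RR p u : Subgroup G) : Set G) := by
      intro s hs
      rw [Subgroup.mem_normalizer_iff]
      intro a
      constructor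
      · intro ha
        rw [hRmem] at ha ⊢
        exact ⟨hiv s hs a ha.1, IsP.conj ha.2 s⟩
      · intro ha
        rw [hRmem] at ha ⊢
        have h1 := hiv s⁻¹ ((P : Subgroup G).inv_mem hs) _ ha.1
        have h2 := IsP.conj ha.2 s⁻¹
        have h3 : s⁻¹ * (s * a * s⁻¹) * s⁻¹⁻¹ = a := by group
        rw [h3] at h1 h2
        exact ⟨h1, h2⟩
    have hpg : IsPGroup p ((P : Subgroup G) ⊔ RR p u : Subgroup G) :=
      IsPGroup.to_sup_of_normal_right' P.isPGroup' (isPGroup_RR h hpm huNP) hnorm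
    have heq := P.is_maximal' hpg le_sup_left
    calc RR p u ≤ (P : Subgroup G) ⊔ RR p u := le_sup_right
      _ = P := heq
  have hinf : (Cen u ⊓ (P : Subgroup G)) = RR p u := by
    apply le_antisymm
    · intro g hg
      rw [hRmem]
      exact ⟨mem_Cen'.1 hg.1, isP_of_mem P.isPGroup' hg.2⟩
    · intro g hg
      exact ⟨mem_Cen'.2 ((hRmem g).1 hg).1, hRP hg⟩
  have hrel : (Cen u).relIndex P = p ^ (m.factorization p) := by
    have h1 : (Cen u ⊓ (P : Subgroup G)).relIndex P * Nat.card (Cen u ⊓ (P : Subgroup G) : Subgroup G)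
        = Nat.card (P : Subgroup G) := by
      have := Subgroup.relIndex_mul_relIndex ⊥ (Cen u ⊓ (P : Subgroup G)) (P : Subgroup G) bot_le
        inf_le_right
      rw [Subgroup.relIndex_bot_left, Subgroup.relIndex_bot_left] at this
      rw [mul_comm]
      exact this
    rw [Subgroup.inf_relIndex_right, hinf, card_RR h hpm huNP] at h1
    have h2 : Nat.card (P : Subgroup G) = rho G p m * p ^ (m.factorization p) := card_sylow h hpm P
    rw [h2, mul_comm] at h1
    exact Nat.eq_of_mul_eq_mul_left rho_pos h1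
  obtain ⟨V, hVab, hVu, hVz, hVn⟩ := hV u huNP
  have hfin := hB2 P V (Subgroup.center G) u P.isPGroup' huP hu2 hu3 hVab
    (card_coprime_of_reg V (fun a ha => (hVu a ha).2))
    (fun s hs a ha => hVn s (hiv s hs) a ha)
    (fun s hs hsu a ha => commute_of_NP h hpm huNP hsu.symm (isP_of_mem P.isPGroup' hs)
      (hVu a ha).1 (hVu a ha).2)
    (fun s hs hsu a ha hsa => by
      by_contra haz
      have := mem_RR_of_commute h hpm huNP (w := a) ⟨(hVu a ha).2, haz⟩ (hVu a ha).1 P
        P.isPGroup' hRP hs hsa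
      exact hsu ((hRmem s).1 this).1.symm)
    hVz
  rw [hrel] at hfin
  have h4 := fact_pos h hp hpm
  have h5 : m.factorization p ≤ 1 := by
    have := (Nat.pow_dvd_pow_iff_le_right hp.one_lt).1 (by simpa using hfin : p ^ (m.factorization p) ∣ p ^ 1)
    exact this
  omega

end Cfsg.Agent.Lib.Helper86CSY3
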