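import Mathlib
import Cfsg.Agent.Lib.Helper65CSDefs
import Cfsg.Agent.Lib.Helper65CSBasic

set_option autoImplicit false

/-! PROJECT 65, piece `y5`. -/

namespace Cfsg.Agent.Lib.Helper86CSY5

open Cfsg.Agent.Lib.Helper65CSDefs Cfsg.Agent.Lib.Helper65CSBasic

variable {G : Type*} [Group G] [Finite G] {m n p : ℕ}

theorem y5 (h : Hyp G m n) (hΩ : OmegaStmt G m) (q : ℕ) [Fact p.Prime] [Fact q.Prime]
    (hpq : p ≠ q) (hpm : p ∣ m) (hqm : q ∣ m) (hB3 : B3Stmt G p) (hconj : ConjStmt G m p)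
    (u : G) (hu : NP p u) (hI : (Cen u).index = m) : False := by
  have hp : p.Prime := Fact.out
  have hq : q.Prime := Fact.out
  obtain ⟨v, hv, hvu⟩ := exists_NP_commute h hqm hu.2
  have huv : Cen u = Cen v := hΩ p q hp hq hpq hpm hqm u v hu hv hvu.symm
  have hvreg : IsReg p v := IsP.isReg hq hp hpq.symm hv.1
  have hc := hconj u v hu (huv ▸ hI) hvu.symm hvreg
  -- `C(u)` is normal
  have hnorm : ∀ g x : G, Commute u x → Commute u (g * x * g⁻¹) := by
    intro g x hx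
    have h1 : Cen u = Cen (g * v * g⁻¹) :=
      hΩ p q hp hq hpq hpm hqm u _ hu (NP.conj hv g) (hc g).symm
    have h2 : Commute v x := by
      rw [← mem_Cen', ← huv, mem_Cen']; exact hx
    rw [← mem_Cen', h1, mem_Cen', commute_conj_iff]
    exact h2
  have hUmem : ∀ g : G, g ∈ RR p u ↔ Commute u g ∧ IsP p g := fun g => mem_RR h hpm hu
  have hUn : ∀ g : G, ∀ a ∈ RR p u, g * a * g⁻¹ ∈ RR p u := by
    intro g a ha
    rw [hUmem] at ha ⊢
    exact ⟨hnorm g a ha.1, IsP.conj ha.2 g⟩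
  have hUab : ∀ a ∈ RR p u, ∀ b ∈ RR p u, Commute a b := by
    intro a ha b hb
    rw [hUmem] at ha hb
    by_cases haz : a ∈ Subgroup.center G
    · exact commute_of_mem_center haz b
    · have hav : Commute a v := by
        have : a ∈ Cen v := by rw [← huv, mem_Cen']; exact ha.1
        exact mem_Cen.1 this
      have h1 : Cen a = Cen v := hΩ p q hp hq hpq hpm hqm a v ⟨ha.2, haz⟩ hv hav
      rw [← mem_Cen', h1, ← huv, mem_Cen']
      exact hb.1
  obtain ⟨P, hP⟩ := exists_sylow_ge_RR h hpm hu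
  obtain ⟨t, htP, htR⟩ := exists_not_mem_RR h hpm hu P
  obtain ⟨htNP, htu⟩ := NP_of_not_mem_RR h hpm hu P.isPGroup' htP htR
  obtain ⟨w, hw, hwt⟩ := exists_NP_commute h hqm htNP.2
  have htw : Cen t = Cen w := hΩ p q hp hq hpq hpm hqm t w htNP hw hwt.symm
  have hwreg : IsReg p w := IsP.isReg hq hp hpq.symm hw.1
  have h3 := hB3 (RR p u) t w (isPGroup_RR h hpm hu) hUab htNP.1 hwreg hwt.symm
    (fun a ha => hUn t a ha) (fun a ha => hUn w a ha)
    (fun a _ hta => by
      rw [← mem_Cen', ← htw, mem_Cen']; exact hta)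
  have huU : u ∈ RR p u := (hUmem u).2 ⟨Commute.refl u, hu.1⟩
  have hwu : Commute w u := h3 u huU
  have h4 : Cen u = Cen w := hΩ p q hp hq hpq hpm hqm u w hu hw hwu.symm
  apply htu
  have : t ∈ Cen t := mem_Cen.2 (Commute.refl t)
  rw [htw, ← h4, mem_Cen'] at this
  exact this

end Cfsg.Agent.Lib.Helper86CSY5
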