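import Mathlib
import Cfsg.Prelude.Def_FusionComponents
import Cfsg.Prelude.Def_Local
import Cfsg.Agent.Lib.Helper87Realized

set_option autoImplicit false

/-! Vocabulary of project 5156 (row S5156: terminating residual series). -/

namespace Cfsg.Agent.Lib.Helper86TRDefs

open Cfsg Cfsg.FusionSystem Cfsg.Agent.Lib.Helper87Fusion Cfsg.Agent.Lib.Helper87Realized

/-- `O^{p'}(G)`: the subgroup generated by the elements of `p`-power order. -/
def Opp (p : ℕ) (G : Type*) [Group G] : Subgroup G :=
  Subgroup.closure {g : G | ∃ k : ℕ, orderOf g = p ^ k}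

variable {Ω : Type*} [Group Ω] {S T : Subgroup Ω} {G : Type*} [Group G]

/-- `j : T →* K` is the restriction of `ι : S →* G` (`T ≤ S`, `K ≤ G`). -/
def IsRes (ι : S →* G) (K : Subgroup G) (j : T →* K) : Prop :=
  T ≤ S ∧ ∀ x : T, ((j x : K) : G) = iot ι (x : Ω)

/-- `B` can be reached from `⊥` by a chain of subgroups strongly closed in `F`, each step centralized by `R`. -/
inductive Reach (F : FusionSystem S) (R : Subgroup Ω) : Subgroup Ω → Prop
  | bot : Reach F R ⊥
  | step {A B : Subgroup Ω} : Reach F R A → A ≤ B → F.StronglyClosed B → ⁅R, B⁆ ≤ A → Reach F R B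

end Cfsg.Agent.Lib.Helper86TRDefs
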