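import Mathlib
import Cfsg.Prelude.Def_GeometricClasses
import Cfsg.Agent.Lib.Helper48UnipOrth
import Cfsg.Agent.Lib.Helper48QuadType
import Cfsg.Agent.Lib.Helper49All
import Cfsg.Agent.Lib.Helper49Forms
import Cfsg.Agent.Lib.Helper49OddForm

set_option autoImplicit false
open scoped MatrixGroups
open Module Matrix Cfsg
open Cfsg.Agent.Lib.Helper48RankSeq Cfsg.Agent.Lib.Helper48QuadEx Cfsg.Agent.Lib.Helper48QuadType
  Cfsg.Agent.Lib.Helper48UnipOrth

namespace Cfsg.Agent.Lib.Helper86UniPT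

variable {F : Type*} [Field F] [Fintype F] {ι : Type} [Fintype ι] [DecidableEq ι]
  (Q : QuadraticForm F (ι → F))

/-- U-PT -/
theorem plusType_of_sq_zero (h2 : (2 : F) ≠ 0) (x : GL ι F) (hx : x ∈ Cfsg.isometryGroup F ⇑Q)
    (W : Submodule F (ι → F)) (hxW : W.map (Matrix.toLin' (x : Matrix ι ι F)) ≤ W)
    (h : finrank F ↥(W.map ((Matrix.toLin' ((x : Matrix ι ι F) - 1)) ^ 2)) = 0)
    (h' : 2 * finrank F ↥(W.map ((Matrix.toLin' ((x : Matrix ι ι F) - 1)) ^ 1)) = finrank F ↥W) :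
    Cfsg.Geo.IsPlusTypeOn ⇑Q W := by
  have hiso := Cfsg.Agent.Lib.Helper49Orth.mem_iso.1 hx
  set N := Matrix.toLin' ((x : Matrix ι ι F) - 1) with hN
  have hxN : ∀ v, (x : Matrix ι ι F) *ᵥ v = v + N v := by
    intro v
    rw [hN, Matrix.toLin'_apply, Matrix.sub_mulVec, Matrix.one_mulVec]
    abel
  have hbot : W.map (N ^ 2) = ⊥ := Submodule.finrank_eq_zero.1 h
  have hN2 : ∀ w ∈ W, N (N w) = 0 := by
    intro w hw
    have h1 : (N ^ 2) w ∈ W.map (N ^ 2) := Submodule.mem_map_of_mem hw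
    rw [hbot, Submodule.mem_bot] at h1
    simpa [pow_two] using h1
  rw [pow_one] at h'
  refine ⟨W.map N, ?_, ?_, h'⟩
  · rintro _ ⟨w, hw, rfl⟩
    have h1 : (x : Matrix ι ι F) *ᵥ w ∈ W := hxW ⟨w, hw, by rw [Matrix.toLin'_apply]⟩
    rw [hxN] at h1
    have := W.sub_mem h1 hw
    simpa using this
  · rintro _ ⟨w, hw, rfl⟩
    have hpol : QuadraticMap.polar Q ((x : Matrix ι ι F) *ᵥ w) ((x : Matrix ι ι F) *ᵥ (N w)) =
        QuadraticMap.polar Q w (N w) := by
      unfold QuadraticMap.polar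
      rw [← Matrix.mulVec_add, hiso, hiso, hiso]
    rw [hxN w, hxN (N w), hN2 w hw, add_zero, QuadraticMap.polar_add_left] at hpol
    have h3 : QuadraticMap.polar Q (N w) (N w) = 0 := by
      have := hpol
      rwa [add_eq_left] at this
    rw [QuadraticMap.polar_self] at h3
    rw [two_smul, ← two_mul] at h3
    exact (mul_eq_zero.1 h3).resolve_left h2

end Cfsg.Agent.Lib.Helper86UniPT
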