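import Mathlib
import Cfsg.Agent.Lib.Helper87Rel
import Cfsg.Agent.Lib.Helper86Sub
import Cfsg.Agent.Lib.Helper86Fusion4

set_option autoImplicit false
set_option linter.unusedSectionVars false

namespace Cfsg.Agent.Lib.Helper87Agree

open Cfsg Cfsg.FusionSystem Cfsg.Agent.Lib.Helper87Fusion Cfsg.Agent.Lib.Helper87Fusion2
  Cfsg.Agent.Lib.Helper87Sylow Cfsg.Agent.Lib.Helper87Rel

variable {Ω : Type*} [Group Ω]

theorem isMap_sub_iff {H T : Subgroup Ω} {hTH : T ≤ H} {P : Subgroup Ω} {f : Ω → Ω} :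
    IsMap (fusionSystemOfSubgroup H T hTH) P f ↔
      P ≤ T ∧ ∃ g ∈ H, ∀ x ∈ P, f x = g * x * g⁻¹ ∧ g * x * g⁻¹ ∈ T := by
  constructor
  · rintro ⟨φ, ⟨hP, hφT, g, hg, hφ⟩, hφf⟩
    refine ⟨hP, g, hg, fun x hx => ?_⟩
    have e1 := hφf ⟨x, hx⟩
    have e2 := hφ ⟨x, hx⟩
    have e3 := hφT ⟨x, hx⟩
    simp only at e1 e2
    exact ⟨e1 ▸ e2, e2 ▸ e3⟩
  · rintro ⟨hP, g, hg, h⟩
    refine ⟨conjHom P g, ⟨hP, fun x => (h x x.2).2, g, hg, fun x => rfl⟩, fun x => ?_⟩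
    exact (h x x.2).1.symm

/-- an automorphism of `P` fixing `R ⊴ P` pointwise, where `C_P(R) ≤ R`, is a `p`-element. -/
theorem pow_card_eq_one_of_fix {P R : Subgroup Ω} (hRP : R ≤ P)
    (hn : ∀ x ∈ P, ∀ r ∈ R, x * r * x⁻¹ ∈ R)
    (hc : ∀ z ∈ P, (∀ r ∈ R, z * r = r * z) → z ∈ R) (u : MulAut P)
    (hu : ∀ x : P, (x : Ω) ∈ R → u x = x) : u ^ (Nat.card R) = 1 := by
  have hz : ∀ x : P, ((x⁻¹ * u x : P) : Ω) ∈ R := by
    intro x
    apply hc _ (x⁻¹ * u x).2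
    intro r hr
    have h1 : u (x * ⟨r, hRP hr⟩ * x⁻¹) = x * ⟨r, hRP hr⟩ * x⁻¹ := hu _ (hn x x.2 r hr)
    rw [map_mul, map_mul, map_inv, hu ⟨r, hRP hr⟩ hr] at h1
    have h2 := congrArg Subtype.val h1
    simp only [Subgroup.coe_mul, Subgroup.coe_inv] at h2 ⊢
    calc (x : Ω)⁻¹ * (u x : P) * r = (x : Ω)⁻¹ * ((u x : P) * r * ((u x : P) : Ω)⁻¹) * (u x : P) := by
          group
      _ = (x : Ω)⁻¹ * ((x : Ω) * r * (x : Ω)⁻¹) * (u x : P) := by rw [h2]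
      _ = r * ((x : Ω)⁻¹ * (u x : P)) := by group
  have hpow : ∀ (j : ℕ) (x : P), (u ^ j) x = x * (x⁻¹ * u x) ^ j := by
    intro j
    induction j with
    | zero => intro x; simp
    | succ j ih =>
      intro x
      rw [pow_succ', MulAut.mul_apply, ih, map_mul, map_pow, hu _ (hz x), pow_succ',
        ← mul_assoc, ← mul_assoc, mul_inv_cancel, one_mul]
  ext x
  rw [hpow]
  have : (x⁻¹ * u x) ^ (Nat.card R) = 1 := by
    apply Subtype.ext
    have h1 : ((⟨_, hz x⟩ : R)) ^ (Nat.card R) = 1 := pow_card_eq_one'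
    have h2 := congrArg Subtype.val h1
    rw [Subgroup.coe_pow] at h2
    rw [Subgroup.coe_pow]
    exact h2
  rw [this]; simp

theorem le_of_agree {T : Subgroup Ω} [Finite T] {p : ℕ} [Fact p.Prime] (hT : IsPGroup p T)
    (E₁ E₂ : FusionSystem T) (h₁ : E₁.IsSaturated p) {R : Subgroup Ω} (hR : E₁.IsNormal R)
    (hc : centralizerIn T R ≤ R)
    (H : ∀ P : Subgroup Ω, R ≤ P → P ≤ T → ∀ β ∈ E₁.autGroup P,
      (∀ γ ∈ E₂.autGroup P, β * γ * β⁻¹ ∈ E₂.autGroup P) ∧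
        ∃ β₂ ∈ E₂.autGroup P, ∀ x : P, (x : Ω) ∈ R → β₂ x = β x) : E₁ ≤ E₂ := by
  classical
  apply Cfsg.Agent.Lib.Helper86Alperin.alperin hT E₁ h₁ E₂
  intro P hP
  have hsc := Cfsg.Agent.Lib.Helper86Sub.normal_stronglyClosed hR
  have hfn : E₁.IsFullyNormalized P := by
    rcases hP with rfl | hP
    · exact Cfsg.Agent.Lib.Helper86Fusion4.fullyNormalized_self E₁
    · exact hP.2.1
  have hPT : P ≤ T := hfn.1
  have hRP : R ≤ P := by
    rcases hP with rfl | hP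
    · exact hR.1
    · exact Cfsg.Agent.Lib.Helper86Sub.normal_le_centric_radical hT E₁ hR hP.1
        (Cfsg.Agent.Lib.Helper86Fusion3.essential_radical hT E₁ P hP)
  have : Finite P := Cfsg.Agent.Lib.Helper86Fusion.finite_of_le hPT
  have : Finite R := Cfsg.Agent.Lib.Helper86Fusion.finite_of_le hR.1
  obtain ⟨-, ⟨-, Rs, hRs⟩, -⟩ := Cfsg.Agent.Lib.Helper86Fusion2.saturated_fullyNormalized hT h₁ hfn
  have hres : pResidual p (E₁.autGroup P) ≤ (E₂.autGroup P).subgroupOf (E₁.autGroup P) := by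
    unfold pResidual
    rw [Subgroup.closure_le]
    intro γ hγ
    rw [SetLike.mem_coe, Subgroup.mem_subgroupOf]
    obtain ⟨hnorm, β₂, hβ₂, hag⟩ := H P hRP hPT γ γ.2
    obtain ⟨k, hk⟩ := IsPGroup.iff_card.1 (hT.to_le hR.1)
    have hu : (β₂⁻¹ * (γ : MulAut P)) ^ (p ^ k) = 1 := by
      rw [← hk]
      apply pow_card_eq_one_of_fix hRP
      · intro x hx r hr
        exact Cfsg.Agent.Lib.Helper87Fusion3.StronglyClosed_conj_mem hsc (hPT hx) hr
      · intro z hz hzr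
        exact hc (mem_centralizerIn.2 ⟨hPT hz, fun r hr => (hzr r hr).symm⟩)
      · intro x hx
        rw [MulAut.mul_apply, ← hag x hx]
        simp
    refine mem_of_mul_pElement (p := p) (n := β₂) (u := β₂⁻¹ * (γ : MulAut P)) (by group) hβ₂ hnorm hu ?_
    rw [Subgroup.orderOf_coe]; exact hγ
  intro β hβ
  obtain ⟨a, ha, b, hb, hab⟩ :=
    Cfsg.Agent.Lib.Helper86Group.exists_mul_of_pResidual_sylow Rs ⟨β, hβ⟩
  have h1 : (a : MulAut P) ∈ E₂.autGroup P := Subgroup.mem_subgroupOf.1 (hres ha)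
  have h2 : (b : MulAut P) ∈ E₂.autGroup P := by
    have : b ∈ (Rs : Subgroup (E₁.autGroup P)) := hb
    rw [hRs] at this
    exact autInducedBy_le_autGroup E₂ hPT (Subgroup.mem_subgroupOf.1 this)
  have h3 : β = (a : MulAut P) * (b : MulAut P) := congrArg Subtype.val hab
  rw [h3]; exact mul_mem h1 h2

end Cfsg.Agent.Lib.Helper87Agree
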