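import Cfsg.Prelude
import Cfsg.Agent.Lib.Helper30SZ

set_option autoImplicit false
open Cfsg Subgroup

namespace Cfsg.Agent.Lib.Helper87BG36frattiniU

/-- piece `frattiniU` -/
theorem frattiniU {G : Type*} [Group G] [Finite G] (p : ℕ) [Fact p.Prime]
    (V W U : Subgroup G) [V.Normal] [hWn : W.Normal] (hV : IsPGroup p V) (hVc : IsMulCommutative V)
    (hVU : V ⊓ U = ⊥) (hVUW : V ⊔ U = W) (hU : (Nat.card U).Coprime p) :
    V ⊔ normalizer (U : Set G) = ⊤ := by
  rw [eq_top_iff]
  intro g _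
  have hUV : U ≤ normalizer (V : Set G) := by
    rw [normalizer_eq_top_iff.mpr inferInstance]; exact le_top
  have hcop : (Nat.card U).Coprime (Nat.card V) := by
    obtain ⟨n, hn⟩ := hV.exists_card_eq
    rw [hn]; exact hU.pow_right n
  have hUW : U ≤ W := hVUW ▸ le_sup_right
  have hB : U.map (MulAut.conj g).toMonoidHom ≤ V ⊔ U := by
    rw [hVUW]
    rintro _ ⟨u, hu, rfl⟩
    exact hWn.conj_mem u (hUW hu) g
  have hcard : Nat.card (U.map (MulAut.conj g).toMonoidHom) = Nat.card U :=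
    Subgroup.card_map_of_injective (MulAut.conj g).injective
  have hsolv : Group.IsSolvable V := by
    exact Group.isSolvable_of_comm (fun a b => hVc.is_comm.comm a b)
  obtain ⟨n, hn, h⟩ := Cfsg.Agent.Lib.Helper30SZ.sz_conj hUV hcop (Or.inr hsolv) hB hcard
  have hmem : n⁻¹ * g ∈ normalizer (U : Set G) := by
    rw [mem_normalizer_iff]
    intro u
    have h1 : u ∈ U ↔ g * u * g⁻¹ ∈ U.map (MulAut.conj g).toMonoidHom := by
      constructor
      · intro hu; exact ⟨u, hu, rfl⟩
      · rintro ⟨u', hu', he⟩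
        have : u' = u := (MulAut.conj g).injective he
        exact this ▸ hu'
    rw [h1, h]
    have : n⁻¹ * (g * u * g⁻¹) * n = n⁻¹ * g * u * (n⁻¹ * g)⁻¹ := by group
    rw [this]
  have : g = n * (n⁻¹ * g) := by group
  rw [this]
  exact Subgroup.mul_mem _ (mem_sup_left hn) (mem_sup_right hmem)

end Cfsg.Agent.Lib.Helper87BG36frattiniU
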