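import Cfsg.Prelude
import Cfsg.Agent.S0027
import Cfsg.Agent.Lib.Helper53Comm
import Cfsg.Agent.Lib.Helper87BG36Defs

set_option autoImplicit false
open Cfsg Subgroup

namespace Cfsg.Agent.Lib.Helper87BG36general
open Cfsg.Agent.Lib.Helper87BG36Defs

/-- piece `general`: reduction of S1444 to the case `⁅H, R⁆ = H` (apply `main` to
`G' = ↥(⁅H, R⁆ ⊔ R)`; `⁅⁅H, R⁆, R⁆ = ⁅H, R⁆` is S0027). -/
theorem general.{u} {G : Type u} [Group G] [Finite G] [Group.IsSolvable G]
    (hodd : Odd (Nat.card G))
    (H R R₀ : Subgroup G) [H.Normal] (hHall : (Nat.card H).Coprime H.index)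
    (hR : IsComplement' H R) (hR₀ : R₀ ≤ R) (hR₀p : (Nat.card R₀).Prime)
    (hZ : IsZGroup ↥(H ⊓ centralizer (R₀ : Set G))) (p : ℕ) [Fact p.Prime]
    (main : ∀ (G' : Type u) [Group G'] [Finite G'] [Group.IsSolvable G'], Odd (Nat.card G') →
      ∀ (H' R' R₀' : Subgroup G') [H'.Normal], (Nat.card H').Coprime H'.index →
      IsComplement' H' R' → R₀' ≤ R' → (Nat.card R₀').Prime →
      IsZGroup ↥(H' ⊓ centralizer (R₀' : Set G')) → ⁅H', R'⁆ = H' → PL1Rel p ⊥ H') :
    ∃ W X : Subgroup G, ⁅H, R⁆ ≤ normalizer (W : Set G) ∧ ⁅H, R⁆ ≤ normalizer (X : Set G) ∧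
      W ≤ X ∧ X ≤ ⁅H, R⁆ ∧ (Nat.card W).Coprime p ∧ (∃ m : ℕ, W.relIndex X = p ^ m) ∧
      (X.relIndex ⁅H, R⁆).Coprime p := by
  have hRcard : Nat.card R = H.index := by
    have := hR.card_mul_card
    have h2 := H.card_mul_index
    have h3 : 0 < Nat.card H := Nat.card_pos
    nlinarith [this, h2]
  have hRH : (Nat.card R).Coprime (Nat.card H) := by rw [hRcard]; exact hHall.symm
  set K : Subgroup G := ⁅H, R⁆ with hK
  have hKH : K ≤ H := Subgroup.commutator_le_left H R
  have hKK : ⁅K, R⁆ = K :=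
    Cfsg.Agent.S0027.result R H (by rw [normalizer_eq_top_iff.mpr inferInstance]; exact le_top) hRH
      (Or.inl inferInstance)
  have hRK : R ≤ normalizer (K : Set G) :=
    Cfsg.Agent.Lib.Helper53Comm.le_normalizer_commutator_self_right H R
  set M : Subgroup G := K ⊔ R with hM
  have hKM : K ≤ M := le_sup_left
  have hRM : R ≤ M := le_sup_right
  have hMK : M ≤ normalizer (K : Set G) := sup_le le_normalizer hRK
  have hinj : Function.Injective M.subtype := M.subtype_injective
  have hn : (K.subgroupOf M).Normal := (normal_subgroupOf_iff_le_normalizer hKM).mpr hMK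
  have hcK : Nat.card (K.subgroupOf M) = Nat.card K :=
    Nat.card_congr (subgroupOfEquivOfLe hKM).toEquiv
  have hcR : Nat.card (R.subgroupOf M) = Nat.card R :=
    Nat.card_congr (subgroupOfEquivOfLe hRM).toEquiv
  have hcR₀ : Nat.card (R₀.subgroupOf M) = Nat.card R₀ :=
    Nat.card_congr (subgroupOfEquivOfLe (hR₀.trans hRM)).toEquiv
  have hcop : (Nat.card K).Coprime (Nat.card R) :=
    (Nat.Coprime.coprime_dvd_right (Subgroup.card_dvd_of_le hKH) hRH).symm
  have hsup : K.subgroupOf M ⊔ R.subgroupOf M = ⊤ := by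
    apply Subgroup.map_injective hinj
    rw [Subgroup.map_sup, map_subgroupOf_eq_of_le hKM, map_subgroupOf_eq_of_le hRM,
      ← MonoidHom.range_eq_map, Subgroup.range_subtype]
  have hdisj : Disjoint (K.subgroupOf M) (R.subgroupOf M) := by
    apply Subgroup.disjoint_of_coprime_natCard
    rw [hcK, hcR]; exact hcop
  have hcompl : IsComplement' (K.subgroupOf M) (R.subgroupOf M) :=
    isComplement'_of_disjoint_and_mul_eq_univ hdisj (by
      rw [← Subgroup.normal_mul, hsup]; rfl)
  have hindex : (K.subgroupOf M).index = Nat.card R := by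
    have h1 := hcompl.card_mul_card
    have h2 := (K.subgroupOf M).card_mul_index
    rw [hcR] at h1
    have h3 : 0 < Nat.card (K.subgroupOf M) := Nat.card_pos
    nlinarith [h1, h2]
  have hZ' : IsZGroup ↥(K.subgroupOf M ⊓ centralizer ((R₀.subgroupOf M : Subgroup M) : Set M)) := by
    let f : ↥(K.subgroupOf M ⊓ centralizer ((R₀.subgroupOf M : Subgroup M) : Set M)) →*
        ↥(H ⊓ centralizer (R₀ : Set G)) :=
      { toFun := fun x => ⟨x.1.1, by
          refine ⟨hKH (mem_subgroupOf.mp x.2.1), ?_⟩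
          show x.1.1 ∈ centralizer (R₀ : Set G)
          rw [mem_centralizer_iff]
          intro r hr
          have h1 := mem_centralizer_iff.mp x.2.2 ⟨r, hRM (hR₀ hr)⟩ (by
            show (⟨r, hRM (hR₀ hr)⟩ : M) ∈ R₀.subgroupOf M
            rw [mem_subgroupOf]; exact hr)
          exact congrArg Subtype.val h1⟩
        map_one' := rfl
        map_mul' := fun _ _ => rfl }
    have hf : Function.Injective f := by
      intro x y hxy
      have : x.1.1 = y.1.1 := congrArg (fun t => t.1) hxy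
      exact Subtype.ext (Subtype.ext this)
    exact IsZGroup.of_injective hf
  have hcomm : ⁅K.subgroupOf M, R.subgroupOf M⁆ = K.subgroupOf M := by
    apply Subgroup.map_injective hinj
    rw [Subgroup.map_commutator, map_subgroupOf_eq_of_le hKM, map_subgroupOf_eq_of_le hRM, hKK]
  obtain ⟨W, X, hWn, hXn, -, hWX, hXK, h1, h2, h3⟩ := main ↥M
    (Odd.of_dvd_nat hodd (Subgroup.card_subgroup_dvd_card M))
    (K.subgroupOf M) (R.subgroupOf M) (R₀.subgroupOf M) (by rw [hcK, hindex]; exact hcop) hcompl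
    (Subgroup.comap_mono hR₀) (by rw [hcR₀]; exact hR₀p) hZ' hcomm
  have hnorm : ∀ Y : Subgroup M, Y.Normal → K ≤ normalizer ((Y.map M.subtype : Subgroup G) : Set G) := by
    intro Y hY
    have h := le_normalizer_map (H := Y) M.subtype
    rw [normalizer_eq_top_iff.mpr hY, ← MonoidHom.range_eq_map, Subgroup.range_subtype] at h
    exact hKM.trans h
  refine ⟨W.map M.subtype, X.map M.subtype, hnorm W hWn, hnorm X hXn, Subgroup.map_mono hWX, ?_, ?_,
    ?_, ?_⟩
  · have := Subgroup.map_mono (f := M.subtype) hXK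
    rwa [map_subgroupOf_eq_of_le hKM] at this
  · rw [Subgroup.card_map_of_injective hinj]
    rwa [relIndex_bot_left] at h1
  · rw [relIndex_map_map_of_injective _ _ hinj]; exact h2
  · have : K = (K.subgroupOf M).map M.subtype := (map_subgroupOf_eq_of_le hKM).symm
    rw [this, relIndex_map_map_of_injective _ _ hinj]; exact h3

end Cfsg.Agent.Lib.Helper87BG36general
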