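import Cfsg.Prelude
import Cfsg.Agent.S0027
import Cfsg.Agent.Lib.Helper30SZ

set_option autoImplicit false
open Cfsg Subgroup

namespace Cfsg.Agent.Lib.Helper87BG36red

theorem exists_min_subgroup {G : Type*} [Group G] [Finite G] (P : Subgroup G → Prop)
    (h : ∃ X, P X) : ∃ X, P X ∧ ∀ Y, Y ≤ X → P Y → Y = X := by
  classical
  have hfin : {X : Subgroup G | P X}.Finite := Set.toFinite _
  obtain ⟨X, hX⟩ := hfin.exists_minimal h
  exact ⟨X, hX.1, fun Y hY hPY => le_antisymm hY (hX.2 hPY hY)⟩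

theorem exists_min_pair {G : Type*} [Group G] [Finite G] {p : ℕ} (L A R : Subgroup G)
    (hAL : A ≤ normalizer (L : Set G)) (hRL : R ≤ normalizer (L : Set G))
    (hRA : R ≤ normalizer (A : Set G))
    (hLs : Group.IsSolvable L) (hLp : (Nat.card L).Coprime p)
    (hA : IsPGroup p A) (hA1 : A ≠ ⊥) (hCAL : A ⊓ centralizer (L : Set G) = ⊥) :
    ∃ A₁ Q : Subgroup G, A₁ ≤ A ∧ A₁ ≠ ⊥ ∧ R ≤ normalizer (A₁ : Set G) ∧
      (∀ B ≤ A₁, R ≤ normalizer (B : Set G) → B = ⊥ ∨ B = A₁) ∧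
      Q ≤ L ∧ A₁ ≤ normalizer (Q : Set G) ∧ R ≤ normalizer (Q : Set G) ∧ ⁅Q, A₁⁆ = Q ∧ Q ≠ ⊥ ∧
      (∀ X ≤ Q, X ≠ Q → A₁ ≤ normalizer (X : Set G) → R ≤ normalizer (X : Set G) →
        A₁ ≤ centralizer (X : Set G)) := by
  obtain ⟨A₁, ⟨hA₁A, hA₁1, hRA₁⟩, hA₁min⟩ := exists_min_subgroup
    (fun X : Subgroup G => X ≤ A ∧ X ≠ ⊥ ∧ R ≤ normalizer (X : Set G)) ⟨A, le_rfl, hA1, hRA⟩
  have hA₁L : ¬ A₁ ≤ centralizer (L : Set G) := by
    intro h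
    apply hA₁1
    rw [eq_bot_iff, ← hCAL]
    exact le_inf hA₁A h
  obtain ⟨Q, ⟨hQL, hAQ, hRQ, hQc⟩, hQmin⟩ := exists_min_subgroup
    (fun X : Subgroup G => X ≤ L ∧ A₁ ≤ normalizer (X : Set G) ∧ R ≤ normalizer (X : Set G) ∧
      ¬ A₁ ≤ centralizer (X : Set G)) ⟨L, le_rfl, hA₁A.trans hAL, hRL, hA₁L⟩
  have hmin : ∀ X ≤ Q, X ≠ Q → A₁ ≤ normalizer (X : Set G) → R ≤ normalizer (X : Set G) →
        A₁ ≤ centralizer (X : Set G) := by
    intro X hXQ hne h1 h2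
    by_contra h3
    exact hne (hQmin X hXQ ⟨hXQ.trans hQL, h1, h2, h3⟩)
  have hcop : (Nat.card A₁).Coprime (Nat.card Q) := by
    have h1 : (Nat.card Q).Coprime p := Nat.Coprime.coprime_dvd_left (Subgroup.card_dvd_of_le hQL) hLp
    apply Nat.Coprime.symm
    apply Nat.coprime_of_dvd
    intro l hl hlQ hlA
    have : Fact l.Prime := ⟨hl⟩
    obtain ⟨x, hx⟩ := exists_prime_orderOf_dvd_card' (G := A₁) l hlA
    obtain ⟨k, hk⟩ := (hA.to_le hA₁A) x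
    have h2 : l ∣ p ^ k := hx ▸ orderOf_dvd_of_pow_eq_one hk
    have h3 : l ∣ p := hl.dvd_of_dvd_pow h2
    have h4 : l ∣ 1 := by
      have := Nat.dvd_gcd hlQ h3
      rwa [h1] at this
    exact hl.one_lt.ne' (Nat.dvd_one.mp h4)
  have hQs : Group.IsSolvable Q := Cfsg.Agent.Lib.Helper30SZ.solvable_of_le hLs hQL
  have hcc : ⁅⁅Q, A₁⁆, A₁⁆ = ⁅Q, A₁⁆ := Cfsg.Agent.S0027.result A₁ Q hAQ hcop (Or.inr hQs)
  have hle : ⁅Q, A₁⁆ ≤ Q := Cfsg.Agent.Lib.Helper30SZ.commutator_le_of_le_normalizer hAQ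
  have hcomm : ⁅Q, A₁⁆ = Q := by
    by_contra hne
    have h1 : A₁ ≤ centralizer ((⁅Q, A₁⁆ : Subgroup G) : Set G) :=
      hmin _ hle hne (Cfsg.Agent.Lib.Helper30SZ.le_normalizer_commutator hAQ le_normalizer)
        (Cfsg.Agent.Lib.Helper30SZ.le_normalizer_commutator hRQ hRA₁)
    have h2 : ⁅⁅Q, A₁⁆, A₁⁆ = ⊥ := by
      rw [Subgroup.commutator_eq_bot_iff_le_centralizer]
      exact le_centralizer_iff.mp h1
    rw [hcc] at h2
    apply hQc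
    have := (Subgroup.commutator_eq_bot_iff_le_centralizer).mp h2
    exact le_centralizer_iff.mp this
  refine ⟨A₁, Q, hA₁A, hA₁1, hRA₁, ?_, hQL, hAQ, hRQ, hcomm, ?_, hmin⟩
  · intro B hB hRB
    by_cases hB1 : B = ⊥
    · exact Or.inl hB1
    · exact Or.inr (hA₁min B hB ⟨hB.trans hA₁A, hB1, hRB⟩)
  · intro h
    apply hQc
    rw [h]
    intro a _
    rw [mem_centralizer_iff]
    intro x hx
    have : x = 1 := hx
    rw [this]; simp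

end Cfsg.Agent.Lib.Helper87BG36red
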