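import Mathlib
import Cfsg.Agent.Lib.Helper87Agree
import Cfsg.Agent.Lib.Helper87NormalCrit
import Cfsg.Agent.Lib.Helper87Invariant
import Cfsg.Agent.Lib.Helper87Split
import Cfsg.Agent.Lib.Helper88Normal

set_option autoImplicit false
set_option linter.unusedSectionVars false

namespace Cfsg.Agent.Lib.Helper87Constr

open Cfsg Cfsg.FusionSystem Cfsg.Agent.Lib.Helper87Fusion Cfsg.Agent.Lib.Helper87Fusion2
  Cfsg.Agent.Lib.Helper87Fusion3
  Cfsg.Agent.Lib.Helper87Sylow Cfsg.Agent.Lib.Helper87Rel Cfsg.Agent.Lib.Helper87Agree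
  Cfsg.Agent.Lib.Helper87GroupFusion Cfsg.Agent.Lib.Helper87Hyperfocal

variable {G : Type*} [Group G] [Finite G] {p : ℕ} [Fact p.Prime]

/-- conjugation map -/
def cm (g : G) : G → G := fun x => g * x * g⁻¹

theorem cm_apply (g x : G) : cm g x = g * x * g⁻¹ := rfl

/-- the configuration of the theorem. -/
structure Cfg (p : ℕ) [Fact p.Prime] (S : Sylow p G) (T : Subgroup G) (E : FusionSystem T) :
    Prop where
  hG : Subgroup.centralizer ((pCore p G : Subgroup G) : Set G) ≤ pCore p G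
  nor : E.IsNormalIn (groupFusionSystem (S : Subgroup G)) p

/-- `R = T ∩ O_p(G)` -/
def RR (p : ℕ) (T : Subgroup G) : Subgroup G := T ⊓ pCore p G

theorem Q_conj (p : ℕ) {q : G} (hq : q ∈ pCore p G) (g : G) : g * q * g⁻¹ ∈ pCore p G :=
  (pCore_normal p G).conj_mem q hq g

theorem isMap_group_cm {S P : Subgroup G} {g : G} (hP : P ≤ S) (h : ∀ x ∈ P, g * x * g⁻¹ ∈ S) :
    IsMap (groupFusionSystem S) P (cm g) :=
  isMap_group_iff.2 ⟨hP, g, fun x hx => ⟨rfl, h x hx⟩⟩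

namespace Cfg

variable {S : Sylow p G} {T : Subgroup G} {E : FusionSystem T} (c : Cfg p S T E)
include c

theorem sat : E.IsSaturated p := c.nor.1.1
theorem inv : E.IsInvariantIn (groupFusionSystem (S : Subgroup G)) := c.nor.1.2.2
theorem sub : E.IsSubsystemOf (groupFusionSystem (S : Subgroup G)) := c.inv.1
theorem sc : (groupFusionSystem (S : Subgroup G)).StronglyClosed T := c.inv.2.1
theorem TS : T ≤ S := c.sc.1
theorem Tp : IsPGroup p T := S.isPGroup'.to_le c.TS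

theorem QS : pCore p G ≤ S := by
  have := pCore_normal p G
  exact (pCore_isPGroup p G).le_sylow_of_normal S

theorem conj_T {x g : G} (hx : x ∈ T) (h : g * x * g⁻¹ ∈ (S : Subgroup G)) : g * x * g⁻¹ ∈ T := by
  have hm : IsMap (groupFusionSystem (S : Subgroup G)) (Subgroup.zpowers x) (cm g) := by
    apply isMap_group_cm
    · rw [Subgroup.zpowers_le]; exact c.TS hx
    · intro a ha
      obtain ⟨k, rfl⟩ := Subgroup.mem_zpowers_iff.1 ha
      have : g * x ^ k * g⁻¹ = (g * x * g⁻¹) ^ k := by simp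
      rw [this]; exact zpow_mem h k
  exact StronglyClosed_mem c.sc hm (Subgroup.mem_zpowers x) hx

theorem S_conj_T {x s : G} (hx : x ∈ T) (hs : s ∈ (S : Subgroup G)) : s * x * s⁻¹ ∈ T :=
  c.conj_T hx (mul_mem (mul_mem hs (c.TS hx)) (inv_mem hs))

theorem exists_conj {P : Subgroup G} {f : G → G} (hf : IsMap E P f) :
    ∃ g : G, ∀ x ∈ P, f x = g * x * g⁻¹ := by
  obtain ⟨-, g, hg⟩ := isMap_group_iff.1 (IsMap_of_subsystem c.sub hf)
  exact ⟨g, fun x hx => (hg x hx).1⟩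

theorem RT : RR p T ≤ T := inf_le_left
theorem RQ : RR p T ≤ pCore p G := inf_le_right

theorem R_conj {x : G} (hx : x ∈ RR p T) (g : G) : g * x * g⁻¹ ∈ RR p T := by
  have h1 := Q_conj p hx.2 g
  exact ⟨c.conj_T hx.1 (c.QS h1), h1⟩

theorem R_normal : (RR p T).Normal := ⟨fun _ hx g => c.R_conj hx g⟩

theorem cm_image_R (g : G) : cm g '' (RR p T : Set G) = (RR p T : Set G) := by
  ext y
  constructor
  · rintro ⟨x, hx, rfl⟩
    exact c.R_conj hx g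
  · intro hy
    refine ⟨g⁻¹ * y * g, ?_, ?_⟩
    · have := c.R_conj hy g⁻¹
      rwa [inv_inv] at this
    · rw [cm_apply]; group

end Cfg

/-- `C_G(Q / R)` -/
def DD (p : ℕ) (T : Subgroup G) : Set G := {g | ∀ q ∈ pCore p G, g * q * g⁻¹ * q⁻¹ ∈ RR p T}

namespace Cfg

variable {S : Sylow p G} {T : Subgroup G} {E : FusionSystem T} (c : Cfg p S T E)
include c

theorem DD_one : (1 : G) ∈ DD p T := by
  intro q _
  simp

theorem DD_mul {g h : G} (hg : g ∈ DD p T) (hh : h ∈ DD p T) : g * h ∈ DD p T := by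
  intro q hq
  have e : g * h * q * (g * h)⁻¹ * q⁻¹ = (g * (h * q * h⁻¹ * q⁻¹) * g⁻¹) * (g * q * g⁻¹ * q⁻¹) := by
    group
  rw [e]; exact mul_mem (c.R_conj (hh q hq) g) (hg q hq)

theorem DD_inv {g : G} (hg : g ∈ DD p T) : g⁻¹ ∈ DD p T := by
  intro q hq
  have e : g⁻¹ * q * g⁻¹⁻¹ * q⁻¹ = g⁻¹ * (g * q * g⁻¹ * q⁻¹)⁻¹ * g⁻¹⁻¹ := by group
  rw [e]; exact c.R_conj (inv_mem (hg q hq)) g⁻¹

theorem DD_conj {g : G} (hg : g ∈ DD p T) (h : G) : h * g * h⁻¹ ∈ DD p T := by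
  intro q hq
  have e : h * g * h⁻¹ * q * (h * g * h⁻¹)⁻¹ * q⁻¹ =
      h * (g * (h⁻¹ * q * h⁻¹⁻¹) * g⁻¹ * (h⁻¹ * q * h⁻¹⁻¹)⁻¹) * h⁻¹ := by group
  rw [e]; exact c.R_conj (hg _ (Q_conj p hq h⁻¹)) h

theorem T_DD {t : G} (ht : t ∈ T) : t ∈ DD p T := by
  intro q hq
  refine Subgroup.mem_inf.2 ⟨?_, mul_mem (Q_conj p hq t) (Subgroup.inv_mem _ hq)⟩
  have e : t * q * t⁻¹ * q⁻¹ = t * (q * t⁻¹ * q⁻¹) := by group
  rw [e]; exact mul_mem ht (c.S_conj_T (inv_mem ht) (c.QS hq))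

/-- `A = C_G(R) ∩ C_G(Q/R) ≤ Q`. -/
theorem A_le {g : G} (hg : g ∈ DD p T) (hc : ∀ r ∈ RR p T, g * r = r * g) : g ∈ pCore p G := by
  classical
  let A : Subgroup G :=
    { carrier := {g | g ∈ DD p T ∧ ∀ r ∈ RR p T, g * r = r * g}
      one_mem' := ⟨c.DD_one, fun r _ => by simp⟩
      mul_mem' := by
        rintro a b ⟨ha, ha'⟩ ⟨hb, hb'⟩
        refine ⟨c.DD_mul ha hb, fun r hr => ?_⟩
        rw [mul_assoc, hb' r hr, ← mul_assoc, ha' r hr, mul_assoc]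
      inv_mem' := by
        rintro a ⟨ha, ha'⟩
        refine ⟨c.DD_inv ha, fun r hr => ?_⟩
        rw [inv_mul_eq_iff_eq_mul, ← mul_assoc, ha' r hr, mul_assoc, mul_inv_cancel, mul_one] }
  have hAn : A.Normal := by
    constructor
    rintro a ⟨ha, ha'⟩ h
    refine ⟨c.DD_conj ha h, fun r hr => ?_⟩
    have h1 := ha' _ (c.R_conj hr h⁻¹)
    have e1 : h * a * h⁻¹ * r = h * (a * (h⁻¹ * r * h⁻¹⁻¹)) * h⁻¹ := by group
    have e2 : r * (h * a * h⁻¹) = h * ((h⁻¹ * r * h⁻¹⁻¹) * a) * h⁻¹ := by group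
    rw [e1, e2, h1]
  have hAp : IsPGroup p A := by
    rintro ⟨a, ha, ha'⟩
    obtain ⟨k, hk⟩ := IsPGroup.iff_card.1 ((pCore_isPGroup p G).to_le c.RQ)
    have h1 : a ^ (p ^ k) ∈ pCore p G := by
      apply c.hG
      rw [Subgroup.mem_centralizer_iff]
      intro q hq
      have h2 : a * q * a⁻¹ = (a * q * a⁻¹ * q⁻¹) * q := by group
      have h3 := pow_conj_eq h2 (ha' _ (ha q hq)) (p ^ k)
      have h4 : (a * q * a⁻¹ * q⁻¹) ^ (p ^ k) = 1 := by
        have h5 : ((⟨_, ha q hq⟩ : RR p T)) ^ (Nat.card (RR p T)) = 1 := pow_card_eq_one'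
        have h6 := congrArg Subtype.val h5
        rw [Subgroup.coe_pow, hk] at h6
        exact h6
      rw [h4, one_mul, mul_inv_eq_iff_eq_mul] at h3
      exact h3.symm
    obtain ⟨j, hj⟩ := (pCore_isPGroup p G) ⟨_, h1⟩
    refine ⟨k + j, ?_⟩
    apply Subtype.ext
    have h7 := congrArg Subtype.val hj
    rw [Subgroup.coe_pow] at h7
    rw [Subgroup.coe_pow, pow_add, pow_mul]
    exact h7
  exact le_pCore hAn hAp (show g ∈ A from ⟨hg, hc⟩)

theorem cent_T_R : centralizerIn T (RR p T) ≤ RR p T := by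
  intro z hz
  obtain ⟨hzT, hzc⟩ := mem_centralizerIn.1 hz
  exact ⟨hzT, c.A_le (c.T_DD hzT) (fun r hr => (hzc r hr).symm)⟩

end Cfg

theorem isMap_cm_inv {T : Subgroup G} {E : FusionSystem T} {P P' : Subgroup G} {g : G}
    (h : IsMap E P (cm g)) (hP' : cm g '' (P : Set G) = (P' : Set G)) : IsMap E P' (cm g⁻¹) := by
  obtain ⟨f, hf, -, h2, -⟩ := h.inv hP'
  refine hf.congr fun y hy => ?_
  have := h2 y hy
  rw [cm_apply] at this
  rw [cm_apply]
  conv_rhs => rw [← this]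
  group

theorem isMap_cm_mul {T : Subgroup G} {E : FusionSystem T} {P P' : Subgroup G} {g h : G}
    (hh : IsMap E P (cm h)) (hg : IsMap E P' (cm g)) (hP' : ∀ x ∈ P, h * x * h⁻¹ ∈ P') :
    IsMap E P (cm (g * h)) := by
  refine (hh.comp hg hP').congr fun x _ => ?_
  simp only [cm_apply]; group

theorem isMap_cm_one {T : Subgroup G} (E : FusionSystem T) {P : Subgroup G} (hP : P ≤ T) :
    IsMap E P (cm 1) := (isMap_id' E hP).congr fun x _ => by simp [cm_apply]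

theorem conj_aut_apply {P : Subgroup G} (α κ : MulAut P) (g q : G)
    (hα : ∀ x : P, ((α x : P) : G) = g * x * g⁻¹) (hκ : ∀ x : P, ((κ x : P) : G) = q * x * q⁻¹)
    (x : P) : (((α * κ * α⁻¹) x : P) : G) = (g * q * g⁻¹) * x * (g * q * g⁻¹)⁻¹ := by
  have h1 : ((x : P) : G) = g * ((α⁻¹ x : P) : G) * g⁻¹ := by
    rw [← hα]; simp
  rw [MulAut.mul_apply, MulAut.mul_apply, hα, hκ]
  conv_rhs => rw [h1]
  group

namespace Cfg

variable {S : Sylow p G} {T : Subgroup G} {E : FusionSystem T} (c : Cfg p S T E)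

/-- `X = { g ∈ C_G(Q/R) | c_g|_R ∈ Aut_E(R) }`. -/
def X : Subgroup G where
  carrier := {g | g ∈ DD p T ∧ IsMap E (RR p T) (cm g)}
  one_mem' := ⟨c.DD_one, isMap_cm_one E c.RT⟩
  mul_mem' := by
    rintro a b ⟨ha, ha'⟩ ⟨hb, hb'⟩
    exact ⟨c.DD_mul ha hb, isMap_cm_mul hb' ha' (fun x hx => c.R_conj hx b)⟩
  inv_mem' := by
    rintro a ⟨ha, ha'⟩
    exact ⟨c.DD_inv ha, isMap_cm_inv ha' (c.cm_image_R a)⟩

theorem mem_X {g : G} : g ∈ c.X ↔ g ∈ DD p T ∧ IsMap E (RR p T) (cm g) := Iff.rfl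

include c

theorem isMap_F_R (h : G) : IsMap (groupFusionSystem (S : Subgroup G)) (RR p T) (cm h) :=
  isMap_group_cm (c.RT.trans c.TS) (fun x hx => c.TS (c.RT (c.R_conj hx h)))

theorem X_conj {g : G} (hg : g ∈ c.X) (h : G) : h * g * h⁻¹ ∈ c.X := by
  refine ⟨c.DD_conj hg.1 h, ?_⟩
  refine Cfsg.Agent.Lib.Helper88Normal.conj_map c.inv le_rfl c.RT hg.2
    (fun x hx => c.R_conj hx g) (c.isMap_F_R h) (c.cm_image_R h) (fun x _ => ?_)
  simp only [cm_apply]; group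

theorem T_le_X : T ≤ c.X := fun t ht =>
  ⟨c.T_DD ht, isMap_conj E c.RT ht⟩

theorem R_sc : E.StronglyClosed (RR p T) := by
  rw [stronglyClosed_iff]
  refine ⟨c.RT, fun R' f hR' hf x hx => ?_⟩
  obtain ⟨g, hg⟩ := c.exists_conj hf
  rw [hg x hx]; exact c.R_conj (hR' hx) g

theorem R_fn : E.IsFullyNormalized (RR p T) :=
  Cfsg.Agent.Lib.Helper87Split.fullyNormalized_of_stronglyClosed c.R_sc

theorem R_receptive : E.IsReceptive (RR p T) :=
  (Cfsg.Agent.Lib.Helper86Fusion2.saturated_fullyNormalized c.Tp c.sat c.R_fn).2.2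

theorem sylIn_of_fn {P : Subgroup G} (hP : E.IsFullyNormalized P) :
    SylIn p (autInducedBy T P) (E.autGroup P) := by
  obtain ⟨-, Rs, hRs⟩ :=
    (Cfsg.Agent.Lib.Helper86Fusion2.saturated_fullyNormalized c.Tp c.sat hP).2.1
  exact (sylIn_iff (autInducedBy_le_autGroup E hP.1)).2 ⟨Rs, hRs⟩

theorem R_isNormal : E.IsNormal (RR p T) := by
  apply Cfsg.Agent.Lib.Helper87NormalCrit.normal_of_autQ_le c.Tp E c.sat _ c.R_sc
  intro P hPc _
  have hPT : P ≤ T := hPc.1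
  refine ⟨autInducedBy (pCore p G) P, ?_, ?_, ?_⟩
  · constructor
    intro κ hκ α
    rw [Subgroup.mem_subgroupOf] at hκ ⊢
    obtain ⟨q, hq, hκq⟩ := (mem_autInducedBy_iff _ _ _).1 hκ
    obtain ⟨g, hg⟩ := c.exists_conj ((mem_autGroup_iff_totA E hPT α).1 α.2)
    refine (mem_autInducedBy_iff _ _ _).2 ⟨g * q * g⁻¹, Q_conj p hq g, fun x => ?_⟩
    exact conj_aut_apply (α : MulAut P) (κ : MulAut P) g q
      (fun x => by rw [← totA_apply]; exact hg x x.2) hκq x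
  · have h1 := Cfsg.Agent.Lib.Helper86Fusion.autInducedBy_isPGroup (pCore_isPGroup p G) P
    exact h1.comap_of_injective _ (Subgroup.subtype_injective _)
  · intro r g _ hg hr
    exact (mem_autInducedBy_iff _ _ _).2 ⟨g, c.RQ hg, hr⟩

theorem sylIn_SX : SylIn p ((S : Subgroup G) ⊓ c.X) c.X := by
  refine (sylow_sylIn S).inf_normal le_top (fun n _ => ?_)
  rintro _ ⟨x, hx, rfl⟩
  exact c.X_conj hx n

theorem mem_normalizer_R (g : G) : g ∈ Subgroup.normalizer ((RR p T : Subgroup G) : Set G) :=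
  Cfsg.Agent.Lib.Helper86Fusion.mem_normalizer_of_conj_mem (fun y hy => c.R_conj hy g)
    (fun y hy => by have := c.R_conj hy g⁻¹; rwa [inv_inv] at this)

/-- `S ∩ X ⊆ T Q`. -/
theorem SX_le {s : G} (hs : s ∈ (S : Subgroup G) ⊓ c.X) :
    ∃ t ∈ T, ∃ a ∈ pCore p G, s = t * a := by
  have hY := c.sylIn_of_fn c.R_fn
  have hD1 : autInducedBy ((S : Subgroup G) ⊓ c.X) (RR p T) ≤ E.autGroup (RR p T) := by
    intro δ hδ
    obtain ⟨s, hs, hδs⟩ := (mem_autInducedBy_iff _ _ _).1 hδ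
    exact (mem_autGroup_iff_isMap E c.RT δ (f := cm s) hδs).2 hs.2.2
  have hD2 : IsPGroup p (autInducedBy ((S : Subgroup G) ⊓ c.X) (RR p T)) :=
    Cfsg.Agent.Lib.Helper86Fusion.autInducedBy_isPGroup (S.isPGroup'.to_le inf_le_left) _
  have hD3 : autInducedBy T (RR p T) ≤ autInducedBy ((S : Subgroup G) ⊓ c.X) (RR p T) :=
    autInducedBy_mono (le_inf c.TS c.T_le_X) _
  have heq := hY.eq_of_le hD3 hD1 hD2
  obtain ⟨α, hα, hαs⟩ := Cfsg.Agent.Lib.Helper86Fusion.exists_conjAut hs (c.mem_normalizer_R s)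
  rw [← heq] at hα
  obtain ⟨t, ht, hαt⟩ := (mem_autInducedBy_iff _ _ _).1 hα
  refine ⟨t, ht, t⁻¹ * s, ?_, by group⟩
  apply c.A_le (c.DD_mul (c.DD_inv (c.T_DD ht)) hs.2.1)
  intro r hr
  have h1 : s * r * s⁻¹ = t * r * t⁻¹ := by
    rw [← hαs ⟨r, hr⟩, hαt ⟨r, hr⟩]
  calc t⁻¹ * s * r = t⁻¹ * (s * r * s⁻¹) * s := by group
    _ = t⁻¹ * (t * r * t⁻¹) * s := by rw [h1]
    _ = r * (t⁻¹ * s) := by group

end Cfg

namespace Cfg

variable {S : Sylow p G} {T : Subgroup G} {E : FusionSystem T} (c : Cfg p S T E)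

/-- the normal subgroup realizing `E`. -/
def H : Subgroup G := opOf p c.X ⊔ T

include c

theorem SX_opOf_le : ((S : Subgroup G) ⊓ c.X) ⊓ opOf p c.X ≤ T := by
  apply inf_opOf_le c.sylIn_SX
  intro g hg x hx hgx
  obtain ⟨t, ht, a, ha, rfl⟩ := c.SX_le hx
  have h1 : g * t * g⁻¹ ∈ T := by
    apply c.conj_T ht
    have e : g * t * g⁻¹ = (g * (t * a) * g⁻¹) * (g * a * g⁻¹)⁻¹ := by group
    rw [e]; exact mul_mem hgx.1 (Subgroup.inv_mem _ (c.QS (Q_conj p ha g)))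
  have e : (t * a)⁻¹ * (g * (t * a) * g⁻¹) =
      (a⁻¹ * (t⁻¹ * (g * t * g⁻¹)) * a⁻¹⁻¹) * (a⁻¹ * (g * a * g⁻¹ * a⁻¹) * a⁻¹⁻¹) := by group
  rw [e]
  exact mul_mem (c.S_conj_T (mul_mem (Subgroup.inv_mem _ ht) h1) (Subgroup.inv_mem _ (c.QS ha)))
    (c.RT (c.R_conj (hg.1 a ha) a⁻¹))

theorem opOf_conj {y : G} (hy : y ∈ opOf p c.X) (g : G) : g * y * g⁻¹ ∈ opOf p c.X :=
  opOf_conj_mem (fun x hx => c.X_conj hx g) hy

theorem opOf_normal : (opOf p c.X).Normal := ⟨fun _ hy g => c.opOf_conj hy g⟩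

theorem T_le_H : T ≤ c.H := le_sup_right

theorem opOf_le_H : opOf p c.X ≤ c.H := le_sup_left

theorem H_le_X : c.H ≤ c.X := sup_le (opOf_le p c.X) c.T_le_X

theorem T_conj_H {t : G} (ht : t ∈ T) (g : G) : g * t * g⁻¹ ∈ c.H := by
  have h1 : cj g T ≤ c.X := by
    rintro _ ⟨x, hx, rfl⟩
    exact c.X_conj (c.T_le_X hx) g
  obtain ⟨x, hx, hxT⟩ := c.sylIn_SX.exists_conj_le h1 (isPGroup_cj c.Tp)
  have h2 : x * (g * t * g⁻¹) * x⁻¹ ∈ (S : Subgroup G) ⊓ c.X :=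
    hxT (conj_mem_cj (conj_mem_cj ht))
  have h3 : (x * g) * t * (x * g)⁻¹ ∈ T := by
    apply c.conj_T ht
    have e : (x * g) * t * (x * g)⁻¹ = x * (g * t * g⁻¹) * x⁻¹ := by group
    rw [e]; exact h2.1
  obtain ⟨a, ha, b, hb, hab⟩ := exists_mul_opOf c.sylIn_SX (Subgroup.inv_mem _ hx)
  have e : g * t * g⁻¹ = a * (b * ((x * g) * t * (x * g)⁻¹) * b⁻¹) * a⁻¹ := by
    have : x = (a * b)⁻¹ := by rw [← hab, inv_inv]
    rw [this]; group
  rw [e]
  exact mul_mem (mul_mem (c.opOf_le_H ha) (c.T_le_H (c.S_conj_T h3 hb.1)))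
    (Subgroup.inv_mem _ (c.opOf_le_H ha))

theorem H_conj {y : G} (hy : y ∈ c.H) (g : G) : g * y * g⁻¹ ∈ c.H := by
  have := c.opOf_normal
  obtain ⟨a, ha, t, ht, rfl⟩ := Subgroup.mem_sup_of_normal_left.1 hy
  have e : g * (a * t) * g⁻¹ = (g * a * g⁻¹) * (g * t * g⁻¹) := by group
  rw [e]; exact mul_mem (c.opOf_le_H (c.opOf_conj ha g)) (c.T_conj_H ht g)

theorem H_normal : c.H.Normal := ⟨fun _ hy g => c.H_conj hy g⟩

theorem S_inf_H : (S : Subgroup G) ⊓ c.H = T := by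
  apply le_antisymm
  · intro y hy
    have := c.opOf_normal
    obtain ⟨hyS, hyH⟩ := Subgroup.mem_inf.1 hy
    obtain ⟨a, ha, t, ht, rfl⟩ := Subgroup.mem_sup_of_normal_left.1 hyH
    have h1 : a ∈ (S : Subgroup G) := by
      have := mul_mem hyS (Subgroup.inv_mem _ (c.TS ht))
      simpa using this
    have h2 : a ∈ T := c.SX_opOf_le
      (Subgroup.mem_inf.2 ⟨Subgroup.mem_inf.2 ⟨h1, opOf_le p c.X ha⟩, ha⟩)
    exact mul_mem h2 ht
  · exact le_inf c.TS c.T_le_H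

theorem sylIn_T_H : SylIn p T c.H := by
  have h := (sylow_sylIn S).inf_normal (C := c.H) le_top (fun n _ => by
    rintro _ ⟨x, hx, rfl⟩
    exact c.H_conj hx n)
  rwa [c.S_inf_H] at h

theorem cent_H_R {h : G} (hh : h ∈ c.H) (hc : ∀ r ∈ RR p T, h * r = r * h) : h ∈ RR p T := by
  have h1 := c.A_le (c.H_le_X hh).1 hc
  have h2 : h ∈ (S : Subgroup G) ⊓ c.H := Subgroup.mem_inf.2 ⟨c.QS h1, hh⟩
  rw [c.S_inf_H] at h2
  exact Subgroup.mem_inf.2 ⟨h2, h1⟩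

end Cfg

theorem aut_pow_apply {P : Subgroup G} (γ : MulAut P) (g : G)
    (hg : ∀ x : P, ((γ x : P) : G) = g * x * g⁻¹) (n : ℕ) (x : P) :
    (((γ ^ n) x : P) : G) = g ^ n * x * (g ^ n)⁻¹ := by
  induction n generalizing x with
  | zero => simp
  | succ n ih =>
    rw [pow_succ', MulAut.mul_apply, hg, ih, pow_succ']
    group

namespace Cfg

variable {S : Sylow p G} {T : Subgroup G} {E : FusionSystem T} (c : Cfg p S T E)
include c

theorem image_T {f : G → G} (hf : IsMap E T f) : f '' (T : Set G) = (T : Set G) :=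
  Cfsg.Agent.Lib.Helper88Normal.image_eq_of_maps_to hf (fun _ hx => hf.mem hx)

/-- a `p`-element of `Aut_E(T)` is inner. -/
theorem inner_of_pElement {w : G} (hw : IsMap E T (cm w)) {k : ℕ} (hwp : w ^ (p ^ k) = 1) :
    ∃ t ∈ T, ∀ x ∈ T, w * x * w⁻¹ = t * x * t⁻¹ := by
  obtain ⟨ω, hω, hωw⟩ := hw.exists_aut (c.image_T hw)
  have hωp : ω ^ (p ^ k) = 1 := by
    ext x
    rw [aut_pow_apply ω w hωw, hwp]; simp
  obtain ⟨-, Rs, hRs⟩ := (Cfsg.Agent.Lib.Helper86Fusion2.saturated_fullyNormalized c.Tp c.sat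
    (Cfsg.Agent.Lib.Helper86Fusion4.fullyNormalized_self E)).2.1
  obtain ⟨β, hβ⟩ := exists_conj_mem_sylow Rs (⟨ω, hω⟩ : E.autGroup T) k
    (Subtype.ext (by simpa using hωp))
  have h1 : β * ⟨ω, hω⟩ * β⁻¹ ∈ (Rs : Subgroup (E.autGroup T)) := hβ
  rw [hRs, Subgroup.mem_subgroupOf] at h1
  obtain ⟨t, ht, hβt⟩ := (mem_autInducedBy_iff _ _ _).1 h1
  refine ⟨(((β : MulAut T)⁻¹ ⟨t, ht⟩ : T) : G), ((β : MulAut T)⁻¹ ⟨t, ht⟩ : T).2, fun x hx => ?_⟩
  have h2 : ∀ y : T, ((β : MulAut T) * ω * (β : MulAut T)⁻¹) y = ⟨t, ht⟩ * y * ⟨t, ht⟩⁻¹ := by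
    intro y
    apply Subtype.ext
    exact hβt y
  have h3 := h2 ((β : MulAut T) ⟨x, hx⟩)
  have h4 : (β : MulAut T) (ω ⟨x, hx⟩) = ⟨t, ht⟩ * (β : MulAut T) ⟨x, hx⟩ * ⟨t, ht⟩⁻¹ := by
    rw [← h3]; simp
  have h5 : ω ⟨x, hx⟩ = (β : MulAut T)⁻¹ ⟨t, ht⟩ * ⟨x, hx⟩ * ((β : MulAut T)⁻¹ ⟨t, ht⟩)⁻¹ := by
    have := congrArg (fun y => (β : MulAut T)⁻¹ y) h4
    simp only [map_mul, map_inv, MulAut.inv_apply_self] at this
    exact this
  have h6 := congrArg Subtype.val h5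
  rw [hωw] at h6
  exact h6

theorem image_T_of_S {q : G} (hq : q ∈ (S : Subgroup G)) :
    IsMap (groupFusionSystem (S : Subgroup G)) T (cm q) ∧ cm q '' (T : Set G) = (T : Set G) := by
  have h1 : IsMap (groupFusionSystem (S : Subgroup G)) T (cm q) :=
    isMap_conj _ c.TS hq
  exact ⟨h1, Cfsg.Agent.Lib.Helper88Normal.image_eq_of_maps_to h1
    (fun x hx => c.S_conj_T hx hq)⟩

theorem coprime_aut_T {γ : MulAut T} (hγ : γ ∈ E.autGroup T) (hcop : (orderOf γ).Coprime p) :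
    γ ∈ autInducedBy c.H T := by
  obtain ⟨b, hb, hbx, hbc⟩ := c.nor.2 γ hγ
  have hTC : T ⊔ centralizerIn (S : Subgroup G) T ≤ (S : Subgroup G) :=
    sup_le c.TS (centralizerIn_le _ _)
  obtain ⟨-, g, hg⟩ := isMap_group_iff.1 ((mem_autGroup_iff_totA _ hTC b).1 hb)
  have hgT : ∀ x : T, ((γ x : T) : G) = g * x * g⁻¹ := by
    intro x
    rw [← hbx x, ← (hg x (Subgroup.mem_sup_left x.2)).1, totA_of_mem b (Subgroup.mem_sup_left x.2)]
    rfl
  have hgC : ∀ z ∈ centralizerIn (S : Subgroup G) T, z⁻¹ * (g * z * g⁻¹) ∈ T := by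
    intro z hz
    have h1 := hbc ⟨z, Subgroup.mem_sup_right hz⟩ hz
    rw [← (hg z (Subgroup.mem_sup_right hz)).1, totA_of_mem b (Subgroup.mem_sup_right hz)]
    exact h1.1
  obtain ⟨k, hk1, hk2⟩ := exists_pow_coprime (p := p) g hcop
  have hγk : γ ^ k = γ := by
    have := (pow_eq_pow_iff_modEq (x := γ) (n := k) (m := 1)).2 hk2
    rwa [pow_one] at this
  have hg'T : ∀ x : T, ((γ x : T) : G) = g ^ k * x * (g ^ k)⁻¹ := by
    intro x
    rw [← aut_pow_apply γ g hgT k x, hγk]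
  have hg'C : ∀ n : ℕ, ∀ z ∈ centralizerIn (S : Subgroup G) T,
      z⁻¹ * (g ^ n * z * (g ^ n)⁻¹) ∈ T := by
    intro n
    induction n with
    | zero => intro z _; simp
    | succ n ih =>
      intro z hz
      have e : z⁻¹ * (g ^ (n + 1) * z * (g ^ (n + 1))⁻¹) =
          (z⁻¹ * (g * z * g⁻¹)) * (g * (z⁻¹ * (g ^ n * z * (g ^ n)⁻¹)) * g⁻¹) := by
        rw [pow_succ']; group
      rw [e]
      refine mul_mem (hgC z hz) ?_
      rw [← hgT ⟨_, ih z hz⟩]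
      exact (γ _).2
  set g' := g ^ k with hg'
  have hE : IsMap E T (cm g') := (mem_autGroup_iff_isMap E le_rfl γ (f := cm g') hg'T).1 hγ
  have hEinv : IsMap E T (cm g'⁻¹) := isMap_cm_inv hE (c.image_T hE)
  have hDD : g' ∈ DD p T := by
    intro q hq
    set w := g' * q * g'⁻¹ * q⁻¹ with hw
    have hwQ : w ∈ pCore p G := mul_mem (Q_conj p hq g') (Subgroup.inv_mem _ hq)
    obtain ⟨hq1, hq2⟩ := c.image_T_of_S (c.QS hq)
    have h1 : IsMap E T (cm (q * g'⁻¹ * q⁻¹)) := by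
      refine Cfsg.Agent.Lib.Helper88Normal.conj_map c.inv le_rfl le_rfl hEinv
        (fun x hx => hEinv.mem hx) hq1 hq2 (fun x _ => ?_)
      simp only [cm_apply]; group
    have h2 : IsMap E T (cm w) := by
      have e : w = g' * (q * g'⁻¹ * q⁻¹) := by rw [hw]; group
      rw [e]
      exact isMap_cm_mul h1 hE (fun x hx => h1.mem hx)
    obtain ⟨j, hj⟩ := (pCore_isPGroup p G) ⟨w, hwQ⟩
    have hwj : w ^ (p ^ j) = 1 := by simpa using congrArg Subtype.val hj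
    obtain ⟨t, ht, hwt⟩ := c.inner_of_pElement h2 hwj
    have hz : t⁻¹ * w ∈ centralizerIn (S : Subgroup G) T := by
      rw [mem_centralizerIn]
      refine ⟨mul_mem (Subgroup.inv_mem _ (c.TS ht)) (c.QS hwQ), fun x hx => ?_⟩
      have := hwt x hx
      calc x * (t⁻¹ * w) = t⁻¹ * (t * x * t⁻¹) * w := by group
        _ = t⁻¹ * (w * x * w⁻¹) * w := by rw [this]
        _ = t⁻¹ * w * x := by group
    have h3 : g' * w * g'⁻¹ * w⁻¹ ∈ RR p T := by
      refine Subgroup.mem_inf.2 ⟨?_, mul_mem (Q_conj p hwQ g') (Subgroup.inv_mem _ hwQ)⟩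
      have e : g' * w * g'⁻¹ * w⁻¹ = (g' * t * g'⁻¹) *
          ((t⁻¹ * w) * ((t⁻¹ * w)⁻¹ * (g' * (t⁻¹ * w) * g'⁻¹)) * (t⁻¹ * w)⁻¹) * t⁻¹ := by group
      rw [e]
      refine mul_mem (mul_mem (hE.mem ht) ?_) (Subgroup.inv_mem _ ht)
      exact c.S_conj_T (hg'C k _ hz) (centralizerIn_le _ _ hz)
    have := c.R_normal
    have h4 : QuotientGroup.mk' (RR p T) w = 1 := by
      refine eq_one_of_comm (p := p) (a := QuotientGroup.mk' (RR p T) g')
        (b := QuotientGroup.mk' (RR p T) q) (j := orderOf g') (k := j) ?_ ?_ ?_ ?_ hk1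
      · rw [← map_inv, ← map_mul, ← map_mul, ← map_mul]
        congr 1
        rw [hw]; group
      · have h5 : QuotientGroup.mk' (RR p T) (g' * w * g'⁻¹ * w⁻¹) = 1 :=
          (QuotientGroup.eq_one_iff _).2 h3
        simp only [map_mul, map_inv] at h5
        rw [mul_inv_eq_one, mul_inv_eq_iff_eq_mul] at h5
        exact h5
      · rw [← map_pow, pow_orderOf_eq_one, map_one]
      · rw [← map_pow, hwj, map_one]
    exact (QuotientGroup.eq_one_iff _).1 h4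
  have hX : g' ∈ c.X := ⟨hDD, hE.restrict c.RT⟩
  exact (mem_autInducedBy_iff _ _ _).2 ⟨g', c.opOf_le_H (mem_opOf hX hk1), hg'T⟩

theorem aut_T_le : E.autGroup T ≤ autInducedBy c.H T := by
  obtain ⟨-, Rs, hRs⟩ := (Cfsg.Agent.Lib.Helper86Fusion2.saturated_fullyNormalized c.Tp c.sat
    (Cfsg.Agent.Lib.Helper86Fusion4.fullyNormalized_self E)).2.1
  have hres : pResidual p (E.autGroup T) ≤ (autInducedBy c.H T).subgroupOf (E.autGroup T) := by
    unfold pResidual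
    rw [Subgroup.closure_le]
    intro γ hγ
    rw [SetLike.mem_coe, Subgroup.mem_subgroupOf]
    apply c.coprime_aut_T γ.2
    rw [Subgroup.orderOf_coe]; exact hγ
  intro β hβ
  obtain ⟨a, ha, b, hb, hab⟩ :=
    Cfsg.Agent.Lib.Helper86Group.exists_mul_of_pResidual_sylow Rs ⟨β, hβ⟩
  have h1 : (a : MulAut T) ∈ autInducedBy c.H T := Subgroup.mem_subgroupOf.1 (hres ha)
  have h2 : (b : MulAut T) ∈ autInducedBy c.H T := by
    have : b ∈ (Rs : Subgroup (E.autGroup T)) := hb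
    rw [hRs] at this
    exact autInducedBy_mono c.T_le_H T (Subgroup.mem_subgroupOf.1 this)
  have h3 : β = (a : MulAut T) * (b : MulAut T) := congrArg Subtype.val hab
  rw [h3]; exact mul_mem h1 h2

theorem exists_H_of_isMap_T {f : G → G} (hf : IsMap E T f) :
    ∃ h ∈ c.H, ∀ x ∈ T, f x = h * x * h⁻¹ := by
  obtain ⟨β, hβ, hβf⟩ := hf.exists_aut (c.image_T hf)
  obtain ⟨h, hh, hβh⟩ := (mem_autInducedBy_iff _ _ _).1 (c.aut_T_le hβ)
  exact ⟨h, hh, fun x hx => by rw [← hβf ⟨x, hx⟩, hβh ⟨x, hx⟩]⟩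

end Cfg

theorem autGroup_sub_eq {H T : Subgroup G} {hTH : T ≤ H} {P : Subgroup G} (hPT : P ≤ T) :
    (fusionSystemOfSubgroup H T hTH).autGroup P = autInducedBy H P := by
  ext α
  rw [mem_autGroup_iff_totA _ hPT, isMap_sub_iff, mem_autInducedBy_iff]
  constructor
  · rintro ⟨-, g, hg, h⟩
    exact ⟨g, hg, fun x => by rw [← totA_apply]; exact (h x x.2).1⟩
  · rintro ⟨g, hg, h⟩
    refine ⟨hPT, g, hg, fun x hx => ⟨by rw [totA_of_mem α hx]; exact h ⟨x, hx⟩, ?_⟩⟩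
    have := h ⟨x, hx⟩
    simp only at this
    rw [← this]; exact hPT (α _).2

namespace Cfg

variable {S : Sylow p G} {T : Subgroup G} {E : FusionSystem T} (c : Cfg p S T E)
include c

theorem aut_R_le : E.autGroup (RR p T) ≤ autInducedBy c.H (RR p T) := by
  have hYL : SylIn p (autInducedBy T (RR p T)) (E.autGroup (RR p T)) := c.sylIn_of_fn c.R_fn
  have hYN : autInducedBy T (RR p T) ≤ E.autGroup (RR p T) ⊓ autInducedBy c.H (RR p T) :=
    le_inf hYL.1 (autInducedBy_mono c.T_le_H _)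
  have hY := hYL.of_le hYN inf_le_left
  have hn : ∀ a ∈ E.autGroup (RR p T),
      cj a (E.autGroup (RR p T) ⊓ autInducedBy c.H (RR p T)) ≤
        E.autGroup (RR p T) ⊓ autInducedBy c.H (RR p T) := by
    rintro a ha _ ⟨n, hn, rfl⟩
    refine Subgroup.mem_inf.2 ⟨mul_mem (mul_mem ha hn.1) (Subgroup.inv_mem _ ha), ?_⟩
    obtain ⟨g, hg⟩ := c.exists_conj ((mem_autGroup_iff_totA E c.RT a).1 ha)
    obtain ⟨h, hh, hnh⟩ := (mem_autInducedBy_iff _ _ _).1 hn.2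
    exact (mem_autInducedBy_iff _ _ _).2 ⟨g * h * g⁻¹, c.H_conj hh g,
      conj_aut_apply a n g h (fun x => by rw [← totA_apply]; exact hg x x.2) hnh⟩
  intro a ha
  obtain ⟨n, hn', m, hm, rfl, hmY⟩ :=
    Cfsg.Agent.Lib.Helper87Invariant.frattini_sylIn inf_le_left hn hY ha
  refine mul_mem hn'.2 ?_
  have hmf := (mem_autGroup_iff_totA E c.RT m).1 hm
  obtain ⟨f', hf', hf'm⟩ := isReceptive_extend c.R_receptive hmf (totA_image m) (N := T)
    (fun g hg => ⟨hg, c.mem_normalizer_R g, by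
      obtain ⟨κ, hκ, hκg⟩ := Cfsg.Agent.Lib.Helper86Fusion.exists_conjAut hg (c.mem_normalizer_R g)
      have h1 : m * κ * m⁻¹ ∈ autInducedBy T (RR p T) := by
        rw [← hmY]; exact conj_mem_cj hκ
      obtain ⟨h, hh, hmh⟩ := (mem_autInducedBy_iff _ _ _).1 h1
      refine ⟨h, hh, fun x hx => ?_⟩
      have h2 := hmh (m ⟨x, hx⟩)
      have h3 : (m * κ * m⁻¹) (m ⟨x, hx⟩) = m (κ ⟨x, hx⟩) := by simp
      rw [h3] at h2
      have h4 : κ ⟨x, hx⟩ = ⟨g * x * g⁻¹, c.R_conj hx g⟩ := Subtype.ext (hκg ⟨x, hx⟩)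
      rw [h4] at h2
      rw [totA_of_mem m (c.R_conj hx g), totA_of_mem m hx]
      exact h2⟩)
  obtain ⟨h, hh, hfh⟩ := c.exists_H_of_isMap_T hf'
  refine (mem_autInducedBy_iff _ _ _).2 ⟨h, hh, fun x => ?_⟩
  rw [← totA_apply, ← hf'm x x.2, hfh x (c.RT x.2)]

theorem exists_H_of_isMap_R {f : G → G} (hf : IsMap E (RR p T) f) :
    ∃ h ∈ c.H, ∀ x ∈ RR p T, f x = h * x * h⁻¹ := by
  have him : f '' (RR p T : Set G) = (RR p T : Set G) :=
    Cfsg.Agent.Lib.Helper88Normal.image_eq_of_maps_to hf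
      (fun x hx => StronglyClosed_mem c.R_sc hf hx hx)
  obtain ⟨β, hβ, hβf⟩ := hf.exists_aut him
  obtain ⟨h, hh, hβh⟩ := (mem_autInducedBy_iff _ _ _).1 (c.aut_R_le hβ)
  exact ⟨h, hh, fun x hx => by rw [← hβf ⟨x, hx⟩, hβh ⟨x, hx⟩]⟩

theorem agree₁ (P : Subgroup G) (hRP : RR p T ≤ P) (hPT : P ≤ T) (β : MulAut P)
    (hβ : β ∈ E.autGroup P) :
    (∀ γ ∈ (fusionSystemOfSubgroup c.H T c.T_le_H).autGroup P,
        β * γ * β⁻¹ ∈ (fusionSystemOfSubgroup c.H T c.T_le_H).autGroup P) ∧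
      ∃ β₂ ∈ (fusionSystemOfSubgroup c.H T c.T_le_H).autGroup P,
        ∀ x : P, (x : G) ∈ RR p T → β₂ x = β x := by
  rw [autGroup_sub_eq hPT]
  have hβm := (mem_autGroup_iff_totA E hPT β).1 hβ
  obtain ⟨g, hg⟩ := c.exists_conj hβm
  constructor
  · intro γ hγ
    obtain ⟨h, hh, hγh⟩ := (mem_autInducedBy_iff _ _ _).1 hγ
    exact (mem_autInducedBy_iff _ _ _).2 ⟨g * h * g⁻¹, c.H_conj hh g,
      conj_aut_apply β γ g h (fun x => by rw [← totA_apply]; exact hg x x.2) hγh⟩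
  · obtain ⟨h, hh, hβh⟩ := c.exists_H_of_isMap_R (hβm.restrict hRP)
    have hP : ∀ x ∈ P, h * x * h⁻¹ ∈ P := by
      intro x hx
      have h1 : (totA β x)⁻¹ * (h * x * h⁻¹) ∈ RR p T := by
        apply c.cent_H_R
        · exact mul_mem (Subgroup.inv_mem _ (c.T_le_H (hPT (totA_mem β hx))))
            (c.H_conj (c.T_le_H (hPT hx)) h)
        · intro r hr
          have hr' : h⁻¹ * r * h ∈ RR p T := by
            have := c.R_conj hr h⁻¹; rwa [inv_inv] at this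
          have hxr : x * (h⁻¹ * r * h) * x⁻¹ ∈ RR p T := c.R_conj hr' x
          have e1 : totA β (x * (h⁻¹ * r * h) * x⁻¹) =
              totA β x * totA β (h⁻¹ * r * h) * (totA β x)⁻¹ := hβm.map_conj hx (hRP hr')
          rw [hβh _ hxr, hβh _ hr'] at e1
          have e2 : (h * x * h⁻¹) * r * (h * x * h⁻¹)⁻¹ = totA β x * r * (totA β x)⁻¹ := by
            have e3 : h * (x * (h⁻¹ * r * h) * x⁻¹) * h⁻¹ = (h * x * h⁻¹) * r * (h * x * h⁻¹)⁻¹ := by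
              group
            have e4 : h * (h⁻¹ * r * h) * h⁻¹ = r := by group
            rw [e3, e4] at e1
            exact e1
          calc (totA β x)⁻¹ * (h * x * h⁻¹) * r
              = (totA β x)⁻¹ * ((h * x * h⁻¹) * r * (h * x * h⁻¹)⁻¹) * (h * x * h⁻¹) := by group
            _ = (totA β x)⁻¹ * (totA β x * r * (totA β x)⁻¹) * (h * x * h⁻¹) := by rw [e2]
            _ = r * ((totA β x)⁻¹ * (h * x * h⁻¹)) := by group
      have h2 := mul_mem (totA_mem β hx) (hRP h1)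
      rwa [mul_inv_cancel_left] at h2
    have hN : h ∈ Subgroup.normalizer (P : Set G) :=
      Cfsg.Agent.Lib.Helper87Realized.mem_normalizer_of_conj_mem hP
    obtain ⟨β₂, hβ₂, hβ₂h⟩ := Cfsg.Agent.Lib.Helper86Fusion.exists_conjAut hh hN
    refine ⟨β₂, hβ₂, fun x hx => Subtype.ext ?_⟩
    rw [hβ₂h, ← hβh x hx, totA_apply]

end Cfg

namespace Cfg

variable {S : Sylow p G} {T : Subgroup G} {E : FusionSystem T} (c : Cfg p S T E)
include c

theorem agree₂ (P : Subgroup G) (hRP : RR p T ≤ P) (hPT : P ≤ T) (β : MulAut P)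
    (hβ : β ∈ (fusionSystemOfSubgroup c.H T c.T_le_H).autGroup P) :
    (∀ γ ∈ E.autGroup P, β * γ * β⁻¹ ∈ E.autGroup P) ∧
      ∃ β₂ ∈ E.autGroup P, ∀ x : P, (x : G) ∈ RR p T → β₂ x = β x := by
  rw [autGroup_sub_eq hPT] at hβ
  obtain ⟨h, hh, hβh⟩ := (mem_autInducedBy_iff _ _ _).1 hβ
  have hhP : ∀ x ∈ P, h * x * h⁻¹ ∈ P := fun x hx => by
    have := hβh ⟨x, hx⟩
    simp only at this
    rw [← this]; exact (β _).2
  have hF : IsMap (groupFusionSystem (S : Subgroup G)) P (cm h) :=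
    isMap_group_cm (hPT.trans c.TS) (fun x hx => c.TS (hPT (hhP x hx)))
  have him : cm h '' (P : Set G) = (P : Set G) :=
    Cfsg.Agent.Lib.Helper88Normal.image_eq_of_maps_to hF hhP
  constructor
  · intro γ hγ
    have hγm := (mem_autGroup_iff_totA E hPT γ).1 hγ
    rw [mem_autGroup_iff_totA E hPT]
    refine Cfsg.Agent.Lib.Helper88Normal.conj_map c.inv le_rfl hPT hγm
      (fun x hx => totA_mem γ hx) hF him (fun x hx => ?_)
    have e1 : cm h x = ((β ⟨x, hx⟩ : P) : G) := (hβh ⟨x, hx⟩).symm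
    rw [e1, totA_apply, totA_of_mem γ hx, cm_apply, ← hβh]
    simp
  · have hX := (c.H_le_X hh).2
    obtain ⟨f', hf', hf'h⟩ := isReceptive_extend c.R_receptive hX (c.cm_image_R h) (N := P)
      (fun g hg => ⟨hPT hg, c.mem_normalizer_R g, h * g * h⁻¹, hPT (hhP g hg), fun x _ => by
        simp only [cm_apply]; group⟩)
    have hf'P : ∀ x ∈ P, f' x ∈ P := by
      intro x hx
      have h1 : (h * x * h⁻¹)⁻¹ * f' x ∈ RR p T := by
        apply c.cent_T_R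
        rw [mem_centralizerIn]
        refine ⟨mul_mem (Subgroup.inv_mem _ (hPT (hhP x hx))) (hf'.mem hx), fun r hr => ?_⟩
        have hr' : h⁻¹ * r * h ∈ RR p T := by
          have := c.R_conj hr h⁻¹; rwa [inv_inv] at this
        have hxr : x * (h⁻¹ * r * h) * x⁻¹ ∈ RR p T := c.R_conj hr' x
        have e1 : f' (x * (h⁻¹ * r * h) * x⁻¹) = f' x * f' (h⁻¹ * r * h) * (f' x)⁻¹ :=
          hf'.map_conj hx (hRP hr')
        rw [hf'h _ hxr, hf'h _ hr'] at e1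
        simp only [cm_apply] at e1
        have e2 : (h * x * h⁻¹) * r * (h * x * h⁻¹)⁻¹ = f' x * r * (f' x)⁻¹ := by
          have e3 : h * (x * (h⁻¹ * r * h) * x⁻¹) * h⁻¹ = (h * x * h⁻¹) * r * (h * x * h⁻¹)⁻¹ := by
            group
          have e4 : h * (h⁻¹ * r * h) * h⁻¹ = r := by group
          rw [e3, e4] at e1
          exact e1
        calc r * ((h * x * h⁻¹)⁻¹ * f' x)
            = (h * x * h⁻¹)⁻¹ * ((h * x * h⁻¹) * r * (h * x * h⁻¹)⁻¹) * (h * x * h⁻¹) *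
                ((h * x * h⁻¹)⁻¹ * f' x) := by group
          _ = (h * x * h⁻¹)⁻¹ * (f' x * r * (f' x)⁻¹) * (h * x * h⁻¹) *
                ((h * x * h⁻¹)⁻¹ * f' x) := by rw [e2]
          _ = (h * x * h⁻¹)⁻¹ * f' x * r := by group
      have h2 := mul_mem (hhP x hx) (hRP h1)
      rwa [mul_inv_cancel_left] at h2
    obtain ⟨β₂, hβ₂, hβ₂f⟩ := hf'.exists_aut
      (Cfsg.Agent.Lib.Helper88Normal.image_eq_of_maps_to hf' hf'P)
    refine ⟨β₂, hβ₂, fun x hx => Subtype.ext ?_⟩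
    rw [hβ₂f, hf'h x hx, cm_apply, hβh]

theorem FH_isNormal : (fusionSystemOfSubgroup c.H T c.T_le_H).IsNormal (RR p T) := by
  rw [isNormal_iff]
  refine ⟨c.RT, fun P f hf => ?_⟩
  obtain ⟨hPT, h, hh, hfh⟩ := isMap_sub_iff.1 hf
  refine ⟨cm h, isMap_sub_iff.2 ⟨sup_le hPT c.RT, h, hh, fun x hx => ⟨rfl, ?_⟩⟩,
    fun x hx => (hfh x hx).1.symm, c.cm_image_R h⟩
  have hle : P ⊔ RR p T ≤ T.comap (MulAut.conj h).toMonoidHom := by
    refine sup_le (fun y hy => ?_) (fun y hy => ?_)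
    · exact (hfh y hy).2
    · exact c.RT (c.R_conj hy h)
  exact hle hx

theorem hom_eq (P : Subgroup G) : E.Hom P = (fusionSystemOfSubgroup c.H T c.T_le_H).Hom P := by
  apply Set.Subset.antisymm
  · exact le_of_agree c.Tp E _ c.sat c.R_isNormal c.cent_T_R c.agree₁ P
  · exact le_of_agree c.Tp _ E (fusionSystemOfSubgroup_saturated _ _ _ c.sylIn_T_H) c.FH_isNormal
      c.cent_T_R c.agree₂ P

theorem unique {H' : Subgroup G} (hTH' : T ≤ H') (hn : H'.Normal) (hsyl : SylIn p T H')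
    (hhom : ∀ P : Subgroup G, E.Hom P = (fusionSystemOfSubgroup H' T hTH').Hom P) :
    H' = c.H := by
  have hmap : ∀ (P : Subgroup G) (f : G → G),
      IsMap E P f ↔ IsMap (fusionSystemOfSubgroup H' T hTH') P f := by
    intro P f
    unfold IsMap
    rw [hhom P]
  have hSH : (S : Subgroup G) ⊓ H' = T :=
    (hsyl.eq_of_le (le_inf c.TS hTH') inf_le_right (S.isPGroup'.to_le inf_le_left)).symm
  have hX : H' ≤ c.X := by
    intro h hh
    refine ⟨fun q hq => ?_, ?_⟩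
    · have h1 : h * q * h⁻¹ * q⁻¹ ∈ pCore p G := mul_mem (Q_conj p hq h) (Subgroup.inv_mem _ hq)
      have h2 : h * q * h⁻¹ * q⁻¹ ∈ H' := by
        have e : h * q * h⁻¹ * q⁻¹ = h * (q * h⁻¹ * q⁻¹) := by group
        rw [e]; exact mul_mem hh (hn.conj_mem _ (Subgroup.inv_mem _ hh) q)
      have h3 : h * q * h⁻¹ * q⁻¹ ∈ (S : Subgroup G) ⊓ H' := Subgroup.mem_inf.2 ⟨c.QS h1, h2⟩
      rw [hSH] at h3
      exact Subgroup.mem_inf.2 ⟨h3, h1⟩
    · rw [hmap]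
      exact isMap_sub_iff.2 ⟨c.RT, h, hh, fun x hx => ⟨rfl, c.RT (c.R_conj hx h)⟩⟩
  apply le_antisymm
  · intro h hh
    obtain ⟨a, ha, b, hb, rfl⟩ := exists_mul_opOf hsyl hh
    exact mul_mem (c.opOf_le_H (opOf_mono p hX ha)) (c.T_le_H hb)
  · refine sup_le ?_ hTH'
    unfold opOf
    rw [Subgroup.closure_le]
    rintro g ⟨hgX, hgp⟩
    obtain ⟨-, h, hh, hgh⟩ := isMap_sub_iff.1 ((hmap _ _).1 hgX.2)
    have ha : h⁻¹ * g ∈ pCore p G := by
      apply c.A_le (c.DD_mul (c.DD_inv (hX hh).1) hgX.1)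
      intro r hr
      have h1 : g * r * g⁻¹ = h * r * h⁻¹ := (hgh r hr).1
      calc h⁻¹ * g * r = h⁻¹ * (g * r * g⁻¹) * g := by group
        _ = h⁻¹ * (h * r * h⁻¹) * g := by rw [h1]
        _ = r * (h⁻¹ * g) := by group
    obtain ⟨j, hj⟩ := (pCore_isPGroup p G) ⟨_, ha⟩
    have hj' : (h⁻¹ * g) ^ (p ^ j) = 1 := by simpa using congrArg Subtype.val hj
    exact mem_of_mul_pElement (p := p) (n := h) (u := h⁻¹ * g) (by group) hh
      (fun x hx => hn.conj_mem x hx g) hj' hgp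

end Cfg

theorem main (S : Sylow p G)
    (hG : Subgroup.centralizer ((pCore p G : Subgroup G) : Set G) ≤ pCore p G) (T : Subgroup G)
    (E : FusionSystem T) (hE : E.IsNormalIn (groupFusionSystem (S : Subgroup G)) p) :
    ∃ H : Subgroup G, (∃ hTH : T ≤ H, H.Normal ∧
        (∃ R : Sylow p H, (R : Subgroup H) = T.subgroupOf H) ∧
        ∀ P : Subgroup G, E.Hom P = (fusionSystemOfSubgroup H T hTH).Hom P) ∧
      ∀ H' : Subgroup G, (∃ hTH' : T ≤ H', H'.Normal ∧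
        (∃ R : Sylow p H', (R : Subgroup H') = T.subgroupOf H') ∧
        ∀ P : Subgroup G, E.Hom P = (fusionSystemOfSubgroup H' T hTH').Hom P) → H' = H := by
  have c : Cfg p S T E := ⟨hG, hE⟩
  refine ⟨c.H, ⟨c.T_le_H, c.H_normal, (sylIn_iff c.T_le_H).1 c.sylIn_T_H, c.hom_eq⟩, ?_⟩
  rintro H' ⟨hTH', hn, hsyl, hhom⟩
  exact c.unique hTH' hn ((sylIn_iff hTH').2 hsyl) hhom

end Cfsg.Agent.Lib.Helper87Constr
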