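import Mathlib
set_option autoImplicit false
open Module

namespace Cfsg.Agent.Lib.Helper87EluA1

variable {F : Type*} [Field F] [Fintype F] {V : Type*} [AddCommGroup V] [Module F V] [FiniteDimensional F V]

theorem finite_submodule : Finite (Submodule F V) := by
  have : Finite V := Module.finite_of_finite F
  exact Finite.of_injective (fun W : Submodule F V => (W : Set V)) SetLike.coe_injective

/-- the fibre of `s ↦ span (range s)` -/
noncomputable def fibreEquiv (m : ℕ) (W : Submodule F V) (hW : finrank F W = m) :
    {s : {s : Fin m → V // LinearIndependent F s} // Submodule.span F (Set.range s.1) = W} ≃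
      {t : Fin m → W // LinearIndependent F t} where
  toFun s := ⟨fun j => ⟨s.1.1 j, (le_of_eq s.2) (Submodule.subset_span (Set.mem_range_self j))⟩, by
    apply LinearIndependent.of_comp W.subtype
    exact s.1.2⟩
  invFun t := ⟨⟨fun j => (t.1 j : V), t.2.map' W.subtype (Submodule.ker_subtype W)⟩, by
    apply Submodule.eq_of_le_of_finrank_eq
    · rw [Submodule.span_le]
      rintro _ ⟨j, rfl⟩
      exact (t.1 j).2
    · have h := finrank_span_eq_card (t.2.map' W.subtype (Submodule.ker_subtype W))
      rw [Fintype.card_fin] at h
      rw [hW]
      exact h⟩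
  left_inv s := rfl
  right_inv t := rfl

/-- A1 -/
theorem count_mul (m : ℕ) (hm : m ≤ finrank F V) :
    Nat.card {W : Submodule F V // finrank F W = m} *
        ∏ j : Fin m, (Fintype.card F ^ m - Fintype.card F ^ (j : ℕ))
      = ∏ j : Fin m, (Fintype.card F ^ finrank F V - Fintype.card F ^ (j : ℕ)) := by
  classical
  have hfinV : Finite V := Module.finite_of_finite F
  have hfinS : Finite (Submodule F V) := finite_submodule
  rw [← card_linearIndependent (K := F) (V := V) hm]
  let π : {s : Fin m → V // LinearIndependent F s} → {W : Submodule F V // finrank F W = m} :=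
    fun s => ⟨Submodule.span F (Set.range s.1), by rw [finrank_span_eq_card s.2, Fintype.card_fin]⟩
  have : Fintype {W : Submodule F V // finrank F W = m} := Fintype.ofFinite _
  rw [Nat.card_congr (Equiv.sigmaFiberEquiv π).symm, Nat.card_sigma]
  have hfib : ∀ W : {W : Submodule F V // finrank F W = m},
      Nat.card {s // π s = W} = ∏ j : Fin m, (Fintype.card F ^ m - Fintype.card F ^ (j : ℕ)) := by
    intro W
    have e1 : {s // π s = W} ≃
        {s : {s : Fin m → V // LinearIndependent F s} // Submodule.span F (Set.range s.1) = W.1} :=
      Equiv.subtypeEquivRight fun s => by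
        constructor
        · intro h; exact congrArg Subtype.val h
        · intro h; exact Subtype.ext h
    rw [Nat.card_congr (e1.trans (fibreEquiv m W.1 W.2)),
      card_linearIndependent (K := F) (V := W.1) (le_of_eq W.2.symm), W.2]
  simp only [hfib, Finset.sum_const, Finset.card_univ, smul_eq_mul, Nat.card_eq_fintype_card]

end Cfsg.Agent.Lib.Helper87EluA1
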