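import Cfsg.Agent.Lib.Helper87EluTools
set_option autoImplicit false
open Module Cfsg.Agent.Lib.Helper87EluA1 Cfsg.Agent.Lib.Helper87EluA4 Cfsg.Agent.Lib.Helper87EluA5 Cfsg.Agent.Lib.Helper87EluB1 Cfsg.Agent.Lib.Helper87EluB2 Cfsg.Agent.Lib.Helper87EluB3 Cfsg.Agent.Lib.Helper87EluB4 Cfsg.Agent.Lib.Helper87EluB7 Cfsg.Agent.Lib.Helper87EluC2 Cfsg.Agent.Lib.Helper87EluD Cfsg.Agent.Lib.Helper7EluC1 Cfsg.Agent.Lib.Helper7EluC3 Cfsg.Agent.Lib.Helper87EluTools

namespace Cfsg.Agent.Lib.Helper87EluMain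

theorem prime_facts {F : Type*} [Field F] [Fintype F] {p : ℕ} [Fact p.Prime] [CharP F p] (r : ℕ) [Fact r.Prime]
    (hrp : r ≠ p) : ¬ r ∣ Fintype.card F ∧ (r : F) ≠ 0 := by
  have hr : r.Prime := Fact.out
  have hp : p.Prime := Fact.out
  constructor
  · obtain ⟨k, _, hk⟩ := FiniteField.card F p
    rw [hk]
    intro h
    exact hrp ((Nat.prime_dvd_prime_iff_eq hr hp).mp (hr.dvd_of_dvd_pow h))
  · intro h
    rw [CharP.cast_eq_zero_iff F p r] at h
    exact hrp ((Nat.prime_dvd_prime_iff_eq hp hr).mp h).symm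

theorem S5949 {F : Type*} [Field F] [Fintype F] {p : ℕ} [Fact p.Prime] [CharP F p] {q : ℕ} (hq : Fintype.card F = q)
    (n m : ℕ) (hn : 2 ≤ n) (hm : 1 ≤ m) (hmn : 2 * m ≤ n)
    (r : ℕ) [Fact r.Prime] (hrΩ : r ∣ Nat.card {W : Submodule F (Fin n → F) // Module.finrank F ↥W = m}) :
    (∀ x : Matrix.SpecialLinearGroup (Fin n) F,
      (∃ c : F, ((x ^ r : Matrix.SpecialLinearGroup (Fin n) F) : Matrix (Fin n) (Fin n) F) = c • (1 : Matrix (Fin n) (Fin n) F)) →
      (∀ c : F, (x : Matrix (Fin n) (Fin n) F) ≠ c • (1 : Matrix (Fin n) (Fin n) F)) →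
      ∃ W : Submodule F (Fin n → F), Module.finrank F ↥W = m ∧ W.map (Matrix.toLin' (x : Matrix (Fin n) (Fin n) F)) ≤ W) ↔
    (r ≠ p ∧
      ((orderOf (q : ZMod r) = 1 ∧ (r ∣ m ∨ (padicValNat r n ≤ padicValNat r (q - 1) ∧ (r = 2 → Even n → q % 4 = 1)))) ∨
       (2 ≤ orderOf (q : ZMod r) ∧ orderOf (q : ZMod r) ≤ m ∧ m % orderOf (q : ZMod r) ≤ n % orderOf (q : ZMod r)))) := by
  subst hq
  have hrp : r ≠ p := by
    rintro rfl
    exact not_dvd_count_char r m (by rw [finrank_fin_fun]; omega) hrΩ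
  obtain ⟨hrq, hrF⟩ := prime_facts (F := F) (p := p) r hrp
  obtain ⟨hi, hi1⟩ := orderOf_facts (Fintype.card F) r Fintype.card_pos hrq
  have hmk : n % orderOf (Fintype.card F : ZMod r) < m := by
    by_contra h
    push Not at h
    exact not_dvd_count r hrq m (by rw [finrank_fin_fun]; exact h) hrΩ
  generalize hidef : orderOf (Fintype.card F : ZMod r) = i at *
  constructor
  · intro H
    refine ⟨hrp, ?_⟩
    by_cases h1 : i = 1
    · left
      refine ⟨h1, ?_⟩
      by_contra hcon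
      push Not at hcon
      obtain ⟨x, hx1, hx2, hx3⟩ := exists_derangement_c (F := F) (n := n) (by omega) r (hi1.mp h1)
        (fun h => by
          obtain ⟨h2, h3, h4⟩ := hcon.2 h.1
          exact h4 (h.2 h2 h3))
      obtain ⟨W, hWm, hW⟩ := H x hx1 hx2
      exact hcon.1 (hWm ▸ hx3 W hW)
    · right
      have hi2 : 2 ≤ i := by omega
      have hin : i ≤ n := by
        by_contra h
        rw [Nat.mod_eq_of_lt (by omega)] at hmk
        omega
      obtain ⟨x, hx1, hx2, hx3⟩ := exists_derangement_max (F := F) (n := n) r hrq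
        (fun h => h1 (hi1.mpr h)) (by rw [hidef]; exact hin)
      obtain ⟨W, hWm, hW⟩ := H x ⟨1, hx1⟩ hx2
      have hxr := toLin_pow_eq x r 1 hx1
      rw [one_smul] at hxr
      obtain ⟨k, hk⟩ := finrank_congr r hrq _ hxr W hW
      have hle : finrank F ↥(W ⊓ Module.End.eigenspace (Matrix.toLin' (x : Matrix (Fin n) (Fin n) F)) 1)
          ≤ n % i := by
        rw [← hidef, ← hx3]
        exact Submodule.finrank_mono inf_le_right
      rw [hidef, hWm] at hk
      generalize finrank F ↥(W ⊓ Module.End.eigenspace (Matrix.toLin' (x : Matrix (Fin n) (Fin n) F)) 1) = cW at *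
      have hlt : n % i < i := Nat.mod_lt _ hi
      have hk0 : k ≠ 0 := by
        rintro rfl
        omega
      have hik : i ≤ i * k := Nat.le_mul_of_pos_right i (Nat.pos_of_ne_zero hk0)
      refine ⟨hi2, by omega, ?_⟩
      rw [hk, Nat.add_mul_mod_self_left, Nat.mod_eq_of_lt (by omega)]
      exact hle
  · rintro ⟨-, hcase⟩ x ⟨c, hc⟩ -
    have hg := toLin_pow_eq x r c hc
    rcases pow_or (by omega) r x c hc with ⟨d, hd0, hd⟩ | ⟨hcn, hq1, hrn, hNT⟩
    · obtain ⟨W, -, hW, hWm⟩ := inv_of_pow r hrq hrF _ d hd0 (hd ▸ hg) m ⊤ le_top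
        (by rw [finrank_top, finrank_fin_fun]; omega)
        (by
          rw [finrank_top, finrank_fin_fun, hidef]
          rcases hcase with ⟨h1, -⟩ | ⟨-, -, h3⟩
          · rw [h1, Nat.mod_one]; exact Nat.zero_le _
          · exact h3)
      exact ⟨W, hWm, hW⟩
    · have h1 : i = 1 := hi1.mpr hq1
      rcases hcase with ⟨-, hrm | hNT'⟩ | ⟨h2, -, -⟩
      · obtain ⟨W, -, hW, hWm⟩ := inv_of_not_pow r hrF _ c hcn hg m ⊤ le_top
          (by rw [finrank_top, finrank_fin_fun]; omega) hrm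
        exact ⟨W, hWm, hW⟩
      · exact absurd hNT' hNT
      · omega

theorem sub_mod_of_le (n m i : ℕ) (hi : 0 < i) (h : m ≤ n % i) : (n - m) % i = n % i - m := by
  have h1 : n - m = (n % i - m) + i * (n / i) := by
    have := Nat.mod_add_div n i
    omega
  rw [h1, Nat.add_mul_mod_self_left, Nat.mod_eq_of_lt]
  have := Nat.mod_lt n hi
  omega

theorem S5951 {F : Type*} [Field F] [Fintype F] {p : ℕ} [Fact p.Prime] [CharP F p] {q : ℕ} (hq : Fintype.card F = q)
    (n m : ℕ) (hn : 2 ≤ n) (hm : 1 ≤ m) (hmn : 2 * m < n)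
    (r : ℕ) [Fact r.Prime]
    (hrΩ : r ∣ Nat.card {P : Submodule F (Fin n → F) × Submodule F (Fin n → F) //
        P.1 ≤ P.2 ∧ Module.finrank F ↥P.1 = m ∧ Module.finrank F ↥P.2 = n - m}) :
    (∀ x : Matrix.SpecialLinearGroup (Fin n) F,
      (∃ c : F, ((x ^ r : Matrix.SpecialLinearGroup (Fin n) F) : Matrix (Fin n) (Fin n) F) = c • (1 : Matrix (Fin n) (Fin n) F)) →
      (∀ c : F, (x : Matrix (Fin n) (Fin n) F) ≠ c • (1 : Matrix (Fin n) (Fin n) F)) →
      ∃ U W : Submodule F (Fin n → F), U ≤ W ∧ Module.finrank F ↥U = m ∧ Module.finrank F ↥W = n - m ∧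
        U.map (Matrix.toLin' (x : Matrix (Fin n) (Fin n) F)) ≤ U ∧ W.map (Matrix.toLin' (x : Matrix (Fin n) (Fin n) F)) ≤ W) ↔
    (r ≠ p ∧
      ((orderOf (q : ZMod r) = 1 ∧ (r ∣ m ∨ (padicValNat r n ≤ padicValNat r (q - 1) ∧ (r = 2 → Even n → q % 4 = 1)))) ∨
       (2 ≤ orderOf (q : ZMod r) ∧ orderOf (q : ZMod r) ≤ m ∧ 2 * (m % orderOf (q : ZMod r)) ≤ n % orderOf (q : ZMod r)))) := by
  subst hq
  have hfl := dvd_flags r Fact.out m (n - m) hrΩ
  have hrp : r ≠ p := by
    rintro rfl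
    rcases hfl with h | ⟨W, hW, h⟩
    · exact not_dvd_count_char r (n - m) (by rw [finrank_fin_fun]; omega) h
    · exact not_dvd_count_char r m (by rw [hW]; omega) h
  obtain ⟨hrq, hrF⟩ := prime_facts (F := F) (p := p) r hrp
  obtain ⟨hi, hi1⟩ := orderOf_facts (Fintype.card F) r Fintype.card_pos hrq
  have hmk : n % orderOf (Fintype.card F : ZMod r) < 2 * m := by
    by_contra h
    push Not at h
    rcases hfl with h' | ⟨W, hW, h'⟩
    · have h5 := card_finrank_compl (F := F) (V := Fin n → F) m (by rw [finrank_fin_fun]; omega)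
      rw [finrank_fin_fun] at h5
      rw [h5] at h'
      exact not_dvd_count r hrq m (by rw [finrank_fin_fun]; omega) h'
    · refine not_dvd_count r hrq m ?_ h'
      rw [hW, sub_mod_of_le n m _ hi (by omega)]
      omega
  generalize hidef : orderOf (Fintype.card F : ZMod r) = i at *
  constructor
  · intro H
    refine ⟨hrp, ?_⟩
    by_cases h1 : i = 1
    · left
      refine ⟨h1, ?_⟩
      by_contra hcon
      push Not at hcon
      obtain ⟨x, hx1, hx2, hx3⟩ := exists_derangement_c (F := F) (n := n) (by omega) r (hi1.mp h1)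
        (fun h => by
          obtain ⟨h2, h3, h4⟩ := hcon.2 h.1
          exact h4 (h.2 h2 h3))
      obtain ⟨U, W, -, hUm, -, hU, -⟩ := H x hx1 hx2
      exact hcon.1 (hUm ▸ hx3 U hU)
    · right
      have hi2 : 2 ≤ i := by omega
      have hin : i ≤ n := by
        by_contra h
        rw [Nat.mod_eq_of_lt (by omega)] at hmk
        omega
      obtain ⟨x, hx1, hx2, hx3⟩ := exists_derangement_max (F := F) (n := n) r hrq
        (fun h => h1 (hi1.mpr h)) (by rw [hidef]; exact hin)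
      obtain ⟨U, W, hUW, hUm, hWm, hU, hW⟩ := H x ⟨1, hx1⟩ hx2
      have hxr := toLin_pow_eq x r 1 hx1
      rw [one_smul] at hxr
      obtain ⟨k, hk⟩ := finrank_congr r hrq _ hxr U hU
      obtain ⟨k', hk'⟩ := finrank_congr r hrq _ hxr W hW
      have hle : finrank F ↥(W ⊓ Module.End.eigenspace (Matrix.toLin' (x : Matrix (Fin n) (Fin n) F)) 1)
          ≤ n % i := by
        rw [← hidef, ← hx3]
        exact Submodule.finrank_mono inf_le_right
      have hle' : finrank F ↥(U ⊓ Module.End.eigenspace (Matrix.toLin' (x : Matrix (Fin n) (Fin n) F)) 1)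
          ≤ finrank F ↥(W ⊓ Module.End.eigenspace (Matrix.toLin' (x : Matrix (Fin n) (Fin n) F)) 1) :=
        Submodule.finrank_mono (inf_le_inf_right _ hUW)
      rw [hidef, hUm] at hk
      rw [hidef, hWm] at hk'
      generalize finrank F ↥(W ⊓ Module.End.eigenspace (Matrix.toLin' (x : Matrix (Fin n) (Fin n) F)) 1) = cW at *
      generalize finrank F ↥(U ⊓ Module.End.eigenspace (Matrix.toLin' (x : Matrix (Fin n) (Fin n) F)) 1) = cU at *
      have hlt : n % i < i := Nat.mod_lt _ hi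
      -- n = cU + cW + i (k + k')
      have hnn : n = (cU + cW) + i * (k + k') := by
        rw [Nat.mul_add]; omega
      have hmod : n % i = (cU + cW) % i := by
        conv_lhs => rw [hnn]
        rw [Nat.add_mul_mod_self_left]
      have hsum : cU + cW = n % i := by
        by_cases hlt2 : cU + cW < i
        · rw [hmod, Nat.mod_eq_of_lt hlt2]
        · exfalso
          have h5 : (cU + cW) % i = cU + cW - i := by
            rw [Nat.mod_eq_sub_mod (by omega), Nat.mod_eq_of_lt (by omega)]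
          omega
      have hk0 : k ≠ 0 := by
        rintro rfl
        omega
      have hik : i ≤ i * k := Nat.le_mul_of_pos_right i (Nat.pos_of_ne_zero hk0)
      refine ⟨hi2, by omega, ?_⟩
      rw [hk, Nat.add_mul_mod_self_left, Nat.mod_eq_of_lt (by omega)]
      omega
  · rintro ⟨-, hcase⟩ x ⟨c, hc⟩ -
    have hg := toLin_pow_eq x r c hc
    rcases pow_or (by omega) r x c hc with ⟨d, hd0, hd⟩ | ⟨hcn, hq1, hrn, hNT⟩
    · have hmods : (n - m) % i ≤ n % i ∧ m % i ≤ (n - m) % i := by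
        rcases hcase with ⟨h1, -⟩ | ⟨-, -, h3⟩
        · rw [h1]; simp [Nat.mod_one]
        · have h4 : (n - m) % i = n % i - m % i := by
            have h5 : n - m = (n - m % i) - i * (m / i) := by
              have := Nat.mod_add_div m i
              omega
            have h6 : i * (m / i) ≤ n - m % i := by
              have := Nat.mod_add_div m i
              omega
            rw [h5, Nat.sub_mul_mod h6, sub_mod_of_le n (m % i) i hi (by omega)]
          omega
      obtain ⟨W, -, hW, hWm⟩ := inv_of_pow r hrq hrF _ d hd0 (hd ▸ hg) (n - m) ⊤ le_top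
        (by rw [finrank_top, finrank_fin_fun]; omega)
        (by rw [finrank_top, finrank_fin_fun, hidef]; exact hmods.1)
      obtain ⟨U, hUW, hU, hUm⟩ := inv_of_pow r hrq hrF _ d hd0 (hd ▸ hg) m W hW
        (by rw [hWm]; omega) (by rw [hWm, hidef]; exact hmods.2)
      exact ⟨U, W, hUW, hUm, hWm, hU, hW⟩
    · have h1 : i = 1 := hi1.mpr hq1
      rcases hcase with ⟨-, hrm | hNT'⟩ | ⟨h2, -, -⟩
      · obtain ⟨W, -, hW, hWm⟩ := inv_of_not_pow r hrF _ c hcn hg (n - m) ⊤ le_top
          (by rw [finrank_top, finrank_fin_fun]; omega) (Nat.dvd_sub hrn hrm)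
        obtain ⟨U, hUW, hU, hUm⟩ := inv_of_not_pow r hrF _ c hcn hg m W hW (by rw [hWm]; omega) hrm
        exact ⟨U, W, hUW, hUm, hWm, hU, hW⟩
      · exact absurd hNT' hNT
      · omega

end Cfsg.Agent.Lib.Helper87EluMain
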