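import Mathlib

/-!
Project 3787 (row S3787): the model of the wreath product `C_p ≀ C_p` in `Type`.
-/

set_option autoImplicit false

namespace Cfsg.Agent.Lib.Helper87WRDefs

/-- the shift by `s` on functions `ZMod p → ZMod p`: `(shiftAdd p s f) i = f (i - s)`. -/
def shiftAdd (p : ℕ) (s : ZMod p) : (ZMod p → ZMod p) ≃+ (ZMod p → ZMod p) where
  toFun f := fun i => f (i - s)
  invFun f := fun i => f (i + s)
  left_inv f := by ext i; simp
  right_inv f := by ext i; simp
  map_add' _ _ := rfl

@[simp] theorem shiftAdd_apply (p : ℕ) (s : ZMod p) (f : ZMod p → ZMod p) (i : ZMod p) :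
    shiftAdd p s f i = f (i - s) := rfl

/-- the shift action of `C_p` on `C_p ^ p`. -/
def shift (p : ℕ) : Multiplicative (ZMod p) →* MulAut (Multiplicative (ZMod p → ZMod p)) where
  toFun s := AddEquiv.toMultiplicative (shiftAdd p s.toAdd)
  map_one' := by
    apply MulEquiv.ext
    intro f
    apply Multiplicative.toAdd.injective
    funext i
    change Multiplicative.toAdd f (i - 0) = Multiplicative.toAdd f i
    rw [sub_zero]
  map_mul' s s' := by
    apply MulEquiv.ext
    intro f
    apply Multiplicative.toAdd.injective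
    funext i
    change Multiplicative.toAdd f (i - (Multiplicative.toAdd s + Multiplicative.toAdd s'))
      = Multiplicative.toAdd f (i - Multiplicative.toAdd s - Multiplicative.toAdd s')
    rw [sub_sub]

theorem shift_apply (p : ℕ) (s : ZMod p) (f : ZMod p → ZMod p) :
    shift p (Multiplicative.ofAdd s) (Multiplicative.ofAdd f)
      = Multiplicative.ofAdd (fun i => f (i - s)) := rfl

/-- the wreath product `C_p ≀ C_p`. -/
abbrev Wr (p : ℕ) : Type :=
  Multiplicative (ZMod p → ZMod p) ⋊[shift p] Multiplicative (ZMod p)

end Cfsg.Agent.Lib.Helper87WRDefs
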