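import Mathlib
import Cfsg.Prelude.Def_Blocks
import Cfsg.Agent.Lib.Helper81Subsec2
import Cfsg.Agent.Lib.Helper21Cover2

set_option autoImplicit false

/-!
A criterion for a finite group to have only one 2-block:
* the centralizer of every involution has a normal 2-subgroup containing its centralizer;
* modulo 2 the square of the sum `Ω` of all solutions of `t ^ 2 = 1` is the sum of a normal subset `Y`
  and the square of the sum of `Y` vanishes.
-/

namespace Cfsg.Agent.Lib.Helper88OneBlock

open Cfsg
open Cfsg.Agent.Lib.Helper81Local Cfsg.Agent.Lib.Helper81Base Cfsg.Agent.Lib.Helper81BB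
  Cfsg.Agent.Lib.Helper81Block Cfsg.Agent.Lib.Helper81Second3 Cfsg.Agent.Lib.Helper81Subsec
  Cfsg.Agent.Lib.Helper81Subsec2 Cfsg.Agent.Lib.Helper82Linear Cfsg.Agent.Lib.Helper21Cover2
open scoped ComplexConjugate

variable {G : Type*} [Group G] [Fintype G] {M : Ideal AlgInt}

theorem om_add (α β : G → ℂ) (χ : IrrCharacter G) :
    om (fun g => α g + β g) χ = om α χ + om β χ := by
  unfold om
  rw [← Finset.sum_add_distrib]
  apply Finset.sum_congr rfl
  intro g _
  ring

theorem om_memLocalIdeal [M.IsPrime] {α : G → ℂ} (hα : IsClassFunction G α)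
    (hα' : ∀ g, MemLocalIdeal M (α g)) (χ : IrrCharacter G) : MemLocalIdeal M (om α χ) := by
  classical
  rw [om_eq_sum_classes hα]
  apply memLocalIdeal_sum
  intro C _
  exact memLocalIdeal_mul_right (hα' _) (memLocalRing_of_isIntegral (irr_omega_integral χ _))

/-- indicator function -/
noncomputable def ind (Y : G → Prop) [DecidablePred Y] (g : G) : ℂ := if Y g then 1 else 0

omit [Fintype G] in
theorem ind_classfn (Y : G → Prop) [DecidablePred Y] (hY : ∀ g k : G, Y (k * g * k⁻¹) ↔ Y g) :
    IsClassFunction G (ind Y) := by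
  intro g h
  unfold ind
  simp only [hY]

theorem conv_ind [DecidableEq G] (Y Z : G → Prop) [DecidablePred Y] [DecidablePred Z] (g : G) :
    conv (ind Y) (ind Z) g = ((Finset.univ.filter (fun t : G => Y t ∧ Z (t⁻¹ * g))).card : ℂ) := by
  unfold conv ind
  rw [Finset.card_filter]
  push_cast
  apply Finset.sum_congr rfl
  intro t _
  by_cases h1 : Y t <;> by_cases h2 : Z (t⁻¹ * g) <;> simp [h1, h2]

omit [Group G] [Fintype G] in
theorem ind_memLocalRing [M.IsPrime] (Y : G → Prop) [DecidablePred Y] (g : G) :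
    MemLocalRing M (ind Y g) := by
  unfold ind
  split_ifs
  · simpa using memLocalRing_natCast (M := M) 1
  · simpa using memLocalRing_natCast (M := M) 0

/-- the sum of all solutions of `t ^ 2 = 1` is nilpotent modulo 2: every irreducible character is nonzero
on some involution -/
theorem exists_involution [DecidableEq G] (hM : IsPModular 2 M)
    (Y : G → Prop) [DecidablePred Y] (hY : ∀ g k : G, Y (k * g * k⁻¹) ↔ Y g)
    (ha : ∀ g : G, Even ((Finset.univ.filter (fun t : G => t ^ 2 = 1 ∧ (t⁻¹ * g) ^ 2 = 1)).card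
      + (if Y g then 1 else 0)))
    (hb : ∀ g : G, Even (Finset.univ.filter (fun x : G => Y x ∧ Y (x⁻¹ * g))).card)
    (χ : IrrCharacter G) : ∃ z : G, orderOf z = 2 ∧ (χ : G → ℂ) z ≠ 0 := by
  have hMp := hM.2.1.isPrime
  set Ω : G → Prop := fun t => t ^ 2 = 1 with hΩ
  have hΩc : IsClassFunction G (ind Ω) := by
    apply ind_classfn
    intro g k
    show (k * g * k⁻¹) ^ 2 = 1 ↔ g ^ 2 = 1
    rw [conj_pow]
    constructor
    · intro h
      have : g ^ 2 = k⁻¹ * (k * g ^ 2 * k⁻¹) * k := by group
      rw [this, h]; group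
    · intro h
      rw [h]; group
  have hYc : IsClassFunction G (ind Y) := ind_classfn Y hY
  -- `om Y` lies in the ideal
  have h1 : MemLocalIdeal M (om (ind Y) χ) := by
    have h2 : MemLocalIdeal M (om (ind Y) χ * om (ind Y) χ) := by
      rw [← om_conv hYc]
      apply om_memLocalIdeal (conv_classfn hYc hYc)
      intro g
      rw [conv_ind]
      exact (memLocalIdeal_natCast_iff hM).2 (even_iff_two_dvd.1 (hb g))
    have h3 := om_memLocalRing (M := M) hYc (ind_memLocalRing Y) χ
    rcases memLocalIdeal_or_of_mul h3 h3 h2 with h | h <;> exact h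
  -- `om Ω` lies in the ideal
  have h4 : MemLocalIdeal M (om (ind Ω) χ) := by
    have h5 : MemLocalIdeal M (om (ind Ω) χ * om (ind Ω) χ + om (ind Y) χ) := by
      rw [← om_conv hΩc, ← om_add]
      apply om_memLocalIdeal
      · intro g h
        show conv (ind Ω) (ind Ω) _ + ind Y _ = conv (ind Ω) (ind Ω) _ + ind Y _
        rw [conv_classfn hΩc hΩc g h, hYc g h]
      · intro g
        rw [conv_ind]
        have : (((Finset.univ.filter (fun t : G => Ω t ∧ Ω (t⁻¹ * g))).card : ℂ) + ind Y g)
            = (((Finset.univ.filter (fun t : G => t ^ 2 = 1 ∧ (t⁻¹ * g) ^ 2 = 1)).card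
              + (if Y g then 1 else 0) : ℕ) : ℂ) := by
          unfold ind
          push_cast
          rfl
        rw [this]
        exact (memLocalIdeal_natCast_iff hM).2 (even_iff_two_dvd.1 (ha g))
    have h6 : MemLocalIdeal M (om (ind Ω) χ * om (ind Ω) χ) := by
      have := memLocalIdeal_sub h5 h1
      simpa using this
    have h3 := om_memLocalRing (M := M) hΩc (ind_memLocalRing Ω) χ
    rcases memLocalIdeal_or_of_mul h3 h3 h6 with h | h <;> exact h
  by_contra hcon
  push Not at hcon
  apply not_memLocalIdeal_one (M := M)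
  have h7 : om (ind Ω) χ = 1 := by
    unfold om
    rw [Finset.sum_eq_single (1 : G)]
    · have : ind Ω (1 : G) = 1 := by simp [ind, hΩ]
      rw [this, one_mul, div_self (irr_one_ne_zero χ)]
    · intro t _ ht
      by_cases h2 : t ^ 2 = 1
      · have : orderOf t = 2 := orderOf_eq_prime h2 ht
        rw [hcon t this]; simp
      · have : ind Ω t = 0 := by simp [ind, hΩ, h2]
        rw [this]; simp
    · intro h; exact absurd (Finset.mem_univ _) h
  rw [← h7]
  exact h4

/-- **criterion for a single 2-block** -/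
theorem one_block [DecidableEq G] (hM : IsPModular 2 M)
    (hC : ∀ z : G, orderOf z = 2 → ∃ P : Subgroup (Subgroup.centralizer ({z} : Set G)),
      P.Normal ∧ IsPGroup 2 P ∧ Subgroup.centralizer (P : Set (Subgroup.centralizer ({z} : Set G))) ≤ P)
    (Y : G → Prop) [DecidablePred Y] (hY : ∀ g k : G, Y (k * g * k⁻¹) ↔ Y g)
    (ha : ∀ g : G, Even ((Finset.univ.filter (fun t : G => t ^ 2 = 1 ∧ (t⁻¹ * g) ^ 2 = 1)).card
      + (if Y g then 1 else 0)))
    (hb : ∀ g : G, Even (Finset.univ.filter (fun x : G => Y x ∧ Y (x⁻¹ * g))).card)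
    (χ ψ : IrrCharacter G) : SameBlock M (χ : G → ℂ) (ψ : G → ℂ) := by
  classical
  have hMp := hM.2.1.isPrime
  have hfact : Fact (Nat.Prime 2) := ⟨Nat.prime_two⟩
  have key : ∀ χ : IrrCharacter G, χ ∈ principalBlock M G := by
    intro χ
    obtain ⟨z, hz, hχz⟩ := exists_involution hM Y hY ha hb χ
    have hx : ∃ k : ℕ, orderOf z = 2 ^ k := ⟨1, by rw [hz]; norm_num⟩
    set B := blockOf M (χ : G → ℂ) with hB
    have hBb : IsPBlock M B := isPBlock_blockOf χ
    have hne : (overSet M z B).Nonempty := by
      by_contra hemp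
      rw [Set.not_nonempty_iff_eq_empty] at hemp
      have h1 := blockPart_overSet hM hBb z hx χ 1 (by simp)
      rw [hemp, if_pos (self_mem_blockOf χ)] at h1
      apply hχz
      have h2 : (χ : G → ℂ) (z * ((1 : Subgroup.centralizer ({z} : Set G)) : G)) = (χ : G → ℂ) z := by
        simp
      rw [← h2, ← h1]
      unfold blockPart
      simp
    obtain ⟨φ, hφ⟩ := hne
    obtain ⟨P, hPn, hP2, hPC⟩ := hC z hz
    let _ : Fintype (Subgroup.centralizer ({z} : Set G)) := Fintype.ofFinite _
    have h3 : φ ∈ principalBlock M (Subgroup.centralizer ({z} : Set G)) :=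
      sameBlock_of_centralizer_le hM hP2 hPC (irrOne _) φ
    rw [← overSet_principalBlock hM z hx] at h3
    have h4 : B = principalBlock M G := induced_unique hφ h3
    rw [← h4]
    exact self_mem_blockOf χ
  exact sameBlock_trans (sameBlock_symm (key χ)) (key ψ)

end Cfsg.Agent.Lib.Helper88OneBlock
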