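import Mathlib

set_option autoImplicit false

/-!
Parity of class multiplication numbers in a finite group: products of two solutions of `t ^ 2 = 1`, and
products of two elements of a normal subset none of whose elements commutes with an involution.
-/

namespace Cfsg.Agent.Lib.Helper88Parity

theorem even_card_of_involution {α : Type*} [DecidableEq α] (s : Finset α) (σ : α → α)
    (h1 : ∀ x ∈ s, σ x ∈ s) (h2 : ∀ x ∈ s, σ (σ x) = x) (h3 : ∀ x ∈ s, σ x ≠ x) : Even s.card := by
  have h : ∑ x ∈ s, (1 : ZMod 2) = 0 := by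
    apply Finset.sum_involution (fun x _ => σ x)
    · intro x _
      decide
    · intro x hx _
      exact h3 x hx
    · intro x hx
      exact h1 x hx
    · intro x hx
      exact h2 x hx
  rw [Finset.sum_const, nsmul_eq_mul, mul_one] at h
  exact (ZMod.natCast_eq_zero_iff_even).1 h

theorem even_card_add_fixed {α : Type*} [DecidableEq α] (s : Finset α) (σ : α → α)
    (h1 : ∀ x ∈ s, σ x ∈ s) (h2 : ∀ x ∈ s, σ (σ x) = x) :
    Even (s.card + (s.filter (fun x => σ x = x)).card) := by
  have h := even_card_of_involution (s.filter (fun x => ¬ σ x = x)) σ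
    (by
      intro x hx
      rw [Finset.mem_filter] at hx ⊢
      refine ⟨h1 x hx.1, ?_⟩
      rw [h2 x hx.1]
      intro h
      exact hx.2 h.symm)
    (fun x hx => h2 x (Finset.mem_filter.1 hx).1)
    (fun x hx => (Finset.mem_filter.1 hx).2)
  have hc := Finset.card_filter_add_card_filter_not (s := s) (fun x => σ x = x)
  rw [← hc]
  have : (s.filter (fun x => σ x = x)).card + (s.filter (fun x => ¬ σ x = x)).card
      + (s.filter (fun x => σ x = x)).card
      = (s.filter (fun x => ¬ σ x = x)).card + 2 * (s.filter (fun x => σ x = x)).card := by ring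
  rw [this]
  exact h.add (even_two_mul _)

variable {Γ : Type*} [Group Γ] [Fintype Γ] [DecidableEq Γ]

/-- the number of ways of writing `g` as a product of two solutions of `t ^ 2 = 1` -/
def rr (g : Γ) : ℕ := (Finset.univ.filter (fun t : Γ => t ^ 2 = 1 ∧ (t⁻¹ * g) ^ 2 = 1)).card

/-- the number of ways of writing `g` as a product of two elements of `Y` -/
def yy (Y : Γ → Prop) [DecidablePred Y] (g : Γ) : ℕ :=
  (Finset.univ.filter (fun x : Γ => Y x ∧ Y (x⁻¹ * g))).card

/-- the number of solutions of `t ^ 2 = 1` with `h * t` in `Y` -/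
def ny (Y : Γ → Prop) [DecidablePred Y] (h : Γ) : ℕ :=
  (Finset.univ.filter (fun t : Γ => t ^ 2 = 1 ∧ Y (h * t))).card

omit [Fintype Γ] [DecidableEq Γ] in
theorem sq_conj_iff (k x : Γ) : (k * x * k⁻¹) ^ 2 = 1 ↔ x ^ 2 = 1 := by
  rw [conj_pow]
  constructor
  · intro h
    have : x ^ 2 = k⁻¹ * (k * x ^ 2 * k⁻¹) * k := by group
    rw [this, h]; group
  · intro h
    rw [h]; group

theorem rr_conj (k g : Γ) : rr (k * g * k⁻¹) = rr g := by
  unfold rr
  symm
  apply Finset.card_bij (fun t _ => k * t * k⁻¹)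
  · intro t ht
    rw [Finset.mem_filter] at ht ⊢
    refine ⟨Finset.mem_univ _, (sq_conj_iff k t).2 ht.2.1, ?_⟩
    have : (k * t * k⁻¹)⁻¹ * (k * g * k⁻¹) = k * (t⁻¹ * g) * k⁻¹ := by group
    rw [this]
    exact (sq_conj_iff k _).2 ht.2.2
  · intro a _ b _ h
    exact mul_left_cancel (mul_right_cancel h)
  · intro t ht
    rw [Finset.mem_filter] at ht
    refine ⟨k⁻¹ * t * k, ?_, by group⟩
    rw [Finset.mem_filter]
    refine ⟨Finset.mem_univ _, ?_, ?_⟩
    · have := (sq_conj_iff k⁻¹ t).2 ht.2.1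
      rwa [inv_inv] at this
    · have h2 := (sq_conj_iff k⁻¹ _).2 ht.2.2
      rw [inv_inv] at h2
      have : (k⁻¹ * t * k)⁻¹ * g = k⁻¹ * (t⁻¹ * (k * g * k⁻¹)) * k := by group
      rw [this]
      exact h2

theorem ny_conj (Y : Γ → Prop) [DecidablePred Y] (hY : ∀ g k : Γ, Y (k * g * k⁻¹) ↔ Y g) (k h : Γ) :
    ny Y (k * h * k⁻¹) = ny Y h := by
  unfold ny
  symm
  apply Finset.card_bij (fun t _ => k * t * k⁻¹)
  · intro t ht
    rw [Finset.mem_filter] at ht ⊢
    refine ⟨Finset.mem_univ _, (sq_conj_iff k t).2 ht.2.1, ?_⟩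
    have : k * h * k⁻¹ * (k * t * k⁻¹) = k * (h * t) * k⁻¹ := by group
    rw [this, hY]
    exact ht.2.2
  · intro a _ b _ h
    exact mul_left_cancel (mul_right_cancel h)
  · intro t ht
    rw [Finset.mem_filter] at ht
    refine ⟨k⁻¹ * t * k, ?_, by group⟩
    rw [Finset.mem_filter]
    refine ⟨Finset.mem_univ _, ?_, ?_⟩
    · have := (sq_conj_iff k⁻¹ t).2 ht.2.1
      rwa [inv_inv] at this
    · have h2 := ht.2.2
      have : k * h * k⁻¹ * t = k * (h * (k⁻¹ * t * k)) * k⁻¹ := by group
      rw [this, hY] at h2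
      exact h2

/-- if `g` commutes with an involution then `rr g` is even -/
theorem even_rr {g u : Γ} (hu1 : u ≠ 1) (hu2 : u ^ 2 = 1) (hug : u * g = g * u) : Even (rr g) := by
  have hui : u⁻¹ = u := by
    rw [inv_eq_iff_mul_eq_one, ← sq]; exact hu2
  have huu : u * u = 1 := by rw [← sq]; exact hu2
  unfold rr
  apply even_card_of_involution _ (fun t => if u * t * u = t then t * u else u * t * u)
  · intro t ht
    rw [Finset.mem_filter] at ht ⊢
    refine ⟨Finset.mem_univ _, ?_⟩
    obtain ⟨-, ht1, ht2⟩ := ht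
    by_cases hc : u * t * u = t
    · simp only [hc, if_true]
      have hcomm : u * t = t * u := by
        calc u * t = u * t * (u * u) := by rw [huu, mul_one]
          _ = (u * t * u) * u := by group
          _ = t * u := by rw [hc]
      constructor
      · calc (t * u) ^ 2 = t * (u * t) * u := by rw [sq]; group
          _ = t * (t * u) * u := by rw [hcomm]
          _ = t ^ 2 * (u * u) := by rw [sq]; group
          _ = 1 := by rw [ht1, huu, one_mul]
      · have hcomm' : u * t⁻¹ = t⁻¹ * u := by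
          calc u * t⁻¹ = t⁻¹ * (t * u) * t⁻¹ := by group
            _ = t⁻¹ * (u * t) * t⁻¹ := by rw [hcomm]
            _ = t⁻¹ * u := by group
        have e : (t * u)⁻¹ * g = u * (t⁻¹ * g) := by
          rw [mul_inv_rev, hui, mul_assoc]
        have hc2 : u * (t⁻¹ * g) = (t⁻¹ * g) * u := by
          rw [← mul_assoc, hcomm', mul_assoc, hug, mul_assoc]
        rw [e, sq]
        calc u * (t⁻¹ * g) * (u * (t⁻¹ * g)) = u * ((t⁻¹ * g) * u) * (t⁻¹ * g) := by group
          _ = u * (u * (t⁻¹ * g)) * (t⁻¹ * g) := by rw [hc2]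
          _ = (u * u) * (t⁻¹ * g) ^ 2 := by rw [sq]; group
          _ = 1 := by rw [huu, ht2, one_mul]
    · simp only [hc, if_false]
      constructor
      · have := (sq_conj_iff u t).2 ht1
        rwa [hui] at this
      · have h2 := (sq_conj_iff u _).2 ht2
        rw [hui] at h2
        have : (u * t * u)⁻¹ * g = u * (t⁻¹ * g) * u := by
          rw [mul_inv_rev, mul_inv_rev, hui]
          calc u * (t⁻¹ * u) * g = u * t⁻¹ * (u * g) := by group
            _ = u * t⁻¹ * (g * u) := by rw [hug]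
            _ = _ := by group
        rw [this]
        exact h2
  · intro t _
    by_cases hc : u * t * u = t
    · have h1 : u * (t * u) * u = t * u := by
        calc u * (t * u) * u = (u * t * u) * u := by group
          _ = t * u := by rw [hc]
      simp only [hc, if_true, h1]
      rw [mul_assoc, huu, mul_one]
    · have h1 : u * (u * t * u) * u = t := by
        calc u * (u * t * u) * u = (u * u) * t * (u * u) := by group
          _ = t := by rw [huu, one_mul, mul_one]
      have h2 : ¬ u * (u * t * u) * u = u * t * u := by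
        rw [h1]; exact fun h => hc h.symm
      simp only [hc, if_false, h2]
      exact h1
  · intro t _
    by_cases hc : u * t * u = t
    · simp only [hc, if_true]
      intro h
      exact hu1 (mul_left_cancel (h.trans (mul_one t).symm))
    · simp only [hc, if_false]
      exact hc

/-- if `g` commutes with an involution and no element of `Y` does, then `yy Y g` is even -/
theorem even_yy_of_comm (Y : Γ → Prop) [DecidablePred Y] (hY : ∀ g k : Γ, Y (k * g * k⁻¹) ↔ Y g)
    (hN : ∀ y, Y y → ∀ u : Γ, u ≠ 1 → u ^ 2 = 1 → u * y ≠ y * u)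
    {g u : Γ} (hu1 : u ≠ 1) (hu2 : u ^ 2 = 1) (hug : u * g = g * u) : Even (yy Y g) := by
  have hui : u⁻¹ = u := by
    rw [inv_eq_iff_mul_eq_one, ← sq]; exact hu2
  have huu : u * u = 1 := by rw [← sq]; exact hu2
  unfold yy
  apply even_card_of_involution _ (fun x => u * x * u)
  · intro x hx
    rw [Finset.mem_filter] at hx ⊢
    refine ⟨Finset.mem_univ _, ?_, ?_⟩
    · have := (hY x u).2 hx.2.1
      rwa [hui] at this
    · have h2 := (hY _ u).2 hx.2.2
      rw [hui] at h2
      have : (u * x * u)⁻¹ * g = u * (x⁻¹ * g) * u := by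
        rw [mul_inv_rev, mul_inv_rev, hui]
        calc u * (x⁻¹ * u) * g = u * x⁻¹ * (u * g) := by group
          _ = u * x⁻¹ * (g * u) := by rw [hug]
          _ = _ := by group
      rw [this]
      exact h2
  · intro x _
    calc u * (u * x * u) * u = (u * u) * x * (u * u) := by group
      _ = x := by rw [huu, one_mul, mul_one]
  · intro x hx h
    rw [Finset.mem_filter] at hx
    apply hN x hx.2.1 u hu1 hu2
    calc u * x = (u * x * u) * u := by rw [mul_assoc, huu, mul_one]
      _ = x * u := by rw [h]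

/-- the number of factorisations of `h ^ 2` in `Y` has the parity of `ny Y h` -/
theorem even_yy_add_ny (Y : Γ → Prop) [DecidablePred Y] (hY : ∀ g k : Γ, Y (k * g * k⁻¹) ↔ Y g)
    (h : Γ) : Even (yy Y (h ^ 2) + ny Y h) := by
  have key := even_card_add_fixed (Finset.univ.filter (fun x : Γ => Y x ∧ Y (x⁻¹ * h ^ 2)))
    (fun x => h * x⁻¹ * h)
    (by
      intro x hx
      rw [Finset.mem_filter] at hx ⊢
      refine ⟨Finset.mem_univ _, ?_, ?_⟩
      · have : h * x⁻¹ * h = h * (x⁻¹ * h ^ 2) * h⁻¹ := by rw [sq]; group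
        rw [this, hY]
        exact hx.2.2
      · have : (h * x⁻¹ * h)⁻¹ * h ^ 2 = h⁻¹ * x * h⁻¹⁻¹ := by rw [sq]; group
        rw [this, hY]
        exact hx.2.1)
    (by
      intro x _
      group)
  have hcard : ((Finset.univ.filter (fun x : Γ => Y x ∧ Y (x⁻¹ * h ^ 2))).filter
      (fun x => h * x⁻¹ * h = x)).card = ny Y h := by
    unfold ny
    symm
    apply Finset.card_bij (fun t _ => h * t)
    · intro t ht
      rw [Finset.mem_filter] at ht
      obtain ⟨-, ht1, ht2⟩ := ht
      have hti : t⁻¹ = t := by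
        rw [inv_eq_iff_mul_eq_one, ← sq]; exact ht1
      rw [Finset.mem_filter, Finset.mem_filter]
      refine ⟨⟨Finset.mem_univ _, ht2, ?_⟩, ?_⟩
      · have : (h * t)⁻¹ * h ^ 2 = t * (h * t) * t⁻¹ := by
          calc (h * t)⁻¹ * h ^ 2 = t⁻¹ * h := by rw [sq]; group
            _ = t * h := by rw [hti]
            _ = t * (h * t) * t⁻¹ := by group
        rw [this, hY]
        exact ht2
      · rw [mul_inv_rev, hti]; group
    · intro a _ b _ hab
      exact mul_left_cancel hab
    · intro x hx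
      rw [Finset.mem_filter, Finset.mem_filter] at hx
      obtain ⟨⟨-, hx1, -⟩, hx3⟩ := hx
      refine ⟨h⁻¹ * x, ?_, by group⟩
      rw [Finset.mem_filter]
      refine ⟨Finset.mem_univ _, ?_, ?_⟩
      · rw [sq]
        calc h⁻¹ * x * (h⁻¹ * x) = h⁻¹ * (h * x⁻¹ * h) * (h⁻¹ * x) := by rw [hx3]
          _ = 1 := by group
      · have : h * (h⁻¹ * x) = x := by group
        rw [this]; exact hx1
  rw [hcard] at key
  exact key

omit [DecidableEq Γ] in
/-- an element commuting with no involution is a square of such an element -/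
theorem exists_sqrt {g : Γ} (hg : ∀ u : Γ, u ≠ 1 → u ^ 2 = 1 → u * g ≠ g * u) :
    ∃ h : Γ, h ^ 2 = g ∧ ∀ u : Γ, u ≠ 1 → u ^ 2 = 1 → u * h ≠ h * u := by
  have hodd : Odd (orderOf g) := by
    rw [← Nat.not_even_iff_odd]
    rintro ⟨m, hm⟩
    have hpos : 0 < orderOf g := orderOf_pos g
    apply hg (g ^ m)
    · intro h1
      have := orderOf_dvd_of_pow_eq_one h1
      have := Nat.le_of_dvd (by omega) this
      omega
    · rw [← pow_mul, mul_two, ← hm, pow_orderOf_eq_one]
    · rw [← pow_succ, ← pow_succ']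
  obtain ⟨m, hm⟩ := hodd
  refine ⟨g ^ (m + 1), ?_, ?_⟩
  · rw [← pow_mul]
    have : (m + 1) * 2 = orderOf g + 1 := by omega
    rw [this, pow_succ, pow_orderOf_eq_one, one_mul]
  · intro u hu1 hu2 hc
    apply hg u hu1 hu2
    have h2 : (g ^ (m + 1)) ^ 2 = g := by
      rw [← pow_mul]
      have : (m + 1) * 2 = orderOf g + 1 := by omega
      rw [this, pow_succ, pow_orderOf_eq_one, one_mul]
    have hcm : Commute u (g ^ (m + 1)) := hc
    have := hcm.pow_right 2
    rw [h2] at this
    exact this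

/-- **the two parity statements from data on representatives** -/
theorem parity (Y : Γ → Prop) [DecidablePred Y] (hY : ∀ g k : Γ, Y (k * g * k⁻¹) ↔ Y g)
    (hN : ∀ y, Y y → ∀ u : Γ, u ≠ 1 → u ^ 2 = 1 → u * y ≠ y * u)
    (Rep : Γ → Prop)
    (hNF : ∀ g : Γ, (∃ u : Γ, u ≠ 1 ∧ u ^ 2 = 1 ∧ u * g = g * u) ∨ ∃ k : Γ, Rep (k * g * k⁻¹))
    (h1 : ∀ h, Rep h → Even (rr h + (if Y h then 1 else 0)))
    (h2 : ∀ h, Rep h → Even (ny Y h)) :
    (∀ g : Γ, Even (rr g + (if Y g then 1 else 0))) ∧ ∀ g : Γ, Even (yy Y g) := by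
  constructor
  · intro g
    rcases hNF g with ⟨u, hu1, hu2, hug⟩ | ⟨k, hk⟩
    · have hYg : ¬ Y g := fun hy => hN g hy u hu1 hu2 hug
      rw [if_neg hYg, add_zero]
      exact even_rr hu1 hu2 hug
    · have := h1 _ hk
      rw [rr_conj] at this
      simp only [hY] at this
      exact this
  · intro g
    by_cases hg : ∃ u : Γ, u ≠ 1 ∧ u ^ 2 = 1 ∧ u * g = g * u
    · obtain ⟨u, hu1, hu2, hug⟩ := hg
      exact even_yy_of_comm Y hY hN hu1 hu2 hug
    · push Not at hg
      obtain ⟨h, hh, hh2⟩ := exists_sqrt hg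
      rcases hNF h with ⟨u, hu1, hu2, hug⟩ | ⟨k, hk⟩
      · exact absurd hug (hh2 u hu1 hu2)
      · have e1 := h2 _ hk
        rw [ny_conj Y hY] at e1
        have e2 := even_yy_add_ny Y hY h
        rw [hh] at e2
        exact (Nat.even_add.1 e2).2 e1

end Cfsg.Agent.Lib.Helper88Parity
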