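import Mathlib

set_option autoImplicit false

namespace Cfsg.Agent.Lib.Helper88TwoTr

open MulAction

/-- fixed point congruence for a single element of `p`-power order -/
theorem card_modEq_fix {G α : Type*} [Group G] [MulAction G α] [Finite α] (g : G) (p : ℕ)
    [Fact p.Prime] (hg : g ^ p = 1) :
    Nat.card α ≡ Nat.card {x : α // g • x = x} [MOD p] := by
  classical
  have := Fintype.ofFinite α
  have h := Equiv.Perm.card_fixedPoints_modEq (α := α) (f := MulAction.toEndHom g) (p := p) (n := 1)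
    (by rw [pow_one, ← map_pow, hg, map_one])
  rw [Nat.card_eq_fintype_card, Nat.card_eq_fintype_card]
  have e : Fintype.card {x : α // g • x = x}
      = Fintype.card (Function.fixedPoints (MulAction.toEndHom g : Function.End α)) :=
    Fintype.card_congr (Equiv.refl _)
  rw [e]
  exact h

theorem dvd_card_of_no_fix {G α : Type*} [Group G] [MulAction G α] [Finite α] (g : G) (p : ℕ)
    [Fact p.Prime] (hg : g ^ p = 1) (h : ∀ x : α, g • x ≠ x) : p ∣ Nat.card α := by
  have h1 := card_modEq_fix (α := α) g p hg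
  have : IsEmpty {x : α // g • x = x} := ⟨fun x => h x.1 x.2⟩
  rw [Nat.card_of_isEmpty (α := {x : α // g • x = x})] at h1
  exact (Nat.modEq_zero_iff_dvd).1 h1

theorem card_mod_le_one {G α : Type*} [Group G] [MulAction G α] [Finite α] (g : G) (p : ℕ)
    [Fact p.Prime] (hg : g ^ p = 1) (h : ∀ x y : α, g • x = x → g • y = y → x = y) :
    Nat.card α % p ≤ 1 := by
  have h1 := card_modEq_fix (α := α) g p hg
  have : Subsingleton {x : α // g • x = x} := ⟨fun x y => Subtype.ext (h x.1 y.1 x.2 y.2)⟩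
  have h2 : Nat.card {x : α // g • x = x} ≤ 1 := Finite.card_le_one_iff_subsingleton.2 inferInstance
  have h3 : Nat.card α % p = Nat.card {x : α // g • x = x} % p := h1
  rw [h3]
  exact le_trans (Nat.mod_le _ _) h2

section main

variable {H Ω : Type*} [Group H] [Finite H] [MulAction H Ω] [Finite Ω]

theorem exists_order (hH : Nat.card H = 2520) (p : ℕ) [Fact p.Prime] (hp : p ∣ 2520) :
    ∃ g : H, orderOf g = p := by
  exact exists_prime_orderOf_dvd_card' p (hH ▸ hp)

theorem orbit_card (hH : Nat.card H = 2520) (hΩ : Nat.card Ω = 15)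
    (h5 : ∀ g : H, orderOf g = 5 → ∀ x : Ω, g • x ≠ x)
    (h7 : ∀ g : H, orderOf g = 7 → ∀ x y : Ω, g • x = x → g • y = y → x = y) (x : Ω) :
    Nat.card (orbit H x) = 15 := by
  have : Fact (Nat.Prime 5) := ⟨by norm_num⟩
  have : Fact (Nat.Prime 7) := ⟨by norm_num⟩
  obtain ⟨g5, hg5⟩ := exists_order hH 5 (by norm_num)
  obtain ⟨g7, hg7⟩ := exists_order hH 7 (by norm_num)
  have a5 : 5 ∣ Nat.card (orbit H x) := by
    apply dvd_card_of_no_fix g5 5 (hg5 ▸ pow_orderOf_eq_one g5)
    intro y hy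
    exact h5 g5 hg5 y.1 (congrArg Subtype.val hy)
  have a7 : Nat.card (orbit H x) % 7 ≤ 1 := by
    apply card_mod_le_one g7 7 (hg7 ▸ pow_orderOf_eq_one g7)
    intro y z hy hz
    exact Subtype.ext (h7 g7 hg7 y.1 z.1 (congrArg Subtype.val hy) (congrArg Subtype.val hz))
  have le : Nat.card (orbit H x) ≤ 15 := hΩ ▸ Nat.card_le_card_of_injective _ Subtype.val_injective
  have pos : 0 < Nat.card (orbit H x) := by
    have : Nonempty (orbit H x) := ⟨⟨x, mem_orbit_self x⟩⟩
    exact Nat.card_pos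
  obtain ⟨k, hk⟩ := a5
  rw [hk] at a7 le pos ⊢
  have hk3 : k ≤ 3 := by omega
  interval_cases k <;> omega

theorem stab_card (hH : Nat.card H = 2520) (hΩ : Nat.card Ω = 15)
    (h5 : ∀ g : H, orderOf g = 5 → ∀ x : Ω, g • x ≠ x)
    (h7 : ∀ g : H, orderOf g = 7 → ∀ x y : Ω, g • x = x → g • y = y → x = y) (x : Ω) :
    Nat.card (stabilizer H x) = 168 := by
  have h1 := orbit_card hH hΩ h5 h7 x
  have h2 := Nat.card_congr (MulAction.orbitProdStabilizerEquivGroup H x)
  rw [Nat.card_prod, h1, hH] at h2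
  omega

omit [Finite H] in
theorem orbit_mul_stab {α : Type*} [MulAction H α] (x : α) :
    Nat.card (orbit H x) * Nat.card (stabilizer H x) = Nat.card H := by
  have h2 := Nat.card_congr (MulAction.orbitProdStabilizerEquivGroup H x)
  rwa [Nat.card_prod] at h2

/-- the orbit of a pair of distinct points has length 105 or 210 -/
theorem pair_orbit_card (hH : Nat.card H = 2520) (hΩ : Nat.card Ω = 15)
    (h5 : ∀ g : H, orderOf g = 5 → ∀ x : Ω, g • x ≠ x)
    (h7 : ∀ g : H, orderOf g = 7 → ∀ x y : Ω, g • x = x → g • y = y → x = y) (x y : Ω)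
    (hxy : x ≠ y) :
    Nat.card (orbit H (x, y)) = 105 ∨ Nat.card (orbit H (x, y)) = 210 := by
  have : Fact (Nat.Prime 7) := ⟨by norm_num⟩
  obtain ⟨g7, hg7⟩ := exists_order hH 7 (by norm_num)
  have hne : ∀ q : orbit H (x, y), q.1.1 ≠ q.1.2 := by
    rintro ⟨q, h, rfl⟩ hq
    exact hxy (smul_left_cancel h hq)
  have a7 : 7 ∣ Nat.card (orbit H (x, y)) := by
    apply dvd_card_of_no_fix g7 7 (hg7 ▸ pow_orderOf_eq_one g7)
    intro q hq
    have h1 : g7 • q.1 = q.1 := congrArg Subtype.val hq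
    exact hne q (h7 g7 hg7 q.1.1 q.1.2 (congrArg Prod.fst h1) (congrArg Prod.snd h1))
  have hs : stabilizer H (x, y) ≤ stabilizer H x := by
    intro h hh
    rw [mem_stabilizer_iff] at hh ⊢
    exact congrArg Prod.fst hh
  have hd : Nat.card (stabilizer H (x, y)) ∣ 168 := by
    rw [← stab_card hH hΩ h5 h7 x]
    exact Subgroup.card_dvd_of_le hs
  have hm := orbit_mul_stab (H := H) (x, y)
  rw [hH] at hm
  have le : Nat.card (orbit H (x, y)) ≤ 210 := by
    classical
    have : Fintype Ω := Fintype.ofFinite Ω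
    have h1 : Nat.card (orbit H (x, y)) ≤ Nat.card {q : Ω × Ω // q.1 ≠ q.2} :=
      Nat.card_le_card_of_injective (fun q => (⟨q.1, hne q⟩ : {q : Ω × Ω // q.1 ≠ q.2}))
        (fun a b hab => Subtype.ext (congrArg (fun z : {q : Ω × Ω // q.1 ≠ q.2} => z.1) hab))
    have h2 : Nat.card {q : Ω × Ω // q.1 ≠ q.2} = 210 := by
      rw [Nat.card_eq_fintype_card, Fintype.card_subtype]
      have h3 : (Finset.univ.filter fun q : Ω × Ω => q.1 ≠ q.2) = (Finset.univ : Finset Ω).offDiag := by
        ext q; simp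
      rw [h3, Finset.offDiag_card, Finset.card_univ, ← Nat.card_eq_fintype_card, hΩ]
    omega
  obtain ⟨m, hm'⟩ := hd
  obtain ⟨k, hk⟩ := a7
  generalize Nat.card (orbit H (x, y)) = o at *
  generalize Nat.card (stabilizer H (x, y)) = s at *
  have hs0 : 0 < s := by
    rcases Nat.eq_zero_or_pos s with h | h
    · subst h; omega
    · exact h
  have ho : o = 15 * m := by
    have : s * o = s * (15 * m) := by
      calc s * o = o * s := mul_comm _ _
        _ = 2520 := hm
        _ = 15 * 168 := by norm_num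
        _ = 15 * (s * m) := by rw [hm']
        _ = s * (15 * m) := by ring
    exact Nat.eq_of_mul_eq_mul_left hs0 this
  have hm14 : m ≤ 14 := by omega
  interval_cases m <;> omega

/-- the handshake argument -/
theorem even_orbit (t : H) (ht : t * t = 1) (x : Ω) (hx : t • x ≠ x) :
    2 ∣ Nat.card (orbit H (x, t • x)) := by
  classical
  have : Fact (Nat.Prime 2) := ⟨by norm_num⟩
  have hsw : ∀ q : orbit H (x, t • x), q.1.swap ∈ orbit H (x, t • x) := by
    rintro ⟨q, h, rfl⟩
    refine ⟨h * t, ?_⟩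
    show ((h * t) • x, (h * t) • t • x) = (h • t • x, h • x)
    rw [mul_smul, mul_smul, ← mul_smul t t, ht, one_smul]
  have hne : ∀ q : orbit H (x, t • x), q.1.1 ≠ q.1.2 := by
    rintro ⟨q, h, rfl⟩ hq
    exact hx (smul_left_cancel h hq).symm
  have : Fintype (orbit H (x, t • x)) := Fintype.ofFinite _
  let f : Function.End (orbit H (x, t • x)) := fun q => ⟨q.1.swap, hsw q⟩
  have hf : f ^ 2 ^ 1 = 1 := by
    funext q
    apply Subtype.ext
    show (q.1.swap).swap = q.1
    exact Prod.swap_swap _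
  have h := Equiv.Perm.card_fixedPoints_modEq (f := f) (p := 2) (n := 1) hf
  have he : IsEmpty (Function.fixedPoints f) := by
    refine ⟨fun q => ?_⟩
    have h1 : f q.1 = q.1 := q.2
    have h2 : (q.1.1).swap = q.1.1 := congrArg Subtype.val h1
    exact hne q.1 (congrArg Prod.snd h2)
  rw [Fintype.card_eq_zero (α := Function.fixedPoints f)] at h
  rw [Nat.card_eq_fintype_card]
  exact (Nat.modEq_zero_iff_dvd).1 h

theorem two_transitive (hH : Nat.card H = 2520) (hΩ : Nat.card Ω = 15)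
    (h5 : ∀ g : H, orderOf g = 5 → ∀ x : Ω, g • x ≠ x)
    (h7 : ∀ g : H, orderOf g = 7 → ∀ x y : Ω, g • x = x → g • y = y → x = y)
    (h2 : ∀ g : H, orderOf g = 2 → ∃ x : Ω, g • x ≠ x)
    (x y x' y' : Ω) (hxy : x ≠ y) (hxy' : x' ≠ y') : ∃ g : H, g • x = x' ∧ g • y = y' := by
  classical
  have : Fact (Nat.Prime 2) := ⟨by norm_num⟩
  obtain ⟨t, ht⟩ := exists_order hH 2 (by norm_num)
  obtain ⟨a, ha⟩ := h2 t ht
  have htt : t * t = 1 := by rw [← pow_two, ← ht, pow_orderOf_eq_one]
  have hev := even_orbit t htt a ha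
  have hc : Nat.card (orbit H (a, t • a)) = 210 := by
    rcases pair_orbit_card hH hΩ h5 h7 a (t • a) (Ne.symm ha) with h | h
    · omega
    · exact h
  have : Fintype Ω := Fintype.ofFinite Ω
  have hall : ∀ q : Ω × Ω, q.1 ≠ q.2 → q ∈ orbit H (a, t • a) := by
    have hsub : orbit H (a, t • a) ⊆ {q : Ω × Ω | q.1 ≠ q.2} := by
      rintro q ⟨h, rfl⟩ hq
      exact ha (smul_left_cancel h hq).symm
    have h2 : Nat.card {q : Ω × Ω // q.1 ≠ q.2} = 210 := by
      rw [Nat.card_eq_fintype_card, Fintype.card_subtype]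
      have h3 : (Finset.univ.filter fun q : Ω × Ω => q.1 ≠ q.2) = (Finset.univ : Finset Ω).offDiag := by
        ext q; simp
      rw [h3, Finset.offDiag_card, Finset.card_univ, ← Nat.card_eq_fintype_card, hΩ]
    have heq : orbit H (a, t • a) = {q : Ω × Ω | q.1 ≠ q.2} := by
      apply Set.eq_of_subset_of_ncard_le hsub _ (Set.toFinite _)
      rw [← Nat.card_coe_set_eq, ← Nat.card_coe_set_eq, hc]
      exact le_of_eq h2
    intro q hq
    rw [heq]
    exact hq
  have h1 := hall (x, y) hxy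
  have h2 := hall (x', y') hxy'
  have h3 : (x', y') ∈ orbit H (x, y) := by
    rw [orbit_eq_iff.2 h1]
    exact h2
  obtain ⟨g, hg⟩ := h3
  exact ⟨g, congrArg Prod.fst hg, congrArg Prod.snd hg⟩

end main

end Cfsg.Agent.Lib.Helper88TwoTr
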