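import Cfsg.Agent.Lib.Helper8Schur

set_option autoImplicit false
set_option linter.unusedVariables false
set_option linter.unusedSectionVars false

namespace Cfsg.Agent.Lib.Helper8Mult

open Cfsg.Agent.Lib.Helper8Schur
open scoped commutatorElement

section pairing

variable {K : Type*} [Field K] {M : Type*} [Group M]

/-- an invariant biadditive pairing vanishes -/
theorem lemD (h3 : (3 : K) = 0) (β : K → K → M)
    (h1 : ∀ t t' s, β (t + t') s = β t s * β t' s) (h2 : ∀ t s s', β t (s + s') = β t s * β t s')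
    (hinv : ∀ l : K, l ≠ 0 → ∀ t s, β (l * t) (l * s) = β t s)
    (hK : ∃ l : K, l ≠ 0 ∧ l ≠ 1 ∧ l ≠ -1) (t s : K) : β t s = 1 := by
  obtain ⟨l, l0, l1, l2⟩ := hK
  have l3 : l + 1 ≠ 0 := fun h => l2 (eq_neg_of_add_eq_zero_left h)
  have hsub : ∀ t x y, β t x = β t y → β t (x - y) = 1 := by
    intro t x y h
    have := h2 t (x - y) y
    rw [sub_add_cancel, h] at this
    exact (mul_eq_right.1 this.symm)
  have key : ∀ s, β t (((l + 1)⁻¹ - (l⁻¹ + 1)) * s) = 1 := by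
    intro s
    have e1 : β ((l + 1) * t) s = β t ((l + 1)⁻¹ * s) := by
      have := hinv (l + 1) l3 t ((l + 1)⁻¹ * s)
      rwa [mul_inv_cancel_left₀ l3] at this
    have e2 : β (l * t) s = β t (l⁻¹ * s) := by
      have := hinv l l0 t (l⁻¹ * s)
      rwa [mul_inv_cancel_left₀ l0] at this
    have e3 : β ((l + 1) * t) s = β (l * t) s * β t s := by
      rw [add_mul, one_mul, h1]
    rw [e1, e2, ← h2] at e3
    have := hsub t _ _ e3
    rw [sub_mul, add_mul, one_mul]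
    exact this
  have hD : (l + 1)⁻¹ - (l⁻¹ + 1) ≠ 0 := by
    intro h
    have h' : (l - 1) ^ 2 = 0 := by
      have : l - (l + 1) - l * (l + 1) = 0 := by
        have e : l - (l + 1) - l * (l + 1) = ((l + 1)⁻¹ - (l⁻¹ + 1)) * (l * (l + 1)) := by
          field_simp
          ring
        rw [e, h, zero_mul]
      linear_combination -this - l * h3
    exact l1 (sub_eq_zero.1 (pow_eq_zero_iff (two_ne_zero) |>.1 h'))
  have := key (((l + 1)⁻¹ - (l⁻¹ + 1))⁻¹ * s)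
  rwa [mul_inv_cancel_left₀ hD] at this

/-- an additive map invariant under negation vanishes -/
theorem lemI (h3 : (3 : K) = 0) (β : K → M) (h1 : ∀ t t', β (t + t') = β t * β t')
    (hneg : ∀ t, β (-t) = β t) (t : K) : β t = 1 := by
  have h0 : β 0 = 1 := by
    have := h1 0 0
    rw [add_zero] at this
    exact (mul_eq_left.1 this.symm)
  have e2 : β t * β t = 1 := by
    have := h1 t (-t)
    rw [add_neg_cancel, h0, hneg] at this
    exact this.symm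
  have e3 : β t * β t * β t = 1 := by
    rw [← h1, ← h1]
    have : t + t + t = 0 := by linear_combination t * h3
    rw [this, h0]
  rw [e2, one_mul] at e3
  exact e3

/-- a consequence of the Hall-Witt identity -/
theorem lemHW (x y a : M) (h1 : Commute ⁅x, y⁆ ⁅x, a⁆) (h2 : Commute ⁅x, y⁆ a) (h3 : Commute ⁅x, y⁆ ⁅y, a⁆)
    (h4 : Commute ⁅x, a⁆ ⁅y, a⁆) (h5 : Commute ⁅x, y⁆ ⁅y, ⁅x, a⁆⁆) : ⁅x, ⁅y, a⁆⁆ = ⁅y, ⁅x, a⁆⁆ := by
  have e1 : x * ⁅y, a⁆ * x⁻¹ = ⁅⁅x, y⁆ * y, ⁅x, a⁆ * a⁆ := by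
    simp only [commutatorElement_def]; group
  have e2 : ⁅⁅x, y⁆ * y, ⁅x, a⁆ * a⁆ = ⁅x, y⁆ * ⁅y, ⁅x, a⁆ * a⁆ * ⁅x, y⁆⁻¹ * ⁅⁅x, y⁆, ⁅x, a⁆ * a⁆ := by
    generalize ⁅x, y⁆ = n
    generalize ⁅x, a⁆ * a = w
    simp only [commutatorElement_def]; group
  have e3 : ⁅⁅x, y⁆, ⁅x, a⁆ * a⁆ = 1 := comm_eq_one_iff.2 (h1.mul_right h2)
  have e4 : ⁅y, ⁅x, a⁆ * a⁆ = ⁅y, ⁅x, a⁆⁆ * ⁅y, a⁆ := comm_mul_right h4
  have e5 : ⁅x, y⁆ * (⁅y, ⁅x, a⁆⁆ * ⁅y, a⁆) * ⁅x, y⁆⁻¹ = ⁅y, ⁅x, a⁆⁆ * ⁅y, a⁆ := by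
    rw [(h5.mul_right h3).eq, mul_inv_cancel_right]
  have e6 : ⁅x, ⁅y, a⁆⁆ = x * ⁅y, a⁆ * x⁻¹ * ⁅y, a⁆⁻¹ := rfl
  rw [e6, e1, e2, e3, mul_one, e4, e5, mul_inv_cancel_right]

end pairing

section ph

variable {B M : Type*} [Group B] [Group M]

/-- a homomorphism up to central factors -/
def PH (L : B → M) : Prop := ∀ g g', ∃ c ∈ Subgroup.center M, L (g * g') = L g * L g' * c

theorem comm_cl {x c q : M} (hc : c ∈ Subgroup.center M) : ⁅x * c, q⁆ = ⁅x, q⁆ := by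
  have h := Subgroup.mem_center_iff.1 hc
  have e2 : ⁅x * c, q⁆ = x * (c * q * c⁻¹) * x⁻¹ * q⁻¹ := by
    simp only [commutatorElement_def]; group
  rw [e2, ← h q, mul_inv_cancel_right, commutatorElement_def]

theorem comm_cr {x c q : M} (hc : c ∈ Subgroup.center M) : ⁅q, x * c⁆ = ⁅q, x⁆ := by
  rw [← commutatorElement_inv (x * c) q, ← commutatorElement_inv x q, comm_cl hc]

theorem comm_of_center {c : M} (hc : c ∈ Subgroup.center M) (x : M) : Commute x c :=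
  Subgroup.mem_center_iff.1 hc x

variable {L : B → M} (hL : PH L)
include hL

theorem PH.cml {g₁ g₂ : B} {q : M} (hc : ⁅L g₂, q⁆ ∈ Subgroup.center M) :
    ⁅L (g₁ * g₂), q⁆ = ⁅L g₁, q⁆ * ⁅L g₂, q⁆ := by
  obtain ⟨c, hcc, e⟩ := hL g₁ g₂
  rw [e, comm_cl hcc, comm_mul_left (comm_of_center hc _)]
  exact ((comm_of_center hc _).eq).symm

theorem PH.cmr {g₁ g₂ : B} {q : M} (hc : ⁅q, L g₂⁆ ∈ Subgroup.center M) :
    ⁅q, L (g₁ * g₂)⁆ = ⁅q, L g₁⁆ * ⁅q, L g₂⁆ := by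
  obtain ⟨c, hcc, e⟩ := hL g₁ g₂
  rw [e, comm_cr hcc, comm_mul_right (comm_of_center hc _)]

theorem PH.map_comm {g g' d : B} (hd : g * g' = d * (g' * g)) :
    ∃ c ∈ Subgroup.center M, ⁅L g, L g'⁆ = L d * c := by
  obtain ⟨c₁, h₁, e₁⟩ := hL g g'
  obtain ⟨c₂, h₂, e₂⟩ := hL d (g' * g)
  obtain ⟨c₃, h₃, e₃⟩ := hL g' g
  rw [hd, e₂, e₃] at e₁
  refine ⟨c₃ * c₂ * c₁⁻¹, Subgroup.mul_mem _ (Subgroup.mul_mem _ h₃ h₂) (Subgroup.inv_mem _ h₁), ?_⟩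
  have k₁ := Subgroup.mem_center_iff.1 h₁
  have k₂ := Subgroup.mem_center_iff.1 h₂
  have k₃ := Subgroup.mem_center_iff.1 h₃
  have e4 : L g * L g' = L d * (c₃ * c₂ * c₁⁻¹) * (L g' * L g) := by
    have : L g * L g' = L d * (L g' * L g * c₃) * c₂ * c₁⁻¹ := by rw [e₁, mul_inv_cancel_right]
    rw [this]
    have k4 : (L g' * L g) * (c₃ * c₂ * c₁⁻¹) = (c₃ * c₂ * c₁⁻¹) * (L g' * L g) :=
      Subgroup.mem_center_iff.1 (Subgroup.mul_mem _ (Subgroup.mul_mem _ h₃ h₂) (Subgroup.inv_mem _ h₁)) _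
    calc L d * (L g' * L g * c₃) * c₂ * c₁⁻¹ = L d * ((L g' * L g) * (c₃ * c₂ * c₁⁻¹)) := by group
      _ = _ := by rw [k4]; group
  have e5 : ⁅L g, L g'⁆ = (L g * L g') * (L g' * L g)⁻¹ := by
    simp only [commutatorElement_def]; group
  rw [e5, e4, mul_inv_cancel_right]

theorem PH.comm_central {g g' : B} (hd : g * g' = g' * g) (h1 : L 1 ∈ Subgroup.center M) :
    ⁅L g, L g'⁆ ∈ Subgroup.center M := by
  obtain ⟨c, hc, e⟩ := hL.map_comm (g := g) (g' := g') (d := 1) (by rw [one_mul, hd])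
  rw [e]
  exact Subgroup.mul_mem _ h1 hc

theorem PH.one_mem : L 1 ∈ Subgroup.center M := by
  obtain ⟨c, hc, e⟩ := hL 1 1
  rw [one_mul] at e
  have : L 1 = c⁻¹ := by
    have h : L 1 * c = 1 := by
      have := e
      rw [mul_assoc] at this
      exact (mul_eq_left.1 this.symm)
    exact eq_inv_of_mul_eq_one_left h
  rw [this]
  exact Subgroup.inv_mem _ hc

theorem PH.conj {k g g' : B} (h : k * g = g' * k) :
    ∃ c ∈ Subgroup.center M, L g' = L k * L g * (L k)⁻¹ * c := by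
  obtain ⟨c₁, h₁, e₁⟩ := hL k g
  obtain ⟨c₂, h₂, e₂⟩ := hL g' k
  rw [h, e₂] at e₁
  refine ⟨c₁ * c₂⁻¹, Subgroup.mul_mem _ h₁ (Subgroup.inv_mem _ h₂), ?_⟩
  have k₁ := Subgroup.mem_center_iff.1 h₁
  have k₂ := Subgroup.mem_center_iff.1 (Subgroup.inv_mem _ h₂)
  have e3 : L g' * L k = L k * L g * c₁ * c₂⁻¹ := by rw [← e₁, mul_inv_cancel_right]
  have e4 : L g' = L k * L g * c₁ * c₂⁻¹ * (L k)⁻¹ := by rw [← e3, mul_inv_cancel_right]
  rw [e4]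
  have k3 : (L k)⁻¹ * (c₁ * c₂⁻¹) = (c₁ * c₂⁻¹) * (L k)⁻¹ :=
    Subgroup.mem_center_iff.1 (Subgroup.mul_mem _ h₁ (Subgroup.inv_mem _ h₂)) _
  calc L k * L g * c₁ * c₂⁻¹ * (L k)⁻¹ = L k * L g * ((c₁ * c₂⁻¹) * (L k)⁻¹) := by group
    _ = _ := by rw [← k3]; group

theorem PH.inv {k g₁ g₁' g₂ g₂' : B} (h₁ : k * g₁ = g₁' * k) (h₂ : k * g₂ = g₂' * k)
    (hc : ⁅L g₁, L g₂⁆ ∈ Subgroup.center M) : ⁅L g₁', L g₂'⁆ = ⁅L g₁, L g₂⁆ := by
  obtain ⟨c₁, hc₁, e₁⟩ := hL.conj h₁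
  obtain ⟨c₂, hc₂, e₂⟩ := hL.conj h₂
  rw [e₁, e₂, comm_cl hc₁, comm_cr hc₂, comm_conj, (comm_of_center hc _).eq, mul_inv_cancel_right]

end ph


section step

variable {X B : Type*} [Group X] [Group B] (τ : X →* B) (hsurj : Function.Surjective τ)
  (hker : τ.ker ≤ Subgroup.center X)
include hsurj hker

theorem step (W : Subgroup X) [hW : W.Normal] (D A U : Subgroup B) (h : X)
    (hDA : D ≤ A) (hAU : A ≤ U)
    (s1 : ∀ w ∈ W, τ w ∈ D) (s1' : ∀ d ∈ D, ∃ w ∈ W, τ w = d) (s1'' : ∀ w ∈ W, τ w = 1 → w = 1)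
    (s2 : ∀ x a, τ x ∈ U → τ a ∈ A → ⁅x, a⁆ ∈ W)
    (s3 : ∀ b a, a ∈ A → b * a * b⁻¹ ∈ A)
    (s4 : ∀ a ∈ A, ⁅τ h, a⁆ ∈ D → a ∈ D)
    (s5 : ∀ y ∈ A, ∃ a ∈ A, ∃ d ∈ D, y = ⁅τ h, a⁆ * d)
    (s6 : ∀ x : X, τ ⁅x, h⁆ ∈ U) :
    ∃ W' : Subgroup X, W'.Normal ∧ W ≤ W' ∧ (∀ w ∈ W', τ w ∈ A) ∧ (∀ a ∈ A, ∃ w ∈ W', τ w = a) ∧
      (∀ w ∈ W', τ w = 1 → w = 1) := by
  let p : X →* X ⧸ W := QuotientGroup.mk' W
  have hp1 : ∀ x, p x = 1 ↔ x ∈ W := fun x => QuotientGroup.eq_one_iff x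
  have hcomm : ∀ x a, τ x ∈ U → τ a ∈ A → Commute (p x) (p a) := by
    intro x a hx ha
    rw [← comm_eq_one_iff, ← map_commutatorElement, hp1]
    exact s2 x a hx ha
  have hA : ∀ a, τ a ∈ A → τ ⁅h, a⁆ ∈ A := by
    intro a ha
    rw [map_commutatorElement, commutatorElement_def]
    exact A.mul_mem (s3 _ _ ha) (A.inv_mem ha)
  let δ : ↥(A.comap τ) →* X ⧸ W :=
    { toFun := fun a => ⁅p h, p a.1⁆
      map_one' := by simp
      map_mul' := by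
        intro a b
        show ⁅p h, p (a.1 * b.1)⁆ = _
        rw [map_mul]
        apply comm_mul_right
        rw [← map_commutatorElement]
        exact hcomm _ _ (hAU a.2) (hA _ b.2) }
  have hδ : ∀ a : ↥(A.comap τ), δ a = p ⁅h, a.1⁆ := fun a => (map_commutatorElement p h a.1).symm
  have hnorm : δ.range.Normal := by
    constructor
    rintro _ ⟨a, rfl⟩ g
    obtain ⟨g₀, rfl⟩ := QuotientGroup.mk'_surjective W g
    refine ⟨⟨g₀ * a.1 * g₀⁻¹, ?_⟩, ?_⟩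
    · show τ (g₀ * a.1 * g₀⁻¹) ∈ A
      rw [map_mul, map_mul, map_inv]
      exact s3 _ _ a.2
    · show ⁅p h, p (g₀ * a.1 * g₀⁻¹)⁆ = p g₀ * ⁅p h, p a.1⁆ * (p g₀)⁻¹
      have ha' : τ (g₀ * a.1 * g₀⁻¹) ∈ A := by
        rw [map_mul, map_mul, map_inv]
        exact s3 _ _ a.2
      rw [← comm_conj, ← map_inv, ← map_mul, ← map_mul, ← map_mul, ← map_mul]
      have e : g₀ * h * g₀⁻¹ = ⁅g₀, h⁆ * h := by
        simp only [commutatorElement_def]; group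
      rw [e, map_mul p ⁅g₀, h⁆ h]
      generalize g₀ * a.1 * g₀⁻¹ = a' at ha'
      have c1 : Commute (p ⁅g₀, h⁆) ⁅p h, p a'⁆ := by
        rw [← map_commutatorElement]
        exact hcomm _ _ (s6 g₀) (hA _ ha')
      rw [comm_mul_left c1, comm_eq_one_iff.2 (hcomm _ _ (s6 g₀) ha'), mul_one]
  have hmem : ∀ w, w ∈ δ.range.comap p ↔ ∃ a, τ a ∈ A ∧ ∃ w₀ ∈ W, w = ⁅h, a⁆ * w₀ := by
    intro w
    constructor
    · rintro ⟨a, ha⟩
      rw [hδ] at ha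
      refine ⟨a.1, a.2, ⁅h, a.1⁆⁻¹ * w, ?_, by group⟩
      rw [← hp1, map_mul, map_inv, ha, inv_mul_cancel]
    · rintro ⟨a, ha, w₀, hw₀, rfl⟩
      refine ⟨⟨a, ha⟩, ?_⟩
      rw [hδ, map_mul, (hp1 w₀).2 hw₀, mul_one]
  refine ⟨δ.range.comap p, hnorm.comap p, ?_, ?_, ?_, ?_⟩
  · intro w hw
    exact (hmem w).2 ⟨1, by rw [map_one]; exact A.one_mem, w, hw, by simp⟩
  · intro w hw
    obtain ⟨a, ha, w₀, hw₀, rfl⟩ := (hmem w).1 hw
    rw [map_mul]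
    exact A.mul_mem (hA a ha) (hDA (s1 _ hw₀))
  · intro y hy
    obtain ⟨a, ha, d, hd, rfl⟩ := s5 y hy
    obtain ⟨a', rfl⟩ := hsurj a
    obtain ⟨w₀, hw₀, rfl⟩ := s1' d hd
    exact ⟨⁅h, a'⁆ * w₀, (hmem _).2 ⟨a', ha, w₀, hw₀, rfl⟩, by rw [map_mul, map_commutatorElement]⟩
  · intro w hw hw1
    obtain ⟨a, ha, w₀, hw₀, rfl⟩ := (hmem w).1 hw
    rw [map_mul, map_commutatorElement] at hw1
    have h1 : ⁅τ h, τ a⁆ ∈ D := by
      rw [eq_inv_of_mul_eq_one_left hw1]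
      exact D.inv_mem (s1 _ hw₀)
    obtain ⟨w₁, hw₁, e₁⟩ := s1' _ (s4 _ ha h1)
    have h2 : ⁅h, a⁆ = ⁅h, w₁⁆ := comm_congr_right τ hker e₁.symm
    have h3 : ⁅h, w₁⁆ ∈ W := by
      rw [commutatorElement_def]
      exact W.mul_mem (hW.conj_mem _ hw₁ _) (W.inv_mem hw₁)
    apply s1'' _ (W.mul_mem (h2 ▸ h3) hw₀)
    rw [map_mul, map_commutatorElement]
    exact hw1

end step


theorem sq_or_neg {K : Type*} [Field K] [Fintype K] (h : Fintype.card K % 4 = 3) (l : K) :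
    IsSquare l ∨ IsSquare (-l) := by
  classical
  by_contra hcon
  push Not at hcon
  obtain ⟨h1, h2⟩ := hcon
  have e1 := (quadraticChar_neg_one_iff_not_isSquare (F := K)).2 h1
  have e2 := (quadraticChar_neg_one_iff_not_isSquare (F := K)).2 h2
  have e3 : ¬ IsSquare (-1 : K) := by
    rw [FiniteField.isSquare_neg_one_iff]; omega
  have e4 := (quadraticChar_neg_one_iff_not_isSquare (F := K)).2 e3
  have : -l = (-1) * l := by ring
  rw [this, map_mul, e1, e4] at e2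
  norm_num at e2

section pairing2

variable {K : Type*} [Field K] {M : Type*} [Group M]

theorem lemD' (h3 : (3 : K) = 0) (β : K → K → M)
    (h1 : ∀ t t' s, β (t + t') s = β t s * β t' s) (h2 : ∀ t s s', β t (s + s') = β t s * β t s')
    (hinv : ∀ d : K, d ≠ 0 → ∀ t s, β (d ^ 2 * t) (d ^ 2 * s) = β t s)
    (hsq : ∀ l : K, IsSquare l ∨ IsSquare (-l))
    (hK : ∃ l : K, l ≠ 0 ∧ l ≠ 1 ∧ l ≠ -1) (t s : K) : β t s = 1 := by
  have z1 : ∀ s, β 0 s = 1 := by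
    intro s
    have := h1 0 0 s
    rw [add_zero] at this
    exact (mul_eq_left.1 this.symm)
  have z2 : ∀ t, β t 0 = 1 := by
    intro t
    have := h2 t 0 0
    rw [add_zero] at this
    exact (mul_eq_left.1 this.symm)
  have n1 : ∀ t s, β (-t) s = (β t s)⁻¹ := by
    intro t s
    have := h1 (-t) t s
    rw [neg_add_cancel, z1] at this
    exact eq_inv_of_mul_eq_one_left this.symm
  have n2 : ∀ t s, β t (-s) = (β t s)⁻¹ := by
    intro t s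
    have := h2 t (-s) s
    rw [neg_add_cancel, z2] at this
    exact eq_inv_of_mul_eq_one_left this.symm
  apply lemD h3 β h1 h2 _ hK
  intro l hl t s
  rcases hsq l with ⟨d, hd⟩ | ⟨d, hd⟩
  · have hd0 : d ≠ 0 := by rintro rfl; exact hl (by rw [hd, mul_zero])
    rw [hd, ← pow_two]
    exact hinv d hd0 t s
  · have hd0 : d ≠ 0 := by rintro rfl; exact hl (by simpa using hd)
    have e : l = -(d ^ 2) := by rw [pow_two, ← hd, neg_neg]
    rw [e, neg_mul, neg_mul, n1, n2, inv_inv]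
    exact hinv d hd0 t s

variable {B : Type*} [Group B] {L : B → M} (hL : PH L)
include hL

theorem pair_add (P Q : K → B) (hP : ∀ a b, P (a + b) = P a * P b) (hQ : ∀ a b, Q (a + b) = Q a * Q b)
    (hc : ∀ a b, ⁅L (P a), L (Q b)⁆ ∈ Subgroup.center M) :
    (∀ a a' b, ⁅L (P (a + a')), L (Q b)⁆ = ⁅L (P a), L (Q b)⁆ * ⁅L (P a'), L (Q b)⁆) ∧
    (∀ a b b', ⁅L (P a), L (Q (b + b'))⁆ = ⁅L (P a), L (Q b)⁆ * ⁅L (P a), L (Q b')⁆) := by
  refine ⟨fun a a' b => ?_, fun a b b' => ?_⟩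
  · rw [hP]; exact hL.cml (hc _ _)
  · rw [hQ]; exact hL.cmr (hc _ _)

end pairing2

section quot

variable {X B : Type*} [Group X] [Group B] (τ : X →* B) (hker : τ.ker ≤ Subgroup.center X)
  (W : Subgroup X) [hW : W.Normal] (s : B → X) (hs : ∀ b, τ (s b) = b)
include hker hs

theorem mk_central {z : X} (hz : τ z = 1) : QuotientGroup.mk' W z ∈ Subgroup.center (X ⧸ W) := by
  rw [Subgroup.mem_center_iff]
  intro q
  obtain ⟨x, rfl⟩ := QuotientGroup.mk'_surjective W q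
  rw [← map_mul, ← map_mul, (central_of_map_eq_one τ hker hz x).eq]

theorem ph_quot : PH (fun b => QuotientGroup.mk' W (s b)) := by
  intro g g'
  refine ⟨QuotientGroup.mk' W ((s g * s g')⁻¹ * s (g * g')), ?_, ?_⟩
  · apply mk_central τ hker W s hs
    rw [map_mul, map_inv, map_mul, hs, hs, hs, inv_mul_cancel]
  · rw [← map_mul, ← map_mul]
    group

theorem level_quot (D : Subgroup B) (hD : ∀ d ∈ D, ∃ w ∈ W, τ w = d) {d : B} (hd : d ∈ D) :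
    QuotientGroup.mk' W (s d) ∈ Subgroup.center (X ⧸ W) := by
  obtain ⟨w, hw, e⟩ := hD d hd
  have e1 : QuotientGroup.mk' W (s d) = QuotientGroup.mk' W (w⁻¹ * s d) := by
    have hw1 : QuotientGroup.mk' W w = 1 := (QuotientGroup.eq_one_iff w).2 hw
    rw [map_mul, map_inv, hw1, inv_one, one_mul]
  rw [e1]
  apply mk_central τ hker W s hs
  rw [map_mul, map_inv, e, hs, inv_mul_cancel]

theorem mem_of_quot {x a : X}
    (h : ⁅QuotientGroup.mk' W (s (τ x)), QuotientGroup.mk' W (s (τ a))⁆ = 1) : ⁅x, a⁆ ∈ W := by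
  rw [← map_commutatorElement] at h
  have := (QuotientGroup.eq_one_iff _).1 h
  rwa [comm_congr τ hker (hs (τ x)) (hs (τ a))] at this

end quot

end Cfsg.Agent.Lib.Helper8Mult
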