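import Mathlib

set_option autoImplicit false

namespace Cfsg.Agent.Lib.Helper90NilCount

open Module

section generic

/-- size of the preimage of a set under a surjective homomorphism of finite groups -/
theorem card_preimage_mul {A B : Type*} [AddCommGroup A] [AddCommGroup B] [Finite A] [Finite B]
    (φ : A →+ B) (hφ : Function.Surjective φ) (S : Set B) :
    Nat.card (φ ⁻¹' S) * Nat.card B = Nat.card A * Nat.card S := by
  have key : ∀ T : Set B, Nat.card (φ ⁻¹' T) = Nat.card T * Nat.card φ.ker := by
    intro T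
    rw [← Nat.card_prod]
    refine Nat.card_congr
      { toFun := fun a => (⟨φ a.1, a.2⟩, ⟨a.1 - Function.surjInv hφ (φ a.1), ?_⟩)
        invFun := fun bk => ⟨Function.surjInv hφ bk.1.1 + bk.2.1, ?_⟩
        left_inv := ?_
        right_inv := ?_ }
    · rw [AddMonoidHom.mem_ker, map_sub, Function.surjInv_eq hφ, sub_self]
    · rw [Set.mem_preimage, map_add, Function.surjInv_eq hφ, AddMonoidHom.mem_ker.1 bk.2.2,
        add_zero]
      exact bk.1.2
    · intro a
      simp
    · rintro ⟨⟨b, hb⟩, ⟨k, hk⟩⟩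
      have hk' : φ k = 0 := hk
      simp [Function.surjInv_eq, hk']
  have h1 := key Set.univ
  rw [Set.preimage_univ, Nat.card_univ, Nat.card_univ] at h1
  rw [key S, h1]
  ring

variable {F : Type*} [Field F]

theorem card_hom (M M' : Type*) [AddCommGroup M] [Module F M] [AddCommGroup M'] [Module F M']
    [Module.Finite F M] :
    Nat.card (M →ₗ[F] M') = Nat.card M' ^ finrank F M := by
  have e := ((Module.finBasis F M).constr (M' := M') F).toEquiv
  rw [← Nat.card_congr e, Nat.card_fun, Nat.card_fin]

end generic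

section blockZ

variable {F : Type*} [Field F] {V : Type*} [AddCommGroup V] [Module F V]

theorem nil_iff (W : Submodule F V) (N₀ : End F V) (hW : ∀ x, N₀ x ∈ W) (hnil : IsNilpotent N₀)
    (D : V ⧸ W →ₗ[F] V) :
    IsNilpotent (N₀ + D ∘ₗ W.mkQ : End F V) ↔ IsNilpotent (W.mkQ ∘ₗ D : End F (V ⧸ W)) := by
  set N : End F V := N₀ + D ∘ₗ W.mkQ with hN
  set E : End F (V ⧸ W) := W.mkQ ∘ₗ D with hE
  have h1 : ∀ x, W.mkQ (N x) = E (W.mkQ x) := by
    intro x
    have : W.mkQ (N₀ x) = 0 := by
      rw [Submodule.mkQ_apply, Submodule.Quotient.mk_eq_zero]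
      exact hW x
    rw [hN, LinearMap.add_apply, map_add, this, zero_add]
    rfl
  have h2 : ∀ k x, W.mkQ ((N ^ k) x) = (E ^ k) (W.mkQ x) := by
    intro k
    induction k with
    | zero => intro x; simp
    | succ k ih =>
      intro x
      rw [pow_succ', pow_succ', Module.End.mul_apply, Module.End.mul_apply, h1, ih]
  have h3 : ∀ w ∈ W, N w = N₀ w := by
    intro w hw
    have : W.mkQ w = 0 := by
      rw [Submodule.mkQ_apply, Submodule.Quotient.mk_eq_zero]
      exact hw
    rw [hN, LinearMap.add_apply, LinearMap.comp_apply, this, map_zero, add_zero]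
  have h4 : ∀ l, ∀ w ∈ W, (N ^ l) w = (N₀ ^ l) w := by
    intro l
    induction l with
    | zero => intro w _; simp
    | succ l ih =>
      intro w hw
      rw [pow_succ, pow_succ, Module.End.mul_apply, Module.End.mul_apply, h3 w hw, ih _ (hW w)]
  constructor
  · rintro ⟨k, hk⟩
    refine ⟨k, ?_⟩
    apply LinearMap.ext
    intro y
    obtain ⟨x, rfl⟩ := W.mkQ_surjective y
    rw [← h2, hk]
    simp
  · rintro ⟨k, hk⟩
    obtain ⟨l, hl⟩ := hnil
    refine ⟨l + k, ?_⟩
    ext x
    have hx : (N ^ k) x ∈ W := by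
      rw [← Submodule.Quotient.mk_eq_zero, ← Submodule.mkQ_apply, h2, hk]
      simp
    rw [pow_add, Module.End.mul_apply, h4 l _ hx, hl]
    simp

theorem card_ext_nil [Finite V] (W : Submodule F V) (N₀ : End F V) (hW : ∀ x, N₀ x ∈ W)
    (hnil : IsNilpotent N₀) :
    Nat.card {N : End F V // IsNilpotent N ∧ ∀ x ∈ W, N x = N₀ x} *
        Nat.card (V ⧸ W) ^ finrank F (V ⧸ W)
      = Nat.card V ^ finrank F (V ⧸ W) * Nat.card {N : End F (V ⧸ W) // IsNilpotent N} := by
  have : Module.Finite F V := inferInstance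
  have : Finite (V ⧸ W) := Finite.of_surjective W.mkQ W.mkQ_surjective
  have : Finite (V ⧸ W →ₗ[F] V) := Finite.of_injective (fun f => (f : _ → _)) DFunLike.coe_injective
  have : Finite (V ⧸ W →ₗ[F] V ⧸ W) :=
    Finite.of_injective (fun f => (f : _ → _)) DFunLike.coe_injective
  let φ : (V ⧸ W →ₗ[F] V) →+ (V ⧸ W →ₗ[F] V ⧸ W) :=
    { toFun := fun D => W.mkQ ∘ₗ D
      map_zero' := by simp
      map_add' := by intro a b; simp [LinearMap.comp_add] }
  have hφ : Function.Surjective φ := by
    intro E
    obtain ⟨D, hD⟩ := Module.projective_lifting_property W.mkQ E W.mkQ_surjective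
    exact ⟨D, hD⟩
  have key := card_preimage_mul φ hφ {E | IsNilpotent (E : End F (V ⧸ W))}
  rw [card_hom, card_hom] at key
  have e : {N : End F V // IsNilpotent N ∧ ∀ x ∈ W, N x = N₀ x} ≃
      (φ ⁻¹' {E | IsNilpotent (E : End F (V ⧸ W))}) :=
    { toFun := fun N => ⟨W.liftQ (N.1 - N₀) (by
          intro x hx
          rw [LinearMap.mem_ker, LinearMap.sub_apply, N.2.2 x hx, sub_self]), by
          have h := N.2.1
          have e1 : N.1 = N₀ + (W.liftQ (N.1 - N₀) (by
              intro x hx
              rw [LinearMap.mem_ker, LinearMap.sub_apply, N.2.2 x hx, sub_self])) ∘ₗ W.mkQ := by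
            rw [Submodule.liftQ_mkQ]; simp
          rw [e1] at h
          exact (nil_iff W N₀ hW hnil _).1 h⟩
      invFun := fun D => ⟨N₀ + D.1 ∘ₗ W.mkQ, (nil_iff W N₀ hW hnil _).2 D.2, by
          intro x hx
          have : W.mkQ x = 0 := by
            rw [Submodule.mkQ_apply, Submodule.Quotient.mk_eq_zero]
            exact hx
          rw [LinearMap.add_apply, LinearMap.comp_apply, this, map_zero, add_zero]⟩
      left_inv := by
        intro N
        apply Subtype.ext
        simp [Submodule.liftQ_mkQ]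
      right_inv := by
        intro D
        apply Subtype.ext
        apply LinearMap.ext
        intro y
        obtain ⟨x, rfl⟩ := W.mkQ_surjective y
        simp }
  rw [Nat.card_congr e]
  exact key

end blockZ

section chain

variable {F : Type*} [Field F] {V : Type*} [AddCommGroup V] [Module F V]

/-- span of the first `j` vectors of a sequence -/
def chainSpan (F : Type*) [Field F] {V : Type*} [AddCommGroup V] [Module F V]
    (c : ℕ → V) (j : ℕ) : Submodule F V :=
  Submodule.span F (Set.range fun i : Fin j => c i)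

theorem mem_chainSpan (c : ℕ → V) {i j : ℕ} (h : i < j) : c i ∈ chainSpan F c j :=
  Submodule.subset_span ⟨⟨i, h⟩, rfl⟩

/-- `N` shifts the first `j` vectors of the sequence -/
def IsShift (N : End F V) (c : ℕ → V) (j : ℕ) : Prop := ∀ i, i + 1 < j → N (c i) = c (i + 1)

theorem exists_template (c : ℕ → V) (j : ℕ) (hli : LinearIndependent F (fun i : Fin j => c i)) :
    ∃ N₀ : End F V, (∀ x, N₀ x ∈ chainSpan F c j) ∧ IsNilpotent N₀ ∧ IsShift N₀ c j ∧
      (∀ i, i + 1 = j → N₀ (c i) = 0) := by
  set W := chainSpan F c j with hW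
  let b : Basis (Fin j) F W := Basis.span hli
  have hb : ∀ i : Fin j, ((b i : W) : V) = c i := fun i => congrArg Subtype.val (Basis.span_apply hli i)
  let S : W →ₗ[F] W := b.constr F (fun i : Fin j => if h : i.1 + 1 < j then b ⟨i.1 + 1, h⟩ else 0)
  have hS : ∀ i : Fin j, S (b i) = if h : i.1 + 1 < j then b ⟨i.1 + 1, h⟩ else 0 := by
    intro i
    exact b.constr_basis F _ i
  obtain ⟨P, hP⟩ := W.subtype.exists_leftInverse_of_injective W.ker_subtype
  have hP' : ∀ w : W, P (w : V) = w := fun w => LinearMap.congr_fun hP w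
  have hSpow : ∀ d, ∀ i : Fin j, j ≤ i.1 + d → ((S : End F W) ^ d) (b i) = 0 := by
    intro d
    induction d with
    | zero => intro i hi; exact absurd i.2 (by omega)
    | succ d ih =>
      intro i hi
      rw [pow_succ, Module.End.mul_apply, hS]
      split_ifs with h
      · exact ih ⟨i.1 + 1, h⟩ (by simp only; omega)
      · simp
  have hSj : (S : End F W) ^ j = 0 := by
    apply b.ext
    intro i
    rw [hSpow j i (by omega)]
    simp
  set N₀ : End F V := W.subtype ∘ₗ S ∘ₗ P with hN₀
  have h1 : ∀ x, N₀ x = ((S (P x) : W) : V) := fun x => rfl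
  have h2 : ∀ k, ∀ w : W, (N₀ ^ k) (w : V) = ((((S : End F W) ^ k) w : W) : V) := by
    intro k
    induction k with
    | zero => intro w; simp
    | succ k ih =>
      intro w
      rw [pow_succ, pow_succ, Module.End.mul_apply, Module.End.mul_apply, h1, hP', ih]
  refine ⟨N₀, fun x => ?_, ⟨j + 1, ?_⟩, ?_, ?_⟩
  · rw [h1]; exact (S (P x)).2
  · ext x
    rw [pow_succ, Module.End.mul_apply, h1, h2, hSj]
    simp
  · intro i hi
    have hi' : i < j := by omega
    have : c i = ((b ⟨i, hi'⟩ : W) : V) := (hb ⟨i, hi'⟩).symm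
    rw [this, h1, hP', hS, dif_pos hi, hb]
  · intro i hi
    have hi' : i < j := by omega
    have : c i = ((b ⟨i, hi'⟩ : W) : V) := (hb ⟨i, hi'⟩).symm
    rw [this, h1, hP', hS, dif_neg (by simp only; omega)]
    simp

theorem shift_closed [FiniteDimensional F V] (c : ℕ → V) (k : ℕ)
    (hli : LinearIndependent F (fun i : Fin (k + 1) => c i))
    (N : End F V) (hN : IsNilpotent N) (hch : IsShift N c (k + 1))
    (hw : N (c k) ∈ chainSpan F c (k + 1)) : N (c k) = 0 := by
  set W := chainSpan F c (k + 1) with hW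
  have hinv : ∀ x ∈ W, N x ∈ W := by
    have : W ≤ W.comap N := by
      conv_lhs => rw [hW, chainSpan]
      rw [Submodule.span_le]
      rintro _ ⟨i, rfl⟩
      by_cases h : i.1 + 1 < k + 1
      · show N (c i.1) ∈ W
        rw [hch i.1 h]
        exact mem_chainSpan c h
      · have : i.1 = k := by omega
        show N (c i.1) ∈ W
        rw [this]
        exact hw
    exact this
  have hR : IsNilpotent (N.restrict hinv) := Module.End.isNilpotent.restrict hinv hN
  obtain ⟨m, hm⟩ := hR
  have hfr : finrank F W = k + 1 := by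
    rw [hW, chainSpan, finrank_span_eq_card hli, Fintype.card_fin]
  have h0 : ((N.restrict hinv : End F W) ^ (k + 1)) ⟨c 0, mem_chainSpan c (by omega)⟩ = 0 := by
    have h1 := Module.End.ker_pow_le_ker_pow_finrank (N.restrict hinv : End F W) m
    rw [hm, hfr] at h1
    exact h1 (by simp)
  rw [Module.End.pow_restrict] at h0
  have h0' : (N ^ (k + 1)) (c 0) = 0 := congrArg Subtype.val h0
  have hpow : ∀ i, i ≤ k → (N ^ i) (c 0) = c i := by
    intro i
    induction i with
    | zero => intro _; simp
    | succ i ih =>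
      intro hi
      rw [pow_succ', Module.End.mul_apply, ih (by omega), hch i (by omega)]
  rw [← hpow k le_rfl, ← Module.End.mul_apply, ← pow_succ']
  exact h0'

theorem shift_update_iff (N : End F V) (c : ℕ → V) (k : ℕ) (w : V) :
    IsShift N (Function.update c (k + 1) w) (k + 2) ↔ IsShift N c (k + 1) ∧ N (c k) = w := by
  constructor
  · intro h
    refine ⟨fun i hi => ?_, ?_⟩
    · have := h i (by omega)
      rwa [Function.update_of_ne (by omega), Function.update_of_ne (by omega)] at this
    · have := h k (by omega)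
      rwa [Function.update_of_ne (by omega), Function.update_self] at this
  · rintro ⟨h1, h2⟩ i hi
    by_cases hik : i = k
    · subst hik
      rw [Function.update_of_ne (by omega), Function.update_self, h2]
    · rw [Function.update_of_ne (by omega), Function.update_of_ne (by omega)]
      exact h1 i (by omega)

theorem shift_zero_iff (N N₀ : End F V) (c : ℕ → V) (k : ℕ) (h₀ : IsShift N₀ c (k + 1))
    (h₀' : N₀ (c k) = 0) :
    (IsShift N c (k + 1) ∧ N (c k) = 0) ↔ ∀ x ∈ chainSpan F c (k + 1), N x = N₀ x := by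
  constructor
  · rintro ⟨h1, h2⟩ x hx
    refine LinearMap.eqOn_span (s := Set.range fun i : Fin (k + 1) => c i) ?_ hx
    rintro _ ⟨i, rfl⟩
    by_cases h : i.1 + 1 < k + 1
    · show N (c i.1) = N₀ (c i.1)
      rw [h1 i.1 h, h₀ i.1 h]
    · have : i.1 = k := by omega
      show N (c i.1) = N₀ (c i.1)
      rw [this, h2, h₀']
  · intro h
    refine ⟨fun i hi => ?_, ?_⟩
    · rw [h _ (mem_chainSpan c (by omega)), h₀ i hi]
    · rw [h _ (mem_chainSpan c (by omega)), h₀']

theorem card_shift_step [Finite V] (c : ℕ → V) (k : ℕ)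
    (hli : LinearIndependent F (fun i : Fin (k + 1) => c i)) (B : ℕ)
    (hB : ∀ w, w ∉ chainSpan F c (k + 1) →
      Nat.card {N : End F V // IsNilpotent N ∧ IsShift N (Function.update c (k + 1) w) (k + 2)}
        = B) :
    ∃ z t, Nat.card {N : End F V // IsNilpotent N ∧ IsShift N c (k + 1)} = z + t * B ∧
      t + Nat.card (chainSpan F c (k + 1)) = Nat.card V ∧
      z * Nat.card (V ⧸ chainSpan F c (k + 1)) ^ finrank F (V ⧸ chainSpan F c (k + 1)) =
        Nat.card V ^ finrank F (V ⧸ chainSpan F c (k + 1)) *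
          Nat.card {N : End F (V ⧸ chainSpan F c (k + 1)) // IsNilpotent N} := by
  classical
  have : Fintype V := Fintype.ofFinite V
  have : Finite (End F V) := Finite.of_injective (fun f => (f : _ → _)) DFunLike.coe_injective
  set W := chainSpan F c (k + 1) with hW
  obtain ⟨N₀, hN₀W, hN₀nil, hN₀s, hN₀z⟩ := exists_template c (k + 1) hli
  have hN₀z' : N₀ (c k) = 0 := hN₀z k rfl
  let g : {N : End F V // IsNilpotent N ∧ IsShift N c (k + 1)} → V := fun N => N.1 (c k)
  have hsum : Nat.card {N : End F V // IsNilpotent N ∧ IsShift N c (k + 1)} =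
      ∑ w : V, Nat.card {N : {N : End F V // IsNilpotent N ∧ IsShift N c (k + 1)} // g N = w} := by
    rw [← Nat.card_sigma]
    exact (Nat.card_congr (Equiv.sigmaFiberEquiv g)).symm
  have hout : ∀ w, w ∉ W →
      Nat.card {N : {N : End F V // IsNilpotent N ∧ IsShift N c (k + 1)} // g N = w} = B := by
    intro w hw
    rw [← hB w hw]
    refine Nat.card_congr
      { toFun := fun N => ⟨N.1.1, N.1.2.1, (shift_update_iff _ _ _ _).2 ⟨N.1.2.2, N.2⟩⟩
        invFun := fun N => ⟨⟨N.1, N.2.1, ((shift_update_iff _ _ _ _).1 N.2.2).1⟩,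
          ((shift_update_iff _ _ _ _).1 N.2.2).2⟩
        left_inv := fun N => rfl
        right_inv := fun N => rfl }
  have hin : ∀ w, w ∈ W → w ≠ 0 →
      Nat.card {N : {N : End F V // IsNilpotent N ∧ IsShift N c (k + 1)} // g N = w} = 0 := by
    intro w hw hw0
    have : IsEmpty {N : {N : End F V // IsNilpotent N ∧ IsShift N c (k + 1)} // g N = w} := by
      constructor
      rintro ⟨⟨N, hN1, hN2⟩, hN3⟩
      have hN3' : N (c k) = w := hN3
      exact hw0 (hN3' ▸ shift_closed c k hli N hN1 hN2 (hN3'.symm ▸ hw))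
    exact Nat.card_of_isEmpty
  have hzero : Nat.card {N : {N : End F V // IsNilpotent N ∧ IsShift N c (k + 1)} // g N = 0} =
      Nat.card {N : End F V // IsNilpotent N ∧ ∀ x ∈ W, N x = N₀ x} := by
    refine Nat.card_congr
      { toFun := fun N => ⟨N.1.1, N.1.2.1, (shift_zero_iff _ N₀ c k hN₀s hN₀z').1 ⟨N.1.2.2, N.2⟩⟩
        invFun := fun N => ⟨⟨N.1, N.2.1, ((shift_zero_iff _ N₀ c k hN₀s hN₀z').2 N.2.2).1⟩,
          ((shift_zero_iff _ N₀ c k hN₀s hN₀z').2 N.2.2).2⟩
        left_inv := fun N => rfl
        right_inv := fun N => rfl }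
  refine ⟨Nat.card {N : End F V // IsNilpotent N ∧ ∀ x ∈ W, N x = N₀ x},
    (Finset.univ.filter fun w : V => w ∉ W).card, ?_, ?_, card_ext_nil W N₀ hN₀W hN₀nil⟩
  · rw [hsum, ← Finset.sum_filter_add_sum_filter_not Finset.univ (fun w : V => w ∈ W)]
    congr 1
    · rw [Finset.sum_eq_single (0 : V), hzero]
      · intro w hw hw0
        exact hin w (Finset.mem_filter.1 hw).2 hw0
      · intro h
        exact absurd (Finset.mem_filter.2 ⟨Finset.mem_univ _, W.zero_mem⟩) h
    · rw [Finset.sum_congr rfl (fun w hw => hout w (Finset.mem_filter.1 hw).2), Finset.sum_const,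
        smul_eq_mul]
  · rw [Nat.card_eq_fintype_card (α := W), Nat.card_eq_fintype_card (α := V),
      Fintype.card_subtype, add_comm]
    exact Finset.card_filter_add_card_filter_not (fun w : V => w ∈ W)

end chain

section main

universe u

variable {F : Type*} [Field F]

theorem li_update {V : Type*} [AddCommGroup V] [Module F V] (c : ℕ → V) (k : ℕ)
    (hli : LinearIndependent F (fun i : Fin (k + 1) => c i)) (w : V)
    (hw : w ∉ chainSpan F c (k + 1)) :
    LinearIndependent F (fun i : Fin (k + 1 + 1) => Function.update c (k + 1) w i) := by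
  rw [linearIndependent_finSucc']
  have e : (Fin.init fun i : Fin (k + 1 + 1) => Function.update c (k + 1) w i) =
      fun i : Fin (k + 1) => c i := by
    funext i
    simp only [Fin.init, Fin.val_castSucc]
    rw [Function.update_of_ne (by have := i.2; omega)]
  rw [e]
  refine ⟨hli, ?_⟩
  simpa [chainSpan] using hw

theorem arith_step {z t s r Q a' d : ℕ} (hr : 0 < r) (h1 : t + s = Q)
    (h2 : z * r ^ (d + 1) = Q ^ (d + 1) * a') (h3 : a' * r = r ^ (d + 1)) (h4 : Q = s * r) :
    z + t * Q ^ d = Q ^ (d + 1) := by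
  have hrd : 0 < r ^ (d + 1) := pow_pos hr _
  have h5 : z * r = Q ^ (d + 1) := by
    apply Nat.eq_of_mul_eq_mul_right hrd
    calc z * r * r ^ (d + 1) = (z * r ^ (d + 1)) * r := by ring
      _ = Q ^ (d + 1) * (a' * r) := by rw [h2]; ring
      _ = Q ^ (d + 1) * r ^ (d + 1) := by rw [h3]
  have h6 : z = Q ^ d * s := by
    apply Nat.eq_of_mul_eq_mul_right hr
    rw [h5, pow_succ, mul_assoc, ← h4]
  rw [h6, pow_succ, ← h1]
  ring

theorem card_nil_aux (n : ℕ) : ∀ (V : Type u) [AddCommGroup V] [Module F V] [Finite V],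
    finrank F V = n →
    Nat.card {N : End F V // IsNilpotent N} * Nat.card V = Nat.card V ^ n := by
  induction n using Nat.strong_induction_on with
  | _ n IH =>
  intro V _ _ _ hn
  have claim : ∀ d, ∀ (c : ℕ → V) (k : ℕ), LinearIndependent F (fun i : Fin (k + 1) => c i) →
      k + 1 + d = n →
      Nat.card {N : End F V // IsNilpotent N ∧ IsShift N c (k + 1)} = Nat.card V ^ d := by
    intro d
    induction d with
    | zero =>
      intro c k hli hkd
      have hfr : finrank F (chainSpan F c (k + 1)) = k + 1 := by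
        rw [chainSpan, finrank_span_eq_card hli, Fintype.card_fin]
      have htop : chainSpan F c (k + 1) = ⊤ :=
        Submodule.eq_top_of_finrank_eq (by rw [hfr, hn]; omega)
      obtain ⟨z, t, h1, -, h3⟩ := card_shift_step c k hli 0
        (fun w hw => absurd (htop ▸ Submodule.mem_top) hw)
      have hq := Submodule.finrank_quotient_add_finrank (chainSpan F c (k + 1))
      have hq0 : finrank F (V ⧸ chainSpan F c (k + 1)) = 0 := by omega
      have : Finite (V ⧸ chainSpan F c (k + 1)) :=
        Finite.of_surjective _ (chainSpan F c (k + 1)).mkQ_surjective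
      have h4 := IH 0 (by omega) (V ⧸ chainSpan F c (k + 1)) hq0
      rw [hq0] at h3
      simp only [pow_zero, mul_one, one_mul] at h3 h4
      rw [h1, h3, pow_zero]
      simpa using Nat.eq_one_of_mul_eq_one_right h4
    | succ d ihd =>
      intro c k hli hkd
      have hfr : finrank F (chainSpan F c (k + 1)) = k + 1 := by
        rw [chainSpan, finrank_span_eq_card hli, Fintype.card_fin]
      obtain ⟨z, t, h1, h2, h3⟩ := card_shift_step c k hli (Nat.card V ^ d)
        (fun w hw => ihd _ (k + 1) (li_update c k hli w hw) (by omega))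
      have hq := Submodule.finrank_quotient_add_finrank (chainSpan F c (k + 1))
      have hq0 : finrank F (V ⧸ chainSpan F c (k + 1)) = d + 1 := by omega
      have : Finite (V ⧸ chainSpan F c (k + 1)) :=
        Finite.of_surjective _ (chainSpan F c (k + 1)).mkQ_surjective
      have h4 := IH (d + 1) (by omega) (V ⧸ chainSpan F c (k + 1)) hq0
      rw [hq0] at h3
      rw [h1]
      exact arith_step Nat.card_pos h2 h3 h4
        (Submodule.card_eq_card_quotient_mul_card (chainSpan F c (k + 1)))
  rcases Nat.eq_zero_or_pos n with rfl | hpos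
  · have hs : Subsingleton V := Module.finrank_zero_iff.1 hn
    have : Subsingleton (End F V) := ⟨fun a b => LinearMap.ext fun x => Subsingleton.elim _ _⟩
    have : Nonempty {N : End F V // IsNilpotent N} := ⟨⟨0, IsNilpotent.zero⟩⟩
    have h1 : Nat.card {N : End F V // IsNilpotent N} = 1 := Nat.card_eq_one_iff_unique.2
      ⟨inferInstance, inferInstance⟩
    have h2 : Nat.card V = 1 := Nat.card_eq_one_iff_unique.2 ⟨hs, ⟨0⟩⟩
    rw [h1, h2]
    simp
  · obtain ⟨v, hv⟩ := Module.finrank_pos_iff_exists_ne_zero.1 (hn ▸ hpos)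
    have hli : LinearIndependent F (fun i : Fin (0 + 1) => (fun _ : ℕ => v) i) := by
      have : Subsingleton (Fin (0 + 1)) := inferInstanceAs (Subsingleton (Fin 1))
      exact LinearIndependent.of_subsingleton 0 hv
    have h1 := claim (n - 1) (fun _ => v) 0 hli (by omega)
    have e : Nat.card {N : End F V // IsNilpotent N} =
        Nat.card {N : End F V // IsNilpotent N ∧ IsShift N (fun _ => v) (0 + 1)} := by
      refine Nat.card_congr (Equiv.subtypeEquivRight fun N => ?_)
      exact ⟨fun h => ⟨h, fun i hi => absurd hi (by omega)⟩, fun h => h.1⟩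
    rw [e, h1, ← pow_succ]
    congr 1
    omega

/-- Fine–Herstein: the number of nilpotent endomorphisms. -/
theorem card_nil (V : Type*) [AddCommGroup V] [Module F V] [Finite V] :
    Nat.card {N : End F V // IsNilpotent N} * Nat.card V = Nat.card V ^ finrank F V :=
  card_nil_aux _ V rfl

end main

section matrix

variable {F : Type*} [Field F] [Fintype F]

theorem card_nil_matrix (n : ℕ) :
    Nat.card {M : Matrix (Fin n) (Fin n) F // IsNilpotent M} = Fintype.card F ^ (n * (n - 1)) := by
  have e : Nat.card {M : Matrix (Fin n) (Fin n) F // IsNilpotent M} =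
      Nat.card {N : End F (Fin n → F) // IsNilpotent N} := by
    refine Nat.card_congr (Equiv.subtypeEquiv (Matrix.toLinAlgEquiv' (R := F) (n := Fin n)).toEquiv
      fun M => ?_)
    constructor
    · intro h
      exact h.map (Matrix.toLinAlgEquiv' (R := F) (n := Fin n))
    · intro h
      have := h.map (Matrix.toLinAlgEquiv' (R := F) (n := Fin n)).symm
      simpa using this
  have h := card_nil (F := F) (Fin n → F)
  rw [← e, Module.finrank_fin_fun, Nat.card_eq_fintype_card (α := Fin n → F), Fintype.card_fun,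
    Fintype.card_fin] at h
  have hq : 0 < Fintype.card F ^ n := pow_pos Fintype.card_pos _
  apply Nat.eq_of_mul_eq_mul_right hq
  rw [h, ← pow_mul, ← pow_add]
  congr 1
  rcases n with _ | n
  · rfl
  · simp only [Nat.add_sub_cancel]
    ring

omit [Fintype F] in
theorem unip_iff (p : ℕ) [Fact p.Prime] [CharP F p] (n : ℕ) [NeZero n]
    (g : Matrix.GeneralLinearGroup (Fin n) F) :
    (∃ k : ℕ, orderOf g = p ^ k) ↔ IsNilpotent ((g : Matrix (Fin n) (Fin n) F) - 1) := by
  have hpow : ∀ k : ℕ, ((g : Matrix (Fin n) (Fin n) F) - 1) ^ p ^ k =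
      ((g ^ p ^ k : Matrix.GeneralLinearGroup (Fin n) F) : Matrix (Fin n) (Fin n) F) - 1 := by
    intro k
    rw [sub_pow_char_pow_of_commute _ _ (Commute.one_right _), one_pow, Units.val_pow_eq_pow_val]
  constructor
  · rintro ⟨k, hk⟩
    refine ⟨p ^ k, ?_⟩
    rw [hpow, ← hk, pow_orderOf_eq_one]
    simp
  · rintro ⟨m, hm⟩
    have hle : m ≤ p ^ m := (Nat.lt_pow_self (Fact.out : p.Prime).one_lt).le
    have h0 : ((g : Matrix (Fin n) (Fin n) F) - 1) ^ p ^ m = 0 := pow_eq_zero_of_le hle hm
    rw [hpow, sub_eq_zero] at h0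
    have h1 : g ^ p ^ m = 1 := Units.ext h0
    exact (Nat.dvd_prime_pow (Fact.out : p.Prime)).1 (orderOf_dvd_of_pow_eq_one h1) |>.imp
      fun _ h => h.2

theorem card_unipotent (p : ℕ) [Fact p.Prime] [CharP F p] (n : ℕ) :
    Nat.card {g : Matrix.GeneralLinearGroup (Fin n) F // ∃ k : ℕ, orderOf g = p ^ k} =
      Fintype.card F ^ (n * (n - 1)) := by
  rcases Nat.eq_zero_or_pos n with rfl | hn
  · have : Subsingleton (Matrix.GeneralLinearGroup (Fin 0) F) :=
      ⟨fun a b => Units.ext (Subsingleton.elim _ _)⟩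
    have : Nonempty {g : Matrix.GeneralLinearGroup (Fin 0) F // ∃ k : ℕ, orderOf g = p ^ k} :=
      ⟨⟨1, 0, by simp⟩⟩
    rw [Nat.card_eq_one_iff_unique.2 ⟨inferInstance, inferInstance⟩]
    simp
  · have : NeZero n := ⟨hn.ne'⟩
    rw [← card_nil_matrix]
    refine Nat.card_congr
      { toFun := fun g => ⟨(g.1 : Matrix (Fin n) (Fin n) F) - 1, (unip_iff p n g.1).1 g.2⟩
        invFun := fun M => ⟨(M.2.isUnit_add_one).unit, (unip_iff p n _).2 (by
          simpa using M.2)⟩
        left_inv := ?_
        right_inv := ?_ }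
    · intro g
      apply Subtype.ext
      apply Units.ext
      simp
    · intro M
      apply Subtype.ext
      simp

end matrix

end Cfsg.Agent.Lib.Helper90NilCount
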