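import Cfsg.Agent.Lib.Helper96SpxDefs

set_option autoImplicit false

/-! # Project 97 (S5664), piece `q2fin` -/

namespace Cfsg.Agent.Lib.Helper90Spxq2fin

open Module Cfsg.Agent.Lib.Helper96ExtDefs Cfsg.Agent.Lib.Helper96SpxDefs

lemma eq_zero_or_one {F : Type*} [Field F] (hF : Nat.card F = 2) (t : F) : t = 0 ∨ t = 1 := by
  obtain ⟨y, hy, huniq⟩ := (Nat.card_eq_two_iff' (0 : F)).1 hF
  by_cases h : t = 0
  · exact Or.inl h
  · exact Or.inr ((huniq t h).trans (huniq 1 one_ne_zero).symm)

lemma add_self_two {F : Type*} [Field F] (hF : Nat.card F = 2) (t : F) : t + t = 0 := by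
  have h1 : (1 : F) + 1 = 0 := by
    rcases eq_zero_or_one hF ((1 : F) + 1) with h | h
    · exact h
    · exfalso
      have : (1 : F) = 0 := by
        have := h
        linear_combination this
      exact one_ne_zero this
  linear_combination t * h1

lemma mul_self_two {F : Type*} [Field F] (hF : Nat.card F = 2) (t : F) : t * t = t := by
  rcases eq_zero_or_one hF t with h | h <;> simp [h]

variable {F K V : Type*} [Field F] [Field K] [Algebra F K] [AddCommGroup V] [Module F V] [Module K V]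
  [IsScalarTower F K V] [Finite F] [Finite K] [Finite V]
variable {G : Subgroup (Module.End F V)ˣ} {B : LinearMap.BilinForm F V}
  {BK : LinearMap.BilinForm K V} {τ : K →ₗ[F] F}

/-- piece `q2fin` -/
theorem q2fin (hF : Nat.card F = 2) (hD : SpData B BK τ)
    (hktv : ∀ (a : V) (k : K), InG G (1 + rk F (k • BK.flip a) a)) {a : V}
    (halt : ∀ y₁ ∈ pt F K a, ∀ y₂ ∈ pt F K a, InG G (1 + alt2 B y₁ y₂))
    (hind : ∀ β : Module.End F V, (∀ v, β v ∈ pt F K a) → (∀ x y, B (β x) y = B (β y) x) →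
      (∀ x, B (β x) x = 0) →
      β ∈ AddSubgroup.closure {γ : Module.End F V | ∃ y₁ ∈ pt F K a, ∃ y₂ ∈ pt F K a, γ = alt2 B y₁ y₂})
    {k : K} {w : V} (hw : w ∈ pt F K a) (hw0 : w ≠ 0)
    (hwv : ∀ v, B w v = B (rk F (k • BK.flip a) a v) v) : InG G (1 + sq B w) := by
  set ν : Module.End F V := rk F (k • BK.flip a) a with hν
  have hνa : ∀ v, ν v = (k * BK v a) • a := by
    intro v
    simp [hν]
  have hνpt : ∀ v, ν v ∈ pt F K a := fun v => by rw [hνa]; exact smul_mem_pt _ _
  have hνk : ∀ v ∈ pt F K a, ν v = 0 := by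
    intro v hv
    obtain ⟨c, rfl⟩ := mem_pt.1 hv
    rw [hνa]
    simp [hD.alt a]
  have hBpt : ∀ y ∈ pt F K a, ∀ v ∈ pt F K a, B y v = 0 := by
    intro y hy v hv
    obtain ⟨c, rfl⟩ := mem_pt.1 hy
    obtain ⟨c', rfl⟩ := mem_pt.1 hv
    rw [hD.tr]
    simp [hD.alt a]
  have hV2 : ∀ v : V, v + v = 0 := by
    intro v
    have := add_self_two hF (1 : F)
    calc v + v = ((1 : F) + 1) • v := by rw [add_smul, one_smul]
      _ = 0 := by rw [this, zero_smul]
  set β : Module.End F V := ν + sq B w with hβ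
  have hβa : ∀ v, β v = ν v + B w v • w := fun v => rfl
  have hβpt : ∀ v, β v ∈ pt F K a := fun v => by
    rw [hβa]
    exact (pt F K a).add_mem (hνpt v) ((pt F K a).smul_mem _ hw)
  have hmem := hind β hβpt (by
    intro x y
    rw [hβa, hβa, map_add, map_add, LinearMap.add_apply, LinearMap.add_apply, map_smul, map_smul,
      LinearMap.smul_apply, LinearMap.smul_apply, smul_eq_mul, smul_eq_mul, hνa, hνa,
      hD.B_smul_left, hD.B_smul_left, hD.K_swap a y, hD.K_swap y a, hD.K_swap a x, neg_neg]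
    congr 1
    · congr 1
      rw [hD.K_swap x a]
      ring
    · ring) (by
    intro x
    rw [hβa, map_add, LinearMap.add_apply, map_smul, LinearMap.smul_apply, smul_eq_mul, ← hwv x,
      mul_self_two hF, add_self_two hF])
  have key : InG G (1 + β) ∧ (∀ v, β v ∈ pt F K a) ∧ (∀ v ∈ pt F K a, β v = 0) := by
    refine AddSubgroup.closure_induction
      (p := fun γ _ => InG G (1 + γ) ∧ (∀ v, γ v ∈ pt F K a) ∧ (∀ v ∈ pt F K a, γ v = 0))
      ?_ ?_ ?_ ?_ hmem
    · rintro γ ⟨y₁, hy₁, y₂, hy₂, rfl⟩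
      refine ⟨halt y₁ hy₁ y₂ hy₂, ?_, ?_⟩
      · intro v
        rw [alt2_apply]
        exact (pt F K a).add_mem ((pt F K a).smul_mem _ hy₁) ((pt F K a).smul_mem _ hy₂)
      · intro v hv
        rw [alt2_apply, hBpt y₂ hy₂ v hv, hBpt y₁ hy₁ v hv]
        simp
    · refine ⟨by rw [add_zero]; exact InG.one, fun v => ?_, fun v _ => rfl⟩
      simp
    · rintro γ γ' _ _ ⟨h1, h2, h3⟩ ⟨h1', h2', h3'⟩
      refine ⟨?_, fun v => ?_, fun v hv => ?_⟩
      · have := h1.mul h1'
        have h0 : γ * γ' = 0 := by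
          ext v
          exact h3 _ (h2' v)
        have e : (1 + γ) * (1 + γ') = 1 + (γ + γ') := by
          rw [add_mul, mul_add, mul_add, h0]
          simp [add_assoc, add_comm γ' γ]
        rwa [e] at this
      · exact (pt F K a).add_mem (h2 v) (h2' v)
      · rw [LinearMap.add_apply, h3 v hv, h3' v hv, add_zero]
    · rintro γ _ ⟨h1, h2, h3⟩
      refine ⟨?_, fun v => ?_, fun v hv => ?_⟩
      · have h0 : γ * γ = 0 := by
          ext v
          exact h3 _ (h2 v)
        have := h1.one_sub h0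
        rwa [sub_eq_add_neg] at this
      · exact (pt F K a).neg_mem (h2 v)
      · rw [LinearMap.neg_apply, h3 v hv, neg_zero]
  have h1 := (hktv a k).mul key.1
  have e : (1 + ν) * (1 + β) = 1 + sq B w := by
    ext v
    simp only [Module.End.mul_apply, LinearMap.add_apply, Module.End.one_apply, map_add]
    rw [hνk _ (hβpt v), hβa, sq_apply, add_zero]
    have := hV2 (ν v)
    calc v + ν v + (ν v + B w v • w) = v + B w v • w + (ν v + ν v) := by abel
      _ = v + B w v • w := by rw [this, add_zero]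
  rwa [e] at h1

end Cfsg.Agent.Lib.Helper90Spxq2fin
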