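import Cfsg.Agent.Lib.Helper96SpxDefs

set_option autoImplicit false

/-! # Project 97 (S5664), pieces `rcaseI` and `config` -/

namespace Cfsg.Agent.Lib.Helper90SpxrcaseI

open Module Cfsg.Agent.Lib.Helper96ExtDefs Cfsg.Agent.Lib.Helper96SpxDefs

variable {F K V : Type*} [Field F] [Field K] [Algebra F K] [AddCommGroup V] [Module F V] [Module K V]
  [IsScalarTower F K V] [Finite F] [Finite K] [Finite V]
variable {G : Subgroup (Module.End F V)ˣ} {B : LinearMap.BilinForm F V}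
  {BK : LinearMap.BilinForm K V} {τ : K →ₗ[F] F}

omit [Finite F] [Finite K] [Finite V] in
lemma exists_perp (hfunc : ∀ φ : Module.Dual K V, ∃ b : V, ∀ v, φ v = BK v b) {w p : V}
    (hp : p ∉ pt F K w) (l : K) : ∃ b : V, BK w b = 0 ∧ BK p b = l := by
  have hp' : p ∉ Submodule.span K {w} := hp
  obtain ⟨f, hfp, hle⟩ := Submodule.exists_le_ker_of_notMem hp'
  obtain ⟨b, hb⟩ := hfunc ((l / f p) • f)
  refine ⟨b, ?_, ?_⟩
  · rw [← hb]
    have : f w = 0 := hle (Submodule.mem_span_singleton_self w)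
    simp [this]
  · rw [← hb]
    simp [hfp]

/-- piece `rcaseI` -/
theorem caseI (hD : SpData B BK τ) (hfunc : ∀ φ : Module.Dual K V, ∃ b : V, ∀ v, φ v = BK v b)
    (heich : ∀ {a b : V}, BK a b = 0 → InG G (1 + rk F (BK.flip a) b + rk F (BK.flip b) a))
    (hmap : ∀ g ∈ G, ∀ x y, Eqv B G x y → Eqv B G ((g : Module.End F V) x) ((g : Module.End F V) y))
    {w p : V} (hp : p ∉ pt F K w) (h0 : BK w p = 0) (he : Eqv B G w p) :
    ∀ l : K, Eqv B G w (p + l • w) := by
  intro l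
  obtain ⟨b, hwb, hpb⟩ := exists_perp (F := F) hfunc hp l
  obtain ⟨g, hg, hge⟩ := heich hwb
  have e1 := hmap g hg w p he
  have hpw : BK p w = 0 := by rw [hD.K_swap, h0, neg_zero]
  have a1 : (g : Module.End F V) w = w := by
    rw [hge]
    simp [hwb, hD.alt w]
  have a2 : (g : Module.End F V) p = p + l • w := by
    rw [hge]
    simp [hpb, hpw]
  rwa [a1, a2] at e1

/-- piece `config` -/
theorem sconfig (hD : SpData B BK τ) (hfunc : ∀ φ : Module.Dual K V, ∃ b : V, ∀ v, φ v = BK v b)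
    (hktv : ∀ (a : V) (k : K), InG G (1 + rk F (k • BK.flip a) a)) {a p : V} (hp : p ∉ pt F K a) :
    ∃ h ∈ G, (∀ w ∈ pt F K a, (h : Module.End F V) w = w) ∧ B p ((h : Module.End F V) p) ≠ 0 := by
  obtain ⟨b, hab, hpb⟩ := exists_perp (F := F) hfunc hp 1
  obtain ⟨k, hk⟩ := hD.tau 1 one_ne_zero
  obtain ⟨g, hg, hge⟩ := hktv b k
  refine ⟨g, hg, ?_, ?_⟩
  · intro w hw
    obtain ⟨c, rfl⟩ := mem_pt.1 hw
    rw [hge]
    simp [hab]
  · rw [hge]
    have e : (1 + rk F (k • BK.flip b) b : Module.End F V) p = p + k • b := by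
      simp [hpb]
    rw [e, map_add, hD.B_self p, zero_add, hD.B_smul_right, hpb]
    exact hk

end Cfsg.Agent.Lib.Helper90SpxrcaseI
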