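import Cfsg.Agent.Lib.Helper96SpxDefs

set_option autoImplicit false

/-! # Project 97 (S5664), piece `rcaseII` -/

namespace Cfsg.Agent.Lib.Helper90SpxrcaseII

open Module Cfsg.Agent.Lib.Helper96ExtDefs Cfsg.Agent.Lib.Helper96SpxDefs

variable {F K V : Type*} [Field F] [Field K] [Algebra F K] [AddCommGroup V] [Module F V] [Module K V]
  [IsScalarTower F K V] [Finite F] [Finite K] [Finite V]
variable {G : Subgroup (Module.End F V)ˣ} {B : LinearMap.BilinForm F V}
  {BK : LinearMap.BilinForm K V} {τ : K →ₗ[F] F}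

/-- piece `rcaseII` -/
theorem caseII (hD : SpData B BK τ) (hfunc : ∀ φ : Module.Dual K V, ∃ b : V, ∀ v, φ v = BK v b)
    (hktv : ∀ (a : V) (k : K), InG G (1 + rk F (k • BK.flip a) a)) (h4 : 4 ≤ finrank K V)
    (hmap : ∀ g ∈ G, ∀ x y, Eqv B G x y → Eqv B G ((g : Module.End F V) x) ((g : Module.End F V) y))
    (hsymm : ∀ x y, Eqv B G x y → Eqv B G y x)
    (htrans : ∀ x y z, Eqv B G x y → Eqv B G y z → Eqv B G x z) {w p : V}
    (hwp : BK w p ≠ 0) (he : Eqv B G w p) :
    ∃ y d : V, y ≠ 0 ∧ Eqv B G y (y + d) ∧ y + d ∉ pt F K y ∧ BK y (y + d) = 0 := by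
  have hpw : BK p w ≠ 0 := by
    rw [hD.K_swap]
    exact neg_ne_zero.2 hwp
  set e : V := (BK p w)⁻¹ • w with hedef
  have hwe : BK w e = 0 := by simp [hedef, hD.alt w]
  have hpe : BK p e = 1 := by simp [hedef, hpw]
  -- the vector `d`
  obtain ⟨d, hd0, hwd, hpd⟩ : ∃ d : V, d ≠ 0 ∧ BK w d = 0 ∧ BK p d = 0 := by
    let f : V →ₗ[K] K × K := (BK w).prod (BK p)
    have hker : LinearMap.ker f ≠ ⊥ := by
      apply LinearMap.ker_ne_bot_of_finrank_lt
      rw [Module.finrank_prod, Module.finrank_self]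
      omega
    obtain ⟨d, hd, hd0⟩ := Submodule.exists_mem_ne_zero_of_ne_bot hker
    have hd' : f d = 0 := hd
    have h1 : BK w d = 0 := congrArg Prod.fst hd'
    have h2 : BK p d = 0 := congrArg Prod.snd hd'
    exact ⟨d, hd0, h1, h2⟩
  have hed : BK e d = 0 := by simp [hedef, hwd]
  obtain ⟨g₁, hg₁, hg₁e⟩ := hktv e 1
  obtain ⟨g₂, hg₂, hg₂e⟩ := hktv (e + d) 1
  have e1 := hmap g₁ hg₁ w p he
  have e2 := hmap g₂ hg₂ w p he
  have a1 : (g₁ : Module.End F V) w = w := by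
    rw [hg₁e]
    simp [hwe]
  have a2 : (g₁ : Module.End F V) p = p + e := by
    rw [hg₁e]
    simp [hpe]
  have a3 : (g₂ : Module.End F V) w = w := by
    rw [hg₂e]
    simp [hwe, hwd]
  have a4 : (g₂ : Module.End F V) p = p + e + d := by
    rw [hg₂e]
    simp [hpe, hpd, add_assoc]
  rw [a1, a2] at e1
  rw [a3, a4] at e2
  have hwy : BK w (p + e) ≠ 0 := by
    rw [map_add, hwe, add_zero]
    exact hwp
  refine ⟨p + e, d, ?_, htrans _ _ _ (hsymm _ _ e1) e2, ?_, ?_⟩
  · intro h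
    apply hwy
    rw [h, map_zero]
  · intro h
    obtain ⟨c, hc⟩ := mem_pt.1 h
    have h1 : BK w (c • (p + e)) = BK w (p + e + d) := by rw [hc]
    rw [map_smul, map_add _ (p + e) d, hwd, add_zero, smul_eq_mul] at h1
    have hc1 : c = 1 := by
      have : (c - 1) * BK w (p + e) = 0 := by linear_combination h1
      rcases mul_eq_zero.1 this with h' | h'
      · exact sub_eq_zero.1 h'
      · exact absurd h' hwy
    rw [hc1, one_smul] at hc
    exact hd0 (by simpa using hc.symm)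
  · rw [map_add _ (p + e) d, hD.alt (p + e), zero_add, map_add, LinearMap.add_apply, hpd, hed,
      add_zero]

end Cfsg.Agent.Lib.Helper90SpxrcaseII
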