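import Cfsg.Agent.Lib.Helper90Spxq2fin

set_option autoImplicit false

/-! # Project 97 (S5664), piece `rpt` -/

namespace Cfsg.Agent.Lib.Helper90Spxrpt

open Module Cfsg.Agent.Lib.Helper96ExtDefs Cfsg.Agent.Lib.Helper96SpxDefs
open Cfsg.Agent.Lib.Helper90Spxq2fin

variable {F K V : Type*} [Field F] [Field K] [Algebra F K] [AddCommGroup V] [Module F V] [Module K V]
  [IsScalarTower F K V] [Finite F] [Finite K] [Finite V]
variable {G : Subgroup (Module.End F V)ˣ} {B : LinearMap.BilinForm F V}
  {BK : LinearMap.BilinForm K V} {τ : K →ₗ[F] F}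

omit [Finite F] [Finite K] in
lemma span_pair (hF : Nat.card F = 2) (hr : finrank F K = 2) {c : K} (hc0 : c ≠ 0) (hc1 : c ≠ 1)
    (k : K) : ∃ α β : F, α • (1 : K) + β • c = k := by
  have h2 : (1 : K) + 1 = 0 := by
    have := add_self_two hF (1 : F)
    have h := congrArg (algebraMap F K) this
    simpa using h
  have hli : LinearIndependent F ![(1 : K), c] := by
    rw [LinearIndependent.pair_iff]
    intro s t hst
    rcases eq_zero_or_one hF s with rfl | rfl <;> rcases eq_zero_or_one hF t with rfl | rfl
    · exact ⟨rfl, rfl⟩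
    · exfalso; apply hc0; simpa using hst
    · exfalso; simp at hst
    · exfalso
      apply hc1
      simp only [one_smul] at hst
      linear_combination hst - h2
  have hsp := hli.span_eq_top_of_card_eq_finrank (by simp [hr])
  have hk : k ∈ Submodule.span F (Set.range ![(1 : K), c]) := by rw [hsp]; trivial
  have hrange : Set.range ![(1 : K), c] = {1, c} := by
    simp [Matrix.range_cons, Matrix.range_empty, Set.pair_comm]
  rw [hrange, Submodule.mem_span_pair] at hk
  exact hk

omit [Finite F] [Finite K] in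
lemma sq_eq (hF : Nat.card F = 2) (hr : finrank F K = 2) {c : K} (hc0 : c ≠ 0) (hc1 : c ≠ 1) :
    c * c = c + 1 := by
  have h2 : (1 : K) + 1 = 0 := by
    have := add_self_two hF (1 : F)
    have h := congrArg (algebraMap F K) this
    simpa using h
  obtain ⟨α, β, h⟩ := span_pair hF hr hc0 hc1 (c * c)
  rcases eq_zero_or_one hF α with rfl | rfl <;> rcases eq_zero_or_one hF β with rfl | rfl
  · exfalso
    simp only [zero_smul, add_zero] at h
    exact hc0 (mul_self_eq_zero.1 h.symm)
  · exfalso
    simp only [zero_smul, zero_add, one_smul] at h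
    apply hc1
    have : c * (c - 1) = 0 := by linear_combination -h
    rcases mul_eq_zero.1 this with h' | h'
    · exact absurd h' hc0
    · exact sub_eq_zero.1 h'
  · exfalso
    simp only [zero_smul, add_zero, one_smul] at h
    apply hc1
    have : (c - 1) * (c - 1) = 0 := by linear_combination -h + (1 - c) * h2
    exact sub_eq_zero.1 (mul_self_eq_zero.1 this)
  · simp only [one_smul] at h
    rw [← h, add_comm]

/-- piece `rpt` (`q = 2 = r`) -/
theorem eqv_pt (hF : Nat.card F = 2) (hr : finrank F K = 2) (hD : SpData B BK τ) (hbig : BigB K B G)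
    {a x y : V} (hx : x ∈ pt F K a) (hy : y ∈ pt F K a) (hx0 : x ≠ 0) (hy0 : y ≠ 0) :
    Eqv B G x y := by
  have hV2 : ∀ v : V, v + v = 0 := by
    intro v
    have := add_self_two hF (1 : F)
    calc v + v = ((1 : F) + 1) • v := by rw [add_smul, one_smul]
      _ = 0 := by rw [this, zero_smul]
  have hBpt : ∀ y ∈ pt F K a, ∀ v ∈ pt F K a, B y v = 0 := by
    intro y hy v hv
    obtain ⟨c, rfl⟩ := mem_pt.1 hy
    obtain ⟨c', rfl⟩ := mem_pt.1 hv
    rw [hD.tr]
    simp [hD.alt a]
  have hxy : B x y = 0 := hBpt x hx y hy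
  have e : (1 + sq B x) * (1 + sq B y) = 1 + sq B x + sq B y := by
    ext v
    simp only [Module.End.mul_apply, LinearMap.add_apply, Module.End.one_apply, map_add, sq_apply,
      map_smul, hxy, zero_smul, add_zero]
  unfold Eqv
  rw [e]
  by_cases hne : x = y
  · subst hne
    have : 1 + sq B x + sq B x = 1 := by
      ext v
      simp only [LinearMap.add_apply, Module.End.one_apply]
      rw [add_assoc, hV2, add_zero]
    rw [this]
    exact InG.one
  obtain ⟨c, hc⟩ : ∃ c : K, y = c • x := by
    obtain ⟨k₁, rfl⟩ := mem_pt.1 hx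
    obtain ⟨k₂, rfl⟩ := mem_pt.1 hy
    have hk₁ : k₁ ≠ 0 := by
      rintro rfl
      exact hx0 (zero_smul _ _)
    refine ⟨k₂ / k₁, ?_⟩
    rw [smul_smul, div_mul_cancel₀ _ hk₁]
  have hc0 : c ≠ 0 := by
    rintro rfl
    exact hy0 (by rw [hc, zero_smul])
  have hc1 : c ≠ 1 := by
    rintro rfl
    exact hne (by rw [hc, one_smul])
  have hcc := sq_eq hF hr hc0 hc1
  have hsa : ∀ (k : K) (u v : V), B (k • u) v = B u (k • v) := by
    intro k u v
    rw [hD.B_smul_left, hD.B_smul_right]
  apply hbig
  · -- `K`-linearity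
    have hcl : ∀ v, (1 + sq B x + sq B y : Module.End F V) (c • v)
        = c • (1 + sq B x + sq B y : Module.End F V) v := by
      intro v
      simp only [LinearMap.add_apply, Module.End.one_apply, sq_apply, smul_add]
      have h1 : B x (c • v) = B y v := by rw [hc, hsa]
      have h2 : B y (c • v) = B y v + B x v := by
        rw [hc, ← hsa, smul_smul, hcc, add_smul, one_smul, map_add, LinearMap.add_apply]
      have h3 : c • y = y + x := by rw [hc, smul_smul, hcc, add_smul, one_smul]
      rw [h1, h2, smul_comm c (B x v) x, smul_comm c (B y v) y, h3, ← hc, add_smul, smul_add]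
      abel
    intro k v
    obtain ⟨α, β, rfl⟩ := span_pair hF hr hc0 hc1 k
    rw [add_smul, add_smul, map_add, smul_assoc, smul_assoc, one_smul, map_smul, map_smul, hcl,
      smul_assoc, smul_assoc, one_smul]
  · intro u v
    have hxx : B x x = 0 := hD.B_self x
    have hyy : B y y = 0 := hD.B_self y
    have hyx : B y x = 0 := hBpt y hy x hx
    simp only [LinearMap.add_apply, Module.End.one_apply, sq_apply, map_add, map_smul,
      LinearMap.smul_apply, smul_eq_mul, hxx, hyy, hxy, hyx, mul_zero, add_zero]
    rw [hD.B_swap u x, hD.B_swap u y]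
    ring

end Cfsg.Agent.Lib.Helper90Spxrpt
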