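import Mathlib
import Cfsg.Prelude.Def_Transfer
import Cfsg.Agent.Lib.Helper3Extraspecial
import Cfsg.Agent.Lib.Helper3PGroup

set_option autoImplicit false

/-! Fibre-product recognition of central extensions of elementary abelian `p`-groups by `ℤ/p`. -/

namespace Cfsg.Agent.Lib.Helper91ES3

open scoped commutatorElement

theorem aux_basis (K : Type*) [Field K] (M : Type*) [AddCommGroup M] [Module K M] [Finite M] :
    ∃ k : ℕ, Nonempty (M ≃+ (Fin k → K)) := by
  have : Module.Finite K M := Module.Finite.of_finite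
  exact ⟨_, ⟨(Module.finBasis K M).equivFun.toAddEquiv⟩⟩

/-- a finite abelian group of exponent `p` is an `𝔽_p`-coordinate space. -/
theorem exists_equiv_of_exp (p : ℕ) [Fact p.Prime] (A : Type*) [Group A] [Finite A]
    (hcomm : ∀ a b : A, a * b = b * a) (h : ∀ a : A, a ^ p = 1) :
    ∃ k : ℕ, Nonempty (A ≃* Multiplicative (Fin k → ZMod p)) := by
  let i1 : CommGroup A := { (inferInstance : Group A) with mul_comm := hcomm }
  have hh : ∀ x : Additive A, p • x = 0 := fun x => h (Additive.toMul x)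
  let i2 : Module (ZMod p) (Additive A) := AddCommGroup.zmodModule hh
  obtain ⟨k, ⟨e⟩⟩ := aux_basis (ZMod p) (Additive A)
  exact ⟨k, ⟨AddEquiv.toMultiplicativeRight e⟩⟩

/-- separating character. -/
theorem exists_char (p : ℕ) [Fact p.Prime] {A : Type*} [Group A] [Finite A] (N : Subgroup A)
    [N.Normal] (h : ∀ a : A, a ^ p ∈ N) (hc : ∀ a b : A, ⁅a, b⁆ ∈ N) {ζ : A} (hζ : ζ ∉ N) :
    ∃ χ : A →* Multiplicative (ZMod p), (∀ a ∈ N, χ a = 1) ∧ χ ζ ≠ 1 := by
  obtain ⟨k, ⟨e⟩⟩ := exists_equiv_of_exp p (A ⧸ N) (by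
    intro a b
    induction a using QuotientGroup.induction_on with
    | H a =>
      induction b using QuotientGroup.induction_on with
      | H b =>
        rw [← commutatorElement_eq_one_iff_mul_comm]
        have : ⁅(a : A ⧸ N), (b : A ⧸ N)⁆ = ((⁅a, b⁆ : A) : A ⧸ N) := by
          simp [commutatorElement_def]
        rw [this, QuotientGroup.eq_one_iff]
        exact hc a b) (by
    intro a
    induction a using QuotientGroup.induction_on with
    | H a =>
      rw [← QuotientGroup.mk_pow, QuotientGroup.eq_one_iff]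
      exact h a)
  have hne : e (ζ : A ⧸ N) ≠ 1 := by
    intro h1
    rw [map_eq_one_iff e e.injective, QuotientGroup.eq_one_iff] at h1
    exact hζ h1
  obtain ⟨i, hi⟩ : ∃ i, Multiplicative.toAdd (e (ζ : A ⧸ N)) i ≠ 0 := by
    by_contra hcon
    push Not at hcon
    apply hne
    have : Multiplicative.toAdd (e (ζ : A ⧸ N)) = 0 := funext hcon
    exact this
  let ev : Multiplicative (Fin k → ZMod p) →* Multiplicative (ZMod p) :=
    AddMonoidHom.toMultiplicative (Pi.evalAddMonoidHom (fun _ => ZMod p) i)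
  refine ⟨(ev.comp e.toMonoidHom).comp (QuotientGroup.mk' N), ?_, ?_⟩
  · intro a ha
    have : (QuotientGroup.mk' N) a = 1 := (QuotientGroup.eq_one_iff a).2 ha
    simp only [MonoidHom.comp_apply, this, map_one]
  · intro h1
    exact hi h1

/-- in `Multiplicative (ZMod p)` every element is a power of any non-trivial one. -/
theorem exists_pow_mul_eq_one (p : ℕ) [Fact p.Prime] {a : Multiplicative (ZMod p)} (ha : a ≠ 1)
    (b : Multiplicative (ZMod p)) : ∃ j : ℕ, b * a ^ j = 1 := by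
  have ha' : Multiplicative.toAdd a ≠ 0 := ha
  refine ⟨(-(Multiplicative.toAdd b) / Multiplicative.toAdd a).val, ?_⟩
  show Multiplicative.toAdd b + (-(Multiplicative.toAdd b) / Multiplicative.toAdd a).val •
    Multiplicative.toAdd a = 0
  rw [nsmul_eq_mul, ZMod.natCast_zmod_val, div_mul_cancel₀ _ ha']
  ring

theorem dvd_of_pow_eq_one (p : ℕ) [Fact p.Prime] {a : Multiplicative (ZMod p)} (ha : a ≠ 1)
    {j : ℕ} (h : a ^ j = 1) : p ∣ j := by
  have ha' : Multiplicative.toAdd a ≠ 0 := ha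
  have h1 : j • Multiplicative.toAdd a = 0 := h
  rw [nsmul_eq_mul] at h1
  rcases mul_eq_zero.1 h1 with h2 | h2
  · exact (ZMod.natCast_eq_zero_iff j p).1 h2
  · exact absurd h2 ha'

/-- two central extensions of `W` by a group of order `p`, both of exponent `p`, with the same
commutator pairing are isomorphic. -/
theorem iso_of_fibre (p : ℕ) [Fact p.Prime] {E E' W : Type*} [Group E] [Group E'] [Group W]
    [Finite E] [Finite E']
    (π : E →* W) (π' : E' →* W) (hπ : Function.Surjective π) (hπ' : Function.Surjective π')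
    (z : E) (z' : E') (hz : z ≠ 1) (hz' : z' ≠ 1)
    (hzc : ∀ g, g * z = z * g) (hzc' : ∀ g, g * z' = z' * g)
    (hker : ∀ x, π x = 1 ↔ ∃ j : ℕ, x = z ^ j) (hker' : ∀ x, π' x = 1 ↔ ∃ j : ℕ, x = z' ^ j)
    (hexp : ∀ x : E, x ^ p = 1) (hexp' : ∀ x : E', x ^ p = 1)
    (hcomm : ∀ x y x' y', π x = π' x' → π y = π' y' →
      ∃ j : ℕ, ⁅x, y⁆ = z ^ j ∧ ⁅x', y'⁆ = z' ^ j) :
    Nonempty (E ≃* E') := by
  have hπz : π z = 1 := (hker z).2 ⟨1, (pow_one z).symm⟩
  have hπz' : π' z' = 1 := (hker' z').2 ⟨1, (pow_one z').symm⟩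
  let P : Subgroup (E × E') := MonoidHom.eqLocus (π.comp (MonoidHom.fst E E'))
    (π'.comp (MonoidHom.snd E E'))
  have hP : ∀ q : E × E', q ∈ P ↔ π q.1 = π' q.2 := fun q => Iff.rfl
  let δ : P := ⟨(z, z'), by rw [hP, hπz, hπz']⟩
  let ζ : P := ⟨(z, 1), by rw [hP, hπz, map_one]⟩
  let ζ' : P := ⟨(1, z'), by rw [hP, hπz', map_one]⟩
  let N : Subgroup P := Subgroup.zpowers δ
  have hδc : ∀ g : P, g * δ = δ * g := fun g => Subtype.ext (Prod.ext (hzc g.1.1) (hzc' g.1.2))
  have hNn : N.Normal := by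
    constructor
    rintro n ⟨i, rfl⟩ g
    have : g * δ ^ i * g⁻¹ = δ ^ i := by
      rw [mul_inv_eq_iff_eq_mul]
      exact ((Commute.zpow_right (hδc g) i)).eq
    show g * δ ^ i * g⁻¹ ∈ N
    rw [this]
    exact ⟨i, rfl⟩
  have hpowN : ∀ q : P, q ^ p ∈ N := by
    intro q
    have : q ^ p = 1 := Subtype.ext (Prod.ext (hexp q.1.1) (hexp' q.1.2))
    rw [this]; exact Subgroup.one_mem _
  have hcommN : ∀ a b : P, ⁅a, b⁆ ∈ N := by
    intro a b
    obtain ⟨j, h1, h2⟩ := hcomm a.1.1 b.1.1 a.1.2 b.1.2 a.2 b.2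
    have : ⁅a, b⁆ = δ ^ j := Subtype.ext (Prod.ext h1 h2)
    rw [this]
    exact Subgroup.pow_mem _ (Subgroup.mem_zpowers δ) j
  have hζN : ζ ∉ N := by
    rintro ⟨i, hi⟩
    have h1 : z ^ i = z := congrArg (fun q : P => q.1.1) hi
    have h2 : z' ^ i = 1 := congrArg (fun q : P => q.1.2) hi
    -- order of z' is p
    have ho' : orderOf z' = p := orderOf_eq_prime (hexp' z') hz'
    have ho : orderOf z = p := orderOf_eq_prime (hexp z) hz
    have hd : (p : ℤ) ∣ i := by rw [← ho']; exact orderOf_dvd_iff_zpow_eq_one.2 h2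
    have h3 : z ^ i = 1 := by rw [← ho] at hd; exact orderOf_dvd_iff_zpow_eq_one.1 hd
    exact hz (h1.symm.trans h3)
  obtain ⟨χ, hχN, hχζ⟩ := exists_char p N hpowN hcommN hζN
  have hχδ : χ δ = 1 := hχN δ (Subgroup.mem_zpowers δ)
  have hζζ' : ζ * ζ' = δ := Subtype.ext (Prod.ext (mul_one _) (one_mul _))
  have hχζ' : χ ζ' ≠ 1 := by
    intro h
    apply hχζ
    have := congrArg χ hζζ'
    rwa [map_mul, h, mul_one, hχδ] at this
  let C : Subgroup P := χ.ker
  let p1 : C →* E := ((MonoidHom.fst E E').comp P.subtype).comp C.subtype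
  let p2 : C →* E' := ((MonoidHom.snd E E').comp P.subtype).comp C.subtype
  have b1 : Function.Bijective p1 := by
    constructor
    · rw [injective_iff_map_eq_one]
      intro c hc
      have hc1 : c.1.1.1 = 1 := hc
      have h2 : π' c.1.1.2 = 1 := by
        have := c.1.2
        rw [hP, hc1, map_one] at this
        exact this.symm
      obtain ⟨j, hj⟩ := (hker' _).1 h2
      have hcj : c.1 = ζ' ^ j := Subtype.ext (Prod.ext (by rw [hc1]; simp [ζ']) (by rw [hj]; simp [ζ']))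
      have h3 : χ ζ' ^ j = 1 := by
        rw [← map_pow, ← hcj]; exact c.2
      obtain ⟨t, rfl⟩ := dvd_of_pow_eq_one p hχζ' h3
      have h4 : c.1.1.2 = 1 := by rw [hj, pow_mul, hexp', one_pow]
      exact Subtype.ext (Subtype.ext (Prod.ext hc1 h4))
    · intro x
      obtain ⟨x', hx'⟩ := hπ' (π x)
      let q : P := ⟨(x, x'), by rw [hP]; exact hx'.symm⟩
      obtain ⟨j, hj⟩ := exists_pow_mul_eq_one p hχζ' (χ q)
      refine ⟨⟨q * ζ' ^ j, ?_⟩, ?_⟩
      · show χ (q * ζ' ^ j) = 1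
        rw [map_mul, map_pow]; exact hj
      · show x * (ζ' ^ j).1.1 = x
        simp [ζ']
  have b2 : Function.Bijective p2 := by
    constructor
    · rw [injective_iff_map_eq_one]
      intro c hc
      have hc1 : c.1.1.2 = 1 := hc
      have h2 : π c.1.1.1 = 1 := by
        have := c.1.2
        rw [hP, hc1, map_one] at this
        exact this
      obtain ⟨j, hj⟩ := (hker _).1 h2
      have hcj : c.1 = ζ ^ j := Subtype.ext (Prod.ext (by rw [hj]; simp [ζ]) (by rw [hc1]; simp [ζ]))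
      have h3 : χ ζ ^ j = 1 := by
        rw [← map_pow, ← hcj]; exact c.2
      obtain ⟨t, rfl⟩ := dvd_of_pow_eq_one p hχζ h3
      have h4 : c.1.1.1 = 1 := by rw [hj, pow_mul, hexp, one_pow]
      exact Subtype.ext (Subtype.ext (Prod.ext h4 hc1))
    · intro x'
      obtain ⟨x, hx⟩ := hπ (π' x')
      let q : P := ⟨(x, x'), by rw [hP]; exact hx⟩
      obtain ⟨j, hj⟩ := exists_pow_mul_eq_one p hχζ (χ q)
      refine ⟨⟨q * ζ ^ j, ?_⟩, ?_⟩
      · show χ (q * ζ ^ j) = 1
        rw [map_mul, map_pow]; exact hj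
      · show x' * (ζ ^ j).1.2 = x'
        simp [ζ]
  exact ⟨(MulEquiv.ofBijective p1 b1).symm.trans (MulEquiv.ofBijective p2 b2)⟩

section form

/-- elementwise description of a group of class two whose centre is generated by `z` of order `p`,
with a logarithm `ℓ` on the centre. -/
structure Pk (p : ℕ) (E : Type*) [Group E] (z : E) (ℓ : E → ZMod p) : Prop where
  ne : z ≠ 1
  cen : ∀ x, x ∈ Subgroup.center E ↔ ∃ j : ℕ, x = z ^ j
  com : ∀ x y : E, ⁅x, y⁆ ∈ Subgroup.center E
  log_mul : ∀ a ∈ Subgroup.center E, ∀ b ∈ Subgroup.center E, ℓ (a * b) = ℓ a + ℓ b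
  log_eq : ∀ a ∈ Subgroup.center E, a = z ^ (ℓ a).val

theorem exists_pk {p : ℕ} [Fact p.Prime] {E : Type*} [Group E] [Finite E]
    (hE : Cfsg.IsExtraspecial p E) : ∃ (z : E) (ℓ : E → ZMod p), Pk p E z ℓ := by
  classical
  have hcyc : IsCyclic (Subgroup.center E) := isCyclic_of_prime_card hE.2
  have L0 := zmodCyclicMulEquiv hcyc
  rw [hE.2] at L0
  let L : Subgroup.center E ≃* Multiplicative (ZMod p) := L0.symm
  let zc : Subgroup.center E := L.symm (Multiplicative.ofAdd 1)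
  let ℓ : E → ZMod p := fun g => if h : g ∈ Subgroup.center E then Multiplicative.toAdd (L ⟨g, h⟩) else 0
  have hℓ : ∀ (g : E) (h : g ∈ Subgroup.center E), ℓ g = Multiplicative.toAdd (L ⟨g, h⟩) :=
    fun g h => dif_pos h
  have hLz : L zc = Multiplicative.ofAdd 1 := L.apply_symm_apply _
  have hlog : ∀ a : Subgroup.center E, a = zc ^ (Multiplicative.toAdd (L a)).val := by
    intro a
    apply L.injective
    rw [map_pow, hLz, ← ofAdd_nsmul, nsmul_eq_mul, mul_one, ZMod.natCast_zmod_val]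
    rfl
  refine ⟨zc, ℓ, ?_, ?_, ?_, ?_, ?_⟩
  · intro h
    have h1 : zc = 1 := Subtype.ext h
    rw [h1, map_one] at hLz
    have h2 : (0 : ZMod p) = 1 := hLz
    exact zero_ne_one h2
  · intro x
    constructor
    · intro hx
      exact ⟨_, congrArg Subtype.val (hlog ⟨x, hx⟩)⟩
    · rintro ⟨j, rfl⟩
      exact Subgroup.pow_mem _ zc.2 j
  · exact Cfsg.Agent.Lib.Helper3Extraspecial.comm_central hE
  · intro a ha b hb
    rw [hℓ a ha, hℓ b hb, hℓ (a * b) (Subgroup.mul_mem _ ha hb)]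
    have : (⟨a * b, Subgroup.mul_mem _ ha hb⟩ : Subgroup.center E) = ⟨a, ha⟩ * ⟨b, hb⟩ := rfl
    rw [this, map_mul]
    rfl
  · intro a ha
    rw [hℓ a ha]
    exact congrArg Subtype.val (hlog ⟨a, ha⟩)

variable {p : ℕ} [Fact p.Prime] {E : Type*} [Group E] {z : E} {ℓ : E → ZMod p}

theorem Pk.comm_mul (h : Pk p E z ℓ) (x x' y : E) : ⁅x * x', y⁆ = ⁅x, y⁆ * ⁅x', y⁆ :=
  congrArg Subtype.val (map_mul (Cfsg.Agent.Lib.Helper3Extraspecial.commHom h.com y) x x')

theorem Pk.log_one (h : Pk p E z ℓ) : ℓ 1 = 0 := by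
  have := h.log_mul 1 (Subgroup.one_mem _) 1 (Subgroup.one_mem _)
  rw [mul_one] at this
  exact left_eq_add.mp this

theorem Pk.log_inv (h : Pk p E z ℓ) {a : E} (ha : a ∈ Subgroup.center E) : ℓ a⁻¹ = -ℓ a := by
  have := h.log_mul a ha a⁻¹ (Subgroup.inv_mem _ ha)
  rw [mul_inv_cancel, h.log_one] at this
  exact (neg_eq_of_add_eq_zero_right this.symm).symm

theorem Pk.eq_one_of_log (h : Pk p E z ℓ) {a : E} (ha : a ∈ Subgroup.center E) (h0 : ℓ a = 0) :
    a = 1 := by
  rw [h.log_eq a ha, h0]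
  simp

theorem Pk.comm_of_center (h : Pk p E z ℓ) {c : E} (hc : c ∈ Subgroup.center E) (w : E) :
    ⁅c, w⁆ = 1 := by
  rw [commutatorElement_eq_one_iff_mul_comm]
  exact ((Subgroup.mem_center_iff.1 hc) w).symm

variable {V : Type*} [AddCommGroup V] [Module (ZMod p) V]

theorem Pk.exists_form (h : Pk p E z ℓ) (π : E →* Multiplicative V) (hπ : Function.Surjective π)
    (hker : ∀ x, π x = 1 ↔ x ∈ Subgroup.center E) :
    ∃ B : LinearMap.BilinForm (ZMod p) V, B.IsAlt ∧
      (∀ x y, B (Multiplicative.toAdd (π x)) (Multiplicative.toAdd (π y)) = ℓ ⁅x, y⁆) := by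
  have key : ∀ x y, π x = π y → ∃ c ∈ Subgroup.center E, y = x * c := by
    intro x y hxy
    refine ⟨x⁻¹ * y, (hker _).1 (by rw [map_mul, map_inv, hxy, inv_mul_cancel]), by group⟩
  have comm_inv : ∀ x y : E, ⁅x, y⁆ = ⁅y, x⁆⁻¹ := fun x y => (commutatorElement_inv y x).symm
  have comm_indep : ∀ x x' y y', π x = π x' → π y = π y' → ⁅x, y⁆ = ⁅x', y'⁆ := by
    intro x x' y y' hx hy
    obtain ⟨c, hc, rfl⟩ := key x x' hx
    obtain ⟨d, hd, rfl⟩ := key y y' hy
    rw [h.comm_mul, h.comm_of_center hc, mul_one, comm_inv x (y * d), h.comm_mul,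
      h.comm_of_center hd, mul_one, ← comm_inv]
  let σ : V → E := fun u => Function.surjInv hπ (Multiplicative.ofAdd u)
  have hσ : ∀ u, π (σ u) = Multiplicative.ofAdd u := fun u => Function.surjInv_eq hπ _
  let Bf : V → V → ZMod p := fun u v => ℓ ⁅σ u, σ v⁆
  have hB : ∀ x y, Bf (Multiplicative.toAdd (π x)) (Multiplicative.toAdd (π y)) = ℓ ⁅x, y⁆ := by
    intro x y
    have e : π (σ (Multiplicative.toAdd (π x))) = π x := hσ _
    have e' : π (σ (Multiplicative.toAdd (π y))) = π y := hσ _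
    show ℓ ⁅σ (Multiplicative.toAdd (π x)), σ (Multiplicative.toAdd (π y))⁆ = _
    rw [comm_indep _ _ _ _ e e']
  have hu : ∀ u : V, u = Multiplicative.toAdd (π (σ u)) := fun u => by rw [hσ]; rfl
  have hadd : ∀ x y, Multiplicative.toAdd (π x) + Multiplicative.toAdd (π y)
      = Multiplicative.toAdd (π (x * y)) := fun x y => by rw [map_mul]; rfl
  have Badd : ∀ u u' v, Bf (u + u') v = Bf u v + Bf u' v := by
    intro u u' v
    rw [hu u, hu u', hu v, hadd, hB, hB, hB, h.comm_mul, h.log_mul _ (h.com _ _) _ (h.com _ _)]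
  have Banti : ∀ u v, Bf u v = -Bf v u := by
    intro u v
    rw [hu u, hu v, hB, hB, comm_inv, h.log_inv (h.com _ _)]
  have Badd' : ∀ u v v', Bf u (v + v') = Bf u v + Bf u v' := by
    intro u v v'
    rw [Banti u, Badd, Banti v, Banti v']
    ring
  let B : LinearMap.BilinForm (ZMod p) V := LinearMap.mk₂ (ZMod p) Bf Badd
    (fun c u v => ZMod.map_smul (AddMonoidHom.mk' (fun u => Bf u v) (fun a b => Badd a b v)) c u)
    Badd'
    (fun c u v => ZMod.map_smul (AddMonoidHom.mk' (fun v => Bf u v) (fun a b => Badd' u a b)) c v)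
  refine ⟨B, ?_, hB⟩
  intro u
  show Bf u u = 0
  rw [hu u, hB, commutatorElement_self, h.log_one]

end form

end Cfsg.Agent.Lib.Helper91ES3
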