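import Cfsg.Agent.Lib.Helper57SpWrBase
import Cfsg.Agent.Lib.Helper58GStruct

set_option autoImplicit false
set_option linter.unusedSectionVars false

/-! ASCH-O part 2b, piece `facirr`. -/

namespace Cfsg.Agent.Lib.Helper91OFacirr

open Cfsg Cfsg.Geo Matrix
open Cfsg.Agent.Lib.Helper97GBase Cfsg.Agent.Lib.Helper97GCore
  Cfsg.Agent.Lib.Helper98AschGDefs Cfsg.Agent.Lib.Helper98AschGBasic Cfsg.Agent.Lib.Helper96SpDefs
  Cfsg.Agent.Lib.Helper58GWnorm Cfsg.Agent.Lib.Helper57SpWrBase
open scoped MatrixGroups Kronecker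

variable {ι : Type} [Fintype ι] [DecidableEq ι] {F : Type*} [Field F]

section trm
variable {κ : Type} [Fintype κ] [DecidableEq κ] (e : ι ≃ κ) (P : GL ι F)

lemma trm_add (M N : Matrix κ κ F) : trm e P (M + N) = trm e P M + trm e P N := by
  unfold trm
  have : Matrix.reindex e.symm e.symm (M + N) =
      Matrix.reindex e.symm e.symm M + Matrix.reindex e.symm e.symm N := rfl
  rw [this, mul_add, add_mul]

lemma trm_smul (c : F) (M : Matrix κ κ F) : trm e P (c • M) = c • trm e P M := by
  unfold trm
  have : Matrix.reindex e.symm e.symm (c • M) = c • Matrix.reindex e.symm e.symm M := rfl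
  rw [this, Matrix.mul_smul, Matrix.smul_mul]

lemma trm_one : trm e P (1 : Matrix κ κ F) = 1 := by
  unfold trm
  have : Matrix.reindex e.symm e.symm (1 : Matrix κ κ F) = 1 := by
    simp
  rw [this, mul_one, iv]

lemma trm_sum {α : Type*} (s : Finset α) (f : α → Matrix κ κ F) :
    trm e P (∑ a ∈ s, f a) = ∑ a ∈ s, trm e P (f a) := by
  classical
  induction s using Finset.induction_on with
  | empty =>
    simp only [Finset.sum_empty]
    unfold trm
    simp
  | insert a s ha ih => rw [Finset.sum_insert ha, Finset.sum_insert ha, trm_add, ih]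

lemma trm_surjective (M : Matrix ι ι F) : ∃ M' : Matrix κ κ F, trm e P M' = M := by
  refine ⟨Matrix.reindex e e (((P⁻¹ : GL ι F) : Matrix ι ι F) * M * (P : Matrix ι ι F)), ?_⟩
  unfold trm
  have : Matrix.reindex e.symm e.symm (Matrix.reindex e e
      (((P⁻¹ : GL ι F) : Matrix ι ι F) * M * (P : Matrix ι ι F))) =
      ((P⁻¹ : GL ι F) : Matrix ι ι F) * M * (P : Matrix ι ι F) := by
    ext i j
    simp
  rw [this]
  calc (P : Matrix ι ι F) * (((P⁻¹ : GL ι F) : Matrix ι ι F) * M * (P : Matrix ι ι F)) *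
        ((P⁻¹ : GL ι F) : Matrix ι ι F)
      = ((P : Matrix ι ι F) * ((P⁻¹ : GL ι F) : Matrix ι ι F)) * M *
        ((P : Matrix ι ι F) * ((P⁻¹ : GL ι F) : Matrix ι ι F)) := by simp only [mul_assoc]
    _ = M := by rw [iv, one_mul, mul_one]

end trm

variable {k m : ℕ}

lemma pt_single (a b : Fin k → Fin m) :
    pt (fun j => Matrix.single (a j) (b j) (1 : F)) = Matrix.single a b 1 := by
  ext x y
  rw [pt_apply]
  simp only [Matrix.single_apply]
  rw [Finset.prod_boole]
  congr 1
  simp only [Finset.mem_univ, true_implies, eq_iff_iff, funext_iff]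
  exact ⟨fun h => ⟨fun j => (h j).1, fun j => (h j).2⟩, fun h j => ⟨h.1 j, h.2 j⟩⟩

lemma pt_mem (e : ι ≃ (Fin k → Fin m)) (P : GL ι F) {A : Subalgebra F (Matrix ι ι F)}
    (h : ∀ (i : Fin k) (a : Matrix (Fin m) (Fin m) F), fac e P i a ∈ A)
    (B : Fin k → Matrix (Fin m) (Fin m) F) (s : Finset (Fin k)) :
    trm e P (pt (fun j => if j ∈ s then B j else 1)) ∈ A := by
  induction s using Finset.induction_on with
  | empty =>
    simp only [Finset.notMem_empty, if_false]
    rw [pt_one, trm_one]
    exact A.one_mem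
  | insert i s hi ih =>
    have : pt (fun j => if j ∈ insert i s then B j else 1) =
        factor i (B i) * pt (fun j => if j ∈ s then B j else 1) := by
      rw [factor_eq_pt, pt_mul]
      congr 1
      funext j
      by_cases hj : j = i
      · subst hj
        simp [hi]
      · simp [hj]
    rw [this, trm_mul]
    exact A.mul_mem (h i (B i)) ih

/-- [facirr] a group whose enveloping algebra contains all the factor algebras is absolutely irreducible. -/
theorem absIrred_of_fac (e : ι ≃ (Fin k → Fin m)) (P : GL ι F) {N : Subgroup (GL ι F)}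
    (h : ∀ (i : Fin k) (a : Matrix (Fin m) (Fin m) F), fac e P i a ∈ env N) :
    ActsAbsolutelyIrreducibly (matrixSet N) := by
  apply Cfsg.Agent.Lib.Helper58GStruct.absIrred_of_env
  intro M
  obtain ⟨M', rfl⟩ := trm_surjective e P M
  rw [Matrix.matrix_eq_sum_single M', trm_sum]
  refine Subalgebra.sum_mem _ fun a _ => ?_
  rw [trm_sum]
  refine Subalgebra.sum_mem _ fun b _ => ?_
  have h1 : Matrix.single a b (M' a b) = M' a b • Matrix.single a b (1 : F) := by
    rw [Matrix.smul_single, smul_eq_mul, mul_one]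
  rw [h1, trm_smul]
  refine Subalgebra.smul_mem _ ?_ _
  have h2 := pt_mem e P h (fun j => Matrix.single (a j) (b j) (1 : F)) Finset.univ
  simp only [Finset.mem_univ, if_true] at h2
  rwa [pt_single] at h2

end Cfsg.Agent.Lib.Helper91OFacirr
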