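import Mathlib
import Cfsg.Prelude.Def_FischerSpaces
import Cfsg.Agent.Lib.Helper49Orth
import Cfsg.Agent.Lib.Helper17SymmForm

set_option autoImplicit false
set_option linter.unusedSectionVars false

/-! Reflections of an orthogonal space over the field with three elements. -/

namespace Cfsg.Agent.Lib.Helper91Refl

open Cfsg Matrix Cfsg.Agent.Lib.Helper49Orth

variable {n : ℕ} (Q : QuadraticForm (ZMod 3) (Fin n → ZMod 3))

set_option quotPrecheck false in
local notation "𝐎" => ↥(Cfsg.isometryGroup (ZMod 3) (DFunLike.coe Q))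
local notation "𝐁" => QuadraticMap.polar (DFunLike.coe Q)

/-- action of an isometry on a vector -/
def act (g : 𝐎) (v : Fin n → ZMod 3) : Fin n → ZMod 3 :=
  ((g : Matrix.GeneralLinearGroup (Fin n) (ZMod 3)) : Matrix (Fin n) (Fin n) (ZMod 3)) *ᵥ v

theorem Q_act (g : 𝐎) (v : Fin n → ZMod 3) : Q (act Q g v) = Q v := iso_apply (Q := ⇑Q) g v

theorem r_conj (g : 𝐎) (v : Fin n → ZMod 3) :
    g * reflO' Q v * g⁻¹ = reflO' Q (act Q g v) := by
  by_cases hv : Q v = 0
  · have hv' : Q (act Q g v) = 0 := by rw [Q_act]; exact hv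
    unfold reflO'
    rw [dif_neg (by simpa using hv), dif_neg (by simpa using hv')]
    simp
  · have hv' : Q (act Q g v) ≠ 0 := by rw [Q_act]; exact hv
    rw [reflO'_eq Q hv, reflO'_eq Q hv', mul_inv_eq_iff_eq_mul]
    apply iso_ext
    simp only [Subgroup.coe_mul, Units.val_mul, coe_reflO]
    exact conj_refl Q g v

theorem r_smul {t : ZMod 3} (ht : t ≠ 0) (v : Fin n → ZMod 3) :
    reflO' Q (t • v) = reflO' Q v := by
  have hQ : Q (t • v) = t * t * Q v := by rw [QuadraticMap.map_smul, smul_eq_mul]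
  by_cases hv : Q v = 0
  · have hv' : Q (t • v) = 0 := by rw [hQ, hv, mul_zero]
    unfold reflO'
    rw [dif_neg (by simpa using hv'), dif_neg (by simpa using hv)]
  · have hv' : Q (t • v) ≠ 0 := by rw [hQ]; exact mul_ne_zero (mul_ne_zero ht ht) hv
    rw [reflO'_eq Q hv, reflO'_eq Q hv']
    apply iso_ext
    simp only [coe_reflO]
    exact refl_smul Q ht

theorem r_mul_self (v : Fin n → ZMod 3) : reflO' Q v * reflO' Q v = 1 := by
  by_cases hv : Q v = 0
  · unfold reflO'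
    rw [dif_neg (by simpa using hv)]
    simp
  · rw [reflO'_eq Q hv]; exact reflO_mul_self Q hv

theorem r_inv (v : Fin n → ZMod 3) : (reflO' Q v)⁻¹ = reflO' Q v :=
  inv_eq_of_mul_eq_one_left (r_mul_self Q v)

theorem act_r {u : Fin n → ZMod 3} (hu : Q u ≠ 0) (v : Fin n → ZMod 3) :
    act Q (reflO' Q u) v = v - ((Q u)⁻¹ * 𝐁 u v) • u := by
  unfold act
  rw [reflO'_eq Q hu, coe_reflO, refl_mulVec]

theorem r_ne_one {v : Fin n → ZMod 3} (hv : Q v ≠ 0) : reflO' Q v ≠ 1 := by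
  intro h
  have h1 : act Q (reflO' Q v) v = v := by
    rw [h]; unfold act; simp
  have h2 : act Q (reflO' Q v) v = -v := by
    unfold act
    rw [reflO'_eq Q hv, coe_reflO, refl_self Q hv]
  rw [h2] at h1
  have hv0 : v = 0 := by
    funext i
    have := congrFun h1 i
    simp only [Pi.neg_apply, Pi.zero_apply] at this ⊢
    have key : ∀ a : ZMod 3, -a = a → a = 0 := by decide
    exact key _ this
  rw [hv0, QuadraticMap.map_zero] at hv
  exact hv rfl

theorem orderOf_r {v : Fin n → ZMod 3} (hv : Q v ≠ 0) : orderOf (reflO' Q v) = 2 :=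
  orderOf_eq_prime (by rw [sq]; exact r_mul_self Q v) (r_ne_one Q hv)

theorem mem_reflectionsOfNorm {c : ZMod 3} (hc : c ≠ 0) (g : 𝐎) :
    g ∈ reflectionsOfNorm (⇑Q) c ↔ ∃ v, Q v = c ∧ g = reflO' Q v := by
  constructor
  · rintro ⟨v, hv, h⟩
    refine ⟨v, hv, ?_⟩
    have hv' : Q v ≠ 0 := by rw [hv]; exact hc
    rw [reflO'_eq Q hv']
    exact iso_ext h
  · rintro ⟨v, hv, rfl⟩
    have hv' : Q v ≠ 0 := by rw [hv]; exact hc
    refine ⟨v, hv, ?_⟩
    rw [reflO'_eq Q hv']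
    rfl

theorem r_commute {u v : Fin n → ZMod 3} (hu : Q u ≠ 0) (h : 𝐁 u v = 0) :
    reflO' Q u * reflO' Q v * reflO' Q u = reflO' Q v := by
  have := r_conj Q (reflO' Q u) v
  rw [r_inv, act_r Q hu, h] at this
  simpa using this

theorem r_braid {u v : Fin n → ZMod 3} (hu : Q u ≠ 0) (huv : Q u = Q v) (h : 𝐁 u v ≠ 0) :
    reflO' Q u * reflO' Q v * reflO' Q u = reflO' Q v * reflO' Q u * reflO' Q v := by
  have hv : Q v ≠ 0 := huv ▸ hu
  have h1 := r_conj Q (reflO' Q u) v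
  have h2 := r_conj Q (reflO' Q v) u
  rw [r_inv, act_r Q hu] at h1
  rw [r_inv, act_r Q hv, QuadraticMap.polar_comm, ← huv] at h2
  rw [h1, h2]
  obtain ⟨t, ht⟩ : ∃ t, t = (Q u)⁻¹ * 𝐁 u v := ⟨_, rfl⟩
  rw [← ht]
  have ht0 : t ≠ 0 := by rw [ht]; exact mul_ne_zero (inv_ne_zero hu) h
  have htt : t * t = 1 := by
    have key : ∀ a : ZMod 3, a ≠ 0 → a * a = 1 := by decide
    exact key t ht0
  have e : v - t • u = (-t) • (u - t • v) := by
    rw [smul_sub, smul_smul, neg_mul, htt]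
    simp only [neg_smul, one_smul]
    abel
  rw [e, r_smul Q (neg_ne_zero.2 ht0)]

theorem r_sq_or_cube {u v : Fin n → ZMod 3} (hu : Q u ≠ 0) (huv : Q u = Q v) :
    (reflO' Q u * reflO' Q v) ^ 2 = 1 ∨ (reflO' Q u * reflO' Q v) ^ 3 = 1 := by
  by_cases h : 𝐁 u v = 0
  · left
    calc (reflO' Q u * reflO' Q v) ^ 2 = (reflO' Q u * reflO' Q v * reflO' Q u) * reflO' Q v := by
          simp only [pow_succ, pow_zero, one_mul, mul_assoc]
      _ = 1 := by rw [r_commute Q hu h, r_mul_self]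
  · right
    calc (reflO' Q u * reflO' Q v) ^ 3
        = (reflO' Q u * reflO' Q v * reflO' Q u) * (reflO' Q v * reflO' Q u * reflO' Q v) := by
          simp only [pow_succ, pow_zero, one_mul, mul_assoc]
      _ = (reflO' Q u * reflO' Q v * reflO' Q u) * (reflO' Q u * reflO' Q v * reflO' Q u) := by
          rw [r_braid Q hu huv h]
      _ = reflO' Q u * (reflO' Q v * ((reflO' Q u * reflO' Q u) * reflO' Q v)) * reflO' Q u := by
          simp only [mul_assoc]
      _ = 1 := by rw [r_mul_self, one_mul, r_mul_self, mul_one, r_mul_self]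

/-- non-orthogonal reflections of the same norm are conjugate under their product -/
theorem r_conj_of_ne {u v : Fin n → ZMod 3} (hu : Q u ≠ 0) (huv : Q u = Q v) (h : 𝐁 u v ≠ 0) :
    (reflO' Q u * reflO' Q v) * reflO' Q u * (reflO' Q u * reflO' Q v)⁻¹ = reflO' Q v := by
  rw [_root_.mul_inv_rev, r_inv, r_inv]
  calc reflO' Q u * reflO' Q v * reflO' Q u * (reflO' Q v * reflO' Q u)
      = reflO' Q u * (reflO' Q v * reflO' Q u * reflO' Q v) * reflO' Q u := by
        simp only [mul_assoc]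
    _ = reflO' Q u * (reflO' Q u * reflO' Q v * reflO' Q u) * reflO' Q u := by
        rw [r_braid Q hu huv h]
    _ = (reflO' Q u * reflO' Q u) * reflO' Q v * (reflO' Q u * reflO' Q u) := by
        simp only [mul_assoc]
    _ = reflO' Q v := by rw [r_mul_self, one_mul, mul_one]

section exist

theorem two_ne : (2 : ZMod 3) ≠ 0 := by decide

theorem isSymm_polar : LinearMap.BilinForm.IsSymm (QuadraticMap.polarBilin Q) :=
  ⟨fun x y => by simp [QuadraticMap.polar_comm]⟩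

theorem polarBilin_self (v : Fin n → ZMod 3) : QuadraticMap.polarBilin Q v v = 2 * Q v := by
  simp [QuadraticMap.polar_self, two_mul]

/-- a vector of prescribed non-zero norm orthogonal to a small orthogonal family -/
theorem exists_perp_norm (hQ : (QuadraticMap.polarBilin Q).Nondegenerate) {k : ℕ} {e : Fin k → (Fin n → ZMod 3)}
    (he : ∀ i j, i ≠ j → 𝐁 (e i) (e j) = 0) (he' : ∀ i, Q (e i) ≠ 0) (hk : k + 2 ≤ n)
    {c : ZMod 3} (hc : c ≠ 0) : ∃ v, (∀ i, 𝐁 (e i) v = 0) ∧ Q v = c := by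
  have hOG : Cfsg.Agent.Lib.Helper17SymmForm.OG (QuadraticMap.polarBilin Q) e := by
    refine ⟨fun i j hij => he i j hij, fun i => ?_⟩
    rw [polarBilin_self]
    exact mul_ne_zero two_ne (he' i)
  obtain ⟨v, hv, hvv⟩ := Cfsg.Agent.Lib.Helper17SymmForm.exists_perp_norm two_ne (isSymm_polar Q) hQ
    hOG (by simpa using hk) (2 * c) (mul_ne_zero two_ne hc)
  refine ⟨v, fun i => hv i, ?_⟩
  rw [polarBilin_self] at hvv
  exact mul_left_cancel₀ two_ne hvv

theorem exists_norm (hQ : (QuadraticMap.polarBilin Q).Nondegenerate) (hn : 2 ≤ n) {c : ZMod 3} (hc : c ≠ 0) : ∃ v, Q v = c := by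
  obtain ⟨v, -, hv⟩ := exists_perp_norm Q hQ (k := 0) (e := fun i => i.elim0) (fun i => i.elim0)
    (fun i => i.elim0) (by omega) hc
  exact ⟨v, hv⟩

theorem exists_perp_two (hQ : (QuadraticMap.polarBilin Q).Nondegenerate) {u v : Fin n → ZMod 3} (hu : Q u ≠ 0) (hv : Q v ≠ 0) (huv : 𝐁 u v = 0)
    (hn : 4 ≤ n) {c : ZMod 3} (hc : c ≠ 0) : ∃ x, 𝐁 u x = 0 ∧ 𝐁 v x = 0 ∧ Q x = c := by
  obtain ⟨x, hx, hxc⟩ := exists_perp_norm Q hQ (k := 2) (e := ![u, v]) (by
      intro i j hij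
      fin_cases i <;> fin_cases j
      · exact absurd rfl hij
      · exact huv
      · simpa [QuadraticMap.polar_comm] using huv
      · exact absurd rfl hij) (by
      intro i
      fin_cases i
      · exact hu
      · exact hv) (by omega) hc
  exact ⟨x, hx 0, hx 1, hxc⟩

theorem exists_perp_one (hQ : (QuadraticMap.polarBilin Q).Nondegenerate) {u : Fin n → ZMod 3}
    (hu : Q u ≠ 0) (hn : 3 ≤ n) {c : ZMod 3} (hc : c ≠ 0) : ∃ x, 𝐁 u x = 0 ∧ Q x = c := by
  obtain ⟨x, hx, hxc⟩ := exists_perp_norm Q hQ (k := 1) (e := ![u]) (by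
      intro i j hij
      exact absurd (Subsingleton.elim i j) hij) (by
      intro i
      fin_cases i
      exact hu) (by omega) hc
  exact ⟨x, hx 0, hxc⟩

theorem exists_perp_three (hQ : (QuadraticMap.polarBilin Q).Nondegenerate)
    {e1 e2 e3 : Fin n → ZMod 3} (h1 : Q e1 ≠ 0) (h2 : Q e2 ≠ 0) (h3 : Q e3 ≠ 0)
    (h12 : 𝐁 e1 e2 = 0) (h13 : 𝐁 e1 e3 = 0) (h23 : 𝐁 e2 e3 = 0)
    (hn : 5 ≤ n) {c : ZMod 3} (hc : c ≠ 0) :
    ∃ x, 𝐁 e1 x = 0 ∧ 𝐁 e2 x = 0 ∧ 𝐁 e3 x = 0 ∧ Q x = c := by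
  obtain ⟨x, hx, hxc⟩ := exists_perp_norm Q hQ (k := 3) (e := ![e1, e2, e3]) (by
      intro i j hij
      fin_cases i <;> fin_cases j
      · exact absurd rfl hij
      · exact h12
      · exact h13
      · simpa [QuadraticMap.polar_comm] using h12
      · exact absurd rfl hij
      · exact h23
      · simpa [QuadraticMap.polar_comm] using h13
      · simpa [QuadraticMap.polar_comm] using h23
      · exact absurd rfl hij) (by
      intro i
      fin_cases i
      · exact h1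
      · exact h2
      · exact h3) (by omega) hc
  exact ⟨x, hx 0, hx 1, hx 2, hxc⟩

/-- a vector of prescribed non-zero norm orthogonal to an anisotropic vector and to any other
vector. -/
theorem exists_perp_pair (hQ : (QuadraticMap.polarBilin Q).Nondegenerate) {v : Fin n → ZMod 3}
    (w : Fin n → ZMod 3) (hv : Q v ≠ 0) (hn : 5 ≤ n) {c : ZMod 3} (hc : c ≠ 0) :
    ∃ u, 𝐁 v u = 0 ∧ 𝐁 w u = 0 ∧ Q u = c := by
  have h2v : 2 * Q v ≠ 0 := mul_ne_zero two_ne hv
  have hproj : ∀ y : Fin n → ZMod 3, 𝐁 v (y - ((2 * Q v)⁻¹ * 𝐁 v y) • v) = 0 := by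
    intro y
    rw [QuadraticMap.polar_sub_right, QuadraticMap.polar_smul_right, QuadraticMap.polar_self,
      smul_eq_mul, nsmul_eq_mul]
    push_cast
    rw [mul_assoc, mul_comm (𝐁 v y), ← mul_assoc, inv_mul_cancel₀ h2v, one_mul, sub_self]
  obtain ⟨t, ht⟩ : ∃ t, t = (2 * Q v)⁻¹ * 𝐁 v w := ⟨_, rfl⟩
  obtain ⟨w', hw'⟩ : ∃ w', w' = w - t • v := ⟨_, rfl⟩
  have hvw' : 𝐁 v w' = 0 := by rw [hw', ht]; exact hproj w
  have hw : w = w' + t • v := by rw [hw']; abel
  suffices h : ∃ u, 𝐁 v u = 0 ∧ 𝐁 w' u = 0 ∧ Q u = c by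
    obtain ⟨u, h1, h2, h3⟩ := h
    refine ⟨u, h1, ?_, h3⟩
    rw [hw, QuadraticMap.polar_add_left, QuadraticMap.polar_smul_left, h1, h2]
    simp
  by_cases hq : Q w' = 0
  · by_cases h0 : w' = 0
    · obtain ⟨u, h1, h2⟩ := exists_perp_one Q hQ hv (by omega) hc
      refine ⟨u, h1, ?_, h2⟩
      rw [h0]; simp [QuadraticMap.polar]
    · obtain ⟨z0, hz0⟩ : ∃ z0, 𝐁 w' z0 ≠ 0 := by
        by_contra hcon
        push Not at hcon
        exact h0 (hQ.1 _ hcon)
      obtain ⟨z1, hz1⟩ : ∃ z1, z1 = z0 - ((2 * Q v)⁻¹ * 𝐁 v z0) • v := ⟨_, rfl⟩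
      have hvz1 : 𝐁 v z1 = 0 := by rw [hz1]; exact hproj z0
      have hw'v : 𝐁 w' v = 0 := by rw [QuadraticMap.polar_comm]; exact hvw'
      obtain ⟨s, hs⟩ : ∃ s, s = 𝐁 w' z1 := ⟨_, rfl⟩
      have hs0 : s ≠ 0 := by
        rw [hs, hz1, QuadraticMap.polar_sub_right, QuadraticMap.polar_smul_right, hw'v]
        simpa using hz0
      have hw'w' : 𝐁 w' w' = 0 := by rw [QuadraticMap.polar_self, hq]; simp
      obtain ⟨z, hz⟩ : ∃ z, z = z1 - (Q z1 * s⁻¹) • w' := ⟨_, rfl⟩
      have hQz : Q z = 0 := by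
        rw [hz, Q_sub, QuadraticMap.map_smul, hq, QuadraticMap.polar_smul_right,
          QuadraticMap.polar_comm, ← hs]
        simp only [smul_eq_mul]
        field_simp
        ring
      have hvz : 𝐁 v z = 0 := by
        rw [hz, QuadraticMap.polar_sub_right, QuadraticMap.polar_smul_right, hvz1, hvw']
        simp
      have hw'z : 𝐁 w' z = s := by
        rw [hz, QuadraticMap.polar_sub_right, QuadraticMap.polar_smul_right, hw'w', ← hs]
        simp
      have hzz : 𝐁 z z = 0 := by rw [QuadraticMap.polar_self, hQz]; simp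
      have hzw' : 𝐁 z w' = s := by rw [QuadraticMap.polar_comm]; exact hw'z
      have q1 : Q (w' + z) ≠ 0 := by
        rw [Q_add, hq, hQz, hw'z]; simpa using hs0
      have q2 : Q (w' - z) ≠ 0 := by
        rw [Q_sub, hq, hQz, hw'z]; simpa using hs0
      have b1 : 𝐁 v (w' + z) = 0 := by rw [QuadraticMap.polar_add_right, hvw', hvz]; simp
      have b2 : 𝐁 v (w' - z) = 0 := by rw [QuadraticMap.polar_sub_right, hvw', hvz]; simp
      have b3 : 𝐁 (w' + z) (w' - z) = 0 := by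
        rw [QuadraticMap.polar_add_left, QuadraticMap.polar_sub_right,
          QuadraticMap.polar_sub_right, hw'w', hw'z, hzw', hzz]
        ring
      obtain ⟨u, h1, h2, h3, h4⟩ := exists_perp_three Q hQ hv q1 q2 b1 b2 b3 hn hc
      refine ⟨u, h1, ?_, h4⟩
      rw [QuadraticMap.polar_add_left] at h2
      rw [QuadraticMap.polar_sub_left] at h3
      have : 2 * 𝐁 w' u = 0 := by linear_combination h2 + h3
      exact (mul_eq_zero.1 this).resolve_left two_ne
  · exact exists_perp_two Q hQ hv hq hvw' (by omega) hc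

end exist

end Cfsg.Agent.Lib.Helper91Refl
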