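import Cfsg.Agent.Lib.Helper92Pair

set_option autoImplicit false

namespace Cfsg.Agent.Lib.Helper92Four

open Cfsg Cfsg.Agent.Lib.Helper92Basic Cfsg.Agent.Lib.Helper92ES Cfsg.Agent.Lib.Helper92Pair

variable {G : Type*} [Group G]

/-- The six possible actions of an element normalizing the four-group `{1, z, b, b z}`. -/
theorem four_cases (V : Subgroup G) (z b : G)
    (hV : ∀ v, v ∈ V ↔ v = 1 ∨ v = z ∨ v = b ∨ v = b * z)
    (hz1 : z ≠ 1) (hb1 : b ≠ 1) (hbz : b ≠ z) {n : G} (hn : n ∈ Subgroup.normalizer (V : Set G)) :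
    (n * z * n⁻¹ = z ∧ n * b * n⁻¹ = b) ∨ (n * z * n⁻¹ = z ∧ n * b * n⁻¹ = b * z) ∨
    (n * z * n⁻¹ = b ∧ n * b * n⁻¹ = z) ∨ (n * z * n⁻¹ = b ∧ n * b * n⁻¹ = b * z) ∨
    (n * z * n⁻¹ = b * z ∧ n * b * n⁻¹ = z) ∨ (n * z * n⁻¹ = b * z ∧ n * b * n⁻¹ = b) := by
  have hzV : z ∈ V := (hV z).mpr (Or.inr (Or.inl rfl))
  have hbV : b ∈ V := (hV b).mpr (Or.inr (Or.inr (Or.inl rfl)))
  have h1 : n * z * n⁻¹ ∈ V := (Subgroup.mem_normalizer_iff.mp hn z).mp hzV
  have h2 : n * b * n⁻¹ ∈ V := (Subgroup.mem_normalizer_iff.mp hn b).mp hbV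
  have h3 : n * z * n⁻¹ ≠ 1 := by
    intro h; apply hz1
    have : z = n⁻¹ * (n * z * n⁻¹) * n := by group
    rw [this, h]; group
  have h4 : n * b * n⁻¹ ≠ 1 := by
    intro h; apply hb1
    have : b = n⁻¹ * (n * b * n⁻¹) * n := by group
    rw [this, h]; group
  have h5 : n * b * n⁻¹ ≠ n * z * n⁻¹ := by
    intro h; apply hbz
    have : b = n⁻¹ * (n * b * n⁻¹) * n := by group
    rw [this, h]; group
  rcases (hV _).mp h1 with e1 | e1 | e1 | e1 <;> rcases (hV _).mp h2 with e2 | e2 | e2 | e2 <;>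
    first
    | exact absurd e1 h3
    | exact absurd e2 h4
    | exact absurd (e2.trans e1.symm) h5
    | simp [e1, e2]

/-- Every action on the four-group is realized by a word in `q` and `u`. -/
theorem exists_same_action (V : Subgroup G) (z b q u : G)
    (hV : ∀ v, v ∈ V ↔ v = 1 ∨ v = z ∨ v = b ∨ v = b * z)
    (hz1 : z ≠ 1) (hb1 : b ≠ 1) (hbz : b ≠ z) (hzz : z * z = 1) (hbb : b * b = 1)
    (hq1 : q * z * q⁻¹ = z) (hq2 : q * b * q⁻¹ = b * z) (hu1 : u * z * u⁻¹ = b * z)
    (hu2 : u * b * u⁻¹ = b) (K : Subgroup G) (hqK : q ∈ K) (huK : u ∈ K) {n : G}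
    (hn : n ∈ Subgroup.normalizer (V : Set G)) :
    ∃ x ∈ K, x * z * x⁻¹ = n * z * n⁻¹ ∧ x * b * x⁻¹ = n * b * n⁻¹ := by
  have hq3 : q * (b * z) * q⁻¹ = b := by
    calc q * (b * z) * q⁻¹ = (q * b * q⁻¹) * (q * z * q⁻¹) := by group
      _ = b * (z * z) := by rw [hq1, hq2]; group
      _ = b := by rw [hzz, mul_one]
  have hu3 : u * (b * z) * u⁻¹ = z := by
    calc u * (b * z) * u⁻¹ = (u * b * u⁻¹) * (u * z * u⁻¹) := by group
      _ = (b * b) * z := by rw [hu1, hu2]; group
      _ = z := by rw [hbb, one_mul]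
  rcases four_cases V z b hV hz1 hb1 hbz hn with ⟨e1, e2⟩ | ⟨e1, e2⟩ | ⟨e1, e2⟩ | ⟨e1, e2⟩ |
    ⟨e1, e2⟩ | ⟨e1, e2⟩ <;> rw [e1, e2]
  · exact ⟨1, K.one_mem, by simp, by simp⟩
  · exact ⟨q, hqK, hq1, hq2⟩
  · refine ⟨q * u * q, K.mul_mem (K.mul_mem hqK huK) hqK, ?_, ?_⟩
    · calc q * u * q * z * (q * u * q)⁻¹ = q * (u * (q * z * q⁻¹) * u⁻¹) * q⁻¹ := by group
        _ = b := by rw [hq1, hu1, hq3]
    · calc q * u * q * b * (q * u * q)⁻¹ = q * (u * (q * b * q⁻¹) * u⁻¹) * q⁻¹ := by group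
        _ = z := by rw [hq2, hu3, hq1]
  · refine ⟨q * u, K.mul_mem hqK huK, ?_, ?_⟩
    · calc q * u * z * (q * u)⁻¹ = q * (u * z * u⁻¹) * q⁻¹ := by group
        _ = b := by rw [hu1, hq3]
    · calc q * u * b * (q * u)⁻¹ = q * (u * b * u⁻¹) * q⁻¹ := by group
        _ = b * z := by rw [hu2, hq2]
  · refine ⟨u * q, K.mul_mem huK hqK, ?_, ?_⟩
    · calc u * q * z * (u * q)⁻¹ = u * (q * z * q⁻¹) * u⁻¹ := by group
        _ = b * z := by rw [hq1, hu1]
    · calc u * q * b * (u * q)⁻¹ = u * (q * b * q⁻¹) * u⁻¹ := by group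
        _ = z := by rw [hq2, hu3]
  · exact ⟨u, huK, hu1, hu2⟩

theorem mem_centralizer_four (V : Subgroup G) (z b : G)
    (hV : ∀ v, v ∈ V ↔ v = 1 ∨ v = z ∨ v = b ∨ v = b * z) (n : G) :
    n ∈ Subgroup.centralizer (V : Set G) ↔ n * z = z * n ∧ n * b = b * n := by
  have hzV : z ∈ V := (hV z).mpr (Or.inr (Or.inl rfl))
  have hbV : b ∈ V := (hV b).mpr (Or.inr (Or.inr (Or.inl rfl)))
  rw [Subgroup.mem_centralizer_iff]
  constructor
  · intro h
    exact ⟨(h z hzV).symm, (h b hbV).symm⟩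
  · rintro ⟨e1, e2⟩ v hv
    rcases (hV v).mp hv with rfl | rfl | rfl | rfl
    · simp
    · exact e1.symm
    · exact e2.symm
    · calc b * z * n = b * (z * n) := by group
        _ = (b * n) * z := by rw [← e1]; group
        _ = n * (b * z) := by rw [← e2]; group

/-- The normalizer of the four-group is the product of any subgroup inducing the full symmetric group and
the centralizer. -/
theorem normalizer_four_le (V : Subgroup G) (z b q u : G)
    (hV : ∀ v, v ∈ V ↔ v = 1 ∨ v = z ∨ v = b ∨ v = b * z)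
    (hz1 : z ≠ 1) (hb1 : b ≠ 1) (hbz : b ≠ z) (hzz : z * z = 1) (hbb : b * b = 1)
    (hq1 : q * z * q⁻¹ = z) (hq2 : q * b * q⁻¹ = b * z) (hu1 : u * z * u⁻¹ = b * z)
    (hu2 : u * b * u⁻¹ = b) (K : Subgroup G) (hqK : q ∈ K) (huK : u ∈ K) :
    Subgroup.normalizer (V : Set G) ≤ K ⊔ Subgroup.centralizer (V : Set G) := by
  intro n hn
  obtain ⟨x, hx, e1, e2⟩ := exists_same_action V z b q u hV hz1 hb1 hbz hzz hbb hq1 hq2 hu1 hu2 K hqK huK hn
  have : n = x * (x⁻¹ * n) := by group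
  rw [this]
  refine Subgroup.mul_mem_sup hx ?_
  rw [mem_centralizer_four V z b hV]
  constructor
  · calc x⁻¹ * n * z = x⁻¹ * (n * z * n⁻¹) * n := by group
      _ = x⁻¹ * (x * z * x⁻¹) * n := by rw [e1]
      _ = z * (x⁻¹ * n) := by group
  · calc x⁻¹ * n * b = x⁻¹ * (n * b * n⁻¹) * n := by group
      _ = x⁻¹ * (x * b * x⁻¹) * n := by rw [e2]
      _ = b * (x⁻¹ * n) := by group

/-- A group generated by two involutions satisfying the braid relation has at most six elements. -/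
theorem six_elements {D : Type*} [Group D] (a c : D) (ha : a * a = 1) (hc : c * c = 1)
    (hbr : a * c * a = c * a * c) (d : D) (hd : d ∈ Subgroup.closure ({a, c} : Set D)) :
    d = 1 ∨ d = a ∨ d = c ∨ d = a * c ∨ d = c * a ∨ d = a * c * a := by
  have hainv : a⁻¹ = a := inv_eq_of_mul_eq_one_left ha
  have hcinv : c⁻¹ = c := inv_eq_of_mul_eq_one_left hc
  have stepa : ∀ y : D, (y = 1 ∨ y = a ∨ y = c ∨ y = a * c ∨ y = c * a ∨ y = a * c * a) →
      (a * y = 1 ∨ a * y = a ∨ a * y = c ∨ a * y = a * c ∨ a * y = c * a ∨ a * y = a * c * a) := by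
    rintro y (rfl | rfl | rfl | rfl | rfl | rfl)
    · simp
    · left; exact ha
    · simp
    · right; right; left; rw [← mul_assoc, ha, one_mul]
    · right; right; right; right; right; rw [mul_assoc]
    · right; right; right; right; left
      calc a * (a * c * a) = (a * a) * (c * a) := by group
        _ = c * a := by rw [ha, one_mul]
  have stepc : ∀ y : D, (y = 1 ∨ y = a ∨ y = c ∨ y = a * c ∨ y = c * a ∨ y = a * c * a) →
      (c * y = 1 ∨ c * y = a ∨ c * y = c ∨ c * y = a * c ∨ c * y = c * a ∨ c * y = a * c * a) := by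
    rintro y (rfl | rfl | rfl | rfl | rfl | rfl)
    · simp
    · simp
    · left; exact hc
    · right; right; right; right; right; rw [hbr, mul_assoc]
    · right; left; rw [← mul_assoc, hc, one_mul]
    · right; right; right; left
      rw [hbr]
      calc c * (c * a * c) = (c * c) * (a * c) := by group
        _ = a * c := by rw [hc, one_mul]
  induction hd using Subgroup.closure_induction_left with
  | one => left; rfl
  | mul_left x hx y _ ih =>
    rcases hx with rfl | rfl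
    · exact stepa y ih
    · exact stepc y ih
  | inv_mul_cancel x hx y _ ih =>
    rcases hx with rfl | rfl
    · rw [hainv]; exact stepa y ih
    · rw [hcinv]; exact stepc y ih

set_option maxRecDepth 100000 in
/-- The symmetric group of degree three has no non-trivial normal 2-subgroup. -/
theorem normal_two_subgroup_perm_three (N : Subgroup (Equiv.Perm (Fin 3))) (hN : N.Normal)
    (h2 : IsPGroup 2 N) : N = ⊥ := by
  have key : ∀ σ : Equiv.Perm (Fin 3), σ ≠ 1 →
      ∃ τ : Equiv.Perm (Fin 3), (σ ^ 3 = 1) ∨ ((σ * (τ * σ * τ⁻¹)) ^ 3 = 1 ∧ σ * (τ * σ * τ⁻¹) ≠ 1) := by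
    decide
  have no3 : ∀ n ∈ N, n ^ 3 = 1 → n = 1 := by
    intro n hn h3
    obtain ⟨k, hk⟩ := h2 ⟨n, hn⟩
    have hk' : n ^ (2 ^ k) = 1 := by
      have := congrArg Subtype.val hk
      simpa using this
    have hcop : Nat.Coprime (2 ^ k) 3 := Nat.Coprime.pow_left k (by norm_num)
    have h1 : orderOf n ∣ 2 ^ k := orderOf_dvd_of_pow_eq_one hk'
    have h2 : orderOf n ∣ 3 := orderOf_dvd_of_pow_eq_one h3
    have := Nat.eq_one_of_dvd_coprimes hcop h1 h2
    exact orderOf_eq_one_iff.mp this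
  rw [eq_bot_iff]
  intro σ hσ
  rw [Subgroup.mem_bot]
  by_contra hne
  obtain ⟨τ, h | ⟨h, h'⟩⟩ := key σ hne
  · exact hne (no3 σ hσ h)
  · exact h' (no3 _ (N.mul_mem hσ (hN.conj_mem σ hσ τ)) h)

/-- Conjugates of `Q` are determined by the corresponding conjugate of `z`. -/
theorem ES.map_conj_eq {Q : Subgroup G} {z : G} (h : ES Q z) {k k' : G}
    (hk : k * z * k⁻¹ = k' * z * k'⁻¹) :
    Q.map (MulAut.conj k).toMonoidHom = Q.map (MulAut.conj k').toMonoidHom := by
  have aux : ∀ {k k' : G}, k * z * k⁻¹ = k' * z * k'⁻¹ →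
      Q.map (MulAut.conj k).toMonoidHom ≤ Q.map (MulAut.conj k').toMonoidHom := by
    intro k k' hk x hx
    rw [mem_map_conj_iff] at hx ⊢
    have hc : (k'⁻¹ * k) * z = z * (k'⁻¹ * k) := by
      calc (k'⁻¹ * k) * z = k'⁻¹ * (k * z * k⁻¹) * k := by group
        _ = k'⁻¹ * (k' * z * k'⁻¹) * k := by rw [hk]
        _ = z * (k'⁻¹ * k) := by group
    have := h.norm _ hc _ hx
    have e : k'⁻¹ * k * (k⁻¹ * x * k) * (k'⁻¹ * k)⁻¹ = k'⁻¹ * x * k' := by group
    rwa [e] at this
  exact le_antisymm (aux hk) (aux hk.symm)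

/-- Index of the centralizer of the four-group in any subgroup of its normalizer inducing the full
symmetric group. -/
theorem relIndex_four_group' [Finite G] (V : Subgroup G) (z b q u : G)
    (hV : ∀ v, v ∈ V ↔ v = 1 ∨ v = z ∨ v = b ∨ v = b * z)
    (hz1 : z ≠ 1) (hb1 : b ≠ 1) (hbz : b ≠ z) (hzz : z * z = 1) (hbb : b * b = 1)
    (hq1 : q * z * q⁻¹ = z) (hq2 : q * b * q⁻¹ = b * z) (hu1 : u * z * u⁻¹ = b * z)
    (hu2 : u * b * u⁻¹ = b) (K : Subgroup G) (hK : K ≤ Subgroup.normalizer (V : Set G))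
    (hqK : q ∈ K) (huK : u ∈ K) :
    (Subgroup.centralizer (V : Set G)).relIndex K = 6 := by
  classical
  let act : MulAction K (ConjPair G) := conjPairAction K
  have hsmul : ∀ (n : K) (p : ConjPair G),
      n • p = ⟨(n : G) * p.1 * (n : G)⁻¹, (n : G) * p.2 * (n : G)⁻¹⟩ := fun _ _ => rfl
  have hstab : MulAction.stabilizer K (⟨z, b⟩ : ConjPair G)
      = (Subgroup.centralizer (V : Set G)).subgroupOf K := by
    ext n
    rw [MulAction.mem_stabilizer_iff, hsmul, Subgroup.mem_subgroupOf, mem_centralizer_four V z b hV,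
      ConjPair.mk.injEq]
    constructor
    · rintro ⟨h1, h2⟩
      constructor
      · calc (n : G) * z = ((n : G) * z * (n : G)⁻¹) * n := by group
          _ = z * n := by rw [h1]
      · calc (n : G) * b = ((n : G) * b * (n : G)⁻¹) * n := by group
          _ = b * n := by rw [h2]
    · rintro ⟨h1, h2⟩
      constructor
      · rw [h1]; group
      · rw [h2]; group
  have hq3 : q * (b * z) * q⁻¹ = b := by
    calc q * (b * z) * q⁻¹ = (q * b * q⁻¹) * (q * z * q⁻¹) := by group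
      _ = b * (z * z) := by rw [hq1, hq2]; group
      _ = b := by rw [hzz, mul_one]
  have hu3 : u * (b * z) * u⁻¹ = z := by
    calc u * (b * z) * u⁻¹ = (u * b * u⁻¹) * (u * z * u⁻¹) := by group
      _ = (b * b) * z := by rw [hu1, hu2]; group
      _ = z := by rw [hbb, one_mul]
  have horb : MulAction.orbit K (⟨z, b⟩ : ConjPair G)
      = {⟨z, b⟩, ⟨z, b * z⟩, ⟨b, z⟩, ⟨b, b * z⟩, ⟨b * z, z⟩, ⟨b * z, b⟩} := by
    apply Set.Subset.antisymm
    · rintro _ ⟨n, rfl⟩
      change n • (⟨z, b⟩ : ConjPair G) ∈ _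
      rw [hsmul]
      rcases four_cases V z b hV hz1 hb1 hbz (hK n.2) with ⟨e1, e2⟩ | ⟨e1, e2⟩ | ⟨e1, e2⟩ |
        ⟨e1, e2⟩ | ⟨e1, e2⟩ | ⟨e1, e2⟩ <;> (rw [e1, e2]; simp)
    · intro p hp
      simp only [Set.mem_insert_iff, Set.mem_singleton_iff] at hp
      rcases hp with rfl | rfl | rfl | rfl | rfl | rfl
      · exact ⟨1, by change (1 : K) • _ = _; rw [one_smul]⟩
      · refine ⟨⟨q, hqK⟩, ?_⟩
        change (⟨q, hqK⟩ : K) • (⟨z, b⟩ : ConjPair G) = _
        rw [hsmul]; simp only [hq1, hq2]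
      · refine ⟨⟨q * u * q, K.mul_mem (K.mul_mem hqK huK) hqK⟩, ?_⟩
        change (⟨q * u * q, _⟩ : K) • (⟨z, b⟩ : ConjPair G) = _
        rw [hsmul, ConjPair.mk.injEq]
        constructor
        · calc q * u * q * z * (q * u * q)⁻¹ = q * (u * (q * z * q⁻¹) * u⁻¹) * q⁻¹ := by group
            _ = b := by rw [hq1, hu1, hq3]
        · calc q * u * q * b * (q * u * q)⁻¹ = q * (u * (q * b * q⁻¹) * u⁻¹) * q⁻¹ := by group
            _ = z := by rw [hq2, hu3, hq1]
      · refine ⟨⟨q * u, K.mul_mem hqK huK⟩, ?_⟩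
        change (⟨q * u, _⟩ : K) • (⟨z, b⟩ : ConjPair G) = _
        rw [hsmul, ConjPair.mk.injEq]
        constructor
        · calc q * u * z * (q * u)⁻¹ = q * (u * z * u⁻¹) * q⁻¹ := by group
            _ = b := by rw [hu1, hq3]
        · calc q * u * b * (q * u)⁻¹ = q * (u * b * u⁻¹) * q⁻¹ := by group
            _ = b * z := by rw [hu2, hq2]
      · refine ⟨⟨u * q, K.mul_mem huK hqK⟩, ?_⟩
        change (⟨u * q, _⟩ : K) • (⟨z, b⟩ : ConjPair G) = _
        rw [hsmul, ConjPair.mk.injEq]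
        constructor
        · calc u * q * z * (u * q)⁻¹ = u * (q * z * q⁻¹) * u⁻¹ := by group
            _ = b * z := by rw [hq1, hu1]
        · calc u * q * b * (u * q)⁻¹ = u * (q * b * q⁻¹) * u⁻¹ := by group
            _ = z := by rw [hq2, hu3]
      · refine ⟨⟨u, huK⟩, ?_⟩
        change (⟨u, huK⟩ : K) • (⟨z, b⟩ : ConjPair G) = _
        rw [hsmul]; simp only [hu1, hu2]
  rw [Subgroup.relIndex, ← hstab, MulAction.index_stabilizer, horb]
  have n1 : z ≠ b := hbz.symm
  rw [Set.ncard_insert_of_notMem, Set.ncard_insert_of_notMem, Set.ncard_insert_of_notMem,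
    Set.ncard_insert_of_notMem, Set.ncard_insert_of_notMem, Set.ncard_singleton] <;>
  simp [hz1, hb1, hbz, n1]

/-- The non-identity elements of a subgroup. -/
abbrev NonOne (V : Subgroup G) : Type _ := {v : G // v ∈ V ∧ v ≠ 1}

/-- Conjugation action of a subgroup of the normalizer of `V` on the non-identity elements of `V`. -/
@[reducible] def conjNonOneAction (V K : Subgroup G) (hK : K ≤ Subgroup.normalizer (V : Set G)) :
    MulAction K (NonOne V) where
  smul := fun n v => ⟨(n : G) * v.1 * (n : G)⁻¹,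
    (Subgroup.mem_normalizer_iff.mp (hK n.2) v.1).mp v.2.1, fun h => v.2.2 (by
      have : v.1 = (n : G)⁻¹ * ((n : G) * v.1 * (n : G)⁻¹) * n := by group
      rw [this, h]; group)⟩
  one_smul := by
    intro v
    apply Subtype.ext
    change ((1 : K) : G) * v.1 * ((1 : K) : G)⁻¹ = v.1
    simp
  mul_smul := by
    intro m n v
    apply Subtype.ext
    change ((m * n : K) : G) * v.1 * ((m * n : K) : G)⁻¹ = (m : G) * ((n : G) * v.1 * (n : G)⁻¹) * (m : G)⁻¹
    simp [mul_assoc]

/-- A subgroup `K` of the normalizer of the four-group inducing the full symmetric group on it: the quotient by the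
centralizer in `K` is the symmetric group of degree 3. -/
theorem quotient_four_group [Finite G] (V : Subgroup G) (z b q u : G)
    (hV : ∀ v, v ∈ V ↔ v = 1 ∨ v = z ∨ v = b ∨ v = b * z)
    (hz1 : z ≠ 1) (hb1 : b ≠ 1) (hbz : b ≠ z) (hzz : z * z = 1) (hbb : b * b = 1)
    (hq1 : q * z * q⁻¹ = z) (hq2 : q * b * q⁻¹ = b * z) (hu1 : u * z * u⁻¹ = b * z)
    (hu2 : u * b * u⁻¹ = b) (K : Subgroup G) (hK : K ≤ Subgroup.normalizer (V : Set G))
    (hqK : q ∈ K) (huK : u ∈ K) :
    ∃ f : K →* Equiv.Perm (Fin 3), Function.Surjective f ∧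
      f.ker = (Subgroup.centralizer (V : Set G)).subgroupOf K := by
  classical
  have hzV : z ∈ V := (hV z).mpr (Or.inr (Or.inl rfl))
  have hbV : b ∈ V := (hV b).mpr (Or.inr (Or.inr (Or.inl rfl)))
  let act : MulAction K (NonOne V) := conjNonOneAction V K hK
  have hsmul : ∀ (n : K) (v : NonOne V), ((n • v : NonOne V) : G) = (n : G) * v.1 * (n : G)⁻¹ :=
    fun _ _ => rfl
  let f₀ : K →* Equiv.Perm (NonOne V) := MulAction.toPermHom K (NonOne V)
  have hker : f₀.ker = (Subgroup.centralizer (V : Set G)).subgroupOf K := by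
    ext n
    rw [MonoidHom.mem_ker, Subgroup.mem_subgroupOf, mem_centralizer_four V z b hV]
    constructor
    · intro h
      have h1 : ∀ v : NonOne V, n • v = v := fun v => by
        have := congrArg (fun σ : Equiv.Perm (NonOne V) => σ v) h
        exact this
      constructor
      · have := congrArg Subtype.val (h1 ⟨z, hzV, hz1⟩)
        rw [hsmul] at this
        calc (n : G) * z = ((n : G) * z * (n : G)⁻¹) * n := by group
          _ = z * n := by rw [this]
      · have := congrArg Subtype.val (h1 ⟨b, hbV, hb1⟩)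
        rw [hsmul] at this
        calc (n : G) * b = ((n : G) * b * (n : G)⁻¹) * n := by group
          _ = b * n := by rw [this]
    · rintro ⟨e1, e2⟩
      ext v
      change ((n • v : NonOne V) : G) = v
      rw [hsmul]
      rcases (hV v.1).mp v.2.1 with h | h | h | h
      · exact absurd h v.2.2
      · rw [h, e1]; group
      · rw [h, e2]; group
      · rw [h]
        calc (n : G) * (b * z) * (n : G)⁻¹ = ((n : G) * b) * z * (n : G)⁻¹ := by group
          _ = b * ((n : G) * z) * (n : G)⁻¹ := by rw [e2]; group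
          _ = b * z := by rw [e1]; group
  have hcard3 : Nat.card (NonOne V) = 3 := by
    have : {v : G | v ∈ V ∧ v ≠ 1} = {z, b, b * z} := by
      ext v
      simp only [Set.mem_setOf_eq, Set.mem_insert_iff, Set.mem_singleton_iff, hV]
      constructor
      · rintro ⟨h | h | h | h, h1⟩
        · exact absurd h h1
        · exact Or.inl h
        · exact Or.inr (Or.inl h)
        · exact Or.inr (Or.inr h)
      · rintro (h | h | h)
        · exact ⟨Or.inr (Or.inl h), h ▸ hz1⟩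
        · exact ⟨Or.inr (Or.inr (Or.inl h)), h ▸ hb1⟩
        · refine ⟨Or.inr (Or.inr (Or.inr h)), ?_⟩
          rw [h]
          intro h2
          apply hbz
          calc b = (b * z) * z := by rw [mul_assoc, hzz, mul_one]
            _ = z := by rw [h2, one_mul]
    change Nat.card ↥{v : G | v ∈ V ∧ v ≠ 1} = 3
    rw [Nat.card_coe_set_eq, this]
    have n1 : z ≠ b := hbz.symm
    rw [Set.ncard_insert_of_notMem, Set.ncard_insert_of_notMem, Set.ncard_singleton] <;>
    simp [hz1, hb1, hbz, n1]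
  have hsurj : Function.Surjective f₀ := by
    rw [← MonoidHom.range_eq_top]
    apply Subgroup.eq_top_of_card_eq
    rw [← Subgroup.index_ker, hker, Nat.card_perm, hcard3]
    exact relIndex_four_group' V z b q u hV hz1 hb1 hbz hzz hbb hq1 hq2 hu1 hu2 K hK hqK huK
  let e : NonOne V ≃ Fin 3 := Finite.equivFinOfCardEq hcard3
  refine ⟨e.permCongrHom.toMonoidHom.comp f₀, ?_, ?_⟩
  · exact e.permCongrHom.surjective.comp hsurj
  · rw [← hker]
    ext n
    simp [MonoidHom.mem_ker]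

end Cfsg.Agent.Lib.Helper92Four
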