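import Mathlib

/-!
PROJECT 92, piece `n2`.
-/

set_option autoImplicit false

namespace Cfsg.Agent.Lib.Helper92HupN2

open Subgroup
open scoped commutatorElement

universe u

variable {G : Type u} [Group G]

theorem two_le_relIndex [Finite G] {H K : Subgroup G} (h : H < K) : 2 ≤ H.relIndex K := by
  have h0 : H.relIndex K ≠ 0 := index_ne_zero_of_finite
  have h1 : H.relIndex K ≠ 1 := by
    rw [Ne, relIndex_eq_one]
    exact not_le_of_gt h
  omega

/-- commutator identities when the values are central -/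
theorem comm_mul_left {g h b : G} (hc : ∀ x : G, ⁅h, b⁆ * x = x * ⁅h, b⁆) :
    ⁅g * h, b⁆ = ⁅g, b⁆ * ⁅h, b⁆ := by
  have h1 : ⁅g * h, b⁆ = g * ⁅h, b⁆ * g⁻¹ * ⁅g, b⁆ := by
    simp only [commutatorElement_def]; group
  rw [h1, ← hc g, mul_inv_cancel_right, hc]

theorem comm_mul_right {g b c : G} (hc : ∀ x : G, ⁅g, c⁆ * x = x * ⁅g, c⁆) :
    ⁅g, b * c⁆ = ⁅g, b⁆ * ⁅g, c⁆ := by
  have h1 : ⁅g, b * c⁆ = ⁅g, b⁆ * (b * ⁅g, c⁆ * b⁻¹) := by
    simp only [commutatorElement_def]; group
  rw [h1, ← hc b, mul_inv_cancel_right]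

theorem index_dvd_24 [Finite G] {A B : Subgroup G} [hBn : B.Normal]
    (hAcyc : IsCyclic A) (hAZ : A ≤ center G) (hAB : A ≤ B)
    (hcomm : ∀ x ∈ B, ∀ y ∈ B, ⁅x, y⁆ ∈ A) (hpow : ∀ x ∈ B, x ^ 2 ∈ A)
    (hidx : A.relIndex B = 4) (hCB : ∀ g : G, (∀ b ∈ B, g * b = b * g) → g ∈ A) :
    A.index ∣ 24 := by
  classical
  have hcen : ∀ a ∈ A, ∀ g : G, a * g = g * a := fun a ha g => (mem_center_iff.mp (hAZ ha) g).symm
  have hAn : A.Normal := by
    refine ⟨fun a ha g => ?_⟩
    rw [← hcen a ha g, mul_inv_cancel_right]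
    exact ha
  -- generators
  have hBA : ¬ B ≤ A := by
    intro h
    rw [relIndex_eq_one.mpr h] at hidx
    omega
  obtain ⟨b₁, hb₁B, hb₁A⟩ := SetLike.not_le_iff_exists.mp hBA
  have hA₁B : A ⊔ zpowers b₁ ≤ B := sup_le hAB (zpowers_le.mpr hb₁B)
  have hA₁c : A ⊔ zpowers b₁ ≤ centralizer ({b₁} : Set G) := by
    refine sup_le ?_ ?_
    · intro a ha
      rw [mem_centralizer_singleton_iff]
      exact hcen a ha b₁
    · rw [zpowers_le, mem_centralizer_singleton_iff]
  have hBA₁ : ¬ B ≤ A ⊔ zpowers b₁ := by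
    intro h
    apply hb₁A
    apply hCB
    intro b hb
    exact (mem_centralizer_singleton_iff.mp (hA₁c (h hb))).symm
  obtain ⟨b₂, hb₂B, hb₂A₁⟩ := SetLike.not_le_iff_exists.mp hBA₁
  have hgen : ∀ g : G, g * b₁ = b₁ * g → g * b₂ = b₂ * g → g ∈ A := by
    intro g h1 h2
    apply hCB
    have hAC : A ≤ B ⊓ centralizer ({g} : Set G) := by
      refine le_inf hAB ?_
      intro a ha
      rw [mem_centralizer_singleton_iff]
      exact hcen a ha g
    have hb₁C : b₁ ∈ B ⊓ centralizer ({g} : Set G) :=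
      mem_inf.mpr ⟨hb₁B, mem_centralizer_singleton_iff.mpr h1.symm⟩
    have hb₂C : b₂ ∈ B ⊓ centralizer ({g} : Set G) :=
      mem_inf.mpr ⟨hb₂B, mem_centralizer_singleton_iff.mpr h2.symm⟩
    have hA₁C : A ⊔ zpowers b₁ ≤ B ⊓ centralizer ({g} : Set G) :=
      sup_le hAC (zpowers_le.mpr hb₁C)
    have hlt1 : A < A ⊔ zpowers b₁ := by
      refine lt_of_le_of_ne le_sup_left ?_
      intro he
      apply hb₁A
      rw [he]
      exact le_sup_right (a := A) (mem_zpowers b₁)
    have hlt2 : A ⊔ zpowers b₁ < B ⊓ centralizer ({g} : Set G) := by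
      refine lt_of_le_of_ne hA₁C ?_
      intro he
      apply hb₂A₁
      rw [he]
      exact hb₂C
    have e1 := relIndex_mul_relIndex A (A ⊔ zpowers b₁) (B ⊓ centralizer ({g} : Set G))
      le_sup_left hA₁C
    have e2 := relIndex_mul_relIndex A (B ⊓ centralizer ({g} : Set G)) B hAC inf_le_left
    have i1 := two_le_relIndex hlt1
    have i2 := two_le_relIndex hlt2
    have i3 : (B ⊓ centralizer ({g} : Set G)).relIndex B = 1 := by
      by_contra hne
      have h0 : (B ⊓ centralizer ({g} : Set G)).relIndex B ≠ 0 := index_ne_zero_of_finite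
      have h3 : 2 ≤ (B ⊓ centralizer ({g} : Set G)).relIndex B := by omega
      rw [hidx, ← e1] at e2
      have : 2 * 2 * 2 ≤ A.relIndex (A ⊔ zpowers b₁) *
          (A ⊔ zpowers b₁).relIndex (B ⊓ centralizer ({g} : Set G)) *
          (B ⊓ centralizer ({g} : Set G)).relIndex B :=
        Nat.mul_le_mul (Nat.mul_le_mul i1 i2) h3
      omega
    rw [relIndex_eq_one] at i3
    intro b hb
    exact (mem_centralizer_singleton_iff.mp (mem_inf.mp (i3 hb)).2).symm
  -- the action on the three non-trivial cosets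
  let π := QuotientGroup.mk' A
  let N : Subgroup (G ⧸ A) := B.map π
  have hNn : N.Normal := hBn.map π (QuotientGroup.mk'_surjective A)
  have hNcard : Nat.card N = 4 := by
    have := relIndex_ker (K := B) π
    rw [QuotientGroup.ker_mk', hidx] at this
    exact this.symm
  let T := {x : G ⧸ A // x ∈ N ∧ x ≠ 1}
  let _ : MulAction G T :=
    { smul := fun g x => ⟨π g * x.1 * (π g)⁻¹, hNn.conj_mem _ x.2.1 _, by
        intro h
        apply x.2.2
        have : x.1 = (π g)⁻¹ * (π g * x.1 * (π g)⁻¹) * π g := by group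
        rw [this, h]; group⟩
      one_smul := by
        intro x
        apply Subtype.ext
        show π 1 * x.1 * (π 1)⁻¹ = x.1
        simp
      mul_smul := by
        intro g h x
        apply Subtype.ext
        show π (g * h) * x.1 * (π (g * h))⁻¹ = π g * (π h * x.1 * (π h)⁻¹) * (π g)⁻¹
        rw [map_mul]; group }
  have hsm : ∀ (g : G) (x : T), ((g • x : T) : G ⧸ A) = π g * x.1 * (π g)⁻¹ := fun _ _ => rfl
  have hTcard : Nat.card T = 3 := by
    have e : T ≃ {y : N // y ≠ 1} :=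
      { toFun := fun x => ⟨⟨x.1, x.2.1⟩, fun h => x.2.2 (congrArg Subtype.val h)⟩
        invFun := fun y => ⟨y.1.1, y.1.2, fun h => y.2 (Subtype.ext h)⟩
        left_inv := fun _ => rfl
        right_inv := fun _ => rfl }
    rw [Nat.card_congr e]
    have : Fintype N := Fintype.ofFinite N
    rw [Nat.card_eq_fintype_card, Fintype.card_subtype_compl, Fintype.card_subtype_eq,
      ← Nat.card_eq_fintype_card, hNcard]
  let φ := MulAction.toPermHom G T
  have hK6 : φ.ker.index ∣ 6 := by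
    rw [index_ker]
    have h1 := card_subgroup_dvd_card φ.range
    rw [Nat.card_perm, hTcard] at h1
    exact h1
  have hKmem : ∀ g ∈ φ.ker, ∀ b ∈ B, ⁅g, b⁆ ∈ A := by
    intro g hg b hb
    by_cases hbA : b ∈ A
    · have : ⁅g, b⁆ = 1 := by
        rw [commutatorElement_eq_one_iff_mul_comm]
        exact (hcen b hbA g).symm
      rw [this]; exact A.one_mem
    · have hx : π b ∈ N ∧ π b ≠ 1 := by
        refine ⟨mem_map_of_mem π hb, ?_⟩
        intro h
        exact hbA ((QuotientGroup.eq_one_iff b).mp h)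
      have h1 : φ g ⟨π b, hx⟩ = ⟨π b, hx⟩ := by
        rw [MonoidHom.mem_ker.mp hg]; rfl
      have h2 : π g * π b * (π g)⁻¹ = π b := congrArg Subtype.val h1
      have h3 : π ⁅g, b⁆ = 1 := by
        rw [commutatorElement_def, map_mul, map_mul, map_mul, map_inv, map_inv, h2, mul_inv_cancel]
      exact (QuotientGroup.eq_one_iff _).mp h3
  have hAK : A ≤ φ.ker := by
    intro a ha
    rw [MonoidHom.mem_ker]
    ext x
    show ((a • x : T) : G ⧸ A) = x.1
    rw [hsm]
    have : π a = 1 := (QuotientGroup.eq_one_iff a).mpr ha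
    rw [this]; simp
  -- the elements of order at most two of `A`
  let μ : Subgroup G :=
    { carrier := {a | a ∈ A ∧ a ^ 2 = 1}
      mul_mem' := by
        rintro a b ⟨ha, ha2⟩ ⟨hb, hb2⟩
        refine ⟨A.mul_mem ha hb, ?_⟩
        rw [(show Commute a b from hcen a ha b).mul_pow, ha2, hb2, one_mul]
      one_mem' := ⟨A.one_mem, one_pow _⟩
      inv_mem' := by
        rintro a ⟨ha, ha2⟩
        exact ⟨A.inv_mem ha, by rw [inv_pow, ha2, inv_one]⟩ }
  have hμcard : Nat.card μ ∣ 2 := by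
    have hle : Nat.card μ ≤ 2 := by
      have : Fintype A := Fintype.ofFinite A
      have h1 := IsCyclic.card_pow_eq_one_le (α := A) (n := 2) (by norm_num)
      refine le_trans ?_ h1
      rw [← Fintype.card_subtype, ← Nat.card_eq_fintype_card]
      refine Nat.card_le_card_of_injective
        (fun x : μ => (⟨⟨x.1, x.2.1⟩, Subtype.ext x.2.2⟩ : {a : A // a ^ 2 = 1})) ?_
      intro x y hxy
      apply Subtype.ext
      exact congrArg (fun z : {a : A // a ^ 2 = 1} => ((z.1 : A) : G)) hxy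
    have hpos : 0 < Nat.card μ := Nat.card_pos
    interval_cases h : Nat.card μ
    · exact one_dvd _
    · exact dvd_rfl
  have hsq : ∀ g ∈ φ.ker, ∀ b ∈ B, ⁅g, b⁆ ∈ μ := by
    intro g hg b hb
    refine ⟨hKmem g hg b hb, ?_⟩
    have h1 : ⁅g, b * b⁆ = ⁅g, b⁆ * ⁅g, b⁆ := comm_mul_right (hcen _ (hKmem g hg b hb))
    rw [pow_two, ← h1, commutatorElement_eq_one_iff_mul_comm, ← pow_two]
    exact (hcen _ (hpow b hb) g).symm
  let ψ : φ.ker →* μ × μ :=
    { toFun := fun g => (⟨⁅(g : G), b₁⁆, hsq g g.2 b₁ hb₁B⟩, ⟨⁅(g : G), b₂⁆, hsq g g.2 b₂ hb₂B⟩)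
      map_one' := by
        apply Prod.ext <;> apply Subtype.ext <;> simp
      map_mul' := by
        intro g h
        apply Prod.ext <;> apply Subtype.ext
        · exact comm_mul_left (hcen _ (hKmem h h.2 b₁ hb₁B))
        · exact comm_mul_left (hcen _ (hKmem h h.2 b₂ hb₂B)) }
  have hker : ψ.ker = A.subgroupOf φ.ker := by
    ext g
    rw [MonoidHom.mem_ker, mem_subgroupOf]
    constructor
    · intro h
      have h1 : ⁅(g : G), b₁⁆ = 1 := congrArg (fun z : μ × μ => (z.1 : G)) h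
      have h2 : ⁅(g : G), b₂⁆ = 1 := congrArg (fun z : μ × μ => (z.2 : G)) h
      exact hgen g (commutatorElement_eq_one_iff_mul_comm.mp h1)
        (commutatorElement_eq_one_iff_mul_comm.mp h2)
    · intro h
      apply Prod.ext <;> apply Subtype.ext
      · exact commutatorElement_eq_one_iff_mul_comm.mpr (hcen _ h b₁)
      · exact commutatorElement_eq_one_iff_mul_comm.mpr (hcen _ h b₂)
  have hK4 : A.relIndex φ.ker ∣ 4 := by
    show (A.subgroupOf φ.ker).index ∣ 4
    rw [← hker, index_ker]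
    refine (card_subgroup_dvd_card ψ.range).trans ?_
    rw [Nat.card_prod]
    exact Nat.mul_dvd_mul hμcard hμcard
  rw [← relIndex_mul_index hAK]
  exact Nat.mul_dvd_mul hK4 hK6

end Cfsg.Agent.Lib.Helper92HupN2
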