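import Cfsg.Agent.S0519
import Cfsg.Agent.S0016
import Cfsg.Agent.S0126
import Cfsg.Agent.Lib.Helper92AschSq

set_option autoImplicit false

namespace Cfsg.Agent.Lib.Helper92Imprim

open Cfsg.Agent.Lib

/-- from a normal subgroup of exponent `p` and order `> p`: a central `z` of order `p` and `e` of
order `p` outside `⟨z⟩`, central modulo `⟨z⟩`. -/
theorem exists_pair {G : Type*} [Group G] [Finite G] {p : ℕ} [hp : Fact p.Prime]
    (hG : IsPGroup p G) (N : Subgroup G) [hN : N.Normal] (hexp : ∀ a ∈ N, a ^ p = 1)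
    (hcard : p < Nat.card N) :
    ∃ z e : G, z ∈ Subgroup.center G ∧ z ≠ 1 ∧ z ^ p = 1 ∧ e ^ p = 1 ∧ e ∉ Subgroup.zpowers z ∧
      ∀ g : G, ∃ c : ℕ, g * e * g⁻¹ = e * z ^ c := by
  have hpp := hp.out
  have hNne : N ≠ ⊥ := by
    rintro rfl
    rw [Subgroup.card_bot] at hcard
    exact absurd hcard (by have := hpp.one_lt; omega)
  obtain ⟨z, hzN, hzZ, hz1, hzp⟩ := Helper3PGroup.exists_central_order_p hG N hNne
  set Z₁ := Subgroup.zpowers z with hZ₁
  have hZ₁Z : Z₁ ≤ Subgroup.center G := by rw [hZ₁, Subgroup.zpowers_le]; exact hzZ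
  have hZ₁n : Z₁.Normal := Helper3RankTwo.normal_of_le_center hZ₁Z
  have hZ₁c : Nat.card Z₁ = p := Helper3RankTwo.card_zpowers_of_order_p hpp hz1 hzp
  have hmapne : N.map (QuotientGroup.mk' Z₁) ≠ ⊥ := by
    intro h
    have hle : N ≤ Z₁ := by
      intro c hc
      have h1 : QuotientGroup.mk' Z₁ c ∈ N.map (QuotientGroup.mk' Z₁) := ⟨c, hc, rfl⟩
      rw [h, Subgroup.mem_bot, QuotientGroup.mk'_apply, QuotientGroup.eq_one_iff] at h1
      exact h1
    have := Subgroup.card_le_of_le hle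
    omega
  have : (N.map (QuotientGroup.mk' Z₁)).Normal :=
    Subgroup.Normal.map inferInstance _ (QuotientGroup.mk'_surjective Z₁)
  obtain ⟨w, hwN, hwZ, hw1, hwp⟩ := Helper3PGroup.exists_central_order_p (hG.to_quotient Z₁)
    (N.map (QuotientGroup.mk' Z₁)) hmapne
  obtain ⟨e, heN, hew⟩ := hwN
  refine ⟨z, e, hzZ, hz1, hzp, hexp e heN, ?_, ?_⟩
  · intro he
    apply hw1
    rw [← hew]
    exact (QuotientGroup.eq_one_iff e).mpr he
  · intro g
    have h1 : QuotientGroup.mk' Z₁ (g * e * g⁻¹) = QuotientGroup.mk' Z₁ e := by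
      rw [map_mul, map_mul, map_inv, hew]
      have := Subgroup.mem_center_iff.mp hwZ (QuotientGroup.mk' Z₁ g)
      rw [this]
      group
    have h2 : e⁻¹ * (g * e * g⁻¹) ∈ Z₁ := QuotientGroup.eq.mp h1.symm
    obtain ⟨c, hc⟩ := mem_powers_iff_mem_zpowers.mpr h2
    refine ⟨c, ?_⟩
    have hc' : z ^ c = e⁻¹ * (g * e * g⁻¹) := hc
    rw [hc']
    group

/-- two commuting elements of order `p` generating a noncyclic group -/
theorem exists_abelian_noncyclic {G : Type*} [Group G] [Finite G] {p : ℕ} [hp : Fact p.Prime]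
    (u z : G) (hcomm : u * z = z * u) (hz1 : z ≠ 1) (hzp : z ^ p = 1) (hup : u ^ p = 1)
    (hu : u ∉ Subgroup.zpowers z) : ∃ B : Subgroup G, IsMulCommutative B ∧ ¬ IsCyclic B := by
  have hpp := hp.out
  set B := Subgroup.closure ({u, z} : Set G) with hB
  have hBc : IsMulCommutative B := by
    apply Subgroup.isMulCommutative_closure
    intro x hx y hy
    rcases hx with rfl | rfl <;> rcases hy with rfl | rfl <;> first | rfl | exact hcomm | exact hcomm.symm
  have hcm : ∀ x ∈ B, ∀ y ∈ B, x * y = y * x := by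
    intro x hx y hy
    have := hBc.is_comm.comm (⟨x, hx⟩ : B) ⟨y, hy⟩
    exact congrArg Subtype.val this
  have hexp : ∀ b ∈ B, b ^ p = 1 := by
    intro b hb
    induction hb using Subgroup.closure_induction with
    | mem x hx => rcases hx with rfl | rfl <;> assumption
    | one => simp
    | mul x y hx hy ihx ihy =>
      have : Commute x y := hcm x hx y hy
      rw [this.mul_pow, ihx, ihy, one_mul]
    | inv x hx ih => rw [inv_pow, ih, inv_one]
  refine ⟨B, hBc, ?_⟩
  intro hc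
  obtain ⟨g, hg⟩ := hc.exists_generator
  have h1 := orderOf_eq_card_of_forall_mem_zpowers hg
  have h2 : g ^ p = 1 := Subtype.ext (hexp g g.2)
  have h3 := orderOf_dvd_of_pow_eq_one h2
  rw [h1] at h3
  have h4 := Nat.le_of_dvd hpp.pos h3
  have hzB : Subgroup.zpowers z ≤ B := by
    rw [Subgroup.zpowers_le]
    exact Subgroup.subset_closure (by simp)
  have huB : u ∈ B := Subgroup.subset_closure (by simp)
  have h5 : Nat.card (Subgroup.zpowers z) = p := Helper3RankTwo.card_zpowers_of_order_p hpp hz1 hzp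
  have h6 : Subgroup.zpowers z = B := Subgroup.eq_of_le_of_card_ge hzB (by rw [h5]; exact h4)
  exact hu (h6 ▸ huB)

theorem exists_pair_of_not {G : Type*} [Group G] [Finite G] (p : ℕ) [hp : Fact p.Prime]
    (hG : IsPGroup p G) (hnc : ¬ IsCyclic G) (hnq : ∀ n : ℕ, ¬ Nonempty (G ≃* QuaternionGroup n))
    (hnd : ∀ n : ℕ, ¬ Nonempty (G ≃* DihedralGroup n)) (hnsd : ¬ Cfsg.IsQuasiDihedral G) :
    ∃ z e : G, z ∈ Subgroup.center G ∧ z ≠ 1 ∧ z ^ p = 1 ∧ e ^ p = 1 ∧ e ∉ Subgroup.zpowers z ∧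
      ∀ g : G, ∃ c : ℕ, g * e * g⁻¹ = e * z ^ c := by
  have hpp := hp.out
  by_cases h1 : ∃ A : Subgroup G, A.Normal ∧ (∀ a ∈ A, a ^ p = 1) ∧ p < Nat.card A
  · obtain ⟨A, hAn, hAe, hAc⟩ := h1
    exact exists_pair hG A hAe hAc
  exfalso
  push Not at h1
  by_cases hp2 : p = 2
  · subst hp2
    have hn : ∀ A : Subgroup G, A.Normal → IsMulCommutative A → IsCyclic A := by
      intro A hAn hAc
      by_contra hcy
      obtain ⟨V, hVn, _, hVc, hVe⟩ :=
        Helper76FourGroup.normal_four_of_noncyclic_normal_abelian hG A hAc hcy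
      have := h1 V hVn hVe
      omega
    by_cases hm : ∃ B : Subgroup G, IsMulCommutative B ∧ ¬ IsCyclic B
    · obtain ⟨_, h | h | h⟩ := Cfsg.Agent.S0519.result 2 hG hn hm
      · obtain ⟨n, hn'⟩ := h
        exact hnq n hn'
      · obtain ⟨n, _, hn'⟩ := h
        exact hnd n hn'
      · exact hnsd h
    · have hGne : (⊤ : Subgroup G) ≠ ⊥ := by
        intro h
        apply hnc
        have : Subsingleton G := Subgroup.subsingleton_iff.mp ⟨fun a b => by
          have ha : a = ⊥ := le_bot_iff.mp (h ▸ le_top)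
          have hb : b = ⊥ := le_bot_iff.mp (h ▸ le_top)
          rw [ha, hb]⟩
        infer_instance
      obtain ⟨z, _, hzZ, hz1, hzp⟩ := Helper3PGroup.exists_central_order_p hG ⊤ hGne
      have hZc : Nat.card (Subgroup.zpowers z) = 2 :=
        Helper3RankTwo.card_zpowers_of_order_p hpp hz1 hzp
      have key : ∀ L : Subgroup G, Nat.card L = 2 → L = Subgroup.zpowers z := by
        intro L hL
        by_contra hne
        have : ¬ L ≤ Subgroup.zpowers z := by
          intro hle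
          exact hne (Subgroup.eq_of_le_of_card_ge hle (by rw [hL, hZc]))
        obtain ⟨u, huL, huz⟩ := SetLike.not_le_iff_exists.mp this
        have hu2 : u ^ 2 = 1 := by
          have := pow_card_eq_one' (G := L) (x := ⟨u, huL⟩)
          rw [hL] at this
          exact congrArg Subtype.val this
        exact hm (exists_abelian_noncyclic u z (Subgroup.mem_center_iff.mp hzZ u) hz1 hzp hu2 huz)
      rcases Cfsg.Agent.S0016.result 2 hG (fun H K hH hK => by rw [key H hH, key K hK]) with h | h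
      · exact hnc h
      · obtain ⟨_, n, hn'⟩ := h
        exact hnq _ hn'
  · obtain ⟨A, hAn, hAe, hAc⟩ := Cfsg.Agent.S0126.result hp2 hG hnc
    have := h1 A hAn hAe.2
    rw [hAc] at this
    have h2 := hpp.two_le
    nlinarith

section lin

variable {q : ℕ} [Fact q.Prime] {V : Type*} [AddCommGroup V] [Module (ZMod q) V]
  {G : Type*} [Group G] (ρ : G →* (V ≃ₗ[ZMod q] V))

/-- the fixed space of an element -/
def fixS (x : G) : Submodule (ZMod q) V where
  carrier := {v | ρ x v = v}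
  add_mem' := by
    intro a b ha hb
    simp only [Set.mem_ofPred_eq] at *
    rw [map_add, ha, hb]
  zero_mem' := by simp
  smul_mem' := by
    intro c v hv
    simp only [Set.mem_ofPred_eq] at *
    rw [map_smul, hv]

lemma mem_fixS {x : G} {v : V} : v ∈ fixS ρ x ↔ ρ x v = v := Iff.rfl

/-- the norm operator `1 + x + ... + x^(p-1)` -/
def nrmL (p : ℕ) (x : G) : V →ₗ[ZMod q] V :=
  ∑ k ∈ Finset.range p, (ρ (x ^ k) : V →ₗ[ZMod q] V)

lemma nrmL_apply (p : ℕ) (x : G) (v : V) :
    nrmL ρ p x v = ∑ k ∈ Finset.range p, ρ (x ^ k) v := by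
  simp [nrmL, LinearMap.sum_apply]

lemma rho_mul_apply (a b : G) (v : V) : ρ (a * b) v = ρ a (ρ b v) := by
  rw [map_mul]; rfl

lemma nrmL_mem {p : ℕ} {x : G} (hx : x ^ p = 1) (v : V) : nrmL ρ p x v ∈ fixS ρ x := by
  rw [mem_fixS, nrmL_apply, map_sum]
  have h1 : ∀ k, ρ x (ρ (x ^ k) v) = ρ (x ^ (k + 1)) v := by
    intro k
    rw [← rho_mul_apply, pow_succ']
  simp only [h1]
  have h2 := Finset.sum_range_succ' (fun k => ρ (x ^ k) v) p
  have h3 := Finset.sum_range_succ (fun k => ρ (x ^ k) v) p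
  rw [h3] at h2
  simp only [hx, pow_zero] at h2
  exact (add_right_cancel h2).symm

lemma rho_pow_of_mem {x : G} {v : V} (hv : v ∈ fixS ρ x) (k : ℕ) : ρ (x ^ k) v = v := by
  induction k with
  | zero => simp
  | succ k ih => rw [pow_succ, rho_mul_apply, (mem_fixS ρ).mp hv, ih]

lemma nrmL_of_mem (p : ℕ) {x : G} {v : V} (hv : v ∈ fixS ρ x) : nrmL ρ p x v = p • v := by
  rw [nrmL_apply, Finset.sum_congr rfl (fun k _ => rho_pow_of_mem ρ hv k)]
  simp

lemma map_fixS (g x : G) :
    (fixS ρ x).map (ρ g : V →ₗ[ZMod q] V) = fixS ρ (g * x * g⁻¹) := by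
  ext v
  constructor
  · rintro ⟨w, hw, rfl⟩
    have hw' : ρ x w = w := hw
    show ρ (g * x * g⁻¹) (ρ g w) = ρ g w
    rw [← rho_mul_apply, inv_mul_cancel_right, rho_mul_apply, hw']
  · intro hv
    have hv' : ρ (g * x * g⁻¹) v = v := hv
    refine ⟨ρ g⁻¹ v, ?_, ?_⟩
    · show ρ x (ρ g⁻¹ v) = ρ g⁻¹ v
      conv_rhs => rw [← hv']
      rw [← rho_mul_apply, ← rho_mul_apply]
      congr 2
      group
    · show ρ g (ρ g⁻¹ v) = v
      rw [← rho_mul_apply, mul_inv_cancel, map_one]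
      rfl

lemma fixS_central (hρ : Function.Injective ρ)
    (hirr : ∀ W : Submodule (ZMod q) V, (∀ g : G, ∀ w ∈ W, ρ g w ∈ W) → W = ⊥ ∨ W = ⊤)
    {z : G} (hz : z ∈ Subgroup.center G) (hz1 : z ≠ 1) : fixS ρ z = ⊥ := by
  rcases hirr (fixS ρ z) (by
    intro g w hw
    rw [mem_fixS] at hw ⊢
    rw [← rho_mul_apply, ← Subgroup.mem_center_iff.mp hz g, rho_mul_apply, hw]) with h | h
  · exact h
  · exfalso
    apply hz1
    apply hρ
    rw [map_one]
    ext v
    have : v ∈ fixS ρ z := by rw [h]; trivial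
    exact this

theorem imprimitive [Nontrivial V] [Finite G] (p : ℕ) [hp : Fact p.Prime] (hpq : p ≠ q)
    (hG : IsPGroup p G) (hρ : Function.Injective ρ)
    (hirr : ∀ W : Submodule (ZMod q) V, (∀ g : G, ∀ w ∈ W, ρ g w ∈ W) → W = ⊥ ∨ W = ⊤)
    (z e : G) (hzZ : z ∈ Subgroup.center G) (hz1 : z ≠ 1) (hzp : z ^ p = 1) (hep : e ^ p = 1)
    (hez : e ∉ Subgroup.zpowers z) (hconj : ∀ g : G, ∃ c : ℕ, g * e * g⁻¹ = e * z ^ c) :
    ∃ (H : Subgroup G) (W : Fin p → Submodule (ZMod q) V), H.index = p ∧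
      iSup W = ⊤ ∧ iSupIndep W ∧
      (∀ h ∈ H, ∀ i, ∀ w ∈ W i, ρ h w ∈ W i) ∧
      (∀ i, ∃ h ∈ H, h ≠ 1 ∧ ∀ w ∈ W i, ρ h w = w) ∧
      ∀ g : G, g ∉ H → ∃ σ : Equiv.Perm (Fin p), orderOf σ = p ∧
        ∀ i, (W i).map (ρ g : V →ₗ[ZMod q] V) = W (σ i) := by
  have hpp := hp.out
  have hq : (q : ℕ).Prime := Fact.out
  have hzc : ∀ g : G, g * z = z * g := fun g => Subgroup.mem_center_iff.mp hzZ g
  have hord : orderOf z = p := orderOf_eq_prime hzp hz1
  have hp0 : ((p : ℕ) : ZMod q) ≠ 0 := by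
    intro h
    rw [ZMod.natCast_eq_zero_iff] at h
    exact hpq ((Nat.prime_dvd_prime_iff_eq hq hpp).mp h).symm
  have hzk1 : ∀ k, 0 < k → k < p → z ^ k ≠ 1 := by
    intro k h0 hk
    exact pow_ne_one_of_lt_orderOf h0.ne' (by rw [hord]; exact hk)
  have hzkZ : ∀ k, z ^ k ∈ Subgroup.center G := fun k => Subgroup.pow_mem _ hzZ k
  have hfix0 : ∀ k, 0 < k → k < p → fixS ρ (z ^ k) = ⊥ := fun k h0 hk =>
    fixS_central ρ hρ hirr (hzkZ k) (hzk1 k h0 hk)
  have hcez : ∀ i, Commute e (z ^ i) := fun i => (Subgroup.mem_center_iff.mp (hzkZ i) e)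
  let x : ℕ → G := fun i => e * z ^ i
  have hxp : ∀ i, x i ^ p = 1 := by
    intro i
    show (e * z ^ i) ^ p = 1
    rw [(hcez i).mul_pow, hep, ← pow_mul, mul_comm, pow_mul, hzp, one_pow, one_mul]
  have hx1 : ∀ i, x i ≠ 1 := by
    intro i h
    apply hez
    have : e = (z ^ i)⁻¹ := eq_inv_of_mul_eq_one_left h
    rw [this]
    exact Subgroup.inv_mem _ (Subgroup.pow_mem _ (Subgroup.mem_zpowers z) i)
  have hS0 : ∀ k, 0 < k → k < p → ∀ v, nrmL ρ p (z ^ k) v = 0 := by
    intro k h0 hk v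
    have h1 := nrmL_mem ρ (x := z ^ k) (p := p) (by rw [← pow_mul, mul_comm, pow_mul, hzp, one_pow]) v
    rw [hfix0 k h0 hk] at h1
    exact (Submodule.mem_bot _).mp h1
  have hsum : ∀ v, ∑ i ∈ Finset.range p, nrmL ρ p (x i) v = p • v := by
    intro v
    simp only [nrmL_apply]
    rw [Finset.sum_comm]
    have h1 : ∀ k ∈ Finset.range p, ∑ i ∈ Finset.range p, ρ (x i ^ k) v =
        ρ (e ^ k) (nrmL ρ p (z ^ k) v) := by
      intro k _
      rw [nrmL_apply, map_sum]
      apply Finset.sum_congr rfl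
      intro i _
      rw [← rho_mul_apply]
      congr 2
      show (e * z ^ i) ^ k = _
      rw [(hcez i).mul_pow, ← pow_mul, ← pow_mul, mul_comm i k]
    rw [Finset.sum_congr rfl h1, Finset.sum_eq_single 0]
    · rw [pow_zero, pow_zero, map_one, nrmL_apply]
      simp
    · intro k hk hk0
      rw [hS0 k (Nat.pos_of_ne_zero hk0) (Finset.mem_range.mp hk), map_zero]
    · intro h
      exact absurd (Finset.mem_range.mpr hpp.pos) h
  let W : Fin p → Submodule (ZMod q) V := fun i => fixS ρ (x i)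
  have hsup : iSup W = ⊤ := by
    rw [eq_top_iff]
    intro v _
    have h1 : v = ((p : ZMod q))⁻¹ • ∑ i ∈ Finset.range p, nrmL ρ p (x i) v := by
      rw [hsum, ← Nat.cast_smul_eq_nsmul (ZMod q), smul_smul, inv_mul_cancel₀ hp0, one_smul]
    rw [h1, Finset.sum_range]
    apply Submodule.smul_mem
    apply Submodule.sum_mem
    intro i _
    exact Submodule.mem_iSup_of_mem i (nrmL_mem ρ (hxp i) v)
  have hdisj : ∀ i j : ℕ, i < j → j < p → fixS ρ (x i) ⊓ fixS ρ (x j) = ⊥ := by
    intro i j hij hj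
    rw [eq_bot_iff]
    intro w hw
    have hwi : ρ (x i) w = w := hw.1
    have hwj : ρ (x j) w = w := hw.2
    have h1 : x j = z ^ (j - i) * x i := by
      show e * z ^ j = z ^ (j - i) * (e * z ^ i)
      rw [← mul_assoc, ← (hcez (j - i)).eq, mul_assoc, ← pow_add]
      congr 2
      omega
    rw [h1, rho_mul_apply, hwi] at hwj
    have h2 : w ∈ fixS ρ (z ^ (j - i)) := hwj
    rw [hfix0 (j - i) (by omega) (by omega)] at h2
    exact h2
  have hdisj' : ∀ i j : ℕ, i ≠ j → i < p → j < p → fixS ρ (x i) ⊓ fixS ρ (x j) = ⊥ := by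
    intro i j hij hi hj
    rcases Nat.lt_or_gt_of_ne hij with h | h
    · exact hdisj i j h hj
    · rw [inf_comm]; exact hdisj j i h hi
  have hcx : ∀ i j, Commute (x j) (x i) := by
    intro i j
    have h1 : Commute e (x i) := (Commute.refl e).mul_right (hcez i)
    have h2 : Commute (z ^ j) (x i) := (Subgroup.mem_center_iff.mp (hzkZ j) (x i)).symm
    exact h1.mul_left h2
  have hker : ∀ i j : ℕ, i ≠ j → i < p → j < p → ∀ v ∈ fixS ρ (x j), nrmL ρ p (x i) v = 0 := by
    intro i j hij hi hj v hv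
    have h1 : nrmL ρ p (x i) v ∈ fixS ρ (x i) := nrmL_mem ρ (hxp i) v
    have h2 : nrmL ρ p (x i) v ∈ fixS ρ (x j) := by
      rw [mem_fixS, nrmL_apply, map_sum]
      apply Finset.sum_congr rfl
      intro k _
      rw [← rho_mul_apply, ((hcx i j).pow_right k).eq, rho_mul_apply, (mem_fixS ρ).mp hv]
    have h3 : nrmL ρ p (x i) v ∈ fixS ρ (x i) ⊓ fixS ρ (x j) := ⟨h1, h2⟩
    rw [hdisj' i j hij hi hj] at h3
    exact (Submodule.mem_bot _).mp h3
  have hind : iSupIndep W := by
    rw [iSupIndep_def]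
    intro i
    rw [Submodule.disjoint_def]
    intro v hv1 hv2
    have h1 : (⨆ (j) (_ : j ≠ i), W j) ≤ LinearMap.ker (nrmL ρ p (x i)) := by
      apply iSup₂_le
      intro j hj w hw
      rw [LinearMap.mem_ker]
      exact hker i j (fun h => hj (Fin.ext h.symm)) i.2 j.2 w hw
    have h2 := LinearMap.mem_ker.mp (h1 hv2)
    rw [nrmL_of_mem ρ p hv1, ← Nat.cast_smul_eq_nsmul (ZMod q)] at h2
    exact (smul_eq_zero.mp h2).resolve_left hp0
  have hne : e ∉ Subgroup.center G := by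
    intro he
    have h1 : ∀ i, W i = ⊥ := fun i =>
      fixS_central ρ hρ hirr (Subgroup.mul_mem _ he (hzkZ i)) (hx1 i)
    have h2 : iSup W = ⊥ := by simp [h1]
    rw [hsup] at h2
    exact top_ne_bot h2
  obtain ⟨g₀, hg₀⟩ : ∃ g₀ : G, g₀ * e ≠ e * g₀ := by
    by_contra h
    push Not at h
    exact hne (Subgroup.mem_center_iff.mpr h)
  have hidx : (Subgroup.centralizer ({e} : Set G)).index = p := by
    have hYc : Subgroup.zpowers z ≤ Subgroup.center G := by
      rw [Subgroup.zpowers_le]; exact hzZ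
    have hY : Nat.card (Subgroup.zpowers z) = p := by rw [Nat.card_zpowers, hord]
    have h1 := (Helper92AschSq.step (Subgroup.zpowers z) hYc p hpp hY ⊤ e (by
      intro g _
      obtain ⟨c, hc⟩ := hconj g
      rw [commutatorElement_def, hc, (hcez c).eq, mul_inv_cancel_right]
      exact Subgroup.pow_mem _ (Subgroup.mem_zpowers z) c) g₀ (Subgroup.mem_top _) (by
      intro h
      exact hg₀ (commutatorElement_eq_one_iff_mul_comm.mp h))).1
    rw [top_inf_eq, Subgroup.card_top] at h1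
    have h2 := (Subgroup.centralizer ({e} : Set G)).card_mul_index
    rw [h1] at h2
    exact Nat.eq_of_mul_eq_mul_left Nat.card_pos h2
  refine ⟨Subgroup.centralizer ({e} : Set G), W, hidx, hsup, hind, ?_, ?_, ?_⟩
  · intro h hh i w hw
    have hhe : h * e = e * h := Subgroup.mem_centralizer_singleton_iff.mp hh
    have h1 : Commute h (x i) :=
      (show Commute h e from hhe).mul_right (Subgroup.mem_center_iff.mp (hzkZ i) h)
    show ρ (x i) (ρ h w) = ρ h w
    rw [← rho_mul_apply, ← h1.eq, rho_mul_apply, (mem_fixS ρ).mp hw]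
  · intro i
    refine ⟨x i, ?_, hx1 i, fun w hw => hw⟩
    rw [Subgroup.mem_centralizer_singleton_iff]
    exact ((Commute.refl e).mul_right (hcez i)).symm.eq
  · intro g hg
    obtain ⟨c, hc⟩ := hconj g
    have hcp : z ^ (c % p) = z ^ c := by rw [← hord]; exact pow_mod_orderOf z c
    have hc0 : c % p ≠ 0 := by
      intro h0
      apply hg
      rw [Subgroup.mem_centralizer_singleton_iff]
      rw [← hcp, h0, pow_zero, mul_one] at hc
      conv_rhs => rw [← hc]
      group
    have : NeZero p := ⟨hpp.ne_zero⟩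
    let c' : Fin p := ⟨c % p, Nat.mod_lt _ hpp.pos⟩
    let σ : Equiv.Perm (Fin p) := Equiv.addRight c'
    have hσk : ∀ (k : ℕ) (i : Fin p), (σ ^ k) i = i + k • c' := by
      intro k
      induction k with
      | zero => intro i; simp
      | succ k ih =>
        intro i
        rw [pow_succ, Equiv.Perm.mul_apply, ih]
        show i + c' + k • c' = _
        rw [succ_nsmul]; abel
    refine ⟨σ, ?_, ?_⟩
    · apply orderOf_eq_prime
      · ext i
        rw [hσk]
        have : p • c' = 0 := by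
          have := card_nsmul_eq_zero (G := Fin p) (x := c')
          rwa [Fintype.card_fin] at this
        rw [this]; simp
      · intro h
        have h1 : σ 0 = 0 := by rw [h]; rfl
        have h2 : (0 : Fin p) + c' = 0 := h1
        rw [zero_add] at h2
        exact hc0 (congrArg Fin.val h2)
    · intro i
      rw [map_fixS]
      show fixS ρ (g * (e * z ^ (i : ℕ)) * g⁻¹) = fixS ρ (e * z ^ ((i + c' : Fin p) : ℕ))
      congr 1
      rw [Fin.val_add]
      have h1 : z ^ (((i : ℕ) + (c' : ℕ)) % p) = z ^ ((i : ℕ) + (c' : ℕ)) := by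
        have := pow_mod_orderOf z ((i : ℕ) + (c' : ℕ))
        rwa [hord] at this
      rw [h1, pow_add]
      show _ = e * (z ^ (i : ℕ) * z ^ (c % p))
      rw [hcp]
      have h2 : g * (e * z ^ (i : ℕ)) * g⁻¹ = (g * e * g⁻¹) * (g * z ^ (i : ℕ) * g⁻¹) := by group
      have h3 : g * z ^ (i : ℕ) * g⁻¹ = z ^ (i : ℕ) := by
        rw [Subgroup.mem_center_iff.mp (hzkZ i) g, mul_inv_cancel_right]
      rw [h2, h3, hc, mul_assoc, ← pow_add, ← pow_add, add_comm]

end lin

end Cfsg.Agent.Lib.Helper92Imprim
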