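import Cfsg.Agent.Lib.Helper92ES

set_option autoImplicit false

namespace Cfsg.Agent.Lib.Helper92Pair

open Cfsg Cfsg.Agent.Lib.Helper92Basic Cfsg.Agent.Lib.Helper92ES

variable {G : Type*} [Group G]

/-- Elements normalizing `E` whose commutators with all of `T` lie in `E`. -/
def commSub (E T : Subgroup G) : Subgroup G where
  carrier := {x | x ∈ Subgroup.normalizer (E : Set G) ∧ ∀ y ∈ T, x * y * x⁻¹ * y⁻¹ ∈ E}
  one_mem' := ⟨Subgroup.one_mem _, fun y _ => by simp⟩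
  mul_mem' := by
    rintro x x' ⟨hx, hxT⟩ ⟨hx', hxT'⟩
    refine ⟨Subgroup.mul_mem _ hx hx', fun y hy => ?_⟩
    have e : x * x' * y * (x * x')⁻¹ * y⁻¹ = (x * (x' * y * x'⁻¹ * y⁻¹) * x⁻¹) * (x * y * x⁻¹ * y⁻¹) := by
      group
    rw [e]
    exact E.mul_mem ((Subgroup.mem_normalizer_iff.mp hx _).mp (hxT' y hy)) (hxT y hy)
  inv_mem' := by
    rintro x ⟨hx, hxT⟩
    refine ⟨Subgroup.inv_mem _ hx, fun y hy => ?_⟩
    have e : x⁻¹ * y * x⁻¹⁻¹ * y⁻¹ = x⁻¹ * (x * y * x⁻¹ * y⁻¹)⁻¹ * x⁻¹⁻¹ := by group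
    rw [e]
    exact (Subgroup.mem_normalizer_iff.mp (Subgroup.inv_mem _ hx) _).mp (E.inv_mem (hxT y hy))

theorem mem_commSub {E T : Subgroup G} {x : G} :
    x ∈ commSub E T ↔ x ∈ Subgroup.normalizer (E : Set G) ∧ ∀ y ∈ T, x * y * x⁻¹ * y⁻¹ ∈ E :=
  Iff.rfl

theorem comm_symm_mem {E : Subgroup G} {x y : G} (h : x * y * x⁻¹ * y⁻¹ ∈ E) :
    y * x * y⁻¹ * x⁻¹ ∈ E := by
  have : y * x * y⁻¹ * x⁻¹ = (x * y * x⁻¹ * y⁻¹)⁻¹ := by group
  rw [this]; exact E.inv_mem h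

/-- Two subgroups that are elementary abelian modulo `E` and commute modulo `E` generate a subgroup that is
elementary abelian modulo `E`. -/
theorem elemAb_of_gens (A B E : Subgroup G) (hA : A ≤ Subgroup.normalizer (E : Set G))
    (hB : B ≤ Subgroup.normalizer (E : Set G))
    (hAA : ∀ x ∈ A, ∀ y ∈ A, x * y * x⁻¹ * y⁻¹ ∈ E) (hBB : ∀ x ∈ B, ∀ y ∈ B, x * y * x⁻¹ * y⁻¹ ∈ E)
    (hAB : ∀ x ∈ A, ∀ y ∈ B, x * y * x⁻¹ * y⁻¹ ∈ E) (hA2 : ∀ x ∈ A, x * x ∈ E)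
    (hB2 : ∀ x ∈ B, x * x ∈ E) :
    ∀ x ∈ A ⊔ B, ∀ y ∈ A ⊔ B, x * y * x⁻¹ * y⁻¹ ∈ E ∧ x * x ∈ E := by
  have h1 : A ⊔ B ≤ commSub E A :=
    sup_le (fun x hx => ⟨hA hx, hAA x hx⟩) (fun x hx => ⟨hB hx, fun y hy => comm_symm_mem (hAB y hy x hx)⟩)
  have h2 : A ⊔ B ≤ commSub E B :=
    sup_le (fun x hx => ⟨hA hx, hAB x hx⟩) (fun x hx => ⟨hB hx, hBB x hx⟩)
  have h3 : A ⊔ B ≤ commSub E (A ⊔ B) :=
    sup_le (fun x hx => ⟨hA hx, fun y hy => comm_symm_mem ((h1 hy).2 x hx)⟩)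
      (fun x hx => ⟨hB hx, fun y hy => comm_symm_mem ((h2 hy).2 x hx)⟩)
  let S : Subgroup G :=
    { carrier := {x | x ∈ A ⊔ B ∧ x * x ∈ E}
      one_mem' := ⟨Subgroup.one_mem _, by simp⟩
      mul_mem' := by
        rintro x y ⟨hx, hx2⟩ ⟨hy, hy2⟩
        refine ⟨Subgroup.mul_mem _ hx hy, ?_⟩
        have e : x * y * (x * y) = (x * x) * (x⁻¹ * y * x⁻¹⁻¹ * y⁻¹) * (y * y) := by group
        rw [e]
        exact E.mul_mem (E.mul_mem hx2 ((h3 (Subgroup.inv_mem _ hx)).2 y hy)) hy2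
      inv_mem' := by
        rintro x ⟨hx, hx2⟩
        refine ⟨Subgroup.inv_mem _ hx, ?_⟩
        have e : x⁻¹ * x⁻¹ = (x * x)⁻¹ := by group
        rw [e]; exact E.inv_mem hx2 }
  have h4 : A ⊔ B ≤ S :=
    sup_le (fun x hx => ⟨(le_sup_left : A ≤ A ⊔ B) hx, hA2 x hx⟩)
      (fun x hx => ⟨(le_sup_right : B ≤ A ⊔ B) hx, hB2 x hx⟩)
  intro x hx y hy
  exact ⟨(h3 hx).2 y hy, (h4 hx).2⟩

/-- Every element of `Q` centralizes `b` or differs from a fixed non-centralizing element by one which does. -/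
theorem ES.coset_cases {Q : Subgroup G} {z : G} (h : ES Q z) {b q₀ q : G} (hb : b ∈ Q) (hq₀ : q₀ ∈ Q)
    (hq₀b : q₀ * b * q₀⁻¹ = b * z) (hq : q ∈ Q) :
    q * b = b * q ∨ (q₀⁻¹ * q) * b = b * (q₀⁻¹ * q) := by
  by_cases hqb : q * b = b * q
  · exact Or.inl hqb
  · right
    have e3 : q * b * q⁻¹ = b * z := h.conj_eq_of_not_comm hq hb hqb
    have : b = q₀⁻¹ * (b * z) * q₀ := by rw [← hq₀b]; group
    calc (q₀⁻¹ * q) * b = q₀⁻¹ * (q * b * q⁻¹) * q := by group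
      _ = (q₀⁻¹ * (b * z) * q₀) * (q₀⁻¹ * q) := by rw [e3]; group
      _ = b * (q₀⁻¹ * q) := by rw [← this]

/-- An element of `C(z)` centralizing `C_Q(b)`, for a non-central involution `b` of `Q`, lies in `⟨z, b⟩`. -/
theorem ES.cent_cent {Q : Subgroup G} {z : G} (h : ES Q z) {b c : G} (hb : b ∈ Q) (hb1 : b ≠ 1)
    (hbz : b ≠ z) (hbb : b * b = 1) (hcz : c * z = z * c)
    (hc : ∀ p ∈ Q, p * b = b * p → c * p = p * c) : c = 1 ∨ c = z ∨ c = b ∨ c = b * z := by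
  obtain ⟨q₀, hq₀, hq₀b⟩ := h.exists_conj hb hb1 hbz
  have hbinv : b⁻¹ = b := inv_eq_of_mul_eq_one_left hbb
  have hzb : z * b = b * z := (h.zc b hb).symm
  have hq₁ : c * q₀ * c⁻¹ ∈ Q := h.norm c hcz q₀ hq₀
  -- `d = q₀⁻¹ * (c q₀ c⁻¹)` centralizes `C_Q(b)`
  have hdQ : q₀⁻¹ * (c * q₀ * c⁻¹) ∈ Q := Q.mul_mem (Q.inv_mem hq₀) hq₁
  have hd := h.double_cent hb hdQ (fun p hp hpb => by
    have hp' : q₀ * p * q₀⁻¹ ∈ Q := Q.mul_mem (Q.mul_mem hq₀ hp) (Q.inv_mem hq₀)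
    have hp'b : (q₀ * p * q₀⁻¹) * b = b * (q₀ * p * q₀⁻¹) := by
      rcases h.conj_cases hq₀ hp with e | e
      · rw [e]; exact hpb
      · rw [e]
        calc p * z * b = p * (z * b) := by group
          _ = (p * b) * z := by rw [hzb]; group
          _ = b * (p * z) := by rw [hpb]; group
    have e1 := hc p hp hpb
    have e2 := hc _ hp' hp'b
    have e3 : (c * q₀ * c⁻¹) * p * (c * q₀ * c⁻¹)⁻¹ = q₀ * p * q₀⁻¹ := by
      have e1' : c⁻¹ * p * c = p := by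
        calc c⁻¹ * p * c = c⁻¹ * (p * c) := by group
          _ = p := by rw [← e1]; group
      calc (c * q₀ * c⁻¹) * p * (c * q₀ * c⁻¹)⁻¹ = c * (q₀ * (c⁻¹ * p * c) * q₀⁻¹) * c⁻¹ := by group
        _ = (c * (q₀ * p * q₀⁻¹)) * c⁻¹ := by rw [e1']
        _ = q₀ * p * q₀⁻¹ := by rw [e2]; group
    calc p * (q₀⁻¹ * (c * q₀ * c⁻¹))
        = q₀⁻¹ * (q₀ * p * q₀⁻¹) * (c * q₀ * c⁻¹) := by group
      _ = q₀⁻¹ * ((c * q₀ * c⁻¹) * p * (c * q₀ * c⁻¹)⁻¹) * (c * q₀ * c⁻¹) := by rw [e3]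
      _ = q₀⁻¹ * (c * q₀ * c⁻¹) * p := by group)
  have hsq : (c * q₀ * c⁻¹) * (c * q₀ * c⁻¹) = q₀ * q₀ := by
    have : c * (q₀ * q₀) = (q₀ * q₀) * c := by
      rcases h.sq q₀ hq₀ with e | e
      · rw [e]; simp
      · rw [e]; exact hcz
    calc (c * q₀ * c⁻¹) * (c * q₀ * c⁻¹) = (c * (q₀ * q₀)) * c⁻¹ := by group
      _ = q₀ * q₀ := by rw [this]; group
  have hq₀b' : q₀⁻¹ * b * q₀ = b * z := by
    have e : q₀⁻¹ * (b * z) * q₀ = b := by rw [← hq₀b]; group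
    have e' : q₀⁻¹ * z * q₀ = z := by
      calc q₀⁻¹ * z * q₀ = q₀⁻¹ * (z * q₀) := by group
        _ = z := by rw [← h.zc q₀ hq₀]; group
    calc q₀⁻¹ * b * q₀ = (q₀⁻¹ * (b * z) * q₀) * (q₀⁻¹ * z * q₀)⁻¹ := by group
      _ = b * z := by rw [e, e', h.zinv]
  -- conclude in each case
  have fin : ∀ c' : G, c' * z = z * c' → (∀ p ∈ Q, p * b = b * p → c' * p = p * c') →
      c' * q₀ = q₀ * c' → c' = 1 ∨ c' = z := by
    intro c' _ hc' hc'q
    apply h.cent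
    intro q hq
    rcases ES.coset_cases h hb hq₀ hq₀b hq with e | e
    · exact (hc' q hq e).symm
    · have e2 := hc' _ (Q.mul_mem (Q.inv_mem hq₀) hq) e
      calc q * c' = q₀ * ((q₀⁻¹ * q) * c') := by group
        _ = (q₀ * c') * (q₀⁻¹ * q) := by rw [← e2]; group
        _ = c' * q := by rw [← hc'q]; group
  have hcq : ∀ d : G, q₀⁻¹ * (c * q₀ * c⁻¹) = d → c * q₀ * c⁻¹ = q₀ * d := by
    intro d hd; rw [← hd]; group
  rcases hd with e | e | e | e
  · have e1 := hcq _ e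
    have : c * q₀ = q₀ * c := by
      calc c * q₀ = (c * q₀ * c⁻¹) * c := by group
        _ = q₀ * c := by rw [e1, mul_one]
    rcases fin c hcz hc this with e2 | e2
    · exact Or.inl e2
    · exact Or.inr (Or.inl e2)
  · have e1 := hcq _ e
    have hbq : b * q₀ * b⁻¹ = q₀ * z := by
      calc b * q₀ * b⁻¹ = q₀ * (q₀⁻¹ * b * q₀) * b⁻¹ := by group
        _ = q₀ * (b * z) * b⁻¹ := by rw [hq₀b']
        _ = q₀ * (z * b) * b⁻¹ := by rw [hzb]
        _ = q₀ * z := by group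
    have h1 : (b⁻¹ * c) * z = z * (b⁻¹ * c) := by
      rw [hbinv]
      calc b * c * z = b * (c * z) := by group
        _ = (b * z) * c := by rw [hcz]; group
        _ = z * (b * c) := by rw [← hzb]; group
    have h2 : ∀ p ∈ Q, p * b = b * p → (b⁻¹ * c) * p = p * (b⁻¹ * c) := by
      intro p hp hpb
      rw [hbinv]
      calc b * c * p = b * (c * p) := by group
        _ = (b * p) * c := by rw [hc p hp hpb]; group
        _ = p * (b * c) := by rw [← hpb]; group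
    have h3 : (b⁻¹ * c) * q₀ = q₀ * (b⁻¹ * c) := by
      calc (b⁻¹ * c) * q₀ = b⁻¹ * (c * q₀ * c⁻¹) * c := by group
        _ = b⁻¹ * (b * q₀ * b⁻¹) * c := by rw [e1, hbq]
        _ = q₀ * (b⁻¹ * c) := by group
    rcases fin _ h1 h2 h3 with e2 | e2
    · right; right; left
      exact (inv_mul_eq_one.mp e2).symm
    · right; right; right
      calc c = b * (b⁻¹ * c) := by group
        _ = b * z := by rw [e2]
  · exfalso
    have e1 := hcq _ e
    rw [e1] at hsq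
    have : z = 1 := by
      have e3 : q₀ * b * (q₀ * b) = (q₀ * q₀) * ((q₀⁻¹ * b * q₀) * b) := by group
      rw [e3, hq₀b'] at hsq
      have e4 : b * z * b = z := by
        calc b * z * b = b * (z * b) := by group
          _ = (b * b) * z := by rw [hzb]; group
          _ = z := by rw [hbb, one_mul]
      rw [e4] at hsq
      exact mul_eq_left.mp hsq
    exact h.z1 this
  · exfalso
    have e1 := hcq _ e
    rw [e1] at hsq
    have : z = 1 := by
      have e3 : q₀ * (b * z) * (q₀ * (b * z)) = (q₀ * q₀) * ((q₀⁻¹ * b * q₀) * (q₀⁻¹ * z * q₀) * (b * z)) := by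
        group
      have e' : q₀⁻¹ * z * q₀ = z := by
        calc q₀⁻¹ * z * q₀ = q₀⁻¹ * (z * q₀) := by group
          _ = z := by rw [← h.zc q₀ hq₀]; group
      rw [e3, hq₀b', e'] at hsq
      have e4 : b * z * z * (b * z) = z := by
        calc b * z * z * (b * z) = b * (z * z) * b * z := by group
          _ = (b * b) * z := by rw [h.zz]; group
          _ = z := by rw [hbb, one_mul]
      rw [e4] at hsq
      exact mul_eq_left.mp hsq
    exact h.z1 this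

theorem mem_closure_pair (z b : G) (hzz : z * z = 1) (hbb : b * b = 1) (hzb : z * b = b * z) :
    ∀ v, v ∈ Subgroup.closure ({z, b} : Set G) ↔ v = 1 ∨ v = z ∨ v = b ∨ v = b * z := by
  intro v
  have hz : z ∈ Subgroup.closure ({z, b} : Set G) := Subgroup.subset_closure (by simp)
  have hb : b ∈ Subgroup.closure ({z, b} : Set G) := Subgroup.subset_closure (by simp)
  constructor
  · intro hv
    have hle : Subgroup.closure ({z, b} : Set G) ≤ fourSub z b hzz hbb hzb := by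
      rw [Subgroup.closure_le]
      rintro x (rfl | rfl)
      · exact Or.inr (Or.inl rfl)
      · exact Or.inr (Or.inr (Or.inl rfl))
    exact hle hv
  · rintro (rfl | rfl | rfl | rfl)
    · exact Subgroup.one_mem _
    · exact hz
    · exact hb
    · exact Subgroup.mul_mem _ hb hz

/-- The setting of a pair of conjugate extraspecial subgroups each containing the centre of the other. -/
structure Pair (Q Qb : Subgroup G) (z b : G) : Prop where
  hQ : ES Q z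
  hQb : ES Qb b
  bQ : b ∈ Q
  zQb : z ∈ Qb
  ne : b ≠ z

namespace Pair

variable {Q Qb : Subgroup G} {z b : G}

theorem symm (h : Pair Q Qb z b) : Pair Qb Q b z := ⟨h.hQb, h.hQ, h.zQb, h.bQ, h.ne.symm⟩

theorem zb (h : Pair Q Qb z b) : z * b = b * z := (h.hQ.zc b h.bQ).symm

/-- `Q` normalizes the four-group. -/
theorem conj_mem_four (h : Pair Q Qb z b) {V : Subgroup G}
    (hV : ∀ v, v ∈ V ↔ v = 1 ∨ v = z ∨ v = b ∨ v = b * z) : Q ≤ Subgroup.normalizer (V : Set G) := by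
  have hzV : z ∈ V := (hV z).mpr (Or.inr (Or.inl rfl))
  have hbV : b ∈ V := (hV b).mpr (Or.inr (Or.inr (Or.inl rfl)))
  rw [Subgroup.le_normalizer_iff]
  intro q hq v hv
  have e1 : q * z * q⁻¹ = z := by rw [h.hQ.zc q hq]; group
  have e2 : q * b * q⁻¹ ∈ V := by
    rcases h.hQ.conj_cases hq h.bQ with e | e
    · rw [e]; exact hbV
    · rw [e]; exact V.mul_mem hbV hzV
  rcases (hV v).mp hv with rfl | rfl | rfl | rfl
  · simp
  · rw [e1]; exact hzV
  · exact e2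
  · have : q * (b * z) * q⁻¹ = (q * b * q⁻¹) * (q * z * q⁻¹) := by group
    rw [this, e1]
    exact V.mul_mem e2 hzV

end Pair

end Cfsg.Agent.Lib.Helper92Pair
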