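import Cfsg.Agent.Lib.Helper92ES
import Cfsg.Agent.Lib.Helper3PGroup

set_option autoImplicit false

namespace Cfsg.Agent.Lib.Helper92Sub

open Cfsg Cfsg.Agent.Lib.Helper92Basic Cfsg.Agent.Lib.Helper92ES Cfsg.Agent.Lib.Helper3PGroup
open scoped commutatorElement

variable {G : Type*} [Group G]

/-- A non-abelian subgroup `H` of an extraspecial 2-group `Q` whose centre is contained in
`{1, z}` is extraspecial. -/
theorem isExtraspecial_of_sub [Finite G] {Q H : Subgroup G} {z : G} (h : ES Q z)
    (hQ2 : IsPGroup 2 Q) (hHQ : H ≤ Q)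
    (hcen : ∀ c ∈ H, (∀ x ∈ H, x * c = c * x) → c = 1 ∨ c = z)
    (hnab : ∃ x ∈ H, ∃ y ∈ H, x * y ≠ y * x) : Cfsg.IsExtraspecial 2 H := by
  have : Fact (Nat.Prime 2) := ⟨Nat.prime_two⟩
  have hP : IsPGroup 2 H := hQ2.of_injective (Subgroup.inclusion hHQ) (Subgroup.inclusion_injective hHQ)
  obtain ⟨x, hx, y, hy, hxy⟩ := hnab
  have hxyz : x * y * x⁻¹ * y⁻¹ = z := by
    rcases h.comm x (hHQ hx) y (hHQ hy) with h1 | h1
    · exfalso; apply hxy
      have : x * y = (x * y * x⁻¹ * y⁻¹) * (y * x) := by group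
      rw [this, h1, one_mul]
    · exact h1
  have hzH : z ∈ H := by
    rw [← hxyz]
    exact H.mul_mem (H.mul_mem (H.mul_mem hx hy) (H.inv_mem hx)) (H.inv_mem hy)
  have hmemc : ∀ c : H, c ∈ Subgroup.center H ↔ ((c : G) = 1 ∨ (c : G) = z) := by
    intro c
    rw [Subgroup.mem_center_iff]
    constructor
    · intro hc
      apply hcen c c.2
      intro x hx
      exact congrArg Subtype.val (hc ⟨x, hx⟩)
    · rintro (h1 | h1) g
      · apply Subtype.ext; simp [h1]
      · apply Subtype.ext
        simp only [Subgroup.coe_mul, h1]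
        exact h.zc g (hHQ g.2)
  have hcard : Nat.card (Subgroup.center H) = 2 := by
    rw [Nat.card_eq_two_iff]
    refine ⟨1, ⟨⟨z, hzH⟩, (hmemc _).mpr (Or.inr rfl)⟩, ?_, ?_⟩
    · intro h1
      apply h.z1
      have := congrArg (fun t : Subgroup.center H => ((t : H) : G)) h1
      simpa using this.symm
    · ext c
      simp only [Set.mem_insert_iff, Set.mem_singleton_iff, Set.mem_univ, iff_true]
      rcases (hmemc c.1).mp c.2 with h1 | h1
      · left; apply Subtype.ext; apply Subtype.ext; simpa using h1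
      · right; apply Subtype.ext; apply Subtype.ext; simpa using h1
  have hcomm : commutator H = Subgroup.center H := by
    apply le_antisymm
    · rw [commutator_eq_closure, Subgroup.closure_le]
      rintro _ ⟨a, b, rfl⟩
      rw [SetLike.mem_coe, hmemc]
      simp only [commutatorElement_def, Subgroup.coe_mul, Subgroup.coe_inv]
      exact h.comm a (hHQ a.2) b (hHQ b.2)
    · intro c hc
      rcases (hmemc c).mp hc with h1 | h1
      · have : c = 1 := Subtype.ext (by simpa using h1)
        rw [this]; exact Subgroup.one_mem _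
      · have : c = ⁅(⟨x, hx⟩ : H), ⟨y, hy⟩⁆ := by
          apply Subtype.ext
          simp only [commutatorElement_def, Subgroup.coe_mul, Subgroup.coe_inv]
          rw [h1, hxyz]
        rw [this]
        exact Subgroup.commutator_mem_commutator (Subgroup.mem_top _) (Subgroup.mem_top _)
  refine ⟨⟨hP, ?_, hcomm⟩, hcard⟩
  apply le_antisymm
  · apply frattini_le_of_elementary (p := 2) _ hcomm.le
    intro a
    rw [hmemc]
    simp only [pow_two, Subgroup.coe_mul]
    exact h.sq a (hHQ a.2)
  · rw [← hcomm]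
    exact commutator_le_frattini hP

end Cfsg.Agent.Lib.Helper92Sub
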