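import Cfsg.Agent.Lib.Helper10Co0Center

/-!
# The stabiliser of the standard cross: the projection onto the code's group (helper93)
-/

set_option autoImplicit false

namespace Cfsg.Agent.Lib.Helper93CrossStab

open Cfsg Cfsg.Agent.Lib.Helper10Co0 Cfsg.Agent.Lib.Helper10Co0Center
  Cfsg.Agent.Lib.Helper9Golay Cfsg.Agent.Lib.Helper9Golay2
open scoped Pointwise
open Cfsg.Agent.S5546 (e8 toAdd toAdd_apply)
open Cfsg.Agent.S1571 (mon mon_mem mon_apply signedPerm_single part1)

/-- the stabiliser of the standard cross -/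
def NN : Subgroup ↥Co0 := MulAction.stabilizer ↥Co0 X0

theorem smul_neg'' (g : ↥Co0) (v : ↥leechLattice) : g • (-v) = - (g • v) := by
  show g.1 (-v) = - g.1 v
  rw [← toAdd_apply g.1 g.2, ← toAdd_apply g.1 g.2, map_neg]

theorem e8_self (j : GolayPt) : (e8 j).1 j = 8 := Pi.single_eq_same _ _

theorem e8_ne {i j : GolayPt} (h : i ≠ j) : (e8 j).1 i = 0 := Pi.single_eq_of_ne h _

theorem e8_pm_inj {a b : GolayPt} (h : e8 a = e8 b ∨ e8 a = - e8 b) : a = b := by
  by_contra hne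
  rcases h with h | h
  · have := congrArg (fun w : ↥leechLattice => w.1 a) h
    simp only [e8_self, e8_ne hne] at this
    omega
  · have := congrArg (fun w : ↥leechLattice => w.1 a) h
    simp only [e8_self, AddSubgroup.coe_neg, Pi.neg_apply, e8_ne hne] at this
    omega

/-- `g` permutes the coordinate axes as `σ` does -/
def Rel (g : ↥Co0) (σ : Equiv.Perm GolayPt) : Prop :=
  ∀ j, g • e8 j = e8 (σ j) ∨ g • e8 j = - e8 (σ j)

theorem Rel.unique {g : ↥Co0} {σ σ' : Equiv.Perm GolayPt} (h : Rel g σ) (h' : Rel g σ') :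
    σ = σ' := by
  apply Equiv.ext
  intro j
  apply e8_pm_inj
  rcases h j with a | a <;> rcases h' j with b | b
  · left; rw [← a, b]
  · right; rw [← a, b]
  · right; rw [← b, a, neg_neg]
  · left; exact neg_inj.1 (by rw [← a, b])

theorem Rel.mul {g g' : ↥Co0} {σ σ' : Equiv.Perm GolayPt} (h : Rel g σ) (h' : Rel g' σ') :
    Rel (g * g') (σ * σ') := by
  intro j
  rw [mul_smul, Equiv.Perm.mul_apply]
  rcases h' j with a | a <;> rcases h (σ' j) with b | b
  · left; rw [a, b]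
  · right; rw [a, b]
  · right; rw [a, smul_neg'', b]
  · left; rw [a, smul_neg'', b, neg_neg]

theorem rel_one : Rel 1 1 := fun _ => Or.inl (one_smul _ _)

theorem rel_prm (σ : Equiv.Perm GolayPt) (hσ : σ ∈ M24) : Rel (prm σ hσ) σ :=
  fun j => Or.inl (prm_e8 σ hσ j)

theorem rel_negOne : Rel negOne 1 := fun _ => Or.inr (negOne_smul _)

theorem exists_rel {g : ↥Co0} (hg : g ∈ NN) :
    ∃ σ ∈ M24, Rel g σ ∧ (σ = 1 → ∃ (c : Finset GolayPt) (hc : c ∈ Csup), g = eps c hc) := by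
  obtain ⟨σ, hσ, c, hc, h⟩ := part1 g.1 g.2 ((mem_stab_iff g).1 hg)
  refine ⟨σ, hσ, ?_, ?_⟩
  · intro j
    have h1 : ((g • e8 j : ↥leechLattice) : GolayPt → ℤ)
        = Pi.single (σ j) (if σ j ∈ c then (-8 : ℤ) else 8) := by
      have := h (e8 j)
      have e : (e8 j).1 = Pi.single j 8 := rfl
      rw [e, signedPerm_single] at this
      exact this
    by_cases hj : σ j ∈ c
    · right
      apply Subtype.ext
      rw [h1, if_pos hj]
      show _ = - (Pi.single (σ j) 8 : GolayPt → ℤ)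
      rw [← Pi.single_neg]
    · left
      apply Subtype.ext
      rw [h1, if_neg hj]
      rfl
  · rintro rfl
    refine ⟨c, hc, ?_⟩
    apply Subtype.ext
    apply Equiv.ext
    intro v
    apply Subtype.ext
    exact h v

noncomputable def rhoFun (g : ↥NN) : ↥M24 :=
  ⟨(exists_rel g.2).choose, (exists_rel g.2).choose_spec.1⟩

theorem rhoFun_spec (g : ↥NN) : Rel g.1 (rhoFun g).1 := (exists_rel g.2).choose_spec.2.1

/-- the projection of the stabiliser of the standard cross onto the group of the code -/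
noncomputable def rho : ↥NN →* ↥M24 :=
  MonoidHom.mk' rhoFun (fun a b => Subtype.ext
    (Rel.unique (rhoFun_spec (a * b)) ((rhoFun_spec a).mul (rhoFun_spec b))))

theorem rho_spec (g : ↥NN) : Rel g.1 (rho g).1 := rhoFun_spec g

theorem rho_eq {g : ↥NN} {σ : Equiv.Perm GolayPt} (h : Rel g.1 σ) : (rho g).1 = σ :=
  Rel.unique (rho_spec g) h

theorem mem_NN_iff (k : ↥Co0) : k ∈ NN ↔ k • e8 none ∈ cl (e8 none) := by
  constructor
  · intro hk
    have h1 : k • X0 = X0 := hk
    rw [← X0_eq, ← h1]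
    exact Set.smul_mem_smul_set (e8_mem_X0 none)
  · intro hk
    show k • X0 = X0
    rw [X0_eq, smul_cl, cl_eq_of_mem hk]

theorem prm_mem (σ : Equiv.Perm GolayPt) (hσ : σ ∈ M24) : prm σ hσ ∈ NN := by
  rw [mem_NN_iff, prm_e8, ← X0_eq]
  exact e8_mem_X0 _

theorem negOne_mem : negOne ∈ NN := by
  rw [mem_NN_iff, negOne_smul, ← X0_eq]
  refine ⟨none, -8, Or.inr rfl, ?_⟩
  show - (Pi.single none 8 : GolayPt → ℤ) = _
  rw [← Pi.single_neg]

theorem rho_prm (σ : ↥M24) : rho ⟨prm σ.1 σ.2, prm_mem σ.1 σ.2⟩ = σ :=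
  Subtype.ext (rho_eq (rel_prm σ.1 σ.2))

theorem rho_surjective : Function.Surjective rho := fun σ => ⟨_, rho_prm σ⟩

theorem negOne_mem_ker : (⟨negOne, negOne_mem⟩ : ↥NN) ∈ rho.ker := by
  rw [MonoidHom.mem_ker]
  exact Subtype.ext (rho_eq rel_negOne)

theorem exists_eps_of_mem_ker (g : ↥NN) (hg : g ∈ rho.ker) :
    ∃ (c : Finset GolayPt) (hc : c ∈ Csup), g.1 = eps c hc := by
  obtain ⟨σ, -, h1, h2⟩ := exists_rel g.2
  apply h2
  rw [← rho_eq h1, (MonoidHom.mem_ker).1 hg]
  rfl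

theorem exists_ker_inj : ∃ f : rho.ker → ↥Csup, Function.Injective f := by
  refine ⟨fun g : rho.ker => (⟨(exists_eps_of_mem_ker g.1 g.2).choose,
      (exists_eps_of_mem_ker g.1 g.2).choose_spec.choose⟩ : ↥Csup), ?_⟩
  intro a b hab
  have ha := (exists_eps_of_mem_ker a.1 a.2).choose_spec.choose_spec
  have hb := (exists_eps_of_mem_ker b.1 b.2).choose_spec.choose_spec
  have h1 : (exists_eps_of_mem_ker a.1 a.2).choose = (exists_eps_of_mem_ker b.1 b.2).choose :=
    congrArg Subtype.val hab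
  apply Subtype.ext
  apply Subtype.ext
  rw [ha, hb]
  congr 1

theorem finite_ker_rho : Finite rho.ker := by
  have hfin : Finite ↥Csup := Set.finite_coe_iff.2 (Set.toFinite _)
  obtain ⟨f, hf⟩ := exists_ker_inj
  exact Finite.of_injective f hf

theorem card_ker_rho_le : Nat.card rho.ker ≤ 4096 := by
  have hfin : Finite ↥Csup := Set.finite_coe_iff.2 (Set.toFinite _)
  have hc : Nat.card ↥Csup = 4096 := by
    rw [Nat.card_coe_set_eq, ncard_supports]
  rw [← hc]
  obtain ⟨f, hf⟩ := exists_ker_inj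
  exact Nat.card_le_card_of_injective f hf

theorem prm_mul (σ τ : Equiv.Perm GolayPt) (hσ : σ ∈ M24) (hτ : τ ∈ M24) :
    prm (σ * τ) (M24.mul_mem hσ hτ) = prm σ hσ * prm τ hτ := by
  apply Subtype.ext
  apply Equiv.ext
  intro v
  apply Subtype.ext
  funext i
  show signedPerm (σ * τ) ∅ v.1 i = signedPerm σ ∅ (signedPerm τ ∅ v.1) i
  simp only [signedPerm, Finset.notMem_empty, if_false]
  rfl

/-- coordinate permutations, as a homomorphism -/
def prmHom : ↥M24 →* ↥NN :=
  MonoidHom.mk' (fun σ => ⟨prm σ.1 σ.2, prm_mem σ.1 σ.2⟩)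
    (fun a b => Subtype.ext (prm_mul a.1 b.1 a.2 b.2))

theorem rho_prmHom (σ : ↥M24) : rho (prmHom σ) = σ := rho_prm σ

end Cfsg.Agent.Lib.Helper93CrossStab
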