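import Mathlib
import Cfsg.Prelude.Def_SporadicCombinatorics

set_option autoImplicit false
set_option linter.unusedSectionVars false

/-! Concrete model of the hexacode over an abstract field of order four. -/

namespace Cfsg.Agent.Helper93Hexa

section
variable {F : Type*} [Field F] [Fintype F]

theorem two_eq_zero (hF : Fintype.card F = 4) : (2 : F) = 0 := by
  have h4 : ((4 : ℕ) : F) = 0 := by rw [← hF]; exact Nat.cast_card_eq_zero F
  have h : (2 : F) * 2 = 0 := by
    have : (2 : F) * 2 = ((4 : ℕ) : F) := by norm_num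
    rw [this, h4]
  exact mul_self_eq_zero.mp h

/-- coding of the four field elements -/
def enc (ω : F) : Fin 4 → F := ![0, 1, ω, ω ^ 2]

def addT (a b : Fin 4) : Fin 4 :=
  (![![0, 1, 2, 3], ![1, 0, 3, 2], ![2, 3, 0, 1], ![3, 2, 1, 0]] : Fin 4 → Fin 4 → Fin 4) a b

def mulT (a b : Fin 4) : Fin 4 :=
  (![![0, 0, 0, 0], ![0, 1, 2, 3], ![0, 2, 3, 1], ![0, 3, 1, 2]] : Fin 4 → Fin 4 → Fin 4) a b

variable (hF : Fintype.card F = 4) {ω : F} (hω : ω ^ 2 + ω + 1 = 0)

include hF hω in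
theorem enc_add (a b : Fin 4) : enc ω a + enc ω b = enc ω (addT a b) := by
  have h2 := two_eq_zero hF
  have hxx : ∀ x : F, x + x = 0 := fun x => by linear_combination x * h2
  have h1 : 1 + ω = ω ^ 2 := by linear_combination (1 + ω) * h2 - hω
  have h1' : ω + 1 = ω ^ 2 := by linear_combination (1 + ω) * h2 - hω
  have h3 : 1 + ω ^ 2 = ω := by linear_combination hω - ω * h2
  have h3' : ω ^ 2 + 1 = ω := by linear_combination hω - ω * h2
  have h4 : ω + ω ^ 2 = 1 := by linear_combination hω - h2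
  have h4' : ω ^ 2 + ω = 1 := by linear_combination hω - h2
  fin_cases a <;> fin_cases b <;> simp [enc, addT, hxx, h1, h1', h3, h3', h4, h4']

include hω in
theorem enc_mul (a b : Fin 4) : enc ω a * enc ω b = enc ω (mulT a b) := by
  have h1 : ω * ω = ω ^ 2 := by ring
  have h2 : ω * ω ^ 2 = 1 := by linear_combination (ω - 1) * hω
  have h2' : ω ^ 2 * ω = 1 := by linear_combination (ω - 1) * hω
  have h3 : ω ^ 2 * ω ^ 2 = ω := by linear_combination ω * (ω - 1) * hω
  fin_cases a <;> fin_cases b <;> simp [enc, mulT, h1, h2, h2', h3]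

include hF hω in
theorem enc_inj : Function.Injective (enc ω) := by
  have h2 := two_eq_zero hF
  have w0 : ω ≠ 0 := by
    rintro rfl; simp at hω
  have w1 : ω ≠ 1 := by
    rintro rfl
    have : (1 : F) = 0 := by linear_combination hω - h2
    exact one_ne_zero this
  have w2 : ω ^ 2 ≠ 1 := by
    intro h
    apply w0
    linear_combination hω - h - h2
  have w3 : ω ^ 2 ≠ ω := by
    intro h
    have : (1 : F) = 0 := by linear_combination hω - h - ω * h2
    exact one_ne_zero this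
  have w4 : (0 : F) ≠ ω ^ 2 := (pow_ne_zero 2 w0).symm
  intro a b
  fin_cases a <;> fin_cases b <;>
    simp [enc, w0, w1, w2, w3, w4, w0.symm, w1.symm, w2.symm, w3.symm]

include hF hω in
theorem enc_bij : Function.Bijective (enc ω) := by
  rw [Fintype.bijective_iff_injective_and_card]
  exact ⟨enc_inj hF hω, by simp [hF]⟩

theorem enc_eq_zero_iff' (w0 : ω ≠ 0) (a : Fin 4) : enc ω a = 0 ↔ a = 0 := by
  fin_cases a <;> simp [enc, w0]

include hω in
theorem omega_ne_zero : ω ≠ 0 := by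
  rintro rfl; simp at hω

/-- the three generators, coded -/
def G : Fin 3 → Fin 6 → Fin 4 :=
  ![![2, 3, 3, 2, 3, 2], ![3, 2, 2, 3, 3, 2], ![3, 2, 3, 2, 2, 3]]

/-- the 64 words, coded -/
def word (a b c : Fin 4) : Fin 6 → Fin 4 := fun i =>
  addT (addT (mulT a (G 0 i)) (mulT b (G 1 i))) (mulT c (G 2 i))

include hF hω in
theorem mem_hexacode_iff (x : Fin 6 → F) :
    x ∈ Cfsg.hexacode F ω ↔ ∃ a b c : Fin 4, x = fun i => enc ω (word a b c i) := by
  have key : ∀ a b c : Fin 4, (enc ω a • ![ω, ω ^ 2, ω ^ 2, ω, ω ^ 2, ω]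
      + enc ω b • ![ω ^ 2, ω, ω, ω ^ 2, ω ^ 2, ω] + enc ω c • ![ω ^ 2, ω, ω ^ 2, ω, ω, ω ^ 2])
      = fun i => enc ω (word a b c i) := by
    intro a b c
    funext i
    simp only [word, ← enc_add hF hω, ← enc_mul hω]
    fin_cases i <;> simp [G, enc]
  unfold Cfsg.hexacode
  rw [Submodule.mem_span_triple]
  constructor
  · rintro ⟨a, b, c, rfl⟩
    obtain ⟨a', rfl⟩ := (enc_bij hF hω).2 a
    obtain ⟨b', rfl⟩ := (enc_bij hF hω).2 b
    obtain ⟨c', rfl⟩ := (enc_bij hF hω).2 c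
    exact ⟨a', b', c', key a' b' c'⟩
  · rintro ⟨a, b, c, rfl⟩
    exact ⟨enc ω a, enc ω b, enc ω c, key a b c⟩

/-- parametrisation of the hexacode -/
def Phi (ω : F) (t : Fin 4 × Fin 4 × Fin 4) : Fin 6 → F :=
  fun i => enc ω (word t.1 t.2.1 t.2.2 i)

theorem word_inj : ∀ a b c a' b' c' : Fin 4, word a b c = word a' b' c' →
    a = a' ∧ b = b' ∧ c = c' := by decide +kernel

include hF hω in
theorem Phi_inj : Function.Injective (Phi ω) := by
  rintro ⟨a, b, c⟩ ⟨a', b', c'⟩ h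
  have h' : word a b c = word a' b' c' := by
    funext i
    exact enc_inj hF hω (congrFun h i)
  obtain ⟨rfl, rfl, rfl⟩ := word_inj _ _ _ _ _ _ h'
  rfl

include hF hω in
theorem mem_hexacode_iff' (x : Fin 6 → F) :
    x ∈ Cfsg.hexacode F ω ↔ ∃ t, Phi ω t = x := by
  rw [mem_hexacode_iff hF hω]
  constructor
  · rintro ⟨a, b, c, rfl⟩; exact ⟨(a, b, c), rfl⟩
  · rintro ⟨⟨a, b, c⟩, rfl⟩; exact ⟨a, b, c, rfl⟩

end

end Cfsg.Agent.Helper93Hexa
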