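import Cfsg.Agent.Lib.Helper3Extraspecial
import Cfsg.Agent.Lib.Helper3PGroup

/-!
# Extraspecial 2-groups, elementwise (helper93)

A light-weight copy (few imports) of the generic lemmas on extraspecial 2-groups of
`Helper93Monster`, `Helper93Monster3`, `Helper93Monster8`.
-/

set_option autoImplicit false

namespace Cfsg.Agent.Lib.Helper93Pk

open Cfsg
open scoped commutatorElement


/-- elementwise description of an extraspecial 2-group with central involution `c`. -/
structure Pk (E : Type*) [Group E] (c : E) : Prop where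
  ne : c ≠ 1
  sq : c * c = 1
  cen : ∀ x : E, x ∈ Subgroup.center E ↔ x = 1 ∨ x = c
  sqm : ∀ x : E, x * x = 1 ∨ x * x = c
  com : ∀ x y : E, ⁅x, y⁆ = 1 ∨ ⁅x, y⁆ = c

theorem exists_pk {E : Type*} [Group E] [Finite E] (hE : Cfsg.IsExtraspecial 2 E) :
    ∃ c : E, Pk E c := by
  have : Fact (Nat.Prime 2) := ⟨Nat.prime_two⟩
  obtain ⟨z, hz, huniq⟩ := (Nat.card_eq_two_iff' (1 : Subgroup.center E)).1 hE.2
  have hcen : ∀ x : E, x ∈ Subgroup.center E ↔ x = 1 ∨ x = (z : E) := by
    intro x
    constructor
    · intro hx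
      by_cases h1 : x = 1
      · left; exact h1
      · right
        have := huniq ⟨x, hx⟩ (fun h => h1 (congrArg Subtype.val h))
        exact congrArg Subtype.val this
    · rintro (rfl | rfl)
      · exact Subgroup.one_mem _
      · exact z.2
  have hz1 : (z : E) ≠ 1 := fun h => hz (Subtype.ext h)
  refine ⟨z, hz1, ?_, hcen, ?_, ?_⟩
  · rcases (hcen _).1 (Subgroup.mul_mem _ z.2 z.2) with h | h
    · exact h
    · exfalso; apply hz1
      simpa using h
  · intro x
    have h1 : x ^ 2 ∈ frattini E := Cfsg.Agent.Lib.Helper3PGroup.pow_mem_frattini hE.1.1 x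
    rw [hE.1.2.1, sq] at h1
    exact (hcen _).1 h1
  · intro x y
    exact (hcen _).1 (Cfsg.Agent.Lib.Helper3Extraspecial.comm_central hE x y)

section pk
variable {E : Type*} [Group E] {c : E}

theorem Pk.z_comm (h : Pk E c) (g : E) : g * c = c * g :=
  (Subgroup.mem_center_iff.1 ((h.cen c).2 (Or.inr rfl))) g

theorem Pk.c_comm (h : Pk E c) {d : E} (hd : d = 1 ∨ d = c) (g : E) : g * d = d * g := by
  rcases hd with rfl | rfl
  · simp
  · exact h.z_comm g

theorem Pk.c_sq (h : Pk E c) {d : E} (hd : d = 1 ∨ d = c) : d * d = 1 := by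
  rcases hd with rfl | rfl
  · simp
  · exact h.sq

theorem Pk.comm_mul (h : Pk E c) (x x' y : E) : ⁅x * x', y⁆ = ⁅x, y⁆ * ⁅x', y⁆ := by
  have hc := h.c_comm (h.com x' y)
  have e : ⁅x * x', y⁆ = x * ⁅x', y⁆ * y * x⁻¹ * y⁻¹ := by
    simp only [commutatorElement_def]; group
  rw [e, hc x, hc ⁅x, y⁆, commutatorElement_def x y]
  simp only [mul_assoc]

theorem Pk.comm_symm (h : Pk E c) (x y : E) : ⁅x, y⁆ = ⁅y, x⁆ := by
  have h1 : ⁅x, y⁆ = ⁅y, x⁆⁻¹ := (commutatorElement_inv y x).symm
  rw [h1]
  exact inv_eq_of_mul_eq_one_left (h.c_sq (h.com y x))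

/-- commutation with a fixed element, as a homomorphism -/
def chi (h : Pk E c) (a : E) : E →* E where
  toFun x := ⁅x, a⁆
  map_one' := commutatorElement_one_left a
  map_mul' x y := h.comm_mul x y a

theorem mem_ker_chi (h : Pk E c) (a x : E) : x ∈ (chi h a).ker ↔ x * a = a * x := by
  rw [MonoidHom.mem_ker]
  exact commutatorElement_eq_one_iff_mul_comm

/-- the centre of the centraliser of a non-central element -/
theorem center_centralizer (h : Pk E c) {a x : E}
    (hx : ∀ y, y * a = a * y → y * x = x * y) : x = 1 ∨ x = c ∨ x = a ∨ x = a * c := by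
  by_cases hxc : x ∈ Subgroup.center E
  · rcases (h.cen x).1 hxc with h1 | h1
    · left; exact h1
    · right; left; exact h1
  · right; right
    rw [Subgroup.mem_center_iff] at hxc
    push Not at hxc
    obtain ⟨w, hw⟩ := hxc
    have hwx : ⁅w, x⁆ = c := by
      rcases h.com w x with h1 | h1
      · exact absurd (commutatorElement_eq_one_iff_mul_comm.1 h1) hw
      · exact h1
    have hwa : ⁅w, a⁆ = c := by
      rcases h.com w a with h1 | h1
      · exact absurd (hx w (commutatorElement_eq_one_iff_mul_comm.1 h1)) hw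
      · exact h1
    have hcen : x * a ∈ Subgroup.center E := by
      rw [Subgroup.mem_center_iff]
      intro y
      rw [← commutatorElement_eq_one_iff_mul_comm, h.comm_symm, h.comm_mul, h.comm_symm x y,
        h.comm_symm a y]
      rcases h.com y a with h1 | h1
      · rw [h1, mul_one]
        exact commutatorElement_eq_one_iff_mul_comm.2 (hx y (commutatorElement_eq_one_iff_mul_comm.1 h1))
      · have h2 : ⁅y, x⁆ = c := by
          rcases h.com y x with h3 | h3
          · exfalso
            have h4 : ⁅w * y, a⁆ = 1 := by rw [h.comm_mul, hwa, h1, h.sq]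
            have h5 := hx _ (commutatorElement_eq_one_iff_mul_comm.1 h4)
            have h6 : ⁅w * y, x⁆ = 1 := commutatorElement_eq_one_iff_mul_comm.2 h5
            rw [h.comm_mul, hwx, h3, mul_one] at h6
            exact h.ne h6
          · exact h3
        rw [h1, h2, h.sq]
    have hainv : a⁻¹ = a ∨ a⁻¹ = a * c := by
      rcases h.sqm a with h1 | h1
      · left; exact inv_eq_of_mul_eq_one_left h1
      · right
        apply inv_eq_of_mul_eq_one_right
        rw [← mul_assoc, h1, h.sq]
    rcases (h.cen _).1 hcen with h1 | h1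
    · have : x = a⁻¹ := eq_inv_of_mul_eq_one_left h1
      rcases hainv with h2 | h2
      · left; rw [this, h2]
      · right; rw [this, h2]
    · have : x = c * a⁻¹ := by rw [← h1]; group
      rcases hainv with h2 | h2
      · right; rw [this, h2]; exact (h.z_comm a).symm
      · left; rw [this, h2, ← mul_assoc, ← h.z_comm a, mul_assoc, h.sq, mul_one]

theorem pk_pow_four (h : Pk E c) (x : E) : x ^ 4 = 1 := by
  have : x ^ 4 = (x * x) * (x * x) := by
    rw [show (4 : ℕ) = 2 + 2 from rfl, pow_add, sq]
  rw [this]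
  exact h.c_sq (h.sqm x)

theorem pk_card_center [Finite E] (h : Pk E c) : Nat.card (Subgroup.center E) = 2 := by
  rw [Nat.card_eq_two_iff]
  refine ⟨1, ⟨c, (h.cen c).2 (Or.inr rfl)⟩, ?_, ?_⟩
  · intro hh
    exact h.ne (congrArg Subtype.val hh).symm
  · ext x
    simp only [Set.mem_insert_iff, Set.mem_singleton_iff, Set.mem_univ, iff_true]
    rcases (h.cen x.1).1 x.2 with h1 | h1
    · left; exact Subtype.ext h1
    · right; exact Subtype.ext h1

/-- the converse of `exists_pk` -/
theorem pk_isExtraspecial [Finite E] (h : Pk E c) (hcard : 2 < Nat.card E) :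
    IsExtraspecial 2 E := by
  have : Fact (Nat.Prime 2) := ⟨Nat.prime_two⟩
  have hp : IsPGroup 2 E := fun x => ⟨2, by
    have := pk_pow_four h x
    norm_num
    exact this⟩
  have hle : commutator E ≤ Subgroup.center E := by
    rw [commutator_eq_closure, Subgroup.closure_le]
    rintro _ ⟨x, y, rfl⟩
    exact (h.cen _).2 (h.com x y)
  have hge : Subgroup.center E ≤ commutator E := by
    -- a non-central element
    have hex : ∃ x : E, x ∉ Subgroup.center E := by
      by_contra hcon
      push Not at hcon
      have h1 : Subgroup.center E = ⊤ := by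
        rw [eq_top_iff]; intro x _; exact hcon x
      have h2 := pk_card_center h
      rw [h1, Subgroup.card_top] at h2
      omega
    obtain ⟨x, hx⟩ := hex
    rw [Subgroup.mem_center_iff] at hx
    push Not at hx
    obtain ⟨y, hy⟩ := hx
    have hc : ⁅y, x⁆ = c := by
      rcases h.com y x with h1 | h1
      · exact absurd (commutatorElement_eq_one_iff_mul_comm.1 h1) hy
      · exact h1
    intro w hw
    rcases (h.cen w).1 hw with rfl | rfl
    · exact Subgroup.one_mem _
    · rw [← hc]
      exact Subgroup.commutator_mem_commutator (Subgroup.mem_top _) (Subgroup.mem_top _)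
  have hcomm : commutator E = Subgroup.center E := le_antisymm hle hge
  refine ⟨⟨hp, ?_, hcomm⟩, pk_card_center h⟩
  apply le_antisymm
  · apply Cfsg.Agent.Lib.Helper3PGroup.frattini_le_of_elementary (p := 2)
    · exact hle
    · intro x
      rw [sq]
      exact (h.cen _).2 (h.sqm x)
  · rw [← hcomm]
    exact Cfsg.Agent.Lib.Helper3PGroup.commutator_le_frattini hp

/-- the centraliser of a non-central element `a`, modulo `a` -/
theorem pk_quot (h : Pk E c) {a : E} (ha : a ∉ Subgroup.center E) {F : Type*} [Group F]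
    (f : ↥(chi h a).ker →* F) (hf : Function.Surjective f)
    (hker : ∀ x : ↥(chi h a).ker, f x = 1 ↔ (x : E) = 1 ∨ (x : E) = a) :
    Pk F (f ⟨c, (mem_ker_chi h a c).2 (h.z_comm a).symm⟩) := by
  have hca : c ≠ a := fun hh => ha (hh ▸ (h.cen c).2 (Or.inr rfl))
  have ha1 : a ≠ 1 := fun hh => ha (hh ▸ Subgroup.one_mem _)
  have himg : ∀ x : ↥(chi h a).ker, ((x : E) = 1 ∨ (x : E) = c) →
      f x = 1 ∨ f x = f ⟨c, (mem_ker_chi h a c).2 (h.z_comm a).symm⟩ := by
    intro x hx
    rcases hx with hx | hx
    · left; exact (hker x).2 (Or.inl hx)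
    · right; congr 1; exact Subtype.ext hx
  refine ⟨?_, ?_, ?_, ?_, ?_⟩
  · intro hh
    rcases (hker _).1 hh with h1 | h1
    · exact h.ne h1
    · exact hca h1
  · rw [← map_mul]
    apply (hker _).2
    left
    exact h.sq
  · intro y
    obtain ⟨x, rfl⟩ := hf y
    constructor
    · intro hy
      rw [Subgroup.mem_center_iff] at hy
      have h1 : ∀ w : E, w * a = a * w → w * (x : E) = (x : E) * w := by
        intro w hw
        have h2 := hy (f ⟨w, (mem_ker_chi h a w).2 hw⟩)
        rw [← map_mul, ← map_mul] at h2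
        have h3 : f (⁅(⟨w, (mem_ker_chi h a w).2 hw⟩ : ↥(chi h a).ker), x⁆) = 1 := by
          rw [map_commutatorElement]
          rw [map_mul, map_mul] at h2
          exact commutatorElement_eq_one_iff_mul_comm.2 h2
        have h4 := (hker _).1 h3
        have h5 : ((⁅(⟨w, (mem_ker_chi h a w).2 hw⟩ : ↥(chi h a).ker), x⁆ : ↥(chi h a).ker) : E)
            = ⁅w, (x : E)⁆ := rfl
        rw [h5] at h4
        rcases h4 with h4 | h4
        · exact commutatorElement_eq_one_iff_mul_comm.1 h4
        · exfalso
          rcases h.com w (x : E) with h6 | h6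
          · exact ha1 (h4.symm.trans h6)
          · exact hca (h6.symm.trans h4)
      rcases center_centralizer h h1 with h2 | h2 | h2 | h2
      · exact himg x (Or.inl h2)
      · exact himg x (Or.inr h2)
      · left; exact (hker x).2 (Or.inr h2)
      · right
        have h3 : x = ⟨a, (mem_ker_chi h a a).2 rfl⟩ * ⟨c, (mem_ker_chi h a c).2 (h.z_comm a).symm⟩ :=
          Subtype.ext h2
        rw [h3, map_mul, (hker ⟨a, _⟩).2 (Or.inr rfl), one_mul]
    · intro hy
      rcases hy with hy | hy
      · rw [hy]; exact Subgroup.one_mem _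
      · rw [hy, Subgroup.mem_center_iff]
        intro y'
        obtain ⟨w, rfl⟩ := hf y'
        rw [← map_mul, ← map_mul]
        congr 1
        exact Subtype.ext (h.z_comm (w : E))
  · intro y
    obtain ⟨x, rfl⟩ := hf y
    rw [← map_mul]
    exact himg _ (h.sqm (x : E))
  · intro y y'
    obtain ⟨x, rfl⟩ := hf y
    obtain ⟨x', rfl⟩ := hf y'
    rw [← map_commutatorElement]
    exact himg _ (h.com (x : E) (x' : E))

end pk

end Cfsg.Agent.Lib.Helper93Pk
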