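import Cfsg.Agent.Lib.Helper36Large
import Cfsg.Agent.Lib.Helper93Pk

/-!
# A criterion for a large extraspecial 2-subgroup (helper93)
-/

set_option autoImplicit false

namespace Cfsg.Agent.Lib.Helper93LargeCrit

open Cfsg Subgroup
open Cfsg.Agent.Lib.Helper36Simple Cfsg.Agent.Lib.Helper36Large

theorem eq_one_of_pow {D : Type*} [Group D] {K : Subgroup D} (hY : ∀ a ∈ K, a * a = 1 → a = 1)
    {a : D} (ha : a ∈ K) (k : ℕ) (hk : a ^ 2 ^ k = 1) : a = 1 := by
  induction k with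
  | zero => simpa using hk
  | succ k ih =>
    apply ih
    apply hY _ (K.pow_mem ha _)
    rw [← pow_two, ← pow_mul, ← pow_succ]
    exact hk

theorem mem_zpowers_invol {D : Type*} [Group D] {t x : D} (ht : t * t = 1) :
    x ∈ Subgroup.zpowers t ↔ x = 1 ∨ x = t := by
  constructor
  · intro hx
    have h1 : Subgroup.zpowers t ≤ Cfsg.Agent.Lib.Helper94Extra.pairSubgroup t ht :=
      Subgroup.zpowers_le.2 (Or.inr rfl)
    exact h1 hx
  · rintro (rfl | rfl)
    · exact Subgroup.one_mem _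
    · exact Subgroup.mem_zpowers _

/-- the criterion -/
theorem large_of {D : Type*} [Group D] [Finite D] (R : Subgroup D) (zb sb pb : D)
    (hR : IsExtraspecial 2 ↥R)
    (hzbR : zb ∈ R) (hzc : ∀ r ∈ R, r * zb = zb * r) (hsb : sb ∈ R) (hpb : pb ∈ R)
    (hzb2 : zb * zb = 1) (hsb2 : sb * sb = 1)
    (hps : pb * sb * pb⁻¹ = sb * zb)
    (h1 : ∀ d, (∀ r ∈ R, d * r = r * d) → d ∈ R)
    (h2 : ∀ d, d * zb = zb * d → ∀ r ∈ R, d * r * d⁻¹ ∈ R)
    (h3 : ∀ d, d * sb = sb * d → ∃ k : ℕ, (d * zb * d⁻¹ * zb⁻¹) ^ 2 ^ k = 1) :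
    IsLargeExtraspecial R := by
  have hR2 : IsPGroup 2 R := hR.1.1
  refine ⟨hR, ?_, ?_, ?_⟩
  · apply le_antisymm
    · intro d hd
      rw [mem_centralizer_iff] at hd
      have hdR : d ∈ R := h1 d (fun r hr => (hd r hr).symm)
      refine ⟨⟨d, hdR⟩, ?_, rfl⟩
      rw [SetLike.mem_coe, mem_center_iff]
      intro r
      exact Subtype.ext (hd r.1 r.2)
    · rintro _ ⟨x, hx, rfl⟩
      rw [mem_centralizer_iff]
      intro r hr
      rw [SetLike.mem_coe, mem_center_iff] at hx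
      exact congrArg Subtype.val (hx ⟨r, hr⟩)
  · intro d hd
    rw [mem_centralizer_iff] at hd
    have hzm : zb ∈ ((center ↥R).map R.subtype : Subgroup D) := by
      refine ⟨⟨zb, hzbR⟩, ?_, rfl⟩
      rw [SetLike.mem_coe, mem_center_iff]
      intro r
      exact Subtype.ext (hzc r.1 r.2)
    have hdz : d * zb = zb * d := (hd zb hzm).symm
    have hdz' : d⁻¹ * zb = zb * d⁻¹ := by
      calc d⁻¹ * zb = d⁻¹ * (zb * d) * d⁻¹ := by group
        _ = d⁻¹ * (d * zb) * d⁻¹ := by rw [hdz]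
        _ = zb * d⁻¹ := by group
    rw [mem_normalizer_iff]
    intro r
    constructor
    · intro hr
      exact h2 d hdz r hr
    · intro hr
      have := h2 d⁻¹ hdz' _ hr
      simpa [mul_assoc] using this
  · intro K hK hRK
    have hY := no_invol_of_odd hK
    have hconj : ∀ q ∈ R, ∀ y ∈ K, q * y * q⁻¹ ∈ K := fun q hq y hy =>
      (mem_normalizer_iff.mp (hRK hq) y).mp hy
    have hfz : ∀ y ∈ K, zb * y = y * zb → y = 1 := by
      intro y hy hyz
      apply eq_one_of_isPGroup hY hR2 hy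
      apply h1
      intro q hq
      have e1 : y * q * y⁻¹ * q⁻¹ ∈ K := by
        have := K.mul_mem hy (hconj q hq _ (K.inv_mem hy))
        simpa [mul_assoc] using this
      have e2 : y * q * y⁻¹ * q⁻¹ ∈ R := R.mul_mem (h2 y hyz.symm q hq) (R.inv_mem hq)
      have e3 := eq_one_of_isPGroup hY hR2 e1 e2
      calc y * q = (y * q * y⁻¹ * q⁻¹) * (q * y) := by group
        _ = q * y := by rw [e3, one_mul]
    have hiz := inverts_of_fpf hzb2 (hconj zb hzbR) hfz
    have hfu : ∀ y ∈ K, sb * y = y * sb → y = 1 := by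
      intro y hy hyu
      obtain ⟨k, hk⟩ := h3 y hyu.symm
      have e3 : y * zb * y⁻¹ * zb⁻¹ = y * y := by
        have := hiz y⁻¹ (K.inv_mem hy)
        rw [inv_inv] at this
        calc y * zb * y⁻¹ * zb⁻¹ = y * (zb * y⁻¹ * zb⁻¹) := by group
          _ = y * y := by rw [this]
      rw [e3] at hk
      exact hY y hy (eq_one_of_pow hY (K.mul_mem hy hy) k hk)
    have hiu := inverts_of_fpf hsb2 (hconj sb hsb) hfu
    rw [eq_bot_iff]
    intro y hy
    rw [mem_bot]
    have e1 : (sb * zb) * y = y * (sb * zb) := by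
      have e2 := hiz y hy
      have e3 := hiu y⁻¹ (K.inv_mem hy)
      rw [inv_inv] at e3
      calc (sb * zb) * y = sb * (zb * y * zb⁻¹) * sb⁻¹ * (sb * zb) := by group
        _ = y * (sb * zb) := by rw [e2, e3]
    rw [← hps] at e1
    have e4 : pb⁻¹ * y * pb ∈ K := by simpa using hconj pb⁻¹ (R.inv_mem hpb) y hy
    have e5 : sb * (pb⁻¹ * y * pb) = (pb⁻¹ * y * pb) * sb := by
      calc sb * (pb⁻¹ * y * pb) = pb⁻¹ * ((pb * sb * pb⁻¹) * y) * pb := by group
        _ = pb⁻¹ * (y * (pb * sb * pb⁻¹)) * pb := by rw [e1]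
        _ = _ := by group
    have e6 := hfu _ e4 e5
    calc y = pb * (pb⁻¹ * y * pb) * pb⁻¹ := by group
      _ = 1 := by rw [e6]; group

end Cfsg.Agent.Lib.Helper93LargeCrit
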