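import Cfsg.Agent.Lib.Helper93LargeCrit
import Cfsg.Agent.Lib.Helper1Fitting
import Cfsg.Agent.S0022

/-!
# Coprime action on extraspecial 2-groups; groups of order twice an odd number (helper93)
-/

set_option autoImplicit false

namespace Cfsg.Agent.Lib.Helper93LargeCrit2

open Cfsg Subgroup
open Cfsg.Agent.Lib.Helper36Extra Cfsg.Agent.Lib.Helper36Simple Cfsg.Agent.Lib.Helper36Large

/-- the fixed points of a group of odd order on an extraspecial 2-group have centre `⟨z⟩` -/
theorem center_fixed {G : Type*} [Group G] [Finite G] {Q : Subgroup G} {z : G} (hE : Ex Q z)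
    (hQ2 : IsPGroup 2 Q) (A : Subgroup G) (hAodd : Odd (Nat.card A))
    (hAQ : A ≤ normalizer (Q : Set G)) {x : G} (hx : x ∈ Q)
    (hxA : x ∈ centralizer (A : Set G))
    (hc : ∀ r ∈ Q ⊓ centralizer (A : Set G), r * x = x * r) : x = 1 ∨ x = z := by
  have : Fact (Nat.Prime 2) := ⟨Nat.prime_two⟩
  apply hE.center x hx
  intro b hb
  by_contra hne
  have hAQ' : ∀ a ∈ A, ∀ q ∈ Q, a * q * a⁻¹ ∈ Q := fun a ha q hq =>
    (mem_normalizer_iff.mp (hAQ ha) q).mp hq
  have hax : ∀ a ∈ A, a * x * a⁻¹ = x := by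
    intro a ha
    have := (mem_centralizer_iff.mp hxA) a ha
    rw [this]; group
  have hmemN : ∀ y, y ∈ Q ⊓ centralizer ({x} : Set G) ↔ y ∈ Q ∧ β y x = 1 := by
    intro y
    rw [mem_inf, mem_centralizer_singleton_iff, β_eq_one_iff]
  have hcop : (Nat.card A).Coprime (Nat.card Q) := by
    obtain ⟨n, hn⟩ := hQ2.exists_card_eq
    rw [hn]
    apply Nat.Coprime.pow_right
    exact Nat.coprime_two_right.2 hAodd
  have hsolv : Group.IsSolvable Q := by
    have := hQ2.isNilpotent
    infer_instance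
  have norm_of : ∀ (B N : Subgroup G), (∀ a ∈ B, ∀ n ∈ N, a * n * a⁻¹ ∈ N) →
      B ≤ normalizer (N : Set G) := by
    intro B N h a ha
    rw [mem_normalizer_iff]
    intro n
    constructor
    · exact h a ha n
    · intro hn
      have := h a⁻¹ (B.inv_mem ha) _ hn
      simpa [mul_assoc] using this
  obtain ⟨c, hcm, hcN⟩ := Cfsg.Agent.S0022.result A Q hAQ hcop (Or.inr hsolv)
    (Q ⊓ centralizer ({x} : Set G)) inf_le_left
    (by
      apply norm_of
      intro q hq n hn
      rw [hmemN] at hn ⊢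
      refine ⟨Q.mul_mem (Q.mul_mem hq hn.1) (Q.inv_mem hq), ?_⟩
      rw [hE.β_mul_left (Q.mul_mem hq hn.1) (Q.inv_mem hq) hx, hE.β_mul_left hq hn.1 hx, hn.2,
        mul_one, ← hE.β_mul_left hq (Q.inv_mem hq) hx, mul_inv_cancel]
      exact β_of_comm (by simp))
    (by
      apply norm_of
      intro a ha n hn
      rw [hmemN] at hn ⊢
      refine ⟨hAQ' a ha n hn.1, ?_⟩
      have := β_conj a n x
      rw [hax a ha] at this
      rw [this, hn.2])
    b hb
    (by
      intro a ha
      rw [hmemN]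
      refine ⟨Q.mul_mem (hAQ' a ha b hb) (Q.inv_mem hb), ?_⟩
      have h1 := β_conj a b x
      rw [hax a ha] at h1
      rw [hE.β_mul_left (hAQ' a ha b hb) (Q.inv_mem hb) hx, h1,
        ← hE.β_mul_left hb (Q.inv_mem hb) hx, mul_inv_cancel]
      exact β_of_comm (by simp))
  rw [hmemN] at hcN
  have h1 : β c x = 1 := β_of_comm (hc c hcm)
  have h2 := hcN.2
  rw [hE.β_mul_left (Q.inv_mem hb) (mem_inf.1 hcm).1 hx, h1, mul_one] at h2
  have h3 : β b x = 1 := by
    have h4 : β (b * b⁻¹) x = 1 := by rw [mul_inv_cancel]; exact β_of_comm (by simp)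
    rw [hE.β_mul_left hb (Q.inv_mem hb) hx, h2, mul_one] at h4
    exact h4
  exact hne (β_eq_one_iff.1 h3).symm

/-- a group of order twice an odd number with a central involution -/
theorem mem_oddCore_or {X : Type*} [Group X] [Finite X] (z : X) (hz2 : orderOf z = 2)
    (hzc : ∀ x, x * z = z * x) (h4 : ¬ 4 ∣ Nat.card X) (x : X) :
    x ∈ oddCore X ∨ x * z ∈ oddCore X := by
  have hN : (zpowers z).Normal := by
    constructor
    intro n hn g
    obtain ⟨k, rfl⟩ := mem_zpowers_iff.1 hn
    have : g * z ^ k * g⁻¹ = z ^ k := by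
      have h1 : Commute g (z ^ k) := (show Commute g z from hzc g).zpow_right k
      rw [h1.eq]; group
    rw [this]
    exact hn
  have hcard : Nat.card (zpowers z) = 2 := by rw [Nat.card_zpowers, hz2]
  have hidx : Nat.card (zpowers z) * (zpowers z).index = Nat.card X := card_mul_index _
  rw [hcard] at hidx
  have hodd : Odd (zpowers z).index := by
    rw [← Nat.not_even_iff_odd]
    rintro ⟨k, hk⟩
    apply h4
    exact ⟨k, by omega⟩
  obtain ⟨H, hH⟩ := exists_right_complement'_of_coprime (N := zpowers z) (by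
    rw [hcard]
    exact Nat.coprime_two_left.2 hodd)
  have hHi : H.index = 2 := by rw [hH.index_eq_card, hcard]
  have hHn : H.Normal := normal_of_index_eq_two hHi
  have hHc : Nat.card H = (zpowers z).index := by
    have := hH.card_mul_card
    rw [hcard] at this
    omega
  have hHle : H ≤ oddCore X := by
    apply Cfsg.Agent.Lib.Helper1Fitting.le_pPrimeCore hHn
    rw [hHc]
    exact Nat.coprime_two_right.2 hodd
  have hzH : z ∉ H := by
    intro hz
    have h1 : orderOf z ∣ Nat.card H := orderOf_dvd_natCard H hz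
    rw [hz2, hHc] at h1
    exact (Nat.not_even_iff_odd.2 hodd) (even_iff_two_dvd.2 h1)
  by_cases hx : x ∈ H
  · left; exact hHle hx
  · right
    apply hHle
    rw [mul_mem_iff_of_index_two hHi]
    exact iff_of_false hx hzH

end Cfsg.Agent.Lib.Helper93LargeCrit2
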