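import Cfsg.Agent.Lib.Helper93LeechMod2
import Cfsg.Agent.Lib.Helper33LPair
import Cfsg.Agent.Lib.Helper33LCo2TcAll

/-!
# Vectors of norm 64 of the rank-24 lattice (helper93)

`exists_decomp` : a lattice vector of norm 64 is the sum of two orthogonal minimal vectors
(from the fact that its cross has 48 members); `n64_trans` : the automorphism group is transitive on
the vectors of norm 64.
-/

set_option autoImplicit false

namespace Cfsg.Agent.Lib.Helper93LeechCross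

open Cfsg
open Cfsg.Agent.Lib.Helper33LCo0 Cfsg.Agent.Lib.Helper33LPair Cfsg.Agent.Lib.Helper33LMinTrans
  Cfsg.Agent.Lib.Helper33LCo2Thy

theorem min_norm' {z : GolayPt → ℤ} (hz : z ∈ leechLattice) (h0 : z ≠ 0) : 32 ≤ sqNorm z :=
  Cfsg.Agent.Lib.Helper94Leech.min_norm ((Cfsg.Agent.Lib.Helper94Leech.mem_leechLattice_iff _).1 hz) h0

theorem sqNorm_two_smul (z : GolayPt → ℤ) : sqNorm (2 • z) = 4 * sqNorm z := by
  have : (2 : ℕ) • z = (2 : ℤ) • z := by
    funext i; simp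
  rw [this, sqNorm_smul]; norm_num

/-- two congruent vectors of norm 64, neither equal nor opposite -/
theorem decomp_of_congr {u f z : GolayPt → ℤ} (hf : f ∈ leechLattice)
    (hz : z ∈ leechLattice) (hun : sqNorm u = 64) (hfn : sqNorm f = 64) (h : u - f = 2 • z)
    (h1 : f ≠ u) (h2 : f ≠ -u) :
    sqNorm z = 32 ∧ sqNorm (z + f) = 32 ∧ dotInt z (z + f) = 0 ∧ u = z + (z + f) := by
  have hu : u = z + (z + f) := by
    have : u = 2 • z + f := by rw [← h]; abel
    rw [this, two_smul]; abel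
  have z0 : z ≠ 0 := by
    rintro rfl
    rw [smul_zero, sub_eq_zero] at h
    exact h1 h.symm
  have z1 : z + f ≠ 0 := by
    intro h0
    rw [h0, add_zero] at hu
    apply h2
    rw [hu]
    exact (neg_eq_of_add_eq_zero_right h0).symm
  have n0 := min_norm' hz z0
  have n1 := min_norm' (leechLattice.add_mem hz hf) z1
  have e1 : sqNorm (u - f) = 4 * sqNorm z := by rw [h, sqNorm_two_smul]
  have e2 : sqNorm (u + f) = 4 * sqNorm (z + f) := by
    have : u + f = 2 • (z + f) := by rw [hu, two_smul]; abel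
    rw [this, sqNorm_two_smul]
  rw [sqNorm_sub] at e1
  rw [sqNorm_add] at e2
  have e3 := sqNorm_add z (z + f)
  rw [← hu] at e3
  refine ⟨by omega, by omega, by omega, hu⟩

theorem exists_decomp (u : GolayPt → ℤ) (hu : u ∈ leechLattice) (hn : sqNorm u = 64) :
    ∃ a ∈ leechLattice, ∃ b ∈ leechLattice, sqNorm a = 32 ∧ sqNorm b = 32 ∧ dotInt a b = 0 ∧
      u = a + b := by
  have hc := Cfsg.Agent.Lib.Helper93LeechMod2.cross_card u hu hn
  have hlt : ({u, -u} : Set (GolayPt → ℤ)).ncard < (cross u).ncard := by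
    rw [hc]
    have h1 := Set.ncard_insert_le u ({-u} : Set (GolayPt → ℤ))
    rw [Set.ncard_singleton] at h1
    omega
  obtain ⟨f, hf, hf'⟩ := Set.exists_mem_notMem_of_ncard_lt_ncard hlt (Set.toFinite _)
  obtain ⟨hfL, hfn, z, hz, hzz⟩ := hf
  simp only [Set.mem_insert_iff, Set.mem_singleton_iff, not_or] at hf'
  obtain ⟨h1, h2, h3, h4⟩ := decomp_of_congr hfL hz hn (hfn.trans hn) hzz hf'.1 hf'.2
  exact ⟨z, hz, z + f, leechLattice.add_mem hz hfL, h1, h2, h3, h4⟩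

/-- transitivity on ordered pairs of orthogonal minimal vectors -/
theorem pair0_trans (v w v' w' : ↥leechLattice) (hv : sqNorm (v : GolayPt → ℤ) = 32)
    (hw : sqNorm (w : GolayPt → ℤ) = 32) (hv' : sqNorm (v' : GolayPt → ℤ) = 32)
    (hw' : sqNorm (w' : GolayPt → ℤ) = 32)
    (hd : dotInt (v : GolayPt → ℤ) (w : GolayPt → ℤ) = 0)
    (hd' : dotInt (v' : GolayPt → ℤ) (w' : GolayPt → ℤ) = 0) :
    ∃ g : ↥Co0, g • v = v' ∧ g • w = w' := by
  obtain ⟨g1, hg1⟩ := min_trans v v' hv hv'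
  obtain ⟨g2, h2, h3⟩ := co2_trans 32 _ _ Helper33LCo2TcAll.chk_all v' (g1 • w) w' hv'
    (by rw [sqNorm_smul']; exact hw) hw'
    (by rw [← hg1, dot_smul', hd]; norm_num) (by rw [hd']; norm_num)
  exact ⟨g2 * g1, by rw [mul_smul, hg1, h2], by rw [mul_smul, h3]⟩

/-- the automorphism group is transitive on the vectors of norm 64 -/
theorem n64_trans (u u' : ↥leechLattice) (hu : sqNorm (u : GolayPt → ℤ) = 64)
    (hu' : sqNorm (u' : GolayPt → ℤ) = 64) : ∃ g : ↥Co0, g • u = u' := by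
  obtain ⟨a, ha, b, hb, h1, h2, h3, h4⟩ := exists_decomp u u.2 hu
  obtain ⟨a', ha', b', hb', h1', h2', h3', h4'⟩ := exists_decomp u' u'.2 hu'
  obtain ⟨g, hg1, hg2⟩ := pair0_trans ⟨a, ha⟩ ⟨b, hb⟩ ⟨a', ha'⟩ ⟨b', hb'⟩ h1 h2 h1' h2' h3 h3'
  refine ⟨g, ?_⟩
  have e : u = ⟨a, ha⟩ + ⟨b, hb⟩ := Subtype.ext h4
  have e' : u' = ⟨a', ha'⟩ + ⟨b', hb'⟩ := Subtype.ext h4'
  rw [e, e', smul_add', hg1, hg2]

end Cfsg.Agent.Lib.Helper93LeechCross
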