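import Cfsg.Agent.Lib.Helper93LeechCross
import Cfsg.Agent.Lib.Helper33LN48

/-!
# The rank-24 lattice modulo its double as a module (helper93)

`short_trans` : the automorphism group is transitive on the short vectors of any given norm;
`rep` : representatives modulo the double; `closure_min` : the minimal vectors generate;
`eq_of_pm` : an automorphism sending every minimal vector to itself or its opposite is `1` or `-1`.
Some explicit short vectors (`vA`, `vB`, ...).
-/

set_option autoImplicit false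
set_option exponentiation.threshold 2000

namespace Cfsg.Agent.Lib.Helper93LeechIrr

open Cfsg
open Cfsg.Agent.Lib.Helper33LCo0 Cfsg.Agent.Lib.Helper33LPair Cfsg.Agent.Lib.Helper33LMinTrans
  Cfsg.Agent.Lib.Helper33LVec Cfsg.Agent.Lib.Helper33LTest Cfsg.Agent.Lib.Helper33LGen
  Cfsg.Agent.Lib.Helper93LeechCross

theorem sixteen_dvd' {y : GolayPt → ℤ} (hy : y ∈ leechLattice) : (16 : ℤ) ∣ sqNorm y :=
  Cfsg.Agent.Lib.Helper94Leech.sixteen_dvd ((Cfsg.Agent.Lib.Helper94Leech.mem_leechLattice_iff _).1 hy)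

theorem short_cases {y : GolayPt → ℤ} (hy : y ∈ leechLattice) (hn : sqNorm y ≤ 64) :
    y = 0 ∨ sqNorm y = 32 ∨ sqNorm y = 48 ∨ sqNorm y = 64 := by
  by_cases h0 : y = 0
  · left; exact h0
  · right
    have h1 := min_norm' hy h0
    have h2 := sixteen_dvd' hy
    omega

theorem sqNorm_zero : sqNorm (0 : GolayPt → ℤ) = 0 := by simp [sqNorm]

theorem eq_zero_of_sqNorm {y : GolayPt → ℤ} (h : sqNorm y = 0) : y = 0 := by
  by_contra h0
  have := Cfsg.Agent.Lib.Helper94Leech.sqNorm_pos h0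
  omega

/-- transitivity on short vectors of given norm -/
theorem short_trans (u u' : ↥leechLattice)
    (h : sqNorm (u : GolayPt → ℤ) = sqNorm (u' : GolayPt → ℤ)) (hn : sqNorm (u : GolayPt → ℤ) ≤ 64) :
    ∃ g : ↥Co0, g • u = u' := by
  rcases short_cases u.2 hn with h0 | h1 | h1 | h1
  · have hu : u = 0 := Subtype.ext h0
    have hu' : u' = 0 := by
      apply Subtype.ext
      apply eq_zero_of_sqNorm
      rw [← h, h0, sqNorm_zero]
    exact ⟨1, by rw [hu, hu', one_smul]⟩
  · exact min_trans u u' h1 (h ▸ h1)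
  · exact Cfsg.Agent.Lib.Helper33LN48.n48_trans u u' h1 (h ▸ h1)
  · exact n64_trans u u' h1 (h ▸ h1)

/-- short representatives modulo the double of the lattice -/
theorem rep (x : ↥leechLattice) :
    ∃ y z : ↥leechLattice, sqNorm (y : GolayPt → ℤ) ≤ 64 ∧ x = y + (z + z) := by
  obtain ⟨y, hy, hn, z, hz, h⟩ := Cfsg.Agent.Lib.Helper93LeechMod2.mod_two_rep x x.2
  refine ⟨⟨y, hy⟩, ⟨z, hz⟩, hn, ?_⟩
  apply Subtype.ext
  show (x : GolayPt → ℤ) = y + (z + z)
  rw [← two_smul ℕ z, ← h]; abel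

theorem short_mem_closure {y : GolayPt → ℤ} (hy : y ∈ leechLattice) (hn : sqNorm y ≤ 64) :
    y ∈ AddSubgroup.closure {x : GolayPt → ℤ | x ∈ leechLattice ∧ sqNorm x = 32} := by
  rcases short_cases hy hn with h0 | h1 | h1 | h1
  · rw [h0]; exact AddSubgroup.zero_mem _
  · exact AddSubgroup.subset_closure ⟨hy, h1⟩
  · obtain ⟨v, hv, hv'⟩ := Cfsg.Agent.Lib.Helper33LN48.exists_min' ⟨y, hy⟩ h1
    have : y = (v : GolayPt → ℤ) + (y - (v : GolayPt → ℤ)) := by abel
    rw [this]
    exact AddSubgroup.add_mem _ (AddSubgroup.subset_closure ⟨v.2, hv⟩)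
      (AddSubgroup.subset_closure ⟨leechLattice.sub_mem hy v.2, hv'⟩)
  · obtain ⟨a, ha, b, hb, h2, h3, -, h4⟩ := exists_decomp y hy h1
    rw [h4]
    exact AddSubgroup.add_mem _ (AddSubgroup.subset_closure ⟨ha, h2⟩)
      (AddSubgroup.subset_closure ⟨hb, h3⟩)

theorem genL_short : ∀ c ∈ genL, ∑ p : GolayPt, D c p ^ 2 ≤ 64 := by decide +kernel

/-- the minimal vectors generate the lattice -/
theorem closure_min :
    AddSubgroup.closure {x : GolayPt → ℤ | x ∈ leechLattice ∧ sqNorm x = 32} = leechLattice := by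
  apply le_antisymm
  · rw [AddSubgroup.closure_le]
    intro x hx
    exact hx.1
  · apply gen_le
    intro c hc
    exact short_mem_closure (genL_mem hc) (genL_short c hc)

/-! ### explicit vectors -/

/-- `(-3, 1, ..., 1)` -/
def cA : ℕ := genU
/-- `(4, 4, 0, ...)` -/
def cB : ℕ := genA 1
/-- `(4, 0, 4, 0, ...)` -/
def cB' : ℕ := genA 2
/-- `(0, 0, -4, -4, 0, ...)` -/
def cC : ℕ := Nat.sub (Nat.sub (Nat.mul 16 ONES) (Nat.shiftLeft 4 64)) (Nat.shiftLeft 4 96)
/-- `(-4, 0, 4, 0, ...)` -/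
def cE : ℕ := Nat.add (Nat.sub (Nat.mul 16 ONES) 4) (Nat.shiftLeft 4 64)
/-- `(0, 0, 0, 4, 4, 0, ...)` -/
def cF : ℕ := Nat.add (Nat.add (Nat.mul 16 ONES) (Nat.shiftLeft 4 96)) (Nat.shiftLeft 4 128)
/-- `(0, 0, 4, 4, 0, ...)` -/
def cG : ℕ := Nat.add (Nat.add (Nat.mul 16 ONES) (Nat.shiftLeft 4 64)) (Nat.shiftLeft 4 96)

theorem c_ok : [cA, cB, cB', cC, cE, cF, cG].all (fun c => inR c && isLeech c) = true := by
  decide +kernel

theorem c_mem {c : ℕ} (h : c ∈ [cA, cB, cB', cC, cE, cF, cG]) : D c ∈ leechLattice := by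
  have := List.all_eq_true.1 c_ok _ h
  rw [Bool.and_eq_true] at this
  exact isLeech_spec _ (InR_of_inR this.1) this.2

def vA : ↥leechLattice := ⟨D cA, c_mem (by simp)⟩
def vB : ↥leechLattice := ⟨D cB, c_mem (by simp)⟩
def vB' : ↥leechLattice := ⟨D cB', c_mem (by simp)⟩
def vC : ↥leechLattice := ⟨D cC, c_mem (by simp)⟩
def vE : ↥leechLattice := ⟨D cE, c_mem (by simp)⟩
def vF : ↥leechLattice := ⟨D cF, c_mem (by simp)⟩
def vG : ↥leechLattice := ⟨D cG, c_mem (by simp)⟩

theorem c_norm : ∀ c ∈ [cA, cB, cB', cC, cE, cF, cG], ∑ p : GolayPt, D c p ^ 2 = 32 := by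
  decide +kernel

theorem nA : sqNorm (vA : GolayPt → ℤ) = 32 := c_norm cA (by simp)
theorem nB : sqNorm (vB : GolayPt → ℤ) = 32 := c_norm cB (by simp)
theorem nB' : sqNorm (vB' : GolayPt → ℤ) = 32 := c_norm cB' (by simp)
theorem nC : sqNorm (vC : GolayPt → ℤ) = 32 := c_norm cC (by simp)
theorem nE : sqNorm (vE : GolayPt → ℤ) = 32 := c_norm cE (by simp)
theorem nF : sqNorm (vF : GolayPt → ℤ) = 32 := c_norm cF (by simp)
theorem nG : sqNorm (vG : GolayPt → ℤ) = 32 := c_norm cG (by simp)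

theorem dAB : dotInt (vA : GolayPt → ℤ) (vB : GolayPt → ℤ) = -8 := by
  show ∑ p : GolayPt, D cA p * D cB p = -8
  decide +kernel
theorem dAB' : dotInt (vA : GolayPt → ℤ) (vB' : GolayPt → ℤ) = -8 := by
  show ∑ p : GolayPt, D cA p * D cB' p = -8
  decide +kernel
theorem dBB' : dotInt (vB : GolayPt → ℤ) (vB' : GolayPt → ℤ) = 16 := by
  show ∑ p : GolayPt, D cB p * D cB' p = 16
  decide +kernel
theorem dAC : dotInt (vA : GolayPt → ℤ) (vC : GolayPt → ℤ) = -8 := by
  show ∑ p : GolayPt, D cA p * D cC p = -8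
  decide +kernel
theorem dBC : dotInt (vB : GolayPt → ℤ) (vC : GolayPt → ℤ) = 0 := by
  show ∑ p : GolayPt, D cB p * D cC p = 0
  decide +kernel
theorem dBE : dotInt (vB : GolayPt → ℤ) (vE : GolayPt → ℤ) = -16 := by
  show ∑ p : GolayPt, D cB p * D cE p = -16
  decide +kernel
theorem dBF : dotInt (vB : GolayPt → ℤ) (vF : GolayPt → ℤ) = 0 := by
  show ∑ p : GolayPt, D cB p * D cF p = 0
  decide +kernel
theorem dEF : dotInt (vE : GolayPt → ℤ) (vF : GolayPt → ℤ) = 0 := by
  show ∑ p : GolayPt, D cE p * D cF p = 0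
  decide +kernel
theorem dBG : dotInt (vB : GolayPt → ℤ) (vG : GolayPt → ℤ) = 0 := by
  show ∑ p : GolayPt, D cB p * D cG p = 0
  decide +kernel
theorem dB'G : dotInt (vB' : GolayPt → ℤ) (vG : GolayPt → ℤ) = 16 := by
  show ∑ p : GolayPt, D cB' p * D cG p = 16
  decide +kernel

theorem dGF : dotInt (vG : GolayPt → ℤ) (vF : GolayPt → ℤ) = 16 := by
  show ∑ p : GolayPt, D cG p * D cF p = 16
  decide +kernel

/-! ### automorphisms acting as a sign on every minimal vector -/

theorem coe_add' (v w : ↥leechLattice) :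
    ((v + w : ↥leechLattice) : GolayPt → ℤ) = (v : GolayPt → ℤ) + (w : GolayPt → ℤ) := rfl

theorem coe_neg' (v : ↥leechLattice) :
    ((-v : ↥leechLattice) : GolayPt → ℤ) = -(v : GolayPt → ℤ) := rfl

theorem ne_neg_of_min {v : ↥leechLattice} (hv : sqNorm (v : GolayPt → ℤ) = 32) : v ≠ -v := by
  intro h
  have h1 : (v : GolayPt → ℤ) = 0 := by
    have h2 := congrArg (fun w : ↥leechLattice => (w : GolayPt → ℤ)) h
    simp only [coe_neg'] at h2
    funext p
    have h3 := congrFun h2 p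
    simp only [Pi.neg_apply, Pi.zero_apply] at h3 ⊢
    omega
  rw [h1, sqNorm_zero] at hv
  omega

/-- signs agree on non-orthogonal minimal vectors -/
theorem sign_agree (g : ↥Co0) {v w : ↥leechLattice}
    (hd : dotInt (v : GolayPt → ℤ) (w : GolayPt → ℤ) ≠ 0) (hv : g • v = v) (hw : g • w = -w) :
    False := by
  have h := dot_smul' g v w
  rw [hv, hw, coe_neg', dot_neg_right] at h
  omega

theorem exists_link (v w : ↥leechLattice) (hv : sqNorm (v : GolayPt → ℤ) = 32)
    (hw : sqNorm (w : GolayPt → ℤ) = 32) :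
    ∃ x : ↥leechLattice, sqNorm (x : GolayPt → ℤ) = 32 ∧
      dotInt (v : GolayPt → ℤ) (x : GolayPt → ℤ) ≠ 0 ∧
      dotInt (x : GolayPt → ℤ) (w : GolayPt → ℤ) ≠ 0 := by
  by_cases hd : dotInt (v : GolayPt → ℤ) (w : GolayPt → ℤ) = 0
  · obtain ⟨g, h1, h2⟩ := pair0_trans vB vG v w nB nG hv hw dBG hd
    refine ⟨g • vB', by rw [sqNorm_smul']; exact nB', ?_, ?_⟩
    · rw [← h1, dot_smul', dBB']; norm_num
    · rw [← h2, dot_smul', dB'G]; norm_num
  · refine ⟨v, hv, ?_, hd⟩
    rw [dot_self, hv]; norm_num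

/-- an automorphism which maps every minimal vector to itself or its opposite is `1` or `-1` -/
theorem eq_of_pm (g : ↥Co0)
    (h : ∀ v : ↥leechLattice, sqNorm (v : GolayPt → ℤ) = 32 → g • v = v ∨ g • v = -v) :
    (∀ v : ↥leechLattice, g • v = v) ∨ (∀ v : ↥leechLattice, g • v = -v) := by
  have hext : ∀ (P : ↥leechLattice → Prop), P 0 → (∀ v w, P v → P w → P (v + w)) →
      (∀ v, P v → P (-v)) → (∀ v : ↥leechLattice, sqNorm (v : GolayPt → ℤ) = 32 → P v) →
      ∀ v, P v := by
    intro P h0 hadd hneg hmin v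
    have hv : (v : GolayPt → ℤ) ∈
        AddSubgroup.closure {x : GolayPt → ℤ | x ∈ leechLattice ∧ sqNorm x = 32} := by
      rw [closure_min]; exact v.2
    have key : ∀ x (_ : x ∈ AddSubgroup.closure
        {x : GolayPt → ℤ | x ∈ leechLattice ∧ sqNorm x = 32}), ∀ hx : x ∈ leechLattice,
        P ⟨x, hx⟩ := by
      intro x hx
      induction hx using AddSubgroup.closure_induction with
      | mem x hx => intro hx'; exact hmin ⟨x, hx'⟩ hx.2
      | zero => intro _; exact h0
      | add x y hx hy ihx ihy =>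
        intro hxy
        have hxL : x ∈ leechLattice := by rw [← closure_min]; exact hx
        have hyL : y ∈ leechLattice := by rw [← closure_min]; exact hy
        exact hadd ⟨x, hxL⟩ ⟨y, hyL⟩ (ihx hxL) (ihy hyL)
      | neg x hx ihx =>
        intro hx'
        have hxL : x ∈ leechLattice := by rw [← closure_min]; exact hx
        exact hneg ⟨x, hxL⟩ (ihx hxL)
    exact key v hv v.2
  rcases h vB nB with hB | hB
  · left
    apply hext
    · exact smul_zero' g
    · intro v w hv hw; rw [smul_add', hv, hw]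
    · intro v hv; rw [smul_neg', hv]
    · intro v hv
      obtain ⟨x, hx, h1, h2⟩ := exists_link vB v nB hv
      rcases h x hx with hx' | hx'
      · rcases h v hv with hv' | hv'
        · exact hv'
        · exact (sign_agree g h2 hx' hv').elim
      · exact (sign_agree g h1 hB hx').elim
  · right
    apply hext
    · rw [smul_zero', neg_zero]
    · intro v w hv hw; rw [smul_add', hv, hw, neg_add]
    · intro v hv; rw [smul_neg', hv]
    · intro v hv
      obtain ⟨x, hx, h1, h2⟩ := exists_link vB v nB hv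
      rcases h x hx with hx' | hx'
      · exact (sign_agree g (by rw [dot_comm]; exact h1) hx' hB).elim
      · rcases h v hv with hv' | hv'
        · exact (sign_agree g (by rw [dot_comm]; exact h2) hv' hx').elim
        · exact hv'

/-- such an automorphism is central -/
theorem central_of_pm (g : ↥Co0)
    (h : ∀ v : ↥leechLattice, sqNorm (v : GolayPt → ℤ) = 32 → g • v = v ∨ g • v = -v) :
    g ∈ Subgroup.center ↥Co0 := by
  rw [Subgroup.mem_center_iff]
  intro k
  apply Subtype.ext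
  apply Equiv.ext
  intro v
  show k • (g • v) = g • (k • v)
  rcases eq_of_pm g h with h1 | h1
  · rw [h1, h1]
  · rw [h1, h1, smul_neg']

end Cfsg.Agent.Lib.Helper93LeechIrr
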