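import Cfsg.Agent.Lib.Helper93LeechCount

/-!
# Numbers of lattice vectors of small norm avoiding given coordinate values (helper93)
-/

set_option autoImplicit false
set_option exponentiation.threshold 10000000

namespace Cfsg.Agent.Lib.Helper93LeechShape

open Cfsg Finset
open Cfsg.Agent.Lib.Helper33Pack Cfsg.Agent.Lib.Helper93Kron Cfsg.Agent.Lib.Helper94Leech
open Cfsg.Agent.Lib.Helper9Golay2 (Csup four_dvd_card)
open Cfsg.Agent.Lib.Helper93LeechCount

variable (P : ℤ → Bool)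

def VrX (r : ℤ) : Finset ℤ := (Vr r).filter (fun v => P v = false)

def VVX (c : Finset GolayPt) (ra rb : ℤ) (i : GolayPt) : Finset ℤ :=
  if i ∈ c then VrX P ra else VrX P rb

def thetaX (r : ℤ) : ℕ := ∑ v ∈ VrX P r, 2 ^ (64 * ee v)

def FibX (ra rb : ℤ) (m n : ℕ) (c : Finset GolayPt) : Finset (GolayPt → ℤ) :=
  (Fib ra rb m n c).filter (fun x => ∀ i, P (x i) = false)

theorem FibX_eq (ra rb : ℤ) (m n : ℕ) (c : Finset GolayPt) :
    FibX P ra rb m n c =
      (Fintype.piFinset (VVX P c ra rb)).filter (fun x => ∑ i, ee (x i) ∈ TT n m) := by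
  ext x
  rw [FibX, Fib, Finset.mem_filter, Finset.mem_filter, Finset.mem_filter, Fintype.mem_piFinset,
    Fintype.mem_piFinset]
  constructor
  · rintro ⟨⟨h1, h2⟩, h3⟩
    refine ⟨fun i => ?_, h2⟩
    have h4 := h1 i
    unfold VV at h4
    unfold VVX VrX
    split_ifs at h4 ⊢ <;> exact Finset.mem_filter.2 ⟨h4, h3 i⟩
  · rintro ⟨h1, h2⟩
    refine ⟨⟨fun i => ?_, h2⟩, fun i => ?_⟩
    · have h4 := h1 i
      unfold VVX VrX at h4
      unfold VV
      split_ifs at h4 ⊢ <;> exact (Finset.mem_filter.1 h4).1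
    · have h4 := h1 i
      unfold VVX VrX at h4
      split_ifs at h4 <;> exact (Finset.mem_filter.1 h4).2

theorem card_FibX (c : Finset GolayPt) {ra rb : ℤ} {m : ℕ} (hp : Pat ra rb m) (n : ℕ) :
    (FibX P ra rb m n c).card =
      ∑ E ∈ TT n m, dg 64 (thetaX P ra ^ c.card * thetaX P rb ^ (24 - c.card)) E := by
  rw [FibX_eq]
  have ha : (VrX P ra).card ≤ 5 := (Finset.card_filter_le _ _).trans (card_Vr_le ra (by
    unfold Pat at hp
    rcases hp with ⟨rfl, _, _⟩ | ⟨rfl, _, _⟩ <;> simp))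
  have hb : (VrX P rb).card ≤ 5 := (Finset.card_filter_le _ _).trans (card_Vr_le rb (by
    unfold Pat at hp
    rcases hp with ⟨_, rfl, _⟩ | ⟨_, rfl, _⟩ <;> simp))
  rw [card_filter_mem_eq_sum (VVX P c ra rb) ee 64]
  · have : ∏ i, ∑ v ∈ VVX P c ra rb i, 2 ^ (64 * ee v)
        = thetaX P ra ^ c.card * thetaX P rb ^ (24 - c.card) := by
      have h : ∀ i, ∑ v ∈ VVX P c ra rb i, 2 ^ (64 * ee v)
          = if i ∈ c then thetaX P ra else thetaX P rb := by
        intro i
        unfold VVX thetaX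
        split_ifs <;> rfl
      rw [Finset.prod_congr rfl (fun i _ => h i), Finset.prod_ite, Finset.prod_const,
        Finset.prod_const, Finset.filter_mem_eq_inter, Finset.univ_inter, Finset.filter_not,
        Finset.filter_mem_eq_inter, Finset.univ_inter, ← Finset.compl_eq_univ_sdiff,
        Finset.card_compl]
      rfl
    rw [this]
  · calc ∏ i, (VVX P c ra rb i).card ≤ 5 ^ (Finset.univ : Finset GolayPt).card := by
          apply Finset.prod_le_pow_card
          intro i _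
          unfold VVX
          split_ifs
          · exact ha
          · exact hb
      _ < 2 ^ 64 := by rw [card_pts]; norm_num

def feX (n w : ℕ) : ℕ := ∑ E ∈ TT n 0, dg 64 (thetaX P 2 ^ w * thetaX P 0 ^ (24 - w)) E
def foX (n w : ℕ) : ℕ := ∑ E ∈ TT n 1, dg 64 (thetaX P 1 ^ w * thetaX P 3 ^ (24 - w)) E

def totX (n : ℕ) : ℕ := (feX P n 0 + foX P n 0) + 759 * (feX P n 8 + foX P n 8) +
  2576 * (feX P n 12 + foX P n 12) + 759 * (feX P n 16 + foX P n 16) + (feX P n 24 + foX P n 24)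

theorem card_SFXg (C : Finset (Finset GolayPt)) (hC : ∀ c ∈ C, c ∈ Csup) (n : ℕ) :
    ((C.biUnion (Fib 2 0 0 n) ∪ C.biUnion (Fib 1 3 1 n)).filter
      (fun x => ∀ i, P (x i) = false)).card =
      ∑ c ∈ C, (feX P n c.card + foX P n c.card) := by
  have e0 : ∀ c ∈ C, (FibX P 2 0 0 n c).card = feX P n c.card := fun c _ => card_FibX P c pat0 n
  have e1 : ∀ c ∈ C, (FibX P 1 3 1 n c).card = foX P n c.card := fun c _ => card_FibX P c pat1 n
  have hsub : ∀ ra rb m c, FibX P ra rb m n c ⊆ Fib ra rb m n c := fun _ _ _ _ =>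
    Finset.filter_subset _ _
  have hd : Disjoint (C.biUnion (FibX P 2 0 0 n)) (C.biUnion (FibX P 1 3 1 n)) := by
    rw [Finset.disjoint_left]
    intro x hx hx'
    obtain ⟨c, hc, h⟩ := Finset.mem_biUnion.1 hx
    obtain ⟨c', hc', h'⟩ := Finset.mem_biUnion.1 hx'
    have h1 := ((mem_Fib (hC c hc) pat0 n x).1 (hsub 2 0 0 c h)).2.1 none
    have h2 := ((mem_Fib (hC c' hc') pat1 n x).1 (hsub 1 3 1 c' h')).2.1 none
    split_ifs at h1 h2 <;> omega
  have hS : (C.biUnion (Fib 2 0 0 n) ∪ C.biUnion (Fib 1 3 1 n)).filter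
      (fun x => ∀ i, P (x i) = false)
      = C.biUnion (FibX P 2 0 0 n) ∪ C.biUnion (FibX P 1 3 1 n) := by
    unfold FibX
    rw [Finset.filter_union, Finset.filter_biUnion, Finset.filter_biUnion]
  rw [hS, Finset.card_union_of_disjoint hd,
    Finset.card_biUnion (fun c hc c' hc' hne => Finset.disjoint_of_subset_left (hsub _ _ _ _)
      (Finset.disjoint_of_subset_right (hsub _ _ _ _)
        (Fib_disjoint pat0 n (hC c hc) (hC c' hc') hne))),
    Finset.card_biUnion (fun c hc c' hc' hne => Finset.disjoint_of_subset_left (hsub _ _ _ _)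
      (Finset.disjoint_of_subset_right (hsub _ _ _ _)
        (Fib_disjoint pat1 n (hC c hc) (hC c' hc') hne))),
    Finset.sum_add_distrib, Finset.sum_congr rfl e0, Finset.sum_congr rfl e1]

theorem card_SFX (n : ℕ) :
    ((SF n).filter (fun x => ∀ i, P (x i) = false)).card =
      ∑ c ∈ CF, (feX P n c.card + foX P n c.card) :=
  card_SFXg P CF (fun _ hc => mem_CF.1 hc) n

/-- the number of lattice vectors of given small norm avoiding the coordinate values in `P` -/
theorem ncard_normX (n : ℕ) (hn : n ≤ 64) :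
    {x : GolayPt → ℤ | x ∈ leechLattice ∧ sqNorm x = n ∧ ∀ i, P (x i) = false}.ncard
      = totX P n := by
  have h : {x : GolayPt → ℤ | x ∈ leechLattice ∧ sqNorm x = n ∧ ∀ i, P (x i) = false}
      = ↑((SF n).filter (fun x => ∀ i, P (x i) = false)) := by
    ext x
    have h1 : (x ∈ leechLattice ∧ sqNorm x = n) ↔ x ∈ SF n := Set.ext_iff.1 (coe_SF n hn) x
    rw [Finset.mem_coe, Finset.mem_filter, ← h1]
    exact ⟨fun h => ⟨⟨h.1, h.2.1⟩, h.2.2⟩, fun h => ⟨h.1.1, h.1.2, h.2⟩⟩
  rw [h, Set.ncard_coe_finset, card_SFX, sum_CF (fun w => feX P n w + foX P n w)]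
  rfl

/-- complementary count -/
theorem ncard_norm_exists (n : ℕ) (hn : n ≤ 64) :
    {x : GolayPt → ℤ | x ∈ leechLattice ∧ sqNorm x = n ∧ ∃ i, P (x i) = true}.ncard
      = tot n - totX P n := by
  have h1 := ncard_norm n hn
  have h2 := ncard_normX P n hn
  have hfin : {x : GolayPt → ℤ | x ∈ leechLattice ∧ sqNorm x = n}.Finite := by
    rw [coe_SF n hn]; exact Finset.finite_toSet _
  have h3 : {x : GolayPt → ℤ | x ∈ leechLattice ∧ sqNorm x = n ∧ ∃ i, P (x i) = true}
      = {x : GolayPt → ℤ | x ∈ leechLattice ∧ sqNorm x = n} \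
        {x : GolayPt → ℤ | x ∈ leechLattice ∧ sqNorm x = n ∧ ∀ i, P (x i) = false} := by
    ext x
    constructor
    · rintro ⟨a, b, i, hi⟩
      refine ⟨⟨a, b⟩, fun h => ?_⟩
      have := h.2.2 i
      rw [hi] at this
      exact absurd this (by decide)
    · rintro ⟨⟨a, b⟩, h⟩
      refine ⟨a, b, ?_⟩
      by_contra hcon
      push Not at hcon
      exact h ⟨a, b, fun i => by simpa using hcon i⟩
  have hsub : {x : GolayPt → ℤ | x ∈ leechLattice ∧ sqNorm x = n ∧ ∀ i, P (x i) = false} ⊆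
      {x : GolayPt → ℤ | x ∈ leechLattice ∧ sqNorm x = n} := fun x hx => ⟨hx.1, hx.2.1⟩
  rw [h3, Set.ncard_sdiff hsub (hfin.subset hsub), h1, h2]

end Cfsg.Agent.Lib.Helper93LeechShape
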