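import Mathlib
import Cfsg.Prelude.Def_AxialAlgebras

set_option autoImplicit false

namespace Cfsg.Agent.Lib.Helper93Majorana

open Cfsg.Axial

variable {V : Type*} [AddCommGroup V] [Module ℝ V] {mul : V →ₗ[ℝ] V →ₗ[ℝ] V}
  {B : LinearMap.BilinForm ℝ V} {μ : V ≃ₗ[ℝ] V} {a : V}

theorem mem_eigen {a v : V} {c : ℝ} : v ∈ eigen mul a c ↔ mul a v = c • v :=
  Module.End.mem_eigenspace_iff

theorem eigenSum_singleton (a : V) (c : ℝ) : eigenSum mul a {c} = eigen mul a c := by
  simp [eigenSum]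

theorem eigenSum_insert (a : V) (c : ℝ) (S : Set ℝ) :
    eigenSum mul a (insert c S) = eigen mul a c ⊔ eigenSum mul a S := by
  unfold eigenSum
  exact iSup_insert

theorem law00 : monsterLaw (1 / 4 : ℝ) (1 / 32) 0 0 = {0} := by
  unfold monsterLaw
  rw [if_neg (by norm_num), if_neg (by norm_num), if_neg (by norm_num), if_neg (by norm_num),
    if_pos rfl]

theorem law04 : monsterLaw (1 / 4 : ℝ) (1 / 32) 0 (1 / 4) = {1 / 4} := by
  unfold monsterLaw
  rw [if_neg (by norm_num), if_neg (by norm_num), if_neg (by norm_num), if_pos (by norm_num)]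

theorem law44 : monsterLaw (1 / 4 : ℝ) (1 / 32) (1 / 4) (1 / 4) = {1, 0} := by
  unfold monsterLaw
  rw [if_neg (by norm_num), if_neg (by norm_num), if_pos (by norm_num)]

theorem law0t : monsterLaw (1 / 4 : ℝ) (1 / 32) 0 (1 / 32) = {1 / 32} := by
  unfold monsterLaw
  rw [if_neg (by norm_num), if_pos (by norm_num)]

theorem law4t : monsterLaw (1 / 4 : ℝ) (1 / 32) (1 / 4) (1 / 32) = {1 / 32} := by
  unfold monsterLaw
  rw [if_neg (by norm_num), if_pos (by norm_num)]

theorem lawtt : monsterLaw (1 / 4 : ℝ) (1 / 32) (1 / 32) (1 / 32) = {1, 0, 1 / 4} := by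
  unfold monsterLaw
  rw [if_pos (by norm_num)]

theorem mem0 : (0 : ℝ) ∈ majoranaSpectrum := by simp [majoranaSpectrum]
theorem mem1 : (1 : ℝ) ∈ majoranaSpectrum := by simp [majoranaSpectrum]
theorem mem4 : (1 / 4 : ℝ) ∈ majoranaSpectrum := by simp [majoranaSpectrum]
theorem memt : (1 / 32 : ℝ) ∈ majoranaSpectrum := by simp [majoranaSpectrum]

theorem ne_zero (h : IsMajoranaPair mul B μ a) : a ≠ 0 := h.2.2.1.1.1

theorem idem (h : IsMajoranaPair mul B μ a) : mul a a = a := h.2.2.1.1.2.1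

theorem mu_mul (h : IsMajoranaPair mul B μ a) (u v : V) : μ (mul u v) = mul (μ u) (μ v) := h.1 u v

theorem mu_B (h : IsMajoranaPair mul B μ a) (u v : V) : B (μ u) (μ v) = B u v := h.2.1 u v

theorem decomp (h : IsMajoranaPair mul B μ a) (v : V) :
    ∃ v1 v0 v4 vt : V, v = v1 + v0 + v4 + vt ∧ mul a v1 = v1 ∧ mul a v0 = 0 ∧
      mul a v4 = (1 / 4 : ℝ) • v4 ∧ mul a vt = (1 / 32 : ℝ) • vt := by
  have htop : eigenSum mul a majoranaSpectrum = ⊤ := h.2.2.1.1.2.2.1
  have hv : v ∈ eigenSum mul a majoranaSpectrum := by rw [htop]; trivial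
  unfold majoranaSpectrum at hv
  rw [eigenSum_insert, eigenSum_insert, eigenSum_insert, eigenSum_singleton] at hv
  obtain ⟨v1, h1, w, hw, rfl⟩ := Submodule.mem_sup.mp hv
  obtain ⟨v0, h0, w', hw', rfl⟩ := Submodule.mem_sup.mp hw
  obtain ⟨v4, h4, vt, ht, rfl⟩ := Submodule.mem_sup.mp hw'
  refine ⟨v1, v0, v4, vt, by abel, ?_, ?_, mem_eigen.mp h4, mem_eigen.mp ht⟩
  · simpa using mem_eigen.mp h1
  · simpa using mem_eigen.mp h0

theorem one_eigen (h : IsMajoranaPair mul B μ a) {v : V} (hv : mul a v = v) :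
    ∃ c : ℝ, v = c • a := by
  have hs : eigen mul a 1 = Submodule.span ℝ {a} := h.2.2.1.2
  have : v ∈ eigen mul a 1 := mem_eigen.mpr (by simpa using hv)
  rw [hs] at this
  obtain ⟨c, hc⟩ := Submodule.mem_span_singleton.mp this
  exact ⟨c, hc.symm⟩

theorem fusion (h : IsMajoranaPair mul B μ a) {c d : ℝ} (hc : c ∈ majoranaSpectrum)
    (hd : d ∈ majoranaSpectrum) {u v : V} (hu : mul a u = c • u) (hv : mul a v = d • v) :
    mul u v ∈ eigenSum mul a (monsterLaw (1 / 4) (1 / 32) c d) :=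
  h.2.2.1.1.2.2.2 c hc d hd u (mem_eigen.mpr hu) v (mem_eigen.mpr hv)

theorem fus00 (h : IsMajoranaPair mul B μ a) {u v : V} (hu : mul a u = 0) (hv : mul a v = 0) :
    mul a (mul u v) = 0 := by
  have := fusion h mem0 mem0 (u := u) (v := v) (by simpa using hu) (by simpa using hv)
  rw [law00, eigenSum_singleton] at this
  simpa using mem_eigen.mp this

theorem fus04 (h : IsMajoranaPair mul B μ a) {u v : V} (hu : mul a u = 0)
    (hv : mul a v = (1 / 4 : ℝ) • v) : mul a (mul u v) = (1 / 4 : ℝ) • mul u v := by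
  have := fusion h mem0 mem4 (u := u) (v := v) (by simpa using hu) hv
  rw [law04, eigenSum_singleton] at this
  exact mem_eigen.mp this

theorem fus44 (h : IsMajoranaPair mul B μ a) {u v : V} (hu : mul a u = (1 / 4 : ℝ) • u)
    (hv : mul a v = (1 / 4 : ℝ) • v) :
    ∃ p1 p0 : V, mul u v = p1 + p0 ∧ mul a p1 = p1 ∧ mul a p0 = 0 := by
  have := fusion h mem4 mem4 hu hv
  rw [law44, eigenSum_insert, eigenSum_singleton] at this
  obtain ⟨p1, h1, p0, h0, e⟩ := Submodule.mem_sup.mp this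
  exact ⟨p1, p0, e.symm, by simpa using mem_eigen.mp h1, by simpa using mem_eigen.mp h0⟩

theorem fus0t (h : IsMajoranaPair mul B μ a) {u v : V} (hu : mul a u = 0)
    (hv : mul a v = (1 / 32 : ℝ) • v) : mul a (mul u v) = (1 / 32 : ℝ) • mul u v := by
  have := fusion h mem0 memt (u := u) (v := v) (by simpa using hu) hv
  rw [law0t, eigenSum_singleton] at this
  exact mem_eigen.mp this

theorem fus4t (h : IsMajoranaPair mul B μ a) {u v : V} (hu : mul a u = (1 / 4 : ℝ) • u)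
    (hv : mul a v = (1 / 32 : ℝ) • v) : mul a (mul u v) = (1 / 32 : ℝ) • mul u v := by
  have := fusion h mem4 memt hu hv
  rw [law4t, eigenSum_singleton] at this
  exact mem_eigen.mp this

theorem fustt (h : IsMajoranaPair mul B μ a) {u v : V} (hu : mul a u = (1 / 32 : ℝ) • u)
    (hv : mul a v = (1 / 32 : ℝ) • v) :
    ∃ p1 p0 p4 : V, mul u v = p1 + p0 + p4 ∧ mul a p1 = p1 ∧ mul a p0 = 0 ∧
      mul a p4 = (1 / 4 : ℝ) • p4 := by
  have := fusion h memt memt hu hv
  rw [lawtt, eigenSum_insert, eigenSum_insert, eigenSum_singleton] at this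
  obtain ⟨p1, h1, w, hw, e⟩ := Submodule.mem_sup.mp this
  obtain ⟨p0, h0, p4, h4, rfl⟩ := Submodule.mem_sup.mp hw
  exact ⟨p1, p0, p4, by rw [← e]; abel, by simpa using mem_eigen.mp h1,
    by simpa using mem_eigen.mp h0, mem_eigen.mp h4⟩

theorem mu_fix1 (h : IsMajoranaPair mul B μ a) {v : V} (hv : mul a v = v) : μ v = v := by
  have hm := h.2.2.2.1 v
  apply hm
  rw [eigenSum_insert]
  exact Submodule.mem_sup_left (mem_eigen.mpr (by simpa using hv))

theorem mu_fix0 (h : IsMajoranaPair mul B μ a) {v : V} (hv : mul a v = 0) : μ v = v := by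
  have hm := h.2.2.2.1 v
  apply hm
  rw [eigenSum_insert, eigenSum_insert]
  exact Submodule.mem_sup_right (Submodule.mem_sup_left (mem_eigen.mpr (by simpa using hv)))

theorem mu_fix4 (h : IsMajoranaPair mul B μ a) {v : V} (hv : mul a v = (1 / 4 : ℝ) • v) :
    μ v = v := by
  have hm := h.2.2.2.1 v
  apply hm
  rw [eigenSum_insert, eigenSum_insert, eigenSum_singleton]
  exact Submodule.mem_sup_right (Submodule.mem_sup_right (mem_eigen.mpr hv))

theorem mu_negt (h : IsMajoranaPair mul B μ a) {v : V} (hv : mul a v = (1 / 32 : ℝ) • v) :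
    μ v = -v := h.2.2.2.2 v (mem_eigen.mpr hv)

/-! transport of Majorana pairs along automorphisms -/

theorem eigen_map (g : V ≃ₗ[ℝ] V) (hg : ∀ u v : V, g (mul u v) = mul (g u) (g v)) (a : V) (c : ℝ) :
    eigen mul (g a) c = (eigen mul a c).map (g : V →ₗ[ℝ] V) := by
  ext v
  rw [mem_eigen, Submodule.mem_map]
  constructor
  · intro h
    refine ⟨g.symm v, ?_, by simp⟩
    rw [mem_eigen]
    apply g.injective
    rw [hg, map_smul, LinearEquiv.apply_symm_apply, h]
  · rintro ⟨w, hw, rfl⟩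
    rw [mem_eigen] at hw
    show mul (g a) (g w) = c • g w
    rw [← hg, hw, map_smul]

theorem eigenSum_map (g : V ≃ₗ[ℝ] V) (hg : ∀ u v : V, g (mul u v) = mul (g u) (g v)) (a : V)
    (S : Set ℝ) : eigenSum mul (g a) S = (eigenSum mul a S).map (g : V →ₗ[ℝ] V) := by
  unfold eigenSum
  simp only [Submodule.map_iSup, eigen_map g hg]

theorem pair_transport (h : IsMajoranaPair mul B μ a) (g : V ≃ₗ[ℝ] V)
    (hg : ∀ u v : V, g (mul u v) = mul (g u) (g v)) (hc : ∀ v, μ (g v) = g (μ v)) :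
    IsMajoranaPair mul B μ (g a) := by
  refine ⟨h.1, h.2.1, ⟨⟨?_, ?_, ?_, ?_⟩, ?_⟩, ?_, ?_⟩
  · intro h0
    exact ne_zero h (g.map_eq_zero_iff.mp h0)
  · rw [← hg, idem h]
  · rw [eigenSum_map g hg, h.2.2.1.1.2.2.1, Submodule.map_top]
    exact LinearMap.range_eq_top.mpr g.surjective
  · intro c hc' d hd u hu v hv
    rw [eigen_map g hg] at hu hv
    obtain ⟨u', hu', rfl⟩ := hu
    obtain ⟨v', hv', rfl⟩ := hv
    rw [eigenSum_map g hg]
    refine ⟨mul u' v', h.2.2.1.1.2.2.2 c hc' d hd u' hu' v' hv', ?_⟩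
    exact hg u' v'
  · rw [eigen_map g hg, h.2.2.1.2, Submodule.map_span, Set.image_singleton]
    rfl
  · intro v hv
    rw [eigenSum_map g hg] at hv
    obtain ⟨v', hv', rfl⟩ := hv
    show μ (g v') = g v'
    rw [hc]
    congr 1
    exact h.2.2.2.1 v' hv'
  · intro v hv
    rw [eigen_map g hg] at hv
    obtain ⟨v', hv', rfl⟩ := hv
    show μ (g v') = - g v'
    rw [hc, ← map_neg]
    congr 1
    exact h.2.2.2.2 v' hv'

end Cfsg.Agent.Lib.Helper93Majorana
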