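import Cfsg.Prelude.Def_MonsterType
import Cfsg.Agent.Lib.Helper3Extraspecial
import Cfsg.Agent.Lib.Helper93LeechIrr
import Cfsg.Agent.S5552

/-!
# Groups of Monster type: the squaring form on `Q/Z(Q)` (helper93)

`eps_sq` : for `x ∈ Q` lying over the lattice vector `v`, `x² = 1` iff `|v|²/16` is even
(uniqueness of the invariant quadratic form on the lattice modulo 2);
`conj_of_same_norm` : elements of `Q` over short vectors of the same norm are conjugate in `C`.
-/

set_option autoImplicit false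

namespace Cfsg.Agent.Lib.Helper93Monster

open Cfsg
open scoped commutatorElement

/-! ### extraspecial 2-groups, elementwise (after helper91) -/

/-- elementwise description of an extraspecial 2-group with central involution `c`. -/
structure Pk (E : Type*) [Group E] (c : E) : Prop where
  ne : c ≠ 1
  sq : c * c = 1
  cen : ∀ x : E, x ∈ Subgroup.center E ↔ x = 1 ∨ x = c
  sqm : ∀ x : E, x * x = 1 ∨ x * x = c
  com : ∀ x y : E, ⁅x, y⁆ = 1 ∨ ⁅x, y⁆ = c

theorem exists_pk {E : Type*} [Group E] [Finite E] (hE : Cfsg.IsExtraspecial 2 E) :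
    ∃ c : E, Pk E c := by
  have : Fact (Nat.Prime 2) := ⟨Nat.prime_two⟩
  obtain ⟨z, hz, huniq⟩ := (Nat.card_eq_two_iff' (1 : Subgroup.center E)).1 hE.2
  have hcen : ∀ x : E, x ∈ Subgroup.center E ↔ x = 1 ∨ x = (z : E) := by
    intro x
    constructor
    · intro hx
      by_cases h1 : x = 1
      · left; exact h1
      · right
        have := huniq ⟨x, hx⟩ (fun h => h1 (congrArg Subtype.val h))
        exact congrArg Subtype.val this
    · rintro (rfl | rfl)
      · exact Subgroup.one_mem _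
      · exact z.2
  have hz1 : (z : E) ≠ 1 := fun h => hz (Subtype.ext h)
  refine ⟨z, hz1, ?_, hcen, ?_, ?_⟩
  · rcases (hcen _).1 (Subgroup.mul_mem _ z.2 z.2) with h | h
    · exact h
    · exfalso; apply hz1
      simpa using h
  · intro x
    have h1 : x ^ 2 ∈ frattini E := Cfsg.Agent.Lib.Helper3PGroup.pow_mem_frattini hE.1.1 x
    rw [hE.1.2.1, sq] at h1
    exact (hcen _).1 h1
  · intro x y
    exact (hcen _).1 (Cfsg.Agent.Lib.Helper3Extraspecial.comm_central hE x y)

open Classical in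
/-- indicator of non-triviality, with values in the field of two elements. -/
noncomputable def ep {E : Type*} [Group E] (g : E) : ZMod 2 := if g = 1 then 0 else 1

theorem ep_one {E : Type*} [Group E] : ep (1 : E) = 0 := if_pos rfl

theorem ep_of_ne {E : Type*} [Group E] {g : E} (h : g ≠ 1) : ep g = 1 := if_neg h

theorem ep_eq_zero {E : Type*} [Group E] {g : E} (h : ep g = 0) : g = 1 := by
  by_contra hg
  rw [ep_of_ne hg] at h
  exact absurd h (by decide)

theorem ep_congr {E F : Type*} [Group E] [Group F] {a : E} {b : F} (h : a = 1 ↔ b = 1) :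
    ep a = ep b := by
  by_cases ha : a = 1
  · rw [ha, h.1 ha, ep_one, ep_one]
  · rw [ep_of_ne ha, ep_of_ne (fun hb => ha (h.2 hb))]

section pk
variable {E : Type*} [Group E] {c : E}

theorem Pk.ep_mul (h : Pk E c) {a b : E} (ha : a = 1 ∨ a = c) (hb : b = 1 ∨ b = c) :
    ep (a * b) = ep a + ep b := by
  rcases ha with rfl | rfl <;> rcases hb with rfl | rfl
  · simp [ep_one]
  · simp [ep_one]
  · simp [ep_one]
  · rw [h.sq, ep_one, ep_of_ne h.ne]; decide

theorem Pk.z_comm (h : Pk E c) (g : E) : g * c = c * g :=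
  (Subgroup.mem_center_iff.1 ((h.cen c).2 (Or.inr rfl))) g

theorem Pk.c_comm (h : Pk E c) {d : E} (hd : d = 1 ∨ d = c) (g : E) : g * d = d * g := by
  rcases hd with rfl | rfl
  · simp
  · exact h.z_comm g

theorem Pk.c_sq (h : Pk E c) {d : E} (hd : d = 1 ∨ d = c) : d * d = 1 := by
  rcases hd with rfl | rfl
  · simp
  · exact h.sq

theorem Pk.comm_mul (h : Pk E c) (x x' y : E) : ⁅x * x', y⁆ = ⁅x, y⁆ * ⁅x', y⁆ := by
  have hc := h.c_comm (h.com x' y)
  have e : ⁅x * x', y⁆ = x * ⁅x', y⁆ * y * x⁻¹ * y⁻¹ := by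
    simp only [commutatorElement_def]; group
  rw [e, hc x, hc ⁅x, y⁆, commutatorElement_def x y]
  simp only [mul_assoc]

theorem Pk.comm_symm (h : Pk E c) (x y : E) : ⁅x, y⁆ = ⁅y, x⁆ := by
  have h1 : ⁅x, y⁆ = ⁅y, x⁆⁻¹ := (commutatorElement_inv y x).symm
  rw [h1]
  exact inv_eq_of_mul_eq_one_left (h.c_sq (h.com y x))

theorem Pk.sq_mul (h : Pk E c) (x y : E) : x * y * (x * y) = (x * x) * (y * y) * ⁅x, y⁆ := by
  rw [h.comm_symm x y]
  have hc := h.c_comm (h.com y x)
  have e : x * y * (x * y) = x * (⁅y, x⁆ * x * y) * y := by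
    rw [commutatorElement_def]; group
  rw [e]
  generalize ⁅y, x⁆ = d at hc
  calc x * (d * x * y) * y = (x * d) * (x * (y * y)) := by simp only [mul_assoc]
    _ = (d * x) * (x * (y * y)) := by rw [hc x]
    _ = d * (x * x * (y * y)) := by simp only [mul_assoc]
    _ = x * x * (y * y) * d := (hc _).symm

theorem Pk.ep_sq_mul (h : Pk E c) (x y : E) :
    ep (x * y * (x * y)) = ep (x * x) + ep (y * y) + ep ⁅x, y⁆ := by
  rw [h.sq_mul]
  have h1 : (x * x) * (y * y) = 1 ∨ (x * x) * (y * y) = c := by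
    rcases h.sqm x with e | e <;> rcases h.sqm y with e' | e' <;> rw [e, e']
    · left; simp
    · right; simp
    · right; simp
    · left; exact h.sq
  rw [h.ep_mul h1 (h.com _ _), h.ep_mul (h.sqm _) (h.sqm _)]

theorem Pk.mk_eq (h : Pk E c) {x y : E}
    (hxy : (QuotientGroup.mk x : E ⧸ Subgroup.center E) = QuotientGroup.mk y) :
    ∃ d, (d = 1 ∨ d = c) ∧ y = x * d :=
  ⟨x⁻¹ * y, (h.cen _).1 (QuotientGroup.eq.1 hxy), by group⟩

theorem Pk.sq_indep (h : Pk E c) {x y : E}
    (hxy : (QuotientGroup.mk x : E ⧸ Subgroup.center E) = QuotientGroup.mk y) : x * x = y * y := by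
  obtain ⟨d, hd, rfl⟩ := h.mk_eq hxy
  have e : x * d * (x * d) = x * (d * x) * d := by group
  rw [e, ← h.c_comm hd x, mul_assoc, mul_assoc, h.c_sq hd, mul_one]

end pk

/-! ### the Monster-type setting -/

section setting
variable {G : Type*} [Group G] {z : G}
  {Q : Subgroup (Subgroup.centralizer ({z} : Set G))} [Q.Normal]
  {e : (Subgroup.centralizer ({z} : Set G)) ⧸ Q ≃* Spor.Co1}
  {ψ : leechLattice → Q ⧸ Subgroup.center Q}

/-- conjugation of an element of `Q` by an element of `C` -/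
def cj (h : Subgroup.centralizer ({z} : Set G)) (q : Q) : Q :=
  ⟨h * q * h⁻¹, (inferInstance : Q.Normal).conj_mem (q : Subgroup.centralizer ({z} : Set G)) q.2 h⟩

theorem psi_dbl (hψ : IsLeechModTwoIso Q e ψ) (w : leechLattice) : ψ (w + w) = 1 :=
  (hψ.2.2.1 _).2 ⟨w, rfl⟩

theorem psi_coset (hψ : IsLeechModTwoIso Q e ψ) (v w : leechLattice) : ψ (v + (w + w)) = ψ v := by
  rw [hψ.1, psi_dbl hψ, mul_one]

theorem psi_zero (hψ : IsLeechModTwoIso Q e ψ) : ψ 0 = 1 := by
  have := psi_dbl hψ 0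
  rwa [add_zero] at this

theorem exists_lift (e : (Subgroup.centralizer ({z} : Set G)) ⧸ Q ≃* Spor.Co1) (g : Co0) :
    ∃ h : Subgroup.centralizer ({z} : Set G), (QuotientGroup.mk g : Spor.Co1) = e (QuotientGroup.mk h) := by
  obtain ⟨hb, hh⟩ := e.surjective (QuotientGroup.mk g)
  obtain ⟨h, rfl⟩ := QuotientGroup.mk_surjective hb
  exact ⟨h, hh.symm⟩

theorem psi_smul (hψ : IsLeechModTwoIso Q e ψ) (g : Co0) :
    ∃ h : Subgroup.centralizer ({z} : Set G), ∀ (v : leechLattice) (q : Q),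
      ψ v = QuotientGroup.mk q → ψ (g • v) = QuotientGroup.mk (cj h q) := by
  obtain ⟨h, hh⟩ := exists_lift e g
  exact ⟨h, fun v q hq => hψ.2.2.2 h g hh v q hq⟩

theorem cj_sq_eq_one_iff (h : Subgroup.centralizer ({z} : Set G)) (q : Q) :
    cj h q * cj h q = 1 ↔ q * q = 1 := by
  have e1 : ((cj h q * cj h q : Q) : Subgroup.centralizer ({z} : Set G))
      = h * ((q * q : Q) : Subgroup.centralizer ({z} : Set G)) * h⁻¹ := by
    show h * q * h⁻¹ * (h * q * h⁻¹) = h * ((q : Subgroup.centralizer ({z} : Set G)) * q) * h⁻¹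
    group
  constructor
  · intro hh
    have h2 := congrArg (fun x : Q => (x : Subgroup.centralizer ({z} : Set G))) hh
    simp only [e1] at h2
    apply Subtype.ext
    have h3 : h * ((q * q : Q) : Subgroup.centralizer ({z} : Set G)) * h⁻¹ = 1 := h2
    rwa [conj_eq_one_iff] at h3
  · intro hh
    apply Subtype.ext
    rw [e1, hh]
    simp

/-- a lift of `ψ v` to `Q` -/
noncomputable def lift (ψ : leechLattice → Q ⧸ Subgroup.center Q) (v : leechLattice) : Q := (ψ v).out

omit [Q.Normal] in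
theorem mk_lift (v : leechLattice) : (QuotientGroup.mk (lift ψ v) : Q ⧸ Subgroup.center Q) = ψ v :=
  QuotientGroup.out_eq' _

/-- the squaring form -/
noncomputable def qf (ψ : leechLattice → Q ⧸ Subgroup.center Q) (v : leechLattice) : ZMod 2 :=
  ep (lift ψ v * lift ψ v)

omit [Q.Normal] in
theorem qf_spec {c : Q} (hP : Pk Q c) {v : leechLattice} {x : Q} (hx : ψ v = QuotientGroup.mk x) :
    qf ψ v = ep (x * x) := by
  unfold qf
  rw [hP.sq_indep ((mk_lift v).trans hx)]

/-- the squaring form is the norm form -/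
theorem qf_eq [Finite G] (hE : IsExtraspecial 2 Q) (hψ : IsLeechModTwoIso Q e ψ) (v : leechLattice) :
    qf ψ v = ((sqNorm (v : GolayPt → ℤ) / 16 : ℤ) : ZMod 2) := by
  obtain ⟨c, hP⟩ := exists_pk hE
  have hl : ∀ v, ψ v = QuotientGroup.mk (lift ψ v) := fun v => (mk_lift v).symm
  have hadd : ∀ u v : leechLattice, ψ (u + v) = QuotientGroup.mk (lift ψ u * lift ψ v) := by
    intro u v
    rw [hψ.1, hl u, hl v]; rfl
  apply Cfsg.Agent.S5552.result (qf ψ)
  · intro v w
    rw [qf_spec hP (hl v), qf_spec hP ((psi_coset hψ v w).trans (hl v))]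
  · intro u v w
    have h3 : ψ (u + v + w) = QuotientGroup.mk (lift ψ u * lift ψ v * lift ψ w) := by
      rw [hψ.1, hadd, hl w]; rfl
    rw [qf_spec hP h3, qf_spec hP (hl u), qf_spec hP (hl v), qf_spec hP (hl w),
      qf_spec hP (hadd u v), qf_spec hP (hadd u w), qf_spec hP (hadd v w),
      hP.ep_sq_mul, hP.ep_sq_mul, hP.ep_sq_mul, hP.ep_sq_mul, hP.comm_mul,
      hP.ep_mul (hP.com _ _) (hP.com _ _)]
    generalize ep (lift ψ u * lift ψ u) = a
    generalize ep (lift ψ v * lift ψ v) = b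
    generalize ep (lift ψ w * lift ψ w) = d
    generalize ep ⁅lift ψ u, lift ψ v⁆ = p
    generalize ep ⁅lift ψ u, lift ψ w⁆ = q
    generalize ep ⁅lift ψ v, lift ψ w⁆ = r
    revert a b d p q r
    decide
  · intro g v
    obtain ⟨h, hh⟩ := psi_smul hψ g
    rw [qf_spec hP (hh v _ (hl v)), qf_spec hP (hl v)]
    exact ep_congr (cj_sq_eq_one_iff h _)
  · by_contra hcon
    push Not at hcon
    have hsq : ∀ x : Q, x * x = 1 := by
      intro x
      obtain ⟨v, hv⟩ := hψ.2.1 (QuotientGroup.mk x)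
      have := hcon v
      rw [qf_spec hP hv] at this
      exact ep_eq_zero this
    have : Fact (Nat.Prime 2) := ⟨Nat.prime_two⟩
    obtain ⟨x, y, hxy⟩ := Cfsg.Agent.Lib.Helper3Extraspecial.exists_noncomm hE
    apply hxy
    rw [commutatorElement_eq_one_iff_mul_comm]
    have hx : x⁻¹ = x := inv_eq_of_mul_eq_one_left (hsq x)
    have hy : y⁻¹ = y := inv_eq_of_mul_eq_one_left (hsq y)
    have h2 : x * y = (x * y)⁻¹ := (inv_eq_of_mul_eq_one_left (hsq (x * y))).symm
    rw [h2, mul_inv_rev, hx, hy]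

theorem eps_sq [Finite G] (hE : IsExtraspecial 2 Q) (hψ : IsLeechModTwoIso Q e ψ)
    {v : leechLattice} {x : Q} (hx : ψ v = QuotientGroup.mk x) :
    ep (x * x) = ((sqNorm (v : GolayPt → ℤ) / 16 : ℤ) : ZMod 2) := by
  obtain ⟨c, hP⟩ := exists_pk hE
  rw [← qf_eq hE hψ v, qf_spec hP hx]

/-- every element of `Q` lies over a short vector -/
theorem exists_short (hψ : IsLeechModTwoIso Q e ψ) (x : Q) :
    ∃ v : leechLattice, sqNorm (v : GolayPt → ℤ) ≤ 64 ∧ ψ v = QuotientGroup.mk x := by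
  obtain ⟨v0, hv0⟩ := hψ.2.1 (QuotientGroup.mk x)
  obtain ⟨y, w, hn, hyw⟩ := Cfsg.Agent.Lib.Helper93LeechIrr.rep v0
  exact ⟨y, hn, by rw [← hv0, hyw, psi_coset hψ]⟩

/-- elements of `Q` over short vectors of the same norm are conjugate under `C` -/
theorem conj_of_same_norm {c : Q} (hP : Pk Q c) (hψ : IsLeechModTwoIso Q e ψ) {x y : Q}
    {v w : leechLattice} (hx : ψ v = QuotientGroup.mk x) (hy : ψ w = QuotientGroup.mk y)
    (hn : sqNorm (v : GolayPt → ℤ) = sqNorm (w : GolayPt → ℤ))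
    (h64 : sqNorm (v : GolayPt → ℤ) ≤ 64) (hyc : y ∉ Subgroup.center Q) :
    ∃ h : Subgroup.centralizer ({z} : Set G), cj h x = y := by
  obtain ⟨g, hg⟩ := Cfsg.Agent.Lib.Helper93LeechIrr.short_trans v w hn h64
  obtain ⟨h0, hh0⟩ := psi_smul hψ g
  have h1 := hh0 v x hx
  rw [hg, hy] at h1
  obtain ⟨d, hd, hd'⟩ := hP.mk_eq h1.symm
  rcases hd with rfl | rfl
  · exact ⟨h0, by rw [hd', mul_one]⟩
  · -- `y = x1 * c`
    set x1 := cj h0 x with hx1
    have hx1c : x1 ∉ Subgroup.center Q := by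
      intro hc
      apply hyc
      rw [hd']
      exact Subgroup.mul_mem _ hc ((hP.cen d).2 (Or.inr rfl))
    rw [Subgroup.mem_center_iff] at hx1c
    push Not at hx1c
    obtain ⟨u, hu⟩ := hx1c
    have hcm : ⁅u, x1⁆ = d := by
      rcases hP.com u x1 with h | h
      · exact absurd (commutatorElement_eq_one_iff_mul_comm.1 h) hu
      · exact h
    refine ⟨(u : Subgroup.centralizer ({z} : Set G)) * h0, ?_⟩
    have e1 : cj ((u : Subgroup.centralizer ({z} : Set G)) * h0) x = u * x1 * u⁻¹ := by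
      apply Subtype.ext
      show (u : Subgroup.centralizer ({z} : Set G)) * h0 * x * ((u : Subgroup.centralizer ({z} : Set G)) * h0)⁻¹
        = u * (h0 * x * h0⁻¹) * (u : Subgroup.centralizer ({z} : Set G))⁻¹
      group
    rw [e1, hd', ← hcm, commutatorElement_def]
    have hcc := hP.c_comm (hP.com u x1) x1
    rw [commutatorElement_def] at hcc
    rw [hcc]
    group

/-- the element `z` of `C` -/
def zC (z : G) : Subgroup.centralizer ({z} : Set G) :=
  ⟨z, by rw [Subgroup.mem_centralizer_singleton_iff]⟩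

theorem zC_mem_center (z : G) : zC z ∈ Subgroup.center (Subgroup.centralizer ({z} : Set G)) := by
  rw [Subgroup.mem_center_iff]
  intro g
  apply Subtype.ext
  have := g.2
  rw [Subgroup.mem_centralizer_singleton_iff] at this
  exact this

omit [Q.Normal] in
theorem zC_mem (hF : generalizedFittingSubgroup (Subgroup.centralizer ({z} : Set G)) = Q) :
    zC z ∈ Q := by
  rw [← hF]
  have h1 : Subgroup.center (Subgroup.centralizer ({z} : Set G))
      ≤ fittingSubgroup (Subgroup.centralizer ({z} : Set G)) :=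
    le_sSup ⟨inferInstance, ⟨1, Subgroup.upperCentralSeries_one_eq_top_iff.mpr inferInstance⟩⟩
  exact (le_sup_right : fittingSubgroup _ ≤ generalizedFittingSubgroup _) (h1 (zC_mem_center z))

/-- the centre of `Q` is generated by `z` -/
theorem pk_z [Finite G] (hz : orderOf z = 2) (hE : IsExtraspecial 2 Q)
    (hF : generalizedFittingSubgroup (Subgroup.centralizer ({z} : Set G)) = Q) :
    Pk Q ⟨zC z, zC_mem hF⟩ := by
  obtain ⟨c, hP⟩ := exists_pk hE
  have h1 : (⟨zC z, zC_mem hF⟩ : Q) ∈ Subgroup.center Q := by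
    rw [Subgroup.mem_center_iff]
    intro g
    apply Subtype.ext
    exact Subgroup.mem_center_iff.1 (zC_mem_center z) g
  rcases (hP.cen _).1 h1 with h | h
  · exfalso
    have h2 : z = 1 := congrArg (fun x : Q => ((x : Subgroup.centralizer ({z} : Set G)) : G)) h
    rw [h2, orderOf_one] at hz
    omega
  · rw [h]; exact hP

/-- a non-central involution of `Q` lies over a vector of norm 32 or 64 -/
theorem norm_of_invol [Finite G] (hE : IsExtraspecial 2 Q) (hψ : IsLeechModTwoIso Q e ψ) {x : Q}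
    (hx2 : x * x = 1) (hxc : x ∉ Subgroup.center Q) :
    ∃ v : leechLattice, ψ v = QuotientGroup.mk x ∧
      (sqNorm (v : GolayPt → ℤ) = 32 ∨ sqNorm (v : GolayPt → ℤ) = 64) := by
  obtain ⟨v, hn, hv⟩ := exists_short hψ x
  refine ⟨v, hv, ?_⟩
  have h1 := eps_sq hE hψ hv
  rw [hx2, ep_one] at h1
  rcases Cfsg.Agent.Lib.Helper93LeechIrr.short_cases v.2 hn with h | h | h | h
  · exfalso
    apply hxc
    have hv0 : v = 0 := Subtype.ext h
    rw [hv0, psi_zero hψ] at hv
    exact (QuotientGroup.eq_one_iff x).1 hv.symm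
  · left; exact h
  · exfalso
    rw [h] at h1
    revert h1
    decide
  · right; exact h

end setting

end Cfsg.Agent.Lib.Helper93Monster
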