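import Cfsg.Agent.Lib.Helper10Co0Center
import Cfsg.Agent.Lib.Helper33Golay
import Cfsg.Agent.S5553

/-!
# Some explicit sign changes and lattice vectors (helper93)
-/

set_option autoImplicit false

namespace Cfsg.Agent.Lib.Helper93Monster11

open Cfsg
open Cfsg.Agent.Lib.Helper10Co0 Cfsg.Agent.Lib.Helper10Co0Center Cfsg.Agent.Lib.Helper9Golay2
open Cfsg.Agent.Lib.Helper33Golay (dec vec dec_mem_supports vec_mem_of_isCode)
open Cfsg.Agent.S5546 (e8)

/-- an octad avoiding the two points in the support of `u` -/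
def c0 : Finset GolayPt := dec 10558

theorem c0_mem : c0 ∈ Csup := dec_mem_supports (by decide +kernel)

/-- `(4, 4, 0, …)` on one point of the octad and one point off it -/
def x0 : ↥leechLattice :=
  ⟨Pi.single (some 1) 4 + Pi.single (some 6) 4, four_mem _ _ 4 4 (Or.inl rfl) (Or.inl rfl)⟩

theorem eps_u : eps c0 c0_mem • Spor.leechU = Spor.leechU := by
  apply Subtype.ext
  funext p
  rw [eps_apply]
  show (if p ∈ c0 then - Spor.vecU p else Spor.vecU p) = Spor.vecU p
  revert p
  decide +kernel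

theorem dot_x0 : dotInt (x0 : GolayPt → ℤ) (Spor.leechU : GolayPt → ℤ) = 0 := by
  show dotInt (Pi.single (some 1) 4 + Pi.single (some 6) 4 : GolayPt → ℤ) Spor.vecU = 0
  decide +kernel

theorem norm_x0 : sqNorm ((eps c0 c0_mem • x0 + -x0 : ↥leechLattice) : GolayPt → ℤ) = 64 := by
  have h : ((eps c0 c0_mem • x0 + -x0 : ↥leechLattice) : GolayPt → ℤ)
      = fun p => (if p ∈ c0 then - (Pi.single (some 1) 4 + Pi.single (some 6) 4 : GolayPt → ℤ) p
          else (Pi.single (some 1) 4 + Pi.single (some 6) 4 : GolayPt → ℤ) p)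
          + - (Pi.single (some 1) 4 + Pi.single (some 6) 4 : GolayPt → ℤ) p := by
    funext p
    show ((eps c0 c0_mem • x0 : ↥leechLattice) : GolayPt → ℤ) p + - (x0 : GolayPt → ℤ) p = _
    rw [eps_apply]
    rfl
  rw [h]
  decide +kernel

/-- an octad -/
def c1 : Finset GolayPt := dec 5279

theorem c1_mem : c1 ∈ Csup := dec_mem_supports (by decide +kernel)

/-- twice the indicator of an octad meeting `c1` in two points -/
def x1 : ↥leechLattice :=
  ⟨fun i => if vec 31554 i = 0 then (0 : ℤ) else 2,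
    Cfsg.Agent.S5553.two_ind_mem (vec_mem_of_isCode (by decide +kernel))⟩

theorem dot_x1 : dotInt (x1 : GolayPt → ℤ) (e8 none : GolayPt → ℤ) = 0 := by
  show dotInt (fun i => if vec 31554 i = 0 then (0 : ℤ) else 2) (Pi.single none 8 : GolayPt → ℤ) = 0
  decide +kernel

theorem norm_x1 : sqNorm ((eps c1 c1_mem • x1 + -x1 : ↥leechLattice) : GolayPt → ℤ) = 32 := by
  have h : ((eps c1 c1_mem • x1 + -x1 : ↥leechLattice) : GolayPt → ℤ)
      = fun p => (if p ∈ c1 then - (if vec 31554 p = 0 then (0 : ℤ) else 2)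
          else (if vec 31554 p = 0 then (0 : ℤ) else 2))
          + - (if vec 31554 p = 0 then (0 : ℤ) else 2) := by
    funext p
    show ((eps c1 c1_mem • x1 : ↥leechLattice) : GolayPt → ℤ) p + - (x1 : GolayPt → ℤ) p = _
    rw [eps_apply]
    rfl
  rw [h]
  decide +kernel

end Cfsg.Agent.Lib.Helper93Monster11
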