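import Cfsg.Agent.Lib.Helper93Monster9
import Cfsg.Agent.Lib.Helper93Monster11

/-!
# Groups of Monster type: the centraliser of a non-central involution of `Q`, part 2 (helper93)
the quotient `C_G(t) / ⟨t⟩` and the centraliser of the image of `z`
-/

set_option autoImplicit false
set_option linter.unusedSectionVars false

namespace Cfsg.Agent.Lib.Helper93Monster10

open Cfsg
open Cfsg.Agent.Lib.Helper93Monster Cfsg.Agent.Lib.Helper93Monster2 Cfsg.Agent.Lib.Helper93Monster3
  Cfsg.Agent.Lib.Helper93Monster4 Cfsg.Agent.Lib.Helper93Monster5 Cfsg.Agent.Lib.Helper93Monster8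
  Cfsg.Agent.Lib.Helper93Monster9 Cfsg.Agent.Lib.Helper93Monster11
open Cfsg.Agent.Lib.Helper10Co0Center (eps)
open scoped commutatorElement

theorem mem_zpowers_invol {G : Type*} [Group G] {t x : G} (ht : t * t = 1) :
    x ∈ Subgroup.zpowers t ↔ x = 1 ∨ x = t := by
  rw [Subgroup.mem_zpowers_iff]
  constructor
  · rintro ⟨k, rfl⟩
    rcases Int.even_or_odd' k with ⟨m, hm | hm⟩
    · left
      rw [hm, zpow_mul, zpow_two, ht, one_zpow]
    · right
      rw [hm, zpow_add, zpow_mul, zpow_two, ht, one_zpow, one_mul, zpow_one]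
  · rintro (rfl | rfl)
    · exact ⟨0, zpow_zero _⟩
    · exact ⟨1, zpow_one _⟩

theorem conj_aux {G : Type*} [Group G] {a b t : G} (h : (a * b)⁻¹ * (b * a) = t) :
    a⁻¹ * b * a = b * t := by
  rw [← h]; group

section quot
variable {G : Type*} [Group G] [Finite G] {z : G}
  {Q : Subgroup (Subgroup.centralizer ({z} : Set G))} [Q.Normal]
  {e : (Subgroup.centralizer ({z} : Set G)) ⧸ Q ≃* Spor.Co1}
  {ψ : leechLattice → Q ⧸ Subgroup.center Q} {t' : Q} {t : G}
  [hn : ((Subgroup.zpowers t).subgroupOf (Subgroup.centralizer ({t} : Set G))).Normal]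

/-- the inclusion of `C_C(t)` in `C_G(t)` -/
def P0 (htt : ((t' : Subgroup.centralizer ({z} : Set G)) : G) = t) :
    HH t' →* Subgroup.centralizer ({t} : Set G) where
  toFun h := ⟨((h : Subgroup.centralizer ({z} : Set G)) : G), by
    rw [Subgroup.mem_centralizer_singleton_iff, ← htt]
    exact congrArg (fun u : Subgroup.centralizer ({z} : Set G) => (u : G)) (mem_HH.1 h.2)⟩
  map_one' := rfl
  map_mul' _ _ := rfl

/-- the map from `C_C(t)` to `C_G(t) / ⟨t⟩` -/
def P1 (htt : ((t' : Subgroup.centralizer ({z} : Set G)) : G) = t) :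
    HH t' →* (Subgroup.centralizer ({t} : Set G)) ⧸
      (Subgroup.zpowers t).subgroupOf (Subgroup.centralizer ({t} : Set G)) :=
  (QuotientGroup.mk' _).comp (P0 htt)

/-- `z` as an element of `C_C(t)` -/
def zH (t' : Q) : HH t' :=
  ⟨zC z, mem_HH.2 ((Subgroup.mem_center_iff.1 (zC_mem_center z)) _).symm⟩

theorem zH_comm (h : HH t') : h * zH t' = zH t' * h :=
  Subtype.ext ((Subgroup.mem_center_iff.1 (zC_mem_center z)) _)

/-- the map from `C_C(t)` to the centraliser of the image of `z` in `C_G(t) / ⟨t⟩` -/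
def PP (htt : ((t' : Subgroup.centralizer ({z} : Set G)) : G) = t) :
    HH t' →* Subgroup.centralizer ({P1 htt (zH t')} : Set ((Subgroup.centralizer ({t} : Set G)) ⧸
      (Subgroup.zpowers t).subgroupOf (Subgroup.centralizer ({t} : Set G)))) :=
  (P1 htt).codRestrict _ (fun h => by
    rw [Subgroup.mem_centralizer_singleton_iff, ← map_mul, ← map_mul, zH_comm])

theorem P1_eq_one_iff (htt : ((t' : Subgroup.centralizer ({z} : Set G)) : G) = t)
    (ht2 : t * t = 1) (h : HH t') : P1 htt h = 1 ↔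
      ((h : Subgroup.centralizer ({z} : Set G)) : G) = 1 ∨
      ((h : Subgroup.centralizer ({z} : Set G)) : G) = t := by
  rw [← mem_zpowers_invol ht2]
  show (QuotientGroup.mk (P0 htt h) : _ ⧸ _) = 1 ↔ _
  rw [QuotientGroup.eq_one_iff, Subgroup.mem_subgroupOf]
  rfl

theorem PP_eq_one_iff (htt : ((t' : Subgroup.centralizer ({z} : Set G)) : G) = t)
    (ht2 : t * t = 1) (h : HH t') : PP htt h = 1 ↔
      ((h : Subgroup.centralizer ({z} : Set G)) : G) = 1 ∨
      ((h : Subgroup.centralizer ({z} : Set G)) : G) = t := by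
  rw [← P1_eq_one_iff htt ht2 h]
  constructor
  · intro hh
    exact congrArg Subtype.val hh
  · intro hh
    exact Subtype.ext hh

variable (H : Ctx2 z Q e ψ t')
include H

theorem t_sq' (htt : ((t' : Subgroup.centralizer ({z} : Set G)) : G) = t) : t * t = 1 := by
  rw [← htt]
  exact congrArg (fun u : Q => ((u : Subgroup.centralizer ({z} : Set G)) : G)) H.t_sq

theorem z_sq : z * z = 1 := by
  rw [← sq, ← H.hz2]; exact pow_orderOf_eq_one z

/-- `t z` is not conjugate to `z` -/
theorem tz_not_conj (htt : ((t' : Subgroup.centralizer ({z} : Set G)) : G) = t) :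
    ¬ IsConj z (t * z) := by
  intro hc
  apply H.hnc
  have htc := H.tc
  rw [Subgroup.mem_center_iff] at htc
  push Not at htc
  obtain ⟨u, hu⟩ := htc
  have hcm : ⁅u, t'⁆ = ⟨zC z, zC_mem H.hF⟩ := by
    rcases H.hP.com u t' with h | h
    · exact absurd (commutatorElement_eq_one_iff_mul_comm.1 h) hu
    · exact h
  have h1 : ((u : Subgroup.centralizer ({z} : Set G)) : G) * t *
      ((u : Subgroup.centralizer ({z} : Set G)) : G)⁻¹ * t⁻¹ = z := by
    rw [← htt]
    exact congrArg (fun u : Q => ((u : Subgroup.centralizer ({z} : Set G)) : G)) hcm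
  have h2 : z * t = t * z := by
    rw [← htt]
    exact (mem_C_iff.1 (t' : Subgroup.centralizer ({z} : Set G)).2)
  have h3 : ((u : Subgroup.centralizer ({z} : Set G)) : G) * t *
      ((u : Subgroup.centralizer ({z} : Set G)) : G)⁻¹ = t * z := by
    exact (mul_inv_eq_iff_eq_mul.1 h1).trans h2
  rw [htt]
  refine hc.trans ?_
  rw [isConj_iff]
  exact ⟨((u : Subgroup.centralizer ({z} : Set G)) : G)⁻¹, by rw [← h3]; group⟩

theorem PP_surjective (htt : ((t' : Subgroup.centralizer ({z} : Set G)) : G) = t) :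
    Function.Surjective (PP (hn := hn) htt) := by
  rintro ⟨d, hd⟩
  obtain ⟨x, rfl⟩ := QuotientGroup.mk_surjective d
  rw [Subgroup.mem_centralizer_singleton_iff] at hd
  have h1 : (QuotientGroup.mk (x * P0 htt (zH t')) : _ ⧸
      (Subgroup.zpowers t).subgroupOf (Subgroup.centralizer ({t} : Set G)))
      = QuotientGroup.mk (P0 htt (zH t') * x) := hd
  rw [QuotientGroup.eq, Subgroup.mem_subgroupOf] at h1
  have h2 : ((x : G) * z)⁻¹ * (z * (x : G)) ∈ Subgroup.zpowers t := h1
  rw [mem_zpowers_invol (t_sq' H htt)] at h2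
  have hzinv : z⁻¹ = z := inv_eq_of_mul_eq_one_left (z_sq H)
  rcases h2 with h2 | h2
  · have h3 : z * (x : G) = (x : G) * z := (inv_mul_eq_one.1 h2).symm
    have hxC : (x : G) ∈ Subgroup.centralizer ({z} : Set G) := mem_C_iff.2 h3
    have hxH : (⟨(x : G), hxC⟩ : Subgroup.centralizer ({z} : Set G)) ∈ HH t' := by
      rw [mem_HH]
      apply Subtype.ext
      show (x : G) * ((t' : Subgroup.centralizer ({z} : Set G)) : G)
        = ((t' : Subgroup.centralizer ({z} : Set G)) : G) * (x : G)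
      rw [htt]
      exact Subgroup.mem_centralizer_singleton_iff.1 x.2
    exact ⟨⟨⟨(x : G), hxC⟩, hxH⟩, rfl⟩
  · exfalso
    apply tz_not_conj H htt
    rw [isConj_iff]
    refine ⟨(x : G)⁻¹, ?_⟩
    have h4 : (x : G)⁻¹ * z * (x : G) = z * t := conj_aux h2
    have h5 : z * t = t * z := by
      rw [← htt]
      exact (mem_C_iff.1 (t' : Subgroup.centralizer ({z} : Set G)).2)
    rw [inv_inv, h4, h5]

omit H in
/-- the centraliser of the image of `z` -/
abbrev DD (htt : ((t' : Subgroup.centralizer ({z} : Set G)) : G) = t) : Type _ :=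
  ↥(Subgroup.centralizer ({P1 (hn := hn) htt (zH t')} :
      Set ((Subgroup.centralizer ({t} : Set G)) ⧸
      (Subgroup.zpowers t).subgroupOf (Subgroup.centralizer ({t} : Set G)))))

/-- the image of `C_Q(t)` -/
def RR (Q : Subgroup (Subgroup.centralizer ({z} : Set G)))
    (htt : ((t' : Subgroup.centralizer ({z} : Set G)) : G) = t) :
    Subgroup (Subgroup.centralizer ({P1 (hn := hn) htt (zH t')} :
      Set ((Subgroup.centralizer ({t} : Set G)) ⧸
      (Subgroup.zpowers t).subgroupOf (Subgroup.centralizer ({t} : Set G))))) :=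
  (Q.subgroupOf (HH t')).map (PP htt)

theorem RR_normal (htt : ((t' : Subgroup.centralizer ({z} : Set G)) : G) = t) :
    (RR (hn := hn) Q htt).Normal :=
  Subgroup.Normal.map inferInstance _ (PP_surjective H htt)

omit H in
/-- the inclusion of `C_Q(t)` in `C_C(t)` -/
def iota {c : Q} (hP : Pk Q c) (t' : Q) : ↥(chi hP t').ker →* HH t' where
  toFun k := ⟨((k : Q) : Subgroup.centralizer ({z} : Set G)), mem_HH.2
    (congrArg (fun u : Q => (u : Subgroup.centralizer ({z} : Set G))) ((mem_ker_chi hP t' (k : Q)).1 k.2))⟩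
  map_one' := rfl
  map_mul' _ _ := rfl

omit H in
/-- the map from `C_Q(t)` onto its image -/
def ff {c : Q} (hP : Pk Q c) (htt : ((t' : Subgroup.centralizer ({z} : Set G)) : G) = t) :
    ↥(chi hP t').ker →* ↥(RR (hn := hn) Q htt) :=
  ((PP htt).comp (iota hP t')).codRestrict _ (fun k => ⟨iota hP t' k, (k : Q).2, rfl⟩)

omit H in
theorem ff_surjective {c : Q} (hP : Pk Q c)
    (htt : ((t' : Subgroup.centralizer ({z} : Set G)) : G) = t) :
    Function.Surjective (ff (hn := hn) hP htt) := by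
  rintro ⟨_, h, hh, rfl⟩
  have hq : (h : Subgroup.centralizer ({z} : Set G)) ∈ Q := hh
  refine ⟨⟨⟨(h : Subgroup.centralizer ({z} : Set G)), hq⟩, ?_⟩, rfl⟩
  rw [mem_ker_chi]
  exact Subtype.ext (mem_HH.1 h.2)

omit H in
theorem ff_eq_one_iff {c : Q} (hP : Pk Q c)
    (htt : ((t' : Subgroup.centralizer ({z} : Set G)) : G) = t) (ht2 : t * t = 1)
    (x : ↥(chi hP t').ker) : ff (hn := hn) hP htt x = 1 ↔ (x : Q) = 1 ∨ (x : Q) = t' := by
  have h1 : ff (hn := hn) hP htt x = 1 ↔ PP (hn := hn) htt (iota hP t' x) = 1 :=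
    ⟨fun h => congrArg Subtype.val h, fun h => Subtype.ext h⟩
  rw [h1, PP_eq_one_iff htt ht2]
  constructor
  · rintro (h | h)
    · left; exact Subtype.ext (Subtype.ext h)
    · right; exact Subtype.ext (Subtype.ext (h.trans htt.symm))
  · rintro (h | h)
    · left
      exact congrArg (fun u : Q => ((u : Subgroup.centralizer ({z} : Set G)) : G)) h
    · right
      exact (congrArg (fun u : Q => ((u : Subgroup.centralizer ({z} : Set G)) : G)) h).trans htt

/-- the central element of the image of `C_Q(t)` -/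
def cR (htt : ((t' : Subgroup.centralizer ({z} : Set G)) : G) = t) : ↥(RR (hn := hn) Q htt) :=
  ff H.hP htt ⟨⟨zC z, zC_mem H.hF⟩, (mem_ker_chi H.hP t' _).2 (H.hP.z_comm t').symm⟩

theorem pk_RR (htt : ((t' : Subgroup.centralizer ({z} : Set G)) : G) = t) :
    Pk ↥(RR (hn := hn) Q htt) (cR H htt) :=
  pk_quot H.hP H.tc (ff H.hP htt) (ff_surjective H.hP htt)
    (ff_eq_one_iff H.hP htt (t_sq' H htt))

theorem card_RR (htt : ((t' : Subgroup.centralizer ({z} : Set G)) : G) = t) :
    Nat.card ↥(RR (hn := hn) Q htt) = 2 ^ 23 := by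
  have h1 := card_ker_chi H.hP H.tc
  rw [H.hcard] at h1
  have h2 := Subgroup.card_mul_index (ff (hn := hn) H.hP htt).ker
  rw [Subgroup.index_ker, MonoidHom.range_eq_top.2 (ff_surjective H.hP htt), Subgroup.card_top] at h2
  have h3 : Nat.card (ff (hn := hn) H.hP htt).ker = 2 := by
    rw [Nat.card_eq_two_iff]
    have ht1 : t' ≠ 1 := fun h => H.tc (h ▸ Subgroup.one_mem _)
    refine ⟨1, ⟨⟨t', (mem_ker_chi H.hP t' t').2 rfl⟩,
      (MonoidHom.mem_ker).2 ((ff_eq_one_iff H.hP htt (t_sq' H htt) _).2 (Or.inr rfl))⟩, ?_, ?_⟩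
    · intro hh
      exact ht1 (congrArg (fun u : (ff (hn := hn) H.hP htt).ker =>
        ((u : ↥(chi H.hP t').ker) : Q)) hh).symm
    · ext x
      simp only [Set.mem_insert_iff, Set.mem_singleton_iff, Set.mem_univ, iff_true]
      rcases (ff_eq_one_iff H.hP htt (t_sq' H htt) _).1 (MonoidHom.mem_ker.1 x.2) with h | h
      · left; exact Subtype.ext (Subtype.ext h)
      · right; exact Subtype.ext (Subtype.ext h)
  rw [h3] at h2
  have e1 : (2 : ℕ) ^ 25 = 2 * (2 * 2 ^ 23) := by norm_num
  omega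

theorem extraspecial_RR (htt : ((t' : Subgroup.centralizer ({z} : Set G)) : G) = t) :
    IsExtraspecial 2 ↥(RR (hn := hn) Q htt) :=
  pk_isExtraspecial (pk_RR H htt) (by rw [card_RR H htt]; norm_num)

theorem ker_PP_le (htt : ((t' : Subgroup.centralizer ({z} : Set G)) : G) = t) :
    (PP (hn := hn) htt).ker ≤ H.theta.ker := by
  intro h hh
  rw [H.ker_theta, Subgroup.mem_subgroupOf]
  rcases (PP_eq_one_iff htt (t_sq' H htt) h).1 (MonoidHom.mem_ker.1 hh) with h1 | h1
  · have : (h : Subgroup.centralizer ({z} : Set G)) = 1 := Subtype.ext h1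
    rw [this]; exact Q.one_mem
  · have : (h : Subgroup.centralizer ({z} : Set G)) = (t' : Subgroup.centralizer ({z} : Set G)) :=
      Subtype.ext (h1.trans htt.symm)
    rw [this]; exact t'.2

/-- the identification with the second Conway group -/
theorem exists_equiv (htt : ((t' : Subgroup.centralizer ({z} : Set G)) : G) = t)
    [(RR (hn := hn) Q htt).Normal] :
    ∃ e' : _ ⧸ (RR (hn := hn) Q htt) ≃* ↥Spor.Co2,
      ∀ h : HH t', e' (QuotientGroup.mk (PP htt h)) = H.theta h :=
  exists_quot_equiv (PP htt) (PP_surjective H htt) H.theta H.theta_surjective (ker_PP_le H htt) _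
    (by rw [H.ker_theta]; rfl)

theorem le_RR_of_normal (htt : ((t' : Subgroup.centralizer ({z} : Set G)) : G) = t)
    [(RR (hn := hn) Q htt).Normal]
    (N : Subgroup (Subgroup.centralizer ({P1 (hn := hn) htt (zH t')} :
      Set ((Subgroup.centralizer ({t} : Set G)) ⧸
      (Subgroup.zpowers t).subgroupOf (Subgroup.centralizer ({t} : Set G))))))
    (hN : N.Normal) (h2 : IsPGroup 2 N) : N ≤ RR (hn := hn) Q htt := by
  obtain ⟨e', -⟩ := exists_equiv H htt
  have hM : ((N.map (QuotientGroup.mk' (RR (hn := hn) Q htt))).map e'.toMonoidHom).Normal :=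
    (hN.map _ (QuotientGroup.mk'_surjective _)).map _ e'.surjective
  have hbot := co2_normal_two hM (by
    rintro _ ⟨_, ⟨n, hn', rfl⟩, rfl⟩
    obtain ⟨k, hk⟩ := h2 ⟨n, hn'⟩
    refine ⟨k, ?_⟩
    have hk' : n ^ 2 ^ k = 1 := congrArg Subtype.val hk
    rw [← map_pow, ← map_pow, hk', map_one, map_one])
  intro n hn'
  have h1 : e'.toMonoidHom (QuotientGroup.mk' (RR (hn := hn) Q htt) n) ∈
      (N.map (QuotientGroup.mk' (RR (hn := hn) Q htt))).map e'.toMonoidHom :=
    ⟨_, ⟨n, hn', rfl⟩, rfl⟩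
  rw [hbot, Subgroup.mem_bot] at h1
  exact (QuotientGroup.eq_one_iff n).1 ((map_eq_one_iff e' e'.injective).1 h1)

/-- the explicit sign change, as an element of the second Conway group -/
def g0 : ↥Spor.Co2 := ⟨(eps c0 c0_mem).1, ⟨(eps c0 c0_mem).2, eps_u⟩⟩

omit H in
theorem toCo0_g0 : toCo0 g0 = eps c0 c0_mem := rfl

theorem centralizer_RR_le (htt : ((t' : Subgroup.centralizer ({z} : Set G)) : G) = t)
    [(RR (hn := hn) Q htt).Normal] :
    Subgroup.centralizer (RR (hn := hn) Q htt : Set (DD (hn := hn) htt)) ≤ RR (hn := hn) Q htt := by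
  obtain ⟨e', he'⟩ := exists_equiv H htt
  have hZ : (Subgroup.centralizer (RR (hn := hn) Q htt : Set (DD (hn := hn) htt))).Normal :=
    Subgroup.normal_centralizer
  have hM : (((Subgroup.centralizer (RR (hn := hn) Q htt : Set (DD (hn := hn) htt))).map
      (QuotientGroup.mk' (RR (hn := hn) Q htt))).map e'.toMonoidHom).Normal :=
    (hZ.map _ (QuotientGroup.mk'_surjective _)).map _ e'.surjective
  have := simple_Co2
  rcases hM.eq_bot_or_eq_top with hbot | htop
  · intro n hn'
    have h1 : e'.toMonoidHom (QuotientGroup.mk' (RR (hn := hn) Q htt) n) ∈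
        ((Subgroup.centralizer (RR (hn := hn) Q htt : Set (DD (hn := hn) htt))).map
          (QuotientGroup.mk' (RR (hn := hn) Q htt))).map e'.toMonoidHom :=
      ⟨_, ⟨n, hn', rfl⟩, rfl⟩
    rw [hbot, Subgroup.mem_bot] at h1
    exact (QuotientGroup.eq_one_iff n).1 ((map_eq_one_iff e' e'.injective).1 h1)
  · exfalso
    have hg : g0 ∈ ((Subgroup.centralizer (RR (hn := hn) Q htt : Set (DD (hn := hn) htt))).map
        (QuotientGroup.mk' (RR (hn := hn) Q htt))).map e'.toMonoidHom := by rw [htop]; trivial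
    obtain ⟨_, ⟨d, hd, rfl⟩, hdg⟩ := hg
    obtain ⟨h, rfl⟩ := PP_surjective H htt d
    have hth : H.theta h = g0 := by rw [← he' h]; exact hdg
    -- the element over `x0`
    have hl : ψ x0 = QuotientGroup.mk (lift ψ x0) := (mk_lift x0).symm
    have hcomm : lift ψ x0 * t' = t' * lift ψ x0 := by
      have h1 := comm_form H.hE H.hψ hl H.hu
      rw [dot_x0] at h1
      exact commutatorElement_eq_one_iff_mul_comm.1 (ep_eq_zero (h1.trans (by simp)))
    set k : ↥(chi H.hP t').ker := ⟨lift ψ x0, (mem_ker_chi H.hP t' _).2 hcomm⟩ with hk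
    have h1 := Subgroup.mem_centralizer_iff.1 hd (ff H.hP htt k : _) (ff H.hP htt k).2
    have h2 : PP (hn := hn) htt (iota H.hP t' k) * PP htt h = PP htt h * PP htt (iota H.hP t' k) := h1
    have h3 : PP (hn := hn) htt (h * iota H.hP t' k * h⁻¹ * (iota H.hP t' k)⁻¹) = 1 := by
      rw [map_mul, map_mul, map_mul, map_inv, map_inv, ← h2]
      group
    have h4 := H.hψ.2.2.2 h (toCo0 g0) (by rw [← hth]; exact H.theta_spec h) x0 (lift ψ x0) hl
    have h5 : ψ (toCo0 g0 • x0) = QuotientGroup.mk (cj (h : Subgroup.centralizer ({z} : Set G))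
      (lift ψ x0)) := h4
    have h6 : ψ (eps c0 c0_mem • x0 + -x0) = QuotientGroup.mk
        (cj (h : Subgroup.centralizer ({z} : Set G)) (lift ψ x0) * (lift ψ x0)⁻¹) := by
      rw [H.hψ.1, psi_neg H.hψ, ← toCo0_g0, h5, hl, QuotientGroup.mk_mul, QuotientGroup.mk_inv]
      congr 1
      rw [eq_inv_iff_mul_eq_one, ← hl]
      exact psi_sq H.hψ x0
    rcases (PP_eq_one_iff htt (t_sq' H htt) _).1 h3 with h7 | h7
    · have h8 : cj (h : Subgroup.centralizer ({z} : Set G)) (lift ψ x0) * (lift ψ x0)⁻¹ = 1 :=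
        Subtype.ext (Subtype.ext h7)
      exact not_central_of_norm64 H.hψ norm_x0 h6 (h8 ▸ Subgroup.one_mem _)
    · have h8 : cj (h : Subgroup.centralizer ({z} : Set G)) (lift ψ x0) * (lift ψ x0)⁻¹ = t' :=
        Subtype.ext (Subtype.ext (h7.trans htt.symm))
      rw [h8, ← H.hu] at h6
      exact not_congr H.hψ norm_x0 sqNorm_leechU h6

theorem gfit_RR (htt : ((t' : Subgroup.centralizer ({z} : Set G)) : G) = t)
    [(RR (hn := hn) Q htt).Normal] :
    generalizedFittingSubgroup (Subgroup.centralizer ({P1 (hn := hn) htt (zH t')} :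
      Set ((Subgroup.centralizer ({t} : Set G)) ⧸
      (Subgroup.zpowers t).subgroupOf (Subgroup.centralizer ({t} : Set G))))) = RR (hn := hn) Q htt :=
  gfit_eq_of _ (fun x => ⟨2, by
      have := pk_pow_four (pk_RR H htt) x
      norm_num
      exact this⟩) (centralizer_RR_le H htt) (le_RR_of_normal H htt)

end quot

end Cfsg.Agent.Lib.Helper93Monster10
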