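import Cfsg.Agent.Lib.Helper93Monster10

/-!
# Groups of Monster type: the centraliser of a non-central involution of `Q`, part 3 (helper93)
the module structure
-/

set_option autoImplicit false
set_option linter.unusedSectionVars false

namespace Cfsg.Agent.Lib.Helper93Monster12

open Cfsg
open Cfsg.Agent.Lib.Helper93Monster Cfsg.Agent.Lib.Helper93Monster2 Cfsg.Agent.Lib.Helper93Monster3
  Cfsg.Agent.Lib.Helper93Monster4 Cfsg.Agent.Lib.Helper93Monster5 Cfsg.Agent.Lib.Helper93Monster8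
  Cfsg.Agent.Lib.Helper93Monster9 Cfsg.Agent.Lib.Helper93Monster10
open scoped commutatorElement

section gen
variable {G : Type*} [Group G] {z : G}
  {Q : Subgroup (Subgroup.centralizer ({z} : Set G))} [Q.Normal]

theorem cj_mul (h : Subgroup.centralizer ({z} : Set G)) (u v : Q) :
    cj h u * cj h v = cj h (u * v) := by
  apply Subtype.ext
  show (h * u * h⁻¹) * (h * v * h⁻¹) = h * ((u : Subgroup.centralizer ({z} : Set G)) * v) * h⁻¹
  group

theorem mk_cj_congr (h : Subgroup.centralizer ({z} : Set G)) {a b : Q}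
    (hab : (QuotientGroup.mk a : Q ⧸ Subgroup.center Q) = QuotientGroup.mk b) :
    (QuotientGroup.mk (cj h a) : Q ⧸ Subgroup.center Q) = QuotientGroup.mk (cj h b) := by
  rw [QuotientGroup.eq] at hab ⊢
  have e1 : (cj h a)⁻¹ * cj h b = cj h (a⁻¹ * b) := by
    apply Subtype.ext
    show (h * a * h⁻¹)⁻¹ * (h * b * h⁻¹)
      = h * ((a : Subgroup.centralizer ({z} : Set G))⁻¹ * b) * h⁻¹
    group
  rw [e1, Subgroup.mem_center_iff]
  intro r
  have e2 : r = cj h (cj h⁻¹ r) := by
    apply Subtype.ext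
    show (r : Subgroup.centralizer ({z} : Set G)) = h * (h⁻¹ * r * h⁻¹⁻¹) * h⁻¹
    group
  rw [e2, cj_mul, cj_mul, Subgroup.mem_center_iff.1 hab]

end gen

section quot
variable {G : Type*} [Group G] [Finite G] {z : G}
  {Q : Subgroup (Subgroup.centralizer ({z} : Set G))} [Q.Normal]
  {e : (Subgroup.centralizer ({z} : Set G)) ⧸ Q ≃* Spor.Co1}
  {ψ : leechLattice → Q ⧸ Subgroup.center Q} {t' : Q} {t : G}
  [hn : ((Subgroup.zpowers t).subgroupOf (Subgroup.centralizer ({t} : Set G))).Normal]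

variable (H : Ctx2 z Q e ψ t')
include H

/-- commutation with `t` in terms of the inner product with `u` -/
theorem comm_iff {q : Q} {v : leechLattice} (hv : ψ v = QuotientGroup.mk q) :
    q * t' = t' * q ↔ v ∈ leechPerpU := by
  have h1 := comm_form H.hE H.hψ hv H.hu
  obtain ⟨d, hd⟩ := eight_dvd_dot v.2 Spor.leechU.2
  rw [hd, Int.mul_ediv_cancel_left _ (by norm_num)] at h1
  have h2 : v ∈ leechPerpU ↔ (16 : ℤ) ∣ dotInt (v : GolayPt → ℤ) (Spor.leechU : GolayPt → ℤ) :=
    Iff.rfl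
  rw [h2, hd, ← commutatorElement_eq_one_iff_mul_comm]
  constructor
  · intro h
    rw [h, ep_one] at h1
    have h3 := (ZMod.intCast_zmod_eq_zero_iff_dvd d 2).1 h1.symm
    obtain ⟨m, rfl⟩ := h3
    exact ⟨m, by push_cast; ring⟩
  · rintro ⟨m, hm⟩
    apply ep_eq_zero
    rw [h1]
    have : d = 2 * m := by omega
    rw [this]
    push_cast
    have : (2 : ZMod 2) = 0 := by decide
    rw [this, zero_mul]

/-- a lift to `C_Q(t)` of a vector orthogonal to `u` -/
noncomputable def liftK (x : leechPerpU) : ↥(chi H.hP t').ker :=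
  ⟨lift ψ (x : leechLattice), (mem_ker_chi H.hP t' _).2
    ((comm_iff H (mk_lift (x : leechLattice)).symm).2 x.2)⟩

theorem mk_liftK (x : leechPerpU) :
    (QuotientGroup.mk ((liftK H x : ↥(chi H.hP t').ker) : Q) : Q ⧸ Subgroup.center Q)
      = ψ (x : leechLattice) := mk_lift _

/-- the elements of `C_Q(t)` with central image -/
theorem mk_ff_eq_one_iff (htt : ((t' : Subgroup.centralizer ({z} : Set G)) : G) = t)
    (k : ↥(chi H.hP t').ker) :
    (QuotientGroup.mk (ff (hn := hn) H.hP htt k) :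
      ↥(RR (hn := hn) Q htt) ⧸ Subgroup.center ↥(RR (hn := hn) Q htt)) = 1 ↔
    (QuotientGroup.mk (k : Q) : Q ⧸ Subgroup.center Q) = 1 ∨
    (QuotientGroup.mk (k : Q) : Q ⧸ Subgroup.center Q) = QuotientGroup.mk t' := by
  have hc1 : ∀ d : Q, (QuotientGroup.mk d : Q ⧸ Subgroup.center Q) = 1 ↔
      d = 1 ∨ d = ⟨zC z, zC_mem H.hF⟩ := by
    intro d
    rw [QuotientGroup.eq_one_iff, H.hP.cen]
  set cK : ↥(chi H.hP t').ker :=
    ⟨⟨zC z, zC_mem H.hF⟩, (mem_ker_chi H.hP t' _).2 (H.hP.z_comm t').symm⟩ with hcK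
  have hcR : cR H htt = ff (hn := hn) H.hP htt cK := rfl
  rw [QuotientGroup.eq_one_iff, (pk_RR H htt).cen, hcR]
  constructor
  · rintro (h | h)
    · rcases (ff_eq_one_iff H.hP htt (t_sq' H htt) k).1 h with h1 | h1
      · left; rw [h1]; rfl
      · right; rw [h1]
    · have h0 : ff (hn := hn) H.hP htt (k * cK⁻¹) = 1 := by
        rw [map_mul, map_inv, h, mul_inv_cancel]
      have hmk : (QuotientGroup.mk (k : Q) : Q ⧸ Subgroup.center Q)
          = QuotientGroup.mk ((k * cK⁻¹ : ↥(chi H.hP t').ker) : Q) := by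
        rw [QuotientGroup.eq]
        have : (k : Q)⁻¹ * ((k * cK⁻¹ : ↥(chi H.hP t').ker) : Q)
            = (⟨zC z, zC_mem H.hF⟩ : Q)⁻¹ := by
          show (k : Q)⁻¹ * ((k : Q) * (⟨zC z, zC_mem H.hF⟩ : Q)⁻¹) = _
          group
        rw [this]
        exact Subgroup.inv_mem _ ((H.hP.cen _).2 (Or.inr rfl))
      rcases (ff_eq_one_iff H.hP htt (t_sq' H htt) _).1 h0 with h1 | h1
      · left; rw [hmk, h1]; rfl
      · right; rw [hmk, h1]
  · rintro (h | h)
    · rcases (hc1 _).1 h with h1 | h1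
      · left; exact (ff_eq_one_iff H.hP htt (t_sq' H htt) k).2 (Or.inl h1)
      · right; congr 1; exact Subtype.ext h1
    · obtain ⟨d, hd, hd'⟩ := H.hP.mk_eq h.symm
      rcases hd with rfl | rfl
      · left
        exact (ff_eq_one_iff H.hP htt (t_sq' H htt) k).2 (Or.inr (by rw [hd', mul_one]))
      · right
        have h1 : k = ⟨t', (mem_ker_chi H.hP t' t').2 rfl⟩ * cK := Subtype.ext hd'
        rw [h1, map_mul, (ff_eq_one_iff H.hP htt (t_sq' H htt) _).2 (Or.inr rfl), one_mul]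

theorem mk_ff_congr (htt : ((t' : Subgroup.centralizer ({z} : Set G)) : G) = t)
    {k k' : ↥(chi H.hP t').ker}
    (h : (QuotientGroup.mk (k : Q) : Q ⧸ Subgroup.center Q) = QuotientGroup.mk (k' : Q)) :
    (QuotientGroup.mk (ff (hn := hn) H.hP htt k) :
      ↥(RR (hn := hn) Q htt) ⧸ Subgroup.center ↥(RR (hn := hn) Q htt))
      = QuotientGroup.mk (ff (hn := hn) H.hP htt k') := by
  have h1 : (QuotientGroup.mk (ff (hn := hn) H.hP htt (k⁻¹ * k')) :
      ↥(RR (hn := hn) Q htt) ⧸ Subgroup.center ↥(RR (hn := hn) Q htt)) = 1 := by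
    rw [mk_ff_eq_one_iff H htt]
    left
    show (QuotientGroup.mk ((k : Q)⁻¹ * (k' : Q)) : Q ⧸ Subgroup.center Q) = 1
    rw [QuotientGroup.mk_mul, QuotientGroup.mk_inv, h, inv_mul_cancel]
  rw [map_mul, map_inv, QuotientGroup.mk_mul, QuotientGroup.mk_inv, inv_mul_eq_one] at h1
  exact h1

/-- the module identification -/
noncomputable def psiT (htt : ((t' : Subgroup.centralizer ({z} : Set G)) : G) = t)
    (x : leechPerpU) : ↥(RR (hn := hn) Q htt) ⧸ Subgroup.center ↥(RR (hn := hn) Q htt) :=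
  QuotientGroup.mk (ff (hn := hn) H.hP htt (liftK H x))

theorem psiT_add (htt : ((t' : Subgroup.centralizer ({z} : Set G)) : G) = t) (x y : leechPerpU) :
    psiT (hn := hn) H htt (x + y) = psiT H htt x * psiT H htt y := by
  unfold psiT
  rw [← QuotientGroup.mk_mul, ← map_mul]
  apply mk_ff_congr H htt
  show _ = (QuotientGroup.mk (((liftK H x : ↥(chi H.hP t').ker) : Q) *
    ((liftK H y : ↥(chi H.hP t').ker) : Q)) : Q ⧸ Subgroup.center Q)
  rw [QuotientGroup.mk_mul, mk_liftK, mk_liftK, mk_liftK, ← H.hψ.1]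
  rfl

theorem psiT_surjective (htt : ((t' : Subgroup.centralizer ({z} : Set G)) : G) = t) :
    Function.Surjective (psiT (hn := hn) H htt) := by
  intro y
  obtain ⟨r, rfl⟩ := QuotientGroup.mk_surjective y
  obtain ⟨k, rfl⟩ := ff_surjective (hn := hn) H.hP htt r
  obtain ⟨v, hv⟩ := H.hψ.2.1 (QuotientGroup.mk (k : Q))
  have hvp : v ∈ leechPerpU := (comm_iff H hv).1 ((mem_ker_chi H.hP t' _).1 k.2)
  refine ⟨⟨v, hvp⟩, ?_⟩
  apply mk_ff_congr H htt
  rw [mk_liftK]
  exact hv

theorem psiT_eq_one_iff (htt : ((t' : Subgroup.centralizer ({z} : Set G)) : G) = t)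
    (x : leechPerpU) : psiT (hn := hn) H htt x = 1 ↔
    (∃ w : leechLattice, (x : leechLattice) = w + w) ∨
      ∃ w : leechLattice, (x : leechLattice) = Spor.leechU + (w + w) := by
  unfold psiT
  rw [mk_ff_eq_one_iff H htt, mk_liftK, H.hψ.2.2.1, ← H.hu]
  constructor
  · rintro (h | h)
    · left; exact h
    · right
      have h1 : ψ ((x : leechLattice) + Spor.leechU) = 1 := by
        rw [H.hψ.1, h, ← H.hψ.1, psi_dbl H.hψ]
      obtain ⟨w, hw⟩ := (H.hψ.2.2.1 _).1 h1
      refine ⟨w - Spor.leechU, ?_⟩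
      have : (x : leechLattice) = w + w - Spor.leechU := by rw [← hw]; abel
      rw [this]; abel
  · rintro (h | ⟨w, hw⟩)
    · left; exact h
    · right
      rw [hw, psi_coset H.hψ]

/-- conjugation by an element of `C_C(t)` on `C_Q(t)` -/
def cjK (h : HH t') (k : ↥(chi H.hP t').ker) : ↥(chi H.hP t').ker :=
  ⟨cj (h : Subgroup.centralizer ({z} : Set G)) (k : Q), by
    rw [mem_ker_chi]
    have h1 := (mem_ker_chi H.hP t' _).1 k.2
    have h2 : cj (h : Subgroup.centralizer ({z} : Set G)) t' = t' := cj_of_mem_HH h.2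
    calc cj (h : Subgroup.centralizer ({z} : Set G)) (k : Q) * t'
        = cj (h : Subgroup.centralizer ({z} : Set G)) (k : Q) *
          cj (h : Subgroup.centralizer ({z} : Set G)) t' := by rw [h2]
      _ = cj (h : Subgroup.centralizer ({z} : Set G)) ((k : Q) * t') := cj_mul _ _ _
      _ = cj (h : Subgroup.centralizer ({z} : Set G)) (t' * (k : Q)) := by rw [h1]
      _ = cj (h : Subgroup.centralizer ({z} : Set G)) t' *
          cj (h : Subgroup.centralizer ({z} : Set G)) (k : Q) := (cj_mul _ _ _).symm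
      _ = t' * cj (h : Subgroup.centralizer ({z} : Set G)) (k : Q) := by rw [h2]⟩

theorem ff_cjK (htt : ((t' : Subgroup.centralizer ({z} : Set G)) : G) = t)
    [(RR (hn := hn) Q htt).Normal] (h : HH t') (k : ↥(chi H.hP t').ker) :
    ff (hn := hn) H.hP htt (cjK H h k) = cj (PP (hn := hn) htt h) (ff (hn := hn) H.hP htt k) := by
  apply Subtype.ext
  show PP (hn := hn) htt (iota H.hP t' (cjK H h k))
    = PP (hn := hn) htt h * PP (hn := hn) htt (iota H.hP t' k) * (PP (hn := hn) htt h)⁻¹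
  rw [← map_inv, ← map_mul, ← map_mul]
  rfl

theorem psiT_equivariant (htt : ((t' : Subgroup.centralizer ({z} : Set G)) : G) = t)
    [(RR (hn := hn) Q htt).Normal]
    (e' : DD (hn := hn) htt ⧸ (RR (hn := hn) Q htt) ≃* ↥Spor.Co2)
    (he' : ∀ h : HH t', e' (QuotientGroup.mk (PP htt h)) = H.theta h)
    (d : DD (hn := hn) htt) (g : ↥Spor.Co2) (hdg : e' (QuotientGroup.mk d) = g)
    (x y : leechPerpU) (hxy : g • (x : leechLattice) = (y : leechLattice))
    (q : ↥(RR (hn := hn) Q htt)) (hq : psiT (hn := hn) H htt x = QuotientGroup.mk q) :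
    psiT (hn := hn) H htt y = QuotientGroup.mk (cj d q) := by
  obtain ⟨h, rfl⟩ := PP_surjective H htt d
  have hth : H.theta h = g := by rw [← he' h]; exact hdg
  have h1 := H.hψ.2.2.2 h (toCo0 g) (by rw [← hth]; exact H.theta_spec h) (x : leechLattice)
    ((liftK H x : ↥(chi H.hP t').ker) : Q) (mk_liftK H x).symm
  have h2 : ψ (y : leechLattice) = QuotientGroup.mk
      ((cjK H h (liftK H x) : ↥(chi H.hP t').ker) : Q) := by
    rw [← hxy]
    exact h1
  rw [← mk_cj_congr (PP (hn := hn) htt h) hq, ← ff_cjK H htt]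
  apply mk_ff_congr H htt
  rw [mk_liftK, h2]

theorem isLeechPerp (htt : ((t' : Subgroup.centralizer ({z} : Set G)) : G) = t)
    [(RR (hn := hn) Q htt).Normal]
    (e' : DD (hn := hn) htt ⧸ (RR (hn := hn) Q htt) ≃* ↥Spor.Co2)
    (he' : ∀ h : HH t', e' (QuotientGroup.mk (PP htt h)) = H.theta h) :
    IsLeechPerpModTwoIso (RR (hn := hn) Q htt) e' (psiT (hn := hn) H htt) :=
  ⟨psiT_add H htt, psiT_surjective H htt, psiT_eq_one_iff H htt,
    fun d g hdg x y hxy q hq => psiT_equivariant H htt e' he' d g hdg x y hxy q hq⟩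

end quot

end Cfsg.Agent.Lib.Helper93Monster12
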