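import Cfsg.Agent.Lib.Helper93Monster4

/-!
# Groups of Monster type: the conjugates of `z` in `Q` are the type 4 classes (helper93)
-/

set_option autoImplicit false

namespace Cfsg.Agent.Lib.Helper93Monster5

open Cfsg
open Cfsg.Agent.Lib.Helper93Monster Cfsg.Agent.Lib.Helper93Monster3 Cfsg.Agent.Lib.Helper93Monster4
open Cfsg.Agent.Lib.Helper93LeechCross

variable {G : Type*} [Group G] [Finite G] {z : G}
  {Q : Subgroup (Subgroup.centralizer ({z} : Set G))} [Q.Normal]
  {e : (Subgroup.centralizer ({z} : Set G)) ⧸ Q ≃* Spor.Co1}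
  {ψ : leechLattice → Q ⧸ Subgroup.center Q}

/-- a conjugate of `z` in `Q` other than `z` is non-central and lies over a vector of norm 64 -/
theorem type4_of_conj (hz2 : orderOf z = 2) (hE : IsExtraspecial 2 Q)
    (hF : generalizedFittingSubgroup (Subgroup.centralizer ({z} : Set G)) = Q)
    (hcard : Nat.card Q = 2 ^ 25) (hψ : IsLeechModTwoIso Q e ψ) (y : Q) (k : G)
    (hy : ((y : Subgroup.centralizer ({z} : Set G)) : G) = k * z * k⁻¹) (hne : k * z * k⁻¹ ≠ z) :
    y ∉ Subgroup.center Q ∧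
      ∃ v : leechLattice, sqNorm (v : GolayPt → ℤ) = 64 ∧ ψ v = QuotientGroup.mk y := by
  have hP := pk_z hz2 hE hF
  have hzz : z * z = 1 := by
    rw [← sq, ← hz2]; exact pow_orderOf_eq_one z
  have hz1 : z ≠ 1 := by
    rintro rfl
    rw [orderOf_one] at hz2
    omega
  have hyc : y ∉ Subgroup.center Q := by
    intro hc
    rcases (hP.cen _).1 hc with h | h
    · have h1 := congrArg (fun x : Q => ((x : Subgroup.centralizer ({z} : Set G)) : G)) h
      have h2 : k * z * k⁻¹ = 1 := by rw [← hy]; exact h1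
      rw [conj_eq_one_iff] at h2
      exact hz1 h2
    · have h1 := congrArg (fun x : Q => ((x : Subgroup.centralizer ({z} : Set G)) : G)) h
      exact hne (by rw [← hy]; exact h1)
  have hy2 : y * y = 1 := by
    apply Subtype.ext
    apply Subtype.ext
    show ((y : Subgroup.centralizer ({z} : Set G)) : G) * ((y : Subgroup.centralizer ({z} : Set G)) : G) = 1
    rw [hy]
    have : k * z * k⁻¹ * (k * z * k⁻¹) = k * (z * z) * k⁻¹ := by group
    rw [this, hzz]; group
  refine ⟨hyc, ?_⟩
  obtain ⟨v, hv, hn⟩ := norm_of_invol hE hψ hy2 hyc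
  rcases hn with hn | hn
  · exact absurd hn (not_type2 (zC_mem hF) hP hcard hψ k y hy hne v hv)
  · exact ⟨v, hn, hv⟩

omit [Finite G] in
/-- an element over a vector of norm 64 is not central -/
theorem not_central_of_norm64 (hψ : IsLeechModTwoIso Q e ψ) {x : Q} {v : leechLattice}
    (hn : sqNorm (v : GolayPt → ℤ) = 64) (hv : ψ v = QuotientGroup.mk x) :
    x ∉ Subgroup.center Q := by
  intro hc
  rw [(QuotientGroup.eq_one_iff x).2 hc] at hv
  obtain ⟨w, hw⟩ := (hψ.2.2.1 v).1 hv
  have hw' : (v : GolayPt → ℤ) = 2 • (w : GolayPt → ℤ) := by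
    rw [hw, two_smul]; rfl
  rw [hw', sqNorm_two_smul] at hn
  by_cases hw0 : (w : GolayPt → ℤ) = 0
  · rw [hw0] at hn
    simp [sqNorm] at hn
  · have := min_norm' w.2 hw0
    omega

end Cfsg.Agent.Lib.Helper93Monster5
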