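import Cfsg.Agent.Lib.Helper93Monster12
import Cfsg.Agent.S5411
import Cfsg.Agent.S5407

/-!
# Groups of Monster type: the centraliser of a non-central involution of `Q`, part 4 (helper93)
`z` is not weakly closed
-/

set_option autoImplicit false
set_option linter.unusedSectionVars false

namespace Cfsg.Agent.Lib.Helper93Monster13

open Cfsg
open Cfsg.Agent.Lib.Helper93Monster Cfsg.Agent.Lib.Helper93Monster2 Cfsg.Agent.Lib.Helper93Monster3
  Cfsg.Agent.Lib.Helper93Monster4 Cfsg.Agent.Lib.Helper93Monster5 Cfsg.Agent.Lib.Helper93Monster7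
  Cfsg.Agent.Lib.Helper93Monster8
  Cfsg.Agent.Lib.Helper93Monster9 Cfsg.Agent.Lib.Helper93Monster10 Cfsg.Agent.Lib.Helper93Monster11
  Cfsg.Agent.Lib.Helper93Monster12 Cfsg.Agent.Lib.Helper93CrossStab
open Cfsg.Agent.Lib.Helper10Co0 Cfsg.Agent.Lib.Helper10Co0Center Cfsg.Agent.Lib.Helper9Golay2
open Cfsg.Agent.Lib.Helper93LeechIrr Cfsg.Agent.Lib.Helper93LeechCross
open Cfsg.Agent.S5546 (e8)
open Cfsg.Agent.S1571 (signedPerm_single)
open scoped commutatorElement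

theorem eps_e8_of_mem (c : Finset GolayPt) (hc : c ∈ Csup) {j : GolayPt} (hj : j ∈ c) :
    eps c hc • e8 j = - e8 j := by
  apply Subtype.ext
  show signedPerm 1 c (Pi.single j 8) = - (Pi.single j 8 : GolayPt → ℤ)
  rw [signedPerm_single, ← Pi.single_neg]
  simp [hj]

theorem rel_eps (c : Finset GolayPt) (hc : c ∈ Csup) : Rel (eps c hc) 1 := by
  intro j
  by_cases hj : j ∈ c
  · right; exact eps_e8_of_mem c hc hj
  · left; exact eps_e8_of_not_mem c hc hj

theorem eps_mem_NN (c : Finset GolayPt) (hc : c ∈ Csup) : eps c hc ∈ NN := by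
  rw [mem_NN_iff, ← X0_eq]
  rcases rel_eps c hc none with h | h
  · rw [h]; exact e8_mem_X0 _
  · rw [h]
    refine ⟨none, -8, Or.inr rfl, ?_⟩
    show - (Pi.single none 8 : GolayPt → ℤ) = _
    rw [← Pi.single_neg]

theorem eps_mem_ker (c : Finset GolayPt) (hc : c ∈ Csup) :
    (⟨eps c hc, eps_mem_NN c hc⟩ : ↥NN) ∈ rho.ker := by
  rw [MonoidHom.mem_ker]
  exact Subtype.ext (rho_eq (rel_eps c hc))

section nwc
variable {G : Type*} [Group G] [Finite G] {z : G}
  {Q : Subgroup (Subgroup.centralizer ({z} : Set G))} [Q.Normal]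

/-- an element over a vector of norm 32 is a non-central involution not conjugate to `z` -/
theorem type2_facts (hz2 : orderOf z = 2) (hE : IsExtraspecial 2 Q)
    (hF : generalizedFittingSubgroup (Subgroup.centralizer ({z} : Set G)) = Q)
    (hcard : Nat.card Q = 2 ^ 25)
    {e : (Subgroup.centralizer ({z} : Set G)) ⧸ Q ≃* Spor.Co1}
    {ψ : leechLattice → Q ⧸ Subgroup.center Q} (hψ : IsLeechModTwoIso Q e ψ)
    {b : Q} {y : leechLattice} (hy : sqNorm (y : GolayPt → ℤ) = 32) (hb : ψ y = QuotientGroup.mk b) :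
    orderOf ((b : Subgroup.centralizer ({z} : Set G)) : G) = 2 ∧
      ¬ IsConj z ((b : Subgroup.centralizer ({z} : Set G)) : G) := by
  have hbc : b ∉ Subgroup.center Q := by
    intro hc
    rw [(QuotientGroup.eq_one_iff b).2 hc] at hb
    obtain ⟨w, hw⟩ := (hψ.2.2.1 _).1 hb
    have hw' : (y : GolayPt → ℤ) = 2 • (w : GolayPt → ℤ) := by
      rw [hw, two_smul]; rfl
    rw [hw', sqNorm_two_smul] at hy
    have := sixteen_dvd' w.2
    omega
  have hb2 : b * b = 1 := by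
    have h1 := eps_sq hE hψ hb
    rw [hy] at h1
    exact ep_eq_zero (h1.trans (by decide))
  constructor
  · apply orderOf_eq_prime
    · rw [sq]
      exact congrArg (fun u : Q => ((u : Subgroup.centralizer ({z} : Set G)) : G)) hb2
    · intro h
      apply hbc
      have : b = 1 := Subtype.ext (Subtype.ext h)
      rw [this]; exact Subgroup.one_mem _
  · intro hc
    rw [isConj_iff] at hc
    obtain ⟨k, hk⟩ := hc
    have hne : k * z * k⁻¹ ≠ z := by
      intro h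
      apply hbc
      rw [(pk_z hz2 hE hF).cen]
      right
      exact Subtype.ext (Subtype.ext (hk.symm.trans h))
    obtain ⟨-, v, hv, hv'⟩ := type4_of_conj hz2 hE hF hcard hψ b k hk.symm hne
    exact not_congr hψ hv hy (hv'.trans hb.symm)

/-- `Q ∩ g Q g⁻¹` contains an involution not conjugate to `z` -/
theorem exists_type2_in_BB {e : (Subgroup.centralizer ({z} : Set G)) ⧸ Q ≃* Spor.Co1}
    {ψ : leechLattice → Q ⧸ Subgroup.center Q} {g : G} {s' : Q} (H : Ctx z Q e ψ g s')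
    (hE : IsExtraspecial 2 Q) :
    ∃ (b r : Q) (y : leechLattice), sqNorm (y : GolayPt → ℤ) = 32 ∧ ψ y = QuotientGroup.mk b ∧
      gam Q g r = ((b : Subgroup.centralizer ({z} : Set G)) : G) := by
  have h1 : piN e ⟨eps c1 c1_mem, eps_mem_NN c1 c1_mem⟩ ∈ EE Q g := by
    rw [H.EE_eq_OO]
    exact ⟨_, eps_mem_ker c1 c1_mem, rfl⟩
  obtain ⟨h, ⟨r0, hr0⟩, hh⟩ := h1
  have hr0' : gam Q g r0 = (h : G) := hr0
  have hh' : (QuotientGroup.mk (eps c1 c1_mem) : Spor.Co1) = e (QuotientGroup.mk h) :=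
    (piN_eq_iff ⟨eps c1 c1_mem, eps_mem_NN c1 c1_mem⟩ _).1 hh.symm
  have hl : ψ x1 = QuotientGroup.mk (lift ψ x1) := (mk_lift x1).symm
  have hcomm : lift ψ x1 * s' = s' * lift ψ x1 := by
    have h1 := comm_form hE H.hψ hl H.hv0
    rw [dot_x1] at h1
    exact commutatorElement_eq_one_iff_mul_comm.1 (ep_eq_zero (h1.trans (by simp)))
  have hcomm' : (((lift ψ x1 : Q) : Subgroup.centralizer ({z} : Set G)) : G) * (g * z * g⁻¹)
      = (g * z * g⁻¹) * (((lift ψ x1 : Q) : Subgroup.centralizer ({z} : Set G)) : G) := by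
    rw [← H.hs]
    exact congrArg (fun u : Q => ((u : Subgroup.centralizer ({z} : Set G)) : G)) hcomm
  have h5 : ψ (eps c1 c1_mem • x1) = QuotientGroup.mk (cj h (lift ψ x1)) :=
    H.hψ.2.2.2 h (eps c1 c1_mem) hh' x1 (lift ψ x1) hl
  have h6 : ψ (eps c1 c1_mem • x1 + -x1) = QuotientGroup.mk (cj h (lift ψ x1) * (lift ψ x1)⁻¹) := by
    rw [H.hψ.1, psi_neg H.hψ, h5, hl, QuotientGroup.mk_mul, QuotientGroup.mk_inv]
    congr 1
    rw [eq_inv_iff_mul_eq_one, ← hl]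
    exact psi_sq H.hψ x1
  refine ⟨_, r0 * cj (back g _ hcomm') r0⁻¹, _, norm_x1, h6, ?_⟩
  rw [map_mul, ← conj_gam g _ hcomm' r0⁻¹, map_inv, hr0']
  show _ = (h : G) * (((lift ψ x1 : Q) : Subgroup.centralizer ({z} : Set G)) : G) * (h : G)⁻¹ *
    (((lift ψ x1 : Q) : Subgroup.centralizer ({z} : Set G)) : G)⁻¹
  group

/-- an element of `C_G(t)` moving `z` inside `C_Q(t)` -/
theorem exists_nwc (hM : IsOfMonsterType z Q) (t' : Q)
    (ht2 : orderOf ((t' : Subgroup.centralizer ({z} : Set G)) : G) = 2)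
    (hnc : ¬ IsConj z ((t' : Subgroup.centralizer ({z} : Set G)) : G)) :
    ∃ (x : G) (s' : Q), x * ((t' : Subgroup.centralizer ({z} : Set G)) : G)
        = ((t' : Subgroup.centralizer ({z} : Set G)) : G) * x ∧
      ((s' : Subgroup.centralizer ({z} : Set G)) : G) = x * z * x⁻¹ ∧ s' * t' = t' * s' ∧
      ((s' : Subgroup.centralizer ({z} : Set G)) : G) ≠ z := by
  have hM' := hM
  obtain ⟨⟨hz2, hF, hE, hcard, g0, ⟨hgc, hgQ⟩, hgz⟩, -⟩ := hM'
  obtain ⟨e, ψ, H⟩ := exists_ctx hM g0 ⟨⟨g0 * z * g0⁻¹, hgc⟩, hgQ⟩ rfl hgz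
  obtain ⟨b, r, y, hy, hb, hr⟩ := exists_type2_in_BB H hE
  obtain ⟨hb2, hbnc⟩ := type2_facts hz2 hE hF hcard H.hψ hy hb
  -- `r` is conjugate to `b`
  have hrb : ((r : Subgroup.centralizer ({z} : Set G)) : G)
      = g0⁻¹ * ((b : Subgroup.centralizer ({z} : Set G)) : G) * g0 := by
    rw [← hr, gam_apply]; group
  have hr2 : orderOf ((r : Subgroup.centralizer ({z} : Set G)) : G) = 2 := by
    rw [hrb, ← hb2]
    have := (MulAut.conj g0⁻¹).orderOf_eq ((b : Subgroup.centralizer ({z} : Set G)) : G)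
    rwa [MulAut.conj_apply, inv_inv] at this
  have hrnc : ¬ IsConj z ((r : Subgroup.centralizer ({z} : Set G)) : G) := by
    intro hc
    apply hbnc
    refine hc.trans ?_
    rw [isConj_iff]
    exact ⟨g0, by rw [hrb]; group⟩
  obtain ⟨k1, hk1, hk1'⟩ := Cfsg.Agent.S5411.result z Q hM
    ((b : Subgroup.centralizer ({z} : Set G)) : G) ((t' : Subgroup.centralizer ({z} : Set G)) : G)
    ⟨(b : Subgroup.centralizer ({z} : Set G)).2, b.2⟩
    ⟨(t' : Subgroup.centralizer ({z} : Set G)).2, t'.2⟩ hb2 ht2 hbnc hnc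
  obtain ⟨k2, hk2, hk2'⟩ := Cfsg.Agent.S5411.result z Q hM
    ((r : Subgroup.centralizer ({z} : Set G)) : G) ((t' : Subgroup.centralizer ({z} : Set G)) : G)
    ⟨(r : Subgroup.centralizer ({z} : Set G)).2, r.2⟩
    ⟨(t' : Subgroup.centralizer ({z} : Set G)).2, t'.2⟩ hr2 ht2 hrnc hnc
  have hk2z : z * k2 = k2 * z := mem_C_iff.1 hk2
  have hk1z : z * k1 = k1 * z := mem_C_iff.1 hk1
  have hxz : k1 * g0 * k2⁻¹ * z * (k1 * g0 * k2⁻¹)⁻¹ = k1 * (g0 * z * g0⁻¹) * k1⁻¹ := by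
    have : k2⁻¹ * z * k2 = z := by rw [mul_assoc, hk2z]; group
    calc k1 * g0 * k2⁻¹ * z * (k1 * g0 * k2⁻¹)⁻¹ = k1 * g0 * (k2⁻¹ * z * k2) * g0⁻¹ * k1⁻¹ := by group
      _ = k1 * (g0 * z * g0⁻¹) * k1⁻¹ := by rw [this]; group
  refine ⟨k1 * g0 * k2⁻¹, cj ⟨k1, hk1⟩ ⟨⟨g0 * z * g0⁻¹, hgc⟩, hgQ⟩, ?_, ?_, ?_, ?_⟩
  · have h1 : k1 * g0 * k2⁻¹ * ((t' : Subgroup.centralizer ({z} : Set G)) : G) * (k1 * g0 * k2⁻¹)⁻¹
        = ((t' : Subgroup.centralizer ({z} : Set G)) : G) := by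
      calc k1 * g0 * k2⁻¹ * ((t' : Subgroup.centralizer ({z} : Set G)) : G) * (k1 * g0 * k2⁻¹)⁻¹
          = k1 * (g0 * (k2⁻¹ * ((t' : Subgroup.centralizer ({z} : Set G)) : G) * k2) * g0⁻¹) * k1⁻¹ := by
            group
        _ = k1 * (g0 * ((r : Subgroup.centralizer ({z} : Set G)) : G) * g0⁻¹) * k1⁻¹ := by
            rw [← hk2']; group
        _ = k1 * ((b : Subgroup.centralizer ({z} : Set G)) : G) * k1⁻¹ := by
            rw [← hr, gam_apply]
        _ = _ := hk1'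
    exact mul_inv_eq_iff_eq_mul.1 h1
  · rw [hxz]; rfl
  · apply Subtype.ext
    apply Subtype.ext
    show (k1 * (g0 * z * g0⁻¹) * k1⁻¹) * ((t' : Subgroup.centralizer ({z} : Set G)) : G)
      = ((t' : Subgroup.centralizer ({z} : Set G)) : G) * (k1 * (g0 * z * g0⁻¹) * k1⁻¹)
    have hzr : z * ((r : Subgroup.centralizer ({z} : Set G)) : G)
        = ((r : Subgroup.centralizer ({z} : Set G)) : G) * z :=
      mem_C_iff.1 (r : Subgroup.centralizer ({z} : Set G)).2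
    rw [← hk1', ← hr, gam_apply]
    calc k1 * (g0 * z * g0⁻¹) * k1⁻¹ *
          (k1 * (g0 * ((r : Subgroup.centralizer ({z} : Set G)) : G) * g0⁻¹) * k1⁻¹)
        = k1 * g0 * (z * ((r : Subgroup.centralizer ({z} : Set G)) : G)) * g0⁻¹ * k1⁻¹ := by group
      _ = k1 * g0 * (((r : Subgroup.centralizer ({z} : Set G)) : G) * z) * g0⁻¹ * k1⁻¹ := by rw [hzr]
      _ = _ := by group
  · show k1 * (g0 * z * g0⁻¹) * k1⁻¹ ≠ z
    intro h
    apply hgz
    have : g0 * z * g0⁻¹ = k1⁻¹ * (k1 * (g0 * z * g0⁻¹) * k1⁻¹) * k1 := by group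
    rw [this, h, mul_assoc, hk1z]; group

/-- the standing hypotheses hold for a suitable identification -/
theorem exists_ctx2 (hM : IsOfMonsterType z Q) (t' : Q)
    (ht2 : orderOf ((t' : Subgroup.centralizer ({z} : Set G)) : G) = 2)
    (hnc : ¬ IsConj z ((t' : Subgroup.centralizer ({z} : Set G)) : G)) :
    ∃ (e : (Subgroup.centralizer ({z} : Set G)) ⧸ Q ≃* Spor.Co1)
      (ψ : leechLattice → Q ⧸ Subgroup.center Q), Ctx2 z Q e ψ t' := by
  have hM' := hM
  obtain ⟨⟨hz2, hF, hE, hcard, -⟩, e, ψ, hψ⟩ := hM'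
  have hP := pk_z hz2 hE hF
  have htt : t' * t' = 1 := by
    apply Subtype.ext
    apply Subtype.ext
    show ((t' : Subgroup.centralizer ({z} : Set G)) : G) * ((t' : Subgroup.centralizer ({z} : Set G)) : G) = 1
    rw [← sq, ← ht2]; exact pow_orderOf_eq_one _
  have htc : t' ∉ Subgroup.center Q := by
    intro hc
    rcases (hP.cen _).1 hc with h | h
    · rw [h] at ht2
      have : orderOf (1 : G) = 2 := ht2
      rw [orderOf_one] at this
      omega
    · apply hnc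
      rw [h]
      exact IsConj.refl z
  obtain ⟨v, hv, hn⟩ := norm_of_invol hE hψ htt htc
  have hn32 : sqNorm (v : GolayPt → ℤ) = 32 := by
    rcases hn with hn | hn
    · exact hn
    · exact absurd ((Cfsg.Agent.S5407.result z Q hM e ψ hψ t').2 ⟨v, hn, hv⟩).1 hnc
  obtain ⟨n0, hn0⟩ := short_trans Spor.leechU v (by rw [sqNorm_leechU, hn32])
    (by rw [sqNorm_leechU]; norm_num)
  exact ⟨_, _, ⟨hz2, hF, hE, hcard, twist hψ n0, by
    show ψ (n0 • Spor.leechU) = _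
    rw [hn0, hv], hnc⟩⟩

end nwc

end Cfsg.Agent.Lib.Helper93Monster13
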