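import Cfsg.Agent.Lib.Helper93Monster

/-!
# Groups of Monster type: `Q` is of plus type (helper93)

The lattice vectors with all coordinates divisible by four give a totally singular subspace of
dimension 12 of the lattice modulo 2.
-/

set_option autoImplicit false
set_option exponentiation.threshold 2000

namespace Cfsg.Agent.Lib.Helper93Monster2

open Cfsg
open Cfsg.Agent.Lib.Helper93Monster Cfsg.Agent.Lib.Helper93LeechIrr
open Cfsg.Agent.Lib.Helper33LVec Cfsg.Agent.Lib.Helper33LTest Cfsg.Agent.Lib.Helper33LGen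
  Cfsg.Agent.Lib.Helper33LPair Cfsg.Agent.Lib.Helper33LCo0

/-- lattice vectors with all coordinates divisible by four -/
def L4 : AddSubgroup ↥leechLattice where
  carrier := {v | ∀ p, (4 : ℤ) ∣ (v : GolayPt → ℤ) p}
  zero_mem' := fun p => by simp
  add_mem' := fun {a b} ha hb p => by
    show (4 : ℤ) ∣ (a : GolayPt → ℤ) p + (b : GolayPt → ℤ) p
    exact dvd_add (ha p) (hb p)
  neg_mem' := fun {a} ha p => by
    show (4 : ℤ) ∣ -((a : GolayPt → ℤ) p)
    exact (dvd_neg).2 (ha p)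

theorem norm_L4 {v : ↥leechLattice} (hv : v ∈ L4) : (32 : ℤ) ∣ sqNorm (v : GolayPt → ℤ) := by
  have hL := (Cfsg.Agent.Lib.Helper94Leech.mem_leechLattice_iff _).1 v.2
  rw [Cfsg.Agent.Lib.Helper94Leech.mem_leechSet_iff] at hL
  obtain ⟨m, h1, h2, -⟩ := hL
  have hm : m % 2 = 0 := by
    have a1 := h1 none
    have a2 := hv none
    omega
  have hs : (8 : ℤ) ∣ ∑ p, (v : GolayPt → ℤ) p := by omega
  have hterm : ∀ p ∈ (Finset.univ : Finset GolayPt),
      (32 : ℤ) ∣ ((v : GolayPt → ℤ) p ^ 2 - 4 * (v : GolayPt → ℤ) p) := by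
    intro p _
    obtain ⟨y, hy⟩ := hv p
    rw [hy]
    have h2 : (2 : ℤ) ∣ y * (y - 1) := by
      rcases Int.even_or_odd y with ⟨k, hk⟩ | ⟨k, hk⟩
      · exact ⟨k * (y - 1), by rw [hk]; ring⟩
      · exact ⟨y * k, by rw [hk]; ring⟩
    obtain ⟨k, hk⟩ := h2
    exact ⟨k, by linear_combination 16 * hk⟩
  have h3 := Finset.dvd_sum hterm
  rw [Finset.sum_sub_distrib, ← Finset.mul_sum] at h3
  unfold sqNorm
  omega

/-- test vectors -/
def dl (j : ℕ) : ℕ := if j = 0 then genU else genB j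

/-- the vectors `(8,0,...)` and `(4,0,..,-4,..,0)` -/
def wl (i : ℕ) : ℕ :=
  if i = 0 then genA 0 else Nat.sub (Nat.add (Nat.mul 16 ONES) 4) (Nat.shiftLeft 4 (Nat.mul 32 i))

theorem wl_ok : ∀ i : Fin 12, (inR (wl i.val) && isLeech (wl i.val)) = true := by decide +kernel

theorem dl_ok : ∀ i : Fin 12, (inR (dl i.val) && isLeech (dl i.val)) = true := by decide +kernel

theorem wl_four : ∀ i : Fin 12, ∀ p : GolayPt, D (wl i.val) p % 4 = 0 := by decide +kernel

theorem pairing : ∀ i j : Fin 12,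
    (∑ p : GolayPt, D (wl i.val) p * D (dl j.val) p) % 16 = if i = j then 8 else 0 := by
  decide +kernel

theorem wl_mem (i : Fin 12) : D (wl i.val) ∈ leechLattice := by
  have := wl_ok i
  rw [Bool.and_eq_true] at this
  exact isLeech_spec _ (InR_of_inR this.1) this.2

theorem dl_mem (i : Fin 12) : D (dl i.val) ∈ leechLattice := by
  have := dl_ok i
  rw [Bool.and_eq_true] at this
  exact isLeech_spec _ (InR_of_inR this.1) this.2

def wv (i : Fin 12) : ↥leechLattice := ⟨D (wl i.val), wl_mem i⟩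

theorem wv_mem (i : Fin 12) : wv i ∈ L4 := fun p => Int.dvd_of_emod_eq_zero (wl_four i p)

theorem eight_dvd_dot {x y : GolayPt → ℤ} (hx : x ∈ leechLattice) (hy : y ∈ leechLattice) :
    (8 : ℤ) ∣ dotInt x y := by
  have b1 := sixteen_dvd' (leechLattice.add_mem hx hy)
  have b2 := sixteen_dvd' hx
  have b3 := sixteen_dvd' hy
  rw [sqNorm_add] at b1
  omega

/-- pairing with the test vectors, modulo 16 -/
def T : ↥leechLattice →+ (Fin 12 → ZMod 16) where
  toFun v := fun j => ((dotInt (v : GolayPt → ℤ) (D (dl j.val)) : ℤ) : ZMod 16)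
  map_zero' := by
    funext j
    simp [dotInt]
  map_add' a b := by
    funext j
    show ((dotInt ((a : GolayPt → ℤ) + (b : GolayPt → ℤ)) (D (dl j.val)) : ℤ) : ZMod 16) = _
    rw [dot_add_left]
    push_cast
    rfl

theorem T_dbl (w : ↥leechLattice) : T (w + w) = 0 := by
  funext j
  show ((dotInt ((w : GolayPt → ℤ) + (w : GolayPt → ℤ)) (D (dl j.val)) : ℤ) : ZMod 16) = 0
  rw [dot_add_left, ZMod.intCast_zmod_eq_zero_iff_dvd]
  obtain ⟨k, hk⟩ := eight_dvd_dot w.2 (dl_mem j)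
  exact ⟨k, by rw [hk]; push_cast; ring⟩

theorem T_wv (i j : Fin 12) : T (wv i) j = if i = j then 8 else 0 := by
  show ((dotInt (D (wl i.val)) (D (dl j.val)) : ℤ) : ZMod 16) = _
  have h := pairing i j
  have h2 : dotInt (D (wl i.val)) (D (dl j.val))
      = 16 * (dotInt (D (wl i.val)) (D (dl j.val)) / 16) + (if i = j then 8 else 0) := by
    have : dotInt (D (wl i.val)) (D (dl j.val)) % 16 = if i = j then 8 else 0 := h
    omega
  rw [h2]
  push_cast
  have : (16 : ZMod 16) = 0 := by decide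
  rw [this, zero_mul, zero_add]

/-- subset sums -/
def A (S : Finset (Fin 12)) : ↥leechLattice := ∑ i ∈ S, wv i

theorem A_mem (S : Finset (Fin 12)) : A S ∈ L4 := L4.sum_mem (fun i _ => wv_mem i)

theorem T_A (S : Finset (Fin 12)) (j : Fin 12) : T (A S) j = if j ∈ S then 8 else 0 := by
  unfold A
  rw [map_sum, Finset.sum_apply, Finset.sum_congr rfl (fun i _ => T_wv i j), Finset.sum_ite_eq']

theorem A_inj {S S' : Finset (Fin 12)} {w : ↥leechLattice} (h : A S = A S' + (w + w)) : S = S' := by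
  have h1 := congrArg T h
  rw [map_add, T_dbl, add_zero] at h1
  ext j
  have h2 := congrFun h1 j
  rw [T_A, T_A] at h2
  by_cases a : j ∈ S <;> by_cases b : j ∈ S' <;> simp only [a, b, if_true, if_false] at h2 ⊢
  · exact absurd h2 (by decide)
  · exact absurd h2 (by decide)

section setting
variable {G : Type*} [Group G] {z : G}
  {Q : Subgroup (Subgroup.centralizer ({z} : Set G))} [Q.Normal]
  {e : (Subgroup.centralizer ({z} : Set G)) ⧸ Q ≃* Spor.Co1}
  {ψ : leechLattice → Q ⧸ Subgroup.center Q}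

theorem psi_sq (hψ : IsLeechModTwoIso Q e ψ) (v : leechLattice) : ψ v * ψ v = 1 := by
  rw [← hψ.1, psi_dbl hψ]

/-- the preimage in `Q` of the image of `L4` -/
def EE (hψ : IsLeechModTwoIso Q e ψ) : Subgroup Q where
  carrier := {x | ∃ v ∈ L4, ψ v = QuotientGroup.mk x}
  one_mem' := ⟨0, L4.zero_mem, psi_zero hψ⟩
  mul_mem' := by
    rintro a b ⟨v, hv, hv'⟩ ⟨w, hw, hw'⟩
    exact ⟨v + w, L4.add_mem hv hw, by rw [hψ.1, hv', hw']; rfl⟩
  inv_mem' := by
    rintro a ⟨v, hv, hv'⟩
    refine ⟨v, hv, ?_⟩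
    rw [QuotientGroup.mk_inv, ← hv']
    exact (inv_eq_of_mul_eq_one_left (psi_sq hψ v)).symm

theorem EE_sq [Finite G] (hE : IsExtraspecial 2 Q) (hψ : IsLeechModTwoIso Q e ψ) {x : Q}
    (hx : x ∈ EE hψ) : x * x = 1 := by
  obtain ⟨v, hv, hv'⟩ := hx
  apply ep_eq_zero
  rw [eps_sq hE hψ hv']
  obtain ⟨k, hk⟩ := norm_L4 hv
  have : sqNorm (v : GolayPt → ℤ) / 16 = 2 * k := by omega
  rw [this]
  push_cast
  have : (2 : ZMod 2) = 0 := by decide
  rw [this, zero_mul]

theorem card_EE [Finite G] (hE : IsExtraspecial 2 Q) (hψ : IsLeechModTwoIso Q e ψ) :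
    2 ^ 13 ≤ Nat.card (EE hψ) := by
  obtain ⟨c, hP⟩ := exists_pk hE
  have hcm : ∀ (b : Bool) (x : Q), (QuotientGroup.mk (x * (if b then c else 1)) : Q ⧸ Subgroup.center Q)
      = QuotientGroup.mk x := by
    intro b x
    rw [QuotientGroup.mk_mul]
    have : (QuotientGroup.mk (if b then c else 1 : Q) : Q ⧸ Subgroup.center Q) = 1 := by
      rw [QuotientGroup.eq_one_iff, hP.cen]
      cases b
      · left; rfl
      · right; rfl
    rw [this, mul_one]
  let F : Finset (Fin 12) × Bool → EE hψ := fun Sb =>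
    ⟨lift ψ (A Sb.1) * (if Sb.2 then c else 1), A Sb.1, A_mem Sb.1, by rw [hcm, mk_lift]⟩
  have hF : Function.Injective F := by
    rintro ⟨S, b⟩ ⟨S', b'⟩ h
    have h1 : lift ψ (A S) * (if b then c else 1) = lift ψ (A S') * (if b' then c else 1) :=
      congrArg Subtype.val h
    have h2 := congrArg (fun x : Q => (QuotientGroup.mk x : Q ⧸ Subgroup.center Q)) h1
    simp only [hcm, mk_lift] at h2
    -- `ψ (A S) = ψ (A S')`
    have h3 : ψ (A S + A S') = 1 := by rw [hψ.1, h2, psi_sq hψ]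
    obtain ⟨w, hw⟩ := (hψ.2.2.1 _).1 h3
    have h4 : A S = A S' + ((w - A S') + (w - A S')) := by
      have : A S = (A S + A S') - A S' := by abel
      rw [this, hw]; abel
    have hS : S = S' := A_inj h4
    subst hS
    have h5 := mul_left_cancel h1
    have hb : b = b' := by
      cases b <;> cases b' <;> simp only [if_true, if_false, Bool.false_eq_true] at h5 ⊢
      · exact absurd h5.symm hP.ne
      · exact absurd h5 hP.ne
    rw [hb]
  have h1 := Nat.card_le_card_of_injective F hF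
  have h2 : Nat.card (Finset (Fin 12) × Bool) = 2 ^ 13 := by
    rw [Nat.card_eq_fintype_card, Fintype.card_prod, Fintype.card_finset, Fintype.card_fin,
      Fintype.card_bool]
    norm_num
  omega

theorem exists_elem_abelian [Finite G] (hE : IsExtraspecial 2 Q) (hψ : IsLeechModTwoIso Q e ψ) :
    ∃ E : Subgroup Q, IsElementaryAbelian 2 E ∧ Nat.card E = 2 ^ 13 := by
  obtain ⟨E, hle, hcard⟩ := Sylow.exists_subgroup_le_card_pow_prime_of_le_card Nat.prime_two hE.1.1
    (card_EE hE hψ)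
  refine ⟨E, ⟨⟨⟨fun a b => ?_⟩⟩, fun a ha => ?_⟩, hcard⟩
  · have hsq : ∀ x : E, x * x = 1 := fun x => Subtype.ext (EE_sq hE hψ (hle x.2))
    have ha : a⁻¹ = a := inv_eq_of_mul_eq_one_left (hsq a)
    have hb : b⁻¹ = b := inv_eq_of_mul_eq_one_left (hsq b)
    have h2 : a * b = (a * b)⁻¹ := (inv_eq_of_mul_eq_one_left (hsq (a * b))).symm
    rw [h2, mul_inv_rev, ha, hb]
  · rw [sq]; exact EE_sq hE hψ (hle ha)

end setting

end Cfsg.Agent.Lib.Helper93Monster2
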