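import Cfsg.Agent.Lib.Helper93Monster

/-!
# Extraspecial 2-groups: centralisers of elements (helper93)
-/

set_option autoImplicit false

namespace Cfsg.Agent.Lib.Helper93Monster3

open Cfsg
open Cfsg.Agent.Lib.Helper93Monster
open scoped commutatorElement

section pk
variable {E : Type*} [Group E] {c : E}

/-- transport along an isomorphism -/
theorem Pk.map {F : Type*} [Group F] (h : Pk E c) (f : E ≃* F) : Pk F (f c) where
  ne := fun hh => h.ne (by
    have := congrArg f.symm hh
    simpa using this)
  sq := by rw [← map_mul, h.sq, map_one]
  cen := by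
    intro x
    have h1 : x ∈ Subgroup.center F ↔ f.symm x ∈ Subgroup.center E := by
      rw [Subgroup.mem_center_iff, Subgroup.mem_center_iff]
      constructor
      · intro hx g
        apply f.injective
        rw [map_mul, map_mul, f.apply_symm_apply]
        exact hx (f g)
      · intro hx g
        have := congrArg f (hx (f.symm g))
        rw [map_mul, map_mul, f.apply_symm_apply, f.apply_symm_apply] at this
        exact this
    rw [h1, h.cen]
    constructor
    · rintro (hx | hx)
      · left
        have := congrArg f hx
        simpa using this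
      · right
        have := congrArg f hx
        simpa using this
    · rintro (hx | hx)
      · left; rw [hx, map_one]
      · right; rw [hx, f.symm_apply_apply]
  sqm := by
    intro x
    rcases h.sqm (f.symm x) with hx | hx
    · left
      have := congrArg f hx
      simpa using this
    · right
      have := congrArg f hx
      simpa using this
  com := by
    intro x y
    have e : ⁅x, y⁆ = f ⁅f.symm x, f.symm y⁆ := by
      rw [map_commutatorElement, f.apply_symm_apply, f.apply_symm_apply]
    rcases h.com (f.symm x) (f.symm y) with hx | hx
    · left; rw [e, hx, map_one]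
    · right; rw [e, hx]

/-- commutation with a fixed element, as a homomorphism -/
def chi (h : Pk E c) (a : E) : E →* E where
  toFun x := ⁅x, a⁆
  map_one' := commutatorElement_one_left a
  map_mul' x y := h.comm_mul x y a

theorem mem_ker_chi (h : Pk E c) (a x : E) : x ∈ (chi h a).ker ↔ x * a = a * x := by
  rw [MonoidHom.mem_ker]
  exact commutatorElement_eq_one_iff_mul_comm

theorem card_range_chi [Finite E] (h : Pk E c) (a : E) : Nat.card (chi h a).range ≤ 2 := by
  have h1 : ((chi h a).range : Set E) ⊆ {1, c} := by
    rintro _ ⟨x, rfl⟩
    exact h.com x a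
  have h2 := Set.ncard_le_ncard h1 (Set.toFinite _)
  have h3 := Set.ncard_insert_le (1 : E) ({c} : Set E)
  rw [Set.ncard_singleton] at h3
  have h4 : Nat.card (chi h a).range = ((chi h a).range : Set E).ncard := rfl
  omega

theorem card_le_two_mul [Finite E] (h : Pk E c) (a : E) :
    Nat.card E ≤ 2 * Nat.card (chi h a).ker := by
  have h1 := Subgroup.card_mul_index (chi h a).ker
  rw [Subgroup.index_ker] at h1
  have h2 := card_range_chi h a
  calc Nat.card E = Nat.card (chi h a).ker * Nat.card (chi h a).range := h1.symm
    _ ≤ Nat.card (chi h a).ker * 2 := Nat.mul_le_mul_left _ h2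
    _ = 2 * Nat.card (chi h a).ker := Nat.mul_comm _ _

/-- the centre of the centraliser of a non-central element -/
theorem center_centralizer (h : Pk E c) {a x : E}
    (hx : ∀ y, y * a = a * y → y * x = x * y) : x = 1 ∨ x = c ∨ x = a ∨ x = a * c := by
  by_cases hxc : x ∈ Subgroup.center E
  · rcases (h.cen x).1 hxc with h1 | h1
    · left; exact h1
    · right; left; exact h1
  · right; right
    rw [Subgroup.mem_center_iff] at hxc
    push Not at hxc
    obtain ⟨w, hw⟩ := hxc
    have hwx : ⁅w, x⁆ = c := by
      rcases h.com w x with h1 | h1
      · exact absurd (commutatorElement_eq_one_iff_mul_comm.1 h1) hw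
      · exact h1
    have hwa : ⁅w, a⁆ = c := by
      rcases h.com w a with h1 | h1
      · exact absurd (hx w (commutatorElement_eq_one_iff_mul_comm.1 h1)) hw
      · exact h1
    have hcen : x * a ∈ Subgroup.center E := by
      rw [Subgroup.mem_center_iff]
      intro y
      rw [← commutatorElement_eq_one_iff_mul_comm, h.comm_symm, h.comm_mul, h.comm_symm x y,
        h.comm_symm a y]
      rcases h.com y a with h1 | h1
      · rw [h1, mul_one]
        exact commutatorElement_eq_one_iff_mul_comm.2 (hx y (commutatorElement_eq_one_iff_mul_comm.1 h1))
      · have h2 : ⁅y, x⁆ = c := by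
          rcases h.com y x with h3 | h3
          · exfalso
            have h4 : ⁅w * y, a⁆ = 1 := by rw [h.comm_mul, hwa, h1, h.sq]
            have h5 := hx _ (commutatorElement_eq_one_iff_mul_comm.1 h4)
            have h6 : ⁅w * y, x⁆ = 1 := commutatorElement_eq_one_iff_mul_comm.2 h5
            rw [h.comm_mul, hwx, h3, mul_one] at h6
            exact h.ne h6
          · exact h3
        rw [h1, h2, h.sq]
    have hainv : a⁻¹ = a ∨ a⁻¹ = a * c := by
      rcases h.sqm a with h1 | h1
      · left; exact inv_eq_of_mul_eq_one_left h1
      · right
        apply inv_eq_of_mul_eq_one_right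
        rw [← mul_assoc, h1, h.sq]
    rcases (h.cen _).1 hcen with h1 | h1
    · have : x = a⁻¹ := eq_inv_of_mul_eq_one_left h1
      rcases hainv with h2 | h2
      · left; rw [this, h2]
      · right; rw [this, h2]
    · have : x = c * a⁻¹ := by rw [← h1]; group
      rcases hainv with h2 | h2
      · right; rw [this, h2]; exact (h.z_comm a).symm
      · left; rw [this, h2, ← mul_assoc, ← h.z_comm a, mul_assoc, h.sq, mul_one]

/-- the centraliser of a non-central element is not abelian -/
theorem exists_noncomm_in_centralizer [Finite E] (h : Pk E c) (hcard : 8 < Nat.card E) (a : E) :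
    ∃ x y : E, x * a = a * x ∧ y * a = a * y ∧ x * y ≠ y * x := by
  have h1 := card_le_two_mul h a
  have h2 : ({1, c, a, a * c} : Set E).ncard < (((chi h a).ker : Subgroup E) : Set E).ncard := by
    have e1 : (((chi h a).ker : Subgroup E) : Set E).ncard = Nat.card (chi h a).ker := rfl
    have e2 : ({1, c, a, a * c} : Set E).ncard ≤ 4 := by
      have a1 := Set.ncard_insert_le (1 : E) ({c, a, a * c} : Set E)
      have a2 := Set.ncard_insert_le c ({a, a * c} : Set E)
      have a3 := Set.ncard_insert_le a ({a * c} : Set E)
      rw [Set.ncard_singleton] at a3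
      omega
    omega
  obtain ⟨x, hx, hx'⟩ := Set.exists_mem_notMem_of_ncard_lt_ncard h2 (Set.toFinite _)
  have hxa : x * a = a * x := (mem_ker_chi h a x).1 hx
  by_contra hcon
  push Not at hcon
  apply hx'
  have := center_centralizer h (a := a) (x := x) (fun y hy => (hcon x y hxa hy).symm)
  simpa using this

end pk

end Cfsg.Agent.Lib.Helper93Monster3
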