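import Cfsg.Agent.Lib.Helper93Monster3
import Cfsg.Agent.Lib.Helper10Co0Center
import Cfsg.Agent.S0399
import Cfsg.Agent.S0402

/-!
# Groups of Monster type: conjugates of `z` in `Q` (helper93)

`not_type2` : a conjugate of `z` in `Q`, other than `z`, does not lie over a minimal vector.
-/

set_option autoImplicit false

namespace Cfsg.Agent.Lib.Helper93Monster4

open Cfsg
open Cfsg.Agent.Lib.Helper93Monster Cfsg.Agent.Lib.Helper93Monster3
open Cfsg.Agent.Lib.Helper33LCo0 Cfsg.Agent.Lib.Helper93LeechIrr Cfsg.Agent.Lib.Helper93LeechCross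
open scoped commutatorElement

section setting
variable {G : Type*} [Group G] {z : G}
  {Q : Subgroup (Subgroup.centralizer ({z} : Set G))} [Q.Normal]

/-- the conjugation map `q ↦ g q g⁻¹` from `Q` to `G` -/
def gam (Q : Subgroup (Subgroup.centralizer ({z} : Set G))) (g : G) : Q →* G where
  toFun q := g * ((q : Subgroup.centralizer ({z} : Set G)) : G) * g⁻¹
  map_one' := by simp
  map_mul' a b := by
    show g * (((a : Subgroup.centralizer ({z} : Set G)) : G) * ((b : Subgroup.centralizer ({z} : Set G)) : G)) * g⁻¹ = _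
    group

omit [Q.Normal] in
theorem gam_apply (g : G) (q : Q) :
    gam Q g q = g * ((q : Subgroup.centralizer ({z} : Set G)) : G) * g⁻¹ := rfl

omit [Q.Normal] in
theorem gam_inj (g : G) : Function.Injective (gam Q g) := by
  intro a b h
  rw [gam_apply, gam_apply] at h
  apply Subtype.ext
  apply Subtype.ext
  exact mul_left_cancel (mul_right_cancel h)

omit [Q.Normal] in
theorem mem_C_iff {x : G} : x ∈ Subgroup.centralizer ({z} : Set G) ↔ z * x = x * z := by
  rw [Subgroup.mem_centralizer_singleton_iff]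
  exact eq_comm

/-- an element commuting with `g z g⁻¹`, conjugated back into `C` -/
def back (g : G) (x : G) (hx : x * (g * z * g⁻¹) = (g * z * g⁻¹) * x) :
    Subgroup.centralizer ({z} : Set G) :=
  ⟨g⁻¹ * x * g, by
    rw [mem_C_iff]
    have : z * (g⁻¹ * x * g) = g⁻¹ * ((g * z * g⁻¹) * x) * g := by group
    rw [this, ← hx]
    group⟩

/-- elements commuting with `g z g⁻¹` normalise `g Q g⁻¹` -/
theorem conj_gam (g : G) (x : G) (hx : x * (g * z * g⁻¹) = (g * z * g⁻¹) * x) (q : Q) :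
    x * gam Q g q * x⁻¹ = gam Q g (cj (back g x hx) q) := by
  rw [gam_apply, gam_apply]
  show _ = g * ((g⁻¹ * x * g) * ((q : Subgroup.centralizer ({z} : Set G)) : G) * (g⁻¹ * x * g)⁻¹) * g⁻¹
  group

end setting

section main
variable {G : Type*} [Group G] [Finite G] {z : G}
  {Q : Subgroup (Subgroup.centralizer ({z} : Set G))} [Q.Normal]

/-- the homomorphism from `C_Q(s)` to `C/Q` given by conjugation by `g⁻¹` -/
def fD {c : Q} (hP : Pk Q c) (g : G) (s' : Q)
    (hs : ((s' : Subgroup.centralizer ({z} : Set G)) : G) = g * z * g⁻¹) :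
    ↥(chi hP s').ker →* (Subgroup.centralizer ({z} : Set G)) ⧸ Q :=
  (QuotientGroup.mk' Q).comp
    { toFun := fun d => back g (((d : Q) : Subgroup.centralizer ({z} : Set G)) : G) (by
        have h1 := (mem_ker_chi hP s' (d : Q)).1 d.2
        have h2 := congrArg (fun x : Q => ((x : Subgroup.centralizer ({z} : Set G)) : G)) h1
        rw [← hs]
        exact h2)
      map_one' := by
        apply Subtype.ext
        show g⁻¹ * 1 * g = 1
        group
      map_mul' := fun a b => by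
        apply Subtype.ext
        show g⁻¹ * ((((a : Q) : Subgroup.centralizer ({z} : Set G)) : G) *
          (((b : Q) : Subgroup.centralizer ({z} : Set G)) : G)) * g = _
        show _ = (g⁻¹ * (((a : Q) : Subgroup.centralizer ({z} : Set G)) : G) * g) *
          (g⁻¹ * (((b : Q) : Subgroup.centralizer ({z} : Set G)) : G) * g)
        group }

omit [Finite G] in
theorem mem_ker_fD {c : Q} (hP : Pk Q c) (g : G) (s' : Q)
    (hs : ((s' : Subgroup.centralizer ({z} : Set G)) : G) = g * z * g⁻¹)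
    (d : ↥(chi hP s').ker) (hd : d ∈ (fD hP g s' hs).ker) :
    ∃ q : Q, gam Q g q = (((d : Q) : Subgroup.centralizer ({z} : Set G)) : G) := by
  rw [MonoidHom.mem_ker] at hd
  have hcm : (((d : Q) : Subgroup.centralizer ({z} : Set G)) : G) * (g * z * g⁻¹)
      = (g * z * g⁻¹) * (((d : Q) : Subgroup.centralizer ({z} : Set G)) : G) := by
    have h1 := (mem_ker_chi hP s' (d : Q)).1 d.2
    have h2 := congrArg (fun x : Q => ((x : Subgroup.centralizer ({z} : Set G)) : G)) h1
    rw [← hs]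
    exact h2
  have h1 : (QuotientGroup.mk (back g (((d : Q) : Subgroup.centralizer ({z} : Set G)) : G) hcm) :
      (Subgroup.centralizer ({z} : Set G)) ⧸ Q) = 1 := hd
  rw [QuotientGroup.eq_one_iff] at h1
  refine ⟨⟨_, h1⟩, ?_⟩
  rw [gam_apply]
  show g * (g⁻¹ * (((d : Q) : Subgroup.centralizer ({z} : Set G)) : G) * g) * g⁻¹ = _
  group

theorem card_ker_fD {c : Q} (hP : Pk Q c) (hcard : Nat.card Q = 2 ^ 25)
    (e : (Subgroup.centralizer ({z} : Set G)) ⧸ Q ≃* Spor.Co1) (g : G) (s' : Q)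
    (hs : ((s' : Subgroup.centralizer ({z} : Set G)) : G) = g * z * g⁻¹) :
    8 ≤ Nat.card (fD hP g s' hs).ker := by
  have h1 := card_le_two_mul hP s'
  rw [hcard] at h1
  have h2 := Subgroup.card_mul_index (fD hP g s' hs).ker
  rw [Subgroup.index_ker] at h2
  have h3 : Nat.card (chi hP s').ker ∣ 2 ^ 25 := hcard ▸ Subgroup.card_subgroup_dvd_card _
  have h4 : Nat.card (fD hP g s' hs).range ∣ 2 ^ 25 := Dvd.dvd.trans ⟨_, by rw [← h2, mul_comm]⟩ h3
  obtain ⟨i, -, hi⟩ := (Nat.dvd_prime_pow Nat.prime_two).1 h4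
  have h5 : Nat.card (fD hP g s' hs).range ∣ 4157776806543360000 := by
    have a1 := Subgroup.card_subgroup_dvd_card (fD hP g s' hs).range
    rw [Nat.card_congr e.toEquiv] at a1
    have a2 : Nat.card Spor.Co1 = 4157776806543360000 := Cfsg.Agent.S0399.result.2
    rwa [a2] at a1
  have h6 : i ≤ 21 := by
    by_contra hcon
    have a1 : 2 ^ 22 ∣ 2 ^ i := pow_dvd_pow 2 (by omega)
    rw [hi] at h5
    have a2 := a1.trans h5
    revert a2
    norm_num
  have h7 : 2 ^ i ≤ 2 ^ 21 := Nat.pow_le_pow_right (by norm_num) h6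
  rw [hi] at h2
  by_contra hcon
  have h8 : Nat.card (fD hP g s' hs).ker ≤ 7 := by omega
  have h9 : Nat.card (fD hP g s' hs).ker * 2 ^ i ≤ 7 * 2 ^ 21 := Nat.mul_le_mul h8 h7
  rw [h2] at h9
  have e1 : (2 : ℕ) ^ 25 = 33554432 := by norm_num
  have e2 : (7 : ℕ) * 2 ^ 21 = 14680064 := by norm_num
  rw [e1] at h1
  rw [e2] at h9
  omega

/-- if `s = g z g⁻¹ ∈ Q` differs from `z`, then `z ∈ g Q g⁻¹` -/
theorem z_mem_R (hzQ : zC z ∈ Q) (hP : Pk Q ⟨zC z, hzQ⟩) (hcard : Nat.card Q = 2 ^ 25)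
    (e : (Subgroup.centralizer ({z} : Set G)) ⧸ Q ≃* Spor.Co1) (g : G) (s' : Q)
    (hs : ((s' : Subgroup.centralizer ({z} : Set G)) : G) = g * z * g⁻¹) :
    ∃ qz : Q, gam Q g qz = z := by
  by_contra hcon
  push Not at hcon
  have hk := card_ker_fD hP hcard e g s' hs
  have hss : s' ∈ (chi hP s').ker := (mem_ker_chi hP s' s').2 rfl
  have hlt : ({1, ⟨s', hss⟩} : Set ↥(chi hP s').ker).ncard
      < (((fD hP g s' hs).ker : Subgroup ↥(chi hP s').ker) : Set ↥(chi hP s').ker).ncard := by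
    have e1 : (((fD hP g s' hs).ker : Subgroup ↥(chi hP s').ker) : Set ↥(chi hP s').ker).ncard
        = Nat.card (fD hP g s' hs).ker := rfl
    have e2 := Set.ncard_insert_le (1 : ↥(chi hP s').ker) ({⟨s', hss⟩} : Set ↥(chi hP s').ker)
    rw [Set.ncard_singleton] at e2
    omega
  obtain ⟨d, hd, hd'⟩ := Set.exists_mem_notMem_of_ncard_lt_ncard hlt (Set.toFinite _)
  obtain ⟨q, hq⟩ := mem_ker_fD hP g s' hs d hd
  -- `d` commutes with the centraliser of `s'`
  have hcomm : ∀ y : Q, y * s' = s' * y → y * (d : Q) = (d : Q) * y := by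
    intro y hy
    rcases hP.com y (d : Q) with h1 | h1
    · exact commutatorElement_eq_one_iff_mul_comm.1 h1
    · exfalso
      have hy' : ((y : Subgroup.centralizer ({z} : Set G)) : G) * (g * z * g⁻¹)
          = (g * z * g⁻¹) * ((y : Subgroup.centralizer ({z} : Set G)) : G) := by
        rw [← hs]
        exact congrArg (fun x : Q => ((x : Subgroup.centralizer ({z} : Set G)) : G)) hy
      have h2 := congrArg (fun x : Q => ((x : Subgroup.centralizer ({z} : Set G)) : G)) h1
      have h3 : ((y : Subgroup.centralizer ({z} : Set G)) : G) *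
          (((d : Q) : Subgroup.centralizer ({z} : Set G)) : G) *
          ((y : Subgroup.centralizer ({z} : Set G)) : G)⁻¹ *
          (((d : Q) : Subgroup.centralizer ({z} : Set G)) : G)⁻¹ = z := h2
      rw [← hq, conj_gam g _ hy', ← map_inv, ← map_mul] at h3
      exact hcon _ h3
  have hsR : gam Q g ⟨zC z, hzQ⟩ = ((s' : Subgroup.centralizer ({z} : Set G)) : G) := by
    rw [hs]; rfl
  rcases center_centralizer hP hcomm with h1 | h1 | h1 | h1
  · apply hd'
    left
    exact Subtype.ext h1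
  · apply hcon q
    rw [hq, h1]; rfl
  · apply hd'
    right
    exact Subtype.ext h1
  · apply hcon ((⟨zC z, hzQ⟩ : Q)⁻¹ * q)
    rw [map_mul, map_inv, hq, hsR, h1]
    show ((s' : Subgroup.centralizer ({z} : Set G)) : G)⁻¹ *
      (((s' : Subgroup.centralizer ({z} : Set G)) : G) * z) = z
    group

/-- some element of `g Q g⁻¹` commutes with `z` and lies outside `Q` -/
theorem exists_outside (hzQ : zC z ∈ Q) (hP : Pk Q ⟨zC z, hzQ⟩) (hcard : Nat.card Q = 2 ^ 25)
    (e : (Subgroup.centralizer ({z} : Set G)) ⧸ Q ≃* Spor.Co1) (g : G) (s' : Q)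
    (hs : ((s' : Subgroup.centralizer ({z} : Set G)) : G) = g * z * g⁻¹) (hsz : g * z * g⁻¹ ≠ z) :
    ∃ (q : Q) (hc : gam Q g q ∈ Subgroup.centralizer ({z} : Set G)),
      (⟨gam Q g q, hc⟩ : Subgroup.centralizer ({z} : Set G)) ∉ Q := by
  obtain ⟨qz, hqz⟩ := z_mem_R hzQ hP hcard e g s' hs
  obtain ⟨x, y, hx, hy, hxy⟩ := exists_noncomm_in_centralizer hP (by rw [hcard]; norm_num) qz
  have hxc : gam Q g x ∈ Subgroup.centralizer ({z} : Set G) := by
    rw [mem_C_iff]
    have := congrArg (gam Q g) hx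
    rw [map_mul, map_mul, hqz] at this
    exact this.symm
  have hyc : gam Q g y ∈ Subgroup.centralizer ({z} : Set G) := by
    rw [mem_C_iff]
    have := congrArg (gam Q g) hy
    rw [map_mul, map_mul, hqz] at this
    exact this.symm
  by_contra hcon
  push Not at hcon
  have hxQ := hcon x hxc
  have hyQ := hcon y hyc
  have h1 : ⁅x, y⁆ = ⟨zC z, hzQ⟩ := by
    rcases hP.com x y with h | h
    · exact absurd (commutatorElement_eq_one_iff_mul_comm.1 h) hxy
    · exact h
  have h2 : gam Q g ⁅x, y⁆ = g * z * g⁻¹ := by rw [h1]; rfl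
  rw [map_commutatorElement] at h2
  have h3 : ⁅gam Q g x, gam Q g y⁆ =
      (((⁅(⟨⟨gam Q g x, hxc⟩, hxQ⟩ : Q), (⟨⟨gam Q g y, hyc⟩, hyQ⟩ : Q)⁆ : Q) :
        Subgroup.centralizer ({z} : Set G)) : G) := rfl
  rcases hP.com (⟨⟨gam Q g x, hxc⟩, hxQ⟩ : Q) (⟨⟨gam Q g y, hyc⟩, hyQ⟩ : Q) with h | h
  · rw [h3, h] at h2
    have h4 : (1 : G) = g * z * g⁻¹ := h2
    have h5 : z = 1 := by
      have := h4.symm
      rwa [conj_eq_one_iff] at this
    apply hP.ne
    apply Subtype.ext
    apply Subtype.ext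
    exact h5
  · rw [h3, h] at h2
    exact hsz h2.symm

end main

section K
variable {G : Type*} [Group G] [Finite G] {z : G}
  {Q : Subgroup (Subgroup.centralizer ({z} : Set G))} [Q.Normal]
  {e : (Subgroup.centralizer ({z} : Set G)) ⧸ Q ≃* Spor.Co1}
  {ψ : leechLattice → Q ⧸ Subgroup.center Q}

omit [Finite G] in
/-- a lattice automorphism fixing `v` lifts to an element of `C` centralising `s` -/
theorem exists_lift_comm {c : Q} (hP : Pk Q c) (hψ : IsLeechModTwoIso Q e ψ) {s' : Q}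
    (hsc : s' ∉ Subgroup.center Q) {v : leechLattice} (hv : ψ v = QuotientGroup.mk s') (n : Co0)
    (hn : n • v = v) :
    ∃ h : Subgroup.centralizer ({z} : Set G),
      (QuotientGroup.mk n : Spor.Co1) = e (QuotientGroup.mk h) ∧ cj h s' = s' := by
  obtain ⟨h0, hh0⟩ := exists_lift e n
  have h1 := hψ.2.2.2 h0 n hh0 v s' hv
  rw [hn, hv] at h1
  obtain ⟨d, hd, hd'⟩ := hP.mk_eq h1
  have hd'' : cj h0 s' = s' * d := hd'
  rcases hd with rfl | rfl
  · exact ⟨h0, hh0, by rw [hd'', mul_one]⟩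
  · rw [Subgroup.mem_center_iff] at hsc
    push Not at hsc
    obtain ⟨u, hu⟩ := hsc
    have hcm : ⁅u, s'⁆ = d := by
      rcases hP.com u s' with h | h
      · exact absurd (commutatorElement_eq_one_iff_mul_comm.1 h) hu
      · exact h
    refine ⟨(u : Subgroup.centralizer ({z} : Set G)) * h0, ?_, ?_⟩
    · rw [hh0, QuotientGroup.mk_mul, (QuotientGroup.eq_one_iff (u : Subgroup.centralizer ({z} : Set G))).2 u.2,
        one_mul]
    · have e1 : cj ((u : Subgroup.centralizer ({z} : Set G)) * h0) s' = u * cj h0 s' * u⁻¹ := by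
        apply Subtype.ext
        show (u : Subgroup.centralizer ({z} : Set G)) * h0 * s' *
            ((u : Subgroup.centralizer ({z} : Set G)) * h0)⁻¹
          = u * (h0 * s' * h0⁻¹) * (u : Subgroup.centralizer ({z} : Set G))⁻¹
        group
      rw [e1, hd'']
      have e2 : u * s' * u⁻¹ = d * s' := by
        rw [← hcm, commutatorElement_def]; group
      calc u * (s' * d) * u⁻¹ = u * s' * (d * u⁻¹) := by group
        _ = u * s' * (u⁻¹ * d) := by rw [hP.z_comm u⁻¹]
        _ = (u * s' * u⁻¹) * d := by group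
        _ = d * s' * d := by rw [e2]
        _ = s' * d * d := by rw [hP.z_comm s']
        _ = s' := by rw [mul_assoc, hP.sq, mul_one]

omit [Finite G] in
theorem pm_of_psi_eq (hψ : IsLeechModTwoIso Q e ψ) {x v : leechLattice} (h : ψ x = ψ v)
    (hx : sqNorm (x : GolayPt → ℤ) = 32) (hv : sqNorm (v : GolayPt → ℤ) = 32) : x = v ∨ x = -v := by
  have h1 : ψ (x + v) = 1 := by
    rw [hψ.1, h, ← hψ.1, psi_dbl hψ]
  obtain ⟨w, hw⟩ := (hψ.2.2.1 _).1 h1
  have hw' : (x : GolayPt → ℤ) + (v : GolayPt → ℤ) = 2 • (w : GolayPt → ℤ) := by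
    have := congrArg (fun u : leechLattice => (u : GolayPt → ℤ)) hw
    simp only [coe_add'] at this
    rw [this, two_smul]
  by_cases hw0 : (w : GolayPt → ℤ) = 0
  · right
    rw [hw0, smul_zero] at hw'
    apply Subtype.ext
    exact eq_neg_of_add_eq_zero_left hw'
  · left
    have n0 := min_norm' w.2 hw0
    have e1 : sqNorm ((x : GolayPt → ℤ) + (v : GolayPt → ℤ)) = 4 * sqNorm (w : GolayPt → ℤ) := by
      rw [hw', sqNorm_two_smul]
    rw [sqNorm_add, hx, hv] at e1
    have e2 := sqNorm_sub (x : GolayPt → ℤ) (v : GolayPt → ℤ)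
    rw [hx, hv] at e2
    have e3 : (x : GolayPt → ℤ) - (v : GolayPt → ℤ) = 0 := by
      by_contra hne
      have := Cfsg.Agent.Lib.Helper94Leech.sqNorm_pos hne
      omega
    apply Subtype.ext
    exact sub_eq_zero.1 e3

/-- the automorphisms fixing `v` induced by elements of `g Q g⁻¹ ∩ C` -/
def KK (e : (Subgroup.centralizer ({z} : Set G)) ⧸ Q ≃* Spor.Co1) (g : G) (v : leechLattice) :
    Subgroup ↥Co0 where
  carrier := {k | k • v = v ∧ ∃ (q : Q) (h : Subgroup.centralizer ({z} : Set G)),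
    (h : G) = gam Q g q ∧ (QuotientGroup.mk k : Spor.Co1) = e (QuotientGroup.mk h)}
  one_mem' := ⟨one_smul _ _, 1, 1, by rw [map_one]; rfl, by
    rw [QuotientGroup.mk_one, QuotientGroup.mk_one, map_one]⟩
  mul_mem' := by
    rintro a b ⟨ha, q1, h1, e1, f1⟩ ⟨hb, q2, h2, e2, f2⟩
    refine ⟨by rw [mul_smul, hb, ha], q1 * q2, h1 * h2, ?_, ?_⟩
    · rw [map_mul, ← e1, ← e2]; rfl
    · rw [QuotientGroup.mk_mul, QuotientGroup.mk_mul, map_mul, f1, f2]
  inv_mem' := by
    rintro a ⟨ha, q1, h1, e1, f1⟩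
    refine ⟨by rw [inv_smul_eq_iff, ha], q1⁻¹, h1⁻¹, ?_, ?_⟩
    · rw [map_inv, ← e1]; rfl
    · rw [QuotientGroup.mk_inv, QuotientGroup.mk_inv, map_inv, f1]

omit [Finite G] in
theorem KK_pow {c : Q} (hP : Pk Q c) {g : G} {v : leechLattice}
    (hv : sqNorm (v : GolayPt → ℤ) = 32) {k : ↥Co0} (hk : k ∈ KK e g v) : k ^ 4 = 1 := by
  obtain ⟨hkv, q, h, e1, f1⟩ := hk
  have hq : q ^ 4 = 1 := by
    have : q ^ 4 = (q * q) * (q * q) := by
      rw [show (4 : ℕ) = 2 + 2 from rfl, pow_add, sq]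
    rw [this]
    exact hP.c_sq (hP.sqm q)
  have hh : h ^ 4 = 1 := by
    apply Subtype.ext
    show (h : G) ^ 4 = 1
    rw [e1, ← map_pow, hq, map_one]
  have h1 : (QuotientGroup.mk (k ^ 4) : Spor.Co1) = 1 := by
    rw [QuotientGroup.mk_pow, f1, ← map_pow, ← QuotientGroup.mk_pow, hh, QuotientGroup.mk_one, map_one]
  rw [QuotientGroup.eq_one_iff] at h1
  rcases Cfsg.Agent.Lib.Helper10Co0Center.center_cases h1 with h2 | h2
  · exact h2
  · exfalso
    have h3 : k ^ 4 • v = v := by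
      have : k ^ 4 = k * (k * (k * k)) := by
        rw [show (4 : ℕ) = 2 + 2 from rfl, pow_add, sq, mul_assoc]
      rw [this, mul_smul, mul_smul, mul_smul, hkv, hkv, hkv, hkv]
    rw [h2, Cfsg.Agent.Lib.Helper10Co0Center.negOne_smul] at h3
    exact ne_neg_of_min hv h3.symm

/-- a conjugate of `z` in `Q` other than `z` does not lie over a minimal vector -/
theorem not_type2 (hzQ : zC z ∈ Q) (hP : Pk Q ⟨zC z, hzQ⟩) (hcard : Nat.card Q = 2 ^ 25)
    (hψ : IsLeechModTwoIso Q e ψ) (g : G) (s' : Q)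
    (hs : ((s' : Subgroup.centralizer ({z} : Set G)) : G) = g * z * g⁻¹) (hsz : g * z * g⁻¹ ≠ z)
    (v : leechLattice) (hv : ψ v = QuotientGroup.mk s') : sqNorm (v : GolayPt → ℤ) ≠ 32 := by
  intro hn
  have hz1 : z ≠ 1 := by
    intro h
    apply hP.ne
    apply Subtype.ext
    apply Subtype.ext
    exact h
  have hsc : s' ∉ Subgroup.center Q := by
    intro hc
    rcases (hP.cen _).1 hc with h | h
    · have h1 := congrArg (fun x : Q => ((x : Subgroup.centralizer ({z} : Set G)) : G)) h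
      have h2 : g * z * g⁻¹ = 1 := by rw [← hs]; exact h1
      rw [conj_eq_one_iff] at h2
      exact hz1 h2
    · have h1 := congrArg (fun x : Q => ((x : Subgroup.centralizer ({z} : Set G)) : G)) h
      exact hsz (by rw [← hs]; exact h1)
  obtain ⟨hsimp, hcardH⟩ := Cfsg.Agent.S0402.result v hn
  have hfin : Finite ↥(MulAction.stabilizer ↥Co0 v) :=
    Nat.finite_of_card_ne_zero (by rw [hcardH]; norm_num)
  -- the normal subgroup
  have hnorm : ((KK e g v).subgroupOf (MulAction.stabilizer ↥Co0 v)).Normal := by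
    constructor
    intro k hk n
    rw [Subgroup.mem_subgroupOf] at hk ⊢
    obtain ⟨hkv, q, h, e1, f1⟩ := hk
    have hnv : (n : ↥Co0) • v = v := n.2
    obtain ⟨hn', g1, g2⟩ := exists_lift_comm hP hψ hsc hv (n : ↥Co0) hnv
    have hcomm : (hn' : G) * (g * z * g⁻¹) = (g * z * g⁻¹) * (hn' : G) := by
      have h1 := congrArg (fun x : Q => ((x : Subgroup.centralizer ({z} : Set G)) : G)) g2
      have h2 : (hn' : G) * ((s' : Subgroup.centralizer ({z} : Set G)) : G) * (hn' : G)⁻¹
          = ((s' : Subgroup.centralizer ({z} : Set G)) : G) := h1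
      rw [← hs]
      exact mul_inv_eq_iff_eq_mul.1 h2
    refine ⟨?_, cj (back g (hn' : G) hcomm) q, hn' * h * hn'⁻¹, ?_, ?_⟩
    · show ((n : ↥Co0) * (k : ↥Co0) * (n : ↥Co0)⁻¹) • v = v
      rw [mul_smul, mul_smul, inv_smul_eq_iff.2 hnv.symm, hkv, hnv]
    · rw [← conj_gam g (hn' : G) hcomm q, ← e1]; rfl
    · show (QuotientGroup.mk ((n : ↥Co0) * (k : ↥Co0) * (n : ↥Co0)⁻¹) : Spor.Co1) = _
      rw [QuotientGroup.mk_mul, QuotientGroup.mk_mul, QuotientGroup.mk_inv, QuotientGroup.mk_mul,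
        QuotientGroup.mk_mul, QuotientGroup.mk_inv, map_mul, map_mul, map_inv, g1, f1]
  rcases hsimp.eq_bot_or_eq_top_of_normal _ hnorm with hbot | htop
  · -- a non-trivial element
    obtain ⟨q, hc, hq⟩ := exists_outside hzQ hP hcard e g s' hs hsz
    obtain ⟨k0, hk0⟩ := QuotientGroup.mk_surjective (e (QuotientGroup.mk
      (⟨gam Q g q, hc⟩ : Subgroup.centralizer ({z} : Set G))))
    have hcj : cj (⟨gam Q g q, hc⟩ : Subgroup.centralizer ({z} : Set G)) s' = s' := by
      apply Subtype.ext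
      apply Subtype.ext
      show gam Q g q * ((s' : Subgroup.centralizer ({z} : Set G)) : G) * (gam Q g q)⁻¹
        = ((s' : Subgroup.centralizer ({z} : Set G)) : G)
      have hsR : ((s' : Subgroup.centralizer ({z} : Set G)) : G) = gam Q g ⟨zC z, hzQ⟩ := by
        rw [hs]; rfl
      rw [hsR, ← map_mul, hP.z_comm q, map_mul]
      group
    have h1 := hψ.2.2.2 _ k0 hk0 v s' hv
    have h2 : ψ (k0 • v) = ψ v := by
      rw [h1, hv]
      exact congrArg _ hcj
    have hne1 : (QuotientGroup.mk k0 : Spor.Co1) ≠ 1 := by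
      intro h3
      rw [hk0] at h3
      have h4 := (map_eq_one_iff e e.injective).1 h3
      rw [QuotientGroup.eq_one_iff] at h4
      exact hq h4
    have hex : ∃ k : ↥Co0, k ∈ KK e g v ∧ k ≠ 1 := by
      rcases pm_of_psi_eq hψ h2 (by rw [sqNorm_smul']; exact hn) hn with h3 | h3
      · refine ⟨k0, ⟨h3, q, _, rfl, hk0⟩, ?_⟩
        rintro rfl
        exact hne1 rfl
      · have hm : (QuotientGroup.mk (Cfsg.Agent.Lib.Helper10Co0Center.negOne * k0) : Spor.Co1)
            = QuotientGroup.mk k0 := by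
          rw [QuotientGroup.mk_mul, (QuotientGroup.eq_one_iff _).2
            Cfsg.Agent.Lib.Helper10Co0Center.negOne_mem_center, one_mul]
        refine ⟨Cfsg.Agent.Lib.Helper10Co0Center.negOne * k0, ⟨?_, q, _, rfl, hm.trans hk0⟩, ?_⟩
        · rw [mul_smul, h3, Cfsg.Agent.Lib.Helper10Co0Center.negOne_smul, neg_neg]
        · intro h4
          rw [h4] at hm
          exact hne1 hm.symm
    obtain ⟨k, hk, hk1⟩ := hex
    have hkH : k ∈ MulAction.stabilizer ↥Co0 v := hk.1
    have h5 : (⟨k, hkH⟩ : ↥(MulAction.stabilizer ↥Co0 v)) ∈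
        (KK e g v).subgroupOf (MulAction.stabilizer ↥Co0 v) := Subgroup.mem_subgroupOf.2 hk
    rw [hbot, Subgroup.mem_bot] at h5
    exact hk1 (congrArg Subtype.val h5)
  · -- the stabiliser is not a 2-group
    have : Fact (Nat.Prime 3) := ⟨by norm_num⟩
    obtain ⟨x, hx⟩ := exists_prime_orderOf_dvd_card' (G := ↥(MulAction.stabilizer ↥Co0 v)) 3
      (by rw [hcardH]; norm_num)
    have hxK : x ∈ (KK e g v).subgroupOf (MulAction.stabilizer ↥Co0 v) := by rw [htop]; trivial
    rw [Subgroup.mem_subgroupOf] at hxK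
    have h4 := KK_pow hP hn hxK
    have h5 : x ^ 4 = 1 := Subtype.ext h4
    have h6 := orderOf_dvd_of_pow_eq_one h5
    rw [hx] at h6
    revert h6
    norm_num

end K

end Cfsg.Agent.Lib.Helper93Monster4
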