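import Cfsg.Agent.Lib.Helper93Monster3

/-!
# Extraspecial 2-groups: the order of an abelian subgroup (helper93)
-/

set_option autoImplicit false

namespace Cfsg.Agent.Lib.Helper93Monster6

open Cfsg
open Cfsg.Agent.Lib.Helper93Monster Cfsg.Agent.Lib.Helper93Monster3
open scoped commutatorElement Classical

section pk
variable {E : Type*} [Group E] {c : E}

/-- the sign of an element of `{1, c}` -/
noncomputable def sg (g : E) : ℂˣ := if g = 1 then 1 else -1

theorem sg_one : sg (1 : E) = 1 := if_pos rfl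

theorem sg_of_ne {g : E} (h : g ≠ 1) : sg g = -1 := if_neg h

theorem sg_eq_one {g : E} (h : sg g = 1) : g = 1 := by
  by_contra hg
  rw [sg_of_ne hg] at h
  have h1 := congrArg (fun u : ℂˣ => (u : ℂ)) h
  simp only [Units.val_neg, Units.val_one] at h1
  norm_num at h1

theorem sg_mul (h : Pk E c) {a b : E} (ha : a = 1 ∨ a = c) (hb : b = 1 ∨ b = c) :
    sg (a * b) = sg a * sg b := by
  rcases ha with rfl | rfl <;> rcases hb with rfl | rfl
  · simp [sg_one]
  · simp [sg_one]
  · simp [sg_one]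
  · rw [h.sq, sg_one, sg_of_ne h.ne]; simp

/-- the commutator pairing with a subgroup -/
noncomputable def Phi (h : Pk E c) (B : Subgroup E) : E →* (B → ℂˣ) where
  toFun q := fun b => sg ⁅q, (b : E)⁆
  map_one' := by
    funext b
    rw [commutatorElement_one_left, sg_one]; rfl
  map_mul' x y := by
    funext b
    rw [h.comm_mul, sg_mul h (h.com _ _) (h.com _ _)]; rfl

theorem mem_ker_Phi (h : Pk E c) (B : Subgroup E) (q : E) :
    q ∈ (Phi h B).ker ↔ ∀ b ∈ B, q * b = b * q := by
  rw [MonoidHom.mem_ker]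
  constructor
  · intro hq b hb
    have := congrFun hq ⟨b, hb⟩
    exact commutatorElement_eq_one_iff_mul_comm.1 (sg_eq_one this)
  · intro hq
    funext b
    show sg ⁅q, (b : E)⁆ = 1
    rw [commutatorElement_eq_one_iff_mul_comm.2 (hq b b.2), sg_one]

/-- evaluation -/
noncomputable def Psi (h : Pk E c) (B : Subgroup E) : B →* ((Phi h B).range →* ℂˣ) where
  toFun b := (Pi.evalMonoidHom (fun _ : B => ℂˣ) b).comp (Phi h B).range.subtype
  map_one' := by
    ext ⟨_, q, rfl⟩
    show ((sg ⁅q, ((1 : B) : E)⁆ : ℂˣ) : ℂ) = 1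
    rw [Subgroup.coe_one, commutatorElement_one_right, sg_one]; rfl
  map_mul' x y := by
    ext ⟨_, q, rfl⟩
    show ((sg ⁅q, ((x * y : B) : E)⁆ : ℂˣ) : ℂ) = ((sg ⁅q, (x : E)⁆ * sg ⁅q, (y : E)⁆ : ℂˣ) : ℂ)
    rw [Subgroup.coe_mul, h.comm_symm, h.comm_mul, sg_mul h (h.com _ _) (h.com _ _),
      h.comm_symm (x : E), h.comm_symm (y : E)]

theorem mem_ker_Psi (h : Pk E c) (B : Subgroup E) (b : B) (hb : b ∈ (Psi h B).ker) :
    (b : E) = 1 ∨ (b : E) = c := by
  rw [MonoidHom.mem_ker] at hb
  rw [← h.cen, Subgroup.mem_center_iff]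
  intro q
  have := DFunLike.congr_fun hb ⟨Phi h B q, q, rfl⟩
  have h1 : sg ⁅q, (b : E)⁆ = 1 := this
  exact commutatorElement_eq_one_iff_mul_comm.1 (sg_eq_one h1)

theorem card_mul_centralizer_le [Finite E] (h : Pk E c) (B : Subgroup E) :
    Nat.card B * Nat.card (Phi h B).ker ≤ 2 * Nat.card E := by
  have h1 := Subgroup.card_mul_index (Phi h B).ker
  rw [Subgroup.index_ker] at h1
  have h2 := Subgroup.card_mul_index (Psi h B).ker
  rw [Subgroup.index_ker] at h2
  have hfinW : Finite (Phi h B).range := by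
    have : ((Phi h B).range : Set (B → ℂˣ)) = Set.range (Phi h B) := MonoidHom.coe_range _
    exact (this ▸ Set.finite_range _ : ((Phi h B).range : Set (B → ℂˣ)).Finite).to_subtype
  have h3 : Nat.card ((Phi h B).range →* ℂˣ) = Nat.card (Phi h B).range :=
    CommGroup.card_monoidHom_of_hasEnoughRootsOfUnity _ ℂ
  have hfin : Finite ((Phi h B).range →* ℂˣ) :=
    Nat.finite_of_card_ne_zero (by rw [h3]; exact Nat.card_pos.ne')
  have h4 : Nat.card (Psi h B).range ≤ Nat.card (Phi h B).range := by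
    rw [← h3]
    exact Nat.card_le_card_of_injective _ Subtype.val_injective
  have h5 : Nat.card (Psi h B).ker ≤ 2 := by
    have a1 : (((Psi h B).ker : Subgroup B) : Set B) ⊆ {b | (b : E) = 1 ∨ (b : E) = c} :=
      fun b hb => mem_ker_Psi h B b hb
    have a2 : ({b | (b : E) = 1 ∨ (b : E) = c} : Set B).ncard ≤ 2 := by
      have b1 : (Subtype.val '' ({b | (b : E) = 1 ∨ (b : E) = c} : Set B)) ⊆ ({1, c} : Set E) := by
        rintro _ ⟨b, hb, rfl⟩
        exact hb
      have b2 := Set.ncard_le_ncard b1 (Set.toFinite _)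
      rw [Set.ncard_image_of_injective _ Subtype.val_injective] at b2
      have b3 := Set.ncard_insert_le (1 : E) ({c} : Set E)
      rw [Set.ncard_singleton] at b3
      omega
    have a3 := Set.ncard_le_ncard a1 (Set.toFinite _)
    have a4 : (((Psi h B).ker : Subgroup B) : Set B).ncard = Nat.card (Psi h B).ker := rfl
    omega
  calc Nat.card B * Nat.card (Phi h B).ker
      = (Nat.card (Psi h B).ker * Nat.card (Psi h B).range) * Nat.card (Phi h B).ker := by rw [h2]
    _ ≤ (2 * Nat.card (Phi h B).range) * Nat.card (Phi h B).ker :=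
        Nat.mul_le_mul_right _ (Nat.mul_le_mul h5 h4)
    _ = 2 * (Nat.card (Phi h B).ker * Nat.card (Phi h B).range) := by ring
    _ = 2 * Nat.card E := by rw [h1]

/-- an abelian subgroup `B` of an extraspecial 2-group `E` satisfies `|B|² ≤ 2 |E|` -/
theorem card_abelian_sq_le [Finite E] (h : Pk E c) (B : Subgroup E)
    (hab : ∀ x ∈ B, ∀ y ∈ B, x * y = y * x) : Nat.card B * Nat.card B ≤ 2 * Nat.card E := by
  have h1 : B ≤ (Phi h B).ker := fun x hx => (mem_ker_Phi h B x).2 (fun b hb => hab x hx b hb)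
  exact (Nat.mul_le_mul_left _ (Subgroup.card_le_of_le h1)).trans (card_mul_centralizer_le h B)

end pk

end Cfsg.Agent.Lib.Helper93Monster6
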