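import Cfsg.Agent.Lib.Helper93Monster5
import Cfsg.Agent.Lib.Helper93Monster6
import Cfsg.Agent.Lib.Helper93CrossStab
import Cfsg.Agent.S0365

/-!
# Groups of Monster type: `Q ∩ Q^g` and the stabiliser of a conjugate of `z` in `Q` (helper93)
-/

set_option autoImplicit false

namespace Cfsg.Agent.Lib.Helper93Monster7

open Cfsg
open Cfsg.Agent.Lib.Helper93Monster Cfsg.Agent.Lib.Helper93Monster3 Cfsg.Agent.Lib.Helper93Monster4
  Cfsg.Agent.Lib.Helper93Monster5 Cfsg.Agent.Lib.Helper93Monster6 Cfsg.Agent.Lib.Helper93CrossStab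
open Cfsg.Agent.Lib.Helper10Co0 Cfsg.Agent.Lib.Helper10Co0Center
open Cfsg.Agent.S5546 (e8)
open scoped commutatorElement

theorem smul_add'' (g : ↥Co0) (v w : ↥leechLattice) : g • (v + w) = g • v + g • w := g.2.1 v w

section twist
variable {G : Type*} [Group G] {z : G}
  {Q : Subgroup (Subgroup.centralizer ({z} : Set G))} [Q.Normal]
  {e : (Subgroup.centralizer ({z} : Set G)) ⧸ Q ≃* Spor.Co1}
  {ψ : leechLattice → Q ⧸ Subgroup.center Q}

/-- the identification may be twisted by a lattice automorphism -/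
theorem twist (hψ : IsLeechModTwoIso Q e ψ) (n0 : ↥Co0) :
    IsLeechModTwoIso Q (e.trans (MulAut.conj (QuotientGroup.mk n0 : Spor.Co1)⁻¹))
      (fun x => ψ (n0 • x)) := by
  refine ⟨?_, ?_, ?_, ?_⟩
  · intro v w
    show ψ (n0 • (v + w)) = _
    rw [smul_add'', hψ.1]
  · intro y
    obtain ⟨v, hv⟩ := hψ.2.1 y
    exact ⟨n0⁻¹ • v, by show ψ (n0 • n0⁻¹ • v) = y; rw [smul_inv_smul, hv]⟩
  · intro v
    show ψ (n0 • v) = 1 ↔ _
    rw [hψ.2.2.1]
    constructor
    · rintro ⟨w, hw⟩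
      refine ⟨n0⁻¹ • w, ?_⟩
      rw [← smul_add'', ← hw, inv_smul_smul]
    · rintro ⟨w, rfl⟩
      exact ⟨n0 • w, smul_add'' _ _ _⟩
  · intro h k hk v q hq
    have hk' : (QuotientGroup.mk (n0 * k * n0⁻¹) : Spor.Co1) = e (QuotientGroup.mk h) := by
      rw [QuotientGroup.mk_mul, QuotientGroup.mk_mul, QuotientGroup.mk_inv, hk]
      show _ * ((QuotientGroup.mk n0 : Spor.Co1)⁻¹ * e (QuotientGroup.mk h) *
        ((QuotientGroup.mk n0 : Spor.Co1)⁻¹)⁻¹) * _ = _
      group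
    have h1 := hψ.2.2.2 h (n0 * k * n0⁻¹) hk' (n0 • v) q hq
    show ψ (n0 • k • v) = _
    rw [← h1]
    congr 1
    rw [mul_smul, mul_smul, inv_smul_smul]

theorem mem_NN_of_psi (hψ : IsLeechModTwoIso Q e ψ) {k : ↥Co0}
    (h : ψ (k • e8 none) = ψ (e8 none)) : k ∈ NN := by
  rw [mem_NN_iff, mem_cl]
  refine ⟨by rw [Cfsg.Agent.Lib.Helper10Co0.sqNorm_smul], ?_⟩
  have h1 : ψ (k • e8 none + e8 none) = 1 := by rw [hψ.1, h, ← hψ.1, psi_dbl hψ]
  obtain ⟨w, hw⟩ := (hψ.2.2.1 _).1 h1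
  refine ⟨w - k • e8 none, ?_⟩
  calc e8 none - k • e8 none = (k • e8 none + e8 none) - k • e8 none - k • e8 none := by abel
    _ = (w + w) - k • e8 none - k • e8 none := by rw [hw]
    _ = 2 • (w - k • e8 none) := by rw [two_smul]; abel

theorem psi_of_mem_NN (hψ : IsLeechModTwoIso Q e ψ) {k : ↥Co0} (hk : k ∈ NN) :
    ψ (k • e8 none) = ψ (e8 none) := by
  rw [mem_NN_iff, mem_cl] at hk
  obtain ⟨-, w, hw⟩ := hk
  have h1 : e8 none = k • e8 none + (w + w) := by
    rw [← two_smul ℕ w, ← hw]; abel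
  conv_rhs => rw [h1]
  rw [psi_coset hψ]

/-- a lattice automorphism fixing `v` modulo 2 lifts to an element of `C` centralising `s` -/
theorem exists_lift_comm' {c : Q} (hP : Pk Q c) (hψ : IsLeechModTwoIso Q e ψ) {s' : Q}
    (hsc : s' ∉ Subgroup.center Q) {v : leechLattice} (hv : ψ v = QuotientGroup.mk s') (n : Co0)
    (hn : ψ (n • v) = ψ v) :
    ∃ h : Subgroup.centralizer ({z} : Set G),
      (QuotientGroup.mk n : Spor.Co1) = e (QuotientGroup.mk h) ∧ cj h s' = s' := by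
  obtain ⟨h0, hh0⟩ := exists_lift e n
  have h1 := hψ.2.2.2 h0 n hh0 v s' hv
  rw [hn, hv] at h1
  obtain ⟨d, hd, hd'⟩ := hP.mk_eq h1
  have hd'' : cj h0 s' = s' * d := hd'
  rcases hd with rfl | rfl
  · exact ⟨h0, hh0, by rw [hd'', mul_one]⟩
  · rw [Subgroup.mem_center_iff] at hsc
    push Not at hsc
    obtain ⟨u, hu⟩ := hsc
    have hcm : ⁅u, s'⁆ = d := by
      rcases hP.com u s' with h | h
      · exact absurd (commutatorElement_eq_one_iff_mul_comm.1 h) hu
      · exact h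
    refine ⟨(u : Subgroup.centralizer ({z} : Set G)) * h0, ?_, ?_⟩
    · rw [hh0, QuotientGroup.mk_mul, (QuotientGroup.eq_one_iff (u : Subgroup.centralizer ({z} : Set G))).2 u.2,
        one_mul]
    · have e1 : cj ((u : Subgroup.centralizer ({z} : Set G)) * h0) s' = u * cj h0 s' * u⁻¹ := by
        apply Subtype.ext
        show (u : Subgroup.centralizer ({z} : Set G)) * h0 * s' *
            ((u : Subgroup.centralizer ({z} : Set G)) * h0)⁻¹
          = u * (h0 * s' * h0⁻¹) * (u : Subgroup.centralizer ({z} : Set G))⁻¹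
        group
      rw [e1, hd'']
      have e2 : u * s' * u⁻¹ = d * s' := by
        rw [← hcm, commutatorElement_def]; group
      calc u * (s' * d) * u⁻¹ = u * s' * (d * u⁻¹) := by group
        _ = u * s' * (u⁻¹ * d) := by rw [hP.z_comm u⁻¹]
        _ = (u * s' * u⁻¹) * d := by group
        _ = d * s' * d := by rw [e2]
        _ = s' * d * d := by rw [hP.z_comm s']
        _ = s' := by rw [mul_assoc, hP.sq, mul_one]

end twist

section ctx
variable {G : Type*} [Group G] {z : G}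
  {Q : Subgroup (Subgroup.centralizer ({z} : Set G))} [Q.Normal]
  {e : (Subgroup.centralizer ({z} : Set G)) ⧸ Q ≃* Spor.Co1}
  {ψ : leechLattice → Q ⧸ Subgroup.center Q} {g : G} {s' : Q}

/-- the standing hypotheses -/
structure Ctx (z : G) (Q : Subgroup (Subgroup.centralizer ({z} : Set G))) [Q.Normal]
    (e : (Subgroup.centralizer ({z} : Set G)) ⧸ Q ≃* Spor.Co1)
    (ψ : leechLattice → Q ⧸ Subgroup.center Q) (g : G) (s' : Q) : Prop where
  hzQ : zC z ∈ Q
  hP : Pk Q ⟨zC z, hzQ⟩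
  hcard : Nat.card Q = 2 ^ 25
  hψ : IsLeechModTwoIso Q e ψ
  hs : ((s' : Subgroup.centralizer ({z} : Set G)) : G) = g * z * g⁻¹
  hsz : g * z * g⁻¹ ≠ z
  hv0 : ψ (e8 none) = QuotientGroup.mk s'

/-- the elements of `g Q g⁻¹` lying in `C` -/
def ER (Q : Subgroup (Subgroup.centralizer ({z} : Set G))) (g : G) :
    Subgroup (Subgroup.centralizer ({z} : Set G)) :=
  (gam Q g).range.comap (Subgroup.centralizer ({z} : Set G)).subtype

/-- the image of `g Q g⁻¹ ∩ C` in `C / Q` -/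
def EE (Q : Subgroup (Subgroup.centralizer ({z} : Set G))) [Q.Normal] (g : G) :
    Subgroup ((Subgroup.centralizer ({z} : Set G)) ⧸ Q) :=
  (ER Q g).map (QuotientGroup.mk' Q)

/-- the image of `C_C(s)` in `C / Q` -/
def XX (s' : Q) : Subgroup ((Subgroup.centralizer ({z} : Set G)) ⧸ Q) :=
  (Subgroup.centralizer ({(s' : Subgroup.centralizer ({z} : Set G))} :
    Set (Subgroup.centralizer ({z} : Set G)))).map (QuotientGroup.mk' Q)

/-- `Q ∩ g Q g⁻¹` as a subgroup of `Q` -/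
def BB (Q : Subgroup (Subgroup.centralizer ({z} : Set G))) (g : G) : Subgroup Q :=
  (gam Q g).range.comap ((Subgroup.centralizer ({z} : Set G)).subtype.comp Q.subtype)

omit [Q.Normal] in
theorem mem_ER {h : Subgroup.centralizer ({z} : Set G)} :
    h ∈ ER Q g ↔ ∃ q : Q, gam Q g q = (h : G) := Iff.rfl

omit [Q.Normal] in
theorem mem_BB {x : Q} :
    x ∈ BB Q g ↔ ∃ q : Q, gam Q g q = ((x : Subgroup.centralizer ({z} : Set G)) : G) := Iff.rfl

theorem mem_EE {y : (Subgroup.centralizer ({z} : Set G)) ⧸ Q} :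
    y ∈ EE Q g ↔ ∃ h ∈ ER Q g, (QuotientGroup.mk h : (Subgroup.centralizer ({z} : Set G)) ⧸ Q) = y :=
  Iff.rfl

theorem mem_XX {x : (Subgroup.centralizer ({z} : Set G)) ⧸ Q} :
    x ∈ XX s' ↔ ∃ h : Subgroup.centralizer ({z} : Set G), h * s' = s' * h ∧
      (QuotientGroup.mk h : (Subgroup.centralizer ({z} : Set G)) ⧸ Q) = x := by
  unfold XX
  rw [Subgroup.mem_map]
  constructor
  · rintro ⟨h, hh, rfl⟩
    exact ⟨h, Subgroup.mem_centralizer_singleton_iff.1 hh, rfl⟩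
  · rintro ⟨h, hh, rfl⟩
    exact ⟨h, Subgroup.mem_centralizer_singleton_iff.2 hh, rfl⟩

variable (H : Ctx z Q e ψ g s')
include H

theorem Ctx.gam_c : gam Q g ⟨zC z, H.hzQ⟩ = ((s' : Subgroup.centralizer ({z} : Set G)) : G) := by
  rw [H.hs]; rfl

theorem Ctx.sc : s' ∉ Subgroup.center Q :=
  not_central_of_norm64 H.hψ (sqNorm_e8 none) H.hv0

theorem Ctx.z_ne_one : z ≠ 1 := by
  intro h
  apply H.hP.ne
  apply Subtype.ext
  apply Subtype.ext
  exact h

/-- an element of `C` equal to `g d g⁻¹` with `d` central in `Q` lies in `Q` -/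
theorem Ctx.mem_Q_of_gam {h : Subgroup.centralizer ({z} : Set G)} {d : Q}
    (hd : d = 1 ∨ d = ⟨zC z, H.hzQ⟩) (hh : (h : G) = gam Q g d) : h ∈ Q := by
  rcases hd with rfl | rfl
  · rw [map_one] at hh
    have : h = 1 := Subtype.ext hh
    rw [this]; exact Q.one_mem
  · rw [H.gam_c] at hh
    have : h = (s' : Subgroup.centralizer ({z} : Set G)) := Subtype.ext hh
    rw [this]; exact s'.2

theorem Ctx.ER_comm {h : Subgroup.centralizer ({z} : Set G)} (hh : h ∈ ER Q g) :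
    h * s' = s' * h := by
  obtain ⟨q, hq⟩ := hh
  apply Subtype.ext
  show (h : G) * ((s' : Subgroup.centralizer ({z} : Set G)) : G)
    = ((s' : Subgroup.centralizer ({z} : Set G)) : G) * (h : G)
  have hq' : gam Q g q = (h : G) := hq
  rw [← hq', ← H.gam_c, ← map_mul, ← map_mul, H.hP.z_comm q]

theorem Ctx.EE_le_XX : EE Q g ≤ XX s' := by
  rintro _ ⟨h, hh, rfl⟩
  exact mem_XX.2 ⟨h, H.ER_comm hh, rfl⟩

theorem Ctx.conj_mem_ER {x h : Subgroup.centralizer ({z} : Set G)} (hx : x * s' = s' * x)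
    (hh : h ∈ ER Q g) : x * h * x⁻¹ ∈ ER Q g := by
  obtain ⟨q, hq⟩ := hh
  have hq' : gam Q g q = (h : G) := hq
  have hcomm : (x : G) * (g * z * g⁻¹) = (g * z * g⁻¹) * (x : G) := by
    rw [← H.hs]
    exact congrArg (fun y : Subgroup.centralizer ({z} : Set G) => (y : G)) hx
  refine mem_ER.2 ⟨cj (back g (x : G) hcomm) q, ?_⟩
  rw [← conj_gam g (x : G) hcomm q, hq']
  rfl

theorem Ctx.conj_mem_EE : ∀ x ∈ XX s', ∀ y ∈ EE Q g, x * y * x⁻¹ ∈ EE Q g := by
  intro x hx y hy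
  obtain ⟨hx', hxs, rfl⟩ := mem_XX.1 hx
  obtain ⟨h, hh, rfl⟩ := hy
  exact ⟨hx' * h * hx'⁻¹, H.conj_mem_ER hxs hh, rfl⟩

theorem Ctx.EE_comm : ∀ x ∈ EE Q g, ∀ y ∈ EE Q g, x * y = y * x := by
  rintro _ ⟨h, ⟨q, hq⟩, rfl⟩ _ ⟨h', ⟨q', hq'⟩, rfl⟩
  have hq1 : gam Q g q = (h : G) := hq
  have hq2 : gam Q g q' = (h' : G) := hq'
  have h1 : ⁅h, h'⁆ ∈ Q := by
    apply H.mem_Q_of_gam (H.hP.com q q')
    rw [map_commutatorElement, hq1, hq2]
    rfl
  rw [← commutatorElement_eq_one_iff_mul_comm]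
  have h2 := (QuotientGroup.eq_one_iff (N := Q) ⁅h, h'⁆).2 h1
  rw [← h2]
  exact (map_commutatorElement (QuotientGroup.mk' Q) h h').symm

theorem Ctx.EE_sq : ∀ x ∈ EE Q g, x ^ 2 = 1 := by
  rintro _ ⟨h, ⟨q, hq⟩, rfl⟩
  have hq1 : gam Q g q = (h : G) := hq
  have h1 : h * h ∈ Q := by
    apply H.mem_Q_of_gam (H.hP.sqm q)
    rw [map_mul, hq1]
    rfl
  rw [sq]
  exact (QuotientGroup.eq_one_iff (N := Q) (h * h)).2 h1

theorem Ctx.EE_elem : IsElementaryAbelian 2 (EE Q g) :=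
  ⟨⟨⟨fun a b => Subtype.ext (H.EE_comm a.1 a.2 b.1 b.2)⟩⟩, H.EE_sq⟩

theorem Ctx.BB_comm : ∀ x ∈ BB Q g, ∀ y ∈ BB Q g, x * y = y * x := by
  rintro x ⟨q, hq⟩ y ⟨q', hq'⟩
  have hq1 : gam Q g q = ((x : Subgroup.centralizer ({z} : Set G)) : G) := hq
  have hq2 : gam Q g q' = ((y : Subgroup.centralizer ({z} : Set G)) : G) := hq'
  rcases H.hP.com x y with h | h
  · exact commutatorElement_eq_one_iff_mul_comm.1 h
  · exfalso
    have h1 : ⁅((x : Subgroup.centralizer ({z} : Set G)) : G),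
        ((y : Subgroup.centralizer ({z} : Set G)) : G)⁆ = z :=
      congrArg (fun u : Q => ((u : Subgroup.centralizer ({z} : Set G)) : G)) h
    rw [← hq1, ← hq2, ← map_commutatorElement] at h1
    rcases H.hP.com q q' with h2 | h2
    · rw [h2, map_one] at h1
      exact H.z_ne_one h1.symm
    · rw [h2, H.gam_c, H.hs] at h1
      exact H.hsz h1

end ctx

section count
variable {G : Type*} [Group G] [Finite G] {z : G}
  {Q : Subgroup (Subgroup.centralizer ({z} : Set G))} [Q.Normal]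
  {e : (Subgroup.centralizer ({z} : Set G)) ⧸ Q ≃* Spor.Co1}
  {ψ : leechLattice → Q ⧸ Subgroup.center Q} {g : G} {s' : Q}

omit [Finite G] in
/-- the map from `C_Q(q_z)` to `C` given by conjugation by `g` -/
def toC {c : Q} (hP : Pk Q c) (g : G) (qz : Q) (hqz : gam Q g qz = z) :
    ↥(chi hP qz).ker →* Subgroup.centralizer ({z} : Set G) where
  toFun q := ⟨gam Q g (q : Q), by
    rw [mem_C_iff]
    have := congrArg (gam Q g) ((mem_ker_chi hP qz (q : Q)).1 q.2)
    rw [map_mul, map_mul, hqz] at this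
    exact this.symm⟩
  map_one' := by
    apply Subtype.ext
    show gam Q g ((1 : ↥(chi hP qz).ker) : Q) = 1
    rw [Subgroup.coe_one, map_one]
  map_mul' a b := by
    apply Subtype.ext
    show gam Q g ((a * b : ↥(chi hP qz).ker) : Q) = gam Q g (a : Q) * gam Q g (b : Q)
    rw [Subgroup.coe_mul, map_mul]

variable (H : Ctx z Q e ψ g s')
include H

theorem Ctx.card_mul_ge : 2 ^ 24 ≤ Nat.card (BB Q g) * Nat.card (EE Q g) := by
  obtain ⟨qz, hqz⟩ := z_mem_R H.hzQ H.hP H.hcard e g s' H.hs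
  set f : ↥(chi H.hP qz).ker →* (Subgroup.centralizer ({z} : Set G)) ⧸ Q :=
    (QuotientGroup.mk' Q).comp (toC H.hP g qz hqz) with hf
  have h1 := card_le_two_mul H.hP qz
  rw [H.hcard] at h1
  have h2 := Subgroup.card_mul_index f.ker
  rw [Subgroup.index_ker] at h2
  have h3 : Nat.card f.range ≤ Nat.card (EE Q g) := by
    apply Subgroup.card_le_of_le
    rintro _ ⟨q, rfl⟩
    exact ⟨toC H.hP g qz hqz q, ⟨(q : Q), rfl⟩, rfl⟩
  have h4 : Nat.card f.ker ≤ Nat.card (BB Q g) := by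
    have hmem : ∀ q : f.ker, toC H.hP g qz hqz (q : ↥(chi H.hP qz).ker) ∈ Q := by
      intro q
      exact (QuotientGroup.eq_one_iff _).1 (MonoidHom.mem_ker.1 q.2)
    refine Nat.card_le_card_of_injective
      (fun q : f.ker => (⟨⟨toC H.hP g qz hqz (q : ↥(chi H.hP qz).ker), hmem q⟩,
        ⟨((q : ↥(chi H.hP qz).ker) : Q), rfl⟩⟩ : BB Q g)) ?_
    intro a b hab
    have h5 : gam Q g ((a : ↥(chi H.hP qz).ker) : Q) = gam Q g ((b : ↥(chi H.hP qz).ker) : Q) :=
      congrArg (fun u : BB Q g => (((u : Q) : Subgroup.centralizer ({z} : Set G)) : G)) hab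
    exact Subtype.ext (Subtype.ext (gam_inj g h5))
  have h6 : Nat.card f.ker * Nat.card f.range ≤ Nat.card (BB Q g) * Nat.card (EE Q g) :=
    Nat.mul_le_mul h4 h3
  have e1 : (2 : ℕ) ^ 25 = 2 * 2 ^ 24 := by norm_num
  omega

theorem Ctx.card_BB_le : Nat.card (BB Q g) ≤ 2 ^ 13 := by
  have h1 := card_abelian_sq_le H.hP (BB Q g) H.BB_comm
  rw [H.hcard] at h1
  by_contra hcon
  have h2 : 2 ^ 13 + 1 ≤ Nat.card (BB Q g) := by omega
  have h3 := Nat.mul_le_mul h2 h2
  norm_num at h1 h3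
  omega

end count

section proj
variable {G : Type*} [Group G] {z : G}
  {Q : Subgroup (Subgroup.centralizer ({z} : Set G))} [Q.Normal]
  {e : (Subgroup.centralizer ({z} : Set G)) ⧸ Q ≃* Spor.Co1}
  {ψ : leechLattice → Q ⧸ Subgroup.center Q} {g : G} {s' : Q}

/-- the map from the stabiliser of the standard cross to `C / Q` -/
noncomputable def piN (e : (Subgroup.centralizer ({z} : Set G)) ⧸ Q ≃* Spor.Co1) :
    ↥NN →* (Subgroup.centralizer ({z} : Set G)) ⧸ Q :=
  e.symm.toMonoidHom.comp ((QuotientGroup.mk' (Subgroup.center ↥Co0)).comp NN.subtype)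

theorem e_piN (n : ↥NN) : e (piN e n) = (QuotientGroup.mk (n : ↥Co0) : Spor.Co1) :=
  e.apply_symm_apply _

theorem piN_eq_iff (n : ↥NN) (y : (Subgroup.centralizer ({z} : Set G)) ⧸ Q) :
    piN e n = y ↔ (QuotientGroup.mk (n : ↥Co0) : Spor.Co1) = e y := by
  rw [← e_piN (e := e) n]
  exact e.injective.eq_iff.symm

theorem piN_eq_one {n : ↥NN} (h : piN e n = 1) : (n : ↥Co0) = 1 ∨ (n : ↥Co0) = negOne := by
  rw [piN_eq_iff, map_one] at h
  exact center_cases ((QuotientGroup.eq_one_iff _).1 h)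

theorem piN_negOne : piN e ⟨negOne, negOne_mem⟩ = 1 := by
  rw [piN_eq_iff, map_one]
  exact (QuotientGroup.eq_one_iff _).2 negOne_mem_center

theorem negOne_sq : negOne * negOne = 1 := by
  apply Subtype.ext
  apply Equiv.ext
  intro v
  show negOne • negOne • v = v
  rw [negOne_smul, negOne_smul, neg_neg]

variable (H : Ctx z Q e ψ g s')
include H

theorem Ctx.piN_mem_XX (n : ↥NN) : piN e n ∈ XX s' := by
  obtain ⟨h, h1, h2⟩ := exists_lift_comm' H.hP H.hψ H.sc H.hv0 (n : ↥Co0)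
    (psi_of_mem_NN H.hψ n.2)
  refine mem_XX.2 ⟨h, ?_, ((piN_eq_iff n _).2 h1).symm⟩
  have h3 : h * s' * h⁻¹ = s' := congrArg (fun u : Q => (u : Subgroup.centralizer ({z} : Set G))) h2
  exact mul_inv_eq_iff_eq_mul.1 h3

theorem Ctx.exists_of_mem_XX {x : (Subgroup.centralizer ({z} : Set G)) ⧸ Q} (hx : x ∈ XX s') :
    ∃ n : ↥NN, piN e n = x := by
  obtain ⟨h, hh, rfl⟩ := mem_XX.1 hx
  obtain ⟨k, hk⟩ := QuotientGroup.mk_surjective (e (QuotientGroup.mk h))
  have h1 := H.hψ.2.2.2 h k hk (e8 none) s' H.hv0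
  have h2 : ψ (k • e8 none) = ψ (e8 none) := by
    rw [h1, H.hv0]
    congr 1
    apply Subtype.ext
    exact mul_inv_eq_iff_eq_mul.2 hh
  exact ⟨⟨k, mem_NN_of_psi H.hψ h2⟩, (piN_eq_iff _ _).2 hk⟩

/-- the image of the sign changes -/
noncomputable def OO (e : (Subgroup.centralizer ({z} : Set G)) ⧸ Q ≃* Spor.Co1) :
    Subgroup ((Subgroup.centralizer ({z} : Set G)) ⧸ Q) := (rho.ker).map (piN e)

omit H in
theorem card_OO_le : Nat.card (OO e) ≤ 2 ^ 11 := by
  have hfin := finite_ker_rho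
  set f : ↥rho.ker →* (Subgroup.centralizer ({z} : Set G)) ⧸ Q := (piN e).comp rho.ker.subtype with hf
  have h0 : OO e = f.range := by
    rw [hf, MonoidHom.range_comp, Subgroup.range_subtype]
    rfl
  have h2 := Subgroup.card_mul_index f.ker
  rw [Subgroup.index_ker, ← h0] at h2
  have h3 : 1 < Nat.card f.ker := by
    rw [Subgroup.one_lt_card_iff_ne_bot]
    intro hbot
    have h4 : (⟨⟨negOne, negOne_mem⟩, negOne_mem_ker⟩ : ↥rho.ker) ∈ f.ker := by
      rw [MonoidHom.mem_ker]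
      exact piN_negOne
    rw [hbot, Subgroup.mem_bot] at h4
    exact negOne_ne_one (congrArg (fun u : ↥rho.ker => ((u : ↥NN) : ↥Co0)) h4)
  have h5 := card_ker_rho_le
  have h6 : 2 * Nat.card (OO e) ≤ Nat.card f.ker * Nat.card (OO e) := Nat.mul_le_mul_right _ h3
  norm_num
  omega

theorem Ctx.EE_le_OO : EE Q g ≤ OO e := by
  have hsimp := Cfsg.Agent.S0365.result
  have hnorm : ((EE Q g).comap (piN e)).Normal := by
    constructor
    intro a ha n
    rw [Subgroup.mem_comap] at ha ⊢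
    rw [map_mul, map_mul, map_inv]
    exact H.conj_mem_EE _ (H.piN_mem_XX n) _ ha
  have hnorm' := hnorm.map rho rho_surjective
  rcases hsimp.eq_bot_or_eq_top_of_normal _ hnorm' with hbot | htop
  · rw [Subgroup.map_eq_bot_iff] at hbot
    intro y hy
    obtain ⟨n, rfl⟩ := H.exists_of_mem_XX (H.EE_le_XX hy)
    exact ⟨n, hbot (Subgroup.mem_comap.2 hy), rfl⟩
  · exfalso
    have : Fact (Nat.Prime 3) := ⟨by norm_num⟩
    have hfinM : Finite ↥M24 := Nat.finite_of_card_ne_zero (by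
      rw [Cfsg.Agent.Lib.Helper9M24Order.card_M24]; norm_num)
    obtain ⟨x, hx⟩ := exists_prime_orderOf_dvd_card' (G := ↥M24) 3
      (by rw [Cfsg.Agent.Lib.Helper9M24Order.card_M24]; norm_num)
    have hxm : x ∈ ((EE Q g).comap (piN e)).map rho := by rw [htop]; trivial
    obtain ⟨a, ha, rfl⟩ := hxm
    have h1 : piN e (a * a) = 1 := by
      rw [map_mul, ← sq]
      exact H.EE_sq _ ha
    have h2 : (a * a) * (a * a) = 1 := by
      apply Subtype.ext
      show ((a * a : ↥NN) : ↥Co0) * ((a * a : ↥NN) : ↥Co0) = 1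
      rcases piN_eq_one h1 with h | h
      · rw [h, mul_one]
      · rw [h, negOne_sq]
    have h3 : rho a ^ 4 = 1 := by
      rw [← map_pow, show (4 : ℕ) = 2 + 2 from rfl, pow_add, sq, h2, map_one]
    have h4 := orderOf_dvd_of_pow_eq_one h3
    rw [hx] at h4
    revert h4
    norm_num

end proj

section final
variable {G : Type*} [Group G] [Finite G] {z : G}
  {Q : Subgroup (Subgroup.centralizer ({z} : Set G))} [Q.Normal]
  {e : (Subgroup.centralizer ({z} : Set G)) ⧸ Q ≃* Spor.Co1}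
  {ψ : leechLattice → Q ⧸ Subgroup.center Q} {g : G} {s' : Q}

variable (H : Ctx z Q e ψ g s')
include H

theorem Ctx.cards : Nat.card (BB Q g) = 2 ^ 13 ∧ Nat.card (EE Q g) = 2 ^ 11 := by
  have h1 := H.card_mul_ge
  have h2 := H.card_BB_le
  have h3 : Nat.card (EE Q g) ≤ 2 ^ 11 :=
    (Subgroup.card_le_of_le H.EE_le_OO).trans card_OO_le
  constructor
  · by_contra hne
    have h4 : Nat.card (BB Q g) ≤ 2 ^ 13 - 1 := by omega
    have h5 := Nat.mul_le_mul h4 h3
    norm_num at h1 h5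
    omega
  · by_contra hne
    have h4 : Nat.card (EE Q g) ≤ 2 ^ 11 - 1 := by omega
    have h5 := Nat.mul_le_mul h2 h4
    norm_num at h1 h5
    omega

theorem Ctx.EE_eq_OO : EE Q g = OO e := by
  apply Subgroup.eq_of_le_of_card_ge H.EE_le_OO
  rw [H.cards.2]
  exact card_OO_le

theorem Ctx.complement : ∃ K : Subgroup ((Subgroup.centralizer ({z} : Set G)) ⧸ Q),
    K ≤ XX s' ∧ EE Q g ⊓ K = ⊥ ∧ EE Q g ⊔ K = XX s' ∧ Nonempty (K ≃* M24) := by
  set κ : ↥M24 →* (Subgroup.centralizer ({z} : Set G)) ⧸ Q := (piN e).comp prmHom with hκ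
  have key : ∀ (t : ↥NN) (σ : ↥M24), t ∈ rho.ker → piN e t = κ σ → σ = 1 := by
    intro t σ ht h
    have h1 : piN e (t⁻¹ * prmHom σ) = 1 := by
      rw [map_mul, map_inv, h]
      exact inv_mul_cancel _
    have h2 : t⁻¹ * prmHom σ ∈ rho.ker := by
      rcases piN_eq_one h1 with h3 | h3
      · have : t⁻¹ * prmHom σ = 1 := Subtype.ext h3
        rw [this]; exact Subgroup.one_mem _
      · have : t⁻¹ * prmHom σ = ⟨negOne, negOne_mem⟩ := Subtype.ext h3
        rw [this]; exact negOne_mem_ker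
    have h4 : prmHom σ ∈ rho.ker := by
      have := Subgroup.mul_mem _ ht h2
      rwa [mul_inv_cancel_left] at this
    rw [MonoidHom.mem_ker, rho_prmHom] at h4
    exact h4
  have hinj : Function.Injective κ := by
    rw [injective_iff_map_eq_one]
    intro σ hσ
    exact key 1 σ (Subgroup.one_mem _) (by rw [map_one, hσ])
  refine ⟨κ.range, ?_, ?_, ?_, ⟨(MonoidHom.ofInjective hinj).symm⟩⟩
  · rintro _ ⟨σ, rfl⟩
    exact H.piN_mem_XX _
  · rw [H.EE_eq_OO, Subgroup.eq_bot_iff_forall]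
    rintro y ⟨⟨t, ht, rfl⟩, ⟨σ, hσ⟩⟩
    have := key t σ ht hσ.symm
    rw [← hσ, this, map_one]
  · apply le_antisymm
    · apply sup_le H.EE_le_XX
      rintro _ ⟨σ, rfl⟩
      exact H.piN_mem_XX _
    · intro x hx
      obtain ⟨n, rfl⟩ := H.exists_of_mem_XX hx
      have h1 : n = (n * (prmHom (rho n))⁻¹) * prmHom (rho n) := by group
      rw [h1, map_mul]
      apply Subgroup.mul_mem_sup
      · rw [H.EE_eq_OO]
        refine ⟨_, ?_, rfl⟩
        rw [SetLike.mem_coe, MonoidHom.mem_ker, map_mul, map_inv, rho_prmHom, mul_inv_cancel]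
      · exact ⟨rho n, rfl⟩

end final

section exist
variable {G : Type*} [Group G] [Finite G] {z : G}
  {Q : Subgroup (Subgroup.centralizer ({z} : Set G))} [Q.Normal]

/-- the standing hypotheses hold, for a suitable identification -/
theorem exists_ctx (hM : IsOfMonsterType z Q) (g : G) (s' : Q)
    (hs : ((s' : Subgroup.centralizer ({z} : Set G)) : G) = g * z * g⁻¹) (hsz : g * z * g⁻¹ ≠ z) :
    ∃ (e : (Subgroup.centralizer ({z} : Set G)) ⧸ Q ≃* Spor.Co1)
      (ψ : leechLattice → Q ⧸ Subgroup.center Q), Ctx z Q e ψ g s' := by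
  obtain ⟨⟨hz2, hF, hE, hcard, -⟩, e, ψ, hψ⟩ := hM
  obtain ⟨-, v, hn, hv⟩ := type4_of_conj hz2 hE hF hcard hψ s' g hs hsz
  obtain ⟨n0, hn0⟩ := Cfsg.Agent.Lib.Helper93LeechCross.n64_trans (e8 none) v (sqNorm_e8 none) hn
  exact ⟨_, _, ⟨zC_mem hF, pk_z hz2 hE hF, hcard, twist hψ n0, hs, hsz, by
    show ψ (n0 • e8 none) = _
    rw [hn0, hv]⟩⟩

end exist

end Cfsg.Agent.Lib.Helper93Monster7
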