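import Cfsg.Agent.Lib.Helper93Monster3
import Cfsg.Agent.Lib.Helper93Monster2
import Cfsg.Agent.Lib.Helper3PGroup
import Cfsg.Agent.Lib.Helper54CharP

/-!
# Generic lemmas for the Baby Monster section of a group of Monster type (helper93)
-/

set_option autoImplicit false

namespace Cfsg.Agent.Lib.Helper93Monster8

open Cfsg
open Cfsg.Agent.Lib.Helper93Monster Cfsg.Agent.Lib.Helper93Monster3
open scoped commutatorElement

section pk
variable {E : Type*} [Group E] {c : E}

theorem pk_pow_four (h : Pk E c) (x : E) : x ^ 4 = 1 := by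
  have : x ^ 4 = (x * x) * (x * x) := by
    rw [show (4 : ℕ) = 2 + 2 from rfl, pow_add, sq]
  rw [this]
  exact h.c_sq (h.sqm x)

theorem pk_card_center [Finite E] (h : Pk E c) : Nat.card (Subgroup.center E) = 2 := by
  rw [Nat.card_eq_two_iff]
  refine ⟨1, ⟨c, (h.cen c).2 (Or.inr rfl)⟩, ?_, ?_⟩
  · intro hh
    exact h.ne (congrArg Subtype.val hh).symm
  · ext x
    simp only [Set.mem_insert_iff, Set.mem_singleton_iff, Set.mem_univ, iff_true]
    rcases (h.cen x.1).1 x.2 with h1 | h1
    · left; exact Subtype.ext h1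
    · right; exact Subtype.ext h1

/-- the converse of `exists_pk` -/
theorem pk_isExtraspecial [Finite E] (h : Pk E c) (hcard : 2 < Nat.card E) :
    IsExtraspecial 2 E := by
  have : Fact (Nat.Prime 2) := ⟨Nat.prime_two⟩
  have hp : IsPGroup 2 E := fun x => ⟨2, by
    have := pk_pow_four h x
    norm_num
    exact this⟩
  have hle : commutator E ≤ Subgroup.center E := by
    rw [commutator_eq_closure, Subgroup.closure_le]
    rintro _ ⟨x, y, rfl⟩
    exact (h.cen _).2 (h.com x y)
  have hge : Subgroup.center E ≤ commutator E := by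
    -- a non-central element
    have hex : ∃ x : E, x ∉ Subgroup.center E := by
      by_contra hcon
      push Not at hcon
      have h1 : Subgroup.center E = ⊤ := by
        rw [eq_top_iff]; intro x _; exact hcon x
      have h2 := pk_card_center h
      rw [h1, Subgroup.card_top] at h2
      omega
    obtain ⟨x, hx⟩ := hex
    rw [Subgroup.mem_center_iff] at hx
    push Not at hx
    obtain ⟨y, hy⟩ := hx
    have hc : ⁅y, x⁆ = c := by
      rcases h.com y x with h1 | h1
      · exact absurd (commutatorElement_eq_one_iff_mul_comm.1 h1) hy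
      · exact h1
    intro w hw
    rcases (h.cen w).1 hw with rfl | rfl
    · exact Subgroup.one_mem _
    · rw [← hc]
      exact Subgroup.commutator_mem_commutator (Subgroup.mem_top _) (Subgroup.mem_top _)
  have hcomm : commutator E = Subgroup.center E := le_antisymm hle hge
  refine ⟨⟨hp, ?_, hcomm⟩, pk_card_center h⟩
  apply le_antisymm
  · apply Cfsg.Agent.Lib.Helper3PGroup.frattini_le_of_elementary (p := 2)
    · exact hle
    · intro x
      rw [sq]
      exact (h.cen _).2 (h.sqm x)
  · rw [← hcomm]
    exact Cfsg.Agent.Lib.Helper3PGroup.commutator_le_frattini hp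

/-- the centraliser of a non-central element `a`, modulo `a` -/
theorem pk_quot (h : Pk E c) {a : E} (ha : a ∉ Subgroup.center E) {F : Type*} [Group F]
    (f : ↥(chi h a).ker →* F) (hf : Function.Surjective f)
    (hker : ∀ x : ↥(chi h a).ker, f x = 1 ↔ (x : E) = 1 ∨ (x : E) = a) :
    Pk F (f ⟨c, (mem_ker_chi h a c).2 (h.z_comm a).symm⟩) := by
  have hca : c ≠ a := fun hh => ha (hh ▸ (h.cen c).2 (Or.inr rfl))
  have ha1 : a ≠ 1 := fun hh => ha (hh ▸ Subgroup.one_mem _)
  have himg : ∀ x : ↥(chi h a).ker, ((x : E) = 1 ∨ (x : E) = c) →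
      f x = 1 ∨ f x = f ⟨c, (mem_ker_chi h a c).2 (h.z_comm a).symm⟩ := by
    intro x hx
    rcases hx with hx | hx
    · left; exact (hker x).2 (Or.inl hx)
    · right; congr 1; exact Subtype.ext hx
  refine ⟨?_, ?_, ?_, ?_, ?_⟩
  · intro hh
    rcases (hker _).1 hh with h1 | h1
    · exact h.ne h1
    · exact hca h1
  · rw [← map_mul]
    apply (hker _).2
    left
    exact h.sq
  · intro y
    obtain ⟨x, rfl⟩ := hf y
    constructor
    · intro hy
      rw [Subgroup.mem_center_iff] at hy
      have h1 : ∀ w : E, w * a = a * w → w * (x : E) = (x : E) * w := by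
        intro w hw
        have h2 := hy (f ⟨w, (mem_ker_chi h a w).2 hw⟩)
        rw [← map_mul, ← map_mul] at h2
        have h3 : f (⁅(⟨w, (mem_ker_chi h a w).2 hw⟩ : ↥(chi h a).ker), x⁆) = 1 := by
          rw [map_commutatorElement]
          rw [map_mul, map_mul] at h2
          exact commutatorElement_eq_one_iff_mul_comm.2 h2
        have h4 := (hker _).1 h3
        have h5 : ((⁅(⟨w, (mem_ker_chi h a w).2 hw⟩ : ↥(chi h a).ker), x⁆ : ↥(chi h a).ker) : E)
            = ⁅w, (x : E)⁆ := rfl
        rw [h5] at h4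
        rcases h4 with h4 | h4
        · exact commutatorElement_eq_one_iff_mul_comm.1 h4
        · exfalso
          rcases h.com w (x : E) with h6 | h6
          · exact ha1 (h4.symm.trans h6)
          · exact hca (h6.symm.trans h4)
      rcases center_centralizer h h1 with h2 | h2 | h2 | h2
      · exact himg x (Or.inl h2)
      · exact himg x (Or.inr h2)
      · left; exact (hker x).2 (Or.inr h2)
      · right
        have h3 : x = ⟨a, (mem_ker_chi h a a).2 rfl⟩ * ⟨c, (mem_ker_chi h a c).2 (h.z_comm a).symm⟩ :=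
          Subtype.ext h2
        rw [h3, map_mul, (hker ⟨a, _⟩).2 (Or.inr rfl), one_mul]
    · intro hy
      rcases hy with hy | hy
      · rw [hy]; exact Subgroup.one_mem _
      · rw [hy, Subgroup.mem_center_iff]
        intro y'
        obtain ⟨w, rfl⟩ := hf y'
        rw [← map_mul, ← map_mul]
        congr 1
        exact Subtype.ext (h.z_comm (w : E))
  · intro y
    obtain ⟨x, rfl⟩ := hf y
    rw [← map_mul]
    exact himg _ (h.sqm (x : E))
  · intro y y'
    obtain ⟨x, rfl⟩ := hf y
    obtain ⟨x', rfl⟩ := hf y'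
    rw [← map_commutatorElement]
    exact himg _ (h.com (x : E) (x' : E))

theorem card_ker_chi [Finite E] (h : Pk E c) {a : E} (ha : a ∉ Subgroup.center E) :
    2 * Nat.card (chi h a).ker = Nat.card E := by
  have h1 := Subgroup.card_mul_index (chi h a).ker
  rw [Subgroup.index_ker] at h1
  have h2 := card_range_chi h a
  have h3 : 1 < Nat.card (chi h a).range := by
    rw [Subgroup.one_lt_card_iff_ne_bot]
    intro hbot
    apply ha
    rw [Subgroup.mem_center_iff]
    intro w
    have h4 : chi h a w ∈ (chi h a).range := ⟨w, rfl⟩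
    rw [hbot, Subgroup.mem_bot] at h4
    exact commutatorElement_eq_one_iff_mul_comm.1 h4
  have h4 : Nat.card (chi h a).range = 2 := by omega
  rw [h4] at h1
  omega

end pk

section transport

/-- descent of a surjection along a surjection -/
theorem exists_quot_equiv {H D K : Type*} [Group H] [Group D] [Group K] (P : H →* D)
    (hP : Function.Surjective P) (T : H →* K) (hT : Function.Surjective T)
    (hker : P.ker ≤ T.ker) (R : Subgroup D) [R.Normal] (hR : R = T.ker.map P) :
    ∃ e : D ⧸ R ≃* K, ∀ h : H, e (QuotientGroup.mk (P h)) = T h := by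
  -- the induced map on `D`
  let φ : D →* K := (QuotientGroup.lift P.ker T (fun x hx => hker hx)).comp
    (QuotientGroup.quotientKerEquivOfSurjective P hP).symm.toMonoidHom
  have hφ : ∀ h : H, φ (P h) = T h := by
    intro h
    have h1 : (QuotientGroup.quotientKerEquivOfSurjective P hP).symm (P h) = QuotientGroup.mk h := by
      rw [MulEquiv.symm_apply_eq]
      rfl
    show (QuotientGroup.lift P.ker T (fun x hx => hker hx))
      ((QuotientGroup.quotientKerEquivOfSurjective P hP).symm (P h)) = _
    rw [h1]
    rfl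
  have hφs : Function.Surjective φ := by
    intro k
    obtain ⟨h, rfl⟩ := hT k
    exact ⟨P h, hφ h⟩
  have hφk : R = φ.ker := by
    rw [hR]
    ext d
    obtain ⟨h, rfl⟩ := hP d
    rw [MonoidHom.mem_ker, hφ]
    constructor
    · rintro ⟨h', hh', hh⟩
      have h1 : h'⁻¹ * h ∈ P.ker := by
        rw [MonoidHom.mem_ker, map_mul, map_inv, hh, inv_mul_cancel]
      have h2 := hker h1
      rw [MonoidHom.mem_ker, map_mul, map_inv, MonoidHom.mem_ker.1 hh', inv_one, one_mul] at h2
      exact h2
    · intro hh
      exact ⟨h, hh, rfl⟩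
  refine ⟨(QuotientGroup.quotientMulEquivOfEq hφk).trans
    (QuotientGroup.quotientKerEquivOfSurjective φ hφs), ?_⟩
  intro h
  exact hφ h

/-- a criterion for the generalized Fitting subgroup -/
theorem gfit_eq_of {D : Type*} [Group D] [Finite D] (R : Subgroup D) [R.Normal]
    (hR : IsPGroup 2 R) (hcen : Subgroup.centralizer (R : Set D) ≤ R)
    (hmax : ∀ N : Subgroup D, N.Normal → IsPGroup 2 N → N ≤ R) :
    generalizedFittingSubgroup D = R := by
  have : Fact (Nat.Prime 2) := ⟨Nat.prime_two⟩
  have h1 : pCore 2 D = R := by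
    apply le_antisymm
    · exact sSup_le fun N hN => hmax N hN.1 hN.2
    · exact le_sSup ⟨inferInstance, hR⟩
  rw [← h1]
  rw [Cfsg.Agent.Lib.Helper54CharP.gfit_eq_pCore_top_iff,
    ← Cfsg.Agent.Lib.Helper54CharP.charP_top_iff, h1]
  exact hcen

end transport

end Cfsg.Agent.Lib.Helper93Monster8
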