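import Cfsg.Agent.Lib.Helper93Monster7
import Cfsg.Agent.Lib.Helper93Monster8

/-!
# Groups of Monster type: the centraliser of a non-central involution of `Q`, part 1 (helper93)
-/

set_option autoImplicit false
set_option linter.unusedSectionVars false

namespace Cfsg.Agent.Lib.Helper93Monster9

open Cfsg
open Cfsg.Agent.Lib.Helper93Monster Cfsg.Agent.Lib.Helper93Monster2 Cfsg.Agent.Lib.Helper93Monster3
  Cfsg.Agent.Lib.Helper93Monster4 Cfsg.Agent.Lib.Helper93Monster5 Cfsg.Agent.Lib.Helper93Monster8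
open Cfsg.Agent.Lib.Helper33LCo0 Cfsg.Agent.Lib.Helper93LeechIrr Cfsg.Agent.Lib.Helper93LeechCross
open Cfsg.Agent.Lib.Helper10Co0Center
open scoped commutatorElement

/-! ### the second Conway group -/

/-- the two incarnations of the stabiliser of `u` -/
def co2Equiv : ↥Spor.Co2 ≃* ↥(MulAction.stabilizer ↥Co0 Spor.leechU) where
  toFun g := ⟨⟨g.1, g.2.1⟩, g.2.2⟩
  invFun k := ⟨k.1.1, ⟨k.1.2, k.2⟩⟩
  left_inv _ := rfl
  right_inv _ := rfl
  map_mul' _ _ := rfl

theorem sqNorm_leechU : sqNorm (Spor.leechU : GolayPt → ℤ) = 32 := by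
  show sqNorm Spor.vecU = 32
  decide +kernel

theorem simple_Co2 : IsSimpleGroup ↥Spor.Co2 := by
  have := (Cfsg.Agent.S0402.result Spor.leechU sqNorm_leechU).1
  exact co2Equiv.isSimpleGroup

theorem card_Co2 : Nat.card ↥Spor.Co2 = 42305421312000 := by
  rw [Nat.card_congr co2Equiv.toEquiv]
  exact (Cfsg.Agent.S0402.result Spor.leechU sqNorm_leechU).2

theorem exists_order_three : ∃ x : ↥Spor.Co2, orderOf x = 3 := by
  have : Fact (Nat.Prime 3) := ⟨by norm_num⟩
  have hfin : Finite ↥Spor.Co2 := Nat.finite_of_card_ne_zero (by rw [card_Co2]; norm_num)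
  exact exists_prime_orderOf_dvd_card' (G := ↥Spor.Co2) 3 (by rw [card_Co2]; norm_num)

/-- a normal subgroup of the second Conway group all of whose elements have 2-power order is
trivial -/
theorem co2_normal_two {M : Subgroup ↥Spor.Co2} (hM : M.Normal)
    (h2 : ∀ x ∈ M, ∃ k : ℕ, x ^ 2 ^ k = 1) : M = ⊥ := by
  have := simple_Co2
  rcases hM.eq_bot_or_eq_top with h | h
  · exact h
  · exfalso
    obtain ⟨x, hx⟩ := exists_order_three
    obtain ⟨k, hk⟩ := h2 x (by rw [h]; trivial)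
    have h1 := orderOf_dvd_of_pow_eq_one hk
    rw [hx] at h1
    have h3 := (Nat.prime_three).dvd_of_dvd_pow h1
    revert h3
    norm_num

section setting
variable {G : Type*} [Group G] {z : G}
  {Q : Subgroup (Subgroup.centralizer ({z} : Set G))} [Q.Normal]
  {e : (Subgroup.centralizer ({z} : Set G)) ⧸ Q ≃* Spor.Co1}
  {ψ : leechLattice → Q ⧸ Subgroup.center Q}

/-- the commutator form -/
theorem comm_form [Finite G] (hE : IsExtraspecial 2 Q) (hψ : IsLeechModTwoIso Q e ψ) {x y : Q}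
    {v w : leechLattice} (hx : ψ v = QuotientGroup.mk x) (hy : ψ w = QuotientGroup.mk y) :
    ep ⁅x, y⁆ = ((dotInt (v : GolayPt → ℤ) (w : GolayPt → ℤ) / 8 : ℤ) : ZMod 2) := by
  obtain ⟨c, hP⟩ := exists_pk hE
  have h1 : ψ (v + w) = QuotientGroup.mk (x * y) := by rw [hψ.1, hx, hy]; rfl
  have h2 := eps_sq hE hψ h1
  have h3 := eps_sq hE hψ hx
  have h4 := eps_sq hE hψ hy
  have h5 := hP.ep_sq_mul x y
  obtain ⟨a, ha⟩ := sixteen_dvd' v.2
  obtain ⟨b, hb⟩ := sixteen_dvd' w.2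
  obtain ⟨d, hd⟩ := eight_dvd_dot v.2 w.2
  have h6 : sqNorm ((v + w : leechLattice) : GolayPt → ℤ) = 16 * (a + b + d) := by
    rw [coe_add', sqNorm_add, ha, hb, hd]; ring
  rw [h6, Int.mul_ediv_cancel_left _ (by norm_num)] at h2
  rw [ha, Int.mul_ediv_cancel_left _ (by norm_num)] at h3
  rw [hb, Int.mul_ediv_cancel_left _ (by norm_num)] at h4
  rw [hd, Int.mul_ediv_cancel_left _ (by norm_num)]
  rw [h2, h3, h4] at h5
  push_cast at h5
  exact (add_left_cancel h5).symm

theorem psi_neg (hψ : IsLeechModTwoIso Q e ψ) (v : leechLattice) : ψ (-v) = ψ v := by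
  have h1 : -v = v + ((-v) + (-v)) := by abel
  rw [h1, psi_coset hψ]

/-- vectors of norms 64 and 32 are not congruent modulo 2 -/
theorem not_congr (hψ : IsLeechModTwoIso Q e ψ) {x y : leechLattice}
    (hx : sqNorm (x : GolayPt → ℤ) = 64) (hy : sqNorm (y : GolayPt → ℤ) = 32) : ψ x ≠ ψ y := by
  intro h
  have h1 : ψ (x + y) = 1 := by rw [hψ.1, h, ← hψ.1, psi_dbl hψ]
  have h2 : ψ (x + -y) = 1 := by rw [hψ.1, psi_neg hψ, h, ← hψ.1, psi_dbl hψ]
  obtain ⟨w, hw⟩ := (hψ.2.2.1 _).1 h1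
  obtain ⟨w', hw'⟩ := (hψ.2.2.1 _).1 h2
  have e1 : (x : GolayPt → ℤ) + (y : GolayPt → ℤ) = 2 • (w : GolayPt → ℤ) := by
    have := congrArg (fun u : leechLattice => (u : GolayPt → ℤ)) hw
    simp only [coe_add'] at this
    rw [this, two_smul]
  have e2 : (x : GolayPt → ℤ) - (y : GolayPt → ℤ) = 2 • (w' : GolayPt → ℤ) := by
    have := congrArg (fun u : leechLattice => (u : GolayPt → ℤ)) hw'
    simp only [coe_add', coe_neg'] at this
    rw [sub_eq_add_neg, this, two_smul]
  have n1 : sqNorm ((x : GolayPt → ℤ) + (y : GolayPt → ℤ)) = 4 * sqNorm (w : GolayPt → ℤ) := by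
    rw [e1, sqNorm_two_smul]
  have n2 : sqNorm ((x : GolayPt → ℤ) - (y : GolayPt → ℤ)) = 4 * sqNorm (w' : GolayPt → ℤ) := by
    rw [e2, sqNorm_two_smul]
  rw [sqNorm_add, hx, hy] at n1
  rw [sqNorm_sub, hx, hy] at n2
  by_cases hw0 : (w : GolayPt → ℤ) = 0
  · rw [hw0, smul_zero] at e1
    have e3 : (x : GolayPt → ℤ) = - (y : GolayPt → ℤ) := eq_neg_of_add_eq_zero_left e1
    rw [e3] at hx
    have e4 : sqNorm (- (y : GolayPt → ℤ)) = sqNorm (y : GolayPt → ℤ) := by simp [sqNorm]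
    omega
  · have m1 := min_norm' w.2 hw0
    by_cases hw0' : (w' : GolayPt → ℤ) = 0
    · rw [hw0', smul_zero] at e2
      have e3 : (x : GolayPt → ℤ) = (y : GolayPt → ℤ) := sub_eq_zero.1 e2
      rw [e3] at hx
      omega
    · have m2 := min_norm' w'.2 hw0'
      omega

end setting

section ctx2
variable {G : Type*} [Group G] [Finite G] {z : G}
  {Q : Subgroup (Subgroup.centralizer ({z} : Set G))} [Q.Normal]
  {e : (Subgroup.centralizer ({z} : Set G)) ⧸ Q ≃* Spor.Co1}
  {ψ : leechLattice → Q ⧸ Subgroup.center Q} {t' : Q}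

/-- the standing hypotheses for a non-central involution over the short vector `u` -/
structure Ctx2 (z : G) (Q : Subgroup (Subgroup.centralizer ({z} : Set G))) [Q.Normal]
    (e : (Subgroup.centralizer ({z} : Set G)) ⧸ Q ≃* Spor.Co1)
    (ψ : leechLattice → Q ⧸ Subgroup.center Q) (t' : Q) : Prop where
  hz2 : orderOf z = 2
  hF : generalizedFittingSubgroup (Subgroup.centralizer ({z} : Set G)) = Q
  hE : IsExtraspecial 2 Q
  hcard : Nat.card Q = 2 ^ 25
  hψ : IsLeechModTwoIso Q e ψ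
  hu : ψ Spor.leechU = QuotientGroup.mk t'
  hnc : ¬ IsConj z ((t' : Subgroup.centralizer ({z} : Set G)) : G)

/-- the centraliser of `t` in `C` -/
def HH (t' : Q) : Subgroup (Subgroup.centralizer ({z} : Set G)) :=
  Subgroup.centralizer ({(t' : Subgroup.centralizer ({z} : Set G))} :
    Set (Subgroup.centralizer ({z} : Set G)))

omit [Finite G] [Q.Normal] in
theorem mem_HH {h : Subgroup.centralizer ({z} : Set G)} : h ∈ HH t' ↔ h * t' = t' * h :=
  Subgroup.mem_centralizer_singleton_iff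

omit [Finite G] in
theorem cj_of_mem_HH {h : Subgroup.centralizer ({z} : Set G)} (hh : h ∈ HH t') : cj h t' = t' := by
  apply Subtype.ext
  exact mul_inv_eq_iff_eq_mul.2 (mem_HH.1 hh)

omit [Finite G] in
theorem mem_HH_of_cj {h : Subgroup.centralizer ({z} : Set G)} (hh : cj h t' = t') : h ∈ HH t' := by
  have h3 : h * t' * h⁻¹ = t' := congrArg (fun u : Q => (u : Subgroup.centralizer ({z} : Set G))) hh
  exact mem_HH.2 (mul_inv_eq_iff_eq_mul.1 h3)

variable (H : Ctx2 z Q e ψ t')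
include H

theorem Ctx2.hP : Pk Q ⟨zC z, zC_mem H.hF⟩ := pk_z H.hz2 H.hE H.hF

theorem Ctx2.tc : t' ∉ Subgroup.center Q := by
  intro hc
  have hv := H.hu
  rw [(QuotientGroup.eq_one_iff t').2 hc] at hv
  obtain ⟨w, hw⟩ := (H.hψ.2.2.1 _).1 hv
  have hw' : (Spor.leechU : GolayPt → ℤ) = 2 • (w : GolayPt → ℤ) := by
    rw [hw, two_smul]; rfl
  have hn := sqNorm_leechU
  rw [hw', sqNorm_two_smul] at hn
  have := sixteen_dvd' w.2
  omega

theorem Ctx2.t_sq : t' * t' = 1 := by
  have h1 := eps_sq H.hE H.hψ H.hu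
  rw [sqNorm_leechU] at h1
  exact ep_eq_zero (h1.trans (by decide))

/-- the lattice automorphism fixing `u` induced by an element of `C_C(t)` -/
theorem Ctx2.exists_theta (h : HH t') : ∃ k : ↥Co0,
    (QuotientGroup.mk k : Spor.Co1) = e (QuotientGroup.mk (h : Subgroup.centralizer ({z} : Set G)))
      ∧ k • Spor.leechU = Spor.leechU := by
  obtain ⟨k0, hk0⟩ := QuotientGroup.mk_surjective
    (e (QuotientGroup.mk (h : Subgroup.centralizer ({z} : Set G))))
  have h1 := H.hψ.2.2.2 h k0 hk0 Spor.leechU t' H.hu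
  have h2 : ψ (k0 • Spor.leechU) = ψ Spor.leechU := by
    rw [h1, H.hu]
    exact congrArg _ (cj_of_mem_HH h.2)
  rcases pm_of_psi_eq H.hψ h2 (by rw [sqNorm_smul']; exact sqNorm_leechU) sqNorm_leechU with h3 | h3
  · exact ⟨k0, hk0, h3⟩
  · refine ⟨negOne * k0, ?_, ?_⟩
    · rw [QuotientGroup.mk_mul, (QuotientGroup.eq_one_iff _).2 negOne_mem_center, one_mul, hk0]
    · rw [mul_smul, h3, negOne_smul, neg_neg]

omit H [Finite G] [Q.Normal] in
theorem theta_unique {k k' : ↥Co0} (h : (QuotientGroup.mk k : Spor.Co1) = QuotientGroup.mk k')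
    (hk : k • Spor.leechU = Spor.leechU) (hk' : k' • Spor.leechU = Spor.leechU) : k = k' := by
  rcases center_cases (QuotientGroup.eq.1 h) with h1 | h1
  · exact (inv_mul_eq_one.1 h1)
  · exfalso
    have h2 : k' = k * negOne := by rw [← h1]; group
    rw [h2, mul_smul, negOne_smul, Cfsg.Agent.Lib.Helper93CrossStab.smul_neg'', hk] at hk'
    exact ne_neg_of_min sqNorm_leechU hk'.symm

noncomputable def Ctx2.thetaFun (h : HH t') : ↥Spor.Co2 :=
  ⟨(H.exists_theta h).choose.1, ⟨(H.exists_theta h).choose.2, (H.exists_theta h).choose_spec.2⟩⟩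

/-- an element of the second Conway group, as a lattice automorphism -/
def toCo0 (g : ↥Spor.Co2) : ↥Co0 := ⟨g.1, g.2.1⟩

omit H [Finite G] [Q.Normal] in
theorem toCo0_smul (g : ↥Spor.Co2) : toCo0 g • Spor.leechU = Spor.leechU := g.2.2

omit H [Finite G] [Q.Normal] in
theorem toCo0_inj {g g' : ↥Spor.Co2} (h : toCo0 g = toCo0 g') : g = g' :=
  Subtype.ext (congrArg (fun k : ↥Co0 => k.1) h)

theorem Ctx2.thetaFun_spec (h : HH t') : (QuotientGroup.mk (toCo0 (H.thetaFun h)) : Spor.Co1)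
    = e (QuotientGroup.mk (h : Subgroup.centralizer ({z} : Set G))) :=
  (H.exists_theta h).choose_spec.1

theorem Ctx2.thetaFun_eq {h : HH t'} {g : ↥Spor.Co2} (hg : (QuotientGroup.mk (toCo0 g) : Spor.Co1)
    = e (QuotientGroup.mk (h : Subgroup.centralizer ({z} : Set G)))) : H.thetaFun h = g :=
  toCo0_inj (theta_unique ((H.thetaFun_spec h).trans hg.symm) (toCo0_smul _) (toCo0_smul _))

/-- the homomorphism from `C_C(t)` onto the second Conway group -/
noncomputable def Ctx2.theta : HH t' →* ↥Spor.Co2 :=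
  MonoidHom.mk' H.thetaFun (fun a b => H.thetaFun_eq (by
    show (QuotientGroup.mk (toCo0 (H.thetaFun a) * toCo0 (H.thetaFun b)) : Spor.Co1) = _
    rw [QuotientGroup.mk_mul, H.thetaFun_spec, H.thetaFun_spec, ← map_mul]
    rfl))

theorem Ctx2.theta_spec (h : HH t') : (QuotientGroup.mk (toCo0 (H.theta h)) : Spor.Co1)
    = e (QuotientGroup.mk (h : Subgroup.centralizer ({z} : Set G))) := H.thetaFun_spec h

theorem Ctx2.theta_eq {h : HH t'} {g : ↥Spor.Co2} (hg : (QuotientGroup.mk (toCo0 g) : Spor.Co1)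
    = e (QuotientGroup.mk (h : Subgroup.centralizer ({z} : Set G)))) : H.theta h = g :=
  H.thetaFun_eq hg

theorem Ctx2.theta_surjective : Function.Surjective H.theta := by
  intro g
  obtain ⟨h, h1, h2⟩ := exists_lift_comm H.hP H.hψ H.tc H.hu (toCo0 g) (toCo0_smul g)
  exact ⟨⟨h, mem_HH_of_cj h2⟩, H.theta_eq h1⟩

theorem Ctx2.ker_theta : H.theta.ker = Q.subgroupOf (HH t') := by
  ext h
  rw [MonoidHom.mem_ker, Subgroup.mem_subgroupOf]
  constructor
  · intro hh
    have h1 := H.theta_spec h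
    rw [hh] at h1
    have h2 : (QuotientGroup.mk (toCo0 1) : Spor.Co1) = 1 := rfl
    rw [h2] at h1
    have h3 := (map_eq_one_iff e e.injective).1 h1.symm
    exact (QuotientGroup.eq_one_iff _).1 h3
  · intro hh
    apply H.theta_eq
    rw [(QuotientGroup.eq_one_iff _).2 hh, map_one]
    rfl

end ctx2

end Cfsg.Agent.Lib.Helper93Monster9
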