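import Cfsg.Agent.Lib.Helper93QuartetStab
import Cfsg.Agent.Lib.Helper33Trans
import Cfsg.Agent.S0382

/-!
# The stabiliser of a quartet: transport to the standard pair, order, structure (helper93)
-/

set_option autoImplicit false

namespace Cfsg.Agent.Lib.Helper93QuartetTr

open Cfsg Cfsg.Agent.Lib.Helper33Golay Cfsg.Agent.Lib.Helper94M24A Cfsg.Agent.Lib.Helper94M24B
  Cfsg.Agent.Lib.Helper94Dod Cfsg.Agent.Lib.Helper93Quartet Cfsg.Agent.Lib.Helper93QuartetStab
open scoped Pointwise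

/-! ### transport -/

theorem map_conj_M24 {k : Equiv.Perm GolayPt} (hk : k ∈ M24) :
    M24.map (MulAut.conj k).toMonoidHom = M24 := by
  ext g
  rw [Subgroup.mem_map]
  constructor
  · rintro ⟨h, hh, rfl⟩
    exact M24.mul_mem (M24.mul_mem hk hh) (M24.inv_mem hk)
  · intro hg
    refine ⟨k⁻¹ * g * k, M24.mul_mem (M24.mul_mem (M24.inv_mem hk) hg) hk, ?_⟩
    show k * (k⁻¹ * g * k) * k⁻¹ = g
    group

theorem map_conj_K {k : Equiv.Perm GolayPt} (hk : k ∈ M24) (d : Finset GolayPt)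
    (Q : Finset (Finset GolayPt)) :
    (K d Q).map (MulAut.conj k).toMonoidHom = K (k • d) (k • Q) := by
  unfold K
  rw [Subgroup.map_inf _ _ _ (MulAut.conj k).injective, Subgroup.map_inf _ _ _ (MulAut.conj k).injective,
    map_conj_M24 hk, MulAction.stabilizer_smul_eq_stabilizer_map_conj,
    MulAction.stabilizer_smul_eq_stabilizer_map_conj]

theorem map_conj_K_inf {k : Equiv.Perm GolayPt} (hk : k ∈ M24) (d : Finset GolayPt)
    (Q X : Finset (Finset GolayPt)) :
    (K d Q ⊓ MulAction.stabilizer (Equiv.Perm GolayPt) X).map (MulAut.conj k).toMonoidHom =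
      K (k • d) (k • Q) ⊓ MulAction.stabilizer (Equiv.Perm GolayPt) (k • X) := by
  rw [Subgroup.map_inf _ _ _ (MulAut.conj k).injective, map_conj_K hk,
    MulAction.stabilizer_smul_eq_stabilizer_map_conj]

theorem map_subtype_stab (d : Finset GolayPt) (Q : Finset (Finset GolayPt)) :
    (MulAction.stabilizer M24 d ⊓ MulAction.stabilizer M24 Q).map M24.subtype = K d Q := by
  ext g
  rw [Subgroup.mem_map, mem_K]
  constructor
  · rintro ⟨⟨h, hh⟩, ⟨h1, h2⟩, rfl⟩
    exact ⟨hh, h1, h2⟩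
  · rintro ⟨h1, h2, h3⟩
    exact ⟨⟨g, h1⟩, ⟨h2, h3⟩, rfl⟩

theorem map_subtype_stab_inf (d : Finset GolayPt) (Q X : Finset (Finset GolayPt)) :
    ((MulAction.stabilizer M24 d ⊓ MulAction.stabilizer M24 Q) ⊓
      MulAction.stabilizer M24 X).map M24.subtype =
      K d Q ⊓ MulAction.stabilizer (Equiv.Perm GolayPt) X := by
  ext g
  rw [Subgroup.mem_map, Subgroup.mem_inf, mem_K]
  constructor
  · rintro ⟨⟨h, hh⟩, ⟨⟨h1, h2⟩, h3⟩, rfl⟩
    exact ⟨⟨hh, h1, h2⟩, h3⟩
  · rintro ⟨⟨h1, h2, h3⟩, h4⟩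
    exact ⟨⟨g, h1⟩, ⟨⟨h2, h3⟩, h4⟩, rfl⟩

/-- the stabiliser in the statement form is isomorphic to the flat form -/
noncomputable def flatEquiv (d : Finset GolayPt) (Q : Finset (Finset GolayPt)) :
    ↥(MulAction.stabilizer M24 d ⊓ MulAction.stabilizer M24 Q) ≃* ↥(K d Q) :=
  (Subgroup.equivMapOfInjective _ M24.subtype M24.subtype_injective).trans
    (MulEquiv.subgroupCongr (map_subtype_stab d Q))

noncomputable def conjEquiv {k : Equiv.Perm GolayPt} (hk : k ∈ M24) (d : Finset GolayPt)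
    (Q : Finset (Finset GolayPt)) : ↥(K d Q) ≃* ↥(K (k • d) (k • Q)) :=
  (Subgroup.equivMapOfInjective _ (MulAut.conj k).toMonoidHom (MulAut.conj k).injective).trans
    (MulEquiv.subgroupCongr (map_conj_K hk d Q))

theorem exists_equiv_K0 {d : Finset GolayPt} (hd : d ∈ dodecads) {Q : Finset (Finset GolayPt)}
    (hQ : Q ∈ quartets d) :
    Nonempty (↥(MulAction.stabilizer M24 d ⊓ MulAction.stabilizer M24 Q) ≃* ↥K0) := by
  obtain ⟨k, hk, kd, kQ⟩ := std_quartet hd hQ
  have e := (flatEquiv d Q).trans (conjEquiv hk d Q)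
  rw [kd, kQ] at e
  exact ⟨e⟩

theorem card_stab {d : Finset GolayPt} (hd : d ∈ dodecads) {Q : Finset (Finset GolayPt)}
    (hQ : Q ∈ quartets d) :
    Nat.card ↥(MulAction.stabilizer M24 d ⊓ MulAction.stabilizer M24 Q) = 432 := by
  obtain ⟨e⟩ := exists_equiv_K0 hd hQ
  rw [Nat.card_congr e.toEquiv, card_K0]

/-- orbit-stabiliser step inside a subgroup -/
theorem card_step {G α : Type*} [Group G] [MulAction G α] (K : Subgroup G) (x : α) :
    Nat.card ↥(K ⊓ MulAction.stabilizer G x) * (MulAction.orbit K x).ncard = Nat.card K := by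
  have h := Subgroup.card_mul_index (MulAction.stabilizer K x)
  rw [MulAction.index_stabilizer] at h
  have h1 : MulAction.stabilizer K x = (K ⊓ MulAction.stabilizer G x).subgroupOf K := by
    ext ⟨g, hg⟩
    rw [MulAction.mem_stabilizer_iff, Subgroup.mem_subgroupOf, Subgroup.mem_inf,
      MulAction.mem_stabilizer_iff]
    exact ⟨fun h => ⟨hg, h⟩, fun h => h.2⟩
  rw [h1, Nat.card_congr (Subgroup.subgroupOfEquivOfLe inf_le_left).toEquiv] at h
  exact h

theorem exists_quartet {d : Finset GolayPt} (hd : d ∈ dodecads) : ∃ Q, Q ∈ quartets d := by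
  obtain ⟨g, hg, e⟩ := Cfsg.Agent.Lib.Helper33Trans.dodecad_trans (dec_mem_dodecads d0_mem) hd
  exact ⟨g • Q0, e ▸ smul_mem_quartets hg Q0_mem⟩

theorem orbit_eq {d : Finset GolayPt} (hd : d ∈ dodecads) {Q : Finset (Finset GolayPt)}
    (hQ : Q ∈ quartets d) : MulAction.orbit ↥(MulAction.stabilizer M24 d) Q = quartets d := by
  ext Y
  constructor
  · rintro ⟨⟨⟨g, hg⟩, hgd⟩, rfl⟩
    have h1 : g • d = d := hgd
    show g • Q ∈ quartets d
    have h := smul_mem_quartets hg hQ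
    rwa [h1] at h
  · intro hY
    obtain ⟨g, hg, gd, gQ⟩ := quartet_trans hd hQ hY
    exact ⟨⟨⟨g, hg⟩, gd⟩, gQ⟩

theorem ncard_quartets {d : Finset GolayPt} (hd : d ∈ dodecads) : (quartets d).ncard = 220 := by
  obtain ⟨Q, hQ⟩ := exists_quartet hd
  have h := card_step (MulAction.stabilizer M24 d) Q
  rw [orbit_eq hd hQ, card_stab hd hQ, Cfsg.Agent.S0382.result d hd] at h
  omega

end Cfsg.Agent.Lib.Helper93QuartetTr
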