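import Mathlib
import Cfsg.Prelude.Def_Transfer
import Cfsg.Prelude.Def_PLocal
import Cfsg.Prelude.Def_CaseTheorems

/-!
Vocabulary of PROJECT 3761 (row S3761: p-groups with a self-centralizing cyclic normal subgroup).
`Dat G p n U`: a generator `u` of `U` (order `p^n`) and the action homomorphism
`κ : G →* (ZMod (p^n))ˣ`, `g u g⁻¹ = u ^ (κ g).val`, with kernel `U`.
Exponents of elements of `U` are written as `x ^ a.val` with `a : ZMod (p^n)`; the `zp_*` lemmas are the calculus.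
-/

set_option autoImplicit false
set_option linter.unusedSectionVars false

namespace Cfsg.Agent.Helper93SCDefs

section zp
variable {G : Type*} [Group G] {N : ℕ} [NeZero N] {x : G}

theorem zp_natCast (hx : x ^ N = 1) (m : ℕ) : x ^ ((m : ZMod N)).val = x ^ m := by
  rw [ZMod.val_natCast, ← pow_eq_pow_mod m hx]

theorem zp_add (hx : x ^ N = 1) (a b : ZMod N) : x ^ (a + b).val = x ^ a.val * x ^ b.val := by
  rw [ZMod.val_add, ← pow_eq_pow_mod _ hx, pow_add]

theorem zp_mul (hx : x ^ N = 1) (a b : ZMod N) : x ^ (a * b).val = (x ^ a.val) ^ b.val := by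
  rw [ZMod.val_mul, ← pow_eq_pow_mod _ hx, pow_mul]

theorem zp_zero : x ^ (0 : ZMod N).val = 1 := by
  rw [ZMod.val_zero, pow_zero]

theorem zp_one (hx : x ^ N = 1) : x ^ (1 : ZMod N).val = x := by
  have := zp_natCast hx 1
  simpa using this

theorem zp_neg (hx : x ^ N = 1) (a : ZMod N) : x ^ (-a).val = (x ^ a.val)⁻¹ := by
  rw [eq_inv_iff_mul_eq_one, ← zp_add hx, neg_add_cancel, zp_zero]

theorem zp_pow (hx : x ^ N = 1) (a : ZMod N) : (x ^ a.val) ^ N = 1 := by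
  rw [← pow_mul, mul_comm, pow_mul, hx, one_pow]

theorem zp_inj (hx : orderOf x = N) {a b : ZMod N} (h : x ^ a.val = x ^ b.val) : a = b := by
  have h1 := pow_eq_pow_iff_modEq.mp h
  rw [hx] at h1
  have h2 := (ZMod.natCast_eq_natCast_iff _ _ _).mpr h1
  simpa using h2

theorem zp_eq_one_iff (hx : orderOf x = N) {a : ZMod N} : x ^ a.val = 1 ↔ a = 0 := by
  constructor
  · intro h
    exact zp_inj hx (by rw [h, zp_zero])
  · rintro rfl
    exact zp_zero

theorem mem_zpowers_iff_zp (hx : orderOf x = N) {y : G} :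
    y ∈ Subgroup.zpowers x ↔ ∃ a : ZMod N, y = x ^ a.val := by
  have hx1 : x ^ N = 1 := by rw [← hx]; exact pow_orderOf_eq_one x
  constructor
  · intro hy
    obtain ⟨i, rfl⟩ := Subgroup.mem_zpowers_iff.mp hy
    refine ⟨(i : ZMod N), ?_⟩
    have h1 : ((((i : ZMod N)).val : ℤ)) ≡ i [ZMOD (N : ℤ)] := by
      rw [← ZMod.intCast_eq_intCast_iff]
      simp
    rw [← zpow_natCast]
    rw [zpow_eq_zpow_iff_modEq, hx]
    exact h1.symm
  · rintro ⟨a, rfl⟩
    exact Subgroup.pow_mem _ (Subgroup.mem_zpowers x) _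

end zp

/-- The action data of a self-centralizing cyclic normal subgroup `U = ⟨u⟩` of order `p^n`. -/
structure Dat (G : Type*) [Group G] (p n : ℕ) (U : Subgroup G) where
  u : G
  hu : orderOf u = p ^ n
  hU : U = Subgroup.zpowers u
  κ : G →* (ZMod (p ^ n))ˣ
  hκ : ∀ g : G, g * u * g⁻¹ = u ^ ((κ g : ZMod (p ^ n)).val)
  hker : ∀ g : G, κ g = 1 ↔ g ∈ U

/-- `k ≡ 1 mod p^(n-1)`. -/
def Near (p n : ℕ) (k : (ZMod (p ^ n))ˣ) : Prop :=
  ∃ t : ℕ, (k : ZMod (p ^ n)) = 1 + (t : ZMod (p ^ n)) * (p : ZMod (p ^ n)) ^ (n - 1)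

namespace Dat
variable {G : Type*} [Group G] {p n : ℕ} [Fact p.Prime] {U : Subgroup G} (D : Dat G p n U)

theorem u_pow : D.u ^ (p ^ n) = 1 := by
  rw [← D.hu]; exact pow_orderOf_eq_one _

theorem u_mem : D.u ∈ U := by
  exact (SetLike.ext_iff.mp D.hU _).mpr (Subgroup.mem_zpowers _)

theorem mem_iff {x : G} : x ∈ U ↔ ∃ a : ZMod (p ^ n), x = D.u ^ a.val := by
  have h : x ∈ U ↔ x ∈ Subgroup.zpowers D.u := SetLike.ext_iff.mp D.hU x
  rw [h]; exact mem_zpowers_iff_zp D.hu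

theorem conj_zp (g : G) (a : ZMod (p ^ n)) :
    g * D.u ^ a.val * g⁻¹ = D.u ^ ((D.κ g : ZMod (p ^ n)) * a).val := by
  rw [← conj_pow, D.hκ, zp_mul D.u_pow]

end Dat

end Cfsg.Agent.Helper93SCDefs
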