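import Cfsg.Agent.Lib.Helper43SpDefs2
import Cfsg.Agent.Lib.Helper36SpTWire
import Cfsg.Agent.Lib.Helper36SpXbasic
import Cfsg.Agent.Lib.Helper54Spdext2

set_option autoImplicit false

/-! Project 243, piece `dsym`. -/

namespace Cfsg.Agent.Lib.Helper93SpDsym

open Matrix Cfsg.Agent.Lib.Helper43BP Cfsg.Agent.Lib.Helper43St Cfsg.Agent.Lib.Helper43Sp

variable {m : ℕ} {F : Type*} [Field F] {P : Type*} [Group P] (G : GC m F P)

theorem g_sym (a b : I (m + 3)) (t : F) (hab : ab a ≠ ab b)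
    (g_quad : ∀ (σ : Equiv.Perm (Fin (m + 3))) (c d : I 2), c ≠ d → ∀ t : F,
      G.θ σ * G.ι (X c d t) * (G.θ σ)⁻¹ = G.x (e2 (σ 0) (σ 1) c) (e2 (σ 0) (σ 1) d) t) :
    G.x a b t = G.x (ng b) (ng a) (-(sg F a * sg F b * t)) := by
  obtain ⟨σ, h0, h1⟩ := Helper54Spdext2.ext2p (ab a) (ab b) hab
  have ea : e2 (σ 0) (σ 1) (lw 0 a) = a := by
    rw [h0, h1]; rcases a with a | a <;> rfl
  have eb : e2 (σ 0) (σ 1) (lw 1 b) = b := by
    rw [h0, h1]; rcases b with b | b <;> rfl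
  have ea' : e2 (σ 0) (σ 1) (ng (lw 0 a)) = ng a := by
    rw [h0, h1]; rcases a with a | a <;> rfl
  have eb' : e2 (σ 0) (σ 1) (ng (lw 1 b)) = ng b := by
    rw [h0, h1]; rcases b with b | b <;> rfl
  have sa : sg F (lw 0 a : I 2) = sg F a := by rcases a with a | a <;> rfl
  have sb : sg F (lw 1 b : I 2) = sg F b := by rcases b with b | b <;> rfl
  have hne : ab (lw 0 a : I 2) ≠ ab (lw 1 b : I 2) := by
    rcases a with a | a <;> rcases b with b | b <;> simp [ab, lw]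
  have hne1 : (lw 0 a : I 2) ≠ lw 1 b := fun e => hne (congrArg ab e)
  have hne2 : ng (lw 1 b : I 2) ≠ ng (lw 0 a) := fun e => hne1 (Helper36SpXbasic.ng_inj e).symm
  have k1 := g_quad σ (lw 0 a) (lw 1 b) hne1 t
  have k2 := g_quad σ (ng (lw 1 b)) (ng (lw 0 a)) hne2 (-(sg F a * sg F b * t))
  rw [ea, eb] at k1
  rw [ea', eb'] at k2
  rw [← k1, ← k2, Helper36SpXbasic.X_sym (lw 0 a) (lw 1 b) hne t Helper36SpTWire.X_val, sa, sb]

end Cfsg.Agent.Lib.Helper93SpDsym
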