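import Mathlib
import Cfsg.Prelude.Def_Sporadic_a

set_option autoImplicit false
set_option linter.unusedSectionVars false
set_option linter.unnecessarySeqFocus false

namespace Cfsg.Agent.Lib.Helper94Code

open Finset

variable {ι : Type*} [Fintype ι] [DecidableEq ι]

/-- support of a binary word -/
def supp (u : ι → ZMod 2) : Finset ι := univ.filter fun i => u i ≠ 0

/-- indicator word of a set -/
def ind (s : Finset ι) : ι → ZMod 2 := fun i => if i ∈ s then 1 else 0

theorem hammingNorm_eq (u : ι → ZMod 2) : hammingNorm u = (supp u).card := rfl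

theorem mem_supp {u : ι → ZMod 2} {i : ι} : i ∈ supp u ↔ u i ≠ 0 := by simp [supp]

theorem zmod2_cases (x : ZMod 2) : x = 0 ∨ x = 1 := by
  revert x; decide

theorem mem_supp' {u : ι → ZMod 2} {i : ι} : i ∈ supp u ↔ u i = 1 := by
  rw [mem_supp]
  rcases zmod2_cases (u i) with h | h <;> simp [h]

theorem supp_ind (s : Finset ι) : supp (ind s) = s := by
  ext i; simp [mem_supp, ind]

theorem ind_supp (u : ι → ZMod 2) : ind (supp u) = u := by
  funext i
  rcases zmod2_cases (u i) with h | h <;> simp [ind, mem_supp, h]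

theorem supp_injective : Function.Injective (supp : (ι → ZMod 2) → Finset ι) := by
  intro u v h
  rw [← ind_supp u, h, ind_supp]

/-- words correspond to subsets -/
def wordEquiv : (ι → ZMod 2) ≃ Finset ι where
  toFun := supp
  invFun := ind
  left_inv := ind_supp
  right_inv := supp_ind

theorem supp_sub (u v : ι → ZMod 2) : supp (u - v) = symmDiff (supp u) (supp v) := by
  ext i
  rw [Finset.mem_symmDiff, mem_supp, mem_supp, mem_supp, Pi.sub_apply]
  rcases zmod2_cases (u i) with h | h <;> rcases zmod2_cases (v i) with h' | h' <;>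
    simp [h, h']

theorem supp_add (u v : ι → ZMod 2) : supp (u + v) = symmDiff (supp u) (supp v) := by
  ext i
  rw [Finset.mem_symmDiff, mem_supp, mem_supp, mem_supp, Pi.add_apply]
  rcases zmod2_cases (u i) with h | h <;> rcases zmod2_cases (v i) with h' | h' <;>
    simp [h, h'] <;> decide

theorem supp_zero : supp (0 : ι → ZMod 2) = ∅ := by
  ext i; simp [mem_supp]

theorem supp_eq_empty {u : ι → ZMod 2} : supp u = ∅ ↔ u = 0 := by
  constructor
  · intro h
    apply supp_injective
    rw [h, supp_zero]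
  · rintro rfl; exact supp_zero

theorem card_symmDiff_add (s t : Finset ι) :
    (symmDiff s t).card + 2 * (s ∩ t).card = s.card + t.card := by
  have h1 : symmDiff s t = (s \ t) ∪ (t \ s) := rfl
  have h2 : Disjoint (s \ t) (t \ s) := by
    rw [Finset.disjoint_left]
    intro a ha hb
    simp only [mem_sdiff] at ha hb
    exact ha.2 hb.1
  rw [h1, card_union_of_disjoint h2]
  have h3 := card_sdiff_add_card_inter s t
  have h4 := card_sdiff_add_card_inter t s
  rw [inter_comm t s] at h4
  omega

theorem dot_eq (u v : ι → ZMod 2) : ∑ i, u i * v i = ((supp u ∩ supp v).card : ZMod 2) := by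
  have : ∀ i, u i * v i = if i ∈ supp u ∩ supp v then 1 else 0 := by
    intro i
    rcases zmod2_cases (u i) with h | h <;> rcases zmod2_cases (v i) with h' | h' <;>
      simp [mem_inter, mem_supp, h, h']
  simp only [this]
  rw [Finset.sum_ite_mem]
  simp

theorem even_inter_of_dot {u v : ι → ZMod 2} (h : ∑ i, u i * v i = 0) :
    Even (supp u ∩ supp v).card := by
  rw [dot_eq] at h
  exact (ZMod.natCast_eq_zero_iff_even).mp h

theorem card_weight_eq (k : ℕ) :
    (univ.filter fun u : ι → ZMod 2 => hammingNorm u = k).card = (Fintype.card ι).choose k := by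
  rw [← Finset.card_univ, ← Finset.card_powersetCard]
  apply Finset.card_equiv wordEquiv
  intro u
  simp only [mem_filter, mem_univ, true_and, mem_powersetCard, subset_univ]
  rfl

theorem card_weight_le (m : ℕ) :
    (univ.filter fun u : ι → ZMod 2 => hammingNorm u ≤ m).card =
      ∑ k ∈ range (m + 1), (Fintype.card ι).choose k := by
  rw [Finset.card_eq_sum_card_fiberwise (f := hammingNorm) (t := range (m + 1))]
  · apply Finset.sum_congr rfl
    intro k hk
    rw [← card_weight_eq k]
    congr 1
    ext u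
    simp only [mem_filter, mem_univ, true_and, mem_range] at hk ⊢
    constructor
    · exact fun h => h.2
    · intro h; exact ⟨by omega, h⟩
  · intro u hu
    simp only [coe_filter, mem_univ, true_and, Set.mem_ofPred_eq, coe_range, Set.mem_Iio] at hu ⊢
    omega

/-- An abstract extended binary Golay code. -/
structure GolayLike (C : Submodule (ZMod 2) (Fin 24 → ZMod 2)) : Prop where
  dim : Module.finrank (ZMod 2) C = 12
  orth : ∀ v ∈ C, ∀ w ∈ C, ∑ i, v i * w i = 0
  minwt : ∀ w ∈ C, w ≠ 0 → 8 ≤ hammingNorm w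

namespace GolayLike

variable {C : Submodule (ZMod 2) (Fin 24 → ZMod 2)}

theorem pair (h : GolayLike C) {u u' : Fin 24 → ZMod 2} (hne : u ≠ u') (hC : u - u' ∈ C)
    (h4 : hammingNorm u ≤ 4) (h4' : hammingNorm u' ≤ 4) :
    hammingNorm u = 4 ∧ hammingNorm u' = 4 ∧ Disjoint (supp u) (supp u') := by
  have h8 := h.minwt _ hC (sub_ne_zero.mpr hne)
  rw [hammingNorm_eq, supp_sub] at h8
  rw [hammingNorm_eq] at h4 h4' ⊢
  rw [hammingNorm_eq]
  have := card_symmDiff_add (supp u) (supp u')
  refine ⟨by omega, by omega, ?_⟩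
  rw [Finset.disjoint_iff_inter_eq_empty, ← Finset.card_eq_zero]
  omega

theorem card_quot (h : GolayLike C) : Nat.card ((Fin 24 → ZMod 2) ⧸ C) = 4096 := by
  have h1 := Submodule.card_eq_card_quotient_mul_card C
  have h2 : Nat.card C = 2 ^ 12 := by
    rw [Module.natCard_eq_pow_finrank (K := ZMod 2), h.dim, Nat.card_zmod]
  have h3 : Nat.card (Fin 24 → ZMod 2) = 2 ^ 24 := by
    simp [Nat.card_eq_fintype_card]
  rw [h2, h3] at h1
  omega

open Classical in
theorem fiber (h : GolayLike C) (c : (Fin 24 → ZMod 2) ⧸ C) :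
    (∃ u, (univ.filter fun u : Fin 24 → ZMod 2 => hammingNorm u ≤ 4 ∧ Submodule.Quotient.mk u = c) = {u} ∧
      hammingNorm u ≤ 3) ∨
    ((univ.filter fun u : Fin 24 → ZMod 2 => hammingNorm u ≤ 4 ∧ Submodule.Quotient.mk u = c).card = 6 ∧
      ∀ u, Submodule.Quotient.mk u = c → hammingNorm u ≤ 4 → hammingNorm u = 4) := by
  have : Fintype ((Fin 24 → ZMod 2) ⧸ C) := Fintype.ofFinite _
  set mk : (Fin 24 → ZMod 2) → (Fin 24 → ZMod 2) ⧸ C := Submodule.Quotient.mk with hmk
  have hmkeq : ∀ u v, mk u = mk v ↔ u - v ∈ C := fun u v => Submodule.Quotient.eq C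
  set T := univ.filter fun u : Fin 24 → ZMod 2 => hammingNorm u ≤ 4 with hT
  set T3 := univ.filter fun u : Fin 24 → ZMod 2 => hammingNorm u ≤ 3 with hT3
  have hTc : T.card = 12951 := by
    rw [hT, card_weight_le]; simp [Finset.sum_range_succ, Nat.choose]
  have hT3c : T3.card = 2325 := by
    rw [hT3, card_weight_le]; simp [Finset.sum_range_succ, Nat.choose]
  set A := T3.image mk with hA
  have hAc : A.card = 2325 := by
    rw [hA, Finset.card_image_of_injOn, hT3c]
    intro u hu v hv huv
    by_contra hne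
    simp only [hT3, coe_filter, mem_univ, true_and, Set.mem_ofPred_eq] at hu hv
    have := h.pair hne ((hmkeq u v).mp huv) (by omega) (by omega)
    omega
  have hF : ∀ c, (univ.filter fun u : Fin 24 → ZMod 2 => hammingNorm u ≤ 4 ∧ mk u = c) =
      T.filter fun u => mk u = c := by
    intro c; rw [hT, Finset.filter_filter]
  have hA1 : ∀ c ∈ A, ∃ u, (T.filter fun u => mk u = c) = {u} ∧ hammingNorm u ≤ 3 := by
    intro c hc
    obtain ⟨u, hu, rfl⟩ := Finset.mem_image.mp hc
    simp only [hT3, mem_filter, mem_univ, true_and] at hu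
    refine ⟨u, ?_, hu⟩
    ext v
    simp only [hT, mem_filter, mem_univ, true_and, mem_singleton]
    constructor
    · rintro ⟨hv, hvu⟩
      by_contra hne
      have := h.pair hne ((hmkeq v u).mp hvu) hv (by omega)
      omega
    · rintro rfl
      exact ⟨by omega, rfl⟩
  have hA4 : ∀ c ∉ A, ∀ u, mk u = c → hammingNorm u ≤ 4 → hammingNorm u = 4 := by
    intro c hc u hu h4
    by_contra hne
    apply hc
    exact Finset.mem_image.mpr ⟨u, by simp only [hT3, mem_filter, mem_univ, true_and]; omega, hu⟩
  have hA6 : ∀ c ∈ Aᶜ, (T.filter fun u => mk u = c).card ≤ 6 := by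
    intro c hc
    rw [Finset.mem_compl] at hc
    have hdisj : ((T.filter fun u => mk u = c : Finset _) : Set (Fin 24 → ZMod 2)).PairwiseDisjoint supp := by
      intro u hu v hv hne
      simp only [hT, coe_filter, mem_filter, mem_univ, true_and, Set.mem_ofPred_eq] at hu hv
      exact (h.pair hne ((hmkeq u v).mp (hu.2.trans hv.2.symm)) hu.1 hv.1).2.2
    have h1 := Finset.card_biUnion hdisj
    have h2 : ∑ u ∈ T.filter (fun u => mk u = c), (supp u).card =
        ∑ u ∈ T.filter (fun u => mk u = c), 4 := by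
      apply Finset.sum_congr rfl
      intro u hu
      simp only [hT, mem_filter, mem_univ, true_and] at hu
      exact hA4 c hc u hu.2 hu.1
    rw [h2, Finset.sum_const, smul_eq_mul] at h1
    have h3 : ((T.filter fun u => mk u = c).biUnion supp).card ≤ 24 := by
      have := Finset.card_le_univ ((T.filter fun u => mk u = c).biUnion supp)
      simpa using this
    omega
  have hsum : T.card = ∑ c, (T.filter fun u => mk u = c).card :=
    Finset.card_eq_sum_card_fiberwise (fun _ _ => Finset.mem_coe.mpr (Finset.mem_univ _))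
  have hsplit : ∑ c, (T.filter fun u => mk u = c).card =
      ∑ c ∈ A, (T.filter fun u => mk u = c).card + ∑ c ∈ Aᶜ, (T.filter fun u => mk u = c).card :=
    (Finset.sum_add_sum_compl A _).symm
  have hsA : ∑ c ∈ A, (T.filter fun u => mk u = c).card = 2325 := by
    rw [← hAc, Finset.card_eq_sum_ones]
    apply Finset.sum_congr rfl
    intro c hc
    obtain ⟨u, hu, _⟩ := hA1 c hc
    rw [hu, Finset.card_singleton]
  have hAcc : Aᶜ.card = 1771 := by
    rw [Finset.card_compl, hAc, ← Nat.card_eq_fintype_card, h.card_quot]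
  have hs6 : ∑ c ∈ Aᶜ, (T.filter fun u => mk u = c).card = ∑ _c ∈ Aᶜ, 6 := by
    rw [Finset.sum_const, hAcc, smul_eq_mul]
    omega
  have hall := (Finset.sum_eq_sum_iff_of_le hA6).mp hs6
  rw [hF c]
  by_cases hc : c ∈ A
  · left; exact hA1 c hc
  · right
    exact ⟨hall c (Finset.mem_compl.mpr hc), hA4 c hc⟩

/-- The low-weight words of the coset `w + C`. -/
def leaders (C : Submodule (ZMod 2) (Fin 24 → ZMod 2)) (w : Fin 24 → ZMod 2) :
    Set (Fin 24 → ZMod 2) := {u | u - w ∈ C ∧ hammingNorm u ≤ 4}

theorem leaders_disjoint (h : GolayLike C) {w u u' : Fin 24 → ZMod 2} (hu : u ∈ leaders C w)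
    (hu' : u' ∈ leaders C w) (hne : u ≠ u') : Disjoint (supp u) (supp u') := by
  have : u - u' ∈ C := by
    have := C.sub_mem hu.1 hu'.1
    simpa using this
  exact (h.pair hne this hu.2 hu'.2).2.2

theorem coset (h : GolayLike C) (w : Fin 24 → ZMod 2) :
    (∃ u, leaders C w = {u} ∧ hammingNorm u ≤ 3) ∨
    ((leaders C w).ncard = 6 ∧ ∀ u ∈ leaders C w, hammingNorm u = 4) := by
  classical
  have hset : leaders C w = ((univ.filter fun u : Fin 24 → ZMod 2 =>
      hammingNorm u ≤ 4 ∧ (Submodule.Quotient.mk u : (Fin 24 → ZMod 2) ⧸ C) = Submodule.Quotient.mk w :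
      Finset _) : Set _) := by
    ext u
    simp only [leaders, Set.mem_ofPred_eq, coe_filter, mem_univ, true_and]
    rw [Submodule.Quotient.eq]
    tauto
  rcases h.fiber (Submodule.Quotient.mk w) with ⟨u, hu, hu3⟩ | ⟨h6, h4⟩
  · left
    refine ⟨u, ?_, hu3⟩
    rw [hset, hu]; simp
  · right
    refine ⟨?_, ?_⟩
    · rw [hset, Set.ncard_coe_finset]; exact h6
    · intro u hu
      exact h4 u ((Submodule.Quotient.eq C).mpr hu.1) hu.2

end GolayLike

end Cfsg.Agent.Lib.Helper94Code
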