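import Cfsg.Agent.Lib.Helper94Code

set_option autoImplicit false

namespace Cfsg.Agent.Lib.Helper94Code

open Finset

namespace GolayLike

variable {C : Submodule (ZMod 2) (Fin 24 → ZMod 2)}

theorem exists_octad (h : GolayLike C) (s : Finset (Fin 24)) (hs : s.card = 5) :
    ∃ c ∈ C, hammingNorm c = 8 ∧ s ⊆ supp c := by
  classical
  obtain ⟨p, hp⟩ : s.Nonempty := by
    rw [← Finset.card_pos]; omega
  set t := s.erase p with ht
  have htc : t.card = 4 := by rw [ht, Finset.card_erase_of_mem hp, hs]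
  have hpt : p ∉ t := Finset.notMem_erase p s
  have hwt : hammingNorm (ind t) = 4 := by rw [hammingNorm_eq, supp_ind, htc]
  have hwL : ind t ∈ leaders C (ind t) := ⟨by simp, by omega⟩
  rcases h.coset (ind t) with ⟨u, hu, hu3⟩ | ⟨h6, h4⟩
  · rw [hu] at hwL
    have : ind t = u := hwL
    rw [this] at hwt; omega
  have hfin : (leaders C (ind t)).Finite := Set.toFinite _
  set L := hfin.toFinset with hL
  have hLc : L.card = 6 := by rw [hL, ← Set.ncard_eq_toFinset_card _ hfin]; exact h6
  have hmemL : ∀ u, u ∈ L ↔ u ∈ leaders C (ind t) := fun u => Set.Finite.mem_toFinset hfin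
  have hdisj : (L : Set (Fin 24 → ZMod 2)).PairwiseDisjoint supp := by
    intro u hu v hv hne
    exact h.leaders_disjoint ((hmemL u).mp hu) ((hmemL v).mp hv) hne
  have h1 := Finset.card_biUnion hdisj
  have h2 : ∑ u ∈ L, (supp u).card = ∑ u ∈ L, 4 := by
    apply Finset.sum_congr rfl
    intro u hu
    exact h4 u ((hmemL u).mp hu)
  rw [h2, Finset.sum_const, smul_eq_mul, hLc] at h1
  have huniv : L.biUnion supp = univ := by
    apply Finset.eq_univ_of_card
    rw [h1]; simp
  have hpU : p ∈ L.biUnion supp := by rw [huniv]; exact Finset.mem_univ p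
  obtain ⟨u', hu'L, hpu'⟩ := Finset.mem_biUnion.mp hpU
  have hu' := (hmemL u').mp hu'L
  have hne : u' ≠ ind t := by
    rintro rfl
    rw [supp_ind] at hpu'; exact hpt hpu'
  have hd := h.leaders_disjoint hu' hwL hne
  rw [supp_ind] at hd
  refine ⟨u' - ind t, hu'.1, ?_, ?_⟩
  · rw [hammingNorm_eq, supp_sub, supp_ind]
    have e1 := card_symmDiff_add (supp u') t
    have e2 : (supp u' ∩ t).card = 0 := by
      rw [Finset.card_eq_zero, ← Finset.disjoint_iff_inter_eq_empty]; exact hd
    have e3 : (supp u').card = 4 := h4 u' hu'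
    omega
  · rw [supp_sub, supp_ind]
    intro i hi
    rw [Finset.mem_symmDiff]
    by_cases hip : i = p
    · subst hip
      exact Or.inl ⟨hpu', hpt⟩
    · right
      have hit : i ∈ t := Finset.mem_erase.mpr ⟨hip, hi⟩
      exact ⟨hit, fun hc => (Finset.disjoint_left.mp hd) hc hit⟩

theorem octad_unique (h : GolayLike C) {s : Finset (Fin 24)} (hs : s.card = 5)
    {c c' : Fin 24 → ZMod 2} (hc : c ∈ C) (hc' : c' ∈ C) (h8 : hammingNorm c = 8)
    (h8' : hammingNorm c' = 8) (hsc : s ⊆ supp c) (hsc' : s ⊆ supp c') : c = c' := by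
  by_contra hne
  have h1 := h.minwt _ (C.sub_mem hc hc') (sub_ne_zero.mpr hne)
  rw [hammingNorm_eq, supp_sub] at h1
  rw [hammingNorm_eq] at h8 h8'
  have h2 := card_symmDiff_add (supp c) (supp c')
  have h3 : s.card ≤ (supp c ∩ supp c').card :=
    Finset.card_le_card (Finset.subset_inter hsc hsc')
  omega

theorem steiner (h : GolayLike C) :
    Cfsg.IsSteinerSystem 5 8 (Cfsg.wordsOfWeight (C : Set (Fin 24 → ZMod 2)) 8) := by
  refine ⟨fun b hb => hb.2, fun s hs => ?_⟩
  obtain ⟨c, hc, h8, hsc⟩ := h.exists_octad s hs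
  refine ⟨supp c, ⟨⟨⟨c, hc, rfl⟩, h8⟩, hsc⟩, ?_⟩
  rintro b ⟨⟨⟨c', hc', rfl⟩, h8'⟩, hsc'⟩
  have := h.octad_unique hs hc hc' h8 h8' hsc hsc'
  rw [this]; rfl

theorem exists_weight_eight (h : GolayLike C) : ∃ w ∈ C, hammingNorm w = 8 := by
  obtain ⟨c, hc, h8, _⟩ := h.exists_octad (Finset.univ.filter fun i : Fin 24 => i.val < 5) (by decide)
  exact ⟨c, hc, h8⟩

/-- every codeword is a sum of words of weight 8 -/
theorem mem_span_octads (h : GolayLike C) : ∀ n : ℕ, ∀ c ∈ C, hammingNorm c ≤ n →
    c ∈ Submodule.span (ZMod 2) {w : Fin 24 → ZMod 2 | w ∈ C ∧ hammingNorm w = 8} := by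
  intro n
  induction n with
  | zero =>
    intro c _ h0
    have : c = 0 := by
      have : hammingNorm c = 0 := by omega
      exact hammingNorm_eq_zero.mp this
    rw [this]; exact Submodule.zero_mem _
  | succ n ih =>
    intro c hc hn
    by_cases h0 : c = 0
    · rw [h0]; exact Submodule.zero_mem _
    have h8 := h.minwt c hc h0
    rw [hammingNorm_eq] at h8
    obtain ⟨s, hsc, hs5⟩ := Finset.exists_subset_card_eq (s := supp c) (n := 5) (by omega)
    obtain ⟨o, ho, ho8, hso⟩ := h.exists_octad s hs5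
    have h1 : hammingNorm (c - o) ≤ n := by
      rw [hammingNorm_eq] at hn ho8 ⊢
      rw [supp_sub]
      have h2 := card_symmDiff_add (supp c) (supp o)
      have h3 : s.card ≤ (supp c ∩ supp o).card :=
        Finset.card_le_card (Finset.subset_inter hsc hso)
      omega
    have h2 := ih (c - o) (C.sub_mem hc ho) h1
    have h3 : o ∈ Submodule.span (ZMod 2) {w : Fin 24 → ZMod 2 | w ∈ C ∧ hammingNorm w = 8} :=
      Submodule.subset_span ⟨ho, ho8⟩
    have := Submodule.add_mem _ h2 h3
    simpa using this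

theorem span_octads (h : GolayLike C) :
    Submodule.span (ZMod 2) {w : Fin 24 → ZMod 2 | w ∈ C ∧ hammingNorm w = 8} = C := by
  apply le_antisymm
  · rw [Submodule.span_le]
    intro w hw
    exact hw.1
  · intro c hc
    exact h.mem_span_octads _ c hc le_rfl

theorem doubly_even (h : GolayLike C) : ∀ n : ℕ, ∀ c ∈ C, hammingNorm c ≤ n → 4 ∣ hammingNorm c := by
  intro n
  induction n with
  | zero =>
    intro c _ h0
    have : hammingNorm c = 0 := by omega
    rw [this]; exact dvd_zero 4
  | succ n ih =>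
    intro c hc hn
    by_cases h0 : c = 0
    · rw [h0]; simp
    have h8 := h.minwt c hc h0
    rw [hammingNorm_eq] at h8
    obtain ⟨s, hsc, hs5⟩ := Finset.exists_subset_card_eq (s := supp c) (n := 5) (by omega)
    obtain ⟨o, ho, ho8, hso⟩ := h.exists_octad s hs5
    have h2 := card_symmDiff_add (supp c) (supp o)
    have h3 : s.card ≤ (supp c ∩ supp o).card :=
      Finset.card_le_card (Finset.subset_inter hsc hso)
    have h1 : hammingNorm (c - o) ≤ n := by
      rw [hammingNorm_eq] at hn ho8 ⊢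
      rw [supp_sub]
      omega
    have h4 := ih (c - o) (C.sub_mem hc ho) h1
    have h5 := even_inter_of_dot (h.orth c hc o ho)
    rw [hammingNorm_eq, supp_sub] at h4
    rw [hammingNorm_eq] at ho8 ⊢
    obtain ⟨k, hk⟩ := h5
    omega

end GolayLike

end Cfsg.Agent.Lib.Helper94Code
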