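import Mathlib
import Cfsg.Prelude.Def_GeometricClasses
import Cfsg.Agent.Lib.Helper49Fam2
import Cfsg.Agent.Lib.Helper7QForms
import Cfsg.Agent.Lib.Helper7EluC1
import Cfsg.Agent.Lib.Helper87EluD

set_option autoImplicit false

namespace Cfsg.Agent.Lib.Helper94EluOPlus

open Module Cfsg Matrix

variable {F : Type*} [Field F]

/-- counting points through the vectors they contain -/
theorem card_points_mul [Fintype F] {V : Type*} [AddCommGroup V] [Module F V] (P : V → Prop)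
    (hP : ∀ (c : F) (v : V), c ≠ 0 → P v → P (c • v)) (hP0 : ¬ P 0) :
    Nat.card {W : Submodule F V // finrank F W = 1 ∧ ∃ v ∈ W, P v} * (Fintype.card F - 1)
      = Nat.card {v : V // P v} := by
  classical
  have hch : ∀ W : {W : Submodule F V // finrank F W = 1 ∧ ∃ v ∈ W, P v}, ∃ v ∈ W.1, P v :=
    fun W => W.2.2
  choose gen hgen hPgen using hch
  have hne : ∀ W, gen W ≠ 0 := fun W h => hP0 (h ▸ hPgen W)
  have hspan : ∀ (W : {W : Submodule F V // finrank F W = 1 ∧ ∃ v ∈ W, P v}) (w : V), w ∈ W.1 →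
      ∃ c : F, c • gen W = w := by
    intro W w hw
    have h1 := (finrank_eq_one_iff_of_nonzero' (⟨gen W, hgen W⟩ : W.1)
      (fun h => hne W (congrArg Subtype.val h))).mp W.2.1 ⟨w, hw⟩
    obtain ⟨c, hc⟩ := h1
    exact ⟨c, congrArg Subtype.val hc⟩
  let φ : {W : Submodule F V // finrank F W = 1 ∧ ∃ v ∈ W, P v} × Fˣ → {v : V // P v} :=
    fun p => ⟨(p.2 : F) • gen p.1, hP _ _ p.2.ne_zero (hPgen p.1)⟩
  have hφ : Function.Bijective φ := by
    constructor
    · rintro ⟨W, c⟩ ⟨W', c'⟩ h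
      have h1 : (c : F) • gen W = (c' : F) • gen W' := congrArg Subtype.val h
      have hWW : W = W' := by
        apply Subtype.ext
        apply le_antisymm
        · intro w hw
          obtain ⟨a, rfl⟩ := hspan W w hw
          have h2 : gen W = ((c : F)⁻¹ * c') • gen W' := by
            rw [mul_smul, ← h1, smul_smul, inv_mul_cancel₀ c.ne_zero, one_smul]
          rw [h2]
          exact W'.1.smul_mem _ (W'.1.smul_mem _ (hgen W'))
        · intro w hw
          obtain ⟨a, rfl⟩ := hspan W' w hw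
          have h2 : gen W' = ((c' : F)⁻¹ * c) • gen W := by
            rw [mul_smul, h1, smul_smul, inv_mul_cancel₀ c'.ne_zero, one_smul]
          rw [h2]
          exact W.1.smul_mem _ (W.1.smul_mem _ (hgen W))
      subst hWW
      have h3 : ((c : F) - c') • gen W = 0 := by rw [sub_smul, h1, sub_self]
      have h4 : (c : F) - c' = 0 := (smul_eq_zero.mp h3).resolve_right (hne W)
      have h5 : c = c' := Units.ext (sub_eq_zero.mp h4)
      rw [h5]
    · rintro ⟨v, hv⟩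
      have hv0 : v ≠ 0 := fun h => hP0 (h ▸ hv)
      let W : {W : Submodule F V // finrank F W = 1 ∧ ∃ v ∈ W, P v} :=
        ⟨Submodule.span F {v}, finrank_span_singleton hv0, v, Submodule.mem_span_singleton_self v, hv⟩
      obtain ⟨a, ha⟩ := Submodule.mem_span_singleton.mp (hgen W)
      have ha0 : a ≠ 0 := by
        intro h
        rw [h, zero_smul] at ha
        exact hne W ha.symm
      refine ⟨(W, Units.mk0 a⁻¹ (inv_ne_zero ha0)), ?_⟩
      apply Subtype.ext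
      show (a⁻¹ : F) • gen W = v
      rw [← ha, smul_smul, inv_mul_cancel₀ ha0, one_smul]
  rw [← Nat.card_congr (Equiv.ofBijective φ hφ), Nat.card_prod, Nat.card_eq_fintype_card (α := Fˣ),
    Fintype.card_units]

/-- the number of nonsingular points of the hyperbolic quadric -/
theorem card_nonsingular_points [Fintype F] (d : ℕ) :
    Fintype.card F * Nat.card {W : Submodule F (Fin d ⊕ Fin d → F) //
        finrank F W = 1 ∧ ∃ v ∈ W, Cfsg.quadFormPlus d F v ≠ 0}
      = Fintype.card F ^ d * (Fintype.card F ^ d - 1) := by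
  classical
  have h1 := card_points_mul (F := F) (fun v : Fin d ⊕ Fin d → F => Cfsg.quadFormPlus d F v ≠ 0)
    (by
      intro c v hc hv
      have : Cfsg.quadFormPlus d F (c • v) = c * c * Cfsg.quadFormPlus d F v := by
        unfold Cfsg.quadFormPlus
        rw [Finset.mul_sum]
        apply Finset.sum_congr rfl
        intro i _
        simp only [Pi.smul_apply, smul_eq_mul]
        ring
      rw [this]
      exact mul_ne_zero (mul_ne_zero hc hc) hv)
    (by simp [Cfsg.quadFormPlus])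
  have h2 := Cfsg.Agent.Lib.Helper7QForms.card_plus (F := F) d 0
  have h3 := Cfsg.Agent.Lib.Helper7QForms.cntQ_plus_zero (F := F) d
  rw [← h2] at h3
  have h4 : Nat.card {v : Fin d ⊕ Fin d → F // Cfsg.quadFormPlus d F v ≠ 0}
      + Nat.card {v : Fin d ⊕ Fin d → F // Cfsg.quadFormPlus d F v = 0}
      = Fintype.card F ^ (2 * d) := by
    rw [Nat.card_eq_fintype_card, Nat.card_eq_fintype_card, Fintype.card_subtype_compl,
      Fintype.card_fun]
    have := Fintype.card_subtype_le (fun v : Fin d ⊕ Fin d → F => Cfsg.quadFormPlus d F v = 0)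
    rw [Fintype.card_fun] at this
    simp only [Fintype.card_sum, Fintype.card_fin] at this ⊢
    rw [two_mul]
    omega
  have hq : 2 ≤ Fintype.card F := Fintype.one_lt_card
  generalize Nat.card {W : Submodule F (Fin d ⊕ Fin d → F) //
        finrank F W = 1 ∧ ∃ v ∈ W, Cfsg.quadFormPlus d F v ≠ 0} = N at h1 ⊢
  generalize Nat.card {v : Fin d ⊕ Fin d → F // Cfsg.quadFormPlus d F v ≠ 0} = M at h1 h4
  generalize Nat.card {v : Fin d ⊕ Fin d → F // Cfsg.quadFormPlus d F v = 0} = P at h3 h4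
  generalize Fintype.card F = q at *
  have hq1 : 1 ≤ q ^ d := Nat.one_le_pow _ _ (by omega)
  obtain ⟨q', rfl⟩ : ∃ q', q = q' + 1 := ⟨q - 1, by omega⟩
  have hq' : 0 < q' := by omega
  simp only [Nat.add_sub_cancel] at h1
  apply Nat.eq_of_mul_eq_mul_right hq'
  zify [hq1] at *
  have e1 : ((q' : ℤ) + 1) ^ (2 * d) = (((q' : ℤ) + 1) ^ d) ^ 2 := by rw [← pow_mul, mul_comm]
  have e2 : ((q' : ℤ) + 1) ^ (d + 1) = ((q' : ℤ) + 1) ^ d * (q' + 1) := pow_succ _ _
  rw [e1] at h3 h4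
  rw [e2] at h3
  generalize ((q' : ℤ) + 1) ^ d = X at *
  linear_combination ((q' : ℤ) + 1) * h1 + ((q' : ℤ) + 1) * h4 - h3

open Cfsg.Agent.Lib.Helper49Orth Cfsg.Agent.Lib.Helper49Forms Cfsg.Agent.Lib.Helper49Dickson
  Cfsg.Agent.Lib.Helper49CharTwoB Cfsg.Agent.Lib.Helper49Rank Cfsg.Agent.Lib.Helper49Fam2
  Cfsg.Agent.Lib.Helper18Hyp

theorem mem_Omega_iff [Fintype F] [CharP F 2] {d : ℕ} (hd : d ≠ 2)
    (g : ↥(Cfsg.isometryGroup F ⇑(QPlus d F))) :
    g ∈ Cfsg.Omega F ⇑(QPlus d F) ↔ Even (finrank F (fixSub (QPlus d F) g)) := by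
  have hq : Fintype.card F ≠ 2 ∨ Fintype.card (Fin d ⊕ Fin d) ≠ 4 := by
    right
    simp only [Fintype.card_sum, Fintype.card_fin]
    omega
  obtain ⟨vs, hvs, rfl⟩ := exists_list_refl_two (QPlus d F) (QPlus_nondegenerate d) hq g
  rw [char_two_criterion _ (QPlus_nondegenerate d) hq vs hvs]
  have h := dfun_prod (QPlus d F) (QPlus_nondegenerate d) vs hvs
  unfold dfun at h
  rw [Cfsg.Agent.Lib.Helper49Fam2.finrank_V, pow_mul] at h
  simp only [even_two, Even.neg_pow, one_pow, mul_one] at h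
  have hne : (-1 : ℤˣ) ≠ 1 := by decide
  rw [← neg_one_pow_eq_one_iff_even hne, ← neg_one_pow_eq_one_iff_even hne, h]

theorem quadFormPlus_eq_dot (d : ℕ) (v : Fin d ⊕ Fin d → F) :
    Cfsg.quadFormPlus d F v = (v ∘ Sum.inl) ⬝ᵥ (v ∘ Sum.inr) := rfl

/-- an involution of `Ω⁺_{2d}(q)`, `q` even, `d` odd, fixes a nonsingular vector -/
theorem exists_fixed_nonsingular [Fintype F] [CharP F 2] {d : ℕ} (hd : d ≠ 2) (hodd : Odd d)
    (g : ↥(Cfsg.isometryGroup F ⇑(QPlus d F))) (hg : g ∈ Cfsg.Omega F ⇑(QPlus d F))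
    (hg2 : ((g : Matrix.GeneralLinearGroup (Fin d ⊕ Fin d) F) : Matrix (Fin d ⊕ Fin d) (Fin d ⊕ Fin d) F)
      * ((g : Matrix.GeneralLinearGroup (Fin d ⊕ Fin d) F) : Matrix (Fin d ⊕ Fin d) (Fin d ⊕ Fin d) F) = 1) :
    ∃ v, QPlus d F v ≠ 0 ∧
      ((g : Matrix.GeneralLinearGroup (Fin d ⊕ Fin d) F) : Matrix (Fin d ⊕ Fin d) (Fin d ⊕ Fin d) F) *ᵥ v = v := by
  by_contra hcon
  push Not at hcon
  set X := ((g : Matrix.GeneralLinearGroup (Fin d ⊕ Fin d) F) : Matrix (Fin d ⊕ Fin d) (Fin d ⊕ Fin d) F)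
    with hX
  have hTS : TS (QPlus d F) (fixSub (QPlus d F) g) := by
    intro v hv
    by_contra h
    exact hcon v h ((mem_fixSub (QPlus d F)).mp hv)
  have h1 : finrank F (fixSub (QPlus d F) g) ≤ d :=
    hTS.finrank_le (QPlus_nondegenerate d) (Cfsg.Agent.Lib.Helper49Fam2.finrank_V d)
  have heven := (mem_Omega_iff hd g).mp hg
  let L : (Fin d ⊕ Fin d → F) →ₗ[F] (Fin d ⊕ Fin d → F) := Matrix.mulVecLin X - LinearMap.id
  have hker : LinearMap.ker L = fixSub (QPlus d F) g := by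
    ext v
    rw [LinearMap.mem_ker, mem_fixSub]
    simp only [L, LinearMap.sub_apply, Matrix.mulVecLin_apply, LinearMap.id_apply, sub_eq_zero, hX]
  have hrange : LinearMap.range L ≤ LinearMap.ker L := by
    rintro _ ⟨v, rfl⟩
    rw [LinearMap.mem_ker]
    simp only [L, LinearMap.sub_apply, Matrix.mulVecLin_apply, LinearMap.id_apply]
    rw [Matrix.mulVec_sub, Matrix.mulVec_mulVec, hg2, Matrix.one_mulVec]
    have h2 : (2 : F) = 0 := CharP.cast_eq_zero F 2
    have : v - X *ᵥ v - (X *ᵥ v - v) = (2 : F) • (v - X *ᵥ v) := by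
      rw [two_smul]; abel
    rw [this, h2, zero_smul]
  have h3 := LinearMap.finrank_range_add_finrank_ker L
  have h4 := Submodule.finrank_mono hrange
  rw [Cfsg.Agent.Lib.Helper49Fam2.finrank_V, hker] at h3
  rw [hker] at h4
  have h5 : finrank F (fixSub (QPlus d F) g) = d := by omega
  rw [h5] at heven
  exact (Nat.not_even_iff_odd.mpr hodd) heven

/-- a fixed-point-free isometry of order dividing `r` in `Ω⁺_{2d}(q)`, when `r ∣ q ^ d - 1` -/
theorem exists_semisimple_derangement [Fintype F] [CharP F 2] {d r : ℕ} [Fact r.Prime] (hd : d ≠ 2)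
    (hr : ¬ r ∣ Fintype.card F) (hrd : r ∣ Fintype.card F ^ d - 1) :
    ∃ g : ↥(Cfsg.isometryGroup F ⇑(QPlus d F)), g ∈ Cfsg.Omega F ⇑(QPlus d F) ∧ g ^ r = 1 ∧
      fixSub (QPlus d F) g = ⊥ := by
  classical
  have hrp : r.Prime := Fact.out
  obtain ⟨f, hf, hfe⟩ := Cfsg.Agent.Lib.Helper7EluC1.exists_end_max (F := F) r hr d
  have hc : orderOf ((Fintype.card F : ℕ) : ZMod r) ∣ d :=
    (Cfsg.Agent.Lib.Helper87EluD.dvd_pow_sub_one_iff (Fintype.card F) r d Fintype.card_pos).mp hrd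
  rw [Nat.mod_eq_zero_of_dvd hc, Submodule.finrank_eq_zero] at hfe
  set A : Matrix (Fin d) (Fin d) F := LinearMap.toMatrix' f with hA
  have hAr : A ^ r = 1 := by
    have h1 : A = LinearMap.toMatrixAlgEquiv' f := rfl
    rw [h1, ← map_pow, hf, map_one]
  have hAfix : ∀ u, A *ᵥ u = u → u = 0 := by
    intro u hu
    have : u ∈ Module.End.eigenspace f 1 := by
      rw [Module.End.mem_eigenspace_iff, one_smul, ← LinearMap.toMatrix'_mulVec, ← hA, hu]
    rw [hfe] at this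
    exact (Submodule.mem_bot F).mp this
  have hr1 : r - 1 + 1 = r := Nat.sub_add_cancel hrp.one_lt.le
  have hCA : A ^ (r - 1) * A = 1 := by rw [← pow_succ, hr1, hAr]
  set B : Matrix (Fin d) (Fin d) F := (A ^ (r - 1))ᵀ with hB
  have hBr : B ^ r = 1 := by
    rw [hB, ← Matrix.transpose_pow, ← pow_mul, mul_comm, pow_mul, hAr, one_pow, Matrix.transpose_one]
  have hdet : (A - 1).det ≠ 0 := by
    intro h0
    obtain ⟨v, hv0, hv⟩ := Matrix.exists_mulVec_eq_zero_iff.mpr h0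
    apply hv0
    apply hAfix
    rw [Matrix.sub_mulVec, Matrix.one_mulVec, sub_eq_zero] at hv
    exact hv
  have hBfix : ∀ w, B *ᵥ w = w → w = 0 := by
    intro w hw
    have h1 : Aᵀ *ᵥ w = w := by
      have h2 : Aᵀ * B = 1 := by
        rw [hB, ← Matrix.transpose_mul, hCA, Matrix.transpose_one]
      calc Aᵀ *ᵥ w = Aᵀ *ᵥ (B *ᵥ w) := by rw [hw]
        _ = w := by rw [Matrix.mulVec_mulVec, h2, Matrix.one_mulVec]
    have h3 : (A - 1)ᵀ *ᵥ w = 0 := by
      rw [Matrix.transpose_sub, Matrix.transpose_one, Matrix.sub_mulVec, Matrix.one_mulVec, h1,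
        sub_self]
    exact Matrix.eq_zero_of_mulVec_eq_zero (by rw [Matrix.det_transpose]; exact hdet) h3
  set X : Matrix (Fin d ⊕ Fin d) (Fin d ⊕ Fin d) F := Matrix.fromBlocks A 0 0 B with hX
  have hXpow : ∀ k : ℕ, X ^ k = Matrix.fromBlocks (A ^ k) 0 0 (B ^ k) := by
    intro k
    induction k with
    | zero => simp [Matrix.fromBlocks_one]
    | succ k ih =>
      rw [pow_succ, ih, hX, Matrix.fromBlocks_multiply]
      simp [pow_succ]
  have hXr : X ^ r = 1 := by rw [hXpow, hAr, hBr, Matrix.fromBlocks_one]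
  let x : Matrix.GeneralLinearGroup (Fin d ⊕ Fin d) F := Units.ofPowEqOne X r hXr hrp.ne_zero
  have hxX : (x : Matrix (Fin d ⊕ Fin d) (Fin d ⊕ Fin d) F) = X := rfl
  have hXv : ∀ v, X *ᵥ v = Sum.elim (A *ᵥ (v ∘ Sum.inl)) (B *ᵥ (v ∘ Sum.inr)) := by
    intro v
    rw [hX, Matrix.fromBlocks_mulVec]
    simp
  have hiso : x ∈ Cfsg.isometryGroup F ⇑(QPlus d F) := by
    rw [mem_iso]
    intro v
    rw [hxX, coe_QPlus, quadFormPlus_eq_dot, quadFormPlus_eq_dot, hXv]
    have e1 : (Sum.elim (A *ᵥ (v ∘ Sum.inl)) (B *ᵥ (v ∘ Sum.inr))) ∘ Sum.inl = A *ᵥ (v ∘ Sum.inl) := rfl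
    have e2 : (Sum.elim (A *ᵥ (v ∘ Sum.inl)) (B *ᵥ (v ∘ Sum.inr))) ∘ Sum.inr = B *ᵥ (v ∘ Sum.inr) := rfl
    rw [e1, e2, Matrix.dotProduct_mulVec, hB, Matrix.vecMul_transpose, Matrix.mulVec_mulVec, hCA,
      Matrix.one_mulVec]
  have hfix : fixSub (QPlus d F) ⟨x, hiso⟩ = ⊥ := by
    rw [eq_bot_iff]
    intro v hv
    rw [mem_fixSub] at hv
    change X *ᵥ v = v at hv
    rw [hXv] at hv
    have h1 : A *ᵥ (v ∘ Sum.inl) = v ∘ Sum.inl := by
      funext i
      exact congrFun hv (Sum.inl i)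
    have h2 : B *ᵥ (v ∘ Sum.inr) = v ∘ Sum.inr := by
      funext i
      exact congrFun hv (Sum.inr i)
    have h3 := hAfix _ h1
    have h4 := hBfix _ h2
    rw [Submodule.mem_bot]
    funext i
    rcases i with i | i
    · exact congrFun h3 i
    · exact congrFun h4 i
  refine ⟨⟨x, hiso⟩, ?_, ?_, hfix⟩
  · rw [mem_Omega_iff hd, hfix, finrank_bot]
    exact Even.zero
  · apply Subtype.ext
    exact Units.pow_ofPowEqOne hXr hrp.ne_zero

/-- for `d` even an involution of `Ω⁺_{2d}(q)`, `q` even, whose fixed vectors are all singular -/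
theorem exists_unipotent_derangement [Fintype F] [CharP F 2] {d : ℕ} (hd : d ≠ 2) (he : Even d) :
    ∃ g : ↥(Cfsg.isometryGroup F ⇑(QPlus d F)), g ∈ Cfsg.Omega F ⇑(QPlus d F) ∧ g ^ 2 = 1 ∧
      fixSub (QPlus d F) g = U0 d F := by
  classical
  obtain ⟨e, he⟩ := he
  let ε : Fin e ⊕ Fin e ≃ Fin d := finSumFinEquiv.trans (finCongr he.symm)
  let τ : Equiv.Perm (Fin d) := ε.symm.trans ((Equiv.sumComm _ _).trans ε)
  have hττ : ∀ i, τ (τ i) = i := by
    intro i
    simp only [τ, Equiv.trans_apply, Equiv.symm_apply_apply]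
    rcases h : ε.symm i with a | a <;> simp [← h]
  have hτne : ∀ i, τ i ≠ i := by
    intro i h
    simp only [τ, Equiv.trans_apply] at h
    rw [← Equiv.eq_symm_apply] at h
    rcases h' : ε.symm i with a | a <;> rw [h'] at h <;> simp at h
  have h2 : (2 : F) = 0 := CharP.cast_eq_zero F 2
  set S : Matrix (Fin d) (Fin d) F := τ.permMatrix F with hS
  set X : Matrix (Fin d ⊕ Fin d) (Fin d ⊕ Fin d) F := Matrix.fromBlocks 1 S 0 1 with hX
  have hX2 : X ^ 2 = 1 := by
    rw [pow_two, hX, Matrix.fromBlocks_multiply]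
    simp only [mul_one, mul_zero, add_zero, one_mul, zero_mul, zero_add]
    have : S + S = 0 := by rw [← two_smul F S, h2, zero_smul]
    rw [this, Matrix.fromBlocks_one]
  let x : Matrix.GeneralLinearGroup (Fin d ⊕ Fin d) F := Units.ofPowEqOne X 2 hX2 two_ne_zero
  have hxX : (x : Matrix (Fin d ⊕ Fin d) (Fin d ⊕ Fin d) F) = X := rfl
  have hXv : ∀ v, X *ᵥ v = Sum.elim ((v ∘ Sum.inl) + (v ∘ Sum.inr) ∘ τ) (v ∘ Sum.inr) := by
    intro v
    rw [hX, Matrix.fromBlocks_mulVec, hS, Matrix.permMatrix_mulVec]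
    simp
  have hiso : x ∈ Cfsg.isometryGroup F ⇑(QPlus d F) := by
    rw [mem_iso]
    intro v
    rw [hxX, coe_QPlus, hXv]
    unfold Cfsg.quadFormPlus
    simp only [Sum.elim_inl, Sum.elim_inr, Pi.add_apply, Function.comp_apply, add_mul,
      Finset.sum_add_distrib]
    have : ∑ i : Fin d, v (Sum.inr (τ i)) * v (Sum.inr i) = 0 := by
      apply Finset.sum_involution (fun i _ => τ i)
      · intro i _
        rw [hττ, mul_comm (v (Sum.inr i)), ← two_mul, h2, zero_mul]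
      · intro i _ _
        exact hτne i
      · intro i _
        exact Finset.mem_univ _
      · intro i _
        exact hττ i
    rw [this, add_zero]
  have hfix : fixSub (QPlus d F) ⟨x, hiso⟩ = U0 d F := by
    ext v
    rw [mem_fixSub, mem_U0]
    change X *ᵥ v = v ↔ _
    rw [hXv]
    constructor
    · intro h i
      have := congrFun h (Sum.inl (τ i))
      simp only [Sum.elim_inl, Pi.add_apply, Function.comp_apply, hττ] at this
      simpa using this
    · intro h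
      funext i
      rcases i with i | i
      · simp [h]
      · simp
  refine ⟨⟨x, hiso⟩, ?_, ?_, hfix⟩
  · rw [mem_Omega_iff hd, hfix, U0_finrank]
    exact ⟨e, he⟩
  · apply Subtype.ext
    exact Units.pow_ofPowEqOne hX2 two_ne_zero

theorem quadFormPlus_smul (d : ℕ) (c : F) (v : Fin d ⊕ Fin d → F) :
    Cfsg.quadFormPlus d F (c • v) = c * c * Cfsg.quadFormPlus d F v := by
  unfold Cfsg.quadFormPlus
  rw [Finset.mul_sum]
  apply Finset.sum_congr rfl
  intro i _
  simp only [Pi.smul_apply, smul_eq_mul]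
  ring

theorem mem_omegaGL_iff {d : ℕ} (x : Matrix.GeneralLinearGroup (Fin d ⊕ Fin d) F) :
    x ∈ Cfsg.Geo.omegaGL (Cfsg.quadFormPlus d F) ↔
      ∃ g : ↥(Cfsg.isometryGroup F ⇑(QPlus d F)), g ∈ Cfsg.Omega F ⇑(QPlus d F) ∧
        (g : Matrix.GeneralLinearGroup (Fin d ⊕ Fin d) F) = x := by
  rw [← coe_QPlus]
  unfold Cfsg.Geo.omegaGL
  rw [Subgroup.mem_map]
  rfl

theorem eq_one_of_sq [CharP F 2] {c : F} (h : c * c = 1) : c = 1 := by
  have h2 : (2 : F) = 0 := CharP.cast_eq_zero F 2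
  have : (c - 1) * (c - 1) = 0 := by linear_combination h - c * h2 + h2
  exact sub_eq_zero.mp (mul_self_eq_zero.mp this)

/-- in characteristic two an isometry fixing a nonsingular point fixes its vectors -/
theorem fixed_vector_of_fixed_point [CharP F 2] {d : ℕ} (g : ↥(Cfsg.isometryGroup F ⇑(QPlus d F)))
    (W : Submodule F (Fin d ⊕ Fin d → F)) (h1 : finrank F W = 1) (v : Fin d ⊕ Fin d → F) (hv : v ∈ W)
    (hQ : Cfsg.quadFormPlus d F v ≠ 0)
    (hW : W.map (Matrix.toLin' ((g : Matrix.GeneralLinearGroup (Fin d ⊕ Fin d) F) :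
      Matrix (Fin d ⊕ Fin d) (Fin d ⊕ Fin d) F)) ≤ W) :
    ((g : Matrix.GeneralLinearGroup (Fin d ⊕ Fin d) F) :
      Matrix (Fin d ⊕ Fin d) (Fin d ⊕ Fin d) F) *ᵥ v = v := by
  have hv0 : v ≠ 0 := by
    rintro rfl
    exact hQ (by simp [Cfsg.quadFormPlus])
  have hgv : ((g : Matrix.GeneralLinearGroup (Fin d ⊕ Fin d) F) :
      Matrix (Fin d ⊕ Fin d) (Fin d ⊕ Fin d) F) *ᵥ v ∈ W := by
    apply hW
    exact ⟨v, hv, by rw [Matrix.toLin'_apply]⟩
  obtain ⟨c, hc⟩ := (finrank_eq_one_iff_of_nonzero' (⟨v, hv⟩ : W)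
      (fun h => hv0 (congrArg Subtype.val h))).mp h1 ⟨_, hgv⟩
  have hc' : c • v = ((g : Matrix.GeneralLinearGroup (Fin d ⊕ Fin d) F) :
      Matrix (Fin d ⊕ Fin d) (Fin d ⊕ Fin d) F) *ᵥ v := congrArg Subtype.val hc
  have h3 := iso_apply g v
  rw [← hc', coe_QPlus, quadFormPlus_smul] at h3
  have h4 : c * c = 1 := by
    apply mul_right_cancel₀ hQ
    rw [h3, one_mul]
  rw [← hc', eq_one_of_sq h4, one_smul]

theorem exists_nonsingular {d : ℕ} (hd : 0 < d) :
    ∃ v : Fin d ⊕ Fin d → F, Cfsg.quadFormPlus d F v = 1 := by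
  have := (hypPair_QPlus (F := F) d ⟨0, hd⟩).Q_st 1 1
  rw [coe_QPlus, mul_one] at this
  exact ⟨_, this⟩

/-- a common way of using a derangement -/
theorem not_elusive_of [CharP F 2] {d r : ℕ} (hd : 0 < d) (g : ↥(Cfsg.isometryGroup F ⇑(QPlus d F)))
    (hg : g ∈ Cfsg.Omega F ⇑(QPlus d F)) (hgr : g ^ r = 1)
    (hfix : ∀ v, ((g : Matrix.GeneralLinearGroup (Fin d ⊕ Fin d) F) :
      Matrix (Fin d ⊕ Fin d) (Fin d ⊕ Fin d) F) *ᵥ v = v → Cfsg.quadFormPlus d F v = 0)
    (H : ∀ x : Matrix.GeneralLinearGroup (Fin d ⊕ Fin d) F, x ∈ Cfsg.Geo.omegaGL (Cfsg.quadFormPlus d F) →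
      (∃ z : F, ((x ^ r : Matrix.GeneralLinearGroup (Fin d ⊕ Fin d) F) : Matrix (Fin d ⊕ Fin d) (Fin d ⊕ Fin d) F) = z • (1 : Matrix (Fin d ⊕ Fin d) (Fin d ⊕ Fin d) F)) →
      (∀ z : F, (x : Matrix (Fin d ⊕ Fin d) (Fin d ⊕ Fin d) F) ≠ z • (1 : Matrix (Fin d ⊕ Fin d) (Fin d ⊕ Fin d) F)) →
      ∃ W : Submodule F (Fin d ⊕ Fin d → F), (Module.finrank F ↥W = 1 ∧ ∃ v ∈ W, Cfsg.quadFormPlus d F v ≠ 0) ∧ W.map (Matrix.toLin' (x : Matrix (Fin d ⊕ Fin d) (Fin d ⊕ Fin d) F)) ≤ W) :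
    False := by
  have key : ∀ W : Submodule F (Fin d ⊕ Fin d → F), (Module.finrank F ↥W = 1 ∧ ∃ v ∈ W, Cfsg.quadFormPlus d F v ≠ 0) →
      W.map (Matrix.toLin' ((g : Matrix.GeneralLinearGroup (Fin d ⊕ Fin d) F) :
        Matrix (Fin d ⊕ Fin d) (Fin d ⊕ Fin d) F)) ≤ W → False := by
    rintro W ⟨h1, v, hv, hQ⟩ hW
    exact hQ (hfix v (fixed_vector_of_fixed_point g W h1 v hv hQ hW))
  obtain ⟨W, hW1, hW2⟩ := H (g : Matrix.GeneralLinearGroup (Fin d ⊕ Fin d) F)
    ((mem_omegaGL_iff _).mpr ⟨g, hg, rfl⟩)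
    ⟨1, by
      have : ((g : Matrix.GeneralLinearGroup (Fin d ⊕ Fin d) F)) ^ r = 1 := by
        rw [← Subgroup.coe_pow, hgr, Subgroup.coe_one]
      rw [this, one_smul, Units.val_one]⟩
    (by
      intro z hz
      obtain ⟨v, hv⟩ := exists_nonsingular (F := F) hd
      have hv0 : v ≠ 0 := by
        rintro rfl
        simp [Cfsg.quadFormPlus] at hv
      apply key (Submodule.span F {v})
        ⟨finrank_span_singleton hv0, v, Submodule.mem_span_singleton_self v, by rw [hv]; exact one_ne_zero⟩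
      rw [Submodule.map_le_iff_le_comap, Submodule.span_le]
      intro w hw
      rw [Set.mem_singleton_iff] at hw
      subst hw
      rw [SetLike.mem_coe, Submodule.mem_comap, hz, Matrix.toLin'_apply, Matrix.smul_mulVec,
        Matrix.one_mulVec]
      exact Submodule.smul_mem _ _ (Submodule.mem_span_singleton_self w))
  exact key W hW1 hW2

end Cfsg.Agent.Lib.Helper94EluOPlus
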