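import Mathlib
import Cfsg.Prelude.Def_GeometricClasses
import Cfsg.Agent.Lib.Helper94EluOPlus
import Cfsg.Agent.Lib.Helper48OrthFinal
import Cfsg.Agent.Lib.Helper97OIsotype

set_option autoImplicit false

namespace Cfsg.Agent.Lib.Helper94EluOMinus

open Module Cfsg Matrix

open Cfsg.Agent.Lib.Helper49Orth Cfsg.Agent.Lib.Helper49Dickson
  Cfsg.Agent.Lib.Helper49CharTwoB Cfsg.Agent.Lib.Helper18Hyp

variable {F : Type*} [Field F]

section general

variable {ι : Type} [Fintype ι] [DecidableEq ι] (Q : QuadraticForm F (ι → F))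

theorem mem_Omega_iff_gen [Fintype F] [CharP F 2] (hQ : (QuadraticMap.polarBilin Q).Nondegenerate)
    (hq : Fintype.card F ≠ 2 ∨ Fintype.card ι ≠ 4) (hev : Even (Fintype.card ι))
    (g : ↥(Cfsg.isometryGroup F ⇑Q)) :
    g ∈ Cfsg.Omega F ⇑Q ↔ Even (finrank F (fixSub Q g)) := by
  obtain ⟨vs, hvs, rfl⟩ := exists_list_refl_two Q hQ hq g
  rw [char_two_criterion _ hQ hq vs hvs]
  have h := dfun_prod Q hQ vs hvs
  unfold dfun at h
  rw [Module.finrank_fintype_fun_eq_card, hev.neg_one_pow, mul_one] at h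
  have hne : (-1 : ℤˣ) ≠ 1 := by decide
  rw [← neg_one_pow_eq_one_iff_even hne, ← neg_one_pow_eq_one_iff_even hne, h]

theorem mem_omegaGL_iff_gen (x : Matrix.GeneralLinearGroup ι F) :
    x ∈ Cfsg.Geo.omegaGL ⇑Q ↔
      ∃ g : ↥(Cfsg.isometryGroup F ⇑Q), g ∈ Cfsg.Omega F ⇑Q ∧
        (g : Matrix.GeneralLinearGroup ι F) = x := by
  unfold Cfsg.Geo.omegaGL
  rw [Subgroup.mem_map]
  rfl

/-- in characteristic two an isometry fixing a nonsingular point fixes its vectors -/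
theorem fixed_vector_of_fixed_point_gen [CharP F 2] (g : ↥(Cfsg.isometryGroup F ⇑Q))
    (W : Submodule F (ι → F)) (h1 : finrank F W = 1) (v : ι → F) (hv : v ∈ W)
    (hQv : Q v ≠ 0)
    (hW : W.map (Matrix.toLin' ((g : Matrix.GeneralLinearGroup ι F) : Matrix ι ι F)) ≤ W) :
    ((g : Matrix.GeneralLinearGroup ι F) : Matrix ι ι F) *ᵥ v = v := by
  have hv0 : v ≠ 0 := by
    rintro rfl
    exact hQv (map_zero Q)
  have hgv : ((g : Matrix.GeneralLinearGroup ι F) : Matrix ι ι F) *ᵥ v ∈ W := by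
    apply hW
    exact ⟨v, hv, by rw [Matrix.toLin'_apply]⟩
  obtain ⟨c, hc⟩ := (finrank_eq_one_iff_of_nonzero' (⟨v, hv⟩ : W)
      (fun h => hv0 (congrArg Subtype.val h))).mp h1 ⟨_, hgv⟩
  have hc' : c • v = ((g : Matrix.GeneralLinearGroup ι F) : Matrix ι ι F) *ᵥ v :=
    congrArg Subtype.val hc
  have h3 := iso_apply g v
  rw [← hc', QuadraticMap.map_smul, smul_eq_mul] at h3
  have h4 : c * c = 1 := by
    apply mul_right_cancel₀ hQv
    rw [h3, one_mul]
  rw [← hc', Cfsg.Agent.Lib.Helper94EluOPlus.eq_one_of_sq h4, one_smul]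

/-- a common way of using a derangement -/
theorem not_elusive_of_gen [CharP F 2] {r : ℕ} (hns : ∃ v, Q v ≠ 0) (g : ↥(Cfsg.isometryGroup F ⇑Q))
    (hg : g ∈ Cfsg.Omega F ⇑Q) (hgr : g ^ r = 1)
    (hfix : ∀ v, ((g : Matrix.GeneralLinearGroup ι F) : Matrix ι ι F) *ᵥ v = v → Q v = 0)
    (H : ∀ x : Matrix.GeneralLinearGroup ι F, x ∈ Cfsg.Geo.omegaGL ⇑Q →
      (∃ z : F, ((x ^ r : Matrix.GeneralLinearGroup ι F) : Matrix ι ι F) = z • (1 : Matrix ι ι F)) →
      (∀ z : F, (x : Matrix ι ι F) ≠ z • (1 : Matrix ι ι F)) →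
      ∃ W : Submodule F (ι → F), (Module.finrank F ↥W = 1 ∧ ∃ v ∈ W, Q v ≠ 0) ∧
        W.map (Matrix.toLin' (x : Matrix ι ι F)) ≤ W) :
    False := by
  have key : ∀ W : Submodule F (ι → F), (Module.finrank F ↥W = 1 ∧ ∃ v ∈ W, Q v ≠ 0) →
      W.map (Matrix.toLin' ((g : Matrix.GeneralLinearGroup ι F) : Matrix ι ι F)) ≤ W → False := by
    rintro W ⟨h1, v, hv, hQv⟩ hW
    exact hQv (hfix v (fixed_vector_of_fixed_point_gen Q g W h1 v hv hQv hW))
  obtain ⟨W, hW1, hW2⟩ := H (g : Matrix.GeneralLinearGroup ι F)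
    ((mem_omegaGL_iff_gen Q _).mpr ⟨g, hg, rfl⟩)
    ⟨1, by
      have : ((g : Matrix.GeneralLinearGroup ι F)) ^ r = 1 := by
        rw [← Subgroup.coe_pow, hgr, Subgroup.coe_one]
      rw [this, one_smul, Units.val_one]⟩
    (by
      intro z hz
      obtain ⟨v, hv⟩ := hns
      have hv0 : v ≠ 0 := by
        rintro rfl
        exact hv (map_zero Q)
      apply key (Submodule.span F {v})
        ⟨finrank_span_singleton hv0, v, Submodule.mem_span_singleton_self v, hv⟩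
      rw [Submodule.map_le_iff_le_comap, Submodule.span_le]
      intro w hw
      rw [Set.mem_singleton_iff] at hw
      subst hw
      rw [SetLike.mem_coe, Submodule.mem_comap, hz, Matrix.toLin'_apply, Matrix.smul_mulVec,
        Matrix.one_mulVec]
      exact Submodule.smul_mem _ _ (Submodule.mem_span_singleton_self w))
  exact key W hW1 hW2

/-- the fixed space of an involution in characteristic two has at least half the dimension -/
theorem card_le_two_mul_finrank_fix [CharP F 2] (g : ↥(Cfsg.isometryGroup F ⇑Q))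
    (hg2 : ((g : Matrix.GeneralLinearGroup ι F) : Matrix ι ι F)
      * ((g : Matrix.GeneralLinearGroup ι F) : Matrix ι ι F) = 1) :
    Fintype.card ι ≤ 2 * finrank F (fixSub Q g) := by
  set X := ((g : Matrix.GeneralLinearGroup ι F) : Matrix ι ι F) with hX
  let L : (ι → F) →ₗ[F] (ι → F) := Matrix.mulVecLin X - LinearMap.id
  have hker : LinearMap.ker L = fixSub Q g := by
    ext v
    rw [LinearMap.mem_ker, mem_fixSub]
    simp only [L, LinearMap.sub_apply, Matrix.mulVecLin_apply, LinearMap.id_apply, sub_eq_zero, hX]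
  have hrange : LinearMap.range L ≤ LinearMap.ker L := by
    rintro _ ⟨v, rfl⟩
    rw [LinearMap.mem_ker]
    simp only [L, LinearMap.sub_apply, Matrix.mulVecLin_apply, LinearMap.id_apply]
    rw [Matrix.mulVec_sub, Matrix.mulVec_mulVec, hg2, Matrix.one_mulVec]
    have h2 : (2 : F) = 0 := CharP.cast_eq_zero F 2
    have : v - X *ᵥ v - (X *ᵥ v - v) = (2 : F) • (v - X *ᵥ v) := by
      rw [two_smul]; abel
    rw [this, h2, zero_smul]
  have h3 := LinearMap.finrank_range_add_finrank_ker L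
  have h4 := Submodule.finrank_mono hrange
  rw [Module.finrank_fintype_fun_eq_card, hker] at h3
  rw [hker] at h4
  omega

/-- the scalar of the square of an isometry -/
theorem scalar_eq_one [CharP F 2] (hns : ∃ v, Q v ≠ 0) (g : ↥(Cfsg.isometryGroup F ⇑Q)) (z : F)
    (hz : (((g : Matrix.GeneralLinearGroup ι F) ^ 2 : Matrix.GeneralLinearGroup ι F) : Matrix ι ι F)
      = z • (1 : Matrix ι ι F)) : z = 1 := by
  obtain ⟨v, hv⟩ := hns
  have h1 := iso_apply (g ^ 2) v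
  rw [Subgroup.coe_pow, hz, Matrix.smul_mulVec, Matrix.one_mulVec, QuadraticMap.map_smul,
    smul_eq_mul] at h1
  apply Cfsg.Agent.Lib.Helper94EluOPlus.eq_one_of_sq
  apply mul_right_cancel₀ hv
  rw [h1, one_mul]

end general

section minus

open Cfsg.Agent.Lib.Helper7OMinus Cfsg.Agent.Lib.Helper7Norm2 Cfsg.Agent.Lib.Helper48QuadType
  Cfsg.Agent.Lib.Helper48EigMat

/-- the number of nonsingular points of the elliptic quadric -/
theorem card_nonsingular_points_minus [Fintype F] (k : ℕ) (a b : F) (hab : Aniso a b) :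
    Nat.card {W : Submodule F ((Fin (k + 1) ⊕ Fin (k + 1)) ⊕ Fin 2 → F) //
        finrank F W = 1 ∧ ∃ v ∈ W, QM F (k + 1) a b v ≠ 0}
      = Fintype.card F ^ (k + 1) * (Fintype.card F ^ (k + 2) + 1) := by
  classical
  have h1 := Cfsg.Agent.Lib.Helper94EluOPlus.card_points_mul (F := F)
    (fun v : (Fin (k + 1) ⊕ Fin (k + 1)) ⊕ Fin 2 → F => QM F (k + 1) a b v ≠ 0)
    (by
      intro c v hc hv
      rw [QuadraticMap.map_smul, smul_eq_mul]
      exact mul_ne_zero (mul_ne_zero hc hc) hv)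
    (by simp)
  have h2 := hcnt_minus (F := F) (k + 1) a b 0
  have h3 := cntQ_minus_sub_one a b hab k
  rw [← h2] at h3
  have h4 : Nat.card {v : (Fin (k + 1) ⊕ Fin (k + 1)) ⊕ Fin 2 → F // QM F (k + 1) a b v ≠ 0}
      + Nat.card {v : (Fin (k + 1) ⊕ Fin (k + 1)) ⊕ Fin 2 → F // QM F (k + 1) a b v = 0}
      = Fintype.card F ^ (2 * (k + 2)) := by
    rw [Nat.card_eq_fintype_card, Nat.card_eq_fintype_card, Fintype.card_subtype_compl,
      Fintype.card_fun]
    have := Fintype.card_subtype_le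
      (fun v : (Fin (k + 1) ⊕ Fin (k + 1)) ⊕ Fin 2 → F => QM F (k + 1) a b v = 0)
    rw [Fintype.card_fun] at this
    simp only [Fintype.card_sum, Fintype.card_fin] at this ⊢
    have e : k + 1 + (k + 1) + 2 = 2 * (k + 2) := by ring
    rw [e] at this ⊢
    omega
  have h5 : 1 ≤ Nat.card {v : (Fin (k + 1) ⊕ Fin (k + 1)) ⊕ Fin 2 → F // QM F (k + 1) a b v = 0} := by
    rw [Nat.card_eq_fintype_card]
    exact Fintype.card_pos_iff.mpr ⟨⟨0, map_zero _⟩⟩
  have hq : 2 ≤ Fintype.card F := Fintype.one_lt_card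
  generalize Nat.card {W : Submodule F ((Fin (k + 1) ⊕ Fin (k + 1)) ⊕ Fin 2 → F) //
        finrank F W = 1 ∧ ∃ v ∈ W, QM F (k + 1) a b v ≠ 0} = N at h1 ⊢
  generalize Nat.card {v : (Fin (k + 1) ⊕ Fin (k + 1)) ⊕ Fin 2 → F // QM F (k + 1) a b v ≠ 0} = M
    at h1 h4
  generalize Nat.card {v : (Fin (k + 1) ⊕ Fin (k + 1)) ⊕ Fin 2 → F // QM F (k + 1) a b v = 0} = P
    at h3 h4 h5
  generalize Fintype.card F = q at *
  have hq1 : 1 ≤ q ^ (k + 1) := Nat.one_le_pow _ _ (by omega)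
  obtain ⟨q', rfl⟩ : ∃ q', q = q' + 1 := ⟨q - 1, by omega⟩
  have hq' : 0 < q' := by omega
  simp only [Nat.add_sub_cancel] at h1
  apply Nat.eq_of_mul_eq_mul_right hq'
  zify [hq1, h5] at *
  have e1 : ((q' : ℤ) + 1) ^ (2 * (k + 2)) = (((q' : ℤ) + 1) ^ (k + 1) * (q' + 1)) ^ 2 := by
    rw [← pow_succ, ← pow_mul, mul_comm]
  have e2 : ((q' : ℤ) + 1) ^ (k + 2) = ((q' : ℤ) + 1) ^ (k + 1) * (q' + 1) := pow_succ _ _
  rw [e1] at h4
  rw [e2] at h3 ⊢
  generalize ((q' : ℤ) + 1) ^ (k + 1) = X at *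
  linear_combination h1 + h4 - h3

/-- an involution of `O⁻_{2d}(q)`, `q` even, fixes a nonsingular vector -/
theorem exists_fixed_nonsingular_minus [Fintype F] [CharP F 2] (k : ℕ) (a b : F) (hab : Aniso a b)
    (g : ↥(Cfsg.isometryGroup F ⇑(QM F k a b)))
    (hg2 : ((g : Matrix.GeneralLinearGroup ((Fin k ⊕ Fin k) ⊕ Fin 2) F) : Matrix ((Fin k ⊕ Fin k) ⊕ Fin 2) ((Fin k ⊕ Fin k) ⊕ Fin 2) F)
      * ((g : Matrix.GeneralLinearGroup ((Fin k ⊕ Fin k) ⊕ Fin 2) F) : Matrix ((Fin k ⊕ Fin k) ⊕ Fin 2) ((Fin k ⊕ Fin k) ⊕ Fin 2) F) = 1) :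
    ∃ v, QM F k a b v ≠ 0 ∧
      ((g : Matrix.GeneralLinearGroup ((Fin k ⊕ Fin k) ⊕ Fin 2) F) : Matrix ((Fin k ⊕ Fin k) ⊕ Fin 2) ((Fin k ⊕ Fin k) ⊕ Fin 2) F) *ᵥ v = v := by
  by_contra hcon
  push Not at hcon
  have hTS : TS (QM F k a b) (fixSub (QM F k a b) g) := by
    intro v hv
    by_contra h
    exact hcon v h ((mem_fixSub (QM F k a b)).mp hv)
  have hdim : finrank F ((Fin k ⊕ Fin k) ⊕ Fin 2 → F) = 2 * (k + 1) := by
    rw [Module.finrank_fintype_fun_eq_card]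
    simp only [Fintype.card_sum, Fintype.card_fin]
    ring
  have h1 : finrank F (fixSub (QM F k a b) g) ≤ k + 1 :=
    hTS.finrank_le (nondeg_QM k a b hab) hdim
  have h2 := card_le_two_mul_finrank_fix (QM F k a b) g hg2
  simp only [Fintype.card_sum, Fintype.card_fin] at h2
  exact Cfsg.Agent.Lib.Helper97OIsotype.no_half_QM k a b hab _ hTS (by omega)

/-- a fixed-point-free isometry of order dividing `r` of the elliptic space when `r ∣ q ^ d + 1` -/
theorem exists_semisimple_derangement_minus [Fintype F] [CharP F 2] {d r : ℕ} [Fact r.Prime]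
    (hd : 1 ≤ d) (hr2 : r ≠ 2) (hrd : r ∣ Fintype.card F ^ d + 1) (a b : F) (hab : Aniso a b) :
    ∃ g : ↥(Cfsg.isometryGroup F ⇑(QM F (d - 1) a b)), g ^ r = 1 ∧
      ∀ v, ((g : Matrix.GeneralLinearGroup ((Fin (d - 1) ⊕ Fin (d - 1)) ⊕ Fin 2) F) :
        Matrix ((Fin (d - 1) ⊕ Fin (d - 1)) ⊕ Fin 2) ((Fin (d - 1) ⊕ Fin (d - 1)) ⊕ Fin 2) F) *ᵥ v = v
          → v = 0 := by
  classical
  have hrp : r.Prime := Fact.out
  have hodd : Odd r := hrp.odd_of_ne_two hr2
  have _ : Fact (Nat.Prime 2) := ⟨Nat.prime_two⟩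
  obtain ⟨⟨ζ, hζ⟩, hfrob⟩ := Cfsg.Agent.S2568.exists_setup F 2 r hrp hr2
  obtain ⟨e, _, he⟩ := FiniteField.card F 2
  obtain ⟨Φ, hΦ⟩ := hfrob e
  rw [← he] at hΦ
  have hrp' : r.Coprime 2 := (Nat.coprime_primes hrp Nat.prime_two).2 hr2
  have hcop : (Fintype.card F).Coprime r := by
    rw [Nat.coprime_comm, Nat.Prime.coprime_iff_not_dvd hrp]
    intro h
    have h1 : r ∣ Fintype.card F ^ d := dvd_pow h (by omega)
    have h2 : r ∣ 1 := (Nat.dvd_add_right h1).mp hrd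
    exact hrp.one_lt.ne' (Nat.dvd_one.mp h2)
  set u : (ZMod r)ˣ := ZMod.unitOfCoprime (Fintype.card F) hcop with hu
  have huq : ((Fintype.card F : ℕ) : ZMod r) = u := rfl
  have hud : u ^ d = -1 := by
    apply Units.ext
    rw [Units.val_pow_eq_pow_val, ← huq, Units.val_neg, Units.val_one]
    have h1 : ((Fintype.card F ^ d + 1 : ℕ) : ZMod r) = 0 := (ZMod.natCast_eq_zero_iff _ _).mpr hrd
    push_cast at h1
    linear_combination h1
  have hu2d : u ^ (2 * d) = 1 := by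
    rw [mul_comm, pow_mul, hud]
    simp
  have _ : NeZero (2 * d) := ⟨by omega⟩
  let m : ZMod r → ℕ := fun k =>
    (Finset.univ.filter (fun j : Fin (2 * d) => ((u ^ (j : ℕ) : (ZMod r)ˣ) : ZMod r) = k)).card
  have key : ∀ (s : ℕ) (k : ZMod r), m (((u ^ s : (ZMod r)ˣ) : ZMod r) * k) = m k := by
    intro s k
    symm
    apply Finset.card_equiv (Equiv.addRight (Fin.ofNat (2 * d) s))
    intro j
    simp only [Finset.mem_filter, Finset.mem_univ, true_and, Equiv.coe_addRight]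
    have h1 : u ^ ((j + (Fin.ofNat (2 * d) s) : Fin (2 * d)) : ℕ) = u ^ s * u ^ (j : ℕ) := by
      rw [Fin.val_add, Fin.val_ofNat, ← pow_eq_pow_mod _ hu2d, pow_add, ← pow_eq_pow_mod _ hu2d,
        mul_comm]
    rw [h1, Units.val_mul]
    exact ⟨fun h => by rw [h], fun h => (u ^ s).isUnit.mul_left_cancel h⟩
  have hsum : ∑ k, m k = 2 * d := by
    have := Finset.card_eq_sum_card_fiberwise (s := (Finset.univ : Finset (Fin (2 * d))))
      (t := (Finset.univ : Finset (ZMod r)))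
      (f := fun j : Fin (2 * d) => ((u ^ (j : ℕ) : (ZMod r)ˣ) : ZMod r)) (fun _ _ => Finset.mem_univ _)
    rw [Finset.card_univ, Fintype.card_fin] at this
    exact this.symm
  have h0 : m 0 = 0 := by
    simp only [m]
    rw [Finset.card_eq_zero, Finset.filter_eq_empty_iff]
    intro j _
    exact Units.ne_zero _
  obtain ⟨g, hg⟩ := (Cfsg.Agent.Lib.Helper48OrthFinal.real_minus_iff 2 hrp' hodd hζ Φ hΦ u huq d hd
    a b hab m).mpr ⟨⟨⟨fun k => by simpa using key 1 k, fun k => by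
      have := key d k
      rw [hud] at this
      simpa using this⟩, hsum⟩, Or.inr (by
      rw [huq, ← Units.val_pow_eq_pow_val, hud]
      simpa using Cfsg.Agent.Lib.Helper48OrthFinal.neg_one_ne_one hodd)⟩
  refine ⟨g, ?_, fun v hv => Cfsg.Agent.Lib.Helper48OrthType.fix_eq_zero hζ hg h0 v hv⟩
  apply Subtype.ext
  apply Units.ext
  rw [Subgroup.coe_pow, Units.val_pow_eq_pow_val]
  exact hg.1

end minus

end Cfsg.Agent.Lib.Helper94EluOMinus
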