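import Cfsg.Agent.Lib.Helper21EluRANK
import Cfsg.Agent.Lib.Helper38EluSEMI
import Cfsg.Agent.Lib.Helper38EluSLCONJ
import Cfsg.Agent.Lib.Helper70EluCARDSL
import Cfsg.Agent.Lib.Helper70EluSMALL
import Cfsg.Agent.Lib.Helper36Elu2CHAR
import Cfsg.Agent.Lib.Helper6EluKEIGN
import Cfsg.Agent.Lib.Helper95EluKFROB

/-!
# Project 94: elements of `SL_n(q)` and the normaliser of a Singer cycle (`n` prime)
-/

set_option autoImplicit false

namespace Cfsg.Agent.Lib.Helper94EluSinger

open Cfsg Cfsg.Geo Matrix Polynomial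
open scoped MatrixGroups
open Cfsg.Agent.Lib.Helper21EluRANK Cfsg.Agent.Lib.Helper38EluSEMI Cfsg.Agent.Lib.Helper38EluSLCONJ
  Cfsg.Agent.Lib.Helper70EluCARDSL Cfsg.Agent.Lib.Helper70EluSMALL Cfsg.Agent.Lib.Helper36Elu2CHAR
  Cfsg.Agent.Lib.Helper6EluKEIGN Cfsg.Agent.Lib.Helper95EluKFROB

variable {F : Type*} [Field F] [Fintype F]

theorem coe_conj {n : ℕ} (x P : Matrix.SpecialLinearGroup (Fin n) F) :
    (((Matrix.SpecialLinearGroup.toGL : Matrix.SpecialLinearGroup (Fin n) F →* GL (Fin n) F)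
      (P⁻¹ * x * P) : GL (Fin n) F) : Matrix (Fin n) (Fin n) F)
      = ((P⁻¹ : Matrix.SpecialLinearGroup (Fin n) F) : Matrix (Fin n) (Fin n) F) *
        (x : Matrix (Fin n) (Fin n) F) * (P : Matrix (Fin n) (Fin n) F) := by
  rw [Matrix.SpecialLinearGroup.coe_GL_coe_matrix, Matrix.SpecialLinearGroup.coe_mul,
    Matrix.SpecialLinearGroup.coe_mul]

theorem inv_mul_coe {n : ℕ} (P : Matrix.SpecialLinearGroup (Fin n) F) :
    ((P⁻¹ : Matrix.SpecialLinearGroup (Fin n) F) : Matrix (Fin n) (Fin n) F) *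
      (P : Matrix (Fin n) (Fin n) F) = 1 := by
  rw [← Matrix.SpecialLinearGroup.coe_mul, inv_mul_cancel, Matrix.SpecialLinearGroup.coe_one]

theorem mul_inv_coe {n : ℕ} (P : Matrix.SpecialLinearGroup (Fin n) F) :
    (P : Matrix (Fin n) (Fin n) F) *
      ((P⁻¹ : Matrix.SpecialLinearGroup (Fin n) F) : Matrix (Fin n) (Fin n) F) = 1 := by
  rw [← Matrix.SpecialLinearGroup.coe_mul, mul_inv_cancel, Matrix.SpecialLinearGroup.coe_one]

/-- an element with a two-dimensional eigenspace is a derangement. -/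
theorem not_conj_of_eig {n : ℕ} (hn : n.Prime) {K : Subalgebra F (Matrix (Fin n) (Fin n) F)}
    (hK : IsFieldSubalgebra n K) (x : Matrix.SpecialLinearGroup (Fin n) F)
    (hns : ∀ z : F, (x : Matrix (Fin n) (Fin n) F) ≠ z • (1 : Matrix (Fin n) (Fin n) F))
    (l : F) (u v : Fin n → F) (hu : (x : Matrix (Fin n) (Fin n) F) *ᵥ u = l • u)
    (hv : (x : Matrix (Fin n) (Fin n) F) *ᵥ v = l • v) (hu0 : u ≠ 0) (huv : ∀ c : F, v ≠ c • u)
    (P : Matrix.SpecialLinearGroup (Fin n) F) :
    P⁻¹ * x * P ∉ (subalgebraNormalizer K).comap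
      (Matrix.SpecialLinearGroup.toGL : Matrix.SpecialLinearGroup (Fin n) F →* GL (Fin n) F) := by
  intro hmem
  rw [Subgroup.mem_comap] at hmem
  set Pi : Matrix (Fin n) (Fin n) F :=
    ((P⁻¹ : Matrix.SpecialLinearGroup (Fin n) F) : Matrix (Fin n) (Fin n) F) with hPi
  have h1 : Pi * (P : Matrix (Fin n) (Fin n) F) = 1 := inv_mul_coe P
  have h2 : (P : Matrix (Fin n) (Fin n) F) * Pi = 1 := mul_inv_coe P
  have key : ∀ w : Fin n → F, (x : Matrix (Fin n) (Fin n) F) *ᵥ w = l • w →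
      (Pi * (x : Matrix (Fin n) (Fin n) F) * (P : Matrix (Fin n) (Fin n) F)) *ᵥ (Pi *ᵥ w)
        = l • (Pi *ᵥ w) := by
    intro w hw
    rw [Matrix.mulVec_mulVec, Matrix.mul_assoc, h2, Matrix.mul_one, ← Matrix.mulVec_mulVec, hw,
      Matrix.mulVec_smul]
  have hinj : ∀ w : Fin n → F, Pi *ᵥ w = 0 → w = 0 := by
    intro w hw
    have := congrArg (fun t => (P : Matrix (Fin n) (Fin n) F) *ᵥ t) hw
    simpa [Matrix.mulVec_mulVec, h2] using this
  obtain ⟨c, hc⟩ := eig_le_one hn hK _ hmem (by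
      intro z hz
      rw [coe_conj] at hz
      apply hns z
      rw [← hPi] at hz
      calc (x : Matrix (Fin n) (Fin n) F)
          = ((P : Matrix (Fin n) (Fin n) F) * Pi) * x * ((P : Matrix (Fin n) (Fin n) F) * Pi) := by
            rw [h2, Matrix.one_mul, Matrix.mul_one]
        _ = (P : Matrix (Fin n) (Fin n) F) * (Pi * x * P) * Pi := by
            simp only [Matrix.mul_assoc]
        _ = _ := by rw [hz, Matrix.mul_smul, Matrix.mul_one, Matrix.smul_mul, h2])
    l (Pi *ᵥ u) (Pi *ᵥ v) (by rw [coe_conj]; exact key u hu) (by rw [coe_conj]; exact key v hv)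
    (fun h0 => hu0 (hinj u h0))
  apply huv c
  have : Pi *ᵥ (v - c • u) = 0 := by
    rw [Matrix.mulVec_sub, Matrix.mulVec_smul, hc, sub_self]
  exact sub_eq_zero.1 (hinj _ this)

/-- an element with characteristic polynomial `X ^ n - a` is conjugate into the normaliser. -/
theorem conj_of_charpoly {n : ℕ} (hn : 0 < n) (hnF : (n : F) ≠ 0)
    {K : Subalgebra F (Matrix (Fin n) (Fin n) F)}
    (hK : IsFieldSubalgebra n K) (x : Matrix.SpecialLinearGroup (Fin n) F) (a : F) (ha : a ≠ 0)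
    (hx : (x : Matrix (Fin n) (Fin n) F).charpoly = X ^ n - C a) :
    ∃ P : Matrix.SpecialLinearGroup (Fin n) F, P⁻¹ * x * P ∈ (subalgebraNormalizer K).comap
      (Matrix.SpecialLinearGroup.toGL : Matrix.SpecialLinearGroup (Fin n) F →* GL (Fin n) F) := by
  obtain ⟨g, hg, hgc, -⟩ := exists_frob hn hK a ha
  have hpow : ∀ A : Matrix (Fin n) (Fin n) F, A.charpoly = X ^ n - C a →
      A ^ n = a • (1 : Matrix (Fin n) (Fin n) F) := by
    intro A hA
    have := Matrix.aeval_self_charpoly A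
    rw [hA] at this
    simp only [map_sub, map_pow, aeval_X, aeval_C] at this
    rw [sub_eq_zero] at this
    rw [this, Algebra.algebraMap_eq_smul_one]
  obtain ⟨P, hP⟩ := exists_SL_conj x g
    (semisimple_of_pow_eq_smul n hnF _ a ha (hpow _ hx))
    (semisimple_of_pow_eq_smul n hnF _ a ha (hpow _ hgc)) (by rw [hx, hgc])
  exact ⟨P, by rw [Subgroup.mem_comap, hP]; exact hg⟩

/-- two independent eigenvectors from a rank bound. -/
theorem exists_two_eig {n : ℕ} (A : Matrix (Fin n) (Fin n) F) (l : F)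
    (h : (A - l • (1 : Matrix (Fin n) (Fin n) F)).rank + 2 ≤ n) :
    ∃ u v : Fin n → F, A *ᵥ u = l • u ∧ A *ᵥ v = l • v ∧ u ≠ 0 ∧ ∀ c : F, v ≠ c • u := by
  set T := Matrix.toLin' (A - l • (1 : Matrix (Fin n) (Fin n) F)) with hT
  have hTapp : ∀ w : Fin n → F, T w = A *ᵥ w - l • w := by
    intro w
    rw [hT, Matrix.toLin'_apply, Matrix.sub_mulVec, Matrix.smul_mulVec, Matrix.one_mulVec]
  have h1 := LinearMap.finrank_range_add_finrank_ker T
  rw [Module.finrank_fintype_fun_eq_card, Fintype.card_fin] at h1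
  have h2 : Module.finrank F (LinearMap.range T) = (A - l • (1 : Matrix (Fin n) (Fin n) F)).rank := by
    rw [hT, Matrix.rank, Matrix.toLin'_apply']
  have h3 : 1 < Module.finrank F (LinearMap.ker T) := by omega
  have : Nontrivial (LinearMap.ker T) := Module.nontrivial_of_finrank_pos (R := F) (by omega)
  obtain ⟨u, hu⟩ := exists_ne (0 : LinearMap.ker T)
  obtain ⟨v, hv⟩ := exists_linearIndependent_pair_of_one_lt_finrank h3 hu
  have hmem : ∀ w : LinearMap.ker T, A *ᵥ (w : Fin n → F) = l • (w : Fin n → F) := by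
    intro w
    have h5 : T (w : Fin n → F) = 0 := w.2
    rw [hTapp, sub_eq_zero] at h5
    exact h5
  refine ⟨u, v, hmem u, hmem v, fun h0 => hu (Subtype.ext h0), ?_⟩
  intro c hc
  rw [LinearIndependent.pair_iff] at hv
  have := hv c (-1) (by
    apply Subtype.ext
    simp [hc])
  simpa using this.2

/-- diagonal elements of order `r` when `r ∣ q - 1`. -/
theorem exists_small_diag {n r : ℕ} [Fact r.Prime] (hn : 2 ≤ n) (h : r ∣ Fintype.card F - 1) :
    ∃ x : Matrix.SpecialLinearGroup (Fin n) F, x ^ r = 1 ∧ x ≠ 1 ∧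
      ((x : Matrix (Fin n) (Fin n) F) - 1).rank ≤ 2 := by
  classical
  have hcard : Nat.card Fˣ = Fintype.card F - 1 := by
    rw [Nat.card_eq_fintype_card, Fintype.card_units]
  obtain ⟨ζ, hζ⟩ := exists_prime_orderOf_dvd_card' (G := Fˣ) r (by rw [hcard]; exact h)
  let i0 : Fin n := ⟨0, by omega⟩
  let i1 : Fin n := ⟨1, by omega⟩
  have h01 : i0 ≠ i1 := by simp [i0, i1, Fin.ext_iff]
  let d : Fin n → F := Function.update (Function.update (fun _ => 1) i0 (ζ : F)) i1 ((ζ⁻¹ : Fˣ) : F)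
  have hd0 : d i0 = ζ := by simp [d, h01]
  have hd1 : d i1 = ((ζ⁻¹ : Fˣ) : F) := by simp [d]
  have hdj : ∀ j, j ≠ i0 → j ≠ i1 → d j = 1 := by
    intro j h0 h1
    simp [d, h0, h1]
  have hdet : (Matrix.diagonal d).det = 1 := by
    rw [Matrix.det_diagonal, ← Finset.mul_prod_erase _ _ (Finset.mem_univ i0),
      ← Finset.mul_prod_erase _ _ (Finset.mem_erase.2 ⟨h01.symm, Finset.mem_univ i1⟩), hd0, hd1,
      Finset.prod_eq_one, mul_one, ← Units.val_mul, mul_inv_cancel, Units.val_one]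
    intro j hj
    simp only [Finset.mem_erase, Finset.mem_univ, and_true] at hj
    exact hdj j hj.2 hj.1
  have hζr : (ζ : F) ^ r = 1 := by
    rw [← Units.val_pow_eq_pow_val, ← hζ, pow_orderOf_eq_one, Units.val_one]
  have hζ1 : (ζ : F) ≠ 1 := by
    intro h1
    have : ζ = 1 := Units.ext h1
    rw [this, orderOf_one] at hζ
    exact (Fact.out : r.Prime).one_lt.ne hζ
  obtain ⟨x0, hx0⟩ : ∃ x0 : Matrix.SpecialLinearGroup (Fin n) F,
      (x0 : Matrix (Fin n) (Fin n) F) = Matrix.diagonal d := ⟨⟨_, hdet⟩, rfl⟩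
  refine ⟨x0, ?_, ?_, ?_⟩
  · apply Matrix.SpecialLinearGroup.ext
    intro a b
    rw [Matrix.SpecialLinearGroup.coe_pow, Matrix.SpecialLinearGroup.coe_one, hx0]
    congr 1
    rw [Matrix.diagonal_pow, ← Matrix.diagonal_one]
    congr 1
    funext j
    by_cases h0 : j = i0
    · rw [h0, Pi.pow_apply, hd0, hζr]
    · by_cases h1 : j = i1
      · rw [h1, Pi.pow_apply, hd1, Units.val_inv_eq_inv_val, inv_pow, hζr, inv_one]
      · rw [Pi.pow_apply, hdj j h0 h1, one_pow]
  · intro h1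
    have := congrArg (fun t : Matrix.SpecialLinearGroup (Fin n) F =>
      (t : Matrix (Fin n) (Fin n) F) i0 i0) h1
    simp only [Matrix.SpecialLinearGroup.coe_one, Matrix.one_apply_eq] at this
    rw [hx0, Matrix.diagonal_apply_eq, hd0] at this
    exact hζ1 this
  · rw [hx0, ← Matrix.diagonal_one, Matrix.diagonal_sub, Matrix.rank_diagonal]
    calc Fintype.card {i // (d i - 1) ≠ 0} ≤ Fintype.card {i // i = i0 ∨ i = i1} := by
          apply Fintype.card_subtype_mono
          intro j hj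
          by_contra hcon
          push Not at hcon
          exact hj (by rw [hdj j hcon.1 hcon.2, sub_self])
      _ ≤ 2 := by
          rw [Fintype.card_subtype]
          calc (Finset.univ.filter (fun i => i = i0 ∨ i = i1)).card ≤ ({i0, i1} : Finset (Fin n)).card := by
                apply Finset.card_le_card
                intro j hj
                simpa using hj
            _ ≤ 2 := Finset.card_le_two

end Cfsg.Agent.Lib.Helper94EluSinger
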