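import Cfsg.Agent.Lib.Helper94M24D
import Cfsg.Agent.Lib.Helper10Trio

/-!
# Counting the octads, dodecads, sextets and trios fixed by an element (helper94)
-/

set_option autoImplicit false

namespace Cfsg.Agent.Lib.Helper94Fixed

open Cfsg Cfsg.Agent.Lib.Helper33Golay Cfsg.Agent.Lib.Helper94M24A Cfsg.Agent.Lib.Helper94M24B
  Cfsg.Agent.Lib.Helper94M24C Cfsg.Agent.Lib.Helper94M24D Cfsg.Agent.Lib.Helper33Sets
  Cfsg.Agent.Lib.Helper33Sextet Cfsg.Agent.Lib.Helper10Orb Cfsg.Agent.Lib.Helper10Fam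
  Cfsg.Agent.Lib.Helper10Trio
open scoped Pointwise

/-- the number of fixed objects is a class function -/
theorem ncard_fixed_conj {α : Type*} [MulAction (Equiv.Perm GolayPt) α] (F : Set α)
    (hF : ∀ g ∈ M24, ∀ x ∈ F, g • x ∈ F) (g k : Equiv.Perm GolayPt) (hk : k ∈ M24) :
    {x | x ∈ F ∧ g • x = x}.ncard = {x | x ∈ F ∧ (k * g * k⁻¹) • x = x}.ncard := by
  symm
  apply Cfsg.Agent.Lib.Helper33Transport.ncard_transport k
  intro U
  constructor
  · rintro ⟨h1, h2⟩
    refine ⟨?_, ?_⟩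
    · have := hF k⁻¹ (M24.inv_mem hk) _ h1
      rwa [inv_smul_smul] at this
    · rw [smul_smul] at h2
      have e : k * g * k⁻¹ * k = k * g := by group
      rw [e, mul_smul] at h2
      exact MulAction.injective k h2
  · rintro ⟨h1, h2⟩
    refine ⟨hF k hk _ h1, ?_⟩
    rw [smul_smul]
    have e : k * g * k⁻¹ * k = k * g := by group
    rw [e, mul_smul, h2]

def cntOct (P : ℕ) : ℕ :=
  ((List.range 4096).filter (fun i => octV i && Nat.beq (app P (encode i)) (encode i))).length

def cntDod (P : ℕ) : ℕ :=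
  ((List.range 4096).filter (fun i => dodV i && Nat.beq (app P (encode i)) (encode i))).length

def cntSex (P : ℕ) : ℕ :=
  ((List.range 4096).filter (fun i => sexV i && Nat.beq (sexAct P i) i)).length

def cntTrio (P : ℕ) : ℕ :=
  ((List.range 3795).filter (fun i => true && Nat.beq (actT P (trioCode i)) (trioCode i))).length

theorem ncard_oct {P : ℕ} (hP : inM24 P = true) :
    {o : Finset GolayPt | o ∈ octads ∧ toPerm P • o = o}.ncard = cntOct P := by
  unfold cntOct
  refine ncard_class octC (fun o => toPerm P • o = o)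
    (fun i => Nat.beq (app P (encode i)) (encode i)) ?_
  intro i _ _
  rw [smul_dec (inM24_valid hP), beq_iff]
  exact ⟨fun h => dec_injOn (app_lt (inM24_valid hP) _) (encode_lt i) h, fun h => by rw [h]⟩

theorem ncard_dod {P : ℕ} (hP : inM24 P = true) :
    {o : Finset GolayPt | o ∈ dodecads ∧ toPerm P • o = o}.ncard = cntDod P := by
  unfold cntDod
  refine ncard_class dodC (fun o => toPerm P • o = o)
    (fun i => Nat.beq (app P (encode i)) (encode i)) ?_
  intro i _ _
  rw [smul_dec (inM24_valid hP), beq_iff]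
  exact ⟨fun h => dec_injOn (app_lt (inM24_valid hP) _) (encode_lt i) h, fun h => by rw [h]⟩

theorem ncard_trio {P : ℕ} (hP : inM24 P = true) :
    {T : Finset (Finset GolayPt) | T ∈ trios ∧ toPerm P • T = T}.ncard = cntTrio P := by
  unfold cntTrio
  refine ncard_class trioC (fun o => toPerm P • o = o)
    (fun i => Nat.beq (actT P (trioCode i)) (trioCode i)) ?_
  intro i hi _
  rw [toPerm_smul_trioOf hP, beq_iff]
  exact ⟨fun h => trioOf_injOn (actT_mem hP (trioCode_mem hi)) (trioCode_mem hi) h, fun h => by rw [h]⟩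

theorem ncard_sex {P : ℕ} (hP : inM24 P = true) :
    {S : Finset (Finset GolayPt) | S ∈ sextets ∧ toPerm P • S = S}.ncard = cntSex P := by
  unfold cntSex
  refine ncard_class sexC (fun o => toPerm P • o = o) (fun i => Nat.beq (sexAct P i) i) ?_
  intro i hi hV
  rw [sexC.act_spec P hP i hi hV, beq_iff]
  refine ⟨fun h => ?_, fun h => by rw [h]⟩
  have hs : IsSyn i := isSyn_of hi hV
  have h0 := (sexList_props hs).2.1 (E6 i 0) (E6_zero_mem i)
  have hk : isK 4 (app P (E6 i 0)) = true := by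
    rw [isK_iff]
    refine ⟨app_lt (inM24_valid hP) _, ?_⟩
    rw [← card_dec, ← smul_dec (inM24_valid hP), Finset.card_smul_finset, card_dec]
    exact (isK_iff.1 h0.1).2
  exact sexOf_injOn (isSyn_syn hk).1 hs h

theorem inv_oct : ∀ g ∈ M24, ∀ x ∈ octads, g • x ∈ octads := octC.inv
theorem inv_dod : ∀ g ∈ M24, ∀ x ∈ dodecads, g • x ∈ dodecads := dodC.inv
theorem inv_sex : ∀ g ∈ M24, ∀ x ∈ sextets, g • x ∈ sextets := sexC.inv
theorem inv_trio : ∀ g ∈ M24, ∀ x ∈ trios, g • x ∈ trios := trioC.inv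

/-- counts for an element conjugate to a packed permutation -/
theorem counts {g k : Equiv.Perm GolayPt} {P : ℕ} (hP : inM24 P = true) (hk : k ∈ M24)
    (e : k * g * k⁻¹ = toPerm P) :
    {o : Finset GolayPt | o ∈ octads ∧ g • o = o}.ncard = cntOct P ∧
    {T : Finset (Finset GolayPt) | T ∈ trios ∧ g • T = T}.ncard = cntTrio P ∧
    {S : Finset (Finset GolayPt) | S ∈ sextets ∧ g • S = S}.ncard = cntSex P ∧
    {d : Finset GolayPt | d ∈ dodecads ∧ g • d = d}.ncard = cntDod P := by
  refine ⟨?_, ?_, ?_, ?_⟩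
  · rw [ncard_fixed_conj octads inv_oct g k hk, e, ncard_oct hP]
  · rw [ncard_fixed_conj trios inv_trio g k hk, e, ncard_trio hP]
  · rw [ncard_fixed_conj sextets inv_sex g k hk, e, ncard_sex hP]
  · rw [ncard_fixed_conj dodecads inv_dod g k hk, e, ncard_dod hP]

set_option maxRecDepth 100000 in
theorem cnt2A : cntOct t2A = 71 ∧ cntTrio t2A = 99 ∧ cntSex t2A = 91 ∧ cntDod t2A = 112 := by
  decide +kernel

set_option maxRecDepth 100000 in
theorem cnt2B : cntOct t2B = 15 ∧ cntTrio t2B = 75 ∧ cntSex t2B = 51 ∧ cntDod t2B = 32 := by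
  decide +kernel

set_option maxRecDepth 100000 in
theorem cnt3A : cntOct g3A = 21 ∧ cntTrio g3A = 15 ∧ cntSex g3A = 16 ∧ cntDod g3A = 20 := by
  decide +kernel

set_option maxRecDepth 100000 in
theorem cnt3B : cntOct g3B = 0 ∧ cntTrio g3B = 15 ∧ cntSex g3B = 7 ∧ cntDod g3B = 14 := by
  decide +kernel

end Cfsg.Agent.Lib.Helper94Fixed
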