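import Mathlib

/-!
PROJECT 92 (Huppert), piece `irr` : an element of Zsigmondy prime order acts irreducibly, its
centraliser is cyclic.
-/

set_option autoImplicit false

namespace Cfsg.Agent.Lib.Helper94HupIrr

open Subgroup

universe u v

section
variable {G : Type u} {V : Type v} [Group G] [AddCommGroup V] [Finite V] [DistribMulAction G V]

/-- fixed point congruence on a `z`-stable subgroup -/
theorem card_modEq {r : ℕ} (hr : r.Prime) {z : G} (hz : z ^ r = 1) (W : AddSubgroup V)
    (hW : ∀ w ∈ W, z • w ∈ W) :
    Nat.card W ≡ Nat.card {w : W // z • (w : V) = w} [MOD r] := by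
  classical
  have : Fact r.Prime := ⟨hr⟩
  have : Fintype W := Fintype.ofFinite _
  let f : Function.End W := fun w => ⟨z • (w : V), hW _ w.2⟩
  have hpow : ∀ (k : ℕ) (w : W), (((f ^ k) w : W) : V) = z ^ k • (w : V) := by
    intro k
    induction k with
    | zero => intro w; rw [pow_zero, pow_zero, one_smul]; rfl
    | succ k ih =>
      intro w
      rw [pow_succ', pow_succ', mul_smul, ← ih w]
      rfl
  have hf : f ^ r ^ 1 = 1 := by
    funext w
    apply Subtype.ext
    rw [pow_one, hpow, hz, one_smul]
    rfl
  have h := Equiv.Perm.card_fixedPoints_modEq hf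
  rw [Nat.card_eq_fintype_card]
  refine h.trans ?_
  rw [← Nat.card_eq_fintype_card]
  have : Nat.card (Function.fixedPoints f) = Nat.card {w : W // z • (w : V) = w} := by
    apply Nat.card_congr
    refine Equiv.subtypeEquivRight ?_
    intro w
    constructor
    · intro hw
      exact congrArg Subtype.val hw
    · intro hw
      exact Subtype.ext hw
  rw [this]

end

theorem pow_case {q n r c : ℕ} (hq : q.Prime) (hr : r.Prime) (hrq : ¬ r ∣ q)
    (hprim : ∀ i : ℕ, 0 < i → i < n → ¬ r ∣ q ^ i - 1) (hc : c ≤ n) {e : ℕ} (he : e ≤ c)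
    (h : q ^ c ≡ q ^ e [MOD r]) : c = e ∨ (c = n ∧ e = 0) := by
  by_contra hcon
  push Not at hcon
  have hlt : e < c := by
    have := hcon.1
    omega
  have h1 : r ∣ q ^ c - q ^ e :=
    (Nat.modEq_iff_dvd' (Nat.pow_le_pow_right hq.pos he)).1 h.symm
  have h2 : q ^ c - q ^ e = q ^ e * (q ^ (c - e) - 1) := by
    rw [Nat.mul_sub, mul_one, ← pow_add]
    congr 2
    omega
  rw [h2] at h1
  have h3 : r ∣ q ^ (c - e) - 1 := by
    rcases (Nat.Prime.dvd_mul hr).1 h1 with h | h
    · exact absurd (hr.dvd_of_dvd_pow h) hrq
    · exact h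
  refine hprim (c - e) (by omega) ?_ h3
  by_contra hge
  exact hcon.2 (by omega) (by omega)

theorem cyclic_centralizer {q n r : ℕ} (hq : q.Prime) {G : Type u} {V : Type v} [Group G] [Finite G]
    [AddCommGroup V] [Finite V] [DistribMulAction G V] [FaithfulSMul G V]
    (hV : ∀ v : V, q • v = 0) (hcard : Nat.card V = q ^ n) (hr : r.Prime) (hrd : r ∣ q ^ n - 1)
    (hprim : ∀ i : ℕ, 0 < i → i < n → ¬ r ∣ q ^ i - 1) {z : G} (hz : orderOf z = r) :
    IsCyclic (centralizer ({z} : Set G)) := by
  classical
  have hzr : z ^ r = 1 := hz ▸ pow_orderOf_eq_one z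
  have hz1 : z ≠ 1 := by
    rintro rfl
    rw [orderOf_one] at hz
    exact hr.one_lt.ne hz
  have hrq : ¬ r ∣ q := by
    intro h
    rcases Nat.eq_zero_or_pos n with h0 | h0
    · -- V trivial, so G trivial
      subst h0
      rw [pow_zero] at hcard
      have hsub : Subsingleton V := (Nat.card_eq_one_iff_unique.1 hcard).1
      exact hz1 (FaithfulSMul.eq_of_smul_eq_smul (α := V) fun v => Subsingleton.elim _ _)
    · have h1 : r ∣ q ^ n := dvd_pow h (by omega)
      have h2 : 1 ≤ q ^ n := Nat.one_le_pow _ _ hq.pos
      have h3 : r ∣ 1 := by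
        have := (Nat.dvd_sub h1 hrd)
        rwa [Nat.sub_sub_self h2] at this
      exact hr.one_lt.ne' (Nat.dvd_one.1 h3)
  -- orders of subgroups
  have hsub : ∀ W : AddSubgroup V, ∃ c, c ≤ n ∧ Nat.card W = q ^ c := by
    intro W
    have h1 : Nat.card W ∣ q ^ n := hcard ▸ AddSubgroup.card_addSubgroup_dvd_card W
    exact (Nat.dvd_prime_pow hq).1 h1
  -- fixed points
  let C : AddSubgroup V :=
    { carrier := {v | z • v = v}
      add_mem' := by
        intro a b ha hb
        simp only [Set.mem_ofPred_eq] at *
        rw [smul_add, ha, hb]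
      zero_mem' := smul_zero z
      neg_mem' := by
        intro a ha
        simp only [Set.mem_ofPred_eq] at *
        rw [smul_neg, ha] }
  have hfix : ∀ (W : AddSubgroup V), Nat.card {w : W // z • (w : V) = w} = Nat.card (W ⊓ C : AddSubgroup V) := by
    intro W
    apply Nat.card_congr
    exact
      { toFun := fun w => ⟨w.1.1, w.1.2, w.2⟩
        invFun := fun w => ⟨⟨w.1, w.2.1⟩, w.2.2⟩
        left_inv := fun w => rfl
        right_inv := fun w => rfl }
  have hCbot : C = ⊥ := by
    have h1 := card_modEq hr hzr (⊤ : AddSubgroup V) (fun w _ => AddSubgroup.mem_top _)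
    rw [hfix, top_inf_eq] at h1
    obtain ⟨c, hc, hcC⟩ := hsub C
    rw [hcC] at h1
    have htop : Nat.card (⊤ : AddSubgroup V) = q ^ n := by
      rw [← hcard]; exact AddSubgroup.card_top
    rw [htop] at h1
    rcases pow_case hq hr hrq hprim le_rfl hc h1 with h | ⟨_, h⟩
    · -- C = V
      exfalso
      have hCtop : C = ⊤ := by
        apply AddSubgroup.eq_top_of_card_eq
        rw [hcC, hcard, h]
      apply hz1
      apply FaithfulSMul.eq_of_smul_eq_smul (α := V)
      intro v
      rw [one_smul]
      have : v ∈ C := hCtop ▸ AddSubgroup.mem_top v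
      exact this
    · rw [h, pow_zero] at hcC
      exact AddSubgroup.eq_bot_of_card_eq _ hcC
  have hirr : ∀ W : AddSubgroup V, (∀ w ∈ W, z • w ∈ W) → W = ⊥ ∨ W = ⊤ := by
    intro W hW
    have h1 := card_modEq hr hzr W hW
    rw [hfix, hCbot, inf_bot_eq] at h1
    obtain ⟨c, hc, hcW⟩ := hsub W
    rw [hcW, AddSubgroup.card_bot] at h1
    have h1' : q ^ c ≡ q ^ 0 [MOD r] := by rwa [pow_zero]
    rcases pow_case hq hr hrq hprim hc (Nat.zero_le _) h1' with h | ⟨h, _⟩
    · left
      rw [h, pow_zero] at hcW
      exact AddSubgroup.eq_bot_of_card_eq _ hcW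
    · right
      apply AddSubgroup.eq_top_of_card_eq
      rw [hcW, hcard, h]
  have hVnt : Nontrivial V := by
    by_contra hnt
    rw [not_nontrivial_iff_subsingleton] at hnt
    exact hz1 (FaithfulSMul.eq_of_smul_eq_smul (α := V) fun v => Subsingleton.elim _ _)
  -- the centraliser ring
  let T : G →* AddMonoid.End V := DistribMulAction.toAddMonoidEnd G V
  have hT : ∀ (g : G) (v : V), T g v = g • v := fun g v => rfl
  let S : Subring (AddMonoid.End V) := Subring.centralizer {T z}
  have hSmem : ∀ a : AddMonoid.End V, a ∈ S ↔ T z * a = a * T z := by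
    intro a
    rw [Subring.mem_centralizer_iff]
    simp
  have hinj : ∀ a ∈ S, a ≠ 0 → ∀ v : V, a v = 0 → v = 0 := by
    intro a ha ha0 v hv
    let K : AddSubgroup V :=
      { carrier := {w | a w = 0}
        add_mem' := by
          intro x y hx hy
          simp only [Set.mem_ofPred_eq] at *
          rw [map_add, hx, hy, add_zero]
        zero_mem' := map_zero a
        neg_mem' := by
          intro x hx
          simp only [Set.mem_ofPred_eq] at *
          rw [map_neg, hx, neg_zero] }
    have hk : ∀ w ∈ K, z • w ∈ K := by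
      intro w hw
      have hw' : a w = 0 := hw
      have h2 : (a * T z) w = (T z * a) w := by rw [(hSmem a).1 ha]
      have h3 : a (z • w) = z • a w := h2
      rw [hw', smul_zero] at h3
      exact h3
    rcases hirr _ hk with h | h
    · have : v ∈ K := hv
      rw [h] at this
      exact this
    · exfalso
      apply ha0
      ext w
      have : w ∈ K := h ▸ AddSubgroup.mem_top w
      exact this
  have : Finite (AddMonoid.End V) := DFunLike.finite (V →+ V)
  have hfinS : Finite S := inferInstance
  have hnzd : NoZeroDivisors S := by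
    constructor
    intro a b hab
    by_cases ha : a = 0
    · exact Or.inl ha
    · right
      apply Subtype.ext
      ext v
      have h1 : (a.1 * b.1) v = 0 := by
        have : a.1 * b.1 = 0 := congrArg Subtype.val hab
        rw [this]; rfl
      have h2 : a.1 (b.1 v) = 0 := h1
      exact hinj a.1 a.2 (fun h => ha (Subtype.ext h)) _ h2
  have hntS : Nontrivial S := by
    refine ⟨0, 1, ?_⟩
    intro h
    obtain ⟨v, hv⟩ := exists_ne (0 : V)
    apply hv
    have : (0 : AddMonoid.End V) v = (1 : AddMonoid.End V) v := by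
      have h2 : ((0 : S) : AddMonoid.End V) = ((1 : S) : AddMonoid.End V) := congrArg Subtype.val h
      simpa using congrArg (fun a : AddMonoid.End V => a v) h2
    exact this.symm
  have hdom : IsDomain S := NoZeroDivisors.to_isDomain S
  have hfield : IsField S := Finite.isDomain_to_isField S
  let _ : Field S := hfield.toField
  let f : centralizer ({z} : Set G) →* S :=
    { toFun := fun g => ⟨T g.1, by
        rw [hSmem, ← map_mul, ← map_mul]
        congr 1
        exact (mem_centralizer_singleton_iff.1 g.2).symm⟩
      map_one' := by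
        apply Subtype.ext
        exact map_one T
      map_mul' := by
        intro a b
        apply Subtype.ext
        exact map_mul T a.1 b.1 }
  have hfinj : Function.Injective f := by
    intro a b hab
    apply Subtype.ext
    apply FaithfulSMul.eq_of_smul_eq_smul (α := V)
    intro v
    have h1 : T a.1 = T b.1 := congrArg Subtype.val hab
    rw [← hT, ← hT, h1]
  exact isCyclic_of_injective_ringHom f hfinj

end Cfsg.Agent.Lib.Helper94HupIrr
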