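import Mathlib

/-!
PROJECT 92 (Huppert), piece `ntfinal` : pure number theory.
-/

set_option autoImplicit false

namespace Cfsg.Agent.Lib.Helper94HupNtfinal

/-- an odd prime divisor of `q ^ (2 ^ a) + 1` is a primitive prime divisor of `q ^ (2 ^ (a+1)) - 1` -/
theorem primitive_of_dvd {q a p : ℕ} (hp : p.Prime) (hp2 : p ≠ 2) (hd : p ∣ q ^ (2 ^ a) + 1) :
    ∀ i : ℕ, 0 < i → i < 2 ^ (a + 1) → ¬ p ∣ q ^ i - 1 := by
  intro i hi0 hi hdi
  have : Fact p.Prime := ⟨hp⟩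
  have hq0 : 0 < q := by
    rcases Nat.eq_zero_or_pos q with h | h
    · subst h
      rw [zero_pow (by positivity)] at hd
      exact absurd (Nat.dvd_one.1 hd) hp.one_lt.ne'
    · exact h
  have h1 : ((q : ZMod p)) ^ (2 ^ a) = -1 := by
    have : ((q ^ (2 ^ a) + 1 : ℕ) : ZMod p) = 0 := (ZMod.natCast_eq_zero_iff _ _).2 hd
    push_cast at this
    exact eq_neg_of_add_eq_zero_left this
  have hne : ((q : ZMod p)) ^ (2 ^ a) ≠ 1 := by
    rw [h1]
    intro h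
    have h2 : (2 : ZMod p) = 0 := by
      have : (1 : ZMod p) + 1 = 0 := by
        nth_rewrite 1 [← h]
        ring
      rw [← this]; norm_num
    have h3 : ((2 : ℕ) : ZMod p) = 0 := by exact_mod_cast h2
    rw [ZMod.natCast_eq_zero_iff] at h3
    exact hp2 ((Nat.prime_dvd_prime_iff_eq hp Nat.prime_two).1 h3)
  have h2 : ((q : ZMod p)) ^ (2 ^ (a + 1)) = 1 := by
    rw [pow_succ, pow_mul, h1]; norm_num
  have hord : orderOf (q : ZMod p) = 2 ^ (a + 1) := orderOf_eq_prime_pow hne h2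
  have h3 : ((q : ZMod p)) ^ i = 1 := by
    have h4 : ((q ^ i - 1 : ℕ) : ZMod p) = 0 := (ZMod.natCast_eq_zero_iff _ _).2 hdi
    rw [Nat.cast_sub (Nat.one_le_pow _ _ hq0)] at h4
    push_cast at h4
    exact sub_eq_zero.1 h4
  have h5 : 2 ^ (a + 1) ∣ i := hord ▸ orderOf_dvd_of_pow_eq_one h3
  exact absurd (Nat.le_of_dvd hi0 h5) (by omega)

theorem three_pow_gt (h : ℕ) (hh : 3 ≤ h) : 4 * h + 1 < 3 ^ h := by
  induction h, hh using Nat.le_induction with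
  | base => norm_num
  | succ k hk ih => rw [pow_succ]; omega

theorem nt_final {q j : ℕ} (hq : q.Prime) (hq2 : q ≠ 2) (hj : 2 ≤ j)
    (h : ∀ r : ℕ, r.Prime → r ∣ q ^ (2 ^ j) - 1 → (∀ i : ℕ, 0 < i → i < 2 ^ j → ¬ r ∣ q ^ i - 1) →
      r = 2 ^ j + 1 ∧ ¬ r ^ 2 ∣ q ^ (2 ^ j) - 1) : q = 3 ∧ j = 2 := by
  obtain ⟨a, rfl⟩ : ∃ a, j = a + 2 := ⟨j - 2, by omega⟩
  have hq3 : 3 ≤ q := by
    have := hq.two_le
    omega
  have hqodd : Odd q := hq.odd_of_ne_two hq2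
  obtain ⟨hh, hhdef⟩ : ∃ hh, hh = 2 ^ (a + 1) := ⟨_, rfl⟩
  have hh2 : 2 ≤ hh := by
    rw [hhdef, pow_succ]
    have : 1 ≤ 2 ^ a := Nat.one_le_pow _ _ (by norm_num)
    omega
  have hn : 2 ^ (a + 2) = 2 * hh := by rw [hhdef]; ring
  have hfac : q ^ (2 ^ (a + 2)) - 1 = (q ^ hh + 1) * (q ^ hh - 1) := by
    have := Nat.sq_sub_sq (q ^ hh) 1
    rw [one_pow, ← pow_mul, mul_comm hh 2] at this
    rw [hn]
    exact this
  have hNd : (q ^ hh + 1) ∣ q ^ (2 ^ (a + 2)) - 1 := by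
    rw [hfac]; exact dvd_mul_right _ _
  -- N ≡ 2 mod 4
  have hmod : (q ^ hh + 1) % 4 = 2 := by
    have h1 : q ^ hh = (q ^ (2 ^ a)) ^ 2 := by rw [hhdef, ← pow_mul, pow_succ]
    have h2 : Odd (q ^ (2 ^ a)) := hqodd.pow
    obtain ⟨y, hy⟩ := h2
    rw [h1, hy]
    have : (2 * y + 1) ^ 2 + 1 = 4 * (y * y + y) + 2 := by ring
    rw [this]; omega
  obtain ⟨M, hM⟩ : ∃ M, q ^ hh + 1 = 2 * M := ⟨(q ^ hh + 1) / 2, by omega⟩
  have hModd : M % 2 = 1 := by omega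
  have hbig : 10 ≤ q ^ hh + 1 := by
    have h1 : 3 ^ 2 ≤ q ^ hh := (Nat.pow_le_pow_left hq3 2).trans (Nat.pow_le_pow_right (by omega) hh2)
    omega
  have hM1 : M ≠ 1 := by omega
  -- prime divisors of M
  have key : ∀ p : ℕ, p.Prime → p ∣ M → p = 2 ^ (a + 2) + 1 ∧ ¬ p ^ 2 ∣ q ^ (2 ^ (a + 2)) - 1 := by
    intro p hp hpM
    have hp2 : p ≠ 2 := by
      rintro rfl
      omega
    have hpN : p ∣ q ^ hh + 1 := by rw [hM]; exact hpM.mul_left _
    refine h p hp (hpN.trans hNd) ?_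
    have := primitive_of_dvd (q := q) (a := a + 1) hp hp2 (by rw [← hhdef]; exact hpN)
    exact this
  obtain ⟨p, hp, hpM⟩ := Nat.exists_prime_and_dvd hM1
  obtain ⟨M', hM'⟩ := hpM
  have hM'1 : M' = 1 := by
    by_contra hne
    obtain ⟨p', hp', hp'M⟩ := Nat.exists_prime_and_dvd hne
    have e1 := (key p hp ⟨M', hM'⟩).1
    have e2 := (key p' hp' (by rw [hM']; exact hp'M.mul_left _)).1
    have hsq : p ^ 2 ∣ M := by
      rw [hM', sq]
      exact Nat.mul_dvd_mul_left _ (by rw [e1, ← e2]; exact hp'M)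
    exact (key p hp ⟨M', hM'⟩).2 ((hsq.trans (by rw [hM]; exact dvd_mul_left _ _)).trans hNd)
  have hMp : M = 2 ^ (a + 2) + 1 := by
    rw [hM', hM'1, mul_one]
    exact (key p hp ⟨M', hM'⟩).1
  have heq : q ^ hh = 4 * hh + 1 := by
    rw [hMp, hn] at hM
    omega
  have hle : hh ≤ 2 := by
    by_contra hgt
    have h1 := three_pow_gt hh (by omega)
    have h2 : 3 ^ hh ≤ q ^ hh := Nat.pow_le_pow_left hq3 hh
    omega
  have hh_eq : hh = 2 := by omega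
  have ha : a = 0 := by
    rw [hh_eq] at hhdef
    by_contra hne
    have : 2 ^ 2 ≤ 2 ^ (a + 1) := Nat.pow_le_pow_right (by norm_num) (by omega)
    omega
  refine ⟨?_, by omega⟩
  rw [hh_eq] at heq
  have : q ^ 2 = 3 ^ 2 := by rw [heq]; norm_num
  exact Nat.pow_left_injective (n := 2) (by norm_num) this

end Cfsg.Agent.Lib.Helper94HupNtfinal
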