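import Mathlib

/-!
PROJECT 92 (Huppert), piece `prim` : pure number theory.
-/

set_option autoImplicit false

namespace Cfsg.Agent.Lib.Helper94HupPrim

theorem not_dvd_base {q n r : ℕ} (hq : 1 < q) (hn : 1 ≤ n) (hr : r.Prime) (hrd : r ∣ q ^ n - 1) :
    ¬ r ∣ q := by
  intro h
  have h1 : r ∣ q ^ n := dvd_pow h (by omega)
  have h2 : 1 ≤ q ^ n := Nat.one_le_pow _ _ (by omega)
  have h3 : r ∣ 1 := by
    have := (Nat.dvd_sub h1 hrd)
    rwa [Nat.sub_sub_self h2] at this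
  exact hr.one_lt.ne' (Nat.dvd_one.1 h3)

theorem lt_of_primitive {q n r : ℕ} (hq : 1 < q) (hn : 1 ≤ n) (hr : r.Prime) (hrd : r ∣ q ^ n - 1)
    (hprim : ∀ i : ℕ, 0 < i → i < n → ¬ r ∣ q ^ i - 1) : n < r := by
  by_contra hlt
  have hnd := not_dvd_base hq hn hr hrd
  have hcop : Nat.Coprime q r := ((Nat.Prime.coprime_iff_not_dvd hr).2 hnd).symm
  have h1 : q ^ (r - 1) ≡ 1 [MOD r] := by
    have := Nat.ModEq.pow_totient hcop
    rwa [Nat.totient_prime hr] at this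
  have h2 : r ∣ q ^ (r - 1) - 1 := (Nat.modEq_iff_dvd' (Nat.one_le_pow _ _ (by omega))).1 h1.symm
  have hr2 := hr.two_le
  exact hprim (r - 1) (by omega) (by omega) h2

theorem dvd_or_dvd_of_dvd_sq {r b s k : ℕ} (hr : r.Prime) (hr2 : r ≠ 2)
    (h : r ^ b ∣ s ^ (2 * k) - 1) : r ^ b ∣ s ^ k - 1 ∨ r ^ b ∣ s ^ k + 1 := by
  have hfac : s ^ (2 * k) - 1 = (s ^ k + 1) * (s ^ k - 1) := by
    have := Nat.sq_sub_sq (s ^ k) 1
    rw [one_pow, ← pow_mul, mul_comm k 2] at this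
    exact this
  rw [hfac] at h
  rcases Nat.eq_zero_or_pos (s ^ k) with h0 | hpos
  · left
    rw [h0]
    exact dvd_zero _
  by_cases hd : r ∣ s ^ k - 1
  · left
    have hnd : ¬ r ∣ s ^ k + 1 := by
      intro hd2
      have h3 : r ∣ (s ^ k + 1) - (s ^ k - 1) := Nat.dvd_sub hd2 hd
      have h4 : (s ^ k + 1) - (s ^ k - 1) = 2 := by omega
      rw [h4] at h3
      exact hr2 ((Nat.prime_dvd_prime_iff_eq hr Nat.prime_two).1 h3)
    have hc : Nat.Coprime (r ^ b) (s ^ k + 1) :=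
      Nat.Coprime.pow_left _ ((Nat.Prime.coprime_iff_not_dvd hr).2 hnd)
    exact hc.dvd_of_dvd_mul_left h
  · right
    have hc : Nat.Coprime (r ^ b) (s ^ k - 1) :=
      Nat.Coprime.pow_left _ ((Nat.Prime.coprime_iff_not_dvd hr).2 hd)
    exact hc.dvd_of_dvd_mul_right h

end Cfsg.Agent.Lib.Helper94HupPrim
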