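import Cfsg.Agent.Lib.Helper94M24E

/-!
# Subgroups of the group of the code acting faithfully as the full symmetric group on a set (helper94)
-/

set_option autoImplicit false

namespace Cfsg.Agent.Lib.Helper94Iso

open Cfsg
open scoped Pointwise

theorem apply_mem_iff {g : Equiv.Perm GolayPt} {E : Finset GolayPt} (h : g • E = E) (p : GolayPt) :
    g p ∈ E ↔ p ∈ E := by
  conv_lhs => rw [← h]
  exact Finset.smul_mem_smul_finset_iff g

/-- restriction to an invariant set -/
def resHom (H : Subgroup ↥M24) (E : Finset GolayPt)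
    (hstab : ∀ h ∈ H, ((h : ↥M24) : Equiv.Perm GolayPt) • E = E) : ↥H →* Equiv.Perm ↥E where
  toFun h := Equiv.Perm.subtypePerm ((h : ↥M24) : Equiv.Perm GolayPt) (fun x => apply_mem_iff (hstab h h.2) x)
  map_one' := by
    apply Equiv.ext; intro x; apply Subtype.ext; rfl
  map_mul' a b := by
    apply Equiv.ext; intro x; apply Subtype.ext; rfl

theorem resHom_apply (H : Subgroup ↥M24) (E : Finset GolayPt)
    (hstab : ∀ h ∈ H, ((h : ↥M24) : Equiv.Perm GolayPt) • E = E) (h : ↥H) (x : ↥E) :
    ((resHom H E hstab h x : ↥E) : GolayPt) = ((h : ↥M24) : Equiv.Perm GolayPt) x := rfl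

/-- a subgroup of order `n!` acting faithfully on an invariant set of `n` points is the symmetric group -/
theorem iso_perm_of_faithful (H : Subgroup ↥M24) (E : Finset GolayPt) (n : ℕ) (hE : E.card = n)
    (hcard : Nat.card H = n.factorial)
    (hstab : ∀ h ∈ H, ((h : ↥M24) : Equiv.Perm GolayPt) • E = E)
    (hfaith : ∀ h ∈ H, (∀ p ∈ E, ((h : ↥M24) : Equiv.Perm GolayPt) p = p) → h = 1) :
    Nonempty (↥H ≃* Equiv.Perm (Fin n)) := by
  have hinj : Function.Injective (resHom H E hstab) := by
    rw [injective_iff_map_eq_one]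
    intro h hh
    apply Subtype.ext
    apply hfaith h h.2
    intro p hp
    have := congrArg (fun f : Equiv.Perm ↥E => ((f ⟨p, hp⟩ : ↥E) : GolayPt)) hh
    simpa [resHom_apply] using this
  have hc : Nat.card ↥H = Nat.card (Equiv.Perm ↥E) := by
    rw [hcard, Nat.card_eq_fintype_card, Fintype.card_perm, Fintype.card_coe, hE]
  have hb : Function.Bijective (resHom H E hstab) :=
    (Nat.bijective_iff_injective_and_card _).2 ⟨hinj, hc⟩
  have e : ↥E ≃ Fin n := Fintype.equivFinOfCardEq (by rw [Fintype.card_coe, hE])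
  exact ⟨(MulEquiv.ofBijective _ hb).trans e.permCongrHom⟩

end Cfsg.Agent.Lib.Helper94Iso
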