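import Mathlib
import Cfsg.Agent.Lib.Helper98MinDefs

set_option autoImplicit false

/-! PROJECT 8 (minimal index of `PSL_n(q)`), piece `formA`. -/

namespace Cfsg.Agent.Lib.Helper94MinFormA

open Matrix Cfsg.Agent.Lib.Helper98MinDefs

variable {F : Type*} [Field F] [Fintype F] {ι : Type*} [Fintype ι] [DecidableEq ι]
  {Ω : Type*} [Fintype Ω] [DecidableEq Ω]
set_option linter.unusedSectionVars false

theorem formA (α : SpecialLinearGroup ι F →* Equiv.Perm Ω)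
    (hfpf : ∀ (v φ : ι → F) (ω : Ω), v ≠ 0 → φ ≠ 0 → φ ⬝ᵥ v = 0 → α (T v φ) ω ≠ ω)
    (htr : ∀ v : ι → F, v ≠ 0 → ∀ ω ω' : Ω, ∃ φ, φ ⬝ᵥ v = 0 ∧ α (T v φ) ω = ω')
    (e η : ι → F) (he : e ≠ 0) (hη : η ≠ 0) (heη : η ⬝ᵥ e = 0) (ω : Ω) :
    ∃ θ : (ι → F) → (ι → F),
      (∀ v w, η ⬝ᵥ v = 0 → η ⬝ᵥ w = 0 → θ v ⬝ᵥ w = θ w ⬝ᵥ v) ∧
      (∀ v, η ⬝ᵥ v = 0 → θ v ⬝ᵥ e = 0) ∧
      (∀ v, η ⬝ᵥ v = 0 → (∀ w, η ⬝ᵥ w = 0 → θ v ⬝ᵥ w = 0) → v ∈ Submodule.span F {e}) ∧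
      (∀ (x : SpecialLinearGroup ι F) (a b : F), a ≠ 0 → b ≠ 0 →
        (x : Matrix ι ι F) *ᵥ e = a • e →
        η ᵥ* ((x⁻¹ : SpecialLinearGroup ι F) : Matrix ι ι F) = b • η →
        ∀ v w, η ⬝ᵥ v = 0 → η ⬝ᵥ w = 0 →
          θ (b • ((x : Matrix ι ι F) *ᵥ v)) ⬝ᵥ ((x : Matrix ι ι F) *ᵥ w) = a * (θ v ⬝ᵥ w)) ∧
      ((2 : F) = 0 → ∀ v, η ⬝ᵥ v = 0 → θ v ⬝ᵥ v = 0) := by
  classical
  let St : Subgroup (SpecialLinearGroup ι F) := (MulAction.stabilizer (Equiv.Perm Ω) ω).comap α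
  have hSt : ∀ g, g ∈ St ↔ α g ω = ω := fun g => Iff.rfl
  let P : (ι → F) → (ι → F) → Prop := fun v φ => φ ⬝ᵥ e = 0 ∧ T e φ * T v η ∈ St
  have hex : ∀ v, ∃ φ, P v φ := by
    intro v
    obtain ⟨φ, h1, h2⟩ := htr e he (α (T v η) ω) ω
    exact ⟨φ, h1, by rw [hSt, map_mul, Equiv.Perm.mul_apply, h2]⟩
  have huniq : ∀ v φ φ', P v φ → P v φ' → φ = φ' := by
    rintro v φ φ' ⟨h1, h2⟩ ⟨h1', h2'⟩
    have h3 : T e φ * T v η * (T e φ' * T v η)⁻¹ ∈ St := St.mul_mem h2 (St.inv_mem h2')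
    have h4 : T e φ * T v η * (T e φ' * T v η)⁻¹ = T e (φ - φ') := by
      rw [sub_eq_add_neg, T_add_right h1 (by rw [neg_dotProduct, h1', neg_zero]), ← T_inv h1']
      group
    rw [h4, hSt] at h3
    by_contra hne
    exact hfpf e (φ - φ') ω he (sub_ne_zero.2 hne) (by rw [sub_dotProduct, h1, h1', sub_zero]) h3
  obtain ⟨θ, hθ⟩ : ∃ θ : (ι → F) → (ι → F), ∀ v, P v (θ v) := ⟨fun v => (hex v).choose, fun v => (hex v).choose_spec⟩
  have hθeq : ∀ v φ, P v φ → θ v = φ := fun v φ h => huniq v _ _ (hθ v) h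
  have hθe : ∀ v, θ v ⬝ᵥ e = 0 := fun v => (hθ v).1
  have hadd : ∀ v w, η ⬝ᵥ v = 0 → η ⬝ᵥ w = 0 → θ (v + w) = θ v + θ w - (θ w ⬝ᵥ v) • η := by
    intro v w hv hw
    apply hθeq
    have hz : (θ w - (θ w ⬝ᵥ v) • η) ⬝ᵥ e = 0 := by
      rw [sub_dotProduct, smul_dotProduct, hθe, heη, smul_zero, sub_zero]
    refine ⟨by rw [add_sub_assoc, add_dotProduct, hθe, hz, add_zero], ?_⟩
    have h1 := St.mul_mem (hθ v).2 (hθ w).2
    have h2 : T e (θ v) * T v η * (T e (θ w) * T w η)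
        = T e (θ v + θ w - (θ w ⬝ᵥ v) • η) * T (v + w) η := by
      have h3 := T_conj_T hv e (θ w)
      rw [heη, zero_smul, add_zero] at h3
      rw [T_add_left hv hw, add_sub_assoc, T_add_right (hθe v) hz, ← h3]
      group
    rwa [h2] at h1
  have hsym : ∀ v w, η ⬝ᵥ v = 0 → η ⬝ᵥ w = 0 → θ v ⬝ᵥ w = θ w ⬝ᵥ v := by
    intro v w hv hw
    have h1 := hadd v w hv hw
    have h2 := hadd w v hw hv
    rw [add_comm w v, h1] at h2
    have h3 : (θ v ⬝ᵥ w - θ w ⬝ᵥ v) • η = 0 := by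
      rw [sub_smul]
      have h4 : (θ v ⬝ᵥ w) • η - (θ w ⬝ᵥ v) • η
          = (θ v + θ w - (θ w ⬝ᵥ v) • η) - (θ w + θ v - (θ v ⬝ᵥ w) • η) := by abel
      rw [h4, h2, sub_self]
    exact sub_eq_zero.1 ((smul_eq_zero.1 h3).resolve_right hη)
  have hce : ∀ c : F, θ (c • e) = -(c • η) := by
    intro c
    apply hθeq
    have h0 : (c • η) ⬝ᵥ e = 0 := by rw [smul_dotProduct, heη, smul_zero]
    refine ⟨by rw [neg_dotProduct, h0, neg_zero], ?_⟩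
    rw [T_smul, ← T_inv h0, inv_mul_cancel]
    exact St.one_mem
  have hshift : ∀ (v : ι → F) (c : F), η ⬝ᵥ v = 0 → θ (v + c • e) = θ v - c • η := by
    intro v c hv
    rw [hadd v (c • e) hv (by rw [dotProduct_smul, heη, smul_zero]), hce, neg_dotProduct,
      smul_dotProduct, hv, smul_zero, neg_zero, zero_smul, sub_zero, sub_eq_add_neg]
  refine ⟨θ, hsym, fun v _ => hθe v, ?_, ?_, ?_⟩
  · intro v hv hall
    have hspan : θ v ∈ Submodule.span F {η} := by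
      by_contra h
      obtain ⟨x, hx1, hx2⟩ := exists_dual_pair h
      have := hall x (by rw [dotProduct_comm]; exact hx2)
      rw [dotProduct_comm, hx1] at this
      exact one_ne_zero this
    obtain ⟨c, hc⟩ := Submodule.mem_span_singleton.1 hspan
    have h1 := (hθ v).2
    rw [← hc, ← T_smul, ← T_add_left (by rw [dotProduct_smul, heη, smul_zero]) hv, hSt] at h1
    have h2 : c • e + v = 0 := by
      by_contra hne
      exact hfpf _ η ω hne hη (by rw [dotProduct_add, dotProduct_smul, heη, hv, smul_zero, add_zero]) h1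
    rw [Submodule.mem_span_singleton]
    exact ⟨-c, by rw [neg_smul]; exact (eq_neg_of_add_eq_zero_right h2).symm⟩
  · intro x a b ha hb hxe hηx v w hv hw
    obtain ⟨φ₀, hφ₀, h0⟩ := htr e he (α x ω) ω
    have hy : T e φ₀ * x ∈ St := by rw [hSt, map_mul, Equiv.Perm.mul_apply, h0]
    have hnφ₀ : (-φ₀) ⬝ᵥ e = 0 := by rw [neg_dotProduct, hφ₀, neg_zero]
    -- action of `y` and `y⁻¹`
    have y1 : ∀ u : ι → F, ((T e φ₀ * x : SpecialLinearGroup ι F) : Matrix ι ι F) *ᵥ u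
        = (x : Matrix ι ι F) *ᵥ u + (φ₀ ⬝ᵥ ((x : Matrix ι ι F) *ᵥ u)) • e := by
      intro u
      rw [Matrix.SpecialLinearGroup.coe_mul, ← mulVec_mulVec, T_mulVec hφ₀]
    have y3 : ∀ u : ι → F, u ᵥ* (((T e φ₀ * x)⁻¹ : SpecialLinearGroup ι F) : Matrix ι ι F)
        = u ᵥ* ((x⁻¹ : SpecialLinearGroup ι F) : Matrix ι ι F)
          + ((u ᵥ* ((x⁻¹ : SpecialLinearGroup ι F) : Matrix ι ι F)) ⬝ᵥ e) • (-φ₀) := by
      intro u
      rw [_root_.mul_inv_rev, Matrix.SpecialLinearGroup.coe_mul, ← vecMul_vecMul, T_inv hφ₀, vecMul_T hnφ₀]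
    have hxinv : ((x⁻¹ : SpecialLinearGroup ι F) : Matrix ι ι F) *ᵥ e = a⁻¹ • e := by
      have h1 : ((x⁻¹ : SpecialLinearGroup ι F) : Matrix ι ι F) *ᵥ ((x : Matrix ι ι F) *ᵥ e) = e := by
        rw [mulVec_mulVec, coe_inv_mul, one_mulVec]
      rw [hxe, mulVec_smul] at h1
      rw [eq_inv_smul_iff₀ ha]
      exact h1
    have hηx' : η ᵥ* (x : Matrix ι ι F) = b⁻¹ • η := by
      have h1 : (η ᵥ* ((x⁻¹ : SpecialLinearGroup ι F) : Matrix ι ι F)) ᵥ* (x : Matrix ι ι F) = η := by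
        rw [vecMul_vecMul, coe_inv_mul, vecMul_one]
      rw [hηx, smul_vecMul] at h1
      rw [eq_inv_smul_iff₀ hb]
      exact h1
    have hηxu : ∀ u, η ⬝ᵥ u = 0 → η ⬝ᵥ ((x : Matrix ι ι F) *ᵥ u) = 0 := by
      intro u hu
      rw [dotProduct_mulVec, hηx', smul_dotProduct, hu, smul_zero]
    have hθx : (θ v ᵥ* ((x⁻¹ : SpecialLinearGroup ι F) : Matrix ι ι F)) ⬝ᵥ e = 0 := by
      rw [← dotProduct_mulVec, hxinv, dotProduct_smul, hθe, smul_zero]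
    have hye : ((T e φ₀ * x : SpecialLinearGroup ι F) : Matrix ι ι F) *ᵥ e = a • e := by
      rw [y1, hxe, dotProduct_smul, hφ₀, smul_zero, zero_smul, add_zero]
    have hηy : η ᵥ* (((T e φ₀ * x)⁻¹ : SpecialLinearGroup ι F) : Matrix ι ι F) = b • η := by
      rw [y3, hηx, smul_dotProduct, heη, smul_zero, zero_smul, add_zero]
    have hθy : θ v ᵥ* (((T e φ₀ * x)⁻¹ : SpecialLinearGroup ι F) : Matrix ι ι F)
        = θ v ᵥ* ((x⁻¹ : SpecialLinearGroup ι F) : Matrix ι ι F) := by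
      rw [y3, hθx, zero_smul, add_zero]
    have hconj : (T e φ₀ * x) * (T e (θ v) * T v η) * (T e φ₀ * x)⁻¹ ∈ St :=
      St.mul_mem (St.mul_mem hy (hθ v).2) (St.inv_mem hy)
    have hc2 : (T e φ₀ * x) * (T e (θ v) * T v η) * (T e φ₀ * x)⁻¹
        = T e (a • (θ v ᵥ* ((x⁻¹ : SpecialLinearGroup ι F) : Matrix ι ι F)))
          * T (b • (((T e φ₀ * x : SpecialLinearGroup ι F) : Matrix ι ι F) *ᵥ v)) η := by
      have h7 : (T e φ₀ * x) * (T e (θ v) * T v η) * (T e φ₀ * x)⁻¹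
          = ((T e φ₀ * x) * T e (θ v) * (T e φ₀ * x)⁻¹) * ((T e φ₀ * x) * T v η * (T e φ₀ * x)⁻¹) := by
        group
      rw [h7, T_conj, T_conj, hye, hηy, hθy, T_smul, ← T_smul b]
    have hP : P (b • (((T e φ₀ * x : SpecialLinearGroup ι F) : Matrix ι ι F) *ᵥ v))
        (a • (θ v ᵥ* ((x⁻¹ : SpecialLinearGroup ι F) : Matrix ι ι F))) :=
      ⟨by rw [smul_dotProduct, hθx, smul_zero], by rw [← hc2]; exact hconj⟩
    have h5 := hθeq _ _ hP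
    rw [y1, smul_add, smul_smul, hshift _ _ (by rw [dotProduct_smul, hηxu v hv, smul_zero])] at h5
    have h6 : θ (b • ((x : Matrix ι ι F) *ᵥ v))
        = a • (θ v ᵥ* ((x⁻¹ : SpecialLinearGroup ι F) : Matrix ι ι F))
          + (b * (φ₀ ⬝ᵥ ((x : Matrix ι ι F) *ᵥ v))) • η := by
      rw [← h5]; abel
    rw [h6, add_dotProduct, smul_dotProduct, smul_dotProduct, hηxu w hw, smul_zero, add_zero,
      ← dotProduct_mulVec, mulVec_mulVec, coe_inv_mul, one_mulVec, smul_eq_mul]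
  · intro h2 v hv
    have h0 : θ 0 = 0 := by
      apply hθeq
      refine ⟨zero_dotProduct e, ?_⟩
      rw [T_zero_right, T_zero_left, one_mul]
      exact St.one_mem
    have h1 := hadd v v hv hv
    have hvv : v + v = 0 := by rw [← two_smul F v, h2, zero_smul]
    have hθθ : θ v + θ v = 0 := by rw [← two_smul F (θ v), h2, zero_smul]
    rw [hvv, h0, hθθ, zero_sub] at h1
    have h3 : (θ v ⬝ᵥ v) • η = 0 := by
      rw [← neg_eq_zero]; exact h1.symm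
    exact (smul_eq_zero.1 h3).resolve_right hη

end Cfsg.Agent.Lib.Helper94MinFormA
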