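import Mathlib
import Cfsg.Agent.Lib.Helper98MinDefs

set_option autoImplicit false

/-! PROJECT 8 (minimal index of `PSL_n(q)`), piece `killB`. -/

namespace Cfsg.Agent.Lib.Helper94MinKillB

open Matrix Cfsg.Agent.Lib.Helper98MinDefs

variable {F : Type*} [Field F] [Fintype F] {ι : Type*} [Fintype ι] [DecidableEq ι]
  {Ω : Type*} [Fintype Ω] [DecidableEq Ω]
set_option linter.unusedSectionVars false

lemma finrank_span_pair {e u : ι → F} (he : e ≠ 0) (hu : u ∉ Submodule.span F {e}) :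
    Module.finrank F (Submodule.span F {e, u}) = 2 := by
  have hli : LinearIndependent F ![e, u] := by
    rw [LinearIndependent.pair_iff' he]
    intro a ha
    exact hu (Submodule.mem_span_singleton.2 ⟨a, ha⟩)
  have h1 := finrank_span_eq_card hli
  rw [Matrix.range_cons, Matrix.range_cons, Matrix.range_empty, Set.union_empty,
    Set.singleton_union, Fintype.card_fin] at h1
  exact h1

/-- the main argument: if `T e η` fixes `ω` then all of `E*_η` fixes `ω`. -/
lemma main (α : SpecialLinearGroup ι F →* Equiv.Perm Ω) (hB : ∀ v : ι → F, v ≠ 0 → TypeB α v)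
    (ω : Ω) {e η u : ι → F} (he : e ≠ 0) (heη : η ⬝ᵥ e = 0)
    (hfix : α (T e η) ω = ω) (hu : η ⬝ᵥ u = 0) : α (T u η) ω = ω := by
  by_contra hne
  have hu0 : u ≠ 0 := by
    rintro rfl
    apply hne
    rw [T_zero_left, map_one]
    rfl
  obtain ⟨S, hS1, hS2, hS3⟩ := hB u hu0 ω
  obtain ⟨Se, hSe1, hSe2, hSe3⟩ := hB e he ω
  have hηS : η ∉ S := fun h => hne ((hS2 η hu).2 h)
  have hηSe : η ∈ Se := (hSe2 η heη).1 hfix
  have hspan : u ∉ Submodule.span F {e} := by
    intro h
    obtain ⟨c, rfl⟩ := Submodule.mem_span_singleton.1 h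
    apply hne
    rw [T_smul]
    exact (hSe2 (c • η) (by rw [smul_dotProduct, heη, smul_zero])).2 (Se.smul_mem c hηSe)
  have hperp : ∀ φ ∈ S, φ ⬝ᵥ e = 0 := by
    intro φ hφ
    by_contra hφe
    have h1 := T_conj_T heη u φ
    rw [hu, zero_smul, add_zero] at h1
    have h2 : α (T u (φ - (φ ⬝ᵥ e) • η)) ω = ω := by
      rw [← h1, map_mul, map_mul, map_inv, Equiv.Perm.mul_apply, Equiv.Perm.mul_apply]
      have h3 : (α (T e η))⁻¹ ω = ω := by
        rw [Equiv.Perm.inv_eq_iff_eq]; exact hfix.symm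
      rw [h3, (hS2 φ (hS1 φ hφ)).2 hφ, hfix]
    have h4 : φ - (φ ⬝ᵥ e) • η ∈ S :=
      (hS2 _ (by rw [sub_dotProduct, smul_dotProduct, hS1 φ hφ, hu]; simp)).1 h2
    have h5 : (φ ⬝ᵥ e) • η ∈ S := by
      have := S.sub_mem hφ h4
      simpa using this
    exact hηS ((S.smul_mem_iff hφe).1 h5)
  have hle : S ≤ perp (Submodule.span F {e, u}) := by
    intro φ hφ
    rw [mem_perp_span_pair]
    exact ⟨by rw [dotProduct_comm]; exact hperp φ hφ, by rw [dotProduct_comm]; exact hS1 φ hφ⟩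
  have hfr := finrank_span_pair he hspan
  have h6 := finrank_perp (Submodule.span F {e, u})
  have heq : S = perp (Submodule.span F {e, u}) := Submodule.eq_of_le_of_finrank_eq hle (by omega)
  apply hηS
  rw [heq, mem_perp_span_pair]
  exact ⟨by rw [dotProduct_comm]; exact heη, by rw [dotProduct_comm]; exact hu⟩

theorem killB [Nonempty Ω] (hn : 3 ≤ Fintype.card ι)
    (α : SpecialLinearGroup ι F →* Equiv.Perm Ω) (hB : ∀ v : ι → F, v ≠ 0 → TypeB α v)
    (hdual : (∀ φ : ι → F, φ ≠ 0 → TypeA (α.comp dualAut) φ) ∨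
      (∀ φ : ι → F, φ ≠ 0 → TypeB (α.comp dualAut) φ)) : False := by
  obtain ⟨ω⟩ := (inferInstance : Nonempty Ω)
  -- membership in `Λ_e`
  have hmem : ∀ e : ι → F, e ≠ 0 → ∀ S : Submodule F (ι → F), (∀ φ ∈ S, φ ⬝ᵥ e = 0) →
      (∀ φ, φ ⬝ᵥ e = 0 → (α (T e φ) ω = ω ↔ φ ∈ S)) →
      ∀ φ, φ ∈ S ↔ (φ ⬝ᵥ e = 0 ∧ ∀ u, φ ⬝ᵥ u = 0 → α (T u φ) ω = ω) := by
    intro e he S hS1 hS2 φ
    constructor
    · intro hφ
      exact ⟨hS1 φ hφ, fun u hu => main α hB ω he (hS1 φ hφ) ((hS2 φ (hS1 φ hφ)).2 hφ) hu⟩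
    · rintro ⟨h1, h2⟩
      exact (hS2 φ h1).1 (h2 e h1)
  let HH : Submodule F (ι → F) :=
    { carrier := {η | ∀ u, η ⬝ᵥ u = 0 → α (T u η) ω = ω}
      add_mem' := by
        intro a b ha hb
        obtain ⟨e, he, hae, hbe⟩ := exists_perp2 hn a b
        obtain ⟨S, hS1, hS2, -⟩ := hB e he ω
        have h1 : a ∈ S := (hmem e he S hS1 hS2 a).2 ⟨hae, ha⟩
        have h2 : b ∈ S := (hmem e he S hS1 hS2 b).2 ⟨hbe, hb⟩
        exact ((hmem e he S hS1 hS2 (a + b)).1 (S.add_mem h1 h2)).2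
      zero_mem' := by
        intro u _
        rw [T_zero_right, map_one]
        rfl
      smul_mem' := by
        intro c a ha
        obtain ⟨e, he, hae, -⟩ := exists_perp2 hn a a
        obtain ⟨S, hS1, hS2, -⟩ := hB e he ω
        have h1 : a ∈ S := (hmem e he S hS1 hS2 a).2 ⟨hae, ha⟩
        exact ((hmem e he S hS1 hS2 (c • a)).1 (S.smul_mem c h1)).2 }
  have hHH : ∀ η, η ∈ HH ↔ ∀ u, η ⬝ᵥ u = 0 → α (T u η) ω = ω := fun _ => Iff.rfl
  by_cases hex : ∃ e : ι → F, e ≠ 0 ∧ e ∈ perp HH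
  · obtain ⟨e, he, heH⟩ := hex
    obtain ⟨S, hS1, hS2, hS3⟩ := hB e he ω
    have hSH : S = HH := by
      ext φ
      rw [hmem e he S hS1 hS2 φ, hHH]
      constructor
      · exact fun h => h.2
      · exact fun h => ⟨heH φ h, h⟩
    have h1 := finrank_perp HH
    rw [hSH] at hS3
    have hne : perp HH ≠ ⊤ := by
      intro h
      rw [h, finrank_top, Module.finrank_fintype_fun_eq_card] at h1
      omega
    obtain ⟨e', -, he'⟩ := SetLike.exists_of_lt (lt_top_iff_ne_top.2 hne)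
    have he'0 : e' ≠ 0 := by
      rintro rfl
      exact he' (Submodule.zero_mem _)
    obtain ⟨S', hS1', hS2', hS3'⟩ := hB e' he'0 ω
    have hlt : S' < HH := by
      apply lt_of_le_of_ne
      · intro φ hφ
        exact ((hmem e' he'0 S' hS1' hS2' φ).1 hφ).2
      · intro h
        apply he'
        rw [mem_perp]
        intro φ hφ
        rw [← h] at hφ
        exact hS1' φ hφ
    have := Submodule.finrank_lt_finrank_of_lt hlt
    omega
  · push Not at hex
    have hbot : perp HH = ⊥ := by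
      rw [eq_bot_iff]
      intro e he
      by_contra h0
      exact hex e h0 he
    have h1 := finrank_perp HH
    rw [hbot, finrank_bot, zero_add] at h1
    have htop : HH = ⊤ := by
      apply Submodule.eq_top_of_finrank_eq
      rw [h1, Module.finrank_fintype_fun_eq_card]
    obtain ⟨e, he, -⟩ := exists_perp1 (by omega : 2 ≤ Fintype.card ι) (0 : ι → F)
    obtain ⟨S, hS1, hS2, hS3⟩ := hB e he ω
    have hS : S = perp (Submodule.span F {e}) := by
      ext φ
      rw [hmem e he S hS1 hS2 φ, mem_perp]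
      constructor
      · rintro ⟨h, -⟩ x hx
        obtain ⟨c, rfl⟩ := Submodule.mem_span_singleton.1 hx
        rw [smul_dotProduct, dotProduct_comm, h, smul_zero]
      · intro h
        refine ⟨by rw [dotProduct_comm]; exact h e (Submodule.mem_span_singleton_self e), ?_⟩
        have : φ ∈ HH := htop ▸ Submodule.mem_top
        exact this
    have h3 := finrank_perp (Submodule.span F {e})
    rw [finrank_span_singleton he, ← hS] at h3
    omega

end Cfsg.Agent.Lib.Helper94MinKillB
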