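import Mathlib
import Cfsg.Agent.Lib.Helper94NdDefs
import Cfsg.Agent.Lib.H90SwP45

set_option autoImplicit false
set_option linter.unusedSectionVars false
open Module Cfsg
open Cfsg.Agent.Lib.Helper99Symp Cfsg.Agent.Lib.H90SwDefs Cfsg.Agent.Lib.Helper94NdDefs
  Cfsg.Agent.Lib.Helper99SympForm Cfsg.Agent.Lib.H90SwMat

/-! Row S5956, piece N-D2 (notes/helper94/ELU7.md). -/

namespace Cfsg.Agent.Lib.Helper94NdD2

variable {F : Type*} [Field F] {d : ℕ}

local notation "VV" => (Fin d ⊕ Fin d → F)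
local notation "MM" => Matrix (Fin d ⊕ Fin d) (Fin d ⊕ Fin d) F

/-- N-D2 -/
theorem exists_max_elt [Fintype F] {r : ℕ} [Fact r.Prime] (hr2 : r ≠ 2) (hr : ¬ r ∣ Fintype.card F)
    (hrF : (r : F) ≠ 0) (hc : cc F r ≤ 2 * d) :
    ∃ x : Matrix.symplecticGroup (Fin d) F, x ^ r = 1 ∧ (∀ z : F, (x : MM) ≠ z • (1 : MM)) ∧
      ∀ W : Submodule F VV, W.map (Matrix.toLin' (x : MM)) ≤ W → NondegOn (sympB d) W →
        finrank F W % cc F r ≤ (2 * d) % cc F r := by
  have hrP : r.Prime := Fact.out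
  have hcpos : 0 < cc F r := cc_pos hr
  have hd : 0 < d := by omega
  obtain ⟨x, hxr, hrank⟩ := Cfsg.Agent.Lib.H90SwElt.elt (F := F) hr2 hr hrF (2 * d / cc F r) d
    (Nat.mul_div_le _ _)
  have hk : 0 < 2 * d / cc F r := Nat.div_pos hc hcpos
  have hE := finrank_eigen_add_rank (x : MM)
  rw [hrank] at hE
  have hdm := Nat.div_add_mod (2 * d) (cc F r)
  have hctx := ctx_of_sp hr2 hr hrF x hxr
  refine ⟨x, hxr, ?_, ?_⟩
  · intro z hz
    have hz1 : z = 1 := by
      -- z * z = 1 and z ^ r = 1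
      have hu : (Pi.single (Sum.inl ⟨0, hd⟩) 1 : VV) ≠ 0 := by
        intro h
        have := congrFun h (Sum.inl ⟨0, hd⟩)
        simp at this
      obtain ⟨v, hv⟩ := sympForm_nondeg d _ hu
      have h1 := sympForm_mulVec d x.2 (Pi.single (Sum.inl ⟨0, hd⟩) 1) v
      rw [hz] at h1
      simp only [Matrix.smul_mulVec, Matrix.one_mulVec] at h1
      rw [← sympB_apply, ← sympB_apply, map_smul, map_smul, LinearMap.smul_apply, smul_eq_mul,
        smul_eq_mul, ← mul_assoc] at h1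
      rw [← sympB_apply] at hv
      have hzz : z * z = 1 := mul_right_cancel₀ hv (by rw [h1, one_mul])
      have hzr : z ^ r = 1 := by
        have h3 : ((x ^ r : ↥(Matrix.symplecticGroup (Fin d) F)) : MM) = 1 := by rw [hxr]; rfl
        have h4 : ((x ^ r : ↥(Matrix.symplecticGroup (Fin d) F)) : MM) = (x : MM) ^ r := rfl
        rw [h4, hz, smul_pow, one_pow] at h3
        have h5 := congrFun (congrFun h3 (Sum.inl ⟨0, hd⟩)) (Sum.inl ⟨0, hd⟩)
        simpa using h5
      obtain ⟨k, hk⟩ := hrP.odd_of_ne_two hr2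
      rw [hk, pow_succ, pow_mul, pow_two, hzz, one_pow, one_mul] at hzr
      exact hzr
    rw [hz, hz1, one_smul, sub_self, Matrix.rank_zero] at hrank
    have : 0 < cc F r * (2 * d / cc F r) := Nat.mul_pos hcpos hk
    omega
  · intro W hW hN
    obtain ⟨k, hk⟩ := Cfsg.Agent.Lib.H90SwP45.finrank_congr_c hctx hW hN
    have h1 : finrank F ↥(W ⊓ Module.End.eigenspace (Matrix.toLin' (x : MM)) 1)
        ≤ finrank F ↥(Module.End.eigenspace (Matrix.toLin' (x : MM)) 1) :=
      Submodule.finrank_mono inf_le_right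
    rw [hk, Nat.add_mul_mod_self_left]
    calc _ ≤ finrank F ↥(W ⊓ Module.End.eigenspace (Matrix.toLin' (x : MM)) 1) := Nat.mod_le _ _
      _ ≤ _ := by omega

end Cfsg.Agent.Lib.Helper94NdD2
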