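import Cfsg.Agent.Lib.Helper97SpWrap
import Cfsg.Agent.Lib.Helper12AschNotSLWreath

set_option autoImplicit false

/-! Piece `D_pwreath` of the ASCH-SP project: a group containing all the symplectic transvections is not
contained in a tensor wreath subgroup. -/

namespace Cfsg.Agent.Lib.Helper94SpDPwreath

open Cfsg Cfsg.Geo Matrix Cfsg.Agent.Lib.Helper97GBase Cfsg.Agent.Lib.Helper96SpDefs
  Cfsg.Agent.Lib.Helper97SpProper Cfsg.Agent.Lib.Helper97SpTv
  Cfsg.Agent.Lib.Helper12AschNotSLWreath
open scoped MatrixGroups Kronecker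

variable {ι : Type} [Fintype ι] [DecidableEq ι] {F : Type*} [Field F]
  {f : (ι → F) → (ι → F) → F} {G : Subgroup (GL ι F)}

/-- the minor criterion for pure vectors -/
lemma pure_minor {k t : ℕ} {v : (Fin t → Fin k) → F} (hv : Pure v) (α β : Fin t → Fin k) (i : Fin t) :
    v α * v β = v (Function.update α i (β i)) * v (Function.update β i (α i)) := by
  obtain ⟨x, hx⟩ := hv
  rw [hx, hx, hx, hx, ← Finset.prod_mul_distrib, ← Finset.prod_mul_distrib]
  refine Finset.prod_congr rfl fun j _ => ?_
  by_cases h : j = i
  · subst h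
    simp [mul_comm]
  · simp [Function.update_of_ne h]

lemma pure_single {k t : ℕ} (α : Fin t → Fin k) : Pure (Pi.single α (1 : F)) := by
  classical
  refine ⟨fun i => Pi.single (α i) 1, fun a => ?_⟩
  simp only [Pi.single_apply, Finset.prod_ite_zero, Finset.prod_const_one]
  simp [funext_iff]

lemma glReindex_mulVec {κ : Type} [Fintype κ] [DecidableEq κ] (e : ι ≃ κ) (g : GL ι F) (x : κ → F) :
    ((glReindex e g : GL κ F) : Matrix κ κ F) *ᵥ x = ((g : Matrix ι ι F) *ᵥ (x ∘ e)) ∘ e.symm := by
  funext a
  have h : ((glReindex e g : GL κ F) : Matrix κ κ F) = Matrix.reindex e e (g : Matrix ι ι F) := rfl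
  rw [h]
  simp only [Matrix.mulVec, dotProduct, Function.comp, Matrix.reindex_apply, Matrix.submatrix_apply]
  rw [← Equiv.sum_comp e]
  simp

theorem not_le_wreath (hf : IsSymplecticForm f) (hG : ∀ u a, stv hf u a ∈ G) {k t : ℕ} (hk : 2 ≤ k)
    (ht : 2 ≤ t) (e : ι ≃ (Fin t → Fin k)) (P : GL ι F) : ¬ G ≤ tensorWreathSubgroup k t e P := by
  classical
  intro hle
  have hb := hf.bilinear
  -- coordinates
  set U : ((Fin t → Fin k) → F) → (ι → F) := fun x => (P : Matrix ι ι F) *ᵥ (x ∘ e) with hU
  have hUadd : ∀ x y, U (x + y) = U x + U y := by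
    intro x y
    simp only [hU]
    rw [← Matrix.mulVec_add]
    rfl
  have hUsmul : ∀ (c : F) x, U (c • x) = c • U x := by
    intro c x
    simp only [hU]
    rw [← Matrix.mulVec_smul]
    rfl
  -- the transvections preserve pure vectors
  have key : ∀ (x u : (Fin t → Fin k) → F), Pure x → Pure (x + f (U x) (U u) • u) := by
    intro x u hx
    have h1 := hle (hG (U u) 1)
    rw [Cfsg.Agent.Lib.Helper98AschGBasic.mem_tensorWreathSubgroup_iff] at h1
    have h2 := (pure_iff_of_mem h1 x).mp hx
    convert h2 using 1
    rw [glReindex_mulVec, Units.val_mul, Units.val_mul, ← Matrix.mulVec_mulVec, ← Matrix.mulVec_mulVec]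
    have h3 : (P : Matrix ι ι F) *ᵥ (x ∘ e) = U x := rfl
    rw [h3, stv_mulVec, one_mul, Matrix.mulVec_add, Matrix.mulVec_smul]
    have h4 : ∀ y, ((P⁻¹ : GL ι F) : Matrix ι ι F) *ᵥ U y = y ∘ e := by
      intro y
      simp only [hU]
      rw [Matrix.mulVec_mulVec, ← Units.val_mul, inv_mul_cancel, Units.val_one, Matrix.one_mulVec]
    rw [h4, h4]
    funext a
    simp
  -- (A)
  have hA : ∀ α β : Fin t → Fin k, ∀ i j : Fin t, i ≠ j → α i ≠ β i → α j ≠ β j →
      f (U (Pi.single α 1)) (U (Pi.single β 1)) = 0 := by
    intro α β i j hij hi hj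
    have h1 := pure_minor (key (Pi.single α 1) (Pi.single β 1) (pure_single α)) α β i
    have hαβ : α ≠ β := fun h => hi (congrFun h i)
    have e1 : Function.update α i (β i) ≠ α := by
      intro h
      have := congrFun h i
      simp at this
      exact hi this.symm
    have e2 : Function.update α i (β i) ≠ β := by
      intro h
      have := congrFun h j
      rw [Function.update_of_ne hij.symm] at this
      exact hj this
    simpa [Pi.single_apply, hαβ, hαβ.symm, e1, e2] using h1
  -- (B)
  have hB : ∀ α β : Fin t → Fin k, α ≠ β → f (U (Pi.single α 1)) (U (Pi.single β 1)) = 0 := by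
    intro α β hαβ
    obtain ⟨i, hi⟩ := Function.ne_iff.mp hαβ
    by_cases hex : ∃ j, j ≠ i ∧ α j ≠ β j
    · obtain ⟨j, hj, hj'⟩ := hex
      exact hA α β i j hj.symm hi hj'
    · push Not at hex
      obtain ⟨j, hj⟩ : ∃ j : Fin t, j ≠ i := by
        by_cases h0 : i = ⟨0, by omega⟩
        · refine ⟨⟨1, by omega⟩, ?_⟩
          rw [h0]
          intro h
          simpa using congrArg Fin.val h
        · exact ⟨_, fun h => h0 h.symm⟩
      obtain ⟨b, hbb⟩ : ∃ b : Fin k, b ≠ β j := by
        by_cases h0 : β j = ⟨0, by omega⟩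
        · refine ⟨⟨1, by omega⟩, ?_⟩
          rw [h0]
          intro h
          simpa using congrArg Fin.val h
        · exact ⟨_, fun h => h0 h.symm⟩
      have hαj : α j = β j := hex j hj
      set β' := Function.update β j b with hβ'
      have hβ'i : β' i = β i := by
        rw [hβ', Function.update_of_ne hj.symm]
      have hβ'j : β' j = b := by
        rw [hβ', Function.update_self]
      have h0 : f (U (Pi.single α 1)) (U (Pi.single β' 1)) = 0 := by
        apply hA α β' i j hj.symm
        · rw [hβ'i]; exact hi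
        · rw [hβ'j, hαj]; exact hbb.symm
      have h1 := pure_minor (key (Pi.single α 1) (Pi.single β 1 + Pi.single β' 1) (pure_single α)) α β' j
      rw [hUadd, hb.add_right, h0, add_zero] at h1
      have hαβ' : α ≠ β' := by
        intro h
        have := congrFun h i
        rw [hβ'i] at this
        exact hi this
      have hββ' : β ≠ β' := by
        intro h
        have := congrFun h j
        rw [hβ'j] at this
        exact hbb this.symm
      have e1 : Function.update α j (β' j) ≠ α := by
        intro h
        have := congrFun h j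
        rw [Function.update_self, hβ'j, hαj] at this
        exact hbb this
      have e2 : Function.update α j (β' j) ≠ β := by
        intro h
        have := congrFun h j
        rw [Function.update_self, hβ'j] at this
        exact hbb this
      have e3 : Function.update α j (β' j) ≠ β' := by
        intro h
        have := congrFun h i
        rw [Function.update_of_ne hj.symm, hβ'i] at this
        exact hi this
      simpa [Pi.single_apply, hαβ, hαβ.symm, hαβ', hαβ'.symm, hββ', hββ'.symm, e1, e2, e3] using h1
  -- conclusion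
  set α0 : Fin t → Fin k := fun _ => ⟨0, by omega⟩ with hα0
  have hne : U (Pi.single α0 1) ≠ 0 := by
    intro h0
    have h1 : ((P⁻¹ : GL ι F) : Matrix ι ι F) *ᵥ U (Pi.single α0 1) = (Pi.single α0 (1 : F)) ∘ e := by
      simp only [hU]
      rw [Matrix.mulVec_mulVec, ← Units.val_mul, inv_mul_cancel, Units.val_one, Matrix.one_mulVec]
    rw [h0, Matrix.mulVec_zero] at h1
    have := congrFun h1 (e.symm α0)
    simp at this
  obtain ⟨x, hx⟩ := (hf.nondegenerate _ hne).2
  apply hx
  let L : ((Fin t → Fin k) → F) →ₗ[F] F :=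
    { toFun := fun y => f (U (Pi.single α0 1)) (U y)
      map_add' := fun y z => by rw [hUadd, hb.add_right]
      map_smul' := fun c y => by rw [hUsmul, hb.smul_right]; rfl }
  have hL : L = 0 := by
    apply LinearMap.pi_ext
    intro β c
    have h1 : (Pi.single β c : (Fin t → Fin k) → F) = c • Pi.single β 1 := by
      funext a
      simp [Pi.single_apply]
    rw [h1, map_smul]
    have h2 : L (Pi.single β 1) = 0 := by
      show f (U (Pi.single α0 1)) (U (Pi.single β 1)) = 0
      by_cases h : α0 = β
      · rw [← h]; exact hf.alternating _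
      · exact hB α0 β h
    rw [h2]
    simp
  have hx' : x = U ((((P⁻¹ : GL ι F) : Matrix ι ι F) *ᵥ x) ∘ e.symm) := by
    simp only [hU]
    have : ((((P⁻¹ : GL ι F) : Matrix ι ι F) *ᵥ x) ∘ e.symm) ∘ e = ((P⁻¹ : GL ι F) : Matrix ι ι F) *ᵥ x := by
      funext a
      simp
    rw [this, Matrix.mulVec_mulVec, ← Units.val_mul, mul_inv_cancel, Units.val_one, Matrix.one_mulVec]
  rw [hx']
  exact LinearMap.congr_fun hL _

end Cfsg.Agent.Lib.Helper94SpDPwreath
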