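import Cfsg.Agent.Lib.Helper97SpWrap
import Cfsg.Agent.Lib.Helper95SpTenstwo
import Cfsg.Agent.Lib.Helper12SpTensform

set_option autoImplicit false
set_option linter.unusedSectionVars false

/-! Piece `D_tens24` of the ASCH-SP project: `Sp_2 ⊗ O_4^+` is not maximal in `Sp_8`. -/

namespace Cfsg.Agent.Lib.Helper94SpDTens24

open Cfsg Cfsg.Geo Matrix Cfsg.Agent.Lib.Helper97GBase Cfsg.Agent.Lib.Helper96SpDefs
  Cfsg.Agent.Lib.Helper97SpProper Cfsg.Agent.Lib.Helper97SpTv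
  Cfsg.Agent.Lib.Helper98AschGDefs Cfsg.Agent.Lib.Helper98AschGBasic
  Cfsg.Agent.Lib.Helper95SpTenstwo Cfsg.Agent.Lib.Helper95SpTensodd Cfsg.Agent.Lib.Helper97GForms
open scoped MatrixGroups Kronecker

variable {ι : Type} [Fintype ι] [DecidableEq ι] {F : Type*} [Field F]

/-! ### coordinates -/

section coords

variable {κ : Type} [Fintype κ] [DecidableEq κ]

/-- the coordinate map -/
def UU (e : ι ≃ κ) (P : GL ι F) (x : κ → F) : ι → F := (P : Matrix ι ι F) *ᵥ (x ∘ e)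

lemma UU_add (e : ι ≃ κ) (P : GL ι F) (x y : κ → F) : UU e P (x + y) = UU e P x + UU e P y := by
  unfold UU
  rw [← Matrix.mulVec_add]
  rfl

lemma UU_smul (e : ι ≃ κ) (P : GL ι F) (c : F) (x : κ → F) : UU e P (c • x) = c • UU e P x := by
  unfold UU
  rw [← Matrix.mulVec_smul]
  rfl

lemma UU_inj (e : ι ≃ κ) (P : GL ι F) {x y : κ → F} (h : UU e P x = UU e P y) : x = y := by
  unfold UU at h
  have h1 := congrArg (fun w => ((P⁻¹ : GL ι F) : Matrix ι ι F) *ᵥ w) h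
  simp only [Matrix.mulVec_mulVec, ← Units.val_mul, inv_mul_cancel, Units.val_one,
    Matrix.one_mulVec] at h1
  funext a
  have := congrFun h1 (e.symm a)
  simpa using this

lemma UU_surj (e : ι ≃ κ) (P : GL ι F) (u : ι → F) : ∃ x : κ → F, u = UU e P x :=
  exists_coords e P u

lemma conj_UU (e : ι ≃ κ) (P : GL ι F) (M : Matrix κ κ F) (x : κ → F) :
    ((P : Matrix ι ι F) * Matrix.reindex e.symm e.symm M * ((P⁻¹ : GL ι F) : Matrix ι ι F)) *ᵥ
      UU e P x = UU e P (M *ᵥ x) :=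
  conj_reindex_mulVec e P M x

end coords

/-! ### pure tensors -/

/-- pure tensors -/
def pt {m n : ℕ} (x : Fin m → F) (w : Fin n → F) : Fin m × Fin n → F := fun p => x p.1 * w p.2

lemma kron_mulVec_pt {m n : ℕ} (a : Matrix (Fin m) (Fin m) F) (b : Matrix (Fin n) (Fin n) F)
    (x : Fin m → F) (w : Fin n → F) : (a ⊗ₖ b) *ᵥ pt x w = pt (a *ᵥ x) (b *ᵥ w) := by
  funext p
  simp only [Matrix.mulVec, dotProduct, pt, Matrix.kroneckerMap_apply]
  rw [Fintype.sum_prod_type, Finset.sum_mul_sum]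
  refine Finset.sum_congr rfl fun i _ => Finset.sum_congr rfl fun j _ => ?_
  ring

lemma formOfGram_pt {m n : ℕ} (G₁ : Matrix (Fin m) (Fin m) F) (G₂ : Matrix (Fin n) (Fin n) F)
    (x x' : Fin m → F) (w w' : Fin n → F) :
    formOfGram id (G₁ ⊗ₖ G₂) (pt x w) (pt x' w') =
      formOfGram id G₁ x x' * formOfGram id G₂ w w' := by
  simp only [formOfGram, id, pt, Matrix.kroneckerMap_apply, Fintype.sum_prod_type]
  rw [Finset.sum_mul_sum]
  refine Finset.sum_congr rfl fun i _ => Finset.sum_congr rfl fun j _ => ?_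
  rw [Finset.sum_mul_sum]
  refine Finset.sum_congr rfl fun i' _ => Finset.sum_congr rfl fun j' _ => ?_
  ring

lemma pt_minor {m n : ℕ} (x : Fin m → F) (w : Fin n → F) (i i' : Fin m) (j j' : Fin n) :
    pt x w (i, j) * pt x w (i', j') = pt x w (i, j') * pt x w (i', j) := by
  simp only [pt]
  ring

/-! ### the standard hyperbolic form in dimension four -/

/-- the Gram matrix of `J0 ⊗ J0` -/
def H4 (F : Type*) [Field F] : Matrix (Fin 4) (Fin 4) F :=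
  !![0, 0, 0, 1; 0, 0, -1, 0; 0, -1, 0, 0; 1, 0, 0, 0]

lemma formOfGram_J0 (x y : Fin 2 → F) : formOfGram id (J0 F) x y = x 0 * y 1 - x 1 * y 0 := by
  simp [formOfGram, J0, Fin.sum_univ_two]
  ring

lemma formOfGram_H4 (x y : Fin 4 → F) :
    formOfGram id (H4 F) x y = x 0 * y 3 - x 1 * y 2 - x 2 * y 1 + x 3 * y 0 := by
  simp [formOfGram, H4, Fin.sum_univ_four]
  ring

lemma H4_mul_H4 : H4 F * H4 F = 1 := by
  ext i j
  fin_cases i <;> fin_cases j <;> simp [H4, Matrix.mul_apply, Fin.sum_univ_four]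

/-- first digit -/
def d1 : Fin 4 → Fin 2 := ![0, 0, 1, 1]
/-- second digit -/
def d2 : Fin 4 → Fin 2 := ![0, 1, 0, 1]
/-- from the digits -/
def ph : Fin 2 → Fin 2 → Fin 4 := ![![0, 1], ![2, 3]]

/-- the swap of the first two of the three factors -/
def tauFun (p : Fin 2 × Fin 4) : Fin 2 × Fin 4 := (d1 p.2, ph p.1 (d2 p.2))

lemma tauFun_tauFun : ∀ p, tauFun (tauFun p) = p := by decide

/-- the swap as a permutation -/
def tau : Equiv.Perm (Fin 2 × Fin 4) := ⟨tauFun, tauFun, tauFun_tauFun, tauFun_tauFun⟩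

lemma tau_mul_tau : tau * tau = 1 := by
  ext1 p
  exact tauFun_tauFun p

lemma gram_tau (p q : Fin 2 × Fin 4) :
    (J0 F ⊗ₖ H4 F) (tau p) (tau q) = (J0 F ⊗ₖ H4 F) p q := by
  obtain ⟨i, a⟩ := p
  obtain ⟨j, b⟩ := q
  fin_cases i <;> fin_cases a <;> fin_cases j <;> fin_cases b <;>
    simp [tau, tauFun, d1, d2, ph, J0, H4, Matrix.kroneckerMap_apply]

lemma formOfGram_tau (x y : Fin 2 × Fin 4 → F) :
    formOfGram id (J0 F ⊗ₖ H4 F) (x ∘ tau) (y ∘ tau) = formOfGram id (J0 F ⊗ₖ H4 F) x y := by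
  unfold formOfGram
  rw [← Equiv.sum_comp tau (fun a => ∑ b, x a * (J0 F ⊗ₖ H4 F) a b * id (y b))]
  refine Finset.sum_congr rfl fun a _ => ?_
  rw [← Equiv.sum_comp tau (fun b => x (tau a) * (J0 F ⊗ₖ H4 F) (tau a) b * id (y b))]
  refine Finset.sum_congr rfl fun b _ => ?_
  rw [gram_tau]
  rfl

/-- a singular vector is a pure tensor -/
lemma exists_factor {w : Fin 4 → F} (hw : w 0 * w 3 = w 1 * w 2) :
    ∃ y z : Fin 2 → F, ∀ a, w a = y (d1 a) * z (d2 a) := by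
  by_cases h0 : w 0 = 0
  · rw [h0, zero_mul] at hw
    rcases mul_eq_zero.mp hw.symm with h1 | h2
    · refine ⟨![0, 1], ![w 2, w 3], fun a => ?_⟩
      fin_cases a <;> simp [d1, d2, h0, h1]
    · refine ⟨![w 1, w 3], ![0, 1], fun a => ?_⟩
      fin_cases a <;> simp [d1, d2, h0, h2]
  · refine ⟨![1, w 2 / w 0], ![w 0, w 1], fun a => ?_⟩
    fin_cases a <;> simp [d1, d2]
    · field_simp
    · field_simp
      linear_combination hw

/-! ### the intermediate subgroup -/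

/-- the stabiliser in `I` of a set of vectors -/
def stabP (I : Subgroup (GL ι F)) (PP : (ι → F) → Prop) : Subgroup (GL ι F) where
  carrier := {g | g ∈ I ∧ ∀ v, PP v ↔ PP ((g : Matrix ι ι F) *ᵥ v)}
  mul_mem' := by
    rintro g h ⟨hg, hg'⟩ ⟨hh, hh'⟩
    refine ⟨I.mul_mem hg hh, fun v => ?_⟩
    rw [Units.val_mul, ← Matrix.mulVec_mulVec, ← hg', ← hh']
  one_mem' := ⟨I.one_mem, fun v => by simp⟩
  inv_mem' := by
    rintro g ⟨hg, hg'⟩
    refine ⟨I.inv_mem hg, fun v => ?_⟩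
    rw [hg' (((g⁻¹ : GL ι F) : Matrix ι ι F) *ᵥ v), Matrix.mulVec_mulVec, ← Units.val_mul,
      mul_inv_cancel, Units.val_one, Matrix.one_mulVec]

/-- the pure tensors `x ⊗ w` with `w` singular -/
def PP (e : ι ≃ Fin 2 × Fin 4) (P : GL ι F) (v : ι → F) : Prop :=
  ∃ (x : Fin 2 → F) (w : Fin 4 → F), w 0 * w 3 = w 1 * w 2 ∧ v = UU e P (pt x w)

section core

variable {f : (ι → F) → (ι → F) → F} {I : Subgroup (GL ι F)}
  (hI : ∀ g : GL ι F, g ∈ I ↔ ∀ u v, f ((g : Matrix ι ι F) *ᵥ u) ((g : Matrix ι ι F) *ᵥ v) = f u v)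
  (e : ι ≃ Fin 2 × Fin 4) (P : GL ι F) {c : F} (hc : c ≠ 0)
  (hT : ∀ x y : Fin 2 × Fin 4 → F,
    f (UU e P x) (UU e P y) = c * formOfGram id (J0 F ⊗ₖ H4 F) x y)

include hI hc hT in
lemma tens_pres (h2 : (2 : F) ≠ 0) {g : GL ι F} (hgT : g ∈ tensorProductSubgroup 2 4 e P) (hgI : g ∈ I)
    {v : ι → F} (hv : PP e P v) : PP e P ((g : Matrix ι ι F) *ᵥ v) := by
  obtain ⟨a, b, hg⟩ := (mem_tensorProductSubgroup_iff e P g).1 hgT
  obtain ⟨x, w, hw, rfl⟩ := hv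
  have hact : ∀ (x : Fin 2 → F) (w : Fin 4 → F), (g : Matrix ι ι F) *ᵥ UU e P (pt x w) =
      UU e P (pt ((a : Matrix (Fin 2) (Fin 2) F) *ᵥ x) ((b : Matrix (Fin 4) (Fin 4) F) *ᵥ w)) := by
    intro x w
    rw [hg]
    unfold tens
    rw [conj_UU, kron_mulVec_pt]
  refine ⟨_, _, ?_, hact x w⟩
  have h1 := (hI g).1 hgI (UU e P (pt (((a⁻¹ : GL (Fin 2) F) : Matrix (Fin 2) (Fin 2) F) *ᵥ ![1, 0]) w))
    (UU e P (pt (((a⁻¹ : GL (Fin 2) F) : Matrix (Fin 2) (Fin 2) F) *ᵥ ![0, 1]) w))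
  rw [hact, hact, hT, hT, formOfGram_pt, formOfGram_pt, Matrix.mulVec_mulVec, Matrix.mulVec_mulVec,
    ← Units.val_mul, mul_inv_cancel, Units.val_one, Matrix.one_mulVec, Matrix.one_mulVec,
    formOfGram_H4, formOfGram_H4, formOfGram_J0 ![1, 0] ![0, 1]] at h1
  set w' := (b : Matrix (Fin 4) (Fin 4) F) *ᵥ w with hw'
  have h3 : w 0 * w 3 - w 1 * w 2 - w 2 * w 1 + w 3 * w 0 = 0 := by linear_combination 2 * hw
  rw [h3, mul_zero, mul_zero] at h1
  have h4 : c * 2 * (w' 0 * w' 3 - w' 1 * w' 2) = 0 := by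
    simp at h1
    rcases h1 with h1 | h1
    · exact absurd h1 hc
    · linear_combination c * h1
  have h5 := (mul_eq_zero.mp h4).resolve_left (mul_ne_zero hc h2)
  exact sub_eq_zero.mp h5

include hI hc hT in
lemma tens_le (h2 : (2 : F) ≠ 0) : tensorProductSubgroup 2 4 e P ⊓ I ≤ stabP I (PP e P) := by
  rintro g ⟨hgT, hgI⟩
  refine ⟨hgI, fun v => ⟨fun hv => tens_pres hI e P hc hT h2 hgT hgI hv, fun hv => ?_⟩⟩
  have := tens_pres hI e P hc hT h2 (inv_mem hgT) (inv_mem hgI) hv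
  rwa [Matrix.mulVec_mulVec, ← Units.val_mul, inv_mul_cancel, Units.val_one, Matrix.one_mulVec] at this

include hI hc hT in
lemma stab_ne (hf : IsSymplecticForm f) : ¬ I ≤ stabP I (PP e P) := by
  intro hle
  set u := UU e P (pt ![0, 1] ![0, 0, 0, 1]) with hu
  set v := UU e P (pt ![1, 0] ![1, 0, 0, 0]) with hv
  have hg : stv hf u 1 ∈ I := (hI _).2 (fun x y => stv_fixes hf u 1 x y)
  have h1 := ((hle hg).2 v).1 ⟨![1, 0], ![1, 0, 0, 0], by simp, rfl⟩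
  obtain ⟨x, w, -, h2⟩ := h1
  rw [stv_mulVec, one_mul, hu, hv, hT, formOfGram_pt, formOfGram_J0, formOfGram_H4, ← UU_smul,
    ← UU_add] at h2
  have h3 := UU_inj e P h2
  have h4 := pt_minor x w 0 1 0 3
  rw [← h3] at h4
  simp [pt] at h4
  exact hc h4

/-- the swap as an invertible matrix -/
def tauGL (F : Type*) [Field F] : GL (Fin 2 × Fin 4) F :=
  ⟨tau.permMatrix F, tau.permMatrix F, by rw [← Matrix.permMatrix_mul, tau_mul_tau, Matrix.permMatrix_one],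
    by rw [← Matrix.permMatrix_mul, tau_mul_tau, Matrix.permMatrix_one]⟩

/-- the swap in `GL ι F` -/
def sw : GL ι F := P * glReindex e.symm (tauGL F) * P⁻¹

lemma sw_UU (x : Fin 2 × Fin 4 → F) : (sw e P : Matrix ι ι F) *ᵥ UU e P x = UU e P (x ∘ tau) := by
  have h : (sw e P : Matrix ι ι F) = (P : Matrix ι ι F) *
      Matrix.reindex e.symm e.symm (tau.permMatrix F) * ((P⁻¹ : GL ι F) : Matrix ι ι F) := rfl
  rw [h, conj_UU, Matrix.permMatrix_mulVec]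

include hI hT in
lemma sw_mem_I : sw e P ∈ I := by
  rw [hI]
  intro u v
  obtain ⟨x, rfl⟩ := UU_surj e P u
  obtain ⟨y, rfl⟩ := UU_surj e P v
  rw [sw_UU, sw_UU, hT, hT, formOfGram_tau]

lemma sw_pres {v : ι → F} (hv : PP e P v) : PP e P ((sw e P : Matrix ι ι F) *ᵥ v) := by
  obtain ⟨x, w, hw, rfl⟩ := hv
  obtain ⟨y, z, hyz⟩ := exists_factor hw
  refine ⟨y, fun a => x (d1 a) * z (d2 a), ?_, ?_⟩
  · simp [d1, d2]
    ring
  · rw [sw_UU]
    congr 1
    funext p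
    obtain ⟨i, a⟩ := p
    simp only [Function.comp, pt, tau, Equiv.coe_fn_mk, tauFun, hyz]
    fin_cases i <;> fin_cases a <;> simp [d1, d2, ph] <;> ring

lemma sw_sw (v : ι → F) : (sw e P : Matrix ι ι F) *ᵥ ((sw e P : Matrix ι ι F) *ᵥ v) = v := by
  obtain ⟨x, rfl⟩ := UU_surj e P v
  rw [sw_UU, sw_UU]
  congr 1
  funext p
  exact congrArg x (tauFun_tauFun p)

include hI hT in
lemma sw_mem : sw e P ∈ stabP I (PP e P) := by
  refine ⟨sw_mem_I hI e P hT, fun v => ⟨sw_pres e P, fun hv => ?_⟩⟩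
  have := sw_pres e P hv
  rwa [sw_sw] at this

lemma sw_not_mem : sw e P ∉ tensorProductSubgroup 2 4 e P := by
  intro hmem
  obtain ⟨a, b, hg⟩ := (mem_tensorProductSubgroup_iff e P _).1 hmem
  have h1 := sw_UU e P (pt ![1, 0] ![1, 0, 0, 1])
  rw [hg] at h1
  unfold tens at h1
  rw [conj_UU, kron_mulVec_pt] at h1
  have h3 := UU_inj e P h1
  have h4 := pt_minor ((a : Matrix (Fin 2) (Fin 2) F) *ᵥ ![1, 0])
    ((b : Matrix (Fin 4) (Fin 4) F) *ᵥ ![1, 0, 0, 1]) 0 1 0 1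
  rw [h3] at h4
  simp [pt, tau, tauFun, d1, d2, ph] at h4

include hI hc hT in
theorem core (h2 : (2 : F) ≠ 0) (hf : IsSymplecticForm f) :
    ∃ K, tensorProductSubgroup 2 4 e P ⊓ I < K ∧ K < I := by
  refine ⟨stabP I (PP e P), lt_of_le_of_ne (tens_le hI e P hc hT h2) ?_, lt_of_le_of_ne ?_ ?_⟩
  · intro h
    have h1 := sw_mem hI e P hT
    rw [← h] at h1
    exact sw_not_mem e P h1.1
  · intro g hg
    exact hg.1
  · intro h
    exact stab_ne hI e P hc hT hf h.ge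

end core

/-! ### reduction to the standard forms -/

lemma formOfGram_gram {f : (ι → F) → (ι → F) → F} (hb : IsBilinearForm f) (x y : ι → F) :
    formOfGram id (gramMatrix f) x y = f x y := by
  rw [(sesq_of_bilinear hb).left_sum x y]
  unfold formOfGram
  refine Finset.sum_congr rfl fun a _ => ?_
  rw [(sesq_of_bilinear hb).right_sum, Finset.mul_sum]
  refine Finset.sum_congr rfl fun b _ => ?_
  simp only [gramMatrix, id, RingEquiv.refl_apply]
  ring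

lemma gram_symp {f₁ : (Fin 2 → F) → (Fin 2 → F) → F} (hf₁ : IsSymplecticForm f₁) :
    ∃ γ : F, γ ≠ 0 ∧ gramMatrix f₁ = γ • J0 F := by
  refine ⟨f₁ (Pi.single 0 1) (Pi.single 1 1), ?_, ?_⟩
  · intro h0
    obtain ⟨x, hx⟩ := (hf₁.nondegenerate (Pi.single 0 1) (by
      intro h
      simpa using congrFun h 0)).2
    apply hx
    have hx' : x = x 0 • Pi.single 0 1 + x 1 • Pi.single 1 1 := by
      funext i
      fin_cases i <;> simp
    rw [hx', hf₁.bilinear.add_right, hf₁.bilinear.smul_right, hf₁.bilinear.smul_right,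
      hf₁.alternating, h0]
    simp
  · ext i j
    fin_cases i <;> fin_cases j <;> simp [gramMatrix, J0, hf₁.alternating]
    exact hf₁.skew _ _

lemma exists_hyp (h2 : (2 : F) ≠ 0) {f₂ : (Fin 4 → F) → (Fin 4 → F) → F} (hf₂ : IsSymmetricForm f₂)
    (hplus : IsPlusTypeOn (fun v : Fin 4 → F => f₂ v v) ⊤) :
    ∃ u1 u2 v1 v2 : Fin 4 → F, f₂ u1 u1 = 0 ∧ f₂ u1 u2 = 0 ∧ f₂ u2 u2 = 0 ∧ f₂ u1 v1 = 1 ∧
      f₂ u1 v2 = 0 ∧ f₂ u2 v1 = 0 ∧ f₂ u2 v2 = 1 ∧ f₂ v1 v1 = 0 ∧ f₂ v1 v2 = 0 ∧ f₂ v2 v2 = 0 := by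
  obtain ⟨U, -, hU, hdim⟩ := hplus
  have hb := hf₂.bilinear
  have hs := hf₂.symm
  rw [finrank_top, Module.finrank_fin_fun] at hdim
  have hdim2 : Module.finrank F U = 2 := by omega
  have hUU : ∀ u ∈ U, ∀ v ∈ U, f₂ u v = 0 := by
    intro u hu v hv
    have h1 : f₂ (u + v) (u + v) = 0 := hU _ (U.add_mem hu hv)
    have h3 : f₂ u u = 0 := hU _ hu
    have h4 : f₂ v v = 0 := hU _ hv
    rw [hb.add_left, hb.add_right, hb.add_right, h3, h4, hs v u] at h1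
    have h5 : 2 * f₂ u v = 0 := by linear_combination h1
    exact (mul_eq_zero.mp h5).resolve_left h2
  have hne : U ≠ ⊥ := by
    rintro rfl
    rw [finrank_bot] at hdim2
    omega
  obtain ⟨b0, hb0, hb00⟩ := Submodule.exists_mem_ne_zero_of_ne_bot hne
  obtain ⟨b1, hb1, hb10⟩ : ∃ b1 ∈ U, ∀ t : F, t • b0 ≠ b1 := by
    by_contra hcon
    push Not at hcon
    have := finrank_le_one (⟨b0, hb0⟩ : U) (fun w => by
      obtain ⟨t, ht⟩ := hcon w.1 w.2
      exact ⟨t, Subtype.ext ht⟩)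
    omega
  obtain ⟨y, hy⟩ := (hf₂.nondegenerate b0 hb00).2
  obtain ⟨y1, e1⟩ : ∃ y1, f₂ b0 y1 = 1 :=
    ⟨(f₂ b0 y)⁻¹ • y, by rw [hb.smul_right, inv_mul_cancel₀ hy]⟩
  obtain ⟨u2, hu2⟩ : ∃ u2, u2 = b1 + (-f₂ b1 y1) • b0 := ⟨_, rfl⟩
  have hu2U : u2 ∈ U := by
    rw [hu2]
    exact U.add_mem hb1 (U.smul_mem _ hb0)
  have hu20 : u2 ≠ 0 := by
    intro h0
    apply hb10 (f₂ b1 y1)
    have h3 : u2 + (f₂ b1 y1) • b0 = b1 := by
      rw [hu2, add_assoc, ← add_smul]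
      simp
    rw [h0, zero_add] at h3
    exact h3
  have e2 : f₂ u2 y1 = 0 := by
    rw [hu2, hb.add_left, hb.smul_left, e1]
    ring
  obtain ⟨y', hy'⟩ := (hf₂.nondegenerate u2 hu20).2
  obtain ⟨y2, e3⟩ : ∃ y2, f₂ u2 y2 = 1 :=
    ⟨(f₂ u2 y')⁻¹ • y', by rw [hb.smul_right, inv_mul_cancel₀ hy']⟩
  obtain ⟨u1, hu1⟩ : ∃ u1, u1 = b0 + (-f₂ b0 y2) • u2 := ⟨_, rfl⟩
  have hu1U : u1 ∈ U := by
    rw [hu1]
    exact U.add_mem hb0 (U.smul_mem _ hu2U)
  have e4 : f₂ u1 y2 = 0 := by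
    rw [hu1, hb.add_left, hb.smul_left, e3]
    ring
  have e5 : f₂ u1 y1 = 1 := by
    rw [hu1, hb.add_left, hb.smul_left, e2, e1]
    ring
  have n11 := hUU u1 hu1U u1 hu1U
  have n12 := hUU u1 hu1U u2 hu2U
  have n21 := hUU u2 hu2U u1 hu1U
  have n22 := hUU u2 hu2U u2 hu2U
  obtain ⟨v1, hv1⟩ : ∃ v1, v1 = y1 + (-(f₂ y1 y1) / 2) • u1 := ⟨_, rfl⟩
  have a1 : f₂ u1 v1 = 1 := by
    rw [hv1, hb.add_right, hb.smul_right, n11, e5]
    ring
  have a2 : f₂ u2 v1 = 0 := by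
    rw [hv1, hb.add_right, hb.smul_right, n21, e2]
    ring
  have a3 : f₂ v1 v1 = 0 := by
    rw [hv1, hb.add_left, hb.add_right, hb.add_right, hb.smul_left, hb.smul_left, hb.smul_right,
      hb.smul_right, n11, e5, hs y1 u1, e5]
    field_simp
    ring
  obtain ⟨v2, hv2⟩ : ∃ v2, v2 = y2 + ((-(f₂ y2 y2) / 2) • u2 + (-f₂ v1 y2) • u1) := ⟨_, rfl⟩
  have c1 : f₂ u1 v2 = 0 := by
    rw [hv2, hb.add_right, hb.add_right, hb.smul_right, hb.smul_right, n11, n12, e4]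
    ring
  have c2 : f₂ u2 v2 = 1 := by
    rw [hv2, hb.add_right, hb.add_right, hb.smul_right, hb.smul_right, n21, n22, e3]
    ring
  have c3 : f₂ v1 v2 = 0 := by
    rw [hv2, hb.add_right, hb.add_right, hb.smul_right, hb.smul_right, hs v1 u2, hs v1 u1, a1, a2]
    ring
  have c4 : f₂ v2 v2 = 0 := by
    have t1 : f₂ y2 v2 = f₂ y2 y2 / 2 := by
      rw [hv2, hb.add_right, hb.add_right, hb.smul_right, hb.smul_right, hs y2 u2, hs y2 u1, e3, e4]
      field_simp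
      ring
    have t2 : f₂ v2 v2 = f₂ (y2 + ((-(f₂ y2 y2) / 2) • u2 + (-f₂ v1 y2) • u1)) v2 := by
      rw [← hv2]
    rw [t2, hb.add_left, hb.add_left, hb.smul_left, hb.smul_left, c1, c2, t1]
    field_simp
    ring
  exact ⟨u1, u2, v1, v2, n11, n12, n22, a1, c1, a2, c2, a3, c3, c4⟩


/-- a hyperbolic basis as an invertible matrix -/
lemma exists_std (h2 : (2 : F) ≠ 0) {f₂ : (Fin 4 → F) → (Fin 4 → F) → F} (hf₂ : IsSymmetricForm f₂)
    (hplus : IsPlusTypeOn (fun v : Fin 4 → F => f₂ v v) ⊤) :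
    ∃ B : GL (Fin 4) F, (B : Matrix (Fin 4) (Fin 4) F)ᵀ * gramMatrix f₂ * (B : Matrix (Fin 4) (Fin 4) F) = H4 F := by
  obtain ⟨u1, u2, v1, v2, n11, n12, n22, a1, c1, a2, c2, a3, c3, c4⟩ := exists_hyp h2 hf₂ hplus
  have hb := hf₂.bilinear
  have hs := hf₂.symm
  have hnl : ∀ x y, f₂ (-x) y = - f₂ x y := fun x y => by
    have := hb.smul_left (-1) x y
    simpa using this
  have hnr : ∀ x y, f₂ x (-y) = - f₂ x y := fun x y => by
    have := hb.smul_right (-1) x y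
    simpa using this
  set B₀ : Matrix (Fin 4) (Fin 4) F := Matrix.of fun i a => (![u1, u2, (-1 : F) • v2, v1] a) i with hB₀
  have hcol : ∀ a, B₀ *ᵥ Pi.single a 1 = ![u1, u2, (-1 : F) • v2, v1] a := by
    intro a
    rw [Matrix.mulVec_single_one]
    rfl
  have key : B₀ᵀ * gramMatrix f₂ * B₀ = H4 F := by
    ext a b
    have h1 : (B₀ᵀ * gramMatrix f₂ * B₀) a b = f₂ (B₀ *ᵥ Pi.single a 1) (B₀ *ᵥ Pi.single b 1) := by
      rw [← formOfGram_gram hb, formOfGram_mulVec_left, formOfGram_mulVec_right,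
        Cfsg.Agent.Lib.Helper12SpTensform.formOfGram_single]
    rw [h1, hcol, hcol]
    fin_cases a <;> fin_cases b <;>
      simp [H4, hnl, hnr, n11, n12, n22, a1, c1, a2, c2, a3, c3, c4, hs u2 u1, hs v1 u1,
        hs v2 u1, hs v1 u2, hs v2 u2, hs v2 v1]
  have hinv : H4 F * B₀ᵀ * gramMatrix f₂ * B₀ = 1 := by
    rw [Matrix.mul_assoc, Matrix.mul_assoc, ← Matrix.mul_assoc B₀ᵀ, key, H4_mul_H4]
  exact ⟨⟨B₀, H4 F * B₀ᵀ * gramMatrix f₂, mul_eq_one_comm.mp hinv, hinv⟩, key⟩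

/-- Kronecker products of invertible matrices -/
def kGL {m n : ℕ} (a : GL (Fin m) F) (b : GL (Fin n) F) : GL (Fin m × Fin n) F :=
  ⟨(a : Matrix (Fin m) (Fin m) F) ⊗ₖ (b : Matrix (Fin n) (Fin n) F),
    ((a⁻¹ : GL (Fin m) F) : Matrix (Fin m) (Fin m) F) ⊗ₖ ((b⁻¹ : GL (Fin n) F) : Matrix (Fin n) (Fin n) F),
    by rw [← Matrix.mul_kronecker_mul, ← Units.val_mul, ← Units.val_mul, mul_inv_cancel, mul_inv_cancel,
          Units.val_one, Units.val_one, Matrix.one_kronecker_one],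
    by rw [← Matrix.mul_kronecker_mul, ← Units.val_mul, ← Units.val_mul, inv_mul_cancel, inv_mul_cancel,
          Units.val_one, Units.val_one, Matrix.one_kronecker_one]⟩

/-- the new change of basis -/
def newP {m n : ℕ} (e : ι ≃ Fin m × Fin n) (P : GL ι F) (B : GL (Fin n) F) : GL ι F :=
  P * glReindex e.symm (kGL 1 B)

lemma reindex_mul' {κ : Type} [Fintype κ] [DecidableEq κ] (e : ι ≃ κ) (M N : Matrix κ κ F) :
    Matrix.reindex e.symm e.symm M * Matrix.reindex e.symm e.symm N =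
      Matrix.reindex e.symm e.symm (M * N) := by
  simp [Matrix.reindex_apply, Matrix.submatrix_mul_equiv]

lemma newP_val {m n : ℕ} (e : ι ≃ Fin m × Fin n) (P : GL ι F) (B : GL (Fin n) F) :
    (newP e P B : Matrix ι ι F) = (P : Matrix ι ι F) *
      Matrix.reindex e.symm e.symm ((1 : Matrix (Fin m) (Fin m) F) ⊗ₖ (B : Matrix (Fin n) (Fin n) F)) := rfl

lemma newP_inv_val {m n : ℕ} (e : ι ≃ Fin m × Fin n) (P : GL ι F) (B : GL (Fin n) F) :
    (((newP e P B)⁻¹ : GL ι F) : Matrix ι ι F) =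
      Matrix.reindex e.symm e.symm ((1 : Matrix (Fin m) (Fin m) F) ⊗ₖ ((B⁻¹ : GL (Fin n) F) : Matrix (Fin n) (Fin n) F)) *
        ((P⁻¹ : GL ι F) : Matrix ι ι F) := by
  unfold newP
  rw [_root_.mul_inv_rev, Units.val_mul]
  congr 1

lemma UU_newP {m n : ℕ} (e : ι ≃ Fin m × Fin n) (P : GL ι F) (B : GL (Fin n) F) (x : Fin m × Fin n → F) :
    UU e (newP e P B) x =
      UU e P (((1 : Matrix (Fin m) (Fin m) F) ⊗ₖ (B : Matrix (Fin n) (Fin n) F)) *ᵥ x) := by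
  unfold UU
  rw [newP_val, ← Matrix.mulVec_mulVec]
  congr 1
  rw [Matrix.reindex_apply, Equiv.symm_symm, Matrix.submatrix_mulVec_equiv]
  congr 2
  funext p
  simp

lemma tens_newP {m n : ℕ} (e : ι ≃ Fin m × Fin n) (P : GL ι F) (B : GL (Fin n) F)
    (a : Matrix (Fin m) (Fin m) F) (b : Matrix (Fin n) (Fin n) F) :
    tens e (newP e P B) a b = tens e P a ((B : Matrix (Fin n) (Fin n) F) * b *
      ((B⁻¹ : GL (Fin n) F) : Matrix (Fin n) (Fin n) F)) := by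
  unfold tens
  rw [newP_val, newP_inv_val]
  simp only [Matrix.mul_assoc]
  congr 1
  simp only [← Matrix.mul_assoc]
  congr 1
  rw [reindex_mul', reindex_mul', ← Matrix.mul_kronecker_mul, ← Matrix.mul_kronecker_mul, Matrix.one_mul,
    Matrix.mul_one]

lemma tensorProductSubgroup_newP {m n : ℕ} (e : ι ≃ Fin m × Fin n) (P : GL ι F) (B : GL (Fin n) F) :
    tensorProductSubgroup m n e (newP e P B) = tensorProductSubgroup m n e P := by
  ext g
  rw [mem_tensorProductSubgroup_iff, mem_tensorProductSubgroup_iff]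
  constructor
  · rintro ⟨a, b, h⟩
    refine ⟨a, B * b * B⁻¹, ?_⟩
    rw [h, tens_newP]
    rfl
  · rintro ⟨a, b, h⟩
    refine ⟨a, B⁻¹ * b * B, ?_⟩
    rw [h, tens_newP]
    congr 1
    rw [← Units.val_mul, ← Units.val_mul]
    congr 1
    group

theorem sp8_tensor_plus [Fintype F] (hq : Odd (Fintype.card F)) (e : (Fin 4 ⊕ Fin 4) ≃ Fin 2 × Fin 4)
    (P : GL (Fin 4 ⊕ Fin 4) F) (f₁ : (Fin 2 → F) → (Fin 2 → F) → F) (f₂ : (Fin 4 → F) → (Fin 4 → F) → F)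
    (hf₁ : IsSymplecticForm f₁) (hf₂ : IsSymmetricForm f₂)
    (hplus : IsPlusTypeOn (fun v : Fin 4 → F => f₂ v v) ⊤)
    (hT : IsTensorFormStructure id (sympForm 4 F) f₁ f₂ e P) :
    ∃ K, tensorProductSubgroup 2 4 e P ⊓ spGL 4 F < K ∧ K < spGL 4 F := by
  have h2 : (2 : F) ≠ 0 := by
    intro h0
    have hchar : ringChar F = 2 := by
      have h3 : ((2 : ℕ) : F) = 0 := by exact_mod_cast h0
      have h4 := (ringChar.spec F 2).1 h3
      rcases (Nat.dvd_prime Nat.prime_two).1 h4 with h5 | h5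
      · exact absurd h5 (CharP.ringChar_ne_one)
      · exact h5
    have := FiniteField.even_card_iff_char_two.mp hchar
    rw [Nat.odd_iff] at hq
    omega
  obtain ⟨c, hc, hT⟩ := hT
  obtain ⟨γ, hγ, hG₁⟩ := gram_symp hf₁
  obtain ⟨B, hB⟩ := exists_std h2 hf₂ hplus
  rw [← tensorProductSubgroup_newP e P B]
  refine core (f := sympForm 4 F) (c := c * γ) (fun g => Cfsg.Agent.Lib.Helper95SpStd.mem_spGL_iff 4 g) e
    (newP e P B) (mul_ne_zero hc hγ) ?_ h2 (Cfsg.Agent.Lib.Helper95SpStd.sympForm_isSymplectic 4)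
  intro x y
  rw [UU_newP, UU_newP]
  unfold UU
  rw [hT, formOfGram_mulVec_left, formOfGram_mulVec_right, ← Matrix.kroneckerMap_transpose,
    ← Matrix.mul_kronecker_mul, ← Matrix.mul_kronecker_mul, hB, Matrix.transpose_one, Matrix.one_mul,
    Matrix.mul_one, hG₁, Matrix.smul_kronecker]
  simp only [formOfGram, Matrix.smul_apply, smul_eq_mul, Finset.mul_sum]
  refine Finset.sum_congr rfl fun a _ => Finset.sum_congr rfl fun b _ => ?_
  ring

end Cfsg.Agent.Lib.Helper94SpDTens24
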