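import Mathlib

set_option autoImplicit false

namespace Cfsg.Agent.Lib.Helper94UniComb

theorem sum_two (ν : Multiset ℕ) (a b : ℕ) (hab : a ≠ b) (h : ∀ e ∈ ν, e = a ∨ e = b) :
    ν.sum = ν.count a * a + ν.count b * b := by
  have h1 : ν.toFinset ⊆ {a, b} := by
    intro e he
    rw [Multiset.mem_toFinset] at he
    rcases h e he with rfl | rfl <;> simp
  rw [Finset.sum_multiset_count_of_subset ν {a, b} h1, Finset.sum_pair hab]
  simp

theorem sum_three (ν : Multiset ℕ) (a b c : ℕ) (hab : a ≠ b) (hac : a ≠ c) (hbc : b ≠ c)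
    (h : ∀ e ∈ ν, e = a ∨ e = b ∨ e = c) :
    ν.sum = ν.count a * a + ν.count b * b + ν.count c * c := by
  have h1 : ν.toFinset ⊆ {a, b, c} := by
    intro e he
    rw [Multiset.mem_toFinset] at he
    rcases h e he with rfl | rfl | rfl <;> simp
  rw [Finset.sum_multiset_count_of_subset ν {a, b, c} h1, Finset.sum_insert (by simp [hab, hac]),
    Finset.sum_pair hbc]
  simp [add_assoc]

/-- odd dimension: `m ≡ 0 (mod 4)` follows from the partition statement -/
theorem comb_odd (p d m : ℕ) (hp : 3 ≤ p) (hme : Even m)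
    (H : ∀ μ : Multiset ℕ, (∀ e ∈ μ, 0 < e ∧ e ≤ p) → (∀ e : ℕ, Even e → Even (μ.count e)) →
      μ.sum = 2 * d + 1 → ∃ ν : Multiset ℕ, ν ≤ μ ∧ ν.sum = m ∧ ∀ e : ℕ, Even e → Even (ν.count e)) :
    m % 4 = 0 := by
  rcases Nat.even_or_odd d with hd | hd
  · obtain ⟨ν, hν, hs, hev⟩ := H (Multiset.replicate d 2 + {1})
      (by
        intro e he
        rw [Multiset.mem_add, Multiset.mem_singleton] at he
        rcases he with he | rfl
        · rw [Multiset.eq_of_mem_replicate he]; omega
        · omega)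
      (by
        intro e he
        rw [Multiset.count_add, Multiset.count_replicate, Multiset.count_singleton]
        have : e ≠ 1 := by rintro rfl; exact absurd he (by decide)
        split_ifs <;> simp_all)
      (by simp; ring)
    have h1 : ∀ e ∈ ν, e = 2 ∨ e = 1 := by
      intro e he
      have := Multiset.mem_of_le hν he
      rw [Multiset.mem_add, Multiset.mem_singleton] at this
      rcases this with h | h
      · exact Or.inl (Multiset.eq_of_mem_replicate h)
      · exact Or.inr h
    have h2 := sum_two ν 2 1 (by decide) h1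
    have h3 : ν.count 1 ≤ 1 := by
      have := Multiset.count_le_of_le 1 hν
      simpa [Multiset.count_replicate] using this
    obtain ⟨c, hc⟩ := hev 2 (by decide)
    obtain ⟨m', hm'⟩ := hme
    omega
  · obtain ⟨d', rfl⟩ := hd
    obtain ⟨ν, hν, hs, hev⟩ := H (Multiset.replicate (2 * d') 2 + {3})
      (by
        intro e he
        rw [Multiset.mem_add, Multiset.mem_singleton] at he
        rcases he with he | rfl
        · rw [Multiset.eq_of_mem_replicate he]; omega
        · omega)
      (by
        intro e he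
        rw [Multiset.count_add, Multiset.count_replicate, Multiset.count_singleton]
        have : e ≠ 3 := by rintro rfl; exact absurd he (by decide)
        split_ifs <;> simp_all)
      (by simp; ring)
    have h1 : ∀ e ∈ ν, e = 2 ∨ e = 3 := by
      intro e he
      have := Multiset.mem_of_le hν he
      rw [Multiset.mem_add, Multiset.mem_singleton] at this
      rcases this with h | h
      · exact Or.inl (Multiset.eq_of_mem_replicate h)
      · exact Or.inr h
    have h2 := sum_two ν 2 3 (by decide) h1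
    have h3 : ν.count 3 ≤ 1 := by
      have := Multiset.count_le_of_le 3 hν
      simpa [Multiset.count_replicate] using this
    obtain ⟨c, hc⟩ := hev 2 (by decide)
    obtain ⟨m', hm'⟩ := hme
    omega

theorem even_sum_of_even (ν : Multiset ℕ) (h : ∀ e ∈ ν, Even e) : Even ν.sum := by
  rw [even_iff_two_dvd]
  exact Multiset.dvd_sum fun e he => even_iff_two_dvd.1 (h e he)

/-- partitions without odd part are handled through a neighbour with two odd parts -/
theorem comb_swap (p n m : ℕ) (hp : Odd p) (hn : 0 < n) (hme : Even m)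
    (H : ∀ μ : Multiset ℕ, (∀ e ∈ μ, 0 < e ∧ e ≤ p) → (∀ e : ℕ, Even e → Even (μ.count e)) →
      μ.sum = n → (∃ k ∈ μ, Odd k) →
      ∃ ν : Multiset ℕ, ν ≤ μ ∧ ν.sum = m ∧ ∀ e : ℕ, Even e → Even (ν.count e))
    (μ : Multiset ℕ) (hμ : ∀ e ∈ μ, 0 < e ∧ e ≤ p) (hev : ∀ e : ℕ, Even e → Even (μ.count e))
    (hsum : μ.sum = n) :
    ∃ ν : Multiset ℕ, ν ≤ μ ∧ ν.sum = m ∧ ∀ e : ℕ, Even e → Even (ν.count e) := by
  by_cases hodd : ∃ k ∈ μ, Odd k
  · exact H μ hμ hev hsum hodd
  push Not at hodd
  have hall : ∀ e ∈ μ, Even e := fun e he => Nat.not_odd_iff_even.1 (hodd e he)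
  have hne : μ ≠ 0 := by
    rintro rfl
    simp at hsum
    omega
  obtain ⟨e, he⟩ := Multiset.exists_mem_of_ne_zero hne
  have hee := hall e he
  have hc2 : 2 ≤ μ.count e := by
    have h1 : 0 < μ.count e := Multiset.count_pos.2 he
    obtain ⟨c, hc⟩ := hev e hee
    omega
  have he' : e ∈ μ.erase e := by
    rw [← Multiset.count_pos, Multiset.count_erase_self]
    omega
  set μ₀ := (μ.erase e).erase e with hμ₀
  have hμe : μ = e ::ₘ e ::ₘ μ₀ := by
    rw [hμ₀, Multiset.cons_erase he', Multiset.cons_erase he]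
  have hall₀ : ∀ f ∈ μ₀, Even f := fun f hf => hall f (by rw [hμe]; simp [hf])
  have hepos := (hμ e he).1
  have hep := (hμ e he).2
  have he2 : 2 ≤ e := by
    obtain ⟨c, hc⟩ := hee
    omega
  have hep1 : e + 1 ≤ p := by
    obtain ⟨c, hc⟩ := hee
    obtain ⟨c', hc'⟩ := hp
    omega
  have ho1 : Odd (e + 1) := hee.add_one
  have ho2 : Odd (e - 1) := by
    obtain ⟨c, hc⟩ := hee
    exact ⟨c - 1, by omega⟩
  obtain ⟨ν', hν', hs', hev'⟩ := H ((e + 1) ::ₘ (e - 1) ::ₘ μ₀)
    (by
      intro f hf
      rw [Multiset.mem_cons, Multiset.mem_cons] at hf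
      rcases hf with rfl | rfl | hf
      · omega
      · omega
      · exact hμ f (by rw [hμe]; simp [hf]))
    (by
      intro f hf
      have h1 : f ≠ e + 1 := by rintro rfl; exact (Nat.not_even_iff_odd.2 ho1) hf
      have h2 : f ≠ e - 1 := by rintro rfl; exact (Nat.not_even_iff_odd.2 ho2) hf
      rw [Multiset.count_cons_of_ne h1, Multiset.count_cons_of_ne h2]
      have h3 := hev f hf
      rw [hμe] at h3
      by_cases hfe : f = e
      · subst hfe
        rw [Multiset.count_cons_self, Multiset.count_cons_self] at h3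
        obtain ⟨c, hc⟩ := h3
        exact ⟨c - 1, by omega⟩
      · rwa [Multiset.count_cons_of_ne hfe, Multiset.count_cons_of_ne hfe] at h3)
    (by
      rw [hμe] at hsum
      simp only [Multiset.sum_cons] at hsum ⊢
      omega)
    ⟨e + 1, by simp, ho1⟩
  have hle₀ : μ₀ ≤ μ := by
    rw [hμe]
    exact (Multiset.le_cons_self _ _).trans (Multiset.le_cons_self _ _)
  by_cases hA : e + 1 ∈ ν'
  · obtain ⟨ν₁, rfl⟩ := Multiset.exists_cons_of_mem hA
    rw [Multiset.cons_le_cons_iff] at hν'
    by_cases hB : e - 1 ∈ ν₁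
    · obtain ⟨ν₀, rfl⟩ := Multiset.exists_cons_of_mem hB
      rw [Multiset.cons_le_cons_iff] at hν'
      refine ⟨e ::ₘ e ::ₘ ν₀, ?_, ?_, ?_⟩
      · rw [hμe, Multiset.cons_le_cons_iff, Multiset.cons_le_cons_iff]
        exact hν'
      · simp only [Multiset.sum_cons] at hs' ⊢
        omega
      · intro f hf
        have h1 : f ≠ e + 1 := by rintro rfl; exact (Nat.not_even_iff_odd.2 ho1) hf
        have h2 : f ≠ e - 1 := by rintro rfl; exact (Nat.not_even_iff_odd.2 ho2) hf
        have h3 := hev' f hf
        rw [Multiset.count_cons_of_ne h1, Multiset.count_cons_of_ne h2] at h3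
        by_cases hfe : f = e
        · subst hfe
          rw [Multiset.count_cons_self, Multiset.count_cons_self]
          obtain ⟨c, hc⟩ := h3
          exact ⟨c + 1, by omega⟩
        · rwa [Multiset.count_cons_of_ne hfe, Multiset.count_cons_of_ne hfe]
    · exfalso
      rw [Multiset.le_cons_of_notMem hB] at hν'
      have h1 := even_sum_of_even ν₁ fun f hf => hall₀ f (Multiset.mem_of_le hν' hf)
      rw [Multiset.sum_cons] at hs'
      have h2 : Odd m := by rw [← hs']; exact ho1.add_even h1
      exact (Nat.not_even_iff_odd.2 h2) hme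
  · rw [Multiset.le_cons_of_notMem hA] at hν'
    by_cases hB : e - 1 ∈ ν'
    · exfalso
      obtain ⟨ν₀, rfl⟩ := Multiset.exists_cons_of_mem hB
      rw [Multiset.cons_le_cons_iff] at hν'
      have h1 := even_sum_of_even ν₀ fun f hf => hall₀ f (Multiset.mem_of_le hν' hf)
      rw [Multiset.sum_cons] at hs'
      have h2 : Odd m := by rw [← hs']; exact ho2.add_even h1
      exact (Nat.not_even_iff_odd.2 h2) hme
    · rw [Multiset.le_cons_of_notMem hB] at hν'
      exact ⟨ν', hν'.trans hle₀, hs', hev'⟩

/-- `ν ≤ (2^a, 3, 1)` -/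
theorem comb_minus_even (a m : ℕ) (ν : Multiset ℕ) (hν : ν ≤ Multiset.replicate a 2 + {3, 1})
    (hs : ν.sum = m) (hme : Even m) (hev : Even (ν.count 2)) : m % 4 = 0 := by
  have h1 : ∀ e ∈ ν, e = 2 ∨ e = 3 ∨ e = 1 := by
    intro e he
    have := Multiset.mem_of_le hν he
    rw [Multiset.mem_add] at this
    rcases this with h | h
    · exact Or.inl (Multiset.eq_of_mem_replicate h)
    · exact Or.inr (by simpa using h)
  have h2 := sum_three ν 2 3 1 (by decide) (by decide) (by decide) h1
  have h3 : ν.count 3 ≤ 1 := by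
    have := Multiset.count_le_of_le 3 hν
    simpa [Multiset.count_replicate, Multiset.count_cons] using this
  have h4 : ν.count 1 ≤ 1 := by
    have := Multiset.count_le_of_le 1 hν
    simpa [Multiset.count_replicate, Multiset.count_cons] using this
  obtain ⟨c, hc⟩ := hev
  obtain ⟨m', hm'⟩ := hme
  have h5 : ν.count 3 = 0 ∨ ν.count 3 = 1 := by omega
  have h6 : ν.count 1 = 0 ∨ ν.count 1 = 1 := by omega
  rcases h5 with h5 | h5 <;> rcases h6 with h6 | h6 <;> rw [h5, h6] at h2 <;> omega

/-- `ν ≤ (2^a, 1, 1)` -/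
theorem comb_minus_odd (a m : ℕ) (ν : Multiset ℕ) (hν : ν ≤ Multiset.replicate a 2 + {1, 1})
    (hs : ν.sum = m) (hme : Even m) (hev : Even (ν.count 2)) :
    m % 4 = 2 ∨ ν = Multiset.replicate (m / 2) 2 := by
  have h1 : ∀ e ∈ ν, e = 2 ∨ e = 1 := by
    intro e he
    have := Multiset.mem_of_le hν he
    rw [Multiset.mem_add] at this
    rcases this with h | h
    · exact Or.inl (Multiset.eq_of_mem_replicate h)
    · exact Or.inr (by simpa using h)
  have h2 := sum_two ν 2 1 (by decide) h1
  have h4 : ν.count 1 ≤ 2 := by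
    have := Multiset.count_le_of_le 1 hν
    simpa [Multiset.count_replicate, Multiset.count_cons] using this
  obtain ⟨c, hc⟩ := hev
  obtain ⟨m', hm'⟩ := hme
  by_cases h5 : ν.count 1 = 0
  · right
    rw [Multiset.count_eq_zero] at h5
    have h6 : ∀ e ∈ ν, e = 2 := by
      intro e he
      rcases h1 e he with h | h
      · exact h
      · exact absurd (h ▸ he) h5
    have h7 := Multiset.eq_replicate_card.2 h6
    have h8 : Multiset.card ν = m / 2 := by
      rw [h7] at hs
      simp at hs
      omega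
    rw [← h8]
    exact h7
  · left
    omega

end Cfsg.Agent.Lib.Helper94UniComb
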