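import Mathlib
import Cfsg.Agent.Lib.Helper38UniSPLIT
import Cfsg.Agent.Lib.Helper38UniEVEN
import Cfsg.Agent.Lib.Helper38UniMEM
import Cfsg.Agent.Lib.Helper94UniComb

set_option autoImplicit false
open scoped MatrixGroups
open Module Matrix Cfsg
open Cfsg.Agent.Lib.Helper48RankSeq Cfsg.Agent.Lib.Helper48QuadEx Cfsg.Agent.Lib.Helper48QuadType
  Cfsg.Agent.Lib.Helper48UnipOrth Cfsg.Agent.Lib.Helper38UniSPLIT Cfsg.Agent.Lib.Helper38UniEVEN
  Cfsg.Agent.Lib.Helper38UniMEM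

namespace Cfsg.Agent.Lib.Helper94UniCore

variable {F : Type*} [Field F] [Fintype F] {ι : Type} [Fintype ι] [DecidableEq ι]
  (Q : QuadraticForm F (ι → F))

/-- the Jordan type of `x` on an invariant nondegenerate subspace -/
theorem core (h2 : (2 : F) ≠ 0) (x : GL ι F) (hx : x ∈ Cfsg.isometryGroup F ⇑Q) (μ : Multiset ℕ)
    (h0 : 0 ∉ μ) (hμ : RankSeq (x : Matrix ι ι F) μ) (W : Submodule F (ι → F))
    (hW : Cfsg.Geo.IsNondegenerateOn (QuadraticMap.polar ⇑Q) W)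
    (hxW : W.map (Matrix.toLin' (x : Matrix ι ι F)) ≤ W) :
    ∃ ν : Multiset ℕ, ν ≤ μ ∧ ν.sum = finrank F ↥W ∧ (∀ e : ℕ, Even e → Even (ν.count e)) ∧
      ∀ k, finrank F ↥(W.map ((Matrix.toLin' ((x : Matrix ι ι F) - 1)) ^ k)) = (ν.map (· - k)).sum := by
  obtain ⟨ν, hν, hr⟩ := exists_sub Q x hx μ h0 hμ W hW hxW
  refine ⟨ν, hν, ?_, ?_, hr⟩
  · have h1 := hr 0
    have h3 : W.map ((Matrix.toLin' ((x : Matrix ι ι F) - 1)) ^ 0) = W := by
      rw [pow_zero]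
      exact Submodule.map_id W
    rw [h3] at h1
    simpa using h1.symm
  · intro e he
    have hev : ∀ k, Even ((ν.map (· - (2 * k + 1))).sum) := by
      intro k
      rw [← hr]
      exact even_finrank Q h2 x hx hμ.nilpotent W hW hxW k
    obtain ⟨c, rfl⟩ := he
    rcases Nat.eq_zero_or_pos c with rfl | hc
    · rw [Multiset.count_eq_zero_of_notMem (fun h => h0 (Multiset.mem_of_le hν h))]
      exact Even.zero
    · obtain ⟨c', rfl⟩ : ∃ c', c = c' + 1 := ⟨c - 1, by omega⟩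
      have h3 := Cfsg.Agent.Lib.Helper48UnipEx.even_count ν (2 * c' + 1) (hev c') (hev (c' + 1))
      have e2 : c' + 1 + (c' + 1) = 2 * c' + 1 + 1 := by ring
      rw [e2]
      exact h3

/-- the trivial partition -/
theorem trivial_case (n m : ℕ) (hmn : m ≤ n) (μ : Multiset ℕ) (h1 : ∀ e ∈ μ, e = 1) (hsum : μ.sum = n) :
    ∃ ν : Multiset ℕ, ν ≤ μ ∧ ν.sum = m ∧ ∀ e : ℕ, Even e → Even (ν.count e) := by
  have h4 := Multiset.eq_replicate_card.mpr h1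
  rw [h4] at hsum ⊢
  rw [Multiset.sum_replicate, smul_eq_mul, mul_one] at hsum
  rw [hsum]
  refine ⟨Multiset.replicate m 1, (Multiset.replicate_le_replicate 1).mpr hmn, by simp, ?_⟩
  intro e he
  have : e ≠ 1 := by rintro rfl; exact absurd he (by decide)
  rw [Multiset.count_replicate, if_neg (Ne.symm this)]
  exact Even.zero

/-- general step: a realised partition has the required sub-partition -/
theorem step (p : ℕ) [Fact p.Prime] [CharP F p] (h2 : (2 : F) ≠ 0)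
    (hQ : (QuadraticMap.polarBilin Q).Nondegenerate) (m : ℕ) (P : Submodule F (ι → F) → Prop)
    (H : ∀ x : GL ι F, x ∈ Cfsg.Geo.omegaGL ⇑Q → x ^ p = 1 →
      (∀ z : F, (x : Matrix ι ι F) ≠ z • (1 : Matrix ι ι F)) →
      ∃ W : Submodule F (ι → F), (finrank F ↥W = m ∧
        Cfsg.Geo.IsNondegenerateOn (QuadraticMap.polar ⇑Q) W ∧ P W) ∧
        W.map (Matrix.toLin' (x : Matrix ι ι F)) ≤ W)
    (μ : Multiset ℕ) (hμ : ∀ e ∈ μ, 0 < e ∧ e ≤ p) (e : ℕ) (he : e ∈ μ) (he2 : 2 ≤ e)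
    (x : GL ι F) (hx : x ∈ Cfsg.isometryGroup F ⇑Q) (hxμ : RankSeq (x : Matrix ι ι F) μ) :
    ∃ (W : Submodule F (ι → F)) (ν : Multiset ℕ), P W ∧ finrank F ↥W = m ∧
      W.map (Matrix.toLin' (x : Matrix ι ι F)) ≤ W ∧ ν ≤ μ ∧ ν.sum = m ∧
      (∀ e : ℕ, Even e → Even (ν.count e)) ∧
      ∀ k, finrank F ↥(W.map ((Matrix.toLin' ((x : Matrix ι ι F) - 1)) ^ k)) = (ν.map (· - k)).sum := by
  have h0 : 0 ∉ μ := fun h => absurd (hμ 0 h).1 (lt_irrefl 0)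
  obtain ⟨hΩ, hxp, hns⟩ := mem_omega Q p h2 hQ x hx μ hxμ (fun e he => (hμ e he).2) e he he2
  obtain ⟨W, ⟨hWm, hWnd, hP⟩, hWx⟩ := H x hΩ hxp hns
  obtain ⟨ν, hν, hs, hev, hr⟩ := core Q h2 x hx μ h0 hxμ W hWnd hWx
  exact ⟨W, ν, hP, hWm, hWx, hν, by rw [hs, hWm], hev, hr⟩

end Cfsg.Agent.Lib.Helper94UniCore
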