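import Mathlib

set_option autoImplicit false

/-! PROJECT 8 (minimal index of `PSL_n(q)`), piece `existsIndex`. -/

namespace Cfsg.Agent.Lib.Helper95MinExistsIndex

open scoped LinearAlgebra.Projectivization

theorem exists_index {F : Type*} [Field F] [Fintype F] (n : ℕ) (hn : 2 ≤ n) :
    ∃ H : Subgroup (Matrix.ProjectiveSpecialLinearGroup (Fin n) F),
      H.index = (Fintype.card F ^ n - 1) / (Fintype.card F - 1) := by
  classical
  let i0 : Fin n := ⟨0, by omega⟩
  have hne : (Pi.single i0 1 : Fin n → F) ≠ 0 := by
    intro h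
    have := congrFun h i0
    simp at this
  let x : ℙ F (Fin n → F) := Projectivization.mk F (Pi.single i0 1) hne
  have htr : MulAction.IsPretransitive (Matrix.SpecialLinearGroup (Fin n) F) (ℙ F (Fin n → F)) :=
    MulAction.isPretransitive_of_is_two_pretransitive
  refine ⟨(MulAction.stabilizer (Matrix.SpecialLinearGroup (Fin n) F) x).map
    (QuotientGroup.mk' (Subgroup.center (Matrix.SpecialLinearGroup (Fin n) F))), ?_⟩
  rw [Subgroup.index_map_eq _ (QuotientGroup.mk'_surjective _) ?_,
    MulAction.index_stabilizer_of_transitive, Projectivization.card'', Nat.card_eq_fintype_card,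
    Nat.card_eq_fintype_card, Fintype.card_fun, Fintype.card_fin]
  rw [QuotientGroup.ker_mk', ← Projectivization.SL_mulAction_ker]
  intro g hg
  rw [MulAction.mem_stabilizer_iff]
  have := congrArg (fun p : Equiv.Perm (ℙ F (Fin n → F)) => p x) (MonoidHom.mem_ker.1 hg)
  simpa using this

end Cfsg.Agent.Lib.Helper95MinExistsIndex
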