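import Mathlib
import Cfsg.Prelude.Def_GeometricClasses
import Cfsg.Agent.Lib.Helper95Basic
import Cfsg.Agent.Lib.Helper95Form

set_option autoImplicit false

/-! The three-dimensional orthogonal space over the field with three elements: it has a frame
of vectors of equal norm, unique up to signs. -/

namespace Cfsg.Agent.Lib.Helper95O3

open Matrix Cfsg.Geo Cfsg.Agent.Lib.Helper95Basic Cfsg.Agent.Lib.Helper95Form

variable {F : Type*} [Field F] [Fintype F]

lemma three_eq_zero (hq : Fintype.card F = 3) : (3 : F) = 0 := by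
  have h := Nat.cast_card_eq_zero F
  rw [hq] at h
  exact_mod_cast h

lemma two_ne_zero3 (hq : Fintype.card F = 3) : (2 : F) ≠ 0 := by
  intro h
  have h3 := three_eq_zero hq
  exact one_ne_zero (α := F) (by linear_combination h3 - h)

lemma cases3 (hq : Fintype.card F = 3) (x : F) : x = 0 ∨ x = 1 ∨ x = -1 := by
  have h := FiniteField.pow_card x
  rw [hq] at h
  have h2 : x * ((x - 1) * (x + 1)) = 0 := by linear_combination h
  rcases mul_eq_zero.1 h2 with h | h
  · exact Or.inl h
  · rcases mul_eq_zero.1 h with h | h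
    · exact Or.inr (Or.inl (by linear_combination h))
    · exact Or.inr (Or.inr (by linear_combination h))

lemma sq_cases3 (hq : Fintype.card F = 3) (x : F) : x = 0 ∨ x ^ 2 = 1 := by
  rcases cases3 hq x with h | h | h
  · exact Or.inl h
  · right; rw [h]; ring
  · right; rw [h]; ring

/-- a similarity of a three-dimensional symmetric form over `F_3` is an isometry -/
lemma similarity_eq_one (hq : Fintype.card F = 3) (f : (Fin 3 → F) → (Fin 3 → F) → F)
    (hf : IsSymmetricForm f) (b : GL (Fin 3) F) (μ : F)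
    (h : ∀ u v, f ((b : Matrix (Fin 3) (Fin 3) F) *ᵥ u) ((b : Matrix (Fin 3) (Fin 3) F) *ᵥ v)
      = μ * f u v) : μ = 1 := by
  set B := Helper95Form.toBilin f hf.bilinear with hB
  have hnd : B.Nondegenerate := toBilin_nondegenerate f hf.bilinear hf.nondegenerate
  have hdet : (LinearMap.BilinForm.toMatrix' B).det ≠ 0 := by
    rw [← Matrix.nondegenerate_iff_det_ne_zero, LinearMap.BilinForm.nondegenerate_toMatrix'_iff]
    exact hnd
  have h1 : B.comp (Matrix.toLin' (b : Matrix (Fin 3) (Fin 3) F))
      (Matrix.toLin' (b : Matrix (Fin 3) (Fin 3) F)) = μ • B := by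
    refine LinearMap.ext fun u => LinearMap.ext fun v => ?_
    simp only [LinearMap.BilinForm.comp_apply, Matrix.toLin'_apply, LinearMap.smul_apply,
      smul_eq_mul, hB, Helper95Form.toBilin_apply]
    exact h u v
  have h2 := congrArg LinearMap.BilinForm.toMatrix' h1
  rw [LinearMap.BilinForm.toMatrix'_comp, LinearMap.toMatrix'_toLin', map_smul] at h2
  have h3 := congrArg Matrix.det h2
  rw [Matrix.det_mul, Matrix.det_mul, Matrix.det_transpose, Matrix.det_smul, Fintype.card_fin] at h3
  have hb : (b : Matrix (Fin 3) (Fin 3) F).det ≠ 0 := by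
    have := (Matrix.isUnit_iff_isUnit_det _).1 b.isUnit
    exact this.ne_zero
  have h4 : μ ^ 3 = (b : Matrix (Fin 3) (Fin 3) F).det ^ 2 := by
    apply mul_right_cancel₀ hdet
    linear_combination -h3
  have h5 := FiniteField.pow_card μ
  rw [hq] at h5
  rcases sq_cases3 hq (b : Matrix (Fin 3) (Fin 3) F).det with h6 | h6
  · exact absurd h6 hb
  · rw [← h5, h4, h6]

section frame

variable {V : Type*} [AddCommGroup V] [Module F V]

/-- three pairwise orthogonal vectors of the same non-zero norm -/
structure Fr (B : LinearMap.BilinForm F V) (ε : F) (x y z : V) : Prop where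
  ne : ε ≠ 0
  xx : B x x = ε
  yy : B y y = ε
  zz : B z z = ε
  xy : B x y = 0
  xz : B x z = 0
  yz : B y z = 0

lemma fr_fix (hq : Fintype.card F = 3) (B : LinearMap.BilinForm F V) (hs : ∀ p q, B p q = B q p) (a : F)
    (ha : a ≠ 0) (x y z : V) (xx : B x x = a) (yy : B y y = a) (zz : B z z = -a)
    (xy : B x y = 0) (xz : B x z = 0) (yz : B y z = 0) : Fr B (-a) (x + y) (x - y) z := by
  have h3 := three_eq_zero hq
  have yx : B y x = 0 := by rw [hs, xy]
  refine ⟨neg_ne_zero.2 ha, ?_, ?_, zz, ?_, ?_, ?_⟩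
  · simp only [map_add, LinearMap.add_apply, xx, yy, xy, yx]
    linear_combination a * h3
  · simp only [map_sub, LinearMap.sub_apply, xx, yy, xy, yx]
    linear_combination a * h3
  · simp only [map_add, map_sub, LinearMap.add_apply, xx, yy, xy, yx]
    ring
  · simp only [map_add, LinearMap.add_apply, xz, yz]
    ring
  · simp only [map_sub, LinearMap.sub_apply, xz, yz]
    ring

lemma exists_fr (hq : Fintype.card F = 3) (B : LinearMap.BilinForm F V)
    (hs : ∀ p q, B p q = B q p)
    (hn : B.Nondegenerate) (hd : Module.finrank F V = 3) : ∃ ε x y z, Fr B ε x y z := by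
  have : Invertible (2 : F) := invertibleOfNonzero (two_ne_zero3 hq)
  have : FiniteDimensional F V := Module.finite_of_finrank_pos (by omega)
  obtain ⟨v, hv⟩ := LinearMap.BilinForm.exists_orthogonal_basis
    (LinearMap.BilinForm.isSymm_iff.1 ⟨hs⟩)
  have hv2 := LinearMap.BilinForm.iIsOrtho.not_isOrtho_basis_self_of_nondegenerate hv hn
  have hv1 := LinearMap.isOrthoᵢ_def.1 hv
  have hsym := hs
  let i0 : Fin (Module.finrank F V) := ⟨0, by omega⟩
  let i1 : Fin (Module.finrank F V) := ⟨1, by omega⟩
  let i2 : Fin (Module.finrank F V) := ⟨2, by omega⟩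
  have xy : B (v i0) (v i1) = 0 := hv1 i0 i1 (by simp [i0, i1, Fin.ext_iff])
  have xz : B (v i0) (v i2) = 0 := hv1 i0 i2 (by simp [i0, i2, Fin.ext_iff])
  have yz : B (v i1) (v i2) = 0 := hv1 i1 i2 (by simp [i1, i2, Fin.ext_iff])
  have x0 : B (v i0) (v i0) ≠ 0 := hv2 i0
  have y0 : B (v i1) (v i1) ≠ 0 := hv2 i1
  have z0 : B (v i2) (v i2) ≠ 0 := hv2 i2
  generalize v i0 = x at *
  generalize v i1 = y at *
  generalize v i2 = z at *
  have h1 : (1 : F) ≠ 0 := one_ne_zero
  have h1' : (-1 : F) ≠ 0 := neg_ne_zero.2 one_ne_zero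
  rcases cases3 hq (B x x) with hx | hx | hx
  · exact absurd hx x0
  · rcases cases3 hq (B y y) with hy | hy | hy
    · exact absurd hy y0
    · rcases cases3 hq (B z z) with hz | hz | hz
      · exact absurd hz z0
      · exact ⟨1, x, y, z, h1, hx, hy, hz, xy, xz, yz⟩
      · exact ⟨_, _, _, _, fr_fix hq B hs 1 h1 x y z hx hy hz xy xz yz⟩
    · rcases cases3 hq (B z z) with hz | hz | hz
      · exact absurd hz z0
      · exact ⟨_, _, _, _, fr_fix hq B hs 1 h1 x z y hx hz hy xz xy (by rw [hsym, yz])⟩
      · exact ⟨_, _, _, _, fr_fix hq B hs (-1) h1' y z x hy hz (by rw [hx]; ring) yz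
          (by rw [hsym, xy]) (by rw [hsym, xz])⟩
  · rcases cases3 hq (B y y) with hy | hy | hy
    · exact absurd hy y0
    · rcases cases3 hq (B z z) with hz | hz | hz
      · exact absurd hz z0
      · exact ⟨_, _, _, _, fr_fix hq B hs 1 h1 y z x hy hz hx yz
          (by rw [hsym, xy]) (by rw [hsym, xz])⟩
      · exact ⟨_, _, _, _, fr_fix hq B hs (-1) h1' x z y hx hz (by rw [hy]; ring) xz xy
          (by rw [hsym, yz])⟩
    · rcases cases3 hq (B z z) with hz | hz | hz
      · exact absurd hz z0
      · exact ⟨_, _, _, _, fr_fix hq B hs (-1) h1' x y z hx hy (by rw [hz]; ring) xy xz yz⟩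
      · exact ⟨-1, x, y, z, h1', hx, hy, hz, xy, xz, yz⟩

lemma Fr.span {B : LinearMap.BilinForm F V} {ε : F} {x y z : V} (h : Fr B ε x y z)
    (hs : ∀ p q, B p q = B q p) (hd : Module.finrank F V = 3) (w : V) :
    ∃ a b c : F, w = a • x + b • y + c • z := by
  have : FiniteDimensional F V := Module.finite_of_finrank_pos (by omega)
  have hli : LinearIndependent F ![x, y, z] := by
    apply LinearMap.BilinForm.linearIndependent_of_iIsOrtho (B := B)
    · rw [LinearMap.BilinForm.iIsOrtho, LinearMap.isOrthoᵢ_def]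
      intro i j hij
      fin_cases i <;> fin_cases j <;> simp at hij ⊢
      · exact h.xy
      · exact h.xz
      · rw [hs]; exact h.xy
      · exact h.yz
      · rw [hs]; exact h.xz
      · rw [hs]; exact h.yz
    · intro i
      fin_cases i
      · simpa [LinearMap.BilinForm.IsOrtho, LinearMap.IsOrtho, h.xx] using h.ne
      · simpa [LinearMap.BilinForm.IsOrtho, LinearMap.IsOrtho, h.yy] using h.ne
      · simpa [LinearMap.BilinForm.IsOrtho, LinearMap.IsOrtho, h.zz] using h.ne
  have hsp := hli.span_eq_top_of_card_eq_finrank (by simp [hd])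
  have hw : w ∈ Submodule.span F (Set.range ![x, y, z]) := by rw [hsp]; trivial
  obtain ⟨c, hc⟩ := (Submodule.mem_span_range_iff_exists_fun F).1 hw
  refine ⟨c 0, c 1, c 2, ?_⟩
  rw [← hc, Fin.sum_univ_three]
  simp

lemma Fr.unique (hq : Fintype.card F = 3) {B : LinearMap.BilinForm F V} {ε : F} {x y z : V}
    (h : Fr B ε x y z) (hs : ∀ p q, B p q = B q p) (hd : Module.finrank F V = 3) (w : V)
    (hw : B w w = ε) : w = x ∨ w = -x ∨ w = y ∨ w = -y ∨ w = z ∨ w = -z := by
  obtain ⟨a, b, c, rfl⟩ := h.span hs hd w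
  have h3 := three_eq_zero hq
  have yx : B y x = 0 := by rw [hs]; exact h.xy
  have zx : B z x = 0 := by rw [hs]; exact h.xz
  have zy : B z y = 0 := by rw [hs]; exact h.yz
  simp only [map_add, map_smul, LinearMap.add_apply, LinearMap.smul_apply, smul_eq_mul, h.xx, h.yy,
    h.zz, h.xy, h.xz, h.yz, yx, zx, zy] at hw
  have key : a ^ 2 + b ^ 2 + c ^ 2 = 1 := by
    apply mul_left_cancel₀ h.ne
    linear_combination hw
  have pm : ∀ t : F, t ^ 2 = 1 → t = 1 ∨ t = -1 := fun t ht => by
    rcases cases3 hq t with h | h | h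
    · rw [h] at ht; simp at ht
    · exact Or.inl h
    · exact Or.inr h
  rcases sq_cases3 hq a with ha | ha <;> rcases sq_cases3 hq b with hb | hb <;>
    rcases sq_cases3 hq c with hc | hc
  · exfalso; rw [ha, hb, hc] at key; simp at key
  · rcases pm c hc with hc | hc
    · right; right; right; right; left; simp [ha, hb, hc]
    · right; right; right; right; right; simp [ha, hb, hc]
  · rcases pm b hb with hb | hb
    · right; right; left; simp [ha, hb, hc]
    · right; right; right; left; simp [ha, hb, hc]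
  · exfalso; rw [ha, hb, hc] at key
    exact one_ne_zero (α := F) (by linear_combination key)
  · rcases pm a ha with ha | ha
    · left; simp [ha, hb, hc]
    · right; left; simp [ha, hb, hc]
  · exfalso; rw [ha, hb, hc] at key
    exact one_ne_zero (α := F) (by linear_combination key)
  · exfalso; rw [ha, hb, hc] at key
    exact one_ne_zero (α := F) (by linear_combination key)
  · exfalso; rw [ha, hb, hc] at key
    exact one_ne_zero (α := F) (by linear_combination h3 - key)

end frame

end Cfsg.Agent.Lib.Helper95O3
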