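import Cfsg.Agent.Lib.Helper97OProper
import Cfsg.Agent.Lib.Helper58ODefs
import Cfsg.Agent.Lib.Helper95O3

set_option autoImplicit false
set_option linter.unusedSectionVars false

/-! PROJECT 5 = ASCH-O, piece `frame3`. -/

namespace Cfsg.Agent.Lib.Helper95OFrame3

open Cfsg Cfsg.Geo Matrix Cfsg.Agent.Lib.Helper97GBase Cfsg.Agent.Lib.Helper97GForms
  Cfsg.Agent.Lib.Helper95Quad Cfsg.Agent.Lib.Helper95Form Cfsg.Agent.Lib.Helper95Basic
  Cfsg.Agent.Lib.Helper97OBase Cfsg.Agent.Lib.Helper97OProper Cfsg.Agent.Lib.Helper58ODefs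
  Cfsg.Agent.Lib.Helper95O3
open scoped MatrixGroups

variable {ι : Type} [Fintype ι] [DecidableEq ι] {F : Type*} [Field F]
variable {Q : (ι → F) → F} {H : Subgroup (GL ι F)}

/-- an orthogonal family of full size of vectors of the same non-zero norm gives an isometric decomposition
into lines -/
lemma lines_of_family (hQ : IsNondegenerateQuadraticForm Q) (h2 : (2 : F) ≠ 0) {N : ℕ} (hN : 2 ≤ N)
    (hcard : N = Fintype.card ι) (b : Fin N → ι → F) (c : F) (hc : c ≠ 0) (hbQ : ∀ a, Q (b a) = c)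
    (hbo : ∀ a a', a ≠ a' → QuadraticMap.polar Q (b a) (b a') = 0) :
    IsOrthogonalMDecomposition Q 1 (fun a => Submodule.span F {b a}) := by
  have hb := hQ.polar_bilinear
  have hli : LinearIndependent F b := by
    apply LinearMap.BilinForm.linearIndependent_of_iIsOrtho (B := bil hQ)
    · rw [LinearMap.BilinForm.iIsOrtho, LinearMap.isOrthoᵢ_def]
      intro i j hij
      exact hbo i j hij
    · intro i h
      have h1 : QuadraticMap.polar Q (b i) (b i) = 0 := h
      rw [polar_self hQ, hbQ] at h1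
      exact mul_ne_zero h2 hc h1
  have hb0 : ∀ a, b a ≠ 0 := hli.ne_zero
  refine ⟨⟨⟨hN, one_pos, fun a => finrank_span_singleton (hb0 a), hli.iSupIndep_span_singleton, ?_⟩,
    ?_, ?_⟩, ?_⟩
  · rw [← Submodule.span_range_eq_iSup]
    exact hli.span_eq_top_of_card_eq_finrank' (by
      rw [Fintype.card_fin, Module.finrank_fintype_fun_eq_card, hcard])
  · intro a w hw hw0
    obtain ⟨r, rfl⟩ := Submodule.mem_span_singleton.1 hw
    have hr : r ≠ 0 := by
      rintro rfl
      exact hw0 (zero_smul _ _)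
    refine ⟨⟨b a, Submodule.mem_span_singleton_self _, ?_⟩, ⟨b a, Submodule.mem_span_singleton_self _, ?_⟩⟩
    · rw [hb.smul_right, polar_self hQ, hbQ]
      exact mul_ne_zero hr (mul_ne_zero h2 hc)
    · rw [hb.smul_left, polar_self hQ, hbQ]
      exact mul_ne_zero hr (mul_ne_zero h2 hc)
  · intro a a' hne u hu v hv
    obtain ⟨r, rfl⟩ := Submodule.mem_span_singleton.1 hu
    obtain ⟨s, rfl⟩ := Submodule.mem_span_singleton.1 hv
    rw [hb.smul_left, hb.smul_right, hbo a a' hne, mul_zero, mul_zero]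
  · intro a a'
    refine ⟨(LinearEquiv.toSpanNonzeroSingleton F _ (b a) (hb0 a)).symm.trans
      (LinearEquiv.toSpanNonzeroSingleton F _ (b a') (hb0 a')), fun w => ?_⟩
    have h1 := LinearEquiv.toSpanNonzeroSingleton_symm_apply_smul F _ (b a) (hb0 a) w
    rw [LinearEquiv.trans_apply, LinearEquiv.toSpanNonzeroSingleton_apply, ← h1]
    show Q (_ • b a') = _
    rw [hQ.smul, hQ.smul, hbQ, hbQ]

/-- a matrix permuting the vectors of the family up to sign stabilises the decomposition into lines -/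
lemma mem_stab_of_perm (hQ : IsNondegenerateQuadraticForm Q) (h2 : (2 : F) ≠ 0) {N : ℕ}
    (b : Fin N → ι → F) (c : F) (hc : c ≠ 0) (hbQ : ∀ a, Q (b a) = c)
    (hbo : ∀ a a', a ≠ a' → QuadraticMap.polar Q (b a) (b a') = 0) (h : GL ι F)
    (hh : ∀ a, ∃ a', (h : Matrix ι ι F) *ᵥ b a = b a' ∨ (h : Matrix ι ι F) *ᵥ b a = - b a') :
    h ∈ decompositionStabilizer (fun a => Submodule.span F {b a}) := by
  have hb := hQ.polar_bilinear
  choose φ hφ using hh
  have hinj : Function.Injective φ := by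
    intro a a₂ haa
    by_contra hne
    have h1 : (h : Matrix ι ι F) *ᵥ b a = (h : Matrix ι ι F) *ᵥ b a₂ ∨
        (h : Matrix ι ι F) *ᵥ b a = (h : Matrix ι ι F) *ᵥ (- b a₂) := by
      rw [Matrix.mulVec_neg]
      rcases hφ a with e1 | e1 <;> rcases hφ a₂ with e2 | e2 <;> rw [e1, e2, haa] <;> simp
    have h3 : b a = b a₂ ∨ b a = - b a₂ := by
      rcases h1 with h1 | h1
      · left
        have := congrArg (fun v => ((h⁻¹ : GL ι F) : Matrix ι ι F) *ᵥ v) h1
        simpa only [Helper95Basic.inv_mulVec_mulVec] using this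
      · right
        have := congrArg (fun v => ((h⁻¹ : GL ι F) : Matrix ι ι F) *ᵥ v) h1
        simpa only [Helper95Basic.inv_mulVec_mulVec] using this
    have h4 := hbo a a₂ hne
    rcases h3 with h3 | h3
    · rw [h3, polar_self hQ, hbQ] at h4
      exact mul_ne_zero h2 hc h4
    · rw [h3, ← neg_one_smul F (b a₂), hb.smul_left, polar_self hQ, hbQ] at h4
      exact mul_ne_zero (neg_ne_zero.2 one_ne_zero) (mul_ne_zero h2 hc) h4
  refine ⟨Equiv.ofBijective φ (Finite.injective_iff_bijective.1 hinj), fun a => ?_⟩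
  rw [Submodule.map_span, Set.image_singleton, Matrix.toLin'_apply, Equiv.ofBijective_apply]
  rcases hφ a with e1 | e1
  · rw [e1]
  · rw [e1, ← Set.neg_singleton, Submodule.span_neg]

lemma decomp_cardG {t m : ℕ} (D : Fin t → Submodule F (ι → F)) (hD : IsMDecomposition m D) :
    Fintype.card ι = t * m := by
  classical
  have hint : DirectSum.IsInternal D :=
    DirectSum.isInternal_submodule_of_iSupIndep_of_iSup_eq_top hD.indep hD.iSup_eq_top
  have e := LinearEquiv.ofBijective (DirectSum.coeLinearMap D) hint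
  have h1 := e.finrank_eq
  rw [Module.finrank_directSum, Module.finrank_fintype_fun_eq_card] at h1
  rw [← h1]
  simp [hD.finrank_eq]

/-- [frame3] `q = 3`: a decomposition into isometric non-degenerate 3-spaces refines canonically to a
decomposition into isometric lines. -/
theorem frame_three [Fintype F] (hq : Fintype.card F = 3) (hQ : IsNondegenerateQuadraticForm Q)
    (hH : H ≤ isometryGroup F Q) {t : ℕ} (D : Fin t → Submodule F (ι → F))
    (hD : IsOrthogonalMDecomposition Q 3 D) (hle : H ≤ decompositionStabilizer D) : ODecOne Q H := by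
  classical
  have h2 : (2 : F) ≠ 0 := two_ne_zero3 hq
  have hb := hQ.polar_bilinear
  have ht := hD.decomp.decomp.two_le
  have hsymm : ∀ x y, QuadraticMap.polar Q x y = QuadraticMap.polar Q y x :=
    fun x y => QuadraticMap.polar_comm Q x y
  let i0 : Fin t := ⟨0, by omega⟩
  let B : ∀ i, LinearMap.BilinForm F (D i) := fun i => (bil hQ).restrict (D i)
  have hBapp : ∀ i (u v : D i), B i u v = QuadraticMap.polar Q (u : ι → F) (v : ι → F) :=
    fun _ _ _ => rfl
  have hBs : ∀ i (p q : D i), B i p q = B i q p := fun i p q => hsymm _ _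
  have hBn : ∀ i, (B i).Nondegenerate := by
    intro i
    constructor
    · intro x hx
      by_contra hx0
      obtain ⟨y, hy, hxy⟩ := (hD.decomp.nondegenerate i x.1 x.2 (fun h => hx0 (Subtype.ext h))).2
      exact hxy (hx ⟨y, hy⟩)
    · intro x hx
      by_contra hx0
      obtain ⟨y, hy, hxy⟩ := (hD.decomp.nondegenerate i x.1 x.2 (fun h => hx0 (Subtype.ext h))).1
      exact hxy (hx ⟨y, hy⟩)
  have hfr : ∀ i, Module.finrank F (D i) = 3 := hD.decomp.decomp.finrank_eq
  obtain ⟨ε, x, y, z, hfr0⟩ := exists_fr hq (B i0) (hBs i0) (hBn i0) (hfr i0)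
  choose e he using fun i => hD.isometric i0 i
  have hpol : ∀ i (u v : D i0), QuadraticMap.polar Q (e i u : ι → F) (e i v : ι → F)
      = QuadraticMap.polar Q (u : ι → F) (v : ι → F) := by
    intro i u v
    unfold QuadraticMap.polar
    rw [← Submodule.coe_add, ← map_add, he, he, he]
    rfl
  have hFr : ∀ i, Fr (B i) ε (e i x) (e i y) (e i z) := fun i =>
    ⟨hfr0.ne, by rw [hBapp, hpol]; exact hfr0.xx, by rw [hBapp, hpol]; exact hfr0.yy,
      by rw [hBapp, hpol]; exact hfr0.zz, by rw [hBapp, hpol]; exact hfr0.xy,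
      by rw [hBapp, hpol]; exact hfr0.xz, by rw [hBapp, hpol]; exact hfr0.yz⟩
  let v3 : Fin 3 → D i0 := ![x, y, z]
  let b : Fin t × Fin 3 → ι → F := fun p => (e p.1 (v3 p.2) : ι → F)
  have hbD : ∀ p, b p ∈ D p.1 := fun p => (e p.1 (v3 p.2)).2
  have hv3 : ∀ j j', QuadraticMap.polar Q (v3 j : ι → F) (v3 j' : ι → F) = if j = j' then ε else 0 := by
    intro j j'
    have xx : QuadraticMap.polar Q (x : ι → F) (x : ι → F) = ε := hfr0.xx
    have yy : QuadraticMap.polar Q (y : ι → F) (y : ι → F) = ε := hfr0.yy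
    have zz : QuadraticMap.polar Q (z : ι → F) (z : ι → F) = ε := hfr0.zz
    have xy : QuadraticMap.polar Q (x : ι → F) (y : ι → F) = 0 := hfr0.xy
    have xz : QuadraticMap.polar Q (x : ι → F) (z : ι → F) = 0 := hfr0.xz
    have yz : QuadraticMap.polar Q (y : ι → F) (z : ι → F) = 0 := hfr0.yz
    have yx : QuadraticMap.polar Q (y : ι → F) (x : ι → F) = 0 := by rw [hsymm]; exact xy
    have zx : QuadraticMap.polar Q (z : ι → F) (x : ι → F) = 0 := by rw [hsymm]; exact xz
    have zy : QuadraticMap.polar Q (z : ι → F) (y : ι → F) = 0 := by rw [hsymm]; exact yz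
    fin_cases j <;> fin_cases j' <;> simp [v3, xx, yy, zz, xy, xz, yz, yx, zx, zy]
  have hbb : ∀ p, QuadraticMap.polar Q (b p) (b p) = ε := by
    intro p
    show QuadraticMap.polar Q (e p.1 (v3 p.2) : ι → F) (e p.1 (v3 p.2) : ι → F) = ε
    rw [hpol, hv3, if_pos rfl]
  have hbo : ∀ p p', p ≠ p' → QuadraticMap.polar Q (b p) (b p') = 0 := by
    rintro ⟨i, j⟩ ⟨i', j'⟩ hne
    by_cases hi : i = i'
    · subst hi
      have hj : j ≠ j' := fun h => hne (by rw [h])
      show QuadraticMap.polar Q (e i (v3 j) : ι → F) (e i (v3 j') : ι → F) = 0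
      rw [hpol, hv3, if_neg hj]
    · exact hD.decomp.orthogonal i i' hi _ (hbD (i, j)) _ (hbD (i', j'))
  have huniq : ∀ i, ∀ v ∈ D i, QuadraticMap.polar Q v v = ε → ∃ j, v = b (i, j) ∨ v = - b (i, j) := by
    intro i v hv hvv
    rcases (hFr i).unique hq (hBs i) (hfr i) ⟨v, hv⟩ hvv with h | h | h | h | h | h
    · exact ⟨0, Or.inl (congrArg Subtype.val h)⟩
    · exact ⟨0, Or.inr (congrArg Subtype.val h)⟩
    · exact ⟨1, Or.inl (congrArg Subtype.val h)⟩
    · exact ⟨1, Or.inr (congrArg Subtype.val h)⟩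
    · exact ⟨2, Or.inl (congrArg Subtype.val h)⟩
    · exact ⟨2, Or.inr (congrArg Subtype.val h)⟩
  have hc : ε / 2 ≠ 0 := div_ne_zero hfr0.ne h2
  have hbQ : ∀ p, Q (b p) = ε / 2 := by
    intro p
    have := hbb p
    rw [polar_self hQ] at this
    rw [eq_div_iff h2, mul_comm]
    exact this
  let b' : Fin (t * 3) → ι → F := fun a => b (finProdFinEquiv.symm a)
  have hb'o : ∀ a a', a ≠ a' → QuadraticMap.polar Q (b' a) (b' a') = 0 := fun a a' hne =>
    hbo _ _ (fun h => hne (finProdFinEquiv.symm.injective h))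
  refine ⟨t * 3, fun a => Submodule.span F {b' a},
    lines_of_family hQ h2 (by omega) (decomp_cardG D hD.decomp.decomp).symm b' (ε / 2) hc
      (fun a => hbQ _) hb'o, ?_⟩
  intro h hh
  apply mem_stab_of_perm hQ h2 b' (ε / 2) hc (fun a => hbQ _) hb'o
  intro a
  obtain ⟨σ, hσ⟩ := hle hh
  have h1 : (h : Matrix ι ι F) *ᵥ b' a ∈ D (σ (finProdFinEquiv.symm a).1) := by
    rw [← hσ]
    exact ⟨b' a, hbD _, by simp [Matrix.toLin'_apply]⟩
  obtain ⟨j, hj⟩ := huniq _ _ h1 (by rw [polar_iso (hH hh)]; exact hbb _)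
  refine ⟨finProdFinEquiv (σ (finProdFinEquiv.symm a).1, j), ?_⟩
  show _ = b (finProdFinEquiv.symm (finProdFinEquiv _)) ∨ _ = - b (finProdFinEquiv.symm (finProdFinEquiv _))
  rw [Equiv.symm_apply_apply]
  exact hj

end Cfsg.Agent.Lib.Helper95OFrame3
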