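import Mathlib
import Cfsg.Prelude.Def_GeometricClasses
import Cfsg.Agent.Lib.Helper95Basic
import Cfsg.Agent.Lib.Helper95Form

set_option autoImplicit false

/-! Pure tensors, the action of the tensor product subgroup on them, and tensor forms. -/

namespace Cfsg.Agent.Lib.Helper95Tens

open Matrix Cfsg.Geo Cfsg.Agent.Lib.Helper95Basic Cfsg.Agent.Lib.Helper95Form
open scoped Kronecker

variable {ι : Type} [Fintype ι] [DecidableEq ι] {F : Type*} [Field F] {n₁ n₂ : ℕ}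

/-- pure tensor in coordinates -/
def tp (x : Fin n₁ → F) (u : Fin n₂ → F) : Fin n₁ × Fin n₂ → F := fun a => x a.1 * u a.2

lemma tp_add_left (x y : Fin n₁ → F) (u : Fin n₂ → F) : tp (x + y) u = tp x u + tp y u := by
  funext a; simp [tp, add_mul]

lemma tp_add_right (x : Fin n₁ → F) (u v : Fin n₂ → F) : tp x (u + v) = tp x u + tp x v := by
  funext a; simp [tp, mul_add]

lemma tp_smul_left (c : F) (x : Fin n₁ → F) (u : Fin n₂ → F) : tp (c • x) u = c • tp x u := by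
  funext a; simp [tp, mul_assoc]

lemma tp_smul_right (c : F) (x : Fin n₁ → F) (u : Fin n₂ → F) : tp x (c • u) = c • tp x u := by
  funext a; simp [tp, mul_left_comm]

lemma kron_mulVec_tp (a : Matrix (Fin n₁) (Fin n₁) F) (b : Matrix (Fin n₂) (Fin n₂) F)
    (x : Fin n₁ → F) (u : Fin n₂ → F) : (a ⊗ₖ b) *ᵥ tp x u = tp (a *ᵥ x) (b *ᵥ u) := by
  funext ⟨p, q⟩
  simp only [Matrix.mulVec, dotProduct, tp, Matrix.kroneckerMap_apply, Fintype.sum_prod_type,
    Finset.sum_mul_sum]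
  refine Finset.sum_congr rfl fun i _ => Finset.sum_congr rfl fun j _ => ?_
  ring

/-- the embedding of coordinate tensors -/
def emb (e : ι ≃ Fin n₁ × Fin n₂) (P : GL ι F) (z : Fin n₁ × Fin n₂ → F) : ι → F :=
  (P : Matrix ι ι F) *ᵥ (z ∘ e)

lemma emb_add (e : ι ≃ Fin n₁ × Fin n₂) (P : GL ι F) (z w : Fin n₁ × Fin n₂ → F) :
    emb e P (z + w) = emb e P z + emb e P w := by
  simp only [emb]
  rw [← Matrix.mulVec_add]
  rfl

lemma emb_smul (e : ι ≃ Fin n₁ × Fin n₂) (P : GL ι F) (c : F) (z : Fin n₁ × Fin n₂ → F) :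
    emb e P (c • z) = c • emb e P z := by
  simp only [emb]
  rw [← Matrix.mulVec_smul]
  rfl

/-- pure tensors inside `ι → F` -/
def tau (e : ι ≃ Fin n₁ × Fin n₂) (P : GL ι F) (x : Fin n₁ → F) (u : Fin n₂ → F) : ι → F :=
  emb e P (tp x u)

lemma tau_add_left (e : ι ≃ Fin n₁ × Fin n₂) (P : GL ι F) (x y : Fin n₁ → F) (u : Fin n₂ → F) :
    tau e P (x + y) u = tau e P x u + tau e P y u := by
  simp only [tau, tp_add_left, emb_add]

lemma tau_add_right (e : ι ≃ Fin n₁ × Fin n₂) (P : GL ι F) (x : Fin n₁ → F) (u v : Fin n₂ → F) :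
    tau e P x (u + v) = tau e P x u + tau e P x v := by
  simp only [tau, tp_add_right, emb_add]

lemma tau_smul_left (e : ι ≃ Fin n₁ × Fin n₂) (P : GL ι F) (c : F) (x : Fin n₁ → F)
    (u : Fin n₂ → F) : tau e P (c • x) u = c • tau e P x u := by
  simp only [tau, tp_smul_left, emb_smul]

lemma tau_smul_right (e : ι ≃ Fin n₁ × Fin n₂) (P : GL ι F) (c : F) (x : Fin n₁ → F)
    (u : Fin n₂ → F) : tau e P x (c • u) = c • tau e P x u := by
  simp only [tau, tp_smul_right, emb_smul]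

/-- the action of an element of the tensor product subgroup -/
lemma tensor_act (e : ι ≃ Fin n₁ × Fin n₂) (P : GL ι F) (g : GL ι F)
    (hg : g ∈ tensorProductSubgroup n₁ n₂ e P) :
    ∃ (a : GL (Fin n₁) F) (b : GL (Fin n₂) F), ∀ x u,
      (g : Matrix ι ι F) *ᵥ tau e P x u
        = tau e P ((a : Matrix (Fin n₁) (Fin n₁) F) *ᵥ x) ((b : Matrix (Fin n₂) (Fin n₂) F) *ᵥ u) := by
  obtain ⟨h, ⟨k, ⟨a, b, hk⟩, rfl⟩, rfl⟩ := hg
  refine ⟨a, b, fun x u => ?_⟩
  have h1 : ((glReindex e.symm k : GL ι F) : Matrix ι ι F)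
      = (k : Matrix (Fin n₁ × Fin n₂) (Fin n₁ × Fin n₂) F).submatrix e e := rfl
  simp only [MulEquiv.coe_toMonoidHom, MulAut.conj_apply, tau, emb]
  rw [mul_mulVec, mul_mulVec, inv_mulVec_mulVec, h1, Matrix.submatrix_mulVec_equiv, hk]
  have h2 : (tp x u ∘ e) ∘ e.symm = tp x u := by
    funext p; simp
  rw [h2, kron_mulVec_tp]

/-- a form which is given by its Gram matrix, semilinear in the second variable -/
def IsGram {κ : Type} [Fintype κ] [DecidableEq κ] (σ : F → F) (f : (κ → F) → (κ → F) → F) : Prop :=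
  ∀ x y, f x y = formOfGram σ (gramMatrix f) x y

lemma formOfGram_tp (σ : F → F) (hσ : ∀ a b, σ (a * b) = σ a * σ b)
    (G₁ : Matrix (Fin n₁) (Fin n₁) F) (G₂ : Matrix (Fin n₂) (Fin n₂) F)
    (x y : Fin n₁ → F) (u v : Fin n₂ → F) :
    formOfGram σ (G₁ ⊗ₖ G₂) (tp x u) (tp y v) = formOfGram σ G₁ x y * formOfGram σ G₂ u v := by
  simp only [formOfGram, tp, Matrix.kroneckerMap_apply, Fintype.sum_prod_type, hσ]
  rw [Finset.sum_mul_sum]
  refine Finset.sum_congr rfl fun i _ => Finset.sum_congr rfl fun k _ => ?_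
  rw [Finset.sum_mul_sum]
  refine Finset.sum_congr rfl fun j _ => Finset.sum_congr rfl fun l _ => ?_
  ring

lemma isGram_of_bilinear {κ : Type} [Fintype κ] [DecidableEq κ] (f : (κ → F) → (κ → F) → F)
    (hf : IsBilinearForm f) : IsGram id f := by
  intro x y
  have h := congrArg (fun B : LinearMap.BilinForm F (κ → F) => B x y)
    (Matrix.toBilin'_toMatrix' (toBilin f hf))
  simp only [Matrix.toBilin'_apply, Helper95Form.toBilin_apply] at h
  rw [← h]
  rfl

/-- the tensor form structure on pure tensors -/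
lemma tensorForm_tau (σ : F → F) (hσ : ∀ a b, σ (a * b) = σ a * σ b)
    (f : (ι → F) → (ι → F) → F) (f₁ : (Fin n₁ → F) → (Fin n₁ → F) → F)
    (f₂ : (Fin n₂ → F) → (Fin n₂ → F) → F) (h₁ : IsGram σ f₁) (h₂ : IsGram σ f₂)
    (e : ι ≃ Fin n₁ × Fin n₂) (P : GL ι F) (hT : IsTensorFormStructure σ f f₁ f₂ e P) :
    ∃ c : F, c ≠ 0 ∧ ∀ x y u v, f (tau e P x u) (tau e P y v) = c * (f₁ x y * f₂ u v) := by
  obtain ⟨c, hc, h⟩ := hT
  refine ⟨c, hc, fun x y u v => ?_⟩
  rw [tau, tau, emb, emb, h, formOfGram_tp σ hσ, ← h₁, ← h₂]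

end Cfsg.Agent.Lib.Helper95Tens
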