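import Cfsg.Agent.Lib.Helper95SpTenstwo
import Cfsg.Agent.Lib.Helper95Tens

set_option autoImplicit false
set_option linter.unusedSectionVars false

/-! PROJECT 5 = ASCH-O, piece `gramdet`. -/

namespace Cfsg.Agent.Lib.Helper95OGramdet

open Cfsg Cfsg.Geo Matrix
open scoped MatrixGroups Kronecker

variable {ι : Type} [Fintype ι] [DecidableEq ι] {F : Type*} [Field F]
variable {Q : (ι → F) → F}

lemma formOfGram_comp {κ : Type} [Fintype κ] [DecidableEq κ] (e : ι ≃ κ) (N : Matrix ι ι F)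
    (x y : κ → F) :
    formOfGram id N (x ∘ e) (y ∘ e) = formOfGram id (Matrix.reindex e e N) x y := by
  unfold formOfGram
  rw [← Equiv.sum_comp e]
  refine Finset.sum_congr rfl fun a _ => ?_
  rw [← Equiv.sum_comp e]
  refine Finset.sum_congr rfl fun b _ => ?_
  simp [Matrix.reindex_apply]

/-- the Gram matrix in another basis, for a bilinear form -/
theorem gram_eq_of_form {κ : Type} [Fintype κ] [DecidableEq κ] {f : (ι → F) → (ι → F) → F}
    (hf : IsBilinearForm f) (e : ι ≃ κ) (P : GL ι F) (M : Matrix κ κ F)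
    (hM : ∀ x y : κ → F, f ((P : Matrix ι ι F) *ᵥ (x ∘ e)) ((P : Matrix ι ι F) *ᵥ (y ∘ e))
      = formOfGram id M x y) :
    M = Matrix.reindex e e ((P : Matrix ι ι F)ᵀ * gramMatrix f * (P : Matrix ι ι F)) := by
  apply Cfsg.Agent.Lib.Helper95SpTenstwo.formOfGram_inj
  intro x y
  rw [← hM, Cfsg.Agent.Lib.Helper95Tens.isGram_of_bilinear f hf,
    Cfsg.Agent.Lib.Helper95SpTenstwo.formOfGram_mulVec_left,
    Cfsg.Agent.Lib.Helper95SpTenstwo.formOfGram_mulVec_right, formOfGram_comp]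

/-- [gramdet] the discriminant in another basis. -/
theorem gram_det_of_form {κ : Type} [Fintype κ] [DecidableEq κ] (hQ : IsNondegenerateQuadraticForm Q)
    (e : ι ≃ κ) (P : GL ι F) (M : Matrix κ κ F)
    (hM : ∀ x y : κ → F, QuadraticMap.polar Q ((P : Matrix ι ι F) *ᵥ (x ∘ e))
      ((P : Matrix ι ι F) *ᵥ (y ∘ e)) = formOfGram id M x y) :
    (gramMatrix (QuadraticMap.polar Q)).det * (P : Matrix ι ι F).det ^ 2 = M.det := by
  rw [gram_eq_of_form hQ.polar_bilinear e P M hM, Matrix.det_reindex_self, Matrix.det_mul,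
    Matrix.det_mul, Matrix.det_transpose]
  ring

end Cfsg.Agent.Lib.Helper95OGramdet
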