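import Mathlib
import Cfsg.Prelude.Def_GeometricClasses
import Cfsg.Agent.Lib.Helper95Basic
import Cfsg.Agent.Lib.Helper95Form
import Cfsg.Agent.Lib.Helper95Sp
import Cfsg.Agent.Lib.Helper95SpStd
import Cfsg.Agent.Lib.Helper95Tens
import Cfsg.Agent.Lib.Helper95O3

set_option autoImplicit false

/-! `Sp_{n₁}(3) ⊗ O_3(3)` is not maximal in `Sp_{3 n₁}(3)` (any dimension). -/

namespace Cfsg.Agent.Lib.Helper95SpO3

open Matrix Cfsg.Geo Cfsg.Agent.Lib.Helper95Basic Cfsg.Agent.Lib.Helper95Form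
  Cfsg.Agent.Lib.Helper95Sp Cfsg.Agent.Lib.Helper95SpStd Cfsg.Agent.Lib.Helper95Tens
  Cfsg.Agent.Lib.Helper95O3

section stab

variable {ι : Type} [Fintype ι] [DecidableEq ι] {F : Type*} [Field F]

/-- the stabiliser of a set of vectors -/
def setStab (X : Set (ι → F)) : Subgroup (GL ι F) where
  carrier := {g | ∀ v, (g : Matrix ι ι F) *ᵥ v ∈ X ↔ v ∈ X}
  one_mem' := fun v => by simp
  mul_mem' := fun {g h} hg hh v => by
    rw [mul_mulVec, hg, hh]
  inv_mem' := fun {g} hg v => by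
    rw [← hg, mulVec_inv_mulVec]

lemma mem_setStab_of_forall [Finite F] (X : Set (ι → F)) (g : GL ι F)
    (h : ∀ v ∈ X, (g : Matrix ι ι F) *ᵥ v ∈ X) : g ∈ setStab X := by
  intro v
  refine ⟨fun hv => ?_, h v⟩
  let φ : X → X := fun w => ⟨(g : Matrix ι ι F) *ᵥ w.1, h w.1 w.2⟩
  have hinj : Function.Injective φ := by
    intro w w' hww
    have h1 : (g : Matrix ι ι F) *ᵥ w.1 = (g : Matrix ι ι F) *ᵥ w'.1 := congrArg Subtype.val hww
    have h2 := congrArg (fun t => ((g⁻¹ : GL ι F) : Matrix ι ι F) *ᵥ t) h1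
    simp only [inv_mulVec_mulVec] at h2
    exact Subtype.ext h2
  obtain ⟨w, hw⟩ := (Finite.injective_iff_surjective.1 hinj) ⟨_, hv⟩
  have h1 : (g : Matrix ι ι F) *ᵥ w.1 = (g : Matrix ι ι F) *ᵥ v := congrArg Subtype.val hw
  have h2 := congrArg (fun t => ((g⁻¹ : GL ι F) : Matrix ι ι F) *ᵥ t) h1
  simp only [inv_mulVec_mulVec] at h2
  rw [← h2]
  exact w.2

end stab

variable {F : Type*} [Field F] [Fintype F]

theorem sp_tensor_O3 (m : ℕ) (hm : 1 ≤ m) (hq : Fintype.card F = 3) (n₁ : ℕ)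
    (e : (Fin m ⊕ Fin m) ≃ Fin n₁ × Fin 3) (P : GL (Fin m ⊕ Fin m) F)
    (f₁ : (Fin n₁ → F) → (Fin n₁ → F) → F) (f₂ : (Fin 3 → F) → (Fin 3 → F) → F)
    (hf₁ : IsSymplecticForm f₁) (hf₂ : IsSymmetricForm f₂)
    (hT : IsTensorFormStructure id (Cfsg.sympForm m F) f₁ f₂ e P) :
    ∃ K : Subgroup (GL (Fin m ⊕ Fin m) F),
      tensorProductSubgroup n₁ 3 e P ⊓ Cfsg.spGL m F < K ∧ K < Cfsg.spGL m F := by
  classical
  obtain ⟨c, hc, hform0⟩ := tensorForm_tau id (by simp) (Cfsg.sympForm m F) f₁ f₂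
    (isGram_of_bilinear _ hf₁.bilinear) (isGram_of_bilinear _ hf₂.bilinear) e P hT
  obtain ⟨ε, u1, u2, u3, hfr⟩ := exists_fr hq (Helper95Form.toBilin f₂ hf₂.bilinear) hf₂.symm
    (toBilin_nondegenerate f₂ hf₂.bilinear hf₂.nondegenerate) (by simp)
  have huniq := hfr.unique hq hf₂.symm (by simp)
  have hε := hfr.ne
  have e11 : f₂ u1 u1 = ε := hfr.xx
  have e22 : f₂ u2 u2 = ε := hfr.yy
  have e33 : f₂ u3 u3 = ε := hfr.zz
  have e12 : f₂ u1 u2 = 0 := hfr.xy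
  have e13 : f₂ u1 u3 = 0 := hfr.xz
  have e23 : f₂ u2 u3 = 0 := hfr.yz
  have e21 : f₂ u2 u1 = 0 := by rw [hf₂.symm]; exact e12
  have e31 : f₂ u3 u1 = 0 := by rw [hf₂.symm]; exact e13
  have e32 : f₂ u3 u2 = 0 := by rw [hf₂.symm]; exact e23
  set τ := tau e P with hτ
  have hform : ∀ x y u v, stdB F m (τ x u) (τ y v) = c * (f₁ x y * f₂ u v) := hform0
  -- a pair in the first factor
  have hn₁ : 0 < n₁ := by
    have := Fintype.card_congr e
    simp at this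
    omega
  obtain ⟨x₁, y₁, hxy⟩ : ∃ x₁ y₁ : Fin n₁ → F, f₁ y₁ x₁ ≠ 0 := by
    have hne : (Pi.single (⟨0, hn₁⟩ : Fin n₁) (1 : F) : Fin n₁ → F) ≠ 0 := by
      intro h
      have := congrFun h ⟨0, hn₁⟩
      simp at this
    obtain ⟨y, hy⟩ := (hf₁.nondegenerate _ hne).1
    exact ⟨_, y, hy⟩
  have hyx : f₁ x₁ y₁ ≠ 0 := by rw [hf₁.skew]; exact neg_ne_zero.2 hxy
  let X : Set (Fin m ⊕ Fin m → F) := {v | ∃ x, v = τ x u1 ∨ v = τ x u2 ∨ v = τ x u3}
  have hneg : ∀ x u, τ x (-u) = τ (-x) u := by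
    intro x u
    rw [← neg_one_smul F u, ← neg_one_smul F x, hτ, tau_smul_left, tau_smul_right]
  have hX : ∀ x w, f₂ w w = ε → τ x w ∈ X := by
    intro x w hw
    rcases huniq w hw with h | h | h | h | h | h
    · exact ⟨x, Or.inl (by rw [h])⟩
    · exact ⟨-x, Or.inl (by rw [h, hneg])⟩
    · exact ⟨x, Or.inr (Or.inl (by rw [h]))⟩
    · exact ⟨-x, Or.inr (Or.inl (by rw [h, hneg]))⟩
    · exact ⟨x, Or.inr (Or.inr (by rw [h]))⟩
    · exact ⟨-x, Or.inr (Or.inr (by rw [h, hneg]))⟩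
  have hA := stdB_isAlt (F := F) m
  refine ⟨setStab X ⊓ Cfsg.spGL m F, ?_, ?_⟩
  · -- first strict inclusion
    have hle : tensorProductSubgroup n₁ 3 e P ⊓ Cfsg.spGL m F ≤ setStab X ⊓ Cfsg.spGL m F := by
      rintro g ⟨hgT, hgS⟩
      refine ⟨?_, hgS⟩
      obtain ⟨a, b, hab⟩ := tensor_act e P g hgT
      have hiso0 : ∀ x y u v, f₁ ((a : Matrix _ _ F) *ᵥ x) ((a : Matrix _ _ F) *ᵥ y)
          * f₂ ((b : Matrix _ _ F) *ᵥ u) ((b : Matrix _ _ F) *ᵥ v) = f₁ x y * f₂ u v := by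
        intro x y u v
        have h1 := (mem_spGL_iff m g).1 hgS (τ x u) (τ y v)
        rw [hab, hab] at h1
        have h2 := hform ((a : Matrix _ _ F) *ᵥ x) ((a : Matrix _ _ F) *ᵥ y)
          ((b : Matrix _ _ F) *ᵥ u) ((b : Matrix _ _ F) *ᵥ v)
        have h3 := hform x y u v
        rw [stdB_apply] at h2 h3
        rw [h2, h3] at h1
        exact mul_left_cancel₀ hc h1
      have hα : f₁ ((a : Matrix _ _ F) *ᵥ y₁) ((a : Matrix _ _ F) *ᵥ x₁) ≠ 0 := by
        intro h0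
        have := hiso0 y₁ x₁ u1 u1
        rw [h0, zero_mul, e11] at this
        exact mul_ne_zero hxy hε this.symm
      have hμ := similarity_eq_one hq f₂ hf₂ b
        (f₁ y₁ x₁ / f₁ ((a : Matrix _ _ F) *ᵥ y₁) ((a : Matrix _ _ F) *ᵥ x₁)) (by
          intro u v
          rw [div_mul_eq_mul_div, eq_div_iff hα, mul_comm]
          exact hiso0 y₁ x₁ u v)
      have hiso : ∀ u v, f₂ ((b : Matrix _ _ F) *ᵥ u) ((b : Matrix _ _ F) *ᵥ v) = f₂ u v := by
        intro u v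
        have h1 := hiso0 y₁ x₁ u v
        rw [div_eq_one_iff_eq hα] at hμ
        rw [← hμ] at h1
        exact mul_left_cancel₀ hxy h1
      apply mem_setStab_of_forall
      rintro v ⟨x, rfl | rfl | rfl⟩
      · rw [hab]; exact hX _ _ (by rw [hiso, e11])
      · rw [hab]; exact hX _ _ (by rw [hiso, e22])
      · rw [hab]; exact hX _ _ (by rw [hiso, e33])
    refine lt_of_le_of_ne hle fun heq => ?_
    let t : GL (Fin m ⊕ Fin m) F := mkGL (stv (stdB F m) hA (τ x₁ u1) 1)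
    have ht1 : ∀ x, (t : Matrix _ _ F) *ᵥ τ x u1 = τ (x + (c * (f₁ x x₁ * ε)) • x₁) u1 := by
      intro x
      simp only [t, mkGL_mulVec, stv_apply, hform, e11, one_mul]
      rw [hτ, tau_add_left, tau_smul_left]
    have ht2 : ∀ x, (t : Matrix _ _ F) *ᵥ τ x u2 = τ x u2 := by
      intro x
      simp only [t, mkGL_mulVec, stv_apply, hform, e21, mul_zero, zero_smul, add_zero]
    have ht3 : ∀ x, (t : Matrix _ _ F) *ᵥ τ x u3 = τ x u3 := by
      intro x
      simp only [t, mkGL_mulVec, stv_apply, hform, e31, mul_zero, zero_smul, add_zero]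
    have htK : t ∈ setStab X ⊓ Cfsg.spGL m F := by
      refine ⟨?_, (mkGL_mem_spGL_iff m _).2 (stv_isometry hA _ _)⟩
      apply mem_setStab_of_forall
      rintro v ⟨x, rfl | rfl | rfl⟩
      · rw [ht1]; exact ⟨_, Or.inl rfl⟩
      · rw [ht2]; exact ⟨_, Or.inr (Or.inl rfl)⟩
      · rw [ht3]; exact ⟨_, Or.inr (Or.inr rfl)⟩
    rw [← heq] at htK
    obtain ⟨a, b, hab0⟩ := tensor_act e P t htK.1
    have hab : ∀ x u, (t : Matrix _ _ F) *ᵥ τ x u
        = τ ((a : Matrix _ _ F) *ᵥ x) ((b : Matrix _ _ F) *ᵥ u) := hab0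
    -- pairing with the second block
    have h2 : ∀ x y, f₁ x y * ε = f₁ ((a : Matrix _ _ F) *ᵥ x) y * f₂ ((b : Matrix _ _ F) *ᵥ u2) u2 := by
      intro x y
      have h := congrArg (fun w => stdB F m w (τ y u2)) ((ht2 x).symm.trans (hab x u2))
      simp only [hform, e22] at h
      exact mul_left_cancel₀ hc h
    have h1 : ∀ x y, f₁ (x + (c * (f₁ x x₁ * ε)) • x₁) y * ε
        = f₁ ((a : Matrix _ _ F) *ᵥ x) y * f₂ ((b : Matrix _ _ F) *ᵥ u1) u1 := by
      intro x y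
      have h := congrArg (fun w => stdB F m w (τ y u1)) ((ht1 x).symm.trans (hab x u1))
      simp only [hform, e11] at h
      exact mul_left_cancel₀ hc h
    have h3 := h2 y₁ y₁
    have h4 := h1 y₁ y₁
    have h5 := h2 y₁ x₁
    rw [hf₁.alternating, zero_mul] at h3
    rw [hf₁.bilinear.add_left, hf₁.bilinear.smul_left, hf₁.alternating, zero_add] at h4
    have h6 : f₂ ((b : Matrix _ _ F) *ᵥ u2) u2 ≠ 0 := by
      intro h0
      rw [h0, mul_zero] at h5
      exact mul_ne_zero hxy hε h5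
    have h7 : f₁ ((a : Matrix _ _ F) *ᵥ y₁) y₁ = 0 := by
      rcases mul_eq_zero.1 h3.symm with h | h
      · exact h
      · exact absurd h h6
    rw [h7, zero_mul] at h4
    exact mul_ne_zero (mul_ne_zero (mul_ne_zero hc (mul_ne_zero hxy hε)) hyx) hε h4
  · refine lt_of_le_of_ne inf_le_right fun heq => ?_
    let t : GL (Fin m ⊕ Fin m) F := mkGL (stv (stdB F m) hA (τ x₁ (u1 + u2)) 1)
    have htS : t ∈ Cfsg.spGL m F := (mkGL_mem_spGL_iff m _).2 (stv_isometry hA _ _)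
    rw [← heq] at htS
    have hw : τ y₁ u1 ∈ X := ⟨_, Or.inl rfl⟩
    have htw := (htS.1 (τ y₁ u1)).2 hw
    have hs : (t : Matrix _ _ F) *ᵥ τ y₁ u1
        = τ y₁ u1 + (c * (f₁ y₁ x₁ * ε)) • (τ x₁ u1 + τ x₁ u2) := by
      simp only [t, mkGL_mulVec, stv_apply, hform, one_mul, hf₂.bilinear.add_right, e11, e12,
        add_zero]
      rw [hτ, tau_add_right]
    rw [hs] at htw
    have hp2 : ∀ z, stdB F m (τ y₁ u1 + (c * (f₁ y₁ x₁ * ε)) • (τ x₁ u1 + τ x₁ u2)) (τ z u2)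
        = (c * (f₁ y₁ x₁ * ε)) * (c * (f₁ x₁ z * ε)) := by
      intro z
      simp only [map_add, map_smul, LinearMap.add_apply, LinearMap.smul_apply, smul_eq_mul, hform,
        e12, e22]
      ring
    have hp1 : ∀ z, stdB F m (τ y₁ u1 + (c * (f₁ y₁ x₁ * ε)) • (τ x₁ u1 + τ x₁ u2)) (τ z u1)
        = c * (f₁ y₁ z * ε) + (c * (f₁ y₁ x₁ * ε)) * (c * (f₁ x₁ z * ε)) := by
      intro z
      simp only [map_add, map_smul, LinearMap.add_apply, LinearMap.smul_apply, smul_eq_mul, hform,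
        e11, e21]
      ring
    have hne : c * (f₁ y₁ x₁ * ε) ≠ 0 := mul_ne_zero hc (mul_ne_zero hxy hε)
    have hne' : c * (f₁ x₁ y₁ * ε) ≠ 0 := mul_ne_zero hc (mul_ne_zero hyx hε)
    obtain ⟨z, h | h | h⟩ := htw
    · have := hp2 y₁
      rw [h, hform, e12] at this
      simp only [mul_zero] at this
      exact mul_ne_zero hne hne' this.symm
    · have := hp1 x₁
      rw [h, hform, e21, hf₁.alternating] at this
      simp only [mul_zero, zero_mul, add_zero] at this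
      exact hne this.symm
    · have := hp2 y₁
      rw [h, hform, e32] at this
      simp only [mul_zero] at this
      exact mul_ne_zero hne hne' this.symm

end Cfsg.Agent.Lib.Helper95SpO3
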