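import Cfsg.Agent.Lib.Helper97OProper
import Cfsg.Agent.Lib.Helper95SpO3

set_option autoImplicit false
set_option linter.unusedSectionVars false

/-! `O_3(3) ⊗ O_{n₂}(3)` is not maximal in `Ω_{3 n₂}(3)`. -/

namespace Cfsg.Agent.Lib.Helper95OO3

open Cfsg Cfsg.Geo Matrix Cfsg.Agent.Lib.Helper97GBase Cfsg.Agent.Lib.Helper97GForms
  Cfsg.Agent.Lib.Helper95Form Cfsg.Agent.Lib.Helper95Basic
  Cfsg.Agent.Lib.Helper97OBase Cfsg.Agent.Lib.Helper97OProper
  Cfsg.Agent.Lib.Helper95Tens Cfsg.Agent.Lib.Helper95O3 Cfsg.Agent.Lib.Helper95SpO3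
open scoped MatrixGroups

section aux

variable {F : Type*} [Field F] {k : ℕ}

/-- a non-singular vector, a non-zero vector orthogonal to it and a partner -/
lemma exists_pz (h2 : (2 : F) ≠ 0) (hk : 2 ≤ k) (f : (Fin k → F) → (Fin k → F) → F)
    (hf : IsSymmetricForm f) :
    ∃ p z w : Fin k → F, f p p ≠ 0 ∧ f z p = 0 ∧ f z w ≠ 0 := by
  have hb := hf.bilinear
  let j0 : Fin k := ⟨0, by omega⟩
  let j1 : Fin k := ⟨1, by omega⟩
  have hj : j0 ≠ j1 := by
    intro h
    have := congrArg Fin.val h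
    simp [j0, j1] at this
  obtain ⟨p, hp⟩ : ∃ p, f p p ≠ 0 := by
    by_contra hcon
    push Not at hcon
    have hne : (Pi.single j0 (1 : F) : Fin k → F) ≠ 0 := by
      intro h
      have := congrFun h j0
      simp at this
    obtain ⟨y, hy⟩ := (hf.nondegenerate _ hne).1
    apply hy
    have h1 := hcon (y + Pi.single j0 1)
    rw [hb.add_left, hb.add_right, hb.add_right, hcon, hcon, hf.symm (Pi.single j0 1) y] at h1
    have h3 : 2 * f y (Pi.single j0 1) = 0 := by linear_combination h1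
    rcases mul_eq_zero.1 h3 with h | h
    · exact absurd h h2
    · exact h
  obtain ⟨z, hz0, hz⟩ : ∃ z : Fin k → F, z ≠ 0 ∧ f z p = 0 := by
    by_cases h0 : f (Pi.single j0 1) p = 0
    · refine ⟨Pi.single j0 1, ?_, h0⟩
      intro h
      have := congrFun h j0
      simp at this
    · refine ⟨f (Pi.single j1 1) p • Pi.single j0 1 + (- f (Pi.single j0 1) p) • Pi.single j1 1, ?_, ?_⟩
      · intro h
        have := congrFun h j1
        simp [Pi.single_eq_of_ne hj.symm] at this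
        exact h0 this
      · rw [hb.add_left, hb.smul_left, hb.smul_left]
        ring
  obtain ⟨w, hw⟩ := (hf.nondegenerate _ hz0).2
  exact ⟨p, z, w, hp, hz, hw⟩

end aux

variable {ι : Type} [Fintype ι] [DecidableEq ι] {F : Type*} [Field F] [Fintype F]

theorem o3_tensor_not_max (hq : Fintype.card F = 3) (Q : (ι → F) → F)
    (hQ : IsNondegenerateQuadraticForm Q) (hn : 7 ≤ Fintype.card ι) (n₂ : ℕ) (hn₂ : 2 ≤ n₂)
    (e : ι ≃ Fin 3 × Fin n₂) (P : GL ι F)
    (f₁ : (Fin 3 → F) → (Fin 3 → F) → F) (f₂ : (Fin n₂ → F) → (Fin n₂ → F) → F)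
    (hf₁ : IsSymmetricForm f₁) (hf₂ : IsSymmetricForm f₂)
    (hT : IsTensorFormStructure id (QuadraticMap.polar Q) f₁ f₂ e P) :
    ∃ K : Subgroup (GL ι F),
      tensorProductSubgroup 3 n₂ e P ⊓ omegaGL Q < K ∧ K < omegaGL Q := by
  classical
  have h2 := two_ne_zero3 hq
  have hb := hQ.polar_bilinear
  obtain ⟨c, hc, hform0⟩ := tensorForm_tau id (by simp) (QuadraticMap.polar Q) f₁ f₂
    (isGram_of_bilinear _ hf₁.bilinear) (isGram_of_bilinear _ hf₂.bilinear) e P hT
  obtain ⟨ε, u1, u2, u3, hfr⟩ := exists_fr hq (Helper95Form.toBilin f₁ hf₁.bilinear) hf₁.symm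
    (toBilin_nondegenerate f₁ hf₁.bilinear hf₁.nondegenerate) (by simp)
  have huniq := hfr.unique hq hf₁.symm (by simp)
  have hε := hfr.ne
  have e11 : f₁ u1 u1 = ε := hfr.xx
  have e22 : f₁ u2 u2 = ε := hfr.yy
  have e33 : f₁ u3 u3 = ε := hfr.zz
  have e12 : f₁ u1 u2 = 0 := hfr.xy
  have e13 : f₁ u1 u3 = 0 := hfr.xz
  have e23 : f₁ u2 u3 = 0 := hfr.yz
  have e21 : f₁ u2 u1 = 0 := by rw [hf₁.symm]; exact e12
  have e31 : f₁ u3 u1 = 0 := by rw [hf₁.symm]; exact e13
  have e32 : f₁ u3 u2 = 0 := by rw [hf₁.symm]; exact e23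
  set τ := tau e P with hτ
  have hform : ∀ x y u v, QuadraticMap.polar Q (τ x u) (τ y v) = c * (f₁ x y * f₂ u v) := hform0
  obtain ⟨p, z, w, hpp, hzp, hzw⟩ := exists_pz h2 hn₂ f₂ hf₂
  have hpz : f₂ p z = 0 := by rw [hf₂.symm]; exact hzp
  let X : Set (ι → F) := {v | ∃ y, v = τ u1 y ∨ v = τ u2 y ∨ v = τ u3 y}
  have hneg : ∀ x u, τ (-x) u = τ x (-u) := by
    intro x u
    rw [← neg_one_smul F u, ← neg_one_smul F x, hτ, tau_smul_left, tau_smul_right]
  have hX : ∀ x y, f₁ x x = ε → τ x y ∈ X := by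
    intro x y hx
    rcases huniq x hx with h | h | h | h | h | h
    · exact ⟨y, Or.inl (by rw [h])⟩
    · exact ⟨-y, Or.inl (by rw [h, hneg])⟩
    · exact ⟨y, Or.inr (Or.inl (by rw [h]))⟩
    · exact ⟨-y, Or.inr (Or.inl (by rw [h, hneg]))⟩
    · exact ⟨y, Or.inr (Or.inr (by rw [h]))⟩
    · exact ⟨-y, Or.inr (Or.inr (by rw [h, hneg]))⟩
  -- the value of `Q` on pure tensors
  have hQτ : ∀ x y, 2 * Q (τ x y) = c * (f₁ x x * f₂ y y) := by
    intro x y
    rw [← polar_self hQ, hform]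
  have hπ : c * (ε * f₂ p p) ≠ 0 := mul_ne_zero hc (mul_ne_zero hε hpp)
  have hQ1 : Q (τ u1 p) ≠ 0 := by
    intro h
    have := hQτ u1 p
    rw [h, mul_zero, e11] at this
    exact hπ this.symm
  have hQ2 : Q (τ u2 p) ≠ 0 := by
    intro h
    have := hQτ u2 p
    rw [h, mul_zero, e22] at this
    exact hπ this.symm
  have hQ12 : Q (τ u1 p) = Q (τ u2 p) := by
    apply mul_left_cancel₀ h2
    rw [hQτ, hQτ, e11, e22]
  refine ⟨setStab X ⊓ omegaGL Q, ?_, ?_⟩
  · -- first strict inclusion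
    have hle : tensorProductSubgroup 3 n₂ e P ⊓ omegaGL Q ≤ setStab X ⊓ omegaGL Q := by
      rintro g ⟨hgT, hgS⟩
      refine ⟨?_, hgS⟩
      obtain ⟨a, b, hab⟩ := tensor_act e P g hgT
      have hiso0 : ∀ x y u v, f₁ ((a : Matrix _ _ F) *ᵥ x) ((a : Matrix _ _ F) *ᵥ y)
          * f₂ ((b : Matrix _ _ F) *ᵥ u) ((b : Matrix _ _ F) *ᵥ v) = f₁ x y * f₂ u v := by
        intro x y u v
        have h1 := polar_iso (omega_le_iso hgS) (τ x u) (τ y v)
        rw [hab, hab] at h1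
        have h2 := hform ((a : Matrix _ _ F) *ᵥ x) ((a : Matrix _ _ F) *ᵥ y)
          ((b : Matrix _ _ F) *ᵥ u) ((b : Matrix _ _ F) *ᵥ v)
        have h3 := hform x y u v
        rw [h2, h3] at h1
        exact mul_left_cancel₀ hc h1
      have hα : f₂ ((b : Matrix _ _ F) *ᵥ p) ((b : Matrix _ _ F) *ᵥ p) ≠ 0 := by
        intro h0
        have := hiso0 u1 u1 p p
        rw [h0, mul_zero, e11] at this
        exact mul_ne_zero hε hpp this.symm
      have hμ := similarity_eq_one hq f₁ hf₁ a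
        (f₂ p p / f₂ ((b : Matrix _ _ F) *ᵥ p) ((b : Matrix _ _ F) *ᵥ p)) (by
          intro u v
          rw [div_mul_eq_mul_div, eq_div_iff hα, mul_comm (f₂ p p)]
          exact hiso0 u v p p)
      have hiso : ∀ u v, f₁ ((a : Matrix _ _ F) *ᵥ u) ((a : Matrix _ _ F) *ᵥ v) = f₁ u v := by
        intro u v
        have h1 := hiso0 u v p p
        rw [div_eq_one_iff_eq hα] at hμ
        rw [← hμ] at h1
        exact mul_right_cancel₀ hpp h1
      apply mem_setStab_of_forall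
      rintro v ⟨x, rfl | rfl | rfl⟩
      · rw [hab]; exact hX _ _ (by rw [hiso, e11])
      · rw [hab]; exact hX _ _ (by rw [hiso, e22])
      · rw [hab]; exact hX _ _ (by rw [hiso, e33])
    refine lt_of_le_of_ne hle fun heq => ?_
    let t : GL ι F := rf hQ (τ u1 p) hQ1 * rf hQ (τ u2 p) hQ2
    have htΩ : t ∈ omegaGL Q := rr_mem hQ h2 _ _ hQ1 hQ2 hQ12
    -- the reflections stabilise the blocks
    have hr1 : ∀ v ∈ X, (rf hQ (τ u1 p) hQ1 : Matrix ι ι F) *ᵥ v ∈ X := by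
      rintro v ⟨y, rfl | rfl | rfl⟩
      · refine ⟨y - ((Q (τ u1 p))⁻¹ * QuadraticMap.polar Q (τ u1 p) (τ u1 y)) • p, Or.inl ?_⟩
        rw [rf_mulVec, sub_eq_add_neg y, ← neg_smul, hτ, tau_add_right, tau_smul_right, neg_smul,
          ← sub_eq_add_neg]
      · rw [rf_fix hQ _ _ (by rw [hform, e12]; ring)]
        exact ⟨y, Or.inr (Or.inl rfl)⟩
      · rw [rf_fix hQ _ _ (by rw [hform, e13]; ring)]
        exact ⟨y, Or.inr (Or.inr rfl)⟩
    have hr2 : ∀ v ∈ X, (rf hQ (τ u2 p) hQ2 : Matrix ι ι F) *ᵥ v ∈ X := by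
      rintro v ⟨y, rfl | rfl | rfl⟩
      · rw [rf_fix hQ _ _ (by rw [hform, e21]; ring)]
        exact ⟨y, Or.inl rfl⟩
      · refine ⟨y - ((Q (τ u2 p))⁻¹ * QuadraticMap.polar Q (τ u2 p) (τ u2 y)) • p, Or.inr (Or.inl ?_)⟩
        rw [rf_mulVec, sub_eq_add_neg y, ← neg_smul, hτ, tau_add_right, tau_smul_right, neg_smul,
          ← sub_eq_add_neg]
      · rw [rf_fix hQ _ _ (by rw [hform, e23]; ring)]
        exact ⟨y, Or.inr (Or.inr rfl)⟩
    have htK : t ∈ setStab X ⊓ omegaGL Q := by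
      refine ⟨?_, htΩ⟩
      apply mem_setStab_of_forall
      intro v hv
      show ((rf hQ (τ u1 p) hQ1 * rf hQ (τ u2 p) hQ2 : GL ι F) : Matrix ι ι F) *ᵥ v ∈ X
      rw [mul_mulVec]
      exact hr1 _ (hr2 v hv)
    rw [← heq] at htK
    obtain ⟨a, b, hab0⟩ := tensor_act e P t htK.1
    have hab : ∀ x u, (t : Matrix _ _ F) *ᵥ τ x u
        = τ ((a : Matrix _ _ F) *ᵥ x) ((b : Matrix _ _ F) *ᵥ u) := hab0
    have ht : ∀ v, (t : Matrix ι ι F) *ᵥ v
        = (rf hQ (τ u1 p) hQ1 : Matrix ι ι F) *ᵥ ((rf hQ (τ u2 p) hQ2 : Matrix ι ι F) *ᵥ v) := by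
      intro v
      show ((rf hQ (τ u1 p) hQ1 * rf hQ (τ u2 p) hQ2 : GL ι F) : Matrix ι ι F) *ᵥ v = _
      rw [mul_mulVec]
    have t1p : (t : Matrix ι ι F) *ᵥ τ u1 p = - τ u1 p := by
      rw [ht, rf_fix hQ (τ u2 p) hQ2 (by rw [hform, e21]; ring), rf_mulVec, polar_self hQ]
      have : (Q (τ u1 p))⁻¹ * (2 * Q (τ u1 p)) = 2 := by field_simp
      rw [this, two_smul]
      abel
    have t1z : (t : Matrix ι ι F) *ᵥ τ u1 z = τ u1 z := by
      rw [ht, rf_fix hQ (τ u2 p) hQ2 (by rw [hform, e21]; ring),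
        rf_fix hQ (τ u1 p) hQ1 (by rw [hform, hpz]; ring)]
    have t3 : ∀ y, (t : Matrix ι ι F) *ᵥ τ u3 y = τ u3 y := by
      intro y
      rw [ht, rf_fix hQ (τ u2 p) hQ2 (by rw [hform, e23]; ring),
        rf_fix hQ (τ u1 p) hQ1 (by rw [hform, e13]; ring)]
    set A1 := f₁ ((a : Matrix _ _ F) *ᵥ u1) u1 with hA1
    set A3 := f₁ ((a : Matrix _ _ F) *ᵥ u3) u3 with hA3
    have negl : ∀ x y, QuadraticMap.polar Q (-x) y = - QuadraticMap.polar Q x y := by
      intro x y
      have := hb.smul_left (-1) x y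
      simpa using this
    have q1 : A1 * f₂ ((b : Matrix _ _ F) *ᵥ p) p = - (ε * f₂ p p) := by
      have h := congrArg (fun v => QuadraticMap.polar Q v (τ u1 p)) ((hab u1 p).symm.trans t1p)
      simp only [negl, hform, e11] at h
      apply mul_left_cancel₀ hc
      linear_combination h
    have q2 : A1 * f₂ ((b : Matrix _ _ F) *ᵥ z) w = ε * f₂ z w := by
      have h := congrArg (fun v => QuadraticMap.polar Q v (τ u1 w)) ((hab u1 z).symm.trans t1z)
      simp only [hform, e11] at h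
      exact mul_left_cancel₀ hc h
    have q3 : A3 * f₂ ((b : Matrix _ _ F) *ᵥ p) p = ε * f₂ p p := by
      have h := congrArg (fun v => QuadraticMap.polar Q v (τ u3 p)) ((hab u3 p).symm.trans (t3 p))
      simp only [hform, e33] at h
      exact mul_left_cancel₀ hc h
    have q4 : A3 * f₂ ((b : Matrix _ _ F) *ᵥ z) w = ε * f₂ z w := by
      have h := congrArg (fun v => QuadraticMap.polar Q v (τ u3 w)) ((hab u3 z).symm.trans (t3 z))
      simp only [hform, e33] at h
      exact mul_left_cancel₀ hc h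
    have s0 : f₂ ((b : Matrix _ _ F) *ᵥ p) p ≠ 0 := by
      intro h
      rw [h, mul_zero] at q3
      exact mul_ne_zero hε hpp q3.symm
    have s1 : f₂ ((b : Matrix _ _ F) *ᵥ z) w ≠ 0 := by
      intro h
      rw [h, mul_zero] at q4
      exact mul_ne_zero hε hzw q4.symm
    have r1 : A1 = - A3 := by
      apply mul_right_cancel₀ s0
      linear_combination q1 + q3
    have r2 : A1 = A3 := by
      apply mul_right_cancel₀ s1
      linear_combination q2 - q4
    have r3 : A3 = 0 := by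
      have : 2 * A3 = 0 := by linear_combination r1 - r2
      rcases mul_eq_zero.1 this with h | h
      · exact absurd h h2
      · exact h
    rw [r3, zero_mul] at q3
    exact mul_ne_zero hε hpp q3.symm
  · refine lt_of_le_of_ne inf_le_right fun heq => ?_
    obtain ⟨a, ha⟩ : ∃ a, a = τ u1 p + τ u2 p := ⟨_, rfl⟩
    obtain ⟨x, hx⟩ : ∃ x, x = τ u1 (p + z) := ⟨_, rfl⟩
    have hQa2 : 2 * Q a = 2 * (c * (ε * f₂ p p)) := by
      rw [← polar_self hQ, ha, hb.add_left, hb.add_right, hb.add_right, hform, hform, hform, hform,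
        e11, e12, e21, e22]
      ring
    have hQa : Q a = c * (ε * f₂ p p) := mul_left_cancel₀ h2 hQa2
    have hQa0 : Q a ≠ 0 := by rw [hQa]; exact hπ
    obtain ⟨y, hya, hyx, hQy⟩ := exists_perp_two hQ hn a x (Q a)
    have hQy0 : Q y ≠ 0 := by rw [hQy]; exact hQa0
    have hs := rr_mem hQ h2 a y hQa0 hQy0 hQy.symm
    rw [← heq] at hs
    have hxX : x ∈ X := ⟨_, Or.inl hx⟩
    have hsx := (hs.1 x).2 hxX
    have hax : QuadraticMap.polar Q a x = c * (ε * f₂ p p) := by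
      rw [ha, hx, hb.add_left, hform, hform, e11, e21, hf₂.bilinear.add_right, hpz]
      ring
    rw [mul_mulVec, rf_fix hQ y hQy0 hyx, rf_mulVec, hax, hQa, inv_mul_cancel₀ hπ, one_smul] at hsx
    have hval : x - a = τ u1 z - τ u2 p := by
      rw [hx, ha, hτ, tau_add_right]
      abel
    rw [hval] at hsx
    have subl : ∀ x y v, QuadraticMap.polar Q (x - y) v
        = QuadraticMap.polar Q x v - QuadraticMap.polar Q y v := by
      intro x y v
      have := hb.add_left (x - y) y v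
      rw [sub_add_cancel] at this
      rw [this]; ring
    have hp2 : QuadraticMap.polar Q (τ u1 z - τ u2 p) (τ u2 p) = - (c * (ε * f₂ p p)) := by
      rw [subl, hform, hform, e12, e22]
      ring
    have hp1 : QuadraticMap.polar Q (τ u1 z - τ u2 p) (τ u1 w) = c * (ε * f₂ z w) := by
      rw [subl, hform, hform, e11, e21]
      ring
    obtain ⟨y', h | h | h⟩ := hsx
    · rw [h, hform, e12] at hp2
      apply hπ
      linear_combination hp2
    · rw [h, hform, e21] at hp1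
      apply mul_ne_zero hc (mul_ne_zero hε hzw)
      linear_combination -hp1
    · rw [h, hform, e32] at hp2
      apply hπ
      linear_combination hp2

end Cfsg.Agent.Lib.Helper95OO3
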