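import Cfsg.Agent.Lib.Helper97OProper

set_option autoImplicit false
set_option linter.unusedSectionVars false

/-! PROJECT 5 = ASCH-O, piece `pdec`. -/

namespace Cfsg.Agent.Lib.Helper95OPdec

open Cfsg Cfsg.Geo Matrix Cfsg.Agent.Lib.Helper97GBase Cfsg.Agent.Lib.Helper97GForms
  Cfsg.Agent.Lib.Helper95Quad Cfsg.Agent.Lib.Helper95Form Cfsg.Agent.Lib.Helper95Basic
  Cfsg.Agent.Lib.Helper97OBase Cfsg.Agent.Lib.Helper97OProper
open scoped MatrixGroups

variable {ι : Type} [Fintype ι] [DecidableEq ι] {F : Type*} [Field F]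
variable {Q : (ι → F) → F}

/-- a non-zero vector of a subspace of dimension at least two orthogonal to a given vector -/
lemma exists_perp_in (hQ : IsNondegenerateQuadraticForm Q) (W : Submodule F (ι → F))
    (hW : 1 < Module.finrank F W) (u : ι → F) :
    ∃ x ∈ W, x ≠ 0 ∧ QuadraticMap.polar Q u x = 0 := by
  let φ : W →ₗ[F] F := (bil hQ u).domRestrict W
  have hker : LinearMap.ker φ ≠ ⊥ := LinearMap.ker_ne_bot_of_finrank_lt (by
    rw [Module.finrank_self]; exact hW)
  obtain ⟨x, hx, hx0⟩ := Submodule.exists_mem_ne_zero_of_ne_bot hker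
  refine ⟨x.1, x.2, fun h => hx0 (Subtype.ext h), ?_⟩
  exact hx

/-- [pdec] `Ω` does not stabilise a non-degenerate decomposition with blocks of dimension at least 2. -/
theorem not_le_decomp_big [Finite F] (hQ : IsNondegenerateQuadraticForm Q) (h2 : (2 : F) ≠ 0)
    (hn : 7 ≤ Fintype.card ι) {t k : ℕ} (hk : 1 < k) (D : Fin t → Submodule F (ι → F))
    (hD : IsNondegenerateMDecomposition (QuadraticMap.polar Q) k D) :
    ¬ omegaGL Q ≤ decompositionStabilizer D := by
  intro hle
  have hb := hQ.polar_bilinear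
  have hq := qf hQ
  have ht := hD.decomp.two_le
  let i0 : Fin t := ⟨0, by omega⟩
  let i1 : Fin t := ⟨1, by omega⟩
  have h01 : i0 ≠ i1 := by
    intro h
    have := congrArg Fin.val h
    simp [i0, i1] at this
  have hfr : ∀ i, Module.finrank F (D i) = k := hD.decomp.finrank_eq
  have hne : ∀ i, D i ≠ ⊥ := by
    intro i h
    have := hfr i
    rw [h, finrank_bot] at this
    omega
  have hsymm : ∀ x y, QuadraticMap.polar Q x y = QuadraticMap.polar Q y x :=
    fun x y => QuadraticMap.polar_comm Q x y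
  have hQadd : ∀ x y, QuadraticMap.polar Q x y = 0 → Q (x + y) = Q x + Q y := by
    intro x y h
    have := hq.add x y
    rw [bil_apply, h] at this
    rw [this, add_zero]
  obtain ⟨u, hu, hQu⟩ := exists_nonsingular hQ (hne i0) (hD.nondegenerate i0)
  obtain ⟨x', hx', hx'0, hux'⟩ := exists_perp_in hQ (D i0) (by rw [hfr]; exact hk) u
  -- the vector in the second block
  obtain ⟨w, hw, hw0, hQw⟩ : ∃ w ∈ D i1, w ≠ 0 ∧ Q u + Q w ≠ 0 := by
    obtain ⟨w₀, hw₀, hQw₀⟩ := exists_nonsingular hQ (hne i1) (hD.nondegenerate i1)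
    obtain ⟨w₁, hw₁, hw₁0, hww⟩ := exists_perp_in hQ (D i1) (by rw [hfr]; exact hk) w₀
    have hw₀0 : w₀ ≠ 0 := by
      rintro rfl
      apply hQw₀
      have := hQ.smul 0 0
      simpa using this
    by_cases c0 : Q u + Q w₀ = 0
    · by_cases c1 : Q u + Q w₁ = 0
      · refine ⟨w₀ + w₁, (D i1).add_mem hw₀ hw₁, ?_, ?_⟩
        · intro h
          have h1 : QuadraticMap.polar Q w₀ (w₀ + w₁) = 0 := by
            rw [h]
            have := hb.smul_right 0 w₀ 0
            simpa using this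
          rw [hb.add_right, hww, polar_self hQ, add_zero] at h1
          exact mul_ne_zero h2 hQw₀ h1
        · rw [hQadd _ _ hww]
          intro h
          apply hQu
          linear_combination c0 + c1 - h
      · exact ⟨w₁, hw₁, hw₁0, c1⟩
    · exact ⟨w₀, hw₀, hw₀0, c0⟩
  have huw : QuadraticMap.polar Q u w = 0 := hD.orthogonal i0 i1 h01 u hu w hw
  obtain ⟨a, ha⟩ : ∃ a, a = u + w := ⟨_, rfl⟩
  obtain ⟨x, hx⟩ : ∃ x, x = u + x' := ⟨_, rfl⟩
  have hxD : x ∈ D i0 := by rw [hx]; exact (D i0).add_mem hu hx'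
  have hQa : Q a ≠ 0 := by rw [ha, hQadd _ _ huw]; exact hQw
  obtain ⟨y, hya, hyx, hQy⟩ := exists_perp_two hQ hn a x (Q a)
  have hQy0 : Q y ≠ 0 := by rw [hQy]; exact hQa
  obtain ⟨π, hπ⟩ := hle (rr_mem hQ h2 a y hQa hQy0 hQy.symm)
  have hz : ((rf hQ a hQa * rf hQ y hQy0 : GL ι F) : Matrix ι ι F) *ᵥ x ∈ D (π i0) := by
    rw [← hπ i0]
    exact ⟨x, hxD, by simp [Matrix.toLin'_apply]⟩
  have hax : QuadraticMap.polar Q a x = 2 * Q u := by
    rw [ha, hx, hb.add_left, hb.add_right, hb.add_right, polar_self hQ, hux',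
      hsymm w u, huw, hsymm w x', hD.orthogonal i0 i1 h01 x' hx' w hw]
    ring
  rw [mul_mulVec, rf_fix hQ y hQy0 hyx, rf_mulVec, hax] at hz
  set lam : F := (Q a)⁻¹ * (2 * Q u) with hlam
  have hlam0 : lam ≠ 0 := mul_ne_zero (inv_ne_zero hQa) (mul_ne_zero h2 hQu)
  have hsubr : ∀ v p r, QuadraticMap.polar Q v (p - r) = QuadraticMap.polar Q v p - QuadraticMap.polar Q v r := by
    intro v p r
    have := hb.add_right v (p - r) r
    rw [sub_add_cancel] at this
    rw [this]; ring
  -- pairing with the second block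
  obtain ⟨v₁, hv₁, hv₁w⟩ := (hD.nondegenerate i1 w hw hw0).1
  have p1 : QuadraticMap.polar Q v₁ (x - lam • a) ≠ 0 := by
    rw [hsubr, hb.smul_right, ha, hb.add_right, hsymm v₁ x, hD.orthogonal i0 i1 h01 x hxD v₁ hv₁,
      hsymm v₁ u, hD.orthogonal i0 i1 h01 u hu v₁ hv₁]
    simpa using mul_ne_zero hlam0 hv₁w
  have j1 : π i0 = i1 := by
    by_contra hne'
    exact p1 (hD.orthogonal _ _ (Ne.symm hne') _ hv₁ _ hz)
  -- pairing with the first block
  have hz0 : x - lam • u ≠ 0 := by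
    intro h
    have h1 : QuadraticMap.polar Q u (x - lam • u) = 0 := by
      rw [h]
      have := hb.smul_right 0 u 0
      simpa using this
    rw [hsubr, hb.smul_right, hx, hb.add_right, hux', polar_self hQ] at h1
    have h3 : lam = 1 := by
      have : (1 - lam) * (2 * Q u) = 0 := by linear_combination h1
      rcases mul_eq_zero.1 this with h4 | h4
      · linear_combination -h4
      · exact absurd h4 (mul_ne_zero h2 hQu)
    rw [h3, one_smul, hx, add_sub_cancel_left] at h
    exact hx'0 h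
  have hz0D : x - lam • u ∈ D i0 := (D i0).sub_mem hxD ((D i0).smul_mem _ hu)
  obtain ⟨v₀, hv₀, hv₀z⟩ := (hD.nondegenerate i0 _ hz0D hz0).1
  have p0 : QuadraticMap.polar Q v₀ (x - lam • a) ≠ 0 := by
    have e : x - lam • a = (x - lam • u) - lam • w := by
      rw [ha, smul_add]; abel
    rw [e, hsubr, hb.smul_right, hD.orthogonal i0 i1 h01 v₀ hv₀ w hw, mul_zero, sub_zero]
    exact hv₀z
  have j0 : π i0 = i0 := by
    by_contra hne'
    exact p0 (hD.orthogonal _ _ (Ne.symm hne') _ hv₀ _ hz)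
  exact h01 (j0.symm.trans j1)

end Cfsg.Agent.Lib.Helper95OPdec
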