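import Cfsg.Agent.Lib.Helper96OrthStd
import Cfsg.Agent.Lib.Helper95Tens
import Cfsg.Agent.Lib.Helper95SpTenstwo
import Cfsg.Agent.Lib.Helper97SpTv

set_option autoImplicit false
set_option linter.unusedSectionVars false

/-! `Sp_2(2) ⊗ Sp_{n₂}(2)` is not maximal in `Ω⁺_{2 n₂}(2)`: it normalises the subgroup of order three of the
first factor. -/

namespace Cfsg.Agent.Lib.Helper95OSp2

open Cfsg Cfsg.Geo Matrix Cfsg.Agent.Lib.Helper95Basic Cfsg.Agent.Lib.Helper95Form
  Cfsg.Agent.Lib.Helper95Tens Cfsg.Agent.Lib.Helper96Orth Cfsg.Agent.Lib.Helper96OrthStd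
open scoped Kronecker MatrixGroups

section grp

variable {G : Type*} [Group G]

/-- the elements that centralise or invert `z` -/
def invStab (z : G) : Subgroup G where
  carrier := {g | MulAut.conj g z = z ∨ MulAut.conj g z = z⁻¹}
  one_mem' := Or.inl (by simp)
  mul_mem' := by
    rintro a b (ha | ha) (hb | hb)
    · left; rw [map_mul, MulAut.mul_apply, hb, ha]
    · right; rw [map_mul, MulAut.mul_apply, hb, map_inv, ha]
    · right; rw [map_mul, MulAut.mul_apply, hb, ha]
    · left; rw [map_mul, MulAut.mul_apply, hb, map_inv, ha, inv_inv]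
  inv_mem' := by
    rintro a (ha | ha)
    · left; rw [map_inv, MulAut.inv_apply, MulEquiv.symm_apply_eq, ha]
    · right; rw [map_inv, MulAut.inv_apply, MulEquiv.symm_apply_eq, map_inv, ha, inv_inv]

lemma mem_invStab_iff (z g : G) : g ∈ invStab z ↔ g * z = z * g ∨ z * g * z = g := by
  show (MulAut.conj g z = z ∨ MulAut.conj g z = z⁻¹) ↔ _
  rw [MulAut.conj_apply, mul_inv_eq_iff_eq_mul, mul_inv_eq_iff_eq_mul]
  refine or_congr Iff.rfl ?_
  constructor
  · intro h
    rw [mul_assoc, h, mul_inv_cancel_left]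
  · intro h
    rw [eq_inv_mul_iff_mul_eq, ← mul_assoc, h]

end grp

section kron

variable {ι : Type} [Fintype ι] [DecidableEq ι] {F : Type*} [Field F] {n₁ n₂ : ℕ}

/-- the Kronecker product of two invertible matrices -/
def kr (a : GL (Fin n₁) F) (b : GL (Fin n₂) F) : GL (Fin n₁ × Fin n₂) F :=
  ⟨(a : Matrix (Fin n₁) (Fin n₁) F) ⊗ₖ (b : Matrix (Fin n₂) (Fin n₂) F),
    ((a⁻¹ : GL (Fin n₁) F) : Matrix (Fin n₁) (Fin n₁) F) ⊗ₖ
      ((b⁻¹ : GL (Fin n₂) F) : Matrix (Fin n₂) (Fin n₂) F),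
    by rw [← Matrix.mul_kronecker_mul, ← Units.val_mul, ← Units.val_mul, mul_inv_cancel,
      mul_inv_cancel, Units.val_one, Units.val_one, Matrix.one_kronecker_one],
    by rw [← Matrix.mul_kronecker_mul, ← Units.val_mul, ← Units.val_mul, inv_mul_cancel,
      inv_mul_cancel, Units.val_one, Units.val_one, Matrix.one_kronecker_one]⟩

/-- the element `a ⊗ b` of the tensor product subgroup -/
def tel (e : ι ≃ Fin n₁ × Fin n₂) (P : GL ι F) (a : GL (Fin n₁) F) (b : GL (Fin n₂) F) : GL ι F :=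
  MulAut.conj P (glReindex e.symm (kr a b))

lemma tel_act (e : ι ≃ Fin n₁ × Fin n₂) (P : GL ι F) (a : GL (Fin n₁) F) (b : GL (Fin n₂) F)
    (x : Fin n₁ → F) (u : Fin n₂ → F) :
    (tel e P a b : Matrix ι ι F) *ᵥ tau e P x u
      = tau e P ((a : Matrix (Fin n₁) (Fin n₁) F) *ᵥ x) ((b : Matrix (Fin n₂) (Fin n₂) F) *ᵥ u) := by
  have h1 : ((glReindex e.symm (kr a b) : GL ι F) : Matrix ι ι F)
      = ((a : Matrix (Fin n₁) (Fin n₁) F) ⊗ₖ (b : Matrix (Fin n₂) (Fin n₂) F)).submatrix e e := rfl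
  simp only [tel, MulAut.conj_apply, tau, emb]
  rw [mul_mulVec, mul_mulVec, inv_mulVec_mulVec, h1, Matrix.submatrix_mulVec_equiv]
  have h2 : (tp x u ∘ e) ∘ e.symm = tp x u := by
    funext p; simp
  rw [h2, kron_mulVec_tp]

/-- every vector is a sum of two pure tensors -/
lemma exists_two (e : ι ≃ Fin 2 × Fin n₂) (P : GL ι F) (v : ι → F) :
    ∃ p r : Fin n₂ → F, v = tau e P (Pi.single 0 1) p + tau e P (Pi.single 1 1) r := by
  obtain ⟨x, rfl⟩ := Helper95SpTenstwo.exists_coords e P v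
  refine ⟨fun j => x (0, j), fun j => x (1, j), ?_⟩
  rw [tau, tau, ← emb_add]
  show emb e P x = _
  congr 1
  funext ⟨i, j⟩
  fin_cases i <;> simp [tp]

lemma gl_ext_two (e : ι ≃ Fin 2 × Fin n₂) (P : GL ι F) {g h : GL ι F}
    (h0 : ∀ y, (g : Matrix ι ι F) *ᵥ tau e P (Pi.single 0 1) y
      = (h : Matrix ι ι F) *ᵥ tau e P (Pi.single 0 1) y)
    (h1 : ∀ y, (g : Matrix ι ι F) *ᵥ tau e P (Pi.single 1 1) y
      = (h : Matrix ι ι F) *ᵥ tau e P (Pi.single 1 1) y) : g = h := by
  apply gl_ext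
  intro v
  obtain ⟨p, r, rfl⟩ := exists_two e P v
  rw [Matrix.mulVec_add, Matrix.mulVec_add, h0, h1]

end kron

section two

variable {F : Type*} [Field F] [Fintype F]

lemma zero_or_one (hq : Fintype.card F = 2) (x : F) : x = 0 ∨ x = 1 := by
  have h := FiniteField.pow_card x
  rw [hq] at h
  have h1 : x * (x - 1) = 0 := by linear_combination h
  rcases mul_eq_zero.1 h1 with h | h
  · exact Or.inl h
  · exact Or.inr (sub_eq_zero.1 h)

lemma two_eq_zero (hq : Fintype.card F = 2) : (2 : F) = 0 := by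
  rcases zero_or_one hq (2 : F) with h | h
  · exact h
  · exfalso
    have : (1 : F) = 0 := by linear_combination h
    exact one_ne_zero this

/-- the element of order three -/
def om (F : Type*) [Field F] : GL (Fin 2) F :=
  Matrix.GeneralLinearGroup.mkOfDetNeZero !![0, 1; 1, 1] (by simp [Matrix.det_fin_two])

lemma om_coe : ((om F : GL (Fin 2) F) : Matrix (Fin 2) (Fin 2) F) = !![0, 1; 1, 1] := rfl

lemma s3 (hq : Fintype.card F = 2) (a : GL (Fin 2) F) :
    a * om F = om F * a ∨ om F * a * om F = a := by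
  have h2 := two_eq_zero hq
  have h11 : (1 : F) + 1 = 0 := by linear_combination h2
  have hdet : (a : Matrix (Fin 2) (Fin 2) F).det ≠ 0 :=
    ((Matrix.isUnit_iff_isUnit_det _).1 a.isUnit).ne_zero
  obtain ⟨p, q, r, s, hA⟩ : ∃ p q r s : F, (a : Matrix (Fin 2) (Fin 2) F) = !![p, q; r, s] :=
    ⟨_, _, _, _, Matrix.eta_fin_two _⟩
  rw [hA, Matrix.det_fin_two_of] at hdet
  have key : (a : Matrix (Fin 2) (Fin 2) F) * !![0, 1; 1, 1] = !![0, 1; 1, 1] * (a : Matrix (Fin 2) (Fin 2) F)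
      ∨ !![0, 1; 1, 1] * (a : Matrix (Fin 2) (Fin 2) F) * !![0, 1; 1, 1] = (a : Matrix (Fin 2) (Fin 2) F) := by
    rw [hA]
    rcases zero_or_one hq p with rfl | rfl <;> rcases zero_or_one hq q with rfl | rfl <;>
    rcases zero_or_one hq r with rfl | rfl <;> rcases zero_or_one hq s with rfl | rfl <;>
    simp [h11] at hdet ⊢
  rcases key with h | h
  · left
    apply Units.ext
    rw [Units.val_mul, Units.val_mul, om_coe]
    exact h
  · right
    apply Units.ext
    rw [Units.val_mul, Units.val_mul, om_coe]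
    exact h

end two

section main

variable {ι : Type} [Fintype ι] [DecidableEq ι] {F : Type*} [Field F] [Fintype F]

theorem sp2_tensor_not_max (hq : Fintype.card F = 2) (Q : (ι → F) → F)
    (hQ : IsNondegenerateQuadraticForm Q) (hn : 5 ≤ Fintype.card ι) (n₂ : ℕ) (hn₂ : 3 ≤ n₂)
    (e : ι ≃ Fin 2 × Fin n₂) (P : GL ι F)
    (f₁ : (Fin 2 → F) → (Fin 2 → F) → F) (f₂ : (Fin n₂ → F) → (Fin n₂ → F) → F)
    (hf₁ : IsSymplecticForm f₁) (hf₂ : IsSymplecticForm f₂)
    (hT : IsTensorFormStructure id (QuadraticMap.polar Q) f₁ f₂ e P)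
    (hpure : ∀ x₁ x₂, Q (tau e P x₁ x₂) = 0) :
    ∃ K : Subgroup (GL ι F),
      tensorProductSubgroup 2 n₂ e P ⊓ omegaGL Q < K ∧ K < omegaGL Q := by
  classical
  have h01 := zero_or_one hq
  have h2 := two_eq_zero hq
  have hb := hQ.polar_bilinear
  have hb₂ := hf₂.bilinear
  obtain ⟨c, hc, hform⟩ := tensorForm_tau id (by simp) (QuadraticMap.polar Q) f₁ f₂
    (isGram_of_bilinear _ hf₁.bilinear) (isGram_of_bilinear _ hf₂.bilinear) e P hT
  have hc1 : c = 1 := (h01 c).resolve_left hc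
  obtain ⟨e0, he0⟩ : ∃ e0 : Fin 2 → F, e0 = Pi.single 0 1 := ⟨_, rfl⟩
  obtain ⟨e1, he1⟩ : ∃ e1 : Fin 2 → F, e1 = Pi.single 1 1 := ⟨_, rfl⟩
  have g00 : f₁ e0 e0 = 0 := hf₁.alternating _
  have g11 : f₁ e1 e1 = 0 := hf₁.alternating _
  have g01 : f₁ e0 e1 = 1 := by
    refine (h01 _).resolve_left fun h => ?_
    have hne : e0 ≠ 0 := by
      intro h
      have := congrFun h 0
      simp [he0] at this
    obtain ⟨y, hy⟩ := (hf₁.nondegenerate e0 hne).2
    apply hy
    have : y = y 0 • e0 + y 1 • e1 := by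
      funext i
      fin_cases i <;> simp [he0, he1]
    rw [this, hf₁.bilinear.add_right, hf₁.bilinear.smul_right, hf₁.bilinear.smul_right, g00, h]
    ring
  have g10 : f₁ e1 e0 = 1 := by
    rw [hf₁.skew, g01]
    linear_combination -h2
  obtain ⟨A, hA⟩ : ∃ A : (Fin n₂ → F) → ι → F, A = tau e P e0 := ⟨_, rfl⟩
  obtain ⟨B, hB⟩ : ∃ B : (Fin n₂ → F) → ι → F, B = tau e P e1 := ⟨_, rfl⟩
  have AA : ∀ y y', QuadraticMap.polar Q (A y) (A y') = 0 := by
    intro y y'
    rw [hA, hform, g00]; ring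
  have BB : ∀ y y', QuadraticMap.polar Q (B y) (B y') = 0 := by
    intro y y'
    rw [hB, hform, g11]; ring
  have AB : ∀ y y', QuadraticMap.polar Q (A y) (B y') = f₂ y y' := by
    intro y y'
    rw [hA, hB, hform, g01, hc1]; ring
  have BA : ∀ y y', QuadraticMap.polar Q (B y) (A y') = f₂ y y' := by
    intro y y'
    rw [hA, hB, hform, g10, hc1]; ring
  have QA : ∀ y, Q (A y) = 0 := fun y => by rw [hA]; exact hpure _ _
  have QB : ∀ y, Q (B y) = 0 := fun y => by rw [hB]; exact hpure _ _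
  have Aadd : ∀ y y', A (y + y') = A y + A y' := fun y y' => by rw [hA, tau_add_right]
  have Badd : ∀ y y', B (y + y') = B y + B y' := fun y y' => by rw [hB, tau_add_right]
  obtain ⟨z, hz⟩ : ∃ z : GL ι F, z = tel e P (om F) 1 := ⟨_, rfl⟩
  have zA : ∀ y, (z : Matrix ι ι F) *ᵥ A y = B y := by
    intro y
    rw [hz, hA, hB, tel_act, Units.val_one, Matrix.one_mulVec]
    congr 1
    funext i
    fin_cases i <;> simp [om_coe, he0, he1, Matrix.mulVec, dotProduct, Fin.sum_univ_two]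
  have zB : ∀ y, (z : Matrix ι ι F) *ᵥ B y = A y + B y := by
    intro y
    rw [hz, hA, hB, tel_act, Units.val_one, Matrix.one_mulVec, ← tau_add_left]
    congr 1
    funext i
    fin_cases i <;> simp [om_coe, he0, he1, Matrix.mulVec, dotProduct, Fin.sum_univ_two]
  have zact : ∀ x u, (z : Matrix ι ι F) *ᵥ tau e P x u
      = tau e P ((om F : Matrix (Fin 2) (Fin 2) F) *ᵥ x) u := by
    intro x u
    rw [hz, tel_act, Units.val_one, Matrix.one_mulVec]
  -- vectors of the second factor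
  let j0 : Fin n₂ := ⟨0, by omega⟩
  obtain ⟨y1, hy1⟩ : ∃ y1 : Fin n₂ → F, y1 ≠ 0 :=
    ⟨Pi.single j0 1, by intro h; have := congrFun h j0; simp at this⟩
  obtain ⟨y0, hy01⟩ := (hf₂.nondegenerate y1 hy1).1
  obtain ⟨y2, hy2, hy21, hy20⟩ := Helper97SpTv.exists_ker_two (ι := Fin n₂) (by simpa using hn₂)
      ((Helper95Form.toBilin f₂ hb₂).flip y1) ((Helper95Form.toBilin f₂ hb₂).flip y0)
  obtain ⟨m, hm⟩ := (hf₂.nondegenerate y2 hy2).2
  have k21 : f₂ y2 y1 = 0 := hy21
  have k20 : f₂ y2 y0 = 0 := hy20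
  have k01 : f₂ y0 y1 = 1 := (h01 _).resolve_left hy01
  have k12 : f₂ y1 y2 = 0 := by rw [hf₂.skew, k21, neg_zero]
  have k02 : f₂ y0 y2 = 0 := by rw [hf₂.skew, k20, neg_zero]
  have k11 : f₂ y1 y1 = 0 := hf₂.alternating _
  have k22 : f₂ y2 y2 = 0 := hf₂.alternating _
  have hQadd : ∀ x y, Q (x + y) = Q x + Q y + QuadraticMap.polar Q x y := by
    intro x y
    rw [QuadraticMap.polar]; ring
  refine ⟨invStab z ⊓ omegaGL Q, ?_, ?_⟩
  · have hle : tensorProductSubgroup 2 n₂ e P ⊓ omegaGL Q ≤ invStab z ⊓ omegaGL Q := by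
      rintro g ⟨hgT, hgS⟩
      refine ⟨(mem_invStab_iff z g).2 ?_, hgS⟩
      obtain ⟨a, b, hab⟩ := tensor_act e P g hgT
      rcases s3 hq a with h | h
      · left
        apply gl_ext_two e P <;> intro y <;>
        rw [mul_mulVec, mul_mulVec, zact, hab, hab, zact, Matrix.mulVec_mulVec, Matrix.mulVec_mulVec,
          ← Units.val_mul, ← Units.val_mul, h]
      · right
        apply gl_ext_two e P <;> intro y <;>
        rw [mul_mulVec, mul_mulVec, zact, hab, zact, hab, Matrix.mulVec_mulVec, Matrix.mulVec_mulVec,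
          ← Units.val_mul, ← Units.val_mul, h]
    refine lt_of_le_of_ne hle fun heq => ?_
    obtain ⟨u, hu⟩ : ∃ u, u = A y1 + B y2 := ⟨_, rfl⟩
    obtain ⟨w, hw⟩ : ∃ w, w = A y2 + B (y1 + y2) := ⟨_, rfl⟩
    have Qu : Q u = 0 := by rw [hu, hQadd, QA, QB, AB, k12]; ring
    have Qw : Q w = 0 := by
      rw [hw, hQadd, QA, QB, AB, hb₂.add_right, k21, k22]; ring
    have Buw : stdB hQ u w = 0 := by
      rw [stdB_apply, hu, hw, hb.add_left, hb.add_right, hb.add_right, AA, AB, BA, BB,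
        hb₂.add_right, k11, k12, k22]
      ring
    have zu : (z : Matrix ι ι F) *ᵥ u = w := by
      rw [hu, hw, Matrix.mulVec_add, zA, zB, Badd]
      abel
    have zw : (z : Matrix ι ι F) *ᵥ w = u + w := by
      rw [hu, hw, Matrix.mulVec_add, zA, zB, Badd, Aadd]
      abel
    obtain ⟨t, ht⟩ : ∃ t : GL ι F, t = mkGL (ei (stdQF hQ) u w) := ⟨_, rfl⟩
    have htΩ : t ∈ omegaGL Q := by rw [ht]; exact mkGL_ei_mem hQ hn u w
    have tact : ∀ x, (t : Matrix ι ι F) *ᵥ x
        = x + QuadraticMap.polar Q x u • w - QuadraticMap.polar Q x w • u := by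
      intro x
      rw [ht, mkGL_mulVec, ei_apply' (stdQF hQ) Qu Buw Qw]
      rfl
    have pAu : ∀ y, QuadraticMap.polar Q (A y) u = f₂ y y2 := by
      intro y; rw [hu, hb.add_right, AA, AB]; ring
    have pAw : ∀ y, QuadraticMap.polar Q (A y) w = f₂ y y1 + f₂ y y2 := by
      intro y; rw [hw, hb.add_right, AA, AB, hb₂.add_right]; ring
    have pBu : ∀ y, QuadraticMap.polar Q (B y) u = f₂ y y1 := by
      intro y; rw [hu, hb.add_right, BA, BB]; ring
    have pBw : ∀ y, QuadraticMap.polar Q (B y) w = f₂ y y2 := by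
      intro y; rw [hw, hb.add_right, BA, BB]; ring
    have htK : t ∈ invStab z ⊓ omegaGL Q := by
      refine ⟨(mem_invStab_iff z t).2 (Or.inl ?_), htΩ⟩
      rw [he0] at hA
      rw [he1] at hB
      apply gl_ext_two e P <;> intro y
      · rw [← hA, mul_mulVec, mul_mulVec, zA, tact, tact, pAu, pAw, pBu, pBw, Matrix.mulVec_sub,
          Matrix.mulVec_add, Matrix.mulVec_smul, Matrix.mulVec_smul, zA, zu, zw]
        linear_combination (norm := module) (f₂ y y1) • (h2 • w) - (f₂ y y2) • (h2 • u)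
      · rw [← hB, mul_mulVec, mul_mulVec, zB, tact, tact, hb.add_left, hb.add_left, pAu, pAw, pBu,
          pBw, Matrix.mulVec_sub,
          Matrix.mulVec_add, Matrix.mulVec_smul, Matrix.mulVec_smul, zB, zu, zw]
        linear_combination (norm := module) (f₂ y y2) • (h2 • w) - (f₂ y y1 + f₂ y y2) • (h2 • u)
    rw [← heq] at htK
    obtain ⟨a, b, hab⟩ := tensor_act e P t htK.1
    have hX : tau e P ((a : Matrix _ _ F) *ᵥ e0) ((b : Matrix _ _ F) *ᵥ y0) = A y0 - u := by
      rw [← hab, ← hA, tact, pAu, pAw, k01, k02]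
      module
    have subl : ∀ x y v, QuadraticMap.polar Q (x - y) v
        = QuadraticMap.polar Q x v - QuadraticMap.polar Q y v := by
      intro x y v
      have := hb.add_left (x - y) y v
      rw [sub_add_cancel] at this
      rw [this]; ring
    have q1 := congrArg (fun v => QuadraticMap.polar Q v (B y1)) hX
    have q2 := congrArg (fun v => QuadraticMap.polar Q v (A y1)) hX
    have q3 := congrArg (fun v => QuadraticMap.polar Q v (A m)) hX
    rw [subl, hu, hb.add_left, AB, AB, BB, k01, k11, hB, hform] at q1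
    rw [subl, hu, hb.add_left, AA, AA, BA, k21, hA, hform] at q2
    rw [subl, hu, hb.add_left, AA, AA, BA, hA, hform] at q3
    have r1 : f₂ ((b : Matrix _ _ F) *ᵥ y0) y1 ≠ 0 := by
      intro h
      rw [h] at q1
      apply one_ne_zero (α := F)
      linear_combination -q1
    have r3 : f₁ ((a : Matrix _ _ F) *ᵥ e0) e0 ≠ 0 := by
      intro h
      rw [h] at q3
      apply hm
      linear_combination q3
    apply mul_ne_zero hc (mul_ne_zero r3 r1)
    linear_combination q2
  · refine lt_of_le_of_ne inf_le_right fun heq => ?_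
    obtain ⟨s, hs⟩ : ∃ s : GL ι F, s = mkGL (ei (stdQF hQ) (A y1) (A y2)) := ⟨_, rfl⟩
    have hsΩ : s ∈ omegaGL Q := by rw [hs]; exact mkGL_ei_mem hQ hn _ _
    have sact : ∀ x, (s : Matrix ι ι F) *ᵥ x
        = x + QuadraticMap.polar Q x (A y1) • A y2 - QuadraticMap.polar Q x (A y2) • A y1 := by
      intro x
      rw [hs, mkGL_mulVec, ei_apply' (stdQF hQ) (QA y1) (AA y1 y2) (QA y2)]
      rfl
    have zl : ∀ v, QuadraticMap.polar Q 0 v = 0 := by
      intro v
      have := hb.smul_left 0 0 v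
      simpa using this
    rw [← heq] at hsΩ
    have sA : (s : Matrix ι ι F) *ᵥ A y0 = A y0 := by
      rw [sact, AA, AA]
      module
    have sB : (s : Matrix ι ι F) *ᵥ B y0 = B y0 + A y2 := by
      rw [sact, BA, BA, k01, k02]
      module
    rcases (mem_invStab_iff z s).1 hsΩ.1 with h | h
    · have h1 := congrArg (fun g : GL ι F => (g : Matrix ι ι F) *ᵥ A y0) h
      simp only [mul_mulVec, zA, sA, sB] at h1
      have h3 : A y2 = 0 := by
        linear_combination (norm := module) h1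
      apply hm
      rw [← AB, h3, zl]
    · have h1 := congrArg (fun g : GL ι F => (g : Matrix ι ι F) *ᵥ A y0) h
      simp only [mul_mulVec, zA, sA, sB, Matrix.mulVec_add, zB] at h1
      have h3 : B y0 + B y2 = 0 := by
        linear_combination (norm := module) h1
      have h4 : QuadraticMap.polar Q (B y0 + B y2) (A y1) = 1 := by
        rw [hb.add_left, BA, BA, k01, k21, add_zero]
      rw [h3, zl] at h4
      exact zero_ne_one h4

end main

end Cfsg.Agent.Lib.Helper95OSp2
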