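import Cfsg.Agent.Lib.Helper95OGramdet

set_option autoImplicit false
set_option linter.unusedSectionVars false

/-! PROJECT 5 = ASCH-O, piece `tensplusodd` (the discriminant computation). -/

namespace Cfsg.Agent.Lib.Helper95OTensDisc

open Cfsg Cfsg.Geo Matrix
open scoped MatrixGroups Kronecker

variable {ι : Type} [Fintype ι] [DecidableEq ι] {F : Type*} [Field F]
variable {Q : (ι → F) → F}

/-- the discriminant of a tensor product of two forms of even dimension is a square -/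
theorem isSquare_disc_of_tens (hQ : IsNondegenerateQuadraticForm Q) {d s : ℕ}
    (e : ι ≃ Fin d × Fin s) (P : GL ι F) (G₁ : Matrix (Fin d) (Fin d) F) (G₂ : Matrix (Fin s) (Fin s) F)
    (hG : ∀ x y : Fin d × Fin s → F, QuadraticMap.polar Q ((P : Matrix ι ι F) *ᵥ (x ∘ e))
      ((P : Matrix ι ι F) *ᵥ (y ∘ e)) = formOfGram id (G₁ ⊗ₖ G₂) x y)
    (hd : Even d) (hs : Even s) {l : ℕ} (hsq : IsSquare ((-1 : F) ^ l)) :
    IsSquare ((-1 : F) ^ l * (gramMatrix (QuadraticMap.polar Q)).det) := by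
  apply hsq.mul
  have h := Cfsg.Agent.Lib.Helper95OGramdet.gram_det_of_form hQ e P _ hG
  rw [Matrix.det_kronecker, Fintype.card_fin, Fintype.card_fin] at h
  obtain ⟨d', rfl⟩ := hd
  obtain ⟨s', rfl⟩ := hs
  have hP : (P : Matrix ι ι F).det ≠ 0 := ((Matrix.isUnit_iff_isUnit_det _).1 P.isUnit).ne_zero
  refine ⟨G₁.det ^ s' * G₂.det ^ d' / (P : Matrix ι ι F).det, ?_⟩
  field_simp
  rw [h]
  ring

end Cfsg.Agent.Lib.Helper95OTensDisc
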