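import Cfsg.Agent.Lib.Helper95OrthGeo

/-!
# Overgroups of the unitary group inside `Ω`: complex structures on a quadratic space
-/

set_option autoImplicit false
set_option linter.unusedSectionVars false

namespace Cfsg.Agent.Lib.Helper95OrthCS

open scoped Matrix
open Module
open Cfsg.Agent.Lib.Helper49Orth Cfsg.Agent.Lib.Helper49Hyp Cfsg.Agent.Lib.Helper18Hyp
  Cfsg.Agent.Lib.Helper49Eich Cfsg.Agent.Lib.Helper49Geo Cfsg.Agent.Lib.Helper49EichGen
  Cfsg.Agent.Lib.Helper49Fam Cfsg.Agent.Lib.Helper49Trans Cfsg.Agent.Lib.Helper49CharTwoA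
  Cfsg.Agent.Lib.Helper49Par Cfsg.Agent.Lib.Helper95OrthSub Cfsg.Agent.Lib.Helper95OrthGeo

variable {F : Type*} [Field F]
variable {ι : Type} [Fintype ι] [DecidableEq ι] (Q : QuadraticForm F (ι → F))

local notation "𝐁" => QuadraticMap.polar (DFunLike.coe Q)
local notation:max W "ᗮ" => LinearMap.BilinForm.orthogonal (QuadraticMap.polarBilin Q) W

/-- `δ` generates a quadratic field extension acting on the quadratic space, with the adjoint
inducing the non-trivial automorphism. -/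
structure CS (δ : (ι → F) →ₗ[F] (ι → F)) (τ N : F) : Prop where
  sq : ∀ v, δ (δ v) = τ • δ v - N • v
  adj : ∀ u v, 𝐁 (δ u) v = τ * 𝐁 u v - 𝐁 u (δ v)
  norm : ∀ v, Q (δ v) = N * Q v
  self : ∀ v, 𝐁 v (δ v) = τ * Q v
  noeig : ∀ (c : F) v, δ v = c • v → v = 0

variable {Q}
variable {δ δ₁ δ₂ : (ι → F) →ₗ[F] (ι → F)} {τ N : F}

theorem CS.adj' (h : CS Q δ τ N) (u v : ι → F) : 𝐁 u (δ v) = τ * 𝐁 u v - 𝐁 (δ u) v := by
  rw [h.adj]; ring

theorem CS.conj_mul (h : CS Q δ τ N) (c d : F) (v : ι → F) :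
    (c + d * τ) • (c • v + d • δ v) - d • δ (c • v + d • δ v)
      = (c ^ 2 + c * d * τ + d ^ 2 * N) • v := by
  rw [map_add, map_smul, map_smul, h.sq]
  module

theorem CS.mem_of_comb (h : CS Q δ τ N) {S : Submodule F (ι → F)} (hS : ∀ x ∈ S, δ x ∈ S)
    {c d : F} (hcd : c ≠ 0 ∨ d ≠ 0) {v : ι → F} (hv : c • v + d • δ v ∈ S) : v ∈ S := by
  by_cases hv0 : v = 0
  · rw [hv0]; exact S.zero_mem
  have hn : c ^ 2 + c * d * τ + d ^ 2 * N ≠ 0 := by
    intro h0
    have h1 := h.conj_mul c d v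
    rw [h0, zero_smul, sub_eq_zero] at h1
    by_cases hd : d = 0
    · subst hd
      have hc : c = 0 := by simpa using h0
      rcases hcd with h2 | h2
      · exact h2 hc
      · exact h2 rfl
    · have hy : δ (c • v + d • δ v) = ((c + d * τ) / d) • (c • v + d • δ v) := by
        rw [div_eq_inv_mul, ← smul_smul, h1, smul_smul, inv_mul_cancel₀ hd, one_smul]
      have hy0 := h.noeig _ _ hy
      have hv1 : δ v = (- c / d) • v := by
        have : d • δ v = (-c) • v := by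
          rw [neg_smul]
          exact eq_neg_of_add_eq_zero_right hy0
        rw [div_eq_inv_mul, ← smul_smul, ← this, smul_smul, inv_mul_cancel₀ hd, one_smul]
      exact hv0 (h.noeig _ _ hv1)
  have h2 := S.sub_mem (S.smul_mem (c + d * τ) hv) (S.smul_mem d (hS _ hv))
  rw [h.conj_mul] at h2
  exact (S.smul_mem_iff hn).1 h2

theorem span_inv {T : Set (ι → F)} (hT : ∀ t ∈ T, δ t ∈ Submodule.span F T) :
    ∀ x ∈ Submodule.span F T, δ x ∈ Submodule.span F T := by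
  intro x hx
  induction hx using Submodule.span_induction with
  | mem t ht => exact hT t ht
  | zero => rw [map_zero]; exact Submodule.zero_mem _
  | add a b _ _ ha hb => rw [map_add]; exact Submodule.add_mem _ ha hb
  | smul c a _ ha => rw [map_smul]; exact Submodule.smul_mem _ _ ha

theorem CS.KS_inv (h : CS Q δ τ N) (v : ι → F) :
    ∀ x ∈ Submodule.span F {v, δ v}, δ x ∈ Submodule.span F {v, δ v} := by
  apply span_inv
  intro t ht
  rcases ht with rfl | rfl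
  · exact Submodule.subset_span (by simp)
  · rw [h.sq]
    exact Submodule.sub_mem _ (Submodule.smul_mem _ _ (Submodule.subset_span (by simp)))
      (Submodule.smul_mem _ _ (Submodule.subset_span (by simp)))

theorem CS.singular (h : CS Q δ τ N) {v : ι → F} (hv : Q v = 0) : Q (δ v) = 0 := by
  rw [h.norm, hv, mul_zero]

theorem CS.self_zero (h : CS Q δ τ N) {v : ι → F} (hv : Q v = 0) : 𝐁 v (δ v) = 0 := by
  rw [h.self, hv, mul_zero]

/-- coefficient comparison -/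
theorem CS.pair (h : CS Q δ₁ τ N) {u₁ u₃ : ι → F} (hu₁ : u₁ ≠ 0)
    (h3 : u₃ ∉ Submodule.span F {u₁, δ₁ u₁}) {a₁ b₁ a₃ b₃ a b : F}
    (e₁ : δ₂ u₁ = a₁ • u₁ + b₁ • δ₁ u₁) (e₃ : δ₂ u₃ = a₃ • u₃ + b₃ • δ₁ u₃)
    (e : δ₂ (u₁ + u₃) = a • (u₁ + u₃) + b • δ₁ (u₁ + u₃)) : a₁ = a₃ ∧ b₁ = b₃ := by
  rw [map_add, map_add, e₁, e₃] at e
  have k1 : (a - a₃) • u₃ + (b - b₃) • δ₁ u₃ = (a₁ - a) • u₁ + (b₁ - b) • δ₁ u₁ := by
    have e' := sub_eq_zero.2 e
    rw [← sub_eq_zero]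
    have : (a - a₃) • u₃ + (b - b₃) • δ₁ u₃ - ((a₁ - a) • u₁ + (b₁ - b) • δ₁ u₁)
        = - (a₁ • u₁ + b₁ • δ₁ u₁ + (a₃ • u₃ + b₃ • δ₁ u₃)
          - (a • (u₁ + u₃) + b • (δ₁ u₁ + δ₁ u₃))) := by module
    rw [this, e', neg_zero]
  have k2 : a - a₃ = 0 ∧ b - b₃ = 0 := by
    by_contra hcon
    apply h3
    apply h.mem_of_comb (h.KS_inv u₁) (c := a - a₃) (d := b - b₃)
    · by_contra h4
      push Not at h4
      exact hcon h4
    · rw [k1]
      exact Submodule.add_mem _ (Submodule.smul_mem _ _ (Submodule.subset_span (by simp)))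
        (Submodule.smul_mem _ _ (Submodule.subset_span (by simp)))
  rw [k2.1, k2.2, zero_smul, zero_smul, add_zero] at k1
  have k3 : a₁ - a = 0 ∧ b₁ - b = 0 := by
    by_contra hcon
    apply hu₁
    have := h.mem_of_comb (S := ⊥) (by simp) (c := a₁ - a) (d := b₁ - b) (v := u₁) (by
      by_contra h4
      push Not at h4
      exact hcon h4) (by rw [← k1]; simp)
    simpa using this
  constructor
  · linear_combination k3.1 + k2.1
  · linear_combination k3.2 + k2.2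

section fin

variable [Fintype F]

/-- **Step 1**: there is a singular vector whose two `K`-lines differ. -/
theorem exists_good (hQ : (QuadraticMap.polarBilin Q).Nondegenerate) (hn : 9 ≤ Fintype.card ι)
    (h₁ : CS Q δ₁ τ N) (hne : ¬ ∃ a b : F, ∀ v, δ₂ v = a • v + b • δ₁ v) :
    ∃ u, Q u = 0 ∧ δ₂ u ∉ Submodule.span F {u, δ₁ u} := by
  classical
  by_contra hcon
  push Not at hcon
  have hc : ∀ u, Q u = 0 → ∃ a b : F, δ₂ u = a • u + b • δ₁ u := by
    intro u hu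
    obtain ⟨a, b, hab⟩ := Submodule.mem_span_pair.1 (hcon u hu)
    exact ⟨a, b, hab.symm⟩
  obtain ⟨u₀, hQu₀, -, hu₀⟩ := exists_singular_notMem Q hQ ∅ ∅ (by simp; omega)
  have hu₀0 : u₀ ≠ 0 := by
    rintro rfl
    exact hu₀ (Submodule.zero_mem _)
  obtain ⟨a₀, b₀, e₀⟩ := hc u₀ hQu₀
  apply hne
  refine ⟨a₀, b₀, ?_⟩
  have hsing : ∀ u, Q u = 0 → δ₂ u = a₀ • u + b₀ • δ₁ u := by
    intro u hQu
    by_cases hu0 : u = 0
    · simp [hu0]
    obtain ⟨a, b, e⟩ := hc u hQu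
    obtain ⟨u₃, hQu₃, hperp, hu₃⟩ := exists_singular_notMem Q hQ {u₀, u}
      {u₀, δ₁ u₀, u, δ₁ u} (by
        have h1 := Finset.card_le_two (a := u₀) (b := u)
        have h2 := Finset.card_le_four (a := u₀) (b := δ₁ u₀) (c := u) (d := δ₁ u)
        omega)
    obtain ⟨a₃, b₃, e₃⟩ := hc u₃ hQu₃
    have p1 : 𝐁 u₀ u₃ = 0 := hperp u₀ (by simp)
    have p2 : 𝐁 u u₃ = 0 := hperp u (by simp)
    obtain ⟨a', b', e'⟩ := hc (u₀ + u₃) (by rw [Q_add, hQu₀, hQu₃, p1]; simp)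
    obtain ⟨a'', b'', e''⟩ := hc (u + u₃) (by rw [Q_add, hQu, hQu₃, p2]; simp)
    have q1 := h₁.pair hu₀0 (fun hmem => hu₃ (Submodule.span_mono (by
      intro x hx
      simp only [Set.mem_insert_iff, Set.mem_singleton_iff] at hx
      simp only [Finset.coe_insert, Finset.coe_singleton, Set.mem_insert_iff,
        Set.mem_singleton_iff]
      tauto) hmem)) e₀ e₃ e'
    have q2 := h₁.pair hu0 (fun hmem => hu₃ (Submodule.span_mono (by
      intro x hx
      simp only [Set.mem_insert_iff, Set.mem_singleton_iff] at hx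
      simp only [Finset.coe_insert, Finset.coe_singleton, Set.mem_insert_iff,
        Set.mem_singleton_iff]
      tauto) hmem)) e e₃ e''
    rw [e, q2.1, q2.2, ← q1.1, ← q1.2]
  have hker := perp_le_of_singular Q hQ ∅ (by simp; omega)
    (LinearMap.ker (δ₂ - a₀ • LinearMap.id - b₀ • δ₁)) (by
      intro y hy _
      rw [LinearMap.mem_ker]
      simp only [LinearMap.sub_apply, LinearMap.smul_apply, LinearMap.id_apply]
      rw [hsing y hy]
      abel)
  intro v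
  have := hker v (by simp)
  rw [LinearMap.mem_ker] at this
  simp only [LinearMap.sub_apply, LinearMap.smul_apply, LinearMap.id_apply] at this
  rw [sub_sub, sub_eq_zero] at this
  exact this

variable {M : Subgroup ↥(Cfsg.isometryGroup F ⇑Q)}

/-- A1 -/
theorem CS.a_notMem (h₁ : CS Q δ₁ τ N) {u y : ι → F} (hy : y ∉ Submodule.span F {u, δ₁ u}) :
    δ₁ y ∉ Submodule.span F {y, u, δ₁ u} := by
  intro hmem
  obtain ⟨ε, l, hl, e⟩ := Submodule.mem_span_insert.1 hmem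
  apply hy
  apply h₁.mem_of_comb (h₁.KS_inv u) (c := -ε) (d := 1) (Or.inr one_ne_zero)
  rw [e]
  have : -ε • y + (1 : F) • (ε • y + l) = l := by module
  rw [this]
  exact hl

/-- A2 -/
theorem SG_of_ne (h₁ : CS Q δ₁ τ N) (hS₁ : ∀ e, Q e = 0 → SG Q M e (δ₁ e))
    (hS₂ : ∀ e, Q e = 0 → SG Q M e (δ₂ e)) {u y : ι → F} (hQu : Q u = 0) (hQy : Q y = 0)
    (p0 : 𝐁 (δ₂ u) y = 0) (p1 : 𝐁 u y = 0) (p2 : 𝐁 (δ₁ u) y = 0)
    (pa : 𝐁 (δ₁ (δ₂ u)) y ≠ 0) : SG Q M u y := by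
  refine SG_comm Q (hS₂ u hQu) (hS₁ y hQy) p1 ?_ ?_ ?_
  · rw [QuadraticMap.polar_comm]; exact p0
  · rw [h₁.adj', p1, p2]; simp
  · rw [h₁.adj', p0]
    simpa using pa

/-- A3 -/
theorem SG_of_notMem (hQ : (QuadraticMap.polarBilin Q).Nondegenerate)
    (hn : 13 ≤ Fintype.card ι) (h₁ : CS Q δ₁ τ N) (hS₁ : ∀ e, Q e = 0 → SG Q M e (δ₁ e))
    (hS₂ : ∀ e, Q e = 0 → SG Q M e (δ₂ e)) {u y : ι → F} (hQu : Q u = 0) (hQy : Q y = 0)
    (p0 : 𝐁 (δ₂ u) y = 0) (p1 : 𝐁 u y = 0) (p2 : 𝐁 (δ₁ u) y = 0)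
    (pa : δ₁ (δ₂ u) ∉ Submodule.span F {y, δ₂ u, u, δ₁ u}) : SG Q M u y := by
  classical
  by_cases hay : 𝐁 (δ₁ (δ₂ u)) y = 0
  · obtain ⟨y₁, hQy₁, hperp, hne⟩ := exists_singular_perp_ne Q hQ {y, δ₂ u, u, δ₁ u} (by
      have := Finset.card_le_four (a := y) (b := δ₂ u) (c := u) (d := δ₁ u)
      omega) (w := δ₁ (δ₂ u)) (by simpa using pa)
    have q : 𝐁 y y₁ = 0 := hperp y (by simp)
    have q0 : 𝐁 (δ₂ u) y₁ = 0 := hperp _ (by simp)
    have q1 : 𝐁 u y₁ = 0 := hperp _ (by simp)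
    have q2 : 𝐁 (δ₁ u) y₁ = 0 := hperp _ (by simp)
    have s1 := SG_of_ne h₁ hS₁ hS₂ hQu hQy₁ q0 q1 q2 hne
    have s2 := SG_of_ne h₁ hS₁ hS₂ hQu (y := y + y₁) (by rw [Q_add, hQy, hQy₁, q]; simp)
      (by rw [QuadraticMap.polar_add_right, p0, q0, add_zero])
      (by rw [QuadraticMap.polar_add_right, p1, q1, add_zero])
      (by rw [QuadraticMap.polar_add_right, p2, q2, add_zero])
      (by rw [QuadraticMap.polar_add_right, hay, zero_add]; exact hne)
    have := SG_sub Q s2 s1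
    rwa [add_sub_cancel_right] at this
  · exact SG_of_ne h₁ hS₁ hS₂ hQu hQy p0 p1 p2 hay

/-- A4 -/
theorem SG_of_perp_singular (hQ : (QuadraticMap.polarBilin Q).Nondegenerate)
    (hn : 13 ≤ Fintype.card ι) (h₁ : CS Q δ₁ τ N) (hS₁ : ∀ e, Q e = 0 → SG Q M e (δ₁ e))
    (hS₂ : ∀ e, Q e = 0 → SG Q M e (δ₂ e)) {u y : ι → F} (hQu : Q u = 0)
    (hgood : δ₂ u ∉ Submodule.span F {u, δ₁ u}) (hQy : Q y = 0)
    (p0 : 𝐁 (δ₂ u) y = 0) (p1 : 𝐁 u y = 0) (p2 : 𝐁 (δ₁ u) y = 0) : SG Q M u y := by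
  classical
  have ha := h₁.a_notMem hgood
  obtain ⟨y₂, hQy₂, hperp, hnot⟩ := exists_singular_notMem Q hQ {y, δ₂ u, u, δ₁ u}
    {y, δ₁ (δ₂ u), δ₂ u, u, δ₁ u} (by
      have h1 := Finset.card_le_four (a := y) (b := δ₂ u) (c := u) (d := δ₁ u)
      have h2 := Finset.card_le_five (a := y) (b := δ₁ (δ₂ u)) (c := δ₂ u) (d := u) (e := δ₁ u)
      omega)
  simp only [Finset.coe_insert, Finset.coe_singleton] at hnot
  have q : 𝐁 y y₂ = 0 := hperp y (by simp)
  have q0 : 𝐁 (δ₂ u) y₂ = 0 := hperp _ (by simp)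
  have q1 : 𝐁 u y₂ = 0 := hperp _ (by simp)
  have q2 : 𝐁 (δ₁ u) y₂ = 0 := hperp _ (by simp)
  -- a general principle
  have key : ∀ z c : ι → F, c ∈ Submodule.span F {y, δ₁ (δ₂ u), δ₂ u, u, δ₁ u} → z = y₂ + c →
      δ₁ (δ₂ u) ∉ Submodule.span F {z, δ₂ u, u, δ₁ u} := by
    intro z c hc hz hmem
    obtain ⟨γ, l, hl, e⟩ := Submodule.mem_span_insert.1 hmem
    have hγ : γ ≠ 0 := by
      rintro rfl
      apply ha
      rw [e, zero_smul, zero_add]
      exact hl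
    apply hnot
    have hl' : l ∈ Submodule.span F {y, δ₁ (δ₂ u), δ₂ u, u, δ₁ u} :=
      Submodule.span_mono (by
        intro x hx
        simp only [Set.mem_insert_iff, Set.mem_singleton_iff] at hx ⊢
        tauto) hl
    have ha' : δ₁ (δ₂ u) ∈ Submodule.span F {y, δ₁ (δ₂ u), δ₂ u, u, δ₁ u} :=
      Submodule.subset_span (by simp)
    have : y₂ = γ⁻¹ • (δ₁ (δ₂ u) - l) - c := by
      rw [e, hz, add_sub_cancel_right, smul_smul, inv_mul_cancel₀ hγ, one_smul,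
        add_sub_cancel_right]
    rw [this]
    exact Submodule.sub_mem _ (Submodule.smul_mem _ _ (Submodule.sub_mem _ ha' hl')) hc
  have s1 := SG_of_notMem hQ hn h₁ hS₁ hS₂ hQu hQy₂ q0 q1 q2
    (key y₂ 0 (Submodule.zero_mem _) (by simp))
  have s2 := SG_of_notMem hQ hn h₁ hS₁ hS₂ hQu (y := y₂ + y)
    (by rw [Q_add, hQy, hQy₂, QuadraticMap.polar_comm, q]; simp)
    (by rw [QuadraticMap.polar_add_right, p0, q0, add_zero])
    (by rw [QuadraticMap.polar_add_right, p1, q1, add_zero])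
    (by rw [QuadraticMap.polar_add_right, p2, q2, add_zero])
    (key (y₂ + y) y (Submodule.subset_span (by simp)) rfl)
  have := SG_sub Q s2 s1
  rwa [add_sub_cancel_left] at this

/-- A5 -/
theorem SG_of_perp (hQ : (QuadraticMap.polarBilin Q).Nondegenerate)
    (hn : 13 ≤ Fintype.card ι) (h₁ : CS Q δ₁ τ N) (hS₁ : ∀ e, Q e = 0 → SG Q M e (δ₁ e))
    (hS₂ : ∀ e, Q e = 0 → SG Q M e (δ₂ e)) {u : ι → F} (hQu : Q u = 0)
    (hgood : δ₂ u ∉ Submodule.span F {u, δ₁ u}) {x : ι → F}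
    (p0 : 𝐁 (δ₂ u) x = 0) (p1 : 𝐁 u x = 0) (p2 : 𝐁 (δ₁ u) x = 0) : SG Q M u x := by
  classical
  have h := perp_le_of_singular Q hQ {δ₂ u, u, δ₁ u} (by
    have := Finset.card_le_three (a := δ₂ u) (b := u) (c := δ₁ u)
    omega) (SGsub Q M u hQu ⊤) (by
      intro y hQy hperp
      exact ⟨Submodule.mem_top, SG_of_perp_singular hQ hn h₁ hS₁ hS₂ hQu hgood hQy
        (hperp _ (by simp)) (hperp _ (by simp)) (hperp _ (by simp))⟩) x (by
      intro t ht
      simp only [Finset.mem_insert, Finset.mem_singleton] at ht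
      rcases ht with rfl | rfl | rfl
      · exact p0
      · exact p1
      · exact p2)
  exact h.2

/-- A6 -/
theorem exists_SG_ne (hQ : (QuadraticMap.polarBilin Q).Nondegenerate)
    (hn : 13 ≤ Fintype.card ι) (h₁ : CS Q δ₁ τ N) (hS₁ : ∀ e, Q e = 0 → SG Q M e (δ₁ e))
    {u : ι → F} (hQu : Q u = 0) (hgood : δ₂ u ∉ Submodule.span F {u, δ₁ u})
    (hL : ∀ x, 𝐁 (δ₂ u) x = 0 → 𝐁 u x = 0 → 𝐁 (δ₁ u) x = 0 → SG Q M u x) :
    ∃ u', SG Q M u u' ∧ 𝐁 (δ₁ u) u' = 0 ∧ 𝐁 (δ₂ u) u' ≠ 0 := by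
  classical
  obtain ⟨u₀, hQu₀, hperp₀, hne₀⟩ := exists_singular_perp_ne Q hQ {u, δ₁ u} (by
    have := Finset.card_le_two (a := u) (b := δ₁ u)
    omega) (w := δ₂ u) (by simpa using hgood)
  have r1 : 𝐁 u u₀ = 0 := hperp₀ _ (by simp)
  have r2 : 𝐁 (δ₁ u) u₀ = 0 := hperp₀ _ (by simp)
  obtain ⟨y, hQy, hperp, hnot⟩ := exists_singular_notMem Q hQ {u₀, δ₂ u, u, δ₁ u}
    {u₀, δ₁ (δ₂ u), δ₂ u, u, δ₁ u} (by
      have h1 := Finset.card_le_four (a := u₀) (b := δ₂ u) (c := u) (d := δ₁ u)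
      have h2 := Finset.card_le_five (a := u₀) (b := δ₁ (δ₂ u)) (c := δ₂ u) (d := u) (e := δ₁ u)
      omega)
  simp only [Finset.coe_insert, Finset.coe_singleton] at hnot
  have q : 𝐁 u₀ y = 0 := hperp _ (by simp)
  have q0 : 𝐁 (δ₂ u) y = 0 := hperp _ (by simp)
  have q1 : 𝐁 u y = 0 := hperp _ (by simp)
  have q2 : 𝐁 (δ₁ u) y = 0 := hperp _ (by simp)
  set u' := u₀ + y with hu'
  have hQu' : Q u' = 0 := by rw [hu', Q_add, hQu₀, hQy, q]; simp
  have t1 : 𝐁 u u' = 0 := by rw [hu', QuadraticMap.polar_add_right, r1, q1, add_zero]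
  have t2 : 𝐁 (δ₁ u) u' = 0 := by rw [hu', QuadraticMap.polar_add_right, r2, q2, add_zero]
  have t0 : 𝐁 (δ₂ u) u' ≠ 0 := by rw [hu', QuadraticMap.polar_add_right, q0, add_zero]; exact hne₀
  -- `u'` is outside the `δ₁`-invariant 4-space
  have hR : u' ∉ Submodule.span F {δ₁ (δ₂ u), δ₂ u, u, δ₁ u} := by
    intro hmem
    apply hnot
    have h1 : u' ∈ Submodule.span F {u₀, δ₁ (δ₂ u), δ₂ u, u, δ₁ u} :=
      Submodule.span_mono (Set.subset_insert _ _) hmem
    have h2 : u₀ ∈ Submodule.span F {u₀, δ₁ (δ₂ u), δ₂ u, u, δ₁ u} :=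
      Submodule.subset_span (by simp)
    have := Submodule.sub_mem _ h1 h2
    rwa [hu', add_sub_cancel_left] at this
  have hRinv : ∀ x ∈ Submodule.span F {δ₁ (δ₂ u), δ₂ u, u, δ₁ u},
      δ₁ x ∈ Submodule.span F {δ₁ (δ₂ u), δ₂ u, u, δ₁ u} := by
    apply span_inv
    intro t ht
    simp only [Set.mem_insert_iff, Set.mem_singleton_iff] at ht
    rcases ht with rfl | rfl | rfl | rfl
    · rw [h₁.sq]
      exact Submodule.sub_mem _ (Submodule.smul_mem _ _ (Submodule.subset_span (by simp)))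
        (Submodule.smul_mem _ _ (Submodule.subset_span (by simp)))
    · exact Submodule.subset_span (by simp)
    · exact Submodule.subset_span (by simp)
    · rw [h₁.sq]
      exact Submodule.sub_mem _ (Submodule.smul_mem _ _ (Submodule.subset_span (by simp)))
        (Submodule.smul_mem _ _ (Submodule.subset_span (by simp)))
  have hd : δ₁ u' ∉ Submodule.span F {u', δ₂ u, u, δ₁ u} := by
    intro hmem
    obtain ⟨ε, l, hl, e⟩ := Submodule.mem_span_insert.1 hmem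
    apply hR
    apply h₁.mem_of_comb hRinv (c := -ε) (d := 1) (Or.inr one_ne_zero)
    rw [e]
    have : -ε • u' + (1 : F) • (ε • u' + l) = l := by module
    rw [this]
    exact Submodule.span_mono (Set.subset_insert _ _) hl
  obtain ⟨w, hwT, hw⟩ := exists_perp_ne Q hQ _ hd
  have w0 : 𝐁 u' w = 0 := hwT _ (by simp)
  have w1 : 𝐁 (δ₂ u) w = 0 := hwT _ (by simp)
  have w2 : 𝐁 u w = 0 := hwT _ (by simp)
  have w3 : 𝐁 (δ₁ u) w = 0 := hwT _ (by simp)
  refine ⟨u', SG_comm Q (hL w w1 w2 w3) (hS₁ u' hQu') t1 w0 ?_ ?_, t2, t0⟩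
  · rw [h₁.adj', t1, t2]; simp
  · rw [QuadraticMap.polar_comm]; exact hw

/-- A7: a good singular vector lies in the root set. -/
theorem root_of_good (hQ : (QuadraticMap.polarBilin Q).Nondegenerate)
    (hn : 13 ≤ Fintype.card ι) (h₁ : CS Q δ₁ τ N) (h₂ : CS Q δ₂ τ N)
    (hS₁ : ∀ e, Q e = 0 → SG Q M e (δ₁ e)) (hS₂ : ∀ e, Q e = 0 → SG Q M e (δ₂ e))
    {u : ι → F} (hQu : Q u = 0) (hgood : δ₂ u ∉ Submodule.span F {u, δ₁ u}) :
    u ∈ RootSet Q M := by
  have hu0 : u ≠ 0 := by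
    rintro rfl
    apply hgood
    rw [map_zero δ₂]
    exact Submodule.zero_mem _
  have hgood' : δ₁ u ∉ Submodule.span F {u, δ₂ u} := by
    intro hmem
    obtain ⟨a, b, e⟩ := Submodule.mem_span_pair.1 hmem
    by_cases hb : b = 0
    · rw [hb, zero_smul, add_zero] at e
      exact hu0 (h₁.noeig a u e.symm)
    · apply hgood
      have : δ₂ u = b⁻¹ • (δ₁ u - a • u) := by
        rw [← e, add_sub_cancel_left, smul_smul, inv_mul_cancel₀ hb, one_smul]
      rw [this]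
      exact Submodule.smul_mem _ _ (Submodule.sub_mem _ (Submodule.subset_span (by simp))
        (Submodule.smul_mem _ _ (Submodule.subset_span (by simp))))
  have hL : ∀ x, 𝐁 (δ₂ u) x = 0 → 𝐁 u x = 0 → 𝐁 (δ₁ u) x = 0 → SG Q M u x :=
    fun x p0 p1 p2 => SG_of_perp hQ hn h₁ hS₁ hS₂ hQu hgood p0 p1 p2
  obtain ⟨u', s', a1, a2⟩ := exists_SG_ne hQ hn h₁ hS₁ hQu hgood hL
  obtain ⟨u'', s'', b1, b2⟩ := exists_SG_ne hQ hn h₂ hS₂ hQu hgood'
    (fun x p0 p1 p2 => hL x p2 p1 p0)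
  apply mem_RootSet_of_SG Q hu0 hQu
  intro x hx
  have hdec : x = (x - (𝐁 (δ₂ u) x / 𝐁 (δ₂ u) u') • u' - (𝐁 (δ₁ u) x / 𝐁 (δ₁ u) u'') • u'')
      + (𝐁 (δ₂ u) x / 𝐁 (δ₂ u) u') • u' + (𝐁 (δ₁ u) x / 𝐁 (δ₁ u) u'') • u'' := by abel
  rw [hdec]
  refine SG_add Q (SG_add Q (hL _ ?_ ?_ ?_) (SG_smul Q s' _)) (SG_smul Q s'' _)
  · rw [QuadraticMap.polar_sub_right, QuadraticMap.polar_sub_right, QuadraticMap.polar_smul_right,
      QuadraticMap.polar_smul_right, b1, smul_eq_mul]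
    field_simp
    simp
  · rw [QuadraticMap.polar_sub_right, QuadraticMap.polar_sub_right, QuadraticMap.polar_smul_right,
      QuadraticMap.polar_smul_right, hx, s'.2.1, s''.2.1]
    simp
  · rw [QuadraticMap.polar_sub_right, QuadraticMap.polar_sub_right, QuadraticMap.polar_smul_right,
      QuadraticMap.polar_smul_right, a1, smul_eq_mul, smul_eq_mul]
    field_simp
    simp

/-- propagation of the root set along `K`-non-orthogonal, `B`-orthogonal singular vectors -/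
theorem root_step (hQ : (QuadraticMap.polarBilin Q).Nondegenerate)
    (hn : 13 ≤ Fintype.card ι) (h₁ : CS Q δ₁ τ N) (hS₁ : ∀ e, Q e = 0 → SG Q M e (δ₁ e))
    {u e : ι → F} (hu : u ∈ RootSet Q M) (he0 : e ≠ 0) (hQe : Q e = 0) (hue : 𝐁 u e = 0)
    (hne : 𝐁 u (δ₁ e) ≠ 0) : e ∈ RootSet Q M := by
  classical
  have hQu := hu.2.1
  have hede : 𝐁 e (δ₁ e) = 0 := h₁.self_zero hQe
  have hX := (hS₁ e hQe).2.2 (𝐁 u (δ₁ e))⁻¹
  have hue1 := RootSet_map Q hu hX
  rw [E_apply Q hQe (by rw [QuadraticMap.polar_smul_right, hede, smul_zero]), hue,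
    QuadraticMap.polar_smul_right, smul_eq_mul, inv_mul_cancel₀ hne] at hue1
  simp only [mul_zero, sub_zero, one_smul, zero_smul] at hue1
  have hsing : ∀ w, Q w = 0 → 𝐁 u w = 0 → 𝐁 e w = 0 → SG Q M e w := by
    intro w hQw huw hew
    refine ⟨hQe, hew, fun c => ?_⟩
    have hQcw : Q (c • w) = 0 := by rw [QuadraticMap.map_smul, hQw, smul_zero]
    have h1 : 𝐁 e (c • w) = 0 := by rw [QuadraticMap.polar_smul_right, hew, smul_zero]
    have h2 : 𝐁 u (c • w) = 0 := by rw [QuadraticMap.polar_smul_right, huw, smul_zero]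
    have h3 : 𝐁 (u + e) (c • w) = 0 := by rw [QuadraticMap.polar_add_left, h1, h2, add_zero]
    have h1' : 𝐁 (c • w) e = 0 := by rw [QuadraticMap.polar_comm]; exact h1
    have h2' : 𝐁 (c • w) u = 0 := by rw [QuadraticMap.polar_comm]; exact h2
    have e1 : E Q e (c • w) = E Q (u + e) (c • w) * (E Q u (c • w))⁻¹ := by
      rw [E_swap Q hQe hQcw h1, E_swap Q hue1.2.1 hQcw h3, E_swap Q hQu hQcw h2,
        E_inv Q hQcw (by rw [QuadraticMap.polar_neg_right, h2', neg_zero]),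
        E_mul Q hQcw (by
          rw [QuadraticMap.polar_neg_right, QuadraticMap.polar_add_right, h1', h2']; simp)
          (by rw [QuadraticMap.polar_neg_right, QuadraticMap.polar_neg_right, h2']; simp)]
      congr 1
      abel
    rw [e1]
    exact M.mul_mem (hue1.2.2 _ h3) (M.inv_mem (hu.2.2 _ h2))
  have hperp := perp_le_of_singular Q hQ {u, e} (by
    have := Finset.card_le_two (a := u) (b := e)
    omega) (SGsub Q M e hQe ⊤) (by
      intro y hQy hp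
      exact ⟨Submodule.mem_top, hsing y hQy (hp _ (by simp)) (hp _ (by simp))⟩)
  apply mem_RootSet_of_SG Q he0 hQe
  intro x hx
  have hdec : x = (x - (𝐁 u x / 𝐁 u (δ₁ e)) • δ₁ e) + (𝐁 u x / 𝐁 u (δ₁ e)) • δ₁ e := by abel
  rw [hdec]
  refine SG_add Q (hperp _ ?_).2 (SG_smul Q (hS₁ e hQe) _)
  intro t ht
  simp only [Finset.mem_insert, Finset.mem_singleton] at ht
  rcases ht with rfl | rfl
  · rw [QuadraticMap.polar_sub_right, QuadraticMap.polar_smul_right, smul_eq_mul]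
    field_simp
    simp
  · rw [QuadraticMap.polar_sub_right, QuadraticMap.polar_smul_right, hx, hede]
    simp

/-- **Main theorem**: a subgroup containing the unitary transvections of two different complex
structures contains `Ω`. -/
theorem cs_main (hQ : (QuadraticMap.polarBilin Q).Nondegenerate)
    (hn : 13 ≤ Fintype.card ι) (h₁ : CS Q δ₁ τ N) (h₂ : CS Q δ₂ τ N)
    (hS₁ : ∀ e, Q e = 0 → SG Q M e (δ₁ e)) (hS₂ : ∀ e, Q e = 0 → SG Q M e (δ₂ e))
    (hne : ¬ ∃ a b : F, ∀ v, δ₂ v = a • v + b • δ₁ v) : Cfsg.Omega F ⇑Q ≤ M := by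
  classical
  obtain ⟨u, hQu, hgood⟩ := exists_good hQ (by omega) h₁ hne
  have hu := root_of_good hQ hn h₁ h₂ hS₁ hS₂ hQu hgood
  obtain ⟨f, hQf, huf⟩ := exists_hyp_partner Q hQ hu.1 hQu
  have hf0 : f ≠ 0 := by
    rintro rfl
    simp at huf
  have hfu : 𝐁 f u = 1 := by rw [QuadraticMap.polar_comm]; exact huf
  have n1 : δ₁ u ∉ Submodule.span F (({u, f} : Finset (ι → F)) : Set (ι → F)) := by
    simp only [Finset.coe_insert, Finset.coe_singleton]
    intro hmem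
    obtain ⟨a, b, e⟩ := Submodule.mem_span_pair.1 hmem
    have h1 := h₁.self_zero hQu
    rw [← e, QuadraticMap.polar_add_right, QuadraticMap.polar_smul_right,
      QuadraticMap.polar_smul_right, polar_self_of_singular Q hQu, huf] at h1
    have hb : b = 0 := by simpa using h1
    rw [hb, zero_smul, add_zero] at e
    exact hu.1 (h₁.noeig a u e.symm)
  have n2 : δ₁ f ∉ Submodule.span F (({u, f} : Finset (ι → F)) : Set (ι → F)) := by
    simp only [Finset.coe_insert, Finset.coe_singleton]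
    intro hmem
    obtain ⟨a, b, e⟩ := Submodule.mem_span_pair.1 hmem
    have h1 := h₁.self_zero hQf
    rw [← e, QuadraticMap.polar_add_right, QuadraticMap.polar_smul_right,
      QuadraticMap.polar_smul_right, polar_self_of_singular Q hQf, hfu] at h1
    have ha : a = 0 := by simpa using h1
    rw [ha, zero_smul, zero_add] at e
    exact hf0 (h₁.noeig b f e.symm)
  obtain ⟨e, hQe, hperp, g1, g2⟩ := exists_singular_perp_ne_two Q hQ {u, f} (by
    have := Finset.card_le_two (a := u) (b := f)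
    omega) n1 n2
  have hue : 𝐁 u e = 0 := hperp _ (by simp)
  have hfe : 𝐁 f e = 0 := hperp _ (by simp)
  have he0 : e ≠ 0 := by
    rintro rfl
    simp at g1
  have he := root_step hQ hn h₁ hS₁ hu he0 hQe hue (by
    rw [h₁.adj', hue]
    simpa using g1)
  have hf := root_step hQ hn h₁ hS₁ he hf0 hQf (by rw [QuadraticMap.polar_comm]; exact hfe) (by
    rw [QuadraticMap.polar_comm]; exact g2)
  exact Omega_le_of_pair Q hQ (by omega) hu hf (by rw [huf]; exact one_ne_zero)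

end fin

local notation:70 g:70 " ⬝ " x:71 =>
  Matrix.mulVec ((g : Matrix.GeneralLinearGroup ι F) : Matrix ι ι F) x

theorem CS.polar_norm (h : CS Q δ τ N) (u v : ι → F) : 𝐁 (δ u) (δ v) = N * 𝐁 u v := by
  rw [h.adj, h.sq, QuadraticMap.polar_sub_right, QuadraticMap.polar_smul_right,
    QuadraticMap.polar_smul_right]
  simp only [smul_eq_mul]
  ring

/-- conjugate of an operator by an isometry -/
noncomputable def conjL (g : ↥(Cfsg.isometryGroup F ⇑Q)) (δ : (ι → F) →ₗ[F] (ι → F)) :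
    (ι → F) →ₗ[F] (ι → F) :=
  Matrix.mulVecLin ((g : Matrix.GeneralLinearGroup ι F) : Matrix ι ι F) ∘ₗ δ ∘ₗ
    Matrix.mulVecLin (((g⁻¹ : ↥(Cfsg.isometryGroup F ⇑Q)) : Matrix.GeneralLinearGroup ι F) :
      Matrix ι ι F)

theorem conjL_apply (g : ↥(Cfsg.isometryGroup F ⇑Q)) (δ : (ι → F) →ₗ[F] (ι → F)) (v : ι → F) :
    conjL g δ v = g ⬝ (δ ((g⁻¹ : ↥(Cfsg.isometryGroup F ⇑Q)) ⬝ v)) := rfl

theorem CS.conj (h : CS Q δ τ N) (g : ↥(Cfsg.isometryGroup F ⇑Q)) : CS Q (conjL g δ) τ N where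
  sq v := by
    rw [conjL_apply, conjL_apply, inv_mulVec_mulVec, h.sq, Matrix.mulVec_sub, Matrix.mulVec_smul,
      Matrix.mulVec_smul, mulVec_inv_mulVec]
  adj u v := by
    rw [conjL_apply, conjL_apply]
    have e1 : 𝐁 (g ⬝ (δ ((g⁻¹ : ↥(Cfsg.isometryGroup F ⇑Q)) ⬝ u))) v
        = 𝐁 (δ ((g⁻¹ : ↥(Cfsg.isometryGroup F ⇑Q)) ⬝ u))
          ((g⁻¹ : ↥(Cfsg.isometryGroup F ⇑Q)) ⬝ v) := by
      rw [← polar_iso Q g (δ _) _, mulVec_inv_mulVec]
    have e2 : 𝐁 u (g ⬝ (δ ((g⁻¹ : ↥(Cfsg.isometryGroup F ⇑Q)) ⬝ v)))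
        = 𝐁 ((g⁻¹ : ↥(Cfsg.isometryGroup F ⇑Q)) ⬝ u)
          (δ ((g⁻¹ : ↥(Cfsg.isometryGroup F ⇑Q)) ⬝ v)) := by
      rw [← polar_iso Q g _ (δ _), mulVec_inv_mulVec]
    rw [e1, e2, h.adj, polar_iso]
  norm v := by
    rw [conjL_apply, iso_apply (Q := ⇑Q), h.norm, iso_apply (Q := ⇑Q)]
  self v := by
    rw [conjL_apply]
    have e2 : 𝐁 v (g ⬝ (δ ((g⁻¹ : ↥(Cfsg.isometryGroup F ⇑Q)) ⬝ v)))
        = 𝐁 ((g⁻¹ : ↥(Cfsg.isometryGroup F ⇑Q)) ⬝ v)
          (δ ((g⁻¹ : ↥(Cfsg.isometryGroup F ⇑Q)) ⬝ v)) := by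
      rw [← polar_iso Q g _ (δ _), mulVec_inv_mulVec]
    rw [e2, h.self, iso_apply (Q := ⇑Q)]
  noeig c v hv := by
    rw [conjL_apply] at hv
    have h1 : δ ((g⁻¹ : ↥(Cfsg.isometryGroup F ⇑Q)) ⬝ v)
        = c • ((g⁻¹ : ↥(Cfsg.isometryGroup F ⇑Q)) ⬝ v) := by
      rw [← Matrix.mulVec_smul, ← hv, inv_mulVec_mulVec]
    have h2 := h.noeig c _ h1
    have h3 := mulVec_inv_mulVec Q g v
    rw [h2, Matrix.mulVec_zero] at h3
    exact h3.symm

/-- the unitary transvections commute with `δ` -/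
theorem CS.E_comm (h : CS Q δ τ N) {e : ι → F} (hQe : Q e = 0) (c : F) (x : ι → F) :
    (E Q e (c • δ e)) ⬝ (δ x) = δ ((E Q e (c • δ e)) ⬝ x) := by
  have h1 : 𝐁 e (c • δ e) = 0 := by
    rw [QuadraticMap.polar_smul_right, h.self_zero hQe, smul_zero]
  rw [E_apply Q hQe h1, E_apply Q hQe h1, QuadraticMap.map_smul, h.singular hQe,
    QuadraticMap.polar_smul_right, QuadraticMap.polar_smul_right, h.polar_norm, h.adj x e,
    map_sub, map_add, map_smul, map_smul, map_smul, h.sq]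
  simp only [smul_eq_mul, mul_zero, zero_mul, sub_zero]
  module

section fin2

variable [Fintype F]

/-- some element of `Ω` does not normalise the field generated by `δ` -/
theorem CS.exists_not_norm (h : CS Q δ τ N) (hQ : (QuadraticMap.polarBilin Q).Nondegenerate)
    (hn : 13 ≤ Fintype.card ι) : ∃ g ∈ Cfsg.Omega F ⇑Q,
      ¬ ∃ a b : F, ∀ v, g ⬝ (δ v) = a • (g ⬝ v) + b • δ (g ⬝ v) := by
  classical
  obtain ⟨e, hQe, -, he⟩ := exists_singular_notMem Q hQ ∅ ∅ (by simp; omega)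
  have he0 : e ≠ 0 := by
    rintro rfl
    exact he (Submodule.zero_mem _)
  obtain ⟨w, hQw, hperp, hw⟩ := exists_singular_notMem Q hQ {e} {e, δ e} (by
    have := Finset.card_le_two (a := e) (b := δ e)
    simp only [Finset.card_singleton]
    omega)
  simp only [Finset.coe_insert, Finset.coe_singleton] at hw
  have hew : 𝐁 e w = 0 := hperp _ (by simp)
  refine ⟨E Q e w, E_mem_Omega Q hQ (by omega) hQe hew, ?_⟩
  rintro ⟨a, b, hab⟩
  -- first: a = 0, b = 1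
  obtain ⟨x, -, hx0, hxp⟩ := exists_ne_zero_in Q hQ ⊤ {e, w, δ e, δ w} (by
    have := Finset.card_le_four (a := e) (b := w) (c := δ e) (d := δ w)
    rw [finrank_top, Module.finrank_fintype_fun_eq_card]
    omega)
  have x1 : 𝐁 x e = 0 := by rw [QuadraticMap.polar_comm]; exact hxp _ (by simp)
  have x2 : 𝐁 x w = 0 := by rw [QuadraticMap.polar_comm]; exact hxp _ (by simp)
  have x3 : 𝐁 x (δ e) = 0 := by rw [QuadraticMap.polar_comm]; exact hxp _ (by simp)
  have x4 : 𝐁 x (δ w) = 0 := by rw [QuadraticMap.polar_comm]; exact hxp _ (by simp)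
  have h1 := hab x
  rw [E_apply Q hQe hew, E_apply Q hQe hew, x1, x2, h.adj, h.adj, x1, x2, x3, x4] at h1
  simp only [mul_zero, sub_zero, zero_smul, add_zero] at h1
  have hb : b = 1 := by
    by_contra hb
    have hb' : 1 - b ≠ 0 := sub_ne_zero.2 (Ne.symm hb)
    apply hx0
    apply h.noeig (a / (1 - b)) x
    have : (1 - b) • δ x = a • x := by
      rw [sub_smul, one_smul, sub_eq_iff_eq_add]
      exact h1
    rw [div_eq_inv_mul, ← smul_smul, ← this, smul_smul, inv_mul_cancel₀ hb', one_smul]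
  have ha : a = 0 := by
    rw [hb, one_smul] at h1
    have : a • x = 0 := by
      have h2 := sub_eq_zero.2 h1
      rw [← sub_sub, sub_sub_cancel_left] at h2
      simpa using h2
    rcases smul_eq_zero.1 this with h3 | h3
    · exact h3
    · exact absurd h3 hx0
  subst hb
  subst ha
  -- second: contradiction
  have hw' : w ∉ Submodule.span F {δ w, e, δ e} := by
    intro hmem
    obtain ⟨γ, l, hl, e1⟩ := Submodule.mem_span_insert.1 hmem
    apply hw
    apply h.mem_of_comb (h.KS_inv e) (c := 1) (d := -γ) (Or.inl one_ne_zero)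
    have : (1 : F) • w + -γ • δ w = l := by
      nth_rewrite 1 [e1]
      module
    rw [this]
    exact hl
  obtain ⟨y, hyT, hy⟩ := exists_perp_ne Q hQ _ hw'
  have y1 : 𝐁 y e = 0 := by rw [QuadraticMap.polar_comm]; exact hyT _ (by simp)
  have y3 : 𝐁 y (δ e) = 0 := by rw [QuadraticMap.polar_comm]; exact hyT _ (by simp)
  have y4 : 𝐁 y (δ w) = 0 := by rw [QuadraticMap.polar_comm]; exact hyT _ (by simp)
  have y2 : 𝐁 y w ≠ 0 := by rw [QuadraticMap.polar_comm]; exact hy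
  have h2 := hab y
  rw [E_apply Q hQe hew, E_apply Q hQe hew, y1, h.adj, h.adj, y1, y3, y4] at h2
  simp only [mul_zero, sub_zero, zero_smul, zero_add, one_smul, map_add, map_smul]
    at h2
  have h3 : δ e = τ • e := by
    have h4 : (τ * 𝐁 y w) • e = 𝐁 y w • δ e := add_left_cancel h2
    rw [← inv_smul_smul₀ y2 (δ e), ← h4, smul_smul]
    congr 1
    field_simp
  exact he0 (h.noeig τ e h3)

end fin2

end Cfsg.Agent.Lib.Helper95OrthCS
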