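import Cfsg.Agent.Lib.Helper95OrthSub

/-!
# Existence lemmas for singular vectors in finite quadratic spaces
-/

set_option autoImplicit false
set_option linter.unusedSectionVars false

namespace Cfsg.Agent.Lib.Helper95OrthGeo

open scoped Matrix
open Module
open Cfsg.Agent.Lib.Helper49Orth Cfsg.Agent.Lib.Helper49Hyp Cfsg.Agent.Lib.Helper18Hyp
  Cfsg.Agent.Lib.Helper49Eich Cfsg.Agent.Lib.Helper49Geo Cfsg.Agent.Lib.Helper49EichGen
  Cfsg.Agent.Lib.Helper49Fam Cfsg.Agent.Lib.Helper49Trans Cfsg.Agent.Lib.Helper49CharTwoA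
  Cfsg.Agent.Lib.Helper49Par Cfsg.Agent.Lib.Helper95OrthSub

variable {F : Type*} [Field F]
variable {ι : Type} [Fintype ι] [DecidableEq ι] (Q : QuadraticForm F (ι → F))

local notation "𝐁" => QuadraticMap.polar (DFunLike.coe Q)
local notation:max W "ᗮ" => LinearMap.BilinForm.orthogonal (QuadraticMap.polarBilin Q) W

/-- a vector outside the span of `T` is not orthogonal to `T^⊥` -/
theorem exists_perp_ne (hQ : (QuadraticMap.polarBilin Q).Nondegenerate) (T : Set (ι → F))
    {x : ι → F} (hx : x ∉ Submodule.span F T) : ∃ w, (∀ t ∈ T, 𝐁 t w = 0) ∧ 𝐁 x w ≠ 0 := by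
  by_contra hcon
  push Not at hcon
  apply hx
  rw [← orth_orth Q hQ (Submodule.span F T), mem_orth]
  intro w hw
  rw [QuadraticMap.polar_comm]
  exact hcon w ((mem_orth_span Q).1 hw)

theorem finrank_span_finset_le (T : Finset (ι → F)) :
    finrank F (Submodule.span F (T : Set (ι → F))) ≤ T.card :=
  finrank_span_finset_le_card (R := F) T

/-- a singular vector orthogonal to `T` and outside the span of `T'` -/
theorem exists_singular_notMem [Finite F] (hQ : (QuadraticMap.polarBilin Q).Nondegenerate)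
    (T T' : Finset (ι → F)) (h : T.card + T'.card + 3 ≤ Fintype.card ι) :
    ∃ e, Q e = 0 ∧ (∀ t ∈ T, 𝐁 t e = 0) ∧ e ∉ Submodule.span F (T' : Set (ι → F)) := by
  obtain ⟨R, hR⟩ := Submodule.exists_isCompl (Submodule.span F (T' : Set (ι → F)))
  have h1 := finrank_span_finset_le T
  have h2 := finrank_span_finset_le T'
  have h3 := Submodule.finrank_add_eq_of_isCompl hR
  rw [Module.finrank_fintype_fun_eq_card] at h3
  have h4 := finrank_le_inf_orth Q hQ R (Submodule.span F (T : Set (ι → F)))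
  obtain ⟨e, he, he0, hQe⟩ := exists_singular_sub Q
    (P := R ⊓ (Submodule.span F (T : Set (ι → F)))ᗮ) (by omega)
  refine ⟨e, hQe, fun t ht => (mem_orth_span Q).1 he.2 t ht, fun hmem => he0 ?_⟩
  have := hR.disjoint.le_bot ⟨hmem, he.1⟩
  simpa using this

/-- a singular vector orthogonal to `T` and not orthogonal to `w` -/
theorem exists_singular_perp_ne [Finite F] (hQ : (QuadraticMap.polarBilin Q).Nondegenerate)
    (T : Finset (ι → F)) (h : 2 * T.card + 5 ≤ Fintype.card ι) {w : ι → F}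
    (hw : w ∉ Submodule.span F (T : Set (ι → F))) :
    ∃ y, Q y = 0 ∧ (∀ t ∈ T, 𝐁 t y = 0) ∧ 𝐁 w y ≠ 0 := by
  classical
  obtain ⟨x, hxT, hwx⟩ := exists_perp_ne Q hQ _ hw
  obtain ⟨e, hQe, heT, he⟩ := exists_singular_notMem Q hQ (insert x (insert w T)) T (by
    have h1 := Finset.card_insert_le x (insert w T)
    have h2 := Finset.card_insert_le w T
    omega)
  have hxe : 𝐁 x e = 0 := heT x (by simp)
  have hwe : 𝐁 w e = 0 := heT w (by simp)
  have heT' : ∀ t ∈ T, 𝐁 t e = 0 := fun t ht => heT t (by simp [ht])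
  obtain ⟨f0, hf0T, hef0⟩ := exists_perp_ne Q hQ _ he
  set f := f0 - (𝐁 w f0 / 𝐁 w x) • x with hf
  have hfT : ∀ t ∈ T, 𝐁 t f = 0 := by
    intro t ht
    rw [hf, QuadraticMap.polar_sub_right, QuadraticMap.polar_smul_right, hf0T t ht, hxT t ht]
    simp
  have hwf : 𝐁 w f = 0 := by
    rw [hf, QuadraticMap.polar_sub_right, QuadraticMap.polar_smul_right, smul_eq_mul]
    field_simp
    ring
  have hfe : 𝐁 (x + f) e ≠ 0 := by
    rw [QuadraticMap.polar_add_left, hxe, hf, QuadraticMap.polar_sub_left,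
      QuadraticMap.polar_smul_left, hxe, QuadraticMap.polar_comm ⇑Q f0 e]
    simpa using hef0
  refine ⟨(x + f) + (- Q (x + f) / 𝐁 (x + f) e) • e, ?_, ?_, ?_⟩
  · rw [Q_add_smul', hQe]
    field_simp
    ring
  · intro t ht
    rw [QuadraticMap.polar_add_right, QuadraticMap.polar_add_right, QuadraticMap.polar_smul_right,
      hxT t ht, hfT t ht, heT' t ht]
    simp
  · rw [QuadraticMap.polar_add_right, QuadraticMap.polar_add_right, QuadraticMap.polar_smul_right,
      hwf, hwe]
    simpa using hwx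

/-- a singular vector orthogonal to `T` and not orthogonal to `w₁`, `w₂` -/
theorem exists_singular_perp_ne_two [Finite F] (hQ : (QuadraticMap.polarBilin Q).Nondegenerate)
    (T : Finset (ι → F)) (h : 2 * (T.card + 4) < Fintype.card ι) {w₁ w₂ : ι → F}
    (hw₁ : w₁ ∉ Submodule.span F (T : Set (ι → F)))
    (hw₂ : w₂ ∉ Submodule.span F (T : Set (ι → F))) :
    ∃ y, Q y = 0 ∧ (∀ t ∈ T, 𝐁 t y = 0) ∧ 𝐁 w₁ y ≠ 0 ∧ 𝐁 w₂ y ≠ 0 := by
  classical
  obtain ⟨y₁, hQ1, hT1, h11⟩ := exists_singular_perp_ne Q hQ T (by omega) hw₁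
  obtain ⟨y₂, hQ2, hT2, h22⟩ := exists_singular_perp_ne Q hQ T (by omega) hw₂
  by_cases h21 : 𝐁 w₂ y₁ = 0
  · by_cases h12 : 𝐁 w₁ y₂ = 0
    · by_cases hyy : 𝐁 y₁ y₂ = 0
      · refine ⟨y₁ + y₂, by rw [Q_add, hQ1, hQ2, hyy]; simp, fun t ht => ?_, ?_, ?_⟩
        · rw [QuadraticMap.polar_add_right, hT1 t ht, hT2 t ht, add_zero]
        · rw [QuadraticMap.polar_add_right, h12, add_zero]; exact h11
        · rw [QuadraticMap.polar_add_right, h21, zero_add]; exact h22
      · set S : Finset (ι → F) := insert y₁ (insert y₂ (insert w₁ (insert w₂ T))) with hS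
        have hScard : S.card ≤ T.card + 4 := by
          have h1 := Finset.card_insert_le y₁ (insert y₂ (insert w₁ (insert w₂ T)))
          have h2 := Finset.card_insert_le y₂ (insert w₁ (insert w₂ T))
          have h3 := Finset.card_insert_le w₁ (insert w₂ T)
          have h4 := Finset.card_insert_le w₂ T
          rw [hS]
          omega
        obtain ⟨z, hzS, hQz⟩ := exists_nonsingular_orth Q hQ
          (S := Submodule.span F (S : Set (ι → F))) (by
            have := finrank_span_finset_le S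
            omega)
        have hz := (mem_orth_span Q).1 hzS
        have hz1 : 𝐁 y₁ z = 0 := hz y₁ (by simp [hS])
        have hz2 : 𝐁 y₂ z = 0 := hz y₂ (by simp [hS])
        have hz3 : 𝐁 w₁ z = 0 := hz w₁ (by simp [hS])
        have hz4 : 𝐁 w₂ z = 0 := hz w₂ (by simp [hS])
        have hzT : ∀ t ∈ T, 𝐁 t z = 0 := fun t ht => hz t (by simp [hS, ht])
        have hl : - Q z / 𝐁 y₁ y₂ ≠ 0 := div_ne_zero (neg_ne_zero.2 hQz) hyy
        refine ⟨(y₁ + (- Q z / 𝐁 y₁ y₂) • y₂) + z, ?_, fun t ht => ?_, ?_, ?_⟩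
        · rw [Q_add, Q_add_smul', hQ1, hQ2, QuadraticMap.polar_add_left,
            QuadraticMap.polar_smul_left, hz1, hz2]
          field_simp
          ring
        · rw [QuadraticMap.polar_add_right, QuadraticMap.polar_add_right,
            QuadraticMap.polar_smul_right, hT1 t ht, hT2 t ht, hzT t ht]
          simp
        · rw [QuadraticMap.polar_add_right, QuadraticMap.polar_add_right,
            QuadraticMap.polar_smul_right, h12, hz3]
          simpa using h11
        · rw [QuadraticMap.polar_add_right, QuadraticMap.polar_add_right,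
            QuadraticMap.polar_smul_right, h21, hz4]
          simpa using ⟨⟨hQz, hyy⟩, h22⟩
    · exact ⟨y₂, hQ2, hT2, h12, h22⟩
  · exact ⟨y₁, hQ1, hT1, h11, h21⟩

/-- the singular vectors of `T^⊥` span `T^⊥` -/
theorem perp_le_of_singular [Finite F] (hQ : (QuadraticMap.polarBilin Q).Nondegenerate)
    (T : Finset (ι → F)) (h : 2 * (T.card + 1) + 3 ≤ Fintype.card ι) (S : Submodule F (ι → F))
    (hS : ∀ y, Q y = 0 → (∀ t ∈ T, 𝐁 t y = 0) → y ∈ S) :
    ∀ x, (∀ t ∈ T, 𝐁 t x = 0) → x ∈ S := by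
  classical
  intro x hx
  have hc := Finset.card_insert_le x T
  obtain ⟨e, hQe, heT, he⟩ := exists_singular_notMem Q hQ (insert x T) (insert x T) (by omega)
  obtain ⟨f0, hf0T, hef0⟩ := exists_perp_ne Q hQ _ he
  have hxe : 𝐁 x e = 0 := heT x (by simp)
  have hxf0 : 𝐁 x f0 = 0 := hf0T x (by simp)
  set f := f0 - (Q f0 / 𝐁 e f0) • e with hf
  have hQf : Q f = 0 := by
    rw [hf, Q_sub, QuadraticMap.map_smul, hQe, QuadraticMap.polar_smul_right,
      QuadraticMap.polar_comm ⇑Q f0 e]
    simp only [smul_eq_mul, mul_zero, add_zero]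
    field_simp
    ring
  have hef : 𝐁 e f = 𝐁 e f0 := by
    rw [hf, QuadraticMap.polar_sub_right, QuadraticMap.polar_smul_right,
      polar_self_of_singular Q hQe]
    simp
  have hxf : 𝐁 x f = 0 := by
    rw [hf, QuadraticMap.polar_sub_right, QuadraticMap.polar_smul_right, hxf0, hxe]
    simp
  have hfT : ∀ t ∈ T, 𝐁 t f = 0 := by
    intro t ht
    rw [hf, QuadraticMap.polar_sub_right, QuadraticMap.polar_smul_right,
      hf0T t (by simp [ht]), heT t (by simp [ht])]
    simp
  have heS : e ∈ S := hS e hQe fun t ht => heT t (by simp [ht])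
  have hfS : f ∈ S := hS f hQf hfT
  have hy : x + (e - (Q x / 𝐁 e f0) • f) ∈ S := by
    apply hS
    · rw [Q_add, Q_sub, QuadraticMap.map_smul, hQe, hQf, QuadraticMap.polar_smul_right, hef,
        QuadraticMap.polar_sub_right, QuadraticMap.polar_smul_right, hxe, hxf]
      simp only [smul_eq_mul, mul_zero, add_zero, sub_zero]
      field_simp
      ring
    · intro t ht
      rw [QuadraticMap.polar_add_right, QuadraticMap.polar_sub_right,
        QuadraticMap.polar_smul_right, hx t ht, heT t (by simp [ht]), hfT t ht]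
      simp
  have := S.sub_mem hy (S.sub_mem heS (S.smul_mem (Q x / 𝐁 e f0) hfS))
  rwa [add_sub_cancel_right] at this

/-- long root elements are symmetric in their two parameters -/
theorem E_swap {a b : ι → F} (ha : Q a = 0) (hb : Q b = 0) (hab : 𝐁 a b = 0) :
    E Q a b = E Q b (-a) := by
  have hba : 𝐁 b (-a) = 0 := by
    rw [QuadraticMap.polar_neg_right, QuadraticMap.polar_comm, hab, neg_zero]
  apply ext_mulVec
  intro x
  rw [E_apply Q ha hab, E_apply Q hb hba, hb, QuadraticMap.map_neg, ha,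
    QuadraticMap.polar_neg_right]
  module

end Cfsg.Agent.Lib.Helper95OrthGeo
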