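import Cfsg.Agent.Lib.Helper49Par
import Cfsg.Agent.Lib.Helper49Bridge

/-!
# Root-element calculus in finite orthogonal groups, relative geometry of non-degenerate subspaces
-/

set_option autoImplicit false
set_option linter.unusedSectionVars false

namespace Cfsg.Agent.Lib.Helper95OrthSub

open scoped Matrix
open Module
open Cfsg.Agent.Lib.Helper49Orth Cfsg.Agent.Lib.Helper49Hyp Cfsg.Agent.Lib.Helper18Hyp
  Cfsg.Agent.Lib.Helper49Eich Cfsg.Agent.Lib.Helper49Geo Cfsg.Agent.Lib.Helper49EichGen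
  Cfsg.Agent.Lib.Helper49Fam Cfsg.Agent.Lib.Helper49Trans Cfsg.Agent.Lib.Helper49CharTwoA
  Cfsg.Agent.Lib.Helper49Par

variable {F : Type*} [Field F]
variable {ι : Type} [Fintype ι] [DecidableEq ι] (Q : QuadraticForm F (ι → F))

local notation "𝐁" => QuadraticMap.polar (DFunLike.coe Q)
local notation:max W "ᗮ" => LinearMap.BilinForm.orthogonal (QuadraticMap.polarBilin Q) W
local notation:70 g:70 " ⬝ " x:71 =>
  Matrix.mulVec ((g : Matrix.GeneralLinearGroup ι F) : Matrix ι ι F) x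

/-! ## Commutators of Eichler transformations -/

theorem E_commutator {u u' w w' : ι → F} (hu : Q u = 0) (hu' : Q u' = 0) (huw : 𝐁 u w = 0)
    (hu'w' : 𝐁 u' w' = 0) (huu' : 𝐁 u u' = 0) (hu'w : 𝐁 u' w = 0) (huw' : 𝐁 u w' = 0) :
    E Q u w * E Q u' w' = E Q u (-(𝐁 w w') • u') * (E Q u' w' * E Q u w) := by
  have h1 : 𝐁 u (-(𝐁 w w') • u') = 0 := by rw [QuadraticMap.polar_smul_right, huu', smul_zero]
  have c1 : 𝐁 w u = 0 := by rw [QuadraticMap.polar_comm]; exact huw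
  have c2 : 𝐁 w' u' = 0 := by rw [QuadraticMap.polar_comm]; exact hu'w'
  have c3 : 𝐁 u' u = 0 := by rw [QuadraticMap.polar_comm]; exact huu'
  have c4 : 𝐁 w u' = 0 := by rw [QuadraticMap.polar_comm]; exact hu'w
  have c5 : 𝐁 w' u = 0 := by rw [QuadraticMap.polar_comm]; exact huw'
  have c6 : 𝐁 w' w = 𝐁 w w' := QuadraticMap.polar_comm _ _ _
  have c7 : 𝐁 u u = 0 := polar_self_of_singular Q hu
  have c8 : 𝐁 u' u' = 0 := polar_self_of_singular Q hu'
  apply ext_mulVec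
  intro x
  rw [mul_mulVec, mul_mulVec, mul_mulVec, E_apply Q hu' hu'w', E_apply Q hu huw, E_apply Q hu huw,
    E_apply Q hu' hu'w', E_apply Q hu h1]
  simp only [QuadraticMap.polar_add_left, QuadraticMap.polar_sub_left, QuadraticMap.polar_smul_left,
    QuadraticMap.polar_smul_right, QuadraticMap.map_smul, hu', huu', hu'w, huw',
    c1, c2, c3, c4, c5, c6, c7, c8, smul_eq_mul, mul_zero, add_zero, sub_zero, zero_mul]
  module

/-! ## The sets `Σ_u` -/

/-- `w` lies in `Σ_u`: the whole root group `{E(u, c w)}` lies in `M`. -/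
def SG (M : Subgroup ↥(Cfsg.isometryGroup F ⇑Q)) (u w : ι → F) : Prop :=
  Q u = 0 ∧ 𝐁 u w = 0 ∧ ∀ c : F, E Q u (c • w) ∈ M

variable {M : Subgroup ↥(Cfsg.isometryGroup F ⇑Q)}

theorem SG_add {u w w' : ι → F} (h1 : SG Q M u w) (h2 : SG Q M u w') : SG Q M u (w + w') := by
  obtain ⟨hu, hw, h1⟩ := h1
  obtain ⟨-, hw', h2⟩ := h2
  refine ⟨hu, by rw [QuadraticMap.polar_add_right, hw, hw', add_zero], fun c => ?_⟩
  rw [smul_add, ← E_mul Q hu (by rw [QuadraticMap.polar_smul_right, hw, smul_zero])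
    (by rw [QuadraticMap.polar_smul_right, hw', smul_zero])]
  exact M.mul_mem (h1 c) (h2 c)

theorem SG_smul {u w : ι → F} (h1 : SG Q M u w) (c : F) : SG Q M u (c • w) := by
  obtain ⟨hu, hw, h1⟩ := h1
  refine ⟨hu, by rw [QuadraticMap.polar_smul_right, hw, smul_zero], fun d => ?_⟩
  rw [smul_smul]
  exact h1 _

theorem SG_neg {u w : ι → F} (h1 : SG Q M u w) : SG Q M u (-w) := by
  have := SG_smul Q h1 (-1)
  rwa [neg_one_smul] at this

theorem SG_sub {u w w' : ι → F} (h1 : SG Q M u w) (h2 : SG Q M u w') : SG Q M u (w - w') := by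
  rw [sub_eq_add_neg]
  exact SG_add Q h1 (SG_neg Q h2)

theorem SG_of_smul {u w : ι → F} {c : F} (hc : c ≠ 0) (h1 : SG Q M u (c • w)) : SG Q M u w := by
  have := SG_smul Q h1 c⁻¹
  rwa [smul_smul, inv_mul_cancel₀ hc, one_smul] at this

theorem SG_map {u w : ι → F} (h : SG Q M u w) {g : ↥(Cfsg.isometryGroup F ⇑Q)} (hg : g ∈ M) :
    SG Q M (g ⬝ u) (g ⬝ w) := by
  obtain ⟨hu, hw, h1⟩ := h
  refine ⟨by rw [iso_apply (Q := ⇑Q)]; exact hu, by rw [polar_iso]; exact hw, fun c => ?_⟩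
  rw [← Matrix.mulVec_smul, ← E_conj Q g hu (by rw [QuadraticMap.polar_smul_right, hw, smul_zero])]
  exact M.mul_mem (M.mul_mem hg (h1 c)) (M.inv_mem hg)

theorem SG_comm {u u' w w' : ι → F} (h1 : SG Q M u w) (h2 : SG Q M u' w') (huu' : 𝐁 u u' = 0)
    (hu'w : 𝐁 u' w = 0) (huw' : 𝐁 u w' = 0) (hww' : 𝐁 w w' ≠ 0) : SG Q M u u' := by
  obtain ⟨hu, hw, h1⟩ := h1
  obtain ⟨hu', hw', h2⟩ := h2
  refine ⟨hu, huu', fun c => ?_⟩
  have h3 := E_commutator Q (w := (-c / 𝐁 w w') • w) (w' := w') hu hu'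
    (by rw [QuadraticMap.polar_smul_right, hw, smul_zero]) hw' huu'
    (by rw [QuadraticMap.polar_smul_right, hu'w, smul_zero]) huw'
  have h4 : -(𝐁 ((-c / 𝐁 w w') • w) w') = c := by
    rw [QuadraticMap.polar_smul_left, smul_eq_mul]
    field_simp
  rw [h4] at h3
  have h5 : E Q u (c • u') = E Q u ((-c / 𝐁 w w') • w) * E Q u' w' *
      (E Q u' w' * E Q u ((-c / 𝐁 w w') • w))⁻¹ := by
    rw [h3]; group
  rw [h5]
  have h6 : E Q u' w' ∈ M := by simpa using h2 1
  exact M.mul_mem (M.mul_mem (h1 _) h6) (M.inv_mem (M.mul_mem h6 (h1 _)))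

theorem mem_RootSet_of_SG {u : ι → F} (hu0 : u ≠ 0) (hu : Q u = 0)
    (h : ∀ w, 𝐁 u w = 0 → SG Q M u w) : u ∈ RootSet Q M :=
  ⟨hu0, hu, fun w hw => by simpa using (h w hw).2.2 1⟩

/-! ## Relative geometry of a non-degenerate subspace -/

theorem mem_orth_span {S : Set (ι → F)} {x : ι → F} :
    x ∈ (Submodule.span F S)ᗮ ↔ ∀ s ∈ S, 𝐁 s x = 0 := by
  rw [mem_orth]
  constructor
  · intro h s hs
    exact h s (Submodule.subset_span hs)
  · intro h w hw
    induction hw using Submodule.span_induction with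
    | mem s hs => exact h s hs
    | zero => simp
    | add a b _ _ ha hb => rw [QuadraticMap.polar_add_left, ha, hb, add_zero]
    | smul c a _ ha => rw [QuadraticMap.polar_smul_left, ha, smul_zero]

theorem exists_in_ne {X : Submodule F (ι → F)} (hX : X ⊓ Xᗮ = ⊥) {x : ι → F} (hx : x ∈ X)
    (hx0 : x ≠ 0) : ∃ y ∈ X, 𝐁 x y ≠ 0 := by
  by_contra hcon
  push Not at hcon
  apply hx0
  rw [← Submodule.mem_bot F, ← hX]
  refine ⟨hx, ?_⟩
  rw [SetLike.mem_coe, mem_orth]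
  intro w hw
  rw [QuadraticMap.polar_comm]
  exact hcon w hw

theorem exists_partner_in {X : Submodule F (ι → F)} (hX : X ⊓ Xᗮ = ⊥) {x : ι → F} (hx : x ∈ X)
    (hx0 : x ≠ 0) (hQx : Q x = 0) : ∃ f ∈ X, Q f = 0 ∧ 𝐁 x f = 1 := by
  obtain ⟨y, hy, hxy⟩ := exists_in_ne Q hX hx hx0
  refine ⟨(𝐁 x y)⁻¹ • (y + (- Q y / 𝐁 x y) • x),
    X.smul_mem _ (X.add_mem hy (X.smul_mem _ hx)), ?_, ?_⟩
  · rw [QuadraticMap.map_smul, Q_add_smul', hQx, QuadraticMap.polar_comm ⇑Q y x]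
    field_simp
    ring
  · rw [QuadraticMap.polar_smul_right, QuadraticMap.polar_add_right, QuadraticMap.polar_smul_right,
      polar_self_of_singular Q hQx]
    simp [hxy]

theorem finrank_le_inf_orth (hQ : (QuadraticMap.polarBilin Q).Nondegenerate)
    (X S : Submodule F (ι → F)) :
    finrank F X ≤ finrank F (X ⊓ Sᗮ : Submodule F (ι → F)) + finrank F S := by
  have h1 := Submodule.finrank_sup_add_finrank_inf_eq X Sᗮ
  have h2 := finrank_orth_add Q hQ S
  have h3 := Submodule.finrank_le (X ⊔ Sᗮ)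
  rw [Module.finrank_fintype_fun_eq_card] at h3
  omega

theorem exists_singular_in [Finite F] (hQ : (QuadraticMap.polarBilin Q).Nondegenerate)
    (X : Submodule F (ι → F)) (S : Finset (ι → F)) (h : S.card + 3 ≤ finrank F X) :
    ∃ x ∈ X, x ≠ 0 ∧ Q x = 0 ∧ ∀ s ∈ S, 𝐁 s x = 0 := by
  have h1 := finrank_le_inf_orth Q hQ X (Submodule.span F (S : Set (ι → F)))
  have h2 : finrank F (Submodule.span F (S : Set (ι → F))) ≤ S.card :=
    finrank_span_finset_le_card (R := F) S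
  obtain ⟨x, hx, hx0, hQx⟩ := exists_singular_sub Q
    (P := X ⊓ (Submodule.span F (S : Set (ι → F)))ᗮ) (by omega)
  exact ⟨x, hx.1, hx0, hQx, fun s hs => (mem_orth_span Q).1 hx.2 s hs⟩

theorem exists_ne_zero_in (hQ : (QuadraticMap.polarBilin Q).Nondegenerate)
    (X : Submodule F (ι → F)) (S : Finset (ι → F)) (h : S.card + 1 ≤ finrank F X) :
    ∃ x ∈ X, x ≠ 0 ∧ ∀ s ∈ S, 𝐁 s x = 0 := by
  have h1 := finrank_le_inf_orth Q hQ X (Submodule.span F (S : Set (ι → F)))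
  have h2 : finrank F (Submodule.span F (S : Set (ι → F))) ≤ S.card :=
    finrank_span_finset_le_card (R := F) S
  have h3 : X ⊓ (Submodule.span F (S : Set (ι → F)))ᗮ ≠ ⊥ := by
    intro h0
    rw [h0, finrank_bot] at h1
    omega
  obtain ⟨x, hx, hx0⟩ := Submodule.exists_mem_ne_zero_of_ne_bot h3
  exact ⟨x, hx.1, hx0, fun s hs => (mem_orth_span Q).1 hx.2 s hs⟩

/-- In a non-degenerate subspace of dimension at least 3 every non-zero vector is non-orthogonal
to a singular vector. -/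
theorem exists_singular_ne_in [Finite F]
    {X : Submodule F (ι → F)} (hX : X ⊓ Xᗮ = ⊥) (h3 : 3 ≤ finrank F X) {x : ι → F}
    (hx : ∃ y ∈ X, 𝐁 x y ≠ 0) : ∃ e ∈ X, Q e = 0 ∧ 𝐁 e x ≠ 0 := by
  obtain ⟨e0, he0, he00, hQe0⟩ := exists_singular_sub Q h3
  obtain ⟨f0, hf0, hQf0, hef⟩ := exists_partner_in Q hX he0 he00 hQe0
  by_cases h1 : 𝐁 e0 x = 0
  · by_cases h2 : 𝐁 f0 x = 0
    · obtain ⟨y0, hy0, hxy0⟩ := hx
      set y := y0 - 𝐁 y0 f0 • e0 - 𝐁 y0 e0 • f0 with hy
      have hyX : y ∈ X := X.sub_mem (X.sub_mem hy0 (X.smul_mem _ he0)) (X.smul_mem _ hf0)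
      have hfe : 𝐁 f0 e0 = 1 := by rw [QuadraticMap.polar_comm]; exact hef
      have hye : 𝐁 y e0 = 0 := by
        rw [hy, QuadraticMap.polar_sub_left, QuadraticMap.polar_sub_left,
          QuadraticMap.polar_smul_left, QuadraticMap.polar_smul_left,
          polar_self_of_singular Q hQe0, hfe]
        simp
      have hyf : 𝐁 y f0 = 0 := by
        rw [hy, QuadraticMap.polar_sub_left, QuadraticMap.polar_sub_left,
          QuadraticMap.polar_smul_left, QuadraticMap.polar_smul_left,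
          polar_self_of_singular Q hQf0, hef]
        simp
      have hyx : 𝐁 y x ≠ 0 := by
        rw [hy, QuadraticMap.polar_sub_left, QuadraticMap.polar_sub_left,
          QuadraticMap.polar_smul_left, QuadraticMap.polar_smul_left, h1, h2,
          QuadraticMap.polar_comm]
        simpa using hxy0
      refine ⟨y + e0 - Q y • f0, X.sub_mem (X.add_mem hyX he0) (X.smul_mem _ hf0), ?_, ?_⟩
      · rw [Q_sub, Q_add, QuadraticMap.map_smul, hQe0, hQf0, hye, QuadraticMap.polar_smul_right,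
          QuadraticMap.polar_add_left, hyf, hef]
        simp
      · rw [QuadraticMap.polar_sub_left, QuadraticMap.polar_add_left, QuadraticMap.polar_smul_left,
          h1, h2]
        simpa using hyx
    · exact ⟨f0, hf0, hQf0, h2⟩
  · exact ⟨e0, he0, hQe0, h1⟩

/-- Every vector of a non-degenerate subspace of dimension at least 3 is a sum of two singular
vectors of the subspace. -/
theorem exists_singular_add_in [Finite F]
    {X : Submodule F (ι → F)} (hX : X ⊓ Xᗮ = ⊥) (h3 : 3 ≤ finrank F X) {x : ι → F}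
    (hx : x ∈ X) : ∃ a ∈ X, ∃ b ∈ X, Q a = 0 ∧ Q b = 0 ∧ x = a + b := by
  by_cases hx0 : x = 0
  · exact ⟨0, X.zero_mem, 0, X.zero_mem, by simp, by simp, by simp [hx0]⟩
  obtain ⟨e, he, hQe, hex⟩ := exists_singular_ne_in Q hX h3 (exists_in_ne Q hX hx hx0)
  refine ⟨x - (Q x / 𝐁 e x) • e, X.sub_mem hx (X.smul_mem _ he), (Q x / 𝐁 e x) • e,
    X.smul_mem _ he, ?_, by rw [QuadraticMap.map_smul, hQe, smul_zero], by abel⟩
  rw [Q_sub, QuadraticMap.map_smul, hQe, QuadraticMap.polar_smul_right,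
    QuadraticMap.polar_comm ⇑Q x e]
  simp only [smul_eq_mul, mul_zero, add_zero]
  field_simp
  ring

theorem sup_orth_eq_top (hQ : (QuadraticMap.polarBilin Q).Nondegenerate)
    {X : Submodule F (ι → F)} (hX : X ⊓ Xᗮ = ⊥) : X ⊔ Xᗮ = ⊤ := by
  apply Submodule.eq_top_of_finrank_eq
  have h1 := Submodule.finrank_sup_add_finrank_inf_eq X Xᗮ
  have h2 := finrank_orth_add Q hQ X
  rw [hX, finrank_bot] at h1
  rw [Module.finrank_fintype_fun_eq_card]
  omega

theorem exists_decomp (hQ : (QuadraticMap.polarBilin Q).Nondegenerate)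
    {X : Submodule F (ι → F)} (hX : X ⊓ Xᗮ = ⊥) (v : ι → F) :
    ∃ x ∈ X, ∃ y ∈ Xᗮ, v = x + y := by
  have h : v ∈ X ⊔ Xᗮ := by rw [sup_orth_eq_top Q hQ hX]; exact Submodule.mem_top
  obtain ⟨x, hx, y, hy, rfl⟩ := Submodule.mem_sup.1 h
  exact ⟨x, hx, y, hy, rfl⟩

theorem orth_orth (hQ : (QuadraticMap.polarBilin Q).Nondegenerate) (X : Submodule F (ι → F)) :
    Xᗮᗮ = X := LinearMap.BilinForm.orthogonal_orthogonal hQ (polarBilin_isRefl Q) X

theorem orth_nondeg (hQ : (QuadraticMap.polarBilin Q).Nondegenerate)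
    {X : Submodule F (ι → F)} (hX : X ⊓ Xᗮ = ⊥) : Xᗮ ⊓ Xᗮᗮ = ⊥ := by
  rw [orth_orth Q hQ, inf_comm]; exact hX

theorem polar_of_mem_orth {X : Submodule F (ι → F)} {x y : ι → F} (hx : x ∈ X) (hy : y ∈ Xᗮ) :
    𝐁 x y = 0 := mem_orth.1 hy x hx

theorem polar_of_mem_orth' {X : Submodule F (ι → F)} {x y : ι → F} (hx : x ∈ X) (hy : y ∈ Xᗮ) :
    𝐁 y x = 0 := by rw [QuadraticMap.polar_comm]; exact mem_orth.1 hy x hx

/-- values of `Q` on `X ∩ u^⊥` -/
theorem exists_value_in [Finite F] (hQ : (QuadraticMap.polarBilin Q).Nondegenerate)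
    {X : Submodule F (ι → F)} (hX : X ⊓ Xᗮ = ⊥) (h5 : 5 ≤ finrank F X) {u : ι → F} (hu : u ∈ X)
    (hu0 : u ≠ 0) (hQu : Q u = 0) (a : F) : ∃ d ∈ X, 𝐁 u d = 0 ∧ Q d = a := by
  classical
  obtain ⟨f, hf, hQf, huf⟩ := exists_partner_in Q hX hu hu0 hQu
  obtain ⟨e1, he1, he10, hQe1, hperp⟩ := exists_singular_in Q hQ X {u, f}
    (by have := Finset.card_le_two (a := u) (b := f); omega)
  have hue1 : 𝐁 u e1 = 0 := hperp u (by simp)
  have hfe1 : 𝐁 f e1 = 0 := hperp f (by simp)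
  obtain ⟨y0, hy0, hey0⟩ := exists_in_ne Q hX he1 he10
  set y := y0 - 𝐁 y0 u • f with hy
  have hyX : y ∈ X := X.sub_mem hy0 (X.smul_mem _ hf)
  have huy : 𝐁 u y = 0 := by
    rw [hy, QuadraticMap.polar_sub_right, QuadraticMap.polar_smul_right, huf,
      QuadraticMap.polar_comm ⇑Q u y0]
    simp
  have hye : 𝐁 y e1 ≠ 0 := by
    rw [hy, QuadraticMap.polar_sub_left, QuadraticMap.polar_smul_left, hfe1,
      QuadraticMap.polar_comm ⇑Q y0 e1]
    simpa using hey0
  refine ⟨y + ((a - Q y) / 𝐁 y e1) • e1, X.add_mem hyX (X.smul_mem _ he1), ?_, ?_⟩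
  · rw [QuadraticMap.polar_add_right, QuadraticMap.polar_smul_right, huy, hue1]
    simp
  · rw [Q_add_smul', hQe1]
    field_simp
    ring

/-! ## Stabilisers -/

theorem stab_le_stab_orth (X : Submodule F (ι → F)) : stab Q X ≤ stab Q Xᗮ := by
  intro g hg
  apply mem_stab_of_le
  intro y hy
  rw [mem_orth]
  intro x hx
  have h1 : g⁻¹ ∈ stab Q X := (stab Q X).inv_mem hg
  have h2 : (g⁻¹ : ↥(Cfsg.isometryGroup F ⇑Q)) ⬝ x ∈ X := by
    rw [mem_stab] at h1
    rw [← h1]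
    exact (mem_img Q).2 ⟨x, hx, rfl⟩
  have h3 := polar_iso Q g ((g⁻¹ : ↥(Cfsg.isometryGroup F ⇑Q)) ⬝ x) y
  rw [mulVec_inv_mulVec] at h3
  rw [h3]
  exact mem_orth.1 hy _ h2

theorem stab_orth (hQ : (QuadraticMap.polarBilin Q).Nondegenerate) (X : Submodule F (ι → F)) :
    stab Q Xᗮ = stab Q X := by
  apply le_antisymm
  · have := stab_le_stab_orth Q Xᗮ
    rwa [orth_orth Q hQ] at this
  · exact stab_le_stab_orth Q X

theorem map_mem_of_mem_stab {X : Submodule F (ι → F)} {g : ↥(Cfsg.isometryGroup F ⇑Q)}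
    (hg : g ∈ stab Q X) {x : ι → F} (hx : x ∈ X) : g ⬝ x ∈ X := by
  rw [mem_stab] at hg
  rw [← hg]
  exact (mem_img Q).2 ⟨x, hx, rfl⟩

/-- All root elements with both parameters in `X` lie in `M`. -/
def Full (M : Subgroup ↥(Cfsg.isometryGroup F ⇑Q)) (X : Submodule F (ι → F)) : Prop :=
  ∀ u ∈ X, ∀ w ∈ X, Q u = 0 → 𝐁 u w = 0 → SG Q M u w

theorem Full_img {X : Submodule F (ι → F)} (h : Full Q M X) {g : ↥(Cfsg.isometryGroup F ⇑Q)}
    (hg : g ∈ M) : Full Q M (img Q g X) := by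
  intro u hu w hw hQu huw
  obtain ⟨u0, hu0, rfl⟩ := (mem_img Q).1 hu
  obtain ⟨w0, hw0, rfl⟩ := (mem_img Q).1 hw
  rw [iso_apply (Q := ⇑Q)] at hQu
  rw [polar_iso] at huw
  exact SG_map Q (h u0 hu0 w0 hw0 hQu huw) hg

theorem E_mem_stab_of_mem_mem {X : Submodule F (ι → F)} {u w : ι → F} (hu : u ∈ X) (hw : w ∈ X)
    (hQu : Q u = 0) (huw : 𝐁 u w = 0) : E Q u w ∈ stab Q X := by
  apply mem_stab_of_le
  intro x hx
  rw [E_apply Q hQu huw]
  exact X.sub_mem (X.add_mem hx (X.smul_mem _ hu)) (X.smul_mem _ hw)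

section fin

variable [Fintype F]

theorem Full_of_stab (hQ : (QuadraticMap.polarBilin Q).Nondegenerate) (hn : 5 ≤ Fintype.card ι)
    {X : Submodule F (ι → F)} (hM : stab Q X ⊓ Cfsg.Omega F ⇑Q ≤ M) : Full Q M X := by
  intro u hu w hw hQu huw
  refine ⟨hQu, huw, fun c => hM ⟨?_, ?_⟩⟩
  · exact E_mem_stab_of_mem_mem Q hu (X.smul_mem _ hw) hQu
      (by rw [QuadraticMap.polar_smul_right, huw, smul_zero])
  · exact E_mem_Omega Q hQ hn hQu (by rw [QuadraticMap.polar_smul_right, huw, smul_zero])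

theorem Full_orth_of_stab (hQ : (QuadraticMap.polarBilin Q).Nondegenerate)
    (hn : 5 ≤ Fintype.card ι)
    {X : Submodule F (ι → F)} (hM : stab Q X ⊓ Cfsg.Omega F ⇑Q ≤ M) : Full Q M Xᗮ := by
  apply Full_of_stab Q hQ hn
  rw [stab_orth Q hQ]
  exact hM

/-- **Lemma A**: producing a root element with parameter outside `X`. -/
theorem lemmaA (hQ : (QuadraticMap.polarBilin Q).Nondegenerate)
    {X X' : Submodule F (ι → F)} (h6 : 6 ≤ finrank F X) (hF : Full Q M X) (hF' : Full Q M X')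
    {u' w' : ι → F} (hu' : u' ∈ X') (hQu' : Q u' = 0) (hw' : w' ∈ X') (hu'w' : 𝐁 u' w' = 0)
    (hnot : w' ∉ Xᗮ ⊔ Submodule.span F {u'}) : ∃ u ∈ X, u ≠ 0 ∧ Q u = 0 ∧ SG Q M u u' := by
  classical
  obtain ⟨w, hw, hu'w, hww'⟩ : ∃ w ∈ X, 𝐁 u' w = 0 ∧ 𝐁 w w' ≠ 0 := by
    by_contra hcon
    push Not at hcon
    apply hnot
    by_cases hall : ∀ x ∈ X, 𝐁 u' x = 0
    · apply Submodule.mem_sup_left
      rw [mem_orth]
      exact fun x hx => hcon x hx (hall x hx)
    · push Not at hall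
      obtain ⟨x0, hx0, hux0⟩ := hall
      have h1 : w' - (𝐁 x0 w' / 𝐁 u' x0) • u' ∈ Xᗮ := by
        rw [mem_orth]
        intro x hx
        have h2 := hcon (x - (𝐁 u' x / 𝐁 u' x0) • x0) (X.sub_mem hx (X.smul_mem _ hx0)) (by
          rw [QuadraticMap.polar_sub_right, QuadraticMap.polar_smul_right, smul_eq_mul]
          field_simp
          ring)
        rw [QuadraticMap.polar_sub_left, QuadraticMap.polar_smul_left, smul_eq_mul] at h2
        rw [QuadraticMap.polar_sub_right, QuadraticMap.polar_smul_right, smul_eq_mul,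
          QuadraticMap.polar_comm ⇑Q x u']
        rw [sub_eq_zero] at h2
        rw [h2]
        field_simp
        ring
      have h3 : w' = (w' - (𝐁 x0 w' / 𝐁 u' x0) • u') + (𝐁 x0 w' / 𝐁 u' x0) • u' := by abel
      rw [h3]
      exact Submodule.add_mem_sup h1 (Submodule.smul_mem _ _ (Submodule.mem_span_singleton_self u'))
  obtain ⟨u, hu, hu0, hQu, hperp⟩ := exists_singular_in Q hQ X {w, w', u'}
    (by have := Finset.card_le_three (a := w) (b := w') (c := u'); omega)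
  have h1 : 𝐁 u w = 0 := by rw [QuadraticMap.polar_comm]; exact hperp w (by simp)
  have h2 : 𝐁 u w' = 0 := by rw [QuadraticMap.polar_comm]; exact hperp w' (by simp)
  have h3 : 𝐁 u u' = 0 := by rw [QuadraticMap.polar_comm]; exact hperp u' (by simp)
  exact ⟨u, hu, hu0, hQu, SG_comm Q (hF u hu w hw hQu h1) (hF' u' hu' w' hw' hQu' hu'w') h3 hu'w h2
    hww'⟩

/-- **Irreducibility** of a non-degenerate quadratic space under reflections and Eichler
transformations. -/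
theorem irred (hQ : (QuadraticMap.polarBilin Q).Nondegenerate)
    {Y S : Submodule F (ι → F)} (hY : Y ⊓ Yᗮ = ⊥) (hSY : S ≤ Y) (hS0 : S ≠ ⊥)
    (hrefl : ∀ c ∈ Y, Q c ≠ 0 → ∀ y ∈ S, 𝐁 y c ≠ 0 → c ∈ S)
    (heich : ∀ e ∈ Y, ∀ t ∈ Y, Q e = 0 → 𝐁 e t = 0 → ∀ y ∈ S,
      (𝐁 y t - Q t * 𝐁 y e) • e - 𝐁 y e • t ∈ S)
    (hex : ¬ (Fintype.card F ≤ 3 ∧ finrank F Y = 2 ∧ ∃ e ∈ Y, e ≠ 0 ∧ Q e = 0)) : S = Y := by
  classical
  by_contra hne
  obtain ⟨a, haY, haS⟩ : ∃ a ∈ Y, a ∉ S := by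
    by_contra hcon
    push Not at hcon
    exact hne (le_antisymm hSY hcon)
  obtain ⟨s0, hs0, hs00⟩ := Submodule.exists_mem_ne_zero_of_ne_bot hS0
  obtain ⟨b, hbY, hs0b⟩ := exists_in_ne Q hY (hSY hs0) hs00
  -- a vector outside `S` and not orthogonal to `S`
  obtain ⟨c, hcY, hcS, s, hs, hsc⟩ : ∃ c ∈ Y, c ∉ S ∧ ∃ s ∈ S, 𝐁 s c ≠ 0 := by
    by_cases h1 : ∃ s ∈ S, 𝐁 s a ≠ 0
    · exact ⟨a, haY, haS, h1⟩
    · push Not at h1
      by_cases h2 : b ∈ S
      · refine ⟨a + b, Y.add_mem haY hbY, fun h => haS ?_, s0, hs0, ?_⟩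
        · have := S.sub_mem h h2
          rwa [add_sub_cancel_right] at this
        · rw [QuadraticMap.polar_add_right, h1 s0 hs0, zero_add]
          exact hs0b
      · exact ⟨b, hbY, h2, s0, hs0, hs0b⟩
  have hQc : Q c = 0 := by
    by_contra h
    exact hcS (hrefl c hcY h s hs hsc)
  have hcs : 𝐁 c s ≠ 0 := by rw [QuadraticMap.polar_comm]; exact hsc
  have hc0 : c ≠ 0 := by
    rintro rfl
    simp at hsc
  by_cases hq : 4 ≤ Fintype.card F
  · -- the trick with `c + l s`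
    obtain ⟨l, hl⟩ : ∃ l : F, l ∉ ({0, - 𝐁 c s / Q s, - 𝐁 s c / 𝐁 s s} : Finset F) := by
      by_contra hcon
      push Not at hcon
      have h1 : (Finset.univ : Finset F) ⊆ {0, - 𝐁 c s / Q s, - 𝐁 s c / 𝐁 s s} :=
        fun x _ => hcon x
      have h2 := Finset.card_le_card h1
      have h3 := Finset.card_le_three (a := (0 : F)) (b := - 𝐁 c s / Q s) (c := - 𝐁 s c / 𝐁 s s)
      rw [Finset.card_univ] at h2
      omega
    simp only [Finset.mem_insert, Finset.mem_singleton, not_or] at hl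
    obtain ⟨hl0, hl1, hl2⟩ := hl
    have h1 : Q (c + l • s) ≠ 0 := by
      rw [Q_add_smul', hQc]
      have : 0 + l * l * Q s + l * 𝐁 c s = l * (l * Q s + 𝐁 c s) := by ring
      rw [this]
      refine mul_ne_zero hl0 ?_
      intro h0
      by_cases hQs : Q s = 0
      · rw [hQs] at h0
        simp at h0
        exact hcs h0
      · apply hl1
        field_simp
        linear_combination h0
    have h2 : 𝐁 s (c + l • s) ≠ 0 := by
      rw [QuadraticMap.polar_add_right, QuadraticMap.polar_smul_right, smul_eq_mul]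
      intro h0
      by_cases hss : 𝐁 s s = 0
      · rw [hss] at h0
        simp at h0
        exact hsc h0
      · apply hl2
        field_simp
        linear_combination h0
    have h3 := hrefl _ (Y.add_mem hcY (Y.smul_mem _ (hSY hs))) h1 s hs h2
    apply hcS
    have := S.sub_mem h3 (S.smul_mem l hs)
    rwa [add_sub_cancel_right] at this
  · -- dimension at least three
    have hli : LinearIndependent F ![c, s] := by
      rw [LinearIndependent.pair_iff]
      intro x y hxy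
      have h1 : 𝐁 (x • c + y • s) c = 0 := by rw [hxy]; simp
      rw [QuadraticMap.polar_add_left, QuadraticMap.polar_smul_left, QuadraticMap.polar_smul_left,
        polar_self_of_singular Q hQc] at h1
      have hy : y = 0 := by simpa [hsc] using h1
      rw [hy] at hxy
      have hx : x = 0 := by simpa [hc0] using hxy
      exact ⟨hx, hy⟩
    have h2 : 2 ≤ finrank F Y := by
      have h3 := finrank_span_eq_card hli
      have h4 : Submodule.span F (Set.range ![c, s]) ≤ Y := by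
        rw [Submodule.span_le]
        rintro _ ⟨i, rfl⟩
        fin_cases i
        · exact hcY
        · exact hSY hs
      have h5 := Submodule.finrank_mono h4
      rw [h3] at h5
      simpa using h5
    have h3 : 3 ≤ finrank F Y := by
      by_contra h
      exact hex ⟨by omega, by omega, c, hcY, hc0, hQc⟩
    obtain ⟨t, ht, ht0, hperp⟩ := exists_ne_zero_in Q hQ Y {c, s}
      (by have := Finset.card_le_two (a := c) (b := s); omega)
    have hct : 𝐁 c t = 0 := hperp c (by simp)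
    have hst : 𝐁 s t = 0 := hperp s (by simp)
    obtain ⟨t0, ht0Y, htt0⟩ := exists_in_ne Q hY ht ht0
    set β := 𝐁 t0 c / 𝐁 s c with hβ
    set α := (𝐁 t0 s - β * 𝐁 s s) / 𝐁 c s with hα
    set t' := t0 - α • c - β • s with ht'
    have ht'Y : t' ∈ Y := Y.sub_mem (Y.sub_mem ht0Y (Y.smul_mem _ hcY)) (Y.smul_mem _ (hSY hs))
    have hct' : 𝐁 c t' = 0 := by
      rw [ht', QuadraticMap.polar_sub_right, QuadraticMap.polar_sub_right,
        QuadraticMap.polar_smul_right, QuadraticMap.polar_smul_right,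
        polar_self_of_singular Q hQc, hβ, QuadraticMap.polar_comm ⇑Q c t0,
        QuadraticMap.polar_comm ⇑Q c s]
      simp only [smul_eq_mul]
      field_simp
      ring
    have hst' : 𝐁 s t' = 0 := by
      rw [ht', QuadraticMap.polar_sub_right, QuadraticMap.polar_sub_right,
        QuadraticMap.polar_smul_right, QuadraticMap.polar_smul_right, hα,
        QuadraticMap.polar_comm ⇑Q s t0, QuadraticMap.polar_comm ⇑Q s c]
      simp only [smul_eq_mul]
      field_simp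
      ring
    have htt' : 𝐁 t t' ≠ 0 := by
      rw [ht', QuadraticMap.polar_sub_right, QuadraticMap.polar_sub_right,
        QuadraticMap.polar_smul_right, QuadraticMap.polar_smul_right,
        QuadraticMap.polar_comm ⇑Q t c, QuadraticMap.polar_comm ⇑Q t s, hct, hst]
      simpa using htt0
    have key : ∀ r ∈ Y, 𝐁 c r = 0 → 𝐁 s r = 0 → r + Q r • c ∈ S := by
      intro r hr hcr hsr
      have h4 := heich c hcY r hr hQc hcr s hs
      rw [hsr] at h4
      have h5 : (0 - Q r * 𝐁 s c) • c - 𝐁 s c • r = (- 𝐁 s c) • (r + Q r • c) := by module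
      rw [h5] at h4
      have h6 := S.smul_mem (- 𝐁 s c)⁻¹ h4
      rwa [smul_smul, inv_mul_cancel₀ (neg_ne_zero.2 hsc), one_smul] at h6
    have k1 := key t ht hct hst
    have k2 := key t' ht'Y hct' hst'
    have k3 := key (t + t') (Y.add_mem ht ht'Y)
      (by rw [QuadraticMap.polar_add_right, hct, hct', add_zero])
      (by rw [QuadraticMap.polar_add_right, hst, hst', add_zero])
    have k4 := S.sub_mem k3 (S.add_mem k1 k2)
    have k5 : (t + t' + Q (t + t') • c) - ((t + Q t • c) + (t' + Q t' • c)) = 𝐁 t t' • c := by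
      rw [Q_add]
      module
    rw [k5] at k4
    apply hcS
    have k6 := S.smul_mem (𝐁 t t')⁻¹ k4
    rwa [smul_smul, inv_mul_cancel₀ htt', one_smul] at k6

theorem finrank_span_singleton_le' (v : ι → F) : finrank F (Submodule.span F {v}) ≤ 1 := by
  classical
  have h : finrank F (Submodule.span F (({v} : Finset (ι → F)) : Set (ι → F))) ≤
      ({v} : Finset (ι → F)).card := finrank_span_finset_le_card (R := F) {v}
  rw [Finset.coe_singleton, Finset.card_singleton] at h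
  exact h

/-- The part of `Σ_u` inside `Y`, as a subspace. -/
def SGsub (M : Subgroup ↥(Cfsg.isometryGroup F ⇑Q)) (u : ι → F) (hu : Q u = 0)
    (Y : Submodule F (ι → F)) : Submodule F (ι → F) where
  carrier := {y | y ∈ Y ∧ SG Q M u y}
  add_mem' := fun ha hb => ⟨Y.add_mem ha.1 hb.1, SG_add Q ha.2 hb.2⟩
  zero_mem' := ⟨Y.zero_mem, hu, by simp, fun c => by rw [smul_zero, E_zero]; exact M.one_mem⟩
  smul_mem' := fun c _ ha => ⟨Y.smul_mem c ha.1, SG_smul Q ha.2 c⟩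

theorem mem_SGsub {u : ι → F} {hu : Q u = 0} {Y : Submodule F (ι → F)} {y : ι → F} :
    y ∈ SGsub Q M u hu Y ↔ y ∈ Y ∧ SG Q M u y := Iff.rfl

/-- **Step 2**: a root element with parameter outside `X` forces the full root group. -/
theorem root_of_SG (hQ : (QuadraticMap.polarBilin Q).Nondegenerate) (hn : 5 ≤ Fintype.card ι)
    {X : Submodule F (ι → F)} (hX : X ⊓ Xᗮ = ⊥) (h5 : 5 ≤ finrank F X)
    (hM : stab Q X ⊓ Cfsg.Omega F ⇑Q ≤ M)
    (hex : ¬ (Fintype.card F ≤ 3 ∧ finrank F Xᗮ = 2 ∧ ∃ e ∈ Xᗮ, e ≠ 0 ∧ Q e = 0))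
    {u v : ι → F} (hu : u ∈ X) (hu0 : u ≠ 0) (hv : v ∉ X) (huv : SG Q M u v) :
    u ∈ RootSet Q M := by
  have hQu := huv.1
  have hFX := Full_of_stab Q hQ hn hM
  have hFY := Full_orth_of_stab Q hQ hn hM
  obtain ⟨x0, hx0, y0, hy0, rfl⟩ := exists_decomp Q hQ hX v
  have hy00 : y0 ≠ 0 := by
    rintro rfl
    apply hv
    rwa [add_zero]
  have huy0 : 𝐁 u y0 = 0 := polar_of_mem_orth Q hu hy0
  have hux0 : 𝐁 u x0 = 0 := by
    have := huv.2.1
    rwa [QuadraticMap.polar_add_right, huy0, add_zero] at this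
  have hSy0 : SG Q M u y0 := by
    have := SG_sub Q huv (hFX u hu x0 hx0 hQu hux0)
    rwa [add_sub_cancel_left] at this
  have hS : SGsub Q M u hQu Xᗮ = Xᗮ := by
    apply irred Q hQ (orth_nondeg Q hQ hX) (fun y hy => ((mem_SGsub Q).1 hy).1)
    · intro h0
      have : y0 ∈ SGsub Q M u hQu Xᗮ := ⟨hy0, hSy0⟩
      rw [h0, Submodule.mem_bot] at this
      exact hy00 this
    · intro c hc hQc y hy hyc
      obtain ⟨d, hd, hud, hQd⟩ := exists_value_in Q hQ hX h5 hu hu0 hQu (Q c)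
      have hQd' : Q d ≠ 0 := by rw [hQd]; exact hQc
      have hgM : reflO Q hQc * reflO Q hQd' ∈ M := by
        refine hM ⟨(stab Q X).mul_mem ?_ ?_, ?_⟩
        · rw [← reflO'_eq Q hQc]
          exact reflO'_mem_stab_of_orth Q hc
        · rw [← reflO'_eq Q hQd']
          exact reflO'_mem_stab_of_mem Q hd
        · rw [Omega_eq_TT Q hQ hn]
          exact reflO_mul_reflO_mem_TT Q hQ hn hQc hQd' hQd.symm
      have h1 := SG_map Q hy.2 hgM
      have hdu : 𝐁 d u = 0 := by rw [QuadraticMap.polar_comm]; exact hud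
      have hcu : 𝐁 c u = 0 := polar_of_mem_orth' Q hu hc
      have hdy : 𝐁 d y = 0 := polar_of_mem_orth Q hd hy.1
      rw [mul_mulVec, mul_mulVec, coe_reflO, coe_reflO, refl_of_polar_eq_zero Q hdu,
        refl_of_polar_eq_zero Q hcu, refl_of_polar_eq_zero Q hdy, refl_mulVec] at h1
      have h2 := SG_sub Q hy.2 h1
      rw [sub_sub_cancel] at h2
      refine ⟨hc, SG_of_smul Q ?_ h2⟩
      refine mul_ne_zero (inv_ne_zero hQc) ?_
      rw [QuadraticMap.polar_comm]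
      exact hyc
    · intro e he t ht hQe het y hy
      have hgM : E Q e t ∈ M := by simpa using (hFY e he t ht hQe het).2.2 1
      have h1 := SG_map Q hy.2 hgM
      have h2 : (E Q e t) ⬝ u = u := by
        have := E_fix_of_orth Q (W := X) hQe het he ht hu
        exact this
      rw [h2, E_apply Q hQe het] at h1
      have h3 := SG_sub Q h1 hy.2
      have h4 : y + (𝐁 y t - Q t * 𝐁 y e) • e - 𝐁 y e • t - y
          = (𝐁 y t - Q t * 𝐁 y e) • e - 𝐁 y e • t := by abel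
      rw [h4] at h3
      exact ⟨Submodule.sub_mem _ (Submodule.smul_mem _ _ he) (Submodule.smul_mem _ _ ht), h3⟩
    · exact hex
  apply mem_RootSet_of_SG Q hu0 hQu
  intro w hw
  obtain ⟨x1, hx1, y1, hy1, rfl⟩ := exists_decomp Q hQ hX w
  have huy1 : 𝐁 u y1 = 0 := polar_of_mem_orth Q hu hy1
  have hux1 : 𝐁 u x1 = 0 := by
    rwa [QuadraticMap.polar_add_right, huy1, add_zero] at hw
  have h5 : y1 ∈ SGsub Q M u hQu Xᗮ := by rw [hS]; exact hy1
  exact SG_add Q (hFX u hu x1 hx1 hQu hux1) h5.2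

/-- **Step 3**. -/
theorem Omega_le_of_root (hQ : (QuadraticMap.polarBilin Q).Nondegenerate)
    (hn : 5 ≤ Fintype.card ι)
    {X : Submodule F (ι → F)} (hX : X ⊓ Xᗮ = ⊥) (h5 : 5 ≤ finrank F X)
    (hM : stab Q X ⊓ Cfsg.Omega F ⇑Q ≤ M) {u : ι → F} (hu : u ∈ X) (huR : u ∈ RootSet Q M) :
    Cfsg.Omega F ⇑Q ≤ M := by
  have hFX := Full_of_stab Q hQ hn hM
  obtain ⟨f, hf, hQf, huf⟩ := exists_partner_in Q hX hu huR.1 huR.2.1
  have hf0 : f ≠ 0 := by
    rintro rfl
    simp at huf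
  obtain ⟨s, hs, hfs, hQs⟩ := exists_value_in Q hQ hX h5 hf hf0 hQf 1
  have hgM : E Q f s ∈ M := by simpa using (hFX f hf s hs hQf hfs).2.2 1
  have h1 := RootSet_map Q huR hgM
  refine Omega_le_of_pair Q hQ hn huR h1 ?_
  rw [E_apply Q hQf hfs, QuadraticMap.polar_sub_right, QuadraticMap.polar_add_right,
    QuadraticMap.polar_smul_right, QuadraticMap.polar_smul_right,
    polar_self_of_singular Q huR.2.1, hQs, huf]
  simp

/-- **Maximality of the stabiliser of a non-degenerate subspace** (core statement). -/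
theorem nondeg_maximal (hQ : (QuadraticMap.polarBilin Q).Nondegenerate)
    (hn : 13 ≤ Fintype.card ι) {W : Submodule F (ι → F)} (hW : W ⊓ Wᗮ = ⊥)
    (hdim : finrank F W ≤ finrank F Wᗮ)
    (hex : ¬ (Fintype.card F ≤ 3 ∧ finrank F W = 2 ∧ ∃ e ∈ W, e ≠ 0 ∧ Q e = 0))
    (hM : stab Q W ⊓ Cfsg.Omega F ⇑Q ≤ M) {g : ↥(Cfsg.isometryGroup F ⇑Q)} (hg : g ∈ M)
    (hg1 : g ∉ stab Q W) (hg2 : ¬ img Q g Wᗮ ≤ W) : Cfsg.Omega F ⇑Q ≤ M := by
  classical
  have hn5 : 5 ≤ Fintype.card ι := by omega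
  have hsum := finrank_orth_add Q hQ W
  have hU7 : 7 ≤ finrank F Wᗮ := by omega
  have hU : Wᗮ ⊓ Wᗮᗮ = ⊥ := orth_nondeg Q hQ hW
  have hMU : stab Q Wᗮ ⊓ Cfsg.Omega F ⇑Q ≤ M := by rw [stab_orth Q hQ]; exact hM
  have hFW := Full_of_stab Q hQ hn5 hM
  have hFU := Full_of_stab Q hQ hn5 hMU
  have hFU' := Full_img Q hFU hg
  set U' := img Q g Wᗮ with hU'
  have hU'dim : finrank F U' = finrank F Wᗮ := finrank_img Q g _
  -- `U'` is non-degenerate
  have hU'nd : U' ⊓ U'ᗮ = ⊥ := by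
    rw [eq_bot_iff]
    rintro x ⟨hx1, hx2⟩
    obtain ⟨x0, hx0, rfl⟩ := (mem_img Q).1 hx1
    have h1 : x0 ∈ Wᗮ ⊓ Wᗮᗮ := by
      refine ⟨hx0, ?_⟩
      rw [SetLike.mem_coe, mem_orth]
      intro y hy
      rw [← polar_iso Q g]
      exact mem_orth.1 hx2 _ ((mem_img Q).2 ⟨y, hy, rfl⟩)
    rw [hU, Submodule.mem_bot] at h1
    rw [h1, Matrix.mulVec_zero]
    exact Submodule.zero_mem _
  -- a singular vector of `U'` outside a given subspace not containing `U'`
  have hsing : ∀ Z : Submodule F (ι → F), ¬ U' ≤ Z → ∃ x ∈ U', Q x = 0 ∧ x ∉ Z := by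
    intro Z hZ
    by_contra hcon
    push Not at hcon
    apply hZ
    intro x hx
    obtain ⟨a, ha, b, hb, hQa, hQb, rfl⟩ := exists_singular_add_in Q hU'nd (by omega) hx
    exact Z.add_mem (hcon a ha hQa) (hcon b hb hQb)
  have hU'U : ¬ U' ≤ Wᗮ := by
    intro hle
    apply hg1
    rw [← stab_orth Q hQ]
    exact mem_stab_of_le Q fun x hx => hle ((mem_img Q).2 ⟨x, hx, rfl⟩)
  obtain ⟨u', hu', hQu', hu'U⟩ := hsing _ hU'U
  by_cases hcase : ∃ w' ∈ U', 𝐁 u' w' = 0 ∧ w' ∉ Wᗮᗮ ⊔ Submodule.span F {u'}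
  · obtain ⟨w', hw', hu'w', hnot⟩ := hcase
    obtain ⟨u, hu, hu0, hQu, hSG⟩ := lemmaA Q hQ (by omega) hFU hFU' hu' hQu' hw' hu'w' hnot
    have hR := root_of_SG Q hQ hn5 hU (by omega) hMU (by rw [orth_orth Q hQ]; exact hex) hu hu0
      hu'U hSG
    exact Omega_le_of_root Q hQ hn5 hU (by omega) hMU hu hR
  · push Not at hcase
    rw [orth_orth Q hQ] at hcase
    -- `U' ∩ u'^⊥ ≤ W + <u'>`
    have hle1 : U' ⊓ (Submodule.span F {u'})ᗮ ≤ W ⊔ Submodule.span F {u'} := by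
      rintro x ⟨hx1, hx2⟩
      exact hcase x hx1 ((mem_orth_span_singleton Q).1 hx2)
    have hs1 : finrank F (Submodule.span F {u'}) ≤ 1 := finrank_span_singleton_le' u'
    have hd1 := finrank_le_inf_orth Q hQ U' (Submodule.span F {u'})
    have hd2 := Submodule.finrank_mono hle1
    have hd3 := Submodule.finrank_add_le_finrank_add_finrank W (Submodule.span F {u'})
    have hW6 : 6 ≤ finrank F W := by omega
    obtain ⟨u'', hu'', hQu'', hu''W⟩ := hsing _ hg2
    have hcase2 : ∃ w'' ∈ U', 𝐁 u'' w'' = 0 ∧ w'' ∉ Wᗮ ⊔ Submodule.span F {u''} := by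
      by_contra hcon
      push Not at hcon
      have hle2 : U' ⊓ (Submodule.span F {u''})ᗮ ≤ Wᗮ ⊔ Submodule.span F {u''} := by
        rintro x ⟨hx1, hx2⟩
        exact hcon x hx1 ((mem_orth_span_singleton Q).1 hx2)
      have hle3 : U' ⊓ (Submodule.span F {u', u''})ᗮ ≤
          (W ⊔ Submodule.span F {u'}) ⊓ (Wᗮ ⊔ Submodule.span F {u''}) := by
        rintro x ⟨hx1, hx2⟩
        have hx3 := (mem_orth_span_pair Q).1 hx2
        exact ⟨hle1 ⟨hx1, (mem_orth_span_singleton Q).2 hx3.1⟩,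
          hle2 ⟨hx1, (mem_orth_span_singleton Q).2 hx3.2⟩⟩
      have hs2 : finrank F (Submodule.span F {u''}) ≤ 1 := finrank_span_singleton_le' u''
      have he1 := finrank_le_inf_orth Q hQ U' (Submodule.span F {u', u''})
      have he2 := finrank_span_pair_le u' u''
      have he3 := Submodule.finrank_mono hle3
      have he4 := Submodule.finrank_sup_add_finrank_inf_eq (W ⊔ Submodule.span F {u'})
        (Wᗮ ⊔ Submodule.span F {u''})
      have he5 : (W ⊔ Submodule.span F {u'}) ⊔ (Wᗮ ⊔ Submodule.span F {u''}) = ⊤ := by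
        rw [eq_top_iff, ← sup_orth_eq_top Q hQ hW]
        exact sup_le_sup le_sup_left le_sup_left
      have he6 := Submodule.finrank_add_le_finrank_add_finrank Wᗮ (Submodule.span F {u''})
      rw [he5, finrank_top, Module.finrank_fintype_fun_eq_card] at he4
      omega
    obtain ⟨w'', hw'', hu''w'', hnot⟩ := hcase2
    obtain ⟨u, hu, hu0, hQu, hSG⟩ := lemmaA Q hQ hW6 hFW hFU' hu'' hQu'' hw'' hu''w'' hnot
    have hR := root_of_SG Q hQ hn5 hW (by omega) hM (by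
      rintro ⟨-, h2, -⟩
      omega) hu hu0 hu''W hSG
    exact Omega_le_of_root Q hQ hn5 hW (by omega) hM hu hR

/-- `Ω` does not stabilise a proper non-zero non-degenerate subspace. -/
theorem not_Omega_le_stab_nondeg (hQ : (QuadraticMap.polarBilin Q).Nondegenerate)
    (hn : 5 ≤ Fintype.card ι) {W : Submodule F (ι → F)} (hW : W ⊓ Wᗮ = ⊥) (hW0 : W ≠ ⊥)
    (h3 : 3 ≤ finrank F Wᗮ) : ¬ Cfsg.Omega F ⇑Q ≤ stab Q W := by
  intro hle
  obtain ⟨w, hw, hw0⟩ := Submodule.exists_mem_ne_zero_of_ne_bot hW0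
  obtain ⟨x, hx, hwx⟩ := exists_in_ne Q hW hw hw0
  obtain ⟨u, hu, hu0, hQu⟩ := exists_singular_sub Q h3
  have huw : 𝐁 u w = 0 := polar_of_mem_orth' Q hw hu
  have hxu : 𝐁 x u = 0 := polar_of_mem_orth Q hx hu
  have h1 := map_mem_of_mem_stab Q (hle (E_mem_Omega Q hQ hn hQu huw)) hx
  rw [E_apply Q hQu huw, hxu] at h1
  simp only [mul_zero, sub_zero, zero_smul] at h1
  have h2 := W.sub_mem h1 hx
  rw [add_sub_cancel_left] at h2
  have hxw : 𝐁 x w ≠ 0 := by rw [QuadraticMap.polar_comm]; exact hwx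
  have h3 := W.smul_mem (𝐁 x w)⁻¹ h2
  rw [smul_smul, inv_mul_cancel₀ hxw, one_smul] at h3
  apply hu0
  rw [← Submodule.mem_bot F, ← hW]
  exact ⟨h3, hu⟩

end fin

/-! ## Bridges to the `Geo` vocabulary -/

theorem inf_orth_eq_bot_of_nondegOn {W : Submodule F (ι → F)}
    (hW : Cfsg.Geo.IsNondegenerateOn (QuadraticMap.polar ⇑Q) W) : W ⊓ Wᗮ = ⊥ := by
  rw [eq_bot_iff]
  rintro x ⟨hx1, hx2⟩
  rw [Submodule.mem_bot]
  by_contra hx0
  obtain ⟨⟨y, hy, hyx⟩, -⟩ := hW x hx1 hx0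
  exact hyx (mem_orth.1 hx2 y hy)

theorem isometric_of_img {g : ↥(Cfsg.isometryGroup F ⇑Q)} {X Y : Submodule F (ι → F)}
    (h : img Q g X = Y) : Cfsg.Geo.AreIsometricFor ⇑Q X Y := by
  subst h
  refine ⟨Submodule.equivMapOfInjective _ (mulVecLin_injective Q g) X, fun w => ?_⟩
  exact iso_apply (Q := ⇑Q) g (w : ι → F)

theorem isometric_symm {X Y : Submodule F (ι → F)} (h : Cfsg.Geo.AreIsometricFor ⇑Q X Y) :
    Cfsg.Geo.AreIsometricFor ⇑Q Y X := by
  obtain ⟨e, he⟩ := h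
  refine ⟨e.symm, fun w => ?_⟩
  rw [← he (e.symm w), LinearEquiv.apply_symm_apply]

theorem map_toLin'_eq_img (g : ↥(Cfsg.isometryGroup F ⇑Q)) (X : Submodule F (ι → F)) :
    X.map (Matrix.toLin' ((g : Matrix.GeneralLinearGroup ι F) : Matrix ι ι F)) = img Q g X := rfl

end Cfsg.Agent.Lib.Helper95OrthSub
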