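import Cfsg.Agent.Lib.Helper95OrthSub

/-!
# Stabilisers of non-degenerate subspaces in `Ω`: symmetric wrapper
-/

set_option autoImplicit false
set_option linter.unusedSectionVars false

namespace Cfsg.Agent.Lib.Helper95OrthSub2

open scoped Matrix
open Module
open Cfsg.Agent.Lib.Helper49Orth Cfsg.Agent.Lib.Helper49Hyp Cfsg.Agent.Lib.Helper18Hyp
  Cfsg.Agent.Lib.Helper49Eich Cfsg.Agent.Lib.Helper49Geo Cfsg.Agent.Lib.Helper49EichGen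
  Cfsg.Agent.Lib.Helper49Fam Cfsg.Agent.Lib.Helper49Trans Cfsg.Agent.Lib.Helper49CharTwoA
  Cfsg.Agent.Lib.Helper49Par Cfsg.Agent.Lib.Helper95OrthSub Cfsg.Agent.Lib.Helper49Bridge

variable {F : Type*} [Field F] [Fintype F]
variable {ι : Type} [Fintype ι] [DecidableEq ι] (Q : QuadraticForm F (ι → F))

local notation "𝐁" => QuadraticMap.polar (DFunLike.coe Q)
local notation:max W "ᗮ" => LinearMap.BilinForm.orthogonal (QuadraticMap.polarBilin Q) W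

theorem nondeg_maximal_aux (hQ : (QuadraticMap.polarBilin Q).Nondegenerate)
    (hn : 13 ≤ Fintype.card ι) {W : Submodule F (ι → F)} (hW : W ⊓ Wᗮ = ⊥) (hW0 : W ≠ ⊥)
    (hdim : finrank F W ≤ finrank F Wᗮ)
    (hexW : ¬ (Fintype.card F ≤ 3 ∧ finrank F W = 2 ∧ ∃ e ∈ W, e ≠ 0 ∧ Q e = 0))
    (hiso : finrank F W = finrank F Wᗮ → ¬ Cfsg.Geo.AreIsometricFor ⇑Q W Wᗮ) :
    (¬ Cfsg.Omega F ⇑Q ≤ stab Q W) ∧ ∀ M : Subgroup ↥(Cfsg.isometryGroup F ⇑Q),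
      stab Q W ⊓ Cfsg.Omega F ⇑Q ≤ M → ¬ M ≤ stab Q W → Cfsg.Omega F ⇑Q ≤ M := by
  have hsum := finrank_orth_add Q hQ W
  refine ⟨not_Omega_le_stab_nondeg Q hQ (by omega) hW hW0 (by omega), fun M hM1 hM2 => ?_⟩
  obtain ⟨g, hgM, hg⟩ := SetLike.not_le_iff_exists.1 hM2
  refine nondeg_maximal Q hQ hn hW hdim hexW hM1 hgM hg ?_
  intro hle
  have h1 := Submodule.finrank_mono hle
  rw [finrank_img] at h1
  have h2 : finrank F W = finrank F Wᗮ := le_antisymm hdim h1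
  have h3 : img Q g Wᗮ = W := by
    apply Submodule.eq_of_le_of_finrank_eq hle
    rw [finrank_img, h2]
  exact hiso h2 (isometric_symm Q (isometric_of_img Q h3))

/-- Maximality of the stabiliser of a non-degenerate subspace, both orientations. -/
theorem nondeg_maximal' (hQ : (QuadraticMap.polarBilin Q).Nondegenerate)
    (hn : 13 ≤ Fintype.card ι) {W : Submodule F (ι → F)} (hW : W ⊓ Wᗮ = ⊥) (hW0 : W ≠ ⊥)
    (hW1 : W ≠ ⊤)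
    (hexW : ¬ (Fintype.card F ≤ 3 ∧ finrank F W = 2 ∧ ∃ e ∈ W, e ≠ 0 ∧ Q e = 0))
    (hexU : ¬ (Fintype.card F ≤ 3 ∧ finrank F Wᗮ = 2 ∧ ∃ e ∈ Wᗮ, e ≠ 0 ∧ Q e = 0))
    (hiso : finrank F W = finrank F Wᗮ → ¬ Cfsg.Geo.AreIsometricFor ⇑Q W Wᗮ) :
    (¬ Cfsg.Omega F ⇑Q ≤ stab Q W) ∧ ∀ M : Subgroup ↥(Cfsg.isometryGroup F ⇑Q),
      stab Q W ⊓ Cfsg.Omega F ⇑Q ≤ M → ¬ M ≤ stab Q W → Cfsg.Omega F ⇑Q ≤ M := by
  by_cases hdim : finrank F W ≤ finrank F Wᗮ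
  · exact nondeg_maximal_aux Q hQ hn hW hW0 hdim hexW hiso
  · have h := nondeg_maximal_aux Q hQ hn (W := Wᗮ) (orth_nondeg Q hQ hW) (by
      intro h0
      apply hW1
      rw [← orth_orth Q hQ W, h0]
      simp) (by rw [orth_orth Q hQ]; omega) hexU (by rw [orth_orth Q hQ]; omega)
    rw [stab_orth Q hQ] at h
    exact h

theorem isMaximalIn_of_nondeg (hQ : (QuadraticMap.polarBilin Q).Nondegenerate)
    (hn : 13 ≤ Fintype.card ι) {W : Submodule F (ι → F)} (hW : W ⊓ Wᗮ = ⊥) (hW0 : W ≠ ⊥)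
    (hW1 : W ≠ ⊤)
    (hexW : ¬ (Fintype.card F ≤ 3 ∧ finrank F W = 2 ∧ ∃ e ∈ W, e ≠ 0 ∧ Q e = 0))
    (hexU : ¬ (Fintype.card F ≤ 3 ∧ finrank F Wᗮ = 2 ∧ ∃ e ∈ Wᗮ, e ≠ 0 ∧ Q e = 0))
    (hiso : finrank F W = finrank F Wᗮ → ¬ Cfsg.Geo.AreIsometricFor ⇑Q W Wᗮ) :
    Cfsg.Geo.IsMaximalIn (Cfsg.Geo.omegaGL ⇑Q)
      (Cfsg.Geo.subspaceStabilizer W ⊓ Cfsg.Geo.omegaGL ⇑Q) := by
  obtain ⟨h1, h2⟩ := nondeg_maximal' Q hQ hn hW hW0 hW1 hexW hexU hiso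
  exact isMaximalIn_omegaGL Q _ (stab Q W) (coe_mem_subspaceStabilizer_iff _ W) h1 h2

/-- a plane with a non-zero singular vector is of plus type -/
theorem plusType_of_singular {W : Submodule F (ι → F)} (h2 : finrank F W = 2) {e : ι → F}
    (he : e ∈ W) (he0 : e ≠ 0) (hQe : Q e = 0) : Cfsg.Geo.IsPlusTypeOn ⇑Q W := by
  refine ⟨Submodule.span F {e}, ?_, ?_, ?_⟩
  · rw [Submodule.span_le]; simpa using he
  · exact ts_span hQe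
  · rw [finrank_span_singleton he0, h2]

theorem nondegOn_of_inf_orth {W : Submodule F (ι → F)} (hW : W ⊓ Wᗮ = ⊥) :
    Cfsg.Geo.IsNondegenerateOn (QuadraticMap.polar ⇑Q) W := by
  intro w hw hw0
  obtain ⟨y, hy, hwy⟩ := exists_in_ne Q hW hw hw0
  exact ⟨⟨y, hy, by rw [QuadraticMap.polar_comm]; exact hwy⟩, ⟨y, hy, hwy⟩⟩

end Cfsg.Agent.Lib.Helper95OrthSub2
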