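import Cfsg.Agent.S0750
import Cfsg.Agent.Lib.Helper17SymmForm
import Cfsg.Agent.Lib.Helper95Herm

set_option autoImplicit false

namespace Cfsg.Agent.Lib.Helper95Quad

open Module Cfsg.Agent.Lib.Helper95Sp Cfsg.Agent.Lib.Helper95SpSL Cfsg.Agent.Lib.Helper95Herm

variable {K V : Type*} [Field K] [AddCommGroup V] [Module K V]

/-- `Q` is a quadratic form with polar form `B` -/
structure QF (B : LinearMap.BilinForm K V) (Q : V → K) : Prop where
  smul : ∀ (c : K) (v : V), Q (c • v) = c ^ 2 * Q v
  add : ∀ x y, Q (x + y) = Q x + Q y + B x y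

lemma field_sol [Finite K] (a b c : K) (ha : a ≠ 0) (hb : b ≠ 0) :
    ∃ x y : K, a * x ^ 2 + b * y ^ 2 = c := by
  by_cases h2 : (2 : K) = 0
  · have hchar : ringChar K = 2 := by
      have : CharP K 2 := CharTwo.of_one_ne_zero_of_two_eq_zero one_ne_zero h2
      exact ringChar.eq K 2
    obtain ⟨x, hx⟩ := FiniteField.isSquare_of_char_two hchar (c / a)
    refine ⟨x, 0, ?_⟩
    rw [pow_two, ← hx]
    field_simp
    ring
  · exact Cfsg.Agent.Lib.Helper17SymmForm.exists_sol h2 a b c ha hb

variable {B : LinearMap.BilinForm K V} {Q : V → K}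

namespace QF

lemma zero (h : QF B Q) : Q 0 = 0 := by
  have := h.smul 0 0
  simpa using this

lemma symm (h : QF B Q) (x y : V) : B x y = B y x := by
  have h1 := h.add x y
  have h2 := h.add y x
  rw [add_comm y x] at h2
  linear_combination h2 - h1

lemma self (h : QF B Q) (x : V) : B x x = 2 * Q x := by
  have h1 := h.add x x
  have h2 := h.smul 2 x
  rw [two_smul] at h2
  linear_combination h2 - h1

lemma neg (h : QF B Q) (x : V) : Q (-x) = Q x := by
  have := h.smul (-1) x
  simpa using this

lemma sub (h : QF B Q) (x y : V) : Q (x - y) = Q x + Q y - B x y := by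
  rw [sub_eq_add_neg, h.add, h.neg, map_neg]
  ring

lemma isRefl (h : QF B Q) : B.IsRefl := fun x y hxy => by rw [h.symm, hxy]

lemma isoB (h : QF B Q) (g : V ≃ₗ[K] V) (hg : ∀ v, Q (g v) = Q v) (x y : V) :
    B (g x) (g y) = B x y := by
  have h1 := h.add (g x) (g y)
  rw [← map_add, hg, hg, hg, h.add] at h1
  linear_combination -h1

/-- the Mathlib quadratic form -/
def toQuad (h : QF B Q) : QuadraticForm K V where
  toFun := Q
  toFun_smul c v := by rw [h.smul, smul_eq_mul, pow_two]
  exists_companion' := ⟨B, h.add⟩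

lemma toQuad_apply (h : QF B Q) (x : V) : h.toQuad x = Q x := rfl

lemma polarBilin_toQuad (h : QF B Q) : QuadraticMap.polarBilin h.toQuad = B := by
  ext x y
  simp only [QuadraticMap.polarBilin_apply_apply, QuadraticMap.polar, toQuad_apply, h.add]
  ring

/-- Witt's lemma, one step (from `S0750.core`) -/
lemma core [FiniteDimensional K V] (h : QF B Q) (hB : B.Nondegenerate) (H : Submodule K V) (x y : V)
    (hx : x ∉ H) (hy : y ∉ H) (hQxy : Q y = Q x) (hH : ∀ z ∈ H, B z y = B z x) :
    ∃ g : V ≃ₗ[K] V, (∀ v, Q (g v) = Q v) ∧ (∀ z ∈ H, g z = z) ∧ g x = y := by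
  have := Cfsg.Agent.S0750.core (Q := h.toQuad) (by rw [polarBilin_toQuad]; exact hB) H x y hx hy hQxy
    (by rw [polarBilin_toQuad]; exact hH)
  exact this

lemma ts_finrank [FiniteDimensional K V] (h : QF B Q) (hB : B.Nondegenerate) (T : Submodule K V)
    (hT : ∀ x ∈ T, Q x = 0) : 2 * finrank K T ≤ finrank K V := by
  have h1 : T ≤ B.orthogonal T := by
    intro x hx y hy
    have h2 := h.add y x
    rw [hT _ (T.add_mem hy hx), hT y hy, hT x hx] at h2
    simpa using h2.symm
  have h2 := Submodule.finrank_mono h1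
  have h3 : finrank K (B.orthogonal T) = finrank K V - finrank K T :=
    LinearMap.BilinForm.finrank_orthogonal hB T
  have h4 := Submodule.finrank_le T
  omega

/-- a non-singular vector orthogonal to a small set -/
lemma exists_ns [FiniteDimensional K V] (h : QF B Q) (hB : B.Nondegenerate) (U : Finset V)
    (hU : 2 * U.card < finrank K V) : ∃ y, (∀ u ∈ U, B y u = 0) ∧ Q y ≠ 0 := by
  set S := Submodule.span K (U : Set V) with hS
  have hSfr : finrank K S ≤ U.card := finrank_span_finset_le_card U
  set T := B.orthogonal S with hT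
  have hTfr : finrank K T = finrank K V - finrank K S := LinearMap.BilinForm.finrank_orthogonal hB S
  by_contra hcon
  push Not at hcon
  have h1 : 2 * finrank K T ≤ finrank K V := h.ts_finrank hB T (fun x hx => hcon x (fun u hu => by
    rw [h.symm]; exact hx u (Submodule.subset_span hu)))
  omega

/-- vectors orthogonal to a small set with prescribed value of `Q` -/
lemma exists_perp [Finite K] [FiniteDimensional K V] (h : QF B Q) (hB : B.Nondegenerate)
    (U : Finset V) (hU : 2 * (U.card + 1) < finrank K V) (d : K) :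
    ∃ y, (∀ u ∈ U, B y u = 0) ∧ Q y = d := by
  classical
  obtain ⟨y1, hy1, hQ1⟩ := h.exists_ns hB U (by omega)
  obtain ⟨y2, hy2, hQ2⟩ := h.exists_ns hB (insert y1 U) (by
    have := Finset.card_insert_le y1 U
    omega)
  obtain ⟨a, b, hab⟩ := field_sol (Q y1) (Q y2) d hQ1 hQ2
  refine ⟨a • y1 + b • y2, fun u hu => ?_, ?_⟩
  · rw [map_add, map_smul, map_smul, LinearMap.add_apply, LinearMap.smul_apply, LinearMap.smul_apply,
      hy1 u hu, hy2 u (by simp [hu])]
    simp
  · rw [h.add, h.smul, h.smul]
    simp only [map_smul, LinearMap.smul_apply, smul_eq_mul]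
    rw [h.symm y1 y2, hy2 y1 (by simp)]
    linear_combination hab

/-- double orthogonal -/
lemma exists_perp_ne [FiniteDimensional K V] (h : QF B Q) (hB : B.Nondegenerate) (S : Set V) (u : V)
    (hu : u ∉ Submodule.span K S) : ∃ x ∈ B.orthogonal (Submodule.span K S), B x u ≠ 0 := by
  by_contra hcon
  push Not at hcon
  apply hu
  rw [← LinearMap.BilinForm.orthogonal_orthogonal hB h.isRefl (Submodule.span K S)]
  intro x hx
  exact hcon x hx

lemma mem_orth (h : QF B Q) (S : Set V) (x : V) (hx : x ∈ B.orthogonal (Submodule.span K S)) :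
    ∀ s ∈ S, B x s = 0 := fun s hs => by
  rw [h.symm]; exact hx s (Submodule.subset_span hs)

/-- prescribed `Q`, orthogonal to `S`, prescribed product with `u` -/
lemma exists_val [Finite K] [FiniteDimensional K V] (h : QF B Q) (hB : B.Nondegenerate)
    (S : Finset V) (u : V) (hS : 2 * (S.card + 3) < finrank K V)
    (hu : u ∉ Submodule.span K (S : Set V)) (c d : K) :
    ∃ x, (∀ s ∈ S, B x s = 0) ∧ B x u = c ∧ Q x = d := by
  classical
  obtain ⟨x0, hx0S, hx0⟩ := h.exists_perp_ne hB _ _ hu
  have hx0S' := h.mem_orth _ _ hx0S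
  set x := (c / B x0 u) • x0 with hx
  have hxu : B x u = c := by
    rw [hx, map_smul, LinearMap.smul_apply, smul_eq_mul]
    field_simp
  have hxS : ∀ s ∈ S, B x s = 0 := by
    intro s hs
    rw [hx, map_smul, LinearMap.smul_apply, hx0S' s hs, smul_zero]
  obtain ⟨w, hw, hww⟩ := h.exists_perp hB (insert x (insert u S)) (by
    have h1 := Finset.card_insert_le x (insert u S)
    have h2 := Finset.card_insert_le u S
    omega) (d - Q x)
  refine ⟨x + w, fun s hs => ?_, ?_, ?_⟩
  · rw [map_add, LinearMap.add_apply, hxS s hs, hw s (by simp [hs]), add_zero]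
  · rw [map_add, LinearMap.add_apply, hw u (by simp), add_zero, hxu]
  · rw [h.add, hww, h.symm, hw x (by simp)]
    ring

/-- prescribed `Q`, orthogonal to `S`, not orthogonal to `u₁`, `u₂` -/
lemma exists_iso [Finite K] [FiniteDimensional K V] (h : QF B Q) (hB : B.Nondegenerate)
    (S : Finset V) (u₁ u₂ : V) (hS : 2 * (S.card + 4) < finrank K V)
    (h₁ : u₁ ∉ Submodule.span K (S : Set V)) (h₂ : u₂ ∉ Submodule.span K (S : Set V)) (d : K) :
    ∃ x, (∀ s ∈ S, B x s = 0) ∧ B x u₁ ≠ 0 ∧ B x u₂ ≠ 0 ∧ Q x = d := by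
  classical
  obtain ⟨x, hxS, hx1, hx2⟩ := exists_both_ne_zero (B.orthogonal (Submodule.span K (S : Set V)))
    (B.flip u₁) (B.flip u₂) (h.exists_perp_ne hB _ _ h₁) (h.exists_perp_ne hB _ _ h₂)
  have hxS' := h.mem_orth _ _ hxS
  obtain ⟨w, hw, hww⟩ := h.exists_perp hB (insert x (insert u₁ (insert u₂ S))) (by
    have h1 := Finset.card_insert_le x (insert u₁ (insert u₂ S))
    have h2 := Finset.card_insert_le u₁ (insert u₂ S)
    have h3 := Finset.card_insert_le u₂ S
    omega) (d - Q x)
  refine ⟨x + w, fun s hs => ?_, ?_, ?_, ?_⟩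
  · rw [map_add, LinearMap.add_apply, hxS' s hs, hw s (by simp [hs]), add_zero]
  · rw [map_add, LinearMap.add_apply, hw u₁ (by simp), add_zero]; exact hx1
  · rw [map_add, LinearMap.add_apply, hw u₂ (by simp), add_zero]; exact hx2
  · rw [h.add, hww, h.symm, hw x (by simp)]
    ring

/-- a singular vector orthogonal to `U`, outside the span of `U` -/
lemma exists_sing [Finite K] [FiniteDimensional K V] (h : QF B Q) (hB : B.Nondegenerate)
    (U : Finset V) (hU : 2 * (U.card + 2) < finrank K V) :
    ∃ x, (∀ u ∈ U, B x u = 0) ∧ Q x = 0 ∧ x ∉ Submodule.span K (U : Set V) := by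
  classical
  by_cases h2 : (2 : K) = 0
  · -- characteristic two: use a hyperbolic partner
    set S := Submodule.span K (U : Set V) with hS
    have hSfr : finrank K S ≤ U.card := finrank_span_finset_le_card U
    have hTfr : finrank K (B.orthogonal S) = finrank K V - finrank K S :=
      LinearMap.BilinForm.finrank_orthogonal hB S
    obtain ⟨x0, hx0T, hx0S⟩ : ∃ x0 ∈ B.orthogonal S, x0 ∉ S := by
      by_contra hcon
      push Not at hcon
      have h1 : B.orthogonal S ≤ S := hcon
      have h3 := Submodule.finrank_mono h1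
      omega
    have hx0U := h.mem_orth _ _ hx0T
    obtain ⟨ℓ, hℓx, hℓ⟩ := Submodule.exists_le_ker_of_notMem hx0S
    set m := (LinearMap.BilinForm.toDual B hB).symm ℓ with hm
    have hm' : ∀ x, B m x = ℓ x := fun x => LinearMap.BilinForm.apply_toDual_symm_apply ℓ x
    obtain ⟨y, hy, hQy⟩ := h.exists_ns hB (insert x0 (insert m U)) (by
      have h1 := Finset.card_insert_le x0 (insert m U)
      have h3 := Finset.card_insert_le m U
      omega)
    have hchar : ringChar K = 2 := by
      have : CharP K 2 := CharTwo.of_one_ne_zero_of_two_eq_zero one_ne_zero h2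
      exact ringChar.eq K 2
    obtain ⟨c, hc⟩ := FiniteField.isSquare_of_char_two hchar (Q x0 / Q y)
    refine ⟨x0 + c • y, fun u hu => ?_, ?_, ?_⟩
    · rw [map_add, map_smul, LinearMap.add_apply, LinearMap.smul_apply, hx0U u hu,
        hy u (by simp [hu])]
      simp
    · rw [h.add, h.smul, map_smul, h.symm, hy x0 (by simp), pow_two, ← hc]
      field_simp
      linear_combination Q x0 * h2
    · intro hmem
      have h3 : ℓ (x0 + c • y) = 0 := LinearMap.mem_ker.1 (hℓ hmem)
      rw [map_add, map_smul, ← hm' y, h.symm, hy m (by simp), smul_zero, add_zero] at h3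
      exact hℓx h3
  · obtain ⟨t, ht, hQt⟩ := h.exists_ns hB U (by omega)
    obtain ⟨w, hw, hww⟩ := h.exists_perp hB (insert t U) (by
      have h1 := Finset.card_insert_le t U
      omega) (- Q t)
    refine ⟨t + w, fun u hu => ?_, ?_, ?_⟩
    · rw [map_add, LinearMap.add_apply, ht u hu, hw u (by simp [hu]), add_zero]
    · rw [h.add, hww, h.symm, hw t (by simp)]
      ring
    · intro hmem
      have h3 : B t (t + w) = 0 := by
        have : ∀ z ∈ Submodule.span K (U : Set V), B t z = 0 := by
          intro z hz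
          induction hz using Submodule.span_induction with
          | mem z hz => exact ht z hz
          | zero => simp
          | add a b _ _ ha hb => rw [map_add, ha, hb, add_zero]
          | smul c a _ ha => rw [map_smul, ha, smul_zero]
        exact this _ hmem
      rw [map_add, h.self, h.symm, hw t (by simp), add_zero] at h3
      rcases mul_eq_zero.1 h3 with h4 | h4
      · exact h2 h4
      · exact hQt h4

/-- the Eichler (Siegel) transformation -/
noncomputable def eich (h : QF B Q) (u w : V) (hu : Q u = 0) (huw : B u w = 0) : V ≃ₗ[K] V :=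
  LinearEquiv.transvection (f := - B w + Q w • B u) (v := u) (by
    simp [h.symm w u, huw, h.self, hu]) *
  LinearEquiv.transvection (f := B u) (v := w) huw

lemma eich_apply (h : QF B Q) (u w : V) (hu : Q u = 0) (huw : B u w = 0) (x : V) :
    h.eich u w hu huw x = x + B u x • w - B w x • u - (Q w * B u x) • u := by
  simp only [eich, LinearEquiv.mul_apply, LinearEquiv.transvection.apply, map_add, map_smul,
    LinearMap.add_apply, LinearMap.neg_apply, LinearMap.smul_apply, smul_eq_mul, h.self, huw]
  module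

lemma eich_Q (h : QF B Q) (u w : V) (hu : Q u = 0) (huw : B u w = 0) (x : V) :
    Q (h.eich u w hu huw x) = Q x := by
  have e : h.eich u w hu huw x = x + (B u x • w + (- B w x - Q w * B u x) • u) := by
    rw [eich_apply]; module
  rw [e, h.add, h.add, h.smul, h.smul, hu]
  simp only [map_add, map_smul, LinearMap.smul_apply, smul_eq_mul, h.symm w u, huw, h.symm x w,
    h.symm x u]
  ring

lemma eich_det [FiniteDimensional K V] (h : QF B Q) (u w : V) (hu : Q u = 0) (huw : B u w = 0) :
    LinearMap.det ((h.eich u w hu huw : V ≃ₗ[K] V) : V →ₗ[K] V) = 1 := by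
  have : ((h.eich u w hu huw : V ≃ₗ[K] V) : V →ₗ[K] V) =
      (LinearMap.transvection (- B w + Q w • B u) u) * (LinearMap.transvection (B u) w) := by
    ext x
    simp [eich, LinearMap.transvection.apply]
  rw [this, map_mul, LinearMap.transvection.det, LinearMap.transvection.det]
  simp [h.symm w u, huw, h.self, hu]

/-- the reflection in a non-singular vector -/
noncomputable def refl (h : QF B Q) (c : V) (hc : Q c ≠ 0) : V ≃ₗ[K] V :=
  LinearEquiv.ofInvolutive (LinearMap.transvection (-(Q c)⁻¹ • B c) c) (by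
    intro x
    simp only [LinearMap.transvection.apply, map_add, map_smul, LinearMap.smul_apply,
      smul_eq_mul, h.self]
    have : -(Q c)⁻¹ * (2 * Q c) = -2 := by
      field_simp
    rw [this]
    module)

lemma refl_apply (h : QF B Q) (c : V) (hc : Q c ≠ 0) (x : V) :
    h.refl c hc x = x - ((Q c)⁻¹ * B c x) • c := by
  have : h.refl c hc x = LinearMap.transvection (-(Q c)⁻¹ • B c) c x := rfl
  rw [this]
  simp only [LinearMap.transvection.apply, LinearMap.smul_apply, smul_eq_mul]
  module

lemma refl_Q (h : QF B Q) (c : V) (hc : Q c ≠ 0) (x : V) : Q (h.refl c hc x) = Q x := by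
  rw [refl_apply, h.sub, h.smul, map_smul, smul_eq_mul, h.symm x c]
  field_simp
  ring

lemma refl_det [FiniteDimensional K V] (h : QF B Q) (c : V) (hc : Q c ≠ 0) :
    LinearMap.det ((h.refl c hc : V ≃ₗ[K] V) : V →ₗ[K] V) = -1 := by
  have : ((h.refl c hc : V ≃ₗ[K] V) : V →ₗ[K] V) = LinearMap.transvection (-(Q c)⁻¹ • B c) c := by
    ext x
    rfl
  rw [this, LinearMap.transvection.det]
  simp only [LinearMap.smul_apply, smul_eq_mul, h.self]
  field_simp
  ring

lemma refl_fix (h : QF B Q) (c : V) (hc : Q c ≠ 0) (x : V) (hx : B c x = 0) :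
    h.refl c hc x = x := by
  rw [refl_apply, hx]; simp

/-- isometries have determinant `±1` -/
lemma det_isometry [FiniteDimensional K V] (h : QF B Q) (hB : B.Nondegenerate) (g : V ≃ₗ[K] V)
    (hg : ∀ v, Q (g v) = Q v) :
    LinearMap.det (g : V →ₗ[K] V) = 1 ∨ LinearMap.det (g : V →ₗ[K] V) = -1 := by
  classical
  set b := Module.finBasis K V with hb
  have h1 : B.comp (g : V →ₗ[K] V) (g : V →ₗ[K] V) = B := by
    ext x y
    exact h.isoB g hg x y
  have h2 := LinearMap.BilinForm.toMatrix_comp b b B (g : V →ₗ[K] V) (g : V →ₗ[K] V)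
  rw [h1] at h2
  have h3 := congrArg Matrix.det h2
  rw [Matrix.det_mul, Matrix.det_mul, Matrix.det_transpose, LinearMap.det_toMatrix] at h3
  have h4 : (LinearMap.BilinForm.toMatrix b B).det ≠ 0 :=
    (LinearMap.BilinForm.nondegenerate_iff_det_ne_zero b).1 hB
  set d := LinearMap.det (g : V →ₗ[K] V) with hd
  have h5 : (d - 1) * (d + 1) * (LinearMap.BilinForm.toMatrix b B).det = 0 := by
    linear_combination -h3
  rcases mul_eq_zero.1 h5 with h6 | h6
  · rcases mul_eq_zero.1 h6 with h7 | h7
    · left; linear_combination h7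
    · right; linear_combination h7
  · exact absurd h6 h4

/-- Witt's lemma, one step, with determinant one -/
lemma move [FiniteDimensional K V] (h : QF B Q) (hB : B.Nondegenerate) (U : Finset V) (x y : V)
    (hU : 2 * (U.card + 1) < finrank K V)
    (hx : x ∉ Submodule.span K (U : Set V)) (hy : y ∉ Submodule.span K (U : Set V))
    (hQxy : Q y = Q x) (hH : ∀ z ∈ U, B z y = B z x) :
    ∃ g : V ≃ₗ[K] V, (∀ v, Q (g v) = Q v) ∧ LinearMap.det (g : V →ₗ[K] V) = 1 ∧
      (∀ z ∈ U, g z = z) ∧ g x = y := by
  classical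
  obtain ⟨g, hgQ, hgU, hgx⟩ := h.core hB (Submodule.span K (U : Set V)) x y hx hy hQxy (by
    intro z hz
    induction hz using Submodule.span_induction with
    | mem z hz => exact hH z hz
    | zero => simp
    | add a b _ _ ha hb => rw [map_add, LinearMap.add_apply, LinearMap.add_apply, ha, hb]
    | smul c a _ ha => rw [map_smul, LinearMap.smul_apply, LinearMap.smul_apply, ha])
  rcases h.det_isometry hB g hgQ with hd | hd
  · exact ⟨g, hgQ, hd, fun z hz => hgU z (Submodule.subset_span hz), hgx⟩
  · obtain ⟨c, hc, hQc⟩ := h.exists_ns hB (insert y U) (by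
      have := Finset.card_insert_le y U
      omega)
    refine ⟨h.refl c hQc * g, fun v => ?_, ?_, fun z hz => ?_, ?_⟩
    · rw [LinearEquiv.mul_apply, h.refl_Q, hgQ]
    · have : ((h.refl c hQc * g : V ≃ₗ[K] V) : V →ₗ[K] V) =
          ((h.refl c hQc : V ≃ₗ[K] V) : V →ₗ[K] V) * (g : V →ₗ[K] V) := rfl
      rw [this, map_mul, h.refl_det, hd]
      ring
    · rw [LinearEquiv.mul_apply, hgU z (Submodule.subset_span hz), h.refl_fix c hQc z
        (hc z (by simp [hz]))]
    · rw [LinearEquiv.mul_apply, hgx, h.refl_fix c hQc y (hc y (by simp))]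

end QF

end Cfsg.Agent.Lib.Helper95Quad
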