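import Cfsg.Agent.Lib.Helper95SU
import Cfsg.Agent.Lib.Helper95CU

set_option autoImplicit false

namespace Cfsg.Agent.Lib.Helper95SUNd

open Module Cfsg.Agent.Lib.Helper95Herm Cfsg.Agent.Lib.Helper95SU Cfsg.Agent.Lib.Helper95CU

variable {K V : Type*} [Field K] [AddCommGroup V] [Module K V]
variable {σ : K →+* K} {f : V → V → K}

/-- the restriction of a Hermitian form to a nondegenerate subspace -/
lemma herm_sub (h : Herm σ f) (Z : Submodule K V)
    (hZ : ∀ v ∈ Z, v ≠ 0 → ∃ x ∈ Z, f x v ≠ 0) : Herm σ (fun x y : Z => f (x : V) (y : V)) where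
  ne_id := h.ne_id
  invol := h.invol
  add_left x y v := h.add_left x y v
  smul_left c x v := h.smul_left c x v
  herm v w := h.herm v w
  nondeg v hv := by
    obtain ⟨x, hx, hxv⟩ := hZ v v.2 (fun h0 => hv (Subtype.ext h0))
    exact ⟨⟨x, hx⟩, hxv⟩

lemma nd_of_good (h : Herm σ f) {Z : Submodule K V} (hZ : Good h Z) :
    ∀ v ∈ Z, v ≠ 0 → ∃ x ∈ Z, f x v ≠ 0 := by
  intro v hv hv0
  obtain ⟨w, hw⟩ := h.nondeg v hv0
  obtain ⟨y, hy, x, hx, rfl⟩ := hZ w
  refine ⟨y, hy, ?_⟩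
  rwa [h.add_left, hx v hv, add_zero] at hw

lemma good_of_nd [Finite K] [FiniteDimensional K V] (h : Herm σ f) (W : Submodule K V)
    (hW : ∀ v ∈ W, v ≠ 0 → ∃ x ∈ W, f x v ≠ 0) : Good h W := by
  intro w
  obtain ⟨y, hy⟩ := (herm_sub h W hW).fl_surjective ((h.fl w).comp W.subtype)
  refine ⟨y, y.2, w - y, ?_, by abel⟩
  intro u hu
  apply h.swap_zero
  have := congrArg (fun φ : Dual K W => φ ⟨u, hu⟩) hy
  simp only [Herm.fl_apply, LinearMap.comp_apply, Submodule.subtype_apply] at this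
  rw [h.sub_right, this, sub_self]

lemma good_perp (h : Herm σ f) {W : Submodule K V} (hW : Good h W) :
    Good h (h.perp (W : Set V)) := by
  intro w
  obtain ⟨y, hy, x, hx, rfl⟩ := hW w
  exact ⟨x, hx, y, fun u hu => h.swap_zero (hu y hy), by abel⟩

lemma perp_perp (h : Herm σ f) {W : Submodule K V} (hW : Good h W) {x : V}
    (hx : x ∈ h.perp ((h.perp (W : Set V) : Submodule K V) : Set V)) : x ∈ W := by
  obtain ⟨y, hy, x', hx', rfl⟩ := hW x
  have h0 : x' = 0 := by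
    by_contra hne
    obtain ⟨w, hw⟩ := h.nondeg x' hne
    obtain ⟨y2, hy2, x2, hx2, rfl⟩ := hW w
    apply hw
    rw [h.add_left, h.swap_zero (hx' y2 hy2), zero_add]
    have := hx x2 hx2
    rw [h.add_left, h.swap_zero (hx2 y hy), zero_add] at this
    exact h.swap_zero this
  rw [h0, add_zero]
  exact hy

lemma finrank_good [FiniteDimensional K V] (h : Herm σ f) {W : Submodule K V} (hW : Good h W) :
    finrank K W + finrank K (h.perp (W : Set V)) = finrank K V := by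
  apply Submodule.finrank_add_eq_of_isCompl
  constructor
  · rw [Submodule.disjoint_def]
    intro x hx hx'
    by_contra hne
    obtain ⟨y, hy, hyx⟩ := nd_of_good h hW x hx hne
    exact hyx (h.swap_zero (hx' y hy))
  · rw [codisjoint_iff, eq_top_iff]
    intro w _
    obtain ⟨y, hy, x, hx, rfl⟩ := hW w
    exact Submodule.add_mem_sup hy hx

/-- every vector is a sum of two isotropic vectors -/
lemma iso_sum [Finite K] [FiniteDimensional K V] (h : Herm σ f) (hdim : 3 ≤ finrank K V) (v : V) :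
    ∃ u1 u2, f u1 u1 = 0 ∧ f u2 u2 = 0 ∧ v = u1 + u2 := by
  classical
  obtain ⟨α, hα⟩ := h.trace_surj 1 (map_one σ)
  obtain ⟨y, hy, hyy⟩ := h.exists_perp {v} (by simp; omega) (- (α * σ α * f v v)) (by
    rw [map_neg, map_mul, map_mul, h.invol, h.self_fix]; ring)
  have hyv : f y v = 0 := hy v (by simp)
  have hvy : f v y = 0 := h.swap_zero hyv
  refine ⟨α • v + y, (1 - α) • v - y, ?_, ?_, by module⟩
  · rw [h.add_left, h.add_right, h.add_right, h.smul_left, h.smul_left, h.smul_right, h.smul_right,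
      hyv, hvy, hyy]
    ring
  · rw [h.sub_left, h.sub_right, h.sub_right, h.smul_left, h.smul_left, h.smul_right, h.smul_right,
      hyv, hvy, hyy, map_sub, map_one]
    linear_combination (- f v v) * hα

variable {M : Subgroup (V ≃ₗ[K] V)}

/-- transvections of a subspace move the `Z`-component of elements of `CU` -/
lemma mob_aux (h : Herm σ f) (Z : Submodule K V)
    (hZ : ∀ v ∈ Z, v ≠ 0 → ∃ x ∈ Z, f x v ≠ 0)
    (hMiso : ∀ e ∈ M, ∀ x y, f (e x) (e y) = f x y)
    (hZC : ∀ v ∈ Z, f v v = 0 → v ∈ CU h M) (a : V) (ha : a ∈ h.perp (Z : Set V))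
    (t : Z ≃ₗ[K] Z) (ht : t ∈ TT (herm_sub h Z hZ)) :
    ∀ b : Z, a + (b : V) ∈ CU h M ↔ a + ((t b : Z) : V) ∈ CU h M := by
  induction ht using Subgroup.closure_induction with
  | mem e he =>
    obtain ⟨v, z, hv, hz, rfl⟩ := he
    have key : ∀ (z : K), z + σ z = 0 → ∀ b : Z, a + (b : V) ∈ CU h M →
        a + (((herm_sub h Z hZ).utv v z hv b : Z) : V) ∈ CU h M := by
      intro z hz b hb
      have h1 := CU_line h hMiso (hZC v v.2 hv) hb z hz
      rw [h.add_left, ha v v.2, zero_add] at h1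
      rw [(herm_sub h Z hZ).utv_apply]
      simpa [add_assoc] using h1
    intro b
    refine ⟨key z hz b, fun hb => ?_⟩
    have h2 := key (-z) (by rw [map_neg]; linear_combination - hz) _ hb
    have h3 : (herm_sub h Z hZ).utv v (-z) hv ((herm_sub h Z hZ).utv v z hv b) = b := by
      rw [(herm_sub h Z hZ).utv_apply, (herm_sub h Z hZ).utv_apply,
        (herm_sub h Z hZ).add_left, (herm_sub h Z hZ).smul_left]
      have hv' : f (v : V) (v : V) = 0 := hv
      rw [hv']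
      module
    rwa [h3] at h2
  | one => intro b; rfl
  | mul x y _ _ hx hy =>
    intro b
    rw [hy b, hx (y b)]
    rfl
  | inv x _ hx =>
    intro b
    rw [hx (x⁻¹ b)]
    have : x (x⁻¹ b) = b := x.apply_symm_apply b
    rw [this]

lemma mob [Finite K] [FiniteDimensional K V] (h : Herm σ f) (Z : Submodule K V) (hZ : Good h Z)
    (h7 : 7 ≤ finrank K Z) (hMiso : ∀ e ∈ M, ∀ x y, f (e x) (e y) = f x y)
    (hZC : ∀ v ∈ Z, f v v = 0 → v ∈ CU h M) (a : V) (ha : a ∈ h.perp (Z : Set V))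
    (b b' : V) (hb : b ∈ Z) (hb' : b' ∈ Z) (hN : f b' b' = f b b) (hb0 : f b b ≠ 0)
    (hab : a + b ∈ CU h M) : a + b' ∈ CU h M := by
  obtain ⟨t, ht, htb⟩ := TT_move (herm_sub h Z (nd_of_good h hZ)) h7 ⟨b, hb⟩ ⟨b', hb'⟩ hN hb0
  have := (mob_aux h Z (nd_of_good h hZ) hMiso hZC a ha t ht ⟨b, hb⟩).1 hab
  rwa [htb] at this

lemma grow [Finite K] [FiniteDimensional K V] (h : Herm σ f) (Z : Submodule K V) (hZ : Good h Z)
    (h7 : 7 ≤ finrank K Z) (hMiso : ∀ e ∈ M, ∀ x y, f (e x) (e y) = f x y)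
    (hZC : ∀ v ∈ Z, f v v = 0 → v ∈ CU h M) (e : V) (he : e ∈ h.perp (Z : Set V))
    (hee : f e e ≠ 0) (b : V) (hb : b ∈ Z) (heb : e + b ∈ CU h M) :
    ∀ v ∈ Z ⊔ Submodule.span K {e}, f v v = 0 → v ∈ CU h M := by
  intro v hv hvv
  obtain ⟨b', hb', z, hz, rfl⟩ := Submodule.mem_sup.1 hv
  obtain ⟨c, rfl⟩ := Submodule.mem_span_singleton.1 hz
  by_cases hc : c = 0
  · subst hc
    rw [zero_smul, add_zero] at hvv ⊢
    exact hZC b' hb' hvv
  · have h1 := CU_iso h heb
    rw [h.add_left, h.add_right, h.add_right, he b hb, h.swap_zero (he b hb)] at h1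
    rw [h.add_left, h.add_right, h.add_right, h.smul_left, h.smul_left, h.smul_right, h.smul_right,
      he b' hb', h.swap_zero (he b' hb')] at hvv
    have hσc : σ c ≠ 0 := by
      intro h0
      apply hc
      rw [← h.invol c, h0, map_zero]
    have hbb : f b b ≠ 0 := by
      intro h0
      apply hee
      linear_combination h1 - h0
    have h2 := mob h Z hZ h7 hMiso hZC e he b (c⁻¹ • b') hb (Z.smul_mem _ hb') (by
      rw [h.smul_left, h.smul_right, map_inv₀]
      field_simp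
      linear_combination hvv - (c * σ c) * h1) hbb heb
    have h3 := CU_smul h h2 c
    rw [smul_add, smul_smul, mul_inv_cancel₀ hc, one_smul, add_comm] at h3
    exact h3

theorem grow_all [Finite K] [FiniteDimensional K V] (h : Herm σ f)
    (hMiso : ∀ e ∈ M, ∀ x y, f (e x) (e y) = f x y) : ∀ (d : ℕ) (Z : Submodule K V), Good h Z →
    7 ≤ finrank K Z → (∀ v ∈ Z, f v v = 0 → v ∈ CU h M) →
    (∀ e ∈ h.perp (Z : Set V), f e e ≠ 0 → ∃ b ∈ Z, e + b ∈ CU h M) →
    finrank K (h.perp (Z : Set V)) ≤ d → ∀ v, f v v = 0 → v ∈ CU h M := by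
  intro d
  induction d with
  | zero =>
    intro Z hZ _ hZC _ hd v hv
    have hbot : h.perp (Z : Set V) = ⊥ := Submodule.finrank_eq_zero.1 (by omega)
    obtain ⟨y, hy, x, hx, rfl⟩ := hZ v
    rw [hbot, Submodule.mem_bot] at hx
    subst hx
    rw [add_zero] at hv ⊢
    exact hZC y hy hv
  | succ d ih =>
    intro Z hZ h7 hZC hA hd
    by_cases hbot : h.perp (Z : Set V) = ⊥
    · exact ih Z hZ h7 hZC hA (by rw [hbot]; simp)
    · obtain ⟨e, he, hee⟩ := exists_ns_perp h hZ hbot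
      obtain ⟨b, hb, heb⟩ := hA e he hee
      have hle : h.perp ((Z ⊔ Submodule.span K {e} : Submodule K V) : Set V) ≤
          h.perp (Z : Set V) := fun x hx y hy => hx y (Submodule.mem_sup_left hy)
      refine ih (Z ⊔ Submodule.span K {e}) (good_sup h hZ e he hee)
        (h7.trans (Submodule.finrank_mono le_sup_left))
        (grow h Z hZ h7 hMiso hZC e he hee b hb heb) ?_ ?_
      · intro e' he' hee'
        obtain ⟨b', hb', h1⟩ := hA e' (hle he') hee'
        exact ⟨b', Submodule.mem_sup_left hb', h1⟩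
      · have hlt : h.perp ((Z ⊔ Submodule.span K {e} : Submodule K V) : Set V) <
            h.perp (Z : Set V) := by
          refine lt_of_le_of_ne hle ?_
          intro heq
          rw [← heq] at he
          exact hee (he e (Submodule.mem_sup_right (Submodule.mem_span_singleton_self e)))
        have := Submodule.finrank_lt_finrank_of_lt hlt
        omega

lemma not_mem_span_empty' {U : Type*} [AddCommGroup U] [Module K U] (y : U) (hy : y ≠ 0) :
    y ∉ Submodule.span K ((∅ : Finset U) : Set U) := by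
  simpa using hy

lemma exists_mixed [Finite K] [FiniteDimensional K V] (h : Herm σ f) (W : Submodule K V)
    (hW : Good h W) (h7 : 7 ≤ finrank K (h.perp (W : Set V)))
    (hlt : finrank K W < finrank K (h.perp (W : Set V)))
    (hMiso : ∀ e ∈ M, ∀ x y, f (e x) (e y) = f x y)
    (hYC : ∀ v ∈ h.perp (W : Set V), f v v = 0 → v ∈ CU h M)
    (g : V ≃ₗ[K] V) (hgM : g ∈ M) (hg : ¬ ∀ x ∈ W, g x ∈ W) :
    ∃ a ∈ W, ∃ b ∈ h.perp (W : Set V), a ≠ 0 ∧ b ≠ 0 ∧ a + b ∈ CU h M := by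
  classical
  by_contra hcon
  push Not at hcon
  set Y := h.perp (W : Set V) with hYdef
  have hgiso := hMiso g hgM
  have hY := herm_sub h Y (nd_of_good h (good_perp h hW))
  have key : ∀ y ∈ Y, f y y = 0 → g y ∈ W ∨ g y ∈ Y := by
    intro y hy hyy
    have h1 : g y ∈ CU h M := CU_map h (hYC y hy hyy) g hgM hgiso
    obtain ⟨a, ha, b, hb, hab⟩ := hW (g y)
    by_cases ha0 : a = 0
    · right
      rw [hab, ha0, zero_add]; exact hb
    · by_cases hb0 : b = 0
      · left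
        rw [hab, hb0, add_zero]; exact ha
      · exact absurd (hab ▸ h1) (hcon a ha b hb ha0 hb0)
  have hsum : ∀ (T : Submodule K V), (∀ y ∈ Y, f y y = 0 → g y ∈ T) → ∀ y ∈ Y, g y ∈ T := by
    intro T hT y hy
    obtain ⟨u1, u2, h1, h2, h3⟩ := iso_sum hY (by omega) ⟨y, hy⟩
    have h4 : y = (u1 : V) + (u2 : V) := congrArg Subtype.val h3
    rw [h4, map_add]
    exact T.add_mem (hT u1 u1.2 h1) (hT u2 u2.2 h2)
  have hcases : (∀ y ∈ Y, f y y = 0 → g y ∈ Y) ∨ (∀ y ∈ Y, f y y = 0 → g y ∈ W) := by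
    by_contra hno
    push Not at hno
    obtain ⟨⟨y1, hy1, hy11, hgy1⟩, ⟨y2, hy2, hy22, hgy2⟩⟩ := hno
    have hy10 : (⟨y1, hy1⟩ : Y) ≠ 0 := by
      intro h0
      have : y1 = 0 := congrArg Subtype.val h0
      apply hgy1
      rw [this, map_zero]; exact Y.zero_mem
    have hy20 : (⟨y2, hy2⟩ : Y) ≠ 0 := by
      intro h0
      have : y2 = 0 := congrArg Subtype.val h0
      apply hgy2
      rw [this, map_zero]; exact W.zero_mem
    obtain ⟨x, -, hx1, hx2, hxx⟩ := hY.exists_iso ∅ ⟨y1, hy1⟩ ⟨y2, hy2⟩ (by simp; omega)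
      (not_mem_span_empty' _ hy10) (not_mem_span_empty' _ hy20) 0 (map_zero σ)
    have hgy1W : g y1 ∈ W := (key y1 hy1 hy11).resolve_right hgy1
    have hgy2Y : g y2 ∈ Y := (key y2 hy2 hy22).resolve_left hgy2
    rcases key x x.2 hxx with hgx | hgx
    · apply hx2
      show f (x : V) y2 = 0
      rw [← hgiso]
      exact h.swap_zero (hgy2Y _ hgx)
    · apply hx1
      show f (x : V) y1 = 0
      rw [← hgiso]
      exact hgx _ hgy1W
  rcases hcases with hc | hc
  · apply hg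
    have h1 : ∀ y ∈ Y, g y ∈ Y := hsum Y hc
    have h2 : Y.map (g : V →ₗ[K] V) = Y := by
      apply Submodule.eq_of_le_of_finrank_eq
      · rintro _ ⟨y, hy, rfl⟩
        exact h1 y hy
      · rw [LinearEquiv.finrank_map_eq]
    intro x hx
    apply perp_perp h hW
    intro y hy
    rw [SetLike.mem_coe, ← hYdef, ← h2] at hy
    obtain ⟨y', hy', rfl⟩ := hy
    show f (g x) (g y') = 0
    rw [hgiso]
    exact h.swap_zero (hy' x hx)
  · have h1 : ∀ y ∈ Y, g y ∈ W := hsum W hc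
    have h2 : Y.map (g : V →ₗ[K] V) ≤ W := by
      rintro _ ⟨y, hy, rfl⟩
      exact h1 y hy
    have h3 := Submodule.finrank_mono h2
    rw [LinearEquiv.finrank_map_eq] at h3
    omega

lemma exists_norm_one (h : Herm σ f) : ∃ l : K, l ≠ 0 ∧ l ≠ 1 ∧ l * σ l = 1 := by
  obtain ⟨a, ha⟩ := Cfsg.Agent.Lib.Helper17Herm.exists_ne_fix σ h.ne_id
  have ha0 : a ≠ 0 := by
    rintro rfl
    exact ha (map_zero σ)
  have hσa : σ a ≠ 0 := by
    intro h0
    apply ha0
    rw [← h.invol a, h0, map_zero]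
  refine ⟨a / σ a, div_ne_zero ha0 hσa, ?_, ?_⟩
  · intro h1
    rw [div_eq_one_iff_eq hσa] at h1
    exact ha h1.symm
  · rw [map_div₀, h.invol]
    field_simp

lemma exists_four [Finite K] [FiniteDimensional K V] (h : Herm σ f) (W : Submodule K V)
    (hW : Good h W) (h7 : 7 ≤ finrank K (h.perp (W : Set V)))
    (hM : ∀ e : V ≃ₗ[K] V, (∀ u v, f (e u) (e v) = f u v) →
      LinearMap.det (e : V →ₗ[K] V) = 1 → (∀ x ∈ W, e x ∈ W) → e ∈ M)
    (hMiso : ∀ e ∈ M, ∀ x y, f (e x) (e y) = f x y)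
    (a b : V) (ha : a ∈ W) (hb : b ∈ h.perp (W : Set V)) (ha0 : a ≠ 0) (hb0 : b ≠ 0)
    (hab : a + b ∈ CU h M) :
    ∃ a' ∈ W, ∃ b' ∈ h.perp (W : Set V), f a' a' ≠ 0 ∧ a' + b' ∈ CU h M := by
  classical
  by_cases haa : f a a = 0
  swap
  · exact ⟨a, ha, b, hb, haa, hab⟩
  set Y := h.perp (W : Set V) with hYdef
  have hY := herm_sub h Y (nd_of_good h (good_perp h hW))
  have hYW : ∀ y ∈ Y, ∀ w ∈ W, f y w = 0 := fun y hy w hw => hy w hw
  have hWY : ∀ w ∈ W, ∀ y ∈ Y, f w y = 0 := fun w hw y hy => h.swap_zero (hy w hw)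
  have hbb : f b b = 0 := by
    have h1 := CU_iso h hab
    rw [h.add_left, h.add_right, h.add_right, hWY a ha b hb, hYW b hb a ha, haa] at h1
    linear_combination h1
  -- the isotropic vector `u`
  obtain ⟨w, hw, hwa⟩ := nd_of_good h hW a ha ha0
  have haw : f a w ≠ 0 := h.swap_ne hwa
  obtain ⟨t, ht⟩ := h.trace_surj (- f w w) (by rw [map_neg, h.self_fix])
  set u := w + (t / f a w) • a with hu
  have huW : u ∈ W := W.add_mem hw (W.smul_mem _ ha)
  have huu : f u u = 0 := by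
    rw [hu, h.add_left, h.add_right, h.add_right, h.smul_left, h.smul_left, h.smul_right,
      h.smul_right, haa, h.herm w a, ← map_mul]
    have : t / f a w * f a w = t := by field_simp
    rw [this]
    linear_combination ht
  set p := f a u with hp
  have hp0 : p ≠ 0 := by
    rw [hp, hu, h.add_right, h.smul_right, haa, mul_zero, add_zero]
    exact haw
  obtain ⟨z0, hz0, hz0'⟩ := h.exists_z
  have hσz0 : σ z0 = - z0 := by linear_combination hz0'
  -- `d`, `d'`
  have hb0' : (⟨b, hb⟩ : Y) ≠ 0 := fun h0 => hb0 (congrArg Subtype.val h0)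
  obtain ⟨d, -, hdb, -, hdd⟩ := hY.exists_iso ∅ ⟨b, hb⟩ ⟨b, hb⟩ (by simp; omega)
    (not_mem_span_empty' _ hb0') (not_mem_span_empty' _ hb0') 1 (map_one σ)
  obtain ⟨d', hd', hdd'⟩ := hY.exists_perp {d, ⟨b, hb⟩} (by
    have : ({d, ⟨b, hb⟩} : Finset Y).card ≤ 2 := Finset.card_le_two
    omega) 1 (map_one σ)
  have hdd1 : f (d : V) (d : V) = 1 := hdd
  have hdd1' : f (d' : V) (d' : V) = 1 := hdd'
  have hd'b : f (d' : V) b = 0 := hd' ⟨b, hb⟩ (by simp)
  have hbd' : f b (d' : V) = 0 := h.swap_zero hd'b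
  set r := f b (d : V) with hr
  have hr0 : r ≠ 0 := h.swap_ne hdb
  obtain ⟨l, hl0, hl1, hlN⟩ := exists_norm_one h
  have hdne : f (d : V) (d : V) ≠ 0 := by rw [hdd1]; exact one_ne_zero
  have hdne' : f (d' : V) (d' : V) ≠ 0 := by rw [hdd1']; exact one_ne_zero
  have hσl : σ l ≠ 0 := by
    intro h0
    rw [h0, mul_zero] at hlN
    exact zero_ne_one hlN
  have hlN' : l⁻¹ * σ l⁻¹ = 1 := by
    rw [map_inv₀]
    field_simp
    linear_combination - hlN
  -- elements of `M`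
  have hT : h.utv u z0 huu ∈ M := by
    refine hM _ (h.utv_isometry u z0 huu hz0') (h.utv_det u z0 huu) ?_
    intro x hx
    rw [h.utv_apply]
    exact W.add_mem hx (W.smul_mem _ huW)
  set E := qr h (d : V) l hdne hl0 * qr h (d' : V) l⁻¹ hdne' (inv_ne_zero hl0) with hE
  have hEfix : ∀ x ∈ W, E x = x := by
    intro x hx
    rw [hE, LinearEquiv.mul_apply, qr_fix h _ _ _ _ x (hWY x hx d' d'.2),
      qr_fix h _ _ _ _ x (hWY x hx d d.2)]
  have hEM : E ∈ M := by
    refine hM _ ?_ ?_ ?_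
    · intro x y
      rw [hE, LinearEquiv.mul_apply, LinearEquiv.mul_apply, qr_isometry h _ _ _ _ hlN,
        qr_isometry h _ _ _ _ hlN']
    · have : ((E : V ≃ₗ[K] V) : V →ₗ[K] V) =
          ((qr h (d : V) l hdne hl0 : V ≃ₗ[K] V) : V →ₗ[K] V) *
          ((qr h (d' : V) l⁻¹ hdne' (inv_ne_zero hl0) : V ≃ₗ[K] V) : V →ₗ[K] V) := rfl
      rw [this, map_mul, qr_det, qr_det, mul_inv_cancel₀ hl0]
    · intro x hx
      rw [hEfix x hx]; exact hx
  obtain ⟨A2, hA2⟩ : ∃ x, x = a + (z0 * p) • u := ⟨_, rfl⟩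
  obtain ⟨B2, hB2⟩ : ∃ x, x = b + ((l - 1) * r) • (d : V) := ⟨_, rfl⟩
  have hA2W : A2 ∈ W := hA2 ▸ W.add_mem ha (W.smul_mem _ huW)
  have hB2Y : B2 ∈ Y := hB2 ▸ Y.add_mem hb (Y.smul_mem _ d.2)
  have hx2 : A2 + B2 ∈ CU h M := by
    have h1 := CU_map h (CU_map h hab _ hT (hMiso _ hT)) _ hEM (hMiso _ hEM)
    have h2 : h.utv u z0 huu (a + b) = A2 + b := by
      rw [h.utv_apply, h.add_left, hYW b hb u huW, add_zero, hA2]
      abel
    have h3 : E b = B2 := by
      rw [hE, LinearEquiv.mul_apply, qr_fix h _ _ _ _ b hbd', qr_apply, hdd1, div_one, hB2]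
    rw [h2, map_add, hEfix A2 hA2W, h3] at h1
    exact h1
  obtain ⟨φ, hφ⟩ : ∃ x, x = f (a + b) (A2 + B2) := ⟨_, rfl⟩
  have hx3 := CU_line h hMiso hx2 hab z0 hz0'
  rw [← hφ] at hx3
  have e1 : f a A2 = σ z0 * σ p * p := by
    rw [hA2, h.add_right, h.smul_right, haa, map_mul, zero_add]
  have e2 : f A2 a = z0 * p * σ p := by
    rw [h.herm, e1, map_mul, map_mul, h.invol, h.invol]
  have e3 : f A2 A2 = 0 := by
    rw [hA2, h.add_left, h.smul_left, ← hA2, e1, hA2, h.add_right, h.smul_right, huu,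
      h.herm u a, ← hp, hσz0]
    ring
  have e4 : f b B2 = (σ l - 1) * σ r * r := by
    rw [hB2, h.add_right, h.smul_right, hbb, map_mul, map_sub, map_one, zero_add]
  have eφ : φ = σ z0 * σ p * p + (σ l - 1) * σ r * r := by
    rw [hφ, h.add_left, h.add_right, h.add_right, e1, e4, hWY a ha B2 hB2Y, hYW b hb A2 hA2W]
    ring
  refine ⟨a + (z0 * φ) • A2, W.add_mem ha (W.smul_mem _ hA2W), b + (z0 * φ) • B2,
    Y.add_mem hb (Y.smul_mem _ hB2Y), ?_, ?_⟩
  · have e5 : f (a + (z0 * φ) • A2) (a + (z0 * φ) • A2) =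
        p * σ p * z0 ^ 2 * (r * σ r) * (l + σ l - 2) := by
      rw [h.add_left, h.add_right, h.add_right, h.smul_left, h.smul_left, h.smul_right,
        h.smul_right, haa, e1, e2, e3, map_mul, eφ]
      simp only [map_add, map_mul, map_sub, map_one, h.invol, hσz0, map_neg, neg_neg]
      ring
    rw [e5]
    have hσp : σ p ≠ 0 := by
      intro h0
      apply hp0
      rw [← h.invol p, h0, map_zero]
    have hσr : σ r ≠ 0 := by
      intro h0
      apply hr0
      rw [← h.invol r, h0, map_zero]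
    have h6 : l + σ l - 2 ≠ 0 := by
      intro h0
      have h7' : (l - 1) * (σ l - 1) = 0 := by linear_combination hlN - h0
      rcases mul_eq_zero.1 h7' with h8 | h8
      · exact hl1 (by linear_combination h8)
      · apply hl1
        have : σ l = 1 := by linear_combination h8
        rw [← h.invol l, this, map_one]
    exact mul_ne_zero (mul_ne_zero (mul_ne_zero (mul_ne_zero hp0 hσp) (pow_ne_zero 2 hz0))
      (mul_ne_zero hr0 hσr)) h6
  · have : a + (z0 * φ) • A2 + (b + (z0 * φ) • B2) = a + b + (z0 * φ) • (A2 + B2) := by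
      rw [smul_add]; abel
    rw [this]
    exact hx3

lemma exists_all_four [Finite K] [FiniteDimensional K V] (h : Herm σ f) (hdim : 7 ≤ finrank K V)
    (W : Submodule K V) (hW : Good h W) (h7 : 7 ≤ finrank K (h.perp (W : Set V)))
    (hM : ∀ e : V ≃ₗ[K] V, (∀ u v, f (e u) (e v) = f u v) →
      LinearMap.det (e : V →ₗ[K] V) = 1 → (∀ x ∈ W, e x ∈ W) → e ∈ M)
    (hMiso : ∀ e ∈ M, ∀ x y, f (e x) (e y) = f x y)
    (a0 b0 : V) (ha : a0 ∈ W) (hb : b0 ∈ h.perp (W : Set V)) (haa : f a0 a0 ≠ 0)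
    (hab : a0 + b0 ∈ CU h M) :
    ∀ e ∈ W, f e e ≠ 0 → ∃ b ∈ h.perp (W : Set V), e + b ∈ CU h M := by
  classical
  intro e he hee
  set Y := h.perp (W : Set V) with hYdef
  have hY := herm_sub h Y (nd_of_good h (good_perp h hW))
  have hYW : ∀ y ∈ Y, ∀ w ∈ W, f y w = 0 := fun y hy w hw => hy w hw
  have hWY : ∀ w ∈ W, ∀ y ∈ Y, f w y = 0 := fun w hw y hy => h.swap_zero (hy w hw)
  obtain ⟨d, -, hdd⟩ := hY.exists_perp ∅ (by simp; omega) 1 (map_one σ)
  have hdd1 : f (d : V) (d : V) = 1 := hdd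
  have hdne : f (d : V) (d : V) ≠ 0 := by rw [hdd1]; exact one_ne_zero
  obtain ⟨c, hc⟩ := h.norm_surj (f e e / f a0 a0) (by rw [map_div₀, h.self_fix, h.self_fix])
  have hca : f (c • a0) (c • a0) = f e e := by
    rw [h.smul_left, h.smul_right, ← mul_assoc, hc]
    field_simp
  obtain ⟨s, hsi, hse, hsf, hsP⟩ := step h hdim (d : V) hdne e (c • a0) hca.symm (by rw [hca]; exact hee)
  obtain ⟨t, ht, l, hl, hN, hst⟩ := hsP 1 ⟨1, Subgroup.one_mem _, 1, one_ne_zero, by simp,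
    by rw [qr_one, mul_one]⟩
  rw [mul_one] at hst
  have hsY : ∀ y ∈ Y, s y = y := fun y hy =>
    hsf y (hYW y hy e he) (hYW y hy _ (W.smul_mem _ ha))
  have hts : t = s * qr h (d : V) l⁻¹ hdne (inv_ne_zero hl) := by
    rw [hst, mul_assoc, qr_mul]
    have : qr h (d : V) (l * l⁻¹) hdne (mul_ne_zero hl (inv_ne_zero hl)) = 1 := by
      ext x
      rw [qr_apply, mul_inv_cancel₀ hl]
      simp
    rw [this, mul_one]
  have hsW : ∀ x ∈ W, s x ∈ W := by
    intro x hx
    apply perp_perp h hW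
    intro y hy
    rw [← hsY y hy, hsi]
    exact hWY x hx y hy
  have htW : ∀ x ∈ W, t x = s x := by
    intro x hx
    rw [hts, LinearEquiv.mul_apply, qr_fix h _ _ _ _ x (hWY x hx d d.2)]
  have htM : t ∈ M := hM t (TT_isometry h t ht) (TT_det h t ht) (fun x hx => by
    rw [htW x hx]; exact hsW x hx)
  have h1 := CU_map h (CU_smul h hab c) t htM (hMiso t htM)
  have hqY : qr h (d : V) l⁻¹ hdne (inv_ne_zero hl) (c • b0) ∈ Y := by
    rw [qr_apply]
    exact Y.add_mem (Y.smul_mem _ hb) (Y.smul_mem _ d.2)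
  refine ⟨qr h (d : V) l⁻¹ hdne (inv_ne_zero hl) (c • b0), hqY, ?_⟩
  rw [smul_add, map_add, htW _ (W.smul_mem _ ha), hse] at h1
  have h2 : t (c • b0) = qr h (d : V) l⁻¹ hdne (inv_ne_zero hl) (c • b0) := by
    conv_lhs => rw [hts]
    rw [LinearEquiv.mul_apply, hsY _ hqY]
  rwa [h2] at h1

theorem CU_univ_nd [Finite K] [FiniteDimensional K V] (h : Herm σ f) (hdim : 13 ≤ finrank K V)
    (W : Submodule K V) (hWnd : ∀ v ∈ W, v ≠ 0 → ∃ x ∈ W, f x v ≠ 0)
    (hlt : 2 * finrank K W < finrank K V)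
    (hM : ∀ e : V ≃ₗ[K] V, (∀ u v, f (e u) (e v) = f u v) →
      LinearMap.det (e : V →ₗ[K] V) = 1 → (∀ x ∈ W, e x ∈ W) → e ∈ M)
    (hMiso : ∀ e ∈ M, ∀ u v, f (e u) (e v) = f u v)
    (g : V ≃ₗ[K] V) (hgM : g ∈ M) (hg : ¬ ∀ x ∈ W, g x ∈ W) :
    ∀ v, f v v = 0 → v ∈ CU h M := by
  have hW : Good h W := good_of_nd h W hWnd
  have hfr := finrank_good h hW
  have h7 : 7 ≤ finrank K (h.perp (W : Set V)) := by omega
  have hYC : ∀ v ∈ h.perp (W : Set V), f v v = 0 → v ∈ CU h M := by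
    intro r hr hrr
    refine ⟨hrr, fun z hz => hM _ (h.utv_isometry r z hrr hz) (h.utv_det r z hrr) ?_⟩
    intro w hw
    rw [h.utv_apply, h.swap_zero (hr w hw)]
    simpa using hw
  obtain ⟨a, ha, b, hb, ha0, hb0, hab⟩ := exists_mixed h W hW h7 (by omega) hMiso hYC g hgM hg
  obtain ⟨a', ha', b', hb', haa', hab'⟩ := exists_four h W hW h7 hM hMiso a b ha hb ha0 hb0 hab
  have hA := exists_all_four h (by omega) W hW h7 hM hMiso a' b' ha' hb' haa' hab'
  exact grow_all h hMiso _ (h.perp (W : Set V)) (good_perp h hW) h7 hYC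
    (fun e he hee => hA e (perp_perp h hW he) hee) le_rfl

theorem exists_not_stab_nd [Finite K] [FiniteDimensional K V] (h : Herm σ f)
    (hdim : 13 ≤ finrank K V) (W : Submodule K V) (hWnd : ∀ v ∈ W, v ≠ 0 → ∃ x ∈ W, f x v ≠ 0)
    (hlt : 2 * finrank K W < finrank K V) (hW0 : W ≠ ⊥) :
    ∃ e : V ≃ₗ[K] V, (∀ u v, f (e u) (e v) = f u v) ∧ LinearMap.det (e : V →ₗ[K] V) = 1 ∧
      ¬ ∀ x ∈ W, e x ∈ W := by
  classical
  have hW : Good h W := good_of_nd h W hWnd
  have hfr := finrank_good h hW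
  have h7 : 7 ≤ finrank K (h.perp (W : Set V)) := by omega
  set Y := h.perp (W : Set V) with hYdef
  have hY := herm_sub h Y (nd_of_good h (good_perp h hW))
  -- a non-isotropic vector of `W`
  obtain ⟨a, ha, haa⟩ : ∃ a ∈ W, f a a ≠ 0 := by
    obtain ⟨e, he, hee⟩ := exists_ns_perp h (good_perp h hW) (by
      intro h0
      apply hW0
      rw [eq_bot_iff]
      intro x hx
      have : x ∈ h.perp ((h.perp (W : Set V) : Submodule K V) : Set V) :=
        fun u hu => h.swap_zero (hu x hx)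
      rw [h0] at this
      exact this)
    exact ⟨e, perp_perp h hW he, hee⟩
  obtain ⟨b, -, hbb⟩ := hY.exists_perp ∅ (by simp; omega) (- f a a) (by rw [map_neg, h.self_fix])
  have hbb' : f (b : V) (b : V) = - f a a := hbb
  have hba : f (b : V) a = 0 := b.2 a ha
  have hab : f a (b : V) = 0 := h.swap_zero hba
  have hx : f (a + (b : V)) (a + (b : V)) = 0 := by
    rw [h.add_left, h.add_right, h.add_right, hab, hba, hbb']
    ring
  obtain ⟨z0, hz0, hz0'⟩ := h.exists_z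
  refine ⟨h.utv _ z0 hx, h.utv_isometry _ z0 hx hz0', h.utv_det _ z0 hx, fun hall => ?_⟩
  have h1 := hall a ha
  rw [h.utv_apply, h.add_right, hab, add_zero, smul_add, ← add_assoc] at h1
  have h2 : (z0 * f a a) • (b : V) ∈ W := by
    have := W.sub_mem h1 (W.add_mem ha (W.smul_mem (z0 * f a a) ha))
    simpa using this
  have h3 : (b : V) ∈ W := (W.smul_mem_iff (mul_ne_zero hz0 haa)).1 h2
  have h4 : f (b : V) (b : V) = 0 := b.2 _ h3
  rw [hbb'] at h4
  exact haa (by linear_combination - h4)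

end Cfsg.Agent.Lib.Helper95SUNd
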