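import Cfsg.Agent.Lib.Helper96SpMain
import Cfsg.Agent.Lib.Helper95SpTenstwo

set_option autoImplicit false

namespace Cfsg.Agent.Lib.Helper95Sp4FieldU3a

section abstract

variable {F : Type*} [Field F] [Fintype F] {V : Type*} [AddCommGroup V] [Module F V]

lemma cases3' (hq : Fintype.card F = 3) (x : F) : x = 0 ∨ x = 1 ∨ x = -1 := by
  have h := FiniteField.pow_card x
  rw [hq] at h
  have h2 : x * (x - 1) * (x + 1) = 0 := by linear_combination h
  rcases mul_eq_zero.1 h2 with h3 | h3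
  · rcases mul_eq_zero.1 h3 with h4 | h4
    · exact Or.inl h4
    · exact Or.inr (Or.inl (by linear_combination h4))
  · exact Or.inr (Or.inr (by linear_combination h3))

lemma three_zero (hq : Fintype.card F = 3) : (3 : F) = 0 := by
  have h := Nat.cast_card_eq_zero F
  rw [hq] at h
  exact_mod_cast h

lemma two_ne (hq : Fintype.card F = 3) : (2 : F) ≠ 0 := by
  intro h
  have h3 := three_zero hq
  exact one_ne_zero (α := F) (by linear_combination h3 - h)

variable (B : LinearMap.BilinForm F V) (J : V →ₗ[F] V)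

/-- a vector of norm one in a `J`-invariant subspace on which `B` does not vanish -/
lemma exists_norm_one (hq : Fintype.card F = 3) (hA : B.IsAlt) (hJ : ∀ v, J (J v) = -v)
    (hadj : ∀ u v, B (J u) v = - B u (J v)) (W : Submodule F V) (hW : ∀ v ∈ W, J v ∈ W)
    (hne : ∃ a ∈ W, ∃ b ∈ W, B a b ≠ 0) : ∃ u ∈ W, B (J u) u = 1 := by
  have h3 := three_zero hq
  have h2 := two_ne hq
  have hskew : ∀ x y, B x y = - B y x := fun x y => by rw [hA.neg_eq]
  obtain ⟨v, hv, hQ⟩ : ∃ v ∈ W, B (J v) v ≠ 0 := by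
    by_contra hcon
    push Not at hcon
    obtain ⟨a, ha, b, hb, hab⟩ := hne
    apply hab
    have hx : -J a ∈ W := W.neg_mem (hW a ha)
    have h1 := hcon (-J a + b) (W.add_mem hx hb)
    have h4 := hcon (-J a) hx
    have h5 := hcon b hb
    simp only [map_add, map_neg, LinearMap.add_apply, hJ, neg_neg] at h1 h4 h5
    have h6 : B (J b) (J a) = - B a b := by
      rw [hadj, hJ, map_neg, neg_neg, hskew]
    rw [h6] at h1
    have : 2 * B a b = 0 := by linear_combination h1 - h4 - h5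
    exact (mul_eq_zero.1 this).resolve_left h2
  rcases cases3' hq (B (J v) v) with h | h | h
  · exact absurd h hQ
  · exact ⟨v, hv, h⟩
  · refine ⟨v + J v, W.add_mem hv (hW v hv), ?_⟩
    simp only [map_add, LinearMap.add_apply, hJ, map_neg, LinearMap.neg_apply, hA.self_eq_zero]
    have : B v (J v) = 1 := by
      have := hadj v v
      rw [h] at this
      linear_combination this
    rw [h, this]
    linear_combination -h3

/-- the normal form: a `J`-orthonormal basis -/
theorem exists_frame (hq : Fintype.card F = 3) (hd : Module.finrank F V = 4) (hA : B.IsAlt)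
    (hnd : B.Nondegenerate) (hJ : ∀ v, J (J v) = -v) (hadj : ∀ u v, B (J u) v = - B u (J v)) :
    ∃ u₁ u₂ : V, B (J u₁) u₁ = 1 ∧ B (J u₂) u₂ = 1 ∧ B u₂ u₁ = 0 ∧ B u₂ (J u₁) = 0 := by
  have : FiniteDimensional F V := Module.finite_of_finrank_pos (by omega)
  have : Nontrivial V := Module.nontrivial_of_finrank_pos (R := F) (by omega)
  have hskew : ∀ x y, B x y = - B y x := fun x y => by rw [hA.neg_eq]
  obtain ⟨u₁, -, h1⟩ := exists_norm_one B J hq hA hJ hadj ⊤ (fun _ _ => trivial) (by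
    obtain ⟨a, ha⟩ := exists_ne (0 : V)
    by_contra hcon
    push Not at hcon
    exact ha (hnd.1 a (fun b => hcon a trivial b trivial)))
  let W : Submodule F V := LinearMap.ker (B.flip u₁) ⊓ LinearMap.ker (B.flip (J u₁))
  have hWmem : ∀ v, v ∈ W ↔ B v u₁ = 0 ∧ B v (J u₁) = 0 := by
    intro v
    simp [W, Submodule.mem_inf, LinearMap.mem_ker]
  obtain ⟨u₂, hu₂, h2⟩ := exists_norm_one B J hq hA hJ hadj W (by
    intro v hv
    rw [hWmem] at hv ⊢
    refine ⟨by rw [hadj, hv.2, neg_zero], by rw [hadj, hJ, map_neg, hv.1]; simp⟩) (by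
    have hker : LinearMap.ker ((B.flip u₁).prod (B.flip (J u₁))) ≠ ⊥ := by
      apply LinearMap.ker_ne_bot_of_finrank_lt
      rw [Module.finrank_prod, Module.finrank_self, hd]
      norm_num
    obtain ⟨w, hw, hw0⟩ := Submodule.exists_mem_ne_zero_of_ne_bot hker
    rw [LinearMap.mem_ker] at hw
    have hw1 : B w u₁ = 0 := congrArg Prod.fst hw
    have hw2 : B w (J u₁) = 0 := congrArg Prod.snd hw
    obtain ⟨v, hv⟩ : ∃ v, B w v ≠ 0 := by
      by_contra hcon
      push Not at hcon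
      exact hw0 (hnd.1 w hcon)
    have h1' : B u₁ (J u₁) = -1 := by
      have := hadj u₁ u₁
      rw [h1] at this
      linear_combination this
    refine ⟨w, (hWmem w).2 ⟨hw1, hw2⟩, v + (B v (J u₁)) • u₁ - (B v u₁) • J u₁, (hWmem _).2 ⟨?_, ?_⟩, ?_⟩
    · simp only [map_add, map_sub, map_smul, LinearMap.add_apply, LinearMap.sub_apply,
        LinearMap.smul_apply, smul_eq_mul, hA.self_eq_zero, h1]
      ring
    · simp only [map_add, map_sub, map_smul, LinearMap.add_apply, LinearMap.sub_apply,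
        LinearMap.smul_apply, smul_eq_mul, hA.self_eq_zero, h1']
      ring
    · simp only [map_add, map_sub, map_smul, smul_eq_mul, hw1, hw2]
      simpa using hv)
  exact ⟨u₁, u₂, h1, h2, ((hWmem u₂).1 hu₂).1, ((hWmem u₂).1 hu₂).2⟩

end abstract

open Cfsg Cfsg.Geo Matrix
open Cfsg.Agent.Lib.Helper97GBase Cfsg.Agent.Lib.Helper97GCore
  Cfsg.Agent.Lib.Helper98AschGDefs Cfsg.Agent.Lib.Helper98AschGBasic Cfsg.Agent.Lib.Helper96SpDefs
  Cfsg.Agent.Lib.Helper95SpTenstwo Cfsg.Agent.Lib.Helper95Form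
open scoped MatrixGroups Kronecker

variable {ι : Type} [Fintype ι] [DecidableEq ι] {F : Type*} [Field F]
variable {f : (ι → F) → (ι → F) → F}

/-- the element `i` with `i² = -1` and adjoint `-i` -/
lemma exists_i [Fintype F] (hq : Fintype.card F = 3) (hf : IsSymplecticForm f)
    {K : Subalgebra F (Matrix ι ι F)} (hK : IsFieldSubalgebra 2 K)
    (hac : IsAdjointClosedFor f K) (hnsa : ¬ IsSelfAdjointFor f K) :
    ∃ i ∈ K, i * i = -1 ∧ ∀ u v, f (i *ᵥ u) v = - f u (i *ᵥ v) := by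
  have hb := hf.bilinear
  have h2 := two_ne hq
  have hnsa' := hnsa
  unfold IsSelfAdjointFor at hnsa'
  push Not at hnsa'
  obtain ⟨k, hk, u₀, v₀, huv⟩ := hnsa'
  obtain ⟨k', hk', hkk'⟩ := hac k hk
  have hk'k : ∀ u v, f (k' *ᵥ u) v = f u (k *ᵥ v) := by
    intro u v
    rw [hf.skew, ← hkk', hf.skew, neg_neg]
  have hsubl : ∀ a b v, f (a - b) v = f a v - f b v := by
    intro a b v
    have := hb.add_left (a - b) b v
    rw [sub_add_cancel] at this
    rw [this]; ring
  have hsubr : ∀ v a b, f v (a - b) = f v a - f v b := by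
    intro v a b
    have := hb.add_right v (a - b) b
    rw [sub_add_cancel] at this
    rw [this]; ring
  obtain ⟨δ, hδdef⟩ : ∃ δ, δ = k - k' := ⟨_, rfl⟩
  have hδK : δ ∈ K := by rw [hδdef]; exact K.sub_mem hk hk'
  have hδ : ∀ u v, f (δ *ᵥ u) v = - f u (δ *ᵥ v) := by
    intro u v
    rw [hδdef, Matrix.sub_mulVec, Matrix.sub_mulVec, hsubl, hsubr, hkk', hk'k]
    ring
  have hδ0 : δ ≠ 0 := by
    intro h0
    apply huv
    have : k = k' := by rw [← sub_eq_zero, ← hδdef, h0]
    rw [hkk', ← this]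
  obtain ⟨d, hd⟩ := Cfsg.Agent.Lib.Helper97SpFieldeven.selfAdj_scalar hb hK hnsa (K.mul_mem hδK hδK) (by
    intro u v
    rw [← Matrix.mulVec_mulVec, ← Matrix.mulVec_mulVec, hδ, hδ, neg_neg])
  obtain ⟨y, hyK, hy⟩ := hK.inv δ hδK hδ0
  refine ⟨δ, hδK, ?_, hδ⟩
  rcases cases3' hq d with h | h | h
  · exfalso
    rw [h, zero_smul] at hd
    apply hδ0
    calc δ = δ * (δ * y) := by rw [hy, mul_one]
      _ = (δ * δ) * y := by rw [mul_assoc]
      _ = 0 := by rw [hd, zero_mul]
  · exfalso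
    rw [h, one_smul] at hd
    -- δ = ± 1
    have hprod : (δ - 1) * (δ + 1) = 0 := by
      have : (δ - 1) * (δ + 1) = δ * δ - 1 := by noncomm_ring
      rw [this, hd, sub_self]
    have hscal : ∃ c : F, c ≠ 0 ∧ δ = c • (1 : Matrix ι ι F) := by
      by_cases h1 : δ - 1 = 0
      · exact ⟨1, one_ne_zero, by rw [one_smul]; exact sub_eq_zero.1 h1⟩
      · obtain ⟨w, hwK, hw⟩ := hK.inv _ (K.sub_mem hδK K.one_mem) h1
        refine ⟨-1, neg_ne_zero.2 one_ne_zero, ?_⟩
        have hw' : w * (δ - 1) = 1 := by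
          rw [hK.comm w hwK _ (K.sub_mem hδK K.one_mem)]
          exact hw
        have : δ + 1 = 0 := by
          calc δ + 1 = (w * (δ - 1)) * (δ + 1) := by rw [hw', one_mul]
            _ = w * ((δ - 1) * (δ + 1)) := by rw [mul_assoc]
            _ = 0 := by rw [hprod, mul_zero]
        rw [neg_smul, one_smul]
        exact eq_neg_of_add_eq_zero_left this
    obtain ⟨c, hc0, hc⟩ := hscal
    -- then `f = 0`
    apply huv
    have hzero : ∀ u v, f u v = 0 := by
      intro u v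
      have := hδ u v
      rw [hc, Matrix.smul_mulVec, Matrix.smul_mulVec, Matrix.one_mulVec, Matrix.one_mulVec,
        hb.smul_left, hb.smul_right] at this
      have h4 : (2 * c) * f u v = 0 := by linear_combination this
      exact (mul_eq_zero.1 h4).resolve_left (mul_ne_zero h2 hc0)
    rw [hzero, hzero]
  · rw [hd, h, neg_smul, one_smul]

/-- [D_fieldU3a] normal form. -/
theorem fieldU3_normal_form [Fintype F] (hq : Fintype.card F = 3) (hn : Fintype.card ι = 4)
    (hf : IsSymplecticForm f) {K : Subalgebra F (Matrix ι ι F)} (hK : IsFieldSubalgebra 2 K)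
    (hac : IsAdjointClosedFor f K) (hnsa : ¬ IsSelfAdjointFor f K) :
    ∃ (e : ι ≃ Fin 2 × Fin 2) (P : GL ι F), tens e P 1 (J0 F) ∈ K ∧
      ∀ x y : Fin 2 × Fin 2 → F, f ((P : Matrix ι ι F) *ᵥ (x ∘ e)) ((P : Matrix ι ι F) *ᵥ (y ∘ e)) =
        formOfGram id ((1 : Matrix (Fin 2) (Fin 2) F) ⊗ₖ J0 F) x y := by
  classical
  have hb := hf.bilinear
  obtain ⟨i, hiK, hii, hadj⟩ := exists_i hq hf hK hac hnsa
  set B := toBilin f hb with hB
  have hA : B.IsAlt := toBilin_isAlt f hf
  have hiiv : ∀ v, i *ᵥ (i *ᵥ v) = -v := by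
    intro v
    rw [Matrix.mulVec_mulVec, hii, Matrix.neg_mulVec, Matrix.one_mulVec]
  obtain ⟨u₁, u₂, h11, h22, h21, h21'⟩ := exists_frame B (Matrix.toLin' i) hq
    (by rw [Module.finrank_fintype_fun_eq_card, hn]) hA
    (toBilin_nondegenerate f hb hf.nondegenerate)
    (by intro v; simp only [Matrix.toLin'_apply]; exact hiiv v)
    (by intro u v; simp only [Matrix.toLin'_apply]; exact hadj u v)
  simp only [Matrix.toLin'_apply, hB, Helper95Form.toBilin_apply] at h11 h22 h21 h21'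
  have hnl : ∀ a v, f (-a) v = - f a v := by
    intro a v
    have := hb.smul_left (-1) a v
    simpa using this
  have hnr : ∀ v a, f v (-a) = - f v a := by
    intro v a
    have := hb.smul_right (-1) v a
    simpa using this
  -- the table
  have a1 : f u₁ u₁ = 0 := hf.alternating _
  have a2 : f u₁ (i *ᵥ u₁) = -1 := by rw [hf.skew, h11]
  have a4 : f (i *ᵥ u₁) (i *ᵥ u₁) = 0 := hf.alternating _
  have b1 : f u₂ u₂ = 0 := hf.alternating _
  have b2 : f u₂ (i *ᵥ u₂) = -1 := by rw [hf.skew, h22]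
  have b4 : f (i *ᵥ u₂) (i *ᵥ u₂) = 0 := hf.alternating _
  have c3 : f (i *ᵥ u₂) u₁ = 0 := by rw [hadj, h21', neg_zero]
  have c4 : f (i *ᵥ u₂) (i *ᵥ u₁) = 0 := by rw [hadj, hiiv, hnr, h21]; simp
  have d1 : f u₁ u₂ = 0 := by rw [hf.skew, h21, neg_zero]
  have d2 : f u₁ (i *ᵥ u₂) = 0 := by rw [hf.skew, c3, neg_zero]
  have d3 : f (i *ᵥ u₁) u₂ = 0 := by rw [hf.skew, h21', neg_zero]
  have d4 : f (i *ᵥ u₁) (i *ᵥ u₂) = 0 := by rw [hf.skew, c4, neg_zero]
  let Bv : Fin 2 × Fin 2 → ι → F := fun p => ![![u₁, -(i *ᵥ u₁)], ![u₂, -(i *ᵥ u₂)]] p.1 p.2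
  have hG : ∀ p p', f (Bv p) (Bv p') = ((1 : Matrix (Fin 2) (Fin 2) F) ⊗ₖ J0 F) p p' := by
    rintro ⟨j, a⟩ ⟨j', a'⟩
    fin_cases j <;> fin_cases a <;> fin_cases j' <;> fin_cases a' <;>
      simp [Bv, J0, Matrix.kroneckerMap_apply, hnl, hnr, a1, a2, a4, b1, b2, b4, c3, c4, d1, d2, d3,
        d4, h11, h22, h21, h21']
  let e : ι ≃ Fin 2 × Fin 2 := Fintype.equivOfCardEq (by simp [hn])
  let Pm : Matrix ι ι F := Matrix.of fun a b => Bv (e b) a
  have hPm : ∀ x : Fin 2 × Fin 2 → F, Pm *ᵥ (x ∘ e) = ∑ p, x p • Bv p := by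
    intro x
    funext a
    simp only [Matrix.mulVec, dotProduct, Pm, Matrix.of_apply, Function.comp, Finset.sum_apply,
      Pi.smul_apply, smul_eq_mul]
    rw [← Equiv.sum_comp e]
    exact Finset.sum_congr rfl fun b _ => mul_comm _ _
  have hform : ∀ x y : Fin 2 × Fin 2 → F, f (Pm *ᵥ (x ∘ e)) (Pm *ᵥ (y ∘ e)) =
      formOfGram id ((1 : Matrix (Fin 2) (Fin 2) F) ⊗ₖ J0 F) x y := by
    intro x y
    rw [hPm, hPm]
    have h0 : f (∑ p, x p • Bv p) (∑ p, y p • Bv p) = B (∑ p, x p • Bv p) (∑ p, y p • Bv p) := rfl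
    rw [h0]
    simp only [map_sum, LinearMap.sum_apply, map_smul, LinearMap.smul_apply, smul_eq_mul,
      Finset.mul_sum]
    unfold formOfGram
    rw [Finset.sum_comm]
    refine Finset.sum_congr rfl fun p _ => ?_
    refine Finset.sum_congr rfl fun p' _ => ?_
    have h1 : B (Bv p) (Bv p') = f (Bv p) (Bv p') := rfl
    rw [h1, hG, id]
    ring
  have hGdet : IsUnit ((1 : Matrix (Fin 2) (Fin 2) F) ⊗ₖ J0 F).det := by
    rw [Matrix.det_kronecker, Matrix.det_one, one_pow, one_mul]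
    have : (J0 F).det = 1 := by simp [J0, Matrix.det_fin_two]
    rw [this, one_pow]
    exact isUnit_one
  have hdet : IsUnit Pm.det := by
    rw [isUnit_iff_ne_zero]
    intro h0
    obtain ⟨w, hw0, hw⟩ := Matrix.exists_mulVec_eq_zero_iff.2 h0
    have hwe : (w ∘ e.symm) ∘ e = w := by
      funext a; simp
    have hx0 : w ∘ e.symm ≠ 0 := by
      intro h
      apply hw0
      rw [← hwe, h]
      rfl
    obtain ⟨y, hy⟩ :=
      (Cfsg.Agent.Lib.Helper95SpTensodd.formOfGram_nondegenerate _ hGdet _ hx0).2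
    apply hy
    rw [← hform, hwe, hw]
    have := hb.smul_left 0 0 (Pm *ᵥ (y ∘ e))
    simpa using this
  let P : GL ι F := ((Matrix.isUnit_iff_isUnit_det Pm).2 hdet).unit
  have hP : (P : Matrix ι ι F) = Pm := rfl
  refine ⟨e, P, ?_, ?_⟩
  · have : tens e P 1 (J0 F) = i := by
      apply Matrix.toLin'.injective
      apply LinearMap.ext
      intro v
      rw [Matrix.toLin'_apply, Matrix.toLin'_apply]
      obtain ⟨x, rfl⟩ := Helper95SpTenstwo.exists_coords e P v
      unfold tens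
      rw [Helper95SpTenstwo.conj_reindex_mulVec, hP, hPm, hPm]
      simp only [Fintype.sum_prod_type, Fin.sum_univ_two, Matrix.mulVec_add, Matrix.mulVec_smul]
      simp [Bv, Matrix.mulVec, dotProduct, Fintype.sum_prod_type, Fin.sum_univ_two,
        Matrix.kroneckerMap_apply, J0, Matrix.one_apply]
      rw [Matrix.mulVec_neg, Matrix.mulVec_neg, hiiv, hiiv, neg_neg, neg_neg]
      abel
    rw [this]
    exact hiK
  · intro x y
    rw [hP]
    exact hform x y

end Cfsg.Agent.Lib.Helper95Sp4FieldU3a
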