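import Cfsg.Agent.Lib.Helper97CField

set_option autoImplicit false
set_option linter.unusedSectionVars false

namespace Cfsg.Agent.Lib.Helper97CBurn

open Cfsg Cfsg.Geo Matrix Cfsg.Agent.Lib.Helper97GBase Cfsg.Agent.Lib.Helper97GClifford
open scoped MatrixGroups

variable {ι : Type} [Fintype ι] [DecidableEq ι] {F : Type*} [Field F]

/-- Burnside's theorem: an absolutely irreducible set of matrices generates the full matrix algebra -/
theorem adjoin_eq_top [Nonempty ι] {S : Set (Matrix ι ι F)} (hS : ActsAbsolutelyIrreducibly S) :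
    Algebra.adjoin F S = ⊤ := by
  classical
  set A := Algebra.adjoin F S with hA
  let φ : A →+* Module.End F (ι → F) := ((Matrix.toLinAlgEquiv' : Matrix ι ι F ≃ₐ[F] _).toAlgHom.comp A.val).toRingHom
  letI : Module A (ι → F) := Module.compHom (ι → F) φ
  have hsmul : ∀ (a : A) (v : ι → F), a • v = (a : Matrix ι ι F) *ᵥ v := by
    intro a v
    rfl
  have hsmulF : ∀ (c : F) (v : ι → F), c • v = (algebraMap F A c) • v := by
    intro c v
    rw [hsmul]
    have : ((algebraMap F A c : A) : Matrix ι ι F) = c • (1 : Matrix ι ι F) := by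
      rw [← Algebra.algebraMap_eq_smul_one]
      rfl
    rw [this, Matrix.smul_mulVec, Matrix.one_mulVec]
  have hkey : ∀ N : Submodule A (ι → F), N = ⊥ ∨ N = ⊤ := by
    intro N
    let W : Submodule F (ι → F) :=
      { carrier := N
        add_mem' := fun ha hb => N.add_mem ha hb
        zero_mem' := N.zero_mem
        smul_mem' := fun c v hv => by
          rw [hsmulF]
          exact N.smul_mem _ hv }
    have hW : ∀ s ∈ S, W.map (Matrix.toLin' s) ≤ W := by
      rintro s hs _ ⟨w, hw, rfl⟩
      rw [Matrix.toLin'_apply]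
      exact N.smul_mem ⟨s, Algebra.subset_adjoin hs⟩ hw
    rcases hS.1 W hW with h | h
    · left
      rw [Submodule.eq_bot_iff]
      intro x hx
      have : x ∈ W := hx
      rwa [h, Submodule.mem_bot] at this
    · right
      rw [eq_top_iff]
      intro x _
      have : x ∈ W := by rw [h]; exact Submodule.mem_top
      exact this
  have hord : IsSimpleOrder (Submodule A (ι → F)) := ⟨hkey⟩
  have hsimple : IsSimpleModule A (ι → F) := { toIsSimpleOrder := hord }
  have hscalar : ∀ ψ : Module.End A (ι → F), ∃ c : F, ∀ v, ψ v = c • v := by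
    intro ψ
    let ψF : (ι → F) →ₗ[F] (ι → F) :=
      { toFun := ψ
        map_add' := ψ.map_add
        map_smul' := fun c v => by
          rw [hsmulF, map_smul, RingHom.id_apply, ← hsmulF] }
    have hM : ∀ v, LinearMap.toMatrix' ψF *ᵥ v = ψ v := by
      intro v
      rw [← Matrix.toLin'_apply, Matrix.toLin'_toMatrix']
      rfl
    obtain ⟨c, hc⟩ := hS.2 (LinearMap.toMatrix' ψF) (by
      intro s hs
      apply matrix_eq_of_mulVec_eq
      intro v
      rw [← Matrix.mulVec_mulVec, ← Matrix.mulVec_mulVec, hM, hM]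
      exact ψ.map_smul ⟨s, Algebra.subset_adjoin hs⟩ v)
    refine ⟨c, fun v => ?_⟩
    rw [← hM, hc, Matrix.smul_mulVec, Matrix.one_mulVec]
  rw [eq_top_iff]
  intro g _
  let f : Module.End (Module.End A (ι → F)) (ι → F) :=
    { toFun := fun v => g *ᵥ v
      map_add' := fun a b => Matrix.mulVec_add g a b
      map_smul' := fun ψ v => by
        obtain ⟨c, hc⟩ := hscalar ψ
        simp only [Module.End.smul_def, RingHom.id_apply, hc, Matrix.mulVec_smul] }
  obtain ⟨a, ha⟩ := jacobson_density f (Finset.univ.image (fun i : ι => (Pi.single i 1 : ι → F)))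
  have : g = (a : Matrix ι ι F) := by
    ext i j
    have h1 := ha (Pi.single j 1) (Finset.mem_image.mpr ⟨j, Finset.mem_univ j, rfl⟩)
    have h2 : g *ᵥ Pi.single j 1 = (a : Matrix ι ι F) *ᵥ Pi.single j 1 := h1
    have h3 := congrFun h2 i
    simpa [Matrix.mulVec_single_one] using h3
  rw [this]
  exact a.2

end Cfsg.Agent.Lib.Helper97CBurn
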