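import Cfsg.Agent.Lib.Helper97CTensor
import Cfsg.Agent.Lib.Helper97CBurn

set_option autoImplicit false
set_option linter.unusedSectionVars false

namespace Cfsg.Agent.Lib.Helper97CAlg

open Cfsg Cfsg.Geo Matrix Cfsg.Agent.Lib.Helper97GBase Cfsg.Agent.Lib.Helper97CField
  Cfsg.Agent.Lib.Helper97CKron Cfsg.Agent.Lib.Helper97CLoc Cfsg.Agent.Lib.Helper97CBlocks
  Cfsg.Agent.Lib.Helper97GClifford Cfsg.Agent.Lib.Helper97CTensor Cfsg.Agent.Lib.Helper97CBurn
open scoped MatrixGroups Kronecker

variable {ι : Type} [Fintype ι] [DecidableEq ι] {F : Type*} [Field F]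
variable {κ : Type} [Fintype κ] [DecidableEq κ]

/-- converse of Burnside's theorem -/
lemma absIrred_of_adjoin_eq_top {S : Set (Matrix ι ι F)} (h : Algebra.adjoin F S = ⊤) :
    ActsAbsolutelyIrreducibly S := by
  classical
  constructor
  · intro W hW
    have hall : ∀ M : Matrix ι ι F, ∀ w ∈ W, M *ᵥ w ∈ W := by
      intro M
      have hM : M ∈ Algebra.adjoin F S := by rw [h]; exact Algebra.mem_top
      induction hM using Algebra.adjoin_induction with
      | mem x hx =>
        intro w hw
        have := hW x hx ⟨w, hw, rfl⟩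
        simpa [Matrix.toLin'_apply] using this
      | algebraMap r =>
        intro w hw
        rw [Algebra.algebraMap_eq_smul_one, Matrix.smul_mulVec, Matrix.one_mulVec]
        exact W.smul_mem r hw
      | add x y _ _ hx hy =>
        intro w hw
        rw [Matrix.add_mulVec]
        exact W.add_mem (hx w hw) (hy w hw)
      | mul x y _ _ hx hy =>
        intro w hw
        rw [← Matrix.mulVec_mulVec]
        exact hx _ (hy w hw)
    by_cases h0 : W = ⊥
    · exact Or.inl h0
    · right
      obtain ⟨w, hw, hw0⟩ := (Submodule.ne_bot_iff W).mp h0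
      obtain ⟨i, hi⟩ := Function.ne_iff.mp hw0
      rw [eq_top_iff]
      intro v _
      have h1 := hall (vecMulVec v (Pi.single i (w i)⁻¹)) w hw
      rw [Matrix.vecMulVec_mulVec] at h1
      have h2 : (Pi.single i (w i)⁻¹ : ι → F) ⬝ᵥ w = 1 := by
        rw [single_dotProduct]
        exact inv_mul_cancel₀ hi
      rw [h2] at h1
      simpa using h1
  · intro M hM
    have hle : Algebra.adjoin F S ≤ Subalgebra.centralizer F {M} := by
      rw [Algebra.adjoin_le_iff]
      intro s hs
      rw [SetLike.mem_coe, Subalgebra.mem_centralizer_iff]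
      intro m hm
      rw [Set.mem_singleton_iff.mp hm]
      exact hM s hs
    have hc : ∀ i j : ι, Commute (Matrix.single i j (1 : F)) M := by
      intro i j
      have h1 : Matrix.single i j (1 : F) ∈ Subalgebra.centralizer F {M} :=
        hle (by rw [h]; exact Algebra.mem_top)
      exact ((Subalgebra.mem_centralizer_iff F).mp h1 M rfl).symm
    obtain ⟨c, hc'⟩ := Matrix.mem_range_scalar_iff_commute_single'.mpr hc
    refine ⟨c, ?_⟩
    rw [← hc', Matrix.smul_one_eq_diagonal]
    rfl

lemma absIrred_mono {S S' : Set (Matrix ι ι F)} (h : S ⊆ S') (hS : ActsAbsolutelyIrreducibly S) :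
    ActsAbsolutelyIrreducibly S' :=
  ⟨fun W hW => hS.1 W fun s hs => hW s (h hs), fun M hM => hS.2 M fun s hs => hM s (h hs)⟩

/-- change of coordinates as an algebra homomorphism -/
def unlocHom (ε : ι ≃ κ) (P : GL ι F) : Matrix κ κ F →ₐ[F] Matrix ι ι F where
  toFun := unloc ε P
  map_one' := unloc_one ε P
  map_mul' := unloc_mul ε P
  map_zero' := by simp [unloc]
  map_add' := fun a b => by
    unfold unloc
    have h : (a + b).submatrix ε ε = a.submatrix ε ε + b.submatrix ε ε := rfl
    rw [h, Matrix.mul_add, Matrix.add_mul]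
  commutes' := fun r => by
    rw [Algebra.algebraMap_eq_smul_one, Algebra.algebraMap_eq_smul_one, unloc_smul, unloc_one]

lemma unlocHom_apply (ε : ι ≃ κ) (P : GL ι F) (M : Matrix κ κ F) : unlocHom ε P M = unloc ε P M := rfl

variable {d e : ℕ}

/-- `y ↦ 1 ⊗ y` -/
def kronR (d e : ℕ) (F : Type*) [Field F] :
    Matrix (Fin e) (Fin e) F →ₐ[F] Matrix (Fin d × Fin e) (Fin d × Fin e) F where
  toFun y := (1 : Matrix (Fin d) (Fin d) F) ⊗ₖ y
  map_one' := Matrix.one_kronecker_one
  map_mul' a b := by rw [← Matrix.mul_kronecker_mul, one_mul]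
  map_zero' := Matrix.kronecker_zero _
  map_add' a b := Matrix.kronecker_add _ a b
  commutes' r := by
    rw [Algebra.algebraMap_eq_smul_one, Algebra.algebraMap_eq_smul_one, Matrix.kronecker_smul,
      Matrix.one_kronecker_one]

/-- `x ↦ x ⊗ 1` -/
def kronL (d e : ℕ) (F : Type*) [Field F] :
    Matrix (Fin d) (Fin d) F →ₐ[F] Matrix (Fin d × Fin e) (Fin d × Fin e) F where
  toFun x := x ⊗ₖ (1 : Matrix (Fin e) (Fin e) F)
  map_one' := Matrix.one_kronecker_one
  map_mul' a b := by rw [← Matrix.mul_kronecker_mul, one_mul]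
  map_zero' := Matrix.zero_kronecker _
  map_add' a b := Matrix.add_kronecker a b _
  commutes' r := by
    rw [Algebra.algebraMap_eq_smul_one, Algebra.algebraMap_eq_smul_one, Matrix.smul_kronecker,
      Matrix.one_kronecker_one]

lemma kronR_apply (y : Matrix (Fin e) (Fin e) F) :
    kronR d e F y = (1 : Matrix (Fin d) (Fin d) F) ⊗ₖ y := rfl

lemma kronL_apply (x : Matrix (Fin d) (Fin d) F) :
    kronL d e F x = x ⊗ₖ (1 : Matrix (Fin e) (Fin e) F) := rfl

lemma kronR_injective (hd : 0 < d) : Function.Injective (kronR d e F) := by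
  intro a b h
  ext j j'
  have := congrFun (congrFun h (⟨0, hd⟩, j)) (⟨0, hd⟩, j')
  simpa [kronR_apply, Matrix.kroneckerMap_apply] using this

lemma kronL_injective (he : 0 < e) : Function.Injective (kronL d e F) := by
  intro a b h
  ext i i'
  have := congrFun (congrFun h (i, ⟨0, he⟩)) (i', ⟨0, he⟩)
  simpa [kronL_apply, Matrix.kroneckerMap_apply] using this

lemma finrank_map_of_injective {A B : Type*} [Ring A] [Ring B] [Algebra F A] [Algebra F B]
    (f : A →ₐ[F] B) (hf : Function.Injective f) (S : Subalgebra F A) :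
    Module.finrank F (S.map f) = Module.finrank F S :=
  (Subalgebra.equivMapOfInjective S f hf).toLinearEquiv.finrank_eq.symm

end Cfsg.Agent.Lib.Helper97CAlg
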