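import Cfsg.Agent.Lib.Helper96Sp4Mat
import Cfsg.Agent.Lib.Helper97CAlg
import Cfsg.Agent.Lib.Helper95SpTenstwo

set_option autoImplicit false
set_option linter.unusedSectionVars false

/-! ASCH-SP, `Sp_4(3)`: transfer pieces of `D_fieldU3b`. -/

namespace Cfsg.Agent.Lib.Helper95Sp4Transfer

open Cfsg Cfsg.Geo Matrix
open Cfsg.Agent.Lib.Helper96Sp4Mat Cfsg.Agent.Lib.Helper97CLoc Cfsg.Agent.Lib.Helper97CAlg
open scoped MatrixGroups Kronecker

variable {ι : Type} [Fintype ι] [DecidableEq ι] {F : Type*} [Field F]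
variable {f : (ι → F) → (ι → F) → F} {H : Subgroup (GL ι F)}

/-- (c1) -/
theorem fieldU3_pm {K : Subalgebra F (Matrix ι ι F)} (hK : IsFieldSubalgebra 2 K) {i : Matrix ι ι F}
    (hi : i ∈ K) (hii : i * i = -1) (hH : H ≤ subalgebraNormalizer K) :
    ∀ h ∈ H, (h : Matrix ι ι F) * i * ((h⁻¹ : GL ι F) : Matrix ι ι F) = i ∨
      (h : Matrix ι ι F) * i * ((h⁻¹ : GL ι F) : Matrix ι ι F) = - i := by
  intro h hh
  obtain ⟨j, hj⟩ : ∃ j, j = (h : Matrix ι ι F) * i * ((h⁻¹ : GL ι F) : Matrix ι ι F) := ⟨_, rfl⟩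
  rw [← hj]
  have hjK : j ∈ K := by
    rw [hj]
    exact (hH hh i).1 hi
  have hjj : j * j = -1 := by
    rw [hj]
    calc (h : Matrix ι ι F) * i * ((h⁻¹ : GL ι F) : Matrix ι ι F) *
          ((h : Matrix ι ι F) * i * ((h⁻¹ : GL ι F) : Matrix ι ι F))
        = (h : Matrix ι ι F) * i * (((h⁻¹ : GL ι F) : Matrix ι ι F) * (h : Matrix ι ι F)) * i *
            ((h⁻¹ : GL ι F) : Matrix ι ι F) := by simp only [mul_assoc]
      _ = (h : Matrix ι ι F) * (i * i) * ((h⁻¹ : GL ι F) : Matrix ι ι F) := by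
          rw [vi, mul_one, mul_assoc (h : Matrix ι ι F)]
      _ = -1 := by rw [hii, mul_neg, mul_one, neg_mul, iv]
  have hprod : (j - i) * (j + i) = 0 := by
    have : (j - i) * (j + i) = j * j - i * i + (j * i - i * j) := by noncomm_ring
    rw [this, hjj, hii, hK.comm j hjK i hi]
    simp
  by_cases h1 : j - i = 0
  · exact Or.inl (sub_eq_zero.1 h1)
  · right
    obtain ⟨w, hwK, hw⟩ := hK.inv _ (K.sub_mem hjK hi) h1
    have hw' : w * (j - i) = 1 := by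
      rw [hK.comm w hwK _ (K.sub_mem hjK hi)]
      exact hw
    have : j + i = 0 := by
      calc j + i = (w * (j - i)) * (j + i) := by rw [hw', one_mul]
        _ = w * ((j - i) * (j + i)) := by rw [mul_assoc]
        _ = 0 := by rw [hprod, mul_zero]
    exact eq_neg_of_add_eq_zero_left this

/-- (c2) -/
theorem absIrred_of_gens (h2 : (2 : F) ≠ 0) (e : ι ≃ Fin 2 × Fin 2) (P : GL ι F)
    {S : Set (Matrix ι ι F)} (hS : ∀ s ∈ gens F, unloc e P s ∈ S) : ActsAbsolutelyIrreducibly S := by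
  have hsub : (unlocHom e P) '' gens F ⊆ S := by
    rintro _ ⟨s, hs, rfl⟩
    exact hS s hs
  apply absIrred_mono hsub
  apply absIrred_of_adjoin_eq_top
  rw [← AlgHom.map_adjoin, adjoin_gens h2, Algebra.map_top, AlgHom.range_eq_top]
  intro g
  exact ⟨loc e P g, unloc_loc e P g⟩

/-- (c3) -/
theorem iso_iff {e : ι ≃ Fin 2 × Fin 2} {P : GL ι F}
    (hG : ∀ x y : Fin 2 × Fin 2 → F, f ((P : Matrix ι ι F) *ᵥ (x ∘ e)) ((P : Matrix ι ι F) *ᵥ (y ∘ e)) =
      formOfGram id (GG F) x y) (X : Matrix ι ι F) :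
    (∀ u v, f (X *ᵥ u) (X *ᵥ v) = f u v) ↔ (loc e P X)ᵀ * GG F * loc e P X = GG F := by
  have hX : ∀ x : Fin 2 × Fin 2 → F, X *ᵥ ((P : Matrix ι ι F) *ᵥ (x ∘ e))
      = (P : Matrix ι ι F) *ᵥ ((loc e P X *ᵥ x) ∘ e) := by
    intro x
    rw [← Cfsg.Agent.Lib.Helper95SpTenstwo.conj_reindex_mulVec]
    have : (P : Matrix ι ι F) * Matrix.reindex e.symm e.symm (loc e P X) *
        ((P⁻¹ : GL ι F) : Matrix ι ι F) = X := unloc_loc e P X
    rw [this]
  constructor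
  · intro h
    apply Cfsg.Agent.Lib.Helper95SpTenstwo.formOfGram_inj
    intro x y
    rw [← Cfsg.Agent.Lib.Helper95SpTenstwo.formOfGram_mulVec_right,
      ← Cfsg.Agent.Lib.Helper95SpTenstwo.formOfGram_mulVec_left, ← hG, ← hG, ← hX, ← hX, h]
  · intro h u v
    obtain ⟨x, rfl⟩ := Cfsg.Agent.Lib.Helper95SpTenstwo.exists_coords e P u
    obtain ⟨y, rfl⟩ := Cfsg.Agent.Lib.Helper95SpTenstwo.exists_coords e P v
    rw [hX, hX, hG, hG, Cfsg.Agent.Lib.Helper95SpTenstwo.formOfGram_mulVec_left,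
      Cfsg.Agent.Lib.Helper95SpTenstwo.formOfGram_mulVec_right, h]

end Cfsg.Agent.Lib.Helper95Sp4Transfer
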