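import Cfsg.Agent.Lib.Helper96SpMain

set_option autoImplicit false

namespace Cfsg.Agent.Lib.Helper95SpEChar

section abstract

variable {G : Type*} [Group G]

/-- characteristic abelian subgroups of an "extraspecial" 2-group are cyclic -/
theorem cyclic_of_char_abstract [Finite G] (z : G) (hz1 : z ≠ 1) (hz2 : z * z = 1)
    (hzc : ∀ g, g * z = z * g) (hcm : ∀ g h : G, g * h = h * g ∨ g * h = z * (h * g))
    (hsq : ∀ g : G, g * g = 1 ∨ g * g = z)
    (hcen : ∀ g : G, g ≠ 1 → g ≠ z → ∃ h, g * h = z * (h * g))
    (A : Subgroup G) (hA : A.Characteristic) (hc : ∀ a ∈ A, ∀ b ∈ A, a * b = b * a) :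
    IsCyclic A := by
  classical
  have hzl : ∀ g w, g * (z * w) = z * (g * w) := by
    intro g w
    rw [← mul_assoc, hzc, mul_assoc]
  have hzz : ∀ w, z * (z * w) = w := by
    intro w
    rw [← mul_assoc, hz2, one_mul]
  have hne : ∀ w : G, w ≠ z * w := by
    intro w h
    apply hz1
    have := congrArg (· * w⁻¹) h
    simpa using this.symm
  by_cases hx : ∃ x ∈ A, x ≠ 1 ∧ x ≠ z ∧ x * x = 1
  · exfalso
    obtain ⟨x, hxA, hx1, hxz, hxx⟩ := hx
    obtain ⟨y, hxy⟩ := hcen x hx1 hxz
    have hyx : y * x = z * (x * y) := by rw [hxy, hzz]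
    -- the element `a`
    obtain ⟨a, haa, hxa⟩ : ∃ a, a * a = z ∧ x * a = z * (a * x) := by
      rcases hsq y with hy | hy
      · refine ⟨x * y, ?_, ?_⟩
        · calc x * y * (x * y) = x * (y * x) * y := by group
            _ = x * (z * (x * y)) * y := by rw [hyx]
            _ = z * ((x * x) * (y * y)) := by rw [hzl]; group
            _ = z := by rw [hxx, hy]; group
        · calc x * (x * y) = z * (z * (x * (x * y))) := (hzz _).symm
            _ = z * (x * (z * (x * y))) := by rw [hzl x]
            _ = z * (x * (y * x)) := by rw [hyx]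
            _ = z * (x * y * x) := by group
      · exact ⟨y, hy, hxy⟩
    have hN : ∀ g, ¬ g * a = a * g → g * a = z * (a * g) := fun g hg => (hcm g a).resolve_left hg
    let α : G → G := fun g => if g * a = a * g then g else g * a
    have hmul : ∀ g h, α (g * h) = α g * α h := by
      intro g h
      by_cases hg : g * a = a * g <;> by_cases hh : h * a = a * h
      · have : g * h * a = a * (g * h) := by
          rw [mul_assoc, hh, ← mul_assoc, hg, mul_assoc]
        simp only [α, if_pos hg, if_pos hh, if_pos this]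
      · have h' := hN h hh
        have e : g * h * a = z * (a * (g * h)) := by
          rw [mul_assoc, h', hzl, ← mul_assoc g, hg, mul_assoc]
        have : ¬ g * h * a = a * (g * h) := by
          rw [e]
          exact fun h0 => hne _ h0.symm
        simp only [α, if_pos hg, if_neg hh, if_neg this, mul_assoc]
      · have g' := hN g hg
        have e : g * h * a = z * (a * (g * h)) := by
          rw [mul_assoc, hh, ← mul_assoc g, g', mul_assoc, mul_assoc]
        have : ¬ g * h * a = a * (g * h) := by
          rw [e]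
          exact fun h0 => hne _ h0.symm
        simp only [α, if_neg hg, if_pos hh, if_neg this]
        rw [mul_assoc, hh, mul_assoc]
      · have g' := hN g hg
        have h' := hN h hh
        have : g * h * a = a * (g * h) := by
          rw [mul_assoc, h', hzl, ← mul_assoc g, g', mul_assoc z, hzz, mul_assoc]
        simp only [α, if_neg hg, if_neg hh, if_pos this]
        rw [mul_assoc g a, h', hzl, ← mul_assoc a, haa, hzz]
    let φ : G →* G := MonoidHom.mk' α hmul
    have hinj : Function.Injective φ := by
      rw [injective_iff_map_eq_one]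
      intro g hg
      have hg' : α g = 1 := hg
      by_cases hga : g * a = a * g
      · simpa only [α, if_pos hga] using hg'
      · exfalso
        simp only [α, if_neg hga] at hg'
        apply hga
        have : g = a⁻¹ := eq_inv_of_mul_eq_one_left hg'
        rw [this]
        group
    let ψ : G ≃* G := MulEquiv.ofBijective φ (Finite.injective_iff_bijective.1 hinj)
    have hxa' : ¬ x * a = a * x := by
      rw [hxa]
      exact fun h0 => hne _ h0.symm
    have hψx : ψ x = x * a := by
      show α x = x * a
      simp only [α, if_neg hxa']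
    have hmem : x * a ∈ A := by
      rw [← hψx]
      have := Subgroup.characteristic_iff_map_eq.mp hA ψ
      rw [← this]
      exact ⟨x, hxA, rfl⟩
    have h1 := hc x hxA _ hmem
    apply hxa'
    have h2 : x * (x * a) = x * (a * x) := by rw [h1]; group
    exact mul_left_cancel h2
  · push Not at hx
    have hinv : ∀ h ∈ A, h * h = 1 → h = 1 ∨ h = z := by
      intro h hh hh1
      by_contra hcon
      push Not at hcon
      exact hx h hh hcon.1 hcon.2 hh1
    obtain ⟨g, hg⟩ : ∃ g : G, A ≤ Subgroup.zpowers g := by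
      by_cases h4 : ∃ g ∈ A, g * g = z
      · obtain ⟨g, hgA, hgg⟩ := h4
        refine ⟨g, fun h hh => ?_⟩
        have hzg : z ∈ Subgroup.zpowers g := by
          rw [← hgg]
          exact Subgroup.mul_mem _ (Subgroup.mem_zpowers g) (Subgroup.mem_zpowers g)
        rcases hsq h with h1 | h1
        · rcases hinv h hh h1 with rfl | rfl
          · exact Subgroup.one_mem _
          · exact hzg
        · have h2 : (g * h) * (g * h) = 1 := by
            calc g * h * (g * h) = g * (h * g) * h := by group
              _ = g * (g * h) * h := by rw [hc h hh g hgA]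
              _ = (g * g) * (h * h) := by group
              _ = 1 := by rw [hgg, h1, hz2]
          rcases hinv _ (A.mul_mem hgA hh) h2 with h3 | h3
          · have : h = g⁻¹ := eq_inv_of_mul_eq_one_right h3
            rw [this]
            exact Subgroup.inv_mem _ (Subgroup.mem_zpowers g)
          · have : h = g⁻¹ * z := by rw [← h3]; group
            rw [this]
            exact Subgroup.mul_mem _ (Subgroup.inv_mem _ (Subgroup.mem_zpowers g)) hzg
      · push Not at h4
        refine ⟨z, fun h hh => ?_⟩
        rcases hinv h hh ((hsq h).resolve_right (h4 h hh)) with rfl | rfl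
        · exact Subgroup.one_mem _
        · exact Subgroup.mem_zpowers _
    exact isCyclic_of_injective (Subgroup.inclusion hg) (Subgroup.inclusion_injective hg)

end abstract

open Cfsg Cfsg.Geo Matrix
open Cfsg.Agent.Lib.Helper97GBase Cfsg.Agent.Lib.Helper97GCore
  Cfsg.Agent.Lib.Helper96SpDefs Cfsg.Agent.Lib.Helper7SpC6 Cfsg.Agent.Lib.Helper7C6Two
  Cfsg.Agent.Lib.Helper7C6Type
open scoped MatrixGroups commutatorElement

variable {ι : Type} [Fintype ι] [DecidableEq ι] {F : Type*} [Field F]
variable {f : (ι → F) → (ι → F) → F} {H : Subgroup (GL ι F)}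

/-- [E_char] -/
theorem cyclic_of_char_pm [Finite F] [Nonempty ι] {N : Subgroup (GL ι F)}
    (habs : ActsAbsolutelyIrreducibly (matrixSet N)) (hcomm : ⁅N, N⁆ ≤ scalars ι F)
    (hns : ¬ N ≤ scalars ι F)
    (hsc : ∀ x ∈ N, x ∈ scalars ι F → (x : Matrix ι ι F) = 1 ∨ (x : Matrix ι ι F) = -1)
    (A : Subgroup N) (hA : A.Characteristic) (hc : IsMulCommutative A) : IsCyclic A := by
  classical
  have : Finite (GL ι F) := inferInstance
  obtain ⟨h2, hsq, -, -, -, -, hanti⟩ := extraspecial_of_pm habs hcomm hns hsc
  have hpm : ∀ x ∈ N, x ∈ scalars ι F → x = 1 ∨ x = -1 := by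
    intro x hx hxs
    rcases hsc x hx hxs with h | h
    · exact Or.inl (Units.ext h)
    · exact Or.inr (Units.ext (by rw [h, Units.val_neg, Units.val_one]))
  obtain ⟨x₀, hx₀, hx₀s⟩ : ∃ x ∈ N, x ∉ scalars ι F := by
    by_contra hcon
    push Not at hcon
    exact hns hcon
  obtain ⟨y₀, hy₀, h₀⟩ := hanti x₀ hx₀ hx₀s
  have hm1 : (-1 : GL ι F) ∈ N := by
    have : (-1 : GL ι F) = y₀ * x₀ * (x₀ * y₀)⁻¹ := by
      rw [eq_mul_inv_iff_mul_eq]
      apply Units.ext
      rw [Units.val_mul, Units.val_neg, Units.val_one, Units.val_mul, Units.val_mul, h₀, neg_mul,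
        one_mul]
    rw [this]
    exact N.mul_mem (N.mul_mem hy₀ hx₀) (N.inv_mem (N.mul_mem hx₀ hy₀))
  have hne1 : (-1 : GL ι F) ≠ 1 := by
    intro h
    obtain ⟨i⟩ := ‹Nonempty ι›
    have h1 := congrArg (fun t : GL ι F => (t : Matrix ι ι F) i i) h
    simp only [Units.val_neg, Units.val_one, Matrix.neg_apply, Matrix.one_apply_eq] at h1
    apply h2
    linear_combination -h1
  apply cyclic_of_char_abstract (⟨-1, hm1⟩ : N)
  · intro h
    exact hne1 (congrArg Subtype.val h)
  · apply Subtype.ext
    show (-1 : GL ι F) * -1 = 1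
    rw [neg_mul_neg, one_mul]
  · intro g
    apply Subtype.ext
    show (g : GL ι F) * -1 = -1 * (g : GL ι F)
    rw [mul_neg, mul_one, neg_mul, one_mul]
  · intro g h
    have hcN : ⁅(g : GL ι F), (h : GL ι F)⁆ ∈ N := by
      rw [commutatorElement_def]
      exact N.mul_mem (N.mul_mem (N.mul_mem g.2 h.2) (N.inv_mem g.2)) (N.inv_mem h.2)
    have e : (g : GL ι F) * h = ⁅(g : GL ι F), (h : GL ι F)⁆ * (h * g) := by
      rw [commutatorElement_def]; group
    rcases hpm _ hcN (hcomm (Subgroup.commutator_mem_commutator g.2 h.2)) with h1 | h1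
    · left
      apply Subtype.ext
      show (g : GL ι F) * h = h * g
      rw [e, h1, one_mul]
    · right
      apply Subtype.ext
      show (g : GL ι F) * h = -1 * (h * g)
      rw [e, h1]
  · intro g
    have h1 := hsq g g.2
    rw [pow_two] at h1
    rcases hpm _ (N.mul_mem g.2 g.2) h1 with h | h
    · exact Or.inl (Subtype.ext h)
    · exact Or.inr (Subtype.ext h)
  · intro g hg1 hgz
    have hgs : (g : GL ι F) ∉ scalars ι F := by
      intro hs
      rcases hpm _ g.2 hs with h | h
      · exact hg1 (Subtype.ext h)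
      · exact hgz (Subtype.ext h)
    obtain ⟨y, hy, hyg⟩ := hanti g g.2 hgs
    refine ⟨⟨y, hy⟩, ?_⟩
    apply Subtype.ext
    show (g : GL ι F) * y = -1 * (y * g)
    apply Units.ext
    rw [Units.val_mul, Units.val_mul, Units.val_neg, Units.val_one, Units.val_mul, hyg, neg_mul,
      one_mul, neg_neg]
  · exact hA
  · intro a ha b hb
    have := hc.is_comm.comm (⟨a, ha⟩ : A) ⟨b, hb⟩
    exact congrArg Subtype.val this

/-- [E_char] -/
theorem altC6_of_normal [Fintype F] [Nonempty ι] (hp : (Fintype.card F).Prime)
    (hf : IsSymplecticForm f) {R : Subgroup (GL ι F)} (hR : FixesForm (matrixSet R) f)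
    (habs : ActsAbsolutelyIrreducibly (matrixSet R)) (hcomm : ⁅R, R⁆ ≤ scalars ι F)
    (hnorm : Nz H R) : AltC6 f H := by
  classical
  have hsc : ∀ x ∈ R, x ∈ scalars ι F → (x : Matrix ι ι F) = 1 ∨ (x : Matrix ι ι F) = -1 :=
    fun x hx hxs => scalar_of_fixes hf.bilinear hf.nondegenerate hR hx hxs
  have hcard : 2 ≤ Fintype.card ι := by
    by_contra hlt
    have h1 : Fintype.card ι = 1 := by
      have := Fintype.card_pos (α := ι)
      omega
    obtain ⟨i, hi⟩ := Fintype.card_eq_one_iff.1 h1
    have hv : (Pi.single i 1 : ι → F) ≠ 0 := by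
      intro h
      have := congrFun h i
      simp at this
    obtain ⟨w, hw⟩ := (hf.nondegenerate _ hv).1
    apply hw
    have : w = w i • (Pi.single i 1 : ι → F) := by
      funext j
      rw [hi j]
      simp
    rw [this, hf.bilinear.smul_left, hf.alternating, mul_zero]
  have hns : ¬ R ≤ scalars ι F := fun h => not_irred_of_le_scalars hcard h habs.1
  obtain ⟨h2, -, hP, hexp, hZ, ⟨k, -, hk, hkN⟩, -⟩ := extraspecial_of_pm habs hcomm hns hsc
  have hodd : Odd (Fintype.card F) := by
    rcases hp.eq_two_or_odd' with h | h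
    · exfalso
      apply h2
      have := Nat.cast_card_eq_zero F
      rw [h] at this
      exact_mod_cast this
    · exact h
  exact ⟨R, Fintype.card F, k, ⟨Nat.prime_two, hP, fun A hA hc =>
    cyclic_of_char_pm habs hcomm hns hsc A hA hc, by rw [hexp]; norm_num⟩, habs,
    Cfsg.Agent.Lib.Helper96SpMain.le_similarityGroup_of_fixes' hR, hp, hodd, rfl, hkN, hZ,
    c6_minus h2 hf hR habs hcomm hk, hk, le_normalizer_of_Nz hnorm, hR, hcomm⟩

end Cfsg.Agent.Lib.Helper95SpEChar
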