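import Cfsg.Agent.Lib.Helper95Cen
import Cfsg.Agent.Lib.Helper95OrthCS

/-!
# Overgroups of the unitary group inside `Sp` (odd characteristic)
-/

set_option autoImplicit false
set_option linter.unusedSectionVars false
set_option linter.unusedSimpArgs false
set_option linter.unusedVariables false

namespace Cfsg.Agent.Lib.Helper95SpU

open Module
open Cfsg.Agent.Lib.Helper95Sp Cfsg.Agent.Lib.Helper95Cen Cfsg.Agent.Lib.Helper95OrthGeo
  Cfsg.Agent.Lib.Helper95OrthCS

variable {F : Type*} [Field F]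
variable {ι : Type} [Fintype ι] [DecidableEq ι]
variable {B : LinearMap.BilinForm F (ι → F)}

/-- a skew-adjoint square root `δ` of a non-square scalar `d` on a symplectic space -/
structure US (B : LinearMap.BilinForm F (ι → F)) (δ : (ι → F) →ₗ[F] (ι → F)) (d : F) : Prop where
  sq : ∀ v, δ (δ v) = d • v
  adj : ∀ u v, B (δ u) v = - B u (δ v)
  noeig : ∀ (c : F) v, δ v = c • v → v = 0

variable {δ : (ι → F) →ₗ[F] (ι → F)} {d : F}

theorem US.symm (h : US B δ d) (hA : B.IsAlt) (u v : ι → F) : B u (δ v) = B v (δ u) := by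
  rw [alt_swap hA v (δ u), h.adj, neg_neg]

theorem US.dd (h : US B δ d) (u v : ι → F) : B (δ u) (δ v) = -(d * B u v) := by
  rw [h.adj, h.sq, map_smul, smul_eq_mul]

theorem US.nonsq [Nonempty ι] (h : US B δ d) {a b : F} (hab : b ^ 2 - d * a ^ 2 = 0) :
    a = 0 ∧ b = 0 := by
  obtain ⟨v, hv⟩ : ∃ v : ι → F, v ≠ 0 := exists_ne 0
  have ha : a = 0 := by
    by_contra ha
    have e1 : δ (b • v - a • δ v) = (-b / a) • (b • v - a • δ v) := by
      rw [map_sub, map_smul, map_smul, h.sq]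
      have : d = b ^ 2 / a ^ 2 := by
        field_simp
        linear_combination -hab
      rw [this]
      have e2 : a • (b ^ 2 / a ^ 2) • v = (b ^ 2 / a) • v := by
        rw [smul_smul]; congr 1; field_simp
      have e3 : (-b / a) • (b • v - a • δ v) = b • δ v - (b ^ 2 / a) • v := by
        rw [smul_sub, smul_smul, smul_smul]
        have e4 : -b / a * b = - (b ^ 2 / a) := by field_simp
        have e5 : -b / a * a = - b := by field_simp
        rw [e4, e5]
        module
      rw [e2, e3]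
    have e2 := h.noeig _ _ e1
    have e3 : δ v = (b / a) • v := by
      have : a • δ v = b • v := (sub_eq_zero.1 e2).symm
      rw [div_eq_inv_mul, ← smul_smul, ← this, smul_smul, inv_mul_cancel₀ ha, one_smul]
    exact hv (h.noeig _ _ e3)
  refine ⟨ha, ?_⟩
  rw [ha] at hab
  simpa using hab

theorem US.d_ne [Nonempty ι] (h : US B δ d) : d ≠ 0 := by
  rintro rfl
  have := (h.nonsq (a := 1) (b := 0) (by ring)).1
  exact one_ne_zero this

/-- the quadratic form `v ↦ B v (δ v)` -/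
noncomputable def qs (B : LinearMap.BilinForm F (ι → F)) (δ : (ι → F) →ₗ[F] (ι → F)) :
    QuadraticForm F (ι → F) := LinearMap.BilinMap.toQuadraticMap (B.compl₂ δ)

@[simp] theorem qs_apply (v : ι → F) : qs B δ v = B v (δ v) := by
  simp [qs]

theorem polar_qs (h : US B δ d) (hA : B.IsAlt) (u v : ι → F) :
    QuadraticMap.polar (⇑(qs B δ)) u v = 2 * B u (δ v) := by
  unfold QuadraticMap.polar
  simp only [qs_apply, map_add, LinearMap.add_apply]
  rw [h.symm hA v u]
  ring

theorem US.cs (h : US B δ d) (hA : B.IsAlt) : CS (qs B δ) δ 0 (-d) where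
  sq v := by rw [h.sq]; module
  adj u v := by
    rw [polar_qs h hA, polar_qs h hA, polar_qs h hA, h.adj]; ring
  norm v := by
    rw [qs_apply, qs_apply, h.adj, h.sq, map_smul, smul_eq_mul]; ring
  self v := by
    rw [polar_qs h hA, h.sq, map_smul, hA v]; simp
  noeig := h.noeig

theorem qs_nondeg (h : US B δ d) (hA : B.IsAlt) (hB : B.Nondegenerate) (h2 : (2 : F) ≠ 0) :
    (QuadraticMap.polarBilin (qs B δ)).Nondegenerate := by
  constructor
  · intro x hx
    apply h.noeig 0 x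
    rw [zero_smul]
    apply hB.1
    intro y
    have := hx y
    rw [QuadraticMap.polarBilin_apply_apply, polar_qs h hA] at this
    rw [h.adj, neg_eq_zero]
    exact (mul_eq_zero.1 this).resolve_left h2
  · intro y hy
    apply h.noeig 0 y
    rw [zero_smul]
    apply hB.2
    intro x
    have := hy x
    rw [QuadraticMap.polarBilin_apply_apply, polar_qs h hA] at this
    exact (mul_eq_zero.1 this).resolve_left h2

/-- singular vectors perpendicular to a small set and not perpendicular to a given vector -/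
theorem US.exists_sing [Finite F] (h : US B δ d) (hA : B.IsAlt) (hB : B.Nondegenerate)
    (h2 : (2 : F) ≠ 0) (T : Finset (ι → F)) (hT : 2 * T.card + 5 ≤ Fintype.card ι) {w : ι → F}
    (hw : w ∉ Submodule.span F (T : Set (ι → F))) :
    ∃ y, B y (δ y) = 0 ∧ (∀ t ∈ T, B t (δ y) = 0) ∧ B w (δ y) ≠ 0 := by
  obtain ⟨y, h1, h3, h4⟩ := exists_singular_perp_ne (qs B δ) (qs_nondeg h hA hB h2) T hT hw
  refine ⟨y, by simpa using h1, fun t ht => ?_, ?_⟩
  · have := h3 t ht
    rw [polar_qs h hA] at this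
    exact (mul_eq_zero.1 this).resolve_left h2
  · intro h0
    apply h4
    rw [polar_qs h hA, h0, mul_zero]

theorem US.exists_sing_two [Finite F] (h : US B δ d) (hA : B.IsAlt) (hB : B.Nondegenerate)
    (h2 : (2 : F) ≠ 0) (T : Finset (ι → F)) (hT : 2 * (T.card + 4) < Fintype.card ι)
    {w₁ w₂ : ι → F} (hw₁ : w₁ ∉ Submodule.span F (T : Set (ι → F)))
    (hw₂ : w₂ ∉ Submodule.span F (T : Set (ι → F))) :
    ∃ y, B y (δ y) = 0 ∧ (∀ t ∈ T, B t (δ y) = 0) ∧ B w₁ (δ y) ≠ 0 ∧ B w₂ (δ y) ≠ 0 := by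
  obtain ⟨y, h1, h3, h4, h5⟩ :=
    exists_singular_perp_ne_two (qs B δ) (qs_nondeg h hA hB h2) T hT hw₁ hw₂
  refine ⟨y, by simpa using h1, fun t ht => ?_, ?_, ?_⟩
  · have := h3 t ht
    rw [polar_qs h hA] at this
    exact (mul_eq_zero.1 this).resolve_left h2
  · intro h0
    apply h4
    rw [polar_qs h hA, h0, mul_zero]
  · intro h0
    apply h5
    rw [polar_qs h hA, h0, mul_zero]

theorem US.exists_sing_notMem [Finite F] (h : US B δ d) (hA : B.IsAlt) (hB : B.Nondegenerate)
    (h2 : (2 : F) ≠ 0) (T T' : Finset (ι → F)) (hT : T.card + T'.card + 3 ≤ Fintype.card ι) :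
    ∃ y, B y (δ y) = 0 ∧ (∀ t ∈ T, B t (δ y) = 0) ∧ y ∉ Submodule.span F (T' : Set (ι → F)) := by
  obtain ⟨y, h1, h3, h4⟩ := exists_singular_notMem (qs B δ) (qs_nondeg h hA hB h2) T T' hT
  refine ⟨y, by simpa using h1, fun t ht => ?_, h4⟩
  have := h3 t ht
  rw [polar_qs h hA] at this
  exact (mul_eq_zero.1 this).resolve_left h2

/-- the unitary transvection -/
noncomputable def ut (hA : B.IsAlt) (δ : (ι → F) →ₗ[F] (ι → F)) (d : F) (v : ι → F) (c : F) :
    (ι → F) ≃ₗ[F] (ι → F) := stv B hA v (-(d * c)) * stv B hA (δ v) c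

theorem ut_apply (h : US B δ d) (hA : B.IsAlt) {v : ι → F} (hv : B v (δ v) = 0) (c : F)
    (x : ι → F) :
    ut hA δ d v c x = x + c • (-(d * B x v) • v + B x (δ v) • δ v) := by
  have hv' : B (δ v) v = 0 := alt_zero hA hv
  simp only [ut, LinearEquiv.mul_apply, stv_apply, map_add, map_smul, LinearMap.add_apply,
    LinearMap.smul_apply, hv', smul_eq_mul, mul_zero, add_zero]
  module

theorem ut_isometry (hA : B.IsAlt) (v : ι → F) (c : F) (x y : ι → F) :
    B (ut hA δ d v c x) (ut hA δ d v c y) = B x y := by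
  simp only [ut, LinearEquiv.mul_apply, stv_isometry]

theorem ut_comm (h : US B δ d) (hA : B.IsAlt) {v : ι → F} (hv : B v (δ v) = 0) (c : F)
    (x : ι → F) : δ (ut hA δ d v c x) = ut hA δ d v c (δ x) := by
  rw [ut_apply h hA hv, ut_apply h hA hv, h.adj, h.dd]
  simp only [map_add, map_smul, h.sq]
  module

theorem stv_inv' (hA : B.IsAlt) (v : ι → F) (c : F) : (stv B hA v c)⁻¹ = stv B hA v (-c) := by
  rw [inv_eq_iff_mul_eq_one]
  refine LinearEquiv.ext fun x => ?_
  simp only [LinearEquiv.mul_apply, stv_apply, map_add, map_smul, LinearMap.add_apply,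
    LinearMap.smul_apply, hA v, smul_eq_mul, mul_zero, add_zero, LinearEquiv.coe_one, id_eq]
  module

theorem comm_formula (hA : B.IsAlt) {p p'' z : ι → F} (hpp : B p p'' = 0) (hb : B p'' z = B p z)
    (ε ε' : F) :
    (stv B hA p (-ε) * stv B hA p'' ε) * (stv B hA (p + z) (-ε') * stv B hA (p'' + z) ε') =
      stv B hA (p'' - p) (-(2 * ε * ε' * B p z)) *
        ((stv B hA (p + z) (-ε') * stv B hA (p'' + z) ε') * (stv B hA p (-ε) * stv B hA p'' ε)) := by
  have h1 : B p'' p = 0 := alt_zero hA hpp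
  have h2 : B z p = - B p z := alt_swap hA z p
  have h3 : B z p'' = - B p z := by rw [alt_swap hA z p'', hb]
  refine LinearEquiv.ext fun x => ?_
  simp only [LinearEquiv.mul_apply, stv_apply, map_add, map_sub, map_smul, LinearMap.add_apply,
    LinearMap.sub_apply, LinearMap.smul_apply, hA p, hA p'', hA z, hpp, hb, h1, h2, h3, smul_eq_mul,
    mul_zero, add_zero, zero_add, sub_zero, zero_sub]
  module

variable {hA : B.IsAlt} {M : Subgroup ((ι → F) ≃ₗ[F] (ι → F))}

theorem step4 {w w' : ι → F} {a ε : F} (hE : stv B hA w a * stv B hA w' ε ∈ M)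
    {g : (ι → F) ≃ₗ[F] (ι → F)} (hg : g ∈ M) (hiso : ∀ x y, B (g x) (g y) = B x y)
    (hw : g w = w) : stv B hA w' (-ε) * stv B hA (g w') ε ∈ M := by
  have h1 := M.mul_mem (M.mul_mem hg hE) (M.inv_mem hg)
  have h2 : g * (stv B hA w a * stv B hA w' ε) * g⁻¹ =
      (g * stv B hA w a * g⁻¹) * (g * stv B hA w' ε * g⁻¹) := by group
  rw [h2, conj_stv hA g hiso, conj_stv hA g hiso, hw] at h1
  have h3 := M.mul_mem (M.inv_mem hE) h1
  have h4 : (stv B hA w a * stv B hA w' ε)⁻¹ * (stv B hA w a * stv B hA (g w') ε) =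
      (stv B hA w' ε)⁻¹ * stv B hA (g w') ε := by group
  rw [h4, stv_inv'] at h3
  exact h3

theorem step5 (h2 : (2 : F) ≠ 0) {p p'' z : ι → F} (hpp : B p p'' = 0)
    (hZ : ∀ ε, stv B hA p (-ε) * stv B hA p'' ε ∈ M)
    {g : (ι → F) ≃ₗ[F] (ι → F)} (hg : g ∈ M) (hiso : ∀ x y, B (g x) (g y) = B x y)
    (h1 : g p = p + z) (h1' : g p'' = p'' + z) (hz : B p z ≠ 0) : p'' - p ∈ cen hA M := by
  intro c
  have hb : B p'' z = B p z := by
    have := hiso p p''
    rw [h1, h1', hpp] at this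
    simp only [map_add, LinearMap.add_apply, hpp, hA z, alt_swap hA z p''] at this
    linear_combination -this
  have hZ' : ∀ ε, stv B hA (p + z) (-ε) * stv B hA (p'' + z) ε ∈ M := by
    intro ε
    have h3 := M.mul_mem (M.mul_mem hg (hZ ε)) (M.inv_mem hg)
    have h4 : g * (stv B hA p (-ε) * stv B hA p'' ε) * g⁻¹ =
      (g * stv B hA p (-ε) * g⁻¹) * (g * stv B hA p'' ε * g⁻¹) := by group
    rw [h4, conj_stv hA g hiso, conj_stv hA g hiso, h1, h1'] at h3
    exact h3
  have key := comm_formula hA hpp hb 1 (-c / (2 * B p z))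
  have hc : -(2 * 1 * (-c / (2 * B p z)) * B p z) = c := by
    field_simp
  rw [hc] at key
  have : stv B hA (p'' - p) c =
      (stv B hA p (-1) * stv B hA p'' 1) *
        (stv B hA (p + z) (-(-c / (2 * B p z))) * stv B hA (p'' + z) (-c / (2 * B p z))) *
      ((stv B hA (p + z) (-(-c / (2 * B p z))) * stv B hA (p'' + z) (-c / (2 * B p z))) *
        (stv B hA p (-1) * stv B hA p'' 1))⁻¹ := by
    rw [key]; group
  rw [this]
  exact M.mul_mem (M.mul_mem (hZ 1) (hZ' _)) (M.inv_mem (M.mul_mem (hZ' _) (hZ 1)))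

/-- moving a centre along a unitary transvection -/
theorem US.claim1 [Nonempty ι] (h : US B δ d)
    (hU : ∀ y, B y (δ y) = 0 → ∀ c, ut hA δ d y c ∈ M) {u e : ι → F} (hu : u ∈ cen hA M)
    (hus : B u (δ u) = 0) (hes : B e (δ e) = 0) (h1 : B u (δ e) = 0) (h2 : B u e ≠ 0) :
    e ∈ cen hA M := by
  have hv : B (e - u) (δ (e - u)) = 0 := by
    simp only [map_sub, LinearMap.sub_apply, hus, hes, h1, h.symm hA e u]
    ring
  have h3 := cen_map (ut hA δ d (e - u) (-(d * B u e)⁻¹)) (hU _ hv _) (ut_isometry hA _ _) hu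
  rw [ut_apply h hA hv] at h3
  simp only [map_sub, hus, h1, hA u, sub_zero, zero_smul, add_zero] at h3
  have hd := h.d_ne
  have h4 : u + -(d * B u e)⁻¹ • -(d * B u e) • (e - u) = e := by
    rw [smul_smul, neg_mul_neg, inv_mul_cancel₀ (mul_ne_zero hd h2), one_smul]
    abel
  rw [h4] at h3
  exact h3

theorem US.K_symm (h : US B δ d) (hA : B.IsAlt) {u f : ι → F} (hf : f ≠ 0)
    (hfu : f ∈ Submodule.span F {u, δ u}) : u ∈ Submodule.span F {f, δ f} := by
  obtain ⟨a, b, hab⟩ := Submodule.mem_span_pair.1 hfu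
  refine (h.cs hA).mem_of_comb ((h.cs hA).KS_inv f) (c := a) (d := b) ?_ ?_
  · by_contra hcon
    push Not at hcon
    apply hf
    rw [← hab, hcon.1, hcon.2]
    simp
  · rw [hab]
    exact Submodule.subset_span (by simp)

theorem US.claim2a [Finite F] [Nonempty ι] (h : US B δ d) (hB : B.Nondegenerate)
    (h2 : (2 : F) ≠ 0) (hn : 14 ≤ Fintype.card ι)
    (hU : ∀ y, B y (δ y) = 0 → ∀ c, ut hA δ d y c ∈ M) {u f : ι → F} (hu : u ∈ cen hA M)
    (hus : B u (δ u) = 0) (hfs : B f (δ f) = 0) (hu0 : u ≠ 0)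
    (hf : f ∉ Submodule.span F {u, δ u}) : f ∈ cen hA M := by
  classical
  have hf0 : f ≠ 0 := by
    rintro rfl
    exact hf (Submodule.zero_mem _)
  have hc : (({u, f} : Finset (ι → F)) : Set (ι → F)) = {u, f} := by simp
  have h3 : δ u ∉ Submodule.span F (({u, f} : Finset (ι → F)) : Set (ι → F)) := by
    rw [hc]
    intro hmem
    obtain ⟨a, b, hab⟩ := Submodule.mem_span_pair.1 hmem
    by_cases hb : b = 0
    · subst hb
      rw [zero_smul, add_zero] at hab
      exact hu0 (h.noeig a u hab.symm)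
    · apply hf
      have : f = b⁻¹ • (δ u - a • u) := by
        rw [← hab, add_sub_cancel_left, smul_smul, inv_mul_cancel₀ hb, one_smul]
      rw [this]
      exact Submodule.smul_mem _ _ (Submodule.sub_mem _ (Submodule.subset_span (by simp))
        (Submodule.smul_mem _ _ (Submodule.subset_span (by simp))))
  have h4 : δ f ∉ Submodule.span F (({u, f} : Finset (ι → F)) : Set (ι → F)) := by
    rw [hc]
    intro hmem
    obtain ⟨a, b, hab⟩ := Submodule.mem_span_pair.1 hmem
    by_cases ha : a = 0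
    · subst ha
      rw [zero_smul, zero_add] at hab
      exact hf0 (h.noeig b f hab.symm)
    · apply hf
      apply h.K_symm hA hu0
      have : u = a⁻¹ • (δ f - b • f) := by
        rw [← hab, add_sub_cancel_right, smul_smul, inv_mul_cancel₀ ha, one_smul]
      rw [this]
      exact Submodule.smul_mem _ _ (Submodule.sub_mem _ (Submodule.subset_span (by simp))
        (Submodule.smul_mem _ _ (Submodule.subset_span (by simp))))
  obtain ⟨e, he, hT, h5, h6⟩ := h.exists_sing_two hA hB h2 {u, f}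
    (by have := Finset.card_le_two (a := u) (b := f); omega) h3 h4
  have hue : B u (δ e) = 0 := hT u (by simp)
  have hfe : B f (δ e) = 0 := hT f (by simp)
  rw [h.dd] at h5 h6
  have h5' : B u e ≠ 0 := fun h0 => h5 (by rw [h0]; simp)
  have h6' : B f e ≠ 0 := fun h0 => h6 (by rw [h0]; simp)
  have hec := h.claim1 hU hu hus he hue h5'
  exact h.claim1 hU hec he hfs (by rw [h.symm hA]; exact hfe) (fun h0 => h6' (alt_zero hA h0))

theorem US.claim2 [Finite F] [Nonempty ι] (h : US B δ d) (hB : B.Nondegenerate)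
    (h2 : (2 : F) ≠ 0) (hn : 14 ≤ Fintype.card ι)
    (hU : ∀ y, B y (δ y) = 0 → ∀ c, ut hA δ d y c ∈ M) {u : ι → F} (hu : u ∈ cen hA M)
    (hus : B u (δ u) = 0) (hu0 : u ≠ 0) (f : ι → F) (hfs : B f (δ f) = 0) : f ∈ cen hA M := by
  classical
  by_cases hf : f ∈ Submodule.span F {u, δ u}
  · by_cases hf0 : f = 0
    · rw [hf0]; exact zero_mem_cen
    have h3 : δ u ∉ Submodule.span F (({u} : Finset (ι → F)) : Set (ι → F)) := by
      rw [Finset.coe_singleton]
      intro hmem
      obtain ⟨a, ha⟩ := Submodule.mem_span_singleton.1 hmem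
      exact hu0 (h.noeig a u ha.symm)
    obtain ⟨e, he, hT, h5⟩ := h.exists_sing hA hB h2 {u} (by simp; omega) h3
    have hue : B u (δ e) = 0 := hT u (by simp)
    rw [h.dd] at h5
    have h5' : B u e ≠ 0 := fun h0 => h5 (by rw [h0]; simp)
    have hec := h.claim1 hU hu hus he hue h5'
    have he0 : e ≠ 0 := by
      rintro rfl
      exact h5' (by simp)
    refine h.claim2a hB h2 hn hU hec he hfs he0 ?_
    intro hfe
    have h6 := h.K_symm hA hf0 hfe
    have h7 : Submodule.span F {f, δ f} ≤ Submodule.span F {u, δ u} := by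
      rw [Submodule.span_le]
      rintro x (rfl | rfl)
      · exact hf
      · exact (h.cs hA).KS_inv u _ hf
    obtain ⟨a, b, hab⟩ := Submodule.mem_span_pair.1 (h7 h6)
    apply h5'
    rw [← hab, map_add, map_smul, map_smul, hA u, hus]
    simp
  · exact h.claim2a hB h2 hn hU hu hus hfs hu0 hf

theorem US.claim3 [Finite F] [Nonempty ι] (h : US B δ d) (hB : B.Nondegenerate)
    (h2 : (2 : F) ≠ 0) (hn : 14 ≤ Fintype.card ι)
    (hS : ∀ f, B f (δ f) = 0 → f ∈ cen hA M) (z : ι → F) : z ∈ cen hA M := by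
  classical
  by_cases hz : B z (δ z) = 0
  · exact hS z hz
  have hz0 : z ≠ 0 := by
    rintro rfl
    exact hz (by simp)
  have h3 : z ∉ Submodule.span F ((∅ : Finset (ι → F)) : Set (ι → F)) := by
    simpa using hz0
  have h4 : δ z ∉ Submodule.span F ((∅ : Finset (ι → F)) : Set (ι → F)) := by
    simp only [Finset.coe_empty, Submodule.span_empty, Submodule.mem_bot]
    intro h0
    exact hz0 (h.noeig 0 z (by rw [h0, zero_smul]))
  obtain ⟨b, hb, -, h5, h6⟩ := h.exists_sing_two hA hB h2 ∅ (by simp; omega) h3 h4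
  rw [h.dd] at h6
  have h6' : B z b ≠ 0 := fun h0 => h6 (by rw [h0]; simp)
  set l : F := B z (δ z) / (2 * B z (δ b)) with hl
  have hl0 : l ≠ 0 := div_ne_zero hz (mul_ne_zero h2 h5)
  have ha : B (z - l • b) (δ (z - l • b)) = 0 := by
    simp only [map_sub, map_smul, LinearMap.sub_apply, LinearMap.smul_apply, hb, h.symm hA b z,
      smul_eq_mul]
    rw [hl]
    field_simp
    ring
  have h7 := cen_add (hS _ ha) (cen_smul l (hS b hb)) (by
    simp only [map_sub, map_smul, LinearMap.sub_apply, LinearMap.smul_apply, hA b, smul_eq_mul]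
    simpa using ⟨hl0, h6'⟩)
  rwa [sub_add_cancel] at h7

/-- the second isotropic vector -/
theorem US.exists_y2 [Finite F] [Nonempty ι] (h : US B δ d) (hA : B.IsAlt) (hB : B.Nondegenerate)
    (h2 : (2 : F) ≠ 0) (hn : 14 ≤ Fintype.card ι) {w w' y₁ : ι → F}
    (hy₁ : B y₁ (δ y₁) = 0) (hwy : B w y₁ = 0) (hwy' : B w (δ y₁) = 0)
    (hw'y : B w' (δ y₁) ≠ 0) :
    ∃ y₂, B y₂ (δ y₂) = 0 ∧ B w y₂ = 0 ∧ B w (δ y₂) = 0 ∧ B y₁ y₂ = 0 ∧ B y₁ (δ y₂) = 0 ∧
      (B w' y₂ ≠ 0 ∨ B w' (δ y₂) ≠ 0) ∧ y₂ ∉ Submodule.span F {y₁, δ y₁} := by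
  classical
  have hd := h.d_ne
  obtain ⟨e, he, hT, hne⟩ := h.exists_sing_notMem hA hB h2 {w, δ w, y₁, δ y₁} {y₁, δ y₁}
    (by
      have h3 := Finset.card_le_four (a := w) (b := δ w) (c := y₁) (d := δ y₁)
      have h4 := Finset.card_le_two (a := y₁) (b := δ y₁)
      omega)
  have hc : (({y₁, δ y₁} : Finset (ι → F)) : Set (ι → F)) = {y₁, δ y₁} := by simp
  rw [hc] at hne
  have e1 : B w (δ e) = 0 := hT w (by simp)
  have e2 : B w e = 0 := by
    have := hT (δ w) (by simp)
    rw [h.dd] at this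
    simpa [hd] using this
  have e3 : B y₁ (δ e) = 0 := hT y₁ (by simp)
  have e4 : B y₁ e = 0 := by
    have := hT (δ y₁) (by simp)
    rw [h.dd] at this
    simpa [hd] using this
  by_cases hcase : B w' e = 0 ∧ B w' (δ e) = 0
  · refine ⟨y₁ + e, ?_, ?_, ?_, ?_, ?_, Or.inr ?_, ?_⟩
    · simp only [map_add, LinearMap.add_apply, hy₁, he, e3, h.symm hA e y₁, add_zero]
    · rw [map_add, hwy, e2, add_zero]
    · rw [map_add, map_add, hwy', e1, add_zero]
    · rw [map_add, hA y₁, e4, add_zero]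
    · rw [map_add, map_add, hy₁, e3, add_zero]
    · rw [map_add, map_add, hcase.2, add_zero]
      exact hw'y
    · intro hmem
      apply hne
      have := Submodule.sub_mem _ hmem (Submodule.subset_span (s := {y₁, δ y₁}) (by simp : y₁ ∈ _))
      rwa [add_sub_cancel_left] at this
  · refine ⟨e, he, e2, e1, e4, e3, ?_, hne⟩
    by_contra hcon
    push Not at hcon
    exact hcase hcon

/-- **Main theorem**: a group of isometries containing all unitary transvections for `δ` and a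
"foreign" root-type family contains all symplectic transvections. -/
theorem us_main [Finite F] [Nonempty ι] (h : US B δ d) (hB : B.Nondegenerate)
    (h2 : (2 : F) ≠ 0) (hn : 14 ≤ Fintype.card ι)
    (hU : ∀ y, B y (δ y) = 0 → ∀ c, ut hA δ d y c ∈ M) {w w' : ι → F}
    (hw' : w' ∉ Submodule.span F {w, δ w})
    (hE : ∀ ε, ∃ a, stv B hA w a * stv B hA w' ε ∈ M) : ∀ v, v ∈ cen hA M := by
  classical
  have hd := h.d_ne
  -- first isotropic vector
  have hc : (({w, δ w} : Finset (ι → F)) : Set (ι → F)) = {w, δ w} := by simp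
  obtain ⟨y₁, hy₁, hT, hw'y⟩ := h.exists_sing hA hB h2 {w, δ w}
    (by have := Finset.card_le_two (a := w) (b := δ w); omega) (by rw [hc]; exact hw')
  have hwy' : B w (δ y₁) = 0 := hT w (by simp)
  have hwy : B w y₁ = 0 := by
    have := hT (δ w) (by simp)
    rw [h.dd] at this
    simpa [hd] using this
  obtain ⟨y₂, hy₂, hwy₂, hwy₂', h12, h12', hne₂, hnm⟩ :=
    h.exists_y2 hA hB h2 hn hy₁ hwy hwy' hw'y
  have h21 : B y₂ y₁ = 0 := alt_zero hA h12
  have h21' : B y₂ (δ y₁) = 0 := by rw [h.symm hA]; exact h12'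
  set n₁ : F := (B w' (δ y₁)) ^ 2 - d * (B w' y₁) ^ 2 with hn₁
  set n₂ : F := (B w' (δ y₂)) ^ 2 - d * (B w' y₂) ^ 2 with hn₂
  have hn₁0 : n₁ ≠ 0 := fun h0 => hw'y (h.nonsq h0).2
  have hn₂0 : n₂ ≠ 0 := by
    intro h0
    have := h.nonsq h0
    rcases hne₂ with h3 | h3
    · exact h3 this.1
    · exact h3 this.2
  set φ₁ : ι → F := -(d * B w' y₁) • y₁ + B w' (δ y₁) • δ y₁ with hφ₁
  set φ₂ : ι → F := -(d * B w' y₂) • y₂ + B w' (δ y₂) • δ y₂ with hφ₂
  set x₀ : ι → F := n₂ • φ₁ + (-n₁) • φ₂ with hx₀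
  set g := ut hA δ d y₂ (-n₁) * ut hA δ d y₁ n₂ with hg
  have hgM : g ∈ M := M.mul_mem (hU _ hy₂ _) (hU _ hy₁ _)
  have hgiso : ∀ x y, B (g x) (g y) = B x y := by
    intro x y
    rw [hg, LinearEquiv.mul_apply, LinearEquiv.mul_apply, ut_isometry, ut_isometry]
  have hgw : g w = w := by
    rw [hg, LinearEquiv.mul_apply, ut_apply h hA hy₁, hwy, hwy']
    simp only [mul_zero, neg_zero, zero_smul, add_zero, smul_zero]
    rw [ut_apply h hA hy₂, hwy₂, hwy₂']
    simp only [mul_zero, neg_zero, zero_smul, add_zero, smul_zero]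
  have hgw' : g w' = w' + x₀ := by
    rw [hg, LinearEquiv.mul_apply, ut_apply h hA hy₁, ← hφ₁, ut_apply h hA hy₂]
    have e1 : B φ₁ y₂ = 0 := by
      rw [hφ₁]
      simp only [map_add, map_smul, LinearMap.add_apply, LinearMap.smul_apply, h.adj, h12, h12',
        smul_eq_mul, mul_zero, neg_zero, add_zero]
    have e2 : B φ₁ (δ y₂) = 0 := by
      rw [hφ₁]
      simp only [map_add, map_smul, LinearMap.add_apply, LinearMap.smul_apply, h.dd, h12, h12',
        smul_eq_mul, mul_zero, neg_zero, add_zero]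
    simp only [map_add, map_smul, LinearMap.add_apply, LinearMap.smul_apply, e1, e2, smul_eq_mul,
      mul_zero, add_zero]
    rw [← hφ₂, hx₀]
    module
  have hw'x : B w' x₀ = 0 := by
    rw [hx₀, hφ₁, hφ₂]
    simp only [map_add, map_smul, smul_eq_mul]
    rw [hn₁, hn₂]
    ring
  have hZ : ∀ ε, stv B hA w' (-ε) * stv B hA (w' + x₀) ε ∈ M := by
    intro ε
    obtain ⟨a, ha⟩ := hE ε
    have := step4 ha hgM hgiso hgw
    rwa [hgw'] at this
  -- pairings of x₀
  have hx1 : B x₀ y₁ = 0 := by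
    rw [hx₀, hφ₁, hφ₂]
    simp only [map_add, map_smul, LinearMap.add_apply, LinearMap.smul_apply, h.adj, hA y₁, hy₁,
      h21, h21', smul_eq_mul, mul_zero, neg_zero, add_zero]
  have hx1' : B x₀ (δ y₁) = 0 := by
    rw [hx₀, hφ₁, hφ₂]
    simp only [map_add, map_smul, LinearMap.add_apply, LinearMap.smul_apply, h.dd, hA y₁, hy₁,
      h21, h21', smul_eq_mul, mul_zero, neg_zero, add_zero]
  have hx2 : B x₀ y₂ = 0 := by
    rw [hx₀, hφ₁, hφ₂]
    simp only [map_add, map_smul, LinearMap.add_apply, LinearMap.smul_apply, h.adj, hA y₂, hy₂,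
      h12, h12', smul_eq_mul, mul_zero, neg_zero, add_zero]
  have hx2' : B x₀ (δ y₂) = 0 := by
    rw [hx₀, hφ₁, hφ₂]
    simp only [map_add, map_smul, LinearMap.add_apply, LinearMap.smul_apply, h.dd, hA y₂, hy₂,
      h12, h12', smul_eq_mul, mul_zero, neg_zero, add_zero]
  have hxs : B x₀ (δ x₀) = 0 := by
    nth_rewrite 2 [hx₀]
    rw [hφ₁, hφ₂]
    simp only [map_add, map_smul, h.sq, hx1, hx1', hx2, hx2', smul_eq_mul, mul_zero, add_zero]
  have hx0 : x₀ ≠ 0 := by
    intro h0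
    apply hnm
    refine (h.cs hA).mem_of_comb ((h.cs hA).KS_inv y₁) (c := -(d * B w' y₂)) (d := B w' (δ y₂))
      ?_ ?_
    · rcases hne₂ with h3 | h3
      · left
        exact neg_ne_zero.2 (mul_ne_zero hd h3)
      · exact Or.inr h3
    · rw [← hφ₂]
      have : φ₂ = (n₂ / n₁) • φ₁ := by
        have e1 : n₁ • φ₂ = n₂ • φ₁ := by
          rw [hx₀] at h0
          have : n₂ • φ₁ - n₁ • φ₂ = 0 := by rw [← h0]; module
          exact (sub_eq_zero.1 this).symm
        rw [div_eq_inv_mul, ← smul_smul, ← e1, smul_smul, inv_mul_cancel₀ hn₁0, one_smul]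
      rw [this, hφ₁]
      exact Submodule.smul_mem _ _ (Submodule.add_mem _
        (Submodule.smul_mem _ _ (Submodule.subset_span (by simp)))
        (Submodule.smul_mem _ _ (Submodule.subset_span (by simp))))
  -- third isotropic vector
  have hc' : (({x₀, δ x₀} : Finset (ι → F)) : Set (ι → F)) = {x₀, δ x₀} := by simp
  have hw'3 : w' ∉ Submodule.span F (({x₀, δ x₀} : Finset (ι → F)) : Set (ι → F)) := by
    rw [hc']
    intro hmem
    obtain ⟨a, b, hab⟩ := Submodule.mem_span_pair.1 hmem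
    apply hw'y
    rw [← hab]
    simp only [map_add, map_smul, LinearMap.add_apply, LinearMap.smul_apply, h.dd, hx1, hx1',
      smul_eq_mul, mul_zero, neg_zero, add_zero]
  obtain ⟨y₃, hy₃, hT₃, hw'y₃⟩ := h.exists_sing hA hB h2 {x₀, δ x₀}
    (by have := Finset.card_le_two (a := x₀) (b := δ x₀); omega) hw'3
  have hx3' : B x₀ (δ y₃) = 0 := hT₃ x₀ (by simp)
  have hx3 : B x₀ y₃ = 0 := by
    have := hT₃ (δ x₀) (by simp)
    rw [h.dd] at this
    simpa [hd] using this
  set z : ι → F := (1 : F) • (-(d * B w' y₃) • y₃ + B w' (δ y₃) • δ y₃) with hz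
  have hxc : (w' + x₀) - w' ∈ cen hA M := by
    refine step5 (z := z) h2 (by rw [map_add, hA w', hw'x, add_zero]) hZ (hU y₃ hy₃ 1)
      (ut_isometry hA _ _) ?_ ?_ ?_
    · rw [ut_apply h hA hy₃]
    · rw [ut_apply h hA hy₃]
      simp only [map_add, LinearMap.add_apply, hx3, hx3', add_zero]
      rw [hz]
    · rw [hz]
      simp only [one_smul, map_add, map_smul, smul_eq_mul]
      intro h0
      apply hw'y₃
      exact (h.nonsq (a := B w' y₃) (b := B w' (δ y₃)) (by linear_combination h0)).2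
  rw [add_sub_cancel_left] at hxc
  exact h.claim3 hB h2 hn (h.claim2 hB h2 hn hU hxc hxs hx0)

end Cfsg.Agent.Lib.Helper95SpU
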