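import Cfsg.Agent.Lib.Helper95Cen

set_option autoImplicit false

namespace Cfsg.Agent.Lib.Helper95Swap

open Module LinearMap Cfsg.Agent.Lib.Helper95Sp Cfsg.Agent.Lib.Helper95Cen

variable {K V : Type*} [Field K] [AddCommGroup V] [Module K V]
variable {B : LinearMap.BilinForm K V}

/-- the linear map `x ↦ x + B x a • b - B x b • a` -/
def swL (B : LinearMap.BilinForm K V) (a b : V) : V →ₗ[K] V :=
  LinearMap.id + (B.flip a).smulRight b - (B.flip b).smulRight a

lemma swL_apply (a b x : V) : swL B a b x = x + B x a • b - B x b • a := by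
  simp [swL]

lemma swL_invol (hA : B.IsAlt) (a b : V) (hab : B a b = 2) : Function.Involutive (swL B a b) := by
  intro x
  have hba : B b a = -2 := by rw [alt_swap hA, hab]
  simp only [swL_apply, map_add, map_sub, map_smul, LinearMap.add_apply, LinearMap.sub_apply,
    LinearMap.smul_apply, smul_eq_mul, hA a, hA b, hab, hba]
  module

/-- the elementary swap attached to `a, b` with `B a b = 2` -/
def sw (hA : B.IsAlt) (a b : V) (hab : B a b = 2) : V ≃ₗ[K] V :=
  LinearEquiv.ofInvolutive (swL B a b) (swL_invol hA a b hab)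

lemma sw_apply (hA : B.IsAlt) (a b : V) (hab : B a b = 2) (x : V) :
    sw hA a b hab x = x + B x a • b - B x b • a := by
  simp [sw, swL_apply]

lemma sw_isometry (hA : B.IsAlt) (a b : V) (hab : B a b = 2) (x y : V) :
    B (sw hA a b hab x) (sw hA a b hab y) = B x y := by
  have hba : B b a = -2 := by rw [alt_swap hA, hab]
  have h1 : B a y = - B y a := alt_swap hA _ _
  have h2 : B b y = - B y b := alt_swap hA _ _
  simp only [sw_apply, map_add, map_sub, map_smul, LinearMap.add_apply, LinearMap.sub_apply,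
    LinearMap.smul_apply, smul_eq_mul, hA a, hA b, hab, hba, h1, h2]
  ring

/-- the part of `X` orthogonal to `e` and `f` -/
def cut (B : LinearMap.BilinForm K V) (X : Submodule K V) (e f : V) : Submodule K V :=
  X ⊓ (LinearMap.ker (B.flip e) ⊓ LinearMap.ker (B.flip f))

lemma mem_cut {X : Submodule K V} {e f z : V} :
    z ∈ cut B X e f ↔ z ∈ X ∧ B z e = 0 ∧ B z f = 0 := by
  simp [cut]

lemma cut_decomp (hA : B.IsAlt) {X : Submodule K V} {e f : V} (he : e ∈ X) (hf : f ∈ X)
    (hef : B e f = 1) {x : V} (hx : x ∈ X) :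
    x - (B x f • e - B x e • f) ∈ cut B X e f := by
  have hfe : B f e = -1 := by rw [alt_swap hA, hef]
  rw [mem_cut]
  refine ⟨X.sub_mem hx (X.sub_mem (X.smul_mem _ he) (X.smul_mem _ hf)), ?_, ?_⟩
  · simp only [map_sub, map_smul, LinearMap.sub_apply, LinearMap.smul_apply, smul_eq_mul, hA e, hfe]
    ring
  · simp only [map_sub, map_smul, LinearMap.sub_apply, LinearMap.smul_apply, smul_eq_mul, hA f, hef]
    ring

lemma nd_cut (hA : B.IsAlt) {X : Submodule K V} (hX : nd B X) {e f : V} (he : e ∈ X) (hf : f ∈ X)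
    (hef : B e f = 1) : nd B (cut B X e f) := by
  intro x hx h
  obtain ⟨hxX, hxe, hxf⟩ := mem_cut.1 hx
  apply hX x hxX
  intro z hz
  have h1 := h _ (cut_decomp hA he hf hef hz)
  simp only [map_sub, map_smul, hxe, hxf, smul_zero, sub_zero] at h1
  exact h1

lemma finrank_cut [FiniteDimensional K V] (hA : B.IsAlt) {X : Submodule K V} {e f : V} (he : e ∈ X)
    (hf : f ∈ X) (hef : B e f = 1) : finrank K (cut B X e f) + 2 = finrank K X := by
  have hfe : B f e = -1 := by rw [alt_swap hA, hef]
  have hli : LinearIndependent K ![e, f] := by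
    rw [LinearIndependent.pair_iff]
    intro s t hst
    have h1 : B (s • e + t • f) f = 0 := by rw [hst]; simp
    have h2 : B (s • e + t • f) e = 0 := by rw [hst]; simp
    simp only [map_add, map_smul, LinearMap.add_apply, LinearMap.smul_apply, smul_eq_mul, hA e, hA f,
      hef, hfe] at h1 h2
    constructor
    · simpa using h1
    · simpa using h2
  set P := Submodule.span K (Set.range ![e, f]) with hP
  have hPfr : finrank K P = 2 := by
    rw [hP, finrank_span_eq_card hli]
    simp
  have hPmem : ∀ z, z ∈ P ↔ ∃ s t : K, z = s • e + t • f := by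
    intro z
    rw [hP]
    have : Set.range ![e, f] = {e, f} := by
      ext w
      simp [eq_comm, or_comm]
    rw [this, Submodule.mem_span_pair]
    constructor
    · rintro ⟨s, t, rfl⟩; exact ⟨s, t, rfl⟩
    · rintro ⟨s, t, rfl⟩; exact ⟨s, t, rfl⟩
  have hinf : P ⊓ cut B X e f = ⊥ := by
    rw [eq_bot_iff]
    rintro z ⟨hzP, hzc⟩
    obtain ⟨s, t, rfl⟩ := (hPmem z).1 hzP
    obtain ⟨-, h2, h1⟩ := mem_cut.1 hzc
    simp only [map_add, map_smul, LinearMap.add_apply, LinearMap.smul_apply, smul_eq_mul, hA e, hA f,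
      hef, hfe] at h1 h2
    have hs : s = 0 := by simpa using h1
    have ht : t = 0 := by simpa using h2
    simp [hs, ht]
  have hsup : P ⊔ cut B X e f = X := by
    apply le_antisymm
    · refine sup_le ?_ inf_le_left
      intro z hz
      obtain ⟨s, t, rfl⟩ := (hPmem z).1 hz
      exact X.add_mem (X.smul_mem _ he) (X.smul_mem _ hf)
    · intro x hx
      have h1 := cut_decomp hA he hf hef hx
      have h2 : B x f • e - B x e • f ∈ P := (hPmem _).2 ⟨B x f, - B x e, by simp [sub_eq_add_neg]⟩
      have h3 : x = (B x f • e - B x e • f) + (x - (B x f • e - B x e • f)) := by abel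
      rw [h3]
      exact Submodule.add_mem_sup h2 h1
  have := Submodule.finrank_sup_add_finrank_inf_eq P (cut B X e f)
  rw [hinf, hsup, finrank_bot, hPfr] at this
  omega

lemma exists_hyp (hA : B.IsAlt) {X : Submodule K V} (hX : nd B X) (hX0 : X ≠ ⊥) :
    ∃ e ∈ X, ∃ f ∈ X, B e f = 1 := by
  obtain ⟨e, he, he0⟩ := Submodule.exists_mem_ne_zero_of_ne_bot hX0
  obtain ⟨f, hf, hef⟩ := nd_exists hX he he0
  exact ⟨e, he, (B e f)⁻¹ • f, X.smul_mem _ hf, by simp [hef]⟩

/-- Two orthogonal nondegenerate subspaces of the same dimension are swapped by an isometry fixing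
everything orthogonal to both. -/
theorem exists_swap [FiniteDimensional K V] (hA : B.IsAlt) : ∀ (n : ℕ) (X Y : Submodule K V),
    finrank K X = n → finrank K Y = n → nd B X → nd B Y → (∀ x ∈ X, ∀ y ∈ Y, B x y = 0) →
    ∃ s : V ≃ₗ[K] V, (∀ u v, B (s u) (s v) = B u v) ∧ (∀ x ∈ X, s x ∈ Y) ∧ (∀ y ∈ Y, s y ∈ X) ∧
      (∀ z, (∀ x ∈ X, B z x = 0) → (∀ y ∈ Y, B z y = 0) → s z = z) := by
  intro n
  induction n using Nat.strong_induction_on with
  | _ n ih =>
  intro X Y hXn hYn hX hY hXY
  by_cases hX0 : X = ⊥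
  · have hn : n = 0 := by rw [← hXn, hX0, finrank_bot]
    have hY0 : Y = ⊥ := Submodule.finrank_eq_zero.1 (hYn.trans hn)
    refine ⟨1, fun _ _ => rfl, ?_, ?_, fun _ _ _ => rfl⟩
    · intro x hx
      rw [hX0] at hx
      rw [hY0]
      simpa using hx
    · intro x hx
      rw [hY0] at hx
      rw [hX0]
      simpa using hx
  · have hY0 : Y ≠ ⊥ := by
      intro h
      apply hX0
      apply Submodule.finrank_eq_zero.1
      rw [hXn, ← hYn, h, finrank_bot]
    obtain ⟨e, he, f, hf, hef⟩ := exists_hyp hA hX hX0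
    obtain ⟨e', he', f', hf', hef'⟩ := exists_hyp hA hY hY0
    have hfe : B f e = -1 := by rw [alt_swap hA, hef]
    have hfe' : B f' e' = -1 := by rw [alt_swap hA, hef']
    have c1 : B e e' = 0 := hXY e he e' he'
    have c2 : B e f' = 0 := hXY e he f' hf'
    have c3 : B f e' = 0 := hXY f hf e' he'
    have c4 : B f f' = 0 := hXY f hf f' hf'
    have c1' : B e' e = 0 := alt_zero hA c1
    have c2' : B f' e = 0 := alt_zero hA c2
    have c3' : B e' f = 0 := alt_zero hA c3
    have c4' : B f' f = 0 := alt_zero hA c4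
    have hab : B (e' - e) (f' - f) = 2 := by
      simp only [map_sub, LinearMap.sub_apply, hef, hef', c2, c3']
      ring
    set s0 := sw hA (e' - e) (f' - f) hab with hs0
    have hs0e : s0 e = e' := by
      rw [hs0, sw_apply]
      simp only [map_sub, hA e, c1, c2, hef]
      module
    have hs0f : s0 f = f' := by
      rw [hs0, sw_apply]
      simp only [map_sub, hA f, c3, c4, hfe]
      module
    have hs0e' : s0 e' = e := by
      rw [hs0, sw_apply]
      simp only [map_sub, hA e', c1', c3', hef']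
      module
    have hs0f' : s0 f' = f := by
      rw [hs0, sw_apply]
      simp only [map_sub, hA f', c2', c4', hfe']
      module
    have hs0z : ∀ z, B z e = 0 → B z f = 0 → B z e' = 0 → B z f' = 0 → s0 z = z := by
      intro z h1 h2 h3 h4
      rw [hs0, sw_apply]
      simp only [map_sub, h1, h2, h3, h4]
      module
    have hfrX := finrank_cut hA he hf hef
    have hfrY := finrank_cut hA he' hf' hef'
    obtain ⟨s', hs'iso, hs'X, hs'Y, hs'z⟩ := ih (n - 2) (by omega) (cut B X e f) (cut B Y e' f')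
      (by omega) (by omega) (nd_cut hA hX he hf hef) (nd_cut hA hY he' hf' hef')
      (fun x hx y hy => hXY x (mem_cut.1 hx).1 y (mem_cut.1 hy).1)
    have hs'e : s' e = e := hs'z e (fun x hx => alt_zero hA (mem_cut.1 hx).2.1)
      (fun y hy => hXY e he y (mem_cut.1 hy).1)
    have hs'f : s' f = f := hs'z f (fun x hx => alt_zero hA (mem_cut.1 hx).2.2)
      (fun y hy => hXY f hf y (mem_cut.1 hy).1)
    have hs'e' : s' e' = e' := hs'z e' (fun x hx => alt_zero hA (hXY x (mem_cut.1 hx).1 e' he'))
      (fun y hy => alt_zero hA (mem_cut.1 hy).2.1)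
    have hs'f' : s' f' = f' := hs'z f' (fun x hx => alt_zero hA (hXY x (mem_cut.1 hx).1 f' hf'))
      (fun y hy => alt_zero hA (mem_cut.1 hy).2.2)
    refine ⟨s0 * s', ?_, ?_, ?_, ?_⟩
    · intro u v
      rw [LinearEquiv.mul_apply, LinearEquiv.mul_apply, hs0, sw_isometry, hs'iso]
    · intro x hx
      have h1 := cut_decomp hA he hf hef hx
      have h2 : x = (B x f • e - B x e • f) + (x - (B x f • e - B x e • f)) := by abel
      rw [h2, LinearEquiv.mul_apply, map_add, map_add, map_sub, map_sub, map_smul, map_smul, map_smul,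
        map_smul, hs'e, hs'f, hs0e, hs0f]
      have h3 := hs'X _ h1
      obtain ⟨h4, h5, h6⟩ := mem_cut.1 h3
      rw [hs0z _ (alt_zero hA (hXY e he _ h4)) (alt_zero hA (hXY f hf _ h4)) h5 h6]
      exact Y.add_mem (Y.sub_mem (Y.smul_mem _ he') (Y.smul_mem _ hf')) h4
    · intro x hx
      have h1 := cut_decomp hA he' hf' hef' hx
      have h2 : x = (B x f' • e' - B x e' • f') + (x - (B x f' • e' - B x e' • f')) := by abel
      rw [h2, LinearEquiv.mul_apply, map_add, map_add, map_sub, map_sub, map_smul, map_smul, map_smul,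
        map_smul, hs'e', hs'f', hs0e', hs0f']
      have h3 := hs'Y _ h1
      obtain ⟨h4, h5, h6⟩ := mem_cut.1 h3
      rw [hs0z _ h5 h6 (hXY _ h4 e' he') (hXY _ h4 f' hf')]
      exact X.add_mem (X.sub_mem (X.smul_mem _ he) (X.smul_mem _ hf)) h4
    · intro z hzX hzY
      rw [LinearEquiv.mul_apply, hs'z z (fun x hx => hzX x (mem_cut.1 hx).1)
        (fun y hy => hzY y (mem_cut.1 hy).1)]
      exact hs0z z (hzX e he) (hzX f hf) (hzY e' he') (hzY f' hf')

end Cfsg.Agent.Lib.Helper95Swap
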