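import Cfsg.Agent.Lib.Helper57UConv
import Cfsg.Agent.Lib.Helper74UDec
import Cfsg.Agent.Lib.Helper95O3

set_option autoImplicit false
set_option linter.unusedSectionVars false

/-! PROJECT 4, SU3 piece `su3_E4`: for `q = 3` the subfield group `SO_3(3)` lies in a frame stabiliser. -/

namespace Cfsg.Agent.Lib.Helper95U3E4

open Cfsg Cfsg.Geo Matrix
open Cfsg.Agent.Lib.Helper97AschBase Cfsg.Agent.Lib.Helper97AschForms
  Cfsg.Agent.Lib.Helper97UBase Cfsg.Agent.Lib.Helper13UDefs Cfsg.Agent.Lib.Helper74UDec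
  Cfsg.Agent.Lib.Helper95O3 Cfsg.Agent.Lib.Helper95Basic
open scoped MatrixGroups

variable {F : Type*} [Field F]

section sub

variable {ι : Type} [Fintype ι] [DecidableEq ι]

/-- a vector over the subfield as a vector over `F` -/
def up (F₀ : Subfield F) (u : ι → F₀) : ι → F := fun i => (u i : F)

lemma up_add (F₀ : Subfield F) (u v : ι → F₀) : up F₀ (u + v) = up F₀ u + up F₀ v := rfl

lemma up_smul (F₀ : Subfield F) (c : F₀) (u : ι → F₀) : up F₀ (c • u) = (c : F) • up F₀ u := rfl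

lemma up_neg (F₀ : Subfield F) (u : ι → F₀) : up F₀ (-u) = - up F₀ u := rfl

lemma up_single (F₀ : Subfield F) (j : ι) : up F₀ (Pi.single j 1) = Pi.single j 1 := by
  funext i
  by_cases h : i = j
  · subst h; simp [up]
  · simp [up, Pi.single_eq_of_ne h]

lemma up_injective (F₀ : Subfield F) : Function.Injective (up (ι := ι) F₀) := by
  intro u v h
  funext i
  exact Subtype.ext (congrFun h i)

/-- the shape of the elements of a subfield group -/
lemma exists_matrix {F₀ : Subfield F} {P : GL ι F} {g : GL ι F} (hg : g ∈ subfieldSubgroup F₀ P) :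
    ∃ (A : GL ι F₀) (c : F), c ≠ 0 ∧ ∀ u : ι → F₀,
      (g : Matrix ι ι F) *ᵥ ((P : Matrix ι ι F) *ᵥ up F₀ u)
        = c • ((P : Matrix ι ι F) *ᵥ up F₀ ((A : Matrix ι ι F₀) *ᵥ u)) := by
  obtain ⟨k, hk, rfl⟩ := hg
  obtain ⟨a, ha, s, hs, rfl⟩ := Subgroup.mem_sup_of_normal_right.1 hk
  obtain ⟨A0, rfl⟩ := ha
  obtain ⟨c, hc⟩ := (Cfsg.Geo.mem_scalars_iff s).1 hs
  refine ⟨A0, c, c.ne_zero, fun u => ?_⟩
  have h1 : ((Matrix.GeneralLinearGroup.map (F₀.subtype : F₀ →+* F) A0 : GL ι F) : Matrix ι ι F) *ᵥ up F₀ u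
      = up F₀ ((A0 : Matrix ι ι F₀) *ᵥ u) := by
    funext i
    simp [Matrix.mulVec, dotProduct, up, Matrix.GeneralLinearGroup.map_apply]
  simp only [MulEquiv.coe_toMonoidHom, MulAut.conj_apply]
  rw [mul_mulVec, mul_mulVec, mul_mulVec, Helper95Basic.inv_mulVec_mulVec, hc, Matrix.smul_mulVec,
    Matrix.one_mulVec, Matrix.mulVec_smul, Matrix.mulVec_smul, h1]

end sub

section main

variable [Fintype F] {σ : F ≃+* F} {f : (Fin 3 → F) → (Fin 3 → F) → F}

theorem sub_three_gen (hU : US σ f 3) (F₀ : Subfield F) (P : GL (Fin 3) F)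
    (hc : Fintype.card F = Nat.card F₀ ^ 2) (hP : IsFormRationalStructure f F₀ 1 P) :
    ∃ D : Fin 3 → Submodule F (Fin 3 → F), IsNondegenerateMDecomposition f 1 D ∧
      subfieldSubgroup F₀ P ⊓ Iso f ≤ decompositionStabilizer D := by
  classical
  have hf := hU.unitary
  have hs := sesq_of_unitary hf
  let _ : Fintype F₀ := Fintype.ofFinite F₀
  have hq : Fintype.card F₀ = 3 := by
    have h1 : Nat.card F₀ ^ 2 = 3 ^ 2 := by rw [← hc, hU.card]
    have h2 := Nat.pow_left_injective (n := 2) (by norm_num) h1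
    rw [← Nat.card_eq_fintype_card]
    exact h2
  have hfix : ∀ c : F₀, σ (c : F) = c := by
    intro c
    rw [hU.pow]
    have h := FiniteField.pow_card c
    rw [hq] at h
    exact_mod_cast congrArg (Subtype.val) h
  have hfix' : ∀ c : F, c ∈ F₀ → σ c = c := fun c hc => hfix ⟨c, hc⟩
  obtain ⟨T, hT⟩ : ∃ T : (Fin 3 → F₀) → Fin 3 → F, T = fun u => (P : Matrix (Fin 3) (Fin 3) F) *ᵥ up F₀ u :=
    ⟨_, rfl⟩
  have Tadd : ∀ u v, T (u + v) = T u + T v := by
    intro u v; rw [hT]; simp only [up_add, Matrix.mulVec_add]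
  have Tsmul : ∀ (c : F₀) u, T (c • u) = (c : F) • T u := by
    intro c u; rw [hT]; simp only [up_smul, Matrix.mulVec_smul]
  have Tneg : ∀ u, T (-u) = - T u := by
    intro u; rw [hT]; simp only [up_neg, Matrix.mulVec_neg]
  have hrat : ∀ u v, f (T u) (T v) ∈ F₀ := by
    intro u v
    have := hP (up F₀ u) (up F₀ v) (fun i => (u i).2) (fun i => (v i).2)
    rw [one_mul] at this
    rw [hT]
    exact this
  let b₀ : (Fin 3 → F₀) → (Fin 3 → F₀) → F₀ := fun u v => ⟨f (T u) (T v), hrat u v⟩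
  have hb₀ : ∀ u v, ((b₀ u v : F₀) : F) = f (T u) (T v) := fun _ _ => rfl
  have hsymm : ∀ u v, b₀ u v = b₀ v u := by
    intro u v
    apply Subtype.ext
    rw [hb₀, hb₀, hf.herm, hfix' _ (hrat v u)]
  have hbil : IsBilinearForm b₀ := by
    refine ⟨?_, ?_, ?_, ?_⟩
    · intro x y v
      apply Subtype.ext
      show f (T (x + y)) (T v) = f (T x) (T v) + f (T y) (T v)
      rw [Tadd, hs.add_left]
    · intro c x v
      apply Subtype.ext
      show f (T (c • x)) (T v) = (c : F) * f (T x) (T v)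
      rw [Tsmul, hs.smul_left]
    · intro v x y
      apply Subtype.ext
      show f (T v) (T (x + y)) = f (T v) (T x) + f (T v) (T y)
      rw [Tadd, hs.add_right]
    · intro c v x
      apply Subtype.ext
      show f (T v) (T (c • x)) = (c : F) * f (T v) (T x)
      rw [Tsmul, hs.smul_right, hfix]
  have hnd1 : ∀ v : Fin 3 → F₀, v ≠ 0 → ∃ x, b₀ x v ≠ 0 := by
    intro v hv
    by_contra hcon
    push Not at hcon
    have hTv : T v ≠ 0 := by
      intro h
      apply hv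
      apply up_injective F₀
      have h1 := congrArg (fun w => ((P⁻¹ : GL (Fin 3) F) : Matrix (Fin 3) (Fin 3) F) *ᵥ w) h
      rw [hT] at h1
      simp only [Helper95Basic.inv_mulVec_mulVec, Matrix.mulVec_zero] at h1
      rw [h1]
      rfl
    obtain ⟨x, hx⟩ := (hf.nondegenerate _ hTv).1
    apply hx
    rw [← mul_inv_mulVec P x, expand, form_sum_left hf]
    apply Finset.sum_eq_zero
    intro j _
    have h1 := congrArg Subtype.val (hcon (Pi.single j 1))
    rw [hb₀, hT] at h1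
    simp only [up_single] at h1
    rw [hT, h1]
    simp
  have hsf : IsSymmetricForm b₀ := ⟨hbil, hsymm, fun v hv => ⟨hnd1 v hv, by
    obtain ⟨x, hx⟩ := hnd1 v hv
    exact ⟨x, by rw [hsymm]; exact hx⟩⟩⟩
  obtain ⟨ε, u1, u2, u3, hfr⟩ := exists_fr hq (Helper95Form.toBilin b₀ hbil) hsymm
    (Helper95Form.toBilin_nondegenerate b₀ hbil hsf.nondegenerate) (by simp)
  have huniq := hfr.unique hq hsymm (by simp)
  have hε : (ε : F) ≠ 0 := fun h => hfr.ne (Subtype.ext h)
  let w : Fin 3 → Fin 3 → F₀ := ![u1, u2, u3]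
  obtain ⟨b, hb⟩ : ∃ b : Fin 3 → Fin 3 → F, b = fun i => T (w i) := ⟨_, rfl⟩
  have hww : ∀ i j, b₀ (w i) (w j) = if i = j then ε else 0 := by
    have e11 : b₀ u1 u1 = ε := hfr.xx
    have e22 : b₀ u2 u2 = ε := hfr.yy
    have e33 : b₀ u3 u3 = ε := hfr.zz
    have e12 : b₀ u1 u2 = 0 := hfr.xy
    have e13 : b₀ u1 u3 = 0 := hfr.xz
    have e23 : b₀ u2 u3 = 0 := hfr.yz
    have e21 : b₀ u2 u1 = 0 := by rw [hsymm]; exact e12
    have e31 : b₀ u3 u1 = 0 := by rw [hsymm]; exact e13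
    have e32 : b₀ u3 u2 = 0 := by rw [hsymm]; exact e23
    intro i j
    fin_cases i <;> fin_cases j <;> simp [w, e11, e22, e33, e12, e13, e23, e21, e31, e32]
  have hbb : ∀ i j, f (b i) (b j) = if i = j then (ε : F) else 0 := by
    intro i j
    have h1 := congrArg Subtype.val (hww i j)
    rw [hb₀] at h1
    rw [hb]
    show f (T (w i)) (T (w j)) = _
    rw [h1]
    split_ifs <;> rfl
  have hz : ∀ v, f 0 v = 0 := by
    intro v
    have := hs.smul_left 0 0 v
    simpa using this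
  have hli : LinearIndependent F b := by
    rw [Fintype.linearIndependent_iff]
    intro g hg i
    have h1 := form_sum_left hf g b (b i)
    rw [hg, hz, Finset.sum_eq_single i (fun j _ hj => by rw [hbb, if_neg hj, mul_zero])
      (fun h => absurd (Finset.mem_univ i) h), hbb, if_pos rfl] at h1
    rcases mul_eq_zero.1 h1.symm with h | h
    · exact h
    · exact absurd h hε
  have hb0 : ∀ a, b a ≠ 0 := hli.ne_zero
  have hD : IsNondegenerateMDecomposition f 1 (fun a => Submodule.span F {b a}) := by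
    refine ⟨⟨by norm_num, one_pos, fun a => finrank_span_singleton (hb0 a),
      hli.iSupIndep_span_singleton, ?_⟩, ?_, ?_⟩
    · rw [← Submodule.span_range_eq_iSup]
      exact hli.span_eq_top_of_card_eq_finrank' (by
        rw [Fintype.card_fin, Module.finrank_fintype_fun_eq_card, Fintype.card_fin])
    · intro a x hx hx0
      obtain ⟨r, rfl⟩ := Submodule.mem_span_singleton.1 hx
      have hr : r ≠ 0 := by
        rintro rfl
        exact hx0 (zero_smul _ _)
      refine ⟨⟨b a, Submodule.mem_span_singleton_self _, ?_⟩,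
        ⟨b a, Submodule.mem_span_singleton_self _, ?_⟩⟩
      · rw [hs.smul_right, hbb, if_pos rfl]
        exact mul_ne_zero ((map_ne_zero σ).2 hr) hε
      · rw [hs.smul_left, hbb, if_pos rfl]
        exact mul_ne_zero hr hε
    · intro a a' hne u hu v hv
      obtain ⟨r, rfl⟩ := Submodule.mem_span_singleton.1 hu
      obtain ⟨s, rfl⟩ := Submodule.mem_span_singleton.1 hv
      rw [hs.smul_left, hs.smul_right, hbb, if_neg hne, mul_zero, mul_zero]
  refine ⟨_, hD, ?_⟩
  rintro g ⟨hg1, hg2⟩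
  obtain ⟨A, c, hc0, hA⟩ := exists_matrix hg1
  have hA' : ∀ u, (g : Matrix (Fin 3) (Fin 3) F) *ᵥ T u
      = c • T ((A : Matrix (Fin 3) (Fin 3) F₀) *ᵥ u) := by
    intro u
    rw [hT]
    exact hA u
  have hN : ∀ u v, (c * σ c) * ((b₀ ((A : Matrix (Fin 3) (Fin 3) F₀) *ᵥ u)
      ((A : Matrix (Fin 3) (Fin 3) F₀) *ᵥ v) : F₀) : F) = ((b₀ u v : F₀) : F) := by
    intro u v
    have h1 := (mem_Iso.1 hg2) (T u) (T v)
    rw [hA', hA', hs.smul_left, hs.smul_right] at h1
    rw [hb₀, hb₀, ← h1]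
    ring
  have hμ := similarity_eq_one hq b₀ hsf A
    (b₀ ((A : Matrix (Fin 3) (Fin 3) F₀) *ᵥ u1) ((A : Matrix (Fin 3) (Fin 3) F₀) *ᵥ u1) / ε) (by
      intro u v
      apply Subtype.ext
      have h1 := hN u v
      have h2 := hN u1 u1
      have e11 : b₀ u1 u1 = ε := hfr.xx
      rw [e11] at h2
      push_cast
      rw [← h1, ← h2]
      have hσc : σ c ≠ 0 := (map_ne_zero σ).2 hc0
      have h3 : ((b₀ ((A : Matrix (Fin 3) (Fin 3) F₀) *ᵥ u1)
        ((A : Matrix (Fin 3) (Fin 3) F₀) *ᵥ u1) : F₀) : F) ≠ 0 := by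
        intro h
        rw [h, mul_zero] at h2
        exact hε h2.symm
      field_simp)
  have e11 : b₀ u1 u1 = ε := hfr.xx
  have hcc : c * σ c = 1 := by
    have h2 := hN u1 u1
    rw [e11] at h2
    rw [div_eq_one_iff_eq hfr.ne] at hμ
    rw [hμ] at h2
    exact mul_right_cancel₀ hε (by rw [h2, one_mul])
  have hiso : ∀ u v, b₀ ((A : Matrix (Fin 3) (Fin 3) F₀) *ᵥ u) ((A : Matrix (Fin 3) (Fin 3) F₀) *ᵥ v)
      = b₀ u v := by
    intro u v
    apply Subtype.ext
    rw [← hN u v, hcc, one_mul]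
  apply mem_stab_of_le hD.decomp
  intro i
  have hi : b₀ ((A : Matrix (Fin 3) (Fin 3) F₀) *ᵥ w i) ((A : Matrix (Fin 3) (Fin 3) F₀) *ᵥ w i) = ε := by
    rw [hiso, hww, if_pos rfl]
  have hex : ∃ j, (A : Matrix (Fin 3) (Fin 3) F₀) *ᵥ w i = w j ∨
      (A : Matrix (Fin 3) (Fin 3) F₀) *ᵥ w i = - w j := by
    rcases huniq _ hi with h | h | h | h | h | h
    · exact ⟨0, Or.inl h⟩
    · exact ⟨0, Or.inr h⟩
    · exact ⟨1, Or.inl h⟩
    · exact ⟨1, Or.inr h⟩
    · exact ⟨2, Or.inl h⟩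
    · exact ⟨2, Or.inr h⟩
  obtain ⟨j, hj⟩ := hex
  refine ⟨j, fun v hv => ?_⟩
  obtain ⟨r, rfl⟩ := Submodule.mem_span_singleton.1 hv
  have hbi : ∀ i, b i = T (w i) := fun i => by rw [hb]
  rw [Matrix.mulVec_smul, hbi i, hA']
  apply Submodule.smul_mem
  apply Submodule.smul_mem
  rcases hj with h | h
  · rw [h, ← hbi]
    exact Submodule.mem_span_singleton_self _
  · rw [h, Tneg, ← hbi]
    exact Submodule.neg_mem _ (Submodule.mem_span_singleton_self _)

/-- E4: q = 3, SO3(3) = S4 lies in a frame stabiliser -/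
theorem sub_three (hF : Fintype.card F = 9)
    (F₀ : Subfield F) (P : GL (Fin 3) F) (hc : Fintype.card F = Nat.card F₀ ^ 2)
    (hP : IsFormRationalStructure (hermForm 3 F 3) F₀ 1 P) :
    ∃ D : Fin 3 → Submodule F (Fin 3 → F), IsNondegenerateMDecomposition (hermForm 3 F 3) 1 D ∧
      subfieldSubgroup F₀ P ⊓ (GU 3 F 3 ⊓ specialLinear (Fin 3) F) ≤ decompositionStabilizer D := by
  obtain ⟨σ, hU⟩ := Cfsg.Agent.Lib.Helper57UConv.exists_US (n := 3) (q := 3) (by rw [hF]; norm_num)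
  obtain ⟨D, hD, hle⟩ := sub_three_gen hU F₀ P hc hP
  exact ⟨D, hD, fun g hg => hle ⟨hg.1, hg.2.1⟩⟩

end main

end Cfsg.Agent.Lib.Helper95U3E4
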