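import Cfsg.Agent.Lib.Helper95U3E5b

set_option autoImplicit false
set_option linter.unusedSectionVars false

/-! PROJECT 4, SU3 (`q = 5`): subgroups of `SU_3(5)` which, up to conjugation in `GU_3(5)`, stabilise the 105 points are
not maximal. -/

namespace Cfsg.Agent.Lib.Helper95U3NotMax

open Cfsg Cfsg.Geo Matrix Cfsg.Agent.Lib.Helper12U3Mask Cfsg.Agent.Lib.Helper13UDefs
  Cfsg.Agent.Lib.Helper97UBase
open scoped MatrixGroups

variable {F : Type*} [Field F] [Fintype F]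

lemma five_eq_zero (hF : Fintype.card F = 25) : (5 : F) = 0 := by
  have h := Nat.cast_card_eq_zero F
  rw [hF] at h
  have h5 : (5 : F) * 5 = 0 := by
    have : ((25 : ℕ) : F) = 5 * 5 := by norm_num
    rw [← this]
    exact h
  exact mul_self_eq_zero.mp h5

lemma two_ne_zero' (hF : Fintype.card F = 25) : (2 : F) ≠ 0 := by
  intro h
  have h5 := five_eq_zero hF
  exact one_ne_zero (α := F) (by linear_combination h5 - 2 * h)

/-- an element of `SU_3(5)` which does not stabilise the 105 points -/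
theorem exists_not_mem_stabA (hF : Fintype.card F = 25) :
    ∃ t : GL (Fin 3) F, t ∈ GU 3 F 5 ⊓ specialLinear (Fin 3) F ∧ t ∉ stabA F := by
  obtain ⟨σ, hU⟩ := Cfsg.Agent.Lib.Helper57UConv.exists_US (F := F) (n := 3) (q := 5)
    (by rw [hF]; norm_num)
  have hσ := hU.pow
  have hf := hU.unitary
  have h5 := five_eq_zero hF
  have h2 := two_ne_zero' hF
  have h25 : ∀ x : F, x ^ 25 = x := by
    intro x
    rw [← hF]
    exact FiniteField.pow_card x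
  obtain ⟨a, ha⟩ := Cfsg.Agent.Lib.Helper17Herm.norm_surj (σ : F →+* F) (herm_of_unitary hf).ne_id
    hf.involutive 2 h2 (map_ofNat σ 2)
  obtain ⟨b, hb⟩ := Cfsg.Agent.Lib.Helper17Herm.norm_surj (σ : F →+* F) (herm_of_unitary hf).ne_id
    hf.involutive 4 (by
      intro h
      apply h2
      have : (2 : F) * 2 = 0 := by linear_combination h
      exact mul_self_eq_zero.mp this) (map_ofNat σ 4)
  have ha' : a * a ^ 5 = 2 := by rw [← hσ]; exact ha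
  have hb' : b * b ^ 5 = 4 := by rw [← hσ]; exact hb
  have hdet : (!![a, b, 0; -(b ^ 5), a ^ 5, 0; 0, 0, 1] : Matrix (Fin 3) (Fin 3) F).det = 1 := by
    rw [Matrix.det_fin_three]
    simp
    linear_combination ha' + hb' + h5
  let t : GL (Fin 3) F := Matrix.GeneralLinearGroup.mkOfDetNeZero
    (!![a, b, 0; -(b ^ 5), a ^ 5, 0; 0, 0, 1] : Matrix (Fin 3) (Fin 3) F) (by rw [hdet]; exact one_ne_zero)
  have ht : (t : Matrix (Fin 3) (Fin 3) F) = !![a, b, 0; -(b ^ 5), a ^ 5, 0; 0, 0, 1] := rfl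
  refine ⟨t, ⟨(Cfsg.Agent.Lib.Helper67UField.mem_GU_iff' hσ t).2 ?_,
    (Cfsg.Agent.Lib.Helper67UField.mem_SL_iff t).2 ?_⟩, ?_⟩
  · rw [ht]
    ext i j
    fin_cases i <;> fin_cases j <;>
      simp [Matrix.mul_apply, Fin.sum_univ_three, hσ, ← pow_mul, h25, Odd.neg_pow (by decide : Odd 5)]
    · linear_combination ha' + hb' + h5
    · ring
    · ring
    · linear_combination ha' + hb' + h5
  · rw [ht, hdet]
  · intro hmem
    have h1 := (hmem (Pi.single 0 1)).2 (by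
      rw [PA_iff_PA3]
      unfold PA3
      simp)
    rw [PA_iff_PA3, ht] at h1
    have e0 : ((!![a, b, 0; -(b ^ 5), a ^ 5, 0; 0, 0, 1] : Matrix (Fin 3) (Fin 3) F) *ᵥ Pi.single 0 1) 0 = a := by
      simp
    have e1 : ((!![a, b, 0; -(b ^ 5), a ^ 5, 0; 0, 0, 1] : Matrix (Fin 3) (Fin 3) F) *ᵥ Pi.single 0 1) 1
        = -(b ^ 5) := by
      simp
    have e2 : ((!![a, b, 0; -(b ^ 5), a ^ 5, 0; 0, 0, 1] : Matrix (Fin 3) (Fin 3) F) *ᵥ Pi.single 0 1) 2 = 0 := by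
      simp
    rw [e0, e1, e2] at h1
    obtain ⟨-, h3, -⟩ := h1
    have a6 : a ^ 6 = 2 := by rw [← ha']; ring
    have b6 : (-(b ^ 5)) ^ 6 = 4 := by
      calc (-(b ^ 5)) ^ 6 = (b * b ^ 5) ^ 5 := by ring
        _ = 4 := by
          rw [hb']
          linear_combination 204 * h5
    rw [a6, b6] at h3
    rcases h3 with h | h | h
    · apply h2
      linear_combination -h
    · apply h2
      simpa using h
    · apply h2
      have : (2 : F) * 2 = 0 := by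
        have h' : (4 : F) = 0 := by simpa using h
        linear_combination h'
      exact mul_self_eq_zero.mp this

lemma conj_mem_G {g0 : GL (Fin 3) F} (hg0 : g0 ∈ GU 3 F 5) {x : GL (Fin 3) F}
    (hx : x ∈ GU 3 F 5 ⊓ specialLinear (Fin 3) F) :
    g0 * x * g0⁻¹ ∈ GU 3 F 5 ⊓ specialLinear (Fin 3) F := by
  refine ⟨(GU 3 F 5).mul_mem ((GU 3 F 5).mul_mem hg0 hx.1) ((GU 3 F 5).inv_mem hg0), ?_⟩
  have h1 : Matrix.GeneralLinearGroup.det x = 1 := hx.2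
  show Matrix.GeneralLinearGroup.det (g0 * x * g0⁻¹) = 1
  rw [map_mul, map_mul, h1, mul_one, map_inv, mul_inv_cancel]

/-- the general non-maximality criterion -/
theorem not_max (hF : Fintype.card F = 25) (H : Subgroup (GL (Fin 3) F)) (g0 : GL (Fin 3) F)
    (hg0 : g0 ∈ GU 3 F 5)
    (h1 : ∀ g ∈ H ⊓ (GU 3 F 5 ⊓ specialLinear (Fin 3) F), g0⁻¹ * g * g0 ∈ stabA F)
    (h2 : ∃ r ∈ stabA F ⊓ (GU 3 F 5 ⊓ specialLinear (Fin 3) F), g0 * r * g0⁻¹ ∉ H) :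
    ¬ IsMaximalIn (GU 3 F 5 ⊓ specialLinear (Fin 3) F)
      (H ⊓ (GU 3 F 5 ⊓ specialLinear (Fin 3) F)) := by
  intro hmax
  have hg0' : g0⁻¹ ∈ GU 3 F 5 := (GU 3 F 5).inv_mem hg0
  let L : Subgroup (GL (Fin 3) F) :=
    (stabA F ⊓ (GU 3 F 5 ⊓ specialLinear (Fin 3) F)).comap (MulAut.conj g0⁻¹).toMonoidHom
  have hL : ∀ x, x ∈ L ↔ g0⁻¹ * x * g0 ∈ stabA F ⊓ (GU 3 F 5 ⊓ specialLinear (Fin 3) F) := by
    intro x
    show (MulAut.conj g0⁻¹) x ∈ stabA F ⊓ (GU 3 F 5 ⊓ specialLinear (Fin 3) F) ↔ _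
    rw [MulAut.conj_apply, inv_inv]
  have hle : H ⊓ (GU 3 F 5 ⊓ specialLinear (Fin 3) F) ≤ L := by
    intro g hg
    rw [hL]
    refine ⟨h1 g hg, ?_⟩
    have := conj_mem_G hg0' hg.2
    rwa [inv_inv] at this
  have hLG : L ≤ GU 3 F 5 ⊓ specialLinear (Fin 3) F := by
    intro x hx
    rw [hL] at hx
    have := conj_mem_G hg0 hx.2
    have e : g0 * (g0⁻¹ * x * g0) * g0⁻¹ = x := by group
    rwa [e] at this
  rcases hmax.2 L hle hLG with h | h
  · obtain ⟨r, hr, hrH⟩ := h2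
    apply hrH
    have hrL : g0 * r * g0⁻¹ ∈ L := by
      rw [hL]
      have e : g0⁻¹ * (g0 * r * g0⁻¹) * g0 = r := by group
      rw [e]
      exact hr
    rw [h] at hrL
    exact hrL.1
  · obtain ⟨t, ht, htA⟩ := exists_not_mem_stabA hF
    apply htA
    have htL : g0 * t * g0⁻¹ ∈ L := by
      rw [h]
      exact conj_mem_G hg0 ht
    rw [hL] at htL
    have e : g0⁻¹ * (g0 * t * g0⁻¹) * g0 = t := by group
    rw [e] at htL
    exact htL.1

/-- E5: q = 5, 3 x SO3(5) = 3 x S5 < 3.A7 -/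
theorem sub_five (hF : Fintype.card F = 25)
    (F₀ : Subfield F) (P : GL (Fin 3) F) (hc : Fintype.card F = Nat.card F₀ ^ 2)
    (hP : IsFormRationalStructure (hermForm 3 F 5) F₀ 1 P) :
    ¬ IsMaximalIn (GU 3 F 5 ⊓ specialLinear (Fin 3) F)
      (subfieldSubgroup F₀ P ⊓ (GU 3 F 5 ⊓ specialLinear (Fin 3) F)) := by
  obtain ⟨σ, hU⟩ := Cfsg.Agent.Lib.Helper57UConv.exists_US (F := F) (n := 3) (q := 5)
    (by rw [hF]; norm_num)
  have hσ := hU.pow
  obtain ⟨g0, hg0, hPg⟩ := Cfsg.Agent.Lib.Helper95U3E5a.normal_form5_std hF F₀ P hc hP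
  have h5 : ∀ a ∈ F₀, a ^ 5 = a := by
    intro a ha
    rw [← hσ]
    exact Cfsg.Agent.Lib.Helper95U3E5a.sigma_fix hU F₀ hc a ha
  rw [hPg]
  apply not_max hF _ g0 hg0
  · intro g hg
    have h1 := (Cfsg.Agent.Lib.Helper95U3E5b.mem_subfieldSubgroup_conj F₀ g0 g).1 hg.1
    obtain ⟨c, hc0, M, hM, hcM⟩ := Cfsg.Agent.Lib.Helper95U3E5b.exists_real_of_mem h1
    apply Cfsg.Agent.Lib.Helper95U3E5b.real_mem_stabA hF
    · exact (GU 3 F 5).mul_mem ((GU 3 F 5).mul_mem ((GU 3 F 5).inv_mem hg0) hg.2.1) hg0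
    · exact ⟨c, hc0, M, fun i j => h5 _ (hM i j), hcM⟩
  · obtain ⟨ω, hω1, hω⟩ := Cfsg.Agent.Lib.Helper95U3E5b.exists_omega hF
    refine ⟨Cfsg.Agent.Lib.Helper95U3E5b.dg ω hω,
      ⟨Cfsg.Agent.Lib.Helper95U3E5b.dg_mem_stabA ω hω,
        Cfsg.Agent.Lib.Helper95U3E5b.dg_mem_GU hσ ω hω, Cfsg.Agent.Lib.Helper95U3E5b.dg_mem_SL ω hω⟩, ?_⟩
    intro hmem
    rw [Cfsg.Agent.Lib.Helper95U3E5b.mem_subfieldSubgroup_conj] at hmem
    have e : g0⁻¹ * (g0 * Cfsg.Agent.Lib.Helper95U3E5b.dg ω hω * g0⁻¹) * g0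
        = Cfsg.Agent.Lib.Helper95U3E5b.dg ω hω := by group
    rw [e] at hmem
    exact Cfsg.Agent.Lib.Helper95U3E5b.dg_not_mem F₀ h5 ω hω hω1 hmem

end Cfsg.Agent.Lib.Helper95U3NotMax
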