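import Cfsg.Agent.Lib.Helper13UDefs
import Cfsg.Agent.Lib.Helper95Tens

set_option autoImplicit false
set_option linter.unusedSectionVars false

/-! PROJECT 4 = ASCH-U, piece `tensor2`. -/

namespace Cfsg.Agent.Lib.Helper95UTensor2

open Cfsg Cfsg.Geo Matrix
open Cfsg.Agent.Lib.Helper97AschBase Cfsg.Agent.Lib.Helper97UBase Cfsg.Agent.Lib.Helper13UDefs
  Cfsg.Agent.Lib.Helper95Tens
open scoped MatrixGroups Kronecker

variable {n : ℕ} {F : Type*} [Field F] {σ : F ≃+* F} {f : (Fin n → F) → (Fin n → F) → F}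

/-- the standard hermitian form -/
def hs (σ : F ≃+* F) {k : ℕ} (x y : Fin k → F) : F := ∑ a, x a * σ (y a)

lemma hs_single_left {k : ℕ} (j : Fin k) (y : Fin k → F) : hs σ (Pi.single j 1) y = σ (y j) := by
  unfold hs
  rw [Finset.sum_eq_single j]
  · simp
  · intro b _ hb
    simp [Pi.single_eq_of_ne hb]
  · simp

lemma hs_single_right {k : ℕ} (j : Fin k) (y : Fin k → F) : hs σ y (Pi.single j 1) = y j := by
  unfold hs
  rw [Finset.sum_eq_single j]
  · simp
  · intro b _ hb
    simp [Pi.single_eq_of_ne hb]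
  · simp

lemma hs_smul_left {k : ℕ} (c : F) (x y : Fin k → F) : hs σ (c • x) y = c * hs σ x y := by
  unfold hs
  rw [Finset.mul_sum]
  refine Finset.sum_congr rfl fun a _ => ?_
  simp [mul_assoc]

lemma hs_smul_right {k : ℕ} (c : F) (x y : Fin k → F) : hs σ x (c • y) = σ c * hs σ x y := by
  unfold hs
  rw [Finset.mul_sum]
  refine Finset.sum_congr rfl fun a _ => ?_
  simp only [Pi.smul_apply, smul_eq_mul, map_mul]
  ring

/-- the form on pure tensors in an orthonormal basis -/
lemma form_tau {n₁ n₂ : ℕ} (e : Fin n ≃ Fin n₁ × Fin n₂) {P : GL (Fin n) F} (hP : IsON σ f P)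
    (x y : Fin n₁ → F) (u v : Fin n₂ → F) :
    f (tau e P x u) (tau e P y v) = hs σ x y * hs σ u v := by
  unfold tau emb
  rw [hP]
  have h1 := Equiv.sum_comp e (fun p => tp x u p * σ (tp y v p))
  simp only [Function.comp_apply]
  rw [h1, Fintype.sum_prod_type]
  unfold hs
  rw [Finset.sum_mul_sum]
  refine Finset.sum_congr rfl fun a _ => Finset.sum_congr rfl fun b _ => ?_
  simp only [tp, map_mul]
  ring

/-- the blocks `e_i ⊗ F^s` -/
def blk {n₁ n₂ : ℕ} (e : Fin n ≃ Fin n₁ × Fin n₂) (P : GL (Fin n) F) (i : Fin n₁) :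
    (Fin n₂ → F) →ₗ[F] (Fin n → F) where
  toFun := tau e P (Pi.single i 1)
  map_add' := tau_add_right e P _
  map_smul' c u := tau_smul_right e P c _ u

lemma blk_apply {n₁ n₂ : ℕ} (e : Fin n ≃ Fin n₁ × Fin n₂) (P : GL (Fin n) F) (i : Fin n₁)
    (u : Fin n₂ → F) : blk e P i u = tau e P (Pi.single i 1) u := rfl

lemma unitary_zero_right (hf : IsUnitaryForm σ f) (v : Fin n → F) : f v 0 = 0 := by
  have h := hf.smul_left 0 0 v
  rw [hf.herm v 0]
  simp only [zero_smul, zero_mul] at h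
  rw [h, map_zero]

lemma unitary_add_right (hf : IsUnitaryForm σ f) (v x y : Fin n → F) :
    f v (x + y) = f v x + f v y := by
  rw [hf.herm v (x + y), hf.add_left, map_add, ← hf.herm, ← hf.herm]

lemma unitary_smul_right (hf : IsUnitaryForm σ f) (c : F) (v x : Fin n → F) :
    f v (c • x) = σ c * f v x := by
  rw [hf.herm v (c • x), hf.smul_left, map_mul, ← hf.herm]

/-- pairwise orthogonal non-degenerate subspaces are independent -/
lemma indep_of_orth (hf : IsUnitaryForm σ f) {t : ℕ} (D : Fin t → Submodule F (Fin n → F))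
    (hnd : ∀ i, IsNondegenerateOn f (D i)) (ho : ∀ i j, i ≠ j → AreOrthogonalFor f (D i) (D j)) :
    iSupIndep D := by
  rw [iSupIndep_def]
  intro i
  rw [Submodule.disjoint_def]
  intro x hx hx2
  let S : Submodule F (Fin n → F) :=
    { carrier := {v | ∀ u ∈ D i, f u v = 0}
      add_mem' := fun {a b} ha hb u hu => by rw [unitary_add_right hf, ha u hu, hb u hu, add_zero]
      zero_mem' := fun u _ => unitary_zero_right hf u
      smul_mem' := fun c a ha u hu => by rw [unitary_smul_right hf, ha u hu, mul_zero] }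
  have hle : (⨆ j, ⨆ (_ : j ≠ i), D j) ≤ S := by
    apply iSup₂_le
    intro j hj v hv u hu
    exact ho i j (Ne.symm hj) u hu v hv
  by_contra hx0
  obtain ⟨u, hu, hux⟩ := (hnd i x hx hx0).1
  exact hux (hle hx2 u hu)

/-- the blocks of a tensor decomposition in an orthonormal basis -/
theorem tensor_blocks (hf : IsUnitaryForm σ f) {n₁ n₂ : ℕ} (h1 : 2 ≤ n₁) (h2 : 0 < n₂)
    (e : Fin n ≃ Fin n₁ × Fin n₂) {P : GL (Fin n) F} (hP : IsON σ f P) :
    IsNondegenerateMDecomposition f n₂ (fun i => LinearMap.range (blk e P i)) := by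
  classical
  have hform := form_tau (f := f) e hP
  have hss : ∀ i i' : Fin n₁, hs σ (Pi.single i (1 : F)) (Pi.single i' 1) = if i = i' then 1 else 0 := by
    intro i i'
    rw [hs_single_left]
    by_cases h : i = i'
    · subst h; simp
    · rw [if_neg h, Pi.single_eq_of_ne h, map_zero]
  have hnd : ∀ i, IsNondegenerateOn f (LinearMap.range (blk e P i)) := by
    rintro i _ ⟨y, rfl⟩ hw0
    have hy : y ≠ 0 := by
      rintro rfl
      exact hw0 (map_zero _)
    obtain ⟨j, hj⟩ : ∃ j, y j ≠ 0 := by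
      by_contra hcon
      push Not at hcon
      exact hy (funext hcon)
    refine ⟨⟨blk e P i (Pi.single j 1), ⟨_, rfl⟩, ?_⟩, ⟨blk e P i (Pi.single j 1), ⟨_, rfl⟩, ?_⟩⟩
    · rw [blk_apply, blk_apply, hform, hss, if_pos rfl, one_mul, hs_single_left]
      simpa using hj
    · rw [blk_apply, blk_apply, hform, hss, if_pos rfl, one_mul, hs_single_right]
      exact hj
  have ho : ∀ i j, i ≠ j →
      AreOrthogonalFor f (LinearMap.range (blk e P i)) (LinearMap.range (blk e P j)) := by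
    rintro i j hij _ ⟨y, rfl⟩ _ ⟨y', rfl⟩
    rw [blk_apply, blk_apply, hform, hss, if_neg hij, zero_mul]
  refine ⟨⟨h1, h2, fun i => ?_, indep_of_orth hf _ hnd ho, ?_⟩, hnd, ho⟩
  · rw [LinearMap.finrank_range_of_inj, Module.finrank_fin_fun]
    rw [← LinearMap.ker_eq_bot, LinearMap.ker_eq_bot']
    intro y hy
    funext j
    have := hform (Pi.single i 1) (Pi.single i 1) y (Pi.single j 1)
    rw [← blk_apply, hy, hss, if_pos rfl, one_mul, hs_single_right] at this
    have h0 := hf.smul_left 0 0 (tau e P (Pi.single i 1) (Pi.single j 1))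
    simp only [zero_smul, zero_mul] at h0
    rw [h0] at this
    exact this.symm
  · rw [eq_top_iff]
    intro v _
    obtain ⟨z, rfl⟩ : ∃ z : Fin n₁ × Fin n₂ → F, v = emb e P z := by
      refine ⟨(((P⁻¹ : GL (Fin n) F) : Matrix (Fin n) (Fin n) F) *ᵥ v) ∘ e.symm, ?_⟩
      unfold emb
      have : ((((P⁻¹ : GL (Fin n) F) : Matrix (Fin n) (Fin n) F) *ᵥ v) ∘ e.symm) ∘ e
          = ((P⁻¹ : GL (Fin n) F) : Matrix (Fin n) (Fin n) F) *ᵥ v := by
        funext p; simp
      rw [this, Cfsg.Agent.Lib.Helper95Basic.mulVec_inv_mulVec]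
    have hz : z = ∑ i, tp (Pi.single i 1) (fun j => z (i, j)) := by
      funext ⟨a, b⟩
      rw [Finset.sum_apply, Finset.sum_eq_single a]
      · simp [tp]
      · intro c _ hc
        simp [tp, Pi.single_eq_of_ne (Ne.symm hc)]
      · simp
    have hemb : ∀ (s : Finset (Fin n₁)) (w : Fin n₁ → Fin n₁ × Fin n₂ → F),
        emb e P (∑ i ∈ s, w i) = ∑ i ∈ s, emb e P (w i) := by
      intro s w
      induction s using Finset.induction_on with
      | empty =>
        simp only [Finset.sum_empty]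
        unfold emb
        have : (0 : Fin n₁ × Fin n₂ → F) ∘ e = 0 := rfl
        rw [this, Matrix.mulVec_zero]
      | insert a s ha ih => rw [Finset.sum_insert ha, Finset.sum_insert ha, emb_add, ih]
    rw [hz, hemb]
    apply Submodule.sum_mem
    intro i _
    exact Submodule.mem_iSup_of_mem i ⟨_, rfl⟩

section four

variable [Fintype F]

lemma two_eq_zero4 (hF : Fintype.card F = 2 ^ 2) : (2 : F) = 0 := by
  have h := Nat.cast_card_eq_zero F
  rw [hF] at h
  have h4 : (2 : F) * 2 = 0 := by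
    have : ((2 ^ 2 : ℕ) : F) = 2 * 2 := by norm_num
    rw [← this]; exact h
  rcases mul_eq_zero.1 h4 with h | h <;> exact h

lemma norm_eq_one4 (hF : Fintype.card F = 2 ^ 2) (hσ : ∀ a, σ a = a ^ 2) {c : F} (hc : c ≠ 0) :
    c * σ c = 1 := by
  have h := FiniteField.pow_card_sub_one_eq_one c hc
  rw [hF] at h
  rw [hσ]
  have : c * c ^ 2 = c ^ (2 ^ 2 - 1) := by norm_num; ring
  rw [this, h]

/-- a non-singular vector of the standard unitary plane over `F_4` is a multiple of a basis vector -/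
lemma nonsing_plane (hF : Fintype.card F = 2 ^ 2) (hσ : ∀ a, σ a = a ^ 2) (x : Fin 2 → F)
    (hx : hs σ x x ≠ 0) : ∃ (j : Fin 2) (c : F), c ≠ 0 ∧ x = c • Pi.single j 1 := by
  have h2 := two_eq_zero4 hF
  have hexp : hs σ x x = x 0 * σ (x 0) + x 1 * σ (x 1) := by
    unfold hs
    rw [Fin.sum_univ_two]
  by_cases h0 : x 0 = 0
  · by_cases h1 : x 1 = 0
    · exfalso
      apply hx
      rw [hexp, h0, h1]
      simp
    · refine ⟨1, x 1, h1, ?_⟩
      funext k
      fin_cases k <;> simp [h0]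
  · by_cases h1 : x 1 = 0
    · refine ⟨0, x 0, h0, ?_⟩
      funext k
      fin_cases k <;> simp [h1]
    · exfalso
      apply hx
      rw [hexp, norm_eq_one4 hF hσ h0, norm_eq_one4 hF hσ h1]
      linear_combination h2

/-- [tensor2] `q = 2`: if `a ⊗ b` is an isometry then `a` is a similarity of the standard form on `F^2`, so it permutes the two
non-singular points `⟨e₀⟩, ⟨e₁⟩`; hence `a ⊗ b` permutes `D' i = P (e_i ⊗ F^s)`. -/
theorem tensor_two_u (hU : US σ f 2) {s : ℕ} (hs' : 0 < s) (e : Fin n ≃ Fin 2 × Fin s)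
    {P : GL (Fin n) F} (hP : IsON σ f P) :
    ∃ D' : Fin 2 → Submodule F (Fin n → F), IsNondegenerateMDecomposition f s D' ∧
      tensorProductSubgroup 2 s e P ⊓ Iso f ≤ decompositionStabilizer D' := by
  classical
  have hf := hU.unitary
  have hform := form_tau (f := f) e hP
  refine ⟨_, tensor_blocks hf le_rfl hs' e hP, ?_⟩
  rintro g ⟨hgT, hgI⟩
  obtain ⟨a, b, hab⟩ := tensor_act e P g hgT
  have hiso : ∀ x y u v, hs σ ((a : Matrix (Fin 2) (Fin 2) F) *ᵥ x) ((a : Matrix (Fin 2) (Fin 2) F) *ᵥ y) *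
      hs σ ((b : Matrix (Fin s) (Fin s) F) *ᵥ u) ((b : Matrix (Fin s) (Fin s) F) *ᵥ v) = hs σ x y * hs σ u v := by
    intro x y u v
    rw [← hform, ← hform, ← hab, ← hab]
    exact mem_Iso.1 hgI _ _
  let j0 : Fin s := ⟨0, hs'⟩
  set β := hs σ ((b : Matrix (Fin s) (Fin s) F) *ᵥ Pi.single j0 1) ((b : Matrix (Fin s) (Fin s) F) *ᵥ Pi.single j0 1) with hβ
  have hsim : ∀ x y, hs σ ((a : Matrix (Fin 2) (Fin 2) F) *ᵥ x) ((a : Matrix (Fin 2) (Fin 2) F) *ᵥ y) * β = hs σ x y := by
    intro x y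
    have := hiso x y (Pi.single j0 1) (Pi.single j0 1)
    rw [hs_single_left, Pi.single_eq_same, map_one, mul_one] at this
    exact this
  have hss : ∀ i i' : Fin 2, hs σ (Pi.single i (1 : F)) (Pi.single i' 1) = if i = i' then 1 else 0 := by
    intro i i'
    rw [hs_single_left]
    by_cases h : i = i'
    · subst h; simp
    · rw [if_neg h, Pi.single_eq_of_ne h, map_zero]
  have hβ0 : β ≠ 0 := by
    intro h0
    have := hsim (Pi.single 0 1) (Pi.single 0 1)
    rw [h0, mul_zero, hss, if_pos rfl] at this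
    exact zero_ne_one this
  have hex : ∀ i : Fin 2, ∃ (j : Fin 2) (c : F), c ≠ 0 ∧
      (a : Matrix (Fin 2) (Fin 2) F) *ᵥ Pi.single i 1 = c • Pi.single j 1 := by
    intro i
    apply nonsing_plane hU.card hU.pow
    intro h0
    have := hsim (Pi.single i 1) (Pi.single i 1)
    rw [h0, zero_mul, hss, if_pos rfl] at this
    exact zero_ne_one this
  choose φ c hc hφ using hex
  have hinj : Function.Injective φ := by
    intro i i' hii
    by_contra hne
    have := hsim (Pi.single i 1) (Pi.single i' 1)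
    rw [hφ, hφ, hii, hs_smul_left, hs_smul_right, hss, hss, if_pos rfl, if_neg hne] at this
    have h3 : σ (c i') ≠ 0 := by simpa using hc i'
    exact mul_ne_zero (mul_ne_zero (hc i) (mul_ne_zero h3 one_ne_zero)) hβ0 this
  refine ⟨Equiv.ofBijective φ (Finite.injective_iff_bijective.1 hinj), fun i => ?_⟩
  rw [Equiv.ofBijective_apply]
  apply le_antisymm
  · rintro _ ⟨_, ⟨y, rfl⟩, rfl⟩
    rw [Matrix.toLin'_apply, blk_apply, hab, hφ, tau_smul_left, ← tau_smul_right]
    exact ⟨_, rfl⟩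
  · rintro _ ⟨y, rfl⟩
    refine ⟨blk e P i (((b⁻¹ : GL (Fin s) F) : Matrix (Fin s) (Fin s) F) *ᵥ ((c i)⁻¹ • y)), ⟨_, rfl⟩, ?_⟩
    rw [Matrix.toLin'_apply, blk_apply, hab, hφ, Cfsg.Agent.Lib.Helper95Basic.mulVec_inv_mulVec,
      tau_smul_left, tau_smul_right, smul_smul, mul_inv_cancel₀ (hc i), one_smul, blk_apply]

end four

end Cfsg.Agent.Lib.Helper95UTensor2
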