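import Cfsg.Agent.Lib.Helper95UTensform
import Cfsg.Agent.Lib.Helper95UTensor2
import Cfsg.Agent.Lib.Helper60UPdecomp

set_option autoImplicit false
set_option linter.unusedSectionVars false

/-! `U_2(2) ⊗ U_s(2)` is not maximal in `SU_{2s}(2)`. -/

namespace Cfsg.Agent.Lib.Helper95UT2Max

open Cfsg Cfsg.Geo Matrix
open Cfsg.Agent.Lib.Helper97AschBase Cfsg.Agent.Lib.Helper97UBase Cfsg.Agent.Lib.Helper13UDefs
  Cfsg.Agent.Lib.Helper95Tens Cfsg.Agent.Lib.Helper95UTensor2 Cfsg.Agent.Lib.Helper95UTensform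
open scoped MatrixGroups Kronecker

section gram

variable {κ : Type} [Fintype κ] [DecidableEq κ] {F : Type*} [Field F] {σ : F ≃+* F}

lemma sq_of_pow {q : ℕ} (hσ : ∀ a, σ a = a ^ q) {g : (κ → F) → (κ → F) → F}
    (hg : IsUnitaryFormPow q g) : SQ σ g where
  add_left := hg.add_left
  smul_left := hg.smul_left
  add_right v x y := by
    rw [hg.herm v (x + y), hg.add_left, ← hσ, map_add, hσ, hσ, ← hg.herm, ← hg.herm]
  smul_right c v x := by
    rw [hg.herm v (c • x), hg.smul_left, ← hσ, map_mul, hσ (g x v), ← hg.herm]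

lemma gram_herm_of_pow {q : ℕ} (hσ : ∀ a, σ a = a ^ q) {g : (κ → F) → (κ → F) → F}
    (hg : IsUnitaryFormPow q g) : ((gramMatrix g).map σ)ᵀ = gramMatrix g := by
  ext a b
  show σ (g _ _) = g _ _
  rw [hσ, ← hg.herm]

lemma gram_det_of_pow {q : ℕ} (hσ : ∀ a, σ a = a ^ q) (hσ2 : ∀ a, σ (σ a) = a)
    {g : (κ → F) → (κ → F) → F} (hg : IsUnitaryFormPow q g) : IsUnit (gramMatrix g).det := by
  rw [isUnit_iff_ne_zero]
  intro h0
  obtain ⟨w, hw0, hw⟩ := Matrix.exists_mulVec_eq_zero_iff.2 h0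
  let y : κ → F := fun b => σ (w b)
  have hy : (fun b => σ (y b)) = w := by
    funext b
    exact hσ2 _
  have hy0 : y ≠ 0 := by
    intro h
    apply hw0
    rw [← hy, h]
    funext b
    simp
  obtain ⟨u, hu⟩ := (hg.nondegenerate _ hy0).1
  apply hu
  rw [(sq_of_pow hσ hg).expand]
  show formOfGram σ (gramMatrix g) u y = 0
  rw [formOfGram_dot, hy, hw, dotProduct_zero]

end gram

variable {n : ℕ} {F : Type*} [Field F] {σ : F ≃+* F} {f : (Fin n → F) → (Fin n → F) → F}

/-- a tensor form structure with unitary factors is given by an orthonormal basis -/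
theorem on_of_structure [Fintype F] {q : ℕ} (hU : US σ f q) (hn : 0 < n) {d s : ℕ}
    (e : Fin n ≃ Fin d × Fin s) (P : GL (Fin n) F) (f₁ : (Fin d → F) → (Fin d → F) → F)
    (f₂ : (Fin s → F) → (Fin s → F) → F) (hf₁ : IsUnitaryFormPow q f₁) (hf₂ : IsUnitaryFormPow q f₂)
    (hT : IsTensorFormStructure (fun x : F => x ^ q) f f₁ f₂ e P) :
    ∃ P' : GL (Fin n) F, IsON σ f P' ∧
      tensorProductSubgroup d s e P' = tensorProductSubgroup d s e P := by
  classical
  have hf := hU.unitary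
  have hσ2 := hf.involutive
  have hσ : (fun x : F => x ^ q) = σ := by
    funext x
    exact (hU.pow x).symm
  rw [hσ] at hT
  obtain ⟨c, hc0, hc⟩ := hT
  have hh₁ := gram_herm_of_pow hU.pow hf₁
  have hh₂ := gram_herm_of_pow hU.pow hf₂
  have hh : (((gramMatrix f₁) ⊗ₖ (gramMatrix f₂)).map σ)ᵀ = (gramMatrix f₁) ⊗ₖ (gramMatrix f₂) := by
    rw [kron_map, ← Matrix.kroneckerMap_transpose, hh₁, hh₂]
  have hcσ : σ c = c := by
    let i0 : Fin n := ⟨0, hn⟩
    have hv0 : (P : Matrix (Fin n) (Fin n) F) *ᵥ ((Pi.single (e i0) (1 : F) : Fin d × Fin s → F) ∘ e) ≠ 0 := by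
      intro h
      have h1 := congrArg (fun v => ((P⁻¹ : GL (Fin n) F) : Matrix (Fin n) (Fin n) F) *ᵥ v) h
      simp only [Cfsg.Agent.Lib.Helper95Basic.inv_mulVec_mulVec, Matrix.mulVec_zero] at h1
      have h2 := congrFun h1 i0
      simp at h2
    obtain ⟨u, hu⟩ := (hf.nondegenerate _ hv0).1
    obtain ⟨x, rfl⟩ := Cfsg.Agent.Lib.Helper95SpTenstwo.exists_coords e P u
    have h1 := hf.herm ((P : Matrix (Fin n) (Fin n) F) *ᵥ (x ∘ e))
      ((P : Matrix (Fin n) (Fin n) F) *ᵥ ((Pi.single (e i0) (1 : F) : Fin d × Fin s → F) ∘ e))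
    rw [hc] at hu
    rw [hc, hc, map_mul, formOfGram_herm hσ2 _ hh] at h1
    exact (mul_right_cancel₀ (right_ne_zero_of_mul hu) h1).symm
  apply on_of_gram hf e P (c • gramMatrix f₁) (gramMatrix f₂)
  · rw [Matrix.det_smul]
    exact (IsUnit.pow _ (isUnit_iff_ne_zero.2 hc0)).mul (gram_det_of_pow hU.pow hσ2 hf₁)
  · exact gram_det_of_pow hU.pow hσ2 hf₂
  · have : (c • gramMatrix f₁).map σ = σ c • (gramMatrix f₁).map σ := by
      ext i j; simp
    rw [this, Matrix.transpose_smul, hh₁, hcσ]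
  · exact hh₂
  · intro x y
    rw [hc, Matrix.smul_kronecker]
    simp only [formOfGram, Matrix.smul_apply, smul_eq_mul, Finset.mul_sum]
    refine Finset.sum_congr rfl fun a _ => Finset.sum_congr rfl fun b _ => ?_
    ring


lemma hs_ss {k : ℕ} (i i' : Fin k) :
    hs σ (Pi.single i (1 : F)) (Pi.single i' 1) = if i = i' then 1 else 0 := by
  rw [hs_single_left]
  by_cases h : i = i'
  · subst h; simp
  · rw [if_neg h, Pi.single_eq_of_ne h, map_zero]

/-- explicit version of `tensor_two_u` -/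
theorem tensor_two_le [Fintype F] (hU : US σ f 2) {s : ℕ} (hs' : 0 < s) (e : Fin n ≃ Fin 2 × Fin s)
    {P : GL (Fin n) F} (hP : IsON σ f P) :
    tensorProductSubgroup 2 s e P ⊓ Iso f
      ≤ decompositionStabilizer (fun i => LinearMap.range (blk e P i)) := by
  classical
  have hf := hU.unitary
  have hform := form_tau (f := f) e hP
  rintro g ⟨hgT, hgI⟩
  obtain ⟨a, b, hab⟩ := tensor_act e P g hgT
  have hiso : ∀ x y u v, hs σ ((a : Matrix (Fin 2) (Fin 2) F) *ᵥ x) ((a : Matrix (Fin 2) (Fin 2) F) *ᵥ y) *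
      hs σ ((b : Matrix (Fin s) (Fin s) F) *ᵥ u) ((b : Matrix (Fin s) (Fin s) F) *ᵥ v) = hs σ x y * hs σ u v := by
    intro x y u v
    rw [← hform, ← hform, ← hab, ← hab]
    exact mem_Iso.1 hgI _ _
  let j0 : Fin s := ⟨0, hs'⟩
  set β := hs σ ((b : Matrix (Fin s) (Fin s) F) *ᵥ Pi.single j0 1) ((b : Matrix (Fin s) (Fin s) F) *ᵥ Pi.single j0 1) with hβ
  have hsim : ∀ x y, hs σ ((a : Matrix (Fin 2) (Fin 2) F) *ᵥ x) ((a : Matrix (Fin 2) (Fin 2) F) *ᵥ y) * β = hs σ x y := by
    intro x y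
    have := hiso x y (Pi.single j0 1) (Pi.single j0 1)
    rw [hs_single_left, Pi.single_eq_same, map_one, mul_one] at this
    exact this
  have hss : ∀ i i' : Fin 2, hs σ (Pi.single i (1 : F)) (Pi.single i' 1) = if i = i' then 1 else 0 :=
    hs_ss
  have hβ0 : β ≠ 0 := by
    intro h0
    have := hsim (Pi.single 0 1) (Pi.single 0 1)
    rw [h0, mul_zero, hss, if_pos rfl] at this
    exact zero_ne_one this
  have hex : ∀ i : Fin 2, ∃ (j : Fin 2) (c : F), c ≠ 0 ∧
      (a : Matrix (Fin 2) (Fin 2) F) *ᵥ Pi.single i 1 = c • Pi.single j 1 := by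
    intro i
    apply nonsing_plane hU.card hU.pow
    intro h0
    have := hsim (Pi.single i 1) (Pi.single i 1)
    rw [h0, zero_mul, hss, if_pos rfl] at this
    exact zero_ne_one this
  choose φ c hc hφ using hex
  have hinj : Function.Injective φ := by
    intro i i' hii
    by_contra hne
    have := hsim (Pi.single i 1) (Pi.single i' 1)
    rw [hφ, hφ, hii, hs_smul_left, hs_smul_right, hss, hss, if_pos rfl, if_neg hne] at this
    have h3 : σ (c i') ≠ 0 := by simpa using hc i'
    exact mul_ne_zero (mul_ne_zero (hc i) (mul_ne_zero h3 one_ne_zero)) hβ0 this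
  refine ⟨Equiv.ofBijective φ (Finite.injective_iff_bijective.1 hinj), fun i => ?_⟩
  rw [Equiv.ofBijective_apply]
  apply le_antisymm
  · rintro _ ⟨_, ⟨y, rfl⟩, rfl⟩
    rw [Matrix.toLin'_apply, blk_apply, hab, hφ, tau_smul_left, ← tau_smul_right]
    exact ⟨_, rfl⟩
  · rintro _ ⟨y, rfl⟩
    refine ⟨blk e P i (((b⁻¹ : GL (Fin s) F) : Matrix (Fin s) (Fin s) F) *ᵥ ((c i)⁻¹ • y)), ⟨_, rfl⟩, ?_⟩
    rw [Matrix.toLin'_apply, blk_apply, hab, hφ, Cfsg.Agent.Lib.Helper95Basic.mulVec_inv_mulVec,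
      tau_smul_left, tau_smul_right, smul_smul, mul_inv_cancel₀ (hc i), one_smul, blk_apply]

/-- coordinates of a pure tensor -/
lemma tau_coord {n₁ n₂ : ℕ} (e : Fin n ≃ Fin n₁ × Fin n₂) {P : GL (Fin n) F} (hP : IsON σ f P)
    (x : Fin n₁ → F) (u : Fin n₂ → F) (i : Fin n₁) (j : Fin n₂) :
    f (tau e P x u) (tau e P (Pi.single i 1) (Pi.single j 1)) = x i * u j := by
  rw [form_tau e hP, hs_single_right, hs_single_right]

/-- `U_2(2) ⊗ U_s(2)` is not maximal in `SU_{2s}(2)` -/
theorem not_maximal [Fintype F] (hU : US σ f 2) {s : ℕ} (hs' : 2 ≤ s) (e : Fin n ≃ Fin 2 × Fin s)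
    {P : GL (Fin n) F} (hP : IsON σ f P) :
    ∃ K : Subgroup (GL (Fin n) F),
      tensorProductSubgroup 2 s e P ⊓ (Iso f ⊓ specialLinear (Fin n) F) < K ∧
        K < Iso f ⊓ specialLinear (Fin n) F := by
  classical
  have hf := hU.unitary
  have hform := form_tau (f := f) e hP
  have h2 : (2 : F) = 0 := two_eq_zero4 hU.card
  have hD := tensor_blocks hf le_rfl (by omega : 0 < s) e hP
  refine ⟨decompositionStabilizer (fun i => LinearMap.range (blk e P i)) ⊓
    (Iso f ⊓ specialLinear (Fin n) F), ?_, ?_⟩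
  · -- strictly bigger
    let j0 : Fin s := ⟨0, by omega⟩
    let j1 : Fin s := ⟨1, by omega⟩
    have hj : j0 ≠ j1 := by
      intro h
      have := congrArg Fin.val h
      simp [j0, j1] at this
    let p : Fin s → F := Pi.single j0 1 + Pi.single j1 1
    have hp0 : p j0 = 1 := by simp [p, Pi.single_eq_of_ne hj]
    have hp1 : p j1 = 1 := by simp [p, Pi.single_eq_of_ne hj.symm]
    have hpp : hs σ p p = 0 := by
      have : hs σ p p = hs σ (Pi.single j0 1) p + hs σ (Pi.single j1 1) p := by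
        unfold hs
        rw [← Finset.sum_add_distrib]
        refine Finset.sum_congr rfl fun a _ => ?_
        simp only [p, Pi.add_apply]
        ring
      rw [this, hs_single_left, hs_single_left, hp0, hp1, map_one]
      linear_combination h2
    let u₀ : Fin n → F := tau e P (Pi.single 0 1) p
    have hu : f u₀ u₀ = 0 := by
      show f (tau e P _ _) (tau e P _ _) = 0
      rw [hform, hpp, mul_zero]
    let t : GL (Fin n) F := utv hf u₀ 1 hu
    have ht : ∀ v, (t : Matrix (Fin n) (Fin n) F) *ᵥ v = v + f v u₀ • u₀ := by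
      intro v
      show (utv hf u₀ 1 hu : Matrix (Fin n) (Fin n) F) *ᵥ v = _
      rw [utv_mulVec, one_mul]
    have htmem : t ∈ Iso f ⊓ specialLinear (Fin n) F := by
      apply utv_mem
      rw [map_one]
      linear_combination h2
    have ht0 : ∀ y, (t : Matrix (Fin n) (Fin n) F) *ᵥ tau e P (Pi.single 0 1) y
        = tau e P (Pi.single 0 1) (y + hs σ y p • p) := by
      intro y
      rw [ht]
      show _ + f (tau e P _ _) (tau e P _ _) • tau e P _ _ = _
      rw [hform, hs_ss, if_pos rfl, one_mul, tau_add_right e P _ y, tau_smul_right]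
    have ht1 : ∀ y, (t : Matrix (Fin n) (Fin n) F) *ᵥ tau e P (Pi.single 1 1) y
        = tau e P (Pi.single 1 1) y := by
      intro y
      rw [ht]
      show _ + f (tau e P _ _) (tau e P _ _) • tau e P _ _ = _
      rw [hform, hs_ss, if_neg (by decide), zero_mul, zero_smul, add_zero]
    have htt : ∀ v, (t : Matrix (Fin n) (Fin n) F) *ᵥ ((t : Matrix (Fin n) (Fin n) F) *ᵥ v) = v := by
      intro v
      rw [ht (_ *ᵥ v), ht v, hf.add_left, hf.smul_left, hu, mul_zero, add_zero, add_assoc, ← add_smul]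
      have : f v u₀ + f v u₀ = 0 := by linear_combination (f v u₀) * h2
      rw [this, zero_smul, add_zero]
    have hle : ∀ i : Fin 2, ∀ v ∈ LinearMap.range (blk e P i),
        (t : Matrix (Fin n) (Fin n) F) *ᵥ v ∈ LinearMap.range (blk e P i) := by
      intro i
      rintro _ ⟨y, rfl⟩
      fin_cases i
      · exact ⟨_, (ht0 y).symm⟩
      · exact ⟨_, (ht1 y).symm⟩
    have htS : t ∈ decompositionStabilizer (fun i => LinearMap.range (blk e P i)) := by
      refine ⟨1, fun i => ?_⟩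
      rw [Equiv.Perm.one_apply]
      apply le_antisymm
      · rintro _ ⟨v, hv, rfl⟩
        rw [Matrix.toLin'_apply]
        exact hle i v hv
      · intro v hv
        refine ⟨_, hle i v hv, ?_⟩
        rw [Matrix.toLin'_apply, htt]
    rw [lt_iff_le_not_ge]
    constructor
    · rintro g ⟨hgT, hgI, hgS⟩
      exact ⟨tensor_two_le hU (by omega) e hP ⟨hgT, hgI⟩, hgI, hgS⟩
    · intro hcon
      have htT := (hcon ⟨htS, htmem⟩).1
      obtain ⟨a, b, hab⟩ := tensor_act e P t htT
      set κ := ((a : Matrix (Fin 2) (Fin 2) F) *ᵥ Pi.single 1 1) 1 with hκ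
      set l := ((a : Matrix (Fin 2) (Fin 2) F) *ᵥ Pi.single 0 1) 0 with hl
      have e1 : ∀ (y : Fin s → F) (j : Fin s),
          y j = κ * ((b : Matrix (Fin s) (Fin s) F) *ᵥ y) j := by
        intro y j
        have h := congrArg (fun w => f w (tau e P (Pi.single 1 1) (Pi.single j 1))) (hab (Pi.single 1 1) y)
        simp only [ht1, tau_coord e hP] at h
        rw [Pi.single_eq_same, one_mul] at h
        exact h
      have e0 : ∀ (y : Fin s → F) (j : Fin s),
          (y + hs σ y p • p) j = l * ((b : Matrix (Fin s) (Fin s) F) *ᵥ y) j := by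
        intro y j
        have h := congrArg (fun w => f w (tau e P (Pi.single 0 1) (Pi.single j 1))) (hab (Pi.single 0 1) y)
        simp only [ht0, tau_coord e hP] at h
        rw [Pi.single_eq_same, one_mul] at h
        exact h
      have a1 := e1 (Pi.single j0 1) j1
      have a2 := e0 (Pi.single j0 1) j1
      have a3 := e1 (Pi.single j0 1) j0
      rw [Pi.single_eq_of_ne hj.symm] at a1
      rw [Pi.single_eq_same] at a3
      rw [Pi.add_apply, Pi.smul_apply, Pi.single_eq_of_ne hj.symm, hs_single_left, hp0, hp1, map_one] at a2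
      have hκ0 : κ ≠ 0 := by
        intro h
        rw [h, zero_mul] at a3
        exact one_ne_zero a3
      have hb0 : ((b : Matrix (Fin s) (Fin s) F) *ᵥ Pi.single j0 1) j1 = 0 := by
        rcases mul_eq_zero.1 a1.symm with h | h
        · exact absurd h hκ0
        · exact h
      rw [hb0, mul_zero] at a2
      simp at a2
  · rw [lt_iff_le_not_ge]
    refine ⟨inf_le_right, fun hcon => ?_⟩
    exact Cfsg.Agent.Lib.Helper60UPdecomp.notSU_decomp hf hs' _ hD.1 (fun g hg => (hcon hg).1)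

end Cfsg.Agent.Lib.Helper95UT2Max
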