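import Cfsg.Agent.Lib.Helper98AschBasic
import Cfsg.Agent.Lib.Helper97AschClifford

set_option autoImplicit false

/-! PROJECT ASCH-GEN, piece `comm`: a commutative subalgebra of the matrix algebra normalised by an
irreducible group is a field, or the group is imprimitive. -/

namespace Cfsg.Agent.Lib.Helper96AschComm

open Cfsg Cfsg.Geo Matrix
open Cfsg.Agent.Lib.Helper97AschBase Cfsg.Agent.Lib.Helper97AschClifford
  Cfsg.Agent.Lib.Helper98AschDefs Cfsg.Agent.Lib.Helper98AschBasic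
open scoped MatrixGroups

variable {n : ℕ} {F : Type*} [Field F]

/-- every element of a finite monoid has an idempotent positive power -/
lemma exists_idem_pow {M : Type*} [Monoid M] [Finite M] (x : M) :
    ∃ k : ℕ, 0 < k ∧ x ^ k * x ^ k = x ^ k := by
  obtain ⟨a, b, hab, h⟩ := Finite.exists_ne_map_eq_of_infinite (fun k : ℕ => x ^ k)
  wlog hlt : a < b generalizing a b
  · exact this b a hab.symm h.symm (lt_of_le_of_ne (not_lt.mp hlt) hab.symm)
  obtain ⟨d, rfl⟩ := Nat.exists_eq_add_of_lt hlt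
  have h0 : x ^ (a + (d + 1)) = x ^ a := by
    have := h.symm
    simpa [add_assoc] using this
  have h1 : ∀ k, a ≤ k → x ^ (k + (d + 1)) = x ^ k := by
    intro k hk
    obtain ⟨j, rfl⟩ := Nat.exists_eq_add_of_le hk
    rw [show a + j + (d + 1) = (a + (d + 1)) + j by ring, pow_add, h0, ← pow_add]
  have h2 : ∀ j k, a ≤ k → x ^ (k + j * (d + 1)) = x ^ k := by
    intro j
    induction j with
    | zero => intro k _; simp
    | succ j ih =>
      intro k hk
      rw [show k + (j + 1) * (d + 1) = (k + j * (d + 1)) + (d + 1) by ring, h1 _ (by omega), ih k hk]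
  refine ⟨(a + 1) * (d + 1), by positivity, ?_⟩
  rw [← pow_add]
  exact h2 (a + 1) ((a + 1) * (d + 1)) (by nlinarith)

/-- the range of a matrix -/
def rg (a : Matrix (Fin n) (Fin n) F) : Submodule F (Fin n → F) := LinearMap.range (Matrix.toLin' a)

lemma mem_rg {a : Matrix (Fin n) (Fin n) F} {v : Fin n → F} : v ∈ rg a ↔ ∃ w, a *ᵥ w = v := by
  simp [rg, LinearMap.mem_range, Matrix.toLin'_apply]

lemma mulVec_mem_rg (a : Matrix (Fin n) (Fin n) F) (w : Fin n → F) : a *ᵥ w ∈ rg a := mem_rg.2 ⟨w, rfl⟩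

lemma rg_ne_bot {a : Matrix (Fin n) (Fin n) F} (ha : a ≠ 0) : rg a ≠ ⊥ := by
  intro h
  apply ha
  apply matrix_eq_of_mulVec_eq
  intro v
  have : a *ᵥ v ∈ rg a := mulVec_mem_rg a v
  rw [h, Submodule.mem_bot] at this
  rw [this, Matrix.zero_mulVec]

lemma idem_fix {a : Matrix (Fin n) (Fin n) F} (ha : a * a = a) {v : Fin n → F} (hv : v ∈ rg a) :
    a *ᵥ v = v := by
  obtain ⟨w, rfl⟩ := mem_rg.1 hv
  rw [Matrix.mulVec_mulVec, ha]

lemma eq_one_of_rg_top {a : Matrix (Fin n) (Fin n) F} (ha : a * a = a) (h : rg a = ⊤) : a = 1 := by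
  apply matrix_eq_of_mulVec_eq
  intro v
  rw [Matrix.one_mulVec]
  exact idem_fix ha (h ▸ Submodule.mem_top)

lemma rg_conj (g : GL (Fin n) F) (a : Matrix (Fin n) (Fin n) F) :
    rg ((g : Matrix (Fin n) (Fin n) F) * a * ((g⁻¹ : GL (Fin n) F) : Matrix (Fin n) (Fin n) F)) =
      (rg a).map (Matrix.toLin' (g : Matrix (Fin n) (Fin n) F)) := by
  ext v
  rw [mem_rg, Submodule.mem_map]
  constructor
  · rintro ⟨w, rfl⟩
    refine ⟨a *ᵥ (((g⁻¹ : GL (Fin n) F) : Matrix (Fin n) (Fin n) F) *ᵥ w), mulVec_mem_rg _ _, ?_⟩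
    rw [Matrix.toLin'_apply]
    simp only [Matrix.mulVec_mulVec, mul_assoc]
  · rintro ⟨u, hu, rfl⟩
    obtain ⟨w, rfl⟩ := mem_rg.1 hu
    refine ⟨(g : Matrix (Fin n) (Fin n) F) *ᵥ w, ?_⟩
    rw [Matrix.toLin'_apply]
    simp only [Matrix.mulVec_mulVec, mul_assoc, vi, mul_one]

lemma finrank_rg_conj (g : GL (Fin n) F) (a : Matrix (Fin n) (Fin n) F) :
    Module.finrank F (rg ((g : Matrix (Fin n) (Fin n) F) * a *
      ((g⁻¹ : GL (Fin n) F) : Matrix (Fin n) (Fin n) F))) = Module.finrank F (rg a) := by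
  rw [rg_conj]
  exact finrank_gmap g (rg a)

/-- two commuting idempotents of minimal rank are equal or orthogonal -/
lemma orth_of_min {C : Subalgebra F (Matrix (Fin n) (Fin n) F)} {m : ℕ}
    (hmin : ∀ f ∈ C, f * f = f → f ≠ 0 → m ≤ Module.finrank F (rg f))
    {e₁ e₂ : Matrix (Fin n) (Fin n) F} (h₁ : e₁ ∈ C) (h₂ : e₂ ∈ C) (hc : e₁ * e₂ = e₂ * e₁)
    (i₁ : e₁ * e₁ = e₁) (i₂ : e₂ * e₂ = e₂) (r₁ : Module.finrank F (rg e₁) = m)
    (r₂ : Module.finrank F (rg e₂) = m) (hne : e₁ ≠ e₂) : e₁ * e₂ = 0 := by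
  by_contra h0
  have hf : (e₁ * e₂) * (e₁ * e₂) = e₁ * e₂ := by
    calc (e₁ * e₂) * (e₁ * e₂) = e₁ * (e₂ * e₁) * e₂ := by simp only [mul_assoc]
      _ = e₁ * (e₁ * e₂) * e₂ := by rw [hc]
      _ = (e₁ * e₁) * (e₂ * e₂) := by simp only [mul_assoc]
      _ = e₁ * e₂ := by rw [i₁, i₂]
  have hm := hmin _ (C.mul_mem h₁ h₂) hf h0
  have key : ∀ (a b : Matrix (Fin n) (Fin n) F), a * a = a → (a * b) * (a * b) = a * b →
      Module.finrank F (rg a) ≤ Module.finrank F (rg (a * b)) → (a * b) * a = a * b → a = a * b := by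
    intro a b ia iab hr hab
    have hle : rg (a * b) ≤ rg a := by
      intro v hv
      obtain ⟨w, rfl⟩ := mem_rg.1 hv
      rw [← Matrix.mulVec_mulVec]
      exact mulVec_mem_rg _ _
    have heq : rg (a * b) = rg a := Submodule.eq_of_le_of_finrank_le hle hr
    apply matrix_eq_of_mulVec_eq
    intro v
    have h1 : a *ᵥ v ∈ rg (a * b) := heq ▸ mulVec_mem_rg a v
    have h2 := idem_fix iab h1
    rw [Matrix.mulVec_mulVec, hab] at h2
    exact h2.symm
  have k₁ : e₁ = e₁ * e₂ := key e₁ e₂ i₁ hf (r₁ ▸ hm) (by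
    rw [mul_assoc, ← hc, ← mul_assoc, i₁])
  have k₂ : e₂ = e₂ * e₁ := key e₂ e₁ i₂ (hc ▸ hf) (by rw [r₂, ← hc]; exact hm) (by
    rw [mul_assoc, hc, ← mul_assoc, i₂])
  exact hne (k₁.trans (hc.trans k₂.symm))

/-- `W` is invariant under the algebra `C`. -/
def CInv (C : Subalgebra F (Matrix (Fin n) (Fin n) F)) (W : Submodule F (Fin n → F)) : Prop :=
  ∀ c ∈ C, ∀ w ∈ W, c *ᵥ w ∈ W

lemma exists_min_cinv [NeZero n] (C : Subalgebra F (Matrix (Fin n) (Fin n) F)) :
    ∃ W : Submodule F (Fin n → F), CInv C W ∧ W ≠ ⊥ ∧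
      ∀ W' : Submodule F (Fin n → F), CInv C W' → W' ≠ ⊥ →
        Module.finrank F W ≤ Module.finrank F W' := by
  classical
  have hex : ∃ k : ℕ, ∃ W : Submodule F (Fin n → F), CInv C W ∧ W ≠ ⊥ ∧ Module.finrank F W = k := by
    refine ⟨_, ⊤, fun _ _ _ _ => Submodule.mem_top, ?_, rfl⟩
    intro h
    have h1 : Module.finrank F (⊤ : Submodule F (Fin n → F)) = n := by
      rw [finrank_top, Module.finrank_fin_fun]
    rw [h, finrank_bot] at h1
    exact NeZero.ne n h1.symm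
  obtain ⟨W, hW, hW0, hWk⟩ := Nat.find_spec hex
  refine ⟨W, hW, hW0, ?_⟩
  intro W' hW' hW'0
  rw [hWk]
  exact Nat.find_min' hex ⟨W', hW', hW'0, rfl⟩

/-- no nonzero nilpotents -/
lemma nil_eq_zero [NeZero n] {H : Subgroup (GL (Fin n) F)}
    (hirr : ActsIrreducibly (matrixSet H))
    {C : Subalgebra F (Matrix (Fin n) (Fin n) F)} (hC : NzA H C)
    (hcomm : ∀ x ∈ C, ∀ y ∈ C, x * y = y * x) {x : Matrix (Fin n) (Fin n) F} (hx : x ∈ C)
    (hnil : IsNilpotent x) : x = 0 := by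
  obtain ⟨W, hW, hW0, hWmin⟩ := exists_min_cinv C
  -- the common kernel of the nilpotent elements
  let K : Submodule F (Fin n → F) :=
    { carrier := {v | ∀ y ∈ C, IsNilpotent y → y *ᵥ v = 0}
      add_mem' := by
        intro a b ha hb y hy hyn
        rw [Matrix.mulVec_add, ha y hy hyn, hb y hy hyn, add_zero]
      zero_mem' := by
        intro y _ _
        rw [Matrix.mulVec_zero]
      smul_mem' := by
        intro c a ha y hy hyn
        rw [Matrix.mulVec_smul, ha y hy hyn, smul_zero] }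
  have hKinv : Inv H K := by
    intro g hg v hv y hy hyn
    have h1 : ((g⁻¹ : GL (Fin n) F) : Matrix (Fin n) (Fin n) F) * y * (g : Matrix (Fin n) (Fin n) F) ∈ C :=
      NzA_inv_mem hC hg hy
    have h2 : IsNilpotent (((g⁻¹ : GL (Fin n) F) : Matrix (Fin n) (Fin n) F) * y *
        (g : Matrix (Fin n) (Fin n) F)) := by
      have := hyn.map (conjAlg g).symm
      rwa [conjAlg_symm_apply] at this
    have h3 := hv _ h1 h2
    have h4 : y *ᵥ ((g : Matrix (Fin n) (Fin n) F) *ᵥ v) = (g : Matrix (Fin n) (Fin n) F) *ᵥ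
        ((((g⁻¹ : GL (Fin n) F) : Matrix (Fin n) (Fin n) F) * y * (g : Matrix (Fin n) (Fin n) F)) *ᵥ v) := by
      simp only [Matrix.mulVec_mulVec, ← mul_assoc, iv, one_mul]
    rw [h4, h3, Matrix.mulVec_zero]
  have hWK : W ≤ K := by
    intro w hw y hy hyn
    -- y W is C-invariant, inside W
    let U : Submodule F (Fin n → F) := W.map (Matrix.toLin' y)
    have hUW : U ≤ W := by
      rintro _ ⟨u, hu, rfl⟩
      rw [Matrix.toLin'_apply]
      exact hW y hy u hu
    have hU : CInv C U := by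
      rintro c hc _ ⟨u, hu, rfl⟩
      refine ⟨c *ᵥ u, hW c hc u hu, ?_⟩
      rw [Matrix.toLin'_apply, Matrix.toLin'_apply, Matrix.mulVec_mulVec, Matrix.mulVec_mulVec,
        hcomm y hy c hc]
    by_cases hU0 : U = ⊥
    · have : y *ᵥ w ∈ U := ⟨w, hw, by rw [Matrix.toLin'_apply]⟩
      rwa [hU0, Submodule.mem_bot] at this
    · exfalso
      have hUe : U = W := Submodule.eq_of_le_of_finrank_le hUW (hWmin U hU hU0)
      have hpow : ∀ k : ℕ, W.map (Matrix.toLin' (y ^ k)) = W := by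
        intro k
        induction k with
        | zero => simp
        | succ k ih =>
          rw [pow_succ, Matrix.toLin'_mul, Submodule.map_comp]
          show (U).map _ = W
          rw [hUe, ih]
      obtain ⟨k, hk⟩ := hyn
      have := hpow k
      rw [hk] at this
      apply hW0
      rw [← this]
      simp
  rcases (actsIrreducibly_iff.1 hirr) K hKinv with h | h
  · exact absurd (le_bot_iff.1 (h ▸ hWK)) hW0
  · apply matrix_eq_of_mulVec_eq
    intro v
    rw [Matrix.zero_mulVec]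
    have : v ∈ K := h ▸ Submodule.mem_top
    exact this x hx hnil

/-- the imprimitive case: a nontrivial idempotent gives a system of imprimitivity -/
lemma c2_of_idem [Finite F] [NeZero n] {H : Subgroup (GL (Fin n) F)}
    (hirr : ActsIrreducibly (matrixSet H))
    {C : Subalgebra F (Matrix (Fin n) (Fin n) F)} (hC : NzA H C)
    (hcomm : ∀ x ∈ C, ∀ y ∈ C, x * y = y * x)
    {f₀ : Matrix (Fin n) (Fin n) F} (hf₀ : f₀ ∈ C) (if₀ : f₀ * f₀ = f₀) (h0 : f₀ ≠ 0) (h1 : f₀ ≠ 1) :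
    ∃ (t m : ℕ) (D : Fin t → Submodule F (Fin n → F)), IsMDecomposition m D ∧
      H ≤ decompositionStabilizer D := by
  classical
  -- a nonzero idempotent of minimal rank
  have hex : ∃ k : ℕ, ∃ f ∈ C, f * f = f ∧ f ≠ 0 ∧ Module.finrank F (rg f) = k :=
    ⟨_, f₀, hf₀, if₀, h0, rfl⟩
  obtain ⟨e, heC, ie, he0, hem⟩ := Nat.find_spec hex
  set m := Nat.find hex with hm
  have hmin : ∀ f ∈ C, f * f = f → f ≠ 0 → m ≤ Module.finrank F (rg f) := fun f hf i0 hf0 =>
    Nat.find_min' hex ⟨f, hf, i0, hf0, rfl⟩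
  have he1 : e ≠ 1 := by
    intro h
    apply h1
    apply eq_one_of_rg_top if₀
    apply Submodule.eq_top_of_finrank_eq
    apply le_antisymm (Submodule.finrank_le _)
    have h2 := hmin f₀ hf₀ if₀ h0
    rw [← hem, h] at h2
    have h3 : rg (1 : Matrix (Fin n) (Fin n) F) = ⊤ := by
      rw [eq_top_iff]
      intro v _
      exact mem_rg.2 ⟨v, Matrix.one_mulVec v⟩
    rw [h3, finrank_top] at h2
    exact h2
  -- the orbit of e
  let O : Set (Matrix (Fin n) (Fin n) F) := {o | ∃ h ∈ H, o = (h : Matrix (Fin n) (Fin n) F) * e *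
    ((h⁻¹ : GL (Fin n) F) : Matrix (Fin n) (Fin n) F)}
  have hOC : ∀ o ∈ O, o ∈ C := by
    rintro _ ⟨h, hh, rfl⟩
    exact hC h hh e heC
  have hOi : ∀ o ∈ O, o * o = o := by
    rintro _ ⟨h, hh, rfl⟩
    have := (conjAlg h).map_mul e e
    rw [ie] at this
    exact this.symm
  have hOr : ∀ o ∈ O, Module.finrank F (rg o) = m := by
    rintro _ ⟨h, hh, rfl⟩
    rw [finrank_rg_conj, hem]
  have heO : e ∈ O := ⟨1, H.one_mem, by simp⟩
  have hOconj : ∀ g ∈ H, ∀ o ∈ O, (g : Matrix (Fin n) (Fin n) F) * o *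
      ((g⁻¹ : GL (Fin n) F) : Matrix (Fin n) (Fin n) F) ∈ O := by
    rintro g hg _ ⟨h, hh, rfl⟩
    refine ⟨g * h, H.mul_mem hg hh, ?_⟩
    rw [_root_.mul_inv_rev, Units.val_mul, Units.val_mul]
    simp only [mul_assoc]
  have hOorth : ∀ o₁ ∈ O, ∀ o₂ ∈ O, o₁ ≠ o₂ → o₁ * o₂ = 0 := fun o₁ h₁ o₂ h₂ hne =>
    orth_of_min hmin (hOC _ h₁) (hOC _ h₂) (hcomm _ (hOC _ h₁) _ (hOC _ h₂)) (hOi _ h₁) (hOi _ h₂)
      (hOr _ h₁) (hOr _ h₂) hne
  have : Finite O := Subtype.finite
  let eqv : O ≃ Fin (Nat.card O) := Finite.equivFin O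
  let D : Fin (Nat.card O) → Submodule F (Fin n → F) := fun i => rg (eqv.symm i).1
  -- the permutation action
  let π : ∀ g : GL (Fin n) F, g ∈ H → Equiv.Perm O := fun g hg =>
    { toFun := fun o => ⟨_, hOconj g hg o.1 o.2⟩
      invFun := fun o => ⟨_, hOconj g⁻¹ (H.inv_mem hg) o.1 o.2⟩
      left_inv := by
        intro o
        apply Subtype.ext
        show ((g⁻¹ : GL (Fin n) F) : Matrix (Fin n) (Fin n) F) * ((g : Matrix (Fin n) (Fin n) F) * o.1 *
          ((g⁻¹ : GL (Fin n) F) : Matrix (Fin n) (Fin n) F)) *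
          (((g⁻¹)⁻¹ : GL (Fin n) F) : Matrix (Fin n) (Fin n) F) = o.1
        rw [inv_inv]
        exact (conjAlg g).left_inv o.1
      right_inv := by
        intro o
        apply Subtype.ext
        show (g : Matrix (Fin n) (Fin n) F) * (((g⁻¹ : GL (Fin n) F) : Matrix (Fin n) (Fin n) F) * o.1 *
          (((g⁻¹)⁻¹ : GL (Fin n) F) : Matrix (Fin n) (Fin n) F)) *
          ((g⁻¹ : GL (Fin n) F) : Matrix (Fin n) (Fin n) F) = o.1
        rw [inv_inv]
        exact (conjAlg g).right_inv o.1 }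
  have hperm : ∀ g (hg : g ∈ H) (i : Fin (Nat.card O)),
      (D i).map (Matrix.toLin' (g : Matrix (Fin n) (Fin n) F)) = D (eqv (π g hg (eqv.symm i))) := by
    intro g hg i
    show (rg (eqv.symm i).1).map _ = rg (eqv.symm (eqv (π g hg (eqv.symm i)))).1
    rw [Equiv.symm_apply_apply, ← rg_conj]
    rfl
  have hstab : H ≤ decompositionStabilizer D := by
    intro g hg
    exact ⟨eqv.symm.trans ((π g hg).trans eqv), fun i => hperm g hg i⟩
  have htop : iSup D = ⊤ := by
    have hinv : ∀ s ∈ matrixSet H, (iSup D).map (Matrix.toLin' s) ≤ iSup D := by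
      rintro _ ⟨g, hg, rfl⟩
      rw [Submodule.map_iSup]
      apply iSup_le
      intro i
      rw [hperm g hg i]
      exact le_iSup D _
    rcases hirr _ hinv with h | h
    · exfalso
      have h2 : D (eqv ⟨e, heO⟩) ≤ iSup D := le_iSup D _
      rw [h, le_bot_iff] at h2
      have h3 : D (eqv ⟨e, heO⟩) = rg e := by
        show rg (eqv.symm (eqv ⟨e, heO⟩)).1 = rg e
        rw [Equiv.symm_apply_apply]
      rw [h3] at h2
      exact rg_ne_bot he0 h2
    · exact h
  refine ⟨Nat.card O, m, D, ⟨?_, ?_, ?_, ?_, htop⟩, hstab⟩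
  · -- at least two members
    by_contra hlt
    have hle : Nat.card O ≤ 1 := by omega
    have : Subsingleton O := (Finite.card_le_one_iff_subsingleton).1 hle
    apply he1
    apply eq_one_of_rg_top ie
    rw [eq_top_iff, ← htop]
    apply iSup_le
    intro i
    show rg (eqv.symm i).1 ≤ rg e
    rw [Subsingleton.elim (eqv.symm i) ⟨e, heO⟩]
  · rw [← hem]
    exact Module.finrank_pos_iff_exists_ne_zero.2 (by
      obtain ⟨v, hv, hv0⟩ := Submodule.exists_mem_ne_zero_of_ne_bot (rg_ne_bot he0)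
      exact ⟨⟨v, hv⟩, fun h => hv0 (congrArg Subtype.val h)⟩)
  · intro i
    exact hOr _ (eqv.symm i).2
  · intro i
    rw [Submodule.disjoint_def]
    intro x hx hx2
    have h2 : (⨆ j, ⨆ (_ : j ≠ i), D j) ≤ LinearMap.ker (Matrix.toLin' (eqv.symm i).1) := by
      apply iSup₂_le
      intro j hj v hv
      obtain ⟨w, rfl⟩ := mem_rg.1 hv
      rw [LinearMap.mem_ker, Matrix.toLin'_apply, Matrix.mulVec_mulVec,
        hOorth _ (eqv.symm i).2 _ (eqv.symm j).2 (fun h => hj (eqv.symm.injective (Subtype.ext h)).symm),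
        Matrix.zero_mulVec]
    have h3 := h2 hx2
    rw [LinearMap.mem_ker, Matrix.toLin'_apply, idem_fix (hOi _ (eqv.symm i).2) hx] at h3
    exact h3

/-- [comm] a commutative subalgebra normalised by an irreducible group is a field, or the group is
imprimitive. -/
theorem comm_field_or_c2 [Finite F] [NeZero n] {H : Subgroup (GL (Fin n) F)}
    (hirr : ActsIrreducibly (matrixSet H))
    {C : Subalgebra F (Matrix (Fin n) (Fin n) F)} (hC : NzA H C)
    (hcomm : ∀ x ∈ C, ∀ y ∈ C, x * y = y * x) :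
    (∀ x ∈ C, x ≠ 0 → ∃ y ∈ C, x * y = 1) ∨
    ∃ (t m : ℕ) (D : Fin t → Submodule F (Fin n → F)), IsMDecomposition m D ∧
      H ≤ decompositionStabilizer D := by
  by_cases hall : ∀ f ∈ C, f * f = f → f = 0 ∨ f = 1
  · left
    intro x hx hx0
    obtain ⟨k, hk, hidem⟩ := exists_idem_pow x
    rcases hall _ (C.pow_mem hx k) hidem with h | h
    · exact absurd (nil_eq_zero hirr hC hcomm hx ⟨k, h⟩) hx0
    · refine ⟨x ^ (k - 1), C.pow_mem hx _, ?_⟩
      rw [← pow_succ', Nat.sub_add_cancel hk, h]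
  · right
    push Not at hall
    obtain ⟨f, hf, hi, h0, h1⟩ := hall
    exact c2_of_idem hirr hC hcomm hf hi h0 h1

end Cfsg.Agent.Lib.Helper96AschComm
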