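import Cfsg.Agent.Lib.Helper95Basic

set_option autoImplicit false
set_option linter.unusedSectionVars false

namespace Cfsg.Agent.Lib.Helper96Decomp

open Module Cfsg.Agent.Lib.Helper95Basic

section

variable {K V : Type*} [Field K] [AddCommGroup V] [Module K V]

lemma finrank_finset_sup_le [FiniteDimensional K V] {κ : Type*} (s : Finset κ)
    (D : κ → Submodule K V) : finrank K (s.sup D : Submodule K V) ≤ ∑ i ∈ s, finrank K (D i) := by
  classical
  induction s using Finset.induction_on with
  | empty => simp
  | insert a s ha ih =>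
    rw [Finset.sup_insert, Finset.sum_insert ha]
    have := Submodule.finrank_add_le_finrank_add_finrank (D a) (s.sup D)
    omega

lemma finrank_iSup_le_sum [FiniteDimensional K V] {κ : Type*} [Fintype κ]
    (D : κ → Submodule K V) : finrank K (⨆ i, D i : Submodule K V) ≤ ∑ i, finrank K (D i) := by
  rw [← Finset.sup_univ_eq_iSup]
  exact finrank_finset_sup_le _ _

end

variable {ι : Type} [Fintype ι] [DecidableEq ι] {F : Type*} [Field F]

/-- the number of members of an `m`-decomposition is at least `dim / m` -/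
lemma card_le_mul {t m : ℕ} {D : Fin t → Submodule F (ι → F)} (hD : Cfsg.Geo.IsMDecomposition m D) :
    Fintype.card ι ≤ t * m := by
  have h1 := finrank_iSup_le_sum D
  rw [hD.iSup_eq_top, finrank_top, Module.finrank_fintype_fun_eq_card] at h1
  simpa [hD.finrank_eq] using h1

/-- an element of the stabiliser of a decomposition, in terms of vectors -/
lemma exists_perm_of_mem_stab {t : ℕ} {D : Fin t → Submodule F (ι → F)} {g : GL ι F}
    (hg : g ∈ Cfsg.Geo.decompositionStabilizer D) :
    ∃ σ : Equiv.Perm (Fin t), ∀ i x, x ∈ D i ↔ (g : Matrix ι ι F).mulVec x ∈ D (σ i) := by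
  obtain ⟨σ, hσ⟩ := hg
  refine ⟨σ, fun i x => ⟨fun hx => ?_, fun hx => ?_⟩⟩
  · rw [← hσ i]
    exact ⟨x, hx, by simp⟩
  · rw [← hσ i] at hx
    obtain ⟨y, hy, hyx⟩ := hx
    have h1 : (g : Matrix ι ι F).mulVec y = (g : Matrix ι ι F).mulVec x := by simpa using hyx
    have h2 : y = x := by
      have := congrArg (fun v => ((g⁻¹ : GL ι F) : Matrix ι ι F).mulVec v) h1
      simpa [inv_mulVec_mulVec] using this
    exact h2 ▸ hy

end Cfsg.Agent.Lib.Helper96Decomp
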