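import Cfsg.Agent.Lib.Helper96KDefs
import Cfsg.Agent.Lib.Helper7SpFrame
import Cfsg.Agent.Lib.H90SwDefs
import Cfsg.Agent.Lib.Helper99SympForm

/-!
# Vocabulary for PROJECT 5980 (TE): row S5980, elements of prime order of `Sp_{2d}(q)`, `q` odd, and the tensor
subgroups `Sp_a(q) ⊗ O_b(q)`.

Standard model: `Fin a × Fin b → F`, `D : TDat F a b` (Gram matrices `J₁` alternating, `J₂` symmetric), `D.ff`,
`SpG D`, `KS a b F` (all from `Helper96KDefs` / `Helper49TDefs`).  `phi e P` transports the standard model to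
`Fin d ⊕ Fin d → F`: it maps `KS` onto `tensorProductSubgroup a b e P` and `SpG D` onto `spGL d F`.
-/

set_option autoImplicit false
set_option linter.unusedSectionVars false
set_option linter.unusedVariables false

namespace Cfsg.Agent.Lib.Helper96EDefs

open scoped Matrix Kronecker
open Matrix Cfsg.Agent.Lib.Helper49TDefs Cfsg.Agent.Lib.Helper49SDefs Cfsg.Agent.Lib.Helper96KDefs

variable {F : Type*} [Field F] {a b n : ℕ}

local notation "Mn" => Matrix (Fin a × Fin b) (Fin a × Fin b) F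
local notation "GLn" => Matrix.GeneralLinearGroup (Fin a × Fin b) F

section aux

variable {ι : Type} [Fintype ι] [DecidableEq ι]

theorem reindex_mulVec (e : ι ≃ Fin a × Fin b) (g : GLn) (x : Fin a × Fin b → F) :
    ((Cfsg.Geo.glReindex e.symm g : Matrix.GeneralLinearGroup ι F) :
      Matrix ι ι F) *ᵥ (x ∘ e) = ((g : Mn) *ᵥ x) ∘ e := by
  change (Matrix.reindexAlgEquiv F F e.symm (g : Mn)) *ᵥ (x ∘ e) = _
  ext i
  simp only [Matrix.mulVec, dotProduct, Function.comp_apply, Matrix.coe_reindexAlgEquiv,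
    Matrix.reindex_apply, Matrix.submatrix_apply, Equiv.symm_symm]
  exact Equiv.sum_comp e (fun q => (g : Mn) (e i) q * x q)

/-- the transport isomorphism `g ↦ P * (reindexed g) * P⁻¹` -/
noncomputable def phi (e : ι ≃ Fin a × Fin b) (P : Matrix.GeneralLinearGroup ι F) :
    GLn ≃* Matrix.GeneralLinearGroup ι F :=
  (Cfsg.Geo.glReindex e.symm).trans (MulAut.conj P)

theorem phi_eq (e : ι ≃ Fin a × Fin b) (P : Matrix.GeneralLinearGroup ι F) (g : GLn) :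
    phi e P g = P * Cfsg.Geo.glReindex e.symm g * P⁻¹ := rfl

/-- the transport of vectors `x ↦ P *ᵥ (x ∘ e)` -/
def tau (e : ι ≃ Fin a × Fin b) (P : Matrix.GeneralLinearGroup ι F) (x : Fin a × Fin b → F) : ι → F :=
  (P : Matrix ι ι F) *ᵥ (x ∘ e)

theorem phi_mulVec (e : ι ≃ Fin a × Fin b) (P : Matrix.GeneralLinearGroup ι F)
    (g : GLn) (x : Fin a × Fin b → F) :
    ((phi e P g : Matrix.GeneralLinearGroup ι F) : Matrix ι ι F) *ᵥ
      ((P : Matrix ι ι F) *ᵥ (x ∘ e)) =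
      (P : Matrix ι ι F) *ᵥ (((g : Mn) *ᵥ x) ∘ e) := by
  have h1 : phi e P g = P * Cfsg.Geo.glReindex e.symm g * P⁻¹ := rfl
  have h2 : ((P⁻¹ : Matrix.GeneralLinearGroup ι F) : Matrix ι ι F) *
      (P : Matrix ι ι F) = 1 := by
    rw [← Units.val_mul, inv_mul_cancel, Units.val_one]
  rw [h1, Units.val_mul, Units.val_mul, Matrix.mulVec_mulVec, mul_assoc, h2, mul_one,
    ← Matrix.mulVec_mulVec, reindex_mulVec]

theorem phi_tau (e : ι ≃ Fin a × Fin b) (P : Matrix.GeneralLinearGroup ι F)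
    (g : GLn) (x : Fin a × Fin b → F) :
    ((phi e P g : Matrix.GeneralLinearGroup ι F) : Matrix ι ι F) *ᵥ tau e P x = tau e P ((g : Mn) *ᵥ x) :=
  phi_mulVec e P g x

theorem tau_smul (e : ι ≃ Fin a × Fin b) (P : Matrix.GeneralLinearGroup ι F) (c : F)
    (x : Fin a × Fin b → F) : tau e P (c • x) = c • tau e P x := by
  unfold tau
  rw [← Matrix.mulVec_smul]
  rfl

theorem exists_rep (e : ι ≃ Fin a × Fin b) (P : Matrix.GeneralLinearGroup ι F)
    (v : ι → F) : ∃ x : Fin a × Fin b → F, v = (P : Matrix ι ι F) *ᵥ (x ∘ e) := by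
  refine ⟨(((P⁻¹ : Matrix.GeneralLinearGroup ι F) : Matrix ι ι F) *ᵥ v) ∘ e.symm, ?_⟩
  have : ((((P⁻¹ : Matrix.GeneralLinearGroup ι F) : Matrix ι ι F) *ᵥ v) ∘ e.symm) ∘ e
      = ((P⁻¹ : Matrix.GeneralLinearGroup ι F) : Matrix ι ι F) *ᵥ v := by
    ext i; simp
  rw [this, Matrix.mulVec_mulVec, ← Units.val_mul, mul_inv_cancel, Units.val_one,
    Matrix.one_mulVec]

theorem KS_map (e : ι ≃ Fin a × Fin b) (P : Matrix.GeneralLinearGroup ι F) :
    (KS a b F).map (phi e P).toMonoidHom = Cfsg.Geo.tensorProductSubgroup a b e P := by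
  unfold Cfsg.Geo.tensorProductSubgroup
  rw [Subgroup.map_map]
  rfl

theorem phi_mem_tensor (e : ι ≃ Fin a × Fin b) (P : Matrix.GeneralLinearGroup ι F) {k : GLn}
    (hk : k ∈ KS a b F) : phi e P k ∈ Cfsg.Geo.tensorProductSubgroup a b e P := by
  rw [← KS_map]
  exact ⟨k, hk, rfl⟩

end aux

theorem mem_spGL_iff' {m : ℕ} (g : Matrix.GeneralLinearGroup (Fin m ⊕ Fin m) F) :
    g ∈ Cfsg.spGL m F ↔
    ∀ u v, Cfsg.sympForm m F ((g : Matrix _ _ F) *ᵥ u) ((g : Matrix _ _ F) *ᵥ v) =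
      Cfsg.sympForm m F u v := Iff.rfl

theorem mem_spGL_iff_symp {m : ℕ} (g : Matrix.GeneralLinearGroup (Fin m ⊕ Fin m) F) :
    g ∈ Cfsg.spGL m F ↔
      (g : Matrix (Fin m ⊕ Fin m) (Fin m ⊕ Fin m) F) ∈ Matrix.symplecticGroup (Fin m) F := by
  rw [Cfsg.Agent.Lib.Helper17Symp.mem_symplecticGroup_iff_preserves]
  exact Iff.rfl

/-- a symplectic matrix as an element of `spGL` -/
theorem exists_spGL_of_symp {m : ℕ} (A : Matrix (Fin m ⊕ Fin m) (Fin m ⊕ Fin m) F)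
    (hA : A ∈ Matrix.symplecticGroup (Fin m) F) :
    ∃ g ∈ Cfsg.spGL m F, (g : Matrix (Fin m ⊕ Fin m) (Fin m ⊕ Fin m) F) = A := by
  have hdet : IsUnit A.det := SymplecticGroup.symplectic_det hA
  refine ⟨Matrix.nonsingInvUnit A hdet, ?_, rfl⟩
  rw [mem_spGL_iff_symp]
  exact hA

theorem sp_map {m : ℕ} (e : (Fin m ⊕ Fin m) ≃ Fin a × Fin b)
    (P : Matrix.GeneralLinearGroup (Fin m ⊕ Fin m) F) (D : TDat F a b)
    (hD : ∀ x y, D.ff x y = Cfsg.sympForm m F ((P : Matrix (Fin m ⊕ Fin m) (Fin m ⊕ Fin m) F) *ᵥ (x ∘ e))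
      ((P : Matrix (Fin m ⊕ Fin m) (Fin m ⊕ Fin m) F) *ᵥ (y ∘ e))) :
    (SpG D).map (phi e P).toMonoidHom = Cfsg.spGL m F := by
  ext k
  simp only [Subgroup.mem_map, MulEquiv.coe_toMonoidHom]
  constructor
  · rintro ⟨g, hg, rfl⟩
    rw [mem_SpG] at hg
    rw [mem_spGL_iff']
    intro u v
    obtain ⟨x, rfl⟩ := exists_rep e P u
    obtain ⟨y, rfl⟩ := exists_rep e P v
    rw [phi_mulVec, phi_mulVec, ← hD, ← hD, hg]
  · intro hk
    refine ⟨(phi e P).symm k, ?_, by simp⟩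
    rw [mem_spGL_iff'] at hk
    rw [mem_SpG]
    intro x y
    rw [hD, hD, ← phi_mulVec, ← phi_mulVec, MulEquiv.apply_symm_apply, hk]

theorem phi_mem_sp {m : ℕ} (e : (Fin m ⊕ Fin m) ≃ Fin a × Fin b)
    (P : Matrix.GeneralLinearGroup (Fin m ⊕ Fin m) F) (D : TDat F a b)
    (hD : ∀ x y, D.ff x y = Cfsg.sympForm m F ((P : Matrix (Fin m ⊕ Fin m) (Fin m ⊕ Fin m) F) *ᵥ (x ∘ e))
      ((P : Matrix (Fin m ⊕ Fin m) (Fin m ⊕ Fin m) F) *ᵥ (y ∘ e))) {k : GLn} (hk : k ∈ SpG D) :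
    phi e P k ∈ Cfsg.spGL m F := by
  rw [← sp_map e P D hD]
  exact ⟨k, hk, rfl⟩

end Cfsg.Agent.Lib.Helper96EDefs
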