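import Cfsg.Agent.Lib.Helper95SpU

/-!
PROJECT 197 (GU3): `GU_3(q).2` is maximal in `Sp_6(q)`, `q` odd (clause (6) of S5804).  Vocabulary.
See notes/helper96/G/README.md.  Setting of `Helper95SpU`: `B` alternating on `ι → F`, `δ` skew-adjoint with `δ² = d`
(non-square), `Q v = B v (δ v)`; "isotropic" means `B v (δ v) = 0`; "x hermitian-perpendicular to y" means
`B x y = 0 ∧ B x (δ y) = 0`.
-/

set_option autoImplicit false

namespace Cfsg.Agent.Lib.Helper96GUDefs

open Cfsg.Agent.Lib.Helper95SpU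

variable {F : Type*} [Field F] {ι : Type} [Fintype ι] [DecidableEq ι]

/-- the involution `-1` on `span {a, b}`, `+1` on its `B`-perp, is (realised by an element) in `M`. -/
def RF (B : LinearMap.BilinForm F (ι → F)) (M : Subgroup ((ι → F) ≃ₗ[F] (ι → F))) (a b : ι → F) : Prop :=
  ∃ e ∈ M, ∀ x, e x = x - (2 / B a b) • (B x b • a - B x a • b)

/-- the Eichler element `x ↦ x + B(x,r) a + B(x,a) r + k B(x,a) a` is in `M`. -/
def EI (B : LinearMap.BilinForm F (ι → F)) (M : Subgroup ((ι → F) ≃ₗ[F] (ι → F))) (a r : ι → F) (k : F) : Prop :=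
  ∃ e ∈ M, ∀ x, e x = x + B x r • a + B x a • r + (k * B x a) • a

/-- the geometry: a 3-dimensional hermitian space seen as a 6-dimensional symplectic space. -/
structure Geo (B : LinearMap.BilinForm F (ι → F)) (δ : (ι → F) →ₗ[F] (ι → F)) (d : F) : Prop where
  us : US B δ d
  alt : B.IsAlt
  nd : B.Nondegenerate
  two : (2 : F) ≠ 0
  card : Fintype.card ι = 6

/-- the geometry and a group `M` of isometries containing the unitary group. -/
structure Ctx (B : LinearMap.BilinForm F (ι → F)) (δ : (ι → F) →ₗ[F] (ι → F)) (d : F)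
    (M : Subgroup ((ι → F) ≃ₗ[F] (ι → F))) : Prop where
  geo : Geo B δ d
  big : ∀ e : (ι → F) ≃ₗ[F] (ι → F), (∀ x y, B (e x) (e y) = B x y) → (∀ v, e (δ v) = δ (e v)) → e ∈ M
  iso : ∀ e ∈ M, ∀ x y, B (e x) (e y) = B x y

end Cfsg.Agent.Lib.Helper96GUDefs
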