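import Cfsg.Agent.Lib.Helper49SDefs

/-!
# Vocabulary for PROJECT 196 (TKL): `Sp(V₁) ⊗ O(V₂)` is maximal in `Sp(V₁ ⊗ V₂)`.

`V = F^a ⊗ F^b` is `Fin a × Fin b → F` (see `Helper49TDefs`, `Helper49SDefs`: `tens`, `NN`, `KS`, `bf`, `NJ`,
`IsSympMat`, `IsIso`, `adjJ`).  `J₁` alternating, `J₂` symmetric, the form on `V` has Gram matrix `J₁ ⊗ₖ J₂`.
-/

set_option autoImplicit false
set_option linter.unusedSectionVars false
set_option linter.unusedSimpArgs false

namespace Cfsg.Agent.Lib.Helper96KDefs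

open scoped Matrix Kronecker
open Matrix Cfsg.Agent.Lib.Helper49TDefs Cfsg.Agent.Lib.Helper49SDefs

variable {F : Type*} [Field F] {a b n : ℕ}

/-- `J` is the Gram matrix of a nondegenerate symmetric bilinear form -/
structure IsSymmMat (J : Matrix (Fin n) (Fin n) F) : Prop where
  symm : Jᵀ = J
  unit : IsUnit J.det

/-- The data: an alternating Gram matrix `J₁` and a symmetric Gram matrix `J₂`. -/
structure TDat (F : Type*) [Field F] (a b : ℕ) where
  J₁ : Matrix (Fin a) (Fin a) F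
  J₂ : Matrix (Fin b) (Fin b) F
  h₁ : IsSympMat J₁
  h₂ : IsSymmMat J₂

/-- the alternating form `f₁ ⊗ f₂` on `V` -/
def TDat.ff (D : TDat F a b) (x y : Fin a × Fin b → F) : F := x ⬝ᵥ (D.J₁ ⊗ₖ D.J₂) *ᵥ y

/-- the isometry group of `f₁ ⊗ f₂` inside `GL` -/
def SpG (D : TDat F a b) : Subgroup (Matrix.GeneralLinearGroup (Fin a × Fin b) F) where
  carrier := {g | ∀ x y, D.ff ((g : Matrix (Fin a × Fin b) (Fin a × Fin b) F) *ᵥ x)
    ((g : Matrix (Fin a × Fin b) (Fin a × Fin b) F) *ᵥ y) = D.ff x y}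
  mul_mem' := fun {g h} hg hh x y => by
    rw [Units.val_mul, ← Matrix.mulVec_mulVec, ← Matrix.mulVec_mulVec, hg, hh]
  one_mem' := fun x y => by simp
  inv_mem' := fun {g} hg x y => by
    have h := hg (((g⁻¹ : Matrix.GeneralLinearGroup (Fin a × Fin b) F) :
      Matrix (Fin a × Fin b) (Fin a × Fin b) F) *ᵥ x) (((g⁻¹ : Matrix.GeneralLinearGroup (Fin a × Fin b) F) :
      Matrix (Fin a × Fin b) (Fin a × Fin b) F) *ᵥ y)
    rw [Matrix.mulVec_mulVec, Matrix.mulVec_mulVec, ← Units.val_mul, mul_inv_cancel, Units.val_one,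
      Matrix.one_mulVec, Matrix.one_mulVec] at h
    exact h.symm

theorem mem_SpG {D : TDat F a b} {g : Matrix.GeneralLinearGroup (Fin a × Fin b) F} :
    g ∈ SpG D ↔ ∀ x y, D.ff ((g : Matrix (Fin a × Fin b) (Fin a × Fin b) F) *ᵥ x)
      ((g : Matrix (Fin a × Fin b) (Fin a × Fin b) F) *ᵥ y) = D.ff x y := Iff.rfl

/-- the square-zero matrices `B` whose whole scalar family `1 + c B` lies in `H` -/
def FN (H : Subgroup (Matrix.GeneralLinearGroup (Fin a × Fin b) F)) :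
    Set (Matrix (Fin a × Fin b) (Fin a × Fin b) F) := {B | ∀ c : F, c • B ∈ NN H}

/-- the rank one map `x ↦ f(x, v) v` (direction of the symplectic transvections with centre `v`) -/
def TV (D : TDat F a b) (v : Fin a × Fin b → F) : Matrix (Fin a × Fin b) (Fin a × Fin b) F :=
  Matrix.vecMulVec v ((D.J₁ ⊗ₖ D.J₂) *ᵥ v)

/-- the centres of the full transvection groups contained in `H` -/
def TC (D : TDat F a b) (H : Subgroup (Matrix.GeneralLinearGroup (Fin a × Fin b) F)) :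
    Set (Fin a × Fin b → F) := {v | TV D v ∈ FN H}

/-- `y ↦ u ⊗ y` as a rectangular matrix -/
def iota (u : Fin a → F) : Matrix (Fin a × Fin b) (Fin b) F :=
  Matrix.of fun p j => if p.2 = j then u p.1 else 0

/-- contraction of the first factor with the covector `φ`: `x ⊗ y ↦ (φ ⬝ᵥ x) y`, as a rectangular matrix -/
def con (φ : Fin a → F) : Matrix (Fin b) (Fin a × Fin b) F :=
  Matrix.of fun i p => if i = p.2 then φ p.1 else 0

/-- the generalised block `con ξ * X * iota η` (a `b × b` matrix) of an endomorphism of `V` -/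
def GB (X : Matrix (Fin a × Fin b) (Fin a × Fin b) F) (ξ η : Fin a → F) : Matrix (Fin b) (Fin b) F :=
  (con ξ : Matrix (Fin b) (Fin a × Fin b) F) * X * (iota η : Matrix (Fin a × Fin b) (Fin b) F)

/-- hypothesis (*): the only elements `1 + T_u ⊗ σ` of `H` are the ones of `M` -/
def Star (D : TDat F a b) (H : Subgroup (Matrix.GeneralLinearGroup (Fin a × Fin b) F)) : Prop :=
  ∀ (u : Fin a → F) (σ : Matrix (Fin b) (Fin b) F), u ≠ 0 → NJ D.J₁ u u ⊗ₖ σ ∈ FN H → ∃ κ : F, σ = κ • 1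

/-- the coefficient set `𝔖_u = {σ | 1 + c T_u ⊗ σ ∈ H for all c}` -/
def SS (D : TDat F a b) (H : Subgroup (Matrix.GeneralLinearGroup (Fin a × Fin b) F)) (u : Fin a → F) :
    Set (Matrix (Fin b) (Fin b) F) := {σ | NJ D.J₁ u u ⊗ₖ σ ∈ FN H}

/-- `τ(c, d) = N₂(c, d) + N₂(d, c)` -/
def tau (D : TDat F a b) (c d : Fin b → F) : Matrix (Fin b) (Fin b) F := NJ D.J₂ c d + NJ D.J₂ d c

/-- `c` is non-singular and `τ(c, d) ∈ 𝔖_u` for all `d ⊥ c` -/
def Good (D : TDat F a b) (H : Subgroup (Matrix.GeneralLinearGroup (Fin a × Fin b) F)) (u : Fin a → F)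
    (c : Fin b → F) : Prop :=
  bf D.J₂ c c ≠ 0 ∧ ∀ d, bf D.J₂ d c = 0 → tau D c d ∈ SS D H u

end Cfsg.Agent.Lib.Helper96KDefs
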