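import Cfsg.Agent.Lib.Helper95SpSL
import Cfsg.Agent.Lib.Helper95SL
import Cfsg.Agent.Lib.Helper95Form

set_option autoImplicit false

namespace Cfsg.Agent.Lib.Helper96Parabolic

open Module LinearMap Cfsg.Agent.Lib.Helper95SpSL

variable {K V : Type*} [Field K] [AddCommGroup V] [Module K V]

/-- A subgroup of `GL(V)` containing every transvection stabilising the subspace `W` and some
element not stabilising `W` contains all transvections. -/
theorem all_tv_mem (W : Submodule K V) (M : Subgroup (V ≃ₗ[K] V))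
    (hM1 : ∀ (a : V) (ℓ : Dual K V) (h : ℓ a = 0), a ∈ W → LinearEquiv.transvection h ∈ M)
    (hM2 : ∀ (a : V) (ℓ : Dual K V) (h : ℓ a = 0), (∀ w ∈ W, ℓ w = 0) →
      LinearEquiv.transvection h ∈ M)
    (g : V ≃ₗ[K] V) (hgM : g ∈ M) (hg : ¬ ∀ x ∈ W, g x ∈ W) :
    ∀ (a : V) (ℓ : Dual K V) (h : ℓ a = 0), LinearEquiv.transvection h ∈ M := by
  -- the set of good centres
  let C : Set V := {b | ∀ ℓ : Dual K V, ℓ b = 0 → P M b ℓ}
  have hCW : ∀ b ∈ W, b ∈ C := fun b hb ℓ h => ⟨h, hM1 b ℓ h hb⟩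
  have hCmap : ∀ e ∈ M, ∀ b ∈ C, e b ∈ C := by
    intro e he b hb ℓ hℓ
    have h1 := P_conj e he (hb (ℓ ∘ₗ (e : V →ₗ[K] V)) (by simpa using hℓ))
    have h2 : (ℓ ∘ₗ (e : V →ₗ[K] V)) ∘ₗ ((e⁻¹ : V ≃ₗ[K] V) : V →ₗ[K] V) = ℓ := by
      ext x
      have : e (e⁻¹ x) = x := e.apply_symm_apply x
      simp
    rwa [h2] at h1
  have hCsmul : ∀ (c : K), ∀ b ∈ C, c • b ∈ C := by
    intro c b hb ℓ hℓ
    by_cases hc : c = 0
    · subst hc
      rw [zero_smul]
      exact P_zero ℓ
    · have hℓb : ℓ b = 0 := by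
        rw [map_smul, smul_eq_mul] at hℓ
        exact (mul_eq_zero.1 hℓ).resolve_left hc
      obtain ⟨h1, h2⟩ := hb (c • ℓ) (by simp [hℓb])
      refine ⟨hℓ, ?_⟩
      have : LinearEquiv.transvection (f := ℓ) (v := c • b) hℓ = LinearEquiv.transvection h1 := by
        ext x
        simp [LinearMap.transvection.apply, smul_smul, mul_comm]
      rw [this]
      exact h2
  obtain ⟨w0, hw0, hgw0⟩ : ∃ w ∈ W, g w ∉ W := by
    by_contra hcon
    push Not at hcon
    exact hg hcon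
  set b0 := g w0 with hb0
  have hb0C : b0 ∈ C := hCmap g hgM w0 (hCW w0 hw0)
  -- case 1
  have hcase1 : ∀ b ∈ C, b ∉ W → ∀ b', b' - b ∈ W → b' ∈ C := by
    intro b hb hbW b' hb'
    have hns : b ∉ Submodule.span K {b' - b} := by
      intro h
      obtain ⟨c, hc⟩ := Submodule.mem_span_singleton.1 h
      apply hbW
      rw [← hc]
      exact W.smul_mem _ hb'
    obtain ⟨ℓ, hℓb, hℓ⟩ := Submodule.exists_le_ker_of_notMem hns
    have hℓa : ℓ (b' - b) = 0 := LinearMap.mem_ker.1 (hℓ (Submodule.mem_span_singleton_self _))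
    have hℓa' : ((ℓ b)⁻¹ • ℓ) (b' - b) = 0 := by simp [hℓa]
    have h1 := hCmap _ (hM1 (b' - b) ((ℓ b)⁻¹ • ℓ) hℓa' hb') b hb
    have h2 : LinearEquiv.transvection hℓa' b = b' := by
      simp [LinearMap.transvection.apply, hℓb]
    rwa [h2] at h1
  have hall : ∀ b', b' ∈ C := by
    intro b'
    by_cases hb'W : b' ∈ W
    · exact hCW b' hb'W
    by_cases hdep : ∃ c : K, b' - c • b0 ∈ W
    · obtain ⟨c, hc⟩ := hdep
      have hc0 : c ≠ 0 := by
        rintro rfl
        apply hb'W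
        simpa using hc
      exact hcase1 (c • b0) (hCsmul c b0 hb0C) (fun h => hgw0 ((W.smul_mem_iff hc0).1 h)) b' hc
    · push Not at hdep
      have hns : b0 ∉ W ⊔ Submodule.span K {b' - b0} := by
        intro h
        obtain ⟨a, ha, d, hd, had⟩ := Submodule.mem_sup.1 h
        obtain ⟨c, rfl⟩ := Submodule.mem_span_singleton.1 hd
        by_cases hc : c = 0
        · subst hc
          apply hgw0
          rw [← had]
          simpa using ha
        · apply hdep ((1 + c) / c)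
          have : b' - ((1 + c) / c) • b0 = (-c⁻¹) • a := by
            have h3 : a = b0 - c • (b' - b0) := by rw [eq_sub_iff_add_eq]; exact had
            rw [h3]
            have h4 : (1 + c) / c = c⁻¹ + 1 := by field_simp
            rw [h4]
            simp only [smul_sub, smul_smul, neg_mul, inv_mul_cancel₀ hc, add_smul, one_smul, neg_smul]
            abel
          rw [this]
          exact W.smul_mem _ ha
      obtain ⟨ℓ, hℓb, hℓ⟩ := Submodule.exists_le_ker_of_notMem hns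
      have hℓa : ℓ (b' - b0) = 0 :=
        LinearMap.mem_ker.1 (hℓ (Submodule.mem_sup_right (Submodule.mem_span_singleton_self _)))
      have hℓW : ∀ w ∈ W, ℓ w = 0 := fun w hw => LinearMap.mem_ker.1 (hℓ (Submodule.mem_sup_left hw))
      have hℓa' : ((ℓ b0)⁻¹ • ℓ) (b' - b0) = 0 := by simp [hℓa]
      have h1 := hCmap _ (hM2 (b' - b0) ((ℓ b0)⁻¹ • ℓ) hℓa' (fun w hw => by simp [hℓW w hw])) b0 hb0C
      have h2 : LinearEquiv.transvection hℓa' b0 = b' := by
        simp [LinearMap.transvection.apply, hℓb]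
      rwa [h2] at h1
  intro a ℓ h
  exact (hall a ℓ h).2

section matrix

open Matrix Cfsg.Agent.Lib.Helper95Basic Cfsg.Agent.Lib.Helper95Form Cfsg.Agent.Lib.Helper95SL

variable {ι : Type} [Fintype ι] [DecidableEq ι] {F : Type*} [Field F]

theorem specialLinear_le_of_stab [Nontrivial ι] (W : Submodule F (ι → F)) (M : Subgroup (GL ι F))
    (hM : Cfsg.Geo.subspaceStabilizer W ⊓ Cfsg.Geo.specialLinear ι F ≤ M) (g : GL ι F)
    (hgM : g ∈ M) (hg : g ∉ Cfsg.Geo.subspaceStabilizer W) : Cfsg.Geo.specialLinear ι F ≤ M := by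
  have hall := all_tv_mem W (pull M)
    (fun a ℓ h ha => (mem_pull M _).2 (hM ⟨mem_subspaceStabilizer_of_le W _ (fun v hv => by
      rw [mkGL_mulVec]
      simp only [LinearEquiv.transvection.apply]
      exact W.add_mem hv (W.smul_mem _ ha)), tv_mem_specialLinear a ℓ h⟩))
    (fun a ℓ h hℓ => (mem_pull M _).2 (hM ⟨mem_subspaceStabilizer_of_le W _ (fun v hv => by
      rw [mkGL_mulVec]
      simp only [LinearEquiv.transvection.apply, hℓ v hv, zero_smul, add_zero]
      exact hv), tv_mem_specialLinear a ℓ h⟩))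
    (glEquiv ι F g) ((glEquiv_mem_pull M g).2 hgM) (fun h => hg (mem_subspaceStabilizer_of_le W _
      (fun v hv => h v hv)))
  exact specialLinear_le_of_tv M (fun a ℓ h => hall a ℓ h)

theorem exists_tv_not_stab (W : Submodule F (ι → F)) (hW0 : W ≠ ⊥) (hW1 : W ≠ ⊤) :
    ∃ g ∈ Cfsg.Geo.specialLinear ι F, g ∉ Cfsg.Geo.subspaceStabilizer W := by
  obtain ⟨w, hwW, hw0⟩ := Submodule.exists_mem_ne_zero_of_ne_bot hW0
  obtain ⟨x, hxW⟩ : ∃ x, x ∉ W := by
    by_contra hcon
    push Not at hcon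
    exact hW1 (eq_top_iff.2 fun y _ => hcon y)
  have hw' : w ∉ Submodule.span F {x} := by
    intro h
    obtain ⟨c, rfl⟩ := Submodule.mem_span_singleton.1 h
    have hc : c ≠ 0 := by
      rintro rfl
      simp at hw0
    exact hxW ((W.smul_mem_iff hc).1 hwW)
  obtain ⟨ℓ', hℓw, hℓx⟩ := Submodule.exists_le_ker_of_notMem hw'
  have hℓ'x0 : ℓ' x = 0 := LinearMap.mem_ker.1 (hℓx (Submodule.mem_span_singleton_self x))
  refine ⟨tv x ℓ' hℓ'x0, tv_mem_specialLinear _ _ _, fun h1 => ?_⟩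
  have h2 := (mem_subspaceStabilizer_iff W _).1 h1 w
  rw [tv_mulVec] at h2
  have h3 := h2.1 hwW
  have h4 : ℓ' w • x ∈ W := by
    have := W.sub_mem h3 hwW
    simpa using this
  exact hxW ((W.smul_mem_iff hℓw).1 h4)

end matrix

end Cfsg.Agent.Lib.Helper96Parabolic
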