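import Mathlib

set_option autoImplicit false

/-! PROJECT 3 = ASCH-SP, `Sp_4(3)`: the abstract argument for the group `D8 ∘ Q8`. -/

namespace Cfsg.Agent.Lib.Helper96Sp4Abs

variable {A : Type*} [Ring A]

/-- commute up to sign -/
def SC (x y : A) : Prop := x * y = y * x ∨ x * y = -(y * x)

lemma SC.symm {x y : A} (h : SC x y) : SC y x := by
  rcases h with h | h
  · exact Or.inl h.symm
  · exact Or.inr (by rw [h, neg_neg])

lemma SC.one_right (x : A) : SC x 1 := Or.inl (by rw [mul_one, one_mul])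

lemma SC.neg_right {x y : A} (h : SC x y) : SC x (-y) := by
  rcases h with h | h
  · exact Or.inl (by rw [mul_neg, neg_mul, h])
  · exact Or.inr (by rw [mul_neg, neg_mul, h])

lemma SC.mul_right {x y z : A} (h : SC x y) (h' : SC x z) : SC x (y * z) := by
  rcases h with h | h <;> rcases h' with h' | h'
  · exact Or.inl (by rw [← mul_assoc, h, mul_assoc, h', mul_assoc])
  · exact Or.inr (by rw [← mul_assoc, h, mul_assoc, h', mul_neg, mul_assoc])
  · exact Or.inr (by rw [← mul_assoc, h, neg_mul, mul_assoc, h', mul_assoc])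
  · exact Or.inl (by rw [← mul_assoc, h, neg_mul, mul_assoc, h', mul_neg, neg_neg, mul_assoc])

lemma SC.mul_left {x y z : A} (h : SC x z) (h' : SC y z) : SC (x * y) z :=
  (h.symm.mul_right h'.symm).symm

lemma SC.neg_left {x y : A} (h : SC x y) : SC (-x) y := h.symm.neg_right.symm

lemma SC.self (x : A) : SC x x := Or.inl rfl

/-- inverse on the left -/
lemma SC.inv_left {x x' y : A} (h1 : x * x' = 1) (h2 : x' * x = 1) (h : SC x y) : SC x' y := by
  rcases h with h | h
  · left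
    calc x' * y = x' * y * (x * x') := by rw [h1, mul_one]
      _ = x' * (y * x) * x' := by simp only [mul_assoc]
      _ = x' * (x * y) * x' := by rw [h]
      _ = (x' * x) * y * x' := by simp only [mul_assoc]
      _ = y * x' := by rw [h2, one_mul]
  · right
    have h' : y * x = -(x * y) := by rw [h, neg_neg]
    calc x' * y = x' * y * (x * x') := by rw [h1, mul_one]
      _ = x' * (y * x) * x' := by simp only [mul_assoc]
      _ = x' * (-(x * y)) * x' := by rw [h']
      _ = -((x' * x) * y * x') := by simp only [mul_assoc, mul_neg, neg_mul]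
      _ = -(y * x') := by rw [h2, one_mul]

/-- conjugation -/
lemma SC.conj {k k' x y : A} (h2 : k' * k = 1) (h : SC x y) : SC (k * x * k') (k * y * k') := by
  have e1 : k * x * k' * (k * y * k') = k * (x * y) * k' := by
    calc k * x * k' * (k * y * k') = k * x * (k' * k) * y * k' := by simp only [mul_assoc]
      _ = k * (x * y) * k' := by rw [h2, mul_one]; simp only [mul_assoc]
  have e2 : k * y * k' * (k * x * k') = k * (y * x) * k' := by
    calc k * y * k' * (k * x * k') = k * y * (k' * k) * x * k' := by simp only [mul_assoc]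
      _ = k * (y * x) * k' := by rw [h2, mul_one]; simp only [mul_assoc]
  rcases h with h | h
  · exact Or.inl (by rw [e1, e2, h])
  · exact Or.inr (by rw [e1, e2, h, mul_neg, neg_mul])

/-- the hypotheses -/
structure Setup (Iso : A → Prop) (r1 r2 r3 r4 : A) : Prop where
  iso_mul : ∀ x y, Iso x → Iso y → Iso (x * y)
  iso1 : Iso r1
  iso2 : Iso r2
  iso4 : Iso r4
  sq1 : r1 * r1 = 1
  sq2 : r2 * r2 = 1
  sq4 : r4 * r4 = -1
  c12 : r1 * r2 = -(r2 * r1)
  c34 : r3 * r4 = -(r4 * r3)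
  c13 : r1 * r3 = r3 * r1
  c14 : r1 * r4 = r4 * r1
  c23 : r2 * r3 = r3 * r2
  c24 : r2 * r4 = r4 * r2
  hcomm : ∀ w, Iso w → w * r1 = r1 * w → w * r2 = r2 * w → w * r3 = r3 * w →
    w = 1 ∨ w = -1 ∨ w = r3 ∨ w = -r3
  hclass : ∀ X, Iso X → X * r3 = r3 * X → X * X = 1 →
    X = 1 ∨ X = -1 ∨ X = r1 ∨ X = -r1 ∨ X = r2 ∨ X = -r2 ∨ X = r1 * r2 * r3 ∨ X = -(r1 * r2 * r3)

/-- commuting up to sign with the four generators -/
def SCg (r1 r2 r3 r4 y : A) : Prop := SC y r1 ∧ SC y r2 ∧ SC y r3 ∧ SC y r4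

/-- `M` commutes up to sign with everything that commutes up to sign with the generators -/
def Good (r1 r2 r3 r4 M : A) : Prop := ∀ y, SCg r1 r2 r3 r4 y → SC y M

/-- membership in the group -/
def InR (Iso : A → Prop) (r1 r2 r3 x : A) : Prop := Iso x ∧ SC x r1 ∧ SC x r2 ∧ SC x r3

variable {Iso : A → Prop} {r1 r2 r3 r4 : A}

lemma Good.one : Good r1 r2 r3 r4 1 := fun y _ => SC.one_right y
lemma Good.neg {M : A} (h : Good r1 r2 r3 r4 M) : Good r1 r2 r3 r4 (-M) := fun y hy => (h y hy).neg_right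
lemma Good.mul {M N : A} (h : Good r1 r2 r3 r4 M) (h' : Good r1 r2 r3 r4 N) : Good r1 r2 r3 r4 (M * N) :=
  fun y hy => (h y hy).mul_right (h' y hy)
lemma good1 : Good r1 r2 r3 r4 r1 := fun _ hy => hy.1
lemma good2 : Good r1 r2 r3 r4 r2 := fun _ hy => hy.2.1
lemma good3 : Good r1 r2 r3 r4 r3 := fun _ hy => hy.2.2.1
lemma good4 : Good r1 r2 r3 r4 r4 := fun _ hy => hy.2.2.2

namespace Setup

variable (S : Setup Iso r1 r2 r3 r4)
include S

lemma goodA {w : A} (hw : Iso w) (h1 : w * r1 = r1 * w) (h2 : w * r2 = r2 * w) (h3 : w * r3 = r3 * w) :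
    Good r1 r2 r3 r4 w := by
  rcases S.hcomm w hw h1 h2 h3 with rfl | rfl | rfl | rfl
  · exact Good.one
  · exact Good.one.neg
  · exact good3
  · exact good3.neg

lemma goodB {w : A} (hw : Iso w) (h1 : SC w r1) (h2 : w * r2 = r2 * w) (h3 : w * r3 = r3 * w) :
    Good r1 r2 r3 r4 w := by
  rcases h1 with h1 | h1
  · exact S.goodA hw h1 h2 h3
  · have hg : Good r1 r2 r3 r4 (w * r2) := by
      apply S.goodA (S.iso_mul _ _ hw S.iso2)
      · have c21 : r2 * r1 = -(r1 * r2) := by rw [S.c12, neg_neg]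
        rw [mul_assoc, c21, mul_neg, ← mul_assoc, h1, neg_mul, neg_neg, mul_assoc]
      · rw [h2, mul_assoc, ← h2]
      · rw [mul_assoc, S.c23, ← mul_assoc, h3, mul_assoc]
    have := hg.mul (good2 (r1 := r1) (r2 := r2) (r3 := r3) (r4 := r4))
    rwa [mul_assoc, S.sq2, mul_one] at this

lemma goodC {w : A} (hw : Iso w) (h1 : SC w r1) (h2 : SC w r2) (h3 : w * r3 = r3 * w) :
    Good r1 r2 r3 r4 w := by
  rcases h2 with h2 | h2
  · exact S.goodB hw h1 h2 h3
  · have hg : Good r1 r2 r3 r4 (w * r1) := by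
      apply S.goodB (S.iso_mul _ _ hw S.iso1)
      · exact h1.mul_left (SC.self r1)
      · rw [mul_assoc, S.c12, mul_neg, ← mul_assoc, h2, neg_mul, neg_neg, mul_assoc]
      · rw [mul_assoc, S.c13, ← mul_assoc, h3, mul_assoc]
    have := hg.mul (good1 (r1 := r1) (r2 := r2) (r3 := r3) (r4 := r4))
    rwa [mul_assoc, S.sq1, mul_one] at this

lemma goodD {w : A} (hw : Iso w) (h1 : SC w r1) (h2 : SC w r2) (h3 : SC w r3) :
    Good r1 r2 r3 r4 w := by
  rcases h3 with h3 | h3
  · exact S.goodC hw h1 h2 h3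
  · have hg : Good r1 r2 r3 r4 (w * r4) := by
      apply S.goodC (S.iso_mul _ _ hw S.iso4)
      · exact h1.mul_left (Or.inl S.c14.symm)
      · exact h2.mul_left (Or.inl S.c24.symm)
      · have c43 : r4 * r3 = -(r3 * r4) := by rw [S.c34, neg_neg]
        rw [mul_assoc, c43, mul_neg, ← mul_assoc, h3, neg_mul, neg_neg, mul_assoc]
    have := (hg.mul (good4 (r1 := r1) (r2 := r2) (r3 := r3) (r4 := r4))).neg
    rwa [mul_assoc, S.sq4, mul_neg, mul_one, neg_neg] at this

lemma scg4 : SCg r1 r2 r3 r4 r4 :=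
  ⟨Or.inl S.c14.symm, Or.inl S.c24.symm, SC.symm (Or.inr S.c34), SC.self r4⟩

lemma good_of_mem {x : A} (hx : InR Iso r1 r2 r3 x) : Good r1 r2 r3 r4 x :=
  S.goodD hx.1 hx.2.1 hx.2.2.1 hx.2.2.2

lemma scg_of_mem {x : A} (hx : InR Iso r1 r2 r3 x) : SCg r1 r2 r3 r4 x :=
  ⟨hx.2.1, hx.2.2.1, hx.2.2.2, (S.good_of_mem hx r4 S.scg4).symm⟩

/-- (T2) -/
lemma sc_of_mem {x y : A} (hx : InR Iso r1 r2 r3 x) (hy : InR Iso r1 r2 r3 y) : SC x y :=
  S.good_of_mem hy x (S.scg_of_mem hx)

/-- the key lemma -/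
lemma good_conj {k k' : A} (hk : Iso k) (hk' : Iso k') (h1 : k * k' = 1) (h2 : k' * k = 1)
    (h3 : SC k r3) {r : A} (hr : Iso r) (hsq : r * r = 1) (hc : r * r3 = r3 * r) :
    Good r1 r2 r3 r4 (k' * r * k) := by
  have h3' : SC k' r3 := h3.inv_left h1 h2
  have hX : k' * r * k * r3 = r3 * (k' * r * k) := by
    rcases h3 with h3 | h3
    · have h3'' : k' * r3 = r3 * k' := by
        calc k' * r3 = k' * r3 * (k * k') := by rw [h1, mul_one]
          _ = k' * (r3 * k) * k' := by simp only [mul_assoc]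
          _ = k' * (k * r3) * k' := by rw [h3]
          _ = (k' * k) * r3 * k' := by simp only [mul_assoc]
          _ = r3 * k' := by rw [h2, one_mul]
      calc k' * r * k * r3 = k' * r * (k * r3) := by simp only [mul_assoc]
        _ = k' * (r * r3) * k := by rw [h3]; simp only [mul_assoc]
        _ = (k' * r3) * r * k := by rw [hc]; simp only [mul_assoc]
        _ = r3 * (k' * r * k) := by rw [h3'']; simp only [mul_assoc]
    · have h3r : r3 * k = -(k * r3) := by rw [h3, neg_neg]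
      have h3'' : k' * r3 = -(r3 * k') := by
        calc k' * r3 = k' * r3 * (k * k') := by rw [h1, mul_one]
          _ = k' * (r3 * k) * k' := by simp only [mul_assoc]
          _ = k' * (-(k * r3)) * k' := by rw [h3r]
          _ = -((k' * k) * r3 * k') := by simp only [mul_assoc, mul_neg, neg_mul]
          _ = -(r3 * k') := by rw [h2, one_mul]
      calc k' * r * k * r3 = k' * r * (k * r3) := by simp only [mul_assoc]
        _ = -(k' * (r * r3) * k) := by rw [h3]; simp only [mul_assoc, mul_neg]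
        _ = -((k' * r3) * r * k) := by rw [hc]; simp only [mul_assoc]
        _ = r3 * (k' * r * k) := by rw [h3'']; simp only [mul_assoc, neg_mul, neg_neg]
  have hsq' : k' * r * k * (k' * r * k) = 1 := by
    calc k' * r * k * (k' * r * k) = k' * r * (k * k') * r * k := by simp only [mul_assoc]
      _ = k' * (r * r) * k := by rw [h1, mul_one]; simp only [mul_assoc]
      _ = 1 := by rw [hsq, mul_one, h2]
  have g1 := good1 (r1 := r1) (r2 := r2) (r3 := r3) (r4 := r4)
  have g2 := good2 (r1 := r1) (r2 := r2) (r3 := r3) (r4 := r4)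
  have g3 := good3 (r1 := r1) (r2 := r2) (r3 := r3) (r4 := r4)
  rcases S.hclass _ (S.iso_mul _ _ (S.iso_mul _ _ hk' hr) hk) hX hsq' with h | h | h | h | h | h | h | h <;> rw [h]
  · exact Good.one
  · exact Good.one.neg
  · exact g1
  · exact g1.neg
  · exact g2
  · exact g2.neg
  · exact (g1.mul g2).mul g3
  · exact ((g1.mul g2).mul g3).neg

/-- (T3) -/
lemma conj_mem {k k' : A} (hk : Iso k) (hk' : Iso k') (h1 : k * k' = 1) (h2 : k' * k = 1)
    (h3 : SC k r3) {x : A} (hx : InR Iso r1 r2 r3 x) : InR Iso r1 r2 r3 (k * x * k') := by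
  have hs := S.scg_of_mem hx
  have key : ∀ r : A, Good r1 r2 r3 r4 (k' * r * k) → SC (k * x * k') r := by
    intro r hg
    have := (hg x hs).conj (k := k) (k' := k') h2
    have e : k * (k' * r * k) * k' = r := by
      calc k * (k' * r * k) * k' = (k * k') * r * (k * k') := by simp only [mul_assoc]
        _ = r := by rw [h1, one_mul, mul_one]
    rwa [e] at this
  refine ⟨S.iso_mul _ _ (S.iso_mul _ _ hk hx.1) hk', key _ ?_, key _ ?_, key _ ?_⟩
  · exact S.good_conj hk hk' h1 h2 h3 S.iso1 S.sq1 S.c13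
  · exact S.good_conj hk hk' h1 h2 h3 S.iso2 S.sq2 S.c23
  · -- `k' r3 k = ± r3`
    have g3 := good3 (r1 := r1) (r2 := r2) (r3 := r3) (r4 := r4)
    rcases h3 with h3 | h3
    · have : k' * r3 * k = r3 := by
        rw [mul_assoc, ← h3, ← mul_assoc, h2, one_mul]
      rw [this]; exact g3
    · have h3r : r3 * k = -(k * r3) := by rw [h3, neg_neg]
      have : k' * r3 * k = -r3 := by
        rw [mul_assoc, h3r, mul_neg, ← mul_assoc, h2, one_mul]
      rw [this]; exact g3.neg

end Setup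

lemma InR.mul (hmul : ∀ x y, Iso x → Iso y → Iso (x * y)) {x y : A} (hx : InR Iso r1 r2 r3 x)
    (hy : InR Iso r1 r2 r3 y) : InR Iso r1 r2 r3 (x * y) :=
  ⟨hmul _ _ hx.1 hy.1, hx.2.1.mul_left hy.2.1, hx.2.2.1.mul_left hy.2.2.1, hx.2.2.2.mul_left hy.2.2.2⟩

lemma InR.inv {x x' : A} (h1 : x * x' = 1) (h2 : x' * x = 1) (hx' : Iso x') (hx : InR Iso r1 r2 r3 x) :
    InR Iso r1 r2 r3 x' :=
  ⟨hx', hx.2.1.inv_left h1 h2, hx.2.2.1.inv_left h1 h2, hx.2.2.2.inv_left h1 h2⟩

end Cfsg.Agent.Lib.Helper96Sp4Abs
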