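import Cfsg.Agent.Lib.Helper96Sp4Inst
import Cfsg.Agent.Lib.Helper95Sp4Transfer
import Cfsg.Agent.Lib.Helper95SpEChar
import Cfsg.Agent.Lib.Helper95Sp4FieldU3a

set_option autoImplicit false

/-! PROJECT 3 = ASCH-SP, `Sp_4(3)`: the normaliser of a unitary-type field `F_9` normalises `D8 ∘ Q8`. -/

namespace Cfsg.Agent.Lib.Helper96Sp4Group

open Cfsg Cfsg.Geo Matrix
open Cfsg.Agent.Lib.Helper97GBase Cfsg.Agent.Lib.Helper97GCore
  Cfsg.Agent.Lib.Helper98AschGDefs Cfsg.Agent.Lib.Helper98AschGBasic Cfsg.Agent.Lib.Helper96SpDefs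
  Cfsg.Agent.Lib.Helper95SpTenstwo Cfsg.Agent.Lib.Helper96Sp4Mat Cfsg.Agent.Lib.Helper97CLoc
  Cfsg.Agent.Lib.Helper96Sp4Abs Cfsg.Agent.Lib.Helper96Sp4Inst Cfsg.Agent.Lib.Helper95Sp4Transfer
open scoped MatrixGroups Kronecker

variable {ι : Type} [Fintype ι] [DecidableEq ι] {F : Type*} [Field F]
variable {f : (ι → F) → (ι → F) → F} {H : Subgroup (GL ι F)}

lemma loc_neg (e : ι ≃ Fin 2 × Fin 2) (P : GL ι F) (g : Matrix ι ι F) : loc e P (-g) = - loc e P g := by
  unfold loc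
  rw [Matrix.mul_neg, Matrix.neg_mul]
  rfl

/-- the group `D8 ∘ Q8` in the coordinates `e`, `P` -/
def RR (e : ι ≃ Fin 2 × Fin 2) (P : GL ι F) : Subgroup (GL ι F) where
  carrier := {g | Mem (loc e P (g : Matrix ι ι F))}
  mul_mem' := by
    intro a b ha hb
    show Mem (loc e P ((a * b : GL ι F) : Matrix ι ι F))
    rw [Units.val_mul, loc_mul]
    exact InR.mul (fun _ _ hx hy => hx.mul hy) ha hb
  one_mem' := by
    show Mem (loc e P ((1 : GL ι F) : Matrix ι ι F))
    rw [Units.val_one, loc_one]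
    exact ⟨IsoG.one, (SC.one_right _).symm, (SC.one_right _).symm, (SC.one_right _).symm⟩
  inv_mem' := by
    intro a ha
    have h1 : loc e P (a : Matrix ι ι F) * loc e P ((a⁻¹ : GL ι F) : Matrix ι ι F) = 1 := by
      rw [← loc_mul, Helper97CLoc.iv, loc_one]
    have h2 : loc e P ((a⁻¹ : GL ι F) : Matrix ι ι F) * loc e P (a : Matrix ι ι F) = 1 := by
      rw [← loc_mul, Helper97CLoc.vi, loc_one]
    exact InR.inv h1 h2 (IsoG.inv h1 ha.1) ha

lemma mem_RR {e : ι ≃ Fin 2 × Fin 2} {P : GL ι F} {g : GL ι F} :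
    g ∈ RR e P ↔ Mem (loc e P (g : Matrix ι ι F)) := Iff.rfl

/-- [D_fieldU3b] the group `R = D8 ∘ Q8`. -/
theorem fieldU3_group [Fintype F] (hq : Fintype.card F = 3)
    (hH : FixesForm (matrixSet H) f) (e : ι ≃ Fin 2 × Fin 2) (P : GL ι F)
    (hG : ∀ x y : Fin 2 × Fin 2 → F, f ((P : Matrix ι ι F) *ᵥ (x ∘ e)) ((P : Matrix ι ι F) *ᵥ (y ∘ e)) =
        formOfGram id ((1 : Matrix (Fin 2) (Fin 2) F) ⊗ₖ J0 F) x y)
    (hi : ∀ h ∈ H, (h : Matrix ι ι F) * tens e P 1 (J0 F) * ((h⁻¹ : GL ι F) : Matrix ι ι F) = tens e P 1 (J0 F) ∨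
      (h : Matrix ι ι F) * tens e P 1 (J0 F) * ((h⁻¹ : GL ι F) : Matrix ι ι F) = - tens e P 1 (J0 F)) :
    ∃ R : Subgroup (GL ι F), FixesForm (matrixSet R) f ∧ ActsAbsolutelyIrreducibly (matrixSet R) ∧
      ⁅R, R⁆ ≤ scalars ι F ∧ Nz H R := by
  have h3 : (3 : F) = 0 := Helper95Sp4FieldU3a.three_zero hq
  have h2 : (2 : F) ≠ 0 := Helper95Sp4FieldU3a.two_ne hq
  have : CharP F 3 := ringChar.of_eq (CharP.ringChar_of_prime_eq_zero Nat.prime_three (by exact_mod_cast h3))
  have hel := Helper95Sp4FieldU3a.cases3' hq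
  have S := setup hel
  refine ⟨RR e P, ?_, ?_, ?_, ?_⟩
  · rintro _ ⟨g, hg, rfl⟩
    exact (iso_iff hG _).mpr hg.1
  · apply absIrred_of_gens h2 e P
    intro s hs
    obtain ⟨s', h1, h2⟩ := gens_inv h3 hs
    refine ⟨⟨unloc e P s, unloc e P s', by rw [← unloc_mul, h1, unloc_one],
      by rw [← unloc_mul, h2, unloc_one]⟩, ?_, rfl⟩
    show Mem (loc e P (unloc e P s))
    rw [loc_unloc]
    exact mem_gens h3 hs
  · rw [Subgroup.commutator_le]
    intro x hx y hy
    rw [mem_scalars_iff]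
    rcases S.sc_of_mem hx hy with h | h
    · refine ⟨1, ?_⟩
      have hxy : x * y = y * x := by
        apply Units.ext
        apply loc_injective e P
        rw [Units.val_mul, Units.val_mul, loc_mul, loc_mul, h]
      have : x * y * x⁻¹ * y⁻¹ = 1 := by
        rw [hxy]; group
      rw [commutatorElement_def, this, Units.val_one, Units.val_one, one_smul]
    · refine ⟨-1, ?_⟩
      have hxy : (x : Matrix ι ι F) * (y : Matrix ι ι F) = -((y : Matrix ι ι F) * (x : Matrix ι ι F)) := by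
        apply loc_injective e P
        rw [loc_neg, loc_mul, loc_mul, h]
      rw [commutatorElement_def, Units.val_mul, Units.val_mul, Units.val_mul, hxy, Matrix.neg_mul, Matrix.neg_mul,
        Matrix.mul_assoc (y : Matrix ι ι F), Helper97CLoc.iv, Matrix.mul_one, Helper97CLoc.iv, Units.val_neg, Units.val_one, neg_smul, one_smul]
  · intro h hh x hx
    rw [mem_RR, Units.val_mul, Units.val_mul, loc_mul, loc_mul]
    have h1 : loc e P (h : Matrix ι ι F) * loc e P ((h⁻¹ : GL ι F) : Matrix ι ι F) = 1 := by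
      rw [← loc_mul, Helper97CLoc.iv, loc_one]
    have h2 : loc e P ((h⁻¹ : GL ι F) : Matrix ι ι F) * loc e P (h : Matrix ι ι F) = 1 := by
      rw [← loc_mul, Helper97CLoc.vi, loc_one]
    have hfix : ∀ u v, f ((h : Matrix ι ι F) *ᵥ u) ((h : Matrix ι ι F) *ᵥ v) = f u v := hH _ ⟨h, hh, rfl⟩
    have hk : IsoG (loc e P (h : Matrix ι ι F)) := by
      have := (iso_iff hG (h : Matrix ι ι F)).mp hfix
      exact this
    have hGG : loc e P (tens e P 1 (J0 F)) = GG F := by
      have : tens e P 1 (J0 F) = unloc e P (GG F) := rfl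
      rw [this, loc_unloc]
    refine S.conj_mem hk (IsoG.inv h1 hk) h1 h2 ?_ hx
    rcases hi h hh with h' | h'
    · left
      have := congrArg (fun M => loc e P (M * (h : Matrix ι ι F))) h'
      simp only [Matrix.mul_assoc, Helper97CLoc.vi, Matrix.mul_one, loc_mul, hGG] at this
      exact this
    · right
      have := congrArg (fun M => loc e P (M * (h : Matrix ι ι F))) h'
      simp only [Matrix.mul_assoc, Helper97CLoc.vi, Matrix.mul_one, loc_mul, hGG, Matrix.neg_mul, loc_neg] at this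
      exact this

/-- glue -/
theorem fieldU3_c6 [Fintype F] (hq : Fintype.card F = 3) (hn : Fintype.card ι = 4) (hf : IsSymplecticForm f)
    (hH : FixesForm (matrixSet H) f) (h : AltFieldU f H) : AltC6 f H := by
  obtain ⟨K, hK, hac, hnsa, hle⟩ := h
  obtain ⟨e, P, hiK, hG⟩ := Helper95Sp4FieldU3a.fieldU3_normal_form hq hn hf hK hac hnsa
  have hii : tens e P 1 (J0 F) * tens e P 1 (J0 F) = -1 := by
    have : tens e P 1 (J0 F) = unloc e P (GG F) := rfl
    rw [this, ← unloc_mul, sq_R3]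
    have h1 : (-1 : M4 F) = (-1 : F) • (1 : M4 F) := by rw [neg_smul, one_smul]
    rw [h1, unloc_smul, unloc_one, neg_smul, one_smul]
  obtain ⟨R, hR, habs, hcomm, hnorm⟩ := fieldU3_group hq hH e P hG (fieldU3_pm hK hiK hii hle)
  have : Nonempty ι := by
    rw [← Fintype.card_pos_iff, hn]; norm_num
  exact Helper95SpEChar.altC6_of_normal (by rw [hq]; exact Nat.prime_three) hf hR habs hcomm hnorm

end Cfsg.Agent.Lib.Helper96Sp4Group
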