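import Cfsg.Agent.Lib.Helper96Sp4Mat
import Cfsg.Agent.Lib.Helper96Sp4Abs

set_option autoImplicit false

/-! PROJECT 3 = ASCH-SP, `Sp_4(3)`: the hypotheses of the abstract argument hold for `4 × 4` matrices. -/

namespace Cfsg.Agent.Lib.Helper96Sp4Inst

open Matrix Cfsg.Agent.Lib.Helper95SpTenstwo Cfsg.Agent.Lib.Helper96Sp4Mat Cfsg.Agent.Lib.Helper96Sp4Abs
open scoped Kronecker

variable {F : Type*} [Field F]

/-- isometries of the Gram matrix `1 ⊗ J0` -/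
def IsoG (X : M4 F) : Prop := Xᵀ * GG F * X = GG F

lemma IsoG.mul {X Y : M4 F} (hX : IsoG X) (hY : IsoG Y) : IsoG (X * Y) := by
  unfold IsoG at *
  calc (X * Y)ᵀ * GG F * (X * Y) = Yᵀ * (Xᵀ * GG F * X) * Y := by
        rw [Matrix.transpose_mul]; simp only [Matrix.mul_assoc]
    _ = GG F := by rw [hX, hY]

lemma IsoG.one : IsoG (1 : M4 F) := by
  unfold IsoG
  rw [Matrix.transpose_one, Matrix.one_mul, Matrix.mul_one]

lemma IsoG.inv {X Y : M4 F} (h1 : X * Y = 1) (hX : IsoG X) : IsoG Y := by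
  unfold IsoG at *
  calc Yᵀ * GG F * Y = Yᵀ * (Xᵀ * GG F * X) * Y := by rw [hX]
    _ = (X * Y)ᵀ * GG F * (X * Y) := by rw [Matrix.transpose_mul]; simp only [Matrix.mul_assoc]
    _ = GG F := by rw [h1, Matrix.transpose_one, Matrix.one_mul, Matrix.mul_one]

lemma isoG_kron {a b : M2 F} (ha : aᵀ * a = 1) (hb : bᵀ * J0 F * b = J0 F) : IsoG (a ⊗ₖ b) := by
  unfold IsoG
  rw [← Matrix.kroneckerMap_transpose, ← Matrix.mul_kronecker_mul, ← Matrix.mul_kronecker_mul, Matrix.mul_one,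
    ha, hb]

lemma one_iso : (1 : M2 F)ᵀ * J0 F * 1 = J0 F := by
  rw [Matrix.transpose_one, Matrix.one_mul, Matrix.mul_one]

lemma one_orth : (1 : M2 F)ᵀ * 1 = 1 := by
  rw [Matrix.transpose_one, Matrix.one_mul]

abbrev R1 (F : Type*) [Field F] : M4 F := sz F ⊗ₖ (1 : M2 F)
abbrev R2 (F : Type*) [Field F] : M4 F := sx F ⊗ₖ (1 : M2 F)
abbrev R4 (F : Type*) [Field F] : M4 F := (1 : M2 F) ⊗ₖ cc F

lemma iso_R1 : IsoG (R1 F) := isoG_kron (by rw [sz_tr, sz_sq]) one_iso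
lemma iso_R2 : IsoG (R2 F) := isoG_kron (by rw [sx_tr, sx_sq]) one_iso
lemma iso_R3 : IsoG (GG F) := isoG_kron one_orth J0_iso
lemma iso_R4 (h3 : (3 : F) = 0) : IsoG (R4 F) := isoG_kron one_orth (cc_iso h3)

lemma sq_R1 : R1 F * R1 F = 1 := by
  rw [← Matrix.mul_kronecker_mul, sz_sq, Matrix.one_mul, Matrix.one_kronecker_one]
lemma sq_R2 : R2 F * R2 F = 1 := by
  rw [← Matrix.mul_kronecker_mul, sx_sq, Matrix.one_mul, Matrix.one_kronecker_one]
lemma sq_R3 : GG F * GG F = -1 := by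
  rw [← Matrix.mul_kronecker_mul, J0_sq, Matrix.one_mul, kron_neg, Matrix.one_kronecker_one]
lemma sq_R4 (h3 : (3 : F) = 0) : R4 F * R4 F = -1 := by
  rw [← Matrix.mul_kronecker_mul, cc_sq h3, Matrix.one_mul, kron_neg, Matrix.one_kronecker_one]

lemma comm_LR (a b : M2 F) : (a ⊗ₖ (1 : M2 F)) * ((1 : M2 F) ⊗ₖ b) = ((1 : M2 F) ⊗ₖ b) * (a ⊗ₖ (1 : M2 F)) := by
  rw [← Matrix.mul_kronecker_mul, ← Matrix.mul_kronecker_mul, Matrix.mul_one, Matrix.one_mul, Matrix.mul_one,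
    Matrix.one_mul]

theorem setup [CharP F 3] (hel : ∀ a : F, a = 0 ∨ a = 1 ∨ a = -1) :
    Setup (IsoG (F := F)) (R1 F) (R2 F) (GG F) (R4 F) where
  iso_mul := fun _ _ hx hy => hx.mul hy
  iso1 := iso_R1
  iso2 := iso_R2
  iso4 := iso_R4 three_eq_zero
  sq1 := sq_R1
  sq2 := sq_R2
  sq4 := sq_R4 three_eq_zero
  c12 := by
    rw [← Matrix.mul_kronecker_mul, ← Matrix.mul_kronecker_mul, sz_sx, neg_kron]
  c34 := by
    rw [← Matrix.mul_kronecker_mul, ← Matrix.mul_kronecker_mul, J0_cc, kron_neg]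
  c13 := comm_LR _ _
  c14 := comm_LR _ _
  c23 := comm_LR _ _
  c24 := comm_LR _ _
  hcomm := by
    intro w hw h1 h2 h3
    obtain ⟨a, b, rfl⟩ := commutant two_ne_zero' w h1 h2 h3
    exact commutant_iso hel a b hw
  hclass := by
    intro X hX hc hsq
    have e : R1 F * R2 F * GG F = -(J0 F ⊗ₖ J0 F) := by
      rw [← Matrix.mul_kronecker_mul, ← Matrix.mul_kronecker_mul, sz_sx_eq, Matrix.mul_one, Matrix.mul_one,
        Matrix.one_mul, neg_kron]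
    rw [e, neg_neg]
    rcases classify hel X hc hX hsq with h | h | h | h | h | h | h | h
    · exact Or.inl h
    · exact Or.inr (Or.inl h)
    · exact Or.inr (Or.inr (Or.inl h))
    · exact Or.inr (Or.inr (Or.inr (Or.inl h)))
    · exact Or.inr (Or.inr (Or.inr (Or.inr (Or.inl h))))
    · exact Or.inr (Or.inr (Or.inr (Or.inr (Or.inr (Or.inl h)))))
    · exact Or.inr (Or.inr (Or.inr (Or.inr (Or.inr (Or.inr (Or.inr h))))))
    · exact Or.inr (Or.inr (Or.inr (Or.inr (Or.inr (Or.inr (Or.inl h))))))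

/-- membership in the matrix group `D8 ∘ Q8` -/
abbrev Mem (X : M4 F) : Prop := InR (IsoG (F := F)) (R1 F) (R2 F) (GG F) X

lemma mem_gens (h3 : (3 : F) = 0) {s : M4 F} (hs : s ∈ gens F) : Mem s := by
  have c12 : R1 F * R2 F = -(R2 F * R1 F) := by
    rw [← Matrix.mul_kronecker_mul, ← Matrix.mul_kronecker_mul, sz_sx, neg_kron]
  have c34 : GG F * R4 F = -(R4 F * GG F) := by
    rw [← Matrix.mul_kronecker_mul, ← Matrix.mul_kronecker_mul, J0_cc, kron_neg]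
  rcases hs with rfl | rfl | rfl | rfl
  · exact ⟨iso_R1, SC.self _, Or.inr c12, Or.inl (comm_LR _ _)⟩
  · exact ⟨iso_R2, SC.symm (Or.inr c12), SC.self _, Or.inl (comm_LR _ _)⟩
  · exact ⟨iso_R3, Or.inl (comm_LR _ _).symm, Or.inl (comm_LR _ _).symm, SC.self _⟩
  · exact ⟨iso_R4 h3, Or.inl (comm_LR _ _).symm, Or.inl (comm_LR _ _).symm, SC.symm (Or.inr c34)⟩

/-- each generator has an inverse -/
lemma gens_inv (h3 : (3 : F) = 0) {s : M4 F} (hs : s ∈ gens F) : ∃ s' : M4 F, s * s' = 1 ∧ s' * s = 1 := by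
  rcases hs with rfl | rfl | rfl | rfl
  · exact ⟨_, sq_R1, sq_R1⟩
  · exact ⟨_, sq_R2, sq_R2⟩
  · exact ⟨-GG F, by rw [mul_neg, sq_R3, neg_neg], by rw [neg_mul, sq_R3, neg_neg]⟩
  · exact ⟨-R4 F, by rw [mul_neg, sq_R4 h3, neg_neg], by rw [neg_mul, sq_R4 h3, neg_neg]⟩

end Cfsg.Agent.Lib.Helper96Sp4Inst
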