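import Cfsg.Agent.Lib.Helper95SpTenstwo

set_option autoImplicit false

/-! ASCH-SP, `Sp_4(3)`: concrete lemmas on `4 × 4` matrices in Kronecker form over the field with 3 elements. -/

namespace Cfsg.Agent.Lib.Helper96Sp4Mat

open Matrix Cfsg.Agent.Lib.Helper95SpTenstwo
open scoped Kronecker

variable {F : Type*} [Field F]

abbrev M2 (F : Type*) := Matrix (Fin 2) (Fin 2) F
abbrev M4 (F : Type*) := Matrix (Fin 2 × Fin 2) (Fin 2 × Fin 2) F

def sz (F : Type*) [Field F] : M2 F := !![-1, 0; 0, 1]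
def sx (F : Type*) [Field F] : M2 F := !![0, 1; 1, 0]
def cc (F : Type*) [Field F] : M2 F := !![1, 1; 1, -1]

lemma sz_sq : sz F * sz F = 1 := by
  ext i j; fin_cases i <;> fin_cases j <;> simp [sz]
lemma sx_sq : sx F * sx F = 1 := by
  ext i j; fin_cases i <;> fin_cases j <;> simp [sx]
lemma sz_sx : sz F * sx F = -(sx F * sz F) := by
  ext i j; fin_cases i <;> fin_cases j <;> simp [sz, sx]
lemma sz_sx_eq : sz F * sx F = - J0 F := by
  ext i j; fin_cases i <;> fin_cases j <;> simp [sz, sx, J0]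
lemma J0_sq : J0 F * J0 F = -1 := by
  ext i j; fin_cases i <;> fin_cases j <;> simp [J0]
lemma cc_sq (h3 : (3 : F) = 0) : cc F * cc F = -1 := by
  ext i j; fin_cases i <;> fin_cases j <;> simp [cc] <;> linear_combination h3
lemma J0_cc : J0 F * cc F = -(cc F * J0 F) := by
  ext i j; fin_cases i <;> fin_cases j <;> simp [cc, J0]
lemma sz_tr : (sz F)ᵀ = sz F := by
  ext i j; fin_cases i <;> fin_cases j <;> simp [sz]
lemma sx_tr : (sx F)ᵀ = sx F := by
  ext i j; fin_cases i <;> fin_cases j <;> simp [sx]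
lemma cc_iso (h3 : (3 : F) = 0) : (cc F)ᵀ * J0 F * cc F = J0 F := by
  rw [transpose_mul_J0_mul]
  have : (cc F).det = 1 := by
    rw [Matrix.det_fin_two]
    simp [cc]
    linear_combination (-1 : F) * h3
  rw [this, one_smul]
lemma J0_iso : (J0 F)ᵀ * J0 F * J0 F = J0 F := by
  rw [transpose_mul_J0_mul]
  have : (J0 F).det = 1 := by
    rw [Matrix.det_fin_two]
    simp [J0]
  rw [this, one_smul]

/-- the Gram matrix -/
abbrev GG (F : Type*) [Field F] : M4 F := (1 : M2 F) ⊗ₖ J0 F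

lemma neg_kron (a b : M2 F) : (-a) ⊗ₖ b = -(a ⊗ₖ b) := by
  ext ⟨i, k⟩ ⟨j, l⟩; simp [Matrix.kroneckerMap_apply]
lemma kron_neg (a b : M2 F) : a ⊗ₖ (-b) = -(a ⊗ₖ b) := by
  ext ⟨i, k⟩ ⟨j, l⟩; simp [Matrix.kroneckerMap_apply]

/-- the commutant of `1 ⊗ J0` -/
lemma comm_J0 (X : M4 F) (h : X * ((1 : M2 F) ⊗ₖ J0 F) = ((1 : M2 F) ⊗ₖ J0 F) * X) :
    ∃ a₀ a₁ : M2 F, X = a₀ ⊗ₖ (1 : M2 F) + a₁ ⊗ₖ J0 F := by
  refine ⟨Matrix.of fun j k => X (j, 0) (k, 0), Matrix.of fun j k => X (j, 0) (k, 1), ?_⟩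
  have key : ∀ j k l m, (X * ((1 : M2 F) ⊗ₖ J0 F)) (j, l) (k, m) = (((1 : M2 F) ⊗ₖ J0 F) * X) (j, l) (k, m) := by
    intro j k l m; rw [h]
  have e1 : ∀ j k, X (j, 1) (k, 0) = - X (j, 0) (k, 1) := by
    intro j k
    have := key j k 0 0
    simp only [Matrix.mul_apply, Fintype.sum_prod_type, Fin.sum_univ_two, Matrix.kroneckerMap_apply, J0,
      Matrix.one_apply] at this
    fin_cases j <;> fin_cases k <;> simp at this ⊢ <;> linear_combination (-1 : F) * this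
  have e2 : ∀ j k, X (j, 1) (k, 1) = X (j, 0) (k, 0) := by
    intro j k
    have := key j k 0 1
    simp only [Matrix.mul_apply, Fintype.sum_prod_type, Fin.sum_univ_two, Matrix.kroneckerMap_apply, J0,
      Matrix.one_apply] at this
    fin_cases j <;> fin_cases k <;> simp at this ⊢ <;> linear_combination (-1 : F) * this
  ext ⟨j, l⟩ ⟨k, m⟩
  rw [Matrix.add_apply, Matrix.kroneckerMap_apply, Matrix.kroneckerMap_apply]
  fin_cases l <;> fin_cases m <;> simp [J0, e1, e2]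

lemma kron_indep {a b a' b' : M2 F}
    (h : a ⊗ₖ (1 : M2 F) + b ⊗ₖ J0 F = a' ⊗ₖ (1 : M2 F) + b' ⊗ₖ J0 F) : a = a' ∧ b = b' := by
  constructor
  · ext j k
    have := congrFun (congrFun h (j, 0)) (k, 0)
    simpa [Matrix.kroneckerMap_apply, J0] using this
  · ext j k
    have := congrFun (congrFun h (j, 0)) (k, 1)
    simpa [Matrix.kroneckerMap_apply, J0] using this


lemma zfin : ∀ p r t b : ZMod 3, p*p + r*r + b*b = 1 → r*r + t*t + b*b = 1 → r*(p+t) = 0 → b*(p+t) = 0 →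
    (r = 0 ∧ b = 0 ∧ (p = 1 ∨ p = -1) ∧ (t = 1 ∨ t = -1)) ∨ (p = 0 ∧ t = 0 ∧ b = 0 ∧ (r = 1 ∨ r = -1)) ∨
      (p = 0 ∧ t = 0 ∧ r = 0 ∧ (b = 1 ∨ b = -1)) := by decide

lemma fin_lemma [CharP F 3] (hel : ∀ a : F, a = 0 ∨ a = 1 ∨ a = -1) (p r t b : F)
    (e1 : p*p + r*r + b*b = 1) (e2 : r*r + t*t + b*b = 1) (e3 : r*(p+t) = 0) (e4 : b*(p+t) = 0) :
    (r = 0 ∧ b = 0 ∧ (p = 1 ∨ p = -1) ∧ (t = 1 ∨ t = -1)) ∨ (p = 0 ∧ t = 0 ∧ b = 0 ∧ (r = 1 ∨ r = -1)) ∨
      (p = 0 ∧ t = 0 ∧ r = 0 ∧ (b = 1 ∨ b = -1)) := by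
  set φ := ZMod.castHom (dvd_refl 3) F with hφ
  have hinj : Function.Injective φ := φ.injective
  have hsurj : ∀ a : F, ∃ a' : ZMod 3, φ a' = a := by
    intro a
    rcases hel a with rfl | rfl | rfl
    · exact ⟨0, map_zero _⟩
    · exact ⟨1, map_one _⟩
    · exact ⟨-1, by rw [map_neg, map_one]⟩
  obtain ⟨p, rfl⟩ := hsurj p
  obtain ⟨r, rfl⟩ := hsurj r
  obtain ⟨t, rfl⟩ := hsurj t
  obtain ⟨b, rfl⟩ := hsurj b
  have := zfin p r t b (hinj (by simpa using e1)) (hinj (by simpa using e2)) (hinj (by simpa using e3))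
    (hinj (by simpa using e4))
  rcases this with ⟨rfl, rfl, h1, h2⟩ | ⟨rfl, rfl, rfl, h1⟩ | ⟨rfl, rfl, rfl, h1⟩
  · left
    refine ⟨map_zero _, map_zero _, ?_, ?_⟩
    · rcases h1 with rfl | rfl
      · left; exact map_one _
      · right; rw [map_neg, map_one]
    · rcases h2 with rfl | rfl
      · left; exact map_one _
      · right; rw [map_neg, map_one]
  · right; left
    refine ⟨map_zero _, map_zero _, map_zero _, ?_⟩
    rcases h1 with rfl | rfl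
    · left; exact map_one _
    · right; rw [map_neg, map_one]
  · right; right
    refine ⟨map_zero _, map_zero _, map_zero _, ?_⟩
    rcases h1 with rfl | rfl
    · left; exact map_one _
    · right; rw [map_neg, map_one]

lemma three_eq_zero [CharP F 3] : (3 : F) = 0 := by
  have := CharP.cast_eq_zero F 3
  exact_mod_cast this

lemma two_ne_zero' [CharP F 3] : (2 : F) ≠ 0 := by
  intro h
  have h3 : (3 : F) = 0 := three_eq_zero
  have : (1 : F) = 0 := by linear_combination h3 - h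
  exact one_ne_zero this

/-- classification of the `K`-linear isometric involutions -/
lemma classify [CharP F 3] (hel : ∀ a : F, a = 0 ∨ a = 1 ∨ a = -1) (X : M4 F)
    (hc : X * GG F = GG F * X) (hiso : Xᵀ * GG F * X = GG F) (hsq : X * X = 1) :
    X = 1 ∨ X = -1 ∨ X = sz F ⊗ₖ (1 : M2 F) ∨ X = -(sz F ⊗ₖ (1 : M2 F)) ∨ X = sx F ⊗ₖ (1 : M2 F) ∨
      X = -(sx F ⊗ₖ (1 : M2 F)) ∨ X = J0 F ⊗ₖ J0 F ∨ X = -(J0 F ⊗ₖ J0 F) := by
  have hadj : Xᵀ * GG F = GG F * X := by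
    calc Xᵀ * GG F = Xᵀ * GG F * (X * X) := by rw [hsq, mul_one]
      _ = (Xᵀ * GG F * X) * X := by rw [← mul_assoc]
      _ = GG F * X := by rw [hiso]
  obtain ⟨a₀, a₁, rfl⟩ := comm_J0 X hc
  have hJJ : (J0 F)ᵀ * J0 F = 1 := by rw [transpose_J0, neg_mul, J0_sq, neg_neg]
  have h1 : (a₀ ⊗ₖ (1 : M2 F) + a₁ ⊗ₖ J0 F)ᵀ * GG F = a₁ᵀ ⊗ₖ (1 : M2 F) + a₀ᵀ ⊗ₖ J0 F := by
    rw [Matrix.transpose_add, ← Matrix.kroneckerMap_transpose, ← Matrix.kroneckerMap_transpose, add_mul,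
      ← Matrix.mul_kronecker_mul, ← Matrix.mul_kronecker_mul, hJJ, Matrix.transpose_one, mul_one, mul_one,
      one_mul, add_comm]
  have h2 : GG F * (a₀ ⊗ₖ (1 : M2 F) + a₁ ⊗ₖ J0 F) = (-a₁) ⊗ₖ (1 : M2 F) + a₀ ⊗ₖ J0 F := by
    rw [mul_add, ← Matrix.mul_kronecker_mul, ← Matrix.mul_kronecker_mul, J0_sq, one_mul, one_mul, mul_one,
      kron_neg, neg_kron, add_comm]
  rw [h1, h2] at hadj
  obtain ⟨hs1, hs0⟩ := kron_indep hadj
  have h4 : (a₀ ⊗ₖ (1 : M2 F) + a₁ ⊗ₖ J0 F) * (a₀ ⊗ₖ (1 : M2 F) + a₁ ⊗ₖ J0 F) =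
      (a₀ * a₀ - a₁ * a₁) ⊗ₖ (1 : M2 F) + (a₀ * a₁ + a₁ * a₀) ⊗ₖ J0 F := by
    rw [mul_add, add_mul, add_mul, ← Matrix.mul_kronecker_mul, ← Matrix.mul_kronecker_mul,
      ← Matrix.mul_kronecker_mul, ← Matrix.mul_kronecker_mul, J0_sq, one_mul, one_mul, mul_one, kron_neg,
      sub_eq_add_neg, Matrix.add_kronecker, Matrix.add_kronecker, neg_kron]
    abel
  have h5 : (1 : M4 F) = (1 : M2 F) ⊗ₖ (1 : M2 F) + (0 : M2 F) ⊗ₖ J0 F := by
    rw [Matrix.zero_kronecker, add_zero, Matrix.one_kronecker_one]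
  rw [h4, h5] at hsq
  obtain ⟨hq1, hq2⟩ := kron_indep hsq
  -- entries
  have h2F : (2 : F) ≠ 0 := two_ne_zero'
  have r10 : a₀ 1 0 = a₀ 0 1 := by
    have := congrFun (congrFun hs0 0) 1
    simpa using this
  have u00 : a₁ 0 0 = 0 := by
    have := congrFun (congrFun hs1 0) 0
    simp only [Matrix.transpose_apply, Matrix.neg_apply] at this
    have h : (2 : F) * a₁ 0 0 = 0 := by linear_combination this
    exact (mul_eq_zero.1 h).resolve_left h2F
  have u11 : a₁ 1 1 = 0 := by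
    have := congrFun (congrFun hs1 1) 1
    simp only [Matrix.transpose_apply, Matrix.neg_apply] at this
    have h : (2 : F) * a₁ 1 1 = 0 := by linear_combination this
    exact (mul_eq_zero.1 h).resolve_left h2F
  have u10 : a₁ 1 0 = - a₁ 0 1 := by
    have := congrFun (congrFun hs1 0) 1
    simpa using this
  have e1 := congrFun (congrFun hq1 0) 0
  have e2 := congrFun (congrFun hq1 1) 1
  have e3 := congrFun (congrFun hq1 0) 1
  have e4 := congrFun (congrFun hq2 0) 1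
  simp only [Matrix.sub_apply, Matrix.add_apply, Matrix.mul_apply, Fin.sum_univ_two, r10, u00, u11, u10,
    Matrix.one_apply_eq, Matrix.zero_apply] at e1 e2 e3 e4
  rw [Matrix.one_apply_ne (by decide)] at e3
  have ha₀ : a₀ = !![a₀ 0 0, a₀ 0 1; a₀ 0 1, a₀ 1 1] := by
    ext i j; fin_cases i <;> fin_cases j <;> simp [r10]
  have ha₁ : a₁ = !![0, a₁ 0 1; - a₁ 0 1, 0] := by
    ext i j; fin_cases i <;> fin_cases j <;> simp [u00, u11, u10]
  generalize a₀ 0 0 = p at *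
  generalize a₀ 0 1 = r at *
  generalize a₀ 1 1 = t at *
  generalize a₁ 0 1 = b at *
  have := fin_lemma hel p r t b (by linear_combination e1) (by linear_combination e2)
    (by linear_combination e3) (by linear_combination e4)
  have hz : (0 : M2 F) ⊗ₖ J0 F = 0 := Matrix.zero_kronecker _
  have hz' : (0 : M2 F) ⊗ₖ (1 : M2 F) = 0 := Matrix.zero_kronecker _
  rcases this with ⟨rfl, rfl, h1, h2⟩ | ⟨rfl, rfl, rfl, h1⟩ | ⟨rfl, rfl, rfl, h1⟩
  · have hb : a₁ = 0 := by rw [ha₁]; ext i j; fin_cases i <;> fin_cases j <;> simp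
    rw [hb, hz, add_zero]
    rcases h1 with rfl | rfl <;> rcases h2 with rfl | rfl
    · left
      rw [← Matrix.one_kronecker_one]
      congr 1
      exact ha₀.trans (by ext i j; fin_cases i <;> fin_cases j <;> simp)
    · right; right; right; left
      rw [← neg_kron]
      congr 1
      exact ha₀.trans (by ext i j; fin_cases i <;> fin_cases j <;> simp [sz])
    · right; right; left
      congr 1
    · right; left
      rw [← Matrix.one_kronecker_one, ← neg_kron]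
      congr 1
      exact ha₀.trans (by ext i j; fin_cases i <;> fin_cases j <;> simp)
  · have hb : a₁ = 0 := by rw [ha₁]; ext i j; fin_cases i <;> fin_cases j <;> simp
    rw [hb, hz, add_zero]
    rcases h1 with rfl | rfl
    · right; right; right; right; left
      congr 1
    · right; right; right; right; right; left
      rw [← neg_kron]
      congr 1
      exact ha₀.trans (by ext i j; fin_cases i <;> fin_cases j <;> simp [sx])
  · have hb : a₀ = 0 := by rw [ha₀]; ext i j; fin_cases i <;> fin_cases j <;> simp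
    rw [hb, hz', zero_add]
    rcases h1 with rfl | rfl
    · right; right; right; right; right; right; left
      congr 1
    · right; right; right; right; right; right; right
      rw [← neg_kron]
      congr 1
      exact ha₁.trans (by ext i j; fin_cases i <;> fin_cases j <;> simp [J0])

lemma scalar_of_comm (h2 : (2 : F) ≠ 0) (a : M2 F) (h : a * sz F = sz F * a) (h' : a * sx F = sx F * a) :
    a = a 0 0 • (1 : M2 F) := by
  have e1 := congrFun (congrFun h 0) 1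
  have e2 := congrFun (congrFun h 1) 0
  have e3 := congrFun (congrFun h' 0) 1
  simp [Matrix.mul_apply, Fin.sum_univ_two, sz, sx] at e1 e2 e3
  have f1 : a 0 1 = 0 := by
    have : (2 : F) * a 0 1 = 0 := by linear_combination e1
    exact (mul_eq_zero.1 this).resolve_left h2
  have f2 : a 1 0 = 0 := by
    have : (2 : F) * a 1 0 = 0 := by linear_combination (-1 : F) * e2
    exact (mul_eq_zero.1 this).resolve_left h2
  ext i j
  fin_cases i <;> fin_cases j <;> simp [f1, f2, e3]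

/-- the commutant of `sz ⊗ 1`, `sx ⊗ 1`, `1 ⊗ J0` -/
lemma commutant (h2 : (2 : F) ≠ 0) (Y : M4 F) (h₁ : Y * (sz F ⊗ₖ (1 : M2 F)) = (sz F ⊗ₖ (1 : M2 F)) * Y)
    (h₂ : Y * (sx F ⊗ₖ (1 : M2 F)) = (sx F ⊗ₖ (1 : M2 F)) * Y) (h₃ : Y * GG F = GG F * Y) :
    ∃ a b : F, Y = (1 : M2 F) ⊗ₖ (a • (1 : M2 F) + b • J0 F) := by
  obtain ⟨a₀, a₁, rfl⟩ := comm_J0 Y h₃
  have key : ∀ s : M2 F, (a₀ ⊗ₖ (1 : M2 F) + a₁ ⊗ₖ J0 F) * (s ⊗ₖ (1 : M2 F)) =
      (s ⊗ₖ (1 : M2 F)) * (a₀ ⊗ₖ (1 : M2 F) + a₁ ⊗ₖ J0 F) → a₀ * s = s * a₀ ∧ a₁ * s = s * a₁ := by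
    intro s hs
    rw [add_mul, mul_add, ← Matrix.mul_kronecker_mul, ← Matrix.mul_kronecker_mul, ← Matrix.mul_kronecker_mul,
      ← Matrix.mul_kronecker_mul, one_mul, mul_one, one_mul] at hs
    exact kron_indep hs
  obtain ⟨k1, k2⟩ := key _ h₁
  obtain ⟨k3, k4⟩ := key _ h₂
  refine ⟨a₀ 0 0, a₁ 0 0, ?_⟩
  rw [scalar_of_comm h2 a₀ k1 k3, scalar_of_comm h2 a₁ k2 k4]
  simp only [Matrix.smul_apply, Matrix.one_apply_eq, smul_eq_mul, mul_one]
  rw [Matrix.kronecker_add, Matrix.smul_kronecker, Matrix.smul_kronecker, Matrix.kronecker_smul,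
    Matrix.kronecker_smul]

lemma zfin2 : ∀ a b : ZMod 3, a * a + b * b = 1 → (a = 1 ∧ b = 0) ∨ (a = -1 ∧ b = 0) ∨ (a = 0 ∧ b = 1) ∨
    (a = 0 ∧ b = -1) := by decide

lemma fin_lemma2 [CharP F 3] (hel : ∀ a : F, a = 0 ∨ a = 1 ∨ a = -1) (a b : F) (e1 : a * a + b * b = 1) :
    (a = 1 ∧ b = 0) ∨ (a = -1 ∧ b = 0) ∨ (a = 0 ∧ b = 1) ∨ (a = 0 ∧ b = -1) := by
  set φ := ZMod.castHom (dvd_refl 3) F with hφ
  have hinj : Function.Injective φ := φ.injective
  have hsurj : ∀ a : F, ∃ a' : ZMod 3, φ a' = a := by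
    intro a
    rcases hel a with rfl | rfl | rfl
    · exact ⟨0, map_zero _⟩
    · exact ⟨1, map_one _⟩
    · exact ⟨-1, by rw [map_neg, map_one]⟩
  obtain ⟨a, rfl⟩ := hsurj a
  obtain ⟨b, rfl⟩ := hsurj b
  rcases zfin2 a b (hinj (by simpa using e1)) with ⟨rfl, rfl⟩ | ⟨rfl, rfl⟩ | ⟨rfl, rfl⟩ | ⟨rfl, rfl⟩
  · left; exact ⟨map_one _, map_zero _⟩
  · right; left; exact ⟨by rw [map_neg, map_one], map_zero _⟩
  · right; right; left; exact ⟨map_zero _, map_one _⟩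
  · right; right; right; exact ⟨map_zero _, by rw [map_neg, map_one]⟩

/-- isometries in the commutant -/
lemma commutant_iso [CharP F 3] (hel : ∀ a : F, a = 0 ∨ a = 1 ∨ a = -1) (a b : F)
    (h : ((1 : M2 F) ⊗ₖ (a • (1 : M2 F) + b • J0 F))ᵀ * GG F * ((1 : M2 F) ⊗ₖ (a • (1 : M2 F) + b • J0 F)) = GG F) :
    (1 : M2 F) ⊗ₖ (a • (1 : M2 F) + b • J0 F) = 1 ∨ (1 : M2 F) ⊗ₖ (a • (1 : M2 F) + b • J0 F) = -1 ∨
    (1 : M2 F) ⊗ₖ (a • (1 : M2 F) + b • J0 F) = GG F ∨ (1 : M2 F) ⊗ₖ (a • (1 : M2 F) + b • J0 F) = - GG F := by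
  rw [← Matrix.kroneckerMap_transpose, ← Matrix.mul_kronecker_mul, ← Matrix.mul_kronecker_mul,
    transpose_mul_J0_mul] at h
  have h1 := congrFun (congrFun h (0, 0)) (0, 1)
  simp [Matrix.kroneckerMap_apply, J0, Matrix.det_fin_two] at h1
  rcases fin_lemma2 hel a b (by linear_combination h1) with ⟨rfl, rfl⟩ | ⟨rfl, rfl⟩ | ⟨rfl, rfl⟩ | ⟨rfl, rfl⟩
  · left; rw [one_smul, zero_smul, add_zero, Matrix.one_kronecker_one]
  · right; left; rw [zero_smul, add_zero, neg_one_smul, kron_neg, Matrix.one_kronecker_one]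
  · right; right; left; rw [one_smul, zero_smul, zero_add]
  · right; right; right; rw [zero_smul, zero_add, neg_one_smul, kron_neg]

/-! ### generation of the matrix algebra -/

lemma adjoin_sz_sx (h2 : (2 : F) ≠ 0) : Algebra.adjoin F {sz F, sx F} = ⊤ := by
  rw [eq_top_iff]
  intro a _
  have hz : sz F ∈ Algebra.adjoin F {sz F, sx F} := Algebra.subset_adjoin (by simp)
  have hx : sx F ∈ Algebra.adjoin F {sz F, sx F} := Algebra.subset_adjoin (by simp)
  have h1 : (1 : M2 F) ∈ Algebra.adjoin F {sz F, sx F} := Subalgebra.one_mem _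
  have ha : a = (a 0 0 * 2⁻¹) • (1 - sz F) + (a 0 1 * 2⁻¹) • ((1 - sz F) * sx F) +
      (a 1 0 * 2⁻¹) • ((1 + sz F) * sx F) + (a 1 1 * 2⁻¹) • (1 + sz F) := by
    ext i j
    fin_cases i <;> fin_cases j <;> simp [sz, sx, Matrix.mul_apply, Fin.sum_univ_two] <;> field_simp <;> ring
  rw [ha]
  exact Subalgebra.add_mem _ (Subalgebra.add_mem _ (Subalgebra.add_mem _
    (Subalgebra.smul_mem _ (Subalgebra.sub_mem _ h1 hz) _)
    (Subalgebra.smul_mem _ (Subalgebra.mul_mem _ (Subalgebra.sub_mem _ h1 hz) hx) _))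
    (Subalgebra.smul_mem _ (Subalgebra.mul_mem _ (Subalgebra.add_mem _ h1 hz) hx) _))
    (Subalgebra.smul_mem _ (Subalgebra.add_mem _ h1 hz) _)

lemma adjoin_J0_cc (h2 : (2 : F) ≠ 0) : Algebra.adjoin F {J0 F, cc F} = ⊤ := by
  rw [eq_top_iff, ← adjoin_sz_sx h2]
  apply Algebra.adjoin_le
  have hJ : J0 F ∈ Algebra.adjoin F {J0 F, cc F} := Algebra.subset_adjoin (by simp)
  have hc : cc F ∈ Algebra.adjoin F {J0 F, cc F} := Algebra.subset_adjoin (by simp)
  have e1 : sz F = (-2⁻¹ : F) • (cc F + J0 F * cc F) := by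
    ext i j
    fin_cases i <;> fin_cases j <;> simp [sz, cc, J0, Matrix.mul_apply, Fin.sum_univ_two] <;> field_simp <;> ring
  have e2 : sx F = (2⁻¹ : F) • (cc F - J0 F * cc F) := by
    ext i j
    fin_cases i <;> fin_cases j <;> simp [sx, cc, J0, Matrix.mul_apply, Fin.sum_univ_two] <;> field_simp <;> ring
  rintro x (rfl | rfl)
  · rw [e1]
    exact Subalgebra.smul_mem _ (Subalgebra.add_mem _ hc (Subalgebra.mul_mem _ hJ hc)) _
  · rw [e2]
    exact Subalgebra.smul_mem _ (Subalgebra.sub_mem _ hc (Subalgebra.mul_mem _ hJ hc)) _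

/-- `a ↦ a ⊗ 1` -/
def homL (F : Type*) [Field F] : M2 F →ₐ[F] M4 F :=
  AlgHom.ofLinearMap
    { toFun := fun a => a ⊗ₖ (1 : M2 F)
      map_add' := fun a b => Matrix.add_kronecker a b 1
      map_smul' := fun c a => Matrix.smul_kronecker c a 1 }
    Matrix.one_kronecker_one (fun a b => by
      show (a * b) ⊗ₖ (1 : M2 F) = a ⊗ₖ (1 : M2 F) * b ⊗ₖ (1 : M2 F)
      rw [← Matrix.mul_kronecker_mul, one_mul])

/-- `b ↦ 1 ⊗ b` -/
def homR (F : Type*) [Field F] : M2 F →ₐ[F] M4 F :=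
  AlgHom.ofLinearMap
    { toFun := fun b => (1 : M2 F) ⊗ₖ b
      map_add' := fun a b => Matrix.kronecker_add 1 a b
      map_smul' := fun c a => Matrix.kronecker_smul c 1 a }
    Matrix.one_kronecker_one (fun a b => by
      show (1 : M2 F) ⊗ₖ (a * b) = (1 : M2 F) ⊗ₖ a * (1 : M2 F) ⊗ₖ b
      rw [← Matrix.mul_kronecker_mul, one_mul])

/-- the four generators -/
def gens (F : Type*) [Field F] : Set (M4 F) :=
  {sz F ⊗ₖ (1 : M2 F), sx F ⊗ₖ (1 : M2 F), (1 : M2 F) ⊗ₖ J0 F, (1 : M2 F) ⊗ₖ cc F}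

lemma adjoin_gens (h2 : (2 : F) ≠ 0) : Algebra.adjoin F (gens F) = ⊤ := by
  have hL : ∀ a : M2 F, a ⊗ₖ (1 : M2 F) ∈ Algebra.adjoin F (gens F) := by
    intro a
    have h1 : (Algebra.adjoin F {sz F, sx F}).map (homL F) ≤ Algebra.adjoin F (gens F) := by
      rw [AlgHom.map_adjoin]
      apply Algebra.adjoin_mono
      rintro _ ⟨x, (rfl | rfl), rfl⟩
      · left; rfl
      · right; left; rfl
    apply h1
    rw [adjoin_sz_sx h2]
    exact ⟨a, Algebra.mem_top, rfl⟩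
  have hR : ∀ b : M2 F, (1 : M2 F) ⊗ₖ b ∈ Algebra.adjoin F (gens F) := by
    intro b
    have h1 : (Algebra.adjoin F {J0 F, cc F}).map (homR F) ≤ Algebra.adjoin F (gens F) := by
      rw [AlgHom.map_adjoin]
      apply Algebra.adjoin_mono
      rintro _ ⟨x, (rfl | rfl), rfl⟩
      · right; right; left; rfl
      · right; right; right; rfl
    apply h1
    rw [adjoin_J0_cc h2]
    exact ⟨b, Algebra.mem_top, rfl⟩
  rw [eq_top_iff]
  intro X _
  have hX : X = ∑ j : Fin 2, ∑ k : Fin 2, (Matrix.single j k (1 : F)) ⊗ₖ (1 : M2 F) *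
      (1 : M2 F) ⊗ₖ (Matrix.of fun l m => X (j, l) (k, m)) := by
    ext ⟨j, l⟩ ⟨k, m⟩
    simp only [← Matrix.mul_kronecker_mul, mul_one, one_mul, Matrix.sum_apply, Matrix.kroneckerMap_apply,
      Matrix.single_apply, Matrix.of_apply, Fin.sum_univ_two]
    fin_cases j <;> fin_cases k <;> simp
  rw [hX]
  exact Subalgebra.sum_mem _ fun j _ => Subalgebra.sum_mem _ fun k _ => Subalgebra.mul_mem _ (hL _) (hR _)

end Cfsg.Agent.Lib.Helper96Sp4Mat
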