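import Cfsg.Agent.Lib.Helper96SpBasic
import Cfsg.Agent.Lib.Helper95SpStd

set_option autoImplicit false

/-! PROJECT 3 = ASCH-SP, PART D. Symplectic transvections `tv hf v c : GL ι F`, `x ↦ x + (c * f x v) • v`,
and the reduction of maximal subgroups to members of the classes. -/

namespace Cfsg.Agent.Lib.Helper96SpTv

open Cfsg Cfsg.Geo Matrix
open Cfsg.Agent.Lib.Helper97GBase Cfsg.Agent.Lib.Helper96SpDefs
open scoped MatrixGroups

variable {ι : Type} [Fintype ι] [DecidableEq ι] {F : Type*} [Field F]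
variable {f : (ι → F) → (ι → F) → F}

/-- the matrix of the transvection `x ↦ x + (c * f x v) • v` -/
def tvM (f : (ι → F) → (ι → F) → F) (v : ι → F) (c : F) : Matrix ι ι F :=
  1 + c • Matrix.vecMulVec v (fun i => f (Pi.single i 1) v)

lemma form_eq_sum (hf : IsBilinearForm f) (x v : ι → F) : f x v = ∑ i, x i * f (Pi.single i 1) v := by
  conv_lhs => rw [pi_eq_sum_univ' x]
  rw [bil_sum_left hf]
  apply Finset.sum_congr rfl
  intro i _
  rw [hf.smul_left]

lemma tvM_mulVec (hf : IsBilinearForm f) (v : ι → F) (c : F) (x : ι → F) :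
    tvM f v c *ᵥ x = x + (c * f x v) • v := by
  unfold tvM
  rw [Matrix.add_mulVec, Matrix.one_mulVec, Matrix.smul_mulVec, Matrix.vecMulVec_mulVec, form_eq_sum hf x v]
  congr 1
  rw [op_smul_eq_smul, smul_smul]
  congr 2
  unfold dotProduct
  apply Finset.sum_congr rfl
  intro i _
  ring

lemma tvM_mul (hf : IsSymplecticForm f) (v : ι → F) (c d : F) : tvM f v c * tvM f v d = tvM f v (c + d) := by
  apply matrix_ext_mulVec
  intro x
  rw [← Matrix.mulVec_mulVec, tvM_mulVec hf.bilinear, tvM_mulVec hf.bilinear, tvM_mulVec hf.bilinear,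
    hf.bilinear.add_left, hf.bilinear.smul_left, hf.alternating, mul_zero, add_zero, add_assoc, ← add_smul]
  congr 2
  ring

lemma tvM_zero (v : ι → F) : tvM f v 0 = 1 := by
  simp [tvM]

/-- the symplectic transvection `x ↦ x + (c * f x v) • v` -/
def tv (hf : IsSymplecticForm f) (v : ι → F) (c : F) : GL ι F :=
  ⟨tvM f v c, tvM f v (-c), by rw [tvM_mul hf, add_neg_cancel, tvM_zero],
    by rw [tvM_mul hf, neg_add_cancel, tvM_zero]⟩

lemma tv_val (hf : IsSymplecticForm f) (v : ι → F) (c : F) : (tv hf v c : Matrix ι ι F) = tvM f v c := rfl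

lemma tv_mulVec (hf : IsSymplecticForm f) (v : ι → F) (c : F) (x : ι → F) :
    (tv hf v c : Matrix ι ι F) *ᵥ x = x + (c * f x v) • v := tvM_mulVec hf.bilinear v c x

lemma tv_inv (hf : IsSymplecticForm f) (v : ι → F) (c : F) : (tv hf v c)⁻¹ = tv hf v (-c) := by
  apply Units.ext
  rfl

lemma tv_fixes (hf : IsSymplecticForm f) (v : ι → F) (c : F) (x y : ι → F) :
    f ((tv hf v c : Matrix ι ι F) *ᵥ x) ((tv hf v c : Matrix ι ι F) *ᵥ y) = f x y := by
  rw [tv_mulVec, tv_mulVec, hf.bilinear.add_left, hf.bilinear.add_right, hf.bilinear.add_right,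
    hf.bilinear.smul_left, hf.bilinear.smul_left, hf.bilinear.smul_right, hf.bilinear.smul_right,
    hf.alternating, hf.skew v y]
  ring

/-- conjugation of a transvection by an isometry -/
lemma conj_tv (hf : IsSymplecticForm f) {g : GL ι F}
    (hg : ∀ u v, f ((g : Matrix ι ι F) *ᵥ u) ((g : Matrix ι ι F) *ᵥ v) = f u v) (v : ι → F) (c : F) :
    g * tv hf v c * g⁻¹ = tv hf ((g : Matrix ι ι F) *ᵥ v) c := by
  apply Units.ext
  apply matrix_ext_mulVec
  intro x
  rw [Units.val_mul, Units.val_mul, ← Matrix.mulVec_mulVec, ← Matrix.mulVec_mulVec, tv_mulVec, tv_mulVec,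
    Matrix.mulVec_add, Matrix.mulVec_smul, mulVec_inv_mulVec]
  congr 3
  conv_rhs => rw [← mulVec_inv_mulVec g x]
  rw [hg]

lemma tv_mem_spGL (m : ℕ) (v : Fin m ⊕ Fin m → F) (c : F) :
    tv (Cfsg.Agent.Lib.Helper95SpStd.sympForm_isSymplectic m) v c ∈ Cfsg.spGL m F :=
  (Cfsg.Agent.Lib.Helper95SpStd.mem_spGL_iff m _).2 (tv_fixes _ v c)

/-- a maximal subgroup contained in `X`, where `X` does not contain everything, is `X ⊓ I`. -/
lemma eq_inf_of_isMaximalIn {G : Type*} [Group G] {I H X : Subgroup G} (hH : IsMaximalIn I H) (h : H ≤ X)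
    (hX : ¬ I ≤ X) : H = X ⊓ I := by
  rcases hH.2 (X ⊓ I) (le_inf h hH.1.le) inf_le_right with h1 | h1
  · exact h1.symm
  · exact absurd (h1 ▸ inf_le_left) hX

/-- the form in which the properness lemmas are used -/
lemma eq_inf_of_tv {m : ℕ} {H X : Subgroup (GL (Fin m ⊕ Fin m) F)} (hH : IsMaximalIn (Cfsg.spGL m F) H)
    (h : H ≤ X)
    (hX : ∃ v c, tv (Cfsg.Agent.Lib.Helper95SpStd.sympForm_isSymplectic (F := F) m) v c ∉ X) :
    H = X ⊓ Cfsg.spGL m F := by
  apply eq_inf_of_isMaximalIn hH h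
  intro hle
  obtain ⟨v, c, hv⟩ := hX
  exact hv (hle (tv_mem_spGL m v c))

lemma fixes_of_le_spGL {m : ℕ} {H : Subgroup (GL (Fin m ⊕ Fin m) F)} (hH : H ≤ Cfsg.spGL m F) :
    FixesForm (matrixSet H) (Cfsg.sympForm m F) := by
  rintro _ ⟨h, hh, rfl⟩ u v
  exact (Cfsg.Agent.Lib.Helper95SpStd.mem_spGL_iff m h).1 (hH hh) u v

end Cfsg.Agent.Lib.Helper96SpTv
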