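import Cfsg.Agent.S5648
import Cfsg.Agent.Lib.Helper96SpTv

set_option autoImplicit false

/-! ASCH-SP PART D, piece `D_dec2`. -/

namespace Cfsg.Agent.Lib.Helper96SpDDec2

open Cfsg Cfsg.Geo Matrix
open Cfsg.Agent.Lib.Helper97GBase Cfsg.Agent.Lib.Helper96SpDefs Cfsg.Agent.Lib.Helper95Form
  Cfsg.Agent.Lib.Helper96Decomp Cfsg.Agent.S5648
open scoped MatrixGroups

variable {ι : Type} [Fintype ι] [DecidableEq ι] {F : Type*} [Field F]
variable {f : (ι → F) → (ι → F) → F} {H : Subgroup (GL ι F)}

/-- [D_dec2] `q = 2`: a decomposition into non-degenerate planes is stabilised by the isometries of a quadratic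
form with polar form `f`. -/
theorem dec2_quad [Fintype F] (hq : Fintype.card F = 2) (hf : IsSymplecticForm f) (hH : FixesForm (matrixSet H) f)
    {t : ℕ} {D : Fin t → Submodule F (ι → F)} (hD : IsNondegenerateMDecomposition f 2 D)
    (hle : H ≤ decompositionStabilizer D) : AltQuad f H := by
  classical
  have two : ∀ a : F, a = 0 ∨ a = 1 := by
    intro a
    by_contra hcon
    push Not at hcon
    have h3 : ({0, 1, a} : Finset F).card = 3 := by
      rw [Finset.card_insert_of_notMem, Finset.card_insert_of_notMem, Finset.card_singleton]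
      · simpa using hcon.2.symm
      · simp only [Finset.mem_insert, Finset.mem_singleton, not_or]
        exact ⟨zero_ne_one, hcon.1.symm⟩
    have := Finset.card_le_univ ({0, 1, a} : Finset F)
    omega
  set B := toBilin f hf.bilinear with hB
  have hA : B.IsAlt := toBilin_isAlt f hf
  have hex : ∀ i, ∃ e ∈ D i, ∃ f' ∈ D i, B e f' = 1 ∧
      ∀ y ∈ D i, y = B y f' • e + B y e • f' := fun i =>
    exists_basis two hA (D i) (hD.decomp.finrank_eq i)
      (fun w hw hw0 => (hD.nondegenerate i w hw hw0).2)
  choose e he f' hf' hef hexp using hex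
  have hdat : Dat B D e f' :=
    { two := two
      alt := hA
      he := he
      hf := hf'
      hef := hef
      hexp := hexp
      orth := fun i j hij u hu v hv => hD.orthogonal i j hij u hu v hv
      span := hD.decomp.iSup_eq_top }
  have hpol : ∀ u v, QuadraticMap.polar (QQ B e f') u v = f u v := by
    intro u v
    rw [QuadraticMap.polar, hdat.QQ_add, hB, Cfsg.Agent.Lib.Helper95Form.toBilin_apply]
    ring
  have hpol' : QuadraticMap.polar (QQ B e f') = f := by
    funext u v
    exact hpol u v
  have hQ : IsNondegenerateQuadraticForm (QQ B e f') :=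
    { smul := QQ_smul
      polar_bilinear := by rw [hpol']; exact hf.bilinear
      nondegenerate := by rw [hpol']; exact hf.nondegenerate }
  refine ⟨QQ B e f', hQ, hpol, ?_⟩
  intro g hg
  obtain ⟨σ, hσ⟩ := exists_perm_of_mem_stab (hle hg)
  refine ⟨1, fun v => ?_⟩
  rw [Units.val_one, one_mul]
  have hg3 : ∀ x y, B ((g : Matrix ι ι F).mulVec x) ((g : Matrix ι ι F).mulVec y) = B x y :=
    fun x y => fixes_apply hH hg x y
  refine hdat.QQ_map (fun x => (g : Matrix ι ι F).mulVec x) hg3 σ ?_ ?_ v
  · intro i y hy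
    refine ⟨((g⁻¹ : GL _ F) : Matrix _ _ F).mulVec y, ?_, ?_⟩
    · rw [hσ i, mulVec_inv_mulVec]
      exact hy
    · exact mulVec_inv_mulVec g y
  · intro i x hx
    exact (hσ i x).1 hx

end Cfsg.Agent.Lib.Helper96SpDDec2
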