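import Cfsg.Agent.Lib.Helper98AschGBasic
import Cfsg.Agent.Lib.Helper97GForms

set_option autoImplicit false

/-! PROJECT 3 = ASCH-SP. Vocabulary for the Aschbacher theorem for the symplectic groups
(general index type `ι`, abstract symplectic form `f`). -/

namespace Cfsg.Agent.Lib.Helper96SpDefs

open Cfsg Cfsg.Geo Matrix
open Cfsg.Agent.Lib.Helper97GBase Cfsg.Agent.Lib.Helper98AschGDefs
open scoped MatrixGroups Kronecker

variable {ι : Type} [Fintype ι] [DecidableEq ι] {F : Type*} [Field F]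

/-- `b` is an adjoint of `a` for the form `f`. -/
def IsAdj (f : (ι → F) → (ι → F) → F) (a b : Matrix ι ι F) : Prop :=
  ∀ u v : ι → F, f (a *ᵥ u) v = f u (b *ᵥ v)

/-- the `i`-th tensor factor algebra in the coordinates `e`, `P` -/
def fac {k m : ℕ} (e : ι ≃ (Fin k → Fin m)) (P : GL ι F) (i : Fin k) (a : Matrix (Fin m) (Fin m) F) :
    Matrix ι ι F :=
  (P : Matrix ι ι F) * Matrix.reindex e.symm e.symm (factor i a) * ((P⁻¹ : GL ι F) : Matrix ι ι F)

/-- class 1, totally singular subspace -/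
def AltTS (f : (ι → F) → (ι → F) → F) (H : Subgroup (GL ι F)) : Prop :=
  ∃ W : Submodule F (ι → F), W ≠ ⊥ ∧ IsTotallySingularFor f W ∧ H ≤ subspaceStabilizer W

/-- class 1, non-degenerate subspace of less than half the dimension -/
def AltND (f : (ι → F) → (ι → F) → F) (H : Subgroup (GL ι F)) : Prop :=
  ∃ W : Submodule F (ι → F), W ≠ ⊥ ∧ IsNondegenerateOn f W ∧
    2 * Module.finrank F W < Fintype.card ι ∧ H ≤ subspaceStabilizer W

/-- class 2, non-degenerate decomposition -/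
def AltDec (f : (ι → F) → (ι → F) → F) (H : Subgroup (GL ι F)) : Prop :=
  ∃ (t k : ℕ) (D : Fin t → Submodule F (ι → F)), IsNondegenerateMDecomposition f k D ∧
    H ≤ decompositionStabilizer D

/-- class 2, pair of complementary totally singular subspaces -/
def AltPair (f : (ι → F) → (ι → F) → F) (H : Subgroup (GL ι F)) : Prop :=
  ∃ (k : ℕ) (D : Fin 2 → Submodule F (ι → F)), IsMDecomposition k D ∧
    (∀ i, IsTotallySingularFor f (D i)) ∧ H ≤ decompositionStabilizer D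

/-- class 5 -/
def AltSub [Fintype F] (f : (ι → F) → (ι → F) → F) (H : Subgroup (GL ι F)) : Prop :=
  ∃ (F₀ : Subfield F) (r : ℕ) (P : GL ι F) (ζ : F), r.Prime ∧ Fintype.card F = Nat.card F₀ ^ r ∧ ζ ≠ 0 ∧
    IsFormRationalStructure f F₀ ζ P ∧ H ≤ subfieldSubgroup F₀ P

/-- class 6 (the last two conjuncts are extra information, used for the properness of the class) -/
def AltC6 [Fintype F] (f : (ι → F) → (ι → F) → F) (H : Subgroup (GL ι F)) : Prop :=
  ∃ (R : Subgroup (GL ι F)) (p k : ℕ), IsSymplecticTypeGroup 2 R ∧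
    ActsAbsolutelyIrreducibly (matrixSet R) ∧ R ≤ similarityGroup f ∧ p.Prime ∧ Odd p ∧ Fintype.card F = p ∧
    Nat.card R = 2 ^ (1 + 2 * k) ∧ Nat.card (Subgroup.center R) = 2 ∧ IsOfMinusType k R ∧
    Fintype.card ι = 2 ^ k ∧ H ≤ subgroupNormalizer R ∧ FixesForm (matrixSet R) f ∧ ⁅R, R⁆ ≤ scalars ι F

/-- class 8 -/
def AltQuad (f : (ι → F) → (ι → F) → F) (H : Subgroup (GL ι F)) : Prop :=
  ∃ Q : (ι → F) → F, IsNondegenerateQuadraticForm Q ∧ (∀ u v, QuadraticMap.polar Q u v = f u v) ∧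
    H ≤ quadSimilarityGroup Q

/-- class 3, self-adjoint field -/
def AltFieldSA (f : (ι → F) → (ι → F) → F) (H : Subgroup (GL ι F)) : Prop :=
  ∃ (r : ℕ) (K : Subalgebra F (Matrix ι ι F)), r.Prime ∧ IsFieldSubalgebra r K ∧ IsSelfAdjointFor f K ∧
    (∀ k ∈ K, ∀ v, f (k *ᵥ v) v = 0) ∧ H ≤ subalgebraNormalizer K

/-- class 3, unitary type -/
def AltFieldU (f : (ι → F) → (ι → F) → F) (H : Subgroup (GL ι F)) : Prop :=
  ∃ K : Subalgebra F (Matrix ι ι F), IsFieldSubalgebra 2 K ∧ IsAdjointClosedFor f K ∧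
    ¬ IsSelfAdjointFor f K ∧ H ≤ subalgebraNormalizer K

/-- class 4 -/
def AltTensor (f : (ι → F) → (ι → F) → F) (H : Subgroup (GL ι F)) : Prop :=
  ∃ (n₁ n₂ : ℕ) (e : ι ≃ Fin n₁ × Fin n₂) (P : GL ι F)
    (f₁ : (Fin n₁ → F) → (Fin n₁ → F) → F) (f₂ : (Fin n₂ → F) → (Fin n₂ → F) → F),
    3 ≤ n₂ ∧ IsSymplecticForm f₁ ∧ IsSymmetricForm f₂ ∧ IsTensorFormStructure id f f₁ f₂ e P ∧
    H ≤ tensorProductSubgroup n₁ n₂ e P

/-- class 7 -/
def AltWreath [Fintype F] (f : (ι → F) → (ι → F) → F) (H : Subgroup (GL ι F)) : Prop :=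
  ∃ (k t : ℕ) (e : ι ≃ (Fin t → Fin k)) (P : GL ι F) (f₁ : (Fin k → F) → (Fin k → F) → F),
    Odd t ∧ 3 ≤ t ∧ ¬ (Fintype.card F = 3 ∧ k = 2) ∧ IsSymplecticForm f₁ ∧
    IsTensorPowerFormStructure id f f₁ e P ∧ H ≤ tensorWreathSubgroup k t e P

/-- THE INTERFACE of the general theorem
(`sp_main : IsSymplecticForm f → FixesForm (matrixSet H) f → SpAlt f H ∨ InSymplecticResidualClass H`). -/
def SpAlt [Fintype F] (f : (ι → F) → (ι → F) → F) (H : Subgroup (GL ι F)) : Prop :=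
  AltTS f H ∨ AltND f H ∨ AltDec f H ∨ (Odd (Fintype.card F) ∧ AltPair f H) ∨ AltSub f H ∨ AltC6 f H ∨
  (¬ Odd (Fintype.card F) ∧ AltQuad f H) ∨ AltFieldSA f H ∨ (Odd (Fintype.card F) ∧ AltFieldU f H) ∨
  (Odd (Fintype.card F) ∧ AltTensor f H) ∨ (Odd (Fintype.card F) ∧ AltWreath f H)

end Cfsg.Agent.Lib.Helper96SpDefs
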