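import Cfsg.Agent.Lib.Helper96SpDefs

set_option autoImplicit false
set_option linter.unusedSectionVars false

namespace Cfsg.Agent.Lib.Helper97SpFieldeven

open Cfsg Cfsg.Geo Matrix
open Cfsg.Agent.Lib.Helper97GBase Cfsg.Agent.Lib.Helper96SpDefs
open scoped MatrixGroups

variable {ι : Type} [Fintype ι] [DecidableEq ι] {F : Type*} [Field F]
variable {f : (ι → F) → (ι → F) → F} {H : Subgroup (GL ι F)}

/-- the self-adjoint elements of a subalgebra -/
def selfAdj (hf : IsBilinearForm f) (K : Subalgebra F (Matrix ι ι F)) : Submodule F (Matrix ι ι F) where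
  carrier := {y | y ∈ K ∧ ∀ u v, f (y *ᵥ u) v = f u (y *ᵥ v)}
  add_mem' := by
    rintro a b ⟨ha, ha'⟩ ⟨hb, hb'⟩
    refine ⟨K.add_mem ha hb, fun u v => ?_⟩
    rw [Matrix.add_mulVec, Matrix.add_mulVec, hf.add_left, hf.add_right, ha', hb']
  zero_mem' := by
    refine ⟨K.zero_mem, fun u v => ?_⟩
    rw [Matrix.zero_mulVec, Matrix.zero_mulVec]
    have h1 := hf.smul_left 0 0 v
    have h2 := hf.smul_right 0 u 0
    simp only [zero_smul, zero_mul] at h1 h2
    rw [h1, h2]
  smul_mem' := by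
    rintro c a ⟨ha, ha'⟩
    refine ⟨K.smul_mem ha c, fun u v => ?_⟩
    rw [Matrix.smul_mulVec, Matrix.smul_mulVec, hf.smul_left, hf.smul_right, ha']

/-- in a quadratic field that is not self-adjoint, the self-adjoint elements are the scalars -/
lemma selfAdj_scalar (hf : IsBilinearForm f) {K : Subalgebra F (Matrix ι ι F)}
    (hK : IsFieldSubalgebra 2 K) (hns : ¬ IsSelfAdjointFor f K) {y : Matrix ι ι F} (hy : y ∈ K)
    (hy' : ∀ u v, f (y *ᵥ u) v = f u (y *ᵥ v)) : ∃ d : F, y = d • (1 : Matrix ι ι F) := by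
  have hne : Nonempty ι := by
    by_contra hcon
    rw [not_nonempty_iff] at hcon
    apply hns
    intro k _ u v
    rw [Subsingleton.elim (k *ᵥ u) u, Subsingleton.elim (k *ᵥ v) v]
  have hle : selfAdj hf K ≤ Subalgebra.toSubmodule K := fun y hy => hy.1
  have hlt : selfAdj hf K < Subalgebra.toSubmodule K := by
    refine lt_of_le_of_ne hle ?_
    intro heq
    apply hns
    intro k hk
    have : k ∈ selfAdj hf K := by rw [heq]; exact hk
    exact this.2
  have h1 : Module.finrank F (selfAdj hf K) < 2 := by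
    have := Submodule.finrank_lt_finrank_of_lt hlt
    have h2 : Module.finrank F (Subalgebra.toSubmodule K) = 2 := hK.finrank_eq
    omega
  have hone : (1 : Matrix ι ι F) ∈ selfAdj hf K := ⟨K.one_mem, fun u v => by simp⟩
  have hone0 : (⟨1, hone⟩ : selfAdj hf K) ≠ 0 := by
    intro h
    exact one_ne_zero (congrArg Subtype.val h)
  have h2 : 0 < Module.finrank F (selfAdj hf K) :=
    Module.finrank_pos_iff_exists_ne_zero.mpr ⟨_, hone0⟩
  have h3 : Module.finrank F (selfAdj hf K) = 1 := by omega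
  obtain ⟨d, hd⟩ := (finrank_eq_one_iff_of_nonzero' _ hone0).mp h3 ⟨y, hy, hy'⟩
  exact ⟨d, (congrArg Subtype.val hd).symm⟩

/-- [fieldeven] characteristic 2: unitary type field normalisers fix the quadratic form `Q(v) = f(θ v, v)`,
`θ + θ* = 1`. -/
theorem sp_fieldU_even (hf : IsSymplecticForm f) (h2 : (2 : F) = 0) (hH : FixesForm (matrixSet H) f)
    (hU : AltFieldU f H) : AltQuad f H := by
  obtain ⟨K, hK, hadj, hns, hle⟩ := hU
  have hb := hf.bilinear
  have hneg : ∀ a : F, -a = a := by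
    intro a
    have : a + a = 0 := by rw [← two_mul, h2, zero_mul]
    exact neg_eq_of_add_eq_zero_left this
  have hnegM : ∀ a : Matrix ι ι F, -a = a := by
    intro a
    ext i j
    exact hneg _
  have hsymm : ∀ u v, f u v = f v u := fun u v => by rw [hf.skew, hneg]
  -- an element which is not self-adjoint
  have hx : ∃ x ∈ K, ¬ ∀ u v, f (x *ᵥ u) v = f u (x *ᵥ v) := by
    by_contra hcon
    push Not at hcon
    exact hns hcon
  obtain ⟨x, hxK, hxns⟩ := hx
  obtain ⟨x', hx'K, hxx'⟩ := hadj x hxK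
  have hx'x : ∀ u v, f (x' *ᵥ u) v = f u (x *ᵥ v) := by
    intro u v
    rw [hsymm, ← hxx', hsymm]
  obtain ⟨γ, hγ⟩ := selfAdj_scalar hb hK hns (K.add_mem hxK hx'K) (by
    intro u v
    rw [Matrix.add_mulVec, Matrix.add_mulVec, hb.add_left, hb.add_right, hxx', hx'x, add_comm])
  have hγ0 : γ ≠ 0 := by
    rintro rfl
    rw [zero_smul] at hγ
    have : x' = x := by rw [← hnegM x]; exact eq_neg_of_add_eq_zero_right hγ
    rw [this] at hxx'
    exact hxns hxx'
  -- normalise
  obtain ⟨θ, θ', hθK, hθ'K, hθθ', hsum⟩ : ∃ θ θ' : Matrix ι ι F, θ ∈ K ∧ θ' ∈ K ∧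
      (∀ u v, f (θ *ᵥ u) v = f u (θ' *ᵥ v)) ∧ θ + θ' = 1 := by
    refine ⟨γ⁻¹ • x, γ⁻¹ • x', K.smul_mem hxK _, K.smul_mem hx'K _, ?_, ?_⟩
    · intro u v
      rw [Matrix.smul_mulVec, Matrix.smul_mulVec, hb.smul_left, hb.smul_right, hxx']
    · rw [← smul_add, hγ, smul_smul, inv_mul_cancel₀ hγ0, one_smul]
  have hpolar : QuadraticMap.polar (fun v => f (θ *ᵥ v) v) = f := by
    funext u v
    unfold QuadraticMap.polar
    simp only [Matrix.mulVec_add]
    rw [hb.add_left, hb.add_right, hb.add_right]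
    have e1 : f (θ *ᵥ v) u = f (θ' *ᵥ u) v := by rw [hθθ', hsymm]
    have e2 : f u v = f (θ *ᵥ u) v + f (θ' *ᵥ u) v := by
      rw [← hb.add_left, ← Matrix.add_mulVec, hsum, Matrix.one_mulVec]
    rw [e1, e2]
    ring
  refine ⟨fun v => f (θ *ᵥ v) v, ⟨?_, ?_, ?_⟩, fun u v => by rw [hpolar], ?_⟩
  · intro c v
    simp only [Matrix.mulVec_smul]
    rw [hb.smul_left, hb.smul_right]
    ring
  · rw [hpolar]; exact hb
  · rw [hpolar]; exact hf.nondegenerate
  · intro h hh
    refine ⟨1, fun v => ?_⟩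
    rw [Units.val_one, one_mul]
    have hfix := hH _ ⟨h, hh, rfl⟩
    have hn := hle (H.inv_mem hh)
    set hi : Matrix ι ι F := ((h⁻¹ : GL ι F) : Matrix ι ι F) with hhi
    set hm : Matrix ι ι F := (h : Matrix ι ι F) with hhm
    have hih : hi * hm = 1 := by
      rw [hhi, hhm, ← Units.val_mul, inv_mul_cancel, Units.val_one]
    have hhi' : hm * hi = 1 := by
      rw [hhi, hhm, ← Units.val_mul, mul_inv_cancel, Units.val_one]
    have hθ₁K : hi * θ * hm ∈ K := by
      have := (hn θ).mp hθK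
      rwa [inv_inv] at this
    have hθ₁'K : hi * θ' * hm ∈ K := by
      have := (hn θ').mp hθ'K
      rwa [inv_inv] at this
    -- adjoint of the conjugate
    have hadj1 : ∀ u v, f ((hi * θ * hm) *ᵥ u) v = f u ((hi * θ' * hm) *ᵥ v) := by
      intro u v
      rw [← hfix ((hi * θ * hm) *ᵥ u) v, ← hfix u ((hi * θ' * hm) *ᵥ v), Matrix.mulVec_mulVec,
        Matrix.mulVec_mulVec, ← mul_assoc, ← mul_assoc, ← mul_assoc, ← mul_assoc, hhi', one_mul, one_mul,
        ← Matrix.mulVec_mulVec, ← Matrix.mulVec_mulVec, hθθ']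
    have hsum1 : hi * θ * hm + hi * θ' * hm = 1 := by
      rw [← add_mul, ← mul_add, hsum, mul_one, hih]
    have hδ : hi * θ' * hm - θ' = hi * θ * hm - θ := by
      have e1 : hi * θ' * hm = 1 - hi * θ * hm := eq_sub_of_add_eq' hsum1
      have e2 : θ' = 1 - θ := eq_sub_of_add_eq' hsum
      rw [e1, e2]
      have : (1 - hi * θ * hm - (1 - θ) : Matrix ι ι F) = -(hi * θ * hm - θ) := by abel
      rw [this, hnegM]
    obtain ⟨d, hd⟩ := selfAdj_scalar hb hK hns (K.sub_mem hθ₁K hθK) (by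
      intro u v
      rw [← hδ]
      conv_lhs => rw [hδ]
      rw [Matrix.sub_mulVec, Matrix.sub_mulVec, sub_eq_add_neg, sub_eq_add_neg, hb.add_left, hb.add_right,
        ← neg_one_smul F (θ *ᵥ u), ← neg_one_smul F (θ' *ᵥ v), hb.smul_left, hb.smul_right, hadj1, hθθ'])
    have e3 : θ *ᵥ (hm *ᵥ v) = hm *ᵥ ((hi * θ * hm) *ᵥ v) := by
      rw [Matrix.mulVec_mulVec, Matrix.mulVec_mulVec, ← mul_assoc, ← mul_assoc, hhi', one_mul]
    simp only
    rw [e3, hfix]
    have e4 : hi * θ * hm = θ + d • 1 := by rw [← hd]; abel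
    rw [e4, Matrix.add_mulVec, hb.add_left, Matrix.smul_mulVec, Matrix.one_mulVec, hb.smul_left,
      hf.alternating, mul_zero, add_zero]

end Cfsg.Agent.Lib.Helper97SpFieldeven
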