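import Cfsg.Agent.Lib.Helper96SpComm
import Cfsg.Agent.Lib.Helper97SpRed
import Cfsg.Agent.Lib.Helper97SpPaireven
import Cfsg.Agent.Lib.Helper97SpFieldeven
import Cfsg.Agent.Lib.Helper95SpTensodd
import Cfsg.Agent.Lib.Helper95SpTenstwo
import Cfsg.Agent.Lib.Helper12SpTensform
import Cfsg.Agent.Lib.Helper58GStruct
import Cfsg.Agent.Lib.Helper58GTensnorm
import Cfsg.Agent.Lib.Helper58GTenscases
import Cfsg.Agent.Lib.Helper12SpField
import Cfsg.Agent.Lib.Helper63SpTenseven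

set_option autoImplicit false

/-! PROJECT 3 = ASCH-SP. The dichotomy: a group of isometries normalised by an irreducible group of isometries
lying in no geometric class is scalar or absolutely irreducible. -/

namespace Cfsg.Agent.Lib.Helper96SpDich

open Cfsg Cfsg.Geo Matrix
open Cfsg.Agent.Lib.Helper97GBase Cfsg.Agent.Lib.Helper97GCore
  Cfsg.Agent.Lib.Helper98AschGDefs Cfsg.Agent.Lib.Helper98AschGBasic Cfsg.Agent.Lib.Helper96SpDefs
  Cfsg.Agent.Lib.Helper58GStruct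
open scoped MatrixGroups Kronecker

variable {ι : Type} [Fintype ι] [DecidableEq ι] {F : Type*} [Field F]
variable {f : (ι → F) → (ι → F) → F} {H : Subgroup (GL ι F)}

lemma two_eq_zero_of_not_odd [Fintype F] (h : ¬ Odd (Fintype.card F)) : (2 : F) = 0 := by
  have h1 : Fintype.card F % 2 = 0 := by
    rw [Nat.not_odd_iff_even] at h
    exact Nat.even_iff.mp h
  have h2 : ringChar F = 2 := FiniteField.even_card_iff_char_two.mpr h1
  have h3 : ((ringChar F : ℕ) : F) = 0 := ringChar.Nat.cast_ringChar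
  rw [h2] at h3
  exact_mod_cast h3

lemma two_ne_zero_of_odd [Fintype F] (h : Odd (Fintype.card F)) : (2 : F) ≠ 0 := by
  intro h2
  have : CharP F 2 := CharTwo.of_one_ne_zero_of_two_eq_zero one_ne_zero h2
  have h1 : ringChar F = 2 := ringChar.eq F 2
  have h3 := FiniteField.even_card_iff_char_two.mp h1
  rw [Nat.odd_iff] at h
  omega

section alts
variable [Fintype F]

lemma altTS (h : AltTS f H) : SpAlt f H := Or.inl h
lemma altND (h : AltND f H) : SpAlt f H := Or.inr (Or.inl h)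
lemma altDec (h : AltDec f H) : SpAlt f H := Or.inr (Or.inr (Or.inl h))
lemma altPair (ho : Odd (Fintype.card F)) (h : AltPair f H) : SpAlt f H :=
  Or.inr (Or.inr (Or.inr (Or.inl ⟨ho, h⟩)))
lemma altSub (h : AltSub f H) : SpAlt f H := Or.inr (Or.inr (Or.inr (Or.inr (Or.inl h))))
lemma altC6 (h : AltC6 f H) : SpAlt f H := Or.inr (Or.inr (Or.inr (Or.inr (Or.inr (Or.inl h)))))
lemma altQuad (ho : ¬ Odd (Fintype.card F)) (h : AltQuad f H) : SpAlt f H :=
  Or.inr (Or.inr (Or.inr (Or.inr (Or.inr (Or.inr (Or.inl ⟨ho, h⟩))))))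
lemma altFieldSA (h : AltFieldSA f H) : SpAlt f H :=
  Or.inr (Or.inr (Or.inr (Or.inr (Or.inr (Or.inr (Or.inr (Or.inl h)))))))
lemma altFieldU (ho : Odd (Fintype.card F)) (h : AltFieldU f H) : SpAlt f H :=
  Or.inr (Or.inr (Or.inr (Or.inr (Or.inr (Or.inr (Or.inr (Or.inr (Or.inl ⟨ho, h⟩))))))))
lemma altTensor (ho : Odd (Fintype.card F)) (h : AltTensor f H) : SpAlt f H :=
  Or.inr (Or.inr (Or.inr (Or.inr (Or.inr (Or.inr (Or.inr (Or.inr (Or.inr (Or.inl ⟨ho, h⟩)))))))))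
lemma altWreath (ho : Odd (Fintype.card F)) (h : AltWreath f H) : SpAlt f H :=
  Or.inr (Or.inr (Or.inr (Or.inr (Or.inr (Or.inr (Or.inr (Or.inr (Or.inr (Or.inr ⟨ho, h⟩)))))))))

end alts

/-- a commutative adjoint-closed normalised subalgebra consists of scalars. -/
theorem comm_scalar [Fintype F] [Nonempty ι] (hf : IsSymplecticForm f) (hH : FixesForm (matrixSet H) f)
    (hirr : ActsIrreducibly (matrixSet H)) (hgeo : ¬ SpAlt f H)
    {C : Subalgebra F (Matrix ι ι F)} (hC : NzA H C)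
    (hcomm : ∀ x ∈ C, ∀ y ∈ C, x * y = y * x) (hadj : IsAdjointClosedFor f C) :
    ∀ x ∈ C, ∃ c : F, x = c • (1 : Matrix ι ι F) := by
  intro x hx
  by_contra hcon
  push Not at hcon
  rcases Cfsg.Agent.Lib.Helper96SpComm.sp_comm hf hH hirr hC hcomm hadj with hfield | hdec | hpair
  · rcases Cfsg.Agent.Lib.Helper12SpField.sp_field hf hH hirr hC hcomm hfield hadj ⟨x, hx, hcon⟩ with h | h
    · exact hgeo (altFieldSA h)
    · by_cases ho : Odd (Fintype.card F)
      · exact hgeo (altFieldU ho h)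
      · exact hgeo (altQuad ho
          (Cfsg.Agent.Lib.Helper97SpFieldeven.sp_fieldU_even hf (two_eq_zero_of_not_odd ho) hH h))
  · exact hgeo (altDec hdec)
  · by_cases ho : Odd (Fintype.card F)
    · exact hgeo (altPair ho hpair)
    · exact hgeo (altQuad ho
        (Cfsg.Agent.Lib.Helper97SpPaireven.sp_pair_even hf (two_eq_zero_of_not_odd ho) hH hpair))

/-- swapping the two tensor factors, explicit bijection. -/
theorem tensor_swap' {d s : ℕ} (e : ι ≃ Fin d × Fin s) (P : GL ι F) :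
    tensorProductSubgroup d s e P ≤ tensorProductSubgroup s d (e.trans (Equiv.prodComm _ _)) P := by
  unfold tensorProductSubgroup
  apply Subgroup.map_mono
  rintro _ ⟨g, ⟨a, b, hg⟩, rfl⟩
  refine ⟨glReindex (Equiv.prodComm (Fin d) (Fin s)) g, ⟨b, a, ?_⟩, ?_⟩
  · ext ⟨j, i⟩ ⟨j', i'⟩
    rw [Cfsg.Agent.Lib.Helper58GTenscases.glReindex_apply, hg]
    simp [Matrix.kroneckerMap_apply, mul_comm]
  · apply Units.ext
    ext i j
    simp only [MulEquiv.coe_toMonoidHom]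
    rw [Cfsg.Agent.Lib.Helper58GTenscases.glReindex_apply, Cfsg.Agent.Lib.Helper58GTenscases.glReindex_apply,
      Cfsg.Agent.Lib.Helper58GTenscases.glReindex_apply]
    rfl

lemma form_swap {d s : ℕ} (e : ι ≃ Fin d × Fin s) (P : GL ι F)
    (G₁ : Matrix (Fin d) (Fin d) F) (G₂ : Matrix (Fin s) (Fin s) F)
    (hG : ∀ x y : Fin d × Fin s → F, f ((P : Matrix ι ι F) *ᵥ (x ∘ e)) ((P : Matrix ι ι F) *ᵥ (y ∘ e)) =
        formOfGram id (G₁ ⊗ₖ G₂) x y) :
    ∀ x y : Fin s × Fin d → F,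
      f ((P : Matrix ι ι F) *ᵥ (x ∘ (e.trans (Equiv.prodComm _ _))))
        ((P : Matrix ι ι F) *ᵥ (y ∘ (e.trans (Equiv.prodComm _ _)))) =
        formOfGram id (G₂ ⊗ₖ G₁) x y := by
  intro x y
  have h := hG (x ∘ Equiv.prodComm _ _) (y ∘ Equiv.prodComm _ _)
  have e1 : ∀ z : Fin s × Fin d → F, z ∘ (e.trans (Equiv.prodComm _ _)) = (z ∘ Equiv.prodComm _ _) ∘ e := by
    intro z; rfl
  rw [e1, e1, h]
  unfold formOfGram
  rw [← Equiv.sum_comp (Equiv.prodComm (Fin d) (Fin s))]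
  apply Finset.sum_congr rfl
  intro a _
  rw [← Equiv.sum_comp (Equiv.prodComm (Fin d) (Fin s))]
  apply Finset.sum_congr rfl
  intro b _
  simp [Matrix.kroneckerMap_apply, mul_comm]

/-- odd characteristic: a tensor decomposition of the form with skew first factor. -/
theorem tensor_odd_aux [Fintype F] [Nonempty ι] (hf : IsSymplecticForm f) (hH : FixesForm (matrixSet H) f)
    (hirr : ActsIrreducibly (matrixSet H)) (hgeo : ¬ SpAlt f H) (ho : Odd (Fintype.card F))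
    {d s : ℕ} (hs : 2 ≤ s) (e : ι ≃ Fin d × Fin s) (P : GL ι F) (hle : H ≤ tensorProductSubgroup d s e P)
    (G₁ : Matrix (Fin d) (Fin d) F) (G₂ : Matrix (Fin s) (Fin s) F) (h₁ : IsUnit G₁.det) (h₂ : IsUnit G₂.det)
    (hG : ∀ x y : Fin d × Fin s → F, f ((P : Matrix ι ι F) *ᵥ (x ∘ e)) ((P : Matrix ι ι F) *ᵥ (y ∘ e)) =
        formOfGram id (G₁ ⊗ₖ G₂) x y) (hs₁ : G₁ᵀ = -G₁) (hs₂ : G₂ᵀ = G₂) : False := by
  have h2 := two_ne_zero_of_odd ho
  rcases Nat.lt_or_ge s 3 with h3 | h3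
  · obtain rfl : s = 2 := by omega
    obtain ⟨C, hC, hcomm, hadj, x, hx, hxs⟩ :=
      Cfsg.Agent.Lib.Helper95SpTenstwo.sp_tensor_two h2 hf hH e P hle G₁ G₂ h₁ h₂ hG hs₂
    obtain ⟨c, hc⟩ := comm_scalar hf hH hirr hgeo hC hcomm hadj x hx
    exact hxs c hc
  · exact hgeo (altTensor ho
      (Cfsg.Agent.Lib.Helper95SpTensodd.sp_tensor_odd h2 h3 e P hle G₁ G₂ h₁ h₂ hG hs₁ hs₂))

theorem sp_dichotomy [Fintype F] [Nonempty ι] (hf : IsSymplecticForm f) (hH : FixesForm (matrixSet H) f)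
    (hirr : ActsIrreducibly (matrixSet H)) (hgeo : ¬ SpAlt f H)
    (T : Subgroup (GL ι F)) (hTf : FixesForm (matrixSet T) f) (hT : Nz H T) :
    T ≤ scalars ι F ∨ ActsAbsolutelyIrreducibly (matrixSet T) := by
  have hA : NzA H (env T) := NzA_env hT
  have hC : NzA H (cen (env T)) := NzA_cen hA
  have hAadj : IsAdjointClosedFor f (env T) := adjClosed_env hf.bilinear hTf
  have hCadj : IsAdjointClosedFor f (cen (env T)) := adjClosed_cen_sp hf hAadj
  have hcen : ∀ z ∈ env T, (∀ a ∈ env T, z * a = a * z) →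
      ∃ c : F, z = c • (1 : Matrix ι ι F) := by
    intro z hz hza
    exact comm_scalar hf hH hirr hgeo hC cen_comm hCadj z (mem_cen.2 ⟨hz, hza⟩)
  obtain ⟨d, s, hd, e, P, hmem⟩ := struct hirr hA hcen
  have hle : H ≤ tensorProductSubgroup d s e P := fun g hg =>
    Cfsg.Agent.Lib.Helper58GTensnorm.mem_tensorProductSubgroup_of_normalizes e P g
      (fun a => (hmem _).1 (hA g hg _ ((hmem _).2 ⟨a, rfl⟩)))
  have hd0 : d ≠ 0 := NeZero.ne d
  have hs0 : s ≠ 0 := by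
    rintro rfl
    have h1 := Fintype.card_congr e
    simp at h1
  by_cases hd1 : d = 1
  · left
    subst hd1
    intro t ht
    obtain ⟨a, ha⟩ := (hmem _).1 (val_mem_env ht)
    have ha1 : a = a 0 0 • (1 : Matrix (Fin 1) (Fin 1) F) := by
      ext i j
      rw [Subsingleton.elim i 0, Subsingleton.elim j 0]
      simp
    rw [ha1, tens_smul_left, tens_one] at ha
    rw [mem_scalars_iff]
    have hne : a 0 0 ≠ 0 := by
      intro h0
      rw [h0, zero_smul] at ha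
      have := t.isUnit
      rw [ha] at this
      exact not_isUnit_zero this
    exact ⟨Units.mk0 _ hne, ha⟩
  by_cases hs1 : s = 1
  · right
    subst hs1
    apply absIrred_of_env
    intro M
    exact (hmem M).2 (exists_tens_of_one e P M)
  exfalso
  have hd2 : 2 ≤ d := by omega
  have hs2 : 2 ≤ s := by omega
  have hadj : ∀ a : Matrix (Fin d) (Fin d) F, ∃ a' : Matrix (Fin d) (Fin d) F,
      IsAdj f (tens e P a 1) (tens e P a' 1) := by
    intro a
    obtain ⟨b, hb, hab⟩ := hAadj _ ((hmem _).2 ⟨a, rfl⟩)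
    obtain ⟨a', rfl⟩ := (hmem _).1 hb
    exact ⟨a', hab⟩
  obtain ⟨G₁, G₂, h₁, h₂, hG⟩ :=
    Cfsg.Agent.Lib.Helper12SpTensform.tens_form hf.bilinear hf.nondegenerate e P hadj
  by_cases ho : Odd (Fintype.card F)
  · rcases Cfsg.Agent.Lib.Helper12SpTensform.tens_form_skew hf.skew e P G₁ G₂ h₁ h₂ hG with
      ⟨hs₁, hs₂⟩ | ⟨hs₁, hs₂⟩
    · exact tensor_odd_aux hf hH hirr hgeo ho hs2 e P hle G₁ G₂ h₁ h₂ hG hs₁ hs₂
    · exact tensor_odd_aux hf hH hirr hgeo ho hd2 _ P (hle.trans (tensor_swap' e P)) G₂ G₁ h₂ h₁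
        (form_swap e P G₁ G₂ hG) hs₂ hs₁
  · exact hgeo (altQuad ho (Cfsg.Agent.Lib.Helper63SpTenseven.sp_tensor_even (two_eq_zero_of_not_odd ho) hf hH hirr
      hd2 hs2 e P hle G₁ G₂ h₁ h₂ hG))

end Cfsg.Agent.Lib.Helper96SpDich
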