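import Cfsg.Agent.Lib.Helper97SpSubfield
import Cfsg.Agent.Lib.Helper97GQF
import Cfsg.Agent.Lib.Helper97GCore

set_option autoImplicit false
set_option linter.unusedSectionVars false

namespace Cfsg.Agent.Lib.Helper97SpSimple

open Cfsg Cfsg.Geo Matrix
open Cfsg.Agent.Lib.Helper97GBase Cfsg.Agent.Lib.Helper96SpDefs Cfsg.Agent.Lib.Helper97GForms
  Cfsg.Agent.Lib.Helper97GSubfield Cfsg.Agent.Lib.Helper97GCore Cfsg.Agent.Lib.Helper97GQF
  Cfsg.Agent.Lib.Helper97SpSubfield
open scoped MatrixGroups

variable {ι : Type} [Fintype ι] [DecidableEq ι] {F : Type*} [Field F]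
variable {f : (ι → F) → (ι → F) → F} {H : Subgroup (GL ι F)}

lemma two_le_card_of_not_scalar {N : Subgroup (GL ι F)} (hNs : ¬ N ≤ scalars ι F) :
    2 ≤ Fintype.card ι := by
  by_contra hcon
  apply hNs
  intro x _
  rw [mem_scalars_iff]
  have hsub : Subsingleton ι := Fintype.card_le_one_iff_subsingleton.mp (by omega)
  rcases isEmpty_or_nonempty ι with he | ⟨⟨i₀⟩⟩
  · exact ⟨1, by ext i; exact (he.false i).elim⟩
  · have hne : (x : Matrix ι ι F) i₀ i₀ ≠ 0 := by
      intro h0
      have h1 : (x : Matrix ι ι F) = 0 := by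
        ext i j
        rw [Subsingleton.elim i i₀, Subsingleton.elim j i₀]
        exact h0
      have h2 := iv x
      rw [h1, zero_mul] at h2
      have := congrFun (congrFun h2 i₀) i₀
      simp at this
    refine ⟨Units.mk0 _ hne, ?_⟩
    ext i j
    rw [Subsingleton.elim i i₀, Subsingleton.elim j i₀]
    simp

/-- in characteristic two, a quadratic form fixed by an irreducible normal subgroup and polarising to an
invariant form is fixed by the whole group -/
lemma quad_fixed_of_normal [Fintype F] (h2 : (2 : F) = 0) {Q : (ι → F) → F}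
    (hQ : IsNondegenerateQuadraticForm Q) {N : Subgroup (GL ι F)} (hnorm : Nz H N)
    (hirr : ActsIrreducibly (matrixSet N)) (hcard : 2 ≤ Fintype.card ι)
    (hfix : FixesQuadForm (matrixSet N) Q) (hH : FixesForm (matrixSet H) (QuadraticMap.polar Q)) :
    FixesQuadForm (matrixSet H) Q := by
  rintro _ ⟨h, hh, rfl⟩
  have hneg : ∀ a : F, -a = a := by
    intro a
    have : a + a = 0 := by rw [← two_mul, h2, zero_mul]
    exact neg_eq_of_add_eq_zero_left this
  have hadd : ∀ u v, Q ((h : Matrix ι ι F) *ᵥ (u + v)) - Q (u + v) =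
      (Q ((h : Matrix ι ι F) *ᵥ u) - Q u) + (Q ((h : Matrix ι ι F) *ᵥ v) - Q v) := by
    intro u v
    have h1 := hH _ ⟨h, hh, rfl⟩ u v
    unfold QuadraticMap.polar at h1
    rw [← Matrix.mulVec_add] at h1
    linear_combination h1
  let W : Submodule F (ι → F) :=
    { carrier := {v | Q ((h : Matrix ι ι F) *ᵥ v) - Q v = 0}
      add_mem' := by
        intro a b ha hb
        simp only [Set.mem_ofPred_eq] at ha hb ⊢
        rw [hadd, ha, hb, add_zero]
      zero_mem' := by
        simp only [Set.mem_ofPred_eq, Matrix.mulVec_zero, sub_self]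
      smul_mem' := by
        intro c a ha
        simp only [Set.mem_ofPred_eq] at ha ⊢
        rw [Matrix.mulVec_smul, hQ.smul, hQ.smul, ← mul_sub, ha, mul_zero] }
  have hWmem : ∀ v, v ∈ W ↔ Q ((h : Matrix ι ι F) *ᵥ v) - Q v = 0 := fun v => Iff.rfl
  have hWinv : Inv N W := by
    intro x hx v hv
    rw [hWmem] at hv ⊢
    have e : (h : Matrix ι ι F) *ᵥ ((x : Matrix ι ι F) *ᵥ v) =
        ((h * x * h⁻¹ : GL ι F) : Matrix ι ι F) *ᵥ ((h : Matrix ι ι F) *ᵥ v) := by
      rw [Matrix.mulVec_mulVec, Matrix.mulVec_mulVec, ← Units.val_mul, ← Units.val_mul]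
      congr 2
      group
    rw [e, hfix _ ⟨_, hnorm h hh x hx, rfl⟩, hfix _ ⟨x, hx, rfl⟩]
    exact hv
  rcases (actsIrreducibly_iff.mp hirr) W hWinv with hW | hW
  · exfalso
    -- a nonzero vector in the kernel
    obtain ⟨i, j, hij⟩ := Fintype.exists_pair_of_one_lt_card (α := ι) (by omega)
    let D : (ι → F) → F := fun v => Q ((h : Matrix ι ι F) *ᵥ v) - Q v
    have hDi : D (Pi.single i 1) ≠ 0 := by
      intro h0
      have : (Pi.single i 1 : ι → F) ∈ W := h0
      rw [hW, Submodule.mem_bot] at this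
      have := congrFun this i
      simp at this
    have hchar : ringChar F = 2 := by
      have : CharP F 2 := CharTwo.of_one_ne_zero_of_two_eq_zero one_ne_zero h2
      exact ringChar.eq F 2
    obtain ⟨c, hc⟩ := FiniteField.isSquare_of_char_two hchar (D (Pi.single j 1) / D (Pi.single i 1))
    have hmem : (Pi.single j 1 + c • Pi.single i 1 : ι → F) ∈ W := by
      rw [hWmem, hadd, Matrix.mulVec_smul, hQ.smul, hQ.smul, ← mul_sub]
      change D (Pi.single j 1) + c ^ 2 * D (Pi.single i 1) = 0
      rw [pow_two, ← hc, div_mul_cancel₀ _ hDi, ← two_mul, h2, zero_mul]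
    rw [hW, Submodule.mem_bot] at hmem
    have := congrFun hmem j
    simp [hij.symm] at this
  · intro v
    have : v ∈ W := by rw [hW]; exact Submodule.mem_top
    exact sub_eq_zero.mp this

/-- [simple] the almost simple case. -/
theorem sp_simple [Fintype F] [Nonempty ι] (hf : IsSymplecticForm f) (hH : FixesForm (matrixSet H) f)
    {N : Subgroup (GL ι F)} (hNH : N ≤ H) (hnorm : Nz H N)
    (habs : ActsAbsolutelyIrreducibly (matrixSet N)) (hperf : ⁅N, N⁆ = N) (hNs : ¬ N ≤ scalars ι F)
    (hmin : ∀ T' : Subgroup (GL ι F), T' ≤ N → NzG N T' → T' ≤ scalars ι F ∨ T' = N) :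
    AltSub f H ∨ (¬ Odd (Fintype.card F) ∧ AltQuad f H) ∨ InSymplecticResidualClass H := by
  have hN : FixesForm (matrixSet N) f := by
    rintro _ ⟨x, hx, rfl⟩
    exact hH _ ⟨x, hNH hx, rfl⟩
  have hcard := two_le_card_of_not_scalar hNs
  by_cases hsub : ∃ F₀ : Subfield F, F₀ ≠ ⊤ ∧ RealisableOver F₀ (matrixSet N)
  · obtain ⟨F₀, hF₀, hreal⟩ := hsub
    exact Or.inl (sp_subfield hf hnorm hN habs hF₀ hreal)
  right
  by_cases hquad : ∃ Q : (ι → F) → F, IsNondegenerateQuadraticForm Q ∧ FixesQuadForm (matrixSet N) Q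
  · left
    obtain ⟨Q, hQ, hfix⟩ := hquad
    have hfixp : FixesForm (matrixSet N) (QuadraticMap.polar Q) := by
      intro s hs u v
      unfold QuadraticMap.polar
      rw [← Matrix.mulVec_add, hfix s hs, hfix s hs, hfix s hs]
    obtain ⟨c, hc⟩ := schur_form habs (sesq_of_bilinear hf.bilinear) (sesq_of_bilinear hQ.polar_bilinear)
      hf.nondegenerate hN hfixp
    obtain ⟨i₀⟩ := (inferInstance : Nonempty ι)
    have hv0 : (Pi.single i₀ 1 : ι → F) ≠ 0 := by
      intro h0
      have := congrFun h0 i₀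
      simp at this
    have hc0 : c ≠ 0 := by
      rintro rfl
      obtain ⟨x, hx⟩ := (hQ.nondegenerate _ hv0).1
      apply hx
      rw [hc, zero_mul]
    have h2 : (2 : F) = 0 := by
      by_contra h2
      obtain ⟨x, hx⟩ := (hf.nondegenerate _ hv0).1
      apply hx
      have e1 : c * f x (Pi.single i₀ 1) = c * f (Pi.single i₀ 1) x := by
        rw [← hc, ← hc, QuadraticMap.polar_comm]
      have e2 := mul_left_cancel₀ hc0 e1
      rw [hf.skew (Pi.single i₀ 1) x] at e2
      have e3 : 2 * f x (Pi.single i₀ 1) = 0 := by linear_combination e2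
      exact (mul_eq_zero.mp e3).resolve_left h2
    have hodd : ¬ Odd (Fintype.card F) := by
      intro hodd
      have hchar : ringChar F = 2 := by
        have : CharP F 2 := CharTwo.of_one_ne_zero_of_two_eq_zero one_ne_zero h2
        exact ringChar.eq F 2
      have := FiniteField.even_card_of_char_two hchar
      rw [Nat.odd_iff] at hodd
      omega
    refine ⟨hodd, ?_⟩
    have hpolar : QuadraticMap.polar (fun v => c⁻¹ * Q v) = f := by
      funext u v
      have := hc u v
      unfold QuadraticMap.polar at this ⊢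
      field_simp
      linear_combination this
    have hQ' : IsNondegenerateQuadraticForm (fun v => c⁻¹ * Q v) := by
      refine ⟨fun a v => ?_, ?_, ?_⟩
      · simp only [hQ.smul]
        ring
      · rw [hpolar]; exact hf.bilinear
      · rw [hpolar]; exact hf.nondegenerate
    have hfix' : FixesQuadForm (matrixSet N) (fun v => c⁻¹ * Q v) := by
      intro s hs v
      simp only [hfix s hs]
    have hall := quad_fixed_of_normal h2 hQ' hnorm habs.1 hcard hfix' (by rw [hpolar]; exact hH)
    refine ⟨_, hQ', fun u v => by rw [hpolar], ?_⟩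
    intro h hh
    exact ⟨1, fun v => by rw [Units.val_one, one_mul]; exact hall _ ⟨h, hh, rfl⟩ v⟩
  right
  refine ⟨N, ⟨hNH, hnorm, hperf, simple_quotient _ N hNs hmin, not_comm_quotient _ N hNs hperf, ?_, habs, ?_⟩,
    hquad, ?_⟩
  · intro h _ hh
    exact centralizer_scalar_of_perfect hperf habs h hh
  · intro F₀ hF₀ hreal
    exact hsub ⟨F₀, hF₀, hreal⟩
  · rintro ⟨σ, g, hg, hfix⟩
    obtain ⟨F₁, hF₁, hcard'⟩ := Cfsg.Agent.Lib.Helper97USub.fix_sigma σ hg.ne_refl hg.involutive
    apply hsub
    exact ⟨F₁, subfield_ne_top_of_card Nat.prime_two hcard',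
      realisable_of_bilinear hg hfix habs hf.bilinear hf.nondegenerate hN (fun a ha => (hF₁ a).mp ha)⟩

end Cfsg.Agent.Lib.Helper97SpSimple
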