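import Cfsg.Agent.Lib.Helper96SpDefs
import Cfsg.Agent.Lib.Helper97OSub

set_option autoImplicit false
set_option linter.unusedSectionVars false

namespace Cfsg.Agent.Lib.Helper97SpSubfield

open Cfsg Cfsg.Geo Matrix
open Cfsg.Agent.Lib.Helper97GBase Cfsg.Agent.Lib.Helper96SpDefs Cfsg.Agent.Lib.Helper97GForms
  Cfsg.Agent.Lib.Helper97GSubfield Cfsg.Agent.Lib.Helper97OSub
open scoped MatrixGroups

variable {ι : Type} [Fintype ι] [DecidableEq ι] {F : Type*} [Field F]
variable {f : (ι → F) → (ι → F) → F} {H : Subgroup (GL ι F)}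

/-- an invariant bilinear form is semi-invariant under the semilinear map of a rational structure -/
lemma semi_form (hb : IsBilinearForm f) (hnd : IsNondegenerateForm f) (τ : F ≃+* F)
    {P : Subgroup (GL ι F)} (hP : FixesForm (matrixSet P) f)
    (habs : ActsAbsolutelyIrreducibly (matrixSet P)) (B : GL ι F)
    (hB : ∀ x ∈ P, ∀ i j, τ (((B * x * B⁻¹ : GL ι F) : Matrix ι ι F) i j) =
      ((B * x * B⁻¹ : GL ι F) : Matrix ι ι F) i j) :
    ∃ c : F, ∀ u v, f (semi τ B u) (semi τ B v) = c * τ (f u v) := by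
  have hs := sesq_of_bilinear hb
  have hs₂ : Sesq (RingEquiv.refl F) (fun u v => τ.symm (f (semi τ B u) (semi τ B v))) :=
    { add_left := fun x y v => by simp only [semi_add, hb.add_left, map_add]
      smul_left := fun c x v => by
        simp only [semi_smul, hb.smul_left, map_mul, RingEquiv.symm_apply_apply]
      add_right := fun v x y => by simp only [semi_add, hb.add_right, map_add]
      smul_right := fun c v x => by
        simp only [semi_smul, hb.smul_right, map_mul, RingEquiv.symm_apply_apply, RingEquiv.refl_apply] }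
  have hfix₂ : FixesForm (matrixSet P) (fun u v => τ.symm (f (semi τ B u) (semi τ B v))) := by
    rintro _ ⟨x, hx, rfl⟩ u v
    simp only
    rw [semi_comm τ B x (hB x hx), semi_comm τ B x (hB x hx), hP _ ⟨x, hx, rfl⟩]
  obtain ⟨c, hc⟩ := schur_form habs hs hs₂ hnd hP hfix₂
  refine ⟨τ c, fun u v => ?_⟩
  have := congrArg τ (hc u v)
  simpa using this

/-- class 5 for a group fixing a non-degenerate bilinear form -/
theorem bilinear_subfield [Fintype F] [Nonempty ι] (hb : IsBilinearForm f) (hnd : IsNondegenerateForm f)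
    {N : Subgroup (GL ι F)}
    (hnorm : Nz H N) (hN : FixesForm (matrixSet N) f) (habs : ActsAbsolutelyIrreducibly (matrixSet N))
    {F₀ : Subfield F} (hF₀ : F₀ ≠ ⊤) (hreal : RealisableOver F₀ (matrixSet N)) : AltSub f H := by
  obtain ⟨B, hB⟩ := hreal
  obtain ⟨τ, F₁, r, hr, hcard, hτ0, hτ1⟩ := Cfsg.Agent.Lib.Helper97USub.exists_aut' hF₀
  have hB' : ∀ x ∈ N, ∀ i j, ((B * x * B⁻¹ : GL ι F) : Matrix ι ι F) i j ∈ F₀ := by
    intro x hx i j
    have := hB _ ⟨x, hx, rfl⟩ i j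
    simpa [Units.val_mul] using this
  obtain ⟨c, hc⟩ := semi_form hb hnd τ hN habs B (fun x hx i j => hτ0 _ (hB' x hx i j))
  obtain ⟨M, hM⟩ : ∃ M, M = ((B⁻¹ : GL ι F) : Matrix ι ι F) := ⟨_, rfl⟩
  have hfixed : ∀ u v : ι → F, (∀ i, τ (u i) = u i) → (∀ i, τ (v i) = v i) →
      f (M *ᵥ u) (M *ᵥ v) = c * τ (f (M *ᵥ u) (M *ᵥ v)) := by
    intro u v hu hv
    have := hc (M *ᵥ u) (M *ᵥ v)
    rw [hM, semi_fixed τ B hu, semi_fixed τ B hv] at this
    rw [hM]
    exact this
  have hsingle : ∀ (j i : ι), τ ((Pi.single j 1 : ι → F) i) = (Pi.single j 1 : ι → F) i := by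
    intro j i
    by_cases hij : i = j
    · subst hij; simp
    · simp [hij]
  -- a nonzero entry of the Gram matrix
  obtain ⟨i, j, hij⟩ : ∃ i j, f (M *ᵥ Pi.single i 1) (M *ᵥ Pi.single j 1) ≠ 0 := by
    by_contra hcon
    push Not at hcon
    have hs' := (sesq_of_bilinear hb).comp M
    have hz : ∀ u v, f (M *ᵥ u) (M *ᵥ v) = 0 := by
      intro u v
      have h1 := hs'.eq_gram u v
      have h2 : gram (fun u v => f (M *ᵥ u) (M *ᵥ v)) = 0 := by
        ext a b
        exact hcon a b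
      rw [h2, Matrix.zero_mulVec, dotProduct_zero] at h1
      exact h1
    obtain ⟨i₀⟩ := (inferInstance : Nonempty ι)
    have hne : M *ᵥ (Pi.single i₀ 1 : ι → F) ≠ 0 := by
      intro h0
      have h1 : (B : Matrix ι ι F) *ᵥ (M *ᵥ (Pi.single i₀ 1 : ι → F)) = 0 := by
        rw [h0, Matrix.mulVec_zero]
      rw [hM, mulVec_inv_mulVec] at h1
      have := congrFun h1 i₀
      simp at this
    obtain ⟨x, hx⟩ := (hnd _ hne).2
    apply hx
    have e : x = M *ᵥ ((B : Matrix ι ι F) *ᵥ x) := by rw [hM, inv_mulVec_mulVec]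
    rw [e]
    exact hz _ _
  obtain ⟨g₀, hg₀⟩ : ∃ g₀, g₀ = f (M *ᵥ Pi.single i 1) (M *ᵥ Pi.single j 1) := ⟨_, rfl⟩
  rw [← hg₀] at hij
  have hg₀c : g₀ = c * τ g₀ := by
    rw [hg₀]
    exact hfixed _ _ (hsingle i) (hsingle j)
  have hτg : τ g₀ ≠ 0 := fun h0 => hij ((map_eq_zero τ).mp h0)
  refine ⟨F₁, r, B⁻¹, g₀⁻¹, hr, hcard, inv_ne_zero hij, ?_, ?_⟩
  · intro u v hu hv
    rw [← hτ1, ← hM]
    have hx := hfixed u v (fun i => (hτ1 _).mpr (hu i)) (fun i => (hτ1 _).mpr (hv i))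
    obtain ⟨x, hxd⟩ : ∃ x, x = f (M *ᵥ u) (M *ᵥ v) := ⟨_, rfl⟩
    rw [← hxd] at hx ⊢
    rw [map_mul, map_inv₀]
    have e1 : g₀ * τ x = x * τ g₀ := by
      calc g₀ * τ x = (c * τ g₀) * τ x := by rw [← hg₀c]
        _ = (c * τ x) * τ g₀ := by ring
        _ = x * τ g₀ := by rw [← hx]
    field_simp
    linear_combination e1
  · exact key (τ : F →+* F) hτ0 (fun a ha => (hτ1 a).mp ha) hnorm habs B hB

/-- [subfield] a normal absolutely irreducible subgroup realisable over a proper subfield: class 5, with the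
rationality of a multiple of the form. -/
theorem sp_subfield [Fintype F] [Nonempty ι] (hf : IsSymplecticForm f) {N : Subgroup (GL ι F)}
    (hnorm : Nz H N) (hN : FixesForm (matrixSet N) f) (habs : ActsAbsolutelyIrreducibly (matrixSet N))
    {F₀ : Subfield F} (hF₀ : F₀ ≠ ⊤) (hreal : RealisableOver F₀ (matrixSet N)) : AltSub f H :=
  bilinear_subfield hf.bilinear hf.nondegenerate hnorm hN habs hF₀ hreal

end Cfsg.Agent.Lib.Helper97SpSubfield
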