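import Cfsg.Agent.Lib.Helper96SpDich
import Cfsg.Agent.Lib.Helper58GC7
import Cfsg.Agent.Lib.Helper67AschCore
import Cfsg.Agent.Lib.Helper57SpWrform
import Cfsg.Agent.Lib.Helper74SpGl23
import Cfsg.Agent.Lib.Helper7C6Asm
import Cfsg.Agent.Lib.Helper7SpC6
import Cfsg.Agent.Lib.Helper97SpSubfield
import Cfsg.Agent.Lib.Helper97SpSimple
import Cfsg.Agent.Lib.Helper57SpWrodd
import Cfsg.Agent.Lib.Helper57SpWreven

set_option autoImplicit false

/-! PROJECT 3 = ASCH-SP. Assembly: the symplectic-type case, the tensor-induced case, the main theorem. -/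

namespace Cfsg.Agent.Lib.Helper96SpMain

open Cfsg Cfsg.Geo Matrix
open Cfsg.Agent.Lib.Helper97GBase Cfsg.Agent.Lib.Helper97GCore
  Cfsg.Agent.Lib.Helper98AschGDefs Cfsg.Agent.Lib.Helper98AschGBasic Cfsg.Agent.Lib.Helper96SpDefs
  Cfsg.Agent.Lib.Helper96SpDich Cfsg.Agent.Lib.Helper7SpC6 Cfsg.Agent.Lib.Helper97SpSubfield
  Cfsg.Agent.Lib.Helper97SpSimple Cfsg.Agent.Lib.Helper57SpWrodd Cfsg.Agent.Lib.Helper57SpWreven
open scoped MatrixGroups Kronecker commutatorElement

variable {ι : Type} [Fintype ι] [DecidableEq ι] {F : Type*} [Field F]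
variable {f : (ι → F) → (ι → F) → F} {H : Subgroup (GL ι F)}

/-! ### the symplectic-type case -/

lemma le_similarityGroup_of_fixes' {N : Subgroup (GL ι F)} (hN : FixesForm (matrixSet N) f) :
    N ≤ similarityGroup f := by
  intro g hg
  exact ⟨1, fun u v => by rw [fixes_apply hN hg, Units.val_one, one_mul]⟩

lemma trace_eq_zero_of_anti (h2 : (2 : F) ≠ 0) {x y : GL ι F}
    (h : (y : Matrix ι ι F) * (x : Matrix ι ι F) = -((x : Matrix ι ι F) * (y : Matrix ι ι F))) :
    Matrix.trace (x : Matrix ι ι F) = 0 := by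
  have h1 : (x : Matrix ι ι F) = -((y⁻¹ : GL ι F) : Matrix ι ι F) * ((x : Matrix ι ι F) * (y : Matrix ι ι F)) := by
    rw [neg_mul, ← mul_neg, ← h, ← mul_assoc, vi, one_mul]
  have h3 : Matrix.trace (x : Matrix ι ι F) = - Matrix.trace (x : Matrix ι ι F) := by
    conv_lhs => rw [h1]
    rw [neg_mul, Matrix.trace_neg, Matrix.trace_mul_comm, mul_assoc, iv, mul_one]
  have h4 : (2 : F) * Matrix.trace (x : Matrix ι ι F) = 0 := by
    rw [two_mul]
    nth_rewrite 1 [h3]
    ring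
  exact (mul_eq_zero.1 h4).resolve_left h2

/-- the hypotheses of the symplectic-type case -/
structure C6Hyp (f : (ι → F) → (ι → F) → F) (H N : Subgroup (GL ι F)) : Prop where
  form : IsSymplecticForm f
  fixes : FixesForm (matrixSet H) f
  le : N ≤ H
  norm : Nz H N
  nonscalar : ¬ N ≤ scalars ι F
  comm : ⁅N, N⁆ ≤ scalars ι F
  dich : ∀ T : Subgroup (GL ι F), T ≤ H → Nz H T →
    T ≤ scalars ι F ∨ ActsAbsolutelyIrreducibly (matrixSet T)

theorem sp_c6 [Fintype F] [Nonempty ι] {N : Subgroup (GL ι F)} (h : C6Hyp f H N) :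
    AltSub f H ∨ AltC6 f H := by
  classical
  obtain ⟨h2, hsymp, hcen, ⟨k, hk⟩, hsc, hanti⟩ :=
    c6_structure h.form h.fixes h.le h.norm h.nonscalar h.comm h.dich
  have habs : ActsAbsolutelyIrreducibly (matrixSet N) := (h.dich N h.le h.norm).resolve_left h.nonscalar
  have hNf : FixesForm (matrixSet N) f := fixes_mono h.fixes h.le
  have hcard := c6_card habs h.comm
  have hsc2 : (scalars ι F).subgroupOf N = Subgroup.center N := by
    ext x
    rw [Subgroup.mem_subgroupOf, Subgroup.mem_center_iff]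
    constructor
    · intro hx y
      apply Subtype.ext
      exact (Subgroup.mem_center_iff.1 (scalars_le_center hx) (y : GL ι F))
    · intro hx
      apply Cfsg.Agent.Lib.Helper7C6Asm.mem_scalars_of_comm habs
      intro y hy
      exact (congrArg Subtype.val (hx ⟨y, hy⟩)).symm
  rw [hsc2, hcen, hk] at hcard
  have hn : Fintype.card ι = 2 ^ k := by
    have h1 : (2 ^ k) ^ 2 = Fintype.card ι ^ 2 := by
      have : 2 ^ (1 + 2 * k) = 2 * (2 ^ k) ^ 2 := by ring
      rw [this] at hcard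
      omega
    exact (Nat.pow_left_injective (n := 2) (by norm_num) h1).symm
  by_cases hbot : (⊥ : Subfield F) = ⊤
  · right
    obtain ⟨p, hp⟩ := CharP.exists F
    have hpp : Fact p.Prime := ⟨CharP.char_is_prime F p⟩
    have hF : Fintype.card F = p := by
      rw [← Subfield.card_bot F p, hbot, Fintype.card_eq_nat_card]
      exact (Nat.card_congr (Subfield.topEquiv (K := F)).toEquiv).symm
    have hodd : Odd p := by
      rcases hpp.out.eq_two_or_odd' with rfl | h
      · exact absurd (CharTwo.two_eq_zero) h2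
      · exact h
    exact ⟨N, p, k, hsymp, habs, le_similarityGroup_of_fixes' hNf, hpp.out, hodd, hF, hk, hcen,
      c6_minus h2 h.form hNf habs h.comm hn, hn, le_normalizer_of_Nz h.norm, hNf, h.comm⟩
  · left
    have hnF : ((Fintype.card ι : ℕ) : F) ≠ 0 := by
      rw [hn]
      push_cast
      exact pow_ne_zero _ h2
    have htr : ∀ x ∈ N, x ∉ scalars ι F → Matrix.trace (x : Matrix ι ι F) = 0 := by
      intro x hx hxs
      obtain ⟨y, _, hy⟩ := hanti x hx hxs
      exact trace_eq_zero_of_anti h2 hy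
    exact sp_subfield h.form h.norm hNf habs hbot (c6_realisable habs hnF h2 hsc htr)

/-! ### the tensor-induced case -/

/-- the `i`-th factor embedding as an algebra homomorphism -/
noncomputable def factorHom {k m : ℕ} (i : Fin k) :
    Matrix (Fin m) (Fin m) F →ₐ[F] Matrix (Fin k → Fin m) (Fin k → Fin m) F :=
  AlgHom.ofLinearMap
    { toFun := factor i
      map_add' := Cfsg.Agent.Lib.Helper58GWnorm.factor_add i
      map_smul' := Cfsg.Agent.Lib.Helper58GWnorm.factor_smul i }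
    (Cfsg.Agent.Lib.Helper58GWnorm.factor_one i) (Cfsg.Agent.Lib.Helper58GWnorm.factor_mul i)

noncomputable def facHom {k m : ℕ} (e : ι ≃ (Fin k → Fin m)) (P : GL ι F) (i : Fin k) :
    Matrix (Fin m) (Fin m) F →ₐ[F] Matrix ι ι F :=
  (((Matrix.reindexAlgEquiv F F e.symm).trans (conjAlg P)).toAlgHom).comp (factorHom i)

lemma facHom_apply {k m : ℕ} (e : ι ≃ (Fin k → Fin m)) (P : GL ι F) (i : Fin k)
    (a : Matrix (Fin m) (Fin m) F) : facHom e P i a = fac e P i a := rfl

theorem sp_c7 [Fintype F] [Nonempty ι] (hf : IsSymplecticForm f) (hH : FixesForm (matrixSet H) f)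
    (hirr : ActsIrreducibly (matrixSet H)) {N T : Subgroup (GL ι F)} (hNH : N ≤ H) (hTN : T ≤ N)
    (habsN : ActsAbsolutelyIrreducibly (matrixSet N)) (hTnorm : Nz N T)
    (hTs : ¬ T ≤ scalars ι F) (hTperf : ⁅T, T⁆ = T)
    (hconj : ∀ h ∈ H, cj h T = T ∨ ∀ x ∈ T, ∀ y ∈ cj h T, x * y = y * x)
    (hsup : (⨆ h : H, cj (h : GL ι F) T) = N) (hex : ∃ h ∈ H, cj h T ≠ T) : SpAlt f H := by
  obtain ⟨k, m, e, P, hh, hm, hk, hle, henv⟩ :=
    Cfsg.Agent.Lib.Helper58GC7.c7_data habsN hTnorm hTs hconj hsup hex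
  have hcjH : ∀ i, cj (hh i : GL ι F) T ≤ H := by
    intro i x hx
    have h1 := hNH (hTN (mem_cj.1 hx))
    have h2 : x = (hh i : GL ι F) * ((hh i : GL ι F)⁻¹ * x * (hh i : GL ι F)) * (hh i : GL ι F)⁻¹ := by group
    rw [h2]
    exact H.mul_mem (H.mul_mem (hh i).2 h1) (H.inv_mem (hh i).2)
  have hadj : ∀ (i : Fin k) (a : Matrix (Fin m) (Fin m) F), ∃ a' : Matrix (Fin m) (Fin m) F,
      IsAdj f (fac e P i a) (fac e P i a') := by
    intro i a
    obtain ⟨b, hb, hab⟩ := adjClosed_env hf.bilinear (fixes_mono hH (hcjH i)) _ ((henv i _).2 ⟨a, rfl⟩)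
    obtain ⟨a', rfl⟩ := (henv i _).1 hb
    exact ⟨a', hab⟩
  obtain ⟨G, hGu, hG⟩ :=
    Cfsg.Agent.Lib.Helper57SpWrform.wr_form hf.bilinear hf.nondegenerate (by omega) e P hadj
  have htrans : ∀ i j : Fin k, ∃ h ∈ H, ∀ a : Matrix (Fin m) (Fin m) F, ∃ b : Matrix (Fin m) (Fin m) F,
      (h : Matrix ι ι F) * fac e P i a * ((h⁻¹ : GL ι F) : Matrix ι ι F) = fac e P j b := by
    intro i j
    refine ⟨(hh j : GL ι F) * (hh i : GL ι F)⁻¹, H.mul_mem (hh j).2 (H.inv_mem (hh i).2), fun a => ?_⟩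
    have h1 : fac e P i a ∈ env (cj (hh i : GL ι F) T) := (henv i _).2 ⟨a, rfl⟩
    have h2 := conj_mem_env_cj (g := (hh j : GL ι F) * (hh i : GL ι F)⁻¹) h1
    rw [cj_cj, inv_mul_cancel_right] at h2
    exact (henv j _).1 h2
  by_cases ho : Odd (Fintype.card F)
  · have hns : ¬ (Fintype.card F = 3 ∧ m = 2) := by
      rintro ⟨h3, rfl⟩
      have i0 : Fin k := ⟨0, by omega⟩
      have hperf : ⁅cj (hh i0 : GL ι F) T, cj (hh i0 : GL ι F) T⁆ = cj (hh i0 : GL ι F) T := by
        unfold cj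
        rw [← Subgroup.map_commutator, hTperf]
      have hbot := Cfsg.Agent.Lib.Helper74SpGl23.perfect_in_m2_f3 h3 (facHom e P i0)
        (cj (hh i0 : GL ι F) T) (fun t ht => by
          obtain ⟨a, ha⟩ := (henv i0 _).1 (val_mem_env ht)
          exact ⟨a, by rw [ha]; rfl⟩) hperf
      apply hTs
      intro t ht
      have : (hh i0 : GL ι F) * t * (hh i0 : GL ι F)⁻¹ ∈ cj (hh i0 : GL ι F) T := by
        rw [mem_cj]
        have e1 : (hh i0 : GL ι F)⁻¹ * ((hh i0 : GL ι F) * t * (hh i0 : GL ι F)⁻¹) * (hh i0 : GL ι F) = t := by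
          group
        rwa [e1]
      rw [hbot, Subgroup.mem_bot] at this
      have ht1 : t = 1 := by
        have e2 : t = (hh i0 : GL ι F)⁻¹ * ((hh i0 : GL ι F) * t * (hh i0 : GL ι F)⁻¹) * (hh i0 : GL ι F) := by
          group
        rw [e2, this]
        group
      rw [ht1]
      exact Subgroup.one_mem _
    exact altWreath ho (sp_wreath_odd (two_ne_zero_of_odd ho) hf hH hm hk e P hle htrans hns G hGu hG)
  · exact altQuad ho (sp_wreath_even (two_eq_zero_of_not_odd ho) hf hH hirr hm hk e P hle htrans G hGu hG)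

/-! ### the main theorem -/

/-- `core_general` in the vocabulary of `Helper97GCore`. -/
theorem core_general' {𝔾 : Type*} [Group 𝔾] [Finite 𝔾] (Z : Subgroup 𝔾) (hZ : Z ≤ Subgroup.center 𝔾)
    (H : Subgroup 𝔾) (hns : ¬ H ≤ Z) :
    ∃ N : Subgroup 𝔾, N ≤ H ∧ NzG H N ∧ ¬ N ≤ Z ∧
      (∀ N' : Subgroup 𝔾, N' ≤ N → NzG H N' → N' ≤ Z ∨ N' = N) ∧
      (⁅N, N⁆ ≤ Z ∨ (⁅N, N⁆ = N ∧ ∃ T : Subgroup 𝔾, T ≤ N ∧ NzG N T ∧ ¬ T ≤ Z ∧ ⁅T, T⁆ = T ∧
        (∀ T' : Subgroup 𝔾, T' ≤ T → NzG N T' → T' ≤ Z ∨ T' = T) ∧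
        (∀ h ∈ H, cj h T = T ∨ ∀ x ∈ T, ∀ y ∈ cj h T, x * y = y * x) ∧
        (⨆ h : H, cj (h : 𝔾) T) = N)) :=
  Cfsg.Agent.Lib.Helper67AschCore.core_general Z hZ H hns

/-- **Aschbacher's theorem for the symplectic groups**. -/
theorem sp_main [Fintype F] [Nonempty ι] (hf : IsSymplecticForm f) (hH : FixesForm (matrixSet H) f) :
    SpAlt f H ∨ InSymplecticResidualClass H := by
  by_cases hgeo : SpAlt f H
  · exact Or.inl hgeo
  have hirr : ActsIrreducibly (matrixSet H) := by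
    by_contra hirr
    rcases Cfsg.Agent.Lib.Helper97SpRed.sp_reducible hf hH hirr with h | h | h
    · exact hgeo (altTS h)
    · exact hgeo (altND h)
    · exact hgeo (altDec h)
  have hdich := sp_dichotomy hf hH hirr hgeo
  have hn : 2 ≤ Fintype.card ι := by
    have h0 : 0 < Fintype.card ι := Fintype.card_pos
    by_contra hcon
    have h1 : Fintype.card ι = 1 := by omega
    exact Cfsg.Agent.Lib.Helper97GForms.no_symplectic (by rw [h1]; exact odd_one) f hf
  have hns : ¬ H ≤ scalars ι F := fun h => not_irred_of_le_scalars hn h hirr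
  obtain ⟨N, hNH, hnorm, hNs, hmin, hcase⟩ := core_general' (scalars ι F) scalars_le_center H hns
  have habs : ActsAbsolutelyIrreducibly (matrixSet N) :=
    (hdich N (fixes_mono hH hNH) hnorm).resolve_left hNs
  rcases hcase with hcomm | ⟨hperf, T, hTN, hTnorm, hTs, hTperf, hTmin, hTconj, hsup⟩
  · exfalso
    rcases sp_c6 (⟨hf, hH, hNH, hnorm, hNs, hcomm, fun T hT hTn => hdich T (fixes_mono hH hT) hTn⟩ :
      C6Hyp f H N) with h | h
    · exact hgeo (altSub h)
    · exact hgeo (altC6 h)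
  by_cases hall : ∀ h ∈ H, cj h T = T
  swap
  · push Not at hall
    exact absurd (sp_c7 hf hH hirr hNH hTN habs hTnorm hTs hTperf hTconj hsup hall) hgeo
  have hTN' : T = N := by
    rw [← hsup]
    apply le_antisymm
    · exact le_iSup_of_le (1 : H) (by simp [cj_one])
    · apply iSup_le
      intro h
      rw [hall h h.2]
  subst hTN'
  rcases sp_simple hf hH hNH hnorm habs hTperf hTs hTmin with h | ⟨ho, h⟩ | h
  · exact absurd (altSub h) hgeo
  · exact absurd (altQuad ho h) hgeo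
  · exact Or.inr h

end Cfsg.Agent.Lib.Helper96SpMain
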