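import Cfsg.Agent.Lib.Helper96SpxDefs

set_option autoImplicit false
set_option linter.unusedSectionVars false

/-! project 97: pieces `Bnd`, `orth`, `bigB`, `func`, `ktv`, `eich`, `rootconj` -/

namespace Cfsg.Agent.Lib.Helper96SpxBasic

open Module Cfsg.Agent.Lib.Helper96ExtDefs Cfsg.Agent.Lib.Helper96SpxDefs

section KFree
variable {F V : Type*} [Field F] [AddCommGroup V] [Module F V] [Finite F] [Finite V]
variable {G : Subgroup (Module.End F V)ˣ} {B : LinearMap.BilinForm F V}

/-- piece `rootconj` -/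
theorem rootS_conj (hiso : IsoG B G) {P : Submodule F V} {T : Submodule F (Module.End F V)}
    (h : RootS B G P T) {g : (Module.End F V)ˣ} (hg : g ∈ G) :
    RootS B G (P.map (g : Module.End F V)) (T.map (conjL g)) := by
  have hmem : ∀ x, x ∈ P.map (g : Module.End F V) ↔
      ((g⁻¹ : (Module.End F V)ˣ) : Module.End F V) x ∈ P := by
    intro x
    constructor
    · rintro ⟨y, hy, rfl⟩
      rw [unit_inv_apply]
      exact hy
    · intro hx
      exact ⟨_, hx, unit_apply_inv g x⟩
  have hB : ∀ v y, B (((g⁻¹ : (Module.End F V)ˣ) : Module.End F V) v) y = B v ((g : Module.End F V) y) := by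
    intro v y
    rw [← hiso g hg, unit_apply_inv]
  refine ⟨?_, ?_, ?_, ?_, ?_, ?_⟩
  · rintro _ ⟨ν, hν, rfl⟩
    have := (h.inG ν hν).conj hg
    convert this using 1
    rw [conjL_apply, mul_add, add_mul, mul_one, Units.mul_inv]
  · rintro _ ⟨ν, hν, rfl⟩ v
    exact ⟨_, h.range ν hν _, rfl⟩
  · rintro _ ⟨ν, hν, rfl⟩ v hv
    rw [conjL_apply, Module.End.mul_apply, Module.End.mul_apply, h.ker ν hν _ ?_, map_zero]
    intro y hy
    rw [hB]
    exact hv _ (Submodule.mem_map_of_mem hy)
  · rintro x ⟨y₀, hy₀, hxy⟩ y hy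
    obtain ⟨ν, hν, hνx⟩ := h.trans (((g⁻¹ : (Module.End F V)ˣ) : Module.End F V) x)
      ⟨_, (hmem y₀).mp hy₀, by rw [hB, unit_apply_inv]; exact hxy⟩ _ ((hmem y).mp hy)
    refine ⟨_, ⟨ν, hν, rfl⟩, ?_⟩
    rw [conjL_apply, Module.End.mul_apply, Module.End.mul_apply, hνx, unit_apply_inv]
  · rintro _ ⟨ν, hν, rfl⟩ hne y hy
    have hν0 : ν ≠ 0 := by
      rintro rfl
      exact hne (map_zero _)
    obtain ⟨x, hx⟩ := h.onto ν hν hν0 _ ((hmem y).mp hy)
    refine ⟨(g : Module.End F V) x, ?_⟩
    rw [conjL_apply, Module.End.mul_apply, Module.End.mul_apply, unit_inv_apply, hx, unit_apply_inv]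
  · rintro _ ⟨x, hx, rfl⟩ _ ⟨y, hy, rfl⟩
    rw [hiso g hg]
    exact h.iso x hx y hy

end KFree

variable {F K V : Type*} [Field F] [Field K] [Algebra F K] [AddCommGroup V] [Module F V] [Module K V]
  [IsScalarTower F K V] [Finite F] [Finite K] [Finite V]
variable {G : Subgroup (Module.End F V)ˣ} {B : LinearMap.BilinForm F V}
  {BK : LinearMap.BilinForm K V} {τ : K →ₗ[F] F}

/-- piece `Bnd` -/
theorem B_nd (hD : SpData B BK τ) : ∀ x, (∀ y, B x y = 0) → x = 0 := by
  intro x hx
  apply hD.nd
  intro y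
  by_contra hne
  obtain ⟨k, hk⟩ := hD.tau _ hne
  apply hk
  rw [← hD.B_smul_right]
  exact hx _

/-- piece `orth` -/
theorem orth_pt (hD : SpData B BK τ) (a v : V) : (∀ y ∈ pt F K a, B v y = 0) ↔ BK v a = 0 := by
  constructor
  · intro h
    by_contra hne
    obtain ⟨k, hk⟩ := hD.tau _ hne
    apply hk
    rw [← hD.B_smul_right]
    exact h _ (smul_mem_pt k a)
  · intro h y hy
    obtain ⟨k, rfl⟩ := mem_pt.mp hy
    rw [hD.B_smul_right, h, mul_zero, map_zero]

/-- piece `bigB` -/
theorem bigB_of_bigS (hnd : ∀ x, (∀ y, B x y = 0) → x = 0) (h : BigS K B G) : BigB K B G := by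
  intro f hfK hfB
  have hinj : Function.Injective f := by
    rw [injective_iff_map_eq_zero]
    intro x hx
    apply hnd
    intro y
    rw [← hfB, hx, map_zero, LinearMap.zero_apply]
  have hker : LinearMap.ker f = ⊥ := LinearMap.ker_eq_bot.mpr hinj
  let e : V ≃ₗ[F] V := LinearEquiv.ofInjectiveEndo f hinj
  let u : (Module.End F V)ˣ := (LinearMap.GeneralLinearGroup.generalLinearEquiv F V).symm e
  have hu : (u : Module.End F V) = f := by
    ext x
    rfl
  refine ⟨u, h u ?_ ?_, hu⟩
  · rw [hu]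
    exact hfK
  · rw [hu]
    exact hfB

/-- piece `func` -/
theorem exists_func (hD : SpData B BK τ) (φ : Module.Dual K V) : ∃ b : V, ∀ v, φ v = BK v b := by
  have hinj : Function.Injective (BK.flip : V →ₗ[K] Module.Dual K V) := by
    rw [injective_iff_map_eq_zero]
    intro b hb
    apply hD.nd
    intro y
    rw [hD.K_swap]
    have := congrArg (fun f : Module.Dual K V => f y) hb
    simp only [LinearMap.BilinForm.flip_apply, LinearMap.zero_apply] at this
    rw [this, neg_zero]
  have hsurj : Function.Surjective (BK.flip : V →ₗ[K] Module.Dual K V) :=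
    (LinearMap.injective_iff_surjective_of_finrank_eq_finrank (Subspace.dual_finrank_eq).symm).mp hinj
  obtain ⟨b, hb⟩ := hsurj φ
  refine ⟨b, fun v => ?_⟩
  rw [← hb, LinearMap.BilinForm.flip_apply]

/-- piece `ktv` -/
theorem ktv (hD : SpData B BK τ) (hbig : BigK BK G) (a : V) (k : K) :
    InG G (1 + rk F (k • BK.flip a) a) := by
  apply hbig
  · intro c v
    simp only [LinearMap.add_apply, Module.End.one_apply, rk_apply, LinearMap.smul_apply,
      LinearMap.BilinForm.flip_apply, map_smul, smul_eq_mul, smul_add, smul_smul, mul_left_comm]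
  · intro x y
    have h1 := hD.K_swap a y
    simp only [LinearMap.add_apply, Module.End.one_apply, rk_apply, LinearMap.smul_apply,
      LinearMap.BilinForm.flip_apply, map_add, map_smul, smul_eq_mul, hD.alt a, h1]
    ring

/-- piece `eich` -/
theorem eich (hD : SpData B BK τ) (hbig : BigK BK G) {a b : V} (hab : BK a b = 0) :
    InG G (1 + rk F (BK.flip a) b + rk F (BK.flip b) a) := by
  have hba : BK b a = 0 := by rw [hD.K_swap, hab, neg_zero]
  apply hbig
  · intro c v
    simp only [LinearMap.add_apply, Module.End.one_apply, rk_apply,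
      LinearMap.BilinForm.flip_apply, map_smul, LinearMap.smul_apply, smul_eq_mul, smul_add, smul_smul]
  · intro x y
    have h1 := hD.K_swap a y
    have h2 := hD.K_swap b y
    simp only [LinearMap.add_apply, Module.End.one_apply, rk_apply,
      LinearMap.BilinForm.flip_apply, map_add, map_smul, LinearMap.smul_apply, smul_eq_mul, hD.alt a, hD.alt b, hab, hba,
      h1, h2]
    ring

end Cfsg.Agent.Lib.Helper96SpxBasic
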