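import Cfsg.Agent.Lib.Helper96SpxDefs

set_option autoImplicit false
set_option linter.unusedSectionVars false

/-! project 97: pieces `dsq`, `requiv`, `rmap` -/

namespace Cfsg.Agent.Lib.Helper96SpxBasic2

open Module Cfsg.Agent.Lib.Helper96ExtDefs Cfsg.Agent.Lib.Helper96SpxDefs

variable {F V : Type*} [Field F] [AddCommGroup V] [Module F V] [Finite F] [Finite V]
variable {G : Subgroup (Module.End F V)ˣ} {B : LinearMap.BilinForm F V}

lemma two_eq_zero_of_card (hF : Nat.card F = 2) : (2 : F) = 0 := by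
  have := Fintype.ofFinite F
  have h : ((Fintype.card F : ℕ) : F) = 0 := Nat.cast_card_eq_zero F
  rw [← Nat.card_eq_fintype_card, hF] at h
  exact_mod_cast h

lemma tsq (hF : Nat.card F = 2) (hself : ∀ x, B x x = 0) (x : V) :
    (1 + sq B x) * (1 + sq B x) = 1 := by
  have h2 := two_eq_zero_of_card hF
  ext v
  simp only [Module.End.mul_apply, LinearMap.add_apply, Module.End.one_apply, sq_apply, map_add, map_smul,
    hself, smul_eq_mul, mul_zero, add_zero, zero_smul]
  rw [add_assoc, ← add_smul, ← two_mul, h2, zero_mul, zero_smul, add_zero]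

/-- piece `requiv` (`q = 2`) -/
theorem eqv_equiv (hF : Nat.card F = 2) (hself : ∀ x, B x x = 0) :
    (∀ x, Eqv B G x x) ∧ (∀ x y, Eqv B G x y → Eqv B G y x) ∧
      ∀ x y z, Eqv B G x y → Eqv B G y z → Eqv B G x z := by
  refine ⟨?_, ?_, ?_⟩
  · intro x
    unfold Eqv
    rw [tsq hF hself]
    exact InG.one
  · intro x y h
    apply InG.of_mul_eq_one h
    rw [mul_assoc, ← mul_assoc (1 + sq B y), tsq hF hself, one_mul, tsq hF hself]
  · intro x y z h1 h2
    have := h1.mul h2
    unfold Eqv
    rwa [mul_assoc, ← mul_assoc (1 + sq B y), tsq hF hself, one_mul] at this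

/-- piece `rmap` -/
theorem eqv_map (hiso : IsoG B G) {g : (Module.End F V)ˣ} (hg : g ∈ G) {x y : V}
    (h : Eqv B G x y) : Eqv B G ((g : Module.End F V) x) ((g : Module.End F V) y) := by
  have h1 := InG.conj h hg
  unfold Eqv
  convert h1 using 1
  have hB : ∀ a v, B ((g : Module.End F V) a) v = B a (((g⁻¹ : (Module.End F V)ˣ) : Module.End F V) v) := by
    intro a v
    rw [← hiso g hg a, unit_apply_inv]
  ext v
  simp only [Module.End.mul_apply, LinearMap.add_apply, Module.End.one_apply, sq_apply, map_add, map_smul,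
    hB, unit_apply_inv, unit_inv_apply]

/-- piece `dsq` -/
theorem exists_sq_sub (x : F) : ∃ s t : F, x = s * s - t * t := by
  by_cases h2 : (2 : F) = 0
  · have : CharP F 2 := CharTwo.of_one_ne_zero_of_two_eq_zero one_ne_zero h2
    have := Fintype.ofFinite F
    obtain ⟨s, hs⟩ := (FiniteField.isSquare_of_char_two (CharP.ringChar_of_prime_eq_zero Nat.prime_two h2) x)
    exact ⟨s, 0, by rw [hs]; ring⟩
  · refine ⟨(x + 1) / 2, (x - 1) / 2, ?_⟩
    field_simp
    ring

end Cfsg.Agent.Lib.Helper96SpxBasic2
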