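import Cfsg.Agent.Lib.Helper96ExtDefs

set_option autoImplicit false
set_option linter.unusedSectionVars false

/-! # Overgroups of `Sp_{m'}(K)` in `Sp_{m'r}(F)`: vocabulary (project 97, S5664)

`F ⊆ K` fields, `V` a `K`-space, `B` an alternating `F`-form on `V`, `BK` an alternating `K`-form with
`B = τ ∘ BK`.  `G` is a subgroup of the units of `End_F V`. -/

namespace Cfsg.Agent.Lib.Helper96SpxDefs

open Module Cfsg.Agent.Lib.Helper96ExtDefs

variable {F K V : Type*} [Field F] [Field K] [Algebra F K] [AddCommGroup V] [Module F V] [Module K V]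
  [IsScalarTower F K V]

/-- `B = τ ∘ BK` with `BK` a nondegenerate alternating `K`-form and `τ` a nonzero functional -/
structure SpData (B : LinearMap.BilinForm F V) (BK : LinearMap.BilinForm K V) (τ : K →ₗ[F] F) : Prop where
  tr : ∀ x y, B x y = τ (BK x y)
  alt : BK.IsAlt
  nd : ∀ x, (∀ y, BK x y = 0) → x = 0
  tau : ∀ c : K, c ≠ 0 → ∃ k : K, τ (k * c) ≠ 0

namespace SpData
variable {B : LinearMap.BilinForm F V} {BK : LinearMap.BilinForm K V} {τ : K →ₗ[F] F}

lemma K_swap (h : SpData B BK τ) (x y : V) : BK x y = - BK y x := by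
  have := h.alt.neg_eq x y
  rw [← this, neg_neg]

lemma B_self (h : SpData B BK τ) (x : V) : B x x = 0 := by rw [h.tr, h.alt x, map_zero]

lemma B_swap (h : SpData B BK τ) (x y : V) : B x y = - B y x := by
  rw [h.tr, h.tr, h.K_swap x y, map_neg]

lemma B_smul_left (h : SpData B BK τ) (k : K) (x y : V) : B (k • x) y = τ (k * BK x y) := by
  rw [h.tr, map_smul, LinearMap.smul_apply, smul_eq_mul]

lemma B_smul_right (h : SpData B BK τ) (k : K) (x y : V) : B x (k • y) = τ (k * BK x y) := by
  rw [h.tr, map_smul, smul_eq_mul]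

lemma B_smul_self (h : SpData B BK τ) (k : K) (x : V) : B (k • x) x = 0 := by
  rw [h.B_smul_left, h.alt x, mul_zero, map_zero]

end SpData

/-- `G` contains every `K`-linear isometry of `B` -/
def BigS (K : Type*) {F V : Type*} [Field F] [Field K] [Algebra F K] [AddCommGroup V] [Module F V]
    [Module K V] [IsScalarTower F K V] (B : LinearMap.BilinForm F V) (G : Subgroup (Module.End F V)ˣ) :
    Prop :=
  ∀ g : (Module.End F V)ˣ,
    (∀ (k : K) (v : V), (g : Module.End F V) (k • v) = k • (g : Module.End F V) v) →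
    (∀ x y, B ((g : Module.End F V) x) ((g : Module.End F V) y) = B x y) → g ∈ G

/-- every `K`-linear endomorphism preserving `B` is in `G` -/
def BigB (K : Type*) {F V : Type*} [Field F] [Field K] [Algebra F K] [AddCommGroup V] [Module F V]
    [Module K V] [IsScalarTower F K V] (B : LinearMap.BilinForm F V) (G : Subgroup (Module.End F V)ˣ) :
    Prop :=
  ∀ f : Module.End F V, (∀ (k : K) (v : V), f (k • v) = k • f v) →
    (∀ x y, B (f x) (f y) = B x y) → InG G f

/-- every `K`-linear endomorphism preserving `BK` is in `G` -/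
def BigK (BK : LinearMap.BilinForm K V) (G : Subgroup (Module.End F V)ˣ) : Prop :=
  ∀ f : Module.End F V, (∀ (k : K) (v : V), f (k • v) = k • f v) →
    (∀ x y, BK (f x) (f y) = BK x y) → InG G f

/-- `G` consists of isometries of `B` -/
def IsoG (B : LinearMap.BilinForm F V) (G : Subgroup (Module.End F V)ˣ) : Prop :=
  ∀ g ∈ G, ∀ x y, B ((g : Module.End F V) x) ((g : Module.End F V) y) = B x y

/-- `T` is a "symplectic root space" for the totally isotropic subspace `P` -/
structure RootS (B : LinearMap.BilinForm F V) (G : Subgroup (Module.End F V)ˣ) (P : Submodule F V)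
    (T : Submodule F (Module.End F V)) : Prop where
  inG : ∀ ν ∈ T, InG G (1 + ν)
  range : ∀ ν ∈ T, ∀ v, ν v ∈ P
  ker : ∀ ν ∈ T, ∀ v, (∀ y ∈ P, B v y = 0) → ν v = 0
  trans : ∀ x, (∃ y ∈ P, B x y ≠ 0) → ∀ y ∈ P, ∃ ν ∈ T, ν x = y
  onto : ∀ ν ∈ T, ν ≠ 0 → ∀ y ∈ P, ∃ x, ν x = y
  iso : ∀ x ∈ P, ∀ y ∈ P, B x y = 0

/-- the root space of the `K`-point `K a`: the maps `v ↦ k * BK v a • a` -/
def TS (F : Type*) {K V : Type*} [Field F] [Field K] [Algebra F K] [AddCommGroup V] [Module F V]
    [Module K V] [IsScalarTower F K V] (BK : LinearMap.BilinForm K V) (a : V) :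
    Submodule F (Module.End F V) where
  carrier := {ν | ∃ k : K, ν = rk F (k • BK.flip a) a}
  add_mem' := by
    rintro _ _ ⟨k, rfl⟩ ⟨k', rfl⟩
    refine ⟨k + k', ?_⟩
    ext v
    simp [add_smul]
  zero_mem' := ⟨0, by ext v; simp⟩
  smul_mem' := by
    rintro c _ ⟨k, rfl⟩
    refine ⟨algebraMap F K c * k, ?_⟩
    ext v
    simp [mul_smul]

/-- `v ↦ B x v • x` -/
def sq (B : LinearMap.BilinForm F V) (x : V) : Module.End F V := (B x).smulRight x

@[simp] lemma sq_apply (B : LinearMap.BilinForm F V) (x v : V) : sq B x v = B x v • x := rfl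

/-- `v ↦ B y v • x + B x v • y` -/
def alt2 (B : LinearMap.BilinForm F V) (x y : V) : Module.End F V :=
  (B y).smulRight x + (B x).smulRight y

@[simp] lemma alt2_apply (B : LinearMap.BilinForm F V) (x y v : V) :
    alt2 B x y v = B y v • x + B x v • y := rfl

/-- `t_x t_y ∈ G` (used for `|F| = 2`) -/
def Eqv (B : LinearMap.BilinForm F V) (G : Subgroup (Module.End F V)ˣ) (x y : V) : Prop :=
  InG G ((1 + sq B x) * (1 + sq B y))

end Cfsg.Agent.Lib.Helper96SpxDefs
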