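import Cfsg.Agent.Lib.Helper96SpxDefs

set_option autoImplicit false

namespace Cfsg.Agent.Lib.Helper97Spxdform

open Module Cfsg.Agent.Lib.Helper96ExtDefs Cfsg.Agent.Lib.Helper96SpxDefs

variable {F V : Type*} [Field F] [AddCommGroup V] [Module F V] [Finite F] [Finite V]
variable {G : Subgroup (Module.End F V)ˣ} {B : LinearMap.BilinForm F V}

/-- piece `dform` -/
theorem tv_form (hiso : IsoG B G) (hsk : ∀ x y, B x y = - B y x)
    (hnd : ∀ x, (∀ y, B x y = 0) → x = 0) {ψ : Module.Dual F V} {w : V} (hψ : ψ ≠ 0) (hw : w ≠ 0)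
    (h : InG G (1 + ψ.smulRight w)) : ∃ c : F, c ≠ 0 ∧ ψ = c • B.flip w := by
  obtain ⟨g, hg, hgw⟩ := h
  have key : ∀ v v', ψ v' * B v w + ψ v * B w v' + ψ v * ψ v' * B w w = 0 := by
    intro v v'
    have := hiso g hg v v'
    rw [hgw] at this
    simp only [LinearMap.add_apply, Module.End.one_apply, LinearMap.smulRight_apply, map_add, map_smul,
      LinearMap.smul_apply, smul_eq_mul] at this
    linear_combination this
  obtain ⟨v₀, hv₀⟩ : ∃ v₀, ψ v₀ ≠ 0 := by
    by_contra hcon
    push Not at hcon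
    exact hψ (LinearMap.ext hcon)
  have hww : B w w = 0 := by
    have h1 := key v₀ v₀
    have h2 := hsk v₀ w
    rw [h2] at h1
    have h3 : ψ v₀ * ψ v₀ * B w w = 0 := by linear_combination h1
    rcases mul_eq_zero.1 h3 with h4 | h4
    · exact absurd (mul_self_eq_zero.1 h4) hv₀
    · exact h4
  have key2 : ∀ v v', ψ v' * B v w = ψ v * B v' w := by
    intro v v'
    have h1 := key v v'
    rw [hww, hsk w v'] at h1
    linear_combination h1
  have hB0 : B v₀ w ≠ 0 := by
    intro h0
    apply hw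
    apply hnd
    intro y
    have h1 := key2 y v₀
    rw [h0, mul_zero] at h1
    rcases mul_eq_zero.1 h1 with h2 | h2
    · exact absurd h2 hv₀
    · rw [hsk, h2, neg_zero]
  refine ⟨ψ v₀ / B v₀ w, div_ne_zero hv₀ hB0, ?_⟩
  ext v
  simp only [LinearMap.smul_apply, LinearMap.BilinForm.flip_apply, smul_eq_mul]
  have h1 := key2 v v₀
  field_simp
  linear_combination -h1

end Cfsg.Agent.Lib.Helper97Spxdform
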