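import Cfsg.Agent.Lib.Helper96SpxDefs

set_option autoImplicit false

namespace Cfsg.Agent.Lib.Helper97Spxdmove

open Module Cfsg.Agent.Lib.Helper96ExtDefs Cfsg.Agent.Lib.Helper96SpxDefs

variable {F K V : Type*} [Field F] [Field K] [Algebra F K] [AddCommGroup V] [Module F V] [Module K V]
  [IsScalarTower F K V] [Finite F] [Finite K] [Finite V]
variable {G : Subgroup (Module.End F V)ˣ} {B : LinearMap.BilinForm F V}
  {BK : LinearMap.BilinForm K V} {τ : K →ₗ[F] F}

theorem move1 (hD : SpData B BK τ) (hktv : ∀ (a : V) (k : K), InG G (1 + rk F (k • BK.flip a) a))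
    {a b : V} (hab : BK a b ≠ 0) : ∃ g ∈ G, (g : Module.End F V) a = b := by
  obtain ⟨g, hg, hgw⟩ := hktv (a - b) (BK a b)⁻¹
  refine ⟨g, hg, ?_⟩
  rw [hgw]
  simp only [LinearMap.add_apply, Module.End.one_apply, rk_apply, LinearMap.smul_apply,
    LinearMap.BilinForm.flip_apply, smul_eq_mul]
  rw [map_sub, hD.alt a, zero_sub, mul_neg, inv_mul_cancel₀ hab]
  simp

/-- piece `dmove` -/
theorem moveS (hD : SpData B BK τ) (hktv : ∀ (a : V) (k : K), InG G (1 + rk F (k • BK.flip a) a))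
    {a b : V} (ha : a ≠ 0) (hb : b ≠ 0) : ∃ g ∈ G, (g : Module.End F V) a = b := by
  by_cases hab : BK a b = 0
  · obtain ⟨x, hx⟩ : ∃ x, BK a x ≠ 0 := by
      by_contra hcon
      push Not at hcon
      exact ha (hD.nd a hcon)
    obtain ⟨y, hy⟩ : ∃ y, BK b y ≠ 0 := by
      by_contra hcon
      push Not at hcon
      exact hb (hD.nd b hcon)
    obtain ⟨c, hc1, hc2⟩ : ∃ c, BK a c ≠ 0 ∧ BK b c ≠ 0 := by
      by_cases h1 : BK b x = 0
      · by_cases h2 : BK a y = 0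
        · exact ⟨x + y, by rw [map_add, h2, add_zero]; exact hx, by rw [map_add, h1, zero_add]; exact hy⟩
        · exact ⟨y, h2, hy⟩
      · exact ⟨x, hx, h1⟩
    obtain ⟨g1, hg1, e1⟩ := move1 hD hktv hc1
    have hc3 : BK c b ≠ 0 := by
      rw [hD.K_swap]
      exact neg_ne_zero.2 hc2
    obtain ⟨g2, hg2, e2⟩ := move1 hD hktv hc3
    refine ⟨g2 * g1, G.mul_mem hg2 hg1, ?_⟩
    rw [Units.val_mul, Module.End.mul_apply, e1, e2]
  · exact move1 hD hktv hab

end Cfsg.Agent.Lib.Helper97Spxdmove
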