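import Cfsg.Agent.Lib.Helper96SpxDefs

set_option autoImplicit false

namespace Cfsg.Agent.Lib.Helper97Spxproper

open Module Cfsg.Agent.Lib.Helper96ExtDefs Cfsg.Agent.Lib.Helper96SpxDefs

variable {F K V : Type*} [Field F] [Field K] [Algebra F K] [AddCommGroup V] [Module F V] [Module K V]
  [IsScalarTower F K V] [Finite F] [Finite K] [Finite V]
variable {G : Subgroup (Module.End F V)ˣ} {B : LinearMap.BilinForm F V}
  {BK : LinearMap.BilinForm K V} {τ : K →ₗ[F] F}

/-- piece `proper` -/
theorem properS (hr : 2 ≤ finrank F K) (hV : Nontrivial V) (hnd : ∀ x, (∀ y, B x y = 0) → x = 0)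
    (hsk : ∀ x y, B x y = - B y x) (halt : ∀ (k : K) (x : V), B (k • x) x = 0) :
    ∃ w : V, ¬ ∀ k : K, ∃ k' : K, ∀ v, (1 + (B.flip w).smulRight w : Module.End F V) (k • v) =
        k' • (1 + (B.flip w).smulRight w : Module.End F V) v := by
  obtain ⟨w, hw⟩ := exists_ne (0 : V)
  refine ⟨w, fun hall => ?_⟩
  obtain ⟨k, hk⟩ : ∃ k : K, k ∉ (algebraMap F K).range := by
    by_contra hcon
    push Not at hcon
    have hs : Function.Surjective (Algebra.linearMap F K) := by
      intro k
      obtain ⟨c, hc⟩ := hcon k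
      exact ⟨c, hc⟩
    have := LinearMap.finrank_le_finrank_of_surjective hs
    rw [finrank_self] at this
    omega
  obtain ⟨k', hk'⟩ := hall k
  have happ : ∀ v, (1 + (B.flip w).smulRight w : Module.End F V) v = v + B v w • w := by
    intro v
    simp only [LinearMap.add_apply, Module.End.one_apply, LinearMap.smulRight_apply,
      LinearMap.BilinForm.flip_apply]
  simp only [happ] at hk'
  have hww : B w w = 0 := by
    have := halt 1 w
    rwa [one_smul] at this
  have e1 : k = k' := by
    have h1 := hk' w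
    rw [halt, hww, zero_smul, add_zero, add_zero] at h1
    exact smul_left_injective K hw h1
  subst e1
  obtain ⟨v, hv⟩ : ∃ v, B v w ≠ 0 := by
    by_contra hcon
    push Not at hcon
    apply hw
    apply hnd
    intro y
    rw [hsk, hcon, neg_zero]
  have h2 := hk' v
  rw [smul_add, add_right_inj, ← algebraMap_smul K (B (k • v) w) w, ← algebraMap_smul K (B v w) w,
    smul_smul] at h2
  have h3 := smul_left_injective K hw h2
  apply hk
  refine ⟨B (k • v) w / B v w, ?_⟩
  rw [map_div₀, h3]
  have : algebraMap F K (B v w) ≠ 0 := by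
    rw [Ne, FaithfulSMul.algebraMap_eq_zero_iff]
    exact hv
  field_simp

end Cfsg.Agent.Lib.Helper97Spxproper
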