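import Cfsg.Agent.Lib.Helper96SpxDefs

set_option autoImplicit false

namespace Cfsg.Agent.Lib.Helper97Spxrep

open Module Cfsg.Agent.Lib.Helper96ExtDefs Cfsg.Agent.Lib.Helper96SpxDefs

variable {F K V : Type*} [Field F] [Field K] [Algebra F K] [AddCommGroup V] [Module F V] [Module K V]
  [IsScalarTower F K V] [Finite F] [Finite K] [Finite V]

/-- piece `rep` -/
theorem exists_rep (τ : K →ₗ[F] F) (hτ : ∀ c : K, c ≠ 0 → ∃ k : K, τ (k * c) ≠ 0) (l : K →ₗ[F] F) :
    ∃ c : K, ∀ z, l z = τ (c * z) := by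
  haveI : Module.Finite F K := Module.Finite.of_finite
  let Φ : K →ₗ[F] Module.Dual F K := (LinearMap.mul F K).compr₂ τ
  have hΦ : ∀ c z, Φ c z = τ (c * z) := fun c z => rfl
  have hinj : Function.Injective Φ := by
    rw [← LinearMap.ker_eq_bot, LinearMap.ker_eq_bot']
    intro c hc
    by_contra hc0
    obtain ⟨k, hk⟩ := hτ c hc0
    apply hk
    rw [mul_comm, ← hΦ, hc]
    rfl
  have hsurj : Function.Surjective Φ :=
    (LinearMap.injective_iff_surjective_of_finrank_eq_finrank (Subspace.dual_finrank_eq).symm).1 hinj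
  obtain ⟨c, hc⟩ := hsurj l
  exact ⟨c, fun z => by rw [← hΦ, hc]⟩

end Cfsg.Agent.Lib.Helper97Spxrep
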