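import Cfsg.Agent.Lib.Helper15Spxaltind
import Cfsg.Agent.Lib.Helper15Spxdata
import Cfsg.Agent.Lib.Helper15Spxmoveri
import Cfsg.Agent.Lib.Helper15Spxmoverii
import Cfsg.Agent.Lib.Helper15Spxq2w
import Cfsg.Agent.Lib.Helper15Spxrootpt
import Cfsg.Agent.Lib.Helper15Spxrseven
import Cfsg.Agent.Lib.Helper15Spxtorus
import Cfsg.Agent.Lib.Helper38Spxc1
import Cfsg.Agent.Lib.Helper38Spxc3a
import Cfsg.Agent.Lib.Helper38Spxdall
import Cfsg.Agent.Lib.Helper38Spxhyp
import Cfsg.Agent.Lib.Helper90Spxq2fin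
import Cfsg.Agent.Lib.Helper90SpxrcaseI
import Cfsg.Agent.Lib.Helper90SpxrcaseII
import Cfsg.Agent.Lib.Helper90Spxrpt
import Cfsg.Agent.Lib.Helper96SpxBasic
import Cfsg.Agent.Lib.Helper96SpxBasic2
import Cfsg.Agent.Lib.Helper97Spxdform
import Cfsg.Agent.Lib.Helper97Spxdmove
import Cfsg.Agent.Lib.Helper97Spxproper
import Cfsg.Agent.Lib.Helper97Spxrep
import Cfsg.Agent.Lib.Helper96ExtMain

set_option autoImplicit false
set_option linter.unusedSectionVars false

namespace Cfsg.Agent.Lib.Helper96SpxMain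

open Module Cfsg.Agent.Lib.Helper96ExtDefs Cfsg.Agent.Lib.Helper96SpxDefs
open Cfsg.Agent.Lib.Helper15Spxaltind (altind)
open Cfsg.Agent.Lib.Helper15Spxdata (exists_data)
open Cfsg.Agent.Lib.Helper15Spxmoveri (mover_i)
open Cfsg.Agent.Lib.Helper15Spxmoverii (mover_ii)
open Cfsg.Agent.Lib.Helper15Spxq2w (q2w)
open Cfsg.Agent.Lib.Helper15Spxrootpt (rootS_pt)
open Cfsg.Agent.Lib.Helper15Spxrseven (seven)
open Cfsg.Agent.Lib.Helper15Spxtorus (torus)
open Cfsg.Agent.Lib.Helper38Spxc1 (c1S)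
open Cfsg.Agent.Lib.Helper38Spxc3a (c3aS)
open Cfsg.Agent.Lib.Helper38Spxdall (all_stv)
open Cfsg.Agent.Lib.Helper38Spxhyp (hyp)
open Cfsg.Agent.Lib.Helper90Spxq2fin (q2fin)
open Cfsg.Agent.Lib.Helper90SpxrcaseI (caseI sconfig)
open Cfsg.Agent.Lib.Helper90SpxrcaseII (caseII)
open Cfsg.Agent.Lib.Helper90Spxrpt (eqv_pt)
open Cfsg.Agent.Lib.Helper96SpxBasic (rootS_conj B_nd orth_pt bigB_of_bigS exists_func)
open Cfsg.Agent.Lib.Helper96SpxBasic2 (eqv_equiv eqv_map exists_sq_sub)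
open Cfsg.Agent.Lib.Helper97Spxdform (tv_form)
open Cfsg.Agent.Lib.Helper97Spxdmove (moveS)
open Cfsg.Agent.Lib.Helper97Spxproper (properS)
open Cfsg.Agent.Lib.Helper97Spxrep (exists_rep)
open Cfsg.Agent.Lib.Helper96ExtMain (finrank_map_unit map_map_unit map_one_unit sig_pt sig_map sig_finrank
  exists_not_mem_of_ne)
open Cfsg.Agent.Lib.Helper73Extfinrankpt (finrank_pt)
open Cfsg.Agent.Lib.Helper96Extw0 (exists_w0)
open Cfsg.Agent.Lib.Helper94ExtA (exists_pair)

variable {F K V : Type*} [Field F] [Field K] [Algebra F K] [AddCommGroup V] [Module F V] [Module K V]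
  [IsScalarTower F K V] [Finite F] [Finite K] [Finite V]
variable {G : Subgroup (Module.End F V)ˣ} {B : LinearMap.BilinForm F V}
  {BK : LinearMap.BilinForm K V} {τ : K →ₗ[F] F}

/-- the "mover" property -/
def Mover (K : Type*) {F V : Type*} [Field F] [Field K] [Algebra F K] [AddCommGroup V] [Module F V]
    [Module K V] [IsScalarTower F K V] (G : Subgroup (Module.End F V)ˣ) : Prop :=
  ∀ {a : V}, a ≠ 0 → ∀ {P : Submodule F V}, finrank F P = finrank F K → pt F K a ⊓ P ≠ ⊥ →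
    finrank F ↥(pt F K a ⊓ P) + 1 < finrank F K →
    ∃ h ∈ G, (∀ w ∈ pt F K a ⊓ P, (h : Module.End F V) w = w) ∧
      (∃ p₁ ∈ P, p₁ ∉ pt F K a ∧ (h : Module.End F V) p₁ ∈ P) ∧
      ∃ p₂ ∈ P, (h : Module.End F V) p₂ ∉ P

/-- one step of the induction: enlarge the intersection -/
theorem pair_step' (hmov : Mover K G) {a : V} (ha : a ≠ 0) {P : Submodule F V}
    (hP : Sig K G P) (hW : pt F K a ⊓ P ≠ ⊥) (hd : finrank F ↥(pt F K a ⊓ P) + 1 < finrank F K) :
    ∃ (a' : V) (P' : Submodule F V), a' ≠ 0 ∧ Sig K G P' ∧ P' ≠ pt F K a' ∧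
      finrank F ↥(pt F K a ⊓ P) < finrank F ↥(pt F K a' ⊓ P') := by
  obtain ⟨h, hh, hfix, ⟨p₁, hp₁, hp₁U, hhp₁⟩, ⟨p₂, hp₂, hhp₂⟩⟩ := hmov ha (sig_finrank hP) hW hd
  obtain ⟨g, hg, b, hb, rfl⟩ := hP
  set P := (pt F K b).map (g : Module.End F V) with hPdef
  have hinv : P.map ((g⁻¹ : (Module.End F V)ˣ) : Module.End F V) = pt F K b := by
    rw [hPdef, map_map_unit, inv_mul_cancel, map_one_unit]
  refine ⟨b, (P.map (h : Module.End F V)).map ((g⁻¹ : (Module.End F V)ˣ) : Module.End F V), hb,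
    sig_map (sig_map (sig_map (sig_pt hb) hg) hh) (G.inv_mem hg), ?_, ?_⟩
  · intro heq
    rw [← hinv] at heq
    have h2 := Submodule.map_injective_of_injective (unit_injective g⁻¹) heq
    exact hhp₂ (h2 ▸ Submodule.mem_map_of_mem hp₂)
  · have e1 : pt F K b ⊓ (P.map (h : Module.End F V)).map ((g⁻¹ : (Module.End F V)ˣ) : Module.End F V)
        = (P ⊓ P.map (h : Module.End F V)).map ((g⁻¹ : (Module.End F V)ˣ) : Module.End F V) := by
      rw [Submodule.map_inf _ (unit_injective g⁻¹), hinv]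
    rw [e1, finrank_map_unit]
    apply Submodule.finrank_lt_finrank_of_lt
    refine lt_of_le_of_ne ?_ ?_
    · intro w hw
      exact ⟨hw.2, ⟨w, hw.2, hfix w hw⟩⟩
    · intro heq
      have : (h : Module.End F V) p₁ ∈ pt F K a ⊓ P := by
        rw [heq]
        exact ⟨hhp₁, Submodule.mem_map_of_mem hp₁⟩
      have h3 := hfix _ this
      have h4 := unit_injective h h3
      exact hp₁U (h4 ▸ this.1)

/-- a pair meeting in a hyperplane of both -/
theorem exists_good_pair' (hmov : Mover K G) :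
    ∀ (k : ℕ) (a : V) (P : Submodule F V), a ≠ 0 → Sig K G P → P ≠ pt F K a → pt F K a ⊓ P ≠ ⊥ →
      finrank F K ≤ finrank F ↥(pt F K a ⊓ P) + 1 + k →
    ∃ (a' : V) (P' : Submodule F V), a' ≠ 0 ∧ Sig K G P' ∧ P' ≠ pt F K a' ∧
      finrank F ↥(pt F K a' ⊓ P') + 1 = finrank F K := by
  intro k
  induction k with
  | zero =>
    intro a P ha hP hne hW hk
    refine ⟨a, P, ha, hP, hne, le_antisymm ?_ hk⟩
    have hlt : pt F K a ⊓ P < P := by
      refine lt_of_le_of_ne inf_le_right ?_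
      intro heq
      have hle : P ≤ pt F K a := heq ▸ inf_le_left
      exact hne (Submodule.eq_of_le_of_finrank_eq hle (by rw [sig_finrank hP, finrank_pt ha]))
    have := Submodule.finrank_lt_finrank_of_lt hlt
    rw [sig_finrank hP] at this
    omega
  | succ k ih =>
    intro a P ha hP hne hW hk
    by_cases hd : finrank F ↥(pt F K a ⊓ P) + 1 < finrank F K
    · obtain ⟨a', P', ha', hP', hne', hlt⟩ := pair_step' hmov ha hP hW hd
      refine ih a' P' ha' hP' hne' ?_ (by omega)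
      intro hbot
      rw [hbot, finrank_bot] at hlt
      omega
    · exact ih a P ha hP hne hW (by omega)

/-- everything we know about `G` -/
structure Ctx (B : LinearMap.BilinForm F V) (BK : LinearMap.BilinForm K V) (τ : K →ₗ[F] F)
    (G : Subgroup (Module.End F V)ˣ) : Prop where
  data : SpData B BK τ
  iso : IsoG B G
  bigB : BigB K B G

namespace Ctx
variable (h : Ctx B BK τ G)
include h

lemma bigK : BigK BK G := by
  intro f hf hiso
  exact h.bigB f hf (fun x y => by rw [h.data.tr, h.data.tr, hiso])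

lemma ktv (a : V) (k : K) : InG G (1 + rk F (k • BK.flip a) a) :=
  Cfsg.Agent.Lib.Helper96SpxBasic.ktv h.data h.bigK a k

lemma eich {a b : V} (hab : BK a b = 0) : InG G (1 + rk F (BK.flip a) b + rk F (BK.flip b) a) :=
  Cfsg.Agent.Lib.Helper96SpxBasic.eich h.data h.bigK hab

lemma func (φ : Module.Dual K V) : ∃ b : V, ∀ v, φ v = BK v b := exists_func h.data φ

lemma mover (hr : (finrank F K).Prime) : Mover K G := by
  intro a ha P hPr hW hd
  by_cases hx : ∃ y ∈ P, BK y a ≠ 0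
  · exact mover_i h.data (fun h1 h2 h3 _ h4 => exists_w0 hr h1 h2 h3 h4) h.ktv ha hPr hW hd hx
  · push Not at hx
    exact mover_ii h.data (fun h1 h2 h3 _ h4 => exists_w0 hr h1 h2 h3 h4) h.func h.ktv
      (fun hab => h.eich hab) ha hPr hW hd hx

lemma exists_root {P : Submodule F V} (hP : Sig K G P) : ∃ T, RootS B G P T := by
  obtain ⟨g, hg, a, ha, rfl⟩ := hP
  exact ⟨_, rootS_conj h.iso (rootS_pt h.data h.ktv ha) hg⟩

lemma nd : ∀ x, (∀ y, B x y = 0) → x = 0 := B_nd h.data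

end Ctx


/-- the configuration: two members of `Sig` meeting in a hyperplane, not perpendicular -/
theorem exists_config (h : Ctx B BK τ G) {a : V} (ha : a ≠ 0) {Q : Submodule F V} (hQ : Sig K G Q)
    (hne : Q ≠ pt F K a) (hd : finrank F ↥(pt F K a ⊓ Q) + 1 = finrank F K) :
    ∃ (Q' : Submodule F V) (p p' : V), Sig K G Q' ∧ finrank F ↥(Q ⊓ Q') + 1 = finrank F K ∧ p ∈ Q ∧
      p' ∈ Q' ∧ B p p' ≠ 0 := by
  have hfU : finrank F (pt F K a) = finrank F K := finrank_pt ha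
  have hfQ := sig_finrank hQ
  obtain ⟨p, hp, hpU⟩ := exists_not_mem_of_ne hne (by rw [hfQ, hfU])
  obtain ⟨g, hg, hfix, hB⟩ := sconfig h.data h.func h.ktv hpU
  have hQ' : Sig K G (Q.map (g : Module.End F V)) := sig_map hQ hg
  obtain ⟨T', hT'⟩ := h.exists_root hQ'
  refine ⟨Q.map (g : Module.End F V), p, (g : Module.End F V) p, hQ', ?_, hp,
    Submodule.mem_map_of_mem hp, hB⟩
  have hle : pt F K a ⊓ Q ≤ Q ⊓ Q.map (g : Module.End F V) := by
    intro w hw
    exact ⟨hw.2, ⟨w, hw.2, hfix w hw.1⟩⟩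
  have hlt : Q ⊓ Q.map (g : Module.End F V) < Q := by
    refine lt_of_le_of_ne inf_le_left ?_
    intro heq
    have hle' : Q ≤ Q.map (g : Module.End F V) := inf_eq_left.mp heq
    have : p ∈ Q.map (g : Module.End F V) := hle' hp
    exact hB (hT'.iso _ this _ (Submodule.mem_map_of_mem hp))
  have h1 := Submodule.finrank_mono hle
  have h2 := Submodule.finrank_lt_finrank_of_lt hlt
  omega

lemma alt2_conj (hiso : IsoG B G) {g : (Module.End F V)ˣ} (hg : g ∈ G) {x y : V}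
    (h : InG G (1 + alt2 B ((g : Module.End F V) x) ((g : Module.End F V) y))) :
    InG G (1 + alt2 B x y) := by
  have h1 := h.conj' hg
  convert h1 using 1
  ext v
  simp only [LinearMap.add_apply, Module.End.one_apply, alt2_apply, Module.End.mul_apply, map_add,
    map_smul, unit_inv_apply, hiso g hg]

lemma hasTv_of_sq (hnd : ∀ x, (∀ y, B x y = 0) → x = 0) (hself : ∀ x, B x x = 0) {w : V} (hw : w ≠ 0)
    (h : InG G (1 + sq B w)) : HasTv G := by
  refine ⟨B w, w, ?_, hw, hself w, h⟩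
  intro h0
  exact hw (hnd w (fun y => by rw [h0]; rfl))

/-- `q = 2`, `r ≥ 3` -/
theorem hasTv_q2 (h : Ctx B BK τ G) (hF : Nat.card F = 2) (h3 : 3 ≤ finrank F K) {Q Q' : Submodule F V}
    (hQ : Sig K G Q) (hQ' : Sig K G Q') (hd : finrank F ↥(Q ⊓ Q') + 1 = finrank F K) {p p' : V}
    (hp : p ∈ Q) (hp' : p' ∈ Q') (hpp : B p p' ≠ 0) : HasTv G := by
  obtain ⟨T, hT⟩ := h.exists_root hQ
  obtain ⟨T', hT'⟩ := h.exists_root hQ'
  have halt := c3aS hF h.iso h.data.B_swap hT hT' (by rw [hd, sig_finrank hQ])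
    (by rw [hd, sig_finrank hQ']) hp hp' hpp
  obtain ⟨g, hg, a, ha, rfl⟩ := hQ
  set Q := (pt F K a).map (g : Module.End F V) with hQdef
  have hinv : Q.map ((g⁻¹ : (Module.End F V)ˣ) : Module.End F V) = pt F K a := by
    rw [hQdef, map_map_unit, inv_mul_cancel, map_one_unit]
  set W₀ := (Q ⊓ Q').map ((g⁻¹ : (Module.End F V)ˣ) : Module.End F V) with hW₀
  have hW₀le : W₀ ≤ pt F K a := by
    rw [← hinv]
    exact Submodule.map_mono inf_le_left
  have hW₀d : finrank F W₀ + 1 = finrank F K := by rw [hW₀, finrank_map_unit, hd]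
  have halt0 : ∀ y₁ ∈ W₀, ∀ y₂ ∈ W₀, InG G (1 + alt2 B y₁ y₂) := by
    rintro _ ⟨w₁, hw₁, rfl⟩ _ ⟨w₂, hw₂, rfl⟩
    apply alt2_conj h.iso hg
    rw [unit_apply_inv, unit_apply_inv]
    exact halt w₁ hw₁ w₂ hw₂
  have haltK : ∀ y₁ ∈ pt F K a, ∀ y₂ ∈ pt F K a, InG G (1 + alt2 B y₁ y₂) := by
    intro y₁ h₁ y₂ h₂
    obtain ⟨c, hc, hc₁, hc₂⟩ := hyp h3 hW₀d hW₀le h₁ h₂
    obtain ⟨s, hs, hsK, hsa⟩ := torus h.data h.bigK ha hc
    have hsy : ∀ y ∈ pt F K a, (s : Module.End F V) y = c • y := by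
      intro y hy
      obtain ⟨k, rfl⟩ := mem_pt.mp hy
      rw [hsK, hsa, smul_comm]
    apply alt2_conj h.iso hs
    rw [hsy y₁ h₁, hsy y₂ h₂]
    exact halt0 _ hc₁ _ hc₂
  obtain ⟨k, w, hw, hw0, hwv⟩ := q2w hF h.data (exists_rep τ h.data.tau) ha
  have := q2fin hF h.data h.ktv haltK
    (fun β h1 h2 h3 => altind hF h.data.B_self h.nd β h1 h2 h3) hw hw0 hwv
  exact hasTv_of_sq h.nd h.data.B_self hw0 this

lemma pt_eq_of_mem {a w : V} (hw : w ∈ pt F K a) (hw0 : w ≠ 0) : pt F K w = pt F K a := by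
  obtain ⟨c, rfl⟩ := mem_pt.mp hw
  have hc : c ≠ 0 := by
    rintro rfl
    exact hw0 (zero_smul _ _)
  apply le_antisymm
  · intro v hv
    obtain ⟨k, rfl⟩ := mem_pt.mp hv
    rw [smul_smul]
    exact smul_mem_pt _ _
  · intro v hv
    obtain ⟨k, rfl⟩ := mem_pt.mp hv
    exact mem_pt.mpr ⟨k * c⁻¹, by rw [smul_smul, mul_assoc, inv_mul_cancel₀ hc, mul_one]⟩

/-- `q = 2 = r`, the perpendicular case -/
theorem hasTv_r2_I (h : Ctx B BK τ G) (hF : Nat.card F = 2) (hr : finrank F K = 2) {w p : V}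
    (hw : w ≠ 0) (hp : p ∉ pt F K w) (h0 : BK w p = 0) (he : Eqv B G w p) : HasTv G := by
  obtain ⟨hrefl, hsymm, htrans⟩ := eqv_equiv (G := G) hF h.data.B_self
  have hI := caseI h.data h.func (fun hab => h.eich hab) (fun g hg x y hxy => eqv_map h.iso hg hxy) hp h0 he
  obtain ⟨ω, hω⟩ : ∃ ω : K, ω ∉ (algebraMap F K).range := by
    by_contra hcon
    push Not at hcon
    have h1 : (⊥ : Subalgebra F K) = ⊤ := by
      rw [eq_top_iff]
      intro x _
      rw [Algebra.mem_bot]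
      exact hcon x
    have h2 := Subalgebra.finrank_bot (F := F) (E := K)
    rw [h1, subalgebra_top_finrank_eq_submodule_top_finrank, finrank_top, hr] at h2
    omega
  have hω0 : ω ≠ 0 := by
    rintro rfl
    exact hω ⟨0, map_zero _⟩
  have hω1 : 1 + ω ≠ 0 := by
    intro h1
    apply hω
    refine ⟨-1, ?_⟩
    rw [map_neg, map_one]
    exact (eq_neg_of_add_eq_zero_right h1).symm
  have hwu : w + ω • w = (1 + ω) • w := by rw [add_smul, one_smul]
  have e1 : Eqv B G w (ω • w) :=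
    eqv_pt hF hr h.data h.bigB (self_mem_pt w) (smul_mem_pt ω w) hw (smul_ne_zero hω0 hw)
  have e2 : Eqv B G (w + ω • w) p := by
    refine htrans _ w _ ?_ he
    rw [hwu]
    exact eqv_pt hF hr h.data h.bigB (smul_mem_pt _ w) (self_mem_pt w) (smul_ne_zero hω1 hw) hw
  have e3 : Eqv B G (p + w) (p + ω • w) := by
    refine htrans _ w _ (hsymm _ _ ?_) (hI ω)
    have := hI 1
    rwa [one_smul] at this
  have hs := seven hF h.data.B_self (w := w) (u := ω • w) (p := p)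
    (by rw [h.data.B_smul_right, h.data.alt w, mul_zero, map_zero])
    (by rw [h.data.tr, h0, map_zero])
    (by rw [h.data.B_smul_left, h0, mul_zero, map_zero]) e1 e2 e3
  refine hasTv_of_sq h.nd h.data.B_self ?_ hs
  intro hz
  apply hp
  have : p = (-(1 + ω)) • w := by
    rw [neg_smul, ← hwu]
    rw [add_assoc] at hz
    exact eq_neg_of_add_eq_zero_left hz
  rw [this]
  exact smul_mem_pt _ _

/-- `q = 2 = r` -/
theorem hasTv_r2 (h : Ctx B BK τ G) (hF : Nat.card F = 2) (hr : finrank F K = 2) (h4 : 4 ≤ finrank K V)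
    {a : V} (ha : a ≠ 0) {Q : Submodule F V} (hQ : Sig K G Q) (hne : Q ≠ pt F K a)
    (hW : pt F K a ⊓ Q ≠ ⊥) : HasTv G := by
  obtain ⟨hrefl, hsymm, htrans⟩ := eqv_equiv (G := G) hF h.data.B_self
  have hfU : finrank F (pt F K a) = finrank F K := finrank_pt ha
  have hfQ := sig_finrank hQ
  obtain ⟨p, hp, hpU⟩ := exists_not_mem_of_ne hne (by rw [hfQ, hfU])
  obtain ⟨w, hw, hw0⟩ := Submodule.exists_mem_ne_zero_of_ne_bot hW
  have hpw : p ∉ pt F K w := by rwa [pt_eq_of_mem hw.1 hw0]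
  have he : Eqv B G w p := by
    obtain ⟨g, hg, a₀, ha₀, rfl⟩ := hQ
    obtain ⟨x, hx, rfl⟩ := hw.2
    obtain ⟨y, hy, rfl⟩ := hp
    apply eqv_map h.iso hg
    refine eqv_pt hF hr h.data h.bigB hx hy ?_ ?_
    · rintro rfl
      exact hw0 (map_zero _)
    · rintro rfl
      apply hpU
      rw [map_zero]
      exact Submodule.zero_mem _
  by_cases h0 : BK w p = 0
  · exact hasTv_r2_I h hF hr hw0 hpw h0 he
  · obtain ⟨y, d, hy, hyd, hnot, hperp⟩ := caseII h.data h.func h.ktv h4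
      (fun g hg x y hxy => eqv_map h.iso hg hxy) hsymm htrans h0 he
    exact hasTv_r2_I h hF hr hy hnot hperp hyd

theorem hasTvS (h : Ctx B BK τ G) (hr : (finrank F K).Prime) (h4 : 4 ≤ finrank K V ∨ 3 ≤ finrank F K)
    {a : V} (ha : a ≠ 0) {Q : Submodule F V} (hQ : Sig K G Q) (hne : Q ≠ pt F K a)
    (hd : finrank F ↥(pt F K a ⊓ Q) + 1 = finrank F K) : HasTv G := by
  have hr2 := hr.two_le
  have hW : pt F K a ⊓ Q ≠ ⊥ := by
    intro hbot
    rw [hbot, finrank_bot] at hd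
    omega
  obtain ⟨Q', p, p', hQ', hd', hp, hp', hpp⟩ := exists_config h ha hQ hne hd
  by_cases hq : ∃ f : F, f ≠ 0 ∧ f ≠ 1
  · obtain ⟨f, hf0, hf1⟩ := hq
    obtain ⟨T, hT⟩ := h.exists_root hQ
    obtain ⟨T', hT'⟩ := h.exists_root hQ'
    refine c1S h.data.B_swap hT hT' (by rw [hd', sig_finrank hQ]) (by rw [hd', sig_finrank hQ']) ?_ hp hp'
      hpp hf0 hf1
    intro hbot
    rw [hbot, finrank_bot] at hd'
    omega
  push Not at hq
  have hF : Nat.card F = 2 := by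
    rw [Nat.card_eq_two_iff]
    refine ⟨0, 1, zero_ne_one, ?_⟩
    ext x
    simp only [Set.mem_insert_iff, Set.mem_singleton_iff, Set.mem_univ, iff_true]
    by_cases hx : x = 0
    · exact Or.inl hx
    · exact Or.inr (hq x hx)
  by_cases hr' : finrank F K = 2
  · exact hasTv_r2 h hF hr' (by omega) ha hQ hne hW
  · exact hasTv_q2 h hF (by omega) hQ hQ' hd' hp hp' hpp

/-- **The abstract theorem (symplectic case).** -/
theorem main_absS (hr : (finrank F K).Prime) (h8 : 8 ≤ finrank F V)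
    (B : LinearMap.BilinForm F V) (hnd : ∀ x, (∀ y, B x y = 0) → x = 0)
    (hsa : ∀ (k : K) (x y : V), B (k • x) y = B x (k • y)) (halt : ∀ (k : K) (x : V), B (k • x) x = 0)
    (G : Subgroup (Module.End F V)ˣ)
    (hG : ∀ g : (Module.End F V)ˣ,
      (∀ (k : K) (v : V), (g : Module.End F V) (k • v) = k • (g : Module.End F V) v) →
      (∀ x y, B ((g : Module.End F V) x) ((g : Module.End F V) y) = B x y) → g ∈ G)
    (hiso : ∀ g ∈ G, ∀ x y, B ((g : Module.End F V) x) ((g : Module.End F V) y) = B x y)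
    (g₀ : (Module.End F V)ˣ) (hg₀ : g₀ ∈ G)
    (hn : ¬ ∀ k : K, ∃ k' : K, ∀ v, (g₀ : Module.End F V) (k • v) = k' • (g₀ : Module.End F V) v) :
    ∀ (c : F) (w : V), ∃ g ∈ G, (g : Module.End F V) = 1 + (c • B.flip w).smulRight w := by
  obtain ⟨BK, τ, hD⟩ := exists_data (fun τ hτ l => exists_rep τ hτ l) B hnd hsa halt
  have h : Ctx B BK τ G := ⟨hD, hiso, bigB_of_bigS hnd hG⟩
  have hmul := Module.finrank_mul_finrank F K V
  have hr2 := hr.two_le
  have hm1 : finrank K V ≠ 1 := by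
    intro h1
    obtain ⟨v, hv⟩ := finrank_eq_one_iff'.mp h1
    apply hv.1
    apply hD.nd
    intro y
    obtain ⟨c, rfl⟩ := hv.2 y
    rw [map_smul, hD.alt v, smul_zero]
  have hm : 2 ≤ finrank K V := by
    by_contra hcon
    have h0 : finrank K V = 0 := by omega
    rw [h0, mul_zero] at hmul
    omega
  have h4 : 4 ≤ finrank K V ∨ 3 ≤ finrank F K := by
    by_contra hcon
    push Not at hcon
    have h2 : finrank F K = 2 := by omega
    rw [h2] at hmul
    omega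
  obtain ⟨a, P, ha, hP, hne, hW⟩ := exists_pair hm hg₀ hn
  obtain ⟨a', P', ha', hP', hne', hd⟩ :=
    exists_good_pair' (h.mover hr) (finrank F K) a P ha hP hne hW (by omega)
  obtain ⟨ψ, w, hψ, hw, -, hin⟩ := hasTvS h hr h4 ha' hP' hne' hd
  obtain ⟨c₀, hc₀, rfl⟩ := tv_form h.iso hD.B_swap hnd hψ hw hin
  exact all_stv h.iso hD.B_self (fun a b ha hb => moveS hD h.ktv ha hb) exists_sq_sub hc₀ hw hin

end Cfsg.Agent.Lib.Helper96SpxMain
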