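import Cfsg.Agent.Lib.Helper96SpxMain
import Cfsg.Agent.Lib.Helper95SpStd

set_option autoImplicit false
set_option linter.unusedSectionVars false

namespace Cfsg.Agent.Lib.Helper96SpxMat

open Module Cfsg Cfsg.Geo Matrix Cfsg.Agent.Lib.Helper96ExtDefs
  Cfsg.Agent.Lib.Helper96SpxMain Cfsg.Agent.Lib.Helper95Basic Cfsg.Agent.Lib.Helper95Sp
  Cfsg.Agent.Lib.Helper95SpStd Cfsg.Agent.Lib.Helper95Cen
open Cfsg.Agent.Lib.Helper97Spxproper (properS)
open scoped MatrixGroups

/-- `main_absS` for a ring which is a field -/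
theorem main_ringS {F L V : Type*} [Field F] [Ring L] [iA : Algebra F L] [AddCommGroup V] [Module F V]
    [iM : Module L V] [iT : IsScalarTower F L V] [Finite F] [Finite L] [Finite V] (hL : IsField L)
    (hr : (finrank F L).Prime) (h8 : 8 ≤ finrank F V)
    (B : LinearMap.BilinForm F V) (hnd : ∀ x, (∀ y, B x y = 0) → x = 0)
    (hsa : ∀ (k : L) (x y : V), B (k • x) y = B x (k • y)) (halt : ∀ (k : L) (x : V), B (k • x) x = 0)
    (G : Subgroup (Module.End F V)ˣ)
    (hG : ∀ g : (Module.End F V)ˣ,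
      (∀ (k : L) (v : V), (g : Module.End F V) (k • v) = k • (g : Module.End F V) v) →
      (∀ x y, B ((g : Module.End F V) x) ((g : Module.End F V) y) = B x y) → g ∈ G)
    (hiso : ∀ g ∈ G, ∀ x y, B ((g : Module.End F V) x) ((g : Module.End F V) y) = B x y)
    (g₀ : (Module.End F V)ˣ) (hg₀ : g₀ ∈ G)
    (hn : ¬ ∀ k : L, ∃ k' : L, ∀ v, (g₀ : Module.End F V) (k • v) = k' • (g₀ : Module.End F V) v) :
    ∀ (c : F) (w : V), ∃ g ∈ G, (g : Module.End F V) = 1 + (c • B.flip w).smulRight w :=
  @main_absS F L V _ hL.toField iA _ _ iM iT _ _ _ hr h8 B hnd hsa halt G hG hiso g₀ hg₀ hn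

theorem proper_ringS {F L V : Type*} [Field F] [Ring L] [iA : Algebra F L] [AddCommGroup V] [Module F V]
    [iM : Module L V] [iT : IsScalarTower F L V] [Finite F] [Finite L] [Finite V] (hL : IsField L)
    {B : LinearMap.BilinForm F V}
    (hr : 2 ≤ finrank F L) (hV : Nontrivial V) (hnd : ∀ x, (∀ y, B x y = 0) → x = 0)
    (hsk : ∀ x y, B x y = - B y x) (halt : ∀ (k : L) (x : V), B (k • x) x = 0) :
    ∃ w : V, ¬ ∀ k : L, ∃ k' : L, ∀ v, (1 + (B.flip w).smulRight w : Module.End F V) (k • v) =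
        k' • (1 + (B.flip w).smulRight w : Module.End F V) v :=
  @properS F L V _ hL.toField iA _ _ iM iT _ _ _ B hr hV hnd hsk halt

variable {ι : Type} [Fintype ι] [DecidableEq ι] {F : Type*} [Field F]

lemma isField_of' {r : ℕ} {K : Subalgebra F (Matrix ι ι F)} [Nontrivial K]
    (hK : IsFieldSubalgebra r K) : IsField K := by
  refine ⟨exists_pair_ne K, fun a b => Subtype.ext (hK.comm a a.2 b b.2), ?_⟩
  intro a ha
  obtain ⟨y, hy, hxy⟩ := hK.inv a a.2 (fun h => ha (Subtype.ext h))
  exact ⟨⟨y, hy⟩, Subtype.ext hxy⟩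

lemma mat_ext'' {A B : Matrix ι ι F} (h : ∀ x, A *ᵥ x = B *ᵥ x) : A = B :=
  Matrix.toLin'.injective (LinearMap.ext h)

/-- membership in the normaliser in terms of the action on vectors -/
theorem mem_normalizer_iff' (K : Subalgebra F (Matrix ι ι F)) (g : GL ι F) :
    g ∈ subalgebraNormalizer K ↔
      ∀ k : K, ∃ k' : K, ∀ v : ι → F,
        (g : Matrix ι ι F) *ᵥ ((k : Matrix ι ι F) *ᵥ v) =
          (k' : Matrix ι ι F) *ᵥ ((g : Matrix ι ι F) *ᵥ v) := by
  constructor
  · intro hg k
    refine ⟨⟨_, (hg k).mp k.2⟩, fun v => ?_⟩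
    rw [Matrix.mulVec_mulVec, Matrix.mulVec_mulVec]
    congr 1
    simp [mul_assoc]
  · intro h
    have hfwd : ∀ k ∈ K, (g : Matrix ι ι F) * k * ((g⁻¹ : GL ι F) : Matrix ι ι F) ∈ K := by
      intro k hk
      obtain ⟨k', hk'⟩ := h ⟨k, hk⟩
      have e : (g : Matrix ι ι F) * k = (k' : Matrix ι ι F) * g := by
        apply mat_ext''
        intro v
        rw [← Matrix.mulVec_mulVec, ← Matrix.mulVec_mulVec]
        exact hk' v
      rw [e, mul_assoc, Units.mul_inv, mul_one]
      exact k'.2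
    let c : K →ₗ[F] K :=
      { toFun := fun k => ⟨_, hfwd k k.2⟩
        map_add' := fun a b => Subtype.ext (by simp [mul_add, add_mul])
        map_smul' := fun a b => Subtype.ext (by simp) }
    have hinj : Function.Injective c := by
      intro a b hab
      have h1 : (g : Matrix ι ι F) * a * ((g⁻¹ : GL ι F) : Matrix ι ι F) =
          (g : Matrix ι ι F) * b * ((g⁻¹ : GL ι F) : Matrix ι ι F) :=
        congrArg Subtype.val hab
      apply Subtype.ext
      have h2 := congrArg (fun M => ((g⁻¹ : GL ι F) : Matrix ι ι F) * M * (g : Matrix ι ι F)) h1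
      simpa [mul_assoc] using h2
    have hsurj : Function.Surjective c := LinearMap.injective_iff_surjective.mp hinj
    intro k
    refine ⟨hfwd k, fun hk => ?_⟩
    obtain ⟨k₁, hk₁⟩ := hsurj ⟨_, hk⟩
    have h1 : (g : Matrix ι ι F) * k₁ * ((g⁻¹ : GL ι F) : Matrix ι ι F) =
          (g : Matrix ι ι F) * k * ((g⁻¹ : GL ι F) : Matrix ι ι F) :=
        congrArg Subtype.val hk₁
    have h2 := congrArg (fun M => ((g⁻¹ : GL ι F) : Matrix ι ι F) * M * (g : Matrix ι ι F)) h1
    have h3 : (k₁ : Matrix ι ι F) = k := by simpa [mul_assoc] using h2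
    exact h3 ▸ k₁.2

lemma smul_def'' {K : Subalgebra F (Matrix ι ι F)} (κ : K) (v : ι → F) :
    κ • v = (κ : Matrix ι ι F) *ᵥ v := rfl

instance tower_inst' {K : Subalgebra F (Matrix ι ι F)} : IsScalarTower F K (ι → F) := ⟨fun a κ v => by
  rw [smul_def'', smul_def'']
  simp [Matrix.smul_mulVec]⟩


/-- **S5664** in a slightly more general form (`4 ≤ m`) -/
theorem sp_ext_maximal [Fintype F] (m : ℕ) (hm : 4 ≤ m) (r : ℕ) (hr : r.Prime)
    (K : Subalgebra F (Matrix (Fin m ⊕ Fin m) (Fin m ⊕ Fin m) F)) (hK : IsFieldSubalgebra r K)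
    (hsa : IsSelfAdjointFor (sympForm m F) K)
    (halt : ∀ k ∈ K, ∀ v : (Fin m ⊕ Fin m → F), sympForm m F (Matrix.mulVec k v) v = 0) :
    IsMaximalIn (spGL m F) (subalgebraNormalizer K ⊓ spGL m F) := by
  classical
  have hr2 := hr.two_le
  have : Nontrivial K := Module.nontrivial_of_finrank_pos (R := F) (by rw [hK.finrank_eq]; omega)
  have hL := isField_of' hK
  have hA := stdB_isAlt (F := F) m
  have hnd : ∀ x, (∀ y, stdB F m x y = 0) → x = 0 := by
    intro x hx
    exact (stdB_nondegenerate (F := F) m).1 x hx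
  have hsk : ∀ x y, stdB F m x y = - stdB F m y x := fun x y => alt_swap hA x y
  have hsa' : ∀ (k : K) (x y : Fin m ⊕ Fin m → F), stdB F m (k • x) y = stdB F m x (k • y) :=
    fun k x y => hsa k k.2 x y
  have halt' : ∀ (k : K) (x : Fin m ⊕ Fin m → F), stdB F m (k • x) x = 0 := fun k x => halt k k.2 x
  have hdim : finrank F (Fin m ⊕ Fin m → F) = 2 * m := by
    rw [Module.finrank_fintype_fun_eq_card, Fintype.card_sum, Fintype.card_fin]
    ring
  have hVnt : Nontrivial (Fin m ⊕ Fin m → F) :=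
    Module.nontrivial_of_finrank_pos (R := F) (by rw [hdim]; omega)
  apply sp_maximal
  · obtain ⟨w, hw⟩ := proper_ringS (F := F) (L := K) (V := Fin m ⊕ Fin m → F) hL
      (by rw [hK.finrank_eq]; exact hr2) hVnt hnd hsk halt'
    refine ⟨stv (stdB F m) hA w 1, stv_isometry hA w 1, ?_⟩
    intro hmem
    rw [mem_normalizer_iff'] at hmem
    apply hw
    intro k
    obtain ⟨k', hk'⟩ := hmem k
    refine ⟨k', fun v => ?_⟩
    have := hk' v
    rw [mkGL_mulVec, mkGL_mulVec, stv_apply, stv_apply] at this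
    simp only [LinearMap.add_apply, Module.End.one_apply, LinearMap.smulRight_apply, smul_def'',
      LinearMap.flip_apply]
    simpa using this
  · intro M hM1 hM2 g hg hgN v c
    let φ := LinearMap.GeneralLinearGroup.generalLinearEquiv F (Fin m ⊕ Fin m → F)
    have hφ : ∀ (u : (Module.End F (Fin m ⊕ Fin m → F))ˣ) x, φ u x = (u : Module.End F _) x :=
      fun _ _ => rfl
    have key := main_ringS (F := F) (L := K) (V := Fin m ⊕ Fin m → F) hL
      (by rw [hK.finrank_eq]; exact hr) (by rw [hdim]; omega) (stdB F m) hnd hsa' halt'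
      (M.comap φ.toMonoidHom)
      (by
        intro u huK huB
        show φ u ∈ M
        apply hM1 _ huB
        rw [mem_normalizer_iff']
        intro k
        refine ⟨k, fun x => ?_⟩
        rw [mkGL_mulVec, mkGL_mulVec]
        exact huK k x)
      (by
        intro u hu x y
        exact hM2 (φ u) hu x y)
      (φ.symm g) (by
        show φ (φ.symm g) ∈ M
        rw [φ.apply_symm_apply]
        exact hg)
      (by
        intro hcon
        apply hgN
        rw [mem_normalizer_iff']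
        intro k
        obtain ⟨k', hk'⟩ := hcon k
        refine ⟨k', fun x => ?_⟩
        rw [mkGL_mulVec, mkGL_mulVec]
        have := hk' x
        rw [← hφ, ← hφ, φ.apply_symm_apply] at this
        exact this)
    obtain ⟨u, hu, huv⟩ := key c v
    have : stv (stdB F m) hA v c = φ u := by
      ext x : 1
      rw [hφ, huv, stv_apply]
      simp [LinearMap.flip_apply]
    rw [this]
    exact hu

end Cfsg.Agent.Lib.Helper96SpxMat
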