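import Cfsg.Agent.Lib.Helper95Herm
import Cfsg.Agent.Lib.Helper96Lagr

set_option autoImplicit false
set_option linter.unusedSimpArgs false

namespace Cfsg.Agent.Lib.Helper96Unit

open Module Cfsg.Agent.Lib.Helper95Sp Cfsg.Agent.Lib.Helper95Herm Cfsg.Agent.Lib.Helper96Lagr

variable {K V : Type*} [Field K] [AddCommGroup V] [Module K V]
variable {σ : K →+* K} {f : V → V → K}

/-- the unitary transvection `x ↦ x + z * f x v • v` (trivial when `v` is not isotropic) -/
noncomputable def ut (h : Herm σ f) (v : V) (z : K) : V ≃ₗ[K] V :=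
  open Classical in if hv : f v v = 0 then h.utv v z hv else 1

lemma ut_apply (h : Herm σ f) {v : V} (hv : f v v = 0) (z : K) (x : V) :
    ut h v z x = x + (z * f x v) • v := by
  rw [ut, dif_pos hv, h.utv_apply]

lemma ut_isometry (h : Herm σ f) (v : V) (z : K) (hz : z + σ z = 0) (x y : V) :
    f (ut h v z x) (ut h v z y) = f x y := by
  by_cases hv : f v v = 0
  · rw [ut, dif_pos hv]
    exact h.utv_isometry v z hv hz x y
  · rw [ut, dif_neg hv]
    rfl

lemma ut_det [FiniteDimensional K V] (h : Herm σ f) (v : V) (z : K) :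
    LinearEquiv.det (ut h v z) = 1 := by
  by_cases hv : f v v = 0
  · rw [ut, dif_pos hv]
    apply Units.ext
    rw [LinearEquiv.coe_det, h.utv_det, Units.val_one]
  · rw [ut, dif_neg hv, map_one]

lemma conj_ut (h : Herm σ f) (e : V ≃ₗ[K] V) (he : ∀ x y, f (e x) (e y) = f x y) (v : V) (z : K) :
    e * ut h v z * e⁻¹ = ut h (e v) z := by
  by_cases hv : f v v = 0
  · have hv' : f (e v) (e v) = 0 := by rw [he, hv]
    ext x
    have h1 : e (e⁻¹ x) = x := e.apply_symm_apply x
    have h2 : f (e⁻¹ x) v = f x (e v) := by rw [← he, h1]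
    rw [LinearEquiv.mul_apply, LinearEquiv.mul_apply, ut_apply h hv, ut_apply h hv', map_add,
      map_smul, h1, h2]
  · have hv' : ¬ f (e v) (e v) = 0 := by rw [he]; exact hv
    rw [ut, ut, dif_neg hv, dif_neg hv']
    group

/-- the root element `x ↦ x + w * f x a • b - σ w * f x b • a` -/
noncomputable def ur (h : Herm σ f) (a b : V) (w : K) : V ≃ₗ[K] V :=
  open Classical in if hab : f a b = 0 then
    LinearEquiv.transvection (f := w • h.fl a) (v := b) (by simp [h.swap_zero hab]) *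
    LinearEquiv.transvection (f := (-σ w) • h.fl b) (v := a) (by simp [hab])
  else 1

lemma ur_apply (h : Herm σ f) {a b : V} (ha : f a a = 0) (hab : f a b = 0) (w : K) (x : V) :
    ur h a b w x = x + (w * f x a) • b - (σ w * f x b) • a := by
  rw [ur, dif_pos hab]
  simp only [LinearEquiv.mul_apply, LinearEquiv.transvection.apply, LinearMap.smul_apply,
    Herm.fl_apply, smul_eq_mul, h.add_left, h.smul_left, ha]
  module

lemma ur_det [FiniteDimensional K V] (h : Herm σ f) (a b : V) (w : K) :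
    LinearEquiv.det (ur h a b w) = 1 := by
  by_cases hab : f a b = 0
  · rw [ur, dif_pos hab, map_mul, LinearEquiv.transvection.det_eq_one,
      LinearEquiv.transvection.det_eq_one, one_mul]
  · rw [ur, dif_neg hab, map_one]

lemma ur_isometry (h : Herm σ f) {a b : V} (ha : f a a = 0) (hb : f b b = 0) (hab : f a b = 0)
    (w : K) (x y : V) : f (ur h a b w x) (ur h a b w y) = f x y := by
  have hba := h.swap_zero hab
  rw [ur_apply h ha hab, ur_apply h ha hab]
  simp only [h.add_left, h.add_right, h.sub_left, h.sub_right, h.smul_left, h.smul_right, ha, hb,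
    hab, hba, map_mul, h.invol, ← h.herm a y, ← h.herm b y]
  ring

lemma conj_ur (h : Herm σ f) (e : V ≃ₗ[K] V) (he : ∀ x y, f (e x) (e y) = f x y) {a b : V}
    (ha : f a a = 0) (hab : f a b = 0) (w : K) :
    e * ur h a b w * e⁻¹ = ur h (e a) (e b) w := by
  have ha' : f (e a) (e a) = 0 := by rw [he, ha]
  have hab' : f (e a) (e b) = 0 := by rw [he, hab]
  ext x
  have h1 : e (e⁻¹ x) = x := e.apply_symm_apply x
  have h2 : ∀ v, f (e⁻¹ x) v = f x (e v) := fun v => by rw [← he, h1]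
  rw [LinearEquiv.mul_apply, LinearEquiv.mul_apply, ur_apply h ha hab, ur_apply h ha' hab', map_sub,
    map_add, map_smul, map_smul, h1, h2, h2]

lemma ur_swap (h : Herm σ f) {a b : V} (ha : f a a = 0) (hb : f b b = 0) (hab : f a b = 0)
    (w : K) : ur h a b w = ur h b a (-σ w) := by
  ext x
  rw [ur_apply h ha hab, ur_apply h hb (h.swap_zero hab), map_neg, h.invol]
  module

lemma ur_eq_ut (h : Herm σ f) {a b : V} (ha : f a a = 0) (hb : f b b = 0) (hab : f a b = 0)
    (z l : K) (hz : z + σ z = 0) :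
    ur h a b (z * l) = ut h (a + l • b) z * ut h a (-z) * ut h b (-(z * l * σ l)) := by
  have hba := h.swap_zero hab
  have hc : f (a + l • b) (a + l • b) = 0 := by
    simp only [h.add_left, h.add_right, h.smul_left, h.smul_right, ha, hb, hab, hba]
    ring
  have hσz : σ z = -z := by linear_combination hz
  ext x
  simp only [LinearEquiv.mul_apply, ur_apply h ha hab, ut_apply h hc, ut_apply h ha, ut_apply h hb,
    h.add_left, h.add_right, h.smul_left, h.smul_right, ha, hb, hab, hba, map_mul, hσz]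
  module

lemma ur_mem_of_ut (h : Herm σ f) {T : Subgroup (V ≃ₗ[K] V)}
    (hT : ∀ v z, z + σ z = 0 → ut h v z ∈ T) {a b : V} (ha : f a a = 0) (hb : f b b = 0)
    (hab : f a b = 0) (w : K) : ur h a b w ∈ T := by
  obtain ⟨z, hz0, hz⟩ := h.exists_z
  have hσz : σ z = -z := by linear_combination hz
  have h1 : w = z * (w / z) := by field_simp
  rw [h1, ur_eq_ut h ha hb hab z (w / z) hz]
  refine T.mul_mem (T.mul_mem (hT _ _ hz) (hT _ _ ?_)) (hT _ _ ?_)
  · rw [map_neg, hσz]; ring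
  · simp only [map_neg, map_mul, h.invol, hσz]; ring

/-- scaling the second argument to reach a prescribed value -/
lemma exists_scale (h : Herm σ f) {b a : V} (hba : f b a ≠ 0) (t : K) :
    ∃ c : K, f b (c • a) = t := by
  refine ⟨σ (t / f b a), ?_⟩
  rw [h.smul_right, h.invol]
  field_simp

lemma inv_trace_zero (_h : Herm σ f) {t : K} (ht : t + σ t = 0) : t⁻¹ + σ t⁻¹ = 0 := by
  by_cases h0 : t = 0
  · simp [h0]
  · have hσ : σ t = -t := by linear_combination ht
    rw [map_inv₀, hσ]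
    field_simp
    ring

lemma map_mul_eq (X : Submodule K V) (s t : V ≃ₗ[K] V) :
    X.map ((s * t : V ≃ₗ[K] V) : V →ₗ[K] V) = (X.map (t : V →ₗ[K] V)).map (s : V →ₗ[K] V) := by
  rw [← Submodule.map_comp]
  rfl

/-- transvections are transitive on maximal totally isotropic subspaces -/
theorem exists_move_max [FiniteDimensional K V] (h : Herm σ f) {T : Subgroup (V ≃ₗ[K] V)}
    (hT : ∀ v z, z + σ z = 0 → ut h v z ∈ T) (A : Submodule K V)
    (hA : ∀ x ∈ A, ∀ y ∈ A, f x y = 0) (hAp : ∀ x, (∀ a ∈ A, f x a = 0) → x ∈ A) (m : ℕ) :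
    ∀ B : Submodule K V, (∀ x ∈ B, ∀ y ∈ B, f x y = 0) → finrank K B = finrank K A →
      finrank K A ≤ finrank K (A ⊓ B : Submodule K V) + m →
      ∃ t ∈ T, (∀ x y, f (t x) (t y) = f x y) ∧ B.map (t : V →ₗ[K] V) = A := by
  induction m with
  | zero =>
    intro B hB hfr hle
    have h1 : A ⊓ B = A := Submodule.eq_of_le_of_finrank_le inf_le_left (by omega)
    have h2 : A ≤ B := by rw [← h1]; exact inf_le_right
    have h3 : A = B := Submodule.eq_of_le_of_finrank_eq h2 hfr.symm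
    refine ⟨1, T.one_mem, fun x y => rfl, ?_⟩
    rw [h3]
    exact Submodule.map_id B
  | succ m ih =>
    intro B hB hfr hle
    by_cases hBA : B ≤ A
    · have h3 : B = A := Submodule.eq_of_le_of_finrank_eq hBA hfr
      refine ⟨1, T.one_mem, fun x y => rfl, ?_⟩
      rw [h3]
      exact Submodule.map_id A
    · obtain ⟨b, hbB, hbA⟩ := SetLike.not_le_iff_exists.1 hBA
      obtain ⟨a1, ha1, hba1⟩ : ∃ a ∈ A, f b a ≠ 0 := by
        by_contra hcon
        push Not at hcon
        exact hbA (hAp b hcon)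
      obtain ⟨z, hz0, hz⟩ := h.exists_z
      obtain ⟨c, hc⟩ := exists_scale h hba1 z
      set a0 := c • a1 with ha0def
      have ha0 : a0 ∈ A := A.smul_mem c ha1
      have hbb : f b b = 0 := hB b hbB b hbB
      have haa : f a0 a0 = 0 := hA a0 ha0 a0 ha0
      have hab : f a0 b = σ z := by rw [h.herm, hc]
      have hcc : f (b - a0) (b - a0) = 0 := by
        simp only [h.sub_left, h.sub_right, hbb, haa, hc, hab]
        linear_combination -hz
      set t := ut h (b - a0) z⁻¹ with htdef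
      have htT : t ∈ T := hT _ _ (inv_trace_zero h hz)
      have htiso : ∀ x y, f (t x) (t y) = f x y := ut_isometry h _ _ (inv_trace_zero h hz)
      have htb : t b = a0 := by
        rw [htdef, ut_apply h hcc, h.sub_right, hbb, hc]
        have : z⁻¹ * (0 - z) = -1 := by field_simp; ring
        rw [this]
        module
      have htfix : ∀ x ∈ A ⊓ B, t x = x := by
        intro x hx
        rw [htdef, ut_apply h hcc, h.sub_right, hB x hx.2 b hbB, hA x hx.1 a0 ha0]
        simp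
      have ha0B : a0 ∉ B := by
        intro h0
        apply hz0
        rw [← hc]
        exact hB b hbB a0 h0
      set B1 := B.map (t : V →ₗ[K] V) with hB1
      have hB1iso : ∀ x ∈ B1, ∀ y ∈ B1, f x y = 0 := by
        rintro _ ⟨x, hx, rfl⟩ _ ⟨y, hy, rfl⟩
        simp only [LinearEquiv.coe_coe]
        rw [htiso]
        exact hB x hx y hy
      have hlt : A ⊓ B < A ⊓ B1 := by
        refine lt_of_le_of_ne ?_ ?_
        · intro x hx
          exact ⟨hx.1, ⟨x, hx.2, htfix x hx⟩⟩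
        · intro heq
          have : a0 ∈ A ⊓ B1 := ⟨ha0, ⟨b, hbB, htb⟩⟩
          rw [← heq] at this
          exact ha0B this.2
      have hlt' := Submodule.finrank_lt_finrank_of_lt hlt
      obtain ⟨t1, ht1T, ht1iso, ht1⟩ := ih B1 hB1iso
        (by rw [hB1, LinearEquiv.finrank_map_eq]; exact hfr) (by omega)
      refine ⟨t1 * t, T.mul_mem ht1T htT, fun x y => ?_, ?_⟩
      · rw [LinearEquiv.mul_apply, LinearEquiv.mul_apply, ht1iso, htiso]
      · rw [map_mul_eq]
        exact ht1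

/-- the pointwise stabiliser of `A` is transitive on the totally isotropic complements -/
theorem exists_move_compl [FiniteDimensional K V] (h : Herm σ f) {T : Subgroup (V ≃ₗ[K] V)}
    (hT : ∀ v z, z + σ z = 0 → ut h v z ∈ T) (A A' : Submodule K V)
    (hA : ∀ x ∈ A, ∀ y ∈ A, f x y = 0) (hAp : ∀ x, (∀ a ∈ A, f x a = 0) → x ∈ A)
    (hA' : ∀ x ∈ A', ∀ y ∈ A', f x y = 0) (hc : IsCompl A A') (m : ℕ) :
    ∀ B : Submodule K V, (∀ x ∈ B, ∀ y ∈ B, f x y = 0) → finrank K B = finrank K A' →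
      Disjoint A B → finrank K A' ≤ finrank K (A' ⊓ B : Submodule K V) + m →
      ∃ t ∈ T, (∀ x y, f (t x) (t y) = f x y) ∧ (∀ x ∈ A, t x = x) ∧
        B.map (t : V →ₗ[K] V) = A' := by
  induction m with
  | zero =>
    intro B hB hfr _ hle
    have h1 : A' ⊓ B = A' := Submodule.eq_of_le_of_finrank_le inf_le_left (by omega)
    have h2 : A' ≤ B := by rw [← h1]; exact inf_le_right
    have h3 : A' = B := Submodule.eq_of_le_of_finrank_eq h2 hfr.symm
    refine ⟨1, T.one_mem, fun x y => rfl, fun x _ => rfl, ?_⟩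
    rw [h3]
    exact Submodule.map_id B
  | succ m ih =>
    intro B hB hfr hdisj hle
    by_cases hBA : B ≤ A'
    · have h3 : B = A' := Submodule.eq_of_le_of_finrank_eq hBA hfr
      refine ⟨1, T.one_mem, fun x y => rfl, fun x _ => rfl, ?_⟩
      rw [h3]
      exact Submodule.map_id A'
    · obtain ⟨b, hbB, hbA⟩ := SetLike.not_le_iff_exists.1 hBA
      obtain ⟨a, ha, b', hb', hsum⟩ : ∃ a ∈ A, ∃ b' ∈ A', a + b' = b := by
        have : b ∈ A ⊔ A' := by rw [hc.sup_eq_top]; exact Submodule.mem_top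
        exact Submodule.mem_sup.1 this
      have haa : f a a = 0 := hA a ha a ha
      have hb'b' : f b' b' = 0 := hA' b' hb' b' hb'
      have hb'B : b' ∉ B := by
        intro h0
        have h1 : a ∈ B := by
          have := B.sub_mem hbB h0
          rwa [← hsum, add_sub_cancel_right] at this
        have h2 : a = 0 := by
          have : a ∈ A ⊓ B := ⟨ha, h1⟩
          rw [hdisj.eq_bot] at this
          simpa using this
        apply hbA
        rw [← hsum, h2, zero_add]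
        exact hb'
      have hWa : ∀ x ∈ A' ⊓ B, f x a = 0 := by
        intro x hx
        have h1 := hB x hx.2 b hbB
        rw [← hsum, h.add_right, hA' x hx.1 b' hb', add_zero] at h1
        exact h1
      -- the required element
      obtain ⟨t, htT, htiso, htA, htW, htb⟩ : ∃ t ∈ T, (∀ x y, f (t x) (t y) = f x y) ∧
          (∀ x ∈ A, t x = x) ∧ (∀ x ∈ A' ⊓ B, t x = x) ∧ t b = b' := by
        by_cases hτ : f b' a = 0
        · have hnot : b' ∉ Submodule.span K ((A : Set V) ∪ ((A' ⊓ B : Submodule K V) : Set V)) := by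
            rw [Submodule.span_union, Submodule.span_eq, Submodule.span_eq]
            intro hmem
            obtain ⟨a1, ha1, w, hw, h1⟩ := Submodule.mem_sup.1 hmem
            have h2 : a1 ∈ A' := by
              have := A'.sub_mem hb' hw.1
              rwa [← h1, add_sub_cancel_right] at this
            have h3 : a1 = 0 := by
              have : a1 ∈ A ⊓ A' := ⟨ha1, h2⟩
              rw [hc.inf_eq_bot] at this
              simpa using this
            apply hb'B
            rw [← h1, h3, zero_add]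
            exact hw.2
          obtain ⟨c, hcS, hcb⟩ := h.exists_perp_ne _ _ hnot
          have hcA : c ∈ A := hAp c fun a1 ha1 => hcS a1 (Or.inl ha1)
          have hcW : ∀ x ∈ A' ⊓ B, f x c = 0 := fun x hx => h.swap_zero (hcS x (Or.inr hx))
          have hb'c : f b' c ≠ 0 := h.swap_ne hcb
          have hac : f a c = 0 := hA a ha c hcA
          have hcc : f c c = 0 := hA c hcA c hcA
          refine ⟨ur h a c (σ (f b' c)⁻¹), ur_mem_of_ut h hT haa hcc hac _,
            ur_isometry h haa hcc hac _, fun x hx => ?_, fun x hx => ?_, ?_⟩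
          · rw [ur_apply h haa hac, hA x hx a ha, hA x hx c hcA]
            simp
          · rw [ur_apply h haa hac, hWa x hx, hcW x hx]
            simp
          · rw [ur_apply h haa hac, h.invol, ← hsum, h.add_left, h.add_left, haa, hτ, hac, zero_add,
              zero_add, inv_mul_cancel₀ hb'c]
            simp
        · have htr : f b' a + σ (f b' a) = 0 := by
            have h1 := hB b hbB b hbB
            rw [← hsum] at h1
            simp only [h.add_left, h.add_right, haa, hb'b'] at h1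
            rw [← h.herm a b']
            linear_combination h1
          have hz : -(f b' a)⁻¹ + σ (-(f b' a)⁻¹) = 0 := by
            have := inv_trace_zero h htr
            rw [map_neg]
            linear_combination -this
          refine ⟨ut h a (-(f b' a)⁻¹), hT _ _ hz, ut_isometry h _ _ hz, fun x hx => ?_,
            fun x hx => ?_, ?_⟩
          · rw [ut_apply h haa, hA x hx a ha]
            simp
          · rw [ut_apply h haa, hWa x hx]
            simp
          · rw [ut_apply h haa, ← hsum, h.add_left, haa, zero_add, neg_mul, inv_mul_cancel₀ hτ]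
            simp
      set B1 := B.map (t : V →ₗ[K] V) with hB1
      have hB1iso : ∀ x ∈ B1, ∀ y ∈ B1, f x y = 0 := by
        rintro _ ⟨x, hx, rfl⟩ _ ⟨y, hy, rfl⟩
        simp only [LinearEquiv.coe_coe]
        rw [htiso]
        exact hB x hx y hy
      have hdisj1 : Disjoint A B1 := by
        rw [Submodule.disjoint_def]
        rintro _ hxA ⟨x, hx, rfl⟩
        simp only [LinearEquiv.coe_coe] at hxA ⊢
        have h1 : t (t x) = t x := htA _ hxA
        have h2 : t x = x := t.injective h1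
        rw [h2] at hxA ⊢
        exact (Submodule.disjoint_def.1 hdisj) x hxA hx
      have hlt : A' ⊓ B < A' ⊓ B1 := by
        refine lt_of_le_of_ne ?_ ?_
        · intro x hx
          exact ⟨hx.1, ⟨x, hx.2, htW x hx⟩⟩
        · intro heq
          have : b' ∈ A' ⊓ B1 := ⟨hb', ⟨b, hbB, htb⟩⟩
          rw [← heq] at this
          exact hb'B this.2
      have hlt' := Submodule.finrank_lt_finrank_of_lt hlt
      obtain ⟨t1, ht1T, ht1iso, ht1A, ht1⟩ := ih B1 hB1iso
        (by rw [hB1, LinearEquiv.finrank_map_eq]; exact hfr) hdisj1 (by omega)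
      refine ⟨t1 * t, T.mul_mem ht1T htT, fun x y => ?_, fun x hx => ?_, ?_⟩
      · rw [LinearEquiv.mul_apply, LinearEquiv.mul_apply, ht1iso, htiso]
      · rw [LinearEquiv.mul_apply, htA x hx, ht1A x hx]
      · rw [map_mul_eq]
        exact ht1

/-- centres all of whose unitary transvections lie in `M` -/
def ucen (h : Herm σ f) (M : Subgroup (V ≃ₗ[K] V)) : Set V :=
  {v | ∀ z, z + σ z = 0 → ut h v z ∈ M}

lemma ucen_map (h : Herm σ f) {M : Subgroup (V ≃ₗ[K] V)} (e : V ≃ₗ[K] V) (heM : e ∈ M)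
    (he : ∀ x y, f (e x) (e y) = f x y) {v : V} (hv : v ∈ ucen h M) : e v ∈ ucen h M := by
  intro z hz
  rw [← conj_ut h e he]
  exact M.mul_mem (M.mul_mem heM (hv z hz)) (M.inv_mem heM)

lemma ucen_of_not (h : Herm σ f) (M : Subgroup (V ≃ₗ[K] V)) {v : V} (hv : f v v ≠ 0) :
    v ∈ ucen h M := by
  intro z _
  rw [ut, dif_neg hv]
  exact M.one_mem

lemma ucen_add (h : Herm σ f) {M : Subgroup (V ≃ₗ[K] V)} {x y : V} (hx : x ∈ ucen h M)
    (hy : y ∈ ucen h M) (hyy : f y y = 0) (hxy : f x y ≠ 0) (htr : f x y + σ (f x y) = 0) :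
    x + y ∈ ucen h M := by
  have hz := inv_trace_zero h htr
  have h1 := ucen_map h _ (hy _ hz) (ut_isometry h y _ hz) hx
  rw [ut_apply h hyy, inv_mul_cancel₀ hxy, one_smul] at h1
  exact h1

/-- the data: a pair of complementary totally isotropic subspaces and an overgroup of its
stabiliser in the special unitary group -/
structure USetup (h : Herm σ f) (A A' : Submodule K V) (M : Subgroup (V ≃ₗ[K] V)) : Prop where
  isoA : ∀ x ∈ A, ∀ y ∈ A, f x y = 0
  isoA' : ∀ x ∈ A', ∀ y ∈ A', f x y = 0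
  compl : IsCompl A A'
  hM : ∀ e : V ≃ₗ[K] V, (∀ u v, f (e u) (e v) = f u v) → LinearEquiv.det e = 1 → InH A A' e → e ∈ M
  hMiso : ∀ e ∈ M, ∀ u v, f (e u) (e v) = f u v
  dimA : 3 ≤ finrank K A
  dimA' : 3 ≤ finrank K A'
  dimEq : finrank K A = finrank K A'

variable {h : Herm σ f} {A A' : Submodule K V} {M : Subgroup (V ≃ₗ[K] V)}

lemma USetup.symm (S : USetup h A A' M) : USetup h A' A M where
  isoA := S.isoA'
  isoA' := S.isoA
  compl := S.compl.symm
  hM := fun e he hd hh => S.hM e he hd (by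
    rcases hh with hh | hh
    · exact Or.inl ⟨hh.2, hh.1⟩
    · exact Or.inr ⟨hh.2, hh.1⟩)
  hMiso := S.hMiso
  dimA := S.dimA'
  dimA' := S.dimA
  dimEq := S.dimEq.symm

lemma USetup.decomp (S : USetup h A A' M) (x : V) : ∃ a ∈ A, ∃ b ∈ A', a + b = x := by
  have : x ∈ A ⊔ A' := by rw [S.compl.sup_eq_top]; exact Submodule.mem_top
  exact Submodule.mem_sup.1 this

lemma USetup.inter (S : USetup h A A' M) {x : V} (hx : x ∈ A) (hx' : x ∈ A') : x = 0 := by
  have : x ∈ A ⊓ A' := ⟨hx, hx'⟩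
  rw [S.compl.inf_eq_bot] at this
  simpa using this

lemma USetup.perp (S : USetup h A A' M) (x : V) (hx : ∀ a ∈ A, f x a = 0) : x ∈ A := by
  obtain ⟨a0, ha0, b0, hb0, rfl⟩ := S.decomp x
  have : b0 = 0 := by
    by_contra hne
    obtain ⟨y, hy⟩ := h.nondeg b0 hne
    apply hy
    obtain ⟨a, ha, b, hb, rfl⟩ := S.decomp y
    have h1 := hx a ha
    rw [h.add_left, S.isoA a0 ha0 a ha, zero_add] at h1
    rw [h.add_left, h.swap_zero h1, S.isoA' b hb b0 hb0, add_zero]
  rw [this, add_zero]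
  exact ha0

lemma USetup.exists_pair (S : USetup h A A' M) {a : V} (ha : a ∈ A) (ha0 : a ≠ 0) :
    ∃ b ∈ A', f a b ≠ 0 := by
  by_contra hcon
  push Not at hcon
  exact ha0 (S.inter ha (S.symm.perp a hcon))

lemma USetup.ur_mem [FiniteDimensional K V] (S : USetup h A A' M) {a b : V} (ha : a ∈ A)
    (hb : b ∈ A') (hab : f a b = 0) (w : K) : ur h a b w ∈ M := by
  have haa := S.isoA a ha a ha
  have hbb := S.isoA' b hb b hb
  refine S.hM _ (ur_isometry h haa hbb hab w) (ur_det h a b w) (Or.inl ⟨fun x hx => ?_, fun x hx => ?_⟩)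
  · rw [ur_apply h haa hab, S.isoA x hx a ha, mul_zero, zero_smul, add_zero]
    exact A.sub_mem hx (A.smul_mem _ ha)
  · rw [ur_apply h haa hab, S.isoA' x hx b hb, mul_zero, zero_smul, sub_zero]
    exact A'.add_mem hx (A'.smul_mem _ hb)

lemma USetup.sub_mem (S : USetup h A A' M) {u : V ≃ₗ[K] V} (huM : u ∈ M) (hu : ∀ a ∈ A, u a = a)
    (x : V) : u x - x ∈ A := by
  refine S.perp _ fun a ha => ?_
  have := S.hMiso u huM x a
  rw [hu a ha] at this
  rw [h.sub_left, this, sub_self]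

lemma USetup.exists_quad (S : USetup h A A' M) {u : V ≃ₗ[K] V} (huM : u ∈ M)
    (hu : ∀ a ∈ A, u a = a) (hne : u ≠ 1) : ∃ b ∈ A', f (u b) b ≠ 0 := by
  by_contra hcon
  push Not at hcon
  have hσ := S.sub_mem huM hu
  obtain ⟨l, hl⟩ := Cfsg.Agent.Lib.Helper17Herm.exists_ne_fix σ h.ne_id
  have h1 : ∀ b ∈ A', ∀ b' ∈ A', f (u b) b' + f (u b') b = 0 := by
    intro b hb b' hb'
    have h1 := hcon (b + b') (A'.add_mem hb hb')
    simp only [map_add, h.add_left, h.add_right, hcon b hb, hcon b' hb'] at h1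
    linear_combination h1
  have h0 : ∀ b ∈ A', ∀ b' ∈ A', f (u b) b' = 0 := by
    intro b hb b' hb'
    have h2 := h1 b hb b' hb'
    have h3 := h1 (l • b) (A'.smul_mem l hb) b' hb'
    rw [map_smul, h.smul_left, h.smul_right] at h3
    have h4 : (l - σ l) * f (u b) b' = 0 := by linear_combination h3 - σ l * h2
    rcases mul_eq_zero.1 h4 with h5 | h5
    · exact absurd (sub_eq_zero.1 h5).symm hl
    · exact h5
  apply hne
  ext x
  obtain ⟨a, ha, b, hb, rfl⟩ := S.decomp x
  have h2 : u b - b = 0 := by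
    refine S.inter (hσ b) (S.symm.perp _ fun b' hb' => ?_)
    rw [h.sub_left, S.isoA' b hb b' hb', sub_zero]
    exact h0 b hb b' hb'
  rw [map_add, hu a ha, sub_eq_zero.1 h2]
  rfl

lemma USetup.ut_mem [FiniteDimensional K V] (S : USetup h A A' M) {u : V ≃ₗ[K] V} (huM : u ∈ M)
    (hu : ∀ a ∈ A, u a = a) {a b : V} (ha : a ∈ A) (hb : b ∈ A') (hab : f a b = 0) (w : K) :
    ut h a ((w + σ w) * f (u b) b) ∈ M := by
  have hiso := S.hMiso u huM
  have hσ := S.sub_mem huM hu
  have huu : ∀ x, u (u x) = u x + (u x - x) := fun x => by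
    have := hu _ (hσ x)
    rw [map_sub] at this
    rw [← this]; abel
  have haa := S.isoA a ha a ha
  have hbb := S.isoA' b hb b hb
  have hba : f b a = 0 := h.swap_zero hab
  have hBa : ∀ y, f (u y) a = f y a := fun y => by
    have := hiso y a
    rwa [hu a ha] at this
  have hs : ∀ w, ur h a b w ∈ M := S.ur_mem ha hb hab
  have key : ut h a ((w + σ w) * f (u b) b) * (ur h a b w * u * ur h a b (-w)) *
      (ur h a b 1 * u * ur h a b (-1)) = (ur h a b (w + 1) * u * ur h a b (-(w + 1))) * u := by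
    ext x
    simp only [LinearEquiv.mul_apply, ur_apply h haa hab, ut_apply h haa,
      map_add, map_smul, map_neg, map_sub, map_one, h.add_left, h.sub_left, h.smul_left,
      hu a ha, huu, hBa, hba, hab, haa, hbb]
    module
  have h2 : ut h a ((w + σ w) * f (u b) b) = (ur h a b (w + 1) * u * ur h a b (-(w + 1))) * u *
      (ur h a b 1 * u * ur h a b (-1))⁻¹ * (ur h a b w * u * ur h a b (-w))⁻¹ := by
    rw [← key]; group
  rw [h2]
  exact M.mul_mem (M.mul_mem (M.mul_mem (M.mul_mem (M.mul_mem (hs _) huM) (hs _)) huM)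
    (M.inv_mem (M.mul_mem (M.mul_mem (hs _) huM) (hs _))))
    (M.inv_mem (M.mul_mem (M.mul_mem (hs _) huM) (hs _)))

lemma USetup.quad_trace (S : USetup h A A' M) {u : V ≃ₗ[K] V} (huM : u ∈ M)
    (hu : ∀ a ∈ A, u a = a) {b : V} (hb : b ∈ A') : f (u b) b + σ (f (u b) b) = 0 := by
  have hiso := S.hMiso u huM
  have hσ := S.sub_mem huM hu
  have h1 : f (u b) (u b) = 0 := by rw [hiso, S.isoA' b hb b hb]
  have h2 : f (u b) (u b - b) = f b (u b) := by
    rw [← hu _ (hσ b), hiso, h.sub_right, S.isoA' b hb b hb, sub_zero]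
  rw [h.sub_right, h1] at h2
  rw [← h.herm b (u b)]
  linear_combination -h2

lemma USetup.mem_ucen_of [FiniteDimensional K V] (S : USetup h A A' M) {u : V ≃ₗ[K] V}
    (huM : u ∈ M) (hu : ∀ a ∈ A, u a = a) {a b : V} (ha : a ∈ A) (hb : b ∈ A') (hab : f a b = 0)
    (hq : f (u b) b ≠ 0) : a ∈ ucen h M := by
  intro z hz
  have hκ := S.quad_trace huM hu hb
  have hσκ : σ (f (u b) b) = - f (u b) b := by linear_combination hκ
  have hσz : σ z = -z := by linear_combination hz
  obtain ⟨w, hw⟩ := h.trace_surj (z / f (u b) b) (by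
    rw [map_div₀, hσκ, hσz, neg_div_neg_eq])
  have := S.ut_mem huM hu ha hb hab w
  rw [hw] at this
  have h3 : z / f (u b) b * f (u b) b = z := by field_simp
  rwa [h3] at this

lemma USetup.le_ucen (S : USetup h A A' M) [FiniteDimensional K V] {u : V ≃ₗ[K] V} (huM : u ∈ M)
    (hu : ∀ a ∈ A, u a = a) (hne : u ≠ 1) : ∀ a ∈ A, a ∈ ucen h M := by
  obtain ⟨b0, hb0, hq⟩ := S.exists_quad huM hu hne
  intro a ha
  by_cases hab0 : f a b0 = 0
  · exact S.mem_ucen_of huM hu ha hb0 hab0 hq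
  · obtain ⟨a1, ha1, ha10, h1, -⟩ := exists_ker2 A S.dimA (h.fl b0) 0
    have h1' : f a1 b0 = 0 := h1
    have ha1c : a1 ∈ ucen h M := S.mem_ucen_of huM hu ha1 hb0 h1' hq
    obtain ⟨b1, hb1, h2⟩ := S.exists_pair ha1 ha10
    have h2' : f b1 a1 ≠ 0 := h.swap_ne h2
    have hb0a : f b0 a ≠ 0 := h.swap_ne hab0
    have hb0a1 : f b0 a1 = 0 := h.swap_zero h1'
    set β := (f b1 a1)⁻¹ with hβ
    set α := (1 - β * f b1 a) / f b0 a with hα
    set b := α • b0 + β • b1 with hb
    have hbA : b ∈ A' := A'.add_mem (A'.smul_mem _ hb0) (A'.smul_mem _ hb1)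
    have e1 : f b a1 = 1 := by
      simp only [hb, h.add_left, h.smul_left, hb0a1, hβ]
      field_simp
      ring
    have e2 : f b a = 1 := by
      simp only [hb, h.add_left, h.smul_left, hα]
      field_simp
      ring
    have e1' : f a1 b = 1 := by rw [h.herm, e1, map_one]
    have e2' : f a b = 1 := by rw [h.herm, e2, map_one]
    have e3 : f (a - a1) b = 0 := by
      rw [h.sub_left, e1', e2', sub_self]
    have haa1 := S.isoA _ (A.sub_mem ha ha1) _ (A.sub_mem ha ha1)
    have h3 := ucen_map h _ (S.ur_mem (A.sub_mem ha ha1) hbA e3 (-1))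
      (ur_isometry h haa1 (S.isoA' b hbA b hbA) e3 (-1)) ha1c
    rw [ur_apply h haa1 e3, e1', S.isoA a1 ha1 _ (A.sub_mem ha ha1)] at h3
    have h4 : a1 + (-1 * (0 : K)) • b - (σ (-1) * 1) • (a - a1) = a := by
      rw [map_neg, map_one]
      module
    rwa [h4] at h3

/-- the group of isometries of determinant one -/
def suGroup (_h : Herm σ f) : Subgroup (V ≃ₗ[K] V) where
  carrier := {e | (∀ x y, f (e x) (e y) = f x y) ∧ LinearEquiv.det e = 1}
  mul_mem' := by
    rintro a b ⟨ha, ha'⟩ ⟨hb, hb'⟩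
    refine ⟨fun x y => ?_, ?_⟩
    · rw [LinearEquiv.mul_apply, LinearEquiv.mul_apply, ha, hb]
    · rw [map_mul, ha', hb', one_mul]
  one_mem' := ⟨fun x y => rfl, map_one _⟩
  inv_mem' := by
    rintro a ⟨ha, ha'⟩
    refine ⟨fun x y => ?_, ?_⟩
    · have h1 : ∀ x, a (a⁻¹ x) = x := fun x => a.apply_symm_apply x
      rw [← ha, h1, h1]
    · rw [map_inv, ha', inv_one]

lemma mem_suGroup (h : Herm σ f) (e : V ≃ₗ[K] V) :
    e ∈ suGroup h ↔ (∀ x y, f (e x) (e y) = f x y) ∧ LinearEquiv.det e = 1 := Iff.rfl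

/-- moving an arbitrary pair of complementary totally isotropic subspaces to the given one -/
theorem USetup.exists_move (S : USetup h A A' M) [FiniteDimensional K V]
    {T : Subgroup (V ≃ₗ[K] V)} (hT : ∀ v z, z + σ z = 0 → ut h v z ∈ T) (B B' : Submodule K V)
    (hB : ∀ x ∈ B, ∀ y ∈ B, f x y = 0) (hB' : ∀ x ∈ B', ∀ y ∈ B', f x y = 0)
    (hfr : finrank K B = finrank K A) (hfr' : finrank K B' = finrank K A') (hd : Disjoint B B') :
    ∃ t ∈ T, (∀ x ∈ B, t x ∈ A) ∧ (∀ x ∈ B', t x ∈ A') := by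
  obtain ⟨t1, ht1T, ht1iso, ht1⟩ := exists_move_max h hT A S.isoA S.perp (finrank K A) B hB hfr
    (by omega)
  set B1 := B'.map (t1 : V →ₗ[K] V) with hB1
  have hB1iso : ∀ x ∈ B1, ∀ y ∈ B1, f x y = 0 := by
    rintro _ ⟨x, hx, rfl⟩ _ ⟨y, hy, rfl⟩
    simp only [LinearEquiv.coe_coe]
    rw [ht1iso]
    exact hB' x hx y hy
  have hdisj : Disjoint A B1 := by
    rw [Submodule.disjoint_def]
    rintro _ hxA ⟨x, hx, rfl⟩
    rw [← ht1] at hxA
    obtain ⟨y, hy, hyx⟩ := hxA
    have h1 : y = x := t1.injective hyx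
    have h2 : x = 0 := (Submodule.disjoint_def.1 hd) x (h1 ▸ hy) hx
    rw [h2]
    simp
  obtain ⟨t2, ht2T, -, ht2A, ht2⟩ := exists_move_compl h hT A A' S.isoA S.perp S.isoA' S.compl
    (finrank K A') B1 hB1iso (by rw [hB1, LinearEquiv.finrank_map_eq]; exact hfr') hdisj (by omega)
  refine ⟨t2 * t1, T.mul_mem ht2T ht1T, fun x hx => ?_, fun x hx => ?_⟩
  · have h1 : t1 x ∈ A := by rw [← ht1]; exact ⟨x, hx, rfl⟩
    rw [LinearEquiv.mul_apply, ht2A _ h1]
    exact h1
  · rw [LinearEquiv.mul_apply, ← ht2]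
    exact ⟨t1 x, ⟨x, hx, rfl⟩, rfl⟩

lemma ut_mem_suGroup [FiniteDimensional K V] (h : Herm σ f) (v : V) (z : K) (hz : z + σ z = 0) :
    ut h v z ∈ suGroup h := ⟨ut_isometry h v z hz, ut_det h v z⟩

lemma USetup.exists_swap (S : USetup h A A' M) [FiniteDimensional K V] :
    ∃ J ∈ M, (∀ x ∈ A, J x ∈ A') ∧ (∀ x ∈ A', J x ∈ A) := by
  obtain ⟨t, ht, h1, h2⟩ := S.exists_move (ut_mem_suGroup h) A' A S.isoA' S.isoA S.dimEq.symm
    S.dimEq S.compl.symm.disjoint
  exact ⟨t, S.hM t ht.1 ht.2 (Or.inr ⟨h2, h1⟩), h2, h1⟩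

/-- once all transvections lie in `M`, everything does -/
theorem USetup.mem_of_ucen (S : USetup h A A' M) [FiniteDimensional K V]
    (hall : ∀ v, v ∈ ucen h M) (e : V ≃ₗ[K] V) (he : ∀ x y, f (e x) (e y) = f x y)
    (hdet : LinearEquiv.det e = 1) : e ∈ M := by
  have hT : ∀ v z, z + σ z = 0 → ut h v z ∈ M ⊓ suGroup h :=
    fun v z hz => ⟨hall v z hz, ut_mem_suGroup h v z hz⟩
  obtain ⟨t, ht, h1, h2⟩ := S.exists_move hT (A.map (e : V →ₗ[K] V)) (A'.map (e : V →ₗ[K] V))
    (by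
      rintro _ ⟨x, hx, rfl⟩ _ ⟨y, hy, rfl⟩
      simp only [LinearEquiv.coe_coe]
      rw [he]
      exact S.isoA x hx y hy)
    (by
      rintro _ ⟨x, hx, rfl⟩ _ ⟨y, hy, rfl⟩
      simp only [LinearEquiv.coe_coe]
      rw [he]
      exact S.isoA' x hx y hy)
    (LinearEquiv.finrank_map_eq _ _) (LinearEquiv.finrank_map_eq _ _)
    (by
      rw [Submodule.disjoint_def]
      rintro _ ⟨x, hx, rfl⟩ ⟨y, hy, hyx⟩
      have h1 : y = x := e.injective hyx
      have h2 : x = 0 := S.inter hx (h1 ▸ hy)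
      rw [h2]
      simp)
  have h3 : t * e ∈ M := by
    refine S.hM _ (fun x y => ?_) ?_ (Or.inl ⟨fun x hx => ?_, fun x hx => ?_⟩)
    · rw [LinearEquiv.mul_apply, LinearEquiv.mul_apply, ht.2.1, he]
    · rw [map_mul, ht.2.2, hdet, one_mul]
    · exact h1 _ ⟨x, hx, rfl⟩
    · exact h2 _ ⟨x, hx, rfl⟩
  have h4 : e = t⁻¹ * (t * e) := by group
  rw [h4]
  exact M.mul_mem (M.inv_mem ht.1) h3

/-- a nontrivial element of `M` fixing `A` pointwise forces all transvections into `M` -/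
theorem USetup.ucen_univ_of_unip (S : USetup h A A' M) [FiniteDimensional K V] {u : V ≃ₗ[K] V}
    (huM : u ∈ M) (hu : ∀ a ∈ A, u a = a) (hne : u ≠ 1) : ∀ v, v ∈ ucen h M := by
  have hAc := S.le_ucen huM hu hne
  obtain ⟨J, hJM, hJA, hJA'⟩ := S.exists_swap
  have hA'c : ∀ b ∈ A', b ∈ ucen h M := by
    intro b hb
    have h1 := ucen_map h J⁻¹ (M.inv_mem hJM) (S.hMiso _ (M.inv_mem hJM)) (hAc _ (hJA' b hb))
    have h2 : J⁻¹ (J b) = b := J.symm_apply_apply b
    rwa [h2] at h1
  intro v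
  by_cases hvv : f v v = 0
  · obtain ⟨a, ha, b, hb, rfl⟩ := S.decomp v
    have htr : f a b + σ (f a b) = 0 := by
      simp only [h.add_left, h.add_right, S.isoA a ha a ha, S.isoA' b hb b hb] at hvv
      rw [← h.herm b a]
      linear_combination hvv
    by_cases hab : f a b = 0
    · by_cases ha0 : a = 0
      · rw [ha0, zero_add]; exact hA'c b hb
      · obtain ⟨b0, hb0, h1⟩ := S.exists_pair ha ha0
        obtain ⟨z, hz0, hz⟩ := h.exists_z
        obtain ⟨c, hc⟩ := exists_scale h h1 z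
        set b1 := c • b0 with hb1def
        have hb1 : b1 ∈ A' := A'.smul_mem c hb0
        have h2 : a + b1 ∈ ucen h M :=
          ucen_add h (hAc a ha) (hA'c b1 hb1) (S.isoA' b1 hb1 b1 hb1) (by rw [hc]; exact hz0)
            (by rw [hc]; exact hz)
        have h5 : f (a + b1) (b - b1) = -z := by
          simp only [h.add_left, h.sub_right, hab, S.isoA' b1 hb1 b hb, S.isoA' b1 hb1 b1 hb1, hc]
          ring
        have h3 : (a + b1) + (b - b1) ∈ ucen h M := by
          refine ucen_add h h2 (hA'c _ (A'.sub_mem hb hb1))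
            (S.isoA' _ (A'.sub_mem hb hb1) _ (A'.sub_mem hb hb1)) ?_ ?_
          · rw [h5]; exact neg_ne_zero.2 hz0
          · rw [h5, map_neg]; linear_combination -hz
        have h4 : (a + b1) + (b - b1) = a + b := by abel
        rwa [h4] at h3
    · exact ucen_add h (hAc a ha) (hA'c b hb) (S.isoA' b hb b hb) hab htr
  · exact ucen_of_not h M hvv

/-- Lemma 1 -/
theorem USetup.ucen_univ_of_ur (S : USetup h A A' M) [FiniteDimensional K V] {c c' : V}
    (hc : c ∈ A) (hc0 : c ≠ 0) (hcc' : f c c' = 0) (hc' : c' ∉ A') (hs : ∀ w, ur h c c' w ∈ M) :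
    ∀ v, v ∈ ucen h M := by
  obtain ⟨a2, ha2, b2, hb2, hsum⟩ := S.decomp c'
  have ha20 : a2 ≠ 0 := by
    rintro rfl
    apply hc'
    rw [← hsum, zero_add]
    exact hb2
  have hcc : f c c = 0 := S.isoA c hc c hc
  have hcb2 : f c b2 = 0 := by
    have := hcc'
    rw [← hsum, h.add_right, S.isoA c hc a2 ha2, zero_add] at this
    exact this
  have hb2c : f b2 c = 0 := h.swap_zero hcb2
  have hs2 : ∀ w, ur h c b2 w ∈ M := S.ur_mem hc hb2 hcb2
  have happ : ∀ w x, (ur h c c' w * ur h c b2 (-w)) x =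
      x + ((w * f x c) • a2 - (σ w * f x a2) • c + (w * σ w * f x c * f b2 a2) • c) := by
    intro w x
    rw [LinearEquiv.mul_apply, ur_apply h hcc hcb2, ur_apply h hcc hcc', ← hsum]
    simp only [h.add_left, h.sub_left, h.smul_left, h.add_right, map_neg, hcc, hb2c, hcb2,
      S.isoA c hc a2 ha2, S.isoA' b2 hb2 b2 hb2]
    module
  have hfix : ∀ w, ∀ y ∈ A, (ur h c c' w * ur h c b2 (-w)) y = y := by
    intro w y hy
    rw [happ, S.isoA y hy c hc, S.isoA y hy a2 ha2]
    simp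
  have hmem : ∀ w, ur h c c' w * ur h c b2 (-w) ∈ M := fun w => M.mul_mem (hs w) (hs2 _)
  obtain ⟨l, hl⟩ := Cfsg.Agent.Lib.Helper17Herm.exists_ne_fix σ h.ne_id
  by_cases h1 : ur h c c' 1 * ur h c b2 (-1) = 1
  · refine S.ucen_univ_of_unip (hmem l) (hfix l) ?_
    intro h2
    obtain ⟨x, hx, hxc⟩ := S.exists_pair hc hc0
    have hxc' : f x c ≠ 0 := h.swap_ne hxc
    have e1 := happ 1 x
    rw [h1] at e1
    have e1' := left_eq_add.1 e1
    have e2 := happ l x
    rw [h2] at e2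
    have e2' := left_eq_add.1 e2
    rw [map_one] at e1'
    set μ := (f x a2 - f x c * f b2 a2) / f x c with hμ
    have h5 : a2 = μ • c := by
      have h6 : f x c • a2 = f x c • (μ • c) := by
        have h7 : f x c * μ = f x a2 - f x c * f b2 a2 := by
          rw [hμ]; field_simp
        rw [smul_smul, h7]
        linear_combination (norm := module) e1'
      exact smul_right_injective V hxc' h6
    have h6 : f b2 a2 = 0 := by rw [h5, h.smul_right, hb2c, mul_zero]
    have h7 : f x a2 = σ μ * f x c := by rw [h5, h.smul_right]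
    rw [h6, h7, h5] at e1' e2'
    have e3 : ((μ - σ μ) * f x c) • c = 0 := by
      linear_combination (norm := module) e1'
    have e4 : ((l * μ - σ l * σ μ) * f x c) • c = 0 := by
      linear_combination (norm := module) e2'
    have e5 : μ - σ μ = 0 := by
      rcases smul_eq_zero.1 e3 with h8 | h8
      · exact (mul_eq_zero.1 h8).resolve_right hxc'
      · exact absurd h8 hc0
    have e6 : l * μ - σ l * σ μ = 0 := by
      rcases smul_eq_zero.1 e4 with h8 | h8
      · exact (mul_eq_zero.1 h8).resolve_right hxc'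
      · exact absurd h8 hc0
    have e7 : (l - σ l) * μ = 0 := by linear_combination e6 - σ l * e5
    rcases mul_eq_zero.1 e7 with h8 | h8
    · exact hl (sub_eq_zero.1 h8).symm
    · apply ha20
      rw [h5, h8, zero_smul]
  · exact S.ucen_univ_of_unip (hmem 1) (hfix 1) h1

/-- Claim 2 -/
theorem USetup.ucen_univ_of_pair (S : USetup h A A' M) [FiniteDimensional K V]
    (C C' : Submodule K V) (hC : 3 ≤ finrank K C) (hC' : 3 ≤ finrank K C')
    (hCi : ∀ x ∈ C, f x x = 0) (hCi' : ∀ x ∈ C', f x x = 0)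
    (hs : ∀ c ∈ C, ∀ c' ∈ C', f c c' = 0 → ∀ w, ur h c c' w ∈ M)
    {c0 : V} (hc0C : c0 ∈ C) (hc0A : c0 ∈ A) (hc00 : c0 ≠ 0) (hnot : ¬ (C ≤ A ∧ C' ≤ A')) :
    ∀ v, v ∈ ucen h M := by
  by_cases hCA : C ≤ A
  · have hC'A' : ¬ C' ≤ A' := fun h0 => hnot ⟨hCA, h0⟩
    obtain ⟨y', hy'C, hy'A⟩ := SetLike.not_le_iff_exists.1 hC'A'
    obtain ⟨c, hcC, hc0, h1, -⟩ := exists_ker2 C hC (h.fl y') 0
    exact S.ucen_univ_of_ur (hCA hcC) hc0 h1 hy'A (hs c hcC y' hy'C h1)
  · obtain ⟨y, hyC, hyA⟩ := SetLike.not_le_iff_exists.1 hCA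
    obtain ⟨c', hc'C, hc'0, h1, h2⟩ := exists_ker2 C' hC' (h.fl c0) (h.fl y)
    have h1' : f c0 c' = 0 := h.swap_zero h1
    have h2' : f y c' = 0 := h.swap_zero h2
    by_cases hc'A : c' ∈ A'
    · refine S.symm.ucen_univ_of_ur hc'A hc'0 h2 hyA fun w => ?_
      rw [ur_swap h (hCi' c' hc'C) (hCi y hyC) h2]
      exact hs y hyC c' hc'C h2' _
    · exact S.ucen_univ_of_ur hc0A hc00 h1' hc'A (hs c0 hc0C c' hc'C h1')

lemma USetup.ur_map_mem (S : USetup h A A' M) [FiniteDimensional K V] {g : V ≃ₗ[K] V}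
    (hg : g ∈ M) : ∀ c ∈ A.map (g : V →ₗ[K] V), ∀ c' ∈ A'.map (g : V →ₗ[K] V), f c c' = 0 →
      ∀ w, ur h c c' w ∈ M := by
  rintro _ ⟨a, ha, rfl⟩ _ ⟨b, hb, rfl⟩ h0 w
  have hiso := S.hMiso g hg
  have hab : f a b = 0 := by rw [← hiso]; exact h0
  have := conj_ur h g hiso (S.isoA a ha a ha) hab w
  simp only [LinearEquiv.coe_coe]
  rw [← this]
  exact M.mul_mem (M.mul_mem hg (S.ur_mem ha hb hab w)) (M.inv_mem hg)

lemma USetup.map_iso (S : USetup h A A' M) {g : V ≃ₗ[K] V} (hg : g ∈ M) :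
    ∀ x ∈ A.map (g : V →ₗ[K] V), f x x = 0 := by
  rintro _ ⟨a, ha, rfl⟩
  simp only [LinearEquiv.coe_coe]
  rw [S.hMiso g hg]
  exact S.isoA a ha a ha

/-- a proper overgroup contains all unitary transvections -/
theorem USetup.ucen_univ (S : USetup h A A' M) [FiniteDimensional K V] {g : V ≃ₗ[K] V}
    (hgM : g ∈ M) (hg : ¬ InH A A' g) : ∀ v, v ∈ ucen h M := by
  set C := A.map (g : V →ₗ[K] V) with hCdef
  set C' := A'.map (g : V →ₗ[K] V) with hC'def
  have hC : 3 ≤ finrank K C := by rw [hCdef, LinearEquiv.finrank_map_eq]; exact S.dimA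
  have hC' : 3 ≤ finrank K C' := by rw [hC'def, LinearEquiv.finrank_map_eq]; exact S.dimA'
  have hCi : ∀ x ∈ C, f x x = 0 := S.map_iso hgM
  have hCi' : ∀ x ∈ C', f x x = 0 := S.symm.map_iso hgM
  have hs := S.ur_map_mem hgM
  have hs' : ∀ c ∈ C', ∀ c' ∈ C, f c c' = 0 → ∀ w, ur h c c' w ∈ M := by
    intro c hc c' hc' h0 w
    rw [ur_swap h (hCi' c hc) (hCi c' hc') h0]
    exact hs c' hc' c hc (h.swap_zero h0) _
  have hle : ∀ (X Y : Submodule K V), X.map (g : V →ₗ[K] V) ≤ Y → ∀ x ∈ X, g x ∈ Y :=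
    fun X Y h0 x hx => h0 ⟨x, hx, rfl⟩
  by_cases h1 : ∃ x ∈ C, x ∈ A ∧ x ≠ 0
  · obtain ⟨x, hxC, hxA, hx0⟩ := h1
    exact S.ucen_univ_of_pair C C' hC hC' hCi hCi' hs hxC hxA hx0
      (fun h0 => hg (Or.inl ⟨hle _ _ h0.1, hle _ _ h0.2⟩))
  by_cases h2 : ∃ x ∈ C, x ∈ A' ∧ x ≠ 0
  · obtain ⟨x, hxC, hxA, hx0⟩ := h2
    exact S.symm.ucen_univ_of_pair C C' hC hC' hCi hCi' hs hxC hxA hx0
      (fun h0 => hg (Or.inr ⟨hle _ _ h0.1, hle _ _ h0.2⟩))
  by_cases h3 : ∃ x ∈ C', x ∈ A ∧ x ≠ 0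
  · obtain ⟨x, hxC, hxA, hx0⟩ := h3
    exact S.ucen_univ_of_pair C' C hC' hC hCi' hCi hs' hxC hxA hx0
      (fun h0 => hg (Or.inr ⟨hle _ _ h0.2, hle _ _ h0.1⟩))
  by_cases h4 : ∃ x ∈ C', x ∈ A' ∧ x ≠ 0
  · obtain ⟨x, hxC, hxA, hx0⟩ := h4
    exact S.symm.ucen_univ_of_pair C' C hC' hC hCi' hCi hs' hxC hxA hx0
      (fun h0 => hg (Or.inl ⟨hle _ _ h0.2, hle _ _ h0.1⟩))
  push Not at h1 h2 h3 h4
  -- general position
  obtain ⟨c, hcC, hc0, -, -⟩ := exists_ker2 C hC 0 0
  obtain ⟨c', hc'C, hc'0, hc'c, -⟩ := exists_ker2 C' hC' (h.fl c) 0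
  have hcc' : f c c' = 0 := h.swap_zero hc'c
  have hcc : f c c = 0 := hCi c hcC
  have hcA : c ∉ A := fun h0 => hc0 (h1 c hcC h0)
  have hc'A : c' ∉ A := fun h0 => hc'0 (h3 c' hc'C h0)
  obtain ⟨x, hxA, hx1, hx2⟩ := exists_both_ne_zero A (h.fl c) (h.fl c')
    (by
      by_contra hcon
      push Not at hcon
      exact hcA (S.perp c fun a ha => h.swap_zero (hcon a ha)))
    (by
      by_contra hcon
      push Not at hcon
      exact hc'A (S.perp c' fun a ha => h.swap_zero (hcon a ha)))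
  have hx1' : f x c ≠ 0 := hx1
  have hx2' : f x c' ≠ 0 := hx2
  have hx2'' : f c' x ≠ 0 := h.swap_ne hx2'
  obtain ⟨l, hl⟩ := Cfsg.Agent.Lib.Helper17Herm.exists_ne_fix σ h.ne_id
  set w := l / (f x c * f c' x) with hw
  have hg' : ur h c c' w ∈ M := hs c hcC c' hc'C hcc' w
  obtain ⟨x0, hx0A, hx00, e1, e2⟩ := exists_ker2 A S.dimA (h.fl c) (h.fl c')
  have e1' : f x0 c = 0 := e1
  have e2' : f x0 c' = 0 := e2
  have hfix : ur h c c' w x0 = x0 := by
    rw [ur_apply h hcc hcc', e1', e2']; simp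
  refine S.ucen_univ_of_pair (A.map (ur h c c' w : V →ₗ[K] V)) (A'.map (ur h c c' w : V →ₗ[K] V))
    (by rw [LinearEquiv.finrank_map_eq]; exact S.dimA)
    (by rw [LinearEquiv.finrank_map_eq]; exact S.dimA') (S.map_iso hg') (S.symm.map_iso hg')
    (S.ur_map_mem hg') ⟨x0, hx0A, hfix⟩ hx0A hx00 ?_
  rintro ⟨h5, -⟩
  have h6 : ur h c c' w x ∈ A := h5 ⟨x, hxA, rfl⟩
  have h7 := S.isoA _ h6 x hxA
  rw [ur_apply h hcc hcc'] at h7
  simp only [h.add_left, h.sub_left, h.smul_left, S.isoA x hxA x hxA] at h7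
  have h8 : w * f x c * f c' x = l := by
    rw [hw]; field_simp
  have h9 : σ w * f x c' * f c x = σ l := by
    rw [← h8, map_mul, map_mul, ← h.herm c x, ← h.herm x c']
    ring
  apply hl
  linear_combination -h7 + h8 - h9

/-- the main theorem: a proper overgroup is everything -/
theorem USetup.mem_of_not_inH (S : USetup h A A' M) [FiniteDimensional K V] {g : V ≃ₗ[K] V}
    (hgM : g ∈ M) (hg : ¬ InH A A' g) (e : V ≃ₗ[K] V) (he : ∀ x y, f (e x) (e y) = f x y)
    (hdet : LinearEquiv.det e = 1) : e ∈ M :=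
  S.mem_of_ucen (S.ucen_univ hgM hg) e he hdet

/-- the stabiliser is a proper subgroup -/
theorem USetup.exists_not_inH (S : USetup h A A' M) [FiniteDimensional K V] :
    ∃ e : V ≃ₗ[K] V, (∀ x y, f (e x) (e y) = f x y) ∧ LinearEquiv.det e = 1 ∧ ¬ InH A A' e := by
  obtain ⟨a, ha, ha0, -, -⟩ := exists_ker2 A S.dimA 0 0
  obtain ⟨b0, hb0, h1⟩ := S.exists_pair ha ha0
  obtain ⟨z, hz0, hz⟩ := h.exists_z
  obtain ⟨c, hc⟩ := exists_scale h h1 z
  set b := c • b0 with hbdef
  have hb : b ∈ A' := A'.smul_mem c hb0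
  obtain ⟨a1, ha1, ha10, h2, -⟩ := exists_ker2 A S.dimA (h.fl b) 0
  have h2' : f a1 b = 0 := h2
  have hba : f b a = σ z := by rw [h.herm, hc]
  have hvv : f (a + b) (a + b) = 0 := by
    simp only [h.add_left, h.add_right, S.isoA a ha a ha, S.isoA' b hb b hb, hc, hba]
    linear_combination hz
  refine ⟨ut h (a + b) z, ut_isometry h _ _ hz, ut_det h _ _, ?_⟩
  rintro (⟨h3, -⟩ | ⟨h3, -⟩)
  · have h4 := h3 a ha
    rw [ut_apply h hvv, h.add_right, S.isoA a ha a ha, hc, zero_add, smul_add] at h4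
    have h5 : (z * z) • b ∈ A := by
      have := A.sub_mem (A.sub_mem h4 ha) (A.smul_mem (z * z) ha)
      have e : a + ((z * z) • a + (z * z) • b) - a - (z * z) • a = (z * z) • b := by abel
      rwa [e] at this
    have h6 : b ∈ A := (A.smul_mem_iff (mul_ne_zero hz0 hz0)).1 h5
    have h7 : b = 0 := S.inter h6 hb
    apply hz0
    rw [← hc, h7, h.zero_right]
  · have h4 := h3 a1 ha1
    rw [ut_apply h hvv, h.add_right, S.isoA a1 ha1 a ha, h2', add_zero, mul_zero, zero_smul,
      add_zero] at h4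
    exact ha10 (S.inter ha1 h4)

end Cfsg.Agent.Lib.Helper96Unit
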