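import Cfsg.Prelude.Def_LieClassical
import Cfsg.Agent.Lib.Helper18Herm
import Cfsg.Agent.Lib.Helper95Form
import Cfsg.Agent.Lib.Helper95Herm

set_option autoImplicit false

namespace Cfsg.Agent.Lib.Helper96UnitStd

open Module Cfsg.Agent.Lib.Helper95Basic Cfsg.Agent.Lib.Helper95Form Cfsg.Agent.Lib.Helper95Herm
  Cfsg.Agent.Lib.Helper18Herm

variable {F : Type*} [Field F] [Fintype F] {q : ℕ}

theorem sig_ne_id (hF : Fintype.card F = q ^ 2) : sig hF ≠ RingHom.id F := by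
  classical
  intro h
  have hq := one_lt_q hF
  have h1 : ∀ x : F, x ^ q = x := fun x => by rw [← sig_apply hF, h]; rfl
  have h2 : (Polynomial.X ^ q - Polynomial.X : Polynomial F) ≠ 0 :=
    FiniteField.X_pow_card_sub_X_ne_zero F (by omega)
  have h3 : (Finset.univ : Finset F) ⊆
      (Polynomial.X ^ q - Polynomial.X : Polynomial F).roots.toFinset := by
    intro x _
    rw [Multiset.mem_toFinset, Polynomial.mem_roots h2]
    simp [h1 x]
  have h4 := Finset.card_le_card h3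
  have h5 := (Multiset.toFinset_card_le _).trans
    (Polynomial.card_roots' (Polynomial.X ^ q - Polynomial.X : Polynomial F))
  rw [FiniteField.X_pow_card_sub_X_natDegree_eq F (by omega)] at h5
  rw [Finset.card_univ, hF] at h4
  nlinarith

/-- the standard Hermitian form is a `Herm` -/
theorem hermStd (hF : Fintype.card F = q ^ 2) (n : ℕ) : Herm (sig hF) (Cfsg.hermForm n F q) where
  ne_id := sig_ne_id hF
  invol := fun a => pow_q_q hF a
  add_left := herm_add_left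
  smul_left := herm_smul_left
  herm := fun v w => (herm_conj hF w v).symm
  nondeg := fun v hv => by
    by_contra hcon
    push Not at hcon
    exact ell_ne_zero (q := q) v hv (LinearMap.ext hcon)

omit [Fintype F] in
lemma mkGL_mem_GU_iff (n : ℕ) (e : (Fin n → F) ≃ₗ[F] (Fin n → F)) :
    mkGL e ∈ Cfsg.GU n F q ↔
      ∀ u v, Cfsg.hermForm n F q (e u) (e v) = Cfsg.hermForm n F q u v := by
  have : mkGL e ∈ Cfsg.GU n F q ↔ ∀ u v, Cfsg.hermForm n F q
      (((mkGL e : GL (Fin n) F) : Matrix (Fin n) (Fin n) F).mulVec u)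
      (((mkGL e : GL (Fin n) F) : Matrix (Fin n) (Fin n) F).mulVec v) =
        Cfsg.hermForm n F q u v := Iff.rfl
  rw [this]
  simp only [mkGL_mulVec]

omit [Fintype F] in
lemma mkGL_mem_specialLinear_iff (n : ℕ) (e : (Fin n → F) ≃ₗ[F] (Fin n → F)) :
    mkGL e ∈ Cfsg.Geo.specialLinear (Fin n) F ↔ LinearEquiv.det e = 1 := by
  rw [mem_specialLinear_iff, det_mkGL, ← LinearEquiv.coe_det]
  exact Units.val_eq_one

omit [Fintype F] in
lemma mkGL_mem_SU_iff (n : ℕ) (e : (Fin n → F) ≃ₗ[F] (Fin n → F)) :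
    mkGL e ∈ Cfsg.GU n F q ⊓ Cfsg.Geo.specialLinear (Fin n) F ↔
      (∀ u v, Cfsg.hermForm n F q (e u) (e v) = Cfsg.hermForm n F q u v) ∧
        LinearEquiv.det e = 1 := by
  rw [Subgroup.mem_inf, mkGL_mem_GU_iff, mkGL_mem_specialLinear_iff]

omit [Fintype F] in
/-- General wrapper: maximality in `SU`. -/
theorem su_maximal (n : ℕ) (X : Subgroup (GL (Fin n) F))
    (h1 : ∃ e : (Fin n → F) ≃ₗ[F] (Fin n → F),
      (∀ u v, Cfsg.hermForm n F q (e u) (e v) = Cfsg.hermForm n F q u v) ∧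
        LinearEquiv.det e = 1 ∧ mkGL e ∉ X)
    (h2 : ∀ M : Subgroup ((Fin n → F) ≃ₗ[F] (Fin n → F)),
      (∀ e, (∀ u v, Cfsg.hermForm n F q (e u) (e v) = Cfsg.hermForm n F q u v) →
        LinearEquiv.det e = 1 → mkGL e ∈ X → e ∈ M) →
      (∀ e ∈ M, (∀ u v, Cfsg.hermForm n F q (e u) (e v) = Cfsg.hermForm n F q u v) ∧
        LinearEquiv.det e = 1) →
      ∀ g ∈ M, mkGL g ∉ X →
        ∀ e, (∀ u v, Cfsg.hermForm n F q (e u) (e v) = Cfsg.hermForm n F q u v) →
          LinearEquiv.det e = 1 → e ∈ M) :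
    Cfsg.Geo.IsMaximalIn (Cfsg.GU n F q ⊓ Cfsg.Geo.specialLinear (Fin n) F)
      (X ⊓ (Cfsg.GU n F q ⊓ Cfsg.Geo.specialLinear (Fin n) F)) := by
  constructor
  · refine lt_of_le_of_ne inf_le_right ?_
    intro heq
    obtain ⟨e, he, hd, heX⟩ := h1
    have : mkGL e ∈ Cfsg.GU n F q ⊓ Cfsg.Geo.specialLinear (Fin n) F :=
      (mkGL_mem_SU_iff n e).2 ⟨he, hd⟩
    rw [← heq] at this
    exact heX this.1
  · intro M hHM hMS
    by_cases hMH : M ≤ X ⊓ (Cfsg.GU n F q ⊓ Cfsg.Geo.specialLinear (Fin n) F)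
    · exact Or.inl (le_antisymm hMH hHM)
    · right
      refine le_antisymm hMS ?_
      obtain ⟨g, hgM, hgH⟩ := SetLike.not_le_iff_exists.1 hMH
      have hgX : g ∉ X := fun h => hgH ⟨h, hMS hgM⟩
      have hall := h2 (pull M)
        (fun e he hd heX => (mem_pull M e).2 (hHM ⟨heX, (mkGL_mem_SU_iff n e).2 ⟨he, hd⟩⟩))
        (fun e he => (mkGL_mem_SU_iff n e).1 (hMS ((mem_pull M e).1 he)))
        (glEquiv _ F g) ((glEquiv_mem_pull M g).2 hgM) (by rwa [mkGL_glEquiv])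
      intro x hx
      have hx' := (mkGL_mem_SU_iff n (glEquiv _ F x)).1 (by rw [mkGL_glEquiv]; exact hx)
      exact (glEquiv_mem_pull M x).1 (hall _ hx'.1 hx'.2)

end Cfsg.Agent.Lib.Helper96UnitStd
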