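import Cfsg.Agent.Lib.Helper97CSemi

set_option autoImplicit false
set_option linter.unusedSectionVars false

namespace Cfsg.Agent.Lib.Helper97CBlocks

open Cfsg Cfsg.Geo Matrix Cfsg.Agent.Lib.Helper97GBase Cfsg.Agent.Lib.Helper97GSchur
  Cfsg.Agent.Lib.Helper97GClifford Cfsg.Agent.Lib.Helper97CSemi
open scoped MatrixGroups

variable {ι : Type} [Fintype ι] [DecidableEq ι] {F : Type*} [Field F]

/-- the centralizer algebra of a group -/
abbrev Cen (T : Subgroup (GL ι F)) : Subalgebra F (Matrix ι ι F) :=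
  Subalgebra.centralizer F (matrixSet T)

/-- invariance under a group and under its centralizer algebra -/
def Inv2 (T : Subgroup (GL ι F)) (X : Submodule F (ι → F)) : Prop :=
  Inv T X ∧ ∀ c ∈ Cen T, ∀ x ∈ X, c *ᵥ x ∈ X

lemma conj_mem_Cen {G T : Subgroup (GL ι F)} (hnorm : Nz G T) {g : GL ι F} (hg : g ∈ G)
    {c : Matrix ι ι F} (hc : c ∈ Cen T) :
    ((g⁻¹ : GL ι F) : Matrix ι ι F) * c * (g : Matrix ι ι F) ∈ Cen T := by
  have h := (le_normalizer_centralizer hnorm (G.inv_mem hg)) c
  rw [inv_inv] at h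
  exact h.mp hc

lemma Inv2_gmap {G T : Subgroup (GL ι F)} (hnorm : Nz G T) {g : GL ι F} (hg : g ∈ G)
    {X : Submodule F (ι → F)} (hX : Inv2 T X) : Inv2 T (gmap g X) := by
  refine ⟨Inv_gmap hnorm hg hX.1, ?_⟩
  intro c hc v hv
  rw [mem_gmap] at hv ⊢
  have h1 := hX.2 _ (conj_mem_Cen hnorm hg hc) _ hv
  simp only [← Matrix.mulVec_mulVec] at h1
  simpa using h1

lemma Inv2_inf {T : Subgroup (GL ι F)} {U W : Submodule F (ι → F)} (hU : Inv2 T U)
    (hW : Inv2 T W) : Inv2 T (U ⊓ W) :=
  ⟨Inv_inf hU.1 hW.1, fun c hc v hv => ⟨hU.2 c hc v hv.1, hW.2 c hc v hv.2⟩⟩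

lemma Inv2_top {T : Subgroup (GL ι F)} : Inv2 T (⊤ : Submodule F (ι → F)) :=
  ⟨Inv_top, fun _ _ _ _ => Submodule.mem_top⟩

lemma exists_min_inv2 (hn : 0 < Fintype.card ι) (T : Subgroup (GL ι F)) :
    ∃ W : Submodule F (ι → F), Inv2 T W ∧ W ≠ ⊥ ∧
      ∀ W' : Submodule F (ι → F), Inv2 T W' → W' ≠ ⊥ →
        Module.finrank F W ≤ Module.finrank F W' := by
  classical
  have hex : ∃ k : ℕ, ∃ W : Submodule F (ι → F), Inv2 T W ∧ W ≠ ⊥ ∧ Module.finrank F W = k := by
    refine ⟨_, ⊤, Inv2_top, ?_, rfl⟩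
    intro h
    have h1 : Module.finrank F (⊤ : Submodule F (ι → F)) = Fintype.card ι := by
      rw [finrank_top, Module.finrank_fintype_fun_eq_card]
    rw [h, finrank_bot] at h1
    omega
  obtain ⟨W, hW, hW0, hWk⟩ := Nat.find_spec hex
  refine ⟨W, hW, hW0, ?_⟩
  intro W' hW' hW'0
  rw [hWk]
  exact Nat.find_min' hex ⟨W', hW', hW'0, rfl⟩

lemma inv2_iff {T : Subgroup (GL ι F)} {W : Submodule F (ι → F)} :
    (∀ s ∈ matrixSet T ∪ (Cen T : Set (Matrix ι ι F)), W.map (Matrix.toLin' s) ≤ W) ↔ Inv2 T W := by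
  constructor
  · intro h
    refine ⟨inv_iff.mp fun s hs => h s (Or.inl hs), fun c hc x hx => ?_⟩
    have := h c (Or.inr hc) ⟨x, hx, rfl⟩
    simpa [Matrix.toLin'_apply] using this
  · rintro h s (hs | hs)
    · exact inv_iff.mpr h.1 s hs
    · rintro _ ⟨x, hx, rfl⟩
      rw [Matrix.toLin'_apply]
      exact h.2 s hs x hx

/-- Clifford's theorem: either the space is irreducible for the normal subgroup together with its
centralizer algebra, or the ambient group permutes a system of blocks. -/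
theorem blocks [Finite F] [Nonempty ι] {G T : Subgroup (GL ι F)}
    (hG : ActsIrreducibly (matrixSet G)) (hnorm : Nz G T) :
    ActsIrreducibly (matrixSet T ∪ (Cen T : Set (Matrix ι ι F))) ∨
    ∃ (t m : ℕ) (D : Fin t → Submodule F (ι → F)), IsMDecomposition m D ∧
      G ≤ decompositionStabilizer D ∧ t * m = Fintype.card ι ∧ (∀ i, Inv2 T (D i)) ∧
      (∀ W : Submodule F (ι → F), Inv2 T W → W ≠ ⊥ → m ≤ Module.finrank F W) := by
  classical
  obtain ⟨X, hX, hX0, hmin⟩ := exists_min_inv2 Fintype.card_pos T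
  have hfin : Finite (Submodule F (ι → F)) :=
    Finite.of_injective (fun W : Submodule F (ι → F) => (W : Set (ι → F))) SetLike.coe_injective
  let O : Set (Submodule F (ι → F)) := Set.range (fun g : G => gmap (g : GL ι F) X)
  have : Fintype O := Fintype.ofFinite O
  let A : O → Submodule F (ι → F) := fun Y => Y.1
  have hAinv : ∀ Y : O, Inv2 T (A Y) := by
    rintro ⟨_, g, rfl⟩
    exact Inv2_gmap hnorm g.2 hX
  have hAfr : ∀ Y : O, Module.finrank F (A Y) = Module.finrank F X := by
    rintro ⟨_, g, rfl⟩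
    exact finrank_gmap _ X
  have hdisj : ∀ Y Y' : O, Y ≠ Y' → A Y ⊓ A Y' = ⊥ := by
    intro Y Y' hne
    by_contra hne0
    have h1 := hmin _ (Inv2_inf (hAinv Y) (hAinv Y')) hne0
    have h2 : A Y ⊓ A Y' = A Y := Submodule.eq_of_le_of_finrank_le inf_le_left (by rw [hAfr]; exact h1)
    have h3 : A Y ⊓ A Y' = A Y' := Submodule.eq_of_le_of_finrank_le inf_le_right (by rw [hAfr]; exact h1)
    exact hne (Subtype.ext (h2.symm.trans h3))
  have hAind : iSupIndep A := by
    rw [iSupIndep_def]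
    intro Y
    obtain ⟨Y', hY', hc⟩ := exists_inv_compl hG hnorm (hAinv Y).1
    obtain ⟨c, hcC, hc1, _, hc3⟩ := exists_proj (hAinv Y).1 hY' hc
    rw [Submodule.disjoint_def]
    intro x hx hx'
    have hle : (⨆ j, ⨆ (_ : j ≠ Y), A j) ≤ LinearMap.ker (Matrix.toLin' c) := by
      apply iSup₂_le
      intro j hj y hy
      rw [LinearMap.mem_ker, Matrix.toLin'_apply]
      have h1 : c *ᵥ y ∈ A Y ⊓ A j := ⟨hc3 y, (hAinv j).2 c hcC y hy⟩
      rwa [hdisj Y j (Ne.symm hj), Submodule.mem_bot] at h1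
    have h2 := hle hx'
    rw [LinearMap.mem_ker, Matrix.toLin'_apply, hc1 x hx] at h2
    exact h2
  have hAtop : iSup A = ⊤ := by
    by_contra hUt
    obtain ⟨g, hg, u, hu, hgu⟩ := exists_translate_not_le hG hX0 hUt
    apply hgu
    exact (le_iSup A ⟨_, ⟨g, hg⟩, rfl⟩) (mulVec_mem_gmap hu)
  have hsum := finrank_eq_sum_of_indep A hAind hAtop
  simp only [hAfr, Finset.sum_const, Finset.card_univ, smul_eq_mul,
    Module.finrank_fintype_fun_eq_card] at hsum
  have hmpos : 0 < Module.finrank F X := by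
    rw [Module.finrank_pos_iff]
    exact Submodule.nontrivial_iff_ne_bot.mpr hX0
  by_cases hO : Fintype.card O < 2
  · left
    have hO1 : Fintype.card O = 1 := by
      have h0 : Fintype.card O ≠ 0 := by
        intro h0
        rw [h0, zero_mul] at hsum
        exact Fintype.card_ne_zero hsum
      omega
    rw [hO1, one_mul] at hsum
    intro W hW
    rw [inv2_iff] at hW
    by_cases h0 : W = ⊥
    · exact Or.inl h0
    · right
      apply Submodule.eq_top_of_finrank_eq
      have h1 := hmin W hW h0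
      have h2 := Submodule.finrank_le W
      rw [Module.finrank_fintype_fun_eq_card] at h2 ⊢
      omega
  · right
    push Not at hO
    let e : Fin (Fintype.card O) ≃ O := (Fintype.equivFin O).symm
    let D : Fin (Fintype.card O) → Submodule F (ι → F) := fun i => A (e i)
    have hDind : iSupIndep D := hAind.comp e.injective
    have hDfr : ∀ i, Module.finrank F (D i) = Module.finrank F X := fun i => hAfr (e i)
    have hDne : ∀ i, D i ≠ ⊥ := by
      intro i h0
      have := hDfr i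
      rw [h0, finrank_bot] at this
      omega
    have hDinj : Function.Injective D := hDind.injective hDne
    refine ⟨Fintype.card O, Module.finrank F X, D, ⟨hO, hmpos, hDfr, hDind, ?_⟩, ?_, hsum.symm,
      fun i => hAinv (e i), hmin⟩
    · rw [← hAtop]
      exact e.surjective.iSup_comp A
    · intro g hg
      have hex : ∀ i, ∃ j, gmap g (D i) = D j := by
        intro i
        obtain ⟨g₀, hg₀⟩ := (e i).2
        refine ⟨e.symm ⟨gmap ((⟨g, hg⟩ * g₀ : G) : GL ι F) X, ⟨_, rfl⟩⟩, ?_⟩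
        show gmap g (e i).1 = (e (e.symm _)).1
        rw [Equiv.apply_symm_apply, ← hg₀, ← gmap_mul]
        rfl
      choose σ hσ using hex
      have hσinj : Function.Injective σ := by
        intro i j hij
        apply hDinj
        apply gmap_injective g
        rw [hσ, hσ, hij]
      exact ⟨Equiv.ofBijective σ (Finite.injective_iff_bijective.mp hσinj), fun i => hσ i⟩

end Cfsg.Agent.Lib.Helper97CBlocks
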