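import Cfsg.Agent.Lib.Helper97CPow
import Cfsg.Agent.Lib.Helper97GCore

set_option autoImplicit false
set_option linter.unusedSectionVars false

namespace Cfsg.Agent.Lib.Helper97CCore

open Cfsg.Agent.Lib.Helper97GCore
open scoped commutatorElement

section abstract

variable {𝔾 : Type*} [Group 𝔾]

theorem core_abstract' [Finite 𝔾] (Z : Subgroup 𝔾) (hZ : Z ≤ Subgroup.center 𝔾) (H : Subgroup 𝔾)
    (hns : ¬ H ≤ Z)
    (hno6 : ∀ T : Subgroup 𝔾, T ≤ H → NzG H T → ⁅T, T⁆ ≤ Z → T ≤ Z)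
    (hno7 : ∀ P T : Subgroup 𝔾, P ≤ H → NzG H P → ¬ P ≤ Z → T ≤ P → ¬ T ≤ Z →
      (∀ h ∈ H, cj h T ≠ T → ⁅T, cj h T⁆ = ⊥) → (∃ h ∈ H, cj h T ≠ T) →
      (⨆ h : H, cj (h : 𝔾) T) = P → False) :
    ∃ P : Subgroup 𝔾, P ≤ H ∧ NzG H P ∧ ¬ P ≤ Z ∧ ⁅P, P⁆ = P ∧
      ∀ T : Subgroup 𝔾, T ≤ P → NzG P T → T ≤ Z ∨ T = P := by
  classical
  have hZn : Z.Normal := by
    constructor
    intro z hz g
    have h2 := Subgroup.mem_center_iff.mp (hZ hz) g
    have h3 : g * z * g⁻¹ = z := by rw [h2]; group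
    rw [h3]; exact hz
  obtain ⟨P, ⟨hPH, hPn, hPZ⟩, hPmin⟩ := exists_min_subgroup
    (fun P : Subgroup 𝔾 => P ≤ H ∧ NzG H P ∧ ¬ P ≤ Z)
    ⟨H, le_rfl, fun h hh x hx => H.mul_mem (H.mul_mem hh hx) (H.inv_mem hh), hns⟩
  have hPP : NzG P P := fun h hh x hx => P.mul_mem (P.mul_mem hh hx) (P.inv_mem hh)
  have hP'le : ⁅P, P⁆ ≤ P := (commutator_le_inf le_rfl le_rfl hPP hPP).trans inf_le_left
  have hperf : ⁅P, P⁆ = P := by
    apply hPmin _ ⟨hP'le.trans hPH, NzG_commutator hPn hPn, ?_⟩ hP'le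
    intro hle
    exact hPZ (hno6 P hPH hPn hle)
  refine ⟨P, hPH, hPn, hPZ, hperf, ?_⟩
  by_contra hcon
  push Not at hcon
  obtain ⟨T, ⟨hTP, hTn, hTZ, hTne⟩, hTmin⟩ := exists_min_subgroup
    (fun T : Subgroup 𝔾 => T ≤ P ∧ NzG P T ∧ ¬ T ≤ Z ∧ T ≠ P) hcon
  have hTmin' : ∀ T₁ : Subgroup 𝔾, T₁ ≤ T → NzG P T₁ → T₁ ≤ Z ∨ T₁ = T := by
    intro T₁ h1 h2
    by_cases h3 : T₁ ≤ Z
    · exact Or.inl h3
    · right
      refine hTmin T₁ ⟨h1.trans hTP, h2, h3, ?_⟩ h1
      rintro rfl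
      exact hTne (le_antisymm hTP h1)
  have hcjP : ∀ h ∈ H, cj h P = P := fun h hh => cj_eq_of_NzG hPn hh
  have hcjTP : ∀ h ∈ H, cj h T ≤ P := fun h hh => (cj_mono hTP).trans (hcjP h hh).le
  have hcjTn : ∀ h ∈ H, NzG P (cj h T) := fun h hh => NzG_cj (hcjP h hh) hTn
  have hdist : ∀ h ∈ H, cj h T ≠ T → ⁅T, cj h T⁆ ≤ Z := by
    intro h hh hne
    refine (commutator_le_inf hTP (hcjTP h hh) hTn (hcjTn h hh)).trans ?_
    rcases hTmin' _ inf_le_left (NzG_inf hTn (hcjTn h hh)) with h1 | h1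
    · exact h1
    · exfalso
      apply hne
      have h2 : T ≤ cj h T := inf_eq_left.mp h1
      exact (Subgroup.eq_of_le_of_card_ge h2 (card_cj h T).le).symm
  have hex : ∃ h ∈ H, cj h T ≠ T := by
    by_contra hall
    push Not at hall
    apply hTne
    refine hPmin T ⟨hTP.trans hPH, ?_, hTZ⟩ hTP
    intro h hh x hx
    rw [← hall h hh]
    exact conj_mem_cj hx
  have hT'le : ⁅T, T⁆ ≤ T := (commutator_le_inf hTP hTP hTn hTn).trans inf_le_left
  let A : H → Subgroup 𝔾 := fun h => cj (h : 𝔾) T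
  have hA : iSup A = P := by
    apply hPmin _ ⟨?_, ?_, ?_⟩ ?_
    · exact (iSup_le fun h : H => hcjTP h h.2).trans hPH
    · intro g hg x hx
      have h1 : g * x * g⁻¹ ∈ cj g (iSup A) := conj_mem_cj hx
      have h2 : cj g (iSup A) ≤ iSup A := by
        unfold cj
        rw [Subgroup.map_iSup]
        apply iSup_le
        intro h
        have h3 : Subgroup.map (MulAut.conj g).toMonoidHom (A h) = A ⟨g * h, H.mul_mem hg h.2⟩ :=
          cj_cj g h T
        rw [h3]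
        exact le_iSup A _
      exact h2 h1
    · intro hle
      apply hTZ
      have h1 : A ⟨1, H.one_mem⟩ ≤ Z := (le_iSup A _).trans hle
      simpa [A, cj_one] using h1
    · exact iSup_le fun h : H => hcjTP h h.2
  rcases hTmin' _ hT'le (NzG_commutator hTn hTn) with hT' | hT'
  · -- T is abelian modulo Z
    apply hPZ
    rw [← hperf]
    rw [← hA]
    apply commutator_iSup_le Z A
    intro i j
    have h1 : ⁅A i, A j⁆ = cj (i : 𝔾) ⁅T, cj ((i : 𝔾)⁻¹ * j) T⁆ := by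
      rw [cj_commutator, cj_cj]
      simp [A]
    rw [h1, cj_le_central hZ]
    by_cases h2 : cj ((i : 𝔾)⁻¹ * j) T = T
    · rw [h2]; exact hT'
    · exact hdist _ (H.mul_mem (H.inv_mem i.2) j.2) h2
  · -- T is perfect
    have hcen : ∀ X : Subgroup 𝔾, X ≤ Z → ∀ Y : Subgroup 𝔾, ⁅X, Y⁆ = ⊥ := by
      intro X hX Y
      rw [Subgroup.commutator_eq_bot_iff_le_centralizer]
      intro x hx
      rw [Subgroup.mem_centralizer_iff]
      intro y _
      exact Subgroup.mem_center_iff.mp (hZ (hX hx)) y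
    refine hno7 P T hPH hPn hPZ hTP hTZ ?_ hex hA
    intro h₀ hh₀ hne₀
    have h1 : ⁅⁅T, T⁆, cj h₀ T⁆ = ⊥ := by
      apply Subgroup.commutator_commutator_eq_bot_of_rotate
      · exact hcen _ (hdist h₀ hh₀ hne₀) _
      · have h5 : ⁅cj h₀ T, T⁆ ≤ Z := by
          rw [Subgroup.commutator_comm (cj h₀ T) T]
          exact hdist h₀ hh₀ hne₀
        exact hcen _ h5 _
    rwa [hT'] at h1

end abstract

section concrete

open Cfsg Cfsg.Geo Matrix Cfsg.Agent.Lib.Helper97GBase Cfsg.Agent.Lib.Helper97CField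
  Cfsg.Agent.Lib.Helper97CKron Cfsg.Agent.Lib.Helper97CLoc Cfsg.Agent.Lib.Helper97CBlocks
  Cfsg.Agent.Lib.Helper97GClifford Cfsg.Agent.Lib.Helper97CTensor Cfsg.Agent.Lib.Helper97CBurn
  Cfsg.Agent.Lib.Helper97CAlg Cfsg.Agent.Lib.Helper97CPow
open scoped MatrixGroups

variable {ι : Type} [Fintype ι] [DecidableEq ι] {F : Type*} [Field F]

lemma env_cj (h : GL ι F) (T : Subgroup (GL ι F)) : env (cj h T) = env T := by
  have hset : matrixSet (cj h T) = unlocHom (Equiv.refl ι) h '' matrixSet T := by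
    ext x
    constructor
    · rintro ⟨_, ⟨t, ht, rfl⟩, rfl⟩
      exact ⟨t, ⟨t, ht, rfl⟩, by simp [unlocHom_apply, unloc]⟩
    · rintro ⟨_, ⟨t, ht, rfl⟩, rfl⟩
      exact ⟨h * t * h⁻¹, conj_mem_cj ht, by simp [unlocHom_apply, unloc]⟩
  unfold env
  rw [hset, Algebra.adjoin_image, finrank_map_of_injective _ (unloc_injective (Equiv.refl ι) h)]

lemma absIrred_iUnion {κ : Type*} {T : κ → Subgroup (GL ι F)}
    (h : ActsAbsolutelyIrreducibly (matrixSet (⨆ i, T i))) :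
    ActsAbsolutelyIrreducibly (⋃ i, matrixSet (T i)) := by
  constructor
  · intro W hW
    apply h.1 W
    rw [inv_iff]
    intro g hg
    refine Subgroup.iSup_induction T (C := fun g => ∀ w ∈ W, (g : Matrix ι ι F) *ᵥ w ∈ W) hg ?_ ?_ ?_
    · intro i x hx
      exact (inv_iff.mp fun s hs => hW s (Set.mem_iUnion.mpr ⟨i, hs⟩)) x hx
    · intro w hw
      simpa using hw
    · intro x y hx hy w hw
      rw [Units.val_mul, ← Matrix.mulVec_mulVec]
      exact hx _ (hy w hw)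
  · intro M hM
    apply h.2 M
    rintro _ ⟨g, hg, rfl⟩
    refine Subgroup.iSup_induction T
      (C := fun g => M * (g : Matrix ι ι F) = (g : Matrix ι ι F) * M) hg ?_ ?_ ?_
    · intro i x hx
      exact hM _ (Set.mem_iUnion.mpr ⟨i, x, hx, rfl⟩)
    · simp
    · intro x y hx hy
      rw [Units.val_mul, ← mul_assoc, hx, mul_assoc, hy, mul_assoc]

/-- no tensor induced configuration when the dimension is not a proper power -/
lemma no_c7 [Finite F] [Nonempty ι] (hnp : ∀ d t : ℕ, 2 ≤ t → d ^ t ≠ Fintype.card ι)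
    {H P T : Subgroup (GL ι F)} (habs : ActsAbsolutelyIrreducibly (matrixSet P))
    (hcomm : ∀ h ∈ H, cj h T ≠ T → ⁅T, cj h T⁆ = ⊥)
    (hex : ∃ h ∈ H, cj h T ≠ T) (hsup : (⨆ h : H, cj (h : GL ι F) T) = P) : False := by
  classical
  have hfin : Finite (Subgroup (GL ι F)) :=
    Finite.of_injective (fun W : Subgroup (GL ι F) => (W : Set (GL ι F))) SetLike.coe_injective
  let O : Set (Subgroup (GL ι F)) := Set.range (fun h : H => cj (h : GL ι F) T)
  have : Fintype O := Fintype.ofFinite O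
  let e : Fin (Fintype.card O) ≃ O := (Fintype.equivFin O).symm
  let Tf : Fin (Fintype.card O) → Subgroup (GL ι F) := fun i => (e i).1
  have hcommel : ∀ A B : Subgroup (GL ι F), A ∈ O → B ∈ O → A ≠ B → ∀ a ∈ A, ∀ b ∈ B, a * b = b * a := by
    rintro _ _ ⟨g, rfl⟩ ⟨k, rfl⟩ hne a ha b hb
    have h1 : cj ((g : GL ι F)⁻¹ * k) T ≠ T := by
      intro h
      apply hne
      show cj (g : GL ι F) T = cj (k : GL ι F) T
      have h2 := congrArg (cj (g : GL ι F)) h
      rw [cj_cj, mul_inv_cancel_left] at h2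
      exact h2.symm
    have h2 := hcomm _ (H.mul_mem (H.inv_mem g.2) k.2) h1
    have h3 : ⁅cj (g : GL ι F) T, cj (k : GL ι F) T⁆ = ⊥ := by
      have h4 := congrArg (cj (g : GL ι F)) h2
      rw [cj_commutator, cj_cj, mul_inv_cancel_left] at h4
      rw [h4]
      simp [cj]
    rw [Subgroup.commutator_eq_bot_iff_le_centralizer] at h3
    exact (Subgroup.mem_centralizer_iff.mp (h3 ha) b hb).symm
  have hpair : ∀ i j, i ≠ j → ∀ a ∈ Tf i, ∀ b ∈ Tf j, a * b = b * a := by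
    intro i j hij
    exact hcommel _ _ (e i).2 (e j).2 (fun h => hij (e.injective (Subtype.ext h)))
  have hsup' : (⨆ i, Tf i) = P := by
    rw [← hsup]
    apply le_antisymm
    · apply iSup_le
      intro i
      obtain ⟨g, hg⟩ := (e i).2
      show (e i).1 ≤ _
      rw [← hg]
      exact le_iSup (fun h : H => cj (h : GL ι F) T) g
    · apply iSup_le
      intro g
      have : cj (g : GL ι F) T = Tf (e.symm ⟨_, g, rfl⟩) := by simp [Tf]
      rw [this]
      exact le_iSup Tf _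
  have habsU : ActsAbsolutelyIrreducibly (⋃ i, matrixSet (Tf i)) := absIrred_iUnion (hsup' ▸ habs)
  have hsq := sq_card_eq_prod _ ι Tf hpair (adjoin_eq_top habsU)
  have henv : ∀ i, env (Tf i) = env T := by
    intro i
    obtain ⟨g, hg⟩ := (e i).2
    show env (e i).1 = _
    rw [← hg]
    exact env_cj _ T
  simp only [henv, Finset.prod_const, Finset.card_univ, Fintype.card_fin] at hsq
  have hTO : T ∈ O := ⟨⟨1, H.one_mem⟩, cj_one T⟩
  have hsub : (⋃ i, matrixSet (Tf i)) ⊆ matrixSet T ∪ (Cen T : Set (Matrix ι ι F)) := by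
    intro x hx
    obtain ⟨i, hi⟩ := Set.mem_iUnion.mp hx
    by_cases h0 : Tf i = T
    · left; rw [← h0]; exact hi
    · right
      obtain ⟨b, hb, rfl⟩ := hi
      rw [SetLike.mem_coe, Subalgebra.mem_centralizer_iff]
      rintro _ ⟨a, ha, rfl⟩
      rw [← Units.val_mul, ← Units.val_mul, hcommel T (Tf i) hTO (e i).2 (Ne.symm h0) a ha b hb]
  obtain ⟨d, e', ε, P', R, hd, he, hTD, _, _⟩ := exists_tensorData (absIrred_mono hsub habsU)
  rw [TensorData.env_eq hTD hd he, ← pow_mul, mul_comm 2, pow_mul] at hsq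
  have hn : d ^ Fintype.card O = Fintype.card ι :=
    (Nat.pow_left_injective (n := 2) (by norm_num) hsq).symm
  refine hnp d _ ?_ hn
  obtain ⟨h, hh, hne⟩ := hex
  have h2 : (⟨T, hTO⟩ : O) ≠ ⟨cj h T, ⟨h, hh⟩, rfl⟩ := fun h' => hne (congrArg Subtype.val h').symm
  exact Fintype.one_lt_card_iff.mpr ⟨_, _, h2⟩

/-- the core of a primitive group in a dimension which is neither a prime power nor a proper power -/
lemma exists_core' [Finite F] [Nonempty ι] (hnp : ∀ d t : ℕ, 2 ≤ t → d ^ t ≠ Fintype.card ι)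
    {H : Subgroup (GL ι F)} (hns : ¬ H ≤ scalars ι F)
    (hdich : ∀ T : Subgroup (GL ι F), T ≤ H → Nz H T →
      T ≤ scalars ι F ∨ ActsAbsolutelyIrreducibly (matrixSet T))
    (hno6 : ∀ T : Subgroup (GL ι F), T ≤ H → Nz H T → ⁅T, T⁆ ≤ scalars ι F →
      T ≤ scalars ι F) :
    ∃ P : Subgroup (GL ι F), P ≤ H ∧ Nz H P ∧ ⁅P, P⁆ = P ∧
      IsSimpleGroup (P ⧸ (scalars ι F).subgroupOf P) ∧
      ¬ IsMulCommutative (P ⧸ (scalars ι F).subgroupOf P) ∧
      ActsAbsolutelyIrreducibly (matrixSet P) := by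
  obtain ⟨P, hPH, hPn, hPZ, hperf, hsimp⟩ := core_abstract' (scalars ι F) scalars_le_center H hns
    hno6 (by
      intro P T hPH hPn hPZ _ _ hcomm hex hsup
      exact no_c7 hnp ((hdich P hPH hPn).resolve_left hPZ) hcomm hex hsup)
  exact ⟨P, hPH, hPn, hperf, simple_quotient _ P hPZ hsimp, not_comm_quotient _ P hPZ hperf,
    (hdich P hPH hPn).resolve_left hPZ⟩

end concrete

end Cfsg.Agent.Lib.Helper97CCore
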