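import Cfsg.Agent.Lib.Helper97CSq

set_option autoImplicit false
set_option linter.unusedSectionVars false

namespace Cfsg.Agent.Lib.Helper97CNo6

open Cfsg Cfsg.Geo Matrix Cfsg.Agent.Lib.Helper97GBase Cfsg.Agent.Lib.Helper97GClifford
  Cfsg.Agent.Lib.Helper97CBurn Cfsg.Agent.Lib.Helper97GCore Cfsg.Agent.Lib.Helper97CSq
open scoped MatrixGroups commutatorElement

variable {ι : Type} [Fintype ι] [DecidableEq ι] {F : Type*} [Field F]

/-- the `r`-part modulo scalars of a group that is abelian modulo scalars -/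
def rpart (N : Subgroup (GL ι F)) (hcomm : ⁅N, N⁆ ≤ scalars ι F) (r : ℕ) : Subgroup (GL ι F) where
  carrier := {x | x ∈ N ∧ ∃ k : ℕ, x ^ (r ^ k) ∈ scalars ι F}
  mul_mem' := by
    rintro x y ⟨hx, k, hk⟩ ⟨hy, l, hl⟩
    refine ⟨N.mul_mem hx hy, k + l, ?_⟩
    rw [← QuotientGroup.eq_one_iff] at hk hl ⊢
    have hc : Commute (x : GL ι F ⧸ scalars ι F) (y : GL ι F ⧸ scalars ι F) := by
      have h1 : ((⁅x, y⁆ : GL ι F) : GL ι F ⧸ scalars ι F) = 1 :=
        (QuotientGroup.eq_one_iff _).mpr (hcomm (Subgroup.commutator_mem_commutator hx hy))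
      rw [commutatorElement_def] at h1
      simp only [QuotientGroup.mk_mul, QuotientGroup.mk_inv] at h1
      show _ * _ = _ * _
      set a := (x : GL ι F ⧸ scalars ι F)
      set b := (y : GL ι F ⧸ scalars ι F)
      have h4 : a * b = (a * b * a⁻¹ * b⁻¹) * (b * a) := by group
      rw [h4, h1, one_mul]
    simp only [QuotientGroup.mk_pow, QuotientGroup.mk_mul] at hk hl ⊢
    rw [hc.mul_pow, pow_add, pow_mul, hk, one_pow, one_mul, mul_comm (r ^ k), pow_mul, hl, one_pow]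
  one_mem' := ⟨N.one_mem, 0, by simp [Subgroup.one_mem]⟩
  inv_mem' := by
    rintro x ⟨hx, k, hk⟩
    exact ⟨N.inv_mem hx, k, by rw [inv_pow]; exact Subgroup.inv_mem _ hk⟩

/-- in a dimension with two distinct prime divisors there is no normal subgroup of symplectic type -/
theorem no_c6 [Finite F] [Nonempty ι] {r s : ℕ} (hr : r.Prime) (hs : s.Prime) (hrs : r ≠ s)
    (hrn : r ∣ Fintype.card ι) (hsn : s ∣ Fintype.card ι) {H : Subgroup (GL ι F)}
    (hdich : ∀ T : Subgroup (GL ι F), T ≤ H → Nz H T →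
      T ≤ scalars ι F ∨ ActsAbsolutelyIrreducibly (matrixSet T))
    (N : Subgroup (GL ι F)) (hNH : N ≤ H) (hnorm : Nz H N) (hcomm : ⁅N, N⁆ ≤ scalars ι F) :
    N ≤ scalars ι F := by
  by_contra hNs
  have : Fact r.Prime := ⟨hr⟩
  have habs := (hdich N hNH hnorm).resolve_left hNs
  have hcard := card_quot_eq_sq hcomm habs
  obtain ⟨xq, hxq⟩ := exists_prime_orderOf_dvd_card' (G := N ⧸ (scalars ι F).subgroupOf N) r
    (by rw [hcard]; exact Dvd.dvd.pow hrn two_ne_zero)
  obtain ⟨x, rfl⟩ := QuotientGroup.mk_surjective xq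
  have hx1 : (x : GL ι F) ∉ scalars ι F := by
    intro h
    have h1 : (QuotientGroup.mk x : N ⧸ (scalars ι F).subgroupOf N) = 1 :=
      (QuotientGroup.eq_one_iff _).mpr (Subgroup.mem_subgroupOf.mpr h)
    rw [h1, orderOf_one] at hxq
    exact hr.one_lt.ne hxq
  have hx2 : (x : GL ι F) ^ r ∈ scalars ι F := by
    have h1 := pow_orderOf_eq_one (QuotientGroup.mk x : N ⧸ (scalars ι F).subgroupOf N)
    rw [hxq, ← QuotientGroup.mk_pow, QuotientGroup.eq_one_iff, Subgroup.mem_subgroupOf] at h1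
    simpa using h1
  set M := rpart N hcomm r with hM
  have hMN : M ≤ N := fun y hy => hy.1
  have hMnorm : Nz H M := by
    rintro h hh y ⟨hy, k, hk⟩
    refine ⟨hnorm h hh y hy, k, ?_⟩
    rw [conj_pow]
    exact (inferInstance : (scalars ι F).Normal).conj_mem _ hk h
  have hMcomm : ⁅M, M⁆ ≤ scalars ι F := (Subgroup.commutator_mono hMN hMN).trans hcomm
  have hMs : ¬ M ≤ scalars ι F := fun h => hx1 (h ⟨x.2, 1, by rw [pow_one]; exact hx2⟩)
  have hMabs := (hdich M (hMN.trans hNH) hMnorm).resolve_left hMs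
  have hMcard := card_quot_eq_sq hMcomm hMabs
  have hp : IsPGroup r (M ⧸ (scalars ι F).subgroupOf M) := by
    intro g
    obtain ⟨y, rfl⟩ := QuotientGroup.mk_surjective g
    obtain ⟨_, k, hk⟩ := y.2
    refine ⟨k, ?_⟩
    rw [← QuotientGroup.mk_pow, QuotientGroup.eq_one_iff, Subgroup.mem_subgroupOf]
    simpa using hk
  obtain ⟨a, ha⟩ := IsPGroup.iff_card.mp hp
  rw [hMcard] at ha
  have h1 : s ∣ r ^ a := by rw [← ha]; exact Dvd.dvd.pow hsn two_ne_zero
  exact hrs ((Nat.prime_dvd_prime_iff_eq hs hr).mp (hs.dvd_of_dvd_pow h1)).symm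

end Cfsg.Agent.Lib.Helper97CNo6
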