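import Cfsg.Agent.Lib.Helper97CCore
import Cfsg.Agent.Lib.Helper97CSubK
import Cfsg.Agent.Lib.Helper97CNo6

set_option autoImplicit false
set_option linter.unusedSectionVars false

namespace Cfsg.Agent.Lib.Helper97CDich

open Cfsg Cfsg.Geo Matrix Cfsg.Agent.Lib.Helper97GBase Cfsg.Agent.Lib.Helper97CField
  Cfsg.Agent.Lib.Helper97CKron Cfsg.Agent.Lib.Helper97CLoc Cfsg.Agent.Lib.Helper97CBlocks
  Cfsg.Agent.Lib.Helper97GClifford Cfsg.Agent.Lib.Helper97CTensor Cfsg.Agent.Lib.Helper97CBurn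
  Cfsg.Agent.Lib.Helper97CAlg Cfsg.Agent.Lib.Helper97CPow Cfsg.Agent.Lib.Helper97CSubK
open scoped MatrixGroups Kronecker

variable {ι : Type} [Fintype ι] [DecidableEq ι] {F : Type*} [Field F]

lemma absIrred_of_env {T : Subgroup (GL ι F)} (h : env T = Fintype.card ι ^ 2) :
    ActsAbsolutelyIrreducibly (matrixSet T) := by
  apply absIrred_of_adjoin_eq_top
  rw [← Algebra.toSubmodule_eq_top]
  apply Submodule.eq_top_of_finrank_eq
  rw [Module.finrank_matrix, Module.finrank_self, mul_one, ← pow_two, ← h]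
  rfl

/-- swapping the two factors of a tensor decomposition -/
lemma tensor_swap {d e : ℕ} (ε : ι ≃ Fin d × Fin e) (P : GL ι F) :
    tensorProductSubgroup d e ε P = tensorProductSubgroup e d (ε.trans (Equiv.prodComm _ _)) P := by
  have key : ∀ (d e : ℕ) (ε : ι ≃ Fin d × Fin e) (a : Matrix (Fin d) (Fin d) F)
      (b : Matrix (Fin e) (Fin e) F),
      unloc ε P (a ⊗ₖ b) = unloc (ε.trans (Equiv.prodComm _ _)) P (b ⊗ₖ a) := by
    intro d e ε a b
    unfold unloc
    congr 2
    ext i j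
    simp [Matrix.kroneckerMap_apply, mul_comm]
  ext h
  rw [mem_tensorProductSubgroup_iff, mem_tensorProductSubgroup_iff]
  constructor
  · rintro ⟨a, b, hab⟩
    exact ⟨b, a, by rw [hab, key]⟩
  · rintro ⟨a, b, hab⟩
    exact ⟨b, a, by rw [hab]; exact (key d e ε ↑b ↑a).symm⟩

/-- the fundamental dichotomy for a normal subgroup of an irreducible group -/
theorem dich [Fintype F] [Nonempty ι] {H T : Subgroup (GL ι F)}
    (hirr : ActsIrreducibly (matrixSet H)) (hnorm : Nz H T) :
    (∃ (t m : ℕ) (D : Fin t → Submodule F (ι → F)), IsMDecomposition m D ∧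
      H ≤ decompositionStabilizer D ∧ t * m = Fintype.card ι) ∨
    (∃ (r : ℕ) (K : Subalgebra F (Matrix ι ι F)), r.Prime ∧ r ∣ Fintype.card ι ∧
      IsFieldSubalgebra r K ∧ H ≤ subalgebraNormalizer K) ∨
    (∃ (d e : ℕ) (ε : ι ≃ Fin d × Fin e) (P : GL ι F), 2 ≤ d ∧ 2 ≤ e ∧
      H ≤ tensorProductSubgroup d e ε P) ∨
    T ≤ scalars ι F ∨ ActsAbsolutelyIrreducibly (matrixSet T) := by
  rcases blocks hirr hnorm with hirr2 | ⟨t, m, D, hD, hle, htm, _⟩
  swap
  · exact Or.inl ⟨t, m, D, hD, hle, htm⟩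
  right
  have hK := field_centralizer hirr2
  by_cases hk : Module.finrank F (ZCen T) = 1
  swap
  · left
    have hr := Nat.minFac_prime hk
    obtain ⟨K', hK', _, hle⟩ := exists_subfield hK hr.pos (Nat.minFac_dvd _)
    exact ⟨_, K', hr, (Nat.minFac_dvd _).trans (dvd_card_of_field hK), hK',
      (le_normalizer_ZCen hnorm).trans hle⟩
  right
  have habs2 := absIrred_of_finrank_one hirr2 hk
  obtain ⟨d, e, ε, P, R, hd, he, hTD, _, _⟩ := exists_tensorData habs2
  have hcard : Fintype.card ι = d * e := by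
    rw [Fintype.card_congr ε, Fintype.card_prod, Fintype.card_fin, Fintype.card_fin]
  by_cases hd1 : d = 1
  · subst hd1
    exact Or.inr (Or.inl hTD.le_scalars)
  by_cases he1 : e = 1
  · right; right
    apply absIrred_of_env
    rw [TensorData.env_eq hTD hd he, hcard, he1, mul_one]
  left
  exact ⟨d, e, ε, P, by omega, by omega, fun g hg => hTD.normalizer_le hd he (hnorm g hg)⟩

end Cfsg.Agent.Lib.Helper97CDich
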