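import Cfsg.Agent.Lib.Helper97CBlocks

set_option autoImplicit false
set_option linter.unusedSectionVars false

namespace Cfsg.Agent.Lib.Helper97CField

open Cfsg Cfsg.Geo Matrix Cfsg.Agent.Lib.Helper97GBase Cfsg.Agent.Lib.Helper97GSchur
  Cfsg.Agent.Lib.Helper97GClifford Cfsg.Agent.Lib.Helper97CSemi Cfsg.Agent.Lib.Helper97CBlocks
open scoped MatrixGroups

variable {ι : Type} [Fintype ι] [DecidableEq ι] {F : Type*} [Field F]

/-- Schur's lemma for sets of matrices -/
lemma isUnit_of_mem_centralizer' {S : Set (Matrix ι ι F)} (hS : ActsIrreducibly S) {c : Matrix ι ι F}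
    (hc : c ∈ Subalgebra.centralizer F S) (hc0 : c ≠ 0) : IsUnit c := by
  rw [Subalgebra.mem_centralizer_iff] at hc
  have hinv : ∀ s ∈ S, (LinearMap.ker (Matrix.toLin' c)).map (Matrix.toLin' s) ≤
      LinearMap.ker (Matrix.toLin' c) := by
    rintro s hs _ ⟨w, hw, rfl⟩
    have hw' : c *ᵥ w = 0 := by simpa [Matrix.toLin'_apply] using hw
    rw [LinearMap.mem_ker, Matrix.toLin'_apply, Matrix.toLin'_apply, Matrix.mulVec_mulVec, ← hc s hs,
      ← Matrix.mulVec_mulVec, hw', Matrix.mulVec_zero]
  rcases hS _ hinv with h | h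
  · rw [← Matrix.mulVec_injective_iff_isUnit]
    rw [LinearMap.ker_eq_bot] at h
    intro u v huv
    apply h
    simpa [Matrix.toLin'_apply] using huv
  · exfalso
    apply hc0
    rw [LinearMap.ker_eq_top] at h
    simpa using h

/-- the degree of a field of matrices divides the dimension -/
lemma dvd_card_of_field {d : ℕ} {C : Subalgebra F (Matrix ι ι F)} (hC : IsFieldSubalgebra d C) :
    d ∣ Fintype.card ι := by
  classical
  obtain ⟨hcomm, hinvC, hd⟩ := hC
  by_cases hne : Nonempty ι
  swap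
  · rw [not_nonempty_iff] at hne
    rw [Fintype.card_eq_zero]
    exact dvd_zero d
  have : Nontrivial C := ⟨0, 1, by
    intro h
    have := congrArg Subtype.val h
    simp at this⟩
  have hdpos : 0 < d := by rw [← hd]; exact Module.finrank_pos
  have hdvd : d ∣ Module.finrank F (ι → F) := by
    refine dvd_finrank_of_exists_compl
      (fun U => ∀ c ∈ C, ∀ u ∈ U, c *ᵥ u ∈ U) ?_ ?_ d hdpos ?_
    · intro c _ u hu
      rw [Submodule.mem_bot] at hu
      simp [hu]
    · intro U W hU hW c hc u hu
      obtain ⟨a, ha, b, hb, rfl⟩ := Submodule.mem_sup.mp hu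
      rw [Matrix.mulVec_add]
      exact Submodule.add_mem _ (Submodule.mem_sup_left (hU c hc a ha))
        (Submodule.mem_sup_right (hW c hc b hb))
    · intro U hU hUt
      obtain ⟨v, hv⟩ : ∃ v, v ∉ U := by
        by_contra h
        push Not at h
        exact hUt (eq_top_iff.mpr fun x _ => h x)
      let φ : C →ₗ[F] (ι → F) :=
        { toFun := fun c => (c : Matrix ι ι F) *ᵥ v
          map_add' := fun a b => by simp [Matrix.add_mulVec]
          map_smul' := fun a b => by simp [Matrix.smul_mulVec] }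
      have hφ : ∀ c : C, φ c ∈ U → c = 0 := by
        intro c hcU
        by_contra hc0
        have hc0' : (c : Matrix ι ι F) ≠ 0 := fun h => hc0 (Subtype.ext h)
        obtain ⟨y, hy, hxy⟩ := hinvC c c.2 hc0'
        have hyx : y * (c : Matrix ι ι F) = 1 := by rw [hcomm y hy c c.2, hxy]
        apply hv
        have := hU y hy _ hcU
        simpa [φ, Matrix.mulVec_mulVec, hyx] using this
      have hφinj : Function.Injective φ := by
        rw [← LinearMap.ker_eq_bot, LinearMap.ker_eq_bot']
        intro c hc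
        apply hφ
        rw [hc]
        exact U.zero_mem
      refine ⟨LinearMap.range φ, ?_, ?_, ?_⟩
      · rintro c hc _ ⟨a, rfl⟩
        exact ⟨⟨c, hc⟩ * a, by simp [φ, Matrix.mulVec_mulVec]⟩
      · rw [LinearMap.finrank_range_of_inj hφinj, hd]
      · rw [Submodule.eq_bot_iff]
        rintro x ⟨hxU, a, rfl⟩
        rw [hφ a hxU, map_zero]
  rwa [Module.finrank_fintype_fun_eq_card] at hdvd

/-- the centralizer of an irreducible set of matrices over a finite field is a field -/
lemma field_centralizer [Finite F] [Nonempty ι] {S : Set (Matrix ι ι F)} (hS : ActsIrreducibly S) :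
    IsFieldSubalgebra (Module.finrank F (Subalgebra.centralizer F S)) (Subalgebra.centralizer F S) := by
  classical
  set C := Subalgebra.centralizer F S with hC
  have hinvC : ∀ x ∈ C, x ≠ 0 → ∃ y ∈ C, x * y = 1 := by
    intro x hx hx0
    have hu := isUnit_of_mem_centralizer' hS hx hx0
    exact ⟨x⁻¹, inv_mem_centralizer hx hu,
      Matrix.mul_nonsing_inv x ((Matrix.isUnit_iff_isUnit_det x).mp hu)⟩
  have : Nontrivial C := ⟨0, 1, by
    intro h
    have := congrArg Subtype.val h
    simp at this⟩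
  have : NoZeroDivisors C := ⟨by
    intro a b hab
    by_cases ha : a = 0
    · exact Or.inl ha
    · right
      have ha' : (a : Matrix ι ι F) ≠ 0 := fun h => ha (Subtype.ext h)
      have hu := isUnit_of_mem_centralizer' hS a.2 ha'
      have hab' : (a : Matrix ι ι F) * b = 0 := congrArg Subtype.val hab
      apply Subtype.ext
      exact (hu.mul_right_eq_zero).mp hab'⟩
  have : IsDomain C := NoZeroDivisors.to_isDomain C
  have hfield : IsField C := Finite.isDomain_to_isField C
  have hcomm : ∀ x ∈ C, ∀ y ∈ C, x * y = y * x := by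
    intro x hx y hy
    exact congrArg Subtype.val (hfield.mul_comm ⟨x, hx⟩ ⟨y, hy⟩)
  exact ⟨hcomm, hinvC, rfl⟩

lemma absIrred_of_finrank_one {S : Set (Matrix ι ι F)} (hS : ActsIrreducibly S)
    (h1 : Module.finrank F (Subalgebra.centralizer F S) = 1) : ActsAbsolutelyIrreducibly S := by
  refine ⟨hS, ?_⟩
  intro M hM
  have hbot : Subalgebra.centralizer F S = ⊥ := Subalgebra.eq_bot_of_finrank_one h1
  have hMC : M ∈ Subalgebra.centralizer F S := by
    rw [Subalgebra.mem_centralizer_iff]
    intro s hs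
    exact (hM s hs).symm
  rw [hbot, Algebra.mem_bot] at hMC
  obtain ⟨c, rfl⟩ := hMC
  exact ⟨c, Algebra.algebraMap_eq_smul_one c⟩

/-- an element normalising a set of matrices normalises its centralizer -/
lemma mem_normalizer_centralizer {S : Set (Matrix ι ι F)} {g : GL ι F}
    (h1 : ∀ s ∈ S, (g : Matrix ι ι F) * s * ((g⁻¹ : GL ι F) : Matrix ι ι F) ∈ S)
    (h2 : ∀ s ∈ S, ((g⁻¹ : GL ι F) : Matrix ι ι F) * s * (g : Matrix ι ι F) ∈ S) :
    g ∈ subalgebraNormalizer (Subalgebra.centralizer F S) := by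
  have vi : ((g⁻¹ : GL ι F) : Matrix ι ι F) * (g : Matrix ι ι F) = 1 := by
    rw [← Units.val_mul, inv_mul_cancel, Units.val_one]
  have iv : (g : Matrix ι ι F) * ((g⁻¹ : GL ι F) : Matrix ι ι F) = 1 := by
    rw [← Units.val_mul, mul_inv_cancel, Units.val_one]
  intro k
  rw [Subalgebra.mem_centralizer_iff, Subalgebra.mem_centralizer_iff]
  constructor
  · intro hk s hs
    have h := hk _ (h2 s hs)
    calc s * ((g : Matrix ι ι F) * k * ((g⁻¹ : GL ι F) : Matrix ι ι F))
        = (g : Matrix ι ι F) * ((((g⁻¹ : GL ι F) : Matrix ι ι F) * s * (g : Matrix ι ι F)) * k) *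
            ((g⁻¹ : GL ι F) : Matrix ι ι F) := by
          simp only [← mul_assoc, iv, one_mul]
      _ = (g : Matrix ι ι F) * k * ((g⁻¹ : GL ι F) : Matrix ι ι F) * s := by
          rw [h]
          simp only [mul_assoc, iv, mul_one]
  · intro hk s hs
    have h := hk _ (h1 s hs)
    have h3 : (g : Matrix ι ι F) * (s * k) * ((g⁻¹ : GL ι F) : Matrix ι ι F) =
        (g : Matrix ι ι F) * (k * s) * ((g⁻¹ : GL ι F) : Matrix ι ι F) := by
      calc (g : Matrix ι ι F) * (s * k) * ((g⁻¹ : GL ι F) : Matrix ι ι F)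
          = ((g : Matrix ι ι F) * s * ((g⁻¹ : GL ι F) : Matrix ι ι F)) *
            ((g : Matrix ι ι F) * k * ((g⁻¹ : GL ι F) : Matrix ι ι F)) := by
            simp only [mul_assoc]
            rw [← mul_assoc ((g⁻¹ : GL ι F) : Matrix ι ι F) (g : Matrix ι ι F), vi, one_mul]
        _ = ((g : Matrix ι ι F) * k * ((g⁻¹ : GL ι F) : Matrix ι ι F)) *
            ((g : Matrix ι ι F) * s * ((g⁻¹ : GL ι F) : Matrix ι ι F)) := h
        _ = (g : Matrix ι ι F) * (k * s) * ((g⁻¹ : GL ι F) : Matrix ι ι F) := by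
            simp only [mul_assoc]
            rw [← mul_assoc ((g⁻¹ : GL ι F) : Matrix ι ι F) (g : Matrix ι ι F), vi, one_mul]
    have h4 := congrArg (fun M => ((g⁻¹ : GL ι F) : Matrix ι ι F) * M * (g : Matrix ι ι F)) h3
    simp only [← mul_assoc, vi, one_mul] at h4
    simpa only [mul_assoc, vi, mul_one] using h4

/-- the centre of the centralizer algebra -/
abbrev ZCen (T : Subgroup (GL ι F)) : Subalgebra F (Matrix ι ι F) :=
  Subalgebra.centralizer F (matrixSet T ∪ (Cen T : Set (Matrix ι ι F)))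

lemma le_normalizer_ZCen {H T : Subgroup (GL ι F)} (hnorm : Nz H T) :
    H ≤ subalgebraNormalizer (ZCen T) := by
  intro g hg
  apply mem_normalizer_centralizer
  · rintro s (⟨t, ht, rfl⟩ | hs)
    · left
      exact ⟨g * t * g⁻¹, hnorm g hg t ht, by simp⟩
    · right
      have := conj_mem_Cen hnorm (H.inv_mem hg) hs
      rwa [inv_inv] at this
  · rintro s (⟨t, ht, rfl⟩ | hs)
    · left
      exact ⟨g⁻¹ * t * g, hnorm.inv_mem hg ht, by simp⟩
    · right
      exact conj_mem_Cen hnorm hg hs

end Cfsg.Agent.Lib.Helper97CField
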