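import Cfsg.Agent.Lib.Helper97CLoc

set_option autoImplicit false
set_option linter.unusedSectionVars false

namespace Cfsg.Agent.Lib.Helper97CFrame

open Cfsg Cfsg.Geo Matrix Cfsg.Agent.Lib.Helper97GBase Cfsg.Agent.Lib.Helper97CField
  Cfsg.Agent.Lib.Helper97CKron Cfsg.Agent.Lib.Helper97CLoc Cfsg.Agent.Lib.Helper97CBlocks
  Cfsg.Agent.Lib.Helper97GClifford
open scoped MatrixGroups Kronecker

variable {ι : Type} [Fintype ι] [DecidableEq ι] {F : Type*} [Field F]

/-- the sum map attached to a family of matrices -/
def Phi (W : Submodule F (ι → F)) {e : ℕ} (c : Fin e → Matrix ι ι F) : (Fin e → W) →ₗ[F] (ι → F) where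
  toFun w := ∑ j, c j *ᵥ (w j : ι → F)
  map_add' a b := by simp [Matrix.mulVec_add, Finset.sum_add_distrib]
  map_smul' a b := by simp [Matrix.mulVec_smul, Finset.smul_sum]

lemma Phi_apply (W : Submodule F (ι → F)) {e : ℕ} (c : Fin e → Matrix ι ι F) (w : Fin e → W) :
    Phi W c w = ∑ j, c j *ᵥ (w j : ι → F) := rfl

lemma finrank_pi (W : Submodule F (ι → F)) (e : ℕ) :
    Module.finrank F (Fin e → W) = e * Module.finrank F W := by
  rw [Module.finrank_pi_fintype]
  simp

/-- a frame of translates of a minimal invariant subspace by elements of the centralizer -/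
lemma exists_frame {T : Subgroup (GL ι F)}
    (hirr : ActsIrreducibly (matrixSet T ∪ (Cen T : Set (Matrix ι ι F))))
    {W : Submodule F (ι → F)} (hW : Inv T W) (hW0 : W ≠ ⊥)
    (hmin : ∀ W' : Submodule F (ι → F), Inv T W' → W' ≠ ⊥ →
        Module.finrank F W ≤ Module.finrank F W') :
    ∃ (e : ℕ) (c : Fin e → Matrix ι ι F), (∀ j, c j ∈ Cen T) ∧ Function.Bijective (Phi W c) := by
  have hdpos : 0 < Module.finrank F W := by
    rw [Module.finrank_pos_iff]
    exact Submodule.nontrivial_iff_ne_bot.mpr hW0
  have key : ∀ k : ℕ, ∀ (e : ℕ) (c : Fin e → Matrix ι ι F), (∀ j, c j ∈ Cen T) →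
      Function.Injective (Phi W c) → Fintype.card ι - e * Module.finrank F W = k →
      ∃ (e : ℕ) (c : Fin e → Matrix ι ι F), (∀ j, c j ∈ Cen T) ∧ Function.Bijective (Phi W c) := by
    intro k
    induction k using Nat.strong_induction_on with
    | _ k ih =>
      intro e c hc hinj hk
      set U := LinearMap.range (Phi W c) with hU
      have hUfr : Module.finrank F U = e * Module.finrank F W := by
        rw [hU, LinearMap.finrank_range_of_inj hinj, finrank_pi]
      by_cases htop : U = ⊤
      · exact ⟨e, c, hc, hinj, LinearMap.range_eq_top.mp htop⟩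
      have hUinv : Inv T U := by
        rintro t ht _ ⟨w, rfl⟩
        refine ⟨fun j => ⟨(t : Matrix ι ι F) *ᵥ (w j : ι → F), hW t ht _ (w j).2⟩, ?_⟩
        rw [Phi_apply, Phi_apply, Matrix.mulVec_sum]
        apply Finset.sum_congr rfl
        intro j _
        have h1 := (Subalgebra.mem_centralizer_iff F).mp (hc j) _ ⟨t, ht, rfl⟩
        rw [Matrix.mulVec_mulVec, Matrix.mulVec_mulVec, h1]
      -- a new translate
      obtain ⟨c', hc', w', hw', hcw⟩ : ∃ c' ∈ Cen T, ∃ w' ∈ W, c' *ᵥ w' ∉ U := by
        by_contra hcon
        push Not at hcon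
        let X : Submodule F (ι → F) :=
          { carrier := {v | ∀ c' ∈ Cen T, c' *ᵥ v ∈ U}
            add_mem' := by
              intro a b ha hb c' hc'
              rw [Matrix.mulVec_add]
              exact U.add_mem (ha c' hc') (hb c' hc')
            zero_mem' := by
              intro c' _
              rw [Matrix.mulVec_zero]
              exact U.zero_mem
            smul_mem' := by
              intro a v hv c' hc'
              rw [Matrix.mulVec_smul]
              exact U.smul_mem a (hv c' hc') }
        have hX : Inv2 T X := by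
          constructor
          · intro t ht v hv c' hc'
            have h1 := (Subalgebra.mem_centralizer_iff F).mp hc' _ ⟨t, ht, rfl⟩
            rw [Matrix.mulVec_mulVec, ← h1, ← Matrix.mulVec_mulVec]
            exact hUinv t ht _ (hv c' hc')
          · intro c₁ hc₁ v hv c' hc'
            rw [Matrix.mulVec_mulVec]
            exact hv _ ((Cen T).mul_mem hc' hc₁)
        rcases hirr X (inv2_iff.mpr hX) with h0 | h0
        · apply hW0
          rw [eq_bot_iff, ← h0]
          intro w hw c' hc'
          exact hcon c' hc' w hw
        · apply htop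
          rw [eq_top_iff]
          intro v _
          have hv : v ∈ X := by rw [h0]; exact Submodule.mem_top
          have := hv 1 (Cen T).one_mem
          rwa [Matrix.one_mulVec] at this
      have hzero : ∀ w ∈ W, c' *ᵥ w ∈ U → w = 0 := by
        let W₁ : Submodule F (ι → F) := W ⊓ U.comap (Matrix.toLin' c')
        have hW₁ : Inv T W₁ := by
          intro t ht v hv
          refine ⟨hW t ht v hv.1, ?_⟩
          have h2 : c' *ᵥ v ∈ U := by simpa [Matrix.toLin'_apply] using hv.2
          have h1 := (Subalgebra.mem_centralizer_iff F).mp hc' _ ⟨t, ht, rfl⟩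
          show Matrix.toLin' c' _ ∈ U
          rw [Matrix.toLin'_apply, Matrix.mulVec_mulVec, ← h1, ← Matrix.mulVec_mulVec]
          exact hUinv t ht _ h2
        have hW₁0 : W₁ = ⊥ := by
          by_contra hne
          have h1 := hmin W₁ hW₁ hne
          have h2 : W₁ = W := Submodule.eq_of_le_of_finrank_le inf_le_left h1
          apply hcw
          have h3 : w' ∈ W₁ := by rw [h2]; exact hw'
          simpa [Matrix.toLin'_apply] using h3.2
        intro w hw hcU
        have : w ∈ W₁ := ⟨hw, by simpa [Matrix.toLin'_apply] using hcU⟩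
        rwa [hW₁0, Submodule.mem_bot] at this
      have hsplit : ∀ w : Fin (e + 1) → W, Phi W (Fin.cons c' c : Fin (e + 1) → Matrix ι ι F) w =
          c' *ᵥ (w 0 : ι → F) + Phi W c (fun j => w j.succ) := by
        intro w
        rw [Phi_apply, Phi_apply, Fin.sum_univ_succ]
        simp
      have hinj' : Function.Injective (Phi W (Fin.cons c' c : Fin (e + 1) → Matrix ι ι F)) := by
        rw [← LinearMap.ker_eq_bot, LinearMap.ker_eq_bot']
        intro w hw
        rw [hsplit] at hw
        have h1 : c' *ᵥ (w 0 : ι → F) ∈ U := by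
          rw [eq_neg_of_add_eq_zero_left hw]
          exact U.neg_mem ⟨_, rfl⟩
        have h2 := hzero _ (w 0).2 h1
        rw [h2, Matrix.mulVec_zero, zero_add] at hw
        have h3 : (fun j : Fin e => w j.succ) = 0 := by
          apply hinj
          rw [hw, map_zero]
        funext j
        refine Fin.cases ?_ (fun j => ?_) j
        · exact Subtype.ext h2
        · exact congrFun h3 j
      have hle : (e + 1) * Module.finrank F W ≤ Fintype.card ι := by
        have h1 := LinearMap.finrank_le_finrank_of_injective hinj'
        rwa [finrank_pi, Module.finrank_fintype_fun_eq_card] at h1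
      refine ih (Fintype.card ι - (e + 1) * Module.finrank F W) ?_ (e + 1) (Fin.cons c' c) ?_ hinj' rfl
      · have : (e + 1) * Module.finrank F W = e * Module.finrank F W + Module.finrank F W := by ring
        omega
      · intro j
        refine Fin.cases ?_ (fun j => ?_) j
        · simpa using hc'
        · simpa using hc j
  refine key _ 0 (fun j => j.elim0) (fun j => j.elim0) ?_ rfl
  intro a b _
  funext j
  exact j.elim0

end Cfsg.Agent.Lib.Helper97CFrame
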