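import Cfsg.Agent.Lib.Helper97CField

set_option autoImplicit false
set_option linter.unusedSectionVars false

namespace Cfsg.Agent.Lib.Helper97CKron

open Cfsg Cfsg.Geo Matrix Cfsg.Agent.Lib.Helper97GBase Cfsg.Agent.Lib.Helper97CField
open scoped MatrixGroups Kronecker

variable {F : Type*} [Field F] {d e : ℕ}

/-- the blocks of a matrix indexed by a product -/
def blk (M : Matrix (Fin d × Fin e) (Fin d × Fin e) F) (j j' : Fin e) : Matrix (Fin d) (Fin d) F :=
  Matrix.of fun i i' => M (i, j) (i', j')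

lemma blk_apply (M : Matrix (Fin d × Fin e) (Fin d × Fin e) F) (j j' : Fin e) (i i' : Fin d) :
    blk M j j' i i' = M (i, j) (i', j') := rfl

lemma blk_mul_kron (M : Matrix (Fin d × Fin e) (Fin d × Fin e) F) (ρ : Matrix (Fin d) (Fin d) F)
    (j j' : Fin e) : blk (M * (ρ ⊗ₖ (1 : Matrix (Fin e) (Fin e) F))) j j' = blk M j j' * ρ := by
  ext i i'
  simp only [blk_apply, Matrix.mul_apply, Fintype.sum_prod_type, Matrix.kroneckerMap_apply,
    Matrix.one_apply]
  apply Finset.sum_congr rfl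
  intro a _
  simp [Finset.sum_ite_eq']

lemma blk_kron_mul (M : Matrix (Fin d × Fin e) (Fin d × Fin e) F) (ρ : Matrix (Fin d) (Fin d) F)
    (j j' : Fin e) : blk ((ρ ⊗ₖ (1 : Matrix (Fin e) (Fin e) F)) * M) j j' = ρ * blk M j j' := by
  ext i i'
  simp only [blk_apply, Matrix.mul_apply, Fintype.sum_prod_type, Matrix.kroneckerMap_apply,
    Matrix.one_apply]
  apply Finset.sum_congr rfl
  intro a _
  simp [Finset.sum_ite_eq]

lemma blk_kron (x : Matrix (Fin d) (Fin d) F) (y : Matrix (Fin e) (Fin e) F) (j j' : Fin e) :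
    blk (x ⊗ₖ y) j j' = y j j' • x := by
  ext i i'
  simp [blk_apply, Matrix.kroneckerMap_apply, mul_comm]

lemma eq_of_blk {M N : Matrix (Fin d × Fin e) (Fin d × Fin e) F} (h : ∀ j j', blk M j j' = blk N j j') :
    M = N := by
  ext ⟨i, j⟩ ⟨i', j'⟩
  exact congrFun (congrFun (h j j') i) i'

lemma eq_kron_of_blk {M : Matrix (Fin d × Fin e) (Fin d × Fin e) F} {x : Matrix (Fin d) (Fin d) F}
    {y : Matrix (Fin e) (Fin e) F} (h : ∀ j j', blk M j j' = y j j' • x) : M = x ⊗ₖ y :=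
  eq_of_blk fun j j' => by rw [h, blk_kron]

/-- a matrix commuting with an absolutely irreducible set in the first factor lives in the second -/
lemma eq_one_kron_of_comm {R : Set (Matrix (Fin d) (Fin d) F)} (hR : ActsAbsolutelyIrreducibly R)
    {M : Matrix (Fin d × Fin e) (Fin d × Fin e) F}
    (h : ∀ ρ ∈ R, M * (ρ ⊗ₖ (1 : Matrix (Fin e) (Fin e) F)) = (ρ ⊗ₖ (1 : Matrix (Fin e) (Fin e) F)) * M) :
    ∃ y : Matrix (Fin e) (Fin e) F, M = (1 : Matrix (Fin d) (Fin d) F) ⊗ₖ y := by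
  have h1 : ∀ j j', ∃ c : F, blk M j j' = c • (1 : Matrix (Fin d) (Fin d) F) := by
    intro j j'
    apply hR.2
    intro ρ hρ
    rw [← blk_mul_kron, h ρ hρ, blk_kron_mul]
  choose y hy using h1
  exact ⟨Matrix.of y, eq_kron_of_blk fun j j' => hy j j'⟩

/-- a matrix normalising an absolutely irreducible set in the first factor is a Kronecker product -/
theorem eq_kron_of_normalizes {R : Set (Matrix (Fin d) (Fin d) F)} (hR : ActsAbsolutelyIrreducibly R)
    {M : Matrix (Fin d × Fin e) (Fin d × Fin e) F} (hM : M ≠ 0)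
    (h : ∀ ρ ∈ R, ∃ ρ' : Matrix (Fin d) (Fin d) F,
      M * (ρ ⊗ₖ (1 : Matrix (Fin e) (Fin e) F)) = (ρ' ⊗ₖ (1 : Matrix (Fin e) (Fin e) F)) * M) :
    ∃ (x : Matrix (Fin d) (Fin d) F) (y : Matrix (Fin e) (Fin e) F), M = x ⊗ₖ y := by
  obtain ⟨j₀, j₀', hx0⟩ : ∃ j j', blk M j j' ≠ 0 := by
    by_contra hcon
    push Not at hcon
    apply hM
    apply eq_of_blk
    intro j j'
    rw [hcon j j']
    rfl
  set x := blk M j₀ j₀' with hx
  have hrel : ∀ ρ ∈ R, ∃ ρ' : Matrix (Fin d) (Fin d) F, ∀ j j', blk M j j' * ρ = ρ' * blk M j j' := by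
    intro ρ hρ
    obtain ⟨ρ', h'⟩ := h ρ hρ
    exact ⟨ρ', fun j j' => by rw [← blk_mul_kron, h', blk_kron_mul]⟩
  -- x is invertible
  have hxu : IsUnit x := by
    have hinv : ∀ s ∈ R, (LinearMap.ker (Matrix.toLin' x)).map (Matrix.toLin' s) ≤
        LinearMap.ker (Matrix.toLin' x) := by
      rintro s hs _ ⟨w, hw, rfl⟩
      obtain ⟨s', hs'⟩ := hrel s hs
      have hw' : x *ᵥ w = 0 := by simpa [Matrix.toLin'_apply] using hw
      rw [LinearMap.mem_ker, Matrix.toLin'_apply, Matrix.toLin'_apply, Matrix.mulVec_mulVec, hs' j₀ j₀',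
        ← Matrix.mulVec_mulVec, hw', Matrix.mulVec_zero]
    rcases hR.1 _ hinv with h0 | h0
    · rw [← Matrix.mulVec_injective_iff_isUnit]
      rw [LinearMap.ker_eq_bot] at h0
      intro u v huv
      apply h0
      simpa [Matrix.toLin'_apply] using huv
    · exfalso
      apply hx0
      rw [LinearMap.ker_eq_top] at h0
      simpa using h0
  have hdet : IsUnit x.det := (Matrix.isUnit_iff_isUnit_det x).mp hxu
  have h1 : x⁻¹ * x = 1 := Matrix.nonsing_inv_mul x hdet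
  have h2 : x * x⁻¹ = 1 := Matrix.mul_nonsing_inv x hdet
  have hsc : ∀ j j', ∃ c : F, x⁻¹ * blk M j j' = c • (1 : Matrix (Fin d) (Fin d) F) := by
    intro j j'
    apply hR.2
    intro ρ hρ
    obtain ⟨ρ', hρ'⟩ := hrel ρ hρ
    have e1 : ρ * x⁻¹ = x⁻¹ * ρ' := by
      calc ρ * x⁻¹ = x⁻¹ * (x * ρ) * x⁻¹ := by rw [← mul_assoc, h1, one_mul]
        _ = x⁻¹ * ρ' := by rw [hρ' j₀ j₀', mul_assoc, mul_assoc, h2, mul_one]
    rw [mul_assoc, hρ' j j', ← mul_assoc, ← e1, mul_assoc]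
  choose y hy using hsc
  refine ⟨x, Matrix.of y, eq_kron_of_blk fun j j' => ?_⟩
  have := congrArg (fun N => x * N) (hy j j')
  simp only [← mul_assoc, h2, one_mul, Matrix.mul_smul, mul_one] at this
  exact this

end Cfsg.Agent.Lib.Helper97CKron
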