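import Cfsg.Agent.Lib.Helper97AschProper
import Cfsg.Agent.Lib.Helper97CLoc

set_option autoImplicit false
set_option linter.unusedSectionVars false

namespace Cfsg.Agent.Lib.Helper97CSLProper

open Cfsg Cfsg.Geo Matrix Cfsg.Agent.Lib.Helper97AschBase Cfsg.Agent.Lib.Helper97AschTransv
  Cfsg.Agent.Lib.Helper97CLoc
open scoped MatrixGroups Kronecker

variable {n : ℕ} {F : Type*} [Field F]

lemma not_SL_le_decomp {t m : ℕ} (D : Fin t → Submodule F (Fin n → F))
    (hD : IsMDecomposition m D) :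
    ¬ specialLinear (Fin n) F ≤ decompositionStabilizer D := by
  intro hle
  have hn := hD.two_le
  have hm := hD.pos
  let i0 : Fin t := ⟨0, by omega⟩
  let i1 : Fin t := ⟨1, by omega⟩
  have h01 : i0 ≠ i1 := by
    intro h
    have := congrArg Fin.val h
    simp [i0, i1] at this
  have hne : ∀ i, D i ≠ ⊥ := by
    intro i h
    have := hD.finrank_eq i
    rw [h, finrank_bot] at this
    omega
  obtain ⟨d0, hd0, hd00⟩ := Submodule.exists_mem_ne_zero_of_ne_bot (hne i0)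
  obtain ⟨d1, hd1, hd10⟩ := Submodule.exists_mem_ne_zero_of_ne_bot (hne i1)
  let W : Submodule F (Fin n → F) := ⨆ j, ⨆ (_ : j ≠ i1), D j
  have hdisj : Disjoint (D i1) W := hD.indep i1
  have hd1W : d1 ∉ W := by
    intro h
    exact hd10 (Submodule.disjoint_def.mp hdisj d1 hd1 h)
  have hDW : ∀ j, j ≠ i1 → D j ≤ W := fun j hj => le_iSup₂_of_le j hj le_rfl
  obtain ⟨φ, hφ0, hφ1⟩ := exists_functional hd1W
  have hφu : φ ⬝ᵥ d0 = 0 := hφ0 d0 (hDW i0 h01 hd0)
  obtain ⟨σ, hσ⟩ := hle (tv_mem_SL d0 φ hφu)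
  have h2 : d1 + d0 ∈ D (σ i1) := by
    rw [← hσ i1]
    refine ⟨d1, hd1, ?_⟩
    rw [Matrix.toLin'_apply, tv_mulVec, hφ1, one_smul]
  by_cases hj : σ i1 = i1
  · rw [hj] at h2
    have h3 : d0 ∈ D i1 := ((D i1).add_mem_iff_right hd1).mp h2
    exact hd00 (Submodule.disjoint_def.mp hdisj d0 h3 (hDW i0 h01 hd0))
  · have h3 : d1 + d0 ∈ W := hDW _ hj h2
    exact hd1W ((W.add_mem_iff_left (hDW i0 h01 hd0)).mp h3)

lemma not_SL_le_fieldNormalizer (hn : 3 ≤ n) {r : ℕ} (hr : r ≠ 1)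
    (K : Subalgebra F (Matrix (Fin n) (Fin n) F)) (hK : IsFieldSubalgebra r K) :
    ¬ specialLinear (Fin n) F ≤ subalgebraNormalizer K := by
  intro hle
  let i0 : Fin n := ⟨0, by omega⟩
  let i1 : Fin n := ⟨1, by omega⟩
  have h01 : i1 ≠ i0 := by
    intro h
    have := congrArg Fin.val h
    simp [i0, i1] at this
  let u : Fin n → F := Pi.single i0 1
  let φ : Fin n → F := Pi.single i1 1
  have hφ : ∀ v : Fin n → F, φ ⬝ᵥ v = v i1 := fun v => by simp [φ]
  have hu0 : u ≠ 0 := by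
    intro h0
    have := congrFun h0 i0
    simp [u] at this
  have hφu : φ ⬝ᵥ u = 0 := by rw [hφ]; simp [u, h01]
  have ht := hle (tv_mem_SL u φ hφu)
  have hzero : ∀ k ∈ K, ∀ v : Fin n → F, v ≠ 0 → k *ᵥ v = 0 → k = 0 := by
    intro k hk v hv hkv
    by_contra hk0
    obtain ⟨k', hk', hkk'⟩ := hK.inv k hk hk0
    rw [hK.comm k hk k' hk'] at hkk'
    apply hv
    have := congrArg (fun M => M *ᵥ v) hkk'
    simp only [← Matrix.mulVec_mulVec, hkv, Matrix.mulVec_zero, Matrix.one_mulVec] at this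
    exact this.symm
  have hcomm : ∀ k ∈ K, ∀ v, (tv u φ hφu : Matrix (Fin n) (Fin n) F) *ᵥ (k *ᵥ v) =
      k *ᵥ ((tv u φ hφu : Matrix (Fin n) (Fin n) F) *ᵥ v) := by
    intro k hk
    have hk2 := (ht k).mp hk
    obtain ⟨v, hv0, hv1, hv2⟩ : ∃ v : Fin n → F, v ≠ 0 ∧ v i1 = 0 ∧ (k *ᵥ v) i1 = 0 := by
      let L : (Fin n → F) →ₗ[F] F × F :=
        (LinearMap.proj i1).prod ((LinearMap.proj i1) ∘ₗ Matrix.toLin' k)
      have hL : LinearMap.ker L ≠ ⊥ := by
        apply LinearMap.ker_ne_bot_of_finrank_lt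
        rw [Module.finrank_prod, Module.finrank_self, Module.finrank_fin_fun]
        omega
      obtain ⟨v, hv, hv0⟩ := Submodule.exists_mem_ne_zero_of_ne_bot hL
      rw [LinearMap.mem_ker] at hv
      have h1 := congrArg Prod.fst hv
      have h2 := congrArg Prod.snd hv
      exact ⟨v, hv0, by simpa [L] using h1, by simpa [L, Matrix.toLin'_apply] using h2⟩
    have htv : (tv u φ hφu : Matrix (Fin n) (Fin n) F) *ᵥ v = v := by
      rw [tv_mulVec, hφ, hv1, zero_smul, add_zero]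
    have htv' : (((tv u φ hφu)⁻¹ : GL (Fin n) F) : Matrix (Fin n) (Fin n) F) *ᵥ v = v := by
      conv_lhs => rw [← htv]
      simp
    have h3 : ((tv u φ hφu : Matrix (Fin n) (Fin n) F) * k *
        (((tv u φ hφu)⁻¹ : GL (Fin n) F) : Matrix (Fin n) (Fin n) F) - k) *ᵥ v = 0 := by
      rw [Matrix.sub_mulVec, ← Matrix.mulVec_mulVec, htv', ← Matrix.mulVec_mulVec, tv_mulVec, hφ, hv2,
        zero_smul, add_zero, sub_self]
    have h4 := sub_eq_zero.mp (hzero _ (K.sub_mem hk2 hk) v hv0 h3)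
    intro w
    conv_rhs => rw [← h4]
    rw [← Matrix.mulVec_mulVec, ← Matrix.mulVec_mulVec, inv_mulVec_mulVec]
  have hsc : ∀ k ∈ K, k ∈ (⊥ : Subalgebra F (Matrix (Fin n) (Fin n) F)) := by
    intro k hk
    have h1 := hcomm k hk φ
    rw [tv_mulVec, tv_mulVec, Matrix.mulVec_add, Matrix.mulVec_smul] at h1
    have h2 : φ ⬝ᵥ φ = 1 := by rw [hφ]; simp [φ]
    rw [h2, one_smul] at h1
    have h3 : k *ᵥ u = (φ ⬝ᵥ k *ᵥ φ) • u := (add_left_cancel h1).symm
    have h4 : (k - algebraMap F _ (φ ⬝ᵥ k *ᵥ φ)) *ᵥ u = 0 := by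
      rw [Matrix.sub_mulVec, h3, Algebra.algebraMap_eq_smul_one, Matrix.smul_mulVec, Matrix.one_mulVec,
        sub_self]
    have h5 := sub_eq_zero.mp (hzero _ (K.sub_mem hk (K.algebraMap_mem _)) u hu0 h4)
    rw [h5]
    exact Subalgebra.algebraMap_mem _ _
  have hbot : K = ⊥ := eq_bot_iff.mpr hsc
  have hfr := hK.finrank_eq
  have : Nonempty (Fin n) := ⟨i0⟩
  rw [hbot, Subalgebra.finrank_bot] at hfr
  omega

lemma not_SL_le_tensor {d e : ℕ} (hd : 2 ≤ d) (he : 2 ≤ e) (ε : Fin n ≃ Fin d × Fin e)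
    (P : GL (Fin n) F) : ¬ specialLinear (Fin n) F ≤ tensorProductSubgroup d e ε P := by
  intro hle
  let a0 : Fin d := ⟨0, by omega⟩
  let a1 : Fin d := ⟨1, by omega⟩
  let b0 : Fin e := ⟨0, by omega⟩
  let b1 : Fin e := ⟨1, by omega⟩
  have ha : a0 ≠ a1 := by
    intro h
    have := congrArg Fin.val h
    simp [a0, a1] at this
  have hb : b0 ≠ b1 := by
    intro h
    have := congrArg Fin.val h
    simp [b0, b1] at this
  let u : Fin n → F := Pi.single (ε.symm (a0, b0)) 1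
  let φ : Fin n → F := Pi.single (ε.symm (a0, b1)) 1
  have hne : ε.symm (a0, b1) ≠ ε.symm (a0, b0) := by
    intro h
    exact hb (Prod.ext_iff.mp (ε.symm.injective h)).2.symm
  have hφu : φ ⬝ᵥ u = 0 := by simp [φ, u, hne]
  have hmem : P * tv u φ hφu * P⁻¹ ∈ specialLinear (Fin n) F := by
    have h1 := tv_mem_SL u φ hφu
    unfold specialLinear at h1 ⊢
    rw [MonoidHom.mem_ker] at h1 ⊢
    rw [map_mul, map_mul, h1, map_inv]
    simp
  obtain ⟨a, b, hab⟩ := (mem_tensorProductSubgroup_iff ε P _).mp (hle hmem)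
  have h1 : (tv u φ hφu : Matrix (Fin n) (Fin n) F) =
      ((a : Matrix (Fin d) (Fin d) F) ⊗ₖ (b : Matrix (Fin e) (Fin e) F)).submatrix ε ε := by
    have h2 : unloc ε P (loc ε P ((P * tv u φ hφu * P⁻¹ : GL (Fin n) F) : Matrix (Fin n) (Fin n) F)) =
      unloc ε P ((a : Matrix (Fin d) (Fin d) F) ⊗ₖ (b : Matrix (Fin e) (Fin e) F)) := by
      rw [unloc_loc, hab]
    have h3 := unloc_injective ε P h2
    have h4 : loc ε P ((P * tv u φ hφu * P⁻¹ : GL (Fin n) F) : Matrix (Fin n) (Fin n) F) =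
        (tv u φ hφu : Matrix (Fin n) (Fin n) F).submatrix ε.symm ε.symm := by
      unfold loc
      congr 1
      simp only [Units.val_mul, ← mul_assoc, vi, one_mul]
      rw [mul_assoc, vi, mul_one]
    rw [h4] at h3
    rw [← h3, Matrix.submatrix_submatrix]
    simp
  have hent : ∀ p q : Fin d × Fin e, (tv u φ hφu : Matrix (Fin n) (Fin n) F) (ε.symm p) (ε.symm q) =
      (a : Matrix (Fin d) (Fin d) F) p.1 q.1 * (b : Matrix (Fin e) (Fin e) F) p.2 q.2 := by
    intro p q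
    rw [h1]
    simp [Matrix.kroneckerMap_apply]
  have htv : ∀ p q : Fin d × Fin e, (tv u φ hφu : Matrix (Fin n) (Fin n) F) (ε.symm p) (ε.symm q) =
      (if p = q then 1 else 0) + (if p = (a0, b0) then 1 else 0) * (if q = (a0, b1) then 1 else 0) := by
    intro p q
    rw [tv_val]
    simp [Matrix.one_apply, Matrix.vecMulVec_apply, u, φ, Pi.single_apply]
  have e1 := (hent (a1, b0) (a1, b0)).symm.trans (htv _ _)
  have e2 := (hent (a0, b0) (a0, b1)).symm.trans (htv _ _)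
  have e3 := (hent (a1, b0) (a1, b1)).symm.trans (htv _ _)
  simp [ha, ha.symm, hb, hb.symm] at e1 e2 e3
  rcases e3 with h | h
  · rw [h, zero_mul] at e1
    exact zero_ne_one e1
  · rw [h, mul_zero] at e2
    exact zero_ne_one e2

end Cfsg.Agent.Lib.Helper97CSLProper
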