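import Cfsg.Agent.Lib.Helper97CSmallT

set_option autoImplicit false
set_option linter.unusedSectionVars false

namespace Cfsg.Agent.Lib.Helper97CSmallD

open Cfsg Cfsg.Geo Matrix Cfsg.Agent.Lib.Helper97GBase Cfsg.Agent.Lib.Helper97CSmallT
open scoped MatrixGroups

variable {ι : Type} [Fintype ι] [DecidableEq ι] {F : Type*} [Field F] {t : ℕ}

/-- the two by two determinant of the `j`-th coordinates -/
noncomputable def delta (c : Module.Basis (Σ _ : Fin t, Fin 2) F (ι → F)) (j : Fin t) (x y : ι → F) : F :=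
  c.repr x ⟨j, 0⟩ * c.repr y ⟨j, 1⟩ - c.repr x ⟨j, 1⟩ * c.repr y ⟨j, 0⟩

/-- the `j`-th component -/
noncomputable def comp (c : Module.Basis (Σ _ : Fin t, Fin 2) F (ι → F)) (j : Fin t) (x : ι → F) : ι → F :=
  c.repr x ⟨j, 0⟩ • c ⟨j, 0⟩ + c.repr x ⟨j, 1⟩ • c ⟨j, 1⟩

variable (c : Module.Basis (Σ _ : Fin t, Fin 2) F (ι → F))

lemma sum_comp (x : ι → F) : ∑ j, comp c j x = x := by
  conv_rhs => rw [← c.sum_repr x]
  rw [Fintype.sum_sigma]
  apply Finset.sum_congr rfl
  intro j _
  rw [Fin.sum_univ_two]
  rfl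

lemma repr_comp (j : Fin t) (x : ι → F) (k : Fin 2) : c.repr (comp c j x) ⟨j, k⟩ = c.repr x ⟨j, k⟩ := by
  unfold comp
  rw [map_add, map_smul, map_smul, c.repr_self, c.repr_self]
  fin_cases k <;> simp [Finsupp.single_apply]

lemma repr_comp_ne {i j : Fin t} (h : i ≠ j) (x : ι → F) (k : Fin 2) :
    c.repr (comp c j x) ⟨i, k⟩ = 0 := by
  unfold comp
  rw [map_add, map_smul, map_smul, c.repr_self, c.repr_self]
  simp [Finsupp.single_apply, h.symm]

lemma delta_comp (j : Fin t) (x y : ι → F) : delta c j (comp c j x) (comp c j y) = delta c j x y := by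
  unfold delta
  simp only [repr_comp]

/-- supported on the `j`-th block -/
def Supp (j : Fin t) (x : ι → F) : Prop := ∀ i k, i ≠ j → c.repr x ⟨i, k⟩ = 0

lemma supp_ext {j : Fin t} {x y : ι → F} (hx : Supp c j x) (hy : Supp c j y) :
    x = y ↔ c.repr x ⟨j, 0⟩ = c.repr y ⟨j, 0⟩ ∧ c.repr x ⟨j, 1⟩ = c.repr y ⟨j, 1⟩ := by
  constructor
  · rintro rfl
    exact ⟨rfl, rfl⟩
  · rintro ⟨h0, h1⟩
    apply c.repr.injective
    ext ⟨i, k⟩
    by_cases hij : i = j
    · subst hij
      fin_cases k
      · exact h0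
      · exact h1
    · rw [hx i k hij, hy i k hij]

lemma supp_zero (j : Fin t) : Supp c j 0 := by
  intro i k _
  simp

open Classical in
lemma delta_canonical (hF : ∀ a : F, a = 0 ∨ a = 1) {j : Fin t} {x y : ι → F} (hx : Supp c j x)
    (hy : Supp c j y) : delta c j x y = if x ≠ 0 ∧ y ≠ 0 ∧ x ≠ y then 1 else 0 := by
  have h2 := two_eq_zero_of hF
  have hneg : (-1 : F) = 1 := by linear_combination -h2
  have e1 := supp_ext c hx (supp_zero c j)
  have e2 := supp_ext c hy (supp_zero c j)
  have e3 := supp_ext c hx hy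
  simp only [map_zero, Finsupp.coe_zero, Pi.zero_apply] at e1 e2
  simp only [ne_eq, e1, e2, e3]
  unfold delta
  rcases hF (c.repr x ⟨j, 0⟩) with a | a <;> rcases hF (c.repr x ⟨j, 1⟩) with b | b <;>
    rcases hF (c.repr y ⟨j, 0⟩) with a' | a' <;> rcases hF (c.repr y ⟨j, 1⟩) with b' | b' <;>
    simp [a, b, a', b', hneg]

/-- the sum of the determinants -/
noncomputable def form (x y : ι → F) : F := ∑ j, delta c j x y

lemma form_symplectic : IsSymplecticForm (form c) where
  bilinear :=
    { add_left := fun x y v => by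
        unfold form delta
        rw [← Finset.sum_add_distrib]
        apply Finset.sum_congr rfl
        intro j _
        simp only [map_add, Finsupp.add_apply]
        ring
      smul_left := fun a x v => by
        unfold form delta
        rw [Finset.mul_sum]
        apply Finset.sum_congr rfl
        intro j _
        simp only [map_smul, Finsupp.smul_apply, smul_eq_mul]
        ring
      add_right := fun v x y => by
        unfold form delta
        rw [← Finset.sum_add_distrib]
        apply Finset.sum_congr rfl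
        intro j _
        simp only [map_add, Finsupp.add_apply]
        ring
      smul_right := fun a v x => by
        unfold form delta
        rw [Finset.mul_sum]
        apply Finset.sum_congr rfl
        intro j _
        simp only [map_smul, Finsupp.smul_apply, smul_eq_mul]
        ring }
  skew := fun v w => by
    unfold form delta
    rw [← Finset.sum_neg_distrib]
    apply Finset.sum_congr rfl
    intro j _
    ring
  alternating := fun v => by
    unfold form delta
    apply Finset.sum_eq_zero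
    intro j _
    ring
  nondegenerate := by
    have key : ∀ v : ι → F, v ≠ 0 → ∃ x, form c x v ≠ 0 := by
      intro v hv
      have h1 : c.repr v ≠ 0 := fun h => hv (c.repr.map_eq_zero_iff.mp h)
      obtain ⟨⟨j, k⟩, hjk⟩ := Finsupp.ne_iff.mp h1
      rw [Finsupp.zero_apply] at hjk
      have hval : ∀ l : Fin 2, form c (c ⟨j, l⟩) v =
          (if l = 0 then c.repr v ⟨j, 1⟩ else - c.repr v ⟨j, 0⟩) := by
        intro l
        unfold form
        rw [Finset.sum_eq_single j]
        · unfold delta
          rw [c.repr_self]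
          fin_cases l <;> simp [Finsupp.single_apply]
        · intro i _ hij
          unfold delta
          rw [c.repr_self]
          simp [Finsupp.single_apply, hij.symm]
        · intro h
          exact absurd (Finset.mem_univ j) h
      fin_cases k
      · refine ⟨c ⟨j, 1⟩, ?_⟩
        rw [hval]
        simpa using hjk
      · refine ⟨c ⟨j, 0⟩, ?_⟩
        rw [hval]
        simpa using hjk
    intro v hv
    obtain ⟨x, hx⟩ := key v hv
    refine ⟨⟨x, hx⟩, x, ?_⟩
    have : form c v x = - form c x v := by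
      unfold form delta
      rw [← Finset.sum_neg_distrib]
      apply Finset.sum_congr rfl
      intro j _
      ring
    rw [this]
    exact neg_ne_zero.mpr hx

/-- over the field of two elements, the stabiliser of a decomposition into planes preserves a
symplectic form -/
theorem decomp_two_le [Fintype F] (hq : Fintype.card F = 2) (D : Fin t → Submodule F (ι → F))
    (hD : IsMDecomposition 2 D) :
    ∃ f : (ι → F) → (ι → F) → F, IsSymplecticForm f ∧ decompositionStabilizer D ≤ similarityGroup f := by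
  classical
  have hF := zero_or_one_of_card hq
  obtain ⟨c, hcmem, hsupp⟩ : ∃ c : Module.Basis (Σ _ : Fin t, Fin 2) F (ι → F),
      (∀ a, c a ∈ D a.1) ∧ (∀ j x, x ∈ D j → Supp c j x) := by
    have hint := DirectSum.isInternal_submodule_of_iSupIndep_of_iSup_eq_top hD.indep hD.iSup_eq_top
    let b : ∀ i, Module.Basis (Fin 2) F (D i) :=
      fun i => Module.finBasisOfFinrankEq F (D i) (hD.finrank_eq i)
    exact ⟨hint.collectedBasis b, hint.collectedBasis_mem b, fun j x hx i k hij =>
      hint.collectedBasis_repr_of_mem_ne b (Ne.symm hij) hx⟩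
  have hcomp : ∀ j x, comp c j x ∈ D j := fun j x =>
    (D j).add_mem ((D j).smul_mem _ (hcmem ⟨j, 0⟩)) ((D j).smul_mem _ (hcmem ⟨j, 1⟩))
  refine ⟨form c, form_symplectic c, ?_⟩
  rintro g ⟨σ, hσ⟩
  refine ⟨1, fun u v => ?_⟩
  rw [Units.val_one, one_mul]
  have hg : ∀ i x, x ∈ D i → (g : Matrix ι ι F) *ᵥ x ∈ D (σ i) := by
    intro i x hx
    rw [← hσ i]
    exact ⟨x, hx, Matrix.toLin'_apply _ _⟩
  have hrepr : ∀ i k u, c.repr ((g : Matrix ι ι F) *ᵥ u) ⟨σ i, k⟩ =
      c.repr ((g : Matrix ι ι F) *ᵥ comp c i u) ⟨σ i, k⟩ := by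
    intro i k u
    conv_lhs => rw [← sum_comp c u, Matrix.mulVec_sum, map_sum, Finsupp.finsetSum_apply]
    rw [Finset.sum_eq_single i]
    · intro j _ hji
      exact hsupp (σ j) _ (hg j _ (hcomp j u)) (σ i) k (fun h => hji (σ.injective h).symm)
    · intro h
      exact absurd (Finset.mem_univ i) h
  unfold form
  rw [← Equiv.sum_comp σ]
  apply Finset.sum_congr rfl
  intro i _
  have e1 : delta c (σ i) ((g : Matrix ι ι F) *ᵥ u) ((g : Matrix ι ι F) *ᵥ v) =
      delta c (σ i) ((g : Matrix ι ι F) *ᵥ comp c i u) ((g : Matrix ι ι F) *ᵥ comp c i v) := by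
    unfold delta
    rw [hrepr i 0 u, hrepr i 1 u, hrepr i 0 v, hrepr i 1 v]
  rw [e1, ← delta_comp c i u v,
    delta_canonical c hF (hsupp _ _ (hg i _ (hcomp i u))) (hsupp _ _ (hg i _ (hcomp i v))),
    delta_canonical c hF (hsupp _ _ (hcomp i u)) (hsupp _ _ (hcomp i v))]
  have hinj := mulVec_injective g
  have h0 : ∀ x : ι → F, (g : Matrix ι ι F) *ᵥ x = 0 ↔ x = 0 := by
    intro x
    constructor
    · intro h
      apply hinj
      change (g : Matrix ι ι F) *ᵥ x = (g : Matrix ι ι F) *ᵥ 0
      rw [h, Matrix.mulVec_zero]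
    · rintro rfl
      exact Matrix.mulVec_zero _
  have h1 : ∀ x y : ι → F, (g : Matrix ι ι F) *ᵥ x = (g : Matrix ι ι F) *ᵥ y ↔ x = y :=
    fun x y => hinj.eq_iff
  simp only [ne_eq, h0, h1]

end Cfsg.Agent.Lib.Helper97CSmallD
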