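import Cfsg.Agent.Lib.Helper97AschMain
import Cfsg.Agent.Lib.Helper97CDich
import Cfsg.Agent.Lib.Helper97CSLProper
import Cfsg.Agent.Lib.Helper97CSmallD

set_option autoImplicit false
set_option linter.unusedSectionVars false

namespace Cfsg.Agent.Lib.Helper97CMain

open Cfsg Cfsg.Geo Matrix
open Cfsg.Agent.Lib.Helper97AschBase Cfsg.Agent.Lib.Helper97AschSchur
  Cfsg.Agent.Lib.Helper97AschCore
  Cfsg.Agent.Lib.Helper97AschTransv Cfsg.Agent.Lib.Helper97AschProper
  Cfsg.Agent.Lib.Helper97AschForms Cfsg.Agent.Lib.Helper97AschSubfield Cfsg.Agent.Lib.Helper97AschMono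
  Cfsg.Agent.Lib.Helper97CDich Cfsg.Agent.Lib.Helper97CSLProper Cfsg.Agent.Lib.Helper97CSmallD
  Cfsg.Agent.Lib.Helper97CSmallT Cfsg.Agent.Lib.Helper97CCore Cfsg.Agent.Lib.Helper97CNo6
open scoped MatrixGroups

variable {n : ℕ} {F : Type*} [Field F]

/-- in even characteristic the polar form of a quadratic form is symplectic -/
lemma polar_symplectic [Fintype F] (hq : ¬ Odd (Fintype.card F)) {Q : (Fin n → F) → F}
    (hQ : IsNondegenerateQuadraticForm Q) : IsSymplecticForm (QuadraticMap.polar Q) := by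
  rw [Nat.not_odd_iff] at hq
  have hchar : ringChar F = 2 := FiniteField.even_card_iff_char_two.mpr hq
  have h2 : (2 : F) = 0 := by
    have := ringChar.Nat.cast_ringChar (R := F)
    rw [hchar] at this
    exact_mod_cast this
  refine ⟨hQ.polar_bilinear, fun v w => ?_, fun v => ?_, hQ.nondegenerate⟩
  · rw [QuadraticMap.polar_comm]
    have : QuadraticMap.polar Q w v + QuadraticMap.polar Q w v = 0 := by
      rw [← two_mul, h2, zero_mul]
    exact eq_neg_of_add_eq_zero_left this
  · rw [polar_self hQ, h2, zero_mul]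

/-- Aschbacher's theorem for the maximal subgroups of `SL_n(q)` where `n` has two distinct prime
divisors and is not a proper power. -/
theorem cmain [Fintype F] (hn3 : 3 ≤ n) {r s : ℕ} (hr : r.Prime) (hs : s.Prime) (hrs : r ≠ s)
    (hrn : r ∣ n) (hsn : s ∣ n) (hnp : ∀ d t : ℕ, 2 ≤ t → d ^ t ≠ n)
    (H : Subgroup (GL (Fin n) F)) (hH : IsMaximalIn (specialLinear (Fin n) F) H) :
    (∃ W : Submodule F (Fin n → F), W ≠ ⊥ ∧ W ≠ ⊤ ∧ H = subspaceStabilizer W ⊓ specialLinear (Fin n) F) ∨
    (∃ (t m : ℕ) (D : Fin t → Submodule F (Fin n → F)), t * m = n ∧ (m = 1 → 5 ≤ Fintype.card F) ∧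
      (m = 2 → 3 ≤ Fintype.card F) ∧ IsMDecomposition m D ∧
      H = decompositionStabilizer D ⊓ specialLinear (Fin n) F) ∨
    (∃ (k : ℕ) (K : Subalgebra F (Matrix (Fin n) (Fin n) F)), k.Prime ∧ k ∣ n ∧ IsFieldSubalgebra k K ∧
      H = subalgebraNormalizer K ⊓ specialLinear (Fin n) F) ∨
    (∃ (d e : ℕ) (ε : Fin n ≃ Fin d × Fin e) (P : GL (Fin n) F), 2 ≤ d ∧ d < e ∧
      (d = 2 → 3 ≤ Fintype.card F) ∧ H = tensorProductSubgroup d e ε P ⊓ specialLinear (Fin n) F) ∨
    (∃ (F₀ : Subfield F) (r : ℕ) (P : GL (Fin n) F), r.Prime ∧ Fintype.card F = Nat.card F₀ ^ r ∧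
      H = subfieldSubgroup F₀ P ⊓ specialLinear (Fin n) F) ∨
    (Odd (Fintype.card F) ∧ ∃ Q : (Fin n → F) → F, IsNondegenerateQuadraticForm Q ∧
      H = quadSimilarityGroup Q ⊓ specialLinear (Fin n) F) ∨
    (∃ f : (Fin n → F) → (Fin n → F) → F, IsSymplecticForm f ∧
      H = similarityGroup f ⊓ specialLinear (Fin n) F) ∨
    (∃ (σ : F ≃+* F) (f : (Fin n → F) → (Fin n → F) → F), IsUnitaryForm σ f ∧
      H = similarityGroup f ⊓ specialLinear (Fin n) F) ∨
    InLinearResidualClass H := by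
  have hn2 : 2 ≤ n := by omega
  have : NeZero n := ⟨by omega⟩
  have : Nonempty (Fin n) := ⟨⟨0, by omega⟩⟩
  have hq1 : 1 < Fintype.card F := Fintype.one_lt_card
  -- packaged conclusions
  have concl1 : ∀ W : Submodule F (Fin n → F), W ≠ ⊥ → W ≠ ⊤ → H ≤ subspaceStabilizer W →
      (∃ W : Submodule F (Fin n → F), W ≠ ⊥ ∧ W ≠ ⊤ ∧
        H = subspaceStabilizer W ⊓ specialLinear (Fin n) F) := fun W h0 h1 hle =>
    ⟨W, h0, h1, eq_inf_of_le hH hle (not_SL_le_subspaceStabilizer W h0 h1)⟩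
  have concl3 : ∀ (k : ℕ) (K : Subalgebra F (Matrix (Fin n) (Fin n) F)), k.Prime → k ∣ n →
      IsFieldSubalgebra k K → H ≤ subalgebraNormalizer K →
      (∃ (k : ℕ) (K : Subalgebra F (Matrix (Fin n) (Fin n) F)), k.Prime ∧ k ∣ n ∧ IsFieldSubalgebra k K ∧
      H = subalgebraNormalizer K ⊓ specialLinear (Fin n) F) := fun k K hk hkn hK hle =>
    ⟨k, K, hk, hkn, hK, eq_inf_of_le hH hle (not_SL_le_fieldNormalizer hn3 hk.ne_one K hK)⟩
  have concl6 : ∀ Q : (Fin n → F) → F, Odd (Fintype.card F) → IsNondegenerateQuadraticForm Q →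
      H ≤ quadSimilarityGroup Q →
      (Odd (Fintype.card F) ∧ ∃ Q : (Fin n → F) → F, IsNondegenerateQuadraticForm Q ∧
      H = quadSimilarityGroup Q ⊓ specialLinear (Fin n) F) := fun Q hodd hQ hle =>
    ⟨hodd, Q, hQ, eq_inf_of_le hH hle (not_SL_le_quadSimilarityGroup hn3 Q hQ)⟩
  have concl7 : ∀ (f : (Fin n → F) → (Fin n → F) → F), IsSymplecticForm f →
      H ≤ similarityGroup f → (∃ (f : (Fin n → F) → (Fin n → F) → F), IsSymplecticForm f ∧
      H = similarityGroup f ⊓ specialLinear (Fin n) F) := fun f hf hle =>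
    ⟨f, hf, eq_inf_of_le hH hle (not_SL_similarity hn3 f hf.bilinear.add_left hf.nondegenerate)⟩
  have concl8 : ∀ (σ : F ≃+* F) (f : (Fin n → F) → (Fin n → F) → F), IsUnitaryForm σ f →
      H ≤ similarityGroup f → (∃ (σ : F ≃+* F) (f : (Fin n → F) → (Fin n → F) → F), IsUnitaryForm σ f ∧
      H = similarityGroup f ⊓ specialLinear (Fin n) F) := fun σ f hf hle =>
    ⟨σ, f, hf, eq_inf_of_le hH hle (not_SL_le_similarityGroup hn3 σ f hf)⟩
  have concl5 : ∀ (P : Subgroup (GL (Fin n) F)), Nz H P → ActsAbsolutelyIrreducibly (matrixSet P) →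
      ∀ F₀ : Subfield F, F₀ ≠ ⊤ → RealisableOver F₀ (matrixSet P) →
      (∃ (F₀ : Subfield F) (r : ℕ) (P : GL (Fin n) F), r.Prime ∧ Fintype.card F = Nat.card F₀ ^ r ∧
      H = subfieldSubgroup F₀ P ⊓ specialLinear (Fin n) F) := by
    intro P hnorm habs F₀ hF₀ hreal
    obtain ⟨F₁, r, B, hr, hcard, hle⟩ := le_subfieldSubgroup hnorm habs hF₀ hreal
    exact ⟨F₁, r, B, hr, hcard, eq_inf_of_le hH hle
      (not_SL_le_subfieldSubgroup hn2 F₁ (subfield_ne_top_of_card hr hcard) B)⟩
  -- reducible case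
  by_cases hirr : ActsIrreducibly (matrixSet H)
  swap
  · left
    unfold ActsIrreducibly at hirr
    push Not at hirr
    obtain ⟨W, hW, h0, h1⟩ := hirr
    exact concl1 W h0 h1 (le_subspaceStabilizer_of_inv hW)
  -- imprimitive case
  by_cases himp : ∃ (t m : ℕ) (D : Fin t → Submodule F (Fin n → F)), IsMDecomposition m D ∧
      H ≤ decompositionStabilizer D ∧ t * m = Fintype.card (Fin n)
  · obtain ⟨t, m, D, hD, hle, htm⟩ := himp
    rw [Fintype.card_fin] at htm
    by_cases hm1 : m = 1 ∧ Fintype.card F < 5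
    · obtain ⟨rfl, hq⟩ := hm1
      rw [mul_one] at htm
      subst htm
      rcases c2_small hn2 D hD hq with ⟨W, h0, h1, hW⟩ | ⟨hodd, Q, hQ, hle'⟩ | ⟨σ, f, hf, hle'⟩
      · left; exact concl1 W h0 h1 (hle.trans hW)
      · right; right; right; right; right; left
        exact concl6 Q hodd hQ (hle.trans hle')
      · right; right; right; right; right; right; right; left
        exact concl8 σ f hf (hle.trans hle')
    by_cases hm2 : m = 2 ∧ Fintype.card F < 3
    · obtain ⟨rfl, hq⟩ := hm2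
      obtain ⟨f, hf, hle'⟩ := decomp_two_le (by omega) D hD
      right; right; right; right; right; right; left
      exact concl7 f hf (hle.trans hle')
    right; left
    exact ⟨t, m, D, htm, fun h => by omega, fun h => by omega, hD,
      eq_inf_of_le hH hle (not_SL_le_decomp D hD)⟩
  -- extension field case
  by_cases hext : ∃ (k : ℕ) (K : Subalgebra F (Matrix (Fin n) (Fin n) F)), k.Prime ∧
      k ∣ Fintype.card (Fin n) ∧ IsFieldSubalgebra k K ∧ H ≤ subalgebraNormalizer K
  · obtain ⟨k, K, hk, hkn, hK, hle⟩ := hext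
    rw [Fintype.card_fin] at hkn
    right; right; left
    exact concl3 k K hk hkn hK hle
  -- tensor case
  by_cases hten : ∃ (d e : ℕ) (ε : Fin n ≃ Fin d × Fin e) (P : GL (Fin n) F), 2 ≤ d ∧ 2 ≤ e ∧
      H ≤ tensorProductSubgroup d e ε P
  · obtain ⟨d, e, ε, P, hd, hlt, hle⟩ : ∃ (d e : ℕ) (ε : Fin n ≃ Fin d × Fin e) (P : GL (Fin n) F),
        2 ≤ d ∧ d < e ∧ H ≤ tensorProductSubgroup d e ε P := by
      obtain ⟨d, e, ε, P, hd, he, hle⟩ := hten
      have hcard : n = d * e := by
        have := Fintype.card_congr ε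
        rwa [Fintype.card_prod, Fintype.card_fin, Fintype.card_fin, Fintype.card_fin] at this
      rcases lt_trichotomy d e with h | h | h
      · exact ⟨d, e, ε, P, hd, h, hle⟩
      · exfalso
        subst h
        exact hnp d 2 le_rfl (by rw [hcard, pow_two])
      · exact ⟨e, d, _, P, he, h, by rw [← tensor_swap]; exact hle⟩
    by_cases hd2 : d = 2 ∧ Fintype.card F < 3
    · obtain ⟨rfl, hq⟩ := hd2
      obtain ⟨K, hK, hle'⟩ := tensor_two_le (by omega) (by omega) ε P
      have hcard : n = 2 * e := by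
        have := Fintype.card_congr ε
        rwa [Fintype.card_prod, Fintype.card_fin, Fintype.card_fin, Fintype.card_fin] at this
      right; right; left
      exact concl3 2 K Nat.prime_two ⟨e, hcard⟩ hK (hle.trans hle')
    right; right; right; left
    exact ⟨d, e, ε, P, hd, hlt, fun h => by omega,
      eq_inf_of_le hH hle (not_SL_le_tensor hd (by omega) ε P)⟩
  -- dichotomy for normal subgroups
  have hdich : ∀ T : Subgroup (GL (Fin n) F), T ≤ H → Nz H T →
      T ≤ scalars (Fin n) F ∨ ActsAbsolutelyIrreducibly (matrixSet T) := by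
    intro T hTH hnorm
    rcases dich hirr hnorm with h | h | h | h
    · exact absurd h himp
    · exact absurd h hext
    · exact absurd h hten
    · exact h
  have hns : ¬ H ≤ scalars (Fin n) F := fun h => not_irred_of_le_scalars hn2 h hirr
  have hno6 : ∀ T : Subgroup (GL (Fin n) F), T ≤ H → Nz H T → ⁅T, T⁆ ≤ scalars (Fin n) F →
      T ≤ scalars (Fin n) F := fun T hTH hnorm hcomm =>
    no_c6 hr hs hrs (by rwa [Fintype.card_fin]) (by rwa [Fintype.card_fin]) hdich T hTH hnorm hcomm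
  obtain ⟨P, hPH, hnorm, hperf, hsimple, hnonab, habs⟩ := exists_core'
    (by rwa [Fintype.card_fin]) hns hdich hno6
  by_cases hsub : ∃ F₀ : Subfield F, F₀ ≠ ⊤ ∧ RealisableOver F₀ (matrixSet P)
  · obtain ⟨F₀, hF₀, hreal⟩ := hsub
    right; right; right; right; left
    exact concl5 P hnorm habs F₀ hF₀ hreal
  by_cases hsymp : ∃ f : (Fin n → F) → (Fin n → F) → F, IsSymplecticForm f ∧ FixesForm (matrixSet P) f
  · obtain ⟨f, hf, hfix⟩ := hsymp
    right; right; right; right; right; right; left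
    exact concl7 f hf (similarity_of_fixes hnorm habs (sesq_of_bilinear hf.bilinear) hf.nondegenerate hfix)
  by_cases hquad : ∃ Q : (Fin n → F) → F, IsNondegenerateQuadraticForm Q ∧ FixesQuadForm (matrixSet P) Q
  · obtain ⟨Q, hQ, hfix⟩ := hquad
    by_cases hodd : Odd (Fintype.card F)
    · right; right; right; right; right; left
      exact concl6 Q hodd hQ (le_quadSimilarityGroup_of_fixes hodd hnorm habs hQ hfix)
    · exfalso
      apply hsymp
      refine ⟨_, polar_symplectic hodd hQ, ?_⟩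
      intro s hs u v
      unfold QuadraticMap.polar
      rw [← Matrix.mulVec_add, hfix s hs, hfix s hs, hfix s hs]
  by_cases hunit : ∃ (σ : F ≃+* F) (f : (Fin n → F) → (Fin n → F) → F), IsUnitaryForm σ f ∧
      FixesForm (matrixSet P) f
  · obtain ⟨σ, f, hf, hfix⟩ := hunit
    right; right; right; right; right; right; right; left
    exact concl8 σ f hf (le_similarityGroup_of_fixes hnorm habs hf hfix)
  right; right; right; right; right; right; right; right
  refine ⟨P, ⟨hPH, hnorm, hperf, hsimple, hnonab, ?_, habs, ?_⟩, hquad, hsymp, hunit⟩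
  · intro h _ hh
    exact centralizer_scalar_of_perfect hperf habs h hh
  · intro F₀ hF₀ hreal
    exact hsub ⟨F₀, hF₀, hreal⟩

/-- a bounded check that a number is not a proper power -/
lemma not_pow_of_bound {n : ℕ} (hn : 2 ≤ n) (h : ∀ d < n, ∀ t < n, 2 ≤ t → d ^ t ≠ n) :
    ∀ d t : ℕ, 2 ≤ t → d ^ t ≠ n := by
  intro d t ht hdt
  rcases Nat.lt_or_ge d 2 with hd | hd
  · interval_cases d
    · rw [zero_pow (by omega)] at hdt
      omega
    · rw [one_pow] at hdt
      omega
  · have h1 : t < d ^ t := (Nat.lt_two_pow_self).trans_le (Nat.pow_le_pow_left hd t)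
    have h2 : d < d ^ t := by
      calc d = d ^ 1 := (pow_one d).symm
        _ < d ^ t := Nat.pow_lt_pow_right (by omega) (by omega)
    rw [hdt] at h1 h2
    exact h d h2 t h1 ht hdt

lemma card_of_equiv {d e : ℕ} (ε : Fin n ≃ Fin d × Fin e) : n = d * e := by
  have := Fintype.card_congr ε
  rwa [Fintype.card_prod, Fintype.card_fin, Fintype.card_fin, Fintype.card_fin] at this

end Cfsg.Agent.Lib.Helper97CMain
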