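import Cfsg.Agent.Lib.Helper97CAlg

set_option autoImplicit false
set_option linter.unusedSectionVars false

namespace Cfsg.Agent.Lib.Helper97CPow

open Cfsg Cfsg.Geo Matrix Cfsg.Agent.Lib.Helper97GBase Cfsg.Agent.Lib.Helper97CField
  Cfsg.Agent.Lib.Helper97CKron Cfsg.Agent.Lib.Helper97CLoc Cfsg.Agent.Lib.Helper97CBlocks
  Cfsg.Agent.Lib.Helper97GClifford Cfsg.Agent.Lib.Helper97CTensor Cfsg.Agent.Lib.Helper97CBurn
  Cfsg.Agent.Lib.Helper97CAlg
open scoped MatrixGroups Kronecker

variable {F : Type*} [Field F]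

section env

variable {ι : Type} [Fintype ι] [DecidableEq ι]

/-- dimension of the enveloping algebra -/
noncomputable def env (T : Subgroup (GL ι F)) : ℕ :=
  Module.finrank F (Algebra.adjoin F (matrixSet T))

variable {T : Subgroup (GL ι F)} {d e : ℕ} {ε : ι ≃ Fin d × Fin e} {P : GL ι F}
  {R : Set (Matrix (Fin d) (Fin d) F)}

lemma TensorData.env_eq (h : TensorData T d e ε P R) (hd : 0 < d) (he : 0 < e) : env T = d ^ 2 := by
  have hne : Nonempty (Fin d) := ⟨⟨0, hd⟩⟩
  let f : Matrix (Fin d) (Fin d) F →ₐ[F] Matrix ι ι F := (unlocHom ε P).comp (kronL d e F)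
  have hf : Function.Injective f := (unloc_injective ε P).comp (kronL_injective he)
  have hset : matrixSet T = f '' R := by
    ext x
    constructor
    · rintro ⟨t, ht, rfl⟩
      obtain ⟨ρ, hρ, hte⟩ := h.fwd t ht
      exact ⟨ρ, hρ, hte.symm⟩
    · rintro ⟨ρ, hρ, rfl⟩
      obtain ⟨t, ht, hte⟩ := h.bwd ρ hρ
      exact ⟨t, ht, hte⟩
  unfold env
  rw [hset, Algebra.adjoin_image, finrank_map_of_injective f hf, adjoin_eq_top h.absIrred,
    subalgebra_top_finrank_eq_submodule_top_finrank, finrank_top, Module.finrank_matrix, Module.finrank_self]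
  simp [pow_two]

end env

section blocks

variable {d e : ℕ}

/-- blocks with respect to the first factor -/
def blk' (M : Matrix (Fin d × Fin e) (Fin d × Fin e) F) (i i' : Fin d) : Matrix (Fin e) (Fin e) F :=
  Matrix.of fun j j' => M (i, j) (i', j')

lemma blk'_apply (M : Matrix (Fin d × Fin e) (Fin d × Fin e) F) (i i' : Fin d) (j j' : Fin e) :
    blk' M i i' j j' = M (i, j) (i', j') := rfl

lemma blk'_mul (M N : Matrix (Fin d × Fin e) (Fin d × Fin e) F) (i i' : Fin d) :
    blk' (M * N) i i' = ∑ k, blk' M i k * blk' N k i' := by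
  ext j j'
  rw [Matrix.sum_apply]
  simp only [blk'_apply, Matrix.mul_apply, Fintype.sum_prod_type]

lemma blk'_kron (x : Matrix (Fin d) (Fin d) F) (y : Matrix (Fin e) (Fin e) F) (i i' : Fin d) :
    blk' (x ⊗ₖ y) i i' = x i i' • y := by
  ext j j'
  simp [blk'_apply, Matrix.kroneckerMap_apply]

/-- matrices all of whose blocks lie in a given subalgebra -/
def blockAlg (B : Subalgebra F (Matrix (Fin e) (Fin e) F)) (d : ℕ) :
    Subalgebra F (Matrix (Fin d × Fin e) (Fin d × Fin e) F) where
  carrier := {M | ∀ i i', blk' M i i' ∈ B}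
  mul_mem' := by
    intro M N hM hN i i'
    rw [blk'_mul]
    exact Subalgebra.sum_mem _ fun k _ => B.mul_mem (hM i k) (hN k i')
  add_mem' := by
    intro M N hM hN i i'
    have : blk' (M + N) i i' = blk' M i i' + blk' N i i' := rfl
    rw [this]
    exact B.add_mem (hM i i') (hN i i')
  algebraMap_mem' := by
    intro r i i'
    rw [Algebra.algebraMap_eq_smul_one, ← Matrix.one_kronecker_one, ← Matrix.smul_kronecker, blk'_kron]
    exact B.smul_mem B.one_mem _

lemma mem_blockAlg {B : Subalgebra F (Matrix (Fin e) (Fin e) F)}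
    {M : Matrix (Fin d × Fin e) (Fin d × Fin e) F} : M ∈ blockAlg B d ↔ ∀ i i', blk' M i i' ∈ B :=
  Iff.rfl

end blocks

/-- the square of the dimension is the product of the dimensions of the enveloping algebras of
pairwise commuting groups which together generate the full matrix algebra -/
theorem sq_card_eq_prod [Finite F] : ∀ (t : ℕ) (ι : Type) [Fintype ι] [DecidableEq ι] [Nonempty ι]
    (T : Fin t → Subgroup (GL ι F)),
    (∀ i j, i ≠ j → ∀ a ∈ T i, ∀ b ∈ T j, a * b = b * a) →
    Algebra.adjoin F (⋃ i, matrixSet (T i)) = ⊤ → Fintype.card ι ^ 2 = ∏ i, env (T i) := by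
  intro t
  induction t with
  | zero =>
    intro ι _ _ _ T _ htop
    have h1 : (⋃ i : Fin 0, matrixSet (T i)) = ∅ := by simp
    rw [h1, Algebra.adjoin_empty] at htop
    have h2 := Subalgebra.finrank_bot (F := F) (E := Matrix ι ι F)
    rw [htop, subalgebra_top_finrank_eq_submodule_top_finrank, finrank_top, Module.finrank_matrix, Module.finrank_self, mul_one] at h2
    simp [pow_two, h2]
  | succ t ih =>
    intro ι _ _ _ T hcomm htop
    have hsub : (⋃ i, matrixSet (T i)) ⊆ matrixSet (T 0) ∪ (Cen (T 0) : Set (Matrix ι ι F)) := by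
      intro x hx
      obtain ⟨i, hi⟩ := Set.mem_iUnion.mp hx
      by_cases h0 : i = 0
      · left; rw [← h0]; exact hi
      · right
        obtain ⟨b, hb, rfl⟩ := hi
        rw [SetLike.mem_coe, Subalgebra.mem_centralizer_iff]
        rintro _ ⟨a, ha, rfl⟩
        rw [← Units.val_mul, ← Units.val_mul, hcomm 0 i (Ne.symm h0) a ha b hb]
    have habs0 := absIrred_mono hsub (absIrred_of_adjoin_eq_top htop)
    obtain ⟨d, e, ε, P, R, hd, he, hTD, _, _⟩ := exists_tensorData habs0
    have hcard : Fintype.card ι = d * e := by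
      rw [Fintype.card_congr ε, Fintype.card_prod, Fintype.card_fin, Fintype.card_fin]
    have hne : Nonempty (Fin e) := ⟨⟨0, he⟩⟩
    let emb : Matrix (Fin e) (Fin e) F →ₐ[F] Matrix ι ι F := (unlocHom ε P).comp (kronR d e F)
    have hemb : ∀ y, emb y = unloc ε P ((1 : Matrix (Fin d) (Fin d) F) ⊗ₖ y) := fun y => rfl
    have hinj : Function.Injective emb := (unloc_injective ε P).comp (kronR_injective hd)
    let embU : GL (Fin e) F →* GL ι F := Units.map (emb : Matrix (Fin e) (Fin e) F →* Matrix ι ι F)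
    have hembU : ∀ y : GL (Fin e) F, ((embU y : GL ι F) : Matrix ι ι F) = emb y := fun y => rfl
    have hinjU : Function.Injective embU := by
      intro a b hab
      apply Units.ext
      apply hinj
      rw [← hembU, ← hembU, hab]
    let T' : Fin t → Subgroup (GL (Fin e) F) := fun j => (T j.succ).comap embU
    have hT' : ∀ j, matrixSet (T j.succ) = emb '' matrixSet (T' j) := by
      intro j
      ext x
      constructor
      · rintro ⟨g, hg, rfl⟩
        have hgC : (g : Matrix ι ι F) ∈ Cen (T 0) := by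
          rw [Subalgebra.mem_centralizer_iff]
          rintro _ ⟨a, ha, rfl⟩
          rw [← Units.val_mul, ← Units.val_mul, hcomm 0 j.succ (Fin.succ_ne_zero j).symm a ha g hg]
        obtain ⟨y, hy⟩ := hTD.centralizer hgC
        have hu := isUnit_loc ε P g
        rw [hy, loc_unloc] at hu
        obtain ⟨_, b, _, rfl⟩ := units_of_kron hd he hu
        have hb : embU b = g := Units.ext (by rw [hembU, hemb, hy])
        exact ⟨b, ⟨b, by show embU b ∈ T j.succ; rw [hb]; exact hg, rfl⟩, by rw [hemb]; exact hy.symm⟩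
      · rintro ⟨_, ⟨y, hy, rfl⟩, rfl⟩
        exact ⟨embU y, hy, rfl⟩
    have hcomm' : ∀ i j, i ≠ j → ∀ a ∈ T' i, ∀ b ∈ T' j, a * b = b * a := by
      intro i j hij a ha b hb
      apply hinjU
      rw [map_mul, map_mul]
      exact hcomm i.succ j.succ (fun h => hij (Fin.succ_injective _ h)) _ ha _ hb
    have htop' : Algebra.adjoin F (⋃ j, matrixSet (T' j)) = ⊤ := by
      set B := Algebra.adjoin F (⋃ j, matrixSet (T' j)) with hB
      have hle : (⊤ : Subalgebra F (Matrix ι ι F)) ≤ (blockAlg B d).map (unlocHom ε P) := by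
        rw [← htop, Algebra.adjoin_le_iff]
        intro x hx
        obtain ⟨i, hi⟩ := Set.mem_iUnion.mp hx
        revert hi
        refine Fin.cases ?_ (fun j => ?_) i
        · rintro ⟨g, hg, rfl⟩
          obtain ⟨ρ, _, hρ⟩ := hTD.fwd g hg
          refine ⟨ρ ⊗ₖ (1 : Matrix (Fin e) (Fin e) F), ?_, hρ.symm⟩
          intro i i'
          rw [blk'_kron]
          exact B.smul_mem B.one_mem _
        · intro hi
          rw [hT' j] at hi
          obtain ⟨y, hy, rfl⟩ := hi
          refine ⟨(1 : Matrix (Fin d) (Fin d) F) ⊗ₖ y, ?_, rfl⟩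
          intro i i'
          rw [blk'_kron]
          exact B.smul_mem (Algebra.subset_adjoin (Set.mem_iUnion.mpr ⟨j, hy⟩)) _
      rw [eq_top_iff]
      intro y _
      obtain ⟨M', hM', hM⟩ := hle (Algebra.mem_top :
        unloc ε P ((Matrix.single (⟨0, hd⟩ : Fin d) ⟨0, hd⟩ (1 : F)) ⊗ₖ y) ∈ _)
      have h1 := unloc_injective ε P hM
      rw [h1] at hM'
      have h2 := hM' ⟨0, hd⟩ ⟨0, hd⟩
      rw [blk'_kron] at h2
      simpa using h2
    have hih := ih (Fin e) T' hcomm' htop'
    have henv : ∀ j, env (T j.succ) = env (T' j) := by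
      intro j
      unfold env
      rw [hT' j, Algebra.adjoin_image, finrank_map_of_injective emb hinj]
    rw [Fin.prod_univ_succ, TensorData.env_eq hTD hd he, hcard, mul_pow]
    simp only [henv]
    rw [← hih, Fintype.card_fin]

end Cfsg.Agent.Lib.Helper97CPow
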