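import Cfsg.Agent.Lib.Helper97GClifford

set_option autoImplicit false
set_option linter.unusedSectionVars false

namespace Cfsg.Agent.Lib.Helper97CSemi

open Cfsg Cfsg.Geo Matrix Cfsg.Agent.Lib.Helper97GBase Cfsg.Agent.Lib.Helper97GSchur
  Cfsg.Agent.Lib.Helper97GClifford
open scoped MatrixGroups

variable {ι : Type} [Fintype ι] [DecidableEq ι] {F : Type*} [Field F]

/-- Clifford: the restriction to a normal subgroup is completely reducible -/
lemma exists_inv_compl [Nonempty ι] {G T : Subgroup (GL ι F)} (hG : ActsIrreducibly (matrixSet G))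
    (hnorm : Nz G T) {Y : Submodule F (ι → F)} (hY : Inv T Y) :
    ∃ Y' : Submodule F (ι → F), Inv T Y' ∧ IsCompl Y Y' := by
  obtain ⟨W, hW, hW0, hmin⟩ := exists_min_inv Fintype.card_pos T
  have key : ∀ k : ℕ, ∀ Y' : Submodule F (ι → F), Inv T Y' → Y ⊓ Y' = ⊥ →
      Module.finrank F (ι → F) - Module.finrank F ↥(Y ⊔ Y') = k →
      ∃ Y'' : Submodule F (ι → F), Inv T Y'' ∧ IsCompl Y Y'' := by
    intro k
    induction k using Nat.strong_induction_on with
    | _ k ih =>
      intro Y' hY' hdisj hk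
      by_cases htop : Y ⊔ Y' = ⊤
      · exact ⟨Y', hY', ⟨disjoint_iff.mpr hdisj, codisjoint_iff.mpr htop⟩⟩
      · obtain ⟨g, hg, w, hw, hgw⟩ := exists_translate_not_le hG hW0 htop
        have hgW := Inv_gmap hnorm hg hW
        have hint : (Y ⊔ Y') ⊓ gmap g W = ⊥ := by
          by_contra hne
          have h1 := hmin _ (Inv_inf (Inv_sup hY hY') hgW) hne
          rw [← finrank_gmap g W] at h1
          have h2 : (Y ⊔ Y') ⊓ gmap g W = gmap g W := Submodule.eq_of_le_of_finrank_le inf_le_right h1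
          apply hgw
          have h3 : (g : Matrix ι ι F) *ᵥ w ∈ (Y ⊔ Y') ⊓ gmap g W := by
            rw [h2]
            exact mulVec_mem_gmap hw
          exact h3.1
        have hpos : 0 < Module.finrank F (gmap g W) := by
          rw [Module.finrank_pos_iff]
          exact Submodule.nontrivial_iff_ne_bot.mpr (gmap_ne_bot hW0)
        have h1 := Submodule.finrank_sup_add_finrank_inf_eq (Y ⊔ Y') (gmap g W)
        rw [hint, finrank_bot, add_zero] at h1
        have h2 : Module.finrank F ↥((Y ⊔ Y') ⊔ gmap g W) ≤ Module.finrank F (ι → F) :=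
          Submodule.finrank_le _
        have hassoc : Y ⊔ (Y' ⊔ gmap g W) = (Y ⊔ Y') ⊔ gmap g W := (sup_assoc _ _ _).symm
        refine ih (Module.finrank F (ι → F) - Module.finrank F ↥(Y ⊔ (Y' ⊔ gmap g W))) ?_
          (Y' ⊔ gmap g W) (Inv_sup hY' hgW) ?_ rfl
        · rw [hassoc]
          omega
        · rw [Submodule.eq_bot_iff]
          rintro x ⟨hxY, hx⟩
          obtain ⟨a, ha, b, hb, rfl⟩ := Submodule.mem_sup.mp hx
          have hb0 : b ∈ (Y ⊔ Y') ⊓ gmap g W := by
            refine ⟨?_, hb⟩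
            have : b = (a + b) - a := by abel
            rw [this]
            exact Submodule.sub_mem _ (Submodule.mem_sup_left hxY) (Submodule.mem_sup_right ha)
          rw [hint, Submodule.mem_bot] at hb0
          rw [hb0, add_zero] at hxY ⊢
          have : a ∈ Y ⊓ Y' := ⟨hxY, ha⟩
          rwa [hdisj, Submodule.mem_bot] at this
  exact key _ ⊥ Inv_bot (by simp) rfl

/-- the projection along an invariant complement commutes with the group -/
lemma exists_proj {T : Subgroup (GL ι F)} {Y Y' : Submodule F (ι → F)} (hY : Inv T Y)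
    (hY' : Inv T Y') (hc : IsCompl Y Y') :
    ∃ c : Matrix ι ι F, c ∈ Subalgebra.centralizer F (matrixSet T) ∧ (∀ y ∈ Y, c *ᵥ y = y) ∧
      (∀ y ∈ Y', c *ᵥ y = 0) ∧ ∀ v, c *ᵥ v ∈ Y := by
  let π := Y.projection Y' hc
  have hπ : ∀ v, LinearMap.toMatrix' π *ᵥ v = π v := by
    intro v
    rw [← Matrix.toLin'_apply, Matrix.toLin'_toMatrix']
  have h1 : ∀ y ∈ Y, π y = y := fun y hy => Submodule.projection_apply_of_mem_left hc hy
  have h2 : ∀ y ∈ Y', π y = 0 := fun y hy => (Submodule.projection_apply_eq_zero_iff hc).mpr hy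
  refine ⟨LinearMap.toMatrix' π, ?_, fun y hy => by rw [hπ, h1 y hy], fun y hy => by rw [hπ, h2 y hy],
    fun v => by rw [hπ]; exact Submodule.projection_apply_mem hc v⟩
  rw [Subalgebra.mem_centralizer_iff]
  rintro _ ⟨t, ht, rfl⟩
  apply matrix_eq_of_mulVec_eq
  intro v
  obtain ⟨a, ha, b, hb, rfl⟩ : ∃ a ∈ Y, ∃ b ∈ Y', a + b = v := by
    have : v ∈ Y ⊔ Y' := by rw [hc.sup_eq_top]; exact Submodule.mem_top
    exact Submodule.mem_sup.mp this
  simp only [← Matrix.mulVec_mulVec, hπ, Matrix.mulVec_add, map_add]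
  rw [h1 a ha, h2 b hb, h1 _ (hY t ht a ha), h2 _ (hY' t ht b hb)]
  simp

end Cfsg.Agent.Lib.Helper97CSemi
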