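import Cfsg.Agent.Lib.Helper97CAlg

set_option autoImplicit false
set_option linter.unusedSectionVars false

namespace Cfsg.Agent.Lib.Helper97CSmallT

open Cfsg Cfsg.Geo Matrix Cfsg.Agent.Lib.Helper97GBase Cfsg.Agent.Lib.Helper97CField
  Cfsg.Agent.Lib.Helper97CKron Cfsg.Agent.Lib.Helper97CLoc Cfsg.Agent.Lib.Helper97CAlg
open scoped MatrixGroups Kronecker

variable {ι : Type} [Fintype ι] [DecidableEq ι] {F : Type*} [Field F]

lemma zero_or_one_of_card [Fintype F] (h : Fintype.card F = 2) (a : F) : a = 0 ∨ a = 1 := by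
  classical
  by_contra hcon
  push Not at hcon
  have h3 : ({0, 1, a} : Finset F).card = 3 := by
    rw [Finset.card_insert_of_notMem, Finset.card_insert_of_notMem, Finset.card_singleton]
    · simpa using hcon.2.symm
    · simp only [Finset.mem_insert, Finset.mem_singleton, not_or]
      exact ⟨zero_ne_one, hcon.1.symm⟩
  have := Finset.card_le_univ ({0, 1, a} : Finset F)
  omega

/-- the Fibonacci matrix -/
def om (F : Type*) [Field F] : Matrix (Fin 2) (Fin 2) F := !![0, 1; 1, 1]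

lemma om_mul_om : om F * om F = om F + 1 := by
  unfold om
  ext i j
  fin_cases i <;> fin_cases j <;> simp [Matrix.mul_apply, Fin.sum_univ_two]

lemma two_eq_zero_of (hF : ∀ a : F, a = 0 ∨ a = 1) : (1 : F) + 1 = 0 := by
  rcases hF (1 + 1) with h | h
  · exact h
  · exfalso
    have : (1 : F) = 0 := by linear_combination h
    exact one_ne_zero this

lemma eq_om_of_sq (hF : ∀ a : F, a = 0 ∨ a = 1) (M : Matrix (Fin 2) (Fin 2) F)
    (h : M * M = M + 1) : M = om F ∨ M = om F + 1 := by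
  have h2 := two_eq_zero_of hF
  have h00 := congrFun (congrFun h 0) 0
  have h01 := congrFun (congrFun h 0) 1
  have h10 := congrFun (congrFun h 1) 0
  have h11 := congrFun (congrFun h 1) 1
  simp only [Matrix.mul_apply, Fin.sum_univ_two, Matrix.add_apply, Matrix.one_apply_eq] at h00 h01 h10 h11
  have e1 : om F + 1 = !![1, 1; 1, 0] := by
    unfold om
    ext i j
    fin_cases i <;> fin_cases j <;> simp [h2]
  rw [e1, Matrix.eta_fin_two M]
  unfold om
  rcases hF (M 0 0) with a | a <;> rcases hF (M 0 1) with b | b <;> rcases hF (M 1 0) with c | c <;>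
    rcases hF (M 1 1) with d | d <;> simp [a, b, c, d, h2] at h00 h01 h10 h11 ⊢

/-- the field of order four inside the two by two matrices -/
def K0 (F : Type*) [Field F] : Subalgebra F (Matrix (Fin 2) (Fin 2) F) where
  carrier := {M | ∃ x y : F, M = x • 1 + y • om F}
  mul_mem' := by
    rintro _ _ ⟨x, y, rfl⟩ ⟨x', y', rfl⟩
    refine ⟨x * x' + y * y', x * y' + y * x' + y * y', ?_⟩
    simp only [add_mul, mul_add, smul_mul_assoc, mul_smul_comm, one_mul, mul_one, om_mul_om,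
      smul_add, smul_smul, add_smul, mul_comm x' x, mul_comm x' y, mul_comm y' x, mul_comm y' y]
    abel
  add_mem' := by
    rintro _ _ ⟨x, y, rfl⟩ ⟨x', y', rfl⟩
    exact ⟨x + x', y + y', by simp only [add_smul]; abel⟩
  algebraMap_mem' r := ⟨r, 0, by rw [Algebra.algebraMap_eq_smul_one, zero_smul, add_zero]⟩

lemma mem_K0 {M : Matrix (Fin 2) (Fin 2) F} : M ∈ K0 F ↔ ∃ x y : F, M = x • 1 + y • om F := Iff.rfl

lemma K0_comm (x : Matrix (Fin 2) (Fin 2) F) (hx : x ∈ K0 F) (y : Matrix (Fin 2) (Fin 2) F)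
    (hy : y ∈ K0 F) : x * y = y * x := by
  obtain ⟨a, b, rfl⟩ := hx
  obtain ⟨c, d, rfl⟩ := hy
  simp only [add_mul, mul_add, smul_mul_assoc, mul_smul_comm, one_mul, mul_one, smul_add, smul_smul,
    mul_comm]
  abel

lemma K0_inv (hF : ∀ a : F, a = 0 ∨ a = 1) (x : Matrix (Fin 2) (Fin 2) F) (hx : x ∈ K0 F)
    (h0 : x ≠ 0) : ∃ y ∈ K0 F, x * y = 1 := by
  have h2 := two_eq_zero_of hF
  have h2' : om F + om F = 0 := by
    rw [← two_smul F, show (2 : F) = 1 + 1 by norm_num, h2, zero_smul]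
  obtain ⟨a, b, rfl⟩ := hx
  rcases hF a with rfl | rfl <;> rcases hF b with rfl | rfl
  · simp at h0
  · refine ⟨om F + 1, ⟨1, 1, by simp [add_comm]⟩, ?_⟩
    rw [zero_smul, zero_add, one_smul, mul_add, om_mul_om, mul_one, add_right_comm, h2', zero_add]
  · exact ⟨1, (K0 F).one_mem, by simp⟩
  · refine ⟨om F, ⟨0, 1, by simp⟩, ?_⟩
    rw [one_smul, one_smul, add_mul, one_mul, om_mul_om, ← add_assoc, h2', zero_add]

lemma K0_finrank : Module.finrank F (K0 F) = 2 := by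
  let φ : (F × F) →ₗ[F] K0 F :=
    { toFun := fun p => ⟨p.1 • 1 + p.2 • om F, p.1, p.2, rfl⟩
      map_add' := fun p q => by
        apply Subtype.ext
        simp only [Prod.fst_add, Prod.snd_add, add_smul, Subalgebra.coe_add]
        abel
      map_smul' := fun c p => by
        apply Subtype.ext
        simp only [Prod.smul_fst, Prod.smul_snd, smul_eq_mul, RingHom.id_apply, Subalgebra.coe_smul,
          smul_add, smul_smul] }
  have hbij : Function.Bijective φ := by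
    constructor
    · intro p q h
      have h1 := congrArg Subtype.val h
      have h00 := congrFun (congrFun h1 0) 0
      have h01 := congrFun (congrFun h1 0) 1
      simp [φ, om] at h00 h01
      exact Prod.ext h00 h01
    · rintro ⟨_, x, y, rfl⟩
      exact ⟨(x, y), rfl⟩
  rw [← (LinearEquiv.ofBijective φ hbij).finrank_eq, Module.finrank_prod, Module.finrank_self]

lemma K0_conj (hF : ∀ a : F, a = 0 ∨ a = 1) (a : GL (Fin 2) F) (k : Matrix (Fin 2) (Fin 2) F)
    (hk : k ∈ K0 F) :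
    (a : Matrix (Fin 2) (Fin 2) F) * k * ((a⁻¹ : GL (Fin 2) F) : Matrix (Fin 2) (Fin 2) F) ∈ K0 F := by
  obtain ⟨x, y, rfl⟩ := hk
  have h1 : (a : Matrix (Fin 2) (Fin 2) F) * om F * ((a⁻¹ : GL (Fin 2) F) : Matrix (Fin 2) (Fin 2) F)
      ∈ K0 F := by
    have hsq : ((a : Matrix (Fin 2) (Fin 2) F) * om F * ((a⁻¹ : GL (Fin 2) F) : Matrix (Fin 2) (Fin 2) F)) *
        ((a : Matrix (Fin 2) (Fin 2) F) * om F * ((a⁻¹ : GL (Fin 2) F) : Matrix (Fin 2) (Fin 2) F)) =
        (a : Matrix (Fin 2) (Fin 2) F) * om F * ((a⁻¹ : GL (Fin 2) F) : Matrix (Fin 2) (Fin 2) F) + 1 := by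
      have e : ((a : Matrix (Fin 2) (Fin 2) F) * om F * ((a⁻¹ : GL (Fin 2) F) : Matrix (Fin 2) (Fin 2) F)) *
        ((a : Matrix (Fin 2) (Fin 2) F) * om F * ((a⁻¹ : GL (Fin 2) F) : Matrix (Fin 2) (Fin 2) F)) =
        (a : Matrix (Fin 2) (Fin 2) F) * (om F * (((a⁻¹ : GL (Fin 2) F) : Matrix (Fin 2) (Fin 2) F) *
        (a : Matrix (Fin 2) (Fin 2) F)) * om F) * ((a⁻¹ : GL (Fin 2) F) : Matrix (Fin 2) (Fin 2) F) := by
        simp only [mul_assoc]
      rw [e, vi, mul_one, om_mul_om, mul_add, add_mul, mul_one, iv]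
    rcases eq_om_of_sq hF _ hsq with h | h
    · rw [h]; exact ⟨0, 1, by simp⟩
    · rw [h]; exact ⟨1, 1, by simp [add_comm]⟩
  have e : (a : Matrix (Fin 2) (Fin 2) F) * (x • 1 + y • om F) *
      ((a⁻¹ : GL (Fin 2) F) : Matrix (Fin 2) (Fin 2) F) = x • 1 + y • ((a : Matrix (Fin 2) (Fin 2) F) *
      om F * ((a⁻¹ : GL (Fin 2) F) : Matrix (Fin 2) (Fin 2) F)) := by
    rw [mul_add, add_mul, mul_smul_comm, mul_smul_comm, smul_mul_assoc, smul_mul_assoc, mul_one, iv]
  rw [e]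
  exact (K0 F).add_mem ((K0 F).smul_mem (K0 F).one_mem x) ((K0 F).smul_mem h1 y)

lemma le_subalgebraNormalizer_of_forall {T : Subgroup (GL ι F)} {K : Subalgebra F (Matrix ι ι F)}
    (h : ∀ g ∈ T, ∀ k ∈ K, (g : Matrix ι ι F) * k * ((g⁻¹ : GL ι F) : Matrix ι ι F) ∈ K) :
    T ≤ subalgebraNormalizer K := by
  intro g hg k
  refine ⟨h g hg k, fun hk => ?_⟩
  have h1 := h g⁻¹ (T.inv_mem hg) _ hk
  rw [inv_inv] at h1
  have e : ((g⁻¹ : GL ι F) : Matrix ι ι F) * ((g : Matrix ι ι F) * k * ((g⁻¹ : GL ι F) : Matrix ι ι F)) *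
      (g : Matrix ι ι F) = k := by
    simp only [← mul_assoc, vi, one_mul]
    rw [mul_assoc, vi, mul_one]
  rwa [e] at h1

lemma inv_val_of_tensor {d e : ℕ} {ε : ι ≃ Fin d × Fin e} {P h : GL ι F} {a : GL (Fin d) F}
    {b : GL (Fin e) F}
    (hab : (h : Matrix ι ι F) = unloc ε P ((a : Matrix (Fin d) (Fin d) F) ⊗ₖ (b : Matrix (Fin e) (Fin e) F))) :
    ((h⁻¹ : GL ι F) : Matrix ι ι F) = unloc ε P (((a⁻¹ : GL (Fin d) F) : Matrix (Fin d) (Fin d) F) ⊗ₖ
      ((b⁻¹ : GL (Fin e) F) : Matrix (Fin e) (Fin e) F)) := by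
  have h1 : (h : Matrix ι ι F) * unloc ε P (((a⁻¹ : GL (Fin d) F) : Matrix (Fin d) (Fin d) F) ⊗ₖ
      ((b⁻¹ : GL (Fin e) F) : Matrix (Fin e) (Fin e) F)) = 1 := by
    rw [hab, ← unloc_mul, ← Matrix.mul_kronecker_mul, iv, iv, Matrix.one_kronecker_one, unloc_one]
  calc ((h⁻¹ : GL ι F) : Matrix ι ι F) = ((h⁻¹ : GL ι F) : Matrix ι ι F) * ((h : Matrix ι ι F) *
        unloc ε P (((a⁻¹ : GL (Fin d) F) : Matrix (Fin d) (Fin d) F) ⊗ₖ
      ((b⁻¹ : GL (Fin e) F) : Matrix (Fin e) (Fin e) F))) := by rw [h1, mul_one]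
    _ = _ := by rw [← mul_assoc, vi, one_mul]

/-- over the field of two elements, a tensor decomposition with a factor of dimension two is
contained in the normaliser of a field of order four -/
theorem tensor_two_le [Fintype F] (hq : Fintype.card F = 2) {e : ℕ} (he : 0 < e)
    (ε : ι ≃ Fin 2 × Fin e) (P : GL ι F) :
    ∃ K : Subalgebra F (Matrix ι ι F), IsFieldSubalgebra 2 K ∧
      tensorProductSubgroup 2 e ε P ≤ subalgebraNormalizer K := by
  have hF := zero_or_one_of_card hq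
  let φ : Matrix (Fin 2) (Fin 2) F →ₐ[F] Matrix ι ι F := (unlocHom ε P).comp (kronL 2 e F)
  have hφ : Function.Injective φ := (unloc_injective ε P).comp (kronL_injective he)
  have hφa : ∀ x, φ x = unloc ε P (x ⊗ₖ (1 : Matrix (Fin e) (Fin e) F)) := fun x => rfl
  refine ⟨(K0 F).map φ, ⟨?_, ?_, ?_⟩, ?_⟩
  · rintro _ ⟨x, hx, rfl⟩ _ ⟨y, hy, rfl⟩
    change φ x * φ y = φ y * φ x
    rw [← map_mul, ← map_mul, K0_comm x hx y hy]
  · rintro _ ⟨x, hx, rfl⟩ h0
    have hx0 : x ≠ 0 := by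
      rintro rfl
      exact h0 (map_zero φ)
    obtain ⟨y, hy, hxy⟩ := K0_inv hF x hx hx0
    refine ⟨φ y, ⟨y, hy, rfl⟩, ?_⟩
    change φ x * φ y = 1
    rw [← map_mul, hxy, map_one]
  · rw [finrank_map_of_injective φ hφ, K0_finrank]
  · apply le_subalgebraNormalizer_of_forall
    rintro g hg _ ⟨k, hk, rfl⟩
    obtain ⟨a, b, hab⟩ := (mem_tensorProductSubgroup_iff ε P g).mp hg
    refine ⟨_, K0_conj hF a k hk, ?_⟩
    change φ _ = (g : Matrix ι ι F) * φ k * _
    rw [inv_val_of_tensor hab, hab, hφa, hφa, ← unloc_mul, ← unloc_mul, ← Matrix.mul_kronecker_mul,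
      ← Matrix.mul_kronecker_mul, mul_one, iv]

end Cfsg.Agent.Lib.Helper97CSmallT
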