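import Cfsg.Agent.Lib.Helper97CBurn
import Cfsg.Agent.Lib.Helper97GCore

set_option autoImplicit false
set_option linter.unusedSectionVars false

namespace Cfsg.Agent.Lib.Helper97CSq

open Cfsg Cfsg.Geo Matrix Cfsg.Agent.Lib.Helper97GBase Cfsg.Agent.Lib.Helper97GClifford
  Cfsg.Agent.Lib.Helper97CBurn Cfsg.Agent.Lib.Helper97GCore
open scoped MatrixGroups commutatorElement

variable {ι : Type} [Fintype ι] [DecidableEq ι] {F : Type*} [Field F]

/-- conjugation as a linear operator on matrices -/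
def Ad (g : GL ι F) : Module.End F (Matrix ι ι F) :=
  (LinearMap.mulLeft F (g : Matrix ι ι F)).comp (LinearMap.mulRight F ((g⁻¹ : GL ι F) : Matrix ι ι F))

lemma Ad_apply (g : GL ι F) (M : Matrix ι ι F) :
    Ad g M = (g : Matrix ι ι F) * (M * ((g⁻¹ : GL ι F) : Matrix ι ι F)) := rfl

lemma Ad_mul (g h : GL ι F) : Ad (g * h) = Ad g * Ad h := by
  ext1 M
  simp only [Ad_apply, Module.End.mul_apply, Units.val_mul, _root_.mul_inv_rev, mul_assoc]

lemma Ad_scalar {z : GL ι F} (hz : z ∈ scalars ι F) : Ad z = 1 := by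
  ext1 M
  obtain ⟨c, hc⟩ := (mem_scalars_iff z).mp hz
  have h1 : (z : Matrix ι ι F) * (M * ((z⁻¹ : GL ι F) : Matrix ι ι F)) =
      M * ((z : Matrix ι ι F) * ((z⁻¹ : GL ι F) : Matrix ι ι F)) := by
    rw [hc]
    simp
  rw [Ad_apply, h1, ← Units.val_mul, mul_inv_cancel, Units.val_one, mul_one]
  rfl

/-- a group that is abelian modulo scalars and absolutely irreducible has order `n ^ 2` modulo
scalars -/
theorem card_quot_eq_sq [Nonempty ι] [Finite F] {N : Subgroup (GL ι F)}
    (hcomm : ⁅N, N⁆ ≤ scalars ι F) (habs : ActsAbsolutelyIrreducibly (matrixSet N)) :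
    Nat.card (N ⧸ (scalars ι F).subgroupOf N) = Fintype.card ι ^ 2 := by
  classical
  have : Fintype (N ⧸ (scalars ι F).subgroupOf N) := Fintype.ofFinite _
  let s : N ⧸ (scalars ι F).subgroupOf N → N := Quotient.out
  let m : N ⧸ (scalars ι F).subgroupOf N → Matrix ι ι F := fun q => ((s q : GL ι F) : Matrix ι ι F)
  have hz : ∀ (q) (x : N), ⁅(x : GL ι F), (s q : GL ι F)⁆ ∈ scalars ι F := fun q x =>
    hcomm (Subgroup.commutator_mem_commutator x.2 (s q).2)
  have hχ : ∀ (q) (x : N), ∃ c : F, ((⁅(x : GL ι F), (s q : GL ι F)⁆ : GL ι F) : Matrix ι ι F) = c • 1 := by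
    intro q x
    obtain ⟨c, hc⟩ := (mem_scalars_iff _).mp (hz q x)
    exact ⟨c, hc⟩
  choose χ hχ using hχ
  have hAdcomm : ∀ x y : N, Commute (Ad (x : GL ι F)) (Ad (y : GL ι F)) := by
    intro x y
    have h1 : (x : GL ι F) * y = ⁅(x : GL ι F), (y : GL ι F)⁆ * (y * x) := by
      rw [commutatorElement_def]; group
    show _ * _ = _ * _
    rw [← Ad_mul, h1, Ad_mul, Ad_scalar (hcomm (Subgroup.commutator_mem_commutator x.2 y.2)), one_mul,
      Ad_mul]
  have hind := Module.End.independent_iInf_maxGenEigenspace_of_forall_mapsTo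
    (fun x : N => Ad (x : GL ι F)) (by
      intro i j φ
      exact Module.End.mapsTo_maxGenEigenspace_of_comm (hAdcomm j i) φ)
  have hmem : ∀ q, m q ∈ ⨅ x : N, (Ad (x : GL ι F)).maxGenEigenspace (χ q x) := by
    intro q
    rw [Submodule.mem_iInf]
    intro x
    apply Module.End.eigenspace_le_maxGenEigenspace
    rw [Module.End.mem_eigenspace_iff, Ad_apply]
    have h1 : (x : GL ι F) * (s q * (x : GL ι F)⁻¹) = ⁅(x : GL ι F), (s q : GL ι F)⁆ * s q := by
      rw [commutatorElement_def]; group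
    have h2 := congrArg (fun g : GL ι F => (g : Matrix ι ι F)) h1
    simp only [Units.val_mul] at h2
    rw [h2, hχ]
    simp [m]
  have hχinj : Function.Injective χ := by
    intro q q' hqq
    have hsc : (s q : GL ι F)⁻¹ * (s q' : GL ι F) ∈ scalars ι F := by
      obtain ⟨c, hc⟩ := habs.2 (((s q : GL ι F)⁻¹ * (s q' : GL ι F) : GL ι F) : Matrix ι ι F) (by
        rintro _ ⟨x, hx, rfl⟩
        have e1 : ⁅x, (s q : GL ι F)⁆ = ⁅x, (s q' : GL ι F)⁆ := by
          apply Units.ext
          rw [hχ q ⟨x, hx⟩, hχ q' ⟨x, hx⟩, hqq]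
        rw [← Units.val_mul, ← Units.val_mul]
        congr 1
        rw [commutatorElement_def, commutatorElement_def] at e1
        have e2 : (s q : GL ι F) * x⁻¹ * (s q : GL ι F)⁻¹ = (s q' : GL ι F) * x⁻¹ * (s q' : GL ι F)⁻¹ := by
          have := congrArg (fun g => x⁻¹ * g) e1
          simpa [mul_assoc] using this
        have e3 : x⁻¹ * ((s q : GL ι F)⁻¹ * (s q' : GL ι F)) = ((s q : GL ι F)⁻¹ * (s q' : GL ι F)) * x⁻¹ := by
          have := congrArg (fun g => (s q : GL ι F)⁻¹ * g * (s q' : GL ι F)) e2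
          simpa [mul_assoc] using this
        have := congrArg (fun g => x * g * x) e3
        simpa [mul_assoc] using this)
      rw [mem_scalars_iff]
      have hc0 : c ≠ 0 := by
        intro h0
        rw [h0, zero_smul] at hc
        exact (Units.isUnit _).ne_zero hc
      exact ⟨Units.mk0 c hc0, hc⟩
    have h1 : (QuotientGroup.mk (s q) : N ⧸ (scalars ι F).subgroupOf N) = QuotientGroup.mk (s q') := by
      rw [QuotientGroup.eq, Subgroup.mem_subgroupOf]
      exact hsc
    rwa [QuotientGroup.out_eq', QuotientGroup.out_eq'] at h1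
  have hli : LinearIndependent F m :=
    (hind.comp hχinj).linearIndependent _ hmem (fun q => (Units.isUnit _).ne_zero)
  have hsp : ⊤ ≤ Submodule.span F (Set.range m) := by
    have h1 := adjoin_eq_top habs
    have h2 := Algebra.adjoin_eq_span F (matrixSet N)
    rw [h1] at h2
    have h3 : (Submonoid.closure (matrixSet N) : Set (Matrix ι ι F)) ⊆ matrixSet N := by
      have : Submonoid.closure (matrixSet N) ≤ N.toSubmonoid.map (Units.coeHom (Matrix ι ι F)) := by
        rw [Submonoid.closure_le]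
        rintro _ ⟨x, hx, rfl⟩
        exact ⟨x, hx, rfl⟩
      rintro y hy
      obtain ⟨x, hx, rfl⟩ := this hy
      exact ⟨x, hx, rfl⟩
    have h4 : (⊤ : Submodule F (Matrix ι ι F)) = Submodule.span F (Submonoid.closure (matrixSet N)) := by
      rw [← h2]; rfl
    rw [h4, Submodule.span_le]
    intro y hy
    obtain ⟨x, hx, rfl⟩ := h3 hy
    obtain ⟨h, hh⟩ := QuotientGroup.mk_out_eq_mul ((scalars ι F).subgroupOf N) (⟨x, hx⟩ : N)
    obtain ⟨c, hc⟩ := (mem_scalars_iff _).mp (Subgroup.mem_subgroupOf.mp (Subgroup.inv_mem _ h.2))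
    have e1 : x = (s (QuotientGroup.mk ⟨x, hx⟩) : GL ι F) * (((h : N)⁻¹ : N) : GL ι F) := by
      have : s (QuotientGroup.mk ⟨x, hx⟩) = ⟨x, hx⟩ * (h : N) := hh
      rw [this]
      simp
    have e2 : (x : Matrix ι ι F) = (c : F) • m (QuotientGroup.mk ⟨x, hx⟩) := by
      have := congrArg (fun g : GL ι F => (g : Matrix ι ι F)) e1
      simp only [Units.val_mul] at this
      rw [this, hc]
      simp [m]
    show (x : Matrix ι ι F) ∈ _
    rw [e2]
    exact Submodule.smul_mem _ _ (Submodule.subset_span ⟨_, rfl⟩)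
  have hfr := Module.finrank_eq_card_basis (Module.Basis.mk hli hsp)
  rw [Module.finrank_matrix, Module.finrank_self, mul_one] at hfr
  rw [Nat.card_eq_fintype_card, ← hfr, pow_two]

end Cfsg.Agent.Lib.Helper97CSq
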