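import Cfsg.Agent.Lib.Helper97CFrame

set_option autoImplicit false
set_option linter.unusedSectionVars false

namespace Cfsg.Agent.Lib.Helper97CTensor

open Cfsg Cfsg.Geo Matrix Cfsg.Agent.Lib.Helper97GBase Cfsg.Agent.Lib.Helper97CField
  Cfsg.Agent.Lib.Helper97CKron Cfsg.Agent.Lib.Helper97CLoc Cfsg.Agent.Lib.Helper97CBlocks
  Cfsg.Agent.Lib.Helper97GClifford Cfsg.Agent.Lib.Helper97CFrame
open scoped MatrixGroups Kronecker

variable {ι : Type} [Fintype ι] [DecidableEq ι] {F : Type*} [Field F]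

/-- the group `T` acts as `ρ ⊗ 1` in suitable coordinates, with `ρ` absolutely irreducible -/
structure TensorData (T : Subgroup (GL ι F)) (d e : ℕ) (ε : ι ≃ Fin d × Fin e) (P : GL ι F)
    (R : Set (Matrix (Fin d) (Fin d) F)) : Prop where
  absIrred : ActsAbsolutelyIrreducibly R
  fwd : ∀ t ∈ T, ∃ ρ ∈ R, (t : Matrix ι ι F) = unloc ε P (ρ ⊗ₖ (1 : Matrix (Fin e) (Fin e) F))
  bwd : ∀ ρ ∈ R, ∃ t ∈ T, (t : Matrix ι ι F) = unloc ε P (ρ ⊗ₖ (1 : Matrix (Fin e) (Fin e) F))

variable {T : Subgroup (GL ι F)} {d e : ℕ} {ε : ι ≃ Fin d × Fin e} {P : GL ι F}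
  {R : Set (Matrix (Fin d) (Fin d) F)}

/-- elements normalising `T` preserve the tensor decomposition -/
theorem TensorData.normalizer_le (h : TensorData T d e ε P R) (hd : 0 < d) (he : 0 < e) {g : GL ι F}
    (hg : ∀ t ∈ T, g * t * g⁻¹ ∈ T) : g ∈ tensorProductSubgroup d e ε P := by
  have hu := isUnit_loc ε P g
  have hne : Nonempty (Fin d × Fin e) := ⟨(⟨0, hd⟩, ⟨0, he⟩)⟩
  have h0 : loc ε P (g : Matrix ι ι F) ≠ 0 := hu.ne_zero
  obtain ⟨x, y, hxy⟩ := eq_kron_of_normalizes h.absIrred h0 (by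
    intro ρ hρ
    obtain ⟨t, ht, hte⟩ := h.bwd ρ hρ
    obtain ⟨ρ', _, hρ'⟩ := h.fwd _ (hg t ht)
    refine ⟨ρ', ?_⟩
    have e1 : (g : Matrix ι ι F) * (t : Matrix ι ι F) = ((g * t * g⁻¹ : GL ι F) : Matrix ι ι F) * g := by
      rw [← Units.val_mul, ← Units.val_mul]
      congr 1
      group
    rw [hte, hρ'] at e1
    have e2 := congrArg (loc ε P) e1
    rwa [loc_mul, loc_mul, loc_unloc, loc_unloc] at e2)
  rw [hxy] at hu
  obtain ⟨a, b, rfl, rfl⟩ := units_of_kron hd he hu
  rw [mem_tensorProductSubgroup_iff]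
  exact ⟨a, b, by rw [← hxy, unloc_loc]⟩

/-- the centralizer of `T` lives in the second factor -/
theorem TensorData.centralizer (h : TensorData T d e ε P R) {c : Matrix ι ι F} (hc : c ∈ Cen T) :
    ∃ y : Matrix (Fin e) (Fin e) F, c = unloc ε P ((1 : Matrix (Fin d) (Fin d) F) ⊗ₖ y) := by
  obtain ⟨y, hy⟩ := eq_one_kron_of_comm h.absIrred (M := loc ε P c) (by
    intro ρ hρ
    obtain ⟨t, ht, hte⟩ := h.bwd ρ hρ
    have e1 := (Subalgebra.mem_centralizer_iff F).mp hc _ ⟨t, ht, rfl⟩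
    simp only at e1
    rw [hte] at e1
    have e2 := congrArg (loc ε P) e1
    rw [loc_mul, loc_mul, loc_unloc] at e2
    exact e2.symm)
  exact ⟨y, by rw [← hy, unloc_loc]⟩

lemma TensorData.le_scalars [Nonempty ι] {ε : ι ≃ Fin 1 × Fin e} {R : Set (Matrix (Fin 1) (Fin 1) F)}
    (h : TensorData T 1 e ε P R) : T ≤ scalars ι F := by
  intro t ht
  obtain ⟨ρ, _, hρ⟩ := h.fwd t ht
  have h1 : ρ = (ρ 0 0) • (1 : Matrix (Fin 1) (Fin 1) F) := by
    ext i j
    fin_cases i; fin_cases j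
    simp
  have h2 : (t : Matrix ι ι F) = (ρ 0 0) • (1 : Matrix ι ι F) := by
    rw [hρ, h1, Matrix.smul_kronecker, Matrix.one_kronecker_one, unloc_smul, unloc_one]
    simp
  have h3 : ρ 0 0 ≠ 0 := by
    intro h0
    rw [h0, zero_smul] at h2
    have := iv t
    rw [h2, zero_mul] at this
    exact zero_ne_one this
  rw [mem_scalars_iff]
  exact ⟨Units.mk0 _ h3, h2⟩

lemma matrix_eq_of_single' {M N : Matrix ι ι F}
    (h : ∀ j, M *ᵥ Pi.single j 1 = N *ᵥ Pi.single j 1) : M = N := by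
  ext i j
  have := congrFun (h j) i
  simpa [Matrix.mulVec_single_one] using this

/-- existence of the tensor structure -/
theorem exists_tensorData [Finite F] [Nonempty ι] {T : Subgroup (GL ι F)}
    (habs : ActsAbsolutelyIrreducibly (matrixSet T ∪ (Cen T : Set (Matrix ι ι F)))) :
    ∃ (d e : ℕ) (ε : ι ≃ Fin d × Fin e) (P : GL ι F) (R : Set (Matrix (Fin d) (Fin d) F)),
      0 < d ∧ 0 < e ∧ TensorData T d e ε P R ∧
      (∃ W : Submodule F (ι → F), Inv T W ∧ Module.finrank F W = d) ∧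
      ∀ W : Submodule F (ι → F), Inv T W → W ≠ ⊥ → d ≤ Module.finrank F W := by
  classical
  obtain ⟨W, hW, hW0, hmin⟩ := exists_min_inv Fintype.card_pos T
  obtain ⟨e, c, hc, hbij⟩ := exists_frame habs.1 hW hW0 hmin
  obtain ⟨d, hd⟩ : ∃ d, d = Module.finrank F W := ⟨_, rfl⟩
  have hdpos : 0 < d := by
    rw [hd, Module.finrank_pos_iff]
    exact Submodule.nontrivial_iff_ne_bot.mpr hW0
  let bW : Module.Basis (Fin d) F W := Module.finBasisOfFinrankEq F W hd.symm
  let v : Fin d × Fin e → (ι → F) := fun p => c p.2 *ᵥ (bW p.1 : ι → F)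
  have hcard : Fintype.card ι = d * e := by
    have := LinearEquiv.finrank_eq (LinearEquiv.ofBijective _ hbij)
    rw [finrank_pi, Module.finrank_fintype_fun_eq_card] at this
    rw [← this, mul_comm, hd]
  have hepos : 0 < e := by
    rcases Nat.eq_zero_or_pos e with h | h
    · rw [h, mul_zero] at hcard
      exact absurd hcard Fintype.card_ne_zero
    · exact h
  have hvind : LinearIndependent F v := by
    rw [Fintype.linearIndependent_iff]
    intro g hg p
    have h1 : Phi W c (fun j => ∑ i, g (i, j) • bW i) = 0 := by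
      rw [Phi_apply, ← hg, Fintype.sum_prod_type_right]
      apply Finset.sum_congr rfl
      intro j _
      simp [v, Matrix.mulVec_sum, Matrix.mulVec_smul]
    have h2 : (fun j => ∑ i, g (i, j) • bW i) = 0 := hbij.1 (by rw [h1, map_zero])
    have h3 := congrFun h2 p.2
    exact Fintype.linearIndependent_iff.mp bW.linearIndependent _ h3 p.1
  let ε : ι ≃ Fin d × Fin e := Fintype.equivOfCardEq (by simp [hcard])
  let M : Matrix ι ι F := Matrix.of (fun i k => v (ε k) i)
  have hind : LinearIndependent F M.col := hvind.comp ε ε.injective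
  obtain ⟨P, hP⟩ := Matrix.linearIndependent_cols_iff_isUnit.mp hind
  have hPmul : ∀ u : ι → F, (P : Matrix ι ι F) *ᵥ u = ∑ p : Fin d × Fin e, u (ε.symm p) • v p := by
    intro u
    funext x
    rw [hP, Finset.sum_apply, ← Equiv.sum_comp ε]
    simp [Matrix.mulVec, dotProduct, M, mul_comm]
  have hPsingle : ∀ q, (P : Matrix ι ι F) *ᵥ Pi.single (ε.symm q) 1 = v q := by
    intro q
    rw [hP, Matrix.mulVec_single_one]
    funext x
    simp [M]
  have hunloc : ∀ (N : Matrix (Fin d × Fin e) (Fin d × Fin e) F) (q : Fin d × Fin e),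
      unloc ε P N *ᵥ v q = ∑ p, N p q • v p := by
    intro N q
    rw [← hPsingle q]
    unfold unloc
    rw [Matrix.mulVec_mulVec, mul_assoc, vi, mul_one, ← Matrix.mulVec_mulVec, hPmul,
      Matrix.mulVec_single_one]
    simp
  have hmat : ∀ (g : Matrix ι ι F) (N : Matrix (Fin d × Fin e) (Fin d × Fin e) F),
      (∀ q, g *ᵥ v q = ∑ p, N p q • v p) → g = unloc ε P N := by
    intro g N h
    have h1 : g * (P : Matrix ι ι F) = unloc ε P N * (P : Matrix ι ι F) := by
      apply matrix_eq_of_single'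
      intro l
      have h2 := hPsingle (ε l)
      rw [Equiv.symm_apply_apply] at h2
      rw [← Matrix.mulVec_mulVec, ← Matrix.mulVec_mulVec, h2, h, hunloc]
    have h3 := congrArg (fun X => X * ((P⁻¹ : GL ι F) : Matrix ι ι F)) h1
    simpa [mul_assoc, iv] using h3
  have hkron : ∀ (ρ : Matrix (Fin d) (Fin d) F) (i : Fin d) (j : Fin e),
      ∑ p, (ρ ⊗ₖ (1 : Matrix (Fin e) (Fin e) F)) p (i, j) • v p = ∑ k, ρ k i • v (k, j) := by
    intro ρ i j
    rw [Fintype.sum_prod_type]
    apply Finset.sum_congr rfl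
    intro k _
    simp [Matrix.kroneckerMap_apply, Matrix.one_apply, ite_smul]
  let R : Set (Matrix (Fin d) (Fin d) F) :=
    {ρ | ∃ t ∈ T, (t : Matrix ι ι F) = unloc ε P (ρ ⊗ₖ (1 : Matrix (Fin e) (Fin e) F))}
  have hfwd : ∀ t ∈ T, ∃ ρ ∈ R, (t : Matrix ι ι F) = unloc ε P (ρ ⊗ₖ (1 : Matrix (Fin e) (Fin e) F)) := by
    intro t ht
    let ρ : Matrix (Fin d) (Fin d) F :=
      Matrix.of fun k i => bW.repr ⟨(t : Matrix ι ι F) *ᵥ (bW i : ι → F), hW t ht _ (bW i).2⟩ k
    have hρ : (t : Matrix ι ι F) = unloc ε P (ρ ⊗ₖ (1 : Matrix (Fin e) (Fin e) F)) := by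
      apply hmat
      rintro ⟨i, j⟩
      rw [hkron]
      have h1 := (Subalgebra.mem_centralizer_iff F).mp (hc j) _ ⟨t, ht, rfl⟩
      have h2 : (t : Matrix ι ι F) *ᵥ (bW i : ι → F) = ∑ k, ρ k i • (bW k : ι → F) := by
        have h3 := bW.sum_repr ⟨(t : Matrix ι ι F) *ᵥ (bW i : ι → F), hW t ht _ (bW i).2⟩
        have h4 := congrArg Subtype.val h3
        simp only [Submodule.coe_sum, Submodule.coe_smul] at h4
        exact h4.symm
      show (t : Matrix ι ι F) *ᵥ (c j *ᵥ (bW i : ι → F)) = _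
      rw [Matrix.mulVec_mulVec, h1, ← Matrix.mulVec_mulVec, h2, Matrix.mulVec_sum]
      apply Finset.sum_congr rfl
      intro k _
      rw [Matrix.mulVec_smul]
    exact ⟨ρ, ⟨t, ht, hρ⟩, hρ⟩
  let j₀ : Fin e := ⟨0, hepos⟩
  have hRirr : ActsIrreducibly R := by
    intro U' hU'
    let β : (Fin d → F) →ₗ[F] (ι → F) :=
      { toFun := fun u => ∑ i, u i • v (i, j₀)
        map_add' := fun a b => by simp [add_smul, Finset.sum_add_distrib]
        map_smul' := fun a b => by simp [mul_smul, Finset.smul_sum] }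
    have hβ : ∀ u, β u = ∑ i, u i • v (i, j₀) := fun u => rfl
    have hβinj : Function.Injective β := by
      rw [← LinearMap.ker_eq_bot, LinearMap.ker_eq_bot']
      intro u hu
      rw [hβ] at hu
      have h1 := Fintype.linearIndependent_iff.mp
        (hvind.comp (fun i : Fin d => (i, j₀)) (fun a b h => (Prod.ext_iff.mp h).1)) u hu
      funext i
      exact h1 i
    have hUinv : Inv T (U'.map β) := by
      rintro t ht _ ⟨u, hu, rfl⟩
      obtain ⟨ρ, hρR, hρ⟩ := hfwd t ht
      refine ⟨ρ *ᵥ u, ?_, ?_⟩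
      · have := hU' ρ hρR ⟨u, hu, rfl⟩
        simpa [Matrix.toLin'_apply] using this
      · rw [hβ, hβ, Matrix.mulVec_sum]
        have h1 : ∀ i, (t : Matrix ι ι F) *ᵥ (u i • v (i, j₀)) = ∑ k, (u i * ρ k i) • v (k, j₀) := by
          intro i
          rw [Matrix.mulVec_smul, hρ, hunloc, hkron, Finset.smul_sum]
          simp [mul_smul]
        simp only [h1]
        rw [Finset.sum_comm]
        apply Finset.sum_congr rfl
        intro k _
        rw [← Finset.sum_smul]
        congr 1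
        simp [Matrix.mulVec, dotProduct, mul_comm]
    by_cases h0 : U' = ⊥
    · exact Or.inl h0
    · right
      have hne : U'.map β ≠ ⊥ := by
        intro h
        exact h0 (Submodule.map_injective_of_injective hβinj (by rw [h, Submodule.map_bot]))
      have h1 := hmin _ hUinv hne
      rw [← hd, ← LinearEquiv.finrank_eq (Submodule.equivMapOfInjective β hβinj U')] at h1
      apply Submodule.eq_top_of_finrank_eq
      have h2 := Submodule.finrank_le U'
      rw [Module.finrank_fintype_fun_eq_card, Fintype.card_fin] at h2 ⊢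
      omega
  have hne : Nonempty (Fin d) := ⟨⟨0, hdpos⟩⟩
  have hEcomm := (field_centralizer hRirr).comm
  have hRabs : ActsAbsolutelyIrreducibly R := by
    refine ⟨hRirr, ?_⟩
    intro z hz
    have hzE : z ∈ Subalgebra.centralizer F R := by
      rw [Subalgebra.mem_centralizer_iff]
      intro ρ hρ
      exact (hz ρ hρ).symm
    obtain ⟨l, hl⟩ := habs.2 (unloc ε P (z ⊗ₖ (1 : Matrix (Fin e) (Fin e) F))) (by
      rintro s (⟨t, ht, rfl⟩ | hs)
      · obtain ⟨ρ, hρR, hρ⟩ := hfwd t ht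
        simp only
        rw [hρ, ← unloc_mul, ← unloc_mul, ← Matrix.mul_kronecker_mul, ← Matrix.mul_kronecker_mul,
          hz ρ hρR]
      · have hblk : ∀ j j', blk (loc ε P s) j j' ∈ Subalgebra.centralizer F R := by
          intro j j'
          rw [Subalgebra.mem_centralizer_iff]
          rintro ρ ⟨t, ht, hρ⟩
          have e1 := (Subalgebra.mem_centralizer_iff F).mp hs _ ⟨t, ht, rfl⟩
          simp only at e1
          rw [hρ] at e1
          have e2 := congrArg (loc ε P) e1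
          rw [loc_mul, loc_mul, loc_unloc] at e2
          rw [← blk_kron_mul, e2, blk_mul_kron]
        have e3 : (z ⊗ₖ (1 : Matrix (Fin e) (Fin e) F)) * loc ε P s =
            loc ε P s * (z ⊗ₖ (1 : Matrix (Fin e) (Fin e) F)) := by
          apply eq_of_blk
          intro j j'
          rw [blk_kron_mul, blk_mul_kron]
          exact hEcomm _ hzE _ (hblk j j')
        have e4 := congrArg (unloc ε P) e3
        rwa [unloc_mul, unloc_mul, unloc_loc] at e4)
    refine ⟨l, ?_⟩
    have h1 : z ⊗ₖ (1 : Matrix (Fin e) (Fin e) F) =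
        (l • (1 : Matrix (Fin d) (Fin d) F)) ⊗ₖ (1 : Matrix (Fin e) (Fin e) F) := by
      apply unloc_injective ε P
      rw [hl, Matrix.smul_kronecker, Matrix.one_kronecker_one, unloc_smul, unloc_one]
    have h2 := congrArg (fun N => blk N j₀ j₀) h1
    simpa [blk_kron] using h2
  exact ⟨d, e, ε, P, R, hdpos, hepos, ⟨hRabs, hfwd, fun ρ hρ => hρ⟩, ⟨W, hW, hd.symm⟩,
    fun W' h1 h2 => hd ▸ hmin W' h1 h2⟩

end Cfsg.Agent.Lib.Helper97CTensor
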