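import Cfsg.Agent.Lib.Helper95SpStd

set_option autoImplicit false
open Cfsg

namespace Cfsg.Agent.Lib.Helper97GenS5645

open Module Cfsg.Agent.Lib.Helper95Basic Cfsg.Agent.Lib.Helper95Sp Cfsg.Agent.Lib.Helper95Form
  Cfsg.Agent.Lib.Helper95Cen Cfsg.Agent.Lib.Helper95SpStd

section abstract

variable {K V : Type*} [Field K] [AddCommGroup V] [Module K V]
variable {B : LinearMap.BilinForm K V}

/-- the short root element `x ↦ x + B x a • b + B x b • a` -/
noncomputable def srt (hA : B.IsAlt) (a b : V) : V ≃ₗ[K] V :=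
  stv B hA (a + b) 1 * stv B hA a (-1) * stv B hA b (-1)

lemma srt_isometry (hA : B.IsAlt) (a b x y : V) : B (srt hA a b x) (srt hA a b y) = B x y := by
  simp only [srt, LinearEquiv.mul_apply, stv_isometry]

lemma srt_apply (hA : B.IsAlt) (a b : V) (hab : B a b = 0) (x : V) :
    srt hA a b x = x + B x a • b + B x b • a := by
  have hba : B b a = 0 := alt_zero hA hab
  simp only [srt, LinearEquiv.mul_apply, stv_apply, map_add, map_smul, LinearMap.add_apply,
    LinearMap.smul_apply, smul_eq_mul, hA a, hA b, hab, hba]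
  module

theorem cen_univ [FiniteDimensional K V] (hB : B.Nondegenerate) (hA : B.IsAlt)
    (W : Submodule K V) (hW : ∀ u ∈ W, ∀ v ∈ W, B u v = 0)
    (M : Subgroup (V ≃ₗ[K] V))
    (hM : ∀ e : V ≃ₗ[K] V, (∀ u v, B (e u) (e v) = B u v) → (∀ x ∈ W, e x ∈ W) → e ∈ M)
    (hMiso : ∀ e ∈ M, ∀ u v, B (e u) (e v) = B u v)
    (g : V ≃ₗ[K] V) (hgM : g ∈ M) (hg : ¬ ∀ x ∈ W, g x ∈ W) : ∀ v, v ∈ cen hA M := by
  set Wp := B.orthogonal W with hWp
  have hWWp : W ≤ Wp := fun w hw n hn => hW n hn w hw
  have hoo : B.orthogonal Wp = W := LinearMap.BilinForm.orthogonal_orthogonal hB hA.isRefl W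
  have hWpc : ∀ r ∈ Wp, r ∈ cen hA M := by
    intro r hr c
    refine hM _ (stv_isometry hA r c) ?_
    intro y hy
    rw [stv_fix hA r c y (hr y hy)]
    exact hy
  -- (b)
  obtain ⟨x0, hx0c, hx0⟩ : ∃ x ∈ cen hA M, x ∉ Wp := by
    by_contra hcon
    push Not at hcon
    have hle : Wp.map (g : V →ₗ[K] V) ≤ Wp := by
      rintro _ ⟨r, hr, rfl⟩
      exact hcon _ (cen_map g hgM (hMiso g hgM) (hWpc r hr))
    have heq : Wp.map (g : V →ₗ[K] V) = Wp :=
      Submodule.eq_of_le_of_finrank_eq hle (LinearEquiv.finrank_map_eq g Wp)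
    apply hg
    intro w hw
    rw [← hoo]
    intro r hr
    rw [← heq] at hr
    obtain ⟨r', hr', rfl⟩ := hr
    show B (g r') (g w) = 0
    rw [hMiso g hgM]
    exact alt_zero hA (hr' w hw)
  -- (c)
  have hc : ∀ x ∈ cen hA M, x ∉ Wp → ∀ a ∈ Wp, x + a ∈ cen hA M := by
    intro x hx hxW a ha
    by_cases hxa : B x a = 0
    · obtain ⟨a', ha', hax⟩ : ∃ a' ∈ W, B a' x ≠ 0 := by
        by_contra hcon
        push Not at hcon
        exact hxW hcon
      have hxa' : B x a' ≠ 0 := fun h => hax (alt_zero hA h)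
      have h1 : x + a' ∈ cen hA M := cen_add hx (hWpc a' (hWWp ha')) hxa'
      have h2 : (x + a') + (a - a') ∈ cen hA M := by
        refine cen_add h1 (hWpc _ (Wp.sub_mem ha (hWWp ha'))) ?_
        simp only [map_add, map_sub, LinearMap.add_apply, hxa, hA a', ha a' ha']
        simpa using hxa'
      have h3 : (x + a') + (a - a') = x + a := by abel
      rwa [h3] at h2
    · exact cen_add hx (hWpc a ha) hxa
  -- (d)
  have hd : ∀ x ∈ cen hA M, ∀ y ∈ cen hA M, x + y ∈ cen hA M := by
    intro x hx y hy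
    by_cases hxW : x ∈ Wp
    · by_cases hyW : y ∈ Wp
      · exact hWpc _ (Wp.add_mem hxW hyW)
      · rw [add_comm]; exact hc y hy hyW x hxW
    · by_cases hyW : y ∈ Wp
      · exact hc x hx hxW y hyW
      · by_cases hxy : B x y = 0
        · obtain ⟨a, ha, hay⟩ : ∃ a ∈ W, B a y ≠ 0 := by
            by_contra hcon
            push Not at hcon
            exact hyW hcon
          have h1 : x + a ∈ cen hA M := hc x hx hxW a (hWWp ha)
          have h2 : (x + a) + y ∈ cen hA M := by
            refine cen_add h1 hy ?_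
            simpa [hxy] using hay
          by_cases h3 : (x + a) + y ∈ Wp
          · have h4 : x + y ∈ Wp := by
              have := Wp.sub_mem h3 (hWWp ha)
              have h5 : x + a + y - a = x + y := by abel
              rwa [h5] at this
            exact hWpc _ h4
          · have h4 := hc _ h2 h3 (-a) (Wp.neg_mem (hWWp ha))
            have h5 : x + a + y + -a = x + y := by abel
            rwa [h5] at h4
        · exact cen_add hx hy hxy
  -- (e)
  let X : Submodule K V :=
    { carrier := cen hA M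
      add_mem' := fun {a b} ha hb => hd a ha b hb
      zero_mem' := zero_mem_cen
      smul_mem' := fun c x hx => cen_smul c hx }
  have hXmem : ∀ v, v ∈ X ↔ v ∈ cen hA M := fun v => Iff.rfl
  have hWpX : Wp ≤ X := fun r hr => hWpc r hr
  set Y := B.orthogonal X with hY
  have hYW : Y ≤ W := by
    rw [← hoo]
    exact LinearMap.BilinForm.orthogonal_le hWpX
  have hYne : Y ≠ W := by
    intro h
    have h1 : B.orthogonal Y = X := LinearMap.BilinForm.orthogonal_orthogonal hB hA.isRefl X
    rw [h] at h1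
    apply hx0
    show x0 ∈ B.orthogonal W
    rw [h1]
    exact hx0c
  have hYbot : Y = ⊥ := by
    by_contra hne
    obtain ⟨y, hy, hy0⟩ := Submodule.exists_mem_ne_zero_of_ne_bot hne
    obtain ⟨a, haW, haY⟩ : ∃ a ∈ W, a ∉ Y := by
      by_contra hcon
      push Not at hcon
      exact hYne (le_antisymm hYW hcon)
    have hyspan : y ∉ Submodule.span K {a} := by
      intro h
      obtain ⟨c, rfl⟩ := Submodule.mem_span_singleton.1 h
      have hc0 : c ≠ 0 := by
        rintro rfl
        simp at hy0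
      exact haY ((Y.smul_mem_iff hc0).1 hy)
    obtain ⟨b, hb, hby⟩ : ∃ b ∈ B.orthogonal (Submodule.span K {a}), B b y ≠ 0 := by
      by_contra hcon
      push Not at hcon
      apply hyspan
      rw [← LinearMap.BilinForm.orthogonal_orthogonal hB hA.isRefl (Submodule.span K {a})]
      exact hcon
    have hab : B a b = 0 := hb a (Submodule.mem_span_singleton_self a)
    have hyb : B y b ≠ 0 := fun h => hby (alt_zero hA h)
    have hSM : srt hA a b ∈ M := by
      refine hM _ (srt_isometry hA a b) ?_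
      intro w hw
      rw [srt_apply hA a b hab, hW w hw a haW, zero_smul, add_zero]
      exact W.add_mem hw (W.smul_mem _ haW)
    have hSy : srt hA a b y ∈ Y := by
      intro x hx
      have h1 : (srt hA a b)⁻¹ x ∈ X :=
        cen_map _ (M.inv_mem hSM) (hMiso _ (M.inv_mem hSM)) hx
      have h2 : B ((srt hA a b)⁻¹ x) y = 0 := hy _ h1
      rw [← srt_isometry hA a b] at h2
      have h3 : srt hA a b ((srt hA a b)⁻¹ x) = x := (srt hA a b).apply_symm_apply x
      rw [h3] at h2
      exact h2
    rw [srt_apply hA a b hab, hW y (hYW hy) a haW, zero_smul, add_zero] at hSy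
    have h4 : B y b • a ∈ Y := by
      have := Y.sub_mem hSy hy
      simpa using this
    exact haY ((Y.smul_mem_iff hyb).1 h4)
  have hXtop : X = ⊤ := by
    have h1 : B.orthogonal Y = X := LinearMap.BilinForm.orthogonal_orthogonal hB hA.isRefl X
    rw [hYbot, LinearMap.BilinForm.orthogonal_bot] at h1
    exact h1.symm
  intro v
  rw [← hXmem, hXtop]
  exact Submodule.mem_top

theorem exists_not_stab (hB : B.Nondegenerate) (hA : B.IsAlt)
    (W : Submodule K V) (hW : ∀ u ∈ W, ∀ v ∈ W, B u v = 0) (hW0 : W ≠ ⊥) :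
    ∃ e : V ≃ₗ[K] V, (∀ u v, B (e u) (e v) = B u v) ∧ ¬ ∀ x ∈ W, e x ∈ W := by
  obtain ⟨w, hw, hw0⟩ := Submodule.exists_mem_ne_zero_of_ne_bot hW0
  obtain ⟨x, hx⟩ : ∃ x, B w x ≠ 0 := by
    by_contra hcon
    push Not at hcon
    exact hw0 (hB.1 w hcon)
  refine ⟨stv B hA x 1, stv_isometry hA _ _, fun h => ?_⟩
  have h1 := h w hw
  rw [stv_apply, one_mul] at h1
  have h2 : B w x • x ∈ W := by
    have := W.sub_mem h1 hw
    simpa using this
  exact hx (hW w hw x ((W.smul_mem_iff hx).1 h2))

end abstract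

/-- For a finite field F and m ≥ 7, in the symplectic group Sp_2m(F) of the standard alternating form on F^(2m) (as a subgroup of GL_2m(F)), the stabiliser of any non-zero subspace on which the form vanishes identically is a maximal subgroup. -/
theorem gen {F : Type*} [Field F] [Fintype F] (m : ℕ) (W : Submodule F (Fin m ⊕ Fin m → F)) (hW0 : W ≠ ⊥) (hW : Cfsg.Geo.IsTotallySingularFor (Cfsg.sympForm m F) W) : Cfsg.Geo.IsMaximalIn (Cfsg.spGL m F) (Cfsg.Geo.subspaceStabilizer W ⊓ Cfsg.spGL m F) := by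
  have hts : ∀ u ∈ W, ∀ v ∈ W, stdB F m u v = 0 := hW
  apply sp_maximal
  · obtain ⟨e, he, hne⟩ := exists_not_stab (stdB_nondegenerate m) (stdB_isAlt m) W hts hW0
    refine ⟨e, he, fun h => hne fun x hx => ?_⟩
    have := ((mem_subspaceStabilizer_iff W _).1 h x).1 hx
    rwa [mkGL_mulVec] at this
  · intro M hM hMiso g hgM hgX
    refine cen_univ (stdB_nondegenerate m) (stdB_isAlt m) W hts M ?_ hMiso g hgM ?_
    · intro e he heW
      refine hM e he (mem_subspaceStabilizer_of_le W _ ?_)
      intro v hv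
      rw [mkGL_mulVec]
      exact heW v hv
    · intro h
      apply hgX
      refine mem_subspaceStabilizer_of_le W _ ?_
      intro v hv
      rw [mkGL_mulVec]
      exact h v hv

end Cfsg.Agent.Lib.Helper97GenS5645
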