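import Cfsg.Agent.Lib.Helper95SpStd
import Cfsg.Agent.Lib.Helper96Lagr

set_option autoImplicit false
open Cfsg

namespace Cfsg.Agent.Lib.Helper97GenS5649

open Module Cfsg.Agent.Lib.Helper95Basic Cfsg.Agent.Lib.Helper95Sp Cfsg.Agent.Lib.Helper95Form
  Cfsg.Agent.Lib.Helper95Cen Cfsg.Agent.Lib.Helper95SpStd Cfsg.Agent.Lib.Helper96Lagr

section

variable {ι : Type} [Fintype ι] [DecidableEq ι] {F : Type*} [Field F]

lemma map_toLin_mkGL (W : Submodule F (ι → F)) (e : (ι → F) ≃ₗ[F] (ι → F)) :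
    W.map (Matrix.toLin' ((mkGL e : Matrix.GeneralLinearGroup ι F) : Matrix ι ι F)) =
      W.map (e : (ι → F) →ₗ[F] (ι → F)) := by
  congr 1
  apply LinearMap.ext
  intro x
  rw [Matrix.toLin'_apply, mkGL_mulVec]
  rfl

lemma mem_stab_of_inH {k : ℕ} (D : Fin 2 → Submodule F (ι → F))
    (hfr : ∀ i, Module.finrank F (D i) = k) (e : (ι → F) ≃ₗ[F] (ι → F))
    (h : InH (D 0) (D 1) e) : mkGL e ∈ Cfsg.Geo.decompositionStabilizer D := by
  have key : ∀ i j, (∀ x ∈ D i, e x ∈ D j) → (D i).map (e : (ι → F) →ₗ[F] (ι → F)) = D j := by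
    intro i j hij
    apply Submodule.eq_of_le_of_finrank_eq
    · rintro _ ⟨x, hx, rfl⟩
      exact hij x hx
    · rw [LinearEquiv.finrank_map_eq, hfr, hfr]
  rcases h with h | h
  · refine ⟨1, fun i => ?_⟩
    rw [map_toLin_mkGL]
    fin_cases i
    · exact key 0 0 h.1
    · exact key 1 1 h.2
  · refine ⟨Equiv.swap 0 1, fun i => ?_⟩
    rw [map_toLin_mkGL]
    fin_cases i
    · simpa using key 0 1 h.1
    · simpa using key 1 0 h.2

lemma inH_of_mem_stab (D : Fin 2 → Submodule F (ι → F)) (e : (ι → F) ≃ₗ[F] (ι → F))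
    (h : mkGL e ∈ Cfsg.Geo.decompositionStabilizer D) : InH (D 0) (D 1) e := by
  obtain ⟨σ, hσ⟩ := h
  have key : ∀ i, ∀ x ∈ D i, e x ∈ D (σ i) := by
    intro i x hx
    rw [← hσ i, map_toLin_mkGL]
    exact ⟨x, hx, rfl⟩
  have h01 : σ 0 ≠ σ 1 := fun h => absurd (σ.injective h) (by decide)
  have h0 : σ 0 = 0 ∨ σ 0 = 1 := by omega
  have h1 : σ 1 = 0 ∨ σ 1 = 1 := by omega
  have k0 := key 0
  have k1 := key 1
  rcases h0 with h0 | h0 <;> rcases h1 with h1 | h1
  · exact absurd (h0.trans h1.symm) h01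
  · left
    rw [h0] at k0
    rw [h1] at k1
    exact ⟨k0, k1⟩
  · right
    rw [h0] at k0
    rw [h1] at k1
    exact ⟨k0, k1⟩
  · exact absurd (h0.trans h1.symm) h01

end

/-- For a finite field F of odd order and m ≥ 7, let D be a decomposition of F^(2m) into two complementary subspaces of dimension m on each of which the standard alternating form vanishes identically. Then the elements of Sp_2m(F) preserving or interchanging the two subspaces form a maximal subgroup of Sp_2m(F). -/
theorem gen {F : Type*} [Field F] [Fintype F] (m : ℕ) (hm : 3 ≤ m) (hodd : Odd (Fintype.card F)) (D : Fin 2 → Submodule F (Fin m ⊕ Fin m → F)) (hD : Cfsg.Geo.IsMDecomposition m D) (hts : ∀ i, Cfsg.Geo.IsTotallySingularFor (Cfsg.sympForm m F) (D i)) : Cfsg.Geo.IsMaximalIn (Cfsg.spGL m F) (Cfsg.Geo.decompositionStabilizer D ⊓ Cfsg.spGL m F) := by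
  have htwo : (2 : F) ≠ 0 := by
    intro h
    have h1 : ringChar F = 2 := CharP.ringChar_of_prime_eq_zero Nat.prime_two (by exact_mod_cast h)
    have h2 := FiniteField.even_card_of_char_two h1
    rcases hodd with ⟨k, hk⟩
    omega
  have hcompl : IsCompl (D 0) (D 1) := by
    constructor
    · exact hD.indep.pairwiseDisjoint (by decide)
    · rw [codisjoint_iff, eq_top_iff, ← hD.iSup_eq_top]
      refine iSup_le fun i => ?_
      fin_cases i
      · exact le_sup_left
      · exact le_sup_right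
  have mk : ∀ M : Subgroup ((Fin m ⊕ Fin m → F) ≃ₗ[F] (Fin m ⊕ Fin m → F)),
      (∀ e, (∀ u v, stdB F m (e u) (e v) = stdB F m u v) →
        mkGL e ∈ Cfsg.Geo.decompositionStabilizer D → e ∈ M) →
      (∀ e ∈ M, ∀ u v, stdB F m (e u) (e v) = stdB F m u v) →
      Setup (stdB_isAlt (F := F) m) (D 0) (D 1) M := by
    intro M hM hMiso
    exact
      { nd := stdB_nondegenerate m
        two := htwo
        isoA := hts 0
        isoA' := hts 1
        compl := hcompl
        hM := fun e he h => hM e he (mem_stab_of_inH D hD.finrank_eq e h)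
        hMiso := hMiso
        dimA := by rw [hD.finrank_eq]; omega
        dimA' := by rw [hD.finrank_eq]; omega
        dimEq := by rw [hD.finrank_eq, hD.finrank_eq] }
  apply sp_maximal
  · have S := mk (pull (Cfsg.spGL m F)) (fun e he _ => (mem_pull _ _).2 ((mkGL_mem_spGL_iff m e).2 he))
      (fun e he => (mkGL_mem_spGL_iff m e).1 ((mem_pull _ _).1 he))
    obtain ⟨a, ha, ha0, -, -⟩ := exists_ker2 (D 0) S.dimA 0 0
    obtain ⟨b, hb, hab⟩ := S.exists_pair ha ha0
    have hb0 : b ≠ 0 := by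
      rintro rfl
      exact hab (map_zero _)
    refine ⟨stv (stdB F m) (stdB_isAlt m) (a + b) (stdB F m a b)⁻¹, stv_isometry _ _ _, fun h => ?_⟩
    have h1 := inH_of_mem_stab D _ h
    have h2 : stv (stdB F m) (stdB_isAlt m) (a + b) (stdB F m a b)⁻¹ a = (2 : F) • a + b := by
      rw [stv_apply, map_add, stdB_isAlt m a, zero_add, inv_mul_cancel₀ hab]
      module
    rcases h1 with h1 | h1
    · have h3 := h1.1 a ha
      rw [h2] at h3
      have h4 : b ∈ D 0 := by
        have := (D 0).sub_mem h3 ((D 0).smul_mem 2 ha)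
        simpa using this
      exact hb0 (S.inter h4 hb)
    · have h3 := h1.1 a ha
      rw [h2] at h3
      have h4 : (2 : F) • a ∈ D 1 := by
        have := (D 1).sub_mem h3 hb
        simpa using this
      exact ha0 (S.inter ha (((D 1).smul_mem_iff htwo).1 h4))
  · intro M hM hMiso g hgM hgX
    exact (mk M hM hMiso).cen_univ hgM (fun h => hgX (mem_stab_of_inH D hD.finrank_eq g h))

end Cfsg.Agent.Lib.Helper97GenS5649
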