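import Mathlib
import Cfsg.Agent.Lib.Helper98MinDefs

set_option autoImplicit false

/-! PROJECT 8 (minimal index of `PSL_n(q)`, S2140): piece `dich`, with the local lemma `LLb` as an
explicit hypothesis `LL` (instantiate it with `fun ρ => local_lemma hd ρ`). -/

namespace Cfsg.Agent.Lib.Helper97MinDich

open Matrix Cfsg.Agent.Lib.Helper98MinDefs

variable {F : Type*} [Field F] [Fintype F] {ι : Type*} [Fintype ι] [DecidableEq ι]
  {Ω : Type*} [Fintype Ω] [DecidableEq Ω]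
set_option linter.unusedSectionVars false

/-- the space of the `φ` with `φ ⬝ᵥ v = 0` -/
abbrev WW (v : ι → F) : Submodule F (ι → F) := perp (Submodule.span F {v})

lemma mem_WW {v φ : ι → F} : φ ∈ WW v ↔ φ ⬝ᵥ v = 0 := by
  rw [mem_perp]
  constructor
  · intro h
    rw [dotProduct_comm]
    exact h v (Submodule.mem_span_singleton_self v)
  · intro h x hx
    obtain ⟨c, rfl⟩ := Submodule.mem_span_singleton.1 hx
    rw [smul_dotProduct, dotProduct_comm, h, smul_zero]

lemma finrank_WW {v : ι → F} (hv : v ≠ 0) : Module.finrank F (WW v) + 1 = Fintype.card ι := by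
  have := finrank_perp (Submodule.span F {v})
  rwa [finrank_span_singleton hv] at this

/-- the action of `E_v` -/
noncomputable def rho (α : SpecialLinearGroup ι F →* Equiv.Perm Ω) (v : ι → F) :
    Multiplicative (WW v) →* Equiv.Perm Ω where
  toFun a := α (T v ((Multiplicative.toAdd a : WW v) : ι → F))
  map_one' := by
    show α (T v ((0 : WW v) : ι → F)) = 1
    rw [Submodule.coe_zero, T_zero_right, map_one]
  map_mul' a b := by
    show α (T v ((Multiplicative.toAdd a + Multiplicative.toAdd b : WW v) : ι → F)) = _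
    rw [Submodule.coe_add, T_add_right (mem_WW.1 (Multiplicative.toAdd a).2)
      (mem_WW.1 (Multiplicative.toAdd b).2), map_mul]

lemma rho_apply (α : SpecialLinearGroup ι F →* Equiv.Perm Ω) (v : ι → F) (a : WW v) :
    rho α v (Multiplicative.ofAdd a) = α (T v (a : ι → F)) := rfl

/-- piece `dich`, modulo the local lemma -/
theorem dich_of_local (hn : 3 ≤ Fintype.card ι) (α : SpecialLinearGroup ι F →* Equiv.Perm Ω)
    (hN : (Fintype.card F - 1) * Fintype.card Ω < Fintype.card F ^ Fintype.card ι - 1)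
    (v : ι → F) (hv : v ≠ 0) (hnt : ∃ (φ : ι → F) (ω : Ω), φ ⬝ᵥ v = 0 ∧ α (T v φ) ω ≠ ω)
    (LL : 2 ≤ Module.finrank F (WW v) → ∀ (ρ : Multiplicative (WW v) →* Equiv.Perm Ω),
      (∀ (x : Module.Dual F (WW v)) (ψ : WW v), x ψ = 0 → ∃ σ : Equiv.Perm Ω, ∀ a : WW v,
        σ * ρ (Multiplicative.ofAdd a) * σ⁻¹ = ρ (Multiplicative.ofAdd (a + x a • ψ))) →
      (∃ (a : WW v) (ω : Ω), ρ (Multiplicative.ofAdd a) ω ≠ ω) →
      ((Fintype.card F - 1) * Fintype.card Ω
        < Fintype.card F ^ (Module.finrank F (WW v) + 1) - 1) →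
      ((∃ ω₀ : Ω, (∀ a : WW v, ρ (Multiplicative.ofAdd a) ω₀ = ω₀ → a = 0) ∧
        ∀ ω, (∃ a : WW v, ρ (Multiplicative.ofAdd a) ω₀ = ω) ∨
          ∀ a : WW v, ρ (Multiplicative.ofAdd a) ω = ω) ∨
      (∀ ω : Ω, ∃ S : Submodule F (WW v), (∀ a : WW v, ρ (Multiplicative.ofAdd a) ω = ω ↔ a ∈ S) ∧
        Module.finrank F S + 1 = Module.finrank F (WW v)))) :
    TypeA α v ∨ TypeB α v := by
  have hfr := finrank_WW hv
  have heq : ∀ (x : Module.Dual F (WW v)) (ψ : WW v), x ψ = 0 → ∃ σ : Equiv.Perm Ω, ∀ a : WW v,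
      σ * rho α v (Multiplicative.ofAdd a) * σ⁻¹ =
        rho α v (Multiplicative.ofAdd (a + x a • ψ)) := by
    intro x ψ hxψ
    obtain ⟨x', hx'⟩ := LinearMap.exists_extend x
    obtain ⟨u, hu⟩ := dual_eq_dot x'
    have hxa : ∀ a : WW v, x a = (a : ι → F) ⬝ᵥ u := by
      intro a
      rw [← hx', LinearMap.comp_apply, hu, dotProduct_comm]
      rfl
    have hψu : (ψ : ι → F) ⬝ᵥ (-u) = 0 := by rw [dotProduct_neg, ← hxa, hxψ, neg_zero]
    refine ⟨α (T (-u) ψ), fun a => ?_⟩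
    rw [rho_apply, rho_apply, ← map_inv, ← map_mul, ← map_mul, T_conj_T hψu, mem_WW.1 ψ.2,
      zero_smul, add_zero, dotProduct_neg, neg_smul, sub_neg_eq_add, ← hxa]
    rfl
  have hnt' : ∃ (a : WW v) (ω : Ω), rho α v (Multiplicative.ofAdd a) ω ≠ ω := by
    obtain ⟨φ, ω, hφ, h⟩ := hnt
    exact ⟨⟨φ, mem_WW.2 hφ⟩, ω, h⟩
  rcases LL (by omega) (rho α v) heq hnt' (by rw [hfr]; exact hN) with ⟨ω₀, h1, h2⟩ | hB
  · left
    refine ⟨ω₀, ?_, ?_⟩
    · intro φ hφ h
      have := h1 ⟨φ, mem_WW.2 hφ⟩ h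
      exact congrArg Subtype.val this
    · intro ω
      rcases h2 ω with ⟨a, ha⟩ | h
      · exact Or.inl ⟨a, mem_WW.1 a.2, ha⟩
      · exact Or.inr fun φ hφ => h ⟨φ, mem_WW.2 hφ⟩
  · right
    intro ω
    obtain ⟨S, hS1, hS2⟩ := hB ω
    refine ⟨S.map (WW v).subtype, ?_, ?_, ?_⟩
    · rintro _ ⟨a, -, rfl⟩
      exact mem_WW.1 a.2
    · intro φ hφ
      have := hS1 ⟨φ, mem_WW.2 hφ⟩
      rw [rho_apply] at this
      rw [this]
      constructor
      · intro h
        exact ⟨_, h, rfl⟩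
      · rintro ⟨a, ha, hae⟩
        have : a = ⟨φ, mem_WW.2 hφ⟩ := Subtype.ext hae
        rw [← this]
        exact ha
    · rw [Submodule.finrank_map_subtype_eq]
      omega

end Cfsg.Agent.Lib.Helper97MinDich
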