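import Mathlib
import Cfsg.Agent.Lib.Helper98MinDefs

set_option autoImplicit false

/-! PROJECT 8 (minimal index of `PSL_n(q)`, S2140): piece `fixA`. -/

namespace Cfsg.Agent.Lib.Helper97MinFixA

open Matrix Cfsg.Agent.Lib.Helper98MinDefs

variable {F : Type*} [Field F] [Fintype F] {ι : Type*} [Fintype ι] [DecidableEq ι]
  {Ω : Type*} [Fintype Ω] [DecidableEq Ω]
set_option linter.unusedSectionVars false

/-- in type A a point fixed by one non-trivial transvection with centre `v` is fixed by all. -/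
lemma good_of_fix (α : SpecialLinearGroup ι F →* Equiv.Perm Ω) {v : ι → F} (hA : TypeA α v)
    {φ : ι → F} (hφ0 : φ ≠ 0) (hφ : φ ⬝ᵥ v = 0) {ω : Ω} (h : α (T v φ) ω = ω) :
    ∀ φ', φ' ⬝ᵥ v = 0 → α (T v φ') ω = ω := by
  obtain ⟨ω₀, hreg, hall⟩ := hA
  rcases hall ω with ⟨φ₁, hφ₁, rfl⟩ | h'
  · exfalso
    apply hφ0
    apply hreg φ hφ
    have hc : T v φ * T v φ₁ = T v φ₁ * T v φ := by
      rw [← T_add_right hφ hφ₁, ← T_add_right hφ₁ hφ, add_comm]
    rw [← Equiv.Perm.mul_apply, ← map_mul, hc, map_mul, Equiv.Perm.mul_apply] at h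
    exact (α (T v φ₁)).injective h
  · exact h'

/-! ### piece `fixA` -/
theorem fixA (hn : 3 ≤ Fintype.card ι) (α : SpecialLinearGroup ι F →* Equiv.Perm Ω)
    (hfix : ∀ ω : Ω, ∃ g, α g ω ≠ ω) (hA : ∀ v : ι → F, v ≠ 0 → TypeA α v)
    (hA' : ∀ φ : ι → F, φ ≠ 0 → TypeA (α.comp dualAut) φ) :
    ∀ (v φ : ι → F) (ω : Ω), v ≠ 0 → φ ≠ 0 → φ ⬝ᵥ v = 0 → α (T v φ) ω ≠ ω := by
  intro v φ ω hv hφ hφv hfx
  have hnt : Nontrivial ι := Fintype.one_lt_card_iff_nontrivial.1 (by omega)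
  -- the dual statement
  have dual : ∀ (v φ : ι → F), v ≠ 0 → φ ≠ 0 → φ ⬝ᵥ v = 0 → α (T v φ) ω = ω →
      ∀ v', φ ⬝ᵥ v' = 0 → α (T v' φ) ω = ω := by
    intro v φ hv hφ hφv hfx v' hv'
    have h1 : (α.comp dualAut) (T φ (-v)) ω = ω := by
      rw [MonoidHom.comp_apply, dualAut_T, neg_neg]
      exact hfx
    have h2 := good_of_fix (α.comp dualAut) (hA' φ hφ) (neg_ne_zero.2 hv)
      (by rw [neg_dotProduct, dotProduct_comm, hφv, neg_zero]) h1 (-v')
      (by rw [neg_dotProduct, dotProduct_comm, hv', neg_zero])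
    rw [MonoidHom.comp_apply, dualAut_T, neg_neg] at h2
    exact h2
  have good : ∀ φ', φ' ⬝ᵥ v = 0 → α (T v φ') ω = ω := good_of_fix α (hA v hv) hφ hφv hfx
  have all : ∀ v' φ' : ι → F, α (T v' φ') ω = ω := by
    intro v' φ'
    by_cases hv' : v' = 0
    · subst hv'
      rw [T_zero_left, map_one]
      rfl
    by_cases hd : φ' ⬝ᵥ v' = 0
    · obtain ⟨c, hc, hvc, hv'c⟩ := exists_perp2 hn v v'
      have hcv : c ⬝ᵥ v = 0 := by rw [dotProduct_comm]; exact hvc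
      have hcv' : c ⬝ᵥ v' = 0 := by rw [dotProduct_comm]; exact hv'c
      have h1 := good c hcv
      have h2 := dual v c hv hc hcv h1 v' hcv'
      exact good_of_fix α (hA v' hv') hc hcv' h2 φ' hd
    · rw [T_of_ne hd, map_one]
      rfl
  have htop : (MulAction.stabilizer (Equiv.Perm Ω) ω).comap α = ⊤ := by
    apply eq_top_of_T_mem
    intro v' φ'
    rw [Subgroup.mem_comap, MulAction.mem_stabilizer_iff]
    exact all v' φ'
  obtain ⟨g, hg⟩ := hfix ω
  apply hg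
  have : g ∈ (MulAction.stabilizer (Equiv.Perm Ω) ω).comap α := htop ▸ Subgroup.mem_top g
  rw [Subgroup.mem_comap, MulAction.mem_stabilizer_iff] at this
  exact this

end Cfsg.Agent.Lib.Helper97MinFixA
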