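import Mathlib
import Cfsg.Agent.Lib.Helper98MinDefs

set_option autoImplicit false

/-! PROJECT 8 (minimal index of `PSL_n(q)`, S2140): pieces `unif`, `fixA`. -/

namespace Cfsg.Agent.Lib.Helper97MinUnif

open Matrix Cfsg.Agent.Lib.Helper98MinDefs

variable {F : Type*} [Field F] [Fintype F] {ι : Type*} [Fintype ι] [DecidableEq ι]
  {Ω : Type*} [Fintype Ω] [DecidableEq Ω]
set_option linter.unusedSectionVars false

/-- right multiplication of row vectors by `g⁻¹` as a linear equivalence -/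
noncomputable def rowEquiv (g : SpecialLinearGroup ι F) : (ι → F) ≃ₗ[F] (ι → F) :=
  LinearEquiv.ofLinearMap (Matrix.vecMulLinear ((g⁻¹ : SpecialLinearGroup ι F) : Matrix ι ι F))
    (Matrix.vecMulLinear (g : Matrix ι ι F))
    (by
      apply LinearMap.ext
      intro φ
      simp only [LinearMap.comp_apply, Matrix.vecMulLinear_apply, LinearMap.id_apply]
      rw [vecMul_vecMul, coe_mul_inv, vecMul_one])
    (by
      apply LinearMap.ext
      intro φ
      simp only [LinearMap.comp_apply, Matrix.vecMulLinear_apply, LinearMap.id_apply]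
      rw [vecMul_vecMul, coe_inv_mul, vecMul_one])

lemma rowEquiv_apply (g : SpecialLinearGroup ι F) (φ : ι → F) :
    rowEquiv g φ = φ ᵥ* ((g⁻¹ : SpecialLinearGroup ι F) : Matrix ι ι F) := rfl

lemma rowEquiv_symm_apply (g : SpecialLinearGroup ι F) (φ : ι → F) :
    (rowEquiv g).symm φ = φ ᵥ* (g : Matrix ι ι F) := rfl

/-! ### piece `unif` -/
theorem typeB_all (hn : 2 ≤ Fintype.card ι) (α : SpecialLinearGroup ι F →* Equiv.Perm Ω)
    {v : ι → F} (hv : v ≠ 0) (h : TypeB α v) {v' : ι → F} (hv' : v' ≠ 0) : TypeB α v' := by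
  obtain ⟨g, hg⟩ := exists_mulVec_eq hn hv hv'
  intro ω
  obtain ⟨S, hS1, hS2, hS3⟩ := h ((α g)⁻¹ ω)
  have hdot : ∀ φ' : ι → F, (φ' ᵥ* (g : Matrix ι ι F)) ⬝ᵥ v = φ' ⬝ᵥ v' := by
    intro φ'
    rw [← hg, dotProduct_mulVec]
  refine ⟨S.map (rowEquiv g).toLinearMap, ?_, ?_, ?_⟩
  · intro φ' hφ'
    rw [Submodule.mem_map_equiv, rowEquiv_symm_apply] at hφ'
    rw [← hdot]
    exact hS1 _ hφ'
  · intro φ' hφ'
    rw [Submodule.mem_map_equiv, rowEquiv_symm_apply, ← hS2 _ (by rw [hdot]; exact hφ')]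
    have e := T_conj g v (φ' ᵥ* (g : Matrix ι ι F))
    rw [hg, vecMul_vecMul, coe_mul_inv, vecMul_one] at e
    rw [← e, map_mul, map_mul, map_inv, Equiv.Perm.mul_apply, Equiv.Perm.mul_apply]
    constructor
    · intro h1
      have h2 : (α g)⁻¹ ((α g) ((α (T v (φ' ᵥ* (g : Matrix ι ι F)))) ((α g)⁻¹ ω))) = (α g)⁻¹ ω := by
        rw [h1]
      rwa [← Equiv.Perm.mul_apply, inv_mul_cancel, Equiv.Perm.one_apply] at h2
    · intro h1
      rw [h1, ← Equiv.Perm.mul_apply, mul_inv_cancel, Equiv.Perm.one_apply]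
  · rw [LinearEquiv.finrank_map_eq, hS3]

end Cfsg.Agent.Lib.Helper97MinUnif
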