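import Cfsg.Agent.Lib.Helper97OProper
import Cfsg.Agent.Lib.Helper97GClifford
import Cfsg.Agent.Lib.Helper97GSubfield
import Cfsg.Agent.Lib.Helper97USub

set_option autoImplicit false
set_option linter.unusedSectionVars false

namespace Cfsg.Agent.Lib.Helper97OProper3

open Cfsg Cfsg.Geo Matrix Cfsg.Agent.Lib.Helper97GBase Cfsg.Agent.Lib.Helper97GForms
  Cfsg.Agent.Lib.Helper95Quad Cfsg.Agent.Lib.Helper95Form Cfsg.Agent.Lib.Helper95Basic
  Cfsg.Agent.Lib.Helper97OBase Cfsg.Agent.Lib.Helper97OProper Cfsg.Agent.Lib.Helper97GClifford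
  Cfsg.Agent.Lib.Helper97GSubfield
open scoped MatrixGroups

variable {ι : Type} [Fintype ι] [DecidableEq ι] {F : Type*} [Field F] {Q : (ι → F) → F}

lemma exists_ker_four (hn : 5 ≤ Fintype.card ι) (φ : Fin 4 → (ι → F)) :
    ∃ x : ι → F, x ≠ 0 ∧ ∀ k, φ k ⬝ᵥ x = 0 := by
  have h1 : LinearMap.ker (Matrix.mulVecLin (Matrix.of φ)) ≠ ⊥ := by
    apply LinearMap.ker_ne_bot_of_finrank_lt
    rw [Module.finrank_fintype_fun_eq_card, Module.finrank_fintype_fun_eq_card, Fintype.card_fin]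
    omega
  obtain ⟨x, hx, hx0⟩ := Submodule.exists_mem_ne_zero_of_ne_bot h1
  refine ⟨x, hx0, fun k => ?_⟩
  rw [LinearMap.mem_ker, Matrix.mulVecLin_apply] at hx
  exact congrFun hx k

/-- covector of the polar form -/
def cov (Q : (ι → F) → F) (u : ι → F) : ι → F := fun i => QuadraticMap.polar Q u (Pi.single i 1)

lemma cov_dot (hQ : IsNondegenerateQuadraticForm Q) (u x : ι → F) :
    cov Q u ⬝ᵥ x = QuadraticMap.polar Q u x := by
  rw [(sesq_of_bilinear hQ.polar_bilinear).right_sum u x]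
  unfold cov dotProduct
  apply Finset.sum_congr rfl
  intro i _
  simp [mul_comm]

lemma rf_val (hQ : IsNondegenerateQuadraticForm Q) (u : ι → F) (hu : Q u ≠ 0) :
    (rf hQ u hu : Matrix ι ι F) = 1 - vecMulVec u ((Q u)⁻¹ • cov Q u) := by
  apply matrix_eq_of_mulVec_eq
  intro x
  rw [rf_mulVec, Matrix.sub_mulVec, Matrix.one_mulVec, vecMulVec_mulVec, smul_dotProduct, cov_dot hQ]
  congr 1
  ext i
  simp [mul_comm]

lemma trace_rr (hQ : IsNondegenerateQuadraticForm Q) (u v : ι → F) (hu : Q u ≠ 0) (hv : Q v ≠ 0) :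
    Matrix.trace ((rf hQ u hu * rf hQ v hv : GL ι F) : Matrix ι ι F) =
      (Fintype.card ι : F) - 4 + (Q u)⁻¹ * (Q v)⁻¹ * (QuadraticMap.polar Q u v) ^ 2 := by
  rw [Units.val_mul, rf_val, rf_val, sub_mul, mul_sub, mul_sub, one_mul, mul_one, one_mul,
    vecMulVec_mul_vecMulVec, Matrix.trace_sub, Matrix.trace_sub, Matrix.trace_sub, Matrix.trace_one,
    trace_vecMulVec, trace_vecMulVec, trace_vecMulVec]
  simp only [smul_dotProduct, dotProduct_comm u, dotProduct_comm v, cov_dot hQ,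
    polar_self hQ, smul_eq_mul, QuadraticMap.polar_comm Q v u]
  field_simp
  ring

lemma trace_fixed (hn : 5 ≤ Fintype.card ι) (τ : F ≃+* F) {F₁ : Subfield F} (hτ : ∀ a ∈ F₁, τ a = a)
    (C g : GL ι F) (ψ₁ ψ₂ : ι → F)
    (hfix : ∀ x, ψ₁ ⬝ᵥ x = 0 → ψ₂ ⬝ᵥ x = 0 → (g : Matrix ι ι F) *ᵥ x = x)
    (hg : g ∈ subfieldSubgroup F₁ C) :
    τ (Matrix.trace (g : Matrix ι ι F)) = Matrix.trace (g : Matrix ι ι F) := by
  obtain ⟨g₀, hg₀, hgt⟩ := hg
  have hgt' : C * g₀ * C⁻¹ = g := hgt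
  obtain ⟨_, ⟨m, rfl⟩, z, hz, hgz⟩ := Subgroup.mem_sup_of_normal_right.mp hg₀
  obtain ⟨c, hc⟩ := (mem_scalars_iff z).mp hz
  have hentry : ∀ a b, (g₀ : Matrix ι ι F) a b = ((m a b : F₁) : F) * c := by
    intro a b
    rw [← hgz, Units.val_mul, hc, Matrix.mul_smul, mul_one]
    simp [mul_comm]
  have hτg : ∀ a b, τ ((g₀ : Matrix ι ι F) a b) = (τ c / c) * (g₀ : Matrix ι ι F) a b := by
    intro a b
    rw [hentry, map_mul, hτ _ (m a b).2]
    field_simp
  have hfix₀ : ∀ y, (ψ₁ ᵥ* (C : Matrix ι ι F)) ⬝ᵥ y = 0 → (ψ₂ ᵥ* (C : Matrix ι ι F)) ⬝ᵥ y = 0 →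
      (g₀ : Matrix ι ι F) *ᵥ y = y := by
    intro y h1 h2
    rw [← Matrix.dotProduct_mulVec] at h1 h2
    have e := hfix _ h1 h2
    rw [← hgt', mul_mulVec, mul_mulVec, Helper95Basic.inv_mulVec_mulVec] at e
    exact Helper97GBase.mulVec_injective C e
  obtain ⟨x, hx0, hx⟩ := exists_ker_four hn ![ψ₁ ᵥ* (C : Matrix ι ι F), ψ₂ ᵥ* (C : Matrix ι ι F),
    fun i => τ ((ψ₁ ᵥ* (C : Matrix ι ι F)) i), fun i => τ ((ψ₂ ᵥ* (C : Matrix ι ι F)) i)]
  have hx1 := hx 0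
  have hx2 := hx 1
  have hx3 := hx 2
  have hx4 := hx 3
  simp only [Matrix.cons_val_zero, Matrix.cons_val_one, Matrix.cons_val] at hx1 hx2 hx3 hx4
  have h1 := hfix₀ x hx1 hx2
  have hdot : ∀ ψ : ι → F, (fun i => τ (ψ i)) ⬝ᵥ x = 0 → ψ ⬝ᵥ (fun i => τ.symm (x i)) = 0 := by
    intro ψ h0
    have := congrArg τ.symm h0
    simpa [dotProduct, map_sum, map_mul] using this
  have h2 := hfix₀ _ (hdot _ hx3) (hdot _ hx4)
  have h3 : (g₀ : Matrix ι ι F).map τ *ᵥ x = x := by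
    ext i
    have e := congrArg τ (congrFun h2 i)
    rw [RingEquiv.apply_symm_apply] at e
    rw [← e]
    simp [Matrix.mulVec, dotProduct, map_sum, map_mul]
  have h4 : (g₀ : Matrix ι ι F).map τ = (τ c / c) • (g₀ : Matrix ι ι F) := by
    ext a b
    rw [Matrix.map_apply, hτg, Matrix.smul_apply, smul_eq_mul]
  have hχ : τ c / c = 1 := by
    rw [h4, Matrix.smul_mulVec, h1] at h3
    have h5 : (τ c / c - 1) • x = 0 := by rw [sub_smul, h3, one_smul, sub_self]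
    rcases smul_eq_zero.mp h5 with h6 | h6
    · exact sub_eq_zero.mp h6
    · exact absurd h6 hx0
  have htr : Matrix.trace (g : Matrix ι ι F) = Matrix.trace (g₀ : Matrix ι ι F) := by
    rw [← hgt', Units.val_mul, Units.val_mul, Matrix.trace_mul_comm, ← mul_assoc, vi, one_mul]
  rw [htr]
  unfold Matrix.trace
  rw [map_sum]
  apply Finset.sum_congr rfl
  intro i _
  rw [Matrix.diag_apply, hτg, hχ, one_mul]

lemma not_le_subfieldSubgroup [Fintype F] (hQ : IsNondegenerateQuadraticForm Q) (h2 : (2 : F) ≠ 0)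
    (hn : 7 ≤ Fintype.card ι) {F₁ : Subfield F} (hF₁ : F₁ ≠ ⊤) (C : GL ι F) :
    ¬ omegaGL Q ≤ subfieldSubgroup F₁ C := by
  intro hle
  have hb := hQ.polar_bilinear
  obtain ⟨τ, F₂, r, hr, hcard, hτ0, hτ1⟩ := Cfsg.Agent.Lib.Helper97USub.exists_aut' hF₁
  obtain ⟨l, hl⟩ : ∃ l, τ l ≠ l := by
    by_contra hcon
    push Not at hcon
    apply subfield_ne_top_of_card hr hcard
    rw [eq_top_iff]
    intro a _
    exact (hτ1 a).mp (hcon a)
  obtain ⟨t, ht⟩ : ∃ t, τ (t ^ 2) ≠ t ^ 2 := by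
    by_contra hcon
    push Not at hcon
    apply hl
    have e : l = ((l + 1) / 2) ^ 2 - ((l - 1) / 2) ^ 2 := by field_simp; ring
    rw [e, map_sub, hcon, hcon]
  obtain ⟨u, -, -, hQu⟩ := exists_perp_two hQ hn 0 0 1
  obtain ⟨w, hwu, -, hQw⟩ := exists_perp_two hQ hn u u (1 - t ^ 2 / 4)
  have hu : Q u ≠ 0 := by rw [hQu]; exact one_ne_zero
  have huw : QuadraticMap.polar Q u w = 0 := by rw [QuadraticMap.polar_comm]; exact hwu
  have hQv : Q ((t / 2) • u + w) = 1 := by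
    have := (qf hQ).add ((t / 2) • u) w
    rw [this, bil_apply, hQ.smul, hb.smul_left, huw, hQu, hQw]
    have h4 : (4 : F) ≠ 0 := by
      have : (4 : F) = 2 * 2 := by norm_num
      rw [this]
      exact mul_ne_zero h2 h2
    field_simp
    ring
  have hv : Q ((t / 2) • u + w) ≠ 0 := by rw [hQv]; exact one_ne_zero
  have huv : QuadraticMap.polar Q u ((t / 2) • u + w) = t := by
    rw [hb.add_right, hb.smul_right, huw, polar_self hQ, hQu]
    field_simp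
    ring
  have hg := hle (rr_mem hQ h2 u _ hu hv (hQu.trans hQv.symm))
  have h3 := trace_fixed (by omega) τ hτ0 C _ (cov Q u) (cov Q ((t / 2) • u + w)) (by
    intro x h1 h2
    rw [cov_dot hQ] at h1 h2
    rw [mul_mulVec, rf_fix hQ _ hv h2, rf_fix hQ _ hu h1]) hg
  rw [trace_rr, huv, hQu, hQv] at h3
  apply ht
  simp only [inv_one, one_mul, map_add, map_sub, map_natCast] at h3
  have e4 : τ 4 = 4 := map_ofNat τ 4
  rw [e4] at h3
  exact add_left_cancel h3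

end Cfsg.Agent.Lib.Helper97OProper3
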