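import Cfsg.Agent.Lib.Helper97OMain

set_option autoImplicit false
set_option linter.unusedSectionVars false

namespace Cfsg.Agent.Lib.Helper97OStd

open Cfsg Cfsg.Geo Matrix
open scoped MatrixGroups

variable {F : Type*} [Field F] {m : ℕ}

lemma polar_odd (u v : Unit ⊕ (Fin m ⊕ Fin m) → F) :
    QuadraticMap.polar (quadFormOdd m F) u v = 2 * u (.inl ()) * v (.inl ()) +
      ∑ i : Fin m, (u (.inr (.inl i)) * v (.inr (.inr i)) + u (.inr (.inr i)) * v (.inr (.inl i))) := by
  unfold QuadraticMap.polar quadFormOdd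
  simp only [Pi.add_apply]
  have h : ∀ i : Fin m, (u (.inr (.inl i)) + v (.inr (.inl i))) * (u (.inr (.inr i)) + v (.inr (.inr i))) =
      u (.inr (.inl i)) * u (.inr (.inr i)) + v (.inr (.inl i)) * v (.inr (.inr i)) +
      (u (.inr (.inl i)) * v (.inr (.inr i)) + u (.inr (.inr i)) * v (.inr (.inl i))) := by
    intro i; ring
  simp only [h, Finset.sum_add_distrib]
  ring

lemma nondeg_odd (h2 : (2 : F) ≠ 0) : IsNondegenerateQuadraticForm (quadFormOdd m F) where
  smul c v := by
    unfold quadFormOdd
    simp only [Pi.smul_apply, smul_eq_mul, mul_add, Finset.mul_sum]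
    congr 1
    · ring
    · exact Finset.sum_congr rfl (fun i _ => by ring)
  polar_bilinear :=
    { add_left := fun x y v => by
        simp only [polar_odd, Pi.add_apply, add_mul, mul_add, Finset.sum_add_distrib]
        ring
      smul_left := fun c x v => by
        simp only [polar_odd, Pi.smul_apply, smul_eq_mul, mul_add, Finset.mul_sum]
        congr 1
        · ring
        · exact Finset.sum_congr rfl (fun i _ => by ring)
      add_right := fun v x y => by
        simp only [polar_odd, Pi.add_apply, add_mul, mul_add, Finset.sum_add_distrib]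
        ring
      smul_right := fun c v x => by
        simp only [polar_odd, Pi.smul_apply, smul_eq_mul, mul_add, Finset.mul_sum]
        congr 1
        · ring
        · exact Finset.sum_congr rfl (fun i _ => by ring) }
  nondegenerate := by
    have key : ∀ v : Unit ⊕ (Fin m ⊕ Fin m) → F, v ≠ 0 →
        ∃ x, QuadraticMap.polar (quadFormOdd m F) x v ≠ 0 := by
      intro v hv
      obtain ⟨k, hk⟩ := Function.ne_iff.mp hv
      rcases k with k | k | k
      · refine ⟨Pi.single (.inl ()) 1, ?_⟩
        rw [polar_odd]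
        simpa using ⟨h2, hk⟩
      · refine ⟨Pi.single (.inr (.inr k)) 1, ?_⟩
        rw [polar_odd]
        simpa [Pi.single_apply] using hk
      · refine ⟨Pi.single (.inr (.inl k)) 1, ?_⟩
        rw [polar_odd]
        simpa [Pi.single_apply] using hk
    intro v hv
    obtain ⟨x, hx⟩ := key v hv
    exact ⟨⟨x, hx⟩, ⟨x, by rwa [QuadraticMap.polar_comm]⟩⟩

lemma std_odd (τ : F ≃+* F) (i j : Unit ⊕ (Fin m ⊕ Fin m)) :
    τ (QuadraticMap.polar (quadFormOdd m F) (Pi.single i 1) (Pi.single j 1)) =
      QuadraticMap.polar (quadFormOdd m F) (Pi.single i 1) (Pi.single j 1) := by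
  have h : ∀ i k : Unit ⊕ (Fin m ⊕ Fin m), τ ((Pi.single i 1 : Unit ⊕ (Fin m ⊕ Fin m) → F) k) =
      (Pi.single i 1 : Unit ⊕ (Fin m ⊕ Fin m) → F) k := by
    intro i k
    rw [Pi.single_apply]
    split_ifs <;> simp
  rw [polar_odd]
  simp only [map_add, map_mul, map_sum, map_ofNat, h]

lemma card_odd : Fintype.card (Unit ⊕ (Fin m ⊕ Fin m)) = 2 * m + 1 := by
  simp
  omega

end Cfsg.Agent.Lib.Helper97OStd
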