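import Cfsg.Agent.Lib.Helper17AschUDescent

set_option autoImplicit false
set_option linter.unusedSectionVars false

/-! Tools for `SL_3(4)`: semilinear involutions, finite rings that are fields. -/

namespace Cfsg.Agent.Lib.Helper97SL3a

open Cfsg Cfsg.Geo Matrix Cfsg.Agent.Lib.Helper97AschBase Cfsg.Agent.Lib.Helper17AschUDescent
  Cfsg.Agent.Lib.Helper17AschWreath2 Cfsg.Agent.Lib.Helper97UQF
open scoped MatrixGroups

variable {n : ℕ} {F : Type*} [Field F] {σ : F ≃+* F}

/-- coordinates for a semilinear involution -/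
lemma exists_coord (hσ : ∃ z, σ z ≠ z) (J : (Fin n → F) → (Fin n → F))
    (hadd : ∀ u v, J (u + v) = J u + J v) (hsmul : ∀ (c : F) v, J (c • v) = σ c • J v)
    (hJJ : ∀ v, J (J v) = v) :
    ∃ D : GL (Fin n) F, ∀ x : Fin n → F, J ((D : Matrix (Fin n) (Fin n) F) *ᵥ x) =
      (D : Matrix (Fin n) (Fin n) F) *ᵥ (fun j => σ (x j)) := by
  obtain ⟨D, hD⟩ := exists_GL_of_span (span_fixed hσ J hadd hsmul hJJ)
  exact ⟨D, semilinear_coord J hadd hsmul D hD⟩

lemma conj_mulVec (D h : GL (Fin n) F) (x : Fin n → F) : (h : Matrix (Fin n) (Fin n) F) *ᵥ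
    ((D : Matrix (Fin n) (Fin n) F) *ᵥ x) = (D : Matrix (Fin n) (Fin n) F) *ᵥ
    (((D⁻¹ * h * D : GL (Fin n) F) : Matrix (Fin n) (Fin n) F) *ᵥ x) := by
  rw [mulVec_mulVec, mulVec_mulVec, ← Units.val_mul, ← Units.val_mul]
  congr 2
  group

/-- twisting by a semilinear map in coordinates -/
lemma map_conj (J : (Fin n → F) → (Fin n → F)) (D : GL (Fin n) F)
    (hJD : ∀ x : Fin n → F, J ((D : Matrix (Fin n) (Fin n) F) *ᵥ x) =
      (D : Matrix (Fin n) (Fin n) F) *ᵥ (fun j => σ (x j))) (g g' : GL (Fin n) F)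
    (h : ∀ v, J ((g : Matrix (Fin n) (Fin n) F) *ᵥ v) = (g' : Matrix (Fin n) (Fin n) F) *ᵥ J v) :
    ((D⁻¹ * g * D : GL (Fin n) F) : Matrix (Fin n) (Fin n) F).map σ =
      ((D⁻¹ * g' * D : GL (Fin n) F) : Matrix (Fin n) (Fin n) F) := by
  ext i j
  have h1 := h ((D : Matrix (Fin n) (Fin n) F) *ᵥ Pi.single j 1)
  rw [conj_mulVec, hJD, hJD, conj_mulVec] at h1
  have h3 := mulVec_injective D h1
  have h4 := congrFun h3 i
  have e : (fun k => σ ((Pi.single j 1 : Fin n → F) k)) = Pi.single j 1 := by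
    funext k
    by_cases hk : k = j
    · subst hk; simp
    · simp [hk]
  rw [e] at h4
  simpa [Matrix.mulVec_single_one] using h4

lemma det_conj (D g : GL (Fin n) F) :
    ((D⁻¹ * g * D : GL (Fin n) F) : Matrix (Fin n) (Fin n) F).det = (g : Matrix (Fin n) (Fin n) F).det := by
  rw [Units.val_mul, Units.val_mul, Matrix.det_mul, Matrix.det_mul, mul_comm, ← mul_assoc,
    ← Matrix.det_mul, ← Units.val_mul, mul_inv_cancel, Units.val_one, Matrix.det_one, one_mul]

/-- determinants -/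
lemma det_twist (J : (Fin n → F) → (Fin n → F)) (D : GL (Fin n) F)
    (hJD : ∀ x : Fin n → F, J ((D : Matrix (Fin n) (Fin n) F) *ᵥ x) =
      (D : Matrix (Fin n) (Fin n) F) *ᵥ (fun j => σ (x j))) (g g' : GL (Fin n) F)
    (h : ∀ v, J ((g : Matrix (Fin n) (Fin n) F) *ᵥ v) = (g' : Matrix (Fin n) (Fin n) F) *ᵥ J v) :
    σ (g : Matrix (Fin n) (Fin n) F).det = (g' : Matrix (Fin n) (Fin n) F).det := by
  have h1 := map_conj J D hJD g g' h
  have h2 := congrArg Matrix.det h1
  rw [det_conj] at h2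
  rw [← h2, ← det_conj D g]
  exact RingHom.map_det (σ : F →+* F) _

/-- membership in the subfield group -/
lemma mem_subfield [NeZero n] (J : (Fin n → F) → (Fin n → F)) (D : GL (Fin n) F)
    (hJD : ∀ x : Fin n → F, J ((D : Matrix (Fin n) (Fin n) F) *ᵥ x) =
      (D : Matrix (Fin n) (Fin n) F) *ᵥ (fun j => σ (x j))) {F₀ : Subfield F}
    (hF₀ : ∀ a, σ a = a → a ∈ F₀) (g : GL (Fin n) F) (μ : F)
    (h : ∀ v, J ((g : Matrix (Fin n) (Fin n) F) *ᵥ v) = μ • ((g : Matrix (Fin n) (Fin n) F) *ᵥ J v)) :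
    g ∈ subfieldSubgroup F₀ D := by
  obtain ⟨d, hd0, hd⟩ := exists_rational (σ : F →+* F) (D⁻¹ * g * D) μ (by
    ext i j
    have h1 := h ((D : Matrix (Fin n) (Fin n) F) *ᵥ Pi.single j 1)
    rw [conj_mulVec, hJD, hJD, conj_mulVec, ← mulVec_smul] at h1
    have h3 := mulVec_injective D h1
    have h4 := congrFun h3 i
    have e : (fun k => σ ((Pi.single j 1 : Fin n → F) k)) = Pi.single j 1 := by
      funext k
      by_cases hk : k = j
      · subst hk; simp
      · simp [hk]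
    rw [e] at h4
    simpa [Matrix.mulVec_single_one] using h4)
  exact mem_subfieldSubgroup_of_rational D g hd0 (fun i j => hF₀ _ (hd i j))

section ring

variable {L : Type*} [Ring L] [Finite L] [Nontrivial L]

lemma ring_pow_card (hcomm : ∀ a b : L, a * b = b * a) (hinv : ∀ a : L, a ≠ 0 → ∃ b, a * b = 1)
    (x : L) : x ^ Nat.card L = x := by
  have hF : IsField L := ⟨exists_pair_ne L, hcomm, fun h => hinv _ h⟩
  let _ : Field L := hF.toField
  have : Fintype L := Fintype.ofFinite L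
  rw [Nat.card_eq_fintype_card]
  exact FiniteField.pow_card x

lemma card_units_ring (hcomm : ∀ a b : L, a * b = b * a) (hinv : ∀ a : L, a ≠ 0 → ∃ b, a * b = 1) :
    Nat.card Lˣ = Nat.card L - 1 := by
  have hF : IsField L := ⟨exists_pair_ne L, hcomm, fun h => hinv _ h⟩
  let _ : Field L := hF.toField
  exact Nat.card_units L

/-- the kernel of a non-trivial homomorphism from the units of the field of order `64` to a group of order `3` -/
lemma pow_twentyone (hcomm : ∀ a b : L, a * b = b * a) (hinv : ∀ a : L, a ≠ 0 → ∃ b, a * b = 1)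
    (hcard : Nat.card L = 64) {A : Type*} [Group A] (hA : Nat.card A = 3) (d : Lˣ →* A)
    (hd : ∃ u, d u ≠ 1) (u : Lˣ) (hu : d u = 1) : u ^ 21 = 1 := by
  have h63 : Nat.card Lˣ = 63 := by rw [card_units_ring hcomm hinv, hcard]
  have h1 : Nat.card d.range ∣ 3 := hA ▸ Subgroup.card_subgroup_dvd_card d.range
  have h2 : Nat.card d.range ≠ 1 := by
    intro h
    obtain ⟨w, hw⟩ := hd
    have hb : d.range = ⊥ := Subgroup.card_eq_one.mp h
    have : d w ∈ d.range := ⟨w, rfl⟩
    rw [hb, Subgroup.mem_bot] at this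
    exact hw this
  have h3 : Nat.card d.range = 3 := by
    rcases (Nat.dvd_prime Nat.prime_three).mp h1 with h | h
    · exact absurd h h2
    · exact h
  have h4 := Subgroup.card_mul_index d.ker
  rw [Subgroup.index_ker, h3, h63] at h4
  have h5 : Nat.card d.ker = 21 := by omega
  have h6 : (⟨u, hu⟩ : d.ker) ^ Nat.card d.ker = 1 := pow_card_eq_one'
  rw [h5] at h6
  have := congrArg Subtype.val h6
  simpa using this

end ring

end Cfsg.Agent.Lib.Helper97SL3a
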