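import Cfsg.Agent.Lib.Helper97SL3a

set_option autoImplicit false
set_option linter.unusedSectionVars false

/-! `SL_3(4)`: the normaliser of a cubic extension field lies in a subfield group. -/

namespace Cfsg.Agent.Lib.Helper97SL3b

open Cfsg Cfsg.Geo Matrix Cfsg.Agent.Lib.Helper97AschBase Cfsg.Agent.Lib.Helper97SL3a
open scoped MatrixGroups

variable {F : Type*} [Field F] {K : Subalgebra F (Matrix (Fin 3) (Fin 3) F)}

lemma eq_zero_of_mul (hK : IsFieldSubalgebra 3 K) {a b : Matrix (Fin 3) (Fin 3) F} (ha : a ∈ K)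
    (hab : a * b = 0) : a = 0 ∨ b = 0 := by
  by_cases h0 : a = 0
  · exact Or.inl h0
  · right
    obtain ⟨y, hy, hay⟩ := hK.inv a ha h0
    have hya : y * a = 1 := by rw [hK.comm y hy a ha, hay]
    calc b = (y * a) * b := by rw [hya, one_mul]
      _ = y * (a * b) := by rw [mul_assoc]
      _ = 0 := by rw [hab, mul_zero]

lemma eq_zero_of_mulVec (hK : IsFieldSubalgebra 3 K) {a : Matrix (Fin 3) (Fin 3) F} (ha : a ∈ K)
    {v : Fin 3 → F} (hv : v ≠ 0) (h : a *ᵥ v = 0) : a = 0 := by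
  by_contra h0
  obtain ⟨y, hy, hay⟩ := hK.inv a ha h0
  have hya : y * a = 1 := by rw [hK.comm y hy a ha, hay]
  apply hv
  calc v = (y * a) *ᵥ v := by rw [hya, one_mulVec]
    _ = y *ᵥ (a *ᵥ v) := by rw [mulVec_mulVec]
    _ = 0 := by rw [h, mulVec_zero]

/-- evaluation at a vector -/
def evL (K : Subalgebra F (Matrix (Fin 3) (Fin 3) F)) (v : Fin 3 → F) : K →ₗ[F] (Fin 3 → F) where
  toFun k := (k : Matrix (Fin 3) (Fin 3) F) *ᵥ v
  map_add' a b := by simp [add_mulVec]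
  map_smul' c a := by simp [smul_mulVec]

lemma evL_bijective (hK : IsFieldSubalgebra 3 K) {v : Fin 3 → F} (hv : v ≠ 0) :
    Function.Bijective (evL K v) := by
  have hinj : Function.Injective (evL K v) := by
    rw [injective_iff_map_eq_zero]
    intro a ha
    exact Subtype.ext (eq_zero_of_mulVec hK a.2 hv ha)
  refine ⟨hinj, ?_⟩
  have hfr : Module.finrank F K = Module.finrank F (Fin 3 → F) := by
    rw [hK.finrank_eq, Module.finrank_fin_fun]
  exact (LinearMap.injective_iff_surjective_of_finrank_eq_finrank hfr).mp hinj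

/-- the evaluation equivalence -/
noncomputable def ev (hK : IsFieldSubalgebra 3 K) {v : Fin 3 → F} (hv : v ≠ 0) : K ≃ₗ[F] (Fin 3 → F) :=
  LinearEquiv.ofBijective (evL K v) (evL_bijective hK hv)

lemma ev_apply (hK : IsFieldSubalgebra 3 K) {v : Fin 3 → F} (hv : v ≠ 0) (k : K) :
    ev hK hv k = (k : Matrix (Fin 3) (Fin 3) F) *ᵥ v := rfl

lemma ev_symm_mulVec (hK : IsFieldSubalgebra 3 K) {v : Fin 3 → F} (hv : v ≠ 0)
    {a : Matrix (Fin 3) (Fin 3) F} (ha : a ∈ K) : (ev hK hv).symm (a *ᵥ v) = ⟨a, ha⟩ := by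
  rw [LinearEquiv.symm_apply_eq]
  rfl

lemma mulVec_ev_symm (hK : IsFieldSubalgebra 3 K) {v : Fin 3 → F} (hv : v ≠ 0) (w : Fin 3 → F) :
    (((ev hK hv).symm w : K) : Matrix (Fin 3) (Fin 3) F) *ᵥ v = w := by
  rw [← ev_apply hK hv, LinearEquiv.apply_symm_apply]

/-- the semilinear map `k v ↦ k ^ 8 v` -/
noncomputable def JJ (hK : IsFieldSubalgebra 3 K) {v : Fin 3 → F} (hv : v ≠ 0) (w : Fin 3 → F) : Fin 3 → F :=
  ((((ev hK hv).symm w : K) : Matrix (Fin 3) (Fin 3) F) ^ 8) *ᵥ v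

lemma JJ_mulVec (hK : IsFieldSubalgebra 3 K) {v : Fin 3 → F} (hv : v ≠ 0)
    {a : Matrix (Fin 3) (Fin 3) F} (ha : a ∈ K) : JJ hK hv (a *ᵥ v) = (a ^ 8) *ᵥ v := by
  unfold JJ
  rw [ev_symm_mulVec hK hv ha]

lemma JJ_add [CharP F 2] (hK : IsFieldSubalgebra 3 K) {v : Fin 3 → F} (hv : v ≠ 0) (u w : Fin 3 → F) :
    JJ hK hv (u + w) = JJ hK hv u + JJ hK hv w := by
  unfold JJ
  rw [map_add, Subalgebra.coe_add, ← add_mulVec]
  congr 1
  have h8 : (8 : ℕ) = 2 ^ 3 := by norm_num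
  rw [h8]
  exact add_pow_char_pow_of_commute _ _ (hK.comm _ (Subtype.coe_prop _) _ (Subtype.coe_prop _))

lemma JJ_smul [Fintype F] (hq : Fintype.card F = 4) (hK : IsFieldSubalgebra 3 K) {v : Fin 3 → F}
    (hv : v ≠ 0) (c : F) (w : Fin 3 → F) : JJ hK hv (c • w) = (c ^ 2) • JJ hK hv w := by
  unfold JJ
  rw [map_smul, Subalgebra.coe_smul, smul_pow, smul_mulVec]
  congr 1
  have h4 : c ^ 4 = c := by rw [← hq]; exact FiniteField.pow_card c
  calc c ^ 8 = (c ^ 4) ^ 2 := by ring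
    _ = c ^ 2 := by rw [h4]

lemma card_K [Fintype F] (hq : Fintype.card F = 4) (hK : IsFieldSubalgebra 3 K) : Nat.card K = 64 := by
  rw [Module.natCard_eq_pow_finrank (K := F), Nat.card_eq_fintype_card, hq, hK.finrank_eq]
  norm_num

lemma hcommK (hK : IsFieldSubalgebra 3 K) : ∀ a b : K, a * b = b * a :=
  fun a b => Subtype.ext (hK.comm a a.2 b b.2)

lemma hinvK (hK : IsFieldSubalgebra 3 K) : ∀ a : K, a ≠ 0 → ∃ b, a * b = 1 := by
  intro a ha
  obtain ⟨y, hy, hay⟩ := hK.inv a a.2 (fun h => ha (Subtype.ext h))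
  exact ⟨⟨y, hy⟩, Subtype.ext hay⟩

lemma pow_sixtyfour [Fintype F] (hq : Fintype.card F = 4) (hK : IsFieldSubalgebra 3 K)
    {a : Matrix (Fin 3) (Fin 3) F} (ha : a ∈ K) : a ^ 64 = a := by
  have h := ring_pow_card (hcommK hK) (hinvK hK) (⟨a, ha⟩ : K)
  rw [card_K hq hK] at h
  have := congrArg Subtype.val h
  simpa using this

lemma JJ_JJ [Fintype F] (hq : Fintype.card F = 4) (hK : IsFieldSubalgebra 3 K) {v : Fin 3 → F}
    (hv : v ≠ 0) (w : Fin 3 → F) : JJ hK hv (JJ hK hv w) = w := by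
  conv_lhs => rw [JJ]
  unfold JJ
  rw [ev_symm_mulVec hK hv (K.pow_mem (Subtype.coe_prop _) 8), ← pow_mul]
  norm_num
  rw [pow_sixtyfour hq hK (Subtype.coe_prop _), mulVec_ev_symm]

/-- the normaliser of `K` and the semilinear map -/
lemma JJ_normalizer' (hK : IsFieldSubalgebra 3 K) {v : Fin 3 → F} (hv : v ≠ 0) {g : GL (Fin 3) F}
    (hg : g ∈ subalgebraNormalizer K) {a k₀ : Matrix (Fin 3) (Fin 3) F} (ha : a ∈ K) (hk₀ : k₀ ∈ K)
    (hk₀v : k₀ *ᵥ v = (g : Matrix (Fin 3) (Fin 3) F) *ᵥ v) :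
    JJ hK hv ((g : Matrix (Fin 3) (Fin 3) F) *ᵥ (a *ᵥ v)) =
      (k₀ ^ 7) *ᵥ ((g : Matrix (Fin 3) (Fin 3) F) *ᵥ JJ hK hv (a *ᵥ v)) := by
  obtain ⟨b, hb⟩ : ∃ b, b =
    (g : Matrix (Fin 3) (Fin 3) F) * a * ((g⁻¹ : GL (Fin 3) F) : Matrix (Fin 3) (Fin 3) F) := ⟨_, rfl⟩
  have hbK : b ∈ K := by rw [hb]; exact (hg a).mp ha
  have hsc : SemiconjBy (g : Matrix (Fin 3) (Fin 3) F) a b := by
    show (g : Matrix (Fin 3) (Fin 3) F) * a = b * (g : Matrix (Fin 3) (Fin 3) F)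
    rw [hb, mul_assoc, ← Units.val_mul, inv_mul_cancel, Units.val_one, mul_one]
  have h1 : (g : Matrix (Fin 3) (Fin 3) F) *ᵥ (a *ᵥ v) = (b * k₀) *ᵥ v := by
    rw [mulVec_mulVec, hsc.eq, ← mulVec_mulVec, ← hk₀v, mulVec_mulVec]
  have h2 : (g : Matrix (Fin 3) (Fin 3) F) *ᵥ JJ hK hv (a *ᵥ v) = (b ^ 8 * k₀) *ᵥ v := by
    rw [JJ_mulVec hK hv ha, mulVec_mulVec, (hsc.pow_right 8).eq, ← mulVec_mulVec, ← hk₀v,
      mulVec_mulVec]
  have hc : Commute b k₀ := hK.comm b hbK k₀ hk₀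
  have e8 : k₀ ^ 8 = k₀ ^ 7 * k₀ := pow_succ k₀ 7
  have e : (b * k₀) ^ 8 = k₀ ^ 7 * (b ^ 8 * k₀) := by
    rw [hc.mul_pow, e8, ← mul_assoc, (hc.pow_pow 8 7).eq, mul_assoc]
  rw [h1, h2, JJ_mulVec hK hv (K.mul_mem hbK hk₀), mulVec_mulVec, e]

lemma exists_nonscalar (hK : IsFieldSubalgebra 3 K) :
    ∃ x ∈ K, ∀ c : F, x ≠ c • (1 : Matrix (Fin 3) (Fin 3) F) := by
  by_contra hcon
  push Not at hcon
  have hbot : K = ⊥ := by
    rw [eq_bot_iff]
    intro x hx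
    obtain ⟨c, hc⟩ := hcon x hx
    rw [Algebra.mem_bot]
    exact ⟨c, by rw [hc, Algebra.algebraMap_eq_smul_one]⟩
  have := hK.finrank_eq
  rw [hbot, Subalgebra.finrank_bot] at this
  omega

open Polynomial in
/-- the determinant is not trivial on `K` -/
lemma exists_det_ne_one [Fintype F] (hq : Fintype.card F = 4) (hK : IsFieldSubalgebra 3 K) :
    ∃ k ∈ K, k ≠ 0 ∧ k.det ≠ 1 := by
  classical
  by_contra hcon
  push Not at hcon
  obtain ⟨x, hx, hxc⟩ := exists_nonscalar hK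
  have heval : ∀ c ∈ (Finset.univ : Finset F), (x.charpoly - 1).eval c = 0 := by
    intro c _
    rw [eval_sub, eval_one, Matrix.eval_charpoly, sub_eq_zero]
    apply hcon
    · apply K.sub_mem _ hx
      have : (Matrix.scalar (Fin 3)) c = algebraMap F (Matrix (Fin 3) (Fin 3) F) c := rfl
      rw [this]
      exact K.algebraMap_mem c
    · intro h0
      apply hxc c
      have h1 := (sub_eq_zero.mp h0).symm
      rw [h1]
      ext i j
      simp [Matrix.scalar_apply, Matrix.diagonal_apply, Matrix.one_apply]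
  have hdeg : (x.charpoly - 1).natDegree < (Finset.univ : Finset F).card := by
    rw [Finset.card_univ, hq]
    have h1 := natDegree_sub_le x.charpoly 1
    rw [Matrix.charpoly_natDegree_eq_dim, Fintype.card_fin, natDegree_one] at h1
    have : max 3 0 = 3 := rfl
    omega
  have h0 := eq_zero_of_natDegree_lt_card_of_eval_eq_zero' _ _ heval hdeg
  have h1 : x.charpoly = 1 := sub_eq_zero.mp h0
  have h2 := Matrix.charpoly_natDegree_eq_dim x
  rw [h1, natDegree_one, Fintype.card_fin] at h2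
  omega

lemma exists_omega [Fintype F] (hq : Fintype.card F = 4) : ∃ ω : F, ω ≠ 0 ∧ ω ≠ 1 := by
  classical
  by_contra hcon
  push Not at hcon
  have hsub : (Finset.univ : Finset F) ⊆ {0, 1} := by
    intro a _
    by_cases ha : a = 0
    · simp [ha]
    · simp [hcon a ha]
  have := Finset.card_le_card hsub
  rw [Finset.card_univ, hq] at this
  have h2 : ({0, 1} : Finset F).card ≤ 2 := Finset.card_le_two
  omega

open Polynomial in
/-- cube roots of unity in `K` are scalars -/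
lemma scalar_of_cube [Fintype F] (hq : Fintype.card F = 4) (hK : IsFieldSubalgebra 3 K)
    {y : Matrix (Fin 3) (Fin 3) F} (hy : y ∈ K) (h3 : y ^ 3 = 1) :
    ∃ μ : F, y = μ • (1 : Matrix (Fin 3) (Fin 3) F) := by
  obtain ⟨ω, hω0, hω1⟩ := exists_omega hq
  have h4 : ω ^ 4 = ω := by rw [← hq]; exact FiniteField.pow_card ω
  have hs : ω ^ 2 + ω + 1 = 0 := by
    have h5 : ω * (ω - 1) * (ω ^ 2 + ω + 1) = 0 := by linear_combination h4
    rcases mul_eq_zero.mp h5 with h | h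
    · rcases mul_eq_zero.mp h with h | h
      · exact absurd h hω0
      · exact absurd (sub_eq_zero.mp h) hω1
    · exact h
  have hpoly : ((X : F[X]) - C 1) * (X - C ω) * (X - C (ω ^ 2)) = X ^ 3 - C 1 := by
    have hs' : (C ω : F[X]) ^ 2 + C ω + 1 = 0 := by
      rw [← C_pow, ← C_add, ← C_1, ← C_add, hs, C_0]
    rw [C_pow, C_1]
    linear_combination ((X - 1) * (C ω - 1 - X)) * hs'
  have h5 := congrArg (aeval y) hpoly
  simp only [map_mul, map_sub, aeval_X, aeval_C, map_pow, h3, map_one, sub_self] at h5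
  have m1 : y - 1 ∈ K := K.sub_mem hy K.one_mem
  have m2 : y - algebraMap F _ ω ∈ K := K.sub_mem hy (K.algebraMap_mem ω)
  rcases eq_zero_of_mul hK (K.mul_mem m1 m2) h5 with h | h
  · rcases eq_zero_of_mul hK m1 h with h | h
    · exact ⟨1, by rw [one_smul]; exact sub_eq_zero.mp h⟩
    · exact ⟨ω, by rw [← Algebra.algebraMap_eq_smul_one]; exact sub_eq_zero.mp h⟩
  · exact ⟨ω ^ 2, by rw [← Algebra.algebraMap_eq_smul_one, map_pow]; exact sub_eq_zero.mp h⟩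

/-- the determinant on the units of `K` -/
noncomputable def detK (K : Subalgebra F (Matrix (Fin 3) (Fin 3) F)) : Kˣ →* Fˣ :=
  Units.map ((Matrix.detMonoidHom : Matrix (Fin 3) (Fin 3) F →* F).comp
    (K.val : K →ₐ[F] Matrix (Fin 3) (Fin 3) F).toRingHom.toMonoidHom)

lemma detK_val (u : Kˣ) : ((detK K u : Fˣ) : F) = ((u : K) : Matrix (Fin 3) (Fin 3) F).det := rfl

/-- elements of determinant one in `K` -/
lemma pow_seven_scalar [Fintype F] (hq : Fintype.card F = 4) (hK : IsFieldSubalgebra 3 K)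
    {k₀ : Matrix (Fin 3) (Fin 3) F} (hk₀ : k₀ ∈ K) (hdet : k₀.det = 1) :
    ∃ μ : F, k₀ ^ 7 = μ • (1 : Matrix (Fin 3) (Fin 3) F) := by
  have hne : k₀ ≠ 0 := by
    rintro rfl
    rw [Matrix.det_zero] at hdet
    exact zero_ne_one hdet
  have mkU : ∀ k ∈ K, k ≠ 0 → ∃ u : Kˣ, ((u : K) : Matrix (Fin 3) (Fin 3) F) = k := by
    intro k hk hk0
    obtain ⟨y, hy, hky⟩ := hK.inv k hk hk0
    have hyk : y * k = 1 := by rw [hK.comm y hy k hk, hky]
    exact ⟨⟨⟨k, hk⟩, ⟨y, hy⟩, Subtype.ext hky, Subtype.ext hyk⟩, rfl⟩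
  obtain ⟨u₀, hu₀⟩ := mkU k₀ hk₀ hne
  obtain ⟨k₁, hk₁, hk₁0, hk₁d⟩ := exists_det_ne_one hq hK
  obtain ⟨u₁, hu₁⟩ := mkU k₁ hk₁ hk₁0
  have hF3 : Nat.card Fˣ = 3 := by
    rw [Nat.card_units, Nat.card_eq_fintype_card, hq]
  have h21 : u₀ ^ 21 = 1 := by
    apply pow_twentyone (hcommK hK) (hinvK hK) (card_K hq hK) hF3 (detK K) ⟨u₁, ?_⟩ u₀
    · apply Units.ext
      rw [detK_val, hu₀, hdet, Units.val_one]
    · intro h
      apply hk₁d
      have := congrArg (fun x : Fˣ => (x : F)) h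
      simpa [detK_val, hu₁] using this
  have h21' : k₀ ^ 21 = 1 := by
    have h1 := congrArg (fun x : Kˣ => ((x : K) : Matrix (Fin 3) (Fin 3) F)) h21
    simpa [hu₀] using h1
  apply scalar_of_cube hq hK (K.pow_mem hk₀ 7)
  rw [← pow_mul]
  exact h21'

/-- **`SL_3(4)`**: the normaliser of a cubic field lies in a subfield group. -/
theorem sl3_four [Fintype F] (hq : Fintype.card F = 4) (hK : IsFieldSubalgebra 3 K) :
    ∃ (F₀ : Subfield F) (P : GL (Fin 3) F), Fintype.card F = Nat.card F₀ ^ 2 ∧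
      subalgebraNormalizer K ⊓ specialLinear (Fin 3) F ≤ subfieldSubgroup F₀ P := by
  classical
  have hchar : ringChar F = 2 := FiniteField.even_card_iff_char_two.mpr (by rw [hq])
  have : CharP F 2 := ringChar.of_eq hchar
  have : Fact (Nat.Prime 2) := ⟨Nat.prime_two⟩
  have h4 : ∀ c : F, c ^ 4 = c := fun c => by rw [← hq]; exact FiniteField.pow_card c
  set σ : F ≃+* F := frobeniusEquiv F 2 with hσdef
  have hσ : ∀ c, σ c = c ^ 2 := fun c => frobeniusEquiv_apply F 2 c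
  have hσσ : ∀ c, σ (σ c) = c := fun c => by
    rw [hσ, hσ, ← pow_mul]
    exact h4 c
  obtain ⟨ω, hω0, hω1⟩ := exists_omega hq
  have hσω : σ ω ≠ ω := by
    intro h
    rw [hσ] at h
    have : ω * (ω - 1) = 0 := by linear_combination h
    rcases mul_eq_zero.mp this with h | h
    · exact hω0 h
    · exact hω1 (sub_eq_zero.mp h)
  have hσne : σ ≠ RingEquiv.refl F := by
    intro h
    apply hσω
    rw [h]
    rfl
  obtain ⟨F₀, hF₀, hcard⟩ := Cfsg.Agent.Lib.Helper97USub.fix_sigma σ hσne hσσ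
  obtain ⟨v, hv⟩ : ∃ v : Fin 3 → F, v ≠ 0 := ⟨Pi.single 0 1, by
    intro h
    have := congrFun h 0
    simp at this⟩
  obtain ⟨D, hJD⟩ := exists_coord (σ := σ) ⟨ω, hσω⟩ (JJ hK hv) (JJ_add hK hv)
    (fun c w => by rw [JJ_smul hq hK hv, hσ]) (JJ_JJ hq hK hv)
  refine ⟨F₀, D, hcard, ?_⟩
  rintro g ⟨hgN, hgS⟩
  have hdetg : (g : Matrix (Fin 3) (Fin 3) F).det = 1 := mem_specialLinear_iff.mp hgS
  obtain ⟨k₀, hk₀, hk₀v⟩ : ∃ k₀ ∈ K, k₀ *ᵥ v = (g : Matrix (Fin 3) (Fin 3) F) *ᵥ v :=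
    ⟨_, Subtype.coe_prop _, mulVec_ev_symm hK hv _⟩
  have hrel : ∀ w, JJ hK hv ((g : Matrix (Fin 3) (Fin 3) F) *ᵥ w) =
      (k₀ ^ 7) *ᵥ ((g : Matrix (Fin 3) (Fin 3) F) *ᵥ JJ hK hv w) := by
    intro w
    obtain ⟨a, ha, haw⟩ : ∃ a ∈ K, a *ᵥ v = w := ⟨_, Subtype.coe_prop _, mulVec_ev_symm hK hv w⟩
    rw [← haw]
    exact JJ_normalizer' hK hv hgN ha hk₀ hk₀v
  have hk₀0 : k₀ ≠ 0 := by
    rintro rfl
    rw [zero_mulVec] at hk₀v
    apply hv
    apply mulVec_injective g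
    simpa using hk₀v.symm
  obtain ⟨y, hy, hky⟩ := hK.inv k₀ hk₀ hk₀0
  have hyk : y * k₀ = 1 := by rw [hK.comm y hy k₀ hk₀, hky]
  let κ : GL (Fin 3) F := ⟨k₀, y, hky, hyk⟩
  have hκ : (κ : Matrix (Fin 3) (Fin 3) F) = k₀ := rfl
  have hdet := det_twist (σ := σ) (JJ hK hv) D hJD g (κ ^ 7 * g) (by
    intro w
    rw [hrel, Units.val_mul, Units.val_pow_eq_pow_val, hκ, mulVec_mulVec])
  rw [hdetg, map_one, Units.val_mul, Units.val_pow_eq_pow_val, hκ, Matrix.det_mul, hdetg, mul_one,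
    Matrix.det_pow] at hdet
  have hd1 : k₀.det = 1 := by
    have hd4 := h4 k₀.det
    have hd0 : k₀.det ≠ 0 := by
      intro h
      rw [h] at hdet
      norm_num at hdet
    have hd3 : k₀.det ^ 3 = 1 := by
      have : k₀.det * (k₀.det ^ 3 - 1) = 0 := by linear_combination hd4
      rcases mul_eq_zero.mp this with h | h
      · exact absurd h hd0
      · exact sub_eq_zero.mp h
    calc k₀.det = k₀.det * (k₀.det ^ 3) ^ 2 := by rw [hd3]; ring
      _ = k₀.det ^ 7 := by ring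
      _ = 1 := hdet.symm
  obtain ⟨μ, hμ⟩ := pow_seven_scalar hq hK hk₀ hd1
  apply mem_subfield (σ := σ) (JJ hK hv) D hJD (fun a ha => (hF₀ a).mp ha) g μ
  intro w
  rw [hrel, hμ, smul_mulVec, one_mulVec]

end Cfsg.Agent.Lib.Helper97SL3b
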