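import Cfsg.Agent.Lib.Helper97SpRed

set_option autoImplicit false
set_option linter.unusedSectionVars false

/-! arithmetic restrictions on the members of the geometric classes of the symplectic group -/

namespace Cfsg.Agent.Lib.Helper97SpArith

open Cfsg Cfsg.Geo Matrix Cfsg.Agent.Lib.Helper97GBase Cfsg.Agent.Lib.Helper97GForms
  Cfsg.Agent.Lib.Helper97SpRed
open scoped MatrixGroups

variable {ι : Type} [Fintype ι] [DecidableEq ι] {F : Type*} [Field F]
variable {f : (ι → F) → (ι → F) → F}

/-- the dimension count of a decomposition -/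
lemma card_of_decomp {t m : ℕ} {D : Fin t → Submodule F (ι → F)} (hD : IsMDecomposition m D) :
    t * m = Fintype.card ι := by
  classical
  have hint := DirectSum.isInternal_submodule_of_iSupIndep_of_iSup_eq_top hD.indep hD.iSup_eq_top
  let b : ∀ i, Module.Basis (Fin m) F (D i) :=
    fun i => Module.finBasisOfFinrankEq F (D i) (hD.finrank_eq i)
  have h := Module.finrank_eq_card_basis (hint.collectedBasis b)
  rw [Module.finrank_fintype_fun_eq_card] at h
  rw [h]
  simp

/-- a subspace on which a symplectic form is non-degenerate has even dimension -/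
lemma even_finrank_of_nondegOn (hf : IsSymplecticForm f) {W : Submodule F (ι → F)}
    (hW : IsNondegenerateOn f W) : Even (Module.finrank F W) := by
  by_contra hodd
  rw [Nat.not_even_iff_odd] at hodd
  let b := Module.finBasis F W
  let emb : (Fin (Module.finrank F W) → F) →ₗ[F] (ι → F) :=
    W.subtype ∘ₗ (b.equivFun.symm : (Fin (Module.finrank F W) → F) →ₗ[F] W)
  have hemb_mem : ∀ x, emb x ∈ W := fun x => Subtype.mem _
  have hemb_inj : ∀ x, emb x = 0 → x = 0 := by
    intro x hx
    have h1 : (b.equivFun.symm x : W) = 0 := Subtype.ext hx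
    exact b.equivFun.symm.map_eq_zero_iff.mp h1
  have hemb_surj : ∀ w ∈ W, ∃ x, emb x = w := by
    intro w hw
    refine ⟨b.equivFun ⟨w, hw⟩, ?_⟩
    simp [emb]
  have hb := hf.bilinear
  apply no_symplectic (ι := Fin (Module.finrank F W)) (F := F) (by rw [Fintype.card_fin]; exact hodd)
    (fun x y => f (emb x) (emb y))
  refine ⟨⟨?_, ?_, ?_, ?_⟩, ?_, ?_, ?_⟩
  · intro x y v
    simp only [map_add, hb.add_left]
  · intro c x v
    simp only [map_smul, hb.smul_left]
  · intro v x y
    simp only [map_add, hb.add_right]
  · intro c v x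
    simp only [map_smul, hb.smul_right]
  · intro v w
    exact hf.skew _ _
  · intro v
    exact hf.alternating _
  · intro v hv
    have hv' : emb v ≠ 0 := fun h => hv (hemb_inj v h)
    obtain ⟨⟨x, hx, hx'⟩, ⟨y, hy, hy'⟩⟩ := hW (emb v) (hemb_mem v) hv'
    obtain ⟨x₀, rfl⟩ := hemb_surj x hx
    obtain ⟨y₀, rfl⟩ := hemb_surj y hy
    exact ⟨⟨x₀, hx'⟩, ⟨y₀, hy'⟩⟩

/-- a self-adjoint field with `f (k v) v = 0` has degree dividing half the dimension -/
lemma two_mul_dvd (hf : IsSymplecticForm f) {r : ℕ} {K : Subalgebra F (Matrix ι ι F)}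
    (hK : IsFieldSubalgebra r K) (hsa : IsSelfAdjointFor f K)
    (halt : ∀ k ∈ K, ∀ v, f (k *ᵥ v) v = 0) : 2 * r ∣ Fintype.card ι := by
  have hb := hf.bilinear
  have key : ∀ k : ℕ, ∀ U : Submodule F (ι → F), (∀ c ∈ K, ∀ u ∈ U, c *ᵥ u ∈ U) →
      IsTotallySingularFor f U → r ∣ Module.finrank F U →
      Fintype.card ι - Module.finrank F U = k → 2 * r ∣ Fintype.card ι := by
    intro k
    induction k using Nat.strong_induction_on with
    | _ k ih =>
      intro U hUK hUts hUr hk
      have hle : U ≤ perp hf U := fun u hu w hw => hUts w hw u hu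
      have hdim := finrank_perp hf U
      by_cases hU : perp hf U ≤ U
      · have heq : perp hf U = U := le_antisymm hU hle
        rw [heq] at hdim
        rw [← hdim, ← two_mul]
        exact Nat.mul_dvd_mul_left 2 hUr
      · obtain ⟨v, hvp, hvU⟩ := SetLike.not_le_iff_exists.mp hU
        let φ : K →ₗ[F] (ι → F) :=
          { toFun := fun c => (c : Matrix ι ι F) *ᵥ v
            map_add' := fun a b => by simp [Matrix.add_mulVec]
            map_smul' := fun a b => by simp [Matrix.smul_mulVec] }
        have hφ : ∀ c : K, φ c ∈ U → c = 0 := by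
          intro c hcU
          by_contra hc0
          have hc0' : (c : Matrix ι ι F) ≠ 0 := fun h => hc0 (Subtype.ext h)
          obtain ⟨y, hy, hxy⟩ := hK.inv c c.2 hc0'
          have hyx : y * (c : Matrix ι ι F) = 1 := by rw [hK.comm y hy c c.2, hxy]
          apply hvU
          have := hUK y hy _ hcU
          simpa [φ, Matrix.mulVec_mulVec, hyx] using this
        have hφinj : Function.Injective φ := by
          rw [← LinearMap.ker_eq_bot, LinearMap.ker_eq_bot']
          intro c hc
          apply hφ
          rw [hc]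
          exact U.zero_mem
        have hfr : Module.finrank F (LinearMap.range φ) = r := by
          rw [LinearMap.finrank_range_of_inj hφinj, hK.finrank_eq]
        have hinf : U ⊓ LinearMap.range φ = ⊥ := by
          rw [Submodule.eq_bot_iff]
          rintro x ⟨hxU, a, rfl⟩
          rw [hφ a hxU, map_zero]
        have h1 := Submodule.finrank_sup_add_finrank_inf_eq U (LinearMap.range φ)
        rw [hinf, finrank_bot, add_zero, hfr] at h1
        have h2 : Module.finrank F ↥(U ⊔ LinearMap.range φ) ≤ Module.finrank F (ι → F) :=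
          Submodule.finrank_le _
        rw [Module.finrank_fintype_fun_eq_card] at h2
        have hrpos : 0 < r := by
          have : Nonempty ι := by
            by_contra hcon
            rw [not_nonempty_iff] at hcon
            apply hvU
            rw [Subsingleton.elim v 0]
            exact U.zero_mem
          have : Nontrivial K := ⟨0, 1, by
            intro h
            have := congrArg Subtype.val h
            simp at this⟩
          rw [← hK.finrank_eq]
          exact Module.finrank_pos
        have hUv : ∀ u ∈ U, ∀ c ∈ K, f u (c *ᵥ v) = 0 := by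
          intro u hu c hc
          rw [← hsa c hc]
          exact hvp _ (hUK c hc u hu)
        refine ih (Fintype.card ι - Module.finrank F ↥(U ⊔ LinearMap.range φ)) (by omega)
          (U ⊔ LinearMap.range φ) ?_ ?_ ?_ rfl
        · intro c hc u hu
          obtain ⟨a, ha, b, ⟨b', rfl⟩, rfl⟩ := Submodule.mem_sup.mp hu
          rw [Matrix.mulVec_add]
          refine Submodule.add_mem _ (Submodule.mem_sup_left (hUK c hc a ha)) (Submodule.mem_sup_right ?_)
          exact ⟨⟨c, hc⟩ * b', by simp [φ, Matrix.mulVec_mulVec]⟩
        · intro x hx y hy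
          obtain ⟨a, ha, _, ⟨c, rfl⟩, rfl⟩ := Submodule.mem_sup.mp hx
          obtain ⟨a', ha', _, ⟨c', rfl⟩, rfl⟩ := Submodule.mem_sup.mp hy
          change f (a + (c : Matrix ι ι F) *ᵥ v) (a' + (c' : Matrix ι ι F) *ᵥ v) = 0
          rw [hb.add_left, hb.add_right, hb.add_right, hUts a ha a' ha', hUv a ha c' c'.2,
            hf.skew _ a', hUv a' ha' c c.2, ← hsa c' c'.2, Matrix.mulVec_mulVec,
            halt _ (K.mul_mem c'.2 c.2)]
          simp
        · rw [h1]
          exact Dvd.dvd.add hUr dvd_rfl
  exact key _ ⊥ (by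
    intro c _ u hu
    rw [Submodule.mem_bot] at hu
    simp [hu]) (by
    intro u hu v _
    rw [Submodule.mem_bot] at hu
    rw [hu]
    have := hb.smul_left 0 0 v
    simpa using this) (by simp) rfl

end Cfsg.Agent.Lib.Helper97SpArith
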