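import Cfsg.Agent.Lib.Helper97SpProper

set_option autoImplicit false
set_option linter.unusedSectionVars false
set_option linter.unusedSimpArgs false

/-! The symplectic group does not normalise an absolutely irreducible `2`-group of exponent `4`
(odd characteristic, dimension at least five). -/

namespace Cfsg.Agent.Lib.Helper97SpPc6

open Cfsg Cfsg.Geo Matrix Cfsg.Agent.Lib.Helper97GBase Cfsg.Agent.Lib.Helper97SpTv
  Cfsg.Agent.Lib.Helper97SpProper
open scoped MatrixGroups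

variable {ι : Type} [Fintype ι] [DecidableEq ι] {F : Type*} [Field F]

/-- if a transvection `v ↦ v + φ(v) u` normalises a `p'`-group `R`, `x ∈ R` and `φ (x u) = 0`, then
`x u` is a multiple of `u` -/
lemma mem_span_of_normalizes [Nonempty ι] {p r : ℕ} [CharP F p] (hp : p.Prime) (hr : r.Prime) (hrp : r ≠ p)
    {R : Subgroup (GL ι F)} (hR : IsPGroup r R) {u φ : ι → F} (hφu : φ ⬝ᵥ u = 0) (hφ0 : φ ≠ 0)
    (ht : tv u φ hφu ∈ subgroupNormalizer R) {x : GL ι F} (hx : x ∈ R)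
    (hφw : φ ⬝ᵥ ((x : Matrix ι ι F) *ᵥ u) = 0) :
    (x : Matrix ι ι F) *ᵥ u ∈ Submodule.span F {u} := by
  set X : Matrix ι ι F := (x : Matrix ι ι F) with hX
  set X' : Matrix ι ι F := ((x⁻¹ : GL ι F) : Matrix ι ι F) with hX'
  have hXX' : X * X' = 1 := by rw [hX, hX', ← Units.val_mul, mul_inv_cancel, Units.val_one]
  have hX'X : X' * X = 1 := by rw [hX, hX', ← Units.val_mul, inv_mul_cancel, Units.val_one]
  set w : ι → F := X *ᵥ u with hw
  set ψ : ι → F := φ ᵥ* X' with hψ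
  have hψw : ψ ⬝ᵥ w = 0 := by
    rw [hψ, hw, ← Matrix.dotProduct_mulVec, Matrix.mulVec_mulVec, hX'X, Matrix.one_mulVec, hφu]
  set t : GL ι F := tv u φ hφu with htdef
  have htR : t * x * t⁻¹ ∈ R := (Subgroup.mem_normalizer_iff.mp ht x).mp hx
  have hyR : t * x * t⁻¹ * x⁻¹ ∈ R := R.mul_mem htR (R.inv_mem hx)
  set N : Matrix ι ι F := vecMulVec u φ - vecMulVec w ψ with hN
  have hy : ((t * x * t⁻¹ * x⁻¹ : GL ι F) : Matrix ι ι F) = 1 + N := by
    have h1 : ((t⁻¹ : GL ι F) : Matrix ι ι F) = 1 - vecMulVec u φ := rfl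
    rw [Units.val_mul, Units.val_mul, Units.val_mul, h1, htdef, tv_val, ← hX, ← hX']
    have h2 : X * (1 - vecMulVec u φ) * X' = 1 - vecMulVec w ψ := by
      rw [Matrix.mul_sub, Matrix.sub_mul, Matrix.mul_one, hXX', Matrix.mul_vecMulVec,
        Matrix.vecMulVec_mul]
    rw [Matrix.mul_assoc (1 + vecMulVec u φ) X, Matrix.mul_assoc (1 + vecMulVec u φ),
      h2, Matrix.add_mul, Matrix.mul_sub, Matrix.mul_sub, Matrix.vecMulVec_mul_vecMulVec, hφw, hN]
    simp only [Matrix.one_mul, Matrix.mul_one, zero_smul, Matrix.vecMulVec_zero, sub_zero]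
    abel
  have hN3 : N ^ 3 = 0 := by
    have hN2 : N * N = - ((ψ ⬝ᵥ u) • vecMulVec w φ) := by
      rw [hN, Matrix.sub_mul, Matrix.mul_sub, Matrix.mul_sub]
      simp only [Matrix.vecMulVec_mul_vecMulVec, hφu, hφw, hψw, zero_smul, Matrix.vecMulVec_zero,
        Matrix.vecMulVec_smul]
      abel
    rw [pow_succ, pow_two, hN2, hN, Matrix.neg_mul, Matrix.smul_mul, Matrix.mul_sub]
    simp only [Matrix.vecMulVec_mul_vecMulVec, hφu, hφw, zero_smul, Matrix.vecMulVec_zero, sub_zero,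
      smul_zero, neg_zero]
  have hfact : Fact p.Prime := ⟨hp⟩
  have hpow : (t * x * t⁻¹ * x⁻¹) ^ (p ^ 2) = 1 := by
    apply Units.ext
    rw [Units.val_pow_eq_pow_val, hy, Units.val_one,
      add_pow_char_pow_of_commute (R := Matrix ι ι F) (p := p) (n := 2) (h := Commute.one_left N), one_pow]
    have h4 : 3 ≤ p ^ 2 := by nlinarith [hp.two_le]
    rw [← Nat.sub_add_cancel h4, pow_add, hN3, mul_zero, add_zero]
  obtain ⟨k, hk⟩ := hR ⟨_, hyR⟩
  have hk' : (t * x * t⁻¹ * x⁻¹) ^ (r ^ k) = 1 := by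
    have := congrArg Subtype.val hk
    simpa using this
  have hone : t * x * t⁻¹ * x⁻¹ = 1 := by
    have h1 := orderOf_dvd_of_pow_eq_one hpow
    have h2 := orderOf_dvd_of_pow_eq_one hk'
    have hcop : Nat.Coprime (p ^ 2) (r ^ k) :=
      Nat.Coprime.pow _ _ ((Nat.coprime_primes hp hr).2 (Ne.symm hrp))
    exact orderOf_eq_one_iff.mp (Nat.eq_one_of_dvd_coprimes hcop h1 h2)
  have hN0 : N = 0 := by
    have := hy
    rw [hone, Units.val_one] at this
    simpa using this.symm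
  obtain ⟨w0, hφ1⟩ := exists_dot_eq_one hφ0
  have h5 := congrArg (· *ᵥ w0) hN0
  simp only [hN, Matrix.sub_mulVec, Matrix.vecMulVec_mulVec, hφ1, Matrix.zero_mulVec, MulOpposite.op_one,
    one_smul] at h5
  have h6 : u = (ψ ⬝ᵥ w0) • w := by
    have := sub_eq_zero.mp h5
    rw [this]
    ext i
    simp [mul_comm]
  by_cases hc : ψ ⬝ᵥ w0 = 0
  · rw [hc, zero_smul] at h6
    rw [hw, h6, Matrix.mulVec_zero]
    exact Submodule.zero_mem _
  · have : w = (ψ ⬝ᵥ w0)⁻¹ • u := by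
      conv_rhs => rw [h6]
      rw [smul_smul, inv_mul_cancel₀ hc, one_smul]
    rw [this]
    exact Submodule.smul_mem _ _ (Submodule.mem_span_singleton_self u)

variable {f : (ι → F) → (ι → F) → F}

lemma matrix_ext_mulVec {A B : Matrix ι ι F} (h : ∀ v, A *ᵥ v = B *ᵥ v) : A = B := by
  apply Matrix.toLin'.injective
  apply LinearMap.ext
  intro v
  rw [Matrix.toLin'_apply, Matrix.toLin'_apply, h]

/-- an involution with the key property is `± 1` -/
lemma invol (hf : IsSymplecticForm f) (h2 : (2 : F) ≠ 0) (h3 : 3 ≤ Fintype.card ι) {X : Matrix ι ι F}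
    (hkey : ∀ u, f (X *ᵥ u) u = 0 → X *ᵥ u ∈ Submodule.span F {u}) (hXX : X * X = 1) :
    X = 1 ∨ X = -1 := by
  by_contra hcon
  push Not at hcon
  obtain ⟨hn1, hn2⟩ := hcon
  have hb := hf.bilinear
  have hXXv : ∀ v, X *ᵥ (X *ᵥ v) = v := fun v => by
    rw [Matrix.mulVec_mulVec, hXX, Matrix.one_mulVec]
  have hne : ∀ a b, X *ᵥ a = a → X *ᵥ b = -b → a ≠ 0 → b ≠ 0 → f a b ≠ 0 := by
    intro a b ha hb' ha0 hb0 hab
    have hu := hkey (a + b) (by
      rw [Matrix.mulVec_add, ha, hb', ← neg_one_smul F b, hb.add_left, hb.add_right, hb.add_right,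
        hf.alternating, hab, hb.smul_left, hb.smul_left, hf.alternating, hf.skew b a, hab]
      simp)
    obtain ⟨c, hc⟩ := Submodule.mem_span_singleton.mp hu
    rw [Matrix.mulVec_add, ha, hb'] at hc
    have hc' := congrArg (fun v => X *ᵥ v) hc
    simp only [Matrix.mulVec_smul, Matrix.mulVec_add, Matrix.mulVec_neg, ha, hb'] at hc'
    have e1 : (2 * (c - 1)) • a = 0 := by
      linear_combination (norm := module) hc + hc'
    have e2 : (2 * (c + 1)) • b = 0 := by
      linear_combination (norm := module) hc - hc'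
    have c1 : c - 1 = 0 := by
      rcases smul_eq_zero.mp e1 with h | h
      · exact (mul_eq_zero.mp h).resolve_left h2
      · exact absurd h ha0
    have c2 : c + 1 = 0 := by
      rcases smul_eq_zero.mp e2 with h | h
      · exact (mul_eq_zero.mp h).resolve_left h2
      · exact absurd h hb0
    apply h2
    linear_combination c2 - c1
  obtain ⟨v', hv'⟩ : ∃ v, X *ᵥ v ≠ -v := by
    by_contra hcon
    push Not at hcon
    exact hn2 (matrix_ext_mulVec fun v => by rw [hcon, Matrix.neg_mulVec, Matrix.one_mulVec])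
  obtain ⟨v'', hv''⟩ : ∃ v, X *ᵥ v ≠ v := by
    by_contra hcon
    push Not at hcon
    exact hn1 (matrix_ext_mulVec fun v => by rw [hcon, Matrix.one_mulVec])
  set v₁ := v' + X *ᵥ v' with hv₁
  set v₂ := v'' - X *ᵥ v'' with hv₂
  have hv₁0 : v₁ ≠ 0 := by
    intro h
    apply hv'
    rw [hv₁] at h
    exact (eq_neg_of_add_eq_zero_right h)
  have hv₂0 : v₂ ≠ 0 := by
    intro h
    apply hv''
    rw [hv₂] at h
    exact (sub_eq_zero.mp h).symm
  have hXv₁ : X *ᵥ v₁ = v₁ := by rw [hv₁, Matrix.mulVec_add, hXXv, add_comm]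
  have hXv₂ : X *ᵥ v₂ = -v₂ := by rw [hv₂, Matrix.mulVec_sub, hXXv]; abel
  obtain ⟨y, hy0, hy1, hy2⟩ := exists_ker_two h3 (dotL ((sφ f v₂ 1) ᵥ* (1 + X)))
    (dotL ((sφ f v₁ 1) ᵥ* (1 - X)))
  rw [dotL_apply, ← Matrix.dotProduct_mulVec, sφ_dot hf, one_mul, Matrix.add_mulVec,
    Matrix.one_mulVec] at hy1
  rw [dotL_apply, ← Matrix.dotProduct_mulVec, sφ_dot hf, one_mul, Matrix.sub_mulVec,
    Matrix.one_mulVec] at hy2
  have hp : y + X *ᵥ y = 0 := by
    by_contra h
    exact hne _ _ (by rw [Matrix.mulVec_add, hXXv, add_comm]) hXv₂ h hv₂0 hy1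
  have hm : y - X *ᵥ y = 0 := by
    by_contra h
    refine hne _ _ hXv₁ (by rw [Matrix.mulVec_sub, hXXv]; abel) hv₁0 h ?_
    rw [hf.skew, hy2, neg_zero]
  have : (2 : F) • y = 0 := by
    linear_combination (norm := module) hp + hm
  rcases smul_eq_zero.mp this with h | h
  · exact h2 h
  · exact hy0 h

/-- a multiplicatively closed set of matrices of exponent four whose only involutions are `± 1` is contained in
`± {1, X, Y, XY}` -/
lemma small {S : Set (Matrix ι ι F)} (hmul : ∀ A ∈ S, ∀ B ∈ S, A * B ∈ S)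
    (h4 : ∀ A ∈ S, A * A * (A * A) = 1) (hinv : ∀ A ∈ S, A * A = 1 → A = 1 ∨ A = -1)
    {X Y : Matrix ι ι F} (hX : X ∈ S) (hY : Y ∈ S) (hXY : Y * X ≠ X * Y) :
    X * X = -1 ∧ Y * Y = -1 ∧ Y * X = -(X * Y) ∧
    ∀ Z ∈ S, Z = 1 ∨ Z = -1 ∨ Z = X ∨ Z = -X ∨ Z = Y ∨ Z = -Y ∨ Z = X * Y ∨ Z = -(X * Y) := by
  have hsq : ∀ A ∈ S, A * A = 1 ∨ A * A = -1 := fun A hA => hinv (A * A) (hmul A hA A hA) (h4 A hA)
  have hcomm : ∀ A ∈ S, ∀ B ∈ S, B * A = A * B ∨ B * A = -(A * B) := by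
    intro A hA B hB
    rcases hsq A hA with a1 | a1
    · rcases hinv A hA a1 with rfl | rfl <;> left <;> simp
    rcases hsq B hB with b1 | b1
    · rcases hinv B hB b1 with rfl | rfl <;> left <;> simp
    rcases hsq (A * B) (hmul A hA B hB) with c1 | c1
    · left
      have hB' : B = -(A * (A * B)) := by rw [← mul_assoc, a1]; simp
      rcases hinv (A * B) (hmul A hA B hB) c1 with e | e
      · rw [e, mul_one] at hB'
        rw [hB']; simp
      · rw [e] at hB'
        rw [hB']; simp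
    · right
      calc B * A = (A * A) * (B * A) * (B * B) := by rw [a1, b1]; simp
        _ = A * ((A * B) * (A * B)) * B := by simp only [mul_assoc]
        _ = -(A * B) := by rw [c1]; simp
  have hyx : Y * X = -(X * Y) := (hcomm X hX Y hY).resolve_left hXY
  have hxx : X * X = -1 := by
    rcases hsq X hX with h | h
    · exfalso
      rcases hinv X hX h with rfl | rfl <;> simp at hXY
    · exact h
  have hyy : Y * Y = -1 := by
    rcases hsq Y hY with h | h
    · exfalso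
      rcases hinv Y hY h with rfl | rfl <;> simp at hXY
    · exact h
  refine ⟨hxx, hyy, hyx, ?_⟩
  have xx : ∀ A, X * (X * A) = -A := fun A => by rw [← mul_assoc, hxx, neg_one_mul]
  have yy : ∀ A, Y * (Y * A) = -A := fun A => by rw [← mul_assoc, hyy, neg_one_mul]
  have yx : ∀ A, Y * (X * A) = -(X * (Y * A)) := fun A => by
    rw [← mul_assoc, hyx, neg_mul, mul_assoc]
  -- elements commuting with `X` and `Y`
  have hcen : ∀ Z ∈ S, Z * X = X * Z → Z * Y = Y * Z → Z = 1 ∨ Z = -1 := by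
    intro Z hZ zx zy
    rcases hsq Z hZ with h | h
    · exact hinv Z hZ h
    · exfalso
      have h1 : (Z * X) * (Z * X) = 1 := by
        calc (Z * X) * (Z * X) = Z * (X * Z) * X := by simp only [mul_assoc]
          _ = (Z * Z) * (X * X) := by rw [← zx]; simp only [mul_assoc]
          _ = 1 := by rw [h, hxx]; simp
      have hZ' : Z = -(Z * X * X) := by rw [mul_assoc, hxx]; simp
      apply hXY
      rcases hinv _ (hmul Z hZ X hX) h1 with e | e
      · rw [e, one_mul] at hZ'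
        rw [hZ'] at zy
        simpa using zy.symm
      · rw [e] at hZ'
        rw [hZ'] at zy
        simpa using zy.symm
  intro Z hZ
  rcases hcomm X hX Z hZ with zx | zx <;> rcases hcomm Y hY Z hZ with zy | zy
  · rcases hcen Z hZ zx zy with h | h
    · exact Or.inl h
    · exact Or.inr (Or.inl h)
  · -- `Z X` is central
    have hZ' : Z = -(Z * X * X) := by rw [mul_assoc, hxx]; simp
    rcases hcen (Z * X) (hmul Z hZ X hX) (by rw [zx, mul_assoc, zx])
      (by rw [mul_assoc, ← neg_neg (X * Y), ← hyx, mul_neg, ← mul_assoc, zy]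
          simp only [mul_assoc, neg_mul, neg_neg]) with h | h
    · rw [h, one_mul] at hZ'
      exact Or.inr (Or.inr (Or.inr (Or.inl hZ')))
    · rw [h] at hZ'
      exact Or.inr (Or.inr (Or.inl (by simpa using hZ')))
  · have hZ' : Z = -(Z * Y * Y) := by rw [mul_assoc, hyy]; simp
    rcases hcen (Z * Y) (hmul Z hZ Y hY)
      (by rw [mul_assoc, hyx, mul_neg, ← mul_assoc, zx]
          simp only [mul_assoc, neg_mul, neg_neg])
      (by rw [zy, mul_assoc, zy]) with h | h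
    · rw [h, one_mul] at hZ'
      exact Or.inr (Or.inr (Or.inr (Or.inr (Or.inr (Or.inl hZ')))))
    · rw [h] at hZ'
      exact Or.inr (Or.inr (Or.inr (Or.inr (Or.inl (by simpa using hZ')))))
  · have zx' : ∀ A, Z * (X * A) = -(X * (Z * A)) := fun A => by
      rw [← mul_assoc, zx, neg_mul, mul_assoc]
    have zy' : ∀ A, Z * (Y * A) = -(Y * (Z * A)) := fun A => by
      rw [← mul_assoc, zy, neg_mul, mul_assoc]
    have hZ' : Z = -(Z * (X * Y) * (X * Y)) := by
      simp only [mul_assoc, yx, xx, yy, hyy, hxx, mul_neg, neg_neg, mul_one]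
    rcases hcen (Z * (X * Y)) (hmul Z hZ _ (hmul X hX Y hY))
      (by simp only [mul_assoc, zx', zy', zx, zy, yx, xx, yy, hyx, hyy, hxx, mul_neg, neg_neg, mul_one])
      (by simp only [mul_assoc, zx', zy', zx, zy, yx, xx, yy, hyx, hyy, hxx, mul_neg, neg_neg, mul_one])
      with h | h
    · rw [h, one_mul] at hZ'
      exact Or.inr (Or.inr (Or.inr (Or.inr (Or.inr (Or.inr (Or.inr hZ'))))))
    · rw [h] at hZ'
      exact Or.inr (Or.inr (Or.inr (Or.inr (Or.inr (Or.inr (Or.inl (by simpa using hZ')))))))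

variable {G : Subgroup (GL ι F)}

/-- the structure of a `2`-group of exponent four normalised by all symplectic transvections -/
lemma structure_of_normalized [Fintype F] (hf : IsSymplecticForm f) (hG : ∀ u a, stv hf u a ∈ G)
    (hq : Odd (Fintype.card F)) (h3 : 3 ≤ Fintype.card ι) {R : Subgroup (GL ι F)}
    (hR : IsSymplecticTypeGroup 2 R) (habs : ActsAbsolutelyIrreducibly (matrixSet R))
    (hle : G ≤ subgroupNormalizer R) :
    ∃ X Y : Matrix ι ι F, X * X = -1 ∧ Y * Y = -1 ∧ Y * X = -(X * Y) ∧ X ∈ matrixSet R ∧ Y ∈ matrixSet R ∧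
      ∀ Z ∈ matrixSet R,
        Z = 1 ∨ Z = -1 ∨ Z = X ∨ Z = -X ∨ Z = Y ∨ Z = -Y ∨ Z = X * Y ∨ Z = -(X * Y) := by
  classical
  have : Nonempty ι := Fintype.card_pos_iff.mp (by omega)
  obtain ⟨p, hchar⟩ := CharP.exists F
  have hp : p.Prime := CharP.char_is_prime F p
  have hp2 : (2 : ℕ) ≠ p := by
    rintro rfl
    have h1 : ringChar F = 2 := (ringChar.eq F 2)
    have h2 := FiniteField.even_card_iff_char_two.mp h1
    rw [Nat.odd_iff] at hq
    omega
  have h2 : (2 : F) ≠ 0 := by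
    intro h
    have h1 : ((2 : ℕ) : F) = 0 := by exact_mod_cast h
    have h3 := (CharP.cast_eq_zero_iff F p 2).mp h1
    exact hp2 ((Nat.prime_dvd_prime_iff_eq hp Nat.prime_two).mp h3).symm
  have hkey : ∀ x ∈ R, ∀ u, f ((x : Matrix ι ι F) *ᵥ u) u = 0 →
      (x : Matrix ι ι F) *ᵥ u ∈ Submodule.span F {u} := by
    intro x hx u hu
    by_cases hu0 : u = 0
    · rw [hu0, Matrix.mulVec_zero]
      exact Submodule.zero_mem _
    · exact mem_span_of_normalizes hp Nat.prime_two hp2 hR.pGroup _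
        (sφ_ne_zero hf hu0 one_ne_zero) (hle (hG u 1)) hx (by rw [sφ_dot hf, hu, mul_zero])
  have hmul : ∀ A ∈ matrixSet R, ∀ B ∈ matrixSet R, A * B ∈ matrixSet R := by
    rintro _ ⟨a, ha, rfl⟩ _ ⟨b, hb, rfl⟩
    exact ⟨a * b, R.mul_mem ha hb, Units.val_mul a b⟩
  have h4 : ∀ A ∈ matrixSet R, A * A * (A * A) = 1 := by
    rintro _ ⟨a, ha, rfl⟩
    have h1 : (⟨a, ha⟩ : R) ^ 4 = 1 := by
      have := Monoid.pow_exponent_eq_one (⟨a, ha⟩ : R)
      rw [hR.exponent_eq] at this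
      exact this
    have h2 : a ^ 4 = 1 := by
      have := congrArg Subtype.val h1
      simpa using this
    have h3 : ((a ^ 4 : GL ι F) : Matrix ι ι F) = 1 := by rw [h2, Units.val_one]
    rw [Units.val_pow_eq_pow_val] at h3
    rw [← h3]
    noncomm_ring
  have hinv : ∀ A ∈ matrixSet R, A * A = 1 → A = 1 ∨ A = -1 := by
    rintro _ ⟨a, ha, rfl⟩ haa
    exact invol hf h2 h3 (hkey a ha) haa
  obtain ⟨a, ha, b, hb, hab⟩ : ∃ a ∈ R, ∃ b ∈ R, a * b ≠ b * a := by
    by_contra hcon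
    push Not at hcon
    exact not_absIrred_of_comm (by omega) hcon habs
  have hXY : (a : Matrix ι ι F) * (b : Matrix ι ι F) ≠ (b : Matrix ι ι F) * (a : Matrix ι ι F) := by
    intro h
    apply hab
    apply Units.ext
    rw [Units.val_mul, Units.val_mul, h]
  obtain ⟨h5, h6, h7, h8⟩ := small hmul h4 hinv (X := (b : Matrix ι ι F)) (Y := (a : Matrix ι ι F))
    ⟨b, hb, rfl⟩ ⟨a, ha, rfl⟩ hXY
  exact ⟨_, _, h5, h6, h7, ⟨b, hb, rfl⟩, ⟨a, ha, rfl⟩, h8⟩

/-- class 6, dimension at least five -/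
theorem not_le_c6 [Fintype F] (hf : IsSymplecticForm f) (hG : ∀ u a, stv hf u a ∈ G)
    (hq : Odd (Fintype.card F)) (h5 : 5 ≤ Fintype.card ι) {R : Subgroup (GL ι F)}
    (hR : IsSymplecticTypeGroup 2 R) (habs : ActsAbsolutelyIrreducibly (matrixSet R)) :
    ¬ G ≤ subgroupNormalizer R := by
  intro hle
  have : Nonempty ι := Fintype.card_pos_iff.mp (by omega)
  obtain ⟨X, Y, hxx, hyy, hyx, -, -, hall⟩ :=
    structure_of_normalized hf hG hq (by omega) hR habs hle
  obtain ⟨v, hv⟩ := exists_ne_zero (ι := ι) (F := F)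
  set W : Submodule F (ι → F) :=
    Submodule.span F (Set.range ![v, X *ᵥ v, Y *ᵥ v, X *ᵥ (Y *ᵥ v)]) with hW
  have m0 : v ∈ W := Submodule.subset_span ⟨0, rfl⟩
  have m1 : X *ᵥ v ∈ W := Submodule.subset_span ⟨1, rfl⟩
  have m2 : Y *ᵥ v ∈ W := Submodule.subset_span ⟨2, rfl⟩
  have m3 : X *ᵥ (Y *ᵥ v) ∈ W := Submodule.subset_span ⟨3, rfl⟩
  have xx : ∀ w, X *ᵥ (X *ᵥ w) = -w := fun w => by
    rw [Matrix.mulVec_mulVec, hxx, Matrix.neg_mulVec, Matrix.one_mulVec]
  have yy : ∀ w, Y *ᵥ (Y *ᵥ w) = -w := fun w => by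
    rw [Matrix.mulVec_mulVec, hyy, Matrix.neg_mulVec, Matrix.one_mulVec]
  have yx : ∀ w, Y *ᵥ (X *ᵥ w) = -(X *ᵥ (Y *ᵥ w)) := fun w => by
    rw [Matrix.mulVec_mulVec, hyx, Matrix.neg_mulVec, Matrix.mulVec_mulVec]
  have hXW : ∀ w ∈ W, X *ᵥ w ∈ W := by
    intro w hw
    refine Submodule.span_induction (p := fun w _ => X *ᵥ w ∈ W) ?_ ?_ ?_ ?_ hw
    · rintro _ ⟨i, rfl⟩
      fin_cases i
      · exact m1
      · show X *ᵥ (X *ᵥ v) ∈ W
        rw [xx]; exact W.neg_mem m0
      · exact m3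
      · show X *ᵥ (X *ᵥ (Y *ᵥ v)) ∈ W
        rw [xx]; exact W.neg_mem m2
    · rw [Matrix.mulVec_zero]; exact W.zero_mem
    · intro a b _ _ ha hb
      rw [Matrix.mulVec_add]; exact W.add_mem ha hb
    · intro c a _ ha
      rw [Matrix.mulVec_smul]; exact W.smul_mem c ha
  have hYW : ∀ w ∈ W, Y *ᵥ w ∈ W := by
    intro w hw
    refine Submodule.span_induction (p := fun w _ => Y *ᵥ w ∈ W) ?_ ?_ ?_ ?_ hw
    · rintro _ ⟨i, rfl⟩
      fin_cases i
      · exact m2
      · show Y *ᵥ (X *ᵥ v) ∈ W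
        rw [yx]; exact W.neg_mem m3
      · show Y *ᵥ (Y *ᵥ v) ∈ W
        rw [yy]; exact W.neg_mem m0
      · show Y *ᵥ (X *ᵥ (Y *ᵥ v)) ∈ W
        rw [yx, yy, Matrix.mulVec_neg, neg_neg]; exact m1
    · rw [Matrix.mulVec_zero]; exact W.zero_mem
    · intro a b _ _ ha hb
      rw [Matrix.mulVec_add]; exact W.add_mem ha hb
    · intro c a _ ha
      rw [Matrix.mulVec_smul]; exact W.smul_mem c ha
  have hinv : Inv R W := by
    intro z hz w hw
    rcases hall (z : Matrix ι ι F) ⟨z, hz, rfl⟩ with h | h | h | h | h | h | h | h <;> rw [h]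
    · rw [Matrix.one_mulVec]; exact hw
    · rw [Matrix.neg_mulVec, Matrix.one_mulVec]; exact W.neg_mem hw
    · exact hXW w hw
    · rw [Matrix.neg_mulVec]; exact W.neg_mem (hXW w hw)
    · exact hYW w hw
    · rw [Matrix.neg_mulVec]; exact W.neg_mem (hYW w hw)
    · rw [← Matrix.mulVec_mulVec]; exact hXW _ (hYW w hw)
    · rw [Matrix.neg_mulVec, ← Matrix.mulVec_mulVec]; exact W.neg_mem (hXW _ (hYW w hw))
  have hfr : Module.finrank F W ≤ 4 := by
    have := finrank_range_le_card (R := F) ![v, X *ᵥ v, Y *ᵥ v, X *ᵥ (Y *ᵥ v)]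
    simpa [Set.finrank] using this
  rcases (actsIrreducibly_iff.mp habs.1) W hinv with h | h
  · rw [h] at m0
    exact hv ((Submodule.mem_bot F).mp m0)
  · rw [h, finrank_top, Module.finrank_fintype_fun_eq_card] at hfr
    omega

end Cfsg.Agent.Lib.Helper97SpPc6
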