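import Cfsg.Agent.Lib.Helper97SpTv
import Cfsg.Agent.Lib.Helper97GForms

set_option autoImplicit false
set_option linter.unusedSectionVars false

/-! symplectic transvections; the symplectic group is contained in no member of the geometric classes -/

namespace Cfsg.Agent.Lib.Helper97SpProper

open Cfsg Cfsg.Geo Matrix Cfsg.Agent.Lib.Helper97GBase Cfsg.Agent.Lib.Helper97GSubfield
  Cfsg.Agent.Lib.Helper97SpTv Cfsg.Agent.Lib.Helper97GForms
open scoped MatrixGroups

variable {ι : Type} [Fintype ι] [DecidableEq ι] {F : Type*} [Field F]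
variable {f : (ι → F) → (ι → F) → F}

/-- the functional `v ↦ a * f v u` as a vector -/
def sφ (f : (ι → F) → (ι → F) → F) (u : ι → F) (a : F) : ι → F := fun j => a * f (Pi.single j 1) u

lemma sφ_dot (hf : IsSymplecticForm f) (u : ι → F) (a : F) (v : ι → F) : sφ f u a ⬝ᵥ v = a * f v u := by
  have h := (sesq_of_bilinear hf.bilinear).left_sum v u
  rw [h, Finset.mul_sum]
  unfold dotProduct sφ
  apply Finset.sum_congr rfl
  intro i _
  ring

/-- the symplectic transvection `v ↦ v + (a * f v u) • u` -/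
def stv (hf : IsSymplecticForm f) (u : ι → F) (a : F) : GL ι F :=
  tv u (sφ f u a) (by rw [sφ_dot hf, hf.alternating, mul_zero])

lemma stv_mulVec (hf : IsSymplecticForm f) (u : ι → F) (a : F) (v : ι → F) :
    (stv hf u a : Matrix ι ι F) *ᵥ v = v + (a * f v u) • u := by
  unfold stv
  rw [tv_mulVec, sφ_dot hf]

lemma stv_fixes (hf : IsSymplecticForm f) (u : ι → F) (a : F) (x y : ι → F) :
    f ((stv hf u a : Matrix ι ι F) *ᵥ x) ((stv hf u a : Matrix ι ι F) *ᵥ y) = f x y := by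
  have hb := hf.bilinear
  rw [stv_mulVec, stv_mulVec, hb.add_left, hb.add_right, hb.add_right, hb.smul_left, hb.smul_left,
    hb.smul_right, hb.smul_right, hf.alternating, hf.skew u y]
  ring

lemma sφ_ne_zero (hf : IsSymplecticForm f) {u : ι → F} (hu : u ≠ 0) {a : F} (ha : a ≠ 0) :
    sφ f u a ≠ 0 := by
  intro h0
  obtain ⟨x, hx⟩ := (hf.nondegenerate u hu).1
  have := sφ_dot hf u a x
  rw [h0, zero_dotProduct] at this
  exact mul_ne_zero ha hx this.symm

variable {G : Subgroup (GL ι F)}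

/-- class 1 -/
lemma not_le_stab (hf : IsSymplecticForm f) (hG : ∀ u a, stv hf u a ∈ G) {W : Submodule F (ι → F)}
    (h0 : W ≠ ⊥) (h1 : W ≠ ⊤) : ¬ G ≤ subspaceStabilizer W := by
  intro hle
  obtain ⟨w, hw, hw0⟩ := (Submodule.ne_bot_iff W).mp h0
  obtain ⟨x, hx⟩ : ∃ x, x ∉ W := by
    by_contra hcon
    push Not at hcon
    exact h1 (eq_top_iff.mpr fun v _ => hcon v)
  obtain ⟨y, hy⟩ := (hf.nondegenerate w hw0).2
  obtain ⟨u, huW, hu⟩ : ∃ u, u ∉ W ∧ f w u ≠ 0 := by
    by_cases hwx : f w x = 0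
    · by_cases hyW : y ∈ W
      · refine ⟨x + y, fun h => hx ((W.add_mem_iff_left hyW).mp h), ?_⟩
        rw [hf.bilinear.add_right, hwx, zero_add]
        exact hy
      · exact ⟨y, hyW, hy⟩
    · exact ⟨x, hx, hwx⟩
  have h2 := (mem_subspaceStabilizer_iff.mp (hle (hG u 1)) w).mp hw
  rw [stv_mulVec, one_mul] at h2
  have h3 : (f w u) • u ∈ W := (W.add_mem_iff_right hw).mp h2
  exact huW ((W.smul_mem_iff hu).mp h3)

lemma ne_top_of_singular [Nonempty ι] (hf : IsSymplecticForm f) {W : Submodule F (ι → F)}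
    (hW : IsTotallySingularFor f W) : W ≠ ⊤ := by
  rintro rfl
  obtain ⟨i₀⟩ := (inferInstance : Nonempty ι)
  have hv0 : (Pi.single i₀ 1 : ι → F) ≠ 0 := by
    intro h0
    have := congrFun h0 i₀
    simp at this
  obtain ⟨x, hx⟩ := (hf.nondegenerate _ hv0).1
  exact hx (hW _ Submodule.mem_top _ Submodule.mem_top)

/-- a vector lying in one member of a decomposition with nonzero components in two members -/
lemma not_mem_of_two {t m : ℕ} {D : Fin t → Submodule F (ι → F)} (hD : IsMDecomposition m D)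
    {i j : Fin t} (hij : i ≠ j) {x y : ι → F} (hx : x ∈ D i) (hy : y ∈ D j) (hx0 : x ≠ 0) (hy0 : y ≠ 0)
    (k : Fin t) : x + y ∉ D k := by
  intro hk
  by_cases hki : k = i
  · subst hki
    have h1 : y ∈ D k := (Submodule.add_mem_iff_right _ hx).mp hk
    exact hy0 (Submodule.disjoint_def.mp (hD.indep.pairwiseDisjoint hij) y h1 hy)
  · -- x = (x + y) - y lies in the span of the other members
    have hdisj := hD.indep i
    have h1 : x ∈ ⨆ l, ⨆ (_ : l ≠ i), D l := by
      have e : x = (x + y) - y := by abel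
      rw [e]
      apply Submodule.sub_mem
      · exact Submodule.mem_iSup_of_mem k (Submodule.mem_iSup_of_mem hki hk)
      · exact Submodule.mem_iSup_of_mem j (Submodule.mem_iSup_of_mem (Ne.symm hij) hy)
    exact hx0 (Submodule.disjoint_def.mp hdisj x hx h1)

/-- class 2, non-degenerate decompositions -/
lemma not_le_dec (hf : IsSymplecticForm f) (hG : ∀ u a, stv hf u a ∈ G) {t m : ℕ}
    {D : Fin t → Submodule F (ι → F)} (hD : IsNondegenerateMDecomposition f m D) :
    ¬ G ≤ decompositionStabilizer D := by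
  intro hle
  have ht := hD.decomp.two_le
  let i0 : Fin t := ⟨0, by omega⟩
  let i1 : Fin t := ⟨1, by omega⟩
  have h01 : i0 ≠ i1 := by
    intro h
    have := congrArg Fin.val h
    simp [i0, i1] at this
  have hex : ∀ i, ∃ d ∈ D i, d ≠ 0 := by
    intro i
    have h1 : D i ≠ ⊥ := by
      intro hb
      have := hD.decomp.finrank_eq i
      rw [hb, finrank_bot] at this
      have := hD.decomp.pos
      omega
    exact (Submodule.ne_bot_iff _).mp h1
  obtain ⟨d0, hd0, hd00⟩ := hex i0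
  obtain ⟨d1, hd1, hd10⟩ := hex i1
  obtain ⟨v, hv, hvd⟩ := (hD.nondegenerate i0 d0 hd0 hd00).1
  obtain ⟨σ, hσ⟩ := hle (hG (d0 + d1) 1)
  have h1 : (stv hf (d0 + d1) 1 : Matrix ι ι F) *ᵥ v ∈ D (σ i0) := by
    rw [← hσ i0]
    exact ⟨v, hv, Matrix.toLin'_apply _ _⟩
  rw [stv_mulVec, one_mul, hf.bilinear.add_right, hD.orthogonal i0 i1 h01 v hv d1 hd1, add_zero, smul_add,
    ← add_assoc] at h1
  refine not_mem_of_two hD.decomp h01 ((D i0).add_mem hv ((D i0).smul_mem _ hd0))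
    ((D i1).smul_mem (f v d0) hd1) ?_ (smul_ne_zero hvd hd10) _ h1
  intro h0
  have h2 : f (v + f v d0 • d0) d0 = 0 := by
    rw [h0]
    have := hf.bilinear.smul_left 0 0 d0
    simpa using this
  rw [hf.bilinear.add_left, hf.bilinear.smul_left, hf.alternating, mul_zero, add_zero] at h2
  exact hvd h2

/-- class 2, pairs of totally singular subspaces -/
lemma not_le_pair (hf : IsSymplecticForm f) (hG : ∀ u a, stv hf u a ∈ G) {m : ℕ} (hm : 2 ≤ m)
    {D : Fin 2 → Submodule F (ι → F)} (hD : IsMDecomposition m D)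
    (hts : ∀ i, IsTotallySingularFor f (D i)) : ¬ G ≤ decompositionStabilizer D := by
  intro hle
  have hb := hf.bilinear
  have h01 : (0 : Fin 2) ≠ 1 := by decide
  obtain ⟨d0, hd0, hd00⟩ : ∃ d ∈ D 0, d ≠ 0 := by
    have h1 : D 0 ≠ ⊥ := by
      intro hb
      have := hD.finrank_eq 0
      rw [hb, finrank_bot] at this
      omega
    exact (Submodule.ne_bot_iff _).mp h1
  -- a vector of `D 1` orthogonal to `d0`
  obtain ⟨d1, hd1, hd10, hd01⟩ : ∃ d ∈ D 1, d ≠ 0 ∧ f d d0 = 0 := by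
    let L : D 1 →ₗ[F] F :=
      { toFun := fun d => f d d0
        map_add' := fun x y => hb.add_left _ _ _
        map_smul' := fun c x => hb.smul_left _ _ _ }
    have h2 : LinearMap.ker L ≠ ⊥ := by
      apply LinearMap.ker_ne_bot_of_finrank_lt
      rw [Module.finrank_self, hD.finrank_eq 1]
      omega
    obtain ⟨d, hd, hd0'⟩ := Submodule.exists_mem_ne_zero_of_ne_bot h2
    exact ⟨d, d.2, fun h => hd0' (Subtype.ext h), hd⟩
  -- a vector of `D 1` not orthogonal to `d0`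
  obtain ⟨v, hv, hvd⟩ : ∃ v ∈ D 1, f v d0 ≠ 0 := by
    by_contra hcon
    push Not at hcon
    obtain ⟨x, hx⟩ := (hf.nondegenerate d0 hd00).1
    apply hx
    have hx' : x ∈ iSup D := by rw [hD.iSup_eq_top]; exact Submodule.mem_top
    refine Submodule.iSup_induction D (motive := fun x => f x d0 = 0) hx' ?_ ?_ ?_
    · intro i y hy
      fin_cases i
      · exact hts 0 y hy d0 hd0
      · exact hcon y hy
    · have := hb.smul_left 0 0 d0
      simpa using this
    · intro y z hy hz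
      rw [hb.add_left, hy, hz, add_zero]
  obtain ⟨σ, hσ⟩ := hle (hG (d0 + d1) 1)
  have h1 : (stv hf (d0 + d1) 1 : Matrix ι ι F) *ᵥ v ∈ D (σ 1) := by
    rw [← hσ 1]
    exact ⟨v, hv, Matrix.toLin'_apply _ _⟩
  rw [stv_mulVec, one_mul, hb.add_right, hts 1 v hv d1 hd1, add_zero, smul_add, add_left_comm] at h1
  refine not_mem_of_two hD h01 ((D 0).smul_mem (f v d0) hd0) ((D 1).add_mem hv ((D 1).smul_mem _ hd1))
    (smul_ne_zero hvd hd00) ?_ _ h1
  intro h0
  have h2 : f (v + f v d0 • d1) d0 = 0 := by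
    rw [h0]
    have := hb.smul_left 0 0 d0
    simpa using this
  rw [hb.add_left, hb.smul_left, hd01, mul_zero, add_zero] at h2
  exact hvd h2

lemma exists_ne_zero [Nonempty ι] : ∃ u : ι → F, u ≠ 0 := by
  obtain ⟨i₀⟩ := (inferInstance : Nonempty ι)
  refine ⟨Pi.single i₀ 1, fun h0 => ?_⟩
  have := congrFun h0 i₀
  simp at this

/-- class 3 -/
lemma not_le_fieldNormalizer (hf : IsSymplecticForm f) (hG : ∀ u a, stv hf u a ∈ G)
    (hn : 3 ≤ Fintype.card ι) {r : ℕ} (hr : r ≠ 1) (K : Subalgebra F (Matrix ι ι F))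
    (hK : IsFieldSubalgebra r K) : ¬ G ≤ subalgebraNormalizer K := by
  intro hle
  have : Nonempty ι := Fintype.card_pos_iff.mp (by omega)
  obtain ⟨u, hu⟩ := exists_ne_zero (ι := ι) (F := F)
  exact tv_not_mem_fieldNormalizer hn hr K hK u (sφ f u 1) _ hu (sφ_ne_zero hf hu one_ne_zero) (hle (hG u 1))

/-- class 4 -/
lemma not_le_tensor (hf : IsSymplecticForm f) (hG : ∀ u a, stv hf u a ∈ G) {d e : ℕ} (hd : 2 ≤ d)
    (he : 2 ≤ e) (ε : ι ≃ Fin d × Fin e) (P : GL ι F) : ¬ G ≤ tensorProductSubgroup d e ε P := by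
  intro hle
  have : Nonempty ι := ⟨ε.symm (⟨0, by omega⟩, ⟨0, by omega⟩)⟩
  obtain ⟨u, hu⟩ := exists_ne_zero (ι := ι) (F := F)
  exact tv_not_mem_tensor hd he ε P u (sφ f u 1) _ hu (sφ_ne_zero hf hu one_ne_zero) (hle (hG u 1))

/-- class 5 -/
lemma not_le_subfield [Fintype F] (hf : IsSymplecticForm f) (hG : ∀ u a, stv hf u a ∈ G)
    (hn : 3 ≤ Fintype.card ι) {F₁ : Subfield F} (hF₁ : F₁ ≠ ⊤) (C : GL ι F) :
    ¬ G ≤ subfieldSubgroup F₁ C := by
  intro hle
  have : Nonempty ι := Fintype.card_pos_iff.mp (by omega)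
  obtain ⟨u, hu⟩ := exists_ne_zero (ι := ι) (F := F)
  obtain ⟨τ, hτ, l, hl⟩ := exists_moved hF₁
  have hl0 : l ≠ 0 := by
    rintro rfl
    exact hl (map_zero τ)
  have h1 := tv_fixed hn τ hτ C u (sφ f u 1) _ (hle (hG u 1))
  have h2 := tv_fixed hn τ hτ C u (sφ f u l) _ (hle (hG u l))
  have hu' : ((C⁻¹ : GL ι F) : Matrix ι ι F) *ᵥ u ≠ 0 := by
    intro h0
    apply hu
    have := congrArg (fun w => (C : Matrix ι ι F) *ᵥ w) h0
    simpa using this
  have hφ' : sφ f u 1 ᵥ* (C : Matrix ι ι F) ≠ 0 := by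
    intro h0
    apply sφ_ne_zero hf hu one_ne_zero
    have := congrArg (fun w => w ᵥ* ((C⁻¹ : GL ι F) : Matrix ι ι F)) h0
    simpa [Matrix.vecMul_vecMul, iv] using this
  obtain ⟨i, hi⟩ := Function.ne_iff.mp hu'
  obtain ⟨j, hj⟩ := Function.ne_iff.mp hφ'
  rw [Pi.zero_apply] at hi hj
  have e : sφ f u l = l • sφ f u 1 := by
    ext k
    simp [sφ]
  have h3 := h1 i j
  have h4 := h2 i j
  rw [e, Matrix.smul_vecMul, Pi.smul_apply, smul_eq_mul, mul_left_comm, map_mul, h3] at h4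
  exact hl (mul_right_cancel₀ (mul_ne_zero hi hj) h4)

/-- class 8 -/
lemma not_le_quad [Fintype F] (hf : IsSymplecticForm f) (hG : ∀ u a, stv hf u a ∈ G)
    (hn : 3 ≤ Fintype.card ι) (h2 : (2 : F) = 0) {Q : (ι → F) → F} (hQ : IsNondegenerateQuadraticForm Q)
    (hpol : ∀ u v, QuadraticMap.polar Q u v = f u v) : ¬ G ≤ quadSimilarityGroup Q := by
  intro hle
  have hb := hf.bilinear
  have : Nonempty ι := Fintype.card_pos_iff.mp (by omega)
  have hQadd : ∀ x y, Q (x + y) = Q x + Q y + f x y := by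
    intro x y
    rw [← hpol]
    unfold QuadraticMap.polar
    ring
  -- a singular vector
  obtain ⟨u, hu0, hQu⟩ : ∃ u, u ≠ 0 ∧ Q u = 0 := by
    obtain ⟨v₁, hv₁⟩ := exists_ne_zero (ι := ι) (F := F)
    by_cases h1 : Q v₁ = 0
    · exact ⟨v₁, hv₁, h1⟩
    -- a vector orthogonal to `v₁` and independent of it
    obtain ⟨φ₁, hφ₁⟩ : ∃ φ₁ : ι → F, φ₁ ⬝ᵥ v₁ = 1 := by
      obtain ⟨i, hi⟩ := Function.ne_iff.mp hv₁
      rw [Pi.zero_apply] at hi
      exact ⟨Pi.single i (v₁ i)⁻¹, by rw [single_dotProduct, inv_mul_cancel₀ hi]⟩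
    obtain ⟨v₂, hv₂, ha, hbb⟩ := exists_ker_two hn (dotL (sφ f v₁ 1)) (dotL φ₁)
    rw [dotL_apply, sφ_dot hf, one_mul] at ha
    rw [dotL_apply] at hbb
    have hchar : ringChar F = 2 := by
      have : CharP F 2 := CharTwo.of_one_ne_zero_of_two_eq_zero one_ne_zero h2
      exact ringChar.eq F 2
    obtain ⟨c, hc⟩ := FiniteField.isSquare_of_char_two hchar (Q v₂ / Q v₁)
    refine ⟨v₂ + c • v₁, ?_, ?_⟩
    · intro h0
      have h3 := congrArg (fun w => φ₁ ⬝ᵥ w) h0
      simp only [dotProduct_add, dotProduct_smul, hbb, hφ₁, dotProduct_zero, smul_eq_mul, mul_one,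
        zero_add] at h3
      rw [h3, zero_smul, add_zero] at h0
      exact hv₂ h0
    · rw [hQadd, hQ.smul, hb.smul_right, ha, mul_zero, add_zero, pow_two, ← hc, div_mul_cancel₀ _ h1,
        ← two_mul, h2, zero_mul]
  obtain ⟨c, hc⟩ := hle (hG u 1)
  have hval : ∀ v, Q ((stv hf u 1 : Matrix ι ι F) *ᵥ v) = Q v + f v u ^ 2 := by
    intro v
    rw [stv_mulVec, one_mul, hQadd, hQ.smul, hQu, mul_zero, add_zero, hb.smul_right, pow_two]
  have hrel : ∀ v, ((c : F) - 1) * Q v = f v u ^ 2 := by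
    intro v
    have := hc v
    rw [hval] at this
    linear_combination -this
  have hc1 : (c : F) = 1 := by
    by_contra hne
    obtain ⟨x, hx⟩ := (hf.nondegenerate u hu0).1
    have e1 := hrel (x + u)
    have e2 := hrel x
    have e3 := hrel u
    rw [hQadd, hb.add_left, hf.alternating] at e1
    rw [hQu, hf.alternating] at e3
    rw [hQu] at e1
    have e4 : ((c : F) - 1) * f x u = 0 := by linear_combination e1 - e2
    rcases mul_eq_zero.mp e4 with h | h
    · exact hne (sub_eq_zero.mp h)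
    · exact hx h
  obtain ⟨x, hx⟩ := (hf.nondegenerate u hu0).1
  have := hrel x
  rw [hc1, sub_self, zero_mul] at this
  exact hx (pow_eq_zero_iff two_ne_zero |>.mp this.symm)

end Cfsg.Agent.Lib.Helper97SpProper
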