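import Cfsg.Agent.Lib.Helper97SpProper
import Cfsg.Agent.Lib.Helper97SpArith
import Cfsg.Agent.Lib.Helper95SpO3
import Cfsg.Agent.Lib.Helper97OMain
import Cfsg.Agent.Lib.Helper97AschSubfield
import Cfsg.Agent.Lib.Helper96SpDefs
import Cfsg.Agent.S5648

set_option autoImplicit false
set_option linter.unusedSectionVars false

/-! From the general Aschbacher theorem for symplectic groups (`SpAlt`) to the maximal subgroups of
`Sp_{2m}(q)`: containments become equalities, and the arithmetic of the parameters. -/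

namespace Cfsg.Agent.Lib.Helper97SpWrap

open Cfsg Cfsg.Geo Matrix Cfsg.Agent.Lib.Helper97GBase Cfsg.Agent.Lib.Helper96SpDefs
  Cfsg.Agent.Lib.Helper97SpProper Cfsg.Agent.Lib.Helper97SpArith Cfsg.Agent.Lib.Helper95SpStd
open scoped MatrixGroups Kronecker

variable {F : Type*} [Field F]

lemma two_eq_zero [Fintype F] (hq : ¬ Odd (Fintype.card F)) : (2 : F) = 0 := by
  rw [Nat.not_odd_iff] at hq
  have hchar : ringChar F = 2 := FiniteField.even_card_iff_char_two.mpr hq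
  have := ringChar.Nat.cast_ringChar (R := F)
  rw [hchar] at this
  exact_mod_cast this

/-- over the field of order two a decomposition into hyperbolic planes is stabilised by an orthogonal
group -/
theorem planes_two [Fintype F] (m : ℕ) (hq : Fintype.card F = 2) {t : ℕ}
    (D : Fin t → Submodule F (Fin m ⊕ Fin m → F))
    (hD : IsNondegenerateMDecomposition (sympForm m F) 2 D) :
    ∃ Q : (Fin m ⊕ Fin m → F) → F, IsNondegenerateQuadraticForm Q ∧
      (∀ u v, QuadraticMap.polar Q u v = sympForm m F u v) ∧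
      decompositionStabilizer D ⊓ spGL m F ≤ quadSimilarityGroup Q := by
  classical
  have two : ∀ a : F, a = 0 ∨ a = 1 := by
    intro a
    by_contra hcon
    push Not at hcon
    have h3 : ({0, 1, a} : Finset F).card = 3 := by
      rw [Finset.card_insert_of_notMem, Finset.card_insert_of_notMem, Finset.card_singleton]
      · simpa using hcon.2.symm
      · simp only [Finset.mem_insert, Finset.mem_singleton, not_or]
        exact ⟨zero_ne_one, hcon.1.symm⟩
    have := Finset.card_le_univ ({0, 1, a} : Finset F)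
    omega
  have hex : ∀ i, ∃ e ∈ D i, ∃ f ∈ D i, stdB F m e f = 1 ∧
      ∀ y ∈ D i, y = stdB F m y f • e + stdB F m y e • f := fun i =>
    Cfsg.Agent.S5648.exists_basis two (stdB_isAlt m) (D i) (hD.decomp.finrank_eq i)
      (fun w hw hw0 => (hD.nondegenerate i w hw hw0).2)
  choose e he f hf hef hexp using hex
  have hdat : Cfsg.Agent.S5648.Dat (stdB F m) D e f :=
    { two := two
      alt := stdB_isAlt m
      he := he
      hf := hf
      hef := hef
      hexp := hexp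
      orth := fun i j hij u hu v hv => hD.orthogonal i j hij u hu v hv
      span := hD.decomp.iSup_eq_top }
  have hpol : ∀ u v, QuadraticMap.polar (Cfsg.Agent.S5648.QQ (stdB F m) e f) u v
      = Cfsg.sympForm m F u v := by
    intro u v
    rw [QuadraticMap.polar, hdat.QQ_add, stdB_apply]
    ring
  have hpol' : QuadraticMap.polar (Cfsg.Agent.S5648.QQ (stdB F m) e f) = Cfsg.sympForm m F := by
    funext u v
    exact hpol u v
  have hQ : Cfsg.Geo.IsNondegenerateQuadraticForm (Cfsg.Agent.S5648.QQ (stdB F m) e f) :=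
    { smul := Cfsg.Agent.S5648.QQ_smul
      polar_bilinear := by rw [hpol']; exact (sympForm_isSymplectic m).bilinear
      nondegenerate := by rw [hpol']; exact (sympForm_isSymplectic m).nondegenerate }
  refine ⟨_, hQ, hpol, ?_⟩
  rintro g ⟨hg1, hg2⟩
  obtain ⟨σ, hσ⟩ := Cfsg.Agent.Lib.Helper96Decomp.exists_perm_of_mem_stab hg1
  refine ⟨1, fun v => ?_⟩
  rw [Units.val_one, one_mul]
  have hg3 : ∀ x y, stdB F m ((g : Matrix (Fin m ⊕ Fin m) (Fin m ⊕ Fin m) F).mulVec x)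
      ((g : Matrix (Fin m ⊕ Fin m) (Fin m ⊕ Fin m) F).mulVec y) = stdB F m x y :=
    fun x y => (mem_spGL_iff m g).1 hg2 x y
  refine hdat.QQ_map (fun x => (g : Matrix (Fin m ⊕ Fin m) (Fin m ⊕ Fin m) F).mulVec x) hg3 σ
    ?_ ?_ v
  · intro i y hy
    refine ⟨((g⁻¹ : GL _ F) : Matrix _ _ F).mulVec y, ?_, ?_⟩
    · rw [hσ i, Cfsg.Agent.Lib.Helper95Basic.mulVec_inv_mulVec]
      exact hy
    · exact Cfsg.Agent.Lib.Helper95Basic.mulVec_inv_mulVec g y
  · intro i x hx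
    exact (hσ i x).1 hx

lemma stv_mem_spGL (m : ℕ) (u : Fin m ⊕ Fin m → F) (a : F) :
    stv (sympForm_isSymplectic m) u a ∈ spGL m F :=
  (mem_spGL_iff m _).2 (fun x y => stv_fixes (sympForm_isSymplectic m) u a x y)

lemma fixes_of_le (m : ℕ) {H : Subgroup (GL (Fin m ⊕ Fin m) F)} (hH : H ≤ spGL m F) :
    FixesForm (matrixSet H) (sympForm m F) := by
  rintro _ ⟨g, hg, rfl⟩ u v
  exact (mem_spGL_iff m g).1 (hH hg) u v

lemma five_le_of_odd {q : ℕ} (h1 : Odd q) (h2 : 2 ≤ q) (h3 : q ≠ 3) : 5 ≤ q := by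
  obtain ⟨k, rfl⟩ := h1
  omega

/-- the maximal subgroups of `Sp_{2m}(q)` -/
theorem sp_wrap [Fintype F] (m : ℕ) (hm : 2 ≤ m) (H : Subgroup (GL (Fin m ⊕ Fin m) F))
    (hH : IsMaximalIn (spGL m F) H)
    (hmain : SpAlt (sympForm m F) H ∨ InSymplecticResidualClass H) :
    (∃ W : Submodule F (Fin m ⊕ Fin m → F), W ≠ ⊥ ∧ IsTotallySingularFor (sympForm m F) W ∧
      H = subspaceStabilizer W ⊓ spGL m F) ∨
    (∃ W : Submodule F (Fin m ⊕ Fin m → F), W ≠ ⊥ ∧ IsNondegenerateOn (sympForm m F) W ∧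
      Module.finrank F W < m ∧ H = subspaceStabilizer W ⊓ spGL m F) ∨
    (∃ (t k : ℕ) (D : Fin t → Submodule F (Fin m ⊕ Fin m → F)), t * k = 2 * m ∧ Even k ∧
      (k = 2 → 3 ≤ Fintype.card F) ∧ IsNondegenerateMDecomposition (sympForm m F) k D ∧
      H = decompositionStabilizer D ⊓ spGL m F) ∨
    (Odd (Fintype.card F) ∧ ∃ D : Fin 2 → Submodule F (Fin m ⊕ Fin m → F), IsMDecomposition m D ∧
      (∀ i, IsTotallySingularFor (sympForm m F) (D i)) ∧ H = decompositionStabilizer D ⊓ spGL m F) ∨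
    (∃ (r : ℕ) (K : Subalgebra F (Matrix (Fin m ⊕ Fin m) (Fin m ⊕ Fin m) F)), r.Prime ∧ r ∣ m ∧
      IsFieldSubalgebra r K ∧ IsSelfAdjointFor (sympForm m F) K ∧
      (∀ k ∈ K, ∀ v : (Fin m ⊕ Fin m → F), (sympForm m F) (Matrix.mulVec k v) v = 0) ∧
      H = subalgebraNormalizer K ⊓ spGL m F) ∨
    (Odd (Fintype.card F) ∧ ∃ K : Subalgebra F (Matrix (Fin m ⊕ Fin m) (Fin m ⊕ Fin m) F),
      IsFieldSubalgebra 2 K ∧ IsAdjointClosedFor (sympForm m F) K ∧
      ¬ IsSelfAdjointFor (sympForm m F) K ∧ H = subalgebraNormalizer K ⊓ spGL m F) ∨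
    (Odd (Fintype.card F) ∧ ∃ (n₁ n₂ : ℕ) (e : (Fin m ⊕ Fin m) ≃ Fin n₁ × Fin n₂)
      (P : GL (Fin m ⊕ Fin m) F) (f₁ : (Fin n₁ → F) → (Fin n₁ → F) → F)
      (f₂ : (Fin n₂ → F) → (Fin n₂ → F) → F), n₁ * n₂ = 2 * m ∧ Even n₁ ∧ 3 ≤ n₂ ∧
      (n₂ = 3 → 5 ≤ Fintype.card F) ∧ IsSymplecticForm f₁ ∧ IsSymmetricForm f₂ ∧
      IsTensorFormStructure id (sympForm m F) f₁ f₂ e P ∧
      H = tensorProductSubgroup n₁ n₂ e P ⊓ spGL m F) ∨
    (∃ (F₀ : Subfield F) (r : ℕ) (P : GL (Fin m ⊕ Fin m) F) (ζ : F), r.Prime ∧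
      Fintype.card F = Nat.card F₀ ^ r ∧ ζ ≠ 0 ∧ IsFormRationalStructure (sympForm m F) F₀ ζ P ∧
      H = subfieldSubgroup F₀ P ⊓ spGL m F) ∨
    (¬ Odd (Fintype.card F) ∧ ∃ Q : (Fin m ⊕ Fin m → F) → F, IsNondegenerateQuadraticForm Q ∧
      (∀ u v : (Fin m ⊕ Fin m → F), QuadraticMap.polar Q u v = (sympForm m F) u v) ∧
      H = quadSimilarityGroup Q ⊓ spGL m F) ∨
    AltC6 (sympForm m F) H ∨ (Odd (Fintype.card F) ∧ AltWreath (sympForm m F) H) ∨
    InSymplecticResidualClass H := by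
  classical
  have hf := sympForm_isSymplectic (F := F) m
  have hG : ∀ u a, stv hf u a ∈ spGL m F := stv_mem_spGL m
  have hcard : Fintype.card (Fin m ⊕ Fin m) = 2 * m := by
    rw [Fintype.card_sum, Fintype.card_fin]; ring
  have h3 : 3 ≤ Fintype.card (Fin m ⊕ Fin m) := by omega
  have : Nonempty (Fin m ⊕ Fin m) := ⟨Sum.inl ⟨0, by omega⟩⟩
  have heq : ∀ X : Subgroup (GL (Fin m ⊕ Fin m) F), H ≤ X → ¬ spGL m F ≤ X → H = X ⊓ spGL m F :=
    fun X h1 h2 => Cfsg.Agent.Lib.Helper97OMain.eq_inf_of_le'' hH h1 h2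
  have hquad : ∀ Q : (Fin m ⊕ Fin m → F) → F, ¬ Odd (Fintype.card F) →
      IsNondegenerateQuadraticForm Q →
      (∀ u v : (Fin m ⊕ Fin m → F), QuadraticMap.polar Q u v = (sympForm m F) u v) →
      H ≤ quadSimilarityGroup Q → H = quadSimilarityGroup Q ⊓ spGL m F := fun Q hq hQ hpol hle =>
    heq _ hle (not_le_quad hf hG h3 (two_eq_zero hq) hQ hpol)
  rcases hmain with hA | hres
  swap
  · iterate 11 right
    exact hres
  rcases hA with ⟨W, hW0, hW, hle⟩ | ⟨W, hW0, hW, hfr, hle⟩ | ⟨t, k, D, hD, hle⟩ |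
    ⟨hq, k, D, hD, hts, hle⟩ | ⟨F₀, r, P, ζ, hr, hc, hζ, hrat, hle⟩ | h6 | ⟨hq, Q, hQ, hpol, hle⟩ |
    ⟨r, K, hr, hK, hsa, hz, hle⟩ | ⟨hq, K, hK, hac, hnsa, hle⟩ |
    ⟨hq, n₁, n₂, e, P, f₁, f₂, hn₂, hf₁, hf₂, hT, hle⟩ | h7
  · exact Or.inl ⟨W, hW0, hW, heq _ hle (not_le_stab hf hG hW0 (ne_top_of_singular hf hW))⟩
  · refine Or.inr (Or.inl ⟨W, hW0, hW, by omega, heq _ hle (not_le_stab hf hG hW0 ?_)⟩)
    rintro rfl
    rw [finrank_top, Module.finrank_fintype_fun_eq_card] at hfr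
    omega
  · have htk := card_of_decomp hD.decomp
    rw [hcard] at htk
    have hev : Even k := by
      have ht := hD.decomp.two_le
      have := even_finrank_of_nondegOn hf (hD.nondegenerate ⟨0, by omega⟩)
      rwa [hD.decomp.finrank_eq] at this
    by_cases hk : k = 2 ∧ Fintype.card F = 2
    · obtain ⟨rfl, hq2⟩ := hk
      obtain ⟨Q, hQ, hpol, hQle⟩ := planes_two m hq2 D hD
      have hq : ¬ Odd (Fintype.card F) := by rw [hq2]; decide
      iterate 8 right
      exact Or.inl ⟨hq, Q, hQ, hpol, hquad Q hq hQ hpol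
        (le_trans (le_inf hle hH.1.le) hQle)⟩
    · refine Or.inr (Or.inr (Or.inl ⟨t, k, D, htk, hev, ?_, hD, heq _ hle (not_le_dec hf hG hD)⟩))
      intro hk2
      have := Fintype.one_lt_card (α := F)
      have : Fintype.card F ≠ 2 := fun h => hk ⟨hk2, h⟩
      omega
  · have htk := card_of_decomp hD
    rw [hcard] at htk
    obtain rfl : k = m := by omega
    exact Or.inr (Or.inr (Or.inr (Or.inl ⟨hq, D, hD, hts, heq _ hle (not_le_pair hf hG hm hD hts)⟩)))
  · iterate 7 right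
    exact Or.inl ⟨F₀, r, P, ζ, hr, hc, hζ, hrat, heq _ hle (not_le_subfield hf hG h3
      (Cfsg.Agent.Lib.Helper97AschSubfield.subfield_ne_top_of_card hr hc) P)⟩
  · iterate 9 right
    exact Or.inl h6
  · iterate 8 right
    exact Or.inl ⟨hq, Q, hQ, hpol, hquad Q hq hQ hpol hle⟩
  · iterate 4 right
    refine Or.inl ⟨r, K, hr, ?_, hK, hsa, hz, heq _ hle
      (not_le_fieldNormalizer hf hG h3 hr.ne_one K hK)⟩
    have := two_mul_dvd hf hK hsa hz
    rw [hcard] at this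
    exact Nat.dvd_of_mul_dvd_mul_left (by norm_num) this
  · iterate 5 right
    exact Or.inl ⟨hq, K, hK, hac, hnsa, heq _ hle
      (not_le_fieldNormalizer hf hG h3 (by norm_num) K hK)⟩
  · iterate 6 right
    have hn : n₁ * n₂ = 2 * m := by
      have := Fintype.card_congr e
      rw [hcard, Fintype.card_prod, Fintype.card_fin, Fintype.card_fin] at this
      exact this.symm
    have hev : Even n₁ := by
      by_contra hodd
      rw [Nat.not_even_iff_odd] at hodd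
      exact Cfsg.Agent.Lib.Helper97GForms.no_symplectic (by rwa [Fintype.card_fin]) f₁ hf₁
    have hn₁ : 2 ≤ n₁ := by
      obtain ⟨j, rfl⟩ := hev
      rcases Nat.eq_zero_or_pos j with rfl | hj
      · simp at hn; omega
      · omega
    have hHeq := heq _ hle (not_le_tensor hf hG hn₁ (by omega) e P)
    refine Or.inl ⟨hq, n₁, n₂, e, P, f₁, f₂, hn, hev, hn₂, ?_, hf₁, hf₂, hT, hHeq⟩
    rintro rfl
    apply five_le_of_odd hq Fintype.one_lt_card
    intro hq3
    obtain ⟨K, hK1, hK2⟩ := Cfsg.Agent.Lib.Helper95SpO3.sp_tensor_O3 m (by omega) hq3 n₁ e P f₁ f₂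
      hf₁ hf₂ hT
    rw [← hHeq] at hK1
    rcases hH.2 K hK1.le hK2.le with h | h
    · exact absurd h hK1.ne'
    · exact absurd h hK2.ne
  · iterate 10 right
    exact Or.inl h7

end Cfsg.Agent.Lib.Helper97SpWrap
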