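import Cfsg.Agent.Lib.Helper98AschDich
import Cfsg.Agent.Lib.Helper13AschWcoord
import Cfsg.Agent.Lib.Helper92AschWnorm

set_option autoImplicit false

/-! The tensor-induced case: several commuting conjugate components. -/

namespace Cfsg.Agent.Lib.Helper98AschC7

open Cfsg Cfsg.Geo Matrix
open Cfsg.Agent.Lib.Helper97AschBase Cfsg.Agent.Lib.Helper97AschCore
  Cfsg.Agent.Lib.Helper98AschDefs Cfsg.Agent.Lib.Helper98AschBasic Cfsg.Agent.Lib.Helper98AschAlt
  Cfsg.Agent.Lib.Helper98AschStruct Cfsg.Agent.Lib.Helper98AschDich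
open scoped MatrixGroups Kronecker

variable {n : ℕ} {F : Type*} [Field F]

/-- transport of `wreath_norm` to `GL (Fin n) F`. -/
theorem mem_wreath_of_permutes {k m : ℕ} (hm : 2 ≤ m) (hk : 1 ≤ k)
    (φ : Fin k → (Matrix (Fin m) (Fin m) F →ₐ[F] Matrix (Fin n) (Fin n) F))
    (e : Fin n ≃ (Fin k → Fin m)) (P : GL (Fin n) F)
    (hφ : ∀ i a, φ i a = (P : Matrix (Fin n) (Fin n) F) * Matrix.reindex e.symm e.symm (factor i a) *
        ((P⁻¹ : GL (Fin n) F) : Matrix (Fin n) (Fin n) F))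
    (g : GL (Fin n) F)
    (hg : ∀ i, ∃ j, ∀ a, ∃ b, (g : Matrix (Fin n) (Fin n) F) * φ i a *
      ((g⁻¹ : GL (Fin n) F) : Matrix (Fin n) (Fin n) F) = φ j b) :
    g ∈ tensorWreathSubgroup m k e P := by
  rw [mem_tensorWreathSubgroup_iff]
  apply Cfsg.Agent.Lib.Helper92AschWnorm.wreath_norm hm hk
  intro i
  obtain ⟨j, hj⟩ := hg i
  refine ⟨j, fun a => ?_⟩
  obtain ⟨b, hb⟩ := hj a
  refine ⟨b, ?_⟩
  -- the algebra isomorphism Ψ X = P * reindex X * P⁻¹
  set Ψ : Matrix (Fin k → Fin m) (Fin k → Fin m) F ≃ₐ[F] Matrix (Fin n) (Fin n) F :=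
    (Matrix.reindexAlgEquiv F F e.symm).trans (conjAlg P) with hΨ
  have hΨφ : ∀ i a, φ i a = Ψ (factor i a) := fun i a => hφ i a
  have hval : ∀ x : GL (Fin n) F,
      Ψ (((glReindex e) (P⁻¹ * x * P) : GL (Fin k → Fin m) F) : Matrix (Fin k → Fin m) (Fin k → Fin m) F) =
        (x : Matrix (Fin n) (Fin n) F) := by
    intro x
    have h1 : (Matrix.reindexAlgEquiv F F e.symm)
        (((glReindex e) (P⁻¹ * x * P) : GL (Fin k → Fin m) F) : Matrix (Fin k → Fin m) (Fin k → Fin m) F) =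
        ((P⁻¹ * x * P : GL (Fin n) F) : Matrix (Fin n) (Fin n) F) := by
      ext i j
      simp [glReindex]
    show conjAlg P ((Matrix.reindexAlgEquiv F F e.symm) _) = _
    rw [h1, conjAlg_val]
    congr 1
    group
  apply Ψ.injective
  rw [map_mul, map_mul, hval, ← hΨφ, ← hΨφ, ← hb]
  congr 1
  have h2 : ((glReindex e) (P⁻¹ * g * P))⁻¹ = (glReindex e) (P⁻¹ * g⁻¹ * P) := by
    rw [← map_inv]
    congr 1
    group
  rw [h2, hval]

theorem c7_general [Fintype F] [NeZero n] {H N T : Subgroup (GL (Fin n) F)}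
    (habsN : ActsAbsolutelyIrreducibly (matrixSet N)) (hTnorm : Nz N T)
    (hTs : ¬ T ≤ scalars (Fin n) F)
    (hconj : ∀ h ∈ H, cj h T = T ∨ ∀ x ∈ T, ∀ y ∈ cj h T, x * y = y * x)
    (hsup : (⨆ h : H, cj (h : GL (Fin n) F) T) = N) (hex : ∃ h ∈ H, cj h T ≠ T) :
    GeomAlt n F H := by
  classical
  -- commuting of distinct conjugates
  have hcc : ∀ g ∈ H, ∀ h ∈ H, cj g T ≠ cj h T → ∀ x ∈ cj g T, ∀ y ∈ cj h T, x * y = y * x := by
    intro g hg h hh hne x hx y hy
    rcases hconj (g⁻¹ * h) (H.mul_mem (H.inv_mem hg) hh) with h1 | h1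
    · exfalso
      apply hne
      have := congrArg (cj g) h1
      rw [cj_cj, mul_inv_cancel_left] at this
      exact this.symm
    · have hx' := mem_cj.1 hx
      have hy' : g⁻¹ * y * g ∈ cj (g⁻¹ * h) T := by
        rw [mem_cj]
        have := mem_cj.1 hy
        have e1 : (g⁻¹ * h)⁻¹ * (g⁻¹ * y * g) * (g⁻¹ * h) = h⁻¹ * y * h := by group
        rw [e1]
        exact this
      have := h1 _ hx' _ hy'
      have e2 : x * y = g * ((g⁻¹ * x * g) * (g⁻¹ * y * g)) * g⁻¹ := by group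
      have e3 : y * x = g * ((g⁻¹ * y * g) * (g⁻¹ * x * g)) * g⁻¹ := by group
      rw [e2, e3, this]
  -- a matrix commuting with all conjugates is scalar
  have hscal : ∀ M : Matrix (Fin n) (Fin n) F,
      (∀ h ∈ H, ∀ x ∈ cj h T, M * (x : Matrix (Fin n) (Fin n) F) = (x : Matrix (Fin n) (Fin n) F) * M) →
      ∃ c : F, M = c • (1 : Matrix (Fin n) (Fin n) F) := by
    intro M hM
    apply habsN.2
    rintro _ ⟨x, hx, rfl⟩
    let C : Subgroup (GL (Fin n) F) :=
      { carrier := {x | M * (x : Matrix (Fin n) (Fin n) F) = (x : Matrix (Fin n) (Fin n) F) * M}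
        mul_mem' := by
          intro a b ha hb
          show M * ((a * b : GL (Fin n) F) : Matrix (Fin n) (Fin n) F) = _
          have ha' : M * (a : Matrix (Fin n) (Fin n) F) = (a : Matrix (Fin n) (Fin n) F) * M := ha
          have hb' : M * (b : Matrix (Fin n) (Fin n) F) = (b : Matrix (Fin n) (Fin n) F) * M := hb
          rw [Units.val_mul, ← mul_assoc, ha', mul_assoc, hb', mul_assoc]
        one_mem' := by simp
        inv_mem' := by
          intro a ha
          have ha' : M * (a : Matrix (Fin n) (Fin n) F) = (a : Matrix (Fin n) (Fin n) F) * M := ha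
          show M * ((a⁻¹ : GL (Fin n) F) : Matrix (Fin n) (Fin n) F) = _
          calc M * ((a⁻¹ : GL (Fin n) F) : Matrix (Fin n) (Fin n) F)
              = ((a⁻¹ : GL (Fin n) F) : Matrix (Fin n) (Fin n) F) * ((a : Matrix (Fin n) (Fin n) F) * M) *
                  ((a⁻¹ : GL (Fin n) F) : Matrix (Fin n) (Fin n) F) := by
                rw [← mul_assoc, vi, one_mul]
            _ = ((a⁻¹ : GL (Fin n) F) : Matrix (Fin n) (Fin n) F) * M := by
                rw [← ha', mul_assoc, mul_assoc, iv, mul_one] }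
    have hle : N ≤ C := by
      rw [← hsup]
      apply iSup_le
      intro h y hy
      exact hM h h.2 y hy
    exact hle hx
  -- structure of env T
  have hA : NzA N (env T) := NzA_env hTnorm
  have hcen : ∀ z ∈ env T, (∀ a ∈ env T, z * a = a * z) →
      ∃ c : F, z = c • (1 : Matrix (Fin n) (Fin n) F) := by
    intro z hz hza
    apply hscal
    intro h hh x hx
    by_cases hc : cj h T = T
    · rw [hc] at hx
      exact hza _ (val_mem_env hx)
    · have h1 : cj (1 : GL (Fin n) F) T ≠ cj h T := by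
        rw [cj_one]
        exact fun h => hc h.symm
      have h2 : ∀ x ∈ T, ∀ y ∈ cj h T, x * y = y * x := by
        intro x hx y hy
        exact hcc 1 H.one_mem h hh h1 x (by rwa [cj_one]) y hy
      exact commute_env h2 hz (val_mem_env hx)
  obtain ⟨m, hm0, φ₀, hφ₀⟩ := exists_hom habsN.1 hA hcen
  -- m ≥ 2
  have hm : 2 ≤ m := by
    by_contra hcon
    have hm1 : m = 1 := by
      have := NeZero.ne m
      omega
    subst hm1
    apply hTs
    intro t ht
    obtain ⟨a, ha⟩ := (hφ₀ _).1 (val_mem_env ht)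
    have ha1 : a = a 0 0 • (1 : Matrix (Fin 1) (Fin 1) F) := by
      ext i j
      rw [Subsingleton.elim i 0, Subsingleton.elim j 0]
      simp
    rw [ha1, map_smul, map_one] at ha
    rw [mem_scalars_iff]
    have hne : a 0 0 ≠ 0 := by
      intro h0
      rw [h0, zero_smul] at ha
      have := t.isUnit
      rw [ha] at this
      have h2 : Nontrivial (Matrix (Fin n) (Fin n) F) := by
        have : Nonempty (Fin n) := ⟨⟨0, Nat.pos_of_ne_zero (NeZero.ne n)⟩⟩
        infer_instance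
      exact not_isUnit_zero this
    exact ⟨Units.mk0 _ hne, ha⟩
  -- enumeration of the conjugates
  let 𝒯 : Set (Subgroup (GL (Fin n) F)) := Set.range (fun h : H => cj (h : GL (Fin n) F) T)
  have hfin : Finite 𝒯 := Set.finite_range _
  obtain ⟨k, ⟨τ⟩⟩ := Finite.exists_equiv_fin 𝒯
  have hrep : ∀ i : Fin k, ∃ h : H, cj (h : GL (Fin n) F) T = (τ.symm i : Subgroup (GL (Fin n) F)) :=
    fun i => (τ.symm i).2
  choose hh hhh using hrep
  have hinj : ∀ i j, cj (hh i : GL (Fin n) F) T = cj (hh j : GL (Fin n) F) T → i = j := by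
    intro i j hij
    rw [hhh, hhh] at hij
    exact τ.symm.injective (Subtype.ext hij)
  have hsurj : ∀ h ∈ H, ∃ j, cj h T = cj (hh j : GL (Fin n) F) T := by
    intro h hH
    refine ⟨τ ⟨cj h T, ⟨⟨h, hH⟩, rfl⟩⟩, ?_⟩
    rw [hhh, Equiv.symm_apply_apply]
  have hk : 2 ≤ k := by
    obtain ⟨h, hH, hne⟩ := hex
    obtain ⟨j₁, hj₁⟩ := hsurj h hH
    obtain ⟨j₂, hj₂⟩ := hsurj 1 H.one_mem
    have : j₁ ≠ j₂ := by
      rintro rfl
      apply hne
      rw [hj₁, ← hj₂, cj_one]
    by_contra hcon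
    have : k ≤ 1 := by omega
    apply ‹j₁ ≠ j₂›
    have h1 := j₁.2
    have h2 := j₂.2
    ext
    omega
  let φ : Fin k → (Matrix (Fin m) (Fin m) F →ₐ[F] Matrix (Fin n) (Fin n) F) :=
    fun i => (conjAlg (hh i : GL (Fin n) F)).toAlgHom.comp φ₀
  have hφmem : ∀ i a, φ i a ∈ env (cj (hh i : GL (Fin n) F) T) := by
    intro i a
    exact conj_mem_env_cj ((hφ₀ _).2 ⟨a, rfl⟩)
  have hφsurj : ∀ i, ∀ M ∈ env (cj (hh i : GL (Fin n) F) T), ∃ a, M = φ i a := by
    intro i M hM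
    obtain ⟨M₀, h0, rfl⟩ := mem_env_cj hM
    obtain ⟨a, rfl⟩ := (hφ₀ _).1 h0
    exact ⟨a, rfl⟩
  have hcomm : ∀ i j, i ≠ j → ∀ a b, φ i a * φ j b = φ j b * φ i a := by
    intro i j hij a b
    exact commute_env (hcc _ (hh i).2 _ (hh j).2 (fun h => hij (hinj i j h))) (hφmem i a) (hφmem j b)
  have hcenφ : ∀ M : Matrix (Fin n) (Fin n) F, (∀ i a, M * φ i a = φ i a * M) →
      ∃ c : F, M = c • (1 : Matrix (Fin n) (Fin n) F) := by
    intro M hM
    apply hscal
    intro h hH x hx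
    obtain ⟨j, hj⟩ := hsurj h hH
    rw [hj] at hx
    obtain ⟨a, ha⟩ := hφsurj j _ (val_mem_env hx)
    rw [ha]
    exact hM j a
  obtain ⟨e, P, hP⟩ := Cfsg.Agent.Lib.Helper13AschWcoord.wreath_coord hm (by omega) φ hcomm hcenφ
  apply alt_wreath hm hk (e := e) (P := P)
  intro g hg
  apply mem_wreath_of_permutes hm (by omega) φ e P hP
  intro i
  obtain ⟨j, hj⟩ := hsurj (g * hh i) (H.mul_mem hg (hh i).2)
  refine ⟨j, fun a => ?_⟩
  apply hφsurj j
  rw [← hj, ← cj_cj]
  exact conj_mem_env_cj (hφmem i a)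

end Cfsg.Agent.Lib.Helper98AschC7
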