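import Cfsg.Agent.Lib.Helper98AschStruct
import Cfsg.Agent.Lib.Helper94AschTensnorm
import Cfsg.Agent.Lib.Helper96AschComm
import Cfsg.Agent.Lib.Helper67AschField
import Cfsg.Agent.Lib.Helper67AschTenscases
import Cfsg.Agent.Lib.Helper17AschWreath2

set_option autoImplicit false

/-! The dichotomy: a subgroup normalised by an irreducible group lying in no geometric class is scalar
or absolutely irreducible. -/

namespace Cfsg.Agent.Lib.Helper98AschDich

open Cfsg Cfsg.Geo Matrix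
open Cfsg.Agent.Lib.Helper97AschBase Cfsg.Agent.Lib.Helper97AschCore
  Cfsg.Agent.Lib.Helper98AschDefs Cfsg.Agent.Lib.Helper98AschBasic Cfsg.Agent.Lib.Helper98AschAlt
  Cfsg.Agent.Lib.Helper98AschStruct
open scoped MatrixGroups Kronecker

variable {n : ℕ} {F : Type*} [Field F]

section alts
variable [Fintype F] {H : Subgroup (GL (Fin n) F)}

lemma alt1 {W : Submodule F (Fin n → F)} (h0 : W ≠ ⊥) (h1 : W ≠ ⊤) (h : H ≤ subspaceStabilizer W) :
    GeomAlt n F H := Or.inl ⟨W, h0, h1, h⟩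

lemma alt2 {t m : ℕ} {D : Fin t → Submodule F (Fin n → F)} (hD : IsMDecomposition m D)
    (h : H ≤ decompositionStabilizer D) : GeomAlt n F H := Or.inr (Or.inl ⟨t, m, D, hD, h⟩)

lemma alt3 {r : ℕ} {K : Subalgebra F (Matrix (Fin n) (Fin n) F)} (hr : r.Prime)
    (hK : IsFieldSubalgebra r K) (h : H ≤ subalgebraNormalizer K) : GeomAlt n F H :=
  Or.inr (Or.inr (Or.inl ⟨r, K, hr, hK, h⟩))

lemma alt4 {n₁ n₂ : ℕ} {e : Fin n ≃ Fin n₁ × Fin n₂} {P : GL (Fin n) F} (h1 : 2 ≤ n₁) (h2 : n₁ < n₂)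
    (h : H ≤ tensorProductSubgroup n₁ n₂ e P) : GeomAlt n F H :=
  Or.inr (Or.inr (Or.inr (Or.inl ⟨n₁, n₂, e, P, h1, h2, h⟩)))

lemma alt5 {F₀ : Subfield F} {r : ℕ} {P : GL (Fin n) F} (hr : r.Prime)
    (hc : Fintype.card F = Nat.card F₀ ^ r) (h : H ≤ subfieldSubgroup F₀ P) : GeomAlt n F H :=
  Or.inr (Or.inr (Or.inr (Or.inr (Or.inl ⟨F₀, r, P, hr, hc, h⟩))))

lemma alt6 {r : ℕ} {R : Subgroup (GL (Fin n) F)} {m : ℕ} (hR : IsLinearSymplecticTypeData r R)
    (hm : n = r ^ m) (h : H ≤ subgroupNormalizer R) : GeomAlt n F H :=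
  Or.inr (Or.inr (Or.inr (Or.inr (Or.inr (Or.inl ⟨r, R, m, hR, hm, h⟩)))))

lemma alt7 {m t : ℕ} {e : Fin n ≃ (Fin t → Fin m)} {P : GL (Fin n) F} (hm : 3 ≤ m) (ht : 2 ≤ t)
    (h : H ≤ tensorWreathSubgroup m t e P) : GeomAlt n F H :=
  Or.inr (Or.inr (Or.inr (Or.inr (Or.inr (Or.inr (Or.inl ⟨m, t, e, P, hm, ht, h⟩))))))

lemma alt8s {f : (Fin n → F) → (Fin n → F) → F} (hf : IsSymplecticForm f) (h : H ≤ similarityGroup f) :
    GeomAlt n F H :=
  Or.inr (Or.inr (Or.inr (Or.inr (Or.inr (Or.inr (Or.inr (Or.inl ⟨f, hf, h⟩)))))))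

lemma alt8u {σ : F ≃+* F} {f : (Fin n → F) → (Fin n → F) → F} (hf : IsUnitaryForm σ f)
    (h : H ≤ similarityGroup f) : GeomAlt n F H :=
  Or.inr (Or.inr (Or.inr (Or.inr (Or.inr (Or.inr (Or.inr (Or.inr (Or.inl ⟨σ, f, hf, h⟩))))))))

lemma alt8q {Q : (Fin n → F) → F} (hodd : Odd (Fintype.card F)) (hQ : IsNondegenerateQuadraticForm Q)
    (h : H ≤ quadSimilarityGroup Q) : GeomAlt n F H :=
  Or.inr (Or.inr (Or.inr (Or.inr (Or.inr (Or.inr (Or.inr (Or.inr (Or.inr ⟨hodd, Q, hQ, h⟩))))))))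

/-- tensor wreath subgroups: class 7 or (factors of dimension 2) class 8 -/
lemma alt_wreath {m t : ℕ} {e : Fin n ≃ (Fin t → Fin m)} {P : GL (Fin n) F} (hm : 2 ≤ m) (ht : 2 ≤ t)
    (h : H ≤ tensorWreathSubgroup m t e P) : GeomAlt n F H := by
  rcases Nat.lt_or_ge m 3 with h3 | h3
  · obtain rfl : m = 2 := by omega
    rcases Cfsg.Agent.Lib.Helper17AschWreath2.wreath_two_le ht e P with ⟨f, hf, hle⟩ | ⟨hodd, Q, hQ, hle⟩
    · exact alt8s hf (h.trans hle)
    · exact alt8q hodd hQ (h.trans hle)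
  · exact alt7 h3 ht h

/-- tensor product subgroups with both factors of dimension at least two -/
lemma alt_tensor {d s : ℕ} {e : Fin n ≃ Fin d × Fin s} {P : GL (Fin n) F} (hd : 2 ≤ d) (hs : 2 ≤ s)
    (h : H ≤ tensorProductSubgroup d s e P) : GeomAlt n F H := by
  rcases lt_trichotomy d s with hlt | rfl | hgt
  · exact alt4 hd hlt h
  · obtain ⟨e', hle⟩ := Cfsg.Agent.Lib.Helper67AschTenscases.tensor_le_wreath e P
    exact alt_wreath hd le_rfl (h.trans hle)
  · obtain ⟨e', hle⟩ := Cfsg.Agent.Lib.Helper67AschTenscases.tensor_swap e P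
    exact alt4 hs hgt (h.trans hle)

end alts

theorem dichotomy [Fintype F] [NeZero n] {H : Subgroup (GL (Fin n) F)}
    (hirr : ActsIrreducibly (matrixSet H)) (hgeo : ¬ GeomAlt n F H)
    (T : Subgroup (GL (Fin n) F)) (hT : Nz H T) :
    T ≤ scalars (Fin n) F ∨ ActsAbsolutelyIrreducibly (matrixSet T) := by
  have hA : NzA H (env T) := NzA_env hT
  have hC : NzA H (cen (env T)) := NzA_cen hA
  rcases Cfsg.Agent.Lib.Helper96AschComm.comm_field_or_c2 hirr hC cen_comm with hfield | ⟨t, m, D, hD, hle⟩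
  swap
  · exact absurd (alt2 hD hle) hgeo
  have hcen : ∀ z ∈ env T, (∀ a ∈ env T, z * a = a * z) →
      ∃ c : F, z = c • (1 : Matrix (Fin n) (Fin n) F) := by
    intro z hz hza
    by_contra hcon
    push Not at hcon
    obtain ⟨r, K', hr, hK', hle⟩ := Cfsg.Agent.Lib.Helper67AschField.field_c3 hC cen_comm hfield
      ⟨z, mem_cen.2 ⟨hz, hza⟩, hcon⟩
    exact hgeo (alt3 hr hK' hle)
  obtain ⟨d, s, hd, e, P, hmem⟩ := struct hirr hA hcen
  have hle : H ≤ tensorProductSubgroup d s e P := fun g hg =>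
    Cfsg.Agent.Lib.Helper94AschTensnorm.mem_tensorProductSubgroup_of_normalizes e P g
      (fun a => (hmem _).1 (hA g hg _ ((hmem _).2 ⟨a, rfl⟩)))
  have hd0 : d ≠ 0 := NeZero.ne d
  have hs0 : s ≠ 0 := by
    rintro rfl
    have h1 := Fintype.card_congr e
    simp at h1
    exact NeZero.ne n h1
  by_cases hd1 : d = 1
  · left
    subst hd1
    intro t ht
    obtain ⟨a, ha⟩ := (hmem _).1 (val_mem_env ht)
    have ha1 : a = a 0 0 • (1 : Matrix (Fin 1) (Fin 1) F) := by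
      ext i j
      rw [Subsingleton.elim i 0, Subsingleton.elim j 0]
      simp
    rw [ha1, tens_smul_left, tens_one] at ha
    rw [mem_scalars_iff]
    have hne : a 0 0 ≠ 0 := by
      intro h0
      rw [h0, zero_smul] at ha
      have := t.isUnit
      rw [ha] at this
      have h2 : Nontrivial (Matrix (Fin n) (Fin n) F) := by
        have : Nonempty (Fin n) := ⟨⟨0, Nat.pos_of_ne_zero (NeZero.ne n)⟩⟩
        infer_instance
      exact not_isUnit_zero this
    exact ⟨Units.mk0 _ hne, ha⟩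
  by_cases hs1 : s = 1
  · right
    subst hs1
    apply absIrred_of_env
    intro M
    exact (hmem M).2 (exists_tens_of_one e P M)
  · exact absurd (alt_tensor (by omega) (by omega) hle) hgeo

end Cfsg.Agent.Lib.Helper98AschDich
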