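import Mathlib
import Cfsg.Agent.Lib.Helper46Len

/-! Vocabulary for "a length system (group generated by involutions with the folding condition) is a
Coxeter system": alternating words and reduced words. -/

namespace Cfsg.Agent.Lib.Helper98CoxDefs

open Cfsg.Agent.Lib.Helper46Len

variable {W : Type*}

/-- the alternating word `a b a b ...` of length `k`, STARTING with `a`. -/
def alt (a b : W) : ℕ → List W
  | 0 => []
  | k + 1 => a :: alt b a k

@[simp] theorem alt_zero (a b : W) : alt a b 0 = [] := rfl

theorem alt_succ (a b : W) (k : ℕ) : alt a b (k + 1) = a :: alt b a k := rfl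

@[simp] theorem length_alt (a b : W) (k : ℕ) : (alt a b k).length = k := by
  induction k generalizing a b with
  | zero => rfl
  | succ k ih => rw [alt_succ, List.length_cons, ih]

theorem mem_alt {a b x : W} {k : ℕ} (h : x ∈ alt a b k) : x = a ∨ x = b := by
  induction k generalizing a b with
  | zero => simp at h
  | succ k ih =>
    rw [alt_succ, List.mem_cons] at h
    rcases h with h | h
    · exact Or.inl h
    · exact (ih h).symm

theorem map_alt {X : Type*} (f : W → X) (a b : W) (k : ℕ) :
    (alt a b k).map f = alt (f a) (f b) k := by
  induction k generalizing a b with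
  | zero => rfl
  | succ k ih => rw [alt_succ, List.map_cons, ih, alt_succ]

/-- `u` is a reduced word of the length system `L`. -/
def Red [Group W] (L : LenSys W) (u : List W) : Prop :=
  (∀ x ∈ u, x ∈ L.S) ∧ L.l u.prod = u.length

end Cfsg.Agent.Lib.Helper98CoxDefs
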