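import Mathlib
import Cfsg.Agent.Lib.Helper98MinDefs
import Cfsg.Agent.Lib.Helper40MinLLa

set_option autoImplicit false

/-! PROJECT 8 (minimal index of `PSL_n(q)`), piece `LLb`: the local lemma. -/

namespace Cfsg.Agent.Lib.Helper98MinLLb

open Cfsg.Agent.Lib.Helper98MinDefs Cfsg.Agent.Lib.Helper40MinLLa

section
variable {F W Ω : Type*} [Field F] [AddCommGroup W] [Module F W]

/-- the transvection `a ↦ a + x a • ψ` of `W`. -/
def tr (x : Module.Dual F W) (ψ : W) (a : W) : W := a + x a • ψ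

theorem tr_tr_neg (x : Module.Dual F W) (ψ : W) (h : x ψ = 0) (a : W) :
    tr x ψ (tr x (-ψ) a) = a := by
  unfold tr
  simp only [map_add, map_smul, map_neg, h, smul_eq_mul, mul_zero, neg_zero, add_zero, smul_neg]
  abel

theorem tr_neg_tr (x : Module.Dual F W) (ψ : W) (h : x ψ = 0) (a : W) :
    tr x (-ψ) (tr x ψ a) = a := by
  unfold tr
  simp only [map_add, map_smul, h, smul_eq_mul, mul_zero, add_zero, smul_neg]
  abel

theorem exists_dual_one {a b : W} (h : a ∉ Submodule.span F {b}) :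
    ∃ x : Module.Dual F W, x a = 1 ∧ x b = 0 := by
  obtain ⟨f, hf, hf'⟩ := Submodule.exists_dual_map_eq_bot_of_notMem h inferInstance
  refine ⟨(f a)⁻¹ • f, ?_, ?_⟩
  · rw [LinearMap.smul_apply, smul_eq_mul, inv_mul_cancel₀ hf]
  · have : f b ∈ (Submodule.span F {b}).map f := ⟨b, Submodule.mem_span_singleton_self b, rfl⟩
    rw [hf', Submodule.mem_bot] at this
    rw [LinearMap.smul_apply, this, smul_zero]

theorem notMem_span_swap {a b : W} (ha : a ≠ 0) (h : b ∉ Submodule.span F {a}) :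
    a ∉ Submodule.span F {b} := by
  intro hm
  obtain ⟨c, hc⟩ := Submodule.mem_span_singleton.1 hm
  have hc0 : c ≠ 0 := by
    rintro rfl
    rw [zero_smul] at hc
    exact ha hc.symm
  apply h
  refine Submodule.mem_span_singleton.2 ⟨c⁻¹, ?_⟩
  rw [← hc, smul_smul, inv_mul_cancel₀ hc0, one_smul]

theorem exists_notMem_span [FiniteDimensional F W] (hd : 2 ≤ Module.finrank F W) (a : W) :
    ∃ u : W, u ∉ Submodule.span F {a} := by
  by_contra hcon
  push Not at hcon
  have htop : Submodule.span F {a} = ⊤ := by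
    rw [eq_top_iff]; intro u _; exact hcon u
  have h1 : Module.finrank F (Submodule.span F {a}) = Module.finrank F W := by
    rw [htop, finrank_top]
  have h2 : Module.finrank F (Submodule.span F {a}) ≤ 1 := by
    classical
    have := finrank_span_finset_le_card (R := F) ({a} : Finset W)
    rw [Finset.coe_singleton] at this
    exact this.trans (by simp)
  omega

/-- a relation which is transitive and holds along transvections holds on all non zero vectors -/
theorem connect [FiniteDimensional F W] (hd : 2 ≤ Module.finrank F W) (R : W → W → Prop)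
    (htrans : ∀ a b c, R a b → R b c → R a c)
    (hstep : ∀ (x : Module.Dual F W) (ψ : W), x ψ = 0 → ∀ a, R a (tr x ψ a))
    {a b : W} (ha : a ≠ 0) (hb : b ≠ 0) : R a b := by
  have step : ∀ v w : W, v ≠ 0 → w ∉ Submodule.span F {v} → R v w := by
    intro v w hv h
    have h1 : v ∉ Submodule.span F {w - v} := by
      intro hm
      obtain ⟨c, hc⟩ := Submodule.mem_span_singleton.1 hm
      apply h
      have hc0 : c ≠ 0 := by
        rintro rfl
        rw [zero_smul] at hc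
        exact hv hc.symm
      refine Submodule.mem_span_singleton.2 ⟨c⁻¹ * (1 + c), ?_⟩
      have h1 : c • w = (1 + c) • v := by
        rw [smul_sub] at hc
        rw [add_smul, one_smul]
        nth_rewrite 1 [← hc]
        abel
      rw [mul_smul, ← h1, smul_smul, inv_mul_cancel₀ hc0, one_smul]
    obtain ⟨x, hx1, hx2⟩ := exists_dual_one h1
    have := hstep x (w - v) hx2 v
    unfold tr at this
    rwa [hx1, one_smul, add_sub_cancel] at this
  by_cases hba : b ∈ Submodule.span F {a}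
  · obtain ⟨u, hu⟩ := exists_notMem_span hd a
    have hu0 : u ≠ 0 := by
      rintro rfl
      exact hu (Submodule.zero_mem _)
    have hbu : b ∉ Submodule.span F {u} := by
      intro hm
      obtain ⟨s, hs⟩ := Submodule.mem_span_singleton.1 hm
      obtain ⟨t, ht⟩ := Submodule.mem_span_singleton.1 hba
      have hs0 : s ≠ 0 := by
        rintro rfl
        rw [zero_smul] at hs
        exact hb hs.symm
      apply hu
      refine Submodule.mem_span_singleton.2 ⟨s⁻¹ * t, ?_⟩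
      rw [mul_smul, ht, ← hs, smul_smul, inv_mul_cancel₀ hs0, one_smul]
    exact htrans _ _ _ (step a u ha hu) (step u b hu0 hbu)
  · exact step a b ha hba

/-- conjugation relation, evaluated -/
theorem conj_apply (ρ : Multiplicative W →* Equiv.Perm Ω) (σ : Equiv.Perm Ω) (a b : W)
    (h : σ * ρ (Multiplicative.ofAdd a) * σ⁻¹ = ρ (Multiplicative.ofAdd b)) (ω : Ω) :
    ρ (Multiplicative.ofAdd b) (σ ω) = σ (ρ (Multiplicative.ofAdd a) ω) := by
  rw [← h, Equiv.Perm.mul_apply, Equiv.Perm.mul_apply]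
  congr 2
  rw [← Equiv.Perm.mul_apply, inv_mul_cancel]; rfl

theorem conj_fix_iff (ρ : Multiplicative W →* Equiv.Perm Ω) (σ : Equiv.Perm Ω) (a b : W)
    (h : σ * ρ (Multiplicative.ofAdd a) * σ⁻¹ = ρ (Multiplicative.ofAdd b)) (ω : Ω) :
    ρ (Multiplicative.ofAdd b) (σ ω) = σ ω ↔ ρ (Multiplicative.ofAdd a) ω = ω := by
  rw [conj_apply ρ σ a b h ω]
  exact σ.injective.eq_iff

theorem comm_apply (ρ : Multiplicative W →* Equiv.Perm Ω) (a b : W) (ω : Ω) :
    ρ (Multiplicative.ofAdd a) (ρ (Multiplicative.ofAdd b) ω)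
      = ρ (Multiplicative.ofAdd b) (ρ (Multiplicative.ofAdd a) ω) := by
  rw [← Equiv.Perm.mul_apply, ← Equiv.Perm.mul_apply, ← map_mul ρ, ← map_mul ρ, mul_comm]

/-- a point stabiliser moved by a transvection -/
theorem moved (ρ : Multiplicative W →* Equiv.Perm Ω)
    (heq : ∀ (x : Module.Dual F W) (ψ : W), x ψ = 0 → ∃ σ : Equiv.Perm Ω, ∀ a : W,
      σ * ρ (Multiplicative.ofAdd a) * σ⁻¹ = ρ (Multiplicative.ofAdd (a + x a • ψ)))
    (x : Module.Dual F W) (ψ : W) (hx : x ψ = 0) (ω : Ω) (a₁ : W)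
    (h1 : ρ (Multiplicative.ofAdd a₁) ω = ω) (h2 : ρ (Multiplicative.ofAdd (tr x ψ a₁)) ω ≠ ω) :
    ∃ ω' : Ω, (∀ a : W, ρ (Multiplicative.ofAdd (tr x ψ a)) ω' = ω' ↔
        ρ (Multiplicative.ofAdd a) ω = ω) ∧
      ∀ c : W, ρ (Multiplicative.ofAdd c) ω ≠ ω' := by
  obtain ⟨σ, hσ⟩ := heq x ψ hx
  refine ⟨σ ω, fun a => conj_fix_iff ρ σ a _ (hσ a) ω, ?_⟩
  intro c hc
  apply h2
  have h3 := (conj_fix_iff ρ σ a₁ _ (hσ a₁) ω).2 h1
  rw [← hc, comm_apply] at h3
  exact (ρ (Multiplicative.ofAdd c)).injective h3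

theorem card_St_moved (ρ : Multiplicative W →* Equiv.Perm Ω)
    (x : Module.Dual F W) (ψ : W) (hx : x ψ = 0) (ω ω' : Ω)
    (h : ∀ a : W, ρ (Multiplicative.ofAdd (tr x ψ a)) ω' = ω' ↔
        ρ (Multiplicative.ofAdd a) ω = ω) :
    Nat.card (St ρ ω') = Nat.card (St ρ ω) := by
  apply Nat.card_congr
  refine ⟨fun b => ⟨tr x (-ψ) b.1, ?_⟩, fun a => ⟨tr x ψ a.1, (h a.1).2 a.2⟩, ?_, ?_⟩
  · rw [mem_St, ← h, tr_tr_neg x ψ hx]
    exact b.2
  · intro b
    exact Subtype.ext (tr_tr_neg x ψ hx b.1)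
  · intro a
    exact Subtype.ext (tr_neg_tr x ψ hx a.1)

/-- the kernel of a functional on an additive subgroup -/
theorem ker_bound [Fintype F] [Finite W] (x : Module.Dual F W) (S S' : AddSubgroup W)
    (h : ∀ a ∈ S, x a = 0 → a ∈ S') :
    ∃ k r : ℕ, Nat.card S = k * r ∧ k ≤ Nat.card ↥(S ⊓ S') ∧ r ≤ Fintype.card F ∧
      (k = Nat.card ↥(S ⊓ S') → ∀ b ∈ S ⊓ S', x b = 0) ∧
      (r = Fintype.card F → ∀ c : F, ∃ a ∈ S, x a = c) := by
  let g : S →+ F := (x.toAddMonoidHom).comp S.subtype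
  have hg : ∀ a : S, g a = x a.1 := fun a => rfl
  let j : g.ker → ↥(S ⊓ S') := fun a => ⟨a.1.1, a.1.2, h a.1.1 a.1.2 (by
    have := a.2
    rw [AddMonoidHom.mem_ker, hg] at this
    exact this)⟩
  have hj : Function.Injective j := by
    intro a b hab
    have : a.1.1 = b.1.1 := congrArg (fun z : ↥(S ⊓ S') => z.1) hab
    exact Subtype.ext (Subtype.ext this)
  refine ⟨Nat.card g.ker, Nat.card g.range, ?_, Nat.card_le_card_of_injective j hj, ?_, ?_, ?_⟩
  · rw [← AddSubgroup.index_ker, AddSubgroup.card_mul_index]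
  · rw [← Nat.card_eq_fintype_card]
    exact Nat.card_le_card_of_injective _ Subtype.val_injective
  · intro hk b hb
    have hbij := hj.bijective_of_nat_card_le hk.ge
    obtain ⟨a, ha⟩ := hbij.2 ⟨b, hb⟩
    have h1 : a.1.1 = b := congrArg (fun z : ↥(S ⊓ S') => z.1) ha
    have := a.2
    rw [AddMonoidHom.mem_ker, hg, h1] at this
    exact this
  · intro hr c
    have htop : g.range = ⊤ := by
      apply AddSubgroup.eq_top_of_card_eq
      rw [hr, Nat.card_eq_fintype_card]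
    have : c ∈ g.range := htop ▸ AddSubgroup.mem_top c
    obtain ⟨a, ha⟩ := this
    exact ⟨a.1, a.2, ha⟩


theorem fix_const [FiniteDimensional F W] [Fintype Ω] [DecidableEq Ω]
    (hd : 2 ≤ Module.finrank F W) (ρ : Multiplicative W →* Equiv.Perm Ω)
    (heq : ∀ (x : Module.Dual F W) (ψ : W), x ψ = 0 → ∃ σ : Equiv.Perm Ω, ∀ a : W,
      σ * ρ (Multiplicative.ofAdd a) * σ⁻¹ = ρ (Multiplicative.ofAdd (a + x a • ψ)))
    {a b : W} (ha : a ≠ 0) (hb : b ≠ 0) :
    Fintype.card {ω // ρ (Multiplicative.ofAdd a) ω = ω}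
      = Fintype.card {ω // ρ (Multiplicative.ofAdd b) ω = ω} := by
  refine connect hd (fun a b => Fintype.card {ω // ρ (Multiplicative.ofAdd a) ω = ω}
      = Fintype.card {ω // ρ (Multiplicative.ofAdd b) ω = ω}) (fun a b c h1 h2 => h1.trans h2)
      ?_ ha hb
  intro x ψ hx a
  obtain ⟨σ, hσ⟩ := heq x ψ hx
  exact Fintype.card_congr (σ.subtypeEquiv (fun ω => (conj_fix_iff ρ σ a _ (hσ a) ω).symm))

theorem St_large [Fintype F] [FiniteDimensional F W] [Finite W] [Fintype Ω] [DecidableEq Ω]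
    (hd : 2 ≤ Module.finrank F W) (ρ : Multiplicative W →* Equiv.Perm Ω)
    (heq : ∀ (x : Module.Dual F W) (ψ : W), x ψ = 0 → ∃ σ : Equiv.Perm Ω, ∀ a : W,
      σ * ρ (Multiplicative.ofAdd a) * σ⁻¹ = ρ (Multiplicative.ofAdd (a + x a • ψ)))
    (f : ℕ)
    (hf : ∀ a : W, a ≠ 0 → Fintype.card {ω // ρ (Multiplicative.ofAdd a) ω = ω} = f)
    (hN : Fintype.card Ω = f + Nat.card W) (ω : Ω) (a₀ : W) (ha₀ : a₀ ≠ 0)
    (h0 : ρ (Multiplicative.ofAdd a₀) ω = ω) :
    Nat.card W ≤ Fintype.card F * Nat.card (St ρ ω) := by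
  have hq : 0 < Fintype.card F := Fintype.card_pos
  by_cases hall : ∀ (x : Module.Dual F W) (ψ : W), x ψ = 0 → ∀ a : W,
      ρ (Multiplicative.ofAdd a) ω = ω → ρ (Multiplicative.ofAdd (tr x ψ a)) ω = ω
  · have htop : St ρ ω = ⊤ := by
      rw [eq_top_iff]
      intro b _
      by_cases hb : b = 0
      · subst hb; exact AddSubgroup.zero_mem _
      · exact connect hd (fun a b => ρ (Multiplicative.ofAdd a) ω = ω →
          ρ (Multiplicative.ofAdd b) ω = ω) (fun a b c h1 h2 h => h2 (h1 h))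
          (fun x ψ hx a => hall x ψ hx a) ha₀ hb h0
    rw [htop, AddSubgroup.card_top]
    exact Nat.le_mul_of_pos_left _ hq
  · push Not at hall
    obtain ⟨x, ψ, hx, a₁, h1, h2⟩ := hall
    obtain ⟨ω', hω', horb⟩ := moved ρ heq x ψ hx ω a₁ h1 h2
    have hsl := slack ρ f hf hN ω ω' horb
    rw [card_St_moved ρ x ψ hx ω ω' hω'] at hsl
    obtain ⟨k, r, hkr, hk, hr, -, -⟩ := ker_bound x (St ρ ω) (St ρ ω') (by
      intro a ha hxa
      have := (hω' a).2 ha
      unfold tr at this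
      rwa [hxa, zero_smul, add_zero] at this)
    have hs : 0 < Nat.card (St ρ ω) := Nat.card_pos
    set s := Nat.card (St ρ ω)
    set t := Nat.card ↥(St ρ ω ⊓ St ρ ω')
    set Q := Nat.card W
    have h3 : s ≤ t * Fintype.card F := by
      rw [hkr]; exact Nat.mul_le_mul hk hr
    have h4 : Q * s ≤ (Fintype.card F * s) * s := by
      calc Q * s ≤ Q * (t * Fintype.card F) := Nat.mul_le_mul_left _ h3
        _ = (Q * t) * Fintype.card F := by ring
        _ = (s * s) * Fintype.card F := by rw [hsl]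
        _ = (Fintype.card F * s) * s := by ring
    exact Nat.le_of_mul_le_mul_right h4 hs


theorem tr_stable [Fintype F] [Finite W] [Fintype Ω] [DecidableEq Ω]
    (ρ : Multiplicative W →* Equiv.Perm Ω)
    (heq : ∀ (x : Module.Dual F W) (ψ : W), x ψ = 0 → ∃ σ : Equiv.Perm Ω, ∀ a : W,
      σ * ρ (Multiplicative.ofAdd a) * σ⁻¹ = ρ (Multiplicative.ofAdd (a + x a • ψ)))
    (f : ℕ)
    (hf : ∀ a : W, a ≠ 0 → Fintype.card {ω // ρ (Multiplicative.ofAdd a) ω = ω} = f)
    (hN : Fintype.card Ω = f + Nat.card W)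
    (hall : ∀ ω, Fintype.card F * Nat.card (St ρ ω) = Nat.card W)
    (ω : Ω) (x : Module.Dual F W) (ψ : W) (hx : x ψ = 0)
    (hψ : ρ (Multiplicative.ofAdd ψ) ω = ω) (a₁ : W) (h1 : ρ (Multiplicative.ofAdd a₁) ω = ω) :
    ρ (Multiplicative.ofAdd (tr x ψ a₁)) ω = ω := by
  by_contra h2
  have hq : 0 < Fintype.card F := Fintype.card_pos
  obtain ⟨ω', hω', horb⟩ := moved ρ heq x ψ hx ω a₁ h1 h2
  have hsl := slack ρ f hf hN ω ω' horb
  obtain ⟨k, r, hkr, hk, hr, hk', hr'⟩ := ker_bound x (St ρ ω) (St ρ ω') (by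
    intro a ha hxa
    have := (hω' a).2 ha
    unfold tr at this
    rwa [hxa, zero_smul, add_zero] at this)
  have hs : 0 < Nat.card (St ρ ω) := Nat.card_pos
  have ht : 0 < Nat.card ↥(St ρ ω ⊓ St ρ ω') := Nat.card_pos
  have e1 := hall ω
  have e2 := hall ω'
  set s := Nat.card (St ρ ω)
  set s' := Nat.card (St ρ ω')
  set t := Nat.card ↥(St ρ ω ⊓ St ρ ω')
  set Q := Nat.card W
  set q := Fintype.card F
  have e3 : s' = s := Nat.eq_of_mul_eq_mul_left hq (e2.trans e1.symm)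
  have e4 : q * t = s := by
    have : s * (q * t) = s * s := by
      calc s * (q * t) = (q * s) * t := by ring
        _ = s * s := by rw [e1, hsl, e3]
    exact Nat.eq_of_mul_eq_mul_left hs this
  have hkt : k = t := by
    by_contra hne
    have hlt : k < t := lt_of_le_of_ne hk hne
    have : k * r < q * t := by
      calc k * r ≤ k * q := Nat.mul_le_mul_left _ hr
        _ < t * q := Nat.mul_lt_mul_of_pos_right hlt hq
        _ = q * t := by ring
    omega
  have hrq : r = q := by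
    by_contra hne
    have hlt : r < q := lt_of_le_of_ne hr hne
    have : k * r < q * t := by
      calc k * r = t * r := by rw [hkt]
        _ < t * q := Nat.mul_lt_mul_of_pos_left hlt ht
        _ = q * t := by ring
    omega
  obtain ⟨a, ha, hxa⟩ := hr' hrq 1
  have hmem : a ∈ St ρ ω ⊓ St ρ ω' := by
    refine ⟨ha, ?_⟩
    have h3 := (hω' (a - ψ)).2 (AddSubgroup.sub_mem (St ρ ω) ha hψ)
    have h4 : tr x ψ (a - ψ) = a := by
      unfold tr
      rw [map_sub, hxa, hx, sub_zero, one_smul, sub_add_cancel]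
    rw [h4] at h3
    exact h3
  have h5 := hk' hkt a hmem
  rw [hxa] at h5
  exact one_ne_zero h5

theorem smul_closed [Fintype F] [FiniteDimensional F W] [Finite W] [Fintype Ω] [DecidableEq Ω]
    (hd : 2 ≤ Module.finrank F W)
    (ρ : Multiplicative W →* Equiv.Perm Ω)
    (heq : ∀ (x : Module.Dual F W) (ψ : W), x ψ = 0 → ∃ σ : Equiv.Perm Ω, ∀ a : W,
      σ * ρ (Multiplicative.ofAdd a) * σ⁻¹ = ρ (Multiplicative.ofAdd (a + x a • ψ)))
    (f : ℕ)
    (hf : ∀ a : W, a ≠ 0 → Fintype.card {ω // ρ (Multiplicative.ofAdd a) ω = ω} = f)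
    (hN : Fintype.card Ω = f + Nat.card W)
    (hall : ∀ ω, Fintype.card F * Nat.card (St ρ ω) = Nat.card W)
    (ω : Ω) (ψ : W) (hψ : ρ (Multiplicative.ofAdd ψ) ω = ω) (c : F) :
    ρ (Multiplicative.ofAdd (c • ψ)) ω = ω := by
  by_cases hψ0 : ψ = 0
  · subst hψ0
    rw [smul_zero]; exact hψ
  by_cases h : ∃ a : W, ρ (Multiplicative.ofAdd a) ω = ω ∧ a ∉ Submodule.span F {ψ}
  · obtain ⟨a, ha, hna⟩ := h
    obtain ⟨x, hxa, hxψ⟩ := exists_dual_one hna
    have h1 := tr_stable ρ heq f hf hN hall ω (c • x) ψ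
      (by rw [LinearMap.smul_apply, hxψ, smul_zero]) hψ a ha
    have h2 : tr (c • x) ψ a = a + c • ψ := by
      unfold tr
      rw [LinearMap.smul_apply, hxa, smul_eq_mul, mul_one]
    rw [h2] at h1
    have h3 := AddSubgroup.sub_mem (St ρ ω) (show a + c • ψ ∈ St ρ ω from h1) ha
    rw [add_sub_cancel_left] at h3
    exact h3
  · push Not at h
    have hex : ∀ a : St ρ ω, ∃ t : F, t • ψ = a.1 := fun a =>
      Submodule.mem_span_singleton.1 (h a.1 a.2)
    choose g hg using hex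
    have hinj : Function.Injective g := by
      intro a b hab
      apply Subtype.ext
      rw [← hg a, ← hg b, hab]
    have hcard : Nat.card F ≤ Nat.card (St ρ ω) := by
      have e1 := hall ω
      rw [Module.natCard_eq_pow_finrank (K := F) (V := W), ← Nat.card_eq_fintype_card (α := F)] at e1
      obtain ⟨d', hd'⟩ := Nat.exists_eq_add_of_le hd
      rw [hd', show 2 + d' = (d' + 1) + 1 by ring, pow_succ'] at e1
      have e2 := Nat.eq_of_mul_eq_mul_left Nat.card_pos e1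
      rw [e2, pow_succ]
      exact Nat.le_mul_of_pos_left _ (pow_pos Nat.card_pos _)
    obtain ⟨a, ha⟩ := (hinj.bijective_of_nat_card_le hcard).2 c
    rw [← ha, hg a]
    exact a.2

end

theorem local_lemma {F W Ω : Type*} [Field F] [Fintype F] [AddCommGroup W] [Module F W]
    [FiniteDimensional F W] [Fintype Ω] [DecidableEq Ω] (hd : 2 ≤ Module.finrank F W)
    (ρ : Multiplicative W →* Equiv.Perm Ω)
    (heq : ∀ (x : Module.Dual F W) (ψ : W), x ψ = 0 → ∃ σ : Equiv.Perm Ω, ∀ a : W,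
      σ * ρ (Multiplicative.ofAdd a) * σ⁻¹ = ρ (Multiplicative.ofAdd (a + x a • ψ)))
    (hnt : ∃ (a : W) (ω : Ω), ρ (Multiplicative.ofAdd a) ω ≠ ω)
    (hN : (Fintype.card F - 1) * Fintype.card Ω
      < Fintype.card F ^ (Module.finrank F W + 1) - 1) :
    (∃ ω₀ : Ω, (∀ a : W, ρ (Multiplicative.ofAdd a) ω₀ = ω₀ → a = 0) ∧
      ∀ ω, (∃ a : W, ρ (Multiplicative.ofAdd a) ω₀ = ω) ∨
        ∀ a : W, ρ (Multiplicative.ofAdd a) ω = ω) ∨
    (∀ ω : Ω, ∃ S : Submodule F W, (∀ a : W, ρ (Multiplicative.ofAdd a) ω = ω ↔ a ∈ S) ∧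
      Module.finrank F S + 1 = Module.finrank F W) := by
  have : Finite W := Module.finite_of_finite F
  obtain ⟨a₀, ω₁, hmove⟩ := hnt
  have ha₀ : a₀ ≠ 0 := by
    rintro rfl
    apply hmove
    rw [ofAdd_zero, map_one]; rfl
  obtain ⟨f, hfdef⟩ : ∃ f, Fintype.card {ω // ρ (Multiplicative.ofAdd a₀) ω = ω} = f := ⟨_, rfl⟩
  have hf : ∀ a : W, a ≠ 0 → Fintype.card {ω // ρ (Multiplicative.ofAdd a) ω = ω} = f :=
    fun a ha => (fix_const hd ρ heq ha ha₀).trans hfdef
  have hntW : Nontrivial W := ⟨⟨a₀, 0, ha₀⟩⟩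
  obtain ⟨m, hm⟩ := exists_mul ρ f hf
  have hQ : Nat.card W = Fintype.card F ^ Module.finrank F W := by
    rw [Module.natCard_eq_pow_finrank (K := F), Nat.card_eq_fintype_card]
  have hq2 : 2 ≤ Fintype.card F := Fintype.one_lt_card
  have hflt : f < Fintype.card Ω := by
    rw [← hfdef]
    exact Fintype.card_subtype_lt hmove
  obtain ⟨r, hr⟩ : ∃ r, Fintype.card F = r + 1 := ⟨Fintype.card F - 1, by omega⟩
  have hr1 : 1 ≤ r := by omega
  obtain ⟨G, hG⟩ : ∃ G, G * r + 1 = Nat.card W := by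
    rw [hQ, hr]
    exact ⟨_, geom_sum_mul_add r _⟩
  have hN' : r * Fintype.card Ω + 1 < Nat.card W * (r + 1) := by
    rw [pow_succ, ← hQ, hr, Nat.add_sub_cancel] at hN
    exact Nat.add_lt_of_lt_sub hN
  have hQpos : 0 < Nat.card W := Nat.card_pos
  set Q := Nat.card W with hQdef
  have hNeq : Fintype.card Ω = f + Q := by
    have hm0 : m ≠ 0 := by
      rintro rfl
      omega
    have hm2 : m < 2 := by
      by_contra hcon
      push Not at hcon
      have h1 : Q * 2 ≤ Q * m := Nat.mul_le_mul_left _ hcon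
      have h2 : r * (Q * 2) ≤ r * Fintype.card Ω := Nat.mul_le_mul_left _ (by omega)
      have h3 : Q * 1 ≤ Q * r := Nat.mul_le_mul_left _ hr1
      nlinarith
    have : m = 1 := by omega
    rw [hm, this, mul_one]
  by_cases hreg : ∃ ω₀ : Ω, ∀ a : W, ρ (Multiplicative.ofAdd a) ω₀ = ω₀ → a = 0
  · obtain ⟨ω₀, h0⟩ := hreg
    exact Or.inl ⟨ω₀, h0, caseA ρ f hf hNeq ω₀ h0⟩
  right
  push Not at hreg
  have hlarge : ∀ ω : Ω, Q ≤ Fintype.card F * Nat.card (St ρ ω) := by
    intro ω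
    obtain ⟨a, ha, ha0⟩ := hreg ω
    exact St_large hd ρ heq f hf hNeq ω a ha0 ha
  have hsum := sum_card_inf ρ f hf ⊤
  simp only [top_inf_eq, AddSubgroup.card_top] at hsum
  have h1 : r * f + 1 < Q := by
    rw [hNeq] at hN'
    nlinarith
  have h2 : f < G := by
    by_contra hcon
    push Not at hcon
    have : G * r ≤ f * r := Nat.mul_le_mul_right _ hcon
    nlinarith
  have h3 : Fintype.card F * (f + 1) ≤ Fintype.card Ω := by
    rw [hNeq, hr, ← hG]
    have : (f + 1) * r ≤ G * r := Nat.mul_le_mul_right _ h2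
    nlinarith
  have hsum' : ∑ ω : Ω, Nat.card (St ρ ω) = Q * (f + 1) := by
    rw [hsum, hNeq]
    obtain ⟨Q', hQ'⟩ : ∃ Q', Q = Q' + 1 := ⟨Q - 1, by omega⟩
    rw [← hQdef, hQ', Nat.add_sub_cancel]
    ring
  have hle : ∑ ω : Ω, Fintype.card F * Nat.card (St ρ ω) ≤ ∑ _ω : Ω, Q := by
    rw [← Finset.mul_sum, hsum', Finset.sum_const, Finset.card_univ, smul_eq_mul]
    calc Fintype.card F * (Q * (f + 1)) = (Fintype.card F * (f + 1)) * Q := by ring
      _ ≤ Fintype.card Ω * Q := Nat.mul_le_mul_right _ h3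
  have heq' : ∑ _ω : Ω, Q = ∑ ω : Ω, Fintype.card F * Nat.card (St ρ ω) :=
    le_antisymm (Finset.sum_le_sum fun ω _ => hlarge ω) hle
  have hall : ∀ ω : Ω, Fintype.card F * Nat.card (St ρ ω) = Q := fun ω =>
    ((Finset.sum_eq_sum_iff_of_le (fun ω _ => hlarge ω)).1 heq' ω (Finset.mem_univ ω)).symm
  intro ω
  let S : Submodule F W :=
    { carrier := {a | ρ (Multiplicative.ofAdd a) ω = ω}
      add_mem' := fun {a b} ha hb => (St ρ ω).add_mem ha hb
      zero_mem' := (St ρ ω).zero_mem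
      smul_mem' := fun c a ha => smul_closed hd ρ heq f hf hNeq hall ω a ha c }
  refine ⟨S, fun a => Iff.rfl, ?_⟩
  have e1 : Nat.card S = Nat.card (St ρ ω) :=
    Nat.card_congr (Equiv.subtypeEquivRight (fun a => Iff.rfl))
  have e2 := hall ω
  rw [← e1, Module.natCard_eq_pow_finrank (K := F) (V := S), Nat.card_eq_fintype_card, hQ,
    ← pow_succ'] at e2
  exact Nat.pow_right_injective hq2 e2

end Cfsg.Agent.Lib.Helper98MinLLb
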