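import Mathlib
import Cfsg.Agent.Lib.Helper98MinDefs
import Cfsg.Agent.Lib.Helper98MinLLb
import Cfsg.Agent.Lib.Helper94MinFormA
import Cfsg.Agent.Lib.Helper94MinKillB
import Cfsg.Agent.Lib.Helper95MinExistsIndex
import Cfsg.Agent.Lib.Helper97MinDich
import Cfsg.Agent.Lib.Helper97MinFixA
import Cfsg.Agent.Lib.Helper97MinUnif
import Cfsg.Agent.Lib.Helper40MinAlgA

set_option autoImplicit false

/-! PROJECT 8 (minimal index of `PSL_n(q)`): assembly of the pieces. -/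

namespace Cfsg.Agent.Lib.Helper98MinMain

open Matrix Cfsg.Agent.Lib.Helper98MinDefs Cfsg.Agent.Lib.Helper94MinFormA
  Cfsg.Agent.Lib.Helper94MinKillB Cfsg.Agent.Lib.Helper97MinFixA Cfsg.Agent.Lib.Helper97MinUnif
  Cfsg.Agent.Lib.Helper40MinAlgA

section geom
variable {F : Type*} [Field F] [Fintype F] {ι : Type*} [Fintype ι] [DecidableEq ι]
  {Ω : Type*} [Fintype Ω] [DecidableEq Ω]
set_option linter.unusedSectionVars false

theorem dich (hn : 3 ≤ Fintype.card ι) (α : SpecialLinearGroup ι F →* Equiv.Perm Ω)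
    (hN : (Fintype.card F - 1) * Fintype.card Ω < Fintype.card F ^ Fintype.card ι - 1)
    (v : ι → F) (hv : v ≠ 0) (hnt : ∃ (φ : ι → F) (ω : Ω), φ ⬝ᵥ v = 0 ∧ α (T v φ) ω ≠ ω) :
    TypeA α v ∨ TypeB α v :=
  Cfsg.Agent.Lib.Helper97MinDich.dich_of_local hn α hN v hv hnt
    (fun hd ρ heq hnt hN => Cfsg.Agent.Lib.Helper98MinLLb.local_lemma hd ρ heq hnt hN)

/-! ### assembly (helper98) -/

theorem killA [Nonempty Ω] (hn : 3 ≤ Fintype.card ι)
    (hex : ¬ (Fintype.card ι = 4 ∧ Fintype.card F = 2))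
    (α : SpecialLinearGroup ι F →* Equiv.Perm Ω)
    (hfpf : ∀ (v φ : ι → F) (ω : Ω), v ≠ 0 → φ ≠ 0 → φ ⬝ᵥ v = 0 → α (T v φ) ω ≠ ω)
    (htr : ∀ v : ι → F, v ≠ 0 → ∀ ω ω' : Ω, ∃ φ, φ ⬝ᵥ v = 0 ∧ α (T v φ) ω = ω') : False := by
  obtain ⟨i₀, i₁, h01⟩ : ∃ i₀ i₁ : ι, i₀ ≠ i₁ := by
    have : 1 < Fintype.card ι := by omega
    exact Fintype.exists_pair_of_one_lt_card this
  obtain ⟨ω⟩ := (inferInstance : Nonempty Ω)
  obtain ⟨θ, h1, h2, h3, h4, h5⟩ := formA α hfpf htr (Pi.single i₀ 1) (Pi.single i₁ 1)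
    (by simp [Pi.single_eq_zero_iff]) (by simp [Pi.single_eq_zero_iff]) (by simp [h01]) ω
  exact algA hn hex i₀ i₁ h01 θ h1 h2 h3 h4 h5

theorem nontriv (hn : 2 ≤ Fintype.card ι) (α : SpecialLinearGroup ι F →* Equiv.Perm Ω)
    (hfix : ∃ (ω : Ω) (g : SpecialLinearGroup ι F), α g ω ≠ ω) (v : ι → F) (hv : v ≠ 0) :
    ∃ (φ : ι → F) (ω : Ω), φ ⬝ᵥ v = 0 ∧ α (T v φ) ω ≠ ω := by
  by_contra hcon
  push Not at hcon
  have hnt : Nontrivial ι := Fintype.one_lt_card_iff_nontrivial.1 (by omega)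
  have h1 : ∀ φ : ι → F, α (T v φ) = 1 := by
    intro φ
    by_cases h : φ ⬝ᵥ v = 0
    · ext ω
      exact hcon φ ω h
    · rw [T_of_ne h, map_one]
  have h2 : α.ker = ⊤ := by
    apply eq_top_of_T_mem
    intro v' φ'
    by_cases hv' : v' = 0
    · subst hv'; rw [T_zero_left]; exact Subgroup.one_mem _
    · obtain ⟨g, hg⟩ := exists_mulVec_eq hn hv hv'
      have h3 := T_conj g v (φ' ᵥ* (g : Matrix ι ι F))
      rw [hg, vecMul_vecMul, coe_mul_inv, vecMul_one] at h3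
      rw [MonoidHom.mem_ker, ← h3, map_mul, map_mul, h1, mul_one, ← map_mul, mul_inv_cancel, map_one]
  obtain ⟨ω, g, hg⟩ := hfix
  apply hg
  have : α g = 1 := MonoidHom.mem_ker.1 (h2 ▸ Subgroup.mem_top g)
  rw [this]; rfl

theorem core (hn : 3 ≤ Fintype.card ι) (hex : ¬ (Fintype.card ι = 4 ∧ Fintype.card F = 2))
    (α : SpecialLinearGroup ι F →* Equiv.Perm Ω) (htrans : ∀ ω ω' : Ω, ∃ g, α g ω = ω')
    (h2 : 2 ≤ Fintype.card Ω) :
    Fintype.card F ^ Fintype.card ι - 1 ≤ (Fintype.card F - 1) * Fintype.card Ω := by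
  by_contra hN
  push Not at hN
  have hne : Nonempty Ω := Fintype.card_pos_iff.1 (by omega)
  have hfix : ∀ ω : Ω, ∃ g, α g ω ≠ ω := by
    intro ω
    obtain ⟨ω', hω'⟩ := Fintype.exists_ne_of_one_lt_card (by omega : 1 < Fintype.card Ω) ω
    obtain ⟨g, hg⟩ := htrans ω ω'
    exact ⟨g, by rw [hg]; exact hω'⟩
  have hdd : (α.comp dualAut).comp dualAut = α := by
    ext g : 1
    simp only [MonoidHom.comp_apply, dualAut_dualAut]
  have hfix' : ∀ ω : Ω, ∃ g, (α.comp dualAut) g ω ≠ ω := by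
    intro ω
    obtain ⟨g, hg⟩ := hfix ω
    exact ⟨dualAut g, by simpa only [MonoidHom.comp_apply, dualAut_dualAut] using hg⟩
  obtain ⟨ω₁⟩ := hne
  have hd : ∀ v : ι → F, v ≠ 0 → TypeA α v ∨ TypeB α v := fun v hv =>
    dich hn α hN v hv (nontriv (by omega) α ⟨ω₁, hfix ω₁⟩ v hv)
  have hd' : ∀ v : ι → F, v ≠ 0 → TypeA (α.comp dualAut) v ∨ TypeB (α.comp dualAut) v :=
    fun v hv => dich hn _ hN v hv (nontriv (by omega) _ ⟨ω₁, hfix' ω₁⟩ v hv)
  have hal : ∀ β : SpecialLinearGroup ι F →* Equiv.Perm Ω,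
      (∀ v : ι → F, v ≠ 0 → TypeA β v ∨ TypeB β v) →
      (∀ v : ι → F, v ≠ 0 → TypeA β v) ∨ (∀ v : ι → F, v ≠ 0 → TypeB β v) := by
    intro β hβ
    by_cases h : ∃ v : ι → F, v ≠ 0 ∧ TypeB β v
    · obtain ⟨v, hv, hB⟩ := h
      exact Or.inr fun v' hv' => typeB_all (by omega) β hv hB hv'
    · push Not at h
      exact Or.inl fun v hv => (hβ v hv).resolve_right (h v hv)
  have hne : Nonempty Ω := ⟨ω₁⟩
  rcases hal α hd with hA | hB
  · rcases hal _ hd' with hA' | hB'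
    · have hfpf := fixA hn α hfix hA hA'
      have htr : ∀ v : ι → F, v ≠ 0 → ∀ ω ω' : Ω, ∃ φ, φ ⬝ᵥ v = 0 ∧ α (T v φ) ω = ω' := by
        intro v hv ω ω'
        obtain ⟨ω₀, -, hall⟩ := hA v hv
        obtain ⟨c, hc, hvc⟩ := exists_perp1 (by omega : 2 ≤ Fintype.card ι) v
        have hcv : c ⬝ᵥ v = 0 := by rw [dotProduct_comm]; exact hvc
        have key : ∀ ω, ∃ φ, φ ⬝ᵥ v = 0 ∧ α (T v φ) ω₀ = ω := by
          intro ω
          rcases hall ω with h | h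
          · exact h
          · exact absurd (h c hcv) (hfpf v c ω hv hc hcv)
        obtain ⟨φ1, h1, e1⟩ := key ω
        obtain ⟨φ2, h2', e2⟩ := key ω'
        refine ⟨φ2 + -φ1, by rw [add_dotProduct, neg_dotProduct, h1, h2']; simp, ?_⟩
        rw [T_add_right h2' (by rw [neg_dotProduct, h1, neg_zero]), ← T_inv h1, map_mul,
          Equiv.Perm.mul_apply, map_inv, ← e1]
        have : (α (T v φ1))⁻¹ (α (T v φ1) ω₀) = ω₀ := by
          rw [← Equiv.Perm.mul_apply, inv_mul_cancel]; rfl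
        rw [this, e2]
      exact killA hn hex α hfpf htr
    · exact killB hn (α.comp dualAut) hB' (by rw [hdd]; exact Or.inl hA)
  · exact killB hn α hB (hal _ hd')

end geom


theorem index_ge {F : Type*} [Field F] [Fintype F] (n : ℕ) (hn : 3 ≤ n)
    (hex : ¬ (n = 4 ∧ Fintype.card F = 2))
    (H : Subgroup (Matrix.ProjectiveSpecialLinearGroup (Fin n) F)) (hH : H ≠ ⊤) :
    (Fintype.card F ^ n - 1) / (Fintype.card F - 1) ≤ H.index := by
  classical
  have hfin : Finite (Matrix.ProjectiveSpecialLinearGroup (Fin n) F) := by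
    unfold Matrix.ProjectiveSpecialLinearGroup
    infer_instance
  have : Fintype (Matrix.ProjectiveSpecialLinearGroup (Fin n) F ⧸ H) := Fintype.ofFinite _
  let α : SpecialLinearGroup (Fin n) F →*
      Equiv.Perm (Matrix.ProjectiveSpecialLinearGroup (Fin n) F ⧸ H) :=
    (MulAction.toPermHom (Matrix.ProjectiveSpecialLinearGroup (Fin n) F)
      (Matrix.ProjectiveSpecialLinearGroup (Fin n) F ⧸ H)).comp
      (QuotientGroup.mk' (Subgroup.center (SpecialLinearGroup (Fin n) F)))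
  have htrans : ∀ ω ω' : Matrix.ProjectiveSpecialLinearGroup (Fin n) F ⧸ H, ∃ g, α g ω = ω' := by
    intro ω ω'
    obtain ⟨p, hp⟩ := MulAction.exists_smul_eq (Matrix.ProjectiveSpecialLinearGroup (Fin n) F) ω ω'
    obtain ⟨g, rfl⟩ := QuotientGroup.mk'_surjective _ p
    exact ⟨g, hp⟩
  have hcard : Fintype.card (Matrix.ProjectiveSpecialLinearGroup (Fin n) F ⧸ H) = H.index := by
    rw [Subgroup.index_eq_card, Nat.card_eq_fintype_card]
  have h2 : 2 ≤ Fintype.card (Matrix.ProjectiveSpecialLinearGroup (Fin n) F ⧸ H) := by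
    rw [hcard]
    have h0 : H.index ≠ 0 := Subgroup.index_ne_zero_of_finite
    have h1 : H.index ≠ 1 := fun h => hH (Subgroup.index_eq_one.1 h)
    omega
  have := core (by rw [Fintype.card_fin]; exact hn) (by rw [Fintype.card_fin]; exact hex) α htrans h2
  rw [Fintype.card_fin, hcard] at this
  exact Nat.div_le_of_le_mul this

theorem main {F : Type*} [Field F] [Fintype F] {q : ℕ} (hF : Fintype.card F = q) (n : ℕ)
    (hn : 3 ≤ n) (hexc : ¬ (n = 4 ∧ q = 2)) :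
    (∀ H : Subgroup (Matrix.ProjectiveSpecialLinearGroup (Fin n) F), H ≠ ⊤ →
      (q ^ n - 1) / (q - 1) ≤ H.index) ∧
    (∃ H : Subgroup (Matrix.ProjectiveSpecialLinearGroup (Fin n) F),
      H.index = (q ^ n - 1) / (q - 1)) := by
  subst hF
  exact ⟨fun H hH => index_ge n hn hexc H hH,
    Cfsg.Agent.Lib.Helper95MinExistsIndex.exists_index n (by omega)⟩

end Cfsg.Agent.Lib.Helper98MinMain
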