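import Mathlib

set_option autoImplicit false

namespace Cfsg.Agent.Lib.Helper99Bender2

/-- Bender-style involution count with multiplicities.  Let `H` be a subgroup of the finite group
`G` and `I` a conjugation-invariant set of involutions such that (a) an element of `I ∩ H` lies in
no other conjugate of `H`, (b) at most `L` products of two elements of `I` lie in `H` and in a
given other conjugate of `H`.  If `H` contains more than `L` elements of `I` then `H = ⊤`. -/
theorem eq_top_of_involutions {G : Type*} [Group G] [Finite G] (H : Subgroup G) (I : G → Prop)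
    (hconj : ∀ g i, I i → I (g * i * g⁻¹))
    (hinv : ∀ i, I i → i * i = 1)
    (ha : ∀ i, I i → i ∈ H → ∀ g, g * i * g⁻¹ ∈ H → g ∈ H)
    (L : ℕ)
    (hb : ∀ g, g ∉ H → ∀ s : Finset G,
      (∀ y ∈ s, y ∈ H ∧ g * y * g⁻¹ ∈ H ∧ ∃ i i', I i ∧ I i' ∧ y = i * i') → s.card ≤ L)
    {κ : Type*} [Fintype κ] (ie : κ → G) (hieinj : Function.Injective ie) (hieI : ∀ k, I (ie k))
    (hieH : ∀ k, ie k ∈ H) (hL : L < Fintype.card κ) :
    H = ⊤ := by
  classical
  by_contra htop
  obtain ⟨g₁, hg₁⟩ : ∃ g₁ : G, g₁ ∉ H := by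
    by_contra hcon
    push Not at hcon
    exact htop (by rw [eq_top_iff]; intro x _; exact hcon x)
  have : Fintype (G ⧸ H) := Fintype.ofFinite _
  set f : (G ⧸ H) × κ → G := fun p => p.1.out * ie p.2 * (p.1.out)⁻¹ with hf
  have hfI : ∀ p, I (f p) := fun p => hconj _ _ (hieI _)
  -- fixed points
  have hfix : ∀ (p : (G ⧸ H) × κ) (ω : G ⧸ H), f p • ω = ω → ω = p.1 := by
    intro p ω h
    obtain ⟨b, rfl⟩ := QuotientGroup.mk_surjective ω
    have h' : ((f p * b : G) : G ⧸ H) = (b : G ⧸ H) := h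
    rw [QuotientGroup.eq] at h'
    have h3 : (b⁻¹ * p.1.out) * ie p.2 * (b⁻¹ * p.1.out)⁻¹ ∈ H := by
      have := H.inv_mem h'
      have e : ((f p * b)⁻¹ * b)⁻¹ = (b⁻¹ * p.1.out) * ie p.2 * (b⁻¹ * p.1.out)⁻¹ := by
        simp only [hf]; group
      rwa [e] at this
    have h4 := ha _ (hieI _) (hieH _) _ h3
    have : (b : G ⧸ H) = ((p.1.out : G) : G ⧸ H) := by
      rw [QuotientGroup.eq]; exact h4
    rw [this, QuotientGroup.out_eq']
  have hfixself : ∀ p : (G ⧸ H) × κ, f p • p.1 = p.1 := by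
    intro p
    conv_lhs => rw [← QuotientGroup.out_eq' p.1]
    conv_rhs => rw [← QuotientGroup.out_eq' p.1]
    show ((f p * p.1.out : G) : G ⧸ H) = _
    rw [QuotientGroup.eq]
    have e : (f p * p.1.out)⁻¹ * p.1.out = (ie p.2)⁻¹ := by simp only [hf]; group
    rw [e]
    exact H.inv_mem (hieH _)
  have hfinj : Function.Injective f := by
    intro p p' e3
    have e4 : p'.1 = p.1 := by
      apply hfix p
      rw [e3]
      exact hfixself p'
    have e5 : ie p.2 = ie p'.2 := by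
      have : p.1.out * ie p.2 * (p.1.out)⁻¹ = p'.1.out * ie p'.2 * (p'.1.out)⁻¹ := e3
      rw [e4] at this
      simpa using this
    exact Prod.ext e4.symm (hieinj e5)
  set ω₁ : G ⧸ H := (g₁ : G ⧸ H) with hω₁
  have hω₁ne : ω₁ ≠ ((1 : G) : G ⧸ H) := by
    intro h
    rw [hω₁, QuotientGroup.eq] at h
    apply hg₁
    have := H.inv_mem h
    simpa using this
  -- the counting
  set X : Finset ((G ⧸ H) × κ) := (Finset.univ.erase ω₁) ×ˢ Finset.univ with hX
  set Y : Finset (G ⧸ H) := Finset.univ.erase ω₁ with hY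
  have hmaps : ∀ p ∈ X, f p • ω₁ ∈ Y := by
    intro p hp
    simp only [hX, hY, Finset.mem_product, Finset.mem_erase, Finset.mem_univ, and_true] at hp
    simp only [hY, Finset.mem_erase, Finset.mem_univ, and_true]
    intro h
    exact hp (hfix p ω₁ h).symm
  have hXc : X.card = Y.card * Fintype.card κ := by
    rw [hX, Finset.card_product]; simp [hY]
  have hYpos : 0 < Y.card := by
    rw [Finset.card_pos]
    exact ⟨((1 : G) : G ⧸ H), by simp [hY, Ne.symm hω₁ne]⟩
  obtain ⟨ω', hω'Y, hfib⟩ := Finset.exists_lt_card_fiber_of_mul_lt_card_of_maps_to hmaps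
    (n := L) (by rw [hXc]; exact Nat.mul_lt_mul_of_pos_left hL hYpos)
  have hω'ne : ω' ≠ ω₁ := by
    simpa [hY] using hω'Y
  obtain ⟨b, rfl⟩ := QuotientGroup.mk_surjective ω'
  set fib := X.filter (fun p => f p • ω₁ = ((b : G) : G ⧸ H)) with hfibdef
  obtain ⟨p₀, hp₀⟩ : fib.Nonempty := by
    rw [← Finset.card_pos]; omega
  have hp₀' : f p₀ • ω₁ = ((b : G) : G ⧸ H) := (Finset.mem_filter.1 hp₀).2
  have hback : ∀ p, f p • ω₁ = ((b : G) : G ⧸ H) → f p • ((b : G) : G ⧸ H) = ω₁ := by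
    intro p hp
    rw [← hp, ← mul_smul, hinv _ (hfI p), one_smul]
  set s : Finset G := fib.image (fun p => g₁⁻¹ * (f p₀ * f p) * g₁) with hs
  have hscard : s.card = fib.card := by
    rw [hs]
    apply Finset.card_image_of_injective
    intro p p' h
    apply hfinj
    simpa using h
  have hgb : b⁻¹ * g₁ ∉ H := by
    intro hh
    apply hω'ne
    rw [hω₁, QuotientGroup.eq]; exact hh
  have := hb (b⁻¹ * g₁) hgb s (by
    intro y hy
    rw [hs, Finset.mem_image] at hy
    obtain ⟨p, hp, rfl⟩ := hy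
    have hp' : f p • ω₁ = ((b : G) : G ⧸ H) := (Finset.mem_filter.1 hp).2
    refine ⟨?_, ?_, g₁⁻¹ * f p₀ * g₁⁻¹⁻¹, g₁⁻¹ * f p * g₁⁻¹⁻¹, hconj _ _ (hfI _), hconj _ _ (hfI _),
      by group⟩
    · have e1 : (f p₀ * f p) • ω₁ = ω₁ := by
        rw [mul_smul, hp', hback p₀ hp₀']
      have e2 : ((f p₀ * f p * g₁ : G) : G ⧸ H) = (g₁ : G ⧸ H) := e1
      rw [QuotientGroup.eq] at e2
      have := H.inv_mem e2
      have e : ((f p₀ * f p * g₁)⁻¹ * g₁)⁻¹ = g₁⁻¹ * (f p₀ * f p) * g₁ := by group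
      rwa [e] at this
    · have e1 : (f p₀ * f p) • ((b : G) : G ⧸ H) = ((b : G) : G ⧸ H) := by
        rw [mul_smul, hback p hp', hp₀']
      have e2 : ((f p₀ * f p * b : G) : G ⧸ H) = (b : G ⧸ H) := e1
      rw [QuotientGroup.eq] at e2
      have := H.inv_mem e2
      have e : ((f p₀ * f p * b)⁻¹ * b)⁻¹ =
          b⁻¹ * g₁ * (g₁⁻¹ * (f p₀ * f p) * g₁) * (b⁻¹ * g₁)⁻¹ := by group
      rwa [e] at this)
  omega

end Cfsg.Agent.Lib.Helper99Bender2
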