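import Mathlib

/-!
Arithmetic for S2363: the order of a group of Lie type in characteristic `p` compared with
its `p`-part.  Everything here is about natural numbers.
-/

set_option autoImplicit false

namespace Cfsg.Agent.Helper99LieOrd

/-- the conclusion we are after, for the natural number `g`, without the `PSL_2` exception -/
def Good (p g : ℕ) : Prop :=
  g < p ^ (3 * g.factorization p) ∧ g ^ 3 < p ^ (8 * g.factorization p)

theorem le_fact {p q f c g N : ℕ} (hp : p.Prime) (hq : q = p ^ f) (hg : 0 < g)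
    (hc : Nat.Coprime c q) (hdvd : q ^ N ∣ c * g) : f * N ≤ g.factorization p := by
  have h1 : q ^ N ∣ g := by
    refine Nat.Coprime.dvd_of_dvd_mul_left ?_ hdvd
    exact (Nat.Coprime.pow_right N hc).symm
  rw [hq, ← pow_mul] at h1
  exact (hp.pow_dvd_iff_le_factorization hg.ne').1 h1

theorem first {p q f c g N D : ℕ} (hp : p.Prime) (hq : q = p ^ f) (hg : 0 < g)
    (hc : Nat.Coprime c q) (hdvd : q ^ N ∣ c * g) (hlt : g < q ^ D) (h1 : D ≤ 3 * N) :
    g < p ^ (3 * g.factorization p) := by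
  have hk := le_fact hp hq hg hc hdvd
  refine lt_of_lt_of_le hlt ?_
  rw [hq, ← pow_mul]
  refine Nat.pow_le_pow_right hp.pos ?_
  calc f * D ≤ f * (3 * N) := Nat.mul_le_mul_left _ h1
    _ = 3 * (f * N) := by ring
    _ ≤ _ := Nat.mul_le_mul_left _ hk

theorem second {p q f c g N D : ℕ} (hp : p.Prime) (hq : q = p ^ f) (hg : 0 < g)
    (hc : Nat.Coprime c q) (hdvd : q ^ N ∣ c * g) (hlt : g < q ^ D) (h1 : 3 * D ≤ 8 * N) :
    g ^ 3 < p ^ (8 * g.factorization p) := by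
  have hk := le_fact hp hq hg hc hdvd
  refine lt_of_lt_of_le (Nat.pow_lt_pow_left hlt (by norm_num)) ?_
  rw [hq, ← pow_mul, ← pow_mul]
  refine Nat.pow_le_pow_right hp.pos ?_
  calc f * (D * 3) = f * (3 * D) := by ring
    _ ≤ f * (8 * N) := Nat.mul_le_mul_left _ h1
    _ = 8 * (f * N) := by ring
    _ ≤ _ := Nat.mul_le_mul_left _ hk

theorem good {p q f c g N D : ℕ} (hp : p.Prime) (hq : q = p ^ f) (hg : 0 < g)
    (hc : Nat.Coprime c q) (hdvd : q ^ N ∣ c * g) (hlt : g < q ^ D) (h1 : D ≤ 3 * N)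
    (h2 : 3 * D ≤ 8 * N) : Good p g :=
  ⟨first hp hq hg hc hdvd hlt h1, second hp hq hg hc hdvd hlt h2⟩

/-! ### coprimality -/

theorem cop_sub_one {q : ℕ} (hq : 1 ≤ q) : Nat.Coprime (q - 1) q := by
  obtain ⟨r, rfl⟩ : ∃ r, q = r + 1 := ⟨q - 1, by omega⟩
  simp

theorem cop_pow_sub_one {q a : ℕ} (hq : 1 ≤ q) (ha : 1 ≤ a) : Nat.Coprime (q ^ a - 1) q := by
  have h1 : Nat.Coprime (q ^ a - 1) (q ^ a) := cop_sub_one (Nat.one_le_pow _ _ hq)
  exact Nat.Coprime.coprime_dvd_right (dvd_pow_self q (by omega)) h1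

theorem cop_pow_add_one {q a : ℕ} (ha : 1 ≤ a) : Nat.Coprime (q ^ a + 1) q := by
  have h1 : Nat.Coprime (q ^ a + 1) (q ^ a) := by simp
  exact Nat.Coprime.coprime_dvd_right (dvd_pow_self q (by omega)) h1

theorem cop_gcd {n c q : ℕ} (h : Nat.Coprime c q) : Nat.Coprime (Nat.gcd n c) q :=
  Nat.Coprime.coprime_dvd_left (Nat.gcd_dvd_right n c) h

/-! ### bounding steps -/

theorem stepM {A B q a : ℕ} (h : A ≤ B) : A * (q ^ a - 1) ≤ B * q ^ a :=
  Nat.mul_le_mul h (Nat.sub_le _ _)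

theorem stepM' {A B q a : ℕ} (hq : 1 ≤ q) (hB : 0 < B) (h : A ≤ B) :
    A * (q ^ a - 1) < B * q ^ a := by
  have h1 : 0 < q ^ a := Nat.pow_pos hq
  calc A * (q ^ a - 1) ≤ B * (q ^ a - 1) := Nat.mul_le_mul_right _ h
    _ < B * q ^ a := Nat.mul_lt_mul_of_pos_left (by omega) hB

theorem add_one_le {q a : ℕ} (hq : 2 ≤ q) : q ^ a + 1 ≤ q ^ (a + 1) := by
  have h1 : 0 < q ^ a := Nat.pow_pos (by omega)
  rw [pow_succ]
  nlinarith

theorem stepP {A B q a : ℕ} (hq : 2 ≤ q) (h : A ≤ B) : A * (q ^ a + 1) ≤ B * q ^ (a + 1) :=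
  Nat.mul_le_mul h (add_one_le hq)


/-! ### the products occurring in the classical families -/

theorem prodM_le (q m : ℕ) :
    ∏ i ∈ Finset.range m, (q ^ (2 * (i + 1)) - 1) ≤ q ^ (m * (m + 1)) := by
  induction m with
  | zero => simp
  | succ m ih =>
    rw [Finset.prod_range_succ]
    calc _ ≤ q ^ (m * (m + 1)) * q ^ (2 * (m + 1)) := stepM ih
      _ = _ := by rw [← pow_add]; congr 1; ring

theorem prodM_lt {q m : ℕ} (hq : 1 ≤ q) (hm : 1 ≤ m) :
    ∏ i ∈ Finset.range m, (q ^ (2 * (i + 1)) - 1) < q ^ (m * (m + 1)) := by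
  obtain ⟨r, rfl⟩ : ∃ r, m = r + 1 := ⟨m - 1, by omega⟩
  rw [Finset.prod_range_succ]
  calc _ < q ^ (r * (r + 1)) * q ^ (2 * (r + 1)) := stepM' hq (Nat.pow_pos hq) (prodM_le q r)
    _ = _ := by rw [← pow_add]; congr 1; ring

theorem two_le_of_pow {p q f : ℕ} (hp : p.Prime) (hq : q = p ^ f) (hf : 1 ≤ f) : 2 ≤ q := by
  rw [hq]
  calc 2 ≤ p := hp.two_le
    _ = p ^ 1 := (pow_one p).symm
    _ ≤ p ^ f := Nat.pow_le_pow_right hp.pos hf

theorem le_mul_of_cop {c q g : ℕ} (hq : 2 ≤ q) (hc : Nat.Coprime c q) : g ≤ c * g := by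
  have : 0 < c := by
    rcases Nat.eq_zero_or_pos c with h | h
    · subst h
      simp at hc
      omega
    · exact h
  exact Nat.le_mul_of_pos_left g this

/-- symplectic and odd orthogonal type -/
theorem sp {p q f c g m : ℕ} (hp : p.Prime) (hq : q = p ^ f) (hf : 1 ≤ f) (hg : 0 < g)
    (hm : 2 ≤ m) (hc : Nat.Coprime c q)
    (h : c * g = q ^ (m ^ 2) * ∏ i ∈ Finset.range m, (q ^ (2 * (i + 1)) - 1)) : Good p g := by
  have hq2 := two_le_of_pow hp hq hf
  refine good (N := m ^ 2) (D := m ^ 2 + m * (m + 1)) hp hq hg hc (by rw [h]; exact Dvd.intro _ rfl) ?_ ?_ ?_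
  · refine lt_of_le_of_lt (le_mul_of_cop hq2 hc) ?_
    rw [h, pow_add]
    exact Nat.mul_lt_mul_of_pos_left (prodM_lt (by omega) (by omega)) (Nat.pow_pos (by omega))
  · nlinarith
  · nlinarith

/-- plus type -/
theorem oplus {p q f c g m : ℕ} (hp : p.Prime) (hq : q = p ^ f) (hf : 1 ≤ f) (hg : 0 < g)
    (hm : 4 ≤ m) (hc : Nat.Coprime c q)
    (h : c * g = q ^ (m * (m - 1)) * (q ^ m - 1) *
      ∏ i ∈ Finset.range (m - 1), (q ^ (2 * (i + 1)) - 1)) : Good p g := by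
  have hq2 := two_le_of_pow hp hq hf
  obtain ⟨r, rfl⟩ : ∃ r, m = r + 1 := ⟨m - 1, by omega⟩
  simp only [Nat.add_sub_cancel] at h
  refine good (N := (r + 1) * r) (D := (r + 1) * r + (r + 1) + r * (r + 1)) hp hq hg hc
    (by rw [h, mul_assoc]; exact Dvd.intro _ rfl) ?_ ?_ ?_
  · refine lt_of_le_of_lt (le_mul_of_cop hq2 hc) ?_
    have hq0 : 0 < q := by omega
    rw [h]
    calc _ < q ^ ((r + 1) * r) * q ^ (r + 1) * q ^ (r * (r + 1)) :=
          Nat.mul_lt_mul_of_lt_of_le (stepM' hq0 (Nat.pow_pos hq0) le_rfl)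
            (prodM_le q r) (Nat.pow_pos hq0)
      _ = _ := by rw [← pow_add, ← pow_add]
  · nlinarith
  · nlinarith

/-- minus type -/
theorem ominus {p q f c g m : ℕ} (hp : p.Prime) (hq : q = p ^ f) (hf : 1 ≤ f) (hg : 0 < g)
    (hm : 4 ≤ m) (hc : Nat.Coprime c q)
    (h : c * g = q ^ (m * (m - 1)) * (q ^ m + 1) *
      ∏ i ∈ Finset.range (m - 1), (q ^ (2 * (i + 1)) - 1)) : Good p g := by
  have hq2 := two_le_of_pow hp hq hf
  obtain ⟨r, rfl⟩ : ∃ r, m = r + 1 := ⟨m - 1, by omega⟩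
  simp only [Nat.add_sub_cancel] at h
  refine good (N := (r + 1) * r) (D := (r + 1) * r + (r + 1 + 1) + r * (r + 1)) hp hq hg hc
    (by rw [h, mul_assoc]; exact Dvd.intro _ rfl) ?_ ?_ ?_
  · refine lt_of_le_of_lt (le_mul_of_cop hq2 hc) ?_
    have hq0 : 0 < q := by omega
    rw [h]
    calc _ < q ^ ((r + 1) * r) * q ^ (r + 1 + 1) * q ^ (r * (r + 1)) :=
          Nat.mul_lt_mul_of_le_of_lt (stepP hq2 le_rfl)
            (prodM_lt hq0 (by omega)) (Nat.mul_pos (Nat.pow_pos hq0) (Nat.pow_pos hq0))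
      _ = _ := by rw [← pow_add, ← pow_add]
  · nlinarith
  · nlinarith


/-! ### linear type -/

theorem psl_dvd (q n : ℕ) :
    q ^ (∑ i ∈ Finset.range n, i) ∣ ∏ i ∈ Finset.range n, (q ^ n - q ^ i) := by
  rw [← Finset.prod_pow_eq_pow_sum]
  refine Finset.prod_dvd_prod_of_dvd _ _ ?_
  intro i hi
  exact Nat.dvd_sub (pow_dvd_pow q (Finset.mem_range.1 hi).le) dvd_rfl

theorem psl_red {q g d m : ℕ} (hq : 2 ≤ q)
    (h : d * ((q - 1) * g) = ∏ i ∈ Finset.range (m + 1), (q ^ (m + 1) - q ^ i)) :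
    d * g = (∏ i ∈ Finset.range m, (q ^ (m + 1) - q ^ i)) * q ^ m := by
  rw [Finset.prod_range_succ] at h
  have h1 : q ^ (m + 1) - q ^ m = q ^ m * (q - 1) := by
    rw [pow_succ, Nat.mul_sub, mul_one]
  rw [h1] at h
  have h2 : 0 < q - 1 := by omega
  refine Nat.eq_of_mul_eq_mul_right h2 ?_
  calc d * g * (q - 1) = d * ((q - 1) * g) := by ring
    _ = _ := by rw [h]; ring

theorem psl_lt {q m : ℕ} (hq : 2 ≤ q) (hm : 1 ≤ m) :
    ∏ i ∈ Finset.range m, (q ^ (m + 1) - q ^ i) < q ^ ((m + 1) * m) := by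
  have h0 : 0 < q := by omega
  calc ∏ i ∈ Finset.range m, (q ^ (m + 1) - q ^ i) < ∏ _i ∈ Finset.range m, q ^ (m + 1) := by
        refine Finset.prod_lt_prod_of_nonempty ?_ ?_ ⟨0, Finset.mem_range.2 hm⟩
        · intro i hi
          have : q ^ i < q ^ (m + 1) :=
            Nat.pow_lt_pow_right hq (by have := Finset.mem_range.1 hi; omega)
          omega
        · intro i _
          have h1 : 0 < q ^ i := Nat.pow_pos h0
          have h2 : 0 < q ^ (m + 1) := Nat.pow_pos h0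
          omega
    _ = _ := by rw [Finset.prod_const, Finset.card_range, ← pow_mul]

theorem psl {p q f g n : ℕ} (hp : p.Prime) (hq : q = p ^ f) (hf : 1 ≤ f) (hg : 0 < g)
    (hn : 2 ≤ n)
    (h : Nat.gcd n (q - 1) * ((q - 1) * g) = ∏ i : Fin n, (q ^ n - q ^ (i : ℕ))) :
    g < p ^ (3 * g.factorization p) ∧ (3 ≤ n → g ^ 3 < p ^ (8 * g.factorization p)) ∧
      (n = 2 → q = p ^ g.factorization p) := by
  have hq2 := two_le_of_pow hp hq hf
  have hq0 : 0 < q := by omega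
  rw [Fin.prod_univ_eq_prod_range (fun i => q ^ n - q ^ i) n] at h
  have hc1 : Nat.Coprime (q - 1) q := cop_sub_one hq0
  have hcd : Nat.Coprime (Nat.gcd n (q - 1)) q := cop_gcd hc1
  have hc : Nat.Coprime (Nat.gcd n (q - 1) * (q - 1)) q := Nat.Coprime.mul_left hcd hc1
  have hdvd : q ^ (∑ i ∈ Finset.range n, i) ∣ Nat.gcd n (q - 1) * (q - 1) * g := by
    rw [mul_assoc, h]
    exact psl_dvd q n
  obtain ⟨m, rfl⟩ : ∃ m, n = m + 1 := ⟨n - 1, by omega⟩
  have hred := psl_red hq2 h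
  have hlt : g < q ^ ((m + 1) * m + m) := by
    refine lt_of_le_of_lt (le_mul_of_cop hq2 hcd) ?_
    rw [hred, pow_add q ((m + 1) * m) m]
    exact Nat.mul_lt_mul_of_pos_right (psl_lt hq2 (by omega)) (Nat.pow_pos hq0)
  have hsum : (∑ i ∈ Finset.range (m + 1), i) * 2 = (m + 1) * m := by
    rw [Finset.sum_range_id_mul_two]; simp
  refine ⟨first hp hq hg hc hdvd hlt ?_, fun h3 => second hp hq hg hc hdvd hlt ?_, ?_⟩
  · nlinarith
  · nlinarith
  · intro h2
    obtain rfl : m = 1 := by omega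
    have hk1 : f * (∑ i ∈ Finset.range (1 + 1), i) ≤ g.factorization p :=
      le_fact hp hq hg hc hdvd
    have hk2 : g.factorization p ≤ f := by
      have h3 : p ^ g.factorization p ∣ Nat.gcd (1 + 1) (q - 1) * g :=
        Dvd.dvd.mul_left (Nat.ordProj_dvd g p) _
      rw [hred] at h3
      simp only [Finset.range_one, Finset.prod_singleton, pow_zero, pow_one] at h3
      have h4 : Nat.Coprime (p ^ g.factorization p) (q ^ (1 + 1) - 1) := by
        have h5 : Nat.Coprime (q ^ (1 + 1) - 1) q := cop_pow_sub_one hq0 (by omega)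
        rw [hq] at h5 ⊢
        have h6 : Nat.Coprime ((p ^ f) ^ (1 + 1) - 1) p :=
          Nat.Coprime.coprime_dvd_right (dvd_pow_self p (by omega)) h5
        exact (Nat.Coprime.pow_right _ h6).symm
      have h7 := Nat.Coprime.dvd_of_dvd_mul_left h4 h3
      rw [hq] at h7
      exact (Nat.pow_dvd_pow_iff_le_right hp.one_lt).1 h7
    have hk3 : (∑ i ∈ Finset.range (1 + 1), i) = 1 := by decide
    rw [hk3, mul_one] at hk1
    rw [hq, le_antisymm hk1 hk2]

/-! ### unitary type -/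

/-- the product in the order formula of the unitary groups -/
def uprod (q n : ℕ) : ℕ :=
  ∏ i ∈ Finset.range n, (if Even i then q ^ (i + 1) + 1 else q ^ (i + 1) - 1)

theorem uprod_succ_even (q : ℕ) {n : ℕ} (hn : Even n) :
    uprod q (n + 1) = uprod q n * (q ^ (n + 1) + 1) := by
  unfold uprod
  rw [Finset.prod_range_succ, if_pos hn]

theorem uprod_succ_odd (q : ℕ) {n : ℕ} (hn : ¬ Even n) :
    uprod q (n + 1) = uprod q n * (q ^ (n + 1) - 1) := by
  unfold uprod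
  rw [Finset.prod_range_succ, if_neg hn]

theorem pair_lt {q a : ℕ} (hq : 2 ≤ q) : (q ^ a - 1) * (q ^ (a + 1) + 1) < q ^ (a + (a + 1)) := by
  have h1 : 0 < q ^ a := Nat.pow_pos (by omega)
  obtain ⟨y, hy⟩ : ∃ y, q ^ a = y + 1 := ⟨q ^ a - 1, by omega⟩
  rw [pow_add q a (a + 1), pow_succ q a, hy]
  simp only [Nat.add_sub_cancel]
  nlinarith

/-- `E n = 1 + 2 + ... + n` doubled is `n (n+1)`; we use exponents `e` with `2 e = n (n+1)` -/
theorem uprod_odd_le {q : ℕ} (hq : 2 ≤ q) (j : ℕ) :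
    uprod q (2 * j + 1) * q ≤ (q + 1) * q ^ ((2 * j + 1) * (j + 1)) := by
  induction j with
  | zero => simp [uprod]
  | succ j ih =>
    have e1 : 2 * (j + 1) + 1 = (2 * j + 1 + 1) + 1 := by ring
    rw [e1, uprod_succ_even q (by simp [Nat.even_add_one]),
      uprod_succ_odd q (by simp)]
    have h1 := (pair_lt (a := 2 * j + 1 + 1) hq).le
    calc uprod q (2 * j + 1) * (q ^ (2 * j + 1 + 1) - 1) * (q ^ (2 * j + 1 + 1 + 1) + 1) * q
        = (uprod q (2 * j + 1) * q) * ((q ^ (2 * j + 1 + 1) - 1) * (q ^ (2 * j + 1 + 1 + 1) + 1)) := by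
          ring
      _ ≤ ((q + 1) * q ^ ((2 * j + 1) * (j + 1))) * q ^ (2 * j + 1 + 1 + (2 * j + 1 + 1 + 1)) :=
          Nat.mul_le_mul ih h1
      _ = _ := by
          rw [mul_assoc, ← pow_add]
          congr 2
          ring

theorem uprod_lt {q n e : ℕ} (hq : 2 ≤ q) (hn : 2 ≤ n) (he : 2 * e = n * (n + 1)) :
    uprod q n * q < (q + 1) * q ^ e := by
  have hq0 : 0 < q := by omega
  rcases Nat.even_or_odd' n with ⟨j, rfl | rfl⟩
  · obtain ⟨i, rfl⟩ : ∃ i, j = i + 1 := ⟨j - 1, by omega⟩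
    have e1 : 2 * (i + 1) = 2 * i + 1 + 1 := by ring
    have he' : e = (2 * i + 1) * (i + 1) + (2 * i + 1 + 1) := by nlinarith
    rw [e1, uprod_succ_odd q (by simp), he',
      pow_add q ((2 * i + 1) * (i + 1)) (2 * i + 1 + 1), ← mul_assoc]
    calc uprod q (2 * i + 1) * (q ^ (2 * i + 1 + 1) - 1) * q
        = (uprod q (2 * i + 1) * q) * (q ^ (2 * i + 1 + 1) - 1) := by ring
      _ < _ := stepM' hq0 (Nat.mul_pos (by omega) (Nat.pow_pos hq0)) (uprod_odd_le hq i)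
  · obtain ⟨i, rfl⟩ : ∃ i, j = i + 1 := ⟨j - 1, by omega⟩
    have e1 : 2 * (i + 1) + 1 = (2 * i + 1 + 1) + 1 := by ring
    have he' : e = (2 * i + 1) * (i + 1) + (2 * i + 1 + 1 + (2 * i + 1 + 1 + 1)) := by nlinarith
    rw [e1, uprod_succ_even q (by simp [Nat.even_add_one]),
      uprod_succ_odd q (by simp), he',
      pow_add q ((2 * i + 1) * (i + 1)) (2 * i + 1 + 1 + (2 * i + 1 + 1 + 1)), ← mul_assoc]
    calc uprod q (2 * i + 1) * (q ^ (2 * i + 1 + 1) - 1) * (q ^ (2 * i + 1 + 1 + 1) + 1) * q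
        = (uprod q (2 * i + 1) * q) * ((q ^ (2 * i + 1 + 1) - 1) * (q ^ (2 * i + 1 + 1 + 1) + 1)) := by
          ring
      _ < _ := Nat.mul_lt_mul_of_le_of_lt (uprod_odd_le hq i) (pair_lt hq)
          (Nat.mul_pos (by omega) (Nat.pow_pos hq0))

theorem psu {p q f g n : ℕ} (hp : p.Prime) (hq : q = p ^ f) (hf : 1 ≤ f) (hg : 0 < g)
    (hn : 3 ≤ n)
    (h : Nat.gcd n (q + 1) * ((q + 1) * g) = q ^ (n * (n - 1) / 2) *
      ∏ i ∈ Finset.range n, (if Even i then q ^ (i + 1) + 1 else q ^ (i + 1) - 1)) :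
    Good p g := by
  have hq2 := two_le_of_pow hp hq hf
  have hq0 : 0 < q := by omega
  have hc1 : Nat.Coprime (q + 1) q := by simp
  have hcd : Nat.Coprime (Nat.gcd n (q + 1)) q := cop_gcd hc1
  have hc : Nat.Coprime (Nat.gcd n (q + 1) * (q + 1)) q := Nat.Coprime.mul_left hcd hc1
  obtain ⟨N, hN⟩ : ∃ N, n * (n - 1) / 2 = N := ⟨_, rfl⟩
  have hN2 : N * 2 = n * (n - 1) := by
    rw [← hN]
    exact Nat.div_mul_cancel (Nat.even_mul_pred_self n).two_dvd
  rw [hN] at h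
  change _ = q ^ N * uprod q n at h
  have hdvd : q ^ N ∣ Nat.gcd n (q + 1) * (q + 1) * g := by
    rw [mul_assoc, h]
    exact Dvd.intro _ rfl
  obtain ⟨m, rfl⟩ : ∃ m, n = m + 1 := ⟨n - 1, by omega⟩
  simp only [Nat.add_sub_cancel] at hN2
  have hU := uprod_lt (e := N + (m + 1)) hq2 (by omega : 2 ≤ m + 1) (by nlinarith)
  have hlt : g < q ^ (N + N + m) := by
    refine lt_of_le_of_lt (le_mul_of_cop hq2 hcd) ?_
    have h1 : (Nat.gcd (m + 1) (q + 1) * g) * ((q + 1) * q) < q ^ (N + N + m) * ((q + 1) * q) := by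
      calc (Nat.gcd (m + 1) (q + 1) * g) * ((q + 1) * q)
          = (Nat.gcd (m + 1) (q + 1) * ((q + 1) * g)) * q := by ring
        _ = q ^ N * (uprod q (m + 1) * q) := by rw [h]; ring
        _ < q ^ N * ((q + 1) * q ^ (N + (m + 1))) :=
            Nat.mul_lt_mul_of_pos_left hU (Nat.pow_pos hq0)
        _ = _ := by
            rw [pow_add q (N + N) m, pow_add q N N, pow_add q N (m + 1), pow_succ]
            ring
    exact lt_of_mul_lt_mul_right h1 (Nat.zero_le _)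
  refine good hp hq hg hc hdvd hlt ?_ ?_
  · nlinarith
  · nlinarith


/-! ### exceptional types -/

section exc

variable {p q f c g : ℕ}

theorem g2 (hp : p.Prime) (hq : q = p ^ f) (hf : 1 ≤ f) (hg : 0 < g)
    (h : g = q ^ 6 * (q ^ 2 - 1) * (q ^ 6 - 1)) : Good p g := by
  have hq2 := two_le_of_pow hp hq hf
  have hq0 : 0 < q := by omega
  refine good (c := 1) (N := 6) (D := 14) hp hq hg (by simp) ?_ ?_ (by norm_num) (by norm_num)
  · rw [one_mul, h, mul_assoc]; exact Dvd.intro _ rfl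
  · rw [h]
    calc _ < q ^ 6 * q ^ 2 * q ^ 6 := stepM' hq0 (by positivity) (stepM le_rfl)
      _ = _ := by ring

theorem f4 (hp : p.Prime) (hq : q = p ^ f) (hf : 1 ≤ f) (hg : 0 < g)
    (h : g = q ^ 24 * (q ^ 2 - 1) * (q ^ 6 - 1) * (q ^ 8 - 1) * (q ^ 12 - 1)) : Good p g := by
  have hq2 := two_le_of_pow hp hq hf
  have hq0 : 0 < q := by omega
  refine good (c := 1) (N := 24) (D := 52) hp hq hg (by simp) ?_ ?_ (by norm_num) (by norm_num)
  · rw [one_mul, h]; simp only [mul_assoc]; exact Dvd.intro _ rfl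
  · rw [h]
    calc _ < q ^ 24 * q ^ 2 * q ^ 6 * q ^ 8 * q ^ 12 :=
          stepM' hq0 (by positivity) (stepM (stepM (stepM le_rfl)))
      _ = _ := by ring

theorem e6 (hp : p.Prime) (hq : q = p ^ f) (hf : 1 ≤ f) (hg : 0 < g) (hc : Nat.Coprime c q)
    (h : c * g = q ^ 36 * (q ^ 2 - 1) * (q ^ 5 - 1) * (q ^ 6 - 1) * (q ^ 8 - 1) * (q ^ 9 - 1) *
      (q ^ 12 - 1)) : Good p g := by
  have hq2 := two_le_of_pow hp hq hf
  have hq0 : 0 < q := by omega
  refine good (N := 36) (D := 78) hp hq hg hc ?_ ?_ (by norm_num) (by norm_num)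
  · rw [h]; simp only [mul_assoc]; exact Dvd.intro _ rfl
  · refine lt_of_le_of_lt (le_mul_of_cop hq2 hc) ?_
    rw [h]
    calc _ < q ^ 36 * q ^ 2 * q ^ 5 * q ^ 6 * q ^ 8 * q ^ 9 * q ^ 12 :=
          stepM' hq0 (by positivity) (stepM (stepM (stepM (stepM (stepM le_rfl)))))
      _ = _ := by ring

theorem e7 (hp : p.Prime) (hq : q = p ^ f) (hf : 1 ≤ f) (hg : 0 < g) (hc : Nat.Coprime c q)
    (h : c * g = q ^ 63 * (q ^ 2 - 1) * (q ^ 6 - 1) * (q ^ 8 - 1) * (q ^ 10 - 1) * (q ^ 12 - 1) *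
      (q ^ 14 - 1) * (q ^ 18 - 1)) : Good p g := by
  have hq2 := two_le_of_pow hp hq hf
  have hq0 : 0 < q := by omega
  refine good (N := 63) (D := 133) hp hq hg hc ?_ ?_ (by norm_num) (by norm_num)
  · rw [h]; simp only [mul_assoc]; exact Dvd.intro _ rfl
  · refine lt_of_le_of_lt (le_mul_of_cop hq2 hc) ?_
    rw [h]
    calc _ < q ^ 63 * q ^ 2 * q ^ 6 * q ^ 8 * q ^ 10 * q ^ 12 * q ^ 14 * q ^ 18 :=
          stepM' hq0 (by positivity) (stepM (stepM (stepM (stepM (stepM (stepM le_rfl))))))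
      _ = _ := by ring

theorem e8 (hp : p.Prime) (hq : q = p ^ f) (hf : 1 ≤ f) (hg : 0 < g)
    (h : g = q ^ 120 * (q ^ 2 - 1) * (q ^ 8 - 1) * (q ^ 12 - 1) * (q ^ 14 - 1) * (q ^ 18 - 1) *
      (q ^ 20 - 1) * (q ^ 24 - 1) * (q ^ 30 - 1)) : Good p g := by
  have hq2 := two_le_of_pow hp hq hf
  have hq0 : 0 < q := by omega
  refine good (c := 1) (N := 120) (D := 248) hp hq hg (by simp) ?_ ?_ (by norm_num) (by norm_num)
  · rw [one_mul, h]; simp only [mul_assoc]; exact Dvd.intro _ rfl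
  · rw [h]
    calc _ < q ^ 120 * q ^ 2 * q ^ 8 * q ^ 12 * q ^ 14 * q ^ 18 * q ^ 20 * q ^ 24 * q ^ 30 :=
          stepM' hq0 (by positivity)
            (stepM (stepM (stepM (stepM (stepM (stepM (stepM le_rfl)))))))
      _ = _ := by ring

theorem tE6 (hp : p.Prime) (hq : q = p ^ f) (hf : 1 ≤ f) (hg : 0 < g) (hc : Nat.Coprime c q)
    (h : c * g = q ^ 36 * (q ^ 2 - 1) * (q ^ 5 + 1) * (q ^ 6 - 1) * (q ^ 8 - 1) * (q ^ 9 + 1) *
      (q ^ 12 - 1)) : Good p g := by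
  have hq2 := two_le_of_pow hp hq hf
  have hq0 : 0 < q := by omega
  refine good (N := 36) (D := 80) hp hq hg hc ?_ ?_ (by norm_num) (by norm_num)
  · rw [h]; simp only [mul_assoc]; exact Dvd.intro _ rfl
  · refine lt_of_le_of_lt (le_mul_of_cop hq2 hc) ?_
    rw [h]
    calc _ < q ^ 36 * q ^ 2 * q ^ (5 + 1) * q ^ 6 * q ^ 8 * q ^ (9 + 1) * q ^ 12 :=
          stepM' hq0 (by positivity) (stepP hq2 (stepM (stepM (stepP hq2 (stepM le_rfl)))))
      _ = _ := by ring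

theorem tD4 (hp : p.Prime) (hq : q = p ^ f) (hf : 1 ≤ f) (hg : 0 < g)
    (h : g = q ^ 12 * (q ^ 2 - 1) * (q ^ 6 - 1) * (q ^ 8 + q ^ 4 + 1)) : Good p g := by
  have hq2 := two_le_of_pow hp hq hf
  have hq0 : 0 < q := by omega
  refine good (c := 1) (N := 12) (D := 29) hp hq hg (by simp) ?_ ?_ (by norm_num) (by norm_num)
  · rw [one_mul, h]; simp only [mul_assoc]; exact Dvd.intro _ rfl
  · rw [h]
    have h1 : q ^ 8 + q ^ 4 + 1 ≤ q ^ 9 := by
      have h2 : q ^ 4 + 1 ≤ q ^ (4 + 1) := add_one_le hq2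
      have h3 : q ^ (4 + 1) ≤ q ^ 8 := Nat.pow_le_pow_right hq0 (by norm_num)
      have h4 : q ^ 9 = q ^ 8 * q := by ring
      nlinarith [Nat.pow_pos (n := 8) hq0]
    calc _ < q ^ 12 * q ^ 2 * q ^ 6 * q ^ 9 :=
          Nat.mul_lt_mul_of_lt_of_le (stepM' hq0 (by positivity) (stepM le_rfl)) h1
            (by positivity)
      _ = _ := by ring

theorem tB2 (hp : p.Prime) (hq : q = p ^ f) (hf : 1 ≤ f) (hg : 0 < g)
    (h : g = q ^ 2 * (q - 1) * (q ^ 2 + 1)) : Good p g := by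
  have hq2 := two_le_of_pow hp hq hf
  have hq0 : 0 < q := by omega
  refine good (c := 1) (N := 2) (D := 5) hp hq hg (by simp) ?_ ?_ (by norm_num) (by norm_num)
  · rw [one_mul, h]; simp only [mul_assoc]; exact Dvd.intro _ rfl
  · rw [h]
    have h1 : (q - 1) * (q ^ 2 + 1) < q ^ 3 := by
      have := pair_lt (a := 1) hq2
      simpa using this
    calc q ^ 2 * (q - 1) * (q ^ 2 + 1) = q ^ 2 * ((q - 1) * (q ^ 2 + 1)) := by ring
      _ < q ^ 2 * q ^ 3 := Nat.mul_lt_mul_of_pos_left h1 (by positivity)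
      _ = _ := by ring

theorem tG2 (hp : p.Prime) (hq : q = p ^ f) (hf : 1 ≤ f) (hg : 0 < g)
    (h : g = q ^ 3 * (q - 1) * (q ^ 3 + 1)) : Good p g := by
  have hq2 := two_le_of_pow hp hq hf
  have hq0 : 0 < q := by omega
  refine good (c := 1) (N := 3) (D := 8) hp hq hg (by simp) ?_ ?_ (by norm_num) (by norm_num)
  · rw [one_mul, h]; simp only [mul_assoc]; exact Dvd.intro _ rfl
  · rw [h]
    have h1 : q ^ 3 * (q - 1) < q ^ 3 * q := Nat.mul_lt_mul_of_pos_left (by omega) (by positivity)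
    calc _ < q ^ 3 * q * q ^ (3 + 1) :=
          Nat.mul_lt_mul_of_lt_of_le h1 (add_one_le hq2) (by positivity)
      _ = _ := by ring

theorem tF4 (hp : p.Prime) (hq : q = p ^ f) (hf : 1 ≤ f) (hg : 0 < g)
    (h : g = q ^ 12 * (q - 1) * (q ^ 3 + 1) * (q ^ 4 - 1) * (q ^ 6 + 1)) : Good p g := by
  have hq2 := two_le_of_pow hp hq hf
  have hq0 : 0 < q := by omega
  refine good (c := 1) (N := 12) (D := 28) hp hq hg (by simp) ?_ ?_ (by norm_num) (by norm_num)
  · rw [one_mul, h]; simp only [mul_assoc]; exact Dvd.intro _ rfl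
  · rw [h]
    have h1 : q ^ 12 * (q - 1) ≤ q ^ 12 * q := Nat.mul_le_mul_left _ (by omega)
    calc _ < q ^ 12 * q * q ^ (3 + 1) * q ^ 4 * q ^ (6 + 1) :=
          Nat.mul_lt_mul_of_lt_of_le (stepM' hq0 (by positivity) (stepP hq2 h1))
            (add_one_le hq2) (by positivity)
      _ = _ := by ring

end exc

/-! ### the field size is a power of the characteristic -/

theorem exists_pow {F : Type*} [Field F] [Fintype F] (p : ℕ) [CharP F p] {q e : ℕ} (he : e ≠ 0)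
    (h : Fintype.card F = q ^ e) : ∃ f, 1 ≤ f ∧ q = p ^ f := by
  obtain ⟨n, hp, hn⟩ := FiniteField.card F p
  have h1 : q ∣ p ^ (n : ℕ) := by
    rw [← hn, h]
    exact dvd_pow_self q he
  obtain ⟨j, _, hj⟩ := (Nat.dvd_prime_pow hp).1 h1
  refine ⟨j, ?_, hj⟩
  rcases Nat.eq_zero_or_pos j with h0 | h0
  · subst h0
    have h2 := Fintype.one_lt_card (α := F)
    rw [h, hj] at h2
    simp at h2
  · exact h0

end Cfsg.Agent.Helper99LieOrd
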