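import Cfsg.Agent.Lib.Helper99SubfieldGen

set_option autoImplicit false
set_option linter.unusedSectionVars false
set_option linter.unusedSimpArgs false
set_option linter.unusedVariables false

/-!
# Rational geometries: the calculus of Siegel (Eichler, Heisenberg) elements

A uniform framework for unitary and orthogonal groups over a field `F` with a subfield `F₀`.
-/

namespace Cfsg.Agent.Lib.Helper99RG

open Matrix Cfsg.Agent.Lib.Helper95Basic Cfsg.Agent.Lib.Helper99Subfield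
  Cfsg.Agent.Lib.Helper99SubfieldSL Cfsg.Agent.Lib.Helper99SubfieldGen

variable {ι : Type} [Fintype ι] [DecidableEq ι] {F : Type*} [Field F]

/-- a `σ`-hermitian form (`σ` may be the identity) -/
structure SF (σ : F →+* F) (h : (ι → F) → (ι → F) → F) : Prop where
  invol : ∀ a, σ (σ a) = a
  add_left : ∀ x y v, h (x + y) v = h x v + h y v
  smul_left : ∀ (c : F) (x v : ι → F), h (c • x) v = c * h x v
  herm : ∀ v w, h v w = σ (h w v)

variable {σ : F →+* F} {h : (ι → F) → (ι → F) → F}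

namespace SF

lemma add_right (H : SF σ h) (v x y : ι → F) : h v (x + y) = h v x + h v y := by
  rw [H.herm, H.add_left, map_add, ← H.herm, ← H.herm]

lemma smul_right (H : SF σ h) (c : F) (v x : ι → F) : h v (c • x) = σ c * h v x := by
  rw [H.herm, H.smul_left, map_mul, ← H.herm]

lemma zero_left (H : SF σ h) (v : ι → F) : h 0 v = 0 := by
  have := H.smul_left 0 0 v
  simpa using this

lemma zero_right (H : SF σ h) (v : ι → F) : h v 0 = 0 := by
  rw [H.herm, H.zero_left, map_zero]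

lemma neg_left (H : SF σ h) (x v : ι → F) : h (-x) v = - h x v := by
  have := H.smul_left (-1) x v
  simpa using this

lemma neg_right (H : SF σ h) (x v : ι → F) : h v (-x) = - h v x := by
  rw [H.herm, H.neg_left, map_neg, ← H.herm]

lemma sub_left (H : SF σ h) (x y v : ι → F) : h (x - y) v = h x v - h y v := by
  rw [sub_eq_add_neg, H.add_left, H.neg_left, sub_eq_add_neg]

lemma sub_right (H : SF σ h) (v x y : ι → F) : h v (x - y) = h v x - h v y := by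
  rw [sub_eq_add_neg, H.add_right, H.neg_right, sub_eq_add_neg]

lemma swap0 (H : SF σ h) {x y : ι → F} (hxy : h x y = 0) : h y x = 0 := by
  rw [H.herm, hxy, map_zero]

lemma swap1 (H : SF σ h) {x y : ι → F} (hxy : h x y = 1) : h y x = 1 := by
  rw [H.herm, hxy, map_one]

lemma swap_ne (H : SF σ h) {x y : ι → F} (hxy : h x y ≠ 0) : h y x ≠ 0 :=
  fun h0 => hxy (H.swap0 h0)

lemma sig_ne (H : SF σ h) {a : F} (ha : a ≠ 0) : σ a ≠ 0 := by
  intro h0
  apply ha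
  rw [← H.invol a, h0, map_zero]

lemma sum_left (H : SF σ h) {κ : Type*} (s : Finset κ) (f : κ → ι → F) (v : ι → F) :
    h (∑ k ∈ s, f k) v = ∑ k ∈ s, h (f k) v := by
  classical
  induction s using Finset.induction_on with
  | empty => simp [H.zero_left]
  | insert a s ha ih => rw [Finset.sum_insert ha, Finset.sum_insert ha, H.add_left, ih]

end SF

/-- the map `x ↦ x - h x u • w + h x w • u + (a * h x u) • u` -/
def Ef (h : (ι → F) → (ι → F) → F) (u w : ι → F) (a : F) (x : ι → F) : ι → F :=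
  x - h x u • w + h x w • u + (a * h x u) • u

/-- `M` contains the element `Ef h u w a` -/
def EM (h : (ι → F) → (ι → F) → F) (M : Subgroup (GL ι F)) (u w : ι → F) (a : F) : Prop :=
  ∃ g ∈ M, ∀ x, (g : Matrix ι ι F) *ᵥ x = Ef h u w a x

variable {M : Subgroup (GL ι F)}

lemma EM.congr {u w w' : ι → F} {a a' : F} (e : EM h M u w a) (hw : w = w') (ha : a = a') :
    EM h M u w' a' := by subst hw; subst ha; exact e

lemma EM.mul (H : SF σ h) {u w w' : ι → F} {a a' : F} (hu : h u u = 0) (hw : h w u = 0)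
    (hw' : h w' u = 0) (e : EM h M u w a) (e' : EM h M u w' a') :
    EM h M u (w + w') (a + a' - h w' w) := by
  obtain ⟨g, hg, e⟩ := e
  obtain ⟨g', hg', e'⟩ := e'
  refine ⟨g * g', M.mul_mem hg hg', fun x => ?_⟩
  rw [mul_mulVec, e', e]
  simp only [Ef, H.add_left, H.sub_left, H.smul_left, H.add_right, hu, hw, hw', H.swap0 hw,
    H.swap0 hw', mul_zero, add_zero, sub_zero]
  module

lemma EM.inv (H : SF σ h) {u w : ι → F} {a : F} (hu : h u u = 0) (hw : h w u = 0)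
    (e : EM h M u w a) : EM h M u (-w) (-a - h w w) := by
  obtain ⟨g, hg, e⟩ := e
  refine ⟨g⁻¹, M.inv_mem hg, fun x => ?_⟩
  have : (g : Matrix ι ι F) *ᵥ (Ef h u (-w) (-a - h w w) x) = x := by
    rw [e]
    simp only [Ef, H.add_left, H.sub_left, H.smul_left, H.neg_right, H.neg_left, hu, hw, H.swap0 hw,
      mul_zero, add_zero, sub_zero, neg_zero]
    module
  rw [← this, inv_mulVec_mulVec, this]

lemma iso_inv {g : GL ι F} (hg : ∀ x y, h ((g : Matrix ι ι F) *ᵥ x) ((g : Matrix ι ι F) *ᵥ y) = h x y)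
    (x y : ι → F) : h (((g⁻¹ : GL ι F) : Matrix ι ι F) *ᵥ x) y = h x ((g : Matrix ι ι F) *ᵥ y) := by
  rw [← hg, mulVec_inv_mulVec]

lemma EM.conj {u w : ι → F} {a : F} (e : EM h M u w a) {k : GL ι F} (hk : k ∈ M)
    (hki : ∀ x y, h ((k : Matrix ι ι F) *ᵥ x) ((k : Matrix ι ι F) *ᵥ y) = h x y) :
    EM h M ((k : Matrix ι ι F) *ᵥ u) ((k : Matrix ι ι F) *ᵥ w) a := by
  obtain ⟨g, hg, e⟩ := e
  refine ⟨k * g * k⁻¹, M.mul_mem (M.mul_mem hk hg) (M.inv_mem hk), fun x => ?_⟩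
  rw [mul_mulVec, mul_mulVec, e]
  simp only [Ef, mulVec_add, mulVec_sub, mulVec_smul, mulVec_inv_mulVec, iso_inv hki]

/-- difference of a conjugate -/
lemma EM.diff (H : SF σ h) {u w : ι → F} {a : F} (hu : h u u = 0) (hw : h w u = 0)
    (e : EM h M u w a) {k : GL ι F} (hk : k ∈ M)
    (hki : ∀ x y, h ((k : Matrix ι ι F) *ᵥ x) ((k : Matrix ι ι F) *ᵥ y) = h x y)
    (hku : (k : Matrix ι ι F) *ᵥ u = u) :
    EM h M u ((k : Matrix ι ι F) *ᵥ w - w) (h w ((k : Matrix ι ι F) *ᵥ w) - h w w) := by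
  have h1 := e.conj hk hki
  rw [hku] at h1
  have hkw : h ((k : Matrix ι ι F) *ᵥ w) u = 0 := by
    rw [← hku, hki, hw]
  refine (EM.mul H hu hkw (by rw [H.neg_left, hw, neg_zero]) h1 (e.inv H hu hw)).congr
    (by abel) ?_
  rw [H.neg_left]
  ring

lemma EM.scale (H : SF σ h) {u w : ι → F} {a l : F} (e : EM h M (l • u) w a) :
    EM h M u (σ l • w) (a * l * σ l) := by
  obtain ⟨g, hg, e⟩ := e
  refine ⟨g, hg, fun x => ?_⟩
  rw [e]
  simp only [Ef, H.smul_right, H.invol]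
  module

lemma EM.unscale (H : SF σ h) {u w : ι → F} {a l : F} (e : EM h M u (σ l • w) (a * l * σ l)) :
    EM h M (l • u) w a := by
  obtain ⟨g, hg, e⟩ := e
  refine ⟨g, hg, fun x => ?_⟩
  rw [e]
  simp only [Ef, H.smul_right, H.invol]
  module

lemma EM.swap (H : SF σ h) {u v : ι → F} {ν : F} (e : EM h M u (ν • v) 0) :
    EM h M v ((-σ ν) • u) 0 := by
  obtain ⟨g, hg, e⟩ := e
  refine ⟨g, hg, fun x => ?_⟩
  rw [e]
  simp only [Ef, H.smul_right, H.invol, map_neg]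
  module

lemma EM_zero (H : SF σ h) (u : ι → F) : EM h M u 0 0 :=
  ⟨1, M.one_mem, fun x => by simp [Ef, H.zero_right]⟩


/-! ### rational geometries -/

variable {F₀ : Subfield F} {Sg : (ι → F) → Prop}

/-- rational singular nonzero vectors -/
def RS (F₀ : Subfield F) (Sg : (ι → F) → Prop) (x : ι → F) : Prop := IsRat F₀ x ∧ x ≠ 0 ∧ Sg x

/-- rational hyperbolic pairs -/
def HP (F₀ : Subfield F) (h : (ι → F) → (ι → F) → F) (Sg : (ι → F) → Prop) (p p' : ι → F) : Prop :=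
  RS F₀ Sg p ∧ RS F₀ Sg p' ∧ h p p' = 1

/-- rational totally singular lines, with a basis -/
def PP (F₀ : Subfield F) (h : (ι → F) → (ι → F) → F) (Sg : (ι → F) → Prop) (u v : ι → F) : Prop :=
  RS F₀ Sg u ∧ RS F₀ Sg v ∧ h u v = 0 ∧ ∃ y, IsRat F₀ y ∧ h u y = 0 ∧ h v y ≠ 0

/-- the orthogonal of the rational set `P` is non-degenerate -/
def ND (F₀ : Subfield F) (h : (ι → F) → (ι → F) → F) (P : List (ι → F)) : Prop :=
  (∀ s ∈ P, IsRat F₀ s) ∧ ∀ x, IsRat F₀ x → (∀ s ∈ P, h x s = 0) → x ≠ 0 →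
    ∃ y, IsRat F₀ y ∧ (∀ s ∈ P, h y s = 0) ∧ h x y ≠ 0

/-- the pair `p, p'` is orthogonal to `s` -/
def PO (h : (ι → F) → (ι → F) → F) (p p' s : ι → F) : Prop :=
  h p s = 0 ∧ h p' s = 0 ∧ h s p = 0 ∧ h s p' = 0

/-- the basic axioms of a rational geometry -/
structure RGB (F₀ : Subfield F) (σ : F →+* F) (h : (ι → F) → (ι → F) → F) (Sg : (ι → F) → Prop) :
    Prop extends SF σ h where
  sig_mem : ∀ a ∈ F₀, σ a ∈ F₀
  rat : ∀ x y, IsRat F₀ x → IsRat F₀ y → h x y ∈ F₀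
  dual : ∀ k, ∃ d, IsRat F₀ d ∧ ∀ x, h x d = x k
  sg_iso : ∀ x, Sg x → h x x = 0
  sg_smul : ∀ (c : F) (x : ι → F), Sg x → Sg (c • x)
  sg_add : ∀ x y, Sg x → Sg y → h x y = 0 → Sg (x + y)
  sing : ∀ y v, IsRat F₀ y → IsRat F₀ v → Sg v → h v y = 1 → ∃ t ∈ F₀, Sg (y + t • v)

/-- a rational geometry: enough hyperbolic pairs -/
structure RG (F₀ : Subfield F) (σ : F →+* F) (h : (ι → F) → (ι → F) → F) (Sg : (ι → F) → Prop) :
    Prop extends RGB F₀ σ h Sg where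
  el : ∀ P S : List (ι → F), ND F₀ h P → (∀ s ∈ S, IsRat F₀ s) →
    P.length + 2 * S.length + 3 ≤ Fintype.card ι →
    ∃ p p', HP F₀ h Sg p p' ∧ ∀ s, s ∈ P ∨ s ∈ S → h p s = 0 ∧ h p' s = 0

namespace RGB

variable (G : RGB F₀ σ h Sg)
include G

lemma exists_dual {u : ι → F} (hu : IsRat F₀ u) (hu0 : u ≠ 0) : ∃ y, IsRat F₀ y ∧ h u y = 1 := by
  obtain ⟨k, hk⟩ := Function.ne_iff.1 hu0
  have hk' : u k ≠ 0 := hk
  obtain ⟨d, hd, hd'⟩ := G.dual k
  refine ⟨σ (u k)⁻¹ • d, IsRat.smul (G.sig_mem _ (F₀.inv_mem (hu k))) hd, ?_⟩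
  rw [G.smul_right, G.invol, hd', inv_mul_cancel₀ hk']

lemma eq_zero_of_perp {x : ι → F} (hx : ∀ y, IsRat F₀ y → h x y = 0) : x = 0 := by
  ext k
  obtain ⟨d, hd, hd'⟩ := G.dual k
  rw [← hd' x, hx d hd]; rfl

lemma rat_of_forall {x : ι → F} (hx : ∀ y, IsRat F₀ y → h x y ∈ F₀) : IsRat F₀ x := by
  intro k
  obtain ⟨d, hd, hd'⟩ := G.dual k
  rw [← hd' x]
  exact hx d hd

lemma normalize {v y : ι → F} (hv : IsRat F₀ v) (hy : IsRat F₀ y) (hvy : h v y ≠ 0) :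
    ∃ c ∈ F₀, h v (c • y) = 1 := by
  refine ⟨σ (h v y)⁻¹, G.sig_mem _ (F₀.inv_mem (G.rat _ _ hv hy)), ?_⟩
  rw [G.smul_right, G.invol, inv_mul_cancel₀ hvy]

/-- projection away from a hyperbolic pair -/
lemma exists_proj {p p' : ι → F} (hp : HP F₀ h Sg p p') {y : ι → F} (hy : IsRat F₀ y) :
    ∃ y', IsRat F₀ y' ∧ h y' p = 0 ∧ h y' p' = 0 ∧ h p y' = 0 ∧ h p' y' = 0 ∧
      (∀ z, h z p = 0 → h z p' = 0 → h z y' = h z y) ∧
      (∀ z, h p z = 0 → h p' z = 0 → h y' z = h y z) := by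
  obtain ⟨⟨r1, -, s1⟩, ⟨r2, -, s2⟩, h12⟩ := hp
  have i1 := G.sg_iso _ s1
  have i2 := G.sg_iso _ s2
  have h21 := G.swap1 h12
  have a1 : h (y - h y p' • p - h y p • p') p = 0 := by
    simp only [G.sub_left, G.smul_left, i1, h21]; ring
  have a2 : h (y - h y p' • p - h y p • p') p' = 0 := by
    simp only [G.sub_left, G.smul_left, i2, h12]; ring
  refine ⟨y - h y p' • p - h y p • p',
    (hy.sub (IsRat.smul (G.rat _ _ hy r2) r1)).sub (IsRat.smul (G.rat _ _ hy r1) r2), a1, a2,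
    G.swap0 a1, G.swap0 a2, ?_, ?_⟩
  · intro z z1 z2
    simp only [G.sub_right, G.smul_right, z1, z2]; ring
  · intro z z1 z2
    simp only [G.sub_left, G.smul_left, z1, z2]; ring

/-- a singular partner -/
lemma exists_partner {v y : ι → F} (hv : RS F₀ Sg v) (hy : IsRat F₀ y) (hvy : h v y = 1) :
    ∃ y', RS F₀ Sg y' ∧ h v y' = 1 ∧ (∀ z, h z v = 0 → h z y = 0 → h z y' = 0) := by
  obtain ⟨t, ht, hs⟩ := G.sing y v hy hv.1 hv.2.2 hvy
  have hvv := G.sg_iso _ hv.2.2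
  have h1 : h v (y + t • v) = 1 := by
    rw [G.add_right, G.smul_right, hvv, hvy]; ring
  refine ⟨y + t • v, ⟨hy.add (IsRat.smul ht hv.1), ?_, hs⟩, h1, ?_⟩
  · intro h0
    rw [h0, G.zero_right] at h1
    exact zero_ne_one h1
  · intro z z1 z2
    rw [G.add_right, G.smul_right, z1, z2]; ring

/-- a rational vector orthogonal to a hyperbolic pair is a combination of three singular vectors -/
lemma exists_three {p p' z : ι → F} (hp : HP F₀ h Sg p p') (hz : IsRat F₀ z) (h1 : h p z = 0) :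
    ∃ t ∈ F₀, RS F₀ Sg (z + p' + t • p) := by
  obtain ⟨t, ht, hs⟩ := G.sing (z + p') p (hz.add hp.2.1.1) hp.1.1 hp.1.2.2 (by
    rw [G.add_right, h1, hp.2.2, zero_add])
  refine ⟨t, ht, (hz.add hp.2.1.1).add (IsRat.smul ht hp.1.1), ?_, hs⟩
  intro h0
  have : h p (z + p' + t • p) = 1 := by
    rw [G.add_right, G.add_right, G.smul_right, h1, hp.2.2, G.sg_iso _ hp.1.2.2]; ring
  rw [h0, G.zero_right] at this
  exact zero_ne_one this

lemma ND_empty : ND F₀ h ([] : List (ι → F)) := by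
  refine ⟨by simp, fun x hx _ hx0 => ?_⟩
  obtain ⟨y, hy, hxy⟩ := G.exists_dual hx hx0
  exact ⟨y, hy, by simp, by rw [hxy]; exact one_ne_zero⟩

lemma ND_insert {P : List (ι → F)} (hP : ND F₀ h P) {p p' : ι → F} (hp : HP F₀ h Sg p p')
    (hperp : ∀ s ∈ P, h p s = 0 ∧ h p' s = 0) : ND F₀ h (p :: p' :: P) := by
  refine ⟨?_, fun x hx hxP hx0 => ?_⟩
  · intro s hs
    simp only [List.mem_cons] at hs
    rcases hs with rfl | rfl | hs
    · exact hp.1.1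
    · exact hp.2.1.1
    · exact hP.1 s hs
  · obtain ⟨y, hy, hyP, hxy⟩ := hP.2 x hx (fun s hs => hxP s (by simp [hs])) hx0
    obtain ⟨y', hy', a1, a2, -, -, a3, a4⟩ := G.exists_proj hp hy
    refine ⟨y', hy', ?_, ?_⟩
    · intro s hs
      simp only [List.mem_cons] at hs
      rcases hs with rfl | rfl | hs
      · exact a1
      · exact a2
      · rw [a4 s (hperp s hs).1 (hperp s hs).2]; exact hyP s hs
    · rw [a3 x (hxP p (by simp)) (hxP p' (by simp))]; exact hxy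

lemma RS.iso {x : ι → F} (hx : RS F₀ Sg x) : h x x = 0 := G.sg_iso _ hx.2.2

end RGB

namespace RG

variable (G : RG F₀ σ h Sg)
include G

lemma mkPO {a a' s : ι → F} (this : h a s = 0 ∧ h a' s = 0) : PO h a a' s :=
  ⟨this.1, this.2, G.swap0 this.1, G.swap0 this.2⟩

lemma el1 (S : List (ι → F)) (hS : ∀ s ∈ S, IsRat F₀ s) (hc : 2 * S.length + 3 ≤ Fintype.card ι) :
    ∃ p p', HP F₀ h Sg p p' ∧ ∀ s ∈ S, PO h p p' s := by
  obtain ⟨p, p', hp, hperp⟩ := G.el [] S G.ND_empty hS (by simpa using hc)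
  exact ⟨p, p', hp, fun s hs => G.mkPO (hperp s (Or.inr hs))⟩

lemma el2 (S : List (ι → F)) (hS : ∀ s ∈ S, IsRat F₀ s) (hc : 2 * S.length + 5 ≤ Fintype.card ι) :
    ∃ p p' q q', HP F₀ h Sg p p' ∧ HP F₀ h Sg q q' ∧ (∀ s ∈ S, PO h p p' s) ∧ (∀ s ∈ S, PO h q q' s) ∧
      PO h q q' p ∧ PO h q q' p' := by
  obtain ⟨p, p', hp, hperp⟩ := G.el [] S G.ND_empty hS (by simp; omega)
  have hND := G.ND_insert G.ND_empty hp (by simp)
  obtain ⟨q, q', hq, hperp'⟩ := G.el _ S hND hS (by simp; omega)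
  exact ⟨p, p', q, q', hp, hq, fun s hs => G.mkPO (hperp s (Or.inr hs)),
    fun s hs => G.mkPO (hperp' s (Or.inr hs)), G.mkPO (hperp' p (by simp)),
    G.mkPO (hperp' p' (by simp))⟩

lemma el3 (hc : 7 ≤ Fintype.card ι) :
    ∃ p p' q q' r r', HP F₀ h Sg p p' ∧ HP F₀ h Sg q q' ∧ HP F₀ h Sg r r' ∧
      PO h q q' p ∧ PO h q q' p' ∧ PO h r r' p ∧ PO h r r' p' ∧ PO h r r' q ∧ PO h r r' q' := by
  obtain ⟨p, p', hp, hperp⟩ := G.el [] [] G.ND_empty (by simp) (by simp; omega)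
  have hND := G.ND_insert G.ND_empty hp (by simp)
  obtain ⟨q, q', hq, hperp'⟩ := G.el _ [] hND (by simp) (by simp; omega)
  have hND' := G.ND_insert hND hq (fun s hs => hperp' s (Or.inl hs))
  obtain ⟨r, r', hr, hperp''⟩ := G.el _ [] hND' (by simp) (by simp; omega)
  exact ⟨p, p', q, q', r, r', hp, hq, hr, G.mkPO (hperp' p (by simp)), G.mkPO (hperp' p' (by simp)),
    G.mkPO (hperp'' p (by simp)), G.mkPO (hperp'' p' (by simp)), G.mkPO (hperp'' q (by simp)),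
    G.mkPO (hperp'' q' (by simp))⟩

end RG


/-! ### groups containing the rational Siegel elements -/

/-- `M` consists of isometries and contains the rational Siegel elements -/
structure GM (F₀ : Subfield F) (h : (ι → F) → (ι → F) → F) (Sg : (ι → F) → Prop)
    (M : Subgroup (GL ι F)) : Prop where
  iso : ∀ g ∈ M, ∀ x y, h ((g : Matrix ι ι F) *ᵥ x) ((g : Matrix ι ι F) *ᵥ y) = h x y
  sg : ∀ g ∈ M, ∀ x, Sg x → Sg ((g : Matrix ι ι F) *ᵥ x)
  base : ∀ u v, RS F₀ Sg u → RS F₀ Sg v → h u v = 0 → ∀ ν ∈ F₀, EM h M u (ν • v) 0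

section core

variable (G : RG F₀ σ h Sg) (K : GM F₀ h Sg M)
include G K

/-- moving the second vector of a Siegel element -/
lemma move {u v v' y : ι → F} {ν : F} (e : EM h M u (ν • v) 0) (hu : h u u = 0) (hvu : h v u = 0)
    (hv' : RS F₀ Sg v') (hy : RS F₀ Sg y) (h1 : h v' y = 0) (h2 : h u v' = 0) (h3 : h u y = 0)
    (h4 : h v v' = 0) (h5 : h v y = 1) : EM h M u (ν • v') 0 := by
  obtain ⟨k, hk, ek⟩ := K.base v' y hv' hy h1 1 F₀.one_mem
  have hku : (k : Matrix ι ι F) *ᵥ u = u := by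
    rw [ek]; simp [Ef, G.smul_right, h2, h3]
  have hkv : (k : Matrix ι ι F) *ᵥ v = v + v' := by
    rw [ek]; simp [Ef, G.smul_right, h4, h5]
  have := e.diff G.toSF hu (by rw [G.smul_left, hvu, mul_zero]) hk (K.iso k hk) hku
  rw [mulVec_smul, hkv] at this
  refine this.congr (by rw [smul_add]; abel) ?_
  simp only [G.smul_left, G.smul_right, G.add_right, h4]
  ring

/-- the parameters of the Siegel elements in `M` -/
def Sset (F₀ : Subfield F) (h : (ι → F) → (ι → F) → F) (Sg : (ι → F) → Prop)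
    (M : Subgroup (GL ι F)) : Set F :=
  {ν | ∀ u v, PP F₀ h Sg u v → EM h M u (ν • v) 0}

lemma mem_Sset (hn : 13 ≤ Fintype.card ι) {u v : ι → F} {ν : F} (huv : PP F₀ h Sg u v)
    (e : EM h M u (ν • v) 0) : ν ∈ Sset F₀ h Sg M := by
  intro u' v' huv'
  obtain ⟨ru, rv, ouv, y₀, ry₀, o1, o2⟩ := huv
  obtain ⟨ru', rv', ouv', -⟩ := huv'
  obtain ⟨p, p', q, q', hp, hq, pS, qS, qp, qp'⟩ := G.el2 [u, v, u', v'] (by
    intro s hs
    simp only [List.mem_cons, List.not_mem_nil, or_false] at hs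
    rcases hs with rfl | rfl | rfl | rfl
    · exact ru.1
    · exact rv.1
    · exact ru'.1
    · exact rv'.1) (by simp; omega)
  have pu := pS u (by simp)
  have pv := pS v (by simp)
  have pu' := pS u' (by simp)
  have pv' := pS v' (by simp)
  have qu := qS u (by simp)
  have qu' := qS u' (by simp)
  -- step 1
  obtain ⟨c, hc, hc1⟩ := G.normalize rv.1 ry₀ o2
  obtain ⟨y₂, ry₂, -, -, a3, -, a5, -⟩ := G.exists_proj hp (IsRat.smul hc ry₀)
  obtain ⟨y, hy, b1, b2⟩ := G.exists_partner rv ry₂ (by rw [a5 v pv.2.2.1 pv.2.2.2, hc1])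
  have e1 : EM h M u (ν • p) 0 := move G K e (G.sg_iso _ ru.2.2) (G.swap0 ouv) hp.1 hy
    (b2 p pv.1 a3) pu.2.2.1
    (b2 u ouv (by rw [a5 u pu.2.2.1 pu.2.2.2, G.smul_right, o1, mul_zero])) pv.2.2.1 b1
  -- step 2
  have e2 := e1.swap G.toSF
  -- step 3
  obtain ⟨z₀, rz₀, hz₀⟩ := G.exists_dual ru.1 ru.2.1
  obtain ⟨z₁, rz₁, -, -, c3, -, c5, -⟩ := G.exists_proj hp rz₀
  obtain ⟨z₂, rz₂, -, -, d3, -, d5, -⟩ := G.exists_proj hq rz₁
  obtain ⟨z, hz, f1, f2⟩ := G.exists_partner ru rz₂ (by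
    rw [d5 u qu.2.2.1 qu.2.2.2, c5 u pu.2.2.1 pu.2.2.2, hz₀])
  have e3 : EM h M p ((-σ ν) • q) 0 := move G K e2 (G.sg_iso _ hp.1.2.2) pu.2.2.1 hq.1 hz
    (f2 q qu.1 d3) qp.2.2.1 (f2 p pu.1 (by rw [d5 p qp.2.2.1 qp.2.2.2, c3])) qu.2.2.1 f1
  -- step 4
  have e4 : EM h M p ((-σ ν) • u') 0 := move G K e3 (G.sg_iso _ hp.1.2.2) qp.1 ru' hq.2.1
    qu'.2.2.2 pu'.1 qp.2.2.2 qu'.1 hq.2.2
  -- step 5
  have e5 := e4.swap G.toSF
  rw [map_neg, G.invol, neg_neg] at e5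
  -- step 6
  exact move G K e5 (G.sg_iso _ ru'.2.2) pu'.1 rv' hp.2.1 pv'.2.2.2 ouv' pu'.2.2.2 pv'.1 hp.2.2

lemma Sset_neg {ν : F} (hν : ν ∈ Sset F₀ h Sg M) : -ν ∈ Sset F₀ h Sg M := by
  intro u v huv
  have hvu : h (ν • v) u = 0 := by rw [G.smul_left, G.swap0 huv.2.2.1, mul_zero]
  refine ((hν u v huv).inv G.toSF (G.sg_iso _ huv.1.2.2) hvu).congr (by simp) ?_
  simp [G.smul_left, G.smul_right, G.sg_iso _ huv.2.1.2.2]

lemma PP_of_pairs {p p' q : ι → F} (hp : RS F₀ Sg p) (hq : HP F₀ h Sg q p') (h1 : h p q = 0)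
    (h2 : h p p' = 0) : PP F₀ h Sg p q :=
  ⟨hp, hq.1, h1, p', hq.2.1.1, h2, by rw [hq.2.2]; exact one_ne_zero⟩

lemma Sset_sig (hn : 13 ≤ Fintype.card ι) {ν : F} (hν : ν ∈ Sset F₀ h Sg M) :
    σ ν ∈ Sset F₀ h Sg M := by
  obtain ⟨p, p', q, q', hp, hq, -, -, qp, qp'⟩ := G.el2 [] (by simp) (by simp; omega)
  have h1 := (hν p q (PP_of_pairs G K hp.1 hq qp.2.2.1 qp.2.2.2)).swap G.toSF
  have h2 := mem_Sset G K hn (PP_of_pairs G K hq.1 hp qp.1 qp'.1) h1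
  have := Sset_neg G K h2
  rwa [neg_neg] at this

/-- the Siegel parameters form a subalgebra -/
def Salg (hn : 13 ≤ Fintype.card ι) : Subalgebra F₀ F where
  carrier := Sset F₀ h Sg M
  mul_mem' := by
    intro ν ν' hν hν'
    obtain ⟨p, p', q, q', r, r', hp, hq, hr, qp, qp', rp, rp', rq, rq'⟩ := G.el3 (by omega)
    have e0 := hν p q (PP_of_pairs G K hp.1 hq qp.2.2.1 qp.2.2.2)
    obtain ⟨k, hk, ek⟩ := Sset_sig G K hn hν' r q' ⟨hr.1, hq.2.1, rq'.1, q, hq.1.1, rq.1, by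
      rw [G.swap1 hq.2.2]; exact one_ne_zero⟩
    have hkp : (k : Matrix ι ι F) *ᵥ p = p := by
      rw [ek]; simp [Ef, G.smul_right, rp.2.2.1, qp.2.2.2]
    have hkq : (k : Matrix ι ι F) *ᵥ q = q + ν' • r := by
      rw [ek]; simp [Ef, G.smul_right, rq.2.2.1, hq.2.2, G.invol]
    have := e0.diff G.toSF (G.sg_iso _ hp.1.2.2) (by rw [G.smul_left, qp.1, mul_zero]) hk
      (K.iso k hk) hkp
    rw [mulVec_smul, hkq] at this
    refine mem_Sset G K hn (PP_of_pairs G K hp.1 hr rp.2.2.1 rp.2.2.2) (this.congr ?_ ?_)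
    · rw [smul_add, smul_smul]; abel
    · simp only [G.smul_left, G.smul_right, G.add_right, rq.2.2.1]
      ring
  add_mem' := by
    intro ν ν' hν hν' u v huv
    have hvu : ∀ c : F, h (c • v) u = 0 := fun c => by
      rw [G.smul_left, G.swap0 huv.2.2.1, mul_zero]
    refine (EM.mul G.toSF (G.sg_iso _ huv.1.2.2) (hvu ν) (hvu ν') (hν u v huv) (hν' u v huv)).congr
      (by rw [add_smul]) ?_
    simp [G.smul_left, G.smul_right, G.sg_iso _ huv.2.1.2.2]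
  algebraMap_mem' := by
    intro t u v huv
    exact K.base u v huv.1 huv.2.1 huv.2.2.1 _ t.2

end core


/-! ### descent of linear conditions -/

lemma tau_mulVec {A : Matrix ι ι F} (hA : IsRatM F₀ A) (τ : F →ₗ[F₀] F₀) (z : ι → F) :
    A *ᵥ (fun j => ((τ (z j) : F₀) : F)) = fun i => ((τ ((A *ᵥ z) i) : F₀) : F) := by
  ext i
  simp only [mulVec, dotProduct]
  rw [map_sum, AddSubmonoidClass.coe_finsetSum]
  apply Finset.sum_congr rfl
  intro j _
  have : A i j * z j = (⟨A i j, hA i j⟩ : F₀) • z j := rfl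
  rw [this, map_smul, smul_eq_mul]
  rfl

lemma exists_tau {c : F} (hc : c ≠ 0) : ∃ τ : F →ₗ[F₀] F₀, τ c ≠ 0 := by
  by_contra hcon
  push Not at hcon
  exact hc ((Module.forall_dual_apply_eq_zero_iff F₀ c).1 hcon)

/-- a system of rational linear equations and one inequation solvable over `F` is solvable
over `F₀` -/
lemma exists_rat_ker {A B : Matrix ι ι F} (hA : IsRatM F₀ A) (hB : IsRatM F₀ B) {z : ι → F}
    (h1 : A *ᵥ z = 0) (h2 : B *ᵥ z ≠ 0) : ∃ z₁, IsRat F₀ z₁ ∧ A *ᵥ z₁ = 0 ∧ B *ᵥ z₁ ≠ 0 := by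
  obtain ⟨i, hi⟩ := Function.ne_iff.1 h2
  obtain ⟨τ, hτ⟩ := exists_tau (F₀ := F₀) hi
  refine ⟨fun j => ((τ (z j) : F₀) : F), fun j => (τ (z j)).2, ?_, ?_⟩
  · rw [tau_mulVec hA, h1]
    ext i
    simp
  · rw [tau_mulVec hB]
    intro h0
    apply hτ
    have := congrFun h0 i
    simpa using this

lemma ratM_sub_one {A : Matrix ι ι F} (hA : IsRatM F₀ A) : IsRatM F₀ (A - 1) := by
  intro i j
  rw [Matrix.sub_apply, one_apply]
  refine F₀.sub_mem (hA i j) ?_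
  split_ifs
  · exact F₀.one_mem
  · exact F₀.zero_mem

/-! ### the rational case -/

section rational

variable (G : RG F₀ σ h Sg) (K : GM F₀ h Sg M) (hn : 13 ≤ Fintype.card ι)
  (hS0 : ∀ ν ∈ Sset F₀ h Sg M, ν ∈ F₀)
include G K hn hS0

lemma claimA1 {u w z : ι → F} {a : F} (hu : RS F₀ Sg u) (hw : h w u = 0) (e : EM h M u w a)
    (hz : RS F₀ Sg z) (hzu : h z u = 0) : h w z ∈ F₀ := by
  obtain ⟨p, p', q, q', hp, hq, pS, qS, qp, qp'⟩ := G.el2 [u, z] (by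
    intro s hs
    simp only [List.mem_cons, List.not_mem_nil, or_false] at hs
    rcases hs with rfl | rfl
    · exact hu.1
    · exact hz.1) (by simp; omega)
  have pu := pS u (by simp)
  have pz := pS z (by simp)
  have qu := qS u (by simp)
  have qz := qS z (by simp)
  have huu := G.sg_iso _ hu.2.2
  obtain ⟨k, hk, ek⟩ := K.base p z hp.1 hz pz.1 1 F₀.one_mem
  have hku : (k : Matrix ι ι F) *ᵥ u = u := by
    rw [ek]; simp [Ef, G.smul_right, pu.2.2.1, G.swap0 hzu]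
  have e1 := e.diff G.toSF huu hw hk (K.iso k hk) hku
  have hkw : (k : Matrix ι ι F) *ᵥ w - w = h w z • p - h w p • z := by
    rw [ek]; simp [Ef, G.smul_right]; abel
  rw [hkw] at e1
  have hw1 : h (h w z • p - h w p • z) u = 0 := by
    simp [G.sub_left, G.smul_left, pu.1, hzu]
  obtain ⟨k', hk', ek'⟩ := K.base q p' hq.1 hp.2.1 qp'.1 1 F₀.one_mem
  have hku' : (k' : Matrix ι ι F) *ᵥ u = u := by
    rw [ek']; simp [Ef, G.smul_right, qu.2.2.1, pu.2.2.2]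
  have hkp' : (k' : Matrix ι ι F) *ᵥ p = p + q := by
    rw [ek']; simp [Ef, G.smul_right, qp.2.2.1, hp.2.2]
  have hkz' : (k' : Matrix ι ι F) *ᵥ z = z := by
    rw [ek']; simp [Ef, G.smul_right, qz.2.2.1, pz.2.2.2]
  have e2 := e1.diff G.toSF huu hw1 hk' (K.iso k' hk') hku'
  rw [mulVec_sub, mulVec_smul, mulVec_smul, hkp', hkz'] at e2
  apply hS0
  refine mem_Sset G K hn (PP_of_pairs G K hu hq qu.2.2.1 qu.2.2.2) (e2.congr ?_ ?_)
  · rw [smul_add]; abel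
  · simp only [G.sub_left, G.sub_right, G.smul_left, G.smul_right, G.add_right, qp.2.2.1, qz.2.2.1]
    ring

lemma claimA2 {u w z : ι → F} {a : F} (hu : RS F₀ Sg u) (hw : h w u = 0) (e : EM h M u w a)
    (hz : IsRat F₀ z) (hzu : h z u = 0) : h w z ∈ F₀ := by
  obtain ⟨p, p', hp, pS⟩ := G.el1 [u, z] (by
    intro s hs
    simp only [List.mem_cons, List.not_mem_nil, or_false] at hs
    rcases hs with rfl | rfl
    · exact hu.1
    · exact hz) (by simp; omega)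
  have pu := pS u (by simp)
  have pz := pS z (by simp)
  obtain ⟨t, ht, hs⟩ := G.exists_three hp hz pz.1
  have h1 := claimA1 G K hn hS0 hu hw e hs (by
    simp [G.add_left, G.smul_left, hzu, pu.1, pu.2.1])
  have h2 := claimA1 G K hn hS0 hu hw e hp.1 pu.1
  have h3 := claimA1 G K hn hS0 hu hw e hp.2.1 pu.2.1
  have : h w z = h w (z + p' + t • p) - h w p' - σ t * h w p := by
    simp only [G.add_right, G.smul_right]; ring
  rw [this]
  exact F₀.sub_mem (F₀.sub_mem h1 h3) (F₀.mul_mem (G.sig_mem _ ht) h2)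

/-- **Claim A**: the elements of `M` in the unipotent radical of a rational singular point are
rational modulo the centre. -/
lemma claimA {u w : ι → F} {a : F} (hu : RS F₀ Sg u) (hw : h w u = 0) (e : EM h M u w a) :
    ∃ κ : F, IsRat F₀ (w - κ • u) := by
  obtain ⟨y, hy, huy⟩ := G.exists_dual hu.1 hu.2.1
  refine ⟨h w y, G.rat_of_forall fun z hz => ?_⟩
  have h1 := claimA2 G K hn hS0 hu hw e (z := z - h z u • y)
    (hz.sub (IsRat.smul (G.rat _ _ hz hu.1) hy)) (by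
      rw [G.sub_left, G.smul_left, G.swap1 huy]; ring)
  have : h (w - h w y • u) z = h w (z - h z u • y) := by
    rw [G.sub_left, G.smul_left, G.sub_right, G.smul_right, ← G.herm u z]; ring
  rw [this]
  exact h1


lemma mulVec_ne_zero (m : GL ι F) {x : ι → F} (hx : x ≠ 0) : (m : Matrix ι ι F) *ᵥ x ≠ 0 := by
  intro h0
  have := inv_mulVec_mulVec m x
  rw [h0, mulVec_zero] at this
  exact hx this.symm

lemma claimP1 {m : GL ι F} (hm : m ∈ M) {b₁ b₂ : ι → F} (hb₁ : RS F₀ Sg b₁) (hb₂ : RS F₀ Sg b₂)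
    {l : F} (hl : l ≠ 0) (hmb : (m : Matrix ι ι F) *ᵥ b₁ = l • b₂) {w : ι → F} (hw : RS F₀ Sg w)
    (hwb : h w b₁ = 0) : ∃ κ : F, IsRat F₀ (σ l • ((m : Matrix ι ι F) *ᵥ w) - κ • b₂) := by
  have e1 := ((K.base b₁ w hb₁ hw (G.swap0 hwb) 1 F₀.one_mem).conj hm (K.iso m hm))
  rw [hmb, one_smul] at e1
  have e2 := e1.scale G.toSF
  refine claimA G K hn hS0 hb₂ ?_ e2
  have h1 : h ((m : Matrix ι ι F) *ᵥ w) (l • b₂) = 0 := by rw [← hmb, K.iso m hm, hwb]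
  rw [G.smul_right] at h1
  rw [G.smul_left, (mul_eq_zero.1 h1).resolve_left (G.sig_ne hl), mul_zero]

lemma claimP2 {m : GL ι F} (hm : m ∈ M) {b₁ b₂ : ι → F} (hb₁ : RS F₀ Sg b₁) (hb₂ : RS F₀ Sg b₂)
    {l : F} (hl : l ≠ 0) (hmb : (m : Matrix ι ι F) *ᵥ b₁ = l • b₂) {w : ι → F} (hw : RS F₀ Sg w)
    (hwb : h w b₁ = 0) : l * σ l ∈ F₀ ∧ IsRat F₀ (σ l • ((m : Matrix ι ι F) *ᵥ w)) := by
  obtain ⟨w', w'', hww, wS⟩ := G.el1 [b₁, w] (by
    intro s hs
    simp only [List.mem_cons, List.not_mem_nil, or_false] at hs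
    rcases hs with rfl | rfl
    · exact hb₁.1
    · exact hw.1) (by simp; omega)
  have wb := wS b₁ (by simp)
  have ww := wS w (by simp)
  obtain ⟨N, hN⟩ : ∃ N, N = l * σ l := ⟨_, rfl⟩
  have hσl := G.sig_ne hl
  have hN0 : N ≠ 0 := by rw [hN]; exact mul_ne_zero hl hσl
  have hσN : σ N = N := by rw [hN, map_mul, G.invol]; ring
  obtain ⟨U, hU⟩ : ∃ U, U = σ l • ((m : Matrix ι ι F) *ᵥ w) := ⟨_, rfl⟩
  obtain ⟨U', hU'⟩ : ∃ U', U' = σ l • ((m : Matrix ι ι F) *ᵥ w') := ⟨_, rfl⟩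
  obtain ⟨U'', hU''⟩ : ∃ U'', U'' = σ l • ((m : Matrix ι ι F) *ᵥ w'') := ⟨_, rfl⟩
  have f1 : ∀ x y, h (σ l • ((m : Matrix ι ι F) *ᵥ x)) (σ l • ((m : Matrix ι ι F) *ᵥ y)) = N * h x y := by
    intro x y
    rw [G.smul_left, G.smul_right, G.invol, K.iso m hm, hN]; ring
  have f2 : ∀ x, h x b₁ = 0 → h (σ l • ((m : Matrix ι ι F) *ᵥ x)) b₂ = 0 := by
    intro x hx
    have h1 : h ((m : Matrix ι ι F) *ᵥ x) (l • b₂) = 0 := by rw [← hmb, K.iso m hm, hx]
    rw [G.smul_right] at h1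
    rw [G.smul_left, (mul_eq_zero.1 h1).resolve_left hσl, mul_zero]
  obtain ⟨κ, hρ⟩ := claimP1 G K hn hS0 hm hb₁ hb₂ hl hmb hw hwb
  obtain ⟨κ', hρ'⟩ := claimP1 G K hn hS0 hm hb₁ hb₂ hl hmb hww.1 wb.1
  obtain ⟨κ'', hρ''⟩ := claimP1 G K hn hS0 hm hb₁ hb₂ hl hmb hww.2.1 wb.2.1
  rw [← hU] at hρ
  rw [← hU'] at hρ'
  rw [← hU''] at hρ''
  have hbb := G.sg_iso _ hb₂.2.2
  have hUb : h U b₂ = 0 := by rw [hU]; exact f2 w hwb
  have hUb' : h U' b₂ = 0 := by rw [hU']; exact f2 w' wb.1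
  have hUb'' : h U'' b₂ = 0 := by rw [hU'']; exact f2 w'' wb.2.1
  have g1 : h (U' - κ' • b₂) (U'' - κ'' • b₂) = N := by
    simp only [G.sub_left, G.sub_right, G.smul_left, G.smul_right, hUb', G.swap0 hUb'', hbb]
    rw [hU', hU'', f1, hww.2.2]; ring
  have hNF : N ∈ F₀ := by rw [← g1]; exact G.rat _ _ hρ' hρ''
  refine ⟨hN ▸ hNF, ?_⟩
  rw [← hU]
  have hNi : N⁻¹ ∈ F₀ := F₀.inv_mem hNF
  have hσNi : σ N⁻¹ = N⁻¹ := by rw [map_inv₀, hσN]
  obtain ⟨y, hy⟩ : ∃ y, y = N⁻¹ • (U'' - κ'' • b₂) := ⟨_, rfl⟩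
  have g2 : h U' y = 1 := by
    rw [hy, G.smul_right, hσNi, G.sub_right, G.smul_right, hUb', hU', hU'', f1, hww.2.2]
    field_simp
    ring
  have hyRS : RS F₀ Sg y := by
    refine ⟨hy ▸ IsRat.smul hNi hρ'', ?_, ?_⟩
    · intro h0
      rw [h0, G.zero_right] at g2
      exact zero_ne_one g2
    · rw [hy]
      apply G.sg_smul
      rw [sub_eq_add_neg, ← neg_smul]
      refine G.sg_add _ _ (hU'' ▸ G.sg_smul _ _ (K.sg m hm _ hww.2.1.2.2)) (G.sg_smul _ _ hb₂.2.2) ?_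
      rw [G.smul_right, hUb'', mul_zero]
  obtain ⟨p, p', hp, pS⟩ := G.el1 [b₂, U - κ • b₂, U' - κ' • b₂, U'' - κ'' • b₂] (by
    intro s hs
    simp only [List.mem_cons, List.not_mem_nil, or_false] at hs
    rcases hs with rfl | rfl | rfl | rfl
    · exact hb₂.1
    · exact hρ
    · exact hρ'
    · exact hρ'') (by simp; omega)
  have pb := pS b₂ (by simp)
  have pρ := pS (U - κ • b₂) (by simp)
  have pρ' := pS (U' - κ' • b₂) (by simp)
  have pρ'' := pS (U'' - κ'' • b₂) (by simp)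
  have hUp : h U p = 0 := by
    have := pρ.2.2.1
    rwa [G.sub_left, G.smul_left, pb.2.2.1, mul_zero, sub_zero] at this
  have hUp' : h U' p = 0 := by
    have := pρ'.2.2.1
    rwa [G.sub_left, G.smul_left, pb.2.2.1, mul_zero, sub_zero] at this
  have hpy : h p y = 0 := by rw [hy, G.smul_right, pρ''.1, mul_zero]
  have hUy : h U y = 0 := by
    rw [hy, G.smul_right, G.sub_right, G.smul_right, hUb, hU, hU'', f1, ww.2.2.2]; ring
  obtain ⟨k, hk, ek⟩ := K.base p y hp.1 hyRS hpy 1 F₀.one_mem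
  have hkU : (k : Matrix ι ι F) *ᵥ U = U := by
    rw [ek]; simp [Ef, G.smul_right, hUp, hUy]
  have hkU' : (k : Matrix ι ι F) *ᵥ U' = U' + p := by
    rw [ek]; simp [Ef, G.smul_right, hUp', g2]
  have e1 := ((K.base w w' hw hww.1 ww.2.2.1 1 F₀.one_mem).conj hm (K.iso m hm))
  rw [one_smul] at e1
  have e2 : EM h M U (N⁻¹ • U') 0 := by
    rw [hU]
    apply EM.unscale G.toSF
    refine e1.congr ?_ (by ring)
    rw [G.invol, hU', smul_smul, smul_smul, hN]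
    have : l * (l * σ l)⁻¹ * σ l = 1 := by field_simp
    rw [this, one_smul]
  have hUU : h U U = 0 := by rw [hU, f1, G.sg_iso _ hw.2.2, mul_zero]
  have hU'U : h U' U = 0 := by rw [hU, hU', f1, ww.1, mul_zero]
  have e3 := e2.diff G.toSF hUU (by rw [G.smul_left, hU'U, mul_zero]) hk (K.iso k hk) hkU
  rw [mulVec_smul, hkU'] at e3
  have e4 : EM h M U (N⁻¹ • p) 0 := by
    refine e3.congr (by rw [smul_add]; abel) ?_
    simp only [G.smul_left, G.smul_right, G.add_right, hUp']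
    ring
  have e5 := e4.swap G.toSF
  obtain ⟨κ₃, hr⟩ := claimA G K hn hS0 hp.1 (by rw [G.smul_left, hUp, mul_zero]) e5
  obtain ⟨y₀, hy₀, hby₀⟩ := G.exists_dual hb₂.1 hb₂.2.1
  obtain ⟨y₂, hy₂, -, -, a3, -, a5, -⟩ := G.exists_proj hp hy₀
  have hby₂ : h b₂ y₂ = 1 := by rw [a5 b₂ pb.2.2.1 pb.2.2.2, hby₀]
  have h1 := G.rat _ _ hr hy₂
  rw [G.sub_left, G.smul_left, G.smul_left, a3, mul_zero, sub_zero, hσNi] at h1
  have h2 : h U y₂ ∈ F₀ := by
    have := F₀.mul_mem (F₀.neg_mem hNF) h1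
    have e : -N * (-N⁻¹ * h U y₂) = h U y₂ := by field_simp
    rwa [e] at this
  have h3 := G.rat _ _ hρ hy₂
  rw [G.sub_left, G.smul_left, hby₂, mul_one] at h3
  have hκ : κ ∈ F₀ := by
    have := F₀.sub_mem h2 h3
    rwa [sub_sub_cancel] at this
  have : U = (U - κ • b₂) + κ • b₂ := by abel
  rw [this]
  exact hρ.add (IsRat.smul hκ hb₂.1)

lemma claimP3 {m : GL ι F} (hm : m ∈ M) {b₁ b₂ : ι → F} (hb₁ : RS F₀ Sg b₁) (hb₂ : RS F₀ Sg b₂)
    {l : F} (hl : l ≠ 0) (hmb : (m : Matrix ι ι F) *ᵥ b₁ = l • b₂) {z : ι → F} (hz : IsRat F₀ z)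
    (hzb : h z b₁ = 0) : IsRat F₀ (σ l • ((m : Matrix ι ι F) *ᵥ z)) := by
  obtain ⟨p, p', hp, pS⟩ := G.el1 [b₁, z] (by
    intro s hs
    simp only [List.mem_cons, List.not_mem_nil, or_false] at hs
    rcases hs with rfl | rfl
    · exact hb₁.1
    · exact hz) (by simp; omega)
  have pb := pS b₁ (by simp)
  have pz := pS z (by simp)
  obtain ⟨t, ht, hs⟩ := G.exists_three hp hz pz.1
  have h1 := (claimP2 G K hn hS0 hm hb₁ hb₂ hl hmb hs (by
    simp [G.add_left, G.smul_left, hzb, pb.1, pb.2.1])).2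
  have h2 := (claimP2 G K hn hS0 hm hb₁ hb₂ hl hmb hp.1 pb.1).2
  have h3 := (claimP2 G K hn hS0 hm hb₁ hb₂ hl hmb hp.2.1 pb.2.1).2
  have : σ l • ((m : Matrix ι ι F) *ᵥ z) = σ l • ((m : Matrix ι ι F) *ᵥ (z + p' + t • p)) -
      σ l • ((m : Matrix ι ι F) *ᵥ p') - t • (σ l • ((m : Matrix ι ι F) *ᵥ p)) := by
    simp only [mulVec_add, mulVec_smul]
    module
  rw [this]
  exact (h1.sub h3).sub (IsRat.smul ht h2)

/-- **Claim P**: an element of `M` carrying a rational singular point to a rational singular point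
is rational up to a scalar. -/
lemma claimP {m : GL ι F} (hm : m ∈ M) {b₁ b₂ : ι → F} (hb₁ : RS F₀ Sg b₁) (hb₂ : RS F₀ Sg b₂)
    {l : F} (hl : l ≠ 0) (hmb : (m : Matrix ι ι F) *ᵥ b₁ = l • b₂) :
    IsRatM F₀ (σ l • (m : Matrix ι ι F)) := by
  obtain ⟨w, w', hw, wS⟩ := G.el1 [b₁] (by
    intro s hs
    simp only [List.mem_cons, List.not_mem_nil, or_false] at hs
    rw [hs]; exact hb₁.1) (by simp; omega)
  have wb := wS b₁ (by simp)
  have hσl := G.sig_ne hl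
  obtain ⟨hNF, hρ⟩ := claimP2 G K hn hS0 hm hb₁ hb₂ hl hmb hw.1 wb.1
  have hρRS : RS F₀ Sg (σ l • ((m : Matrix ι ι F) *ᵥ w)) :=
    ⟨hρ, smul_ne_zero hσl (mulVec_ne_zero G K hn hS0 m hw.1.2.1),
      G.sg_smul _ _ (K.sg m hm _ hw.1.2.2)⟩
  have hmw : (m : Matrix ι ι F) *ᵥ w = (σ l)⁻¹ • (σ l • ((m : Matrix ι ι F) *ᵥ w)) := by
    rw [smul_smul, inv_mul_cancel₀ hσl, one_smul]
  obtain ⟨y₀, hy₀, hby₀⟩ := G.exists_dual hb₁.1 hb₁.2.1
  obtain ⟨β, hβ, a1, -, -, -, a5, -⟩ := G.exists_proj hw hy₀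
  have hbβ : h β b₁ = 1 := G.swap1 (by rw [a5 b₁ wb.2.2.1 wb.2.2.2, hby₀])
  have key : ∀ z, IsRat F₀ z → IsRat F₀ (σ l • ((m : Matrix ι ι F) *ᵥ z)) := by
    intro z hz
    have hc := G.rat _ _ hz hb₁.1
    have h1 := claimP3 G K hn hS0 hm hb₁ hb₂ hl hmb (z := z - h z b₁ • β)
      (hz.sub (IsRat.smul hc hβ)) (by rw [G.sub_left, G.smul_left, hbβ]; ring)
    have h2 := claimP3 G K hn hS0 hm hw.1 hρRS (inv_ne_zero hσl) hmw (z := h z b₁ • β)
      (IsRat.smul hc hβ) (by rw [G.smul_left, a1, mul_zero])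
    rw [map_inv₀, G.invol] at h2
    have : σ l • ((m : Matrix ι ι F) *ᵥ z) = σ l • ((m : Matrix ι ι F) *ᵥ (z - h z b₁ • β)) +
        (l * σ l) • (l⁻¹ • ((m : Matrix ι ι F) *ᵥ (h z b₁ • β))) := by
      rw [smul_smul, mul_comm l, mul_assoc, mul_inv_cancel₀ hl, mul_one, ← smul_add, ← mulVec_add,
        sub_add_cancel]
    rw [this]
    exact h1.add (IsRat.smul hNF h2)
  intro i j
  have := key (e j) (rat_e j) i
  rwa [Pi.smul_apply, mulVec_single_one] at this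

lemma claimP_mem {m : GL ι F} (hm : m ∈ M) {b₁ b₂ : ι → F} (hb₁ : RS F₀ Sg b₁) (hb₂ : RS F₀ Sg b₂)
    {l : F} (hl : l ≠ 0) (hmb : (m : Matrix ι ι F) *ᵥ b₁ = l • b₂) :
    m ∈ Cfsg.Geo.subfieldSubgroup F₀ (1 : GL ι F) :=
  (mem_subfieldSubgroup_one_iff m).2 ⟨σ l, G.sig_ne hl, claimP G K hn hS0 hm hb₁ hb₂ hl hmb⟩


/-- an element of `M` fixing a rational singular vector is rational -/
lemma ratM_of_fix {m : GL ι F} (hm : m ∈ M) {b : ι → F} (hb : RS F₀ Sg b)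
    (hmb : (m : Matrix ι ι F) *ᵥ b = b) : IsRatM F₀ (m : Matrix ι ι F) := by
  have := claimP G K hn hS0 hm hb hb one_ne_zero (by rw [hmb, one_smul])
  rwa [map_one, one_smul] at this

/-- **incidence implies rationality**: an element of `M` carrying a rational totally singular line
into the orthogonal of a rational singular vector lies in the subfield group. -/
theorem TI {g : GL ι F} (hg : g ∈ M) {a a' b : ι → F} (haa : PP F₀ h Sg a a') (hb : RS F₀ Sg b)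
    (h1 : h ((g : Matrix ι ι F) *ᵥ a) b = 0) (h2 : h ((g : Matrix ι ι F) *ᵥ a') b = 0) :
    g ∈ Cfsg.Geo.subfieldSubgroup F₀ (1 : GL ι F) := by
  obtain ⟨ra, ra', oaa, s, rs, os, os'⟩ := haa
  obtain ⟨c, c', hc, cS⟩ := G.el1 [a, a', s] (by
    intro t ht
    simp only [List.mem_cons, List.not_mem_nil, or_false] at ht
    rcases ht with rfl | rfl | rfl
    · exact ra.1
    · exact ra'.1
    · exact rs) (by simp; omega)
  have ca := cS a (by simp)
  have ca' := cS a' (by simp)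
  have cs := cS s (by simp)
  have hi := K.iso g hg
  obtain ⟨x, hx⟩ : ∃ x, x = (g : Matrix ι ι F) *ᵥ a := ⟨_, rfl⟩
  obtain ⟨x', hx'⟩ : ∃ x', x' = (g : Matrix ι ι F) *ᵥ a' := ⟨_, rfl⟩
  obtain ⟨x'', hx''⟩ : ∃ x'', x'' = (g : Matrix ι ι F) *ᵥ c := ⟨_, rfl⟩
  obtain ⟨z, hz⟩ : ∃ z, z = (g : Matrix ι ι F) *ᵥ s := ⟨_, rfl⟩
  rw [← hx] at h1
  rw [← hx'] at h2
  have sx : Sg x := hx ▸ K.sg g hg _ ra.2.2
  have sx' : Sg x' := hx' ▸ K.sg g hg _ ra'.2.2
  have oxx' : h x x' = 0 := by rw [hx, hx', hi, oaa]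
  have oxx'' : h x x'' = 0 := by rw [hx, hx'', hi, ca.2.2.1]
  have ox'x'' : h x' x'' = 0 := by rw [hx', hx'', hi, ca'.2.2.1]
  have ozx : h z x = 0 := by rw [hz, hx, hi, G.swap0 os]
  have ozx'' : h z x'' = 0 := by rw [hz, hx'', hi, cs.2.2.1]
  have ozx' : h z x' ≠ 0 := by rw [hz, hx', hi]; exact G.swap_ne os'
  have hx0 : x ≠ 0 := hx ▸ mulVec_ne_zero G K hn hS0 g ra.2.1
  obtain ⟨k₀, hk₀, ek₀⟩ := (K.base a a' ra ra' oaa 1 F₀.one_mem).conj hg hi
  rw [one_smul, ← hx, ← hx'] at ek₀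
  obtain ⟨k₁, hk₁, ek₁⟩ := (K.base a c ra hc.1 ca.2.2.1 1 F₀.one_mem).conj hg hi
  rw [one_smul, ← hx, ← hx''] at ek₁
  have r₀ : IsRatM F₀ (k₀ : Matrix ι ι F) := ratM_of_fix G K hn hS0 hk₀ hb (by
    rw [ek₀]; simp [Ef, G.swap0 h1, G.swap0 h2])
  have N₀ : ∀ y, ((k₀ : Matrix ι ι F) - 1) *ᵥ y = h y x' • x - h y x • x' := by
    intro y
    rw [sub_mulVec, one_mulVec, ek₀]; simp [Ef]; abel
  have N₁ : ∀ y, ((k₁ : Matrix ι ι F) - 1) *ᵥ y = h y x'' • x - h y x • x'' := by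
    intro y
    rw [sub_mulVec, one_mulVec, ek₁]; simp [Ef]; abel
  have hN₀z : ((k₀ : Matrix ι ι F) - 1) *ᵥ z ≠ 0 := by
    rw [N₀, ozx, zero_smul, sub_zero]
    exact smul_ne_zero ozx' hx0
  -- a rational vector on the image line
  obtain ⟨z₀, rz₀, -, hz₀⟩ := exists_rat_ker (F₀ := F₀) (A := 0) (fun _ _ => F₀.zero_mem)
    (ratM_sub_one r₀) (zero_mulVec z) hN₀z
  have hb' : RS F₀ Sg (((k₀ : Matrix ι ι F) - 1) *ᵥ z₀) := by
    refine ⟨(ratM_sub_one r₀).mulVec rz₀, hz₀, ?_⟩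
    rw [N₀, sub_eq_add_neg, ← neg_smul]
    refine G.sg_add _ _ (G.sg_smul _ _ sx) (G.sg_smul _ _ sx') ?_
    rw [G.smul_left, G.smul_right, oxx']; ring
  have r₁ : IsRatM F₀ (k₁ : Matrix ι ι F) := ratM_of_fix G K hn hS0 hk₁ hb' (by
    rw [ek₁, N₀]
    simp [Ef, G.sub_left, G.smul_left, G.sg_iso _ sx, G.swap0 oxx', oxx'', ox'x''])
  obtain ⟨z₁, rz₁, hz₁, hz₁'⟩ := exists_rat_ker (ratM_sub_one r₁) (ratM_sub_one r₀) (z := z) (by
    rw [N₁, ozx, ozx'']; simp) hN₀z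
  have hz₁x : h z₁ x = 0 := by
    have := congrArg (fun v => h v ((g : Matrix ι ι F) *ᵥ c')) hz₁
    simp only [N₁, G.sub_left, G.smul_left, G.zero_left] at this
    rw [hx, hx'', hi, hi, ca.2.2.2, hc.2.2, ← hx] at this
    simpa using this
  rw [N₀, hz₁x, zero_smul, sub_zero] at hz₁'
  have hμ : h z₁ x' ≠ 0 := by
    intro h0
    rw [h0, zero_smul] at hz₁'
    exact hz₁' rfl
  have hρ : RS F₀ Sg (h z₁ x' • x) := by
    refine ⟨?_, hz₁', G.sg_smul _ _ sx⟩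
    have := (ratM_sub_one r₀).mulVec rz₁
    rwa [N₀, hz₁x, zero_smul, sub_zero] at this
  refine claimP_mem G K hn hS0 hg ra hρ (inv_ne_zero hμ) ?_
  rw [smul_smul, inv_mul_cancel₀ hμ, one_smul, hx]

end rational

end Cfsg.Agent.Lib.Helper99RG
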