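import Cfsg.Agent.Lib.Helper99RGFin

set_option autoImplicit false
set_option linter.unusedSectionVars false
set_option linter.unusedSimpArgs false
set_option linter.unusedVariables false

/-!
# Rational geometries: dual bases, the dichotomy
-/

namespace Cfsg.Agent.Lib.Helper99RGDual

open Matrix Module Cfsg.Agent.Lib.Helper95Basic Cfsg.Agent.Lib.Helper99Subfield
  Cfsg.Agent.Lib.Helper99SubfieldSL Cfsg.Agent.Lib.Helper99SubfieldGen Cfsg.Agent.Lib.Helper99RG
  Cfsg.Agent.Lib.Helper99RGEl Cfsg.Agent.Lib.Helper99RGFin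

variable {ι : Type} [Fintype ι] [DecidableEq ι] {F : Type*} [Field F]
variable {σ : F →+* F} {h : (ι → F) → (ι → F) → F} {F₀ : Subfield F} {Sg : (ι → F) → Prop}
variable {M : Subgroup (GL ι F)}

lemma sum_smul_e (x : ι → F) : ∑ k, x k • (e k : ι → F) = x := by
  ext i
  simp [Finset.sum_apply, Pi.single_apply]

lemma form_eq (H : SF σ h) (x y : ι → F) :
    h x y = x ⬝ᵥ ((Matrix.of fun i j => h (e i) (e j)) *ᵥ (fun j => σ (y j))) := by
  have h1 : ∀ (x y : ι → F), h x y = ∑ i, x i * h (e i) y := by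
    intro x y
    conv_lhs => rw [← sum_smul_e x]
    rw [H.sum_left]
    simp only [H.smul_left]
  rw [h1 x y]
  simp only [dotProduct, mulVec, of_apply]
  apply Finset.sum_congr rfl
  intro i _
  congr 1
  rw [H.herm, h1 y (e i), map_sum]
  apply Finset.sum_congr rfl
  intro j _
  rw [map_mul, ← H.herm, mul_comm]

/-- a rational non-degenerate form has rational dual bases -/
lemma dual_of_nondeg (H : SF σ h) (hσ : ∀ a ∈ F₀, σ a ∈ F₀)
    (hrat : ∀ x y, IsRat F₀ x → IsRat F₀ y → h x y ∈ F₀) (hnd : ∀ v, v ≠ 0 → ∃ x, h x v ≠ 0)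
    (k : ι) : ∃ d, IsRat F₀ d ∧ ∀ x, h x d = x k := by
  set J : Matrix ι ι F := Matrix.of fun i j => h (e i) (e j) with hJ
  have hdet : J.det ≠ 0 := by
    intro h0
    obtain ⟨v, hv, hJv⟩ := Matrix.exists_mulVec_eq_zero_iff.2 h0
    obtain ⟨x, hx⟩ := hnd (fun j => σ (v j)) (by
      intro h1
      apply hv
      ext j
      have := congrFun h1 j
      simp only [Pi.zero_apply] at this ⊢
      rw [← H.invol (v j), this, map_zero])
    apply hx
    rw [form_eq H]
    simp only [H.invol]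
    rw [← hJ, hJv, dotProduct_zero]
  set g : GL ι F := Matrix.GeneralLinearGroup.mkOfDetNeZero J hdet with hg
  have hgJ : (g : Matrix ι ι F) = J := rfl
  have hgr : IsRatM F₀ (g : Matrix ι ι F) := fun i j => hrat _ _ (rat_e i) (rat_e j)
  have hgi : IsRatM F₀ ((g⁻¹ : GL ι F) : Matrix ι ι F) :=
    (mem_range_map_iff _).1 (Subgroup.inv_mem _ ((mem_range_map_iff _).2 hgr))
  refine ⟨fun j => σ ((((g⁻¹ : GL ι F) : Matrix ι ι F) *ᵥ e k) j),
    fun j => hσ _ (hgi.mulVec (rat_e k) j), fun x => ?_⟩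
  rw [form_eq H]
  simp only [H.invol]
  rw [← hJ, ← hgJ]
  have : (g : Matrix ι ι F) *ᵥ (fun j => (((g⁻¹ : GL ι F) : Matrix ι ι F) *ᵥ e k) j) = e k :=
    mulVec_inv_mulVec g (e k)
  rw [this, dotProduct_single, mul_one]

/-- the dichotomy for the Siegel parameters -/
lemma dichotomy [Fintype F] (G : RG F₀ σ h Sg) (K : GM F₀ h Sg M) (hn : 13 ≤ Fintype.card ι)
    (r : ℕ) (hr : r.Prime) (hcard : Fintype.card F = Nat.card F₀ ^ r) :
    (∀ ν ∈ Sset F₀ h Sg M, ν ∈ F₀) ∨ (∀ ν : F, ν ∈ Sset F₀ h Sg M) := by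
  by_cases hS0 : ∀ ν ∈ Sset F₀ h Sg M, ν ∈ F₀
  · exact Or.inl hS0
  · right
    push Not at hS0
    obtain ⟨c, hc, hc0⟩ := hS0
    have htop := subalgebra_eq_top r hr hcard (Salg G K hn) c hc hc0
    intro d
    have : d ∈ Salg G K hn := by rw [htop]; exact Algebra.mem_top
    exact this

end Cfsg.Agent.Lib.Helper99RGDual
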