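import Cfsg.Agent.Lib.Helper99RG

set_option autoImplicit false
set_option linter.unusedSectionVars false
set_option linter.unusedSimpArgs false
set_option linter.unusedVariables false

/-!
# Rational geometries: existence of hyperbolic pairs
-/

namespace Cfsg.Agent.Lib.Helper99RGEl

open Matrix Module Cfsg.Agent.Lib.Helper95Basic Cfsg.Agent.Lib.Helper99Subfield
  Cfsg.Agent.Lib.Helper99SubfieldSL Cfsg.Agent.Lib.Helper99SubfieldGen Cfsg.Agent.Lib.Helper99RG

variable {ι : Type} [Fintype ι] [DecidableEq ι] {F : Type*} [Field F]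
variable {σ : F →+* F} {h : (ι → F) → (ι → F) → F} {F₀ : Subfield F} {Sg : (ι → F) → Prop}

/-- the inclusion of `F₀ ^ ι` -/
def up (x : ι → F₀) : ι → F := fun i => (x i : F)

lemma rat_up (x : ι → F₀) : IsRat F₀ (up x) := fun i => (x i).2

lemma up_add (x y : ι → F₀) : up (x + y) = up x + up y := rfl

lemma up_smul (c : F₀) (x : ι → F₀) : up (c • x) = (c : F) • up x := rfl

lemma up_zero : up (0 : ι → F₀) = 0 := rfl

lemma up_injective : Function.Injective (up : (ι → F₀) → ι → F) := by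
  intro x y hxy
  ext i
  exact congrFun hxy i

lemma up_ne_zero {x : ι → F₀} (hx : x ≠ 0) : up x ≠ 0 := fun h0 => hx (up_injective h0)

lemma exists_up {x : ι → F} (hx : IsRat F₀ x) : ∃ x₀ : ι → F₀, up x₀ = x :=
  ⟨fun i => ⟨x i, hx i⟩, rfl⟩

lemma exists_up_list (L : List (ι → F)) (hL : ∀ s ∈ L, IsRat F₀ s) :
    ∃ L₀ : List (ι → F₀), L₀.map up = L := by
  induction L with
  | nil => exact ⟨[], rfl⟩
  | cons a L ih =>
    obtain ⟨L₀, hL₀⟩ := ih (fun s hs => hL s (by simp [hs]))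
    obtain ⟨a₀, ha₀⟩ := exists_up (hL a (by simp))
    exact ⟨a₀ :: L₀, by simp [ha₀, hL₀]⟩

/-- every rational subspace of dimension at least three contains a singular vector -/
def ML (F₀ : Subfield F) (Sg : (ι → F) → Prop) : Prop :=
  ∀ T : Submodule F₀ (ι → F₀), 3 ≤ finrank F₀ T → ∃ x ∈ T, x ≠ 0 ∧ Sg (up x)

section

variable (G : RGB F₀ σ h Sg)

/-- the functional `x ↦ h x s`, with values in `F` -/
def phi (s : ι → F) : (ι → F₀) →ₗ[F₀] F where
  toFun x := h (up x) s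
  map_add' x y := by rw [up_add, G.add_left]
  map_smul' c x := by rw [up_smul, G.smul_left]; rfl

/-- the functional `x ↦ h x s`, for rational `s` -/
def phi₀ (s : ι → F₀) : (ι → F₀) →ₗ[F₀] F₀ where
  toFun x := ⟨h (up x) (up s), G.rat _ _ (rat_up x) (rat_up s)⟩
  map_add' x y := by apply Subtype.ext; simp only [up_add, G.add_left]; rfl
  map_smul' c x := by apply Subtype.ext; simp only [up_smul, G.smul_left]; rfl

lemma phi₀_eq_zero (s x : ι → F₀) : phi₀ G s x = 0 ↔ h (up x) (up s) = 0 := by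
  constructor
  · intro h0; exact congrArg Subtype.val h0
  · intro h0; exact Subtype.ext h0

/-- the orthogonality map of a list -/
def Phi (L : List (ι → F₀)) : (ι → F₀) →ₗ[F₀] (Fin L.length → F₀) :=
  LinearMap.pi fun i => phi₀ G (L.get i)

lemma mem_ker_Phi (L : List (ι → F₀)) (x : ι → F₀) :
    x ∈ LinearMap.ker (Phi G L) ↔ ∀ s ∈ L, h (up x) (up s) = 0 := by
  rw [LinearMap.mem_ker]
  constructor
  · intro h0 s hs
    obtain ⟨i, rfl⟩ := List.mem_iff_get.1 hs
    exact (phi₀_eq_zero G _ _).1 (congrFun h0 i)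
  · intro h0
    ext i
    exact congrArg Subtype.val ((phi₀_eq_zero G _ _).2 (h0 _ (List.get_mem L i)))

lemma finrank_ker_ge {κ : Type*} [AddCommGroup κ] [Module F₀ κ] [Module.Finite F₀ κ]
    (f : (ι → F₀) →ₗ[F₀] κ) :
    Fintype.card ι ≤ finrank F₀ (LinearMap.ker f) + finrank F₀ κ := by
  have h1 := LinearMap.finrank_range_add_finrank_ker f
  have h2 : finrank F₀ (LinearMap.range f) ≤ finrank F₀ κ := Submodule.finrank_le _
  rw [Module.finrank_fintype_fun_eq_card] at h1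
  omega

end


lemma up_sub (x y : ι → F₀) : up (x - y) = up x - up y := rfl

/-- the radical of the orthogonal of `P ++ S` is small, if the orthogonal of `P` is non-degenerate -/
lemma finrank_rad_le [Finite F] (G : RGB F₀ σ h Sg) (P₀ S₀ : List (ι → F₀)) (hP : ND F₀ h (P₀.map up))
    (R : Submodule F₀ (ι → F₀))
    (hR : ∀ x ∈ R, x ∈ LinearMap.ker (Phi G (P₀ ++ S₀)) ∧
      ∀ y ∈ LinearMap.ker (Phi G (P₀ ++ S₀)), h (up x) (up y) = 0) :
    finrank F₀ R ≤ S₀.length := by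
  classical
  set N := LinearMap.ker (Phi G P₀) with hN
  set Ψ : N →ₗ[F₀] (Fin S₀.length → F₀) := (Phi G S₀) ∘ₗ N.subtype with hΨ
  have hRN : ∀ x ∈ R, x ∈ N := by
    intro x hx
    rw [hN, mem_ker_Phi]
    intro s hs
    exact (mem_ker_Phi G _ _).1 (hR x hx).1 s (by simp [hs])
  let f : R → LinearMap.range Ψ.dualMap := fun x => ⟨(phi₀ G (x : ι → F₀)) ∘ₗ N.subtype, by
    rw [LinearMap.range_dualMap_eq_dualAnnihilator_ker, Submodule.mem_dualAnnihilator]
    intro y hy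
    have hyT : (y : ι → F₀) ∈ LinearMap.ker (Phi G (P₀ ++ S₀)) := by
      rw [mem_ker_Phi]
      intro s hs
      rcases List.mem_append.1 hs with hs | hs
      · exact (mem_ker_Phi G _ _).1 y.2 s hs
      · have : (y : ι → F₀) ∈ LinearMap.ker (Phi G S₀) := hy
        exact (mem_ker_Phi G _ _).1 this s hs
    show phi₀ G (x : ι → F₀) (y : ι → F₀) = 0
    rw [phi₀_eq_zero]
    exact G.swap0 ((hR x x.2).2 _ hyT)⟩
  have hf : Function.Injective f := by
    intro x x' hxx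
    by_contra hne
    have hd : ((x : ι → F₀) - (x' : ι → F₀)) ≠ 0 := fun h0 => hne (Subtype.ext (sub_eq_zero.1 h0))
    have hdN : ((x : ι → F₀) - (x' : ι → F₀)) ∈ N := N.sub_mem (hRN _ x.2) (hRN _ x'.2)
    obtain ⟨y, hy, hyP, hdy⟩ := hP.2 (up ((x : ι → F₀) - (x' : ι → F₀))) (rat_up _) (by
      intro s hs
      obtain ⟨s₀, hs₀, rfl⟩ := List.mem_map.1 hs
      exact (mem_ker_Phi G _ _).1 hdN s₀ hs₀) (up_ne_zero hd)
    obtain ⟨y₀, rfl⟩ := exists_up hy
    have hy₀N : y₀ ∈ N := by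
      rw [hN, mem_ker_Phi]
      intro s hs
      exact hyP _ (List.mem_map.2 ⟨s, hs, rfl⟩)
    have h1 := congrArg (fun φ : LinearMap.range Ψ.dualMap => (φ : Dual F₀ N) ⟨y₀, hy₀N⟩) hxx
    have h2 : h (up y₀) (up (x : ι → F₀)) = h (up y₀) (up (x' : ι → F₀)) :=
      congrArg Subtype.val h1
    apply hdy
    apply G.swap0
    rw [up_sub, G.sub_right, h2, sub_self]
  have : Finite (Dual F₀ N) := Module.finite_of_finite F₀
  have h1 := Nat.card_le_card_of_injective f hf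
  rw [Module.natCard_eq_pow_finrank (K := F₀) (V := R),
    Module.natCard_eq_pow_finrank (K := F₀) (V := LinearMap.range Ψ.dualMap)] at h1
  have h3 : 1 < Nat.card F₀ := Finite.one_lt_card
  have h4 := (Nat.pow_le_pow_iff_right h3).1 h1
  have h5 : finrank F₀ (LinearMap.range Ψ.dualMap) ≤ finrank F₀ (Dual F₀ (Fin S₀.length → F₀)) :=
    LinearMap.finrank_range_le _
  rw [Subspace.dual_finrank_eq, Module.finrank_fin_fun] at h5
  omega

/-- existence of hyperbolic pairs -/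
theorem el_of_ml [Finite F] (G : RGB F₀ σ h Sg) (hml : ML F₀ Sg) (P S : List (ι → F))
    (hP : ND F₀ h P) (hS : ∀ s ∈ S, IsRat F₀ s)
    (hc : P.length + 2 * S.length + 3 ≤ Fintype.card ι) :
    ∃ p p', HP F₀ h Sg p p' ∧ ∀ s, s ∈ P ∨ s ∈ S → h p s = 0 ∧ h p' s = 0 := by
  classical
  obtain ⟨P₀, rfl⟩ := exists_up_list P hP.1
  obtain ⟨S₀, rfl⟩ := exists_up_list S hS
  rw [List.length_map, List.length_map] at hc
  set T := LinearMap.ker (Phi G (P₀ ++ S₀)) with hT
  have hTd : Fintype.card ι ≤ finrank F₀ T + (P₀.length + S₀.length) := by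
    have := finrank_ker_ge (Phi G (P₀ ++ S₀))
    rw [Module.finrank_fin_fun] at this
    have h2 : (P₀ ++ S₀).length = P₀.length + S₀.length := List.length_append
    rw [← hT] at this
    omega
  let R : Submodule F₀ (ι → F₀) :=
    { carrier := {x | x ∈ T ∧ ∀ y ∈ T, h (up x) (up y) = 0}
      add_mem' := by
        rintro x x' ⟨h1, h2⟩ ⟨h1', h2'⟩
        refine ⟨T.add_mem h1 h1', fun y hy => ?_⟩
        rw [up_add, G.add_left, h2 y hy, h2' y hy, add_zero]
      zero_mem' := ⟨T.zero_mem, fun y _ => by rw [up_zero, G.zero_left]⟩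
      smul_mem' := by
        rintro c x ⟨h1, h2⟩
        refine ⟨T.smul_mem c h1, fun y hy => ?_⟩
        rw [up_smul, G.smul_left, h2 y hy, mul_zero] }
  have hRd : finrank F₀ R ≤ S₀.length := finrank_rad_le G P₀ S₀ hP R (fun x hx => hx)
  obtain ⟨R', hR'⟩ := Submodule.exists_isCompl R
  have h1 := Submodule.finrank_add_eq_of_isCompl hR'
  rw [Module.finrank_fintype_fun_eq_card] at h1
  have h2 := Submodule.finrank_sup_add_finrank_inf_eq T R'
  have h3 : finrank F₀ (T ⊔ R' : Submodule F₀ (ι → F₀)) ≤ Fintype.card ι := by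
    have := Submodule.finrank_le (T ⊔ R')
    rwa [Module.finrank_fintype_fun_eq_card] at this
  obtain ⟨p₀, hp₀, hp₀0, hp₀s⟩ := hml (T ⊓ R') (by omega)
  have hp₀R : p₀ ∉ R := by
    intro hR
    apply hp₀0
    have : p₀ ∈ R ⊓ R' := ⟨hR, hp₀.2⟩
    rwa [hR'.inf_eq_bot, Submodule.mem_bot] at this
  obtain ⟨y₀, hy₀, hpy⟩ : ∃ y₀ ∈ T, h (up p₀) (up y₀) ≠ 0 := by
    by_contra hcon
    push Not at hcon
    exact hp₀R ⟨hp₀.1, hcon⟩
  have hpRS : RS F₀ Sg (up p₀) := ⟨rat_up _, up_ne_zero hp₀0, hp₀s⟩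
  obtain ⟨c, hc', hc1⟩ := G.normalize (rat_up p₀) (rat_up y₀) hpy
  obtain ⟨p', hp', hpp', hinh⟩ := G.exists_partner hpRS (IsRat.smul hc' (rat_up y₀)) hc1
  refine ⟨up p₀, p', ⟨hpRS, hp', hpp'⟩, ?_⟩
  intro s hs
  have hs' : ∃ s₀ ∈ P₀ ++ S₀, up s₀ = s := by
    rcases hs with hs | hs
    · obtain ⟨s₀, hs₀, rfl⟩ := List.mem_map.1 hs
      exact ⟨s₀, by simp [hs₀], rfl⟩
    · obtain ⟨s₀, hs₀, rfl⟩ := List.mem_map.1 hs
      exact ⟨s₀, by simp [hs₀], rfl⟩
  obtain ⟨s₀, hs₀, rfl⟩ := hs'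
  have a1 := (mem_ker_Phi G _ _).1 hp₀.1 s₀ hs₀
  have a2 := (mem_ker_Phi G _ _).1 hy₀ s₀ hs₀
  refine ⟨a1, G.swap0 (hinh _ (G.swap0 a1) ?_)⟩
  rw [G.smul_right, G.swap0 a2, mul_zero]

/-- a rational geometry from the existence of singular vectors -/
theorem RG_of_ml [Finite F] (G : RGB F₀ σ h Sg) (hml : ML F₀ Sg) : RG F₀ σ h Sg :=
  { G with el := el_of_ml G hml }

end Cfsg.Agent.Lib.Helper99RGEl
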