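import Cfsg.Agent.Lib.Helper99RGEl

set_option autoImplicit false
set_option linter.unusedSectionVars false
set_option linter.unusedSimpArgs false
set_option linter.unusedVariables false

/-!
# Rational geometries: the two cases
-/

namespace Cfsg.Agent.Lib.Helper99RGFin

open Matrix Module Cfsg.Agent.Lib.Helper95Basic Cfsg.Agent.Lib.Helper99Subfield
  Cfsg.Agent.Lib.Helper99SubfieldSL Cfsg.Agent.Lib.Helper99SubfieldGen Cfsg.Agent.Lib.Helper99RG
  Cfsg.Agent.Lib.Helper99RGEl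

variable {ι : Type} [Fintype ι] [DecidableEq ι] {F : Type*} [Field F]
variable {σ : F →+* F} {h : (ι → F) → (ι → F) → F} {F₀ : Subfield F} {Sg : (ι → F) → Prop}
variable {M : Subgroup (GL ι F)}

/-! ### the big case -/

section big

variable (G : RG F₀ σ h Sg) (K : GM F₀ h Sg M) (hn : 13 ≤ Fintype.card ι)
  (hS : ∀ ν : F, ν ∈ Sset F₀ h Sg M)
include G K hn hS

lemma EM_rat_smul {u z : ι → F} (hu : RS F₀ Sg u) (hz : IsRat F₀ z) (hzu : h z u = 0) (c : F) :
    ∃ a, EM h M u (c • z) a := by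
  obtain ⟨p, p', hp, pS⟩ := G.el1 [u, z] (by
    intro s hs
    simp only [List.mem_cons, List.not_mem_nil, or_false] at hs
    rcases hs with rfl | rfl
    · exact hu.1
    · exact hz) (by simp; omega)
  have pu := pS u (by simp)
  have pz := pS z (by simp)
  obtain ⟨t, ht, hs⟩ := G.exists_three hp hz pz.1
  have huu := G.sg_iso _ hu.2.2
  have o1 : h (z + p' + t • p) u = 0 := by simp [G.add_left, G.smul_left, hzu, pu.1, pu.2.1]
  have e1 := hS c u (z + p' + t • p) ⟨hu, hs, G.swap0 o1, p, hp.1.1, pu.2.2.1, by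
    simp [G.add_left, G.smul_left, pz.2.2.1, G.swap1 hp.2.2, G.sg_iso _ hp.1.2.2]⟩
  have e2 := hS (-c) u p' ⟨hu, hp.2.1, pu.2.2.2, p, hp.1.1, pu.2.2.1, by
    rw [G.swap1 hp.2.2]; exact one_ne_zero⟩
  have e3 := hS (-(c * t)) u p ⟨hu, hp.1, pu.2.2.1, p', hp.2.1.1, pu.2.2.2, by
    rw [hp.2.2]; exact one_ne_zero⟩
  have q1 : h (c • (z + p' + t • p)) u = 0 := by rw [G.smul_left, o1, mul_zero]
  have q2 : h (-c • p') u = 0 := by rw [G.smul_left, pu.2.1, mul_zero]
  have q3 : h (-(c * t) • p) u = 0 := by rw [G.smul_left, pu.1, mul_zero]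
  have e4 := EM.mul G.toSF huu q1 q2 e1 e2
  have e5 := EM.mul G.toSF huu (by rw [G.add_left, q1, q2, add_zero]) q3 e4 e3
  exact ⟨_, e5.congr (by module) rfl⟩

/-- the whole unipotent radical, modulo its centre -/
lemma all_EM {u w : ι → F} (hu : RS F₀ Sg u) (hw : h w u = 0) : ∃ a, EM h M u w a := by
  classical
  obtain ⟨y, hy, huy⟩ := G.exists_dual hu.1 hu.2.1
  have hyu := G.swap1 huy
  have huu := G.sg_iso _ hu.2.2
  have hperp : ∀ k : ι, h (e k - h (e k) u • y) u = 0 := by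
    intro k
    rw [G.sub_left, G.smul_left, hyu]; ring
  have hrat : ∀ k : ι, IsRat F₀ ((e k : ι → F) - h (e k) u • y) := fun k =>
    (rat_e k).sub (IsRat.smul (G.rat _ _ (rat_e k) hu.1) hy)
  have key : ∀ s : Finset ι, h (∑ k ∈ s, w k • ((e k : ι → F) - h (e k) u • y)) u = 0 ∧
      ∃ a, EM h M u (∑ k ∈ s, w k • ((e k : ι → F) - h (e k) u • y)) a := by
    intro s
    induction s using Finset.induction_on with
    | empty => exact ⟨by simp [G.zero_left], 0, by simpa using EM_zero G.toSF u⟩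
    | insert k s hk ih =>
      obtain ⟨o, a, ea⟩ := ih
      obtain ⟨a', ea'⟩ := EM_rat_smul G K hn hS hu (hrat k) (hperp k) (w k)
      have o' : h (w k • ((e k : ι → F) - h (e k) u • y)) u = 0 := by
        rw [G.smul_left, hperp k, mul_zero]
      rw [Finset.sum_insert hk]
      exact ⟨by rw [G.add_left, o, o', add_zero], _, EM.mul G.toSF huu o' o ea' ea⟩
  obtain ⟨-, a, ea⟩ := key Finset.univ
  refine ⟨a, ea.congr ?_ rfl⟩
  have h1 : ∑ k, w k • (e k : ι → F) = w := by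
    ext i
    simp [Finset.sum_apply, Pi.single_apply]
  have h2 : ∑ k, w k * h (e k) u = 0 := by
    rw [← hw]
    conv_rhs => rw [← h1]
    rw [G.sum_left]
    simp only [G.smul_left]
  simp only [smul_sub, smul_smul, Finset.sum_sub_distrib, ← Finset.sum_smul]
  rw [h1, h2, zero_smul, sub_zero]

end big

/-! ### the rational case -/

section rational

variable [Fintype F] (G : RG F₀ σ h Sg) (K : GM F₀ h Sg M) (hn : 13 ≤ Fintype.card ι)
  (hS0 : ∀ ν ∈ Sset F₀ h Sg M, ν ∈ F₀)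
include G K hn hS0

/-- the pigeonhole argument for extensions of small degree -/
lemma le_of_small (hml : ML F₀ Sg) (r : ℕ) (hcard : Fintype.card F = Nat.card F₀ ^ r)
    (hr : 2 * r + 3 ≤ Fintype.card ι) : M ≤ Cfsg.Geo.subfieldSubgroup F₀ (1 : GL ι F) := by
  intro g hg
  obtain ⟨p, p', q, q', hp, hq, -, -, qp, qp'⟩ := G.el2 [] (by simp) (by simp; omega)
  have hfr : finrank F₀ F = r := finrank_eq_of_card r hcard
  have h1 := finrank_ker_ge ((phi G.toRGB ((g : Matrix ι ι F) *ᵥ p)).prod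
    (phi G.toRGB ((g : Matrix ι ι F) *ᵥ q)))
  rw [Module.finrank_prod, hfr] at h1
  obtain ⟨b, hb, hb0, hbs⟩ := hml (LinearMap.ker ((phi G.toRGB ((g : Matrix ι ι F) *ᵥ p)).prod
    (phi G.toRGB ((g : Matrix ι ι F) *ᵥ q)))) (by omega)
  rw [LinearMap.mem_ker, LinearMap.prod_apply, Prod.mk_eq_zero] at hb
  exact TI G K hn hS0 hg (PP_of_pairs G K hp.1 hq qp.2.2.1 qp.2.2.2) ⟨rat_up b, up_ne_zero hb0, hbs⟩
    (G.swap0 hb.1) (G.swap0 hb.2)


/-- a rational isometry with small commutator space fixes a rational totally singular line -/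
lemma exists_fixed_line {y : GL ι F} (hy : y ∈ M) (hyr : IsRatM F₀ (y : Matrix ι ι F))
    (hrk : ((y : Matrix ι ι F) - 1).rank ≤ 4) :
    ∃ a a', PP F₀ h Sg a a' ∧ (y : Matrix ι ι F) *ᵥ a = a ∧ (y : Matrix ι ι F) *ᵥ a' = a' := by
  classical
  have hyi : IsRatM F₀ ((y⁻¹ : GL ι F) : Matrix ι ι F) :=
    (mem_range_map_iff _).1 (Subgroup.inv_mem _ ((mem_range_map_iff _).2 hyr))
  obtain ⟨C, hC⟩ : ∃ C : Matrix ι ι F, C = ((y⁻¹ : GL ι F) : Matrix ι ι F) - 1 := ⟨_, rfl⟩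
  have hCr : IsRatM F₀ C := hC ▸ ratM_sub_one hyi
  have hCrk : C.rank ≤ 4 := by
    have e1 : C = (-((y⁻¹ : GL ι F) : Matrix ι ι F)) * ((y : Matrix ι ι F) - 1) := by
      rw [hC, neg_mul, mul_sub, mul_one, ← Units.val_mul, inv_mul_cancel, Units.val_one]
      abel
    rw [e1]
    exact (Matrix.rank_mul_le_right _ _).trans hrk
  obtain ⟨f, hf, hspan, -⟩ := Submodule.exists_fun_fin_finrank_span_eq F (Set.range C.col)
  have hlen : finrank F (Submodule.span F (Set.range C.col)) ≤ 4 := by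
    rw [← Matrix.rank_eq_finrank_span_cols]; exact hCrk
  obtain ⟨p, p', q, q', hp, hq, pS, qS, qp, qp'⟩ := G.el2 (List.ofFn f) (by
    intro s hs
    rw [List.mem_ofFn] at hs
    obtain ⟨i, rfl⟩ := hs
    obtain ⟨j, hj⟩ := hf i
    rw [← hj]
    exact fun k => hCr k j) (by rw [List.length_ofFn]; omega)
  have key : ∀ v, (∀ s ∈ List.ofFn f, h v s = 0) → (y : Matrix ι ι F) *ᵥ v = v := by
    intro v hv
    have h1 : ∀ w ∈ Submodule.span F (Set.range f), h v w = 0 := by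
      intro w hw
      induction hw using Submodule.span_induction with
      | mem w hw =>
        obtain ⟨i, rfl⟩ := hw
        exact hv _ ((List.mem_ofFn).2 ⟨i, rfl⟩)
      | zero => exact G.zero_right v
      | add a b _ _ ha hb => rw [G.add_right, ha, hb, add_zero]
      | smul c a _ ha => rw [G.smul_right, ha, mul_zero]
    have h2 : ∀ z, h v (C *ᵥ z) = 0 := by
      intro z
      apply h1
      rw [hspan, ← Matrix.range_mulVecLin]
      exact ⟨z, rfl⟩
    rw [← sub_eq_zero]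
    apply G.eq_zero_of_perp
    intro z _
    have h3 := h2 z
    rw [hC, sub_mulVec, one_mulVec, G.sub_right] at h3
    rw [G.sub_left, ← h3]
    have : h ((y : Matrix ι ι F) *ᵥ v) z = h v (((y⁻¹ : GL ι F) : Matrix ι ι F) *ᵥ z) := by
      rw [← K.iso y hy v, mulVec_inv_mulVec]
    rw [this]
  exact ⟨p, q, PP_of_pairs G K hp.1 hq qp.2.2.1 qp.2.2.2, key p (fun s hs => (pS s hs).1),
    key q (fun s hs => (qS s hs).1)⟩

variable (r : ℕ) (hr : r.Prime) (hcard : Fintype.card F = Nat.card F₀ ^ r) (hml : ML F₀ Sg)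
  (hR2 : ∀ y ∈ M, IsRatM F₀ (y : Matrix ι ι F) → y ≠ 1 → ((y : Matrix ι ι F) - 1).rank ≤ 4 →
    ∃ b, RS F₀ Sg b ∧ ∀ v, (y : Matrix ι ι F) *ᵥ v = v → h v b = 0)
include r hr hcard hml hR2

lemma eq_one_of_small2 {y g : GL ι F} (hyM : y ∈ M)
    (hy : y ∈ Cfsg.Geo.subfieldSubgroup F₀ (1 : GL ι F)) (hg : g ∈ M)
    (hgH : g ∉ Cfsg.Geo.subfieldSubgroup F₀ (1 : GL ι F))
    (hy' : g⁻¹ * y * g ∈ Cfsg.Geo.subfieldSubgroup F₀ (1 : GL ι F))
    (hrk : ((y : Matrix ι ι F) - 1).rank ≤ 4) : y = 1 := by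
  classical
  have hq : 1 < Nat.card F₀ := by
    rw [Nat.card_eq_fintype_card]; exact Fintype.one_lt_card
  have hbig : ¬ Fintype.card F ≤ Nat.card F₀ ^ 5 := by
    intro hle
    apply hgH
    rw [hcard] at hle
    have hr5 : r ≤ 5 := (Nat.pow_le_pow_iff_right hq).1 hle
    exact le_of_small G K hn hS0 hml r hcard (by omega) hg
  have hrk' : (((g⁻¹ * y * g : GL ι F) : Matrix ι ι F) - 1).rank ≤ 4 := by
    have := rank_conj_sub_one_le g⁻¹ y
    rw [inv_inv] at this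
    exact this.trans hrk
  have r1 : IsRatM F₀ (y : Matrix ι ι F) :=
    (ratM_of_small r hr hcard (by omega) hy hrk).resolve_right hbig
  have r2 : IsRatM F₀ ((g⁻¹ * y * g : GL ι F) : Matrix ι ι F) :=
    (ratM_of_small r hr hcard (by omega) hy' hrk').resolve_right hbig
  by_contra hne
  obtain ⟨a, a', haa, ha, ha'⟩ := exists_fixed_line G K hn hS0
    (M.mul_mem (M.mul_mem (M.inv_mem hg) hyM) hg) r2 hrk'
  have hfix : ∀ v, ((g⁻¹ * y * g : GL ι F) : Matrix ι ι F) *ᵥ v = v →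
      (y : Matrix ι ι F) *ᵥ ((g : Matrix ι ι F) *ᵥ v) = (g : Matrix ι ι F) *ᵥ v := by
    intro v hv
    rw [mul_mulVec, mul_mulVec] at hv
    have := congrArg (fun z => (g : Matrix ι ι F) *ᵥ z) hv
    simpa only [mulVec_inv_mulVec] using this
  obtain ⟨b, hb, hbv⟩ := hR2 y hyM r1 hne hrk
  exact hgH (TI G K hn hS0 hg haa hb (hbv _ (hfix a ha)) (hbv _ (hfix a' ha')))

/-- **The Bender count for subfield groups of classical groups.** -/
theorem le_subfield_of_TI (i₁ i₂ : GL ι F) (h1M : i₁ ∈ M) (h2M : i₂ ∈ M)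
    (h1S : i₁ ∈ Cfsg.Geo.subfieldSubgroup F₀ (1 : GL ι F))
    (h2S : i₂ ∈ Cfsg.Geo.subfieldSubgroup F₀ (1 : GL ι F))
    (h1i : i₁ * i₁ = 1) (h2i : i₂ * i₂ = 1) (h1ne : i₁ ≠ 1) (h2ne : i₂ ≠ 1) (hne : i₁ ≠ i₂)
    (h1r : ((i₁ : Matrix ι ι F) - 1).rank ≤ 2) (h2r : ((i₂ : Matrix ι ι F) - 1).rank ≤ 2) :
    M ≤ Cfsg.Geo.subfieldSubgroup F₀ (1 : GL ι F) := by
  classical
  set S := Cfsg.Geo.subfieldSubgroup F₀ (1 : GL ι F) with hS
  rw [← Subgroup.subgroupOf_eq_top]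
  refine Cfsg.Agent.Lib.Helper99Bender.eq_top_of_involutions (S.subgroupOf M)
    (fun i : M => (i : GL ι F) * (i : GL ι F) = 1 ∧ (i : GL ι F) ≠ 1 ∧
      (((i : GL ι F) : Matrix ι ι F) - 1).rank ≤ 2) ?_ ?_ ?_ ?_
    ⟨_, h1M⟩ ⟨_, h2M⟩ ⟨h1i, h1ne, h1r⟩ ⟨h2i, h2ne, h2r⟩ (Subgroup.mem_subgroupOf.2 h1S)
    (Subgroup.mem_subgroupOf.2 h2S) (fun h => hne (congrArg Subtype.val h))
  · -- conjugation
    rintro g i ⟨h1, h2, h3'⟩
    refine ⟨?_, ?_, ?_⟩
    · have : ((g * i * g⁻¹ : M) : GL ι F) * ((g * i * g⁻¹ : M) : GL ι F) =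
          (g : GL ι F) * ((i : GL ι F) * (i : GL ι F)) * (g : GL ι F)⁻¹ := by
        simp only [Subgroup.coe_mul, Subgroup.coe_inv]; group
      rw [this, h1]; group
    · intro h
      apply h2
      have : ((g * i * g⁻¹ : M) : GL ι F) = (g : GL ι F) * (i : GL ι F) * (g : GL ι F)⁻¹ := by
        simp only [Subgroup.coe_mul, Subgroup.coe_inv]
      rw [this] at h
      have h' : (i : GL ι F) = (g : GL ι F)⁻¹ * ((g : GL ι F) * (i : GL ι F) * (g : GL ι F)⁻¹) *
          (g : GL ι F) := by group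
      rw [h', h]; group
    · have : ((g * i * g⁻¹ : M) : GL ι F) = (g : GL ι F) * (i : GL ι F) * (g : GL ι F)⁻¹ := by
        simp only [Subgroup.coe_mul, Subgroup.coe_inv]
      rw [this]
      exact (rank_conj_sub_one_le _ _).trans h3'
  · rintro i ⟨h1, -, -⟩
    exact Subtype.ext h1
  · -- (a)
    rintro i ⟨-, h2, h3'⟩ hiH g hgi
    by_contra hg
    apply h2
    rw [Subgroup.mem_subgroupOf] at hiH hgi hg
    refine eq_one_of_small2 G K hn hS0 r hr hcard hml hR2 i.2 hiH (M.inv_mem g.2)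
      (fun h => hg (by simpa using S.inv_mem h)) ?_ (by omega)
    simpa only [Subgroup.coe_mul, Subgroup.coe_inv, inv_inv] using hgi
  · -- (b)
    rintro i i' ⟨h1, -, h3'⟩ ⟨h1', -, h3''⟩ g hg hii hgii
    rw [Subgroup.mem_subgroupOf] at hii hgii hg
    have hrk : ((((i : GL ι F) * (i' : GL ι F) : GL ι F) : Matrix ι ι F) - 1).rank ≤ 4 := by
      rw [Units.val_mul]
      have := rank_mul_sub_one_le ((i : GL ι F) : Matrix ι ι F) ((i' : GL ι F) : Matrix ι ι F)
      omega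
    have key : (i : GL ι F) * (i' : GL ι F) = 1 := by
      refine eq_one_of_small2 G K hn hS0 r hr hcard hml hR2 (M.mul_mem i.2 i'.2)
        (by simpa using hii) (M.inv_mem g.2)
        (fun h => hg (by simpa using S.inv_mem h)) ?_ hrk
      simpa only [Subgroup.coe_mul, Subgroup.coe_inv, inv_inv] using hgii
    apply Subtype.ext
    calc (i : GL ι F) = (i : GL ι F) * ((i' : GL ι F) * (i' : GL ι F)) := by rw [h1', mul_one]
      _ = ((i : GL ι F) * (i' : GL ι F)) * (i' : GL ι F) := by group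
      _ = (i' : GL ι F) := by rw [key, one_mul]

end rational

end Cfsg.Agent.Lib.Helper99RGFin
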