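import Cfsg.Agent.Lib.Helper99RGFin
import Cfsg.Agent.Lib.Helper99RGDual
import Cfsg.Agent.Lib.Helper99Bender2

set_option autoImplicit false
set_option linter.unusedSectionVars false
set_option linter.unusedSimpArgs false
set_option linter.unusedVariables false

/-!
# Rational geometries: the Bender count with multiplicities
-/

namespace Cfsg.Agent.Lib.Helper99RGFin2

open Matrix Module Cfsg.Agent.Lib.Helper95Basic Cfsg.Agent.Lib.Helper99Subfield
  Cfsg.Agent.Lib.Helper99SubfieldSL Cfsg.Agent.Lib.Helper99SubfieldGen Cfsg.Agent.Lib.Helper99RG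
  Cfsg.Agent.Lib.Helper99RGEl Cfsg.Agent.Lib.Helper99RGFin Cfsg.Agent.Lib.Helper99RGDual

variable {ι : Type} [Fintype ι] [DecidableEq ι] {F : Type*} [Field F]
variable {σ : F →+* F} {h : (ι → F) → (ι → F) → F} {F₀ : Subfield F} {Sg : (ι → F) → Prop}
variable {M : Subgroup (GL ι F)}

lemma finrank_inf_ker_ge {κ : Type*} [AddCommGroup κ] [Module F₀ κ] [Module.Finite F₀ κ]
    (X : Submodule F₀ (ι → F₀)) (f : (ι → F₀) →ₗ[F₀] κ) :
    finrank F₀ X ≤ finrank F₀ (X ⊓ LinearMap.ker f : Submodule F₀ (ι → F₀)) + finrank F₀ κ := by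
  have h1 := finrank_ker_ge f
  have h2 := Submodule.finrank_sup_add_finrank_inf_eq X (LinearMap.ker f)
  have h3 : finrank F₀ (X ⊔ LinearMap.ker f : Submodule F₀ (ι → F₀)) ≤ Fintype.card ι := by
    have := Submodule.finrank_le (X ⊔ LinearMap.ker f)
    rwa [Module.finrank_fintype_fun_eq_card] at this
  omega

/-- a rational subspace of dimension at least five contains a totally singular line -/
lemma exists_line_in (G : RGB F₀ σ h Sg) (hml : ML F₀ Sg) (X : Submodule F₀ (ι → F₀))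
    (hX : 5 ≤ finrank F₀ X) : ∃ a ∈ X, ∃ a' ∈ X, PP F₀ h Sg (up a) (up a') := by
  obtain ⟨x₁, hx₁X, hx₁0, hx₁s⟩ := hml X (by omega)
  obtain ⟨y₁, hy₁, h1⟩ := G.exists_dual (rat_up x₁) (up_ne_zero hx₁0)
  obtain ⟨y₀, rfl⟩ := exists_up hy₁
  have h2 := finrank_inf_ker_ge X (Phi G [x₁, y₀])
  rw [Module.finrank_fin_fun] at h2
  have h3 : [x₁, y₀].length = 2 := rfl
  obtain ⟨x₂, hx₂, hx₂0, hx₂s⟩ := hml (X ⊓ LinearMap.ker (Phi G [x₁, y₀])) (by omega)
  have h4 := (mem_ker_Phi G _ _).1 hx₂.2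
  exact ⟨x₂, hx₂.1, x₁, hx₁X, ⟨rat_up _, up_ne_zero hx₂0, hx₂s⟩, ⟨rat_up _, up_ne_zero hx₁0, hx₁s⟩,
    h4 x₁ (by simp), up y₀, rat_up _, h4 y₀ (by simp), by rw [h1]; exact one_ne_zero⟩

/-- the rational commutator space of `y` -/
def Tsp (F₀ : Subfield F) (y : GL ι F) : Submodule F₀ (ι → F₀) where
  carrier := {z | ∃ x : ι → F₀, up z = (y : Matrix ι ι F) *ᵥ up x - up x}
  add_mem' := by
    rintro z z' ⟨x, hx⟩ ⟨x', hx'⟩
    refine ⟨x + x', ?_⟩
    rw [up_add, up_add, mulVec_add, hx, hx']; abel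
  zero_mem' := ⟨0, by simp [up_zero]⟩
  smul_mem' := by
    rintro c z ⟨x, hx⟩
    refine ⟨c • x, ?_⟩
    rw [up_smul, up_smul, mulVec_smul, hx, smul_sub]

lemma mem_Tsp {y : GL ι F} {z : ι → F₀} :
    z ∈ Tsp F₀ y ↔ ∃ x : ι → F₀, up z = (y : Matrix ι ι F) *ᵥ up x - up x := Iff.rfl

lemma exists_mem_Tsp {y : GL ι F} (hyr : IsRatM F₀ (y : Matrix ι ι F)) {x : ι → F}
    (hx : IsRat F₀ x) : ∃ z ∈ Tsp F₀ y, up z = (y : Matrix ι ι F) *ᵥ x - x := by
  obtain ⟨x₀, rfl⟩ := exists_up hx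
  obtain ⟨z, hz⟩ := exists_up ((hyr.mulVec (rat_up x₀)).sub (rat_up x₀))
  exact ⟨z, ⟨x₀, hz⟩, hz⟩

lemma up_mem_span {k : ℕ} (f : Fin k → ι → F₀) {z : ι → F₀}
    (hz : z ∈ Submodule.span F₀ (Set.range f)) :
    up z ∈ Submodule.span F (Set.range fun i => up (f i)) := by
  induction hz using Submodule.span_induction with
  | mem w hw =>
    obtain ⟨i, rfl⟩ := hw
    exact Submodule.subset_span ⟨i, rfl⟩
  | zero => rw [up_zero]; exact Submodule.zero_mem _
  | add a b _ _ ha hb => rw [up_add]; exact Submodule.add_mem _ ha hb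
  | smul c a _ ha => rw [up_smul]; exact Submodule.smul_mem _ _ ha

/-- the rank of `y - 1` is bounded by the dimension of the rational commutator space -/
lemma rank_le_finrank_Tsp {y : GL ι F} (hyr : IsRatM F₀ (y : Matrix ι ι F)) :
    ((y : Matrix ι ι F) - 1).rank ≤ finrank F₀ (Tsp F₀ y) := by
  classical
  obtain ⟨f, hf, hspan, -⟩ := Submodule.exists_fun_fin_finrank_span_eq F₀
    ((Tsp F₀ y : Submodule F₀ (ι → F₀)) : Set (ι → F₀))
  rw [Matrix.rank_eq_finrank_span_cols]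
  have hle : Submodule.span F (Set.range ((y : Matrix ι ι F) - 1).col) ≤
      Submodule.span F (Set.range fun i => up (f i)) := by
    rw [Submodule.span_le]
    rintro _ ⟨j, rfl⟩
    obtain ⟨z, hz, hz'⟩ := exists_mem_Tsp hyr (rat_e (F₀ := F₀) j)
    have e1 : ((y : Matrix ι ι F) - 1).col j = up z := by
      rw [hz', ← mulVec_single_one, sub_mulVec, one_mulVec]
    rw [e1]
    apply up_mem_span
    rw [hspan, Submodule.span_eq]
    exact hz
  refine (Submodule.finrank_mono hle).trans ((finrank_range_le_card _).trans ?_)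
  rw [Fintype.card_fin, Submodule.span_eq]

section rational

variable [Fintype F] (G : RG F₀ σ h Sg) (K : GM F₀ h Sg M) (hn : 13 ≤ Fintype.card ι)
  (hS0 : ∀ ν ∈ Sset F₀ h Sg M, ν ∈ F₀) (hml : ML F₀ Sg)
include G K hn hS0 hml

/-- the pigeonhole argument, improved -/
lemma le_of_small' (r : ℕ) (hcard : Fintype.card F = Nat.card F₀ ^ r)
    (hr : r + 5 ≤ Fintype.card ι) : M ≤ Cfsg.Geo.subfieldSubgroup F₀ (1 : GL ι F) := by
  intro g hg
  obtain ⟨p, p', hp, -⟩ := G.el1 [] (by simp) (by simp; omega)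
  have hfr : finrank F₀ F = r := finrank_eq_of_card r hcard
  have h1 := finrank_ker_ge (phi G.toRGB (((g⁻¹ : GL ι F) : Matrix ι ι F) *ᵥ p))
  rw [hfr] at h1
  obtain ⟨a, ha, a', ha', haa⟩ := exists_line_in G.toRGB hml
    (LinearMap.ker (phi G.toRGB (((g⁻¹ : GL ι F) : Matrix ι ι F) *ᵥ p))) (by omega)
  have key : ∀ x : ι → F₀, x ∈ LinearMap.ker (phi G.toRGB (((g⁻¹ : GL ι F) : Matrix ι ι F) *ᵥ p)) →
      h ((g : Matrix ι ι F) *ᵥ up x) p = 0 := by
    intro x hx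
    have h2 : h (up x) (((g⁻¹ : GL ι F) : Matrix ι ι F) *ᵥ p) = 0 := hx
    rw [← K.iso g hg, mulVec_inv_mulVec] at h2
    exact h2
  exact TI G K hn hS0 hg haa hp.1 (key a ha) (key a' ha')

/-- the incidence criterion for lists -/
lemma mem_of_list {g : GL ι F} (hg : g ∈ M) (S : List (ι → F)) (hS : ∀ s ∈ S, IsRat F₀ s)
    (hlen : S.length + 5 ≤ Fintype.card ι) {b : ι → F} (hb : RS F₀ Sg b)
    (H : ∀ v, (∀ s ∈ S, h v s = 0) → h ((g : Matrix ι ι F) *ᵥ v) b = 0) :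
    g ∈ Cfsg.Geo.subfieldSubgroup F₀ (1 : GL ι F) := by
  obtain ⟨S₀, rfl⟩ := exists_up_list S hS
  rw [List.length_map] at hlen
  have h1 := finrank_ker_ge (Phi G.toRGB S₀)
  rw [Module.finrank_fin_fun] at h1
  obtain ⟨a, ha, a', ha', haa⟩ := exists_line_in G.toRGB hml (LinearMap.ker (Phi G.toRGB S₀))
    (by omega)
  have key : ∀ x : ι → F₀, x ∈ LinearMap.ker (Phi G.toRGB S₀) →
      h ((g : Matrix ι ι F) *ᵥ up x) b = 0 := by
    intro x hx
    apply H
    intro s hs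
    obtain ⟨s₀, hs₀, rfl⟩ := List.mem_map.1 hs
    exact (mem_ker_Phi G.toRGB _ _).1 hx s₀ hs₀
  exact TI G K hn hS0 hg haa hb (key a ha) (key a' ha')

omit hn hS0 hml in
/-- a rational isometry fixes the orthogonal of a short list of rational vectors -/
lemma exists_fix_list {y : GL ι F} (hy : y ∈ M) (hyr : IsRatM F₀ (y : Matrix ι ι F)) {k : ℕ}
    (hrk : ((y : Matrix ι ι F) - 1).rank ≤ k) :
    ∃ S : List (ι → F), S.length ≤ k ∧ (∀ s ∈ S, IsRat F₀ s) ∧
      ∀ v, (∀ s ∈ S, h v s = 0) → (y : Matrix ι ι F) *ᵥ v = v := by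
  classical
  have hyi : IsRatM F₀ ((y⁻¹ : GL ι F) : Matrix ι ι F) :=
    (mem_range_map_iff _).1 (Subgroup.inv_mem _ ((mem_range_map_iff _).2 hyr))
  obtain ⟨C, hC⟩ : ∃ C : Matrix ι ι F, C = ((y⁻¹ : GL ι F) : Matrix ι ι F) - 1 := ⟨_, rfl⟩
  have hCr : IsRatM F₀ C := hC ▸ ratM_sub_one hyi
  have hCrk : C.rank ≤ k := by
    have e1 : C = (-((y⁻¹ : GL ι F) : Matrix ι ι F)) * ((y : Matrix ι ι F) - 1) := by
      rw [hC, neg_mul, mul_sub, mul_one, ← Units.val_mul, inv_mul_cancel, Units.val_one]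
      abel
    rw [e1]
    exact (Matrix.rank_mul_le_right _ _).trans hrk
  obtain ⟨f, hf, hspan, -⟩ := Submodule.exists_fun_fin_finrank_span_eq F (Set.range C.col)
  have hlen : finrank F (Submodule.span F (Set.range C.col)) ≤ k := by
    rw [← Matrix.rank_eq_finrank_span_cols]; exact hCrk
  refine ⟨List.ofFn f, by rw [List.length_ofFn]; exact hlen, ?_, ?_⟩
  · intro s hs
    rw [List.mem_ofFn] at hs
    obtain ⟨i, rfl⟩ := hs
    obtain ⟨j, hj⟩ := hf i
    rw [← hj]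
    exact fun k => hCr k j
  · intro v hv
    have h1 : ∀ w ∈ Submodule.span F (Set.range f), h v w = 0 := by
      intro w hw
      induction hw using Submodule.span_induction with
      | mem w hw =>
        obtain ⟨i, rfl⟩ := hw
        exact hv _ ((List.mem_ofFn).2 ⟨i, rfl⟩)
      | zero => exact G.zero_right v
      | add a b _ _ ha hb => rw [G.add_right, ha, hb, add_zero]
      | smul c a _ ha => rw [G.smul_right, ha, mul_zero]
    have h2 : ∀ z, h v (C *ᵥ z) = 0 := by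
      intro z
      apply h1
      rw [hspan, ← Matrix.range_mulVecLin]
      exact ⟨z, rfl⟩
    rw [← sub_eq_zero]
    apply G.eq_zero_of_perp
    intro z _
    have h3 := h2 z
    rw [hC, sub_mulVec, one_mulVec, G.sub_right] at h3
    rw [G.sub_left, ← h3]
    have : h ((y : Matrix ι ι F) *ᵥ v) z = h v (((y⁻¹ : GL ι F) : Matrix ι ι F) *ᵥ z) := by
      rw [← K.iso y hy v, mulVec_inv_mulVec]
    rw [this]

omit hn hS0 hml in
lemma Tsp_perp {y : GL ι F} (hy : y ∈ M) {z : ι → F₀} (hz : z ∈ Tsp F₀ y) {v : ι → F}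
    (hv : (y : Matrix ι ι F) *ᵥ v = v) : h v (up z) = 0 := by
  obtain ⟨x, hx⟩ := hz
  rw [hx, G.sub_right]
  nth_rewrite 1 [← hv]
  rw [K.iso y hy, sub_self]

/-- no singular vectors -/
lemma finrank_le_two {g : GL ι F} (hg : g ∈ M)
    (hgS : g ∉ Cfsg.Geo.subfieldSubgroup F₀ (1 : GL ι F)) (S : List (ι → F))
    (hS : ∀ s ∈ S, IsRat F₀ s) (hlen : S.length + 5 ≤ Fintype.card ι)
    (T : Submodule F₀ (ι → F₀))
    (H : ∀ z ∈ T, ∀ v, (∀ s ∈ S, h v s = 0) → h ((g : Matrix ι ι F) *ᵥ v) (up z) = 0) :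
    finrank F₀ T ≤ 2 := by
  by_contra hcon
  obtain ⟨z, hz, hz0, hzs⟩ := hml T (by omega)
  exact hgS (mem_of_list G K hn hS0 hml hg S hS hlen ⟨rat_up z, up_ne_zero hz0, hzs⟩ (H z hz))

/-- elements of `M` which are rational with respect to two rational structures -/
def Good (F₀ : Subfield F) (M : Subgroup (GL ι F)) (g y : GL ι F) : Prop :=
  y ∈ M ∧ IsRatM F₀ (y : Matrix ι ι F) ∧ IsRatM F₀ ((g⁻¹ * y * g : GL ι F) : Matrix ι ι F)

omit G K hn hS0 hml in
lemma fix_of_conj {g y : GL ι F} {v : ι → F}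
    (hv : ((g⁻¹ * y * g : GL ι F) : Matrix ι ι F) *ᵥ v = v) :
    (y : Matrix ι ι F) *ᵥ ((g : Matrix ι ι F) *ᵥ v) = (g : Matrix ι ι F) *ᵥ v := by
  rw [mul_mulVec, mul_mulVec] at hv
  have := congrArg (fun z => (g : Matrix ι ι F) *ᵥ z) hv
  simpa only [mulVec_inv_mulVec] using this

omit G K hn hS0 hml in
lemma rank_conj' (g y : GL ι F) :
    (((g⁻¹ * y * g : GL ι F) : Matrix ι ι F) - 1).rank ≤ ((y : Matrix ι ι F) - 1).rank := by
  have := rank_conj_sub_one_le g⁻¹ y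
  rwa [inv_inv] at this

lemma good_single {g : GL ι F} (hg : g ∈ M)
    (hgS : g ∉ Cfsg.Geo.subfieldSubgroup F₀ (1 : GL ι F)) {y : GL ι F} (hy : Good F₀ M g y)
    (hrk : ((y : Matrix ι ι F) - 1).rank ≤ 8) : finrank F₀ (Tsp F₀ y) ≤ 2 := by
  obtain ⟨hyM, hyr, hyr'⟩ := hy
  obtain ⟨S, hlen, hS, hfix⟩ := exists_fix_list G K (M.mul_mem (M.mul_mem (M.inv_mem hg) hyM) hg)
    hyr' ((rank_conj' g y).trans hrk)
  refine finrank_le_two G K hn hS0 hml hg hgS S hS (by omega) _ ?_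
  intro z hz v hv
  exact Tsp_perp G K hyM hz (fix_of_conj (hfix v hv))

lemma good_triple {g : GL ι F} (hg : g ∈ M)
    (hgS : g ∉ Cfsg.Geo.subfieldSubgroup F₀ (1 : GL ι F)) {y₁ y₂ y₃ : GL ι F}
    (hy₁ : Good F₀ M g y₁) (hy₂ : Good F₀ M g y₂) (hy₃ : Good F₀ M g y₃)
    (hrk₁ : ((y₁ : Matrix ι ι F) - 1).rank ≤ 8) (hrk₂ : ((y₂ : Matrix ι ι F) - 1).rank ≤ 8)
    (hrk₃ : ((y₃ : Matrix ι ι F) - 1).rank ≤ 8) :
    finrank F₀ (Tsp F₀ y₁ ⊔ Tsp F₀ y₂ ⊔ Tsp F₀ y₃ : Submodule F₀ (ι → F₀)) ≤ 2 := by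
  have r₁ := (rank_le_finrank_Tsp hy₁.2.1).trans (good_single G K hn hS0 hml hg hgS hy₁ hrk₁)
  have r₂ := (rank_le_finrank_Tsp hy₂.2.1).trans (good_single G K hn hS0 hml hg hgS hy₂ hrk₂)
  have r₃ := (rank_le_finrank_Tsp hy₃.2.1).trans (good_single G K hn hS0 hml hg hgS hy₃ hrk₃)
  obtain ⟨hyM₁, hyr₁, hyr₁'⟩ := hy₁
  obtain ⟨hyM₂, hyr₂, hyr₂'⟩ := hy₂
  obtain ⟨hyM₃, hyr₃, hyr₃'⟩ := hy₃
  obtain ⟨S₁, hlen₁, hS₁, hfix₁⟩ := exists_fix_list G K
    (M.mul_mem (M.mul_mem (M.inv_mem hg) hyM₁) hg) hyr₁' ((rank_conj' g y₁).trans r₁)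
  obtain ⟨S₂, hlen₂, hS₂, hfix₂⟩ := exists_fix_list G K
    (M.mul_mem (M.mul_mem (M.inv_mem hg) hyM₂) hg) hyr₂' ((rank_conj' g y₂).trans r₂)
  obtain ⟨S₃, hlen₃, hS₃, hfix₃⟩ := exists_fix_list G K
    (M.mul_mem (M.mul_mem (M.inv_mem hg) hyM₃) hg) hyr₃' ((rank_conj' g y₃).trans r₃)
  refine finrank_le_two G K hn hS0 hml hg hgS (S₁ ++ S₂ ++ S₃) ?_ ?_ _ ?_
  · intro s hs
    simp only [List.mem_append] at hs
    rcases hs with (hs | hs) | hs
    · exact hS₁ s hs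
    · exact hS₂ s hs
    · exact hS₃ s hs
  · simp only [List.length_append]; omega
  · intro z hz v hv
    obtain ⟨z₁₂, hz₁₂, z₃, hz₃, rfl⟩ := Submodule.mem_sup.1 hz
    obtain ⟨z₁, hz₁, z₂, hz₂, rfl⟩ := Submodule.mem_sup.1 hz₁₂
    rw [up_add, up_add, G.add_right, G.add_right,
      Tsp_perp G K hyM₁ hz₁ (fix_of_conj (hfix₁ v fun s hs => hv s (by simp [hs]))),
      Tsp_perp G K hyM₂ hz₂ (fix_of_conj (hfix₂ v fun s hs => hv s (by simp [hs]))),
      Tsp_perp G K hyM₃ hz₃ (fix_of_conj (hfix₃ v fun s hs => hv s (by simp [hs])))]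
    simp

/-- all the commutator spaces lie in a common plane -/
lemma exists_plane {g : GL ι F} (hg : g ∈ M)
    (hgS : g ∉ Cfsg.Geo.subfieldSubgroup F₀ (1 : GL ι F)) (s : Finset (GL ι F))
    (hs : ∀ y ∈ s, Good F₀ M g y ∧ ((y : Matrix ι ι F) - 1).rank ≤ 8) :
    ∃ W : Submodule F₀ (ι → F₀), finrank F₀ W ≤ 2 ∧ ∀ y ∈ s, Tsp F₀ y ≤ W := by
  by_cases c1 : ∃ y₁ ∈ s, ∃ y₂ ∈ s,
      2 ≤ finrank F₀ (Tsp F₀ y₁ ⊔ Tsp F₀ y₂ : Submodule F₀ (ι → F₀))
  · obtain ⟨y₁, h₁, y₂, h₂, h12⟩ := c1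
    refine ⟨Tsp F₀ y₁ ⊔ Tsp F₀ y₂, ?_, ?_⟩
    · have := good_triple G K hn hS0 hml hg hgS (hs y₁ h₁).1 (hs y₂ h₂).1 (hs y₂ h₂).1
        (hs y₁ h₁).2 (hs y₂ h₂).2 (hs y₂ h₂).2
      rwa [sup_assoc, sup_idem] at this
    · intro y₃ h₃
      have := good_triple G K hn hS0 hml hg hgS (hs y₁ h₁).1 (hs y₂ h₂).1 (hs y₃ h₃).1
        (hs y₁ h₁).2 (hs y₂ h₂).2 (hs y₃ h₃).2
      have e := Submodule.eq_of_le_of_finrank_le
        (le_sup_left : Tsp F₀ y₁ ⊔ Tsp F₀ y₂ ≤ Tsp F₀ y₁ ⊔ Tsp F₀ y₂ ⊔ Tsp F₀ y₃) (by omega)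
      rw [e]
      exact le_sup_right
  · push Not at c1
    by_cases c2 : ∃ y₁ ∈ s, 1 ≤ finrank F₀ (Tsp F₀ y₁)
    · obtain ⟨y₁, h₁, h11⟩ := c2
      refine ⟨Tsp F₀ y₁, ?_, ?_⟩
      · have := c1 y₁ h₁ y₁ h₁
        rw [sup_idem] at this
        omega
      · intro y₃ h₃
        have := c1 y₁ h₁ y₃ h₃
        have e := Submodule.eq_of_le_of_finrank_le
          (le_sup_left : Tsp F₀ y₁ ≤ Tsp F₀ y₁ ⊔ Tsp F₀ y₃) (by omega)
        rw [e]
        exact le_sup_right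
    · push Not at c2
      refine ⟨⊥, by simp, ?_⟩
      intro y hy
      have := c2 y hy
      have e : Tsp F₀ y = ⊥ := Submodule.finrank_eq_zero.1 (by omega)
      rw [e]

omit hn hS0 hml in
/-- there are few rational isometries with commutator space in a given plane -/
lemma card_le_of_plane (W : Submodule F₀ (ι → F₀)) (hW : finrank F₀ W ≤ 2) (s : Finset (GL ι F))
    (hs : ∀ y ∈ s, y ∈ M ∧ IsRatM F₀ (y : Matrix ι ι F) ∧ Tsp F₀ y ≤ W) :
    s.card ≤ Nat.card F₀ ^ 4 := by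
  classical
  obtain ⟨f, hf, hspan, -⟩ := Submodule.exists_fun_fin_finrank_span_eq F₀
    ((W : Submodule F₀ (ι → F₀)) : Set (ι → F₀))
  set N := LinearMap.ker (Phi G.toRGB (List.ofFn f)) with hN
  have hNd : Fintype.card ι ≤ finrank F₀ N + finrank F₀ W := by
    have := finrank_ker_ge (Phi G.toRGB (List.ofFn f))
    rw [Module.finrank_fin_fun] at this
    have e1 : (List.ofFn f).length = finrank F₀ (Submodule.span F₀
      ((W : Submodule F₀ (ι → F₀)) : Set (ι → F₀))) := List.length_ofFn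
    have e2 : finrank F₀ (Submodule.span F₀ ((W : Submodule F₀ (ι → F₀)) : Set (ι → F₀))) =
      finrank F₀ W := by rw [Submodule.span_eq]
    rw [← hN] at this
    omega
  have hNW' : ∀ x ∈ N, ∀ w ∈ Submodule.span F₀ (Set.range f), h (up x) (up w) = 0 := by
    intro x hx w hw
    induction hw using Submodule.span_induction with
    | mem w hw =>
      obtain ⟨i, rfl⟩ := hw
      exact (mem_ker_Phi G.toRGB _ _).1 hx _ (List.mem_ofFn.2 ⟨i, rfl⟩)
    | zero => rw [up_zero, G.zero_right]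
    | add a b _ _ ha hb => rw [up_add, G.add_right, ha, hb, add_zero]
    | smul c a _ ha => rw [up_smul, G.smul_right, ha, mul_zero]
  have hNW : ∀ x ∈ N, ∀ w ∈ W, h (up x) (up w) = 0 := by
    intro x hx w hw
    apply hNW' x hx
    rw [hspan, Submodule.span_eq]
    exact hw
  obtain ⟨D, hD⟩ := Submodule.exists_isCompl N
  have hDd := Submodule.finrank_add_eq_of_isCompl hD
  rw [Module.finrank_fintype_fun_eq_card] at hDd
  obtain ⟨d, hd, hdspan, -⟩ := Submodule.exists_fun_fin_finrank_span_eq F₀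
    ((D : Submodule F₀ (ι → F₀)) : Set (ι → F₀))
  have hfixN : ∀ y ∈ s, ∀ x ∈ N, (y : Matrix ι ι F) *ᵥ up x = up x := by
    intro y hy x hx
    obtain ⟨hyM, hyr, hyW⟩ := hs y hy
    have hyi : IsRatM F₀ ((y⁻¹ : GL ι F) : Matrix ι ι F) :=
      (mem_range_map_iff _).1 (Subgroup.inv_mem _ ((mem_range_map_iff _).2 hyr))
    rw [← sub_eq_zero]
    apply G.eq_zero_of_perp
    intro z hz
    obtain ⟨t, ht, ht'⟩ := exists_mem_Tsp hyr (hyi.mulVec hz)
    rw [mulVec_inv_mulVec] at ht'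
    have h1 := hNW x hx t (hyW ht)
    rw [ht', G.sub_right] at h1
    rw [G.sub_left]
    have : h ((y : Matrix ι ι F) *ᵥ up x) z = h (up x) (((y⁻¹ : GL ι F) : Matrix ι ι F) *ᵥ z) := by
      rw [← K.iso y hyM (up x), mulVec_inv_mulVec]
    rw [this]
    linear_combination -h1
  have : Fintype W := Fintype.ofFinite _
  set Φ : GL ι F → (Fin (finrank F₀ (Submodule.span F₀ ((D : Submodule F₀ (ι → F₀)) :
      Set (ι → F₀)))) → ι → F) := fun y j => (y : Matrix ι ι F) *ᵥ up (d j) - up (d j) with hΦ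
  set tgt := Fintype.piFinset (fun _ : Fin (finrank F₀ (Submodule.span F₀
    ((D : Submodule F₀ (ι → F₀)) : Set (ι → F₀)))) =>
      (Finset.univ : Finset W).image (fun w : W => up (w : ι → F₀))) with htgt
  have hmaps : ∀ y ∈ s, Φ y ∈ tgt := by
    intro y hy
    rw [htgt, Fintype.mem_piFinset]
    intro j
    obtain ⟨z, hz, hz'⟩ := exists_mem_Tsp (hs y hy).2.1 (rat_up (d j))
    exact Finset.mem_image.2 ⟨⟨z, (hs y hy).2.2 hz⟩, Finset.mem_univ _, hz'⟩
  have hinj : Set.InjOn Φ s := by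
    intro y hy y' hy' hyy
    have hD' : ∀ x ∈ Submodule.span F₀ (Set.range d),
        (y : Matrix ι ι F) *ᵥ up x = (y' : Matrix ι ι F) *ᵥ up x := by
      intro x hx
      induction hx using Submodule.span_induction with
      | mem w hw =>
        obtain ⟨j, rfl⟩ := hw
        exact sub_left_injective (congrFun hyy j)
      | zero => rw [up_zero, mulVec_zero, mulVec_zero]
      | add a b _ _ ha hb => rw [up_add, mulVec_add, mulVec_add, ha, hb]
      | smul c a _ ha => rw [up_smul, mulVec_smul, mulVec_smul, ha]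
    have hall : ∀ x : ι → F₀, (y : Matrix ι ι F) *ᵥ up x = (y' : Matrix ι ι F) *ᵥ up x := by
      intro x
      have hx : x ∈ N ⊔ D := by rw [hD.sup_eq_top]; trivial
      obtain ⟨a, ha, b, hb, rfl⟩ := Submodule.mem_sup.1 hx
      rw [up_add, mulVec_add, mulVec_add, hfixN y hy a ha, hfixN y' hy' a ha,
        hD' b (by rw [hdspan, Submodule.span_eq]; exact hb)]
    apply gl_ext
    intro x
    conv_lhs => rw [← sum_smul_e x]
    conv_rhs => rw [← sum_smul_e x]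
    rw [mulVec_sum, mulVec_sum]
    refine Finset.sum_congr rfl fun k _ => ?_
    obtain ⟨x₀, hx₀⟩ := exists_up (rat_e (F₀ := F₀) k)
    rw [mulVec_smul, mulVec_smul, ← hx₀, hall]
  have h1 := Finset.card_le_card_of_injOn Φ hmaps hinj
  have h2 : tgt.card ≤ Nat.card W ^ finrank F₀ D := by
    rw [htgt, Fintype.card_piFinset_const, Submodule.span_eq]
    refine Nat.pow_le_pow_left (Finset.card_image_le.trans ?_) _
    rw [Finset.card_univ, Nat.card_eq_fintype_card]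
  rw [Module.natCard_eq_pow_finrank (K := F₀) (V := W), ← pow_mul] at h2
  have h3 : 1 ≤ Nat.card F₀ := Nat.one_le_iff_ne_zero.2 (Nat.card_pos).ne'
  have h4 : finrank F₀ W * finrank F₀ D ≤ 4 := by
    have : finrank F₀ D ≤ 2 := by omega
    calc finrank F₀ W * finrank F₀ D ≤ 2 * 2 := Nat.mul_le_mul hW this
      _ = 4 := rfl
  exact h1.trans (h2.trans (Nat.pow_le_pow_right h3 h4))

omit G K hn hS0 hml in
/-- small elements of the subfield group are rational, or the field is small -/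
lemma ratM_of_small' (r : ℕ) (hr : r.Prime) (hcard : Fintype.card F = Nat.card F₀ ^ r) (k : ℕ)
    (hk : k + 1 ≤ Fintype.card ι) {y : GL ι F}
    (hy : y ∈ Cfsg.Geo.subfieldSubgroup F₀ (1 : GL ι F))
    (hrk : ((y : Matrix ι ι F) - 1).rank ≤ k) :
    IsRatM F₀ (y : Matrix ι ι F) ∨ Fintype.card F ≤ Nat.card F₀ ^ (k + 1) := by
  obtain ⟨c, hc, hcy⟩ := (mem_subfieldSubgroup_one_iff y).1 hy
  obtain ⟨S, -, hS⟩ := Finset.exists_subset_card_eq (s := (Finset.univ : Finset ι)) (n := k + 1)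
    (by simpa using hk)
  obtain ⟨v, hv, hsupp, hker⟩ := exists_kernel_supported ((y : Matrix ι ι F) - 1) S (by omega)
  have hfix : (y : Matrix ι ι F) *ᵥ v = v := by
    rw [sub_mulVec, one_mulVec, sub_eq_zero] at hker; exact hker
  rcases scalar_mem_of_fix r hr hcard hcy S hv hsupp hfix with h | h
  · left
    intro i j
    have := F₀.mul_mem (F₀.inv_mem h) (hcy i j)
    rwa [Matrix.smul_apply, smul_eq_mul, inv_mul_cancel_left₀ hc] at this
  · right; rwa [hS] at h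

/-- **The Bender count with multiplicities for subfield groups of classical groups.** -/
theorem le_subfield_of_family (r : ℕ) (hr : r.Prime) (hcard : Fintype.card F = Nat.card F₀ ^ r)
    {κ : Type*} [Fintype κ] (ie : κ → GL ι F) (hinj : Function.Injective ie)
    (hM : ∀ k, ie k ∈ M) (hS : ∀ k, ie k ∈ Cfsg.Geo.subfieldSubgroup F₀ (1 : GL ι F))
    (hinv : ∀ k, ie k * ie k = 1) (hrk3 : ∀ k, 3 ≤ ((ie k : Matrix ι ι F) - 1).rank)
    (hrk4 : ∀ k, ((ie k : Matrix ι ι F) - 1).rank ≤ 4)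
    (hκ : Nat.card F₀ ^ 4 < Fintype.card κ) :
    M ≤ Cfsg.Geo.subfieldSubgroup F₀ (1 : GL ι F) := by
  classical
  by_cases hr9 : r ≤ 9
  · apply le_of_small' G K hn hS0 hml r hcard
    have : r ≠ 8 := by rintro rfl; revert hr; norm_num
    have : r ≠ 9 := by rintro rfl; revert hr; norm_num
    omega
  have hq : 1 < Nat.card F₀ := by
    rw [Nat.card_eq_fintype_card]; exact Fintype.one_lt_card
  have hbig : ¬ Fintype.card F ≤ Nat.card F₀ ^ (8 + 1) := by
    intro hle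
    rw [hcard] at hle
    exact hr9 ((Nat.pow_le_pow_iff_right hq).1 hle)
  have hrat : ∀ y : GL ι F, y ∈ Cfsg.Geo.subfieldSubgroup F₀ (1 : GL ι F) →
      ((y : Matrix ι ι F) - 1).rank ≤ 8 → IsRatM F₀ (y : Matrix ι ι F) := fun y hy hrk =>
    (ratM_of_small' r hr hcard 8 (by omega) hy hrk).resolve_right hbig
  set S := Cfsg.Geo.subfieldSubgroup F₀ (1 : GL ι F) with hSdef
  have hgood : ∀ g y : GL ι F, y ∈ M → y ∈ S → g * y * g⁻¹ ∈ S →
      ((y : Matrix ι ι F) - 1).rank ≤ 8 → Good F₀ M g⁻¹ y := by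
    intro g y hyM hyS hgy hrk
    refine ⟨hyM, hrat y hyS hrk, ?_⟩
    rw [inv_inv]
    exact hrat _ hgy ((rank_conj_sub_one_le g y).trans hrk)
  rw [← Subgroup.subgroupOf_eq_top]
  refine Cfsg.Agent.Lib.Helper99Bender2.eq_top_of_involutions (S.subgroupOf M)
    (fun i : M => (i : GL ι F) * (i : GL ι F) = 1 ∧ 3 ≤ (((i : GL ι F) : Matrix ι ι F) - 1).rank ∧
      (((i : GL ι F) : Matrix ι ι F) - 1).rank ≤ 4) ?_ ?_ ?_ (Nat.card F₀ ^ 4) ?_
    (fun k => (⟨ie k, hM k⟩ : M)) (fun k k' hkk => hinj (congrArg Subtype.val hkk))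
    (fun k => ⟨hinv k, hrk3 k, hrk4 k⟩) (fun k => Subgroup.mem_subgroupOf.2 (hS k)) hκ
  · -- conjugation
    rintro g i ⟨h1, h2, h3'⟩
    have e0 : ((g * i * g⁻¹ : M) : GL ι F) = (g : GL ι F) * (i : GL ι F) * (g : GL ι F)⁻¹ := by
      simp only [Subgroup.coe_mul, Subgroup.coe_inv]
    refine ⟨?_, ?_, ?_⟩
    · rw [e0]
      have : (g : GL ι F) * (i : GL ι F) * (g : GL ι F)⁻¹ * ((g : GL ι F) * (i : GL ι F) *
          (g : GL ι F)⁻¹) = (g : GL ι F) * ((i : GL ι F) * (i : GL ι F)) * (g : GL ι F)⁻¹ := by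
        group
      rw [this, h1]; group
    · rw [e0]
      have := rank_conj' (g : GL ι F) ((g : GL ι F) * (i : GL ι F) * (g : GL ι F)⁻¹)
      have e1 : (g : GL ι F)⁻¹ * ((g : GL ι F) * (i : GL ι F) * (g : GL ι F)⁻¹) * (g : GL ι F) =
          (i : GL ι F) := by group
      rw [e1] at this
      omega
    · rw [e0]
      exact (rank_conj_sub_one_le _ _).trans h3'
  · rintro i ⟨h1, -, -⟩
    exact Subtype.ext h1
  · -- (a)
    rintro i ⟨-, h2, h3'⟩ hiH g hgi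
    by_contra hg
    rw [Subgroup.mem_subgroupOf] at hiH hgi hg
    have hgi' : (g : GL ι F) * (i : GL ι F) * (g : GL ι F)⁻¹ ∈ S := by
      simpa only [Subgroup.coe_mul, Subgroup.coe_inv] using hgi
    have hG := hgood g i i.2 hiH hgi' (by omega)
    have h4 := good_single G K hn hS0 hml (M.inv_mem g.2)
      (fun hh => hg (by simpa using S.inv_mem hh)) hG (by omega)
    have h5 := rank_le_finrank_Tsp hG.2.1
    omega
  · -- (b)
    intro g hg s hs
    rw [Subgroup.mem_subgroupOf] at hg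
    have hg' : (g : GL ι F)⁻¹ ∉ S := fun hh => hg (by simpa using S.inv_mem hh)
    have hs' : ∀ y ∈ s.image (Subtype.val : M → GL ι F),
        Good F₀ M (g : GL ι F)⁻¹ y ∧ ((y : Matrix ι ι F) - 1).rank ≤ 8 := by
      intro y hy
      obtain ⟨y, hy', rfl⟩ := Finset.mem_image.1 hy
      obtain ⟨h1, h2, i, i', hi, hi', rfl⟩ := hs y hy'
      rw [Subgroup.mem_subgroupOf] at h1 h2
      have hrk : ((((i * i' : M) : GL ι F) : Matrix ι ι F) - 1).rank ≤ 8 := by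
        rw [Subgroup.coe_mul, Units.val_mul]
        have := rank_mul_sub_one_le ((i : GL ι F) : Matrix ι ι F) ((i' : GL ι F) : Matrix ι ι F)
        have := hi.2.2
        have := hi'.2.2
        omega
      refine ⟨hgood g _ (i * i').2 h1 ?_ hrk, hrk⟩
      simpa only [Subgroup.coe_mul, Subgroup.coe_inv] using h2
    obtain ⟨W, hW, hWs⟩ := exists_plane G K hn hS0 hml (M.inv_mem g.2) hg' _ hs'
    have := card_le_of_plane G K W hW (s.image (Subtype.val : M → GL ι F))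
      (fun y hy => ⟨(hs' y hy).1.1, (hs' y hy).1.2.1, hWs y hy⟩)
    rwa [Finset.card_image_of_injective _ Subtype.val_injective] at this

end rational

end Cfsg.Agent.Lib.Helper99RGFin2
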