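import Cfsg.Agent.Lib.Helper99SubfieldSL

set_option autoImplicit false
set_option linter.unusedSectionVars false

namespace Cfsg.Agent.Lib.Helper99SubfieldGen

open Matrix Cfsg.Agent.Lib.Helper95Basic Cfsg.Agent.Lib.Helper99Subfield
  Cfsg.Agent.Lib.Helper99SubfieldSL

variable {ι : Type} [Fintype ι] [DecidableEq ι] {F : Type*} [Field F] [Fintype F]
variable {F₀ : Subfield F} {M : Subgroup (GL ι F)}

/-- the incidence property: an element of `M` carrying a rational vector into a rational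
hyperplane lies in the subfield group. -/
def Incid (F₀ : Subfield F) (M : Subgroup (GL ι F)) : Prop :=
  ∀ g ∈ M, ∀ a μ : ι → F, IsRat F₀ a → a ≠ 0 → IsRat F₀ μ → μ ≠ 0 →
    μ ⬝ᵥ ((g : Matrix ι ι F) *ᵥ a) = 0 → g ∈ Cfsg.Geo.subfieldSubgroup F₀ (1 : GL ι F)

lemma le_of_card_lt' (hTI : Incid F₀ M) (h1 : 0 < Fintype.card ι)
    (hlt : Fintype.card F < Nat.card F₀ ^ Fintype.card ι) :
    M ≤ Cfsg.Geo.subfieldSubgroup F₀ (1 : GL ι F) := by
  classical
  intro g hg
  obtain ⟨j₀⟩ : Nonempty ι := Fintype.card_pos_iff.1 h1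
  set u := (g : Matrix ι ι F) *ᵥ e j₀ with hu
  have hlt' : Fintype.card F < Fintype.card (ι → F₀) := by
    simpa [Nat.card_eq_fintype_card] using hlt
  obtain ⟨a, a', haa, hEq⟩ := Fintype.exists_ne_map_eq_of_card_lt
    (fun w : ι → F₀ => (fun i => (w i : F)) ⬝ᵥ u) hlt'
  refine hTI g hg (e j₀) ((fun i => (a i : F)) - (fun i => (a' i : F))) (rat_e j₀) ?_ ?_ ?_ ?_
  · intro h0
    have := congrFun h0 j₀
    simp at this
  · exact IsRat.sub (fun i => (a i).2) (fun i => (a' i).2)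
  · intro h0
    apply haa
    ext i
    have := congrFun h0 i
    simpa [sub_eq_zero] using this
  · rw [sub_dotProduct, sub_eq_zero]
    exact hEq

lemma eq_one_of_small' (r : ℕ) (hr : r.Prime) (hcard : Fintype.card F = Nat.card F₀ ^ r)
    (hTI : Incid F₀ M) (h6 : 6 ≤ Fintype.card ι) {y g : GL ι F}
    (hy : y ∈ Cfsg.Geo.subfieldSubgroup F₀ (1 : GL ι F)) (hg : g ∈ M)
    (hgH : g ∉ Cfsg.Geo.subfieldSubgroup F₀ (1 : GL ι F))
    (hy' : g⁻¹ * y * g ∈ Cfsg.Geo.subfieldSubgroup F₀ (1 : GL ι F))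
    (hrk : ((y : Matrix ι ι F) - 1).rank ≤ 4) : y = 1 := by
  classical
  have hq : 1 < Nat.card F₀ := by
    rw [Nat.card_eq_fintype_card]; exact Fintype.one_lt_card
  have hbig : ¬ Fintype.card F ≤ Nat.card F₀ ^ 5 := by
    intro h
    apply hgH
    exact le_of_card_lt' hTI (by omega) (lt_of_le_of_lt h (Nat.pow_lt_pow_right hq (by omega))) hg
  have hrk' : (((g⁻¹ * y * g : GL ι F) : Matrix ι ι F) - 1).rank ≤ 4 := by
    have := rank_conj_sub_one_le g⁻¹ y
    rw [inv_inv] at this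
    exact this.trans hrk
  have r1 : IsRatM F₀ (y : Matrix ι ι F) :=
    (ratM_of_small r hr hcard (by omega) hy hrk).resolve_right hbig
  have r2 : IsRatM F₀ ((g⁻¹ * y * g : GL ι F) : Matrix ι ι F) :=
    (ratM_of_small r hr hcard (by omega) hy' hrk').resolve_right hbig
  have hsub : ∀ A : Matrix ι ι F, IsRatM F₀ A → IsRatM F₀ (A - 1) := by
    intro A hA i j
    rw [Matrix.sub_apply, one_apply]
    refine F₀.sub_mem (hA i j) ?_
    split_ifs
    · exact F₀.one_mem
    · exact F₀.zero_mem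
  by_contra hne
  obtain ⟨v, hv, -, hker⟩ := exists_kernel_supported
    (((g⁻¹ * y * g : GL ι F) : Matrix ι ι F) - 1) Finset.univ (by rw [Finset.card_univ]; omega)
  obtain ⟨a, ha, ha0, hka⟩ := rat_kernel (hsub _ r2) hv hker
  have hfix : (y : Matrix ι ι F) *ᵥ ((g : Matrix ι ι F) *ᵥ a) = (g : Matrix ι ι F) *ᵥ a := by
    rw [sub_mulVec, one_mulVec, sub_eq_zero, mul_mulVec, mul_mulVec] at hka
    have := congrArg (fun z => (g : Matrix ι ι F) *ᵥ z) hka
    simpa only [mulVec_inv_mulVec] using this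
  obtain ⟨i, j, hij⟩ : ∃ i j, ((y : Matrix ι ι F) - 1) i j ≠ 0 := by
    by_contra hcon
    push Not at hcon
    apply hne
    apply Units.ext
    ext i j
    have := hcon i j
    rw [Matrix.sub_apply, sub_eq_zero] at this
    exact this
  apply hgH
  refine hTI g hg a (fun k => ((y : Matrix ι ι F) - 1) i k) ha ha0 (fun k => hsub _ r1 i k) ?_ ?_
  · intro h0
    exact hij (congrFun h0 j)
  · have : ((y : Matrix ι ι F) - 1) *ᵥ ((g : Matrix ι ι F) *ᵥ a) = 0 := by
      rw [sub_mulVec, one_mulVec, hfix, sub_self]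
    exact congrFun this i

/-- **The Bender count for subfield groups.**  If `M` has the incidence property and contains two
distinct small rational involutions, then `M` lies in the subfield group. -/
theorem le_subfield_of_incid (r : ℕ) (hr : r.Prime) (hcard : Fintype.card F = Nat.card F₀ ^ r)
    (h6 : 6 ≤ Fintype.card ι) (hTI : Incid F₀ M) (i₁ i₂ : GL ι F) (h1M : i₁ ∈ M) (h2M : i₂ ∈ M)
    (h1S : i₁ ∈ Cfsg.Geo.subfieldSubgroup F₀ (1 : GL ι F))
    (h2S : i₂ ∈ Cfsg.Geo.subfieldSubgroup F₀ (1 : GL ι F))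
    (h1i : i₁ * i₁ = 1) (h2i : i₂ * i₂ = 1) (h1ne : i₁ ≠ 1) (h2ne : i₂ ≠ 1) (hne : i₁ ≠ i₂)
    (h1r : ((i₁ : Matrix ι ι F) - 1).rank ≤ 2) (h2r : ((i₂ : Matrix ι ι F) - 1).rank ≤ 2) :
    M ≤ Cfsg.Geo.subfieldSubgroup F₀ (1 : GL ι F) := by
  classical
  set S := Cfsg.Geo.subfieldSubgroup F₀ (1 : GL ι F) with hS
  rw [← Subgroup.subgroupOf_eq_top]
  refine Cfsg.Agent.Lib.Helper99Bender.eq_top_of_involutions (S.subgroupOf M)
    (fun i : M => (i : GL ι F) * (i : GL ι F) = 1 ∧ (i : GL ι F) ≠ 1 ∧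
      (((i : GL ι F) : Matrix ι ι F) - 1).rank ≤ 2) ?_ ?_ ?_ ?_
    ⟨_, h1M⟩ ⟨_, h2M⟩ ⟨h1i, h1ne, h1r⟩ ⟨h2i, h2ne, h2r⟩ (Subgroup.mem_subgroupOf.2 h1S)
    (Subgroup.mem_subgroupOf.2 h2S) (fun h => hne (congrArg Subtype.val h))
  · -- conjugation
    rintro g i ⟨h1, h2, h3'⟩
    refine ⟨?_, ?_, ?_⟩
    · have : ((g * i * g⁻¹ : M) : GL ι F) * ((g * i * g⁻¹ : M) : GL ι F) =
          (g : GL ι F) * ((i : GL ι F) * (i : GL ι F)) * (g : GL ι F)⁻¹ := by
        simp only [Subgroup.coe_mul, Subgroup.coe_inv]; group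
      rw [this, h1]; group
    · intro h
      apply h2
      have : ((g * i * g⁻¹ : M) : GL ι F) = (g : GL ι F) * (i : GL ι F) * (g : GL ι F)⁻¹ := by
        simp only [Subgroup.coe_mul, Subgroup.coe_inv]
      rw [this] at h
      have h' : (i : GL ι F) = (g : GL ι F)⁻¹ * ((g : GL ι F) * (i : GL ι F) * (g : GL ι F)⁻¹) *
          (g : GL ι F) := by group
      rw [h', h]; group
    · have : ((g * i * g⁻¹ : M) : GL ι F) = (g : GL ι F) * (i : GL ι F) * (g : GL ι F)⁻¹ := by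
        simp only [Subgroup.coe_mul, Subgroup.coe_inv]
      rw [this]
      exact (rank_conj_sub_one_le _ _).trans h3'
  · rintro i ⟨h1, -, -⟩
    exact Subtype.ext h1
  · -- (a)
    rintro i ⟨-, h2, h3'⟩ hiH g hgi
    by_contra hg
    apply h2
    rw [Subgroup.mem_subgroupOf] at hiH hgi hg
    refine eq_one_of_small' r hr hcard hTI h6 hiH (M.inv_mem g.2)
      (fun h => hg (by simpa using S.inv_mem h)) ?_ (by omega)
    simpa only [Subgroup.coe_mul, Subgroup.coe_inv, inv_inv] using hgi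
  · -- (b)
    rintro i i' ⟨h1, -, h3'⟩ ⟨h1', -, h3''⟩ g hg hii hgii
    rw [Subgroup.mem_subgroupOf] at hii hgii hg
    have hrk : ((((i : GL ι F) * (i' : GL ι F) : GL ι F) : Matrix ι ι F) - 1).rank ≤ 4 := by
      rw [Units.val_mul]
      have := rank_mul_sub_one_le ((i : GL ι F) : Matrix ι ι F) ((i' : GL ι F) : Matrix ι ι F)
      omega
    have key : (i : GL ι F) * (i' : GL ι F) = 1 := by
      refine eq_one_of_small' r hr hcard hTI h6 (by simpa using hii) (M.inv_mem g.2)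
        (fun h => hg (by simpa using S.inv_mem h)) ?_ hrk
      simpa only [Subgroup.coe_mul, Subgroup.coe_inv, inv_inv] using hgii
    apply Subtype.ext
    calc (i : GL ι F) = (i : GL ι F) * ((i' : GL ι F) * (i' : GL ι F)) := by rw [h1', mul_one]
      _ = ((i : GL ι F) * (i' : GL ι F)) * (i' : GL ι F) := by group
      _ = (i' : GL ι F) := by rw [key, one_mul]

/-- A rational point: a scalar multiple of a rational vector. -/
def IsRatPt (F₀ : Subfield F) (u : ι → F) : Prop := ∃ (α : F) (r : ι → F), IsRat F₀ r ∧ u = α • r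

/-- An invertible matrix mapping the points `e k` and `e k + e l` to rational points lies in the
subfield group. -/
lemma mem_subfield_of_ratPt (g : GL ι F) (h1 : ∀ k, IsRatPt F₀ ((g : Matrix ι ι F) *ᵥ e k))
    (h2 : ∀ k l, k ≠ l → IsRatPt F₀ ((g : Matrix ι ι F) *ᵥ (e k + e l))) :
    g ∈ Cfsg.Geo.subfieldSubgroup F₀ (1 : GL ι F) := by
  classical
  rw [mem_subfieldSubgroup_one_iff]
  by_cases hne : Nonempty ι
  swap
  · refine ⟨1, one_ne_zero, fun i => (hne ⟨i⟩).elim⟩
  obtain ⟨k₀⟩ := hne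
  have hinj : ∀ x : ι → F, (g : Matrix ι ι F) *ᵥ x = 0 → x = 0 := by
    intro x hx
    have := inv_mulVec_mulVec g x
    rw [hx, mulVec_zero] at this
    exact this.symm
  have he0 : ∀ k : ι, (e k : ι → F) ≠ 0 := by
    intro k h0
    have := congrFun h0 k
    simp at this
  obtain ⟨α₀, a, ha, hα₀⟩ := h1 k₀
  have hα₀0 : α₀ ≠ 0 := by
    intro h0
    rw [h0, zero_smul] at hα₀
    exact he0 k₀ (hinj _ hα₀)
  refine ⟨α₀⁻¹, inv_ne_zero hα₀0, ?_⟩
  suffices H : ∀ l, IsRat F₀ (α₀⁻¹ • ((g : Matrix ι ι F) *ᵥ e l)) by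
    intro x l
    have := H l x
    rwa [Pi.smul_apply, mulVec_single_one] at this
  intro l
  by_cases hl : l = k₀
  · subst hl
    rw [hα₀, smul_smul, inv_mul_cancel₀ hα₀0, one_smul]
    exact ha
  obtain ⟨α₁, b, hb, hα₁⟩ := h1 l
  obtain ⟨γ, c, hc, hγ⟩ := h2 k₀ l (Ne.symm hl)
  rw [mulVec_add, hα₀, hα₁] at hγ
  rw [hα₁, smul_smul]
  -- `a`, `b` are not proportional
  obtain ⟨x, y, hD⟩ : ∃ x y, a x * b y - a y * b x ≠ 0 := by
    by_contra hcon
    push Not at hcon
    have ha0 : a ≠ 0 := by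
      intro h0
      rw [h0, smul_zero] at hα₀
      exact he0 k₀ (hinj _ hα₀)
    obtain ⟨x, hx⟩ := Function.ne_iff.1 ha0
    have hx' : a x ≠ 0 := hx
    obtain ⟨κ, hb'⟩ : ∃ κ : F, b = κ • a := by
      refine ⟨b x / a x, ?_⟩
      ext y
      have := hcon x y
      rw [Pi.smul_apply, smul_eq_mul]
      field_simp
      linear_combination this
    have : (g : Matrix ι ι F) *ᵥ (e l - (α₁ * κ / α₀) • e k₀) = 0 := by
      rw [mulVec_sub, mulVec_smul, hα₀, hα₁, smul_smul, div_mul_cancel₀ _ hα₀0, hb', smul_smul,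
        sub_self]
    have h3 := congrFun (hinj _ this) l
    simp [hl] at h3
  have ex := congrFun hγ x
  have ey := congrFun hγ y
  simp only [Pi.add_apply, Pi.smul_apply, smul_eq_mul] at ex ey
  set β := α₀⁻¹ * α₁ with hβ
  have hα₁' : α₁ = α₀ * β := by rw [hβ, mul_inv_cancel_left₀ hα₀0]
  -- β (b x c y - b y c x) = a y c x - a x c y
  have hrel : β * (b x * c y - b y * c x) = a y * c x - a x * c y := by
    have h5 : α₀ * (β * (b x * c y - b y * c x)) = α₀ * (a y * c x - a x * c y) := by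
      rw [hα₁'] at ex ey
      linear_combination c y * ex - c x * ey
    exact mul_left_cancel₀ hα₀0 h5
  have hE : b x * c y - b y * c x ≠ 0 := by
    intro hE
    rw [hE, mul_zero] at hrel
    -- then c x = c y = 0
    have hcx : c x = 0 := by
      have : (a x * b y - a y * b x) * c x = 0 := by linear_combination (-a x) * hE + b x * hrel
      exact (mul_eq_zero.1 this).resolve_left hD
    have hcy : c y = 0 := by
      have : (a x * b y - a y * b x) * c y = 0 := by linear_combination (-a y) * hE + b y * hrel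
      exact (mul_eq_zero.1 this).resolve_left hD
    rw [hcx, mul_zero] at ex
    rw [hcy, mul_zero] at ey
    apply hD
    have h6 : α₀ * (a x * b y - a y * b x) = 0 := by
      linear_combination b y * ex - b x * ey
    exact (mul_eq_zero.1 h6).resolve_left hα₀0
  have hβF : β ∈ F₀ := by
    have : β = (a y * c x - a x * c y) / (b x * c y - b y * c x) := by
      rw [eq_div_iff hE, hrel]
    rw [this]
    exact F₀.div_mem (F₀.sub_mem (F₀.mul_mem (ha _) (hc _)) (F₀.mul_mem (ha _) (hc _)))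
      (F₀.sub_mem (F₀.mul_mem (hb _) (hc _)) (F₀.mul_mem (hb _) (hc _)))
  exact IsRat.smul hβF hb

end Cfsg.Agent.Lib.Helper99SubfieldGen
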