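import Cfsg.Agent.Lib.Helper99RGDual
import Cfsg.Agent.Lib.Helper95SUStd
import Cfsg.Agent.Lib.Helper95CU
import Cfsg.Agent.Lib.Helper17Heis

set_option autoImplicit false
set_option linter.unusedSectionVars false
set_option linter.unusedSimpArgs false
set_option linter.unusedVariables false

/-!
# Subfield subgroups of unitary groups
-/

namespace Cfsg.Agent.Lib.Helper99SubfieldU

open Matrix Module Cfsg.Agent.Lib.Helper95Basic Cfsg.Agent.Lib.Helper99Subfield
  Cfsg.Agent.Lib.Helper99SubfieldSL Cfsg.Agent.Lib.Helper99SubfieldGen Cfsg.Agent.Lib.Helper99RG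
  Cfsg.Agent.Lib.Helper99RGEl Cfsg.Agent.Lib.Helper99RGFin Cfsg.Agent.Lib.Helper99RGDual
  Cfsg.Agent.Lib.Helper95Herm Cfsg.Agent.Lib.Helper95SU Cfsg.Agent.Lib.Helper95CU
  Cfsg.Agent.Lib.Helper95Form

variable {ι : Type} [Fintype ι] [DecidableEq ι] {F : Type*} [Field F]
variable {σ : F →+* F} {f : (ι → F) → (ι → F) → F} {F₀ : Subfield F}
variable {M : Subgroup (GL ι F)}

/-- the isometry group of `f` -/
def Uf (f : (ι → F) → (ι → F) → F) : Subgroup (GL ι F) where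
  carrier := {g | ∀ x y, f ((g : Matrix ι ι F) *ᵥ x) ((g : Matrix ι ι F) *ᵥ y) = f x y}
  mul_mem' := by
    intro a b ha hb x y
    rw [mul_mulVec, mul_mulVec, ha, hb]
  one_mem' := by intro x y; simp
  inv_mem' := by
    intro a ha x y
    rw [← ha, mulVec_inv_mulVec, mulVec_inv_mulVec]

/-- the special isometry group of `f` -/
def SUf (f : (ι → F) → (ι → F) → F) : Subgroup (GL ι F) := Uf f ⊓ Cfsg.Geo.specialLinear ι F

/-- the singular vectors -/
abbrev Iso (f : (ι → F) → (ι → F) → F) : (ι → F) → Prop := fun x => f x x = 0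

/-- unitary data: a hermitian form over `F`, rational over `F₀` -/
structure UD (F₀ : Subfield F) (σ : F →+* F) (f : (ι → F) → (ι → F) → F) : Prop where
  herm : Herm σ f
  sig_mem : ∀ a ∈ F₀, σ a ∈ F₀
  rat : ∀ x y, IsRat F₀ x → IsRat F₀ y → f x y ∈ F₀
  tr : ∀ a ∈ F₀, σ a = a → ∃ t ∈ F₀, t + σ t = a
  ml : ML F₀ (Iso f)

namespace UD

variable (D : UD F₀ σ f)
include D

lemma toSF : SF σ f :=
  ⟨D.herm.invol, D.herm.add_left, D.herm.smul_left, D.herm.herm⟩

lemma toRGB : RGB F₀ σ f (Iso f) :=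
  { D.toSF with
    sig_mem := D.sig_mem
    rat := D.rat
    dual := dual_of_nondeg D.toSF D.sig_mem D.rat D.herm.nondeg
    sg_iso := fun _ hx => hx
    sg_smul := by
      intro c x hx
      show f (c • x) (c • x) = 0
      rw [D.herm.smul_left, D.herm.smul_right, show f x x = 0 from hx]; ring
    sg_add := by
      intro x y hx hy hxy
      show f (x + y) (x + y) = 0
      rw [D.herm.add_left, D.herm.add_right, D.herm.add_right, show f x x = 0 from hx,
        show f y y = 0 from hy, hxy, D.herm.swap_zero hxy]; ring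
    sing := by
      intro y v hy hv hvv hvy
      obtain ⟨t, ht, htt⟩ := D.tr (- f y y) (F₀.neg_mem (D.rat _ _ hy hy)) (by
        rw [map_neg, D.herm.self_fix])
      refine ⟨t, ht, ?_⟩
      show f (y + t • v) (y + t • v) = 0
      have hyv : f y v = 1 := by rw [D.herm.herm, hvy, map_one]
      rw [D.herm.add_left, D.herm.add_right, D.herm.add_right, D.herm.smul_left, D.herm.smul_left,
        D.herm.smul_right, D.herm.smul_right, show f v v = 0 from hvv, hvy, hyv]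
      linear_combination htt }

lemma toRG [Finite F] : RG F₀ σ f (Iso f) := RG_of_ml D.toRGB D.ml

end UD

lemma ratM_of_forall {g : GL ι F} (hg : ∀ x, IsRat F₀ x → IsRat F₀ ((g : Matrix ι ι F) *ᵥ x)) :
    IsRatM F₀ (g : Matrix ι ι F) := by
  intro i j
  have := hg (e j) (rat_e j) i
  rwa [mulVec_single_one] at this

lemma mem_subfield_of_ratM {g : GL ι F} (hg : IsRatM F₀ (g : Matrix ι ι F)) :
    g ∈ Cfsg.Geo.subfieldSubgroup F₀ (1 : GL ι F) :=
  (mem_subfieldSubgroup_one_iff g).2 ⟨1, one_ne_zero, by rwa [one_smul]⟩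

lemma mkGL_mem_SUf_iff (e : (ι → F) ≃ₗ[F] (ι → F)) :
    mkGL e ∈ SUf f ↔ (∀ u v, f (e u) (e v) = f u v) ∧
      LinearMap.det (e : (ι → F) →ₗ[F] (ι → F)) = 1 := by
  rw [SUf, Subgroup.mem_inf, mem_specialLinear_iff, det_mkGL]
  constructor
  · rintro ⟨h1, h2⟩
    refine ⟨fun u v => ?_, h2⟩
    have := h1 u v
    rwa [mkGL_mulVec, mkGL_mulVec] at this
  · rintro ⟨h1, h2⟩
    refine ⟨fun u v => ?_, h2⟩
    rw [mkGL_mulVec, mkGL_mulVec]
    exact h1 u v

/-- the rational Siegel elements -/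
lemma base_mem (D : UD F₀ σ f) {u v : ι → F} (hu : RS F₀ (Iso f) u) (hv : RS F₀ (Iso f) v)
    (huv : f u v = 0) {ν : F} (hν : ν ∈ F₀) :
    EM f (Cfsg.Geo.subfieldSubgroup F₀ (1 : GL ι F) ⊓ SUf f) u (ν • v) 0 := by
  have H := D.herm
  have huu : f u u = 0 := hu.2.2
  have hvv : f v v = 0 := hv.2.2
  have hab : f (-(ν • v)) u = 0 := by
    rw [H.neg_left, H.smul_left, H.swap_zero huv]; ring
  have hform : ∀ x, ((mkGL (sieg H u (-(ν • v)) 0 huu hab) : GL ι F) : Matrix ι ι F) *ᵥ x =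
      Ef f u (ν • v) 0 x := by
    intro x
    rw [mkGL_mulVec, sieg_apply, Ef, H.neg_right]
    module
  refine ⟨mkGL (sieg H u (-(ν • v)) 0 huu hab), Subgroup.mem_inf.2 ⟨?_, ?_⟩, hform⟩
  · apply mem_subfield_of_ratM
    apply ratM_of_forall
    intro x hx
    rw [hform, Ef]
    have hνv := IsRat.smul hν hv.1
    exact ((hx.sub (IsRat.smul (D.rat _ _ hx hu.1) hνv)).add
      (IsRat.smul (D.rat _ _ hx hνv) hu.1)).add
      (IsRat.smul (F₀.mul_mem F₀.zero_mem (D.rat _ _ hx hu.1)) hu.1)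
  · rw [mkGL_mem_SUf_iff]
    refine ⟨sieg_isometry H _ _ _ _ _ ?_, sieg_det H _ _ _ _ _⟩
    rw [H.neg_left, H.neg_right, H.smul_left, H.smul_right, hvv]
    simp

lemma toGM (D : UD F₀ σ f) (hHM : Cfsg.Geo.subfieldSubgroup F₀ (1 : GL ι F) ⊓ SUf f ≤ M)
    (hMS : M ≤ SUf f) : GM F₀ f (Iso f) M where
  iso g hg := (Subgroup.mem_inf.1 (hMS hg)).1
  sg g hg x hx := by
    show f _ _ = 0
    rw [(Subgroup.mem_inf.1 (hMS hg)).1]; exact hx
  base u v hu hv huv ν hν := by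
    obtain ⟨g, hg, e⟩ := base_mem D hu hv huv hν
    exact ⟨g, hHM hg, e⟩


/-! ### generation -/

section big

variable [Fintype F] (D : UD F₀ σ f) (K : GM F₀ f (Iso f) M) (hn : 13 ≤ Fintype.card ι)
  (hS : ∀ ν : F, ν ∈ Sset F₀ f (Iso f) M)
include D K hn hS

lemma tv_mem {u : ι → F} (hu : RS F₀ (Iso f) u) {c : F} (hc : c + σ c = 0) : EM f M u 0 c := by
  have G := D.toRG
  obtain ⟨β, hβ⟩ := Cfsg.Agent.Lib.Helper17Heis.exists_beta D.herm c hc
  obtain ⟨p, p', hp, pS⟩ := G.el1 [u] (by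
    intro s hs
    simp only [List.mem_cons, List.not_mem_nil, or_false] at hs
    rw [hs]; exact hu.1) (by simp; omega)
  have pu := pS u (by simp)
  have huu : f u u = 0 := hu.2.2
  have hpp : f p p = 0 := hp.1.2.2
  have hpp' : f p' p' = 0 := hp.2.1.2.2
  have h12 := hp.2.2
  have h21 := G.swap1 hp.2.2
  have e1 := hS (-β) u p ⟨hu, hp.1, pu.2.2.1, p', hp.2.1.1, pu.2.2.2, by
    rw [hp.2.2]; exact one_ne_zero⟩
  have e2 := hS 1 u p' ⟨hu, hp.2.1, pu.2.2.2, p, hp.1.1, pu.2.2.1, by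
    rw [h21]; exact one_ne_zero⟩
  have q1 : f (-β • p) u = 0 := by rw [G.smul_left, pu.1, mul_zero]
  have q2 : f ((1 : F) • p') u = 0 := by rw [G.smul_left, pu.2.1, mul_zero]
  have A := EM.mul G.toSF huu q1 q2 e1 e2
  have B := EM.mul G.toSF huu q2 q1 e2 e1
  have q3 : f ((1 : F) • p' + -β • p) u = 0 := by rw [G.add_left, q1, q2, add_zero]
  have q4 : f (-β • p + (1 : F) • p') u = 0 := by rw [G.add_left, q1, q2, add_zero]
  have C := EM.mul G.toSF huu q4 (by rw [G.neg_left, q3, neg_zero]) A (B.inv G.toSF huu q3)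
  refine C.congr (by abel) ?_
  simp only [G.add_left, G.add_right, G.smul_left, G.smul_right, G.neg_left, hpp, hpp', h12, h21,
    map_neg, map_one]
  linear_combination hβ

lemma exists_RS_not_perp {x : ι → F} (hx : x ≠ 0) : ∃ u, RS F₀ (Iso f) u ∧ f x u ≠ 0 := by
  have G := D.toRG
  obtain ⟨k, hk⟩ := Function.ne_iff.1 hx
  have hk' : x k ≠ 0 := hk
  obtain ⟨d, hd, hd'⟩ := G.dual k
  obtain ⟨p, p', hp, pS⟩ := G.el1 [d] (by
    intro s hs
    simp only [List.mem_cons, List.not_mem_nil, or_false] at hs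
    rw [hs]; exact hd) (by simp; omega)
  have pd := pS d (by simp)
  obtain ⟨t, ht, hs⟩ := G.exists_three hp hd pd.1
  by_contra hcon
  push Not at hcon
  apply hk'
  rw [← hd' x]
  have h1 := hcon _ hs
  have h2 := hcon _ hp.1
  have h3 := hcon _ hp.2.1
  rw [G.add_right, G.add_right, G.smul_right, h2, h3] at h1
  simpa using h1

lemma all_tv {x : ι → F} (hx0 : x ≠ 0) (hxx : f x x = 0) {c : F} (hc : c + σ c = 0) :
    EM f M x 0 c := by
  have G := D.toRG
  obtain ⟨u, hu, hxu⟩ := exists_RS_not_perp D K hn hS hx0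
  obtain ⟨y, hy, huy⟩ := G.exists_dual hu.1 hu.2.1
  obtain ⟨us, hus, huus, -⟩ := G.exists_partner hu hy huy
  have husu := G.swap1 huus
  have huu : f u u = 0 := hu.2.2
  have huss : f us us = 0 := hus.2.2
  obtain ⟨β, hβ⟩ : ∃ β, β = f x u := ⟨_, rfl⟩
  obtain ⟨α, hα⟩ : ∃ α, α = f x us := ⟨_, rfl⟩
  have hβ0 : β ≠ 0 := hβ ▸ hxu
  have hσβ0 := G.sig_ne hβ0
  have hux : f u x = σ β := by rw [hβ, ← G.herm]
  have husx : f us x = σ α := by rw [hα, ← G.herm]
  obtain ⟨w₁, hw₁⟩ : ∃ w₁, w₁ = x - β • us - α • u := ⟨_, rfl⟩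
  have o1 : f w₁ u = 0 := by
    rw [hw₁, G.sub_left, G.sub_left, G.smul_left, G.smul_left, husu, huu, ← hβ]; ring
  have o2 : f us w₁ = 0 := by
    rw [hw₁, G.sub_right, G.sub_right, G.smul_right, G.smul_right, huss, husu, husx]; ring
  obtain ⟨a₀, k, hk, ek⟩ := all_EM G K hn hS hu (w := (-β⁻¹) • w₁) (by
    rw [G.smul_left, o1, mul_zero])
  obtain ⟨δ, hδ⟩ : ∃ δ, δ = a₀ * β - α := ⟨_, rfl⟩
  have hk1 : (k : Matrix ι ι F) *ᵥ (β • us) = x + δ • u := by
    rw [ek, Ef, G.smul_left, G.smul_left, G.smul_right, husu, o2, hδ, smul_smul]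
    have : β * 1 * -β⁻¹ = -1 := by field_simp
    rw [this, hw₁]
    module
  have hiso : σ δ * β + δ * σ β = 0 := by
    have h1 := K.iso k hk (β • us) (β • us)
    rw [hk1, G.smul_left, G.smul_right, huss, mul_zero, mul_zero, G.add_left, G.add_right,
      G.add_right, G.smul_left,
      G.smul_left, G.smul_right, G.smul_right, hxx, huu, hux, ← hβ] at h1
    linear_combination h1
  obtain ⟨t, ht, et⟩ := tv_mem D K hn hS hu (c := -δ / β) (by
    rw [map_div₀, map_neg]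
    field_simp
    linear_combination -hiso)
  have hk2 : ((t * k : GL ι F) : Matrix ι ι F) *ᵥ (β • us) = x := by
    rw [mul_mulVec, hk1, et, Ef, G.add_left, G.smul_left, huu, ← hβ, G.zero_right]
    have : -δ / β * (β + δ * 0) = -δ := by field_simp; ring
    rw [this]
    module
  have e1 : EM f M (β • us) 0 c := by
    apply EM.unscale G.toSF
    rw [smul_zero]
    apply tv_mem D K hn hS hus
    rw [map_mul, map_mul, G.invol]
    linear_combination (β * σ β) * hc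
  have e2 := e1.conj (M.mul_mem ht hk) (K.iso _ (M.mul_mem ht hk))
  rwa [hk2, mulVec_zero] at e2

theorem SUf_le : SUf f ≤ M := by
  intro k hk
  have H := D.herm
  have hk' := (mkGL_mem_SUf_iff (f := f) (glEquiv _ F k)).1 (by rw [mkGL_glEquiv]; exact hk)
  have h3 := mem_TT_of_det_one H (by rw [Module.finrank_fintype_fun_eq_card]; omega)
    (glEquiv _ F k) hk'.1 hk'.2
  have h4 : TT H ≤ pull M := by
    rw [TT, Subgroup.closure_le]
    rintro e ⟨v, z, hv, hz, rfl⟩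
    rw [SetLike.mem_coe, mem_pull]
    by_cases hv0 : v = 0
    · subst hv0
      have : mkGL (H.utv 0 z hv) = (1 : GL ι F) := by
        apply gl_ext
        intro x
        rw [mkGL_mulVec, H.utv_apply]
        simp
      rw [this]
      exact M.one_mem
    · obtain ⟨g, hg, eg⟩ := all_tv D K hn hS hv0 hv hz
      have : mkGL (H.utv v z hv) = g := by
        apply gl_ext
        intro x
        rw [mkGL_mulVec, H.utv_apply, eg, Ef, H.zero_right]
        simp
      rw [this]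
      exact hg
  exact (glEquiv_mem_pull M k).1 (h4 h3)

end big


/-! ### maximality -/

lemma mem_of_smul_rat {p : ι → F} {c : F} (hp : IsRat F₀ p) (hp0 : p ≠ 0) (h : IsRat F₀ (c • p)) :
    c ∈ F₀ := by
  obtain ⟨k, hk⟩ := Function.ne_iff.1 hp0
  have hk' : p k ≠ 0 := hk
  have := F₀.mul_mem (h k) (F₀.inv_mem (hp k))
  rwa [Pi.smul_apply, smul_eq_mul, mul_assoc, mul_inv_cancel₀ hk', mul_one] at this

lemma EM_SUf (H : Herm σ f) {u v : ι → F} (huu : f u u = 0) (hvv : f v v = 0) (huv : f u v = 0)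
    (ν : F) : EM f (SUf f) u (ν • v) 0 := by
  have hab : f (-(ν • v)) u = 0 := by
    rw [H.neg_left, H.smul_left, H.swap_zero huv]; ring
  refine ⟨mkGL (sieg H u (-(ν • v)) 0 huu hab), ?_, ?_⟩
  · rw [mkGL_mem_SUf_iff]
    refine ⟨sieg_isometry H _ _ _ _ _ ?_, sieg_det H _ _ _ _ _⟩
    rw [H.neg_left, H.neg_right, H.smul_left, H.smul_right, hvv]
    simp
  · intro x
    rw [mkGL_mulVec, sieg_apply, Ef, H.neg_right]
    module

section max

variable [Fintype F] (D : UD F₀ σ f) (hn : 13 ≤ Fintype.card ι) (r : ℕ) (hr : r.Prime)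
  (hcard : Fintype.card F = Nat.card F₀ ^ r)
include D hn r hr hcard

lemma subfield_lt : Cfsg.Geo.subfieldSubgroup F₀ (1 : GL ι F) ⊓ SUf f < SUf f := by
  have G := D.toRG
  refine lt_of_le_of_ne inf_le_right ?_
  intro heq
  obtain ⟨ν, hν⟩ := exists_notMem (F₀ := F₀) r hr hcard
  obtain ⟨p, p', q, q', hp, hq, -, -, qp, qp'⟩ := G.el2 [] (by simp) (by simp; omega)
  obtain ⟨g, hg, eg⟩ := EM_SUf D.herm (u := p) (v := q) hp.1.2.2 hq.1.2.2 qp.2.2.1 ν
  rw [← heq] at hg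
  obtain ⟨c, hc, hcg⟩ := (mem_subfieldSubgroup_one_iff g).1 (Subgroup.mem_inf.1 hg).1
  have hgp : (g : Matrix ι ι F) *ᵥ p = p := by
    rw [eg, Ef, G.smul_right, qp.2.2.1, show f p p = 0 from hp.1.2.2]; simp
  have hgq : (g : Matrix ι ι F) *ᵥ q' = q' + σ ν • p := by
    rw [eg, Ef, G.smul_right, qp.2.1, G.swap1 hq.2.2]; simp
  have h1 := hcg.mulVec hp.1.1
  rw [smul_mulVec, hgp] at h1
  have hcF := mem_of_smul_rat hp.1.1 hp.1.2.1 h1
  have h2 := hcg.mulVec hq.2.1.1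
  rw [smul_mulVec, hgq] at h2
  have h3 : IsRat F₀ (σ ν • p) := by
    have := (IsRat.smul (F₀.inv_mem hcF) h2).sub hq.2.1.1
    rwa [smul_smul, inv_mul_cancel₀ hc, one_smul, add_sub_cancel_left] at this
  apply hν
  have := G.sig_mem _ (mem_of_smul_rat hp.1.1 hp.1.2.1 h3)
  rwa [G.invol] at this

theorem maximal_of_le (hle : ∀ M : Subgroup (GL ι F),
    Cfsg.Geo.subfieldSubgroup F₀ (1 : GL ι F) ⊓ SUf f ≤ M → M ≤ SUf f →
    (∀ ν ∈ Sset F₀ f (Iso f) M, ν ∈ F₀) → M ≤ Cfsg.Geo.subfieldSubgroup F₀ (1 : GL ι F)) :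
    Cfsg.Geo.IsMaximalIn (SUf f) (Cfsg.Geo.subfieldSubgroup F₀ (1 : GL ι F) ⊓ SUf f) := by
  refine ⟨subfield_lt D hn r hr hcard, ?_⟩
  intro M hHM hMS
  have K := toGM D hHM hMS
  rcases dichotomy D.toRG K hn r hr hcard with h0 | h1
  · left
    exact le_antisymm (fun g hg => Subgroup.mem_inf.2 ⟨hle M hHM hMS h0 hg, hMS hg⟩) hHM
  · right
    exact le_antisymm hMS (SUf_le D K hn h1)

/-- extensions of small degree -/
theorem maximal_small (hr' : 2 * r + 3 ≤ Fintype.card ι) :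
    Cfsg.Geo.IsMaximalIn (SUf f) (Cfsg.Geo.subfieldSubgroup F₀ (1 : GL ι F) ⊓ SUf f) :=
  maximal_of_le D hn r hr hcard fun M hHM hMS h0 =>
    le_of_small D.toRG (toGM D hHM hMS) hn h0 D.ml r hcard hr'

end max

end Cfsg.Agent.Lib.Helper99SubfieldU
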