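import Cfsg.Agent.Lib.Helper99RGFin2
import Cfsg.Agent.Lib.Helper99SubfieldU
import Cfsg.Agent.Lib.Helper42Quad
import Cfsg.Agent.Lib.Helper49Par
import Cfsg.Agent.Lib.Helper49Bridge

set_option autoImplicit false
set_option linter.unusedSectionVars false
set_option linter.unusedSimpArgs false
set_option linter.unusedVariables false

/-!
# Subfield subgroups of orthogonal groups
-/

namespace Cfsg.Agent.Lib.Helper99SubfieldO

open Matrix Module Cfsg.Agent.Lib.Helper95Basic Cfsg.Agent.Lib.Helper99Subfield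
  Cfsg.Agent.Lib.Helper99SubfieldSL Cfsg.Agent.Lib.Helper99SubfieldGen Cfsg.Agent.Lib.Helper99RG
  Cfsg.Agent.Lib.Helper99RGEl Cfsg.Agent.Lib.Helper99RGFin Cfsg.Agent.Lib.Helper99RGDual
  Cfsg.Agent.Lib.Helper99RGFin2
open Cfsg.Agent.Lib.Helper99SubfieldU (ratM_of_forall mem_subfield_of_ratM mem_of_smul_rat)
open Cfsg.Agent.Lib.Helper49Eich (E E_apply E_mul E_inv E_conj ext_mulVec)
open Cfsg.Agent.Lib.Helper49Orth (iso_apply polar_iso reflO coe_reflO refl_mulVec Q_add Q_sub)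
open Cfsg.Agent.Lib.Helper49Par (RootSet Omega_le_of_pair)

variable {ι : Type} [Fintype ι] [DecidableEq ι] {F : Type*} [Field F]
variable {F₀ : Subfield F} {Q : QuadraticForm F (ι → F)}

/-- the polar form -/
abbrev Bf (Q : QuadraticForm F (ι → F)) : (ι → F) → (ι → F) → F := QuadraticMap.polar ⇑Q

/-- singular vectors -/
def Sing (Q : QuadraticForm F (ι → F)) (x : ι → F) : Prop := Q x = 0

/-- a non-degenerate quadratic form which is rational over `F₀` -/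
structure OD (F₀ : Subfield F) (Q : QuadraticForm F (ι → F)) : Prop where
  nondeg : (QuadraticMap.polarBilin Q).Nondegenerate
  rat : ∀ x, IsRat F₀ x → Q x ∈ F₀

lemma toSF (Q : QuadraticForm F (ι → F)) : SF (RingHom.id F) (Bf Q) where
  invol _ := rfl
  add_left x y v := QuadraticMap.polar_add_left Q x y v
  smul_left c x v := QuadraticMap.polar_smul_left Q c x v
  herm v w := QuadraticMap.polar_comm Q v w

namespace OD

variable (D : OD F₀ Q)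
include D

lemma ratB (x y : ι → F) (hx : IsRat F₀ x) (hy : IsRat F₀ y) : Bf Q x y ∈ F₀ :=
  F₀.sub_mem (F₀.sub_mem (D.rat _ (hx.add hy)) (D.rat _ hx)) (D.rat _ hy)

lemma toRGB : RGB F₀ (RingHom.id F) (Bf Q) (Sing Q) :=
  { toSF Q with
    sig_mem := fun a ha => ha
    rat := D.ratB
    dual := dual_of_nondeg (toSF Q) (fun a ha => ha) D.ratB (by
      intro v hv
      by_contra hcon
      push Not at hcon
      exact hv (D.nondeg.2 v hcon))
    sg_iso := by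
      intro x hx
      show QuadraticMap.polar ⇑Q x x = 0
      rw [QuadraticMap.polar_self, show Q x = 0 from hx, smul_zero]
    sg_smul := by
      intro c x hx
      show Q (c • x) = 0
      rw [QuadraticMap.map_smul, show Q x = 0 from hx, smul_zero]
    sg_add := by
      intro x y hx hy hxy
      show Q (x + y) = 0
      rw [Q_add, show Q x = 0 from hx, show Q y = 0 from hy, show QuadraticMap.polar ⇑Q x y = 0 from hxy]
      simp
    sing := by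
      intro y v hy hv hvv hvy
      refine ⟨-Q y, F₀.neg_mem (D.rat _ hy), ?_⟩
      show Q (y + (-Q y) • v) = 0
      rw [Q_add, QuadraticMap.map_smul, show Q v = 0 from hvv, QuadraticMap.polar_smul_right,
        QuadraticMap.polar_comm, show QuadraticMap.polar ⇑Q v y = 1 from hvy]
      simp }

/-- the restriction of `Q` to the rational vectors -/
def Q₀ : QuadraticForm F₀ (ι → F₀) where
  toFun x := ⟨Q (up x), D.rat _ (rat_up x)⟩
  toFun_smul c x := Subtype.ext (by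
    show Q (up (c • x)) = ((c * c : F₀) : F) * Q (up x)
    rw [up_smul, QuadraticMap.map_smul]; rfl)
  exists_companion' := ⟨LinearMap.mk₂ F₀
      (fun x y => (⟨Bf Q (up x) (up y), D.ratB _ _ (rat_up x) (rat_up y)⟩ : F₀))
      (fun x y z => Subtype.ext (by simp only [up_add, (toSF Q).add_left]; rfl))
      (fun c x y => Subtype.ext (by simp only [up_smul, (toSF Q).smul_left]; rfl))
      (fun x y z => Subtype.ext (by simp only [up_add, (toSF Q).add_right]; rfl))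
      (fun c x y => Subtype.ext (by simp only [up_smul, (toSF Q).smul_right]; rfl)),
    fun x y => Subtype.ext (by
      show Q (up (x + y)) = Q (up x) + Q (up y) + Bf Q (up x) (up y)
      rw [up_add, Q_add])⟩

lemma ml [Finite F] : ML F₀ (Sing Q) := by
  intro T hT
  obtain ⟨v, hv0, hv⟩ := Cfsg.Agent.Lib.Helper42Quad.exists_singular (D.Q₀.comp T.subtype) hT
  exact ⟨v, v.2, fun h => hv0 (Subtype.ext h), congrArg Subtype.val hv⟩

lemma toRG [Finite F] : RG F₀ (RingHom.id F) (Bf Q) (Sing Q) := RG_of_ml D.toRGB D.ml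

end OD

/-- Eichler transformations in the notation of the rational geometries -/
lemma E_eq_Ef {u w : ι → F} (hu : Q u = 0) (hw : Bf Q u w = 0) (x : ι → F) :
    (((E Q u w : ↥(Cfsg.isometryGroup F ⇑Q)) : GL ι F) : Matrix ι ι F) *ᵥ x =
      Ef (Bf Q) u w (-Q w) x := by
  rw [E_apply Q hu hw, Ef]
  module

lemma E_mem_omegaGL [Fintype F] (D : OD F₀ Q) (hn : 5 ≤ Fintype.card ι) {u w : ι → F}
    (hu : Q u = 0) (hw : Bf Q u w = 0) :
    ((E Q u w : ↥(Cfsg.isometryGroup F ⇑Q)) : GL ι F) ∈ Cfsg.Geo.omegaGL ⇑Q :=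
  (Cfsg.Agent.Lib.Helper49Bridge.coe_mem_omegaGL_iff Q _).2
    (Cfsg.Agent.Lib.Helper49EichGen.E_mem_Omega Q D.nondeg hn hu hw)

lemma E_ratM (D : OD F₀ Q) {u w : ι → F} (hu : Q u = 0) (hw : Bf Q u w = 0) (ru : IsRat F₀ u)
    (rw' : IsRat F₀ w) :
    IsRatM F₀ (((E Q u w : ↥(Cfsg.isometryGroup F ⇑Q)) : GL ι F) : Matrix ι ι F) := by
  apply ratM_of_forall
  intro x hx
  rw [E_apply Q hu hw]
  exact (hx.add (IsRat.smul (F₀.sub_mem (D.ratB _ _ hx rw')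
    (F₀.mul_mem (D.rat _ rw') (D.ratB _ _ hx ru))) ru)).sub (IsRat.smul (D.ratB _ _ hx ru) rw')

variable {M : Subgroup (GL ι F)}

lemma exists_iso_of_mem {g : GL ι F} (hg : g ∈ Cfsg.Geo.omegaGL ⇑Q) :
    ∃ g' : ↥(Cfsg.isometryGroup F ⇑Q), g' ∈ Cfsg.Omega F ⇑Q ∧ (g' : GL ι F) = g :=
  Cfsg.Agent.Lib.Helper49Bridge.exists_of_mem_omegaGL Q hg

lemma toGM [Fintype F] (D : OD F₀ Q) (hn : 5 ≤ Fintype.card ι)
    (hHM : Cfsg.Geo.subfieldSubgroup F₀ (1 : GL ι F) ⊓ Cfsg.Geo.omegaGL ⇑Q ≤ M)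
    (hMS : M ≤ Cfsg.Geo.omegaGL ⇑Q) : GM F₀ (Bf Q) (Sing Q) M where
  iso g hg x y := by
    obtain ⟨g', -, rfl⟩ := exists_iso_of_mem (hMS hg)
    exact polar_iso Q g' x y
  sg g hg x hx := by
    obtain ⟨g', -, rfl⟩ := exists_iso_of_mem (hMS hg)
    show Q _ = 0
    rw [iso_apply (Q := ⇑Q)]; exact hx
  base u v hu hv huv ν hν := by
    have hw : Bf Q u (ν • v) = 0 := by
      rw [(toSF Q).smul_right, huv, mul_zero]
    refine ⟨_, hHM (Subgroup.mem_inf.2 ⟨mem_subfield_of_ratM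
      (E_ratM D hu.2.2 hw hu.1 (IsRat.smul hν hv.1)), E_mem_omegaGL D hn hu.2.2 hw⟩), ?_⟩
    intro x
    rw [E_eq_Ef hu.2.2 hw, QuadraticMap.map_smul, show Q v = 0 from hv.2.2]
    simp

/-! ### the big case -/

section big

variable [Fintype F] (D : OD F₀ Q) (K : GM F₀ (Bf Q) (Sing Q) M) (hn : 13 ≤ Fintype.card ι)
  (hS : ∀ ν : F, ν ∈ Sset F₀ (Bf Q) (Sing Q) M) (hMS : M ≤ Cfsg.Geo.omegaGL ⇑Q)
include D K hn hS hMS

lemma mem_RootSet {u : ι → F} (hu : RS F₀ (Sing Q) u) :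
    u ∈ RootSet Q (M.comap (Cfsg.isometryGroup F ⇑Q).subtype) := by
  have G := D.toRG
  refine ⟨hu.2.1, hu.2.2, ?_⟩
  intro w hw
  have hwu : Bf Q w u = 0 := G.swap0 hw
  obtain ⟨a, g, hg, eg⟩ := all_EM G K hn hS hu hwu
  obtain ⟨y, hy, huy⟩ := G.exists_dual hu.1 hu.2.1
  have hyu : Bf Q y u = 1 := G.swap1 huy
  obtain ⟨g', -, hg'⟩ := exists_iso_of_mem (hMS hg)
  have h1 : Q ((g : Matrix ι ι F) *ᵥ y) = Q y := by
    rw [← hg']; exact iso_apply (Q := ⇑Q) g' y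
  have h2 : (g : Matrix ι ι F) *ᵥ y = (y - w) + (Bf Q y w + a) • u := by
    rw [eg, Ef, hyu]; module
  have ha : a = -Q w := by
    rw [h2, Q_add, Q_sub, QuadraticMap.map_smul, show Q u = 0 from hu.2.2,
      QuadraticMap.polar_smul_right, QuadraticMap.polar_sub_left,
      show QuadraticMap.polar ⇑Q y u = 1 from hyu, show QuadraticMap.polar ⇑Q w u = 0 from hwu] at h1
    simp only [smul_eq_mul, mul_zero, add_zero, sub_zero, mul_one] at h1
    linear_combination h1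
  rw [Subgroup.mem_comap]
  have : ((Cfsg.isometryGroup F ⇑Q).subtype (E Q u w)) = g := by
    apply gl_ext
    intro x
    rw [eg, ha]
    exact E_eq_Ef hu.2.2 hw x
  rw [this]
  exact hg

lemma omegaGL_le : Cfsg.Geo.omegaGL ⇑Q ≤ M := by
  have G := D.toRG
  obtain ⟨p, p', hp, -⟩ := G.el1 [] (by simp) (by simp; omega)
  have h1 := Omega_le_of_pair Q D.nondeg (by omega) (mem_RootSet D K hn hS hMS hp.1)
    (mem_RootSet D K hn hS hMS hp.2.1) (by
      rw [show QuadraticMap.polar ⇑Q p p' = 1 from hp.2.2]; exact one_ne_zero)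
  intro x hx
  obtain ⟨g, hg, rfl⟩ := exists_iso_of_mem hx
  exact h1 hg

end big

/-! ### maximality -/

section max

variable [Fintype F] (D : OD F₀ Q) (hn : 13 ≤ Fintype.card ι) (r : ℕ) (hr : r.Prime)
  (hcard : Fintype.card F = Nat.card F₀ ^ r)
include D hn r hr hcard

lemma subfield_lt :
    Cfsg.Geo.subfieldSubgroup F₀ (1 : GL ι F) ⊓ Cfsg.Geo.omegaGL ⇑Q < Cfsg.Geo.omegaGL ⇑Q := by
  have G := D.toRG
  refine lt_of_le_of_ne inf_le_right ?_
  intro heq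
  obtain ⟨ν, hν⟩ := exists_notMem (F₀ := F₀) r hr hcard
  obtain ⟨p, p', q, q', hp, hq, -, -, qp, qp'⟩ := G.el2 [] (by simp) (by simp; omega)
  have hw : Bf Q p (ν • q) = 0 := by rw [G.smul_right, qp.2.2.1, mul_zero]
  have hg := E_mem_omegaGL D (by omega) (u := p) (w := ν • q) hp.1.2.2 hw
  rw [← heq] at hg
  obtain ⟨c, hc, hcg⟩ := (mem_subfieldSubgroup_one_iff _).1 (Subgroup.mem_inf.1 hg).1
  have hgp : (((E Q p (ν • q) : ↥(Cfsg.isometryGroup F ⇑Q)) : GL ι F) : Matrix ι ι F) *ᵥ p = p := by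
    rw [E_eq_Ef hp.1.2.2 hw, Ef, G.smul_right, qp.2.2.1, G.sg_iso _ hp.1.2.2]; simp
  have hgq : (((E Q p (ν • q) : ↥(Cfsg.isometryGroup F ⇑Q)) : GL ι F) : Matrix ι ι F) *ᵥ q' =
      q' + ν • p := by
    rw [E_eq_Ef hp.1.2.2 hw, Ef, G.smul_right, qp.2.1, G.swap1 hq.2.2]; simp
  have h1 := hcg.mulVec hp.1.1
  rw [smul_mulVec, hgp] at h1
  have hcF := mem_of_smul_rat hp.1.1 hp.1.2.1 h1
  have h2 := hcg.mulVec hq.2.1.1
  rw [smul_mulVec, hgq] at h2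
  have h3 : IsRat F₀ (ν • p) := by
    have := (IsRat.smul (F₀.inv_mem hcF) h2).sub hq.2.1.1
    rwa [smul_smul, inv_mul_cancel₀ hc, one_smul, add_sub_cancel_left] at this
  exact hν (mem_of_smul_rat hp.1.1 hp.1.2.1 h3)

theorem maximal_of_le (hle : ∀ M : Subgroup (GL ι F),
    Cfsg.Geo.subfieldSubgroup F₀ (1 : GL ι F) ⊓ Cfsg.Geo.omegaGL ⇑Q ≤ M →
    M ≤ Cfsg.Geo.omegaGL ⇑Q →
    (∀ ν ∈ Sset F₀ (Bf Q) (Sing Q) M, ν ∈ F₀) → M ≤ Cfsg.Geo.subfieldSubgroup F₀ (1 : GL ι F)) :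
    Cfsg.Geo.IsMaximalIn (Cfsg.Geo.omegaGL ⇑Q)
      (Cfsg.Geo.subfieldSubgroup F₀ (1 : GL ι F) ⊓ Cfsg.Geo.omegaGL ⇑Q) := by
  refine ⟨subfield_lt D hn r hr hcard, ?_⟩
  intro M hHM hMS
  have K := toGM D (by omega) hHM hMS
  rcases dichotomy D.toRG K hn r hr hcard with h0 | h1
  · left
    exact le_antisymm (fun g hg => Subgroup.mem_inf.2 ⟨hle M hHM hMS h0 hg, hMS hg⟩) hHM
  · right
    exact le_antisymm hMS (omegaGL_le D K hn h1 hMS)

end max

/-! ### involutions -/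

/-- four hyperbolic pairs -/
lemma el4 {σ : F →+* F} {h : (ι → F) → (ι → F) → F} {Sg : (ι → F) → Prop} (G : RG F₀ σ h Sg)
    (hc : 9 ≤ Fintype.card ι) :
    ∃ p p' q q' s s' t t', HP F₀ h Sg p p' ∧ HP F₀ h Sg q q' ∧ HP F₀ h Sg s s' ∧ HP F₀ h Sg t t' ∧
      PO h q q' p ∧ PO h q q' p' ∧ PO h s s' p ∧ PO h s s' p' ∧ PO h s s' q ∧ PO h s s' q' ∧
      PO h t t' p ∧ PO h t t' p' ∧ PO h t t' q ∧ PO h t t' q' ∧ PO h t t' s ∧ PO h t t' s' := by
  obtain ⟨p, p', hp, hperp⟩ := G.el [] [] G.ND_empty (by simp) (by simp; omega)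
  have hND := G.ND_insert G.ND_empty hp (by simp)
  obtain ⟨q, q', hq, hperp'⟩ := G.el _ [] hND (by simp) (by simp; omega)
  have hND' := G.ND_insert hND hq (fun s hs => hperp' s (Or.inl hs))
  obtain ⟨s, s', hs, hperp''⟩ := G.el _ [] hND' (by simp) (by simp; omega)
  have hND'' := G.ND_insert hND' hs (fun s hs => hperp'' s (Or.inl hs))
  obtain ⟨t, t', ht, hperp'''⟩ := G.el _ [] hND'' (by simp) (by simp; omega)
  exact ⟨p, p', q, q', s, s', t, t', hp, hq, hs, ht,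
    G.mkPO (hperp' p (by simp)), G.mkPO (hperp' p' (by simp)),
    G.mkPO (hperp'' p (by simp)), G.mkPO (hperp'' p' (by simp)), G.mkPO (hperp'' q (by simp)),
    G.mkPO (hperp'' q' (by simp)),
    G.mkPO (hperp''' p (by simp)), G.mkPO (hperp''' p' (by simp)), G.mkPO (hperp''' q (by simp)),
    G.mkPO (hperp''' q' (by simp)), G.mkPO (hperp''' s (by simp)), G.mkPO (hperp''' s' (by simp))⟩

/-- four pairwise orthogonal vectors of norm one -/
structure Fr (Q : QuadraticForm F (ι → F)) (a₁ a₂ a₃ a₄ : ι → F) : Prop where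
  q₁ : Q a₁ = 1
  q₂ : Q a₂ = 1
  q₃ : Q a₃ = 1
  q₄ : Q a₄ = 1
  o₁₂ : Bf Q a₁ a₂ = 0
  o₁₃ : Bf Q a₁ a₃ = 0
  o₁₄ : Bf Q a₁ a₄ = 0
  o₂₃ : Bf Q a₂ a₃ = 0
  o₂₄ : Bf Q a₂ a₄ = 0
  o₃₄ : Bf Q a₃ a₄ = 0

/-- the action of the product of the four reflections -/
def J4 (Q : QuadraticForm F (ι → F)) (a₁ a₂ a₃ a₄ x : ι → F) : ι → F :=
  x - Bf Q a₁ x • a₁ - Bf Q a₂ x • a₂ - Bf Q a₃ x • a₃ - Bf Q a₄ x • a₄

lemma exists_inv4 [Fintype F] (hQ : (QuadraticMap.polarBilin Q).Nondegenerate)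
    (hn : 5 ≤ Fintype.card ι) {a₁ a₂ a₃ a₄ : ι → F} (fr : Fr Q a₁ a₂ a₃ a₄) :
    ∃ i : ↥(Cfsg.isometryGroup F ⇑Q), i ∈ Cfsg.Omega F ⇑Q ∧
      ∀ x, ((i : GL ι F) : Matrix ι ι F) *ᵥ x = J4 Q a₁ a₂ a₃ a₄ x := by
  have h₁ : Q a₁ ≠ 0 := by rw [fr.q₁]; exact one_ne_zero
  have h₂ : Q a₂ ≠ 0 := by rw [fr.q₂]; exact one_ne_zero
  have h₃ : Q a₃ ≠ 0 := by rw [fr.q₃]; exact one_ne_zero
  have h₄ : Q a₄ ≠ 0 := by rw [fr.q₄]; exact one_ne_zero
  refine ⟨reflO Q h₁ * reflO Q h₂ * (reflO Q h₃ * reflO Q h₄), ?_, ?_⟩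
  · rw [Cfsg.Agent.Lib.Helper49EichGen.Omega_eq_TT Q hQ hn]
    exact Subgroup.mul_mem _
      (Cfsg.Agent.Lib.Helper49EichGen.reflO_mul_reflO_mem_TT Q hQ hn h₁ h₂ (by rw [fr.q₁, fr.q₂]))
      (Cfsg.Agent.Lib.Helper49EichGen.reflO_mul_reflO_mem_TT Q hQ hn h₃ h₄ (by rw [fr.q₃, fr.q₄]))
  · intro x
    have o₁₂ : QuadraticMap.polar ⇑Q a₁ a₂ = 0 := fr.o₁₂
    have o₁₃ : QuadraticMap.polar ⇑Q a₁ a₃ = 0 := fr.o₁₃
    have o₁₄ : QuadraticMap.polar ⇑Q a₁ a₄ = 0 := fr.o₁₄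
    have o₂₃ : QuadraticMap.polar ⇑Q a₂ a₃ = 0 := fr.o₂₃
    have o₂₄ : QuadraticMap.polar ⇑Q a₂ a₄ = 0 := fr.o₂₄
    have o₃₄ : QuadraticMap.polar ⇑Q a₃ a₄ = 0 := fr.o₃₄
    rw [Cfsg.Agent.Lib.Helper49Eich.mul_mulVec, Cfsg.Agent.Lib.Helper49Eich.mul_mulVec,
      Cfsg.Agent.Lib.Helper49Eich.mul_mulVec, coe_reflO, coe_reflO, coe_reflO, coe_reflO,
      refl_mulVec, refl_mulVec, refl_mulVec, refl_mulVec, J4]
    simp only [fr.q₁, fr.q₂, fr.q₃, fr.q₄, inv_one, one_mul, QuadraticMap.polar_sub_right,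
      QuadraticMap.polar_smul_right, o₁₂, o₁₃, o₁₄, o₂₃, o₂₄, o₃₄, smul_eq_mul, mul_zero, sub_zero]
    abel

lemma J4_J4 {a₁ a₂ a₃ a₄ : ι → F} (fr : Fr Q a₁ a₂ a₃ a₄) (x : ι → F) :
    J4 Q a₁ a₂ a₃ a₄ (J4 Q a₁ a₂ a₃ a₄ x) = x := by
  have H := toSF Q
  have s₁ : Bf Q a₁ a₁ = 2 := by
    show QuadraticMap.polar ⇑Q a₁ a₁ = 2
    rw [QuadraticMap.polar_self, fr.q₁]; simp
  have s₂ : Bf Q a₂ a₂ = 2 := by
    show QuadraticMap.polar ⇑Q a₂ a₂ = 2
    rw [QuadraticMap.polar_self, fr.q₂]; simp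
  have s₃ : Bf Q a₃ a₃ = 2 := by
    show QuadraticMap.polar ⇑Q a₃ a₃ = 2
    rw [QuadraticMap.polar_self, fr.q₃]; simp
  have s₄ : Bf Q a₄ a₄ = 2 := by
    show QuadraticMap.polar ⇑Q a₄ a₄ = 2
    rw [QuadraticMap.polar_self, fr.q₄]; simp
  simp only [J4, H.sub_right, H.smul_right, RingHom.id_apply, fr.o₁₂, fr.o₁₃, fr.o₁₄, fr.o₂₃,
    fr.o₂₄, fr.o₃₄, H.swap0 fr.o₁₂, H.swap0 fr.o₁₃, H.swap0 fr.o₁₄, H.swap0 fr.o₂₃,
    H.swap0 fr.o₂₄, H.swap0 fr.o₃₄, s₁, s₂, s₃, s₄]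
  module

lemma rank_bounds {i : GL ι F} {a₁ a₂ a₃ a₄ x₁ x₂ x₃ : ι → F}
    (hi : ∀ x, (i : Matrix ι ι F) *ᵥ x = J4 Q a₁ a₂ a₃ a₄ x)
    (h₁₁ : Bf Q a₁ x₁ = 1) (h₂₁ : Bf Q a₂ x₁ = 0) (h₃₁ : Bf Q a₃ x₁ = 0) (h₄₁ : Bf Q a₄ x₁ = 0)
    (h₁₂ : Bf Q a₁ x₂ = 0) (h₂₂ : Bf Q a₂ x₂ = 1) (h₃₂ : Bf Q a₃ x₂ = 0) (h₄₂ : Bf Q a₄ x₂ = 0)
    (h₁₃ : Bf Q a₁ x₃ = 0) (h₂₃ : Bf Q a₂ x₃ = 0) (h₃₃ : Bf Q a₃ x₃ = 1) (h₄₃ : Bf Q a₄ x₃ = 0) :
    3 ≤ ((i : Matrix ι ι F) - 1).rank ∧ ((i : Matrix ι ι F) - 1).rank ≤ 4 := by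
  classical
  have H := toSF Q
  constructor
  · have hli : LinearIndependent F ![a₁, a₂, a₃] := by
      rw [Fintype.linearIndependent_iff]
      intro c hc
      simp only [Fin.sum_univ_three, Matrix.cons_val_zero, Matrix.cons_val_one,
        Matrix.cons_val_two, Matrix.head_cons, Matrix.tail_cons] at hc
      have e₁ := congrArg (fun v => Bf Q v x₁) hc
      have e₂ := congrArg (fun v => Bf Q v x₂) hc
      have e₃ := congrArg (fun v => Bf Q v x₃) hc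
      simp only [H.add_left, H.smul_left, H.zero_left, h₁₁, h₂₁, h₃₁, h₁₂, h₂₂, h₃₂, h₁₃, h₂₃, h₃₃,
        mul_one, mul_zero, add_zero, zero_add] at e₁ e₂ e₃
      intro j
      fin_cases j
      · exact e₁
      · exact e₂
      · exact e₃
    have hle : Submodule.span F (Set.range ![a₁, a₂, a₃]) ≤
        LinearMap.range ((i : Matrix ι ι F) - 1).mulVecLin := by
      rw [Submodule.span_le]
      rintro _ ⟨j, rfl⟩
      fin_cases j
      · refine ⟨-x₁, ?_⟩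
        rw [Matrix.mulVecLin_apply, sub_mulVec, one_mulVec, hi, J4]
        simp only [H.neg_right, h₁₁, h₂₁, h₃₁, h₄₁]
        simp
      · refine ⟨-x₂, ?_⟩
        rw [Matrix.mulVecLin_apply, sub_mulVec, one_mulVec, hi, J4]
        simp only [H.neg_right, h₁₂, h₂₂, h₃₂, h₄₂]
        simp
      · refine ⟨-x₃, ?_⟩
        rw [Matrix.mulVecLin_apply, sub_mulVec, one_mulVec, hi, J4]
        simp only [H.neg_right, h₁₃, h₂₃, h₃₃, h₄₃]
        simp
    have h3 := finrank_span_eq_card hli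
    rw [Fintype.card_fin] at h3
    have := Submodule.finrank_mono hle
    unfold Matrix.rank
    omega
  · unfold Matrix.rank
    have hle : LinearMap.range ((i : Matrix ι ι F) - 1).mulVecLin ≤
        Submodule.span F (({a₁, a₂, a₃, a₄} : Finset (ι → F)) : Set (ι → F)) := by
      rintro _ ⟨x, rfl⟩
      rw [Matrix.mulVecLin_apply, sub_mulVec, one_mulVec, hi, J4]
      have e1 : x - Bf Q a₁ x • a₁ - Bf Q a₂ x • a₂ - Bf Q a₃ x • a₃ - Bf Q a₄ x • a₄ - x =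
          (-Bf Q a₁ x) • a₁ + (-Bf Q a₂ x) • a₂ + (-Bf Q a₃ x) • a₃ + (-Bf Q a₄ x) • a₄ := by module
      rw [e1]
      refine Submodule.add_mem _ (Submodule.add_mem _ (Submodule.add_mem _
        (Submodule.smul_mem _ _ (Submodule.subset_span (by simp)))
        (Submodule.smul_mem _ _ (Submodule.subset_span (by simp))))
        (Submodule.smul_mem _ _ (Submodule.subset_span (by simp))))
        (Submodule.smul_mem _ _ (Submodule.subset_span (by simp)))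
    refine (Submodule.finrank_mono hle).trans ((finrank_span_finset_le_card _).trans ?_)
    exact Finset.card_le_four

lemma eq_zero_of_commute {i₀ : ↥(Cfsg.isometryGroup F ⇑Q)} {p p' a₂ a₃ a₄ z : ι → F}
    (fr : Fr Q (p + p') a₂ a₃ a₄)
    (hi : ∀ x, ((i₀ : GL ι F) : Matrix ι ι F) *ᵥ x = J4 Q (p + p') a₂ a₃ a₄ x)
    (Qp : Q p = 0) (Qp' : Q p' = 0) (hpp' : Bf Q p p' = 1)
    (h₂ : Bf Q a₂ p = 0) (h₃ : Bf Q a₃ p = 0) (h₄ : Bf Q a₄ p = 0)
    (h₂' : Bf Q a₂ p' = 0) (h₃' : Bf Q a₃ p' = 0) (h₄' : Bf Q a₄ p' = 0)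
    (hz : Bf Q p z = 0) (hz' : Bf Q p' z = 0) (hcomm : E Q p z * i₀ = i₀ * E Q p z) : z = 0 := by
  have H := toSF Q
  have hpp : Bf Q p p = 0 := by
    show QuadraticMap.polar ⇑Q p p = 0
    rw [QuadraticMap.polar_self, Qp, smul_zero]
  have hp'p' : Bf Q p' p' = 0 := by
    show QuadraticMap.polar ⇑Q p' p' = 0
    rw [QuadraticMap.polar_self, Qp', smul_zero]
  have hp'p : Bf Q p' p = 1 := H.swap1 hpp'
  have hip' : ((i₀ : GL ι F) : Matrix ι ι F) *ᵥ p' = -p := by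
    rw [hi, J4]
    simp only [H.add_left, hpp', hp'p', h₂', h₃', h₄']
    module
  have hip : ((i₀ : GL ι F) : Matrix ι ι F) *ᵥ p = -p' := by
    rw [hi, J4]
    simp only [H.add_left, hpp, hp'p, h₂, h₃, h₄]
    module
  have e1 := congrArg (fun g : ↥(Cfsg.isometryGroup F ⇑Q) => ((g : GL ι F) : Matrix ι ι F) *ᵥ p') hcomm
  simp only [Cfsg.Agent.Lib.Helper49Eich.mul_mulVec] at e1
  rw [hip', E_apply Q Qp hz, E_apply Q Qp hz] at e1
  have b1 : QuadraticMap.polar ⇑Q (-p) z = 0 := by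
    rw [QuadraticMap.polar_neg_left, show QuadraticMap.polar ⇑Q p z = 0 from hz, neg_zero]
  have b2 : QuadraticMap.polar ⇑Q (-p) p = 0 := by
    rw [QuadraticMap.polar_neg_left, show QuadraticMap.polar ⇑Q p p = 0 from hpp, neg_zero]
  rw [b1, b2, show QuadraticMap.polar ⇑Q p' z = 0 from hz',
    show QuadraticMap.polar ⇑Q p' p = 1 from hp'p] at e1
  simp only [mul_zero, sub_zero, zero_smul, add_zero, mul_one, zero_sub, one_smul, mulVec_sub,
    mulVec_add, mulVec_smul, hip', hip] at e1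
  have e2 : ((i₀ : GL ι F) : Matrix ι ι F) *ᵥ z = Q z • p' := by
    have e3 : -p + 0 = -p + (-Q z • -p' - ((i₀ : GL ι F) : Matrix ι ι F) *ᵥ z) := by
      rw [add_zero, ← add_sub_assoc]; exact e1
    have e3' := (sub_eq_zero.1 (add_left_cancel e3).symm).symm
    rw [e3']; module
  have e4 : Q z = 0 := by
    have e5 := congrArg (fun v => Bf Q v p) e2
    simp only [hi, J4, H.sub_left, H.smul_left, H.add_left, hpp, hp'p, h₂, h₃, h₄, H.swap0 hz,
      hz, hz', mul_zero, sub_zero, mul_one, add_zero, zero_mul] at e5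
    exact e5.symm
  rw [e4, zero_smul] at e2
  have := J4_J4 fr z
  rw [← hi z, e2, J4] at this
  simp only [H.zero_right, zero_smul, sub_zero] at this
  exact this.symm

/-- the rational case -/
theorem le_of_rational [Fintype F] (D : OD F₀ Q) (hn : 13 ≤ Fintype.card ι) (r : ℕ) (hr : r.Prime)
    (hcard : Fintype.card F = Nat.card F₀ ^ r) (M : Subgroup (GL ι F))
    (hHM : Cfsg.Geo.subfieldSubgroup F₀ (1 : GL ι F) ⊓ Cfsg.Geo.omegaGL ⇑Q ≤ M)
    (hMS : M ≤ Cfsg.Geo.omegaGL ⇑Q) (h0 : ∀ ν ∈ Sset F₀ (Bf Q) (Sing Q) M, ν ∈ F₀) :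
    M ≤ Cfsg.Geo.subfieldSubgroup F₀ (1 : GL ι F) := by
  classical
  have G := D.toRG
  have H := toSF Q
  have K := toGM D (by omega) hHM hMS
  obtain ⟨p, p', q, q', s, s', t, t', hp, hq, hs, ht, qp, qp', sp, sp', sq, sq', tp, tp', tq, tq',
    ts, ts'⟩ := el4 G (by omega)
  have norm : ∀ {u u' : ι → F}, HP F₀ (Bf Q) (Sing Q) u u' → Q (u + u') = 1 := by
    intro u u' hu
    rw [Q_add, show Q u = 0 from hu.1.2.2, show Q u' = 0 from hu.2.1.2.2,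
      show QuadraticMap.polar ⇑Q u u' = 1 from hu.2.2]
    simp
  have fr : Fr Q (p + p') (q + q') (s + s') (t + t') :=
    { q₁ := norm hp
      q₂ := norm hq
      q₃ := norm hs
      q₄ := norm ht
      o₁₂ := by simp only [H.add_left, H.add_right, qp.2.2.1, qp.2.2.2, qp'.2.2.1, qp'.2.2.2,
        add_zero]
      o₁₃ := by simp only [H.add_left, H.add_right, sp.2.2.1, sp.2.2.2, sp'.2.2.1, sp'.2.2.2,
        add_zero]
      o₁₄ := by simp only [H.add_left, H.add_right, tp.2.2.1, tp.2.2.2, tp'.2.2.1, tp'.2.2.2,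
        add_zero]
      o₂₃ := by simp only [H.add_left, H.add_right, sq.2.2.1, sq.2.2.2, sq'.2.2.1, sq'.2.2.2,
        add_zero]
      o₂₄ := by simp only [H.add_left, H.add_right, tq.2.2.1, tq.2.2.2, tq'.2.2.1, tq'.2.2.2,
        add_zero]
      o₃₄ := by simp only [H.add_left, H.add_right, ts.2.2.1, ts.2.2.2, ts'.2.2.1, ts'.2.2.2,
        add_zero] }
  obtain ⟨i₀, hiΩ, hi⟩ := exists_inv4 D.nondeg (by omega) fr
  have hii : i₀ * i₀ = 1 := by
    apply ext_mulVec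
    intro x
    rw [Cfsg.Agent.Lib.Helper49Eich.mul_mulVec, hi, hi, J4_J4 fr,
      Cfsg.Agent.Lib.Helper49Eich.one_mulVec']
  have hirat : IsRatM F₀ ((i₀ : GL ι F) : Matrix ι ι F) := by
    apply ratM_of_forall
    intro x hx
    rw [hi, J4]
    have r₁ := hp.1.1.add hp.2.1.1
    have r₂ := hq.1.1.add hq.2.1.1
    have r₃ := hs.1.1.add hs.2.1.1
    have r₄ := ht.1.1.add ht.2.1.1
    exact (((hx.sub (IsRat.smul (D.ratB _ _ r₁ hx) r₁)).sub (IsRat.smul (D.ratB _ _ r₂ hx) r₂)).sub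
      (IsRat.smul (D.ratB _ _ r₃ hx) r₃)).sub (IsRat.smul (D.ratB _ _ r₄ hx) r₄)
  have hirk := rank_bounds (Q := Q) (i := (i₀ : GL ι F)) (x₁ := p) (x₂ := q) (x₃ := s) hi
    (by simp only [H.add_left, G.sg_iso _ hp.1.2.2, G.swap1 hp.2.2, zero_add])
    (by simp only [H.add_left, qp.1, qp.2.1, add_zero])
    (by simp only [H.add_left, sp.1, sp.2.1, add_zero])
    (by simp only [H.add_left, tp.1, tp.2.1, add_zero])
    (by simp only [H.add_left, qp.2.2.1, qp'.2.2.1, add_zero])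
    (by simp only [H.add_left, G.sg_iso _ hq.1.2.2, G.swap1 hq.2.2, zero_add])
    (by simp only [H.add_left, sq.1, sq.2.1, add_zero])
    (by simp only [H.add_left, tq.1, tq.2.1, add_zero])
    (by simp only [H.add_left, sp.2.2.1, sp'.2.2.1, add_zero])
    (by simp only [H.add_left, sq.2.2.1, sq'.2.2.1, add_zero])
    (by simp only [H.add_left, G.sg_iso _ hs.1.2.2, G.swap1 hs.2.2, zero_add])
    (by simp only [H.add_left, ts.1, ts.2.1, add_zero])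
  obtain ⟨p₀, hp₀⟩ := exists_up hp.1.1
  obtain ⟨p₀', hp₀'⟩ := exists_up hp.2.1.1
  set T := LinearMap.ker (Phi G.toRGB [p₀, p₀']) with hT
  have hTd : 11 ≤ finrank F₀ T := by
    have := finrank_ker_ge (Phi G.toRGB [p₀, p₀'])
    rw [Module.finrank_fin_fun, ← hT] at this
    have h2 : [p₀, p₀'].length = 2 := rfl
    omega
  have hTp : ∀ w : T, Bf Q p (up (w : ι → F₀)) = 0 := by
    intro w
    have := (mem_ker_Phi G.toRGB _ _).1 w.2 p₀ (by simp)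
    rw [hp₀] at this
    exact G.swap0 this
  have hTp' : ∀ w : T, Bf Q p' (up (w : ι → F₀)) = 0 := by
    intro w
    have := (mem_ker_Phi G.toRGB _ _).1 w.2 p₀' (by simp)
    rw [hp₀'] at this
    exact G.swap0 this
  have : Fintype T := Fintype.ofFinite _
  have Qp : Q p = 0 := hp.1.2.2
  set S := Cfsg.Geo.subfieldSubgroup F₀ (1 : GL ι F) with hS
  have hcoe : ∀ k : ↥(Cfsg.isometryGroup F ⇑Q), ((k * i₀ * k⁻¹ : ↥(Cfsg.isometryGroup F ⇑Q)) : GL ι F) =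
      (k : GL ι F) * (i₀ : GL ι F) * (k : GL ι F)⁻¹ := by
    intro k
    simp only [Subgroup.coe_mul, Subgroup.coe_inv]
  have hmem : ∀ w : T, ((E Q p (up (w : ι → F₀)) * i₀ * (E Q p (up (w : ι → F₀)))⁻¹ :
      ↥(Cfsg.isometryGroup F ⇑Q)) : GL ι F) ∈ S ⊓ Cfsg.Geo.omegaGL ⇑Q := by
    intro w
    have hE : ((E Q p (up (w : ι → F₀)) : ↥(Cfsg.isometryGroup F ⇑Q)) : GL ι F) ∈ S :=
      mem_subfield_of_ratM (E_ratM D Qp (hTp w) hp.1.1 (rat_up _))
    have hEΩ := Cfsg.Agent.Lib.Helper49EichGen.E_mem_Omega Q D.nondeg (by omega) Qp (hTp w)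
    refine Subgroup.mem_inf.2 ⟨?_, ?_⟩
    · rw [hcoe]
      exact S.mul_mem (S.mul_mem hE (mem_subfield_of_ratM hirat)) (S.inv_mem hE)
    · exact (Cfsg.Agent.Lib.Helper49Bridge.coe_mem_omegaGL_iff Q _).2
        (Subgroup.mul_mem _ (Subgroup.mul_mem _ hEΩ hiΩ) (Subgroup.inv_mem _ hEΩ))
  refine le_subfield_of_family G K hn h0 D.ml r hr hcard
    (fun w : T => ((E Q p (up (w : ι → F₀)) * i₀ * (E Q p (up (w : ι → F₀)))⁻¹ :
      ↥(Cfsg.isometryGroup F ⇑Q)) : GL ι F)) ?_ (fun w => hHM (hmem w))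
    (fun w => (Subgroup.mem_inf.1 (hmem w)).1) ?_ ?_ ?_ ?_
  · -- injectivity
    intro w w' hww
    have e : E Q p (up (w : ι → F₀)) * i₀ * (E Q p (up (w : ι → F₀)))⁻¹ =
        E Q p (up (w' : ι → F₀)) * i₀ * (E Q p (up (w' : ι → F₀)))⁻¹ := Subtype.ext hww
    have hcomm : (E Q p (up (w' : ι → F₀)))⁻¹ * E Q p (up (w : ι → F₀)) * i₀ =
        i₀ * ((E Q p (up (w' : ι → F₀)))⁻¹ * E Q p (up (w : ι → F₀))) := by
      calc (E Q p (up (w' : ι → F₀)))⁻¹ * E Q p (up (w : ι → F₀)) * i₀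
          = (E Q p (up (w' : ι → F₀)))⁻¹ * (E Q p (up (w : ι → F₀)) * i₀ *
            (E Q p (up (w : ι → F₀)))⁻¹) * E Q p (up (w : ι → F₀)) := by group
        _ = (E Q p (up (w' : ι → F₀)))⁻¹ * (E Q p (up (w' : ι → F₀)) * i₀ *
            (E Q p (up (w' : ι → F₀)))⁻¹) * E Q p (up (w : ι → F₀)) := by rw [e]
        _ = i₀ * ((E Q p (up (w' : ι → F₀)))⁻¹ * E Q p (up (w : ι → F₀))) := by group
    have hn' : Bf Q p (-up (w' : ι → F₀)) = 0 := by rw [H.neg_right, hTp w', neg_zero]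
    rw [E_inv Q Qp (hTp w'), E_mul Q Qp hn' (hTp w)] at hcomm
    have hz := eq_zero_of_commute fr hi Qp hp.2.1.2.2 hp.2.2
      (by simp only [H.add_left, qp.1, qp.2.1, add_zero])
      (by simp only [H.add_left, sp.1, sp.2.1, add_zero])
      (by simp only [H.add_left, tp.1, tp.2.1, add_zero])
      (by simp only [H.add_left, qp'.1, qp'.2.1, add_zero])
      (by simp only [H.add_left, sp'.1, sp'.2.1, add_zero])
      (by simp only [H.add_left, tp'.1, tp'.2.1, add_zero])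
      (by rw [H.add_right, hn', hTp w, add_zero])
      (by rw [H.add_right, H.neg_right, hTp' w', hTp' w, neg_zero, add_zero]) hcomm
    apply Subtype.ext
    apply up_injective
    have : up (w : ι → F₀) = up (w' : ι → F₀) + (-up (w' : ι → F₀) + up (w : ι → F₀)) := by abel
    rw [this, hz, add_zero]
  · intro w
    have : (E Q p (up (w : ι → F₀)) * i₀ * (E Q p (up (w : ι → F₀)))⁻¹) *
        (E Q p (up (w : ι → F₀)) * i₀ * (E Q p (up (w : ι → F₀)))⁻¹) = 1 := by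
      calc (E Q p (up (w : ι → F₀)) * i₀ * (E Q p (up (w : ι → F₀)))⁻¹) *
          (E Q p (up (w : ι → F₀)) * i₀ * (E Q p (up (w : ι → F₀)))⁻¹)
          = E Q p (up (w : ι → F₀)) * (i₀ * i₀) * (E Q p (up (w : ι → F₀)))⁻¹ := by group
        _ = 1 := by rw [hii]; group
    exact congrArg Subtype.val this
  · intro w
    show 3 ≤ ((((E Q p (up (w : ι → F₀)) * i₀ * (E Q p (up (w : ι → F₀)))⁻¹ :
      ↥(Cfsg.isometryGroup F ⇑Q)) : GL ι F) : Matrix ι ι F) - 1).rank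
    rw [hcoe]
    have := rank_conj' ((E Q p (up (w : ι → F₀)) : ↥(Cfsg.isometryGroup F ⇑Q)) : GL ι F)
      (((E Q p (up (w : ι → F₀)) : ↥(Cfsg.isometryGroup F ⇑Q)) : GL ι F) * (i₀ : GL ι F) *
        ((E Q p (up (w : ι → F₀)) : ↥(Cfsg.isometryGroup F ⇑Q)) : GL ι F)⁻¹)
    have e1 : ((E Q p (up (w : ι → F₀)) : ↥(Cfsg.isometryGroup F ⇑Q)) : GL ι F)⁻¹ *
        (((E Q p (up (w : ι → F₀)) : ↥(Cfsg.isometryGroup F ⇑Q)) : GL ι F) * (i₀ : GL ι F) *
        ((E Q p (up (w : ι → F₀)) : ↥(Cfsg.isometryGroup F ⇑Q)) : GL ι F)⁻¹) *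
        ((E Q p (up (w : ι → F₀)) : ↥(Cfsg.isometryGroup F ⇑Q)) : GL ι F) = (i₀ : GL ι F) := by
      group
    rw [e1] at this
    exact hirk.1.trans this
  · intro w
    show ((((E Q p (up (w : ι → F₀)) * i₀ * (E Q p (up (w : ι → F₀)))⁻¹ :
      ↥(Cfsg.isometryGroup F ⇑Q)) : GL ι F) : Matrix ι ι F) - 1).rank ≤ 4
    rw [hcoe]
    exact (rank_conj_sub_one_le _ _).trans hirk.2
  · rw [← Nat.card_eq_fintype_card, Module.natCard_eq_pow_finrank (K := F₀) (V := T)]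
    have hq : 1 < Nat.card F₀ := by
      rw [Nat.card_eq_fintype_card]; exact Fintype.one_lt_card
    exact Nat.pow_lt_pow_right hq (by omega)

/-- maximality for the standard rational structure -/
theorem maximal_one [Fintype F] (D : OD F₀ Q) (hn : 13 ≤ Fintype.card ι) (r : ℕ) (hr : r.Prime)
    (hcard : Fintype.card F = Nat.card F₀ ^ r) :
    Cfsg.Geo.IsMaximalIn (Cfsg.Geo.omegaGL ⇑Q)
      (Cfsg.Geo.subfieldSubgroup F₀ (1 : GL ι F) ⊓ Cfsg.Geo.omegaGL ⇑Q) :=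
  maximal_of_le D hn r hr hcard (le_of_rational D hn r hr hcard)

end Cfsg.Agent.Lib.Helper99SubfieldO
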