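import Cfsg.Agent.Lib.Helper99SubfieldO

set_option autoImplicit false
set_option linter.unusedSectionVars false
set_option linter.unusedSimpArgs false
set_option linter.unusedVariables false

/-!
# Subfield subgroups of orthogonal groups: reduction to the standard rational structure
-/

namespace Cfsg.Agent.Lib.Helper99SubfieldORed

open Matrix Module Cfsg.Agent.Lib.Helper95Basic Cfsg.Agent.Lib.Helper99Subfield
  Cfsg.Agent.Lib.Helper99SubfieldO
open Cfsg.Agent.Lib.Helper49Orth (mem_iso)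

variable {ι : Type} [Fintype ι] [DecidableEq ι] {F : Type*} [Field F]
variable {F₀ : Subfield F}

/-- the transported quadratic form -/
def tq (Q : (ι → F) → F) (P : GL ι F) (ζ : F) : (ι → F) → F :=
  fun x => ζ * Q ((P : Matrix ι ι F) *ᵥ x)

lemma polar_tq (Q : (ι → F) → F) (P : GL ι F) (ζ : F) (x y : ι → F) :
    QuadraticMap.polar (tq Q P ζ) x y =
      ζ * QuadraticMap.polar Q ((P : Matrix ι ι F) *ᵥ x) ((P : Matrix ι ι F) *ᵥ y) := by
  unfold QuadraticMap.polar tq
  rw [mulVec_add]; ring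

lemma nondeg_tq {Q : (ι → F) → F} (hQ : Cfsg.Geo.IsNondegenerateQuadraticForm Q) (P : GL ι F)
    {ζ : F} (hζ : ζ ≠ 0) : Cfsg.Geo.IsNondegenerateQuadraticForm (tq Q P ζ) where
  smul c v := by
    unfold tq
    rw [mulVec_smul, hQ.smul]; ring
  polar_bilinear :=
    { add_left := fun x y v => by
        simp only [polar_tq, mulVec_add, hQ.polar_bilinear.add_left]; ring
      smul_left := fun c x v => by
        simp only [polar_tq, mulVec_smul, hQ.polar_bilinear.smul_left]; ring
      add_right := fun v x y => by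
        simp only [polar_tq, mulVec_add, hQ.polar_bilinear.add_right]; ring
      smul_right := fun c v x => by
        simp only [polar_tq, mulVec_smul, hQ.polar_bilinear.smul_right]; ring }
  nondegenerate := by
    intro v hv
    have hPv : (P : Matrix ι ι F) *ᵥ v ≠ 0 := by
      intro h0
      have := inv_mulVec_mulVec P v
      rw [h0, mulVec_zero] at this
      exact hv this.symm
    obtain ⟨⟨x, hx⟩, ⟨y, hy⟩⟩ := hQ.nondegenerate _ hPv
    refine ⟨⟨((P⁻¹ : GL ι F) : Matrix ι ι F) *ᵥ x, ?_⟩, ⟨((P⁻¹ : GL ι F) : Matrix ι ι F) *ᵥ y, ?_⟩⟩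
    · rw [polar_tq, mulVec_inv_mulVec]
      exact mul_ne_zero hζ hx
    · rw [polar_tq, mulVec_inv_mulVec]
      exact mul_ne_zero hζ hy

lemma iso_map_conj (Q : (ι → F) → F) (P : GL ι F) {ζ : F} (hζ : ζ ≠ 0) :
    (Cfsg.isometryGroup F (tq Q P ζ)).map (MulAut.conj P).toMonoidHom =
      Cfsg.isometryGroup F Q := by
  ext g
  simp only [Subgroup.mem_map, MulEquiv.coe_toMonoidHom, MulAut.conj_apply]
  constructor
  · rintro ⟨x, hx, rfl⟩
    rw [mem_iso] at hx ⊢
    intro v
    have := hx (((P⁻¹ : GL ι F) : Matrix ι ι F) *ᵥ v)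
    simp only [tq, mulVec_inv_mulVec] at this
    rw [mul_mulVec, mul_mulVec]
    exact mul_left_cancel₀ hζ this
  · intro hg
    rw [mem_iso] at hg
    refine ⟨P⁻¹ * g * P, ?_, by group⟩
    rw [mem_iso]
    intro v
    simp only [tq, mul_mulVec, mulVec_inv_mulVec]
    rw [hg]

lemma omegaGL_eq (Q : (ι → F) → F) :
    Cfsg.Geo.omegaGL Q = ⁅Cfsg.isometryGroup F Q, Cfsg.isometryGroup F Q⁆ :=
  Subgroup.map_subtype_commutator _

lemma omegaGL_map_conj (Q : (ι → F) → F) (P : GL ι F) {ζ : F} (hζ : ζ ≠ 0) :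
    (Cfsg.Geo.omegaGL (tq Q P ζ)).map (MulAut.conj P).toMonoidHom = Cfsg.Geo.omegaGL Q := by
  rw [omegaGL_eq, Subgroup.map_commutator, iso_map_conj Q P hζ, omegaGL_eq]

/-- **Subfield subgroups of orthogonal groups are maximal.** -/
theorem orthogonal_subfield_maximal [Fintype F] (hn : 13 ≤ Fintype.card ι) (Q : (ι → F) → F)
    (hQ : Cfsg.Geo.IsNondegenerateQuadraticForm Q) (F₀ : Subfield F) (r : ℕ) (hr : r.Prime)
    (hcard : Fintype.card F = Nat.card F₀ ^ r) (P : GL ι F) (ζ : F) (hζ : ζ ≠ 0)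
    (hP : Cfsg.Geo.IsQuadFormRationalStructure (fun v : ι → F => ζ * Q v) F₀ P) :
    Cfsg.Geo.IsMaximalIn (Cfsg.Geo.omegaGL Q)
      (Cfsg.Geo.subfieldSubgroup F₀ P ⊓ Cfsg.Geo.omegaGL Q) := by
  have hQ' := nondeg_tq hQ P hζ
  have D : OD F₀ (Cfsg.Agent.Lib.Helper49Bridge.toQF hQ') :=
    ⟨Cfsg.Agent.Lib.Helper49Bridge.toQF_nondegenerate hQ', fun x hx => hP x hx⟩
  have h := maximal_one D hn r hr hcard
  rw [Cfsg.Agent.Lib.Helper49Bridge.coe_toQF] at h
  have := isMaximalIn_map (MulAut.conj P) _ _ h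
  rw [omegaGL_map_conj Q P hζ, Subgroup.map_inf_eq _ _ _ (MulAut.conj P).injective,
    omegaGL_map_conj Q P hζ, ← subfieldSubgroup_eq_map] at this
  exact this

section odd

variable {m : ℕ}

lemma polar_odd (u v : Unit ⊕ (Fin m ⊕ Fin m) → F) :
    QuadraticMap.polar (Cfsg.quadFormOdd m F) u v = 2 * u (.inl ()) * v (.inl ()) +
      ∑ i : Fin m, (u (.inr (.inl i)) * v (.inr (.inr i)) + u (.inr (.inr i)) * v (.inr (.inl i))) := by
  unfold QuadraticMap.polar Cfsg.quadFormOdd
  simp only [Pi.add_apply]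
  have h : ∀ i : Fin m, (u (.inr (.inl i)) + v (.inr (.inl i))) * (u (.inr (.inr i)) + v (.inr (.inr i))) =
      u (.inr (.inl i)) * u (.inr (.inr i)) + v (.inr (.inl i)) * v (.inr (.inr i)) +
      (u (.inr (.inl i)) * v (.inr (.inr i)) + u (.inr (.inr i)) * v (.inr (.inl i))) := by
    intro i; ring
  simp only [h, Finset.sum_add_distrib]
  ring

lemma nondeg_odd (h2 : (2 : F) ≠ 0) :
    Cfsg.Geo.IsNondegenerateQuadraticForm (Cfsg.quadFormOdd m F) where
  smul c v := by
    unfold Cfsg.quadFormOdd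
    simp only [Pi.smul_apply, smul_eq_mul, mul_add, Finset.mul_sum]
    congr 1
    · ring
    · exact Finset.sum_congr rfl (fun i _ => by ring)
  polar_bilinear :=
    { add_left := fun x y v => by
        simp only [polar_odd, Pi.add_apply, add_mul, mul_add, Finset.sum_add_distrib]
        ring
      smul_left := fun c x v => by
        simp only [polar_odd, Pi.smul_apply, smul_eq_mul, mul_add, Finset.mul_sum]
        congr 1
        · ring
        · exact Finset.sum_congr rfl (fun i _ => by ring)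
      add_right := fun v x y => by
        simp only [polar_odd, Pi.add_apply, add_mul, mul_add, Finset.sum_add_distrib]
        ring
      smul_right := fun c v x => by
        simp only [polar_odd, Pi.smul_apply, smul_eq_mul, mul_add, Finset.mul_sum]
        congr 1
        · ring
        · exact Finset.sum_congr rfl (fun i _ => by ring) }
  nondegenerate := by
    have key : ∀ v : Unit ⊕ (Fin m ⊕ Fin m) → F, v ≠ 0 →
        ∃ x, QuadraticMap.polar (Cfsg.quadFormOdd m F) x v ≠ 0 := by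
      intro v hv
      obtain ⟨k, hk⟩ := Function.ne_iff.mp hv
      rcases k with k | k | k
      · refine ⟨Pi.single (.inl ()) 1, ?_⟩
        rw [polar_odd]
        simpa using ⟨h2, hk⟩
      · refine ⟨Pi.single (.inr (.inr k)) 1, ?_⟩
        rw [polar_odd]
        simpa [Pi.single_apply] using hk
      · refine ⟨Pi.single (.inr (.inl k)) 1, ?_⟩
        rw [polar_odd]
        simpa [Pi.single_apply] using hk
    intro v hv
    obtain ⟨x, hx⟩ := key v hv
    exact ⟨⟨x, hx⟩, ⟨x, by rwa [QuadraticMap.polar_comm]⟩⟩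

/-- the odd-dimensional case -/
theorem orthogonal_odd_subfield_maximal [Fintype F] (hodd : Odd (Fintype.card F)) (m : ℕ)
    (hm : 6 ≤ m) (F₀ : Subfield F) (r : ℕ) (hr : r.Prime)
    (hcard : Fintype.card F = Nat.card F₀ ^ r) (P : GL (Unit ⊕ (Fin m ⊕ Fin m)) F)
    (hP : Cfsg.Geo.IsQuadFormRationalStructure (Cfsg.quadFormOdd m F) F₀ P) :
    Cfsg.Geo.IsMaximalIn (Cfsg.Geo.omegaGL (Cfsg.quadFormOdd m F))
      (Cfsg.Geo.subfieldSubgroup F₀ P ⊓ Cfsg.Geo.omegaGL (Cfsg.quadFormOdd m F)) := by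
  have h2 : (2 : F) ≠ 0 := by
    intro h0
    have hc : ringChar F = 2 := CharP.ringChar_of_prime_eq_zero Nat.prime_two (by exact_mod_cast h0)
    have := FiniteField.even_card_iff_char_two.1 hc
    rw [Nat.odd_iff] at hodd
    omega
  refine orthogonal_subfield_maximal (by simp; omega) _ (nondeg_odd h2) F₀ r hr hcard P 1
    one_ne_zero ?_
  intro u hu
  show 1 * Cfsg.quadFormOdd m F ((P : Matrix _ _ F) *ᵥ u) ∈ F₀
  rw [one_mul]
  exact hP u hu

end odd

end Cfsg.Agent.Lib.Helper99SubfieldORed
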