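import Cfsg.Agent.Lib.Helper99SubfieldGen
import Cfsg.Agent.Lib.Helper95SpStd

set_option autoImplicit false
set_option linter.unusedSectionVars false
set_option linter.unusedSimpArgs false

namespace Cfsg.Agent.Lib.Helper99SubfieldSp

open Matrix Cfsg.Agent.Lib.Helper95Basic Cfsg.Agent.Lib.Helper95Sp Cfsg.Agent.Lib.Helper95SpStd
  Cfsg.Agent.Lib.Helper99Subfield Cfsg.Agent.Lib.Helper99SubfieldSL Cfsg.Agent.Lib.Helper99SubfieldGen

variable {F : Type*} [Field F] {m : ℕ}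

local notation "⟪" x ", " y "⟫" => stdB F m x y

lemma B_self (x : Fin m ⊕ Fin m → F) : ⟪x, x⟫ = 0 := stdB_isAlt m x

lemma B_swap (x y : Fin m ⊕ Fin m → F) : ⟪x, y⟫ = - ⟪y, x⟫ :=
  Cfsg.Agent.Lib.Helper95Cen.alt_swap (stdB_isAlt m) x y

lemma B_zero_swap {x y : Fin m ⊕ Fin m → F} (h : ⟪x, y⟫ = 0) : ⟪y, x⟫ = 0 := by
  rw [B_swap, h, neg_zero]

/-- symplectic transvection as an element of `GL` -/
noncomputable def tv (v : Fin m ⊕ Fin m → F) (c : F) : GL (Fin m ⊕ Fin m) F :=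
  mkGL (stv (stdB F m) (stdB_isAlt m) v c)

lemma tv_mulVec (v : Fin m ⊕ Fin m → F) (c : F) (x : Fin m ⊕ Fin m → F) :
    ((tv v c : GL (Fin m ⊕ Fin m) F) : Matrix _ _ F) *ᵥ x = x + (c * ⟪x, v⟫) • v := by
  simp [tv]

lemma tv_mem_sp (v : Fin m ⊕ Fin m → F) (c : F) : tv v c ∈ Cfsg.spGL m F :=
  (mkGL_mem_spGL_iff m _).2 (stv_isometry _ _ _)

/-- the element `x ↦ x + ⟪x,b⟫ w + ⟪x,w⟫ b + c ⟪x,b⟫ b` of the unipotent radical of the stabiliser
of `b` (for `w ⊥ b`). -/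
noncomputable def q (b w : Fin m ⊕ Fin m → F) (c : F) : GL (Fin m ⊕ Fin m) F :=
  tv (b + w) 1 * tv w (-1) * tv b (c - 1)

lemma q_mem_sp (b w : Fin m ⊕ Fin m → F) (c : F) : q b w c ∈ Cfsg.spGL m F :=
  (Cfsg.spGL m F).mul_mem ((Cfsg.spGL m F).mul_mem (tv_mem_sp _ _) (tv_mem_sp _ _)) (tv_mem_sp _ _)

lemma q_mulVec {b w : Fin m ⊕ Fin m → F} (h : ⟪w, b⟫ = 0) (c : F) (x : Fin m ⊕ Fin m → F) :
    ((q b w c : GL (Fin m ⊕ Fin m) F) : Matrix _ _ F) *ᵥ x =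
      x + ⟪x, b⟫ • w + ⟪x, w⟫ • b + (c * ⟪x, b⟫) • b := by
  have h' := B_zero_swap h
  simp only [q, mul_mulVec, tv_mulVec, map_add, map_smul, LinearMap.add_apply, LinearMap.smul_apply,
    smul_eq_mul, B_self, h, h', mul_zero, add_zero, zero_add]
  module

/-- `q b w c ∈ M` -/
def QM (M : Subgroup (GL (Fin m ⊕ Fin m) F)) (b w : Fin m ⊕ Fin m → F) (c : F) : Prop :=
  ⟪w, b⟫ = 0 ∧ q b w c ∈ M

variable {M : Subgroup (GL (Fin m ⊕ Fin m) F)}

lemma QM.mul {b w₁ w₂ : Fin m ⊕ Fin m → F} {c₁ c₂ : F} (h₁ : QM M b w₁ c₁) (h₂ : QM M b w₂ c₂) :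
    QM M b (w₁ + w₂) (c₁ + c₂ + ⟪w₂, w₁⟫) := by
  obtain ⟨a₁, m₁⟩ := h₁
  obtain ⟨a₂, m₂⟩ := h₂
  have a₃ : ⟪w₁ + w₂, b⟫ = 0 := by simp [a₁, a₂]
  refine ⟨a₃, ?_⟩
  have : q b (w₁ + w₂) (c₁ + c₂ + ⟪w₂, w₁⟫) = q b w₁ c₁ * q b w₂ c₂ := by
    apply gl_ext
    intro x
    rw [mul_mulVec, q_mulVec a₃, q_mulVec a₂, q_mulVec a₁]
    simp only [map_add, map_smul, LinearMap.add_apply, LinearMap.smul_apply, smul_eq_mul, B_self,
      a₁, a₂, B_zero_swap a₁, B_zero_swap a₂, mul_zero, add_zero, zero_add]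
    module
  rw [this]
  exact M.mul_mem m₁ m₂

lemma QM.inv {b w : Fin m ⊕ Fin m → F} {c : F} (h : QM M b w c) : QM M b (-w) (-c) := by
  obtain ⟨a₁, m₁⟩ := h
  have a₃ : ⟪-w, b⟫ = 0 := by simp [a₁]
  refine ⟨a₃, ?_⟩
  have : q b (-w) (-c) = (q b w c)⁻¹ := by
    rw [eq_inv_iff_mul_eq_one]
    apply gl_ext
    intro x
    rw [mul_mulVec, q_mulVec a₁, q_mulVec a₃]
    simp only [map_add, map_smul, map_neg, LinearMap.add_apply, LinearMap.smul_apply,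
      LinearMap.neg_apply, smul_eq_mul, B_self,
      a₁, B_zero_swap a₁, mul_zero, add_zero, zero_add, Units.val_one, one_mulVec, neg_zero]
    module
  rw [this]
  exact M.inv_mem m₁

lemma sp_apply {g : GL (Fin m ⊕ Fin m) F} (hg : g ∈ Cfsg.spGL m F) (x y : Fin m ⊕ Fin m → F) :
    ⟪(g : Matrix _ _ F) *ᵥ x, (g : Matrix _ _ F) *ᵥ y⟫ = ⟪x, y⟫ := hg x y

lemma sp_apply_inv {g : GL (Fin m ⊕ Fin m) F} (hg : g ∈ Cfsg.spGL m F) (x y : Fin m ⊕ Fin m → F) :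
    ⟪((g⁻¹ : GL _ F) : Matrix _ _ F) *ᵥ x, y⟫ = ⟪x, (g : Matrix _ _ F) *ᵥ y⟫ := by
  rw [← sp_apply hg, mulVec_inv_mulVec]

lemma QM.conj {b w : Fin m ⊕ Fin m → F} {c : F} (h : QM M b w c) {g : GL (Fin m ⊕ Fin m) F}
    (hg : g ∈ M) (hgs : g ∈ Cfsg.spGL m F) :
    QM M ((g : Matrix _ _ F) *ᵥ b) ((g : Matrix _ _ F) *ᵥ w) c := by
  obtain ⟨a₁, m₁⟩ := h
  have a₃ : ⟪(g : Matrix _ _ F) *ᵥ w, (g : Matrix _ _ F) *ᵥ b⟫ = 0 := by rw [sp_apply hgs, a₁]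
  refine ⟨a₃, ?_⟩
  have : q ((g : Matrix _ _ F) *ᵥ b) ((g : Matrix _ _ F) *ᵥ w) c = g * q b w c * g⁻¹ := by
    apply gl_ext
    intro x
    rw [mul_mulVec, mul_mulVec, q_mulVec a₁, q_mulVec a₃]
    simp only [mulVec_add, mulVec_smul, mulVec_inv_mulVec, sp_apply_inv hgs]
  rw [this]
  exact M.mul_mem (M.mul_mem hg m₁) (M.inv_mem hg)

lemma QM.swap {a b : Fin m ⊕ Fin m → F} {ν : F} (h : QM M b (ν • a) 0) : QM M a (ν • b) 0 := by
  obtain ⟨a₁, m₁⟩ := h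
  have a₃ : ⟪ν • b, a⟫ = 0 := by
    have := B_zero_swap a₁
    simpa [mul_comm] using this
  refine ⟨a₃, ?_⟩
  have : q a (ν • b) 0 = q b (ν • a) 0 := by
    apply gl_ext
    intro x
    rw [q_mulVec a₁, q_mulVec a₃]
    simp only [map_smul, smul_eq_mul]
    module
  rw [this]
  exact m₁

lemma QM.scale {b w : Fin m ⊕ Fin m → F} {c l : F} (h : QM M (l • b) w c) :
    QM M b (l • w) (l * l * c) := by
  obtain ⟨a₁, m₁⟩ := h
  have a₃ : ⟪l • w, b⟫ = 0 := by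
    simpa using a₁
  refine ⟨a₃, ?_⟩
  have : q b (l • w) (l * l * c) = q (l • b) w c := by
    apply gl_ext
    intro x
    rw [q_mulVec a₁, q_mulVec a₃]
    simp only [map_smul, smul_eq_mul]
    module
  rw [this]
  exact m₁

/-- splitting a transvection with centre `a + b`, `a ⊥ b` -/
lemma QM.split {a b : Fin m ⊕ Fin m → F} {c : F} (hab : ⟪a, b⟫ = 0) (h : QM M (a + b) 0 c)
    (h' : QM M a 0 c) : QM M b (c • a) c := by
  obtain ⟨a₁, m₁⟩ := h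
  obtain ⟨a₂, m₂⟩ := h'
  have a₃ : ⟪c • a, b⟫ = 0 := by simp [hab]
  refine ⟨a₃, ?_⟩
  have : q b (c • a) c = (q a 0 c)⁻¹ * q (a + b) 0 c := by
    rw [eq_inv_mul_iff_mul_eq]
    apply gl_ext
    intro x
    rw [mul_mulVec, q_mulVec a₁, q_mulVec a₃, q_mulVec a₂]
    simp only [map_add, map_smul, LinearMap.add_apply, LinearMap.smul_apply, smul_eq_mul, B_self,
      hab, B_zero_swap hab, mul_zero, add_zero, zero_add, map_zero, smul_zero, zero_smul]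
    module
  rw [this]
  exact M.mul_mem (M.inv_mem m₂) m₁

lemma QM.congr {b w w' : Fin m ⊕ Fin m → F} {c c' : F} (h : QM M b w c) (hw : w = w') (hc : c = c') :
    QM M b w' c' := by subst hw; subst hc; exact h

/-! ### the standard basis -/

/-- the partner index -/
def sw (i : Fin m ⊕ Fin m) : Fin m ⊕ Fin m := i.swap

/-- the sign `⟪e i, e (sw i)⟫` -/
def ε (F : Type*) [Field F] {m : ℕ} (i : Fin m ⊕ Fin m) : F := Sum.elim (fun _ => -1) (fun _ => 1) i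

@[simp] lemma sw_sw (i : Fin m ⊕ Fin m) : sw (sw i) = i := Sum.swap_swap i

lemma sw_ne (i : Fin m ⊕ Fin m) : sw i ≠ i := by
  rcases i with i | i <;> simp [sw]

lemma sw_inj {i j : Fin m ⊕ Fin m} (h : sw i = sw j) : i = j := by
  rw [← sw_sw i, h, sw_sw]

lemma ε_mul_self (i : Fin m ⊕ Fin m) : ε F i * ε F i = 1 := by
  rcases i with i | i <;> simp [ε]

lemma ε_ne_zero (i : Fin m ⊕ Fin m) : ε F i ≠ 0 := by
  rcases i with i | i <;> simp [ε]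

lemma ε_mem (F₀ : Subfield F) (i : Fin m ⊕ Fin m) : ε F i ∈ F₀ := by
  rcases i with i | i
  · exact F₀.neg_mem F₀.one_mem
  · exact F₀.one_mem

lemma B_e_right (x : Fin m ⊕ Fin m → F) (j : Fin m ⊕ Fin m) :
    ⟪x, e j⟫ = ε F (sw j) * x (sw j) := by
  rw [stdB_apply, sympForm_eq]
  rcases j with k | k
  · simp [sw, ε, Pi.single_apply]
  · simp [sw, ε, Pi.single_apply]

lemma Bee (i : Fin m ⊕ Fin m) : ⟪(e i : Fin m ⊕ Fin m → F), e (sw i)⟫ = ε F i := by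
  rw [B_e_right, sw_sw]; simp

lemma Bee_ne {i j : Fin m ⊕ Fin m} (h : j ≠ sw i) : ⟪(e i : Fin m ⊕ Fin m → F), e j⟫ = 0 := by
  rw [B_e_right]
  have : sw j ≠ i := fun h' => h (by rw [← h', sw_sw])
  simp [this]

lemma exists_avoid {κ : Type*} [Fintype κ] [DecidableEq κ] (s : Finset κ)
    (h : s.card < Fintype.card κ) : ∃ k, k ∉ s := by
  obtain ⟨k, -, hk⟩ := Finset.exists_mem_notMem_of_card_lt_card (s := s) (t := Finset.univ)
    (by rwa [Finset.card_univ])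
  exact ⟨k, hk⟩

lemma exists_ne₄ (hm : 3 ≤ m) (a b c d : Fin m ⊕ Fin m) : ∃ k, k ≠ a ∧ k ≠ b ∧ k ≠ c ∧ k ≠ d := by
  obtain ⟨k, hk⟩ := exists_avoid ({a, b, c, d} : Finset (Fin m ⊕ Fin m)) (by
    have : ({a, b, c, d} : Finset (Fin m ⊕ Fin m)).card ≤ 4 := Finset.card_le_four
    simp only [Fintype.card_sum, Fintype.card_fin]
    omega)
  simp only [Finset.mem_insert, Finset.mem_singleton, not_or] at hk
  exact ⟨k, hk.1, hk.2.1, hk.2.2.1, hk.2.2.2⟩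

/-! ### rational elements -/

variable {F₀ : Subfield F}

lemma B_rat {x y : Fin m ⊕ Fin m → F} (hx : IsRat F₀ x) (hy : IsRat F₀ y) : ⟪x, y⟫ ∈ F₀ := by
  rw [stdB_apply, sympForm_eq]
  exact F₀.sum_mem fun i _ => F₀.sub_mem (F₀.mul_mem (hx _) (hy _)) (F₀.mul_mem (hx _) (hy _))

/-- the rational symplectic group -/
def Sp0 (F₀ : Subfield F) (m : ℕ) : Subgroup (GL (Fin m ⊕ Fin m) F) :=
  (Matrix.GeneralLinearGroup.map (n := Fin m ⊕ Fin m) (F₀.subtype : F₀ →+* F)).range ⊓ Cfsg.spGL m F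

/-- the subfield subgroup of `Sp` -/
abbrev Hsp (F₀ : Subfield F) (m : ℕ) : Subgroup (GL (Fin m ⊕ Fin m) F) :=
  Cfsg.Geo.subfieldSubgroup F₀ (1 : GL (Fin m ⊕ Fin m) F) ⊓ Cfsg.spGL m F

lemma Sp0_le : Sp0 F₀ m ≤ Hsp F₀ m := by
  intro g hg
  refine Subgroup.mem_inf.2 ⟨?_, hg.2⟩
  rw [mem_subfieldSubgroup_one_iff]
  refine ⟨1, one_ne_zero, ?_⟩
  rw [one_smul]
  exact (mem_range_map_iff g).1 hg.1

lemma Sp0.ratM {g : GL (Fin m ⊕ Fin m) F} (hg : g ∈ Sp0 F₀ m) :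
    IsRatM F₀ (g : Matrix (Fin m ⊕ Fin m) (Fin m ⊕ Fin m) F) :=
  (mem_range_map_iff g).1 hg.1

lemma Sp0.ratM_inv {g : GL (Fin m ⊕ Fin m) F} (hg : g ∈ Sp0 F₀ m) :
    IsRatM F₀ ((g⁻¹ : GL _ F) : Matrix (Fin m ⊕ Fin m) (Fin m ⊕ Fin m) F) :=
  Sp0.ratM ((Sp0 F₀ m).inv_mem hg)

lemma tv_mem_Sp0 {v : Fin m ⊕ Fin m → F} {c : F} (hv : IsRat F₀ v) (hc : c ∈ F₀) :
    tv v c ∈ Sp0 F₀ m := by
  refine Subgroup.mem_inf.2 ⟨?_, tv_mem_sp v c⟩
  rw [mem_range_map_iff]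
  intro i j
  have : ((tv v c : GL _ F) : Matrix _ _ F) i j = (((tv v c : GL _ F) : Matrix _ _ F) *ᵥ e j) i := by
    rw [mulVec_single_one]; rfl
  rw [this, tv_mulVec]
  exact ((rat_e j).add (IsRat.smul (F₀.mul_mem hc (B_rat (rat_e j) hv)) hv)) i

lemma q_mem_Sp0 {b w : Fin m ⊕ Fin m → F} {c : F} (hb : IsRat F₀ b) (hw : IsRat F₀ w) (hc : c ∈ F₀) :
    q b w c ∈ Sp0 F₀ m :=
  (Sp0 F₀ m).mul_mem ((Sp0 F₀ m).mul_mem (tv_mem_Sp0 (hb.add hw) F₀.one_mem)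
    (tv_mem_Sp0 hw (F₀.neg_mem F₀.one_mem))) (tv_mem_Sp0 hb (F₀.sub_mem hc F₀.one_mem))

lemma QM_rat (hHM : Hsp F₀ m ≤ M) {b w : Fin m ⊕ Fin m → F} {c : F} (hb : IsRat F₀ b)
    (hw : IsRat F₀ w) (hc : c ∈ F₀) (h : ⟪w, b⟫ = 0) : QM M b w c :=
  ⟨h, hHM (Sp0_le (q_mem_Sp0 hb hw hc))⟩

/-! ### shifts -/

/-- the root element mapping `e j ↦ e j + β e k` -/
noncomputable def sh (j k : Fin m ⊕ Fin m) (β : F) : GL (Fin m ⊕ Fin m) F :=
  q (e (sw j)) ((ε F j * β) • e k) 0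

lemma sh_perp {j k : Fin m ⊕ Fin m} (hkj : k ≠ j) (β : F) :
    ⟪(ε F j * β) • (e k : Fin m ⊕ Fin m → F), e (sw j)⟫ = 0 := by
  rw [map_smul, LinearMap.smul_apply, Bee_ne (fun h => hkj (sw_inj h).symm), smul_zero]

lemma sh_self {j k : Fin m ⊕ Fin m} (hkj : k ≠ j) (hkj' : k ≠ sw j) (β : F) :
    ((sh j k β : GL _ F) : Matrix _ _ F) *ᵥ e j = e j + β • e k := by
  rw [sh, q_mulVec (sh_perp hkj β), Bee, map_smul, Bee_ne hkj', smul_smul, ← mul_assoc, ε_mul_self]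
  simp

lemma sh_other {i j k : Fin m ⊕ Fin m} (hkj : k ≠ j) (hij : i ≠ j) (hki : k ≠ sw i) (β : F) :
    ((sh j k β : GL _ F) : Matrix _ _ F) *ᵥ e i = e i := by
  rw [sh, q_mulVec (sh_perp hkj β), Bee_ne (fun h => hij (sw_inj h).symm), map_smul, Bee_ne hki]
  simp

lemma sh_mem_sp (j k : Fin m ⊕ Fin m) (β : F) : sh j k β ∈ Cfsg.spGL m F := q_mem_sp _ _ _

lemma sh_mem_rat (hHM : Hsp F₀ m ≤ M) (j k : Fin m ⊕ Fin m) {β : F} (hβ : β ∈ F₀) : sh j k β ∈ M :=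
  hHM (Sp0_le (q_mem_Sp0 (rat_e _) (IsRat.smul (F₀.mul_mem (ε_mem F₀ j) hβ) (rat_e _)) F₀.zero_mem))

/-- difference of a conjugate -/
lemma QM.diff {b w : Fin m ⊕ Fin m → F} {c : F} (h : QM M b w c) {g : GL (Fin m ⊕ Fin m) F}
    (hg : g ∈ M) (hgs : g ∈ Cfsg.spGL m F) (hgb : (g : Matrix _ _ F) *ᵥ b = b) :
    QM M b ((g : Matrix _ _ F) *ᵥ w - w) ⟪(g : Matrix _ _ F) *ᵥ w, w⟫ := by
  have h1 := h.conj hg hgs
  rw [hgb] at h1
  refine (h1.mul h.inv).congr (by abel) ?_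
  rw [map_neg, LinearMap.neg_apply, B_swap w]
  ring

/-! ### the parameter sets -/

/-- short root parameters -/
def Sset (M : Subgroup (GL (Fin m ⊕ Fin m) F)) : Set F :=
  {ν | ∀ i j, j ≠ i → j ≠ sw i → QM M (e i) (ν • e j) 0}

/-- long root parameters -/
def Lset (M : Subgroup (GL (Fin m ⊕ Fin m) F)) : Set F := {c | ∀ i, QM M (e i) 0 c}

section param

variable (hHM : Hsp F₀ m ≤ M) (hMS : M ≤ Cfsg.spGL m F) (hm : 3 ≤ m)
include hHM hMS hm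

lemma S_move {ν : F} {i j k : Fin m ⊕ Fin m} (h : QM M (e i) (ν • e j) 0) (hji : j ≠ i)
    (hki' : k ≠ sw i) (hkj : k ≠ j) (hkj' : k ≠ sw j) : QM M (e i) (ν • e k) 0 := by
  have h1 := h.diff (sh_mem_rat hHM j k F₀.one_mem) (sh_mem_sp _ _ _)
    (sh_other hkj hji.symm hki' 1)
  rw [mulVec_smul, sh_self hkj hkj'] at h1
  refine h1.congr (by rw [one_smul, smul_add]; abel) ?_
  have : ⟪(e k : Fin m ⊕ Fin m → F), e j⟫ = 0 := Bee_ne (fun h => hkj' (by rw [h, sw_sw]))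
  simp [-stdB_apply, B_self, this]

lemma S_any {ν : F} {i j l : Fin m ⊕ Fin m} (h : QM M (e i) (ν • e j) 0) (hji : j ≠ i)
    (_hli : l ≠ i) (hli' : l ≠ sw i) : QM M (e i) (ν • e l) 0 := by
  by_cases hlj : l = j
  · subst hlj; exact h
  by_cases hlj' : l = sw j
  · obtain ⟨n, hn1, hn2, hn3, hn4⟩ := exists_ne₄ hm i (sw i) j (sw j)
    have h1 := S_move hHM hMS hm h hji hn2 hn3 hn4
    refine S_move hHM hMS hm h1 hn1 hli' ?_ ?_
    · rw [hlj']; exact hn4.symm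
    · rw [hlj']; exact fun h => hn3 (sw_inj h).symm
  · exact S_move hHM hMS hm h hji hli' hlj hlj'

lemma mem_Sset {ν : F} {i j : Fin m ⊕ Fin m} (h : QM M (e i) (ν • e j) 0) (hji : j ≠ i)
    (hji' : j ≠ sw i) : ν ∈ Sset M := by
  intro k l hlk hlk'
  by_cases hki : k = i
  · subst hki
    exact S_any hHM hMS hm h hji hlk hlk'
  by_cases hki' : k = sw i
  · obtain ⟨n, hn1, hn2, -, -⟩ := exists_ne₄ hm i (sw i) i i
    have h1 := (S_any hHM hMS hm h hji hn1 hn2).swap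
    have hin : i ≠ n := hn1.symm
    have h2 := (S_any hHM hMS hm h1 hin (l := sw i) hn2.symm
      (fun h => hn1 (sw_inj h).symm)).swap
    rw [← hki'] at h2
    exact S_any hHM hMS hm h2 (by rw [hki']; exact hn2) hlk hlk'
  · have h1 := (S_any hHM hMS hm h hji hki hki').swap
    exact S_any hHM hMS hm h1 (Ne.symm hki) hlk hlk'

lemma Sset_neg {ν : F} (h : ν ∈ Sset M) : -ν ∈ Sset M := by
  intro i j h1 h2
  exact (h i j h1 h2).inv.congr (by simp) (by simp)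

lemma Sset_eps {ν : F} (h : ν ∈ Sset M) (a : Fin m ⊕ Fin m) : ε F a * ν ∈ Sset M := by
  rcases a with a | a
  · simpa [ε] using Sset_neg hHM hMS hm h
  · simpa [ε] using h

lemma sh_mem_of_S {ν : F} (h : ν ∈ Sset M) {a b : Fin m ⊕ Fin m} (hba : b ≠ a) (hba' : b ≠ sw a) :
    sh a b ν ∈ M :=
  (Sset_eps hHM hMS hm h a (sw a) b hba' (by rwa [sw_sw])).2

/-- the short root parameters form a subalgebra -/
def Salg : Subalgebra F₀ F where
  carrier := Sset M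
  mul_mem' := by
    intro ν' ν hν' hν
    obtain ⟨a⟩ : Nonempty (Fin m ⊕ Fin m) := ⟨Sum.inl ⟨0, by omega⟩⟩
    obtain ⟨b, hb1, hb2, -, -⟩ := exists_ne₄ hm a (sw a) a a
    obtain ⟨k, hk1, hk2, hk3, hk4⟩ := exists_ne₄ hm a (sw a) b (sw b)
    have h0 : QM M (e k) (ν' • e a) 0 := hν' k a hk1.symm (fun h => hk2 (by rw [h, sw_sw]))
    have h1 := h0.diff (sh_mem_of_S hHM hMS hm hν hb1 hb2) (sh_mem_sp _ _ _)
      (sh_other hb1 hk1 (fun h => hk4 (by rw [h, sw_sw])) ν)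
    rw [mulVec_smul, sh_self hb1 hb2] at h1
    have h2 : QM M (e k) ((ν' * ν) • e b) 0 := by
      refine h1.congr (by rw [smul_add, smul_smul]; abel) ?_
      have : ⟪(e b : Fin m ⊕ Fin m → F), e a⟫ = 0 := Bee_ne (fun h => hb2 (by rw [h, sw_sw]))
      simp [-stdB_apply, B_self, this]
    exact mem_Sset hHM hMS hm h2 hk3.symm (fun h => hk4 (by rw [h, sw_sw]))
  add_mem' := by
    intro ν ν' hν hν' i j h1 h2
    refine ((hν i j h1 h2).mul (hν' i j h1 h2)).congr (by rw [add_smul]) ?_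
    simp [-stdB_apply, B_self]
  algebraMap_mem' := by
    intro t i j h1 h2
    refine QM_rat hHM (rat_e i) (IsRat.smul t.2 (rat_e j)) F₀.zero_mem ?_
    rw [map_smul, LinearMap.smul_apply, Bee_ne (fun h => h2 (by rw [h, sw_sw])), smul_zero]

lemma L_step {c : F} {i j : Fin m ⊕ Fin m} (h : QM M (e j) 0 c) (hij : i ≠ j) (hij' : i ≠ sw j) :
    c ∈ Sset M ∧ QM M (e i) 0 c := by
  have hji0 : ⟪(e j : Fin m ⊕ Fin m → F), e i⟫ = 0 := Bee_ne hij'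
  have h1 := h.conj (sh_mem_rat hHM j i F₀.one_mem) (sh_mem_sp _ _ _)
  rw [sh_self hij hij', mulVec_zero, one_smul] at h1
  have h2 : QM M (e i) (c • e j) c := QM.split hji0 h1 h
  obtain ⟨k, hk1, hk2, hk3, hk4⟩ := exists_ne₄ hm i (sw i) j (sw j)
  have h3 := h2.diff (sh_mem_rat hHM j k F₀.one_mem) (sh_mem_sp _ _ _) (sh_other hk3 hij hk2 1)
  rw [mulVec_smul, sh_self hk3 hk4] at h3
  have h4 : QM M (e i) (c • e k) 0 := by
    refine h3.congr (by rw [one_smul, smul_add]; abel) ?_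
    have : ⟪(e k : Fin m ⊕ Fin m → F), e j⟫ = 0 := Bee_ne (fun h => hk4 (by rw [h, sw_sw]))
    simp [-stdB_apply, B_self, this]
  have h5 : c ∈ Sset M := mem_Sset hHM hMS hm h4 hk1 hk2
  refine ⟨h5, ?_⟩
  have h6 := h5 i j hij.symm (fun h => hij' (by rw [h, sw_sw]))
  refine (h2.mul h6.inv).congr (by abel) ?_
  simp [-stdB_apply, B_self]

lemma mem_Lset {c : F} {j : Fin m ⊕ Fin m} (h : QM M (e j) 0 c) : c ∈ Lset M := by
  intro i
  by_cases h1 : i ≠ j ∧ i ≠ sw j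
  · exact (L_step hHM hMS hm h h1.1 h1.2).2
  · obtain ⟨n, hn1, hn2, hn3, hn4⟩ := exists_ne₄ hm j (sw j) i (sw i)
    have h2 := (L_step hHM hMS hm h hn1 hn2).2
    exact (L_step hHM hMS hm h2 hn3.symm (fun h => hn4 (by rw [h, sw_sw]))).2

lemma Lset_sub_Sset {c : F} (h : c ∈ Lset M) : c ∈ Sset M := by
  obtain ⟨j⟩ : Nonempty (Fin m ⊕ Fin m) := ⟨Sum.inl ⟨0, by omega⟩⟩
  obtain ⟨i, hi1, hi2, -, -⟩ := exists_ne₄ hm j (sw j) j j
  exact (L_step hHM hMS hm (h j) hi1 hi2).1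

lemma sq_mem_Lset {β : F} (h : β ∈ Sset M) : β * β ∈ Lset M := by
  obtain ⟨j⟩ : Nonempty (Fin m ⊕ Fin m) := ⟨Sum.inl ⟨0, by omega⟩⟩
  obtain ⟨i, hi1, hi2, -, -⟩ := exists_ne₄ hm j (sw j) j j
  have h0 : QM M (e j) 0 1 := QM_rat hHM (rat_e j) IsRat.zero F₀.one_mem (by simp)
  have h1 := h0.conj (sh_mem_of_S hHM hMS hm h hi1 hi2) (sh_mem_sp _ _ _)
  rw [sh_self hi1 hi2, mulVec_zero] at h1
  have hji0 : ⟪(e j : Fin m ⊕ Fin m → F), β • e i⟫ = 0 := by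
    rw [map_smul, Bee_ne hi2, smul_zero]
  have h2 := (QM.split hji0 h1 h0).scale
  have h6 := h i j hi1.symm (fun h => hi2 (by rw [h, sw_sw]))
  apply mem_Lset hHM hMS hm (j := i)
  refine (h2.mul h6.inv).congr (by rw [one_smul]; abel) ?_
  simp [-stdB_apply, B_self]

lemma Lset_add {c d : F} (hc : c ∈ Lset M) (hd : d ∈ Lset M) : c + d ∈ Lset M := by
  intro i
  exact ((hc i).mul (hd i)).congr (by simp) (by simp)

lemma Lset_neg {c : F} (hc : c ∈ Lset M) : -c ∈ Lset M := by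
  intro i
  exact (hc i).inv.congr (by simp) rfl

lemma Lset_univ [Finite F] (hS : ∀ ν : F, ν ∈ Sset M) (c : F) : c ∈ Lset M := by
  by_cases h2 : (2 : F) = 0
  · have : ringChar F = 2 := CharP.ringChar_of_prime_eq_zero Nat.prime_two (by exact_mod_cast h2)
    obtain ⟨a, rfl⟩ := FiniteField.isSquare_of_char_two this c
    exact sq_mem_Lset hHM hMS hm (hS a)
  · have : c = ((c + 1) / 2) * ((c + 1) / 2) + -(((c - 1) / 2) * ((c - 1) / 2)) := by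
      field_simp
      ring
    rw [this]
    exact Lset_add hHM hMS hm (sq_mem_Lset hHM hMS hm (hS _))
      (Lset_neg hHM hMS hm (sq_mem_Lset hHM hMS hm (hS _)))

end param

/-! ### generation -/

lemma tv_eq_q (v : Fin m ⊕ Fin m → F) (c : F) : tv v c = q v 0 c := by
  apply gl_ext
  intro x
  rw [tv_mulVec, q_mulVec (by simp)]
  simp [-stdB_apply]

/-- all transvections with centre `v` lie in `M` -/
def Cen (M : Subgroup (GL (Fin m ⊕ Fin m) F)) (v : Fin m ⊕ Fin m → F) : Prop := ∀ c, tv v c ∈ M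

lemma Cen.map {v : Fin m ⊕ Fin m → F} (h : Cen M v) {g : GL (Fin m ⊕ Fin m) F} (hg : g ∈ M)
    (hgs : g ∈ Cfsg.spGL m F) : Cen M ((g : Matrix _ _ F) *ᵥ v) := by
  intro c
  have : tv ((g : Matrix _ _ F) *ᵥ v) c = g * tv v c * g⁻¹ := by
    apply gl_ext
    intro x
    rw [mul_mulVec, mul_mulVec, tv_mulVec, tv_mulVec]
    simp only [mulVec_add, mulVec_smul, mulVec_inv_mulVec, sp_apply_inv hgs]
  rw [this]
  exact M.mul_mem (M.mul_mem hg (h c)) (M.inv_mem hg)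

lemma Cen.smul {v : Fin m ⊕ Fin m → F} (h : Cen M v) (a : F) : Cen M (a • v) := by
  intro c
  have : tv (a • v) c = tv v (a * a * c) := by
    apply gl_ext
    intro x
    rw [tv_mulVec, tv_mulVec]
    simp only [map_smul, smul_eq_mul]
    module
  rw [this]
  exact h _

lemma Cen_zero : Cen M (0 : Fin m ⊕ Fin m → F) := by
  intro c
  have : tv (0 : Fin m ⊕ Fin m → F) c = 1 := by
    apply gl_ext
    intro x
    rw [tv_mulVec]
    simp
  rw [this]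
  exact M.one_mem

lemma all_Cen (hMS : M ≤ Cfsg.spGL m F) (hS : ∀ ν : F, ν ∈ Sset M) (hL : ∀ c : F, c ∈ Lset M)
    (v : Fin m ⊕ Fin m → F) : Cen M v := by
  classical
  have hbase : ∀ k, Cen M (e k : Fin m ⊕ Fin m → F) := by
    intro k c
    rw [tv_eq_q]
    exact (hL c k).2
  suffices H : ∀ (s : Finset (Fin m ⊕ Fin m)) (v : Fin m ⊕ Fin m → F), (∀ i, i ∉ s → v i = 0) →
      Cen M v from H Finset.univ v (fun i hi => absurd (Finset.mem_univ i) hi)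
  intro s
  induction s using Finset.induction_on with
  | empty =>
    intro v hv
    have : v = 0 := funext fun i => hv i (by simp)
    rw [this]
    exact Cen_zero
  | insert k s hk ih =>
    intro v hv
    set v' : Fin m ⊕ Fin m → F := Function.update v k 0 with hv'
    have hv'k : v' k = 0 := by simp [hv']
    have hvv' : v = v' + v k • e k := by
      ext i
      by_cases hi : i = k
      · subst hi; simp [hv']
      · simp [hv', hi]
    have hc' : Cen M v' := by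
      apply ih
      intro i hi
      by_cases hik : i = k
      · subst hik; exact hv'k
      · rw [hv', Function.update_of_ne hik]
        exact hv i (by simp [hik, hi])
    by_cases h0 : v' = 0
    · rw [hvv', h0, zero_add]
      exact (hbase k).smul _
    by_cases h1 : ⟪v', e k⟫ = 0
    · obtain ⟨j, hj⟩ := Function.ne_iff.1 h0
      have hj' : v' j ≠ 0 := hj
      have hjk : j ≠ k := fun h => hj' (h ▸ hv'k)
      have hjk' : j ≠ sw k := by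
        intro h
        rw [B_e_right, ← h] at h1
        exact hj' ((mul_eq_zero.1 h1).resolve_left (ε_ne_zero _))
      have h2 : ⟪v', e (sw j)⟫ ≠ 0 := by
        rw [B_e_right, sw_sw]
        exact mul_ne_zero (ε_ne_zero _) hj'
      have hq := hS (v k / ⟪v', e (sw j)⟫) k (sw j) (fun h => hjk' (by rw [← h, sw_sw]))
        (fun h => hjk (sw_inj h))
      have := hc'.map hq.2 (hMS hq.2)
      rw [q_mulVec hq.1, h1] at this
      rw [hvv']
      convert this using 1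
      rw [map_smul, smul_eq_mul, div_mul_cancel₀ _ h2]
      simp
    · have := hc'.map (hbase k (v k / ⟪v', e k⟫)) (tv_mem_sp _ _)
      rw [tv_mulVec, div_mul_cancel₀ _ h1] at this
      rw [hvv']
      exact this

lemma eq_sp_of_Sset [Finite F] (hHM : Hsp F₀ m ≤ M) (hMS : M ≤ Cfsg.spGL m F) (hm : 3 ≤ m)
    (hS : ∀ ν : F, ν ∈ Sset M) : M = Cfsg.spGL m F := by
  apply le_antisymm hMS
  intro g hg
  have hall := all_Cen hMS hS (Lset_univ hHM hMS hm hS)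
  have h3 := Cfsg.Agent.Lib.Helper95Sp.mem_of_isometry (stdB_nondegenerate (F := F) m) (stdB_isAlt m)
    (Cfsg.Agent.Lib.Helper95Form.pull M) (fun v c => hall v c) (glEquiv _ F g) (by
      rw [← mkGL_mem_spGL_iff, mkGL_glEquiv]; exact hg)
  exact (Cfsg.Agent.Lib.Helper95Form.glEquiv_mem_pull M g).1 h3

/-! ### incidence implies rationality -/

lemma tv_fix {v x : Fin m ⊕ Fin m → F} (c : F) (h : ⟪x, v⟫ = 0) :
    ((tv v c : GL _ F) : Matrix _ _ F) *ᵥ x = x := by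
  rw [tv_mulVec, h]; simp

section irr

variable (hHM : Hsp F₀ m ≤ M) (hMS : M ≤ Cfsg.spGL m F) (hm : 3 ≤ m)
  (hS0 : ∀ ν : F, ν ∈ Sset M → ν ∈ F₀)
include hHM hMS hm hS0

/-- Claim A -/
lemma ratQ {i : Fin m ⊕ Fin m} {w : Fin m ⊕ Fin m → F} {c : F} (h : QM M (e i) w c)
    (k : Fin m ⊕ Fin m) (hk : k ≠ i) : w k ∈ F₀ := by
  by_cases hk' : k = sw i
  · have := h.1
    rw [B_e_right, ← hk'] at this
    rw [(mul_eq_zero.1 this).resolve_left (ε_ne_zero _)]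
    exact F₀.zero_mem
  set k₁ := sw k with hk₁
  have hk₁i : k₁ ≠ i := fun h => hk' (by rw [← h, hk₁, sw_sw])
  have hk₁i' : k₁ ≠ sw i := fun h => hk (sw_inj h)
  set ν := ⟪w, e k₁⟫ with hν
  have h1 := h.diff (hHM (Sp0_le (tv_mem_Sp0 (rat_e k₁) F₀.one_mem))) (tv_mem_sp _ _)
    (tv_fix 1 (Bee_ne hk₁i'))
  rw [tv_mulVec, one_mul, ← hν] at h1
  have h2 : QM M (e i) (ν • e k₁) (-(ν * ν)) := by
    refine h1.congr (by abel) ?_
    rw [map_add, LinearMap.add_apply, B_self, map_smul, LinearMap.smul_apply, B_swap (e k₁) w, ← hν]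
    simp
  obtain ⟨l, hl1, hl2, hl3, hl4⟩ := exists_ne₄ hm i (sw i) k₁ (sw k₁)
  have h3 := h2.diff (sh_mem_rat hHM k₁ l F₀.one_mem) (sh_mem_sp _ _ _) (sh_other hl3 hk₁i.symm hl2 1)
  rw [mulVec_smul, sh_self hl3 hl4] at h3
  have h4 : QM M (e i) (ν • e l) 0 := by
    refine h3.congr (by rw [one_smul, smul_add]; abel) ?_
    have : ⟪(e l : Fin m ⊕ Fin m → F), e k₁⟫ = 0 := Bee_ne (fun h => hl4 (by rw [h, sw_sw]))
    simp [-stdB_apply, B_self, this]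
  have h5 : ν ∈ F₀ := hS0 _ (mem_Sset hHM hMS hm h4 hl1 hl2)
  rw [hν, B_e_right, hk₁, sw_sw] at h5
  have := F₀.mul_mem (ε_mem F₀ k) h5
  rwa [← mul_assoc, ε_mul_self, one_mul] at this

/-- Claim B, coordinate version -/
lemma ratPt_of_perp_e {i : Fin m ⊕ Fin m} {u : Fin m ⊕ Fin m → F}
    (hu : ∀ c ∈ F₀, QM M u 0 c) (hui : ⟪u, e i⟫ = 0) : IsRatPt F₀ u := by
  have hprod : ∀ l, l ≠ i → l ≠ sw i → ∀ k, k ≠ i → u l * u k ∈ F₀ := by
    intro l hl hl' k hk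
    set j := sw l with hj
    have hji : j ≠ i := fun h => hl' (by rw [← h, hj, sw_sw])
    have hji' : j ≠ sw i := fun h => hl (sw_inj h)
    have hperp : ⟪(e j : Fin m ⊕ Fin m → F), e i⟫ = 0 := Bee_ne (fun h => hji' (by rw [h, sw_sw]))
    have hq : QM M (e i) (e j) 0 := QM_rat hHM (rat_e i) (rat_e j) F₀.zero_mem hperp
    have h1 := (hu 1 F₀.one_mem).conj hq.2 (q_mem_sp _ _ _)
    rw [q_mulVec hperp, hui, mulVec_zero] at h1
    simp only [zero_smul, add_zero, mul_zero] at h1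
    have h2 := (QM.split (by rw [map_smul, hui, smul_zero]) h1 (hu 1 F₀.one_mem)).scale
    have h3 := ratQ hHM hMS hm hS0 h2 k hk
    rw [B_e_right, hj, sw_sw] at h3
    simp only [one_smul, Pi.smul_apply, smul_eq_mul] at h3
    have := F₀.mul_mem (ε_mem F₀ l) h3
    rwa [← mul_assoc, ← mul_assoc, ε_mul_self, one_mul] at this
  have husw : u (sw i) = 0 := by
    rw [B_e_right] at hui
    exact (mul_eq_zero.1 hui).resolve_left (ε_ne_zero _)
  by_cases hex : ∃ l, l ≠ i ∧ l ≠ sw i ∧ u l ≠ 0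
  · obtain ⟨l, hl, hl', hul⟩ := hex
    set α := u l with hα
    have hαα : α * α ∈ F₀ := hprod l hl hl' l hl
    have hcoord : ∀ k, k ≠ i → α⁻¹ * u k ∈ F₀ := by
      intro k hk
      have := F₀.mul_mem (F₀.inv_mem hαα) (hprod l hl hl' k hk)
      have e1 : (α * α)⁻¹ * (u l * u k) = α⁻¹ * u k := by
        rw [← hα]; field_simp
      rwa [e1] at this
    set κ := α⁻¹ * u i with hκ
    set r : Fin m ⊕ Fin m → F := α⁻¹ • u - κ • e i with hr
    have hrr : IsRat F₀ r := by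
      intro k
      by_cases hk : k = i
      · subst hk
        simp [hr, hκ]
      · simpa [hr, hk] using hcoord k hk
    have hru : u = α • (r + κ • e i) := by
      rw [hr, sub_add_cancel, smul_smul, mul_inv_cancel₀ hul, one_smul]
    have hri : ⟪r, e i⟫ = 0 := by
      rw [hr, map_sub, LinearMap.sub_apply, map_smul, map_smul, LinearMap.smul_apply,
        LinearMap.smul_apply, hui, B_self]
      simp
    have h1 : QM M (r + κ • e i) 0 1 := by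
      have := hu _ (F₀.inv_mem hαα)
      conv at this => rw [hru]
      refine this.scale.congr (by simp) ?_
      field_simp
    have h2 := (QM.split (by rw [map_smul, hri, smul_zero]) h1
      (QM_rat hHM hrr IsRat.zero F₀.one_mem (by simp))).scale
    have h3 := ratQ hHM hMS hm hS0 h2 l hl
    have hrl : r l = 1 := by
      simp [hr, hl, ← hα, inv_mul_cancel₀ hul]
    simp only [one_smul, Pi.smul_apply, smul_eq_mul, hrl, mul_one] at h3
    exact ⟨α, r + κ • e i, hrr.add (IsRat.smul h3 (rat_e i)), hru⟩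
  · push Not at hex
    refine ⟨u i, e i, rat_e i, ?_⟩
    ext k
    by_cases hk : k = i
    · subst hk; simp
    · by_cases hk' : k = sw i
      · rw [hk', husw]; simp [sw_ne]
      · rw [hex k hk hk']; simp [hk]

end irr

/-! ### transitivity of the rational symplectic group -/

lemma move1 {x y : Fin m ⊕ Fin m → F} (hx : IsRat F₀ x) (hy : IsRat F₀ y) (h : ⟪x, y⟫ ≠ 0) :
    ∃ g ∈ Sp0 F₀ m, (g : Matrix _ _ F) *ᵥ x = y := by
  refine ⟨tv (y - x) ⟪x, y⟫⁻¹, tv_mem_Sp0 (hy.sub hx) (F₀.inv_mem (B_rat hx hy)), ?_⟩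
  rw [tv_mulVec, map_sub, B_self, sub_zero, inv_mul_cancel₀ h, one_smul]
  abel

lemma e_ne_zero' (i : Fin m ⊕ Fin m) : (e i : Fin m ⊕ Fin m → F) ≠ 0 := by
  intro h0
  have := congrFun h0 i
  simp at this

lemma moveSp {b : Fin m ⊕ Fin m → F} (hb : IsRat F₀ b) (hb0 : b ≠ 0) (i₀ : Fin m ⊕ Fin m) :
    ∃ g ∈ Sp0 F₀ m, (g : Matrix _ _ F) *ᵥ b = e i₀ := by
  by_cases h : ⟪b, e i₀⟫ = 0
  · obtain ⟨j, hj⟩ := Function.ne_iff.1 hb0
    have hj' : b j ≠ 0 := hj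
    have h1 : ⟪b, e (sw j)⟫ ≠ 0 := by
      rw [B_e_right, sw_sw]; exact mul_ne_zero (ε_ne_zero _) hj'
    have h2 : ⟪(e (sw i₀) : Fin m ⊕ Fin m → F), e i₀⟫ ≠ 0 := by
      have := Bee (F := F) (sw i₀)
      rw [sw_sw] at this
      rw [this]; exact ε_ne_zero _
    obtain ⟨z, hz, hz1, hz2⟩ : ∃ z : Fin m ⊕ Fin m → F, IsRat F₀ z ∧ ⟪b, z⟫ ≠ 0 ∧ ⟪z, e i₀⟫ ≠ 0 := by
      by_cases h3 : ⟪(e (sw j) : Fin m ⊕ Fin m → F), e i₀⟫ = 0
      · by_cases h4 : ⟪b, e (sw i₀)⟫ = 0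
        · refine ⟨e (sw j) + e (sw i₀), (rat_e _).add (rat_e _), ?_, ?_⟩
          · rw [map_add, h4, add_zero]; exact h1
          · rw [map_add, LinearMap.add_apply, h3, zero_add]; exact h2
        · exact ⟨e (sw i₀), rat_e _, h4, h2⟩
      · exact ⟨e (sw j), rat_e _, h1, h3⟩
    obtain ⟨g₁, hg₁, e₁⟩ := move1 hb hz hz1
    obtain ⟨g₂, hg₂, e₂⟩ := move1 hz (rat_e i₀) hz2
    exact ⟨g₂ * g₁, (Sp0 F₀ m).mul_mem hg₂ hg₁, by rw [mul_mulVec, e₁, e₂]⟩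
  · exact move1 hb (rat_e i₀) h

section irr2

variable [Fintype F] (hHM : Hsp F₀ m ≤ M) (hMS : M ≤ Cfsg.spGL m F) (hm : 3 ≤ m)
  (hS0 : ∀ ν : F, ν ∈ Sset M → ν ∈ F₀)
include hHM hMS hm hS0

/-- Claim B -/
lemma ratPt_of_perp {b u : Fin m ⊕ Fin m → F} (hb : IsRat F₀ b) (hb0 : b ≠ 0)
    (hu : ∀ c ∈ F₀, QM M u 0 c) (hub : ⟪u, b⟫ = 0) : IsRatPt F₀ u := by
  obtain ⟨g, hg, hgb⟩ := moveSp hb hb0 (Sum.inl ⟨0, by omega⟩ : Fin m ⊕ Fin m)
  have hgM : g ∈ M := hHM (Sp0_le hg)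
  have hgs : g ∈ Cfsg.spGL m F := (Subgroup.mem_inf.1 hg).2
  have hu' : ∀ c ∈ F₀, QM M ((g : Matrix (Fin m ⊕ Fin m) (Fin m ⊕ Fin m) F) *ᵥ u) 0 c := by
    intro c hc
    have := (hu c hc).conj hgM hgs
    rwa [mulVec_zero] at this
  have hperp : ⟪(g : Matrix (Fin m ⊕ Fin m) (Fin m ⊕ Fin m) F) *ᵥ u,
      e (Sum.inl ⟨0, by omega⟩ : Fin m ⊕ Fin m)⟫ = 0 := by
    rw [← hgb, sp_apply hgs, hub]
  obtain ⟨α, r, hr, hur⟩ := ratPt_of_perp_e hHM hMS hm hS0 hu' hperp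
  refine ⟨α, ((g⁻¹ : GL (Fin m ⊕ Fin m) F) : Matrix (Fin m ⊕ Fin m) (Fin m ⊕ Fin m) F) *ᵥ r, (Sp0.ratM_inv hg).mulVec hr, ?_⟩
  rw [← mulVec_smul, ← hur, inv_mulVec_mulVec]

lemma mem_of_perp_e {g : GL (Fin m ⊕ Fin m) F} (hg : g ∈ M) {j : Fin m ⊕ Fin m}
    {b : Fin m ⊕ Fin m → F} (hb : IsRat F₀ b) (hb0 : b ≠ 0)
    (h : ⟪(g : Matrix (Fin m ⊕ Fin m) (Fin m ⊕ Fin m) F) *ᵥ e j, b⟫ = 0) :
    g ∈ Cfsg.Geo.subfieldSubgroup F₀ (1 : GL (Fin m ⊕ Fin m) F) := by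
  have hgs := hMS hg
  have hQ : ∀ a : Fin m ⊕ Fin m → F, IsRat F₀ a → ∀ c ∈ F₀, QM M ((g : Matrix (Fin m ⊕ Fin m) (Fin m ⊕ Fin m) F) *ᵥ a) 0 c := by
    intro a ha c hc
    have := (QM_rat hHM ha IsRat.zero hc (by simp)).conj hg hgs
    rwa [mulVec_zero] at this
  have hinj : ∀ x : Fin m ⊕ Fin m → F, x ≠ 0 → (g : Matrix (Fin m ⊕ Fin m) (Fin m ⊕ Fin m) F) *ᵥ x ≠ 0 := by
    intro x hx h0
    have := inv_mulVec_mulVec g x
    rw [h0, mulVec_zero] at this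
    exact hx this.symm
  have step : ∀ a a' : Fin m ⊕ Fin m → F, IsRat F₀ a → IsRat F₀ a' → a' ≠ 0 →
      IsRatPt F₀ ((g : Matrix (Fin m ⊕ Fin m) (Fin m ⊕ Fin m) F) *ᵥ a') → ⟪a, a'⟫ = 0 → IsRatPt F₀ ((g : Matrix (Fin m ⊕ Fin m) (Fin m ⊕ Fin m) F) *ᵥ a) := by
    rintro a a' ha ha' ha'0 ⟨α, r, hr, hαr⟩ haa
    have hα : α ≠ 0 := by
      intro h0
      rw [h0, zero_smul] at hαr
      exact hinj a' ha'0 hαr
    have hr0 : r ≠ 0 := by
      intro h0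
      rw [h0, smul_zero] at hαr
      exact hinj a' ha'0 hαr
    refine ratPt_of_perp hHM hMS hm hS0 hr hr0 (hQ a ha) ?_
    have : ⟪(g : Matrix (Fin m ⊕ Fin m) (Fin m ⊕ Fin m) F) *ᵥ a, α • r⟫ = 0 := by rw [← hαr, sp_apply hgs, haa]
    rw [map_smul, smul_eq_mul] at this
    exact (mul_eq_zero.1 this).resolve_left hα
  have h1 : IsRatPt F₀ ((g : Matrix (Fin m ⊕ Fin m) (Fin m ⊕ Fin m) F) *ᵥ e j) :=
    ratPt_of_perp hHM hMS hm hS0 hb hb0 (hQ _ (rat_e j)) h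
  have h2 : ∀ n, n ≠ sw j → IsRatPt F₀ ((g : Matrix (Fin m ⊕ Fin m) (Fin m ⊕ Fin m) F) *ᵥ e n) := by
    intro n hn
    exact step _ _ (rat_e n) (rat_e j) (e_ne_zero' j) h1 (Bee_ne (fun h => hn (by rw [h, sw_sw])))
  have h3 : ∀ n, IsRatPt F₀ ((g : Matrix (Fin m ⊕ Fin m) (Fin m ⊕ Fin m) F) *ᵥ e n) := by
    intro n
    by_cases hn : n = sw j
    · obtain ⟨n', hn1, hn2, -, -⟩ := exists_ne₄ hm j (sw j) j j
      refine step _ _ (rat_e n) (rat_e n') (e_ne_zero' n') (h2 n' hn2) (Bee_ne ?_)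
      rw [hn, sw_sw]; exact hn1
    · exact h2 n hn
  apply mem_subfield_of_ratPt g h3
  intro k l _
  obtain ⟨n, hn1, hn2, hn3, hn4⟩ := exists_ne₄ hm k (sw k) l (sw l)
  refine step _ _ ((rat_e k).add (rat_e l)) (rat_e n) (e_ne_zero' n) (h3 n) ?_
  rw [map_add, LinearMap.add_apply, Bee_ne hn2, Bee_ne hn4, add_zero]

/-- the vector representing a covector -/
lemma exists_repr (μ : Fin m ⊕ Fin m → F) (hμ : IsRat F₀ μ) (hμ0 : μ ≠ 0) :
    ∃ b : Fin m ⊕ Fin m → F, IsRat F₀ b ∧ b ≠ 0 ∧ ∀ x, ⟪x, b⟫ = μ ⬝ᵥ x := by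
  refine ⟨fun j => ε F (sw j) * μ (sw j), fun j => F₀.mul_mem (ε_mem F₀ _) (hμ _), ?_, ?_⟩
  · intro h0
    apply hμ0
    ext j
    have := congrFun h0 (sw j)
    simp only [sw_sw, Pi.zero_apply] at this
    exact (mul_eq_zero.1 this).resolve_left (ε_ne_zero _)
  · intro x
    rw [stdB_apply, sympForm_eq]
    simp only [dotProduct, Fintype.sum_sum_type, sw, ε, Sum.swap_inl, Sum.swap_inr, Sum.elim_inl,
      Sum.elim_inr]
    rw [← Finset.sum_add_distrib]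
    apply Finset.sum_congr rfl
    intro i _
    ring

lemma incid_sp : Incid F₀ M := by
  intro g hg a μ ha ha0 hμ hμ0 h
  obtain ⟨b, hb, hb0, hbμ⟩ := exists_repr hHM hMS hm hS0 μ hμ hμ0
  obtain ⟨k, hk, hka⟩ := moveSp ha ha0 (Sum.inl ⟨0, by omega⟩ : Fin m ⊕ Fin m)
  have hkH := Sp0_le hk
  have key : g * k⁻¹ ∈ Cfsg.Geo.subfieldSubgroup F₀ (1 : GL (Fin m ⊕ Fin m) F) := by
    refine mem_of_perp_e hHM hMS hm hS0 (M.mul_mem hg (M.inv_mem (hHM hkH)))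
      (j := Sum.inl ⟨0, by omega⟩) hb hb0 ?_
    rw [mul_mulVec, ← hka, inv_mulVec_mulVec, hbμ]
    exact h
  have : g = (g * k⁻¹) * k := by group
  rw [this]
  exact Subgroup.mul_mem _ key (Subgroup.mem_inf.1 hkH).1

end irr2

/-! ### the involutions -/

lemma dbl_mulVec_gen {a b c d : Fin m ⊕ Fin m} (hab : a ≠ b) (hcd : c ≠ d) (hac : a ≠ c)
    (had : a ≠ d) (hbc : b ≠ c) (hbd : b ≠ d) (x : Fin m ⊕ Fin m → F) :
    ((dbl a b c d hab hcd : GL (Fin m ⊕ Fin m) F) : Matrix (Fin m ⊕ Fin m) (Fin m ⊕ Fin m) F) *ᵥ x =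
      x - (x c - x d) • (e c - e d) - (x a - x b) • (e a - e b) := by
  rw [dbl, mul_mulVec, Rf_mulVec, Rf_mulVec]
  simp only [sub_dotProduct, dotProduct_sub, dotProduct_smul, single_dotProduct, one_mul, smul_eq_mul,
    e_dot_e_ne hac, e_dot_e_ne had, e_dot_e_ne hbc, e_dot_e_ne hbd, sub_self, mul_zero, sub_zero]

lemma dbl_mem_sp {p r : Fin m} (hpr : p ≠ r) :
    (dbl (Sum.inl p) (Sum.inl r) (Sum.inr p) (Sum.inr r) (by simpa using hpr) (by simpa using hpr) :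
      GL (Fin m ⊕ Fin m) F) ∈ Cfsg.spGL m F := by
  rw [mem_spGL_iff]
  intro x y
  rw [dbl_mulVec_gen _ _ (by simp) (by simp) (by simp) (by simp),
    dbl_mulVec_gen _ _ (by simp) (by simp) (by simp) (by simp)]
  rw [← stdB_apply, ← stdB_apply]
  have hl : ∀ (z : Fin m ⊕ Fin m → F) (j : Fin m ⊕ Fin m), ⟪e j, z⟫ = - (ε F (sw j) * z (sw j)) := by
    intro z j
    rw [B_swap, B_e_right]
  simp only [map_sub, map_smul, LinearMap.sub_apply, LinearMap.smul_apply, smul_eq_mul, B_e_right, hl]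
  simp only [sw, ε, Sum.swap_inl, Sum.swap_inr, Sum.elim_inl, Sum.elim_inr, Pi.single_apply,
    Sum.inl.injEq, Sum.inr.injEq, reduceCtorEq, if_false, if_true, hpr, hpr.symm]
  ring

/-! ### the theorem for the standard rational structure -/

theorem subfield_sp_maximal_one [Fintype F] (r : ℕ) (hr : r.Prime)
    (hcard : Fintype.card F = Nat.card F₀ ^ r) (hm : 3 ≤ m) :
    Cfsg.Geo.IsMaximalIn (Cfsg.spGL m F) (Hsp F₀ m) := by
  classical
  refine ⟨lt_of_le_of_ne inf_le_right ?_, ?_⟩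
  · intro heq
    obtain ⟨x, hx⟩ := exists_notMem (F₀ := F₀) r hr hcard
    set i : Fin m ⊕ Fin m := Sum.inl ⟨0, by omega⟩ with hi
    have h1 : tv (e i) x ∈ Hsp F₀ m := by rw [heq]; exact tv_mem_sp _ _
    obtain ⟨c, hc, hcy⟩ := (mem_subfieldSubgroup_one_iff _).1 (Subgroup.mem_inf.1 h1).1
    have hent : ∀ a b, ((tv (e i) x : GL _ F) : Matrix (Fin m ⊕ Fin m) (Fin m ⊕ Fin m) F) a b =
        (e b + (x * ⟪(e b : Fin m ⊕ Fin m → F), e i⟫) • e i : Fin m ⊕ Fin m → F) a := by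
      intro a b
      rw [← tv_mulVec, mulVec_single_one]; rfl
    have e1 := hcy i i
    have e2 := hcy i (sw i)
    rw [Matrix.smul_apply, hent] at e1 e2
    rw [B_self] at e1
    have hb : ⟪(e (sw i) : Fin m ⊕ Fin m → F), e i⟫ = ε F (sw i) := by
      have := Bee (F := F) (sw i)
      rwa [sw_sw] at this
    rw [hb] at e2
    simp [(sw_ne i).symm] at e1 e2
    apply hx
    have h2 := F₀.mul_mem (F₀.mul_mem (F₀.inv_mem e1) e2) (ε_mem F₀ (sw i))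
    have h3 : c⁻¹ * (c * (x * ε F (sw i))) * ε F (sw i) = x := by
      rw [inv_mul_cancel_left₀ hc, mul_assoc, ε_mul_self, mul_one]
    rwa [h3] at h2
  · intro M hHM hMS
    by_cases hS0 : ∀ ν : F, ν ∈ Sset M → ν ∈ F₀
    · left
      apply le_antisymm _ hHM
      have h01 : (⟨0, by omega⟩ : Fin m) ≠ ⟨1, by omega⟩ := by simp
      have h02 : (⟨0, by omega⟩ : Fin m) ≠ ⟨2, by omega⟩ := by simp
      have hle := le_subfield_of_incid r hr hcard (by simp; omega) (incid_sp hHM hMS hm hS0)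
        (dbl (Sum.inl ⟨0, by omega⟩) (Sum.inl ⟨1, by omega⟩) (Sum.inr ⟨0, by omega⟩)
          (Sum.inr ⟨1, by omega⟩) (by simp) (by simp))
        (dbl (Sum.inl ⟨0, by omega⟩) (Sum.inl ⟨2, by omega⟩) (Sum.inr ⟨0, by omega⟩)
          (Sum.inr ⟨2, by omega⟩) (by simp) (by simp))
        (hHM (Subgroup.mem_inf.2 ⟨(Subgroup.mem_inf.1 (SL0_le (dbl_mem _ _ _ _ _ _))).1, dbl_mem_sp h01⟩))
        (hHM (Subgroup.mem_inf.2 ⟨(Subgroup.mem_inf.1 (SL0_le (dbl_mem _ _ _ _ _ _))).1, dbl_mem_sp h02⟩))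
        (Subgroup.mem_inf.1 (SL0_le (dbl_mem _ _ _ _ _ _))).1
        (Subgroup.mem_inf.1 (SL0_le (dbl_mem _ _ _ _ _ _))).1
        (dbl_mul_self _ _ (by simp) (by simp) (by simp) (by simp))
        (dbl_mul_self _ _ (by simp) (by simp) (by simp) (by simp))
        ?_ ?_ ?_ (dbl_rank _ _ _ _ _ _) (dbl_rank _ _ _ _ _ _)
      · exact fun g hg => Subgroup.mem_inf.2 ⟨hle hg, hMS hg⟩
      · intro h
        have := dbl_mulVec (F := F) (a := (Sum.inl ⟨0, by omega⟩ : Fin m ⊕ Fin m))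
          (b := Sum.inl ⟨1, by omega⟩) (c := Sum.inr ⟨0, by omega⟩) (d := Sum.inr ⟨1, by omega⟩)
          (by simp) (by simp) (by simp) (by simp)
        rw [h, Units.val_one, one_mulVec] at this
        exact e_ne (by simp) this
      · intro h
        have := dbl_mulVec (F := F) (a := (Sum.inl ⟨0, by omega⟩ : Fin m ⊕ Fin m))
          (b := Sum.inl ⟨2, by omega⟩) (c := Sum.inr ⟨0, by omega⟩) (d := Sum.inr ⟨2, by omega⟩)
          (by simp) (by simp) (by simp) (by simp)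
        rw [h, Units.val_one, one_mulVec] at this
        exact e_ne (by simp) this
      · intro h
        have e1 := dbl_mulVec (F := F) (a := (Sum.inl ⟨0, by omega⟩ : Fin m ⊕ Fin m))
          (b := Sum.inl ⟨1, by omega⟩) (c := Sum.inr ⟨0, by omega⟩) (d := Sum.inr ⟨1, by omega⟩)
          (by simp) (by simp) (by simp) (by simp)
        have e2 := dbl_mulVec (F := F) (a := (Sum.inl ⟨0, by omega⟩ : Fin m ⊕ Fin m))
          (b := Sum.inl ⟨2, by omega⟩) (c := Sum.inr ⟨0, by omega⟩) (d := Sum.inr ⟨2, by omega⟩)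
          (by simp) (by simp) (by simp) (by simp)
        rw [h, e2] at e1
        exact e_ne (by simp) e1
    · right
      push Not at hS0
      obtain ⟨c, hc, hc0⟩ := hS0
      have htop := subalgebra_eq_top r hr hcard (Salg hHM hMS hm) c hc hc0
      apply eq_sp_of_Sset hHM hMS hm
      intro d
      have : d ∈ Salg hHM hMS hm := by rw [htop]; exact Algebra.mem_top
      exact this

end Cfsg.Agent.Lib.Helper99SubfieldSp
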