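import Cfsg.Agent.Lib.Helper99SubfieldSp
import Cfsg.Agent.Lib.Helper99SympBasis

set_option autoImplicit false
set_option linter.unusedSectionVars false
set_option linter.unusedSimpArgs false

namespace Cfsg.Agent.Lib.Helper99SubfieldSpRed

open Matrix Cfsg.Agent.Lib.Helper95Basic Cfsg.Agent.Lib.Helper95SpStd
  Cfsg.Agent.Lib.Helper99Subfield Cfsg.Agent.Lib.Helper99SubfieldSp Cfsg.Agent.Lib.Helper99SympBasis

variable {F : Type*} [Field F] {m : ℕ} {F₀ : Subfield F}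

lemma map_conj_self {G : Type*} [Group G] (N : Subgroup G) {h : G} (hh : h ∈ N) :
    N.map (MulAut.conj h).toMonoidHom = N := by
  ext x
  simp only [Subgroup.mem_map, MulEquiv.coe_toMonoidHom, MulAut.conj_apply]
  constructor
  · rintro ⟨y, hy, rfl⟩
    exact N.mul_mem (N.mul_mem hh hy) (N.inv_mem hh)
  · intro hx
    exact ⟨h⁻¹ * x * h, N.mul_mem (N.mul_mem (N.inv_mem hh) hx) hh, by group⟩

/-- changing `P` by a rational matrix does not change the subfield group -/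
lemma subfieldSubgroup_mul {ι : Type} [Fintype ι] [DecidableEq ι] (P h : GL ι F)
    (hh : IsRatM F₀ (h : Matrix ι ι F)) :
    Cfsg.Geo.subfieldSubgroup F₀ (P * h) = Cfsg.Geo.subfieldSubgroup F₀ P := by
  unfold Cfsg.Geo.subfieldSubgroup
  have h1 : h ∈ (Matrix.GeneralLinearGroup.map (n := ι) (F₀.subtype : F₀ →+* F)).range ⊔
      Cfsg.Geo.scalars ι F := Subgroup.mem_sup_left ((mem_range_map_iff h).2 hh)
  conv_rhs => rw [← map_conj_self _ h1]
  rw [Subgroup.map_map]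
  congr 1
  ext x
  simp [mul_assoc]

lemma symp_single_coe (i j : Fin m ⊕ Fin m) :
    ((Cfsg.sympForm m F₀ (Pi.single i 1) (Pi.single j 1) : F₀) : F) =
      Cfsg.sympForm m F (Pi.single i 1) (Pi.single j 1) := by
  rcases i with i | i <;> rcases j with j | j
  · rw [symp_ll, symp_ll]; rfl
  · rw [symp_lr, symp_lr]; split_ifs <;> simp
  · rw [symp_rl, symp_rl]; split_ifs <;> simp
  · rw [symp_rr, symp_rr]; rfl

theorem exists_std_structure (P : GL (Fin m ⊕ Fin m) F) (ζ : F) (hζ : ζ ≠ 0)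
    (hP : Cfsg.Geo.IsFormRationalStructure (Cfsg.sympForm m F) F₀ ζ P) :
    ∃ h : GL (Fin m ⊕ Fin m) F, IsRatM F₀ (h : Matrix (Fin m ⊕ Fin m) (Fin m ⊕ Fin m) F) ∧
      ∀ u v, ζ * Cfsg.sympForm m F (((P * h : GL _ F) : Matrix (Fin m ⊕ Fin m) (Fin m ⊕ Fin m) F) *ᵥ u)
        (((P * h : GL _ F) : Matrix (Fin m ⊕ Fin m) (Fin m ⊕ Fin m) F) *ᵥ v) =
          Cfsg.sympForm m F u v := by
  classical
  set PM : Matrix (Fin m ⊕ Fin m) (Fin m ⊕ Fin m) F :=
    (P : Matrix (Fin m ⊕ Fin m) (Fin m ⊕ Fin m) F) with hPM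
  set G : LinearMap.BilinForm F (Fin m ⊕ Fin m → F) :=
    ζ • (stdB F m).comp (Matrix.toLin' PM) (Matrix.toLin' PM) with hG
  have hGapp : ∀ u v, G u v = ζ * Cfsg.sympForm m F (PM *ᵥ u) (PM *ᵥ v) := by
    intro u v
    simp [hG]
  have hGrat : ∀ i j, G (Pi.single i 1) (Pi.single j 1) ∈ F₀ := by
    intro i j
    rw [hGapp]
    exact hP _ _ (rat_e i) (rat_e j)
  set A₀ : Matrix (Fin m ⊕ Fin m) (Fin m ⊕ Fin m) F₀ :=
    fun i j => ⟨G (Pi.single i 1) (Pi.single j 1), hGrat i j⟩ with hA₀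
  set B₀ : LinearMap.BilinForm F₀ (Fin m ⊕ Fin m → F₀) := Matrix.toBilin' A₀ with hB₀
  have key : ∀ x y : Fin m ⊕ Fin m → F₀, ((B₀ x y : F₀) : F) =
      G (fun i => (x i : F)) (fun i => (y i : F)) := by
    intro x y
    rw [hB₀, Matrix.toBilin'_apply]
    conv_rhs => rw [← Matrix.toBilin'_toMatrix' G, Matrix.toBilin'_apply]
    push_cast
    rfl
  have hstd0 : ∀ x : Fin m ⊕ Fin m → F, (∀ y, Cfsg.sympForm m F x y = 0) → x = 0 := by
    intro x hx
    exact (stdB_nondegenerate (F := F) m).1 x hx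
  have halt : ∀ x, B₀ x x = 0 := by
    intro x
    apply Subtype.ext
    rw [key, hGapp]
    have := stdB_isAlt (F := F) m (PM *ᵥ fun i => (x i : F))
    rw [stdB_apply] at this
    rw [this, mul_zero]; rfl
  have hnd : ∀ x, x ≠ 0 → ∃ y, B₀ x y ≠ 0 := by
    intro x hx
    by_contra hcon
    push Not at hcon
    apply hx
    have h1 : ∀ j, G (fun i => (x i : F)) (Pi.single j 1) = 0 := by
      intro j
      have := key x (Pi.single j 1)
      rw [hcon] at this
      have e1 : (fun i => ((Pi.single j 1 : Fin m ⊕ Fin m → F₀) i : F)) = Pi.single j 1 := by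
        ext i
        by_cases h : i = j
        · subst h; simp
        · simp [h]
      rw [e1] at this
      exact this.symm
    have h2 : G (fun i => (x i : F)) = 0 := by
      apply (Pi.basisFun F (Fin m ⊕ Fin m)).ext
      intro j
      rw [Pi.basisFun_apply]
      exact h1 j
    have h3 : PM *ᵥ (fun i => (x i : F)) = 0 := by
      apply hstd0
      intro y
      have := congrArg (fun φ => φ (((P⁻¹ : GL _ F) : Matrix (Fin m ⊕ Fin m) (Fin m ⊕ Fin m) F) *ᵥ y)) h2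
      simp only [LinearMap.zero_apply] at this
      rw [hGapp, hPM, mulVec_inv_mulVec] at this
      exact (mul_eq_zero.1 this).resolve_left hζ
    have h4 := inv_mulVec_mulVec P (fun i => (x i : F))
    rw [← hPM, h3, mulVec_zero] at h4
    ext i
    have := congrFun h4 i
    simpa using this.symm
  obtain ⟨b, hb⟩ := exists_symp_basis m B₀ halt hnd
  set hM : Matrix (Fin m ⊕ Fin m) (Fin m ⊕ Fin m) F := fun i j => (b j i : F) with hhM
  have hMe : ∀ j, hM *ᵥ Pi.single j 1 = fun i => (b j i : F) := by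
    intro j
    rw [mulVec_single_one]; rfl
  have hgram : ∀ u v, G (hM *ᵥ u) (hM *ᵥ v) = Cfsg.sympForm m F u v := by
    have : G.comp (Matrix.toLin' hM) (Matrix.toLin' hM) = stdB F m := by
      apply LinearMap.BilinForm.ext_basis (Pi.basisFun F (Fin m ⊕ Fin m))
      intro i j
      rw [Pi.basisFun_apply, Pi.basisFun_apply, LinearMap.BilinForm.comp_apply, Matrix.toLin'_apply,
        Matrix.toLin'_apply, hMe, hMe, ← key, hb, symp_single_coe, stdB_apply]
    intro u v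
    have h1 := congrArg (fun φ => φ u v) this
    simpa using h1
  have hdet : hM.det ≠ 0 := by
    intro h0
    obtain ⟨v, hv, hv0⟩ := Matrix.exists_mulVec_eq_zero_iff.2 h0
    apply hv
    apply hstd0
    intro y
    rw [← hgram, hv0]
    simp
  refine ⟨Matrix.GeneralLinearGroup.mkOfDetNeZero hM hdet, fun i j => (b j i).2, ?_⟩
  intro u v
  rw [mul_mulVec, mul_mulVec, ← hGapp]
  exact hgram u v

/-- a similitude normalises `Sp` -/
lemma spGL_map_conj (Q : GL (Fin m ⊕ Fin m) F) (ζ : F) (hζ : ζ ≠ 0)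
    (hQ : ∀ u v, ζ * Cfsg.sympForm m F ((Q : Matrix (Fin m ⊕ Fin m) (Fin m ⊕ Fin m) F) *ᵥ u)
      ((Q : Matrix (Fin m ⊕ Fin m) (Fin m ⊕ Fin m) F) *ᵥ v) = Cfsg.sympForm m F u v) :
    (Cfsg.spGL m F).map (MulAut.conj Q).toMonoidHom = Cfsg.spGL m F := by
  have hQ' : ∀ u v, Cfsg.sympForm m F (((Q⁻¹ : GL _ F) : Matrix (Fin m ⊕ Fin m) (Fin m ⊕ Fin m) F) *ᵥ u)
      (((Q⁻¹ : GL _ F) : Matrix (Fin m ⊕ Fin m) (Fin m ⊕ Fin m) F) *ᵥ v) =
        ζ * Cfsg.sympForm m F u v := by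
    intro u v
    rw [← hQ, mulVec_inv_mulVec, mulVec_inv_mulVec]
  ext g
  simp only [Subgroup.mem_map, MulEquiv.coe_toMonoidHom, MulAut.conj_apply]
  constructor
  · rintro ⟨x, hx, rfl⟩
    rw [mem_spGL_iff] at hx ⊢
    intro u v
    rw [mul_mulVec, mul_mulVec, mul_mulVec, mul_mulVec]
    apply mul_left_cancel₀ hζ
    rw [hQ, hx, hQ']
  · intro hg
    refine ⟨Q⁻¹ * g * Q, ?_, by group⟩
    rw [mem_spGL_iff] at hg ⊢
    intro u v
    rw [mul_mulVec, mul_mulVec, mul_mulVec, mul_mulVec, hQ', hg, hQ]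

theorem subfield_sp_maximal [Fintype F] (r : ℕ) (hr : r.Prime)
    (hcard : Fintype.card F = Nat.card F₀ ^ r) (hm : 3 ≤ m) (P : GL (Fin m ⊕ Fin m) F) (ζ : F)
    (hζ : ζ ≠ 0) (hP : Cfsg.Geo.IsFormRationalStructure (Cfsg.sympForm m F) F₀ ζ P) :
    Cfsg.Geo.IsMaximalIn (Cfsg.spGL m F) (Cfsg.Geo.subfieldSubgroup F₀ P ⊓ Cfsg.spGL m F) := by
  obtain ⟨h, hh, hQ⟩ := exists_std_structure P ζ hζ hP
  have := isMaximalIn_map (MulAut.conj (P * h)) _ _ (subfield_sp_maximal_one (F₀ := F₀) r hr hcard hm)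
  rw [spGL_map_conj (P * h) ζ hζ hQ, Subgroup.map_inf_eq _ _ _ (MulAut.conj (P * h)).injective,
    spGL_map_conj (P * h) ζ hζ hQ, ← subfieldSubgroup_eq_map, subfieldSubgroup_mul P h hh] at this
  exact this

end Cfsg.Agent.Lib.Helper99SubfieldSpRed
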