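import Cfsg.Agent.Lib.Helper99SubfieldURed

set_option autoImplicit false
set_option linter.unusedSectionVars false
set_option linter.unusedSimpArgs false
set_option linter.unusedVariables false

/-!
# Subfield subgroups of unitary groups: unitary subfield groups
-/

namespace Cfsg.Agent.Lib.Helper99SubfieldU2

open Matrix Module Cfsg.Agent.Lib.Helper95Basic Cfsg.Agent.Lib.Helper99Subfield
  Cfsg.Agent.Lib.Helper99SubfieldSL Cfsg.Agent.Lib.Helper99SubfieldGen Cfsg.Agent.Lib.Helper99RG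
  Cfsg.Agent.Lib.Helper99RGEl Cfsg.Agent.Lib.Helper99RGFin Cfsg.Agent.Lib.Helper99RGDual
  Cfsg.Agent.Lib.Helper95Herm Cfsg.Agent.Lib.Helper99SubfieldU Cfsg.Agent.Lib.Helper95SUStd
  Cfsg.Agent.Lib.Helper99SubfieldURed

variable {ι : Type} [Fintype ι] [DecidableEq ι] {F : Type*} [Field F]
variable {σ : F →+* F} {f : (ι → F) → (ι → F) → F} {F₀ : Subfield F}

/-- an involution fixing `F₀` pointwise forces the degree to be even -/
lemma even_finrank_of_fix [Finite F] (hinv : ∀ a, σ (σ a) = a) (hne : σ ≠ RingHom.id F)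
    (hfix : ∀ a ∈ F₀, σ a = a) : 2 ∣ finrank F₀ F := by
  let s : F ≃ₐ[F₀] F :=
    { toFun := σ
      invFun := σ
      left_inv := hinv
      right_inv := hinv
      map_mul' := map_mul σ
      map_add' := map_add σ
      commutes' := fun a => hfix _ a.2 }
  have h1 : s ^ 2 = 1 := by
    ext x
    show σ (σ x) = x
    exact hinv x
  have h2 : s ≠ 1 := by
    intro h
    apply hne
    ext x
    exact congrArg (fun t : F ≃ₐ[F₀] F => t x) h
  have h3 : orderOf s = 2 := orderOf_eq_prime h1 h2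
  rw [← h3, ← IsGalois.card_aut_eq_finrank]
  exact orderOf_dvd_natCard s

section restrict

variable (hmem : ∀ a ∈ F₀, σ a ∈ F₀)

/-- the restriction of `σ` to `F₀` -/
def sig₀ : F₀ →+* F₀ := σ.restrict F₀ F₀ hmem

lemma sig₀_coe (a : F₀) : ((sig₀ hmem a : F₀) : F) = σ a := rfl

lemma sig₀_ne (hmv : ∃ a ∈ F₀, σ a ≠ a) : sig₀ hmem ≠ RingHom.id F₀ := by
  obtain ⟨a, ha, hne⟩ := hmv
  intro h
  apply hne
  have := congrArg (fun t : F₀ →+* F₀ => ((t ⟨a, ha⟩ : F₀) : F)) h
  exact this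

include hmem in
lemma tr_of_moved (hinv : ∀ a, σ (σ a) = a) (hmv : ∃ a ∈ F₀, σ a ≠ a) (a : F) (ha : a ∈ F₀)
    (hfix : σ a = a) : ∃ t ∈ F₀, t + σ t = a := by
  obtain ⟨c, hc⟩ := Cfsg.Agent.Lib.Helper17Herm.trace_surj (sig₀ hmem) (sig₀_ne hmem hmv)
    (fun x => Subtype.ext (hinv x)) ⟨a, ha⟩ (Subtype.ext hfix)
  exact ⟨c, c.2, congrArg Subtype.val hc⟩

include hmem in
lemma norm_of_moved [Finite F] (hinv : ∀ a, σ (σ a) = a) (hmv : ∃ a ∈ F₀, σ a ≠ a) (a : F)
    (ha : a ∈ F₀) (ha0 : a ≠ 0) (hfix : σ a = a) : ∃ t ∈ F₀, t * σ t = a := by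
  obtain ⟨c, hc⟩ := Cfsg.Agent.Lib.Helper17Herm.norm_surj (sig₀ hmem) (sig₀_ne hmem hmv)
    (fun x => Subtype.ext (hinv x)) ⟨a, ha⟩ (fun h => ha0 (congrArg Subtype.val h))
    (Subtype.ext hfix)
  exact ⟨c, c.2, congrArg Subtype.val hc⟩

end restrict

/-- every rational plane contains an isotropic vector -/
def ML2 (F₀ : Subfield F) (Sg : (ι → F) → Prop) : Prop :=
  ∀ T : Submodule F₀ (ι → F₀), 2 ≤ finrank F₀ T → ∃ x ∈ T, x ≠ 0 ∧ Sg (up x)

lemma ml2_of_moved [Finite F] (H : SF σ f) (hmem : ∀ a ∈ F₀, σ a ∈ F₀)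
    (hrat : ∀ x y, IsRat F₀ x → IsRat F₀ y → f x y ∈ F₀) (hmv : ∃ a ∈ F₀, σ a ≠ a) :
    ML2 F₀ (Iso f) := by
  intro T hT
  obtain ⟨⟨x, hxT⟩, hx0⟩ := (Module.finrank_pos_iff_exists_ne_zero (R := F₀) (M := T)).1 (by omega)
  have hx0' : x ≠ 0 := fun h => hx0 (Subtype.ext h)
  by_cases hxx : f (up x) (up x) = 0
  · exact ⟨x, hxT, hx0', hxx⟩
  let φ : T →ₗ[F₀] F₀ :=
    { toFun := fun y => ⟨f (up (y : ι → F₀)) (up x), hrat _ _ (rat_up _) (rat_up _)⟩
      map_add' := fun y z => Subtype.ext (by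
        simp only [Submodule.coe_add, up_add, H.add_left]; rfl)
      map_smul' := fun c y => Subtype.ext (by
        simp only [Submodule.coe_smul, up_smul, H.smul_left]; rfl) }
  have h1 := LinearMap.finrank_range_add_finrank_ker φ
  have h2 : finrank F₀ (LinearMap.range φ) ≤ 1 := by
    have := Submodule.finrank_le (LinearMap.range φ)
    rwa [Module.finrank_self] at this
  obtain ⟨⟨⟨y, hyT⟩, hyk⟩, hy0⟩ := (Module.finrank_pos_iff_exists_ne_zero (R := F₀)
    (M := LinearMap.ker φ)).1 (by omega)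
  have hy0' : y ≠ 0 := fun h => hy0 (Subtype.ext (Subtype.ext h))
  have hyx : f (up y) (up x) = 0 := congrArg Subtype.val (LinearMap.mem_ker.1 hyk)
  by_cases hyy : f (up y) (up y) = 0
  · exact ⟨y, hyT, hy0', hyy⟩
  have hfx : σ (f (up x) (up x)) = f (up x) (up x) := (H.herm _ _).symm
  have hfy : σ (f (up y) (up y)) = f (up y) (up y) := (H.herm _ _).symm
  obtain ⟨c, hc, hcc⟩ := norm_of_moved hmem H.invol hmv (- f (up x) (up x) / f (up y) (up y))
    (F₀.div_mem (F₀.neg_mem (hrat _ _ (rat_up _) (rat_up _))) (hrat _ _ (rat_up _) (rat_up _)))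
    (div_ne_zero (neg_ne_zero.2 hxx) hyy) (by rw [map_div₀, map_neg, hfx, hfy])
  refine ⟨x + (⟨c, hc⟩ : F₀) • y, T.add_mem hxT (T.smul_mem _ hyT), ?_, ?_⟩
  · intro h0
    apply hxx
    have : f (up (x + (⟨c, hc⟩ : F₀) • y)) (up x) = f (up x) (up x) := by
      rw [up_add, up_smul, H.add_left, H.smul_left, hyx]; ring
    rw [← this, h0, up_zero, H.zero_left]
  · show f _ _ = 0
    rw [up_add, up_smul]
    simp only [H.add_left, H.add_right, H.smul_left, H.smul_right, hyx, H.swap0 hyx]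
    have : c * (σ c * f (up y) (up y)) = - f (up x) (up x) := by
      rw [← mul_assoc, hcc]; field_simp
    linear_combination this

lemma ML2.ml {Sg : (ι → F) → Prop} (h : ML2 F₀ Sg) : ML F₀ Sg := fun T hT => h T (by omega)


/-- the commutator space of a rational special isometry contains a rational isotropic vector -/
lemma R2_unitary [Finite F] (D : UD F₀ σ f) (hml2 : ML2 F₀ (Iso f)) {y : GL ι F} (hy : y ∈ SUf f)
    (hyr : IsRatM F₀ (y : Matrix ι ι F)) (hne : y ≠ 1) :
    ∃ b, RS F₀ (Iso f) b ∧ ∀ v, (y : Matrix ι ι F) *ᵥ v = v → f v b = 0 := by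
  classical
  have H := D.toSF
  obtain ⟨hiso, hdet⟩ := Subgroup.mem_inf.1 hy
  rw [mem_specialLinear_iff] at hdet
  obtain ⟨B, hB⟩ := (ratM_sub_one hyr).exists_lift
  set T := LinearMap.range B.mulVecLin with hT
  have hup : ∀ z : ι → F₀, up (B *ᵥ z) = (y : Matrix ι ι F) *ᵥ up z - up z := by
    intro z
    have h1 : up (B *ᵥ z) = (B.map F₀.subtype) *ᵥ up z :=
      funext (RingHom.map_mulVec F₀.subtype B z)
    rw [h1, ← hB, sub_mulVec, one_mulVec]
  have key : ∀ b₀ ∈ T, ∀ v, (y : Matrix ι ι F) *ᵥ v = v → f v (up b₀) = 0 := by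
    rintro _ ⟨z, rfl⟩ v hv
    rw [Matrix.mulVecLin_apply, hup, H.sub_right]
    nth_rewrite 1 [← hv]
    rw [hiso, sub_self]
  by_cases h2 : 2 ≤ finrank F₀ T
  · obtain ⟨b₀, hb₀, hb0, hbs⟩ := hml2 T h2
    exact ⟨up b₀, ⟨rat_up _, up_ne_zero hb0, hbs⟩, key b₀ hb₀⟩
  · obtain ⟨c₀, hc₀⟩ := (finrank_le_one_iff (K := F₀) (V := T)).1 (by omega)
    choose t ht using fun j : ι => hc₀ ⟨B *ᵥ Pi.single j 1, ⟨Pi.single j 1, rfl⟩⟩
    have hcol : ∀ j, (y : Matrix ι ι F) *ᵥ e j = e j + (t j : F) • up (c₀ : ι → F₀) := by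
      intro j
      have h1 := congrArg (fun w : T => up (w : ι → F₀)) (ht j)
      simp only [Submodule.coe_smul, up_smul, hup] at h1
      have h3 : up (Pi.single j (1 : F₀)) = (e j : ι → F) := by
        ext i
        by_cases hij : i = j
        · subst hij; simp [up]
        · simp [up, hij]
      rw [h3] at h1
      rw [h1]; abel
    have hval : (y : Matrix ι ι F) = 1 + vecMulVec (up (c₀ : ι → F₀)) (fun j => (t j : F)) := by
      ext i j
      have := congrFun (hcol j) i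
      rw [mulVec_single_one] at this
      rw [Matrix.add_apply, vecMulVec_apply, one_apply]
      simp only [col_apply, Pi.add_apply, Pi.smul_apply, smul_eq_mul, Pi.single_apply] at this
      rw [this, mul_comm]
    have hφc : (fun j => (t j : F)) ⬝ᵥ up (c₀ : ι → F₀) = 0 := by
      rw [hval, vecMulVec_eq Unit, det_one_add_replicateCol_mul_replicateRow] at hdet
      simpa using hdet
    have hyc : (y : Matrix ι ι F) *ᵥ up (c₀ : ι → F₀) = up (c₀ : ι → F₀) := by
      rw [hval, add_mulVec, one_mulVec, vecMulVec_mulVec, hφc]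
      simp
    obtain ⟨j, hj⟩ : ∃ j, (t j : F) • up (c₀ : ι → F₀) ≠ 0 := by
      by_contra hcon
      push Not at hcon
      apply hne
      apply gl_ext
      intro x
      rw [Units.val_one, one_mulVec]
      conv_lhs => rw [← sum_smul_e x]
      rw [mulVec_sum]
      simp only [mulVec_smul, hcol, hcon, add_zero]
      exact sum_smul_e x
    have htj : (t j : F) ≠ 0 := fun h0 => hj (by rw [h0, zero_smul])
    have hc0 : up (c₀ : ι → F₀) ≠ 0 := fun h0 => hj (by rw [h0, smul_zero])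
    have hcc : f (up (c₀ : ι → F₀)) (up (c₀ : ι → F₀)) = 0 := by
      have h1 := hiso (e j) (up (c₀ : ι → F₀))
      rw [hyc, hcol, H.add_left, H.smul_left] at h1
      have h3 : (t j : F) * f (up (c₀ : ι → F₀)) (up (c₀ : ι → F₀)) = 0 := by
        linear_combination h1
      exact (mul_eq_zero.1 h3).resolve_left htj
    exact ⟨up (c₀ : ι → F₀), ⟨rat_up _, hc0, hcc⟩, key _ c₀.2⟩

/-- the involution interchanging two hyperbolic pairs -/
lemma exists_invol (D : UD F₀ σ f) {u u' : ι → F} (hu : IsRat F₀ u) (hu' : IsRat F₀ u')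
    (huu : f u u = 0) (huu' : f u' u' = 0) (h2 : f u u' = 2) :
    ∃ i : GL ι F, i ∈ Cfsg.Geo.subfieldSubgroup F₀ (1 : GL ι F) ⊓ SUf f ∧ i * i = 1 ∧
      ((i : Matrix ι ι F) - 1).rank ≤ 2 ∧
      ∀ x, (i : Matrix ι ι F) *ᵥ x = x - f x u' • u - f x u • u' := by
  classical
  have H := D.herm
  have h2' : f u' u = 2 := by rw [H.herm, h2, map_ofNat]
  set J : (ι → F) →ₗ[F] (ι → F) :=
    (LinearMap.transvection (-(H.fl u)) u') ∘ₗ (LinearMap.transvection (-(H.fl u')) u) with hJ
  have hJa : ∀ x, J x = x - f x u' • u - f x u • u' := by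
    intro x
    simp only [hJ, LinearMap.comp_apply, LinearMap.transvection.apply, LinearMap.neg_apply,
      Herm.fl_apply, H.add_left, H.smul_left, huu]
    module
  have hinv : Function.Involutive J := by
    intro x
    rw [hJa, hJa]
    simp only [H.sub_left, H.smul_left, huu, huu', h2, h2']
    module
  set i : GL ι F := mkGL (LinearEquiv.ofInvolutive J hinv) with hi
  have hia : ∀ x, (i : Matrix ι ι F) *ᵥ x = x - f x u' • u - f x u • u' := by
    intro x
    rw [hi, mkGL_mulVec, LinearEquiv.coe_ofInvolutive, hJa]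
  refine ⟨i, Subgroup.mem_inf.2 ⟨?_, ?_⟩, ?_, ?_, hia⟩
  · apply mem_subfield_of_ratM
    apply ratM_of_forall
    intro x hx
    rw [hia]
    exact (hx.sub (IsRat.smul (D.rat _ _ hx hu') hu)).sub (IsRat.smul (D.rat _ _ hx hu) hu')
  · rw [hi, mkGL_mem_SUf_iff]
    constructor
    · intro x y
      rw [LinearEquiv.coe_ofInvolutive, hJa, hJa]
      simp only [H.sub_left, H.sub_right, H.smul_left, H.smul_right, huu, huu', h2, h2',
        ← H.herm u y, ← H.herm u' y]
      ring
    · have : ((LinearEquiv.ofInvolutive J hinv : (ι → F) ≃ₗ[F] (ι → F)) : (ι → F) →ₗ[F] (ι → F)) =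
          (LinearMap.transvection (-(H.fl u)) u') * (LinearMap.transvection (-(H.fl u')) u) := by
        ext x
        rfl
      rw [this, map_mul, LinearMap.transvection.det, LinearMap.transvection.det]
      simp only [LinearMap.neg_apply, Herm.fl_apply, h2, h2']
      ring
  · apply gl_ext
    intro x
    rw [mul_mulVec, hia, hia, Units.val_one, one_mulVec]
    simp only [H.sub_left, H.smul_left, huu, huu', h2, h2']
    module
  · unfold Matrix.rank
    have hle : LinearMap.range ((i : Matrix ι ι F) - 1).mulVecLin ≤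
        Submodule.span F (({u, u'} : Finset (ι → F)) : Set (ι → F)) := by
      rintro _ ⟨x, rfl⟩
      rw [Matrix.mulVecLin_apply, sub_mulVec, one_mulVec, hia]
      have e1 : x - f x u' • u - f x u • u' - x = (-f x u') • u + (-f x u) • u' := by module
      rw [e1]
      refine Submodule.add_mem _ (Submodule.smul_mem _ _ (Submodule.subset_span (by simp)))
        (Submodule.smul_mem _ _ (Submodule.subset_span (by simp)))
    refine (Submodule.finrank_mono hle).trans ((finrank_span_finset_le_card _).trans ?_)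
    exact Finset.card_le_two

/-- maximality when rational planes contain isotropic vectors -/
theorem maximal_of_ml2 [Fintype F] (D : UD F₀ σ f) (hml2 : ML2 F₀ (Iso f))
    (hn : 13 ≤ Fintype.card ι) (r : ℕ) (hr : r.Prime) (hcard : Fintype.card F = Nat.card F₀ ^ r) :
    Cfsg.Geo.IsMaximalIn (SUf f) (Cfsg.Geo.subfieldSubgroup F₀ (1 : GL ι F) ⊓ SUf f) := by
  classical
  have H := D.herm
  obtain ⟨p, p', q, q', s, s', hp, hq, hs, qp, qp', sp, sp', sq, sq'⟩ := D.toRG.el3 (by omega)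
  have hpp : f p p = 0 := hp.1.2.2
  have hpp' : f p' p' = 0 := hp.2.1.2.2
  have hqq : f q q = 0 := hq.1.2.2
  have hqq' : f q' q' = 0 := hq.2.1.2.2
  have hss : f s s = 0 := hs.1.2.2
  have hss' : f s' s' = 0 := hs.2.1.2.2
  obtain ⟨i₁, h1, h1i, h1r, h1a⟩ := exists_invol D (u := p - q) (u' := p' - q')
    (hp.1.1.sub hq.1.1) (hp.2.1.1.sub hq.2.1.1)
    (by simp only [H.sub_left, H.sub_right, hpp, hqq, qp.1, qp.2.2.1]; ring)
    (by simp only [H.sub_left, H.sub_right, hpp', hqq', qp'.2.1, qp'.2.2.2]; ring)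
    (by simp only [H.sub_left, H.sub_right, hp.2.2, hq.2.2, qp'.1, qp.2.2.2]; ring)
  obtain ⟨i₂, h2, h2i, h2r, h2a⟩ := exists_invol D (u := p - s) (u' := p' - s')
    (hp.1.1.sub hs.1.1) (hp.2.1.1.sub hs.2.1.1)
    (by simp only [H.sub_left, H.sub_right, hpp, hss, sp.1, sp.2.2.1]; ring)
    (by simp only [H.sub_left, H.sub_right, hpp', hss', sp'.2.1, sp'.2.2.2]; ring)
    (by simp only [H.sub_left, H.sub_right, hp.2.2, hs.2.2, sp'.1, sp.2.2.2]; ring)
  have e1 : (i₁ : Matrix ι ι F) *ᵥ p = q := by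
    rw [h1a]
    simp only [H.sub_right, hpp, hp.2.2, qp.2.2.1, qp.2.2.2]
    module
  have e2 : (i₂ : Matrix ι ι F) *ᵥ p = s := by
    rw [h2a]
    simp only [H.sub_right, hpp, hp.2.2, sp.2.2.1, sp.2.2.2]
    module
  have hpq : q ≠ p := by
    intro h
    have := hq.2.2
    rw [h, qp.2.2.2] at this
    exact zero_ne_one this
  have hps : s ≠ p := by
    intro h
    have := hs.2.2
    rw [h, sp.2.2.2] at this
    exact zero_ne_one this
  have hqs : q ≠ s := by
    intro h
    have := hs.2.2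
    rw [← h, sq.2.2.2] at this
    exact zero_ne_one this
  refine maximal_of_le D hn r hr hcard fun M hHM hMS h0 =>
    le_subfield_of_TI D.toRG (toGM D hHM hMS) hn h0 r hr hcard D.ml
      (fun y hy hyr hne _ => R2_unitary D hml2 (hMS hy) hyr hne) i₁ i₂ (hHM h1) (hHM h2)
      (Subgroup.mem_inf.1 h1).1 (Subgroup.mem_inf.1 h2).1 h1i h2i ?_ ?_ ?_ h1r h2r
  · intro h
    rw [h, Units.val_one, one_mulVec] at e1
    exact hpq e1.symm
  · intro h
    rw [h, Units.val_one, one_mulVec] at e2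
    exact hps e2.symm
  · intro h
    rw [h, e2] at e1
    exact hqs e1.symm

/-- the unitary subfield subgroups of the unitary groups -/
theorem unitary_subfield_maximal [Fintype F] (n q : ℕ) (hF : Fintype.card F = q ^ 2)
    (hn : 13 ≤ n) (F₀ : Subfield F) (r : ℕ) (hr : r.Prime) (hro : Odd r)
    (hcard : Fintype.card F = Nat.card F₀ ^ r)
    (P : GL (Fin n) F) (hP : Cfsg.Geo.IsFormRationalStructure (Cfsg.hermForm n F q) F₀ 1 P) :
    Cfsg.Geo.IsMaximalIn (Cfsg.GU n F q ⊓ Cfsg.Geo.specialLinear (Fin n) F)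
      (Cfsg.Geo.subfieldSubgroup F₀ P ⊓ (Cfsg.GU n F q ⊓ Cfsg.Geo.specialLinear (Fin n) F)) := by
  classical
  have H := herm_tf (herm_std hF n) P
  have hmem : ∀ a ∈ F₀, sig hF a ∈ F₀ := by
    intro a ha
    rw [sig_apply]
    exact F₀.pow_mem ha q
  have hrat : ∀ x y, IsRat F₀ x → IsRat F₀ y → tf (Cfsg.hermForm n F q) P x y ∈ F₀ := by
    intro x y hx hy
    have := hP x y hx hy
    rwa [one_mul] at this
  have hmv : ∃ a ∈ F₀, sig hF a ≠ a := by
    by_contra hcon
    push Not at hcon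
    have h2 := even_finrank_of_fix H.invol H.ne_id hcon
    rw [finrank_eq_of_card r hcard] at h2
    rw [Nat.odd_iff] at hro
    omega
  have hSF : SF (sig hF) (tf (Cfsg.hermForm n F q) P) := ⟨H.invol, H.add_left, H.smul_left, H.herm⟩
  have hml2 := ml2_of_moved hSF hmem hrat hmv
  have D : UD F₀ (sig hF) (tf (Cfsg.hermForm n F q) P) :=
    { herm := H
      sig_mem := hmem
      rat := hrat
      tr := tr_of_moved hmem H.invol hmv
      ml := hml2.ml }
  exact maximal_of_tf P (maximal_of_ml2 D hml2 (by simpa using hn) r hr hcard)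

end Cfsg.Agent.Lib.Helper99SubfieldU2
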