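import Cfsg.Agent.Lib.Helper99SubfieldU
import Cfsg.Agent.Lib.Helper42Quad

set_option autoImplicit false
set_option linter.unusedSectionVars false
set_option linter.unusedSimpArgs false
set_option linter.unusedVariables false

/-!
# Subfield subgroups of unitary groups: reduction to the standard rational structure
-/

namespace Cfsg.Agent.Lib.Helper99SubfieldURed

open Matrix Module Cfsg.Agent.Lib.Helper95Basic Cfsg.Agent.Lib.Helper99Subfield
  Cfsg.Agent.Lib.Helper99SubfieldSL Cfsg.Agent.Lib.Helper99SubfieldGen Cfsg.Agent.Lib.Helper99RG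
  Cfsg.Agent.Lib.Helper99RGEl Cfsg.Agent.Lib.Helper99RGFin Cfsg.Agent.Lib.Helper99RGDual
  Cfsg.Agent.Lib.Helper95Herm Cfsg.Agent.Lib.Helper99SubfieldU Cfsg.Agent.Lib.Helper95SUStd

variable {ι : Type} [Fintype ι] [DecidableEq ι] {F : Type*} [Field F]
variable {σ : F →+* F} {f : (ι → F) → (ι → F) → F} {F₀ : Subfield F}

/-- the transported form -/
def tf (f : (ι → F) → (ι → F) → F) (P : GL ι F) : (ι → F) → (ι → F) → F :=
  fun x y => f ((P : Matrix ι ι F) *ᵥ x) ((P : Matrix ι ι F) *ᵥ y)

lemma herm_tf (H : Herm σ f) (P : GL ι F) : Herm σ (tf f P) where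
  ne_id := H.ne_id
  invol := H.invol
  add_left x y v := by simp only [tf, mulVec_add, H.add_left]
  smul_left c x v := by simp only [tf, mulVec_smul, H.smul_left]
  herm v w := H.herm _ _
  nondeg v hv := by
    obtain ⟨x, hx⟩ := H.nondeg ((P : Matrix ι ι F) *ᵥ v) (by
      intro h0
      have := inv_mulVec_mulVec P v
      rw [h0, mulVec_zero] at this
      exact hv this.symm)
    exact ⟨((P⁻¹ : GL ι F) : Matrix ι ι F) *ᵥ x, by simpa only [tf, mulVec_inv_mulVec] using hx⟩

lemma SUf_map_conj (P : GL ι F) :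
    (SUf (tf f P)).map (MulAut.conj P).toMonoidHom = SUf f := by
  ext g
  simp only [Subgroup.mem_map, MulEquiv.coe_toMonoidHom, MulAut.conj_apply]
  constructor
  · rintro ⟨x, hx, rfl⟩
    obtain ⟨h1, h2⟩ := Subgroup.mem_inf.1 hx
    refine Subgroup.mem_inf.2 ⟨?_, ?_⟩
    · intro u v
      have := h1 (((P⁻¹ : GL ι F) : Matrix ι ι F) *ᵥ u) (((P⁻¹ : GL ι F) : Matrix ι ι F) *ᵥ v)
      simp only [tf, mulVec_inv_mulVec] at this
      rw [mul_mulVec, mul_mulVec, mul_mulVec, mul_mulVec]
      exact this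
    · have : (Cfsg.Geo.specialLinear ι F).Normal := by
        unfold Cfsg.Geo.specialLinear; infer_instance
      exact this.conj_mem x h2 P
  · intro hg
    obtain ⟨h1, h2⟩ := Subgroup.mem_inf.1 hg
    refine ⟨P⁻¹ * g * P, Subgroup.mem_inf.2 ⟨?_, ?_⟩, by group⟩
    · intro u v
      simp only [tf, mul_mulVec, mulVec_inv_mulVec]
      exact h1 _ _
    · have : (Cfsg.Geo.specialLinear ι F).Normal := by
        unfold Cfsg.Geo.specialLinear; infer_instance
      simpa using this.conj_mem g h2 P⁻¹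

/-- reduction to `P = 1` -/
lemma maximal_of_tf (P : GL ι F)
    (h : Cfsg.Geo.IsMaximalIn (SUf (tf f P))
      (Cfsg.Geo.subfieldSubgroup F₀ (1 : GL ι F) ⊓ SUf (tf f P))) :
    Cfsg.Geo.IsMaximalIn (SUf f) (Cfsg.Geo.subfieldSubgroup F₀ P ⊓ SUf f) := by
  have := isMaximalIn_map (MulAut.conj P) _ _ h
  rw [SUf_map_conj, Subgroup.map_inf_eq _ _ _ (MulAut.conj P).injective,
    SUf_map_conj, ← subfieldSubgroup_eq_map] at this
  exact this

lemma SUf_hermForm (n q : ℕ) :
    SUf (Cfsg.hermForm n F q) = Cfsg.GU n F q ⊓ Cfsg.Geo.specialLinear (Fin n) F := rfl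


/-- singular vectors for a form which is symmetric bilinear over `F₀` -/
lemma ml_of_symm [Finite F] (H : SF σ f) (hrat : ∀ x y, IsRat F₀ x → IsRat F₀ y → f x y ∈ F₀)
    (hfix : ∀ a ∈ F₀, σ a = a) : ML F₀ (Iso f) := by
  intro T hT
  let B₀ : LinearMap.BilinForm F₀ (ι → F₀) :=
    LinearMap.mk₂ F₀ (fun x y => (⟨f (up x) (up y), hrat _ _ (rat_up x) (rat_up y)⟩ : F₀))
      (fun x y z => Subtype.ext (by simp only [up_add, H.add_left]; rfl))
      (fun c x y => Subtype.ext (by simp only [up_smul, H.smul_left]; rfl))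
      (fun x y z => Subtype.ext (by simp only [up_add, H.add_right]; rfl))
      (fun c x y => Subtype.ext (by simp only [up_smul, H.smul_right, hfix _ c.2]; rfl))
  obtain ⟨v, hv0, hv⟩ := Cfsg.Agent.Lib.Helper42Quad.exists_singular
    ((LinearMap.BilinMap.toQuadraticMap B₀).comp T.subtype) hT
  refine ⟨v, v.2, fun h => hv0 (Subtype.ext h), ?_⟩
  exact congrArg Subtype.val hv

/-- the orthogonal subfield subgroups of the unitary groups -/
theorem unitary_orthogonal_subfield_maximal [Fintype F] (n q : ℕ) (hF : Fintype.card F = q ^ 2)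
    (hn : 13 ≤ n) (hodd : Odd q) (F₀ : Subfield F) (hcard : Fintype.card F = Nat.card F₀ ^ 2)
    (P : GL (Fin n) F) (hP : Cfsg.Geo.IsFormRationalStructure (Cfsg.hermForm n F q) F₀ 1 P) :
    Cfsg.Geo.IsMaximalIn (Cfsg.GU n F q ⊓ Cfsg.Geo.specialLinear (Fin n) F)
      (Cfsg.Geo.subfieldSubgroup F₀ P ⊓ (Cfsg.GU n F q ⊓ Cfsg.Geo.specialLinear (Fin n) F)) := by
  classical
  have H := herm_tf (herm_std hF n) P
  have hq : Nat.card F₀ = q := by
    rw [hF] at hcard
    exact (Nat.pow_left_injective (n := 2) (by omega) hcard).symm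
  have hfix : ∀ a ∈ F₀, sig hF a = a := by
    intro a ha
    rw [sig_apply]
    have := FiniteField.pow_card (⟨a, ha⟩ : F₀)
    rw [← Nat.card_eq_fintype_card, hq] at this
    exact congrArg Subtype.val this
  have hrat : ∀ x y, IsRat F₀ x → IsRat F₀ y → tf (Cfsg.hermForm n F q) P x y ∈ F₀ := by
    intro x y hx hy
    have := hP x y hx hy
    rwa [one_mul] at this
  have h2 : (2 : F) ≠ 0 := by
    intro h0
    have hc : ringChar F = 2 := CharP.ringChar_of_prime_eq_zero Nat.prime_two (by exact_mod_cast h0)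
    have := FiniteField.even_card_iff_char_two.1 hc
    rw [hF] at this
    have hq2 : Odd (q ^ 2) := hodd.pow
    rw [Nat.odd_iff] at hq2
    omega
  have D : UD F₀ (sig hF) (tf (Cfsg.hermForm n F q) P) :=
    { herm := H
      sig_mem := fun a ha => by rw [hfix a ha]; exact ha
      rat := hrat
      tr := by
        intro a ha _
        have h2F : (2 : F) ∈ F₀ := by
          have := F₀.add_mem F₀.one_mem F₀.one_mem
          rwa [one_add_one_eq_two] at this
        have hm : a / 2 ∈ F₀ := F₀.div_mem ha h2F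
        refine ⟨a / 2, hm, ?_⟩
        rw [hfix _ hm]
        field_simp
        ring
      ml := ml_of_symm ⟨H.invol, H.add_left, H.smul_left, H.herm⟩ hrat hfix }
  exact maximal_of_tf P (maximal_small D (by simpa using hn) 2 Nat.prime_two hcard
    (by simp; omega))

end Cfsg.Agent.Lib.Helper99SubfieldURed
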