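import Cfsg.Agent.Lib.Helper49ODefs

/-!
# Vocabulary for PROJECT 99 (T1): `O(V₁) ⊗ Sp(V₂)` in `Sp(V₁ ⊗ V₂)`, `dim V₁ < dim V₂`, `q` odd.

Internal orientation: the SMALL ORTHOGONAL factor comes FIRST (so that the statements of project 50
can be copied): `J₁` symmetric, `J₂` alternating.  Everything of `Helper49TDefs`, `Helper49SDefs`,
`Helper49ODefs` is used (`tens`, `tsub`, `NN`, `KS`, `bf`, `NJ`, `IsSympMat`, `IsSymmMat`, `IsIso`,
`perpS`, `adjJ`, `ctr`, `fK`, `IG`, `EO`).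
-/

set_option autoImplicit false
set_option linter.unusedSectionVars false
set_option linter.unusedSimpArgs false

namespace Cfsg.Agent.Lib.Helper99TDefs

open scoped Matrix Kronecker
open Matrix Cfsg.Agent.Lib.Helper49TDefs Cfsg.Agent.Lib.Helper49SDefs
  Cfsg.Agent.Lib.Helper49ODefs

variable {F : Type*} [Field F] {a b n : ℕ}

/-- `J₁` symmetric, `J₂` alternating, both nondegenerate; characteristic not `2` -/
structure OsDat (F : Type*) [Field F] (a b : ℕ) where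
  J₁ : Matrix (Fin a) (Fin a) F
  J₂ : Matrix (Fin b) (Fin b) F
  h₁ : IsSymmMat J₁
  h₂ : IsSympMat J₂
  two : (2 : F) ≠ 0

/-- `Sp(V₁ ⊗ V₂)` inside `GL` -/
abbrev OsG (D : OsDat F a b) : Subgroup (Matrix.GeneralLinearGroup (Fin a × Fin b) F) :=
  IG D.J₁ D.J₂

/-- the form `f = f₁ ⊗ f₂` -/
abbrev OsDat.f (D : OsDat F a b) (x y : Fin a × Fin b → F) : F := fK D.J₁ D.J₂ x y

variable (D : OsDat F a b) (H : Subgroup (Matrix.GeneralLinearGroup (Fin a × Fin b) F))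

/-- a new element at level 2 -/
def OL2 : Prop :=
  ∃ (c : Fin b → F) (β : Matrix (Fin a) (Fin a) F), c ≠ 0 ∧ (∀ k : F, β ≠ k • 1) ∧
    β ⊗ₖ NJ D.J₂ c c ∈ NN H

/-- a new element at level 1 -/
def OL1 : Prop :=
  ∃ (c e : Fin b → F) (β β' ζ : Matrix (Fin a) (Fin a) F), LinearIndependent F ![c, e] ∧
    bf D.J₂ c e = 0 ∧ (∀ k : F, β ≠ k • 1) ∧
    β ⊗ₖ NJ D.J₂ e c + β' ⊗ₖ NJ D.J₂ c e + ζ ⊗ₖ NJ D.J₂ c c ∈ NN H

/-- the shape of `t` on the three layers `V₁ ⊗ c ⊆ V₁ ⊗ c^⊥ ⊆ V` -/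
structure OLay (t : Matrix.GeneralLinearGroup (Fin a × Fin b) F) (c : Fin b → F)
    (α' : Matrix (Fin a) (Fin a) F) (μ : F) : Prop where
  mu : μ ≠ 0
  bot : ∀ x, (t : Matrix (Fin a × Fin b) (Fin a × Fin b) F) *ᵥ tens x c = tens (μ • (α' *ᵥ x)) c
  top : ∀ x d, (t : Matrix (Fin a × Fin b) (Fin a × Fin b) F) *ᵥ tens x d - tens (α' *ᵥ x) d
    ∈ tsub a (perpS D.J₂ c)
  perp : ∀ w ∈ tsub a (perpS D.J₂ c),
    (t : Matrix (Fin a × Fin b) (Fin a × Fin b) F) *ᵥ w ∈ tsub a (perpS D.J₂ c)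
  sim : ∀ x y, bf D.J₁ (α' *ᵥ x) (α' *ᵥ y) = μ⁻¹ * bf D.J₁ x y

/-- the good vectors: `x ⊗ c`, `x` singular -/
def IsGood0 (y : Fin a × Fin b → F) : Prop :=
  ∃ (x : Fin a → F) (c : Fin b → F), bf D.J₁ x x = 0 ∧ y = tens x c

variable {D}

theorem OsG_f {g : Matrix.GeneralLinearGroup (Fin a × Fin b) F} (hg : g ∈ OsG D)
    (x y : Fin a × Fin b → F) :
    D.f ((g : Matrix (Fin a × Fin b) (Fin a × Fin b) F) *ᵥ x)
      ((g : Matrix (Fin a × Fin b) (Fin a × Fin b) F) *ᵥ y) = D.f x y := hg x y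

theorem OsDat.f_tens (u u' : Fin a → F) (c c' : Fin b → F) :
    D.f (tens u c) (tens u' c') = bf D.J₁ u u' * bf D.J₂ c c' := fK_tens _ _ _ _ _ _

/-- the form against a pure tensor, via the contraction (the analogue of `SpDat.polar_eq_bf_ctr`) -/
theorem OsDat.f_eq_bf_ctr (w : Fin a × Fin b → F) (u : Fin a → F) (c : Fin b → F) :
    D.f w (tens u c) = bf D.J₁ (ctr (D.J₂ *ᵥ c) w) u := fK_eq_bf_ctr _ _ _ _ _

/-- the swapped data (`SoDat` of project 51: alternating factor first) -/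
def OsDat.swap (D : OsDat F a b) : SoDat F b a where
  J₁ := D.J₂
  J₂ := D.J₁
  h₁ := D.h₂
  h₂ := D.h₁
  two := D.two

/-- from `SoDat` (alternating factor first) to `OsDat` (symmetric factor first) -/
def ofSo (D : SoDat F a b) : OsDat F b a where
  J₁ := D.J₂
  J₂ := D.J₁
  h₁ := D.h₂
  h₂ := D.h₁
  two := D.two

end Cfsg.Agent.Lib.Helper99TDefs
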