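import Mathlib
import Cfsg.Prelude.Def_KGroupFacts

set_option autoImplicit false
set_option linter.unusedSectionVars false

/-!
Automorphisms of an extraspecial 2-group: the "reflections" `tau a` attached to the elements `a` of
order 4, and a criterion for the inner automorphism group to have no complement.
-/

namespace Cfsg.Agent.Lib.Helper9AutES

open Cfsg

variable {Q : Type*} [Group Q]

/-- the relevant properties of an extraspecial 2-group with centre `{1, z}` -/
structure Pk (z : Q) : Prop where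
  zc : ∀ g : Q, g * z = z * g
  zz : z * z = 1
  z1 : z ≠ 1
  comm : ∀ g h : Q, g * h = h * g ∨ g * h = h * g * z
  fix : ∀ α : MulAut Q, α z = z

namespace Pk

variable {z : Q} (h : Pk z)
include h

theorem anti {g a : Q} (hn : g * a ≠ a * g) : g * a = a * g * z := (h.comm g a).resolve_left hn

theorem ne_of_anti {g a : Q} (e : g * a = a * g * z) : g * a ≠ a * g := by
  intro e'
  rw [e'] at e
  exact h.z1 (left_eq_mul.1 e)

theorem e_cc {a g k : Q} (hg : g * a = a * g) (hk : k * a = a * k) : g * k * a = a * (g * k) := by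
  rw [mul_assoc, hk, ← mul_assoc, hg, mul_assoc]

theorem e_ca {a g k : Q} (hg : g * a = a * g) (hk : k * a = a * k * z) :
    g * k * a = a * (g * k) * z := by
  rw [mul_assoc, hk, ← mul_assoc, ← mul_assoc, hg, mul_assoc a g k]

theorem e_ac {a g k : Q} (hg : g * a = a * g * z) (hk : k * a = a * k) :
    g * k * a = a * (g * k) * z := by
  rw [mul_assoc, hk, ← mul_assoc, hg, mul_assoc (a * g), ← h.zc k, ← mul_assoc, mul_assoc a g k]

theorem e_aa {a g k : Q} (hg : g * a = a * g * z) (hk : k * a = a * k * z) :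
    g * k * a = a * (g * k) := by
  rw [mul_assoc, hk, ← mul_assoc, ← mul_assoc, hg, mul_assoc (a * g), ← h.zc k, ← mul_assoc,
    mul_assoc _ z z, h.zz, mul_one, mul_assoc a g k]

theorem comm_mul_iff (a g k : Q) :
    g * k * a = a * (g * k) ↔ (g * a = a * g ↔ k * a = a * k) := by
  by_cases hg : g * a = a * g <;> by_cases hk : k * a = a * k
  · exact ⟨fun _ => ⟨fun _ => hk, fun _ => hg⟩, fun _ => h.e_cc hg hk⟩
  · exact ⟨fun e => absurd e (h.ne_of_anti (h.e_ca hg (h.anti hk))), fun e => absurd (e.1 hg) hk⟩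
  · exact ⟨fun e => absurd e (h.ne_of_anti (h.e_ac (h.anti hg) hk)), fun e => absurd (e.2 hk) hg⟩
  · exact ⟨fun _ => ⟨fun e => absurd e hg, fun e => absurd e hk⟩,
      fun _ => h.e_aa (h.anti hg) (h.anti hk)⟩

theorem comm_mul {a g k : Q} (hg : g * a = a * g) (hk : k * a = a * k) :
    g * k * a = a * (g * k) := h.e_cc hg hk

theorem comm_mul' {a g k : Q} (hg : g * a ≠ a * g) (hk : k * a ≠ a * k) :
    g * k * a = a * (g * k) := h.e_aa (h.anti hg) (h.anti hk)

theorem anti_mul {a g k : Q} (hg : g * a = a * g) (hk : k * a ≠ a * k) :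
    g * k * a ≠ a * (g * k) := h.ne_of_anti (h.e_ca hg (h.anti hk))

theorem anti_mul' {a g k : Q} (hg : g * a ≠ a * g) (hk : k * a = a * k) :
    g * k * a ≠ a * (g * k) := h.ne_of_anti (h.e_ac (h.anti hg) hk)

end Pk

open Classical in
/-- the underlying map of a reflection -/
noncomputable def tf (a g : Q) : Q := if g * a = a * g then g else g * a

theorem tf_comm {a g : Q} (hg : g * a = a * g) : tf a g = g := if_pos hg

theorem tf_anti {a g : Q} (hg : g * a ≠ a * g) : tf a g = g * a := if_neg hg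

namespace Pk

variable {z : Q} (h : Pk z)
include h

/-- the reflection attached to an element `a` of order 4 -/
noncomputable def tau (a : Q) (ha : a * a = z) : MulAut Q where
  toFun := tf a
  invFun := tf a⁻¹
  left_inv g := by
    by_cases hg : g * a = a * g
    · have hg' : g * a⁻¹ = a⁻¹ * g := by
        rw [eq_inv_mul_iff_mul_eq, ← mul_assoc, ← hg, mul_inv_cancel_right]
      rw [tf_comm hg, tf_comm hg']
    · have h1 : g * a * a⁻¹ ≠ a⁻¹ * (g * a) := by
        intro e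
        apply hg
        rw [mul_inv_cancel_right, eq_inv_mul_iff_mul_eq] at e
        exact e.symm
      rw [tf_anti hg, tf_anti h1, mul_inv_cancel_right]
  right_inv g := by
    by_cases hg : g * a = a * g
    · have hg' : g * a⁻¹ = a⁻¹ * g := by
        rw [eq_inv_mul_iff_mul_eq, ← mul_assoc, ← hg, mul_inv_cancel_right]
      rw [tf_comm hg', tf_comm hg]
    · have hg' : g * a⁻¹ ≠ a⁻¹ * g := by
        intro e
        apply hg
        rw [eq_inv_mul_iff_mul_eq, ← mul_assoc, mul_inv_eq_iff_eq_mul] at e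
        exact e.symm
      have h1 : g * a⁻¹ * a ≠ a * (g * a⁻¹) :=
        h.anti_mul' hg (by rw [inv_mul_cancel, mul_inv_cancel])
      rw [tf_anti hg', tf_anti h1, inv_mul_cancel_right]
  map_mul' g k := by
    by_cases hg : g * a = a * g <;> by_cases hk : k * a = a * k
    · rw [tf_comm hg, tf_comm hk, tf_comm (h.comm_mul hg hk)]
    · rw [tf_comm hg, tf_anti hk, tf_anti (h.anti_mul hg hk), mul_assoc]
    · rw [tf_anti hg, tf_comm hk, tf_anti (h.anti_mul' hg hk), mul_assoc, hk, mul_assoc]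
    · rw [tf_anti hg, tf_anti hk, tf_comm (h.comm_mul' hg hk)]
      have hk' := h.anti hk
      rw [hk', ← mul_assoc, ← mul_assoc, mul_assoc g a a, ha, mul_assoc g z k, ← h.zc k,
        mul_assoc, mul_assoc, h.zz, mul_one]

theorem tau_comm {a : Q} (ha : a * a = z) {g : Q} (hg : g * a = a * g) : h.tau a ha g = g :=
  tf_comm hg

theorem tau_anti {a : Q} (ha : a * a = z) {g : Q} (hg : g * a ≠ a * g) :
    h.tau a ha g = g * a := tf_anti hg

theorem tau_sq {a : Q} (ha : a * a = z) : h.tau a ha * h.tau a ha = MulAut.conj a := by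
  ext g
  rw [MulAut.mul_apply, MulAut.conj_apply]
  by_cases hg : g * a = a * g
  · rw [h.tau_comm ha hg, h.tau_comm ha hg, ← hg, mul_inv_cancel_right]
  · have h1 : g * a * a ≠ a * (g * a) := h.anti_mul' hg rfl
    rw [h.tau_anti ha hg, h.tau_anti ha h1, eq_mul_inv_iff_mul_eq, mul_assoc g a a, ha,
      mul_assoc, ← h.zc a, ← mul_assoc, h.anti hg, mul_assoc, h.zz, mul_one]

theorem tau_mul_comm {a b : Q} (ha : a * a = z) (hb : b * b = z) (hab : a * b = b * a) :
    h.tau a ha * h.tau b hb = h.tau b hb * h.tau a ha := by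
  ext g
  rw [MulAut.mul_apply, MulAut.mul_apply]
  by_cases hga : g * a = a * g <;> by_cases hgb : g * b = b * g
  · rw [h.tau_comm hb hgb, h.tau_comm ha hga, h.tau_comm hb hgb]
  · rw [h.tau_anti hb hgb, h.tau_comm ha hga, h.tau_anti hb hgb,
      h.tau_comm ha (h.comm_mul hga hab.symm)]
  · rw [h.tau_comm hb hgb, h.tau_anti ha hga, h.tau_comm hb (h.comm_mul hgb hab)]
  · rw [h.tau_anti hb hgb, h.tau_anti ha hga, h.tau_anti ha (h.anti_mul' hga hab.symm),
      h.tau_anti hb (h.anti_mul' hgb hab), mul_assoc, mul_assoc, hab]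

theorem tau_braid {a b : Q} (ha : a * a = z) (hb : b * b = z) (hab : a * b ≠ b * a) :
    h.tau a ha * h.tau b hb * h.tau a ha = h.tau b hb * h.tau a ha * h.tau b hb := by
  have hba : b * a ≠ a * b := fun e => hab e.symm
  ext g
  simp only [MulAut.mul_apply]
  by_cases hga : g * a = a * g <;> by_cases hgb : g * b = b * g
  · rw [h.tau_comm ha hga, h.tau_comm hb hgb, h.tau_comm ha hga, h.tau_comm hb hgb]
  · -- g commutes with a, not with b
    have h1 : g * b * a ≠ a * (g * b) := h.anti_mul hga hba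
    have h2 : g * b * a * b = b * (g * b * a) := h.comm_mul' (h.anti_mul' hgb rfl) hab
    rw [h.tau_comm ha hga, h.tau_anti hb hgb, h.tau_anti ha h1, h.tau_comm hb h2]
  · have h1 : g * a * b ≠ b * (g * a) := h.anti_mul hgb hab
    have h2 : g * a * b * a = a * (g * a * b) := h.comm_mul' (h.anti_mul' hga rfl) hba
    rw [h.tau_anti ha hga, h.tau_anti hb h1, h.tau_comm ha h2, h.tau_comm hb hgb,
      h.tau_anti ha hga, h.tau_anti hb h1]
  · have h1 : g * a * b = b * (g * a) := h.comm_mul' hgb hab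
    have h2 : g * b * a = a * (g * b) := h.comm_mul' hga hba
    have h3 : g * a * a ≠ a * (g * a) := h.anti_mul' hga rfl
    have h4 : g * b * b ≠ b * (g * b) := h.anti_mul' hgb rfl
    rw [h.tau_anti ha hga, h.tau_comm hb h1, h.tau_anti ha h3, h.tau_anti hb hgb,
      h.tau_comm ha h2, h.tau_anti hb h4, mul_assoc, mul_assoc, ha, hb]

end Pk

/-- the inner automorphism group splits off -/
def Spl (Q : Type*) [Group Q] : Prop :=
  ∃ pr : MulAut Q →* MulAut Q, (∀ α, α * (pr α)⁻¹ ∈ Cfsg.Inn Q) ∧ ∀ α ∈ Cfsg.Inn Q, pr α = 1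

theorem spl_of_complement (L : Subgroup (MulAut Q)) (hL : (Cfsg.Inn Q).IsComplement' L) :
    Spl Q := by
  have hex : ∀ α : MulAut Q, ∃ l ∈ L, α * l⁻¹ ∈ Cfsg.Inn Q := by
    intro α
    obtain ⟨⟨i, l⟩, hil, -⟩ := hL.existsUnique α
    refine ⟨l.1, l.2, ?_⟩
    have : (i.1 : MulAut Q) * l.1 = α := hil
    rw [← this, mul_inv_cancel_right]
    exact i.2
  have huniq : ∀ l ∈ L, ∀ l' ∈ L, l * l'⁻¹ ∈ Cfsg.Inn Q → l = l' := by
    intro l hl l' hl' hi
    have h1 : l * l'⁻¹ ∈ Cfsg.Inn Q ⊓ L := ⟨hi, L.mul_mem hl (L.inv_mem hl')⟩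
    rw [hL.disjoint.eq_bot] at h1
    exact mul_inv_eq_one.1 h1
  choose f hfL hfI using hex
  refine ⟨MonoidHom.mk' f ?_, hfI, ?_⟩
  · intro α β
    apply huniq _ (hfL _) _ (L.mul_mem (hfL _) (hfL _))
    -- f(αβ) (fα fβ)⁻¹ = (αβ f(αβ)⁻¹)⁻¹ * (α (β fβ⁻¹) α⁻¹) * (α fα⁻¹)
    have e : f (α * β) * (f α * f β)⁻¹ =
        (α * β * (f (α * β))⁻¹)⁻¹ * (α * (β * (f β)⁻¹) * α⁻¹) * (α * (f α)⁻¹) := by group
    rw [e]
    exact (Cfsg.Inn Q).mul_mem ((Cfsg.Inn Q).mul_mem ((Cfsg.Inn Q).inv_mem (hfI _))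
      ((Cfsg.innNormal Q).conj_mem _ (hfI β) α)) (hfI α)
  · intro α hα
    apply huniq _ (hfL _) _ L.one_mem
    rw [inv_one, mul_one]
    have e : f α = (α * (f α)⁻¹)⁻¹ * α := by group
    rw [e]
    exact (Cfsg.Inn Q).mul_mem ((Cfsg.Inn Q).inv_mem (hfI _)) hα

theorem congr_inn {P : Type*} [Group P] (e : Q ≃* P) {α : MulAut Q} (hα : α ∈ Cfsg.Inn Q) :
    MulAut.congr e α ∈ Cfsg.Inn P := by
  obtain ⟨g, rfl⟩ := hα
  refine ⟨e g, ?_⟩
  ext x
  change e g * x * (e g)⁻¹ = e (g * e.symm x * g⁻¹)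
  rw [map_mul, map_mul, map_inv, MulEquiv.apply_symm_apply]

theorem Spl.congr {P : Type*} [Group P] (e : Q ≃* P) (hs : Spl Q) : Spl P := by
  obtain ⟨pr, h1, h2⟩ := hs
  refine ⟨(MulAut.congr e).toMonoidHom.comp (pr.comp (MulAut.congr e).symm.toMonoidHom), ?_, ?_⟩
  · intro β
    have := congr_inn e (h1 ((MulAut.congr e).symm β))
    rw [map_mul, map_inv, MulEquiv.apply_symm_apply] at this
    exact this
  · intro β hβ
    have h3 : (MulAut.congr e).symm β ∈ Cfsg.Inn Q := congr_inn e.symm hβ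
    change MulAut.congr e (pr ((MulAut.congr e).symm β)) = 1
    rw [h2 _ h3, map_one]

namespace Pk

variable {z : Q} (h : Pk z)
include h

theorem inn_apply {ι : MulAut Q} (hι : ι ∈ Cfsg.Inn Q) (g : Q) : ι g = g ∨ ι g = g * z := by
  obtain ⟨c, rfl⟩ := hι
  change c * g * c⁻¹ = g ∨ c * g * c⁻¹ = g * z
  rcases h.comm c g with e | e
  · left; rw [e, mul_inv_cancel_right]
  · right; rw [e, mul_assoc g c z, h.zc c, ← mul_assoc, mul_inv_cancel_right]

theorem map_mul_z (α : MulAut Q) (g : Q) : α (g * z) = α g * z := by rw [map_mul, h.fix]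

theorem mul_zz (g : Q) : g * z * z = g := by rw [mul_assoc, h.zz, mul_one]

theorem pr_apply {pr : MulAut Q →* MulAut Q} (h1 : ∀ α, α * (pr α)⁻¹ ∈ Cfsg.Inn Q) (α : MulAut Q)
    (g : Q) : pr α g = α g ∨ pr α g = α g * z := by
  have h2 := h.inn_apply (h1 α) (pr α g)
  rw [MulAut.mul_apply, MulAut.inv_apply_self] at h2
  rcases h2 with e | e
  · left; exact e.symm
  · right; rw [e, h.mul_zz]

/-- an involutory automorphism swapping `x` and `y` modulo `z` maps `x * y` to `y * x` -/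
theorem swap_lemma {S : MulAut Q} (hS : S * S = 1) {x y : Q} (hx : S x = y ∨ S x = y * z) :
    S (x * y) = y * x := by
  have h2 : S (S x) = x := by rw [← MulAut.mul_apply, hS, MulAut.one_apply]
  rcases hx with e | e
  · rw [e] at h2
    rw [map_mul, e, h2]
  · rw [e, h.map_mul_z] at h2
    have h3 : S y = x * z := by rw [← h2, h.mul_zz]
    rw [map_mul, e, h3, mul_assoc, ← mul_assoc z x z, ← h.zc x, mul_assoc x z z, h.zz, mul_one]

theorem pure_lemma {T R : MulAut Q} (hTR : T * R = R * T) {x y : Q}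
    (hT : T x = y ∨ T x = y * z) (hRx : R x = x ∨ R x = x * z) (hRy : R y = y ∨ R y = y * z) :
    R (x * y) = x * y := by
  have e : T (R x) = R (T x) := by rw [← MulAut.mul_apply, hTR, MulAut.mul_apply]
  have hz : ∀ g : Q, g ≠ g * z := fun g e => h.z1 (left_eq_mul.1 e)
  rcases hRx with ex | ex <;> rcases hRy with ey | ey
  · rw [map_mul, ex, ey]
  · exfalso
    rcases hT with et | et
    · rw [ex, et, ey] at e; exact hz _ e
    · rw [ex, et, h.map_mul_z, ey] at e; exact hz _ (mul_right_cancel e)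
  · exfalso
    rcases hT with et | et
    · rw [ex, h.map_mul_z, et, ey] at e; exact hz _ e.symm
    · rw [ex, h.map_mul_z, et, h.map_mul_z, ey] at e; exact hz _ e.symm
  · rw [map_mul, ex, ey, mul_assoc, ← mul_assoc z y z, ← h.zc y, mul_assoc y z z, h.zz, mul_one]

theorem braid_lemma {A R : MulAut Q} (hb : A * R * A = R * A * R) {u : Q} (hR : R u = u)
    (hA : A u = u ∨ A u = u * z) : A u = u := by
  rcases hA with e | e
  · exact e
  · exfalso
    have h1 : (A * R * A) u = (R * A * R) u := by rw [hb]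
    simp only [MulAut.mul_apply] at h1
    rw [e, hR, e, h.map_mul_z, hR, h.map_mul_z, e, h.mul_zz] at h1
    exact h.z1 (left_eq_mul.1 h1)

/-- **Non-splitting criterion.** -/
theorem not_spl (x y a1 a2 a3 w1 w2 w3 : Q)
    (hxy : y * x ≠ x * y) (hxx : x * x = 1) (huu : x * y * (x * y) = z)
    (hw1 : w1 * w1 = z) (hw2 : w2 * w2 = z) (hw3 : w3 * w3 = z)
    (hw1x : x * w1 = w1 * x) (hw2x : x * w2 = w2 * x) (hw3x : x * w3 = w3 * x)
    (hw1y : y * w1 = w1 * y) (hw2y : y * w2 = w2 * y) (hw3y : y * w3 = w3 * y)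
    (ha1 : a1 * a1 = z) (ha2 : a2 * a2 = z) (ha3 : a3 * a3 = z)
    (ha1u : x * y * a1 = a1 * (x * y)) (ha2u : x * y * a2 = a2 * (x * y))
    (ha3u : x * y * a3 = a3 * (x * y))
    (ha1w : a1 * w1 ≠ w1 * a1) (ha2w : a2 * w2 ≠ w2 * a2) (ha3w : a3 * w3 ≠ w3 * a3)
    (h12 : a1 * a2 = a2 * a1) (h13 : a1 * a3 = a3 * a1) (h23 : a2 * a3 = a3 * a2)
    (hx1 : x * a1 ≠ a1 * x) (hx2 : x * a2 ≠ a2 * x) (hx3 : x * a3 ≠ a3 * x)
    (hfin : x * a3 * a2 * a1 = y ∨ x * a3 * a2 * a1 = y * z) : ¬ Spl Q := by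
  rintro ⟨pr, p1, p2⟩
  have hsq : ∀ (a : Q) (ha : a * a = z), pr (h.tau a ha) * pr (h.tau a ha) = 1 := by
    intro a ha
    rw [← map_mul, h.tau_sq ha]
    exact p2 _ ⟨a, rfl⟩
  -- the reflection in `u = x * y`
  have hxu : x * (x * y) ≠ x * y * x := by
    intro e
    apply hxy
    rw [mul_assoc] at e
    exact (mul_left_cancel e).symm
  have hTx : pr (h.tau _ huu) x = y ∨ pr (h.tau _ huu) x = y * z := by
    have := h.pr_apply p1 (h.tau _ huu) x
    rwa [h.tau_anti huu hxu, ← mul_assoc, hxx, one_mul] at this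
  -- pure reflections fix `u`
  have pure : ∀ (w : Q) (hw : w * w = z), x * w = w * x → y * w = w * y →
      pr (h.tau w hw) (x * y) = x * y := by
    intro w hw hwx hwy
    apply h.pure_lemma (T := pr (h.tau _ huu)) _ hTx
    · have := h.pr_apply p1 (h.tau w hw) x
      rwa [h.tau_comm hw hwx] at this
    · have := h.pr_apply p1 (h.tau w hw) y
      rwa [h.tau_comm hw hwy] at this
    · rw [← map_mul, ← map_mul, h.tau_mul_comm huu hw (h.comm_mul hwx hwy)]
  have mixed : ∀ (a w : Q) (ha : a * a = z) (hw : w * w = z), x * w = w * x → y * w = w * y →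
      x * y * a = a * (x * y) → a * w ≠ w * a → pr (h.tau a ha) (x * y) = x * y := by
    intro a w ha hw hwx hwy hau haw
    apply h.braid_lemma (R := pr (h.tau w hw)) _ (pure w hw hwx hwy)
    · have := h.pr_apply p1 (h.tau a ha) (x * y)
      rwa [h.tau_comm ha hau] at this
    · rw [← map_mul, ← map_mul, ← map_mul, ← map_mul, h.tau_braid ha hw haw]
  have m1 := mixed a1 w1 ha1 hw1 hw1x hw1y ha1u ha1w
  have m2 := mixed a2 w2 ha2 hw2 hw2x hw2y ha2u ha2w
  have m3 := mixed a3 w3 ha3 hw3 hw3x hw3y ha3u ha3w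
  set A1 := pr (h.tau a1 ha1) with hA1
  set A2 := pr (h.tau a2 ha2) with hA2
  set A3 := pr (h.tau a3 ha3) with hA3
  have c12 : A1 * A2 = A2 * A1 := by
    rw [hA1, hA2, ← map_mul, ← map_mul, h.tau_mul_comm ha1 ha2 h12]
  have c13 : A1 * A3 = A3 * A1 := by
    rw [hA1, hA3, ← map_mul, ← map_mul, h.tau_mul_comm ha1 ha3 h13]
  have c23 : A2 * A3 = A3 * A2 := by
    rw [hA2, hA3, ← map_mul, ← map_mul, h.tau_mul_comm ha2 ha3 h23]
  have hρ2 : (A1 * A2 * A3) * (A1 * A2 * A3) = 1 := by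
    have e : (A1 * A2 * A3) * (A1 * A2 * A3) = (A1 * A1) * (A2 * A2) * (A3 * A3) := by
      calc (A1 * A2 * A3) * (A1 * A2 * A3) = A1 * A2 * (A3 * A1) * A2 * A3 := by group
        _ = A1 * A2 * (A1 * A3) * A2 * A3 := by rw [c13]
        _ = A1 * (A2 * A1) * (A3 * A2) * A3 := by group
        _ = A1 * (A1 * A2) * (A2 * A3) * A3 := by rw [c12, c23]
        _ = (A1 * A1) * (A2 * A2) * (A3 * A3) := by group
    rw [e, hA1, hA2, hA3, hsq, hsq, hsq, one_mul, one_mul]
  have hρx : (A1 * A2 * A3) x = y ∨ (A1 * A2 * A3) x = y * z := by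
    have e : A1 * A2 * A3 = pr (h.tau a1 ha1 * h.tau a2 ha2 * h.tau a3 ha3) := by
      rw [map_mul, map_mul]
    have h3 : x * a3 * a2 ≠ a2 * (x * a3) := h.anti_mul' hx2 h23.symm
    have h4 : x * a3 * a2 * a1 ≠ a1 * (x * a3 * a2) :=
      h.anti_mul' (h.anti_mul' hx1 h13.symm) h12.symm
    have := h.pr_apply p1 (h.tau a1 ha1 * h.tau a2 ha2 * h.tau a3 ha3) x
    rw [← e] at this
    simp only [MulAut.mul_apply] at this
    rw [h.tau_anti ha3 hx3, h.tau_anti ha2 h3, h.tau_anti ha1 h4] at this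
    simp only [MulAut.mul_apply]
    rcases hfin with e1 | e1
    · rw [e1] at this; exact this
    · rw [e1, h.mul_zz] at this; exact this.symm
  have k1 := h.swap_lemma hρ2 hρx
  simp only [MulAut.mul_apply] at k1
  rw [m3, m2, m1] at k1
  exact hxy k1.symm

end Pk

end Cfsg.Agent.Lib.Helper9AutES
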