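import Mathlib
import Cfsg.Agent.Lib.Helper9AutES
import Cfsg.Agent.Lib.Helper91ES2

set_option autoImplicit false
set_option linter.unusedSimpArgs false

/-!
The inner automorphism group of `2_+^{1+2n}`, `n ≥ 3`, has no complement in the automorphism group.
-/

namespace Cfsg.Agent.Lib.Helper9AutES2

open Cfsg Cfsg.Agent.Lib.Helper91ES Cfsg.Agent.S5396 Cfsg.Agent.Lib.Helper9AutES

variable {V : Type*} [AddCommGroup V] [Module (ZMod 2) V]
variable {β : V →ₗ[ZMod 2] V →ₗ[ZMod 2] ZMod 2}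

/-- the central involution -/
def zE (β : V →ₗ[ZMod 2] V →ₗ[ZMod 2] ZMod 2) : Ext β := ⟨1, 0⟩

theorem eq_or_of_u {g k : Ext β} (e : g.u = k.u) : g = k ∨ g = k * zE β := by
  have key : ∀ a b : ZMod 2, a = b ∨ a = b + 1 := by decide
  rcases key g.s k.s with hs | hs
  · left; exact Ext.ext hs e
  · right
    apply Ext.ext
    · simp only [mul_s, zE, map_zero, add_zero]; exact hs
    · simp only [mul_u, zE, add_zero]; exact e

theorem pk (hnd : ∀ u : V, (∀ v, β u v + β v u = 0) → u = 0) : Pk (zE β) where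
  zc g := by
    apply Ext.ext
    · simp only [mul_s, zE, map_zero, LinearMap.zero_apply, add_zero]; exact add_comm _ _
    · simp only [mul_u, zE, add_zero, zero_add]
  zz := by
    apply Ext.ext
    · simp only [mul_s, zE, map_zero, add_zero, one_s]; decide
    · simp only [mul_u, zE, add_zero, one_u]
  z1 := by
    intro e
    have := congrArg Ext.s e
    simp only [zE, one_s] at this
    exact one_ne_zero this
  comm g k := eq_or_of_u (by simp only [mul_u]; exact add_comm _ _)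
  fix α := by
    have hc : zE β ∈ Subgroup.center (Ext β) := by rw [center_eq hnd, mem_ker_proj]; rfl
    have hc' : α (zE β) ∈ Subgroup.center (Ext β) := by
      rw [Subgroup.mem_center_iff] at hc ⊢
      intro g
      have := congrArg α (hc (α.symm g))
      rw [map_mul, map_mul, MulEquiv.apply_symm_apply] at this
      exact this
    rw [center_eq hnd, mem_ker_proj] at hc'
    rcases eq_or_of_u (g := α (zE β)) (k := 1) hc' with e | e
    · exfalso
      have h1 : zE β = 1 := α.injective (by rw [e, map_one])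
      have := congrArg Ext.s h1
      simp only [zE, one_s] at this
      exact one_ne_zero this
    · rw [e, one_mul]

theorem sq_z {a : Ext β} (e : β a.u a.u = 1) : a * a = zE β := by
  rw [← sq, sq_eq, e]; rfl

theorem sq_one {a : Ext β} (e : β a.u a.u = 0) : a * a = 1 := by
  rw [← sq, sq_eq, e]; rfl

/-- three mutually orthogonal hyperbolic pairs -/
structure Hyp (β : V →ₗ[ZMod 2] V →ₗ[ZMod 2] ZMod 2) (e f : Fin 3 → V) : Prop where
  ee : ∀ i j, β (e i) (e j) = 0
  ff : ∀ i j, β (f i) (f j) = 0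
  fe : ∀ i j, β (f i) (e j) = 0
  ef : ∀ i j, β (e i) (f j) = if i = j then 1 else 0

theorem not_spl_of_hyp (hnd : ∀ u : V, (∀ v, β u v + β v u = 0) → u = 0) (e f : Fin 3 → V)
    (H : Hyp β e f) : ¬ Spl (Ext β) := by
  refine (pk hnd).not_spl (⟨0, e 0⟩ : Ext β) ⟨0, f 0⟩ ⟨0, e 0 + f 0 + e 1⟩ ⟨0, e 0 + f 0 + e 2⟩
    ⟨0, e 0 + f 0 + e 1 + e 2⟩ ⟨0, e 1 + f 1⟩ ⟨0, e 2 + f 2⟩ ⟨0, e 1 + f 1⟩
    ?_ ?_ ?_ ?_ ?_ ?_ ?_ ?_ ?_ ?_ ?_ ?_ ?_ ?_ ?_ ?_ ?_ ?_ ?_ ?_ ?_ ?_ ?_ ?_ ?_ ?_ ?_ ?_
  case refine_28 =>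
    apply eq_or_of_u
    simp only [mul_u]
    have k : ∀ v : V, v + v = 0 := v_add_self
    have : e 0 + (e 0 + f 0 + e 1 + e 2) + (e 0 + f 0 + e 2) + (e 0 + f 0 + e 1) =
        (e 0 + e 0) + (e 0 + e 0) + (f 0 + f 0) + (e 1 + e 1) + (e 2 + e 2) + f 0 := by abel
    simp only [this, k, zero_add, add_zero]
  case refine_2 => exact sq_one (H.ee 0 0)
  all_goals first
    | (apply sq_z
       simp only [mul_u, map_add, LinearMap.add_apply, H.ee, H.ff, H.fe, H.ef]
       decide)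
    | (rw [commute_iff]
       simp only [mul_u, map_add, LinearMap.add_apply, H.ee, H.ff, H.fe, H.ef]
       decide)
    | (rw [ne_eq, commute_iff]
       simp only [mul_u, map_add, LinearMap.add_apply, H.ee, H.ff, H.fe, H.ef]
       decide)


theorem hyp_bPlus (n : ℕ) (hn : 3 ≤ n) :
    Hyp (bPlus n) (fun i => Pi.single (Sum.inl (Fin.castLE hn i)) 1)
      (fun i => Pi.single (Sum.inr (Fin.castLE hn i)) 1) where
  ee i j := by simp [bPlus_apply, Pi.single_apply]
  ff i j := by simp [bPlus_apply, Pi.single_apply]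
  fe i j := by simp [bPlus_apply, Pi.single_apply]
  ef i j := by
    simp only [bPlus_apply, Pi.single_apply, Sum.inl.injEq, Sum.inr.injEq]
    by_cases hij : i = j
    · subst hij
      simp
    · have : Fin.castLE hn i ≠ Fin.castLE hn j := fun e => hij (Fin.castLE_injective hn e)
      rw [if_neg hij]
      apply Finset.sum_eq_zero
      intro k _
      by_cases h1 : k = Fin.castLE hn i
      · have h2 : ¬ k = Fin.castLE hn j := by rw [h1]; exact this
        rw [if_neg h2, mul_zero]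
      · rw [if_neg h1, zero_mul]

theorem not_spl_bPlus (n : ℕ) (hn : 3 ≤ n) : ¬ Spl (Ext (bPlus n)) :=
  not_spl_of_hyp (bPlus_nondeg n) _ _ (hyp_bPlus n hn)

theorem main {Q : Type*} [Group Q] [Finite Q] (n : ℕ) (hn : 3 ≤ n) (hQ : Cfsg.IsExtraspecial 2 Q)
    (hcard : Nat.card Q = 2 ^ (2 * n + 1))
    (hplus : ∃ E : Subgroup Q, Cfsg.IsElementaryAbelian 2 E ∧ Nat.card ↥E = 2 ^ (n + 1))
    (L : Subgroup (MulAut Q)) : ¬ (Cfsg.Inn Q).IsComplement' L := by
  intro hL
  obtain ⟨m, hm, hc, hcase⟩ := Cfsg.Agent.Lib.Helper91ES2.classify hQ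
  have hmn : m = n := by
    rw [hcard] at hc
    have := Nat.pow_right_injective (le_refl 2) hc
    omega
  subst hmn
  rcases hcase with ⟨⟨e⟩⟩ | ⟨⟨e⟩⟩
  · exact not_spl_bPlus m hn ((spl_of_complement L hL).congr e)
  · obtain ⟨E, hE, hEc⟩ := hplus
    have h1 := Cfsg.Agent.Lib.Helper91ES2.prankLE_of_equiv e
      (Cfsg.Agent.Lib.Helper91ES2.prank_minus m hm).1 E hE.1 hE.2
    rw [hEc] at h1
    have h2 : 2 ^ m < 2 ^ (m + 1) := Nat.pow_lt_pow_right (by norm_num) (by omega)
    omega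

end Cfsg.Agent.Lib.Helper9AutES2
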