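import Cfsg.Agent.Lib.Helper23CA0

set_option autoImplicit false

/-! Project 232 (S3351), piece B6 (`WPW`); the pieces B1, A15, A10, B3, B4, B2, A7, A1, B5, A14, A13 and XA4 are explicit hypotheses
(in skeleton form) at the end. -/

namespace Cfsg.Agent.Lib.Helper9CAB6

open Subgroup Matrix Cfsg.Agent.Lib.Helper23CE Cfsg.Agent.Lib.Helper23CA

variable {F : Type*} [Field F] {G : Type*} [Group G] {n : ℕ}

/-- B6.  The main step. -/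
theorem WPW (A : Fam F G n) (m : ℕ) (hm : m + 1 < n)
    (IH : ∀ x ∈ A.L (m + 1), x ∈ A.P m ∨ ∃ q ∈ A.P m, ∃ q' ∈ A.P m, x = q * A.W m * q')
    (p : G) (hp : p ∈ A.P (m + 1))
    (P_decomp : ∀ (A : Fam F G n) (m : ℕ) (_ : m < n) (p : G) (_ : p ∈ A.P m),
      (∃ l ∈ A.L m, ∃ x ∈ A.C (m + 1), ∃ h ∈ A.Hs m, p = l * x * h) ∧
        (∀ x ∈ A.C (m + 1), p * x * p⁻¹ ∈ A.C (m + 1)))
    (C_split : ∀ (A : Fam F G n) (m : ℕ) (_ : m ≤ n) (b : ℕ) (_ : b < m) (x : G) (_ : x ∈ A.C m),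
      ∃ y ∈ closure {x | ∃ a, a < m ∧ a ≠ b ∧ ∃ t, x = A.c m a t}, ∃ t, x = y * A.c m b t)
    (Hs_elem : ∀ (A : Fam F G n) (m : ℕ) (h : G) (_ : h ∈ A.Hs m), ∃ d, IsD d ∧ h = A.φ m d)
    (W_conj_P : ∀ (A : Fam F G n) (m : ℕ) (_ : m + 1 < n) (x : G) (_ : x ∈ A.P m),
      A.W (m + 1) * x * (A.W (m + 1))⁻¹ ∈ A.P (m + 1) ∧ (A.W (m + 1))⁻¹ * x * A.W (m + 1) ∈ A.P (m + 1))
    (W_conj_C0 : ∀ (A : Fam F G n) (m : ℕ) (_ : m < n) (y : G)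
      (_ : y ∈ closure {x | ∃ a, a < m + 1 ∧ a ≠ m ∧ ∃ t, x = A.c (m + 1) a t}),
      A.W m * y * (A.W m)⁻¹ ∈ A.L m)
    (rank1 : ∀ (A : Fam F G n) (m : ℕ) (g : SL 2 F),
      A.φ m g ∈ A.P m ∨ ∃ q ∈ A.P m, ∃ q' ∈ A.P m, A.φ m g = q * A.W m * q')
    (L_norm_C : ∀ (A : Fam F G n) (m : ℕ) (_ : m < n) (l : G) (_ : l ∈ A.L m) (x : G)
      (_ : x ∈ A.C (m + 1)), l * x * l⁻¹ ∈ A.C (m + 1))
    (L_basic : ∀ (A : Fam F G n), (∀ m m', m ≤ m' → A.L m ≤ A.L m') ∧ (∀ i m g, i < m → A.φ i g ∈ A.L m) ∧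
      (∀ m a t, A.c m a t ∈ A.L m) ∧ (∀ m, A.C m ≤ A.L m))
    (WW_conj_C1 : ∀ (A : Fam F G n) (m : ℕ) (_ : m + 1 < n) (y : G)
      (_ : y ∈ closure {x | ∃ a, a < m + 2 ∧ a ≠ m ∧ ∃ t, x = A.c (m + 2) a t}),
      (A.W (m + 1) * A.W m) * y * (A.W (m + 1) * A.W m)⁻¹ ∈ A.L (m + 1))
    (W_braid : ∀ (A : Fam F G n) (m : ℕ) (_ : m + 1 < n),
      A.W (m + 1) * A.W m * A.W (m + 1) = A.W m * A.W (m + 1) * A.W m)
    (W_conj_c : ∀ (A : Fam F G n) (m : ℕ) (_ : m < n) (a : ℕ) (_ : a < m) (t : F),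
      A.W m * A.c (m + 1) a t * (A.W m)⁻¹ = A.c m a t ∧ (A.W m)⁻¹ * A.c (m + 1) a t * A.W m = A.c m a (-t) ∧
      (A.W m)⁻¹ * A.c m a t * A.W m = A.c (m + 1) a t ∧ A.W m * A.c m a t * (A.W m)⁻¹ = A.c (m + 1) a (-t))
    (isD_conj : ∀ (d : SL 2 F) (_ : IsD d), (∀ t, d * u2 t * d⁻¹ = u2 (d.1 0 0 * d.1 0 0 * t)) ∧
      IsD (w0 * d * w0⁻¹) ∧ (w0 * d * w0⁻¹).1 0 0 = d.1 1 1 ∧ (w0 * d * w0⁻¹).1 1 1 = d.1 0 0 ∧
      IsD (w0⁻¹ * d * w0)) :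
    A.W (m + 1) * p * A.W (m + 1) ∈ A.P (m + 1) ∨
      ∃ q ∈ A.P (m + 1), ∃ q' ∈ A.P (m + 1), A.W (m + 1) * p * A.W (m + 1) = q * A.W (m + 1) * q' := by
  obtain ⟨hLmono, hφL, hcL, hCL⟩ := L_basic A
  have hLP : A.L (m + 1) ≤ A.P (m + 1) :=
    (le_sup_left : A.L (m + 1) ≤ A.L (m + 1) ⊔ A.Hs (m + 1)).trans le_sup_left
  have hHP : A.Hs (m + 1) ≤ A.P (m + 1) :=
    (le_sup_right : A.Hs (m + 1) ≤ A.L (m + 1) ⊔ A.Hs (m + 1)).trans le_sup_left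
  have hPL : A.P m ≤ A.L (m + 1) := by
    refine sup_le (sup_le (hLmono m (m + 1) (by omega)) ?_) (hCL (m + 1))
    unfold Fam.Hs
    rw [closure_le]
    rintro _ ⟨d, -, rfl⟩
    exact hφL m (m + 1) d (by omega)
  set w := A.W (m + 1) with hw
  set w' := A.W m with hw'
  obtain ⟨⟨l, hl, x, hx, h, hh, rfl⟩, -⟩ := P_decomp A (m + 1) hm p hp
  obtain ⟨d, hd, rfl⟩ := Hs_elem A (m + 1) h hh
  rcases IH l hl with hlP | ⟨p₁, hp₁, p₂, hp₂, rfl⟩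
  · -- case 1
    obtain ⟨y, hy, t, rfl⟩ := C_split A (m + 2) (by omega) (m + 1) (by omega) x hx
    have hc : A.c (m + 2) (m + 1) t = A.φ (m + 1) (u2 t) := by
      show (if m + 1 = m + 1 then A.φ (m + 1) (u2 t) else _) = _
      rw [if_pos rfl]
    have ha : w * l * w⁻¹ ∈ A.P (m + 1) := (W_conj_P A m hm l hlP).1
    have hb : w * y * w⁻¹ ∈ A.P (m + 1) := hLP (W_conj_C0 A (m + 1) hm y hy)
    have e : w * (l * (y * A.c (m + 2) (m + 1) t) * A.φ (m + 1) d) * w =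
        (w * l * w⁻¹) * (w * y * w⁻¹) * A.φ (m + 1) (w0 * u2 t * d * w0) := by
      rw [hc, map_mul, map_mul, map_mul]
      show w * (l * (y * A.φ (m + 1) (u2 t)) * A.φ (m + 1) d) * w =
        (w * l * w⁻¹) * (w * y * w⁻¹) * (w * A.φ (m + 1) (u2 t) * A.φ (m + 1) d * w)
      group
    rw [e]
    rcases rank1 A (m + 1) (w0 * u2 t * d * w0) with h1 | ⟨q, hq, q', hq', h1⟩
    · left
      exact mul_mem (mul_mem ha hb) h1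
    · right
      refine ⟨(w * l * w⁻¹) * (w * y * w⁻¹) * q, mul_mem (mul_mem ha hb) hq, q', hq', ?_⟩
      rw [h1, ← hw]; group
  · -- case 2
    right
    have hx' : p₂ * x * p₂⁻¹ ∈ A.C (m + 2) := L_norm_C A (m + 1) hm p₂ (hPL hp₂) x hx
    obtain ⟨y', hy', t, hxy⟩ := C_split A (m + 2) (by omega) m (by omega) _ hx'
    have ha : w * p₁ * w⁻¹ ∈ A.P (m + 1) := (W_conj_P A m hm p₁ hp₁).1
    have hb : (w * w') * y' * (w * w')⁻¹ ∈ A.P (m + 1) := hLP (WW_conj_C1 A m hm y' hy')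
    have hw'P : w' ∈ A.P (m + 1) := hLP (hφL m (m + 1) w0 (by omega))
    have hc : w⁻¹ * A.c (m + 2) m t * w ∈ A.P (m + 1) := by
      rw [(W_conj_c A (m + 1) hm m (by omega) t).2.1]
      exact hLP (hcL (m + 1) m (-t))
    have hp₂' : w⁻¹ * p₂ * w ∈ A.P (m + 1) := (W_conj_P A m hm p₂ hp₂).2
    have hh' : w⁻¹ * A.φ (m + 1) d * w ∈ A.P (m + 1) := by
      apply hHP
      apply Subgroup.subset_closure
      refine ⟨w0⁻¹ * d * w0, (isD_conj d hd).2.2.2.2, ?_⟩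
      rw [map_mul, map_mul, map_inv]
      rfl
    refine ⟨(w * p₁ * w⁻¹) * ((w * w') * y' * (w * w')⁻¹) * w', mul_mem (mul_mem ha hb) hw'P,
      w' * (w⁻¹ * A.c (m + 2) m t * w) * (w⁻¹ * p₂ * w) * (w⁻¹ * A.φ (m + 1) d * w),
      mul_mem (mul_mem (mul_mem hw'P hc) hp₂') hh', ?_⟩
    have hbr : w * w' * w = w' * w * w' := W_braid A m hm
    have e1 : w * (p₁ * w' * p₂ * x * A.φ (m + 1) d) * w =
        w * p₁ * w' * (p₂ * x * p₂⁻¹) * p₂ * A.φ (m + 1) d * w := by group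
    have e2 : (w * p₁ * w⁻¹) * ((w * w') * y' * (w * w')⁻¹) * w' * w *
        (w' * (w⁻¹ * A.c (m + 2) m t * w) * (w⁻¹ * p₂ * w) * (w⁻¹ * A.φ (m + 1) d * w)) =
        w * p₁ * w' * y' * (w * w')⁻¹ * (w' * w * w') * w⁻¹ * A.c (m + 2) m t * p₂ *
          A.φ (m + 1) d * w := by group
    rw [e1, e2, ← hbr, hxy]
    group

end Cfsg.Agent.Lib.Helper9CAB6
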