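import Cfsg.Agent.Lib.Helper23CE0
import Cfsg.Agent.Lib.Helper39CEA2

set_option autoImplicit false

/-! Project 231 (S3353), piece A4: `aut_class` from A1 (`unip_of_kap`), A2 (`Helper39CEA2.aut_type`), A3 (`aut_form`)
and E2b (`sl2_swap`); the pieces A1, A3, E2b are explicit hypotheses. -/

namespace Cfsg.Agent.Lib.Helper9CEA4

open Matrix Cfsg.Agent.Lib.Helper23CE

variable {F : Type*} [Field F]

/-- A4.  (from A2, A3, E2b) -/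
theorem aut_class [Finite F] (p : ℕ) [Fact p.Prime] [CharP F p] (h2 : (2 : F) ≠ 0)
    (unip_of_kap : ∀ g : SL 2 F, kap g = g⁻¹ → g ^ p = 1 → (∃ s, g = u2 s) ∨ (∃ s, g = l2 s))
    (aut_form : ∀ (δ : SL 2 F ≃* SL 2 F) (f g : F → F), (∀ t, δ (u2 t) = u2 (f t)) →
      (∀ t, δ (l2 t) = l2 (g t)) →
      ∃ (a : F) (σ : F ≃+* F), a ≠ 0 ∧ (∀ t, f t = a * σ t) ∧ (∀ t, g t = a⁻¹ * σ t))
    (sl2_swap : ∃ δ : SL 2 F ≃* SL 2 F, (∀ t, δ (u2 t) = l2 t) ∧ (∀ t, δ (l2 t) = u2 t))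
    (δ : SL 2 F ≃* SL 2 F)
    (hδ : ∀ g, δ (kap g) = kap (δ g)) :
    ∃ (a : F) (σ : F ≃+* F), a ≠ 0 ∧
      (((∀ t, δ (u2 t) = u2 (a * σ t)) ∧ (∀ t, δ (l2 t) = l2 (a⁻¹ * σ t))) ∨
       ((∀ t, δ (u2 t) = l2 (a * σ t)) ∧ (∀ t, δ (l2 t) = u2 (a⁻¹ * σ t)))) := by
  rcases Cfsg.Agent.Lib.Helper39CEA2.aut_type p h2 δ hδ unip_of_kap with ⟨hu, hl⟩ | ⟨hu, hl⟩
  · choose f hf using hu
    choose g hg using hl
    obtain ⟨a, σ, ha, h1, h2'⟩ := aut_form δ f g hf hg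
    refine ⟨a, σ, ha, Or.inl ⟨?_, ?_⟩⟩
    · intro t; rw [hf, h1]
    · intro t; rw [hg, h2']
  · choose f hf using hu
    choose g hg using hl
    obtain ⟨sw, hs1, hs2⟩ := sl2_swap
    obtain ⟨a, σ, ha, h1, h2'⟩ := aut_form (δ.trans sw) f g
      (by intro t; rw [MulEquiv.trans_apply, hf, hs2])
      (by intro t; rw [MulEquiv.trans_apply, hg, hs1])
    refine ⟨a, σ, ha, Or.inr ⟨?_, ?_⟩⟩
    · intro t; rw [hf, h1]
    · intro t; rw [hg, h2']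

end Cfsg.Agent.Lib.Helper9CEA4
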