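import Cfsg.Agent.Lib.Helper9Golay

set_option autoImplicit false
open Cfsg

/-! The punctured binary Golay code of length 23. -/

namespace Cfsg.Agent.Lib.Helper9Golay23

open Cfsg.Agent.Lib.Helper9Golay

/-- the punctured code -/
def C23 : Set (ZMod 23 → ZMod 2) := {u | ∃ w ∈ golayCode, ∀ x : ZMod 23, u x = w (some x)}

def pw (n : ℕ) : ZMod 23 → ZMod 2 := fun x => toWord n (some x)

theorem pw_xor (a b : ℕ) : pw (a ^^^ b) = pw a + pw b := by
  funext x
  show toWord (a ^^^ b) (some x) = toWord a (some x) + toWord b (some x)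
  rw [toWord_xor]; rfl

theorem mem_C23_iff (u : ZMod 23 → ZMod 2) : u ∈ C23 ↔ ∃ k < 4096, u = pw (code k) := by
  constructor
  · rintro ⟨w, hw, hu⟩
    obtain ⟨n, hn, rfl⟩ := (mem_golayCode_iff w).1 hw
    obtain ⟨k, hk, rfl⟩ := (mem_codeList_iff' n).1 hn
    exact ⟨k, hk, funext hu⟩
  · rintro ⟨k, _, rfl⟩
    exact ⟨toWord (code k), (mem_golayCode_iff _).2 ⟨_, code_mem k, rfl⟩, fun _ => rfl⟩

theorem norm_pw (n : ℕ) : hammingNorm (pw n) = popc 23 n := by
  rw [popc_eq, hammingNorm, Finset.card_filter]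
  have h : ∀ x : ZMod 23, (if pw n x ≠ 0 then 1 else 0) =
      (fun i : ℕ => if n.testBit i = true then 1 else 0) (x : Fin 23).val := by
    intro x
    show (if (if n.testBit (idx (some x)) = true then (1 : ZMod 2) else 0) ≠ 0 then 1 else 0) = _
    have : idx (some x) = (x : Fin 23).val := rfl
    rw [this]
    by_cases hb : n.testBit (x : Fin 23).val = true
    · simp [hb]
    · simp [hb]
  rw [Finset.sum_congr rfl (fun x _ => h x)]
  exact Fin.sum_univ_eq_sum_range (fun i : ℕ => if n.testBit i = true then 1 else 0) 23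

theorem min_weight : ∀ k < 4096, k ≠ 0 → 7 ≤ popc 23 (code k) := by
  have h : (List.range 4096).all (fun k => k == 0 || Nat.ble 7 (popc 23 (code k))) = true := by
    decide +kernel
  intro k hk h0
  have := forall_lt_of_all h k hk
  simp only [Bool.or_eq_true, beq_iff_eq, Nat.ble_eq] at this
  rcases this with h1 | h1
  · exact absurd h1 h0
  · exact h1

theorem code_zero : code 0 = 0 := by decide +kernel

theorem pw_code_inj {a b : ℕ} (ha : a < 4096) (hb : b < 4096) (h : pw (code a) = pw (code b)) :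
    a = b := by
  obtain ⟨c, hc, hcc⟩ := (mem_codeList_iff' _).1 (xor_mem_codeList (code_mem a) (code_mem b))
  have h1 : pw (code c) = 0 := by
    rw [hcc, pw_xor, h]
    funext x
    exact CharTwo.add_self_eq_zero _
  have h2 : popc 23 (code c) = 0 := by rw [← norm_pw, h1, hammingNorm_zero]
  have h3 : c = 0 := by
    by_contra h0
    have := min_weight c hc h0
    omega
  rw [h3, code_zero] at hcc
  exact code_inj ha hb (Nat.xor_eq_zero_iff.mp hcc.symm)

theorem C23_eq : C23 = (fun k => pw (code k)) '' (Finset.range 4096 : Set ℕ) := by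
  ext u
  rw [mem_C23_iff]
  constructor
  · rintro ⟨k, hk, rfl⟩
    exact ⟨k, by simpa using hk, rfl⟩
  · rintro ⟨k, hk, rfl⟩
    exact ⟨k, by simpa using hk, rfl⟩

theorem pw_code_injOn : Set.InjOn (fun k => pw (code k)) (Finset.range 4096 : Set ℕ) := by
  intro a ha b hb h
  exact pw_code_inj (by simpa using ha) (by simpa using hb) h

theorem ncard_C23_filter (P : (ZMod 23 → ZMod 2) → Prop) (Q : ℕ → Prop) [DecidablePred Q]
    (h : ∀ k < 4096, P (pw (code k)) ↔ Q k) :
    {u | u ∈ C23 ∧ P u}.ncard = ((Finset.range 4096).filter Q).card := by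
  have : {u | u ∈ C23 ∧ P u}
      = (fun k => pw (code k)) '' (((Finset.range 4096).filter Q : Finset ℕ) : Set ℕ) := by
    ext s
    rw [C23_eq]
    constructor
    · rintro ⟨⟨k, hk, rfl⟩, hP⟩
      have hk' : k < 4096 := by simpa using hk
      exact ⟨k, by simpa [hk'] using (h k hk').1 hP, rfl⟩
    · rintro ⟨k, hk, rfl⟩
      have hk' : k < 4096 ∧ Q k := by simpa using hk
      exact ⟨⟨k, by simpa using hk'.1, rfl⟩, (h k hk'.1).2 hk'.2⟩
  rw [this, Set.InjOn.ncard_image, Set.ncard_coe_finset]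
  exact pw_code_injOn.mono (by intro k hk; simp at hk ⊢; exact hk.1)

theorem ncard_weight (m : ℕ) : {u | u ∈ C23 ∧ hammingNorm u = m}.ncard =
    ((Finset.range 4096).filter (fun k => popc 23 (code k) = m)).card :=
  ncard_C23_filter _ _ (fun k _ => by rw [norm_pw])

theorem ncard_C23 : C23.ncard = 4096 := by
  rw [C23_eq, Set.InjOn.ncard_image pw_code_injOn, Set.ncard_coe_finset, Finset.card_range]

theorem seven_le {u : ZMod 23 → ZMod 2} (hu : u ∈ C23) (h0 : u ≠ 0) : 7 ≤ hammingNorm u := by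
  obtain ⟨k, hk, rfl⟩ := (mem_C23_iff u).1 hu
  rw [norm_pw]
  apply min_weight k hk
  rintro rfl
  apply h0
  rw [code_zero]
  funext x
  show toWord 0 (some x) = 0
  rw [toWord_zero]; rfl

theorem add_mem {u v : ZMod 23 → ZMod 2} (hu : u ∈ C23) (hv : v ∈ C23) : u + v ∈ C23 := by
  obtain ⟨a, ha, hua⟩ := hu
  obtain ⟨b, hb, hvb⟩ := hv
  exact ⟨a + b, golayCode.add_mem ha hb, fun x => by
    show u x + v x = a (some x) + b (some x)
    rw [hua, hvb]⟩

end Cfsg.Agent.Lib.Helper9Golay23
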