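import Cfsg.Agent.Lib.Helper9Golay23

set_option autoImplicit false
set_option linter.constructorNameAsVariable false
open Cfsg

/-! The punctured binary Golay code of length 23 is perfect. -/

namespace Cfsg.Agent.Lib.Helper9Golay23b

open Cfsg.Agent.Lib.Helper9Golay Cfsg.Agent.Lib.Helper9Golay23

/-- number of subsets with at most `3` elements -/
theorem card_small_subsets {α : Type*} [Fintype α] [DecidableEq α] (m : ℕ) :
    (Finset.univ.filter (fun s : Finset α => s.card ≤ m)).card =
      ∑ k ∈ Finset.range (m + 1), (Fintype.card α).choose k := by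
  have h : Finset.univ.filter (fun s : Finset α => s.card ≤ m) =
      (Finset.range (m + 1)).biUnion (fun k => Finset.powersetCard k Finset.univ) := by
    ext s
    simp only [Finset.mem_filter, Finset.mem_univ, true_and, Finset.mem_biUnion, Finset.mem_range,
      Finset.mem_powersetCard, Finset.subset_univ]
    constructor
    · intro hs; exact ⟨s.card, by omega, rfl⟩
    · rintro ⟨k, hk, rfl⟩; omega
  rw [h, Finset.card_biUnion]
  · apply Finset.sum_congr rfl
    intro k _
    rw [Finset.card_powersetCard, Finset.card_univ]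
  · intro a _ b _ hab
    exact Finset.pairwise_disjoint_powersetCard _ hab

/-- the support of a binary vector -/
def sp {α : Type*} [Fintype α] (v : α → ZMod 2) : Finset α := Finset.univ.filter (fun x => v x ≠ 0)

theorem sp_inj {α : Type*} [Fintype α] : Function.Injective (sp : (α → ZMod 2) → Finset α) := by
  intro v w h
  funext x
  have h1 : x ∈ sp v ↔ x ∈ sp w := by rw [h]
  simp only [sp, Finset.mem_filter, Finset.mem_univ, true_and] at h1
  have key : ∀ a b : ZMod 2, (a ≠ 0 ↔ b ≠ 0) → a = b := by decide
  exact key _ _ h1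

theorem card_ball {α : Type*} [Fintype α] [DecidableEq α] (m : ℕ) :
    (Finset.univ.filter (fun v : α → ZMod 2 => hammingNorm v ≤ m)).card =
      ∑ k ∈ Finset.range (m + 1), (Fintype.card α).choose k := by
  rw [← card_small_subsets]
  apply Finset.card_bij (fun v _ => sp v)
  · intro v hv
    simp only [Finset.mem_filter, Finset.mem_univ, true_and] at hv ⊢
    exact hv
  · intro v _ w _ h
    exact sp_inj h
  · intro s hs
    simp only [Finset.mem_filter, Finset.mem_univ, true_and] at hs
    have e : sp (fun x => if x ∈ s then (1 : ZMod 2) else 0) = s := by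
      ext x
      simp [sp]
    refine ⟨fun x => if x ∈ s then 1 else 0, ?_, e⟩
    simp only [Finset.mem_filter, Finset.mem_univ, true_and]
    show (sp _).card ≤ m
    rw [e]; exact hs

abbrev V := ZMod 23 → ZMod 2

theorem add_self_V (v : V) : v + v = 0 := by
  funext x
  exact CharTwo.add_self_eq_zero _

theorem sub_eq_add_V (u v : V) : u - v = u + v := by
  funext x
  exact CharTwo.sub_eq_add _ _

theorem eq_of_close {c c' : V} (hc : c ∈ C23) (hc' : c' ∈ C23) (h : hammingNorm (c + c') ≤ 6) :
    c = c' := by
  by_contra hne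
  have h0 : c + c' ≠ 0 := by
    intro h0
    apply hne
    have : c = c + (c' + c') := by rw [add_self_V, add_zero]
    rw [this, ← add_assoc, h0, zero_add]
  have := seven_le (add_mem hc hc') h0
  omega

noncomputable def Cf : Finset V := (Finset.range 4096).image (fun k => pw (code k))

theorem mem_Cf {c : V} : c ∈ Cf ↔ c ∈ C23 := by
  rw [C23_eq, Cf]
  simp

theorem card_Cf : Cf.card = 4096 := by
  rw [Cf, Finset.card_image_of_injOn pw_code_injOn, Finset.card_range]

def B : Finset V := Finset.univ.filter (fun v : V => hammingNorm v ≤ 3)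

theorem mem_B {e : V} : e ∈ B ↔ hammingNorm e ≤ 3 := by
  simp only [B, Finset.mem_filter, Finset.mem_univ, true_and]

theorem card_B : B.card = 2048 := by
  rw [B, card_ball, ZMod.card]
  decide

theorem dist_eq (x y : V) : hammingDist x y = hammingNorm (x + y) := by
  unfold hammingDist hammingNorm
  congr 1
  ext i
  simp only [Finset.mem_filter, Finset.mem_univ, true_and, Pi.add_apply]
  have key : ∀ a b : ZMod 2, (a ≠ b ↔ a + b ≠ 0) := by decide
  exact key _ _

theorem norm_add_le (e e' : V) : hammingNorm (e + e') ≤ hammingNorm e + hammingNorm e' := by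
  have h := hammingDist_triangle e 0 e'
  rw [hammingDist_zero_right, hammingDist_zero_left, dist_eq] at h
  exact h

theorem card_V : Fintype.card V = 8388608 := by
  rw [Fintype.card_fun, ZMod.card, ZMod.card]
  norm_num

theorem cover (u : V) : ∃ c ∈ C23, ∃ e : V, hammingNorm e ≤ 3 ∧ u = c + e := by
  have hinj : Set.InjOn (fun p : V × V => p.1 + p.2) ((Cf ×ˢ B : Finset (V × V)) : Set (V × V)) := by
    intro p h1 q h2 h
    simp only [Finset.coe_product, Set.mem_prod, Finset.mem_coe, mem_Cf, mem_B] at h1 h2
    obtain ⟨c, e⟩ := p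
    obtain ⟨c', e'⟩ := q
    have h' : c + e = c' + e' := h
    have he : hammingNorm e ≤ 3 := h1.2
    have he' : hammingNorm e' ≤ 3 := h2.2
    have h3 : c + c' = e + e' := by
      have : c + c' = (c + e) + (e + c') := by
        rw [add_assoc, ← add_assoc e e, add_self_V, zero_add]
      rw [this, h', add_comm e c', add_assoc, ← add_assoc e', add_comm e' c', add_assoc c',
        ← add_assoc c', add_self_V, zero_add, add_comm]
    have h4 : c = c' := by
      apply eq_of_close h1.1 h2.1
      rw [h3]
      have := norm_add_le e e'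
      omega
    subst h4
    have h5 : e = e' := add_left_cancel h'
    rw [h5]
  have hcard : ((Cf ×ˢ B).image (fun p : V × V => p.1 + p.2)).card = Fintype.card V := by
    rw [Finset.card_image_of_injOn hinj, Finset.card_product, card_Cf, card_B, card_V]
  have huniv := Finset.eq_univ_of_card _ hcard
  have hu : u ∈ (Cf ×ˢ B).image (fun p : V × V => p.1 + p.2) := by rw [huniv]; exact Finset.mem_univ u
  rw [Finset.mem_image] at hu
  simp only [Finset.mem_product, mem_Cf, mem_B, Prod.exists] at hu
  obtain ⟨c, e, hp, hce⟩ := hu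
  exact ⟨c, hp.1, e, hp.2, hce.symm⟩

theorem perfect (u : V) : ∃! c : V, c ∈ C23 ∧ hammingDist u c ≤ 3 := by
  obtain ⟨c, hc, e, he, rfl⟩ := cover u
  have h1 : hammingDist (c + e) c ≤ 3 := by
    rw [dist_eq, add_comm c e, add_assoc, add_self_V, add_zero]; exact he
  refine ⟨c, ⟨hc, ?_⟩, ?_⟩
  · exact h1
  · rintro c' ⟨hc', hd⟩
    apply eq_of_close hc' hc
    have h2 := hammingDist_triangle c' (c + e) c
    rw [hammingDist_comm c' (c + e)] at h2
    rw [← dist_eq]
    omega

end Cfsg.Agent.Lib.Helper9Golay23b
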