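import Cfsg.Agent.Lib.Helper9M12b
import Cfsg.Agent.Lib.Helper10Mathieu

set_option autoImplicit false
open Cfsg
open scoped Pointwise

namespace Cfsg.Agent.Lib.Helper9M12Simple

open Cfsg.Agent.Lib.Helper9Golay Cfsg.Agent.Lib.Helper9Golay2 Cfsg.Agent.Lib.Helper9M24
open Cfsg.Agent.Lib.Helper9M24Order Cfsg.Agent.Lib.Helper9M12b
open Cfsg.Agent.Lib.Helper10Sharp Cfsg.Agent.Lib.Helper10Mathieu

/-- the action of a dodecad stabiliser on the dodecad -/
def dAct (d : Finset GolayPt) : SubMulAction (MulAction.stabilizer M24 d) GolayPt where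
  carrier := (d : Set GolayPt)
  smul_mem' := by
    rintro ⟨⟨g, hg⟩, hgd⟩ p hp
    have hgd' : g • d = d := hgd
    exact (apply_mem_iff hgd' p).2 hp

theorem card_dAct {d : Finset GolayPt} (hd : d ∈ dodecads) : Nat.card (dAct d) = 12 := by
  have : Nat.card (dAct d) = Nat.card (d : Set GolayPt) := rfl
  rw [this, Nat.card_coe_set_eq, Set.ncard_coe_finset, hd.2]

theorem sharp_dAct {d : Finset GolayPt} (hd : d ∈ dodecads) :
    Sharp (MulAction.stabilizer M24 d) (dAct d) 5 := by
  constructor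
  · rw [MulAction.isMultiplyPretransitive_iff]
    intro x y
    obtain ⟨g, hg, h1, _⟩ := sharp hd (x.trans (Function.Embedding.subtype _))
      (y.trans (Function.Embedding.subtype _)) (fun i => (x i).2) (fun i => (y i).2)
    refine ⟨⟨⟨g, hg.1⟩, hg.2⟩, ?_⟩
    apply DFunLike.ext
    intro i
    apply Subtype.ext
    exact h1 i
  · intro x
    rw [eq_bot_iff]
    rintro ⟨⟨g, hg⟩, hgd⟩ hgx
    rw [MulAction.mem_stabilizer_iff] at hgx
    obtain ⟨g0, _, _, h2⟩ := sharp hd (x.trans (Function.Embedding.subtype _))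
      (x.trans (Function.Embedding.subtype _)) (fun i => (x i).2) (fun i => (x i).2)
    have e1 : g = g0 := h2 g ⟨hg, hgd⟩ (fun i => by
      have := congrArg Subtype.val (DFunLike.congr_fun hgx i)
      exact this)
    have e2 : (1 : Equiv.Perm GolayPt) = g0 := h2 1 (SD d).one_mem (fun i => rfl)
    rw [Subgroup.mem_bot]
    apply Subtype.ext
    apply Subtype.ext
    exact e1.trans e2.symm

theorem simple_M12 {d : Finset GolayPt} (hd : d ∈ dodecads) :
    IsSimpleGroup (MulAction.stabilizer M24 d) :=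
  (simple_of_sharp5_12 (sharp_dAct hd) (card_dAct hd)).1

/-- the iterated stabiliser is isomorphic to the intersection of stabilisers -/
def stabEquiv (d : Finset GolayPt) (p : GolayPt) (hp : p ∈ d) :
    MulAction.stabilizer (MulAction.stabilizer M24 d) (⟨p, hp⟩ : dAct d) ≃*
      ↥(MulAction.stabilizer M24 d ⊓ MulAction.stabilizer M24 p) where
  toFun g := ⟨g.1.1, g.1.2, by
    have := congrArg Subtype.val (MulAction.mem_stabilizer_iff.1 g.2)
    exact MulAction.mem_stabilizer_iff.2 this⟩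
  invFun g := ⟨⟨g.1, g.2.1⟩, by
    rw [MulAction.mem_stabilizer_iff]
    apply Subtype.ext
    exact MulAction.mem_stabilizer_iff.1 g.2.2⟩
  left_inv _ := rfl
  right_inv _ := rfl
  map_mul' _ _ := rfl

theorem simple_M11 {d : Finset GolayPt} (hd : d ∈ dodecads) {p : GolayPt} (hp : p ∈ d) :
    IsSimpleGroup ↥(MulAction.stabilizer M24 d ⊓ MulAction.stabilizer M24 p) := by
  have h4 := (sharp_dAct hd).stabilizer (by rw [card_dAct hd]; norm_num) (⟨p, hp⟩ : dAct d)
  have h11 : Nat.card (SubMulAction.ofStabilizer (MulAction.stabilizer M24 d) (⟨p, hp⟩ : dAct d)) = 11 := by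
    rw [SubMulAction.nat_card_ofStabilizer_eq, card_dAct hd]
  have := (simple_of_sharp4_11 h4 h11).1
  exact @MulEquiv.isSimpleGroup _ _ _ _ this (stabEquiv d p hp).symm

end Cfsg.Agent.Lib.Helper9M12Simple
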