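import Cfsg.Agent.Lib.Helper9ONJ1a
set_option maxRecDepth 100000
set_option autoImplicit false
namespace Cfsg.Agent.Lib.Helper9ONJ1
open Cfsg.Agent.Lib.Helper35TC Cfsg.Agent.Lib.Helper35ONa Cfsg.Agent.Lib.Helper9ONW Cfsg.Agent.Lib.Helper9ONS
open Cfsg.Agent.Lib.Helper9ONJ1a
def E2w : List (List ℕ) := [[0], [2, 0, 3, 0, 2, 0, 3, 0, 2, 0, 3, 0, 2, 0, 3, 0, 2, 0, 2, 0, 3, 0, 3, 0, 2, 0, 3, 0, 2, 0, 3, 0, 2, 0, 3, 0, 2, 0, 3], [2, 0, 2, 0, 3, 0, 2, 0, 2, 0, 3, 0, 2, 0, 3, 0, 3, 0, 2, 0, 3, 0, 2, 0, 2, 0, 3, 0, 2, 0, 3, 0, 3, 0, 2, 0, 3, 0, 3]]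
def Q2w : List (List ℕ) := [[], [0], [2], [4], [0, 2], [0, 4], [2, 4], [0, 2, 4]]
def QC2 : List (List (List ℕ × ℕ)) := [[([], 1), ([], 2), ([], 3)], [([], 0), ([], 4), ([], 5)], [([], 4), ([], 0), ([], 6)], [([], 5), ([], 6), ([], 0)], [([], 2), ([], 1), ([], 7)], [([], 3), ([], 7), ([], 1)], [([], 7), ([], 3), ([], 2)], [([], 6), ([], 5), ([], 4)]]
def wit2 : List (List ℕ × ℕ × List ℕ × ℕ) := [([], 0, [], 0), ([], 1, [], 0), ([3, 0, 3, 0, 2, 0, 3, 0, 2, 0, 3, 0, 2, 0, 3, 0, 2, 0, 3], 1, [], 0), ([3, 0, 2, 0, 2, 0, 3, 0, 2, 0, 3, 0, 3, 0, 2, 0, 3, 0, 3], 1, [], 0), ([3, 0, 2, 0, 3, 0, 2, 0, 3, 0, 3, 0, 2, 0, 3, 0, 3, 0, 2, 0, 3], 1, [], 0), ([2, 0, 3, 0, 3, 0, 2, 0, 3, 0, 2, 0, 2, 0, 3, 0, 3, 0, 2], 1, [], 0), ([3, 0, 2, 0, 2, 0, 3, 0, 3, 0, 2, 0, 3, 0, 2, 0, 2, 0, 3], 1, [], 0), ([3, 0, 3, 0, 2, 0, 3, 0, 2, 0, 2, 0, 3, 0, 2, 0, 3, 0,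 3, 0, 2, 0, 3, 0, 2], 1, [], 0)]
theorem w2 : Wit S0 x 2 3 :=
  list_case S0 x 2 3 E2w Q2w QC2 wit2 (.mul (.of .b) (.of .g)) (by decide +kernel) (by decide +kernel)
    (by decide +kernel) (by decide +kernel) (by decide +kernel)
theorem w3 : Wit S0 x 3 1 :=
  prime_case S0 x 3 (by norm_num) [2] [3, 0, 2, 0, 3, 0, 2, 0, 2, 0, 3, 0, 2, 0, 3, 0, 2, 0, 3, 0] [3, 0, 2, 0, 3, 0, 3, 0, 2, 0, 3, 0, 2, 0, 3, 0, 2, 0, 3, 0] 1 1 one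
    (by decide +kernel) (by decide +kernel) (by decide +kernel)
theorem w5 : Wit S0 x 5 1 :=
  prime_case S0 x 5 (by norm_num) [0, 2, 0, 3, 0, 2, 0, 3, 0, 2, 0, 3, 0, 2] [3, 0, 2, 0, 3, 0] [3, 0, 2, 0, 3, 0, 3] 2 1 one
    (by decide +kernel) (by decide +kernel) (by decide +kernel)
theorem w7 : Wit S0 x 7 1 :=
  prime_case S0 x 7 (by norm_num) [0, 2] [] [3] 2 1 one
    (by decide +kernel) (by decide +kernel) (by decide +kernel)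
theorem w11 : Wit S0 x 11 1 :=
  prime_case S0 x 11 (by norm_num) [0, 2, 0, 3, 0, 2, 0, 3, 0, 2, 0, 2, 0, 3, 0, 2, 0, 3] [2, 0, 2, 0, 2] [2, 0, 3, 0, 2, 0, 2, 0, 3] 1 1 one
    (by decide +kernel) (by decide +kernel) (by decide +kernel)
theorem w19 : Wit S0 x 19 1 :=
  prime_case S0 x 19 (by norm_num) [0, 2, 0, 3] [2, 0, 2] [3, 0, 2, 0, 3, 0, 2] 2 1 one
    (by decide +kernel) (by decide +kernel) (by decide +kernel)
theorem rel1 : eqChk (.pow (.mul x y) 7) one = true := by decide +kernel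
theorem rel2 : eqChk (.pow (.pow y 7) 1) y = true := by decide +kernel
theorem card_le : Nat.card (cl S0) ≤ 175560 := by
  have h0 := bd0
  have h1 := bd1
  have h2 := bd2
  have h3 := bd3
  have h4 := bd4
  have hl : Nat.card (cl (S5w.map (mkW S0))) = 1 := card_cl_nil S0
  omega
theorem card_eq : Nat.card (cl S0) = 175560 := by
  apply le_antisymm card_le
  have d0 : 2 ^ 3 * 3 ^ 1 ∣ Nat.card (cl S0) :=
    Nat.Coprime.mul_dvd_of_dvd_of_dvd (by norm_num) w2.dvd w3.dvd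
  have d1 : 2 ^ 3 * 3 ^ 1 * 5 ^ 1 ∣ Nat.card (cl S0) :=
    Nat.Coprime.mul_dvd_of_dvd_of_dvd (by norm_num) d0 w5.dvd
  have d2 : 2 ^ 3 * 3 ^ 1 * 5 ^ 1 * 7 ^ 1 ∣ Nat.card (cl S0) :=
    Nat.Coprime.mul_dvd_of_dvd_of_dvd (by norm_num) d1 w7.dvd
  have d3 : 2 ^ 3 * 3 ^ 1 * 5 ^ 1 * 7 ^ 1 * 11 ^ 1 ∣ Nat.card (cl S0) :=
    Nat.Coprime.mul_dvd_of_dvd_of_dvd (by norm_num) d2 w11.dvd
  have d4 : 2 ^ 3 * 3 ^ 1 * 5 ^ 1 * 7 ^ 1 * 11 ^ 1 * 19 ^ 1 ∣ Nat.card (cl S0) :=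
    Nat.Coprime.mul_dvd_of_dvd_of_dvd (by norm_num) d3 w19.dvd
  have := Nat.le_of_dvd Nat.card_pos d4
  norm_num at this
  exact this
theorem simple : IsSimpleGroup (cl S0) := by
  apply simple_of_wit x y 7 1 rel1 rel2
  · intro h
    have h1 : Nat.card (cl S0) = 1 := by
      show Nat.card (cl [x, y]) = 1
      rw [h, Subgroup.card_bot]
    rw [card_eq] at h1
    exact absurd h1 (by norm_num)
  · intro r hr hd
    have hc : Nat.card (cl [x, y]) = 175560 := card_eq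
    rw [hc] at hd ⊢
    have hm := prime_mem_of_dvd_prod r hr [2, 2, 2, 3, 5, 7, 11, 19] (by
      intro q hq
      simp only [List.mem_cons, List.not_mem_nil, or_false] at hq
      rcases hq with rfl | rfl | rfl | rfl | rfl | rfl | rfl | rfl <;> norm_num) (by norm_num; exact hd)
    simp only [List.mem_cons, List.not_mem_nil, or_false] at hm
    rcases hm with rfl | rfl | rfl | rfl | rfl | rfl | rfl | rfl
    · exact ⟨3, w2, by norm_num⟩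
    · exact ⟨3, w2, by norm_num⟩
    · exact ⟨3, w2, by norm_num⟩
    · exact ⟨1, w3, by norm_num⟩
    · exact ⟨1, w5, by norm_num⟩
    · exact ⟨1, w7, by norm_num⟩
    · exact ⟨1, w11, by norm_num⟩
    · exact ⟨1, w19, by norm_num⟩

end Cfsg.Agent.Lib.Helper9ONJ1
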