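import Mathlib
import Cfsg.Prelude.Def_KGroupFacts
import Cfsg.Agent.Lib.Helper69Schur

set_option autoImplicit false

/-!
Central extensions of multiply transitive groups: a central extension of a 3-transitive group
which splits over a point stabiliser splits, up to an explicit defect subgroup.
-/

namespace Cfsg.Agent.Lib.Helper9Stem

open Cfsg Cfsg.Agent.Lib.Helper69Schur
open scoped commutatorElement

universe u v w

section
variable {Γ : Type u} {G : Type v} [Group Γ] [Group G] (σ : Γ →* G)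

/-- A central extension splits over (the image of) a perfect group with trivial multiplier. -/
theorem exists_section (hσ : Function.Surjective σ) (hc : σ.ker ≤ Subgroup.center Γ)
    {H : Type w} [Group H] [Finite H] (ι : H →* G) (hperf : commutator H = ⊤)
    (hM : HasCyclicSchurMultiplier H 1) : ∃ s : H →* Γ, ∀ x, σ (s x) = ι x := by
  have h1s : Function.Surjective (pb1 ι σ) := pb1_surjective ι σ hσ
  have h1c : (pb1 ι σ).ker ≤ Subgroup.center (pb ι σ) := ker_pb1_le_center ι σ hc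
  obtain ⟨f, hf⟩ := exists_surj_of_hasSchurMultiplier hM (pb1 ι σ) h1s h1c
  have hbot : ∀ y : pb ι σ, y ∈ (pb1 ι σ).ker → y ∈ commutator (pb ι σ) → y = 1 := by
    intro y hy1 hy2
    obtain ⟨a, ha⟩ := hf ⟨y, hy1, hy2⟩
    have h1 : a = 1 := Subsingleton.elim _ _
    rw [h1, map_one] at ha
    exact (congrArg Subtype.val ha).symm
  let ξ : commutator (pb ι σ) →* H := (pb1 ι σ).comp (commutator (pb ι σ)).subtype
  have hinj : Function.Injective ξ := by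
    rw [injective_iff_map_eq_one]
    intro a ha
    exact Subtype.ext (hbot a.1 ha a.2)
  have hsurj : Function.Surjective ξ := by
    intro x
    have h2 := commutator_le_map_of_surjective (pb1 ι σ) h1s
    rw [hperf] at h2
    obtain ⟨y, hy, rfl⟩ := h2 (Subgroup.mem_top x)
    exact ⟨⟨y, hy⟩, rfl⟩
  let e : commutator (pb ι σ) ≃* H := MulEquiv.ofBijective ξ ⟨hinj, hsurj⟩
  refine ⟨((pb2 ι σ).comp (commutator (pb ι σ)).subtype).comp e.symm.toMonoidHom, ?_⟩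
  intro x
  have h3 : ξ (e.symm x) = x := e.apply_symm_apply x
  change σ (pb2 ι σ (e.symm x).1) = ι x
  rw [← pb_comm]
  exact congrArg ι h3

end

section threeT
variable {Γ : Type u} {G : Type v} {H : Type w} [Group Γ] [Group G] [Group H]

/-- closure under multiplication of `s(H) Z₁ ∪ s(H) T s(H) Z₁`. -/
theorem threeT_aux (s : H →* Γ) (T : Γ) (Z1 : Subgroup Γ) (hZc : ∀ ζ ∈ Z1, ∀ g : Γ, g * ζ = ζ * g)
    (hTT : T * T = 1)
    (key : ∀ x : H, (∃ y, ∃ ζ ∈ Z1, T * s x * T = s y * ζ) ∨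
      ∃ y y', ∃ ζ ∈ Z1, T * s x * T = s y * T * s y' * ζ) :
    ∃ S : Subgroup Γ, (∀ γ, γ ∈ S ↔ (∃ a, ∃ ζ ∈ Z1, γ = s a * ζ) ∨
      ∃ a b, ∃ ζ ∈ Z1, γ = s a * T * s b * ζ) := by
  have hTi : T⁻¹ = T := inv_eq_of_mul_eq_one_left hTT
  refine ⟨{ carrier := {γ | (∃ a, ∃ ζ ∈ Z1, γ = s a * ζ) ∨
      ∃ a b, ∃ ζ ∈ Z1, γ = s a * T * s b * ζ}
            one_mem' := Or.inl ⟨1, 1, Z1.one_mem, by simp⟩
            mul_mem' := ?_
            inv_mem' := ?_ }, fun γ => Iff.rfl⟩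
  · rintro _ _ (⟨a, ζ, hζ, rfl⟩ | ⟨a, b, ζ, hζ, rfl⟩) (⟨a', ζ', hζ', rfl⟩ | ⟨a', b', ζ', hζ', rfl⟩)
    · left
      refine ⟨a * a', ζ * ζ', Z1.mul_mem hζ hζ', ?_⟩
      rw [map_mul, mul_assoc (s a) ζ, ← mul_assoc ζ, ← hZc ζ hζ (s a')]
      simp only [mul_assoc]
    · right
      refine ⟨a * a', b', ζ * ζ', Z1.mul_mem hζ hζ', ?_⟩
      rw [map_mul, mul_assoc (s a) ζ, ← mul_assoc ζ, ← hZc ζ hζ (s a' * T * s b')]
      simp only [mul_assoc]
    · right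
      refine ⟨a, b * a', ζ * ζ', Z1.mul_mem hζ hζ', ?_⟩
      rw [map_mul, mul_assoc (s a * T * s b) ζ, ← mul_assoc ζ, ← hZc ζ hζ (s a')]
      simp only [mul_assoc]
    · have e1 : s a * T * s b * ζ * (s a' * T * s b' * ζ') =
          s a * (T * s (b * a') * T) * s b' * (ζ * ζ') := by
        rw [map_mul, mul_assoc (s a * T * s b) ζ, ← mul_assoc ζ, ← hZc ζ hζ (s a' * T * s b')]
        simp only [mul_assoc]
      rcases key (b * a') with ⟨y, ζ'', hζ'', hy⟩ | ⟨y, y', ζ'', hζ'', hy⟩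
      · left
        refine ⟨a * y * b', ζ'' * (ζ * ζ'), Z1.mul_mem hζ'' (Z1.mul_mem hζ hζ'), ?_⟩
        rw [e1, hy, map_mul, map_mul, mul_assoc (s a) (s y * ζ''), mul_assoc (s y) ζ'',
          ← hZc ζ'' hζ'' (s b')]
        simp only [mul_assoc]
      · right
        refine ⟨a * y, y' * b', ζ'' * (ζ * ζ'), Z1.mul_mem hζ'' (Z1.mul_mem hζ hζ'), ?_⟩
        rw [e1, hy, map_mul, map_mul, mul_assoc (s a) (s y * T * s y' * ζ''),
          mul_assoc (s y * T * s y') ζ'', ← hZc ζ'' hζ'' (s b')]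
        simp only [mul_assoc]
  · rintro _ (⟨a, ζ, hζ, rfl⟩ | ⟨a, b, ζ, hζ, rfl⟩)
    · left
      refine ⟨a⁻¹, ζ⁻¹, Z1.inv_mem hζ, ?_⟩
      rw [mul_inv_rev, map_inv, hZc ζ⁻¹ (Z1.inv_mem hζ)]
    · right
      refine ⟨b⁻¹, a⁻¹, ζ⁻¹, Z1.inv_mem hζ, ?_⟩
      rw [mul_inv_rev, map_inv, map_inv, hZc ζ⁻¹ (Z1.inv_mem hζ), mul_inv_rev, mul_inv_rev, hTi]
      simp only [mul_assoc]

/-- **Extension lemma for 3-transitive groups.**  `G = ι H ∪ ι H t ι H`, `H = K ∪ K h K`,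
`t`, `h` involutions with `(t h)^3 = 1`, the central extension `σ` has a section `s` over `H`,
`t` has an involution lift `t'`, and conjugation by `t'` agrees on `s K` with `s ∘ θ` up to the
subgroup `Z1` of the kernel.  Then `ker σ ∩ Γ' ≤ Z1`. -/
theorem threeT (σ : Γ →* G) (ι : H →* G) (s : H →* Γ)
    (hc : σ.ker ≤ Subgroup.center Γ) (hs : ∀ x, σ (s x) = ι x) (hι : Function.Injective ι)
    (K : Subgroup H) (t : G) (h : H) (θ : H → H)
    (hG : ∀ g : G, (∃ a, g = ι a) ∨ ∃ a b, g = ι a * t * ι b)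
    (hH : ∀ x : H, x ∈ K ∨ ∃ k1 ∈ K, ∃ k2 ∈ K, x = k1 * h * k2)
    (htH : ∀ a, t ≠ ι a) (hh2 : h * h = 1)
    (hth : t * ι h * t = ι h * t * ι h)
    (t' : Γ) (ht' : σ t' = t) (ht'2 : t' * t' = 1)
    (Z1 : Subgroup Γ) (hZ1 : Z1 ≤ σ.ker)
    (hlam : ∀ k ∈ K, t' * s k * t'⁻¹ * (s (θ k))⁻¹ ∈ Z1) :
    σ.ker ⊓ commutator Γ ≤ Z1 := by
  have hcen : ∀ ζ ∈ σ.ker, ∀ g : Γ, g * ζ = ζ * g :=
    fun ζ hζ g => Subgroup.mem_center_iff.1 (hc hζ) g
  have hZc : ∀ ζ ∈ Z1, ∀ g : Γ, g * ζ = ζ * g := fun ζ hζ => hcen ζ (hZ1 hζ)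
  obtain ⟨A, hA⟩ : ∃ A, A = s h := ⟨_, rfl⟩
  have hAA : A * A = 1 := by rw [hA, ← map_mul, hh2, map_one]
  have htt : t * t = 1 := by rw [← ht', ← map_mul, ht'2, map_one]
  have hBB : ι h * ι h = 1 := by rw [← map_mul, hh2, map_one]
  have hT' : ∀ x, t' * (t' * x) = x := fun x => by rw [← mul_assoc, ht'2, one_mul]
  have hA' : ∀ x, A * (A * x) = x := fun x => by rw [← mul_assoc, hAA, one_mul]
  have ht'i : t'⁻¹ = t' := inv_eq_of_mul_eq_one_left ht'2
  obtain ⟨z1, hz1⟩ : ∃ z1, z1 = t' * A * (t' * A) * (t' * A) := ⟨_, rfl⟩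
  have hz1ker : z1 ∈ σ.ker := by
    rw [MonoidHom.mem_ker, hz1]
    simp only [map_mul, ht', hA, hs]
    calc t * ι h * (t * ι h) * (t * ι h) = (t * ι h * t) * ι h * t * ι h := by group
      _ = ι h * t * (ι h * ι h) * t * ι h := by rw [hth]; group
      _ = ι h * (t * t) * ι h := by rw [hBB]; group
      _ = 1 := by rw [htt, mul_one, hBB]
  have hz : ∀ g, g * z1 = z1 * g := hcen z1 hz1ker
  have hz1sq : z1 * z1 = 1 := by
    have e1 : t' * z1 * t' = z1 := by rw [hz t', mul_assoc, ht'2, mul_one]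
    have e2 : t' * z1 * t' = A * t' * A * t' * A * t' := by
      rw [hz1]; simp only [mul_assoc, hT']
    have e3 : z1 * (A * t' * A * t' * A * t') = 1 := by
      rw [hz1]; simp only [mul_assoc, hT', hA', ht'2, hAA]
    rw [← e2, e1] at e3
    exact e3
  obtain ⟨T, hT⟩ : ∃ T, T = t' * z1 := ⟨_, rfl⟩
  have hconj : ∀ y, T * y * T = t' * y * t' := by
    intro y
    calc T * y * T = t' * (z1 * y) * t' * z1 := by rw [hT]; group
      _ = t' * y * (z1 * t') * z1 := by rw [← hz y]; group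
      _ = t' * y * t' * (z1 * z1) := by rw [← hz t']; group
      _ = t' * y * t' := by rw [hz1sq, mul_one]
  have hTT : T * T = 1 := by
    have := hconj 1
    rwa [mul_one, mul_one, ht'2] at this
  have hTAT : T * A * T = A * T * A := by
    rw [hconj]
    calc t' * A * t' = z1 * (A * t' * A) := by
          rw [hz1]; simp only [mul_assoc, hT', hA', ht'2, hAA, mul_one]
      _ = A * t' * A * z1 := (hz _).symm
      _ = A * t' * (z1 * A) := by rw [← hz A]; group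
      _ = A * T * A := by rw [hT]; group
  have hσT : σ T = t := by
    rw [hT, map_mul, ht', MonoidHom.mem_ker.1 hz1ker, mul_one]
  have hK : ∀ k ∈ K, ∃ ζ ∈ Z1, T * s k * T = s (θ k) * ζ := by
    intro k hk
    refine ⟨_, hlam k hk, ?_⟩
    rw [hconj, hZc _ (hlam k hk), ht'i]
    group
  have key : ∀ x : H, (∃ y, ∃ ζ ∈ Z1, T * s x * T = s y * ζ) ∨
      ∃ y y', ∃ ζ ∈ Z1, T * s x * T = s y * T * s y' * ζ := by
    intro x
    rcases hH x with hx | ⟨k1, hk1, k2, hk2, rfl⟩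
    · obtain ⟨ζ, hζ, h1⟩ := hK x hx
      exact Or.inl ⟨_, ζ, hζ, h1⟩
    · obtain ⟨ζ1, hζ1, h1⟩ := hK k1 hk1
      obtain ⟨ζ2, hζ2, h2⟩ := hK k2 hk2
      right
      refine ⟨θ k1 * h, h * θ k2, ζ1 * ζ2, Z1.mul_mem hζ1 hζ2, ?_⟩
      calc T * s (k1 * h * k2) * T
          = (T * s k1 * T) * (T * A * T) * (T * s k2 * T) := by
            rw [map_mul, map_mul, ← hA]
            have hTc : ∀ x, T * (T * x) = x := fun x => by rw [← mul_assoc, hTT, one_mul]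
            simp only [mul_assoc, hTc]
        _ = s (θ k1) * ζ1 * (A * T * A) * (s (θ k2) * ζ2) := by rw [h1, h2, hTAT]
        _ = s (θ k1) * (ζ1 * (A * T * A * s (θ k2))) * ζ2 := by group
        _ = s (θ k1) * (A * T * A * s (θ k2)) * (ζ1 * ζ2) := by
            rw [← hZc ζ1 hζ1]; group
        _ = s (θ k1 * h) * T * s (h * θ k2) * (ζ1 * ζ2) := by
            rw [map_mul, map_mul, ← hA]; group
  obtain ⟨S, hS⟩ := threeT_aux s T Z1 hZc hTT key
  have hcover : ∀ γ : Γ, ∃ γ0 ∈ S, ∃ κ ∈ Subgroup.center Γ, γ = γ0 * κ := by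
    intro γ
    rcases hG (σ γ) with ⟨a, ha⟩ | ⟨a, b, hab⟩
    · refine ⟨s a, (hS _).2 (Or.inl ⟨a, 1, Z1.one_mem, by simp⟩), (s a)⁻¹ * γ, hc ?_, by group⟩
      rw [MonoidHom.mem_ker, map_mul, map_inv, hs, ha, inv_mul_cancel]
    · refine ⟨s a * T * s b, (hS _).2 (Or.inr ⟨a, b, 1, Z1.one_mem, by simp⟩),
        (s a * T * s b)⁻¹ * γ, hc ?_, by group⟩
      rw [MonoidHom.mem_ker, map_mul, map_inv, map_mul, map_mul, hs, hs, hσT, hab, inv_mul_cancel]
  have hcomm : commutator Γ ≤ S := by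
    rw [commutator_eq_closure, Subgroup.closure_le]
    rintro _ ⟨γ, γ', rfl⟩
    obtain ⟨γ0, h0, κ, hκ, rfl⟩ := hcover γ
    obtain ⟨γ0', h0', κ', hκ', rfl⟩ := hcover γ'
    rw [commutatorElement_mul_center _ _ _ _ hκ hκ']
    exact S.mul_mem (S.mul_mem (S.mul_mem h0 h0') (S.inv_mem h0)) (S.inv_mem h0')
  rintro γ ⟨hγ1, hγ2⟩
  rcases (hS γ).1 (hcomm hγ2) with ⟨a, ζ, hζ, rfl⟩ | ⟨a, b, ζ, hζ, rfl⟩
  · have h1 : ι a = 1 := by
      have := MonoidHom.mem_ker.1 hγ1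
      rwa [map_mul, hs, MonoidHom.mem_ker.1 (hZ1 hζ), mul_one] at this
    have h2 : a = 1 := hι (by rw [h1, map_one])
    rw [h2, map_one, one_mul]
    exact hζ
  · exfalso
    have h1 : ι a * t * ι b = 1 := by
      have := MonoidHom.mem_ker.1 hγ1
      rwa [map_mul, map_mul, map_mul, hs, hs, hσT, MonoidHom.mem_ker.1 (hZ1 hζ), mul_one] at this
    apply htH (a⁻¹ * b⁻¹)
    rw [map_mul, map_inv, map_inv]
    calc t = (ι a)⁻¹ * (ι a * t * ι b) * (ι b)⁻¹ := by group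
      _ = (ι a)⁻¹ * (ι b)⁻¹ := by rw [h1, mul_one]

/-- version of `threeT` in which the involution lift of `t` is constructed. -/
theorem threeT' (σ : Γ →* G) (hσ : Function.Surjective σ) (ι : H →* G) (s : H →* Γ)
    (hc : σ.ker ≤ Subgroup.center Γ) (hs : ∀ x, σ (s x) = ι x) (hι : Function.Injective ι)
    (K : Subgroup H) (t : G) (h : H) (θ : K → H)
    (hG : ∀ g : G, (∃ a, g = ι a) ∨ ∃ a b, g = ι a * t * ι b)
    (hH : ∀ x : H, x ∈ K ∨ ∃ k1 ∈ K, ∃ k2 ∈ K, x = k1 * h * k2)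
    (htH : ∀ a, t ≠ ι a) (hh2 : h * h = 1) (htt : t * t = 1)
    (hth : t * ι h * t = ι h * t * ι h)
    (Z1 : Subgroup Γ) (hZ1 : Z1 ≤ σ.ker)
    (hlam : ∀ τ, σ τ = t → ∀ k : K, τ * s k * τ⁻¹ * (s (θ k))⁻¹ ∈ Z1) :
    σ.ker ⊓ commutator Γ ≤ Z1 := by
  classical
  obtain ⟨τ, hτ⟩ := hσ t
  have hBB : ι h * ι h = 1 := by rw [← map_mul, hh2, map_one]
  have hti : t⁻¹ = t := inv_eq_of_mul_eq_one_left htt
  have hBi : (ι h)⁻¹ = ι h := inv_eq_of_mul_eq_one_left hBB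
  have h1 : σ (s h * τ * s h * (s h * τ)⁻¹) = t := by
    simp only [map_mul, map_inv, hs, hτ, mul_inv_rev, hti, hBi]
    calc ι h * t * ι h * (t * ι h) = ι h * (t * ι h * t) * ι h := by group
      _ = (ι h * ι h) * t * (ι h * ι h) := by rw [hth]; group
      _ = t := by rw [hBB, one_mul, mul_one]
  have h2 : s h * τ * s h * (s h * τ)⁻¹ * (s h * τ * s h * (s h * τ)⁻¹) = 1 := by
    have : s h * s h = 1 := by rw [← map_mul, hh2, map_one]
    calc s h * τ * s h * (s h * τ)⁻¹ * (s h * τ * s h * (s h * τ)⁻¹)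
        = s h * τ * (s h * s h) * (s h * τ)⁻¹ := by group
      _ = 1 := by rw [this]; group
  refine threeT σ ι s hc hs hι K t h (fun x => if hx : x ∈ K then θ ⟨x, hx⟩ else 1) hG hH htH hh2
    hth _ h1 h2 Z1 hZ1 ?_
  intro k hk
  rw [dif_pos hk]
  exact hlam _ h1 ⟨k, hk⟩

/-- `threeT` when the two point stabiliser is perfect. -/
theorem threeT_perfect (σ : Γ →* G) (hσ : Function.Surjective σ) (ι : H →* G) (s : H →* Γ)
    (hc : σ.ker ≤ Subgroup.center Γ) (hs : ∀ x, σ (s x) = ι x) (hι : Function.Injective ι)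
    (K : Subgroup H) (t : G) (h : H) (θ : K →* H) (hθ : ∀ k : K, t * ι k * t⁻¹ = ι (θ k))
    (hK : commutator K = ⊤)
    (hG : ∀ g : G, (∃ a, g = ι a) ∨ ∃ a b, g = ι a * t * ι b)
    (hH : ∀ x : H, x ∈ K ∨ ∃ k1 ∈ K, ∃ k2 ∈ K, x = k1 * h * k2)
    (htH : ∀ a, t ≠ ι a) (hh2 : h * h = 1) (htt : t * t = 1)
    (hth : t * ι h * t = ι h * t * ι h) :
    σ.ker ⊓ commutator Γ = ⊥ := by
  rw [eq_bot_iff]
  refine threeT' σ hσ ι s hc hs hι K t h θ hG hH htH hh2 htt hth ⊥ bot_le ?_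
  intro τ hτ k
  have h1 : ((MulAut.conj τ).toMonoidHom.comp (s.comp K.subtype)) = s.comp θ := by
    apply hom_ext_of_perfect ⟨hK⟩ σ hc
    ext k
    simp only [MonoidHom.comp_apply, MulEquiv.coe_toMonoidHom, MulAut.conj_apply, map_mul,
      map_inv, hs, hτ, Subgroup.coe_subtype]
    exact hθ k
  have h2 := congrArg (fun f : K →* Γ => f k) h1
  simp only [MonoidHom.comp_apply, MulEquiv.coe_toMonoidHom, MulAut.conj_apply,
    Subgroup.coe_subtype] at h2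
  rw [Subgroup.mem_bot, h2, mul_inv_cancel]

end threeT

/-- A finite group with a 3-transitive-like decomposition over a perfect subgroup `H` with trivial
multiplier and perfect `K` has trivial multiplier. -/
theorem trivial_multiplier_of_threeT {G : Type u} [Group G] [Finite G] {H : Type w} [Group H]
    [Finite H] (ι : H →* G) (hι : Function.Injective ι) (hperf : commutator H = ⊤)
    (hM : HasCyclicSchurMultiplier H 1)
    (K : Subgroup H) (t : G) (h : H) (θ : K →* H) (hθ : ∀ k : K, t * ι k * t⁻¹ = ι (θ k))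
    (hK : commutator K = ⊤)
    (hG : ∀ g : G, (∃ a, g = ι a) ∨ ∃ a b, g = ι a * t * ι b)
    (hH : ∀ x : H, x ∈ K ∨ ∃ k1 ∈ K, ∃ k2 ∈ K, x = k1 * h * k2)
    (htH : ∀ a, t ≠ ι a) (hh2 : h * h = 1) (htt : t * t = 1)
    (hth : t * ι h * t = ι h * t * ι h) : HasCyclicSchurMultiplier G 1 := by
  rw [hasTrivialMultiplier_iff]
  intro Γ _ _ σ hσ
  obtain ⟨s, hs⟩ := exists_section σ hσ.1 hσ.2.1 ι hperf hM
  have := threeT_perfect σ hσ.1 ι s hσ.2.1 hs hι K t h θ hθ hK hG hH htH hh2 htt hth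
  rwa [inf_eq_left.2 hσ.2.2] at this

end Cfsg.Agent.Lib.Helper9Stem
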