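import Mathlib
import Cfsg.Agent.Lib.Helper9Stem

set_option autoImplicit false

/-!
The extension lemma when the two point stabiliser has a commutator quotient of order at most 2.
-/

namespace Cfsg.Agent.Lib.Helper9Stem3

open Cfsg Cfsg.Agent.Lib.Helper69Schur Cfsg.Agent.Lib.Helper9Stem
open scoped commutatorElement

universe u v w

section
variable {Γ : Type u} {G : Type v} {H : Type w} [Group Γ] [Group G] [Group H]

/-- the difference of two lifts of the same homomorphism is a homomorphism to the kernel -/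
theorem exists_diff_hom (σ : Γ →* G) (hc : σ.ker ≤ Subgroup.center Γ) {K : Type*} [Group K]
    (f1 f2 : K →* Γ) (h : ∀ k, σ (f1 k) = σ (f2 k)) :
    ∃ L : K →* Γ, (∀ k, L k = f1 k * (f2 k)⁻¹) ∧ (∀ k, L k ∈ σ.ker) ∧ commutator K ≤ L.ker := by
  have hker : ∀ k, f1 k * (f2 k)⁻¹ ∈ σ.ker := by
    intro k
    rw [MonoidHom.mem_ker, map_mul, map_inv, h, mul_inv_cancel]
  have hcen : ∀ k g, g * (f1 k * (f2 k)⁻¹) = (f1 k * (f2 k)⁻¹) * g :=
    fun k g => Subgroup.mem_center_iff.1 (hc (hker k)) g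
  let L : K →* Γ := MonoidHom.mk' (fun k => f1 k * (f2 k)⁻¹) (by
    intro a b
    calc f1 (a * b) * (f2 (a * b))⁻¹ = f1 a * (f1 b * (f2 b)⁻¹) * (f2 a)⁻¹ := by
          rw [map_mul, map_mul]; group
      _ = (f1 b * (f2 b)⁻¹) * f1 a * (f2 a)⁻¹ := by rw [hcen b (f1 a)]
      _ = (f1 b * (f2 b)⁻¹) * (f1 a * (f2 a)⁻¹) := by group
      _ = f1 a * (f2 a)⁻¹ * (f1 b * (f2 b)⁻¹) := (hcen b _).symm)
  refine ⟨L, fun k => rfl, hker, ?_⟩
  rw [commutator_eq_closure, Subgroup.closure_le]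
  rintro _ ⟨a, b, rfl⟩
  change L ⁅a, b⁆ = 1
  rw [map_commutatorElement, commutatorElement_eq_one_iff_mul_comm]
  exact (hcen b (L a))

theorem threeT_defect (σ : Γ →* G) (hσ : Function.Surjective σ) (ι : H →* G) (s : H →* Γ)
    (hc : σ.ker ≤ Subgroup.center Γ) (hs : ∀ x, σ (s x) = ι x) (hι : Function.Injective ι)
    (K : Subgroup H) (t : G) (h : H) (θ : K →* H) (hθ : ∀ k : K, t * ι k * t⁻¹ = ι (θ k))
    (j : K) (hgen : ∀ A : Subgroup K, commutator K ≤ A → j ∈ A → A = ⊤)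
    (hj2 : j * j ∈ commutator K)
    (hG : ∀ g : G, (∃ a, g = ι a) ∨ ∃ a b, g = ι a * t * ι b)
    (hH : ∀ x : H, x ∈ K ∨ ∃ k1 ∈ K, ∃ k2 ∈ K, x = k1 * h * k2)
    (htH : ∀ a, t ≠ ι a) (hh2 : h * h = 1) (htt : t * t = 1)
    (hth : t * ι h * t = ι h * t * ι h) :
    ∃ ζ ∈ σ.ker, ζ * ζ = 1 ∧ σ.ker ⊓ commutator Γ ≤ Subgroup.zpowers ζ := by
  obtain ⟨τ0, hτ0⟩ := hσ t
  obtain ⟨L, hL, hLker, hLc⟩ := exists_diff_hom σ hc
    ((MulAut.conj τ0).toMonoidHom.comp (s.comp K.subtype)) (s.comp θ) (by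
      intro k
      simp only [MonoidHom.comp_apply, MulEquiv.coe_toMonoidHom, MulAut.conj_apply, map_mul,
        map_inv, hs, hτ0, Subgroup.coe_subtype]
      exact hθ k)
  refine ⟨L j, hLker j, ?_, ?_⟩
  · rw [← map_mul]
    exact hLc hj2
  · have hA : (Subgroup.zpowers (L j)).comap L = ⊤ := by
      apply hgen
      · intro k hk
        rw [Subgroup.mem_comap, MonoidHom.mem_ker.1 (hLc hk)]
        exact Subgroup.one_mem _
      · exact Subgroup.mem_zpowers _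
    refine threeT' σ hσ ι s hc hs hι K t h θ hG hH htH hh2 htt hth _ ?_ ?_
    · rw [Subgroup.zpowers_le]
      exact hLker j
    · intro τ hτ k
      have h1 : L k ∈ Subgroup.zpowers (L j) := by
        have : k ∈ (Subgroup.zpowers (L j)).comap L := by rw [hA]; exact Subgroup.mem_top k
        exact this
      have h2 : τ0⁻¹ * τ ∈ Subgroup.center Γ := by
        apply hc
        rw [MonoidHom.mem_ker, map_mul, map_inv, hτ0, hτ, inv_mul_cancel]
      have h3 : τ * s k * τ⁻¹ = τ0 * s k * τ0⁻¹ := by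
        have h4 := Subgroup.mem_center_iff.1 h2 (s k)
        calc τ * s k * τ⁻¹ = τ0 * ((τ0⁻¹ * τ) * s k) * τ⁻¹ := by group
          _ = τ0 * (s k * (τ0⁻¹ * τ)) * τ⁻¹ := by rw [h4]
          _ = τ0 * s k * τ0⁻¹ := by group
      rw [h3]
      have h5 := hL k
      simp only [MonoidHom.comp_apply, MulEquiv.coe_toMonoidHom, MulAut.conj_apply,
        Subgroup.coe_subtype] at h5
      rw [← h5]
      exact h1

end

/-- surjection from `ZMod 2` onto a group `{1, ζ}` -/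
theorem exists_surj_zmod_two {A : Type*} [Group A] (ζ : A) (hζ : ζ * ζ = 1)
    (hA : ∀ a : A, a ∈ Subgroup.zpowers ζ) :
    ∃ π : Multiplicative (ZMod 2) →* A, Function.Surjective π := by
  have h2 : ζ ^ 2 = 1 := by rw [pow_two, hζ]
  let f : ZMod 2 →+ Additive A := ZMod.lift 2 ⟨zmultiplesHom (Additive A) (Additive.ofMul ζ), by
    change (2 : ℤ) • Additive.ofMul ζ = 0
    have : (2 : ℤ) • Additive.ofMul ζ = Additive.ofMul (ζ ^ (2 : ℤ)) := rfl
    rw [this]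
    have h3 : ζ ^ (2 : ℤ) = 1 := by exact_mod_cast h2
    rw [h3]; rfl⟩
  refine ⟨AddMonoidHom.toMultiplicativeLeft f, ?_⟩
  intro a
  obtain ⟨n, rfl⟩ := Subgroup.mem_zpowers_iff.1 (hA a)
  refine ⟨Multiplicative.ofAdd (n : ZMod 2), ?_⟩
  change (f (n : ZMod 2)).toMul = ζ ^ n
  have : f (n : ZMod 2) = zmultiplesHom (Additive A) (Additive.ofMul ζ) n := ZMod.lift_coe _ _ _
  rw [this]
  rfl

/-- upper bound 2 for the multiplier -/
theorem multiplier_le_two_of_threeT {G : Type u} [Group G] [Finite G] {H : Type w} [Group H]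
    [Finite H] (ι : H →* G) (hι : Function.Injective ι) (hperf : commutator H = ⊤)
    (hM : HasCyclicSchurMultiplier H 1)
    (K : Subgroup H) (t : G) (h : H) (θ : K →* H) (hθ : ∀ k : K, t * ι k * t⁻¹ = ι (θ k))
    (j : K) (hgen : ∀ A : Subgroup K, commutator K ≤ A → j ∈ A → A = ⊤)
    (hj2 : j * j ∈ commutator K)
    (hG : ∀ g : G, (∃ a, g = ι a) ∨ ∃ a b, g = ι a * t * ι b)
    (hH : ∀ x : H, x ∈ K ∨ ∃ k1 ∈ K, ∃ k2 ∈ K, x = k1 * h * k2)
    (htH : ∀ a, t ≠ ι a) (hh2 : h * h = 1) (htt : t * t = 1)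
    (hth : t * ι h * t = ι h * t * ι h)
    (Γ : Type u) [Group Γ] [Finite Γ] (σ : Γ →* G) (hσ : IsStemExtension σ) :
    ∃ π : Multiplicative (ZMod 2) →* σ.ker, Function.Surjective π := by
  obtain ⟨s, hs⟩ := exists_section σ hσ.1 hσ.2.1 ι hperf hM
  obtain ⟨ζ, hζ, hζ2, hle⟩ := threeT_defect σ hσ.1 ι s hσ.2.1 hs hι K t h θ hθ j hgen hj2 hG hH htH
    hh2 htt hth
  rw [inf_eq_left.2 hσ.2.2] at hle
  apply exists_surj_zmod_two (⟨ζ, hζ⟩ : σ.ker) (Subtype.ext hζ2)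
  rintro ⟨a, ha⟩
  obtain ⟨n, hn⟩ := Subgroup.mem_zpowers_iff.1 (hle ha)
  rw [Subgroup.mem_zpowers_iff]
  exact ⟨n, Subtype.ext (by simpa using hn)⟩

end Cfsg.Agent.Lib.Helper9Stem3
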