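import Cfsg.Agent.Lib.LeadAutA9
import Cfsg.Agent.Lib.Helper22ChevBruhat

set_option autoImplicit false

/-! Piece A2 of project CHEV-AUT. -/

namespace Cfsg.Agent.Lib.LeadAutA2

open Subgroup Cfsg.Agent.Lib.Helper23Grp Cfsg.Agent.Lib.Helper23RG Cfsg.Agent.Lib.Helper23RG.RG
  Cfsg.Agent.Lib.Helper23Weyl Cfsg.Agent.Lib.LeadAutDefs Cfsg.Agent.Lib.LeadAutA9

variable {𝔾 K R I : Type*} [Group 𝔾] [Field K] {S : RG 𝔾 K R I}

theorem mem_map_conj {G : Type*} [Group G] (A : Subgroup G) (g z : G) :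
    z ∈ A.map (MulAut.conj g).toMonoidHom ↔ g⁻¹ * z * g ∈ A := by
  constructor
  · rintro ⟨a, ha, rfl⟩
    have : g⁻¹ * (MulAut.conj g).toMonoidHom a * g = a := by
      simp [MulAut.conj_apply, mul_assoc]
    rw [this]; exact ha
  · intro h
    exact ⟨_, h, by simp [MulAut.conj_apply, mul_assoc]⟩

theorem mem_map_equiv' {G : Type*} [Group G] (A : Subgroup G) (θ : G ≃* G) (x : G) :
    θ x ∈ A.map θ.toMonoidHom ↔ x ∈ A :=
  Subgroup.mem_map_iff_mem (f := θ.toMonoidHom) θ.injective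

theorem B_conj_U (ok : S.Ok) {b : 𝔾} (hb : b ∈ S.B) (g : 𝔾) : b * g * b⁻¹ ∈ S.U ↔ g ∈ S.U := by
  have hle : S.B ≤ normalizer (S.U : Set 𝔾) :=
    sup_le (le_normalizer) (H_le_normalizer_XS ok _)
  constructor
  · intro h
    have := conj_mem_of_mem_normalizer' (hle hb) h
    simpa [mul_assoc] using this
  · intro h
    exact conj_mem_of_mem_normalizer (hle hb) h

/-- A2 -/
theorem exists_nrm [Fintype R] [DecidableEq R] (h : AData S) (θ : 𝔾 ≃* 𝔾) :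
    ∃ y : 𝔾, Nrm S (θ.trans (MulAut.conj y)) := by
  have ok := h.ok
  obtain ⟨rf, pr, hW⟩ := h.hW
  obtain ⟨n0, hn0, π0, hM0, h0⟩ := h.n0
  -- step 1
  obtain ⟨g1, hg1⟩ := h.syl (S.U.map θ.toMonoidHom) (Subgroup.card_map_of_injective θ.injective)
  have hU1 : ∀ x, g1⁻¹ * θ x * g1 ∈ S.U ↔ x ∈ S.U := by
    intro x
    rw [← mem_map_conj, ← hg1, mem_map_equiv']
  -- step 2
  have hVU : S.V = S.U.map (MulAut.conj n0).toMonoidHom := by
    ext z
    rw [mem_map_conj, ← conj_V_iff ok hM0 h0]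
    have : n0 * (n0⁻¹ * z * n0) * n0⁻¹ = z := by group
    rw [this]
  set θ1 : 𝔾 ≃* 𝔾 := θ.trans (MulAut.conj g1⁻¹) with hθ1
  have hθ1x : ∀ x, θ1 x = g1⁻¹ * θ x * g1 := by
    intro x; simp [hθ1, MulAut.conj_apply]
  have hcard : Nat.card (S.V.map θ1.toMonoidHom) = Nat.card S.U := by
    rw [Subgroup.card_map_of_injective θ1.injective, hVU,
      Subgroup.card_map_of_injective (MulAut.conj n0).injective]
  obtain ⟨g2, hg2⟩ := h.syl _ hcard
  have hV1 : ∀ x, g2⁻¹ * θ1 x * g2 ∈ S.U ↔ x ∈ S.V := by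
    intro x
    rw [← mem_map_conj, ← hg2, mem_map_equiv']
  obtain ⟨b, hb, n, hn, π, hM, u, hu, rfl⟩ :=
    Cfsg.Agent.Lib.Helper22ChevBruhat.normal_form_ex ok h.hBV h.hUN hW (g := g2) (by rw [h.top]; trivial)
  have huU : u ∈ S.U := XS_mono (fun r hr => hr.1) hu
  -- `π` sends positive roots to negative roots
  have hπ : ∀ r, S.pos r → ¬ S.pos (π r) := by
    intro r hr hpr
    obtain ⟨_, c, hc0, _, hc⟩ := hM
    set z := b * (n * S.x r 1 * n⁻¹) * b⁻¹ with hz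
    have hzU : z ∈ S.U := by
      rw [hz, B_conj_U ok hb, hc]
      exact x_mem_U hpr _
    obtain ⟨v, hv⟩ : ∃ v, θ1 v = z := θ1.surjective z
    have hvV : v ∈ S.V := by
      rw [← hV1, hv, hz]
      have : (b * n * u)⁻¹ * (b * (n * S.x r 1 * n⁻¹) * b⁻¹) * (b * n * u) = u⁻¹ * S.x r 1 * u := by group
      rw [this]
      exact mul_mem (mul_mem (inv_mem huU) (x_mem_U hr 1)) huU
    have hvU : v ∈ S.U := by
      rw [← hU1, ← hθ1x, hv]; exact hzU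
    have hv1 : v = 1 := h.hBV v (U_le_B hvU) hvV
    rw [← hv, hv1, map_one] at hz
    have h5 : n * S.x r 1 * n⁻¹ = 1 := by
      have := congrArg (fun w => b⁻¹ * w * b) hz
      simpa [mul_assoc] using this.symm
    rw [hc] at h5
    exact mul_ne_zero (hc0 r) one_ne_zero (ok.x_inj _ _ h5)
  refine ⟨b⁻¹ * g1⁻¹, ?_, ?_⟩
  · intro x
    have e : (θ.trans (MulAut.conj (b⁻¹ * g1⁻¹))) x = b⁻¹ * (g1⁻¹ * θ x * g1) * b⁻¹⁻¹ := by
      simp [MulAut.conj_apply, mul_assoc]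
    rw [e, B_conj_U ok (inv_mem hb), hU1]
  · intro x
    have e : (θ.trans (MulAut.conj (b⁻¹ * g1⁻¹))) x = b⁻¹ * θ1 x * b := by
      simp [hθ1x, MulAut.conj_apply, mul_assoc]
    rw [e, ← hV1 x]
    have e2 : b⁻¹ * θ1 x * b = n * (u * ((b * n * u)⁻¹ * θ1 x * (b * n * u)) * u⁻¹) * n⁻¹ := by group
    rw [e2, conj_V_iff ok hM hπ, B_conj_U ok (U_le_B huU)]

end Cfsg.Agent.Lib.LeadAutA2
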