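import Cfsg.Agent.Lib.LeadAutA7
import Cfsg.Agent.Lib.Helper23RG2

set_option autoImplicit false

/-! Pieces A4, A5, A6 of project CHEV-AUT. -/

namespace Cfsg.Agent.Lib.LeadAutA6

open Subgroup Cfsg.Agent.Lib.Helper23Grp Cfsg.Agent.Lib.Helper23RG Cfsg.Agent.Lib.Helper23RG.RG
  Cfsg.Agent.Lib.Helper23Weyl Cfsg.Agent.Lib.LeadAutDefs Cfsg.Agent.Lib.LeadAutB1 Cfsg.Agent.Lib.LeadAutA7
  Cfsg.Agent.Lib.LeadAutC10

variable {𝔾 K R I : Type*} [Group 𝔾] [Field K] {S : RG 𝔾 K R I}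

theorem par_union (ok : S.Ok) (i : I) {g : 𝔾} (hg : g ∈ Par S i) :
    g ∈ S.B ∨ ∃ b1 ∈ S.B, ∃ b2 ∈ S.B, g = b1 * S.nn i * b2 := by
  obtain ⟨P, hP⟩ := exists_subgroup_union ok i
  have h1 : S.B ≤ P := by
    intro b hb
    have : b ∈ (P : Set 𝔾) := by rw [hP]; exact Or.inl hb
    exact this
  have h2 : S.nn i ∈ P := by
    have : S.nn i ∈ (P : Set 𝔾) := by
      rw [hP]; right
      rw [DoubleCoset.mem_doubleCoset]
      exact ⟨1, one_mem _, 1, one_mem _, by simp⟩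
    exact this
  have h3 : Par S i ≤ P := sup_le h1 (by rw [zpowers_le]; exact h2)
  have h4 : g ∈ (P : Set 𝔾) := h3 hg
  rw [hP] at h4
  rcases h4 with h4 | h4
  · exact Or.inl h4
  · right
    rw [DoubleCoset.mem_doubleCoset] at h4
    obtain ⟨b1, hb1, b2, hb2, e⟩ := h4
    exact ⟨b1, hb1, b2, hb2, e⟩

/-- A6 -/
theorem nn_mem_par (h : AData S) {i k : I} (hk : S.nn k ∈ Par S i) : k = i := by
  rcases par_union h.ok i hk with hb | ⟨b1, hb1, b2, hb2, e⟩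
  · exact absurd hb (nn_not_mem_B h k)
  · have := bruhat_uniq h.ok h.hBV h.hUN (nn_mem_N i) (nn_mem_N k) hb1 hb2 e
    exact (h.inj (simple_eq_of_mem_B h.ok h.hBV h.hUN (H_le_B this))).symm

/-- A4 -/
theorem par_cases (h : AData S) (i : I) {g : 𝔾} (hg : g ∈ Par S i) :
    (∃ b ∈ S.B, ∃ t, g = b * S.x (S.neg (S.simple i)) t) ∨ ∃ b ∈ S.B, g = b * S.nn i := by
  have ok := h.ok
  rcases par_union ok i hg with hb | ⟨b1, hb1, b2, hb2, e⟩
  · exact Or.inl ⟨g, hb, 0, by rw [x_zero ok, mul_one]⟩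
  · obtain ⟨t, b', hb', rfl⟩ := B_right ok i hb2
    have h1 : S.nn i * b' * (S.nn i)⁻¹ ∈ S.B := Bi_le_B ok i (nn_conj_Bi ok i hb')
    by_cases ht : t = 0
    · right
      refine ⟨b1 * (S.nn i * b' * (S.nn i)⁻¹), mul_mem hb1 h1, ?_⟩
      rw [e, ht, x_zero ok]; group
    · left
      have hr := rank_one ok (S.simple i) (inv_ne_zero ht)
      rw [inv_inv] at hr
      have e2 : S.nn i * S.x (S.simple i) t =
          (S.hE (S.simple i) (-t))⁻¹ * (S.x (S.simple i) t)⁻¹ * S.x (S.neg (S.simple i)) t⁻¹ := by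
        rw [hr]
        show S.nE (S.simple i) 1 * S.x (S.simple i) t = _
        group
      refine ⟨b1 * (S.nn i * b' * (S.nn i)⁻¹) * ((S.hE (S.simple i) (-t))⁻¹ * (S.x (S.simple i) t)⁻¹), ?_, t⁻¹, ?_⟩
      · exact mul_mem (mul_mem hb1 h1) (mul_mem (inv_mem (H_le_B (hE_mem_H _ (neg_ne_zero.2 ht))))
          (inv_mem (U_le_B (x_mem_U (ok.pos_simple i) t))))
      · calc g = b1 * (S.nn i * b' * (S.nn i)⁻¹) * (S.nn i * S.x (S.simple i) t) := by rw [e]; group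
          _ = _ := by rw [e2]; group

/-- A5 -/
theorem par_inf_V (h : AData S) (i : I)
    (h4 : ∀ g ∈ Par S i, (∃ b ∈ S.B, ∃ t, g = b * S.x (S.neg (S.simple i)) t) ∨ ∃ b ∈ S.B, g = b * S.nn i)
    {g : 𝔾} : (g ∈ Par S i ∧ g ∈ S.V) ↔ g ∈ S.X (S.neg (S.simple i)) := by
  have ok := h.ok
  have hnp := not_pos_neg_simple ok i
  constructor
  · rintro ⟨hg, hv⟩
    rcases h4 g hg with ⟨b, hb, t, rfl⟩ | ⟨b, hb, rfl⟩
    · have hb1 : b = 1 := by
        apply h.hBV b hb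
        have : b = b * S.x (S.neg (S.simple i)) t * (S.x (S.neg (S.simple i)) t)⁻¹ := by group
        rw [this]
        exact mul_mem hv (inv_mem (x_mem_V hnp t))
      rw [hb1, one_mul]
      exact x_mem_X _ _
    · exfalso
      have h1 : b * S.nn i * S.x (S.neg (S.simple i)) 1 * (b * S.nn i)⁻¹ ∈ S.V :=
        mul_mem (mul_mem hv (x_mem_V hnp 1)) (inv_mem hv)
      have e : b * S.nn i * S.x (S.neg (S.simple i)) 1 * (b * S.nn i)⁻¹ =
          b * (S.nn i * S.x (S.neg (S.simple i)) 1 * (S.nn i)⁻¹) * b⁻¹ := by group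
      have h2 : b * S.nn i * S.x (S.neg (S.simple i)) 1 * (b * S.nn i)⁻¹ ∈ S.B := by
        rw [e, ok.n_conj, ok.refl_neg, ok.refl_simple, ok.neg_neg]
        exact mul_mem (mul_mem hb (U_le_B (x_mem_U (ok.pos_simple i) _))) (inv_mem hb)
      have h3 := h.hBV _ h2 h1
      have h5 : S.x (S.neg (S.simple i)) 1 = 1 := by
        have := congrArg (fun z => (b * S.nn i)⁻¹ * z * (b * S.nn i)) h3
        simpa [mul_assoc] using this
      exact one_ne_zero (ok.x_inj _ _ h5)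
  · intro hg
    obtain ⟨t, rfl⟩ := (mem_X_iff ok).1 hg
    refine ⟨?_, x_mem_V hnp t⟩
    by_cases ht : t = 0
    · rw [ht, x_zero ok]; exact one_mem _
    · rw [rank_one ok (S.simple i) ht]
      have hx : S.x (S.simple i) t⁻¹ ∈ Par S i := B_le_Par i (U_le_B (x_mem_U (ok.pos_simple i) _))
      exact mul_mem (mul_mem hx (mul_mem (B_le_Par i (H_le_B (hE_mem_H _ (neg_ne_zero.2 (inv_ne_zero ht)))))
        (nn_mem_Par i))) hx

end Cfsg.Agent.Lib.LeadAutA6
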