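import Cfsg.Agent.Lib.LeadAutDefs
import Cfsg.Agent.Lib.LeadChevMisc

set_option autoImplicit false

/-! Piece A9 of project CHEV-AUT. -/

namespace Cfsg.Agent.Lib.LeadAutA9

open Subgroup Cfsg.Agent.Lib.Helper23Grp Cfsg.Agent.Lib.Helper23RG Cfsg.Agent.Lib.Helper23RG.RG
  Cfsg.Agent.Lib.Helper23Weyl Cfsg.Agent.Lib.LeadAutDefs

variable {𝔾 K R I : Type*} [Group 𝔾] [Field K] {S : RG 𝔾 K R I}

theorem mem_XS_iff {n : 𝔾} {π : Equiv.Perm R} (hM : S.Mon n π) {Ψ Ψ' : R → Prop} (hΨ : ∀ r, Ψ r ↔ Ψ' (π r))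
    (g : 𝔾) : n * g * n⁻¹ ∈ S.XS Ψ' ↔ g ∈ S.XS Ψ := by
  constructor
  · intro hg
    have := hM.inv.conj_XS (Ψ := Ψ') (Ψ' := Ψ) (fun r hr => (hΨ (π⁻¹ r)).2 (by simpa using hr)) _ hg
    simpa [mul_assoc] using this
  · intro hg
    exact hM.conj_XS (fun r hr => (hΨ r).1 hr) g hg

theorem mem_X_conj_iff {n : 𝔾} {π : Equiv.Perm R} (hM : S.Mon n π) (r : R) (g : 𝔾) :
    n * g * n⁻¹ ∈ S.X (π r) ↔ g ∈ S.X r := by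
  unfold RG.X
  exact mem_XS_iff hM (Ψ := fun s => s = r) (Ψ' := fun s => s = π r) (fun s => (π.injective.eq_iff).symm) g

theorem opp_pos (ok : S.Ok) {n0 : 𝔾} {π0 : Equiv.Perm R} (hM : S.Mon n0 π0)
    (h0 : ∀ r, S.pos r → ¬ S.pos (π0 r)) (r : R) : S.pos r ↔ ¬ S.pos (π0 r) := by
  refine ⟨h0 r, fun hn => ?_⟩
  by_contra hr
  have h3 : S.pos (S.neg r) := (ok.pos_neg _).2 hr
  have h4 := h0 _ h3
  rw [hM.1, ok.pos_neg] at h4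
  exact h4 hn

theorem conj_V_iff (ok : S.Ok) {n0 : 𝔾} {π0 : Equiv.Perm R} (hM : S.Mon n0 π0)
    (h0 : ∀ r, S.pos r → ¬ S.pos (π0 r)) (g : 𝔾) : n0 * g * n0⁻¹ ∈ S.V ↔ g ∈ S.U :=
  mem_XS_iff hM (opp_pos ok hM h0) g

theorem conj_U_iff (ok : S.Ok) {n0 : 𝔾} {π0 : Equiv.Perm R} (hM : S.Mon n0 π0)
    (h0 : ∀ r, S.pos r → ¬ S.pos (π0 r)) (g : 𝔾) : n0 * g * n0⁻¹ ∈ S.U ↔ g ∈ S.V :=
  mem_XS_iff hM (fun r => by rw [opp_pos ok hM h0 r, not_not]) g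

/-- A9 -/
theorem pos_perm (h : AData S)
    (hneg : ∀ θ : 𝔾 ≃* 𝔾, Nrm S θ →
      ∃ ρ : Equiv.Perm I, ∀ i g, θ g ∈ S.X (S.neg (S.simple (ρ i))) ↔ g ∈ S.X (S.neg (S.simple i)))
    (hopp : ∀ n0 ∈ S.N, ∀ π0 : Equiv.Perm R, S.Mon n0 π0 → (∀ r, S.pos r → ¬ S.pos (π0 r)) →
      ∃ τ : Equiv.Perm I, ∀ i, π0 (S.neg (S.simple i)) = S.simple (τ i))
    {θ : 𝔾 ≃* 𝔾} (hθ : Nrm S θ) :
    ∃ ρ : Equiv.Perm I, ∀ i g, θ g ∈ S.X (S.simple (ρ i)) ↔ g ∈ S.X (S.simple i) := by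
  have ok := h.ok
  obtain ⟨n0, hn0, π0, hM, h0⟩ := h.n0
  obtain ⟨τ, hτ⟩ := hopp n0 hn0 π0 hM h0
  set θ' : 𝔾 ≃* 𝔾 := (MulAut.conj n0).trans (θ.trans (MulAut.conj n0).symm) with hθ'
  have key : ∀ g, n0 * θ' g * n0⁻¹ = θ (n0 * g * n0⁻¹) := by
    intro g
    simp [hθ', MulAut.conj_symm_apply, mul_assoc]
  have hN : Nrm S θ' := by
    constructor
    · intro g
      rw [← conj_V_iff ok hM h0, key, hθ.2, conj_V_iff ok hM h0]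
    · intro g
      rw [← conj_U_iff ok hM h0, key, hθ.1, conj_U_iff ok hM h0]
  obtain ⟨ρ1, hρ1⟩ := hneg θ' hN
  refine ⟨(τ.symm.trans ρ1).trans τ, fun k y => ?_⟩
  obtain ⟨i, rfl⟩ := τ.surjective k
  have e : y = n0 * (n0⁻¹ * y * n0) * n0⁻¹ := by group
  simp only [Equiv.trans_apply, Equiv.symm_apply_apply]
  rw [← hτ, ← hτ]
  conv_lhs => rw [e, ← key]
  conv_rhs => rw [e]
  rw [mem_X_conj_iff hM, mem_X_conj_iff hM, hρ1]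

end Cfsg.Agent.Lib.LeadAutA9
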