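import Cfsg.Agent.Lib.LeadAutC10
import Cfsg.Agent.Lib.LeadChevMisc

set_option autoImplicit false

/-! Piece B1 of project CHEV-AUT. -/

namespace Cfsg.Agent.Lib.LeadAutB1

open Subgroup Cfsg.Agent.Lib.Helper23Grp Cfsg.Agent.Lib.Helper23RG Cfsg.Agent.Lib.Helper23RG.RG
  Cfsg.Agent.Lib.Helper23Weyl Cfsg.Agent.Lib.LeadAutDefs Cfsg.Agent.Lib.LeadAutC10

variable {𝔾 K R I : Type*} [Group 𝔾] [Field K] [Fintype R] [DecidableEq R] {S : RG 𝔾 K R I}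

omit [Fintype R] [DecidableEq R] in
theorem Mon_pow {n : 𝔾} {π : Equiv.Perm R} (hM : S.Mon n π) (m : ℕ) : S.Mon (n ^ m) (π ^ m) := by
  induction m with
  | zero => simpa using Mon.one
  | succ m ih => rw [pow_succ, pow_succ]; exact ih.mul hM

omit [Fintype R] [DecidableEq R] in
theorem mem_B_iff_one (h : AData S) {n : 𝔾} (hn : n ∈ S.N) {π : Equiv.Perm R} (hM : S.Mon n π) :
    n ∈ S.B ↔ π = 1 := by
  constructor
  · intro hb
    have : n ∈ S.H := by rw [← B_inf_N h.ok h.hUN]; exact ⟨hb, hn⟩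
    exact Mon_unique h.ok h.hBV hM (Mon_H h.ok n this)
  · rintro rfl
    exact H_le_B (mem_H_of_Mon_one h.ok h.hBV h.hUN hn hM)

omit [Fintype R] [DecidableEq R] in
theorem nE_mem_N (ok : S.Ok) (j : I) {t : K} (ht : t ≠ 0) : S.nE (S.simple j) t ∈ S.N := by
  rw [nE_eq ok]
  exact mul_mem (H_le_N (hE_mem_H _ ht)) (nn_mem_N j)

omit [Fintype R] [DecidableEq R] in
/-- B1 -/
theorem cox_perm (h : AData S) {θ : 𝔾 ≃* 𝔾} {ρ : Equiv.Perm I} {f : I → K → K} (hA : Acts S θ ρ f)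
    (hB : ∀ g, θ g ∈ S.B ↔ g ∈ S.B) (i j : I) (m : ℕ) :
    (reflPerm h.ok i * reflPerm h.ok j) ^ m = 1 ↔ (reflPerm h.ok (ρ i) * reflPerm h.ok (ρ j)) ^ m = 1 := by
  have ok := h.ok
  have h1 : (S.nn i * S.nn j) ^ m ∈ S.N := pow_mem (mul_mem (nn_mem_N i) (nn_mem_N j)) m
  have M1 : S.Mon ((S.nn i * S.nn j) ^ m) ((reflPerm h.ok i * reflPerm h.ok j) ^ m) :=
    Mon_pow ((Mon_nn ok i).mul (Mon_nn ok j)) m
  have fi := f_ne_zero hA i (one_ne_zero (α := K))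
  have fj := f_ne_zero hA j (one_ne_zero (α := K))
  have e : θ ((S.nn i * S.nn j) ^ m) =
      (S.nE (S.simple (ρ i)) (f i 1) * S.nE (S.simple (ρ j)) (f j 1)) ^ m := by
    rw [map_pow, map_mul, map_nn hA, map_nn hA]
  have h2 : (S.nE (S.simple (ρ i)) (f i 1) * S.nE (S.simple (ρ j)) (f j 1)) ^ m ∈ S.N :=
    pow_mem (mul_mem (nE_mem_N ok _ fi) (nE_mem_N ok _ fj)) m
  have M2 : S.Mon ((S.nE (S.simple (ρ i)) (f i 1) * S.nE (S.simple (ρ j)) (f j 1)) ^ m)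
      ((reflPerm h.ok (ρ i) * reflPerm h.ok (ρ j)) ^ m) :=
    Mon_pow ((Mon_nE_simple ok _ fi).mul (Mon_nE_simple ok _ fj)) m
  rw [← mem_B_iff_one h h1 M1, ← mem_B_iff_one h h2 M2, ← e, hB]

end Cfsg.Agent.Lib.LeadAutB1
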