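import Cfsg.Agent.Lib.LeadAutConc
import Cfsg.Agent.Lib.LeadChevCent
import Cfsg.Agent.Lib.Helper22ChevPar

set_option autoImplicit false

/-! Piece C10 of project CHEV-AUT: in type G2 the fundamental roots can be exchanged only in characteristic 3. -/

namespace Cfsg.Agent.Lib.LeadAutC10

open Cfsg Cfsg.Lie Cfsg.Lie.ChevalleyDatum
open Subgroup Cfsg.Agent.Lib.Helper23Grp Cfsg.Agent.Lib.Helper23RG Cfsg.Agent.Lib.Helper23RG.RG
  Cfsg.Agent.Lib.Helper23Weyl Cfsg.Agent.Lib.LeadAutDefs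
  Cfsg.Agent.Lib.Helper23Table Cfsg.Agent.Lib.Helper23Chev Cfsg.Agent.Lib.LeadAutConc
  Cfsg.Agent.Lib.Helper22ChevBasic
open scoped MatrixGroups Matrix

section abstract
variable {𝔾 K R I : Type*} [Group 𝔾] [Field K] {S : RG 𝔾 K R I}

theorem nE_eq (ok : S.Ok) (r : R) (t : K) : S.nE r t = S.hE r t * S.nE r 1 := by
  unfold RG.hE
  rw [← nE_inv ok r 1]; group

theorem Mon_nE_simple (ok : S.Ok) (j : I) {t : K} (ht : t ≠ 0) : S.Mon (S.nE (S.simple j) t) (reflPerm ok j) := by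
  rw [nE_eq ok]
  have := (Mon_hE_simple ok j ht).mul (Mon_nn ok j)
  rwa [one_mul] at this

theorem f_ne_zero {θ : 𝔾 ≃* 𝔾} {ρ : Equiv.Perm I} {f : I → K → K} (hA : Acts S θ ρ f) (i : I) {t : K}
    (ht : t ≠ 0) : f i t ≠ 0 := by
  have h0 : f i 0 = 0 := by
    have := hA.add i 0 0
    rw [add_zero] at this
    exact left_eq_add.1 this
  intro h
  exact ht ((hA.bij i).1 (h.trans h0.symm))

theorem map_nE {θ : 𝔾 ≃* 𝔾} {ρ : Equiv.Perm I} {f : I → K → K} (hA : Acts S θ ρ f) (i : I) {t : K}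
    (ht : t ≠ 0) : θ (S.nE (S.simple i) t) = S.nE (S.simple (ρ i)) (f i t) := by
  unfold RG.nE
  rw [map_mul, map_mul, hA.pos, hA.neg i t ht]

theorem map_nn {θ : 𝔾 ≃* 𝔾} {ρ : Equiv.Perm I} {f : I → K → K} (hA : Acts S θ ρ f) (i : I) :
    θ (S.nn i) = S.nE (S.simple (ρ i)) (f i 1) := map_nE hA i one_ne_zero

/-- the image under `θ` of the root element attached to `s_i s_j (α_k)` -/
theorem map_two (ok : S.Ok) {θ : 𝔾 ≃* 𝔾} {ρ : Equiv.Perm I} {f : I → K → K} (hA : Acts S θ ρ f)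
    (i j k : I) : ∃ a b : K, a ≠ 0 ∧ b ≠ 0 ∧
      θ (S.x (S.refl i (S.refl j (S.simple k))) a) = S.x (S.refl (ρ i) (S.refl (ρ j) (S.simple (ρ k)))) b := by
  have e1 : S.nn i * (S.nn j * S.x (S.simple k) 1 * (S.nn j)⁻¹) * (S.nn i)⁻¹ =
      S.x (S.refl i (S.refl j (S.simple k))) (S.η i (S.refl j (S.simple k)) * (S.η j (S.simple k) * 1)) := by
    rw [ok.n_conj, ok.n_conj]
  obtain ⟨_, c, hc0, _, hc⟩ := Mon_nE_simple ok (ρ i) (f_ne_zero hA i (one_ne_zero))
  obtain ⟨_, d, hd0, _, hd⟩ := Mon_nE_simple ok (ρ j) (f_ne_zero hA j (one_ne_zero))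
  refine ⟨S.η i (S.refl j (S.simple k)) * (S.η j (S.simple k) * 1),
    c ((reflPerm ok (ρ j)) (S.simple (ρ k))) * (d (S.simple (ρ k)) * f k 1), ?_, ?_, ?_⟩
  · exact mul_ne_zero (η_ne_zero ok _ _) (mul_ne_zero (η_ne_zero ok _ _) one_ne_zero)
  · exact mul_ne_zero (hc0 _) (mul_ne_zero (hd0 _) (f_ne_zero hA k one_ne_zero))
  · rw [← e1]
    simp only [map_mul, map_inv, map_nn hA, hA.pos]
    rw [hd, hc]
    simp only [reflPerm_apply]

end abstract

variable {F : Type*} [Field F]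

theorem hStd : Std chevG2 := by simp [Std]

theorem coe_x (hT : TableOK chevG2) (hR : Rel chevG2 F) (r : Fin chevG2.nroots) (t : F) :
    (((SG hT hR).x r t : ↥(chevG2.group F)) : GL chevG2.Idx F) = xG hStd r t :=
  Cfsg.Agent.Lib.Helper22ChevPar.xg_eq_xG hR hStd r t

/-- the two nodes -/
def i0 : Fin chevG2.rank := ⟨0, by decide⟩
def i1 : Fin chevG2.rank := ⟨1, by decide⟩

theorem perm_swap : ∀ ρ : Equiv.Perm (Fin chevG2.rank), ρ ≠ 1 → ρ i0 = i1 ∧ ρ i1 = i0 := by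
  decide

/-- C10 -/
theorem g2_swap (hT : TableOK chevG2) (hR : Rel chevG2 F) (ok : (SG hT hR).Ok)
    (θ : ↥(chevG2.group F) ≃* ↥(chevG2.group F)) (ρ : Equiv.Perm (Fin chevG2.rank))
    (f : Fin chevG2.rank → F → F) (hA : Acts (SG hT hR) θ ρ f) (hρ : ρ ≠ 1) : (3 : F) = 0 := by
  have h01 : ρ i0 = i1 ∧ ρ i1 = i0 := perm_swap ρ hρ
  obtain ⟨a, b, ha, hb, e⟩ := map_two ok hA i1 i0 i1
  rw [h01.1, h01.2] at e
  have r1 : (SG hT hR).refl i1 ((SG hT hR).refl i0 ((SG hT hR).simple i1)) =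
      (⟨11, by decide⟩ : Fin chevG2.nroots) := by
    apply Fin.ext; show chevG2.reflectRoot 1 (chevG2.reflectRoot 0 (chevG2.simple 1)) = 11; decide
  have r2 : (SG hT hR).refl i0 ((SG hT hR).refl i1 ((SG hT hR).simple i0)) =
      (⟨9, by decide⟩ : Fin chevG2.nroots) := by
    apply Fin.ext; show chevG2.reflectRoot 0 (chevG2.reflectRoot 1 (chevG2.simple 0)) = 9; decide
  rw [r1, r2] at e
  -- `x_11(a)` commutes with `x_b(1)`
  have c1 : (SG hT hR).x ⟨11, by decide⟩ a * (SG hT hR).x ((SG hT hR).simple i1) 1 =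
      (SG hT hR).x ((SG hT hR).simple i1) 1 * (SG hT hR).x ⟨11, by decide⟩ a := by
    apply Subtype.ext
    rw [Subgroup.coe_mul, Subgroup.coe_mul, coe_x, coe_x]
    exact (Cfsg.Agent.Lib.LeadChevCent.comm_of_terms hStd (r := 6) (s := 11) (by decide) (by decide) (by decide)
      (by decide) (by
        have : chevG2.commTerms 6 11 = [] := by decide
        rw [this]; simp) 1 a).symm
  have c2 := congrArg θ c1
  rw [map_mul, map_mul, e, hA.pos, h01.2] at c2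
  have c3 := congrArg (Subtype.val) c2
  rw [Subgroup.coe_mul, Subgroup.coe_mul, coe_x, coe_x] at c3
  set c := f i1 1 with hc
  have hc0 : c ≠ 0 := f_ne_zero hA _ one_ne_zero
  have h4 := Cfsg.Agent.Lib.Helper22ChevPar.conj_eq (F := F) hStd (r := 7) (s := 9) (by decide) (by decide)
    (by decide) (by decide) c b
  have h5 : xG hStd 7 c * xG hStd 9 b * (xG hStd 7 c)⁻¹ = xG hStd 9 b := by
    have : xG hStd 9 b * xG hStd 7 c = xG hStd 7 c * xG hStd 9 b := c3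
    rw [← this]; group
  rw [h5] at h4
  have h6 : wordG hStd (chevG2.commWord F 7 9 (-c) b) = 1 := by
    exact (mul_eq_left.1 h4.symm)
  have h7 : chevG2.commTerms 7 9 = [(10, 3, 1, 1)] := by decide
  unfold ChevalleyDatum.commWord at h6
  rw [h7] at h6
  simp only [List.map_cons, List.map_nil, wordG_cons, wordG_nil, mul_one, neg_neg, pow_one] at h6
  have h8 : (SG hT hR).x ⟨10, by decide⟩ (((3 : ℤ) : F) * c * b) = 1 := by
    apply Subtype.ext
    rw [coe_x]; exact h6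
  have h9 := ok.x_inj _ _ h8
  have h10 : ((3 : ℤ) : F) = 0 := by
    rcases mul_eq_zero.1 h9 with h | h
    · rcases mul_eq_zero.1 h with h | h
      · exact h
      · exact absurd h hc0
    · exact absurd h hb
  exact_mod_cast h10

end Cfsg.Agent.Lib.LeadAutC10
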