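import Cfsg.Agent.Lib.LeadAutMain
import Cfsg.Agent.Lib.Helper19AutC7
import Cfsg.Agent.Lib.Helper19AutC8
import Cfsg.Agent.Lib.Helper19AutC9
import Cfsg.Agent.Lib.Helper38AutC2
import Cfsg.Agent.Lib.Helper57AutC4
import Cfsg.Agent.Lib.Helper57AutC5
import Cfsg.Agent.Lib.Helper57AutC6
import Cfsg.Agent.Lib.LeadAutC10
import Cfsg.Agent.Lib.Helper38AutC3
import Cfsg.Agent.Lib.LeadAutConc

set_option autoImplicit false

namespace Cfsg.Agent.Lib.LeadAutChev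

open Cfsg Cfsg.Lie Cfsg.Lie.ChevalleyDatum
open Subgroup Cfsg.Agent.Lib.Helper23Grp Cfsg.Agent.Lib.Helper23RG Cfsg.Agent.Lib.Helper23RG.RG
  Cfsg.Agent.Lib.Helper23Weyl Cfsg.Agent.Lib.LeadAutDefs Cfsg.Agent.Lib.LeadAutMain
  Cfsg.Agent.Lib.Helper23Table Cfsg.Agent.Lib.Helper23Chev Cfsg.Agent.Lib.LeadAutConc
open scoped MatrixGroups Matrix

/-! ## PART C : concrete pieces -/


variable {F : Type*} [Field F] {D : ChevalleyDatum}

/-- C2 (develop against the sorry-ed C1) -/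
theorem adata [Finite F] (hD : D ∈ [chevG2, chevB2, chevD4, chevF4, chevE6, chevE7, chevE8])
    (hT : TableOK D) (hR : Rel D F) : AData (SG hT hR) :=
  Cfsg.Agent.Lib.Helper38AutC2.adata hD hT hR

/-- C3 : the number of bonds is determined by the order of `s_i s_j` -/
theorem bonds_of_cox (hD : D ∈ [chevG2, chevB2, chevD4, chevF4, chevE6, chevE7, chevE8])
    (hT : TableOK D) (hR : Rel D F) (ok : (SG hT hR).Ok) (i j i' j' : Fin D.rank) (hij : i ≠ j) (hij' : i' ≠ j')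
    (h : ∀ m : ℕ, (reflPerm ok i * reflPerm ok j) ^ m = 1 ↔ (reflPerm ok i' * reflPerm ok j') ^ m = 1) :
    D.bonds i' j' = D.bonds i j :=
  Cfsg.Agent.Lib.Helper38AutC3.bonds_of_cox hD hT hR ok i j i' j' hij hij' h

/-- C4 -/
theorem exists_char (hD : D ∈ [chevG2, chevB2, chevD4, chevF4, chevE6, chevE7, chevE8])
    (c : Fin D.rank → Fˣ) : ∃ χ : ℕ → Fˣ, D.IsRootCharacter χ ∧ ∀ i : Fin D.rank, χ (D.simple i) = c i :=
  Cfsg.Agent.Lib.Helper57AutC4.exists_char hD c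

/-- C5 -/
theorem diagAut (hD : D ∈ [chevG2, chevB2, chevD4, chevF4, chevE6, chevE7, chevE8])
    (hT : TableOK D) (hR : Rel D F) (χ : ℕ → Fˣ) (hχ : D.IsRootCharacter χ) :
    ∃ d : ↥(D.group F) ≃* ↥(D.group F), D.IsDiagonalAut d ∧
      ∀ (r : Fin D.nroots) (t : F), d ((SG hT hR).x r t) = (SG hT hR).x r (χ r * t) :=
  Cfsg.Agent.Lib.Helper57AutC5.diagAut hD hT hR χ hχ

/-- C6 -/
theorem fieldAut (hT : TableOK D) (hR : Rel D F) (σ : F ≃+* F) :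
    ∃ φ : ↥(D.group F) ≃* ↥(D.group F), D.IsFieldAut φ ∧
      ∀ (r : Fin D.nroots) (t : F), φ ((SG hT hR).x r t) = (SG hT hR).x r (σ t) :=
  Cfsg.Agent.Lib.Helper57AutC6.fieldAut hT hR σ

/-- C7 : simply laced types -/
theorem common_sigma_sl (hD : D ∈ [chevD4, chevE6, chevE7, chevE8])
    (ρ : Equiv.Perm (Fin D.rank)) (hρ : D.IsDiagramSymmetry ρ) (σ : Fin D.rank → (F ≃+* F))
    (hσ : ∀ (i j : Fin D.rank) (t : F), t ≠ 0 →
      σ i t ^ (D.cartan j (D.simple i)) = σ j t ^ (D.cartan (ρ j) (D.simple (ρ i)))) :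
    ∃ σ0 : F ≃+* F, ∀ i t, σ i t = (σ0 t) ^ D.graphExp (ringChar F) i (ρ i) :=
  Cfsg.Agent.Lib.Helper19AutC7.common_sigma_sl hD ρ hρ σ hσ

/-- C8 : types G2, B2 -/
theorem common_sigma_r2 (hD : D ∈ [chevG2, chevB2])
    (ρ : Equiv.Perm (Fin D.rank)) (σ : Fin D.rank → (F ≃+* F))
    (hσ : ∀ (i j : Fin D.rank) (t : F), t ≠ 0 →
      σ i t ^ (D.cartan j (D.simple i)) = σ j t ^ (D.cartan (ρ j) (D.simple (ρ i))))
    (h3 : D = chevG2 → ρ ≠ 1 → (3 : F) = 0) :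
    ∃ σ0 : F ≃+* F, ∀ i t, σ i t = (σ0 t) ^ D.graphExp (ringChar F) i (ρ i) :=
  Cfsg.Agent.Lib.Helper19AutC8.common_sigma_r2 hD ρ σ hσ h3

/-- C9 : type F4 -/
theorem common_sigma_f4
    (ρ : Equiv.Perm (Fin chevF4.rank)) (hρ : chevF4.IsDiagramSymmetry ρ) (σ : Fin chevF4.rank → (F ≃+* F))
    (hσ : ∀ (i j : Fin chevF4.rank) (t : F), t ≠ 0 →
      σ i t ^ (chevF4.cartan j (chevF4.simple i)) = σ j t ^ (chevF4.cartan (ρ j) (chevF4.simple (ρ i)))) :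
    ∃ σ0 : F ≃+* F, ∀ i t, σ i t = (σ0 t) ^ chevF4.graphExp (ringChar F) i (ρ i) :=
  Cfsg.Agent.Lib.Helper19AutC9.common_sigma_f4 ρ hρ σ hσ

/-- C10 : in type G2 the two fundamental roots can be exchanged only in characteristic 3 -/
theorem g2_swap (hT : TableOK chevG2) (hR : Rel chevG2 F) (ok : (SG hT hR).Ok)
    (θ : ↥(chevG2.group F) ≃* ↥(chevG2.group F)) (ρ : Equiv.Perm (Fin chevG2.rank))
    (f : Fin chevG2.rank → F → F) (hA : Acts (SG hT hR) θ ρ f) (hρ : ρ ≠ 1) : (3 : F) = 0 :=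
  Cfsg.Agent.Lib.LeadAutC10.g2_swap hT hR ok θ ρ f hA hρ

/-- assembly -/
theorem common_sigma (hD : D ∈ [chevG2, chevB2, chevD4, chevF4, chevE6, chevE7, chevE8])
    (ρ : Equiv.Perm (Fin D.rank)) (hρ : D.IsDiagramSymmetry ρ) (σ : Fin D.rank → (F ≃+* F))
    (hσ : ∀ (i j : Fin D.rank) (t : F), t ≠ 0 →
      σ i t ^ (D.cartan j (D.simple i)) = σ j t ^ (D.cartan (ρ j) (D.simple (ρ i))))
    (h3 : D = chevG2 → ρ ≠ 1 → (3 : F) = 0) :
    ∃ σ0 : F ≃+* F, ∀ i t, σ i t = (σ0 t) ^ D.graphExp (ringChar F) i (ρ i) := by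
  simp only [List.mem_cons, List.not_mem_nil, or_false] at hD
  rcases hD with rfl | rfl | rfl | rfl | rfl | rfl | rfl
  · exact common_sigma_r2 (by simp) ρ σ hσ h3
  · exact common_sigma_r2 (by simp) ρ σ hσ h3
  · exact common_sigma_sl (by simp) ρ hρ σ hσ
  · exact common_sigma_f4 ρ hρ σ hσ
  · exact common_sigma_sl (by simp) ρ hρ σ hσ
  · exact common_sigma_sl (by simp) ρ hρ σ hσ
  · exact common_sigma_sl (by simp) ρ hρ σ hσ

/-- assembly: normal form of the automorphisms stabilizing `U` and `V` -/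
theorem nrm_form [Finite F] (hD : D ∈ [chevG2, chevB2, chevD4, chevF4, chevE6, chevE7, chevE8])
    (hT : TableOK D) (hR : Rel D F) {θ : ↥(D.group F) ≃* ↥(D.group F)} (hθ : Nrm (SG hT hR) θ) :
    ∃ (ρ : Equiv.Perm (Fin D.rank)) (c : Fin D.rank → Fˣ) (σ0 : F ≃+* F), D.IsDiagramSymmetry ρ ∧
      Acts (SG hT hR) θ ρ (fun i t => c i * (σ0 t) ^ D.graphExp (ringChar F) i (ρ i)) := by
  have h := adata hD hT hR
  obtain ⟨ρ, c, σ, hA, hσ⟩ := main_nrm h hθ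
  have hρ : D.IsDiagramSymmetry ρ := by
    intro i j hij
    exact bonds_of_cox hD hT hR h.ok i j (ρ i) (ρ j) hij (fun e => hij (ρ.injective e))
      (fun m => cox_perm h hA (map_B h hθ) i j m)
  have h3 : D = chevG2 → ρ ≠ 1 → (3 : F) = 0 := by
    rintro rfl hne
    exact g2_swap hT hR h.ok θ ρ _ hA hne
  obtain ⟨σ0, h0⟩ := common_sigma hD ρ hρ σ hσ h3
  refine ⟨ρ, c, σ0, hρ, ?_⟩
  have e : (fun (i : Fin D.rank) (t : F) => (c i : F) * σ i t) =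
      fun i t => (c i : F) * (σ0 t) ^ D.graphExp (ringChar F) i (ρ i) := by
    funext i t; rw [h0]
  exact e ▸ hA

/-- the action on the negative fundamental root elements -/
theorem Acts.neg' {𝔾 K R I : Type*} [Group 𝔾] [Field K] {S : RG 𝔾 K R I} (ok : S.Ok) {θ : 𝔾 ≃* 𝔾}
    {ρ : Equiv.Perm I} {c : I → Kˣ} {τ : I → K → K} (hτ0 : ∀ i, τ i 0 = 0)
    (hτn : ∀ i t, τ i (-t) = - τ i t) (hτi : ∀ i t, τ i t⁻¹ = (τ i t)⁻¹)
    (hA : Acts S θ ρ (fun i t => c i * τ i t)) (i : I) (t : K) :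
    θ (S.x (S.neg (S.simple i)) t) = S.x (S.neg (S.simple (ρ i))) ((c i : K)⁻¹ * τ i t) := by
  by_cases ht : t = 0
  · subst ht
    simp [x_zero ok, hτ0]
  · have := hA.neg i (-t⁻¹) (by simpa using ht)
    have e1 : -(-t⁻¹)⁻¹ = t := by rw [inv_neg, inv_inv, neg_neg]
    have e2 : -((c i : K) * τ i (-t⁻¹))⁻¹ = (c i : K)⁻¹ * τ i t := by
      rw [hτn, hτi, mul_neg, inv_neg, neg_neg, mul_inv, inv_inv]
    rw [e1] at this
    rw [this, e2]

end Cfsg.Agent.Lib.LeadAutChev
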