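import Cfsg.Agent.Lib.LeadAutDefs
import Cfsg.Agent.Lib.LeadChevMisc
import Cfsg.Agent.Lib.Helper22ChevBruhat
import Cfsg.Agent.Lib.Helper23RG2
import Cfsg.Prelude.Def_KGroupFacts
import Cfsg.Agent.Lib.Helper15AutA14
import Cfsg.Agent.Lib.Helper15AutA16
import Cfsg.Agent.Lib.LeadAutA2
import Cfsg.Agent.Lib.Helper40AutA1
import Cfsg.Agent.Lib.Helper40AutA10
import Cfsg.Agent.Lib.Helper40AutA11
import Cfsg.Agent.Lib.Helper40AutA15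
import Cfsg.Agent.Lib.Helper40AutA3
import Cfsg.Agent.Lib.LeadAutA8
import Cfsg.Agent.Lib.LeadAutA9
import Cfsg.Agent.Lib.Helper72AutB4
import Cfsg.Agent.Lib.Helper72AutB5
import Cfsg.Agent.Lib.Helper72AutB6
import Cfsg.Agent.Lib.Helper72AutB7
import Cfsg.Agent.Lib.Helper72AutB8
import Cfsg.Agent.Lib.Helper72AutB9
import Cfsg.Agent.Lib.Helper77AutA12
import Cfsg.Agent.Lib.Helper77AutA13
import Cfsg.Agent.Lib.LeadAutA6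
import Cfsg.Agent.Lib.LeadAutA7
import Cfsg.Agent.Lib.LeadAutB1
import Cfsg.Agent.Lib.LeadAutB2
import Cfsg.Agent.Lib.LeadAutB3

set_option autoImplicit false

namespace Cfsg.Agent.Lib.LeadAutMain

open Subgroup Cfsg.Agent.Lib.Helper23Grp Cfsg.Agent.Lib.Helper23RG Cfsg.Agent.Lib.Helper23RG.RG
  Cfsg.Agent.Lib.Helper23Weyl Cfsg.Agent.Lib.LeadAutDefs

variable {𝔾 K R I : Type*} [Group 𝔾] [Field K] [Fintype R] [DecidableEq R] {S : RG 𝔾 K R I}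

/-! ## PART A : abstract pieces -/

/-- A1 -/
theorem normalizer_U (h : AData S) {g : 𝔾} (hg : ∀ u ∈ S.U, g * u * g⁻¹ ∈ S.U) : g ∈ S.B :=
  Cfsg.Agent.Lib.Helper40AutA1.normalizer_U h hg

/-- A2 -/
theorem exists_nrm (h : AData S) (θ : 𝔾 ≃* 𝔾) : ∃ y : 𝔾, Nrm S (θ.trans (MulAut.conj y)) :=
  Cfsg.Agent.Lib.LeadAutA2.exists_nrm h θ

/-- A3 -/
theorem map_B (h : AData S) {θ : 𝔾 ≃* 𝔾} (hθ : Nrm S θ) : ∀ g, θ g ∈ S.B ↔ g ∈ S.B :=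
  Cfsg.Agent.Lib.Helper40AutA3.map_B h hθ

/-- A4 -/
theorem par_cases (h : AData S) (i : I) {g : 𝔾} (hg : g ∈ Par S i) :
    (∃ b ∈ S.B, ∃ t, g = b * S.x (S.neg (S.simple i)) t) ∨ ∃ b ∈ S.B, g = b * S.nn i :=
  Cfsg.Agent.Lib.LeadAutA6.par_cases h i hg

/-- A5 (uses A4 as a hypothesis) -/
theorem par_inf_V (h : AData S) (i : I)
    (h4 : ∀ g ∈ Par S i, (∃ b ∈ S.B, ∃ t, g = b * S.x (S.neg (S.simple i)) t) ∨ ∃ b ∈ S.B, g = b * S.nn i)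
    {g : 𝔾} : (g ∈ Par S i ∧ g ∈ S.V) ↔ g ∈ S.X (S.neg (S.simple i)) :=
  Cfsg.Agent.Lib.LeadAutA6.par_inf_V h i h4

/-- A6 -/
theorem nn_mem_par (h : AData S) {i k : I} (hk : S.nn k ∈ Par S i) : k = i :=
  Cfsg.Agent.Lib.LeadAutA6.nn_mem_par h hk

/-- A7 (uses A6 as a hypothesis) -/
theorem par_perm (h : AData S) (h6 : ∀ i k : I, S.nn k ∈ Par S i → k = i)
    {θ : 𝔾 ≃* 𝔾} (hB : ∀ g, θ g ∈ S.B ↔ g ∈ S.B) :
    ∃ ρ : Equiv.Perm I, ∀ i g, θ g ∈ Par S (ρ i) ↔ g ∈ Par S i :=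
  Cfsg.Agent.Lib.LeadAutA7.par_perm h h6 hB

/-- assembly -/
theorem neg_perm (h : AData S) {θ : 𝔾 ≃* 𝔾} (hθ : Nrm S θ) :
    ∃ ρ : Equiv.Perm I, ∀ i g, θ g ∈ S.X (S.neg (S.simple (ρ i))) ↔ g ∈ S.X (S.neg (S.simple i)) := by
  obtain ⟨ρ, hρ⟩ := par_perm h (fun i k => nn_mem_par h) (map_B h hθ)
  refine ⟨ρ, fun i g => ?_⟩
  rw [← par_inf_V h (ρ i) (fun g hg => par_cases h (ρ i) hg), ← par_inf_V h i (fun g hg => par_cases h i hg),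
    hρ i g, hθ.2 g]

/-- A8 -/
theorem opp_simple (h : AData S) {n0 : 𝔾} (hn0 : n0 ∈ S.N) {π0 : Equiv.Perm R} (hM : S.Mon n0 π0)
    (h0 : ∀ r, S.pos r → ¬ S.pos (π0 r)) :
    ∃ τ : Equiv.Perm I, ∀ i, π0 (S.neg (S.simple i)) = S.simple (τ i) :=
  Cfsg.Agent.Lib.LeadAutA8.opp_simple h hn0 hM h0

/-- A9 (uses `neg_perm` and A8 as hypotheses) -/
theorem pos_perm (h : AData S)
    (hneg : ∀ θ : 𝔾 ≃* 𝔾, Nrm S θ →
      ∃ ρ : Equiv.Perm I, ∀ i g, θ g ∈ S.X (S.neg (S.simple (ρ i))) ↔ g ∈ S.X (S.neg (S.simple i)))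
    (hopp : ∀ n0 ∈ S.N, ∀ π0 : Equiv.Perm R, S.Mon n0 π0 → (∀ r, S.pos r → ¬ S.pos (π0 r)) →
      ∃ τ : Equiv.Perm I, ∀ i, π0 (S.neg (S.simple i)) = S.simple (τ i))
    {θ : 𝔾 ≃* 𝔾} (hθ : Nrm S θ) :
    ∃ ρ : Equiv.Perm I, ∀ i g, θ g ∈ S.X (S.simple (ρ i)) ↔ g ∈ S.X (S.simple i) :=
  Cfsg.Agent.Lib.LeadAutA9.pos_perm h hneg hopp hθ

/-- A10 -/
theorem perm_eq (h : AData S) {θ : 𝔾 ≃* 𝔾} {i j k : I}
    (hn : ∀ g, θ g ∈ S.X (S.neg (S.simple j)) ↔ g ∈ S.X (S.neg (S.simple i)))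
    (hp : ∀ g, θ g ∈ S.X (S.simple k) ↔ g ∈ S.X (S.simple i)) : k = j :=
  Cfsg.Agent.Lib.Helper40AutA10.perm_eq h hn hp

/-- assembly: THEOREM 1 -/
theorem exists_perms (h : AData S) {θ : 𝔾 ≃* 𝔾} (hθ : Nrm S θ) : ∃ ρ, Perms S θ ρ := by
  obtain ⟨ρ, hρ⟩ := neg_perm h hθ
  obtain ⟨ρ', hρ'⟩ := pos_perm h (fun θ hθ => neg_perm h hθ)
    (fun n0 hn0 π0 hM h0 => opp_simple h hn0 hM h0) hθ
  refine ⟨ρ, fun i g => ⟨?_, hρ i g⟩⟩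
  have e : ρ' i = ρ i := perm_eq h (hρ i) (hρ' i)
  rw [← e]; exact hρ' i g

/-- A11 -/
theorem rank_one_unique (h : AData S) (j : I) {a b : K} (ha : a ≠ 0)
    (hm : ∀ g ∈ S.X (S.simple j),
      (S.x (S.simple j) a * S.x (S.neg (S.simple j)) b * S.x (S.simple j) a) * g *
        (S.x (S.simple j) a * S.x (S.neg (S.simple j)) b * S.x (S.simple j) a)⁻¹ ∈ S.X (S.neg (S.simple j))) :
    b = -a⁻¹ :=
  Cfsg.Agent.Lib.Helper40AutA11.rank_one_unique h j ha hm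

/-- A12 (uses A11 as a hypothesis) -/
theorem exists_acts (h : AData S)
    (h11 : ∀ (j : I) (a b : K), a ≠ 0 → (∀ g ∈ S.X (S.simple j),
      (S.x (S.simple j) a * S.x (S.neg (S.simple j)) b * S.x (S.simple j) a) * g *
        (S.x (S.simple j) a * S.x (S.neg (S.simple j)) b * S.x (S.simple j) a)⁻¹ ∈ S.X (S.neg (S.simple j))) →
      b = -a⁻¹)
    {θ : 𝔾 ≃* 𝔾} {ρ : Equiv.Perm I} (hρ : Perms S θ ρ) : ∃ f, Acts S θ ρ f :=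
  Cfsg.Agent.Lib.Helper77AutA12.exists_acts h h11 hρ

/-- A13 -/
theorem torus_rel (h : AData S) {θ : 𝔾 ≃* 𝔾} {ρ : Equiv.Perm I} {f : I → K → K} (hA : Acts S θ ρ f)
    (i j : I) (t u : K) (ht : t ≠ 0) :
    f i (t ^ (S.A j (S.simple i)) * u) = (f j t / f j 1) ^ (S.A (ρ j) (S.simple (ρ i))) * f i u :=
  Cfsg.Agent.Lib.Helper77AutA13.torus_rel h hA i j t u ht

/-- A14 (pure field theory) -/
theorem ring_of_sq [Finite K] (F : K → K) (hadd : ∀ a b, F (a + b) = F a + F b) (hbij : Function.Bijective F)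
    (h1 : F 1 = 1) (hsq : ∀ t u, t ≠ 0 → F (t ^ 2 * u) = F t ^ 2 * F u) :
    ∃ σ : K ≃+* K, ∀ t, F t = σ t :=
  Cfsg.Agent.Lib.Helper15AutA14.ring_of_sq F hadd hbij h1 hsq

/-- A15 -/
theorem gen_simple (h : AData S) :
    closure {g : 𝔾 | ∃ i t, g = S.x (S.simple i) t ∨ g = S.x (S.neg (S.simple i)) t} = ⊤ :=
  Cfsg.Agent.Lib.Helper40AutA15.gen_simple h

/-- A16 (uses A13, A14 as hypotheses): THEOREM 2 -/
theorem exists_sigma [Finite K] (h : AData S) {θ : 𝔾 ≃* 𝔾} {ρ : Equiv.Perm I} {f : I → K → K}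
    (hA : Acts S θ ρ f)
    (h13 : ∀ (i j : I) (t u : K), t ≠ 0 →
      f i (t ^ (S.A j (S.simple i)) * u) = (f j t / f j 1) ^ (S.A (ρ j) (S.simple (ρ i))) * f i u)
    (h14 : ∀ F : K → K, (∀ a b, F (a + b) = F a + F b) → Function.Bijective F → F 1 = 1 →
      (∀ t u, t ≠ 0 → F (t ^ 2 * u) = F t ^ 2 * F u) → ∃ σ : K ≃+* K, ∀ t, F t = σ t) :
    ∃ (c : I → Kˣ) (σ : I → (K ≃+* K)), (∀ i t, f i t = c i * σ i t) ∧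
      ∀ (i j : I) (t : K), t ≠ 0 →
        σ i t ^ (S.A j (S.simple i)) = σ j t ^ (S.A (ρ j) (S.simple (ρ i))) :=
  Cfsg.Agent.Lib.Helper15AutA16.exists_sigma h hA h13 h14

/-- the final abstract statement -/
theorem main_abstract [Finite K] (h : AData S) (θ : 𝔾 ≃* 𝔾) :
    ∃ (y : 𝔾) (ρ : Equiv.Perm I) (c : I → Kˣ) (σ : I → (K ≃+* K)),
      (∀ i t, y * θ (S.x (S.simple i) t) * y⁻¹ = S.x (S.simple (ρ i)) (c i * σ i t)) ∧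
      (∀ i t, y * θ (S.x (S.neg (S.simple i)) t) * y⁻¹ = S.x (S.neg (S.simple (ρ i))) ((c i : K)⁻¹ * σ i t)) ∧
      ∀ (i j : I) (t : K), t ≠ 0 →
        σ i t ^ (S.A j (S.simple i)) = σ j t ^ (S.A (ρ j) (S.simple (ρ i))) := by
  obtain ⟨y, hy⟩ := exists_nrm h θ
  obtain ⟨ρ, hρ⟩ := exists_perms h hy
  obtain ⟨f, hf⟩ := exists_acts h (fun j a b ha hm => rank_one_unique h j ha hm) hρ
  obtain ⟨c, σ, hc, hσ⟩ := exists_sigma h hf (fun i j t u ht => torus_rel h hf i j t u ht)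
    (fun F a b c d => ring_of_sq F a b c d)
  refine ⟨y, ρ, c, σ, fun i t => ?_, fun i t => ?_, hσ⟩
  · have := hf.pos i t
    rw [hc] at this
    simpa using this
  · by_cases ht : t = 0
    · subst ht
      simp [x_zero h.ok]
    · have := hf.neg i (-t⁻¹) (by simpa using ht)
      rw [hc] at this
      have e1 : -(-t⁻¹)⁻¹ = t := by
        rw [inv_neg, inv_inv, neg_neg]
      have e2 : -((c i : K) * σ i (-t⁻¹))⁻¹ = (c i : K)⁻¹ * σ i t := by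
        rw [map_neg, map_inv₀, mul_neg, inv_neg, neg_neg, mul_inv, inv_inv]
      rw [e1, e2] at this
      simpa using this

/-! ## PART B : more abstract pieces -/

/-- assembly -/
theorem main_nrm [Finite K] (h : AData S) {θ : 𝔾 ≃* 𝔾} (hθ : Nrm S θ) :
    ∃ (ρ : Equiv.Perm I) (c : I → Kˣ) (σ : I → (K ≃+* K)),
      Acts S θ ρ (fun i t => c i * σ i t) ∧
      ∀ (i j : I) (t : K), t ≠ 0 →
        σ i t ^ (S.A j (S.simple i)) = σ j t ^ (S.A (ρ j) (S.simple (ρ i))) := by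
  obtain ⟨ρ, hρ⟩ := exists_perms h hθ
  obtain ⟨f, hf⟩ := exists_acts h (fun j a b ha hm => rank_one_unique h j ha hm) hρ
  obtain ⟨c, σ, hc, hσ⟩ := exists_sigma h hf (fun i j t u ht => torus_rel h hf i j t u ht)
    (fun F a b c d => ring_of_sq F a b c d)
  have e : f = fun i t => c i * σ i t := by
    funext i t; exact hc i t
  exact ⟨ρ, c, σ, e ▸ hf, hσ⟩

/-- B1 -/
theorem cox_perm (h : AData S) {θ : 𝔾 ≃* 𝔾} {ρ : Equiv.Perm I} {f : I → K → K} (hA : Acts S θ ρ f)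
    (hB : ∀ g, θ g ∈ S.B ↔ g ∈ S.B) (i j : I) (m : ℕ) :
    (reflPerm h.ok i * reflPerm h.ok j) ^ m = 1 ↔ (reflPerm h.ok (ρ i) * reflPerm h.ok (ρ j)) ^ m = 1 :=
  Cfsg.Agent.Lib.LeadAutB1.cox_perm h hA hB i j m

/-- B2 -/
theorem mem_B_of_conj_simple (h : AData S) {c : 𝔾} (hc : ∀ i, c * S.x (S.simple i) 1 * c⁻¹ ∈ S.B) :
    c ∈ S.B :=
  Cfsg.Agent.Lib.LeadAutB2.mem_B_of_conj_simple h hc

/-- B3 (uses B2 and A8 as hypotheses) -/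
theorem mem_H_of_conj (h : AData S)
    (hB2 : ∀ c : 𝔾, (∀ i, c * S.x (S.simple i) 1 * c⁻¹ ∈ S.B) → c ∈ S.B)
    (hopp : ∀ n0 ∈ S.N, ∀ π0 : Equiv.Perm R, S.Mon n0 π0 → (∀ r, S.pos r → ¬ S.pos (π0 r)) →
      ∃ τ : Equiv.Perm I, ∀ i, π0 (S.neg (S.simple i)) = S.simple (τ i))
    {c : 𝔾} (h1 : ∀ i, c * S.x (S.simple i) 1 * c⁻¹ ∈ S.B)
    (h2 : ∀ i t, c * S.x (S.neg (S.simple i)) t * c⁻¹ ∈ S.V) : c ∈ S.H :=
  Cfsg.Agent.Lib.LeadAutB3.mem_H_of_conj h hB2 hopp h1 h2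

/-- B4 (uses A2, THEOREM 1 and B3 as hypotheses) -/
theorem nrm_of_perms (h : AData S)
    (hA2 : ∀ θ : 𝔾 ≃* 𝔾, ∃ y : 𝔾, Nrm S (θ.trans (MulAut.conj y)))
    (hT1 : ∀ θ : 𝔾 ≃* 𝔾, Nrm S θ → ∃ ρ, Perms S θ ρ)
    (hB3 : ∀ c : 𝔾, (∀ i, c * S.x (S.simple i) 1 * c⁻¹ ∈ S.B) →
      (∀ i t, c * S.x (S.neg (S.simple i)) t * c⁻¹ ∈ S.V) → c ∈ S.H)
    {θ : 𝔾 ≃* 𝔾} {ρ : Equiv.Perm I} (hρ : Perms S θ ρ) : Nrm S θ :=
  Cfsg.Agent.Lib.Helper72AutB4.nrm_of_perms h hA2 hT1 hB3 hρ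

/-- B5 -/
theorem Acts.perms (h : AData S) {θ : 𝔾 ≃* 𝔾} {ρ : Equiv.Perm I} {f : I → K → K} (hA : Acts S θ ρ f) :
    Perms S θ ρ :=
  Cfsg.Agent.Lib.Helper72AutB5.Acts.perms h hA

/-- B6 (uses B3 as a hypothesis) -/
theorem conj_nrm_iff (h : AData S)
    (hB3 : ∀ c : 𝔾, (∀ i, c * S.x (S.simple i) 1 * c⁻¹ ∈ S.B) →
      (∀ i t, c * S.x (S.neg (S.simple i)) t * c⁻¹ ∈ S.V) → c ∈ S.H) (y : 𝔾) :
    Nrm S (MulAut.conj y) ↔ y ∈ S.H :=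
  Cfsg.Agent.Lib.Helper72AutB6.conj_nrm_iff h hB3 y

/-- B7 (uses A2, B6 as hypotheses): `|Out| |H| = |{θ | θ U = U, θ V = V}|` -/
theorem card_out [Finite 𝔾] (h : AData S) (hZ : ∀ z : 𝔾, (∀ g, z * g = g * z) → z = 1)
    (hA2 : ∀ θ : 𝔾 ≃* 𝔾, ∃ y : 𝔾, Nrm S (θ.trans (MulAut.conj y)))
    (hB6 : ∀ y : 𝔾, Nrm S (MulAut.conj y) ↔ y ∈ S.H) :
    Nat.card (Cfsg.Out 𝔾) * Nat.card S.H = Nat.card {θ : 𝔾 ≃* 𝔾 // Nrm S θ} :=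
  Cfsg.Agent.Lib.Helper72AutB7.card_out h hZ hA2 hB6

/-- B8 (uses A15 as a hypothesis) -/
theorem acts_unique (h : AData S)
    (hgen : closure {g : 𝔾 | ∃ i t, g = S.x (S.simple i) t ∨ g = S.x (S.neg (S.simple i)) t} = ⊤)
    {θ θ' : 𝔾 ≃* 𝔾} {ρ : Equiv.Perm I} {f : I → K → K} (hA : Acts S θ ρ f) (hA' : Acts S θ' ρ f) : θ = θ' :=
  Cfsg.Agent.Lib.Helper72AutB8.acts_unique h hgen hA hA'

/-- B9 (uses B8, and B4∘B5 as hypotheses): counting the automorphisms stabilizing `U` and `V` -/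
theorem card_nrm [Finite K] [Fintype I] [Nonempty I] (h : AData S) (Γ : Finset (Equiv.Perm I)) (e : Equiv.Perm I → I → ℕ)
    (hinj : ∀ ρ ∈ Γ, ∀ i, Function.Injective (fun t : K => t ^ e ρ i))
    (hcls : ∀ θ : 𝔾 ≃* 𝔾, Nrm S θ → ∃ ρ ∈ Γ, ∃ (c : I → Kˣ) (σ : K ≃+* K),
      Acts S θ ρ (fun i t => c i * (σ t) ^ e ρ i))
    (hex : ∀ ρ ∈ Γ, ∀ (c : I → Kˣ) (σ : K ≃+* K), ∃ θ : 𝔾 ≃* 𝔾,
      Acts S θ ρ (fun i t => c i * (σ t) ^ e ρ i))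
    (huniq : ∀ (θ θ' : 𝔾 ≃* 𝔾) (ρ : Equiv.Perm I) (f : I → K → K), Acts S θ ρ f → Acts S θ' ρ f → θ = θ')
    (hnrm : ∀ (θ : 𝔾 ≃* 𝔾) (ρ : Equiv.Perm I) (f : I → K → K), Acts S θ ρ f → Nrm S θ) :
    Nat.card {θ : 𝔾 ≃* 𝔾 // Nrm S θ} =
      Γ.card * (Nat.card K - 1) ^ Fintype.card I * Nat.card (K ≃+* K) :=
  Cfsg.Agent.Lib.Helper72AutB9.card_nrm h Γ e hinj hcls hex huniq hnrm

/-- assembly -/
theorem mem_H_of_conj' (h : AData S) {c : 𝔾} (h1 : ∀ i, c * S.x (S.simple i) 1 * c⁻¹ ∈ S.B)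
    (h2 : ∀ i t, c * S.x (S.neg (S.simple i)) t * c⁻¹ ∈ S.V) : c ∈ S.H :=
  mem_H_of_conj h (fun _ hc => mem_B_of_conj_simple h hc)
    (fun _ hn0 _ hM h0 => opp_simple h hn0 hM h0) h1 h2

/-- assembly -/
theorem Acts.nrm (h : AData S) {θ : 𝔾 ≃* 𝔾} {ρ : Equiv.Perm I} {f : I → K → K} (hA : Acts S θ ρ f) :
    Nrm S θ :=
  nrm_of_perms h (exists_nrm h) (fun _ hθ => exists_perms h hθ) (fun _ h1 h2 => mem_H_of_conj' h h1 h2)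
    (Acts.perms h hA)

/-- assembly: THEOREM 3 -/
theorem card_out_eq [Finite 𝔾] [Finite K] [Fintype I] [Nonempty I] (h : AData S) (hZ : ∀ z : 𝔾, (∀ g, z * g = g * z) → z = 1)
    (Γ : Finset (Equiv.Perm I)) (e : Equiv.Perm I → I → ℕ)
    (hinj : ∀ ρ ∈ Γ, ∀ i, Function.Injective (fun t : K => t ^ e ρ i))
    (hcls : ∀ θ : 𝔾 ≃* 𝔾, Nrm S θ → ∃ ρ ∈ Γ, ∃ (c : I → Kˣ) (σ : K ≃+* K),
      Acts S θ ρ (fun i t => c i * (σ t) ^ e ρ i))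
    (hex : ∀ ρ ∈ Γ, ∀ (c : I → Kˣ) (σ : K ≃+* K), ∃ θ : 𝔾 ≃* 𝔾,
      Acts S θ ρ (fun i t => c i * (σ t) ^ e ρ i)) :
    Nat.card (Cfsg.Out 𝔾) * Nat.card S.H =
      Γ.card * (Nat.card K - 1) ^ Fintype.card I * Nat.card (K ≃+* K) := by
  rw [card_out h hZ (exists_nrm h) (conj_nrm_iff h (fun _ h1 h2 => mem_H_of_conj' h h1 h2)),
    card_nrm h Γ e hinj hcls hex (fun _ _ _ _ a b => acts_unique h (gen_simple h) a b)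
      (fun _ _ _ a => Acts.nrm h a)]

end Cfsg.Agent.Lib.LeadAutMain
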