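import Cfsg.Agent.Lib.LeadAutOut
import Cfsg.Agent.Lib.Helper77AutS1
import Cfsg.Agent.Lib.Helper77AutS2
import Cfsg.Agent.Lib.Helper75AutS4
import Cfsg.Agent.Lib.Helper75AutS5
import Cfsg.Agent.Lib.Helper17AutS6
import Cfsg.Agent.Lib.Helper77AutS7
import Cfsg.Agent.Lib.Helper17AutS8
import Cfsg.Agent.Lib.Helper17AutS9
import Cfsg.Agent.Lib.Helper15AutS13
import Cfsg.Agent.S2157

set_option autoImplicit false

/-! Project CHEV-AUT, part S: the structure of `Out` of a Chevalley group (assembly). -/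

namespace Cfsg.Agent.Lib.LeadAutStr

open Cfsg Cfsg.Lie Cfsg.Lie.ChevalleyDatum
open Subgroup Cfsg.Agent.Lib.Helper23Grp Cfsg.Agent.Lib.Helper23RG Cfsg.Agent.Lib.Helper23RG.RG
  Cfsg.Agent.Lib.Helper23Weyl Cfsg.Agent.Lib.LeadAutDefs Cfsg.Agent.Lib.LeadAutMain
  Cfsg.Agent.Lib.Helper23Table Cfsg.Agent.Lib.Helper23Chev Cfsg.Agent.Lib.LeadAutConc Cfsg.Agent.Lib.LeadAutChev
  Cfsg.Agent.Lib.LeadAutOut
open scoped MatrixGroups Matrix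

variable {F : Type*} [Field F] {D : ChevalleyDatum}

theorem acts_of_x (hT : TableOK D) (hR : Rel D F) (d : ↥(D.group F) ≃* ↥(D.group F)) (χ : ℕ → Fˣ)
    (hχ : D.IsRootCharacter χ)
    (hd : ∀ (r : Fin D.nroots) (t : F), d ((SG hT hR).x r t) = (SG hT hR).x r (χ r * t)) :
    Acts (SG hT hR) d 1 (fun i t => (χ (D.simple i) : F) * t) := by
  refine ⟨fun i t => hd _ _, fun i t ht => ?_, fun i a b => mul_add _ _ _, fun i => ?_⟩
  · rw [hd]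
    congr 1
    have h2 := hχ.1 (D.simple i) (hT.simple_lt _ i.2)
    show ((χ (D.neg (D.simple i)) : Fˣ) : F) * _ = _
    rw [h2, mul_inv, Units.val_inv_eq_inv_val, mul_neg]
  · exact mulLeft_bijective₀ _ (χ (D.simple i)).ne_zero

/-- S3 -/
theorem isDiag_iff (hD : D ∈ [chevG2, chevB2, chevD4, chevF4, chevE6, chevE7, chevE8])
    (hT : TableOK D) (hR : Rel D F)
    (huniq : ∀ (θ θ' : ↥(D.group F) ≃* ↥(D.group F)) (ρ : Equiv.Perm (Fin D.rank)) (f : Fin D.rank → F → F),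
      Acts (SG hT hR) θ ρ f → Acts (SG hT hR) θ' ρ f → θ = θ')
    (d : ↥(D.group F) ≃* ↥(D.group F)) :
    D.IsDiagonalAut d ↔ ∃ c : Fin D.rank → Fˣ, Acts (SG hT hR) d 1 (fun i t => c i * t) := by
  constructor
  · rintro ⟨χ, hχ, h⟩
    refine ⟨fun i => χ (D.simple i), acts_of_x hT hR d χ hχ fun r t => ?_⟩
    rw [← eq_SG_x_iff hT hR, h, coe_SG_x]
    exact Cfsg.Agent.S2157.result D hD χ hχ r r.2 t
  · rintro ⟨c, hc⟩
    obtain ⟨χ, hχ, hχc⟩ := exists_char hD c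
    obtain ⟨d', hd', hdx⟩ := diagAut hD hT hR χ hχ
    have h1 := acts_of_x hT hR d' χ hχ hdx
    have e : (fun (i : Fin D.rank) (t : F) => (χ (D.simple i) : F) * t) = fun i t => (c i : F) * t := by
      funext i t; rw [hχc]
    rw [e] at h1
    rw [huniq d d' 1 _ hc h1]
    exact hd'

/-- S10 -/
theorem range_le [Finite F] (hD : D ∈ [chevG2, chevB2, chevD4, chevF4, chevE6, chevE7, chevE8])
    (hT : TableOK D) (hR : Rel D F) (Ψ : MulAut ↥(D.group F) →* Equiv.Perm (Fin D.rank))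
    (h1 : ∀ (θ : MulAut ↥(D.group F)) (ρ : Equiv.Perm (Fin D.rank)), Nrm (SG hT hR) θ → Perms (SG hT hR) θ ρ → Ψ θ = ρ)
    (h2 : ∀ y : ↥(D.group F), Ψ (MulAut.conj y) = 1) (θ : MulAut ↥(D.group F)) : D.IsDiagramSymmetry (Ψ θ) := by
  have h := adata hD hT hR
  obtain ⟨y, hy⟩ := exists_nrm h θ
  obtain ⟨ρ, c, σ0, hρ, hA⟩ := nrm_form hD hT hR hy
  have e1 : θ.trans (MulAut.conj y) = MulAut.conj y * θ := rfl
  have e2 := h1 _ ρ hy (Acts.perms h hA)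
  rw [e1, map_mul, h2, one_mul] at e2
  rw [e2]; exact hρ

theorem sym_r2G : ∀ ρ : Equiv.Perm (Fin chevG2.rank), ρ = 1 ∨ ρ = Equiv.swap ⟨0, by decide⟩ ⟨1, by decide⟩ := by
  decide

theorem sym_r2B : ∀ ρ : Equiv.Perm (Fin chevB2.rank), ρ = 1 ∨ ρ = Equiv.swap ⟨0, by decide⟩ ⟨1, by decide⟩ := by
  decide

theorem sym_F4 : ∀ ρ : Equiv.Perm (Fin chevF4.rank),
    (∀ i j : Fin chevF4.rank, i ≠ j → chevF4.bonds (ρ i) (ρ j) = chevF4.bonds i j) → ρ = 1 ∨ ρ = Fin.revPerm := by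
  decide

/-- S11 -/
theorem diag_sym_le_two (hT : TableOK D) (hR : Rel D F) (hD : D ∈ [chevG2, chevB2, chevF4, chevE6, chevE7, chevE8]) :
    ∃ ρ0 : Equiv.Perm (Fin D.rank), ∀ ρ : Equiv.Perm (Fin D.rank), D.IsDiagramSymmetry ρ → ρ = 1 ∨ ρ = ρ0 := by
  simp only [List.mem_cons, List.not_mem_nil, or_false] at hD
  rcases hD with rfl | rfl | rfl | rfl | rfl | rfl
  · exact ⟨_, fun ρ _ => sym_r2G ρ⟩
  · exact ⟨_, fun ρ _ => sym_r2B ρ⟩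
  · exact ⟨_, fun ρ hρ => sym_F4 ρ hρ⟩
  · obtain ⟨ρ6, _, h, _⟩ := graph_E6 hT hR
    exact ⟨ρ6, h⟩
  · exact ⟨1, fun ρ hρ => Or.inl (diag_sym_E7 ρ hρ)⟩
  · exact ⟨1, fun ρ hρ => Or.inl (diag_sym_E8 ρ hρ)⟩

theorem main [Finite F] (D : Cfsg.Lie.ChevalleyDatum) (hD : D ∈ [Cfsg.Lie.chevG2, Cfsg.Lie.chevB2, Cfsg.Lie.chevD4, Cfsg.Lie.chevF4, Cfsg.Lie.chevE6, Cfsg.Lie.chevE7, Cfsg.Lie.chevE8])
    (Dbar Fbar : Subgroup (Cfsg.Out ↥(D.group F)))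
    (hDbar : Dbar = (Subgroup.closure {φ : MulAut ↥(D.group F) | D.IsDiagonalAut φ}).map (QuotientGroup.mk' (Cfsg.Inn ↥(D.group F))))
    (hFbar : Fbar = (Subgroup.closure {φ : MulAut ↥(D.group F) | D.IsFieldAut φ}).map (QuotientGroup.mk' (Cfsg.Inn ↥(D.group F)))) :
    Dbar.Normal ∧ IsMulCommutative ↥Dbar ∧ IsCyclic ↥Fbar ∧ (Dbar ⊔ Fbar).Normal ∧
      ((Dbar ⊔ Fbar).index = 1 ∨ (Dbar ⊔ Fbar).index = 2 ∨
        ((Dbar ⊔ Fbar).index = 6 ∧ ¬ commutator (Cfsg.Out ↥(D.group F)) ≤ Dbar ⊔ Fbar)) := by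
  have hT := Cfsg.Agent.Lib.Helper23All.tab hD
  have hR : Rel D F := Cfsg.Agent.Lib.Helper23All.rel hD
  have h := adata hD hT hR
  have huniq : ∀ (θ θ' : ↥(D.group F) ≃* ↥(D.group F)) (ρ : Equiv.Perm (Fin D.rank)) (f : Fin D.rank → F → F),
      Acts (SG hT hR) θ ρ f → Acts (SG hT hR) θ' ρ f → θ = θ' :=
    fun _ _ _ _ a b => acts_unique h (gen_simple h) a b
  obtain ⟨Ψ, h1, h2⟩ := Cfsg.Agent.Lib.Helper77AutS1.exists_hom h (exists_nrm h) (fun _ hθ => exists_perms h hθ)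
    (conj_nrm_iff h (fun _ h1 h2 => mem_H_of_conj' h h1 h2))
  have hS3 := isDiag_iff hD hT hR huniq
  have hS4 := Cfsg.Agent.Lib.Helper75AutS4.isField_iff hT hR (fieldAut hT hR) huniq
  subst hDbar hFbar
  refine Cfsg.Agent.Lib.Helper77AutS7.out_structure (Cfsg.Inn ↥(D.group F)) _ _ Ψ
    (Cfsg.Agent.Lib.Helper17AutS8.ker_eq hT hR Ψ h1 h2 (exists_nrm h) (fun θ hθ => nrm_form hD hT hR hθ)
      (fun _ _ _ hA => Acts.perms h hA) (fun _ _ _ hA => Acts.nrm h hA) hS3 hS4 (fieldAut hT hR))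
    (Cfsg.Agent.Lib.Helper17AutS9.inndiag_normal hT hR (exists_nrm h)
      (fun θ hθ => by
        obtain ⟨ρ, c, σ, hA, _⟩ := main_nrm h hθ
        exact ⟨ρ, c, σ, hA⟩)
      (fun ν d ρ a c σ hν hd => Cfsg.Agent.Lib.Helper77AutS2.diag_conj h hν hd) hS3) ?_
    (Cfsg.Agent.Lib.Helper17AutS6.field_cyclic hT hR hS4 huniq)
    (Cfsg.Agent.Lib.Helper15AutS13.card_range_of hD hT hR Ψ h1 (range_le hD hT hR Ψ h1 h2)
      (fun hD' => diag_sym_le_two hT hR hD') (fun _ _ _ hA => ⟨Acts.nrm h hA, Acts.perms h hA⟩))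
  exact Subgroup.isMulCommutative_closure (fun a ha b hb => Cfsg.Agent.Lib.Helper75AutS5.diag_comm a b ha hb)

end Cfsg.Agent.Lib.LeadAutStr
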