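import Cfsg.Agent.Lib.Helper22Iso2
import Cfsg.Agent.Lib.Helper22F4T
import Cfsg.Agent.Lib.Helper23All

set_option autoImplicit false
set_option linter.unusedSectionVars false
set_option linter.unusedVariables false

/-! The exceptional graph automorphism in characteristic 2, from the special isogeny matrix of `Helper22Iso`
(for a simple Chevalley group over a perfect field). -/

namespace Cfsg.Agent.Lib.LeadF4Graph

open Subgroup Cfsg.Lie Cfsg.Lie.ChevalleyDatum Cfsg.Agent.Lib.Helper22ChevEngine Cfsg.Agent.Lib.Helper22ChevFast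
  Cfsg.Agent.Lib.Helper22ChevBasic Cfsg.Agent.Lib.Helper22ChevGr Cfsg.Agent.Lib.Helper23Chev
  Cfsg.Agent.Lib.Helper23Table Cfsg.Agent.Lib.Helper23RG Cfsg.Agent.Lib.Helper23RG.RG Cfsg.Agent.Lib.Helper22Iso

variable {K : Type*} [Field K] {D : ChevalleyDatum} {P : FD} {pT : ℕ}
variable (hA : Agree D P) (hP : PTab D P pT) (hT : TableOK D) (hR : Rel D K) (h2 : (2 : K) = 0)

include hA hP hR h2 in
theorem ex_right : ∀ g ∈ (rg hT hR).G, ∃ g' ∈ (rg hT hR).G, R0 K D pT g g' := by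
  intro g hg
  induction hg using closure_induction with
  | mem x hx =>
    obtain ⟨r, t, _, rfl⟩ := hx
    exact ⟨_, x_mem_G _ _, piso' hA hP hT hR h2 r t⟩
  | one => exact ⟨1, one_mem _, R0_one⟩
  | mul a b _ _ ha hb =>
    obtain ⟨a', ha', h1⟩ := ha
    obtain ⟨b', hb', h2⟩ := hb
    exact ⟨a' * b', mul_mem ha' hb', R0_mul h1 h2⟩
  | inv a _ ha =>
    obtain ⟨a', ha', h1⟩ := ha
    exact ⟨a'⁻¹, inv_mem ha', R0_inv h1⟩

include hA hP hR h2 in
theorem func (hperf : ∀ x : K, ∃ y : K, y ^ 2 = x) (hs : IsSimpleGroup ↥(rg hT hR).G) {g a b : GL D.Idx K}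
    (ha : R0 K D pT g a) (hb : R0 K D pT g b) (haG : a ∈ (rg hT hR).G) (hbG : b ∈ (rg hT hR).G) : a = b := by
  have h1 : a.val * pMat K D pT = b.val * pMat K D pT := by
    have ha' : pMat K D pT * _ = a.val * pMat K D pT := ha
    have hb' : pMat K D pT * _ = b.val * pMat K D pT := hb
    rw [← ha', hb']
  have h3 : (⟨b⁻¹ * a, mul_mem (inv_mem hbG) haG⟩ : ↥(rg hT hR).G) ∈ N2 (K := K) (rg hT hR).G pT := by
    show (b⁻¹ * a : GL D.Idx K).val * _ = _
    rw [Units.val_mul, mul_assoc, h1, ← mul_assoc, ← Units.val_mul, inv_mul_cancel, Units.val_one, one_mul]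
  rw [N2_bot hA hP hT hR h2 hperf hs, mem_bot] at h3
  have h4 : b⁻¹ * a = 1 := congrArg Subtype.val h3
  exact (inv_mul_eq_one.1 h4).symm

include hA hP hR h2 in
theorem exists_graph (hperf : ∀ x : K, ∃ y : K, y ^ 2 = x) (hs : IsSimpleGroup ↥(rg hT hR).G) :
    ∃ α : ↥(rg hT hR).G ≃* ↥(rg hT hR).G, ∀ g, R0 K D pT g.1 (α g).1 := by
  choose f hf1 hf2 using ex_right hA hP hT hR h2
  let φ : ↥(rg hT hR).G →* ↥(rg hT hR).G :=
    { toFun := fun g => ⟨f g.1 g.2, hf1 g.1 g.2⟩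
      map_one' := by
        apply Subtype.ext
        exact func hA hP hT hR h2 hperf hs (hf2 _ _) R0_one (hf1 _ _) (one_mem _)
      map_mul' := by
        intro a b
        apply Subtype.ext
        exact func hA hP hT hR h2 hperf hs (hf2 _ _) (R0_mul (hf2 a.1 a.2) (hf2 b.1 b.2)) (hf1 _ _)
          (mul_mem (hf1 _ _) (hf1 _ _)) }
  have hφ : ∀ g, R0 K D pT g.1 (φ g).1 := fun g => hf2 g.1 g.2
  have hsurj : Function.Surjective φ := by
    intro g'
    obtain ⟨g, hg, h⟩ := ex_left hA hP hT hR h2 hperf g'.1 g'.2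
    refine ⟨⟨g, hg⟩, Subtype.ext ?_⟩
    exact func hA hP hT hR h2 hperf hs (hφ ⟨g, hg⟩) h (φ ⟨g, hg⟩).2 g'.2
  have hinj : Function.Injective φ := by
    rw [← MonoidHom.ker_eq_bot_iff]
    rcases hs.eq_bot_or_eq_top_of_normal φ.ker inferInstance with h | h
    · exact h
    · exfalso
      obtain ⟨a, b, hab⟩ := hs.toNontrivial.exists_pair_ne
      obtain ⟨a', rfl⟩ := hsurj a
      obtain ⟨b', rfl⟩ := hsurj b
      have h1 : a' ∈ φ.ker := by rw [h]; exact mem_top _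
      have h3 : b' ∈ φ.ker := by rw [h]; exact mem_top _
      rw [MonoidHom.mem_ker] at h1 h3
      exact hab (h1.trans h3.symm)
  exact ⟨MulEquiv.ofBijective φ ⟨hinj, hsurj⟩, hφ⟩

include hA hP hT hR h2 in
theorem exists_graph' (hperf : ∀ x : K, ∃ y : K, y ^ 2 = x) (hs : IsSimpleGroup ↥(D.group K)) :
    ∃ α : ↥(D.group K) ≃* ↥(D.group K), ∀ (g : ↥(D.group K)) (s : ℕ) (t : K), s < D.nroots →
      ((g : GL D.Idx K) : Matrix D.Idx D.Idx K) = D.x K s t →
        ((α g : GL D.Idx K) : Matrix D.Idx D.Idx K) = D.x K (gW pT s) (t ^ lam pT s) := by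
  have hG : (rg hT hR).G = D.group K := G_eq hT hR
  obtain ⟨G', hG'⟩ : ∃ G', G' = D.group K := ⟨_, rfl⟩
  rw [← hG'] at hG hs ⊢
  subst hG
  obtain ⟨α, hα⟩ := exists_graph hA hP hT hR h2 hperf hs
  refine ⟨α, fun g s t hs' hg => ?_⟩
  have e : (g : GL D.Idx K) = (rg hT hR).x ⟨s, hs'⟩ t := by
    apply Units.ext
    rw [hg]
    exact (coe_xg hR s t).symm
  have h1 := hα g
  rw [e] at h1
  have h3 := func hA hP hT hR h2 hperf hs h1 (piso' hA hP hT hR h2 ⟨s, hs'⟩ t) (α g).2 (x_mem_G _ _)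
  rw [h3]
  exact coe_xg hR _ _

/-- the graph automorphism of `F₄(K)`, `K` perfect of characteristic 2 -/
theorem graphF4 (h2 : (2 : K) = 0) (hperf : ∀ x : K, ∃ y : K, y ^ 2 = x) :
    ∃ α : ↥(chevF4.group K) ≃* ↥(chevF4.group K), ∀ (g : ↥(chevF4.group K)) (s : ℕ) (t : K), s < chevF4.nroots →
      ((g : GL chevF4.Idx K) : Matrix chevF4.Idx chevF4.Idx K) = chevF4.x K s t →
        ((α g : GL chevF4.Idx K) : Matrix chevF4.Idx chevF4.Idx K) = chevF4.x K (gW pF4 s) (t ^ lam pF4 s) :=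
  exists_graph' Helper22ChevTabF4.agree Cfsg.Agent.Lib.Helper22F4.ptabF4 (Helper23All.tab (D := chevF4) (by simp))
    (Helper23All.rel (D := chevF4) (F := K) (by simp)) h2 hperf (Helper23All.simple5 (by simp)).1

end Cfsg.Agent.Lib.LeadF4Graph
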