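import Cfsg.Agent.Lib.LeadTwDefs3
import Cfsg.Agent.Lib.LeadAutOut
import Cfsg.Agent.Lib.Helper23TwC

set_option autoImplicit false
set_option linter.unusedVariables false
set_option linter.unusedSectionVars false

namespace Cfsg.Agent.Lib.LeadTwX

open Cfsg Cfsg.Lie Cfsg.Lie.ChevalleyDatum
open Subgroup Cfsg.Agent.Lib.Helper23Grp Cfsg.Agent.Lib.Helper23RG Cfsg.Agent.Lib.Helper23TG
  Cfsg.Agent.Lib.Helper23Tw Cfsg.Agent.Lib.Helper23Weyl Cfsg.Agent.Lib.LeadTwDefs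
  Cfsg.Agent.Lib.Helper23Table Cfsg.Agent.Lib.Helper23Chev Cfsg.Agent.Lib.Helper23Fast
  Cfsg.Agent.Lib.Helper23TwC Cfsg.Agent.Lib.LeadAutConc

theorem comm_C {F : Type*} [Field F] {D : ChevalleyDatum} (hT : TableOK D) (hR : Rel D F)
    (hCF : ∀ r s, r < D.nroots → s < D.nroots → s ≠ r → s ≠ D.neg r → ∀ t u : F,
      D.x F s u * D.x F r t = D.x F r t * D.x F s u * D.wordMat F (D.commWord F r s t u))
    (a b : Fin D.nroots) (h1 : b.val ≠ a.val) (h2 : b.val ≠ D.neg a.val) (h3 : D.commTerms a.val b.val = []) (t u : F) :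
    Commute ((rg hT hR).x a t) ((rg hT hR).x b u) := by
  have h4 := hCF a b a.2 b.2 h1 h2 t u
  rw [commWord, h3] at h4
  simp only [List.map_nil, wordMat, List.prod_nil, mul_one] at h4
  show xg D F a t * xg D F b u = xg D F b u * xg D F a t
  apply Units.ext
  rw [Units.val_mul, Units.val_mul, coe_xg hR, coe_xg hR]
  exact h4.symm

variable {𝔾 F R I R1 I1 : Type*} [Group 𝔾] [Field F] {S : RG 𝔾 F R I} {T : Tw S R1 I1}
  (ok : S.Ok) (hT : T.Ok) (hBV : ∀ g ∈ S.B, g ∈ S.V → g = 1) (hUN : ∀ g ∈ S.U, g ∈ S.N → g = 1)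
  (rep : I1 → I) (hrep : ∀ J, rep J ∈ T.orb J)

include ok hT hBV hUN hrep

theorem theta_list (L : Subgroup 𝔾) (Θ : ↥L ≃* ↥L) {α : Type*} (l : List α) (f g : α → 𝔾) (hf : ∀ a, f a ∈ L)
    (h : ∀ a, (Θ ⟨f a, hf a⟩ : 𝔾) = g a) (hl : (l.map f).prod ∈ L) :
    (Θ ⟨(l.map f).prod, hl⟩ : 𝔾) = (l.map g).prod := by
  induction l with
  | nil =>
    have : (⟨(List.map f []).prod, hl⟩ : ↥L) = 1 := rfl
    rw [this, map_one]; rfl
  | cons a l ih =>
    have hl' : (l.map f).prod ∈ L := by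
      apply Subgroup.list_prod_mem
      intro x hx
      obtain ⟨b, _, rfl⟩ := List.mem_map.1 hx
      exact hf b
    have : (⟨(List.map f (a :: l)).prod, hl⟩ : ↥L) = ⟨f a, hf a⟩ * ⟨(l.map f).prod, hl'⟩ := by
      apply Subtype.ext
      simp
    rw [this, map_mul, Subgroup.coe_mul, h, ih hl']
    simp

theorem theta_yy (L : Subgroup 𝔾) (hx : ∀ r t, S.x r t ∈ L) (Θ : ↥L ≃* ↥L) (C : I → F) (σ : F ≃+* F)
    (hpos : ∀ i t, (Θ ⟨S.x (S.simple i) t, hx _ _⟩ : 𝔾) = S.x (S.simple i) (C i * σ t))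
    (hneg : ∀ i t, (Θ ⟨S.x (S.neg (S.simple i)) t, hx _ _⟩ : 𝔾) = S.x (S.neg (S.simple i)) ((C i)⁻¹ * σ t))
    (J : I1) (t : I → F) :
    (∀ h1 : T.yy true J t ∈ L, (Θ ⟨T.yy true J t, h1⟩ : 𝔾) = T.yy true J (fun i => C i * σ (t i))) ∧
    (∀ h2 : T.yy false J t ∈ L, (Θ ⟨T.yy false J t, h2⟩ : 𝔾) = T.yy false J (fun i => (C i)⁻¹ * σ (t i))) := by
  constructor
  · intro h1
    exact theta_list ok hT hBV hUN rep hrep L Θ (T.orb J) (fun i => S.x (Tw.sr S true i) (t i))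
      (fun i => S.x (Tw.sr S true i) (C i * σ (t i))) (fun i => hx _ _) (fun i => hpos i (t i)) h1
  · intro h1
    exact theta_list ok hT hBV hUN rep hrep L Θ (T.orb J) (fun i => S.x (Tw.sr S false i) (t i))
      (fun i => S.x (Tw.sr S false i) ((C i)⁻¹ * σ (t i))) (fun i => hx _ _) (fun i => hneg i (t i)) h1

theorem theta_G1 (L : Subgroup 𝔾) (hGL : T.G1 ≤ L) (Θ : ↥L ≃* ↥L) (C : I → F) (σ : F ≃+* F)
    (hC : ∀ i, C (T.ρI i) = T.φ (C i)) (hσ : ∀ t, σ (T.φ t) = T.φ (σ t))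
    (h2 : ∀ (J : I1) (t : I → F),
      (∀ h1 : T.yy true J t ∈ L, (Θ ⟨T.yy true J t, h1⟩ : 𝔾) = T.yy true J (fun i => C i * σ (t i))) ∧
      (∀ h2 : T.yy false J t ∈ L, (Θ ⟨T.yy false J t, h2⟩ : 𝔾) = T.yy false J (fun i => (C i)⁻¹ * σ (t i)))) :
    ∀ m (hm : m ∈ T.G1), (Θ ⟨m, hGL hm⟩ : 𝔾) ∈ T.G1 := by
  intro m hm
  have key : ∀ m ∈ T.G1, ∀ hL : m ∈ L, (Θ ⟨m, hL⟩ : 𝔾) ∈ T.G1 := by
    intro m hm
    unfold Tw.G1 at hm
    induction hm using closure_induction with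
    | mem x hx =>
      obtain ⟨b, J, t, ht, rfl⟩ := hx
      intro hL
      cases b
      · rw [(h2 J t).2 hL]
        apply Tw.yy_mem_G1
        intro i hi
        show (C (T.ρI i))⁻¹ * σ (t (T.ρI i)) = T.φ ((C i)⁻¹ * σ (t i))
        rw [hC, ht i hi, hσ, map_mul, map_inv₀]
      · rw [(h2 J t).1 hL]
        apply Tw.yy_mem_G1
        intro i hi
        show C (T.ρI i) * σ (t (T.ρI i)) = T.φ (C i * σ (t i))
        rw [hC, ht i hi, hσ, map_mul]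
    | one =>
      intro hL
      have : (⟨1, hL⟩ : ↥L) = 1 := rfl
      rw [this, map_one]
      exact one_mem _
    | mul a b ha hb iha ihb =>
      intro hL
      have haL : a ∈ L := hGL ha
      have hbL : b ∈ L := hGL hb
      have : (⟨a * b, hL⟩ : ↥L) = ⟨a, haL⟩ * ⟨b, hbL⟩ := rfl
      rw [this, map_mul]
      exact mul_mem (iha haL) (ihb hbL)
    | inv a ha iha =>
      intro hL
      have haL : a ∈ L := hGL ha
      have : (⟨a⁻¹, hL⟩ : ↥L) = (⟨a, haL⟩ : ↥L)⁻¹ := rfl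
      rw [this, map_inv]
      exact inv_mem (iha haL)
  exact key m hm _

end Cfsg.Agent.Lib.LeadTwX
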