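import Cfsg.Agent.Lib.LeadTwI
import Cfsg.Agent.Lib.LeadAutOut
import Cfsg.Agent.Lib.Helper23Tw3D4d
import Cfsg.Agent.Lib.Helper23Tw2E6d
import Cfsg.Agent.Lib.Helper15TwC1
import Cfsg.Agent.Lib.LeadTwX
import Cfsg.Agent.Lib.Helper15TwC3
import Cfsg.Agent.Lib.Helper37TwC4

set_option autoImplicit false
set_option linter.unusedVariables false
set_option linter.unusedSectionVars false
set_option maxRecDepth 100000

/-! PROJECT TW-AUT, part C: the generic concrete theorem. -/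

namespace Cfsg.Agent.Lib.LeadTwC

open Cfsg Cfsg.Lie Cfsg.Lie.ChevalleyDatum
open Subgroup Cfsg.Agent.Lib.Helper23Grp Cfsg.Agent.Lib.Helper23RG Cfsg.Agent.Lib.Helper23TG
  Cfsg.Agent.Lib.Helper23Tw Cfsg.Agent.Lib.Helper23Weyl Cfsg.Agent.Lib.LeadTwDefs
  Cfsg.Agent.Lib.Helper23Table Cfsg.Agent.Lib.Helper23Chev Cfsg.Agent.Lib.Helper23Fast
  Cfsg.Agent.Lib.Helper23TwC Cfsg.Agent.Lib.LeadAutConc Cfsg.Agent.Lib.LeadTwI
  Cfsg.Agent.Lib.Helper17TwI4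
open Cfsg.Agent.Lib.Helper15TwC1 Cfsg.Agent.Lib.LeadTwX Cfsg.Agent.Lib.Helper15TwC3 Cfsg.Agent.Lib.Helper37TwC4

/-! ## the generic concrete theorem -/

section generic

variable {X : TD} {F : Type*} [Field F] [Fintype F]
variable (hX : X.Chk) (hT : TableOK X.D) (hR : Rel X.D F) (hv : X.P.Valid)
  {sg : GL X.D.Idx F → GL X.D.Idx F} {φ : F ≃+* F} (hs : SgOk X sg φ) {rkT : ℕ} (hreach : X.P.reachChk rkT = true)
  (hCF : ∀ r s, r < X.D.nroots → s < X.D.nroots → s ≠ r → s ≠ X.D.neg r → ∀ t u : F,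
    X.D.x F s u * X.D.x F r t = X.D.x F r t * X.D.x F s u * X.D.wordMat F (X.D.commWord F r s t u))
  (hw0 : ∃ π ∈ (FT.W hv).WJ Set.univ, ∀ r, (FT.W hv).pos r → ¬ (FT.W hv).pos (π r))
  (rep : Fin X.P.l → Fin X.D.rank) (hrep : ∀ J, rep J ∈ (tw hX hT hR hv sg φ).orb J)

include hw0 hrep

/-- the order of `U¹` -/
theorem card_S1_U : Nat.card (S1 (rg_ok hT hR) (tw_ok hX hT hR hv hs hreach hCF)).U =
    Nat.card ↥(X.D.posUnipotent F ⊓ (tw hX hT hR hv sg φ).G1) := by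
  obtain ⟨π0, hπ0, h0⟩ := hw0
  rw [← Helper23Chev.U_eq hT hR, Tw.U_inf (rg_ok hT hR) (tw_ok hX hT hR hv hs hreach hCF) (hBV hT hR) (hUN hT hR)
    (rf := (FT.W hv).rf) (pr := (FT.W hv).pr) (FT.W_ok hv) hπ0 h0]
  exact Nat.card_congr (Subgroup.subgroupOfEquivOfLe (U_le (rg_ok hT hR) (tw_ok hX hT hR hv hs hreach hCF) (hBV hT hR) (hUN hT hR)
    rep hrep (rf := (FT.W hv).rf) (pr := (FT.W hv).pr) (FT.W_ok hv) hπ0 h0)).toEquiv

theorem tdataC (p a m : ℕ) [Fact p.Prime] (hG : Nat.card ↥(tw hX hT hR hv sg φ).G1 = p ^ a * m) (hm : ¬ p ∣ m)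
    (hU : Nat.card ↥(X.D.posUnipotent F ⊓ (tw hX hT hR hv sg φ).G1) = p ^ a) :
    TData (S1 (rg_ok hT hR) (tw_ok hX hT hR hv hs hreach hCF)) := by
  have hU' := card_S1_U hX hT hR hv hs hreach hCF hw0 rep hrep
  obtain ⟨π0, hπ0, h0⟩ := hw0
  exact tdata (rg_ok hT hR) (tw_ok hX hT hR hv hs hreach hCF) (hBV hT hR) (hUN hT hR) rep hrep
    (rf := (FT.W hv).rf) (pr := (FT.W hv).pr) (FT.W_ok hv) hπ0 h0
    (fun Q hQ => syl _ p a m hG hm (hU'.trans hU) Q hQ)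

theorem card_out_C (hD : X.D ∈ [chevG2, chevB2, chevD4, chevF4, chevE6, chevE7, chevE8])
    (hoi : ∀ i < X.D.rank, X.oi i < X.P.l)
    (hTD : TData (S1 (rg_ok hT hR) (tw_ok hX hT hR hv hs hreach hCF)))
    (hA0 : ∀ i < X.D.rank, ∀ j < X.D.rank, i ≠ j → X.oi i = X.oi j → X.D.cartan i (X.D.simple j) = 0)
    (hsimp : IsSimpleGroup ↥(tw hX hT hR hv sg φ).G1 ∧ ¬ IsMulCommutative ↥(tw hX hT hR hv sg φ).G1)
    (hrig : ∀ (θ : ↥(tw hX hT hR hv sg φ).G1 ≃* ↥(tw hX hT hR hv sg φ).G1) (ρ : Equiv.Perm (Fin X.P.l)),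
      Perms (S1 (rg_ok hT hR) (tw_ok hX hT hR hv hs hreach hCF)) θ ρ → ρ = 1)
    (j0 : Fin X.P.l) (hj0 : (tw hX hT hR hv sg φ).Adm (rep j0) = Set.univ)
    (hpath : ∀ j, Relation.ReflTransGen (Lk (ta (tw hX hT hR hv sg φ) rep)) j j0)
    {q : ℕ} (hφ : ∀ t, φ t = t ^ q) :
    Nat.card (Cfsg.Out ↥(tw hX hT hR hv sg φ).G1) * Nat.card (tw hX hT hR hv sg φ).T0 =
      (∏ J, (Nat.card ((tw hX hT hR hv sg φ).Adm (rep J)) - 1)) * Nat.card (F ≃+* F) := by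
  have tok := tw_ok hX hT hR hv hs hreach hCF
  apply card_out_abs (rg_ok hT hR) tok (hBV hT hR) (hUN hT hR) rep hrep hTD
    (fun i => Cfsg.Agent.Lib.Helper38AutC2.cartan_self hD i i.2)
    (fun J i hi j hj hij => hA0 i i.2 j j.2 (fun e => hij (Fin.ext e))
      (((mem_orb hX hT hR hv sg φ).1 hi).trans ((mem_orb hX hT hR hv sg φ).1 hj).symm))
    (center_trivial hsimp) hrig j0 hj0 hpath
    (fun i => ⟨⟨X.oi i, hoi i i.2⟩, (mem_orb hX hT hR hv sg φ).2 rfl⟩)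
    (X.D.group F) (x_mem_group hT hR)
    (by
      rw [← Helper23Chev.G_eq hT hR]
      exact fun g hg => (Tw.G1_le_Fix (rg_ok hT hR) tok (hBV hT hR) hg).1)
    (fun C σ hC => exists_Theta hD hT hR C σ hC)
    (fun σ t => by
      show σ (φ t) = φ (σ t)
      rw [hφ, hφ, map_pow])

end generic

end Cfsg.Agent.Lib.LeadTwC
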