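import Cfsg.Agent.Lib.LeadTwC

set_option autoImplicit false
set_option linter.unusedVariables false
set_option linter.unusedSectionVars false
set_option maxRecDepth 100000

/-! PROJECT 101 (TW-AUT), PART D : `³D₄(q)`. -/

namespace Cfsg.Agent.Lib.LeadTwD

open Cfsg Cfsg.Lie Cfsg.Lie.ChevalleyDatum
open Subgroup Cfsg.Agent.Lib.Helper23Grp Cfsg.Agent.Lib.Helper23RG Cfsg.Agent.Lib.Helper23TG
  Cfsg.Agent.Lib.Helper23Tw Cfsg.Agent.Lib.Helper23Weyl Cfsg.Agent.Lib.LeadTwDefs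
  Cfsg.Agent.Lib.Helper23Table Cfsg.Agent.Lib.Helper23Chev Cfsg.Agent.Lib.Helper23Fast
  Cfsg.Agent.Lib.Helper23TwC Cfsg.Agent.Lib.LeadAutConc Cfsg.Agent.Lib.LeadTwI Cfsg.Agent.Lib.LeadTwC Cfsg.Agent.Lib.Helper15TwC1 Cfsg.Agent.Lib.LeadTwX Cfsg.Agent.Lib.Helper15TwC3 Cfsg.Agent.Lib.Helper37TwC4 Cfsg.Agent.Lib.Helper17TwI5 Cfsg.Agent.Lib.Helper17TwI6 Cfsg.Agent.Lib.Helper36TwI20 Cfsg.Agent.Lib.Helper36TwI21 Cfsg.Agent.Lib.Helper36TwI22
  Cfsg.Agent.Lib.Helper23Tw3D4 Cfsg.Agent.Lib.Helper23TwT3D4 Cfsg.Agent.Lib.Helper23FastT3D4 Cfsg.Agent.Lib.Helper23FF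

variable {K : Type*} [Field K] [Fintype K]

/-- the representatives of the orbits -/
def rep : Fin X.P.l → Fin X.D.rank := fun J => if J.val = 0 then ⟨0, by decide⟩ else ⟨1, by decide⟩

theorem hrep (sg : GL X.D.Idx K → GL X.D.Idx K) (φ : K ≃+* K) : ∀ J, rep J ∈ (TT sg φ).orb J := by
  intro J
  apply (mem_orb chk hT hR Helper23FastG2.valid sg φ).2
  revert J
  decide +kernel

theorem hA0 : ∀ i < X.D.rank, ∀ j < X.D.rank, i ≠ j → X.oi i = X.oi j → X.D.cartan i (X.D.simple j) = 0 := by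
  decide +kernel

theorem cardAdm {q : ℕ} (hq : 2 ≤ q) (hK : Fintype.card K = q ^ 3) (sg : GL X.D.Idx K → GL X.D.Idx K) (φ : K ≃+* K)
    (hφ : ∀ t, φ t = t ^ q) :
    (TT sg φ).Adm (rep ⟨0, by decide⟩) = Set.univ ∧ Nat.card ((TT sg φ).Adm (rep ⟨0, by decide⟩)) = q ^ 3 ∧
      Nat.card ((TT sg φ).Adm (rep ⟨1, by decide⟩)) = q := by
  have hφ3 : ∀ a, (⇑φ)^[3] a = a := by
    intro a
    show φ (φ (φ a)) = a
    rw [hφ, hφ, hφ, ← pow_mul, ← pow_mul]
    have : q * (q * q) = q ^ 3 := by ring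
    rw [this, pow_card' hK]
  have h0 : (TT sg φ).Adm (rep ⟨0, by decide⟩) = Set.univ :=
    Adm_fullC chk hT hR Helper23FastG2.valid sg φ 3 (by norm_num) hφ3 (by decide +kernel) _ (by decide +kernel)
  refine ⟨h0, ?_, ?_⟩
  · rw [h0, Nat.card_coe_set_eq, Set.ncard_univ, Nat.card_eq_fintype_card, hK]
  · rw [Adm_fixedC chk hT hR Helper23FastG2.valid sg φ _ (by decide +kernel), ← card_fixed hq hK]
    apply Nat.card_congr
    apply Equiv.subtypeEquivRight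
    intro a
    show φ a = a ↔ _
    rw [hφ]

theorem main (p f : ℕ) [Fact p.Prime] [CharP K p] (hK : Fintype.card K = p ^ (3 * f)) (hf : 1 ≤ f) :
    Nat.card (Cfsg.Out ↥(tws K (p ^ f))) = 3 * f := by
  have hp : p.Prime := Fact.out
  have hq : IsPrimePow (p ^ f) := ⟨p, f, hp.prime, hf, rfl⟩
  have hK' : Fintype.card K = (p ^ f) ^ 3 := by rw [hK, ← pow_mul, mul_comm]
  have hord := s1067 hq hK'
  have hU := s1088 hq hK'
  have hsimp := s1071 hq hK'
  obtain ⟨sg, φ, hs, hφ, e⟩ := exists_ctx hq hK'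
  rw [← e] at hord hU hsimp ⊢
  have ok := rg_ok hT (hR (K := K))
  have tok := tw_ok chk hT hR Helper23FastG2.valid hs rchk hCF
  have hTD := tdataC chk hT hR Helper23FastG2.valid hs rchk hCF Helper23FastG2.exists_w0 rep (hrep sg φ) p (12 * f)
    (((p ^ f) ^ 2 - 1) * ((p ^ f) ^ 6 - 1) * ((p ^ f) ^ 8 + (p ^ f) ^ 4 + 1))
    (by rw [hord, ← pow_mul, mul_comm f 12]; ring) (arith_3D4 p f hp hf) (by rw [hU, ← pow_mul, mul_comm f 12])
  obtain ⟨a0, a1, a2⟩ := cardAdm hq.two_le hK' sg φ hφ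
  have hUle : (Tw.tg0 ok tok).U ≤ (TT sg φ).G1 := by
    obtain ⟨π0, hπ0, h0⟩ := Helper23FastG2.exists_w0
    exact U_le ok tok (hBV hT hR) (hUN hT hR) rep (hrep sg φ) (rf := (FT.W Helper23FastG2.valid).rf)
      (pr := (FT.W Helper23FastG2.valid).pr) (FT.W_ok Helper23FastG2.valid) hπ0 h0
  have key := card_out_C chk hT hR Helper23FastG2.valid hs rchk hCF Helper23FastG2.exists_w0 rep (hrep sg φ) hD hoi hTD hA0 hsimp
    (fun θ ρ hρ => by
      have hsz : ∀ J : Fin X.P.l, Nat.card ((TT sg φ).Adm (rep (ρ J))) = Nat.card ((TT sg φ).Adm (rep J)) := fun J =>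
        (card_S1_X ok tok (hBV hT hR) (hUN hT hR) rep (hrep sg φ) hUle (ρ J)).symm.trans
          ((perms_card hρ J).trans (card_S1_X ok tok (hBV hT hR) (hUN hT hR) rep (hrep sg φ) hUle J))
      refine rigid2 (fun J => Nat.card ((TT sg φ).Adm (rep J))) ρ hsz ?_
      show Nat.card ((TT sg φ).Adm (rep ⟨0, by decide⟩)) ≠ Nat.card ((TT sg φ).Adm (rep ⟨1, by decide⟩))
      rw [a1, a2]
      exact (lt_self_pow₀ (by have := hq.two_le; omega) (by norm_num)).ne')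
    ⟨0, by decide⟩ a0
    (fun j => by
      obtain ⟨j, hj⟩ := j
      have hj' : j < 2 := hj
      interval_cases j
      · exact Relation.ReflTransGen.refl
      · apply Relation.ReflTransGen.single
        apply lk_of ok tok (hBV hT hR) (hUN hT hR) rep (hrep sg φ)
        · exact (by decide +kernel : X.D.cartan 1 (X.D.simple 0) = -1)
        · intro i hi hne
          have hi' := (mem_orb chk hT hR Helper23FastG2.valid sg φ).1 hi
          exact absurd ((by decide +kernel : ∀ i : Fin X.D.rank, X.oi i.val = 1 → i = rep ⟨1, by decide⟩) i hi') hne)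
    hφ
  have hT0 := card_T0E hq.two_le hK' hs hφ
  have hprod : (∏ J, (Nat.card ((TT sg φ).Adm (rep J)) - 1)) = ((p ^ f) ^ 3 - 1) * (p ^ f - 1) := by
    have h : ∀ g : Fin 2 → ℕ, ∏ J : Fin X.P.l, g J = g 0 * g 1 := fun g => Fin.prod_univ_two g
    refine (h (fun J => Nat.card ((TT sg φ).Adm (rep J)) - 1)).trans ?_
    show (Nat.card ((TT sg φ).Adm (rep ⟨0, by decide⟩)) - 1) * (Nat.card ((TT sg φ).Adm (rep ⟨1, by decide⟩)) - 1) = _
    rw [a1, a2]
  rw [hT0, hprod, (Cfsg.Agent.Lib.Helper50Out.ringAut_cyclic_card hK).2, mul_comm] at key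
  have hpos : 0 < ((p ^ f) ^ 3 - 1) * (p ^ f - 1) := by
    have := hq.two_le
    have h3 : (p ^ f) < (p ^ f) ^ 3 := lt_self_pow₀ (by omega) (by norm_num)
    apply Nat.mul_pos <;> omega
  exact Nat.eq_of_mul_eq_mul_left hpos key

end Cfsg.Agent.Lib.LeadTwD
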