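import Cfsg.Agent.Lib.LeadTwC

set_option autoImplicit false
set_option linter.unusedVariables false
set_option linter.unusedSectionVars false
set_option linter.unreachableTactic false
set_option linter.unusedTactic false
set_option maxRecDepth 1000000
set_option synthInstance.maxSize 4000

/-! PROJECT 101 (TW-AUT), PART E : `²E₆(q)`. -/

namespace Cfsg.Agent.Lib.LeadTwE

open Cfsg Cfsg.Lie Cfsg.Lie.ChevalleyDatum
open Subgroup Cfsg.Agent.Lib.Helper23Grp Cfsg.Agent.Lib.Helper23RG Cfsg.Agent.Lib.Helper23TG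
  Cfsg.Agent.Lib.Helper23Tw Cfsg.Agent.Lib.Helper23Weyl Cfsg.Agent.Lib.LeadTwDefs
  Cfsg.Agent.Lib.Helper23Table Cfsg.Agent.Lib.Helper23Chev Cfsg.Agent.Lib.Helper23Fast
  Cfsg.Agent.Lib.Helper23TwC Cfsg.Agent.Lib.LeadAutConc Cfsg.Agent.Lib.LeadTwI Cfsg.Agent.Lib.LeadTwC Cfsg.Agent.Lib.Helper15TwC1 Cfsg.Agent.Lib.LeadTwX Cfsg.Agent.Lib.Helper15TwC3 Cfsg.Agent.Lib.Helper37TwC4 Cfsg.Agent.Lib.Helper17TwI5 Cfsg.Agent.Lib.Helper17TwI6 Cfsg.Agent.Lib.Helper36TwI20 Cfsg.Agent.Lib.Helper36TwI21 Cfsg.Agent.Lib.Helper36TwI22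
  Cfsg.Agent.Lib.Helper23Tw2E6 Cfsg.Agent.Lib.Helper23TwT2E6 Cfsg.Agent.Lib.Helper23FastT2E6 Cfsg.Agent.Lib.Helper23FF

variable {K : Type*} [Field K] [Fintype K]

/-- the representatives of the orbits -/
def rep : Fin X.P.l → Fin X.D.rank := fun J =>
  if J.val = 0 then ⟨0, by decide⟩ else if J.val = 1 then ⟨2, by decide⟩ else if J.val = 2 then ⟨3, by decide⟩ else ⟨1, by decide⟩

theorem hrep (sg : GL X.D.Idx K → GL X.D.Idx K) (φ : K ≃+* K) : ∀ J, rep J ∈ (TT sg φ).orb J := by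
  intro J
  apply (mem_orb chk hT hR Helper23FastF4.valid sg φ).2
  revert J
  decide +kernel

theorem hA0 : ∀ i < X.D.rank, ∀ j < X.D.rank, i ≠ j → X.oi i = X.oi j → X.D.cartan i (X.D.simple j) = 0 := by
  decide +kernel

theorem cardAdm {q : ℕ} (hq : 2 ≤ q) (hK : Fintype.card K = q ^ 2) (sg : GL X.D.Idx K → GL X.D.Idx K) (φ : K ≃+* K)
    (hφ : ∀ t, φ t = t ^ q) :
    (TT sg φ).Adm (rep ⟨1, by decide⟩) = Set.univ ∧ Nat.card ((TT sg φ).Adm (rep ⟨0, by decide⟩)) = q ^ 2 ∧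
      Nat.card ((TT sg φ).Adm (rep ⟨1, by decide⟩)) = q ^ 2 ∧ Nat.card ((TT sg φ).Adm (rep ⟨2, by decide⟩)) = q ∧
      Nat.card ((TT sg φ).Adm (rep ⟨3, by decide⟩)) = q := by
  have hφ2 : ∀ a, (⇑φ)^[2] a = a := by
    intro a
    show φ (φ a) = a
    rw [hφ, hφ, ← pow_mul, ← sq, pow_card' hK]
  have hfull : ∀ i : Fin X.D.rank, (∀ b < 2, 0 < b → X.rhoI^[b] i ≠ i) → (TT sg φ).Adm i = Set.univ := fun i hi =>
    Adm_fullC chk hT hR Helper23FastF4.valid sg φ 2 (by norm_num) hφ2 (by decide +kernel) i hi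
  have hfull' : ∀ i : Fin X.D.rank, (∀ b < 2, 0 < b → X.rhoI^[b] i ≠ i) → Nat.card ((TT sg φ).Adm i) = q ^ 2 := by
    intro i hi
    rw [hfull i hi, Nat.card_coe_set_eq, Set.ncard_univ, Nat.card_eq_fintype_card, hK]
  have hfix : ∀ i : Fin X.D.rank, X.rhoI i = i → Nat.card ((TT sg φ).Adm i) = q := by
    intro i hi
    rw [Adm_fixedC chk hT hR Helper23FastF4.valid sg φ i hi, ← card_fixed hq hK]
    apply Nat.card_congr
    apply Equiv.subtypeEquivRight
    intro a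
    show φ a = a ↔ _
    rw [hφ]
  exact ⟨hfull _ (by decide +kernel), hfull' _ (by decide +kernel), hfull' _ (by decide +kernel),
    hfix _ (by decide +kernel), hfix _ (by decide +kernel)⟩

/-- the commuting pairs of orbits -/
theorem comm_tab : ∀ i < X.D.rank, ∀ j < X.D.rank,
    ((X.oi i = 3 ∧ X.oi j = 1) ∨ (X.oi i = 3 ∧ X.oi j = 0) ∨ (X.oi i = 2 ∧ X.oi j = 0)) →
    ∀ a ∈ [X.D.simple i, X.D.neg (X.D.simple i)],
      X.D.simple j ≠ a ∧ X.D.simple j ≠ X.D.neg a ∧ X.D.commTerms a (X.D.simple j) = [] := by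
  decide +kernel

theorem main (p f : ℕ) [Fact p.Prime] [CharP K p] (hK : Fintype.card K = p ^ (2 * f)) (hf : 1 ≤ f) :
    Nat.card (Cfsg.Out ↥(tws K (p ^ f))) = 2 * Nat.gcd 3 (p ^ f + 1) * f := by
  have hp : p.Prime := Fact.out
  have hq : IsPrimePow (p ^ f) := ⟨p, f, hp.prime, hf, rfl⟩
  have hK' : Fintype.card K = (p ^ f) ^ 2 := by rw [hK, ← pow_mul, mul_comm]
  have hord := s1066 hq hK'
  have hU := s1086 hq hK'
  have hsimp := s1070 hq hK'
  obtain ⟨sg, φ, hs, hφ, e⟩ := exists_ctx hq hK'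
  rw [← e] at hord hU hsimp ⊢
  have ok := rg_ok hT (hR (K := K))
  have tok := tw_ok chk hT hR Helper23FastF4.valid hs rchk hCF
  obtain ⟨m, hm1, hm2⟩ := arith_2E6 p f _ hp hf hord
  have hTD := tdataC chk hT hR Helper23FastF4.valid hs rchk hCF Helper23FastF4.exists_w0 rep (hrep sg φ) p (36 * f) m
    hm1 hm2 (by rw [hU, ← pow_mul, mul_comm f 36])
  obtain ⟨a0, a1, a2, a3, a4⟩ := cardAdm hq.two_le hK' sg φ hφ
  have hUle : (Tw.tg0 ok tok).U ≤ (TT sg φ).G1 := by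
    obtain ⟨π0, hπ0, h0⟩ := Helper23FastF4.exists_w0
    exact U_le ok tok (hBV hT hR) (hUN hT hR) rep (hrep sg φ) (rf := (FT.W Helper23FastF4.valid).rf)
      (pr := (FT.W Helper23FastF4.valid).pr) (FT.W_ok Helper23FastF4.valid) hπ0 h0
  have hDc : ∀ J J' : Fin X.P.l, ((J.val = 3 ∧ J'.val = 1) ∨ (J.val = 3 ∧ J'.val = 0) ∨ (J.val = 2 ∧ J'.val = 0)) →
      Dc (S1 ok tok) J J' := by
    intro J J' h
    apply Dc_of_comm ok tok (hBV hT hR) (hUN hT hR) rep (hrep sg φ)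
    intro i hi j hj b t u
    have hi' := (mem_orb chk hT hR Helper23FastF4.valid sg φ).1 hi
    have hj' := (mem_orb chk hT hR Helper23FastF4.valid sg φ).1 hj
    obtain ⟨h1, h2, h3⟩ := comm_tab i i.2 j j.2 (by rw [hi', hj']; exact h) (Tw.sr (rg hT (hR (K := K))) b i).val
      (by cases b
          · exact List.mem_cons_of_mem _ (List.mem_cons_self ..)
          · exact List.mem_cons_self ..)
    exact comm_C hT hR hCF _ _ h1 h2 h3 t u
  have hnD : ¬ Dc (S1 ok tok) ⟨2, by decide⟩ ⟨1, by decide⟩ := by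
    intro h
    have := refl_of_Dc hTD.ok (nn_eq ok tok (hBV hT hR) (hUN hT hR) rep (hrep sg φ) _) h
    have h1 : (FT.W Helper23FastF4.valid).s ⟨2, by decide⟩ ((FT.W Helper23FastF4.valid).simple ⟨1, by decide⟩) =
        (FT.W Helper23FastF4.valid).simple ⟨1, by decide⟩ := this
    have h2 : X.P.refl 2 (X.P.simp 1) = X.P.simp 1 := congrArg Fin.val h1
    exact absurd h2 (by decide +kernel)
  have key := card_out_C chk hT hR Helper23FastF4.valid hs rchk hCF Helper23FastF4.exists_w0 rep (hrep sg φ) hD hoi hTD hA0 hsimp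
    (fun θ ρ hρ => by
      have hsz : ∀ J : Fin X.P.l, Nat.card ((TT sg φ).Adm (rep (ρ J))) = Nat.card ((TT sg φ).Adm (rep J)) := fun J =>
        (card_S1_X ok tok (hBV hT hR) (hUN hT hR) rep (hrep sg φ) hUle (ρ J)).symm.trans
          ((perms_card hρ J).trans (card_S1_X ok tok (hBV hT hR) (hUN hT hR) rep (hrep sg φ) hUle J))
      refine rigid4 (Dc (S1 ok tok)) (fun J => Nat.card ((TT sg φ).Adm (rep J))) ρ (perms_Dc hρ) hsz
        (a1.trans a2.symm) (a3.trans a4.symm) ?_ (hDc _ _ (Or.inl ⟨rfl, rfl⟩)) (hDc _ _ (Or.inr (Or.inl ⟨rfl, rfl⟩)))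
        (hDc _ _ (Or.inr (Or.inr ⟨rfl, rfl⟩))) hnD
      show Nat.card ((TT sg φ).Adm (rep ⟨0, by decide⟩)) ≠ Nat.card ((TT sg φ).Adm (rep ⟨2, by decide⟩))
      rw [a1, a3]
      exact (lt_self_pow₀ (by have := hq.two_le; omega) (by norm_num)).ne')
    ⟨1, by decide⟩ a0
    (fun j => by
      have l01 : Lk (ta (TT sg φ) rep) ⟨0, by decide⟩ ⟨1, by decide⟩ := by
        apply lk_of ok tok (hBV hT hR) (hUN hT hR) rep (hrep sg φ)
        · exact (by decide +kernel : X.D.cartan 0 (X.D.simple 2) = -1)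
        · intro i hi hne
          have hi' := (mem_orb chk hT hR Helper23FastF4.valid sg φ).1 hi
          exact (by decide +kernel : ∀ i : Fin X.D.rank, X.oi i.val = 0 → i ≠ rep ⟨0, by decide⟩ →
            X.D.cartan i.val (X.D.simple 2) = 0) i hi' hne
      have l21 : Lk (ta (TT sg φ) rep) ⟨2, by decide⟩ ⟨1, by decide⟩ := by
        apply lk_of ok tok (hBV hT hR) (hUN hT hR) rep (hrep sg φ)
        · exact (by decide +kernel : X.D.cartan 3 (X.D.simple 2) = -1)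
        · intro i hi hne
          have hi' := (mem_orb chk hT hR Helper23FastF4.valid sg φ).1 hi
          exact (by decide +kernel : ∀ i : Fin X.D.rank, X.oi i.val = 2 → i ≠ rep ⟨2, by decide⟩ →
            X.D.cartan i.val (X.D.simple 2) = 0) i hi' hne
      have l32 : Lk (ta (TT sg φ) rep) ⟨3, by decide⟩ ⟨2, by decide⟩ := by
        apply lk_of ok tok (hBV hT hR) (hUN hT hR) rep (hrep sg φ)
        · exact (by decide +kernel : X.D.cartan 1 (X.D.simple 3) = -1)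
        · intro i hi hne
          have hi' := (mem_orb chk hT hR Helper23FastF4.valid sg φ).1 hi
          exact (by decide +kernel : ∀ i : Fin X.D.rank, X.oi i.val = 3 → i ≠ rep ⟨3, by decide⟩ →
            X.D.cartan i.val (X.D.simple 3) = 0) i hi' hne
      obtain ⟨j, hj⟩ := j
      have hj' : j < 4 := hj
      interval_cases j
      · exact Relation.ReflTransGen.single l01
      · exact Relation.ReflTransGen.refl
      · exact Relation.ReflTransGen.single l21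
      · exact (Relation.ReflTransGen.single l32).trans (Relation.ReflTransGen.single l21))
    hφ
  have hT0 := card_T0E hq.two_le hK' hs hφ
  have hprod : (∏ J, (Nat.card ((TT sg φ).Adm (rep J)) - 1)) =
      ((p ^ f) ^ 2 - 1) * ((p ^ f) ^ 2 - 1) * (p ^ f - 1) * (p ^ f - 1) := by
    have h : ∀ g : Fin 4 → ℕ, ∏ J : Fin X.P.l, g J = g 0 * g 1 * g 2 * g 3 := fun g => Fin.prod_univ_four g
    refine (h (fun J => Nat.card ((TT sg φ).Adm (rep J)) - 1)).trans ?_
    show (Nat.card ((TT sg φ).Adm (rep ⟨0, by decide⟩)) - 1) * (Nat.card ((TT sg φ).Adm (rep ⟨1, by decide⟩)) - 1) *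
      (Nat.card ((TT sg φ).Adm (rep ⟨2, by decide⟩)) - 1) * (Nat.card ((TT sg φ).Adm (rep ⟨3, by decide⟩)) - 1) = _
    rw [a1, a2, a3, a4]
  rw [hprod, ← hT0, (Cfsg.Agent.Lib.Helper50Out.ringAut_cyclic_card hK).2] at key
  have hpos : 0 < Nat.card (TT sg φ).T0 := Nat.card_pos
  have : Nat.card (TT sg φ).T0 * Nat.card (Cfsg.Out ↥(TT sg φ).G1) =
      Nat.card (TT sg φ).T0 * (2 * Nat.gcd 3 (p ^ f + 1) * f) := by
    rw [mul_comm, key]; ring
  exact Nat.eq_of_mul_eq_mul_left hpos this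

end Cfsg.Agent.Lib.LeadTwE
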