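import Cfsg.Agent.Lib.LeadTwDefs2
import Cfsg.Agent.Lib.LeadAutMain
import Cfsg.Agent.Lib.Helper70TwR1
import Cfsg.Agent.Lib.Helper70TwR2
import Cfsg.Agent.Lib.Helper70TwR3
import Cfsg.Agent.Lib.Helper19TwR4
import Cfsg.Agent.Lib.Helper19TwR5
import Cfsg.Agent.Lib.Helper70TwR6
import Cfsg.Agent.Lib.Helper70TwR7

set_option autoImplicit false

namespace Cfsg.Agent.Lib.LeadTwR

open Subgroup Cfsg.Agent.Lib.LeadTwDefs

variable {Γ F J : Type*} [Group Γ] [Field F] {P : TA Γ F J}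

open Cfsg.Agent.Lib.Helper70TwR1 Cfsg.Agent.Lib.Helper70TwR2 Cfsg.Agent.Lib.Helper70TwR3 Cfsg.Agent.Lib.Helper19TwR4 Cfsg.Agent.Lib.Helper19TwR5 Cfsg.Agent.Lib.Helper70TwR6 Cfsg.Agent.Lib.Helper70TwR7

/-! ### assembly -/

/-- THEOREM R -/
theorem stab_form [Finite F] (hP : P.Ok) (j0 : J) (hj0 : P.A j0 = ⊤)
    (hpath : ∀ j, Relation.ReflTransGen (Lk P) j j0) {θ : Γ ≃* Γ} (hθ : P.Stab θ) :
    ∃ (c : J → F) (σ : F ≃+* F), (∀ j, c j ∈ P.A j ∧ c j ≠ 0) ∧ P.Acts θ (fun j a => c j * σ a) := by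
  obtain ⟨f, hf⟩ := exists_acts hP hθ
  obtain ⟨c, σ, hc, hfc, hσ⟩ := exists_sigma hP hf (fun i j a ha ha0 u hu => torus_rel hP hf i j a ha ha0 u hu)
    (fun A g a b c d e => ring_of_sq_sub A g a b c d e)
  obtain ⟨σ0, h0⟩ := common_sigma hP σ hσ j0 hj0 hpath
  refine ⟨c, σ0, hc, ?_⟩
  have key : ∀ j, ∀ a ∈ P.A j, f j a = c j * σ0 a := by
    intro j a ha
    have := hfc j ⟨a, ha⟩
    rw [h0] at this
    exact this
  exact
    { mem := fun j a ha => by rw [← key j a ha]; exact hf.mem j a ha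
      pos := fun j a ha => by rw [← key j a ha]; exact hf.pos j a ha
      neg := fun j a ha h0 => by rw [← key j a ha]; exact hf.neg j a ha h0
      add := fun j a ha b hb => by
        rw [← key j a ha, ← key j b hb, ← key j _ (add_mem ha hb)]; exact hf.add j a ha b hb
      inj := fun j a ha h => hf.inj j a ha (by rw [key j a ha]; exact h)
      surj := fun j b hb => by
        obtain ⟨a, ha, h⟩ := hf.surj j b hb
        exact ⟨a, ha, by rw [← key j a ha]; exact h⟩ }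

end Cfsg.Agent.Lib.LeadTwR
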