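import Cfsg.Agent.Lib.LeadTwDefs3
import Cfsg.Agent.Lib.LeadTwT
import Cfsg.Agent.Lib.LeadTwR
import Cfsg.Agent.Lib.Helper17TwI1
import Cfsg.Agent.Lib.Helper67TwI
import Cfsg.Agent.Lib.Helper17TwI3
import Cfsg.Agent.Lib.Helper17TwI4
import Cfsg.Agent.Lib.Helper17TwI5
import Cfsg.Agent.Lib.Helper17TwI6
import Cfsg.Agent.Lib.Helper17TwE1
import Cfsg.Agent.Lib.Helper36TwI7
import Cfsg.Agent.Lib.Helper36TwI8
import Cfsg.Agent.Lib.Helper67TwE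
import Cfsg.Agent.Lib.Helper36TwI10
import Cfsg.Agent.Lib.Helper36TwI11
import Cfsg.Agent.Lib.Helper36TwI12
import Cfsg.Agent.Lib.Helper36TwI13
import Cfsg.Agent.Lib.Helper36TwI14
import Cfsg.Agent.Lib.Helper36TwI17
import Cfsg.Agent.Lib.Helper36TwI18
import Cfsg.Agent.Lib.Helper36TwI19
import Cfsg.Agent.Lib.Helper36TwI20
import Cfsg.Agent.Lib.Helper36TwI21
import Cfsg.Agent.Lib.Helper36TwI22
import Cfsg.Agent.Lib.LeadTwX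

set_option autoImplicit false
set_option linter.unusedVariables false
set_option linter.unusedSectionVars false

/-! PROJECT TW-AUT, part I: assembly. -/

namespace Cfsg.Agent.Lib.LeadTwI

open Subgroup Cfsg.Agent.Lib.Helper23Grp Cfsg.Agent.Lib.Helper23RG Cfsg.Agent.Lib.Helper23TG
  Cfsg.Agent.Lib.Helper23Tw Cfsg.Agent.Lib.Helper23Weyl Cfsg.Agent.Lib.LeadTwDefs

open Cfsg.Agent.Lib.Helper17TwI1 Cfsg.Agent.Lib.Helper67TwI Cfsg.Agent.Lib.Helper17TwI3 Cfsg.Agent.Lib.Helper17TwI4 Cfsg.Agent.Lib.Helper17TwI5 Cfsg.Agent.Lib.Helper17TwI6 Cfsg.Agent.Lib.Helper17TwE1 Cfsg.Agent.Lib.Helper36TwI7 Cfsg.Agent.Lib.Helper36TwI8 Cfsg.Agent.Lib.Helper67TwE Cfsg.Agent.Lib.Helper36TwI10 Cfsg.Agent.Lib.Helper36TwI11 Cfsg.Agent.Lib.Helper36TwI12 Cfsg.Agent.Lib.Helper36TwI13 Cfsg.Agent.Lib.Helper36TwI14 Cfsg.Agent.Lib.Helper36TwI17 Cfsg.Agent.Lib.Helper36TwI18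 Cfsg.Agent.Lib.Helper36TwI19 Cfsg.Agent.Lib.Helper36TwI20 Cfsg.Agent.Lib.Helper36TwI21 Cfsg.Agent.Lib.Helper36TwI22 Cfsg.Agent.Lib.LeadTwX

variable {𝔾 F R I R1 I1 : Type*} [Group 𝔾] [Field F] {S : RG 𝔾 F R I} {T : Tw S R1 I1}
  (ok : S.Ok) (hT : T.Ok) (hBV : ∀ g ∈ S.B, g ∈ S.V → g = 1) (hUN : ∀ g ∈ S.U, g ∈ S.N → g = 1)
  (rep : I1 → I) (hrep : ∀ J, rep J ∈ T.orb J)

include ok hT hBV hUN hrep

/-! ## assembly -/

theorem evOk : EvOk T rep where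
  at_rep J a ha := ev_rep ok hT hBV hUN rep hrep ha
  eq J t ht := ev_eq ok hT hBV hUN rep hrep ht
  add J := (ev_calc ok hT hBV hUN rep hrep J (fun a ha => ev_rep ok hT hBV hUN rep hrep ha)
    (fun t ht => ev_eq ok hT hBV hUN rep hrep ht)).1
  mul J := (ev_calc ok hT hBV hUN rep hrep J (fun a ha => ev_rep ok hT hBV hUN rep hrep ha)
    (fun t ht => ev_eq ok hT hBV hUN rep hrep ht)).2.1
  neg_inv J := (ev_calc ok hT hBV hUN rep hrep J (fun a ha => ev_rep ok hT hBV hUN rep hrep ha)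
    (fun t ht => ev_eq ok hT hBV hUN rep hrep ht)).2.2.1
  one J := (ev_calc ok hT hBV hUN rep hrep J (fun a ha => ev_rep ok hT hBV hUN rep hrep ha)
    (fun t ht => ev_eq ok hT hBV hUN rep hrep ht)).2.2.2.1
  ne J := (ev_calc ok hT hBV hUN rep hrep J (fun a ha => ev_rep ok hT hBV hUN rep hrep ha)
    (fun t ht => ev_eq ok hT hBV hUN rep hrep ht)).2.2.2.2

section W

variable {rf : R1 → R1 → R1} {pr : R1 → R1 → ℤ} [Fintype R1] [DecidableEq R1]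
  (hW : (TG.ws (Tw.tg0_ok ok hT hBV hUN) rf pr).Ok)
  {π0 : Equiv.Perm R1} (hπ0 : π0 ∈ (TG.ws (Tw.tg0_ok ok hT hBV hUN) rf pr).WJ Set.univ)
  (h0 : ∀ r, T.pos1 r → ¬ T.pos1 (π0 r))

include hW hπ0 h0

theorem U_le : (Tw.tg0 ok hT).U ≤ T.G1 := by
  rw [← Tw.U_inf ok hT hBV hUN hW hπ0 h0]
  exact inf_le_right

theorem S1_ok : (S1 ok hT).Ok :=
  pull_ok (Tw.tg0_ok ok hT hBV hUN) (U_le ok hT hBV hUN rep hrep hW hπ0 h0) (Tw.T0_le_G1 ok hT)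
    (pull_B (U_le ok hT hBV hUN rep hrep hW hπ0 h0) (Tw.T0_le_G1 ok hT)) (pull_N (Tw.T0_le_G1 ok hT))

theorem tdata
    (hsyl : ∀ Q : Subgroup ↥T.G1, Nat.card Q = Nat.card (S1 ok hT).U →
      ∃ g : ↥T.G1, Q = (S1 ok hT).U.map (MulAut.conj g).toMonoidHom) : TData (S1 ok hT) where
  ok := S1_ok ok hT hBV hUN rep hrep hW hπ0 h0
  top := pull_top (U_le ok hT hBV hUN rep hrep hW hπ0 h0) (Tw.T0_le_G1 ok hT) (Tw.G0_eq ok hT hBV hUN hW hπ0 h0)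
  hW := ⟨rf, pr, hW⟩
  n0 := by
    obtain ⟨n, hn, hM⟩ := TG.exists_Mon_of_mem (S1_ok ok hT hBV hUN rep hrep hW hπ0 h0) (rf := rf) (pr := pr)
      (J := Set.univ) (π := π0) hπ0
    exact ⟨n, mem_sup_right hn, π0, hM, h0⟩
  ovr := ovr (S1_ok ok hT hBV hUN rep hrep hW hπ0 h0)
    (pull_top (U_le ok hT hBV hUN rep hrep hW hπ0 h0) (Tw.T0_le_G1 ok hT) (Tw.G0_eq ok hT hBV hUN hW hπ0 h0))
  syl := hsyl
  nUi := nUi ok hT hBV hUN rep hrep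

end W

theorem ta_ok [Finite 𝔾] [Fintype R1] [DecidableEq R1] (hD : TData (S1 ok hT))
    (hA2 : ∀ i, S.A i (S.simple i) = 2)
    (hA0 : ∀ J, ∀ i ∈ T.orb J, ∀ j ∈ T.orb J, i ≠ j → S.A i (S.simple j) = 0) : (ta T rep).Ok := by
  have hE := evOk ok hT hBV hUN rep hrep
  have h8a := mem_X_iff ok hT hBV hUN rep hrep hE.eq
  have h8b := mem_Y_iff ok hT hBV hUN rep hrep hE.eq
  have h9 := fun J => coe_nh ok hT hBV hUN rep hrep J (hE.neg_inv J) (hE.one J)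
  have h10 : ∀ (J : I1) (c : I → F), (∀ i ∈ T.orb J, c i ≠ 0) → ∀ (r : R) (t : F),
      T.hJ J c * S.x r t * (T.hJ J c)⁻¹ = S.x r (((T.orb J).map (fun i => c i ^ S.A i r)).prod * t) :=
    fun J c hc r t => hJ_conj ok hT hBV hUN rep hrep J hc r t
  have h11 : ∀ (J J' : I1) (c : I → F), (∀ i ∈ T.orb J, c i ≠ 0) → T.Cmp J c →
      T.Cmp J' (fun i' => ((T.orb J).map (fun i => c i ^ S.A i (S.simple i'))).prod) :=
    fun J J' c hc hcmp => chi_cmp ok hT hBV hUN rep hrep J J' hc hcmp (h10 J c hc)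
  have h13 := ta_add_inj ok hT hBV hUN rep hrep hE
  have h15 := ta_chi ok hT hBV hUN rep hrep hE h11
  have hsw := ta_swap ok hT hBV hUN rep hrep hE hD.ok h8a h8b (fun J => (h9 J).2.1) (fun J => (h9 J).2.2)
  exact
    { x_add := h13.1
      y_add := h13.2.1
      x_inj := h13.2.2.1
      y_inj := h13.2.2.2
      h_x := ta_h_x ok hT hBV hUN rep hrep hE (fun J => (h9 J).2.2) h10 h11
      χ_mem := h15.1
      χ_one := h15.2.1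
      χ_mul := h15.2.2
      χ_self := fun j a ha => by
        have := chi_single ok hT hBV hUN rep hrep (J := j) (J' := j) 2 (hA2 _)
          (fun i hi hne => hA0 j i hi _ (hrep j) hne) ha (hE.at_rep j a ha)
        rw [this]; exact zpow_ofNat a 2
      swap := hsw
      uniq := ta_uniq ok hT hBV hUN rep hrep h8a h8b h13.2.1 h13.2.2.2 hsw
        (fun j a y y' ha hy hy' hm hm' => Cfsg.Agent.Lib.Helper39TwT15.rank_one_unique hD j ha hy hy' hm hm')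
      gen := ta_gen ok hT hBV hUN rep hrep hE }

/-- a link -/
theorem lk_of {J J' : I1} (h1 : S.A (rep J) (S.simple (rep J')) = -1)
    (h0 : ∀ i ∈ T.orb J, i ≠ rep J → S.A i (S.simple (rep J')) = 0) : Lk (ta T rep) J J' := by
  intro a ha _
  rw [chi_single ok hT hBV hUN rep hrep (-1) h1 h0 ha ((evOk ok hT hBV hUN rep hrep).at_rep J a ha), zpow_neg_one]

/-- existence -/
theorem exists_theta [Finite 𝔾] [Finite F] (hcov : ∀ i, ∃ J, i ∈ T.orb J)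
    (L : Subgroup 𝔾) (hx : ∀ r t, S.x r t ∈ L) (hGL : T.G1 ≤ L)
    (hΘ : ∀ (C : I → F) (σ : F ≃+* F), (∀ i, C i ≠ 0) → ∃ Θ : ↥L ≃* ↥L,
      (∀ i t, (Θ ⟨S.x (S.simple i) t, hx _ _⟩ : 𝔾) = S.x (S.simple i) (C i * σ t)) ∧
      (∀ i t, (Θ ⟨S.x (S.neg (S.simple i)) t, hx _ _⟩ : 𝔾) = S.x (S.neg (S.simple i)) ((C i)⁻¹ * σ t)) ∧
      (∀ g : ↥L, (Θ g : 𝔾) ∈ S.U ↔ (g : 𝔾) ∈ S.U) ∧ (∀ g : ↥L, (Θ g : 𝔾) ∈ S.V ↔ (g : 𝔾) ∈ S.V))
    (hσφ : ∀ (σ : F ≃+* F) t, σ (T.φ t) = T.φ (σ t))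
    (c : I1 → F) (σ : F ≃+* F) (hc : ∀ j, c j ∈ (ta T rep).A j ∧ c j ≠ 0) :
    ∃ θ, Nrm (S1 ok hT) θ ∧ (ta T rep).Acts θ (fun j a => c j * σ a) := by
  have hE := evOk ok hT hBV hUN rep hrep
  obtain ⟨C, hC0, hC, hCc⟩ := exists_C ok hT hBV hUN rep hrep hE hcov c hc
  obtain ⟨Θ, hp, hn, hU, hV⟩ := hΘ C σ hC0
  have h2 := theta_yy ok hT hBV hUN rep hrep L hx Θ C σ hp hn
  obtain ⟨θ, hθ⟩ := exists_restrict L T.G1 hGL Θ (theta_G1 ok hT hBV hUN rep hrep L hGL Θ C σ hC (hσφ σ) h2)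
  refine ⟨θ, ⟨fun g => ?_, fun g => ?_⟩, ?_⟩
  · rw [(mem_S1_UV ok hT hBV hUN rep hrep _).1, (mem_S1_UV ok hT hBV hUN rep hrep _).1, hθ, hU]
  · rw [(mem_S1_UV ok hT hBV hUN rep hrep _).2, (mem_S1_UV ok hT hBV hUN rep hrep _).2, hθ, hV]
  · have := theta_acts ok hT hBV hUN rep hrep hE L hGL Θ C σ hC0 hC (hσφ σ) h2 θ hθ
    simp only [hCc] at this
    exact this

/-- THEOREM I -/
theorem card_out_abs [Finite 𝔾] [Finite F] [Fintype I1] [Fintype R1] [DecidableEq R1]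
    (hD : TData (S1 ok hT))
    (hA2 : ∀ i, S.A i (S.simple i) = 2)
    (hA0 : ∀ J, ∀ i ∈ T.orb J, ∀ j ∈ T.orb J, i ≠ j → S.A i (S.simple j) = 0)
    (hZ : ∀ z : ↥T.G1, (∀ g, z * g = g * z) → z = 1)
    (hrig : ∀ (θ : ↥T.G1 ≃* ↥T.G1) (ρ : Equiv.Perm I1), Perms (S1 ok hT) θ ρ → ρ = 1)
    (j0 : I1) (hj0 : T.Adm (rep j0) = Set.univ) (hpath : ∀ j, Relation.ReflTransGen (Lk (ta T rep)) j j0)
    (hcov : ∀ i, ∃ J, i ∈ T.orb J)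
    (L : Subgroup 𝔾) (hx : ∀ r t, S.x r t ∈ L) (hGL : T.G1 ≤ L)
    (hΘ : ∀ (C : I → F) (σ : F ≃+* F), (∀ i, C i ≠ 0) → ∃ Θ : ↥L ≃* ↥L,
      (∀ i t, (Θ ⟨S.x (S.simple i) t, hx _ _⟩ : 𝔾) = S.x (S.simple i) (C i * σ t)) ∧
      (∀ i t, (Θ ⟨S.x (S.neg (S.simple i)) t, hx _ _⟩ : 𝔾) = S.x (S.neg (S.simple i)) ((C i)⁻¹ * σ t)) ∧
      (∀ g : ↥L, (Θ g : 𝔾) ∈ S.U ↔ (g : 𝔾) ∈ S.U) ∧ (∀ g : ↥L, (Θ g : 𝔾) ∈ S.V ↔ (g : 𝔾) ∈ S.V))
    (hσφ : ∀ (σ : F ≃+* F) t, σ (T.φ t) = T.φ (σ t)) :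
    Nat.card (Cfsg.Out ↥T.G1) * Nat.card T.T0 = (∏ J, (Nat.card (T.Adm (rep J)) - 1)) * Nat.card (F ≃+* F) := by
  have hP := ta_ok ok hT hBV hUN rep hrep hD hA2 hA0
  have hE := evOk ok hT hBV hUN rep hrep
  have hj0' : (ta T rep).A j0 = ⊤ := by
    apply SetLike.coe_injective
    exact hj0
  have h1 := LeadTwT.card_out' hD hZ
  have h2 := Cfsg.Agent.Lib.Helper70TwR7.card_good hP (Nrm (S1 ok hT)) j0 hj0'
    (fun θ hθ => by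
      obtain ⟨ρ, hρ⟩ := LeadTwT.exists_perms hD hθ
      have e := hrig θ ρ hρ
      subst e
      apply LeadTwR.stab_form hP j0 hj0' hpath
      intro j g
      rw [mem_X_iff ok hT hBV hUN rep hrep hE.eq, mem_X_iff ok hT hBV hUN rep hrep hE.eq,
        mem_Y_iff ok hT hBV hUN rep hrep hE.eq, mem_Y_iff ok hT hBV hUN rep hrep hE.eq]
      exact hρ j g)
    (fun c σ hc => exists_theta ok hT hBV hUN rep hrep hcov L hx hGL hΘ hσφ c σ hc)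
    (fun θ θ' f h h' => Cfsg.Agent.Lib.Helper70TwR6.acts_unique hP h h')
  have e1 : Nat.card (S1 ok hT).H = Nat.card T.T0 :=
    Nat.card_congr (Subgroup.subgroupOfEquivOfLe (Tw.T0_le_G1 ok hT)).toEquiv
  rw [e1, h2] at h1
  exact h1

end Cfsg.Agent.Lib.LeadTwI
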