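import Cfsg.Agent.Lib.Helper23Cox

set_option autoImplicit false
set_option linter.unusedSectionVars false
set_option linter.unusedVariables false
set_option linter.unusedSimpArgs false

/-! The centre of a finite irreducible reflection group given by packed tables. -/

namespace Cfsg.Agent.Lib.LeadWeylCenter

open Cfsg.Agent.Lib.Helper22ChevEngine Cfsg.Agent.Lib.Helper23Weyl Cfsg.Agent.Lib.Helper23Fast
open Cfsg.Agent.Lib.Helper23Cox

section abs

variable {R I : Type*} {W : WS R I} (ok : W.Ok)
include ok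

theorem neg_neg_simple (i : I) : W.neg (W.neg (W.simple i)) = W.simple i := by
  have h1 := ok.s_neg i (W.simple i)
  rw [ok.s_simple] at h1
  rw [← h1, ← ok.s_simple, ok.s_sq]

theorem central_simple {w : Equiv.Perm R} (hw : w ∈ W.WJ Set.univ) (i : I)
    (hc : w * W.s i = W.s i * w) :
    w (W.simple i) = W.simple i ∨ w (W.simple i) = W.neg (W.simple i) := by
  have h1 : W.s i (w (W.simple i)) = W.neg (w (W.simple i)) := by
    have := congrArg (fun π : Equiv.Perm R => π (W.simple i)) hc
    simp only [Equiv.Perm.mul_apply] at this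
    rw [← this, ok.s_simple, WS.mem_neg ok hw]
  by_cases hp : W.pos (w (W.simple i))
  · left
    by_contra hne
    have h2 := ok.s_pos i _ hp hne
    rw [h1, ok.pos_neg] at h2
    exact h2 hp
  · right
    have hp' : W.pos (W.neg (w (W.simple i))) := (ok.pos_neg _).2 hp
    have h3 : W.neg (w (W.simple i)) = W.simple i := by
      by_contra hne
      have h2 := ok.s_pos i _ hp' hne
      rw [ok.s_neg, h1, ok.pos_neg] at h2
      exact h2 hp'
    have h4 := ok.s_sq i (w (W.simple i))
    rw [h1, h3, ok.s_simple] at h4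
    exact h4.symm

theorem sign_compat {w : Equiv.Perm R} (hw : w ∈ W.WJ Set.univ) (a b : I)
    (ha : w (W.simple a) = W.simple a) (hb : w (W.simple b) = W.neg (W.simple b)) :
    W.pr (W.simple a) (W.simple b) = 0 := by
  have h := WS.mem_pr ok hw (W.simple a) (W.simple b)
  rw [ha, hb, ok.pr_neg] at h
  omega

theorem eq_one_of_fix {w : Equiv.Perm R} (hw : w ∈ W.WJ Set.univ)
    (h : ∀ i, w (W.simple i) = W.simple i) : w = 1 := by
  by_contra h1
  obtain ⟨i, _, hi⟩ := WS.exists_descent ok hw h1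
  rw [h i] at hi
  exact hi (ok.pos_simple i)

theorem mul_eq_one_of_neg {w π : Equiv.Perm R} (hw : w ∈ W.WJ Set.univ) (hπ : π ∈ W.WJ Set.univ)
    (h : ∀ i, w (W.simple i) = W.neg (W.simple i))
    (h' : ∀ i, ∃ j, π (W.simple i) = W.neg (W.simple j)) : w * π = 1 := by
  by_contra h1
  obtain ⟨i, _, hi⟩ := WS.exists_descent ok (mul_mem hw hπ) h1
  obtain ⟨j, hj⟩ := h' i
  rw [Equiv.Perm.mul_apply, hj, WS.mem_neg ok hw, h j, neg_neg_simple ok] at hi
  exact hi (ok.pos_simple j)

end abs

/-- connectivity certificate of the Dynkin diagram: every entry `(a, b)` links the new vertex `b` to a vertex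
`a` that was reached before -/
noncomputable def connChk (P : FT) : List (ℕ × ℕ) → List ℕ → Bool
  | [], seen => allLt P.l (fun j => seen.elem j)
  | e :: t, seen => seen.elem e.1 && Nat.blt e.1 P.l && Nat.blt e.2 P.l &&
      !(Nat.beq (P.pr (P.simp e.1) (P.simp e.2)) 8) && !(Nat.beq (P.pr (P.simp e.2) (P.simp e.1)) 8) &&
      connChk P t (e.2 :: seen)

variable {P : FT} (hv : P.Valid)

theorem conn_of_chk (f : ℕ → Prop) (p : Prop)
    (hf : ∀ a < P.l, ∀ b < P.l, P.pr (P.simp a) (P.simp b) ≠ 8 → P.pr (P.simp b) (P.simp a) ≠ 8 →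
      (f a ↔ f b)) :
    ∀ (es : List (ℕ × ℕ)) (seen : List ℕ), (∀ j ∈ seen, (f j ↔ p)) → connChk P es seen = true →
      ∀ j < P.l, (f j ↔ p)
  | [], seen, hs, h => by
    simp only [connChk, allLt_iff, List.elem_eq_mem, decide_eq_true_eq] at h
    exact fun j hj => hs j (h j hj)
  | e :: t, seen, hs, h => by
    simp only [connChk, Bool.and_eq_true, Bool.not_eq_true', FT.nbeq_false_iff, FT.blt_iff,
      List.elem_eq_mem, decide_eq_true_eq] at h
    obtain ⟨⟨⟨⟨⟨h1, h2⟩, h3⟩, h4⟩, h5⟩, h6⟩ := h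
    refine conn_of_chk f p hf t (e.2 :: seen) ?_ h6
    intro j hj
    rcases List.mem_cons.1 hj with rfl | hj
    · exact (hf _ h2 _ h3 h4 h5).symm.trans (hs _ h1)
    · exact hs j hj

theorem central_cases (es : List (ℕ × ℕ)) (hconn : connChk P es [0] = true)
    {w : Equiv.Perm (Fin P.n)} (hw : w ∈ (FT.W hv).WJ Set.univ)
    (hc : ∀ i, w * (FT.W hv).s i = (FT.W hv).s i * w) :
    (∀ i, w ((FT.W hv).simple i) = (FT.W hv).simple i) ∨
      (∀ i, w ((FT.W hv).simple i) = (FT.W hv).neg ((FT.W hv).simple i)) := by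
  have ok := FT.W_ok hv
  set f : ℕ → Prop := fun j => ∀ h : j < P.l, w ((FT.W hv).simple ⟨j, h⟩) = (FT.W hv).simple ⟨j, h⟩ with hfdef
  have key : ∀ a (ha : a < P.l) b (hb : b < P.l), P.pr (P.simp a) (P.simp b) ≠ 8 → f a → f b := by
    intro a ha b hb h8 hfa _
    rcases central_simple ok hw ⟨b, hb⟩ (hc _) with h | h
    · exact h
    · exfalso
      have h0 := sign_compat ok hw ⟨a, ha⟩ ⟨b, hb⟩ (hfa ha) h
      simp only [FT.W] at h0
      omega
  have hf : ∀ a < P.l, ∀ b < P.l, P.pr (P.simp a) (P.simp b) ≠ 8 → P.pr (P.simp b) (P.simp a) ≠ 8 →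
      (f a ↔ f b) := fun a ha b hb h1 h2 => ⟨key a ha b hb h1, key b hb a ha h2⟩
  have hall := conn_of_chk f (f 0) hf es [0] (by intro j hj; rw [List.mem_singleton.1 hj]) hconn
  by_cases h0 : f 0
  · left
    intro i
    exact (hall i i.2).2 h0 i.2
  · right
    intro i
    rcases central_simple ok hw i (hc i) with h | h
    · exact absurd ((hall i i.2).1 (fun _ => h)) h0
    · exact h

theorem phi_cox (M : CoxeterMatrix (Fin P.l)) (φ : M.Group →* Equiv.Perm (Fin P.n))
    (hφs : ∀ i, φ (M.simple i) = (FT.W hv).s i) :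
    φ ((List.finRange P.l).map M.simple).prod = (FT.W hv).wp (List.finRange P.l) := by
  rw [map_list_prod, List.map_map, WS.wp]
  congr 1
  apply List.map_congr_left
  intro i _
  exact hφs i

/-- centre of order two, generated by a power of the Coxeter element -/
theorem center_two (M : CoxeterMatrix (Fin P.l)) (φ : M.Group →* Equiv.Perm (Fin P.n))
    (hinj : Function.Injective φ) (hrange : φ.range = (FT.W hv).WJ Set.univ)
    (hφs : ∀ i, φ (M.simple i) = (FT.W hv).s i) (es : List (ℕ × ℕ)) (hconn : connChk P es [0] = true)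
    (k : ℕ)
    (hchk : (Nat.blt 0 P.n && allLt P.n (fun r => Nat.beq (itW P (List.range P.l) k r) (P.ng r))) = true) :
    Nat.card (Subgroup.center M.Group) = 2 ∧
      Subgroup.center M.Group ≤ Subgroup.zpowers ((List.finRange P.l).map M.simple).prod := by
  have ok := FT.W_ok hv
  simp only [Bool.and_eq_true, allLt_iff, FT.beq_iff, FT.blt_iff] at hchk
  obtain ⟨hn, h3⟩ := hchk
  set c := ((List.finRange P.l).map M.simple).prod with hcdef
  have e : φ c = (FT.W hv).wp (List.finRange P.l) := phi_cox hv M φ hφs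
  have hz : ∀ r, φ (c ^ k) r = (FT.W hv).neg r := by
    intro r
    apply Fin.ext
    rw [map_pow, e, wp_pow_val, List.map_coe_finRange_eq_range]
    exact h3 r r.2
  have hmem : ∀ g, φ g ∈ (FT.W hv).WJ Set.univ := fun g => hrange ▸ ⟨g, rfl⟩
  have hzc : c ^ k ∈ Subgroup.center M.Group := by
    rw [Subgroup.mem_center_iff]
    intro g
    apply hinj
    rw [map_mul, map_mul]
    refine Equiv.ext fun r => ?_
    rw [Equiv.Perm.mul_apply, Equiv.Perm.mul_apply, hz, hz, WS.mem_neg ok (hmem g)]
  have hz1 : c ^ k ≠ 1 := by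
    intro h
    have h5 := hz ⟨0, hn⟩
    rw [h, map_one] at h5
    have h6 := congrArg Fin.val h5
    simp only [FT.W, Equiv.Perm.coe_one, id_eq] at h6
    have := hv.even
    omega
  have hall : ∀ x ∈ Subgroup.center M.Group, x = 1 ∨ x = c ^ k := by
    intro x hx
    rw [Subgroup.mem_center_iff] at hx
    have hc : ∀ i, φ x * (FT.W hv).s i = (FT.W hv).s i * φ x := by
      intro i
      rw [← hφs, ← map_mul, ← map_mul, hx]
    rcases central_cases hv es hconn (hmem x) hc with h | h
    · left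
      apply hinj
      rw [map_one]
      exact eq_one_of_fix ok (hmem x) h
    · right
      apply hinj
      have h1 : φ x * φ (c ^ k) = 1 :=
        mul_eq_one_of_neg ok (hmem x) (hmem _) h (fun i => ⟨i, hz _⟩)
      have h2 : φ (c ^ k) * φ (c ^ k) = 1 :=
        mul_eq_one_of_neg ok (hmem _) (hmem _) (fun i => hz _) (fun i => ⟨i, hz _⟩)
      exact mul_right_cancel (h1.trans h2.symm)
  constructor
  · rw [Nat.card_eq_two_iff]
    refine ⟨⟨1, one_mem _⟩, ⟨c ^ k, hzc⟩, ?_, ?_⟩
    · intro h
      exact hz1 (congrArg Subtype.val h).symm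
    · ext x
      simp only [Set.mem_insert_iff, Set.mem_singleton_iff, Set.mem_univ, iff_true]
      rcases hall x.1 x.2 with h | h
      · left; exact Subtype.ext h
      · right; exact Subtype.ext h
  · intro x hx
    rcases hall x hx with rfl | rfl
    · exact one_mem _
    · exact Subgroup.pow_mem _ (Subgroup.mem_zpowers _) _

/-- trivial centre: the longest element does not negate all the simple roots -/
theorem center_one (M : CoxeterMatrix (Fin P.l)) (φ : M.Group →* Equiv.Perm (Fin P.n))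
    (hinj : Function.Injective φ) (hrange : φ.range = (FT.W hv).WJ Set.univ)
    (hφs : ∀ i, φ (M.simple i) = (FT.W hv).s i) (es : List (ℕ × ℕ)) (hconn : connChk P es [0] = true)
    (w0 : List ℕ)
    (hchk : (w0.all (fun i => Nat.blt i P.l) &&
      allLt P.l (fun i => anyLt P.l (fun j => Nat.beq (P.applyWord w0 (P.simp i)) (P.ng (P.simp j)))) &&
      anyLt P.l (fun i => !(Nat.beq (P.applyWord w0 (P.simp i)) (P.ng (P.simp i))))) = true) :
    Nat.card (Subgroup.center M.Group) = 1 ∧
      Subgroup.center M.Group ≤ Subgroup.zpowers ((List.finRange P.l).map M.simple).prod := by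
  have ok := FT.W_ok hv
  simp only [Bool.and_eq_true, allLt_iff, anyLt_iff, FT.beq_iff, FT.blt_iff, List.all_eq_true,
    Bool.not_eq_true', FT.nbeq_false_iff] at hchk
  obtain ⟨⟨h1, h2⟩, i0, hi0, h3⟩ := hchk
  obtain ⟨π, hπ, hπv⟩ := FT.exists_word_perm hv w0 h1
  have hmem : ∀ g, φ g ∈ (FT.W hv).WJ Set.univ := fun g => hrange ▸ ⟨g, rfl⟩
  have hall : ∀ x ∈ Subgroup.center M.Group, x = 1 := by
    intro x hx
    rw [Subgroup.mem_center_iff] at hx
    have hc : ∀ i, φ x * (FT.W hv).s i = (FT.W hv).s i * φ x := by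
      intro i
      rw [← hφs, ← map_mul, ← map_mul, hx]
    rcases central_cases hv es hconn (hmem x) hc with h | h
    · apply hinj
      rw [map_one]
      exact eq_one_of_fix ok (hmem x) h
    · exfalso
      have h4 : φ x * π = 1 := by
        refine mul_eq_one_of_neg ok (hmem x) hπ h (fun i => ?_)
        obtain ⟨j, hj, hij⟩ := h2 i i.2
        refine ⟨⟨j, hj⟩, Fin.ext ?_⟩
        rw [hπv]
        exact hij
      have h5 := congrArg (fun σ : Equiv.Perm (Fin P.n) => σ ((FT.W hv).simple ⟨i0, hi0⟩)) h4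
      simp only [Equiv.Perm.mul_apply, Equiv.Perm.coe_one, id_eq] at h5
      have h6 : φ x ((FT.W hv).neg ((FT.W hv).simple ⟨i0, hi0⟩)) = (FT.W hv).simple ⟨i0, hi0⟩ := by
        rw [WS.mem_neg ok (hmem x), h, neg_neg_simple ok]
      have h7 := (φ x).injective (h5.trans h6.symm)
      apply h3
      have h8 := congrArg Fin.val h7
      rw [hπv] at h8
      exact h8
  have hbot : Subgroup.center M.Group = ⊥ := (Subgroup.eq_bot_iff_forall _).2 hall
  rw [hbot]
  exact ⟨Subgroup.card_bot, bot_le⟩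

end Cfsg.Agent.Lib.LeadWeylCenter
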