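import Cfsg.Agent.Lib.LeadWeylCenter
import Cfsg.Agent.Lib.Helper23CoxB2
import Cfsg.Agent.Lib.Helper23CoxG2
import Cfsg.Agent.Lib.Helper23CoxD4
import Cfsg.Agent.Lib.Helper23CoxF4
import Cfsg.Agent.Lib.Helper23CoxE6
import Cfsg.Agent.Lib.Helper23CoxE7
import Cfsg.Agent.Lib.Helper23CoxE8

set_option autoImplicit false
set_option maxRecDepth 1000000

/-! The centres of the Coxeter groups of types B2, G2, D4, F4, E6, E7, E8. -/

namespace Cfsg.Agent.Lib.LeadWeylCenterT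

open Cfsg.Agent.Lib.Helper22ChevEngine Cfsg.Agent.Lib.Helper23Weyl Cfsg.Agent.Lib.Helper23Fast
open Cfsg.Agent.Lib.Helper23Cox Cfsg.Agent.Lib.LeadWeylCenter

theorem connB2 : connChk Cfsg.Agent.Lib.Helper23FastB2.P [(0, 1)] [0] = true := by decide +kernel

theorem chkB2 : (Nat.blt 0 Cfsg.Agent.Lib.Helper23FastB2.P.n && allLt Cfsg.Agent.Lib.Helper23FastB2.P.n (fun r =>
    Nat.beq (itW Cfsg.Agent.Lib.Helper23FastB2.P (List.range Cfsg.Agent.Lib.Helper23FastB2.P.l) 2 r) (Cfsg.Agent.Lib.Helper23FastB2.P.ng r))) = true := by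
  decide +kernel

theorem centerB2 : Nat.card (Subgroup.center (CoxeterMatrix.B 2).Group) = 2 ∧
    Subgroup.center (CoxeterMatrix.B 2).Group ≤ Subgroup.zpowers ((List.finRange 2).map (CoxeterMatrix.B 2).simple).prod := by
  obtain ⟨φ, h1, h2, h3, _⟩ := Cfsg.Agent.Lib.Helper23CoxB2.main
  exact center_two Cfsg.Agent.Lib.Helper23FastB2.valid Cfsg.Agent.Lib.Helper23CoxB2.M φ h1 h2 h3 _ connB2 2 chkB2

theorem connG2 : connChk Cfsg.Agent.Lib.Helper23FastG2.P [(0, 1)] [0] = true := by decide +kernel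

theorem chkG2 : (Nat.blt 0 Cfsg.Agent.Lib.Helper23FastG2.P.n && allLt Cfsg.Agent.Lib.Helper23FastG2.P.n (fun r =>
    Nat.beq (itW Cfsg.Agent.Lib.Helper23FastG2.P (List.range Cfsg.Agent.Lib.Helper23FastG2.P.l) 3 r) (Cfsg.Agent.Lib.Helper23FastG2.P.ng r))) = true := by
  decide +kernel

theorem centerG2 : Nat.card (Subgroup.center (CoxeterMatrix.G₂).Group) = 2 ∧
    Subgroup.center (CoxeterMatrix.G₂).Group ≤ Subgroup.zpowers ((List.finRange 2).map (CoxeterMatrix.G₂).simple).prod := by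
  obtain ⟨φ, h1, h2, h3, _⟩ := Cfsg.Agent.Lib.Helper23CoxG2.main
  exact center_two Cfsg.Agent.Lib.Helper23FastG2.valid Cfsg.Agent.Lib.Helper23CoxG2.M φ h1 h2 h3 _ connG2 3 chkG2

theorem connD4 : connChk Cfsg.Agent.Lib.Helper23FastD4.P [(0, 1), (1, 2), (1, 3)] [0] = true := by decide +kernel

theorem chkD4 : (Nat.blt 0 Cfsg.Agent.Lib.Helper23FastD4.P.n && allLt Cfsg.Agent.Lib.Helper23FastD4.P.n (fun r =>
    Nat.beq (itW Cfsg.Agent.Lib.Helper23FastD4.P (List.range Cfsg.Agent.Lib.Helper23FastD4.P.l) 3 r) (Cfsg.Agent.Lib.Helper23FastD4.P.ng r))) = true := by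
  decide +kernel

theorem centerD4 : Nat.card (Subgroup.center (Cfsg.Lie.coxeterD4).Group) = 2 ∧
    Subgroup.center (Cfsg.Lie.coxeterD4).Group ≤ Subgroup.zpowers ((List.finRange 4).map (Cfsg.Lie.coxeterD4).simple).prod := by
  obtain ⟨φ, h1, h2, h3, _⟩ := Cfsg.Agent.Lib.Helper23CoxD4.main
  exact center_two Cfsg.Agent.Lib.Helper23FastD4.valid Cfsg.Agent.Lib.Helper23CoxD4.M φ h1 h2 h3 _ connD4 3 chkD4

theorem connF4 : connChk Cfsg.Agent.Lib.Helper23FastF4.P [(0, 1), (1, 2), (2, 3)] [0] = true := by decide +kernel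

theorem chkF4 : (Nat.blt 0 Cfsg.Agent.Lib.Helper23FastF4.P.n && allLt Cfsg.Agent.Lib.Helper23FastF4.P.n (fun r =>
    Nat.beq (itW Cfsg.Agent.Lib.Helper23FastF4.P (List.range Cfsg.Agent.Lib.Helper23FastF4.P.l) 6 r) (Cfsg.Agent.Lib.Helper23FastF4.P.ng r))) = true := by
  decide +kernel

theorem centerF4 : Nat.card (Subgroup.center (CoxeterMatrix.F₄).Group) = 2 ∧
    Subgroup.center (CoxeterMatrix.F₄).Group ≤ Subgroup.zpowers ((List.finRange 4).map (CoxeterMatrix.F₄).simple).prod := by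
  obtain ⟨φ, h1, h2, h3, _⟩ := Cfsg.Agent.Lib.Helper23CoxF4.main
  exact center_two Cfsg.Agent.Lib.Helper23FastF4.valid Cfsg.Agent.Lib.Helper23CoxF4.M φ h1 h2 h3 _ connF4 6 chkF4

theorem connE6 : connChk Cfsg.Agent.Lib.Helper23FastE6.P [(0, 2), (2, 3), (3, 1), (3, 4), (4, 5)] [0] = true := by decide +kernel

theorem chkE6 : ((Cfsg.Agent.Lib.Helper23FastE6.w0).all (fun i => Nat.blt i Cfsg.Agent.Lib.Helper23FastE6.P.l) &&
    allLt Cfsg.Agent.Lib.Helper23FastE6.P.l (fun i => anyLt Cfsg.Agent.Lib.Helper23FastE6.P.l (fun j =>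
      Nat.beq (Cfsg.Agent.Lib.Helper23FastE6.P.applyWord Cfsg.Agent.Lib.Helper23FastE6.w0 (Cfsg.Agent.Lib.Helper23FastE6.P.simp i)) (Cfsg.Agent.Lib.Helper23FastE6.P.ng (Cfsg.Agent.Lib.Helper23FastE6.P.simp j)))) &&
    anyLt Cfsg.Agent.Lib.Helper23FastE6.P.l (fun i =>
      !(Nat.beq (Cfsg.Agent.Lib.Helper23FastE6.P.applyWord Cfsg.Agent.Lib.Helper23FastE6.w0 (Cfsg.Agent.Lib.Helper23FastE6.P.simp i)) (Cfsg.Agent.Lib.Helper23FastE6.P.ng (Cfsg.Agent.Lib.Helper23FastE6.P.simp i))))) = true := by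
  decide +kernel

theorem centerE6 : Nat.card (Subgroup.center (CoxeterMatrix.E₆).Group) = 1 ∧
    Subgroup.center (CoxeterMatrix.E₆).Group ≤ Subgroup.zpowers ((List.finRange 6).map (CoxeterMatrix.E₆).simple).prod := by
  obtain ⟨φ, h1, h2, h3, _⟩ := Cfsg.Agent.Lib.Helper23CoxE6.main
  exact center_one Cfsg.Agent.Lib.Helper23FastE6.valid Cfsg.Agent.Lib.Helper23CoxE6.M φ h1 h2 h3 _ connE6 Cfsg.Agent.Lib.Helper23FastE6.w0 chkE6

theorem connE7 : connChk Cfsg.Agent.Lib.Helper23FastE7.P [(0, 2), (2, 3), (3, 1), (3, 4), (4, 5), (5, 6)] [0] = true := by decide +kernel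

theorem chkE7 : (Nat.blt 0 Cfsg.Agent.Lib.Helper23FastE7.P.n && allLt Cfsg.Agent.Lib.Helper23FastE7.P.n (fun r =>
    Nat.beq (itW Cfsg.Agent.Lib.Helper23FastE7.P (List.range Cfsg.Agent.Lib.Helper23FastE7.P.l) 9 r) (Cfsg.Agent.Lib.Helper23FastE7.P.ng r))) = true := by
  decide +kernel

theorem centerE7 : Nat.card (Subgroup.center (CoxeterMatrix.E₇).Group) = 2 ∧
    Subgroup.center (CoxeterMatrix.E₇).Group ≤ Subgroup.zpowers ((List.finRange 7).map (CoxeterMatrix.E₇).simple).prod := by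
  obtain ⟨φ, h1, h2, h3, _⟩ := Cfsg.Agent.Lib.Helper23CoxE7.main
  exact center_two Cfsg.Agent.Lib.Helper23FastE7.valid Cfsg.Agent.Lib.Helper23CoxE7.M φ h1 h2 h3 _ connE7 9 chkE7

theorem connE8 : connChk Cfsg.Agent.Lib.Helper23FastE8.P [(0, 2), (2, 3), (3, 1), (3, 4), (4, 5), (5, 6), (6, 7)] [0] = true := by decide +kernel

theorem chkE8 : (Nat.blt 0 Cfsg.Agent.Lib.Helper23FastE8.P.n && allLt Cfsg.Agent.Lib.Helper23FastE8.P.n (fun r =>
    Nat.beq (itW Cfsg.Agent.Lib.Helper23FastE8.P (List.range Cfsg.Agent.Lib.Helper23FastE8.P.l) 15 r) (Cfsg.Agent.Lib.Helper23FastE8.P.ng r))) = true := by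
  decide +kernel

theorem centerE8 : Nat.card (Subgroup.center (CoxeterMatrix.E₈).Group) = 2 ∧
    Subgroup.center (CoxeterMatrix.E₈).Group ≤ Subgroup.zpowers ((List.finRange 8).map (CoxeterMatrix.E₈).simple).prod := by
  obtain ⟨φ, h1, h2, h3, _⟩ := Cfsg.Agent.Lib.Helper23CoxE8.main
  exact center_two Cfsg.Agent.Lib.Helper23FastE8.valid Cfsg.Agent.Lib.Helper23CoxE8.M φ h1 h2 h3 _ connE8 15 chkE8

end Cfsg.Agent.Lib.LeadWeylCenterT
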